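import Cfsg.Statements.S0561
import Cfsg.Agent.Lib.Helper1.Hall
import Cfsg.Agent.Lib.Helper5.CoprimeIndex
import Cfsg.Agent.Lib.Helper5.Kegel

set_option autoImplicit false
open Cfsg
open scoped Pointwise

namespace Cfsg.Agent.S0561

open Cfsg.Agent.Lib.Helper5

/-- Let the finite solvable group G be the product HK of subgroups, and let A be normal in H and B normal in K, where A and B are Hall subgroups of G (order coprime to index). Then for all x, y the product set of xAx⁻¹ and yBy⁻¹ is a subgroup of G. -/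
theorem result {G : Type*} [Group G] [Finite G] [Group.IsSolvable G] (H K A B : Subgroup G) (hHK : ∀ g : G, ∃ h ∈ H, ∃ k ∈ K, g = h * k) (hA : A ≤ H) (hAn : (A.subgroupOf H).Normal) (hB : B ≤ K) (hBn : (B.subgroupOf K).Normal) (hAh : (Nat.card A).Coprime A.index) (hBh : (Nat.card B).Coprime B.index) (x y : G) : ∃ S : Subgroup G, (S : Set G) = ((MulAut.conj x • A : Subgroup G) : Set G) * ((MulAut.conj y • B : Subgroup G) : Set G) := by
  classical
  have hHnA : H ≤ Subgroup.normalizer (A : Set G) :=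
    (Subgroup.normal_subgroupOf_iff_le_normalizer hA).mp hAn
  have hKnB : K ≤ Subgroup.normalizer (B : Set G) :=
    (Subgroup.normal_subgroupOf_iff_le_normalizer hB).mp hBn
  have hconjA : ∀ h ∈ H, ∀ z ∈ A, h * z * h⁻¹ ∈ A :=
    fun h hh z hz => (Subgroup.mem_normalizer_iff.mp (hHnA hh) z).mp hz
  have hconjB : ∀ k ∈ K, ∀ z ∈ B, k * z * k⁻¹ ∈ B :=
    fun k hk z hz => (Subgroup.mem_normalizer_iff.mp (hKnB hk) z).mp hz
  have key : ∃ S : Subgroup G, ∀ s, s ∈ S ↔ ∃ a ∈ A, ∃ b ∈ B, s = a * b := by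
    have hmG : Nat.lcm (Nat.card A) (Nat.card B) ∣ Nat.card G :=
      Nat.lcm_dvd (Subgroup.card_subgroup_dvd_card A) (Subgroup.card_subgroup_dvd_card B)
    obtain ⟨n, hn⟩ := hmG
    have hpdvd : ∀ p : ℕ, p.Prime → p ∣ Nat.lcm (Nat.card A) (Nat.card B) →
        p ∣ Nat.card A ∨ p ∣ Nat.card B := by
      intro p hp hpm
      exact (Nat.Prime.dvd_mul hp).mp (dvd_trans hpm (Nat.lcm_dvd_mul _ _))
    have hcop : Nat.Coprime (Nat.lcm (Nat.card A) (Nat.card B)) n := by
      apply Nat.coprime_of_dvd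
      intro p hp hpm hpn
      rcases hpdvd p hp hpm with h | h
      · have h2 : p ∣ A.index := by
          obtain ⟨t, ht⟩ := Nat.dvd_lcm_left (Nat.card A) (Nat.card B)
          have h3 := Subgroup.card_mul_index A
          have h4 : A.index = t * n := by
            have h5 : Nat.card A * A.index = Nat.card A * (t * n) := by
              rw [h3, hn, ht]; ring
            exact Nat.eq_of_mul_eq_mul_left Nat.card_pos h5
          rw [h4]; exact Dvd.dvd.mul_left hpn t
        exact hp.ne_one (Nat.eq_one_of_dvd_coprimes hAh h h2)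
      · have h2 : p ∣ B.index := by
          obtain ⟨t, ht⟩ := Nat.dvd_lcm_right (Nat.card A) (Nat.card B)
          have h3 := Subgroup.card_mul_index B
          have h4 : B.index = t * n := by
            have h5 : Nat.card B * B.index = Nat.card B * (t * n) := by
              rw [h3, hn, ht]; ring
            exact Nat.eq_of_mul_eq_mul_left Nat.card_pos h5
          rw [h4]; exact Dvd.dvd.mul_left hpn t
        exact hp.ne_one (Nat.eq_one_of_dvd_coprimes hBh h h2)
    obtain ⟨-, hconj, hcont⟩ := Cfsg.Agent.Lib.Helper1.hall_aux (Nat.card G) G le_rfl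
      (Nat.lcm (Nat.card A) (Nat.card B)) n hn hcop
    have hAn' : (Nat.card A).Coprime n :=
      Nat.Coprime.coprime_dvd_left (Nat.dvd_lcm_left _ _) hcop
    have hBn' : (Nat.card B).Coprime n :=
      Nat.Coprime.coprime_dvd_left (Nat.dvd_lcm_right _ _) hcop
    obtain ⟨S₀, hS₀, hAS₀⟩ := hcont A hAn'
    obtain ⟨S₁, hS₁, hBS₁⟩ := hcont B hBn'
    obtain ⟨g, hg⟩ := hconj S₀ S₁ hS₀ hS₁
    obtain ⟨h₀, hh₀, k₀, hk₀, e⟩ := hHK g⁻¹
    have hg' : g = k₀⁻¹ * h₀⁻¹ := by
      have := congrArg Inv.inv e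
      simpa using this
    subst hg'
    have hAS : A ≤ MulAut.conj h₀⁻¹ • S₀ := by
      intro z hz
      rw [mem_conj_smul_iff]
      apply hAS₀
      have h1 := hconjA h₀ hh₀ z hz
      simpa using h1
    have hBS : B ≤ MulAut.conj h₀⁻¹ • S₀ := by
      intro z hz
      rw [mem_conj_smul_iff]
      have hz' : k₀⁻¹ * z * k₀ ∈ B := by
        have h1 := hconjB k₀⁻¹ (K.inv_mem hk₀) z hz
        simpa using h1
      have h1 : k₀⁻¹ * z * k₀ ∈ MulAut.conj (k₀⁻¹ * h₀⁻¹) • S₀ := by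
        rw [hg]; exact hBS₁ hz'
      rw [mem_conj_smul_iff] at h1
      have e2 : (k₀⁻¹ * h₀⁻¹)⁻¹ * (k₀⁻¹ * z * k₀) * (k₀⁻¹ * h₀⁻¹) = h₀⁻¹⁻¹ * z * h₀⁻¹ := by
        group
      rw [e2] at h1
      exact h1
    have hScard : Nat.card (MulAut.conj h₀⁻¹ • S₀ : Subgroup G) =
        Nat.lcm (Nat.card A) (Nat.card B) :=
      (Nat.card_congr (Subgroup.equivSMul (MulAut.conj h₀⁻¹) S₀).toEquiv).symm.trans hS₀
    refine ⟨MulAut.conj h₀⁻¹ • S₀, ?_⟩
    generalize MulAut.conj h₀⁻¹ • S₀ = S at hAS hBS hScard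
    have hidxcop : Nat.Coprime (B.subgroupOf S).index (A.subgroupOf S).index := by
      apply Nat.coprime_of_dvd
      intro p hp hpB hpA
      have hA1 : Nat.card A * A.relIndex S = Nat.card S := by
        rw [← Subgroup.relIndex_bot_left, ← Subgroup.relIndex_bot_left,
          Subgroup.relIndex_mul_relIndex _ _ _ bot_le hAS]
      have hpS : p ∣ Nat.lcm (Nat.card A) (Nat.card B) := by
        rw [← hScard, ← hA1]
        exact Dvd.dvd.mul_left hpA _
      rcases hpdvd p hp hpS with h | h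
      · exact hp.ne_one (Nat.eq_one_of_dvd_coprimes hAh h
          (dvd_trans hpA (Subgroup.relIndex_dvd_index_of_le hAS)))
      · exact hp.ne_one (Nat.eq_one_of_dvd_coprimes hBh h
          (dvd_trans hpB (Subgroup.relIndex_dvd_index_of_le hBS)))
    intro s
    constructor
    · intro hs
      obtain ⟨d, hd, a', ha', e3⟩ :=
        exists_mul_of_coprime_index (A.subgroupOf S) (B.subgroupOf S) hidxcop ⟨s, hs⟩
      refine ⟨d, Subgroup.mem_subgroupOf.mp hd, a', Subgroup.mem_subgroupOf.mp ha', ?_⟩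
      have := congrArg Subtype.val e3
      simpa using this
    · rintro ⟨a, ha, b, hb, rfl⟩
      exact S.mul_mem (hAS ha) (hBS hb)
  obtain ⟨S, hS⟩ := key
  obtain ⟨h, hh, k, hk, e⟩ := hHK (x⁻¹ * y)
  have hy : y = x * h * k := by
    calc y = x * (x⁻¹ * y) := by group
      _ = x * (h * k) := by rw [e]
      _ = x * h * k := by group
  refine ⟨MulAut.conj (x * h) • S, ?_⟩
  ext z
  rw [SetLike.mem_coe, mem_conj_smul_iff, hS]
  constructor
  · rintro ⟨a, ha, b, hb, e1⟩
    refine ⟨(x * h) * a * (x * h)⁻¹, ?_, (x * h) * b * (x * h)⁻¹, ?_, ?_⟩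
    · rw [SetLike.mem_coe, mem_conj_smul_iff]
      have e2 : x⁻¹ * ((x * h) * a * (x * h)⁻¹) * x = h * a * h⁻¹ := by group
      rw [e2]; exact hconjA h hh a ha
    · rw [SetLike.mem_coe, mem_conj_smul_iff, hy]
      have e2 : (x * h * k)⁻¹ * ((x * h) * b * (x * h)⁻¹) * (x * h * k) = k⁻¹ * b * k⁻¹⁻¹ := by
        group
      rw [e2]; exact hconjB k⁻¹ (K.inv_mem hk) b hb
    · change (x * h) * a * (x * h)⁻¹ * ((x * h) * b * (x * h)⁻¹) = z
      calc (x * h) * a * (x * h)⁻¹ * ((x * h) * b * (x * h)⁻¹)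
          = (x * h) * (a * b) * (x * h)⁻¹ := by group
        _ = (x * h) * ((x * h)⁻¹ * z * (x * h)) * (x * h)⁻¹ := by rw [e1]
        _ = z := by group
  · rintro ⟨u, hu, v, hv, e1⟩
    rw [SetLike.mem_coe, mem_conj_smul_iff] at hu hv
    have e1' : u * v = z := e1
    refine ⟨h⁻¹ * (x⁻¹ * u * x) * h⁻¹⁻¹, hconjA h⁻¹ (H.inv_mem hh) _ hu,
      k * (y⁻¹ * v * y) * k⁻¹, hconjB k hk _ hv, ?_⟩
    rw [← e1', hy]; group

end Cfsg.Agent.S0561
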