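import Cfsg.Statements.S0562
import Mathlib

set_option autoImplicit false
open Pointwise
open Cfsg

namespace Cfsg.Agent.S0562

/-- Let the finite group G be the product HK of subgroups, A normal in H, B normal in K, and L the normalizer of the subgroup generated by A and B. Then every element of L is a product of an element of L ∩ H and an element of L ∩ K. -/
theorem result {G : Type*} [Group G] [Finite G] (H K A B : Subgroup G) (hHK : ∀ g : G, ∃ h ∈ H, ∃ k ∈ K, g = h * k) (hA : A ≤ H) (hAn : (A.subgroupOf H).Normal) (hB : B ≤ K) (hBn : (B.subgroupOf K).Normal) : ∀ g ∈ Subgroup.normalizer ((A ⊔ B : Subgroup G) : Set G), ∃ h ∈ Subgroup.normalizer ((A ⊔ B : Subgroup G) : Set G) ⊓ H, ∃ k ∈ Subgroup.normalizer ((A ⊔ B : Subgroup G) : Set G) ⊓ K, g = h * k := by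
  intro g hg
  obtain ⟨h, hh, k, hk, rfl⟩ := hHK g
  have hAH := (Subgroup.normal_subgroupOf_iff_le_normalizer hA).mp hAn
  have hBK := (Subgroup.normal_subgroupOf_iff_le_normalizer hB).mp hBn
  have hkB : B.map (MulAut.conj k).toMonoidHom = B :=
    Subgroup.mem_normalizer_iff_map_conj_eq.mp (hBK hk)
  have hhA : A.map (MulAut.conj h⁻¹).toMonoidHom = A :=
    Subgroup.mem_normalizer_iff_map_conj_eq.mp (hAH (H.inv_mem hh))
  have hg' : (A ⊔ B).map (MulAut.conj (h * k)).toMonoidHom = A ⊔ B :=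
    Subgroup.mem_normalizer_iff_map_conj_eq.mp hg
  -- D = conj h⁻¹ (A ⊔ B) = conj k (A ⊔ B)
  have hD : (A ⊔ B).map (MulAut.conj h⁻¹).toMonoidHom = (A ⊔ B).map (MulAut.conj k).toMonoidHom := by
    conv_lhs => rw [← hg']
    rw [Subgroup.map_map]
    congr 1
    ext x
    simp [MulAut.conj_apply, mul_assoc]
  have hle : A ⊔ B ≤ (A ⊔ B).map (MulAut.conj h⁻¹).toMonoidHom := by
    apply sup_le
    · rw [Subgroup.map_sup, hhA]; exact le_sup_left
    · rw [hD, Subgroup.map_sup, hkB]; exact le_sup_right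
  have hcard : Nat.card ((A ⊔ B).map (MulAut.conj h⁻¹).toMonoidHom) = Nat.card (A ⊔ B : Subgroup G) :=
    Subgroup.card_map_of_injective (MulAut.conj h⁻¹).injective
  have heq : A ⊔ B = (A ⊔ B).map (MulAut.conj h⁻¹).toMonoidHom :=
    Subgroup.eq_of_le_of_card_ge hle hcard.le
  have hhinv : h⁻¹ ∈ Subgroup.normalizer ((A ⊔ B : Subgroup G) : Set G) :=
    Subgroup.mem_normalizer_iff_map_conj_eq.mpr heq.symm
  have hhN : h ∈ Subgroup.normalizer ((A ⊔ B : Subgroup G) : Set G) := by
    simpa using Subgroup.inv_mem _ hhinv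
  have hkN : k ∈ Subgroup.normalizer ((A ⊔ B : Subgroup G) : Set G) := by
    have := Subgroup.mul_mem _ hhinv hg
    simpa using this
  exact ⟨h, ⟨hhN, hh⟩, k, ⟨hkN, hk⟩, rfl⟩

end Cfsg.Agent.S0562
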