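import Cfsg.Statements.S0566
import Mathlib
import Cfsg.Agent.Lib.Helper1.Basic
import Cfsg.Agent.Lib.Helper1.SZ
import Cfsg.Agent.Lib.Helper1.Coprime

set_option autoImplicit false
open Pointwise
open Cfsg

namespace Cfsg.Agent.S0566

open Cfsg.Agent.Lib.Helper1
open Pointwise

/-- `K H ⊆ H K`, elementwise. -/
def KPerm {G : Type*} [Group G] (H K : Subgroup G) : Prop :=
  ∀ h ∈ H, ∀ k ∈ K, ∃ h' ∈ H, ∃ k' ∈ K, k * h = h' * k'

theorem kperm_of_subgroup {G : Type*} [Group G] {H K S : Subgroup G}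
    (hS : (S : Set G) = (H : Set G) * (K : Set G)) : KPerm H K := by
  intro h hh k hk
  have h1 : h ∈ S := by
    rw [← SetLike.mem_coe, hS]; exact ⟨h, hh, 1, K.one_mem, mul_one h⟩
  have h2 : k ∈ S := by
    rw [← SetLike.mem_coe, hS]; exact ⟨1, H.one_mem, k, hk, one_mul k⟩
  have h3 : k * h ∈ (S : Set G) := S.mul_mem h2 h1
  rw [hS] at h3
  obtain ⟨h', hh', k', hk', e⟩ := h3
  exact ⟨h', hh', k', hk', e.symm⟩

theorem kperm_sup {G : Type*} [Group G] {H₁ H₂ K : Subgroup G} (h1 : KPerm H₁ K)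
    (h2 : KPerm H₂ K) : KPerm (H₁ ⊔ H₂) K := by
  intro h hh
  rw [Subgroup.sup_eq_closure] at hh
  induction hh using Subgroup.closure_induction'' with
  | mem x hx =>
    intro k hk
    rcases hx with hx | hx
    · obtain ⟨h', hh', k', hk', e⟩ := h1 x hx k hk
      exact ⟨h', Subgroup.mem_sup_left hh', k', hk', e⟩
    · obtain ⟨h', hh', k', hk', e⟩ := h2 x hx k hk
      exact ⟨h', Subgroup.mem_sup_right hh', k', hk', e⟩
  | inv_mem x hx =>
    intro k hk
    rcases hx with hx | hx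
    · obtain ⟨h', hh', k', hk', e⟩ := h1 x⁻¹ (H₁.inv_mem hx) k hk
      exact ⟨h', Subgroup.mem_sup_left hh', k', hk', e⟩
    · obtain ⟨h', hh', k', hk', e⟩ := h2 x⁻¹ (H₂.inv_mem hx) k hk
      exact ⟨h', Subgroup.mem_sup_right hh', k', hk', e⟩
  | one =>
    intro k hk
    exact ⟨1, Subgroup.one_mem _, k, hk, by rw [mul_one, one_mul]⟩
  | mul x y _ _ ihx ihy =>
    intro k hk
    obtain ⟨x', hx', k', hk', e⟩ := ihx k hk
    obtain ⟨y', hy', k'', hk'', e'⟩ := ihy k' hk'
    exact ⟨x' * y', Subgroup.mul_mem _ hx' hy', k'', hk'',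
      by rw [← mul_assoc, e, mul_assoc, e', mul_assoc]⟩

theorem exists_subgroup_of_kperm {G : Type*} [Group G] {H K : Subgroup G} (hp : KPerm H K) :
    ∃ S : Subgroup G, (S : Set G) = (H : Set G) * (K : Set G) :=
  ⟨{ carrier := (H : Set G) * (K : Set G)
     mul_mem' := by
       rintro _ _ ⟨h₁, hh₁, k₁, hk₁, rfl⟩ ⟨h₂, hh₂, k₂, hk₂, rfl⟩
       obtain ⟨h', hh', k', hk', e⟩ := hp h₂ hh₂ k₁ hk₁
       exact ⟨h₁ * h', H.mul_mem hh₁ hh', k' * k₂, K.mul_mem hk' hk₂, by
         calc h₁ * h' * (k' * k₂) = h₁ * (h' * k') * k₂ := by group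
           _ = h₁ * (k₁ * h₂) * k₂ := by rw [e]
           _ = h₁ * k₁ * (h₂ * k₂) := by group⟩
     one_mem' := ⟨1, H.one_mem, 1, K.one_mem, mul_one 1⟩
     inv_mem' := by
       rintro _ ⟨h, hh, k, hk, rfl⟩
       obtain ⟨h', hh', k', hk', e⟩ := hp h⁻¹ (H.inv_mem hh) k⁻¹ (K.inv_mem hk)
       exact ⟨h', hh', k', hk', by
         show h' * k' = (h * k)⁻¹
         rw [← e, mul_inv_rev]⟩ }, rfl⟩

theorem kegel_aux {G : Type*} [Group G] [Finite G] : ∀ (d : ℕ) (A B : Subgroup G),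
    Nat.card G - Nat.card A ≤ d →
    (∀ x : G, ∃ S : Subgroup G, S ≠ ⊤ ∧
      (S : Set G) = (A : Set G) * ((MulAut.conj x • B : Subgroup G) : Set G)) →
    ∃ N : Subgroup G, N.Normal ∧ N ≠ ⊤ ∧ (A ≤ N ∨ B ≤ N) := by
  intro d
  induction d using Nat.strong_induction_on with
  | _ d ih =>
    intro A B hd hyp
    by_contra hno
    push Not at hno
    have hnoA : ∀ N : Subgroup G, N.Normal → A ≤ N → N = ⊤ := by
      intro N hN hAN
      by_contra hne
      exact (hno N hN hne).1 hAN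
    have hnoB : ∀ N : Subgroup G, N.Normal → B ≤ N → N = ⊤ := by
      intro N hN hBN
      by_contra hne
      exact (hno N hN hne).2 hBN
    have h1 : ∃ x : G, ¬ (MulAut.conj x • B ≤ Subgroup.normalizer (A : Set G)) := by
      by_contra hcon
      push Not at hcon
      have h2 : Subgroup.normalClosure (B : Set G) ≤ Subgroup.normalizer (A : Set G) := by
        rw [Subgroup.normalClosure, Subgroup.closure_le]
        intro y hy
        obtain ⟨b, hb, hconj⟩ := Group.mem_conjugatesOfSet_iff.mp hy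
        obtain ⟨c, rfl⟩ := isConj_iff.mp hconj
        exact hcon c (conj_mem_conj_smul c b B hb)
      have h3 := hnoB _ Subgroup.normalClosure_normal Subgroup.le_normalClosure
      rw [h3, top_le_iff] at h2
      have hAn : A.Normal := Subgroup.normalizer_eq_top_iff.mp h2
      have hAtop := hnoA A hAn le_rfl
      obtain ⟨S, hS, hSeq⟩ := hyp 1
      apply hS
      rw [eq_top_iff]
      intro g _
      rw [← SetLike.mem_coe, hSeq]
      exact ⟨g, hAtop ▸ Subgroup.mem_top g, 1, Subgroup.one_mem _, mul_one g⟩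
    obtain ⟨x, hx⟩ := h1
    obtain ⟨b₀, hb₀, hb₀n⟩ := SetLike.not_le_iff_exists.mp hx
    obtain ⟨B', hB'def⟩ : ∃ B' : Subgroup G, B' = MulAut.conj x • B := ⟨_, rfl⟩
    rw [← hB'def] at hb₀
    have hyp' : ∀ y : G, ∃ S : Subgroup G, S ≠ ⊤ ∧
        (S : Set G) = (A : Set G) * ((MulAut.conj y • B' : Subgroup G) : Set G) := by
      intro y
      obtain ⟨S, hS, hSeq⟩ := hyp (y * x)
      refine ⟨S, hS, ?_⟩
      rw [hSeq, hB'def, conj_mul_smul]
    have hnoB' : ∀ N : Subgroup G, N.Normal → B' ≤ N → N = ⊤ := by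
      intro N hN hBN
      apply hnoB N hN
      intro b hb
      have h2 : x * b * x⁻¹ ∈ N := hBN (hB'def ▸ conj_mem_conj_smul x b B hb)
      have h3 := hN.conj_mem _ h2 x⁻¹
      have e : x⁻¹ * (x * b * x⁻¹) * x⁻¹⁻¹ = b := by group
      rwa [e] at h3
    obtain ⟨A', hA'def⟩ : ∃ A' : Subgroup G, A' = A ⊔ MulAut.conj b₀ • A := ⟨_, rfl⟩
    have hAA' : A < A' := by
      refine lt_of_le_of_ne (hA'def ▸ le_sup_left) ?_
      intro heq
      apply hb₀n
      apply mem_normalizer_of_conj_smul_eq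
      apply conj_smul_eq_of_le
      have h5 : MulAut.conj b₀ • A ≤ A' := hA'def ▸ le_sup_right
      rw [← heq] at h5
      exact h5
    have hcardlt : Nat.card A < Nat.card A' := card_lt_of_lt hAA'
    have hcardle : Nat.card A' ≤ Nat.card G := Subgroup.card_le_card_group A'
    have hperm : ∀ y : G, KPerm A' (MulAut.conj y • B') := by
      intro y
      rw [hA'def]
      apply kperm_sup
      · obtain ⟨S, _, hSeq⟩ := hyp' y
        exact kperm_of_subgroup hSeq
      · obtain ⟨S, _, hSeq⟩ := hyp' (b₀⁻¹ * y)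
        have hp0 := kperm_of_subgroup hSeq
        intro h hh k hk
        rw [mem_conj_smul_iff] at hh hk
        have hk2 : b₀⁻¹ * k * b₀ ∈ MulAut.conj (b₀⁻¹ * y) • B' := by
          rw [mem_conj_smul_iff]
          have e : (b₀⁻¹ * y)⁻¹ * (b₀⁻¹ * k * b₀) * (b₀⁻¹ * y) = y⁻¹ * k * y := by group
          rw [e]; exact hk
        obtain ⟨h', hh', k', hk', e⟩ := hp0 _ hh _ hk2
        refine ⟨b₀ * h' * b₀⁻¹, conj_mem_conj_smul b₀ h' A hh', b₀ * k' * b₀⁻¹, ?_, ?_⟩
        · rw [mem_conj_smul_iff] at hk' ⊢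
          have e2 : y⁻¹ * (b₀ * k' * b₀⁻¹) * y = (b₀⁻¹ * y)⁻¹ * k' * (b₀⁻¹ * y) := by group
          rw [e2]; exact hk'
        · calc k * h = b₀ * ((b₀⁻¹ * k * b₀) * (b₀⁻¹ * h * b₀)) * b₀⁻¹ := by group
            _ = b₀ * (h' * k') * b₀⁻¹ := by rw [e]
            _ = b₀ * h' * b₀⁻¹ * (b₀ * k' * b₀⁻¹) := by group
    by_cases hall : ∀ y : G,
        (A' : Set G) * ((MulAut.conj y • B' : Subgroup G) : Set G) ≠ Set.univ
    · have hyp'' : ∀ y : G, ∃ S : Subgroup G, S ≠ ⊤ ∧
          (S : Set G) = (A' : Set G) * ((MulAut.conj y • B' : Subgroup G) : Set G) := by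
        intro y
        obtain ⟨S, hSeq⟩ := exists_subgroup_of_kperm (hperm y)
        refine ⟨S, ?_, hSeq⟩
        intro hS
        apply hall y
        rw [← hSeq, hS]
        rfl
      obtain ⟨N, hN, hNtop, hor⟩ := ih (Nat.card G - Nat.card A') (by omega) A' B' le_rfl hyp''
      rcases hor with h5 | h5
      · exact hNtop (hnoA N hN (hAA'.le.trans h5))
      · exact hNtop (hnoB' N hN h5)
    · push Not at hall
      obtain ⟨y, hy⟩ := hall
      obtain ⟨S, hS, hSeq⟩ := hyp' 1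
      rw [map_one, one_smul] at hSeq
      have hAS : A ≤ S := by
        intro a ha
        rw [← SetLike.mem_coe, hSeq]
        exact ⟨a, ha, 1, B'.one_mem, mul_one a⟩
      have hBS : B' ≤ S := by
        intro b hb
        rw [← SetLike.mem_coe, hSeq]
        exact ⟨1, A.one_mem, b, hb, one_mul b⟩
      have hA'S : A' ≤ S := by
        rw [hA'def]
        apply sup_le hAS
        intro z hz
        rw [mem_conj_smul_iff] at hz
        have e : z = b₀ * (b₀⁻¹ * z * b₀) * b₀⁻¹ := by group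
        rw [e]
        exact S.mul_mem (S.mul_mem (hBS hb₀) (hAS hz)) (S.inv_mem (hBS hb₀))
      have hdec : ∀ g : G, ∃ s ∈ S, ∃ k ∈ MulAut.conj y • B', g = s * k := by
        intro g
        have hg : g ∈ (A' : Set G) * ((MulAut.conj y • B' : Subgroup G) : Set G) := by
          rw [hy]; trivial
        obtain ⟨a, ha, k, hk, e⟩ := hg
        exact ⟨a, hA'S ha, k, hk, e.symm⟩
      obtain ⟨s, hs, k, hk, e⟩ := hdec y⁻¹
      rw [mem_conj_smul_iff] at hk
      have hk_eq : k = s⁻¹ * y⁻¹ := by rw [e]; group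
      have hc : y⁻¹ * s⁻¹ ∈ B' := by
        have e3 : y⁻¹ * s⁻¹ = y⁻¹ * (s⁻¹ * y⁻¹) * y := by group
        rw [e3, ← hk_eq]
        exact hk
      have hyS : y ∈ S := by
        have h6 : y⁻¹ ∈ S := by
          have e6 : y⁻¹ = (y⁻¹ * s⁻¹) * s := by group
          rw [e6]
          exact S.mul_mem (hBS hc) hs
        have h7 := S.inv_mem h6
        rwa [inv_inv] at h7
      apply hS
      rw [eq_top_iff]
      intro g _
      obtain ⟨s', hs', k', hk', e'⟩ := hdec g
      rw [mem_conj_smul_iff] at hk'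
      have e8 : k' = y * (y⁻¹ * k' * y) * y⁻¹ := by group
      rw [e', e8]
      exact S.mul_mem hs' (S.mul_mem (S.mul_mem hyS (hBS hk')) (S.inv_mem hyS))

/-- Let A and B be nontrivial subgroups of a finite group G such that for every x the product set of A and xBx⁻¹ is a proper subgroup of G. Then there is a proper normal subgroup of G containing A or containing B. -/
theorem result {G : Type*} [Group G] [Finite G] (A B : Subgroup G) (hA : A ≠ ⊥) (hB : B ≠ ⊥) (h : ∀ x : G, ∃ S : Subgroup G, S ≠ ⊤ ∧ (S : Set G) = (A : Set G) * ((MulAut.conj x • B : Subgroup G) : Set G)) : ∃ N : Subgroup G, N.Normal ∧ N ≠ ⊤ ∧ (A ≤ N ∨ B ≤ N) := by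
  exact kegel_aux _ A B le_rfl h

end Cfsg.Agent.S0566
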