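import Cfsg.Statements.S0560
import Cfsg.Agent.Lib.Helper5.Factor

namespace Cfsg.Agent.S0560

open Cfsg.Agent.Lib.Helper5
open scoped Pointwise

theorem mem_smul_sylow_iff {G : Type*} [Group G] {p : ℕ} (g : G) (P : Sylow p G) (x : G) :
    x ∈ ((g • P : Sylow p G) : Subgroup G) ↔ g⁻¹ * x * g ∈ (P : Subgroup G) := by
  rw [Sylow.coe_subgroup_smul, Subgroup.mem_pointwise_smul_iff_inv_smul_mem]
  have h7 : (MulAut.conj g)⁻¹ • x = g⁻¹ * x * g := by simp [MulAut.smul_def, mul_assoc]
  rw [h7]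

theorem map_smul_le {G : Type*} [Group G] (p : ℕ) (H : Subgroup G)
    (P0 : Sylow p H) (R1 : Sylow p G) (hP0 : (P0 : Subgroup H).map H.subtype ≤ R1)
    (h : G) (hh : h ∈ H) :
    (((⟨h, hh⟩ : H) • P0 : Sylow p H) : Subgroup H).map H.subtype ≤
      ((h • R1 : Sylow p G) : Subgroup G) := by
  rintro _ ⟨y, hy, rfl⟩
  have hy' : (⟨h, hh⟩ : H)⁻¹ * y * (⟨h, hh⟩ : H) ∈ (P0 : Subgroup H) :=
    (mem_smul_sylow_iff _ P0 y).mp hy
  rw [mem_smul_sylow_iff]
  have h1 : H.subtype ((⟨h, hh⟩ : H)⁻¹ * y * (⟨h, hh⟩ : H)) ∈ (R1 : Subgroup G) :=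
    hP0 (Subgroup.mem_map_of_mem _ hy')
  simpa using h1

theorem core {G : Type*} [Group G] [Finite G] (H K : Subgroup G)
    (hHK : ∀ g : G, ∃ h ∈ H, ∃ k ∈ K, g = h * k) (p : ℕ) (hp : p.Prime)
    (P' Q' R : Subgroup G) (hP' : P' ≤ R) (hQ' : Q' ≤ R) (hPH : P' ≤ H) (hQK : Q' ≤ K)
    (hPp : IsPGroup p P')
    (hcP : Nat.card P' = p ^ (Nat.card H).factorization p)
    (hcQ : Nat.card Q' = p ^ (Nat.card K).factorization p)
    (hcR : Nat.card R = p ^ (Nat.card G).factorization p) :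
    (R : Set G) = (P' : Set G) * (Q' : Set G) := by
  have hfact : Fact p.Prime := ⟨hp⟩
  have hcard := card_mul_card_inf_of_forall_mul H K hHK
  have hfac : (Nat.card G).factorization p + (Nat.card (H ⊓ K : Subgroup G)).factorization p =
      (Nat.card H).factorization p + (Nat.card K).factorization p := by
    have h1 : (Nat.card G * Nat.card (H ⊓ K : Subgroup G)).factorization p =
        (Nat.card H * Nat.card K).factorization p := by rw [hcard]
    rw [Nat.factorization_mul Nat.card_pos.ne' Nat.card_pos.ne',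
      Nat.factorization_mul Nat.card_pos.ne' Nat.card_pos.ne'] at h1
    simpa using h1
  have hPQp : IsPGroup p (P' ⊓ Q' : Subgroup G) := hPp.to_le inf_le_left
  obtain ⟨e, he⟩ := IsPGroup.iff_card.mp hPQp
  have hed : e ≤ (Nat.card (H ⊓ K : Subgroup G)).factorization p := by
    rw [← Nat.Prime.pow_dvd_iff_le_factorization hp Nat.card_pos.ne', ← he]
    exact Subgroup.card_dvd_of_le (inf_le_inf hPH hQK)
  have hx : Nat.card Q' * Q'.relIndex R = Nat.card R := by
    rw [← Subgroup.relIndex_bot_left, ← Subgroup.relIndex_bot_left,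
      Subgroup.relIndex_mul_relIndex _ _ _ bot_le hQ']
  have hy : Nat.card (P' ⊓ Q' : Subgroup G) * Q'.relIndex P' = Nat.card P' := by
    rw [← Subgroup.relIndex_bot_left, ← Subgroup.relIndex_bot_left,
      ← Subgroup.inf_relIndex_left P' Q', Subgroup.relIndex_mul_relIndex _ _ _ bot_le inf_le_left]
  have hle : Q'.relIndex R ≤ Q'.relIndex P' := by
    rw [hcQ, hcR] at hx
    rw [he, hcP] at hy
    have h1 : Q'.relIndex R * (p ^ (Nat.card K).factorization p *
        p ^ (Nat.card (H ⊓ K : Subgroup G)).factorization p) =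
        Q'.relIndex P' * (p ^ e * p ^ (Nat.card K).factorization p) := by
      calc Q'.relIndex R * (p ^ (Nat.card K).factorization p *
            p ^ (Nat.card (H ⊓ K : Subgroup G)).factorization p)
          = (p ^ (Nat.card K).factorization p * Q'.relIndex R) *
            p ^ (Nat.card (H ⊓ K : Subgroup G)).factorization p := by ring
        _ = p ^ ((Nat.card G).factorization p +
            (Nat.card (H ⊓ K : Subgroup G)).factorization p) := by rw [hx, pow_add]
        _ = p ^ ((Nat.card H).factorization p + (Nat.card K).factorization p) := by rw [hfac]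
        _ = (p ^ e * Q'.relIndex P') * p ^ (Nat.card K).factorization p := by rw [hy, pow_add]
        _ = Q'.relIndex P' * (p ^ e * p ^ (Nat.card K).factorization p) := by ring
    have h2 : Q'.relIndex P' * (p ^ e * p ^ (Nat.card K).factorization p) ≤
        Q'.relIndex P' * (p ^ (Nat.card K).factorization p *
          p ^ (Nat.card (H ⊓ K : Subgroup G)).factorization p) := by
      rw [mul_comm (p ^ e)]
      exact Nat.mul_le_mul_left _ (Nat.mul_le_mul_left _ (Nat.pow_le_pow_right hp.pos hed))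
    rw [← h1] at h2
    exact Nat.le_of_mul_le_mul_right h2 (Nat.mul_pos (Nat.pow_pos hp.pos) (Nat.pow_pos hp.pos))
  have hidx : (Q'.subgroupOf R).index ≤ (Q'.subgroupOf R).relIndex (P'.subgroupOf R) := by
    rw [Subgroup.relIndex_subgroupOf hP']
    exact hle
  apply Set.Subset.antisymm
  · intro r hr
    obtain ⟨a, ha, b, hb, hab⟩ :=
      exists_mul_of_index_le_relIndex (P'.subgroupOf R) (Q'.subgroupOf R) hidx ⟨r, hr⟩
    refine ⟨(a : G), Subgroup.mem_subgroupOf.mp ha, (b : G), Subgroup.mem_subgroupOf.mp hb, ?_⟩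
    have h5 := congrArg Subtype.val hab
    simpa using h5.symm
  · rintro _ ⟨x, hx, y, hy, rfl⟩
    exact R.mul_mem (hP' hx) (hQ' hy)

theorem result {G : Type*} [Group G] [Finite G] (H K : Subgroup G) (hHK : ∀ g : G, ∃ h ∈ H, ∃ k ∈ K, g = h * k) (p : ℕ) [Fact p.Prime] : ∃ (P : Sylow p H) (Q : Sylow p K) (R : Sylow p G), ((R : Subgroup G) : Set G) = (((P : Subgroup H).map H.subtype : Subgroup G) : Set G) * (((Q : Subgroup K).map K.subtype : Subgroup G) : Set G) := by
  have hp : p.Prime := Fact.out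
  obtain ⟨P0⟩ := (inferInstance : Nonempty (Sylow p H))
  obtain ⟨Q0⟩ := (inferInstance : Nonempty (Sylow p K))
  obtain ⟨R1, hR1⟩ := (P0.isPGroup'.map H.subtype).exists_le_sylow
  obtain ⟨R2, hR2⟩ := (Q0.isPGroup'.map K.subtype).exists_le_sylow
  obtain ⟨g, hg⟩ := MulAction.exists_smul_eq G R2 R1
  obtain ⟨h, hh, k, hk, rfl⟩ := hHK g
  have hR : (k • R2 : Sylow p G) = h⁻¹ • R1 := by
    rw [← hg, mul_smul, inv_smul_smul]
  refine ⟨(⟨h⁻¹, H.inv_mem hh⟩ : H) • P0, (⟨k, hk⟩ : K) • Q0, k • R2, ?_⟩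
  have hP' : (((⟨h⁻¹, H.inv_mem hh⟩ : H) • P0 : Sylow p H) : Subgroup H).map H.subtype ≤
      ((k • R2 : Sylow p G) : Subgroup G) := by
    rw [hR]
    exact map_smul_le p H P0 R1 hR1 h⁻¹ (H.inv_mem hh)
  have hQ' : (((⟨k, hk⟩ : K) • Q0 : Sylow p K) : Subgroup K).map K.subtype ≤
      ((k • R2 : Sylow p G) : Subgroup G) := map_smul_le p K Q0 R2 hR2 k hk
  refine core H K hHK p hp _ _ _ hP' hQ' ?_ ?_ ?_ ?_ ?_ ?_
  · rintro _ ⟨y, -, rfl⟩; exact y.2
  · rintro _ ⟨y, -, rfl⟩; exact y.2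
  · exact (Sylow.isPGroup' _).map _
  · rw [Subgroup.card_map_of_injective H.subtype_injective]
    exact Sylow.card_eq_multiplicity _
  · rw [Subgroup.card_map_of_injective K.subtype_injective]
    exact Sylow.card_eq_multiplicity _
  · exact Sylow.card_eq_multiplicity _

end Cfsg.Agent.S0560
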