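import Cfsg.Statements.S1184
import Cfsg.Agent.Lib.Helper10.Invol

set_option autoImplicit false
open Cfsg

namespace Cfsg.Agent.S1184

open Cfsg.Agent.Lib.Helper10 in
/-- Let z be an isolated involution of the finite group G. If s and t are distinct conjugates of z, then st does not commute with z. -/
theorem result {G : Type*} [Group G] [Finite G] (z : G) (hz : Cfsg.IsIsolatedInvolution z) (g h : G) (hne : g * z * g⁻¹ ≠ h * z * h⁻¹) : ¬ Commute (g * z * g⁻¹ * (h * z * h⁻¹)) z := by
  intro hcomm
  set s := g * z * g⁻¹ with hs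
  set t := h * z * h⁻¹ with ht
  have hzz : z * z = 1 := isolated_mul_self hz
  have hsi : Cfsg.IsIsolatedInvolution s := isolated_conj hz g
  have hss : s * s = 1 := conj_mul_self hzz g
  have htt : t * t = 1 := conj_mul_self hzz h
  have hsinv : s⁻¹ = s := inv_eq_of_mul_eq_one_left hss
  have ht' : t = (h * g⁻¹) * s * (h * g⁻¹)⁻¹ := by rw [hs, ht]; group
  have hodd : Odd (orderOf (s * t)) := by
    rw [ht']; exact isolated_odd hsi (h * g⁻¹)
  set r := s * t with hr
  have hsr : s * r = r⁻¹ * s := invol_semiconj hss htt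
  have hzN : z ∈ Subgroup.normalizer ((Subgroup.zpowers r : Subgroup G) : Set G) := by
    apply mem_normalizer_zpowers
    · have : z * r * z⁻¹ = r := by rw [← hcomm.eq]; group
      rw [this]; exact Subgroup.mem_zpowers r
    · have : z⁻¹ * r * z = r := by rw [mul_assoc, hcomm.eq]; group
      rw [this]; exact Subgroup.mem_zpowers r
  have hsN : s ∈ Subgroup.normalizer ((Subgroup.zpowers r : Subgroup G) : Set G) := by
    apply mem_normalizer_zpowers
    · have : s * r * s⁻¹ = r⁻¹ := by rw [hsr]; group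
      rw [this]; exact Subgroup.inv_mem _ (Subgroup.mem_zpowers r)
    · have : s⁻¹ * r * s = r⁻¹ := by
        rw [hsinv]
        calc s * r * s = r⁻¹ * s * s := by rw [hsr]
          _ = r⁻¹ := by rw [mul_assoc, hss, mul_one]
      rw [this]; exact Subgroup.inv_mem _ (Subgroup.mem_zpowers r)
  obtain ⟨n, hnN, hn⟩ := isolated_conj_in_subgroup hz _ hzN g hsN
  have h1 : n⁻¹ * r * n ∈ Subgroup.zpowers r :=
    (Subgroup.mem_normalizer_iff''.1 hnN r).1 (Subgroup.mem_zpowers r)
  obtain ⟨i, hi⟩ := Subgroup.mem_zpowers_iff.1 h1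
  have h2 : Commute z (n⁻¹ * r * n) := by
    rw [← hi]; exact hcomm.symm.zpow_right i
  have h3 : Commute s r := by
    show s * r = r * s
    have hn' : s = n * z * n⁻¹ := hn.symm
    have e1 : s * r = n * (z * (n⁻¹ * r * n)) * n⁻¹ := by
      calc s * r = (n * z * n⁻¹) * r := by rw [← hn']
        _ = n * (z * (n⁻¹ * r * n)) * n⁻¹ := by group
    have e2 : r * s = n * ((n⁻¹ * r * n) * z) * n⁻¹ := by
      calc r * s = r * (n * z * n⁻¹) := by rw [← hn']
        _ = n * ((n⁻¹ * r * n) * z) * n⁻¹ := by group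
    rw [e1, e2, h2.eq]
  have h4 : r = r⁻¹ := by
    have : r * s = r⁻¹ * s := by rw [← h3.eq, hsr]
    exact mul_right_cancel this
  have h5 : r ^ 2 = 1 := by
    rw [pow_two]
    nth_rewrite 2 [h4]
    exact mul_inv_cancel r
  have h6 : orderOf r ∣ 2 := orderOf_dvd_of_pow_eq_one h5
  have h7 : orderOf r = 1 := by
    have := Nat.le_of_dvd (by norm_num) h6
    obtain ⟨e, he⟩ := hodd
    interval_cases hh : orderOf r
    · omega
    · rfl
    · omega
  have h8 : r = 1 := orderOf_eq_one_iff.1 h7
  apply hne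
  have : t = s⁻¹ := eq_inv_of_mul_eq_one_right h8
  rw [this, hsinv]

end Cfsg.Agent.S1184
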