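import Cfsg.Statements.S0289
import Mathlib
import Cfsg.Agent.Lib.Helper3.FormCount

set_option autoImplicit false
open Cfsg

namespace Cfsg.Agent.S0289

/-- The hyperbolic quadratic form on F^(2m), m at least 1, has q^(2m-1) + q^m - q^(m-1) zeros (that is, (q^m - 1)(q^(m-1) + 1) non-zero isotropic vectors). -/
theorem result {F : Type*} [Field F] [Fintype F] {q : ℕ} (hF : Fintype.card F = q) (m : ℕ) (hm : 1 ≤ m) : Nat.card {v : Fin m ⊕ Fin m → F // Cfsg.quadFormPlus m F v = 0} = q ^ (2 * m - 1) + q ^ m - q ^ (m - 1) := by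
  classical
  subst hF
  have e : {v : Fin m ⊕ Fin m → F // Cfsg.quadFormPlus m F v = 0} ≃
      {p : (Unit × (Fin m → F)) × (Fin m → F) // ∑ i, p.1.2 i * p.2 i = (fun _ : Unit => (0 : F)) p.1.1} := by
    refine Equiv.subtypeEquiv ⟨fun v => (((), fun i => v (Sum.inl i)), fun i => v (Sum.inr i)),
      fun p => Sum.elim p.1.2 p.2, ?_, ?_⟩ ?_
    · intro v
      funext s
      cases s <;> rfl
    · intro p
      rfl
    · intro v
      rfl
  rw [Nat.card_congr e, Cfsg.Agent.Lib.Helper3.card_pairs_dot m (fun _ : Unit => (0 : F))]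
  have hz : Nat.card {t : Unit // (fun _ : Unit => (0 : F)) t = 0} = 1 := by
    rw [Nat.card_congr (Equiv.subtypeUnivEquiv (fun _ => rfl))]
    simp
  rw [hz, Fintype.card_unit, one_mul, one_mul]
  have h1 : Fintype.card F ^ (2 * m - 1) = Fintype.card F ^ m * Fintype.card F ^ (m - 1) := by
    rw [← pow_add]
    congr 1
    omega
  rw [h1, Nat.sub_mul, one_mul]
  have h2 : Fintype.card F ^ (m - 1) ≤ Fintype.card F ^ m * Fintype.card F ^ (m - 1) :=
    Nat.le_mul_of_pos_left _ (pow_pos Fintype.card_pos _)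
  omega

end Cfsg.Agent.S0289
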