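import Cfsg.Statements.S0287
import Mathlib
import Cfsg.Agent.Lib.Helper3.OrthForms
import Cfsg.Agent.S0289

set_option autoImplicit false
open Cfsg

namespace Cfsg.Agent.S0287

theorem arith_factor (A B : ℕ) (hB : 1 ≤ B) : B * A + B - A - 1 = (B - 1) * (A + 1) := by
  obtain ⟨B', rfl⟩ := Nat.exists_eq_add_of_le hB
  have a1 : (1 + B') * A = A + B' * A := by ring
  have a2 : (1 + B' - 1) * (A + 1) = B' * A + B' := by rw [Nat.add_sub_cancel_left]; ring
  omega

theorem arith_sq (A : ℕ) (hA : 1 ≤ A) : A * A - 1 = (A + 1) * (A - 1) := by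
  obtain ⟨A', rfl⟩ := Nat.exists_eq_add_of_le hA
  have a1 : (1 + A') * (1 + A') = 1 + (1 + A' + 1) * A' := by ring
  rw [a1, Nat.add_sub_cancel_left, Nat.add_sub_cancel_left]

theorem card_plus_closed {F : Type*} [Field F] [Fintype F] (k : ℕ) :
    Nat.card (Cfsg.isometryGroup F (Cfsg.quadFormPlus (k + 1) F))
      = 2 * Fintype.card F ^ ((k + 1) * k) * (Fintype.card F ^ (k + 1) - 1)
        * ∏ i ∈ Finset.range k, (Fintype.card F ^ (2 * (i + 1)) - 1) := by
  have hq : 1 ≤ Fintype.card F := Fintype.card_pos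
  induction k with
  | zero =>
    rw [Cfsg.Agent.Lib.Helper3.card_plus_succ, Cfsg.Agent.Lib.Helper3.card_plus_zero,
      Cfsg.Agent.S0289.result rfl 1 le_rfl]
    simp
    omega
  | succ k ih =>
    rw [Cfsg.Agent.Lib.Helper3.card_plus_succ, ih,
      Cfsg.Agent.S0289.result rfl (k + 1 + 1) (by omega)]
    set q := Fintype.card F with hqdef
    have e1 : q ^ (2 * (k + 1 + 1) - 1) = q ^ (k + 1 + 1) * q ^ (k + 1) := by
      rw [← pow_add]; congr 1; omega
    have e2 : k + 1 + 1 - 1 = k + 1 := by omega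
    rw [e1, e2, arith_factor _ _ (Nat.one_le_pow _ _ hq)]
    have h2 : q ^ (2 * (k + 1)) - 1 = (q ^ (k + 1) + 1) * (q ^ (k + 1) - 1) := by
      have e3 : q ^ (2 * (k + 1)) = q ^ (k + 1) * q ^ (k + 1) := by
        rw [← pow_add]; congr 1; omega
      rw [e3, arith_sq _ (Nat.one_le_pow _ _ hq)]
    have h3 : q ^ ((k + 1 + 1) * (k + 1)) = q ^ (2 * (k + 1)) * q ^ ((k + 1) * k) := by
      rw [← pow_add]; congr 1; ring
    rw [Finset.prod_range_succ, h2, h3]
    ring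

/-- |GO^+_{2m}(q)| = 2 q^(m(m-1)) (q^m - 1) prod_{i=1}^{m-1} (q^(2i) - 1), m at least 1, all q. -/
theorem result {F : Type*} [Field F] [Fintype F] {q : ℕ} (hF : Fintype.card F = q) (m : ℕ) (hm : 1 ≤ m) : Nat.card (Cfsg.isometryGroup F (Cfsg.quadFormPlus m F)) = 2 * q ^ (m * (m - 1)) * (q ^ m - 1) * ∏ i ∈ Finset.range (m - 1), (q ^ (2 * (i + 1)) - 1) := by
  subst hF
  obtain ⟨k, rfl⟩ : ∃ k, m = k + 1 := ⟨m - 1, by omega⟩
  rw [card_plus_closed k]
  simp only [Nat.add_sub_cancel]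

end Cfsg.Agent.S0287
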