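import Cfsg.Statements.S0302
import Mathlib
import Cfsg.Agent.S0287
import Cfsg.Agent.S0249
import Cfsg.Agent.S0242
import Cfsg.Agent.Lib.Helper16.SpinQuot
import Cfsg.Agent.Lib.Helper16.SpinForms
import Cfsg.Agent.Lib.Helper3.OmegaTools
import Cfsg.Agent.Lib.Helper3.OrthCount

set_option autoImplicit false
open Cfsg

namespace Cfsg.Agent.S0302

open Matrix Cfsg.Agent.Lib.Helper16 Cfsg.Agent.Lib.Helper3
open scoped commutatorElement

variable {F : Type*} [Field F]

/-- The ordered pair of indices attached to a coordinate of the exterior square. -/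
def pr : Fin 3 ⊕ Fin 3 → Fin 4 × Fin 4 :=
  Sum.elim ![(0, 1), (0, 2), (0, 3)] ![(2, 3), (3, 1), (1, 2)]

/-- The exterior square of a `4 × 4` matrix (matrix of `2 × 2` minors). -/
def W (g : Matrix (Fin 4) (Fin 4) F) : Matrix (Fin 3 ⊕ Fin 3) (Fin 3 ⊕ Fin 3) F :=
  Matrix.of fun P P' => g (pr P).1 (pr P').1 * g (pr P).2 (pr P').2
    - g (pr P).1 (pr P').2 * g (pr P).2 (pr P').1

theorem minor_mul (g h : Matrix (Fin 4) (Fin 4) F) (i j k l : Fin 4) :
    (g * h) i k * (g * h) j l - (g * h) i l * (g * h) j k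
      = ∑ P : Fin 3 ⊕ Fin 3, (g i (pr P).1 * g j (pr P).2 - g i (pr P).2 * g j (pr P).1)
          * (h (pr P).1 k * h (pr P).2 l - h (pr P).1 l * h (pr P).2 k) := by
  simp [pr, Matrix.mul_apply, Fintype.sum_sum_type, Fin.sum_univ_three, Fin.sum_univ_four]
  ring

theorem W_mul (g h : Matrix (Fin 4) (Fin 4) F) : W (g * h) = W g * W h := by
  ext P P'
  rw [Matrix.mul_apply]
  exact minor_mul g h _ _ _ _

theorem W_one : W (1 : Matrix (Fin 4) (Fin 4) F) = 1 := by
  ext (i | i) (j | j) <;> fin_cases i <;> fin_cases j <;>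
    simp [W, pr, Matrix.one_apply]

theorem W_quad (g : Matrix (Fin 4) (Fin 4) F) (v : Fin 3 ⊕ Fin 3 → F) :
    Cfsg.quadFormPlus 3 F (W g *ᵥ v) = g.det * Cfsg.quadFormPlus 3 F v := by
  rw [Matrix.det_succ_row_zero]
  simp only [Fin.sum_univ_succ, Fin.sum_univ_zero, Matrix.det_fin_three]
  unfold Cfsg.quadFormPlus
  simp [W, pr, Matrix.mulVec, dotProduct, Fintype.sum_sum_type, Fin.sum_univ_three, Fin.succAbove]
  ring

/-- The exterior square representation of `SL₄` as isometries of the Klein quadric. -/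
noncomputable def wHom : Matrix.SpecialLinearGroup (Fin 4) F →*
    ↥(Cfsg.isometryGroup F (Cfsg.quadFormPlus 3 F)) where
  toFun g := ⟨⟨W g.1, W (g⁻¹).1,
      by rw [← W_mul, ← Matrix.SpecialLinearGroup.coe_mul, mul_inv_cancel]; exact W_one,
      by rw [← W_mul, ← Matrix.SpecialLinearGroup.coe_mul, inv_mul_cancel]; exact W_one⟩,
    (Cfsg.Agent.Lib.Helper3.mem_isometryGroup_iff _ _).2 (fun u => by
      show Cfsg.quadFormPlus 3 F (W g.1 *ᵥ u) = _
      rw [W_quad, g.2, one_mul])⟩
  map_one' := by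
    apply Subtype.ext
    apply Units.ext
    exact W_one
  map_mul' g h := by
    apply Subtype.ext
    apply Units.ext
    exact W_mul g.1 h.1

theorem wHom_coe (g : Matrix.SpecialLinearGroup (Fin 4) F) :
    (((wHom g : ↥(Cfsg.isometryGroup F (Cfsg.quadFormPlus 3 F))) :
      Matrix.GeneralLinearGroup (Fin 3 ⊕ Fin 3) F) :
        Matrix (Fin 3 ⊕ Fin 3) (Fin 3 ⊕ Fin 3) F) = W g.1 := rfl

theorem W_of_wHom_eq_one (g : Matrix.SpecialLinearGroup (Fin 4) F) (H : wHom g = 1) :
    W g.1 = 1 := by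
  have e := congrArg (fun x : ↥(Cfsg.isometryGroup F (Cfsg.quadFormPlus 3 F)) =>
    ((x : Matrix.GeneralLinearGroup (Fin 3 ⊕ Fin 3) F) :
        Matrix (Fin 3 ⊕ Fin 3) (Fin 3 ⊕ Fin 3) F)) H
  simp only [wHom_coe] at e
  exact e

theorem wHom_ker_le_center :
    (wHom (F := F)).ker ≤ Subgroup.center (Matrix.SpecialLinearGroup (Fin 4) F) := by
  have hsimple : IsSimpleGroup (Matrix.ProjectiveSpecialLinearGroup (Fin 4) F) :=
    Cfsg.Agent.S0249.result 4 (by norm_num)
  have hN : ((wHom (F := F)).ker.map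
      (QuotientGroup.mk' (Subgroup.center (Matrix.SpecialLinearGroup (Fin 4) F)))).Normal :=
    Subgroup.Normal.map inferInstance _ (QuotientGroup.mk'_surjective _)
  rcases hN.eq_bot_or_eq_top with h | h
  · have := (Subgroup.map_eq_bot_iff _).1 h
    rwa [QuotientGroup.ker_mk'] at this
  · exfalso
    have hz : ∀ a : Matrix.SpecialLinearGroup (Fin 4) F,
        ∃ z ∈ Subgroup.center (Matrix.SpecialLinearGroup (Fin 4) F), wHom a = wHom z := by
      intro a
      have ha : (QuotientGroup.mk' (Subgroup.center (Matrix.SpecialLinearGroup (Fin 4) F))) a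
          ∈ (wHom (F := F)).ker.map
            (QuotientGroup.mk' (Subgroup.center (Matrix.SpecialLinearGroup (Fin 4) F))) := by
        rw [h]
        exact Subgroup.mem_top _
      obtain ⟨k, hk, hka⟩ := ha
      have hmem : k⁻¹ * a ∈ Subgroup.center (Matrix.SpecialLinearGroup (Fin 4) F) :=
        QuotientGroup.eq.1 hka
      refine ⟨k⁻¹ * a, hmem, ?_⟩
      rw [map_mul, map_inv, MonoidHom.mem_ker.1 hk, inv_one, one_mul]
    have hcomm : commutator (Matrix.SpecialLinearGroup (Fin 4) F) ≤ (wHom (F := F)).ker := by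
      rw [commutator_def, Subgroup.commutator_le]
      intro a _ b _
      obtain ⟨z, hz1, hz2⟩ := hz a
      obtain ⟨z', hz1', hz2'⟩ := hz b
      rw [MonoidHom.mem_ker, map_commutatorElement, hz2, hz2', ← map_commutatorElement]
      have : ⁅z, z'⁆ = 1 := by
        rw [commutatorElement_eq_one_iff_commute]
        exact (Subgroup.mem_center_iff.1 hz1 z').symm
      rw [this, map_one]
    have htop : commutator (Matrix.SpecialLinearGroup (Fin 4) F) = ⊤ :=
      sl_commutator_eq_top (by rw [Fintype.card_fin]; norm_num)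
    rw [htop] at hcomm
    have ht : wHom (Matrix.SpecialLinearGroup.transvection (show (0 : Fin 4) ≠ 1 by decide) (1 : F))
        = 1 := MonoidHom.mem_ker.1 (hcomm (Subgroup.mem_top _))
    have hW := W_of_wHom_eq_one _ ht
    have h12 := congrFun (congrFun hW (Sum.inl 1)) (Sum.inr 2)
    rw [Matrix.SpecialLinearGroup.transvection_coe] at h12
    simp [W, pr, Matrix.add_apply, Matrix.one_apply, Matrix.single_apply] at h12

theorem wHom_ker (g : Matrix.SpecialLinearGroup (Fin 4) F) (H : wHom g = 1) :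
    (g.1 0 0 = 1 ∨ g.1 0 0 = -1) ∧ g.1 = Matrix.scalar (Fin 4) (g.1 0 0) := by
  have hc := wHom_ker_le_center (MonoidHom.mem_ker.2 H)
  obtain ⟨r, hr, hrg⟩ := Matrix.SpecialLinearGroup.mem_center_iff.1 hc
  have hW := W_of_wHom_eq_one _ H
  have h00 := congrFun (congrFun hW (Sum.inl 0)) (Sum.inl 0)
  rw [← hrg] at h00 ⊢
  simp [W, pr] at h00
  refine ⟨?_, by simp⟩
  simpa using mul_self_eq_one_iff.1 h00

/-- PΩ^+_6(q) is isomorphic to PSL_4(q). -/
theorem result {F : Type*} [Field F] [Fintype F] : Nonempty (Cfsg.POmega F (Cfsg.quadFormPlus 3 F) ≃* Matrix.ProjectiveSpecialLinearGroup (Fin 4) F) := by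
  classical
  have hG := Cfsg.Agent.S0287.card_plus_closed (F := F) 2
  have hSL0 := Cfsg.Agent.S0242.result (F := F) rfl 4 (by norm_num)
  have hGS : Nat.card ↥(Cfsg.isometryGroup F (Cfsg.quadFormPlus 3 F))
      = 2 * Nat.card (Matrix.SpecialLinearGroup (Fin 4) F) := by
    have hq : 2 ≤ Fintype.card F := Fintype.one_lt_card
    rw [hG]
    simp only [Fin.prod_univ_four, Fin.isValue, Fin.val_zero, Fin.val_one, Fin.val_two, pow_zero,
      pow_one] at hSL0
    simp only [Finset.prod_range_succ, Finset.prod_range_zero, one_mul] at hSL0 ⊢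
    generalize Fintype.card F = q at hq hSL0 ⊢
    generalize Nat.card (Matrix.SpecialLinearGroup (Fin 4) F) = S at hSL0 ⊢
    have e3 : ((3 : Fin 4) : ℕ) = 3 := rfl
    rw [e3] at hSL0
    have h1 : 1 ≤ q := by omega
    have h2 : 1 ≤ q ^ 2 := Nat.one_le_pow _ _ (by omega)
    have h3 : 1 ≤ q ^ 3 := Nat.one_le_pow _ _ (by omega)
    have h4 : 1 ≤ q ^ 4 := Nat.one_le_pow _ _ (by omega)
    have h5 : q ≤ q ^ 4 := by
      calc q = q ^ 1 := (pow_one q).symm
        _ ≤ q ^ 4 := Nat.pow_le_pow_right (by omega) (by norm_num)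
    have h6 : q ^ 2 ≤ q ^ 4 := Nat.pow_le_pow_right (by omega) (by norm_num)
    have h7 : q ^ 3 ≤ q ^ 4 := Nat.pow_le_pow_right (by omega) (by norm_num)
    have hpos : 0 < q - 1 := by omega
    apply Nat.eq_of_mul_eq_mul_left hpos
    have e : (q - 1) * (2 * S) = 2 * ((q - 1) * S) := by ring
    rw [e, hSL0]
    zify [h1, h2, h3, h4, h5, h6, h7]
    ring
  have hk : ∀ x : (wHom (F := F)).ker, (x.1.1 0 0 = 1 ∨ x.1.1 0 0 = -1)
      ∧ x.1.1 = Matrix.scalar (Fin 4) (x.1.1 0 0) :=
    fun x => wHom_ker x.1 (MonoidHom.mem_ker.1 x.2)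
  have hkc : Nat.card (wHom (F := F)).ker ≤ 2 := by
    have hinj : Function.Injective (fun x : (wHom (F := F)).ker => decide (x.1.1 0 0 = 1)) := by
      intro x y hxy
      have hx := hk x
      have hy := hk y
      have h' : (x.1.1 0 0 = 1) ↔ (y.1.1 0 0 = 1) := by simpa using hxy
      have h00 : x.1.1 0 0 = y.1.1 0 0 := by
        rcases hx.1 with h1 | h1 <;> rcases hy.1 with h3 | h3
        · rw [h1, h3]
        · rw [h1]
          exact (h'.1 h1).symm
        · rw [h3]
          exact h'.2 h3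
        · rw [h1, h3]
      apply Subtype.ext
      apply Subtype.ext
      rw [hx.2, hy.2, h00]
    have := Nat.card_le_card_of_injective _ hinj
    simpa using this
  have hp : commutator (Matrix.SpecialLinearGroup (Fin 4) F) = ⊤ :=
    sl_commutator_eq_top (by rw [Fintype.card_fin]; norm_num)
  have hkr := Subgroup.card_mul_index (wHom (F := F)).ker
  rw [Subgroup.index_ker] at hkr
  have hrange : (wHom (F := F)).range = Cfsg.Omega F (Cfsg.quadFormPlus 3 F) := by
    by_cases h2 : (2 : F) = 0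
    · have hk1 : Nat.card (wHom (F := F)).ker = 1 := by
        have hbot : (wHom (F := F)).ker = ⊥ := by
          rw [Subgroup.eq_bot_iff_forall]
          intro x hx
          have hx' := hk ⟨x, hx⟩
          have h1 : x.1 0 0 = 1 := by
            rcases hx'.1 with h | h
            · exact h
            · rw [h]
              linear_combination -h2
          apply Subtype.ext
          rw [hx'.2, h1]
          simp
        rw [hbot, Subgroup.card_bot]
      apply range_eq_commutator_of_index_two wHom hp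
      rw [hk1, one_mul] at hkr
      rw [hkr, hGS]
    · have hnd := qfPlus_nondeg 3 F
      have hn : 2 ≤ Fintype.card (Fin 3 ⊕ Fin 3) := by
        rw [Fintype.card_sum, Fintype.card_fin]
        norm_num
      let t' : Matrix.SpecialLinearGroup (Fin 4) F →*
        ↥(Cfsg.isometryGroup F (⇑(qfPlus 3 F))) := wHom
      have hr := range_eq_omega_odd (qfPlus 3 F) h2 hnd hn t'
        (fun x => sl_map_mem_omega (qfPlus 3 F) h2 hnd hn t' x) (by
        show Nat.card ↥(Cfsg.isometryGroup F (Cfsg.quadFormPlus 3 F)) * Nat.card (wHom (F := F)).ker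
          ≤ 4 * Nat.card (Matrix.SpecialLinearGroup (Fin 4) F)
        rw [hGS]
        calc 2 * Nat.card (Matrix.SpecialLinearGroup (Fin 4) F) * Nat.card (wHom (F := F)).ker
            ≤ 2 * Nat.card (Matrix.SpecialLinearGroup (Fin 4) F) * 2 := Nat.mul_le_mul_left _ hkc
          _ = 4 * Nat.card (Matrix.SpecialLinearGroup (Fin 4) F) := by ring)
      exact hr
  let φ : Matrix.SpecialLinearGroup (Fin 4) F →* ↥(Cfsg.Omega F (Cfsg.quadFormPlus 3 F)) :=
    wHom.codRestrict _ (fun x => hrange ▸ ⟨x, rfl⟩)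
  have hsurj : Function.Surjective φ := by
    rintro ⟨y, hy⟩
    rw [← hrange] at hy
    obtain ⟨x, rfl⟩ := hy
    exact ⟨x, rfl⟩
  have hφk : φ.ker ≤ Subgroup.center (Matrix.SpecialLinearGroup (Fin 4) F) := by
    intro g hg
    apply wHom_ker_le_center
    rw [MonoidHom.mem_ker] at hg ⊢
    exact congrArg Subtype.val hg
  obtain ⟨e1⟩ := quot_center_equiv φ hsurj (central_of_perfect φ hφk hp)
  exact ⟨e1⟩

end Cfsg.Agent.S0302
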