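import Cfsg.Statements.S0256
import Mathlib
import Cfsg.Agent.Lib.Helper3.PSLCongr
import Cfsg.Agent.S0302
import Cfsg.Agent.S2565

set_option autoImplicit false
open Cfsg

namespace Cfsg.Agent.S0256

/-- PSL_4(2) is isomorphic to A_8. -/
theorem result {F : Type*} [Field F] [Fintype F] (hF : Fintype.card F = 2) : Nonempty (Matrix.ProjectiveSpecialLinearGroup (Fin 4) F ≃* alternatingGroup (Fin 8)) := by
  classical
  let e : ZMod 2 ≃+* F := ZMod.ringEquivOfPrime F Nat.prime_two hF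
  obtain ⟨e1⟩ := Cfsg.Agent.S0302.result (F := ZMod 2)
  obtain ⟨e2⟩ := Cfsg.Agent.S2565.result.2
  have hc : Subgroup.center ↥(Cfsg.Omega (ZMod 2) (Cfsg.quadFormPlus 3 (ZMod 2))) = ⊥ :=
    Cfsg.Agent.Lib.Helper3.center_eq_bot_of_mulEquiv e2
      (alternatingGroup.center_eq_bot (by rw [Nat.card_eq_fintype_card, Fintype.card_fin]; norm_num))
  exact ⟨(Cfsg.Agent.Lib.Helper3.pslCongr (Fin 4) e.symm).trans
    (e1.symm.trans ((Cfsg.Agent.Lib.Helper3.quotCenterOfBot hc).trans e2))⟩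

end Cfsg.Agent.S0256
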