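import Cfsg.Statements.S1262
import Cfsg.Agent.Lib.Helper11.Bender

set_option autoImplicit false
open Cfsg

namespace Cfsg.Agent.S1262

/-- Let L be a component of the finite group G and H a solvable subgroup normalized by L. Then ⁅L, H⁆ = 1. -/
theorem result {G : Type*} [Group G] [Finite G] (L H : Subgroup G) (hL : Cfsg.IsComponent L) (hsolv : Group.IsSolvable ↥H) (hinv : L ≤ Subgroup.normalizer (H : Set G)) : ⁅L, H⁆ = ⊥ := by
  classical
  set M := L ⊔ H with hM
  have hLM : L ≤ M := le_sup_left
  have hHM : H ≤ M := le_sup_right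
  have hMN : M ≤ Subgroup.normalizer (H : Set G) := sup_le hinv Subgroup.le_normalizer
  have hL' : Cfsg.IsComponent (L.subgroupOf M) := Cfsg.Agent.Lib.Helper11.component_subgroupOf hL hLM
  have hH' : (H.subgroupOf M).Normal := (Subgroup.normal_subgroupOf_iff_le_normalizer hHM).2 hMN
  have hsol' : Group.IsSolvable (H.subgroupOf M) :=
    Group.isSolvable_of_isSolvable_injective (f := (Subgroup.subgroupOfEquivOfLe hHM).toMonoidHom)
      (Subgroup.subgroupOfEquivOfLe hHM).injective
  have h1 := Cfsg.Agent.Lib.Helper11.component_comm_solvable_subnormal hL' hH'.isSubnormal hsol'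
  have h2 := Cfsg.Agent.Lib.Helper11.comm_of_subgroupOf_comm h1
  rw [inf_of_le_left hLM, inf_of_le_left hHM] at h2
  exact h2

end Cfsg.Agent.S1262
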