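import Mathlib
import Cfsg.Statements.S1467

set_option autoImplicit false
open Cfsg

namespace Cfsg.Agent.S1467

theorem step_anti {G : Type*} [Group G] {X Y : Subgroup G} (h : X ≤ Y) :
    Cfsg.puigStep Y ≤ Cfsg.puigStep X := by
  unfold Cfsg.puigStep
  apply sSup_le_sSup
  intro A hA
  exact ⟨hA.1, h.trans hA.2⟩

theorem step_bot {G : Type*} [Group G] : Cfsg.puigStep (⊥ : Subgroup G) = ⊤ := by
  rw [eq_top_iff]
  intro g _
  have h1 : Subgroup.zpowers g ≤ Cfsg.puigStep (⊥ : Subgroup G) := by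
    unfold Cfsg.puigStep
    apply le_sSup
    refine ⟨?_, bot_le⟩
    exact inferInstance
  exact h1 (Subgroup.mem_zpowers g)

theorem seq_succ (G : Type*) [Group G] (n : ℕ) :
    Cfsg.puigSeq G (n + 1) = Cfsg.puigStep (Cfsg.puigSeq G n) := rfl

theorem even_mono (G : Type*) [Group G] (n : ℕ) :
    Cfsg.puigSeq G (2 * n) ≤ Cfsg.puigSeq G (2 * n + 2) ∧
    Cfsg.puigSeq G (2 * n + 3) ≤ Cfsg.puigSeq G (2 * n + 1) := by
  induction n with
  | zero =>
    have h0 : Cfsg.puigSeq G 0 ≤ Cfsg.puigSeq G 2 := by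
      show (⊥ : Subgroup G) ≤ _
      exact bot_le
    refine ⟨h0, ?_⟩
    have := step_anti h0
    exact this
  | succ n ih =>
    have h1 : Cfsg.puigSeq G (2 * n + 2) ≤ Cfsg.puigSeq G (2 * n + 4) := step_anti ih.2
    have h2 : Cfsg.puigSeq G (2 * n + 5) ≤ Cfsg.puigSeq G (2 * n + 3) := step_anti h1
    exact ⟨h1, h2⟩

theorem even_le_odd (G : Type*) [Group G] (n : ℕ) :
    Cfsg.puigSeq G (2 * n) ≤ Cfsg.puigSeq G (2 * n + 1) := by
  induction n with
  | zero => show (⊥ : Subgroup G) ≤ _; exact bot_le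
  | succ n ih =>
    have h1 : Cfsg.puigSeq G (2 * n + 2) ≤ Cfsg.puigSeq G (2 * n + 1) := step_anti ih
    have h2 : Cfsg.puigSeq G (2 * n + 2) ≤ Cfsg.puigSeq G (2 * n + 3) := step_anti h1
    exact h2

theorem even_monotone (G : Type*) [Group G] : Monotone (fun n => Cfsg.puigSeq G (2 * n)) :=
  monotone_nat_of_le_succ (fun n => (even_mono G n).1)

theorem odd_antitone (G : Type*) [Group G] : Antitone (fun n => Cfsg.puigSeq G (2 * n + 1)) :=
  antitone_nat_of_succ_le (fun n => (even_mono G n).2)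

theorem even_le_odd' (G : Type*) [Group G] (n m : ℕ) :
    Cfsg.puigSeq G (2 * n) ≤ Cfsg.puigSeq G (2 * m + 1) := by
  rcases le_total n m with h | h
  · exact (even_monotone G h).trans (even_le_odd G m)
  · exact (even_le_odd G n).trans (odd_antitone G h)

/-- Let G be a finite group with Puig series L_n(G). Then L_0 = 1, L_1 = G; L_{2n} ≤ L_{2n+2} ≤ L_{2m+3} ≤ L_{2m+1} for all n, m; there is k with L_{2n}(G) = L_*(G) and L_{2n+1}(G) = L(G) for all n ≥ k; L_*(G) ≤ L(G); and applying one Puig step to L_*(G) gives L(G) and to L(G) gives L_*(G). -/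
theorem result {G : Type*} [Group G] [Finite G] :
    Cfsg.puigSeq G 0 = ⊥ ∧ Cfsg.puigSeq G 1 = ⊤ ∧
      (∀ n m : ℕ, Cfsg.puigSeq G (2 * n) ≤ Cfsg.puigSeq G (2 * n + 2) ∧ Cfsg.puigSeq G (2 * n) ≤ Cfsg.puigSeq G (2 * m + 1) ∧
        Cfsg.puigSeq G (2 * m + 3) ≤ Cfsg.puigSeq G (2 * m + 1)) ∧
      (∃ k : ℕ, ∀ n : ℕ, k ≤ n → Cfsg.puigSeq G (2 * n) = Cfsg.puigLower G ∧ Cfsg.puigSeq G (2 * n + 1) = Cfsg.puigSubgroup G) ∧
      Cfsg.puigLower G ≤ Cfsg.puigSubgroup G ∧
      Cfsg.puigStep (Cfsg.puigLower G) = Cfsg.puigSubgroup G ∧ Cfsg.puigStep (Cfsg.puigSubgroup G) = Cfsg.puigLower G := by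
  have hfin : Finite (Subgroup G) := inferInstance
  obtain ⟨k₁, hk₁⟩ := WellFoundedGT.monotone_chain_condition
    (⟨fun n => Cfsg.puigSeq G (2 * n), even_monotone G⟩ : ℕ →o Subgroup G)
  obtain ⟨k₂, hk₂⟩ := WellFoundedLT.antitone_chain_condition (odd_antitone G)
  simp only [OrderHom.coe_mk] at hk₁
  set k := max k₁ k₂ with hk
  have hE : ∀ n, k ≤ n → Cfsg.puigSeq G (2 * n) = Cfsg.puigSeq G (2 * k) := by
    intro n hn
    rw [← hk₁ n ((le_max_left _ _).trans hn), ← hk₁ k (le_max_left _ _)]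
  have hO : ∀ n, k ≤ n → Cfsg.puigSeq G (2 * n + 1) = Cfsg.puigSeq G (2 * k + 1) := by
    intro n hn
    rw [← hk₂ n ((le_max_right _ _).trans hn), ← hk₂ k (le_max_right _ _)]
  have hlow : Cfsg.puigLower G = Cfsg.puigSeq G (2 * k) := by
    unfold Cfsg.puigLower
    apply le_antisymm
    · apply iSup_le
      intro n
      rcases le_total n k with h | h
      · exact even_monotone G h
      · exact (hE n h).le
    · exact le_iSup (fun n => Cfsg.puigSeq G (2 * n)) k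
  have hup : Cfsg.puigSubgroup G = Cfsg.puigSeq G (2 * k + 1) := by
    unfold Cfsg.puigSubgroup
    apply le_antisymm
    · exact iInf_le (fun n => Cfsg.puigSeq G (2 * n + 1)) k
    · apply le_iInf
      intro n
      rcases le_total n k with h | h
      · exact odd_antitone G h
      · exact (hO n h).ge
  refine ⟨rfl, step_bot, ?_, ?_, ?_, ?_, ?_⟩
  · intro n m
    exact ⟨(even_mono G n).1, even_le_odd' G n m, (even_mono G m).2⟩
  · refine ⟨k, fun n hn => ?_⟩
    rw [hlow, hup]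
    exact ⟨hE n hn, hO n hn⟩
  · rw [hlow, hup]
    exact even_le_odd G k
  · rw [hlow, hup]
    rfl
  · rw [hlow, hup]
    have h1 : Cfsg.puigStep (Cfsg.puigSeq G (2 * k + 1)) = Cfsg.puigSeq G (2 * (k + 1)) := rfl
    rw [h1]
    exact hE (k + 1) (Nat.le_succ k)

end Cfsg.Agent.S1467
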