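import Mathlib
import Cfsg.Statements.S1466
import Cfsg.Agent.S1467

set_option autoImplicit false
open Cfsg

namespace Cfsg.Agent.S1466

/-- A nontrivial normal subgroup of a finite p-group contains a nontrivial central element. -/
theorem exists_center_mem_of_normal {Q : Type*} [Group Q] [Finite Q] (p : ℕ) [Fact p.Prime]
    (hQ : IsPGroup p Q) (N : Subgroup Q) [hN : N.Normal] (hN1 : N ≠ ⊥) :
    ∃ z ∈ N, z ∈ Subgroup.center Q ∧ z ≠ 1 := by
  let _ : MulAction Q N := MulAction.compHom N (MulAut.conjNormal : Q →* MulAut N)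
  have hsmul : ∀ (g : Q) (n : N), ((g • n : N) : Q) = g * n * g⁻¹ := by
    intro g n
    show ((MulAut.conjNormal g : MulAut N) n : Q) = g * n * g⁻¹
    exact MulAut.conjNormal_apply g n
  have hcard : p ∣ Nat.card N := by
    rcases (hQ.to_subgroup N).card_eq_or_dvd with h | h
    · exact absurd ((Subgroup.eq_bot_iff_card N).mpr h) hN1
    · exact h
  have h1 : (1 : N) ∈ MulAction.fixedPoints Q N := by
    intro g
    apply Subtype.ext
    rw [hsmul]
    simp
  obtain ⟨b, hb, hb1⟩ := hQ.exists_fixed_point_of_prime_dvd_card_of_fixed_point N hcard h1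
  refine ⟨(b : Q), b.2, ?_, ?_⟩
  · rw [Subgroup.mem_center_iff]
    intro g
    have h2 : ((g • b : N) : Q) = (b : Q) := congrArg Subtype.val (hb g)
    rw [hsmul] at h2
    calc g * (b : Q) = (g * (b : Q) * g⁻¹) * g := by group
      _ = (b : Q) * g := by rw [h2]
  · intro h
    apply hb1
    apply Subtype.ext
    exact h.symm

/-- A finite p-group has a normal abelian subgroup containing its own centralizer. -/
theorem exists_self_centralizing {R : Type*} [Group R] [Finite R] (p : ℕ) [Fact p.Prime]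
    (hR : IsPGroup p R) :
    ∃ A : Subgroup R, A.Normal ∧ IsMulCommutative A ∧ Subgroup.centralizer (A : Set R) ≤ A := by
  have hbot : (fun A : Subgroup R => A.Normal ∧ IsMulCommutative A) ⊥ :=
    ⟨inferInstance, inferInstance⟩
  obtain ⟨A, -, hA⟩ := Finite.exists_le_maximal (p := fun A : Subgroup R => A.Normal ∧ IsMulCommutative A) hbot
  obtain ⟨⟨hAn, hAc⟩, hmax⟩ := hA
  refine ⟨A, hAn, hAc, ?_⟩
  by_contra hcon
  have := hAn
  have hAC : A ≤ Subgroup.centralizer (A : Set R) := Subgroup.le_centralizer_iff_isMulCommutative.mpr hAc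
  -- the quotient
  set π := QuotientGroup.mk' A with hπ
  set N := (Subgroup.centralizer (A : Set R)).map π with hNdef
  have hCn : (Subgroup.centralizer (A : Set R)).Normal := inferInstance
  have hNn : N.Normal := Subgroup.Normal.map hCn π (QuotientGroup.mk'_surjective A)
  have hN1 : N ≠ ⊥ := by
    intro h
    apply hcon
    intro x hx
    have : π x ∈ N := Subgroup.mem_map_of_mem π hx
    rw [h, Subgroup.mem_bot] at this
    exact (QuotientGroup.eq_one_iff x).mp this
  obtain ⟨z, hzN, hzc, hz1⟩ := exists_center_mem_of_normal p (hR.to_quotient A) N hN1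
  obtain ⟨x, hxC, rfl⟩ := hzN
  have hxA : x ∉ A := fun h => hz1 ((QuotientGroup.eq_one_iff x).mpr h)
  -- the bigger subgroup
  set B := (Subgroup.zpowers (π x)).comap π with hB
  have hBn : B.Normal := by
    have : (Subgroup.zpowers (π x)).Normal := by
      constructor
      intro n hn g
      have hnc : n ∈ Subgroup.center (R ⧸ A) :=
        (Subgroup.zpowers_le.mpr hzc) hn
      have : g * n * g⁻¹ = n := by
        rw [Subgroup.mem_center_iff] at hnc
        rw [hnc g]; group
      rw [this]; exact hn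
    exact Subgroup.Normal.comap inferInstance π
  have hBeq : B = Subgroup.zpowers x ⊔ A := by
    rw [hB, ← MonoidHom.map_zpowers, Subgroup.comap_map_eq, hπ, QuotientGroup.ker_mk']
  have hAB : A ≤ B := by rw [hBeq]; exact le_sup_right
  have hxB : x ∈ B := by rw [hBeq]; exact (le_sup_left : Subgroup.zpowers x ≤ _) (Subgroup.mem_zpowers x)
  have hBc : IsMulCommutative B := by
    rw [← Subgroup.le_centralizer_iff_isMulCommutative, hBeq]
    have hZA : Subgroup.zpowers x ≤ Subgroup.centralizer (A : Set R) :=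
      Subgroup.zpowers_le.mpr hxC
    have hZZ : Subgroup.zpowers x ≤ Subgroup.centralizer ((Subgroup.zpowers x : Subgroup R) : Set R) :=
      Subgroup.le_centralizer_iff_isMulCommutative.mpr inferInstance
    have hAZ : A ≤ Subgroup.centralizer ((Subgroup.zpowers x : Subgroup R) : Set R) :=
      Subgroup.le_centralizer_iff.mp hZA
    apply sup_le
    · exact Subgroup.le_centralizer_iff.mp (sup_le hZZ hAZ)
    · exact Subgroup.le_centralizer_iff.mp (sup_le hZA hAC)
  have := hmax ⟨hBn, hBc⟩ hAB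
  exact hxA (this hxB)

/-- Let p be a prime and R a nontrivial finite p-group. Then for every i > 0, Z(R) ≤ C_R(L_i(R)) ≤ L_i(R); likewise Z(R) ≤ C_R(L_*(R)) ≤ L_*(R) and Z(R) ≤ C_R(L(R)) ≤ L(R); and L(R) ≠ 1, L_*(R) ≠ 1. -/
theorem result {R : Type*} [Group R] [Finite R] (p : ℕ) [Fact p.Prime] (hR : IsPGroup p R) [Nontrivial R] :
    (∀ i : ℕ, 0 < i → Subgroup.center R ≤ Subgroup.centralizer ((Cfsg.puigSeq R i : Subgroup R) : Set R) ∧
        Subgroup.centralizer ((Cfsg.puigSeq R i : Subgroup R) : Set R) ≤ Cfsg.puigSeq R i) ∧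
      (Subgroup.center R ≤ Subgroup.centralizer ((Cfsg.puigLower R : Subgroup R) : Set R) ∧ Subgroup.centralizer ((Cfsg.puigLower R : Subgroup R) : Set R) ≤ Cfsg.puigLower R) ∧
      (Subgroup.center R ≤ Subgroup.centralizer ((Cfsg.puigSubgroup R : Subgroup R) : Set R) ∧ Subgroup.centralizer ((Cfsg.puigSubgroup R : Subgroup R) : Set R) ≤ Cfsg.puigSubgroup R) ∧
      Cfsg.puigSubgroup R ≠ ⊥ ∧ Cfsg.puigLower R ≠ ⊥ := by
  obtain ⟨A, hAn, hAc, hCA⟩ := exists_self_centralizing p hR
  have hA1 : A ≠ ⊥ := by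
    intro h
    rw [h] at hCA
    have h2 : (⊤ : Subgroup R) ≤ ⊥ := by
      intro x _
      apply hCA
      rw [Subgroup.mem_centralizer_iff]
      intro y hy
      have : y = 1 := Subgroup.mem_bot.mp hy
      rw [this]; simp
    exact top_ne_bot (le_bot_iff.mp h2)
  have hA2 : A ≤ Cfsg.puigSeq R 2 := by
    show A ≤ Cfsg.puigStep (Cfsg.puigSeq R 1)
    rw [(Cfsg.Agent.S1467.result (G := R)).2.1]
    unfold Cfsg.puigStep
    apply le_sSup
    refine ⟨hAc, ?_⟩
    rw [Subgroup.normalizer_eq_top]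
  have hAi : ∀ i : ℕ, 0 < i → A ≤ Cfsg.puigSeq R i := by
    intro i hi
    rcases Nat.even_or_odd' i with ⟨k, hk | hk⟩
    · subst hk
      have hk1 : 1 ≤ k := by omega
      exact hA2.trans (Cfsg.Agent.S1467.even_monotone R hk1)
    · subst hk
      exact hA2.trans (Cfsg.Agent.S1467.even_le_odd' R 1 k)
  have hAlow : A ≤ Cfsg.puigLower R := by
    unfold Cfsg.puigLower
    exact hA2.trans (le_iSup (fun n => Cfsg.puigSeq R (2 * n)) 1)
  have hAup : A ≤ Cfsg.puigSubgroup R := by
    unfold Cfsg.puigSubgroup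
    apply le_iInf
    intro n
    exact hAi _ (by omega)
  have hgen : ∀ X : Subgroup R, A ≤ X →
      Subgroup.center R ≤ Subgroup.centralizer (X : Set R) ∧ Subgroup.centralizer (X : Set R) ≤ X := by
    intro X hX
    refine ⟨Subgroup.center_le_centralizer _, ?_⟩
    exact ((Subgroup.centralizer_le hX).trans hCA).trans hX
  refine ⟨fun i hi => hgen _ (hAi i hi), hgen _ hAlow, hgen _ hAup, ?_, ?_⟩
  · intro h; rw [h] at hAup; exact hA1 (le_bot_iff.mp hAup)
  · intro h; rw [h] at hAlow; exact hA1 (le_bot_iff.mp hAlow)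

end Cfsg.Agent.S1466
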