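import Cfsg.Statements.S1545
import Cfsg.Agent.Lib.Helper12.WElem
import Cfsg.Agent.Lib.Helper1.Coprime

set_option autoImplicit false
set_option linter.style.haveILetI false
open Cfsg

namespace Cfsg.Agent.S1545

section Aux

variable {X : Type*} [Group X]

theorem le_normalizer_of_conj_mem {K N : Subgroup X}
    (h : ∀ a ∈ K, ∀ x ∈ N, a * x * a⁻¹ ∈ N) : K ≤ Subgroup.normalizer (N : Set X) := by
  intro a ha
  rw [Subgroup.mem_normalizer_iff]
  intro x
  constructor
  · exact h a ha x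
  · intro hx
    have h1 := h a⁻¹ (K.inv_mem ha) _ hx
    have h2 : a⁻¹ * (a * x * a⁻¹) * a⁻¹⁻¹ = x := by group
    rwa [h2] at h1

/-- conjugation action of a normalising subgroup. -/
noncomputable def cj (A H : Subgroup X) (hAH : A ≤ Subgroup.normalizer (H : Set X)) :
    ↥A →* MulAut ↥H :=
  H.normalizerMonoidHom.comp (Subgroup.inclusion hAH)

theorem cj_apply (A H : Subgroup X) (hAH : A ≤ Subgroup.normalizer (H : Set X)) (a : A) (h : H) :
    ((cj A H hAH a h : H) : X) = (a : X) * (h : X) * (a : X)⁻¹ := rfl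

/-- the `p`-th power subgroup of the abelianization. -/
abbrev Pw (H : Subgroup X) (p : ℕ) : Subgroup (Abelianization ↥H) :=
  (powMonoidHom p : Abelianization ↥H →* Abelianization ↥H).range

/-- the elementary abelian quotient. -/
abbrev Vq (H : Subgroup X) (p : ℕ) : Type _ := Abelianization ↥H ⧸ Pw H p

/-- the quotient map. -/
noncomputable def theta (H : Subgroup X) (p : ℕ) : ↥H →* Vq H p :=
  (QuotientGroup.mk' (Pw H p)).comp Abelianization.of

theorem theta_surj (H : Subgroup X) (p : ℕ) : Function.Surjective (theta H p) := by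
  intro v
  obtain ⟨q, rfl⟩ := QuotientGroup.mk_surjective v
  obtain ⟨h, rfl⟩ := QuotientGroup.mk_surjective q
  exact ⟨h, rfl⟩

theorem Vq_exp (H : Subgroup X) (p : ℕ) (v : Vq H p) : v ^ p = 1 := by
  obtain ⟨q, rfl⟩ := QuotientGroup.mk_surjective v
  rw [← QuotientGroup.mk_pow, QuotientGroup.eq_one_iff]
  exact ⟨q, rfl⟩

theorem Pw_le (H : Subgroup X) (p : ℕ) (φ : ↥H →* ↥H) :
    Pw H p ≤ (Pw H p).comap (Abelianization.map φ) := by
  rintro _ ⟨y, rfl⟩
  rw [Subgroup.mem_comap]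
  exact ⟨Abelianization.map φ y, by simp [powMonoidHom_apply, map_pow]⟩

/-- the induced action on the quotient. -/
noncomputable def fmap (A H : Subgroup X) (hAH : A ≤ Subgroup.normalizer (H : Set X)) (p : ℕ)
    (a : A) : Vq H p →* Vq H p :=
  QuotientGroup.map (Pw H p) (Pw H p) (Abelianization.map (cj A H hAH a).toMonoidHom)
    (Pw_le H p _)

theorem fmap_theta (A H : Subgroup X) (hAH : A ≤ Subgroup.normalizer (H : Set X)) (p : ℕ)
    (a : A) (h : H) : fmap A H hAH p a (theta H p h) = theta H p (cj A H hAH a h) := rfl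

theorem fmap_one (A H : Subgroup X) (hAH : A ≤ Subgroup.normalizer (H : Set X)) (p : ℕ)
    (v : Vq H p) : fmap A H hAH p 1 v = v := by
  obtain ⟨h, rfl⟩ := theta_surj H p v
  rw [fmap_theta, map_one, MulAut.one_apply]

theorem fmap_mul (A H : Subgroup X) (hAH : A ≤ Subgroup.normalizer (H : Set X)) (p : ℕ)
    (a a' : A) (v : Vq H p) :
    fmap A H hAH p (a * a') v = fmap A H hAH p a (fmap A H hAH p a' v) := by
  obtain ⟨h, rfl⟩ := theta_surj H p v
  rw [fmap_theta, fmap_theta, fmap_theta, map_mul, MulAut.mul_apply]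

theorem one_lt_card_Vq [Finite X] (H : Subgroup X) (p : ℕ) [Fact p.Prime]
    (hp : p ∣ Nat.card (Abelianization ↥H)) : 1 < Nat.card (Vq H p) := by
  obtain ⟨y, hy⟩ := exists_prime_orderOf_dvd_card' p hp
  have hne : Pw H p ≠ ⊤ := by
    intro htop
    have hsurj : Function.Surjective (powMonoidHom p : Abelianization ↥H →* Abelianization ↥H) :=
      MonoidHom.range_eq_top.mp htop
    have hinj := Finite.injective_iff_surjective.mpr hsurj
    have h1 : (powMonoidHom p : Abelianization ↥H →* Abelianization ↥H) y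
        = (powMonoidHom p : Abelianization ↥H →* Abelianization ↥H) 1 := by
      rw [map_one, powMonoidHom_apply, ← hy, pow_orderOf_eq_one]
    have h2 := hinj h1
    rw [h2, orderOf_one] at hy
    exact (Fact.out : p.Prime).one_lt.ne hy
  have h3 : Nat.card (Vq H p) ≠ 1 := fun h => hne (Subgroup.index_eq_one.mp h)
  have h4 : 0 < Nat.card (Vq H p) := Nat.card_pos
  omega

theorem mem_kermap [Finite X] (H : Subgroup X) (p : ℕ) (x : X) :
    x ∈ (theta H p).ker.map H.subtype ↔ ∃ hx : x ∈ H, theta H p ⟨x, hx⟩ = 1 := by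
  constructor
  · rintro ⟨y, hy, rfl⟩
    exact ⟨y.2, hy⟩
  · rintro ⟨hx, h⟩
    exact ⟨⟨x, hx⟩, h, rfl⟩

theorem kermap_inv [Finite X] (A H : Subgroup X) (hAH : A ≤ Subgroup.normalizer (H : Set X))
    (p : ℕ) : ∀ a ∈ A, ∀ x ∈ (theta H p).ker.map H.subtype,
      a * x * a⁻¹ ∈ (theta H p).ker.map H.subtype := by
  intro a ha x hx
  obtain ⟨hxH, hθ⟩ := (mem_kermap H p x).mp hx
  rw [mem_kermap]
  have h1 := fmap_theta A H hAH p ⟨a, ha⟩ ⟨x, hxH⟩
  rw [hθ, map_one] at h1
  exact ⟨(cj A H hAH ⟨a, ha⟩ ⟨x, hxH⟩).2, h1.symm⟩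

theorem kermap_norm [Finite X] (H : Subgroup X) (p : ℕ) :
    H ≤ Subgroup.normalizer (((theta H p).ker.map H.subtype : Subgroup X) : Set X) := by
  apply le_normalizer_of_conj_mem
  intro a ha x hx
  obtain ⟨hxH, hθ⟩ := (mem_kermap H p x).mp hx
  rw [mem_kermap]
  refine ⟨H.mul_mem (H.mul_mem ha hxH) (H.inv_mem ha), ?_⟩
  have h1 : (⟨a * x * a⁻¹, H.mul_mem (H.mul_mem ha hxH) (H.inv_mem ha)⟩ : H)
      = (⟨a, ha⟩ : H) * ⟨x, hxH⟩ * (⟨a, ha⟩ : H)⁻¹ := rfl
  rw [h1, map_mul, map_mul, hθ, mul_one, map_inv, mul_inv_cancel]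

/-- counting fixed points through the quotient. -/
theorem fix_count [Finite X] (A H B : Subgroup X) (hAH : A ≤ Subgroup.normalizer (H : Set X))
    (hBA : B ≤ A) (hcop : (Nat.card B).Coprime (Nat.card H)) (hsolv : Group.IsSolvable H)
    (p : ℕ) :
    Nat.card ↥(H ⊓ Subgroup.centralizer (B : Set X))
      = Nat.card {v : Vq H p | ∀ a : A, (a : X) ∈ B → fmap A H hAH p a v = v}
        * Nat.card ↥(((theta H p).ker.map H.subtype) ⊓ Subgroup.centralizer (B : Set X)) := by
  set N : Subgroup X := (theta H p).ker.map H.subtype with hN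
  have hNH : N ≤ H := Subgroup.map_subtype_le _
  have hBN : B ≤ Subgroup.normalizer (N : Set X) :=
    le_normalizer_of_conj_mem (fun a ha x hx => kermap_inv A H hAH p a (hBA ha) x hx)
  set κ : ↥(H ⊓ Subgroup.centralizer (B : Set X)) →* Vq H p :=
    (theta H p).comp (Subgroup.inclusion inf_le_left) with hκ
  have h1 : Nat.card κ.ker * Nat.card κ.range
      = Nat.card ↥(H ⊓ Subgroup.centralizer (B : Set X)) := by
    rw [← Subgroup.index_ker]
    exact Subgroup.card_mul_index κ.ker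
  have h2 : Nat.card κ.ker = Nat.card ↥(N ⊓ Subgroup.centralizer (B : Set X)) := by
    have h3 : κ.ker.map (H ⊓ Subgroup.centralizer (B : Set X)).subtype
        = N ⊓ Subgroup.centralizer (B : Set X) := by
      ext x
      constructor
      · rintro ⟨y, hy, rfl⟩
        exact ⟨(mem_kermap H p _).mpr ⟨y.2.1, hy⟩, y.2.2⟩
      · rintro ⟨hxN, hxC⟩
        obtain ⟨hxH, hθ⟩ := (mem_kermap H p x).mp hxN
        exact ⟨⟨x, ⟨hxH, hxC⟩⟩, hθ, rfl⟩
    rw [← h3, Subgroup.card_map_of_injective (Subgroup.subtype_injective _)]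
  have h4 : Nat.card κ.range
      = Nat.card {v : Vq H p | ∀ a : A, (a : X) ∈ B → fmap A H hAH p a v = v} := by
    apply Nat.card_congr
    apply Equiv.setCongr
    ext v
    constructor
    · rintro ⟨y, rfl⟩
      intro a ha
      change fmap A H hAH p a (theta H p ⟨(y : X), y.2.1⟩) = theta H p ⟨(y : X), y.2.1⟩
      rw [fmap_theta]
      congr 1
      apply Subtype.ext
      rw [cj_apply]
      have h5 := (Subgroup.mem_centralizer_iff.mp y.2.2) (a : X) ha
      change (a : X) * (y : X) * (a : X)⁻¹ = (y : X)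
      rw [h5, mul_inv_cancel_right]
    · intro hv
      obtain ⟨k, rfl⟩ := theta_surj H p v
      have hfix : ∀ b ∈ B, b * (k : X) * b⁻¹ * (k : X)⁻¹ ∈ N := by
        intro b hb
        rw [hN, mem_kermap]
        have h5 := hv ⟨b, hBA hb⟩ hb
        rw [fmap_theta] at h5
        refine ⟨H.mul_mem (cj A H hAH ⟨b, hBA hb⟩ k).2 (H.inv_mem k.2), ?_⟩
        have h6 : (⟨b * (k : X) * b⁻¹ * (k : X)⁻¹,
            H.mul_mem (cj A H hAH ⟨b, hBA hb⟩ k).2 (H.inv_mem k.2)⟩ : H)
            = cj A H hAH ⟨b, hBA hb⟩ k * k⁻¹ := rfl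
        rw [h6, map_mul, h5, map_inv, mul_inv_cancel]
      obtain ⟨c, hc, hkc⟩ := Cfsg.Agent.Lib.Helper1.coprime_fixed_quotient B H (hBA.trans hAH)
        hcop (Or.inr hsolv) N hNH (kermap_norm H p) hBN (k : X) k.2 hfix
      refine ⟨⟨c, hc⟩, ?_⟩
      rw [hN, mem_kermap] at hkc
      obtain ⟨hx, hθ⟩ := hkc
      have h7 : (⟨(k : X)⁻¹ * c, hx⟩ : H) = k⁻¹ * ⟨c, hc.1⟩ := rfl
      rw [h7, map_mul, map_inv, inv_mul_eq_one] at hθ
      exact hθ.symm
  rw [← h1, h2, h4, mul_comm]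

end Aux

theorem main_aux {X : Type*} [Group X] [Finite X] (U E : Subgroup X) (hUE : U ⊓ E = ⊥)
    (hUn : ∀ e ∈ E, ∀ u ∈ U, e * u * e⁻¹ ∈ U)
    (hfpf : ∀ e ∈ E, e ≠ 1 → ∀ u ∈ U, e * u = u * e → u = 1) :
    ∀ (n : ℕ) (H : Subgroup X), Nat.card H = n →
      (∀ x ∈ U ⊔ E, ∀ h ∈ H, x * h * x⁻¹ ∈ H) → Group.IsSolvable H →
      Nat.Coprime (Nat.card H) (Nat.card ↥(U ⊔ E)) →
      Nat.card ↥(H ⊓ Subgroup.centralizer ((U ⊔ E : Subgroup X) : Set X)) ^ Nat.card E
          * Nat.card H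
        = Nat.card ↥(H ⊓ Subgroup.centralizer (E : Set X)) ^ Nat.card E
          * Nat.card ↥(H ⊓ Subgroup.centralizer (U : Set X)) := by
  intro n
  induction n using Nat.strong_induction_on with
  | _ n ih =>
  intro H hn hHn hsolv hcop
  by_cases hH1 : H = ⊥
  · subst hH1
    simp
  set A : Subgroup X := U ⊔ E with hAdef
  have hAH : A ≤ Subgroup.normalizer (H : Set X) := le_normalizer_of_conj_mem hHn
  haveI : Nontrivial ↥H := (Subgroup.nontrivial_iff_ne_bot H).mpr hH1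
  haveI := hsolv
  have hcomm_lt := Group.IsSolvable.commutator_lt_top_of_nontrivial ↥H
  have hQ1 : Nat.card (Abelianization ↥H) ≠ 1 := fun h =>
    hcomm_lt.ne (Subgroup.index_eq_one.mp h)
  set p := (Nat.card (Abelianization ↥H)).minFac with hpdef
  have hp : p.Prime := Nat.minFac_prime hQ1
  haveI : Fact p.Prime := ⟨hp⟩
  have hpQ : p ∣ Nat.card (Abelianization ↥H) := Nat.minFac_dvd _
  have hpH : p ∣ Nat.card H := hpQ.trans (Subgroup.index_dvd_card (commutator ↥H))
  have hpA : ¬ p ∣ Nat.card ↥A := by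
    intro h
    have h1 := Nat.dvd_gcd hpH h
    rw [Nat.Coprime.gcd_eq_one hcop] at h1
    exact hp.one_lt.ne' (Nat.dvd_one.mp h1)
  set N : Subgroup X := (theta H p).ker.map H.subtype with hN
  have hNH : N ≤ H := Subgroup.map_subtype_le _
  have hcardN : Nat.card N = Nat.card (theta H p).ker :=
    Subgroup.card_map_of_injective (Subgroup.subtype_injective _)
  have hcardH : Nat.card H = Nat.card N * Nat.card (Vq H p) := by
    have h1 := Subgroup.card_mul_index (theta H p).ker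
    rw [Subgroup.index_ker, MonoidHom.range_eq_top.mpr (theta_surj H p), Subgroup.card_top] at h1
    rw [hcardN, h1]
  have hV1 := one_lt_card_Vq H p hpQ
  have hNpos : 0 < Nat.card N := Nat.card_pos
  have hNlt : Nat.card N < n := by
    rw [← hn, hcardH]
    nlinarith
  have hNsolv : Group.IsSolvable N :=
    Group.isSolvable_of_isSolvable_injective (Subgroup.inclusion_injective hNH)
  have hNcop : Nat.Coprime (Nat.card N) (Nat.card ↥(U ⊔ E)) :=
    Nat.Coprime.coprime_dvd_left (Subgroup.card_dvd_of_le hNH) hcop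
  have hih := ih (Nat.card N) hNlt N rfl (kermap_inv A H hAH p) hNsolv hNcop
  -- the acting group
  have hUA : U ≤ A := le_sup_left
  have hEA : E ≤ A := le_sup_right
  have hAU : A ≤ Subgroup.normalizer (U : Set X) :=
    sup_le Subgroup.le_normalizer (le_normalizer_of_conj_mem hUn)
  haveI hUnorm : (U.subgroupOf A).Normal := Subgroup.normal_subgroupOf_of_le_normalizer hAU
  have hUE' : U.subgroupOf A ⊓ E.subgroupOf A = ⊥ := by
    rw [Subgroup.eq_bot_iff_forall]
    rintro x ⟨hxU, hxE⟩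
    have h1 : (x : X) ∈ U ⊓ E := ⟨hxU, hxE⟩
    rw [hUE, Subgroup.mem_bot] at h1
    exact Subtype.ext h1
  have hsup' : U.subgroupOf A ⊔ E.subgroupOf A = ⊤ := by
    rw [← Subgroup.subgroupOf_sup hUA hEA, Subgroup.subgroupOf_self]
  have hfpf' : ∀ e ∈ E.subgroupOf A, e ≠ 1 → ∀ u ∈ U.subgroupOf A, e * u = u * e → u = 1 := by
    intro e he he1 u hu hcomm
    have h1 := hfpf (e : X) he (fun h => he1 (Subtype.ext h)) (u : X) hu
      (congrArg Subtype.val hcomm)
    exact Subtype.ext h1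
  have helem := Cfsg.Agent.Lib.Helper12.WElem.elemHom p (Vq_exp H p) hpA (fmap A H hAH p)
    (fmap_one A H hAH p) (fmap_mul A H hAH p) (U.subgroupOf A) (E.subgroupOf A) hUE' hsup' hfpf'
  have hcardE : Nat.card ↥(E.subgroupOf A) = Nat.card E :=
    Nat.card_congr (Subgroup.subgroupOfEquivOfLe hEA).toEquiv
  rw [hcardE] at helem
  have hcopB : ∀ B : Subgroup X, B ≤ A → (Nat.card B).Coprime (Nat.card H) := fun B hB =>
    Nat.Coprime.coprime_dvd_left (Subgroup.card_dvd_of_le hB) hcop.symm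
  have hfA := fix_count A H A hAH le_rfl (hcopB A le_rfl) hsolv p
  have hfE := fix_count A H E hAH hEA (hcopB E hEA) hsolv p
  have hfU := fix_count A H U hAH hUA (hcopB U hUA) hsolv p
  have hsA : {v : Vq H p | ∀ a : A, (a : X) ∈ A → fmap A H hAH p a v = v}
      = {v : Vq H p | ∀ a : A, fmap A H hAH p a v = v} := by
    ext v
    exact ⟨fun h a => h a a.2, fun h a _ => h a⟩
  rw [hsA] at hfA
  have hsE : {v : Vq H p | ∀ a : A, (a : X) ∈ E → fmap A H hAH p a v = v}
      = {v : Vq H p | ∀ a ∈ E.subgroupOf A, fmap A H hAH p a v = v} := rfl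
  have hsU : {v : Vq H p | ∀ a : A, (a : X) ∈ U → fmap A H hAH p a v = v}
      = {v : Vq H p | ∀ a ∈ U.subgroupOf A, fmap A H hAH p a v = v} := rfl
  rw [hsE] at hfE
  rw [hsU] at hfU
  rw [hfA, hfE, hfU, hcardH]
  set fA := Nat.card {v : Vq H p | ∀ a : A, fmap A H hAH p a v = v}
  set fE := Nat.card {v : Vq H p | ∀ a ∈ E.subgroupOf A, fmap A H hAH p a v = v}
  set fU := Nat.card {v : Vq H p | ∀ a ∈ U.subgroupOf A, fmap A H hAH p a v = v}
  set nA := Nat.card ↥(N ⊓ Subgroup.centralizer (A : Set X))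
  set nE := Nat.card ↥(N ⊓ Subgroup.centralizer (E : Set X))
  set nU := Nat.card ↥(N ⊓ Subgroup.centralizer (U : Set X))
  set e := Nat.card E
  set v := Nat.card (Vq H p)
  set nN := Nat.card N
  calc (fA * nA) ^ e * (nN * v) = (fA ^ e * v) * (nA ^ e * nN) := by ring
    _ = (fE ^ e * fU) * (nE ^ e * nU) := by rw [helem, hih]
    _ = (fE * nE) ^ e * (fU * nU) := by ring

/-- Let X be a finite group with subgroups U, E and H such that U and E generate a subgroup UE = U ⊔ E normalising H, with U normal in UE, U ⊓ E = ⊥, U ≠ ⊥, E ≠ ⊥, every non-identity element of E commuting with no non-identity element of U (UE is a Frobenius group with kernel U acting on H by conjugation), H solvable, H ⊓ (U ⊔ E) = ⊥ and the orders of H and U ⊔ E coprime. Then Nat.card (H ⊓ C(U ⊔ E)) ^ Nat.card E * Nat.card H = Nat.card (H ⊓ C(E)) ^ Nat.card E * Nat.card (H ⊓ C(U)), where C(·) denotes the centraliser. -/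
theorem result {X : Type*} [Group X] [Finite X] (U E H : Subgroup X) (hU1 : U ≠ ⊥) (hE1 : E ≠ ⊥) (hUE : U ⊓ E = ⊥) (hUn : ∀ e ∈ E, ∀ u ∈ U, e * u * e⁻¹ ∈ U) (hfpf : ∀ e ∈ E, e ≠ 1 → ∀ u ∈ U, e * u = u * e → u = 1) (hHn : ∀ x ∈ U ⊔ E, ∀ h ∈ H, x * h * x⁻¹ ∈ H) (hdisj : H ⊓ (U ⊔ E) = ⊥) (hsolv : Group.IsSolvable H) (hcop : Nat.Coprime (Nat.card H) (Nat.card ↥(U ⊔ E))) : Nat.card ↥(H ⊓ Subgroup.centralizer ((U ⊔ E : Subgroup X) : Set X)) ^ Nat.card E * Nat.card H = Nat.card ↥(H ⊓ Subgroup.centralizer (E : Set X)) ^ Nat.card E * Nat.card ↥(H ⊓ Subgroup.centralizer (U : Set X)) := by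
  exact main_aux U E hUE hUn hfpf (Nat.card H) H rfl hHn hsolv hcop

end Cfsg.Agent.S1545
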