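import Cfsg.Statements.S0291
import Mathlib
import Cfsg.Agent.Lib.Helper3.FormCount

set_option autoImplicit false
open Cfsg

namespace Cfsg.Agent.S0291

/-- For q odd, the form x_0^2 + sum_{i<m} x_i y_i on F^(2m+1) has exactly q^(2m) zeros. -/
theorem result {F : Type*} [Field F] [Fintype F] {q : ℕ} (hF : Fintype.card F = q) (hodd : Odd q) (m : ℕ) : Nat.card {v : Unit ⊕ (Fin m ⊕ Fin m) → F // Cfsg.quadFormOdd m F v = 0} = q ^ (2 * m) := by
  classical
  subst hF
  have e : {v : Unit ⊕ (Fin m ⊕ Fin m) → F // Cfsg.quadFormOdd m F v = 0} ≃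
      {p : (F × (Fin m → F)) × (Fin m → F) // ∑ i, p.1.2 i * p.2 i = (fun t : F => -t ^ 2) p.1.1} := by
    refine Equiv.subtypeEquiv ⟨fun v => ((v (Sum.inl ()), fun i => v (Sum.inr (Sum.inl i))), fun i => v (Sum.inr (Sum.inr i))),
      fun p => Sum.elim (fun _ => p.1.1) (Sum.elim p.1.2 p.2), ?_, ?_⟩ ?_
    · intro v
      funext s
      rcases s with s | s | s <;> rfl
    · intro p
      rfl
    · intro v
      show v (Sum.inl ()) ^ 2 + ∑ i : Fin m, v (Sum.inr (Sum.inl i)) * v (Sum.inr (Sum.inr i)) = 0 ↔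
        ∑ i : Fin m, v (Sum.inr (Sum.inl i)) * v (Sum.inr (Sum.inr i)) = -v (Sum.inl ()) ^ 2
      rw [eq_neg_iff_add_eq_zero, add_comm]
  rw [Nat.card_congr e, Cfsg.Agent.Lib.Helper3.card_pairs_dot m (fun t : F => -t ^ 2)]
  have hz : Nat.card {t : F // (fun t : F => -t ^ 2) t = 0} = 1 := by
    have : Unique {t : F // (fun t : F => -t ^ 2) t = 0} :=
      { default := ⟨0, by simp⟩
        uniq := fun t => by
          apply Subtype.ext
          have := t.2
          simpa using this }
    exact Nat.card_unique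
  rw [hz, one_mul]
  rcases Nat.eq_zero_or_pos m with h0 | h0
  · subst h0
    simp
  · have h1 : Fintype.card F * (Fintype.card F ^ m - 1) * Fintype.card F ^ (m - 1) =
        (Fintype.card F ^ m - 1) * Fintype.card F ^ m := by
      have h2 : Fintype.card F ^ m = Fintype.card F * Fintype.card F ^ (m - 1) := by
        rw [← pow_succ']
        congr 1
        omega
      rw [mul_comm (Fintype.card F) _, mul_assoc, ← h2]
    rw [h1, Nat.sub_mul, one_mul, show 2 * m = m + m from by ring, pow_add]
    have h3 : Fintype.card F ^ m ≤ Fintype.card F ^ m * Fintype.card F ^ m :=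
      Nat.le_mul_of_pos_left _ (pow_pos Fintype.card_pos _)
    omega

end Cfsg.Agent.S0291
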