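import Cfsg.Statements.S0286
import Mathlib
import Cfsg.Agent.Lib.Helper3.OrthForms
import Cfsg.Agent.S0291

set_option autoImplicit false
open Cfsg

namespace Cfsg.Agent.S0286

theorem two_ne_zero_of_odd {F : Type*} [Field F] [Fintype F] (h : Odd (Fintype.card F)) :
    (2 : F) ≠ 0 := by
  intro h2
  have h3 : ringChar F ∣ 2 := by
    apply ringChar.dvd
    exact_mod_cast h2
  have hp : (ringChar F).Prime := CharP.char_is_prime F (ringChar F)
  have h4 : ringChar F = 2 := (Nat.prime_dvd_prime_iff_eq hp Nat.prime_two).mp h3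
  have h5 := FiniteField.even_card_of_char_two h4
  rcases h with ⟨t, ht⟩
  omega

theorem card_odd_closed {F : Type*} [Field F] [Fintype F] (hodd : Odd (Fintype.card F)) (m : ℕ) :
    Nat.card (Cfsg.isometryGroup F (Cfsg.quadFormOdd m F))
      = 2 * Fintype.card F ^ (m ^ 2)
        * ∏ i ∈ Finset.range m, (Fintype.card F ^ (2 * (i + 1)) - 1) := by
  have h2 : (2 : F) ≠ 0 := two_ne_zero_of_odd hodd
  induction m with
  | zero =>
    rw [Cfsg.Agent.Lib.Helper3.card_odd_zero h2]
    simp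
  | succ m ih =>
    rw [Cfsg.Agent.Lib.Helper3.card_odd_succ h2, ih,
      Cfsg.Agent.S0291.result rfl hodd (m + 1), Finset.prod_range_succ]
    have h3 : Fintype.card F ^ ((m + 1) ^ 2)
        = Fintype.card F ^ (2 * m + 1) * Fintype.card F ^ (m ^ 2) := by
      rw [← pow_add]; congr 1; ring
    rw [h3]
    ring

/-- |GO_{2m+1}(q)| = 2 q^(m^2) prod_{i=1}^{m} (q^(2i) - 1) for q odd. -/
theorem result {F : Type*} [Field F] [Fintype F] {q : ℕ} (hF : Fintype.card F = q) (hodd : Odd q) (m : ℕ) : Nat.card (Cfsg.isometryGroup F (Cfsg.quadFormOdd m F)) = 2 * q ^ (m ^ 2) * ∏ i ∈ Finset.range m, (q ^ (2 * (i + 1)) - 1) := by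
  subst hF
  exact card_odd_closed hodd m

end Cfsg.Agent.S0286
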