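import Cfsg.Statements.S0292
import Mathlib
import Cfsg.Agent.S0286
import Cfsg.Agent.Lib.Helper16.SpinQuot
import Cfsg.Agent.Lib.Helper16.SpinWitt
import Cfsg.Agent.Lib.Helper16.SpinForms

set_option autoImplicit false
open Cfsg

namespace Cfsg.Agent.S0292

open Cfsg.Agent.Lib.Helper16 Matrix

section Generic

variable {ι : Type} [Fintype ι] [DecidableEq ι] {F : Type*} [Field F]
variable (Q : QuadraticForm F (ι → F))

/-- An isometry commuting with the commutator subgroup stabilises the line of a nonsingular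
vector having two mutually orthogonal partners of the same square class. -/
theorem eig_of_partners (h2 : (2 : F) ≠ 0) (z : ↥(Cfsg.isometryGroup F (⇑Q)))
    (hz : ∀ g ∈ commutator ↥(Cfsg.isometryGroup F (⇑Q)), z * g = g * z)
    {u v v' : ι → F} (hu : Q u ≠ 0) (hv : Q v ≠ 0) (hv' : Q v' ≠ 0)
    (hs : IsSquare (Q u * Q v)) (hs' : IsSquare (Q u * Q v'))
    (huv : QuadraticMap.polar (⇑Q) u v = 0) (huv' : QuadraticMap.polar (⇑Q) u v' = 0)
    (hvv' : QuadraticMap.polar (⇑Q) v v' = 0) :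
    ∃ c : F, ((z : Matrix.GeneralLinearGroup ι F) : Matrix ι ι F) *ᵥ u = c • u := by
  set y := ((z : Matrix.GeneralLinearGroup ι F) : Matrix ι ι F) *ᵥ u with hy
  have key : ∀ w : ι → F, ∀ hw : Q w ≠ 0, IsSquare (Q u * Q w) →
      QuadraticMap.polar (⇑Q) u w = 0 →
      (2 : F) • y = ((Q u)⁻¹ * QuadraticMap.polar (⇑Q) u y) • u
        + ((Q w)⁻¹ * QuadraticMap.polar (⇑Q) w y) • w := by
    intro w hw hsw huw
    have hmem := refl_div_mem_commutator Q h2 hu hw hsw
    have hc := hz _ hmem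
    have hc' := congrArg (fun g : ↥(Cfsg.isometryGroup F (⇑Q)) =>
      ((g : Matrix.GeneralLinearGroup ι F) : Matrix ι ι F) *ᵥ u) hc
    simp only [isomG_mul_coe] at hc'
    have hinv : ((((reflG Q w hw)⁻¹ : ↥(Cfsg.isometryGroup F (⇑Q))) :
        Matrix.GeneralLinearGroup ι F) : Matrix ι ι F) = Cfsg.reflectionMatrix (⇑Q) w := rfl
    rw [reflG_coe, hinv, ← Matrix.mulVec_mulVec, ← Matrix.mulVec_mulVec,
      ← Matrix.mulVec_mulVec, ← Matrix.mulVec_mulVec] at hc'
    have e1 : Cfsg.reflectionMatrix (⇑Q) w *ᵥ u = u := by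
      rw [refl_mulVec, QuadraticMap.polar_comm, huw]
      simp
    rw [e1, refl_self Q hu, Matrix.mulVec_neg, ← hy, refl_mulVec Q w y, refl_mulVec Q u,
      QuadraticMap.polar_sub_right, QuadraticMap.polar_smul_right, huw] at hc'
    funext i
    have := congrFun hc' i
    simp only [Pi.neg_apply, Pi.sub_apply, Pi.smul_apply, Pi.add_apply, smul_eq_mul, mul_zero,
      sub_zero] at this ⊢
    linear_combination -this
  have k1 := key v hv hs huv
  have k2 := key v' hv' hs' huv'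
  have k3 : ((Q v)⁻¹ * QuadraticMap.polar (⇑Q) v y) • v
      = ((Q v')⁻¹ * QuadraticMap.polar (⇑Q) v' y) • v' := by
    rw [k1] at k2
    exact add_left_cancel k2
  have k4 := congrArg (fun x => QuadraticMap.polar (⇑Q) v x) k3
  simp only [QuadraticMap.polar_smul_right, QuadraticMap.polar_self, hvv', smul_eq_mul,
    mul_zero, nsmul_eq_mul] at k4
  have k5 : (Q v)⁻¹ * QuadraticMap.polar (⇑Q) v y = 0 := by
    rcases mul_eq_zero.1 k4 with h | h
    · exact h
    · exfalso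
      rcases mul_eq_zero.1 h with h | h
      · exact h2 (by exact_mod_cast h)
      · exact hv h
  rw [k5, zero_smul, add_zero] at k1
  refine ⟨(2 : F)⁻¹ * ((Q u)⁻¹ * QuadraticMap.polar (⇑Q) u y), ?_⟩
  rw [← smul_smul, ← k1, smul_smul, inv_mul_cancel₀ h2, one_smul]

end Generic

section Odd

variable (m : ℕ) (F : Type*) [Field F]

/-- Partner vector `e_j + t f_j`. -/
def pv (j : Fin m) (t : F) : Unit ⊕ (Fin m ⊕ Fin m) → F :=
  Pi.single (Sum.inr (Sum.inl j)) 1 + Pi.single (Sum.inr (Sum.inr j)) t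

theorem pv_q (j : Fin m) (t : F) : qfOdd m F (pv m F j t) = t := by
  show Cfsg.quadFormOdd m F _ = t
  unfold Cfsg.quadFormOdd pv
  simp [Pi.single_apply]

theorem pv_polar (j : Fin m) (t : F) (x : Unit ⊕ (Fin m ⊕ Fin m) → F) :
    QuadraticMap.polar (⇑(qfOdd m F)) x (pv m F j t)
      = t * x (Sum.inr (Sum.inl j)) + x (Sum.inr (Sum.inr j)) := by
  rw [qfOdd_coe, polar_odd]
  unfold pv
  simp [Pi.single_apply, Finset.sum_add_distrib]
  ring

theorem eig_W (h2 : (2 : F) ≠ 0) (z : ↥(Cfsg.isometryGroup F (⇑(qfOdd m F))))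
    (hz : ∀ g ∈ commutator ↥(Cfsg.isometryGroup F (⇑(qfOdd m F))), z * g = g * z)
    (j k : Fin m) (hjk : j ≠ k) (u : Unit ⊕ (Fin m ⊕ Fin m) → F)
    (hu : qfOdd m F u ≠ 0) (h1 : u (Sum.inr (Sum.inl j)) = 0) (h1' : u (Sum.inr (Sum.inr j)) = 0)
    (h3 : u (Sum.inr (Sum.inl k)) = 0) (h4 : u (Sum.inr (Sum.inr k)) = 0) :
    ∃ c : F, ((z : Matrix.GeneralLinearGroup (Unit ⊕ (Fin m ⊕ Fin m)) F) :
      Matrix (Unit ⊕ (Fin m ⊕ Fin m)) (Unit ⊕ (Fin m ⊕ Fin m)) F) *ᵥ u = c • u := by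
  apply eig_of_partners (qfOdd m F) h2 z hz hu (v := pv m F j (qfOdd m F u))
    (v' := pv m F k (qfOdd m F u))
  · rw [pv_q]; exact hu
  · rw [pv_q]; exact hu
  · rw [pv_q]; exact ⟨_, rfl⟩
  · rw [pv_q]; exact ⟨_, rfl⟩
  · rw [pv_polar, h1, h1']; ring
  · rw [pv_polar, h3, h4]; ring
  · rw [pv_polar]
    simp [pv, Pi.single_apply, hjk, Ne.symm hjk]

theorem center_eq_bot [Fintype F] (h2 : (2 : F) ≠ 0) (hm : 3 ≤ m) :
    Subgroup.center (Cfsg.Omega F (⇑(qfOdd m F))) = ⊥ := by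
  rw [Subgroup.eq_bot_iff_forall]
  intro z hz
  rw [Subgroup.mem_center_iff] at hz
  have hz' : ∀ g ∈ commutator ↥(Cfsg.isometryGroup F (⇑(qfOdd m F))),
      (z : ↥(Cfsg.isometryGroup F (⇑(qfOdd m F)))) * g = g * z := by
    intro g hg
    have := hz ⟨g, hg⟩
    exact (congrArg Subtype.val this).symm
  set Z := (((z : ↥(Cfsg.isometryGroup F (⇑(qfOdd m F)))) :
    Matrix.GeneralLinearGroup (Unit ⊕ (Fin m ⊕ Fin m)) F) :
      Matrix (Unit ⊕ (Fin m ⊕ Fin m)) (Unit ⊕ (Fin m ⊕ Fin m)) F) with hZ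
  have hq0 : qfOdd m F (Pi.single (Sum.inl ()) 1) = 1 := by
    show Cfsg.quadFormOdd m F _ = 1
    unfold Cfsg.quadFormOdd
    simp [Pi.single_apply]
  obtain ⟨c, hc⟩ := eig_W m F h2 z hz' (⟨0, by omega⟩ : Fin m) ⟨1, by omega⟩
    (by simp [Fin.ext_iff]) (Pi.single (Sum.inl ()) 1) (by rw [hq0]; exact one_ne_zero)
    (by simp) (by simp) (by simp) (by simp)
  rw [← hZ] at hc
  have hall : ∀ i : Fin m,
      Z *ᵥ Pi.single (Sum.inr (Sum.inl i)) 1 = c • Pi.single (Sum.inr (Sum.inl i)) 1 ∧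
      Z *ᵥ Pi.single (Sum.inr (Sum.inr i)) 1 = c • Pi.single (Sum.inr (Sum.inr i)) 1 := by
    intro i
    obtain ⟨j, hji, -⟩ := Fin.exists_ne_and_ne_of_two_lt i i (by omega)
    obtain ⟨k, hki, hkj⟩ := Fin.exists_ne_and_ne_of_two_lt i j (by omega)
    have hq1 : qfOdd m F (Pi.single (Sum.inl ()) 1 + Pi.single (Sum.inr (Sum.inl i)) 1) = 1 := by
      show Cfsg.quadFormOdd m F _ = 1
      unfold Cfsg.quadFormOdd
      simp [Pi.single_apply]
    have hq2 : qfOdd m F (Pi.single (Sum.inl ()) 1 + Pi.single (Sum.inr (Sum.inr i)) 1) = 1 := by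
      show Cfsg.quadFormOdd m F _ = 1
      unfold Cfsg.quadFormOdd
      simp [Pi.single_apply]
    have hq3 : qfOdd m F (Pi.single (Sum.inl ()) 1 + Pi.single (Sum.inr (Sum.inl i)) 1
        + Pi.single (Sum.inr (Sum.inr i)) 1) = 2 := by
      show Cfsg.quadFormOdd m F _ = 2
      unfold Cfsg.quadFormOdd
      simp [Pi.single_apply]
      norm_num
    obtain ⟨c1, hc1⟩ := eig_W m F h2 z hz' j k (Ne.symm hkj)
      (Pi.single (Sum.inl ()) 1 + Pi.single (Sum.inr (Sum.inl i)) 1)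
      (by rw [hq1]; exact one_ne_zero)
      (by simp [Pi.single_apply, hji, Ne.symm hji]) (by simp) (by simp [Pi.single_apply, hki, Ne.symm hki]) (by simp)
    obtain ⟨c2, hc2⟩ := eig_W m F h2 z hz' j k (Ne.symm hkj)
      (Pi.single (Sum.inl ()) 1 + Pi.single (Sum.inr (Sum.inr i)) 1)
      (by rw [hq2]; exact one_ne_zero)
      (by simp) (by simp [Pi.single_apply, hji, Ne.symm hji]) (by simp) (by simp [Pi.single_apply, hki, Ne.symm hki])
    obtain ⟨d, hd⟩ := eig_W m F h2 z hz' j k (Ne.symm hkj)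
      (Pi.single (Sum.inl ()) 1 + Pi.single (Sum.inr (Sum.inl i)) 1
        + Pi.single (Sum.inr (Sum.inr i)) 1)
      (by rw [hq3]; exact h2)
      (by simp [Pi.single_apply, hji, Ne.symm hji]) (by simp [Pi.single_apply, hji, Ne.symm hji])
      (by simp [Pi.single_apply, hki, Ne.symm hki]) (by simp [Pi.single_apply, hki, Ne.symm hki])
    rw [← hZ] at hc1 hc2 hd
    rw [Matrix.mulVec_add, hc] at hc1 hc2
    rw [Matrix.mulVec_add, Matrix.mulVec_add, hc] at hd
    have hZe := eq_sub_of_add_eq' hc1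
    have hZf := eq_sub_of_add_eq' hc2
    rw [hZe, hZf] at hd
    have a1 := congrFun hd (Sum.inl ())
    have a2 := congrFun hd (Sum.inr (Sum.inl i))
    have a3 := congrFun hd (Sum.inr (Sum.inr i))
    simp [Pi.single_apply] at a1 a2 a3
    have e1 : c1 = c := by linear_combination a1 - a3
    have e2 : c2 = c := by linear_combination a1 - a2
    rw [hZe, hZf, e1, e2]
    constructor
    · rw [smul_add]; abel
    · rw [smul_add]; abel
  have hcol : ∀ b, Z *ᵥ Pi.single b 1 = c • Pi.single b 1 := by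
    rintro (⟨⟩ | i | i)
    · exact hc
    · exact (hall i).1
    · exact (hall i).2
  have hZc : Z = c • (1 : Matrix (Unit ⊕ (Fin m ⊕ Fin m)) (Unit ⊕ (Fin m ⊕ Fin m)) F) := by
    ext a b
    have := congrFun (hcol b) a
    rw [Matrix.mulVec_single_one] at this
    simp only [Matrix.col_apply, Pi.smul_apply, smul_eq_mul] at this
    rw [this, Matrix.smul_apply, Matrix.one_apply, Pi.single_apply, smul_eq_mul]
  have hc2 : c * c = 1 := by
    have := isomG_map (qfOdd m F) (z : ↥(Cfsg.isometryGroup F (⇑(qfOdd m F))))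
      (Pi.single (Sum.inl ()) 1)
    rw [← hZ, hc, QuadraticMap.map_smul, hq0, smul_eq_mul, mul_one] at this
    exact this
  have hdet : Z.det = 1 := det_of_mem_omega (qfOdd m F) z.2
  rw [hZc, Matrix.det_smul, Matrix.det_one, mul_one, Fintype.card_sum, Fintype.card_sum,
    Fintype.card_unit, Fintype.card_fin] at hdet
  have hc1 : c = 1 := by
    have : c ^ (1 + (m + m)) = c * (c * c) ^ m := by ring
    rw [this, hc2, one_pow, mul_one] at hdet
    exact hdet
  apply Subtype.ext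
  apply isomG_ext (qfOdd m F)
  rw [← hZ, hZc, hc1, one_smul]
  rfl

end Odd

/-- 2 |PΩ_{2m+1}(q)| = q^(m^2) prod_{i=1}^{m} (q^(2i) - 1), for q odd and m at least 3 (type B_m). -/
theorem result {F : Type*} [Field F] [Fintype F] {q : ℕ} (hF : Fintype.card F = q) (hodd : Odd q) (m : ℕ) (hm : 3 ≤ m) : 2 * Nat.card (Cfsg.POmega F (Cfsg.quadFormOdd m F)) = q ^ (m ^ 2) * ∏ i ∈ Finset.range m, (q ^ (2 * (i + 1)) - 1) := by
  subst hF
  have h2 : (2 : F) ≠ 0 := Cfsg.Agent.S0286.two_ne_zero_of_odd hodd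
  have hcenter : Subgroup.center (Cfsg.Omega F (Cfsg.quadFormOdd m F)) = ⊥ :=
    center_eq_bot m F h2 hm
  have hidx : (Cfsg.Omega F (Cfsg.quadFormOdd m F)).index = 4 :=
    Cfsg.Agent.Lib.Helper16.omega_index (Cfsg.Agent.Lib.Helper16.qfOdd m F) h2
      (Cfsg.Agent.Lib.Helper16.qfOdd_nondeg m F h2) (by
        rw [Fintype.card_sum, Fintype.card_sum, Fintype.card_unit, Fintype.card_fin]
        omega)
  have h1 : Nat.card (Cfsg.POmega F (Cfsg.quadFormOdd m F))
      = Nat.card (Cfsg.Omega F (Cfsg.quadFormOdd m F)) := by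
    have := Subgroup.card_eq_card_quotient_mul_card_subgroup
      (Subgroup.center (Cfsg.Omega F (Cfsg.quadFormOdd m F)))
    have hc1 : Nat.card (Subgroup.center (Cfsg.Omega F (Cfsg.quadFormOdd m F))) = 1 := by
      rw [hcenter, Subgroup.card_bot]
    rw [hc1, mul_one] at this
    exact this.symm
  have h3 := Subgroup.card_mul_index (Cfsg.Omega F (Cfsg.quadFormOdd m F))
  rw [hidx, Cfsg.Agent.S0286.card_odd_closed hodd m] at h3
  rw [h1]
  generalize Nat.card (Cfsg.Omega F (Cfsg.quadFormOdd m F)) = x at h3 ⊢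
  generalize Fintype.card F ^ (m ^ 2) = A at h3 ⊢
  generalize (∏ i ∈ Finset.range m, (Fintype.card F ^ (2 * (i + 1)) - 1)) = B at h3 ⊢
  have : 2 * (2 * x) = 2 * (A * B) := by rw [← mul_assoc, ← mul_assoc, ← h3]; ring
  exact Nat.eq_of_mul_eq_mul_left (by norm_num) this

end Cfsg.Agent.S0292
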