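import Cfsg.Statements.S0245
import Mathlib
import Cfsg.Agent.Lib.Helper3.SpCount

set_option autoImplicit false
open Cfsg

namespace Cfsg.Agent.S0245

/-- Order of the finite symplectic group: |Sp_{2m}(q)| = q^(m^2) * prod_{i=1}^{m} (q^(2i) - 1). -/
theorem result {F : Type*} [Field F] [Fintype F] {q : ℕ} (hF : Fintype.card F = q) (m : ℕ) : Nat.card (Matrix.symplecticGroup (Fin m) F) = q ^ (m ^ 2) * ∏ i ∈ Finset.range m, (q ^ (2 * (i + 1)) - 1) := by
  subst hF
  induction m with
  | zero =>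
    rw [Cfsg.Agent.Lib.Helper3.card_sp_zero]; simp
  | succ m ih =>
    rw [Cfsg.Agent.Lib.Helper3.card_sp_succ, ih, Finset.prod_range_succ]
    have h1 : (m + 1) ^ 2 = m ^ 2 + (2 * (m + 1) - 1) := by
      have : 2 * (m + 1) - 1 = 2 * m + 1 := by omega
      rw [this]; ring
    rw [h1, pow_add]
    ring

end Cfsg.Agent.S0245
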