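import Cfsg.Statements.S2587
import Cfsg.Agent.Lib.Helper15.LawUnitary
import Cfsg.Agent.Lib.Helper15.WallB

open Cfsg.Agent.Lib.Helper15

set_option autoImplicit false
open Cfsg

namespace Cfsg.Agent.S2587

/-- Conjugacy in the finite general unitary group is controlled by the general linear group: two elements of GU_n(q) (the invertible matrices over the field with q² elements preserving the Hermitian form Σ u_i v_i^q) are conjugate in GU_n(q) if and only if they are conjugate in GL_n(q²). -/
theorem result {K : Type*} [Field K] [Fintype K] {q n : ℕ} (hK : Fintype.card K = q ^ 2) (A B : ↥(Cfsg.GU n K q)) : IsConj A B ↔ IsConj (A : GL (Fin n) K) (B : GL (Fin n) K) := by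
  constructor
  · intro h
    obtain ⟨c, hc⟩ := isConj_iff.mp h
    exact isConj_iff.mpr ⟨(c : GL (Fin n) K), by rw [← hc]; rfl⟩
  · intro h
    obtain ⟨g, hg⟩ := isConj_iff.mp h
    obtain ⟨φ, hφq, hφ2⟩ := Cfsg.Agent.Lib.Helper15.exists_frob hK
    have hq0 : q ≠ 0 := by
      rintro rfl
      have h1 : 1 < Fintype.card K := Fintype.one_lt_card
      rw [hK] at h1
      simp at h1
    have hne : ∃ a, φ a ≠ a := by
      by_contra hcon
      push Not at hcon
      have hq2 : 2 ≤ q := by
        have h1 : 1 < Fintype.card K := Fintype.one_lt_card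
        rw [hK] at h1
        by_contra h2
        have h3 : q ≤ 1 := by omega
        have h4 : q ^ 2 ≤ 1 := by nlinarith
        omega
      have h2 : (Polynomial.X ^ q - Polynomial.X : Polynomial K) ≠ 0 :=
        FiniteField.X_pow_card_sub_X_ne_zero K (by omega)
      have h3 : Fintype.card K ≤ (Polynomial.X ^ q - Polynomial.X : Polynomial K).natDegree := by
        classical
        have h4 := Polynomial.card_roots' (Polynomial.X ^ q - Polynomial.X : Polynomial K)
        have h5 : (Polynomial.X ^ q - Polynomial.X : Polynomial K).roots.toFinset =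
            Finset.univ := by
          ext a
          have h6 : a ^ q = a := by rw [← hφq, hcon]
          simp [h2, h6]
        have h6 : Fintype.card K ≤ Multiset.card
            (Polynomial.X ^ q - Polynomial.X : Polynomial K).roots := by
          rw [← Finset.card_univ, ← h5]
          exact Multiset.toFinset_card_le _
        exact h6.trans h4
      rw [FiniteField.X_pow_card_sub_X_natDegree_eq K (by omega), hK] at h3
      nlinarith
    have memGU : ∀ M : GL (Fin n) K, M ∈ Cfsg.GU n K q →
        Wall.cstar φ (M : Matrix (Fin n) (Fin n) K) * (M : Matrix (Fin n) (Fin n) K) = 1 := by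
      intro M hM
      ext i j
      have h1 := hM (Pi.single j 1) (Pi.single i 1)
      have h2 : ∀ k : Fin n, ((Units.coeHom (Matrix (Fin n) (Fin n) K)) M).mulVec (Pi.single k 1) =
          fun r => (M : Matrix (Fin n) (Fin n) K) r k := by
        intro k
        show (M : Matrix (Fin n) (Fin n) K).mulVec (Pi.single k 1) = _
        rw [Matrix.mulVec_single_one]
        rfl
      rw [h2, h2] at h1
      unfold Cfsg.hermForm at h1
      rw [Matrix.mul_apply]
      have h3 : ∑ k, Wall.cstar φ (M : Matrix (Fin n) (Fin n) K) i k *
          (M : Matrix (Fin n) (Fin n) K) k j =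
          ∑ k, (M : Matrix (Fin n) (Fin n) K) k j * (M : Matrix (Fin n) (Fin n) K) k i ^ q := by
        apply Finset.sum_congr rfl
        intro k _
        rw [Wall.cstar_apply, hφq, mul_comm]
      rw [h3, h1, Matrix.one_apply]
      by_cases hij : i = j
      · subst hij
        rw [if_pos rfl, Finset.sum_eq_single i]
        · simp
        · intro k _ hk
          simp [Pi.single_eq_of_ne hk]
        · intro hi
          exact absurd (Finset.mem_univ i) hi
      · rw [if_neg hij]
        apply Finset.sum_eq_zero
        intro k _
        by_cases hk : k = j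
        · subst hk
          have hki : k ≠ i := fun h0 => hij h0.symm
          simp [Pi.single_eq_of_ne hki, hq0]
        · simp [Pi.single_eq_of_ne hk]
    have hgab : (g : Matrix (Fin n) (Fin n) K) * ((A : GL (Fin n) K) : Matrix (Fin n) (Fin n) K) =
        ((B : GL (Fin n) K) : Matrix (Fin n) (Fin n) K) * (g : Matrix (Fin n) (Fin n) K) := by
      have h1 := mul_inv_eq_iff_eq_mul.mp hg
      have h2 := congrArg (fun x : GL (Fin n) K => (x : Matrix (Fin n) (Fin n) K)) h1
      exact h2
    have hgdet : (g : Matrix (Fin n) (Fin n) K).det ≠ 0 :=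
      ((Matrix.isUnit_iff_isUnit_det _).mp g.isUnit).ne_zero
    obtain ⟨u, hu1, hu2⟩ := Wall.unitary_conj φ hφ2 hne _ _ _ (memGU A A.2) (memGU B B.2) hgdet hgab
    have hu1' : u * Wall.cstar φ u = 1 := mul_eq_one_comm.mp hu1
    have hu3 : u.transpose * u.map φ = 1 := by
      have h1 := congrArg Matrix.transpose hu1
      unfold Wall.cstar at h1
      rw [Matrix.transpose_mul, Matrix.transpose_transpose, Matrix.transpose_one] at h1
      exact h1
    let uGL : GL (Fin n) K := ⟨u, Wall.cstar φ u, hu1', hu1⟩
    have humem : uGL ∈ Cfsg.GU n K q := by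
      intro x y
      exact Cfsg.Agent.Lib.Helper15.herm_preserved φ hφq u hu3 x y
    apply isConj_iff.mpr
    refine ⟨⟨uGL, humem⟩, ?_⟩
    rw [mul_inv_eq_iff_eq_mul]
    apply Subtype.ext
    apply Units.ext
    exact hu2

end Cfsg.Agent.S2587
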