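import Cfsg.Statements.S2389
import Cfsg.Agent.Lib.Helper15.SemiA
import Cfsg.Agent.Lib.Helper15.SpU
open Cfsg.Agent.Lib.Helper15

set_option autoImplicit false
open Cfsg

namespace Cfsg.Agent.S2389

/-- In the symplectic group `Sp_{2n}(q)`, `q` a power of the prime `p`, two elements of order prime to `p` with the same characteristic polynomial are conjugate in `Sp_{2n}(q)`. -/
theorem result {F : Type*} [Field F] [Fintype F] (p : ℕ) [Fact p.Prime] [CharP F p] (n : ℕ)
    (g h : ↥(Matrix.symplecticGroup (Fin n) F)) (hg : (orderOf g).Coprime p) (hh : (orderOf h).Coprime p)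
    (hc : (g : Matrix (Fin n ⊕ Fin n) (Fin n ⊕ Fin n) F).charpoly = (h : Matrix (Fin n ⊕ Fin n) (Fin n ⊕ Fin n) F).charpoly) :
    IsConj g h := by
  classical
  obtain ⟨μg, hμg, hμgA⟩ := SpU.sq_of_pow p g.1 (orderOf g) hg (SpU.sp_pow n g)
  obtain ⟨μh, hμh, hμhA⟩ := SpU.sq_of_pow p h.1 (orderOf h) hh (SpU.sp_pow n h)
  have hssG := SpU.ss_of_sq g.1 μg hμg hμgA
  have hssH := SpU.ss_of_sq h.1 μh hμh hμhA
  obtain ⟨φ, hφ⟩ := Semi.ss_conj (F := F) (Module.finrank F (Fin n ⊕ Fin n → F))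
    (Fin n ⊕ Fin n → F) (Fin n ⊕ Fin n → F)
    (Matrix.toLin' g.1) (Matrix.toLin' h.1) le_rfl hssG hssH
    (by rw [Matrix.charpoly_toLin', Matrix.charpoly_toLin', hc])
  have hPP' : LinearMap.toMatrix' φ.toLinearMap * LinearMap.toMatrix' φ.symm.toLinearMap = 1 := by
    rw [← LinearMap.toMatrix'_comp]
    have : φ.toLinearMap ∘ₗ φ.symm.toLinearMap = LinearMap.id := by
      apply LinearMap.ext
      intro x
      simp
    rw [this, LinearMap.toMatrix'_id]
  refine SpU.sp_isConj p n g h hg (LinearMap.toMatrix' φ.toLinearMap)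
    (LinearMap.toMatrix' φ.symm.toLinearMap) hPP' ?_
  apply Matrix.toLin'.injective
  apply LinearMap.ext
  intro x
  rw [Matrix.toLin'_mul, Matrix.toLin'_mul, LinearMap.comp_apply, LinearMap.comp_apply,
    Matrix.toLin'_toMatrix']
  exact hφ x

end Cfsg.Agent.S2389
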