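import Mathlib
import Cfsg.Statements.S0765
import Cfsg.Agent.S0766

set_option autoImplicit false
open Cfsg

namespace Cfsg.Agent.S0765

open Matrix

theorem form_e {F : Type*} [Field F] (m : ℕ) (x : Fin m ⊕ Fin m → F) (i : Fin m) :
    sympForm m F x (Pi.single (Sum.inl i) 1) = x (Sum.inr i) := by
  unfold sympForm
  rw [Matrix.mulVec_single_one]
  simp [Matrix.J, dotProduct, Fintype.sum_sum_type, Matrix.col_apply, Matrix.one_apply]

theorem form_f {F : Type*} [Field F] (m : ℕ) (x : Fin m ⊕ Fin m → F) (i : Fin m) :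
    sympForm m F x (Pi.single (Sum.inr i) 1) = - x (Sum.inl i) := by
  unfold sympForm
  rw [Matrix.mulVec_single_one]
  simp [Matrix.J, dotProduct, Fintype.sum_sum_type, Matrix.col_apply, Matrix.one_apply]

/-- The vectors whose coordinates in the pairs indexed by `S` vanish. -/
def WS {F : Type*} [Field F] (m : ℕ) (S : Finset (Fin m)) : Submodule F (Fin m ⊕ Fin m → F) where
  carrier := {v | ∀ i ∈ S, v (Sum.inl i) = 0 ∧ v (Sum.inr i) = 0}
  add_mem' := by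
    intro a b ha hb i hi
    simp [(ha i hi).1, (ha i hi).2, (hb i hi).1, (hb i hi).2]
  zero_mem' := by
    intro i _
    simp
  smul_mem' := by
    intro c a ha i hi
    simp [(ha i hi).1, (ha i hi).2]

theorem mem_WS {F : Type*} [Field F] (m : ℕ) (S : Finset (Fin m)) (v : Fin m ⊕ Fin m → F) :
    v ∈ WS m S ↔ ∀ i ∈ S, v (Sum.inl i) = 0 ∧ v (Sum.inr i) = 0 := Iff.rfl

theorem step_rel {F : Type*} [Field F] (m : ℕ) (T : Subgroup (Matrix.symplecticGroup (Fin m) F))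
    (hT : ∀ (w : Fin m ⊕ Fin m → F) (c : F), ∃ A ∈ T,
      (A : Matrix (Fin m ⊕ Fin m) (Fin m ⊕ Fin m) F) = Cfsg.sympTransvection m w c)
    (W : Submodule F (Fin m ⊕ Fin m → F))
    (x y : Fin m ⊕ Fin m → F) (hx : x ∈ W) (hy : y ∈ W) (hxy : sympForm m F x y ≠ 0) :
    ∃ A ∈ T, (A : Matrix (Fin m ⊕ Fin m) (Fin m ⊕ Fin m) F) *ᵥ x = y ∧
      (∀ z, sympForm m F z (y - x) = 0 →
        (A : Matrix (Fin m ⊕ Fin m) (Fin m ⊕ Fin m) F) *ᵥ z = z) ∧
      (∀ v ∈ W, (A : Matrix (Fin m ⊕ Fin m) (Fin m ⊕ Fin m) F) *ᵥ v ∈ W) := by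
  obtain ⟨A, hA, hAeq⟩ := hT (y - x) (sympForm m F x y)⁻¹
  refine ⟨A, hA, ?_, ?_, ?_⟩
  · rw [hAeq, Cfsg.Agent.S0766.tv_mulVec, Cfsg.Agent.S0766.form_sub_right,
      Cfsg.Agent.S0766.form_self, sub_zero, inv_mul_cancel₀ hxy, one_smul]
    abel
  · intro z hz
    rw [hAeq, Cfsg.Agent.S0766.tv_mulVec, hz, mul_zero, zero_smul, add_zero]
  · intro v hv
    rw [hAeq, Cfsg.Agent.S0766.tv_mulVec]
    exact W.add_mem hv (W.smul_mem _ (W.sub_mem hy hx))

theorem trans_vec_rel {F : Type*} [Field F] (m : ℕ)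
    (T : Subgroup (Matrix.symplecticGroup (Fin m) F))
    (hT : ∀ (w : Fin m ⊕ Fin m → F) (c : F), ∃ A ∈ T,
      (A : Matrix (Fin m ⊕ Fin m) (Fin m ⊕ Fin m) F) = Cfsg.sympTransvection m w c)
    (W : Submodule F (Fin m ⊕ Fin m → F))
    (hND : ∀ u ∈ W, u ≠ 0 → ∃ x ∈ W, sympForm m F u x ≠ 0)
    (u u' : Fin m ⊕ Fin m → F) (hu : u ∈ W) (hu' : u' ∈ W) (hu0 : u ≠ 0) (hu'0 : u' ≠ 0) :
    ∃ A ∈ T, (A : Matrix (Fin m ⊕ Fin m) (Fin m ⊕ Fin m) F) *ᵥ u = u' ∧
      (∀ z, (∀ w ∈ W, sympForm m F z w = 0) →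
        (A : Matrix (Fin m ⊕ Fin m) (Fin m ⊕ Fin m) F) *ᵥ z = z) ∧
      (∀ v ∈ W, (A : Matrix (Fin m ⊕ Fin m) (Fin m ⊕ Fin m) F) *ᵥ v ∈ W) := by
  by_cases h : sympForm m F u u' = 0
  · obtain ⟨z, hzW, hz1, hz2⟩ : ∃ z ∈ W, sympForm m F u z ≠ 0 ∧ sympForm m F z u' ≠ 0 := by
      obtain ⟨x, hxW, hx⟩ := hND u hu hu0
      obtain ⟨y, hyW, hy⟩ := hND u' hu' hu'0
      by_cases h1 : sympForm m F u' x = 0
      · by_cases h2 : sympForm m F u y = 0
        · refine ⟨x + y, W.add_mem hxW hyW, ?_, ?_⟩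
          · rw [Cfsg.Agent.S0766.form_add_right, h2, add_zero]; exact hx
          · rw [Cfsg.Agent.S0766.form_swap, Cfsg.Agent.S0766.form_add_right, h1, zero_add,
              neg_ne_zero]
            exact hy
        · refine ⟨y, hyW, h2, ?_⟩
          rw [Cfsg.Agent.S0766.form_swap, neg_ne_zero]; exact hy
      · refine ⟨x, hxW, hx, ?_⟩
        rw [Cfsg.Agent.S0766.form_swap, neg_ne_zero]; exact h1
    obtain ⟨A, hA, hA1, hA2, hA3⟩ := step_rel m T hT W u z hu hzW hz1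
    obtain ⟨B, hB, hB1, hB2, hB3⟩ := step_rel m T hT W z u' hzW hu' hz2
    refine ⟨B * A, T.mul_mem hB hA, ?_, ?_, ?_⟩
    · rw [Submonoid.coe_mul, ← Matrix.mulVec_mulVec, hA1, hB1]
    · intro x hx
      rw [Submonoid.coe_mul, ← Matrix.mulVec_mulVec, hA2 x (hx _ (W.sub_mem hzW hu)),
        hB2 x (hx _ (W.sub_mem hu' hzW))]
    · intro v hv
      rw [Submonoid.coe_mul, ← Matrix.mulVec_mulVec]
      exact hB3 _ (hA3 v hv)
  · obtain ⟨A, hA, hA1, hA2, hA3⟩ := step_rel m T hT W u u' hu hu' h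
    exact ⟨A, hA, hA1, fun x hx => hA2 x (hx _ (W.sub_mem hu' hu)), hA3⟩

theorem trans_pair_fix_rel {F : Type*} [Field F] (m : ℕ)
    (T : Subgroup (Matrix.symplecticGroup (Fin m) F))
    (hT : ∀ (w : Fin m ⊕ Fin m → F) (c : F), ∃ A ∈ T,
      (A : Matrix (Fin m ⊕ Fin m) (Fin m ⊕ Fin m) F) = Cfsg.sympTransvection m w c)
    (W : Submodule F (Fin m ⊕ Fin m → F))
    (u v v' : Fin m ⊕ Fin m → F) (hu : u ∈ W) (hv : v ∈ W) (hv' : v' ∈ W)
    (h : sympForm m F u v = 1) (h' : sympForm m F u v' = 1) :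
    ∃ A ∈ T, (A : Matrix (Fin m ⊕ Fin m) (Fin m ⊕ Fin m) F) *ᵥ u = u ∧
      (A : Matrix (Fin m ⊕ Fin m) (Fin m ⊕ Fin m) F) *ᵥ v = v' ∧
      (∀ z, (∀ w ∈ W, sympForm m F z w = 0) →
        (A : Matrix (Fin m ⊕ Fin m) (Fin m ⊕ Fin m) F) *ᵥ z = z) := by
  by_cases hvv : sympForm m F v v' = 0
  · have h1 : sympForm m F v (u + v) ≠ 0 := by
      rw [Cfsg.Agent.S0766.form_add_right, Cfsg.Agent.S0766.form_self, add_zero,
        Cfsg.Agent.S0766.form_swap, h]
      simp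
    have h2 : sympForm m F (u + v) v' ≠ 0 := by
      rw [Cfsg.Agent.S0766.form_add_left, h', hvv, add_zero]
      exact one_ne_zero
    have huv : u + v ∈ W := W.add_mem hu hv
    obtain ⟨A, hA, hA1, hA2, -⟩ := step_rel m T hT W v (u + v) hv huv h1
    obtain ⟨B, hB, hB1, hB2, -⟩ := step_rel m T hT W (u + v) v' huv hv' h2
    refine ⟨B * A, T.mul_mem hB hA, ?_, ?_, ?_⟩
    · rw [Submonoid.coe_mul, ← Matrix.mulVec_mulVec,
        hA2 u (by rw [add_sub_cancel_right, Cfsg.Agent.S0766.form_self]),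
        hB2 u (by rw [Cfsg.Agent.S0766.form_sub_right, Cfsg.Agent.S0766.form_add_right, h',
          Cfsg.Agent.S0766.form_self, h]; ring)]
    · rw [Submonoid.coe_mul, ← Matrix.mulVec_mulVec, hA1, hB1]
    · intro x hx
      rw [Submonoid.coe_mul, ← Matrix.mulVec_mulVec, hA2 x (hx _ (W.sub_mem huv hv)),
        hB2 x (hx _ (W.sub_mem hv' huv))]
  · obtain ⟨A, hA, hA1, hA2, -⟩ := step_rel m T hT W v v' hv hv' hvv
    exact ⟨A, hA, hA2 u (by rw [Cfsg.Agent.S0766.form_sub_right, h, h', sub_self]), hA1,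
      fun x hx => hA2 x (hx _ (W.sub_mem hv' hv))⟩

theorem pair_rel {F : Type*} [Field F] (m : ℕ)
    (T : Subgroup (Matrix.symplecticGroup (Fin m) F))
    (hT : ∀ (w : Fin m ⊕ Fin m → F) (c : F), ∃ A ∈ T,
      (A : Matrix (Fin m ⊕ Fin m) (Fin m ⊕ Fin m) F) = Cfsg.sympTransvection m w c)
    (W : Submodule F (Fin m ⊕ Fin m → F))
    (hND : ∀ u ∈ W, u ≠ 0 → ∃ x ∈ W, sympForm m F u x ≠ 0)
    (u v u' v' : Fin m ⊕ Fin m → F) (hu : u ∈ W) (hv : v ∈ W) (hu' : u' ∈ W) (hv' : v' ∈ W)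
    (h : sympForm m F u v = 1) (h' : sympForm m F u' v' = 1) :
    ∃ A ∈ T, (A : Matrix (Fin m ⊕ Fin m) (Fin m ⊕ Fin m) F) *ᵥ u = u' ∧
      (A : Matrix (Fin m ⊕ Fin m) (Fin m ⊕ Fin m) F) *ᵥ v = v' ∧
      (∀ z, (∀ w ∈ W, sympForm m F z w = 0) →
        (A : Matrix (Fin m ⊕ Fin m) (Fin m ⊕ Fin m) F) *ᵥ z = z) := by
  have hu0 : u ≠ 0 := by
    rintro rfl
    simp [sympForm] at h
  have hu'0 : u' ≠ 0 := by
    rintro rfl
    simp [sympForm] at h'
  obtain ⟨A, hA, hAu, hAfix, hAW⟩ := trans_vec_rel m T hT W hND u u' hu hu' hu0 hu'0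
  have hpres : sympForm m F ((A : Matrix (Fin m ⊕ Fin m) (Fin m ⊕ Fin m) F) *ᵥ u)
      ((A : Matrix (Fin m ⊕ Fin m) (Fin m ⊕ Fin m) F) *ᵥ v) = 1 := by
    rw [Cfsg.Agent.S0766.form_pres, h]
  rw [hAu] at hpres
  obtain ⟨B, hB, hBu, hBv, hBfix⟩ :=
    trans_pair_fix_rel m T hT W u' _ v' hu' (hAW v hv) hv' hpres h'
  refine ⟨B * A, T.mul_mem hB hA, ?_, ?_, ?_⟩
  · rw [Submonoid.coe_mul, ← Matrix.mulVec_mulVec, hAu, hBu]
  · rw [Submonoid.coe_mul, ← Matrix.mulVec_mulVec, hBv]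
  · intro x hx
    rw [Submonoid.coe_mul, ← Matrix.mulVec_mulVec, hAfix x hx, hBfix x hx]

theorem WS_nondeg {F : Type*} [Field F] (m : ℕ) (S : Finset (Fin m)) :
    ∀ u ∈ WS (F := F) m S, u ≠ 0 → ∃ x ∈ WS (F := F) m S, sympForm m F u x ≠ 0 := by
  intro u hu hu0
  obtain ⟨a, ha⟩ : ∃ a, u a ≠ 0 := by
    by_contra hcon
    push Not at hcon
    exact hu0 (funext hcon)
  rcases a with j | j
  · have hjS : j ∉ S := fun hj => ha ((hu j hj).1)
    refine ⟨Pi.single (Sum.inr j) 1, ?_, ?_⟩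
    · intro i hi
      have hij : i ≠ j := fun h => hjS (h ▸ hi)
      simp [hij]
    · rw [form_f, neg_ne_zero]
      exact ha
  · have hjS : j ∉ S := fun hj => ha ((hu j hj).2)
    refine ⟨Pi.single (Sum.inl j) 1, ?_, ?_⟩
    · intro i hi
      have hij : i ≠ j := fun h => hjS (h ▸ hi)
      simp [hij]
    · rw [form_e]
      exact ha

theorem claim {F : Type*} [Field F] (m : ℕ)
    (T : Subgroup (Matrix.symplecticGroup (Fin m) F))
    (hT : ∀ (w : Fin m ⊕ Fin m → F) (c : F), ∃ A ∈ T,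
      (A : Matrix (Fin m ⊕ Fin m) (Fin m ⊕ Fin m) F) = Cfsg.sympTransvection m w c) :
    ∀ (k : ℕ) (S : Finset (Fin m)), Sᶜ.card = k → ∀ g : Matrix.symplecticGroup (Fin m) F,
      (∀ i ∈ S, (g : Matrix (Fin m ⊕ Fin m) (Fin m ⊕ Fin m) F) *ᵥ Pi.single (Sum.inl i) 1
          = Pi.single (Sum.inl i) 1 ∧
        (g : Matrix (Fin m ⊕ Fin m) (Fin m ⊕ Fin m) F) *ᵥ Pi.single (Sum.inr i) 1
          = Pi.single (Sum.inr i) 1) → g ∈ T := by
  intro k
  induction k with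
  | zero =>
    intro S hS g hg
    have hSuniv : S = Finset.univ := by
      rw [Finset.card_eq_zero, Finset.compl_eq_empty_iff] at hS
      exact hS
    have hg1 : g = 1 := by
      apply Subtype.ext
      ext a b
      have h1 : (g : Matrix (Fin m ⊕ Fin m) (Fin m ⊕ Fin m) F) *ᵥ Pi.single b 1
          = Pi.single b 1 := by
        rcases b with i | i
        · exact (hg i (by rw [hSuniv]; exact Finset.mem_univ i)).1
        · exact (hg i (by rw [hSuniv]; exact Finset.mem_univ i)).2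
      have h2 := congrFun h1 a
      rw [Matrix.mulVec_single_one] at h2
      rw [Matrix.col_apply] at h2
      rw [h2]
      simp [Matrix.one_apply, Pi.single_apply]
    rw [hg1]
    exact T.one_mem
  | succ k ih =>
    intro S hS g hg
    obtain ⟨j, hj⟩ : ∃ j, j ∈ Sᶜ := Finset.card_pos.mp (by omega)
    have hjS : j ∉ S := Finset.mem_compl.mp hj
    have hejW : (Pi.single (Sum.inl j) 1 : Fin m ⊕ Fin m → F) ∈ WS m S := by
      intro i hi
      have hij : i ≠ j := fun h => hjS (h ▸ hi)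
      simp [hij]
    have hfjW : (Pi.single (Sum.inr j) 1 : Fin m ⊕ Fin m → F) ∈ WS m S := by
      intro i hi
      have hij : i ≠ j := fun h => hjS (h ▸ hi)
      simp [hij]
    have hpair : sympForm m F (Pi.single (Sum.inr j) 1) (Pi.single (Sum.inl j) 1) = 1 := by
      rw [form_e]
      simp
    have hgW : ∀ x ∈ WS (F := F) m S,
        (g : Matrix (Fin m ⊕ Fin m) (Fin m ⊕ Fin m) F) *ᵥ x ∈ WS m S := by
      intro x hx i hi
      constructor
      · have h1 := Cfsg.Agent.S0766.form_pres m g x (Pi.single (Sum.inr i) 1)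
        rw [(hg i hi).2, form_f, form_f, neg_inj] at h1
        rw [h1]
        exact (hx i hi).1
      · have h1 := Cfsg.Agent.S0766.form_pres m g x (Pi.single (Sum.inl i) 1)
        rw [(hg i hi).1, form_e, form_e] at h1
        rw [h1]
        exact (hx i hi).2
    have hpair' : sympForm m F
        ((g : Matrix (Fin m ⊕ Fin m) (Fin m ⊕ Fin m) F) *ᵥ Pi.single (Sum.inr j) 1)
        ((g : Matrix (Fin m ⊕ Fin m) (Fin m ⊕ Fin m) F) *ᵥ Pi.single (Sum.inl j) 1) = 1 := by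
      rw [Cfsg.Agent.S0766.form_pres]
      exact hpair
    obtain ⟨t, ht, htu, htv, htfix⟩ := pair_rel m T hT (WS m S) (WS_nondeg m S) _ _ _ _
      (hgW _ hfjW) (hgW _ hejW) hfjW hejW hpair' hpair
    have htg : t * g ∈ T := by
      apply ih (insert j S)
      · rw [Finset.compl_insert, Finset.card_erase_of_mem hj]
        omega
      · intro i hi
        rw [Finset.mem_insert] at hi
        rw [Submonoid.coe_mul, ← Matrix.mulVec_mulVec, ← Matrix.mulVec_mulVec]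
        rcases hi with rfl | hi
        · exact ⟨htv, htu⟩
        · rw [(hg i hi).1, (hg i hi).2]
          constructor
          · apply htfix
            intro w hw
            rw [Cfsg.Agent.S0766.form_swap, form_e, (hw i hi).2, neg_zero]
          · apply htfix
            intro w hw
            rw [Cfsg.Agent.S0766.form_swap, form_f, (hw i hi).1, neg_zero, neg_zero]
    have hgeq : g = t⁻¹ * (t * g) := by group
    rw [hgeq]
    exact T.mul_mem (T.inv_mem ht) htg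

/-- Generation of the symplectic group by symplectic transvections: the subgroup of Sp_2m(F) generated by all matrices of maps x ↦ x + c f(x, w) w is the whole group. -/
theorem result {F : Type*} [Field F] (m : ℕ) : Subgroup.closure {A : Matrix.symplecticGroup (Fin m) F | ∃ (w : Fin m ⊕ Fin m → F) (c : F), (A : Matrix (Fin m ⊕ Fin m) (Fin m ⊕ Fin m) F) = Cfsg.sympTransvection m w c} = ⊤ := by
  rw [eq_top_iff]
  intro g _
  have hT : ∀ (w : Fin m ⊕ Fin m → F) (c : F), ∃ A ∈ Subgroup.closure {A : Matrix.symplecticGroup (Fin m) F | ∃ (w : Fin m ⊕ Fin m → F) (c : F), (A : Matrix (Fin m ⊕ Fin m) (Fin m ⊕ Fin m) F) = Cfsg.sympTransvection m w c},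
      (A : Matrix (Fin m ⊕ Fin m) (Fin m ⊕ Fin m) F) = Cfsg.sympTransvection m w c :=
    fun w c => ⟨⟨_, Cfsg.Agent.S0764.result m w c⟩, Subgroup.subset_closure ⟨w, c, rfl⟩, rfl⟩
  exact claim m _ hT _ ∅ rfl g (fun i hi => absurd hi (Finset.notMem_empty i))

end Cfsg.Agent.S0765
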