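import Cfsg.Statements.S0246
import Mathlib
import Cfsg.Agent.Lib.Helper3.SpTools

set_option autoImplicit false
open Cfsg

namespace Cfsg.Agent.S0246

open Matrix in
theorem scalar_of_central {F : Type*} [Field F] (m : ℕ) (z : Matrix.symplecticGroup (Fin m) F)
    (hz : z ∈ Subgroup.center (Matrix.symplecticGroup (Fin m) F)) :
    ∃ a : F, (z : Matrix (Fin m ⊕ Fin m) (Fin m ⊕ Fin m) F) = a • 1 := by
  have hcomm : ∀ g : Matrix.symplecticGroup (Fin m) F, g * z = z * g :=
    Subgroup.mem_center_iff.mp hz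
  set f : (Fin m ⊕ Fin m → F) →ₗ[F] (Fin m ⊕ Fin m → F) :=
    Matrix.toLin' (z : Matrix (Fin m ⊕ Fin m) (Fin m ⊕ Fin m) F) with hf
  obtain ⟨a, ha⟩ := f.exists_eq_smul_id_of_forall_notLinearIndependent
    fun (v : Fin m ⊕ Fin m → F) ↦ by
      by_cases hv : v = 0
      · simp [hv, linearIndependent_fin2]
      · obtain ⟨t, ht⟩ : ∃ t : Matrix.symplecticGroup (Fin m) F,
            (t : Matrix (Fin m ⊕ Fin m) (Fin m ⊕ Fin m) F) = Cfsg.sympTransvection m v 1 :=
          ⟨⟨_, Cfsg.Agent.S0764.result m v 1⟩, rfl⟩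
        have h1 : z * t * z⁻¹ = t := by rw [← hcomm t]; group
        have h2 := congrArg Subtype.val h1
        rw [Submonoid.coe_mul, Submonoid.coe_mul, ht,
          Cfsg.Agent.Lib.Helper3.sp_conj_transvection] at h2
        obtain ⟨y, hy⟩ := Cfsg.Agent.S0766.form_nondeg m v hv
        have h3 := congrArg (fun M : Matrix (Fin m ⊕ Fin m) (Fin m ⊕ Fin m) F => M *ᵥ y) h2
        simp only [Cfsg.Agent.S0766.tv_mulVec, one_mul] at h3
        have h4 := add_left_cancel h3
        have h5 : Cfsg.sympForm m F y v ≠ 0 := by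
          rw [Cfsg.Agent.S0766.form_swap]; exact neg_ne_zero.mpr hy
        have h6 : Cfsg.sympForm m F y
            ((z : Matrix (Fin m ⊕ Fin m) (Fin m ⊕ Fin m) F) *ᵥ v) ≠ 0 := by
          intro h0
          rw [h0, zero_smul] at h4
          exact hv ((smul_eq_zero.mp h4.symm).resolve_left h5)
        rw [LinearIndependent.pair_iff' hv]
        push Not
        refine ⟨(Cfsg.sympForm m F y
            ((z : Matrix (Fin m ⊕ Fin m) (Fin m ⊕ Fin m) F) *ᵥ v))⁻¹ * Cfsg.sympForm m F y v, ?_⟩
        rw [hf, Matrix.toLin'_apply, mul_smul, ← h4, smul_smul, inv_mul_cancel₀ h6, one_smul]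
  refine ⟨a, ?_⟩
  have h2 : (z : Matrix (Fin m ⊕ Fin m) (Fin m ⊕ Fin m) F) = LinearMap.toMatrix' f := by
    rw [hf, LinearMap.toMatrix'_toLin']
  rw [h2, ha]
  simp

/-- The centre of Sp_{2m}(q), m at least 1, is {1, -1}: it has order gcd(2, q-1). -/
theorem result {F : Type*} [Field F] [Fintype F] {q : ℕ} (hF : Fintype.card F = q) (m : ℕ) (hm : 1 ≤ m) : Nat.card (Subgroup.center (Matrix.symplecticGroup (Fin m) F)) = Nat.gcd 2 (q - 1) := by
  classical
  have hcen : ∀ z : Matrix.symplecticGroup (Fin m) F,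
      z ∈ Subgroup.center (Matrix.symplecticGroup (Fin m) F) ↔
        ((z : Matrix (Fin m ⊕ Fin m) (Fin m ⊕ Fin m) F) = 1 ∨
          (z : Matrix (Fin m ⊕ Fin m) (Fin m ⊕ Fin m) F) = -1) := by
    intro z
    constructor
    · intro hz
      obtain ⟨a, ha⟩ := scalar_of_central m z hz
      have hmem := z.2
      rw [SymplecticGroup.mem_iff, ha] at hmem
      have h1 : (a * a) • Matrix.J (Fin m) F = Matrix.J (Fin m) F := by
        simpa [Matrix.smul_mul, Matrix.mul_smul, smul_smul] using hmem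
      have h2 := congrFun (congrFun h1 (Sum.inr ⟨0, hm⟩)) (Sum.inl ⟨0, hm⟩)
      simp [Matrix.J] at h2
      have h3 : (a - 1) * (a + 1) = 0 := by linear_combination h2
      rcases mul_eq_zero.mp h3 with h | h
      · left; rw [ha, sub_eq_zero.mp h, one_smul]
      · right; rw [ha, eq_neg_of_add_eq_zero_left h]; simp
    · rintro (h | h)
      · have : z = 1 := Subtype.ext h
        rw [this]; exact one_mem _
      · rw [Subgroup.mem_center_iff]
        intro g
        apply Subtype.ext
        rw [Submonoid.coe_mul, Submonoid.coe_mul, h]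
        simp
  have hq : 1 < q := hF ▸ Fintype.one_lt_card
  by_cases h2 : (2 : F) = 0
  · have hneg : (-1 : Matrix (Fin m ⊕ Fin m) (Fin m ⊕ Fin m) F) = 1 := by
      have h3 : (-1 : F) = 1 := by linear_combination -h2
      rw [← neg_one_smul F (1 : Matrix (Fin m ⊕ Fin m) (Fin m ⊕ Fin m) F), h3, one_smul]
    have hbot : Subgroup.center (Matrix.symplecticGroup (Fin m) F) = ⊥ := by
      ext z
      rw [hcen, Subgroup.mem_bot]
      constructor
      · rintro (h | h)
        · exact Subtype.ext h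
        · exact Subtype.ext (h.trans hneg)
      · intro h
        left; rw [h]; rfl
    rw [hbot, Subgroup.card_bot]
    have hchar : ringChar F = 2 :=
      CharP.ringChar_of_prime_eq_zero Nat.prime_two (by exact_mod_cast h2)
    have h4 := FiniteField.even_card_iff_char_two.mp hchar
    rw [hF] at h4
    have h5 : (q - 1) % 2 = 1 := by omega
    rw [Nat.gcd_rec, h5]
    rfl
  · have hne : (-1 : Matrix (Fin m ⊕ Fin m) (Fin m ⊕ Fin m) F) ≠ 1 := by
      intro h
      have h3 := congrFun (congrFun h (Sum.inl ⟨0, hm⟩)) (Sum.inl ⟨0, hm⟩)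
      simp at h3
      apply h2
      linear_combination -h3
    have hq2 : ¬ q % 2 = 0 := by
      intro h4
      rw [← hF] at h4
      have hchar := FiniteField.even_card_iff_char_two.mpr h4
      have := ringChar.of_eq hchar
      exact h2 (by exact_mod_cast CharP.cast_eq_zero F 2)
    have h5 : (q - 1) % 2 = 0 := by omega
    have h6 : Nat.gcd 2 (q - 1) = 2 := by rw [Nat.gcd_rec, h5]; rfl
    rw [h6, Nat.card_eq_two_iff]
    obtain ⟨n1, hn1⟩ : ∃ n1 : Matrix.symplecticGroup (Fin m) F,
        (n1 : Matrix (Fin m ⊕ Fin m) (Fin m ⊕ Fin m) F) = -1 :=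
      ⟨⟨_, SymplecticGroup.neg_mem (one_mem _)⟩, rfl⟩
    refine ⟨⟨1, one_mem _⟩, ⟨n1, (hcen n1).mpr (Or.inr hn1)⟩, ?_, ?_⟩
    · intro h
      have h7 := congrArg (fun z : Subgroup.center (Matrix.symplecticGroup (Fin m) F) =>
        ((z : Matrix.symplecticGroup (Fin m) F) : Matrix (Fin m ⊕ Fin m) (Fin m ⊕ Fin m) F)) h
      simp only [hn1] at h7
      exact hne h7.symm
    · ext ⟨z, hz⟩
      simp only [Set.mem_insert_iff, Set.mem_singleton_iff, Set.mem_univ, iff_true]
      rcases (hcen z).mp hz with h | h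
      · left; exact Subtype.ext (Subtype.ext h)
      · right; exact Subtype.ext (Subtype.ext (h.trans hn1.symm))

end Cfsg.Agent.S0246
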