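import Cfsg.Statements.S2759
import Mathlib
import Cfsg.Agent.Lib.Helper17.S4Rec
import Cfsg.Agent.Lib.Helper1.S4SecA
import Cfsg.Agent.Lib.Helper1.S4SecB
import Cfsg.Agent.Lib.Helper1.S4SecC

set_option autoImplicit false
open Cfsg

namespace Cfsg.Agent.S2759

open Cfsg.Agent.Lib.Helper17 Cfsg.Agent.Lib.Helper1.S4Sec

universe u

theorem forward {G : Type u} [Group G] [Finite G]
    (h : Cfsg.Involves (Equiv.Perm (Fin 4)) G) :
    ∃ T : Subgroup G, IsPGroup 2 ↥T ∧ Cfsg.Involves (Equiv.Perm (Fin 3))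
      (↥(Subgroup.normalizer (T : Set G)) ⧸
        (Subgroup.centralizer (T : Set G)).subgroupOf (Subgroup.normalizer (T : Set G))) := by
  obtain ⟨K, φ, hφ⟩ := exists_hom_of_involves h
  obtain ⟨T₀, hT2, hsurj, hcent⟩ := lemmaA K φ hφ
  refine ⟨T₀.map K.subtype, hT2.map _, ?_⟩
  refine lemmaB (T₀.map K.subtype)
    (K.subtype.comp (Subgroup.normalizer (T₀ : Set K)).subtype)
    ((piHom.comp φ).comp (Subgroup.normalizer (T₀ : Set K)).subtype) ?_ ?_ ?_
  · intro τ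
    obtain ⟨n, hn, hτ⟩ := hsurj τ
    exact ⟨⟨n, hn⟩, hτ⟩
  · intro n
    exact Subgroup.le_normalizer_map K.subtype (Subgroup.mem_map_of_mem _ n.2)
  · intro n hn
    apply hcent
    intro t ht
    have h1 := Subgroup.mem_centralizer_iff.mp hn (t : G) (Subgroup.mem_map_of_mem K.subtype ht)
    exact Subtype.ext h1.symm

theorem backward {G : Type u} [Group G] [Finite G] (T : Subgroup G) (hT2 : IsPGroup 2 ↥T)
    (hinv : Cfsg.Involves (Equiv.Perm (Fin 3))
      (↥(Subgroup.normalizer (T : Set G)) ⧸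
        (Subgroup.centralizer (T : Set G)).subgroupOf (Subgroup.normalizer (T : Set G)))) :
    Cfsg.Involves (Equiv.Perm (Fin 4)) G := by
  obtain ⟨Kb, φb, hφb⟩ := exists_hom_of_involves hinv
  obtain ⟨N, hNdef⟩ : ∃ N : Subgroup G, N = Subgroup.normalizer (T : Set G) := ⟨_, rfl⟩
  subst hNdef
  obtain ⟨q, hqdef⟩ : ∃ q : ↥(Subgroup.normalizer (T : Set G)) →*
      (↥(Subgroup.normalizer (T : Set G)) ⧸
        (Subgroup.centralizer (T : Set G)).subgroupOf (Subgroup.normalizer (T : Set G))),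
      q = QuotientGroup.mk' _ := ⟨_, rfl⟩
  have hqsurj : Function.Surjective q := by rw [hqdef]; exact QuotientGroup.mk'_surjective _
  have hqker : ∀ n : ↥(Subgroup.normalizer (T : Set G)), (∀ t ∈ T, (n : G) * t = t * n) → q n = 1 := by
    intro n hn
    rw [hqdef, QuotientGroup.mk'_apply, QuotientGroup.eq_one_iff, Subgroup.mem_subgroupOf,
      Subgroup.mem_centralizer_iff]
    intro t ht
    exact (hn t ht).symm
  -- the pulled back surjection
  have hφ₀ : Function.Surjective (φb.comp (q.subgroupComap Kb)) := by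
    intro x
    obtain ⟨k, rfl⟩ := hφb x
    obtain ⟨g, hg⟩ := hqsurj (k : _)
    refine ⟨⟨g, ?_⟩, ?_⟩
    · rw [Subgroup.mem_comap, hg]
      exact k.2
    · rw [MonoidHom.comp_apply]
      congr 1
      exact Subtype.ext hg
  obtain ⟨y₀, s₀, ⟨n3, hn3⟩, ⟨k2, hk2⟩, hrel, hne⟩ :=
    exists_inverted (Kb.comap q) (φb.comp (q.subgroupComap Kb)) hφ₀
  -- elements of the normalizer
  obtain ⟨y₁, hy₁⟩ : ∃ y₁ : ↥(Subgroup.normalizer (T : Set G)), y₁ = (y₀ : _) := ⟨_, rfl⟩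
  obtain ⟨s₁, hs₁⟩ : ∃ s₁ : ↥(Subgroup.normalizer (T : Set G)), s₁ = (s₀ : _) := ⟨_, rfl⟩
  have hy₁3 : y₁ ^ 3 ^ n3 = 1 := by
    rw [hy₁]; exact congrArg Subtype.val hn3
  have hs₁2 : s₁ ^ 2 ^ k2 = 1 := by
    rw [hs₁]; exact congrArg Subtype.val hk2
  have hrel₁ : s₁ * y₁ * s₁⁻¹ = y₁⁻¹ := by
    rw [hy₁, hs₁]; exact congrArg Subtype.val hrel
  have hy₁C : ¬ ∀ t ∈ T, (y₁ : G) * t = t * y₁ := by
    intro hc
    apply hne
    have h1 : q y₁ = 1 := hqker y₁ hc
    rw [MonoidHom.comp_apply]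
    have h2 : (q.subgroupComap Kb) y₀ = 1 := by
      apply Subtype.ext
      rw [hy₁] at h1
      exact h1
    rw [h2, map_one]
  -- refine the exponent
  have hex : ∃ j : ℕ, ∀ t ∈ T, ((y₁ ^ 3 ^ j : ↥(Subgroup.normalizer (T : Set G))) : G) * t =
      t * ((y₁ ^ 3 ^ j : ↥(Subgroup.normalizer (T : Set G))) : G) := by
    refine ⟨n3, fun t _ => ?_⟩
    rw [hy₁3]; simp
  classical
  obtain ⟨j, hj, hjmin⟩ : ∃ j : ℕ, (∀ t ∈ T,
      ((y₁ ^ 3 ^ j : ↥(Subgroup.normalizer (T : Set G))) : G) * t =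
      t * ((y₁ ^ 3 ^ j : ↥(Subgroup.normalizer (T : Set G))) : G)) ∧
      ∀ i < j, ¬ ∀ t ∈ T, ((y₁ ^ 3 ^ i : ↥(Subgroup.normalizer (T : Set G))) : G) * t =
      t * ((y₁ ^ 3 ^ i : ↥(Subgroup.normalizer (T : Set G))) : G) :=
    ⟨Nat.find hex, Nat.find_spec hex, fun i hi => Nat.find_min hex hi⟩
  have hj0 : j ≠ 0 := by
    rintro rfl
    apply hy₁C
    intro t ht
    have := hj t ht
    simpa using this
  obtain ⟨i, rfl⟩ := Nat.exists_eq_succ_of_ne_zero hj0
  obtain ⟨y', hy'⟩ : ∃ y' : ↥(Subgroup.normalizer (T : Set G)), y' = y₁ ^ 3 ^ i := ⟨_, rfl⟩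
  have hy'3 : y' * y' * y' = y₁ ^ 3 ^ (i + 1) := by
    rw [hy', pow_succ 3 i, pow_mul, pow_succ, pow_two]
  have hy'odd : Odd (orderOf y') := by
    have h1 : orderOf y' ∣ 3 ^ n3 := by
      rw [hy']
      exact (orderOf_pow_dvd _).trans (orderOf_dvd_of_pow_eq_one hy₁3)
    exact Odd.of_dvd_nat (Odd.pow (by decide)) h1
  have hrel' : s₁ * y' * s₁⁻¹ = y'⁻¹ := by
    rw [hy', ← conj_pow, hrel₁, inv_pow]
  have hTN : T ≤ Subgroup.normalizer (T : Set G) := Subgroup.le_normalizer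
  have hkey := keyP _ ↥(Subgroup.normalizer (T : Set G)) rfl
    (T.subgroupOf (Subgroup.normalizer (T : Set G))) inferInstance hT2.comap_subtype y' s₁ hy'odd
    ⟨k2, hs₁2⟩ hrel' ?_ ?_
  · exact involves_of_subgroup _ hkey
  · intro t ht
    rw [hy'3]
    apply Subtype.ext
    have := hj (t : G) (Subgroup.mem_subgroupOf.mp ht)
    simpa using this
  · have h3 := hjmin i (Nat.lt_succ_self i)
    push Not at h3
    obtain ⟨t, ht, hne'⟩ := h3
    refine ⟨⟨t, hTN ht⟩, Subgroup.mem_subgroupOf.mpr ht, ?_⟩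
    intro h4
    apply hne'
    rw [← hy']
    exact congrArg Subtype.val h4

/-- For a finite group G, the symmetric group of degree 4 is involved in G if and only if there is a 2-subgroup T of G such that the symmetric group of degree 3 is involved in N(T)/C(T). -/
theorem result {G : Type*} [Group G] [Finite G] : Cfsg.Involves (Equiv.Perm (Fin 4)) G ↔ ∃ T : Subgroup G, IsPGroup 2 ↥T ∧ Cfsg.Involves (Equiv.Perm (Fin 3)) (↥(Subgroup.normalizer (T : Set G)) ⧸ (Subgroup.centralizer (T : Set G)).subgroupOf (Subgroup.normalizer (T : Set G))) := by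
  constructor
  · exact forward
  · rintro ⟨T, hT2, hinv⟩
    exact backward T hT2 hinv

end Cfsg.Agent.S2759
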