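import Cfsg.Statements.S0077
import Mathlib
import Cfsg.Agent.Lib.Helper1.CoprimeSylow

set_option autoImplicit false
open Cfsg

namespace Cfsg.Agent.S0077

open Pointwise
open scoped commutatorElement
open Cfsg.Agent.Lib.Helper1

theorem fusion {G : Type*} [Group G] [Finite G] {p : ℕ} [Fact p.Prime] (P : Sylow p G)
    (Z : Subgroup G) (hZ : Z ≤ Subgroup.centralizer (P : Set G))
    (hW : Cfsg.IsWeaklyClosed Z P) (x u : G) (hx : x ∈ (P : Subgroup G))
    (hy : u * x * u⁻¹ ∈ (P : Subgroup G)) :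
    ∃ n ∈ Subgroup.normalizer (Z : Set G), n * x * n⁻¹ = u * x * u⁻¹ := by
  have hW' : ∀ g : G, MulAut.conj g • Z ≤ P → MulAut.conj g • Z = Z := hW.2
  have hZP : Z ≤ P := hW.1
  have hZp : IsPGroup p Z := P.2.to_le hZP
  obtain ⟨y, hydef⟩ : ∃ y, y = u * x * u⁻¹ := ⟨_, rfl⟩
  rw [← hydef] at hy ⊢
  obtain ⟨C, hCdef⟩ : ∃ C : Subgroup G, C = Subgroup.centralizer {y} := ⟨_, rfl⟩
  have hmemC : ∀ g, g ∈ C ↔ y * g = g * y := by
    intro g
    rw [hCdef, Subgroup.mem_centralizer_iff]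
    simp
  have hZC : Z ≤ C := by
    intro z hz
    rw [hmemC]
    exact (Subgroup.mem_centralizer_iff.mp (hZ hz)) y hy
  obtain ⟨Z₁, hZ₁def⟩ : ∃ Z₁ : Subgroup G, Z₁ = MulAut.conj u • Z := ⟨_, rfl⟩
  have hZ₁C : Z₁ ≤ C := by
    intro z hz
    rw [hZ₁def, mem_conj_smul_iff] at hz
    rw [hmemC]
    have h1 := (Subgroup.mem_centralizer_iff.mp (hZ hz)) x hx
    rw [hydef]
    calc u * x * u⁻¹ * z = u * (x * (u⁻¹ * z * u)) * u⁻¹ := by group
      _ = u * ((u⁻¹ * z * u) * x) * u⁻¹ := by rw [h1]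
      _ = z * (u * x * u⁻¹) := by group
  have hZ₁p : IsPGroup p Z₁ := by
    rw [hZ₁def]
    exact hZp.map _
  obtain ⟨Q, hQ⟩ := (hZp.comap_subtype (K := C)).exists_le_sylow
  obtain ⟨Q₁, hQ₁⟩ := (hZ₁p.comap_subtype (K := C)).exists_le_sylow
  obtain ⟨c, hc⟩ := MulAction.exists_smul_eq C Q₁ Q
  obtain ⟨Q', hQ'def⟩ : ∃ Q' : Subgroup G, Q' = (Q : Subgroup C).map C.subtype := ⟨_, rfl⟩
  have hZQ' : Z ≤ Q' := by
    rw [hQ'def, ← Subgroup.map_subgroupOf_eq_of_le hZC]
    exact Subgroup.map_mono hQ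
  have hZ₁Q' : MulAut.conj (c : G) • Z₁ ≤ Q' := by
    rw [hQ'def, ← hc, sylow_smul_map]
    apply Subgroup.pointwise_smul_le_pointwise_smul_iff.mpr
    rw [← Subgroup.map_subgroupOf_eq_of_le hZ₁C]
    exact Subgroup.map_mono hQ₁
  have hQ'p : IsPGroup p Q' := hQ'def ▸ Q.2.map C.subtype
  obtain ⟨R, hR⟩ := hQ'p.exists_le_sylow
  obtain ⟨h, hh⟩ := MulAction.exists_smul_eq G P R
  have hRP : (R : Subgroup G) = MulAut.conj h • (P : Subgroup G) := by
    rw [← hh]
    rfl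
  have key : ∀ g : G, MulAut.conj g • Z ≤ Q' → MulAut.conj (h⁻¹ * g) • Z = Z := by
    intro g hg
    apply hW'
    rw [conj_mul_smul, map_inv, Subgroup.pointwise_smul_subset_iff, inv_inv, ← hRP]
    exact hg.trans hR
  have h1 : MulAut.conj h⁻¹ • Z = Z := by
    have := key 1 (by rw [map_one, one_smul]; exact hZQ')
    rwa [mul_one] at this
  have h2 : MulAut.conj (h⁻¹ * ((c : G) * u)) • Z = Z :=
    key _ (by rw [conj_mul_smul, ← hZ₁def]; exact hZ₁Q')
  have h4 : MulAut.conj h • Z = Z := by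
    conv_lhs => rw [← h1]
    rw [← conj_mul_smul, mul_inv_cancel, map_one, one_smul]
  have h3 : MulAut.conj ((c : G) * u) • Z = Z := by
    rw [conj_mul_smul h⁻¹] at h2
    calc MulAut.conj ((c : G) * u) • Z
        = MulAut.conj h • MulAut.conj h⁻¹ • MulAut.conj ((c : G) * u) • Z := by
          rw [← conj_mul_smul h, mul_inv_cancel, map_one, one_smul]
      _ = MulAut.conj h • Z := by rw [h2]
      _ = Z := h4
  refine ⟨(c : G) * u, mem_normalizer_of_conj_smul_eq h3, ?_⟩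
  have hcy : y * (c : G) = (c : G) * y := (hmemC c).mp c.2
  calc (c : G) * u * x * ((c : G) * u)⁻¹ = (c : G) * (u * x * u⁻¹) * (c : G)⁻¹ := by group
    _ = (c : G) * y * (c : G)⁻¹ := by rw [hydef]
    _ = y * (c : G) * (c : G)⁻¹ := by rw [hcy]
    _ = y := by group

/-- If a subgroup Z of the centre of a Sylow p-subgroup P is weakly closed in P, then P meets the derived subgroup of G exactly where it meets the derived subgroup of the normalizer of Z. -/
theorem result {G : Type*} [Group G] [Finite G] {p : ℕ} [Fact p.Prime] (P : Sylow p G) (Z : Subgroup G) (hZ : Z ≤ Subgroup.centralizer (P : Set G)) (hW : Cfsg.IsWeaklyClosed Z P) : commutator G ⊓ (P : Subgroup G) = ⁅Subgroup.normalizer (Z : Set G), Subgroup.normalizer (Z : Set G)⁆ ⊓ (P : Subgroup G) := by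
  apply le_antisymm
  · rw [Subgroup.commutator_inf_eq_focalSubgroup]
    apply le_inf _ (Subgroup.focalSubgroup_le _)
    rw [Subgroup.focalSubgroup_def, Subgroup.closure_le]
    rintro g ⟨hgP, x, hxP, u, rfl⟩
    have hy : u * x * u⁻¹ ∈ (P : Subgroup G) := by
      have h1 : u * x * u⁻¹ = (x⁻¹ * ⁅x, u⁆)⁻¹ := by rw [commutatorElement_def]; group
      rw [h1]
      exact Subgroup.inv_mem _ (Subgroup.mul_mem _ (Subgroup.inv_mem _ hxP) hgP)
    obtain ⟨n, hn, hnx⟩ := fusion P Z hZ hW x u hxP hy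
    have h2 : ⁅x, u⁆ = ⁅x, n⁆ := by
      rw [commutatorElement_def, commutatorElement_def]
      calc x * u * x⁻¹ * u⁻¹ = x * (u * x * u⁻¹)⁻¹ := by group
        _ = x * (n * x * n⁻¹)⁻¹ := by rw [hnx]
        _ = x * n * x⁻¹ * n⁻¹ := by group
    rw [h2]
    refine Subgroup.commutator_mem_commutator ?_ hn
    have hPN : (P : Subgroup G) ≤ Subgroup.normalizer (Z : Set G) := by
      refine le_trans ?_ (Subgroup.centralizer_le_normalizer _)
      rw [Subgroup.le_centralizer_iff]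
      exact hZ
    exact hPN hxP
  · apply inf_le_inf_right
    rw [commutator_def]
    exact Subgroup.commutator_mono le_top le_top

end Cfsg.Agent.S0077
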