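import Cfsg.Statements.S0078
import Mathlib
import Cfsg.Agent.Lib.Helper1.Tate
import Cfsg.Agent.Lib.Helper14.SylowRel
import Cfsg.Agent.S0077
import Cfsg.Agent.S0012

set_option autoImplicit false
open Cfsg

namespace Cfsg.Agent.S0078

open Cfsg.Agent.Lib.Helper1
open Cfsg.Agent.Lib.Helper14
open Pointwise
open scoped commutatorElement

universe u

theorem comm_mod_residual {V : Type*} [Group V] [Finite V] {p : ℕ} [Fact p.Prime]
    (T : Subgroup V) (hT : ¬ p ∣ T.index) {x : V} (hx : x ∈ commutator V) :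
    ∃ y ∈ ⁅T, T⁆, y⁻¹ * x ∈ Cfsg.pResidual p V := by
  haveI := pResidual_normal (G := V) p
  have hQ : IsPGroup p (V ⧸ Cfsg.pResidual p V) := isPGroup_quotient_pResidual p
  have hπ : Function.Surjective (QuotientGroup.mk' (Cfsg.pResidual p V)) :=
    QuotientGroup.mk'_surjective _
  have htop : T.map (QuotientGroup.mk' (Cfsg.pResidual p V)) = ⊤ := by
    rw [← Subgroup.index_eq_one]
    obtain ⟨n, hn⟩ := hQ.index (T.map (QuotientGroup.mk' (Cfsg.pResidual p V)))
    have h1 : (T.map (QuotientGroup.mk' (Cfsg.pResidual p V))).index ∣ T.index :=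
      Subgroup.index_map_dvd _ hπ
    rw [hn] at h1 ⊢
    rcases Nat.eq_zero_or_pos n with h0 | h0
    · rw [h0, pow_zero]
    · exact absurd (dvd_trans (dvd_pow_self p h0.ne') h1) hT
  have h2 : QuotientGroup.mk' (Cfsg.pResidual p V) x ∈
      (⁅T, T⁆).map (QuotientGroup.mk' (Cfsg.pResidual p V)) := by
    rw [Subgroup.map_commutator, htop]
    rw [commutator_def] at hx
    have h3 := Subgroup.mem_map_of_mem (QuotientGroup.mk' (Cfsg.pResidual p V)) hx
    rw [Subgroup.map_commutator] at h3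
    exact Subgroup.commutator_mono le_top le_top h3
  obtain ⟨y, hy, hyx⟩ := h2
  exact ⟨y, hy, QuotientGroup.eq.mp hyx⟩

theorem exists_central_quotient {S : Type u} [Group S] [Finite S] {p : ℕ} [Fact p.Prime]
    (hS : IsPGroup p S) (A B : Subgroup S) [hA : A.Normal] [hB : B.Normal] (hBA : B ≤ A)
    (hne : ¬ A ≤ B) :
    ∃ (R : Type u) (_ : Group R) (_ : Finite R) (π : S →* R), IsPGroup p R ∧
      (∀ a ∈ A, ∀ r : R, π a * r = r * π a) ∧ (∀ s : S, π s = 1 → s ∈ A) ∧
      (∀ b ∈ B, π b = 1) ∧ ¬ (∀ a ∈ A, π a = 1) := by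
  have hsurj : Function.Surjective (QuotientGroup.mk' B) := QuotientGroup.mk'_surjective B
  haveI hAn : (A.map (QuotientGroup.mk' B)).Normal := hA.map _ hsurj
  have hSB : IsPGroup p (S ⧸ B) := hS.to_quotient B
  have hAne : A.map (QuotientGroup.mk' B) ≠ ⊥ := by
    intro h
    apply hne
    intro a ha
    have h1 : QuotientGroup.mk' B a ∈ A.map (QuotientGroup.mk' B) :=
      Subgroup.mem_map_of_mem _ ha
    rw [h, Subgroup.mem_bot, QuotientGroup.mk'_apply, QuotientGroup.eq_one_iff] at h1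
    exact h1
  have hlt : ⁅A.map (QuotientGroup.mk' B), (⊤ : Subgroup (S ⧸ B))⁆ <
      A.map (QuotientGroup.mk' B) :=
    commutator_lt_of_pgroups (hSB.to_subgroup _) (hSB.to_subgroup _)
      (by rw [Subgroup.normalizer_eq_top]) hAne
  refine ⟨(S ⧸ B) ⧸ ⁅A.map (QuotientGroup.mk' B), (⊤ : Subgroup (S ⧸ B))⁆, inferInstance,
    inferInstance, (QuotientGroup.mk' _).comp (QuotientGroup.mk' B), hSB.to_quotient _,
    ?_, ?_, ?_, ?_⟩
  · intro a ha r
    obtain ⟨r', rfl⟩ := QuotientGroup.mk'_surjective _ r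
    obtain ⟨s, rfl⟩ := hsurj r'
    show QuotientGroup.mk' _ (QuotientGroup.mk' B a) * QuotientGroup.mk' _ (QuotientGroup.mk' B s)
      = QuotientGroup.mk' _ (QuotientGroup.mk' B s) * QuotientGroup.mk' _ (QuotientGroup.mk' B a)
    rw [← map_mul, ← map_mul]
    apply QuotientGroup.eq.mpr
    have h1 : ⁅(QuotientGroup.mk' B s)⁻¹, (QuotientGroup.mk' B a)⁻¹⁆ ∈
        ⁅A.map (QuotientGroup.mk' B), (⊤ : Subgroup (S ⧸ B))⁆ := by
      rw [Subgroup.commutator_comm]
      exact Subgroup.commutator_mem_commutator (Subgroup.mem_top _)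
        (Subgroup.inv_mem _ (Subgroup.mem_map_of_mem _ ha))
    have e : ((QuotientGroup.mk' B) (a * s))⁻¹ * (QuotientGroup.mk' B) (s * a) =
        ⁅((QuotientGroup.mk' B) s)⁻¹, ((QuotientGroup.mk' B) a)⁻¹⁆ := by
      rw [map_mul, map_mul, commutatorElement_def]
      group
    show ((QuotientGroup.mk' B) (a * s))⁻¹ * (QuotientGroup.mk' B) (s * a) ∈ _
    rw [e]
    exact h1
  · intro s hs
    rw [MonoidHom.comp_apply, QuotientGroup.mk'_apply, QuotientGroup.eq_one_iff] at hs
    obtain ⟨a, ha, has⟩ := hlt.le hs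
    have h1 : a⁻¹ * s ∈ B := QuotientGroup.eq.mp has
    have e : s = a * (a⁻¹ * s) := by group
    rw [e]
    exact A.mul_mem ha (hBA h1)
  · intro b hb
    rw [MonoidHom.comp_apply]
    have h1 : QuotientGroup.mk' B b = 1 := by
      rw [QuotientGroup.mk'_apply, QuotientGroup.eq_one_iff]
      exact hb
    rw [h1, map_one]
  · intro hall
    apply not_le_of_gt hlt
    rintro _ ⟨a, ha, rfl⟩
    have h1 := hall a ha
    rw [MonoidHom.comp_apply, QuotientGroup.mk'_apply, QuotientGroup.eq_one_iff] at h1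
    exact h1

/-- In a p-normal group, a Sylow p-subgroup P meets O^p(G) exactly where it meets O^p(V), for any subgroup V containing the normalizer of the centre of P. -/
theorem result {G : Type*} [Group G] [Finite G] {p : ℕ} [Fact p.Prime] (P : Sylow p G) (hn : ∀ Q : Sylow p G, (P : Subgroup G) ⊓ Subgroup.centralizer (P : Set G) ≤ (Q : Subgroup G) → (Q : Subgroup G) ⊓ Subgroup.centralizer (Q : Set G) = (P : Subgroup G) ⊓ Subgroup.centralizer (P : Set G)) (V : Subgroup G) (hV : Subgroup.normalizer (((P : Subgroup G) ⊓ Subgroup.centralizer (P : Set G) : Subgroup G) : Set G) ≤ V) : (P : Subgroup G) ⊓ Cfsg.pResidual p G = (P : Subgroup G) ⊓ (Cfsg.pResidual p V).map V.subtype := by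
  have hp : p.Prime := Fact.out
  obtain ⟨Z, hZdef⟩ : ∃ Z : Subgroup G,
      Z = (P : Subgroup G) ⊓ Subgroup.centralizer (P : Set G) := ⟨_, rfl⟩
  rw [← hZdef] at hn hV
  have hZP : Z ≤ (P : Subgroup G) := hZdef ▸ inf_le_left
  have hZC : Z ≤ Subgroup.centralizer (P : Set G) := hZdef ▸ inf_le_right
  have hPN : (P : Subgroup G) ≤ Subgroup.normalizer (Z : Set G) := by
    refine le_trans ?_ (Subgroup.centralizer_le_normalizer _)
    rw [Subgroup.le_centralizer_iff]
    exact hZC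
  have hPV : (P : Subgroup G) ≤ V := hPN.trans hV
  have hW : Cfsg.IsWeaklyClosed Z P := by
    refine ⟨hZP, ?_⟩
    intro g hg
    have h1 : Z ≤ ((g⁻¹ • P : Sylow p G) : Subgroup G) := by
      rw [Sylow.coe_subgroup_smul]
      intro z hz
      rw [Cfsg.Agent.Lib.Helper1.mem_conj_smul_iff, inv_inv]
      exact hg ⟨z, hz, rfl⟩
    have h2 : (P : Subgroup G).map (MulAut.conj g⁻¹).toMonoidHom ⊓
        Subgroup.centralizer (((P : Subgroup G).map (MulAut.conj g⁻¹).toMonoidHom :
          Subgroup G) : Set G) = Z := hn (g⁻¹ • P) h1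
    have hZdef' : Z = (P : Subgroup G) ⊓
        Subgroup.centralizer (((P : Subgroup G) : Subgroup G) : Set G) := hZdef
    rw [centralizer_map_conj, ← map_conj_inf, ← hZdef'] at h2
    calc Z.map (MulAut.conj g).toMonoidHom
        = (Z.map (MulAut.conj g⁻¹).toMonoidHom).map (MulAut.conj g).toMonoidHom := by rw [h2]
      _ = Z := by rw [map_conj_map_conj, mul_inv_cancel, map_conj_one]
  have hgrun := Cfsg.Agent.S0077.result P Z hZC hW
  obtain ⟨K, hKdef⟩ : ∃ K : Subgroup G, K = Cfsg.pResidual p G := ⟨_, rfl⟩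
  obtain ⟨W, hWdef⟩ : ∃ W : Subgroup G, W = (Cfsg.pResidual p V).map V.subtype := ⟨_, rfl⟩
  rw [← hKdef, ← hWdef]
  haveI hKn : K.Normal := hKdef ▸ pResidual_normal p
  have hWK : W ≤ K := by
    rw [hWdef, hKdef]
    unfold Cfsg.pResidual
    rw [MonoidHom.map_closure, Subgroup.closure_le]
    rintro _ ⟨v, hv, rfl⟩
    apply Subgroup.subset_closure
    show Nat.Coprime (orderOf (V.subtype v)) p
    rw [Subgroup.coe_subtype, Subgroup.orderOf_coe]
    exact hv
  apply le_antisymm _ (inf_le_inf_left _ hWK)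
  by_contra hcon
  have hKgen : K ≤ Subgroup.closure {g : G | g ∈ K ∧ (orderOf g).Coprime p} := by
    conv_lhs => rw [hKdef]
    unfold Cfsg.pResidual
    apply Subgroup.closure_mono
    intro g hg
    refine ⟨?_, hg⟩
    rw [hKdef]
    exact Subgroup.subset_closure hg
  have hKcomm : ∀ v : G, v ∈ K → v ∈ (P : Subgroup G) → v ∈ ⁅V, V⁆ := by
    intro v hvK hvP
    have h1 : K ≤ (P : Subgroup G).transferFocal.ker :=
      hKdef ▸ pResidual_le_ker p _ (P.2.to_quotient _)
    have h2 := Subgroup.ker_transferFocal_inf_eq_focalSubgroup P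
    have h3 : v ∈ (P : Subgroup G).focalSubgroup := by
      rw [← h2]
      exact Subgroup.mem_inf.mpr ⟨h1 hvK, hvP⟩
    have h4 : v ∈ commutator G ⊓ (P : Subgroup G) :=
      Subgroup.mem_inf.mpr ⟨Subgroup.focalSubgroup_le_commutator _ h3, hvP⟩
    rw [hgrun] at h4
    exact Subgroup.commutator_mono hV hV (Subgroup.mem_inf.mp h4).1
  have hfact : ∀ v : (P : Subgroup G), (v : G) ∈ K →
      ∃ c ∈ commutator (P : Subgroup G), ∃ w : (P : Subgroup G), (w : G) ∈ W ∧ v = c * w := by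
    intro v hvK
    have hvV := hKcomm v hvK v.2
    rw [← Subgroup.map_subtype_commutator] at hvV
    obtain ⟨vV, hvV1, hvV2⟩ := hvV
    have hT : ¬ p ∣ ((P : Subgroup G).subgroupOf V).index := by
      intro hd
      exact P.not_dvd_index (dvd_trans hd (Subgroup.relIndex_dvd_index_of_le hPV))
    obtain ⟨y, hy, hyx⟩ := comm_mod_residual ((P : Subgroup G).subgroupOf V) hT hvV1
    have hyP : (y : G) ∈ ⁅(P : Subgroup G), (P : Subgroup G)⁆ := by
      have h1 := Subgroup.mem_map_of_mem V.subtype hy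
      rw [Subgroup.map_commutator, Subgroup.map_subgroupOf_eq_of_le hPV] at h1
      exact h1
    rw [← Subgroup.map_subtype_commutator] at hyP
    obtain ⟨c, hc, hcy⟩ := hyP
    refine ⟨c, hc, c⁻¹ * v, ?_, by group⟩
    rw [hWdef]
    refine ⟨y⁻¹ * vV, hyx, ?_⟩
    have hcy' : (c : G) = (y : G) := hcy
    have hvV2' : (vV : G) = (v : G) := hvV2
    simp only [Subgroup.coe_subtype, Subgroup.coe_mul, Subgroup.coe_inv, hcy', hvV2']
  have hWn : ∀ y, y ∈ W → ∀ t ∈ V, t * y * t⁻¹ ∈ W := by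
    intro y hy t ht
    rw [hWdef] at hy ⊢
    obtain ⟨y', hy', rfl⟩ := hy
    exact ⟨⟨t, ht⟩ * y' * ⟨t, ht⟩⁻¹, (pResidual_normal (G := V) p).conj_mem y' hy' ⟨t, ht⟩, rfl⟩
  haveI hBn : (W.subgroupOf (P : Subgroup G)).Normal := by
    constructor
    intro n hn g
    rw [Subgroup.mem_subgroupOf] at hn ⊢
    exact hWn _ hn _ (hPV g.2)
  have hBA : W.subgroupOf (P : Subgroup G) ≤ K.subgroupOf (P : Subgroup G) := by
    intro x hx
    rw [Subgroup.mem_subgroupOf] at hx ⊢
    exact hWK hx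
  have hnAB : ¬ K.subgroupOf (P : Subgroup G) ≤ W.subgroupOf (P : Subgroup G) := by
    intro hle
    apply hcon
    intro x hx
    obtain ⟨hxP, hxK⟩ := Subgroup.mem_inf.mp hx
    have h1 : (⟨x, hxP⟩ : (P : Subgroup G)) ∈ W.subgroupOf (P : Subgroup G) := hle hxK
    exact Subgroup.mem_inf.mpr ⟨hxP, h1⟩
  obtain ⟨R, instR, instF, π, hRp, hπcen, hπker, hπB, hπne⟩ :=
    exists_central_quotient P.2 (K.subgroupOf (P : Subgroup G)) (W.subgroupOf (P : Subgroup G))
      hBA hnAB
  obtain ⟨HR, ha, hb⟩ := tate_lift P K hKgen hRp π (fun u hu r => hπcen u hu r)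
    (fun w hw => hπker w hw)
  have hsup : HR.comap π ⊔ frattini (P : Subgroup G) = ⊤ := by
    rw [eq_top_iff]
    intro u _
    obtain ⟨v, hvK, hv⟩ := ha u
    obtain ⟨c, hc, w, hwW, hvcw⟩ := hfact v hvK
    have hcΦ : c ∈ frattini (P : Subgroup G) := (Cfsg.Agent.S0012.result p P.2).1 hc
    have hwX : w * (v⁻¹ * u) ∈ HR.comap π := by
      rw [Subgroup.mem_comap, map_mul, hπB w hwW, one_mul]
      exact hv
    have e : u = c * (w * (v⁻¹ * u)) := by
      rw [← mul_assoc, ← hvcw]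
      group
    rw [e, sup_comm]
    exact Subgroup.mul_mem_sup hcΦ hwX
  have hX := frattini_nongenerating hsup
  apply hπne
  intro a haA
  apply hb a haA
  have h1 : a ∈ HR.comap π := by
    rw [hX]
    exact Subgroup.mem_top a
  exact h1

end Cfsg.Agent.S0078
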