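import Mathlib
import Cfsg.Statements.S0962
import Cfsg.Agent.Lib.Helper25.MinMax

set_option autoImplicit false
open Cfsg

namespace Cfsg.Agent.S0962

open Cfsg Cfsg.Agent.Lib.Helper25 Cfsg.Agent.Lib.Helper2 in
/-- Fix a maximal ideal M of the algebraic integers containing the prime p and a natural number d. The number of blocks of the finite group G of defect at least d is at most the number of conjugacy classes of p-regular elements of G of defect at least d, where the defect of a class is the exponent of p in the order of the centralizer of any of its elements. -/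
theorem result {G : Type*} [Group G] [Finite G] (p : ℕ) [Fact p.Prime] (M : Ideal Cfsg.AlgInt) (hM : Cfsg.IsPModular p M) (d : ℕ) : Nat.card {B : Set (Cfsg.IrrCharacter G) // Cfsg.IsPBlock M B ∧ d ≤ Cfsg.blockDefect p B} ≤ Nat.card {C : ConjClasses G // ∃ g : G, ConjClasses.mk g = C ∧ Cfsg.IsPRegular p g ∧ d ≤ (Nat.card (Subgroup.centralizer ({g} : Set G))).factorization p} := by
  classical
  have : Fintype G := Fintype.ofFinite G
  have : Fintype (IrrCharacter G) := Fintype.ofFinite _
  have hpr := isPrime_of_isPModular hM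
  have hcc : Fintype (ConjClasses G) := Fintype.ofFinite _
  have hf1 : Fintype {B : Set (Cfsg.IrrCharacter G) // Cfsg.IsPBlock M B ∧ d ≤ Cfsg.blockDefect p B} :=
    Fintype.ofFinite _
  have hf2 : Fintype {C : ConjClasses G // ∃ g : G, ConjClasses.mk g = C ∧ Cfsg.IsPRegular p g ∧ d ≤ (Nat.card (Subgroup.centralizer ({g} : Set G))).factorization p} :=
    Fintype.ofFinite _
  rw [Nat.card_eq_fintype_card, Nat.card_eq_fintype_card]
  by_contra hlt
  push Not at hlt
  have hrep : ∀ B : {B : Set (Cfsg.IrrCharacter G) // Cfsg.IsPBlock M B ∧ d ≤ Cfsg.blockDefect p B},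
      ∃ χ : IrrCharacter G, χ ∈ B.1 := fun B => isPBlock_nonempty hM B.2.1
  choose rep hrepm using hrep
  let P : Matrix {B : Set (Cfsg.IrrCharacter G) // Cfsg.IsPBlock M B ∧ d ≤ Cfsg.blockDefect p B}
      {C : ConjClasses G // ∃ g : G, ConjClasses.mk g = C ∧ Cfsg.IsPRegular p g ∧ d ≤ (Nat.card (Subgroup.centralizer ({g} : Set G))).factorization p} ℂ :=
    fun B C => blockCoeff B.1 C.1.out
  let Q : Matrix {C : ConjClasses G // ∃ g : G, ConjClasses.mk g = C ∧ Cfsg.IsPRegular p g ∧ d ≤ (Nat.card (Subgroup.centralizer ({g} : Set G))).factorization p}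
      {B : Set (Cfsg.IrrCharacter G) // Cfsg.IsPBlock M B ∧ d ≤ Cfsg.blockDefect p B} ℂ :=
    fun C B' => centralChar (rep B' : G → ℂ) C.1.out
  have hdet : (P * Q).det = 0 := by
    by_contra hne
    have hu : IsUnit (P * Q) := (Matrix.isUnit_iff_isUnit_det _).mpr (isUnit_iff_ne_zero.mpr hne)
    have h1 := Matrix.rank_of_isUnit (P * Q) hu
    have h2 := Matrix.rank_mul_le_left P Q
    have h3 := Matrix.rank_le_card_width P
    omega
  have hbR : ∀ (B : Set (IrrCharacter G)), IsPBlock M B → ∀ x : G, MemLocalRing M (blockCoeff B x) :=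
    fun B hB x => blockCoeff_memLocalRing hM B (blockClosed_of_isPBlock M hB) x
  have hωR : ∀ (χ : IrrCharacter G) (x : G), MemLocalRing M (centralChar (χ : G → ℂ) x) :=
    fun χ x => memLocalRing_of_isIntegral M (centralChar_isIntegral χ x)
  apply det_ne_zero_of_cong_one M (P * Q) _ _ hdet
  · intro B B'
    rw [Matrix.mul_apply]
    apply memLocalRing_sum
    intro C _
    exact MemLocalRing.mul M (hbR B.1 B.2.1 _) (hωR _ _)
  · intro B B'
    have hcf := blockCoeff_isClassFunction B.1
    have h1 := omegaFun_blockCoeff B.1 (rep B')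
    rw [omegaFun_eq_sum_classes' _ _ hcf] at h1
    have h2 : (1 : Matrix _ _ ℂ) B B' = if rep B' ∈ B.1 then (1 : ℂ) else 0 := by
      by_cases hBB : B = B'
      · subst hBB
        rw [Matrix.one_apply_eq, if_pos (hrepm B)]
      · rw [Matrix.one_apply_ne hBB, if_neg]
        intro hmem
        exact hBB (Subtype.ext (isPBlock_eq_of_mem hM B.2.1 B'.2.1 hmem (hrepm B')))
    have hPQ : (P * Q) B B' = ∑ C : {C : ConjClasses G // ∃ g : G, ConjClasses.mk g = C ∧ Cfsg.IsPRegular p g ∧ d ≤ (Nat.card (Subgroup.centralizer ({g} : Set G))).factorization p},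
        blockCoeff B.1 C.1.out * centralChar (rep B' : G → ℂ) C.1.out := Matrix.mul_apply
    have hsub := Finset.sum_subtype (Finset.univ.filter (fun C : ConjClasses G => ∃ g : G, ConjClasses.mk g = C ∧ Cfsg.IsPRegular p g ∧ d ≤ (Nat.card (Subgroup.centralizer ({g} : Set G))).factorization p))
        (p := (fun C : ConjClasses G => ∃ g : G, ConjClasses.mk g = C ∧ Cfsg.IsPRegular p g ∧ d ≤ (Nat.card (Subgroup.centralizer ({g} : Set G))).factorization p))
        (F := hf2)
        (fun x => by rw [Finset.mem_filter]; exact ⟨fun h => h.2, fun h => ⟨Finset.mem_univ _, h⟩⟩)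
        (fun c : ConjClasses G => blockCoeff B.1 c.out * centralChar (rep B' : G → ℂ) c.out)
    rw [h2, ← h1, hPQ,
      ← Finset.sum_filter_add_sum_filter_not Finset.univ (fun C : ConjClasses G => ∃ g : G, ConjClasses.mk g = C ∧ Cfsg.IsPRegular p g ∧ d ≤ (Nat.card (Subgroup.centralizer ({g} : Set G))).factorization p)
        (fun c : ConjClasses G => blockCoeff B.1 c.out * centralChar (rep B' : G → ℂ) c.out)]
    rw [hsub]
    rw [sub_add_cancel_left]
    apply MemLocalIdeal.neg M
    apply memLocalIdeal_sum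
    intro c hc
    rw [Finset.mem_filter] at hc
    set x := c.out with hx
    have hmk : ConjClasses.mk x = c := Quotient.out_eq c
    have hnot : ¬ (¬ p ∣ orderOf x ∧ d ≤ (Nat.card (Subgroup.centralizer ({x} : Set G))).factorization p) :=
      fun h => hc.2 ⟨x, hmk, h⟩
    by_cases hsing : p ∣ orderOf x
    · rw [blockCoeff_eq_zero_of_singular hM B.1 (blockClosed_of_isPBlock M B.2.1) x hsing, zero_mul]
      exact memLocalIdeal_zero M
    have hlt' : (Nat.card (Subgroup.centralizer ({x} : Set G))).factorization p < d := by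
      by_contra hge
      push Not at hge
      exact hnot ⟨hsing, hge⟩
    apply MemLocalIdeal.mul_left M (hbR B.1 B.2.1 _)
    exact memLocalIdeal_centralChar_of_defect_lt hM B'.1 (isPBlock_sameBlock hM B'.2.1) x
      (lt_of_lt_of_le hlt' B'.2.2) (rep B') (hrepm B')

end Cfsg.Agent.S0962
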