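import Cfsg.Statements.S5025
import Cfsg.Agent.Lib.Helper26.RootSet

set_option autoImplicit false
open Cfsg

namespace Cfsg.Agent.S5025

open Cfsg.Agent.Lib.Helper26

/-- Let S be a set of abstract root subgroups of G, A ∈ S and B a rank one partner of A in S. If z ≠ 1 centralizes ⟨A, B⟩, then no product z a with a a non-identity element of A is a non-identity element of a member of S. -/
theorem result {G : Type*} [Group G] {S : Set (Subgroup G)} (hS : Cfsg.IsRootSubgroupSet S)
    {A B : Subgroup G} (hA : A ∈ S) (hB : B ∈ Cfsg.rankOnePartners S A) {z : G}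
    (hz : z ∈ Subgroup.centralizer ((A ⊔ B : Subgroup G) : Set G)) (hz1 : z ≠ 1) :
    ∀ a ∈ A, a ≠ 1 → z * a ∉ Cfsg.rootElements S := by
  obtain ⟨hBS, hAB⟩ := hB
  intro a ha ha1 hza
  obtain ⟨-, C, hC, hzaC⟩ := hza
  have hzc : ∀ x ∈ A ⊔ B, x * z = z * x := Subgroup.mem_centralizer_iff.mp hz
  -- z normalises B
  have hzB : ∀ {w : G}, w ∈ Subgroup.centralizer ((A ⊔ B : Subgroup G) : Set G) →
      w ∈ Subgroup.normalizer (B : Set G) := by
    intro w hw
    have h1 : Subgroup.centralizer ((A ⊔ B : Subgroup G) : Set G) ≤ Subgroup.centralizer (B : Set G) :=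
      Subgroup.centralizer_le (by exact_mod_cast (le_sup_right : B ≤ A ⊔ B))
    exact Subgroup.centralizer_le_normalizer _ (h1 hw)
  have hact : conjBy B (z * a)⁻¹ = conjBy B a⁻¹ := by
    rw [mul_inv_rev, ← conjBy_conjBy]
    rw [conjBy_eq_self_iff.mpr (hzB (Subgroup.inv_mem _ hz))]
  obtain ⟨b, hb, hCb⟩ := RootSet.conj_of_same_action hS hAB hBS hC ha ha1 hzaC hact
  by_cases hb1 : b = 1
  · rw [hCb, hb1, conjBy_one] at hzaC
    have hzA : z ∈ A := by
      have := A.mul_mem hzaC (A.inv_mem ha)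
      simpa using this
    exact hz1 (RankOne.eq_one_of_mem_normalizer hAB hzA (hzB hz))
  · have hb1' : b⁻¹ ≠ 1 := by simpa using hb1
    obtain ⟨a', ha', -, hconj⟩ := hAB.cond_right b⁻¹ (B.inv_mem hb) hb1'
    rw [inv_inv] at hconj
    rw [hCb, ← hconj] at hzaC
    have h1 : a' * (z * a) * a'⁻¹ ∈ B := by
      have := mem_conjBy.mp hzaC
      simpa using this
    have hAc : IsMulCommutative A := hS.commutative A hA
    have h2 : a' * (z * a) * a'⁻¹ = z * a := by
      have e1 : a' * z = z * a' := hzc a' (Subgroup.mem_sup_left ha')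
      have e2 : a' * a = a * a' := setLike_mul_comm ha' ha
      calc a' * (z * a) * a'⁻¹ = (a' * z) * a * a'⁻¹ := by group
        _ = z * (a' * a) * a'⁻¹ := by rw [e1]; group
        _ = z * a := by rw [e2]; group
    rw [h2] at h1
    -- z * a ∈ B normalises B, and so does z, hence a does
    have h3 : a ∈ Subgroup.normalizer (B : Set G) := by
      have h4 : z⁻¹ * (z * a) ∈ Subgroup.normalizer (B : Set G) :=
        Subgroup.mul_mem _ (Subgroup.inv_mem _ (hzB hz)) (Subgroup.le_normalizer h1)
      simpa using h4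
    exact ha1 (RankOne.eq_one_of_mem_normalizer hAB ha h3)

end Cfsg.Agent.S5025
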