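import Cfsg.Statements.S5028
import Cfsg.Agent.Lib.Helper26.RootSet

set_option autoImplicit false
open Cfsg

namespace Cfsg.Agent.S5028

open Cfsg.Agent.Lib.Helper26

/-- Let S be a set of abstract root subgroups of G and A a member of S having a rank one partner in S. Then A meets every other member of S trivially. -/
theorem result {G : Type*} [Group G] {S : Set (Subgroup G)} (hS : Cfsg.IsRootSubgroupSet S)
    {A : Subgroup G} (hA : ¬ Cfsg.IsIsolatedIn (Cfsg.FAdj S) S A) (hAS : A ∈ S) : ∀ B ∈ S, A ⊓ B = ⊥ ∨ A = B := by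
  intro C hC
  obtain ⟨B, hB, hAB⟩ := RootSet.exists_partner hA hAS
  by_cases hbot : A ⊓ C = ⊥
  · exact Or.inl hbot
  right
  obtain ⟨x, ⟨hxA, hxC⟩, hx1⟩ : ∃ x ∈ A ⊓ C, x ≠ 1 := by
    by_contra h
    push Not at h
    exact hbot ((Subgroup.eq_bot_iff_forall _).mpr h)
  obtain ⟨b, hb, hCb⟩ := RootSet.conj_of_same_action hS hAB hB hC hxA hx1 hxC rfl
  by_cases hb1 : b = 1
  · rw [hCb, hb1, conjBy_one]
  exfalso
  have hb1' : b⁻¹ ≠ 1 := by simpa using hb1
  obtain ⟨a, ha, -, hconj⟩ := hAB.cond_right b⁻¹ (B.inv_mem hb) hb1'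
  rw [inv_inv] at hconj
  rw [hCb, ← hconj] at hxC
  have h1 : a * x * a⁻¹ ∈ B := by
    have := mem_conjBy.mp hxC
    simpa using this
  have hAc : IsMulCommutative A := hS.commutative A hAS
  have h2 : a * x * a⁻¹ = x := by
    rw [setLike_mul_comm ha hxA]; group
  rw [h2] at h1
  exact hx1 (RankOne.eq_one_of_mem_normalizer hAB hxA (Subgroup.le_normalizer h1))

end Cfsg.Agent.S5028
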