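import Cfsg.Statements.S5029
import Cfsg.Agent.Lib.Helper26.RootComm

set_option autoImplicit false
open Cfsg

namespace Cfsg.Agent.S5029

open Cfsg.Agent.Lib.Helper26

/-- Let S be a set of abstract root subgroups of G, A ∈ S having a rank one partner in S, and B ∈ S with C = ⁅A, B⁆ ∈ S. Then the members of S contained in AC are the conjugates of A by elements of B together with C, they partition AC, the members of S inside AC partition AC so that A is a line partner of C, and for every non-identity a ∈ A the map b ↦ a⁻¹ b⁻¹ a b is an isomorphism from B onto C. -/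
theorem result {G : Type*} [Group G] {S : Set (Subgroup G)} (hS : Cfsg.IsRootSubgroupSet S)
    {A B : Subgroup G} (hA : ¬ Cfsg.IsIsolatedIn (Cfsg.FAdj S) S A) (hAS : A ∈ S) (hB : B ∈ S) (hC : ⁅A, B⁆ ∈ S) :
    Cfsg.membersIn S (A ⊔ ⁅A, B⁆) = (fun b : G => Cfsg.conjBy A b) '' (B : Set G) ∪ {⁅A, B⁆} ∧
    Cfsg.IsSubgroupPartition (A ⊔ ⁅A, B⁆) (Cfsg.membersIn S (A ⊔ ⁅A, B⁆)) ∧
    A ∈ Cfsg.linePartners S ⁅A, B⁆ ∧
    ∀ a ∈ A, a ≠ 1 → ∃ φ : ↥B ≃* ↥⁅A, B⁆, ∀ b : ↥B, (φ b : G) = a⁻¹ * (b : G)⁻¹ * a * b := by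
  have h : RootCommutatorCase S A B := RootSet.commutatorCase_of_mem hS hAS hB hC
  obtain ⟨D, hD, hAD⟩ := RootSet.exists_partner hA hAS
  have hAc : IsMulCommutative A := hS.commutative A hAS
  have hCc : IsMulCommutative ↥⁅A, B⁆ := hS.commutative _ hC
  have hconj_le : ∀ b ∈ B, conjBy A b ≤ A ⊔ ⁅A, B⁆ := by
    intro b hb x hx
    obtain ⟨a, ha, rfl⟩ : ∃ a ∈ A, x = b * a * b⁻¹ := ⟨b⁻¹ * x * b, mem_conjBy.mp hx, by group⟩
    have e : b * a * b⁻¹ = (b * a * b⁻¹ * a⁻¹) * a := by group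
    rw [e]
    exact Subgroup.mul_mem _ (Subgroup.mem_sup_right (CommCase.comm_mem' ha hb))
      (Subgroup.mem_sup_left ha)
  have hdecomp : ∀ x ∈ A ⊔ ⁅A, B⁆, ∃ a ∈ A, ∃ c ∈ ⁅A, B⁆, x = c * a := by
    intro x hx
    have hx' : x ∈ ((A ⊔ ⁅A, B⁆ : Subgroup G) : Set G) := hx
    rw [Subgroup.coe_mul_of_left_le_normalizer_right A ⁅A, B⁆
      (Subgroup.normalizer_commutator_ge_left A B)] at hx'
    obtain ⟨a, ha, c, hc, rfl⟩ := Set.mem_mul.mp hx'
    exact ⟨a, ha, c, hc, (CommCase.commute_left h hc ha).symm⟩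
  have hcov : ∀ a ∈ A, a ≠ 1 → ∀ c ∈ ⁅A, B⁆, ∃ b ∈ B, c * a ∈ conjBy A b ∧ c * a ≠ 1 := by
    intro a ha ha1 c hc
    obtain ⟨b, hb, hba⟩ := CommCase.exists_conj_left h ha ha1 hc
    exact ⟨b, hb, hba ▸ conj_mem_conjBy ha, hba ▸ conj_ne_one ha1⟩
  have hstar : ∀ c ∈ ⁅A, B⁆, c ≠ 1 → ¬ (∀ d ∈ D, d * c = c * d) := by
    intro c hc hc1 hcD
    obtain ⟨a, ha, ha1⟩ := RootSet.exists_ne_one hS hAS
    have hzc : c ∈ Subgroup.centralizer ((A ⊔ D : Subgroup G) : Set G) :=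
      mem_centralizer_sup (fun x hx => (CommCase.commute_left h hc hx).symm) hcD
    obtain ⟨b, hb, hmem, hne⟩ := hcov a ha ha1 c hc
    exact Cfsg.Agent.S5025.result hS hAS ⟨hD, hAD⟩ hzc hc1 a ha ha1
      ⟨hne, conjBy A b, hS.conj_mem A hAS b, hmem⟩
  have hsubC : ∀ E ∈ S, E ≤ ⁅A, B⁆ → E = ⁅A, B⁆ := by
    intro E hE hEC
    have hDni : ¬ IsIsolatedIn (FAdj S) S D :=
      RootSet.not_isolated_of_rankOne hD hAS (RankOnePair_symm hAD)
    obtain ⟨e, he, he1⟩ := RootSet.exists_ne_one hS hE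
    have hEne : E ≠ ⊥ := hS.ne_bot E hE
    rcases hS.pair D hD _ hC with h1 | h1 | h1
    · exfalso
      obtain ⟨c, hc, hc1⟩ := RootSet.exists_ne_one hS hC
      apply hstar c hc hc1
      intro d hd
      have := Subgroup.commutator_eq_bot_iff_le_centralizer.mp h1 hd
      exact (Subgroup.mem_centralizer_iff.mp this c hc).symm
    · have hCni := RootSet.not_isolated_of_rankOne hC hD (RankOnePair_symm h1)
      rcases Cfsg.Agent.S5028.result hS hCni hC E hE with h2 | h2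
      · rw [inf_eq_right.mpr hEC] at h2; exact absurd h2 hEne
      · exact h2.symm
    · rcases hS.pair D hD E hE with h3 | h3 | h3
      · exfalso
        apply hstar e (hEC he) he1
        intro d hd
        have := Subgroup.commutator_eq_bot_iff_le_centralizer.mp h3 hd
        exact (Subgroup.mem_centralizer_iff.mp this e he).symm
      · have hEni := RootSet.not_isolated_of_rankOne hE hD (RankOnePair_symm h3)
        rcases Cfsg.Agent.S5028.result hS hEni hE _ hC with h2 | h2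
        · rw [inf_eq_left.mpr hEC] at h2; exact absurd h2 hEne
        · exact h2
      · have hK : ⁅D, E⁆ = ⁅D, ⁅A, B⁆⁆ := by
          rw [← h3.2.2.2 e he he1, ← h1.2.2.2 e (hEC he) he1]
        obtain ⟨d, hd, hd1⟩ := RootSet.exists_ne_one hS hD
        apply le_antisymm hEC
        intro c hc
        have hmem : d * c * d⁻¹ * c⁻¹ ∈ ⁅D, E⁆ := by rw [hK]; exact CommCase.comm_mem hd hc
        obtain ⟨e', he', hde'⟩ := CommCase.surj_right h3 hd hd1 hmem
        have := CommCase.inj_right' hS hDni hD h1 hd hd1 (hEC he') hc hde'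
        rw [← this]; exact he'
  have hmem_eq : Cfsg.membersIn S (A ⊔ ⁅A, B⁆) =
      (fun b : G => Cfsg.conjBy A b) '' (B : Set G) ∪ {⁅A, B⁆} := by
    ext E
    constructor
    · rintro ⟨hE, hEle⟩
      by_cases hEC : E ≤ ⁅A, B⁆
      · right; exact hsubC E hE hEC
      · left
        obtain ⟨x, hx, hxC⟩ := SetLike.not_le_iff_exists.mp hEC
        obtain ⟨a, ha, c, hc, rfl⟩ := hdecomp x (hEle hx)
        have ha1 : a ≠ 1 := by
          rintro rfl; apply hxC; simpa using hc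
        obtain ⟨b, hb, hmem, hne⟩ := hcov a ha ha1 c hc
        refine ⟨b, hb, ?_⟩
        rcases Cfsg.Agent.S5028.result hS (RootSet.not_isolated_conj hS hA hAS b)
          (hS.conj_mem A hAS b) E hE with h2 | h2
        · exfalso; apply hne
          have h3 : c * a ∈ conjBy A b ⊓ E := ⟨hmem, hx⟩
          rw [h2] at h3
          exact Subgroup.mem_bot.mp h3
        · exact h2
    · rintro (⟨b, hb, rfl⟩ | hE)
      · exact ⟨hS.conj_mem A hAS b, hconj_le b hb⟩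
      · rw [Set.mem_singleton_iff.mp hE]; exact ⟨hC, le_sup_right⟩
  have hpart : Cfsg.IsSubgroupPartition (A ⊔ ⁅A, B⁆) (Cfsg.membersIn S (A ⊔ ⁅A, B⁆)) := by
    refine ⟨fun E hE => hE.2, ?_, ?_⟩
    · intro x hx hx1
      obtain ⟨a, ha, c, hc, rfl⟩ := hdecomp x hx
      by_cases ha1 : a = 1
      · refine ⟨⁅A, B⁆, ⟨hC, le_sup_right⟩, ?_⟩
        rw [ha1, mul_one]; exact hc
      · obtain ⟨b, hb, hmem, hne⟩ := hcov a ha ha1 c hc
        exact ⟨conjBy A b, ⟨hS.conj_mem A hAS b, hconj_le b hb⟩, hmem⟩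
    · intro E₁ hE₁ E₂ hE₂ hne
      have h1 := hE₁
      have h2 := hE₂
      rw [hmem_eq] at h1 h2
      rcases h1 with ⟨b₁, hb₁, rfl⟩ | h1
      · rcases Cfsg.Agent.S5028.result hS (RootSet.not_isolated_conj hS hA hAS b₁)
          (hS.conj_mem A hAS b₁) E₂ hE₂.1 with h3 | h3
        · exact h3
        · exact absurd h3 hne
      · rcases h2 with ⟨b₂, hb₂, rfl⟩ | h2
        · rcases Cfsg.Agent.S5028.result hS (RootSet.not_isolated_conj hS hA hAS b₂)
            (hS.conj_mem A hAS b₂) E₁ hE₁.1 with h3 | h3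
          · rw [inf_comm]; exact h3
          · exact absurd h3.symm hne
        · exfalso
          exact hne (by rw [Set.mem_singleton_iff.mp h1, Set.mem_singleton_iff.mp h2])
  refine ⟨hmem_eq, hpart, ?_, ?_⟩
  · refine ⟨⟨hAS, CommCase.ne_left hS h, ?_⟩, ?_⟩
    · rw [Subgroup.commutator_eq_bot_iff_le_centralizer]
      intro c hc
      rw [Subgroup.mem_centralizer_iff]
      intro a ha
      exact (CommCase.commute_left h hc ha).symm
    · rw [sup_comm]; exact hpart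
  · intro a ha ha1
    have ha' : a⁻¹ ∈ A := A.inv_mem ha
    have ha1' : a⁻¹ ≠ 1 := by simpa using ha1
    have hmem : ∀ b : ↥B, a⁻¹ * (b : G)⁻¹ * a * b ∈ ⁅A, B⁆ := by
      intro b
      have := CommCase.comm_mem ha' (B.inv_mem b.2)
      simpa using this
    let f : ↥B →* ↥⁅A, B⁆ := MonoidHom.mk' (fun b => ⟨a⁻¹ * (b : G)⁻¹ * a * b, hmem b⟩) (by
      intro b₁ b₂
      apply Subtype.ext
      show a⁻¹ * ((b₁ : G) * b₂)⁻¹ * a * ((b₁ : G) * b₂) =
        (a⁻¹ * (b₁ : G)⁻¹ * a * b₁) * (a⁻¹ * (b₂ : G)⁻¹ * a * b₂)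
      have h1 := CommCase.mul_right h ha' (B.inv_mem b₂.2) (B.inv_mem b₁.2)
      simp only [inv_inv, mul_inv_rev] at h1 ⊢
      rw [h1]
      exact setLike_mul_comm (hmem b₂) (hmem b₁))
    have hf : ∀ b : ↥B, ((f b : ↥⁅A, B⁆) : G) = a⁻¹ * (b : G)⁻¹ * a * b := fun b => rfl
    refine ⟨MulEquiv.ofBijective f ⟨?_, ?_⟩, fun b => rfl⟩
    · intro b₁ b₂ h12
      have h1 : a⁻¹ * (b₁ : G)⁻¹ * a * b₁ = a⁻¹ * (b₂ : G)⁻¹ * a * b₂ := by
        rw [← hf b₁, ← hf b₂, h12]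
      have h2 : a⁻¹ * (b₁ : G)⁻¹ * a⁻¹⁻¹ * (b₁ : G)⁻¹⁻¹ = a⁻¹ * (b₂ : G)⁻¹ * a⁻¹⁻¹ * (b₂ : G)⁻¹⁻¹ := by
        simpa using h1
      have h3 := CommCase.inj_right' hS hA hAS h ha' ha1' (B.inv_mem b₁.2) (B.inv_mem b₂.2) h2
      exact Subtype.ext (inv_injective h3)
    · intro c
      obtain ⟨b, hb, hab⟩ := CommCase.surj_right h ha' ha1' c.2
      refine ⟨⟨b⁻¹, B.inv_mem hb⟩, Subtype.ext ?_⟩
      rw [hf]
      show a⁻¹ * b⁻¹⁻¹ * a * b⁻¹ = c
      rw [← hab]; group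

end Cfsg.Agent.S5029
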