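import Cfsg.Statements.S5030
import Cfsg.Agent.Lib.Helper26.RootComm
import Cfsg.Agent.Lib.Helper26.CommCalc

set_option autoImplicit false
open Cfsg

namespace Cfsg.Agent.S5030

open Cfsg.Agent.Lib.Helper26
open scoped commutatorElement

/-- Let S be a set of abstract root subgroups of G and A, B, C ∈ S with ⁅A, B⁆ ∈ S and ⁅B, C⁆ ∈ S, where A and C are different and commute. For a non-identity b ∈ B put X = ⟨A, b⁻¹ C b⟩ and Y = ⟨b⁻¹ A b, C⟩ and R = ⟨A, B, C⟩. Then X and Y are either both abelian or both nilpotent of class exactly two; X and Y commute elementwise; XY is normal in R with R = (XY) B; and R is nilpotent. -/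
theorem result {G : Type*} [Group G] {S : Set (Subgroup G)} (hS : Cfsg.IsRootSubgroupSet S)
    {A B C : Subgroup G} (hA : A ∈ S) (hB : B ∈ S) (hC : C ∈ S) (hAB : ⁅A, B⁆ ∈ S) (hBC : ⁅B, C⁆ ∈ S)
    (hAC : C ∈ Cfsg.commutingPartners S A)
    {b : G} (hb : b ∈ B) (hb1 : b ≠ 1) :
    ((IsMulCommutative ↥(A ⊔ Cfsg.conjBy C b⁻¹) ∧ IsMulCommutative ↥(Cfsg.conjBy A b⁻¹ ⊔ C)) ∨
      ((¬ IsMulCommutative ↥(A ⊔ Cfsg.conjBy C b⁻¹) ∧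
          ⁅⁅A ⊔ Cfsg.conjBy C b⁻¹, A ⊔ Cfsg.conjBy C b⁻¹⁆, A ⊔ Cfsg.conjBy C b⁻¹⁆ = ⊥) ∧
        (¬ IsMulCommutative ↥(Cfsg.conjBy A b⁻¹ ⊔ C) ∧
          ⁅⁅Cfsg.conjBy A b⁻¹ ⊔ C, Cfsg.conjBy A b⁻¹ ⊔ C⁆, Cfsg.conjBy A b⁻¹ ⊔ C⁆ = ⊥))) ∧
    ⁅A ⊔ Cfsg.conjBy C b⁻¹, Cfsg.conjBy A b⁻¹ ⊔ C⁆ = ⊥ ∧
    (∀ r ∈ A ⊔ B ⊔ C, Cfsg.conjBy ((A ⊔ Cfsg.conjBy C b⁻¹) ⊔ (Cfsg.conjBy A b⁻¹ ⊔ C)) r =
      (A ⊔ Cfsg.conjBy C b⁻¹) ⊔ (Cfsg.conjBy A b⁻¹ ⊔ C)) ∧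
    ((A ⊔ Cfsg.conjBy C b⁻¹) ⊔ (Cfsg.conjBy A b⁻¹ ⊔ C)) ⊔ B = A ⊔ B ⊔ C ∧
    Group.IsNilpotent ↥(A ⊔ B ⊔ C) := by
  obtain ⟨-, hCA, hACcomm⟩ := hAC
  have hE : RootCommutatorCase S A B := RootSet.commutatorCase_of_mem hS hA hB hAB
  have hF : RootCommutatorCase S B C := RootSet.commutatorCase_of_mem hS hB hC hBC
  have hAc : IsMulCommutative A := hS.commutative A hA
  have hBc : IsMulCommutative B := hS.commutative B hB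
  have hCc : IsMulCommutative C := hS.commutative C hC
  have hb' : b⁻¹ ∈ B := B.inv_mem hb
  have hb1' : b⁻¹ ≠ 1 := by simpa using hb1
  have cAC : Cm A C := cm_iff_commutator.mpr hACcomm
  have cAA : Cm A A := Cm.of_comm A
  have cBB : Cm B B := Cm.of_comm B
  have cCC : Cm C C := Cm.of_comm C
  have cEA : Cm ⁅A, B⁆ A := fun e he a ha => CommCase.commute_left hE he ha
  have cEB : Cm ⁅A, B⁆ B := fun e he b hb => CommCase.commute_right hE he hb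
  have cFB : Cm ⁅B, C⁆ B := fun f hf b hb => CommCase.commute_left hF hf hb
  have cFC : Cm ⁅B, C⁆ C := fun f hf c hc => CommCase.commute_right hF hf hc
  obtain ⟨a₀, ha₀, ha₀1⟩ := RootSet.exists_ne_one hS hA
  obtain ⟨c₀, hc₀, hc₀1⟩ := RootSet.exists_ne_one hS hC
  obtain ⟨e₀, he₀, he₀1⟩ := RootSet.exists_ne_one hS hAB
  obtain ⟨f₀, hf₀, hf₀1⟩ := RootSet.exists_ne_one hS hBC
  have n1 : ¬ IsRankOnePair A ⁅B, C⁆ := by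
    intro h
    refine RootSet.not_rankOne_of_central hS hBC hA hc₀1 (fun x hx => cFC x hx c₀ hc₀)
      (fun x hx => cAC x hx c₀ hc₀) hf₀ hf₀1 ?_ (RankOnePair_symm h)
    obtain ⟨b', hb', hconj⟩ := CommCase.exists_conj_right hF hc₀ hc₀1 hf₀
    rw [← cFC f₀ hf₀ c₀ hc₀, ← hconj]
    exact ⟨conj_ne_one hc₀1, conjBy C b', hS.conj_mem C hC b', conj_mem_conjBy hc₀⟩
  have n2 : ¬ IsRankOnePair ⁅A, B⁆ C := by
    refine RootSet.not_rankOne_of_central hS hAB hC ha₀1 (fun x hx => cEA x hx a₀ ha₀)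
      (fun x hx => (cAC a₀ ha₀ x hx).symm) he₀ he₀1 ?_
    obtain ⟨b', hb', hconj⟩ := CommCase.exists_conj_left hE ha₀ ha₀1 he₀
    rw [← cEA e₀ he₀ a₀ ha₀, ← hconj]
    exact ⟨conj_ne_one ha₀1, conjBy A b', hS.conj_mem A hA b', conj_mem_conjBy ha₀⟩
  have n3 : ¬ IsRankOnePair ⁅A, B⁆ ⁅B, C⁆ := by
    refine RootSet.not_rankOne_of_central hS hAB hBC hb1 (fun x hx => cEB x hx b hb)
      (fun x hx => cFB x hx b hb) he₀ he₀1 ?_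
    obtain ⟨a', ha', hconj⟩ := CommCase.exists_conj_right hE hb hb1 he₀
    rw [← cEB e₀ he₀ b hb, ← hconj]
    exact ⟨conj_ne_one hb1, conjBy B a', hS.conj_mem B hB a', conj_mem_conjBy hb⟩
  have hKc := RootSet.central_of_not_rankOne hS hA hBC n1
  have hK'c := RootSet.central_of_not_rankOne hS hAB hC n2
  have hLc := RootSet.central_of_not_rankOne hS hAB hBC n3
  have cKA : Cm ⁅A, ⁅B, C⁆⁆ A := fun k hk a ha => hKc k hk a (Subgroup.mem_sup_left ha)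
  have cKF : Cm ⁅A, ⁅B, C⁆⁆ ⁅B, C⁆ := fun k hk f hf => hKc k hk f (Subgroup.mem_sup_right hf)
  have cK'E : Cm ⁅⁅A, B⁆, C⁆ ⁅A, B⁆ := fun k hk e he => hK'c k hk e (Subgroup.mem_sup_left he)
  have cK'C : Cm ⁅⁅A, B⁆, C⁆ C := fun k hk c hc => hK'c k hk c (Subgroup.mem_sup_right hc)
  have cLE : Cm ⁅⁅A, B⁆, ⁅B, C⁆⁆ ⁅A, B⁆ := fun l hl e he => hLc l hl e (Subgroup.mem_sup_left he)
  have cLF : Cm ⁅⁅A, B⁆, ⁅B, C⁆⁆ ⁅B, C⁆ := fun l hl f hf => hLc l hl f (Subgroup.mem_sup_right hf)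
  have hconjA : ∀ b' ∈ B, conjBy A b' ≤ A ⊔ ⁅A, B⁆ := by
    intro b' hb' x hx
    obtain ⟨a, ha, rfl⟩ : ∃ a ∈ A, x = b' * a * b'⁻¹ := ⟨b'⁻¹ * x * b', mem_conjBy.mp hx, by group⟩
    have e : b' * a * b'⁻¹ = (b' * a * b'⁻¹ * a⁻¹) * a := by group
    rw [e]
    exact Subgroup.mul_mem _ (Subgroup.mem_sup_right (CommCase.comm_mem' ha hb'))
      (Subgroup.mem_sup_left ha)
  have hconjC : ∀ b' ∈ B, conjBy C b' ≤ C ⊔ ⁅B, C⁆ := by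
    intro b' hb' x hx
    obtain ⟨c, hc, rfl⟩ : ∃ c ∈ C, x = b' * c * b'⁻¹ := ⟨b'⁻¹ * x * b', mem_conjBy.mp hx, by group⟩
    have e : b' * c * b'⁻¹ = (b' * c * b'⁻¹ * c⁻¹) * c := by group
    rw [e]
    exact Subgroup.mul_mem _ (Subgroup.mem_sup_right (CommCase.comm_mem hb' hc))
      (Subgroup.mem_sup_left hc)
  have hFD : ∀ f ∈ ⁅B, C⁆, ∃ c ∈ C, f * c ∈ conjBy C b⁻¹ := by
    intro f hf
    obtain ⟨c, hc, hbc⟩ := CommCase.surj_right hF hb' hb1' hf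
    refine ⟨c, hc, ?_⟩
    have e : f * c = b⁻¹ * c * b⁻¹⁻¹ := by rw [← hbc]; group
    rw [e]; exact conj_mem_conjBy hc
  have hED' : ∀ e ∈ ⁅A, B⁆, ∃ a ∈ A, e * a ∈ conjBy A b⁻¹ := by
    intro e he
    have he' : e ∈ ⁅B, A⁆ := by rw [Subgroup.commutator_comm]; exact he
    obtain ⟨a, ha, hba⟩ := CommCase.surj_right (CommCase.symm hE) hb' hb1' he'
    refine ⟨a, ha, ?_⟩
    have e' : e * a = b⁻¹ * a * b⁻¹⁻¹ := by rw [← hba]; group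
    rw [e']; exact conj_mem_conjBy ha
  have hFle : ⁅B, C⁆ ≤ C ⊔ conjBy C b⁻¹ := by
    intro f hf
    obtain ⟨c, hc, hfc⟩ := hFD f hf
    have e : f = (f * c) * c⁻¹ := by group
    rw [e]
    exact Subgroup.mul_mem _ (Subgroup.mem_sup_right hfc) (Subgroup.mem_sup_left (C.inv_mem hc))
  have hEle : ⁅A, B⁆ ≤ A ⊔ conjBy A b⁻¹ := by
    intro e he
    obtain ⟨a, ha, hea⟩ := hED' e he
    have e' : e = (e * a) * a⁻¹ := by group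
    rw [e']
    exact Subgroup.mul_mem _ (Subgroup.mem_sup_right hea) (Subgroup.mem_sup_left (A.inv_mem ha))
  have hDle : conjBy C b⁻¹ ≤ C ⊔ ⁅B, C⁆ := hconjC b⁻¹ hb'
  have hD'le : conjBy A b⁻¹ ≤ A ⊔ ⁅A, B⁆ := hconjA b⁻¹ hb'
  have cD'A : Cm (conjBy A b⁻¹) A := (cAA.sup_left cEA).mono hD'le le_rfl
  have cDC : Cm (conjBy C b⁻¹) C := (cCC.sup_left cFC).mono hDle le_rfl
  have cDD' : Cm (conjBy C b⁻¹) (conjBy A b⁻¹) := cAC.symm.map_conj b⁻¹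
  have cXY : Cm (A ⊔ conjBy C b⁻¹) (conjBy A b⁻¹ ⊔ C) :=
    (cD'A.symm.sup_right cAC).sup_left (cDD'.sup_right cDC)
  have hKX : ⁅A, ⁅B, C⁆⁆ ≤ A ⊔ conjBy C b⁻¹ := by
    rw [Subgroup.commutator_le]
    intro a ha f hf
    obtain ⟨c, hc, hfc⟩ := hFD f hf
    have e : ⁅a, f⁆ = a * (f * c) * a⁻¹ * (f * c)⁻¹ :=
      (comm_mul_right_of_commute (cAC a ha c hc)).symm
    rw [e]
    exact comm_mem_of_mem (Subgroup.mem_sup_left ha) (Subgroup.mem_sup_right hfc)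
  have hK'Y : ⁅⁅A, B⁆, C⁆ ≤ conjBy A b⁻¹ ⊔ C := by
    rw [Subgroup.commutator_le]
    intro e he c hc
    obtain ⟨a, ha, hea⟩ := hED' e he
    have e' : ⁅e, c⁆ = (e * a) * c * (e * a)⁻¹ * c⁻¹ :=
      (comm_mul_left_of_commute (cAC a ha c hc)).symm
    rw [e']
    exact comm_mem_of_mem (Subgroup.mem_sup_left hea) (Subgroup.mem_sup_right hc)
  have cKC : Cm ⁅A, ⁅B, C⁆⁆ C := Cm.commutator_left cAC cFC
  have cKD : Cm ⁅A, ⁅B, C⁆⁆ (conjBy C b⁻¹) := (cKC.sup_right cKF).mono le_rfl hDle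
  have cKX : Cm ⁅A, ⁅B, C⁆⁆ (A ⊔ conjBy C b⁻¹) := cKA.sup_right cKD
  have cKY : Cm ⁅A, ⁅B, C⁆⁆ (conjBy A b⁻¹ ⊔ C) := cXY.mono hKX le_rfl
  have cKE : Cm ⁅A, ⁅B, C⁆⁆ ⁅A, B⁆ :=
    (cKA.sup_right (cKY.mono le_rfl le_sup_left)).mono le_rfl hEle
  have cK'A : Cm ⁅⁅A, B⁆, C⁆ A := Cm.commutator_left cEA cAC.symm
  have cK'D' : Cm ⁅⁅A, B⁆, C⁆ (conjBy A b⁻¹) := (cK'A.sup_right cK'E).mono le_rfl hD'le
  have cK'Y : Cm ⁅⁅A, B⁆, C⁆ (conjBy A b⁻¹ ⊔ C) := cK'D'.sup_right cK'C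
  have cK'X : Cm ⁅⁅A, B⁆, C⁆ (A ⊔ conjBy C b⁻¹) := (cXY.mono le_rfl hK'Y).symm
  have cK'F : Cm ⁅⁅A, B⁆, C⁆ ⁅B, C⁆ :=
    (cK'C.sup_right (cK'X.mono le_rfl le_sup_right)).mono le_rfl hFle
  have cKL : Cm ⁅A, ⁅B, C⁆⁆ ⁅⁅A, B⁆, ⁅B, C⁆⁆ := cKE.commutator_right cKF
  have cK'L : Cm ⁅⁅A, B⁆, C⁆ ⁅⁅A, B⁆, ⁅B, C⁆⁆ := cK'E.commutator_right cK'F
  have cLB : Cm ⁅⁅A, B⁆, ⁅B, C⁆⁆ B := Cm.commutator_left cEB cFB
  have cLA : Cm ⁅⁅A, B⁆, ⁅B, C⁆⁆ A := by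
    rw [cm_iff_le_centralizer, Subgroup.commutator_le]
    intro e he f hf
    rw [Subgroup.mem_centralizer_iff]
    intro a ha
    have hv : a * f * a⁻¹ * f⁻¹ ∈ ⁅A, ⁅B, C⁆⁆ := CommCase.comm_mem ha hf
    have hw : e * f * e⁻¹ * f⁻¹ ∈ ⁅⁅A, B⁆, ⁅B, C⁆⁆ := CommCase.comm_mem he hf
    have h1 := conj_comm_right (x := e) (y := a) (z := f) (cEA e he a ha).symm (cKL _ hv _ hw)
    have h2 : e * (a * f * a⁻¹ * f⁻¹) * e⁻¹ * (a * f * a⁻¹ * f⁻¹)⁻¹ = 1 :=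
      (cKE.symm).comm_eq_one he hv
    rw [h2, one_mul] at h1
    rw [commutatorElement_def]
    exact mul_inv_eq_iff_eq_mul.mp h1
  have cLC : Cm ⁅⁅A, B⁆, ⁅B, C⁆⁆ C := by
    rw [cm_iff_le_centralizer, Subgroup.commutator_le]
    intro e he f hf
    rw [Subgroup.mem_centralizer_iff]
    intro c hc
    have hu : c * e * c⁻¹ * e⁻¹ ∈ ⁅⁅A, B⁆, C⁆ := CommCase.comm_mem' he hc
    have hw : e * f * e⁻¹ * f⁻¹ ∈ ⁅⁅A, B⁆, ⁅B, C⁆⁆ := CommCase.comm_mem he hf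
    have h1 := conj_comm_left (x := e) (y := c) (z := f) (cFC f hf c hc).symm
      (cK'L _ hu _ hw).symm
    have h2 : (c * e * c⁻¹ * e⁻¹) * f * (c * e * c⁻¹ * e⁻¹)⁻¹ * f⁻¹ = 1 :=
      cK'F.comm_eq_one hu hf
    rw [h2, mul_one] at h1
    rw [commutatorElement_def]
    exact mul_inv_eq_iff_eq_mul.mp h1
  have hKK' : ⁅A, ⁅B, C⁆⁆ = ⊥ ↔ ⁅⁅A, B⁆, C⁆ = ⊥ := by
    have hCA0 : ⁅⁅C, A⁆, B⁆ = ⊥ := by
      have h0 : ⁅C, A⁆ = ⊥ := by rw [Subgroup.commutator_comm]; exact hACcomm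
      rw [h0]; exact Subgroup.commutator_bot_left B
    constructor
    · intro h
      have h' : ⁅⁅B, C⁆, A⁆ = ⊥ := by rw [Subgroup.commutator_comm]; exact h
      exact Subgroup.commutator_commutator_eq_bot_of_rotate h' hCA0
    · intro h
      have h' := Subgroup.commutator_commutator_eq_bot_of_rotate hCA0 h
      rw [Subgroup.commutator_comm]; exact h'
  have part1 : ((IsMulCommutative ↥(A ⊔ Cfsg.conjBy C b⁻¹) ∧ IsMulCommutative ↥(Cfsg.conjBy A b⁻¹ ⊔ C)) ∨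
      ((¬ IsMulCommutative ↥(A ⊔ Cfsg.conjBy C b⁻¹) ∧
          ⁅⁅A ⊔ Cfsg.conjBy C b⁻¹, A ⊔ Cfsg.conjBy C b⁻¹⁆, A ⊔ Cfsg.conjBy C b⁻¹⁆ = ⊥) ∧
        (¬ IsMulCommutative ↥(Cfsg.conjBy A b⁻¹ ⊔ C) ∧
          ⁅⁅Cfsg.conjBy A b⁻¹ ⊔ C, Cfsg.conjBy A b⁻¹ ⊔ C⁆, Cfsg.conjBy A b⁻¹ ⊔ C⁆ = ⊥))) := by
    have cDD : Cm (conjBy C b⁻¹) (conjBy C b⁻¹) := cCC.map_conj b⁻¹
    have cD'D' : Cm (conjBy A b⁻¹) (conjBy A b⁻¹) := cAA.map_conj b⁻¹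
    by_cases hK : ⁅A, ⁅B, C⁆⁆ = ⊥
    · left
      have hK' := hKK'.mp hK
      have cAF : Cm A ⁅B, C⁆ := cm_iff_commutator.mpr hK
      have cEC : Cm ⁅A, B⁆ C := cm_iff_commutator.mpr hK'
      have cAD : Cm A (conjBy C b⁻¹) := (cAC.sup_right cAF).mono le_rfl hDle
      have cD'C : Cm (conjBy A b⁻¹) C := (cAC.sup_left cEC).mono hD'le le_rfl
      exact ⟨((cAA.sup_right cAD).sup_left (cAD.symm.sup_right cDD)).isMulCommutative,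
        ((cD'D'.sup_right cD'C).sup_left (cD'C.symm.sup_right cCC)).isMulCommutative⟩
    · right
      have hK' : ⁅⁅A, B⁆, C⁆ ≠ ⊥ := fun h => hK (hKK'.mpr h)
      refine ⟨⟨?_, ?_⟩, ⟨?_, ?_⟩⟩
      · intro hcomm
        apply hK
        rw [← cm_iff_commutator]
        intro a ha f hf
        obtain ⟨c, hc, hfc⟩ := hFD f hf
        have h1 : a * (f * c) = (f * c) * a :=
          setLike_mul_comm (Subgroup.mem_sup_left ha) (Subgroup.mem_sup_right hfc)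
        have hac : a * c = c * a := cAC a ha c hc
        have h2 : a * f * c = f * a * c := by
          rw [mul_assoc, h1, mul_assoc, ← hac, mul_assoc]
        exact mul_right_cancel h2
      · have hXX : ⁅A ⊔ conjBy C b⁻¹, A ⊔ conjBy C b⁻¹⁆ ≤ ⁅A, ⁅B, C⁆⁆ := by
          rw [Subgroup.commutator_le]
          have hAD : ∀ x ∈ A, ∀ y ∈ conjBy C b⁻¹, x * y * x⁻¹ * y⁻¹ ∈ ⁅A, ⁅B, C⁆⁆ := by
            intro a ha d hd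
            obtain ⟨c, hc, rfl⟩ : ∃ c ∈ C, d = b⁻¹ * c * b⁻¹⁻¹ :=
              ⟨b⁻¹⁻¹ * d * b⁻¹, mem_conjBy.mp hd, by group⟩
            have e : b⁻¹ * c * b⁻¹⁻¹ = (b⁻¹ * c * b⁻¹⁻¹ * c⁻¹) * c := by group
            rw [e, comm_mul_right_of_commute (cAC a ha c hc)]
            exact CommCase.comm_mem ha (CommCase.comm_mem hb' hc)
          exact comm_mem_sup cKA.symm.le_normalizer cKD.symm.le_normalizer
            cKA.symm.le_normalizer cKD.symm.le_normalizer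
            (fun x hx y hy => by rw [cAA.comm_eq_one hx hy]; exact one_mem _)
            hAD
            (fun x hx y hy => comm_inv_mem (hAD y hy x hx))
            (fun x hx y hy => by rw [cDD.comm_eq_one hx hy]; exact one_mem _)
        rw [eq_bot_iff]
        calc ⁅⁅A ⊔ conjBy C b⁻¹, A ⊔ conjBy C b⁻¹⁆, A ⊔ conjBy C b⁻¹⁆
            ≤ ⁅⁅A, ⁅B, C⁆⁆, A ⊔ conjBy C b⁻¹⁆ := Subgroup.commutator_mono hXX le_rfl
          _ = ⊥ := cm_iff_commutator.mp cKX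
      · intro hcomm
        apply hK'
        rw [← cm_iff_commutator]
        intro e he c hc
        obtain ⟨a, ha, hea⟩ := hED' e he
        have h1 : (e * a) * c = c * (e * a) :=
          setLike_mul_comm (Subgroup.mem_sup_left hea) (Subgroup.mem_sup_right hc)
        have hac : a * c = c * a := cAC a ha c hc
        have h2 : e * c * a = c * e * a := by
          rw [mul_assoc, ← hac, ← mul_assoc, h1, ← mul_assoc]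
        exact mul_right_cancel h2
      · have hYY : ⁅conjBy A b⁻¹ ⊔ C, conjBy A b⁻¹ ⊔ C⁆ ≤ ⁅⁅A, B⁆, C⁆ := by
          rw [Subgroup.commutator_le]
          have hD'C : ∀ x ∈ conjBy A b⁻¹, ∀ y ∈ C, x * y * x⁻¹ * y⁻¹ ∈ ⁅⁅A, B⁆, C⁆ := by
            intro d hd c hc
            obtain ⟨a, ha, rfl⟩ : ∃ a ∈ A, d = b⁻¹ * a * b⁻¹⁻¹ :=
              ⟨b⁻¹⁻¹ * d * b⁻¹, mem_conjBy.mp hd, by group⟩
            have e : b⁻¹ * a * b⁻¹⁻¹ = (b⁻¹ * a * b⁻¹⁻¹ * a⁻¹) * a := by group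
            rw [e, comm_mul_left_of_commute (cAC a ha c hc)]
            exact CommCase.comm_mem (CommCase.comm_mem' ha hb') hc
          exact comm_mem_sup cK'D'.symm.le_normalizer cK'C.symm.le_normalizer
            cK'D'.symm.le_normalizer cK'C.symm.le_normalizer
            (fun x hx y hy => by rw [cD'D'.comm_eq_one hx hy]; exact one_mem _)
            hD'C
            (fun x hx y hy => comm_inv_mem (hD'C y hy x hx))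
            (fun x hx y hy => by rw [cCC.comm_eq_one hx hy]; exact one_mem _)
        rw [eq_bot_iff]
        calc ⁅⁅conjBy A b⁻¹ ⊔ C, conjBy A b⁻¹ ⊔ C⁆, conjBy A b⁻¹ ⊔ C⁆
            ≤ ⁅⁅⁅A, B⁆, C⁆, conjBy A b⁻¹ ⊔ C⁆ := Subgroup.commutator_mono hYY le_rfl
          _ = ⊥ := cm_iff_commutator.mp cK'Y
  have part2 : ⁅A ⊔ Cfsg.conjBy C b⁻¹, Cfsg.conjBy A b⁻¹ ⊔ C⁆ = ⊥ := cm_iff_commutator.mp cXY
  have part3 : ∀ r ∈ A ⊔ B ⊔ C, Cfsg.conjBy ((A ⊔ Cfsg.conjBy C b⁻¹) ⊔ (Cfsg.conjBy A b⁻¹ ⊔ C)) r =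
      (A ⊔ Cfsg.conjBy C b⁻¹) ⊔ (Cfsg.conjBy A b⁻¹ ⊔ C) := by
    have hAW : A ≤ (A ⊔ conjBy C b⁻¹) ⊔ (conjBy A b⁻¹ ⊔ C) := le_sup_of_le_left le_sup_left
    have hCW : C ≤ (A ⊔ conjBy C b⁻¹) ⊔ (conjBy A b⁻¹ ⊔ C) := le_sup_of_le_right le_sup_right
    have hDW : conjBy C b⁻¹ ≤ (A ⊔ conjBy C b⁻¹) ⊔ (conjBy A b⁻¹ ⊔ C) :=
      le_sup_of_le_left le_sup_right
    have hD'W : conjBy A b⁻¹ ≤ (A ⊔ conjBy C b⁻¹) ⊔ (conjBy A b⁻¹ ⊔ C) :=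
      le_sup_of_le_right le_sup_left
    have hEW : ⁅A, B⁆ ≤ (A ⊔ conjBy C b⁻¹) ⊔ (conjBy A b⁻¹ ⊔ C) := hEle.trans (sup_le hAW hD'W)
    have hFW : ⁅B, C⁆ ≤ (A ⊔ conjBy C b⁻¹) ⊔ (conjBy A b⁻¹ ⊔ C) := hFle.trans (sup_le hCW hDW)
    have hBconj : ∀ b' ∈ B, conjBy ((A ⊔ conjBy C b⁻¹) ⊔ (conjBy A b⁻¹ ⊔ C)) b' ≤
        (A ⊔ conjBy C b⁻¹) ⊔ (conjBy A b⁻¹ ⊔ C) := by
      intro b' hb''
      rw [conjBy_sup, conjBy_sup, conjBy_sup, conjBy_conjBy, conjBy_conjBy]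
      have h1 := (hconjA b' hb'').trans (sup_le hAW hEW)
      have h2 := (hconjC b' hb'').trans (sup_le hCW hFW)
      have h3 := (hconjC _ (B.mul_mem hb'' hb')).trans (sup_le hCW hFW)
      have h4 := (hconjA _ (B.mul_mem hb'' hb')).trans (sup_le hAW hEW)
      exact sup_le (sup_le h1 h3) (sup_le h4 h2)
    have hBn : B ≤ Subgroup.normalizer
        (((A ⊔ conjBy C b⁻¹) ⊔ (conjBy A b⁻¹ ⊔ C) : Subgroup G) : Set G) := by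
      intro b' hb''
      apply conjBy_eq_self_iff.mp
      apply le_antisymm (hBconj b' hb'')
      have := conjBy_mono (hBconj b'⁻¹ (B.inv_mem hb'')) b'
      rwa [conjBy_conjBy_inv] at this
    intro r hr
    apply conjBy_eq_self_iff.mpr
    exact (sup_le (sup_le (hAW.trans Subgroup.le_normalizer) hBn)
      (hCW.trans Subgroup.le_normalizer)) hr
  have part4 : ((A ⊔ Cfsg.conjBy C b⁻¹) ⊔ (Cfsg.conjBy A b⁻¹ ⊔ C)) ⊔ B = A ⊔ B ⊔ C := by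
    have hAR : A ≤ A ⊔ B ⊔ C := le_sup_of_le_left le_sup_left
    have hBR : B ≤ A ⊔ B ⊔ C := le_sup_of_le_left le_sup_right
    have hCR : C ≤ A ⊔ B ⊔ C := le_sup_right
    have hbR : b⁻¹ ∈ A ⊔ B ⊔ C := hBR hb'
    apply le_antisymm
    · exact sup_le (sup_le (sup_le hAR (conjBy_le_of_mem hCR hbR))
        (sup_le (conjBy_le_of_mem hAR hbR) hCR)) hBR
    · exact sup_le (sup_le (le_sup_of_le_left (le_sup_of_le_left le_sup_left)) le_sup_right)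
        (le_sup_of_le_left (le_sup_of_le_right le_sup_right))
  have part5 : Group.IsNilpotent ↥(A ⊔ B ⊔ C) := by
    have hR : A ⊔ B ⊔ C = Subgroup.closure ((A : Set G) ∪ (B : Set G) ∪ (C : Set G)) := by
      rw [Subgroup.closure_union, Subgroup.closure_union, Subgroup.closure_eq,
        Subgroup.closure_eq, Subgroup.closure_eq]
    have hgen : ∀ {y : G}, y ∈ (A : Set G) ∪ (B : Set G) ∪ (C : Set G) → y ∈ A ⊔ B ⊔ C := by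
      intro y hy
      rw [hR]; exact Subgroup.subset_closure hy
    have cLR : Cm ⁅⁅A, B⁆, ⁅B, C⁆⁆ (A ⊔ B ⊔ C) := (cLA.sup_right cLB).sup_right cLC
    have h1 : ∀ x ∈ ⁅⁅A, B⁆, ⁅B, C⁆⁆, ∀ g ∈ A ⊔ B ⊔ C, x * g * x⁻¹ * g⁻¹ = 1 :=
      fun x hx g hg => cLR.comm_eq_one hx hg
    have h2 : ∀ x ∈ ⁅⁅A, B⁆, ⁅B, C⁆⁆ ⊔ ⁅A, ⁅B, C⁆⁆ ⊔ ⁅⁅A, B⁆, C⁆, ∀ g ∈ A ⊔ B ⊔ C,
        x * g * x⁻¹ * g⁻¹ ∈ ⁅⁅A, B⁆, ⁅B, C⁆⁆ := by
      have hZ : ⁅⁅A, B⁆, ⁅B, C⁆⁆ ⊔ ⁅A, ⁅B, C⁆⁆ ⊔ ⁅⁅A, B⁆, C⁆ =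
          Subgroup.closure (((⁅⁅A, B⁆, ⁅B, C⁆⁆ : Subgroup G) : Set G) ∪
            {g | ∃ g₁ ∈ A, ∃ g₂ ∈ ⁅B, C⁆, ⁅g₁, g₂⁆ = g} ∪
            {g | ∃ g₁ ∈ ⁅A, B⁆, ∃ g₂ ∈ C, ⁅g₁, g₂⁆ = g}) := by
        rw [Subgroup.closure_union, Subgroup.closure_union, Subgroup.closure_eq,
          ← Subgroup.commutator_def, ← Subgroup.commutator_def]
      rw [hZ, hR]
      apply comm_mem_closure
      · rintro x ((hx | ⟨a, ha, f, hf, rfl⟩) | ⟨e, he, c, hc, rfl⟩)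
        · exact Subgroup.le_normalizer hx
        · exact cKL.le_normalizer (Subgroup.commutator_mem_commutator ha hf)
        · exact cK'L.le_normalizer (Subgroup.commutator_mem_commutator he hc)
      · rintro y ((hy | hy) | hy)
        · exact cLA.symm.le_normalizer hy
        · exact cLB.symm.le_normalizer hy
        · exact cLC.symm.le_normalizer hy
      · rintro x ((hx | ⟨a, ha, f, hf, rfl⟩) | ⟨e, he, c, hc, rfl⟩) y hy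
        · rw [h1 x hx y (hgen hy)]; exact one_mem _
        · have hw : a * f * a⁻¹ * f⁻¹ ∈ ⁅A, ⁅B, C⁆⁆ := CommCase.comm_mem ha hf
          rw [commutatorElement_def]
          rcases hy with (hy | hy) | hy
          · rw [cKA.comm_eq_one hw hy]; exact one_mem _
          · have hu : y * a * y⁻¹ * a⁻¹ ∈ ⁅A, B⁆ := CommCase.comm_mem' ha hy
            have h3 := conj_comm_left (x := a) (y := y) (z := f) (cFB f hf y hy).symm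
              (cKE _ hw _ hu)
            have hl : (y * a * y⁻¹ * a⁻¹) * f * (y * a * y⁻¹ * a⁻¹)⁻¹ * f⁻¹ ∈ ⁅⁅A, B⁆, ⁅B, C⁆⁆ :=
              CommCase.comm_mem hu hf
            have e1 : (a * f * a⁻¹ * f⁻¹) * y * (a * f * a⁻¹ * f⁻¹)⁻¹ * y⁻¹ =
                (a * f * a⁻¹ * f⁻¹) * (y * (a * f * a⁻¹ * f⁻¹) * y⁻¹)⁻¹ := by group
            rw [e1, h3]
            have e2 : (a * f * a⁻¹ * f⁻¹) * ((a * f * a⁻¹ * f⁻¹) *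
                ((y * a * y⁻¹ * a⁻¹) * f * (y * a * y⁻¹ * a⁻¹)⁻¹ * f⁻¹))⁻¹ =
                (a * f * a⁻¹ * f⁻¹) * ((y * a * y⁻¹ * a⁻¹) * f * (y * a * y⁻¹ * a⁻¹)⁻¹ * f⁻¹)⁻¹ *
                  (a * f * a⁻¹ * f⁻¹)⁻¹ := by group
            rw [e2]
            exact (Subgroup.mem_normalizer_iff.mp (cKL.le_normalizer hw) _).mp
              (Subgroup.inv_mem _ hl)
          · rw [cKC.comm_eq_one hw hy]; exact one_mem _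
        · have hw : e * c * e⁻¹ * c⁻¹ ∈ ⁅⁅A, B⁆, C⁆ := CommCase.comm_mem he hc
          rw [commutatorElement_def]
          rcases hy with (hy | hy) | hy
          · rw [cK'A.comm_eq_one hw hy]; exact one_mem _
          · have hv : y * c * y⁻¹ * c⁻¹ ∈ ⁅B, C⁆ := CommCase.comm_mem hy hc
            have h3 := conj_comm_right (x := e) (y := y) (z := c) (cEB e he y hy).symm
              (cK'F _ hw _ hv).symm
            have hl : e * (y * c * y⁻¹ * c⁻¹) * e⁻¹ * (y * c * y⁻¹ * c⁻¹)⁻¹ ∈ ⁅⁅A, B⁆, ⁅B, C⁆⁆ :=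
              CommCase.comm_mem he hv
            have e1 : (e * c * e⁻¹ * c⁻¹) * y * (e * c * e⁻¹ * c⁻¹)⁻¹ * y⁻¹ =
                (e * c * e⁻¹ * c⁻¹) * (y * (e * c * e⁻¹ * c⁻¹) * y⁻¹)⁻¹ := by group
            rw [e1, h3]
            have e2 : (e * c * e⁻¹ * c⁻¹) * ((e * (y * c * y⁻¹ * c⁻¹) * e⁻¹ *
                (y * c * y⁻¹ * c⁻¹)⁻¹) * (e * c * e⁻¹ * c⁻¹))⁻¹ =
                (e * (y * c * y⁻¹ * c⁻¹) * e⁻¹ * (y * c * y⁻¹ * c⁻¹)⁻¹)⁻¹ := by group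
            rw [e2]
            exact Subgroup.inv_mem _ hl
          · rw [cK'C.comm_eq_one hw hy]; exact one_mem _
    have hLZ2 : ⁅⁅A, B⁆, ⁅B, C⁆⁆ ≤ ⁅⁅A, B⁆, ⁅B, C⁆⁆ ⊔ ⁅A, ⁅B, C⁆⁆ ⊔ ⁅⁅A, B⁆, C⁆ :=
      le_sup_of_le_left le_sup_left
    have hKZ2 : ⁅A, ⁅B, C⁆⁆ ≤ ⁅⁅A, B⁆, ⁅B, C⁆⁆ ⊔ ⁅A, ⁅B, C⁆⁆ ⊔ ⁅⁅A, B⁆, C⁆ :=
      le_sup_of_le_left le_sup_right
    have hK'Z2 : ⁅⁅A, B⁆, C⁆ ≤ ⁅⁅A, B⁆, ⁅B, C⁆⁆ ⊔ ⁅A, ⁅B, C⁆⁆ ⊔ ⁅⁅A, B⁆, C⁆ := le_sup_right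
    have hZ2n := le_normalizer_of_comm_mem hLZ2 h2
    have hER : ⁅A, B⁆ ≤ A ⊔ B ⊔ C := (Subgroup.commutator_le_sup A B).trans le_sup_left
    have hFR : ⁅B, C⁆ ≤ A ⊔ B ⊔ C :=
      (Subgroup.commutator_le_sup B C).trans (sup_le (le_sup_of_le_left le_sup_right) le_sup_right)
    have h3 : ∀ x ∈ (⁅⁅A, B⁆, ⁅B, C⁆⁆ ⊔ ⁅A, ⁅B, C⁆⁆ ⊔ ⁅⁅A, B⁆, C⁆) ⊔ ⁅A, B⁆ ⊔ ⁅B, C⁆,
        ∀ g ∈ A ⊔ B ⊔ C,
        x * g * x⁻¹ * g⁻¹ ∈ ⁅⁅A, B⁆, ⁅B, C⁆⁆ ⊔ ⁅A, ⁅B, C⁆⁆ ⊔ ⁅⁅A, B⁆, C⁆ := by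
      have hZ : (⁅⁅A, B⁆, ⁅B, C⁆⁆ ⊔ ⁅A, ⁅B, C⁆⁆ ⊔ ⁅⁅A, B⁆, C⁆) ⊔ ⁅A, B⁆ ⊔ ⁅B, C⁆ =
          Subgroup.closure (((⁅⁅A, B⁆, ⁅B, C⁆⁆ ⊔ ⁅A, ⁅B, C⁆⁆ ⊔ ⁅⁅A, B⁆, C⁆ : Subgroup G) : Set G) ∪
            ((⁅A, B⁆ : Subgroup G) : Set G) ∪ ((⁅B, C⁆ : Subgroup G) : Set G)) := by
        rw [Subgroup.closure_union, Subgroup.closure_union, Subgroup.closure_eq,
          Subgroup.closure_eq, Subgroup.closure_eq]
      rw [hZ, hR]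
      apply comm_mem_closure
      · rintro x ((hx | hx) | hx)
        · exact Subgroup.le_normalizer hx
        · exact hZ2n (hER hx)
        · exact hZ2n (hFR hx)
      · intro y hy
        exact hZ2n (hgen hy)
      · rintro x ((hx | hx) | hx) y hy
        · exact hLZ2 (h2 x hx y (hgen hy))
        · rcases hy with (hy | hy) | hy
          · rw [cEA.comm_eq_one hx hy]; exact one_mem _
          · rw [cEB.comm_eq_one hx hy]; exact one_mem _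
          · exact hK'Z2 (CommCase.comm_mem hx hy)
        · rcases hy with (hy | hy) | hy
          · exact hKZ2 (CommCase.comm_mem' hy hx)
          · rw [cFB.comm_eq_one hx hy]; exact one_mem _
          · rw [cFC.comm_eq_one hx hy]; exact one_mem _
    have hZ3n := le_normalizer_of_comm_mem
      (le_sup_of_le_left le_sup_left :
        ⁅⁅A, B⁆, ⁅B, C⁆⁆ ⊔ ⁅A, ⁅B, C⁆⁆ ⊔ ⁅⁅A, B⁆, C⁆ ≤
          (⁅⁅A, B⁆, ⁅B, C⁆⁆ ⊔ ⁅A, ⁅B, C⁆⁆ ⊔ ⁅⁅A, B⁆, C⁆) ⊔ ⁅A, B⁆ ⊔ ⁅B, C⁆) h3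
    have hEZ3 : ⁅A, B⁆ ≤ (⁅⁅A, B⁆, ⁅B, C⁆⁆ ⊔ ⁅A, ⁅B, C⁆⁆ ⊔ ⁅⁅A, B⁆, C⁆) ⊔ ⁅A, B⁆ ⊔ ⁅B, C⁆ :=
      le_sup_of_le_left le_sup_right
    have hFZ3 : ⁅B, C⁆ ≤ (⁅⁅A, B⁆, ⁅B, C⁆⁆ ⊔ ⁅A, ⁅B, C⁆⁆ ⊔ ⁅⁅A, B⁆, C⁆) ⊔ ⁅A, B⁆ ⊔ ⁅B, C⁆ :=
      le_sup_right
    have h4 : ∀ x ∈ A ⊔ B ⊔ C, ∀ g ∈ A ⊔ B ⊔ C,
        x * g * x⁻¹ * g⁻¹ ∈ (⁅⁅A, B⁆, ⁅B, C⁆⁆ ⊔ ⁅A, ⁅B, C⁆⁆ ⊔ ⁅⁅A, B⁆, C⁆) ⊔ ⁅A, B⁆ ⊔ ⁅B, C⁆ := by
      have hgen' : ∀ y ∈ (A : Set G) ∪ (B : Set G) ∪ (C : Set G),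
          y ∈ Subgroup.normalizer
            (((⁅⁅A, B⁆, ⁅B, C⁆⁆ ⊔ ⁅A, ⁅B, C⁆⁆ ⊔ ⁅⁅A, B⁆, C⁆) ⊔ ⁅A, B⁆ ⊔ ⁅B, C⁆ : Subgroup G) : Set G) :=
        fun y hy => hZ3n (hgen hy)
      rw [hR]
      apply comm_mem_closure hgen' hgen'
      rintro x ((hx | hx) | hx) y ((hy | hy) | hy)
      · rw [cAA.comm_eq_one hx hy]; exact one_mem _
      · exact hEZ3 (CommCase.comm_mem hx hy)
      · rw [cAC.comm_eq_one hx hy]; exact one_mem _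
      · exact hEZ3 (CommCase.comm_mem' hy hx)
      · rw [cBB.comm_eq_one hx hy]; exact one_mem _
      · exact hFZ3 (CommCase.comm_mem hx hy)
      · rw [cAC.symm.comm_eq_one hx hy]; exact one_mem _
      · exact hFZ3 (CommCase.comm_mem' hy hx)
      · rw [cCC.comm_eq_one hx hy]; exact one_mem _
    exact isNilpotent_of_chain4 h1 h2 h3 h4
  exact ⟨part1, part2, part3, part4, part5⟩

end Cfsg.Agent.S5030
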