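import Cfsg.Statements.S5036
import Cfsg.Agent.Lib.Helper26.RootMap
import Cfsg.Agent.S5030

set_option autoImplicit false
open Cfsg

namespace Cfsg.Agent.S5036

open Cfsg.Agent.Lib.Helper26

/-- Let S be a set of abstract root subgroups of G, A, B ∈ S with C = ⁅A, B⁆ ∈ S, and D ∈ S with ⁅D, C⁆ = A. Put X = ⟨B, D⟩ and N = AC. Then B, D form a rank one pair; the conjugates of A under X are the conjugates of C under X, namely the conjugates of A by elements of B together with C, equally the conjugates of C by elements of D together with A, and they partition N; and the centralizer of N in X is central in X. -/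
theorem result {G : Type*} [Group G] {S : Set (Subgroup G)} (hS : Cfsg.IsRootSubgroupSet S)
    {A B D : Subgroup G} (hA : A ∈ S) (hB : B ∈ S) (hC : ⁅A, B⁆ ∈ S) (hD : D ∈ S) (hDC : ⁅D, ⁅A, B⁆⁆ = A) :
    Cfsg.IsRankOnePair B D ∧
    {E | ∃ x ∈ B ⊔ D, E = Cfsg.conjBy A x} = {E | ∃ x ∈ B ⊔ D, E = Cfsg.conjBy ⁅A, B⁆ x} ∧
    {E | ∃ x ∈ B ⊔ D, E = Cfsg.conjBy A x} = (fun b : G => Cfsg.conjBy A b) '' (B : Set G) ∪ {⁅A, B⁆} ∧
    {E | ∃ x ∈ B ⊔ D, E = Cfsg.conjBy A x} = (fun d : G => Cfsg.conjBy ⁅A, B⁆ d) '' (D : Set G) ∪ {A} ∧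
    Cfsg.IsSubgroupPartition (A ⊔ ⁅A, B⁆) {E | ∃ x ∈ B ⊔ D, E = Cfsg.conjBy A x} ∧
    ∀ x ∈ (B ⊔ D) ⊓ Subgroup.centralizer ((A ⊔ ⁅A, B⁆ : Subgroup G) : Set G), ∀ y ∈ B ⊔ D, x * y = y * x := by
  have h1 : RootCommutatorCase S A B := RootSet.commutatorCase_of_mem hS hA hB hC
  have hDCS : ⁅D, ⁅A, B⁆⁆ ∈ S := by rw [hDC]; exact hA
  have h2 : RootCommutatorCase S D ⁅A, B⁆ := RootSet.commutatorCase_of_mem hS hD hC hDCS
  have hAc := hS.commutative A hA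
  have hCc := hS.commutative _ hC
  have cAA : Cm A A := Cm.of_comm A
  have cCC : Cm ⁅A, B⁆ ⁅A, B⁆ := Cm.of_comm _
  have cCA : Cm ⁅A, B⁆ A := fun c hc a ha => CommCase.commute_left h1 hc ha
  have cCB : Cm ⁅A, B⁆ B := fun c hc b hb => CommCase.commute_right h1 hc hb
  have cAD : Cm A D := fun a ha d hd => CommCase.commute_left h2 (hDC.ge ha) hd
  have hAne : A ≠ ⊥ := hS.ne_bot A hA
  have hCne : ⁅A, B⁆ ≠ ⊥ := hS.ne_bot _ hC
  have hDA : D ≠ A := by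
    have := CommCase.ne_left hS h2
    rwa [hDC] at this
  obtain ⟨b₀, hb₀, hb₀1⟩ := RootSet.exists_ne_one hS hB
  obtain ⟨d₀, hd₀, hd₀1⟩ := RootSet.exists_ne_one hS hD
  have hBD : IsRankOnePair B D := by
    rcases hS.pair B hB D hD with h | h | h
    · exfalso
      have cBD : Cm B D := cm_iff_commutator.mpr h
      have cDC : Cm D ⁅A, B⁆ := cAD.symm.commutator_right cBD.symm
      apply hAne
      rw [← hDC]; exact cm_iff_commutator.mp cDC
    · exact h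
    · exfalso
      have hnil := (Cfsg.Agent.S5030.result hS hA hB hD hC h.1
        ⟨hD, hDA, cm_iff_commutator.mp cAD⟩ hb₀ hb₀1).2.2.2.2
      apply hAne
      have hAR : A ≤ A ⊔ B ⊔ D := le_sup_of_le_left le_sup_left
      have hBR : B ≤ A ⊔ B ⊔ D := le_sup_of_le_left le_sup_right
      have hDR : D ≤ A ⊔ B ⊔ D := le_sup_right
      have hCR : ⁅A, B⁆ ≤ A ⊔ B ⊔ D := (Subgroup.commutator_le_sup A B).trans le_sup_left
      refine eq_bot_of_isNilpotent_of_le_commutator hnil hAR hCR ?_ ?_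
      · calc A = ⁅D, ⁅A, B⁆⁆ := hDC.symm
          _ = ⁅⁅A, B⁆, D⁆ := Subgroup.commutator_comm _ _
          _ ≤ ⁅⁅A, B⁆, A ⊔ B ⊔ D⁆ := Subgroup.commutator_mono le_rfl hDR
      · exact Subgroup.commutator_mono le_rfl hBR
  have hAB_nc : ∀ a ∈ A, a ≠ 1 → ∀ b ∈ B, b ≠ 1 → a * b ≠ b * a := by
    intro a ha ha1 b hb hb1 hab
    obtain ⟨d, hd, hd1, hconj⟩ := hBD.cond_left b hb hb1
    have hbZ : b ∈ Subgroup.centralizer ({a} : Set G) := by
      rw [Subgroup.mem_centralizer_iff]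
      intro x hx
      rw [Set.mem_singleton_iff.mp hx]; exact hab
    have hDZ : D ≤ Subgroup.centralizer ({a} : Set G) := by
      intro d' hd'
      rw [Subgroup.mem_centralizer_iff]
      intro x hx
      rw [Set.mem_singleton_iff.mp hx]; exact cAD a ha d' hd'
    have h3 : conjBy B d⁻¹ ≤ Subgroup.centralizer ({a} : Set G) := by
      rw [hconj]; exact conjBy_le_of_mem hDZ (Subgroup.inv_mem _ hbZ)
    have h4 : B ≤ Subgroup.centralizer ({a} : Set G) := by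
      have := conjBy_le_of_mem h3 (hDZ hd)
      rwa [conjBy_conjBy_inv] at this
    apply hCne
    rw [← h1.2.2.1 a ha ha1, Subgroup.closure_eq_bot_iff]
    rintro x ⟨b', hb', rfl⟩
    have h5 := Subgroup.mem_centralizer_iff.mp (h4 hb') a rfl
    show a * b' * a⁻¹ * b'⁻¹ = 1
    rw [h5]; group
  have hCD_nc : ∀ c ∈ ⁅A, B⁆, c ≠ 1 → ∀ d ∈ D, d ≠ 1 → c * d ≠ d * c := by
    intro c hc hc1 d hd hd1 hcd
    obtain ⟨b, hb, hb1, hconj⟩ := hBD.cond_right d hd hd1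
    have hdZ : d ∈ Subgroup.centralizer ({c} : Set G) := by
      rw [Subgroup.mem_centralizer_iff]
      intro x hx
      rw [Set.mem_singleton_iff.mp hx]; exact hcd
    have hBZ : B ≤ Subgroup.centralizer ({c} : Set G) := by
      intro b' hb'
      rw [Subgroup.mem_centralizer_iff]
      intro x hx
      rw [Set.mem_singleton_iff.mp hx]; exact cCB c hc b' hb'
    have h3 : conjBy D b⁻¹ ≤ Subgroup.centralizer ({c} : Set G) := by
      rw [hconj]; exact conjBy_le_of_mem hBZ (Subgroup.inv_mem _ hdZ)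
    have h4 : D ≤ Subgroup.centralizer ({c} : Set G) := by
      have := conjBy_le_of_mem h3 (hBZ hb)
      rwa [conjBy_conjBy_inv] at this
    apply hAne
    rw [← hDC, ← h2.2.2.2 c hc hc1, Subgroup.closure_eq_bot_iff]
    rintro x ⟨d', hd', rfl⟩
    have h5 := Subgroup.mem_centralizer_iff.mp (h4 hd') c rfl
    show d' * c * d'⁻¹ * c⁻¹ = 1
    rw [← h5]; group
  have hAC0 : A ⊓ ⁅A, B⁆ = ⊥ := by
    rw [Subgroup.eq_bot_iff_forall]
    rintro x ⟨hxA, hxC⟩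
    by_contra hx1
    exact hCD_nc x hxC hx1 d₀ hd₀ hd₀1 (cAD x hxA d₀ hd₀)
  have hdecomp : ∀ x ∈ A ⊔ ⁅A, B⁆, ∃ a ∈ A, ∃ c ∈ ⁅A, B⁆, x = c * a := by
    intro x hx
    have hx' : x ∈ ((A ⊔ ⁅A, B⁆ : Subgroup G) : Set G) := hx
    rw [Subgroup.coe_mul_of_left_le_normalizer_right A ⁅A, B⁆
      (Subgroup.normalizer_commutator_ge_left A B)] at hx'
    obtain ⟨a, ha, c, hc, rfl⟩ := Set.mem_mul.mp hx'
    exact ⟨a, ha, c, hc, (cCA c hc a ha).symm⟩
  have hconjA : ∀ b ∈ B, conjBy A b ≤ A ⊔ ⁅A, B⁆ := by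
    intro b hb x hx
    obtain ⟨a, ha, rfl⟩ : ∃ a ∈ A, x = b * a * b⁻¹ := ⟨b⁻¹ * x * b, mem_conjBy.mp hx, by group⟩
    have e : b * a * b⁻¹ = (b * a * b⁻¹ * a⁻¹) * a := by group
    rw [e]
    exact Subgroup.mul_mem _ (Subgroup.mem_sup_right (CommCase.comm_mem' ha hb))
      (Subgroup.mem_sup_left ha)
  have hconjC : ∀ d ∈ D, conjBy ⁅A, B⁆ d ≤ A ⊔ ⁅A, B⁆ := by
    intro d hd x hx
    obtain ⟨c, hc, rfl⟩ : ∃ c ∈ ⁅A, B⁆, x = d * c * d⁻¹ :=
      ⟨d⁻¹ * x * d, mem_conjBy.mp hx, by group⟩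
    have e : d * c * d⁻¹ = (d * c * d⁻¹ * c⁻¹) * c := by group
    rw [e]
    exact Subgroup.mul_mem _ (Subgroup.mem_sup_left (hDC.le (CommCase.comm_mem hd hc)))
      (Subgroup.mem_sup_right hc)
  have hBfixC : ∀ b ∈ B, conjBy ⁅A, B⁆ b = ⁅A, B⁆ :=
    fun b hb => conjBy_eq_self_iff.mpr (cCB.symm.le_normalizer hb)
  have hDfixA : ∀ d ∈ D, conjBy A d = A :=
    fun d hd => conjBy_eq_self_iff.mpr (cAD.symm.le_normalizer hd)
  have hXN : B ⊔ D ≤ Subgroup.normalizer ((A ⊔ ⁅A, B⁆ : Subgroup G) : Set G) := by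
    have hB' : ∀ b ∈ B, conjBy (A ⊔ ⁅A, B⁆) b ≤ A ⊔ ⁅A, B⁆ := by
      intro b hb
      rw [conjBy_sup, hBfixC b hb]; exact sup_le (hconjA b hb) le_sup_right
    have hD' : ∀ d ∈ D, conjBy (A ⊔ ⁅A, B⁆) d ≤ A ⊔ ⁅A, B⁆ := by
      intro d hd
      rw [conjBy_sup, hDfixA d hd]; exact sup_le le_sup_left (hconjC d hd)
    refine sup_le ?_ ?_
    · intro b hb
      apply conjBy_eq_self_iff.mp
      apply le_antisymm (hB' b hb)
      have := conjBy_mono (hB' b⁻¹ (B.inv_mem hb)) b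
      rwa [conjBy_conjBy_inv] at this
    · intro d hd
      apply conjBy_eq_self_iff.mp
      apply le_antisymm (hD' d hd)
      have := conjBy_mono (hD' d⁻¹ (D.inv_mem hd)) d
      rwa [conjBy_conjBy_inv] at this
  have hXN' : ∀ x ∈ B ⊔ D, conjBy (A ⊔ ⁅A, B⁆) x = A ⊔ ⁅A, B⁆ :=
    fun x hx => conjBy_eq_self_iff.mpr (hXN hx)
  have hCNB : ∀ n ∈ A ⊔ ⁅A, B⁆, (∀ b ∈ B, n * b = b * n) → n ∈ ⁅A, B⁆ := by
    intro n hn hnB
    obtain ⟨a, ha, c, hc, rfl⟩ := hdecomp n hn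
    by_cases ha1 : a = 1
    · rw [ha1, mul_one]; exact hc
    · exfalso
      apply hAB_nc a ha ha1 b₀ hb₀ hb₀1
      have h3 := hnB b₀ hb₀
      have h4 : c * b₀ = b₀ * c := cCB c hc b₀ hb₀
      have h5 : c * (a * b₀) = c * (b₀ * a) := by
        rw [← mul_assoc, h3, ← mul_assoc, ← h4, mul_assoc]
      exact mul_left_cancel h5
  have hCND : ∀ n ∈ A ⊔ ⁅A, B⁆, (∀ d ∈ D, n * d = d * n) → n ∈ A := by
    intro n hn hnD
    obtain ⟨a, ha, c, hc, rfl⟩ := hdecomp n hn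
    by_cases hc1 : c = 1
    · rw [hc1, one_mul]; exact ha
    · exfalso
      apply hCD_nc c hc hc1 d₀ hd₀ hd₀1
      have h3 := hnD d₀ hd₀
      have h4 : a * d₀ = d₀ * a := cAD a ha d₀ hd₀
      have h5 : c * d₀ * a = d₀ * c * a := by
        rw [mul_assoc, ← h4, ← mul_assoc, h3, ← mul_assoc]
      exact mul_right_cancel h5
  have hg : ∀ b ∈ B, ∀ d ∈ D, conjBy B d⁻¹ = conjBy D b⁻¹ →
      conjBy ⁅A, B⁆ d⁻¹ = conjBy A b⁻¹ := by
    intro b hb d hd hconj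
    have hbX : b ∈ B ⊔ D := Subgroup.mem_sup_left hb
    have hdX : d ∈ B ⊔ D := Subgroup.mem_sup_right hd
    apply le_antisymm
    · have c1 : Cm (conjBy ⁅A, B⁆ d⁻¹) (conjBy D b⁻¹) := by
        rw [← hconj]; exact cCB.map_conj d⁻¹
      have c2 : Cm (conjBy ⁅A, B⁆ (b * d⁻¹)) D := by
        have := c1.conjBy b
        rwa [conjBy_conjBy, conjBy_conjBy_inv] at this
      have hle : conjBy ⁅A, B⁆ (b * d⁻¹) ≤ A ⊔ ⁅A, B⁆ := by
        have : conjBy ⁅A, B⁆ (b * d⁻¹) ≤ conjBy (A ⊔ ⁅A, B⁆) (b * d⁻¹) :=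
          conjBy_mono le_sup_right _
        rwa [hXN' _ (Subgroup.mul_mem _ hbX (Subgroup.inv_mem _ hdX))] at this
      have h3 : conjBy ⁅A, B⁆ (b * d⁻¹) ≤ A :=
        fun n hn => hCND n (hle hn) (fun d' hd' => c2 n hn d' hd')
      have := conjBy_mono h3 b⁻¹
      rwa [conjBy_conjBy, inv_mul_cancel_left] at this
    · have c1 : Cm (conjBy A b⁻¹) (conjBy B d⁻¹) := by
        rw [hconj]; exact cAD.map_conj b⁻¹
      have c2 : Cm (conjBy A (d * b⁻¹)) B := by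
        have := c1.conjBy d
        rwa [conjBy_conjBy, conjBy_conjBy_inv] at this
      have hle : conjBy A (d * b⁻¹) ≤ A ⊔ ⁅A, B⁆ := by
        have : conjBy A (d * b⁻¹) ≤ conjBy (A ⊔ ⁅A, B⁆) (d * b⁻¹) :=
          conjBy_mono le_sup_left _
        rwa [hXN' _ (Subgroup.mul_mem _ hdX (Subgroup.inv_mem _ hbX))] at this
      have h3 : conjBy A (d * b⁻¹) ≤ ⁅A, B⁆ :=
        fun n hn => hCNB n (hle hn) (fun b' hb' => c2 n hn b' hb')
      have := conjBy_mono h3 d⁻¹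
      rwa [conjBy_conjBy, inv_mul_cancel_left] at this
  have hP : (fun b : G => conjBy A b) '' (B : Set G) ∪ {⁅A, B⁆} =
      (fun d : G => conjBy ⁅A, B⁆ d) '' (D : Set G) ∪ {A} := by
    apply Set.Subset.antisymm
    · rintro E (⟨b, hb, rfl⟩ | hE)
      · by_cases hb1 : b = 1
        · right
          show conjBy A b = A
          rw [hb1, conjBy_one]
        · left
          have hb1' : b⁻¹ ≠ 1 := by simpa using hb1
          obtain ⟨d, hd, hd1, hconj⟩ := hBD.cond_left b⁻¹ (B.inv_mem hb) hb1'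
          have h3 := hg b⁻¹ (B.inv_mem hb) d hd hconj
          rw [inv_inv] at h3
          exact ⟨d⁻¹, D.inv_mem hd, h3⟩
      · left
        rw [Set.mem_singleton_iff.mp hE]
        exact ⟨1, D.one_mem, conjBy_one _⟩
    · rintro E (⟨d, hd, rfl⟩ | hE)
      · by_cases hd1 : d = 1
        · right
          show conjBy ⁅A, B⁆ d = ⁅A, B⁆
          rw [hd1, conjBy_one]
        · left
          have hd1' : d⁻¹ ≠ 1 := by simpa using hd1
          obtain ⟨b, hb, hb1, hconj⟩ := hBD.cond_right d⁻¹ (D.inv_mem hd) hd1'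
          have h3 := hg b hb d⁻¹ (D.inv_mem hd) hconj.symm
          rw [inv_inv] at h3
          exact ⟨b⁻¹, B.inv_mem hb, h3.symm⟩
      · left
        rw [Set.mem_singleton_iff.mp hE]
        exact ⟨1, B.one_mem, conjBy_one _⟩
  have hPinv : ∀ x ∈ B ⊔ D, ∀ E ∈ (fun b : G => conjBy A b) '' (B : Set G) ∪ {⁅A, B⁆},
      conjBy E x ∈ (fun b : G => conjBy A b) '' (B : Set G) ∪ {⁅A, B⁆} := by
    intro x hx
    refine sup_induction (p := fun x => ∀ E ∈ (fun b : G => conjBy A b) '' (B : Set G) ∪ {⁅A, B⁆},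
      conjBy E x ∈ (fun b : G => conjBy A b) '' (B : Set G) ∪ {⁅A, B⁆}) hx ?_ ?_ ?_ ?_
    · rintro b hb E (⟨b', hb', rfl⟩ | hE)
      · left; exact ⟨b * b', B.mul_mem hb hb', (conjBy_conjBy A b' b).symm⟩
      · right
        rw [Set.mem_singleton_iff.mp hE]; exact hBfixC b hb
    · intro d hd E hE
      rw [hP] at hE ⊢
      rcases hE with ⟨d', hd', rfl⟩ | hE
      · left; exact ⟨d * d', D.mul_mem hd hd', (conjBy_conjBy _ d' d).symm⟩
      · right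
        rw [Set.mem_singleton_iff.mp hE]; exact hDfixA d hd
    · intro E hE
      rw [conjBy_one]; exact hE
    · intro x y hx hy E hE
      rw [← conjBy_conjBy]; exact hx _ (hy E hE)
  have hCconj : ∃ x₀ ∈ B ⊔ D, ⁅A, B⁆ = conjBy A x₀ := by
    have hb1' : b₀⁻¹ ≠ 1 := by simpa using hb₀1
    obtain ⟨d, hd, hd1, hconj⟩ := hBD.cond_left b₀⁻¹ (B.inv_mem hb₀) hb1'
    have h3 := hg b₀⁻¹ (B.inv_mem hb₀) d hd hconj
    refine ⟨d * b₀⁻¹⁻¹, Subgroup.mul_mem _ (Subgroup.mem_sup_right hd)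
      (Subgroup.mem_sup_left (B.inv_mem (B.inv_mem hb₀))), ?_⟩
    rw [← conjBy_conjBy, ← h3, conjBy_conjBy_inv]
  have hO : {E | ∃ x ∈ B ⊔ D, E = Cfsg.conjBy A x} =
      (fun b : G => Cfsg.conjBy A b) '' (B : Set G) ∪ {⁅A, B⁆} := by
    apply Set.Subset.antisymm
    · rintro E ⟨x, hx, rfl⟩
      exact hPinv x hx A (Or.inl ⟨1, B.one_mem, conjBy_one A⟩)
    · rintro E (⟨b, hb, rfl⟩ | hE)
      · exact ⟨b, Subgroup.mem_sup_left hb, rfl⟩
      · obtain ⟨x₀, hx₀, hx₀'⟩ := hCconj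
        rw [Set.mem_singleton_iff.mp hE]
        exact ⟨x₀, hx₀, hx₀'⟩
  have hOC : {E | ∃ x ∈ B ⊔ D, E = Cfsg.conjBy A x} =
      {E | ∃ x ∈ B ⊔ D, E = Cfsg.conjBy ⁅A, B⁆ x} := by
    obtain ⟨x₀, hx₀, hx₀'⟩ := hCconj
    ext E
    constructor
    · rintro ⟨x, hx, rfl⟩
      refine ⟨x * x₀⁻¹, Subgroup.mul_mem _ hx (Subgroup.inv_mem _ hx₀), ?_⟩
      have e : conjBy ⁅A, B⁆ (x * x₀⁻¹) = conjBy (conjBy A x₀) (x * x₀⁻¹) := by rw [← hx₀']
      rw [e, conjBy_conjBy, inv_mul_cancel_right]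
    · rintro ⟨x, hx, rfl⟩
      refine ⟨x * x₀, Subgroup.mul_mem _ hx hx₀, ?_⟩
      have e : conjBy ⁅A, B⁆ x = conjBy (conjBy A x₀) x := by rw [← hx₀']
      rw [e, conjBy_conjBy]
  have hpart : IsSubgroupPartition (A ⊔ ⁅A, B⁆)
      ((fun b : G => conjBy A b) '' (B : Set G) ∪ {⁅A, B⁆}) := by
    refine ⟨?_, ?_, ?_⟩
    · rintro E (⟨b, hb, rfl⟩ | hE)
      · exact hconjA b hb
      · rw [Set.mem_singleton_iff.mp hE]; exact le_sup_right
    · intro x hx hx1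
      obtain ⟨a, ha, c, hc, rfl⟩ := hdecomp x hx
      by_cases ha1 : a = 1
      · exact ⟨⁅A, B⁆, Or.inr rfl, by rw [ha1, mul_one]; exact hc⟩
      · obtain ⟨b, hb, hba⟩ := CommCase.exists_conj_left h1 ha ha1 hc
        exact ⟨conjBy A b, Or.inl ⟨b, hb, rfl⟩, hba ▸ conj_mem_conjBy ha⟩
    · have key1 : ∀ b ∈ B, conjBy A b ⊓ ⁅A, B⁆ = ⊥ := by
        intro b hb
        rw [Subgroup.eq_bot_iff_forall]
        rintro x ⟨hxA, hxC⟩
        have h3 : b⁻¹ * x * b ∈ A := mem_conjBy.mp hxA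
        have h4 : b⁻¹ * x * b = x := by
          have := cCB x hxC b hb
          rw [mul_assoc, this]; group
        rw [h4] at h3
        have h5 : x ∈ A ⊓ ⁅A, B⁆ := ⟨h3, hxC⟩
        rw [hAC0] at h5
        exact Subgroup.mem_bot.mp h5
      have key2 : ∀ b₁ ∈ B, ∀ b₂ ∈ B, conjBy A b₁ ≠ conjBy A b₂ →
          conjBy A b₁ ⊓ conjBy A b₂ = ⊥ := by
        intro b₁ hb₁ b₂ hb₂ hne
        rw [Subgroup.eq_bot_iff_forall]
        rintro x ⟨hx1, hx2⟩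
        have ha₁ : b₁⁻¹ * x * b₁ ∈ A := mem_conjBy.mp hx1
        have ha₂ : b₂⁻¹ * x * b₂ ∈ A := mem_conjBy.mp hx2
        by_contra hx
        have ha₁1 : b₁⁻¹ * x * b₁ ≠ 1 := by
          intro h
          apply hx
          have e : x = b₁ * (b₁⁻¹ * x * b₁) * b₁⁻¹ := by group
          rw [e, h]; group
        have hbB : b₂⁻¹ * b₁ ∈ B := B.mul_mem (B.inv_mem hb₂) hb₁
        have e : (b₂⁻¹ * b₁) * (b₁⁻¹ * x * b₁) * (b₂⁻¹ * b₁)⁻¹ = b₂⁻¹ * x * b₂ := by group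
        have hcomm : (b₂⁻¹ * b₁) * (b₁⁻¹ * x * b₁) * (b₂⁻¹ * b₁)⁻¹ * (b₁⁻¹ * x * b₁)⁻¹ ∈
            A ⊓ ⁅A, B⁆ := by
          refine ⟨?_, CommCase.comm_mem' ha₁ hbB⟩
          rw [e]; exact A.mul_mem ha₂ (A.inv_mem ha₁)
        rw [hAC0] at hcomm
        have h6 := Subgroup.mem_bot.mp hcomm
        have h7 : (b₁⁻¹ * x * b₁) * (b₂⁻¹ * b₁) = (b₂⁻¹ * b₁) * (b₁⁻¹ * x * b₁) :=
          (mul_inv_eq_iff_eq_mul.mp (mul_inv_eq_one.mp h6)).symm
        by_cases hb1 : b₂⁻¹ * b₁ = 1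
        · apply hne
          rw [inv_mul_eq_one.mp hb1]
        · exact hAB_nc _ ha₁ ha₁1 _ hbB hb1 h7
      rintro E₁ (⟨b₁, hb₁, rfl⟩ | hE₁) E₂ (⟨b₂, hb₂, rfl⟩ | hE₂) hne
      · exact key2 b₁ hb₁ b₂ hb₂ hne
      · rw [Set.mem_singleton_iff.mp hE₂]; exact key1 b₁ hb₁
      · rw [Set.mem_singleton_iff.mp hE₁, inf_comm]; exact key1 b₂ hb₂
      · exact absurd (by rw [Set.mem_singleton_iff.mp hE₁, Set.mem_singleton_iff.mp hE₂]) hne
  have hcentral : ∀ x ∈ (B ⊔ D) ⊓ Subgroup.centralizer ((A ⊔ ⁅A, B⁆ : Subgroup G) : Set G),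
      ∀ y ∈ B ⊔ D, x * y = y * x := by
    rintro x ⟨hxX, hxN⟩
    have hU : ∀ z ∈ B ⊔ D, (∀ n ∈ A ⊔ ⁅A, B⁆, n * z = z * n) → conjBy B z = B := by
      intro z hz hzN
      have hmem : conjBy B z ∈ unipotentSubgroups B D := ⟨z, hz, rfl⟩
      rcases RankOne.unipotent_cases hBD hmem with h | ⟨b, hb, h⟩
      · exact h
      · exfalso
        have hCz : conjBy ⁅A, B⁆ z = ⁅A, B⁆ := by
          apply conjBy_eq_self_iff.mpr
          have h3 : z ∈ Subgroup.centralizer ((⁅A, B⁆ : Subgroup G) : Set G) := by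
            rw [Subgroup.mem_centralizer_iff]
            intro n hn
            exact hzN n (Subgroup.mem_sup_right hn)
          exact Subgroup.centralizer_le_normalizer _ h3
        have c1 : Cm (conjBy B z) ⁅A, B⁆ := by
          have := cCB.symm.conjBy z
          rwa [hCz] at this
        rw [h] at c1
        have c2 : Cm D ⁅A, B⁆ := by
          have := c1.conjBy b⁻¹
          rwa [conjBy_inv_conjBy, hBfixC b⁻¹ (B.inv_mem hb)] at this
        apply hAne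
        rw [← hDC]; exact cm_iff_commutator.mp c2
    apply RankOne.central_of_normalizes_all hBD
    rintro E ⟨y, hy, rfl⟩
    have hz : y⁻¹ * x * y ∈ B ⊔ D :=
      Subgroup.mul_mem _ (Subgroup.mul_mem _ (Subgroup.inv_mem _ hy) hxX) hy
    have hzN : ∀ n ∈ A ⊔ ⁅A, B⁆, n * (y⁻¹ * x * y) = (y⁻¹ * x * y) * n := by
      intro n hn
      have h3 : y * n * y⁻¹ ∈ A ⊔ ⁅A, B⁆ := by
        have := conj_mem_conjBy (g := y) hn
        rwa [hXN' y hy] at this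
      have h4 := Subgroup.mem_centralizer_iff.mp hxN _ h3
      calc n * (y⁻¹ * x * y) = y⁻¹ * ((y * n * y⁻¹) * x) * y := by group
        _ = y⁻¹ * (x * (y * n * y⁻¹)) * y := by rw [h4]
        _ = (y⁻¹ * x * y) * n := by group
    have h5 := hU _ hz hzN
    rw [conjBy_conjBy]
    have e : x * y = y * (y⁻¹ * x * y) := by group
    rw [e, ← conjBy_conjBy, h5]
  refine ⟨hBD, hOC, hO, hO.trans hP, ?_, hcentral⟩
  rw [hO]; exact hpart

end Cfsg.Agent.S5036
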