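import Cfsg.Statements.S5628
import Cfsg.Agent.Lib.Helper28.Plane4

set_option autoImplicit false
open Cfsg

namespace Cfsg.Agent.S5628

open Cfsg Finset Cfsg.Agent.Lib.Helper28.Plane4
open scoped Pointwise

theorem mem_aut_iff {α : Type*} [DecidableEq α] {L : Set (Finset α)} {g : Equiv.Perm α} :
    g ∈ setSystemAut L ↔ (fun b : Finset α => b.image g) '' L = L := by
  rw [MulAction.mem_stabilizer_iff]
  have h : g • L = (fun b : Finset α => b.image g) '' L := by
    ext B
    simp only [Set.mem_smul_set, Set.mem_image]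
    constructor
    · rintro ⟨b, hb, rfl⟩
      exact ⟨b, hb, rfl⟩
    · rintro ⟨b, hb, rfl⟩
      exact ⟨b, hb, rfl⟩
  rw [h]

theorem image_trans_symm {α β : Type*} [DecidableEq α] [DecidableEq β] (e e' : α ≃ β)
    (b b' : Finset α) (h : b'.image e' = b.image e) : b.image (e.trans e'.symm) = b' := by
  have h1 : b.image (e.trans e'.symm) = (b.image e).image e'.symm := by
    rw [Finset.image_image]
    rfl
  rw [h1, ← h, Finset.image_image]
  simp

/-- Two automorphisms of the plane that agree on a hyperoval are equal. -/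
theorem aut_eq {α : Type*} [Fintype α] [DecidableEq α] (hα : Fintype.card α = 21)
    {L : Set (Finset α)} (hL : IsSteinerSystem 2 5 L) {H : Finset α} (hH : IsHyp L H)
    (h : Fin 6 → α) (hinj : Function.Injective h) (hr : ∀ x, x ∈ H ↔ ∃ i, h i = x)
    (g1 g2 : Equiv.Perm α) (h1 : ∀ ℓ ∈ L, ℓ.image g1 ∈ L) (h2 : ∀ ℓ ∈ L, ℓ.image g2 ∈ L)
    (hag : ∀ i, g1 (h i) = g2 (h i)) : g1 = g2 := by
  apply Equiv.ext
  intro x
  by_cases hx : x ∈ H
  · obtain ⟨i, rfl⟩ := (hr x).1 hx
    exact hag i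
  · have hmem : ∀ i, h i ∈ H := fun i => (hr _).2 ⟨i, rfl⟩
    obtain ⟨j0, hj0, hj0m⟩ := partner hα hL hH h hr hx 0
    obtain ⟨i', hi'0, hi'j⟩ : ∃ i' : Fin 6, i' ≠ 0 ∧ i' ≠ j0 := by
      by_cases c : j0 = 1
      · exact ⟨2, by decide, by rw [c]; decide⟩
      · exact ⟨1, by decide, fun e => c e.symm⟩
    obtain ⟨j1, hj1, hj1m⟩ := partner hα hL hH h hr hx i'
    have hx0 : x ≠ h 0 := fun e => hx (e ▸ hmem 0)
    have hxi : x ≠ h i' := fun e => hx (e ▸ hmem i')
    obtain ⟨a1, a2, a3⟩ := ln_spec hL hx0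
    obtain ⟨b1, b2, b3⟩ := ln_spec hL hxi
    have hne : ln L x (h 0) ≠ ln L x (h i') := by
      intro e
      rw [← e] at b3
      exact no_three hH.2 a1 a3 hj0m b3 (hmem _) (hmem _) (hmem _)
        (fun e' => hj0 (hinj e').symm) (fun e' => hi'0 (hinj e').symm)
        (fun e' => hi'j (hinj e').symm)
    have key : ∀ (ℓ : Finset α), ℓ ∈ L → ∀ a b : Fin 6, a ≠ b → h a ∈ ℓ → h b ∈ ℓ →
        ℓ.image g1 = ℓ.image g2 := by
      intro ℓ hℓ a b hab ha hb
      refine line_unique hL (h1 ℓ hℓ) (h2 ℓ hℓ) (x := g1 (h a)) (y := g1 (h b))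
        (fun e => hab (hinj (g1.injective e))) (Finset.mem_image_of_mem _ ha)
        (Finset.mem_image_of_mem _ hb) ?_ ?_
      · rw [hag a]
        exact Finset.mem_image_of_mem _ ha
      · rw [hag b]
        exact Finset.mem_image_of_mem _ hb
    have k1 := key _ a1 0 j0 (Ne.symm hj0) a3 hj0m
    have k2 := key _ b1 i' j1 (Ne.symm hj1) b3 hj1m
    have p1 : g1 x ∈ (ln L x (h 0)).image g1 := Finset.mem_image_of_mem _ a2
    have p2 : g2 x ∈ (ln L x (h 0)).image g1 := by
      rw [k1]
      exact Finset.mem_image_of_mem _ a2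
    have q1 : g1 x ∈ (ln L x (h i')).image g1 := Finset.mem_image_of_mem _ b2
    have q2 : g2 x ∈ (ln L x (h i')).image g1 := by
      rw [k2]
      exact Finset.mem_image_of_mem _ b2
    by_contra hcon
    have e5 := line_unique hL (h1 _ a1) (h1 _ b1) hcon p1 p2 q1 q2
    exact hne (Finset.image_injective g1.injective e5)

theorem aut_lines {α : Type*} [DecidableEq α] {L : Set (Finset α)} {g : Equiv.Perm α}
    (hg : g ∈ setSystemAut L) : ∀ ℓ ∈ L, ℓ.image g ∈ L := by
  intro ℓ hℓ
  have h := mem_aut_iff.1 hg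
  rw [← h]
  exact ⟨ℓ, hℓ, rfl⟩

/-- In a projective plane of order 4 (a Steiner system S(2, 5, 21)), every permutation of the six points of a hyperoval (a 6-set met by no line in more than two points) is the restriction of exactly one automorphism of the plane. In particular the stabiliser of a hyperoval in the automorphism group is isomorphic to the symmetric group of degree 6 acting faithfully on the hyperoval. -/
theorem result {α : Type*} [Fintype α] [DecidableEq α] (hα : Fintype.card α = 21) (L : Set (Finset α)) (hL : Cfsg.IsSteinerSystem 2 5 L) (H : Finset α) (hH : (H.card = 6 ∧ ∀ l ∈ L, (l ∩ H).card ≤ 2)) (σ : Equiv.Perm ↥H) : ∃! g : Equiv.Perm α, g ∈ Cfsg.setSystemAut L ∧ ∀ p : ↥H, g p = σ p := by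
  classical
  have hHyp : IsHyp L H := hH
  let eq6 : ↥H ≃ Fin 6 := Finset.equivFinOfCardEq hH.1
  let h : Fin 6 → α := fun i => (eq6.symm i : α)
  have hinj : Function.Injective h := fun i j e => eq6.symm.injective (Subtype.ext e)
  have hr : ∀ x, x ∈ H ↔ ∃ i, h i = x := by
    intro x
    constructor
    · intro hx
      exact ⟨eq6 ⟨x, hx⟩, by simp [h]⟩
    · rintro ⟨i, rfl⟩
      exact (eq6.symm i).2
  let h' : Fin 6 → α := fun i => (σ (eq6.symm i) : α)
  have hinj' : Function.Injective h' := fun i j e =>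
    eq6.symm.injective (σ.injective (Subtype.ext e))
  have hr' : ∀ x, x ∈ H ↔ ∃ i, h' i = x := by
    intro x
    constructor
    · intro hx
      exact ⟨eq6 (σ.symm ⟨x, hx⟩), by simp [h']⟩
    · rintro ⟨i, rfl⟩
      exact (σ (eq6.symm i)).2
  obtain ⟨e, hei, heL⟩ := model_iso hα hL hHyp h hinj hr
  obtain ⟨e', hei', heL'⟩ := model_iso hα hL hHyp h' hinj' hr'
  have hex : e.trans e'.symm ∈ setSystemAut L ∧
      ∀ p : ↥H, (e.trans e'.symm) (p : α) = (σ p : α) := by
    refine ⟨?_, ?_⟩
    · rw [mem_aut_iff]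
      ext B
      constructor
      · rintro ⟨b, hb, rfl⟩
        have m1 : b.image e ∈ LM := by
          rw [← heL]
          exact ⟨b, hb, rfl⟩
        rw [← heL'] at m1
        obtain ⟨b', hb', e1⟩ := m1
        show b.image (e.trans e'.symm) ∈ L
        rw [image_trans_symm e e' b b' e1]
        exact hb'
      · intro hB
        have m1 : B.image e' ∈ LM := by
          rw [← heL']
          exact ⟨B, hB, rfl⟩
        rw [← heL] at m1
        obtain ⟨b, hb, e1⟩ := m1
        exact ⟨b, hb, image_trans_symm e e' b B e1.symm⟩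
    · intro p
      have hp : (p : α) = h (eq6 p) := by simp [h]
      have hp' : (σ p : α) = h' (eq6 p) := by simp [h']
      show e'.symm (e (p : α)) = (σ p : α)
      rw [hp, hei, Equiv.symm_apply_eq, hp', hei']
  refine ⟨e.trans e'.symm, hex, ?_⟩
  rintro g ⟨hgL, hgσ⟩
  apply aut_eq hα hL hHyp h hinj hr g (e.trans e'.symm) (aut_lines hgL) (aut_lines hex.1)
  intro i
  have h5 := hgσ (eq6.symm i)
  have h6 := hex.2 (eq6.symm i)
  show g ((eq6.symm i : ↥H) : α) = (e.trans e'.symm) ((eq6.symm i : ↥H) : α)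
  rw [h5, h6]
end Cfsg.Agent.S5628
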