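import Cfsg.Statements.S0372
import Cfsg.Agent.Lib.Helper4.Golay

set_option autoImplicit false
open Cfsg

namespace Cfsg.Agent.S0372

/-- The involution x ↦ -1/x of the projective line over ZMod 23 lies in the group of the length-24 code. -/
theorem result : Cfsg.projInv ∈ Cfsg.M24 := by
  exact Cfsg.Agent.Lib.Helper4.Golay.mem_M24_of_tbl Cfsg.projInv Cfsg.projInvFun (fun _ => rfl)
    [16436384, 4696816, 2083596, 2799212, 3876754, 10252980, 8216682, 9514476, 7705908, 2316478, 10864326, 15598044, 6586248, 1875162, 8840506, 13850200, 4738934, 11139408, 5435846, 11934562, 13210538, 13581318, 15772190]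
    (by decide +kernel) (by decide +kernel)

end Cfsg.Agent.S0372
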