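import Mathlib
import Cfsg.Statements.S1557
import Cfsg.Agent.Lib.Helper12.CodeSupp
import Cfsg.Agent.Lib.Helper4.Steiner
import Cfsg.Agent.S0354
import Cfsg.Agent.S0360
import Cfsg.Agent.S0363

set_option autoImplicit false
open Cfsg

namespace Cfsg.Agent.S1557

open Cfsg.Agent.Lib.Helper12

theorem compl_union_octad (o o' : Finset GolayPt) (ho : o ∈ octads) (ho' : o' ∈ octads)
    (hdisj : Disjoint o o') : (o ∪ o')ᶜ ∈ octads := by
  have e : o ∪ o' = symmDiff o o' := by
    ext p
    simp only [Finset.mem_union, Finset.mem_symmDiff]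
    have hd : p ∈ o → p ∉ o' := fun h => Finset.disjoint_left.mp hdisj h
    tauto
  refine ⟨?_, ?_⟩
  · rw [e]
    exact gs_compl (gs_symmDiff ho.1 ho'.1)
  · rw [card_compl_pt, Finset.card_union_of_disjoint hdisj, ho.2, ho'.2]

theorem octad_ne_of_disjoint {o o' : Finset GolayPt} (ho : o ∈ octads) (hdisj : Disjoint o o') :
    o ≠ o' := by
  rintro rfl
  have h0 : o = ∅ := (Finset.disjoint_self_iff_empty o).mp hdisj
  have := ho.2
  rw [h0] at this
  simp at this

/-- the third octad of a trio is determined by the other two -/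
theorem third_eq {x y z : Finset GolayPt} (hx : x ∈ octads) (hy : y ∈ octads) (hz : z ∈ octads)
    (hxy : Disjoint x y) (hxz : Disjoint x z) (hyz : Disjoint y z) : z = (x ∪ y)ᶜ := by
  have hsub : z ⊆ (x ∪ y)ᶜ := by
    intro p hp
    rw [Finset.mem_compl, Finset.mem_union]
    rintro (h | h)
    · exact Finset.disjoint_left.mp hxz h hp
    · exact Finset.disjoint_left.mp hyz h hp
  apply Finset.eq_of_subset_of_card_le hsub
  rw [(compl_union_octad x y hx hy hxy).2, hz.2]

/-- The complement of the union of two disjoint octads is an octad, and the code has exactly 3795 trios of pairwise disjoint octads. -/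
theorem result : (∀ o o' : Finset Cfsg.GolayPt, o ∈ Cfsg.octads → o' ∈ Cfsg.octads → Disjoint o o' → (o ∪ o')ᶜ ∈ Cfsg.octads) ∧ Cfsg.trios.ncard = 3795 := by
  classical
  refine ⟨compl_union_octad, ?_⟩
  have hB := Cfsg.Agent.S0363.result
  have hα := Cfsg.Agent.Lib.Helper4.Golay.card_pts
  set B : Finset (Finset GolayPt) := Cfsg.Agent.Lib.Helper4.Steiner.blocks Cfsg.octads with hBdef
  have hmemB : ∀ o, o ∈ B ↔ o ∈ Cfsg.octads := fun o => Cfsg.Agent.Lib.Helper4.Steiner.mem_blocks
  have hBcard : B.card = 759 := by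
    rw [hBdef, ← Cfsg.Agent.Lib.Helper4.Steiner.ncard_eq]
    exact Cfsg.Agent.S0360.result
  have h30 : ∀ o ∈ B, (B.filter (fun o' => Disjoint o o')).card = 30 := by
    intro o ho
    rw [hBdef, ← Cfsg.Agent.Lib.Helper4.Steiner.ncard_setOf]
    exact Cfsg.Agent.S0354.result hα hB ((hmemB o).mp ho)
  -- ordered disjoint pairs
  set P : Finset (Finset GolayPt × Finset GolayPt) :=
    (B ×ˢ B).filter (fun p => Disjoint p.1 p.2) with hP
  have hPcard : P.card = 759 * 30 := by
    have h1 : P.card = ∑ o ∈ B, (B.filter (fun o' => Disjoint o o')).card := by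
      rw [hP, Finset.card_filter, Finset.sum_product]
      apply Finset.sum_congr rfl
      intro o _
      rw [Finset.card_filter]
    rw [h1, Finset.sum_congr rfl h30, Finset.sum_const, hBcard, smul_eq_mul]
  -- trios as a finset
  set 𝒯 : Finset (Finset (Finset GolayPt)) :=
    Cfsg.Agent.Lib.Helper4.Steiner.blocks Cfsg.trios with h𝒯
  have hmem𝒯 : ∀ T, T ∈ 𝒯 ↔ T ∈ Cfsg.trios := fun T =>
    Cfsg.Agent.Lib.Helper4.Steiner.mem_blocks
  rw [Cfsg.Agent.Lib.Helper4.Steiner.ncard_eq]
  -- the map
  set φ : Finset GolayPt × Finset GolayPt → Finset (Finset GolayPt) :=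
    fun p => {p.1, p.2, (p.1 ∪ p.2)ᶜ} with hφ
  have hmemP : ∀ p, p ∈ P ↔ p.1 ∈ Cfsg.octads ∧ p.2 ∈ Cfsg.octads ∧ Disjoint p.1 p.2 := by
    intro p
    rw [hP, Finset.mem_filter, Finset.mem_product, hmemB, hmemB, and_assoc]
  have hdisj3 : ∀ p, p ∈ P → Disjoint p.1 (p.1 ∪ p.2)ᶜ ∧ Disjoint p.2 (p.1 ∪ p.2)ᶜ := by
    intro p _
    constructor
    · rw [Finset.disjoint_left]
      intro a ha hc
      rw [Finset.mem_compl, Finset.mem_union] at hc
      exact hc (Or.inl ha)
    · rw [Finset.disjoint_left]
      intro a ha hc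
      rw [Finset.mem_compl, Finset.mem_union] at hc
      exact hc (Or.inr ha)
  have hφmem : ∀ p ∈ P, φ p ∈ 𝒯 := by
    intro p hp
    rw [hmem𝒯]
    obtain ⟨h1, h2, h12⟩ := (hmemP p).mp hp
    have h3 := compl_union_octad p.1 p.2 h1 h2 h12
    obtain ⟨h13, h23⟩ := hdisj3 p hp
    have hne12 : p.1 ≠ p.2 := octad_ne_of_disjoint h1 h12
    have hne13 : p.1 ≠ (p.1 ∪ p.2)ᶜ := octad_ne_of_disjoint h1 h13
    have hne23 : p.2 ≠ (p.1 ∪ p.2)ᶜ := octad_ne_of_disjoint h2 h23
    refine ⟨?_, ?_, ?_⟩
    · show ({p.1, p.2, (p.1 ∪ p.2)ᶜ} : Finset (Finset GolayPt)).card = 3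
      rw [Finset.card_insert_of_notMem (by
          rw [Finset.mem_insert, Finset.mem_singleton]
          rintro (h | h)
          · exact hne12 h
          · exact hne13 h),
        Finset.card_insert_of_notMem (by rw [Finset.mem_singleton]; exact hne23),
        Finset.card_singleton]
    · intro o ho
      have ho' : o ∈ ({p.1, p.2, (p.1 ∪ p.2)ᶜ} : Finset (Finset GolayPt)) := ho
      simp only [Finset.mem_insert, Finset.mem_singleton] at ho'
      rcases ho' with rfl | rfl | rfl
      · exact h1
      · exact h2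
      · exact h3
    · intro o ho o' ho' hne
      have ho1 : o ∈ ({p.1, p.2, (p.1 ∪ p.2)ᶜ} : Finset (Finset GolayPt)) := ho
      have ho2 : o' ∈ ({p.1, p.2, (p.1 ∪ p.2)ᶜ} : Finset (Finset GolayPt)) := ho'
      simp only [Finset.mem_insert, Finset.mem_singleton] at ho1 ho2
      rcases ho1 with rfl | rfl | rfl <;> rcases ho2 with rfl | rfl | rfl
      · exact absurd rfl hne
      · exact h12
      · exact h13
      · exact h12.symm
      · exact absurd rfl hne
      · exact h23
      · exact h13.symm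
      · exact h23.symm
      · exact absurd rfl hne
  have hfiber : ∀ T ∈ 𝒯, (P.filter (fun p => φ p = T)).card = 6 := by
    intro T hT
    obtain ⟨hT3, hToct, hTdisj⟩ := (hmem𝒯 T).mp hT
    have hoff : P.filter (fun p => φ p = T) = T.offDiag := by
      ext p
      rw [Finset.mem_filter, Finset.mem_offDiag]
      constructor
      · rintro ⟨hp, rfl⟩
        obtain ⟨h1, h2, h12⟩ := (hmemP p).mp hp
        refine ⟨?_, ?_, octad_ne_of_disjoint h1 h12⟩
        · show p.1 ∈ ({p.1, p.2, (p.1 ∪ p.2)ᶜ} : Finset (Finset GolayPt))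
          exact Finset.mem_insert_self _ _
        · show p.2 ∈ ({p.1, p.2, (p.1 ∪ p.2)ᶜ} : Finset (Finset GolayPt))
          exact Finset.mem_insert_of_mem (Finset.mem_insert_self _ _)
      · rintro ⟨h1, h2, hne⟩
        have hp : p ∈ P := (hmemP p).mpr ⟨hToct _ h1, hToct _ h2, hTdisj _ h1 _ h2 hne⟩
        refine ⟨hp, ?_⟩
        -- the third element of T
        have hsub : ({p.1, p.2} : Finset (Finset GolayPt)) ⊆ T := by
          intro o ho
          simp only [Finset.mem_insert, Finset.mem_singleton] at ho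
          rcases ho with rfl | rfl
          · exact h1
          · exact h2
        have hc2 : ({p.1, p.2} : Finset (Finset GolayPt)).card = 2 := by
          rw [Finset.card_insert_of_notMem (by rw [Finset.mem_singleton]; exact hne),
            Finset.card_singleton]
        have hex : ∃ z ∈ T, z ∉ ({p.1, p.2} : Finset (Finset GolayPt)) := by
          by_contra hno
          push Not at hno
          have : T ⊆ ({p.1, p.2} : Finset (Finset GolayPt)) := fun z hz => hno z hz
          have := Finset.card_le_card this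
          omega
        obtain ⟨z, hzT, hz⟩ := hex
        simp only [Finset.mem_insert, Finset.mem_singleton, not_or] at hz
        have hz1 : Disjoint p.1 z := hTdisj _ h1 _ hzT (fun h => hz.1 h.symm)
        have hz2 : Disjoint p.2 z := hTdisj _ h2 _ hzT (fun h => hz.2 h.symm)
        have hzeq : z = (p.1 ∪ p.2)ᶜ :=
          third_eq (hToct _ h1) (hToct _ h2) (hToct _ hzT) (hTdisj _ h1 _ h2 hne) hz1 hz2
        have hφT : φ p ⊆ T := by
          intro o ho
          have ho' : o ∈ ({p.1, p.2, (p.1 ∪ p.2)ᶜ} : Finset (Finset GolayPt)) := ho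
          simp only [Finset.mem_insert, Finset.mem_singleton] at ho'
          rcases ho' with rfl | rfl | rfl
          · exact h1
          · exact h2
          · rw [← hzeq]; exact hzT
        have hφc : (φ p).card = 3 := ((hmem𝒯 _).mp (hφmem p hp)).1
        exact Finset.eq_of_subset_of_card_le hφT (by rw [hφc, hT3])
    rw [hoff, Finset.offDiag_card, hT3]
  have hcount := Finset.card_eq_sum_card_fiberwise (s := P) (t := 𝒯) (f := φ) hφmem
  rw [Finset.sum_congr rfl hfiber, Finset.sum_const, smul_eq_mul, hPcard] at hcount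
  show 𝒯.card = 3795
  omega

end Cfsg.Agent.S1557
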