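import Cfsg.Statements.S0357
import Cfsg.Agent.Lib.Helper4.Steiner

set_option autoImplicit false
open Cfsg

namespace Cfsg.Agent.S0357

/-- In a Steiner system S(5, 6, 12), the complement of every block is again a block. -/
theorem result {α : Type*} [Fintype α] [DecidableEq α] (hα : Fintype.card α = 12) {B : Set (Finset α)} (hB : Cfsg.IsSteinerSystem 5 6 B) {b : Finset α} (hb : b ∈ B) : bᶜ ∈ B := by
  obtain ⟨h0, -⟩ := Cfsg.Agent.Lib.Helper4.Steiner.s5612 hα hB hb
  rw [Cfsg.Agent.Lib.Helper4.Steiner.cnt, Finset.card_eq_one] at h0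
  obtain ⟨c, hc⟩ := h0
  have hc' : c ∈ Finset.filter (fun d => ∅ ⊆ d ∧ (d ∩ b).card = 0) (Cfsg.Agent.Lib.Helper4.Steiner.blocks B) := by
    rw [hc]; exact Finset.mem_singleton_self c
  rw [Finset.mem_filter, Cfsg.Agent.Lib.Helper4.Steiner.mem_blocks] at hc'
  obtain ⟨hcB, -, hcb⟩ := hc'
  have hsub : c ⊆ bᶜ := by
    intro x hx
    rw [Finset.mem_compl]
    intro hxb
    have : x ∈ c ∩ b := Finset.mem_inter.2 ⟨hx, hxb⟩
    rw [Finset.card_eq_zero] at hcb
    rw [hcb] at this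
    exact absurd this (Finset.notMem_empty x)
  have hcard : bᶜ.card ≤ c.card := by
    rw [Finset.card_compl, hα, hB.1 b hb, hB.1 c hcB]
  rw [← Finset.eq_of_subset_of_card_le hsub hcard]
  exact hcB

end Cfsg.Agent.S0357
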