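import Cfsg.Statements.S0409
import Cfsg.Agent.Lib.Helper28.Ext23

set_option autoImplicit false
open Cfsg

namespace Cfsg.Agent.S0409

open Finset
open Cfsg.Agent.Lib.Helper4 Cfsg.Agent.Lib.Helper28 Cfsg.Agent.Lib.Helper28.Plane4
open Cfsg.Agent.Lib.Helper28.Aut22 Cfsg.Agent.Lib.Helper28.Ext23 Cfsg.Agent.S0410

/-- The first hyperoval through three of the base points. -/
def KA : Finset M := {Sum.inl 0, Sum.inl 1, Sum.inl 2, Sum.inr 7, Sum.inr 11, Sum.inr 13}

/-- The second hyperoval through three of the base points. -/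
def KB : Finset M := {Sum.inl 0, Sum.inl 1, Sum.inl 2, Sum.inr 8, Sum.inr 10, Sum.inr 14}

theorem KA_aux : KA.card = 6 ∧ (∀ i j : Fin 6, i ≠ j → (secSet i j ∩ KA).card ≤ 2) ∧
    ∀ t : Fin 6, (totSet t ∩ KA).card ≤ 2 := by decide +kernel

theorem KB_aux : KB.card = 6 ∧ (∀ i j : Fin 6, i ≠ j → (secSet i j ∩ KB).card ≤ 2) ∧
    ∀ t : Fin 6, (totSet t ∩ KB).card ≤ 2 := by decide +kernel

theorem KA_hyp : IsHyp LM KA := by
  refine ⟨KA_aux.1, ?_⟩
  rintro l (⟨i, j, hij, rfl⟩ | ⟨t, rfl⟩)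
  · exact KA_aux.2.1 i j hij
  · exact KA_aux.2.2 t

theorem KB_hyp : IsHyp LM KB := by
  refine ⟨KB_aux.1, ?_⟩
  rintro l (⟨i, j, hij, rfl⟩ | ⟨t, rfl⟩)
  · exact KB_aux.2.1 i j hij
  · exact KB_aux.2.2 t

theorem syn_cases : ∀ k : Fin 15, synF k 0 ≠ 1 → synF k 0 ≠ 2 → synF k 1 ≠ 2 →
    (k = 7 ∨ k = 11 ∨ k = 13) ∨ (k = 8 ∨ k = 10 ∨ k = 14) := by decide +kernel

theorem KA_mem : Sum.inl 0 ∈ KA ∧ Sum.inl 1 ∈ KA ∧ Sum.inl 2 ∈ KA ∧ Sum.inr 7 ∈ KA ∧
    Sum.inr 11 ∈ KA ∧ Sum.inr 13 ∈ KA := by decide +kernel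

theorem KB_mem : Sum.inl 0 ∈ KB ∧ Sum.inl 1 ∈ KB ∧ Sum.inl 2 ∈ KB ∧ Sum.inr 8 ∈ KB ∧
    Sum.inr 10 ∈ KB ∧ Sum.inr 14 ∈ KB ∧ Sum.inr 7 ∉ KB := by decide +kernel

/-- The hyperovals through the first three base points. -/
theorem hyp_cases (hLM : IsSteinerSystem 2 5 LM) (hHstd : IsHyp LM Hstd) {H : Finset M}
    (hH : IsHyp LM H) (h0 : Sum.inl 0 ∈ H) (h1 : Sum.inl 1 ∈ H) (h2 : Sum.inl 2 ∈ H)
    (hne : H ≠ Hstd) : H = KA ∨ H = KB := by
  obtain ⟨w, hw, hwn⟩ : ∃ w ∈ H, w ∉ ({Sum.inl 0, Sum.inl 1, Sum.inl 2} : Finset M) := by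
    apply Finset.exists_mem_notMem_of_card_lt_card
    rw [hH.1]
    exact lt_of_le_of_lt Finset.card_le_three (by norm_num)
  simp only [Finset.mem_insert, Finset.mem_singleton, not_or] at hwn
  have four : ∀ K : Finset M, IsHyp LM K → Sum.inl 0 ∈ K → Sum.inl 1 ∈ K → Sum.inl 2 ∈ K →
      w ∈ K → H = K := by
    intro K hK k0 k1 k2 kw
    have hS : ({w, Sum.inl 0, Sum.inl 1, Sum.inl 2} : Finset M).card = 4 := by
      rw [Finset.card_insert_of_notMem, Finset.card_eq_three.2
        ⟨_, _, _, by decide, by decide, by decide, rfl⟩]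
      simp only [Finset.mem_insert, Finset.mem_singleton, not_or]
      exact hwn
    have s1 : ({w, Sum.inl 0, Sum.inl 1, Sum.inl 2} : Finset M) ⊆ H := by
      intro z hz
      simp only [Finset.mem_insert, Finset.mem_singleton] at hz
      rcases hz with rfl | rfl | rfl | rfl <;> assumption
    have s2 : ({w, Sum.inl 0, Sum.inl 1, Sum.inl 2} : Finset M) ⊆ K := by
      intro z hz
      simp only [Finset.mem_insert, Finset.mem_singleton] at hz
      rcases hz with rfl | rfl | rfl | rfl <;> assumption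
    exact hyp_eq_of_four card_M hLM hH hK hS s1 s2
  rcases w with j | k
  · exact absurd (four Hstd hHstd (mem_Hstd.2 ⟨0, rfl⟩) (mem_Hstd.2 ⟨1, rfl⟩)
      (mem_Hstd.2 ⟨2, rfl⟩) (mem_Hstd.2 ⟨j, rfl⟩)) hne
  · have c1 : synF k 0 ≠ 1 := fun e =>
      no_three hH.2 (Or.inl ⟨0, 1, by decide, rfl⟩ : secSet 0 1 ∈ LM)
        (mem_secSet_inl.2 (Or.inl rfl)) (mem_secSet_inl.2 (Or.inr rfl)) (mem_secSet_inr.2 e)
        h0 h1 hw (by decide) (by simp) (by simp)
    have c2 : synF k 0 ≠ 2 := fun e =>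
      no_three hH.2 (Or.inl ⟨0, 2, by decide, rfl⟩ : secSet 0 2 ∈ LM)
        (mem_secSet_inl.2 (Or.inl rfl)) (mem_secSet_inl.2 (Or.inr rfl)) (mem_secSet_inr.2 e)
        h0 h2 hw (by decide) (by simp) (by simp)
    have c3 : synF k 1 ≠ 2 := fun e =>
      no_three hH.2 (Or.inl ⟨1, 2, by decide, rfl⟩ : secSet 1 2 ∈ LM)
        (mem_secSet_inl.2 (Or.inl rfl)) (mem_secSet_inl.2 (Or.inr rfl)) (mem_secSet_inr.2 e)
        h1 h2 hw (by decide) (by simp) (by simp)
    rcases syn_cases k c1 c2 c3 with (rfl | rfl | rfl) | (rfl | rfl | rfl)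
    · exact Or.inl (four KA KA_hyp KA_mem.1 KA_mem.2.1 KA_mem.2.2.1 KA_mem.2.2.2.1)
    · exact Or.inl (four KA KA_hyp KA_mem.1 KA_mem.2.1 KA_mem.2.2.1 KA_mem.2.2.2.2.1)
    · exact Or.inl (four KA KA_hyp KA_mem.1 KA_mem.2.1 KA_mem.2.2.1 KA_mem.2.2.2.2.2)
    · exact Or.inr (four KB KB_hyp KB_mem.1 KB_mem.2.1 KB_mem.2.2.1 KB_mem.2.2.2.1)
    · exact Or.inr (four KB KB_hyp KB_mem.1 KB_mem.2.1 KB_mem.2.2.1 KB_mem.2.2.2.2.1)
    · exact Or.inr (four KB KB_hyp KB_mem.1 KB_mem.2.1 KB_mem.2.2.1 KB_mem.2.2.2.2.2.1)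

/-- The image of a point off the base under an automorphism of the standard system that
permutes the base points. -/
theorem conj_point (hS : IsSteinerSystem 3 6 Bstd) (τ : Equiv.Perm (Option M))
    (hτ : ∀ b ∈ Bstd, b.image τ ∈ Bstd) (h0 : τ none = none) (π : Fin 6 → Fin 6)
    (hπ : Function.Injective π) (h1 : ∀ i : Fin 6, τ (some (Sum.inl i)) = some (Sum.inl (π i)))
    (k k' : Fin 15) (i1 i2 : Fin 6) (hi : i2 ≠ i1) (hi' : i2 ≠ synF k i1)
    (hk1 : synF k' (π i1) = π (synF k i1)) (hk2 : synF k' (π i2) = π (synF k i2)) :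
    τ (some (Sum.inr k)) = some (Sum.inr k') := by
  have sec : ∀ i j : Fin 6, i ≠ j →
      (Finset.insertNone (secSet i j)).image τ = Finset.insertNone (secSet (π i) (π j)) := by
    intro i j hij
    have hb : Finset.insertNone (secSet i j) ∈ Bstd :=
      Or.inl ⟨_, Or.inl ⟨i, j, hij, rfl⟩, rfl⟩
    have hb' := hτ _ hb
    have hπij : π i ≠ π j := fun e => hij (hπ e)
    have hb2 : Finset.insertNone (secSet (π i) (π j)) ∈ Bstd :=
      Or.inl ⟨_, Or.inl ⟨π i, π j, hπij, rfl⟩, rfl⟩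
    apply Steiner.eq_of_le_inter hS hb' hb2
    have mi : some (Sum.inl i) ∈ Finset.insertNone (secSet i j) :=
      Finset.some_mem_insertNone.2 (mem_secSet_inl.2 (Or.inl rfl))
    have mj : some (Sum.inl j) ∈ Finset.insertNone (secSet i j) :=
      Finset.some_mem_insertNone.2 (mem_secSet_inl.2 (Or.inr rfl))
    have hsub : ({none, some (Sum.inl (π i)), some (Sum.inl (π j))} : Finset (Option M)) ⊆
        (Finset.insertNone (secSet i j)).image τ ∩ Finset.insertNone (secSet (π i) (π j)) := by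
      intro z hz
      simp only [Finset.mem_insert, Finset.mem_singleton] at hz
      rw [Finset.mem_inter]
      rcases hz with rfl | rfl | rfl
      · exact ⟨Finset.mem_image.2 ⟨none, Finset.none_mem_insertNone, h0⟩,
          Finset.none_mem_insertNone⟩
      · exact ⟨Finset.mem_image.2 ⟨_, mi, h1 i⟩,
          Finset.some_mem_insertNone.2 (mem_secSet_inl.2 (Or.inl rfl))⟩
      · exact ⟨Finset.mem_image.2 ⟨_, mj, h1 j⟩,
          Finset.some_mem_insertNone.2 (mem_secSet_inl.2 (Or.inr rfl))⟩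
    have hc := Finset.card_le_card hsub
    have h3 : ({none, some (Sum.inl (π i)), some (Sum.inl (π j))} : Finset (Option M)).card
        = 3 :=
      Finset.card_eq_three.2 ⟨_, _, _, by simp, by simp,
        fun e => hπij (Sum.inl_injective (Option.some_injective _ e)), rfl⟩
    rw [h3] at hc
    exact hc
  by_contra hne
  have n1 : π i1 ≠ π (synF k i1) := fun e => synF_ne k i1 (hπ e).symm
  have n2 : π i2 ≠ π (synF k i2) := fun e => synF_ne k i2 (hπ e).symm
  have hb1 : Finset.insertNone (secSet (π i1) (π (synF k i1))) ∈ Bstd :=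
    Or.inl ⟨_, Or.inl ⟨_, _, n1, rfl⟩, rfl⟩
  have hb2 : Finset.insertNone (secSet (π i2) (π (synF k i2))) ∈ Bstd :=
    Or.inl ⟨_, Or.inl ⟨_, _, n2, rfl⟩, rfl⟩
  have t1 : τ (some (Sum.inr k)) ∈ Finset.insertNone (secSet (π i1) (π (synF k i1))) := by
    rw [← sec i1 _ (synF_ne k i1).symm]
    exact Finset.mem_image_of_mem _ (Finset.some_mem_insertNone.2 (mem_secSet_inr.2 rfl))
  have t2 : τ (some (Sum.inr k)) ∈ Finset.insertNone (secSet (π i2) (π (synF k i2))) := by
    rw [← sec i2 _ (synF_ne k i2).symm]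
    exact Finset.mem_image_of_mem _ (Finset.some_mem_insertNone.2 (mem_secSet_inr.2 rfl))
  have u1 : some (Sum.inr k') ∈ Finset.insertNone (secSet (π i1) (π (synF k i1))) :=
    Finset.some_mem_insertNone.2 (mem_secSet_inr.2 hk1)
  have u2 : some (Sum.inr k') ∈ Finset.insertNone (secSet (π i2) (π (synF k i2))) :=
    Finset.some_mem_insertNone.2 (mem_secSet_inr.2 hk2)
  have tn : τ (some (Sum.inr k)) ≠ none := by
    intro e
    rw [← h0] at e
    exact absurd (τ.injective e) (by simp)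
  have hsub : ({none, some (Sum.inr k'), τ (some (Sum.inr k))} : Finset (Option M)) ⊆
      Finset.insertNone (secSet (π i1) (π (synF k i1))) ∩
        Finset.insertNone (secSet (π i2) (π (synF k i2))) := by
    intro z hz
    simp only [Finset.mem_insert, Finset.mem_singleton] at hz
    rw [Finset.mem_inter]
    rcases hz with rfl | rfl | rfl
    · exact ⟨Finset.none_mem_insertNone, Finset.none_mem_insertNone⟩
    · exact ⟨u1, u2⟩
    · exact ⟨t1, t2⟩
  have hc := Finset.card_le_card hsub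
  have h3 : ({none, some (Sum.inr k'), τ (some (Sum.inr k))} : Finset (Option M)).card = 3 :=
    Finset.card_eq_three.2 ⟨_, _, _, by simp, Ne.symm tn, Ne.symm hne, rfl⟩
  rw [h3] at hc
  have e := Steiner.eq_of_le_inter hS hb1 hb2 hc
  have m3 : some (Sum.inl (π i2)) ∈ Finset.insertNone (secSet (π i1) (π (synF k i1))) := by
    rw [e]
    exact Finset.some_mem_insertNone.2 (mem_secSet_inl.2 (Or.inl rfl))
  rcases mem_secSet_inl.1 (Finset.some_mem_insertNone.1 m3) with e' | e'
  · exact hi (hπ e')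
  · exact hi' (hπ e')

theorem der_Bstd : der Bstd = LM := by
  ext ℓ
  constructor
  · rintro (⟨ℓ', hℓ', e⟩ | ⟨H, -, e⟩)
    · have h := congrArg Finset.eraseNone e
      rw [Finset.eraseNone_insertNone, Finset.eraseNone_insertNone] at h
      rw [h]
      exact hℓ'
    · exfalso
      have h : none ∈ H.map Function.Embedding.some := by
        rw [← e]
        exact Finset.none_mem_insertNone
      obtain ⟨y, -, e2⟩ := Finset.mem_map.1 h
      exact Option.some_ne_none _ e2
  · intro hℓ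
    exact Or.inl ⟨ℓ, hℓ, rfl⟩

theorem card_OOM : Fintype.card (Option (Option M)) = 23 := by
  rw [Fintype.card_option, card_OM]

/-- Normalisation of a system on twenty-three points with respect to a frame of its derived
system. -/
theorem norm23 {Ω : Type*} [Fintype Ω] [DecidableEq Ω]
    {B1 : Set (Finset (Option Ω))} (hB1 : IsSteinerSystem 4 7 B1) (E : Ω ≃ Option M)
    (hE : (fun b : Finset Ω => b.image E) '' der B1 = Bstd) (x : Ω) (h : Fin 6 → Ω)
    (hb : univ.image h ∈ der B1) (hEx : E x = none) (hEh : ∀ i, E (h i) = some (Sum.inl i))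
    {c0 : Finset (Option Ω)} (hc0 : c0 ∈ B1)
    (hsub0 : ({some x, some (h 0), some (h 1), some (h 2)} : Finset (Option Ω)) ⊆ c0) :
    ∃ H2 : Finset M, (H2 = KA ∨ H2 = KB) ∧ (∀ m : M, m ∈ H2 ↔ some (E.symm (some m)) ∈ c0) ∧
      (fun b : Finset (Option Ω) => b.image (Equiv.optionCongr E)) '' B1 = S23 LM Hstd H2 := by
  have hB2 : IsSteinerSystem 4 7
      ((fun b : Finset (Option Ω) => b.image (Equiv.optionCongr E)) '' B1) := steiner_image _ hB1
  have hder : der ((fun b : Finset (Option Ω) => b.image (Equiv.optionCongr E)) '' B1)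
      = Bstd := by
    rw [der_image, hE]
  have hc : c0.image (Equiv.optionCongr E)
      ∈ (fun b : Finset (Option Ω) => b.image (Equiv.optionCongr E)) '' B1 := ⟨c0, hc0, rfl⟩
  generalize hB2def : (fun b : Finset (Option Ω) => b.image (Equiv.optionCongr E)) '' B1 = B2
    at hB2 hder hc ⊢
  have hS : IsSteinerSystem 3 6 Bstd := by
    rw [← hder]
    exact der_steiner hB2
  have hLMs : IsSteinerSystem 2 5 LM := by
    rw [← der_Bstd]
    exact der_steiner hS
  have hstd : Hstd.map Function.Embedding.some ∈ Bstd := by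
    rw [← hE]
    refine ⟨_, hb, ?_⟩
    show (univ.image h).image E = Hstd.map Function.Embedding.some
    ext z
    rw [Finset.mem_image, Finset.mem_map]
    constructor
    · rintro ⟨y, hy, rfl⟩
      obtain ⟨i, -, rfl⟩ := Finset.mem_image.1 hy
      exact ⟨Sum.inl i, mem_Hstd.2 ⟨i, rfl⟩, (hEh i).symm⟩
    · rintro ⟨m, hm, rfl⟩
      obtain ⟨i, rfl⟩ := mem_Hstd.1 hm
      exact ⟨h i, Finset.mem_image_of_mem _ (Finset.mem_univ i), hEh i⟩
  have hHstd : IsHyp LM Hstd := by
    have h3 := ((cls_iff card_M hS hstd Hstd).1 hstd).1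
    rwa [der_Bstd] at h3
  have h1 : T2 Hstd ∈ B2 := by
    show Hstd.map Function.Embedding.some ∈ der B2
    rw [hder]
    exact hstd
  have mx : some none ∈ c0.image (Equiv.optionCongr E) := by
    refine Finset.mem_image.2 ⟨some x, hsub0 (by simp), ?_⟩
    show some (E x) = some none
    rw [hEx]
  have mi : ∀ i : Fin 6, some (h i) ∈ c0 →
      some (some (Sum.inl i)) ∈ c0.image (Equiv.optionCongr E) := by
    intro i hi
    refine Finset.mem_image.2 ⟨some (h i), hi, ?_⟩
    show some (E (h i)) = some (some (Sum.inl i))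
    rw [hEh]
  have m0 := mi 0 (hsub0 (by simp))
  have m1 := mi 1 (hsub0 (by simp))
  have m2 := mi 2 (hsub0 (by simp))
  have hn : none ∉ c0.image (Equiv.optionCongr E) := by
    intro hn
    have h3 : Finset.eraseNone (c0.image (Equiv.optionCongr E)) ∈ Bstd := by
      rw [← hder]
      show Finset.insertNone (Finset.eraseNone (c0.image (Equiv.optionCongr E))) ∈ B2
      rw [ins_erase hn]
      exact hc
    have k0 : none ∈ Finset.eraseNone (c0.image (Equiv.optionCongr E)) :=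
      Finset.mem_eraseNone.2 mx
    rcases h3 with ⟨ℓ, hℓ, e⟩ | ⟨H, -, e⟩
    · have q0 : Sum.inl 0 ∈ ℓ := by
        rw [← Finset.some_mem_insertNone, ← e]
        exact Finset.mem_eraseNone.2 m0
      have q1 : Sum.inl 1 ∈ ℓ := by
        rw [← Finset.some_mem_insertNone, ← e]
        exact Finset.mem_eraseNone.2 m1
      have q2 : Sum.inl 2 ∈ ℓ := by
        rw [← Finset.some_mem_insertNone, ← e]
        exact Finset.mem_eraseNone.2 m2
      exact no_three hHstd.2 hℓ q0 q1 q2 (mem_Hstd.2 ⟨0, rfl⟩) (mem_Hstd.2 ⟨1, rfl⟩)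
        (mem_Hstd.2 ⟨2, rfl⟩) (by decide) (by decide) (by decide)
    · rw [e] at k0
      obtain ⟨y, -, e2⟩ := Finset.mem_map.1 k0
      exact Option.some_ne_none _ e2
  have hn' : none ∈ Finset.eraseNone (c0.image (Equiv.optionCongr E)) :=
    Finset.mem_eraseNone.2 mx
  have e3 : T3 (Finset.eraseNone (Finset.eraseNone (c0.image (Equiv.optionCongr E))))
      = c0.image (Equiv.optionCongr E) := by
    show (Finset.insertNone (Finset.eraseNone (Finset.eraseNone
      (c0.image (Equiv.optionCongr E))))).map Function.Embedding.some = _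
    rw [ins_erase hn', map_erase hn]
  have h2 : T3 (Finset.eraseNone (Finset.eraseNone (c0.image (Equiv.optionCongr E)))) ∈ B2 := by
    rw [e3]
    exact hc
  have heq := ext_eq card_M hB2 h1 h2
  rw [hder, der_Bstd] at heq
  refine ⟨Finset.eraseNone (Finset.eraseNone (c0.image (Equiv.optionCongr E))), ?_, ?_, heq⟩
  · have hH2 : IsHyp LM (Finset.eraseNone (Finset.eraseNone
        (c0.image (Equiv.optionCongr E)))) := by
      have h5 := h2
      rw [heq] at h5
      rcases h5 with ⟨ℓ, -, e⟩ | ⟨H, -, e⟩ | ⟨H, hH, e⟩ | ⟨X, -, e⟩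
      · exact absurd (by rw [e]; exact none_mem_T1 ℓ) (none_not_mem_T3 _)
      · exact absurd (by rw [e]; exact none_mem_T2 H) (none_not_mem_T3 _)
      · have e4 := congrArg (fun s => Finset.eraseNone (Finset.eraseNone s)) e
        simp only [er_T3] at e4
        rw [e4]
        exact hH.1
      · exact absurd (by rw [← e]; exact some_none_mem_T3 _) (some_none_not_mem_lift2 X)
    have q0 : Sum.inl 0 ∈ Finset.eraseNone (Finset.eraseNone
        (c0.image (Equiv.optionCongr E))) := mem_T3.1 (by rw [e3]; exact m0)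
    have q1 : Sum.inl 1 ∈ Finset.eraseNone (Finset.eraseNone
        (c0.image (Equiv.optionCongr E))) := mem_T3.1 (by rw [e3]; exact m1)
    have q2 : Sum.inl 2 ∈ Finset.eraseNone (Finset.eraseNone
        (c0.image (Equiv.optionCongr E))) := mem_T3.1 (by rw [e3]; exact m2)
    have hne : Finset.eraseNone (Finset.eraseNone (c0.image (Equiv.optionCongr E))) ≠ Hstd := by
      intro e
      rw [e] at h2
      have hne' : T2 Hstd ≠ T3 Hstd := fun e' =>
        none_not_mem_T3 Hstd (by rw [← e']; exact none_mem_T2 Hstd)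
      have h6 := Cfsg.Agent.S0355.result card_OOM hB2 h1 h2 hne'
      have hsub : lift2 Hstd ⊆ T2 Hstd ∩ T3 Hstd := by
        intro z hz
        obtain ⟨y, hy, rfl⟩ := Finset.mem_map.1 hz
        obtain ⟨m, hm, rfl⟩ := Finset.mem_map.1 hy
        exact Finset.mem_inter.2 ⟨mem_T2.2 hm, mem_T3.2 hm⟩
      have h7 := Finset.card_le_card hsub
      rw [card_lift2, hHstd.1] at h7
      omega
    exact hyp_cases hLMs hHstd hH2 q0 q1 q2 hne
  · intro m
    rw [← mem_T3 (H := Finset.eraseNone (Finset.eraseNone (c0.image (Equiv.optionCongr E)))),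
      e3, Finset.mem_image]
    constructor
    · rintro ⟨y, hy, e⟩
      rcases y with _ | y
      · exact absurd e (by simp)
      · have e' : E y = some m := Option.some_injective _ e
        rw [← e', Equiv.symm_apply_apply]
        exact hy
    · intro hm
      refine ⟨_, hm, ?_⟩
      show some (E (E.symm (some m))) = some (some m)
      rw [Equiv.apply_symm_apply]

/-- Every system with the parameters in question is isomorphic to the standard one. -/
theorem to_std23 {α : Type*} [Fintype α] [DecidableEq α] (hα : Fintype.card α = 23)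
    {B : Set (Finset α)} (hB : IsSteinerSystem 4 7 B) :
    ∃ E : α ≃ Option (Option M), (fun b : Finset α => b.image E) '' B = S23 LM Hstd KA := by
  have c22 : Fintype.card (Fin 22) = 22 := Fintype.card_fin 22
  have c23 : Fintype.card (Option (Fin 22)) = 23 := by rw [Fintype.card_option, c22]
  have e0 : α ≃ Option (Fin 22) := Fintype.equivOfCardEq (by rw [hα, c23])
  have hB1 : IsSteinerSystem 4 7 ((fun b : Finset α => b.image e0) '' B) := steiner_image e0 hB
  generalize hB1def : (fun b : Finset α => b.image e0) '' B = B1 at hB1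
  have hD1 : IsSteinerSystem 3 6 (der B1) := der_steiner hB1
  have hne : (Fr (der B1)).Nonempty := by
    by_contra h
    rw [Set.not_nonempty_iff_eq_empty] at h
    have h' := frames_card c22 hD1
    rw [h, Set.ncard_empty] at h'
    omega
  obtain ⟨⟨x, h⟩, hinj, hb, hx⟩ := hne
  have hinj' : Function.Injective h := hinj
  have hb' : univ.image h ∈ der B1 := hb
  have hx' : x ∉ univ.image h := hx
  have hxi : ∀ i, x ≠ h i := fun i e =>
    hx' (e ▸ Finset.mem_image_of_mem h (Finset.mem_univ i))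
  have d01 : (some (h 0) : Option (Fin 22)) ≠ some (h 1) := fun e =>
    absurd (hinj' (Option.some_injective _ e)) (by decide)
  have d02 : (some (h 0) : Option (Fin 22)) ≠ some (h 2) := fun e =>
    absurd (hinj' (Option.some_injective _ e)) (by decide)
  have d12 : (some (h 1) : Option (Fin 22)) ≠ some (h 2) := fun e =>
    absurd (hinj' (Option.some_injective _ e)) (by decide)
  have nx : some x ∉ ({some (h 0), some (h 1), some (h 2)} : Finset (Option (Fin 22))) := by
    simp only [Finset.mem_insert, Finset.mem_singleton, not_or]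
    exact ⟨fun e => hxi 0 (Option.some_injective _ e), fun e => hxi 1 (Option.some_injective _ e),
      fun e => hxi 2 (Option.some_injective _ e)⟩
  have hs4 : ({some x, some (h 0), some (h 1), some (h 2)} : Finset (Option (Fin 22))).card
      = 4 := by
    rw [Finset.card_insert_of_notMem nx, Finset.card_eq_three.2 ⟨_, _, _, d01, d02, d12, rfl⟩]
  obtain ⟨c0, ⟨hc0, hsub0⟩, -⟩ := hB1.2 _ hs4
  obtain ⟨E1, a1, b1, d1⟩ := to_std_frame c22 hD1 x h hinj' hb' hx'
  have hinj2 : Function.Injective (h ∘ ⇑(Equiv.swap (3 : Fin 6) 4)) :=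
    hinj'.comp (Equiv.injective _)
  have him2 : univ.image (h ∘ ⇑(Equiv.swap (3 : Fin 6) 4)) = univ.image h := by
    ext y
    rw [Finset.mem_image, Finset.mem_image]
    constructor
    · rintro ⟨i, -, rfl⟩
      exact ⟨_, Finset.mem_univ _, rfl⟩
    · rintro ⟨i, -, rfl⟩
      refine ⟨Equiv.swap (3 : Fin 6) 4 i, Finset.mem_univ _, ?_⟩
      show h (Equiv.swap (3 : Fin 6) 4 (Equiv.swap (3 : Fin 6) 4 i)) = h i
      rw [Equiv.swap_apply_self]
  have hb2 : univ.image (h ∘ ⇑(Equiv.swap (3 : Fin 6) 4)) ∈ der B1 := by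
    rw [him2]
    exact hb'
  have hx2 : x ∉ univ.image (h ∘ ⇑(Equiv.swap (3 : Fin 6) 4)) := by
    rw [him2]
    exact hx'
  obtain ⟨E2, a2, b2, d2⟩ := to_std_frame c22 hD1 x (h ∘ ⇑(Equiv.swap (3 : Fin 6) 4)) hinj2 hb2 hx2
  have s0 : (h ∘ ⇑(Equiv.swap (3 : Fin 6) 4)) 0 = h 0 := by
    show h (Equiv.swap (3 : Fin 6) 4 0) = h 0
    rw [Equiv.swap_apply_of_ne_of_ne (by decide) (by decide)]
  have s1 : (h ∘ ⇑(Equiv.swap (3 : Fin 6) 4)) 1 = h 1 := by
    show h (Equiv.swap (3 : Fin 6) 4 1) = h 1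
    rw [Equiv.swap_apply_of_ne_of_ne (by decide) (by decide)]
  have s2 : (h ∘ ⇑(Equiv.swap (3 : Fin 6) 4)) 2 = h 2 := by
    show h (Equiv.swap (3 : Fin 6) 4 2) = h 2
    rw [Equiv.swap_apply_of_ne_of_ne (by decide) (by decide)]
  have hsub2 : ({some x, some ((h ∘ ⇑(Equiv.swap (3 : Fin 6) 4)) 0),
      some ((h ∘ ⇑(Equiv.swap (3 : Fin 6) 4)) 1), some ((h ∘ ⇑(Equiv.swap (3 : Fin 6) 4)) 2)} :
      Finset (Option (Fin 22))) ⊆ c0 := by
    rw [s0, s1, s2]
    exact hsub0
  obtain ⟨H2, hH2, hm2, heq2⟩ := norm23 hB1 E1 d1 x h hb' a1 b1 hc0 hsub0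
  obtain ⟨H2', hH2', hm2', heq2'⟩ := norm23 hB1 E2 d2 x _ hb2 a2 b2 hc0 hsub2
  have fin : ∀ E : Fin 22 ≃ Option M,
      (fun b : Finset (Option (Fin 22)) => b.image (Equiv.optionCongr E)) '' B1
        = S23 LM Hstd KA →
      ∃ E' : α ≃ Option (Option M), (fun b : Finset α => b.image E') '' B = S23 LM Hstd KA := by
    intro E hE
    refine ⟨e0.trans (Equiv.optionCongr E), ?_⟩
    rw [image_trans_set, hB1def, hE]
  rcases hH2 with rfl | rfl
  · exact fin E1 heq2
  rcases hH2' with rfl | rfl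
  · exact fin E2 heq2'
  exfalso
  have hS : IsSteinerSystem 3 6 Bstd := d1 ▸ steiner_image E1 hD1
  have hτ : ∀ b ∈ Bstd, b.image (E1.symm.trans E2) ∈ Bstd := by
    intro b hb
    rw [← d1] at hb
    obtain ⟨b0, hb0, rfl⟩ := hb
    rw [← d2]
    refine ⟨b0, hb0, ?_⟩
    show b0.image E2 = (b0.image E1).image (E1.symm.trans E2)
    rw [Finset.image_image]
    congr 1
    funext z
    simp
  have k0 : (E1.symm.trans E2) none = none := by
    show E2 (E1.symm none) = none
    rw [E1.symm_apply_eq.2 a1.symm, a2]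
  have k1 : ∀ i : Fin 6, (E1.symm.trans E2) (some (Sum.inl i))
      = some (Sum.inl (Equiv.swap (3 : Fin 6) 4 i)) := by
    intro i
    show E2 (E1.symm (some (Sum.inl i))) = _
    rw [E1.symm_apply_eq.2 (b1 i).symm]
    have h5 := b2 (Equiv.swap (3 : Fin 6) 4 i)
    have h6 : (h ∘ ⇑(Equiv.swap (3 : Fin 6) 4)) (Equiv.swap (3 : Fin 6) 4 i) = h i := by
      show h (Equiv.swap (3 : Fin 6) 4 (Equiv.swap (3 : Fin 6) 4 i)) = h i
      rw [Equiv.swap_apply_self]
    rw [h6] at h5
    exact h5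
  have key := conj_point hS (E1.symm.trans E2) hτ k0 (⇑(Equiv.swap (3 : Fin 6) 4))
    (Equiv.injective _) k1 10 7 0 1 (by decide) (by decide) (by decide) (by decide)
  have p1 : some (E1.symm (some (Sum.inr 10))) ∈ c0 := (hm2 _).1 KB_mem.2.2.2.2.1
  have p2 : E1.symm (some (Sum.inr 10)) = E2.symm (some (Sum.inr 7)) := by
    rw [Equiv.eq_symm_apply]
    exact key
  rw [p2] at p1
  exact KB_mem.2.2.2.2.2.2 ((hm2' _).2 p1)

/-- Uniqueness of the Steiner system S(4, 7, 23) up to isomorphism. -/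
theorem result {α β : Type*} [Fintype α] [DecidableEq α] [Fintype β] [DecidableEq β] (hα : Fintype.card α = 23) (hβ : Fintype.card β = 23) {B : Set (Finset α)} {B' : Set (Finset β)} (hB : Cfsg.IsSteinerSystem 4 7 B) (hB' : Cfsg.IsSteinerSystem 4 7 B') : Cfsg.SetSystemIso B B' := by
  obtain ⟨E, hE⟩ := to_std23 hα hB
  obtain ⟨E', hE'⟩ := to_std23 hβ hB'
  show ∃ e : α ≃ β, (fun b => b.image e) '' B = B'
  refine ⟨E.trans E'.symm, ?_⟩
  ext C
  constructor
  · rintro ⟨b, hb, rfl⟩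
    have m1 : b.image E ∈ S23 LM Hstd KA := by
      rw [← hE]
      exact ⟨b, hb, rfl⟩
    rw [← hE'] at m1
    obtain ⟨b', hb', e1⟩ := m1
    show b.image (E.trans E'.symm) ∈ B'
    rw [image_trans_symm E E' b b' e1]
    exact hb'
  · intro hC
    have m1 : C.image E' ∈ S23 LM Hstd KA := by
      rw [← hE']
      exact ⟨C, hC, rfl⟩
    rw [← hE] at m1
    obtain ⟨b, hb, e1⟩ := m1
    exact ⟨b, hb, image_trans_symm E E' b C e1.symm⟩
end Cfsg.Agent.S0409
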