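import Cfsg.Statements.S0767

set_option autoImplicit false
open Cfsg

namespace Cfsg.Agent.S0767

open Matrix in
theorem dotProduct_J_mulVec_self {F : Type*} [CommRing F] (m : ℕ) (v : Fin m ⊕ Fin m → F) :
    v ⬝ᵥ (Matrix.J (Fin m) F *ᵥ v) = 0 := by
  simp only [Matrix.J, dotProduct, Matrix.mulVec, Fintype.sum_sum_type, Matrix.fromBlocks_apply₁₁,
    Matrix.fromBlocks_apply₁₂, Matrix.fromBlocks_apply₂₁, Matrix.fromBlocks_apply₂₂, Matrix.zero_apply,
    zero_mul, Finset.sum_const_zero, zero_add, add_zero, Matrix.neg_apply, Matrix.one_apply, neg_mul,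
    ite_mul, one_mul, Finset.sum_neg_distrib, Finset.sum_ite_eq, Finset.mem_univ, if_true, mul_neg]
  rw [← sub_eq_neg_add]
  rw [sub_eq_zero]
  apply Finset.sum_congr rfl
  intro i _
  ring

/-- The root group of a point: T_v(c) T_v(d) = T_v(c + d), and for A in the symplectic group with A v = a v, the conjugate A T_v(c) A⁻¹ is again some T_v(d). -/
theorem result {F : Type*} [Field F] (m : ℕ) (v : Fin m ⊕ Fin m → F) : (∀ c d : F, Cfsg.sympTransvection m v c * Cfsg.sympTransvection m v d = Cfsg.sympTransvection m v (c + d)) ∧ ∀ (A : Matrix (Fin m ⊕ Fin m) (Fin m ⊕ Fin m) F) (a : F), A ∈ Matrix.symplecticGroup (Fin m) F → A.mulVec v = a • v → ∀ c : F, ∃ d : F, A * Cfsg.sympTransvection m v c * A⁻¹ = Cfsg.sympTransvection m v d := by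
  constructor
  · intro c d
    unfold Cfsg.sympTransvection
    set w := Matrix.mulVec (Matrix.J (Fin m) F) v with hw
    have hwv : dotProduct w v = 0 := by
      rw [dotProduct_comm, hw]; exact dotProduct_J_mulVec_self m v
    rw [add_mul, one_mul, mul_add, mul_one, Matrix.smul_mul, Matrix.mul_smul,
      Matrix.vecMulVec_mul_vecMulVec, hwv]
    simp only [zero_smul, smul_zero, add_zero, Matrix.vecMulVec_zero]
    rw [add_smul, add_assoc, add_comm (c • _)]
  · intro A a hA hAv c
    refine ⟨c * a * a, ?_⟩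
    unfold Cfsg.sympTransvection
    set w := Matrix.mulVec (Matrix.J (Fin m) F) v with hw
    have hdet : IsUnit A.det := SymplecticGroup.symplectic_det hA
    have hAinv : A * A⁻¹ = 1 := Matrix.mul_nonsing_inv A hdet
    have hA' : A.transpose * Matrix.J (Fin m) F * A = Matrix.J (Fin m) F :=
      SymplecticGroup.mem_iff'.mp hA
    have h1 : w = a • (Matrix.vecMul w A) := by
      have e1 : Matrix.vecMul w A = Matrix.mulVec (A.transpose * Matrix.J (Fin m) F) v := by
        rw [hw, ← Matrix.mulVec_transpose, Matrix.mulVec_mulVec]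
      rw [e1, ← Matrix.mulVec_smul, ← hAv, Matrix.mulVec_mulVec, hA']
    have h2 : Matrix.vecMul w A⁻¹ = a • w := by
      conv_lhs => rw [h1]
      rw [Matrix.smul_vecMul, Matrix.vecMul_vecMul, hAinv, Matrix.vecMul_one]
    rw [mul_add, mul_one, add_mul, hAinv, Matrix.mul_smul, Matrix.smul_mul, Matrix.mul_vecMulVec,
      Matrix.vecMulVec_mul, hAv, h2, Matrix.smul_vecMulVec, Matrix.vecMulVec_smul, smul_smul, smul_smul]

end Cfsg.Agent.S0767
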