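import Mathlib
import Cfsg.Statements.S0768
import Cfsg.Agent.S0749
import Cfsg.Agent.S0766

set_option autoImplicit false
open scoped LinearAlgebra.Projectivization
open scoped Pointwise
open Cfsg

namespace Cfsg.Agent.S0768

section aux

variable {F : Type*} [Field F] (m : ℕ)

def BJ : LinearMap.BilinForm F (Fin m ⊕ Fin m → F) := Matrix.toBilin' (Matrix.J (Fin m) F)

theorem BJ_apply (x y : Fin m ⊕ Fin m → F) : BJ (F := F) m x y = Cfsg.sympForm m F x y := by
  unfold BJ Cfsg.sympForm
  rw [Matrix.toBilin'_apply']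

theorem BJ_alt : (BJ (F := F) m).IsAlt := fun x => by
  rw [BJ_apply]
  exact Cfsg.Agent.S0766.form_self m x

theorem BJ_nondeg : (BJ (F := F) m).Nondegenerate := by
  refine ⟨fun x hx => ?_, fun y hy => ?_⟩
  · by_contra h0
    obtain ⟨y, hy⟩ := Cfsg.Agent.S0766.form_nondeg m x h0
    exact hy (by rw [← BJ_apply]; exact hx y)
  · by_contra h0
    obtain ⟨x, hx⟩ := Cfsg.Agent.S0766.form_nondeg m y h0
    apply hx
    rw [← BJ_apply, ← (BJ_alt (F := F) m).neg_eq x y, hy x, neg_zero]

noncomputable def toGL (g : (Fin m ⊕ Fin m → F) ≃ₗ[F] (Fin m ⊕ Fin m → F)) :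
    Matrix.GeneralLinearGroup (Fin m ⊕ Fin m) F :=
  ⟨LinearMap.toMatrix' g.toLinearMap, LinearMap.toMatrix' g.symm.toLinearMap,
    by rw [← LinearMap.toMatrix'_comp]; simp,
    by rw [← LinearMap.toMatrix'_comp]; simp⟩

theorem toGL_mulVec (g : (Fin m ⊕ Fin m → F) ≃ₗ[F] (Fin m ⊕ Fin m → F))
    (x : Fin m ⊕ Fin m → F) :
    ((toGL m g : Matrix.GeneralLinearGroup (Fin m ⊕ Fin m) F) :
      Matrix (Fin m ⊕ Fin m) (Fin m ⊕ Fin m) F).mulVec x = g x := by
  change (LinearMap.toMatrix' g.toLinearMap).mulVec x = g x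
  rw [← Matrix.toLin'_apply, Matrix.toLin'_toMatrix']
  rfl

theorem smul_mk' (g : ↥(Cfsg.spGL m F)) (v : Fin m ⊕ Fin m → F) (hv : v ≠ 0) :
    g • Projectivization.mk F v hv
      = Projectivization.mk F (g • v) ((smul_ne_zero_iff_ne g).mpr hv) := rfl

theorem trans (u w w' : Fin m ⊕ Fin m → F)
    (hind : ∀ a b : F, a • u + b • w' = 0 → a = 0 ∧ b = 0)
    (hw : w ∉ Submodule.span F {u})
    (hB : Cfsg.sympForm m F u w = Cfsg.sympForm m F u w') :
    ∃ g : ↥(Cfsg.spGL m F), g • u = u ∧ g • w = w' := by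
  obtain ⟨f, hf1, hf2⟩ := LinearMap.exists_extend_of_notMem (Submodule.span F {u}).subtype hw w'
  have hfu : f u = u := by
    have := LinearMap.congr_fun hf1 ⟨u, Submodule.mem_span_singleton_self u⟩
    simpa using this
  set X := Submodule.span F {u, w} with hX
  have hdec : ∀ x ∈ X, ∃ a b : F, x = a • u + b • w := by
    intro x hx
    obtain ⟨a, b, h⟩ := Submodule.mem_span_pair.mp hx
    exact ⟨a, b, h.symm⟩
  have hval : ∀ a b : F, f (a • u + b • w) = a • u + b • w' := by
    intro a b
    rw [map_add, map_smul, map_smul, hfu, hf2]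
  have hskew : ∀ x y : Fin m ⊕ Fin m → F, BJ m x y = - BJ m y x :=
    fun x y => ((BJ_alt (F := F) m).neg_eq y x).symm
  have hBB : BJ m u w = BJ m u w' := by
    rw [BJ_apply, BJ_apply]
    exact hB
  have hiso : ∀ x ∈ X, ∀ x' ∈ X, BJ m (f x) (f x') = BJ m x x' := by
    intro x hx x' hx'
    obtain ⟨a, b, rfl⟩ := hdec x hx
    obtain ⟨a', b', rfl⟩ := hdec x' hx'
    rw [hval, hval]
    simp only [map_add, map_smul, LinearMap.add_apply, LinearMap.smul_apply, smul_eq_mul]
    rw [(BJ_alt (F := F) m) u, (BJ_alt (F := F) m) w, (BJ_alt (F := F) m) w', hskew w u,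
      hskew w' u, hBB]
  have hinj : ∀ x ∈ X, f x = 0 → x = 0 := by
    intro x hx h0
    obtain ⟨a, b, rfl⟩ := hdec x hx
    rw [hval] at h0
    obtain ⟨ha, hb⟩ := hind a b h0
    rw [ha, hb, zero_smul, zero_smul, add_zero]
  obtain ⟨g, hg1, hg2⟩ := Cfsg.Agent.S0749.extend_aux (BJ m) (BJ_nondeg m) (BJ_alt m)
    (Module.finrank F (Fin m ⊕ Fin m → F)) X f (by omega) hiso hinj
  have hmem : toGL m g ∈ Cfsg.spGL m F := by
    intro x y
    change Cfsg.sympForm m F (((toGL m g : Matrix.GeneralLinearGroup (Fin m ⊕ Fin m) F) :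
      Matrix (Fin m ⊕ Fin m) (Fin m ⊕ Fin m) F).mulVec x)
      (((toGL m g : Matrix.GeneralLinearGroup (Fin m ⊕ Fin m) F) :
      Matrix (Fin m ⊕ Fin m) (Fin m ⊕ Fin m) F).mulVec y) = Cfsg.sympForm m F x y
    rw [toGL_mulVec, toGL_mulVec, ← BJ_apply, hg1, BJ_apply]
  refine ⟨⟨toGL m g, hmem⟩, ?_, ?_⟩
  · change ((toGL m g : Matrix.GeneralLinearGroup (Fin m ⊕ Fin m) F) :
      Matrix (Fin m ⊕ Fin m) (Fin m ⊕ Fin m) F).mulVec u = u
    rw [toGL_mulVec, hg2 u (Submodule.subset_span (by simp)), hfu]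
  · change ((toGL m g : Matrix.GeneralLinearGroup (Fin m ⊕ Fin m) F) :
      Matrix (Fin m ⊕ Fin m) (Fin m ⊕ Fin m) F).mulVec w = w'
    rw [toGL_mulVec, hg2 w (Submodule.subset_span (by simp)), hf2]

theorem lemA (u w w' : Fin m ⊕ Fin m → F) (hu : u ≠ 0) (hw : w ≠ 0) (hw' : w' ≠ 0)
    (h1 : Cfsg.sympForm m F u w ≠ 0) (h2 : Cfsg.sympForm m F u w' ≠ 0) :
    ∃ g : ↥(Cfsg.spGL m F), g • Projectivization.mk F u hu = Projectivization.mk F u hu ∧
      g • Projectivization.mk F w hw = Projectivization.mk F w' hw' := by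
  set c := Cfsg.sympForm m F u w / Cfsg.sympForm m F u w' with hc
  have hc0 : c ≠ 0 := div_ne_zero h1 h2
  have e1 : Cfsg.sympForm m F u (c • w') = c * Cfsg.sympForm m F u w' := by
    rw [← BJ_apply, ← BJ_apply, map_smul, smul_eq_mul]
  obtain ⟨g, hg1, hg2⟩ := trans m u w (c • w') (by
      intro a b hab
      have h3 := congrArg (fun z => BJ m u z) hab
      simp only [map_add, map_smul, smul_eq_mul, map_zero] at h3
      rw [(BJ_alt (F := F) m) u, BJ_apply] at h3
      have hb : b = 0 := by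
        have h4 : b * (c * Cfsg.sympForm m F u w') = 0 := by linear_combination h3
        rcases mul_eq_zero.mp h4 with h5 | h5
        · exact h5
        · exact absurd h5 (mul_ne_zero hc0 h2)
      rw [hb, zero_smul, add_zero] at hab
      exact ⟨(smul_eq_zero.mp hab).resolve_right hu, hb⟩) (by
      intro hmem
      obtain ⟨a, rfl⟩ := Submodule.mem_span_singleton.mp hmem
      apply h1
      rw [← BJ_apply, map_smul, (BJ_alt (F := F) m) u, smul_zero]) (by
      rw [e1, hc]
      field_simp)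
  refine ⟨g, ?_, ?_⟩
  · rw [smul_mk', Projectivization.mk_eq_mk_iff']
    exact ⟨1, by rw [one_smul, hg1]⟩
  · rw [smul_mk', Projectivization.mk_eq_mk_iff']
    exact ⟨c, hg2.symm⟩

theorem lemB (u w w' : Fin m ⊕ Fin m → F) (hu : u ≠ 0) (hw : w ≠ 0) (hw' : w' ≠ 0)
    (h1 : Cfsg.sympForm m F u w = 0) (h2 : Cfsg.sympForm m F u w' = 0)
    (hne : Projectivization.mk F w hw ≠ Projectivization.mk F u hu)
    (hne' : Projectivization.mk F w' hw' ≠ Projectivization.mk F u hu) :
    ∃ g : ↥(Cfsg.spGL m F), g • Projectivization.mk F u hu = Projectivization.mk F u hu ∧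
      g • Projectivization.mk F w hw = Projectivization.mk F w' hw' := by
  obtain ⟨g, hg1, hg2⟩ := trans m u w w' (by
      intro a b hab
      by_cases hb : b = 0
      · rw [hb, zero_smul, add_zero] at hab
        exact ⟨(smul_eq_zero.mp hab).resolve_right hu, hb⟩
      · exfalso
        apply hne'
        rw [Projectivization.mk_eq_mk_iff']
        refine ⟨-(b⁻¹ * a), ?_⟩
        have h3 : b • w' = -(a • u) := by
          rw [eq_neg_iff_add_eq_zero, add_comm]
          exact hab
        calc -(b⁻¹ * a) • u = b⁻¹ • (-(a • u)) := by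
              rw [neg_smul, mul_smul, smul_neg]
          _ = b⁻¹ • (b • w') := by rw [h3]
          _ = w' := by rw [smul_smul, inv_mul_cancel₀ hb, one_smul]) (by
      intro hmem
      obtain ⟨a, rfl⟩ := Submodule.mem_span_singleton.mp hmem
      apply hne
      rw [Projectivization.mk_eq_mk_iff']
      exact ⟨a, rfl⟩) (by rw [h1, h2])
  refine ⟨g, ?_, ?_⟩
  · rw [smul_mk', Projectivization.mk_eq_mk_iff']
    exact ⟨1, by rw [one_smul, hg1]⟩
  · rw [smul_mk', Projectivization.mk_eq_mk_iff']
    exact ⟨1, by rw [one_smul, hg2]⟩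

theorem exE1 (u w : Fin m ⊕ Fin m → F) (hu : u ≠ 0) (hw : w ≠ 0) :
    ∃ s, Cfsg.sympForm m F u s ≠ 0 ∧ Cfsg.sympForm m F w s ≠ 0 := by
  obtain ⟨a, ha⟩ := Cfsg.Agent.S0766.form_nondeg m u hu
  obtain ⟨b, hb⟩ := Cfsg.Agent.S0766.form_nondeg m w hw
  by_cases h1 : Cfsg.sympForm m F w a = 0
  · by_cases h2 : Cfsg.sympForm m F u b = 0
    · refine ⟨a + b, ?_, ?_⟩
      · rw [Cfsg.Agent.S0766.form_add_right, h2, add_zero]
        exact ha
      · rw [Cfsg.Agent.S0766.form_add_right, h1, zero_add]
        exact hb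
    · exact ⟨b, h2, hb⟩
  · exact ⟨a, ha, h1⟩

theorem exE2 (u v : Fin m ⊕ Fin m → F) (hu : u ≠ 0)
    (hv : v ∉ Submodule.span F {u}) :
    ∃ r, Cfsg.sympForm m F v r = 0 ∧ Cfsg.sympForm m F u r ≠ 0 := by
  have hrefl : (BJ (F := F) m).IsRefl := (BJ_alt m).isRefl
  have hoo := LinearMap.BilinForm.orthogonal_orthogonal (BJ_nondeg (F := F) m) hrefl
    (Submodule.span F {u})
  have hv' : v ∉ (BJ (F := F) m).orthogonal ((BJ (F := F) m).orthogonal (Submodule.span F {u})) := by
    rw [hoo]
    exact hv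
  rw [LinearMap.BilinForm.mem_orthogonal_iff] at hv'
  push Not at hv'
  obtain ⟨b, hb1, hb2⟩ := hv'
  rw [LinearMap.BilinForm.mem_orthogonal_iff] at hb1
  have hub : Cfsg.sympForm m F u b = 0 := by
    rw [← BJ_apply]
    exact hb1 u (Submodule.mem_span_singleton_self u)
  have hbv : Cfsg.sympForm m F v b ≠ 0 := by
    intro h0
    apply hb2
    change BJ m b v = 0
    rw [← (BJ_alt (F := F) m).neg_eq v b, BJ_apply, h0, neg_zero]
  obtain ⟨a, ha⟩ := Cfsg.Agent.S0766.form_nondeg m u hu
  refine ⟨a - (Cfsg.sympForm m F v a / Cfsg.sympForm m F v b) • b, ?_, ?_⟩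
  · rw [← BJ_apply, map_sub, map_smul, BJ_apply, BJ_apply, smul_eq_mul]
    field_simp
    ring
  · rw [← BJ_apply, map_sub, map_smul, BJ_apply, BJ_apply, hub, smul_zero, sub_zero]
    exact ha

end aux

/-- Primitivity: for m ≥ 1 and F finite, the symplectic group of the form sympForm (as a subgroup of the general linear group) acts primitively on the projective space of F^(2m). -/
theorem result {F : Type*} [Field F] [Finite F] (m : ℕ) (hm : 1 ≤ m) : MulAction.IsPreprimitive ↥(Cfsg.spGL m F) (ℙ F (Fin m ⊕ Fin m → F)) := by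
  have hskew : ∀ x y : Fin m ⊕ Fin m → F, Cfsg.sympForm m F x y = - Cfsg.sympForm m F y x := by
    intro x y
    rw [← BJ_apply, ← BJ_apply]
    exact ((BJ_alt (F := F) m).neg_eq y x).symm
  have htrans : ∀ p q : ℙ F (Fin m ⊕ Fin m → F), ∃ g : ↥(Cfsg.spGL m F), g • p = q := by
    intro p q
    induction p using Projectivization.ind with
    | h u hu =>
      induction q using Projectivization.ind with
      | h w hw =>
        obtain ⟨s, hs1, hs2⟩ := exE1 m u w hu hw
        have hs : s ≠ 0 := by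
          rintro rfl
          apply hs1
          rw [← BJ_apply, map_zero]
        obtain ⟨g, -, hg⟩ := lemA m s u w hs hu hw
          (by rw [hskew]; exact neg_ne_zero.mpr hs1) (by rw [hskew]; exact neg_ne_zero.mpr hs2)
        exact ⟨g, hg⟩
  refine { toIsPretransitive := ⟨htrans⟩, isTrivialBlock_of_isBlock := ?_ }
  intro Bl hBl
  by_cases hsub : Bl.Subsingleton
  · exact Or.inl hsub
  · right
    rw [Set.not_subsingleton_iff] at hsub
    obtain ⟨p, hp, q, hq, hpq⟩ := hsub
    have fact1 : ∀ (g : ↥(Cfsg.spGL m F)) (a b : ℙ F (Fin m ⊕ Fin m → F)), a ∈ Bl → b ∈ Bl →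
        g • a = a → g • b ∈ Bl := by
      intro g a b ha hb hga
      have h1 : g • Bl = Bl := hBl.smul_eq_of_mem ha (by rw [hga]; exact ha)
      rw [← h1]
      exact Set.smul_mem_smul_set hb
    -- step 1: a non-perpendicular pair in the block
    have step1 : ∃ (u r : Fin m ⊕ Fin m → F) (hu : u ≠ 0) (hr : r ≠ 0),
        Projectivization.mk F u hu ∈ Bl ∧ Projectivization.mk F r hr ∈ Bl ∧
        Cfsg.sympForm m F u r ≠ 0 := by
      induction p using Projectivization.ind with
      | h u hu =>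
        induction q using Projectivization.ind with
        | h v hv =>
          by_cases huv : Cfsg.sympForm m F u v = 0
          · have hvu : v ∉ Submodule.span F {u} := by
              intro hmem
              obtain ⟨a, rfl⟩ := Submodule.mem_span_singleton.mp hmem
              apply hpq
              rw [Projectivization.mk_eq_mk_iff']
              have ha : a ≠ 0 := by
                rintro rfl
                exact hv (zero_smul _ _)
              exact ⟨a⁻¹, by rw [smul_smul, inv_mul_cancel₀ ha, one_smul]⟩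
            obtain ⟨r, hr1, hr2⟩ := exE2 m u v hu hvu
            have hr : r ≠ 0 := by
              rintro rfl
              apply hr2
              rw [← BJ_apply, map_zero]
            have hne1 : Projectivization.mk F u hu ≠ Projectivization.mk F v hv := hpq
            have hne2 : Projectivization.mk F r hr ≠ Projectivization.mk F v hv := by
              intro heq
              rw [Projectivization.mk_eq_mk_iff'] at heq
              obtain ⟨a, ha⟩ := heq
              apply hr2
              rw [← ha, ← BJ_apply, map_smul, BJ_apply, huv, smul_zero]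
            obtain ⟨g, hg1, hg2⟩ := lemB m v u r hv hu hr (by rw [hskew, huv, neg_zero]) hr1
              hne1 hne2
            have hmem := fact1 g _ _ hq hp hg1
            rw [hg2] at hmem
            exact ⟨u, r, hu, hr, hp, hmem, hr2⟩
          · exact ⟨u, v, hu, hv, hp, hq, huv⟩
    obtain ⟨u, r, hu, hr, hup, hrp, hur⟩ := step1
    have stepa : ∀ (w : Fin m ⊕ Fin m → F) (hw : w ≠ 0), Cfsg.sympForm m F u w ≠ 0 →
        Projectivization.mk F w hw ∈ Bl := by
      intro w hw huw
      obtain ⟨g, hg1, hg2⟩ := lemA m u r w hu hr hw hur huw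
      have hmem := fact1 g _ _ hup hrp hg1
      rw [hg2] at hmem
      exact hmem
    rw [Set.eq_univ_iff_forall]
    intro x
    induction x using Projectivization.ind with
    | h w hw =>
      by_cases huw : Cfsg.sympForm m F u w = 0
      · obtain ⟨s, hs1, hs2⟩ := exE1 m u w hu hw
        have hs : s ≠ 0 := by
          rintro rfl
          apply hs1
          rw [← BJ_apply, map_zero]
        have hsBl := stepa s hs hs1
        obtain ⟨g, hg1, hg2⟩ := lemA m s u w hs hu hw
          (by rw [hskew]; exact neg_ne_zero.mpr hs1) (by rw [hskew]; exact neg_ne_zero.mpr hs2)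
        have hmem := fact1 g _ _ hsBl hup hg1
        rw [hg2] at hmem
        exact hmem
      · exact stepa w hw huw

end Cfsg.Agent.S0768
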