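import Cfsg.Statements.S0370
import Cfsg.Agent.Lib.Helper4.Golay

set_option autoImplicit false
open Cfsg

namespace Cfsg.Agent.S0370

/-- The permutation x ↦ x + 1 of the residues modulo 23, fixing the extra point, lies in the group of the length-24 code. -/
theorem result : Equiv.optionCongr (Equiv.addRight (1 : ZMod 23)) ∈ Cfsg.M24 := by
  apply Cfsg.Agent.Lib.Helper4.Golay.mem_M24
  intro t
  have e : Cfsg.qrWord t ∘ (Equiv.optionCongr (Equiv.addRight (1 : ZMod 23))) = Cfsg.qrWord (t - 1) := by
    funext p
    rcases p with _ | x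
    · rfl
    · simp only [Function.comp_apply, Equiv.optionCongr_apply, Option.map_some, Equiv.coe_addRight,
        Cfsg.qrWord]
      have : (∃ r : ZMod 23, x + 1 = r ^ 2 + t) ↔ (∃ r : ZMod 23, x = r ^ 2 + (t - 1)) := by
        constructor
        · rintro ⟨r, hr⟩
          exact ⟨r, by rw [← add_sub_assoc, ← hr, add_sub_cancel_right]⟩
        · rintro ⟨r, hr⟩
          exact ⟨r, by rw [hr]; ring⟩
      simp only [this]
  rw [e]
  exact Submodule.subset_span (Or.inl ⟨t - 1, rfl⟩)

end Cfsg.Agent.S0370
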