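import Cfsg.Statements.S0371
import Cfsg.Agent.Lib.Helper4.Golay

set_option autoImplicit false
open Cfsg

namespace Cfsg.Agent.S0371

/-- Multiplication by a nonzero square residue modulo 23, fixing the extra point, lies in the group of the length-24 code. -/
theorem result (u : (ZMod 23)ˣ) (hu : IsSquare u) : Equiv.optionCongr (Units.mulLeft u) ∈ Cfsg.M24 := by
  apply Cfsg.Agent.Lib.Helper4.Golay.mem_M24
  intro t
  obtain ⟨s, hs⟩ := hu
  have e : Cfsg.qrWord t ∘ (Equiv.optionCongr (Units.mulLeft u)) = Cfsg.qrWord ((u⁻¹ : (ZMod 23)ˣ) * t) := by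
    funext p
    rcases p with _ | x
    · rfl
    · simp only [Function.comp_apply, Equiv.optionCongr_apply, Option.map_some, Units.mulLeft_apply,
        Cfsg.qrWord]
      have : (∃ r : ZMod 23, (u : ZMod 23) * x = r ^ 2 + t) ↔
          (∃ r : ZMod 23, x = r ^ 2 + ((u⁻¹ : (ZMod 23)ˣ) : ZMod 23) * t) := by
        constructor
        · rintro ⟨r, hr⟩
          refine ⟨((s⁻¹ : (ZMod 23)ˣ) : ZMod 23) * r, ?_⟩
          have h1 : x = ((u⁻¹ : (ZMod 23)ˣ) : ZMod 23) * ((u : ZMod 23) * x) := by
            rw [← mul_assoc, Units.inv_mul, one_mul]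
          rw [h1, hr, hs]
          simp only [mul_inv_rev, Units.val_mul]
          ring
        · rintro ⟨r, hr⟩
          refine ⟨(s : ZMod 23) * r, ?_⟩
          rw [hr, mul_add, ← mul_assoc, Units.mul_inv, one_mul, hs]
          simp only [Units.val_mul]
          ring
      simp only [this]
  rw [e]
  exact Submodule.subset_span (Or.inl ⟨_, rfl⟩)

end Cfsg.Agent.S0371
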