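import Cfsg.Statements.S5421
import Cfsg.Agent.Lib.Helper28.Extra

set_option autoImplicit false
open Cfsg

namespace Cfsg.Agent.S5421

/-- Let Q be an extraspecial 2-subgroup of the finite group G whose centralizer in G is its centre Z and which is normal in the centralizer of Z. If some involution b of Q outside Z has Z inside the largest normal 2-subgroup of the centralizer of b, then Q is a large extraspecial 2-subgroup of G. -/
theorem result {G : Type*} [Group G] [Finite G] (Q : Subgroup G) (hL1 : Cfsg.IsExtraspecial 2 ↥Q) (hL2 : Subgroup.centralizer (Q : Set G) = ((Subgroup.center ↥Q).map Q.subtype)) (hL3 : Subgroup.centralizer (((Subgroup.center ↥Q).map Q.subtype) : Set G) ≤ Subgroup.normalizer (Q : Set G)) (b : G) (hbQ : b ∈ Q) (hbZ : b ∉ ((Subgroup.center ↥Q).map Q.subtype)) (hb : orderOf b = 2) (hZ : ((Subgroup.center ↥Q).map Q.subtype) ≤ (Cfsg.pCore 2 ↥(Subgroup.centralizer ({b} : Set G))).map (Subgroup.centralizer ({b}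 : Set G)).subtype) : Cfsg.IsLargeExtraspecial Q := by
  classical
  refine ⟨hL1, hL2, hL3, ?_⟩
  intro K hKodd hQK
  obtain ⟨z, hzZ, hz1, hzQ, hzz, hzc, hzall⟩ := Cfsg.Agent.Lib.Helper28.extraspecial_center Q hL1
  have hpQ : IsPGroup 2 ↥Q := hL1.1.1
  rw [Subgroup.le_normalizer_iff] at hQK
  have hodd1 : ∀ x ∈ K, (∃ n : ℕ, x ^ (2 ^ n) = 1) → x = 1 :=
    fun x hx h => Cfsg.Agent.Lib.Helper28.eq_one_of_two_pow_of_odd hKodd hx h
  have hQpow : ∀ q ∈ Q, ∃ n : ℕ, q ^ (2 ^ n) = 1 :=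
    fun q hq => Cfsg.Agent.Lib.Helper28.pGroup_pow hpQ hq
  -- the centraliser of z in K is trivial
  have h1 : ∀ k ∈ K, z * k * z⁻¹ = k → k = 1 := by
    intro k hk hkz
    have hkZ : k ∈ Subgroup.centralizer (((Subgroup.center ↥Q).map Q.subtype : Subgroup G) : Set G) := by
      rw [Subgroup.mem_centralizer_iff]
      intro x hx
      rcases hzall x hx with rfl | rfl
      · simp
      · calc x * k = x * k * x⁻¹ * x := by group
          _ = k * x := by rw [hkz]
    have hkN := hL3 hkZ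
    rw [Subgroup.mem_normalizer_iff] at hkN
    have hkQ : k ∈ Subgroup.centralizer (Q : Set G) := by
      rw [Subgroup.mem_centralizer_iff]
      intro q hq
      have hc1 : k * q * k⁻¹ * q⁻¹ ∈ Q := Q.mul_mem ((hkN q).mp hq) (Q.inv_mem hq)
      have hc2 : k * q * k⁻¹ * q⁻¹ ∈ K := by
        have h2 : q * k⁻¹ * q⁻¹ ∈ K := hQK q hq k⁻¹ (K.inv_mem hk)
        have e : k * q * k⁻¹ * q⁻¹ = k * (q * k⁻¹ * q⁻¹) := by group
        rw [e]
        exact K.mul_mem hk h2
      have h3 := hodd1 _ hc2 (hQpow _ hc1)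
      calc q * k = (k * q * k⁻¹ * q⁻¹)⁻¹ * (k * q) := by group
        _ = k * q := by rw [h3]; group
    rw [hL2] at hkQ
    rcases hzall k hkQ with h | h
    · exact h
    · exfalso
      rw [h] at hk
      exact hz1 (hodd1 z hk (hQpow z hzQ))
  have hzinv := Cfsg.Agent.Lib.Helper28.inv_of_fpf K z hzz (fun k hk => hQK z hzQ k hk) h1
  -- the centraliser of b in K is trivial
  have hbb : b * b = 1 := Cfsg.Agent.Lib.Helper28.mul_self_of_orderOf_two hb
  have h3 : ∀ k ∈ K, b * k * b⁻¹ = k → k = 1 := by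
    intro k hk hkb
    apply h1 k hk
    have hkb' : k ∈ Subgroup.centralizer ({b} : Set G) := by
      rw [Subgroup.mem_centralizer_iff]
      intro x hx
      rw [Set.mem_singleton_iff] at hx
      subst hx
      calc x * k = x * k * x⁻¹ * x := by group
        _ = k * x := by rw [hkb]
    have hzT := hZ hzZ
    have hc1 : k * z * k⁻¹ * z⁻¹ ∈ (Cfsg.pCore 2 ↥(Subgroup.centralizer ({b} : Set G))).map
        (Subgroup.centralizer ({b} : Set G)).subtype :=
      Subgroup.mul_mem _ (Cfsg.Agent.Lib.Helper28.pCore_map_conj _ hkb' hzT) (Subgroup.inv_mem _ hzT)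
    haveI : Fact (Nat.Prime 2) := ⟨Nat.prime_two⟩
    have hc2 : k * z * k⁻¹ * z⁻¹ ∈ K := by
      have h2 : z * k⁻¹ * z⁻¹ ∈ K := hQK z hzQ k⁻¹ (K.inv_mem hk)
      have e : k * z * k⁻¹ * z⁻¹ = k * (z * k⁻¹ * z⁻¹) := by group
      rw [e]
      exact K.mul_mem hk h2
    have h4 := hodd1 _ hc2 (Cfsg.Agent.Lib.Helper28.pCore_map_pow _ hc1)
    calc z * k * z⁻¹ = (k * z * k⁻¹ * z⁻¹)⁻¹ * k := by group
      _ = k := by rw [h4]; group
  have hbinv := Cfsg.Agent.Lib.Helper28.inv_of_fpf K b hbb (fun k hk => hQK b hbQ k hk) h3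
  -- conclusion
  obtain ⟨q, hqQ, hq⟩ := Cfsg.Agent.Lib.Helper28.extraspecial_conj Q hL1 hzall hbQ hbZ
  rw [Subgroup.eq_bot_iff_forall]
  intro k hk
  have hk' : q⁻¹ * k * q ∈ K := by
    have := hQK q⁻¹ (Q.inv_mem hqQ) k hk
    rwa [inv_inv] at this
  have hfix : (z * b) * k * (z * b)⁻¹ = k := by
    calc (z * b) * k * (z * b)⁻¹ = z * (b * k * b⁻¹) * z⁻¹ := by group
      _ = z * k⁻¹ * z⁻¹ := by rw [hbinv k hk]
      _ = (k⁻¹)⁻¹ := hzinv k⁻¹ (K.inv_mem hk)
      _ = k := inv_inv k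
  rw [← hq] at hfix
  have h5 : b * (q⁻¹ * k * q) * b⁻¹ = q⁻¹ * k * q := by
    calc b * (q⁻¹ * k * q) * b⁻¹ = q⁻¹ * ((q * b * q⁻¹) * k * (q * b * q⁻¹)⁻¹) * q := by group
      _ = q⁻¹ * k * q := by rw [hfix]
  have h6 := h3 _ hk' h5
  calc k = q * (q⁻¹ * k * q) * q⁻¹ := by group
    _ = 1 := by rw [h6]; group
end Cfsg.Agent.S5421
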