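import Cfsg.Statements.S5423
import Cfsg.Agent.Lib.Helper18.PGroupFrat
import Cfsg.Agent.Lib.Helper1.Cores

set_option autoImplicit false
open Cfsg

namespace Cfsg.Agent.S5423

set_option linter.style.haveILetI false
set_option linter.unusedVariables false

open scoped Matrix
open scoped commutatorElement


theorem zmod2_cases (x : ZMod 2) : x = 0 ∨ x = 1 := by
  revert x; decide

theorem zmod2_add_self (x : ZMod 2) : x + x = 0 := by
  revert x; decide

/-- additive functionals on `F_2^n` are dot products -/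
theorem dot_repr (n : ℕ) (f : (Fin n → ZMod 2) →+ ZMod 2) :
    ∃ c : Fin n → ZMod 2, ∀ w, f w = c ⬝ᵥ w := by
  refine ⟨fun i => f (fun j => if i = j then 1 else 0), fun w => ?_⟩
  have h := LinearMap.pi_apply_eq_sum_univ (f.toZModLinearMap 2) w
  rw [AddMonoidHom.coe_toZModLinearMap] at h
  rw [h]
  simp only [dotProduct, smul_eq_mul]
  exact Finset.sum_congr rfl (fun i _ => mul_comm _ _)

/-- the block automorphism `(x, w) ↦ (x, b w)` -/
def Phi (n : ℕ) : ((Fin n → ZMod 2) ≃ₗ[ZMod 2] (Fin n → ZMod 2)) →*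
    ((ZMod 2 × (Fin n → ZMod 2)) ≃ₗ[ZMod 2] (ZMod 2 × (Fin n → ZMod 2))) where
  toFun b := LinearEquiv.prodCongr (LinearEquiv.refl _ _) b
  map_one' := by
    refine LinearEquiv.ext (fun v => ?_)
    rfl
  map_mul' b b' := by
    refine LinearEquiv.ext (fun v => ?_)
    rfl

theorem Phi_apply (n : ℕ) (b : (Fin n → ZMod 2) ≃ₗ[ZMod 2] (Fin n → ZMod 2)) (x : ZMod 2)
    (w : Fin n → ZMod 2) : Phi n b (x, w) = (x, b w) := rfl

theorem Phi_inj (n : ℕ) : Function.Injective (Phi n) := by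
  intro b b' h
  refine LinearEquiv.ext (fun w => ?_)
  have h1 := congrArg (fun a : (ZMod 2 × (Fin n → ZMod 2)) ≃ₗ[ZMod 2] (ZMod 2 × (Fin n → ZMod 2)) =>
    (a (0, w)).2) h
  simp only [Phi_apply] at h1
  exact h1

/-- the transvection `(x, w) ↦ (x + c·w, w)` -/
def psi (n : ℕ) (c : Fin n → ZMod 2) :
    (ZMod 2 × (Fin n → ZMod 2)) ≃ₗ[ZMod 2] (ZMod 2 × (Fin n → ZMod 2)) where
  toFun v := (v.1 + c ⬝ᵥ v.2, v.2)
  invFun v := (v.1 + c ⬝ᵥ v.2, v.2)
  left_inv v := by
    refine Prod.ext ?_ rfl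
    show v.1 + c ⬝ᵥ v.2 + c ⬝ᵥ v.2 = v.1
    rw [add_assoc, zmod2_add_self, add_zero]
  right_inv v := by
    refine Prod.ext ?_ rfl
    show v.1 + c ⬝ᵥ v.2 + c ⬝ᵥ v.2 = v.1
    rw [add_assoc, zmod2_add_self, add_zero]
  map_add' v v' := by
    refine Prod.ext ?_ rfl
    show (v + v').1 + c ⬝ᵥ (v + v').2 = (v.1 + c ⬝ᵥ v.2) + (v'.1 + c ⬝ᵥ v'.2)
    rw [Prod.fst_add, Prod.snd_add, dotProduct_add]
    abel
  map_smul' r v := by
    refine Prod.ext ?_ rfl
    show (r • v).1 + c ⬝ᵥ (r • v).2 = r • (v.1 + c ⬝ᵥ v.2)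
    rw [Prod.smul_fst, Prod.smul_snd, dotProduct_smul, smul_add]

theorem psi_apply (n : ℕ) (c : Fin n → ZMod 2) (x : ZMod 2) (w : Fin n → ZMod 2) :
    psi n c (x, w) = (x + c ⬝ᵥ w, w) := rfl

theorem psi_zero (n : ℕ) : psi n 0 = 1 := by
  refine LinearEquiv.ext (fun v => ?_)
  obtain ⟨x, w⟩ := v
  rw [psi_apply, zero_dotProduct, add_zero]
  rfl

theorem psi_add (n : ℕ) (c c' : Fin n → ZMod 2) : psi n (c + c') = psi n c * psi n c' := by
  refine LinearEquiv.ext (fun v => ?_)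
  obtain ⟨x, w⟩ := v
  rw [LinearEquiv.mul_apply, psi_apply, psi_apply, psi_apply, add_dotProduct]
  refine Prod.ext ?_ rfl
  show x + (c ⬝ᵥ w + c' ⬝ᵥ w) = x + c' ⬝ᵥ w + c ⬝ᵥ w
  abel

theorem psi_sq (n : ℕ) (c : Fin n → ZMod 2) : psi n c * psi n c = 1 := by
  rw [← psi_add]
  have : c + c = 0 := by
    funext i
    exact zmod2_add_self _
  rw [this, psi_zero]

theorem single_dot (n : ℕ) (i : Fin n) (w : Fin n → ZMod 2) :
    (Pi.single i (1 : ZMod 2) : Fin n → ZMod 2) ⬝ᵥ w = w i := by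
  rw [single_dotProduct, one_mul]

theorem psi_inj (n : ℕ) : Function.Injective (psi n) := by
  intro c c' h
  funext i
  have h1 := congrArg (fun a : (ZMod 2 × (Fin n → ZMod 2)) ≃ₗ[ZMod 2] (ZMod 2 × (Fin n → ZMod 2)) =>
    (a (0, Pi.single i 1)).1) h
  simp only [psi_apply, zero_add, dotProduct_single, mul_one] at h1
  exact h1

/-- decomposition of an automorphism fixing `(1, 0)` -/
theorem decomp (n : ℕ) (a : (ZMod 2 × (Fin n → ZMod 2)) ≃ₗ[ZMod 2] (ZMod 2 × (Fin n → ZMod 2)))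
    (ha : a (1, 0) = (1, 0)) : ∃ c b, a = psi n c * Phi n b := by
  have hx : ∀ x : ZMod 2, a (x, 0) = (x, 0) := by
    intro x
    rcases zmod2_cases x with rfl | rfl
    · exact map_zero a
    · exact ha
  obtain ⟨f, hf⟩ : ∃ f : (Fin n → ZMod 2) →+ ZMod 2, ∀ w, f w = (a (0, w)).1 :=
    ⟨(AddMonoidHom.fst _ _).comp ((AddMonoidHomClass.toAddMonoidHom a).comp (AddMonoidHom.inr _ _)),
      fun w => rfl⟩
  obtain ⟨g, hg⟩ : ∃ g : (Fin n → ZMod 2) →+ (Fin n → ZMod 2), ∀ w, g w = (a (0, w)).2 :=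
    ⟨(AddMonoidHom.snd _ _).comp ((AddMonoidHomClass.toAddMonoidHom a).comp (AddMonoidHom.inr _ _)),
      fun w => rfl⟩
  have hform : ∀ x w, a (x, w) = (x + f w, g w) := by
    intro x w
    have e : ((x, w) : ZMod 2 × (Fin n → ZMod 2)) = (x, 0) + (0, w) := by
      rw [Prod.mk_add_mk, add_zero, zero_add]
    rw [e, map_add, hx, hf, hg]
    refine Prod.ext ?_ ?_
    · simp
    · simp
  have hginj : Function.Injective g := by
    rw [injective_iff_map_eq_zero]
    intro d hd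
    have h1 : a (f d, d) = 0 := by
      rw [hform, hd, zmod2_add_self]
      rfl
    have h2 : ((f d, d) : ZMod 2 × (Fin n → ZMod 2)) = 0 :=
      a.injective (h1.trans (map_zero a).symm)
    exact congrArg Prod.snd h2
  have hgsurj : Function.Surjective g := by
    intro w'
    obtain ⟨⟨x, w⟩, hv⟩ := a.surjective (0, w')
    rw [hform] at hv
    exact ⟨w, congrArg Prod.snd hv⟩
  obtain ⟨b, hb⟩ : ∃ b : (Fin n → ZMod 2) ≃ₗ[ZMod 2] (Fin n → ZMod 2), ∀ w, b w = g w :=
    ⟨LinearEquiv.ofBijective (g.toZModLinearMap 2) ⟨hginj, hgsurj⟩, fun w => rfl⟩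
  obtain ⟨c, hc⟩ := dot_repr n (f.comp (AddMonoidHomClass.toAddMonoidHom b.symm))
  refine ⟨c, b, ?_⟩
  refine LinearEquiv.ext (fun v => ?_)
  obtain ⟨x, w⟩ := v
  rw [LinearEquiv.mul_apply, Phi_apply, psi_apply, hform, ← hc, hb]
  refine Prod.ext ?_ rfl
  show x + f w = x + f (b.symm (g w))
  rw [← hb, LinearEquiv.symm_apply_apply]

theorem psi_Phi_eq (n : ℕ) (c : Fin n → ZMod 2)
    (b : (Fin n → ZMod 2) ≃ₗ[ZMod 2] (Fin n → ZMod 2))
    (h : psi n c = Phi n b) : psi n c = 1 := by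
  have hb : b = 1 := by
    refine LinearEquiv.ext (fun w => ?_)
    have h1 := congrArg (fun a : (ZMod 2 × (Fin n → ZMod 2)) ≃ₗ[ZMod 2] (ZMod 2 × (Fin n → ZMod 2)) =>
      (a (0, w)).2) h
    simp only [psi_apply, Phi_apply] at h1
    exact h1.symm
  rw [h, hb, map_one]

/-- characterisation of the transvections -/
theorem psi_of_near (n : ℕ) (a : (ZMod 2 × (Fin n → ZMod 2)) ≃ₗ[ZMod 2] (ZMod 2 × (Fin n → ZMod 2)))
    (h : ∀ v, a v = v ∨ a v = v + (1, 0)) : ∃ c, a = psi n c := by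
  have ha : a (1, 0) = (1, 0) := by
    rcases h (1, 0) with h1 | h1
    · exact h1
    · exfalso
      have h2 : a (1, 0) = 0 := by
        rw [h1, Prod.mk_add_mk, zmod2_add_self, add_zero]
        rfl
      have h3 := a.injective (h2.trans (map_zero a).symm)
      have h4 := congrArg Prod.fst h3
      simp at h4
  obtain ⟨c, b, hab⟩ := decomp n a ha
  have hb : b = 1 := by
    refine LinearEquiv.ext (fun w => ?_)
    have h1 : a (0, w) = (c ⬝ᵥ b w, b w) := by
      rw [hab, LinearEquiv.mul_apply, Phi_apply, psi_apply, zero_add]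
    rcases h (0, w) with h2 | h2
    · rw [h1] at h2
      exact congrArg Prod.snd h2
    · rw [h1] at h2
      have := congrArg Prod.snd h2
      simpa using this
  refine ⟨c, ?_⟩
  rw [hab, hb, map_one, mul_one]

theorem psi_near (n : ℕ) (c : Fin n → ZMod 2) (v : ZMod 2 × (Fin n → ZMod 2)) :
    psi n c v = v ∨ psi n c v = v + (1, 0) := by
  obtain ⟨x, w⟩ := v
  rw [psi_apply]
  rcases zmod2_cases (c ⬝ᵥ w) with h | h
  · left; rw [h, add_zero]
  · right; rw [h, Prod.mk_add_mk, add_zero]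

/-- the group of transvections -/
def Rhat (n : ℕ) :
    Subgroup ((ZMod 2 × (Fin n → ZMod 2)) ≃ₗ[ZMod 2] (ZMod 2 × (Fin n → ZMod 2))) where
  carrier := Set.range (psi n)
  one_mem' := ⟨0, psi_zero n⟩
  mul_mem' := by
    rintro _ _ ⟨c, rfl⟩ ⟨c', rfl⟩
    exact ⟨c + c', psi_add n c c'⟩
  inv_mem' := by
    rintro _ ⟨c, rfl⟩
    exact ⟨c, eq_inv_of_mul_eq_one_left (psi_sq n c)⟩

theorem mem_Rhat (n : ℕ)
    (a : (ZMod 2 × (Fin n → ZMod 2)) ≃ₗ[ZMod 2] (ZMod 2 × (Fin n → ZMod 2))) :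
    a ∈ Rhat n ↔ ∃ c, psi n c = a := Iff.rfl

theorem card_Rhat (n : ℕ) : Nat.card ↥(Rhat n) = 2 ^ n := by
  have h1 : Nat.card ↥(Rhat n) = Nat.card (Set.range (psi n)) := rfl
  rw [h1, Nat.card_congr (Equiv.ofInjective (psi n) (psi_inj n)).symm, Nat.card_eq_fintype_card,
    Fintype.card_fun, ZMod.card, Fintype.card_fin]



/-- the elementary transvection `v ↦ v + v_j e_k` -/
noncomputable def tv (n : ℕ) (k j : Fin n) (hkj : k ≠ j) :
    (Fin n → ZMod 2) ≃ₗ[ZMod 2] (Fin n → ZMod 2) :=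
  LinearEquiv.ofInvolutive
    (LinearMap.id + (LinearMap.proj j).smulRight (Pi.single k (1 : ZMod 2) : Fin n → ZMod 2))
    (by
      intro v
      simp only [LinearMap.add_apply, LinearMap.id_coe, id_eq, LinearMap.smulRight_apply,
        LinearMap.proj_apply, Pi.add_apply, Pi.smul_apply, Pi.single_eq_of_ne' hkj, smul_zero,
        add_zero]
      rw [add_assoc, ← two_smul (ZMod 2)]
      have : (2 : ZMod 2) = 0 := by decide
      rw [this, zero_smul, add_zero])

theorem tv_apply (n : ℕ) (k j : Fin n) (hkj : k ≠ j) (v : Fin n → ZMod 2) :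
    tv n k j hkj v = v + v j • (Pi.single k (1 : ZMod 2) : Fin n → ZMod 2) := rfl

/-- `O_2` of the linear group over the field with two elements is trivial -/
theorem O2_trivial (n : ℕ) (N : Subgroup ((Fin n → ZMod 2) ≃ₗ[ZMod 2] (Fin n → ZMod 2)))
    (hN : N.Normal) (hp : IsPGroup 2 N) : N = ⊥ := by
  classical
  have : Fact (Nat.Prime 2) := ⟨Nat.prime_two⟩
  rw [Subgroup.eq_bot_iff_forall]
  intro g hg
  rcases Nat.eq_zero_or_pos n with hn | hn
  · subst hn
    refine LinearEquiv.ext (fun v => ?_)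
    exact Subsingleton.elim _ _
  have hcard : 2 ∣ Nat.card (Fin n → ZMod 2) := by
    rw [Nat.card_eq_fintype_card, Fintype.card_fun, ZMod.card, Fintype.card_fin]
    exact dvd_pow_self 2 (by omega)
  have h0 : (0 : Fin n → ZMod 2) ∈ MulAction.fixedPoints ↥N (Fin n → ZMod 2) := by
    intro m
    show (m : (Fin n → ZMod 2) ≃ₗ[ZMod 2] (Fin n → ZMod 2)) 0 = 0
    exact map_zero _
  obtain ⟨v₀, hv₀, hne⟩ := hp.exists_fixed_point_of_prime_dvd_card_of_fixed_point
    (Fin n → ZMod 2) hcard h0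
  have hfix : ∀ m ∈ N, m v₀ = v₀ := fun m hm => hv₀ ⟨m, hm⟩
  -- the fixed vectors are invariant under the whole group
  have hinv : ∀ (l : (Fin n → ZMod 2) ≃ₗ[ZMod 2] (Fin n → ZMod 2)) (v : Fin n → ZMod 2),
      (∀ m ∈ N, m v = v) → ∀ m ∈ N, m (l v) = l v := by
    intro l v hv m hm
    have h1 := hv (l⁻¹ * m * l⁻¹⁻¹) (hN.conj_mem m hm l⁻¹)
    rw [inv_inv, LinearEquiv.mul_apply, LinearEquiv.mul_apply] at h1
    have h2 := congrArg l h1
    rw [← LinearEquiv.mul_apply, mul_inv_cancel] at h2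
    exact h2
  obtain ⟨j₀, hj₀⟩ : ∃ j₀, v₀ j₀ = 1 := by
    by_contra hcon
    push Not at hcon
    apply hne
    funext i
    rcases zmod2_cases (v₀ i) with h | h
    · exact h.symm
    · exact absurd h (hcon i)
  have hE : ∀ k, k ≠ j₀ → ∀ m ∈ N, m (Pi.single k (1 : ZMod 2) : Fin n → ZMod 2)
      = (Pi.single k (1 : ZMod 2) : Fin n → ZMod 2) := by
    intro k hk m hm
    have h1 := hinv (tv n k j₀ hk) v₀ hfix m hm
    rw [tv_apply, hj₀, one_smul, map_add, hfix m hm] at h1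
    exact add_left_cancel h1
  have hEj : ∀ m ∈ N, m (Pi.single j₀ (1 : ZMod 2) : Fin n → ZMod 2)
      = (Pi.single j₀ (1 : ZMod 2) : Fin n → ZMod 2) := by
    intro m hm
    have h1 := hfix m hm
    have h2 : v₀ = (Pi.single j₀ (1 : ZMod 2) : Fin n → ZMod 2)
        + ∑ i ∈ Finset.univ.erase j₀, v₀ i • (Pi.single i (1 : ZMod 2) : Fin n → ZMod 2) := by
      conv_lhs => rw [pi_eq_sum_univ' v₀]
      rw [← Finset.add_sum_erase _ _ (Finset.mem_univ j₀), hj₀, one_smul]
    have h3 : m (∑ i ∈ Finset.univ.erase j₀, v₀ i • (Pi.single i (1 : ZMod 2) : Fin n → ZMod 2))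
        = ∑ i ∈ Finset.univ.erase j₀, v₀ i • (Pi.single i (1 : ZMod 2) : Fin n → ZMod 2) := by
      rw [map_sum]
      refine Finset.sum_congr rfl (fun i hi => ?_)
      rw [map_smul, hE i (Finset.ne_of_mem_erase hi) m hm]
    rw [h2, map_add, h3] at h1
    exact add_right_cancel h1
  refine LinearEquiv.ext (fun v => ?_)
  show g v = v
  conv_lhs => rw [pi_eq_sum_univ' v]
  conv_rhs => rw [pi_eq_sum_univ' v]
  rw [map_sum]
  refine Finset.sum_congr rfl (fun i _ => ?_)
  rw [map_smul]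
  by_cases hi : i = j₀
  · rw [hi, hEj g hg]
  · rw [hE i hi g hg]

/-- the linear automorphism group as a matrix group -/
noncomputable def glIso (n : ℕ) :
    ((Fin n → ZMod 2) ≃ₗ[ZMod 2] (Fin n → ZMod 2)) ≃* Matrix.GeneralLinearGroup (Fin n) (ZMod 2) :=
  ((Matrix.GeneralLinearGroup.toLin).trans
    (LinearMap.GeneralLinearGroup.generalLinearEquiv (ZMod 2) (Fin n → ZMod 2))).symm


/-- criterion for a subgroup to be extraspecial of exponent dividing four -/
theorem es_of {G : Type*} [Group G] [Finite G] (Q : Subgroup G) (z : G) (hzQ : z ∈ Q) (hz1 : z ≠ 1)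
    (hz2 : z * z = 1) (hcen : ∀ g ∈ Q, g * z = z * g)
    (hsq : ∀ g ∈ Q, g * g = 1 ∨ g * g = z)
    (hc : ∀ g ∈ Q, (∀ h ∈ Q, g * h = h * g) → g = 1 ∨ g = z)
    (hbig : ∃ g ∈ Q, g ≠ 1 ∧ g ≠ z) :
    Cfsg.IsExtraspecial 2 ↥Q ∧
      ∀ y : G, y ∈ (Subgroup.center ↥Q).map Q.subtype ↔ y = 1 ∨ y = z := by
  classical
  have : Fact (Nat.Prime 2) := ⟨Nat.prime_two⟩
  obtain ⟨zQ, hzQdef⟩ : ∃ zQ : ↥Q, (zQ : G) = z := ⟨⟨z, hzQ⟩, rfl⟩
  have hzQ1 : zQ ≠ 1 := by
    intro h
    apply hz1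
    rw [← hzQdef, h]
    rfl
  have hcenter : ∀ x : ↥Q, x ∈ Subgroup.center ↥Q ↔ x = 1 ∨ x = zQ := by
    intro x
    constructor
    · intro hx
      rw [Subgroup.mem_center_iff] at hx
      have h1 := hc x x.2 (fun h hh => by
        have := hx ⟨h, hh⟩
        exact (congrArg Subtype.val this).symm)
      rcases h1 with h1 | h1
      · left; exact Subtype.ext h1
      · right; exact Subtype.ext (h1.trans hzQdef.symm)
    · rintro (h | h)
      · rw [h]; exact Subgroup.one_mem _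
      · rw [h, Subgroup.mem_center_iff]
        intro g
        apply Subtype.ext
        show (g : G) * (zQ : G) = (zQ : G) * (g : G)
        rw [hzQdef]
        exact hcen g g.2
  have hzQc : zQ ∈ Subgroup.center ↥Q := (hcenter zQ).mpr (Or.inr rfl)
  have hsqc : ∀ x : ↥Q, x * x ∈ Subgroup.center ↥Q := by
    intro x
    rw [hcenter]
    rcases hsq x x.2 with h | h
    · left; exact Subtype.ext h
    · right; exact Subtype.ext (h.trans hzQdef.symm)
  have hzQ2 : zQ * zQ = 1 := by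
    apply Subtype.ext
    show (zQ : G) * (zQ : G) = 1
    rw [hzQdef, hz2]
  have hP : IsPGroup 2 ↥Q := by
    intro x
    refine ⟨2, ?_⟩
    have e : x ^ 2 ^ 2 = (x * x) * (x * x) := by
      rw [show (2 : ℕ) ^ 2 = 4 by norm_num]
      rw [pow_succ, pow_succ, pow_succ, pow_one, mul_assoc]
    rw [e]
    rcases (hcenter (x * x)).mp (hsqc x) with h | h
    · rw [h, one_mul]
    · rw [h, hzQ2]
  have hcomm : ∀ a b : ↥Q, a * b * a⁻¹ * b⁻¹ ∈ Subgroup.center ↥Q := by
    intro a b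
    have e : a * b * a⁻¹ * b⁻¹ = (a * b) * (a * b) * (b⁻¹ * (a * a)⁻¹ * b⁻¹⁻¹) * (b * b)⁻¹ := by
      group
    rw [e]
    have hn : (Subgroup.center ↥Q).Normal := inferInstance
    exact Subgroup.mul_mem _ (Subgroup.mul_mem _ (hsqc (a * b))
      (hn.conj_mem _ (Subgroup.inv_mem _ (hsqc a)) b⁻¹)) (Subgroup.inv_mem _ (hsqc b))
  have hfr1 : frattini ↥Q ≤ Subgroup.center ↥Q := by
    apply Cfsg.Agent.Lib.Helper18.frattini_le_of_elementary (p := 2) _ hcomm
    intro a
    rw [pow_two]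
    exact hsqc a
  have hco1 : commutator ↥Q ≤ Subgroup.center ↥Q := by
    rw [commutator_def, Subgroup.commutator_le]
    intro a _ b _
    rw [commutatorElement_def]
    exact hcomm a b
  have hco2 : Subgroup.center ↥Q ≤ commutator ↥Q := by
    obtain ⟨g, hg, hg1, hgz⟩ := hbig
    have hex : ∃ h ∈ Q, g * h ≠ h * g := by
      by_contra hcon
      push Not at hcon
      rcases hc g hg hcon with h | h
      · exact hg1 h
      · exact hgz h
    obtain ⟨h, hh, hgh⟩ := hex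
    have hmem : ⁅(⟨g, hg⟩ : ↥Q), (⟨h, hh⟩ : ↥Q)⁆ ∈ commutator ↥Q := by
      rw [commutator_def]
      exact Subgroup.commutator_mem_commutator (Subgroup.mem_top _) (Subgroup.mem_top _)
    have hne : ⁅(⟨g, hg⟩ : ↥Q), (⟨h, hh⟩ : ↥Q)⁆ ≠ 1 := by
      intro h1
      rw [commutatorElement_eq_one_iff_mul_comm] at h1
      exact hgh (congrArg Subtype.val h1)
    have hz' : ⁅(⟨g, hg⟩ : ↥Q), (⟨h, hh⟩ : ↥Q)⁆ = zQ := by
      rcases (hcenter _).mp (hco1 hmem) with h1 | h1
      · exact absurd h1 hne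
      · exact h1
    intro y hy
    rcases (hcenter y).mp hy with h1 | h1
    · rw [h1]; exact Subgroup.one_mem _
    · rw [h1, ← hz']; exact hmem
  have hco : commutator ↥Q = Subgroup.center ↥Q := le_antisymm hco1 hco2
  have hnil : Group.IsNilpotent ↥Q := hP.isNilpotent
  have hfr : frattini ↥Q = Subgroup.center ↥Q := by
    refine le_antisymm hfr1 ?_
    rw [← hco]
    exact Cfsg.Agent.Lib.Helper18.commutator_le_frattini_of_isNilpotent
  have hcard : Nat.card (Subgroup.center ↥Q) = 2 := by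
    rw [Nat.card_eq_two_iff]
    refine ⟨⟨1, Subgroup.one_mem _⟩, ⟨zQ, hzQc⟩, ?_, ?_⟩
    · intro h
      exact hzQ1 (congrArg Subtype.val h).symm
    · ext x
      simp only [Set.mem_insert_iff, Set.mem_singleton_iff, Set.mem_univ, iff_true]
      rcases (hcenter x.1).mp x.2 with h | h
      · left; exact Subtype.ext h
      · right; exact Subtype.ext h
  refine ⟨⟨⟨hP, hfr, hco⟩, hcard⟩, ?_⟩
  intro y
  constructor
  · rintro ⟨x, hx, rfl⟩
    rcases (hcenter x).mp hx with h | h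
    · left; rw [h]; rfl
    · right; rw [h]; exact hzQdef
  · rintro (rfl | rfl)
    · exact Subgroup.one_mem _
    · exact ⟨zQ, hzQc, hzQdef⟩

/-- coordinates on an elementary abelian 2-group with a marked element -/
theorem coords {A : Type*} [Group A] [Finite A] (n : ℕ) (hcomm : ∀ a b : A, a * b = b * a)
    (hsq : ∀ a : A, a * a = 1) (hcard : Nat.card A = 2 ^ (n + 1)) (z : A) (hz : z ≠ 1) :
    ∃ co : A → ZMod 2 × (Fin n → ZMod 2), Function.Bijective co ∧
      (∀ a b, co (a * b) = co a + co b) ∧ co z = (1, 0) := by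
  classical
  letI : CommGroup A := { (inferInstance : Group A) with mul_comm := hcomm }
  letI : Module (ZMod 2) (Additive A) := AddCommGroup.zmodModule (n := 2) (by
    intro x
    rw [two_nsmul]
    exact congrArg Additive.ofMul (hsq (Additive.toMul x)))
  have hz' : (Additive.ofMul z : Additive A) ≠ 0 := fun h => hz (congrArg Additive.toMul h)
  have hfr : Module.finrank (ZMod 2) (Additive A) = n + 1 := by
    have h1 := Module.natCard_eq_pow_finrank (K := ZMod 2) (V := Additive A)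
    have h2 : Nat.card (Additive A) = 2 ^ (n + 1) := hcard
    rw [h2, Nat.card_zmod] at h1
    exact (Nat.pow_right_injective (le_refl 2) h1).symm
  obtain ⟨W, hW⟩ := Submodule.exists_isCompl (Submodule.span (ZMod 2) {(Additive.ofMul z : Additive A)})
  have hfW : Module.finrank (ZMod 2) W = n := by
    have h1 := Submodule.finrank_add_eq_of_isCompl hW
    rw [finrank_span_singleton hz', hfr] at h1
    omega
  let eW : W ≃ₗ[ZMod 2] (Fin n → ZMod 2) :=
    LinearEquiv.ofFinrankEq W (Fin n → ZMod 2) (by rw [hfW, Module.finrank_fin_fun])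
  let eS := LinearEquiv.toSpanNonzeroSingleton (ZMod 2) (Additive A) (Additive.ofMul z) hz'
  let ι : Additive A ≃ₗ[ZMod 2] ZMod 2 × (Fin n → ZMod 2) :=
    (Submodule.prodEquivOfIsCompl _ _ hW).symm.trans (LinearEquiv.prodCongr eS.symm eW)
  refine ⟨fun a => ι (Additive.ofMul a), ?_, ?_, ?_⟩
  · exact ι.bijective.comp Additive.ofMul.bijective
  · intro a b
    show ι (Additive.ofMul (a * b)) = _
    rw [ofMul_mul, map_add]
  · show ι (Additive.ofMul z) = (1, 0)
    have h1 : (Submodule.prodEquivOfIsCompl _ _ hW).symm (Additive.ofMul z : Additive A)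
        = ((⟨Additive.ofMul z, Submodule.mem_span_singleton_self _⟩ :
            Submodule.span (ZMod 2) {(Additive.ofMul z : Additive A)}), (0 : W)) :=
      Submodule.prodEquivOfIsCompl_symm_apply_left _ _ hW
        (⟨Additive.ofMul z, Submodule.mem_span_singleton_self _⟩ :
            Submodule.span (ZMod 2) {(Additive.ofMul z : Additive A)})
    show (LinearEquiv.prodCongr eS.symm eW) ((Submodule.prodEquivOfIsCompl _ _ hW).symm
      (Additive.ofMul z : Additive A)) = (1, 0)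
    rw [h1]
    show (eS.symm _, eW 0) = ((1 : ZMod 2), (0 : Fin n → ZMod 2))
    rw [map_zero]
    refine Prod.ext ?_ rfl
    show eS.symm _ = 1
    rw [LinearEquiv.symm_apply_eq]
    exact (LinearEquiv.toSpanNonzeroSingleton_one (ZMod 2) (Additive A) (Additive.ofMul z) hz').symm

/-- the conjugation action in coordinates -/
theorem rho_exists {G : Type*} [Group G] (U : Subgroup G) [U.Normal] (n : ℕ)
    (co : ↥U → ZMod 2 × (Fin n → ZMod 2)) (hbij : Function.Bijective co)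
    (hadd : ∀ a b, co (a * b) = co a + co b) :
    ∃ ρ : G →* ((ZMod 2 × (Fin n → ZMod 2)) ≃ₗ[ZMod 2] (ZMod 2 × (Fin n → ZMod 2))),
      ∀ (g : G) (u : ↥U), ρ g (co u) = co (MulAut.conjNormal g u) := by
  classical
  let e : ↥U ≃ ZMod 2 × (Fin n → ZMod 2) := Equiv.ofBijective co hbij
  have he : ∀ u, e u = co u := fun u => rfl
  have hes : ∀ v, co (e.symm v) = v := fun v => e.apply_symm_apply v
  have hse : ∀ u, e.symm (co u) = u := fun u => e.symm_apply_apply u
  have hsadd : ∀ v v', e.symm (v + v') = e.symm v * e.symm v' := by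
    intro v v'
    apply e.injective
    rw [Equiv.apply_symm_apply, he, hadd, hes, hes]
  let F : G → (ZMod 2 × (Fin n → ZMod 2)) ≃+ (ZMod 2 × (Fin n → ZMod 2)) := fun g =>
    { toFun := fun v => co (MulAut.conjNormal g (e.symm v))
      invFun := fun v => co (MulAut.conjNormal g⁻¹ (e.symm v))
      left_inv := fun v => by
        show co (MulAut.conjNormal g⁻¹ (e.symm (co (MulAut.conjNormal g (e.symm v))))) = v
        rw [hse, map_inv, MulAut.inv_apply_self, hes]
      right_inv := fun v => by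
        show co (MulAut.conjNormal g (e.symm (co (MulAut.conjNormal g⁻¹ (e.symm v))))) = v
        rw [hse, map_inv, MulAut.apply_inv_self, hes]
      map_add' := fun v v' => by
        show co (MulAut.conjNormal g (e.symm (v + v')))
          = co (MulAut.conjNormal g (e.symm v)) + co (MulAut.conjNormal g (e.symm v'))
        rw [hsadd, map_mul, hadd] }
  let L : G → ((ZMod 2 × (Fin n → ZMod 2)) ≃ₗ[ZMod 2] (ZMod 2 × (Fin n → ZMod 2))) := fun g =>
    { F g with map_smul' := fun c x => ZMod.map_smul (F g) c x }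
  have hL : ∀ g v, L g v = co (MulAut.conjNormal g (e.symm v)) := fun g v => rfl
  refine ⟨MonoidHom.mk' L ?_, ?_⟩
  · intro g h
    refine LinearEquiv.ext (fun v => ?_)
    rw [LinearEquiv.mul_apply, hL, hL, hL, hse, map_mul, MulAut.mul_apply]
  · intro g u
    show L g (co u) = _
    rw [hL, hse]

/-- automorphisms from linear maps in coordinates -/
theorem aut_of_lin {A : Type*} [Group A] (n : ℕ) (co : A → ZMod 2 × (Fin n → ZMod 2))
    (hbij : Function.Bijective co) (hadd : ∀ a b, co (a * b) = co a + co b)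
    (a : (ZMod 2 × (Fin n → ZMod 2)) ≃ₗ[ZMod 2] (ZMod 2 × (Fin n → ZMod 2))) :
    ∃ φ : A ≃* A, ∀ u, co (φ u) = a (co u) := by
  classical
  let e : A ≃ ZMod 2 × (Fin n → ZMod 2) := Equiv.ofBijective co hbij
  have hes : ∀ v, co (e.symm v) = v := fun v => e.apply_symm_apply v
  have hse : ∀ u, e.symm (co u) = u := fun u => e.symm_apply_apply u
  refine ⟨{ toFun := fun u => e.symm (a (co u))
            invFun := fun u => e.symm (a.symm (co u))
            left_inv := fun u => by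
              show e.symm (a.symm (co (e.symm (a (co u))))) = u
              rw [hes, LinearEquiv.symm_apply_apply, hse]
            right_inv := fun u => by
              show e.symm (a (co (e.symm (a.symm (co u))))) = u
              rw [hes, LinearEquiv.apply_symm_apply, hse]
            map_mul' := fun u u' => by
              show e.symm (a (co (u * u'))) = e.symm (a (co u)) * e.symm (a (co u'))
              apply e.injective
              show co (e.symm (a (co (u * u')))) = co (e.symm (a (co u)) * e.symm (a (co u')))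
              rw [hes, hadd, hadd, hes, hes, map_add] }, fun u => ?_⟩
  show co (e.symm (a (co u))) = a (co u)
  exact hes _

/-- Let G be a finite group that is the split extension of an elementary abelian normal subgroup U of order 2^(n+1), n ≥ 1, by its full automorphism group: U has a complement M in G whose conjugation action on U is faithful and realizes every automorphism of U. Let Z be a subgroup of U of order 2 and Q the largest normal 2-subgroup of the centralizer C of Z. Then Q is extraspecial of order 2^(2n+1) with an elementary abelian subgroup of order 2^(n+1) (plus type), Q is a large extraspecial 2-subgroup of G, and C is the split extension of Q by the general linear group of degree n over the field with two elements. -/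
theorem result {G : Type*} [Group G] [Finite G] (n : ℕ) (hn : 1 ≤ n) (U M : Subgroup G) [U.Normal] (hU : Cfsg.IsElementaryAbelian 2 U) (hUcard : Nat.card ↥U = 2 ^ (n + 1)) (hUM : U ⊓ M = ⊥) (hUM' : U ⊔ M = ⊤) (hfaith : ∀ m ∈ M, (∀ u ∈ U, m * u * m⁻¹ = u) → m = 1) (hfull : ∀ φ : ↥U ≃* ↥U, ∃ m ∈ M, ∀ u : ↥U, ((φ u : ↥U) : G) = m * u * m⁻¹) (Z : Subgroup G) (hZU : Z ≤ U) (hZ : Nat.card ↥Z = 2) (Q : Subgroup G) (hQ : Q = (Cfsg.pCore 2 ↥(Subgroup.centralizer (Z : Set G))).map (Subgroup.centralizer (Z : Set G)).subtype) : Cfsg.IsExtraspecial 2 ↥Q ∧ Nat.card ↥Q = 2 ^ (2 * n + 1) ∧ (∃ E : Subgroup G, E ≤ Q ∧ Cfsg.IsElementaryAbelian 2 E ∧ Nat.card ↥E = 2 ^ (n + 1)) ∧ Cfsg.IsLargeExtraspecial Q ∧ ∃ K : Subgroup G, K ≤ Subgroup.centralizer (Z : Set G) ∧ Q ⊓ K = ⊥ ∧ Q ⊔ K = Subgroup.centralizer (Z : Set G) ∧ Nonempty (↥K ≃* Matrix.GeneralLinearGroup (Fin n) (ZMod 2)) := by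
  classical
  have hp2 : Fact (Nat.Prime 2) := ⟨Nat.prime_two⟩
  have hUcomm : ∀ a ∈ U, ∀ b ∈ U, a * b = b * a := by
    intro a ha b hb
    have := hU.1.is_comm.comm (⟨a, ha⟩ : ↥U) ⟨b, hb⟩
    exact congrArg Subtype.val this
  have hUsq : ∀ a ∈ U, a * a = 1 := by
    intro a ha
    rw [← pow_two]
    exact hU.2 a ha
  obtain ⟨zZ, hzZ1, hzZu⟩ := (Nat.card_eq_two_iff' (1 : ↥Z)).mp hZ
  obtain ⟨z, hzdef⟩ : ∃ z : G, z = (zZ : G) := ⟨_, rfl⟩
  have hzZ : z ∈ Z := hzdef ▸ zZ.2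
  have hz1 : z ≠ 1 := by
    intro h
    apply hzZ1
    apply Subtype.ext
    rw [← hzdef, h]
    rfl
  have hZmem : ∀ y, y ∈ Z ↔ y = 1 ∨ y = z := by
    intro y
    constructor
    · intro hy
      by_cases h1 : y = 1
      · left; exact h1
      · right
        have := hzZu ⟨y, hy⟩ (fun h => h1 (congrArg Subtype.val h))
        rw [hzdef, ← this]
    · rintro (h | h)
      · rw [h]; exact Z.one_mem
      · rw [h]; exact hzZ
  have hzU : z ∈ U := hZU hzZ
  have hzz : z * z = 1 := hUsq z hzU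
  have hC : ∀ g, g ∈ Subgroup.centralizer (Z : Set G) ↔ g * z = z * g := by
    intro g
    rw [Subgroup.mem_centralizer_iff]
    constructor
    · intro h
      exact (h z hzZ).symm
    · intro h y hy
      rcases (hZmem y).mp hy with h1 | h1
      · rw [h1, one_mul, mul_one]
      · rw [h1]; exact h.symm
  have hdec : ∀ g : G, ∃ u ∈ U, ∃ m ∈ M, g = u * m := by
    intro g
    have hg : g ∈ U ⊔ M := hUM' ▸ Subgroup.mem_top g
    obtain ⟨u, hu, m, hm, h⟩ := Subgroup.mem_sup_of_normal_left.mp hg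
    exact ⟨u, hu, m, hm, h.symm⟩
  have hUM1 : ∀ g, g ∈ U → g ∈ M → g = 1 := by
    intro g hgU hgM
    have : g ∈ U ⊓ M := ⟨hgU, hgM⟩
    rw [hUM] at this
    exact Subgroup.mem_bot.mp this
  have hCU : ∀ g, (∀ u ∈ U, g * u * g⁻¹ = u) → g ∈ U := by
    intro g hg
    obtain ⟨u₀, hu₀, m, hm, rfl⟩ := hdec g
    have hm1 : m = 1 := by
      apply hfaith m hm
      intro u hu
      have h1 := hg u hu
      have h2 : m * u * m⁻¹ = u₀⁻¹ * (u₀ * m * u * (u₀ * m)⁻¹) * u₀ := by group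
      rw [h2, h1, mul_assoc, hUcomm u hu u₀ hu₀, ← mul_assoc, inv_mul_cancel, one_mul]
    rw [hm1, mul_one]
    exact hu₀
  -- coordinates
  obtain ⟨zU, hzUdef⟩ : ∃ zU : ↥U, (zU : G) = z := ⟨⟨z, hzU⟩, rfl⟩
  have hzU1 : zU ≠ 1 := by
    intro h
    apply hz1
    rw [← hzUdef, h]
    rfl
  obtain ⟨co, hbij, hadd, hcoz⟩ := coords (A := ↥U) n
    (fun a b => Subtype.ext (hUcomm a a.2 b b.2)) (fun a => Subtype.ext (hUsq a a.2)) hUcard zU hzU1
  have hco1 : co 1 = 0 := by
    have h := hadd 1 1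
    rw [mul_one] at h
    exact add_eq_left.mp h.symm
  obtain ⟨ρ, hρ⟩ := rho_exists U n co hbij hadd
  have hconj : ∀ (g : G) (u : ↥U), ((MulAut.conjNormal g u : ↥U) : G) = g * u * g⁻¹ :=
    fun g u => MulAut.conjNormal_apply g u
  have hρext : ∀ (g : G)
      (a : (ZMod 2 × (Fin n → ZMod 2)) ≃ₗ[ZMod 2] (ZMod 2 × (Fin n → ZMod 2))),
      (∀ u : ↥U, ρ g (co u) = a (co u)) → ρ g = a := by
    intro g a h
    refine LinearEquiv.ext (fun v => ?_)
    obtain ⟨u, rfl⟩ := hbij.2 v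
    exact h u
  have hker1 : ∀ g, g ∈ U → ρ g = 1 := by
    intro g hg
    apply hρext
    intro u
    rw [hρ]
    show co (MulAut.conjNormal g u) = co u
    congr 1
    apply Subtype.ext
    rw [hconj, hUcomm g hg u u.2, mul_assoc, mul_inv_cancel, mul_one]
  have hker2 : ∀ g, ρ g = 1 → g ∈ U := by
    intro g hg
    apply hCU
    intro u hu
    have h1 := hρ g ⟨u, hu⟩
    rw [hg] at h1
    have h1' : co ⟨u, hu⟩ = co (MulAut.conjNormal g (⟨u, hu⟩ : ↥U)) := h1
    have h3 := congrArg Subtype.val (hbij.1 h1')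
    rw [hconj] at h3
    exact h3.symm
  have hsurjM : ∀ a : (ZMod 2 × (Fin n → ZMod 2)) ≃ₗ[ZMod 2] (ZMod 2 × (Fin n → ZMod 2)),
      ∃ m ∈ M, ρ m = a := by
    intro a
    obtain ⟨φ, hφ⟩ := aut_of_lin n co hbij hadd a
    obtain ⟨m, hm, hmφ⟩ := hfull φ
    refine ⟨m, hm, ?_⟩
    apply hρext
    intro u
    rw [hρ, ← hφ]
    congr 1
    apply Subtype.ext
    rw [hconj]
    exact (hmφ u).symm
  have hinjM : ∀ m ∈ M, ρ m = 1 → m = 1 := fun m hm h => hUM1 m (hker2 m h) hm
  have hcoZ : ∀ u : ↥U, (u : G) ∈ Z ↔ co u = 0 ∨ co u = (1, 0) := by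
    intro u
    rw [hZmem]
    constructor
    · rintro (h | h)
      · left
        have : u = 1 := Subtype.ext h
        rw [this, hco1]
      · right
        have : u = zU := Subtype.ext (h.trans hzUdef.symm)
        rw [this, hcoz]
    · rintro (h | h)
      · left
        have : u = 1 := hbij.1 (h.trans hco1.symm)
        rw [this]
        rfl
      · right
        have : u = zU := hbij.1 (h.trans hcoz.symm)
        rw [this]
        exact hzUdef
  have hCρ : ∀ g, g ∈ Subgroup.centralizer (Z : Set G) ↔ ρ g (1, 0) = (1, 0) := by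
    intro g
    rw [hC, ← hcoz, hρ]
    constructor
    · intro h
      congr 1
      apply Subtype.ext
      rw [hconj, hzUdef, h, mul_assoc, mul_inv_cancel, mul_one]
    · intro h
      have h2 := congrArg Subtype.val (hbij.1 h)
      rw [hconj, hzUdef] at h2
      calc g * z = g * z * g⁻¹ * g := by group
        _ = z * g := by rw [h2]
  -- the subgroup Qs
  obtain ⟨Qs, hQsdef⟩ : ∃ Qs : Subgroup G, Qs = (Rhat n).comap ρ := ⟨_, rfl⟩
  have hQsmem : ∀ g, g ∈ Qs ↔ ∃ c, psi n c = ρ g := by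
    intro g
    rw [hQsdef, Subgroup.mem_comap, mem_Rhat]
  have hUQs : U ≤ Qs := by
    intro g hg
    rw [hQsmem]
    exact ⟨0, by rw [psi_zero, hker1 g hg]⟩
  have hQsC : Qs ≤ Subgroup.centralizer (Z : Set G) := by
    intro g hg
    obtain ⟨c, hc⟩ := (hQsmem g).mp hg
    rw [hCρ, ← hc, psi_apply, dotProduct_zero, add_zero]
  have hQsN : ∀ c₀ ∈ Subgroup.centralizer (Z : Set G), ∀ g ∈ Qs, c₀ * g * c₀⁻¹ ∈ Qs := by
    intro c₀ hc₀ g hg
    obtain ⟨c, hc⟩ := (hQsmem g).mp hg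
    rw [hQsmem]
    have hs := (hCρ c₀).mp hc₀
    obtain ⟨c', hc'⟩ := psi_of_near n (ρ (c₀ * g * c₀⁻¹)) (by
      intro v
      rw [map_mul, map_mul, map_inv, LinearEquiv.mul_apply, LinearEquiv.mul_apply, ← hc]
      rcases psi_near n c ((ρ c₀)⁻¹ v) with h | h
      · left
        rw [h, ← LinearEquiv.mul_apply, mul_inv_cancel]
        rfl
      · right
        rw [h, map_add, hs, ← LinearEquiv.mul_apply, mul_inv_cancel]
        rfl)
    exact ⟨c', hc'.symm⟩
  have hQsq : ∀ g ∈ Qs, g * g = 1 ∨ g * g = z := by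
    intro g hg
    obtain ⟨c, hc⟩ := (hQsmem g).mp hg
    obtain ⟨u, hu, m, hm, rfl⟩ := hdec g
    have hρm : ρ m = psi n c := by
      rw [hc, map_mul, hker1 u hu, one_mul]
    have hmm : m * m = 1 := by
      apply hinjM (m * m) (M.mul_mem hm hm)
      rw [map_mul, hρm, psi_sq]
    have hmu : m * u * m⁻¹ = u ∨ m * u * m⁻¹ = u * z := by
      have h1 := hρ m ⟨u, hu⟩
      rw [hρm] at h1
      rcases psi_near n c (co ⟨u, hu⟩) with h | h
      · left
        rw [h] at h1
        have h2 := congrArg Subtype.val (hbij.1 h1)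
        rw [hconj] at h2
        exact h2.symm
      · right
        rw [h, ← hcoz, ← hadd] at h1
        have h2 := congrArg Subtype.val (hbij.1 h1)
        rw [hconj] at h2
        have h3 : u * z = m * u * m⁻¹ := by
          rw [← hzUdef]
          exact h2
        exact h3.symm
    have e : u * m * (u * m) = u * (m * u * m⁻¹) * (m * m) := by group
    rw [e, hmm, mul_one]
    rcases hmu with h | h
    · left
      rw [h]
      exact hUsq u hu
    · right
      rw [h, ← mul_assoc, hUsq u hu, one_mul]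
  have hQcen : ∀ g ∈ Qs, (∀ h ∈ Qs, g * h = h * g) → g = 1 ∨ g = z := by
    intro g hg hcomm
    have hgU : g ∈ U := by
      apply hCU
      intro u hu
      rw [hcomm u (hUQs hu), mul_assoc, mul_inv_cancel, mul_one]
    rw [← hZmem]
    refine (hcoZ ⟨g, hgU⟩).mpr ?_
    obtain ⟨x, w, hxw⟩ : ∃ x w, co ⟨g, hgU⟩ = (x, w) := ⟨_, _, rfl⟩
    have hw : w = 0 := by
      by_contra hw
      obtain ⟨i, hi⟩ : ∃ i, w i ≠ 0 := by
        by_contra hcon
        push Not at hcon
        exact hw (funext hcon)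
      have hi1 : w i = 1 := by
        rcases zmod2_cases (w i) with h | h
        · exact absurd h hi
        · exact h
      obtain ⟨m, hm, hρm⟩ := hsurjM (psi n (Pi.single i 1))
      have hmQ : m ∈ Qs := (hQsmem m).mpr ⟨_, hρm.symm⟩
      have h1 := hρ m ⟨g, hgU⟩
      rw [hρm, hxw, psi_apply, single_dot, hi1] at h1
      have h2 : MulAut.conjNormal m (⟨g, hgU⟩ : ↥U) = ⟨g, hgU⟩ := by
        apply Subtype.ext
        rw [hconj]
        show m * g * m⁻¹ = g
        rw [← hcomm m hmQ, mul_assoc, mul_inv_cancel, mul_one]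
      rw [h2, hxw] at h1
      have h3 := congrArg Prod.fst h1
      simp at h3
    rw [hxw, hw]
    rcases zmod2_cases x with h | h
    · left
      rw [h]
      rfl
    · right
      rw [h]
  have hbig : ∃ g ∈ Qs, g ≠ 1 ∧ g ≠ z := by
    obtain ⟨u, hu⟩ := hbij.2 ((0 : ZMod 2), (Pi.single (⟨0, hn⟩ : Fin n) 1 : Fin n → ZMod 2))
    refine ⟨u, hUQs u.2, ?_, ?_⟩
    · intro h
      have : u = 1 := Subtype.ext h
      rw [this, hco1] at hu
      have h2 := congrFun (congrArg Prod.snd hu) ⟨0, hn⟩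
      simp at h2
    · intro h
      have : u = zU := Subtype.ext (h.trans hzUdef.symm)
      rw [this, hcoz] at hu
      have h2 := congrArg Prod.fst hu
      simp at h2
  obtain ⟨hES, hcenmap⟩ := es_of Qs z (hUQs hzU) hz1 hzz
    (fun g hg => (hC g).mp (hQsC hg)) hQsq hQcen hbig
  have hQsP : IsPGroup 2 ↥Qs := hES.1.1
  -- the complement
  obtain ⟨K, hKdef⟩ : ∃ K : Subgroup G, K = M ⊓ (Phi n).range.comap ρ := ⟨_, rfl⟩
  have hKmem : ∀ g, g ∈ K ↔ g ∈ M ∧ ∃ b, Phi n b = ρ g := by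
    intro g
    rw [hKdef, Subgroup.mem_inf, Subgroup.mem_comap, MonoidHom.mem_range]
  have hKC : K ≤ Subgroup.centralizer (Z : Set G) := by
    intro g hg
    obtain ⟨-, b, hb⟩ := (hKmem g).mp hg
    rw [hCρ, ← hb, Phi_apply, map_zero]
  have hQK : ∀ g, g ∈ Qs → g ∈ K → g = 1 := by
    intro g hgQ hgK
    obtain ⟨c, hc⟩ := (hQsmem g).mp hgQ
    obtain ⟨hgM, b, hb⟩ := (hKmem g).mp hgK
    apply hinjM g hgM
    rw [← hc]
    exact psi_Phi_eq n c b (hc.trans hb.symm)
  have hCdec : ∀ c₀ ∈ Subgroup.centralizer (Z : Set G), ∃ q ∈ Qs, ∃ k ∈ K, c₀ = q * k := by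
    intro c₀ hc₀
    obtain ⟨c, b, hcb⟩ := decomp n (ρ c₀) ((hCρ c₀).mp hc₀)
    obtain ⟨k, hkM, hρk⟩ := hsurjM (Phi n b)
    have hkK : k ∈ K := (hKmem k).mpr ⟨hkM, b, hρk.symm⟩
    refine ⟨c₀ * k⁻¹, ?_, k, hkK, by group⟩
    rw [hQsmem]
    refine ⟨c, ?_⟩
    rw [map_mul, map_inv, hρk, hcb, mul_assoc, mul_inv_cancel, mul_one]
  have hQsQ : Qs ≤ Q := by
    have hN : (Qs.subgroupOf (Subgroup.centralizer (Z : Set G))).Normal := by
      refine ⟨fun x hx y => ?_⟩
      rw [Subgroup.mem_subgroupOf] at hx ⊢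
      exact hQsN y y.2 x hx
    have hPG : IsPGroup 2 (Qs.subgroupOf (Subgroup.centralizer (Z : Set G))) :=
      hQsP.comap_subtype
    have h1 := Cfsg.Agent.Lib.Helper1.le_pCore 2 hN hPG
    rw [hQ]
    intro g hg
    exact ⟨⟨g, hQsC hg⟩, h1 (Subgroup.mem_subgroupOf.mpr hg), rfl⟩
  have hQC : Q ≤ Subgroup.centralizer (Z : Set G) := by
    rw [hQ]
    rintro _ ⟨x, -, rfl⟩
    exact x.2
  have hQP : IsPGroup 2 ↥Q := by
    rw [hQ]
    exact (Cfsg.Agent.Lib.Helper1.pCore_isPGroup 2).map _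
  have hQN : ∀ c₀ ∈ Subgroup.centralizer (Z : Set G), ∀ g ∈ Q, c₀ * g * c₀⁻¹ ∈ Q := by
    intro c₀ hc₀ g hg
    rw [hQ] at hg ⊢
    obtain ⟨x, hx, rfl⟩ := hg
    have hn' := Cfsg.Agent.Lib.Helper1.pCore_normal
      (G := ↥(Subgroup.centralizer (Z : Set G))) 2
    exact ⟨⟨c₀, hc₀⟩ * x * ⟨c₀, hc₀⟩⁻¹, hn'.conj_mem x hx ⟨c₀, hc₀⟩, rfl⟩
  have hθ : ∀ k : ↥K, (ρ.comp K.subtype) k ∈ (Phi n).range := by
    intro k
    obtain ⟨-, b, hb⟩ := (hKmem k).mp k.2
    exact ⟨b, hb⟩
  obtain ⟨θ, hθdef⟩ : ∃ θ : ↥K →* ↥(Phi n).range, ∀ k : ↥K, ((θ k : ↥(Phi n).range) :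
      (ZMod 2 × (Fin n → ZMod 2)) ≃ₗ[ZMod 2] (ZMod 2 × (Fin n → ZMod 2))) = ρ (k : G) :=
    ⟨(ρ.comp K.subtype).codRestrict (Phi n).range hθ, fun k => rfl⟩
  have hθinj : Function.Injective θ := by
    rw [injective_iff_map_eq_one]
    intro k hk
    have h1 : ρ (k : G) = 1 := by
      rw [← hθdef, hk]
      rfl
    apply Subtype.ext
    exact hinjM k ((hKmem k).mp k.2).1 h1
  have hθsurj : Function.Surjective θ := by
    rintro ⟨a, ha⟩
    obtain ⟨m, hm, hρm⟩ := hsurjM a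
    obtain ⟨b, hb⟩ := ha
    refine ⟨⟨m, (hKmem m).mpr ⟨hm, b, hb.trans hρm.symm⟩⟩, ?_⟩
    apply Subtype.ext
    rw [hθdef]
    exact hρm
  obtain ⟨eK⟩ : Nonempty (↥K ≃* ((Fin n → ZMod 2) ≃ₗ[ZMod 2] (Fin n → ZMod 2))) :=
    ⟨(MulEquiv.ofBijective θ ⟨hθinj, hθsurj⟩).trans (MonoidHom.ofInjective (Phi_inj n)).symm⟩
  have hQK' : ∀ g, g ∈ Q → g ∈ K → g = 1 := by
    intro g hgQ hgK
    have hN : (Q.subgroupOf K).Normal := by
      refine ⟨fun x hx y => ?_⟩
      rw [Subgroup.mem_subgroupOf] at hx ⊢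
      exact hQN y (hKC y.2) x hx
    have hPG : IsPGroup 2 (Q.subgroupOf K) := hQP.comap_subtype
    have h1 := O2_trivial n ((Q.subgroupOf K).map eK.toMonoidHom)
      (hN.map eK.toMonoidHom eK.surjective) (hPG.map _)
    have h2 : Q.subgroupOf K = ⊥ :=
      (Subgroup.map_eq_bot_iff_of_injective _ eK.injective).mp h1
    have h3 : (⟨g, hgK⟩ : ↥K) ∈ Q.subgroupOf K := Subgroup.mem_subgroupOf.mpr hgQ
    rw [h2, Subgroup.mem_bot] at h3
    exact congrArg Subtype.val h3
  have hQQ : Q = Qs := by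
    refine le_antisymm ?_ hQsQ
    intro q hq
    obtain ⟨q₁, hq₁, k, hk, rfl⟩ := hCdec q (hQC hq)
    have hkQ : k ∈ Q := by
      have : k = q₁⁻¹ * (q₁ * k) := by group
      rw [this]
      exact Q.mul_mem (Q.inv_mem (hQsQ hq₁)) hq
    rw [hQK' k hkQ hk, mul_one]
    exact hq₁
  rw [hQQ]
  -- the order of Qs
  have hsurj : Function.Surjective ρ := fun a => by
    obtain ⟨m, -, hm⟩ := hsurjM a
    exact ⟨m, hm⟩
  have hfin : Finite ((ZMod 2 × (Fin n → ZMod 2)) ≃ₗ[ZMod 2] (ZMod 2 × (Fin n → ZMod 2))) :=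
    Finite.of_surjective ρ hsurj
  have hkerU : ρ.ker = U := by
    ext g
    rw [MonoidHom.mem_ker]
    exact ⟨hker2 g, hker1 g⟩
  have hQcard : Nat.card ↥Qs = 2 ^ (2 * n + 1) := by
    have h1 := Subgroup.card_mul_index Qs
    have h2 : Qs.index = (Rhat n).index := by
      rw [hQsdef]
      exact Subgroup.index_comap_of_surjective (Rhat n) hsurj
    have h3 := Subgroup.card_mul_index (Rhat n)
    have h4 := Subgroup.card_mul_index ρ.ker
    have h5 : ρ.ker.index = Nat.card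
        ((ZMod 2 × (Fin n → ZMod 2)) ≃ₗ[ZMod 2] (ZMod 2 × (Fin n → ZMod 2))) := by
      rw [Subgroup.index_ker, MonoidHom.range_eq_top.mpr hsurj, Subgroup.card_top]
    have h6 : Nat.card ρ.ker = 2 ^ (n + 1) := by rw [hkerU, hUcard]
    have h7 : Nat.card ↥(Rhat n) = 2 ^ n := card_Rhat n
    have hidx : 0 < (Rhat n).index := Nat.pos_of_ne_zero Subgroup.index_ne_zero_of_finite
    rw [h2] at h1
    rw [h5, h6, ← h3, h7] at h4
    have h8 : Nat.card ↥Qs * (Rhat n).index = 2 ^ (2 * n + 1) * (Rhat n).index := by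
      rw [h1, ← h4]
      ring
    exact Nat.eq_of_mul_eq_mul_right hidx h8
  have hcent : Subgroup.centralizer (Qs : Set G) = (Subgroup.center ↥Qs).map Qs.subtype := by
    ext g
    rw [hcenmap, Subgroup.mem_centralizer_iff]
    constructor
    · intro h
      have hgU : g ∈ U := by
        apply hCU
        intro u hu
        rw [← h u (hUQs hu), mul_assoc, mul_inv_cancel, mul_one]
      exact hQcen g (hUQs hgU) (fun h' hh' => (h h' hh').symm)
    · rintro (h | h) y hy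
      · rw [h, one_mul, mul_one]
      · rw [h]
        exact (hC y).mp (hQsC hy)
  have hnorm : Subgroup.centralizer (((Subgroup.center ↥Qs).map Qs.subtype : Subgroup G) : Set G)
      ≤ Subgroup.normalizer (Qs : Set G) := by
    intro g hg
    have hgC : g ∈ Subgroup.centralizer (Z : Set G) := by
      rw [hC]
      rw [Subgroup.mem_centralizer_iff] at hg
      exact (hg z ((hcenmap z).mpr (Or.inr rfl))).symm
    rw [Subgroup.mem_normalizer_iff]
    intro h
    constructor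
    · exact hQsN g hgC h
    · intro hh
      have := hQsN g⁻¹ (Subgroup.inv_mem _ hgC) _ hh
      have e : g⁻¹ * (g * h * g⁻¹) * g⁻¹⁻¹ = h := by group
      rw [e] at this
      exact this
  have hodd : ∀ K₀ : Subgroup G, Odd (Nat.card K₀) → Qs ≤ Subgroup.normalizer (K₀ : Set G) →
      K₀ = ⊥ := by
    intro K₀ hK₀ hQK₀
    have hUK : ∀ x, x ∈ U → x ∈ K₀ → x = 1 := by
      intro x hxU hxK
      obtain ⟨j, hj⟩ := hK₀
      have h1 : x ^ (Nat.card K₀) = 1 := by
        have := pow_card_eq_one' (G := ↥K₀) (x := ⟨x, hxK⟩)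
        exact congrArg Subtype.val this
      rw [hj, pow_succ, pow_mul, pow_two, hUsq x hxU, one_pow, one_mul] at h1
      exact h1
    rw [Subgroup.eq_bot_iff_forall]
    intro k hk
    have hkU : k ∈ U := by
      apply hCU
      intro u hu
      have hn' := (Subgroup.mem_normalizer_iff.mp (hQK₀ (hUQs hu)) k).mp hk
      have h1 : u * k * u⁻¹ * k⁻¹ ∈ K₀ := K₀.mul_mem hn' (K₀.inv_mem hk)
      have h2 : u * k * u⁻¹ * k⁻¹ ∈ U := by
        have e : u * k * u⁻¹ * k⁻¹ = u * (k * u⁻¹ * k⁻¹) := by group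
        rw [e]
        exact U.mul_mem hu (Subgroup.Normal.conj_mem inferInstance u⁻¹ (U.inv_mem hu) k)
      have h3 := hUK _ h2 h1
      calc k * u * k⁻¹ = (u * k * u⁻¹ * k⁻¹)⁻¹ * u := by group
        _ = u := by rw [h3, inv_one, one_mul]
    exact hUK k hkU hk
  have hLES : Cfsg.IsLargeExtraspecial Qs := by
    unfold Cfsg.IsLargeExtraspecial
    exact ⟨hES, hcent, hnorm, hodd⟩
  refine ⟨hES, hQcard, ⟨U, hUQs, hU, hUcard⟩, hLES, K, hKC, ?_, ?_, ⟨eK.trans (glIso n)⟩⟩
  · rw [Subgroup.eq_bot_iff_forall]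
    intro x hx
    exact hQK x hx.1 hx.2
  · refine le_antisymm (sup_le hQsC hKC) ?_
    intro c₀ hc₀
    obtain ⟨q, hq, k, hk, rfl⟩ := hCdec c₀ hc₀
    exact Subgroup.mul_mem_sup hq hk

end Cfsg.Agent.S5423
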