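import Cfsg.Statements.S5424
import Cfsg.Agent.S5423
import Cfsg.Agent.S5421

set_option autoImplicit false
open Cfsg

namespace Cfsg.Agent.S5424

set_option linter.style.haveILetI false
set_option linter.unusedVariables false

open scoped Matrix
open Cfsg.Agent.S5423


theorem z2_aux (a q : ZMod 2) : a + (a + q) + q = 0 ∧ a + q + a + q = 0 ∧ a + a + q = q := by
  revert a q; decide

theorem vec_add_self (n : ℕ) (b : Fin n → ZMod 2) : b + b = 0 := by
  funext i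
  exact zmod2_add_self _

/-- the linear map underlying the Heisenberg-type automorphisms -/
def Hl (n : ℕ) (a : ZMod 2) (b c : Fin n → ZMod 2) :
    (ZMod 2 × ZMod 2 × (Fin n → ZMod 2)) →ₗ[ZMod 2] (ZMod 2 × ZMod 2 × (Fin n → ZMod 2)) where
  toFun v := (v.1 + a * v.2.1 + b ⬝ᵥ v.2.2, v.2.1, v.2.2 + v.2.1 • c)
  map_add' v v' := by
    refine Prod.ext ?_ (Prod.ext rfl ?_)
    · show (v + v').1 + a * (v + v').2.1 + b ⬝ᵥ (v + v').2.2
        = (v.1 + a * v.2.1 + b ⬝ᵥ v.2.2) + (v'.1 + a * v'.2.1 + b ⬝ᵥ v'.2.2)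
      simp only [Prod.fst_add, Prod.snd_add, dotProduct_add]
      ring
    · show (v + v').2.2 + (v + v').2.1 • c = (v.2.2 + v.2.1 • c) + (v'.2.2 + v'.2.1 • c)
      simp only [Prod.fst_add, Prod.snd_add, add_smul]
      abel
  map_smul' r v := by
    refine Prod.ext ?_ (Prod.ext rfl ?_)
    · show (r • v).1 + a * (r • v).2.1 + b ⬝ᵥ (r • v).2.2 = r • (v.1 + a * v.2.1 + b ⬝ᵥ v.2.2)
      simp only [Prod.smul_fst, Prod.smul_snd, dotProduct_smul, smul_eq_mul]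
      ring
    · show (r • v).2.2 + (r • v).2.1 • c = r • (v.2.2 + v.2.1 • c)
      simp only [Prod.smul_fst, Prod.smul_snd, smul_add, smul_smul, smul_eq_mul]

theorem Hl_apply (n : ℕ) (a : ZMod 2) (b c : Fin n → ZMod 2) (x y : ZMod 2) (w : Fin n → ZMod 2) :
    Hl n a b c (x, y, w) = (x + a * y + b ⬝ᵥ w, y, w + y • c) := rfl

theorem Hl_comp (n : ℕ) (a : ZMod 2) (b c : Fin n → ZMod 2) (a' : ZMod 2) (b' c' : Fin n → ZMod 2) :
    (Hl n a b c).comp (Hl n a' b' c') = Hl n (a + a' + b ⬝ᵥ c') (b + b') (c + c') := by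
  refine LinearMap.ext (fun v => ?_)
  obtain ⟨x, y, w⟩ := v
  show Hl n a b c (Hl n a' b' c' (x, y, w)) = _
  rw [Hl_apply, Hl_apply, Hl_apply]
  refine Prod.ext ?_ (Prod.ext rfl ?_)
  · show x + a' * y + b' ⬝ᵥ w + a * y + b ⬝ᵥ (w + y • c')
      = x + (a + a' + b ⬝ᵥ c') * y + (b + b') ⬝ᵥ w
    rw [dotProduct_add, dotProduct_smul, add_dotProduct, smul_eq_mul]
    ring
  · show w + y • c' + y • c = w + y • (c + c')
    rw [smul_add]
    abel

theorem Hl_zero (n : ℕ) : Hl n 0 0 0 = LinearMap.id := by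
  refine LinearMap.ext (fun v => ?_)
  obtain ⟨x, y, w⟩ := v
  rw [Hl_apply]
  simp

/-- Heisenberg-type automorphisms -/
def Hm (n : ℕ) (a : ZMod 2) (b c : Fin n → ZMod 2) :
    (ZMod 2 × ZMod 2 × (Fin n → ZMod 2)) ≃ₗ[ZMod 2] (ZMod 2 × ZMod 2 × (Fin n → ZMod 2)) :=
  LinearEquiv.ofLinearMap (Hl n a b c) (Hl n (a + b ⬝ᵥ c) b c)
    (by rw [Hl_comp, (z2_aux a (b ⬝ᵥ c)).1, vec_add_self, vec_add_self, Hl_zero])
    (by rw [Hl_comp, (z2_aux a (b ⬝ᵥ c)).2.1, vec_add_self, vec_add_self, Hl_zero])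

theorem Hm_apply (n : ℕ) (a : ZMod 2) (b c : Fin n → ZMod 2) (x y : ZMod 2) (w : Fin n → ZMod 2) :
    Hm n a b c (x, y, w) = (x + a * y + b ⬝ᵥ w, y, w + y • c) := rfl

theorem Hm_mul (n : ℕ) (a : ZMod 2) (b c : Fin n → ZMod 2) (a' : ZMod 2) (b' c' : Fin n → ZMod 2) :
    Hm n a b c * Hm n a' b' c' = Hm n (a + a' + b ⬝ᵥ c') (b + b') (c + c') := by
  refine LinearEquiv.ext (fun v => ?_)
  exact LinearMap.congr_fun (Hl_comp n a b c a' b' c') v

theorem Hm_zero (n : ℕ) : Hm n 0 0 0 = 1 := by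
  refine LinearEquiv.ext (fun v => ?_)
  exact LinearMap.congr_fun (Hl_zero n) v

theorem Hm_sq (n : ℕ) (a : ZMod 2) (b c : Fin n → ZMod 2) :
    Hm n a b c * Hm n a b c = Hm n (b ⬝ᵥ c) 0 0 := by
  rw [Hm_mul, (z2_aux a (b ⬝ᵥ c)).2.2, vec_add_self, vec_add_self]

theorem Hm_inj (n : ℕ) (a : ZMod 2) (b c : Fin n → ZMod 2) (a' : ZMod 2) (b' c' : Fin n → ZMod 2)
    (h : Hm n a b c = Hm n a' b' c') : a = a' ∧ b = b' ∧ c = c' := by
  have h1 := congrArg (fun g : (ZMod 2 × ZMod 2 × (Fin n → ZMod 2)) ≃ₗ[ZMod 2]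
    (ZMod 2 × ZMod 2 × (Fin n → ZMod 2)) => g (0, 1, 0)) h
  simp only [Hm_apply, mul_one, zero_add, dotProduct_zero, add_zero, one_smul, Prod.mk.injEq,
    true_and] at h1
  refine ⟨h1.1, ?_, h1.2⟩
  funext i
  have h2 := congrArg (fun g : (ZMod 2 × ZMod 2 × (Fin n → ZMod 2)) ≃ₗ[ZMod 2]
    (ZMod 2 × ZMod 2 × (Fin n → ZMod 2)) => (g (0, 0, Pi.single i 1)).1) h
  simp only [Hm_apply, mul_zero, zero_add, dotProduct_single, mul_one, add_zero] at h2
  exact h2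

theorem Hm_fix (n : ℕ) (a : ZMod 2) (b c : Fin n → ZMod 2) :
    Hm n a b c (1, 0, 0) = (1, 0, 0) := by
  rw [Hm_apply]
  simp

theorem Hm_snd (n : ℕ) (a : ZMod 2) (b c : Fin n → ZMod 2)
    (v : ZMod 2 × ZMod 2 × (Fin n → ZMod 2)) : (Hm n a b c v).2.1 = v.2.1 := rfl

theorem zeta_apply (n : ℕ) (v : ZMod 2 × ZMod 2 × (Fin n → ZMod 2)) :
    Hm n 1 0 0 v = v + (v.2.1, 0, 0) := by
  obtain ⟨x, y, w⟩ := v
  rw [Hm_apply]
  simp

theorem Hm_central (n : ℕ) (a : ZMod 2) (b c : Fin n → ZMod 2)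
    (h : ∀ (a' : ZMod 2) (b' c' : Fin n → ZMod 2),
      Hm n a b c * Hm n a' b' c' = Hm n a' b' c' * Hm n a b c) : b = 0 ∧ c = 0 := by
  constructor
  · funext i
    have h1 := h 0 0 (Pi.single i 1)
    rw [Hm_mul, Hm_mul] at h1
    have h2 := (Hm_inj n _ _ _ _ _ _ h1).1
    simp only [add_zero, dotProduct_single, mul_one, zero_add, zero_dotProduct] at h2
    exact add_eq_left.mp h2
  · funext i
    have h1 := h 0 (Pi.single i 1) 0
    rw [Hm_mul, Hm_mul] at h1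
    have h2 := (Hm_inj n _ _ _ _ _ _ h1).1
    simp only [add_zero, dotProduct_zero, zero_add, single_dotProduct, one_mul] at h2
    exact add_eq_left.mp h2.symm

/-- the block automorphism `(x, y, w) ↦ (x, y, D w)` -/
def Phi3 (n : ℕ) : ((Fin n → ZMod 2) ≃ₗ[ZMod 2] (Fin n → ZMod 2)) →*
    ((ZMod 2 × ZMod 2 × (Fin n → ZMod 2)) ≃ₗ[ZMod 2] (ZMod 2 × ZMod 2 × (Fin n → ZMod 2))) where
  toFun D := LinearEquiv.prodCongr (LinearEquiv.refl _ _) (LinearEquiv.prodCongr (LinearEquiv.refl _ _) D)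
  map_one' := by
    refine LinearEquiv.ext (fun v => ?_)
    rfl
  map_mul' D D' := by
    refine LinearEquiv.ext (fun v => ?_)
    rfl

theorem Phi3_apply (n : ℕ) (D : (Fin n → ZMod 2) ≃ₗ[ZMod 2] (Fin n → ZMod 2)) (x y : ZMod 2)
    (w : Fin n → ZMod 2) : Phi3 n D (x, y, w) = (x, y, D w) := rfl

theorem Phi3_inj (n : ℕ) : Function.Injective (Phi3 n) := by
  intro D D' h
  refine LinearEquiv.ext (fun w => ?_)
  have h1 := congrArg (fun g : (ZMod 2 × ZMod 2 × (Fin n → ZMod 2)) ≃ₗ[ZMod 2]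
    (ZMod 2 × ZMod 2 × (Fin n → ZMod 2)) => (g (0, 0, w)).2.2) h
  simp only [Phi3_apply] at h1
  exact h1

theorem Hm_Phi3_eq (n : ℕ) (a : ZMod 2) (b c : Fin n → ZMod 2)
    (D : (Fin n → ZMod 2) ≃ₗ[ZMod 2] (Fin n → ZMod 2)) (h : Hm n a b c = Phi3 n D) :
    Hm n a b c = 1 := by
  have hD : D = 1 := by
    refine LinearEquiv.ext (fun w => ?_)
    have h1 := congrArg (fun g : (ZMod 2 × ZMod 2 × (Fin n → ZMod 2)) ≃ₗ[ZMod 2]
      (ZMod 2 × ZMod 2 × (Fin n → ZMod 2)) => (g (0, 0, w)).2.2) h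
    simp only [Hm_apply, Phi3_apply, zero_smul, add_zero] at h1
    exact h1.symm
  rw [h, hD, map_one]

/-- the centraliser of the central transvection -/
theorem cent_iff (n : ℕ)
    (g : (ZMod 2 × ZMod 2 × (Fin n → ZMod 2)) ≃ₗ[ZMod 2] (ZMod 2 × ZMod 2 × (Fin n → ZMod 2))) :
    g * Hm n 1 0 0 = Hm n 1 0 0 * g ↔
      (g (1, 0, 0) = (1, 0, 0) ∧ ∀ v, (g v).2.1 = v.2.1) := by
  constructor
  · intro h
    have key : ∀ v : ZMod 2 × ZMod 2 × (Fin n → ZMod 2),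
        g (v.2.1, 0, 0) = ((g v).2.1, 0, 0) := by
      intro v
      have h1 := congrArg (fun f : (ZMod 2 × ZMod 2 × (Fin n → ZMod 2)) ≃ₗ[ZMod 2]
        (ZMod 2 × ZMod 2 × (Fin n → ZMod 2)) => f v) h
      simp only [LinearEquiv.mul_apply, zeta_apply, map_add] at h1
      exact add_left_cancel h1
    have h010 := key (0, 1, 0)
    have ht : (g (0, 1, 0)).2.1 = 1 := by
      rcases zmod2_cases (g (0, 1, 0)).2.1 with h0 | h0
      · exfalso
        rw [h0] at h010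
        have h2 : g (1, 0, 0) = g 0 := by
          rw [map_zero]
          exact h010
        have h3 := congrArg Prod.fst (g.injective h2)
        simp at h3
      · exact h0
    have hfix : g (1, 0, 0) = (1, 0, 0) := by
      rw [ht] at h010
      exact h010
    refine ⟨hfix, fun v => ?_⟩
    have hv := key v
    rcases zmod2_cases v.2.1 with h0 | h0
    · rw [h0] at hv ⊢
      have h2 : ((g v).2.1, (0 : ZMod 2), (0 : Fin n → ZMod 2)) = 0 := by
        rw [← hv]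
        exact map_zero g
      exact congrArg Prod.fst h2
    · rw [h0] at hv ⊢
      rw [hfix] at hv
      exact (congrArg Prod.fst hv).symm
  · rintro ⟨hfix, hsnd⟩
    refine LinearEquiv.ext (fun v => ?_)
    rw [LinearEquiv.mul_apply, LinearEquiv.mul_apply, zeta_apply, zeta_apply, map_add, hsnd]
    congr 1
    rcases zmod2_cases v.2.1 with h0 | h0
    · rw [h0]
      exact map_zero g
    · rw [h0]
      exact hfix

/-- decomposition of the centraliser -/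
theorem decomp3 (n : ℕ)
    (g : (ZMod 2 × ZMod 2 × (Fin n → ZMod 2)) ≃ₗ[ZMod 2] (ZMod 2 × ZMod 2 × (Fin n → ZMod 2)))
    (hfix : g (1, 0, 0) = (1, 0, 0)) (hsnd : ∀ v, (g v).2.1 = v.2.1) :
    ∃ a b c D, g = Hm n a b c * Phi3 n D := by
  have hx : ∀ x : ZMod 2, g (x, 0, 0) = (x, 0, 0) := by
    intro x
    rcases zmod2_cases x with rfl | rfl
    · exact map_zero g
    · exact hfix
  obtain ⟨a, c, hac⟩ : ∃ a c, g (0, 1, 0) = (a, 1, c) := by
    refine ⟨(g (0, 1, 0)).1, (g (0, 1, 0)).2.2, ?_⟩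
    refine Prod.ext rfl (Prod.ext ?_ rfl)
    exact hsnd (0, 1, 0)
  have hy : ∀ y : ZMod 2, g (0, y, 0) = (a * y, y, y • c) := by
    intro y
    rcases zmod2_cases y with rfl | rfl
    · rw [mul_zero, zero_smul]
      exact map_zero g
    · rw [mul_one, one_smul]
      exact hac
  obtain ⟨f, hf⟩ : ∃ f : (Fin n → ZMod 2) →+ ZMod 2, ∀ w, f w = (g (0, 0, w)).1 :=
    ⟨(AddMonoidHom.fst _ _).comp ((AddMonoidHomClass.toAddMonoidHom g).comp
      ((AddMonoidHom.inr _ _).comp (AddMonoidHom.inr _ _))), fun w => rfl⟩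
  obtain ⟨gg, hgg⟩ : ∃ gg : (Fin n → ZMod 2) →+ (Fin n → ZMod 2), ∀ w, gg w = (g (0, 0, w)).2.2 :=
    ⟨(AddMonoidHom.snd _ _).comp ((AddMonoidHom.snd _ _).comp
      ((AddMonoidHomClass.toAddMonoidHom g).comp
      ((AddMonoidHom.inr _ _).comp (AddMonoidHom.inr _ _)))), fun w => rfl⟩
  have hw : ∀ w, g (0, 0, w) = (f w, 0, gg w) := by
    intro w
    refine Prod.ext (hf w).symm (Prod.ext ?_ (hgg w).symm)
    exact hsnd (0, 0, w)
  have hform : ∀ x y w, g (x, y, w) = (x + a * y + f w, y, gg w + y • c) := by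
    intro x y w
    have e : ((x, y, w) : ZMod 2 × ZMod 2 × (Fin n → ZMod 2))
        = (x, 0, 0) + (0, y, 0) + (0, 0, w) := by
      simp
    rw [e, map_add, map_add, hx, hy, hw]
    refine Prod.ext ?_ (Prod.ext ?_ ?_)
    · simp
    · simp
    · simp [add_comm]
  have hginj : Function.Injective gg := by
    rw [injective_iff_map_eq_zero]
    intro d hd
    have h1 : g (f d, 0, d) = 0 := by
      rw [hform, hd, mul_zero, add_zero, zmod2_add_self, zero_smul, add_zero]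
      rfl
    have h2 : ((f d, 0, d) : ZMod 2 × ZMod 2 × (Fin n → ZMod 2)) = 0 :=
      g.injective (h1.trans (map_zero g).symm)
    exact congrArg (fun p : ZMod 2 × ZMod 2 × (Fin n → ZMod 2) => p.2.2) h2
  have hgsurj : Function.Surjective gg := by
    intro w'
    obtain ⟨⟨x, y, w⟩, hv⟩ := g.surjective (0, 0, w')
    rw [hform] at hv
    have hy0 : y = 0 := congrArg (fun p : ZMod 2 × ZMod 2 × (Fin n → ZMod 2) => p.2.1) hv
    have h3 := congrArg (fun p : ZMod 2 × ZMod 2 × (Fin n → ZMod 2) => p.2.2) hv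
    simp only [hy0, zero_smul, add_zero] at h3
    exact ⟨w, h3⟩
  obtain ⟨D, hD⟩ : ∃ D : (Fin n → ZMod 2) ≃ₗ[ZMod 2] (Fin n → ZMod 2), ∀ w, D w = gg w :=
    ⟨LinearEquiv.ofBijective (gg.toZModLinearMap 2) ⟨hginj, hgsurj⟩, fun w => rfl⟩
  obtain ⟨b, hb⟩ := dot_repr n (f.comp (AddMonoidHomClass.toAddMonoidHom D.symm))
  refine ⟨a, b, c, D, ?_⟩
  refine LinearEquiv.ext (fun v => ?_)
  obtain ⟨x, y, w⟩ := v
  rw [LinearEquiv.mul_apply, Phi3_apply, Hm_apply, hform, ← hb, hD]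
  refine Prod.ext ?_ rfl
  show x + a * y + f w = x + a * y + f (D.symm (gg w))
  rw [← hD, LinearEquiv.symm_apply_apply]

theorem Phi3_conj (n : ℕ) (D : (Fin n → ZMod 2) ≃ₗ[ZMod 2] (Fin n → ZMod 2)) (a : ZMod 2)
    (b c : Fin n → ZMod 2) : ∃ b', Phi3 n D * Hm n a b c * (Phi3 n D)⁻¹ = Hm n a b' (D c) := by
  obtain ⟨b', hb'⟩ := dot_repr n (AddMonoidHom.mk' (fun w => b ⬝ᵥ D.symm w)
    (fun w w' => by rw [map_add, dotProduct_add]))
  refine ⟨b', ?_⟩
  have hcomm : Phi3 n D * Hm n a b c = Hm n a b' (D c) * Phi3 n D := by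
    refine LinearEquiv.ext (fun v => ?_)
    obtain ⟨x, y, w⟩ := v
    rw [LinearEquiv.mul_apply, LinearEquiv.mul_apply, Hm_apply, Phi3_apply, Phi3_apply, Hm_apply,
      ← hb']
    refine Prod.ext ?_ (Prod.ext rfl ?_)
    · show x + a * y + b ⬝ᵥ w = x + a * y + b ⬝ᵥ D.symm (D w)
      rw [LinearEquiv.symm_apply_apply]
    · show D (w + y • c) = D w + y • D c
      rw [map_add, map_smul]
  rw [hcomm, mul_assoc, mul_inv_cancel, mul_one]

/-- the Heisenberg group -/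
def Hs (n : ℕ) : Subgroup
    ((ZMod 2 × ZMod 2 × (Fin n → ZMod 2)) ≃ₗ[ZMod 2] (ZMod 2 × ZMod 2 × (Fin n → ZMod 2))) where
  carrier := {g | ∃ a b c, Hm n a b c = g}
  one_mem' := ⟨0, 0, 0, Hm_zero n⟩
  mul_mem' := by
    rintro _ _ ⟨a, b, c, rfl⟩ ⟨a', b', c', rfl⟩
    exact ⟨_, _, _, (Hm_mul n a b c a' b' c').symm⟩
  inv_mem' := by
    rintro _ ⟨a, b, c, rfl⟩
    refine ⟨a + b ⬝ᵥ c, b, c, eq_inv_of_mul_eq_one_left ?_⟩
    rw [Hm_mul, (z2_aux a (b ⬝ᵥ c)).2.1, vec_add_self, vec_add_self, Hm_zero]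

theorem mem_Hs (n : ℕ)
    (g : (ZMod 2 × ZMod 2 × (Fin n → ZMod 2)) ≃ₗ[ZMod 2] (ZMod 2 × ZMod 2 × (Fin n → ZMod 2))) :
    g ∈ Hs n ↔ ∃ a b c, Hm n a b c = g := Iff.rfl

theorem card_Hs (n : ℕ) : Nat.card ↥(Hs n) = 2 ^ (2 * n + 1) := by
  have hbij : Function.Bijective (fun p : ZMod 2 × (Fin n → ZMod 2) × (Fin n → ZMod 2) =>
      (⟨Hm n p.1 p.2.1 p.2.2, ⟨_, _, _, rfl⟩⟩ : ↥(Hs n))) := by
    constructor
    · rintro ⟨a, b, c⟩ ⟨a', b', c'⟩ h
      obtain ⟨h1, h2, h3⟩ := Hm_inj n a b c a' b' c' (congrArg Subtype.val h)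
      rw [h1, h2, h3]
    · rintro ⟨g, a, b, c, rfl⟩
      exact ⟨(a, b, c), rfl⟩
  rw [← Nat.card_congr (Equiv.ofBijective _ hbij), Nat.card_prod, Nat.card_prod,
    Nat.card_eq_fintype_card, Nat.card_eq_fintype_card, Fintype.card_fun, ZMod.card,
    Fintype.card_fin]
  ring

/-- an elementary abelian subgroup of the Heisenberg group -/
def Es (n : ℕ) : Subgroup
    ((ZMod 2 × ZMod 2 × (Fin n → ZMod 2)) ≃ₗ[ZMod 2] (ZMod 2 × ZMod 2 × (Fin n → ZMod 2))) where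
  carrier := {g | ∃ a b, Hm n a b 0 = g}
  one_mem' := ⟨0, 0, Hm_zero n⟩
  mul_mem' := by
    rintro _ _ ⟨a, b, rfl⟩ ⟨a', b', rfl⟩
    refine ⟨a + a', b + b', ?_⟩
    rw [Hm_mul, dotProduct_zero, add_zero, add_zero]
  inv_mem' := by
    rintro _ ⟨a, b, rfl⟩
    refine ⟨a, b, eq_inv_of_mul_eq_one_left ?_⟩
    rw [Hm_sq, dotProduct_zero, Hm_zero]

theorem mem_Es (n : ℕ)
    (g : (ZMod 2 × ZMod 2 × (Fin n → ZMod 2)) ≃ₗ[ZMod 2] (ZMod 2 × ZMod 2 × (Fin n → ZMod 2))) :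
    g ∈ Es n ↔ ∃ a b, Hm n a b 0 = g := Iff.rfl

theorem card_Es (n : ℕ) : Nat.card ↥(Es n) = 2 ^ (n + 1) := by
  have hbij : Function.Bijective (fun p : ZMod 2 × (Fin n → ZMod 2) =>
      (⟨Hm n p.1 p.2 0, ⟨_, _, rfl⟩⟩ : ↥(Es n))) := by
    constructor
    · rintro ⟨a, b⟩ ⟨a', b'⟩ h
      obtain ⟨h1, h2, -⟩ := Hm_inj n a b 0 a' b' 0 (congrArg Subtype.val h)
      rw [h1, h2]
    · rintro ⟨g, a, b, rfl⟩
      exact ⟨(a, b), rfl⟩
  rw [← Nat.card_congr (Equiv.ofBijective _ hbij), Nat.card_prod,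
    Nat.card_eq_fintype_card, Nat.card_eq_fintype_card, Fintype.card_fun, ZMod.card,
    Fintype.card_fin]
  ring

theorem Es_comm (n : ℕ) (a : ZMod 2) (b : Fin n → ZMod 2) (a' : ZMod 2) (b' : Fin n → ZMod 2) :
    Hm n a b 0 * Hm n a' b' 0 = Hm n a' b' 0 * Hm n a b 0 := by
  rw [Hm_mul, Hm_mul, dotProduct_zero, dotProduct_zero, add_comm a a', add_comm b b']

/-- centraliser of the Heisenberg group -/
theorem cent_Hs (n : ℕ)
    (g : (ZMod 2 × ZMod 2 × (Fin n → ZMod 2)) ≃ₗ[ZMod 2] (ZMod 2 × ZMod 2 × (Fin n → ZMod 2)))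
    (h : ∀ q ∈ Hs n, g * q = q * g) : g = 1 ∨ g = Hm n 1 0 0 := by
  have hz := (cent_iff n g).mp (h _ ⟨1, 0, 0, rfl⟩)
  obtain ⟨a, b, c, D, hg⟩ := decomp3 n g hz.1 hz.2
  have hD : D = 1 := by
    refine LinearEquiv.ext (fun c' => ?_)
    have h1 := h (Hm n 0 0 c') ⟨0, 0, c', rfl⟩
    have h2 := congrArg (fun f : (ZMod 2 × ZMod 2 × (Fin n → ZMod 2)) ≃ₗ[ZMod 2]
      (ZMod 2 × ZMod 2 × (Fin n → ZMod 2)) => (f (0, 1, 0)).2.2) h1
    simp only [hg, LinearEquiv.mul_apply, Hm_apply, Phi3_apply, map_zero, one_smul, zero_add] at h2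
    show D c' = c'
    have h3 : D c' + c = c + c' := h2
    rw [add_comm c c'] at h3
    exact add_right_cancel h3
  rw [hD, map_one, mul_one] at hg
  have hbc := Hm_central n a b c (fun a' b' c' => by
    rw [← hg]
    exact h _ ⟨a', b', c', rfl⟩)
  rw [hbc.1, hbc.2] at hg
  rcases zmod2_cases a with ha | ha
  · left
    rw [hg, ha, Hm_zero]
  · right
    rw [hg, ha]

/-- an auxiliary involution -/
def tauL (n : ℕ) (i : Fin n) :
    (ZMod 2 × ZMod 2 × (Fin n → ZMod 2)) →ₗ[ZMod 2] (ZMod 2 × ZMod 2 × (Fin n → ZMod 2)) where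
  toFun v := (v.1, v.2.1 + v.2.2 i, v.2.2)
  map_add' v v' := by
    refine Prod.ext rfl (Prod.ext ?_ rfl)
    show (v + v').2.1 + (v + v').2.2 i = (v.2.1 + v.2.2 i) + (v'.2.1 + v'.2.2 i)
    simp only [Prod.fst_add, Prod.snd_add, Pi.add_apply]
    abel
  map_smul' r v := by
    refine Prod.ext rfl (Prod.ext ?_ rfl)
    show (r • v).2.1 + (r • v).2.2 i = r • (v.2.1 + v.2.2 i)
    simp only [Prod.smul_fst, Prod.smul_snd, Pi.smul_apply, smul_add]

noncomputable def tau (n : ℕ) (i : Fin n) :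
    (ZMod 2 × ZMod 2 × (Fin n → ZMod 2)) ≃ₗ[ZMod 2] (ZMod 2 × ZMod 2 × (Fin n → ZMod 2)) :=
  LinearEquiv.ofInvolutive (tauL n i) (by
    rintro ⟨x, y, w⟩
    refine Prod.ext rfl (Prod.ext ?_ rfl)
    show y + w i + w i = y
    rw [add_assoc, zmod2_add_self, add_zero])

theorem tau_apply (n : ℕ) (i : Fin n) (x y : ZMod 2) (w : Fin n → ZMod 2) :
    tau n i (x, y, w) = (x, y + w i, w) := rfl

theorem tau_sq (n : ℕ) (i : Fin n) : tau n i * tau n i = 1 := by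
  refine LinearEquiv.ext (fun v => ?_)
  obtain ⟨x, y, w⟩ := v
  rw [LinearEquiv.mul_apply, tau_apply, tau_apply, add_assoc, zmod2_add_self, add_zero]
  rfl

theorem tau_inv (n : ℕ) (i : Fin n) : (tau n i)⁻¹ = tau n i :=
  (eq_inv_of_mul_eq_one_left (tau_sq n i)).symm

theorem tau_conj (n : ℕ) (i : Fin n) :
    tau n i * Hm n 1 0 0 * (tau n i)⁻¹ = Hm n 1 (Pi.single i 1) 0 := by
  rw [tau_inv]
  refine LinearEquiv.ext (fun v => ?_)
  obtain ⟨x, y, w⟩ := v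
  rw [LinearEquiv.mul_apply, LinearEquiv.mul_apply, tau_apply, Hm_apply, tau_apply, Hm_apply,
    single_dot]
  refine Prod.ext ?_ (Prod.ext ?_ ?_)
  · show x + 1 * (y + w i) + (0 : Fin n → ZMod 2) ⬝ᵥ w = x + 1 * y + w i
    rw [zero_dotProduct]
    ring
  · show y + w i + (w + (y + w i) • (0 : Fin n → ZMod 2)) i = y
    rw [smul_zero, add_zero, add_assoc, zmod2_add_self, add_zero]
  · show w + (y + w i) • (0 : Fin n → ZMod 2) = w + y • (0 : Fin n → ZMod 2)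
    rw [smul_zero, smul_zero]

theorem tau_conj' (n : ℕ) (i : Fin n) :
    tau n i * Hm n 1 (Pi.single i 1) 0 * (tau n i)⁻¹ = Hm n 1 0 0 := by
  rw [← tau_conj n i, tau_inv]
  have e : tau n i * (tau n i * Hm n 1 0 0 * tau n i) * tau n i
      = (tau n i * tau n i) * Hm n 1 0 0 * (tau n i * tau n i) := by group
  rw [e, tau_sq, one_mul, mul_one]

/-- the abstract form of the statement -/
theorem main_T {G : Type*} [Group G] [Finite G] (n : ℕ) (hn : 1 ≤ n)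
    (e : G ≃* ((ZMod 2 × ZMod 2 × (Fin n → ZMod 2)) ≃ₗ[ZMod 2]
      (ZMod 2 × ZMod 2 × (Fin n → ZMod 2))))
    (z : G) (hz : e z = Hm n 1 0 0) (Q : Subgroup G)
    (hQ : Q = (Cfsg.pCore 2 ↥(Subgroup.centralizer ({z} : Set G))).map
      (Subgroup.centralizer ({z} : Set G)).subtype) :
    Cfsg.IsExtraspecial 2 ↥Q ∧ Nat.card ↥Q = 2 ^ (2 * n + 1) ∧
      (∃ E : Subgroup G, E ≤ Q ∧ Cfsg.IsElementaryAbelian 2 E ∧ Nat.card ↥E = 2 ^ (n + 1)) ∧
      Cfsg.IsLargeExtraspecial Q ∧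
      ∃ K : Subgroup G, K ≤ Subgroup.centralizer ({z} : Set G) ∧ Q ⊓ K = ⊥ ∧
        Q ⊔ K = Subgroup.centralizer ({z} : Set G) ∧
        Nonempty (↥K ≃* ((Fin n → ZMod 2) ≃ₗ[ZMod 2] (Fin n → ZMod 2))) := by
  classical
  have hp2 : Fact (Nat.Prime 2) := ⟨Nat.prime_two⟩
  have hC : ∀ g, g ∈ Subgroup.centralizer ({z} : Set G) ↔
      (e g (1, 0, 0) = (1, 0, 0) ∧ ∀ v, (e g v).2.1 = v.2.1) := by
    intro g
    rw [← cent_iff, ← hz, ← map_mul, ← map_mul, Subgroup.mem_centralizer_iff]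
    constructor
    · intro h
      rw [h z rfl]
    · intro h y hy
      rw [Set.mem_singleton_iff.mp hy]
      exact (e.injective h).symm
  have hC' : ∀ g, g ∈ Subgroup.centralizer ({z} : Set G) ↔ g * z = z * g := by
    intro g
    rw [Subgroup.mem_centralizer_iff]
    constructor
    · intro h
      exact (h z rfl).symm
    · intro h y hy
      rw [Set.mem_singleton_iff.mp hy]
      exact h.symm
  obtain ⟨Qs, hQsdef⟩ : ∃ Qs : Subgroup G, Qs = (Hs n).comap e.toMonoidHom := ⟨_, rfl⟩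
  have hQsmem : ∀ g, g ∈ Qs ↔ ∃ a b c, Hm n a b c = e g := by
    intro g
    rw [hQsdef]
    exact ⟨fun h => h, fun h => h⟩
  have hzQs : z ∈ Qs := (hQsmem z).mpr ⟨1, 0, 0, hz.symm⟩
  have hQsC : Qs ≤ Subgroup.centralizer ({z} : Set G) := by
    intro g hg
    obtain ⟨a, b, c, h⟩ := (hQsmem g).mp hg
    rw [hC, ← h]
    exact ⟨Hm_fix n a b c, Hm_snd n a b c⟩
  have hQsN : ∀ c₀ ∈ Subgroup.centralizer ({z} : Set G), ∀ g ∈ Qs, c₀ * g * c₀⁻¹ ∈ Qs := by
    intro c₀ hc₀ g hg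
    obtain ⟨a, b, c, h⟩ := (hQsmem g).mp hg
    obtain ⟨a₁, b₁, c₁, D, hd⟩ := decomp3 n (e c₀) ((hC c₀).mp hc₀).1 ((hC c₀).mp hc₀).2
    obtain ⟨b', hb'⟩ := Phi3_conj n D a b c
    have hmem : e (c₀ * g * c₀⁻¹) ∈ Hs n := by
      rw [map_mul, map_mul, map_inv, hd, ← h]
      have e1 : Hm n a₁ b₁ c₁ * Phi3 n D * Hm n a b c * (Hm n a₁ b₁ c₁ * Phi3 n D)⁻¹
          = Hm n a₁ b₁ c₁ * (Phi3 n D * Hm n a b c * (Phi3 n D)⁻¹) * (Hm n a₁ b₁ c₁)⁻¹ := by
        group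
      rw [e1, hb']
      exact (Hs n).mul_mem ((Hs n).mul_mem ⟨_, _, _, rfl⟩ ⟨_, _, _, rfl⟩)
        ((Hs n).inv_mem ⟨_, _, _, rfl⟩)
    rw [hQsdef]
    exact hmem
  have hz1 : z ≠ 1 := by
    intro h
    have h1 : Hm n 1 0 0 = Hm n 0 0 0 := by rw [← hz, h, map_one, Hm_zero]
    exact one_ne_zero (Hm_inj n _ _ _ _ _ _ h1).1
  have hzz : z * z = 1 := by
    apply e.injective
    rw [map_mul, hz, Hm_sq, dotProduct_zero, Hm_zero, map_one]
  have hQsq : ∀ g ∈ Qs, g * g = 1 ∨ g * g = z := by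
    intro g hg
    obtain ⟨a, b, c, h⟩ := (hQsmem g).mp hg
    rcases zmod2_cases (b ⬝ᵥ c) with h0 | h0
    · left
      apply e.injective
      rw [map_mul, ← h, Hm_sq, h0, Hm_zero, map_one]
    · right
      apply e.injective
      rw [map_mul, ← h, Hm_sq, h0, hz]
  have hQcen : ∀ g ∈ Qs, (∀ h ∈ Qs, g * h = h * g) → g = 1 ∨ g = z := by
    intro g hg hcomm
    obtain ⟨a, b, c, h⟩ := (hQsmem g).mp hg
    have hbc := Hm_central n a b c (fun a' b' c' => by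
      have h1 := hcomm (e.symm (Hm n a' b' c'))
        ((hQsmem _).mpr ⟨a', b', c', by rw [MulEquiv.apply_symm_apply]⟩)
      have h2 := congrArg e h1
      rw [map_mul, map_mul, MulEquiv.apply_symm_apply, ← h] at h2
      exact h2)
    rw [hbc.1, hbc.2] at h
    rcases zmod2_cases a with ha | ha
    · left
      apply e.injective
      rw [← h, ha, Hm_zero, map_one]
    · right
      apply e.injective
      rw [← h, ha, hz]
  have hbig : ∃ g ∈ Qs, g ≠ 1 ∧ g ≠ z := by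
    refine ⟨e.symm (Hm n 0 (Pi.single (⟨0, hn⟩ : Fin n) 1) 0),
      (hQsmem _).mpr ⟨_, _, _, by rw [MulEquiv.apply_symm_apply]⟩, ?_, ?_⟩
    · intro h
      have h1 := congrArg e h
      rw [MulEquiv.apply_symm_apply, map_one, ← Hm_zero] at h1
      have h2 := congrFun (Hm_inj n _ _ _ _ _ _ h1).2.1 ⟨0, hn⟩
      simp at h2
    · intro h
      have h1 := congrArg e h
      rw [MulEquiv.apply_symm_apply, hz] at h1
      exact zero_ne_one (Hm_inj n _ _ _ _ _ _ h1).1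
  obtain ⟨hES, hcenmap⟩ := es_of Qs z hzQs hz1 hzz
    (fun g hg => (hC' g).mp (hQsC hg)) hQsq hQcen hbig
  have hQsP : IsPGroup 2 ↥Qs := hES.1.1
  -- the complement
  obtain ⟨K, hKdef⟩ : ∃ K : Subgroup G, K = (Phi3 n).range.comap e.toMonoidHom := ⟨_, rfl⟩
  have hKmem : ∀ g, g ∈ K ↔ ∃ D, Phi3 n D = e g := by
    intro g
    rw [hKdef]
    exact ⟨fun h => h, fun h => h⟩
  have hKC : K ≤ Subgroup.centralizer ({z} : Set G) := by
    intro g hg
    obtain ⟨D, h⟩ := (hKmem g).mp hg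
    rw [hC, ← h]
    refine ⟨?_, fun v => rfl⟩
    rw [Phi3_apply, map_zero]
  have hQK : ∀ g, g ∈ Qs → g ∈ K → g = 1 := by
    intro g hgQ hgK
    obtain ⟨a, b, c, h⟩ := (hQsmem g).mp hgQ
    obtain ⟨D, hD⟩ := (hKmem g).mp hgK
    apply e.injective
    rw [← h, map_one]
    exact Hm_Phi3_eq n a b c D (h.trans hD.symm)
  have hCdec : ∀ c₀ ∈ Subgroup.centralizer ({z} : Set G), ∃ q ∈ Qs, ∃ k ∈ K, c₀ = q * k := by
    intro c₀ hc₀
    obtain ⟨a, b, c, D, hd⟩ := decomp3 n (e c₀) ((hC c₀).mp hc₀).1 ((hC c₀).mp hc₀).2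
    refine ⟨e.symm (Hm n a b c), (hQsmem _).mpr ⟨a, b, c, by rw [MulEquiv.apply_symm_apply]⟩,
      e.symm (Phi3 n D), (hKmem _).mpr ⟨D, by rw [MulEquiv.apply_symm_apply]⟩, ?_⟩
    apply e.injective
    rw [map_mul, MulEquiv.apply_symm_apply, MulEquiv.apply_symm_apply, hd]
  have hQsQ : Qs ≤ Q := by
    have hN : (Qs.subgroupOf (Subgroup.centralizer ({z} : Set G))).Normal := by
      refine ⟨fun x hx y => ?_⟩
      rw [Subgroup.mem_subgroupOf] at hx ⊢
      exact hQsN y y.2 x hx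
    have hPG : IsPGroup 2 (Qs.subgroupOf (Subgroup.centralizer ({z} : Set G))) :=
      hQsP.comap_subtype
    have h1 := Cfsg.Agent.Lib.Helper1.le_pCore 2 hN hPG
    rw [hQ]
    intro g hg
    exact ⟨⟨g, hQsC hg⟩, h1 (Subgroup.mem_subgroupOf.mpr hg), rfl⟩
  have hQC : Q ≤ Subgroup.centralizer ({z} : Set G) := by
    rw [hQ]
    rintro _ ⟨x, -, rfl⟩
    exact x.2
  have hQP : IsPGroup 2 ↥Q := by
    rw [hQ]
    exact (Cfsg.Agent.Lib.Helper1.pCore_isPGroup 2).map _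
  have hQN : ∀ c₀ ∈ Subgroup.centralizer ({z} : Set G), ∀ g ∈ Q, c₀ * g * c₀⁻¹ ∈ Q := by
    intro c₀ hc₀ g hg
    rw [hQ] at hg ⊢
    obtain ⟨x, hx, rfl⟩ := hg
    have hn' := Cfsg.Agent.Lib.Helper1.pCore_normal
      (G := ↥(Subgroup.centralizer ({z} : Set G))) 2
    exact ⟨⟨c₀, hc₀⟩ * x * ⟨c₀, hc₀⟩⁻¹, hn'.conj_mem x hx ⟨c₀, hc₀⟩, rfl⟩
  have hθ : ∀ k : ↥K, (e.toMonoidHom.comp K.subtype) k ∈ (Phi3 n).range := by
    intro k
    obtain ⟨D, hD⟩ := (hKmem k).mp k.2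
    exact ⟨D, hD⟩
  obtain ⟨θ, hθdef⟩ : ∃ θ : ↥K →* ↥(Phi3 n).range, ∀ k : ↥K, ((θ k : ↥(Phi3 n).range) :
      (ZMod 2 × ZMod 2 × (Fin n → ZMod 2)) ≃ₗ[ZMod 2] (ZMod 2 × ZMod 2 × (Fin n → ZMod 2)))
        = e (k : G) :=
    ⟨(e.toMonoidHom.comp K.subtype).codRestrict (Phi3 n).range hθ, fun k => rfl⟩
  have hθinj : Function.Injective θ := by
    rw [injective_iff_map_eq_one]
    intro k hk
    have h1 : e (k : G) = 1 := by
      rw [← hθdef, hk]
      rfl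
    apply Subtype.ext
    exact e.injective (h1.trans (map_one e).symm)
  have hθsurj : Function.Surjective θ := by
    rintro ⟨a, ha⟩
    obtain ⟨D, hD⟩ := ha
    refine ⟨⟨e.symm a, (hKmem _).mpr ⟨D, by rw [MulEquiv.apply_symm_apply]; exact hD⟩⟩, ?_⟩
    apply Subtype.ext
    rw [hθdef]
    exact MulEquiv.apply_symm_apply e a
  obtain ⟨eK⟩ : Nonempty (↥K ≃* ((Fin n → ZMod 2) ≃ₗ[ZMod 2] (Fin n → ZMod 2))) :=
    ⟨(MulEquiv.ofBijective θ ⟨hθinj, hθsurj⟩).trans (MonoidHom.ofInjective (Phi3_inj n)).symm⟩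
  have hQK' : ∀ g, g ∈ Q → g ∈ K → g = 1 := by
    intro g hgQ hgK
    have hN : (Q.subgroupOf K).Normal := by
      refine ⟨fun x hx y => ?_⟩
      rw [Subgroup.mem_subgroupOf] at hx ⊢
      exact hQN y (hKC y.2) x hx
    have hPG : IsPGroup 2 (Q.subgroupOf K) := hQP.comap_subtype
    have h1 := O2_trivial n ((Q.subgroupOf K).map eK.toMonoidHom)
      (hN.map eK.toMonoidHom eK.surjective) (hPG.map _)
    have h2 : Q.subgroupOf K = ⊥ :=
      (Subgroup.map_eq_bot_iff_of_injective _ eK.injective).mp h1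
    have h3 : (⟨g, hgK⟩ : ↥K) ∈ Q.subgroupOf K := Subgroup.mem_subgroupOf.mpr hgQ
    rw [h2, Subgroup.mem_bot] at h3
    exact congrArg Subtype.val h3
  have hQQ : Q = Qs := by
    refine le_antisymm ?_ hQsQ
    intro q hq
    obtain ⟨q₁, hq₁, k, hk, rfl⟩ := hCdec q (hQC hq)
    have hkQ : k ∈ Q := by
      have : k = q₁⁻¹ * (q₁ * k) := by group
      rw [this]
      exact Q.mul_mem (Q.inv_mem (hQsQ hq₁)) hq
    rw [hQK' k hkQ hk, mul_one]
    exact hq₁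
  rw [hQQ]
  have hQcard : Nat.card ↥Qs = 2 ^ (2 * n + 1) := by
    have hmap : Qs.map e.toMonoidHom = Hs n := by
      rw [hQsdef]
      exact Subgroup.map_comap_eq_self_of_surjective e.surjective _
    rw [← card_Hs n, ← hmap]
    exact (Subgroup.card_map_of_injective e.injective).symm
  obtain ⟨E, hEdef⟩ : ∃ E : Subgroup G, E = (Es n).comap e.toMonoidHom := ⟨_, rfl⟩
  have hEmem : ∀ g, g ∈ E ↔ ∃ a b, Hm n a b 0 = e g := by
    intro g
    rw [hEdef]
    exact ⟨fun h => h, fun h => h⟩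
  have hEQ : E ≤ Qs := by
    intro g hg
    obtain ⟨a, b, h⟩ := (hEmem g).mp hg
    exact (hQsmem g).mpr ⟨a, b, 0, h⟩
  have hEcard : Nat.card ↥E = 2 ^ (n + 1) := by
    have hmap : E.map e.toMonoidHom = Es n := by
      rw [hEdef]
      exact Subgroup.map_comap_eq_self_of_surjective e.surjective _
    rw [← card_Es n, ← hmap]
    exact (Subgroup.card_map_of_injective e.injective).symm
  have hEel : Cfsg.IsElementaryAbelian 2 E := by
    refine ⟨⟨⟨fun x y => ?_⟩⟩, fun g hg => ?_⟩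
    · obtain ⟨a, b, h⟩ := (hEmem x).mp x.2
      obtain ⟨a', b', h'⟩ := (hEmem y).mp y.2
      apply Subtype.ext
      apply e.injective
      show e ((x : G) * (y : G)) = e ((y : G) * (x : G))
      rw [map_mul, map_mul, ← h, ← h']
      exact Es_comm n a b a' b'
    · obtain ⟨a, b, h⟩ := (hEmem g).mp hg
      apply e.injective
      rw [pow_two, map_mul, ← h, Hm_sq, dotProduct_zero, Hm_zero, map_one]
  have hcent : Subgroup.centralizer (Qs : Set G) = (Subgroup.center ↥Qs).map Qs.subtype := by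
    ext g
    rw [hcenmap, Subgroup.mem_centralizer_iff]
    constructor
    · intro h
      have h1 := cent_Hs n (e g) (fun q hq => by
        obtain ⟨a, b, c, hq'⟩ := (mem_Hs n q).mp hq
        have h2 := h (e.symm q)
          ((hQsmem _).mpr ⟨a, b, c, by rw [MulEquiv.apply_symm_apply]; exact hq'⟩)
        have h3 := congrArg e h2
        rw [map_mul, map_mul, MulEquiv.apply_symm_apply] at h3
        exact h3.symm)
      rcases h1 with h1 | h1
      · left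
        apply e.injective
        rw [h1, map_one]
      · right
        apply e.injective
        rw [h1, hz]
    · rintro (h | h) y hy
      · rw [h, one_mul, mul_one]
      · rw [h]
        exact (hC' y).mp (hQsC hy)
  have hnorm : Subgroup.centralizer (((Subgroup.center ↥Qs).map Qs.subtype : Subgroup G) : Set G)
      ≤ Subgroup.normalizer (Qs : Set G) := by
    intro g hg
    have hgC : g ∈ Subgroup.centralizer ({z} : Set G) := by
      rw [hC']
      rw [Subgroup.mem_centralizer_iff] at hg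
      exact (hg z ((hcenmap z).mpr (Or.inr rfl))).symm
    rw [Subgroup.mem_normalizer_iff]
    intro h
    constructor
    · exact hQsN g hgC h
    · intro hh
      have := hQsN g⁻¹ (Subgroup.inv_mem _ hgC) _ hh
      have e1 : g⁻¹ * (g * h * g⁻¹) * g⁻¹⁻¹ = h := by group
      rw [e1] at this
      exact this
  obtain ⟨b, hbdef⟩ : ∃ b : G, e b = Hm n 1 (Pi.single (⟨0, hn⟩ : Fin n) 1) 0 :=
    ⟨e.symm _, MulEquiv.apply_symm_apply e _⟩
  obtain ⟨s, hsdef⟩ : ∃ s : G, e s = tau n ⟨0, hn⟩ := ⟨e.symm _, MulEquiv.apply_symm_apply e _⟩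
  have hbQ : b ∈ Qs := (hQsmem b).mpr ⟨_, _, _, hbdef.symm⟩
  have hb1 : b ≠ 1 := by
    intro h
    have h1 : Hm n 1 (Pi.single (⟨0, hn⟩ : Fin n) 1) 0 = Hm n 0 0 0 := by
      rw [← hbdef, h, map_one, Hm_zero]
    exact one_ne_zero (Hm_inj n _ _ _ _ _ _ h1).1
  have hbz : b ≠ z := by
    intro h
    have h1 : Hm n 1 (Pi.single (⟨0, hn⟩ : Fin n) 1) 0 = Hm n 1 0 0 := by
      rw [← hbdef, h, hz]
    have h2 := congrFun (Hm_inj n _ _ _ _ _ _ h1).2.1 ⟨0, hn⟩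
    simp at h2
  have hbZ : b ∉ (Subgroup.center ↥Qs).map Qs.subtype := by
    rw [hcenmap]
    rintro (h | h)
    · exact hb1 h
    · exact hbz h
  have hb2 : b ^ 2 = 1 := by
    apply e.injective
    rw [pow_two, map_mul, hbdef, Hm_sq, dotProduct_zero, Hm_zero, map_one]
  have hbord : orderOf b = 2 := orderOf_eq_prime hb2 hb1
  have hsz : s * z * s⁻¹ = b := by
    apply e.injective
    rw [map_mul, map_mul, map_inv, hsdef, hz, hbdef]
    exact tau_conj n ⟨0, hn⟩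
  have hsb : s * b * s⁻¹ = z := by
    apply e.injective
    rw [map_mul, map_mul, map_inv, hsdef, hz, hbdef]
    exact tau_conj' n ⟨0, hn⟩
  have hZb : (Subgroup.center ↥Qs).map Qs.subtype ≤
      (Cfsg.pCore 2 ↥(Subgroup.centralizer ({b} : Set G))).map
        (Subgroup.centralizer ({b} : Set G)).subtype := by
    obtain ⟨Qb, hQbdef⟩ : ∃ Qb : Subgroup G, Qb = Qs.map (MulAut.conj s).toMonoidHom := ⟨_, rfl⟩
    have hQbmem : ∀ x, x ∈ Qb ↔ ∃ q ∈ Qs, s * q * s⁻¹ = x := by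
      intro x
      rw [hQbdef, Subgroup.mem_map]
      exact ⟨fun h => h, fun h => h⟩
    have hCb : ∀ g, g ∈ Subgroup.centralizer ({b} : Set G) ↔ g * b = b * g := by
      intro g
      rw [Subgroup.mem_centralizer_iff]
      constructor
      · intro h
        exact (h b rfl).symm
      · intro h y hy
        rw [Set.mem_singleton_iff.mp hy]
        exact h.symm
    have hN : (Qb.subgroupOf (Subgroup.centralizer ({b} : Set G))).Normal := by
      refine ⟨fun x hx y => ?_⟩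
      rw [Subgroup.mem_subgroupOf] at hx ⊢
      obtain ⟨q, hq, hqx⟩ := (hQbmem _).mp hx
      have hy : (y : G) * b = b * (y : G) := (hCb _).mp y.2
      have hyC : s⁻¹ * (y : G) * s ∈ Subgroup.centralizer ({z} : Set G) := by
        rw [hC']
        have e1 : s⁻¹ * (y : G) * s * z = s⁻¹ * ((y : G) * (s * z * s⁻¹)) * s := by group
        have e2 : z * (s⁻¹ * (y : G) * s) = s⁻¹ * ((s * z * s⁻¹) * (y : G)) * s := by group
        rw [e1, e2, hsz, hy]
      refine (hQbmem _).mpr ⟨(s⁻¹ * (y : G) * s) * q * (s⁻¹ * (y : G) * s)⁻¹,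
        hQsN _ hyC q hq, ?_⟩
      show _ = (y : G) * (x : G) * (y : G)⁻¹
      rw [← hqx]
      group
    have hPG : IsPGroup 2 (Qb.subgroupOf (Subgroup.centralizer ({b} : Set G))) := by
      have h1 : IsPGroup 2 ↥Qb := by
        rw [hQbdef]
        exact hQsP.map _
      exact h1.comap_subtype
    have h1 := Cfsg.Agent.Lib.Helper1.le_pCore 2 hN hPG
    have hzb : z ∈ Subgroup.centralizer ({b} : Set G) := by
      rw [hCb]
      exact ((hC' b).mp (hQsC hbQ)).symm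
    have hzQb : z ∈ Qb := (hQbmem z).mpr ⟨b, hbQ, hsb⟩
    intro y hy
    rcases (hcenmap y).mp hy with h | h
    · rw [h]
      exact Subgroup.one_mem _
    · rw [h]
      exact ⟨⟨z, hzb⟩, h1 (Subgroup.mem_subgroupOf.mpr hzQb), rfl⟩
  have hLES : Cfsg.IsLargeExtraspecial Qs :=
    Cfsg.Agent.S5421.result Qs hES hcent hnorm b hbQ hbZ hbord hZb
  refine ⟨hES, hQcard, ⟨E, hEQ, hEel, hEcard⟩, hLES, K, hKC, ?_, ?_, ⟨eK⟩⟩
  · rw [Subgroup.eq_bot_iff_forall]
    intro x hx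
    exact hQK x hx.1 hx.2
  · refine le_antisymm (sup_le hQsC hKC) ?_
    intro c₀ hc₀
    obtain ⟨q, hq, k, hk, rfl⟩ := hCdec c₀ hc₀
    exact Subgroup.mul_mem_sup hq hk

/-- SL = GL over the field with two elements -/
noncomputable def slIso (m : ℕ) :
    Matrix.SpecialLinearGroup (Fin m) (ZMod 2) ≃* Matrix.GeneralLinearGroup (Fin m) (ZMod 2) :=
  MulEquiv.ofBijective Matrix.SpecialLinearGroup.toGL
    ⟨Matrix.SpecialLinearGroup.toGL_injective, by
      intro A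
      have hdet : (A : Matrix (Fin m) (Fin m) (ZMod 2)).det = 1 := by
        have h1 : IsUnit (A : Matrix (Fin m) (Fin m) (ZMod 2)).det :=
          (Matrix.isUnit_iff_isUnit_det _).mp A.isUnit
        rcases zmod2_cases (A : Matrix (Fin m) (Fin m) (ZMod 2)).det with h | h
        · rw [h] at h1
          exact absurd h1 not_isUnit_zero
        · exact h
      exact ⟨⟨(A : Matrix (Fin m) (Fin m) (ZMod 2)), hdet⟩, Units.ext rfl⟩⟩

/-- splitting off the first two coordinates -/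
def theta (n : ℕ) :
    (Fin (n + 2) → ZMod 2) ≃ₗ[ZMod 2] (ZMod 2 × ZMod 2 × (Fin n → ZMod 2)) where
  toFun v := (v 0, v (Fin.succ 0), fun i => v i.succ.succ)
  invFun p := Fin.cons p.1 (Fin.cons p.2.1 p.2.2)
  left_inv v := by
    funext i
    refine Fin.cases ?_ (fun j => ?_) i
    · rfl
    · refine Fin.cases ?_ (fun k => ?_) j
      · rfl
      · rfl
  right_inv p := by
    obtain ⟨x, y, w⟩ := p
    rfl
  map_add' v v' := rfl
  map_smul' r v := rfl

theorem theta_single (n : ℕ) :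
    theta n (Pi.single (0 : Fin (n + 2)) (1 : ZMod 2)) = (1, 0, 0) := by
  refine Prod.ext ?_ (Prod.ext ?_ ?_)
  · show (Pi.single (0 : Fin (n + 2)) (1 : ZMod 2) : Fin (n + 2) → ZMod 2) 0 = 1
    rw [Pi.single_eq_same]
  · show (Pi.single (0 : Fin (n + 2)) (1 : ZMod 2) : Fin (n + 2) → ZMod 2) (Fin.succ 0) = 0
    rw [Pi.single_eq_of_ne (Fin.succ_ne_zero _)]
  · funext i
    show (Pi.single (0 : Fin (n + 2)) (1 : ZMod 2) : Fin (n + 2) → ZMod 2) i.succ.succ = 0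
    rw [Pi.single_eq_of_ne (Fin.succ_ne_zero _)]

/-- transport of linear automorphisms -/
def conjIso (n : ℕ) : ((Fin (n + 2) → ZMod 2) ≃ₗ[ZMod 2] (Fin (n + 2) → ZMod 2)) ≃*
    ((ZMod 2 × ZMod 2 × (Fin n → ZMod 2)) ≃ₗ[ZMod 2] (ZMod 2 × ZMod 2 × (Fin n → ZMod 2))) where
  toFun g := ((theta n).symm.trans g).trans (theta n)
  invFun g := ((theta n).trans g).trans (theta n).symm
  left_inv g := by
    refine LinearEquiv.ext (fun v => ?_)
    simp
  right_inv g := by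
    refine LinearEquiv.ext (fun v => ?_)
    simp
  map_mul' g h := by
    refine LinearEquiv.ext (fun v => ?_)
    simp [LinearEquiv.mul_apply]

theorem e_z (n : ℕ) (z : Matrix.SpecialLinearGroup (Fin (n + 2)) (ZMod 2))
    (hz : (z : Matrix (Fin (n + 2)) (Fin (n + 2)) (ZMod 2)) = Matrix.transvection 0 1 1) :
    ((slIso (n + 2)).trans ((glIso (n + 2)).symm.trans (conjIso n))) z = Hm n 1 0 0 := by
  refine LinearEquiv.ext (fun v => ?_)
  have h1 : ((slIso (n + 2)).trans ((glIso (n + 2)).symm.trans (conjIso n))) z v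
      = theta n ((z : Matrix (Fin (n + 2)) (Fin (n + 2)) (ZMod 2)) *ᵥ (theta n).symm v) := rfl
  rw [h1, hz, Matrix.transvection, Matrix.add_mulVec, Matrix.one_mulVec, Matrix.single_mulVec_eq,
    map_add, map_smul, theta_single, LinearEquiv.apply_symm_apply, zeta_apply, one_mul]
  congr 1
  obtain ⟨x, y, w⟩ := v
  have h2 : ((theta n).symm (x, y, w)) 1 = y := by
    rw [← Fin.succ_zero_eq_one]
    rfl
  rw [h2]
  simp

/-- Let G be the special linear group of degree n + 2 over the field with two elements, n ≥ 2, let z be a transvection, and let Q be the largest normal 2-subgroup of the centralizer C of z. Then Q is extraspecial of order 2^(2n+1) with an elementary abelian subgroup of order 2^(n+1) (plus type), Q is a large extraspecial 2-subgroup of G, and C is the split extension of Q by the special linear group of degree n over the field with two elements. -/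
theorem result (n : ℕ) (hn : 2 ≤ n) (z : Matrix.SpecialLinearGroup (Fin (n + 2)) (ZMod 2)) (hz : (z : Matrix (Fin (n + 2)) (Fin (n + 2)) (ZMod 2)) = Matrix.transvection 0 1 1) (Q : Subgroup (Matrix.SpecialLinearGroup (Fin (n + 2)) (ZMod 2))) (hQ : Q = (Cfsg.pCore 2 ↥(Subgroup.centralizer ({z} : Set (Matrix.SpecialLinearGroup (Fin (n + 2)) (ZMod 2))))).map (Subgroup.centralizer ({z} : Set (Matrix.SpecialLinearGroup (Fin (n + 2)) (ZMod 2)))).subtype) : Cfsg.IsExtraspecial 2 ↥Q ∧ Nat.card ↥Q = 2 ^ (2 * n + 1) ∧ (∃ E : Subgroup (Matrix.SpecialLinearGroup (Fin (n + 2)) (ZMod 2)), E ≤ Q ∧ Cfsg.IsElementaryAbelian 2 E ∧ Nat.card ↥E = 2 ^ (n + 1)) ∧ Cfsg.IsLargeExtraspecial Q ∧ ∃ K : Subgroup (Matrix.SpecialLinearGroup (Fin (n + 2)) (ZMod 2)), K ≤ Subgroup.centralizer ({z} : Set (Matrix.SpecialLinearGroup (Fin (n + 2)) (ZMod 2))) ∧ Q ⊓ K = ⊥ ∧ Q ⊔ K = Subgroup.centralizer ({z} : Set (Matrix.SpecialLinearGroup (Fin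 (n + 2)) (ZMod 2))) ∧ Nonempty (↥K ≃* Matrix.SpecialLinearGroup (Fin n) (ZMod 2)) := by
  obtain ⟨h1, h2, h3, h4, K, hK1, hK2, hK3, ⟨eK⟩⟩ :=
    main_T n (by omega) ((slIso (n + 2)).trans ((glIso (n + 2)).symm.trans (conjIso n))) z
      (e_z n z hz) Q hQ
  exact ⟨h1, h2, h3, h4, K, hK1, hK2, hK3, ⟨eK.trans ((glIso n).trans (slIso n).symm)⟩⟩

end Cfsg.Agent.S5424
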