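import Cfsg.Statements.S0543
import Cfsg.Agent.Lib.Helper1.Hall
import Cfsg.Agent.Lib.Helper5.CoprimeIndex

set_option autoImplicit false
open Pointwise
open Cfsg

namespace Cfsg.Agent.S0543

/-- In a finite solvable group any two Hall complement systems are simultaneously conjugate: one element conjugates every member of the first system to the corresponding member of the second. -/
theorem result {G : Type*} [Group G] [Finite G] [Group.IsSolvable G] (K L : Nat.Primes → Subgroup G) (hK : Cfsg.IsComplementSystem K) (hL : Cfsg.IsComplementSystem L) : ∃ g : G, ∀ p : Nat.Primes, MulAut.conj g • K p = L p := by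
  classical
  have hcard : ∀ (K : Nat.Primes → Subgroup G), Cfsg.IsComplementSystem K → ∀ r : Nat.Primes,
      Nat.card (K r) * (r : ℕ) ^ (Nat.card G).factorization r = Nat.card G := by
    intro K hK r
    have h1 : Nat.card (K r) * (K r).index = Nat.card G := Subgroup.card_mul_index (K r)
    rw [hK r] at h1
    exact h1
  have hKr : ∀ (K : Nat.Primes → Subgroup G), Cfsg.IsComplementSystem K → ∀ r : Nat.Primes,
      ¬ ((r : ℕ) ∣ Nat.card (K r)) := by
    intro K hK r hdvd
    have h1 := hcard K hK r
    have h2 : (r : ℕ) ^ ((Nat.card G).factorization r + 1) ∣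
        Nat.card (K r) * (r : ℕ) ^ (Nat.card G).factorization r := by
      rw [pow_succ, mul_comm]
      exact Nat.mul_dvd_mul hdvd (dvd_refl _)
    rw [h1] at h2
    exact Nat.pow_succ_factorization_not_dvd (Nat.card_pos.ne') r.2 h2
  -- conjugating elements for each prime
  have hx : ∀ p : Nat.Primes, ∃ x : G, MulAut.conj x • K p = L p := by
    intro p
    have hcop : (Nat.card (K p)).Coprime ((p : ℕ) ^ (Nat.card G).factorization p) := by
      apply Nat.Coprime.pow_right
      exact ((Nat.Prime.coprime_iff_not_dvd p.2).mpr (hKr K hK p)).symm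
    have hall := Cfsg.Agent.Lib.Helper1.hall_aux (Nat.card G) G le_rfl (Nat.card (K p))
      ((p : ℕ) ^ (Nat.card G).factorization p) (hcard K hK p).symm hcop
    have hLc : Nat.card (L p) = Nat.card (K p) := by
      have h1 := hcard K hK p
      have h2 := hcard L hL p
      have hpos : 0 < (p : ℕ) ^ (Nat.card G).factorization p := pow_pos p.2.pos _
      exact Nat.eq_of_mul_eq_mul_right hpos (h2.trans h1.symm)
    exact hall.2.1 (K p) (L p) rfl hLc
  choose x hx using hx
  have hM : ∀ p : Nat.Primes, ∃ k, (Subgroup.normalizer ((K p : Subgroup G) : Set G)).index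
      = (p : ℕ) ^ k := by
    intro p
    have h1 : (Subgroup.normalizer ((K p : Subgroup G) : Set G)).index ∣ (K p).index :=
      Subgroup.index_dvd_of_le Subgroup.le_normalizer
    rw [hK p] at h1
    obtain ⟨k, _, hk⟩ := (Nat.dvd_prime_pow p.2).mp h1
    exact ⟨k, hk⟩
  obtain ⟨g, hg⟩ := Cfsg.Agent.Lib.Helper5.exists_mem_cosets_of_prime_power_index
    (fun p => Subgroup.normalizer ((K p : Subgroup G) : Set G)) hM x
    (Finset.subtype (fun p => Nat.Prime p) (Nat.card G).primeFactors)
  refine ⟨g, ?_⟩
  intro p
  by_cases hp : (p : ℕ) ∣ Nat.card G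
  · have hmem : p ∈ Finset.subtype (fun p => Nat.Prime p) (Nat.card G).primeFactors := by
      refine Finset.mem_subtype.mpr ?_
      exact Nat.mem_primeFactors.mpr ⟨p.2, hp, Nat.card_pos.ne'⟩
    have h1 := hg p hmem
    have h2 : (x p)⁻¹ * g ∈ Subgroup.normalizer ((K p : Subgroup G) : Set G) := by
      have := (Subgroup.normalizer ((K p : Subgroup G) : Set G)).inv_mem h1
      simpa [mul_inv_rev] using this
    have h3 : MulAut.conj ((x p)⁻¹ * g) • K p = K p :=
      Cfsg.Agent.Lib.Helper5.conj_smul_eq_of_mem_normalizer (K p) _ h2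
    have h4 : MulAut.conj g = MulAut.conj (x p) * MulAut.conj ((x p)⁻¹ * g) := by
      rw [← map_mul]
      congr 1
      group
    rw [h4, mul_smul, h3, hx p]
  · have h0 : (Nat.card G).factorization p = 0 := Nat.factorization_eq_zero_of_not_dvd hp
    have hK1 : K p = ⊤ := by
      rw [← Subgroup.index_eq_one, hK p, h0, pow_zero]
    have hL1 : L p = ⊤ := by
      rw [← Subgroup.index_eq_one, hL p, h0, pow_zero]
    rw [hK1, hL1]
    exact Cfsg.Agent.Lib.Helper5.conj_smul_top _
end Cfsg.Agent.S0543
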