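import Cfsg.Statements.S0545
import Cfsg.Agent.Lib.Helper5.SysNorm

set_option autoImplicit false
open Cfsg

namespace Cfsg.Agent.S0545

open scoped Pointwise

/-- Let K be a Hall complement system of a finite solvable group G and N a normal subgroup. Then the images of the K p in G modulo N form a Hall complement system of the quotient, and its system normalizer is the image of the system normalizer of K. -/
theorem result {G : Type*} [Group G] [Finite G] [Group.IsSolvable G] (K : Nat.Primes → Subgroup G) (hK : Cfsg.IsComplementSystem K) (N : Subgroup G) [N.Normal] : Cfsg.IsComplementSystem (fun p => (K p).map (QuotientGroup.mk' N)) ∧ Cfsg.systemNormalizer (fun p => (K p).map (QuotientGroup.mk' N)) = (Cfsg.systemNormalizer K).map (QuotientGroup.mk' N) := by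
  classical
  have hcard : ∀ r : Nat.Primes,
      Nat.card (K r) * (r : ℕ) ^ (Nat.card G).factorization r = Nat.card G := by
    intro r
    have h1 : Nat.card (K r) * (K r).index = Nat.card G := Subgroup.card_mul_index (K r)
    rw [hK r] at h1
    exact h1
  have hKr : ∀ r : Nat.Primes, ¬ ((r : ℕ) ∣ Nat.card (K r)) := by
    intro r hdvd
    have h1 := hcard r
    have h2 : (r : ℕ) ^ ((Nat.card G).factorization r + 1) ∣
        Nat.card (K r) * (r : ℕ) ^ (Nat.card G).factorization r := by
      rw [pow_succ, mul_comm]
      exact Nat.mul_dvd_mul hdvd (dvd_refl _)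
    rw [h1] at h2
    exact Nat.pow_succ_factorization_not_dvd (Nat.card_pos.ne') r.2 h2
  constructor
  · intro p
    show ((K p).map (QuotientGroup.mk' N)).index = (p : ℕ) ^ (Nat.card (G ⧸ N)).factorization p
    rw [Subgroup.index_map, MonoidHom.range_eq_top_of_surjective _ (QuotientGroup.mk'_surjective N),
      Subgroup.index_top, mul_one, QuotientGroup.ker_mk']
    have h1 : (K p ⊔ N).index ∣ (p : ℕ) ^ (Nat.card G).factorization p := by
      rw [← hK p]; exact Subgroup.index_dvd_of_le le_sup_left
    obtain ⟨b, _, hb⟩ := (Nat.dvd_prime_pow p.2).mp h1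
    rw [hb]
    congr 1
    have h2 : Nat.card (G ⧸ N) = N.relIndex (K p) * (p : ℕ) ^ b := by
      rw [← hb, ← Subgroup.relIndex_sup_right (K p) N, Subgroup.relIndex_mul_index le_sup_right]
      rfl
    have h3 : ¬ (p : ℕ) ∣ N.relIndex (K p) := fun hd =>
      hKr p (hd.trans (Subgroup.relIndex_dvd_card N (K p)))
    have h4 : N.relIndex (K p) ≠ 0 := Subgroup.index_ne_zero_of_finite
    rw [h2, Nat.factorization_mul h4 (pow_ne_zero _ p.2.ne_zero), Finsupp.add_apply,
      Nat.factorization_eq_zero_of_not_dvd h3, zero_add, Nat.Prime.factorization_pow p.2]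
    simp
  · apply le_antisymm
    · intro y hy
      obtain ⟨g, rfl⟩ := QuotientGroup.mk'_surjective N y
      have hy' : ∀ p : Nat.Primes, QuotientGroup.mk' N g ∈
          Subgroup.normalizer (((K p).map (QuotientGroup.mk' N) : Subgroup (G ⧸ N)) : Set (G ⧸ N)) := by
        intro p
        have := hy
        simp only [Cfsg.systemNormalizer, Subgroup.mem_iInf] at this
        exact this p
      have hgN : ∀ p : Nat.Primes, MulAut.conj g • K p ≤ K p ⊔ N := by
        intro p z hz
        rw [Subgroup.mem_pointwise_smul_iff_inv_smul_mem] at hz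
        have h7 : (MulAut.conj g)⁻¹ • z = g⁻¹ * z * g := by simp [MulAut.smul_def, mul_assoc]
        rw [h7] at hz
        have h8 : QuotientGroup.mk' N (g⁻¹ * z * g) ∈ (K p).map (QuotientGroup.mk' N) :=
          Subgroup.mem_map_of_mem _ hz
        have h9 := (Subgroup.mem_normalizer_iff.mp (hy' p) _).mp h8
        rw [← map_mul, ← map_inv, ← map_mul] at h9
        obtain ⟨k', hk', hk'e⟩ := h9
        have h10 : g * (g⁻¹ * z * g) * g⁻¹ = z := by group
        rw [h10] at hk'e
        have h11 : k'⁻¹ * z ∈ N := by
          have := hk'e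
          rw [QuotientGroup.mk'_eq_mk'] at this
          obtain ⟨n, hn, hne⟩ := this
          rw [← hne]
          simpa using hn
        have h12 : z = k' * (k'⁻¹ * z) := by group
        rw [h12]
        exact Subgroup.mul_mem _ (Subgroup.mem_sup_left hk') (Subgroup.mem_sup_right h11)
      have hn : ∀ p : Nat.Primes, ∃ n ∈ N, MulAut.conj n • K p = MulAut.conj g • K p := by
        intro p
        exact Cfsg.Agent.Lib.Helper5.exists_conj_mem_of_le_sup (K p) N p p.2 (hKr p)
          ⟨_, hK p⟩ g (hgN p)
      choose n hnN hn using hn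
      have hM : ∀ p : Nat.Primes, ∃ k,
          ((Subgroup.normalizer ((K p : Subgroup G) : Set G)).subgroupOf N).index = (p : ℕ) ^ k := by
        intro p
        have h1 : (Subgroup.normalizer ((K p : Subgroup G) : Set G)).relIndex N ∣ (K p).relIndex N :=
          Subgroup.relIndex_dvd_of_le_left N Subgroup.le_normalizer
        have h2 : (K p).relIndex N ∣ (K p).index :=
          Dvd.intro _ (Cfsg.Agent.Lib.Helper5.relIndex_mul_index_sup (K p) N)
        rw [hK p] at h2
        obtain ⟨k, _, hk⟩ := (Nat.dvd_prime_pow p.2).mp (h1.trans h2)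
        exact ⟨k, hk⟩
      obtain ⟨m, hm⟩ := Cfsg.Agent.Lib.Helper5.exists_mem_cosets_of_prime_power_index
        (fun p => (Subgroup.normalizer ((K p : Subgroup G) : Set G)).subgroupOf N) hM
        (fun p => (⟨n p, hnN p⟩ : N))
        (Finset.subtype (fun p => Nat.Prime p) (Nat.card G).primeFactors)
      -- the element m⁻¹ * g lies in the system normalizer
      have hD : (m : G)⁻¹ * g ∈ Cfsg.systemNormalizer K := by
        simp only [Cfsg.systemNormalizer, Subgroup.mem_iInf]
        intro p
        by_cases hp : (p : ℕ) ∣ Nat.card G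
        · have hmem : p ∈ Finset.subtype (fun p => Nat.Prime p) (Nat.card G).primeFactors := by
            refine Finset.mem_subtype.mpr ?_
            exact Nat.mem_primeFactors.mpr ⟨p.2, hp, Nat.card_pos.ne'⟩
          have h1 := hm p hmem
          rw [Subgroup.mem_subgroupOf] at h1
          have h1' : (m : G)⁻¹ * n p ∈ Subgroup.normalizer ((K p : Subgroup G) : Set G) := by
            simpa using h1
          have h2 : MulAut.conj ((m : G)⁻¹ * n p) • K p = K p :=
            Cfsg.Agent.Lib.Helper5.conj_smul_eq_of_mem_normalizer (K p) _ h1'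
          have h3 : MulAut.conj ((m : G)⁻¹ * g) • K p = K p := by
            have h4 : MulAut.conj ((m : G)⁻¹ * g) = MulAut.conj ((m : G)⁻¹ * n p) *
                ((MulAut.conj (n p))⁻¹ * MulAut.conj g) := by
              rw [← map_inv, ← map_mul, ← map_mul]
              congr 1
              group
            rw [h4, mul_smul, mul_smul, ← hn p, inv_smul_smul, h2]
          rw [Subgroup.mem_normalizer_iff_map_conj_eq]
          exact h3
        · have h0 : (Nat.card G).factorization p = 0 := Nat.factorization_eq_zero_of_not_dvd hp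
          have hK1 : K p = ⊤ := by
            rw [← Subgroup.index_eq_one, hK p, h0, pow_zero]
          have hle : K p ≤ Subgroup.normalizer ((K p : Subgroup G) : Set G) :=
            Subgroup.le_normalizer
          exact hle (by rw [hK1]; exact Subgroup.mem_top _)
      refine ⟨(m : G)⁻¹ * g, hD, ?_⟩
      rw [map_mul, map_inv]
      have : QuotientGroup.mk' N (m : G) = 1 := by
        rw [QuotientGroup.mk'_apply, QuotientGroup.eq_one_iff]; exact m.2
      rw [this, inv_one, one_mul]
    · rintro _ ⟨d, hd, rfl⟩
      have hd' : ∀ p : Nat.Primes, d ∈ Subgroup.normalizer ((K p : Subgroup G) : Set G) :=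
        fun p => (Subgroup.mem_iInf.mp hd) p
      refine Subgroup.mem_iInf.mpr (fun p => ?_)
      exact Subgroup.le_normalizer_map _ ⟨d, hd' p, rfl⟩

end Cfsg.Agent.S0545
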