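import Cfsg.Statements.S0601
import Cfsg.Agent.Lib.Helper5.SylowQuot

set_option autoImplicit false
open Pointwise
open Cfsg

namespace Cfsg.Agent.S0601

open Cfsg.Agent.Lib.Helper5

/-- When O_p(G) contains its centralizer, the normal closure of Ω₁(Z(S)) is elementary abelian and G has no nontrivial normal p-subgroup modulo its centralizer. -/
theorem result {G : Type*} [Group G] [Finite G] {p : ℕ} [Fact p.Prime] (hc : Subgroup.centralizer (Cfsg.pCore p G : Set G) ≤ Cfsg.pCore p G) : (⨆ S : Sylow p G, Cfsg.omegaOne p (((S : Subgroup G)) ⊓ Subgroup.centralizer ((S : Subgroup G) : Set G))).Normal ∧ Cfsg.IsElementaryAbelian p (⨆ S : Sylow p G, Cfsg.omegaOne p (((S : Subgroup G)) ⊓ Subgroup.centralizer ((S : Subgroup G) : Set G))) ∧ ∀ D : Subgroup G, D.Normal → Subgroup.centralizer ((⨆ S : Sylow p G, Cfsg.omegaOne p (((S : Subgroup G)) ⊓ Subgroup.centralizer ((S : Subgroup G) : Set G)) : Subgroup G) : Set G) ≤ D → (∃ k : ℕ, (Subgroup.centralizer ((⨆ S : Sylow p G, Cfsg.omegaOne p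 (((S : Subgroup G)) ⊓ Subgroup.centralizer ((S : Subgroup G) : Set G)) : Subgroup G) : Set G)).relIndex D = p ^ k) → D = Subgroup.centralizer ((⨆ S : Sylow p G, Cfsg.omegaOne p (((S : Subgroup G)) ⊓ Subgroup.centralizer ((S : Subgroup G) : Set G)) : Subgroup G) : Set G) := by
  set W := ⨆ S : Sylow p G, Cfsg.omegaOne p ((S : Subgroup G) ⊓ Subgroup.centralizer ((S : Subgroup G) : Set G)) with hW
  set T : Set G := ⋃ S : Sylow p G, {x : G | x ∈ (S : Subgroup G) ⊓ Subgroup.centralizer ((S : Subgroup G) : Set G) ∧ x ^ p = 1} with hTdef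
  have hWT : W = Subgroup.closure T := by
    rw [hTdef, Subgroup.closure_iUnion]; rfl
  have hQp : IsPGroup p (Cfsg.pCore p G) :=
    Sylow.sSup_of_normal _ (fun H hH => hH.2) (fun H hH => hH.1)
  have hT : ∀ x ∈ T, x ∈ Cfsg.pCore p G ⊓ Subgroup.centralizer (Cfsg.pCore p G : Set G) ∧ x ^ p = 1 := by
    intro x hx
    obtain ⟨S, hxS⟩ := Set.mem_iUnion.mp hx
    obtain ⟨⟨hx1, hx2⟩, hxp⟩ := hxS
    have hQS : Cfsg.pCore p G ≤ S := hQp.le_sylow_of_normal S
    have hxc : x ∈ Subgroup.centralizer (Cfsg.pCore p G : Set G) := Subgroup.centralizer_le hQS hx2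
    exact ⟨⟨hc hxc, hxc⟩, hxp⟩
  have hTcomm : ∀ x ∈ T, ∀ y ∈ T, x * y = y * x := by
    intro x hx y hy
    exact Subgroup.mem_centralizer_iff.mp (hT y hy).1.2 x (hT x hx).1.1
  have hWc : IsMulCommutative W := by rw [hWT]; exact Subgroup.isMulCommutative_closure hTcomm
  have hWcomm : ∀ a ∈ W, ∀ b ∈ W, a * b = b * a := by
    intro a ha b hb
    have := hWc.is_comm.comm (⟨a, ha⟩ : W) ⟨b, hb⟩
    exact congrArg Subtype.val this
  have hWp : ∀ a ∈ W, a ^ p = 1 := by
    intro a ha
    rw [hWT] at ha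
    induction ha using Subgroup.closure_induction with
    | mem x hx => exact (hT x hx).2
    | one => simp
    | mul x y hx hy ihx ihy =>
      have hcm : Commute x y := hWcomm x (by rw [hWT]; exact hx) y (by rw [hWT]; exact hy)
      rw [hcm.mul_pow, ihx, ihy, one_mul]
    | inv x hx ih => rw [inv_pow, ih, inv_one]
  have hWn : W.Normal := by
    constructor
    intro n hn g
    rw [hWT] at hn ⊢
    induction hn using Subgroup.closure_induction with
    | mem x hx =>
      apply Subgroup.subset_closure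
      obtain ⟨S, hxS⟩ := Set.mem_iUnion.mp hx
      obtain ⟨⟨hx1, hx2⟩, hxp⟩ := hxS
      refine Set.mem_iUnion.mpr ⟨g • S, ⟨?_, ?_⟩, ?_⟩
      · show g * x * g⁻¹ ∈ ((g • S : Sylow p G) : Subgroup G)
        rw [Sylow.coe_subgroup_smul, Subgroup.mem_pointwise_smul_iff_inv_smul_mem]
        have hx1' : x ∈ (S : Subgroup G) := hx1
        have h7 : (MulAut.conj g)⁻¹ • (g * x * g⁻¹) = x := by
          simp [MulAut.smul_def, mul_assoc]
        rw [h7]; exact hx1'
      · show g * x * g⁻¹ ∈ Subgroup.centralizer (((g • S : Sylow p G) : Subgroup G) : Set G)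
        rw [Subgroup.mem_centralizer_iff]
        intro y hy
        have hy' : g⁻¹ * y * g ∈ (S : Subgroup G) := by
          have h5 : y ∈ ((g • S : Sylow p G) : Subgroup G) := hy
          rw [Sylow.coe_subgroup_smul, Subgroup.mem_pointwise_smul_iff_inv_smul_mem] at h5
          have h8 : (MulAut.conj g)⁻¹ • y = g⁻¹ * y * g := by
            simp [MulAut.smul_def, mul_assoc]
          rw [h8] at h5; exact h5
        have h3 := Subgroup.mem_centralizer_iff.mp hx2 _ hy'
        calc y * (g * x * g⁻¹) = g * ((g⁻¹ * y * g) * x) * g⁻¹ := by group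
          _ = g * (x * (g⁻¹ * y * g)) * g⁻¹ := by rw [h3]
          _ = g * x * g⁻¹ * y := by group
      · rw [conj_pow, hxp]; group
    | one => simp
    | mul x y hx hy ihx ihy =>
      have h6 : g * (x * y) * g⁻¹ = (g * x * g⁻¹) * (g * y * g⁻¹) := by group
      rw [h6]; exact Subgroup.mul_mem _ ihx ihy
    | inv x hx ih =>
      have h6 : g * x⁻¹ * g⁻¹ = (g * x * g⁻¹)⁻¹ := by group
      rw [h6]; exact Subgroup.inv_mem _ ih
  refine ⟨hWn, ⟨hWc, hWp⟩, ?_⟩
  rintro D hDn hCD ⟨k, hk⟩
  apply le_antisymm _ hCD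
  intro g hg
  have hCn : (Subgroup.centralizer (W : Set G)).Normal := Subgroup.normal_centralizer
  have hNn : (D.map (QuotientGroup.mk' (Subgroup.centralizer (W : Set G)))).Normal :=
    hDn.map _ (QuotientGroup.mk'_surjective _)
  have hNp : IsPGroup p (D.map (QuotientGroup.mk' (Subgroup.centralizer (W : Set G)))) := by
    apply IsPGroup.of_card (n := k)
    rw [← hk, ← Subgroup.relIndex_ker, QuotientGroup.ker_mk']
  have hle : W ≤ Subgroup.centralizer ({g} : Set G) := by
    rw [hWT, Subgroup.closure_le]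
    intro x hx
    obtain ⟨S, hxS⟩ := Set.mem_iUnion.mp hx
    obtain ⟨⟨hx1, hx2⟩, hxp⟩ := hxS
    obtain ⟨s, hs, c, hc', rfl⟩ := exists_mul_of_mem_normal_pgroup_quot
      (Subgroup.centralizer (W : Set G)) _ hNp g (Subgroup.mem_map_of_mem _ hg) S
    rw [SetLike.mem_coe, Subgroup.mem_centralizer_iff]
    intro z hz
    rw [Set.mem_singleton_iff] at hz
    rw [hz]
    have h1 : s * x = x * s := Subgroup.mem_centralizer_iff.mp hx2 s hs
    have hxW : x ∈ W := by rw [hWT]; exact Subgroup.subset_closure hx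
    have h2 : x * c = c * x := Subgroup.mem_centralizer_iff.mp hc' x hxW
    calc s * c * x = s * (c * x) := by group
      _ = s * (x * c) := by rw [h2]
      _ = (s * x) * c := by group
      _ = x * s * c := by rw [h1]
      _ = x * (s * c) := by group
  rw [Subgroup.mem_centralizer_iff]
  intro v hv
  exact (Subgroup.mem_centralizer_iff.mp (hle hv) g (Set.mem_singleton g)).symm

end Cfsg.Agent.S0601
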