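import Cfsg.Statements.S0606
import Cfsg.Agent.Lib.Helper6.Thompson

set_option autoImplicit false
open Cfsg

namespace Cfsg.Agent.S0606

/-- Elementary abelian p-subgroups of maximal order are best offenders on any normal elementary abelian p-subgroup. -/
theorem result {G : Type*} [Group G] [Finite G] {p : ℕ} [Fact p.Prime] (V : Subgroup G) [V.Normal] (hV : Cfsg.IsElementaryAbelian p V) (A : Subgroup G) (hA : A ∈ Cfsg.maxElementaryAbelianSubgroups p G) : Cfsg.IsBestOffenderOn p V A := by
  have hAc : IsMulCommutative A := hA.1.1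
  refine ⟨?_, ?_, ?_⟩
  · intro B hBA
    have hBea : Cfsg.IsElementaryAbelian p B := Cfsg.Agent.Lib.Helper6.ea_mono hA.1 hBA
    have hDea : Cfsg.IsElementaryAbelian p (V ⊓ Subgroup.centralizer (B : Set G)) :=
      Cfsg.Agent.Lib.Helper6.ea_mono hV inf_le_left
    have hcomm : ∀ b ∈ B, ∀ d ∈ V ⊓ Subgroup.centralizer (B : Set G), b * d = d * b := by
      intro b hb d hd
      exact (Subgroup.mem_centralizer_iff.mp hd.2 b hb)
    have hE := Cfsg.Agent.Lib.Helper6.ea_sup hBea hDea hcomm
    have h1 := hA.2 _ hE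
    have h2 := Cfsg.Agent.Lib.Helper6.card_mul_card_le_sup_mul_inf B
      (V ⊓ Subgroup.centralizer (B : Set G))
    have h3 : B ⊓ (V ⊓ Subgroup.centralizer (B : Set G)) ≤ V ⊓ Subgroup.centralizer (A : Set G) := by
      intro x hx
      refine ⟨hx.2.1, ?_⟩
      show x ∈ Subgroup.centralizer (A : Set G)
      rw [Subgroup.mem_centralizer_iff]
      intro a ha
      exact setLike_mul_comm ha (hBA hx.1)
    have h4 : Nat.card ↥(B ⊓ (V ⊓ Subgroup.centralizer (B : Set G))) ≤
        Nat.card ↥(V ⊓ Subgroup.centralizer (A : Set G)) := Subgroup.card_le_of_le h3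
    calc Nat.card B * Nat.card ↥(V ⊓ Subgroup.centralizer (B : Set G))
        ≤ Nat.card ↥(B ⊔ (V ⊓ Subgroup.centralizer (B : Set G))) *
          Nat.card ↥(B ⊓ (V ⊓ Subgroup.centralizer (B : Set G))) := h2
      _ ≤ Nat.card A * Nat.card ↥(V ⊓ Subgroup.centralizer (A : Set G)) :=
          Nat.mul_le_mul h1 h4
  · have : ⁅A, A⁆ = ⊥ := by
      rw [Subgroup.commutator_eq_bot_iff_le_centralizer]
      intro a ha
      rw [Subgroup.mem_centralizer_iff]
      intro b hb
      exact setLike_mul_comm hb ha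
    rw [this]
    exact bot_le
  · intro a ha
    rw [hA.1.2 a ha]
    exact one_mem _

end Cfsg.Agent.S0606
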