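import Cfsg.Statements.S0604
import Cfsg.Agent.Lib.Helper6.Thompson

set_option autoImplicit false
open Cfsg

namespace Cfsg.Agent.S0604

/-- The Thompson subgroup of G is the join of the Thompson subgroups of its Sylow p-subgroups. -/
theorem result {G : Type*} [Group G] [Finite G] {p : ℕ} [Fact p.Prime] : Cfsg.thompsonSubgroup p G = ⨆ S : Sylow p G, Cfsg.thompsonSubgroupOf p (S : Subgroup G) := by
  obtain ⟨A₀, hA₀⟩ := Cfsg.Agent.Lib.Helper6.maxElementaryAbelianSubgroups_nonempty (G := G) p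
  apply le_antisymm
  · apply sSup_le
    intro A hA
    obtain ⟨S, hS⟩ := (Cfsg.Agent.Lib.Helper6.ea_isPGroup hA.1).exists_le_sylow
    have h1 := Cfsg.Agent.Lib.Helper6.subgroupOf_mem_maxElementaryAbelianSubgroups hA hS
    have h2 : A = (A.subgroupOf (S : Subgroup G)).map (S : Subgroup G).subtype := by
      rw [Subgroup.map_subgroupOf_eq_of_le hS]
    have h3 : A ≤ Cfsg.thompsonSubgroupOf p (S : Subgroup G) := by
      rw [h2]
      exact Subgroup.map_mono (Cfsg.Agent.Lib.Helper6.le_thompsonSubgroup h1)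
    exact h3.trans (le_iSup (fun S : Sylow p G => Cfsg.thompsonSubgroupOf p (S : Subgroup G)) S)
  · apply iSup_le
    intro S
    obtain ⟨S', hS'⟩ := (Cfsg.Agent.Lib.Helper6.ea_isPGroup hA₀.1).exists_le_sylow
    obtain ⟨g, hg⟩ := MulAction.exists_smul_eq G S' S
    have hA₁ := Cfsg.Agent.Lib.Helper6.map_mem_maxElementaryAbelianSubgroups (MulAut.conj g) hA₀
    have hA₁S : A₀.map (MulAut.conj g).toMonoidHom ≤ (S : Subgroup G) := by
      rw [← hg]
      rintro _ ⟨a, ha, rfl⟩
      rw [Sylow.coe_subgroup_smul]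
      exact Subgroup.smul_mem_pointwise_smul a (MulAut.conj g) _ (hS' ha)
    unfold Cfsg.thompsonSubgroupOf
    rw [Subgroup.map_le_iff_le_comap]
    apply sSup_le
    intro B hB
    rw [← Subgroup.map_le_iff_le_comap]
    exact Cfsg.Agent.Lib.Helper6.le_thompsonSubgroup
      (Cfsg.Agent.Lib.Helper6.map_subtype_mem_maxElementaryAbelianSubgroups hA₁ hA₁S hB)

end Cfsg.Agent.S0604
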