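import Cfsg.Statements.S0608
import Mathlib
import Cfsg.Agent.Lib.Helper6.ThompsonG
import Cfsg.Agent.S0604

set_option autoImplicit false
open Cfsg

namespace Cfsg.Agent.S0608

open Cfsg.Agent.Lib.Helper6

/-- With trivial p'-core, Thompson factorizability is equivalent to J(G) centralizing the subgroup generated by all Ω₁(Z(S)), S Sylow. -/
theorem result {G : Type*} [Group G] [Finite G] {p : ℕ} [Fact p.Prime] (hO : Cfsg.pPrimeCore p G = ⊥) : Cfsg.IsThompsonFactorizable p G ↔ Cfsg.thompsonSubgroup p G ≤ Subgroup.centralizer ((⨆ S : Sylow p G, Cfsg.omegaOne p (((S : Subgroup G)) ⊓ Subgroup.centralizer ((S : Subgroup G) : Set G)) : Subgroup G) : Set G) := by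
  constructor
  · intro hf
    rw [Subgroup.le_centralizer_iff]
    apply iSup_le
    intro S
    rw [Subgroup.le_centralizer_iff]
    unfold Cfsg.thompsonSubgroup
    apply sSup_le
    intro A hA
    rw [Subgroup.le_centralizer_iff]
    unfold Cfsg.omegaOne
    rw [Subgroup.closure_le]
    rintro z ⟨hz, hzp⟩
    rw [SetLike.mem_coe, Subgroup.mem_centralizer_iff]
    intro a ha
    obtain ⟨T, hT⟩ := (ea_isPGroup hA.1).exists_le_sylow
    obtain ⟨g, hg⟩ := MulAction.exists_smul_eq G T S
    subst hg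
    obtain ⟨x, hx, c, hc, n, hn, hgx⟩ := hf T g⁻¹
    rw [hO, Subgroup.mem_bot] at hx
    rw [hx, one_mul] at hgx
    have hg' : g = n⁻¹ * c⁻¹ := by
      rw [← inv_inv g, hgx]; group
    have hzS : z ∈ ((g • T : Sylow p G) : Subgroup G) := hz.1
    have hzC : z ∈ Subgroup.centralizer (((g • T : Sylow p G) : Subgroup G) : Set G) := hz.2
    rw [sylow_smul_eq_map] at hzS hzC
    obtain ⟨y, hyT, hyz⟩ := hzS
    have hyz' : z = g * y * g⁻¹ := hyz.symm
    have hyC : y ∈ Subgroup.centralizer ((T : Subgroup G) : Set G) := by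
      rw [Subgroup.mem_centralizer_iff]
      intro t ht
      have h1 : g * t * g⁻¹ ∈ ((T : Subgroup G).map (MulAut.conj g).toMonoidHom) := ⟨t, ht, rfl⟩
      have h2 := Subgroup.mem_centralizer_iff.mp hzC _ h1
      rw [hyz'] at h2
      have h3 := congrArg (fun w => g⁻¹ * w * g) h2
      simpa [mul_assoc] using h3
    have hyp : y ^ p = 1 := by
      have h4 : (g * y * g⁻¹) ^ p = 1 := by rw [← hyz']; exact hzp
      rw [conj_pow] at h4
      have h3 := congrArg (fun w => g⁻¹ * w * g) h4
      simpa [mul_assoc] using h3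
    have hyΩ : y ∈ Cfsg.omegaOne p ((T : Subgroup G) ⊓
        Subgroup.centralizer ((T : Subgroup G) : Set G)) :=
      Subgroup.subset_closure ⟨⟨hyT, hyC⟩, hyp⟩
    have hcy : y * c = c * y := Subgroup.mem_centralizer_iff.mp hc y hyΩ
    have hz2 : z = n⁻¹ * y * n := by
      rw [hyz', hg']
      have h5 : c⁻¹ * y * c = y := by rw [mul_assoc, hcy, inv_mul_cancel_left]
      calc n⁻¹ * c⁻¹ * y * (n⁻¹ * c⁻¹)⁻¹ = n⁻¹ * (c⁻¹ * y * c) * n := by group
        _ = n⁻¹ * y * n := by rw [h5]
    have haJ : a ∈ Cfsg.thompsonSubgroupOf p (T : Subgroup G) := by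
      rw [thompsonSubgroupOf_sylow_eq_JG]
      exact le_JG hA hT ha
    have hnaJ : n * a * n⁻¹ ∈ Cfsg.thompsonSubgroupOf p (T : Subgroup G) :=
      (Subgroup.mem_normalizer_iff.mp hn a).mp haJ
    have hnaT : n * a * n⁻¹ ∈ (T : Subgroup G) := by
      unfold Cfsg.thompsonSubgroupOf at hnaJ
      exact Subgroup.map_subtype_le _ hnaJ
    have hcomm : (n * a * n⁻¹) * y = y * (n * a * n⁻¹) :=
      Subgroup.mem_centralizer_iff.mp hyC _ hnaT
    rw [hz2]
    calc a * (n⁻¹ * y * n) = n⁻¹ * ((n * a * n⁻¹) * y) * n := by group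
      _ = n⁻¹ * (y * (n * a * n⁻¹)) * n := by rw [hcomm]
      _ = n⁻¹ * y * n * a := by group
  · intro hJ S g
    have hVn : (⨆ S : Sylow p G, Cfsg.omegaOne p ((S : Subgroup G) ⊓
        Subgroup.centralizer ((S : Subgroup G) : Set G))).Normal := by
      constructor
      intro v hv h
      have hmap : (⨆ S : Sylow p G, Cfsg.omegaOne p ((S : Subgroup G) ⊓
          Subgroup.centralizer ((S : Subgroup G) : Set G))).map (MulAut.conj h).toMonoidHom ≤
          ⨆ S : Sylow p G, Cfsg.omegaOne p ((S : Subgroup G) ⊓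
          Subgroup.centralizer ((S : Subgroup G) : Set G)) := by
        rw [Subgroup.map_iSup]
        apply iSup_le
        intro T
        refine le_trans ?_ (le_iSup (fun S : Sylow p G => Cfsg.omegaOne p ((S : Subgroup G) ⊓
          Subgroup.centralizer ((S : Subgroup G) : Set G))) (h • T))
        unfold Cfsg.omegaOne
        rw [MonoidHom.map_closure]
        apply Subgroup.closure_mono
        rintro _ ⟨z, ⟨⟨hzT, hzC⟩, hzp⟩, rfl⟩
        refine ⟨⟨?_, ?_⟩, ?_⟩
        · rw [sylow_smul_eq_map]; exact ⟨z, hzT, rfl⟩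
        · rw [sylow_smul_eq_map]
          refine Subgroup.mem_centralizer_iff.mpr ?_
          rintro _ ⟨t, ht, rfl⟩
          have h6 := Subgroup.mem_centralizer_iff.mp hzC t ht
          show h * t * h⁻¹ * (h * z * h⁻¹) = h * z * h⁻¹ * (h * t * h⁻¹)
          calc h * t * h⁻¹ * (h * z * h⁻¹) = h * (t * z) * h⁻¹ := by group
            _ = h * (z * t) * h⁻¹ := by rw [h6]
            _ = h * z * h⁻¹ * (h * t * h⁻¹) := by group
        · show (h * z * h⁻¹) ^ p = 1
          rw [conj_pow, hzp]; group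
      exact hmap ⟨v, hv, rfl⟩
    have hCn : (Subgroup.centralizer ((⨆ S : Sylow p G, Cfsg.omegaOne p ((S : Subgroup G) ⊓
        Subgroup.centralizer ((S : Subgroup G) : Set G)) : Subgroup G) : Set G)).Normal :=
      Subgroup.normal_centralizer
    generalize hCdef : Subgroup.centralizer ((⨆ S : Sylow p G, Cfsg.omegaOne p ((S : Subgroup G) ⊓
        Subgroup.centralizer ((S : Subgroup G) : Set G)) : Subgroup G) : Set G) = C at hJ hCn
    have hJS : Cfsg.thompsonSubgroupOf p (S : Subgroup G) ≤ C := by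
      refine le_trans ?_ hJ
      rw [Cfsg.Agent.S0604.result (G := G) (p := p)]
      exact le_iSup (fun S : Sylow p G => Cfsg.thompsonSubgroupOf p (S : Subgroup G)) S
    have hJSle : Cfsg.thompsonSubgroupOf p (S : Subgroup G) ≤ (S : Subgroup G) :=
      Subgroup.map_subtype_le _
    have hJp : IsPGroup p ((Cfsg.thompsonSubgroupOf p (S : Subgroup G)).subgroupOf C) :=
      (S.isPGroup'.to_le hJSle).comap_subtype
    obtain ⟨P, hP⟩ := hJp.exists_le_sylow
    have hfr := Sylow.normalizer_sup_eq_top P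
    have hJP' : Cfsg.thompsonSubgroupOf p (S : Subgroup G) ≤ (P : Subgroup C).map C.subtype := by
      intro x hx
      exact ⟨⟨x, hJS hx⟩, hP (by rw [Subgroup.mem_subgroupOf]; exact hx), rfl⟩
    have hP'p : IsPGroup p ((P : Subgroup C).map C.subtype) := P.isPGroup'.map _
    obtain ⟨Q, hQ⟩ := hP'p.exists_le_sylow
    obtain ⟨h, hh⟩ := MulAction.exists_smul_eq G S Q
    have e1 : Cfsg.thompsonSubgroupOf p (S : Subgroup G) = JG p (S : Subgroup G) :=
      thompsonSubgroupOf_sylow_eq_JG S
    have h1 : JG p (S : Subgroup G) ≤ JG p ((P : Subgroup C).map C.subtype) := by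
      apply sSup_le
      rintro A ⟨hA, hAS⟩
      exact le_JG hA ((le_JG hA hAS).trans (e1 ▸ hJP'))
    have h2 : JG p ((P : Subgroup C).map C.subtype) ≤
        (JG p (S : Subgroup G)).map (MulAut.conj h).toMonoidHom := by
      rw [JG_map_conj, ← sylow_smul_eq_map, hh]
      exact JG_mono p hQ
    have h3 : JG p (S : Subgroup G) = JG p ((P : Subgroup C).map C.subtype) := by
      apply Subgroup.eq_of_le_of_card_ge h1
      calc Nat.card (JG p ((P : Subgroup C).map C.subtype)) ≤
            Nat.card ((JG p (S : Subgroup G)).map (MulAut.conj h).toMonoidHom) :=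
              Subgroup.card_le_of_le h2
        _ = Nat.card (JG p (S : Subgroup G)) :=
              Subgroup.card_map_of_injective (MulAut.conj h).injective
    have hg : g ∈ (↑(C ⊔ Subgroup.normalizer (((P : Subgroup C).map C.subtype : Subgroup G) :
        Set G)) : Set G) := by
      rw [sup_comm, hfr]; trivial
    rw [Subgroup.normal_mul] at hg
    obtain ⟨c, hc, n, hn, rfl⟩ := Set.mem_mul.mp hg
    refine ⟨1, Subgroup.one_mem _, c, ?_, n, ?_, by rw [one_mul]⟩
    · have h7 : Cfsg.omegaOne p ((S : Subgroup G) ⊓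
          Subgroup.centralizer ((S : Subgroup G) : Set G)) ≤
          ⨆ S : Sylow p G, Cfsg.omegaOne p ((S : Subgroup G) ⊓
          Subgroup.centralizer ((S : Subgroup G) : Set G)) :=
        le_iSup (fun S : Sylow p G => Cfsg.omegaOne p ((S : Subgroup G) ⊓
          Subgroup.centralizer ((S : Subgroup G) : Set G))) S
      rw [← hCdef] at hc
      exact Subgroup.centralizer_le h7 hc
    · rw [e1, h3]
      exact mem_normalizer_JG p hn

end Cfsg.Agent.S0608
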