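import Cfsg.Statements.S0250
import Mathlib
import Cfsg.Agent.Lib.Helper3.PSL2Small
import Cfsg.Agent.Lib.Helper3.SL2Sylow

set_option autoImplicit false
open Cfsg

namespace Cfsg.Agent.S0250

/-- SL_2(2) is isomorphic to S_3. -/
theorem result {F : Type*} [Field F] [Fintype F] (hF : Fintype.card F = 2) : Nonempty (Matrix.SpecialLinearGroup (Fin 2) F ≃* Equiv.Perm (Fin 3)) := by
  classical
  obtain ⟨e⟩ := Cfsg.Agent.Lib.Helper3.nonempty_projLine_equiv (F := F) (n := 3) (by rw [hF])
  have hker : (MulAction.toPermHom (Matrix.SpecialLinearGroup (Fin 2) F) (Projectivization F (Fin 2 → F))).ker = ⊥ := by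
    rw [Projectivization.SL_mulAction_ker, eq_bot_iff]
    intro A hA
    rw [Matrix.SpecialLinearGroup.mem_center_iff] at hA
    obtain ⟨r, hr1, hr2⟩ := hA
    have hr0 : r ≠ 0 := by
      rintro rfl
      simp at hr1
    have hr : r = 1 := by
      have h1 : Fintype.card Fˣ = 1 := by rw [Fintype.card_units, hF]
      have hs : Subsingleton Fˣ := Fintype.card_le_one_iff_subsingleton.mp h1.le
      have := congrArg Units.val (Subsingleton.elim (Units.mk0 r hr0) 1)
      simpa using this
    rw [Subgroup.mem_bot]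
    apply Subtype.ext
    rw [← hr2, hr]
    simp
  have hinj : Function.Injective ((e.permCongrHom.toMonoidHom).comp (MulAction.toPermHom (Matrix.SpecialLinearGroup (Fin 2) F) (Projectivization F (Fin 2 → F)))) :=
    e.permCongrHom.injective.comp ((MonoidHom.ker_eq_bot_iff _).mp hker)
  have hcard : Nat.card (Equiv.Perm (Fin 3)) ≤ Nat.card (Matrix.SpecialLinearGroup (Fin 2) F) := by
    rw [Cfsg.Agent.Lib.Helper3.card_SL2_eq, hF, Nat.card_eq_fintype_card, Fintype.card_perm, Fintype.card_fin]
    decide
  exact ⟨MulEquiv.ofBijective _ (hinj.bijective_of_nat_card_le hcard)⟩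

end Cfsg.Agent.S0250
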