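import Cfsg.Statements.S1119
import Cfsg.Agent.Lib.Helper9.RankOne

set_option autoImplicit false
open Pointwise
open Cfsg

namespace Cfsg.Agent.S1119

open Cfsg.Agent.Lib.Helper9 MulAction

variable {G Ω : Type*} [Group G] [MulAction G Ω] {a : Ω} {t : G} {Q : Subgroup G}

theorem pretransitive (hS : Cfsg.IsRankOneSetup G Ω a t Q) : IsPretransitive G Ω := by
  have := hS.two_transitive
  exact MulAction.isPretransitive_of_is_two_pretransitive

theorem finite_points [Finite G] (hS : Cfsg.IsRankOneSetup G Ω a t Q) : Finite Ω := by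
  have := pretransitive hS
  exact Finite.of_surjective (fun g : G => g • a) (MulAction.surjective_smul G a)

/-- `Q` is in bijection with the points other than `a`. -/
noncomputable def equivPoints (hS : Cfsg.IsRankOneSetup G Ω a t Q) : Q ≃ {b : Ω // b ≠ a} :=
  Equiv.ofBijective (fun x => ⟨(x : G) • (t • a), ro_Q_smul_ne hS x.2 (ro_ta_ne hS)⟩) (by
    constructor
    · intro x y hxy
      have h1 : (x : G) • (t • a) = (y : G) • (t • a) := congrArg Subtype.val hxy
      obtain ⟨z, -, hz⟩ := ro_existsUnique_Q hS (ro_ta_ne hS) (ro_Q_smul_ne hS y.2 (ro_ta_ne hS))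
      rw [hz x h1, hz y rfl]
    · rintro ⟨b, hb⟩
      obtain ⟨x, hx, hxb⟩ := ro_exists_Q hS hb
      exact ⟨⟨x, hx⟩, Subtype.ext hxb⟩)

theorem card_points [Finite G] (hS : Cfsg.IsRankOneSetup G Ω a t Q) :
    Nat.card Ω = Nat.card Q + 1 := by
  classical
  have := finite_points hS
  rw [← Nat.card_congr (Equiv.optionSubtypeNe a), Finite.card_option,
    Nat.card_congr (equivPoints hS)]

/-- The point stabiliser is in bijection with `Q × D`. -/
noncomputable def equivStab (hS : Cfsg.IsRankOneSetup G Ω a t Q) :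
    Q × ↥(stabilizer G a ⊓ stabilizer G (t • a)) ≃ stabilizer G a :=
  Equiv.ofBijective (fun p => ⟨(p.1 : G) * (p.2 : G),
      mul_mem (hS.le p.1.2) (Subgroup.mem_inf.mp p.2.2).1⟩) (by
    constructor
    · rintro ⟨⟨q, hq⟩, ⟨d, hd⟩⟩ ⟨⟨q', hq'⟩, ⟨d', hd'⟩⟩ h
      have h1 : q * d = q' * d' := congrArg Subtype.val h
      have h3 : q'⁻¹ * q = d' * d⁻¹ := by
        have : q'⁻¹ * (q * d) * d⁻¹ = q'⁻¹ * (q' * d') * d⁻¹ := by rw [h1]
        simpa [mul_assoc] using this
      have h4 : q'⁻¹ * q ∈ Q ⊓ stabilizer G (t • a) :=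
        Subgroup.mem_inf.mpr ⟨mul_mem (inv_mem hq') hq, by
          rw [h3]; exact mul_mem (Subgroup.mem_inf.mp hd').2 (inv_mem (Subgroup.mem_inf.mp hd).2)⟩
      rw [hS.inf_eq_bot, Subgroup.mem_bot] at h4
      have hq_eq : q = q' := (inv_mul_eq_one.mp h4).symm
      subst hq_eq
      have hd_eq : d = d' := mul_left_cancel h1
      subst hd_eq
      rfl
    · rintro ⟨g, hg⟩
      obtain ⟨q, hq, d, hd, rfl⟩ := ro_stab_decomp hS hg
      exact ⟨⟨⟨q, hq⟩, ⟨d, hd⟩⟩, rfl⟩)

theorem card_stab (hS : Cfsg.IsRankOneSetup G Ω a t Q) :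
    Nat.card (stabilizer G a) =
      Nat.card Q * Nat.card ↥(stabilizer G a ⊓ stabilizer G (t • a)) := by
  rw [← Nat.card_congr (equivStab hS), Nat.card_prod]

theorem card_group [Finite G] (hS : Cfsg.IsRankOneSetup G Ω a t Q) :
    Nat.card G =
      Nat.card Q * Nat.card ↥(stabilizer G a ⊓ stabilizer G (t • a)) * (Nat.card Q + 1) := by
  have := pretransitive hS
  rw [← card_stab hS, ← card_points hS, ← MulAction.index_stabilizer_of_transitive G a,
    Subgroup.card_mul_index]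

theorem exists_sylow [Finite G] (hS : Cfsg.IsRankOneSetup G Ω a t Q) :
    ∃ P : Sylow 2 G, (P : Subgroup G) ≤ Q := by
  have : Fact (Nat.Prime 2) := ⟨Nat.prime_two⟩
  obtain ⟨P₀⟩ : Nonempty (Sylow 2 Q) := inferInstance
  have hcard : Nat.card ((P₀ : Subgroup Q).map Q.subtype) = 2 ^ (Nat.card G).factorization 2 := by
    rw [Nat.card_congr ((P₀ : Subgroup Q).equivMapOfInjective Q.subtype
      Q.subtype_injective).symm.toEquiv, Sylow.card_eq_multiplicity, card_group hS]
    have hQ : Nat.card Q ≠ 0 := Nat.card_pos.ne'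
    have hD : Nat.card ↥(stabilizer G a ⊓ stabilizer G (t • a)) ≠ 0 := Nat.card_pos.ne'
    rw [Nat.factorization_mul (Nat.mul_ne_zero hQ hD) (Nat.succ_ne_zero _),
      Nat.factorization_mul hQ hD]
    have h1 : (Nat.card ↥(stabilizer G a ⊓ stabilizer G (t • a))).factorization 2 = 0 := by
      apply Nat.factorization_eq_zero_of_not_dvd
      intro h
      have := hS.odd_card
      rw [← Nat.not_even_iff_odd] at this
      exact this (even_iff_two_dvd.mpr h)
    have h2 : (Nat.card Q + 1).factorization 2 = 0 := by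
      apply Nat.factorization_eq_zero_of_not_dvd
      intro h
      have h3 : Odd (Nat.card Q + 1) := hS.even_card.add_one
      rw [← Nat.not_even_iff_odd] at h3
      exact h3 (even_iff_two_dvd.mpr h)
    simp only [Finsupp.coe_add, Pi.add_apply, h1, h2, add_zero]
  refine ⟨Sylow.ofCard _ hcard, ?_⟩
  rw [Sylow.coe_ofCard]
  exact Subgroup.map_subtype_le _

theorem canon [Finite G] (hS : Cfsg.IsRankOneSetup G Ω a t Q) (g : G)
    (hg : g ∉ stabilizer G a) :
    ∃! p : G × G, p.1 ∈ stabilizer G a ∧ p.2 ∈ Q ∧ g = p.1 * t * p.2 := by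
  have hb : g⁻¹ • a ≠ a := by
    intro h
    apply hg
    rw [MulAction.mem_stabilizer_iff]
    have := congrArg (fun b => g • b) h
    simpa using this.symm
  obtain ⟨y', hy', hyb⟩ := ro_exists_Q hS hb
  have hti := ro_t_inv hS
  refine ⟨(g * y' * t, y'⁻¹), ⟨?_, inv_mem hy', ?_⟩, ?_⟩
  · rw [MulAction.mem_stabilizer_iff, mul_smul, mul_smul, hyb, smul_smul, mul_inv_cancel, one_smul]
  · simp [mul_assoc, ro_tt_mul hS]
  · rintro ⟨x₁, y₁⟩ ⟨hx₁, hy₁, e⟩
    have hx₁a : x₁⁻¹ • a = a := MulAction.mem_stabilizer_iff.mp (inv_mem hx₁)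
    have h1 : g⁻¹ • a = y₁⁻¹ • (t • a) := by
      rw [e]
      simp only [mul_inv_rev, mul_smul, hx₁a, hti]
    have h2 : y'⁻¹ * y₁⁻¹ = 1 := by
      apply ro_free hS (mul_mem (inv_mem hy') (inv_mem hy₁)) (ro_ta_ne hS)
      rw [mul_smul, ← h1, ← hyb, smul_smul, inv_mul_cancel, one_smul]
    have hy_eq : y₁ = y'⁻¹ := by
      have := inv_mul_eq_one.mp h2
      rw [this, inv_inv]
    subst hy_eq
    have hx_eq : x₁ = g * y' * t := by
      rw [e]; simp [mul_assoc, hS.mul_self]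
    rw [hx_eq]

/-- In the rank-one set-up (`G` finite and doubly transitive on `Ω`, `t` an involution moving `a`, `Q` normal in `G_a` with `G_a = Q D`, `Q ⊓ D = 1` for the two-point stabiliser `D = G_a ⊓ G_{t • a}`, `|Q|` even, `|D|` odd): `Q` acts regularly on `Ω` minus `a`; hence `|Ω| = |Q| + 1`, `|G| = |Q| |D| (|Q| + 1)`, some Sylow 2-subgroup of `G` lies in `Q`, and each `g ∉ G_a` is uniquely `x t y` with `x ∈ G_a`, `y ∈ Q` (canonical form). -/
theorem result {G Ω : Type*} [Group G] [Finite G] [MulAction G Ω] {a : Ω} {t : G} {Q : Subgroup G}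
    (hS : Cfsg.IsRankOneSetup G Ω a t Q) :
    (∀ b c : Ω, b ≠ a → c ≠ a → ∃! x : Q, (x : G) • b = c) ∧
      Nat.card Ω = Nat.card Q + 1 ∧
      Nat.card G = Nat.card Q * Nat.card ↥(MulAction.stabilizer G a ⊓ MulAction.stabilizer G (t • a)) * (Nat.card Q + 1) ∧
      (∃ P : Sylow 2 G, (P : Subgroup G) ≤ Q) ∧
      ∀ g : G, g ∉ MulAction.stabilizer G a → ∃! p : G × G, p.1 ∈ MulAction.stabilizer G a ∧ p.2 ∈ Q ∧ g = p.1 * t * p.2 :=
  ⟨fun _ _ hb hc => ro_existsUnique_Q hS hb hc, card_points hS, card_group hS, exists_sylow hS,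
    canon hS⟩

end Cfsg.Agent.S1119
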