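import Cfsg.Statements.S1121
import Cfsg.Agent.Lib.Helper9.RankOne

set_option autoImplicit false
open Pointwise
open Cfsg

namespace Cfsg.Agent.S1121

open Cfsg.Agent.Lib.Helper9 MulAction

/-- Two involutions whose product has odd order are conjugate. -/
theorem conj_of_odd {G : Type*} [Group G] {s u : G} (hs : s * s = 1) (hu : u * u = 1)
    (hodd : Odd (orderOf (s * u))) : ∃ g : G, g * s * g⁻¹ = u := by
  obtain ⟨k, hk⟩ := hodd
  set r := s * u with hr
  have hsi : s⁻¹ = s := inv_eq_of_mul_eq_one_right hs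
  have hui : u⁻¹ = u := inv_eq_of_mul_eq_one_right hu
  have hrinv : r⁻¹ = u * s := by rw [hr, mul_inv_rev, hsi, hui]
  have hsemi : SemiconjBy s (r⁻¹) r := by
    show s * r⁻¹ = r * s
    rw [hrinv, hr, mul_assoc]
  have hsemik : s * (r⁻¹) ^ k = r ^ k * s := (hsemi.pow_right k)
  have hpow : r ^ (2 * k) * r = 1 := by
    rw [← pow_succ, ← hk]; exact pow_orderOf_eq_one r
  have hpow' : r ^ (2 * k) = r⁻¹ := eq_inv_of_mul_eq_one_left hpow
  refine ⟨r ^ k, ?_⟩
  calc r ^ k * s * (r ^ k)⁻¹ = r ^ k * (s * (r⁻¹) ^ k) := by rw [inv_pow, mul_assoc]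
    _ = r ^ k * (r ^ k * s) := by rw [hsemik]
    _ = r ^ (2 * k) * s := by rw [← mul_assoc, ← pow_add, two_mul]
    _ = u := by rw [hpow', hrinv, mul_assoc, hs, mul_one]

variable {G Ω : Type*} [Group G] [MulAction G Ω] {a : Ω} {t : G} {Q : Subgroup G}

/-- Involutions of the point stabiliser lie in `Q`. -/
theorem invol_mem_Q [Finite G] (hS : Cfsg.IsRankOneSetup G Ω a t Q) {s : G}
    (hs : s ∈ stabilizer G a) (hs2 : s * s = 1) : s ∈ Q := by
  obtain ⟨q, hq, d, hd, rfl⟩ := ro_stab_decomp hS hs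
  have hd1 : d ∈ stabilizer G a := (Subgroup.mem_inf.mp hd).1
  have h1 : d * d = (q * (d * q * d⁻¹))⁻¹ := by
    have : q * (d * q * d⁻¹) * (d * d) = q * d * (q * d) := by group
    rw [hs2] at this
    exact eq_inv_of_mul_eq_one_right this
  have h2 : d * d ∈ Q ⊓ stabilizer G (t • a) := by
    refine Subgroup.mem_inf.mpr ⟨?_, mul_mem (Subgroup.mem_inf.mp hd).2 (Subgroup.mem_inf.mp hd).2⟩
    rw [h1]
    exact inv_mem (mul_mem hq (hS.conj_mem d hd1 q hq))
  rw [hS.inf_eq_bot, Subgroup.mem_bot] at h2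
  have h3 : orderOf d ∣ 2 := by
    apply orderOf_dvd_of_pow_eq_one; rw [pow_two]; exact h2
  have h4 : orderOf d ∣ Nat.card ↥(stabilizer G a ⊓ stabilizer G (t • a)) :=
    Subgroup.orderOf_dvd_natCard _ hd
  have h5 : Odd (orderOf d) := hS.odd_card.of_dvd_nat h4
  have h6 : orderOf d = 1 := by
    rcases (Nat.dvd_prime Nat.prime_two).mp h3 with h | h
    · exact h
    · rw [h] at h5; exact absurd h5 (by decide)
  rw [orderOf_eq_one_iff.mp h6, mul_one]
  exact hq

/-- In the rank-one set-up (`G` finite and doubly transitive on `Ω`, `t` an involution moving `a`, `Q` normal in `G_a` with `G_a = Q D`, `Q ⊓ D = 1` for the two-point stabiliser `D = G_a ⊓ G_{t • a}`, `|Q|` even, `|D|` odd): if `s` is an involution of `G_a` and `u` an involution outside `G_a`, then `s u` has odd order; and any two involutions of `G` are conjugate. -/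
theorem result {G Ω : Type*} [Group G] [Finite G] [MulAction G Ω] {a : Ω} {t : G} {Q : Subgroup G}
    (hS : Cfsg.IsRankOneSetup G Ω a t Q) :
    (∀ s u : G, s ∈ MulAction.stabilizer G a → s ≠ 1 → s * s = 1 → u ∉ MulAction.stabilizer G a → u ≠ 1 → u * u = 1 → Odd (orderOf (s * u))) ∧
      ∀ u v : G, u ≠ 1 → u * u = 1 → v ≠ 1 → v * v = 1 → ∃ g : G, g * u * g⁻¹ = v := by
  have part1 : ∀ s u : G, s ∈ MulAction.stabilizer G a → s ≠ 1 → s * s = 1 →
      u ∉ MulAction.stabilizer G a → u ≠ 1 → u * u = 1 → Odd (orderOf (s * u)) := by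
    intro s u hs hs1 hs2 hu _ hu2
    rw [← Nat.not_even_iff_odd]
    rintro ⟨k, hk⟩
    set r := s * u with hr
    have hsi : s⁻¹ = s := inv_eq_of_mul_eq_one_right hs2
    have hui : u⁻¹ = u := inv_eq_of_mul_eq_one_right hu2
    have hrinv : r⁻¹ = u * s := by rw [hr, mul_inv_rev, hsi, hui]
    have hpos : 0 < orderOf r := orderOf_pos r
    have hkpos : 0 < k := by omega
    set z := r ^ k with hz
    have hz1 : z ≠ 1 := pow_ne_one_of_lt_orderOf hkpos.ne' (by omega)
    have hz2 : z * z = 1 := by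
      rw [hz, ← pow_add, ← hk]; exact pow_orderOf_eq_one r
    have hzi : z⁻¹ = z := inv_eq_of_mul_eq_one_right hz2
    have hsz : s * z = z * s := by
      have hsemi : SemiconjBy s r (r⁻¹) := by
        show s * r = r⁻¹ * s
        rw [hrinv, hr, ← mul_assoc, hs2, one_mul, mul_assoc, hs2, mul_one]
      have := hsemi.pow_right k
      have h' : s * r ^ k = (r⁻¹) ^ k * s := this
      rw [inv_pow, ← hz, hzi] at h'
      exact h'
    have huz : u * z = z * u := by
      have hsemi : SemiconjBy u r (r⁻¹) := by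
        show u * r = r⁻¹ * u
        rw [hrinv, hr, mul_assoc]
      have := hsemi.pow_right k
      have h' : u * r ^ k = (r⁻¹) ^ k * u := this
      rw [inv_pow, ← hz, hzi] at h'
      exact h'
    have hsQ : s ∈ Q := invol_mem_Q hS hs hs2
    have hza : z • a = a := by
      by_contra hne
      apply hs1
      apply ro_free hS hsQ hne
      rw [smul_smul, hsz, mul_smul, MulAction.mem_stabilizer_iff.mp hs]
    have hzQ : z ∈ Q := invol_mem_Q hS (MulAction.mem_stabilizer_iff.mpr hza) hz2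
    have hua : u • a ≠ a := fun h => hu (MulAction.mem_stabilizer_iff.mpr h)
    apply hz1
    apply ro_free hS hzQ hua
    rw [smul_smul, ← huz, mul_smul, hza]
  refine ⟨part1, ?_⟩
  have htt : t * t = 1 := hS.mul_self
  have key : ∀ s u : G, s ∈ MulAction.stabilizer G a → s ≠ 1 → s * s = 1 →
      u ∉ MulAction.stabilizer G a → u ≠ 1 → u * u = 1 → ∃ g : G, g * s * g⁻¹ = u :=
    fun s u hs hs1 hs2 hu hu1 hu2 => conj_of_odd hs2 hu2 (part1 s u hs hs1 hs2 hu hu1 hu2)
  -- an involution in `Q`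
  have hex : ∃ s : G, s ∈ MulAction.stabilizer G a ∧ s ≠ 1 ∧ s * s = 1 := by
    have h2 : 2 ∣ Nat.card Q := hS.even_card.two_dvd
    have : Fact (Nat.Prime 2) := ⟨Nat.prime_two⟩
    obtain ⟨x, hx⟩ := exists_prime_orderOf_dvd_card' 2 h2
    refine ⟨(x : G), hS.le x.2, ?_, ?_⟩
    · intro h
      have : x = 1 := Subtype.ext h
      rw [this, orderOf_one] at hx
      exact absurd hx (by decide)
    · have := pow_orderOf_eq_one x
      rw [hx, pow_two] at this
      exact congrArg Subtype.val this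
  intro u v hu1 hu2 hv1 hv2
  by_cases hu : u ∈ MulAction.stabilizer G a <;> by_cases hv : v ∈ MulAction.stabilizer G a
  · obtain ⟨g, hg⟩ := key u t hu hu1 hu2 hS.not_mem hS.ne_one htt
    obtain ⟨g', hg'⟩ := key v t hv hv1 hv2 hS.not_mem hS.ne_one htt
    refine ⟨g'⁻¹ * g, ?_⟩
    have : g'⁻¹ * g * u * (g'⁻¹ * g)⁻¹ = g'⁻¹ * (g * u * g⁻¹) * g' := by group
    rw [this, hg, ← hg']; group
  · exact key u v hu hu1 hu2 hv hv1 hv2
  · obtain ⟨g, hg⟩ := key v u hv hv1 hv2 hu hu1 hu2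
    refine ⟨g⁻¹, ?_⟩
    rw [← hg]; group
  · obtain ⟨s, hs, hs1, hs2⟩ := hex
    obtain ⟨g, hg⟩ := key s u hs hs1 hs2 hu hu1 hu2
    obtain ⟨g', hg'⟩ := key s v hs hs1 hs2 hv hv1 hv2
    refine ⟨g' * g⁻¹, ?_⟩
    rw [← hg, ← hg']; group

end Cfsg.Agent.S1121
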