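import Cfsg.Statements.S4304
-- import your own Cfsg.Agent.* helpers here
import Mathlib

set_option autoImplicit false
open Cfsg

namespace Cfsg.Agent.S4304


open scoped Pointwise


universe u

local instance fact7 : Fact (Nat.Prime 7) := ⟨by norm_num⟩

section general
variable {G : Type u} [Group G] {p : ℕ}

theorem card_sylow_subgroup (H : Subgroup G) (h : ∀ P : Sylow p G, (P : Subgroup G) ≤ H) :
    Nat.card (Sylow p H) = Nat.card (Sylow p G) := by
  symm
  refine Nat.card_congr (Equiv.ofBijective (fun P => P.subtype (h P)) ⟨?_, ?_⟩)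
  · intro P Q hPQ
    exact Sylow.subtype_injective hPQ
  · intro R
    obtain ⟨P, hP⟩ := (R.2.map H.subtype).exists_le_sylow
    refine ⟨P, ?_⟩
    have hle : (R : Subgroup H) ≤ (P.subtype (h P) : Subgroup H) := by
      intro x hx
      rw [Sylow.coe_subtype, Subgroup.mem_subgroupOf]
      exact hP (Subgroup.mem_map_of_mem H.subtype hx)
    exact Sylow.ext (R.3 (P.subtype (h P)).2 hle)

theorem sylow_le_of_le_normalizer (P Q : Sylow p G)
    (h : (Q : Subgroup G) ≤ Subgroup.normalizer (P : Set G)) : Q = P := by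
  have h1 : (Q : Subgroup G) ⊓ Subgroup.normalizer (P : Set G) = (Q : Subgroup G) ⊓ P :=
    Q.2.inf_normalizer_sylow P
  have h2 : (Q : Subgroup G) ≤ P := by
    have : (Q : Subgroup G) ≤ (Q : Subgroup G) ⊓ Subgroup.normalizer (P : Set G) := le_inf le_rfl h
    rw [h1] at this
    exact this.trans inf_le_right
  exact Sylow.ext (Q.3 P.2 h2).symm

theorem card_sylow_quotient [Finite G] [Fact p.Prime] (K : Subgroup G) [K.Normal]
    (h : ∀ P : Sylow p G, K ≤ Subgroup.normalizer (P : Set G)) :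
    Nat.card (Sylow p (G ⧸ K)) = Nat.card (Sylow p G) := by
  symm
  refine Nat.card_congr (Equiv.ofBijective
    (fun P => P.mapSurjective (QuotientGroup.mk'_surjective K)) ⟨?_, Sylow.mapSurjective_surjective _ p⟩)
  intro P Q hPQ
  have hPQ' : (P : Subgroup G).map (QuotientGroup.mk' K) = (Q : Subgroup G).map (QuotientGroup.mk' K) := by
    have := congrArg (fun S : Sylow p (G ⧸ K) => (S : Subgroup (G ⧸ K))) hPQ
    simpa using this
  symm
  apply sylow_le_of_le_normalizer
  intro x hx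
  have hx' : QuotientGroup.mk' K x ∈ (P : Subgroup G).map (QuotientGroup.mk' K) := by
    rw [hPQ']; exact Subgroup.mem_map_of_mem _ hx
  obtain ⟨y, hy, hyx⟩ := Subgroup.mem_map.mp hx'
  have hk : y⁻¹ * x ∈ K := by
    have := QuotientGroup.eq.mp hyx
    exact this
  have : x = y * (y⁻¹ * x) := by group
  rw [this]
  exact Subgroup.mul_mem _ (Subgroup.le_normalizer hy) (h P hk)

end general

section main
variable {G : Type u} [Group G] [Finite G]

theorem stab_eq (P Q : Sylow 7 G) :
    MulAction.stabilizer (↥(P : Subgroup G)) Q = ((P : Subgroup G) ⊓ Q).subgroupOf P := by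
  ext x
  rw [MulAction.mem_stabilizer_iff, Subgroup.mem_subgroupOf, Subgroup.smul_def,
    Sylow.smul_eq_iff_mem_normalizer]
  have h1 : (P : Subgroup G) ⊓ Subgroup.normalizer (Q : Set G) = (P : Subgroup G) ⊓ Q :=
    P.2.inf_normalizer_sylow Q
  constructor
  · intro hx
    have : (x : G) ∈ (P : Subgroup G) ⊓ Subgroup.normalizer (Q : Set G) := ⟨x.2, hx⟩
    rw [h1] at this
    exact this
  · intro hx
    exact Subgroup.le_normalizer hx.2

theorem orbit_card (h15 : Nat.card (Sylow 7 G) = 15) (P Q : Sylow 7 G) (hPQ : P ≠ Q) :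
    Nat.card (MulAction.orbit (↥(P : Subgroup G)) Q) = 7 ∧
    Nat.card ↥((P : Subgroup G) ⊓ Q) * 7 = Nat.card ↥(P : Subgroup G) := by
  have hfin : Finite (Sylow 7 G) := Nat.finite_of_card_ne_zero (by rw [h15]; norm_num)
  have h1 : Nat.card (MulAction.orbit (↥(P : Subgroup G)) Q) *
      Nat.card (MulAction.stabilizer (↥(P : Subgroup G)) Q) = Nat.card ↥(P : Subgroup G) := by
    rw [← Nat.card_prod]
    exact Nat.card_congr (MulAction.orbitProdStabilizerEquivGroup _ Q)
  have h2 : Nat.card (MulAction.stabilizer (↥(P : Subgroup G)) Q) =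
      Nat.card ↥((P : Subgroup G) ⊓ Q) := by
    rw [stab_eq]
    exact Nat.card_congr (Subgroup.subgroupOfEquivOfLe inf_le_left).toEquiv
  rw [h2] at h1
  -- the orbit avoids P
  have hsub : MulAction.orbit (↥(P : Subgroup G)) Q ⊆ ({P}ᶜ : Set (Sylow 7 G)) := by
    rintro R ⟨x, rfl⟩ hR
    apply hPQ
    have hR' : (x : G) • Q = P := hR
    have hxP : (x : G) • P = P := Sylow.smul_eq_iff_mem_normalizer.mpr (Subgroup.le_normalizer x.2)
    exact (smul_left_cancel (x : G) (hR'.trans hxP.symm)).symm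
  have hle : Nat.card (MulAction.orbit (↥(P : Subgroup G)) Q) ≤ 14 := by
    have h3 : ({P}ᶜ : Set (Sylow 7 G)).ncard = 14 := by
      rw [Set.ncard_compl, Set.ncard_singleton, h15]
    have := Set.ncard_le_ncard hsub (Set.toFinite _)
    rw [h3] at this
    rwa [Nat.card_coe_set_eq]
  obtain ⟨a, ha⟩ := P.2.exists_card_eq
  have hdvd : Nat.card (MulAction.orbit (↥(P : Subgroup G)) Q) ∣ 7 ^ a := by
    rw [← ha, ← h1]; exact dvd_mul_right _ _
  obtain ⟨b, hb, hb'⟩ := (Nat.dvd_prime_pow (by norm_num : Nat.Prime 7)).mp hdvd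
  have hb1 : b = 1 := by
    rcases Nat.lt_or_ge b 2 with hlt | hge
    · interval_cases b
      · exfalso
        rw [hb', pow_zero, one_mul] at h1
        have hle' : (P : Subgroup G) ⊓ Q = P :=
          Subgroup.eq_of_le_of_card_ge inf_le_left h1.ge
        have hPleQ : (P : Subgroup G) ≤ Q := by rw [← hle']; exact inf_le_right
        exact hPQ (Sylow.ext (P.3 Q.2 hPleQ).symm)
      · rfl
    · exfalso
      have : 7 ^ 2 ≤ 7 ^ b := Nat.pow_le_pow_right (by norm_num) hge
      rw [hb'] at hle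
      omega
  subst hb1
  rw [pow_one] at hb'
  refine ⟨hb', ?_⟩
  rw [hb'] at h1
  rw [← h1, mul_comm]

theorem mem_smul_sylow (x y : G) (Q : Sylow 7 G) :
    y ∈ ((x • Q : Sylow 7 G) : Subgroup G) ↔ x⁻¹ * y * x ∈ (Q : Subgroup G) := by
  show y ∈ MulAut.conj x • (Q : Subgroup G) ↔ _
  rw [Subgroup.mem_pointwise_smul_iff_inv_smul_mem]
  simp [MulAut.smul_def]

theorem inf_normal (h15 : Nat.card (Sylow 7 G) = 15) (P Q : Sylow 7 G) (hPQ : P ≠ Q) :
    (((P : Subgroup G) ⊓ Q).subgroupOf P).Normal := by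
  obtain ⟨-, hA⟩ := orbit_card h15 P Q hPQ
  apply Subgroup.normal_of_index_eq_minFac_card
  have h1 := Subgroup.card_mul_index (((P : Subgroup G) ⊓ Q).subgroupOf P)
  have h2 : Nat.card ↥(((P : Subgroup G) ⊓ Q).subgroupOf P) = Nat.card ↥((P : Subgroup G) ⊓ Q) :=
    Nat.card_congr (Subgroup.subgroupOfEquivOfLe inf_le_left).toEquiv
  rw [h2] at h1
  have hpos : 0 < Nat.card ↥((P : Subgroup G) ⊓ Q) := Nat.card_pos
  have hidx : (((P : Subgroup G) ⊓ Q).subgroupOf P).index = 7 := by
    have : Nat.card ↥((P : Subgroup G) ⊓ Q) * (((P : Subgroup G) ⊓ Q).subgroupOf P).index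
        = Nat.card ↥((P : Subgroup G) ⊓ Q) * 7 := by rw [h1, hA]
    exact Nat.eq_of_mul_eq_mul_left hpos this
  rw [hidx]
  obtain ⟨a, ha⟩ := P.2.exists_card_eq
  have ha0 : a ≠ 0 := by
    rintro rfl
    rw [pow_zero] at ha
    rw [ha] at hA
    omega
  rw [ha, Nat.pow_minFac ha0]
  norm_num

theorem inf_smul (h15 : Nat.card (Sylow 7 G) = 15) (P Q : Sylow 7 G) (hPQ : P ≠ Q) (x : G)
    (hx : x ∈ (P : Subgroup G)) :
    (P : Subgroup G) ⊓ ((x • Q : Sylow 7 G) : Subgroup G) = (P : Subgroup G) ⊓ Q := by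
  have hN := inf_normal h15 P Q hPQ
  ext y
  rw [Subgroup.mem_inf, Subgroup.mem_inf, mem_smul_sylow]
  constructor
  · rintro ⟨hy, hy'⟩
    have hz : (⟨x⁻¹ * y * x, Subgroup.mul_mem _ (Subgroup.mul_mem _ (Subgroup.inv_mem _ hx) hy) hx⟩ :
        ↥(P : Subgroup G)) ∈ ((P : Subgroup G) ⊓ Q).subgroupOf P := by
      rw [Subgroup.mem_subgroupOf]
      exact ⟨Subgroup.mul_mem _ (Subgroup.mul_mem _ (Subgroup.inv_mem _ hx) hy) hx, hy'⟩
    have := hN.conj_mem _ hz ⟨x, hx⟩
    rw [Subgroup.mem_subgroupOf] at this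
    have h3 : x * (x⁻¹ * y * x) * x⁻¹ = y := by group
    simp only [Subgroup.coe_mul, Subgroup.coe_inv] at this
    rw [h3] at this
    exact this
  · rintro ⟨hy, hy'⟩
    refine ⟨hy, ?_⟩
    have hz : (⟨y, hy⟩ : ↥(P : Subgroup G)) ∈ ((P : Subgroup G) ⊓ Q).subgroupOf P := by
      rw [Subgroup.mem_subgroupOf]
      exact ⟨hy, hy'⟩
    have := hN.conj_mem _ hz ⟨x⁻¹, Subgroup.inv_mem _ hx⟩
    rw [Subgroup.mem_subgroupOf] at this
    simp only [Subgroup.coe_mul, Subgroup.coe_inv, inv_inv] at this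
    exact this.2

theorem orbit_props (h15 : Nat.card (Sylow 7 G) = 15) (P Q : Sylow 7 G) (hPQ : P ≠ Q)
    (R : Sylow 7 G) (hR : R ∈ MulAction.orbit (↥(P : Subgroup G)) Q) :
    R ≠ P ∧ (P : Subgroup G) ⊓ R = (P : Subgroup G) ⊓ Q := by
  obtain ⟨x, rfl⟩ := hR
  refine ⟨?_, inf_smul h15 P Q hPQ x x.2⟩
  intro hR'
  apply hPQ
  have hR'' : (x : G) • Q = P := hR'
  have hxP : (x : G) • P = P := Sylow.smul_eq_iff_mem_normalizer.mpr (Subgroup.le_normalizer x.2)
  exact (smul_left_cancel (x : G) (hR''.trans hxP.symm)).symm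

theorem three_vals (h15 : Nat.card (Sylow 7 G) = 15) (P Q1 Q2 Q3 : Sylow 7 G)
    (h1 : P ≠ Q1) (h2 : P ≠ Q2) (h3 : P ≠ Q3) :
    (P : Subgroup G) ⊓ Q1 = (P : Subgroup G) ⊓ Q2 ∨ (P : Subgroup G) ⊓ Q1 = (P : Subgroup G) ⊓ Q3 ∨
      (P : Subgroup G) ⊓ Q2 = (P : Subgroup G) ⊓ Q3 := by
  by_contra hcon
  push Not at hcon
  obtain ⟨h12, h13, h23⟩ := hcon
  have hfin : Finite (Sylow 7 G) := Nat.finite_of_card_ne_zero (by rw [h15]; norm_num)
  have hdisj : ∀ Q Q' : Sylow 7 G, P ≠ Q → P ≠ Q' → (P : Subgroup G) ⊓ Q ≠ (P : Subgroup G) ⊓ Q' →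
      Disjoint (MulAction.orbit (↥(P : Subgroup G)) Q) (MulAction.orbit (↥(P : Subgroup G)) Q') := by
    intro Q Q' hQ hQ' hne
    rw [Set.disjoint_left]
    intro R hR hR'
    exact hne ((orbit_props h15 P Q hQ R hR).2.symm.trans (orbit_props h15 P Q' hQ' R hR').2)
  have hc : ∀ Q : Sylow 7 G, P ≠ Q → (MulAction.orbit (↥(P : Subgroup G)) Q).ncard = 7 := by
    intro Q hQ
    rw [← Nat.card_coe_set_eq]
    exact (orbit_card h15 P Q hQ).1
  have hsub : MulAction.orbit (↥(P : Subgroup G)) Q1 ∪ MulAction.orbit (↥(P : Subgroup G)) Q2 ∪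
      MulAction.orbit (↥(P : Subgroup G)) Q3 ⊆ ({P}ᶜ : Set (Sylow 7 G)) := by
    intro R hR
    rcases hR with (hR | hR) | hR
    · exact (orbit_props h15 P Q1 h1 R hR).1
    · exact (orbit_props h15 P Q2 h2 R hR).1
    · exact (orbit_props h15 P Q3 h3 R hR).1
  have h3c : ({P}ᶜ : Set (Sylow 7 G)).ncard = 14 := by
    rw [Set.ncard_compl, Set.ncard_singleton, h15]
  have hle := Set.ncard_le_ncard hsub (Set.toFinite _)
  rw [h3c, Set.ncard_union_eq (Set.disjoint_union_left.mpr ⟨hdisj Q1 Q3 h1 h3 h13, hdisj Q2 Q3 h2 h3 h23⟩),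
    Set.ncard_union_eq (hdisj Q1 Q2 h1 h2 h12), hc Q1 h1, hc Q2 h2, hc Q3 h3] at hle
  omega

theorem card_sylow_eq (P Q : Sylow 7 G) : Nat.card ↥(P : Subgroup G) = Nat.card ↥(Q : Subgroup G) := by
  rw [Sylow.card_eq_multiplicity P, Sylow.card_eq_multiplicity Q]

theorem key_step (h15 : Nat.card (Sylow 7 G) = 15) (S P X Y : Sylow 7 G) (M : Subgroup G)
    (hXY : (X : Subgroup G) ⊓ Y = M) (hcardM : Nat.card ↥M * 7 = Nat.card ↥(P : Subgroup G))
    (hMP : M ≤ P) (hSP : P ≠ S) (hSX : S ≠ X) (heq : (S : Subgroup G) ⊓ X = (S : Subgroup G) ⊓ Y) :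
    M = (P : Subgroup G) ⊓ S := by
  have h1 : (S : Subgroup G) ⊓ X ≤ M := by
    rw [← hXY]
    exact le_inf inf_le_right (heq ▸ inf_le_right)
  have h2 := (orbit_card h15 S X hSX).2
  rw [card_sylow_eq S P, ← hcardM] at h2
  have h3 : Nat.card ↥((S : Subgroup G) ⊓ X) = Nat.card ↥M := Nat.eq_of_mul_eq_mul_right (by norm_num) h2
  have h4 : (S : Subgroup G) ⊓ X = M := Subgroup.eq_of_le_of_card_ge h1 h3.ge
  have h5 : M ≤ (P : Subgroup G) ⊓ S := le_inf hMP (h4 ▸ inf_le_left)
  have h6 := (orbit_card h15 P S hSP).2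
  rw [← hcardM] at h6
  have h7 : Nat.card ↥((P : Subgroup G) ⊓ S) = Nat.card ↥M := Nat.eq_of_mul_eq_mul_right (by norm_num) h6
  exact Subgroup.eq_of_le_of_card_ge h5 h7.le

theorem const_inf (h15 : Nat.card (Sylow 7 G) = 15) (P Q Q' : Sylow 7 G) (hQ : P ≠ Q) (hQ' : P ≠ Q') :
    (P : Subgroup G) ⊓ Q = (P : Subgroup G) ⊓ Q' := by
  by_contra hne
  have hfin : Finite (Sylow 7 G) := Nat.finite_of_card_ne_zero (by rw [h15]; norm_num)
  have hc : 1 < (MulAction.orbit (↥(P : Subgroup G)) Q).ncard := by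
    rw [← Nat.card_coe_set_eq, (orbit_card h15 P Q hQ).1]; norm_num
  obtain ⟨R, hR, hRQ⟩ := Set.exists_ne_of_one_lt_ncard hc Q
  obtain ⟨hRP, hRM⟩ := orbit_props h15 P Q hQ R hR
  have hcardM := (orbit_card h15 P Q hQ).2
  have hSQ : Q' ≠ Q := by rintro rfl; exact hne rfl
  have hSR : Q' ≠ R := by rintro rfl; exact hne hRM.symm
  have hQR : (Q : Subgroup G) ⊓ R = (P : Subgroup G) ⊓ Q := by
    symm
    apply Subgroup.eq_of_le_of_card_ge
    · exact le_inf inf_le_right (hRM ▸ inf_le_right)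
    · have h2 := (orbit_card h15 Q R hRQ.symm).2
      rw [card_sylow_eq Q P, ← hcardM] at h2
      exact (Nat.eq_of_mul_eq_mul_right (by norm_num) h2).le
  rcases three_vals h15 Q' P Q R hQ'.symm hSQ hSR with h | h | h
  · exact hne (key_step h15 Q' P P Q _ rfl hcardM inf_le_left hQ' hQ'.symm h)
  · exact hne (key_step h15 Q' P P R _ hRM hcardM inf_le_left hQ' hQ'.symm h)
  · exact hne (key_step h15 Q' P Q R _ hQR hcardM inf_le_left hQ' hSQ h)

theorem tame (h15 : Nat.card (Sylow 7 G) = 15)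
    (hF : ∀ g : G, (∀ R : Sylow 7 G, g • R = R) → g = 1) :
    (∀ P : Sylow 7 G, Nat.card ↥(P : Subgroup G) = 7) ∧
    (∀ P Q : Sylow 7 G, P ≠ Q → (P : Subgroup G) ⊓ Q = ⊥) := by
  have hfin : Finite (Sylow 7 G) := Nat.finite_of_card_ne_zero (by rw [h15]; norm_num)
  have hnt : Nontrivial (Sylow 7 G) := by
    rw [← Finite.one_lt_card_iff_nontrivial, h15]; norm_num
  have hbot : ∀ P Q : Sylow 7 G, P ≠ Q → (P : Subgroup G) ⊓ Q = ⊥ := by
    intro P Q hPQ
    rw [eq_bot_iff]
    intro x hx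
    rw [Subgroup.mem_bot]
    apply hF
    intro R
    rw [Sylow.smul_eq_iff_mem_normalizer]
    apply Subgroup.le_normalizer
    by_cases hR : P = R
    · rw [← hR]; exact hx.1
    · have := const_inf h15 P Q R hPQ hR
      rw [this] at hx
      exact hx.2
  have hcard : ∀ P : Sylow 7 G, Nat.card ↥(P : Subgroup G) = 7 := by
    intro P
    obtain ⟨Q, hQ⟩ := exists_ne P
    have h1 := (orbit_card h15 P Q hQ.symm).2
    rw [hbot P Q hQ.symm] at h1
    simpa using h1.symm
  exact ⟨hcard, hbot⟩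

theorem pelt_mem (c : G) (k : ℕ) (hc : c ^ 7 ^ k = 1) (P : Sylow 7 G)
    (h : c ∈ Subgroup.normalizer (P : Set G)) : c ∈ (P : Subgroup G) := by
  have hp : IsPGroup 7 (Subgroup.zpowers c) := by
    rintro ⟨g, hg⟩
    obtain ⟨i, rfl⟩ := Subgroup.mem_zpowers_iff.mp hg
    refine ⟨k, ?_⟩
    apply Subtype.ext
    show (c ^ i) ^ 7 ^ k = 1
    rw [← zpow_natCast, ← zpow_mul, mul_comm, zpow_mul, zpow_natCast, hc, one_zpow]
  have h1 := hp.inf_normalizer_sylow P
  have h2 : c ∈ Subgroup.zpowers c ⊓ Subgroup.normalizer (P : Set G) := ⟨Subgroup.mem_zpowers c, h⟩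
  rw [h1] at h2
  exact h2.2

theorem free_act (hbot : ∀ P Q : Sylow 7 G, P ≠ Q → (P : Subgroup G) ⊓ Q = ⊥) (P Q : Sylow 7 G)
    (hPQ : P ≠ Q) (x : G) (hx : x ∈ (P : Subgroup G)) (hxQ : x • Q = Q) : x = 1 := by
  have h1 : (P : Subgroup G) ⊓ Subgroup.normalizer (Q : Set G) = (P : Subgroup G) ⊓ Q :=
    P.2.inf_normalizer_sylow Q
  have h2 : x ∈ (P : Subgroup G) ⊓ Subgroup.normalizer (Q : Set G) :=
    ⟨hx, Sylow.smul_eq_iff_mem_normalizer.mp hxQ⟩
  rw [h1, hbot P Q hPQ] at h2
  exact Subgroup.mem_bot.mp h2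

theorem fix_imp_one (h15 : Nat.card (Sylow 7 G) = 15)
    (hF : ∀ g : G, (∀ R : Sylow 7 G, g • R = R) → g = 1)
    (P Q : Sylow 7 G) (hPQ : P ≠ Q) (c : G) (hc : c ∈ Subgroup.centralizer (P : Set G))
    (hcQ : c • Q = Q) : c = 1 := by
  classical
  obtain ⟨hcard, hbot⟩ := tame h15 hF
  have hfin : Finite (Sylow 7 G) := Nat.finite_of_card_ne_zero (by rw [h15]; norm_num)
  haveI : Fintype (Sylow 7 G) := Fintype.ofFinite _
  haveI : Fintype ↥(P : Subgroup G) := Fintype.ofFinite _
  have hcP : c • P = P :=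
    Sylow.smul_eq_iff_mem_normalizer.mpr (Subgroup.centralizer_le_normalizer _ hc)
  have hcomm : ∀ (x : ↥(P : Subgroup G)) (R : Sylow 7 G),
      c • ((x : G) • R) = (x : G) • (c • R) := by
    intro x R
    rw [← mul_smul, ← mul_smul, Subgroup.mem_centralizer_iff.mp hc (x : G) x.2]
  have hinj : ∀ R : Sylow 7 G, P ≠ R →
      Function.Injective (fun x : ↥(P : Subgroup G) => (x : G) • R) := by
    intro R hR x y hxy
    have hxy' : (x : G) • R = (y : G) • R := hxy
    have h1 : ((y⁻¹ * x : ↥(P : Subgroup G)) : G) • R = R := by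
      rw [Subgroup.coe_mul, Subgroup.coe_inv, mul_smul, hxy', ← mul_smul, inv_mul_cancel, one_smul]
    have h2 := free_act hbot P R hR _ (y⁻¹ * x).2 h1
    have h3 : y⁻¹ * x = 1 := Subtype.ext h2
    exact (inv_mul_eq_one.mp h3).symm
  let O : Sylow 7 G → Finset (Sylow 7 G) :=
    fun R => Finset.univ.image (fun x : ↥(P : Subgroup G) => (x : G) • R)
  have hOcard : ∀ R, P ≠ R → (O R).card = 7 := by
    intro R hR
    show (Finset.univ.image (fun x : ↥(P : Subgroup G) => (x : G) • R)).card = 7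
    rw [Finset.card_image_of_injective _ (hinj R hR), Finset.card_univ, ← Nat.card_eq_fintype_card,
      hcard P]
  have hPO : ∀ R, P ≠ R → P ∉ O R := by
    intro R hR hmem
    obtain ⟨x, -, hx⟩ := Finset.mem_image.mp hmem
    have hxP : (x : G) • P = P :=
      Sylow.smul_eq_iff_mem_normalizer.mpr (Subgroup.le_normalizer x.2)
    exact hR (smul_left_cancel (x : G) (hx.trans hxP.symm)).symm
  let A : Finset (Sylow 7 G) := insert P (O Q)
  have hAcard : A.card = 8 := by
    show (insert P (O Q)).card = 8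
    rw [Finset.card_insert_of_notMem (hPO Q hPQ), hOcard Q hPQ]
  have hAc : Aᶜ.card = 7 := by
    rw [Finset.card_compl, hAcard, ← Nat.card_eq_fintype_card, h15]
  have hcA : ∀ R ∈ A, c • R = R := by
    intro R hR
    rcases Finset.mem_insert.mp hR with rfl | hR
    · exact hcP
    · obtain ⟨x, -, rfl⟩ := Finset.mem_image.mp hR
      rw [hcomm, hcQ]
  have hpow : ∀ R : Sylow 7 G, c ^ 7 • R = R := by
    intro R
    by_cases hR : R ∈ A
    · have : ∀ n : ℕ, c ^ n • R = R := by
        intro n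
        induction n with
        | zero => simp
        | succ n ih => rw [pow_succ, mul_smul, hcA R hR, ih]
      exact this 7
    · have hRP : P ≠ R := by
        rintro rfl
        exact hR (Finset.mem_insert_self _ _)
      have hsub : O R ⊆ Aᶜ := by
        intro T hT
        rw [Finset.mem_compl]
        intro hTA
        rcases Finset.mem_insert.mp hTA with h | h
        · exact hPO R hRP (h ▸ hT)
        · obtain ⟨x, -, hx⟩ := Finset.mem_image.mp hT
          obtain ⟨y, -, hy⟩ := Finset.mem_image.mp h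
          apply hR
          apply Finset.mem_insert_of_mem
          refine Finset.mem_image.mpr ⟨x⁻¹ * y, Finset.mem_univ _, ?_⟩
          show ((x⁻¹ * y : ↥(P : Subgroup G)) : G) • Q = R
          have hy' : (y : G) • Q = T := hy
          have hx' : (x : G) • R = T := hx
          rw [Subgroup.coe_mul, Subgroup.coe_inv, mul_smul, hy', ← hx', ← mul_smul, inv_mul_cancel,
            one_smul]
      have hOeq : O R = Aᶜ :=
        Finset.eq_of_subset_of_card_le hsub (by rw [hAc, hOcard R hRP])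
      have hcR : c • R ∈ O R := by
        rw [hOeq, Finset.mem_compl]
        intro hmem
        have h1 := hcA _ hmem
        exact hR ((smul_left_cancel c h1) ▸ hmem)
      obtain ⟨x, -, hx⟩ := Finset.mem_image.mp hcR
      have hx' : (x : G) • R = c • R := hx
      have hn : ∀ n : ℕ, c ^ n • R = ((x ^ n : ↥(P : Subgroup G)) : G) • R := by
        intro n
        induction n with
        | zero => simp
        | succ n ih =>
          rw [pow_succ', mul_smul, ih, hcomm, ← hx', ← mul_smul, ← Subgroup.coe_mul, ← pow_succ]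
      rw [hn 7]
      have h7 : x ^ 7 = 1 := by
        have := pow_card_eq_one' (G := ↥(P : Subgroup G)) (x := x)
        rwa [hcard P] at this
      rw [h7]; simp
  have hc7 : c ^ 7 = 1 := hF _ hpow
  have hcQ' : c ∈ (Q : Subgroup G) :=
    pelt_mem c 1 (by simpa using hc7) Q (Sylow.smul_eq_iff_mem_normalizer.mp hcQ)
  have hcP' : c ∈ (P : Subgroup G) :=
    pelt_mem c 1 (by simpa using hc7) P (Subgroup.centralizer_le_normalizer _ hc)
  have hmem : c ∈ (P : Subgroup G) ⊓ Q := ⟨hcP', hcQ'⟩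
  rw [hbot P Q hPQ] at hmem
  exact Subgroup.mem_bot.mp hmem

theorem hom_trivial (hF1 : ∀ H : Subgroup G, (∀ P : Sylow 7 G, (P : Subgroup G) ≤ H) → H = ⊤)
    {A : Type*} [Group A] [Finite A] (f : G →* A) (hA : Nat.Coprime (Nat.card A) 7) (g : G) :
    f g = 1 := by
  have hker : f.ker = ⊤ := by
    apply hF1
    intro P x hx
    rw [MonoidHom.mem_ker]
    obtain ⟨k, hk⟩ := P.2 ⟨x, hx⟩
    have hk' : x ^ 7 ^ k = 1 := by
      have := congrArg Subtype.val hk
      simpa using this
    have h1 : orderOf (f x) ∣ 7 ^ k := by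
      apply orderOf_dvd_of_pow_eq_one
      rw [← map_pow, hk', map_one]
    have h2 : orderOf (f x) ∣ Nat.card A := orderOf_dvd_natCard (f x)
    have h3 : orderOf (f x) = 1 :=
      Nat.eq_one_of_dvd_coprimes (Nat.Coprime.pow_right k hA) h2 h1
    exact orderOf_eq_one_iff.mp h3
  have : g ∈ f.ker := by rw [hker]; exact Subgroup.mem_top g
  exact MonoidHom.mem_ker.mp this

theorem cent_le (h15 : Nat.card (Sylow 7 G) = 15)
    (hF : ∀ g : G, (∀ R : Sylow 7 G, g • R = R) → g = 1)
    (hF1 : ∀ H : Subgroup G, (∀ P : Sylow 7 G, (P : Subgroup G) ≤ H) → H = ⊤)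
    (P : Sylow 7 G) (c : G) (hc : c ∈ Subgroup.centralizer (P : Set G)) :
    c ∈ (P : Subgroup G) := by
  classical
  by_contra hcP
  have hfin : Finite (Sylow 7 G) := Nat.finite_of_card_ne_zero (by rw [h15]; norm_num)
  haveI : Fintype (Sylow 7 G) := Fintype.ofFinite _
  have hnt : Nontrivial (Sylow 7 G) := by
    rw [← Finite.one_lt_card_iff_nontrivial, h15]; norm_num
  have hm : 0 < orderOf c := orderOf_pos c
  have hq : ∃ q : ℕ, q.Prime ∧ q ∣ orderOf c ∧ q ≠ 7 := by
    by_contra hcon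
    push Not at hcon
    have := Nat.eq_prime_pow_of_unique_prime_dvd hm.ne' (fun {d} hd hdvd => hcon d hd hdvd)
    apply hcP
    exact pelt_mem c _ (by rw [← this]; exact pow_orderOf_eq_one c) P
      (Subgroup.centralizer_le_normalizer _ hc)
  obtain ⟨q, hqp, hqd, hq7⟩ := hq
  haveI : Fact q.Prime := ⟨hqp⟩
  have hto : orderOf (c ^ (orderOf c / q)) = q := orderOf_pow_orderOf_div hm.ne' hqd
  have htc : c ^ (orderOf c / q) ∈ Subgroup.centralizer (P : Set G) := Subgroup.pow_mem _ hc _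
  generalize c ^ (orderOf c / q) = t at hto htc
  have ht1 : t ≠ 1 := by
    intro h; rw [h, orderOf_one] at hto; exact hqp.ne_one hto.symm
  have htfix : ∀ R : Sylow 7 G, P ≠ R → t • R ≠ R :=
    fun R hR h => ht1 (fix_imp_one h15 hF P R hR t htc h)
  have htP : t • P = P :=
    Sylow.smul_eq_iff_mem_normalizer.mpr (Subgroup.centralizer_le_normalizer _ htc)
  obtain ⟨τ, hτ⟩ : ∃ τ : Equiv.Perm (Sylow 7 G), τ = MulAction.toPerm t := ⟨_, rfl⟩
  have hτapp : ∀ R, τ R = t • R := by intro R; rw [hτ]; rfl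
  have hτo : orderOf τ = q := by
    apply orderOf_eq_prime
    · ext R
      have : ∀ n : ℕ, (τ ^ n) R = t ^ n • R := by
        intro n
        induction n with
        | zero => simp
        | succ n ih => rw [pow_succ', Equiv.Perm.mul_apply, ih, hτapp, ← mul_smul, ← pow_succ']
      rw [this, ← hto, pow_orderOf_eq_one, one_smul]; rfl
    · intro h
      obtain ⟨R, hR⟩ := exists_ne P
      apply htfix R hR.symm
      rw [← hτapp, h]; rfl
  have hsupp : τ.support = Finset.univ.erase P := by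
    ext R
    rw [Equiv.Perm.mem_support, Finset.mem_erase, hτapp]
    constructor
    · intro h
      refine ⟨?_, Finset.mem_univ _⟩
      rintro rfl
      exact h htP
    · rintro ⟨h, -⟩
      exact htfix R (Ne.symm h)
  have hsc : τ.support.card = 14 := by
    rw [hsupp, Finset.card_erase_of_mem (Finset.mem_univ _), Finset.card_univ,
      ← Nat.card_eq_fintype_card, h15]
  obtain ⟨n, hn⟩ := Equiv.Perm.cycleType_prime_order (σ := τ) (by rw [hτo]; exact hqp)
  rw [hτo] at hn
  have hsum : τ.cycleType.sum = 14 := by rw [Equiv.Perm.sum_cycleType, hsc]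
  rw [hn, Multiset.sum_replicate, smul_eq_mul] at hsum
  have hq2 : q = 2 := by
    have hdvd : q ∣ 14 := Dvd.intro_left _ hsum
    have h14 : (14 : ℕ) = 2 * 7 := by norm_num
    rw [h14] at hdvd
    rcases (Nat.Prime.dvd_mul hqp).mp hdvd with h | h
    · exact (Nat.prime_dvd_prime_iff_eq hqp (by norm_num)).mp h
    · exact absurd ((Nat.prime_dvd_prime_iff_eq hqp (by norm_num)).mp h) hq7
  subst hq2
  have hn7 : n + 1 = 7 := by omega
  have hsign : Equiv.Perm.sign τ = -1 := by
    rw [Equiv.Perm.sign_of_cycleType, hn, Multiset.sum_replicate, Multiset.card_replicate, hn7]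
    decide
  have h1 := hom_trivial hF1 (Equiv.Perm.sign.comp (MulAction.toPermHom G (Sylow 7 G)))
    (by rw [Nat.card_eq_fintype_card]; decide) t
  rw [MonoidHom.comp_apply] at h1
  have h2 : (MulAction.toPermHom G (Sylow 7 G)) t = τ := by rw [hτ]; rfl
  rw [h2, hsign] at h1
  exact absurd h1 (by decide)

theorem sylow_card_of (q : ℕ) [Fact q.Prime] (Q : Sylow q G) (m : ℕ) (hG : Nat.card G = q * m)
    (hm : ¬ q ∣ m) : Nat.card ↥(Q : Subgroup G) = q := by
  have hq : q.Prime := Fact.out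
  have hm0 : m ≠ 0 := by rintro rfl; exact hm (dvd_zero q)
  rw [Sylow.card_eq_multiplicity Q, hG, Nat.factorization_mul hq.ne_zero hm0]
  simp [hq.factorization_self, Nat.factorization_eq_zero_of_not_dvd hm]

theorem transfer_contra
    (hF1 : ∀ H : Subgroup G, (∀ P : Sylow 7 G, (P : Subgroup G) ≤ H) → H = ⊤)
    (q : ℕ) [Fact q.Prime] (hq7 : q ≠ 7) (Q : Sylow q G)
    (hQ : Nat.card ↥(Q : Subgroup G) = q) (hcop : Nat.Coprime (Nat.card G) (q - 1)) : False := by
  have hq : q.Prime := Fact.out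
  haveI : IsCyclic ↥(Q : Subgroup G) := isCyclic_of_prime_card hQ
  have key := Subgroup.card_dvd_of_injective _
    (QuotientGroup.kerLift_injective (Q : Subgroup G).normalizerMonoidHom)
  rw [Subgroup.normalizerMonoidHom_ker, ← Subgroup.index, ← Subgroup.relIndex,
    IsCyclic.card_mulAut, hQ, Nat.totient_prime hq] at key
  have h1 : (Subgroup.centralizer ((Q : Subgroup G) : Set G)).relIndex
      (Subgroup.normalizer ((Q : Subgroup G) : Set G)) ∣ Nat.card G :=
    (Subgroup.relIndex_dvd_card _ _).trans (Subgroup.card_subgroup_dvd_card _)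
  have h2 := Nat.eq_one_of_dvd_coprimes hcop h1 key
  have hNC : Subgroup.normalizer ((Q : Subgroup G) : Set G) ≤
      Subgroup.centralizer ((Q : Subgroup G) : Set G) := Subgroup.relIndex_eq_one.mp h2
  have hcomp := MonoidHom.ker_transferSylow_isComplement' Q hNC
  have hker : (MonoidHom.transferSylow Q hNC).ker = ⊤ := by
    rw [eq_top_iff]
    intro g _
    rw [MonoidHom.mem_ker]
    apply hom_trivial hF1
    rw [hQ]
    exact (Nat.coprime_primes hq (by norm_num)).mpr hq7
  have hc := hcomp.card_mul_card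
  rw [hker, Subgroup.card_top, hQ] at hc
  have hpos : 0 < Nat.card G := Nat.card_pos
  have : q = 1 := by
    have h3 : Nat.card G * q = Nat.card G * 1 := by rw [hc, mul_one]
    exact Nat.eq_of_mul_eq_mul_left hpos h3
  exact hq.ne_one this

theorem main_aux : ∀ (n : ℕ) (G : Type u) [Group G] [Finite G], Nat.card G = n →
    Nat.card (Sylow 7 G) ≠ 15 := by
  intro n
  induction n using Nat.strong_induction_on with
  | _ n ih =>
    intro G _ _ hn h15
    have hF1 : ∀ H : Subgroup G, (∀ P : Sylow 7 G, (P : Subgroup G) ≤ H) → H = ⊤ := by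
      intro H hH
      by_contra hne
      have hlt : Nat.card H < n := by
        rw [← hn]
        exact lt_of_le_of_ne (Subgroup.card_le_card_group H)
          (fun h => hne (Subgroup.eq_top_of_card_eq H h))
      exact ih _ hlt H rfl ((card_sylow_subgroup H hH).trans h15)
    have hF : ∀ g : G, (∀ R : Sylow 7 G, g • R = R) → g = 1 := by
      intro g hg
      by_contra hne
      have hgK : g ∈ (MulAction.toPermHom G (Sylow 7 G)).ker := by
        rw [MonoidHom.mem_ker]
        exact Equiv.ext (fun R => hg R)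
      have hKN : ∀ P : Sylow 7 G, (MulAction.toPermHom G (Sylow 7 G)).ker ≤
          Subgroup.normalizer (P : Set G) := by
        intro P x hx
        rw [← Sylow.smul_eq_iff_mem_normalizer]
        have := MonoidHom.mem_ker.mp hx
        exact congrArg (fun e : Equiv.Perm (Sylow 7 G) => e P) this
      have hK1 : 1 < Nat.card (MulAction.toPermHom G (Sylow 7 G)).ker := by
        rw [Subgroup.one_lt_card_iff_ne_bot]
        intro h
        rw [h, Subgroup.mem_bot] at hgK
        exact hne hgK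
      have hlt : Nat.card (G ⧸ (MulAction.toPermHom G (Sylow 7 G)).ker) < n := by
        rw [← hn, Subgroup.card_eq_card_quotient_mul_card_subgroup
          (MulAction.toPermHom G (Sylow 7 G)).ker]
        have hpos : 0 < Nat.card (G ⧸ (MulAction.toPermHom G (Sylow 7 G)).ker) := Nat.card_pos
        nlinarith
      exact ih _ hlt (G ⧸ (MulAction.toPermHom G (Sylow 7 G)).ker) rfl
        ((card_sylow_quotient _ hKN).trans h15)
    obtain ⟨hcard, hbot⟩ := tame h15 hF
    have hfin : Finite (Sylow 7 G) := Nat.finite_of_card_ne_zero (by rw [h15]; norm_num)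
    obtain ⟨P⟩ : Nonempty (Sylow 7 G) := inferInstance
    haveI : IsCyclic ↥(P : Subgroup G) := isCyclic_of_prime_card (hcard P)
    have hPC : (P : Subgroup G) ≤ Subgroup.centralizer ((P : Subgroup G) : Set G) := by
      intro x hx
      rw [Subgroup.mem_centralizer_iff]
      intro y hy
      obtain ⟨g, hg⟩ := IsCyclic.exists_generator (α := ↥(P : Subgroup G))
      obtain ⟨i, hi⟩ := Subgroup.mem_zpowers_iff.mp (hg ⟨x, hx⟩)
      obtain ⟨j, hj⟩ := Subgroup.mem_zpowers_iff.mp (hg ⟨y, hy⟩)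
      have hi' : (g : G) ^ i = x := by
        have := congrArg Subtype.val hi; simpa using this
      have hj' : (g : G) ^ j = y := by
        have := congrArg Subtype.val hj; simpa using this
      rw [← hi', ← hj', ← zpow_add, ← zpow_add, add_comm]
    have hC : Subgroup.centralizer ((P : Subgroup G) : Set G) = (P : Subgroup G) :=
      le_antisymm (fun c hc => cent_le h15 hF hF1 P c hc) hPC
    have hidx : (Subgroup.normalizer ((P : Subgroup G) : Set G)).index = 15 := by
      exact (Sylow.card_eq_index_normalizer P).symm.trans h15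
    have key := Subgroup.card_dvd_of_injective _
      (QuotientGroup.kerLift_injective (P : Subgroup G).normalizerMonoidHom)
    rw [Subgroup.normalizerMonoidHom_ker, ← Subgroup.index, ← Subgroup.relIndex,
      IsCyclic.card_mulAut, hcard P, Nat.totient_prime (by norm_num), hC] at key
    have hG : Nat.card G = 7 * ((P : Subgroup G).relIndex
        (Subgroup.normalizer ((P : Subgroup G) : Set G)) * 15) := by
      have h1 := Subgroup.card_mul_index (P : Subgroup G)
      rw [hcard P, ← Subgroup.relIndex_mul_index (Subgroup.le_normalizer (H := (P : Subgroup G))),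
        hidx] at h1
      exact h1.symm
    generalize (P : Subgroup G).relIndex (Subgroup.normalizer ((P : Subgroup G) : Set G)) = e
      at key hG
    have key' : e ∣ 6 := key
    have he : e ≤ 6 := Nat.le_of_dvd (by norm_num) key'
    have h2 : Fact (Nat.Prime 2) := ⟨by norm_num⟩
    have h5 : Fact (Nat.Prime 5) := ⟨by norm_num⟩
    interval_cases e
    · norm_num at key'
    · obtain ⟨Q⟩ : Nonempty (Sylow 5 G) := inferInstance
      exact transfer_contra hF1 5 (by norm_num) Q
        (sylow_card_of 5 Q 21 (by rw [hG]) (by norm_num)) (by rw [hG]; decide)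
    · obtain ⟨Q⟩ : Nonempty (Sylow 2 G) := inferInstance
      exact transfer_contra hF1 2 (by norm_num) Q
        (sylow_card_of 2 Q 105 (by rw [hG]) (by norm_num)) (by rw [hG]; decide)
    · obtain ⟨Q⟩ : Nonempty (Sylow 5 G) := inferInstance
      exact transfer_contra hF1 5 (by norm_num) Q
        (sylow_card_of 5 Q 63 (by rw [hG]) (by norm_num)) (by rw [hG]; decide)
    · norm_num at key'
    · norm_num at key'
    · obtain ⟨Q⟩ : Nonempty (Sylow 2 G) := inferInstance
      exact transfer_contra hF1 2 (by norm_num) Q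
        (sylow_card_of 2 Q 315 (by rw [hG]) (by norm_num)) (by rw [hG]; decide)

end main



/-- No finite group has exactly 15 Sylow 7-subgroups. -/
theorem result {G : Type*} [Group G] [Finite G] : Nat.card (Sylow 7 G) ≠ 15 := by
  exact main_aux _ G rfl

end Cfsg.Agent.S4304
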