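import Cfsg.Statements.S0007
import Mathlib

set_option autoImplicit false
open Cfsg

namespace Cfsg.Agent.S0007

theorem exists_mul_of_relIndex_eq {G : Type*} [Group G] [Finite G] (H K : Subgroup G)
    (h : H.relIndex K = H.index) : ∀ g : G, ∃ x ∈ H, ∃ y ∈ K, g = x * y := by
  classical
  have hstab : MulAction.stabilizer K ((1 : G) : G ⧸ H) = H.subgroupOf K := by
    ext k
    simp only [MulAction.mem_stabilizer_iff, Subgroup.mem_subgroupOf]
    change ((k : G) • ((1 : G) : G ⧸ H)) = _ ↔ _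
    rw [MulAction.Quotient.smul_mk, smul_eq_mul, mul_one, eq_comm,
      QuotientGroup.eq]
    simp
  have horb : (MulAction.orbit K ((1 : G) : G ⧸ H)).ncard = Nat.card (G ⧸ H) := by
    rw [← MulAction.index_stabilizer, hstab, ← Subgroup.index_eq_card]
    exact h
  have huniv : MulAction.orbit K ((1 : G) : G ⧸ H) = Set.univ :=
    (Set.eq_univ_iff_ncard _).mpr horb
  intro g
  have hg : ((g⁻¹ : G) : G ⧸ H) ∈ MulAction.orbit K ((1 : G) : G ⧸ H) := by
    rw [huniv]; trivial
  obtain ⟨k, hk⟩ := hg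
  change ((k : G) • ((1 : G) : G ⧸ H)) = _ at hk
  rw [MulAction.Quotient.smul_mk, smul_eq_mul, mul_one, QuotientGroup.eq] at hk
  refine ⟨(( k : G)⁻¹ * g⁻¹)⁻¹, H.inv_mem hk, (k : G)⁻¹, K.inv_mem k.2, ?_⟩
  group

theorem result {G : Type*} [Group G] [Finite G] (H K : Subgroup G)
    (h : H.index.Coprime K.index) :
    (H ⊓ K).index = H.index * K.index ∧ ∀ g : G, ∃ x ∈ H, ∃ y ∈ K, g = x * y := by
  have h1 : (H ⊓ K).index = H.index * K.index := by
    apply Nat.le_antisymm Subgroup.index_inf_le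
    apply Nat.le_of_dvd
    · exact Nat.pos_of_ne_zero (Subgroup.index_ne_zero_of_finite)
    · exact Nat.Coprime.mul_dvd_of_dvd_of_dvd h (Subgroup.index_dvd_of_le inf_le_left)
        (Subgroup.index_dvd_of_le inf_le_right)
  refine ⟨h1, exists_mul_of_relIndex_eq H K ?_⟩
  have h2 := Subgroup.relIndex_mul_index (inf_le_right : H ⊓ K ≤ K)
  rw [Subgroup.inf_relIndex_right, h1] at h2
  exact Nat.eq_of_mul_eq_mul_right (Nat.pos_of_ne_zero (Subgroup.index_ne_zero_of_finite)) h2

end Cfsg.Agent.S0007
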