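import Cfsg.Statements.S0010
import Mathlib
import Cfsg.Agent.Lib.Helper1.Cores

set_option autoImplicit false
open Cfsg

namespace Cfsg.Agent.S0010

/-- The largest normal p-subgroup of a finite group is the intersection of all its Sylow p-subgroups. -/
theorem result {G : Type*} [Group G] [Finite G] (p : ℕ) [Fact p.Prime] :
    Cfsg.pCore p G = ⨅ P : Sylow p G, (P : Subgroup G) := by
  apply le_antisymm
  · apply le_iInf
    intro P
    exact Cfsg.Agent.Lib.Helper1.pCore_le_sylow P
  · apply Cfsg.Agent.Lib.Helper1.le_pCore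
    · constructor
      intro x hx g
      rw [Subgroup.mem_iInf] at hx ⊢
      intro P
      have h1 := hx (g⁻¹ • P)
      rw [Sylow.coe_subgroup_smul, Cfsg.Agent.Lib.Helper1.mem_conj_smul_iff, inv_inv] at h1
      exact h1
    · obtain ⟨P⟩ := (Sylow.nonempty : Nonempty (Sylow p G))
      exact P.2.to_le (iInf_le _ P)

end Cfsg.Agent.S0010
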