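import Cfsg.Statements.S0011
import Mathlib

set_option autoImplicit false
open Cfsg

namespace Cfsg.Agent.S0011

/-- If the Frattini quotient of a finite group is nilpotent then the group is nilpotent. -/
theorem result {G : Type*} [Group G] [Finite G]
    (h : Group.IsNilpotent (G ⧸ frattini G)) : Group.IsNilpotent G := by
  have htfae := (Group.isNilpotent_of_finite_tfae (G := G)).out 0 2
  have htfae' := (Group.isNilpotent_of_finite_tfae (G := G ⧸ frattini G)).out 0 2
  rw [htfae]
  intro H hH
  have hle : frattini G ≤ H := frattini_le_coatom hH
  have hker : (QuotientGroup.mk' (frattini G)).ker ≤ H := by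
    rw [QuotientGroup.ker_mk']; exact hle
  have hcomap : (H.map (QuotientGroup.mk' (frattini G))).comap (QuotientGroup.mk' (frattini G))
      = H := by
    rw [Subgroup.comap_map_eq, sup_eq_left]; exact hker
  have hco : IsCoatom (H.map (QuotientGroup.mk' (frattini G))) := by
    constructor
    · intro htop
      apply hH.1
      rw [← hcomap, htop, Subgroup.comap_top]
    · intro K hK
      have h1 : H < K.comap (QuotientGroup.mk' (frattini G)) := by
        have h0 := (Subgroup.comap_lt_comap_of_surjective
          (QuotientGroup.mk'_surjective (frattini G))).mpr hK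
        rwa [hcomap] at h0
      have h2 := hH.2 _ h1
      rw [← Subgroup.comap_top (QuotientGroup.mk' (frattini G))] at h2
      exact Subgroup.comap_injective (QuotientGroup.mk'_surjective _) h2
  have hn : (H.map (QuotientGroup.mk' (frattini G))).Normal := htfae'.mp h _ hco
  have hn2 := hn.comap (QuotientGroup.mk' (frattini G))
  rwa [hcomap] at hn2

end Cfsg.Agent.S0011
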