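import Cfsg.Statements.S0013
import Mathlib

set_option autoImplicit false
open Cfsg

namespace Cfsg.Agent.S0013

open scoped commutatorElement

/-- In a finite p-group the Frattini subgroup is the smallest normal subgroup with elementary abelian quotient: it lies below any normal subgroup containing all commutators and all p-th powers. -/
theorem result {G : Type*} [Group G] [Finite G] (p : ℕ) [Fact p.Prime]
    (hG : IsPGroup p G) (N : Subgroup G) [N.Normal] (hcomm : commutator G ≤ N) (hpow : ∀ x : G, x ^ p ∈ N) :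
    frattini G ≤ N := by
  intro x hx
  by_contra hxN
  obtain ⟨M, hNM, hMmax⟩ := (Set.toFinite {M : Subgroup G | N ≤ M ∧ x ∉ M}).exists_le_maximal
    (⟨le_rfl, hxN⟩ : N ∈ {M : Subgroup G | N ≤ M ∧ x ∉ M})
  obtain ⟨hNM', hxM⟩ := hMmax.1
  have hMn : M.Normal := by
    constructor
    intro m hm g
    have h1 : g * m * g⁻¹ = ⁅g, m⁆ * m := by rw [commutatorElement_def]; group
    rw [h1]
    exact M.mul_mem (hNM' (hcomm (Subgroup.commutator_mem_commutator (Subgroup.mem_top g)
      (Subgroup.mem_top m)))) hm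
  have hco : IsCoatom M := by
    refine ⟨fun h => hxM (h ▸ Subgroup.mem_top x), ?_⟩
    intro K hK
    have hxK : x ∈ K := by
      by_contra hxK
      exact hK.ne (le_antisymm hK.le (hMmax.2 ⟨hNM'.trans hK.le, hxK⟩ hK.le))
    rw [eq_top_iff]
    intro y _
    by_cases hyM : y ∈ M
    · exact hK.le hyM
    · have hx' : x ∈ M ⊔ Subgroup.zpowers y := by
        by_contra hx'
        have h2 := hMmax.2 (⟨hNM'.trans le_sup_left, hx'⟩ :
          M ⊔ Subgroup.zpowers y ∈ {M : Subgroup G | N ≤ M ∧ x ∉ M}) le_sup_left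
        exact hyM (h2 (Subgroup.mem_sup_right (Subgroup.mem_zpowers y)))
      obtain ⟨m, hm, z, hz, hmz⟩ := Subgroup.mem_sup_of_normal_left.mp hx'
      obtain ⟨i, rfl⟩ := Subgroup.mem_zpowers_iff.mp hz
      have hyiK : y ^ i ∈ K := by
        have h3 : y ^ i = m⁻¹ * (m * y ^ i) := by group
        rw [h3, hmz]; exact K.mul_mem (K.inv_mem (hK.le hm)) hxK
      have hpi : ¬ (p : ℤ) ∣ i := by
        rintro ⟨j, rfl⟩
        apply hxM
        rw [← hmz]
        refine M.mul_mem hm ?_
        rw [zpow_mul, zpow_natCast]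
        exact hNM' (Subgroup.zpow_mem _ (hpow y) j)
      have hcop : IsCoprime (p : ℤ) i :=
        (Prime.coprime_iff_not_dvd (Nat.prime_iff_prime_int.mp Fact.out)).mpr hpi
      obtain ⟨a, b, hab⟩ := hcop
      have h4 : y = (y ^ (p : ℤ)) ^ a * (y ^ i) ^ b := by
        rw [← zpow_mul, ← zpow_mul, ← zpow_add, mul_comm (p : ℤ) a, mul_comm i b, hab, zpow_one]
      rw [h4]
      refine K.mul_mem (K.zpow_mem ?_ a) (K.zpow_mem hyiK b)
      rw [zpow_natCast]
      exact hK.le (hNM' (hpow y))
  exact hxM (frattini_le_coatom hco hx)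

end Cfsg.Agent.S0013
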