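import Cfsg.Statements.S0014
import Mathlib
import Cfsg.Agent.S0012

set_option autoImplicit false
open Cfsg

namespace Cfsg.Agent.S0014

open scoped commutatorElement

theorem normal_of_frattini_le {G : Type*} [Group G] [Finite G] (p : ℕ) [Fact p.Prime]
    (hG : IsPGroup p G) (H : Subgroup G) (hH : frattini G ≤ H) : H.Normal := by
  have hc := (Cfsg.Agent.S0012.result p hG).1
  constructor
  intro n hn g
  have h1 : g * n * g⁻¹ = ⁅g, n⁆ * n := by rw [commutatorElement_def]; group
  rw [h1]
  refine H.mul_mem (hH (hc ?_)) hn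
  rw [commutator_def]
  exact Subgroup.commutator_mem_commutator (Subgroup.mem_top g) (Subgroup.mem_top n)

theorem step {G : Type*} [Group G] [Finite G] (p : ℕ) [Fact p.Prime]
    (hG : IsPGroup p G) (H : Subgroup G) (hH : frattini G ≤ H) (x : G) (hx : x ∉ H) :
    H.relIndex (H ⊔ Subgroup.zpowers x) = p := by
  have hHn := normal_of_frattini_le p hG H hH
  have hxp : x ^ p ∈ H := hH ((Cfsg.Agent.S0012.result p hG).2 x)
  rw [Subgroup.relIndex_sup_left]
  have h1 := Subgroup.relIndex_ker (K := Subgroup.zpowers x) (QuotientGroup.mk' H)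
  rw [QuotientGroup.ker_mk'] at h1
  rw [h1, MonoidHom.map_zpowers, Nat.card_zpowers]
  apply orderOf_eq_prime
  · rw [← map_pow]
    exact (QuotientGroup.eq_one_iff _).mpr hxp
  · intro h2
    exact hx ((QuotientGroup.eq_one_iff _).mp h2)

theorem sup_closure_insert {G : Type*} [Group G] [DecidableEq G] (F : Subgroup G) (x : G)
    (T : Finset G) :
    F ⊔ Subgroup.closure ((insert x T : Finset G) : Set G) =
      (F ⊔ Subgroup.closure (T : Set G)) ⊔ Subgroup.zpowers x := by
  rw [Finset.coe_insert, Set.insert_eq, Subgroup.closure_union, ← Subgroup.zpowers_eq_closure,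
    sup_comm (Subgroup.zpowers x), sup_assoc]

theorem claim {G : Type*} [Group G] [Finite G] (p : ℕ) [Fact p.Prime]
    (hG : IsPGroup p G) (S : Finset G) :
    ∃ T : Finset G, T ⊆ S ∧
      frattini G ⊔ Subgroup.closure (T : Set G) = frattini G ⊔ Subgroup.closure (S : Set G) ∧
      (frattini G).relIndex (frattini G ⊔ Subgroup.closure (T : Set G)) = p ^ T.card := by
  classical
  induction S using Finset.induction_on with
  | empty => exact ⟨∅, Finset.Subset.refl _, rfl, by simp⟩
  | insert x S' hxS' ih =>
    obtain ⟨T', hT', h1, h2⟩ := ih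
    by_cases hx : x ∈ frattini G ⊔ Subgroup.closure (S' : Set G)
    · refine ⟨T', hT'.trans (Finset.subset_insert _ _), ?_, h2⟩
      rw [sup_closure_insert, h1]
      symm
      rw [sup_eq_left, Subgroup.zpowers_le]
      exact hx
    · have hxT' : x ∉ T' := by
        intro hxT
        apply hx
        rw [← h1]
        exact (le_sup_right : Subgroup.closure (T' : Set G) ≤ _) (Subgroup.subset_closure hxT)
      refine ⟨insert x T', Finset.insert_subset_insert _ hT', ?_, ?_⟩
      · rw [sup_closure_insert, sup_closure_insert, h1]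
      · rw [sup_closure_insert, Finset.card_insert_of_notMem hxT', pow_succ, ← h2,
          ← step p hG (frattini G ⊔ Subgroup.closure (T' : Set G)) le_sup_left x (h1 ▸ hx)]
        exact (Subgroup.relIndex_mul_relIndex _ _ _ le_sup_left le_sup_left).symm

/-- Burnside's basis Theorem: in a finite p-group whose Frattini quotient has order p ^ n, every generating set contains n elements that already generate, and no set with fewer than n elements generates. -/
theorem result {G : Type*} [Group G] [Finite G] (p n : ℕ) [Fact p.Prime]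
    (hG : IsPGroup p G) (hn : (frattini G).index = p ^ n) :
    (∀ S : Finset G, Subgroup.closure (S : Set G) = ⊤ → ∃ T : Finset G, T ⊆ S ∧ T.card = n ∧ Subgroup.closure (T : Set G) = ⊤) ∧
    (∀ T : Finset G, Subgroup.closure (T : Set G) = ⊤ → n ≤ T.card) := by
  have key : ∀ S : Finset G, Subgroup.closure (S : Set G) = ⊤ →
      ∃ T : Finset G, T ⊆ S ∧ T.card = n ∧ Subgroup.closure (T : Set G) = ⊤ := by
    intro S hS
    obtain ⟨T, hTS, h1, h2⟩ := claim p hG S
    rw [hS, sup_top_eq] at h1
    rw [h1, Subgroup.relIndex_top_right, hn] at h2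
    refine ⟨T, hTS, ?_, ?_⟩
    · exact (Nat.pow_right_injective (Fact.out : p.Prime).two_le h2).symm
    · apply frattini_nongenerating
      rw [sup_comm]
      exact h1
  refine ⟨key, ?_⟩
  intro T hT
  obtain ⟨T', hT'T, hcard, -⟩ := key T hT
  rw [← hcard]
  exact Finset.card_le_card hT'T

end Cfsg.Agent.S0014
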