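import Cfsg.Statements.S0015
import Mathlib

set_option autoImplicit false
open Cfsg

namespace Cfsg.Agent.S0015

open scoped commutatorElement

/-- In a finite nilpotent group, an abelian normal subgroup that is maximal among abelian normal subgroups equals its own centralizer. -/
theorem result {G : Type*} [Group G] [Finite G] [Group.IsNilpotent G]
    (N : Subgroup G) [N.Normal] [IsMulCommutative N]
    (hmax : ∀ M : Subgroup G, M.Normal → IsMulCommutative M → N ≤ M → M = N) :
    Subgroup.centralizer (N : Set G) = N := by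
  have hNC : N ≤ Subgroup.centralizer (N : Set G) := by
    intro a ha
    rw [Subgroup.mem_centralizer_iff]
    intro b hb
    have h0 := mul_comm' (⟨b, hb⟩ : N) ⟨a, ha⟩
    exact congrArg Subtype.val h0
  by_contra hne
  have hCN : ¬ Subgroup.centralizer (N : Set G) ≤ N := fun h => hne (le_antisymm h hNC)
  obtain ⟨n, hn⟩ := Group.IsNilpotent.nilpotent G
  have hex : ∃ i, ¬ (Subgroup.centralizer (N : Set G) ⊓ Subgroup.upperCentralSeries G i ≤ N) :=
    ⟨n, by rw [hn, inf_top_eq]; exact hCN⟩
  classical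
  have hi := Nat.find_spec hex
  have hi0 : Nat.find hex ≠ 0 := by
    intro h0
    rw [h0, Subgroup.upperCentralSeries_zero, inf_bot_eq] at hi
    exact hi bot_le
  obtain ⟨j, hj⟩ := Nat.exists_eq_succ_of_ne_zero hi0
  have hjmin : Subgroup.centralizer (N : Set G) ⊓ Subgroup.upperCentralSeries G j ≤ N := by
    by_contra h
    exact Nat.find_min hex (by rw [hj]; exact Nat.lt_succ_self j) h
  rw [hj] at hi
  obtain ⟨x, hx, hxN⟩ := SetLike.not_le_iff_exists.mp hi
  obtain ⟨hxC, hxZ⟩ := Subgroup.mem_inf.mp hx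
  have hCn : (Subgroup.centralizer (N : Set G)).Normal := inferInstance
  have hcomm : ∀ g : G, x * g * x⁻¹ * g⁻¹ ∈ N := by
    intro g
    apply hjmin
    refine Subgroup.mem_inf.mpr ⟨?_, Subgroup.mem_upperCentralSeries_succ_iff.mp hxZ g⟩
    have h0 : x * g * x⁻¹ * g⁻¹ = x * (g * x⁻¹ * g⁻¹) := by group
    rw [h0]
    exact Subgroup.mul_mem _ hxC (hCn.conj_mem _ (Subgroup.inv_mem _ hxC) g)
  obtain ⟨M, hMdef⟩ : ∃ M : Subgroup G, M = N ⊔ Subgroup.zpowers x := ⟨_, rfl⟩
  have hNM : N ≤ M := hMdef ▸ le_sup_left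
  have hxM : x ∈ M := hMdef ▸ Subgroup.mem_sup_right (Subgroup.mem_zpowers x)
  have key : M ≤ (Subgroup.center (G ⧸ N)).comap (QuotientGroup.mk' N) := by
    rw [hMdef]
    apply sup_le
    · intro a ha
      rw [Subgroup.mem_comap]
      have h0 : QuotientGroup.mk' N a = 1 := (QuotientGroup.eq_one_iff a).mpr ha
      rw [h0]; exact Subgroup.one_mem _
    · rw [Subgroup.zpowers_le, Subgroup.mem_comap, Subgroup.mem_center_iff]
      intro gbar
      obtain ⟨g, rfl⟩ := QuotientGroup.mk'_surjective N gbar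
      have h1 := hcomm g
      rw [← QuotientGroup.eq_one_iff] at h1
      have h2 : QuotientGroup.mk' N x * QuotientGroup.mk' N g * (QuotientGroup.mk' N x)⁻¹ *
          (QuotientGroup.mk' N g)⁻¹ = 1 := by
        rw [← map_inv, ← map_inv, ← map_mul, ← map_mul, ← map_mul]; exact h1
      calc QuotientGroup.mk' N g * QuotientGroup.mk' N x
          = (QuotientGroup.mk' N x * QuotientGroup.mk' N g * (QuotientGroup.mk' N x)⁻¹ *
            (QuotientGroup.mk' N g)⁻¹)⁻¹ * (QuotientGroup.mk' N x * QuotientGroup.mk' N g) := by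
            group
        _ = QuotientGroup.mk' N x * QuotientGroup.mk' N g := by rw [h2, inv_one, one_mul]
  have hMZ : ∀ m ∈ M, ∀ g : G, m * g * m⁻¹ * g⁻¹ ∈ N := by
    intro m hm g
    have h1 := key hm
    rw [Subgroup.mem_comap, Subgroup.mem_center_iff] at h1
    have h2 := h1 (QuotientGroup.mk' N g)
    rw [← QuotientGroup.eq_one_iff]
    show QuotientGroup.mk' N (m * g * m⁻¹ * g⁻¹) = 1
    rw [map_mul, map_mul, map_mul, map_inv, map_inv, ← h2]; group
  have hMn : M.Normal := by
    constructor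
    intro m hm g
    have h1 : g * m * g⁻¹ = (m * g * m⁻¹ * g⁻¹)⁻¹ * m := by group
    rw [h1]
    exact M.mul_mem (M.inv_mem (hNM (hMZ m hm g))) hm
  have hMc : IsMulCommutative M := by
    have h1 : M ≤ Subgroup.centralizer (N : Set G) := by
      rw [hMdef]; exact sup_le hNC (by rw [Subgroup.zpowers_le]; exact hxC)
    have h2 : M ≤ Subgroup.centralizer (Subgroup.zpowers x : Set G) := by
      rw [hMdef]
      apply sup_le
      · rw [Subgroup.le_centralizer_iff, Subgroup.zpowers_le]; exact hxC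
      · intro a ha
        rw [Subgroup.mem_centralizer_iff]
        intro b hb
        obtain ⟨i, rfl⟩ := Subgroup.mem_zpowers_iff.mp ha
        obtain ⟨k, rfl⟩ := Subgroup.mem_zpowers_iff.mp hb
        rw [← zpow_add, ← zpow_add, add_comm]
    have h3 : M ≤ Subgroup.centralizer (M : Set G) := by
      rw [Subgroup.le_centralizer_iff] at h1 h2
      calc M = N ⊔ Subgroup.zpowers x := hMdef
        _ ≤ Subgroup.centralizer (M : Set G) := sup_le h1 h2
    exact ⟨⟨fun a b => Subtype.ext (h3 b.2 a a.2)⟩⟩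
  have hMN : M = N := hmax M hMn hMc hNM
  exact hxN (hMN ▸ hxM)

end Cfsg.Agent.S0015
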