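import Cfsg.Statements.S0018
import Mathlib
import Cfsg.Agent.Lib.Helper1.Hall2

set_option autoImplicit false
open Cfsg

namespace Cfsg.Agent.S0018

/-- A finite solvable group whose Sylow p-subgroups are abelian has p-length one: a Sylow p-subgroup together with the largest normal subgroup of order prime to p generates a normal subgroup. -/
theorem result {G : Type*} [Group G] [Finite G] [Group.IsSolvable G]
    (p : ℕ) [Fact p.Prime] (P : Sylow p G) (hP : IsMulCommutative P) :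
    ((P : Subgroup G) ⊔ Cfsg.pPrimeCore p G).Normal := by
  obtain ⟨K, hKdef⟩ : ∃ K : Subgroup G, K = Cfsg.pPrimeCore p G := ⟨_, rfl⟩
  rw [← hKdef]
  haveI hKn : K.Normal := hKdef ▸ Cfsg.Agent.Lib.Helper1.pPrimeCore_normal p
  have hKcop : (Nat.card K).Coprime p := hKdef ▸ Cfsg.Agent.Lib.Helper1.pPrimeCore_coprime p
  have hKle : ∀ N : Subgroup G, N.Normal → (Nat.card N).Coprime p → N ≤ K := by
    intro N hN hc
    rw [hKdef]
    exact Cfsg.Agent.Lib.Helper1.le_pPrimeCore p hN hc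
  obtain ⟨π, hπdef⟩ : ∃ π : G →* G ⧸ K, π = QuotientGroup.mk' K := ⟨_, rfl⟩
  have hπ : Function.Surjective π := hπdef ▸ QuotientGroup.mk'_surjective K
  have hker : π.ker = K := hπdef ▸ QuotientGroup.ker_mk' K
  have hcomap : ∀ Hbar : Subgroup (G ⧸ K),
      Nat.card (Hbar.comap π) = Nat.card K * Nat.card Hbar :=
    hπdef ▸ Cfsg.Agent.Lib.Helper1.card_comap_mk' K
  have h1 : Cfsg.pPrimeCore p (G ⧸ K) = ⊥ := by
    have hn : (Cfsg.pPrimeCore p (G ⧸ K)).Normal := Cfsg.Agent.Lib.Helper1.pPrimeCore_normal p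
    have hc : (Nat.card (Cfsg.pPrimeCore p (G ⧸ K))).Coprime p :=
      Cfsg.Agent.Lib.Helper1.pPrimeCore_coprime p
    have h2 : (Cfsg.pPrimeCore p (G ⧸ K)).comap π ≤ K := by
      apply hKle _ (hn.comap π)
      rw [hcomap]
      exact Nat.Coprime.mul_left hKcop hc
    rw [eq_bot_iff]
    calc Cfsg.pPrimeCore p (G ⧸ K)
        = ((Cfsg.pPrimeCore p (G ⧸ K)).comap π).map π :=
          (Subgroup.map_comap_eq_self_of_surjective hπ _).symm
      _ ≤ K.map π := Subgroup.map_mono h2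
      _ = ⊥ := by rw [Subgroup.map_eq_bot_iff, hker]
  have h3 := Cfsg.Agent.Lib.Helper1.centralizer_pCore_le (G := G ⧸ K) p h1
  have h4 : Cfsg.pCore p (G ⧸ K) ≤ (P : Subgroup G).map π :=
    Cfsg.Agent.Lib.Helper1.pCore_le_sylow (P.mapSurjective hπ)
  have h5 : (P : Subgroup G).map π ≤ Subgroup.centralizer (Cfsg.pCore p (G ⧸ K) : Set (G ⧸ K)) := by
    rintro _ ⟨x, hx, rfl⟩
    rw [Subgroup.mem_centralizer_iff]
    intro b hb
    obtain ⟨y, hy, rfl⟩ := h4 hb
    have h6 := mul_comm' (⟨y, hy⟩ : P) ⟨x, hx⟩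
    have h7 : y * x = x * y := congrArg Subtype.val h6
    rw [← map_mul, ← map_mul, h7]
  have h8 : (P : Subgroup G).map π = Cfsg.pCore p (G ⧸ K) := le_antisymm (h5.trans h3) h4
  have h9 : ((P : Subgroup G).map π).Normal := h8 ▸ Cfsg.Agent.Lib.Helper1.pCore_normal p
  have h10 := h9.comap π
  rwa [Subgroup.comap_map_eq, hker] at h10

end Cfsg.Agent.S0018
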