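import Cfsg.Statements.S0020
import Mathlib
import Cfsg.Agent.Lib.Helper1.Hall

set_option autoImplicit false
open Pointwise
open Cfsg

namespace Cfsg.Agent.S0020

open Pointwise

theorem index_inf_of_coprime {G : Type*} [Group G] [Finite G] (A B : Subgroup G)
    (h : A.index.Coprime B.index) : (A ⊓ B).index = A.index * B.index := by
  apply Nat.le_antisymm Subgroup.index_inf_le
  apply Nat.le_of_dvd (Nat.pos_of_ne_zero Subgroup.index_ne_zero_of_finite)
  exact Nat.Coprime.mul_dvd_of_dvd_of_dvd h (Subgroup.index_dvd_of_le inf_le_left)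
    (Subgroup.index_dvd_of_le inf_le_right)

theorem mul_eq_of_card {G : Type*} [Group G] [Finite G] (A B K : Subgroup G) (hA : A ≤ K)
    (hB : B ≤ K) (hcard : Nat.card A * Nat.card B = Nat.card K)
    (hcop : (Nat.card A).Coprime (Nat.card B)) : (A : Set G) * (B : Set G) = (K : Set G) := by
  apply Set.Subset.antisymm
  · rintro _ ⟨a, ha, b, hb, rfl⟩
    exact K.mul_mem (hA ha) (hB hb)
  · intro x hx
    have hc1 : Nat.card (A.subgroupOf K) = Nat.card A :=
      Nat.card_congr (Subgroup.subgroupOfEquivOfLe hA).toEquiv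
    have hc2 : Nat.card (B.subgroupOf K) = Nat.card B :=
      Nat.card_congr (Subgroup.subgroupOfEquivOfLe hB).toEquiv
    have hcompl : (A.subgroupOf K).IsComplement' (B.subgroupOf K) :=
      Subgroup.isComplement'_of_coprime (by rw [hc1, hc2, hcard]) (by rw [hc1, hc2]; exact hcop)
    obtain ⟨a, ha, b, hb, hab⟩ :=
      Cfsg.Agent.Lib.Helper1.IsComplement'.exists_mul hcompl (⟨x, hx⟩ : K)
    have hab' : x = (a : G) * (b : G) := congrArg Subtype.val hab
    rw [hab']
    exact Set.mul_mem_mul (Subgroup.mem_subgroupOf.mp ha) (Subgroup.mem_subgroupOf.mp hb)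

/-- A finite solvable group admits a Sylow system: Sylow subgroups, one for each prime, that pairwise permute as sets. -/
theorem result {G : Type*} [Group G] [Finite G] [Group.IsSolvable G] :
    ∃ S : (p : Nat.Primes) → Sylow (p : ℕ) G,
      ∀ p q : Nat.Primes, (S p : Set G) * (S q : Set G) = (S q : Set G) * (S p : Set G) := by
  classical
  obtain ⟨n, hndef⟩ : ∃ n : ℕ, n = Nat.card G := ⟨_, rfl⟩
  have hn0 : n ≠ 0 := hndef ▸ Nat.card_pos.ne'
  have hex : ∀ p : ℕ, ∃ Hp : Subgroup G, p.Prime → Hp.index = p ^ n.factorization p := by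
    intro p
    by_cases hp : p.Prime
    · have hmul : Nat.card G = n / p ^ n.factorization p * p ^ n.factorization p := by
        rw [← hndef]; exact (Nat.div_mul_cancel (Nat.ordProj_dvd n p)).symm
      have hcop : (n / p ^ n.factorization p).Coprime (p ^ n.factorization p) :=
        (Nat.Coprime.pow_left _ (Nat.coprime_ordCompl hp hn0)).symm
      obtain ⟨Hp, hHp⟩ := (Cfsg.Agent.Lib.Helper1.hall_aux _ G le_rfl _ _ hmul hcop).1
      refine ⟨Hp, fun _ => ?_⟩
      have h1 := Subgroup.card_mul_index Hp
      rw [hHp, hmul] at h1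
      have hpos : 0 < n / p ^ n.factorization p :=
        Nat.div_pos (Nat.le_of_dvd (Nat.pos_of_ne_zero hn0) (Nat.ordProj_dvd n p))
          (pow_pos hp.pos _)
      exact Nat.eq_of_mul_eq_mul_left hpos h1
    · exact ⟨⊤, fun h => absurd h hp⟩
  choose H hH using hex
  obtain ⟨f, hfdef⟩ : ∃ f : ℕ → ℕ, f = fun p => p ^ n.factorization p := ⟨_, rfl⟩
  have hf : ∀ p, f p = p ^ n.factorization p := fun p => by rw [hfdef]
  have hK : ∀ T : Finset ℕ, (∀ p ∈ T, p.Prime) → (⨅ p ∈ T, H p).index = ∏ p ∈ T, f p := by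
    intro T
    induction T using Finset.induction_on with
    | empty => intro _; simp
    | insert a T haT ih =>
      intro hT
      rw [Finset.iInf_insert, Finset.prod_insert haT]
      have ih' := ih (fun p hp => hT p (Finset.mem_insert_of_mem hp))
      have hap : a.Prime := hT a (Finset.mem_insert_self a T)
      have ha := hH a hap
      rw [← hf] at ha
      rw [← ih', ← ha]
      apply index_inf_of_coprime
      rw [ha, ih']
      apply Nat.Coprime.prod_right
      intro p hp
      rw [hf, hf]
      apply Nat.Coprime.pow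
      exact (Nat.coprime_primes hap (hT p (Finset.mem_insert_of_mem hp))).mpr
        (fun h => haT (h ▸ hp))
  have hprod : ∏ p ∈ n.primeFactors, f p = n := by
    have h1 := Nat.prod_factorization_pow_eq_self hn0
    rw [Finsupp.prod, Nat.support_factorization] at h1
    rw [hfdef]; exact h1
  have herase : ∀ (T : Finset ℕ) (q : ℕ), (q ∉ T → n.factorization q = 0) →
      f q * ∏ r ∈ T.erase q, f r = ∏ r ∈ T, f r := by
    intro T q hq
    by_cases hqT : q ∈ T
    · exact Finset.mul_prod_erase T f hqT
    · rw [Finset.erase_eq_of_notMem hqT, hf, hq hqT, pow_zero, one_mul]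
  have hfact0 : ∀ q, q ∉ n.primeFactors → n.factorization q = 0 := by
    intro q hq
    rw [← Finsupp.notMem_support_iff, Nat.support_factorization]; exact hq
  have hprimes : ∀ T : Finset ℕ, T ⊆ n.primeFactors → ∀ p ∈ T, p.Prime :=
    fun T hT p hp => Nat.prime_of_mem_primeFactors (hT hp)
  obtain ⟨S, hSdef⟩ : ∃ S : ℕ → Subgroup G, S = fun q => ⨅ p ∈ n.primeFactors.erase q, H p :=
    ⟨_, rfl⟩
  have hSidx : ∀ q, (S q).index = ∏ r ∈ n.primeFactors.erase q, f r := by
    intro q
    rw [hSdef]
    exact hK _ (hprimes _ (Finset.erase_subset _ _))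
  have hpos : ∀ T : Finset ℕ, 0 < ∏ r ∈ T, f r := by
    intro T
    apply Finset.prod_pos
    intro r _
    rw [hf]
    rcases Nat.eq_zero_or_pos r with h0 | h0
    · rw [h0, Nat.factorization_zero_right, pow_zero]; exact Nat.one_pos
    · exact pow_pos h0 _
  have hScard : ∀ q, Nat.card (S q) = f q := by
    intro q
    have h1 := Subgroup.card_mul_index (S q)
    have h2 : Nat.card G = f q * ∏ r ∈ n.primeFactors.erase q, f r := by
      rw [herase _ q (hfact0 q), hprod, hndef]
    rw [hSidx, h2] at h1
    exact Nat.eq_of_mul_eq_mul_right (hpos _) h1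
  have hSylow : ∀ q : Nat.Primes, Nat.card (S q) = (q : ℕ) ^ (Nat.card G).factorization q := by
    intro q
    rw [hScard, hf, hndef]
  have hperm : ∀ p q : ℕ, p.Prime → q.Prime → p ≠ q →
      ((S p : Subgroup G) : Set G) * ((S q : Subgroup G) : Set G) =
        ((⨅ r ∈ (n.primeFactors.erase p).erase q, H r : Subgroup G) : Set G) := by
    intro p q hp hq hpq
    have hKidx : (⨅ r ∈ (n.primeFactors.erase p).erase q, H r).index
        = ∏ r ∈ (n.primeFactors.erase p).erase q, f r :=
      hK _ (hprimes _ ((Finset.erase_subset _ _).trans (Finset.erase_subset _ _)))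
    have hKcard : Nat.card (⨅ r ∈ (n.primeFactors.erase p).erase q, H r : Subgroup G)
        = f p * f q := by
      have h1 := Subgroup.card_mul_index (⨅ r ∈ (n.primeFactors.erase p).erase q, H r)
      have h2 : f q * ∏ r ∈ (n.primeFactors.erase p).erase q, f r
          = ∏ r ∈ n.primeFactors.erase p, f r := by
        apply herase
        intro hq'
        apply hfact0
        intro hq''
        exact hq' (Finset.mem_erase.mpr ⟨fun h => hpq h.symm, hq''⟩)
      have h3 := herase _ p (hfact0 p)
      have h4 : Nat.card G = f p * f q * ∏ r ∈ (n.primeFactors.erase p).erase q, f r := by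
        rw [mul_assoc, h2, h3, hprod, hndef]
      rw [hKidx, h4] at h1
      exact Nat.eq_of_mul_eq_mul_right (hpos _) h1
    apply mul_eq_of_card
    · rw [hSdef]
      exact le_iInf₂ fun a ha => iInf₂_le a (Finset.mem_of_mem_erase ha)
    · rw [hSdef]
      refine le_iInf₂ fun a ha => iInf₂_le a ?_
      rw [Finset.mem_erase] at ha ⊢
      exact ⟨ha.1, Finset.mem_of_mem_erase ha.2⟩
    · rw [hScard, hScard, hKcard]
    · rw [hScard, hScard, hf, hf]
      exact Nat.Coprime.pow _ _ ((Nat.coprime_primes hp hq).mpr hpq)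
  refine ⟨fun q => haveI : Fact (q : ℕ).Prime := ⟨q.2⟩; Sylow.ofCard (S q) (hSylow q), ?_⟩
  intro p q
  by_cases hpq : (p : ℕ) = (q : ℕ)
  · have : p = q := Subtype.ext hpq
    subst this
    rfl
  · have h1 := hperm p q p.2 q.2 hpq
    have h2 := hperm q p q.2 p.2 (fun h => hpq h.symm)
    rw [Finset.erase_right_comm] at h2
    exact h1.trans h2.symm

end Cfsg.Agent.S0020
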