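import Cfsg.Statements.S0021
-- import your own Cfsg.Agent.* helpers here
import Mathlib
import Cfsg.Agent.S0006

set_option autoImplicit false
open Pointwise
open Cfsg

namespace Cfsg.Agent.S0021


universe u

open scoped Pointwise

/-- For permuting subgroups the product set is the carrier of the join. -/
theorem coe_sup_of_mul_comm {G : Type u} [Group G] (A B : Subgroup G)
    (h : (A : Set G) * (B : Set G) = (B : Set G) * (A : Set G)) :
    ((A ⊔ B : Subgroup G) : Set G) = (A : Set G) * (B : Set G) := by
  apply Set.Subset.antisymm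
  · let C : Subgroup G :=
      { carrier := (A : Set G) * (B : Set G)
        mul_mem' := by
          rintro x y ⟨a, ha, b, hb, rfl⟩ ⟨a', ha', b', hb', rfl⟩
          have h1 : b * a' ∈ (A : Set G) * (B : Set G) := by
            rw [h]; exact ⟨b, hb, a', ha', rfl⟩
          obtain ⟨a'', ha'', b'', hb'', e⟩ := h1
          refine ⟨a * a'', A.mul_mem ha ha'', b'' * b', B.mul_mem hb'' hb', ?_⟩
          have e2 : a * a'' * (b'' * b') = a * (a'' * b'') * b' := by group
          have e3 : a * b * (a' * b') = a * (b * a') * b' := by group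
          have e' : a'' * b'' = b * a' := e
          change a * a'' * (b'' * b') = a * b * (a' * b')
          rw [e2, e3, e']
        one_mem' := ⟨1, A.one_mem, 1, B.one_mem, by simp⟩
        inv_mem' := by
          rintro x ⟨a, ha, b, hb, rfl⟩
          change (a * b)⁻¹ ∈ (A : Set G) * (B : Set G)
          rw [h]
          exact ⟨b⁻¹, B.inv_mem hb, a⁻¹, A.inv_mem ha, by group⟩ }
    have hA : A ≤ C := fun a ha => ⟨a, ha, 1, B.one_mem, by simp⟩
    have hB : B ≤ C := fun b hb => ⟨1, A.one_mem, b, hb, by simp⟩
    have hAB : A ⊔ B ≤ C := sup_le hA hB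
    exact fun x hx => hAB hx
  · rintro x ⟨a, ha, b, hb, rfl⟩
    exact Subgroup.mul_mem_sup ha hb

theorem permuting_sylow_solvable {G : Type u} [Group G] [Finite G]
    (S : (p : Nat.Primes) → Sylow (p : ℕ) G)
    (hS : ∀ p q : Nat.Primes, (S p : Set G) * (S q : Set G) = (S q : Set G) * (S p : Set G)) :
    Group.IsSolvable G := by
  classical
  let v : ℕ → ℕ := fun q => (Nat.card G).factorization q
  let Sg : ℕ → Subgroup G := fun q => if h : q.Prime then (S ⟨q, h⟩ : Subgroup G) else ⊥
  have hSgcard : ∀ q, Nat.card (Sg q) = q ^ v q := by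
    intro q
    by_cases h : q.Prime
    · haveI : Fact q.Prime := ⟨h⟩
      simp only [Sg, dif_pos h]
      exact Sylow.card_eq_multiplicity (S ⟨q, h⟩)
    · simp only [Sg, dif_neg h, v]
      rw [Nat.factorization_eq_zero_of_not_prime _ h, pow_zero, Subgroup.card_bot]
  have hSgcomm : ∀ q r, (Sg q : Set G) * (Sg r : Set G) = (Sg r : Set G) * (Sg q : Set G) := by
    intro q r
    by_cases hq : q.Prime
    · by_cases hr : r.Prime
      · simp only [Sg, dif_pos hq, dif_pos hr]
        exact hS ⟨q, hq⟩ ⟨r, hr⟩
      · simp only [Sg, dif_neg hr, Subgroup.coe_bot]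
        simp
    · simp only [Sg, dif_neg hq, Subgroup.coe_bot]
      simp
  have hcop : ∀ t q : ℕ, t ≠ q → Nat.Coprime (t ^ v t) (q ^ v q) := by
    intro t q htq
    by_cases ht : t.Prime
    · by_cases hq : q.Prime
      · exact Nat.Coprime.pow _ _ ((Nat.coprime_primes ht hq).mpr htq)
      · simp only [v]
        rw [Nat.factorization_eq_zero_of_not_prime _ hq, pow_zero]
        exact Nat.coprime_one_right _
    · simp only [v]
      rw [Nat.factorization_eq_zero_of_not_prime _ ht, pow_zero]
      exact Nat.coprime_one_left _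
  have key : ∀ T : Finset ℕ, Nat.card (⨆ q ∈ T, Sg q : Subgroup G) = ∏ q ∈ T, q ^ v q ∧
      ∀ r : ℕ, (Sg r : Set G) * ((⨆ q ∈ T, Sg q : Subgroup G) : Set G)
        = ((⨆ q ∈ T, Sg q : Subgroup G) : Set G) * (Sg r : Set G) := by
    intro T
    induction T using Finset.induction_on with
    | empty => simp
    | insert a T ha ih =>
      obtain ⟨ih1, ih2⟩ := ih
      have hsup : (⨆ q ∈ insert a T, Sg q : Subgroup G) = Sg a ⊔ ⨆ q ∈ T, Sg q := by
        rw [Finset.iSup_insert]
      have hset : ((Sg a ⊔ ⨆ q ∈ T, Sg q : Subgroup G) : Set G)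
          = (Sg a : Set G) * ((⨆ q ∈ T, Sg q : Subgroup G) : Set G) :=
        coe_sup_of_mul_comm _ _ (ih2 a)
      rw [hsup]
      constructor
      · rw [Finset.prod_insert ha, ← ih1, ← hSgcard a]
        apply le_antisymm
        · have h1 : Nat.card ((Sg a ⊔ ⨆ q ∈ T, Sg q : Subgroup G))
              = Nat.card (((Sg a : Set G) * ((⨆ q ∈ T, Sg q : Subgroup G) : Set G) : Set G)) := by
            rw [← hset]; rfl
          rw [h1]
          exact Set.natCard_mul_le
        · apply Nat.le_of_dvd Nat.card_pos
          apply Nat.Coprime.mul_dvd_of_dvd_of_dvd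
          · rw [hSgcard a, ih1]
            apply Nat.Coprime.prod_right
            intro t ht
            exact hcop a t (fun h => ha (h ▸ ht))
          · exact Subgroup.card_dvd_of_le le_sup_left
          · exact Subgroup.card_dvd_of_le le_sup_right
      · intro r
        rw [hset, ← mul_assoc, hSgcomm r a, mul_assoc, ih2 r, ← mul_assoc]
  apply Cfsg.Agent.S0006.hall_converse _ G rfl
  intro p hp
  refine ⟨⨆ q ∈ (Nat.card G).primeFactors.erase p, Sg q, ?_⟩
  have hc := (key ((Nat.card G).primeFactors.erase p)).1
  have hG0 : Nat.card G ≠ 0 := Nat.card_pos.ne'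
  have hfull : ∏ q ∈ (Nat.card G).primeFactors, q ^ v q = Nat.card G := by
    have h1 := Nat.prod_factorization_pow_eq_self hG0
    rw [Finsupp.prod, Nat.support_factorization] at h1
    exact h1
  have hprod : (∏ q ∈ (Nat.card G).primeFactors.erase p, q ^ v q) * p ^ v p = Nat.card G := by
    by_cases hpm : p ∈ (Nat.card G).primeFactors
    · rw [Finset.prod_erase_mul _ _ hpm]
      exact hfull
    · rw [Finset.erase_eq_of_notMem hpm]
      have hv : v p = 0 := by
        simp only [v]
        rw [Nat.factorization_eq_zero_iff]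
        right; left
        intro hd
        exact hpm (Nat.mem_primeFactors.mpr ⟨hp, hd, hG0⟩)
      rw [hv, pow_zero, mul_one]
      exact hfull
  have hmul := Subgroup.card_mul_index (⨆ q ∈ (Nat.card G).primeFactors.erase p, Sg q : Subgroup G)
  have hmul2 : (∏ q ∈ (Nat.card G).primeFactors.erase p, q ^ v q)
      * (⨆ q ∈ (Nat.card G).primeFactors.erase p, Sg q : Subgroup G).index
      = (∏ q ∈ (Nat.card G).primeFactors.erase p, q ^ v q) * p ^ v p := by
    rw [hprod, ← hc]
    exact hmul
  exact Nat.eq_of_mul_eq_mul_left (Finset.prod_pos (fun q hq =>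
    pow_pos (Nat.pos_of_mem_primeFactors (Finset.mem_of_mem_erase hq)) _)) hmul2


/-- A finite group with a family of pairwise permuting Sylow subgroups, one for each prime, is solvable (this direction rests on Burnside's two-prime Theorem). -/
theorem result {G : Type*} [Group G] [Finite G]
    (S : (p : Nat.Primes) → Sylow (p : ℕ) G)
    (hS : ∀ p q : Nat.Primes, (S p : Set G) * (S q : Set G) = (S q : Set G) * (S p : Set G)) :
    Group.IsSolvable G := by
  exact permuting_sylow_solvable S hS

end Cfsg.Agent.S0021
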