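import Cfsg.Statements.S0030
import Cfsg.Agent.Lib.Helper1.Coprime

set_option autoImplicit false
open Cfsg

namespace Cfsg.Agent.S0030

open Cfsg.Agent.Lib.Helper1

/-- Under coprime action fixed points of a product of two invariant subgroups factor: if K = X Y with X and Y normalised by A then every A-fixed element of K is a product of an A-fixed element of X and an A-fixed element of Y. -/
theorem result {G : Type*} [Group G] [Finite G] (A K : Subgroup G) (hAK : A ≤ Subgroup.normalizer (K : Set G))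
    (hcop : (Nat.card A).Coprime (Nat.card K)) (hsolv : Group.IsSolvable A ∨ Group.IsSolvable K)
    (X Y : Subgroup G) (hX : X ≤ K) (hY : Y ≤ K) (hXA : A ≤ Subgroup.normalizer (X : Set G)) (hYA : A ≤ Subgroup.normalizer (Y : Set G))
    (hXY : ∀ k ∈ K, ∃ x ∈ X, ∃ y ∈ Y, k = x * y) (k : G) (hk : k ∈ K ⊓ Subgroup.centralizer (A : Set G)) :
    ∃ x ∈ X ⊓ Subgroup.centralizer (A : Set G), ∃ y ∈ Y ⊓ Subgroup.centralizer (A : Set G), k = x * y := by
  obtain ⟨hkK, hkC⟩ := Subgroup.mem_inf.mp hk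
  obtain ⟨x, hx, y, hy, hkxy⟩ := hXY k hkK
  have hAD : A ≤ Subgroup.normalizer ((X ⊓ Y : Subgroup G) : Set G) := by
    intro a ha
    apply mem_normalizer_of_conj_smul_eq
    rw [Subgroup.smul_inf, conj_smul_eq_of_mem_normalizer (hXA ha),
      conj_smul_eq_of_mem_normalizer (hYA ha)]
  have hDK : X ⊓ Y ≤ K := inf_le_left.trans hX
  have hcopD : (Nat.card A).Coprime (Nat.card (X ⊓ Y : Subgroup G)) :=
    Nat.Coprime.coprime_dvd_right (Subgroup.card_dvd_of_le hDK) hcop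
  have hsolvD : Group.IsSolvable A ∨ Group.IsSolvable (X ⊓ Y : Subgroup G) := by
    rcases hsolv with h | h
    · exact Or.inl h
    · exact Or.inr (isSolvable_of_le hDK)
  have hx' : ∀ a ∈ A, x⁻¹ * a * x * a⁻¹ ∈ X ⊓ Y := by
    intro a ha
    refine Subgroup.mem_inf.mpr ⟨?_, ?_⟩
    · have h1 : a * x * a⁻¹ ∈ X := ((Subgroup.mem_normalizer_iff.mp (hXA ha)) x).mp hx
      have h2 := X.mul_mem (X.inv_mem hx) h1
      convert h2 using 1
      group
    · have h1 : a * y⁻¹ * a⁻¹ ∈ Y :=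
        ((Subgroup.mem_normalizer_iff.mp (hYA ha)) y⁻¹).mp (Y.inv_mem hy)
      have h2 := Y.mul_mem hy h1
      have hak : a * k = k * a := (Subgroup.mem_centralizer_iff.mp hkC) a ha
      have hx2 : x = k * y⁻¹ := by rw [hkxy]; group
      have h3 : x⁻¹ * a * x * a⁻¹ = y * (a * y⁻¹ * a⁻¹) := by
        rw [hx2]
        calc (k * y⁻¹)⁻¹ * a * (k * y⁻¹) * a⁻¹ = y * k⁻¹ * (a * k) * y⁻¹ * a⁻¹ := by group
          _ = y * k⁻¹ * (k * a) * y⁻¹ * a⁻¹ := by rw [hak]
          _ = y * (a * y⁻¹ * a⁻¹) := by group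
      rw [h3]; exact h2
  obtain ⟨d, hd, hconj⟩ := coprime_conj_fixed A (X ⊓ Y) hAD hcopD hsolvD x hx'
  obtain ⟨hdX, hdY⟩ := Subgroup.mem_inf.mp hd
  have hcX : x * d ∈ X := X.mul_mem hx hdX
  have hXA' : X ⊓ A = ⊥ := inf_eq_bot_of_coprime_card
    (Nat.Coprime.coprime_dvd_right (Subgroup.card_dvd_of_le hX) hcop)
  have hcC : x * d ∈ Subgroup.centralizer (A : Set G) := by
    apply mem_centralizer_of_conj_smul_eq hXA' hconj
    intro a ha
    have h1 : a * (x * d)⁻¹ * a⁻¹ ∈ X :=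
      ((Subgroup.mem_normalizer_iff.mp (hXA ha)) _).mp (X.inv_mem hcX)
    have h2 := X.mul_mem hcX h1
    convert h2 using 1
    group
  refine ⟨x * d, Subgroup.mem_inf.mpr ⟨hcX, hcC⟩, d⁻¹ * y,
    Subgroup.mem_inf.mpr ⟨Y.mul_mem (Y.inv_mem hdY) hy, ?_⟩, ?_⟩
  · have h1 : d⁻¹ * y = (x * d)⁻¹ * k := by rw [hkxy]; group
    rw [h1]
    exact Subgroup.mul_mem _ (Subgroup.inv_mem _ hcC) hkC
  · rw [hkxy]; group

end Cfsg.Agent.S0030
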