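import Cfsg.Statements.S0031
import Mathlib

set_option autoImplicit false
open Pointwise
open Cfsg

namespace Cfsg.Agent.S0031

/-- A fixed-point-free automorphism of a finite group maps some Sylow p-subgroup to itself. -/
theorem result {G : Type*} [Group G] [Finite G] (φ : G ≃* G)
    (hφ : MonoidHom.FixedPointFree (φ : G →* G)) (p : ℕ) [Fact p.Prime] :
    ∃ P : Sylow p G, (P : Subgroup G).map (φ : G →* G) = P := by
  classical
  let P : Sylow p G := default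
  let φ' : MulAut G := φ
  obtain ⟨g, hg⟩ := MulAction.exists_smul_eq G P (φ' • P)
  obtain ⟨x, hx⟩ := hφ.commutatorMap_surjective g⁻¹
  simp only [MonoidHom.commutatorMap_apply] at hx
  have hx' : x / φ x = g⁻¹ := hx
  have hy : φ x⁻¹ * g = x⁻¹ := by
    rw [map_inv, div_eq_mul_inv] at *
    rw [← inv_inv g, ← hx']; group
  refine ⟨x⁻¹ • P, ?_⟩
  have hle : (((x⁻¹ • P : Sylow p G)) : Subgroup G).map (φ : G →* G) ≤ ((x⁻¹ • P : Sylow p G) : Subgroup G) := by
    rintro - ⟨z, hz, rfl⟩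
    rw [SetLike.mem_coe, Sylow.coe_subgroup_smul, Subgroup.mem_smul_pointwise_iff_exists] at hz
    obtain ⟨s, hs, rfl⟩ := hz
    have h1 : φ s ∈ ((φ' • P : Sylow p G) : Subgroup G) := by
      rw [Sylow.pointwise_smul_def]
      exact Subgroup.smul_mem_pointwise_smul s φ' _ hs
    rw [← hg, Sylow.coe_subgroup_smul, Subgroup.mem_smul_pointwise_iff_exists] at h1
    obtain ⟨t, ht, hts⟩ := h1
    rw [Sylow.coe_subgroup_smul, Subgroup.mem_smul_pointwise_iff_exists]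
    refine ⟨t, ht, ?_⟩
    change g * t * g⁻¹ = φ s at hts
    change x⁻¹ * t * x⁻¹⁻¹ = φ (x⁻¹ * s * x⁻¹⁻¹)
    symm
    calc φ (x⁻¹ * s * x⁻¹⁻¹) = φ x⁻¹ * φ s * (φ x⁻¹)⁻¹ := by rw [map_mul, map_mul, map_inv φ x⁻¹]
      _ = (φ x⁻¹ * g) * t * (φ x⁻¹ * g)⁻¹ := by rw [← hts]; group
      _ = x⁻¹ * t * x⁻¹⁻¹ := by rw [hy]
  apply Subgroup.eq_of_le_of_card_ge hle
  rw [Subgroup.card_map_of_injective φ.injective]

end Cfsg.Agent.S0031
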