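import Cfsg.Statements.S0032

set_option autoImplicit false
open Pointwise
open Cfsg

namespace Cfsg.Agent.S0032

/-- If an automorphism of a finite group fixes only the identity and maps a normal subgroup N into itself, then the only cosets of N it fixes are those in N: a fixed coset xN forces x ∈ N. -/
theorem result {G : Type*} [Group G] [Finite G] (φ : G ≃* G)
    (hφ : MonoidHom.FixedPointFree (φ : G →* G)) (N : Subgroup G) [N.Normal] (hN : ∀ n ∈ N, φ n ∈ N)
    (x : G) (hx : (φ x)⁻¹ * x ∈ N) : x ∈ N := by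
  have key : ∀ a b : G, (φ a)⁻¹ * a = (φ b)⁻¹ * b → a = b := by
    intro a b h
    have h1 : φ (b * a⁻¹) = b * a⁻¹ := by
      rw [map_mul, map_inv]
      have : φ b * ((φ a)⁻¹ * a) = φ b * ((φ b)⁻¹ * b) := by rw [h]
      rw [mul_inv_cancel_left] at this
      rw [eq_mul_inv_iff_mul_eq, mul_assoc]; exact this
    have h2 := hφ (b * a⁻¹) h1
    rw [mul_inv_eq_one] at h2
    exact h2.symm
  let ψ : N → N := fun n => ⟨(φ n)⁻¹ * n, N.mul_mem (N.inv_mem (hN n n.2)) n.2⟩
  have hinj : Function.Injective ψ := by
    intro a b h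
    have := congrArg Subtype.val h
    exact Subtype.ext (key a b this)
  have hsurj : Function.Surjective ψ := Finite.surjective_of_injective hinj
  obtain ⟨n, hn⟩ := hsurj ⟨(φ x)⁻¹ * x, hx⟩
  have := congrArg Subtype.val hn
  have h3 := key n x this
  rw [← h3]; exact n.2

end Cfsg.Agent.S0032
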