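import Cfsg.Statements.S0034
-- import your own Cfsg.Agent.* helpers here
import Mathlib
import Cfsg.Agent.Lib.Lead.Frobenius

set_option autoImplicit false
open Cfsg

namespace Cfsg.Agent.S0034


universe u

open Cfsg.Agent.Lib.Lead

/-- The index of a Frobenius complement is congruent to one modulo its order: `H` acts on the
cosets of `H`, fixing the trivial coset and acting freely on the others. -/
theorem index_mod {G : Type u} [Group G] [Finite G] (H : Subgroup G)
    (hH : Cfsg.IsFrobeniusComplement H) : H.index % Nat.card H = 1 % Nat.card H := by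
  classical
  have hfinΩ : Fintype (MulAction.orbitRel.Quotient H (G ⧸ H)) := Fintype.ofFinite _
  have hcard : Nat.card (G ⧸ H) = ∑ ω : MulAction.orbitRel.Quotient H (G ⧸ H),
      (MulAction.stabilizer H (Quotient.out ω : G ⧸ H)).index := by
    rw [Nat.card_congr (MulAction.selfEquivSigmaOrbitsQuotientStabilizer' H (G ⧸ H)
      Quotient.out_eq'), Nat.card_sigma]
    rfl
  have hsmul : ∀ (h : H) (g : G), h • (QuotientGroup.mk g : G ⧸ H) = QuotientGroup.mk ((h : G) * g) :=
    fun h g => rfl
  have hfix : ∀ h : H, h • (QuotientGroup.mk (1 : G) : G ⧸ H) = QuotientGroup.mk (1 : G) := by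
    intro h
    rw [hsmul, QuotientGroup.eq]
    simp
  -- stabilizers
  have hstab : ∀ q : G ⧸ H, q ≠ QuotientGroup.mk (1 : G) → MulAction.stabilizer H q = ⊥ := by
    intro q hq
    induction q using QuotientGroup.induction_on with
    | H g =>
      have hg : g ∉ H := by
        intro hg
        apply hq
        rw [QuotientGroup.eq]
        simpa using hg
      rw [eq_bot_iff]
      intro h hh
      rw [MulAction.mem_stabilizer_iff, hsmul, QuotientGroup.eq] at hh
      rw [Subgroup.mem_bot]
      by_contra h1
      apply hg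
      have h1' : ((h⁻¹ : H) : G) ≠ 1 := by
        intro e
        apply h1
        have : (h⁻¹ : H) = 1 := Subtype.ext e
        exact inv_eq_one.mp this
      apply frob_conj_mem hH (h⁻¹ : H).2 h1'
      have e : g⁻¹ * ((h⁻¹ : H) : G) * g = ((h : G) * g)⁻¹ * g := by
        rw [Subgroup.coe_inv]; group
      rw [e]
      exact hh
  have hstab1 : MulAction.stabilizer H (QuotientGroup.mk (1 : G) : G ⧸ H) = ⊤ := by
    rw [eq_top_iff]
    intro h _
    exact hfix h
  -- the distinguished orbit
  have hout : ∀ ω : MulAction.orbitRel.Quotient H (G ⧸ H),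
      (Quotient.out ω : G ⧸ H) = QuotientGroup.mk (1 : G) ↔
        ω = Quotient.mk'' (QuotientGroup.mk (1 : G) : G ⧸ H) := by
    intro ω
    constructor
    · intro h
      rw [← h]
      exact (Quotient.out_eq' ω).symm
    · intro h
      have h1 : (Quotient.mk'' (Quotient.out ω) : MulAction.orbitRel.Quotient H (G ⧸ H))
          = Quotient.mk'' (QuotientGroup.mk (1 : G) : G ⧸ H) := by
        rw [Quotient.out_eq' ω]; exact h
      have h2 : (Quotient.out ω : G ⧸ H) ∈ MulAction.orbit H (QuotientGroup.mk (1 : G) : G ⧸ H) :=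
        Quotient.exact' h1
      obtain ⟨a, ha⟩ := h2
      rw [← ha]
      exact hfix a
  have hterm : ∀ ω : MulAction.orbitRel.Quotient H (G ⧸ H),
      (MulAction.stabilizer H (Quotient.out ω : G ⧸ H)).index
        = if ω = Quotient.mk'' (QuotientGroup.mk (1 : G) : G ⧸ H) then 1 else Nat.card H := by
    intro ω
    by_cases hω : ω = Quotient.mk'' (QuotientGroup.mk (1 : G) : G ⧸ H)
    · rw [if_pos hω, (hout ω).mpr hω, hstab1, Subgroup.index_top]
    · rw [if_neg hω, hstab _ (fun h => hω ((hout ω).mp h)), Subgroup.index_bot]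
  have hidx : H.index = ∑ ω : MulAction.orbitRel.Quotient H (G ⧸ H),
      (if ω = Quotient.mk'' (QuotientGroup.mk (1 : G) : G ⧸ H) then 1 else Nat.card H) := by
    rw [← Finset.sum_congr rfl (fun ω _ => hterm ω), ← hcard]
    rfl
  rw [hidx, ← Finset.add_sum_erase Finset.univ _
    (Finset.mem_univ (Quotient.mk'' (QuotientGroup.mk (1 : G) : G ⧸ H)))]
  rw [if_pos rfl]
  have hrest : ∑ ω ∈ Finset.univ.erase
      (Quotient.mk'' (QuotientGroup.mk (1 : G) : G ⧸ H) : MulAction.orbitRel.Quotient H (G ⧸ H)),
      (if ω = Quotient.mk'' (QuotientGroup.mk (1 : G) : G ⧸ H) then 1 else Nat.card H)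
      = (Finset.univ.erase
      (Quotient.mk'' (QuotientGroup.mk (1 : G) : G ⧸ H) : MulAction.orbitRel.Quotient H (G ⧸ H))).card
        * Nat.card H := by
    rw [← smul_eq_mul, ← Finset.sum_const]
    apply Finset.sum_congr rfl
    intro ω hω
    rw [if_neg (Finset.ne_of_mem_erase hω)]
  rw [hrest, Nat.add_mul_mod_self_right]


/-- For a Frobenius complement H, the set of elements lying in no conjugate of H, together with 1, has exactly as many elements as the index of H, and that index is congruent to 1 modulo the order of H. -/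
theorem result {G : Type*} [Group G] [Finite G] (H : Subgroup G) (hH : Cfsg.IsFrobeniusComplement H) :
    Nat.card (Cfsg.frobeniusKernel H) = H.index ∧ H.index % Nat.card H = 1 % Nat.card H := by
  refine ⟨?_, index_mod H hH⟩
  rw [Nat.card_coe_set_eq]
  exact Cfsg.Agent.Lib.Lead.frob_kernel_ncard hH

end Cfsg.Agent.S0034
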