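import Cfsg.Statements.S0036
-- import your own Cfsg.Agent.* helpers here
import Mathlib
import Cfsg.Agent.Lib.Lead.FrobeniusMore

set_option autoImplicit false
open Cfsg

namespace Cfsg.Agent.S0036

/-- When a Frobenius complement contains an involution, an elementary argument shows the Frobenius kernel is closed under multiplication (hence a subgroup). -/
theorem result {G : Type*} [Group G] [Finite G] (H : Subgroup G) (hH : Cfsg.IsFrobeniusComplement H)
    (t : G) (ht : t ∈ H) (ht1 : t ≠ 1) (ht2 : t * t = 1) :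
    ∀ x ∈ Cfsg.frobeniusKernel H, ∀ y ∈ Cfsg.frobeniusKernel H, x * y ∈ Cfsg.frobeniusKernel H := by
  intro x hx y hy
  have hx' : x ∈ Cfsg.Agent.Lib.Lead.frobKer H hH := by
    rw [← SetLike.mem_coe, Cfsg.Agent.Lib.Lead.coe_frobKer]; exact hx
  have hy' : y ∈ Cfsg.Agent.Lib.Lead.frobKer H hH := by
    rw [← SetLike.mem_coe, Cfsg.Agent.Lib.Lead.coe_frobKer]; exact hy
  have h := (Cfsg.Agent.Lib.Lead.frobKer H hH).mul_mem hx' hy'
  rw [← SetLike.mem_coe, Cfsg.Agent.Lib.Lead.coe_frobKer] at h
  exact h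

end Cfsg.Agent.S0036
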