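import Cfsg.Statements.S0038
import Mathlib
import Cfsg.Agent.Lib.Lead.FrobeniusMore
import Cfsg.Agent.Lib.Helper24.FrobComplement
import Cfsg.Agent.S0069
import Cfsg.Agent.Lib.Helper1.Basic

set_option autoImplicit false
open Pointwise
open Cfsg

namespace Cfsg.Agent.S0038

open Cfsg.Agent.Lib.Helper1
set_option linter.style.haveILetI false

/-- A Frobenius complement has a nontrivial central element. -/
theorem exists_central {G : Type*} [Group G] [Finite G] (H : Subgroup G)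
    (hH : Cfsg.IsFrobeniusComplement H) :
    ∃ z ∈ H, z ≠ 1 ∧ ∀ x ∈ H, x * z = z * x := by
  haveI := Cfsg.Agent.Lib.Lead.frobKer_normal H hH
  have hfpf : ∀ h ∈ H, h ≠ 1 →
      Cfsg.Agent.Lib.Lead.frobKer H hH ⊓ Subgroup.centralizer {h} = ⊥ := by
    intro h hh h1
    rw [eq_bot_iff]
    rintro k ⟨hk, hkc⟩
    rw [Subgroup.mem_bot]
    have hc : h * k = k * h := Subgroup.mem_centralizer_iff.mp hkc h rfl
    exact Cfsg.Agent.Lib.Lead.frob_commute_eq_one H hH hh h1 hk hc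
  have hcen := Cfsg.Agent.S0069.result (Cfsg.Agent.Lib.Lead.frobKer H hH) H
    (Cfsg.Agent.Lib.Lead.frobKer_isComplement' H hH) (Cfsg.Agent.Lib.Lead.frobKer_ne_bot H hH)
    hH.1 hfpf
  obtain ⟨z, hz, hz1⟩ : ∃ z ∈ Subgroup.center H, z ≠ 1 := by
    by_contra hcon
    push Not at hcon
    exact hcen ((Subgroup.eq_bot_iff_forall _).mpr hcon)
  refine ⟨z, z.2, fun h => hz1 (Subtype.ext h), fun x hx => ?_⟩
  have := Subgroup.mem_center_iff.mp hz ⟨x, hx⟩
  exact congrArg Subtype.val this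

/-- Two Frobenius complements of the same finite group that meet nontrivially: one lies in the
other. -/
theorem le_of_inf_ne_bot {G : Type*} [Group G] [Finite G] (H H₁ : Subgroup G)
    (hH : Cfsg.IsFrobeniusComplement H) (hH₁ : Cfsg.IsFrobeniusComplement H₁)
    (hD : H ⊓ H₁ ≠ ⊥) : H₁ ≤ H := by
  by_contra hcon
  obtain ⟨x, hx1, hxH⟩ := SetLike.not_le_iff_exists.mp hcon
  obtain ⟨z, hz, hz1, hzc⟩ := exists_central H₁ hH₁
  obtain ⟨d, hd, hd1⟩ : ∃ d ∈ H ⊓ H₁, d ≠ 1 := by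
    by_contra hcon2
    push Not at hcon2
    exact hD ((Subgroup.eq_bot_iff_forall _).mpr hcon2)
  by_cases hzH : z ∈ H
  · have h1 : z ∈ H ⊓ MulAut.conj x • H := by
      refine Subgroup.mem_inf.mpr ⟨hzH, ?_⟩
      rw [mem_conj_smul_iff]
      have := hzc x hx1
      have e : x⁻¹ * z * x = z := by rw [mul_assoc, ← this, ← mul_assoc, inv_mul_cancel, one_mul]
      rw [e]; exact hzH
    rw [hH.2.2 x hxH, Subgroup.mem_bot] at h1
    exact hz1 h1
  · have h1 : d ∈ H ⊓ MulAut.conj z • H := by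
      refine Subgroup.mem_inf.mpr ⟨hd.1, ?_⟩
      rw [mem_conj_smul_iff]
      have := hzc d hd.2
      have e : z⁻¹ * d * z = d := by rw [mul_assoc, this, ← mul_assoc, inv_mul_cancel, one_mul]
      rw [e]; exact hd.1
    rw [hH.2.2 z hzH, Subgroup.mem_bot] at h1
    exact hd1 h1

theorem isFrobeniusComplement_conj {G : Type*} [Group G] (H : Subgroup G)
    (hH : Cfsg.IsFrobeniusComplement H) (g : G) :
    Cfsg.IsFrobeniusComplement (MulAut.conj g • H) :=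
  Cfsg.Agent.Lib.Helper24.isFrobeniusComplement_map (MulAut.conj g) H hH

/-- All Frobenius complements of a finite group are conjugate to one another. -/
theorem result {G : Type*} [Group G] [Finite G] (H H₀ : Subgroup G)
    (hH : Cfsg.IsFrobeniusComplement H) (hH₀ : Cfsg.IsFrobeniusComplement H₀) :
    ∃ g : G, MulAut.conj g • H₀ = H := by
  obtain ⟨N, hNdef⟩ : ∃ N, N = Cfsg.Agent.Lib.Lead.frobKer H hH := ⟨_, rfl⟩
  obtain ⟨N₀, hN₀def⟩ : ∃ N₀, N₀ = Cfsg.Agent.Lib.Lead.frobKer H₀ hH₀ := ⟨_, rfl⟩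
  have hNtop : N ≠ ⊤ := by
    intro h
    have h1 := Cfsg.Agent.Lib.Lead.frobKer_inf H hH
    rw [← hNdef, h, top_inf_eq] at h1
    exact hH.1 h1
  have hN₀top : N₀ ≠ ⊤ := by
    intro h
    have h1 := Cfsg.Agent.Lib.Lead.frobKer_inf H₀ hH₀
    rw [← hN₀def, h, top_inf_eq] at h1
    exact hH₀.1 h1
  obtain ⟨a, ha⟩ : ∃ a, a ∉ N := by
    by_contra hc
    push Not at hc
    exact hNtop (eq_top_iff.mpr fun x _ => hc x)
  obtain ⟨b, hb⟩ : ∃ b, b ∉ N₀ := by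
    by_contra hc
    push Not at hc
    exact hN₀top (eq_top_iff.mpr fun x _ => hc x)
  obtain ⟨x, hxN, hxN₀⟩ : ∃ x, x ∉ N ∧ x ∉ N₀ := by
    by_cases haN₀ : a ∈ N₀
    · by_cases hbN : b ∈ N
      · refine ⟨a * b, ?_, ?_⟩
        · intro h
          apply ha
          have h2 := N.mul_mem h (N.inv_mem hbN)
          rwa [mul_inv_cancel_right] at h2
        · intro h
          apply hb
          have h2 := N₀.mul_mem (N₀.inv_mem haN₀) h
          rwa [inv_mul_cancel_left] at h2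
      · exact ⟨b, hbN, hb⟩
    · exact ⟨a, ha, haN₀⟩
  rw [hNdef, Cfsg.Agent.Lib.Lead.mem_frobKer_iff] at hxN
  rw [hN₀def, Cfsg.Agent.Lib.Lead.mem_frobKer_iff] at hxN₀
  push Not at hxN hxN₀
  obtain ⟨hx1, g₁, hg₁⟩ := hxN
  obtain ⟨_, g₂, hg₂⟩ := hxN₀
  rw [mem_conj_smul_iff] at hg₁ hg₂
  refine ⟨g₁⁻¹ * g₂, ?_⟩
  have hF := isFrobeniusComplement_conj H₀ hH₀ (g₁⁻¹ * g₂)
  have hD : H ⊓ MulAut.conj (g₁⁻¹ * g₂) • H₀ ≠ ⊥ := by
    intro hbot
    have hmem : g₁⁻¹ * x * g₁ ∈ H ⊓ MulAut.conj (g₁⁻¹ * g₂) • H₀ := by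
      refine Subgroup.mem_inf.mpr ⟨hg₁, ?_⟩
      rw [mem_conj_smul_iff]
      have e : (g₁⁻¹ * g₂)⁻¹ * (g₁⁻¹ * x * g₁) * (g₁⁻¹ * g₂) = g₂⁻¹ * x * g₂ := by group
      rw [e]; exact hg₂
    rw [hbot, Subgroup.mem_bot] at hmem
    apply hx1
    have e : x = g₁ * (g₁⁻¹ * x * g₁) * g₁⁻¹ := by group
    rw [e, hmem]; group
  apply le_antisymm
  · exact le_of_inf_ne_bot H _ hH hF hD
  · exact le_of_inf_ne_bot _ H hF hH (by rwa [inf_comm])

end Cfsg.Agent.S0038
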