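import Cfsg.Statements.S0039
import Mathlib
import Cfsg.Agent.Lib.Helper1.SZ

set_option autoImplicit false
open Cfsg

namespace Cfsg.Agent.S0039

open Pointwise

/-- In a finite group that is a semidirect product of a normal subgroup K by a nontrivial subgroup H, H is a Frobenius complement exactly when each nonidentity element of H acts without nonidentity fixed points on K by conjugation. -/
theorem result {G : Type*} [Group G] [Finite G] (K H : Subgroup G) [K.Normal]
    (hc : Subgroup.IsComplement' K H) (hK : K ≠ ⊥) (hH : H ≠ ⊥) :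
    Cfsg.IsFrobeniusComplement H ↔ ∀ h ∈ H, h ≠ 1 → K ⊓ Subgroup.centralizer {h} = ⊥ := by
  have hbot : K ⊓ H = ⊥ := Cfsg.Agent.Lib.Helper1.IsComplement'.inf_eq_bot hc
  have hKn : K.Normal := inferInstance
  constructor
  · rintro ⟨-, -, hF⟩ h hh hh1
    rw [eq_bot_iff]
    intro k hk
    obtain ⟨hkK, hkC⟩ := Subgroup.mem_inf.mp hk
    rw [Subgroup.mem_bot]
    by_contra hk1
    have hkH : k ∉ H := by
      intro hkH
      have h0 : k ∈ K ⊓ H := Subgroup.mem_inf.mpr ⟨hkK, hkH⟩
      rw [hbot, Subgroup.mem_bot] at h0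
      exact hk1 h0
    have h1 : h ∈ H ⊓ MulAut.conj k • H := by
      refine Subgroup.mem_inf.mpr ⟨hh, ?_⟩
      rw [Cfsg.Agent.Lib.Helper1.mem_conj_smul_iff]
      have h2 : h * k = k * h := Subgroup.mem_centralizer_iff.mp hkC h (Set.mem_singleton h)
      have h3 : k⁻¹ * h * k = h := by rw [mul_assoc, h2]; group
      rw [h3]; exact hh
    rw [hF k hkH, Subgroup.mem_bot] at h1
    exact hh1 h1
  · intro hfix
    refine ⟨hH, ?_, ?_⟩
    · intro htop
      apply hK
      rw [← hbot, htop, inf_top_eq]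
    · intro g hg
      rw [eq_bot_iff]
      intro x hx
      obtain ⟨hxH, hxg⟩ := Subgroup.mem_inf.mp hx
      rw [Subgroup.mem_bot]
      by_contra hx1
      obtain ⟨k, hk, h', hh', rfl⟩ := Cfsg.Agent.Lib.Helper1.IsComplement'.exists_mul hc g
      rw [Cfsg.Agent.Lib.Helper1.mem_conj_smul_iff] at hxg
      -- y := h' * ((k h')⁻¹ x (k h')) * h'⁻¹ = k⁻¹ x k ∈ H
      have hy : k⁻¹ * x * k ∈ H := by
        have h0 : k⁻¹ * x * k = h' * ((k * h')⁻¹ * x * (k * h')) * h'⁻¹ := by group
        rw [h0]; exact H.mul_mem (H.mul_mem hh' hxg) (H.inv_mem hh')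
      have h1 : x * (k⁻¹ * x * k)⁻¹ ∈ K ⊓ H := by
        refine Subgroup.mem_inf.mpr ⟨?_, H.mul_mem hxH (H.inv_mem hy)⟩
        have h0 : x * (k⁻¹ * x * k)⁻¹ = (x * k⁻¹ * x⁻¹) * k := by group
        rw [h0]; exact K.mul_mem (hKn.conj_mem _ (K.inv_mem hk) x) hk
      rw [hbot, Subgroup.mem_bot] at h1
      have h2 : x * k = k * x := by
        have h0 : x * k = k * (k⁻¹ * x * k) := by group
        have h3 : x = k⁻¹ * x * k := by
          have h4 : x = (x * (k⁻¹ * x * k)⁻¹) * (k⁻¹ * x * k) := by group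
          rw [h1, one_mul] at h4
          exact h4
        rw [h0, ← h3]
      have h3 : k ∈ K ⊓ Subgroup.centralizer {x} := by
        refine Subgroup.mem_inf.mpr ⟨hk, ?_⟩
        rw [Subgroup.mem_centralizer_iff]
        intro y hy'
        rw [Set.mem_singleton_iff.mp hy']
        exact h2
      rw [hfix x hxH hx1, Subgroup.mem_bot] at h3
      apply hg
      rw [h3, one_mul]
      exact hh'

end Cfsg.Agent.S0039
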