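import Cfsg.Statements.S0043
import Cfsg.Agent.Lib.Helper1.Basic
import Mathlib

set_option autoImplicit false
open Pointwise
open Cfsg

namespace Cfsg.Agent.S0043

open Cfsg.Agent.Lib.Helper1

/-- A minimal normal subgroup of a finite solvable group is abelian, and for some prime p all of its elements have order dividing p. -/
theorem result {G : Type*} [Group G] [Finite G] [Group.IsSolvable G]
    (N : Subgroup G) [N.Normal] (hN : N ≠ ⊥) (hmin : ∀ M : Subgroup G, M.Normal → M ≤ N → M = ⊥ ∨ M = N) :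
    IsMulCommutative N ∧ ∃ p : ℕ, p.Prime ∧ ∀ x ∈ N, x ^ p = 1 := by
  have h1 : ⁅N, N⁆ < N := Group.IsSolvable.commutator_lt_of_ne_bot hN
  have h2 : ⁅N, N⁆ = ⊥ := by
    rcases hmin ⁅N, N⁆ inferInstance h1.le with h | h
    · exact h
    · exact absurd h h1.ne
  have hcomm : ∀ a ∈ N, ∀ b ∈ N, a * b = b * a := by
    intro a ha b hb
    have h3 := (Subgroup.commutator_eq_bot_iff_le_centralizer.mp h2) ha
    rw [Subgroup.mem_centralizer_iff] at h3
    exact (h3 b hb).symm
  refine ⟨IsMulCommutative.of_setLike_mul_comm hcomm, ?_⟩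
  have hcard : Nat.card N ≠ 1 := fun h => hN (Subgroup.card_eq_one.mp h)
  obtain ⟨p, hp, hpd⟩ := Nat.exists_prime_and_dvd hcard
  haveI : Fact p.Prime := ⟨hp⟩
  obtain ⟨T, hTn, hTle, hTne, hT⟩ := exists_normal_exponent_subgroup N hcomm p hpd
  refine ⟨p, hp, ?_⟩
  rcases hmin T hTn hTle with h | h
  · exact absurd h hTne
  · intro x hx
    exact hT x (h ▸ hx)

end Cfsg.Agent.S0043
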