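import Cfsg.Statements.S0047
-- import your own Cfsg.Agent.* helpers here
import Mathlib

set_option autoImplicit false
open Cfsg

namespace Cfsg.Agent.S0047

open scoped commutatorElement

theorem conj_comm {G : Type*} [Group G] (g x y : G) :
    g * ⁅x, y⁆ * g⁻¹ = ⁅g * x * g⁻¹, g * y * g⁻¹⁆ := by
  simp only [commutatorElement_def]; group

theorem comm_mul_left {G : Type*} [Group G] (x y z : G) (h : ⁅y, z⁆ = 1) :
    ⁅x * y, z⁆ = ⁅x, z⁆ := by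
  have e : ⁅x * y, z⁆ = x * ⁅y, z⁆ * x⁻¹ * ⁅x, z⁆ := by
    simp only [commutatorElement_def]; group
  rw [e, h]; simp

theorem comm_mul_right {G : Type*} [Group G] (x y z : G) (h : ⁅x, z⁆ = 1) :
    ⁅x, y * z⁆ = ⁅x, y⁆ := by
  have e : ⁅x, y * z⁆ = ⁅x, y⁆ * (y * ⁅x, z⁆ * y⁻¹) := by
    simp only [commutatorElement_def]; group
  rw [e, h]; simp

theorem ito_key {G : Type*} [Group G] (A B : Subgroup G)
    (hA : ∀ x ∈ A, ∀ y ∈ A, x * y = y * x) (hB : ∀ x ∈ B, ∀ y ∈ B, x * y = y * x)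
    (hAB : ∀ g : G, ∃ a ∈ A, ∃ b ∈ B, g = a * b)
    (a : G) (ha : a ∈ A) (b : G) (hb : b ∈ B) (a' : G) (ha' : a' ∈ A) (b' : G) (hb' : b' ∈ B) :
    (a' * b') * ⁅a, b⁆ * (a' * b')⁻¹ = (b' * a') * ⁅a, b⁆ * (b' * a')⁻¹ := by
  have hBA : ∀ g : G, ∃ b ∈ B, ∃ a ∈ A, g = b * a := by
    intro g
    obtain ⟨x, hx, y, hy, h⟩ := hAB g⁻¹
    refine ⟨y⁻¹, B.inv_mem hy, x⁻¹, A.inv_mem hx, ?_⟩
    rw [← mul_inv_rev, ← h, inv_inv]
  have c1 : ∀ x ∈ A, ∀ y ∈ A, ⁅x, y⁆ = 1 := fun x hx y hy =>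
    commutatorElement_eq_one_iff_mul_comm.mpr (hA x hx y hy)
  have c2 : ∀ x ∈ B, ∀ y ∈ B, ⁅x, y⁆ = 1 := fun x hx y hy =>
    commutatorElement_eq_one_iff_mul_comm.mpr (hB x hx y hy)
  have k1 : ∀ x ∈ A, ∀ y ∈ A, x * y * x⁻¹ = y := fun x hx y hy => by
    rw [hA x hx y hy, mul_inv_cancel_right]
  have k2 : ∀ x ∈ B, ∀ y ∈ B, x * y * x⁻¹ = y := fun x hx y hy => by
    rw [hB x hx y hy, mul_inv_cancel_right]
  obtain ⟨a0, ha0, b0, hb0, h1⟩ := hAB (b' * a * b'⁻¹)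
  obtain ⟨bs, hbs, as, has, h2⟩ := hBA (a' * b * a'⁻¹)
  have E1 : (a' * b') * ⁅a, b⁆ * (a' * b')⁻¹ = ⁅a0, bs⁆ := by
    calc (a' * b') * ⁅a, b⁆ * (a' * b')⁻¹ = a' * (b' * ⁅a, b⁆ * b'⁻¹) * a'⁻¹ := by group
      _ = a' * ⁅b' * a * b'⁻¹, b' * b * b'⁻¹⁆ * a'⁻¹ := by rw [conj_comm]
      _ = a' * ⁅a0 * b0, b⁆ * a'⁻¹ := by rw [h1, k2 b' hb' b hb]
      _ = a' * ⁅a0, b⁆ * a'⁻¹ := by rw [comm_mul_left a0 b0 b (c2 b0 hb0 b hb)]
      _ = ⁅a' * a0 * a'⁻¹, a' * b * a'⁻¹⁆ := conj_comm a' a0 b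
      _ = ⁅a0, bs * as⁆ := by rw [k1 a' ha' a0 ha0, h2]
      _ = ⁅a0, bs⁆ := comm_mul_right a0 bs as (c1 a0 ha0 as has)
  have E2 : (b' * a') * ⁅a, b⁆ * (b' * a')⁻¹ = ⁅a0, bs⁆ := by
    calc (b' * a') * ⁅a, b⁆ * (b' * a')⁻¹ = b' * (a' * ⁅a, b⁆ * a'⁻¹) * b'⁻¹ := by group
      _ = b' * ⁅a' * a * a'⁻¹, a' * b * a'⁻¹⁆ * b'⁻¹ := by rw [conj_comm]
      _ = b' * ⁅a, bs * as⁆ * b'⁻¹ := by rw [k1 a' ha' a ha, h2]
      _ = b' * ⁅a, bs⁆ * b'⁻¹ := by rw [comm_mul_right a bs as (c1 a ha as has)]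
      _ = ⁅b' * a * b'⁻¹, b' * bs * b'⁻¹⁆ := conj_comm b' a bs
      _ = ⁅a0 * b0, bs⁆ := by rw [h1, k2 b' hb' bs hbs]
      _ = ⁅a0, bs⁆ := comm_mul_left a0 b0 bs (c2 b0 hb0 bs hbs)
  rw [E1, E2]

theorem ito_comm {G : Type*} [Group G] (A B : Subgroup G)
    (hA : ∀ x ∈ A, ∀ y ∈ A, x * y = y * x) (hB : ∀ x ∈ B, ∀ y ∈ B, x * y = y * x)
    (hAB : ∀ g : G, ∃ a ∈ A, ∃ b ∈ B, g = a * b)
    (a : G) (ha : a ∈ A) (b : G) (hb : b ∈ B) (c : G) (hc : c ∈ A) (d : G) (hd : d ∈ B) :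
    ⁅a, b⁆ * ⁅c, d⁆ = ⁅c, d⁆ * ⁅a, b⁆ := by
  have h := ito_key A B hA hB hAB a ha b hb c⁻¹ (A.inv_mem hc) d⁻¹ (B.inv_mem hd)
  have e : ⁅c, d⁆ = (d⁻¹ * c⁻¹)⁻¹ * (c⁻¹ * d⁻¹) := by
    rw [commutatorElement_def]; group
  have h3 : ((d⁻¹ * c⁻¹)⁻¹ * (c⁻¹ * d⁻¹)) * ⁅a, b⁆ = ⁅a, b⁆ * ((d⁻¹ * c⁻¹)⁻¹ * (c⁻¹ * d⁻¹)) := by
    calc ((d⁻¹ * c⁻¹)⁻¹ * (c⁻¹ * d⁻¹)) * ⁅a, b⁆
        = (d⁻¹ * c⁻¹)⁻¹ * ((c⁻¹ * d⁻¹) * ⁅a, b⁆ * (c⁻¹ * d⁻¹)⁻¹) * (c⁻¹ * d⁻¹) := by group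
      _ = (d⁻¹ * c⁻¹)⁻¹ * ((d⁻¹ * c⁻¹) * ⁅a, b⁆ * (d⁻¹ * c⁻¹)⁻¹) * (c⁻¹ * d⁻¹) := by rw [h]
      _ = ⁅a, b⁆ * ((d⁻¹ * c⁻¹)⁻¹ * (c⁻¹ * d⁻¹)) := by group
  rw [e]; exact h3.symm

theorem ito {G : Type*} [Group G] (A B : Subgroup G)
    (hA : ∀ x ∈ A, ∀ y ∈ A, x * y = y * x) (hB : ∀ x ∈ B, ∀ y ∈ B, x * y = y * x)
    (hAB : ∀ g : G, ∃ a ∈ A, ∃ b ∈ B, g = a * b) : Group.IsSolvable G := by
  let S : Set G := {g | ∃ a ∈ A, ∃ b ∈ B, ⁅a, b⁆ = g}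
  have hSK : S ⊆ Subgroup.closure S := Subgroup.subset_closure
  -- K is commutative
  have hKS : Subgroup.closure S ≤ Subgroup.centralizer S := by
    rw [Subgroup.closure_le]
    rintro x ⟨a, ha, b, hb, rfl⟩
    rw [SetLike.mem_coe, Subgroup.mem_centralizer_iff]
    rintro y ⟨c, hc, d, hd, rfl⟩
    exact ito_comm A B hA hB hAB c hc d hd a ha b hb
  have hKK : Subgroup.closure S ≤ Subgroup.centralizer (Subgroup.closure S : Set G) := by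
    rw [Subgroup.closure_le]
    intro x hx
    rw [SetLike.mem_coe, Subgroup.mem_centralizer_iff]
    intro y hy
    have := Subgroup.mem_centralizer_iff.mp (hKS hy) x hx
    exact this.symm
  -- K is invariant under conjugation by A and B
  have hAK : ∀ a' ∈ A, ∀ k ∈ Subgroup.closure S, a' * k * a'⁻¹ ∈ Subgroup.closure S := by
    intro a' ha'
    have : Subgroup.closure S ≤ (Subgroup.closure S).comap (MulAut.conj a').toMonoidHom := by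
      rw [Subgroup.closure_le]
      rintro x ⟨a, ha, b, hb, rfl⟩
      rw [SetLike.mem_coe, Subgroup.mem_comap]
      have e : (MulAut.conj a').toMonoidHom ⁅a, b⁆ = ⁅a' * a, b⁆ * ⁅a', b⁆⁻¹ := by
        simp only [MulEquiv.coe_toMonoidHom, MulAut.conj_apply, commutatorElement_def]; group
      rw [e]
      exact (Subgroup.closure S).mul_mem (hSK ⟨a' * a, A.mul_mem ha' ha, b, hb, rfl⟩)
        ((Subgroup.closure S).inv_mem (hSK ⟨a', ha', b, hb, rfl⟩))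
    intro k hk
    have := this hk
    rwa [Subgroup.mem_comap, MulEquiv.coe_toMonoidHom, MulAut.conj_apply] at this
  have hBK : ∀ b' ∈ B, ∀ k ∈ Subgroup.closure S, b' * k * b'⁻¹ ∈ Subgroup.closure S := by
    intro b' hb'
    have : Subgroup.closure S ≤ (Subgroup.closure S).comap (MulAut.conj b').toMonoidHom := by
      rw [Subgroup.closure_le]
      rintro x ⟨a, ha, b, hb, rfl⟩
      rw [SetLike.mem_coe, Subgroup.mem_comap]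
      have e : (MulAut.conj b').toMonoidHom ⁅a, b⁆ = ⁅a, b'⁆⁻¹ * ⁅a, b' * b⁆ := by
        simp only [MulEquiv.coe_toMonoidHom, MulAut.conj_apply, commutatorElement_def]; group
      rw [e]
      exact (Subgroup.closure S).mul_mem ((Subgroup.closure S).inv_mem (hSK ⟨a, ha, b', hb', rfl⟩))
        (hSK ⟨a, ha, b' * b, B.mul_mem hb' hb, rfl⟩)
    intro k hk
    have := this hk
    rwa [Subgroup.mem_comap, MulEquiv.coe_toMonoidHom, MulAut.conj_apply] at this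
  have hKn : ∀ g : G, ∀ k ∈ Subgroup.closure S, g * k * g⁻¹ ∈ Subgroup.closure S := by
    intro g k hk
    obtain ⟨a', ha', b', hb', rfl⟩ := hAB g
    have h1 := hAK a' ha' _ (hBK b' hb' k hk)
    have e : a' * b' * k * (a' * b')⁻¹ = a' * (b' * k * b'⁻¹) * a'⁻¹ := by group
    rw [e]; exact h1
  -- the derived subgroup lies in K
  have hGK : ⁅(⊤ : Subgroup G), (⊤ : Subgroup G)⁆ ≤ Subgroup.closure S := by
    rw [Subgroup.commutator_le]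
    intro g _ h _
    obtain ⟨a1, ha1, b1, hb1, rfl⟩ := hAB g
    obtain ⟨a2, ha2, b2, hb2, rfl⟩ := hAB h
    have e : ⁅a1 * b1, a2 * b2⁆ = a1 * ⁅b1, a2 * b2⁆ * a1⁻¹ * ⁅a1, a2 * b2⁆ := by
      simp only [commutatorElement_def]; group
    have e1 : ⁅b1, a2 * b2⁆ = ⁅a2, b1⁆⁻¹ := by
      rw [comm_mul_right b1 a2 b2 (commutatorElement_eq_one_iff_mul_comm.mpr (hB b1 hb1 b2 hb2)),
        commutatorElement_inv]
    have e2 : ⁅a1, a2 * b2⁆ = a2 * ⁅a1, b2⁆ * a2⁻¹ := by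
      have e3 : ⁅a1, a2 * b2⁆ = ⁅a1, a2⁆ * (a2 * ⁅a1, b2⁆ * a2⁻¹) := by
        simp only [commutatorElement_def]; group
      rw [e3, commutatorElement_eq_one_iff_mul_comm.mpr (hA a1 ha1 a2 ha2), one_mul]
    rw [e, e1, e2]
    refine (Subgroup.closure S).mul_mem (hKn a1 _ ((Subgroup.closure S).inv_mem (hSK ⟨a2, ha2, b1, hb1, rfl⟩))) ?_
    exact hKn a2 _ (hSK ⟨a1, ha1, b2, hb2, rfl⟩)
  rw [Group.isSolvable_def]
  refine ⟨2, ?_⟩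
  rw [derivedSeries_succ, derivedSeries_succ, derivedSeries_zero, eq_bot_iff]
  refine (Subgroup.commutator_mono hGK hGK).trans ?_
  rw [Subgroup.commutator_le]
  intro x hx y hy
  rw [Subgroup.mem_bot, commutatorElement_eq_one_iff_mul_comm]
  exact Subgroup.mem_centralizer_iff.mp (hKK hy) x hx


/-- A finite group which is the product AB of two abelian subgroups A and B is solvable. -/
theorem result {G : Type*} [Group G] [Finite G] (A B : Subgroup G)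
    [IsMulCommutative A] [IsMulCommutative B] (hAB : ∀ g : G, ∃ a ∈ A, ∃ b ∈ B, g = a * b) :
    Group.IsSolvable G := by
  apply ito A B _ _ hAB
  · intro x hx y hy
    exact congrArg Subtype.val (mul_comm' (⟨x, hx⟩ : A) ⟨y, hy⟩)
  · intro x hx y hy
    exact congrArg Subtype.val (mul_comm' (⟨x, hx⟩ : B) ⟨y, hy⟩)

end Cfsg.Agent.S0047
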