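import Cfsg.Statements.S0048
-- import your own Cfsg.Agent.* helpers here
import Mathlib
import Cfsg.Agent.S0043

set_option autoImplicit false
open Cfsg

namespace Cfsg.Agent.S0048

universe u

theorem aux : ∀ (n : ℕ) (G : Type u) [Group G] [Finite G] [Group.IsSolvable G], Nat.card G = n →
    ∀ M : Subgroup G, IsCoatom M → IsPrimePow M.index := by
  intro n
  induction n using Nat.strong_induction_on with
  | _ n ih =>
    intro G _ _ _ hn M hM
    classical
    have htb : (⊤ : Subgroup G) ≠ ⊥ := by
      intro h
      apply hM.1
      rw [h]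
      exact le_antisymm (h ▸ le_top) bot_le
    obtain ⟨N, hNmin⟩ := exists_minimal_of_wellFoundedLT (fun N : Subgroup G => N.Normal ∧ N ≠ ⊥)
      ⟨⊤, inferInstance, htb⟩
    obtain ⟨⟨hNn, hNne⟩, hNle⟩ := hNmin
    have := hNn
    have hmin : ∀ K : Subgroup G, K.Normal → K ≤ N → K = ⊥ ∨ K = N := by
      intro K hK hKN
      by_cases hKb : K = ⊥
      · left; exact hKb
      · right; exact le_antisymm hKN (hNle ⟨hK, hKb⟩ hKN)
    obtain ⟨hNab, p, hp, hpow⟩ := Cfsg.Agent.S0043.result N hNne hmin
    by_cases hNM : N ≤ M
    · have hlt : Nat.card (G ⧸ N) < n := by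
        rw [← hn, Subgroup.card_eq_card_quotient_mul_card_subgroup N]
        have h1 : 1 < Nat.card N := (Subgroup.one_lt_card_iff_ne_bot N).mpr hNne
        have h2 : 0 < Nat.card (G ⧸ N) := Nat.card_pos
        nlinarith
      have hker : (QuotientGroup.mk' N).ker ≤ M := by rw [QuotientGroup.ker_mk']; exact hNM
      have hcomap : (M.map (QuotientGroup.mk' N)).comap (QuotientGroup.mk' N) = M :=
        Subgroup.comap_map_eq_self hker
      have hco : IsCoatom (M.map (QuotientGroup.mk' N)) := by
        constructor
        · intro htop
          apply hM.1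
          rw [← hcomap, htop, Subgroup.comap_top]
        · intro K hK
          have h1 : M < K.comap (QuotientGroup.mk' N) := by
            rw [← hcomap]
            exact (Subgroup.comap_lt_comap_of_surjective (QuotientGroup.mk'_surjective N)).mpr hK
          have h2 := hM.2 _ h1
          apply Subgroup.comap_injective (QuotientGroup.mk'_surjective N)
          rw [h2, Subgroup.comap_top]
      have := ih _ hlt (G ⧸ N) rfl _ hco
      rwa [Subgroup.index_map_eq M (QuotientGroup.mk'_surjective N) hker] at this
    · have hsup : M ⊔ N = ⊤ :=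
        hM.2 _ (lt_of_le_of_ne le_sup_left (fun h => hNM (h ▸ le_sup_right)))
      have e1 : Nat.card M = Nat.card (M ⊓ N : Subgroup G) * N.relIndex M := by
        rw [← Subgroup.relIndex_bot_left, ← Subgroup.relIndex_bot_left (M ⊓ N),
          ← Subgroup.inf_relIndex_left M N]
        exact (Subgroup.relIndex_mul_relIndex _ _ _ bot_le inf_le_left).symm
      have e2 : Nat.card N = Nat.card (M ⊓ N : Subgroup G) * M.relIndex N := by
        rw [← Subgroup.relIndex_bot_left, ← Subgroup.relIndex_bot_left (M ⊓ N),
          ← Subgroup.inf_relIndex_right M N]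
        exact (Subgroup.relIndex_mul_relIndex _ _ _ bot_le inf_le_right).symm
      have e3 : N.index = N.relIndex M := by
        rw [← Subgroup.relIndex_top_right, ← hsup, Subgroup.relIndex_sup_right]
      have e4 : Nat.card M * M.index = Nat.card G := Subgroup.card_mul_index M
      have e5 : Nat.card N * N.index = Nat.card G := Subgroup.card_mul_index N
      have hpos1 : 0 < Nat.card (M ⊓ N : Subgroup G) := Nat.card_pos
      have hpos2 : 0 < N.relIndex M := by
        rw [← e3]; exact Nat.pos_of_ne_zero (Subgroup.index_ne_zero_of_finite)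
      have e6 : M.index = M.relIndex N := by
        have : Nat.card (M ⊓ N : Subgroup G) * N.relIndex M * M.index =
            Nat.card (M ⊓ N : Subgroup G) * N.relIndex M * M.relIndex N := by
          calc Nat.card (M ⊓ N : Subgroup G) * N.relIndex M * M.index
              = Nat.card M * M.index := by rw [e1]
            _ = Nat.card N * N.index := by rw [e4, e5]
            _ = Nat.card (M ⊓ N : Subgroup G) * N.relIndex M * M.relIndex N := by
                rw [e3]; rw [e2]; ring
        exact Nat.eq_of_mul_eq_mul_left (Nat.mul_pos hpos1 hpos2) this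
      have hdvd : M.index ∣ Nat.card N := by rw [e6]; exact Subgroup.relIndex_dvd_card M N
      have : Fact p.Prime := ⟨hp⟩
      have hNp : IsPGroup p N := by
        intro g
        refine ⟨1, ?_⟩
        have := hpow g g.2
        rw [pow_one]
        exact Subtype.ext (by simpa using this)
      obtain ⟨k, hk⟩ := IsPGroup.iff_card.mp hNp
      rw [hk] at hdvd
      obtain ⟨j, hjk, hj⟩ := (Nat.dvd_prime_pow hp).mp hdvd
      rw [isPrimePow_nat_iff]
      refine ⟨p, j, hp, ?_, hj.symm⟩
      rcases Nat.eq_zero_or_pos j with h0 | h0
      · exfalso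
        rw [h0, pow_zero] at hj
        exact hM.1 (Subgroup.index_eq_one.mp hj)
      · exact h0


/-- In a finite solvable group every maximal subgroup has index a prime power. -/
theorem result {G : Type*} [Group G] [Finite G] [Group.IsSolvable G]
    (M : Subgroup G) (hM : IsCoatom M) : IsPrimePow M.index := by
  exact aux _ G rfl M hM

end Cfsg.Agent.S0048
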