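import Cfsg.Statements.S0049
-- import your own Cfsg.Agent.* helpers here
import Mathlib

set_option autoImplicit false
open Cfsg

namespace Cfsg.Agent.S0049

/-- A prime divisor of the order of a finite group also divides the index of the Frattini subgroup. -/
theorem result {G : Type*} [Group G] [Finite G] (p : ℕ) (hp : p.Prime) (hdvd : p ∣ Nat.card G) :
    p ∣ (frattini G).index := by
  classical
  by_contra hnd
  have : Fact p.Prime := ⟨hp⟩
  have hΦn : (frattini G).Normal := inferInstance
  obtain ⟨Q⟩ : Nonempty (Sylow p (frattini G)) := inferInstance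
  have hnorm : Subgroup.normalizer (((Q : Subgroup (frattini G)).map (frattini G).subtype : Subgroup G) : Set G) ⊔ frattini G = ⊤ :=
    Sylow.normalizer_sup_eq_top Q
  have hnormtop := frattini_nongenerating hnorm
  have hQ'n : ((Q : Subgroup (frattini G)).map (frattini G).subtype).Normal :=
    Subgroup.normalizer_eq_top_iff.mp hnormtop
  generalize hQ' : (Q : Subgroup (frattini G)).map (frattini G).subtype = Q' at hQ'n
  have hidx : Q'.index = (Q : Subgroup (frattini G)).index * (frattini G).index := by
    rw [← hQ']; exact Subgroup.index_map_subtype _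
  have hnd' : ¬ p ∣ Q'.index := by
    rw [hidx]; exact hp.not_dvd_mul Q.not_dvd_index hnd
  have hcardQ' : Nat.card Q' = Nat.card (Q : Subgroup (frattini G)) := by
    rw [← hQ']; exact Subgroup.card_map_of_injective (frattini G).subtype_injective
  obtain ⟨n, hn⟩ := IsPGroup.iff_card.mp Q.isPGroup'
  have hcop : (Nat.card Q').Coprime Q'.index := by
    rw [hcardQ', hn]
    exact Nat.Coprime.pow_left n ((Nat.Prime.coprime_iff_not_dvd hp).mpr hnd')
  obtain ⟨H, hH⟩ := Subgroup.exists_right_complement'_of_coprime hcop
  have hsup : Q' ⊔ H = ⊤ := hH.sup_eq_top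
  have hQ'le : Q' ≤ frattini G := by rw [← hQ']; exact Subgroup.map_subtype_le _
  have hHtop : H = ⊤ := by
    apply frattini_nongenerating
    rw [eq_top_iff, ← hsup, sup_comm]
    exact sup_le_sup_left hQ'le H
  have hQ'bot : Q' = ⊥ := by
    have := hH.disjoint
    rw [hHtop] at this
    exact disjoint_top.mp this
  apply hnd'
  rw [← Subgroup.card_mul_index Q', hQ'bot, Subgroup.card_bot, one_mul] at hdvd
  rw [hQ'bot]; exact hdvd

end Cfsg.Agent.S0049
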