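import Cfsg.Statements.S0050
-- import your own Cfsg.Agent.* helpers here
import Mathlib
import Cfsg.Agent.S0004
import Cfsg.Agent.Lib.Helper21.Basic

set_option autoImplicit false
open Cfsg

namespace Cfsg.Agent.S0050

/-- Frattini argument for Hall subgroups: if L is a solvable normal subgroup and H a subgroup of L of order coprime to its index in L, then L together with the normaliser of H generates the whole group. -/
theorem result {G : Type*} [Group G] [Finite G] (L : Subgroup G) [L.Normal] (hL : Group.IsSolvable L)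
    (H : Subgroup G) (hHL : H ≤ L) (hHall : (Nat.card H).Coprime (H.relIndex L)) :
    L ⊔ Subgroup.normalizer (H : Set G) = ⊤ := by
  classical
  rw [eq_top_iff]
  intro g _
  set K := H.map (MulAut.conj g).toMonoidHom with hK
  have hKL : K ≤ L := by
    intro x hx
    rw [hK, Cfsg.Agent.Lib.Helper21.mem_map_conj] at hx
    have h1 : g⁻¹ * x * g ∈ L := hHL hx
    have h2 := ‹L.Normal›.conj_mem _ h1 g
    have e : g * (g⁻¹ * x * g) * g⁻¹ = x := by group
    rwa [e] at h2
  have hcardL : Nat.card L = Nat.card H * H.relIndex L :=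
    (Cfsg.Agent.Lib.Helper21.card_mul_relIndex hHL).symm
  have h1 : Nat.card (H.subgroupOf L) = Nat.card H :=
    Nat.card_congr (Subgroup.subgroupOfEquivOfLe hHL).toEquiv
  have h2 : Nat.card (K.subgroupOf L) = Nat.card H := by
    rw [Nat.card_congr (Subgroup.subgroupOfEquivOfLe hKL).toEquiv, hK,
      Cfsg.Agent.Lib.Helper21.card_map_conj]
  haveI := hL
  obtain ⟨l, hl⟩ := Cfsg.Agent.S0004.result (G := L) (Nat.card H) (H.relIndex L) hcardL hHall
    (H.subgroupOf L) (K.subgroupOf L) h1 h2
  have hl' : (H.subgroupOf L).map (MulAut.conj l).toMonoidHom = K.subgroupOf L := hl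
  have hKeq : K = H.map (MulAut.conj (l : G)).toMonoidHom := by
    ext x
    have hiff : x ∈ H.map (MulAut.conj (l : G)).toMonoidHom ↔ (l:G)⁻¹ * x * l ∈ H :=
      Cfsg.Agent.Lib.Helper21.mem_map_conj H (l:G) x
    rw [hiff]
    constructor
    · intro hx
      have hxL : x ∈ L := hKL hx
      have h3 : (⟨x, hxL⟩ : L) ∈ K.subgroupOf L := Subgroup.mem_subgroupOf.mpr hx
      rw [← hl', Cfsg.Agent.Lib.Helper21.mem_map_conj, Subgroup.mem_subgroupOf] at h3
      exact h3
    · intro hx
      have hxL : x ∈ L := by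
        have h4 : (l:G)⁻¹ * x * l ∈ L := hHL hx
        have e : x = (l:G) * ((l:G)⁻¹ * x * l) * (l:G)⁻¹ := by group
        rw [e]; exact L.mul_mem (L.mul_mem l.2 h4) (L.inv_mem l.2)
      have h3 : (⟨x, hxL⟩ : L) ∈ K.subgroupOf L := by
        rw [← hl', Cfsg.Agent.Lib.Helper21.mem_map_conj, Subgroup.mem_subgroupOf]
        exact hx
      exact Subgroup.mem_subgroupOf.mp h3
  have hmem : (l : G)⁻¹ * g ∈ Subgroup.normalizer (H : Set G) := by
    rw [Cfsg.Agent.Lib.Helper21.mem_normalizer_iff_map, Cfsg.Agent.Lib.Helper21.map_conj_mul]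
    show K.map (MulAut.conj (l:G)⁻¹).toMonoidHom = H
    rw [hKeq, Cfsg.Agent.Lib.Helper21.map_conj_map_conj_inv]
  have e : g = (l : G) * ((l : G)⁻¹ * g) := by group
  rw [e]
  exact Subgroup.mul_mem_sup l.2 hmem

end Cfsg.Agent.S0050
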