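import Cfsg.Statements.S0053
-- import your own Cfsg.Agent.* helpers here
import Mathlib

set_option autoImplicit false
open Cfsg

namespace Cfsg.Agent.S0053

/-- An abelian minimal normal subgroup N of a finite group is complemented exactly when N is not inside the Frattini subgroup. -/
theorem result {G : Type*} [Group G] [Finite G]
    (N : Subgroup G) [N.Normal] [IsMulCommutative N] (hN : N ≠ ⊥)
    (hmin : ∀ M : Subgroup G, M.Normal → M ≤ N → M = ⊥ ∨ M = N) :
    (∃ H : Subgroup G, Subgroup.IsComplement' N H) ↔ ¬ N ≤ frattini G := by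
  classical
  constructor
  · rintro ⟨H, hH⟩ hle
    have hsup : N ⊔ H = ⊤ := hH.sup_eq_top
    have hHtop : H = ⊤ := by
      apply frattini_nongenerating
      rw [eq_top_iff, ← hsup, sup_comm]
      exact sup_le_sup_left hle H
    have := hH.disjoint
    rw [hHtop] at this
    exact hN (disjoint_top.mp this)
  · intro hnle
    have hex : ∃ M : Subgroup G, IsCoatom M ∧ ¬ N ≤ M := by
      by_contra hcon
      push_neg at hcon
      apply hnle
      unfold frattini Order.radical
      exact le_iInf₂ (fun M hM => hcon M hM)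
    obtain ⟨M, hM, hNM⟩ := hex
    have hsup : M ⊔ N = ⊤ :=
      hM.2 _ (lt_of_le_of_ne le_sup_left (fun h => hNM (h ▸ le_sup_right)))
    have hmul : ∀ g : G, ∃ m ∈ M, ∃ n ∈ N, g = m * n := by
      intro g
      have hg : g ∈ ((M ⊔ N : Subgroup G) : Set G) := by rw [hsup]; trivial
      rw [Subgroup.mul_normal] at hg
      obtain ⟨m, hm, n, hn, rfl⟩ := hg
      exact ⟨m, hm, n, hn, rfl⟩
    have hinfn : (M ⊓ N).Normal := by
      refine ⟨fun x hx g => ?_⟩
      obtain ⟨m, hm, n, hn, rfl⟩ := hmul g
      have hcomm : n * x = x * n := by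
        have := mul_comm' (⟨n, hn⟩ : N) ⟨x, hx.2⟩
        exact congrArg Subtype.val this
      have e : m * n * x * (m * n)⁻¹ = m * x * m⁻¹ := by
        rw [mul_inv_rev, mul_assoc m n x, hcomm]
        group
      rw [e]
      exact ⟨M.mul_mem (M.mul_mem hm hx.1) (M.inv_mem hm), ‹N.Normal›.conj_mem x hx.2 m⟩
    have hinf : M ⊓ N = ⊥ := by
      rcases hmin _ hinfn inf_le_right with h | h
      · exact h
      · exact absurd (h ▸ inf_le_left) hNM
    refine ⟨M, Subgroup.isComplement'_of_disjoint_and_mul_eq_univ ?_ ?_⟩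
    · rw [disjoint_iff, inf_comm]; exact hinf
    · rw [← Subgroup.normal_mul, sup_comm, hsup]; rfl

end Cfsg.Agent.S0053
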