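import Cfsg.Statements.S0054
-- import your own Cfsg.Agent.* helpers here
import Mathlib

set_option autoImplicit false
open Cfsg

namespace Cfsg.Agent.S0054

/-- A regular normal subgroup of a finite 2-transitive group is elementary abelian: it is commutative and all its elements have order dividing one prime. -/
theorem result {G : Type*} [Group G] [Finite G]
    {X : Type*} [Nonempty X] [MulAction G X] (h2 : MulAction.IsMultiplyPretransitive G X 2)
    (N : Subgroup G) [N.Normal] (htrans : MulAction.IsPretransitive N X) (hreg : ∀ x : X, MulAction.stabilizer N x = ⊥) :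
    IsMulCommutative N ∧ ∃ p : ℕ, p.Prime ∧ ∀ n ∈ N, n ^ p = 1 := by
  classical
  obtain ⟨x⟩ := ‹Nonempty X›
  rw [MulAction.is_two_pretransitive_iff] at h2
  have hinj : ∀ a ∈ N, ∀ b ∈ N, a • x = b • x → a = b := by
    intro a ha b hb h
    have hmem : (⟨b⁻¹ * a, N.mul_mem (N.inv_mem hb) ha⟩ : N) ∈ MulAction.stabilizer N x := by
      rw [MulAction.mem_stabilizer_iff]
      show (b⁻¹ * a) • x = x
      rw [mul_smul, h, inv_smul_smul]
    rw [hreg x, Subgroup.mem_bot] at hmem
    have h1 : b⁻¹ * a = 1 := congrArg Subtype.val hmem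
    exact (inv_mul_eq_one.mp h1).symm
  have hconj : ∀ a ∈ N, a ≠ 1 → ∀ b ∈ N, b ≠ 1 → ∃ g : G, g * a * g⁻¹ = b := by
    intro a ha ha1 b hb hb1
    have hax : x ≠ a • x := fun h => ha1 (hinj a ha 1 N.one_mem (by rw [one_smul]; exact h.symm))
    have hbx : x ≠ b • x := fun h => hb1 (hinj b hb 1 N.one_mem (by rw [one_smul]; exact h.symm))
    obtain ⟨g, hg1, hg2⟩ := h2 hax hbx
    refine ⟨g, hinj _ (‹N.Normal›.conj_mem a ha g) b hb ?_⟩
    have hgx : g⁻¹ • x = x := by rw [inv_smul_eq_iff, hg1]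
    rw [mul_smul, mul_smul, hgx, hg2]
  by_cases hNbot : N = ⊥
  · refine ⟨⟨⟨fun a b => ?_⟩⟩, 2, Nat.prime_two, ?_⟩
    · have hall : ∀ c : G, c ∈ N → c = 1 := by
        intro c hc
        rw [hNbot, Subgroup.mem_bot] at hc
        exact hc
      have ha : (a : G) = 1 := hall _ a.2
      have hb : (b : G) = 1 := hall _ b.2
      apply Subtype.ext
      simp [ha, hb]
    · intro n hn
      rw [hNbot, Subgroup.mem_bot] at hn
      simp [hn]
  · have hcard : Nat.card N ≠ 1 := fun h => hNbot (Subgroup.card_eq_one.mp h)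
    obtain ⟨p, hp, hpdvd⟩ := Nat.exists_prime_and_dvd hcard
    have : Fact p.Prime := ⟨hp⟩
    obtain ⟨a, ha⟩ := exists_prime_orderOf_dvd_card' (G := N) p hpdvd
    have ha1 : (a : G) ≠ 1 := by
      intro h
      have : a = 1 := Subtype.ext h
      rw [this, orderOf_one] at ha
      exact hp.one_lt.ne ha
    have hapow : (a : G) ^ p = 1 := by
      have : a ^ p = 1 := by rw [← ha]; exact pow_orderOf_eq_one a
      exact_mod_cast congrArg Subtype.val this
    have hpow : ∀ n ∈ N, n ^ p = 1 := by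
      intro n hn
      by_cases hn1 : n = 1
      · simp [hn1]
      · obtain ⟨g, hg⟩ := hconj a a.2 ha1 n hn hn1
        rw [← hg, conj_pow, hapow]; simp
    have hPG : IsPGroup p N := fun n => ⟨1, by
      rw [pow_one]; exact Subtype.ext (by simpa using hpow n n.2)⟩
    have hnt : Nontrivial N := (Subgroup.nontrivial_iff_ne_bot N).mpr hNbot
    have hcen := hPG.bot_lt_center
    obtain ⟨z, hz, hz1⟩ := SetLike.exists_of_lt hcen
    have hz1' : (z : G) ≠ 1 := by
      intro h
      apply hz1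
      rw [Subgroup.mem_bot]
      exact Subtype.ext h
    refine ⟨⟨⟨fun m n => ?_⟩⟩, p, hp, hpow⟩
    by_cases hm1 : (m : G) = 1
    · have : m = 1 := Subtype.ext hm1
      simp [this]
    · obtain ⟨g, hg⟩ := hconj z z.2 hz1' m m.2 hm1
      have hn' : g⁻¹ * n * g ∈ N := by simpa using ‹N.Normal›.conj_mem n n.2 g⁻¹
      have hz' := Subgroup.mem_center_iff.mp hz ⟨_, hn'⟩
      have hz'' : (g⁻¹ * n * g) * (z : G) = z * (g⁻¹ * n * g) := congrArg Subtype.val hz'
      apply Subtype.ext
      show (m : G) * n = n * m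
      rw [← hg]
      calc g * z * g⁻¹ * n = g * (z * (g⁻¹ * n * g)) * g⁻¹ := by group
        _ = g * ((g⁻¹ * n * g) * z) * g⁻¹ := by rw [hz'']
        _ = n * (g * z * g⁻¹) := by group

end Cfsg.Agent.S0054
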