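import Cfsg.Statements.S0056
import Cfsg.Agent.Lib.Helper1.Averaging

set_option autoImplicit false
open Cfsg

namespace Cfsg.Agent.S0056

open Cfsg.Agent.Lib.Helper1

/-- A coprime action on an abelian group that fixes all elements of prime order is trivial. -/
theorem result {G : Type*} [Group G] [Finite G] (A V : Subgroup G) [IsMulCommutative V]
    (hAV : A ≤ Subgroup.normalizer (V : Set G)) (hcop : (Nat.card A).Coprime (Nat.card V))
    (hΩ : ∀ v ∈ V, (orderOf v).Prime → ∀ a ∈ A, a * v = v * a) : A ≤ Subgroup.centralizer (V : Set G) := by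
  have hW : ⁅V, A⁆ = ⊥ := by
    by_contra hne
    have hcard : Nat.card (⁅V, A⁆ : Subgroup G) ≠ 1 := fun h => hne (Subgroup.card_eq_one.mp h)
    obtain ⟨p, hp, hpd⟩ := Nat.exists_prime_and_dvd hcard
    haveI : Fact p.Prime := ⟨hp⟩
    obtain ⟨w, hw⟩ := exists_prime_orderOf_dvd_card' (G := (⁅V, A⁆ : Subgroup G)) p hpd
    have hwV : (w : G) ∈ V := commutator_le_of_le_normalizer hAV w.2
    have hwo : orderOf (w : G) = p := by rw [Subgroup.orderOf_coe]; exact hw
    have hwC : (w : G) ∈ Subgroup.centralizer (A : Set G) := by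
      rw [Subgroup.mem_centralizer_iff]
      intro a ha
      exact hΩ w hwV (hwo ▸ hp) a ha
    have h1 : (w : G) ∈ (V ⊓ Subgroup.centralizer (A : Set G)) ⊓ ⁅V, A⁆ :=
      Subgroup.mem_inf.mpr ⟨Subgroup.mem_inf.mpr ⟨hwV, hwC⟩, w.2⟩
    rw [coprime_abelian_inf_commutator A V hAV hcop, Subgroup.mem_bot] at h1
    rw [h1, orderOf_one] at hwo
    exact hp.one_lt.ne hwo
  rw [Subgroup.le_centralizer_iff]
  exact Subgroup.commutator_eq_bot_iff_le_centralizer.mp hW

end Cfsg.Agent.S0056
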