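import Cfsg.Statements.S0059
import Cfsg.Agent.Lib.Helper1.Coprime

set_option autoImplicit false
open Cfsg

namespace Cfsg.Agent.S0059

open Cfsg.Agent.Lib.Helper1
open Pointwise

/-- Let a finite group act on a set on which a normal subgroup K of coprime order and index is transitive, with K or the quotient solvable. Then any complement H of K has a fixed point, and any two H-fixed points are interchanged by an element of K centralising H. -/
theorem result {G : Type*} [Group G] [Finite G] {X : Type*} [Nonempty X] [MulAction G X]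
    (K H : Subgroup G) [K.Normal] (hc : Subgroup.IsComplement' K H) (hcop : (Nat.card K).Coprime K.index)
    (hsolv : Group.IsSolvable K ∨ Group.IsSolvable (G ⧸ K)) (htrans : MulAction.IsPretransitive K X) :
    (∃ x : X, ∀ h ∈ H, h • x = x) ∧
    ∀ x y : X, (∀ h ∈ H, h • x = x) → (∀ h ∈ H, h • y = y) → ∃ k ∈ K ⊓ Subgroup.centralizer (H : Set G), k • x = y := by
  have hsolv' : Group.IsSolvable K ∨ Group.IsSolvable H := by
    rcases hsolv with h | h
    · exact Or.inl h
    · exact Or.inr (isSolvable_of_isComplement'_quotient K H hc)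
  have hcardH : Nat.card H = K.index := hc.symm.index_eq_card.symm
  constructor
  · let x₀ : X := Classical.arbitrary X
    obtain ⟨S, hSdef⟩ : ∃ S : Subgroup G, S = MulAction.stabilizer G x₀ := ⟨_, rfl⟩
    have hKS : S ⊔ K = ⊤ := by
      rw [eq_top_iff]
      intro g _
      obtain ⟨k, hk⟩ := MulAction.exists_smul_eq K x₀ (g • x₀)
      have h1 : (k : G)⁻¹ * g ∈ S := by
        rw [hSdef, MulAction.mem_stabilizer_iff, mul_smul, ← hk]
        exact inv_smul_smul (k : G) x₀
      have h2 : g = (k : G) * ((k : G)⁻¹ * g) := by group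
      rw [h2, sup_comm]
      exact Subgroup.mul_mem_sup k.2 h1
    have hidx : (K.subgroupOf S).index = K.index := by
      have h1 : K.relIndex (S ⊔ K) = K.relIndex S := Subgroup.relIndex_sup_right S K
      rw [hKS, Subgroup.relIndex_top_right] at h1
      exact h1.symm
    have hcopT : (Nat.card (K.subgroupOf S)).Coprime (K.subgroupOf S).index := by
      rw [hidx]
      exact Nat.Coprime.coprime_dvd_left (card_subgroupOf_dvd K S) hcop
    obtain ⟨B₀, hB₀⟩ := Subgroup.exists_right_complement'_of_coprime hcopT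
    have hcardB : Nat.card (B₀.map S.subtype) = K.index := by
      rw [Subgroup.card_map_of_injective S.subtype_injective, ← hidx]
      exact hB₀.symm.index_eq_card.symm
    have hBc : K.IsComplement' (B₀.map S.subtype) := by
      apply Subgroup.isComplement'_of_coprime
      · rw [hcardB]; exact K.card_mul_index
      · rw [hcardB]; exact hcop
    obtain ⟨n, -, hconj⟩ := sz_conj K hcop H (B₀.map S.subtype) hc hBc hsolv'
    refine ⟨n⁻¹ • x₀, ?_⟩
    intro h hh
    have h1 : n * h * n⁻¹ ∈ B₀.map S.subtype := hconj ▸ conj_mem_conj_smul n h H hh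
    have h2 : n * h * n⁻¹ ∈ S := Subgroup.map_subtype_le B₀ h1
    rw [hSdef, MulAction.mem_stabilizer_iff] at h2
    have h3 : n⁻¹ • (n * h * n⁻¹) • x₀ = n⁻¹ • x₀ := by rw [h2]
    rw [smul_smul] at h3
    rw [smul_smul]
    convert h3 using 2
    group
  · intro x y hx hy
    obtain ⟨k₀, hk₀⟩ := MulAction.exists_smul_eq K x y
    have hk₀' : (k₀ : G) • x = y := hk₀
    obtain ⟨S, hSdef⟩ : ∃ S : Subgroup G, S = MulAction.stabilizer G y := ⟨_, rfl⟩
    have hHS : H ≤ S := by
      intro h hh
      rw [hSdef, MulAction.mem_stabilizer_iff]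
      exact hy h hh
    have hHK₁ : H ≤ Subgroup.normalizer ((K ⊓ S : Subgroup G) : Set G) := by
      intro h hh
      apply mem_normalizer_of_conj_smul_eq
      rw [Subgroup.smul_inf, Subgroup.Normal.conj_smul_eq_self,
        Subgroup.conj_smul_eq_self_of_mem (hHS hh)]
    have hcop₁ : (Nat.card H).Coprime (Nat.card (K ⊓ S : Subgroup G)) := by
      rw [hcardH]
      exact (Nat.Coprime.coprime_dvd_left (Subgroup.card_dvd_of_le inf_le_left) hcop).symm
    have hsolv₁ : Group.IsSolvable H ∨ Group.IsSolvable (K ⊓ S : Subgroup G) := by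
      rcases hsolv' with h | h
      · exact Or.inr (isSolvable_of_le (inf_le_left : K ⊓ S ≤ K))
      · exact Or.inl h
    have hB : MulAut.conj (k₀ : G) • H ≤ (K ⊓ S) ⊔ H := by
      intro b hb
      have hbH : (k₀ : G)⁻¹ * b * (k₀ : G) ∈ H := (mem_conj_smul_iff _ _ _).mp hb
      have hbS : b ∈ S := by
        rw [hSdef, MulAction.mem_stabilizer_iff]
        have h1 := hx _ hbH
        rw [mul_smul, mul_smul, hk₀'] at h1
        have h2 : (k₀ : G) • ((k₀ : G)⁻¹ • b • y) = (k₀ : G) • x := by rw [h1]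
        rw [smul_inv_smul, hk₀'] at h2
        exact h2
      have h3 : b = (b * ((k₀ : G)⁻¹ * b * (k₀ : G))⁻¹) * ((k₀ : G)⁻¹ * b * (k₀ : G)) := by group
      rw [h3]
      refine Subgroup.mul_mem_sup (Subgroup.mem_inf.mpr ⟨?_, ?_⟩) hbH
      · have h4 : b * ((k₀ : G)⁻¹ * b * (k₀ : G))⁻¹ = (b * (k₀ : G)⁻¹ * b⁻¹) * (k₀ : G) := by group
        rw [h4]
        exact K.mul_mem (Subgroup.Normal.conj_mem inferInstance _ (K.inv_mem k₀.2) b) k₀.2
      · exact S.mul_mem hbS (S.inv_mem (hHS hbH))
    obtain ⟨m, hm, hconj⟩ := sz_conj_rel H (K ⊓ S) hHK₁ hcop₁ hsolv₁ _ hB (card_conj_smul _ _)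
    obtain ⟨hmK, hmS⟩ := Subgroup.mem_inf.mp hm
    have hcK : m⁻¹ * (k₀ : G) ∈ K := K.mul_mem (K.inv_mem hmK) k₀.2
    have hconj' : MulAut.conj (m⁻¹ * (k₀ : G)) • H = H := by
      rw [conj_mul_smul, ← hconj, ← conj_mul_smul, inv_mul_cancel, map_one, one_smul]
    refine ⟨m⁻¹ * (k₀ : G), Subgroup.mem_inf.mpr ⟨hcK, ?_⟩, ?_⟩
    · apply mem_centralizer_of_conj_smul_eq (IsComplement'.inf_eq_bot hc) hconj'
      intro h hh
      have h1 : h * (m⁻¹ * (k₀ : G))⁻¹ * h⁻¹ ∈ K :=
        Subgroup.Normal.conj_mem inferInstance _ (K.inv_mem hcK) h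
      have h2 := K.mul_mem hcK h1
      convert h2 using 1
      group
    · rw [mul_smul, hk₀']
      have : m⁻¹ ∈ S := S.inv_mem hmS
      rw [hSdef, MulAction.mem_stabilizer_iff] at this
      exact this

end Cfsg.Agent.S0059
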