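import Cfsg.Statements.S0060
-- import your own Cfsg.Agent.* helpers here
import Mathlib
import Cfsg.Agent.Lib.Helper21.Basic

set_option autoImplicit false
open Pointwise
open Cfsg

namespace Cfsg.Agent.S0060

/-- Brodkey's Theorem: in a finite group with abelian Sylow p-subgroups and no nontrivial normal p-subgroup, some conjugate of a Sylow p-subgroup meets it trivially. -/
theorem result {G : Type*} [Group G] [Finite G] (p : ℕ) [Fact p.Prime]
    (S : Sylow p G) (hS : IsMulCommutative S) (hOp : Cfsg.pCore p G = ⊥) :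
    ∃ g : G, (S : Subgroup G) ⊓ MulAut.conj g • (S : Subgroup G) = ⊥ := by
  classical
  have hp : p.Prime := Fact.out
  -- notation: c g = g S g⁻¹
  let c : G → Subgroup G := fun g => (S : Subgroup G).map (MulAut.conj g).toMonoidHom
  have hc_mem : ∀ g z, z ∈ c g ↔ g⁻¹ * z * g ∈ (S : Subgroup G) := fun g z =>
    Cfsg.Agent.Lib.Helper21.mem_map_conj _ g z
  have hSab : ∀ u ∈ (S : Subgroup G), ∀ v ∈ (S : Subgroup G), u * v = v * u := by
    intro u hu v hv
    exact congrArg Subtype.val (mul_comm' (⟨u, hu⟩ : S) ⟨v, hv⟩)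
  have F1 : ∀ g, ∀ u ∈ c g, ∀ v ∈ c g, u * v = v * u := by
    intro g u hu v hv
    have h := hSab _ ((hc_mem g u).mp hu) _ ((hc_mem g v).mp hv)
    have e1 : u * v = g * ((g⁻¹ * u * g) * (g⁻¹ * v * g)) * g⁻¹ := by group
    have e2 : v * u = g * ((g⁻¹ * v * g) * (g⁻¹ * u * g)) * g⁻¹ := by group
    rw [e1, e2, h]
  have F2 : ∀ g, IsPGroup p (c g) := fun g => S.isPGroup'.map _
  have F2' : ∀ g, ¬ p ∣ (c g).index := by
    intro g
    have h1 : Nat.card (c g) = Nat.card (S : Subgroup G) :=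
      Cfsg.Agent.Lib.Helper21.card_map_conj _ g
    have h2 := (c g).card_mul_index
    have h3 := (S : Subgroup G).card_mul_index
    have h4 : (c g).index = (S : Subgroup G).index := by
      rw [h1, ← h3] at h2
      exact Nat.eq_of_mul_eq_mul_left Nat.card_pos h2
    rw [h4]; exact S.not_dvd_index
  have F3 : ∀ n g, c (n * g) = (c g).map (MulAut.conj n).toMonoidHom := fun n g =>
    Cfsg.Agent.Lib.Helper21.map_conj_mul _ n g
  -- minimal intersection
  obtain ⟨⟨x, y⟩, hmin⟩ := Finite.exists_min (fun q : G × G => Nat.card (c q.1 ⊓ c q.2 : Subgroup G))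
  have hmin' : ∀ a b : G, Nat.card (c x ⊓ c y : Subgroup G) ≤ Nat.card (c a ⊓ c b : Subgroup G) :=
    fun a b => hmin (a, b)
  have hD_le : ∀ r : G, c x ⊓ c y ≤ c r := by
    intro r
    have hxN : c x ≤ Subgroup.normalizer ((c x ⊓ c y : Subgroup G) : Set G) := by
      refine le_trans ?_ (Subgroup.centralizer_le_normalizer _)
      intro u hu
      rw [Subgroup.mem_centralizer_iff]
      intro h hh
      exact F1 x h hh.1 u hu
    have hyN : c y ≤ Subgroup.normalizer ((c x ⊓ c y : Subgroup G) : Set G) := by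
      refine le_trans ?_ (Subgroup.centralizer_le_normalizer _)
      intro u hu
      rw [Subgroup.mem_centralizer_iff]
      intro h hh
      exact F1 y h hh.2 u hu
    have hidx : ¬ p ∣ (c x).relIndex (Subgroup.normalizer ((c x ⊓ c y : Subgroup G) : Set G)) :=
      fun h => F2' x (h.trans (Subgroup.relIndex_dvd_index_of_le hxN))
    obtain ⟨n, hn, hle⟩ := Cfsg.Agent.Lib.Helper21.exists_conj_le_of_relIndex
      (Q := c r ⊓ Subgroup.normalizer ((c x ⊓ c y : Subgroup G) : Set G)) hxN inf_le_right (F2 x)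
      ((F2 r).to_le inf_le_left) hidx
    have hPT : c (n * x) ⊓ c (n * y) = c x ⊓ c y := by
      rw [F3, F3, ← Subgroup.map_inf _ _ _ (MulAut.conj n).injective]
      exact (Cfsg.Agent.Lib.Helper21.mem_normalizer_iff_map _ n).mp hn
    have hTN : c (n * y) ≤ Subgroup.normalizer ((c x ⊓ c y : Subgroup G) : Set G) := by
      rw [F3]
      intro z hz
      have hz' := (Cfsg.Agent.Lib.Helper21.mem_map_conj (c y) n z).mp hz
      have h1 := hyN hz'
      have e : z = n * (n⁻¹ * z * n) * n⁻¹ := by group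
      rw [e]
      exact Subgroup.mul_mem _ (Subgroup.mul_mem _ hn h1) (Subgroup.inv_mem _ hn)
    have hle2 : c r ⊓ c (n * y) ≤ c x ⊓ c y := by
      rw [← hPT]
      refine le_inf ?_ inf_le_right
      rw [F3 n x]
      exact le_trans (le_inf inf_le_left (inf_le_right.trans hTN)) hle
    have heq : c r ⊓ c (n * y) = c x ⊓ c y :=
      Subgroup.eq_of_le_of_card_ge hle2 (hmin' r (n * y))
    rw [← heq]; exact inf_le_left
  -- the intersection of all conjugates is a normal p-subgroup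
  have hIn : (⨅ r : G, c r).Normal := by
    refine ⟨fun z hz g => ?_⟩
    rw [Subgroup.mem_iInf] at hz ⊢
    intro r
    rw [hc_mem]
    have h := (hc_mem (g⁻¹ * r) z).mp (hz (g⁻¹ * r))
    have e : r⁻¹ * (g * z * g⁻¹) * r = (g⁻¹ * r)⁻¹ * z * (g⁻¹ * r) := by group
    rw [e]; exact h
  have hIp : IsPGroup p (⨅ r : G, c r : Subgroup G) := (F2 1).to_le (iInf_le _ 1)
  have hIbot : (⨅ r : G, c r) = ⊥ := by
    rw [eq_bot_iff, ← hOp]
    exact le_sSup ⟨hIn, hIp⟩
  have hDbot : c x ⊓ c y = ⊥ := by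
    rw [eq_bot_iff, ← hIbot]
    exact le_iInf hD_le
  refine ⟨x⁻¹ * y, ?_⟩
  rw [eq_bot_iff]
  intro z hz
  obtain ⟨hz1, hz2⟩ := hz
  have hz2' : (x⁻¹ * y)⁻¹ * z * (x⁻¹ * y) ∈ (S : Subgroup G) := (hc_mem (x⁻¹ * y) z).mp hz2
  have hw : x * z * x⁻¹ ∈ c x ⊓ c y := by
    refine ⟨(hc_mem x _).mpr ?_, (hc_mem y _).mpr ?_⟩
    · have e : x⁻¹ * (x * z * x⁻¹) * x = z := by group
      rw [e]; exact hz1
    · have e : y⁻¹ * (x * z * x⁻¹) * y = (x⁻¹ * y)⁻¹ * z * (x⁻¹ * y) := by group
      rw [e]; exact hz2'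
  rw [hDbot, Subgroup.mem_bot] at hw
  rw [Subgroup.mem_bot]
  have e : z = x⁻¹ * (x * z * x⁻¹) * x := by group
  rw [e, hw]; group

end Cfsg.Agent.S0060
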