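import Cfsg.Statements.S0062
-- import your own Cfsg.Agent.* helpers here
import Mathlib

set_option autoImplicit false
open Cfsg

namespace Cfsg.Agent.S0062

universe u

theorem dvd_form {p q i j d : ℕ} (hp : p.Prime) (hq : q.Prime) (h : d ∣ p ^ i * q ^ j) :
    ∃ i' j', i' ≤ i ∧ j' ≤ j ∧ d = p ^ i' * q ^ j' := by
  obtain ⟨d1, d2, h1, h2, rfl⟩ := (Nat.dvd_mul).mp h
  obtain ⟨i', hi', rfl⟩ := (Nat.dvd_prime_pow hp).mp h1
  obtain ⟨j', hj', rfl⟩ := (Nat.dvd_prime_pow hq).mp h2
  exact ⟨i', j', hi', hj', rfl⟩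

theorem exists_normal {G : Type u} [Group G] [Finite G] {p q i j : ℕ} (hp : p.Prime) (hq : q.Prime)
    (hqp : q < p) (hi1 : 1 ≤ i) (hi2 : i ≤ 2) (hj1 : 1 ≤ j) (hj2 : j ≤ 2)
    (hG : Nat.card G = p ^ i * q ^ j) :
    ∃ N : Subgroup G, N.Normal ∧ N ≠ ⊥ ∧ N ≠ ⊤ := by
  have : Fact p.Prime := ⟨hp⟩
  obtain ⟨P⟩ : Nonempty (Sylow p G) := inferInstance
  have hpq : p ≠ q := hqp.ne'
  have hcop : Nat.Coprime p q := (Nat.coprime_primes hp hq).mpr hpq
  have hpi1 : 1 < p ^ i := Nat.one_lt_pow (by omega) hp.one_lt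
  have hqj1 : 1 < q ^ j := Nat.one_lt_pow (by omega) hq.one_lt
  obtain ⟨k0, hk0⟩ := IsPGroup.iff_card.mp P.isPGroup'
  have hnd : ¬ p ∣ (P : Subgroup G).index := P.not_dvd_index
  have hmul : Nat.card P * (P : Subgroup G).index = p ^ i * q ^ j := by
    rw [← hG]; exact (P : Subgroup G).card_mul_index
  have hcopidx : Nat.Coprime p (P : Subgroup G).index := (Nat.Prime.coprime_iff_not_dvd hp).mpr hnd
  have hki : k0 = i := by
    apply le_antisymm
    · have h1 : p ^ k0 ∣ p ^ i * q ^ j := by rw [← hmul, hk0]; exact dvd_mul_right _ _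
      have h2 : p ^ k0 ∣ p ^ i := (Nat.Coprime.pow k0 j hcop).dvd_of_dvd_mul_right h1
      exact (Nat.pow_dvd_pow_iff_le_right hp.one_lt).mp h2
    · have h1 : p ^ i ∣ Nat.card P * (P : Subgroup G).index := by rw [hmul]; exact dvd_mul_right _ _
      have h2 : p ^ i ∣ Nat.card P := (Nat.Coprime.pow_left i hcopidx).dvd_of_dvd_mul_right h1
      rw [hk0] at h2
      exact (Nat.pow_dvd_pow_iff_le_right hp.one_lt).mp h2
  have hcardP : Nat.card P = p ^ i := by rw [hk0, hki]
  have hidx : (P : Subgroup G).index = q ^ j := by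
    rw [hcardP] at hmul
    exact Nat.eq_of_mul_eq_mul_left (pow_pos hp.pos i) hmul
  have hPcomm : ∀ a b : P, a * b = b * a := by
    rcases (show i = 1 ∨ i = 2 by omega) with rfl | rfl
    · rw [pow_one] at hcardP
      have hcyc : IsCyclic P := isCyclic_of_prime_card hcardP
      let _ : CommGroup P := IsCyclic.commGroup
      intro a b
      exact mul_comm a b
    · have hc := IsPGroup.isMulCommutative_of_card_eq_prime_sq hcardP
      intro a b
      exact mul_comm' a b
  have hn : Nat.card (Sylow p G) = (Subgroup.normalizer ((P : Subgroup G) : Set G)).index :=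
    P.card_eq_index_normalizer
  have hmod := card_sylow_modEq_one p G
  have hdvd : (Subgroup.normalizer ((P : Subgroup G) : Set G)).index ∣ q ^ j := by
    rw [← hidx]; exact Subgroup.index_dvd_of_le Subgroup.le_normalizer
  obtain ⟨k, hkj, hk⟩ := (Nat.dvd_prime_pow hq).mp hdvd
  rcases Nat.eq_zero_or_pos k with hkz | hkpos
  · have htop : Subgroup.normalizer ((P : Subgroup G) : Set G) = ⊤ :=
      Subgroup.index_eq_one.mp (by rw [hk, hkz, pow_zero])
    have hPn : (P : Subgroup G).Normal := Subgroup.normalizer_eq_top_iff.mp htop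
    refine ⟨P, hPn, ?_, ?_⟩
    · intro hbot
      rw [hbot, Subgroup.card_bot] at hcardP
      omega
    · intro htop'
      rw [htop', Subgroup.index_top] at hidx
      omega
  · by_cases hkj' : k = j
    · have hNP : Subgroup.normalizer ((P : Subgroup G) : Set G) = P := by
        have h1 := Subgroup.relIndex_mul_index (Subgroup.le_normalizer (H := (P : Subgroup G)))
        rw [hk, hkj', hidx] at h1
        have h2 : (P : Subgroup G).relIndex (Subgroup.normalizer ((P : Subgroup G) : Set G)) = 1 := by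
          have hpos : 0 < q ^ j := pow_pos hq.pos j
          nlinarith
        exact le_antisymm (Subgroup.relIndex_eq_one.mp h2) Subgroup.le_normalizer
      have hNC : Subgroup.normalizer ((P : Subgroup G) : Set G) ≤ Subgroup.centralizer ((P : Subgroup G) : Set G) := by
        rw [hNP]
        intro x hx
        rw [Subgroup.mem_centralizer_iff]
        intro y hy
        exact congrArg Subtype.val (hPcomm ⟨y, hy⟩ ⟨x, hx⟩)
      have hcompl := MonoidHom.ker_transferSylow_isComplement' P hNC
      refine ⟨(MonoidHom.transferSylow P hNC).ker, inferInstance, ?_, ?_⟩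
      · intro hbot
        have h3 := hcompl.index_eq_card
        rw [hbot, Subgroup.card_bot, hidx] at h3
        omega
      · intro htop
        have h3 := hcompl.disjoint
        rw [htop] at h3
        have hPbot : (P : Subgroup G) = ⊥ := top_disjoint.mp h3
        rw [hPbot, Subgroup.card_bot] at hcardP
        omega
    · exfalso
      have hk1 : k = 1 := by omega
      rw [hn, hk, hk1, pow_one] at hmod
      have h4 : q % p = 1 % p := hmod
      rw [Nat.mod_eq_of_lt hqp, Nat.mod_eq_of_lt hp.one_lt] at h4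
      exact hq.one_lt.ne' h4

theorem solv_aux (p q : ℕ) (hp : p.Prime) (hq : q.Prime) :
    ∀ (n : ℕ) (G : Type u) [Group G] [Finite G],
    Nat.card G = n → (∃ i j, i ≤ 2 ∧ j ≤ 2 ∧ n = p ^ i * q ^ j) → Group.IsSolvable G := by
  intro n
  induction n using Nat.strong_induction_on with
  | _ n ih =>
    intro G _ _ hG hform
    obtain ⟨i, j, hi, hj, hn⟩ := hform
    by_cases hpq : p = q
    · subst hpq
      have : Fact p.Prime := ⟨hp⟩
      have hPG : IsPGroup p G := IsPGroup.of_card (n := i + j) (by rw [hG, hn, pow_add])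
      have := hPG.isNilpotent
      infer_instance
    by_cases hi0 : i = 0
    · subst hi0
      have : Fact q.Prime := ⟨hq⟩
      have hPG : IsPGroup q G := IsPGroup.of_card (n := j) (by rw [hG, hn]; simp)
      have := hPG.isNilpotent
      infer_instance
    by_cases hj0 : j = 0
    · subst hj0
      have : Fact p.Prime := ⟨hp⟩
      have hPG : IsPGroup p G := IsPGroup.of_card (n := i) (by rw [hG, hn]; simp)
      have := hPG.isNilpotent
      infer_instance
    have hex : ∃ N : Subgroup G, N.Normal ∧ N ≠ ⊥ ∧ N ≠ ⊤ := by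
      rcases lt_or_gt_of_ne hpq with h | h
      · exact exists_normal hq hp h (by omega) hj (by omega) hi (by rw [hG, hn, mul_comm])
      · exact exists_normal hp hq h (by omega) hi (by omega) hj (by rw [hG, hn])
    obtain ⟨N, hNn, hNbot, hNtop⟩ := hex
    have hcard : Nat.card G = Nat.card (G ⧸ N) * Nat.card N :=
      Subgroup.card_eq_card_quotient_mul_card_subgroup N
    have hN1 : 1 < Nat.card N := (Subgroup.one_lt_card_iff_ne_bot N).mpr hNbot
    have hQ1 : 1 < Nat.card (G ⧸ N) := by
      have h1 : N.index ≠ 1 := fun h => hNtop (Subgroup.index_eq_one.mp h)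
      have hpos : 0 < N.index := Nat.pos_of_ne_zero Subgroup.index_ne_zero_of_finite
      change 1 < N.index
      omega
    have hNsolv : Group.IsSolvable N := by
      refine ih (Nat.card N) ?_ N rfl ?_
      · rw [← hG, hcard]; nlinarith
      · obtain ⟨i', j', hi', hj', h⟩ := dvd_form hp hq
          (show Nat.card N ∣ p ^ i * q ^ j by rw [← hn, ← hG, hcard]; exact dvd_mul_left _ _)
        exact ⟨i', j', by omega, by omega, h⟩
    have hQsolv : Group.IsSolvable (G ⧸ N) := by
      refine ih (Nat.card (G ⧸ N)) ?_ (G ⧸ N) rfl ?_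
      · rw [← hG, hcard]; nlinarith
      · obtain ⟨i', j', hi', hj', h⟩ := dvd_form hp hq
          (show Nat.card (G ⧸ N) ∣ p ^ i * q ^ j by rw [← hn, ← hG, hcard]; exact dvd_mul_right _ _)
        exact ⟨i', j', by omega, by omega, h⟩
    exact Group.isSolvable_of_ker_le_range N.subtype (QuotientGroup.mk' N) (by simp)


/-- A finite group of order p^2 * q^2 with p and q prime is solvable. -/
theorem result {G : Type*} [Group G] [Finite G] (p q : ℕ) (hp : p.Prime) (hq : q.Prime)
    (hG : Nat.card G = p ^ 2 * q ^ 2) : Group.IsSolvable G := by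
  exact solv_aux p q hp hq _ G rfl ⟨2, 2, le_rfl, le_rfl, hG⟩

end Cfsg.Agent.S0062
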