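import Cfsg.Statements.S0063
-- import your own Cfsg.Agent.* helpers here
import Mathlib

set_option autoImplicit false
open Cfsg

namespace Cfsg.Agent.S0063

universe u

theorem aux (p : ℕ) [Fact p.Prime] : ∀ (m : ℕ) (G : Type u) [Group G] [Finite G],
    Nat.card G = p ^ m → 1 < m → Group.nilpotencyClass G ≤ m - 1 := by
  intro m
  induction m using Nat.strong_induction_on with
  | _ m ih =>
    intro G _ _ hG hm
    have hp : p.Prime := Fact.out
    have hPG : IsPGroup p G := IsPGroup.of_card hG
    have hnil : Group.IsNilpotent G := hPG.isNilpotent
    have hnt : Nontrivial G := by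
      rw [← Finite.one_lt_card_iff_nontrivial, hG]
      exact Nat.one_lt_pow (by omega) hp.one_lt
    have hZ : 1 < Nat.card (Subgroup.center G) :=
      (Subgroup.one_lt_card_iff_ne_bot _).mpr (ne_of_gt hPG.bot_lt_center)
    have hcard : Nat.card G = Nat.card (G ⧸ Subgroup.center G) * Nat.card (Subgroup.center G) :=
      Subgroup.card_eq_card_quotient_mul_card_subgroup _
    have hdvd : Nat.card (G ⧸ Subgroup.center G) ∣ p ^ m := by
      rw [← hG, hcard]; exact dvd_mul_right _ _
    obtain ⟨k, hkm, hk⟩ := (Nat.dvd_prime_pow hp).mp hdvd
    have hklt : k < m := by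
      by_contra hge
      have : k = m := by omega
      subst this
      rw [hk, hG] at hcard
      have hpos : 0 < p ^ k := pow_pos hp.pos k
      nlinarith
    have hq := Group.nilpotencyClass_quotient_center (G := G)
    by_cases hk1 : k ≤ 1
    · have hcyc : IsCyclic (G ⧸ Subgroup.center G) := by
        interval_cases k
        · rw [pow_zero] at hk
          have : Subsingleton (G ⧸ Subgroup.center G) := (Nat.card_eq_one_iff_unique.mp hk).1
          infer_instance
        · rw [pow_one] at hk
          exact isCyclic_of_prime_card hk
      have hcomm : IsMulCommutative G :=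
        (QuotientGroup.mk' (Subgroup.center G)).isMulCommutative_of_isCyclic_of_ker_le_center (by simp)
      have := (Group.IsNilpotent.nilpotencyClass_le_one_iff (G := G)).mpr hcomm
      omega
    · have := ih k hklt (G ⧸ Subgroup.center G) hk (by omega)
      omega


/-- A finite group of prime-power order p ^ m with m > 1 is nilpotent of class at most m - 1. -/
theorem result {G : Type*} [Group G] [Finite G] (p m : ℕ) [Fact p.Prime]
    (hG : Nat.card G = p ^ m) (hm : 1 < m) : Group.nilpotencyClass G ≤ m - 1 := by
  exact aux p m G hG hm

end Cfsg.Agent.S0063
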