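import Cfsg.Statements.S0065
import Mathlib

set_option autoImplicit false
open Pointwise
open Cfsg

namespace Cfsg.Agent.S0065

open scoped commutatorElement

theorem normal_inf_center_ne_bot {G : Type*} [Group G] [Group.IsNilpotent G]
    (N : Subgroup G) [N.Normal] (hN : N ≠ ⊥) : N ⊓ Subgroup.center G ≠ ⊥ := by
  classical
  obtain ⟨n, hn⟩ := Group.IsNilpotent.nilpotent G
  have hex : ∃ i, N ⊓ Subgroup.upperCentralSeries G i ≠ ⊥ := ⟨n, by rw [hn, inf_top_eq]; exact hN⟩
  let i := Nat.find hex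
  have hi : N ⊓ Subgroup.upperCentralSeries G i ≠ ⊥ := Nat.find_spec hex
  have hi0 : i ≠ 0 := by
    intro h0
    apply hi
    rw [h0, Subgroup.upperCentralSeries_zero, inf_bot_eq]
  obtain ⟨j, hj⟩ := Nat.exists_eq_succ_of_ne_zero hi0
  have hjlt : j < i := by omega
  have hjbot : N ⊓ Subgroup.upperCentralSeries G j = ⊥ := by
    by_contra h
    exact Nat.find_min hex hjlt h
  intro hbot
  apply hi
  rw [eq_bot_iff, ← hbot]
  intro x hx
  obtain ⟨hxN, hxZ⟩ := Subgroup.mem_inf.mp hx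
  refine Subgroup.mem_inf.mpr ⟨hxN, ?_⟩
  rw [hj] at hxZ
  rw [Subgroup.mem_center_iff]
  intro g
  have h1 : ⁅x, g⁆ ∈ Subgroup.upperCentralSeries G j := Subgroup.mem_upperCentralSeries_succ_iff.mp hxZ g
  have h2 : ⁅x, g⁆ ∈ N := by
    rw [commutatorElement_def]
    have : g * x⁻¹ * g⁻¹ ∈ N := Subgroup.Normal.conj_mem inferInstance _ (N.inv_mem hxN) g
    have h3 := N.mul_mem hxN this
    convert h3 using 1
    group
  have h3 : ⁅x, g⁆ ∈ N ⊓ Subgroup.upperCentralSeries G j := ⟨h2, h1⟩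
  rw [hjbot, Subgroup.mem_bot, commutatorElement_eq_one_iff_mul_comm] at h3
  exact h3.symm

/-- A nontrivial normal subgroup of a nilpotent group intersects the centre nontrivially. -/
theorem result {G : Type*} [Group G] [Finite G] [Group.IsNilpotent G]
    (N : Subgroup G) [N.Normal] (hN : N ≠ ⊥) : N ⊓ Subgroup.center G ≠ ⊥ :=
  normal_inf_center_ne_bot N hN

end Cfsg.Agent.S0065
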