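import Cfsg.Statements.S0067
-- import your own Cfsg.Agent.* helpers here
import Mathlib
import Cfsg.Agent.Lib.Helper21.Subnormal
import Cfsg.Agent.Lib.Helper21.Nilp
import Cfsg.Agent.S0199

set_option autoImplicit false
open Pointwise
open Cfsg

namespace Cfsg.Agent.S0067

/-- If the join of a subgroup A with each of its conjugates is nilpotent, then A is subnormal in the finite group and contained in the Fitting subgroup. -/
theorem result {G : Type*} [Group G] [Finite G] (A : Subgroup G)
    (h : ∀ g : G, Group.IsNilpotent (A ⊔ MulAut.conj g • A : Subgroup G)) : A.IsSubnormal ∧ A ≤ Cfsg.fittingSubgroup G := by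
  classical
  have hF : A ≤ Cfsg.fittingSubgroup G := by
    have key : ∀ (p : ℕ) [Fact p.Prime] (P : Sylow p A),
        (P : Subgroup A).map A.subtype ≤ Cfsg.fittingSubgroup G := by
      intro p _ P
      have hXp : IsPGroup p ((P : Subgroup A).map A.subtype) := P.isPGroup'.map _
      have hXA : (P : Subgroup A).map A.subtype ≤ A := Subgroup.map_subtype_le _
      have hJ : ∀ g : G, IsPGroup p ↥((P : Subgroup A).map A.subtype ⊔
          ((P : Subgroup A).map A.subtype).map (MulAut.conj g).toMonoidHom) := by
        intro g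
        have hJnil := h g
        have h1 : (P : Subgroup A).map A.subtype ≤ A ⊔ MulAut.conj g • A := hXA.trans le_sup_left
        have h2 : ((P : Subgroup A).map A.subtype).map (MulAut.conj g).toMonoidHom
            ≤ A ⊔ MulAut.conj g • A := by
          have : ((P : Subgroup A).map A.subtype).map (MulAut.conj g).toMonoidHom
              ≤ MulAut.conj g • A := Subgroup.map_mono hXA
          exact this.trans le_sup_right
        have h3 : ((P : Subgroup A).map A.subtype).subgroupOf (A ⊔ MulAut.conj g • A)
            ≤ Cfsg.pCore p ↥(A ⊔ MulAut.conj g • A) :=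
          Cfsg.Agent.Lib.Helper21.subnormal_pGroup_le_pCore p
            (Cfsg.Agent.Lib.Helper21.isSubnormal_of_isNilpotent hJnil _) hXp.comap_subtype
        have h4 : (((P : Subgroup A).map A.subtype).map (MulAut.conj g).toMonoidHom).subgroupOf
            (A ⊔ MulAut.conj g • A) ≤ Cfsg.pCore p ↥(A ⊔ MulAut.conj g • A) :=
          Cfsg.Agent.Lib.Helper21.subnormal_pGroup_le_pCore p
            (Cfsg.Agent.Lib.Helper21.isSubnormal_of_isNilpotent hJnil _)
            (hXp.map (MulAut.conj g).toMonoidHom).comap_subtype
        have h5 : IsPGroup p ((Cfsg.pCore p ↥(A ⊔ MulAut.conj g • A)).map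
            (A ⊔ MulAut.conj g • A).subtype) :=
          (Cfsg.Agent.Lib.Helper21.pCore_isPGroup p).map _
        refine h5.to_le (sup_le ?_ ?_)
        · rw [← Subgroup.map_subgroupOf_eq_of_le h1]
          exact Subgroup.map_mono h3
        · rw [← Subgroup.map_subgroupOf_eq_of_le h2]
          exact Subgroup.map_mono h4
      obtain ⟨N, hN, hNp, hXN⟩ := Cfsg.Agent.S0199.result _ hXp hJ
      exact hXN.trans ((Cfsg.Agent.Lib.Helper21.subnormal_pGroup_le_pCore p hN.isSubnormal hNp).trans
        (Cfsg.Agent.Lib.Helper21.pCore_le_fittingSubgroup p))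
    have htop : (Cfsg.fittingSubgroup G).subgroupOf A = ⊤ := by
      apply Cfsg.Agent.Lib.Helper21.iSup_sylow_eq_top (fun p _ => (default : Sylow p A))
      intro p _
      rw [Subgroup.subgroupOf, ← Subgroup.map_le_iff_le_comap]
      exact key p _
    exact Subgroup.subgroupOf_eq_top.mp htop
  exact ⟨Cfsg.Agent.Lib.Helper21.isSubnormal_of_le_fittingSubgroup hF, hF⟩

end Cfsg.Agent.S0067
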