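import Cfsg.Statements.S0073
import Mathlib
import Cfsg.Agent.Lib.Helper1.Burnside

set_option autoImplicit false
open Cfsg

namespace Cfsg.Agent.S0073

set_option linter.style.haveILetI false

/-- For a finite non-abelian simple group, either the cube of the least prime divisor of the order divides the order, or 12 does. -/
theorem result {G : Type*} [Group G] [Finite G] [IsSimpleGroup G] (hG : ∃ x y : G, x * y ≠ y * x) : (Nat.card G).minFac ^ 3 ∣ Nat.card G ∨ 12 ∣ Nat.card G := by
  by_contra hcon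
  push Not at hcon
  obtain ⟨hcube, h12⟩ := hcon
  have hcard1 : Nat.card G ≠ 1 := by
    intro h1
    obtain ⟨x, y, hxy⟩ := hG
    haveI : Subsingleton G := (Nat.card_eq_one_iff_unique.mp h1).1
    exact hxy (Subsingleton.elim _ _)
  obtain ⟨p, hpdef⟩ : ∃ p, p = (Nat.card G).minFac := ⟨_, rfl⟩
  have hp : p.Prime := hpdef ▸ Nat.minFac_prime hcard1
  haveI : Fact p.Prime := ⟨hp⟩
  have hpG : p ∣ Nat.card G := hpdef ▸ Nat.minFac_dvd _
  have hpmin : ∀ q, q.Prime → q ∣ Nat.card G → p ≤ q :=
    fun q hq hqG => hpdef ▸ Nat.minFac_le_of_dvd hq.two_le hqG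
  rw [← hpdef] at hcube
  obtain ⟨P⟩ : Nonempty (Sylow p G) := inferInstance
  obtain ⟨n, hn⟩ := IsPGroup.iff_card.mp P.2
  have hn1 : 1 ≤ n := by
    by_contra h0
    have h0' : n = 0 := by omega
    rw [h0', pow_zero] at hn
    have hidx : (P : Subgroup G).index = Nat.card G := by
      have := Subgroup.card_mul_index (P : Subgroup G)
      rw [hn, one_mul] at this; exact this
    exact P.not_dvd_index (hidx ▸ hpG)
  have hPG : p ^ n ∣ Nat.card G := hn ▸ Subgroup.card_subgroup_dvd_card (P : Subgroup G)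
  have hn2 : n ≤ 2 := by
    by_contra h3
    apply hcube
    have : p ^ 3 ∣ p ^ n := pow_dvd_pow p (by omega)
    exact dvd_trans this hPG
  haveI hPc : IsMulCommutative P := by
    rcases (by omega : n = 1 ∨ n = 2) with h1 | h2
    · rw [h1, pow_one] at hn
      haveI : IsCyclic P := isCyclic_of_prime_card (p := p) hn
      exact IsCyclic.isMulCommutative
    · rw [h2] at hn
      exact IsPGroup.isMulCommutative_of_card_eq_prime_sq hn
  have hN : ¬ Subgroup.normalizer (P : Set G) ≤ Subgroup.centralizer (P : Set G) := by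
    intro hNC
    have hKc := MonoidHom.ker_transferSylow_isComplement' P hNC
    rcases (MonoidHom.transferSylow P hNC).normal_ker.eq_bot_or_eq_top with hK | hK
    · rw [hK, Subgroup.isComplement'_bot_left] at hKc
      obtain ⟨x, y, hxy⟩ := hG
      have hx : x ∈ (P : Subgroup G) := by rw [hKc]; trivial
      have hy : y ∈ (P : Subgroup G) := by rw [hKc]; trivial
      have h0 := mul_comm' (⟨x, hx⟩ : P) ⟨y, hy⟩
      exact hxy (congrArg Subtype.val h0)
    · rw [hK, Subgroup.isComplement'_top_left] at hKc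
      have h1 : Nat.card (P : Subgroup G) = 1 := by rw [hKc]; exact Subgroup.card_bot
      have h2 : p ^ n = 1 := hn ▸ h1
      have h3 : p ≤ p ^ n := Nat.le_self_pow (by omega) p
      have := hp.two_le
      omega
  obtain ⟨q, hq, hqp, hqG, D, hD, hmod⟩ :=
    Cfsg.Agent.Lib.Helper1.exists_prime_of_normalizer_not_le_centralizer P hN
  have hpq : p < q := lt_of_le_of_ne (hpmin q hq hqG) (Ne.symm hqp)
  have hcard : Nat.card (P : Subgroup G) = p ^ n := hn
  have hdvd : Nat.card D ∣ p ^ n := hcard ▸ Subgroup.card_subgroup_dvd_card D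
  have hne : Nat.card D ≠ p ^ n := by
    intro h4
    apply hD
    apply Subgroup.eq_top_of_card_eq
    rw [h4, hcard]
  rw [hcard] at hmod
  obtain ⟨j, hj, hjeq⟩ := (Nat.dvd_prime_pow hp).mp hdvd
  have hjn : j < n := lt_of_le_of_ne hj (fun h => hne (h ▸ hjeq))
  have hle : Nat.card D ≤ p ^ n := Nat.le_of_dvd (pow_pos hp.pos n) hdvd
  have hq' : q ∣ p ^ n - Nat.card D := (Nat.modEq_iff_dvd' hle).mp hmod.symm
  rw [hjeq] at hq'
  have hp2 := hp.two_le
  have hcases : (n = 1 ∧ j = 0) ∨ (n = 2 ∧ j = 0) ∨ (n = 2 ∧ j = 1) := by omega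
  rcases hcases with ⟨h1, h2⟩ | ⟨h1, h2⟩ | ⟨h1, h2⟩
  · rw [h1, h2, pow_one, pow_zero] at hq'
    have := Nat.le_of_dvd (by omega) hq'
    omega
  · rw [h1, h2, pow_zero] at hq'
    obtain ⟨m, hm⟩ : ∃ m, p = m + 1 := ⟨p - 1, by omega⟩
    have e : p ^ 2 - 1 = (p - 1) * (p + 1) := by
      rw [hm]
      have : (m + 1) ^ 2 = m * (m + 1 + 1) + 1 := by ring
      rw [this]
      simp
    rw [e] at hq'
    rcases (Nat.Prime.dvd_mul hq).mp hq' with h | h
    · have := Nat.le_of_dvd (by omega) h
      omega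
    · have h3 := Nat.le_of_dvd (by omega) h
      have hqe : q = p + 1 := by omega
      have hp2' : p = 2 := by
        rcases hp.eq_two_or_odd with h4 | h4
        · exact h4
        · rcases hq.eq_two_or_odd with h5 | h5
          · omega
          · omega
      apply h12
      rw [h1, hp2'] at hPG
      have h3G : 3 ∣ Nat.card G := by
        have : q = 3 := by omega
        exact this ▸ hqG
      exact Nat.Coprime.mul_dvd_of_dvd_of_dvd (by norm_num : Nat.Coprime (2 ^ 2) 3) hPG h3G
  · rw [h1, h2, pow_one] at hq'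
    have e : p ^ 2 - p = p * (p - 1) := by
      rw [Nat.mul_sub, mul_one, sq]
    rw [e] at hq'
    rcases (Nat.Prime.dvd_mul hq).mp hq' with h | h
    · exact hqp ((Nat.prime_dvd_prime_iff_eq hq hp).mp h)
    · have := Nat.le_of_dvd (by omega) h
      omega

end Cfsg.Agent.S0073
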