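import Cfsg.Statements.S0076
import Mathlib

set_option autoImplicit false
open Pointwise
open Cfsg

namespace Cfsg.Agent.S0076

theorem conj_smul_set {G : Type*} [Group G] (s : G) (Y : Set G) :
    MulAut.conj s • Y = (fun y => s * y * s⁻¹) '' Y := by
  ext x
  simp [Set.mem_smul_set]

/-- Two P-invariant subsets of a Sylow p-subgroup P that are conjugate in G are conjugate under the normalizer of P. -/
theorem result {G : Type*} [Group G] [Finite G] {p : ℕ} [Fact p.Prime] (P : Sylow p G) (X Y : Set G) (hXP : X ⊆ P) (hYP : Y ⊆ P) (hX : ∀ x ∈ P, (fun y => x * y * x⁻¹) '' X = X) (hY : ∀ x ∈ P, (fun y => x * y * x⁻¹) '' Y = Y) (g : G) (hg : (fun y => g * y * g⁻¹) '' X = Y) : ∃ n ∈ Subgroup.normalizer (P : Set G), (fun y => n * y * n⁻¹) '' X = Y := by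
  classical
  let S : Subgroup G := (MulAction.stabilizer (MulAut G) Y).comap (MulAut.conj : G →* MulAut G)
  have hS : ∀ s : G, s ∈ S ↔ (fun y => s * y * s⁻¹) '' Y = Y := by
    intro s
    rw [← conj_smul_set]
    exact Iff.rfl
  have hg' : MulAut.conj g • X = Y := by rw [conj_smul_set]; exact hg
  have h1 : (P : Subgroup G) ≤ S := fun x hx => (hS x).mpr (hY x hx)
  have h2 : ((g • P : Sylow p G) : Subgroup G) ≤ S := by
    rintro - ⟨z, hz, rfl⟩
    change MulAut.conj (g * z * g⁻¹) • Y = Y
    have hz' : MulAut.conj z • X = X := by rw [conj_smul_set]; exact hX z hz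
    rw [map_mul, map_mul, mul_smul, mul_smul, ← hg', map_inv, inv_smul_smul, hz']
  obtain ⟨h, hh⟩ := MulAction.exists_smul_eq S ((g • P).subtype h2) (P.subtype h1)
  simp_rw [Sylow.smul_subtype, Subgroup.smul_def, smul_smul] at hh
  refine ⟨h * g, Sylow.smul_eq_iff_mem_normalizer.mp (Sylow.subtype_injective hh), ?_⟩
  rw [← conj_smul_set, map_mul, mul_smul, hg']
  exact h.2

end Cfsg.Agent.S0076
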