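import Cfsg.Statements.S0079
import Mathlib
import Cfsg.Agent.Lib.Helper1.Stability
import Cfsg.Agent.Lib.Helper1.SZ

set_option autoImplicit false
open Cfsg

namespace Cfsg.Agent.S0079

open Cfsg.Agent.Lib.Helper1

/-- A nilpotent Hall subgroup has a normal complement exactly when elements of it that are conjugate in the whole group are already conjugate inside it. -/
theorem result {G : Type*} [Group G] [Finite G] (H : Subgroup G) (hH : Group.IsNilpotent H) (hHall : Nat.Coprime (Nat.card H) H.index) : (∃ N : Subgroup G, N.Normal ∧ N.IsComplement' H) ↔ ∀ x ∈ H, ∀ y ∈ H, (∃ g : G, g * x * g⁻¹ = y) → ∃ h ∈ H, h * x * h⁻¹ = y := by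
  constructor
  · rintro ⟨N, hNn, hNc⟩ x hx y hy ⟨g, rfl⟩
    obtain ⟨n, hn, h, hh, rfl⟩ := IsComplement'.exists_mul hNc g
    refine ⟨h, hh, ?_⟩
    have hx' : h * x * h⁻¹ ∈ H := H.mul_mem (H.mul_mem hh hx) (H.inv_mem hh)
    have h1 : (n * h) * x * (n * h)⁻¹ * (h * x * h⁻¹)⁻¹ ∈ N := by
      have e : (n * h) * x * (n * h)⁻¹ * (h * x * h⁻¹)⁻¹ =
          n * ((h * x * h⁻¹) * n⁻¹ * (h * x * h⁻¹)⁻¹) := by group
      rw [e]
      exact N.mul_mem hn (hNn.conj_mem _ (N.inv_mem hn) _)
    have h2 : (n * h) * x * (n * h)⁻¹ * (h * x * h⁻¹)⁻¹ ∈ H := H.mul_mem hy (H.inv_mem hx')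
    have h3 : (n * h) * x * (n * h)⁻¹ * (h * x * h⁻¹)⁻¹ ∈ N ⊓ H := Subgroup.mem_inf.mpr ⟨h1, h2⟩
    rw [hNc.disjoint.eq_bot, Subgroup.mem_bot] at h3
    exact (mul_inv_eq_one.mp h3).symm
  · intro hfus
    have hF : ∀ p : ℕ, p.Prime → p ∣ Nat.card H → FrobCond p G := by
      intro p hp hpH
      haveI : Fact p.Prime := ⟨hp⟩
      obtain ⟨P₀⟩ : Nonempty (Sylow p H) := inferInstance
      have hP' : IsPGroup p ((P₀ : Subgroup H).map H.subtype) := P₀.2.map _
      have hidx : ¬ p ∣ ((P₀ : Subgroup H).map H.subtype).index := by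
        rw [Subgroup.index_map_subtype]
        intro hdvd
        rcases (Nat.Prime.dvd_mul hp).mp hdvd with h1 | h1
        · exact P₀.not_dvd_index h1
        · exact hp.one_lt.ne' (Nat.eq_one_of_dvd_coprimes hHall hpH h1)
      have hle : ((hP'.toSylow hidx : Sylow p G) : Subgroup G) ≤ H := by
        rw [IsPGroup.toSylow_coe]
        exact Subgroup.map_subtype_le _
      exact frobCond_of_nilpotent_fusion (hP'.toSylow hidx) H hH hle hfus
    obtain ⟨N, hNdef⟩ : ∃ N : Subgroup G,
        N = ⨅ p ∈ (Nat.card H).primeFactors, Cfsg.pResidual p G := ⟨_, rfl⟩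
    have hNn : N.Normal := by
      rw [hNdef]
      apply Subgroup.normal_iInf_normal
      intro p
      apply Subgroup.normal_iInf_normal
      intro _
      exact pResidual_normal p
    have hcop1 : (Nat.card H).Coprime (Nat.card N) := by
      apply Nat.coprime_of_dvd
      intro k hk hkH hkN
      haveI : Fact k.Prime := ⟨hk⟩
      have h1 : N ≤ Cfsg.pResidual k G := by
        rw [hNdef]
        exact iInf₂_le k (Nat.mem_primeFactors.mpr ⟨hk, hkH, Nat.card_pos.ne'⟩)
      have h2 := frobCond_pResidual_coprime k (Nat.card G) G le_rfl (hF k hk hkH)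
      have h3 : (Nat.card N).Coprime k :=
        Nat.Coprime.coprime_dvd_left (Subgroup.card_dvd_of_le h1) h2
      exact hk.one_lt.ne' (Nat.Coprime.eq_one_of_dvd h3.symm hkN)
    have hcop2 : N.index.Coprime H.index := by
      apply Nat.coprime_of_dvd
      intro q hq hqN hqH
      haveI : Fact q.Prime := ⟨hq⟩
      have hqcard : ¬ q ∣ Nat.card H := fun h =>
        hq.one_lt.ne' (Nat.eq_one_of_dvd_coprimes hHall h hqH)
      obtain ⟨S⟩ : Nonempty (Sylow q G) := inferInstance
      have hSN : (S : Subgroup G) ≤ N := by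
        rw [hNdef]
        apply le_iInf₂
        intro p hp
        have hpp := (Nat.mem_primeFactors.mp hp).1
        have hpH := (Nat.mem_primeFactors.mp hp).2.1
        intro s hs
        apply Subgroup.subset_closure
        show Nat.Coprime (orderOf s) p
        obtain ⟨j, hj⟩ := S.2 ⟨s, hs⟩
        have h1 : orderOf s ∣ q ^ j := by
          apply orderOf_dvd_of_pow_eq_one
          have := congrArg Subtype.val hj
          simpa using this
        have hqp : q ≠ p := fun h => hqcard (h ▸ hpH)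
        exact Nat.Coprime.coprime_dvd_left h1
          (Nat.Coprime.pow_left j ((Nat.coprime_primes hq hpp).mpr hqp))
      exact S.not_dvd_index (dvd_trans hqN (Subgroup.index_dvd_of_le hSN))
    have e1 : Nat.card N * N.index = Nat.card G := Subgroup.card_mul_index N
    have e2 : Nat.card H * H.index = Nat.card G := Subgroup.card_mul_index H
    have d1 : Nat.card N ∣ H.index := by
      apply Nat.Coprime.dvd_of_dvd_mul_left hcop1.symm
      rw [e2, ← e1]
      exact dvd_mul_right _ _
    have d2 : H.index ∣ Nat.card N := by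
      apply Nat.Coprime.dvd_of_dvd_mul_right hcop2.symm
      rw [e1, ← e2]
      exact dvd_mul_left _ _
    have e3 : Nat.card N = H.index := Nat.dvd_antisymm d1 d2
    refine ⟨N, hNn, Subgroup.isComplement'_of_coprime ?_ hcop1.symm⟩
    rw [e3, mul_comm]
    exact e2

end Cfsg.Agent.S0079
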