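import Cfsg.Statements.S0080
import Mathlib

set_option autoImplicit false
open Cfsg

namespace Cfsg.Agent.S0080

open scoped IsMulCommutative

/-- When the index of H is prime to the order of H/H', the focal subgroup of H is G' ∩ H, and H/(G' ∩ H) has a normal complement. -/
theorem result {G : Type*} [Group G] [Finite G] (H : Subgroup G) (h : Nat.Coprime H.index (⁅H, H⁆.relIndex H)) : Subgroup.focalSubgroup H = commutator G ⊓ H ∧ ∃ N : Subgroup G, N.Normal ∧ N ⊓ H = commutator G ⊓ H ∧ N ⊔ H = ⊤ := by
  classical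
  have hQ : (Nat.card (H ⧸ H.focalSubgroupOf)).Coprime H.index := by
    have h1 : Nat.card (H ⧸ H.focalSubgroupOf) = (Subgroup.focalSubgroup H).relIndex H := rfl
    rw [h1]
    exact (Nat.Coprime.coprime_dvd_right
      (Subgroup.relIndex_dvd_of_le_left H (Subgroup.commutator_le_focalSubgroup H)) h).symm
  have hbij : Function.Bijective (fun y : H ⧸ H.focalSubgroupOf => y ^ H.index) :=
    (powCoprime hQ).bijective
  have hsurj : ∀ g : G, ∃ x : H, H.transferFocal g = H.transferFocal (x : G) := by
    intro g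
    obtain ⟨y, hy⟩ := hbij.2 (H.transferFocal g)
    obtain ⟨x, rfl⟩ := QuotientGroup.mk'_surjective _ y
    exact ⟨x, by rw [Subgroup.transferFocal_eq_pow]; exact hy.symm⟩
  have hker : H.transferFocal.ker ⊓ H = H.focalSubgroup := by
    ext g
    constructor
    · rintro ⟨hg1, hg2⟩
      have h1 : H.transferFocal ((⟨g, hg2⟩ : H) : G) = 1 := hg1
      rw [Subgroup.transferFocal_eq_pow] at h1
      have h2 : ((⟨g, hg2⟩ : H) : H ⧸ H.focalSubgroupOf) = 1 :=
        hbij.1 (by simpa using h1)
      rw [QuotientGroup.eq_one_iff] at h2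
      exact h2
    · intro hg
      have hgH : g ∈ H := Subgroup.focalSubgroup_le H hg
      refine ⟨?_, hgH⟩
      show H.transferFocal g = 1
      have h1 : H.transferFocal ((⟨g, hgH⟩ : H) : G)
          = ((⟨g, hgH⟩ : H) : H ⧸ H.focalSubgroupOf) ^ H.index :=
        Subgroup.transferFocal_eq_pow H _
      have h2 : ((⟨g, hgH⟩ : H) : H ⧸ H.focalSubgroupOf) = 1 :=
        (QuotientGroup.eq_one_iff _).mpr hg
      rw [h2, one_pow] at h1
      exact h1
  have hfocal : Subgroup.focalSubgroup H = commutator G ⊓ H := by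
    apply le_antisymm
    · exact le_inf H.focalSubgroup_le_commutator H.focalSubgroup_le
    · rw [← hker]
      exact inf_le_inf_right _ (Abelianization.commutator_subset_ker H.transferFocal)
  refine ⟨hfocal, H.transferFocal.ker, inferInstance, by rw [hker, hfocal], ?_⟩
  rw [eq_top_iff]
  intro g _
  obtain ⟨x, hx⟩ := hsurj g
  have hg : g = (g * (x : G)⁻¹) * x := by group
  rw [hg]
  apply Subgroup.mul_mem _ (Subgroup.mem_sup_left ?_) (Subgroup.mem_sup_right x.2)
  rw [MonoidHom.mem_ker, map_mul, map_inv, hx, mul_inv_cancel]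

end Cfsg.Agent.S0080
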