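import Cfsg.Statements.S0090
import Mathlib
import Cfsg.Agent.Lib.Helper1.Averaging

set_option autoImplicit false
open Cfsg

namespace Cfsg.Agent.S0090

open scoped commutatorElement

theorem comm_central_left {Q : Type*} [Group Q] (x u w : Q) (hx : ∀ q : Q, x * q = q * x) :
    ⁅x * u, w⁆ = ⁅u, w⁆ := by
  have h0 : ⁅x * u, w⁆ = x * (u * w * u⁻¹) * x⁻¹ * w⁻¹ := by
    rw [commutatorElement_def]; group
  rw [h0, hx (u * w * u⁻¹), mul_inv_cancel_right, commutatorElement_def]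

theorem comm_central_right {Q : Type*} [Group Q] (y u v : Q) (hy : ∀ q : Q, y * q = q * y) :
    ⁅u, y * v⁆ = ⁅u, v⁆ := by
  rw [← commutatorElement_inv, comm_central_left y v u hy, commutatorElement_inv]

/-- An abelian normal Hall subgroup A splits as the internal direct product of G' ∩ A and Z(G) ∩ A, and [A, G] = G' ∩ A. -/
theorem result {G : Type*} [Group G] [Finite G] (A : Subgroup G) [A.Normal] (hc : IsMulCommutative A) (hHall : Nat.Coprime (Nat.card A) A.index) : ⁅A, (⊤ : Subgroup G)⁆ = commutator G ⊓ A ∧ (commutator G ⊓ A) ⊓ (Subgroup.center G ⊓ A) = ⊥ ∧ (commutator G ⊓ A) ⊔ (Subgroup.center G ⊓ A) = A := by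
  haveI := hc
  obtain ⟨H, hH⟩ := Subgroup.exists_right_complement'_of_coprime hHall
  have hHcard : A.index = Nat.card H := hH.symm.index_eq_card
  have hcop : (Nat.card H).Coprime (Nat.card A) := by rw [← hHcard]; exact hHall.symm
  have hHA : H ≤ Subgroup.normalizer (A : Set G) := by
    rw [Subgroup.normalizer_eq_top]; exact le_top
  have hab : ∀ a ∈ A, ∀ b ∈ A, a * b = b * a :=
    fun a ha b hb => congrArg Subtype.val (mul_comm' (⟨a, ha⟩ : A) ⟨b, hb⟩)
  have hAsolv : Group.IsSolvable A := Cfsg.Agent.Lib.Helper1.isSolvable_of_isMulCommutative A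
  have hdec : ∀ g : G, ∃ a ∈ A, ∃ h ∈ H, g = a * h :=
    Cfsg.Agent.Lib.Helper1.IsComplement'.exists_mul hH
  have hAn : A.Normal := inferInstance
  have h1 : ⁅A, (⊤ : Subgroup G)⁆ = ⁅A, H⁆ := by
    apply le_antisymm
    · rw [Subgroup.commutator_le]
      intro a ha g _
      obtain ⟨b, hb, h, hh, rfl⟩ := hdec g
      have hah : ⁅a, h⁆ ∈ A := by
        rw [commutatorElement_def]
        have h0 : a * h * a⁻¹ * h⁻¹ = a * (h * a⁻¹ * h⁻¹) := by group
        rw [h0]; exact A.mul_mem ha (hAn.conj_mem _ (A.inv_mem ha) h)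
      have e : ⁅a, b * h⁆ = ⁅a, b⁆ * (b * ⁅a, h⁆ * b⁻¹) := by
        simp only [commutatorElement_def]; group
      have e2 : ⁅a, b⁆ = 1 := by
        rw [commutatorElement_eq_one_iff_mul_comm]; exact hab a ha b hb
      have e3 : b * ⁅a, h⁆ * b⁻¹ = ⁅a, h⁆ := by rw [hab b hb _ hah]; group
      rw [e, e2, one_mul, e3]
      exact Subgroup.commutator_mem_commutator ha hh
    · exact Subgroup.commutator_mono le_rfl le_top
  have h2 : A ⊓ Subgroup.centralizer (H : Set G) = Subgroup.center G ⊓ A := by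
    ext x
    rw [Subgroup.mem_inf, Subgroup.mem_inf]
    constructor
    · rintro ⟨hxA, hxH⟩
      refine ⟨?_, hxA⟩
      rw [Subgroup.mem_center_iff]
      intro g
      obtain ⟨b, hb, h, hh, rfl⟩ := hdec g
      have e1 : h * x = x * h := Subgroup.mem_centralizer_iff.mp hxH h hh
      rw [mul_assoc, e1, ← mul_assoc, hab b hb x hxA, mul_assoc]
    · rintro ⟨hxZ, hxA⟩
      refine ⟨hxA, ?_⟩
      rw [Subgroup.mem_centralizer_iff]
      intro h _
      exact Subgroup.mem_center_iff.mp hxZ h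
  have h3 : commutator G ⊓ A ≤ ⁅A, H⁆ := by
    rw [← h1]
    have hNn : (⁅A, (⊤ : Subgroup G)⁆).Normal := inferInstance
    obtain ⟨N, hNdef⟩ : ∃ N : Subgroup G, N = ⁅A, (⊤ : Subgroup G)⁆ := ⟨_, rfl⟩
    rw [← hNdef]
    haveI hNn' : N.Normal := hNdef ▸ hNn
    have hNA : N ≤ A := by rw [hNdef]; exact Subgroup.commutator_le_left A ⊤
    have hcomm : commutator G ≤ N ⊔ H := by
      rw [commutator_eq_closure, Subgroup.closure_le]
      rintro _ ⟨g1, g2, rfl⟩
      obtain ⟨a1, ha1, k1, hk1, rfl⟩ := hdec g1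
      obtain ⟨a2, ha2, k2, hk2, rfl⟩ := hdec g2
      have hcen : ∀ a ∈ A, ∀ q : G ⧸ N, (QuotientGroup.mk' N a) * q = q * (QuotientGroup.mk' N a) := by
        intro a ha q
        obtain ⟨g, rfl⟩ := QuotientGroup.mk'_surjective N q
        rw [← map_mul, ← map_mul]
        apply (QuotientGroup.eq).mpr
        have h0 : (a * g)⁻¹ * (g * a) = ⁅g⁻¹, a⁻¹⁆ := by rw [commutatorElement_def]; group
        rw [h0, hNdef, Subgroup.commutator_comm]
        exact Subgroup.commutator_mem_commutator (Subgroup.mem_top _) (A.inv_mem ha)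
      have e : QuotientGroup.mk' N ⁅a1 * k1, a2 * k2⁆ = QuotientGroup.mk' N ⁅k1, k2⁆ := by
        rw [map_commutatorElement, map_commutatorElement, map_mul, map_mul,
          comm_central_left _ _ _ (hcen a1 ha1), comm_central_right _ _ _ (hcen a2 ha2)]
      have e' : ⁅a1 * k1, a2 * k2⁆ * ⁅k1, k2⁆⁻¹ ∈ N := by
        rw [← QuotientGroup.eq_one_iff]
        show QuotientGroup.mk' N (⁅a1 * k1, a2 * k2⁆ * ⁅k1, k2⁆⁻¹) = 1
        rw [map_mul, e, map_inv, mul_inv_cancel]
      have h0 : ⁅a1 * k1, a2 * k2⁆ = (⁅a1 * k1, a2 * k2⁆ * ⁅k1, k2⁆⁻¹) * ⁅k1, k2⁆ := by group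
      rw [SetLike.mem_coe, h0]
      refine Subgroup.mul_mem _ (Subgroup.mem_sup_left e') (Subgroup.mem_sup_right ?_)
      rw [commutatorElement_def]
      exact H.mul_mem (H.mul_mem (H.mul_mem hk1 hk2) (H.inv_mem hk1)) (H.inv_mem hk2)
    intro x hx
    obtain ⟨hx1, hx2⟩ := Subgroup.mem_inf.mp hx
    obtain ⟨n, hn, h, hh, rfl⟩ := Subgroup.mem_sup_of_normal_left.mp (hcomm hx1)
    have hhA : h ∈ A := by
      have h0 : h = n⁻¹ * (n * h) := by group
      rw [h0]; exact A.mul_mem (A.inv_mem (hNA hn)) hx2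
    have hh1 : h = 1 := by
      have h0 : h ∈ A ⊓ H := Subgroup.mem_inf.mpr ⟨hhA, hh⟩
      rw [Cfsg.Agent.Lib.Helper1.IsComplement'.inf_eq_bot hH] at h0
      exact Subgroup.mem_bot.mp h0
    rw [hh1, mul_one]; exact hn
  have hE : ⁅A, (⊤ : Subgroup G)⁆ = commutator G ⊓ A := by
    apply le_antisymm
    · exact le_inf (Subgroup.commutator_mono le_top le_rfl) (Subgroup.commutator_le_left A ⊤)
    · rw [h1]; exact h3
  refine ⟨hE, ?_, ?_⟩
  · rw [← hE, h1, ← h2]
    exact (inf_comm _ _).trans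
      (Cfsg.Agent.Lib.Helper1.coprime_abelian_inf_commutator H A hHA hcop)
  · rw [← hE, h1, ← h2]
    exact Cfsg.Agent.Lib.Helper1.coprime_commutator_sup H A hHA hcop (Or.inr hAsolv)

end Cfsg.Agent.S0090
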