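import Cfsg.Statements.S0082
import Mathlib
import Cfsg.Agent.Lib.Helper1.PRes
import Cfsg.Agent.S0090

set_option autoImplicit false
open Cfsg

namespace Cfsg.Agent.S0082

theorem eq_bot_or_eq_bot_of_cyclic_pgroup {C : Type*} [Group C] [Finite C] [IsCyclic C] {p : ℕ}
    [hp : Fact p.Prime] (hC : IsPGroup p C) (X Y : Subgroup C) (h : X ⊓ Y = ⊥) :
    X = ⊥ ∨ Y = ⊥ := by
  classical
  by_contra hne
  have hX : X ≠ ⊥ := fun h0 => hne (Or.inl h0)
  have hY : Y ≠ ⊥ := fun h0 => hne (Or.inr h0)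
  have hdvd : ∀ Z : Subgroup C, Z ≠ ⊥ → p ∣ Nat.card Z := by
    intro Z hZ
    obtain ⟨n, hn⟩ := IsPGroup.iff_card.mp (hC.to_subgroup Z)
    have h1 : 1 < Nat.card Z := Z.one_lt_card_iff_ne_bot.mpr hZ
    rw [hn] at h1 ⊢
    apply dvd_pow_self p
    rintro rfl
    simp at h1
  obtain ⟨x, hx⟩ := exists_prime_orderOf_dvd_card' p (hdvd X hX)
  obtain ⟨y, hy⟩ := exists_prime_orderOf_dvd_card' p (hdvd Y hY)
  haveI : Fintype C := Fintype.ofFinite C
  have hle := IsCyclic.card_pow_eq_one_le (α := C) (n := p) hp.out.pos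
  have hxo : orderOf (x : C) = p := by rw [Subgroup.orderOf_coe, hx]
  have hyo : orderOf (y : C) = p := by rw [Subgroup.orderOf_coe, hy]
  have hsub : (Finset.image (fun i : ℕ => (x : C) ^ i) (Finset.range p)) ⊆
      Finset.univ.filter (fun a : C => a ^ p = 1) := by
    intro z hz
    obtain ⟨i, -, rfl⟩ := Finset.mem_image.mp hz
    rw [Finset.mem_filter]
    refine ⟨Finset.mem_univ _, ?_⟩
    rw [← pow_mul, mul_comm, pow_mul, ← hxo, pow_orderOf_eq_one, one_pow]
  have hcard : (Finset.image (fun i : ℕ => (x : C) ^ i) (Finset.range p)).card = p := by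
    rw [Finset.card_image_of_injOn, Finset.card_range]
    intro i hi j hj hij
    exact pow_injOn_Iio_orderOf (by rw [hxo]; exact Finset.mem_range.mp hi)
      (by rw [hxo]; exact Finset.mem_range.mp hj) hij
  have heq := Finset.eq_of_subset_of_card_le hsub (by rw [hcard]; exact hle)
  have hymem : (y : C) ∈ Finset.univ.filter (fun a : C => a ^ p = 1) := by
    rw [Finset.mem_filter]; exact ⟨Finset.mem_univ _, by rw [← hyo, pow_orderOf_eq_one]⟩
  rw [← heq] at hymem
  obtain ⟨i, -, hi⟩ := Finset.mem_image.mp hymem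
  have hyX : (y : C) ∈ X := by rw [← hi]; exact X.pow_mem x.2 i
  have hyXY : (y : C) ∈ X ⊓ Y := Subgroup.mem_inf.mpr ⟨hyX, y.2⟩
  rw [h, Subgroup.mem_bot] at hyXY
  rw [hyXY, orderOf_one] at hyo
  exact hp.out.one_lt.ne hyo

theorem eq_bot_or_eq_bot_of_le_cyclic {C : Type*} [Group C] [Finite C] {p : ℕ}
    [hp : Fact p.Prime] (A X Y : Subgroup C) [IsCyclic A] (hA : IsPGroup p A) (hX : X ≤ A)
    (hY : Y ≤ A) (h : X ⊓ Y = ⊥) : X = ⊥ ∨ Y = ⊥ := by
  have h1 : X.subgroupOf A ⊓ Y.subgroupOf A = ⊥ := by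
    rw [eq_bot_iff]
    intro z hz
    obtain ⟨hz1, hz2⟩ := Subgroup.mem_inf.mp hz
    have hz3 : (z : C) ∈ X ⊓ Y :=
      Subgroup.mem_inf.mpr ⟨Subgroup.mem_subgroupOf.mp hz1, Subgroup.mem_subgroupOf.mp hz2⟩
    rw [h, Subgroup.mem_bot] at hz3
    rw [Subgroup.mem_bot]
    exact Subtype.ext hz3
  rcases eq_bot_or_eq_bot_of_cyclic_pgroup hA _ _ h1 with h2 | h2
  · left
    rw [Subgroup.subgroupOf_eq_bot] at h2
    exact le_bot_iff.mp (h2 le_rfl hX)
  · right
    rw [Subgroup.subgroupOf_eq_bot] at h2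
    exact le_bot_iff.mp (h2 le_rfl hY)

/-- With a cyclic Sylow p-subgroup, either there is a normal p-complement or the elements of order prime to p generate the whole group. -/
theorem result {G : Type*} [Group G] [Finite G] {p : ℕ} [Fact p.Prime] (P : Sylow p G) (hP : IsCyclic P) : Cfsg.HasNormalPComplement p G ∨ Cfsg.pResidual p G = ⊤ := by
  haveI hPc : IsMulCommutative P := hP.isMulCommutative
  obtain ⟨N, hNdef⟩ : ∃ N : Subgroup G, N = Subgroup.normalizer (P : Set G) := ⟨_, rfl⟩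
  have hPN : (P : Subgroup G) ≤ N := hNdef ▸ Subgroup.le_normalizer
  obtain ⟨A', hA'def⟩ : ∃ A' : Subgroup N, A' = (P : Subgroup G).subgroupOf N := ⟨_, rfl⟩
  haveI hA'n : A'.Normal := by
    rw [hA'def]
    subst hNdef
    exact Subgroup.normal_in_normalizer
  have e : A' ≃* (P : Subgroup G) := hA'def ▸ Subgroup.subgroupOfEquivOfLe hPN
  have hA'c : IsMulCommutative A' :=
    ⟨⟨fun a b => e.injective (by rw [map_mul, map_mul]; exact mul_comm' (e a) (e b))⟩⟩
  haveI hA'cyc : IsCyclic A' := isCyclic_of_surjective e.symm e.symm.surjective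
  have hA'p : IsPGroup p A' := P.2.of_equiv e.symm
  have hHall : Nat.Coprime (Nat.card A') A'.index := by
    have h1 : A'.index ∣ (P : Subgroup G).index := by
      rw [hA'def]; exact Subgroup.relIndex_dvd_index_of_le hPN
    obtain ⟨n, hn⟩ := IsPGroup.iff_card.mp hA'p
    rw [hn]
    exact Nat.Coprime.pow_left n ((Nat.Prime.coprime_iff_not_dvd Fact.out).mpr
      (fun hd => P.not_dvd_index (dvd_trans hd h1)))
  obtain ⟨h1, h2, h3⟩ := Cfsg.Agent.S0090.result A' hA'c hHall
  rcases eq_bot_or_eq_bot_of_le_cyclic A' _ _ hA'p inf_le_right inf_le_right h2 with hX | hY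
  · left
    have hYA : Subgroup.center N ⊓ A' = A' := by rw [hX, bot_sup_eq] at h3; exact h3
    have hA'Z : A' ≤ Subgroup.center N := by rw [← hYA]; exact inf_le_left
    have hNC : Subgroup.normalizer (P : Set G) ≤ Subgroup.centralizer (P : Set G) := by
      intro n hn
      rw [Subgroup.mem_centralizer_iff]
      intro x hx
      have hn' : n ∈ N := hNdef ▸ hn
      have hxA : (⟨x, hPN hx⟩ : N) ∈ A' := by rw [hA'def]; exact Subgroup.mem_subgroupOf.mpr hx
      have h0 := Subgroup.mem_center_iff.mp (hA'Z hxA) ⟨n, hn'⟩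
      exact (congrArg Subtype.val h0).symm
    exact ⟨P, (MonoidHom.transferSylow P hNC).ker, inferInstance,
      MonoidHom.ker_transferSylow_isComplement' P hNC⟩
  · right
    have hXA : ⁅A', (⊤ : Subgroup N)⁆ = A' := by
      rw [h1]; rw [hY, sup_bot_eq] at h3; exact h3
    have hmap : ⁅(P : Subgroup G), N⁆ = (P : Subgroup G) := by
      have h0 := congrArg (Subgroup.map N.subtype) hXA
      rw [Subgroup.map_commutator, hA'def, Subgroup.map_subgroupOf_eq_of_le hPN,
        ← MonoidHom.range_eq_map, Subgroup.range_subtype] at h0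
      exact h0
    have hPres : (P : Subgroup G) ≤ Cfsg.pResidual p G := by
      have h0 := Cfsg.Agent.Lib.Helper1.sylow_inf_pResidual P
      rw [← hNdef, hmap] at h0
      exact inf_eq_left.mp h0
    haveI := Cfsg.Agent.Lib.Helper1.pResidual_normal (G := G) p
    rw [← Subgroup.index_eq_one]
    have hQ := Cfsg.Agent.Lib.Helper1.isPGroup_quotient_pResidual (G := G) p
    obtain ⟨k, hk⟩ := IsPGroup.iff_card.mp hQ
    have hidx : (Cfsg.pResidual p G).index = p ^ k := hk
    have hdvd : (Cfsg.pResidual p G).index ∣ (P : Subgroup G).index :=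
      Subgroup.index_dvd_of_le hPres
    rw [hidx] at hdvd ⊢
    rcases Nat.eq_zero_or_pos k with h0 | h0
    · rw [h0, pow_zero]
    · exact absurd (dvd_trans (dvd_pow_self p h0.ne') hdvd) P.not_dvd_index

end Cfsg.Agent.S0082
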