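import Cfsg.Statements.S0083
import Mathlib
import Cfsg.Agent.Lib.Helper1.SZ

set_option autoImplicit false
open Cfsg

namespace Cfsg.Agent.S0083

/-- For an abelian Sylow p-subgroup P, a normal p-complement exists exactly when the normalizer of P is an internal direct product of P with some subgroup. -/
theorem result {G : Type*} [Group G] [Finite G] {p : ℕ} [Fact p.Prime] (P : Sylow p G) (hP : IsMulCommutative P) : Cfsg.HasNormalPComplement p G ↔ ∃ Q : Subgroup G, Q ≤ Subgroup.centralizer (P : Set G) ∧ Q ⊓ (P : Subgroup G) = ⊥ ∧ Q ⊔ (P : Subgroup G) = Subgroup.normalizer (P : Set G) := by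
  constructor
  · rintro ⟨P', K, hKn, hK⟩
    have hcard : Nat.card (P' : Subgroup G) = Nat.card (P : Subgroup G) := by
      rw [Sylow.card_eq_multiplicity, Sylow.card_eq_multiplicity]
    have hKP : K.IsComplement' (P : Subgroup G) := by
      apply Subgroup.isComplement'_of_coprime
      · rw [← hcard]; exact hK.card_mul_card
      · have h1 : (P' : Subgroup G).index = Nat.card K := hK.index_eq_card
        rw [← h1]
        obtain ⟨n, hn⟩ := IsPGroup.iff_card.mp P.2
        rw [hn]
        exact Nat.Coprime.pow_right n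
          ((Nat.Prime.coprime_iff_not_dvd Fact.out).mpr P'.not_dvd_index).symm
    have hbot : K ⊓ (P : Subgroup G) = ⊥ := Cfsg.Agent.Lib.Helper1.IsComplement'.inf_eq_bot hKP
    refine ⟨Subgroup.normalizer (P : Set G) ⊓ K, ?_, ?_, ?_⟩
    · intro q hq
      obtain ⟨hqN, hqK⟩ := Subgroup.mem_inf.mp hq
      rw [Subgroup.mem_centralizer_iff]
      intro x hx
      have h1 : q * x * q⁻¹ * x⁻¹ ∈ K ⊓ (P : Subgroup G) := by
        refine Subgroup.mem_inf.mpr ⟨?_, ?_⟩
        · have h0 : q * x * q⁻¹ * x⁻¹ = q * (x * q⁻¹ * x⁻¹) := by group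
          rw [h0]; exact K.mul_mem hqK (hKn.conj_mem _ (K.inv_mem hqK) x)
        · exact Subgroup.mul_mem _ ((Subgroup.mem_normalizer_iff.mp hqN x).mp hx)
            (Subgroup.inv_mem _ hx)
      rw [hbot, Subgroup.mem_bot] at h1
      have h0 : x * q = (q * x * q⁻¹ * x⁻¹)⁻¹ * (q * x) := by group
      rw [h0, h1, inv_one, one_mul]
    · rw [eq_bot_iff, ← hbot]
      exact inf_le_inf_right _ inf_le_right
    · apply le_antisymm
      · exact sup_le inf_le_left Subgroup.le_normalizer
      · intro n hn
        obtain ⟨k, hk, x, hx, rfl⟩ := Cfsg.Agent.Lib.Helper1.IsComplement'.exists_mul hKP n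
        refine Subgroup.mul_mem _ (Subgroup.mem_sup_left (Subgroup.mem_inf.mpr ⟨?_, hk⟩))
          (Subgroup.mem_sup_right hx)
        have h0 : k = (k * x) * x⁻¹ := by group
        rw [h0]
        exact Subgroup.mul_mem _ hn (Subgroup.inv_mem _ (Subgroup.le_normalizer hx))
  · rintro ⟨Q, hQC, -, hQP⟩
    have hPC : (P : Subgroup G) ≤ Subgroup.centralizer (P : Set G) := by
      intro a ha
      rw [Subgroup.mem_centralizer_iff]
      intro b hb
      exact congrArg Subtype.val (mul_comm' (⟨b, hb⟩ : P) ⟨a, ha⟩)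
    have hNC : Subgroup.normalizer (P : Set G) ≤ Subgroup.centralizer (P : Set G) := by
      rw [← hQP]; exact sup_le hQC hPC
    exact ⟨P, (MonoidHom.transferSylow P hNC).ker, inferInstance,
      MonoidHom.ker_transferSylow_isComplement' P hNC⟩

end Cfsg.Agent.S0083
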