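import Cfsg.Statements.S0084
import Mathlib
import Cfsg.Agent.Lib.Helper1.Burnside

set_option autoImplicit false
open Cfsg

namespace Cfsg.Agent.S0084

/-- A group whose Sylow 2-subgroups are Klein four-groups and whose order is prime to 3 has a normal 2-complement. -/
theorem result {G : Type*} [Group G] [Finite G] (T : Sylow 2 G) (hT : IsKleinFour T) (h3 : ¬ 3 ∣ Nat.card G) : Cfsg.HasNormalPComplement 2 G := by
  haveI hTc : IsMulCommutative T := ⟨⟨mul_comm_of_exponent_two hT.exponent_two⟩⟩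
  by_contra hcontra
  have hN : ¬ Subgroup.normalizer (T : Set G) ≤ Subgroup.centralizer (T : Set G) :=
    fun hNC => hcontra (Cfsg.Agent.Lib.Helper1.hasNormalPComplement_of_le_centralizer T hNC)
  obtain ⟨q, hq, hq2, hqG, D, hD, hmod⟩ :=
    Cfsg.Agent.Lib.Helper1.exists_prime_of_normalizer_not_le_centralizer T hN
  have hcard : Nat.card (T : Subgroup G) = 4 := hT.card_four
  have hdvd : Nat.card D ∣ 4 := hcard ▸ Subgroup.card_subgroup_dvd_card D
  have hne : Nat.card D ≠ 4 := by
    intro h4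
    apply hD
    apply Subgroup.eq_top_of_card_eq
    rw [h4, hcard]
  rw [hcard] at hmod
  have hle : Nat.card D ≤ 4 := Nat.le_of_dvd (by norm_num) hdvd
  have hq' : q ∣ 4 - Nat.card D := (Nat.modEq_iff_dvd' hle).mp hmod.symm
  obtain ⟨d, hd⟩ : ∃ d, d = Nat.card D := ⟨_, rfl⟩
  rw [← hd] at hdvd hne hle hq'
  interval_cases d
  · simp at hdvd
  · have h3' : q = 3 := (Nat.prime_dvd_prime_iff_eq hq Nat.prime_three).mp hq'
    exact h3 (h3' ▸ hqG)
  · exact hq2 ((Nat.prime_dvd_prime_iff_eq hq Nat.prime_two).mp hq')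
  · norm_num at hdvd
  · exact hne rfl

end Cfsg.Agent.S0084
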