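import Cfsg.Statements.S0085
import Mathlib
import Cfsg.Agent.Lib.Helper1.Burnside

set_option autoImplicit false
open Cfsg

namespace Cfsg.Agent.S0085

/-- A group whose Sylow 2-subgroups are elementary abelian of order 8 and whose order is prime to 3 and to 7 has a normal 2-complement. -/
theorem result {G : Type*} [Group G] [Finite G] (T : Sylow 2 G) (h8 : Nat.card T = 8) (he : ∀ x : T, x * x = 1) (h3 : ¬ 3 ∣ Nat.card G) (h7 : ¬ 7 ∣ Nat.card G) : Cfsg.HasNormalPComplement 2 G := by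
  have hinv : ∀ x : T, x⁻¹ = x := fun x => inv_eq_of_mul_eq_one_left (he x)
  haveI hTc : IsMulCommutative T := ⟨⟨fun a b => by
    calc a * b = (a * b)⁻¹ := (hinv (a * b)).symm
      _ = b⁻¹ * a⁻¹ := mul_inv_rev a b
      _ = b * a := by rw [hinv a, hinv b]⟩⟩
  by_contra hcontra
  have hN : ¬ Subgroup.normalizer (T : Set G) ≤ Subgroup.centralizer (T : Set G) :=
    fun hNC => hcontra (Cfsg.Agent.Lib.Helper1.hasNormalPComplement_of_le_centralizer T hNC)
  obtain ⟨q, hq, hq2, hqG, D, hD, hmod⟩ :=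
    Cfsg.Agent.Lib.Helper1.exists_prime_of_normalizer_not_le_centralizer T hN
  have hcard : Nat.card (T : Subgroup G) = 8 := h8
  have hdvd : Nat.card D ∣ 8 := hcard ▸ Subgroup.card_subgroup_dvd_card D
  have hne : Nat.card D ≠ 8 := by
    intro h4
    apply hD
    apply Subgroup.eq_top_of_card_eq
    rw [h4, hcard]
  rw [hcard] at hmod
  have hle : Nat.card D ≤ 8 := Nat.le_of_dvd (by norm_num) hdvd
  have hq' : q ∣ 8 - Nat.card D := (Nat.modEq_iff_dvd' hle).mp hmod.symm
  obtain ⟨d, hd⟩ : ∃ d, d = Nat.card D := ⟨_, rfl⟩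
  rw [← hd] at hdvd hne hle hq'
  have h2p : Nat.Prime 2 := Nat.prime_two
  have h3p : Nat.Prime 3 := Nat.prime_three
  have h7p : Nat.Prime 7 := by norm_num
  interval_cases d
  · simp at hdvd
  · have h7' : q = 7 := (Nat.prime_dvd_prime_iff_eq hq h7p).mp hq'
    exact h7 (h7' ▸ hqG)
  · have h6 : q ∣ 2 * 3 := hq'
    rcases (Nat.Prime.dvd_mul hq).mp h6 with h | h
    · exact hq2 ((Nat.prime_dvd_prime_iff_eq hq h2p).mp h)
    · have h3' : q = 3 := (Nat.prime_dvd_prime_iff_eq hq h3p).mp h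
      exact h3 (h3' ▸ hqG)
  · norm_num at hdvd
  · have h4 : q ∣ 2 * 2 := hq'
    rcases (Nat.Prime.dvd_mul hq).mp h4 with h | h
    · exact hq2 ((Nat.prime_dvd_prime_iff_eq hq h2p).mp h)
    · exact hq2 ((Nat.prime_dvd_prime_iff_eq hq h2p).mp h)
  · norm_num at hdvd
  · norm_num at hdvd
  · norm_num at hdvd
  · exact hne rfl

end Cfsg.Agent.S0085
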