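import Cfsg.Statements.S0086
import Mathlib

set_option autoImplicit false
open Pointwise
open Cfsg

namespace Cfsg.Agent.S0086

/-- A normal complement to a Sylow p-subgroup is exactly the set of elements of order prime to p. -/
theorem result {G : Type*} [Group G] [Finite G] {p : ℕ} [Fact p.Prime] (P : Sylow p G) (N : Subgroup G) [N.Normal] (hN : N.IsComplement' (P : Subgroup G)) (x : G) : x ∈ N ↔ Nat.Coprime (orderOf x) p := by
  have hp : p.Prime := Fact.out
  have hcardN : Nat.card N = (P : Subgroup G).index := hN.index_eq_card.symm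
  have hidxN : N.index = Nat.card P := hN.symm.index_eq_card
  constructor
  · intro hx
    have h1 : orderOf x ∣ Nat.card N := by
      have := orderOf_dvd_natCard (⟨x, hx⟩ : N)
      rwa [Subgroup.orderOf_mk] at this
    have h2 : ¬ p ∣ Nat.card N := by rw [hcardN]; exact P.not_dvd_index
    have h3 : Nat.Coprime (Nat.card N) p := (Nat.Prime.coprime_iff_not_dvd hp).mpr h2 |>.symm
    exact Nat.Coprime.coprime_dvd_left h1 h3
  · intro hx
    have h1 : orderOf (x : G ⧸ N) ∣ orderOf x := orderOf_dvd_of_pow_eq_one (by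
      rw [← QuotientGroup.mk_pow, pow_orderOf_eq_one]; rfl)
    have h2 : orderOf (x : G ⧸ N) ∣ Nat.card (G ⧸ N) := orderOf_dvd_natCard _
    rw [← Subgroup.index_eq_card, hidxN] at h2
    obtain ⟨k, hk⟩ := P.2.exists_card_eq
    rw [hk] at h2
    have h3 : Nat.Coprime (orderOf (x : G ⧸ N)) (p ^ k) :=
      Nat.Coprime.pow_right k (Nat.Coprime.coprime_dvd_left h1 hx)
    have h4 : orderOf (x : G ⧸ N) = 1 := Nat.Coprime.eq_one_of_dvd h3 h2
    rw [orderOf_eq_one_iff] at h4
    exact (QuotientGroup.eq_one_iff x).mp h4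

end Cfsg.Agent.S0086
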