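import Cfsg.Statements.S0087
import Cfsg.Agent.S0079
import Cfsg.Agent.Lib.Helper1.SZ
import Cfsg.Agent.Lib.Helper1.Averaging
import Cfsg.Agent.Lib.Helper1.Basic

set_option autoImplicit false
open Cfsg

namespace Cfsg.Agent.S0087

open Cfsg.Agent.Lib.Helper1
open Pointwise
set_option linter.style.haveILetI false

universe u

theorem aux : ∀ (n : ℕ) (G : Type u) [Group G] [Finite G], Nat.card G ≤ n → ∀ (H : Subgroup G),
    Nat.Coprime (Nat.card H) H.index →
    Subgroup.normalizer (H : Set G) ≤ Subgroup.centralizer (H : Set G) →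
    ∃ N : Subgroup G, N.Normal ∧ N.IsComplement' H := by
  intro n
  induction n with
  | zero =>
    intro G _ _ hG
    have := Nat.card_pos (α := G)
    omega
  | succ n ih =>
    intro G _ _ hG H hHall h
    have hHab : ∀ a ∈ H, ∀ b ∈ H, a * b = b * a := by
      intro a ha b hb
      exact Subgroup.mem_centralizer_iff.mp (h (Subgroup.le_normalizer hb)) a ha
    haveI hHc : IsMulCommutative H := ⟨⟨fun a b => Subtype.ext (hHab a a.2 b b.2)⟩⟩
    have hHnil : Group.IsNilpotent H :=
      ⟨⟨1, Subgroup.upperCentralSeries_one_eq_top_iff.mpr hHc⟩⟩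
    apply (Cfsg.Agent.S0079.result H hHnil hHall).mpr
    rintro x hx y hy ⟨g, rfl⟩
    refine ⟨1, H.one_mem, ?_⟩
    rw [one_mul, inv_one, mul_one]
    obtain ⟨C, hCdef⟩ : ∃ C : Subgroup G,
      C = Subgroup.centralizer ({g * x * g⁻¹} : Set G) := ⟨_, rfl⟩
    have hCmem : ∀ z : G, z ∈ C ↔ (g * x * g⁻¹) * z = z * (g * x * g⁻¹) := by
      intro z
      rw [hCdef, Subgroup.mem_centralizer_iff]
      constructor
      · intro hz; exact hz _ rfl
      · intro hz w hw
        rw [Set.mem_singleton_iff.mp hw]; exact hz
    have hHC : H ≤ C := by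
      intro z hz
      rw [hCmem]
      exact hHab _ hy _ hz
    have hgHC : MulAut.conj g • H ≤ C := by
      intro z hz
      rw [mem_conj_smul_iff] at hz
      rw [hCmem]
      have h1 := hHab _ hx _ hz
      have e1 : g * x * g⁻¹ * z = g * (x * (g⁻¹ * z * g)) * g⁻¹ := by group
      have e2 : z * (g * x * g⁻¹) = g * ((g⁻¹ * z * g) * x) * g⁻¹ := by group
      rw [e1, e2, h1]
    by_cases hCtop : C = ⊤
    · have hgC : g⁻¹ ∈ C := by rw [hCtop]; trivial
      rw [hCmem] at hgC
      have h2 : g * x * g⁻¹ = (g * x * g⁻¹ * g⁻¹) * g := by group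
      rw [h2, hgC]; group
    · have hClt : Nat.card C < Nat.card G := by
        have := card_lt_of_lt (lt_top_iff_ne_top.mpr hCtop)
        rwa [Subgroup.card_top] at this
      have hcH : Nat.card (H.subgroupOf C) = Nat.card H :=
        Nat.card_congr (Subgroup.subgroupOfEquivOfLe hHC).toEquiv
      have hHall' : Nat.Coprime (Nat.card (H.subgroupOf C)) (H.subgroupOf C).index := by
        rw [hcH]
        exact Nat.Coprime.coprime_dvd_right (Subgroup.relIndex_dvd_index_of_le hHC) hHall
      have hNC' : Subgroup.normalizer ((H.subgroupOf C : Subgroup C) : Set C) ≤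
          Subgroup.centralizer ((H.subgroupOf C : Subgroup C) : Set C) := by
        intro c hc
        have hc' : (c : G) ∈ Subgroup.normalizer (H : Set G) := by
          rw [Subgroup.mem_normalizer_iff]
          intro z
          constructor
          · intro hz
            have := (Subgroup.mem_normalizer_iff.mp hc ⟨z, hHC hz⟩).mp
              (Subgroup.mem_subgroupOf.mpr hz)
            exact Subgroup.mem_subgroupOf.mp this
          · intro hz
            have hzC : z ∈ C := by
              have e : z = (c : G)⁻¹ * ((c : G) * z * (c : G)⁻¹) * (c : G) := by group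
              rw [e]; exact C.mul_mem (C.mul_mem (C.inv_mem c.2) (hHC hz)) c.2
            have := (Subgroup.mem_normalizer_iff.mp hc ⟨z, hzC⟩).mpr
              (Subgroup.mem_subgroupOf.mpr hz)
            exact Subgroup.mem_subgroupOf.mp this
        have hc2 := h hc'
        rw [Subgroup.mem_centralizer_iff] at hc2 ⊢
        intro z hz
        exact Subtype.ext (hc2 z (Subgroup.mem_subgroupOf.mp hz))
      obtain ⟨K, hKn, hKc⟩ := ih C (by omega) (H.subgroupOf C) hHall' hNC'
      haveI := hKn
      have hcgH : Nat.card ((MulAut.conj g • H).subgroupOf C) = Nat.card H := by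
        rw [Nat.card_congr (Subgroup.subgroupOfEquivOfLe hgHC).toEquiv, card_conj_smul]
      have hKidx : K.index = Nat.card (H.subgroupOf C) := hKc.symm.index_eq_card
      have hKcard : Nat.card K = (H.subgroupOf C).index := hKc.index_eq_card.symm
      have hKcop : (Nat.card K).Coprime K.index := by
        rw [hKidx, hKcard]; exact hHall'.symm
      have hKc2 : K.IsComplement' ((MulAut.conj g • H).subgroupOf C) := by
        apply Subgroup.isComplement'_of_coprime
        · rw [hcgH, ← hcH]; exact hKc.card_mul_card
        · rw [hcgH, ← hcH, ← hKidx]; exact hKcop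
      haveI : Group.IsSolvable (H.subgroupOf C) :=
        Group.isSolvable_of_comm (fun a b => Subtype.ext (Subtype.ext
          (hHab _ (Subgroup.mem_subgroupOf.mp a.2) _ (Subgroup.mem_subgroupOf.mp b.2))))
      obtain ⟨k, hk, hkconj⟩ := sz_conj K hKcop (H.subgroupOf C)
        ((MulAut.conj g • H).subgroupOf C) hKc hKc2 (Or.inr inferInstance)
      have hconj : MulAut.conj (k : G) • H = MulAut.conj g • H :=
        conj_of_subgroupOf hHC hgHC k hkconj
      have hkg : (k : G)⁻¹ * g ∈ Subgroup.normalizer (H : Set G) := by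
        apply mem_normalizer_of_conj_smul_eq
        rw [conj_mul_smul, ← hconj, ← conj_mul_smul, inv_mul_cancel, map_one, one_smul]
      have h1 := Subgroup.mem_centralizer_iff.mp (h hkg) x hx
      have h2 : (g * x * g⁻¹) * (k : G) = (k : G) * (g * x * g⁻¹) := (hCmem _).mp k.2
      calc x = (k : G)⁻¹ * g * x * ((k : G)⁻¹ * g)⁻¹ := by rw [← h1]; group
        _ = (k : G)⁻¹ * ((g * x * g⁻¹) * (k : G)) := by group
        _ = g * x * g⁻¹ := by rw [h2]; group

/-- A Hall subgroup that is central in its normalizer has a normal complement. -/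
theorem result {G : Type*} [Group G] [Finite G] (H : Subgroup G) (hHall : Nat.Coprime (Nat.card H) H.index) (h : Subgroup.normalizer (H : Set G) ≤ Subgroup.centralizer (H : Set G)) : ∃ N : Subgroup G, N.Normal ∧ N.IsComplement' H := by
  exact aux _ G le_rfl H hHall h

end Cfsg.Agent.S0087
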