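import Cfsg.Statements.S0089
import Cfsg.Agent.S0088
import Mathlib

set_option autoImplicit false
open Pointwise
open Cfsg

namespace Cfsg.Agent.S0089

/-- When all Sylow subgroups are abelian, the derived subgroup meets the centre trivially. -/
theorem result {G : Type*} [Group G] [Finite G] (h : ∀ p : ℕ, p.Prime → ∀ P : Sylow p G, IsMulCommutative P) : commutator G ⊓ Subgroup.center G = ⊥ := by
  rw [eq_bot_iff]
  rintro z ⟨hzc, hzZ⟩
  rw [Subgroup.mem_bot]
  by_contra hz1
  have h1 : orderOf z ≠ 1 := fun h => hz1 (orderOf_eq_one_iff.mp h)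
  obtain ⟨p, hp, hpz⟩ := Nat.exists_prime_and_dvd h1
  haveI : Fact p.Prime := ⟨hp⟩
  let P : Sylow p G := default
  haveI : IsMulCommutative (P : Subgroup G) := h p hp P
  have h2 : z ^ (P : Subgroup G).index = 1 :=
    Cfsg.Agent.S0088.pow_index_eq_one (P : Subgroup G) z hzZ hzc
  have h3 : orderOf z ∣ (P : Subgroup G).index := orderOf_dvd_of_pow_eq_one h2
  exact P.not_dvd_index (hpz.trans h3)

end Cfsg.Agent.S0089
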