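import Cfsg.Statements.S0094
import Mathlib
import Cfsg.Agent.S0012

set_option autoImplicit false
open Cfsg

namespace Cfsg.Agent.S0094

open scoped commutatorElement

/-- In a special p-group every central element has order dividing p. -/
theorem result {P : Type*} [Group P] [Finite P] {p : ℕ} [Fact p.Prime] (h : Cfsg.IsSpecial p P) (z : P) (hz : z ∈ Subgroup.center P) : z ^ p = 1 := by
  obtain ⟨hP, hfr, hcomm⟩ := h
  have hpow : ∀ x : P, x ^ p ∈ Subgroup.center P := by
    intro x
    rw [← hfr]
    exact (Cfsg.Agent.S0012.result p hP).2 x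
  have hcc : ∀ x y : P, ⁅x, y⁆ ∈ Subgroup.center P := by
    intro x y
    rw [← hcomm]
    exact Subgroup.commutator_mem_commutator (Subgroup.mem_top x) (Subgroup.mem_top y)
  have hcn : ∀ (x y : P) (n : ℕ), ⁅x ^ n, y⁆ = ⁅x, y⁆ ^ n := by
    intro x y n
    induction n with
    | zero => simp
    | succ n ih =>
      have hc := Subgroup.mem_center_iff.mp (hcc x y)
      have e : ⁅x ^ (n + 1), y⁆ = x ^ n * ⁅x, y⁆ * (x ^ n)⁻¹ * ⁅x ^ n, y⁆ := by
        rw [pow_succ]; simp only [commutatorElement_def]; group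
      rw [e, hc (x ^ n), mul_inv_cancel_right, ih, pow_succ']
  have key : ∀ w ∈ commutator P, w ∈ Subgroup.center P ∧ w ^ p = 1 := by
    intro w hw
    rw [commutator_eq_closure] at hw
    induction hw using Subgroup.closure_induction with
    | mem w hw =>
      obtain ⟨x, y, rfl⟩ := hw
      refine ⟨hcc x y, ?_⟩
      rw [← hcn, commutatorElement_eq_one_iff_mul_comm]
      exact (Subgroup.mem_center_iff.mp (hpow x) y).symm
    | one => exact ⟨Subgroup.one_mem _, one_pow p⟩
    | mul a b _ _ iha ihb =>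
      refine ⟨Subgroup.mul_mem _ iha.1 ihb.1, ?_⟩
      have hab : Commute a b := (Subgroup.mem_center_iff.mp iha.1 b).symm
      rw [hab.mul_pow, iha.2, ihb.2, one_mul]
    | inv a _ iha =>
      exact ⟨Subgroup.inv_mem _ iha.1, by rw [inv_pow, iha.2, inv_one]⟩
  exact (key z (hcomm ▸ hz)).2

end Cfsg.Agent.S0094
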