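import Cfsg.Statements.S0096
import Mathlib

set_option autoImplicit false
open Cfsg

namespace Cfsg.Agent.S0096

open scoped commutatorElement

/-- For odd p, in a p-group of class at most two the elements of order dividing p generate a subgroup of exponent dividing p. -/
theorem result {P : Type*} [Group P] [Finite P] {p : ℕ} [Fact p.Prime] (hp : p ≠ 2) (hP : IsPGroup p P) (h2 : ⁅commutator P, (⊤ : Subgroup P)⁆ = ⊥) (g : P) (hg : g ∈ Subgroup.closure {x : P | x ^ p = 1}) : g ^ p = 1 := by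
  have hcc : ∀ x y z : P, Commute ⁅x, y⁆ z := by
    intro x y z
    have h1 : ⁅⁅x, y⁆, z⁆ ∈ ⁅commutator P, (⊤ : Subgroup P)⁆ :=
      Subgroup.commutator_mem_commutator
        (Subgroup.commutator_mem_commutator (Subgroup.mem_top x) (Subgroup.mem_top y))
        (Subgroup.mem_top z)
    rw [h2, Subgroup.mem_bot, commutatorElement_eq_one_iff_mul_comm] at h1
    exact h1
  have h3 : ∀ (x y : P) (n : ℕ), y ^ n * x = ⁅y, x⁆ ^ n * x * y ^ n := by
    intro x y n
    obtain ⟨c, hc⟩ : ∃ c : P, c = ⁅y, x⁆ := ⟨_, rfl⟩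
    have hcen : ∀ z : P, Commute c z := fun z => hc ▸ hcc y x z
    have e : y * x = c * x * y := by rw [hc, commutatorElement_def]; group
    rw [← hc]
    induction n with
    | zero => simp
    | succ n ih =>
      have hyc : y * c ^ n = c ^ n * y := ((hcen y).pow_left n).eq.symm
      calc y ^ (n + 1) * x = y * (y ^ n * x) := by rw [pow_succ', mul_assoc]
        _ = y * (c ^ n * x * y ^ n) := by rw [ih]
        _ = (y * c ^ n) * x * y ^ n := by simp only [mul_assoc]
        _ = (c ^ n * y) * x * y ^ n := by rw [hyc]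
        _ = c ^ n * (y * x) * y ^ n := by simp only [mul_assoc]
        _ = c ^ n * (c * x * y) * y ^ n := by rw [e]
        _ = (c ^ n * c) * x * (y * y ^ n) := by simp only [mul_assoc]
        _ = c ^ (n + 1) * x * y ^ (n + 1) := by rw [← pow_succ, ← pow_succ']
  have h4 : ∀ (x y : P) (n : ℕ), (x * y) ^ n = x ^ n * y ^ n * ⁅y, x⁆ ^ (n.choose 2) := by
    intro x y n
    have h3' := h3 x y
    obtain ⟨c, hc⟩ : ∃ c : P, c = ⁅y, x⁆ := ⟨_, rfl⟩
    have hcen : ∀ z : P, Commute c z := fun z => hc ▸ hcc y x z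
    rw [← hc] at h3' ⊢
    induction n with
    | zero => simp
    | succ n ih =>
      have hcx : c ^ (n.choose 2) * (x * y) = (x * y) * c ^ (n.choose 2) :=
        ((hcen (x * y)).pow_left _).eq
      have hcx2 : x ^ n * c ^ n = c ^ n * x ^ n := ((hcen (x ^ n)).pow_left n).eq.symm
      have hcy : (x ^ (n + 1) * y ^ (n + 1)) * c ^ n = c ^ n * (x ^ (n + 1) * y ^ (n + 1)) :=
        ((hcen _).pow_left n).eq.symm
      calc (x * y) ^ (n + 1) = (x * y) ^ n * (x * y) := pow_succ _ _
        _ = x ^ n * y ^ n * c ^ (n.choose 2) * (x * y) := by rw [ih]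
        _ = x ^ n * y ^ n * (c ^ (n.choose 2) * (x * y)) := by simp only [mul_assoc]
        _ = x ^ n * y ^ n * ((x * y) * c ^ (n.choose 2)) := by rw [hcx]
        _ = x ^ n * (y ^ n * x) * y * c ^ (n.choose 2) := by simp only [mul_assoc]
        _ = x ^ n * (c ^ n * x * y ^ n) * y * c ^ (n.choose 2) := by rw [h3']
        _ = (x ^ n * c ^ n) * x * y ^ n * y * c ^ (n.choose 2) := by simp only [mul_assoc]
        _ = (c ^ n * x ^ n) * x * y ^ n * y * c ^ (n.choose 2) := by rw [hcx2]
        _ = c ^ n * ((x ^ n * x) * (y ^ n * y)) * c ^ (n.choose 2) := by simp only [mul_assoc]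
        _ = c ^ n * (x ^ (n + 1) * y ^ (n + 1)) * c ^ (n.choose 2) := by
            rw [← pow_succ, ← pow_succ]
        _ = (x ^ (n + 1) * y ^ (n + 1)) * c ^ n * c ^ (n.choose 2) := by rw [hcy]
        _ = x ^ (n + 1) * y ^ (n + 1) * c ^ ((n + 1).choose 2) := by
            rw [mul_assoc, ← pow_add, Nat.choose_succ_succ' n 1, Nat.choose_one_right]
  have hp3 : 2 < p := lt_of_le_of_ne (Fact.out : p.Prime).two_le (Ne.symm hp)
  obtain ⟨m, hm⟩ := Nat.Prime.dvd_choose_self (Fact.out : p.Prime) (by norm_num : (2 : ℕ) ≠ 0) hp3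
  induction hg using Subgroup.closure_induction with
  | mem w hw => exact hw
  | one => exact one_pow p
  | mul a b _ _ iha ihb =>
    have h5 := h3 a b p
    rw [ihb, one_mul, mul_one] at h5
    have h6 : ⁅b, a⁆ ^ p = 1 := by
      have h7 : ⁅b, a⁆ ^ p * a = 1 * a := by rw [one_mul]; exact h5.symm
      exact mul_right_cancel h7
    rw [h4, iha, ihb, one_mul, one_mul, hm, pow_mul, h6, one_pow]
  | inv a _ iha => rw [inv_pow, iha, inv_one]

end Cfsg.Agent.S0096
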