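import Mathlib
import Cfsg.Statements.S0097
import Cfsg.Agent.S0096
import Cfsg.Agent.S0012
import Cfsg.Agent.Lib.Helper11.OmegaOne

set_option autoImplicit false
open Cfsg

namespace Cfsg.Agent.S0097

open scoped commutatorElement



/-- For odd p and E extraspecial, the subgroup generated by the elements of order dividing p has exponent dividing p and index at most p. -/
theorem result {E : Type*} [Group E] [Finite E] {p : ℕ} [Fact p.Prime] (hp : p ≠ 2) (h : Cfsg.IsExtraspecial p E) : (Subgroup.closure {x : E | x ^ p = 1}).index ≤ p ∧ ∀ g ∈ Subgroup.closure {x : E | x ^ p = 1}, g ^ p = 1 := by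
  classical
  obtain ⟨⟨hP, hfr, hcomm⟩, hZ⟩ := h
  have hpp : p.Prime := Fact.out
  have h2 : ⁅commutator E, (⊤ : Subgroup E)⁆ = ⊥ := by
    rw [Subgroup.commutator_eq_bot_iff_le_centralizer, hcomm, Subgroup.coe_top,
      Subgroup.centralizer_univ]
  refine ⟨?_, fun g hg => Cfsg.Agent.S0096.result hp hP h2 g hg⟩
  -- central elements have p-th power one
  have hzp : ∀ z ∈ Subgroup.center E, z ^ p = 1 := by
    intro z hz
    have := pow_card_eq_one' (G := Subgroup.center E) (x := ⟨z, hz⟩)
    rw [hZ] at this
    exact congrArg Subtype.val this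
  have hpowmem : ∀ x : E, x ^ p ∈ Subgroup.center E := by
    intro x
    rw [← hfr]
    exact (Cfsg.Agent.S0012.result p hP).2 x
  have hcc : ∀ x y : E, ⁅y, x⁆ ∈ Subgroup.center E := by
    intro x y
    rw [← hcomm, commutator_def]
    exact Subgroup.commutator_mem_commutator (Subgroup.mem_top _) (Subgroup.mem_top _)
  have hmul : ∀ x y : E, (x * y) ^ p = x ^ p * y ^ p := by
    intro x y
    have hc := hcc x y
    rw [Cfsg.Agent.Lib.Helper11.mul_pow_class_two x y (Subgroup.mem_center_iff.mp hc x).symm
      (Subgroup.mem_center_iff.mp hc y).symm p]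
    obtain ⟨k, hk⟩ := hpp.eq_one_or_self_of_dvd 2 |> fun _ => (Nat.Prime.odd_of_ne_two hpp hp)
    have e : p * (p - 1) / 2 = p * k := by
      rw [hk]
      have : (2 * k + 1) * (2 * k + 1 - 1) = 2 * ((2 * k + 1) * k) := by
        rw [Nat.add_sub_cancel]
        ring
      rw [this, Nat.mul_div_cancel_left _ (by norm_num : 0 < 2)]
    rw [e, pow_mul, hzp _ hc, one_pow, mul_one]
  let f : E →* Subgroup.center E :=
    { toFun := fun x => ⟨x ^ p, hpowmem x⟩
      map_one' := Subtype.ext (one_pow p)
      map_mul' := fun x y => Subtype.ext (hmul x y) }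
  have hker : f.ker ≤ Subgroup.closure {x : E | x ^ p = 1} := by
    intro x hx
    apply Subgroup.subset_closure
    have := MonoidHom.mem_ker.mp hx
    exact congrArg Subtype.val this
  have h3 : (Subgroup.closure {x : E | x ^ p = 1}).index ∣ f.ker.index :=
    Subgroup.index_dvd_of_le hker
  have h4 : f.ker.index = Nat.card f.range := Subgroup.index_ker f
  have h5 : Nat.card f.range ≤ p := by
    rw [← hZ]
    exact Nat.card_le_card_of_injective _ (Subgroup.subtype_injective f.range)
  have h6 : 0 < Nat.card f.range := Nat.card_pos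
  rw [h4] at h3
  exact (Nat.le_of_dvd h6 h3).trans h5

end Cfsg.Agent.S0097
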