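import Mathlib
import Cfsg.Statements.S0099
import Cfsg.Agent.Lib.Helper2.ExtraIso2

set_option autoImplicit false
open Cfsg

namespace Cfsg.Agent.S0099

open Cfsg.Agent.Lib.Helper2

/-- Among three extraspecial 2-groups of equal order, some two are isomorphic. -/
theorem result {E₁ : Type*} {E₂ : Type*} {E₃ : Type*} [Group E₁] [Group E₂] [Group E₃] [Finite E₁] [Finite E₂] [Finite E₃] (h₁ : Cfsg.IsExtraspecial 2 E₁) (h₂ : Cfsg.IsExtraspecial 2 E₂) (h₃ : Cfsg.IsExtraspecial 2 E₃) (h12 : Nat.card E₁ = Nat.card E₂) (h23 : Nat.card E₂ = Nat.card E₃) : Nonempty (E₁ ≃* E₂) ∨ Nonempty (E₂ ≃* E₃) ∨ Nonempty (E₁ ≃* E₃) := by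
  obtain ⟨z₁, w₁⟩ := wg_of_extraspecial h₁
  obtain ⟨z₂, w₂⟩ := wg_of_extraspecial h₂
  obtain ⟨z₃, w₃⟩ := wg_of_extraspecial h₃
  exact wg_two_of_three (Nat.card E₁) E₁ E₂ E₃ z₁ z₂ z₃ w₁ w₂ w₃ h12 h23 le_rfl

end Cfsg.Agent.S0099
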