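import Mathlib
import Cfsg.Statements.S0102
import Cfsg.Agent.Lib.Helper2.TransferCenter
import Cfsg.Agent.Lib.Helper2.KleinSylow

set_option autoImplicit false
open Cfsg

namespace Cfsg.Agent.S0102

open Cfsg.Agent.Lib.Helper2


/-- A finite perfect group with cyclic Sylow p-subgroups has no perfect central extension whose kernel has order divisible by p. -/
theorem result {G : Type*} {H : Type*} [Group G] [Group H] [Finite G] [Finite H] (hG : commutator G = ⊤) {p : ℕ} [Fact p.Prime] (hcyc : ∀ P : Sylow p G, IsCyclic P) (σ : H →* G) (hσ : Function.Surjective σ) (hz : σ.ker ≤ Subgroup.center H) (hH : commutator H = ⊤) : ¬ p ∣ Nat.card σ.ker := by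
  classical
  intro hdvd
  obtain ⟨P⟩ : Nonempty (Sylow p H) := inferInstance
  have hPcomm : ∀ a b : (P : Subgroup H), a * b = b * a := by
    obtain ⟨Q, hQ⟩ := (P.isPGroup'.map σ).exists_le_sylow
    have hcycQ := hcyc Q
    let f : (P : Subgroup H) →* (Q : Subgroup G) :=
      (σ.comp (P : Subgroup H).subtype).codRestrict (Q : Subgroup G)
        (fun x => hQ (Subgroup.mem_map_of_mem σ x.2))
    have hf : f.ker ≤ Subgroup.center (P : Subgroup H) := by
      intro x hx
      have hx' : σ (x : H) = 1 := by
        have := MonoidHom.mem_ker.mp hx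
        exact congrArg Subtype.val this
      have hxc : (x : H) ∈ Subgroup.center H := hz (MonoidHom.mem_ker.mpr hx')
      rw [Subgroup.mem_center_iff]
      intro y
      exact Subtype.ext (Subgroup.mem_center_iff.mp hxc y)
    exact commutative_of_cyclic_center_quotient f hf
  have hcomP : commutator (P : Subgroup H) = ⊥ := by
    rw [commutator_eq_bot_iff_center_eq_top, eq_top_iff]
    intro x _
    rw [Subgroup.mem_center_iff]
    intro y
    exact hPcomm y x
  obtain ⟨z, hzo'⟩ := exists_prime_orderOf_dvd_card' p hdvd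
  have hzo : orderOf (z : H) = p := by
    rw [Subgroup.orderOf_coe]
    exact hzo'
  obtain ⟨g, hg⟩ := exists_conj_mem_sylow P (z : H) 1 (by rw [hzo, pow_one])
  have hzc : (z : H) ∈ Subgroup.center H := hz z.2
  have hzP : (z : H) ∈ (P : Subgroup H) := by
    have : g * (z : H) * g⁻¹ = z := by
      rw [Subgroup.mem_center_iff.mp hzc g, mul_inv_cancel_right]
    rwa [this] at hg
  have h1 := center_inf_sylow_le_commutator P hzc (by rw [hH]; trivial) hzP
  rw [hcomP, Subgroup.mem_bot] at h1
  have h2 : (z : H) = 1 := congrArg Subtype.val h1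
  rw [h2, orderOf_one] at hzo
  exact (Fact.out : p.Prime).one_lt.ne hzo

end Cfsg.Agent.S0102
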