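import Cfsg.Statements.S0103

set_option autoImplicit false
open Cfsg

namespace Cfsg.Agent.S0103

/-- If a Sylow p-subgroup P intersects every distinct conjugate trivially, then its normalizer controls fusion in P. -/
theorem result {G : Type*} [Group G] [Finite G] {p : ℕ} [Fact p.Prime] (P : Sylow p G) (hTI : ∀ g : G, (P : Subgroup G).map (MulAut.conj g).toMonoidHom ≠ (P : Subgroup G) → (P : Subgroup G) ⊓ (P : Subgroup G).map (MulAut.conj g).toMonoidHom = ⊥) (x y : G) (hx : x ∈ P) (hy : y ∈ P) (hc : ∃ g : G, g * x * g⁻¹ = y) : ∃ n ∈ Subgroup.normalizer (P : Set G), n * x * n⁻¹ = y := by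
  obtain ⟨g, hg⟩ := hc
  by_cases hx1 : x = 1
  · subst hx1
    refine ⟨1, Subgroup.one_mem _, ?_⟩
    simp at hg ⊢
    exact hg
  · by_cases hP : (P : Subgroup G).map (MulAut.conj g).toMonoidHom = (P : Subgroup G)
    · refine ⟨g, ?_, hg⟩
      exact Subgroup.mem_normalizer_iff_map_conj_eq.mpr hP
    · exfalso
      have h1 := hTI g hP
      have hy' : y ∈ (P : Subgroup G) ⊓ (P : Subgroup G).map (MulAut.conj g).toMonoidHom := by
        refine ⟨hy, ?_⟩
        rw [← hg]
        exact ⟨x, hx, by simp [MulAut.conj_apply]⟩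
      rw [h1] at hy'
      have : y = 1 := by simpa using hy'
      rw [this] at hg
      apply hx1
      have : x = g⁻¹ * 1 * g := by rw [← hg]; group
      simpa using this

end Cfsg.Agent.S0103
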