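import Mathlib
import Cfsg.Statements.S0104

set_option autoImplicit false
open Cfsg

namespace Cfsg.Agent.S0104

theorem map_conj_eq_iff {G : Type*} [Group G] (Z : Subgroup G) (g : G) :
    Z.map (MulAut.conj g).toMonoidHom = Z ↔ g ∈ Subgroup.normalizer (Z : Set G) :=
  Subgroup.mem_normalizer_iff_map_conj_eq.symm

/-- A subgroup Z of a Sylow p-subgroup P that is normalized by N_G(P) is weakly closed in P exactly when it is normal in every Sylow p-subgroup containing it. -/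
theorem result {G : Type*} [Group G] [Finite G] {p : ℕ} [Fact p.Prime] (P : Sylow p G) (Z : Subgroup G) (hZP : Z ≤ (P : Subgroup G)) (hZN : Subgroup.normalizer (P : Set G) ≤ Subgroup.normalizer (Z : Set G)) : Cfsg.IsWeaklyClosed Z P ↔ ∀ R : Sylow p G, Z ≤ (R : Subgroup G) → (R : Subgroup G) ≤ Subgroup.normalizer (Z : Set G) := by
  have hPN : (P : Subgroup G) ≤ Subgroup.normalizer (Z : Set G) :=
    le_trans Subgroup.le_normalizer hZN
  constructor
  · rintro ⟨_, hwc⟩ R hZR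
    obtain ⟨g, rfl⟩ := MulAction.exists_smul_eq G P R
    -- Z ≤ g P g⁻¹, so g⁻¹ Z g ≤ P
    have h1 : Z.map (MulAut.conj g⁻¹).toMonoidHom ≤ (P : Subgroup G) := by
      rintro _ ⟨z, hz, rfl⟩
      have hz' : z ∈ ((g • P : Sylow p G) : Subgroup G) := hZR hz
      rw [Sylow.coe_subgroup_smul] at hz'
      obtain ⟨q, hq, hqz⟩ := hz'
      have hqz' : g * q * g⁻¹ = z := hqz
      change g⁻¹ * z * g⁻¹⁻¹ ∈ (P : Subgroup G)
      rw [← hqz']
      have : g⁻¹ * (g * q * g⁻¹) * g⁻¹⁻¹ = q := by group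
      rw [this]; exact hq
    have h2 := hwc g⁻¹ h1
    have h3 : g⁻¹ ∈ Subgroup.normalizer (Z : Set G) := (map_conj_eq_iff Z g⁻¹).mp h2
    have h4 : g ∈ Subgroup.normalizer (Z : Set G) := by
      have := Subgroup.inv_mem _ h3
      rwa [inv_inv] at this
    intro r hr
    rw [Sylow.coe_subgroup_smul] at hr
    obtain ⟨q, hq, hqr⟩ := hr
    have hqr' : g * q * g⁻¹ = r := hqr
    rw [← hqr']
    exact Subgroup.mul_mem _ (Subgroup.mul_mem _ h4 (hPN hq)) (Subgroup.inv_mem _ h4)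
  · intro hall
    refine ⟨hZP, ?_⟩
    intro g hg
    rw [map_conj_eq_iff]
    -- Z ≤ g⁻¹ P g
    have hZR : Z ≤ ((g⁻¹ • P : Sylow p G) : Subgroup G) := by
      intro z hz
      rw [Sylow.coe_subgroup_smul]
      refine ⟨g * z * g⁻¹, hg ⟨z, hz, rfl⟩, ?_⟩
      change g⁻¹ * (g * z * g⁻¹) * g⁻¹⁻¹ = z
      group
    have hRN := hall _ hZR
    obtain ⟨n, hn⟩ := MulAction.exists_smul_eq (Subgroup.normalizer (Z : Set G))
      ((g⁻¹ • P).subtype hRN) (P.subtype hPN)
    simp_rw [Sylow.smul_subtype, Subgroup.smul_def, smul_smul] at hn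
    have h5 : (n : G) * g⁻¹ ∈ Subgroup.normalizer (P : Set G) :=
      Sylow.smul_eq_iff_mem_normalizer.mp (Sylow.subtype_injective hn)
    have h6 : (n : G) * g⁻¹ ∈ Subgroup.normalizer (Z : Set G) := hZN h5
    have h7 : g⁻¹ ∈ Subgroup.normalizer (Z : Set G) := by
      have := Subgroup.mul_mem _ (Subgroup.inv_mem _ n.2) h6
      rwa [inv_mul_cancel_left] at this
    have := Subgroup.inv_mem _ h7
    rwa [inv_inv] at this

end Cfsg.Agent.S0104
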