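import Mathlib
import Cfsg.Statements.S0105

set_option autoImplicit false
open Cfsg

namespace Cfsg.Agent.S0105

open scoped IsMulCommutative

/-- With an abelian Sylow p-subgroup P, some quotient of G is isomorphic to the part of P central in N_G(P). -/
theorem result {G : Type*} [Group G] [Finite G] {p : ℕ} [Fact p.Prime] (P : Sylow p G) (hP : IsMulCommutative P) : ∃ (N : Subgroup G) (hN : N.Normal), Nonempty (G ⧸ N ≃* ((P : Subgroup G) ⊓ Subgroup.centralizer (Subgroup.normalizer (P : Set G) : Set G) : Subgroup G)) := by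
  classical
  have hPc : IsMulCommutative (P : Subgroup G) := hP
  have hcomm : ∀ a ∈ (P : Subgroup G), ∀ b ∈ (P : Subgroup G), a * b = b * a := by
    intro a ha b hb
    have := hPc.is_comm.comm (⟨a, ha⟩ : (P : Subgroup G)) ⟨b, hb⟩
    exact congrArg Subtype.val this
  have hPN : (P : Subgroup G) ≤ Subgroup.normalizer (P : Set G) := Subgroup.le_normalizer
  have hconj : ∀ y ∈ Subgroup.normalizer (P : Set G), ∀ x ∈ (P : Subgroup G),
      y * x * y⁻¹ ∈ (P : Subgroup G) :=
    fun y hy x hx => (Subgroup.mem_normalizer_iff.mp hy x).mp hx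
  have hnormal : ((P : Subgroup G).subgroupOf (Subgroup.normalizer (P : Set G))).Normal :=
    Subgroup.normal_in_normalizer
  generalize hNn : Subgroup.normalizer (P : Set G) = Nn at hPN hconj hnormal ⊢
  let c : Nn → ↥(P : Subgroup G) → ↥(P : Subgroup G) :=
    fun y x => ⟨(y : G) * x * (y : G)⁻¹, hconj y y.2 x x.2⟩
  have hc_mul : ∀ y a b, c y (a * b) = c y a * c y b := by
    intro y a b
    apply Subtype.ext
    simp [c, mul_assoc]
  have hc_one : ∀ y, c y 1 = 1 := by
    intro y
    apply Subtype.ext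
    simp [c]
  have hc_c : ∀ y y' x, c y (c y' x) = c (y * y') x := by
    intro y y' x
    apply Subtype.ext
    simp [c, mul_assoc]
  have hc_rep : ∀ y y' : Nn, (QuotientGroup.mk y : Nn ⧸ (P : Subgroup G).subgroupOf Nn)
      = QuotientGroup.mk y' → c y = c y' := by
    intro y y' h
    have h1 : y⁻¹ * y' ∈ (P : Subgroup G).subgroupOf Nn := QuotientGroup.eq.mp h
    have h2 : (y : G)⁻¹ * (y' : G) ∈ (P : Subgroup G) := by
      simpa [Subgroup.mem_subgroupOf] using h1
    funext x
    apply Subtype.ext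
    show (y : G) * x * (y : G)⁻¹ = (y' : G) * x * (y' : G)⁻¹
    have h3 := hcomm _ h2 x x.2
    calc (y : G) * x * (y : G)⁻¹
        = y * (x * ((y : G)⁻¹ * y')) * ((y : G)⁻¹ * y')⁻¹ * (y : G)⁻¹ := by group
      _ = y * (((y : G)⁻¹ * y') * x) * ((y : G)⁻¹ * y')⁻¹ * (y : G)⁻¹ := by rw [h3]
      _ = (y' : G) * x * (y' : G)⁻¹ := by group
  have := Fintype.ofFinite (Nn ⧸ (P : Subgroup G).subgroupOf Nn)
  let ν₀ : ↥(P : Subgroup G) → ↥(P : Subgroup G) :=
    fun x => ∏ q : Nn ⧸ (P : Subgroup G).subgroupOf Nn, c q.out x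
  have hν_mul : ∀ a b, ν₀ (a * b) = ν₀ a * ν₀ b := by
    intro a b
    show ∏ q : Nn ⧸ (P : Subgroup G).subgroupOf Nn, c q.out (a * b) = _
    simp only [hc_mul]
    exact Finset.prod_mul_distrib
  have hν_one : ν₀ 1 = 1 := by
    show ∏ q : Nn ⧸ (P : Subgroup G).subgroupOf Nn, c q.out 1 = _
    simp only [hc_one]
    exact Finset.prod_const_one
  let cHom : Nn → (↥(P : Subgroup G) →* ↥(P : Subgroup G)) := fun y =>
    { toFun := c y
      map_one' := hc_one y
      map_mul' := hc_mul y }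
  have hinv1 : ∀ (n : Nn) x, c n (ν₀ x) = ν₀ x := by
    intro n x
    have h1 : c n (ν₀ x) = ∏ q : Nn ⧸ (P : Subgroup G).subgroupOf Nn, c n (c q.out x) :=
      map_prod (cHom n) _ _
    rw [h1]
    have h2 : ∀ q : Nn ⧸ (P : Subgroup G).subgroupOf Nn,
        c n (c q.out x) = c ((QuotientGroup.mk n * q : Nn ⧸ (P : Subgroup G).subgroupOf Nn).out) x := by
      intro q
      rw [hc_c]
      have : c (n * q.out) = c ((QuotientGroup.mk n * q : Nn ⧸ (P : Subgroup G).subgroupOf Nn).out) := by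
        apply hc_rep
        rw [QuotientGroup.out_eq', QuotientGroup.mk_mul, QuotientGroup.out_eq']
      rw [this]
    simp only [h2]
    exact Equiv.prod_comp (Equiv.mulLeft (QuotientGroup.mk n : Nn ⧸ (P : Subgroup G).subgroupOf Nn))
      (fun q => c q.out x)
  have hinv2 : ∀ (n : Nn) x, ν₀ (c n x) = ν₀ x := by
    intro n x
    show ∏ q : Nn ⧸ (P : Subgroup G).subgroupOf Nn, c q.out (c n x) = _
    have h2 : ∀ q : Nn ⧸ (P : Subgroup G).subgroupOf Nn,
        c q.out (c n x) = c ((q * QuotientGroup.mk n : Nn ⧸ (P : Subgroup G).subgroupOf Nn).out) x := by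
      intro q
      rw [hc_c]
      have : c (q.out * n) = c ((q * QuotientGroup.mk n : Nn ⧸ (P : Subgroup G).subgroupOf Nn).out) := by
        apply hc_rep
        rw [QuotientGroup.out_eq', QuotientGroup.mk_mul, QuotientGroup.out_eq']
      rw [this]
    simp only [h2]
    exact Equiv.prod_comp (Equiv.mulRight (QuotientGroup.mk n : Nn ⧸ (P : Subgroup G).subgroupOf Nn))
      (fun q => c q.out x)
  have hcent : ∀ x, ((ν₀ x : (P : Subgroup G)) : G) ∈ Subgroup.centralizer (Nn : Set G) := by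
    intro x
    rw [Subgroup.mem_centralizer_iff]
    intro n hn
    have h1 := congrArg Subtype.val (hinv1 ⟨n, hn⟩ x)
    have h2 : n * ((ν₀ x : (P : Subgroup G)) : G) * n⁻¹ = ((ν₀ x : (P : Subgroup G)) : G) := h1
    calc n * ((ν₀ x : (P : Subgroup G)) : G)
        = (n * ((ν₀ x : (P : Subgroup G)) : G) * n⁻¹) * n := by group
      _ = ((ν₀ x : (P : Subgroup G)) : G) * n := by rw [h2]
  let ν : ↥(P : Subgroup G) →* ↥((P : Subgroup G) ⊓ Subgroup.centralizer (Nn : Set G) : Subgroup G) :=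
    { toFun := fun x => ⟨((ν₀ x : (P : Subgroup G)) : G), ⟨(ν₀ x).2, hcent x⟩⟩
      map_one' := by
        apply Subtype.ext
        show ((ν₀ 1 : (P : Subgroup G)) : G) = 1
        rw [hν_one]
        rfl
      map_mul' := fun a b => by
        apply Subtype.ext
        show ((ν₀ (a * b) : (P : Subgroup G)) : G) = ((ν₀ a : (P : Subgroup G)) : G) * ((ν₀ b : (P : Subgroup G)) : G)
        rw [hν_mul]
        rfl }
  -- the index
  have hm : ¬ p ∣ Fintype.card (Nn ⧸ (P : Subgroup G).subgroupOf Nn) := by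
    rw [← Nat.card_eq_fintype_card]
    have h1 : Nat.card (Nn ⧸ (P : Subgroup G).subgroupOf Nn) = (P : Subgroup G).relIndex Nn := rfl
    rw [h1]
    intro h
    exact P.not_dvd_index (dvd_trans h (Subgroup.relIndex_dvd_index_of_le hPN))
  -- surjectivity
  have hZ : IsPGroup p ((P : Subgroup G) ⊓ Subgroup.centralizer (Nn : Set G) : Subgroup G) :=
    P.2.to_le inf_le_left
  have hsurj : Function.Surjective ν := by
    intro z
    obtain ⟨w, hw⟩ := (hZ.powEquiv' hm).surjective z
    have hw' : w ^ Fintype.card (Nn ⧸ (P : Subgroup G).subgroupOf Nn) = z := hw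
    refine ⟨⟨(w : G), w.2.1⟩, ?_⟩
    apply Subtype.ext
    show ((ν₀ ⟨(w : G), w.2.1⟩ : (P : Subgroup G)) : G) = z
    have h1 : ∀ y : Nn, c y ⟨(w : G), w.2.1⟩ = ⟨(w : G), w.2.1⟩ := by
      intro y
      apply Subtype.ext
      show (y : G) * w * (y : G)⁻¹ = w
      have := (Subgroup.mem_centralizer_iff.mp w.2.2) y y.2
      rw [this]
      group
    have h2 : ν₀ ⟨(w : G), w.2.1⟩ = (⟨(w : G), w.2.1⟩ : (P : Subgroup G))
        ^ Fintype.card (Nn ⧸ (P : Subgroup G).subgroupOf Nn) := by
      show ∏ q : Nn ⧸ (P : Subgroup G).subgroupOf Nn, c q.out ⟨(w : G), w.2.1⟩ = _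
      simp only [h1]
      rw [Finset.prod_const, Finset.card_univ]
    rw [h2, ← hw']
    rfl
  -- kernel
  have hker : ν.ker = (P : Subgroup G).focalSubgroupOf := by
    apply le_antisymm
    · intro x hx
      have hx1 : ν₀ x = 1 := by
        have h1 : ν x = 1 := hx
        have h2 := congrArg Subtype.val h1
        exact Subtype.ext h2
      have hQ : IsPGroup p ((P : Subgroup G) ⧸ (P : Subgroup G).focalSubgroupOf) :=
        P.2.to_quotient _
      have h3 : (QuotientGroup.mk' (P : Subgroup G).focalSubgroupOf) (ν₀ x)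
          = ((QuotientGroup.mk' (P : Subgroup G).focalSubgroupOf) x)
            ^ Fintype.card (Nn ⧸ (P : Subgroup G).subgroupOf Nn) := by
        have h4 : (QuotientGroup.mk' (P : Subgroup G).focalSubgroupOf) (ν₀ x)
            = ∏ q : Nn ⧸ (P : Subgroup G).subgroupOf Nn,
              (QuotientGroup.mk' (P : Subgroup G).focalSubgroupOf) (c q.out x) :=
          map_prod (QuotientGroup.mk' (P : Subgroup G).focalSubgroupOf) _ _
        rw [h4]
        have h5 : ∀ y : Nn, (QuotientGroup.mk' (P : Subgroup G).focalSubgroupOf) (c y x)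
            = (QuotientGroup.mk' (P : Subgroup G).focalSubgroupOf) x := by
          intro y
          have h6 : ((y : G)⁻¹)⁻¹ * (x : G) * (y : G)⁻¹ ∈ (P : Subgroup G) := by
            rw [inv_inv]
            exact (c y x).2
          have h7 := Subgroup.focalSubgroupOf.mk'_conj_eq (P : Subgroup G) x.2 (y : G)⁻¹ h6
          have h8 : c y x = ⟨((y : G)⁻¹)⁻¹ * (x : G) * (y : G)⁻¹, h6⟩ := by
            apply Subtype.ext
            simp [c]
          rw [h8]
          exact h7
        simp only [h5]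
        rw [Finset.prod_const, Finset.card_univ]
      rw [hx1, map_one] at h3
      have h9 : (hQ.powEquiv' hm) ((QuotientGroup.mk' (P : Subgroup G).focalSubgroupOf) x)
          = (hQ.powEquiv' hm) 1 := by
        show ((QuotientGroup.mk' (P : Subgroup G).focalSubgroupOf) x)
            ^ Fintype.card (Nn ⧸ (P : Subgroup G).subgroupOf Nn)
          = (1 : (P : Subgroup G) ⧸ (P : Subgroup G).focalSubgroupOf)
            ^ Fintype.card (Nn ⧸ (P : Subgroup G).subgroupOf Nn)
        rw [← h3, one_pow]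
      have h10 := (hQ.powEquiv' hm).injective h9
      exact (QuotientGroup.eq_one_iff x).mp h10
    · rw [Subgroup.focalSubgroupOf_eq_closure, Subgroup.closure_le]
      rintro g ⟨x, hx, u, hg⟩
      show ν g = 1
      apply Subtype.ext
      show ((ν₀ g : (P : Subgroup G)) : G) = 1
      have hg' : (g : G) = x * u * x⁻¹ * u⁻¹ := hg
      have h1 : (u⁻¹)⁻¹ * x⁻¹ * u⁻¹ ∈ (P : Subgroup G) := by
        have : (u⁻¹)⁻¹ * x⁻¹ * u⁻¹ = x⁻¹ * (g : G) := by
          rw [hg']
          group
        rw [this]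
        exact (P : Subgroup G).mul_mem ((P : Subgroup G).inv_mem hx) g.2
      obtain ⟨n, hn, hn'⟩ := P.conj_eq_normalizer_conj_of_mem x⁻¹ u⁻¹
        ((P : Subgroup G).inv_mem hx) h1
      rw [hNn] at hn
      have h2 : g = (⟨x, hx⟩ : (P : Subgroup G)) * c ⟨n⁻¹, Nn.inv_mem hn⟩ (⟨x, hx⟩ : (P : Subgroup G))⁻¹ := by
        apply Subtype.ext
        show (g : G) = x * (n⁻¹ * x⁻¹ * (n⁻¹)⁻¹)
        rw [inv_inv, ← hn', hg']
        group
      rw [h2, hν_mul, hinv2, ← hν_mul, mul_inv_cancel, hν_one]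
      rfl
  have e1 := Subgroup.transferFocal.quotientKerMulEquivQuotientFocalSubroupOf P
  have e2 := QuotientGroup.quotientKerEquivOfSurjective ν hsurj
  have e3 : (P : Subgroup G) ⧸ (P : Subgroup G).focalSubgroupOf ≃* (P : Subgroup G) ⧸ ν.ker :=
    QuotientGroup.quotientMulEquivOfEq hker.symm
  exact ⟨_, MonoidHom.normal_ker _, ⟨e1.trans (e3.trans e2)⟩⟩

end Cfsg.Agent.S0105
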