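import Mathlib
import Cfsg.Statements.S0110
import Cfsg.Agent.Lib.Helper2.HomCount

set_option autoImplicit false
open Cfsg

namespace Cfsg.Agent.S0110

open Cfsg.Agent.Lib.Helper2
open scoped commutatorElement IsMulCommutative


/-- In a p-group G, an extraspecial subgroup E with [G, E] ≤ Z(E) satisfies G = E C_G(E). -/
theorem result {G : Type*} [Group G] [Finite G] {p : ℕ} [Fact p.Prime] (hG : IsPGroup p G) (E : Subgroup G) (hE : Cfsg.IsExtraspecial p E) (h : ⁅(⊤ : Subgroup G), E⁆ ≤ E ⊓ Subgroup.centralizer (E : Set G)) : E ⊔ Subgroup.centralizer (E : Set G) = ⊤ := by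
  classical
  obtain ⟨⟨-, -, hcomm⟩, hZ⟩ := hE
  have hpp : p.Prime := Fact.out
  have hc1 : ∀ (g : G) (e : G), e ∈ E →
      g * e * g⁻¹ * e⁻¹ ∈ E ⊓ Subgroup.centralizer (E : Set G) := by
    intro g e he
    have := Subgroup.commutator_mem_commutator (Subgroup.mem_top g) he
    rw [commutatorElement_def] at this
    exact h this
  have hcen : ∀ (g : G) (e : G), e ∈ E → ∀ y ∈ E,
      y * (g * e * g⁻¹ * e⁻¹) = (g * e * g⁻¹ * e⁻¹) * y := by
    intro g e he y hy
    exact Subgroup.mem_centralizer_iff.mp (hc1 g e he).2 y hy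
  let c : G → (E →* Subgroup.center E) := fun g =>
    { toFun := fun e => ⟨⟨g * e * g⁻¹ * (e : G)⁻¹, (hc1 g e e.2).1⟩, by
        rw [Subgroup.mem_center_iff]
        intro y
        exact Subtype.ext (hcen g e e.2 y y.2)⟩
      map_one' := by
        apply Subtype.ext
        apply Subtype.ext
        simp
      map_mul' := by
        intro e₁ e₂
        apply Subtype.ext
        apply Subtype.ext
        change g * ((e₁ : G) * e₂) * g⁻¹ * ((e₁ : G) * e₂)⁻¹
          = (g * e₁ * g⁻¹ * (e₁ : G)⁻¹) * (g * e₂ * g⁻¹ * (e₂ : G)⁻¹)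
        have h2 := hcen g e₂ e₂.2 (e₁ : G)⁻¹ (inv_mem e₁.2)
        calc g * ((e₁ : G) * e₂) * g⁻¹ * ((e₁ : G) * e₂)⁻¹
            = g * e₁ * g⁻¹ * ((g * e₂ * g⁻¹ * (e₂ : G)⁻¹) * (e₁ : G)⁻¹) := by group
          _ = g * e₁ * g⁻¹ * ((e₁ : G)⁻¹ * (g * e₂ * g⁻¹ * (e₂ : G)⁻¹)) := by rw [h2]
          _ = (g * e₁ * g⁻¹ * (e₁ : G)⁻¹) * (g * e₂ * g⁻¹ * (e₂ : G)⁻¹) := by group }
  have hcval : ∀ (g : G) (e : E),
      (((c g e : Subgroup.center E) : E) : G) = g * e * g⁻¹ * (e : G)⁻¹ := fun g e => rfl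
  let Φ : E →* (E →* Subgroup.center E) :=
    { toFun := fun x => c x
      map_one' := by
        apply MonoidHom.ext
        intro e
        apply Subtype.ext
        apply Subtype.ext
        rw [hcval]
        simp
      map_mul' := by
        intro x y
        apply MonoidHom.ext
        intro e
        rw [MonoidHom.mul_apply]
        apply Subtype.ext
        apply Subtype.ext
        change ((x : G) * y) * e * ((x : G) * y)⁻¹ * (e : G)⁻¹
          = (x * e * (x : G)⁻¹ * (e : G)⁻¹) * (y * e * (y : G)⁻¹ * (e : G)⁻¹)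
        have h2 := hcen (y : G) e e.2 (x : G) x.2
        have hsw := congrArg (fun z : Subgroup.center E => ((z : E) : G))
          (mul_comm (c (y : G) e) (c (x : G) e))
        simp only [Subgroup.coe_mul, hcval] at hsw
        calc ((x : G) * y) * e * ((x : G) * y)⁻¹ * (e : G)⁻¹
            = x * (y * e * (y : G)⁻¹ * (e : G)⁻¹) * (e * (x : G)⁻¹ * (e : G)⁻¹) := by group
          _ = (y * e * (y : G)⁻¹ * (e : G)⁻¹) * x * (e * (x : G)⁻¹ * (e : G)⁻¹) := by rw [h2]
          _ = (y * e * (y : G)⁻¹ * (e : G)⁻¹) * (x * e * (x : G)⁻¹ * (e : G)⁻¹) := by group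
          _ = (x * e * (x : G)⁻¹ * (e : G)⁻¹) * (y * e * (y : G)⁻¹ * (e : G)⁻¹) := hsw }
  have hΦ : ∀ x : E, Φ x = c x := fun x => rfl
  have hker : Φ.ker = Subgroup.center E := by
    ext x
    rw [MonoidHom.mem_ker, Subgroup.mem_center_iff]
    constructor
    · intro hx e
      have h1 := congrArg (fun φ : E →* Subgroup.center E => (((φ e : Subgroup.center E) : E) : G)) hx
      simp only [hΦ, hcval] at h1
      apply Subtype.ext
      rw [Subgroup.coe_mul, Subgroup.coe_mul]
      have h2 : (x : G) * e * (x : G)⁻¹ * (e : G)⁻¹ = 1 := by simpa using h1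
      have h3 : (x : G) * e * (x : G)⁻¹ * (e : G)⁻¹ * (e * x) = e * x := by rw [h2, one_mul]
      rw [← h3]
      group
    · intro hx
      apply MonoidHom.ext
      intro e
      apply Subtype.ext
      apply Subtype.ext
      rw [hΦ, hcval]
      have h1 := congrArg Subtype.val (hx e)
      rw [Subgroup.coe_mul, Subgroup.coe_mul] at h1
      have : (x : G) * e * (x : G)⁻¹ * (e : G)⁻¹ = ((e : G) * x) * (x : G)⁻¹ * (e : G)⁻¹ := by
        rw [h1]
      rw [this]
      simp
  obtain ⟨hfin, hle⟩ := card_monoidHom_le_index_commutator (E := E) (Z := Subgroup.center E) hpp hZ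
  rw [hcomm] at hle
  have hrange : Φ.range = ⊤ := by
    apply Subgroup.eq_top_of_le_card
    rw [← Subgroup.index_ker, hker]
    exact hle
  rw [eq_top_iff]
  intro g _
  have hg : c g ∈ Φ.range := by
    rw [hrange]
    trivial
  obtain ⟨x, hx⟩ := hg
  have hxe : ∀ e : E, (x : G) * e * (x : G)⁻¹ = g * e * g⁻¹ := by
    intro e
    have h1 := congrArg (fun φ : E →* Subgroup.center E => (((φ e : Subgroup.center E) : E) : G)) hx
    simp only [hΦ, hcval] at h1
    exact mul_right_cancel h1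
  have hmem : (x : G)⁻¹ * g ∈ Subgroup.centralizer (E : Set G) := by
    rw [Subgroup.mem_centralizer_iff]
    intro e he
    have h1 := hxe ⟨e, he⟩
    calc e * ((x : G)⁻¹ * g) = (x : G)⁻¹ * ((x : G) * e * (x : G)⁻¹) * g := by group
      _ = (x : G)⁻¹ * (g * e * g⁻¹) * g := by rw [h1]
      _ = (x : G)⁻¹ * g * e := by group
  have e1 : g = (x : G) * ((x : G)⁻¹ * g) := by group
  rw [e1]
  exact mul_mem (Subgroup.mem_sup_left x.2) (Subgroup.mem_sup_right hmem)

end Cfsg.Agent.S0110
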