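import Mathlib
import Cfsg.Statements.S0123
import Cfsg.Agent.Lib.Helper2.ClassThree

set_option autoImplicit false
open Cfsg

namespace Cfsg.Agent.S0123

open Cfsg.Agent.Lib.Helper2

open scoped commutatorElement

/-- For a p-group of small class relative to p (class ≤ 2 with p odd, or class ≤ 3 with p > 3) whose derived subgroup is generated by elements of order dividing p, the p-th power map is multiplicative. -/
theorem result {R : Type*} [Group R] [Finite R] {p : ℕ} [Fact p.Prime] (hR : IsPGroup p R) (hcl : (p ≠ 2 ∧ ⁅commutator R, (⊤ : Subgroup R)⁆ = ⊥) ∨ (3 < p ∧ ⁅⁅commutator R, (⊤ : Subgroup R)⁆, (⊤ : Subgroup R)⁆ = ⊥)) (hder : commutator R ≤ Subgroup.closure {x : R | x ^ p = 1}) (x y : R) : (x * y) ^ p = x ^ p * y ^ p := by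
  have hpp : p.Prime := Fact.out
  have hzc : ⁅y, x⁆ ∈ commutator R := comm_mem_commutator y x
  rcases hcl with ⟨hp2, hcl⟩ | ⟨hp3, hcl⟩
  · -- class two
    have hcent : ∀ c ∈ commutator R, ∀ g : R, Commute c g := by
      intro c hc g
      rw [← commutatorElement_eq_one_iff_commute]
      have h1 : ⁅c, g⁆ ∈ ⁅commutator R, (⊤ : Subgroup R)⁆ :=
        Subgroup.commutator_mem_commutator hc (Subgroup.mem_top g)
      rw [hcl] at h1
      exact Subgroup.mem_bot.mp h1
    have hz : ⁅y, x⁆ ^ p = 1 :=
      pow_eq_one_of_mem_closure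
        (fun a b ha hb => mul_pow_prime_eq_one_class_two hpp hp2
          (hcent _ (comm_mem_commutator b a)) ha hb) (hder hzc)
    have h1 := Cfsg.Agent.Lib.Helper11.mul_pow_class_two x y (hcent _ hzc x).eq (hcent _ hzc y).eq p
    have hodd : 2 ∣ p - 1 := by
      rcases Nat.even_or_odd p with he | ho
      · exact absurd ((hpp.eq_one_or_self_of_dvd 2 he.two_dvd).resolve_left (by norm_num)).symm hp2
      · obtain ⟨k, hk⟩ := ho
        exact ⟨k, by omega⟩
    have h4 : p ∣ p * (p - 1) / 2 := by
      rw [Nat.mul_div_assoc p hodd]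
      exact dvd_mul_right _ _
    rw [h1, pow_eq_one_of_dvd hz h4, mul_one]
  · -- class three
    have hz : ⁅y, x⁆ ^ p = 1 :=
      pow_eq_one_of_mem_closure
        (fun a b ha hb => mul_pow_prime_eq_one_class_three hpp hp3 hcl ha hb) (hder hzc)
    exact mul_pow_prime_of_class_three hpp hp3 hcl x y hz

end Cfsg.Agent.S0123
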