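import Mathlib
import Cfsg.Statements.S0125
import Cfsg.Agent.Lib.Helper17.SylowNormal

set_option autoImplicit false
open Cfsg

namespace Cfsg.Agent.S0125



/-- The centralizer of a self-centralizing normal subgroup A of a Sylow p-subgroup is the direct product of A with a normal p'-subgroup. -/
theorem result {G : Type*} [Group G] [Finite G] {p : ℕ} [Fact p.Prime] (R : Sylow p G) (A : Subgroup G) (hAR : A ≤ (R : Subgroup G)) (hAn : (R : Subgroup G) ≤ Subgroup.normalizer (A : Set G)) (hC : (R : Subgroup G) ⊓ Subgroup.centralizer (A : Set G) = A) : ∃ H : Subgroup G, H ≤ Subgroup.centralizer (A : Set G) ∧ Nat.Coprime (Nat.card H) p ∧ Subgroup.centralizer (A : Set G) ≤ Subgroup.normalizer (H : Set G) ∧ H ⊓ A = ⊥ ∧ H ⊔ A = Subgroup.centralizer (A : Set G) := by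
  classical
  have hAC : A ≤ Subgroup.centralizer (A : Set G) := by
    intro a ha
    rw [← hC] at ha
    exact ha.2
  -- order of A is the p-part of the order of the centralizer
  have hcardA : Nat.card A = p ^ (Nat.card (Subgroup.centralizer (A : Set G))).factorization p := by
    have hCN : Subgroup.centralizer (A : Set G) ≤ Subgroup.normalizer (A : Set G) :=
      Subgroup.centralizer_le_normalizer _
    have h1 := Cfsg.Agent.Lib.Helper17.card_sylow_inf_normal (R.subtype hAn)
      ((Subgroup.centralizer (A : Set G)).subgroupOf (Subgroup.normalizer (A : Set G)))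
    have h2 : ((R.subtype hAn : Sylow p (Subgroup.normalizer (A : Set G))) :
          Subgroup (Subgroup.normalizer (A : Set G)))
        ⊓ (Subgroup.centralizer (A : Set G)).subgroupOf (Subgroup.normalizer (A : Set G))
        = A.subgroupOf (Subgroup.normalizer (A : Set G)) := by
      rw [Sylow.coe_subtype]
      ext x
      rw [Subgroup.mem_inf, Subgroup.mem_subgroupOf, Subgroup.mem_subgroupOf, Subgroup.mem_subgroupOf,
        ← Subgroup.mem_inf, hC]
    rw [h2] at h1
    have e1 : Nat.card (A.subgroupOf (Subgroup.normalizer (A : Set G))) = Nat.card A :=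
      Nat.card_congr (Subgroup.subgroupOfEquivOfLe (hAC.trans hCN)).toEquiv
    have e2 : Nat.card ((Subgroup.centralizer (A : Set G)).subgroupOf
        (Subgroup.normalizer (A : Set G))) = Nat.card (Subgroup.centralizer (A : Set G)) :=
      Nat.card_congr (Subgroup.subgroupOfEquivOfLe hCN).toEquiv
    rw [e1, e2] at h1
    exact h1
  -- Sylow subgroup of the centralizer
  have e3 : Nat.card (A.subgroupOf (Subgroup.centralizer (A : Set G))) = Nat.card A :=
    Nat.card_congr (Subgroup.subgroupOfEquivOfLe hAC).toEquiv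
  have hP : Subgroup.normalizer (((Sylow.ofCard (A.subgroupOf (Subgroup.centralizer (A : Set G)))
        (e3.trans hcardA) : Sylow p (Subgroup.centralizer (A : Set G))) :
        Subgroup (Subgroup.centralizer (A : Set G))) : Set (Subgroup.centralizer (A : Set G)))
      ≤ Subgroup.centralizer (((Sylow.ofCard (A.subgroupOf (Subgroup.centralizer (A : Set G)))
        (e3.trans hcardA) : Sylow p (Subgroup.centralizer (A : Set G))) :
        Subgroup (Subgroup.centralizer (A : Set G))) : Set (Subgroup.centralizer (A : Set G))) := by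
    intro c _
    rw [Subgroup.mem_centralizer_iff]
    intro a ha
    rw [SetLike.mem_coe, Sylow.coe_ofCard, Subgroup.mem_subgroupOf] at ha
    exact Subtype.ext (Subgroup.mem_centralizer_iff.mp c.2 a ha)
  have hcompl : Subgroup.IsComplement' (MonoidHom.transferSylow _ hP).ker
      (A.subgroupOf (Subgroup.centralizer (A : Set G))) :=
    MonoidHom.ker_transferSylow_isComplement' _ hP
  have hnd := MonoidHom.not_dvd_card_ker_transferSylow _ hP
  refine ⟨(MonoidHom.transferSylow _ hP).ker.map (Subgroup.centralizer (A : Set G)).subtype,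
    Subgroup.map_subtype_le _, ?_, ?_, ?_, ?_⟩
  · rw [Subgroup.card_subtype]
    exact ((Nat.Prime.coprime_iff_not_dvd Fact.out).mpr hnd).symm
  · have hconj : ∀ c ∈ Subgroup.centralizer (A : Set G), ∀ h ∈ (MonoidHom.transferSylow _ hP).ker.map
        (Subgroup.centralizer (A : Set G)).subtype, c * h * c⁻¹ ∈ (MonoidHom.transferSylow _ hP).ker.map
        (Subgroup.centralizer (A : Set G)).subtype := by
      rintro c hc _ ⟨k, hk, rfl⟩
      refine ⟨⟨c, hc⟩ * k * ⟨c, hc⟩⁻¹, ?_, rfl⟩
      exact (inferInstance : ((MonoidHom.transferSylow _ hP).ker).Normal).conj_mem k hk ⟨c, hc⟩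
    intro c hc
    rw [Subgroup.mem_normalizer_iff]
    intro h
    constructor
    · exact hconj c hc h
    · intro hh
      have := hconj c⁻¹ (inv_mem hc) _ hh
      have e : c⁻¹ * (c * h * c⁻¹) * c⁻¹⁻¹ = h := by group
      rwa [e] at this
  · rw [eq_bot_iff]
    rintro x ⟨⟨k, hk, rfl⟩, hxA⟩
    have hkA : k ∈ A.subgroupOf (Subgroup.centralizer (A : Set G)) := hxA
    have h1 : k = 1 := Subgroup.disjoint_def.mp hcompl.disjoint hk hkA
    rw [h1]
    exact Subgroup.mem_bot.mpr rfl
  · apply le_antisymm
    · exact sup_le (Subgroup.map_subtype_le _) hAC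
    · intro c hc
      obtain ⟨⟨⟨k, hk⟩, ⟨a, ha⟩⟩, hka⟩ := hcompl.2 ⟨c, hc⟩
      have hka' : k * a = ⟨c, hc⟩ := hka
      have e : c = (k : G) * (a : G) := by
        have := congrArg Subtype.val hka'
        exact this.symm
      rw [e]
      exact mul_mem (Subgroup.mem_sup_left ⟨k, hk, rfl⟩) (Subgroup.mem_sup_right ha)

end Cfsg.Agent.S0125
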