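import Mathlib
import Cfsg.Statements.S0131
import Cfsg.Agent.Lib.Helper2.KleinSylow

set_option autoImplicit false
open Cfsg

namespace Cfsg.Agent.S0131

open Cfsg.Agent.Lib.Helper2
open scoped commutatorElement


/-- P/P' has a normal complement in G exactly when the focal subgroup G' ∩ P is as small as possible, namely P'. -/
theorem result {G : Type*} [Group G] [Finite G] {p : ℕ} [Fact p.Prime] (P : Sylow p G) : (∃ N : Subgroup G, N.Normal ∧ N ⊓ (P : Subgroup G) = ⁅(P : Subgroup G), (P : Subgroup G)⁆ ∧ N ⊔ (P : Subgroup G) = ⊤) ↔ commutator G ⊓ (P : Subgroup G) = ⁅(P : Subgroup G), (P : Subgroup G)⁆ := by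
  constructor
  · rintro ⟨N, hN, hNP, hsup⟩
    apply le_antisymm
    · have hcomm : commutator G ≤ N := by
        rw [commutator_def, Subgroup.commutator_le]
        intro g _ h _
        have hg : g ∈ N ⊔ (P : Subgroup G) := by
          rw [hsup]
          trivial
        have hh : h ∈ N ⊔ (P : Subgroup G) := by
          rw [hsup]
          trivial
        rw [← SetLike.mem_coe, Subgroup.normal_mul] at hg hh
        obtain ⟨n₁, hn₁, p₁, hp₁, rfl⟩ := Set.mem_mul.mp hg
        obtain ⟨n₂, hn₂, p₂, hp₂, rfl⟩ := Set.mem_mul.mp hh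
        rw [← QuotientGroup.eq_one_iff (N := N)]
        have e1 : ((n₁ * p₁ : G) : G ⧸ N) = (p₁ : G ⧸ N) := by
          rw [QuotientGroup.mk_mul, (QuotientGroup.eq_one_iff n₁).mpr hn₁, one_mul]
        have e2 : ((n₂ * p₂ : G) : G ⧸ N) = (p₂ : G ⧸ N) := by
          rw [QuotientGroup.mk_mul, (QuotientGroup.eq_one_iff n₂).mpr hn₂, one_mul]
        have hmem : ⁅p₁, p₂⁆ ∈ N ⊓ (P : Subgroup G) := by
          rw [hNP]
          exact Subgroup.commutator_mem_commutator hp₁ hp₂
        have e3 : ((⁅p₁, p₂⁆ : G) : G ⧸ N) = 1 := (QuotientGroup.eq_one_iff _).mpr hmem.1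
        simp only [commutatorElement_def, QuotientGroup.mk_mul, QuotientGroup.mk_inv] at e3 ⊢
        rw [← QuotientGroup.mk_mul, ← QuotientGroup.mk_mul, e1, e2]
        exact e3
      calc commutator G ⊓ (P : Subgroup G) ≤ N ⊓ (P : Subgroup G) := inf_le_inf_right _ hcomm
        _ = ⁅(P : Subgroup G), (P : Subgroup G)⁆ := hNP
    · apply le_inf
      · rw [commutator_def]
        exact Subgroup.commutator_mono le_top le_top
      · rw [← hNP]
        exact inf_le_right
  · intro hfoc
    have hnm : Nat.card (P : Subgroup G) * (P : Subgroup G).index = Nat.card G :=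
      Subgroup.card_mul_index _
    have hpm : ¬ p ∣ (P : Subgroup G).index := P.not_dvd_index
    obtain ⟨k, hk⟩ := IsPGroup.iff_card.mp P.isPGroup'
    have hcop : Nat.Coprime (Nat.card (P : Subgroup G)) (P : Subgroup G).index := by
      rw [hk]
      exact Nat.Coprime.pow_left k ((Nat.Prime.coprime_iff_not_dvd Fact.out).mpr hpm)
    have hNmem : ∀ g : G, g ∈ (powMonoidHom (P : Subgroup G).index :
        Abelianization G →* Abelianization G).ker.comap Abelianization.of
        ↔ g ^ (P : Subgroup G).index ∈ commutator G := by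
      intro g
      rw [Subgroup.mem_comap, MonoidHom.mem_ker, powMonoidHom_apply, ← map_pow, ← MonoidHom.mem_ker,
        Abelianization.ker_of]
    have hGN : commutator G ≤ (powMonoidHom (P : Subgroup G).index :
        Abelianization G →* Abelianization G).ker.comap Abelianization.of :=
      fun g hg => (hNmem g).mpr (pow_mem hg _)
    have hKP : ⁅(P : Subgroup G), (P : Subgroup G)⁆ ≤ (P : Subgroup G) := by
      rw [← hfoc]
      exact inf_le_right
    refine ⟨(powMonoidHom (P : Subgroup G).index :
        Abelianization G →* Abelianization G).ker.comap Abelianization.of, inferInstance, ?_, ?_⟩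
    · apply le_antisymm
      · rintro g ⟨hgN, hgP⟩
        have h1 : g ^ (P : Subgroup G).index ∈ ⁅(P : Subgroup G), (P : Subgroup G)⁆ := by
          rw [← hfoc]
          exact ⟨(hNmem g).mp hgN, pow_mem hgP _⟩
        have hK : IsPGroup p (⁅(P : Subgroup G), (P : Subgroup G)⁆ : Subgroup G) :=
          P.isPGroup'.to_le hKP
        obtain ⟨y, hy⟩ := (hK.powEquiv' hpm).surjective ⟨_, h1⟩
        have hy' : (y : G) ^ (P : Subgroup G).index = g ^ (P : Subgroup G).index :=
          congrArg Subtype.val hy
        have h2 : (⟨(y : G), hKP y.2⟩ : (P : Subgroup G)) = ⟨g, hgP⟩ :=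
          (P.isPGroup'.powEquiv' hpm).injective (Subtype.ext hy')
        have h3 : (y : G) = g := congrArg Subtype.val h2
        rw [← h3]
        exact y.2
      · refine le_inf (le_trans ?_ hGN) hKP
        rw [commutator_def]
        exact Subgroup.commutator_mono le_top le_top
    · rw [eq_top_iff]
      intro g _
      obtain ⟨a, b, hab⟩ := Nat.isCoprime_iff_coprime.mpr hcop
      have hg : g = (g ^ Nat.card (P : Subgroup G)) ^ a * (g ^ (P : Subgroup G).index) ^ b := by
        rw [← zpow_natCast, ← zpow_natCast, ← zpow_mul, ← zpow_mul, ← zpow_add,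
          mul_comm (Nat.card (P : Subgroup G) : ℤ), mul_comm ((P : Subgroup G).index : ℤ), hab,
          zpow_one]
      rw [hg]
      apply mul_mem
      · apply Subgroup.mem_sup_left
        rw [hNmem]
        have : ((g ^ Nat.card (P : Subgroup G)) ^ a) ^ (P : Subgroup G).index = 1 := by
          rw [← zpow_natCast, ← zpow_mul, mul_comm, zpow_mul, zpow_natCast, ← pow_mul, hnm,
            pow_card_eq_one', one_zpow]
        rw [this]
        exact one_mem _
      · apply zpow_mem
        have hh : (g ^ (P : Subgroup G).index) ^ Nat.card (P : Subgroup G) = 1 := by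
          rw [← pow_mul, mul_comm, hnm, pow_card_eq_one']
        have hdvd : orderOf (g ^ (P : Subgroup G).index) ∣ p ^ k := by
          rw [← hk]
          exact orderOf_dvd_of_pow_eq_one hh
        obtain ⟨j, -, hj⟩ := (Nat.dvd_prime_pow Fact.out).mp hdvd
        obtain ⟨x, hx⟩ := exists_conj_mem_sylow P (g ^ (P : Subgroup G).index) j hj
        have e : g ^ (P : Subgroup G).index
            = ⁅x⁻¹, x * g ^ (P : Subgroup G).index * x⁻¹⁆ * (x * g ^ (P : Subgroup G).index * x⁻¹) := by
          rw [commutatorElement_def]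
          group
        rw [e]
        refine mul_mem (Subgroup.mem_sup_left (hGN ?_)) (Subgroup.mem_sup_right hx)
        rw [commutator_def]
        exact Subgroup.commutator_mem_commutator (Subgroup.mem_top _) (Subgroup.mem_top _)

end Cfsg.Agent.S0131
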