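import Mathlib
import Cfsg.Statements.S0132
import Cfsg.Agent.Lib.Helper1.FrobPC
import Cfsg.Agent.Lib.Helper1.Stability
import Cfsg.Agent.Lib.Helper24.Fitting

set_option autoImplicit false
open Cfsg

namespace Cfsg.Agent.S0132


open Cfsg.Agent.Lib.Helper1

theorem mem_of_pow_mem_of_coprime {G : Type*} [Group G] (N : Subgroup G) (x : G) {a b : ℕ}
    (hab : Nat.Coprime a b) (ha : x ^ a ∈ N) (hb : x ^ b ∈ N) : x ∈ N := by
  obtain ⟨u, v, huv⟩ := Nat.isCoprime_iff_coprime.mpr hab
  have : x = (x ^ a) ^ u * (x ^ b) ^ v := by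
    rw [← zpow_natCast, ← zpow_natCast, ← zpow_mul, ← zpow_mul, ← zpow_add, mul_comm (a : ℤ),
      mul_comm (b : ℤ), huv, zpow_one]
  rw [this]
  exact mul_mem (zpow_mem ha u) (zpow_mem hb v)

/-- in a group with a normal `p`-complement, `p'`-elements centralize normal `p`-subgroups -/
theorem commute_of_normal_complement {K : Type*} [Group K] [Finite K] {p : ℕ} [Fact p.Prime]
    (h : Cfsg.HasNormalPComplement p K) (Q : Subgroup K) [hQn : Q.Normal] (hQ : IsPGroup p Q)
    (g : K) (hg : Nat.Coprime (orderOf g) p) : ∀ q ∈ Q, g * q = q * g := by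
  obtain ⟨P, N, hN, hc⟩ := h
  obtain ⟨a, ha⟩ := IsPGroup.iff_card.mp P.isPGroup'
  have hidx : N.index = p ^ a := by
    rw [← ha]
    exact hc.symm.index_eq_card
  have hgN : g ∈ N := by
    apply mem_of_pow_mem_of_coprime N g (a := orderOf g) (b := p ^ a) (Nat.Coprime.pow_right a hg)
    · rw [pow_orderOf_eq_one]
      exact one_mem N
    · rw [← hidx]
      exact Subgroup.pow_index_mem N g
  have hNcop : Nat.Coprime (Nat.card N) p := by
    have : Nat.card N = (P : Subgroup K).index := hc.index_eq_card.symm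
    rw [this]
    exact ((Nat.Prime.coprime_iff_not_dvd Fact.out).mpr P.not_dvd_index).symm
  have hdisj : Q ⊓ N = ⊥ := by
    apply disjoint_iff.mp
    apply Subgroup.disjoint_of_coprime_natCard
    obtain ⟨b, hb⟩ := IsPGroup.iff_card.mp hQ
    rw [hb]
    exact (Nat.Coprime.pow_right b hNcop).symm
  intro q hq
  have hmem : q * g * q⁻¹ * g⁻¹ ∈ Q ⊓ N := by
    refine Subgroup.mem_inf.mpr ⟨?_, ?_⟩
    · have : q * g * q⁻¹ * g⁻¹ = q * (g * q⁻¹ * g⁻¹) := by group
      rw [this]
      exact mul_mem hq (hQn.conj_mem _ (inv_mem hq) g)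
    · exact mul_mem (hN.conj_mem g hgN q) (inv_mem hgN)
  rw [hdisj, Subgroup.mem_bot] at hmem
  have h2 : q * g * q⁻¹ * g⁻¹ * (g * q) = g * q := by rw [hmem, one_mul]
  rw [← h2]
  group


/-- A minimal non-p-nilpotent finite group is a minimal non-nilpotent group with a normal Sylow p-subgroup. -/
theorem result {G : Type*} [Group G] [Finite G] {p : ℕ} [Fact p.Prime] (h1 : ¬ Cfsg.HasNormalPComplement p G) (h2 : ∀ H : Subgroup G, H ≠ ⊤ → Cfsg.HasNormalPComplement p H) : (∀ H : Subgroup G, H ≠ ⊤ → Group.IsNilpotent H) ∧ ¬ Group.IsNilpotent G ∧ ∀ P : Sylow p G, (P : Subgroup G).Normal := by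
  classical
  have hp : p.Prime := Fact.out
  have hnF : ¬ FrobCond p G := by
    intro hF
    obtain ⟨P⟩ : Nonempty (Sylow p G) := inferInstance
    exact h1 ⟨P, Cfsg.pResidual p G, pResidual_normal p, frobCond_isComplement' hF P⟩
  have hnF' := hnF
  unfold FrobCond at hnF'
  push Not at hnF'
  obtain ⟨Q, hQ, g, hgN, hcop, hgC⟩ := hnF'
  have hKN : Q ⊔ Subgroup.zpowers g ≤ Subgroup.normalizer (Q : Set G) :=
    sup_le Subgroup.le_normalizer (by rw [Subgroup.zpowers_le]; exact hgN)
  have hK : Q ⊔ Subgroup.zpowers g = ⊤ := by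
    by_contra hne
    have hcomp := h2 _ hne
    have hQn : (Q.subgroupOf (Q ⊔ Subgroup.zpowers g)).Normal :=
      (Subgroup.normal_subgroupOf_iff_le_normalizer le_sup_left).mpr hKN
    have hQp : IsPGroup p (Q.subgroupOf (Q ⊔ Subgroup.zpowers g)) := hQ.comap_subtype
    have hgK : g ∈ Q ⊔ Subgroup.zpowers g := Subgroup.mem_sup_right (Subgroup.mem_zpowers g)
    have hcop' : Nat.Coprime (orderOf (⟨g, hgK⟩ : ↥(Q ⊔ Subgroup.zpowers g))) p := by
      rw [← Subgroup.orderOf_coe]
      exact hcop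
    have hcomm := commute_of_normal_complement hcomp (Q.subgroupOf _) hQp ⟨g, hgK⟩ hcop'
    apply hgC
    rw [Subgroup.mem_centralizer_iff]
    intro q hq
    have := hcomm ⟨q, Subgroup.mem_sup_left hq⟩ (Subgroup.mem_subgroupOf.mpr hq)
    exact (congrArg Subtype.val this).symm
  have hQnorm : Q.Normal := by
    rw [← Subgroup.normalizer_eq_top_iff, eq_top_iff, ← hK]
    exact hKN
  have hidx : Nat.Coprime Q.index p := by
    have h3 : Q.index ∣ orderOf g := by
      rw [← Subgroup.relIndex_top_right, ← hK, Subgroup.relIndex_sup_left, ← Nat.card_zpowers]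
      exact Subgroup.relIndex_dvd_card _ _
    exact Nat.Coprime.coprime_dvd_left h3 hcop
  have hpel : ∀ x : G, ∀ k : ℕ, x ^ (p ^ k) = 1 → x ∈ Q := by
    intro x k hx
    apply mem_of_pow_mem_of_coprime Q x (a := p ^ k) (b := Q.index)
      (Nat.Coprime.pow_left k hidx.symm)
    · rw [hx]
      exact one_mem Q
    · exact Subgroup.pow_index_mem Q x
  have hcomQ : ∀ x y : G, x * y * x⁻¹ * y⁻¹ ∈ Q := by
    have hgen : ∀ x : G, ∃ i : ℤ, (x : G ⧸ Q) = ((g : G ⧸ Q)) ^ i := by
      intro x
      have hx : x ∈ Q ⊔ Subgroup.zpowers g := by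
        rw [hK]
        trivial
      rw [← SetLike.mem_coe, Subgroup.normal_mul] at hx
      obtain ⟨q, hq, z, ⟨i, rfl⟩, rfl⟩ := Set.mem_mul.mp hx
      refine ⟨i, ?_⟩
      rw [QuotientGroup.mk_mul, (QuotientGroup.eq_one_iff q).mpr hq, one_mul, QuotientGroup.mk_zpow]
    intro x y
    obtain ⟨i, hi⟩ := hgen x
    obtain ⟨j, hj⟩ := hgen y
    rw [← QuotientGroup.eq_one_iff, QuotientGroup.mk_mul, QuotientGroup.mk_mul, QuotientGroup.mk_mul,
      QuotientGroup.mk_inv, QuotientGroup.mk_inv, hi, hj, ← zpow_add, ← zpow_neg, ← zpow_neg,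
      ← zpow_add, ← zpow_add]
    have : i + j + -i + -j = 0 := by ring
    rw [this, zpow_zero]
  refine ⟨?_, ?_, ?_⟩
  · intro H hH
    obtain ⟨PH, NH, hNH, hcH⟩ := h2 H hH
    have hA : (Q.subgroupOf H).Normal := inferInstance
    have hAnil : Group.IsNilpotent (Q.subgroupOf H) := (hQ.comap_subtype).isNilpotent
    have hNcop : Nat.Coprime (Nat.card NH) p := by
      have : Nat.card NH = (PH : Subgroup H).index := hcH.index_eq_card.symm
      rw [this]
      exact ((Nat.Prime.coprime_iff_not_dvd hp).mpr PH.not_dvd_index).symm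
    have hdisj : Q.subgroupOf H ⊓ NH = ⊥ := by
      apply disjoint_iff.mp
      apply Subgroup.disjoint_of_coprime_natCard
      obtain ⟨b, hb⟩ := IsPGroup.iff_card.mp (hQ.comap_subtype (K := H))
      have hb' : Nat.card (Q.subgroupOf H) = p ^ b := hb
      rw [hb']
      exact (Nat.Coprime.pow_right b hNcop).symm
    have hNcomm : ∀ x y : NH, x * y = y * x := by
      intro x y
      have hmem : (x : H) * y * (x : H)⁻¹ * (y : H)⁻¹ ∈ Q.subgroupOf H ⊓ NH := by
        refine Subgroup.mem_inf.mpr ⟨Subgroup.mem_subgroupOf.mpr ?_,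
          mul_mem (mul_mem (mul_mem x.2 y.2) (inv_mem x.2)) (inv_mem y.2)⟩
        have := hcomQ ((x : H) : G) ((y : H) : G)
        simpa using this
      rw [hdisj, Subgroup.mem_bot] at hmem
      apply Subtype.ext
      have h2' : (x : H) * y * (x : H)⁻¹ * (y : H)⁻¹ * ((y : H) * x) = (y : H) * x := by
        rw [hmem, one_mul]
      have h3 : (x : H) * y = (y : H) * x := by
        rw [← h2']
        group
      exact h3
    have hBnil : Group.IsNilpotent NH := by
      let _ : CommGroup NH := { (inferInstance : Group NH) with mul_comm := hNcomm }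
      exact CommGroup.isNilpotent
    have hsup : Q.subgroupOf H ⊔ NH = ⊤ := by
      rw [eq_top_iff, ← hcH.sup_eq_top]
      apply sup_le le_sup_right
      intro x hx
      obtain ⟨k, hk⟩ := PH.isPGroup' ⟨x, hx⟩
      apply Subgroup.mem_sup_left
      rw [Subgroup.mem_subgroupOf]
      apply hpel _ k
      have := congrArg (fun z : (PH : Subgroup H) => ((z : H) : G)) hk
      simpa using this
    have hnil := Cfsg.Agent.Lib.Helper24.nilpotent_sup (Q.subgroupOf H) NH hAnil hBnil
    rw [hsup] at hnil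
    exact Group.nilpotent_of_mulEquiv Subgroup.topEquiv
  · intro hnil
    apply hnF
    obtain ⟨P⟩ : Nonempty (Sylow p G) := inferInstance
    exact frobCond_of_nilpotent_fusion P ⊤ inferInstance le_top
      (fun x _ y _ ⟨c, hc⟩ => ⟨c, trivial, hc⟩)
  · intro P
    have hPQ : (P : Subgroup G) ≤ Q := by
      intro x hx
      obtain ⟨k, hk⟩ := P.isPGroup' ⟨x, hx⟩
      apply hpel x k
      have := congrArg Subtype.val hk
      simpa using this
    have : Q = (P : Subgroup G) := P.is_maximal' hQ hPQ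
    rw [← this]
    exact hQnorm

end Cfsg.Agent.S0132
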