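import Mathlib
import Cfsg.Statements.S0134
import Cfsg.Agent.Lib.Helper2.CharOrtho

set_option autoImplicit false
open Cfsg

namespace Cfsg.Agent.S0134

/-- The sum of the squares of the degrees of the irreducible complex characters of a finite group is the order of the group. -/
theorem result {G : Type*} [Group G] [Finite G] : ∑ᶠ χ : Cfsg.IrrCharacter G, (χ : G → ℂ) 1 ^ 2 = (Nat.card G : ℂ) := by
  have := Fintype.ofFinite G
  have h1 := Cfsg.Agent.Lib.Helper2.column_orthogonality_finsum (1 : G) (1 : G)
  rw [Cfsg.Agent.Lib.Helper2.colFun_of_isConj (IsConj.refl (1 : G))] at h1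
  have h2 : Nat.card (Subgroup.centralizer ({1} : Set G)) = Nat.card G := by
    have : Subgroup.centralizer ({1} : Set G) = ⊤ := by
      rw [Subgroup.centralizer_eq_top_iff_subset]
      intro x hx
      rw [Set.mem_singleton_iff] at hx
      rw [hx]
      exact Subgroup.one_mem _
    rw [this, Subgroup.card_top]
  rw [h2] at h1
  rw [← h1]
  apply finsum_congr
  intro χ
  obtain ⟨n, ρ, _, hρ⟩ := χ.2
  have h3 : (χ : G → ℂ) 1 = (n : ℂ) := by
    rw [← hρ, Representation.char_one]
    simp
  rw [h3, Complex.conj_natCast, pow_two]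

end Cfsg.Agent.S0134
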