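import Mathlib
import Cfsg.Statements.S0136
import Cfsg.Agent.Lib.Helper2.CharOrtho

set_option autoImplicit false
open Cfsg

namespace Cfsg.Agent.S0136

/-- Two elements of a finite group are conjugate if and only if no irreducible complex character separates them. -/
theorem result {G : Type*} [Group G] [Finite G] (g h : G) : IsConj g h ↔ ∀ χ : Cfsg.IrrCharacter G, (χ : G → ℂ) g = (χ : G → ℂ) h := by
  have := Fintype.ofFinite G
  constructor
  · intro hc χ
    exact Cfsg.Agent.Lib.Helper2.IsClassFunction.of_isConj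
      (Cfsg.Agent.Lib.Helper2.isClassFunction_of_isIrrCharacter χ.2) hc
  · intro hall
    by_contra hc
    have h1 := Cfsg.Agent.Lib.Helper2.column_orthogonality_finsum g h
    rw [Cfsg.Agent.Lib.Helper2.colFun_of_not_isConj hc] at h1
    have h2 := Cfsg.Agent.Lib.Helper2.column_orthogonality_finsum h h
    rw [Cfsg.Agent.Lib.Helper2.colFun_of_isConj (IsConj.refl h)] at h2
    have h3 : ∑ᶠ χ : Cfsg.IrrCharacter G, (χ : G → ℂ) g * (starRingEnd ℂ) ((χ : G → ℂ) h)
        = ∑ᶠ χ : Cfsg.IrrCharacter G, (χ : G → ℂ) h * (starRingEnd ℂ) ((χ : G → ℂ) h) := by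
      apply finsum_congr
      intro χ
      rw [hall χ]
    rw [h3, h2] at h1
    exact Cfsg.Agent.Lib.Helper2.card_ne_zero_complex _ h1

end Cfsg.Agent.S0136
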