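import Mathlib
import Cfsg.Statements.S0142
import Cfsg.Agent.Lib.Helper2.CharGalois
import Cfsg.Agent.Lib.Helper2.CharIntegral

set_option autoImplicit false
open Cfsg

namespace Cfsg.Agent.S0142

open Cfsg.Agent.Lib.Helper2

open Module


/-- If the degree of an irreducible complex representation of a finite group is coprime to the size of the conjugacy class of g, then the character at g is zero or has absolute value equal to the degree. -/
theorem result {G : Type*} [Group G] [Finite G] {V : Type*} [AddCommGroup V] [Module ℂ V] [FiniteDimensional ℂ V] (ρ : Representation ℂ G V) [ρ.IsIrreducible] (g : G) (hcop : Nat.Coprime (Module.finrank ℂ V) (Subgroup.centralizer ({g} : Set G)).index) : ρ.character g = 0 ∨ ‖ρ.character g‖ = (Module.finrank ℂ V : ℝ) := by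
  classical
  have := Fintype.ofFinite G
  apply char_zero_or_norm_of_integral
  have hω := class_scalar_isIntegral ρ g
  have hχ := char_isIntegral ρ g
  have hd : (finrank ℂ V : ℂ) ≠ 0 := by
    have := irr_finrank_pos ρ
    exact_mod_cast this.ne'
  have hbez := Int.gcd_eq_gcd_ab (finrank ℂ V) (Subgroup.centralizer ({g} : Set G)).index
  have hg1 : ((finrank ℂ V : ℤ)).gcd ((Subgroup.centralizer ({g} : Set G)).index : ℤ) = 1 := by
    rw [Int.gcd_natCast_natCast]
    exact hcop
  rw [hg1] at hbez
  set a := Int.gcdA (finrank ℂ V) (Subgroup.centralizer ({g} : Set G)).index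
  set b := Int.gcdB (finrank ℂ V) (Subgroup.centralizer ({g} : Set G)).index
  have hbezC : (1 : ℂ) = (finrank ℂ V : ℂ) * (a : ℂ)
      + ((Subgroup.centralizer ({g} : Set G)).index : ℂ) * (b : ℂ) := by
    exact_mod_cast hbez
  have e : ρ.character g / (finrank ℂ V : ℂ)
      = (a : ℂ) * ρ.character g
        + (b : ℂ) * (((Subgroup.centralizer ({g} : Set G)).index : ℂ) * ρ.character g
          / (finrank ℂ V : ℂ)) := by
    field_simp
    linear_combination (ρ.character g) * hbezC
  rw [e]
  exact IsIntegral.add (IsIntegral.mul isIntegral_algebraMap hχ)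
    (IsIntegral.mul isIntegral_algebraMap hω)

end Cfsg.Agent.S0142
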