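import Mathlib
import Cfsg.Statements.S0153
import Cfsg.Agent.Lib.Helper2.RepEquiv

set_option autoImplicit false
open Cfsg

namespace Cfsg.Agent.S0153

open Cfsg.Agent.Lib.Helper2

/-- Complex representations of a finite group with equal characters are equivalent. -/
theorem result {G : Type*} [Group G] [Finite G] {V W : Type*} [AddCommGroup V] [Module ℂ V] [FiniteDimensional ℂ V] [AddCommGroup W] [Module ℂ W] [FiniteDimensional ℂ W] (ρ : Representation ℂ G V) (σ : Representation ℂ G W) (h : ρ.character = σ.character) : Nonempty (ρ.Equiv σ) :=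
  equiv_of_char_eq_aux (Module.finrank ℂ V) V W ρ σ rfl h

end Cfsg.Agent.S0153
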