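import Mathlib
import Cfsg.Statements.S0154
import Cfsg.Agent.Lib.Helper2.CharLinear

set_option autoImplicit false
open Cfsg

namespace Cfsg.Agent.S0154

open Cfsg.Agent.Lib.Helper2

/-- A finite group has exactly as many irreducible complex characters of degree 1 as the index of its commutator subgroup. -/
theorem result {G : Type*} [Group G] [Finite G] : Nat.card {χ : Cfsg.IrrCharacter G // (χ : G → ℂ) 1 = 1} = (commutator G).index := by
  classical
  let F : (G →* ℂˣ) → {χ : Cfsg.IrrCharacter G // (χ : G → ℂ) 1 = 1} := fun lam =>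
    ⟨⟨fun g => (lam g : ℂ), isIrrCharacter_of_hom lam⟩, by simp⟩
  have hF : Function.Bijective F := by
    constructor
    · intro l₁ l₂ h
      have h2 : (fun g => (l₁ g : ℂ)) = fun g => (l₂ g : ℂ) := congrArg (fun x => x.1.1) h
      ext g
      exact congrFun h2 g
    · rintro ⟨χ, h1⟩
      obtain ⟨lam, hlam⟩ := hom_of_irr_deg_one χ.2 h1
      exact ⟨lam, Subtype.ext (Subtype.ext hlam.symm)⟩
  rw [← Nat.card_congr (Equiv.ofBijective F hF), Nat.card_congr (Abelianization.lift (G := G) (A := ℂˣ))]
  have : NeZero (Monoid.exponent (Abelianization G)) := ⟨Monoid.exponent_ne_zero_of_finite⟩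
  rw [CommGroup.card_monoidHom_of_hasEnoughRootsOfUnity]
  rfl

end Cfsg.Agent.S0154
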