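import Mathlib
import Cfsg.Statements.S0155

set_option autoImplicit false
open Cfsg

namespace Cfsg.Agent.S0155

/-- The character of the left regular representation of a finite group takes the value |G| at the identity and 0 at every other element. -/
theorem result {G : Type*} [Group G] [Fintype G] [DecidableEq G] (g : G) : (Representation.leftRegular ℂ G).character g = if g = 1 then (Nat.card G : ℂ) else 0 := by
  unfold Representation.character
  rw [LinearMap.trace_eq_matrix_trace ℂ (MonoidAlgebra.basis G ℂ)]
  rw [Matrix.trace]
  simp only [Matrix.diag_apply, LinearMap.toMatrix_apply]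
  have hterm : ∀ h : G, ((MonoidAlgebra.basis G ℂ).repr ((Representation.leftRegular ℂ G) g ((MonoidAlgebra.basis G ℂ) h))) h
      = if g = 1 then 1 else 0 := by
    intro h
    have : (MonoidAlgebra.basis G ℂ) h = MonoidAlgebra.single h 1 := by
      simp [MonoidAlgebra.basis]
    rw [this, Representation.ofMulAction_single]
    simp only [MonoidAlgebra.basis, smul_eq_mul]
    change (Finsupp.single (g * h) (1 : ℂ)) h = _
    rw [Finsupp.single_apply]
    by_cases hg : g = 1
    · simp [hg]
    · have : g * h ≠ h := fun e => hg (by simpa using e)
      simp [hg, this]
  simp only [hterm]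
  by_cases hg : g = 1
  · simp [hg, Nat.card_eq_fintype_card]
  · simp [hg]

end Cfsg.Agent.S0155
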