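import Mathlib
import Cfsg.Statements.S0156
import Cfsg.Agent.Lib.Helper2.CharLinear
import Cfsg.Agent.S0155

set_option autoImplicit false
open Cfsg

namespace Cfsg.Agent.S0156

open Cfsg.Agent.Lib.Helper2

/-- The character of the left regular representation is the sum over the irreducible characters χ of χ 1 • χ. -/
theorem result {G : Type*} [Group G] [Fintype G] : (Representation.leftRegular ℂ G).character = ∑ᶠ χ : Cfsg.IrrCharacter G, (χ : G → ℂ) 1 • (χ : G → ℂ) := by
  classical
  have hcf : Cfsg.IsClassFunction G (Representation.leftRegular ℂ G).character := by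
    intro g h
    exact Representation.char_conj _ g h
  have hexp := class_fun_expand_finsum _ hcf
  rw [hexp]
  apply finsum_congr
  intro χ
  congr 1
  rw [classInner_def]
  have hsum : ∑ g : G, (Representation.leftRegular ℂ G).character g * (starRingEnd ℂ) ((χ : G → ℂ) g)
      = (Nat.card G : ℂ) * (starRingEnd ℂ) ((χ : G → ℂ) 1) := by
    rw [Finset.sum_eq_single (1 : G)]
    · rw [Cfsg.Agent.S0155.result, if_pos rfl]
    · intro g _ hg
      rw [Cfsg.Agent.S0155.result, if_neg hg, zero_mul]
    · intro h
      exact absurd (Finset.mem_univ _) h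
  rw [hsum, ← mul_assoc, inv_mul_cancel₀ (card_ne_zero_complex G), one_mul]
  obtain ⟨n, _, hn⟩ := irr_apply_one χ.2
  rw [hn, Complex.conj_natCast]

end Cfsg.Agent.S0156
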