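import Mathlib
import Cfsg.Statements.S0190
import Cfsg.Agent.Lib.Helper2.IndFun

set_option autoImplicit false
open Cfsg

namespace Cfsg.Agent.S0190

open Cfsg.Agent.Lib.Helper2

theorem card_fiber {G : Type*} [Group G] [Fintype G] (X : Type*) [MulAction G X]
    [MulAction.IsPretransitive G X] (x z : X) [DecidablePred (fun y : G => y • x = z)] :
    (Finset.univ.filter (fun y : G => y • x = z)).card = Nat.card (MulAction.stabilizer G x) := by
  obtain ⟨y₀, hy₀⟩ := MulAction.exists_smul_eq G x z
  rw [← Fintype.card_subtype, ← Nat.card_eq_fintype_card]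
  apply Nat.card_congr
  refine
    { toFun := fun y => ⟨y₀⁻¹ * y.1, ?_⟩
      invFun := fun s => ⟨y₀ * s.1, ?_⟩
      left_inv := ?_
      right_inv := ?_ }
  · rw [MulAction.mem_stabilizer_iff, mul_smul, y.2, ← hy₀, inv_smul_smul]
  · rw [mul_smul, MulAction.mem_stabilizer_iff.mp s.2, hy₀]
  · intro y; apply Subtype.ext; simp
  · intro s; apply Subtype.ext; simp

theorem sum_comp_smul {G : Type*} [Group G] [Fintype G] (X : Type*) [MulAction G X] [Fintype X]
    [MulAction.IsPretransitive G X] (x : X) (F : X → ℂ) :
    ∑ y : G, F (y • x) = (Nat.card (MulAction.stabilizer G x) : ℂ) * ∑ z : X, F z := by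
  classical
  rw [← Finset.sum_fiberwise (s := Finset.univ) (g := fun y : G => y • x) (f := fun y => F (y • x))]
  rw [Finset.mul_sum]
  apply Finset.sum_congr rfl
  intro z _
  have : ∀ y ∈ Finset.univ.filter (fun y : G => y • x = z), F (y • x) = F z := by
    intro y hy
    rw [(Finset.mem_filter.mp hy).2]
  rw [Finset.sum_congr rfl this, Finset.sum_const, nsmul_eq_mul, card_fiber]

/-- For a transitive action of a finite group on X, the permutation character g ↦ (number of fixed points of g) is the function induced from the principal character of the stabilizer of any point. -/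
theorem result {G : Type*} [Group G] [Fintype G] (X : Type*) [MulAction G X] [Finite X] [MulAction.IsPretransitive G X] (x : X) : (fun g : G => (Nat.card (MulAction.fixedBy X g) : ℂ)) = Cfsg.indFun (MulAction.stabilizer G x) (fun _ => 1) := by
  classical
  have := Fintype.ofFinite X
  funext g
  rw [indFun_apply]
  have hterm : ∀ y : G, Cfsg.extendByZero (MulAction.stabilizer G x) (fun _ => 1) (y⁻¹ * g * y)
      = (fun z : X => if g • z = z then (1 : ℂ) else 0) (y • x) := by
    intro y
    by_cases h : g • (y • x) = y • x
    · have hmem : y⁻¹ * g * y ∈ MulAction.stabilizer G x := by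
        rw [MulAction.mem_stabilizer_iff, mul_smul, mul_smul, h, inv_smul_smul]
      rw [extendByZero_of_mem _ _ hmem]
      simp [h]
    · have hmem : y⁻¹ * g * y ∉ MulAction.stabilizer G x := by
        intro hm
        apply h
        rw [MulAction.mem_stabilizer_iff, mul_smul, mul_smul] at hm
        have := congrArg (fun w => y • w) hm
        simpa using this
      rw [extendByZero_of_not_mem _ _ hmem]
      simp [h]
  have hsum : ∑ y : G, Cfsg.extendByZero (MulAction.stabilizer G x) (fun _ => 1) (y⁻¹ * g * y)
      = (Nat.card (MulAction.stabilizer G x) : ℂ) * ∑ z : X, (if g • z = z then (1 : ℂ) else 0) := by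
    rw [← sum_comp_smul X x (fun z => if g • z = z then (1 : ℂ) else 0)]
    exact Finset.sum_congr rfl (fun y _ => hterm y)
  rw [hsum, ← mul_assoc, inv_mul_cancel₀ (card_ne_zero_complex _), one_mul]
  rw [Finset.sum_ite, Finset.sum_const_zero, add_zero, Finset.sum_const, nsmul_eq_mul, mul_one]
  congr 1
  rw [Nat.card_eq_fintype_card, ← Fintype.card_subtype]
  rfl

end Cfsg.Agent.S0190
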