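import Mathlib
import Cfsg.Statements.S0157
import Cfsg.Agent.Lib.Helper2.CharGen
import Cfsg.Agent.Lib.Helper2.CharClifford
import Cfsg.Agent.S0190

set_option autoImplicit false
open Cfsg

namespace Cfsg.Agent.S0157

open Cfsg.Agent.Lib.Helper2

open scoped ComplexConjugate

section aux
variable {G : Type*} [Group G] (X : Type*) [MulAction G X]

theorem card_fixedBy_prod (g : G) :
    Nat.card (MulAction.fixedBy (X × X) g)
      = Nat.card (MulAction.fixedBy X g) * Nat.card (MulAction.fixedBy X g) := by
  rw [← Nat.card_prod]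
  apply Nat.card_congr
  refine
    { toFun := fun p => (⟨p.1.1, ?_⟩, ⟨p.1.2, ?_⟩)
      invFun := fun q => ⟨(q.1.1, q.2.1), ?_⟩
      left_inv := ?_
      right_inv := ?_ }
  · have h := p.2
    rw [MulAction.mem_fixedBy] at h ⊢
    exact congrArg Prod.fst h
  · have h := p.2
    rw [MulAction.mem_fixedBy] at h ⊢
    exact congrArg Prod.snd h
  · rw [MulAction.mem_fixedBy]
    have h1 := q.1.2
    have h2 := q.2.2
    rw [MulAction.mem_fixedBy] at h1 h2
    exact Prod.ext h1 h2
  · intro p
    rfl
  · intro q
    rfl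

theorem two_orbits_iff [Finite X] [MulAction.IsPretransitive G X] (hX : 2 ≤ Nat.card X) :
    Nat.card (Quotient (MulAction.orbitRel G (X × X))) = 2
      ↔ MulAction.IsMultiplyPretransitive G X 2 := by
  have hne : Nonempty X := by
    by_contra h
    rw [not_nonempty_iff] at h
    rw [Nat.card_of_isEmpty] at hX
    omega
  obtain ⟨a₀⟩ := hne
  have hex : ∃ b₀ : X, b₀ ≠ a₀ := by
    by_contra h
    push Not at h
    have hs : Subsingleton X := ⟨fun x y => (h x).trans (h y).symm⟩
    have := Finite.card_le_one_iff_subsingleton.mpr hs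
    omega
  obtain ⟨b₀, hb₀⟩ := hex
  have hdiag : ∀ c d : X, (Quotient.mk (MulAction.orbitRel G (X × X)) (c, d)
      = Quotient.mk (MulAction.orbitRel G (X × X)) (a₀, a₀)) ↔ c = d := by
    intro c d
    rw [Quotient.eq]
    rw [MulAction.orbitRel_apply, MulAction.mem_orbit_iff]
    constructor
    · rintro ⟨g, hg⟩
      have h1 := congrArg Prod.fst hg
      have h2 := congrArg Prod.snd hg
      exact h1.symm.trans h2
    · rintro rfl
      obtain ⟨g, hg⟩ := MulAction.exists_smul_eq G a₀ c
      exact ⟨g, Prod.ext hg hg⟩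
  rw [Nat.card_eq_two_iff' (Quotient.mk (MulAction.orbitRel G (X × X)) (a₀, a₀)),
    MulAction.is_two_pretransitive_iff]
  constructor
  · rintro ⟨y, hy, huniq⟩ a b c d hab hcd
    have h1 : Quotient.mk (MulAction.orbitRel G (X × X)) (a, b)
        ≠ Quotient.mk (MulAction.orbitRel G (X × X)) (a₀, a₀) := fun e => hab ((hdiag a b).mp e)
    have h2 : Quotient.mk (MulAction.orbitRel G (X × X)) (c, d)
        ≠ Quotient.mk (MulAction.orbitRel G (X × X)) (a₀, a₀) := fun e => hcd ((hdiag c d).mp e)
    have e := (huniq _ h2).trans (huniq _ h1).symm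
    rw [Quotient.eq] at e
    have e' : (c, d) ∈ MulAction.orbit G (a, b) := MulAction.orbitRel_apply.mp e
    obtain ⟨g, hg⟩ := MulAction.mem_orbit_iff.mp e'
    exact ⟨g, congrArg Prod.fst hg, congrArg Prod.snd hg⟩
  · intro h2
    refine ⟨Quotient.mk _ (a₀, b₀), fun e => hb₀ ((hdiag a₀ b₀).mp e).symm, ?_⟩
    intro y hy
    obtain ⟨⟨c, d⟩, rfl⟩ := Quotient.exists_rep y
    have hcd : c ≠ d := fun e => hy ((hdiag c d).mpr e)
    obtain ⟨g, hg1, hg2⟩ := h2 hb₀.symm hcd
    rw [Quotient.eq]
    apply MulAction.orbitRel_apply.mpr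
    exact MulAction.mem_orbit_iff.mpr ⟨g, Prod.ext hg1 hg2⟩

end aux


/-- For a transitive action of a finite group on a finite set with at least two points: the action is 2-transitive if and only if the function sending g to (number of fixed points of g) − 1 is an irreducible character. -/
theorem result {G : Type*} [Group G] [Finite G] (X : Type*) [MulAction G X] [Finite X] [MulAction.IsPretransitive G X] (hX : 2 ≤ Nat.card X) : Cfsg.IsIrrCharacter G (fun g => (Nat.card (MulAction.fixedBy X g) : ℂ) - 1) ↔ MulAction.IsMultiplyPretransitive G X 2 := by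
  classical
  have := Fintype.ofFinite G
  have := Fintype.ofFinite X
  have hne : Nonempty X := by
    by_contra h
    rw [not_nonempty_iff] at h
    rw [Nat.card_of_isEmpty] at hX
    omega
  obtain ⟨x₀⟩ := hne
  set π : G → ℂ := fun g => (Nat.card (MulAction.fixedBy X g) : ℂ) with hπ
  have hπind : π = Cfsg.indFun (MulAction.stabilizer G x₀) (fun _ => 1) :=
    Cfsg.Agent.S0190.result X x₀
  have hπchar : Cfsg.IsCharacter G π := by
    rw [hπind]
    exact indFun_isCharacter _ (isCharacter_of_isIrrCharacter isIrrCharacter_one)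
  have hπ1 : Cfsg.classInner π (fun _ => 1) = 1 := by
    rw [hπind, frobenius_reciprocity _ _ _ (isClassFunction_of_isIrrCharacter isIrrCharacter_one)]
    exact classInner_irr_self isIrrCharacter_one
  have h1π : Cfsg.classInner (fun _ => 1) π = 1 := by
    rw [← classInner_conj_symm, hπ1]
    simp
  have hππ : Cfsg.classInner π π
      = (Nat.card (Quotient (MulAction.orbitRel G (X × X))) : ℂ) := by
    have : ∀ g : G, Fintype (MulAction.fixedBy (X × X) g) := fun g => Fintype.ofFinite _
    have : Fintype (Quotient (MulAction.orbitRel G (X × X))) := Fintype.ofFinite _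
    have hburn := MulAction.sum_card_fixedBy_eq_card_orbits_mul_card_group G (X × X)
    rw [classInner_def]
    have hsum : ∑ g : G, π g * conj (π g)
        = ((∑ g : G, Fintype.card (MulAction.fixedBy (X × X) g) : ℕ) : ℂ) := by
      push_cast
      apply Finset.sum_congr rfl
      intro g _
      rw [← Nat.card_eq_fintype_card, card_fixedBy_prod]
      simp [hπ]
    rw [hsum, hburn]
    push_cast
    rw [← Nat.card_eq_fintype_card, ← Nat.card_eq_fintype_card]
    have hG := card_ne_zero_complex G
    field_simp
  have hsub : Cfsg.IsCharacter G (π - fun _ => 1) :=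
    IsCharacter.sub_irr hπchar isIrrCharacter_one (by rw [hπ1]; exact one_ne_zero)
  have hfun : (fun g => (Nat.card (MulAction.fixedBy X g) : ℂ) - 1) = π - fun _ => 1 := rfl
  rw [hfun]
  have hnorm : Cfsg.classInner (π - fun _ => 1) (π - fun _ => 1)
      = (Nat.card (Quotient (MulAction.orbitRel G (X × X))) : ℂ) - 1 := by
    rw [classInner_sub_left, classInner_sub_right, classInner_sub_right, hππ, hπ1, h1π,
      classInner_irr_self isIrrCharacter_one]
    ring
  rw [← two_orbits_iff X hX]
  constructor
  · intro hirr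
    have h3 := classInner_irr_self hirr
    rw [hnorm] at h3
    have h2 : (Nat.card (Quotient (MulAction.orbitRel G (X × X))) : ℂ) = 2 := by
      linear_combination h3
    exact_mod_cast h2
  · intro h2
    apply isIrrCharacter_of_norm_one hsub
    rw [hnorm, h2]
    norm_num

end Cfsg.Agent.S0157
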