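import Mathlib
import Cfsg.Statements.S0159
import Cfsg.Agent.Lib.Helper2.CharLinear
import Cfsg.Agent.S0155
import Cfsg.Agent.S0156

set_option autoImplicit false
open Cfsg

namespace Cfsg.Agent.S0159

open Cfsg.Agent.Lib.Helper2

/-- The number of solutions of s * s = 1 in a finite group equals the sum, over the irreducible characters χ, of (the average over s of χ (s * s)) times χ 1. -/
theorem result {G : Type*} [Group G] [Fintype G] : (Nat.card {s : G // s * s = 1} : ℂ) = ∑ᶠ χ : Cfsg.IrrCharacter G, ((Nat.card G : ℂ)⁻¹ * ∑ s : G, (χ : G → ℂ) (s * s)) * (χ : G → ℂ) 1 := by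
  classical
  have := Fintype.ofFinite (Cfsg.IrrCharacter G)
  rw [finsum_eq_sum_of_fintype]
  have hreg : ∀ s : G, (Representation.leftRegular ℂ G).character (s * s)
      = ∑ χ : Cfsg.IrrCharacter G, (χ : G → ℂ) 1 * (χ : G → ℂ) (s * s) := by
    intro s
    have h1 := Cfsg.Agent.S0156.result (G := G)
    rw [finsum_eq_sum_of_fintype] at h1
    rw [h1, Finset.sum_apply]
    rfl
  have hrhs : ∑ χ : Cfsg.IrrCharacter G, ((Nat.card G : ℂ)⁻¹ * ∑ s : G, (χ : G → ℂ) (s * s)) * (χ : G → ℂ) 1
      = (Nat.card G : ℂ)⁻¹ * ∑ s : G, (Representation.leftRegular ℂ G).character (s * s) := by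
    simp only [hreg]
    rw [Finset.sum_comm, Finset.mul_sum]
    apply Finset.sum_congr rfl
    intro χ _
    rw [mul_assoc, Finset.sum_mul]
    congr 1
    apply Finset.sum_congr rfl
    intro s _
    ring
  rw [hrhs]
  simp only [Cfsg.Agent.S0155.result]
  rw [Finset.sum_ite, Finset.sum_const_zero, add_zero, Finset.sum_const, nsmul_eq_mul, ← mul_assoc,
    mul_comm _ ((Finset.univ.filter (fun s : G => s * s = 1)).card : ℂ), mul_assoc,
    inv_mul_cancel₀ (card_ne_zero_complex G), mul_one]
  congr 1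
  rw [Nat.card_eq_fintype_card, Fintype.card_subtype]

end Cfsg.Agent.S0159
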