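import Mathlib
import Cfsg.Statements.S0165
import Cfsg.Agent.Lib.Helper25.BlockOrth
import Cfsg.Agent.Lib.Helper25.Codegree
import Cfsg.Agent.Lib.Helper2.CharIntegral

set_option autoImplicit false
open Cfsg

namespace Cfsg.Agent.S0165

open Cfsg.Agent.Lib.Helper2


/-- If p ^ n is the exact power of the prime p dividing the order of a finite group and p ^ n divides the degree of an irreducible complex representation, then its character vanishes at every element of order divisible by p. -/
theorem result {G : Type*} [Group G] [Finite G] {V : Type*} [AddCommGroup V] [Module ℂ V] [FiniteDimensional ℂ V] (ρ : Representation ℂ G V) [ρ.IsIrreducible] (p n : ℕ) (hp : p.Prime) (hn : p ^ n ∣ Nat.card G) (hn' : ¬ p ^ (n + 1) ∣ Nat.card G) (hdeg : p ^ n ∣ Module.finrank ℂ V) (x : G) (hx : p ∣ orderOf x) : ρ.character x = 0 := by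
  classical
  have := Fintype.ofFinite G
  have : Fact p.Prime := ⟨hp⟩
  obtain ⟨M, hM⟩ := Cfsg.Agent.Lib.Helper25.exists_isPModular p hp
  have hχ : Cfsg.IsIrrCharacter G ρ.character := isIrrCharacter_of_rep ρ
  have hdvd : Module.finrank ℂ V ∣ Nat.card G := irr_degree_dvd_card ρ
  have hd : (⟨ρ.character, hχ⟩ : Cfsg.IrrCharacter G).1 1 = (Module.finrank ℂ V : ℕ) :=
    Representation.char_one ρ
  have hnd : ¬ p ∣ Nat.card G / Module.finrank ℂ V := by
    intro h
    apply hn'
    obtain ⟨c, hc⟩ := hdvd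
    obtain ⟨e, he⟩ := hdeg
    have hpos : 0 < Module.finrank ℂ V := irr_finrank_pos ρ
    rw [hc, Nat.mul_div_cancel_left _ hpos] at h
    obtain ⟨f, hf⟩ := h
    rw [hc, he, hf, pow_succ]
    exact ⟨e * f, by ring⟩
  exact Cfsg.Agent.Lib.Helper25.irr_vanish_of_defect_zero hM ⟨ρ.character, hχ⟩
    (Module.finrank ℂ V) hd hdvd hnd x hx

end Cfsg.Agent.S0165
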