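import Mathlib
import Cfsg.Statements.S0167
import Cfsg.Agent.Lib.Helper2.CharIntegral

set_option autoImplicit false
open Cfsg

namespace Cfsg.Agent.S0167

open Cfsg.Agent.Lib.Helper2

open Representation Module
open scoped ComplexConjugate

section aux
variable {G : Type*} [Group G] [Fintype G]
variable {V : Type*} [AddCommGroup V] [Module ℂ V] [FiniteDimensional ℂ V]

theorem sum_conj_rep (ρ : Representation ℂ G V) [ρ.IsIrreducible] (a : G) :
    ∑ x : G, ρ (x * a * x⁻¹)
      = (((Nat.card G : ℂ) * ρ.character a) / (finrank ℂ V : ℂ)) • (LinearMap.id : V →ₗ[ℂ] V) := by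
  set T : V →ₗ[ℂ] V := ∑ x : G, ρ (x * a * x⁻¹) with hT
  have hcomm : ∀ h, T ∘ₗ ρ h = ρ h ∘ₗ T := by
    intro h
    change T * ρ h = ρ h * T
    rw [hT, Finset.sum_mul, Finset.mul_sum]
    apply Fintype.sum_equiv (Equiv.mulLeft h⁻¹)
    intro x
    rw [← map_mul, ← map_mul]
    congr 1
    simp only [Equiv.coe_mulLeft]
    group
  obtain ⟨c, hc⟩ := schur_scalar ρ T hcomm
  have htr : LinearMap.trace ℂ V T = (Nat.card G : ℂ) * ρ.character a := by
    rw [hT, map_sum]
    have : ∀ x : G, LinearMap.trace ℂ V (ρ (x * a * x⁻¹)) = ρ.character a :=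
      fun x => Representation.char_conj ρ a x
    simp only [this]
    rw [Finset.sum_const, Finset.card_univ, nsmul_eq_mul, Nat.card_eq_fintype_card]
  rw [hc, map_smul, LinearMap.trace_id, smul_eq_mul] at htr
  have hpos := irr_finrank_pos ρ
  have hd : (finrank ℂ V : ℂ) ≠ 0 := by exact_mod_cast hpos.ne'
  rw [hc, ← htr]
  congr 1
  field_simp

theorem sum_char_conj_mul (ρ : Representation ℂ G V) [ρ.IsIrreducible] (a y : G) :
    ∑ x : G, ρ.character (x * a * x⁻¹ * y)
      = (Nat.card G : ℂ) * ρ.character a * ρ.character y / (finrank ℂ V : ℂ) := by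
  have h := sum_conj_rep ρ a
  have h2 := congrArg (fun T => LinearMap.trace ℂ V (T * ρ y)) h
  rw [Finset.sum_mul, map_sum] at h2
  have e : ∀ x : G, LinearMap.trace ℂ V (ρ (x * a * x⁻¹) * ρ y)
      = ρ.character (x * a * x⁻¹ * y) := by
    intro x
    rw [← map_mul]
    rfl
  simp only [e] at h2
  rw [h2, smul_mul_assoc, map_smul, smul_eq_mul]
  have h3 : (LinearMap.id : V →ₗ[ℂ] V) * ρ y = ρ y := one_mul _
  rw [h3]
  change _ * ρ.character y = _
  ring

theorem sum_char_mul_conj (ρ : Representation ℂ G V) [ρ.IsIrreducible] :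
    ∑ g : G, ρ.character g * conj (ρ.character g) = (Nat.card G : ℂ) := by
  have hirr := isIrrCharacter_of_rep ρ
  have h1 := classInner_irr_self hirr
  rw [classInner_def] at h1
  have hne := card_ne_zero_complex G
  calc ∑ g : G, ρ.character g * conj (ρ.character g)
      = (Nat.card G : ℂ) * ((Nat.card G : ℂ)⁻¹ * ∑ g : G, ρ.character g * conj (ρ.character g)) := by
        field_simp
    _ = (Nat.card G : ℂ) := by rw [h1, mul_one]

theorem sum_char_commutator (ρ : Representation ℂ G V) [ρ.IsIrreducible] :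
    ∑ a : G, ∑ b : G, ρ.character (a * b * a⁻¹ * b⁻¹)
      = (Nat.card G : ℂ) ^ 2 / (finrank ℂ V : ℂ) := by
  rw [Finset.sum_comm]
  have h1 : ∀ b : G, ∑ a : G, ρ.character (a * b * a⁻¹ * b⁻¹)
      = (Nat.card G : ℂ) * ρ.character b * ρ.character b⁻¹ / (finrank ℂ V : ℂ) :=
    fun b => sum_char_conj_mul ρ b b⁻¹
  simp only [h1]
  rw [← Finset.sum_div]
  have h2 : ∑ b : G, (Nat.card G : ℂ) * ρ.character b * ρ.character b⁻¹
      = (Nat.card G : ℂ) * ∑ b : G, ρ.character b * conj (ρ.character b) := by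
    rw [Finset.mul_sum]
    apply Finset.sum_congr rfl
    intro b _
    rw [char_inv]
    ring
  rw [h2, sum_char_mul_conj]
  ring

end aux


/-- An element g of a finite group is a commutator if and only if the sum over the irreducible characters χ of χ g / χ 1 is nonzero. -/
theorem result {G : Type*} [Group G] [Finite G] (g : G) : (∃ a b : G, g = a * b * a⁻¹ * b⁻¹) ↔ ∑ᶠ χ : Cfsg.IrrCharacter G, (χ : G → ℂ) g / (χ : G → ℂ) 1 ≠ 0 := by
  classical
  have := Fintype.ofFinite G
  have := Fintype.ofFinite (Cfsg.IrrCharacter G)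
  rw [finsum_eq_sum_of_fintype]
  let N : G → ℂ := fun g => ∑ a : G, ∑ b : G, if a * b * a⁻¹ * b⁻¹ = g then 1 else 0
  have hNcf : Cfsg.IsClassFunction G N := by
    intro g h
    change (∑ a : G, ∑ b : G, if a * b * a⁻¹ * b⁻¹ = h * g * h⁻¹ then (1 : ℂ) else 0)
      = ∑ a : G, ∑ b : G, if a * b * a⁻¹ * b⁻¹ = g then (1 : ℂ) else 0
    apply Fintype.sum_equiv (MulAut.conj h⁻¹).toEquiv
    intro a
    apply Fintype.sum_equiv (MulAut.conj h⁻¹).toEquiv
    intro b
    have hiff : a * b * a⁻¹ * b⁻¹ = h * g * h⁻¹ ↔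
        (h⁻¹ * a * h) * (h⁻¹ * b * h) * (h⁻¹ * a * h)⁻¹ * (h⁻¹ * b * h)⁻¹ = g := by
      constructor
      · intro e
        have e2 : h⁻¹ * a * h * (h⁻¹ * b * h) * (h⁻¹ * a * h)⁻¹ * (h⁻¹ * b * h)⁻¹
            = h⁻¹ * (a * b * a⁻¹ * b⁻¹) * h := by group
        rw [e2, e]
        group
      · intro e
        have e2 : a * b * a⁻¹ * b⁻¹
            = h * (h⁻¹ * a * h * (h⁻¹ * b * h) * (h⁻¹ * a * h)⁻¹ * (h⁻¹ * b * h)⁻¹) * h⁻¹ := by
          group
        rw [e2, e]
    simp only [MulEquiv.toEquiv_eq_coe, MulEquiv.coe_toEquiv, MulAut.conj_apply, inv_inv]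
    rw [if_congr hiff rfl rfl]
  have hNsum : ∀ F : G → ℂ, ∑ g : G, N g * F g = ∑ a : G, ∑ b : G, F (a * b * a⁻¹ * b⁻¹) := by
    intro F
    simp only [N, Finset.sum_mul]
    rw [Finset.sum_comm]
    apply Finset.sum_congr rfl
    intro a _
    rw [Finset.sum_comm]
    apply Finset.sum_congr rfl
    intro b _
    simp [ite_mul]
  have hinner : ∀ χ : Cfsg.IrrCharacter G,
      Cfsg.classInner N χ = (Nat.card G : ℂ) / (χ : G → ℂ) 1 := by
    intro χ
    obtain ⟨n, ρ, hρ, hχ⟩ := χ.2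
    rw [classInner_def, hNsum, ← hχ]
    have e1 : ∑ a : G, ∑ b : G, (starRingEnd ℂ) (ρ.character (a * b * a⁻¹ * b⁻¹))
        = (starRingEnd ℂ) (∑ a : G, ∑ b : G, ρ.character (a * b * a⁻¹ * b⁻¹)) := by
      simp [map_sum]
    rw [e1, sum_char_commutator, Representation.char_one]
    have hne := card_ne_zero_complex G
    have hpos := irr_finrank_pos ρ
    have hd : (finrank ℂ (Fin n → ℂ) : ℂ) ≠ 0 := by exact_mod_cast hpos.ne'
    simp only [map_div₀, map_pow, Complex.conj_natCast]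
    field_simp
  have hexp := congrFun (class_fun_expand N hNcf) g
  rw [Finset.sum_apply] at hexp
  have hN : N g = (Nat.card G : ℂ) * ∑ χ : Cfsg.IrrCharacter G, (χ : G → ℂ) g / (χ : G → ℂ) 1 := by
    rw [hexp, Finset.mul_sum]
    apply Finset.sum_congr rfl
    intro χ _
    rw [Pi.smul_apply, smul_eq_mul, hinner]
    ring
  have hne := card_ne_zero_complex G
  have hnat : N g = ((∑ a : G, ∑ b : G, if a * b * a⁻¹ * b⁻¹ = g then 1 else 0 : ℕ) : ℂ) := by
    simp only [N]
    push_cast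
    rfl
  constructor
  · rintro ⟨a, b, hab⟩ h0
    rw [h0, mul_zero, hnat] at hN
    have h1 : (∑ a : G, ∑ b : G, if a * b * a⁻¹ * b⁻¹ = g then 1 else 0 : ℕ) = 0 := by
      exact_mod_cast hN
    have h2 := Finset.sum_eq_zero_iff.mp h1 a (Finset.mem_univ a)
    have h3 := Finset.sum_eq_zero_iff.mp h2 b (Finset.mem_univ b)
    rw [if_pos hab.symm] at h3
    exact one_ne_zero h3
  · intro hsum
    have hNg : N g ≠ 0 := by
      rw [hN]
      exact mul_ne_zero hne hsum
    by_contra hno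
    push Not at hno
    apply hNg
    simp only [N]
    apply Finset.sum_eq_zero
    intro a _
    apply Finset.sum_eq_zero
    intro b _
    rw [if_neg (fun e => hno a b e.symm)]

end Cfsg.Agent.S0167
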