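import Mathlib
import Cfsg.Statements.S0168
import Cfsg.Agent.Lib.Helper2.CharIntegral
import Cfsg.Agent.Lib.Helper2.CharLinear

set_option autoImplicit false
open Cfsg

namespace Cfsg.Agent.S0168

open Cfsg.Agent.Lib.Helper2

open Representation Module
open scoped ComplexConjugate


/-- The Burnside–Brauer Theorem. Let χ be the character of a faithful complex representation of a finite group, taking m distinct values. Then every irreducible character has nonzero inner product with χ ^ i for some i < m. -/
theorem result {G : Type*} [Group G] [Fintype G] {V : Type*} [AddCommGroup V] [Module ℂ V] [FiniteDimensional ℂ V] (ρ : Representation ℂ G V) (hfaithful : Function.Injective ρ) (ψ : G → ℂ) (hψ : Cfsg.IsIrrCharacter G ψ) : ∃ i : ℕ, i < Nat.card (Set.range ρ.character) ∧ Cfsg.classInner (fun g => ρ.character g ^ i) ψ ≠ 0 := by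
  classical
  by_contra hcon
  push Not at hcon
  have hχ1 : ρ.character 1 = (finrank ℂ V : ℂ) := Representation.char_one ρ
  let S : Finset ℂ := Finset.univ.image ρ.character
  have hcard : Nat.card (Set.range ρ.character) = S.card := by
    rw [Nat.card_coe_set_eq, ← Set.ncard_coe_finset]
    congr 1
    ext z
    simp [S]
  have hdS : (finrank ℂ V : ℂ) ∈ S := Finset.mem_image.mpr ⟨1, Finset.mem_univ _, hχ1⟩
  let P : Polynomial ℂ := ∏ a ∈ S.erase (finrank ℂ V : ℂ), (Polynomial.X - Polynomial.C a)
  have hdeg : P.natDegree = S.card - 1 := by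
    rw [Polynomial.natDegree_prod_of_monic]
    · simp [Finset.card_erase_of_mem hdS]
    · intro a _
      exact Polynomial.monic_X_sub_C a
  have hScard : 0 < S.card := Finset.card_pos.mpr ⟨_, hdS⟩
  have hsum0 : ∑ g : G, P.eval (ρ.character g) * conj (ψ g) = 0 := by
    simp only [Polynomial.eval_eq_sum_range, Finset.sum_mul]
    rw [Finset.sum_comm]
    apply Finset.sum_eq_zero
    intro i hi
    rw [Finset.mem_range] at hi
    have hi' : i < Nat.card (Set.range ρ.character) := by
      rw [hcard]
      omega
    have h0 := hcon i hi'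
    rw [classInner_def] at h0
    have hne := card_ne_zero_complex G
    have h1 : ∑ g : G, ρ.character g ^ i * conj (ψ g) = 0 := by
      rcases mul_eq_zero.mp h0 with h | h
      · exact absurd (inv_eq_zero.mp h) hne
      · exact h
    have h2 : ∑ g : G, P.coeff i * ρ.character g ^ i * conj (ψ g)
        = P.coeff i * ∑ g : G, ρ.character g ^ i * conj (ψ g) := by
      rw [Finset.mul_sum]
      apply Finset.sum_congr rfl
      intro g _
      ring
    rw [h2, h1, mul_zero]
  have hsum1 : ∑ g : G, P.eval (ρ.character g) * conj (ψ g)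
      = P.eval (finrank ℂ V : ℂ) * conj (ψ 1) := by
    rw [Finset.sum_eq_single (1 : G)]
    · rw [hχ1]
    · intro g _ hg
      have hne : ρ.character g ≠ (finrank ℂ V : ℂ) := by
        intro e
        apply hg
        have h3 := (char_eq_finrank_iff ρ g).mp e
        apply hfaithful
        rw [h3, map_one]
        rfl
      have hmem : ρ.character g ∈ S.erase (finrank ℂ V : ℂ) :=
        Finset.mem_erase.mpr ⟨hne, Finset.mem_image.mpr ⟨g, Finset.mem_univ _, rfl⟩⟩
      have h4 : P.eval (ρ.character g) = 0 := by
        simp only [P]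
        rw [Polynomial.eval_prod]
        apply Finset.prod_eq_zero hmem
        simp
      rw [h4, zero_mul]
    · intro h
      exact absurd (Finset.mem_univ _) h
  have hPd : P.eval (finrank ℂ V : ℂ) ≠ 0 := by
    simp only [P]
    rw [Polynomial.eval_prod]
    apply Finset.prod_ne_zero_iff.mpr
    intro a ha
    simp only [Polynomial.eval_sub, Polynomial.eval_X, Polynomial.eval_C]
    exact sub_ne_zero.mpr (Finset.ne_of_mem_erase ha).symm
  obtain ⟨n, hn, hψ1⟩ := irr_apply_one hψ
  rw [hsum1] at hsum0
  rcases mul_eq_zero.mp hsum0 with h | h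
  · exact hPd h
  · rw [hψ1] at h
    simp at h
    omega

end Cfsg.Agent.S0168
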