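import Mathlib
import Cfsg.Statements.S0171
import Cfsg.Agent.Lib.Helper2.CharClifford
import Cfsg.Agent.S0193

set_option autoImplicit false
open Cfsg

namespace Cfsg.Agent.S0171

open Cfsg.Agent.Lib.Helper2


/-- Let G = K H with K normal, K ⊓ H trivial, and no non-identity element of H commuting with a non-identity element of K (a Frobenius group with kernel K and complement H). Then every non-principal irreducible character of K induces to an irreducible character of G. -/
theorem result {G : Type*} [Group G] [Fintype G] (K H : Subgroup G) [K.Normal] (hKH : K ⊓ H = ⊥) (hKH' : K ⊔ H = ⊤) (hfpf : ∀ h ∈ H, h ≠ 1 → ∀ k ∈ K, h * k = k * h → k = 1) (τ : K → ℂ) (hτ : Cfsg.IsIrrCharacter K τ) (hτ1 : τ ≠ fun _ => 1) : Cfsg.IsIrrCharacter G (Cfsg.indFun K τ) := by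
  classical
  have := Fintype.ofFinite K
  have hKn : K.Normal := inferInstance
  have hchar : Cfsg.IsCharacter G (Cfsg.indFun K τ) :=
    indFun_isCharacter K (isCharacter_of_isIrrCharacter hτ)
  apply isIrrCharacter_of_norm_one hchar
  have hS := Cfsg.Agent.S0193.result K τ hτ
  -- Frobenius sub-lemma
  have hfrob : ∀ h ∈ H, h ≠ 1 → ∀ u ∈ K, ∀ k ∈ K, (u * h) * k = k * (u * h) → k = 1 := by
    intro h hh hh1 u hu k hk hcomm
    let ψ : K → K := fun x => ⟨(x : G)⁻¹ * (h * x * h⁻¹),
      K.mul_mem (K.inv_mem x.2) (hKn.conj_mem x x.2 h)⟩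
    have hinj : Function.Injective ψ := by
      intro x y hxy
      have h1 : (x : G)⁻¹ * (h * x * h⁻¹) = (y : G)⁻¹ * (h * y * h⁻¹) := congrArg Subtype.val hxy
      have h2 : h * ((y : G) * (x : G)⁻¹) = ((y : G) * (x : G)⁻¹) * h := by
        calc h * ((y : G) * (x : G)⁻¹)
            = (y : G) * ((y : G)⁻¹ * (h * y * h⁻¹)) * h * (x:G)⁻¹ := by group
          _ = (y : G) * ((x : G)⁻¹ * (h * x * h⁻¹)) * h * (x:G)⁻¹ := by rw [h1]
          _ = ((y : G) * (x : G)⁻¹) * h := by group
      have h3 := hfpf h hh hh1 _ (K.mul_mem y.2 (K.inv_mem x.2)) h2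
      apply Subtype.ext
      rw [mul_inv_eq_one] at h3
      exact h3.symm
    have hsurj := Finite.surjective_of_injective hinj
    obtain ⟨x, hx⟩ := hsurj ⟨u, hu⟩
    have hx' : (x : G)⁻¹ * (h * x * h⁻¹) = u := congrArg Subtype.val hx
    have e : u * h = (x : G)⁻¹ * h * x := by rw [← hx']; group
    rw [e] at hcomm
    have h2 : h * ((x : G) * k * (x : G)⁻¹) = ((x : G) * k * (x : G)⁻¹) * h := by
      calc h * ((x : G) * k * (x : G)⁻¹)
          = (x : G) * (((x : G)⁻¹ * h * x) * k) * (x : G)⁻¹ := by group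
        _ = (x : G) * (k * ((x : G)⁻¹ * h * x)) * (x : G)⁻¹ := by rw [hcomm]
        _ = ((x : G) * k * (x : G)⁻¹) * h := by group
    have h3 := hfpf h hh hh1 _ (hKn.conj_mem k hk x) h2
    have : k = (x : G)⁻¹ * ((x : G) * k * (x : G)⁻¹) * x := by group
    rw [this, h3]
    group
  -- fixed characters under h ≠ 1 are trivial
  have hfix : ∀ h ∈ H, h ≠ 1 → conjFun K τ h = τ → False := by
    intro h hh hh1 hfixed
    let α : K ≃* K := MulAut.conjNormal h
    have hcard := card_fixed_irr_eq_card_fixed_classes (⇑α)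
      (fun χ hχ => isIrrCharacter_comp_mulEquiv hχ α)
      (fun g g' hgg => MonoidHom.map_isConj α.toMonoidHom hgg)
    have hsub : Subsingleton
        {C : ConjClasses K // ∀ g : K, ConjClasses.mk g = C → IsConj (α g) g} := by
      have hall : ∀ C : {C : ConjClasses K // ∀ g : K, ConjClasses.mk g = C → IsConj (α g) g},
          C.1 = ConjClasses.mk 1 := by
        intro C
        obtain ⟨k, hk⟩ := ConjClasses.exists_rep C.1
        have hc := C.2 k hk
        obtain ⟨u, hu⟩ := isConj_iff.mp hc
        have hu' : (u : G) * (h * k * h⁻¹) * (u : G)⁻¹ = k := by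
          have := congrArg Subtype.val hu
          simpa [α, MulAut.conjNormal_apply] using this
        have hcomm : ((u : G) * h) * k = k * ((u : G) * h) := by
          calc ((u : G) * h) * k
              = ((u : G) * (h * k * h⁻¹) * (u : G)⁻¹) * ((u : G) * h) := by group
            _ = k * ((u : G) * h) := by rw [hu']
        have hk1 := hfrob h hh hh1 u u.2 k k.2 hcomm
        rw [← hk]
        congr 1
        exact Subtype.ext hk1
      exact ⟨fun C C' => Subtype.ext ((hall C).trans (hall C').symm)⟩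
    have hle : Nat.card {χ : Cfsg.IrrCharacter K // (χ : K → ℂ) ∘ ⇑α = (χ : K → ℂ)} ≤ 1 := by
      rw [hcard]
      exact Finite.card_le_one_iff_subsingleton.mpr hsub
    have hsub2 : Subsingleton {χ : Cfsg.IrrCharacter K // (χ : K → ℂ) ∘ ⇑α = (χ : K → ℂ)} :=
      Finite.card_le_one_iff_subsingleton.mp hle
    have e := hsub2.elim ⟨⟨τ, hτ⟩, hfixed⟩ ⟨⟨fun _ => 1, isIrrCharacter_one⟩, rfl⟩
    exact hτ1 (congrArg (fun x => (x.1 : K → ℂ)) e)
  -- stabilizer = K
  have hstab : Nat.card {g : G // ∀ k : K, τ ⟨g * k * g⁻¹, hKn.conj_mem k k.2 g⟩ = τ k}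
      = Nat.card K := by
    apply Nat.card_congr
    apply Equiv.subtypeEquivRight
    intro g
    constructor
    · intro hg
      have hgm : g ∈ K ⊔ H := by rw [hKH']; trivial
      rw [← SetLike.mem_coe, Subgroup.normal_mul] at hgm
      obtain ⟨k₀, hk₀, h, hh, rfl⟩ := Set.mem_mul.mp hgm
      by_cases h1 : h = 1
      · rw [h1, mul_one]; exact hk₀
      · exfalso
        apply hfix h hh h1
        have e1 : conjFun K τ (k₀ * h) = τ := by
          funext k
          rw [conjFun_apply]
          exact hg k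
        rw [conjFun_mul, conjFun_of_mem K (isClassFunction_of_isIrrCharacter hτ) hk₀] at e1
        exact e1
    · intro hg k
      have := conjFun_of_mem K (isClassFunction_of_isIrrCharacter hτ) hg
      have h2 := congrFun this k
      rw [conjFun_apply] at h2
      exact h2
  rw [hstab] at hS
  have hK : (Nat.card K : ℂ) ≠ 0 := card_ne_zero_complex K
  exact mul_left_cancel₀ hK (by rw [hS, mul_one])

end Cfsg.Agent.S0171
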