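import Mathlib
import Cfsg.Statements.S0172

set_option autoImplicit false
open Cfsg

namespace Cfsg.Agent.S0172

theorem card_comm_eq_sum (X : Type*) [Group X] [Fintype X] :
    Nat.card {p : X × X // Commute p.1 p.2} = ∑ a : X, Nat.card {b : X // Commute a b} := by
  rw [Nat.card_congr (Equiv.subtypeProdEquivSigmaSubtype (fun a b : X => Commute a b)),
    Nat.card_sigma]

theorem card_comm_one (X : Type*) [Group X] :
    Nat.card {b : X // Commute (1 : X) b} = Nat.card X :=
  Nat.card_congr (Equiv.subtypeUnivEquiv (fun b => Commute.one_left b))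

theorem card_comm_conj {X : Type*} [Group X] (u a : X) :
    Nat.card {b : X // Commute (u⁻¹ * a * u) b} = Nat.card {b : X // Commute a b} := by
  apply Nat.card_congr
  exact
    { toFun := fun b => ⟨u * b.1 * u⁻¹, by
        have h : (u⁻¹ * a * u) * b.1 = b.1 * (u⁻¹ * a * u) := b.2
        show a * (u * b.1 * u⁻¹) = (u * b.1 * u⁻¹) * a
        calc a * (u * b.1 * u⁻¹) = u * ((u⁻¹ * a * u) * b.1) * u⁻¹ := by group
          _ = u * (b.1 * (u⁻¹ * a * u)) * u⁻¹ := by rw [h]
          _ = (u * b.1 * u⁻¹) * a := by group⟩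
      invFun := fun b => ⟨u⁻¹ * b.1 * u, by
        have h : a * b.1 = b.1 * a := b.2
        show (u⁻¹ * a * u) * (u⁻¹ * b.1 * u) = (u⁻¹ * b.1 * u) * (u⁻¹ * a * u)
        calc (u⁻¹ * a * u) * (u⁻¹ * b.1 * u) = u⁻¹ * (a * b.1) * u := by group
          _ = u⁻¹ * (b.1 * a) * u := by rw [h]
          _ = (u⁻¹ * b.1 * u) * (u⁻¹ * a * u) := by group⟩
      left_inv := fun b => by apply Subtype.ext; simp [mul_assoc]
      right_inv := fun b => by apply Subtype.ext; simp [mul_assoc] }

theorem card_comm_subgroup {X : Type*} [Group X] (S : Subgroup X) (a : X) (ha : a ∈ S)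
    (h : ∀ b : X, a * b = b * a → b ∈ S) :
    Nat.card {b : X // Commute a b} = Nat.card {b : S // Commute (⟨a, ha⟩ : S) b} := by
  apply Nat.card_congr
  exact
    { toFun := fun b => ⟨⟨b.1, h b.1 b.2⟩, by
        have hb : a * b.1 = b.1 * a := b.2
        show (⟨a, ha⟩ : S) * ⟨b.1, h b.1 b.2⟩ = ⟨b.1, h b.1 b.2⟩ * ⟨a, ha⟩
        exact Subtype.ext hb⟩
      invFun := fun b => ⟨b.1, by
        have hb : (⟨a, ha⟩ : S) * b.1 = b.1 * ⟨a, ha⟩ := b.2
        exact congrArg Subtype.val hb⟩
      left_inv := fun b => rfl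
      right_inv := fun b => rfl }

/-- Class number of a Frobenius group: if G = K H with K normal, K ⊓ H trivial and no non-identity element of H commuting with a non-identity element of K, then |H| * k(G) + 1 = |H| * k(H) + k(K), where k denotes the number of conjugacy classes. -/
theorem result {G : Type*} [Group G] [Finite G] (K H : Subgroup G) [K.Normal] (hKH : K ⊓ H = ⊥) (hKH' : K ⊔ H = ⊤) (hfpf : ∀ h ∈ H, h ≠ 1 → ∀ k ∈ K, h * k = k * h → k = 1) : Nat.card H * Nat.card (ConjClasses G) + 1 = Nat.card H * Nat.card (ConjClasses H) + Nat.card (ConjClasses K) := by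
  classical
  have := Fintype.ofFinite G
  have hKn : K.Normal := inferInstance
  have hdec : ∀ g : G, ∃ k ∈ K, ∃ h ∈ H, g = k * h := by
    intro g
    have hg : g ∈ ((K ⊔ H : Subgroup G) : Set G) := by rw [hKH']; trivial
    rw [Subgroup.normal_mul] at hg
    obtain ⟨k, hk, h, hh, rfl⟩ := Set.mem_mul.mp hg
    exact ⟨k, hk, h, hh, rfl⟩
  have hinter : ∀ x, x ∈ K → x ∈ H → x = 1 := by
    intro x hxK hxH
    have : x ∈ K ⊓ H := ⟨hxK, hxH⟩
    rw [hKH] at this
    exact Subgroup.mem_bot.mp this
  have hL : ∀ h ∈ H, h ≠ 1 → ∀ k ∈ K, ∃ u ∈ K, u⁻¹ * h * u = k * h := by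
    intro h hh hne k hk
    let f : K → K := fun u => ⟨(u : G)⁻¹ * (h * u * h⁻¹),
      K.mul_mem (K.inv_mem u.2) (hKn.conj_mem u u.2 h)⟩
    have hf : Function.Injective f := by
      intro u v huv
      have h1 : (u : G)⁻¹ * (h * u * h⁻¹) = (v : G)⁻¹ * (h * v * h⁻¹) := congrArg Subtype.val huv
      have e : (u : G)⁻¹ * h * u = (v : G)⁻¹ * h * v := by
        calc (u : G)⁻¹ * h * u = ((u : G)⁻¹ * (h * u * h⁻¹)) * h := by group
          _ = ((v : G)⁻¹ * (h * v * h⁻¹)) * h := by rw [h1]
          _ = (v : G)⁻¹ * h * v := by group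
      have h2 : h * ((v : G) * (u : G)⁻¹) = ((v : G) * (u : G)⁻¹) * h := by
        calc h * ((v : G) * (u : G)⁻¹) = v * ((v : G)⁻¹ * h * v) * (u : G)⁻¹ := by group
          _ = v * ((u : G)⁻¹ * h * u) * (u : G)⁻¹ := by rw [e]
          _ = ((v : G) * (u : G)⁻¹) * h := by group
      have h3 := hfpf h hh hne _ (K.mul_mem v.2 (K.inv_mem u.2)) h2
      apply Subtype.ext
      exact (mul_inv_eq_one.mp h3).symm
    obtain ⟨u, hu⟩ := Finite.surjective_of_injective hf ⟨k, hk⟩
    refine ⟨u, u.2, ?_⟩
    have h4 : (u : G)⁻¹ * (h * u * h⁻¹) = k := congrArg Subtype.val hu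
    rw [← h4]
    group
  have hC1 : ∀ h ∈ H, h ≠ 1 → ∀ b : G, h * b = b * h → b ∈ H := by
    intro h hh hne b hb
    obtain ⟨k, hk, h', hh', rfl⟩ := hdec b
    have h1 : k * (h' * h * h'⁻¹) * k⁻¹ = h := by
      calc k * (h' * h * h'⁻¹) * k⁻¹ = (k * h' * h) * (k * h')⁻¹ := by group
        _ = h * (k * h') * (k * h')⁻¹ := by rw [hb]
        _ = h := by group
    have hh'' : h' * h * h'⁻¹ ∈ H := H.mul_mem (H.mul_mem hh' hh) (H.inv_mem hh')
    generalize h' * h * h'⁻¹ = h'' at h1 hh''
    have h2 : k * h'' * k⁻¹ * h''⁻¹ = 1 := by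
      apply hinter
      · have : k * h'' * k⁻¹ * h''⁻¹ = k * (h'' * k⁻¹ * h''⁻¹) := by group
        rw [this]
        exact K.mul_mem hk (hKn.conj_mem _ (K.inv_mem hk) h'')
      · rw [h1]
        exact H.mul_mem hh (H.inv_mem hh'')
    have h3 : h'' = h := by
      rw [h1] at h2
      exact (mul_inv_eq_one.mp h2).symm
    rw [h3] at h1
    have h4 : h * k = k * h := by
      calc h * k = (k * h * k⁻¹) * k := by rw [h1]
        _ = k * h := by group
    have h5 := hfpf h hh hne k hk h4
    rw [h5, one_mul]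
    exact hh'
  have hB : ∀ a ∈ K, a ≠ 1 → ∀ b : G, a * b = b * a → b ∈ K := by
    intro a ha hne b hb
    obtain ⟨k, hk, h, hh, rfl⟩ := hdec b
    by_cases h1 : h = 1
    · rw [h1, mul_one]
      exact hk
    · exfalso
      obtain ⟨u, hu, hu'⟩ := hL h hh h1 k hk
      rw [← hu'] at hb
      have h2 : h * (u * a * u⁻¹) = (u * a * u⁻¹) * h := by
        calc h * (u * a * u⁻¹) = u * ((u⁻¹ * h * u) * a) * u⁻¹ := by group
          _ = u * (a * (u⁻¹ * h * u)) * u⁻¹ := by rw [hb]
          _ = (u * a * u⁻¹) * h := by group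
      have h3 := hfpf h hh h1 _ (hKn.conj_mem a ha u) h2
      apply hne
      have : a = u⁻¹ * (u * a * u⁻¹) * u := by group
      rw [this, h3]
      group
  -- the bijection K × H → G
  have hbij : Function.Bijective (fun p : K × H => (p.1 : G) * (p.2 : G)) := by
    constructor
    · rintro ⟨k, h⟩ ⟨k', h'⟩ hp
      have hp' : (k : G) * h = k' * h' := hp
      have h1 : (k' : G)⁻¹ * k = h' * (h : G)⁻¹ := by
        calc (k' : G)⁻¹ * k = (k' : G)⁻¹ * (k * h) * (h : G)⁻¹ := by group
          _ = (k' : G)⁻¹ * (k' * h') * (h : G)⁻¹ := by rw [hp']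
          _ = h' * (h : G)⁻¹ := by group
      have h2 : (k' : G)⁻¹ * k = 1 := by
        apply hinter _ (K.mul_mem (K.inv_mem k'.2) k.2)
        rw [h1]
        exact H.mul_mem h'.2 (H.inv_mem h.2)
      have h3 : (h' : G) * (h : G)⁻¹ = 1 := by rw [← h1, h2]
      have e1 : (k : G) = k' := (inv_mul_eq_one.mp h2).symm
      have e2 : (h : G) = h' := (mul_inv_eq_one.mp h3).symm
      exact Prod.ext (Subtype.ext e1) (Subtype.ext e2)
    · intro g
      obtain ⟨k, hk, h, hh, rfl⟩ := hdec g
      exact ⟨(⟨k, hk⟩, ⟨h, hh⟩), rfl⟩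
  have hcardG : Nat.card G = Nat.card K * Nat.card H := by
    rw [← Nat.card_prod]
    exact (Nat.card_congr (Equiv.ofBijective _ hbij)).symm
  -- counting
  have cG := card_comm_eq_card_conjClasses_mul_card G
  have cK := card_comm_eq_card_conjClasses_mul_card K
  have cH := card_comm_eq_card_conjClasses_mul_card H
  rw [card_comm_eq_sum] at cG cK cH
  have sK : ∑ a : K, Nat.card {b : K // Commute a b}
      = Nat.card K + ∑ a ∈ (Finset.univ : Finset K).erase 1, Nat.card {b : K // Commute a b} := by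
    rw [← Finset.add_sum_erase _ _ (Finset.mem_univ (1 : K)), card_comm_one]
  have sH : ∑ a : H, Nat.card {b : H // Commute a b}
      = Nat.card H + ∑ a ∈ (Finset.univ : Finset H).erase 1, Nat.card {b : H // Commute a b} := by
    rw [← Finset.add_sum_erase _ _ (Finset.mem_univ (1 : H)), card_comm_one]
  have sG : ∑ a : G, Nat.card {b : G // Commute a b}
      = Nat.card G + ∑ a ∈ (Finset.univ : Finset K).erase 1, Nat.card {b : K // Commute a b}
        + Nat.card K * ∑ a ∈ (Finset.univ : Finset H).erase 1, Nat.card {b : H // Commute a b} := by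
    rw [← (Equiv.ofBijective _ hbij).sum_comp, Fintype.sum_prod_type]
    have h1 : ∀ k : K, ∑ h : H, Nat.card {b : G // Commute
          ((Equiv.ofBijective (fun p : K × H => (p.1 : G) * (p.2 : G)) hbij) (k, h)) b}
        = Nat.card {b : G // Commute (k : G) b}
          + ∑ a ∈ (Finset.univ : Finset H).erase 1, Nat.card {b : H // Commute a b} := by
      intro k
      rw [← Finset.add_sum_erase _ _ (Finset.mem_univ (1 : H))]
      congr 1
      · show Nat.card {b : G // Commute ((k : G) * ((1 : H) : G)) b} = _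
        rw [Subgroup.coe_one, mul_one]
      · apply Finset.sum_congr rfl
        intro h hh
        have hne : (h : G) ≠ 1 := by
          intro h0
          exact (Finset.mem_erase.mp hh).1 (Subtype.ext h0)
        show Nat.card {b : G // Commute ((k : G) * (h : G)) b} = _
        obtain ⟨u, hu, hu'⟩ := hL h h.2 hne k k.2
        rw [← hu', card_comm_conj, card_comm_subgroup H (h : G) h.2 (hC1 h h.2 hne)]
    simp only [h1]
    rw [Finset.sum_add_distrib, Finset.sum_const, Finset.card_univ, smul_eq_mul,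
      ← Nat.card_eq_fintype_card]
    congr 1
    rw [← Finset.add_sum_erase _ _ (Finset.mem_univ (1 : K))]
    congr 1
    · rw [Subgroup.coe_one, card_comm_one]
    · apply Finset.sum_congr rfl
      intro a ha
      have hne : (a : G) ≠ 1 := by
        intro h0
        exact (Finset.mem_erase.mp ha).1 (Subtype.ext h0)
      exact card_comm_subgroup K (a : G) a.2 (hB a a.2 hne)
  rw [sK] at cK
  rw [sH] at cH
  rw [sG] at cG
  have hKpos : 0 < Nat.card K := Nat.card_pos
  apply Nat.eq_of_mul_eq_mul_left hKpos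
  generalize Nat.card (ConjClasses G) = kG at *
  generalize Nat.card (ConjClasses K) = kK at *
  generalize Nat.card (ConjClasses H) = kH at *
  generalize (∑ a ∈ (Finset.univ : Finset K).erase 1, Nat.card {b : K // Commute a b}) = SK at *
  generalize (∑ a ∈ (Finset.univ : Finset H).erase 1, Nat.card {b : H // Commute a b}) = SH at *
  generalize Nat.card K = nK at *
  generalize Nat.card H = nH at *
  generalize Nat.card G = nG at *
  subst hcardG
  calc nK * (nH * kG + 1) = kG * (nK * nH) + nK := by ring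
    _ = nK * nH + SK + nK * SH + nK := by rw [← cG]
    _ = nK * (nH + SH) + (nK + SK) := by ring
    _ = nK * (kH * nH) + kK * nK := by rw [cH, cK]
    _ = nK * (nH * kH + kK) := by ring

end Cfsg.Agent.S0172
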