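import Mathlib
import Cfsg.Statements.S0173
import Cfsg.Agent.Lib.Helper2.CharPerm

set_option autoImplicit false
open Cfsg

namespace Cfsg.Agent.S0173

open Cfsg.Agent.Lib.Helper2


/-- Brauer's permutation lemma for a single automorphism: the number of conjugacy classes mapped to themselves equals the number of irreducible complex characters χ with χ ∘ α = χ. -/
theorem result {G : Type*} [Group G] [Finite G] (α : G ≃* G) : Nat.card {C : ConjClasses G // ConjClasses.map α.toMonoidHom C = C} = Nat.card {χ : Cfsg.IrrCharacter G // (χ : G → ℂ) ∘ α = (χ : G → ℂ)} := by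
  classical
  have := Fintype.ofFinite G
  rw [card_fixed_irr_eq_card_fixed_classes (⇑α)
    (fun χ hχ => isIrrCharacter_comp_mulEquiv hχ α)
    (fun g h hgh => MonoidHom.map_isConj α.toMonoidHom hgh)]
  apply Nat.card_congr
  apply Equiv.subtypeEquivRight
  intro C
  constructor
  · intro h g hg
    rw [← hg] at h
    exact ConjClasses.mk_eq_mk_iff_isConj.mp h
  · intro h
    obtain ⟨g, rfl⟩ := ConjClasses.exists_rep C
    exact ConjClasses.mk_eq_mk_iff_isConj.mpr (h g rfl)

end Cfsg.Agent.S0173
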