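import Mathlib
import Cfsg.Statements.S0178
import Cfsg.Agent.Lib.Helper2.CharMore
import Cfsg.Agent.S0148

set_option autoImplicit false
open Cfsg

namespace Cfsg.Agent.S0178

open Cfsg.Agent.Lib.Helper2

/-- The degree of an irreducible complex representation of a finite group is at most the index of any abelian subgroup. -/
theorem result {G : Type*} [Group G] [Finite G] {V : Type*} [AddCommGroup V] [Module ℂ V] [FiniteDimensional ℂ V] (ρ : Representation ℂ G V) [ρ.IsIrreducible] (A : Subgroup G) (hA : ∀ a ∈ A, ∀ b ∈ A, a * b = b * a) : Module.finrank ℂ V ≤ A.index := by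
  classical
  have := Fintype.ofFinite G
  have := Fintype.ofFinite A
  have hχ : Cfsg.IsIrrCharacter G ρ.character := isIrrCharacter_of_rep ρ
  have hres : Cfsg.IsCharacter A (fun a : A => ρ.character a) :=
    IsCharacter.restrict (isCharacter_of_isIrrCharacter hχ) A
  have hne : (fun a : A => ρ.character a) ≠ 0 := by
    intro h0
    have h1 := congrFun h0 1
    simp only [Pi.zero_apply, Subgroup.coe_one, Representation.char_one] at h1
    have hpos := irr_finrank_pos ρ
    have : Module.finrank ℂ V = 0 := by exact_mod_cast h1
    omega
  obtain ⟨lam, hlam, hinner⟩ := exists_irr_constituent hres hne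
  -- lam has degree one since A is commutative
  have hlam1 : lam 1 = 1 := by
    have : IsMulCommutative A := ⟨⟨fun a b => Subtype.ext (hA a a.2 b b.2)⟩⟩
    obtain ⟨n, σ, hσ, hσc⟩ := hlam
    have h1 := Representation.IsIrreducible.finrank_eq_one_of_isMulCommutative σ
    rw [← hσc, Representation.char_one, h1]
    simp
  -- the induced character
  have hind : Cfsg.IsCharacter G (Cfsg.indFun A lam) :=
    Cfsg.Agent.S0148.result A lam (isCharacter_of_isIrrCharacter hlam)
  have hinner2 : Cfsg.classInner (Cfsg.indFun A lam) ρ.character ≠ 0 := by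
    rw [frobenius_reciprocity A lam _ (isClassFunction_of_isIrrCharacter hχ)]
    intro h0
    apply hinner
    rw [← classInner_conj_symm, h0, map_zero]
  obtain ⟨N, d, hN, hd, hle⟩ := irr_deg_le_of_inner_ne_zero hind hχ hinner2
  rw [indFun_apply_one, hlam1, mul_one] at hN
  rw [Representation.char_one] at hd
  have e1 : A.index = N := by exact_mod_cast hN
  have e2 : Module.finrank ℂ V = d := by exact_mod_cast hd
  rw [e1, e2]
  exact hle

end Cfsg.Agent.S0178
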