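import Mathlib
import Cfsg.Statements.S0180
import Cfsg.Agent.Lib.Helper2.CharRational
import Cfsg.Agent.Lib.Helper2.CharOrtho

set_option autoImplicit false
open Cfsg

namespace Cfsg.Agent.S0180

open Cfsg.Agent.Lib.Helper2


/-- Every irreducible complex character of a finite group takes only rational values if and only if g is conjugate to g ^ m for every element g and every m coprime to the group order. -/
theorem result {G : Type*} [Group G] [Finite G] : (∀ χ : Cfsg.IrrCharacter G, ∀ g : G, ∃ q : ℚ, (χ : G → ℂ) g = (q : ℂ)) ↔ ∀ m : ℕ, m.Coprime (Nat.card G) → ∀ g : G, IsConj g (g ^ m) := by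
  classical
  have := Fintype.ofFinite G
  have := Fintype.ofFinite (Cfsg.IrrCharacter G)
  constructor
  · intro hrat m hm g
    by_contra hnc
    have horth := column_orthogonality (G := G) (g ^ m) g
    rw [colFun_of_not_isConj (fun h => hnc h.symm)] at horth
    have horth2 := column_orthogonality (G := G) g g
    rw [colFun_of_isConj (IsConj.refl g)] at horth2
    have heq : ∀ χ : Cfsg.IrrCharacter G, (χ : G → ℂ) (g ^ m) = (χ : G → ℂ) g := by
      intro χ
      obtain ⟨n, ρ, hρ, hχ⟩ := χ.2
      obtain ⟨q, hq⟩ := hrat χ g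
      rw [← hχ] at hq ⊢
      exact char_pow_eq_of_rational ρ g q hq m hm
    simp only [heq] at horth
    rw [horth] at horth2
    have hne : (Nat.card (Subgroup.centralizer ({g} : Set G)) : ℂ) ≠ 0 := card_ne_zero_complex _
    exact hne horth2.symm
  · intro hconj χ g
    obtain ⟨n, ρ, hρ, hχ⟩ := χ.2
    rw [← hχ]
    exact char_rational_of_conj ρ g (fun m hm => hconj m hm g)

end Cfsg.Agent.S0180
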