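import Mathlib
import Cfsg.Statements.S0181
import Cfsg.Agent.Lib.Helper2.CharMore

set_option autoImplicit false
open Cfsg

namespace Cfsg.Agent.S0181

open Cfsg.Agent.Lib.Helper2
open Representation

/-- Let H be a normal subgroup of a finite group G and ρ an irreducible complex representation whose kernel does not contain H. If g commutes with no non-identity element of H, then the character of ρ vanishes at g. -/
theorem result {G : Type*} [Group G] [Finite G] {V : Type*} [AddCommGroup V] [Module ℂ V] [FiniteDimensional ℂ V] (ρ : Representation ℂ G V) [ρ.IsIrreducible] (H : Subgroup G) [H.Normal] (hker : ∃ h ∈ H, ρ h ≠ LinearMap.id) (g : G) (hg : ∀ h ∈ H, h * g = g * h → h = 1) : ρ.character g = 0 := by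
  classical
  have := Fintype.ofFinite G
  have := Fintype.ofFinite H
  -- the H-invariants form a subrepresentation
  let I : Subrepresentation ρ :=
    { toSubmodule := Representation.invariants (ρ.comp H.subtype)
      apply_mem_toSubmodule := by
        intro x v hv
        rw [Representation.mem_invariants] at hv ⊢
        intro h
        have hmem : x⁻¹ * (h : G) * x ∈ H := by
          have := ‹H.Normal›.conj_mem (h : G) h.2 x⁻¹
          simpa using this
        have h1 := hv ⟨x⁻¹ * (h : G) * x, hmem⟩
        change ρ (h : G) (ρ x v) = ρ x v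
        change ρ (x⁻¹ * (h : G) * x) v = v at h1
        have h2 : ρ (h : G) (ρ x v) = ρ x (ρ (x⁻¹ * (h : G) * x) v) := by
          rw [← Module.End.mul_apply, ← Module.End.mul_apply, ← map_mul, ← map_mul]
          congr 2
          group
        rw [h2, h1] }
  have hI : I = ⊥ := by
    rcases eq_bot_or_eq_top I with h | h
    · exact h
    · exfalso
      obtain ⟨h0, hh0, hne⟩ := hker
      apply hne
      ext v
      have hv : v ∈ I := by rw [h]; trivial
      have hv' : v ∈ Representation.invariants (ρ.comp H.subtype) := hv
      rw [Representation.mem_invariants] at hv'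
      exact hv' ⟨h0, hh0⟩
  -- the sum over H vanishes
  have hT : ∑ h : H, ρ (h : G) = 0 := by
    ext v
    have hv : (∑ h : H, ρ (h : G)) v ∈ I := by
      change (∑ h : H, ρ (h : G)) v ∈ Representation.invariants (ρ.comp H.subtype)
      rw [Representation.mem_invariants]
      intro h'
      change ρ (h' : G) ((∑ h : H, ρ (h : G)) v) = (∑ h : H, ρ (h : G)) v
      simp only [LinearMap.sum_apply, map_sum]
      apply Fintype.sum_equiv (Equiv.mulLeft h')
      intro h
      simp only [Equiv.coe_mulLeft, Subgroup.coe_mul, map_mul, Module.End.mul_apply]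
    rw [hI] at hv
    exact hv
  -- g h is conjugate to g
  have hconj : ∀ h : H, ρ.character (g * h) = ρ.character g := by
    let ψ : H → H := fun k => ⟨g⁻¹ * (k : G) * g * (k : G)⁻¹, by
      have h1 : g⁻¹ * (k : G) * g ∈ H := by
        have := ‹H.Normal›.conj_mem (k : G) k.2 g⁻¹
        simpa using this
      exact H.mul_mem h1 (H.inv_mem k.2)⟩
    have hinj : Function.Injective ψ := by
      intro k k' hkk
      have h1 : g⁻¹ * (k : G) * g * (k : G)⁻¹ = g⁻¹ * (k' : G) * g * (k' : G)⁻¹ :=
        congrArg Subtype.val hkk
      have h2 : ((k' : G)⁻¹ * (k : G)) * g = g * ((k' : G)⁻¹ * (k : G)) := by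
        have e1 : (k : G) * g * (k : G)⁻¹ = (k' : G) * g * (k' : G)⁻¹ := by
          have := congrArg (fun z => g * z) h1
          calc (k : G) * g * (k : G)⁻¹ = g * (g⁻¹ * (k : G) * g * (k : G)⁻¹) := by group
            _ = g * (g⁻¹ * (k' : G) * g * (k' : G)⁻¹) := this
            _ = (k' : G) * g * (k' : G)⁻¹ := by group
        calc ((k' : G)⁻¹ * (k : G)) * g = (k' : G)⁻¹ * ((k : G) * g * (k : G)⁻¹) * (k : G) := by group
          _ = (k' : G)⁻¹ * ((k' : G) * g * (k' : G)⁻¹) * (k : G) := by rw [e1]
          _ = g * ((k' : G)⁻¹ * (k : G)) := by group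
      have h3 := hg _ (H.mul_mem (H.inv_mem k'.2) k.2) h2
      apply Subtype.ext
      have : (k : G) = (k' : G) * ((k' : G)⁻¹ * (k : G)) := by group
      rw [this, h3, mul_one]
    have hsurj : Function.Surjective ψ := Finite.surjective_of_injective hinj
    intro h
    obtain ⟨k, hk⟩ := hsurj h
    have hk' : g⁻¹ * (k : G) * g * (k : G)⁻¹ = (h : G) := congrArg Subtype.val hk
    have e : g * (h : G) = (k : G) * g * (k : G)⁻¹ := by
      rw [← hk']; group
    rw [e, Representation.char_conj]
  -- take the trace
  have htr : ∑ h : H, ρ.character (g * h) = 0 := by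
    have h1 : ρ g * ∑ h : H, ρ (h : G) = 0 := by rw [hT, mul_zero]
    rw [Finset.mul_sum] at h1
    have h2 := congrArg (LinearMap.trace ℂ V) h1
    rw [map_sum, map_zero] at h2
    rw [← h2]
    apply Finset.sum_congr rfl
    intro h _
    unfold Representation.character
    rw [map_mul]
  simp only [hconj] at htr
  rw [Finset.sum_const, Finset.card_univ, nsmul_eq_mul] at htr
  rcases mul_eq_zero.mp htr with h | h
  · exfalso
    have : (Fintype.card H : ℂ) ≠ 0 := by
      exact_mod_cast Fintype.card_ne_zero
    exact this h
  · exact h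

end Cfsg.Agent.S0181
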