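import Mathlib
import Cfsg.Statements.S0184
import Cfsg.Agent.Lib.Helper2.CharOrtho
import Cfsg.Agent.Lib.Helper2.CharLinear
import Cfsg.Agent.Lib.Helper2.CharComplete

set_option autoImplicit false
open Cfsg

namespace Cfsg.Agent.S0184

open Cfsg.Agent.Lib.Helper2

open Representation Module
open scoped ComplexConjugate

section aux

/-- a nontrivial normal subgroup of a finite `p`-group contains a nontrivial central element -/
theorem exists_mem_center_of_normal' {S : Type*} [Group S] [Finite S] {p : ℕ} [Fact p.Prime]
    (hS : IsPGroup p S) (N : Subgroup S) [N.Normal] (hN : N ≠ ⊥) :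
    ∃ z ∈ N, z ∈ Subgroup.center S ∧ z ≠ 1 := by
  let _ : MulAction S N := MulAction.compHom N (MulAut.conjNormal : S →* MulAut N)
  have hcard : p ∣ Nat.card N := by
    obtain ⟨k, hk⟩ := IsPGroup.iff_card.mp (hS.to_subgroup N)
    have hk0 : k ≠ 0 := by
      rintro rfl
      rw [pow_zero] at hk
      exact hN (Subgroup.card_eq_one.mp hk)
    rw [hk]
    exact dvd_pow_self p hk0
  have h1 : (1 : N) ∈ MulAction.fixedPoints S N := by
    intro g
    apply Subtype.ext
    change g * 1 * g⁻¹ = 1
    group
  obtain ⟨b, hb, hne⟩ := hS.exists_fixed_point_of_prime_dvd_card_of_fixed_point (α := N) hcard h1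
  refine ⟨b, b.2, ?_, fun h => hne (Subtype.ext h.symm)⟩
  rw [Subgroup.mem_center_iff]
  intro g
  have h2 : g * (b : S) * g⁻¹ = b := congrArg Subtype.val (hb g)
  exact mul_inv_eq_iff_eq_mul.mp h2

theorem mem_zpowers_of_orderOf_eq {C : Type*} [Group C] [Finite C] [IsCyclic C] {p : ℕ}
    (hp : p.Prime) {x y : C} (hx : orderOf x = p) (hy : orderOf y = p) :
    y ∈ Subgroup.zpowers x := by
  classical
  have := Fintype.ofFinite C
  have hle := IsCyclic.card_pow_eq_one_le (α := C) hp.pos
  let T : Finset C := Finset.univ.filter (fun a => a ∈ Subgroup.zpowers x)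
  have hT : T.card = p := by
    rw [← hx, ← Nat.card_zpowers, Nat.card_eq_fintype_card]
    exact (Fintype.card_of_subtype T (by simp [T])).symm
  have hsub : T ⊆ Finset.univ.filter (fun a : C => a ^ p = 1) := by
    intro a ha
    simp only [T, Finset.mem_filter, Finset.mem_univ, true_and] at ha ⊢
    obtain ⟨k, rfl⟩ := Subgroup.mem_zpowers_iff.mp ha
    rw [← zpow_natCast, ← zpow_mul, mul_comm, zpow_mul, zpow_natCast, ← hx, pow_orderOf_eq_one,
      one_zpow]
  have heq := Finset.eq_of_subset_of_card_le hsub (by rw [hT]; exact hle)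
  have hyS : y ∈ Finset.univ.filter (fun a : C => a ^ p = 1) := by
    simp only [Finset.mem_filter, Finset.mem_univ, true_and]
    rw [← hy]
    exact pow_orderOf_eq_one y
  rw [← heq] at hyS
  simpa [T] using hyS

end aux


/-- A finite p-group admits a faithful irreducible complex representation if and only if its centre is cyclic. -/
theorem result {G : Type*} [Group G] [Finite G] (p : ℕ) [Fact p.Prime] (hG : IsPGroup p G) : (∃ (n : ℕ) (ρ : Representation ℂ G (Fin n → ℂ)), ρ.IsIrreducible ∧ Function.Injective ρ) ↔ IsCyclic (Subgroup.center G) := by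
  classical
  have := Fintype.ofFinite G
  have := Fintype.ofFinite (Cfsg.IrrCharacter G)
  have hpp : p.Prime := Fact.out
  constructor
  · rintro ⟨n, ρ, hρ, hinj⟩
    have hnpos : 0 < n := by
      have h3 := irr_finrank_pos ρ
      rwa [Module.finrank_fin_fun] at h3
    have hn0 : (n : ℂ) ≠ 0 := by exact_mod_cast hnpos.ne'
    have hscal : ∀ z : Subgroup.center G, ρ (z : G)
        = (ρ.character (z : G) / (n : ℂ)) • (LinearMap.id : (Fin n → ℂ) →ₗ[ℂ] (Fin n → ℂ)) := by
      intro z
      obtain ⟨c, hc⟩ := schur_scalar ρ (ρ (z : G)) (fun g => by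
        change ρ (z : G) * ρ g = ρ g * ρ (z : G)
        rw [← map_mul, ← map_mul, (Subgroup.mem_center_iff.mp z.2 g)])
      have htr : ρ.character (z : G) = c * n := by
        unfold Representation.character
        rw [hc, map_smul, LinearMap.trace_id, Module.finrank_fin_fun, smul_eq_mul]
      rw [htr, hc]
      congr 1
      field_simp
    let f : Subgroup.center G →* ℂ :=
      { toFun := fun z => ρ.character (z : G) / (n : ℂ)
        map_one' := by
          change ρ.character ((1 : Subgroup.center G) : G) / (n : ℂ) = 1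
          rw [Subgroup.coe_one, Representation.char_one, Module.finrank_fin_fun]
          field_simp
        map_mul' := by
          intro z z'
          change ρ.character ((z * z' : Subgroup.center G) : G) / (n : ℂ)
            = ρ.character (z : G) / (n : ℂ) * (ρ.character (z' : G) / (n : ℂ))
          have h1 : ρ.character ((z * z' : Subgroup.center G) : G)
              = (ρ.character (z : G) / (n : ℂ)) * ρ.character (z' : G) := by
            have h2 : ρ ((z * z' : Subgroup.center G) : G)
                = (ρ.character (z : G) / (n : ℂ)) • ρ (z' : G) := by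
              rw [Subgroup.coe_mul, map_mul, hscal z]
              ext v
              simp
            change LinearMap.trace ℂ _ (ρ ((z * z' : Subgroup.center G) : G)) = _
            rw [h2, map_smul, smul_eq_mul]
            rfl
          rw [h1]
          ring }
    have hf : Function.Injective f := by
      intro z z' h
      apply Subtype.ext
      apply hinj
      have h' : ρ.character (z : G) / (n : ℂ) = ρ.character (z' : G) / (n : ℂ) := h
      rw [hscal z, hscal z', h']
    exact isCyclic_of_injective_ringHom f hf
  · intro hcyc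
    by_cases hsub : Subsingleton G
    · refine ⟨1, 1, isIrreducible_of_finrank_eq_one _ (by simp), fun a b _ => Subsingleton.elim a b⟩
    have hnt : Nontrivial G := not_subsingleton_iff_nontrivial.mp hsub
    have hZnt : Nontrivial (Subgroup.center G) := hG.center_nontrivial
    have hZp : IsPGroup p (Subgroup.center G) := hG.to_subgroup _
    have hpZ : p ∣ Nat.card (Subgroup.center G) := by
      obtain ⟨k, hk⟩ := IsPGroup.iff_card.mp hZp
      have hk0 : k ≠ 0 := by
        rintro rfl
        rw [pow_zero] at hk
        have h1 := Finite.one_lt_card (α := Subgroup.center G)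
        omega
      rw [hk]
      exact dvd_pow_self p hk0
    obtain ⟨z, hz⟩ := exists_prime_orderOf_dvd_card' p hpZ
    have hz1 : (z : G) ≠ 1 := by
      intro e
      have h1 : z = 1 := Subtype.ext e
      rw [h1, orderOf_one] at hz
      exact hpp.one_lt.ne hz
    obtain ⟨χ, hχ⟩ : ∃ χ : Cfsg.IrrCharacter G, (χ : G → ℂ) (z : G) ≠ (χ : G → ℂ) 1 := by
      by_contra hall
      push Not at hall
      have horth := column_orthogonality (G := G) (z : G) 1
      rw [colFun_of_not_isConj (fun h => hz1 (isConj_one_left.mp h))] at horth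
      have horth1 := column_orthogonality (G := G) 1 1
      rw [colFun_of_isConj (IsConj.refl 1)] at horth1
      simp only [hall] at horth
      rw [horth] at horth1
      exact (card_ne_zero_complex _) horth1.symm
    obtain ⟨n, ρ, hρ, hχρ⟩ := χ.2
    refine ⟨n, ρ, hρ, ?_⟩
    rw [← MonoidHom.ker_eq_bot_iff]
    by_contra hker
    have hkn := MonoidHom.normal_ker ρ
    obtain ⟨w, hwN, hwZ, hw1⟩ := exists_mem_center_of_normal' hG (MonoidHom.ker ρ) hker
    have hw'1 : (⟨w, hwZ⟩ : Subgroup.center G) ≠ 1 := fun e => hw1 (congrArg Subtype.val e)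
    have hpW : p ∣ Nat.card (Subgroup.zpowers (⟨w, hwZ⟩ : Subgroup.center G)) := by
      obtain ⟨k, hk⟩ := IsPGroup.iff_card.mp
        (hZp.to_subgroup (Subgroup.zpowers (⟨w, hwZ⟩ : Subgroup.center G)))
      have hk0 : k ≠ 0 := by
        rintro rfl
        rw [pow_zero, Nat.card_zpowers] at hk
        exact hw'1 (orderOf_eq_one_iff.mp hk)
      rw [hk]
      exact dvd_pow_self p hk0
    obtain ⟨u, hu⟩ := exists_prime_orderOf_dvd_card' p hpW
    have hu' : orderOf (u : Subgroup.center G) = p := by
      rw [← hu]
      exact Subgroup.orderOf_coe u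
    have hzu := mem_zpowers_of_orderOf_eq hpp hu' hz
    have hzw : z ∈ Subgroup.zpowers (⟨w, hwZ⟩ : Subgroup.center G) :=
      (Subgroup.zpowers_le.mpr u.2) hzu
    obtain ⟨k, hk⟩ := Subgroup.mem_zpowers_iff.mp hzw
    have hzker : (z : G) ∈ MonoidHom.ker ρ := by
      rw [← hk, Subgroup.coe_zpow]
      exact Subgroup.zpow_mem _ hwN k
    apply hχ
    rw [← hχρ]
    have h5 : ρ (z : G) = 1 := MonoidHom.mem_ker.mp hzker
    unfold Representation.character
    rw [h5, map_one ρ]

end Cfsg.Agent.S0184
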