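import Mathlib
import Cfsg.Statements.S0186
import Cfsg.Agent.Lib.Helper2.CharOrtho
import Cfsg.Agent.Lib.Helper2.CharLinear
import Cfsg.Agent.S0185

set_option autoImplicit false
open Cfsg

namespace Cfsg.Agent.S0186

open Cfsg.Agent.Lib.Helper2

open Representation Module
open scoped ComplexConjugate

section aux

variable {G : Type*} [Group G] [Fintype G]

theorem sum_deg_sq [Fintype (Cfsg.IrrCharacter G)] (d : Cfsg.IrrCharacter G → ℕ)
    (hd : ∀ χ : Cfsg.IrrCharacter G, (χ : G → ℂ) 1 = (d χ : ℂ)) :
    ∑ χ : Cfsg.IrrCharacter G, d χ ^ 2 = Nat.card G := by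
  have h := column_orthogonality (G := G) (1 : G) (1 : G)
  rw [colFun_of_isConj (IsConj.refl 1)] at h
  have hcent : Nat.card (Subgroup.centralizer ({1} : Set G)) = Nat.card G := by
    have : Subgroup.centralizer ({1} : Set G) = ⊤ := by
      ext x
      simp [Subgroup.mem_centralizer_iff]
    rw [this, Subgroup.card_top]
  rw [hcent] at h
  have : ((∑ χ : Cfsg.IrrCharacter G, d χ ^ 2 : ℕ) : ℂ) = (Nat.card G : ℂ) := by
    rw [← h]
    push_cast
    apply Finset.sum_congr rfl
    intro χ _
    rw [hd χ]
    simp [pow_two]
  exact_mod_cast this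

end aux


/-- Let G be a finite simple group of order n and p a prime dividing n. If G has more than n / p^2 conjugacy classes, then every Sylow p-subgroup of G is abelian. -/
theorem result {G : Type*} [Group G] [Finite G] [IsSimpleGroup G] (p : ℕ) [Fact p.Prime] (hp : p ∣ Nat.card G) (hmany : Nat.card G < p ^ 2 * Nat.card (ConjClasses G)) (P : Sylow p G) (a b : G) (ha : a ∈ P) (hb : b ∈ P) : a * b = b * a := by
  classical
  have := Fintype.ofFinite G
  have := Fintype.ofFinite (Cfsg.IrrCharacter G)
  have hpp : p.Prime := Fact.out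
  by_contra hab
  -- the Sylow subgroup has order at least p^3
  obtain ⟨e, he⟩ := IsPGroup.iff_card.mp P.isPGroup'
  have hcommP : ¬ ∀ x y : (P : Subgroup G), x * y = y * x := by
    intro h
    apply hab
    exact congrArg Subtype.val (h ⟨a, ha⟩ ⟨b, hb⟩)
  have he3 : 3 ≤ e := by
    by_contra hlt
    apply hcommP
    have hle : e ≤ 2 := by omega
    interval_cases e
    · intro x y
      have hs : Subsingleton (P : Subgroup G) := by
        apply (Nat.card_eq_one_iff_unique.mp (by simpa using he)).1
      exact Subsingleton.elim _ _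
    · have hc : IsCyclic (P : Subgroup G) := isCyclic_of_prime_card (p := p) (by simpa using he)
      exact hc.isMulCommutative.is_comm.comm
    · exact (IsPGroup.isMulCommutative_of_card_eq_prime_sq he).is_comm.comm
  have hp2 : p ^ 2 ∣ Nat.card G := by
    have h1 : p ^ 2 ∣ p ^ e := pow_dvd_pow p (by omega)
    rw [← he] at h1
    exact h1.trans (Subgroup.card_subgroup_dvd_card _)
  -- degrees
  have hdeg : ∀ χ : Cfsg.IrrCharacter G, ∃ d : ℕ, (χ : G → ℂ) 1 = (d : ℂ) ∧ 0 < d ∧
      ((χ : G → ℂ) ≠ (fun _ => 1) → p ≤ d) := by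
    intro χ
    obtain ⟨n, ρ, hρ, hχ⟩ := χ.2
    have hnpos : 0 < n := by
      have h3 := irr_finrank_pos ρ
      rwa [Module.finrank_fin_fun] at h3
    refine ⟨n, ?_, hnpos, ?_⟩
    · rw [← hχ, Representation.char_one, Module.finrank_fin_fun]
    · intro hne
      by_contra hlt
      rcases (MonoidHom.normal_ker ρ).eq_bot_or_eq_top with h | h
      · -- faithful
        have hinj : Function.Injective ρ := (MonoidHom.ker_eq_bot_iff ρ).mp h
        have hinjP : Function.Injective (ρ.comp (P : Subgroup G).subtype) :=
          hinj.comp Subtype.val_injective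
        apply hcommP
        intro x y
        apply Cfsg.Agent.S0185.result (ρ.comp (P : Subgroup G).subtype) hinjP
        intro q hq hqd
        rw [he] at hqd
        have hqp : q = p := (Nat.prime_dvd_prime_iff_eq hq hpp).mp (hq.dvd_of_dvd_pow hqd)
        rw [Module.finrank_fin_fun, hqp]
        omega
      · -- trivial representation
        apply hne
        have hall : ∀ g : G, ρ g = 1 := by
          intro g
          have hg : g ∈ MonoidHom.ker ρ := by rw [h]; trivial
          exact MonoidHom.mem_ker.mp hg
        have hconst : ∀ g : G, ρ.character g = (n : ℂ) := by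
          intro g
          unfold Representation.character
          rw [hall g]
          simp
        have hirr := isIrrCharacter_of_rep ρ
        have h1 := classInner_irr_self hirr
        rw [classInner_def] at h1
        simp only [hconst, Complex.conj_natCast] at h1
        rw [Finset.sum_const, Finset.card_univ, nsmul_eq_mul, ← Nat.card_eq_fintype_card,
          ← mul_assoc, inv_mul_cancel₀ (card_ne_zero_complex G), one_mul] at h1
        have hn1 : n = 1 := by
          have h2 : n * n = 1 := by exact_mod_cast h1
          exact Nat.eq_one_of_mul_eq_one_left h2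
        rw [← hχ]
        funext g
        rw [hconst g, hn1]
        simp
  choose d hd hdpos hdp using hdeg
  have hsum := sum_deg_sq d hd
  let triv : Cfsg.IrrCharacter G := ⟨fun _ => 1, isIrrCharacter_one⟩
  have hlow : 1 + (Fintype.card (Cfsg.IrrCharacter G) - 1) * p ^ 2 ≤ Nat.card G := by
    rw [← hsum, ← Finset.add_sum_erase Finset.univ _ (Finset.mem_univ triv)]
    have h1 : 1 ≤ d triv ^ 2 := Nat.one_le_pow _ _ (hdpos triv)
    have h2 : ∑ χ ∈ Finset.univ.erase triv, p ^ 2 ≤ ∑ χ ∈ Finset.univ.erase triv, d χ ^ 2 := by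
      apply Finset.sum_le_sum
      intro χ hχ
      have hne : (χ : G → ℂ) ≠ fun _ => 1 := by
        intro e
        exact (Finset.ne_of_mem_erase hχ) (Subtype.ext e)
      exact Nat.pow_le_pow_left (hdp χ hne) 2
    rw [Finset.sum_const, Finset.card_erase_of_mem (Finset.mem_univ _), Finset.card_univ,
      smul_eq_mul] at h2
    omega
  have hk : Fintype.card (Cfsg.IrrCharacter G) = Nat.card (ConjClasses G) := by
    rw [← Nat.card_eq_fintype_card]
    exact card_irr_eq_card_conjClasses
  rw [hk] at hlow
  obtain ⟨c, hc⟩ := hp2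
  rw [hc] at hlow hmany
  have hkpos : 0 < Nat.card (ConjClasses G) := Nat.card_pos
  have hp2pos : 0 < p ^ 2 := pow_pos hpp.pos 2
  have h1 : c < Nat.card (ConjClasses G) := lt_of_mul_lt_mul_left hmany (Nat.zero_le _)
  have h2 : (Nat.card (ConjClasses G) - 1) * p ^ 2 < p ^ 2 * c := by omega
  have h3 : Nat.card (ConjClasses G) - 1 < c := by
    rw [mul_comm] at h2
    exact lt_of_mul_lt_mul_left h2 (Nat.zero_le _)
  omega

end Cfsg.Agent.S0186
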