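import Mathlib
import Cfsg.Statements.S0187
import Cfsg.Agent.Lib.Helper2.CharLinear
import Cfsg.Agent.S0134

set_option autoImplicit false
open Cfsg

namespace Cfsg.Agent.S0187

open Cfsg.Agent.Lib.Helper2

/-- A finite group is commutative if and only if every irreducible complex character has degree 1. -/
theorem result {G : Type*} [Group G] [Finite G] : (∀ a b : G, a * b = b * a) ↔ ∀ χ : Cfsg.IrrCharacter G, (χ : G → ℂ) 1 = 1 := by
  classical
  constructor
  · intro hcomm χ
    have : IsMulCommutative G := ⟨⟨hcomm⟩⟩
    obtain ⟨n, ρ, hρ, hχ⟩ := χ.2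
    have h1 := Representation.IsIrreducible.finrank_eq_one_of_isMulCommutative ρ
    rw [← hχ, Representation.char_one, h1]
    simp
  · intro hall a b
    have := Fintype.ofFinite (Cfsg.IrrCharacter G)
    have h1 := Cfsg.Agent.S0134.result (G := G)
    rw [finsum_eq_sum_of_fintype] at h1
    have h2 : ∑ χ : Cfsg.IrrCharacter G, ((χ : G → ℂ) 1) ^ 2 = (Nat.card (Cfsg.IrrCharacter G) : ℂ) := by
      rw [Finset.sum_congr rfl (fun χ _ => by rw [hall χ, one_pow])]
      simp [Nat.card_eq_fintype_card]
    rw [h2] at h1
    have h3 : Nat.card (Cfsg.IrrCharacter G) = Nat.card G := by exact_mod_cast h1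
    rw [card_irr_eq_card_conjClasses] at h3
    have hsurj : Function.Surjective (ConjClasses.mk : G → ConjClasses G) := ConjClasses.mk_surjective
    have hbij : Function.Bijective (ConjClasses.mk : G → ConjClasses G) :=
      (Nat.bijective_iff_surjective_and_card _).mpr ⟨hsurj, h3.symm⟩
    have h4 : ConjClasses.mk (a * b * a⁻¹) = ConjClasses.mk b := conjClasses_mk_conj b a
    have h5 := hbij.1 h4
    calc a * b = (a * b * a⁻¹) * a := by group
      _ = b * a := by rw [h5]

end Cfsg.Agent.S0187
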