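import Mathlib
import Cfsg.Statements.S0188
import Cfsg.Agent.Lib.Helper2.CharProd
import Cfsg.Agent.Lib.Helper2.CharComplete
import Cfsg.Agent.Lib.Helper2.CharLinear

set_option autoImplicit false
open Cfsg

namespace Cfsg.Agent.S0188

open Cfsg.Agent.Lib.Helper2

open scoped ComplexConjugate


/-- The irreducible complex characters of G × H are precisely the functions (g, h) ↦ φ g * ψ h with φ, ψ irreducible characters of G and H. -/
theorem result {G : Type*} [Group G] [Finite G] {H : Type*} [Group H] [Finite H] (θ : G × H → ℂ) : Cfsg.IsIrrCharacter (G × H) θ ↔ ∃ (φ : G → ℂ) (ψ : H → ℂ), Cfsg.IsIrrCharacter G φ ∧ Cfsg.IsIrrCharacter H ψ ∧ θ = fun x => φ x.1 * ψ x.2 := by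
  classical
  have := Fintype.ofFinite G
  have := Fintype.ofFinite H
  constructor
  · intro hθ
    by_contra hno
    push Not at hno
    have hcf := isClassFunction_of_isIrrCharacter hθ
    have hzero : ∀ (φ : G → ℂ) (ψ : H → ℂ), Cfsg.IsIrrCharacter G φ → Cfsg.IsIrrCharacter H ψ →
        ∑ g : G, ∑ h : H, θ (g, h) * φ g * ψ h = 0 := by
      intro φ ψ hφ hψ
      have hφ' := isIrrCharacter_comp_inv hφ
      have hψ' := isIrrCharacter_comp_inv hψ
      have hne := hno _ _ hφ' hψ'
      have h0 := classInner_irr_ne hθ (isIrrCharacter_prod hφ' hψ') hne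
      rw [classInner_def] at h0
      rcases mul_eq_zero.mp h0 with h | h
      · exact absurd (inv_eq_zero.mp h) (card_ne_zero_complex (G × H))
      · rw [Fintype.sum_prod_type] at h
        rw [← h]
        apply Finset.sum_congr rfl
        intro g _
        apply Finset.sum_congr rfl
        intro h' _
        have e1 : conj (φ g⁻¹) = φ g := by
          obtain ⟨n, ρ, _, rfl⟩ := hφ
          rw [char_inv]
          simp
        have e2 : conj (ψ h'⁻¹) = ψ h' := by
          obtain ⟨n, ρ, _, rfl⟩ := hψ
          rw [char_inv]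
          simp
        simp only [Function.comp, map_mul, e1, e2]
        ring
    have hstep1 : ∀ (ψ : H → ℂ), Cfsg.IsIrrCharacter H ψ →
        ∀ g : G, ∑ h : H, θ (g, h) * ψ h = 0 := by
      intro ψ hψ
      have hF : Cfsg.IsClassFunction G (fun g => ∑ h : H, θ (g, h) * ψ h) := by
        intro g x
        apply Finset.sum_congr rfl
        intro h _
        have h1 := hcf (g, h) (x, 1)
        simp at h1
        rw [h1]
      have h2 := class_fun_eq_zero _ hF (fun φ hφ => by
        have h3 := hzero φ ψ hφ hψ
        rw [← h3]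
        apply Finset.sum_congr rfl
        intro g _
        rw [Finset.sum_mul]
        apply Finset.sum_congr rfl
        intro h _
        ring)
      intro g
      exact congrFun h2 g
    have hθ0 : ∀ g : G, ∀ h : H, θ (g, h) = 0 := by
      intro g
      have hF : Cfsg.IsClassFunction H (fun h => θ (g, h)) := by
        intro h y
        have h1 := hcf (g, h) (1, y)
        simp at h1
        exact h1
      have h2 := class_fun_eq_zero _ hF (fun ψ hψ => hstep1 ψ hψ g)
      intro h
      exact congrFun h2 h
    obtain ⟨n, hn, h1⟩ := irr_apply_one hθ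
    have h4 : θ 1 = 0 := hθ0 1 1
    rw [h4] at h1
    have h5 : (n : ℂ) = 0 := h1.symm
    have h6 : n = 0 := by exact_mod_cast h5
    omega
  · rintro ⟨φ, ψ, hφ, hψ, rfl⟩
    exact isIrrCharacter_prod hφ hψ

end Cfsg.Agent.S0188
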