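import Mathlib
import Cfsg.Statements.S0189
import Cfsg.Agent.Lib.Helper2.CharMore

set_option autoImplicit false
open Cfsg

namespace Cfsg.Agent.S0189

open Cfsg.Agent.Lib.Helper2

/-- If a complex character of a finite group vanishes at every non-identity element of a Sylow p-subgroup P, then |P| divides its degree. -/
theorem result {G : Type*} [Group G] [Finite G] (p : ℕ) [Fact p.Prime] (P : Sylow p G) (χ : G → ℂ) (hχ : Cfsg.IsCharacter G χ) (hvan : ∀ g : G, g ∈ P → g ≠ 1 → χ g = 0) : ∃ k : ℕ, χ 1 = (Nat.card P : ℂ) * k := by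
  classical
  have := Fintype.ofFinite G
  have := Fintype.ofFinite (P : Subgroup G)
  have hres := IsCharacter.restrict hχ (P : Subgroup G)
  have hone : Cfsg.IsCharacter (P : Subgroup G) (fun _ => (1 : ℂ)) :=
    isCharacter_of_isIrrCharacter isIrrCharacter_one
  obtain ⟨k, hk⟩ := classInner_isCharacter_nat hres hone
  refine ⟨k, ?_⟩
  rw [classInner_def] at hk
  have hsum : ∑ x : (P : Subgroup G), χ x * (starRingEnd ℂ) (1 : ℂ) = χ 1 := by
    rw [Finset.sum_eq_single (1 : (P : Subgroup G))]
    · simp
    · intro x _ hx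
      have hx1 : (x : G) ≠ 1 := fun h => hx (Subtype.ext h)
      rw [hvan x x.2 hx1, zero_mul]
    · intro h
      exact absurd (Finset.mem_univ _) h
  rw [hsum] at hk
  have hP : (Nat.card (P : Subgroup G) : ℂ) ≠ 0 := card_ne_zero_complex _
  have : χ 1 = (Nat.card (P : Subgroup G) : ℂ) * k := by
    rw [← hk]
    field_simp
  exact this

end Cfsg.Agent.S0189
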