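import Mathlib
import Cfsg.Statements.S0192
import Cfsg.Agent.Lib.Helper2.CharMore

set_option autoImplicit false
open Cfsg

namespace Cfsg.Agent.S0192

open Cfsg.Agent.Lib.Helper2

/-- Brauer's generation criterion. Let G be a finite simple group, H₁ and H₂ subgroups, and χ a non-principal irreducible character. If the multiplicity of the principal character in χ restricted to H₁ ⊓ H₂ is less than the sum of the corresponding multiplicities for H₁ and H₂, then H₁ and H₂ do not generate G. -/
theorem result {G : Type*} [Group G] [Fintype G] [IsSimpleGroup G] (H₁ H₂ : Subgroup G) [Fintype H₁] [Fintype H₂] [Fintype ↥(H₁ ⊓ H₂)] (χ : G → ℂ) (hχ : Cfsg.IsIrrCharacter G χ) (hχ1 : χ ≠ fun _ => 1) (hlt : (Cfsg.classInner (fun x : ↥(H₁ ⊓ H₂) => χ x) (fun _ => 1)).re < (Cfsg.classInner (fun x : H₁ => χ x) (fun _ => 1)).re + (Cfsg.classInner (fun x : H₂ => χ x) (fun _ => 1)).re) : H₁ ⊔ H₂ ≠ ⊤ := by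
  classical
  have hχ' := hχ
  obtain ⟨n, ρ, hρ, rfl⟩ := hχ
  intro htop
  rw [inner_one_eq_finrank_invariants ρ (H₁ ⊓ H₂), inner_one_eq_finrank_invariants ρ H₁,
    inner_one_eq_finrank_invariants ρ H₂] at hlt
  simp only [Complex.natCast_re] at hlt
  have h1 : Representation.invariants (ρ.comp H₁.subtype)
      ≤ Representation.invariants (ρ.comp (H₁ ⊓ H₂).subtype) := by
    intro v hv
    rw [Representation.mem_invariants] at hv ⊢
    intro g
    exact hv ⟨g.1, g.2.1⟩
  have h2 : Representation.invariants (ρ.comp H₂.subtype)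
      ≤ Representation.invariants (ρ.comp (H₁ ⊓ H₂).subtype) := by
    intro v hv
    rw [Representation.mem_invariants] at hv ⊢
    intro g
    exact hv ⟨g.1, g.2.2⟩
  have hG0 : Representation.invariants ρ = ⊥ := by
    have e1 := inner_one_eq_finrank_invariants_top ρ
    rw [classInner_irr_ne hχ' isIrrCharacter_one hχ1] at e1
    have e2 : Module.finrank ℂ (Representation.invariants ρ) = 0 := by exact_mod_cast e1.symm
    exact Submodule.finrank_eq_zero.mp e2
  have hinf : Representation.invariants (ρ.comp H₁.subtype)
      ⊓ Representation.invariants (ρ.comp H₂.subtype) = ⊥ := by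
    rw [eq_bot_iff, ← hG0]
    intro v hv
    rw [Submodule.mem_inf, Representation.mem_invariants, Representation.mem_invariants] at hv
    rw [Representation.mem_invariants]
    let S : Subgroup G :=
      { carrier := {g | ρ g v = v}
        one_mem' := by simp
        mul_mem' := by
          intro a b ha hb
          simp only [Set.mem_ofPred_eq] at ha hb ⊢
          rw [map_mul, Module.End.mul_apply, hb, ha]
        inv_mem' := by
          intro a ha
          simp only [Set.mem_ofPred_eq] at ha ⊢
          have : ρ a⁻¹ (ρ a v) = v := by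
            rw [← Module.End.mul_apply, ← map_mul, inv_mul_cancel, map_one]; rfl
          rw [ha] at this
          exact this }
    have hS1 : H₁ ≤ S := fun g hg => hv.1 ⟨g, hg⟩
    have hS2 : H₂ ≤ S := fun g hg => hv.2 ⟨g, hg⟩
    have hS : S = ⊤ := by
      rw [eq_top_iff, ← htop]
      exact sup_le hS1 hS2
    intro g
    have : g ∈ S := by rw [hS]; exact Subgroup.mem_top g
    exact this
  have hsum := Submodule.finrank_sup_add_finrank_inf_eq
    (Representation.invariants (ρ.comp H₁.subtype)) (Representation.invariants (ρ.comp H₂.subtype))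
  rw [hinf, finrank_bot, add_zero] at hsum
  have hle : Module.finrank ℂ ↥(Representation.invariants (ρ.comp H₁.subtype)
      ⊔ Representation.invariants (ρ.comp H₂.subtype))
      ≤ Module.finrank ℂ ↥(Representation.invariants (ρ.comp (H₁ ⊓ H₂).subtype)) :=
    Submodule.finrank_mono (sup_le h1 h2)
  rw [hsum] at hle
  have : (Module.finrank ℂ ↥(Representation.invariants (ρ.comp H₁.subtype)) : ℝ)
      + (Module.finrank ℂ ↥(Representation.invariants (ρ.comp H₂.subtype)) : ℝ)
      ≤ (Module.finrank ℂ ↥(Representation.invariants (ρ.comp (H₁ ⊓ H₂).subtype)) : ℝ) := by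
    exact_mod_cast hle
  linarith

end Cfsg.Agent.S0192
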