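import Mathlib
import Cfsg.Statements.S0194
import Cfsg.Agent.Lib.Helper2.CharClifford
import Cfsg.Agent.Lib.Helper2.CharOdd

set_option autoImplicit false
open scoped ComplexConjugate
open Cfsg

namespace Cfsg.Agent.S0194

open Cfsg.Agent.Lib.Helper2


/-- Let G have odd order, H be a normal subgroup and θ a non-principal irreducible character of H. Then the function induced from θ is orthogonal to its complex conjugate. -/
theorem result {G : Type*} [Group G] [Fintype G] (hodd : Odd (Nat.card G)) (H : Subgroup G) [H.Normal] (θ : H → ℂ) (hθ : Cfsg.IsIrrCharacter H θ) (hθ1 : θ ≠ fun _ => 1) : Cfsg.classInner (fun g => conj (Cfsg.indFun H θ g)) (Cfsg.indFun H θ) = 0 := by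
  classical
  have := Fintype.ofFinite H
  have hHn : H.Normal := inferInstance
  have hconjind : (fun g => conj (Cfsg.indFun H θ g)) = Cfsg.indFun H (fun h => conj (θ h)) := by
    funext g
    rw [indFun_apply, indFun_apply, map_mul, map_inv₀, Complex.conj_natCast, map_sum]
    congr 1
    apply Finset.sum_congr rfl
    intro x _
    by_cases hx : x⁻¹ * g * x ∈ H
    · rw [extendByZero_of_mem H θ hx, extendByZero_of_mem H _ hx]
    · rw [extendByZero_of_not_mem H θ hx, extendByZero_of_not_mem H _ hx, map_zero]
  rw [hconjind, frobenius_reciprocity H _ _ (indFun_isClassFunction H θ), indFun_restrict_normal,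
    classInner_smul_right, classInner_sum_right]
  have hθbar : Cfsg.IsIrrCharacter H (fun h => conj (θ h)) := by
    have h1 := isIrrCharacter_comp_inv hθ
    have e : θ ∘ (fun h : H => h⁻¹) = fun h => conj (θ h) := by
      funext h
      obtain ⟨n, ρ, hρ, rfl⟩ := hθ
      exact char_inv ρ h
    rwa [e] at h1
  have hodd' : Odd (Nat.card H) := hodd.of_dvd_nat (Subgroup.card_subgroup_dvd_card H)
  have hne : ∀ x : G, (fun h => conj (θ h)) ≠ conjFun H θ x := by
    intro x hx
    have h2 : conjFun H θ (x * x) = θ := by
      rw [conjFun_mul, ← hx]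
      funext h
      rw [conjFun_apply]
      have h3 := congrFun hx h
      rw [conjFun_apply] at h3
      change conj (θ ⟨x * h * x⁻¹, _⟩) = θ h
      rw [← h3]
      simp
    have hstab : ∀ k : ℕ, conjFun H θ ((x * x) ^ k) = θ := by
      intro k
      induction k with
      | zero =>
        rw [pow_zero]
        exact conjFun_of_mem H (isClassFunction_of_isIrrCharacter hθ) H.one_mem
      | succ k ih => rw [pow_succ, conjFun_mul, ih, h2]
    have hxodd : Odd (orderOf x) := hodd.of_dvd_nat (orderOf_dvd_natCard x)
    obtain ⟨k, hk⟩ := hxodd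
    have hxpow : x = (x * x) ^ (k + 1) := by
      rw [← pow_two, ← pow_mul, show 2 * (k + 1) = orderOf x + 1 by omega, pow_succ,
        pow_orderOf_eq_one, one_mul]
    have h4 : conjFun H θ x = θ := by
      have h5 := hstab (k + 1)
      rw [← hxpow] at h5
      exact h5
    rw [h4] at hx
    have hreal : ∀ h : H, (θ h).im = 0 := by
      intro h
      have h6 := congrFun hx h
      exact Complex.conj_eq_iff_im.mp h6
    exact hθ1 (real_irr_eq_one_of_odd hodd' ⟨θ, hθ⟩ hreal)
  have hz : ∑ x : G, Cfsg.classInner (fun h => conj (θ h)) (conjFun H θ x⁻¹) = 0 := by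
    apply Finset.sum_eq_zero
    intro x _
    exact classInner_irr_ne hθbar (conjFun_irr H hθ _) (hne x⁻¹)
  rw [hz, mul_zero]

end Cfsg.Agent.S0194
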