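import Mathlib
import Cfsg.Statements.S0195

set_option autoImplicit false
open Cfsg

namespace Cfsg.Agent.S0195

/-- Let A be a subgroup of G that equals the centralizer of each of its non-identity elements. If g lies outside the normalizer of A, then the only element of A conjugated by g into A is the identity (A is a trivial-intersection set). -/
theorem result {G : Type*} [Group G] [Finite G] (A : Subgroup G) (hA : ∀ x ∈ A, x ≠ 1 → Subgroup.centralizer ({x} : Set G) = A) (g : G) (hg : g ∉ Subgroup.normalizer (A : Set G)) (x : G) (hx : x ∈ A) (hgx : g * x * g⁻¹ ∈ A) : x = 1 := by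
  by_contra hx1
  apply hg
  have hy1 : g * x * g⁻¹ ≠ 1 := by
    intro h
    apply hx1
    have : x = g⁻¹ * (g * x * g⁻¹) * g := by group
    rw [this, h]; group
  have h1 := hA x hx hx1
  have h2 := hA _ hgx hy1
  rw [Subgroup.mem_normalizer_iff]
  intro h
  have e1 : h ∈ A ↔ h ∈ Subgroup.centralizer ({x} : Set G) := by rw [h1]
  have e2 : g * h * g⁻¹ ∈ A ↔ g * h * g⁻¹ ∈ Subgroup.centralizer ({g * x * g⁻¹} : Set G) := by rw [h2]
  rw [e1, e2, Subgroup.mem_centralizer_singleton_iff, Subgroup.mem_centralizer_singleton_iff]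
  constructor
  · intro hh
    have : g * x * g⁻¹ * (g * h * g⁻¹) = g * (x * h) * g⁻¹ := by group
    rw [this, ← hh]; group
  · intro hh
    have e3 : x * h = g⁻¹ * (g * x * g⁻¹ * (g * h * g⁻¹)) * g := by group
    rw [e3, ← hh]; group

end Cfsg.Agent.S0195
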