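import Mathlib
import Cfsg.Statements.S0196
import Cfsg.Agent.Lib.Helper2.Action

set_option autoImplicit false
open Cfsg

namespace Cfsg.Agent.S0196

open Cfsg.Agent.Lib.Helper2

variable {G : Type*} [Group G]

/-- conjugation action of the normalizer on the non-identity elements -/
@[reducible] def conjAct (A : Subgroup G) :
    MulAction (Subgroup.normalizer (A : Set G)) ↥((A : Set G) \ {1}) where
  smul n x := ⟨(n : G) * x * (n : G)⁻¹, by
    refine ⟨(Subgroup.mem_normalizer_iff.mp n.2 x).mp x.2.1, ?_⟩
    intro h
    rw [Set.mem_singleton_iff] at h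
    apply x.2.2
    rw [Set.mem_singleton_iff]
    have : (x : G) = (n : G)⁻¹ * ((n : G) * x * (n : G)⁻¹) * (n : G) := by group
    rw [this, h]; group⟩
  one_smul x := by
    apply Subtype.ext
    change ((1 : Subgroup.normalizer (A : Set G)) : G) * x * ((1 : Subgroup.normalizer (A : Set G)) : G)⁻¹ = x
    simp
  mul_smul m n x := by
    apply Subtype.ext
    change ((m * n : Subgroup.normalizer (A : Set G)) : G) * x * ((m * n : Subgroup.normalizer (A : Set G)) : G)⁻¹
      = (m : G) * ((n : G) * x * (n : G)⁻¹) * (m : G)⁻¹
    rw [Subgroup.coe_mul]; group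

/-- Let A be a subgroup of a finite group G that equals the centralizer of each of its non-identity elements, and let N be its normalizer. Then the index of A in N divides |A| − 1 (N/A permutes the non-identity elements of A in orbits of full length). -/
theorem result {G : Type*} [Group G] [Finite G] (A : Subgroup G) (hA : ∀ x ∈ A, x ≠ 1 → Subgroup.centralizer ({x} : Set G) = A) : (A.subgroupOf (Subgroup.normalizer (A : Set G))).index ∣ Nat.card A - 1 := by
  let _ := conjAct A
  have hcard : Nat.card ↥((A : Set G) \ {1}) = Nat.card A - 1 := by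
    rw [Nat.card_coe_set_eq, Set.ncard_sdiff_singleton_of_mem (Subgroup.one_mem A)]
    rw [← Nat.card_coe_set_eq]
    rfl
  rw [← hcard]
  apply index_dvd_card_of_stabilizer_eq
  intro x
  ext n
  rw [MulAction.mem_stabilizer_iff, Subgroup.mem_subgroupOf]
  have hx1 : (x : G) ≠ 1 := fun h => x.2.2 (by rw [Set.mem_singleton_iff]; exact h)
  have hmem : (n : G) ∈ A ↔ (n : G) * x = x * n := by
    rw [← Subgroup.mem_centralizer_singleton_iff, hA x x.2.1 hx1]
  rw [hmem]
  constructor
  · intro h
    have h' : (n : G) * x * (n : G)⁻¹ = x := congrArg Subtype.val h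
    calc (n : G) * x = ((n : G) * x * (n : G)⁻¹) * n := by group
      _ = x * n := by rw [h']
  · intro h
    apply Subtype.ext
    change (n : G) * x * (n : G)⁻¹ = x
    rw [h]; group

end Cfsg.Agent.S0196
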