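import Mathlib
import Cfsg.Statements.S0200
import Cfsg.Agent.S0199

set_option autoImplicit false
open Cfsg

namespace Cfsg.Agent.S0200



/-- An involution lying in no normal 2-subgroup of a finite group inverts a nontrivial element of odd order (a consequence of the Baer–Suzuki Theorem). -/
theorem result {G : Type*} [Group G] [Finite G] (t : G) (ht : orderOf t = 2) (hO : ∀ N : Subgroup G, N.Normal → IsPGroup 2 N → t ∉ N) : ∃ h : G, h ≠ 1 ∧ Odd (orderOf h) ∧ t * h * t⁻¹ = h⁻¹ := by
  classical
  have ht2 : t * t = 1 := by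
    have := pow_orderOf_eq_one t
    rw [ht, pow_two] at this
    exact this
  by_contra hcon
  push Not at hcon
  have hconj : ∀ g : G, ∀ x ∈ {x : G | ∃ a : G, x = a * t * a⁻¹}, g * x * g⁻¹
      ∈ {x : G | ∃ a : G, x = a * t * a⁻¹} := by
    rintro g x ⟨a, rfl⟩
    exact ⟨g * a, by group⟩
  have hpair : ∀ x ∈ {x : G | ∃ a : G, x = a * t * a⁻¹}, ∀ y ∈ {x : G | ∃ a : G, x = a * t * a⁻¹},
      IsPGroup 2 (Subgroup.closure ({x, y} : Set G)) := by
    rintro x ⟨a, hx⟩ y ⟨b, hy⟩
    have hxx : x * x = 1 := by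
      rw [hx]
      calc a * t * a⁻¹ * (a * t * a⁻¹) = a * (t * t) * a⁻¹ := by group
        _ = 1 := by rw [ht2]; group
    have hyy : y * y = 1 := by
      rw [hy]
      calc b * t * b⁻¹ * (b * t * b⁻¹) = b * (t * t) * b⁻¹ := by group
        _ = 1 := by rw [ht2]; group
    have hxinv : x⁻¹ = x := inv_eq_of_mul_eq_one_left hxx
    have hyinv : y⁻¹ = y := inv_eq_of_mul_eq_one_left hyy
    have hxu : x * (x * y) * x⁻¹ = (x * y)⁻¹ := by
      rw [mul_inv_rev, hxinv, hyinv, ← mul_assoc, hxx, one_mul]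
    have hxo : orderOf x = 2 := by
      have := (MulAut.conj a).orderOf_eq t
      rw [MulAut.conj_apply, ← hx, ht] at this
      exact this
    have hpow : ∃ k, orderOf (x * y) = 2 ^ k := by
      obtain ⟨k, m, hm, hkm⟩ := Nat.exists_eq_two_pow_mul_odd (orderOf_pos (x * y)).ne'
      by_cases hm1 : m = 1
      · exact ⟨k, by rw [hkm, hm1, mul_one]⟩
      · exfalso
        have ho : orderOf ((x * y) ^ (2 ^ k)) = m := by
          rw [orderOf_pow_of_dvd (by positivity) ⟨m, hkm⟩, hkm,
            Nat.mul_div_cancel_left _ (by positivity)]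
        have hne : (x * y) ^ (2 ^ k) ≠ 1 := by
          intro h
          rw [h, orderOf_one] at ho
          exact hm1 ho.symm
        have hinv : x * (x * y) ^ (2 ^ k) * x⁻¹ = ((x * y) ^ (2 ^ k))⁻¹ := by
          rw [← conj_pow, hxu, inv_pow]
        have htx : t = a⁻¹ * x * a := by
          rw [hx]
          group
        apply hcon (a⁻¹ * (x * y) ^ (2 ^ k) * a) ?_ ?_ ?_
        · intro h
          apply hne
          have e : (x * y) ^ (2 ^ k) = a * (a⁻¹ * (x * y) ^ (2 ^ k) * a) * a⁻¹ := by group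
          rw [e, h]
          group
        · have h1 := (MulAut.conj a⁻¹).orderOf_eq ((x * y) ^ (2 ^ k))
          rw [MulAut.conj_apply, inv_inv] at h1
          rw [h1, ho]
          exact hm
        · rw [htx]
          calc a⁻¹ * x * a * (a⁻¹ * (x * y) ^ (2 ^ k) * a) * (a⁻¹ * x * a)⁻¹
              = a⁻¹ * (x * (x * y) ^ (2 ^ k) * x⁻¹) * a := by group
            _ = (a⁻¹ * (x * y) ^ (2 ^ k) * a)⁻¹ := by rw [hinv]; group
    obtain ⟨k, hk⟩ := hpow
    have h1 : IsPGroup 2 (Subgroup.zpowers (x * y)) :=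
      IsPGroup.of_card (n := k) (by rw [Nat.card_zpowers, hk])
    have h2 : IsPGroup 2 (Subgroup.zpowers x) :=
      IsPGroup.of_card (n := 1) (by rw [Nat.card_zpowers, hxo, pow_one])
    have hconjmem : ∀ h : G, h ∈ Subgroup.zpowers (x * y) → x * h * x⁻¹ ∈ Subgroup.zpowers (x * y) := by
      rintro h ⟨i, rfl⟩
      change x * (x * y) ^ i * x⁻¹ ∈ _
      rw [← conj_zpow, hxu]
      exact zpow_mem (inv_mem (Subgroup.mem_zpowers _)) i
    have h3 : Subgroup.zpowers x ≤ Subgroup.normalizer (Subgroup.zpowers (x * y) : Set G) := by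
      rw [Subgroup.zpowers_le, Subgroup.mem_normalizer_iff]
      intro h
      constructor
      · exact hconjmem h
      · intro hh
        have := hconjmem _ hh
        have e : x * (x * h * x⁻¹) * x⁻¹ = h := by
          rw [hxinv]
          calc x * (x * h * x) * x = (x * x) * h * (x * x) := by group
            _ = h := by rw [hxx]; group
        rwa [e] at this
    have h4 := IsPGroup.to_sup_of_normal_right' h2 h1 h3
    apply h4.to_le
    rw [Subgroup.closure_le]
    rintro z (hz | hz)
    · rw [hz]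
      exact Subgroup.mem_sup_left (Subgroup.mem_zpowers _)
    · have hz' : z = y := hz
      have e : z = x * (x * y) := by rw [hz', ← mul_assoc, hxx, one_mul]
      rw [e]
      exact mul_mem (Subgroup.mem_sup_left (Subgroup.mem_zpowers _))
        (Subgroup.mem_sup_right (Subgroup.mem_zpowers _))
  obtain ⟨N, hN, hNp, hKN⟩ := Cfsg.Agent.S0199.baer_suzuki_set _ hconj hpair
  exact hO N hN hNp (hKN ⟨1, by simp⟩)

end Cfsg.Agent.S0200
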