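import Mathlib
import Cfsg.Statements.S0203
import Cfsg.Agent.Lib.Helper2.KleinSylow

set_option autoImplicit false
open Cfsg

namespace Cfsg.Agent.S0203

open Cfsg.Agent.Lib.Helper2


/-- If a Sylow 2-subgroup P of a finite group G is a Klein four-group, then G has three classes of involutions if and only if P has a normal complement in G. -/
theorem result {G : Type*} [Group G] [Finite G] (P : Sylow 2 G) (hP : IsKleinFour (P : Subgroup G)) : Nat.card {C : ConjClasses G // ∃ t : G, orderOf t = 2 ∧ ConjClasses.mk t = C} = 3 ↔ ∃ N : Subgroup G, N.Normal ∧ Subgroup.IsComplement' N (P : Subgroup G) := by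
  obtain ⟨a, b, ha, hb, ha1, hb1, hab⟩ := klein_exists_gens P hP
  have hcomm := klein_comm P hP
  constructor
  · intro h3
    rcases klein_count P hP ha hb ha1 hb1 hab with h | h
    · obtain ⟨hab', haab, hbab, -⟩ := h
      have hNC : Subgroup.normalizer ((P : Subgroup G) : Set G)
          ≤ Subgroup.centralizer ((P : Subgroup G) : Set G) := by
        intro n hn
        have hfix : ∀ x y : G, x ∈ (P : Subgroup G) → y ∈ (P : Subgroup G) → x ≠ 1 → y ≠ 1 →
            x ≠ y → ¬ IsConj x y → ¬ IsConj x (x * y) → n * x * n⁻¹ = x := by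
          intro x y hx hy hx1 hy1 hxy h1 h2
          by_contra hne
          have hw := (Subgroup.mem_normalizer_iff.mp hn x).mp hx
          have hw1 : n * x * n⁻¹ ≠ 1 := by
            intro h
            apply hx1
            have : x = n⁻¹ * (n * x * n⁻¹) * n := by group
            rw [this, h]
            group
          by_cases hwy : n * x * n⁻¹ = y
          · exact h1 (isConj_iff.mpr ⟨n, hwy⟩)
          · exact h2 (isConj_iff.mpr ⟨n, klein_cases P hP hx hy hw hx1 hy1 hxy hw1 hne hwy⟩)
        have hna := hfix a b ha hb ha1 hb1 hab hab' haab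
        have hnb := hfix b a hb ha hb1 ha1 (Ne.symm hab) (fun h => hab' h.symm)
          (by rw [hcomm b hb a ha]; exact hbab)
        have ca : a * n = n * a := by
          calc a * n = (n * a * n⁻¹) * n := by rw [hna]
            _ = n * a := by group
        have cb : b * n = n * b := by
          calc b * n = (n * b * n⁻¹) * n := by rw [hnb]
            _ = n * b := by group
        rw [Subgroup.mem_centralizer_iff]
        intro u hu
        have hcases : u = 1 ∨ u = a ∨ u = b ∨ u = a * b := by
          by_cases h1 : u = 1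
          · exact Or.inl h1
          by_cases h2 : u = a
          · exact Or.inr (Or.inl h2)
          by_cases h3 : u = b
          · exact Or.inr (Or.inr (Or.inl h3))
          exact Or.inr (Or.inr (Or.inr (klein_cases P hP ha hb hu ha1 hb1 hab h1 h2 h3)))
        rcases hcases with rfl | rfl | rfl | rfl
        · simp
        · exact ca
        · exact cb
        · rw [mul_assoc, cb, ← mul_assoc, ca, mul_assoc]
      exact ⟨(MonoidHom.transferSylow P hNC).ker, inferInstance,
        MonoidHom.ker_transferSylow_isComplement' P hNC⟩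
    · exfalso
      rw [h.2.2] at h3
      norm_num at h3
  · rintro ⟨N, hN, hc⟩
    rcases klein_count P hP ha hb ha1 hb1 hab with h | h
    · exact h.2.2.2
    · exfalso
      obtain ⟨g, hg⟩ := isConj_iff.mp h.1
      obtain ⟨⟨⟨n, hn⟩, ⟨q, hq⟩⟩, hnq⟩ := hc.2 g
      have hnq' : n * q = g := hnq
      have hmem : b * a⁻¹ ∈ N := by
        have hqa : q * a * q⁻¹ = a := by
          rw [hcomm q hq a ha, mul_inv_cancel_right]
        have : b * a⁻¹ = n * (a * n⁻¹ * a⁻¹) := by
          rw [← hg, ← hnq']
          calc n * q * a * (n * q)⁻¹ * a⁻¹ = n * (q * a * q⁻¹) * n⁻¹ * a⁻¹ := by group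
            _ = n * (a * n⁻¹ * a⁻¹) := by rw [hqa]; group
        rw [this]
        exact N.mul_mem hn (hN.conj_mem _ (N.inv_mem hn) a)
      have hmemP : b * a⁻¹ ∈ (P : Subgroup G) := mul_mem hb (inv_mem ha)
      have h1 : b * a⁻¹ = 1 := Subgroup.disjoint_def.mp hc.disjoint hmem hmemP
      exact hab (mul_inv_eq_one.mp h1).symm

end Cfsg.Agent.S0203
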