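import Mathlib
import Cfsg.Statements.S0207
import Cfsg.Agent.Lib.Helper2.Dihedral

set_option autoImplicit false
open Cfsg

namespace Cfsg.Agent.S0207

open Cfsg.Agent.Lib.Helper2

/-- If x, y are distinct involutions, every element of the subgroup they generate that lies outside the cyclic subgroup generated by xy is an involution. -/
theorem result {G : Type*} [Group G] [Finite G] (x y : G) (hx : orderOf x = 2) (hy : orderOf y = 2) (hxy : x ≠ y) (d : G) (hd : d ∈ Subgroup.closure ({x, y} : Set G)) (hd' : d ∉ Subgroup.zpowers (x * y)) : orderOf d = 2 := by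
  obtain ⟨k, hk | hk⟩ := invol_closure_form hx hy hd
  · exact absurd (hk ▸ Subgroup.zpow_mem_zpowers _ k) hd'
  · have h1 : d ≠ 1 := fun h => hd' (h ▸ Subgroup.one_mem _)
    have h2 : d ^ 2 = 1 := by
      rw [pow_two, hk]
      calc (x * y) ^ k * x * ((x * y) ^ k * x) = (x * y) ^ k * (x * (x * y) ^ k) * x := by group
        _ = (x * y) ^ k * ((x * y) ^ (-k) * x) * x := by rw [invol_mul_zpow hx hy]
        _ = ((x * y) ^ k * (x * y) ^ (-k)) * (x * x) := by group
        _ = 1 := by rw [invol_sq hx, ← zpow_add]; simp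
    exact orderOf_eq_prime h2 h1

end Cfsg.Agent.S0207
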