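import Mathlib
import Cfsg.Statements.S0211
import Cfsg.Agent.Lib.Helper2.Dihedral
import Cfsg.Agent.S0209

set_option autoImplicit false
open Cfsg

namespace Cfsg.Agent.S0211

open Cfsg.Agent.Lib.Helper2

/-- Let x, y be involutions with xy of even order n and z = (xy)^(n/2). Then xz is conjugate to x by an element of the subgroup generated by x, y if and only if 4 divides n. -/
theorem result {G : Type*} [Group G] [Finite G] (x y : G) (hx : orderOf x = 2) (hy : orderOf y = 2) (heven : Even (orderOf (x * y))) : (∃ d ∈ Subgroup.closure ({x, y} : Set G), d * x * d⁻¹ = x * (x * y) ^ (orderOf (x * y) / 2)) ↔ 4 ∣ orderOf (x * y) := by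
  have hcomm := (Cfsg.Agent.S0209.result x y hx hy heven).2.1
  have hxz : x * (x * y) ^ (orderOf (x * y) / 2) = (x * y) ^ (orderOf (x * y) / 2) * x := hcomm.eq.symm
  rw [hxz]
  have hpos : 0 < orderOf (x * y) := orderOf_pos (x * y)
  obtain ⟨m, hm⟩ := heven
  have hm2 : orderOf (x * y) / 2 = m := by omega
  rw [hm2]
  constructor
  · rintro ⟨d, hd, hdx⟩
    obtain ⟨k, hk⟩ := invol_conj_form hx hy hd
    rw [hdx] at hk
    have h2 : (x * y) ^ m = (x * y) ^ (2 * k) := mul_right_cancel hk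
    have h3 : (x * y) ^ (2 * k - (m : ℤ)) = 1 := by
      rw [zpow_sub, ← h2, zpow_natCast]; simp
    have h4 : ((orderOf (x * y) : ℕ) : ℤ) ∣ 2 * k - (m : ℤ) := orderOf_dvd_iff_zpow_eq_one.mpr h3
    rw [hm] at h4 ⊢
    obtain ⟨c, hc⟩ := h4
    push_cast at hc
    have h5 : (m : ℤ) = 2 * (k - m * c) := by linarith
    have h6 : (2 : ℤ) ∣ (m : ℤ) := ⟨_, h5⟩
    have h7 : 2 ∣ m := by exact_mod_cast h6
    omega
  · rintro ⟨c, hc⟩
    refine ⟨(x * y) ^ (c : ℤ), invol_zpow_mem_closure _, ?_⟩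
    rw [invol_conj_zpow_form hx hy]
    have : (2 * (c : ℤ)) = ((m : ℕ) : ℤ) := by omega
    rw [this, zpow_natCast]

end Cfsg.Agent.S0211
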