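import Cfsg.Statements.S0233
import Mathlib
import Cfsg.Agent.Lib.Helper3.BrauerFowler

set_option autoImplicit false
open Cfsg

namespace Cfsg.Agent.S0233

/-- Let G be a finite group of even order with exactly n involutions whose centre has odd order, and put a = |G|/n. Then G has a proper subgroup H with |G : H| = 2 or |G : H| < a(a+1)/2; over ℕ the latter reads 2·|G:H|·n² < |G|·(|G| + n). -/
theorem result {G : Type*} [Group G] [Finite G] (heven : Even (Nat.card G)) (hZ : Odd (Nat.card (Subgroup.center G))) : ∃ H : Subgroup G, H ≠ ⊤ ∧ (H.index = 2 ∨ 2 * H.index * (Nat.card {t : G // orderOf t = 2}) ^ 2 < Nat.card G * (Nat.card G + Nat.card {t : G // orderOf t = 2})) := by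
  classical
  have : Fintype G := Fintype.ofFinite G
  by_cases hidx : ∃ H : Subgroup G, H.index = 2
  · obtain ⟨H, hH⟩ := hidx
    refine ⟨H, ?_, Or.inl hH⟩
    rintro rfl
    rw [Subgroup.index_top] at hH
    omega
  push Not at hidx
  have hNpos : 0 < Nat.card G := Nat.card_pos
  have hN2 : 2 ≤ Nat.card G := by
    obtain ⟨k, hk⟩ := heven
    omega
  have hex : ∃ k, ∃ H : Subgroup G, H ≠ ⊤ ∧ H.index = k := by
    refine ⟨_, ⊥, ?_, rfl⟩
    intro h
    have h1 := Subgroup.card_bot (G := G)
    rw [h, Subgroup.card_top] at h1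
    omega
  obtain ⟨H, hH, hHm⟩ := Nat.find_spec hex
  have hmin : ∀ K : Subgroup G, K ≠ ⊤ → H.index ≤ K.index := by
    intro K hK
    rw [hHm]
    exact Nat.find_min' hex ⟨K, hK, rfl⟩
  refine ⟨H, hH, Or.inr ?_⟩
  set m := H.index with hm
  set N := Nat.card G with hN
  set n := Nat.card {t : G // orderOf t = 2} with hn
  have hprop : ∀ K : Subgroup G, K ≠ ⊤ → m * Nat.card K ≤ N := by
    intro K hK
    calc m * Nat.card K ≤ K.index * Nat.card K := Nat.mul_le_mul_right _ (hmin K hK)
      _ = N := K.index_mul_card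
  -- involutions
  have hcI : ∀ g : G, orderOf g = 2 →
      2 * m * Nat.card (Cfsg.Agent.Lib.Helper3.InvPairs g) + 4 * m ≤ 2 * N := by
    intro g hg
    have h1 := Cfsg.Agent.Lib.Helper3.card_invPairs_add_two_le hg
    have hCne : Subgroup.centralizer ({g} : Set G) ≠ ⊤ := by
      intro htop
      have hgc : g ∈ Subgroup.center G := by
        rw [Subgroup.mem_center_iff]
        intro x
        have hx : x ∈ Subgroup.centralizer ({g} : Set G) := by rw [htop]; exact Subgroup.mem_top x
        exact (Cfsg.Agent.Lib.Helper3.mem_cent_singleton.mp hx).symm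
      have hd : orderOf (⟨g, hgc⟩ : Subgroup.center G) ∣ Nat.card (Subgroup.center G) :=
        orderOf_dvd_natCard _
      rw [Subgroup.orderOf_mk, hg] at hd
      obtain ⟨j, hj⟩ := hZ
      omega
    have h2 := hprop _ hCne
    calc 2 * m * Nat.card (Cfsg.Agent.Lib.Helper3.InvPairs g) + 4 * m
        = 2 * (m * (Nat.card (Cfsg.Agent.Lib.Helper3.InvPairs g) + 2)) := by ring
      _ ≤ 2 * (m * Nat.card (Subgroup.centralizer ({g} : Set G))) :=
          Nat.mul_le_mul_left _ (Nat.mul_le_mul_left _ h1)
      _ ≤ 2 * N := Nat.mul_le_mul_left _ h2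
  -- other elements
  have hcR : ∀ g : G, g ≠ 1 → orderOf g ≠ 2 →
      2 * m * Nat.card (Cfsg.Agent.Lib.Helper3.InvPairs g) ≤ N := by
    intro g hg1 hg2
    by_cases hne : Nonempty (Cfsg.Agent.Lib.Helper3.InvPairs g)
    · obtain ⟨p₀⟩ := hne
      have hu := Cfsg.Agent.Lib.Helper3.invPairs_fst_inverts p₀
      have hgg : g * g ≠ 1 := by
        intro h
        exact hg2 (Cfsg.Agent.Lib.Helper3.invol_iff.mpr ⟨h, hg1⟩)
      have hcard := Cfsg.Agent.Lib.Helper3.card_normalizer_pair hgg hu
      have hle := Cfsg.Agent.Lib.Helper3.card_invPairs_le g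
      have hLne : Subgroup.normalizer ({g, g⁻¹} : Set G) ≠ ⊤ := by
        intro htop
        apply hidx (Subgroup.centralizer ({g} : Set G))
        have h3 := (Subgroup.centralizer ({g} : Set G)).index_mul_card
        rw [htop, Subgroup.card_top] at hcard
        rw [hcard] at h3
        have hpos : 0 < Nat.card (Subgroup.centralizer ({g} : Set G)) := Nat.card_pos
        exact Nat.eq_of_mul_eq_mul_right hpos h3
      have h4 := hprop _ hLne
      rw [hcard] at h4
      calc 2 * m * Nat.card (Cfsg.Agent.Lib.Helper3.InvPairs g)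
          ≤ 2 * m * Nat.card (Subgroup.centralizer ({g} : Set G)) := Nat.mul_le_mul_left _ hle
        _ = m * (2 * Nat.card (Subgroup.centralizer ({g} : Set G))) := by ring
        _ ≤ N := h4
    · rw [not_nonempty_iff] at hne
      simp
  -- the sum
  have hsum := Cfsg.Agent.Lib.Helper3.sq_card_invol_eq_sum (G := G)
  rw [← hn] at hsum
  have hc1 := Cfsg.Agent.Lib.Helper3.card_invPairs_one (G := G)
  rw [← hn] at hc1
  have hterm : ∀ g : G, 2 * m * Nat.card (Cfsg.Agent.Lib.Helper3.InvPairs g) +
      ((if g = 1 then N else 0) + (if orderOf g = 2 then 4 * m + N else 0)) ≤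
      N + (if g = 1 then 2 * m * n else 0) + (if orderOf g = 2 then 2 * N else 0) := by
    intro g
    by_cases h1 : g = 1
    · subst h1
      have : ¬ (orderOf (1 : G) = 2) := by rw [orderOf_one]; omega
      simp only [this, if_true, if_false, hc1]
      omega
    · by_cases h2 : orderOf g = 2
      · simp only [h1, h2, if_true, if_false]
        have := hcI g h2
        omega
      · simp only [h1, h2, if_false]
        have := hcR g h1 h2
        omega
  have hS := Finset.sum_le_sum (fun g (_ : g ∈ (Finset.univ : Finset G)) => hterm g)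
  have hcardI : (Finset.univ.filter (fun g : G => orderOf g = 2)).card = n := by
    rw [hn, Nat.card_eq_fintype_card, Fintype.card_subtype]
  rw [Finset.sum_add_distrib, Finset.sum_add_distrib, Finset.sum_add_distrib,
    Finset.sum_add_distrib, ← Finset.mul_sum, ← hsum] at hS
  simp only [Finset.sum_ite_eq', Finset.mem_univ, if_true, Finset.sum_const, Finset.card_univ,
    smul_eq_mul, Finset.sum_ite, Finset.sum_const_zero, add_zero, hcardI] at hS
  rw [← Nat.card_eq_fintype_card, ← hN] at hS
  nlinarith [hS, hNpos]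

end Cfsg.Agent.S0233
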