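import Cfsg.Statements.S0212
import Mathlib
import Cfsg.Agent.Lib.Helper3.Embed
import Cfsg.Agent.S0233

set_option autoImplicit false
open Cfsg

namespace Cfsg.Agent.S0212

/-- The Brauer–Fowler bound: if G is a finite simple group and t an involution of G whose centralizer has order n, then |G| ≤ (2n^2)!. -/
theorem result {G : Type*} [Group G] [Finite G] [IsSimpleGroup G] (t : G) (ht : orderOf t = 2) : Nat.card G ≤ Nat.factorial (2 * (Nat.card (Subgroup.centralizer ({t} : Set G))) ^ 2) := by
  classical
  set c := Nat.card (Subgroup.centralizer ({t} : Set G)) with hc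
  set N := Nat.card G with hN
  have hcpos : 0 < c := Nat.card_pos
  by_cases htop : Subgroup.centralizer ({t} : Set G) = ⊤
  · have hcN : c = N := by rw [hc, htop, Subgroup.card_top]
    rw [hcN]
    have hNpos : 0 < N := Nat.card_pos
    calc N ≤ 2 * N ^ 2 := by nlinarith
      _ ≤ Nat.factorial (2 * N ^ 2) := Nat.self_le_factorial _
  · have heven := Cfsg.Agent.Lib.Helper3.even_card_of_invol ht
    have hZ : Odd (Nat.card (Subgroup.center G)) := by
      rcases (inferInstance : (Subgroup.center G).Normal).eq_bot_or_eq_top with h | h
      · rw [h, Subgroup.card_bot]; exact odd_one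
      · exfalso
        apply htop
        rw [eq_top_iff]
        intro x _
        rw [Cfsg.Agent.Lib.Helper3.mem_cent_singleton]
        have htc : t ∈ Subgroup.center G := by rw [h]; exact Subgroup.mem_top t
        exact (Subgroup.mem_center_iff.mp htc x).symm
    obtain ⟨H, hH, hcase⟩ := Cfsg.Agent.S0233.result heven hZ
    have hle := Cfsg.Agent.Lib.Helper3.card_le_factorial_index_of_simple H hH
    have hm : H.index ≤ 2 * c ^ 2 := by
      rcases hcase with h2 | hineq
      · rw [h2]; nlinarith
      · set n := Nat.card {u : G // orderOf u = 2} with hn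
        set m := H.index with hm
        have h1 : N ≤ n * c := Cfsg.Agent.Lib.Helper3.card_le_invol_mul_centralizer ht
        have h2 : N * (N + n) ≤ (n * c) * (n * c + n) := Nat.mul_le_mul h1 (by omega)
        have h3 : n ^ 2 * (2 * m) < n ^ 2 * (c * (c + 1)) := by
          calc n ^ 2 * (2 * m) = 2 * m * n ^ 2 := by ring
            _ < N * (N + n) := hineq
            _ ≤ (n * c) * (n * c + n) := h2
            _ = n ^ 2 * (c * (c + 1)) := by ring
        have h4 := Nat.lt_of_mul_lt_mul_left h3
        nlinarith
    exact hle.trans (Nat.factorial_le hm)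

end Cfsg.Agent.S0212
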