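import Cfsg.Statements.S0213
import Mathlib
import Cfsg.Agent.Lib.Helper3.Dihedral

set_option autoImplicit false
open Cfsg

namespace Cfsg.Agent.S0213

open Cfsg.Agent.Lib.Helper3 in
theorem invol_unique_zpowers {G : Type*} [Group G] [Finite G] {r a b : G} (ha : orderOf a = 2)
    (hb : orderOf b = 2) (har : a ∈ Subgroup.zpowers r) (hbr : b ∈ Subgroup.zpowers r) : a = b := by
  classical
  have : Fintype (Subgroup.zpowers r) := Fintype.ofFinite _
  have ha' : orderOf (⟨a, har⟩ : Subgroup.zpowers r) = 2 := by rw [Subgroup.orderOf_mk]; exact ha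
  have hb' : orderOf (⟨b, hbr⟩ : Subgroup.zpowers r) = 2 := by rw [Subgroup.orderOf_mk]; exact hb
  have hd : 2 ∣ Fintype.card (Subgroup.zpowers r) := by rw [← ha']; exact orderOf_dvd_card
  have h := IsCyclic.card_orderOf_eq_totient hd
  rw [Nat.totient_two] at h
  have h1 := Finset.card_le_one.mp (le_of_eq h) ⟨a, har⟩ (by simp [ha']) ⟨b, hbr⟩ (by simp [hb'])
  exact congrArg Subtype.val h1

/-- pairs `(u, v)` with `u ~ x₁`, `v ~ x₂`, `z ∈ ⟨u v⟩` -/
abbrev PP {G : Type*} [Group G] (x₁ x₂ z : G) : Type _ :=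
  {p : G × G // IsConj x₁ p.1 ∧ IsConj x₂ p.2 ∧ z ∈ Subgroup.zpowers (p.1 * p.2)}

theorem card_PP_le {G : Type*} [Group G] [Finite G] (x₁ x₂ : G) (g z z' : G)
    (hz : z' = g * z * g⁻¹) : Nat.card (PP x₁ x₂ z) ≤ Nat.card (PP x₁ x₂ z') := by
  apply Nat.card_le_card_of_injective
    (fun p : PP x₁ x₂ z => (⟨(g * p.1.1 * g⁻¹, g * p.1.2 * g⁻¹),
      p.2.1.trans (isConj_iff.mpr ⟨g, rfl⟩), p.2.2.1.trans (isConj_iff.mpr ⟨g, rfl⟩), by
        obtain ⟨k, hk⟩ := Subgroup.mem_zpowers_iff.mp p.2.2.2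
        rw [Subgroup.mem_zpowers_iff]
        refine ⟨k, ?_⟩
        have : g * p.1.1 * g⁻¹ * (g * p.1.2 * g⁻¹) = g * (p.1.1 * p.1.2) * g⁻¹ := by group
        show (g * p.1.1 * g⁻¹ * (g * p.1.2 * g⁻¹)) ^ k = z'
        rw [this, conj_zpow, hk, hz]⟩ : PP x₁ x₂ z'))
  intro p q h
  have h1 : g * p.1.1 * g⁻¹ = g * q.1.1 * g⁻¹ := congrArg (fun r : PP x₁ x₂ z' => r.1.1) h
  have h2 : g * p.1.2 * g⁻¹ = g * q.1.2 * g⁻¹ := congrArg (fun r : PP x₁ x₂ z' => r.1.2) h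
  apply Subtype.ext
  apply Prod.ext
  · exact mul_left_cancel (mul_right_cancel h1)
  · exact mul_left_cancel (mul_right_cancel h2)

theorem card_PP_conj {G : Type*} [Group G] [Finite G] (x₁ x₂ : G) {z z' : G} (h : IsConj z z') :
    Nat.card (PP x₁ x₂ z') = Nat.card (PP x₁ x₂ z) := by
  obtain ⟨g, hg⟩ := isConj_iff.mp h
  apply le_antisymm
  · exact card_PP_le x₁ x₂ g⁻¹ z' z (by rw [← hg]; group)
  · exact card_PP_le x₁ x₂ g z z' hg.symm

/-- Thompson Order Formula, two-class case: if every involution of the finite group G is conjugate to exactly one of the non-conjugate involutions x₁, x₂, and nᵢ is the number of pairs (u, v) with u conjugate to x₁, v conjugate to x₂ and xᵢ in the cyclic group generated by uv, then |G| = |C(x₂)| n₁ + |C(x₁)| n₂. -/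
theorem result {G : Type*} [Group G] [Finite G] (x₁ x₂ : G) (h₁ : orderOf x₁ = 2) (h₂ : orderOf x₂ = 2) (hnc : ¬ IsConj x₁ x₂) (hall : ∀ t : G, orderOf t = 2 → IsConj x₁ t ∨ IsConj x₂ t) : Nat.card G = Nat.card (Subgroup.centralizer ({x₂} : Set G)) * Nat.card {p : G × G // IsConj x₁ p.1 ∧ IsConj x₂ p.2 ∧ x₁ ∈ Subgroup.zpowers (p.1 * p.2)} + Nat.card (Subgroup.centralizer ({x₁} : Set G)) * Nat.card {p : G × G // IsConj x₁ p.1 ∧ IsConj x₂ p.2 ∧ x₂ ∈ Subgroup.zpowers (p.1 * p.2)} := by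
  classical
  have hne1 : ∀ u v : G, IsConj x₁ u → IsConj x₂ v → ¬ IsConj u v := by
    intro u v hu hv huv
    exact hnc (hu.trans (huv.trans hv.symm))
  -- the map from the sum of sigma types to the product of the classes
  let F : (Σ z : {y : G // IsConj x₁ y}, PP x₁ x₂ z.1) ⊕ (Σ z : {y : G // IsConj x₂ y}, PP x₁ x₂ z.1) →
      {y : G // IsConj x₁ y} × {y : G // IsConj x₂ y} := fun s => match s with
    | Sum.inl σ => (⟨σ.2.1.1, σ.2.2.1⟩, ⟨σ.2.1.2, σ.2.2.2.1⟩)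
    | Sum.inr σ => (⟨σ.2.1.1, σ.2.2.1⟩, ⟨σ.2.1.2, σ.2.2.2.1⟩)
  have hF : Function.Bijective F := by
    constructor
    · intro a b hab
      rcases a with ⟨⟨z, hz⟩, ⟨⟨u, v⟩, hu, hv, hzm⟩⟩ | ⟨⟨z, hz⟩, ⟨⟨u, v⟩, hu, hv, hzm⟩⟩ <;>
      rcases b with ⟨⟨z', hz'⟩, ⟨⟨u', v'⟩, hu', hv', hzm'⟩⟩ | ⟨⟨z', hz'⟩, ⟨⟨u', v'⟩, hu', hv', hzm'⟩⟩
      all_goals
        have e1 : u = u' := congrArg (fun q : {y : G // IsConj x₁ y} × {y : G // IsConj x₂ y} => q.1.1) hab
        have e2 : v = v' := congrArg (fun q : {y : G // IsConj x₁ y} × {y : G // IsConj x₂ y} => q.2.1) hab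
        subst e1 e2
      · have : z = z' := invol_unique_zpowers (Cfsg.Agent.Lib.Helper3.invol_conj h₁ hz)
          (Cfsg.Agent.Lib.Helper3.invol_conj h₁ hz') hzm hzm'
        subst this
        rfl
      · exfalso
        have : z = z' := invol_unique_zpowers (Cfsg.Agent.Lib.Helper3.invol_conj h₁ hz)
          (Cfsg.Agent.Lib.Helper3.invol_conj h₂ hz') hzm hzm'
        subst this
        exact hnc (hz.trans hz'.symm)
      · exfalso
        have : z = z' := invol_unique_zpowers (Cfsg.Agent.Lib.Helper3.invol_conj h₂ hz)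
          (Cfsg.Agent.Lib.Helper3.invol_conj h₁ hz') hzm hzm'
        subst this
        exact hnc (hz'.trans hz.symm)
      · have : z = z' := invol_unique_zpowers (Cfsg.Agent.Lib.Helper3.invol_conj h₂ hz)
          (Cfsg.Agent.Lib.Helper3.invol_conj h₂ hz') hzm hzm'
        subst this
        rfl
    · rintro ⟨⟨u, hu⟩, ⟨v, hv⟩⟩
      have hu2 := Cfsg.Agent.Lib.Helper3.invol_conj h₁ hu
      have hv2 := Cfsg.Agent.Lib.Helper3.invol_conj h₂ hv
      obtain ⟨m, -, -, hz2, -, -⟩ :=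
        Cfsg.Agent.Lib.Helper3.invol_exists_central hu2 hv2 (hne1 u v hu hv)
      have hzm : (u * v) ^ m ∈ Subgroup.zpowers (u * v) := Subgroup.pow_mem _ (Subgroup.mem_zpowers _) m
      rcases hall _ hz2 with hz | hz
      · exact ⟨Sum.inl ⟨⟨_, hz⟩, ⟨(u, v), hu, hv, hzm⟩⟩, rfl⟩
      · exact ⟨Sum.inr ⟨⟨_, hz⟩, ⟨(u, v), hu, hv, hzm⟩⟩, rfl⟩
  have hcard := Nat.card_congr (Equiv.ofBijective F hF)
  have : Fintype {y : G // IsConj x₁ y} := Fintype.ofFinite _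
  have : Fintype {y : G // IsConj x₂ y} := Fintype.ofFinite _
  rw [Nat.card_sum, Nat.card_prod, Nat.card_sigma, Nat.card_sigma] at hcard
  have hs1 : ∑ z : {y : G // IsConj x₁ y}, Nat.card (PP x₁ x₂ z.1) =
      Nat.card {y : G // IsConj x₁ y} * Nat.card (PP x₁ x₂ x₁) := by
    rw [Finset.sum_congr rfl (fun z _ => card_PP_conj x₁ x₂ z.2)]
    rw [Finset.sum_const, Finset.card_univ, smul_eq_mul, ← Nat.card_eq_fintype_card]
  have hs2 : ∑ z : {y : G // IsConj x₂ y}, Nat.card (PP x₁ x₂ z.1) =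
      Nat.card {y : G // IsConj x₂ y} * Nat.card (PP x₁ x₂ x₂) := by
    rw [Finset.sum_congr rfl (fun z _ => card_PP_conj x₁ x₂ z.2)]
    rw [Finset.sum_const, Finset.card_univ, smul_eq_mul, ← Nat.card_eq_fintype_card]
  rw [hs1, hs2] at hcard
  have hk1 := Cfsg.Agent.Lib.Helper3.card_conj_class x₁
  have hk2 := Cfsg.Agent.Lib.Helper3.card_conj_class x₂
  have hNpos : 0 < Nat.card G := Nat.card_pos
  show Nat.card G = Nat.card (Subgroup.centralizer ({x₂} : Set G)) * Nat.card (PP x₁ x₂ x₁) +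
    Nat.card (Subgroup.centralizer ({x₁} : Set G)) * Nat.card (PP x₁ x₂ x₂)
  set k₁ := Nat.card {y : G // IsConj x₁ y}
  set k₂ := Nat.card {y : G // IsConj x₂ y}
  set c₁ := Nat.card (Subgroup.centralizer ({x₁} : Set G))
  set c₂ := Nat.card (Subgroup.centralizer ({x₂} : Set G))
  set n₁ := Nat.card (PP x₁ x₂ x₁)
  set n₂ := Nat.card (PP x₁ x₂ x₂)
  set N := Nat.card G
  have key : N * N = N * (c₂ * n₁ + c₁ * n₂) := by
    calc N * N = (k₁ * c₁) * (k₂ * c₂) := by rw [hk1, hk2]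
      _ = c₁ * c₂ * (k₁ * k₂) := by ring
      _ = c₁ * c₂ * (k₁ * n₁ + k₂ * n₂) := by rw [hcard]
      _ = (k₁ * c₁) * (c₂ * n₁) + (k₂ * c₂) * (c₁ * n₂) := by ring
      _ = N * (c₂ * n₁ + c₁ * n₂) := by rw [hk1, hk2]; ring
  exact Nat.eq_of_mul_eq_mul_left hNpos key

end Cfsg.Agent.S0213
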