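import Cfsg.Statements.S0216
import Mathlib
import Cfsg.Agent.Lib.Helper3.Dihedral

set_option autoImplicit false
open Cfsg

namespace Cfsg.Agent.S0216

/-- For an involution u in a Sylow 2-subgroup P of a finite group G, the following are equivalent: no G-conjugate of u other than u lies in P; every commutator of u with an element of G has odd order. -/
theorem result {G : Type*} [Group G] [Finite G] (P : Sylow 2 G) (u : G) (hu : orderOf u = 2) (huP : u ∈ P) : (∀ g : G, g * u * g⁻¹ ∈ P → g * u * g⁻¹ = u) ↔ (∀ g : G, Odd (orderOf (u * g * u⁻¹ * g⁻¹))) := by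
  have hu' := Cfsg.Agent.Lib.Helper3.invol_mul_self hu
  have hui := Cfsg.Agent.Lib.Helper3.invol_inv hu
  constructor
  · intro hiso g
    by_contra hodd
    rw [Nat.not_odd_iff_even] at hodd
    set v := g * u * g⁻¹ with hv
    have hvc : IsConj u v := isConj_iff.mpr ⟨g, rfl⟩
    have hv2 : orderOf v = 2 := Cfsg.Agent.Lib.Helper3.invol_conj hu hvc
    have hv' := Cfsg.Agent.Lib.Helper3.invol_mul_self hv2
    have hvi := Cfsg.Agent.Lib.Helper3.invol_inv hv2
    have e1 : u * g * u⁻¹ * g⁻¹ = (v * u)⁻¹ := by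
      have e0 : (g * u * g⁻¹ * u)⁻¹ = u⁻¹ * g * u⁻¹ * g⁻¹ := by group
      rw [hv, e0, hui]
    rw [e1, orderOf_inv] at hodd
    obtain ⟨m, hm⟩ := hodd
    have hm' : orderOf (v * u) = 2 * m := by omega
    have hm0 : m ≠ 0 := by
      intro h
      rw [h] at hm'
      exact (orderOf_pos (v * u)).ne' hm'
    obtain ⟨hz2, hzv, hzu⟩ := Cfsg.Agent.Lib.Helper3.invol_central_pow hv2 hu hm' hm0
    have hconj : IsConj u ((v * u) ^ m * u) := by
      rcases Cfsg.Agent.Lib.Helper3.dih_pow_mul_conj hv' hu' m with ⟨_, h⟩ | ⟨_, h⟩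
      · exact h
      · exact hvc.trans h
    have hcomm : Commute u ((v * u) ^ m * u) := by
      show u * ((v * u) ^ m * u) = (v * u) ^ m * u * u
      have : (v * u) ^ m * u = u * (v * u) ^ m := hzu
      rw [← mul_assoc, ← this]
    have := Cfsg.Agent.Lib.Helper3.isolated_eq_of_conj_commute P hu hiso hconj hcomm
    have h1 : (v * u) ^ m = 1 := by
      have h2 : (v * u) ^ m * u = 1 * u := by rw [one_mul]; exact this
      exact mul_right_cancel h2
    exact Cfsg.Agent.Lib.Helper3.invol_ne_one hz2 h1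
  · intro hodd g hg
    have h2 : IsPGroup 2 (P : Subgroup G) := P.isPGroup'
    have hc : u * g * u⁻¹ * g⁻¹ ∈ (P : Subgroup G) := by
      have : u * g * u⁻¹ * g⁻¹ = u * (g * u * g⁻¹)⁻¹ := by group
      rw [this]
      exact Subgroup.mul_mem _ huP (Subgroup.inv_mem _ hg)
    obtain ⟨k, hk⟩ := (IsPGroup.iff_orderOf.mp h2) ⟨_, hc⟩
    rw [Subgroup.orderOf_mk] at hk
    have ho := hodd g
    rw [hk] at ho
    have hk0 : k = 0 := by
      by_contra h
      have : Even (2 ^ k) := (Nat.even_pow.mpr ⟨even_two, h⟩)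
      exact (Nat.not_odd_iff_even.mpr this) ho
    rw [hk0, pow_zero, orderOf_eq_one_iff] at hk
    have : g * u * g⁻¹ = (u * g * u⁻¹ * g⁻¹)⁻¹ * u := by group
    rw [this, hk, inv_one, one_mul]

end Cfsg.Agent.S0216
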