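import Cfsg.Statements.S0218
import Mathlib
import Cfsg.Agent.Lib.Helper3.Invol

set_option autoImplicit false
open Cfsg

namespace Cfsg.Agent.S0218

/-- The generalized quaternion group of order 2^(n+3) contains exactly one element of order 2. -/
theorem result (n : ℕ) : Nat.card {x : QuaternionGroup (2 ^ (n + 1)) // orderOf x = 2} = 1 := by
  have hm : 0 < 2 ^ (n + 1) := Nat.pos_of_ne_zero (by positivity)
  have : NeZero (2 ^ (n + 1)) := ⟨hm.ne'⟩
  have : NeZero (2 * 2 ^ (n + 1)) := ⟨by positivity⟩
  have hmval : ((2 ^ (n + 1) : ℕ) : ZMod (2 * 2 ^ (n + 1))).val = 2 ^ (n + 1) :=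
    ZMod.val_natCast_of_lt (by omega)
  have key : ∀ x : QuaternionGroup (2 ^ (n + 1)), orderOf x = 2 →
      x = QuaternionGroup.a ((2 ^ (n + 1) : ℕ) : ZMod (2 * 2 ^ (n + 1))) := by
    intro x hx
    cases x with
    | a i =>
      obtain ⟨h1, h2⟩ := Cfsg.Agent.Lib.Helper3.invol_iff.mp hx
      rw [QuaternionGroup.a_mul_a, QuaternionGroup.one_def] at h1
      have h3 : i + i = 0 := by
        injection h1
      have h4 : i ≠ 0 := by
        intro h; apply h2; rw [h, QuaternionGroup.a_zero]
      have h5 := congrArg ZMod.val h3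
      rw [ZMod.val_add, ZMod.val_zero] at h5
      have h6 : i.val < 2 * 2 ^ (n + 1) := ZMod.val_lt i
      have h7 : i.val ≠ 0 := fun h => h4 ((ZMod.val_eq_zero i).mp h)
      have h8 : i.val = 2 ^ (n + 1) := by
        obtain ⟨k, hk⟩ := Nat.dvd_of_mod_eq_zero h5
        have hk1 : k ≤ 1 := by
          by_contra hcon
          push Not at hcon
          have h9 : 2 * 2 ^ (n + 1) * 2 ≤ 2 * 2 ^ (n + 1) * k := Nat.mul_le_mul_left _ hcon
          omega
        have hk2 : k ≠ 0 := by
          intro h0
          rw [h0, mul_zero] at hk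
          omega
        have hk3 : k = 1 := by omega
        rw [hk3, mul_one] at hk
        omega
      congr 1
      rw [← ZMod.natCast_zmod_val i, h8]
    | xa i =>
      rw [QuaternionGroup.orderOf_xa] at hx
      omega
  have hinv : orderOf (QuaternionGroup.a ((2 ^ (n + 1) : ℕ) : ZMod (2 * 2 ^ (n + 1))) :
      QuaternionGroup (2 ^ (n + 1))) = 2 := by
    rw [Cfsg.Agent.Lib.Helper3.invol_iff, QuaternionGroup.a_mul_a]
    constructor
    · rw [QuaternionGroup.one_def]
      congr 1
      rw [← Nat.cast_add, ← two_mul]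
      exact ZMod.natCast_self _
    · rw [QuaternionGroup.one_def]
      intro h
      injection h with h'
      have := congrArg ZMod.val h'
      rw [hmval, ZMod.val_zero] at this
      omega
  rw [Nat.card_eq_one_iff_unique]
  constructor
  · constructor
    intro x y
    apply Subtype.ext
    rw [key x.1 x.2, key y.1 y.2]
  · exact ⟨⟨_, hinv⟩⟩

end Cfsg.Agent.S0218
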