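import Cfsg.Statements.S0220
import Mathlib
import Cfsg.Agent.Lib.Helper3.IndexTwo
import Cfsg.Agent.Lib.Helper3.Embed

set_option autoImplicit false
open Cfsg

namespace Cfsg.Agent.S0220

/-- If x is an involution of a finite group G and a Sylow 2-subgroup of the centralizer of x is cyclic, then G has a subgroup of index 2; in particular G is not simple unless it has order 2. -/
theorem result {G : Type*} [Group G] [Finite G] (x : G) (hx : orderOf x = 2) (S : Sylow 2 ↥(Subgroup.centralizer ({x} : Set G))) (hS : IsCyclic (S : Subgroup ↥(Subgroup.centralizer ({x} : Set G)))) : ∃ H : Subgroup G, H.index = 2 := by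
  obtain ⟨T, hT⟩ := Cfsg.Agent.Lib.Helper3.exists_cyclic_sylow_of_centralizer x hx _ rfl S hS
  exact Cfsg.Agent.Lib.Helper3.exists_index_two_of_cyclic_sylow
    (Cfsg.Agent.Lib.Helper3.even_card_of_invol hx) T hT

end Cfsg.Agent.S0220
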