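import Cfsg.Statements.S0226
import Mathlib

set_option autoImplicit false
open Pointwise
open Cfsg

namespace Cfsg.Agent.S0226

/-- A finite group of even order has an odd number of involutions. -/
theorem result {G : Type*} [Group G] [Finite G] (heven : Even (Nat.card G)) : Odd (Nat.card {t : G // orderOf t = 2}) := by
  classical
  have : Fintype G := Fintype.ofFinite G
  -- the inversion map as an element of `Function.End G`
  let f : Function.End G := fun g => g⁻¹
  have hf : f ^ 2 ^ 1 = 1 := by
    funext g
    show f (f g) = g
    simp [f]
  have : Fact (Nat.Prime 2) := ⟨Nat.prime_two⟩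
  have h1 := Equiv.Perm.card_fixedPoints_modEq (p := 2) (n := 1) hf
  -- fixed points of inversion = {1} ∪ involutions
  have h2 : Fintype.card (Function.fixedPoints f) = Nat.card {t : G // orderOf t = 2} + 1 := by
    rw [← Nat.card_eq_fintype_card]
    have e : Function.fixedPoints f ≃ Option {t : G // orderOf t = 2} :=
      { toFun := fun x => if h : (x : G) = 1 then none else some ⟨x, by
          have hx : (x : G)⁻¹ = x := x.2
          rw [orderOf_eq_prime_iff]
          refine ⟨?_, h⟩
          rw [pow_two]
          calc (x : G) * x = (x : G)⁻¹ * x := by rw [hx]
            _ = 1 := inv_mul_cancel _⟩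
        invFun := fun o => match o with
          | none => ⟨1, by show (1 : G)⁻¹ = 1; simp⟩
          | some t => ⟨t.1, by
              show (t.1)⁻¹ = t.1
              have := orderOf_eq_prime_iff.mp t.2
              rw [inv_eq_iff_mul_eq_one, ← pow_two]
              exact this.1⟩
        left_inv := by
          intro x
          by_cases h : (x : G) = 1
          · simp [h]
            exact Subtype.ext h.symm
          · simp [h]
        right_inv := by
          intro o
          cases o with
          | none => simp
          | some t =>
            have := orderOf_eq_prime_iff.mp t.2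
            simp [this.2] }
    rw [Nat.card_congr e]
    simp [Nat.card_eq_fintype_card]
  rw [h2, ← Nat.card_eq_fintype_card] at h1
  have h3 : (Nat.card {t : G // orderOf t = 2} + 1) % 2 = 0 := by
    rw [← h1]
    exact Nat.even_iff.mp heven
  rw [Nat.odd_iff]
  omega

end Cfsg.Agent.S0226
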