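import Cfsg.Statements.S0229
import Mathlib
import Cfsg.Agent.Lib.Helper3.Dihedral

set_option autoImplicit false
open Cfsg

namespace Cfsg.Agent.S0229

/-- Let t be an involution of a Sylow 2-subgroup S of a finite group G, conjugate in G to no other element of S, and let s be an involution of G not conjugate to t. Then the order of st is twice an odd number. -/
theorem result {G : Type*} [Group G] [Finite G] (S : Sylow 2 G) (t : G) (ht : orderOf t = 2) (htS : t ∈ S) (hiso : ∀ g : G, g * t * g⁻¹ ∈ S → g * t * g⁻¹ = t) (s : G) (hs : orderOf s = 2) (hns : ¬ IsConj s t) : orderOf (s * t) % 4 = 2 := by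
  have hs' := Cfsg.Agent.Lib.Helper3.invol_mul_self hs
  have ht' := Cfsg.Agent.Lib.Helper3.invol_mul_self ht
  obtain ⟨m, hm0, hm, hz2, hzs, hzt⟩ := Cfsg.Agent.Lib.Helper3.invol_exists_central hs ht hns
  rcases Cfsg.Agent.Lib.Helper3.dih_pow_mul_conj hs' ht' m with ⟨_, h⟩ | ⟨hodd, _⟩
  · exfalso
    have hcomm : Commute t ((s * t) ^ m * t) := by
      show t * ((s * t) ^ m * t) = (s * t) ^ m * t * t
      have : (s * t) ^ m * t = t * (s * t) ^ m := hzt
      rw [← mul_assoc, ← this]
    have := Cfsg.Agent.Lib.Helper3.isolated_eq_of_conj_commute S ht hiso h hcomm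
    have h1 : (s * t) ^ m = 1 := by
      have h2 : (s * t) ^ m * t = 1 * t := by rw [one_mul]; exact this
      exact mul_right_cancel h2
    exact Cfsg.Agent.Lib.Helper3.invol_ne_one hz2 h1
  · obtain ⟨j, hj⟩ := hodd
    rw [hm, hj]
    omega

end Cfsg.Agent.S0229
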