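import Cfsg.Statements.S0230
import Mathlib
import Cfsg.Agent.Lib.Helper3.Dihedral

set_option autoImplicit false
open Cfsg

namespace Cfsg.Agent.S0230

/-- Let G be a finite group with two non-conjugate involutions, and let t be an involution whose centralizer has maximal order among centralizers of involutions. Then |G| < |C_G(t)|^3. -/
theorem result {G : Type*} [Group G] [Finite G] (s t : G) (hs : orderOf s = 2) (ht : orderOf t = 2) (hnc : ¬ IsConj s t) (hmax : ∀ u : G, orderOf u = 2 → Nat.card (Subgroup.centralizer ({u} : Set G)) ≤ Nat.card (Subgroup.centralizer ({t} : Set G))) : Nat.card G < Nat.card (Subgroup.centralizer ({t} : Set G)) ^ 3 := by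
  classical
  set M := Nat.card (Subgroup.centralizer ({t} : Set G)) with hMdef
  have hK := Cfsg.Agent.Lib.Helper3.card_conj_class t
  have H : ∀ v : {y : G // IsConj t y}, ∃ z : G, orderOf z = 2 ∧ Commute z s ∧ Commute z v.1 := by
    intro v
    have hv2 := Cfsg.Agent.Lib.Helper3.invol_conj ht v.2
    have hnc' : ¬ IsConj s v.1 := fun h => hnc (h.trans v.2.symm)
    obtain ⟨m, -, -, hz2, hzs, hzv⟩ := Cfsg.Agent.Lib.Helper3.invol_exists_central hs hv2 hnc'
    exact ⟨_, hz2, hzs, hzv⟩
  choose zf hzf using H
  let φ : {y : G // IsConj t y} →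
      Σ z : {z : G // orderOf z = 2 ∧ Commute z s}, Subgroup.centralizer ({z.1} : Set G) :=
    fun v => ⟨⟨zf v, (hzf v).1, (hzf v).2.1⟩, ⟨v.1, by
      rw [Cfsg.Agent.Lib.Helper3.mem_cent_singleton]; exact (hzf v).2.2⟩⟩
  have hφ : Function.Injective φ := by
    intro v v' h
    have := congrArg (fun σ : (Σ z : {z : G // orderOf z = 2 ∧ Commute z s},
      Subgroup.centralizer ({z.1} : Set G)) => (σ.2 : G)) h
    exact Subtype.ext this
  have h1 := Nat.card_le_card_of_injective φ hφ
  have h2 : Nat.card (Σ z : {z : G // orderOf z = 2 ∧ Commute z s},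
      Subgroup.centralizer ({z.1} : Set G)) ≤ Nat.card {z : G // orderOf z = 2 ∧ Commute z s} * M := by
    have : Fintype {z : G // orderOf z = 2 ∧ Commute z s} := Fintype.ofFinite _
    rw [Nat.card_sigma]
    calc ∑ z : {z : G // orderOf z = 2 ∧ Commute z s}, Nat.card (Subgroup.centralizer ({z.1} : Set G))
        ≤ ∑ _z : {z : G // orderOf z = 2 ∧ Commute z s}, M :=
          Finset.sum_le_sum (fun z _ => hmax z.1 z.2.1)
      _ = Nat.card {z : G // orderOf z = 2 ∧ Commute z s} * M := by
          simp [Nat.card_eq_fintype_card]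
  have h3 : Nat.card {z : G // orderOf z = 2 ∧ Commute z s} + 1 ≤
      Nat.card (Subgroup.centralizer ({s} : Set G)) := by
    let f : Option {z : G // orderOf z = 2 ∧ Commute z s} → Subgroup.centralizer ({s} : Set G) :=
      fun o => match o with
        | none => 1
        | some z => ⟨z.1, by
            rw [Cfsg.Agent.Lib.Helper3.mem_cent_singleton]; exact z.2.2.symm⟩
    have hf : Function.Injective f := by
      intro a b hab
      rcases a with _ | a <;> rcases b with _ | b
      · rfl
      · exact absurd (Subtype.ext_iff.mp hab).symm (Cfsg.Agent.Lib.Helper3.invol_ne_one b.2.1)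
      · exact absurd (Subtype.ext_iff.mp hab) (Cfsg.Agent.Lib.Helper3.invol_ne_one a.2.1)
      · have h7 : a.1 = b.1 :=
          congrArg (fun c : Subgroup.centralizer ({s} : Set G) => (c : G)) hab
        rw [Subtype.ext h7]
    have := Nat.card_le_card_of_injective f hf
    have h5 : Nat.card (Option {z : G // orderOf z = 2 ∧ Commute z s}) =
        Nat.card {z : G // orderOf z = 2 ∧ Commute z s} + 1 := by simp
    omega
  have h4 := hmax s hs
  have hMpos : 0 < M := Nat.card_pos
  have h6 : Nat.card {y : G // IsConj t y} ≤ (M - 1) * M := by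
    calc Nat.card {y : G // IsConj t y}
        ≤ Nat.card {z : G // orderOf z = 2 ∧ Commute z s} * M := h1.trans h2
      _ ≤ (M - 1) * M := Nat.mul_le_mul_right _ (by omega)
  rw [← hK]
  calc Nat.card {y : G // IsConj t y} * M ≤ (M - 1) * M * M := Nat.mul_le_mul_right _ h6
    _ < M * M * M := by
        apply Nat.mul_lt_mul_of_pos_right _ hMpos
        apply Nat.mul_lt_mul_of_pos_right _ hMpos
        omega
    _ = M ^ 3 := by ring

end Cfsg.Agent.S0230
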