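import Cfsg.Statements.S0231
import Mathlib
import Cfsg.Agent.Lib.Helper3.Dihedral

set_option autoImplicit false
open scoped Pointwise
open Cfsg

namespace Cfsg.Agent.S0231

/-- Let T be a Sylow 2-subgroup of the finite group G which is not normal and which intersects every other Sylow 2-subgroup trivially. Then G has a single conjugacy class of involutions. -/
theorem result {G : Type*} [Group G] [Finite G] (T : Sylow 2 G) (hnn : ¬ (T : Subgroup G).Normal) (hTI : ∀ g : G, MulAut.conj g • (T : Subgroup G) ≠ T → MulAut.conj g • (T : Subgroup G) ⊓ T = ⊥) (s t : G) (hs : orderOf s = 2) (ht : orderOf t = 2) : IsConj s t := by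
  have memc : ∀ (g x : G), x ∈ MulAut.conj g • (T : Subgroup G) ↔ g⁻¹ * x * g ∈ (T : Subgroup G) := by
    intro g x
    rw [Subgroup.mem_pointwise_smul_iff_inv_smul_mem]
    simp [MulAut.smul_def]
  -- A
  have hA : ∀ a : G, a ≠ 1 → a ∈ (T : Subgroup G) → ∀ g : G, a ∈ MulAut.conj g • (T : Subgroup G) →
      MulAut.conj g • (T : Subgroup G) = T := by
    intro a ha1 haT g hag
    by_contra hne
    have := hTI g hne
    have h2 : a ∈ MulAut.conj g • (T : Subgroup G) ⊓ T := ⟨hag, haT⟩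
    rw [this, Subgroup.mem_bot] at h2
    exact ha1 h2
  -- B
  have hB : ∀ a b : G, orderOf a = 2 → orderOf b = 2 → Commute a b → a ∈ (T : Subgroup G) →
      b ∈ (T : Subgroup G) := by
    intro a b ha hb hab haT
    obtain ⟨h, h1, h2⟩ := Cfsg.Agent.Lib.Helper3.exists_conj_mem_sylow_pair T ha hb hab
    have e1 : a ∈ MulAut.conj h⁻¹ • (T : Subgroup G) := by
      rw [memc, inv_inv]; exact h1
    have e2 := hA a (Cfsg.Agent.Lib.Helper3.invol_ne_one ha) haT h⁻¹ e1
    rw [← e2, memc, inv_inv]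
    exact h2
  -- C
  have hC : ∀ a b : G, orderOf a = 2 → orderOf b = 2 → ¬ IsConj a b → a ∈ (T : Subgroup G) →
      b ∈ (T : Subgroup G) := by
    intro a b ha hb hnc haT
    obtain ⟨m, -, -, hz2, hza, hzb⟩ := Cfsg.Agent.Lib.Helper3.invol_exists_central ha hb hnc
    have hzT := hB a _ ha hz2 hza.symm haT
    exact hB _ b hz2 hb hzb hzT
  by_contra hnc
  obtain ⟨h, h1, -⟩ := Cfsg.Agent.Lib.Helper3.exists_conj_mem_sylow_pair T hs hs (Commute.refl s)
  have hss' : IsConj s (h * s * h⁻¹) := isConj_iff.mpr ⟨h, rfl⟩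
  have hs'2 := Cfsg.Agent.Lib.Helper3.invol_conj hs hss'
  have htT : t ∈ (T : Subgroup G) := hC _ t hs'2 ht (fun hc => hnc (hss'.trans hc)) h1
  -- T is not normal
  have hex : ∃ g : G, MulAut.conj g • (T : Subgroup G) ≠ T := by
    by_contra hall
    push Not at hall
    apply hnn
    constructor
    intro n hn g
    have := hall g
    rw [← this]
    exact Subgroup.smul_mem_pointwise_smul n (MulAut.conj g) (T : Subgroup G) hn
  obtain ⟨g, hg⟩ := hex
  have htt' : IsConj t (g⁻¹ * t * g) := isConj_iff.mpr ⟨g⁻¹, by rw [inv_inv]⟩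
  have ht'2 := Cfsg.Agent.Lib.Helper3.invol_conj ht htt'
  have ht'T : g⁻¹ * t * g ∈ (T : Subgroup G) :=
    hC _ _ hs'2 ht'2 (fun hc => hnc (hss'.trans (hc.trans htt'.symm))) h1
  have h5 : t ∈ MulAut.conj g • (T : Subgroup G) ⊓ T := ⟨(memc g t).mpr ht'T, htT⟩
  rw [hTI g hg, Subgroup.mem_bot] at h5
  exact Cfsg.Agent.Lib.Helper3.invol_ne_one ht h5

end Cfsg.Agent.S0231
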