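import Cfsg.Statements.S0232
import Mathlib
import Cfsg.Agent.Lib.Helper3.Embed
import Cfsg.Agent.S0233

set_option autoImplicit false
open Cfsg

namespace Cfsg.Agent.S0232

theorem idx_two {G : Type*} [Group G] [Finite G] (hgt : 2 < Nat.card G) (H : Subgroup G)
    (hH : H.index = 2) : H ≠ ⊤ ∧ Nat.card G < Nat.card H ^ 3 := by
  constructor
  · rintro rfl
    rw [Subgroup.index_top] at hH
    omega
  · have h := H.index_mul_card
    rw [hH] at h
    rw [← h]
    have h3 : 2 ≤ Nat.card H := by omega
    have h4 : 2 * 2 ≤ Nat.card H * Nat.card H := Nat.mul_le_mul h3 h3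
    have h5 : 2 * 2 * Nat.card H ≤ Nat.card H * Nat.card H * Nat.card H :=
      Nat.mul_le_mul_right _ h4
    have h6 : Nat.card H ^ 3 = Nat.card H * Nat.card H * Nat.card H := by ring
    rw [h6]
    omega

theorem aux.{u} (N : ℕ) : ∀ (G : Type u) [Group G] [Finite G], Nat.card G = N → Even N → 2 < N →
    ∃ H : Subgroup G, H ≠ ⊤ ∧ Nat.card G < Nat.card H ^ 3 := by
  induction N using Nat.strong_induction_on with
  | _ N ih =>
  intro G _ _ hcard heven hgt
  classical
  have : Fact (Nat.Prime 2) := ⟨Nat.prime_two⟩
  by_cases hidx : ∃ H : Subgroup G, H.index = 2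
  · obtain ⟨H, hH⟩ := hidx
    exact ⟨H, idx_two (by rw [hcard]; exact hgt) H hH⟩
  push Not at hidx
  have hNpos : 0 < Nat.card G := Nat.card_pos
  have h2dvd : 2 ∣ Nat.card G := by rw [hcard]; exact even_iff_two_dvd.mp heven
  by_cases hZ : Odd (Nat.card (Subgroup.center G))
  · -- centre of odd order
    obtain ⟨H, hH, hcase⟩ := Cfsg.Agent.S0233.result (by rw [hcard]; exact heven) hZ
    rcases hcase with h2 | hineq
    · exact absurd h2 (hidx H)
    obtain ⟨t, ht⟩ := exists_prime_orderOf_dvd_card' 2 h2dvd
    set c := Nat.card (Subgroup.centralizer ({t} : Set G)) with hc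
    by_cases hbig : Nat.card G < c ^ 3
    · refine ⟨Subgroup.centralizer ({t} : Set G), ?_, hbig⟩
      intro htop
      have hgc : t ∈ Subgroup.center G := by
        rw [Subgroup.mem_center_iff]
        intro x
        have hx : x ∈ Subgroup.centralizer ({t} : Set G) := by rw [htop]; exact Subgroup.mem_top x
        exact (Cfsg.Agent.Lib.Helper3.mem_cent_singleton.mp hx).symm
      have hd : orderOf (⟨t, hgc⟩ : Subgroup.center G) ∣ Nat.card (Subgroup.center G) :=
        orderOf_dvd_natCard _
      rw [Subgroup.orderOf_mk, ht] at hd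
      obtain ⟨j, hj⟩ := hZ
      omega
    · push Not at hbig
      refine ⟨H, hH, ?_⟩
      set n := Nat.card {u : G // orderOf u = 2} with hn
      set m := H.index with hm
      set M := Nat.card G with hM
      have h1 : M ≤ n * c := Cfsg.Agent.Lib.Helper3.card_le_invol_mul_centralizer ht
      have h2 : M * (M + n) ≤ (n * c) * (n * c + n) := Nat.mul_le_mul h1 (by omega)
      have h3 : n ^ 2 * (2 * m) < n ^ 2 * (c * (c + 1)) := by
        calc n ^ 2 * (2 * m) = 2 * m * n ^ 2 := by ring
          _ < M * (M + n) := hineq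
          _ ≤ (n * c) * (n * c + n) := h2
          _ = n ^ 2 * (c * (c + 1)) := by ring
      have h4 := Nat.lt_of_mul_lt_mul_left h3
      have hcpos : 0 < c := Nat.card_pos
      have h5 : m < c ^ 2 := by nlinarith
      have h6 : m ^ 3 < M ^ 2 := by
        calc m ^ 3 < (c ^ 2) ^ 3 := Nat.pow_lt_pow_left h5 (by norm_num)
          _ = (c ^ 3) ^ 2 := by ring
          _ ≤ M ^ 2 := Nat.pow_le_pow_left hbig 2
      have h7 : m * Nat.card H = M := H.index_mul_card
      by_contra hcon
      push Not at hcon
      have h8 : M ^ 3 = m ^ 3 * Nat.card H ^ 3 := by rw [← h7]; ring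
      have h9 : M ^ 3 ≤ m ^ 3 * M := by rw [h8]; exact Nat.mul_le_mul_left _ hcon
      have h10 : m ^ 3 * M < M ^ 2 * M := Nat.mul_lt_mul_of_pos_right h6 hNpos
      have h11 : M ^ 2 * M = M ^ 3 := by ring
      omega
  · -- centre of even order
    rw [Nat.not_odd_iff_even] at hZ
    obtain ⟨x, hx⟩ := exists_prime_orderOf_dvd_card' (G := Subgroup.center G) 2
      (even_iff_two_dvd.mp hZ)
    have hz2 : orderOf (x : G) = 2 := by rw [Subgroup.orderOf_coe]; exact hx
    set Z := Subgroup.zpowers (x : G) with hZdef
    have hZle : Z ≤ Subgroup.center G := by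
      rw [hZdef, Subgroup.zpowers_le]; exact x.2
    have hZn : Z.Normal := by
      constructor
      intro n hn g
      have hnc := Subgroup.mem_center_iff.mp (hZle hn) g
      rw [hnc, mul_assoc, mul_inv_cancel, mul_one]
      exact hn
    have hZcard : Nat.card Z = 2 := by rw [hZdef, Nat.card_zpowers, hz2]
    have hQ : Nat.card G = Nat.card (G ⧸ Z) * 2 := by
      rw [← hZcard]; exact Subgroup.card_eq_card_quotient_mul_card_subgroup Z
    by_cases h4 : Nat.card (G ⧸ Z) = 2
    · refine ⟨Z, ?_, ?_⟩
      · intro htop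
        rw [htop, Subgroup.card_top] at hZcard
        omega
      · rw [hZcard, hQ, h4]; norm_num
    by_cases hodd : Odd (Nat.card (G ⧸ Z))
    · exfalso
      have hcop : Nat.Coprime (Nat.card Z) Z.index := by
        rw [hZcard, Subgroup.index_eq_card]
        exact (Nat.coprime_two_left).mpr hodd
      obtain ⟨K, hK⟩ := Subgroup.exists_right_complement'_of_coprime hcop
      have := hK.index_eq_card
      rw [hZcard] at this
      exact hidx K this
    · rw [Nat.not_odd_iff_even] at hodd
      have hlt : Nat.card (G ⧸ Z) < N := by omega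
      have hgt' : 2 < Nat.card (G ⧸ Z) := by
        obtain ⟨k, hk⟩ := hodd
        omega
      obtain ⟨Hb, hHb, hHb3⟩ := ih _ hlt (G ⧸ Z) rfl hodd hgt'
      refine ⟨Hb.comap (QuotientGroup.mk' Z), ?_, ?_⟩
      · intro htop
        apply hHb
        rw [← Subgroup.index_eq_one] at htop ⊢
        rw [Subgroup.index_comap_of_surjective Hb (QuotientGroup.mk'_surjective Z)] at htop
        exact htop
      · have hi := Subgroup.index_comap_of_surjective Hb (QuotientGroup.mk'_surjective Z)
        have e1 := (Hb.comap (QuotientGroup.mk' Z)).index_mul_card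
        have e2 := Hb.index_mul_card
        rw [hi] at e1
        have hipos : 0 < Hb.index := by
          rcases Nat.eq_zero_or_pos Hb.index with h0 | h0
          · rw [h0, zero_mul] at e2; omega
          · exact h0
        have e3 : Nat.card (Hb.comap (QuotientGroup.mk' Z)) = 2 * Nat.card Hb := by
          have : Hb.index * Nat.card (Hb.comap (QuotientGroup.mk' Z)) =
              Hb.index * (2 * Nat.card Hb) := by
            rw [e1, hQ, ← e2]; ring
          exact Nat.eq_of_mul_eq_mul_left hipos this
        rw [e3, hQ]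
        have : (2 * Nat.card Hb) ^ 3 = 8 * Nat.card Hb ^ 3 := by ring
        rw [this]
        omega

/-- A finite group G of even order greater than 2 has a proper subgroup H with |G| < |H|^3. -/
theorem result {G : Type*} [Group G] [Finite G] (heven : Even (Nat.card G)) (hgt : 2 < Nat.card G) : ∃ H : Subgroup G, H ≠ ⊤ ∧ Nat.card G < (Nat.card H) ^ 3 := by
  exact aux (Nat.card G) G rfl heven hgt

end Cfsg.Agent.S0232
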