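import Cfsg.Statements.S0234
import Mathlib
import Cfsg.Agent.Lib.Helper3.SmallSimple
import Cfsg.Agent.Lib.Helper3.IndexTwo
import Cfsg.Agent.S0233

set_option autoImplicit false
open Cfsg

namespace Cfsg.Agent.S0234

open Cfsg.Agent.Lib.Helper3

theorem four_orders {G : Type*} [Group G] [Finite G] :
    Nat.card {t : G // orderOf t = 2} + Nat.card {t : G // orderOf t = 3} +
      Nat.card {t : G // orderOf t = 5} + 1 ≤ Nat.card G := by
  classical
  let f : ({t : G // orderOf t = 2} ⊕ {t : G // orderOf t = 3}) ⊕ ({t : G // orderOf t = 5} ⊕ Unit)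
      → G :=
    Sum.elim (Sum.elim Subtype.val Subtype.val) (Sum.elim Subtype.val (fun _ => 1))
  have hf : Function.Injective f := by
    intro x y h
    rcases x with (x | x) | (x | x) <;> rcases y with (y | y) | (y | y) <;>
      simp only [f, Sum.elim_inl, Sum.elim_inr] at h
    all_goals first
      | (have h' := Subtype.ext h; rw [h'])
      | rfl
      | (exfalso; have hx := x.2; have hy := y.2; rw [h] at hx; omega)
      | (exfalso; have hx := x.2; rw [h, orderOf_one] at hx; omega)
      | (exfalso; have hy := y.2; rw [← h, orderOf_one] at hy; omega)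
  have h1 := Nat.card_le_card_of_injective f hf
  simp only [Nat.card_sum, Nat.card_unique] at h1
  omega

/-- In a finite simple group G of even order greater than 2, the number n of involutions satisfies 3n < |G|. -/
theorem result {G : Type*} [Group G] [Finite G] [IsSimpleGroup G] (heven : Even (Nat.card G)) (hgt : 2 < Nat.card G) : 3 * Nat.card {t : G // orderOf t = 2} < Nat.card G := by
  classical
  have : Fact (Nat.Prime 2) := ⟨Nat.prime_two⟩
  have : Fact (Nat.Prime 3) := ⟨Nat.prime_three⟩
  have : Fact (Nat.Prime 5) := ⟨Nat.prime_five⟩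
  by_contra hcon
  push Not at hcon
  have h2dvd : 2 ∣ Nat.card G := even_iff_two_dvd.mp heven
  -- no subgroup of index 2
  have hno2 : ∀ K : Subgroup G, K.index ≠ 2 := by
    intro K hK
    have hKn := Subgroup.normal_of_index_eq_two hK
    rcases hKn.eq_bot_or_eq_top with h | h
    · rw [h, Subgroup.index_bot] at hK; omega
    · rw [h, Subgroup.index_top] at hK; omega
  -- trivial centre
  have hZbot : Subgroup.center G = ⊥ := by
    rcases (inferInstance : (Subgroup.center G).Normal).eq_bot_or_eq_top with h | h
    · exact h
    · exfalso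
      obtain ⟨t, ht⟩ := exists_prime_orderOf_dvd_card' (G := G) 2 h2dvd
      have hn : (Subgroup.zpowers t).Normal := by
        constructor
        intro x hx g
        have hxc : x ∈ Subgroup.center G := by rw [h]; trivial
        have := Subgroup.mem_center_iff.mp hxc g
        rw [this, mul_assoc, mul_inv_cancel, mul_one]
        exact hx
      rcases hn.eq_bot_or_eq_top with h3 | h3
      · have : t ∈ (⊥ : Subgroup G) := h3 ▸ Subgroup.mem_zpowers t
        exact invol_ne_one ht (Subgroup.mem_bot.mp this)
      · have h4 : Nat.card (Subgroup.zpowers t) = 2 := by rw [Nat.card_zpowers, ht]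
        rw [h3, Subgroup.card_top] at h4
        omega
  have hZ : Odd (Nat.card (Subgroup.center G)) := by
    rw [hZbot, Subgroup.card_bot]; exact odd_one
  obtain ⟨H, hH, hcase⟩ := Cfsg.Agent.S0233.result heven hZ
  rcases hcase with h2 | hineq
  · exact hno2 H h2
  have hm5 : H.index ≤ 5 := by
    by_contra h6
    push Not at h6
    have e1 : 2 * 6 * Nat.card {t : G // orderOf t = 2} ^ 2 ≤
        2 * H.index * Nat.card {t : G // orderOf t = 2} ^ 2 :=
      Nat.mul_le_mul_right _ (Nat.mul_le_mul_left _ h6)
    have e2 : Nat.card G * (Nat.card G + Nat.card {t : G // orderOf t = 2}) ≤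
        (3 * Nat.card {t : G // orderOf t = 2}) *
          (3 * Nat.card {t : G // orderOf t = 2} + Nat.card {t : G // orderOf t = 2}) :=
      Nat.mul_le_mul hcon (by omega)
    nlinarith
  have hm1 : H.index ≠ 1 := fun h => hH (Subgroup.index_eq_one.mp h)
  have hm0 : H.index ≠ 0 := Subgroup.index_ne_zero_of_finite
  -- the sign trick
  have hdvd60 : Nat.card G ∣ 60 := by
    have hinj := toPermHom_injective_of_simple H hH
    have : Fintype (G ⧸ H) := Fintype.ofFinite _
    have hker : ((Equiv.Perm.sign).comp (MulAction.toPermHom G (G ⧸ H))).ker = ⊤ := by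
      rcases (inferInstance :
        ((Equiv.Perm.sign).comp (MulAction.toPermHom G (G ⧸ H))).ker.Normal).eq_bot_or_eq_top
        with h | h
      · exfalso
        have hψinj := (MonoidHom.ker_eq_bot_iff _).mp h
        have h1 := Nat.card_le_card_of_injective _ hψinj
        have h2 : Nat.card ℤˣ = 2 := by simp [Nat.card_eq_fintype_card]
        omega
      · exact h
    have hrange : (MulAction.toPermHom G (G ⧸ H)).range ≤ alternatingGroup (G ⧸ H) := by
      rintro _ ⟨g, rfl⟩
      rw [Equiv.Perm.mem_alternatingGroup]
      have hg : g ∈ ((Equiv.Perm.sign).comp (MulAction.toPermHom G (G ⧸ H))).ker := by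
        rw [hker]; trivial
      exact MonoidHom.mem_ker.mp hg
    have h1 : Nat.card (MulAction.toPermHom G (G ⧸ H)).range = Nat.card G :=
      (Nat.card_congr (MonoidHom.ofInjective hinj).toEquiv).symm
    have h2 : Nat.card (MulAction.toPermHom G (G ⧸ H)).range ∣
        Nat.card (alternatingGroup (G ⧸ H)) := Subgroup.card_dvd_of_le hrange
    rw [h1] at h2
    have hnt : Nontrivial (G ⧸ H) := by
      rw [← Finite.one_lt_card_iff_nontrivial]
      have : Nat.card (G ⧸ H) = H.index := rfl
      omega
    have h3 := two_mul_nat_card_alternatingGroup (α := G ⧸ H)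
    rw [Nat.card_perm] at h3
    have hidx : Nat.card (G ⧸ H) = H.index := rfl
    rw [hidx] at h3
    have h5 : H.index = 2 ∨ H.index = 3 ∨ H.index = 4 ∨ H.index = 5 := by omega
    rcases h5 with h | h | h | h <;> rw [h] at h3
    · have : Nat.card (alternatingGroup (G ⧸ H)) = 1 := by
        have : Nat.factorial 2 = 2 := by decide
        omega
      rw [this] at h2
      exact h2.trans (by norm_num)
    · have : Nat.card (alternatingGroup (G ⧸ H)) = 3 := by
        have : Nat.factorial 3 = 6 := by decide
        omega
      rw [this] at h2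
      exact h2.trans (by norm_num)
    · have : Nat.card (alternatingGroup (G ⧸ H)) = 12 := by
        have : Nat.factorial 4 = 24 := by decide
        omega
      rw [this] at h2
      exact h2.trans (by norm_num)
    · have : Nat.card (alternatingGroup (G ⧸ H)) = 60 := by
        have : Nat.factorial 5 = 120 := by decide
        omega
      rw [this] at h2
      exact h2
  -- 4 divides the order
  have h4dvd : 4 ∣ Nat.card G := by
    by_contra h4
    obtain ⟨k, hk⟩ := h2dvd
    have hkodd : ¬ 2 ∣ k := by
      intro hk2
      apply h4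
      obtain ⟨j, hj⟩ := hk2
      exact ⟨j, by rw [hk, hj]; ring⟩
    obtain ⟨T⟩ : Nonempty (Sylow 2 G) := inferInstance
    have hT : Nat.card T = 2 := by
      have := sylow_card_of T (k := 1) (m := k) (by rw [hk]; ring) hkodd
      simpa using this
    have hTc : IsCyclic (T : Subgroup G) := isCyclic_of_prime_card (p := 2) hT
    obtain ⟨K, hK⟩ := exists_index_two_of_cyclic_sylow heven T hTc
    exact hno2 K hK
  obtain ⟨d, hd⟩ := h4dvd
  have hd15 : d ∣ 15 := by
    have : 4 * d ∣ 4 * 15 := by rw [← hd]; exact hdvd60
    exact Nat.dvd_of_mul_dvd_mul_left (by norm_num) this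
  have hdle : d ≤ 15 := Nat.le_of_dvd (by norm_num) hd15
  have hdcases : d = 1 ∨ d = 3 ∨ d = 5 ∨ d = 15 := by
    interval_cases d <;> simp_all
  rcases hdcases with h | h | h | h <;> rw [h] at hd <;> norm_num at hd
  · -- order 4
    have hp : IsPGroup 2 G := IsPGroup.of_card (n := 2) (by rw [hd]; norm_num)
    have hnt : Nontrivial G := by
      rw [← Finite.one_lt_card_iff_nontrivial]; omega
    have := hp.center_nontrivial
    rw [hZbot] at this
    exact not_nontrivial _ this
  · -- order 12
    obtain ⟨Q⟩ : Nonempty (Sylow 2 G) := inferInstance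
    have hQ : Nat.card Q = 4 := by
      have := sylow_card_of Q (k := 2) (m := 3) (by rw [hd]; norm_num) (by norm_num)
      simpa using this
    have hQidx : (Q : Subgroup G).index = 3 := by
      have := (Q : Subgroup G).index_mul_card
      rw [hQ, hd] at this; omega
    have hn2dvd : Nat.card (Sylow 2 G) ∣ 3 := hQidx ▸ Q.card_dvd_index
    have hne1 : Nat.card (Sylow 2 G) ≠ 1 := by
      apply card_sylow_ne_one_of_simple Q
      · intro h; rw [h, Subgroup.card_bot] at hQ; omega
      · intro h; rw [h, Subgroup.card_top] at hQ; omega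
    have h3 : Nat.card (Sylow 2 G) = 3 := by
      rcases (Nat.dvd_prime Nat.prime_three).mp hn2dvd with h | h
      · exact absurd h hne1
      · exact h
    have := card_le_factorial_card_sylow (G := G) (p := 2) hne1
    rw [h3, hd] at this
    have : Nat.factorial 3 = 6 := by decide
    omega
  · -- order 20
    obtain ⟨Q⟩ : Nonempty (Sylow 5 G) := inferInstance
    have hQ : Nat.card Q = 5 := by
      have := sylow_card_of Q (k := 1) (m := 4) (by rw [hd]; norm_num) (by norm_num)
      simpa using this
    have hQidx : (Q : Subgroup G).index = 4 := by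
      have := (Q : Subgroup G).index_mul_card
      rw [hQ, hd] at this; omega
    have hn5dvd : Nat.card (Sylow 5 G) ∣ 4 := hQidx ▸ Q.card_dvd_index
    have hn5mod : Nat.card (Sylow 5 G) % 5 = 1 := card_sylow_modEq_one 5 G
    have hne1 : Nat.card (Sylow 5 G) ≠ 1 := by
      apply card_sylow_ne_one_of_simple Q
      · intro h; rw [h, Subgroup.card_bot] at hQ; omega
      · intro h; rw [h, Subgroup.card_top] at hQ; omega
    have hle := Nat.le_of_dvd (by norm_num) hn5dvd
    omega
  · -- order 60
    have hQ5 : ∀ Q : Sylow 5 G, Nat.card Q = 5 := by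
      intro Q
      have := sylow_card_of Q (k := 1) (m := 12) (by rw [hd]; norm_num) (by norm_num)
      simpa using this
    have hQ3 : ∀ Q : Sylow 3 G, Nat.card Q = 3 := by
      intro Q
      have := sylow_card_of Q (k := 1) (m := 20) (by rw [hd]; norm_num) (by norm_num)
      simpa using this
    -- n₅ = 6
    have hn5 : Nat.card (Sylow 5 G) = 6 := by
      obtain ⟨Q⟩ : Nonempty (Sylow 5 G) := inferInstance
      have hQidx : (Q : Subgroup G).index = 12 := by
        have := (Q : Subgroup G).index_mul_card
        rw [hQ5 Q, hd] at this; omega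
      have hdvd : Nat.card (Sylow 5 G) ∣ 12 := hQidx ▸ Q.card_dvd_index
      have hmod : Nat.card (Sylow 5 G) % 5 = 1 := card_sylow_modEq_one 5 G
      have hne1 : Nat.card (Sylow 5 G) ≠ 1 := by
        apply card_sylow_ne_one_of_simple Q
        · intro h; have := hQ5 Q; rw [h, Subgroup.card_bot] at this; omega
        · intro h; have := hQ5 Q; rw [h, Subgroup.card_top] at this; omega
      have hle := Nat.le_of_dvd (by norm_num) hdvd
      interval_cases h : Nat.card (Sylow 5 G) <;> simp_all
    -- n₃ = 10
    have hn3 : Nat.card (Sylow 3 G) = 10 := by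
      obtain ⟨Q⟩ : Nonempty (Sylow 3 G) := inferInstance
      have hQidx : (Q : Subgroup G).index = 20 := by
        have := (Q : Subgroup G).index_mul_card
        rw [hQ3 Q, hd] at this; omega
      have hdvd : Nat.card (Sylow 3 G) ∣ 20 := hQidx ▸ Q.card_dvd_index
      have hmod : Nat.card (Sylow 3 G) % 3 = 1 := card_sylow_modEq_one 3 G
      have hne1 : Nat.card (Sylow 3 G) ≠ 1 := by
        apply card_sylow_ne_one_of_simple Q
        · intro h; have := hQ3 Q; rw [h, Subgroup.card_bot] at this; omega
        · intro h; have := hQ3 Q; rw [h, Subgroup.card_top] at this; omega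
      have hne4 : Nat.card (Sylow 3 G) ≠ 4 := by
        intro h4
        have := card_le_factorial_card_sylow (G := G) (p := 3) hne1
        rw [h4, hd] at this
        have : Nat.factorial 4 = 24 := by decide
        omega
      have hle := Nat.le_of_dvd (by norm_num) hdvd
      interval_cases h : Nat.card (Sylow 3 G) <;> simp_all
    have c5 := card_sylow_mul_le hQ5
    have c3 := card_sylow_mul_le hQ3
    rw [hn5] at c5
    rw [hn3] at c3
    have c4 := four_orders (G := G)
    omega

end Cfsg.Agent.S0234
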