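import Cfsg.Statements.S0235
import Mathlib
import Cfsg.Agent.Lib.Helper3.Invol

set_option autoImplicit false
open Cfsg

namespace Cfsg.Agent.S0235

/-- If x² ≠ 1, the ordered pairs (u, v) of involutions with uv = x correspond bijectively to the involutions t with t x t⁻¹ = x⁻¹ (via (u, v) ↦ u), so the two counts agree. -/
theorem result {G : Type*} [Group G] [Finite G] (x : G) (hx : x ^ 2 ≠ 1) : Nat.card {p : G × G // orderOf p.1 = 2 ∧ orderOf p.2 = 2 ∧ p.1 * p.2 = x} = Nat.card {t : G // orderOf t = 2 ∧ t * x * t⁻¹ = x⁻¹} := by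
  apply Nat.card_congr
  refine
    { toFun := fun p => ⟨p.1.1, p.2.1, Cfsg.Agent.Lib.Helper3.invPairs_fst_inverts p⟩
      invFun := fun t => ⟨(t.1, t.1 * x), Cfsg.Agent.Lib.Helper3.invPairs_mk_aux t.2.1 t.2.2 ?_⟩
      left_inv := ?_
      right_inv := ?_ }
  · intro h
    apply hx
    rw [pow_two, ← h]
    exact Cfsg.Agent.Lib.Helper3.invol_mul_self t.2.1
  · intro p
    apply Subtype.ext
    apply Prod.ext
    · rfl
    · exact (Cfsg.Agent.Lib.Helper3.invPairs_snd p).symm
  · intro t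
    rfl

end Cfsg.Agent.S0235
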