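import Cfsg.Statements.S0236
import Mathlib
import Cfsg.Agent.Lib.Helper3.Invol

set_option autoImplicit false
open Cfsg

namespace Cfsg.Agent.S0236

/-- If x is an involution, the number of ordered pairs (u, v) of involutions with uv = x, plus one, equals the number of involutions in the centralizer of x. -/
theorem result {G : Type*} [Group G] [Finite G] (x : G) (hx : orderOf x = 2) : Nat.card {p : G × G // orderOf p.1 = 2 ∧ orderOf p.2 = 2 ∧ p.1 * p.2 = x} + 1 = Nat.card {t : G // orderOf t = 2 ∧ Commute t x} := by
  classical
  have hxx := Cfsg.Agent.Lib.Helper3.invol_mul_self hx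
  have hxi := Cfsg.Agent.Lib.Helper3.invol_inv hx
  have e : Option {p : G × G // orderOf p.1 = 2 ∧ orderOf p.2 = 2 ∧ p.1 * p.2 = x} ≃
      {t : G // orderOf t = 2 ∧ Commute t x} :=
    { toFun := fun o => match o with
        | none => ⟨x, hx, Commute.refl x⟩
        | some p => ⟨p.1.1, p.2.1, by
            have h := Cfsg.Agent.Lib.Helper3.invPairs_fst_inverts p
            rw [hxi] at h
            show p.1.1 * x = x * p.1.1
            calc p.1.1 * x = p.1.1 * x * (p.1.1)⁻¹ * p.1.1 := by group
              _ = x * p.1.1 := by rw [h]⟩
      invFun := fun t => if h : t.1 = x then none else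
        some ⟨(t.1, t.1 * x), Cfsg.Agent.Lib.Helper3.invPairs_mk_aux t.2.1 (by
          rw [hxi]
          have hc : t.1 * x = x * t.1 := t.2.2
          rw [hc, mul_assoc, mul_inv_cancel, mul_one]) h⟩
      left_inv := by
        intro o
        cases o with
        | none => simp
        | some p =>
          have hne : p.1.1 ≠ x := by
            intro h
            have h3 := p.2.2.2
            rw [h] at h3
            have : p.1.2 = 1 := by
              have := mul_left_cancel (h3.trans (mul_one x).symm)
              exact this
            exact Cfsg.Agent.Lib.Helper3.invol_ne_one p.2.2.1 this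
          simp only [hne, dite_false, Option.some.injEq]
          apply Subtype.ext
          apply Prod.ext
          · rfl
          · exact (Cfsg.Agent.Lib.Helper3.invPairs_snd p).symm
      right_inv := by
        intro t
        by_cases h : t.1 = x
        · simp only [h, dite_true]
          apply Subtype.ext
          exact h.symm
        · simp only [h, dite_false] }
  rw [← Nat.card_congr e]
  simp [Nat.card_eq_fintype_card]

end Cfsg.Agent.S0236
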