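import Cfsg.Statements.S0238
import Mathlib
import Cfsg.Agent.Lib.Helper3.Invol

set_option autoImplicit false
open Cfsg

namespace Cfsg.Agent.S0238

/-- For every x in a finite group G, the number c of ordered pairs (u, v) of involutions with uv = x is at most |C_G(x)|; c = 0 when x is not conjugate to x⁻¹; and c + 2 ≤ |C_G(x)| when x is an involution. -/
theorem result {G : Type*} [Group G] [Finite G] (x : G) : Nat.card {p : G × G // orderOf p.1 = 2 ∧ orderOf p.2 = 2 ∧ p.1 * p.2 = x} ≤ Nat.card (Subgroup.centralizer ({x} : Set G)) ∧ (¬ IsConj x x⁻¹ → Nat.card {p : G × G // orderOf p.1 = 2 ∧ orderOf p.2 = 2 ∧ p.1 * p.2 = x} = 0) ∧ (orderOf x = 2 → Nat.card {p : G × G // orderOf p.1 = 2 ∧ orderOf p.2 = 2 ∧ p.1 * p.2 = x} + 2 ≤ Nat.card (Subgroup.centralizer ({x} : Set G))) := by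
  classical
  have hle : Nat.card {p : G × G // orderOf p.1 = 2 ∧ orderOf p.2 = 2 ∧ p.1 * p.2 = x} ≤
      Nat.card (Subgroup.centralizer ({x} : Set G)) := by
    by_cases hne : Nonempty {p : G × G // orderOf p.1 = 2 ∧ orderOf p.2 = 2 ∧ p.1 * p.2 = x}
    · obtain ⟨p₀⟩ := hne
      rw [← Cfsg.Agent.Lib.Helper3.card_inverting (Cfsg.Agent.Lib.Helper3.invPairs_fst_inverts p₀)]
      exact Nat.card_le_card_of_injective
        (fun p : {p : G × G // orderOf p.1 = 2 ∧ orderOf p.2 = 2 ∧ p.1 * p.2 = x} =>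
          (⟨p.1.1, Cfsg.Agent.Lib.Helper3.invPairs_fst_inverts p⟩ : {g : G // g * x * g⁻¹ = x⁻¹}))
        (by
          intro p q h
          exact Cfsg.Agent.Lib.Helper3.invPairs_fst_injective x (Subtype.ext_iff.mp h))
    · rw [not_nonempty_iff] at hne
      simp
  refine ⟨hle, ?_, ?_⟩
  · intro hnot
    rw [Nat.card_eq_zero]
    left
    constructor
    intro p
    exact hnot (isConj_iff.mpr ⟨p.1.1, Cfsg.Agent.Lib.Helper3.invPairs_fst_inverts p⟩)
  · intro hx
    have hxx := Cfsg.Agent.Lib.Helper3.invol_mul_self hx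
    have hxi := Cfsg.Agent.Lib.Helper3.invol_inv hx
    have hx1 := Cfsg.Agent.Lib.Helper3.invol_ne_one hx
    let f : Option (Option {p : G × G // orderOf p.1 = 2 ∧ orderOf p.2 = 2 ∧ p.1 * p.2 = x}) →
        Subgroup.centralizer ({x} : Set G) := fun o => match o with
      | none => 1
      | some none => ⟨x, Cfsg.Agent.Lib.Helper3.mem_cent_singleton.mpr rfl⟩
      | some (some p) => ⟨p.1.1, by
          rw [Cfsg.Agent.Lib.Helper3.mem_cent_singleton]
          have h := Cfsg.Agent.Lib.Helper3.invPairs_fst_inverts p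
          rw [hxi] at h
          calc x * p.1.1 = p.1.1 * x * (p.1.1)⁻¹ * p.1.1 := by rw [h]
            _ = p.1.1 * x := by group⟩
    have hpne : ∀ p : {p : G × G // orderOf p.1 = 2 ∧ orderOf p.2 = 2 ∧ p.1 * p.2 = x}, p.1.1 ≠ x := by
      intro p h
      have h3 := p.2.2.2
      rw [h] at h3
      have : p.1.2 = 1 := mul_left_cancel (h3.trans (mul_one x).symm)
      exact Cfsg.Agent.Lib.Helper3.invol_ne_one p.2.2.1 this
    have hf : Function.Injective f := by
      intro a b hab
      rcases a with _ | _ | p <;> rcases b with _ | _ | q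
      · rfl
      · exact absurd (Subtype.ext_iff.mp hab).symm hx1
      · exact absurd (Subtype.ext_iff.mp hab).symm (Cfsg.Agent.Lib.Helper3.invol_ne_one q.2.1)
      · exact absurd (Subtype.ext_iff.mp hab) hx1
      · rfl
      · exact absurd (Subtype.ext_iff.mp hab).symm (hpne q)
      · exact absurd (Subtype.ext_iff.mp hab) (Cfsg.Agent.Lib.Helper3.invol_ne_one p.2.1)
      · exact absurd (Subtype.ext_iff.mp hab) (hpne p)
      · have := Cfsg.Agent.Lib.Helper3.invPairs_fst_injective x (Subtype.ext_iff.mp hab)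
        rw [this]
    have := Nat.card_le_card_of_injective f hf
    have h2 : Nat.card (Option (Option {p : G × G // orderOf p.1 = 2 ∧ orderOf p.2 = 2 ∧ p.1 * p.2 = x})) =
        Nat.card {p : G × G // orderOf p.1 = 2 ∧ orderOf p.2 = 2 ∧ p.1 * p.2 = x} + 2 := by
      simp
    omega

end Cfsg.Agent.S0238
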