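import Cfsg.Statements.S0239
import Mathlib
import Cfsg.Agent.Lib.Helper3.Invol

set_option autoImplicit false
open Cfsg

namespace Cfsg.Agent.S0239

/-- If some nontrivial element x of a finite group G is conjugate to x⁻¹, then |G| is even. -/
theorem result {G : Type*} [Group G] [Finite G] (x : G) (hx : x ≠ 1) (hreal : IsConj x x⁻¹) : Even (Nat.card G) := by
  obtain ⟨g, hg⟩ := isConj_iff.mp hreal
  by_contra hodd
  rw [Nat.not_even_iff_odd] at hodd
  have hgo : Odd (orderOf g) := Odd.of_dvd_nat hodd (orderOf_dvd_natCard g)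
  have hxo : Odd (orderOf x) := Odd.of_dvd_nat hodd (orderOf_dvd_natCard x)
  -- g ^ 2 centralizes x
  have h2 : g ^ 2 ∈ Subgroup.centralizer ({x} : Set G) := by
    rw [Cfsg.Agent.Lib.Helper3.mem_cent_singleton]
    have h1 : g * x = x⁻¹ * g := by rw [← hg]; group
    have h1' : g * x⁻¹ = x * g := by
      have h0 : g * x⁻¹ * g⁻¹ = x := by
        have h00 : g * x⁻¹ * g⁻¹ = (g * x * g⁻¹)⁻¹ := by group
        rw [h00, hg, inv_inv]
      calc g * x⁻¹ = (g * x⁻¹ * g⁻¹) * g := by group
        _ = x * g := by rw [h0]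
    calc x * g ^ 2 = (x * g) * g := by rw [pow_two, mul_assoc]
      _ = g * x⁻¹ * g := by rw [h1']
      _ = g * (x⁻¹ * g) := by rw [mul_assoc]
      _ = g * (g * x) := by rw [h1]
      _ = g ^ 2 * x := by rw [pow_two, mul_assoc]
  obtain ⟨k, hk⟩ := hgo
  have hgk : g = (g ^ 2) ^ (k + 1) := by
    rw [← pow_mul]
    have : 2 * (k + 1) = orderOf g + 1 := by omega
    rw [this, pow_succ, pow_orderOf_eq_one, one_mul]
  have hgc : g ∈ Subgroup.centralizer ({x} : Set G) := by
    rw [hgk]
    exact Subgroup.pow_mem _ h2 _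
  rw [Cfsg.Agent.Lib.Helper3.mem_cent_singleton] at hgc
  have hxx : x = x⁻¹ := by
    calc x = x * g * g⁻¹ := by group
      _ = g * x * g⁻¹ := by rw [hgc]
      _ = x⁻¹ := hg
  have hx2 : x ^ 2 = 1 := by
    rw [pow_two]
    nth_rewrite 1 [hxx]
    exact inv_mul_cancel x
  have hd : orderOf x ∣ 2 := orderOf_dvd_of_pow_eq_one hx2
  have : orderOf x = 1 := by
    rcases (Nat.dvd_prime Nat.prime_two).mp hd with h | h
    · exact h
    · rw [h] at hxo; exact absurd hxo (by decide)
  exact hx (orderOf_eq_one_iff.mp this)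

end Cfsg.Agent.S0239
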