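import Cfsg.Statements.S0240
import Mathlib
import Cfsg.Agent.Lib.Helper3.Invol

set_option autoImplicit false
open Cfsg

namespace Cfsg.Agent.S0240

/-- Let G be a finite group with n involutions and H a subgroup with |H|·(n+1) > |G|. Then some nontrivial h ∈ H is strongly real in G: an involution t of G satisfies t h t⁻¹ = h⁻¹. -/
theorem result {G : Type*} [Group G] [Finite G] (H : Subgroup G) (hH : Nat.card G < Nat.card H * (Nat.card {t : G // orderOf t = 2} + 1)) : ∃ h : G, h ∈ H ∧ h ≠ 1 ∧ ∃ t : G, orderOf t = 2 ∧ t * h * t⁻¹ = h⁻¹ := by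
  classical
  let f : Option {t : G // orderOf t = 2} → G ⧸ H := fun o => match o with
    | none => ((1 : G) : G ⧸ H)
    | some t => ((t.1 : G) : G ⧸ H)
  by_cases hf : Function.Injective f
  · exfalso
    have h1 := Nat.card_le_card_of_injective f hf
    have h2 : Nat.card (Option {t : G // orderOf t = 2}) = Nat.card {t : G // orderOf t = 2} + 1 := by
      simp
    have h3 := Subgroup.card_eq_card_quotient_mul_card_subgroup H
    rw [h2] at h1
    have : Nat.card H * (Nat.card {t : G // orderOf t = 2} + 1) ≤ Nat.card G := by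
      rw [h3, mul_comm]
      exact Nat.mul_le_mul_right _ h1
    omega
  · rw [Function.Injective] at hf
    push Not at hf
    obtain ⟨a, b, hab, hne⟩ := hf
    rcases a with _ | t₁ <;> rcases b with _ | t₂
    · exact absurd rfl hne
    · have h : ((1 : G) : G ⧸ H) = ((t₂.1 : G) : G ⧸ H) := hab
      rw [QuotientGroup.eq] at h
      simp only [inv_one, one_mul] at h
      refine ⟨t₂.1, h, Cfsg.Agent.Lib.Helper3.invol_ne_one t₂.2, t₂.1, t₂.2, ?_⟩
      rw [Cfsg.Agent.Lib.Helper3.invol_inv t₂.2, Cfsg.Agent.Lib.Helper3.invol_mul_self t₂.2, one_mul]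
    · have h : ((t₁.1 : G) : G ⧸ H) = ((1 : G) : G ⧸ H) := hab
      rw [QuotientGroup.eq] at h
      simp only [mul_one] at h
      rw [Cfsg.Agent.Lib.Helper3.invol_inv t₁.2] at h
      refine ⟨t₁.1, h, Cfsg.Agent.Lib.Helper3.invol_ne_one t₁.2, t₁.1, t₁.2, ?_⟩
      rw [Cfsg.Agent.Lib.Helper3.invol_inv t₁.2, Cfsg.Agent.Lib.Helper3.invol_mul_self t₁.2, one_mul]
    · have h : ((t₁.1 : G) : G ⧸ H) = ((t₂.1 : G) : G ⧸ H) := hab
      rw [QuotientGroup.eq] at h
      have i1 := Cfsg.Agent.Lib.Helper3.invol_inv t₁.2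
      have i2 := Cfsg.Agent.Lib.Helper3.invol_inv t₂.2
      have m1 := Cfsg.Agent.Lib.Helper3.invol_mul_self t₁.2
      rw [i1] at h
      refine ⟨t₁.1 * t₂.1, h, ?_, t₁.1, t₁.2, ?_⟩
      · intro h1
        apply hne
        have : t₁.1 = t₂.1 := by
          rw [← i1]
          exact inv_eq_of_mul_eq_one_right h1
        rw [Subtype.ext this]
      · rw [i1, mul_inv_rev, i1, i2, ← mul_assoc, m1, one_mul]

end Cfsg.Agent.S0240
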