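import Cfsg.Statements.S0241
import Mathlib
import Cfsg.Agent.Lib.Helper3.Invol

set_option autoImplicit false
open Cfsg

namespace Cfsg.Agent.S0241

/-- If x ≠ 1 is conjugate to x⁻¹ in a finite group G and |C_G(x)| is odd, then some involution t satisfies t x t⁻¹ = x⁻¹. -/
theorem result {G : Type*} [Group G] [Finite G] (x : G) (hx : x ≠ 1) (hreal : IsConj x x⁻¹) (hodd : Odd (Nat.card (Subgroup.centralizer ({x} : Set G)))) : ∃ t : G, orderOf t = 2 ∧ t * x * t⁻¹ = x⁻¹ := by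
  obtain ⟨g, hg⟩ := isConj_iff.mp hreal
  set C := Subgroup.centralizer ({x} : Set G) with hC
  have h1 : g * x = x⁻¹ * g := by rw [← hg]; group
  have h1' : g * x⁻¹ = x * g := by
    have h0 : g * x⁻¹ * g⁻¹ = x := by
      have h00 : g * x⁻¹ * g⁻¹ = (g * x * g⁻¹)⁻¹ := by group
      rw [h00, hg, inv_inv]
    calc g * x⁻¹ = (g * x⁻¹ * g⁻¹) * g := by group
      _ = x * g := by rw [h0]
  have h2 : g ^ 2 ∈ C := by
    rw [hC, Cfsg.Agent.Lib.Helper3.mem_cent_singleton]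
    calc x * g ^ 2 = (x * g) * g := by rw [pow_two, mul_assoc]
      _ = g * x⁻¹ * g := by rw [h1']
      _ = g * (x⁻¹ * g) := by rw [mul_assoc]
      _ = g * (g * x) := by rw [h1]
      _ = g ^ 2 * x := by rw [pow_two, mul_assoc]
  obtain ⟨j, hj⟩ := hodd
  -- (g^2)^(card C) = 1
  have h3 : (g ^ 2) ^ (Nat.card C) = 1 := by
    have h4 : (⟨g ^ 2, h2⟩ : C) ^ (Nat.card C) = 1 := pow_card_eq_one'
    have h5 := congrArg Subtype.val h4
    rw [Subgroup.coe_pow] at h5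
    exact h5
  set t := g ^ (Nat.card C) with ht
  have htt : t * t = 1 := by
    rw [ht, ← pow_add, ← two_mul, pow_mul]
    exact h3
  -- t = c * g with c in C
  have htc : t = (g ^ 2) ^ j * g := by
    rw [ht, hj, ← pow_mul, pow_succ]
  have hcj : (g ^ 2) ^ j ∈ C := Subgroup.pow_mem _ h2 _
  have hcj' := Cfsg.Agent.Lib.Helper3.mem_cent_singleton.mp hcj
  have hinv : t * x * t⁻¹ = x⁻¹ := by
    rw [htc]
    have hc2 : (g ^ 2) ^ j * x⁻¹ = x⁻¹ * (g ^ 2) ^ j := by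
      calc (g ^ 2) ^ j * x⁻¹ = x⁻¹ * (x * (g ^ 2) ^ j) * x⁻¹ := by group
        _ = x⁻¹ * ((g ^ 2) ^ j * x) * x⁻¹ := by rw [hcj']
        _ = x⁻¹ * (g ^ 2) ^ j := by group
    calc (g ^ 2) ^ j * g * x * ((g ^ 2) ^ j * g)⁻¹
        = (g ^ 2) ^ j * (g * x * g⁻¹) * ((g ^ 2) ^ j)⁻¹ := by group
      _ = (g ^ 2) ^ j * x⁻¹ * ((g ^ 2) ^ j)⁻¹ := by rw [hg]
      _ = x⁻¹ * (g ^ 2) ^ j * ((g ^ 2) ^ j)⁻¹ := by rw [hc2]
      _ = x⁻¹ := by group
  refine ⟨t, ?_, hinv⟩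
  rw [Cfsg.Agent.Lib.Helper3.invol_iff]
  refine ⟨htt, ?_⟩
  intro ht1
  rw [ht1] at hinv
  simp only [one_mul, inv_one, mul_one] at hinv
  -- x = x⁻¹, so x has order 2 and lies in C, contradicting oddness
  have hx2 : x ^ 2 = 1 := by
    rw [pow_two]
    nth_rewrite 1 [hinv]
    exact inv_mul_cancel x
  have hxo : orderOf x = 2 := by
    have : Fact (Nat.Prime 2) := ⟨Nat.prime_two⟩
    exact orderOf_eq_prime hx2 hx
  have hxC : x ∈ C := by
    rw [hC, Cfsg.Agent.Lib.Helper3.mem_cent_singleton]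
  have hd : orderOf (⟨x, hxC⟩ : C) ∣ Nat.card C := orderOf_dvd_natCard _
  have ho : orderOf (⟨x, hxC⟩ : C) = 2 := by
    rw [← hxo]
    exact (Subgroup.orderOf_mk x hxC)
  rw [ho, hj] at hd
  omega

end Cfsg.Agent.S0241
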