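import Mathlib
import Cfsg.Statements.S0826
import Cfsg.Agent.S0752

set_option autoImplicit false
open Cfsg

namespace Cfsg.Agent.S0826

theorem symp_embed {F W G : Type*} [Field F] [AddCommGroup W] [Module F W]
    [FiniteDimensional F W] [Group G] (B : LinearMap.BilinForm F W) (hA : B.IsAlt)
    (hB : B.Nondegenerate) (m : ℕ) (hfr : Module.finrank F W = 2 * m)
    (ρ : G →* (W →ₗ[F] W)) (hρ : ∀ g x y, B (ρ g x) (ρ g y) = B x y)
    (hinj : Function.Injective ρ) :
    ∃ f : G →* Matrix.symplecticGroup (Fin m) F, Function.Injective f := by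
  classical
  obtain ⟨m', k, b, h1, h2, h3, h4⟩ := Cfsg.Agent.S0752.result B hA
  have hk : IsEmpty (Fin k) := by
    constructor
    intro j
    have h5 : b (Sum.inr j) = 0 := hB.1 _ (h4 j)
    exact b.ne_zero _ h5
  have hm : m' = m := by
    have h5 := Module.finrank_eq_card_basis b
    rw [hfr] at h5
    simp only [Fintype.card_sum, Fintype.card_fin] at h5
    have h6 : k = 0 := by
      by_contra h7
      exact hk.false ⟨0, Nat.pos_of_ne_zero h7⟩
    omega
  subst hm
  let b' : Module.Basis (Fin m' ⊕ Fin m') F W := b.reindex (Equiv.sumEmpty _ _)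
  have hb' : ∀ i, b' i = b (Sum.inl i) := by
    intro i
    simp [b']
  have hskew : ∀ x y, B x y = - B y x := fun x y => (hA.neg_eq y x).symm
  have hM : LinearMap.BilinForm.toMatrix b' B = - Matrix.J (Fin m') F := by
    ext i j
    rw [LinearMap.BilinForm.toMatrix_apply, hb', hb']
    rcases i with i | i <;> rcases j with j | j
    · simp [Matrix.J, h2]
    · simp [Matrix.J, h1, Matrix.one_apply]
    · rw [hskew, h1]
      simp [Matrix.J, Matrix.one_apply, eq_comm]
    · simp [Matrix.J, h3]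
  have hmem : ∀ g : G, LinearMap.toMatrix b' b' (ρ g) ∈ Matrix.symplecticGroup (Fin m') F := by
    intro g
    rw [SymplecticGroup.mem_iff']
    have h5 : B.comp (ρ g) (ρ g) = B := by
      apply LinearMap.ext₂
      intro x y
      rw [LinearMap.BilinForm.comp_apply]
      exact hρ g x y
    have h6 := LinearMap.BilinForm.toMatrix_comp b' b' B (ρ g) (ρ g)
    rw [h5, hM] at h6
    have h7 : (LinearMap.toMatrix b' b' (ρ g)).transpose * Matrix.J (Fin m') F
        * LinearMap.toMatrix b' b' (ρ g) = - (- Matrix.J (Fin m') F) := by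
      conv_rhs => rw [h6]
      simp
    rw [h7, neg_neg]
  refine ⟨{ toFun := fun g => ⟨LinearMap.toMatrix b' b' (ρ g), hmem g⟩
            map_one' := ?_
            map_mul' := ?_ }, ?_⟩
  · apply Subtype.ext
    simp
  · intro g h
    apply Subtype.ext
    simp [LinearMap.toMatrix_mul]
  · intro g h hgh
    apply hinj
    have h5 := congrArg Subtype.val hgh
    exact (LinearMap.toMatrix b' b').injective h5

section concrete

variable (N : ℕ)

theorem zmod2_add_self (a : ZMod 2) : a + a = 0 := by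
  revert a
  decide

theorem zmod2_mul_self (a : ZMod 2) : a * a = a := by
  revert a
  decide

def sumL : (Fin N → ZMod 2) →ₗ[ZMod 2] ZMod 2 := ∑ i, LinearMap.proj i

theorem sumL_apply (x : Fin N → ZMod 2) : sumL N x = ∑ i, x i := by
  simp [sumL]

def TL (ω : Fin N) (σ : Equiv.Perm (Fin N)) :
    (Fin N → ZMod 2) →ₗ[ZMod 2] (Fin N → ZMod 2) where
  toFun x := fun i => x (σ⁻¹ i) + x (σ⁻¹ ω)
  map_add' x y := by
    funext i
    simp only [Pi.add_apply]
    ring
  map_smul' c x := by
    funext i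
    simp only [Pi.smul_apply, smul_eq_mul, RingHom.id_apply]
    ring

theorem TL_apply (ω : Fin N) (σ : Equiv.Perm (Fin N)) (x : Fin N → ZMod 2) (i : Fin N) :
    TL N ω σ x i = x (σ⁻¹ i) + x (σ⁻¹ ω) := rfl

def WW (ω : Fin N) : Submodule (ZMod 2) (Fin N → ZMod 2) :=
  LinearMap.ker (LinearMap.proj ω : (Fin N → ZMod 2) →ₗ[ZMod 2] ZMod 2) ⊓ LinearMap.ker (sumL N)

theorem mem_WW (ω : Fin N) (x : Fin N → ZMod 2) : x ∈ WW N ω ↔ x ω = 0 ∧ ∑ i, x i = 0 := by
  simp [WW, sumL_apply]

theorem nsmul_even_zmod2 (hN : Even N) (a : ZMod 2) : N • a = 0 := by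
  obtain ⟨t, ht⟩ := hN
  rw [ht, add_nsmul, ← nsmul_add, zmod2_add_self, nsmul_zero]

theorem TL_mem (hN : Even N) (ω : Fin N) (σ : Equiv.Perm (Fin N)) (x : Fin N → ZMod 2)
    (hx : x ∈ WW N ω) : TL N ω σ x ∈ WW N ω := by
  rw [mem_WW] at hx ⊢
  constructor
  · rw [TL_apply]
    exact zmod2_add_self _
  · simp only [TL_apply]
    rw [Finset.sum_add_distrib, Finset.sum_const, Finset.card_univ, Fintype.card_fin,
      Equiv.sum_comp σ⁻¹ x, hx.2, zero_add]
    exact nsmul_even_zmod2 N hN _

def rho (hN : Even N) (ω : Fin N) :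
    Equiv.Perm (Fin N) →* (WW N ω →ₗ[ZMod 2] WW N ω) where
  toFun σ := (TL N ω σ).restrict (fun x hx => TL_mem N hN ω σ x hx)
  map_one' := by
    apply LinearMap.ext
    intro x
    apply Subtype.ext
    funext i
    rw [LinearMap.coe_restrict_apply, TL_apply]
    have hx := ((mem_WW N ω x.1).mp x.2).1
    simp [hx]
  map_mul' σ τ := by
    apply LinearMap.ext
    intro x
    apply Subtype.ext
    funext i
    rw [Module.End.mul_apply, LinearMap.coe_restrict_apply, LinearMap.coe_restrict_apply,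
      LinearMap.coe_restrict_apply, TL_apply, TL_apply, TL_apply, TL_apply]
    simp only [mul_inv_rev, Equiv.Perm.mul_apply]
    have h := zmod2_add_self ((x : Fin N → ZMod 2) (τ⁻¹ ω))
    linear_combination -h

theorem rho_apply (hN : Even N) (ω : Fin N) (σ : Equiv.Perm (Fin N)) (x : WW N ω) :
    ((rho N hN ω σ x : WW N ω) : Fin N → ZMod 2) = TL N ω σ x := rfl

def dotB : LinearMap.BilinForm (ZMod 2) (Fin N → ZMod 2) :=
  LinearMap.mk₂ (ZMod 2) (fun x y => ∑ i, x i * y i)
    (by intro x x' y; simp [add_mul, Finset.sum_add_distrib])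
    (by intro c x y; simp [Finset.mul_sum, mul_assoc])
    (by intro x y y'; simp [mul_add, Finset.sum_add_distrib])
    (by intro c x y; simp [Finset.mul_sum, mul_left_comm])

theorem dotB_apply (x y : Fin N → ZMod 2) : dotB N x y = ∑ i, x i * y i := rfl

def BW (ω : Fin N) : LinearMap.BilinForm (ZMod 2) (WW N ω) := (dotB N).restrict (WW N ω)

theorem BW_apply (ω : Fin N) (x y : WW N ω) :
    BW N ω x y = ∑ i, (x : Fin N → ZMod 2) i * (y : Fin N → ZMod 2) i := rfl

theorem BW_alt (ω : Fin N) : (BW N ω).IsAlt := by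
  intro x
  rw [BW_apply]
  simp only [zmod2_mul_self]
  exact ((mem_WW N ω x.1).mp x.2).2

theorem BW_symm (ω : Fin N) (x y : WW N ω) : BW N ω x y = BW N ω y x := by
  rw [BW_apply, BW_apply]
  apply Finset.sum_congr rfl
  intro i _
  ring

theorem pair_mem (ω i j : Fin N) (hi : i ≠ ω) (hj : j ≠ ω) (_hij : i ≠ j) :
    (Pi.single i 1 + Pi.single j 1 : Fin N → ZMod 2) ∈ WW N ω := by
  rw [mem_WW]
  constructor
  · simp [hi.symm, hj.symm]
  · rw [Finset.sum_congr rfl (fun k _ => Pi.add_apply _ _ k), Finset.sum_add_distrib]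
    simp
    decide

theorem BW_nondeg (hN : Even N) (ω i0 : Fin N) (h0 : i0 ≠ ω) : (BW N ω).Nondegenerate := by
  have hleft : ∀ x : WW N ω, (∀ y : WW N ω, BW N ω x y = 0) → x = 0 := by
    intro x hx
    have hxω := ((mem_WW N ω x.1).mp x.2).1
    have hxs := ((mem_WW N ω x.1).mp x.2).2
    have hconst : ∀ i, i ≠ ω → (x : Fin N → ZMod 2) i = (x : Fin N → ZMod 2) i0 := by
      intro i hi
      by_cases hii : i = i0
      · rw [hii]
      · have h1 := hx ⟨_, pair_mem N ω i i0 hi h0 hii⟩
        rw [BW_apply] at h1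
        simp only [Pi.add_apply, mul_add, Finset.sum_add_distrib, Pi.single_apply, mul_ite,
          mul_one, mul_zero, Finset.sum_ite_eq', Finset.mem_univ, if_true] at h1
        have h2 := zmod2_add_self ((x : Fin N → ZMod 2) i0)
        linear_combination h1 - h2
    have hsum : ∑ i, (x : Fin N → ZMod 2) i
        = ∑ i, (if i = ω then 0 else (x : Fin N → ZMod 2) i0) := by
      apply Finset.sum_congr rfl
      intro i _
      split_ifs with hi
      · rw [hi, hxω]
      · exact hconst i hi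
    have hc : (x : Fin N → ZMod 2) i0 = 0 := by
      rw [hsum] at hxs
      have h3 : ∑ i : Fin N, (if i = ω then (0 : ZMod 2) else (x : Fin N → ZMod 2) i0)
          = ∑ i : Fin N, ((x : Fin N → ZMod 2) i0 - if i = ω then (x : Fin N → ZMod 2) i0 else 0) := by
        apply Finset.sum_congr rfl
        intro i _
        split_ifs <;> ring
      rw [h3, Finset.sum_sub_distrib, Finset.sum_const, Finset.card_univ, Fintype.card_fin,
        nsmul_even_zmod2 N hN, Finset.sum_ite_eq' Finset.univ ω, if_pos (Finset.mem_univ _),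
        zero_sub, neg_eq_zero] at hxs
      exact hxs
    apply Subtype.ext
    funext i
    by_cases hi : i = ω
    · rw [hi, hxω]
      rfl
    · rw [hconst i hi, hc]
      rfl
  refine ⟨hleft, ?_⟩
  intro y hy
  apply hleft y
  intro x
  rw [BW_symm]
  exact hy x

theorem BW_inv (hN : Even N) (ω : Fin N) (σ : Equiv.Perm (Fin N)) (x y : WW N ω) :
    BW N ω (rho N hN ω σ x) (rho N hN ω σ y) = BW N ω x y := by
  rw [BW_apply, BW_apply, rho_apply, rho_apply]
  simp only [TL_apply]
  have hxs := ((mem_WW N ω x.1).mp x.2).2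
  have hys := ((mem_WW N ω y.1).mp y.2).2
  have h1 : ∀ i : Fin N, ((x : Fin N → ZMod 2) (σ⁻¹ i) + (x : Fin N → ZMod 2) (σ⁻¹ ω))
      * ((y : Fin N → ZMod 2) (σ⁻¹ i) + (y : Fin N → ZMod 2) (σ⁻¹ ω))
      = (x : Fin N → ZMod 2) (σ⁻¹ i) * (y : Fin N → ZMod 2) (σ⁻¹ i)
        + (x : Fin N → ZMod 2) (σ⁻¹ i) * (y : Fin N → ZMod 2) (σ⁻¹ ω)
        + (y : Fin N → ZMod 2) (σ⁻¹ i) * (x : Fin N → ZMod 2) (σ⁻¹ ω)
        + (x : Fin N → ZMod 2) (σ⁻¹ ω) * (y : Fin N → ZMod 2) (σ⁻¹ ω) := by
    intro i
    ring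
  simp only [h1]
  rw [Finset.sum_add_distrib, Finset.sum_add_distrib, Finset.sum_add_distrib,
    ← Finset.sum_mul, ← Finset.sum_mul, Finset.sum_const, Finset.card_univ, Fintype.card_fin,
    nsmul_even_zmod2 N hN, Equiv.sum_comp σ⁻¹ (fun i => (x : Fin N → ZMod 2) i),
    Equiv.sum_comp σ⁻¹ (fun i => (y : Fin N → ZMod 2) i), hxs, hys,
    Equiv.sum_comp σ⁻¹ (fun i => (x : Fin N → ZMod 2) i * (y : Fin N → ZMod 2) i)]
  ring

theorem finrank_WW (ω i0 : Fin N) (h : i0 ≠ ω) :
    Module.finrank (ZMod 2) (WW N ω) + 2 = N := by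
  let L : (Fin N → ZMod 2) →ₗ[ZMod 2] (ZMod 2 × ZMod 2) :=
    (LinearMap.proj ω : (Fin N → ZMod 2) →ₗ[ZMod 2] ZMod 2).prod (sumL N)
  have hker : LinearMap.ker L = WW N ω := by
    rw [LinearMap.ker_prod]
    rfl
  have hsurj : Function.Surjective L := by
    rintro ⟨a, b⟩
    refine ⟨Pi.single ω a + Pi.single i0 (b - a), ?_⟩
    have h1 : ∑ i, (Pi.single ω a + Pi.single i0 (b - a) : Fin N → ZMod 2) i = b := by
      rw [Finset.sum_congr rfl (fun k _ => Pi.add_apply _ _ k), Finset.sum_add_distrib]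
      simp
    have h2 : (Pi.single ω a + Pi.single i0 (b - a) : Fin N → ZMod 2) ω = a := by
      simp [h.symm]
    apply Prod.ext
    · exact h2
    · change sumL N _ = b
      rw [sumL_apply]
      exact h1
  have h1 := LinearMap.finrank_range_add_finrank_ker L
  rw [LinearMap.range_eq_top.mpr hsurj, finrank_top, hker] at h1
  simp only [Module.finrank_prod, Module.finrank_self, Module.finrank_fin_fun] at h1
  omega

theorem exists_avoid (s : Finset (Fin N)) (hs : s.card < N) : ∃ k, k ∉ s := by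
  by_contra hcon
  push Not at hcon
  have h1 : s = Finset.univ := Finset.eq_univ_iff_forall.mpr hcon
  rw [h1, Finset.card_univ, Fintype.card_fin] at hs
  exact lt_irrefl _ hs

theorem faithful (hN6 : 6 ≤ N) (ω : Fin N) (σ : Equiv.Perm (Fin N))
    (h : ∀ x ∈ WW N ω, TL N ω σ x = x) : σ = 1 := by
  have hpair : ∀ i j : Fin N, i ≠ ω → j ≠ ω → i ≠ j → σ i = i ∨ σ i = j := by
    intro i j hi hj hij
    set x : Fin N → ZMod 2 := Pi.single i 1 + Pi.single j 1 with hx
    have hxv : ∀ k, x k = (if k = i then 1 else 0) + (if k = j then 1 else 0) := by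
      intro k
      simp [hx, Pi.single_apply]
    have h1 := h x (pair_mem N ω i j hi hj hij)
    obtain ⟨k, hk⟩ := exists_avoid N ({i, j, σ i, σ j} : Finset (Fin N)) (by
      have := Finset.card_le_four (a := i) (b := j) (c := σ i) (d := σ j)
      omega)
    simp only [Finset.mem_insert, Finset.mem_singleton, not_or] at hk
    obtain ⟨hk1, hk2, hk3, hk4⟩ := hk
    have h2 := congrFun h1 k
    rw [TL_apply] at h2
    have hxk : x k = 0 := by
      rw [hxv, if_neg hk1, if_neg hk2, add_zero]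
    have hxsk : x (σ⁻¹ k) = 0 := by
      have e1 : σ⁻¹ k ≠ i := by
        intro hh
        apply hk3
        rw [← hh]
        simp
      have e2 : σ⁻¹ k ≠ j := by
        intro hh
        apply hk4
        rw [← hh]
        simp
      rw [hxv, if_neg e1, if_neg e2, add_zero]
    rw [hxk, hxsk, zero_add] at h2
    have h3 := congrFun h1 (σ i)
    rw [TL_apply, h2, add_zero] at h3
    have e3 : σ⁻¹ (σ i) = i := by simp
    rw [e3] at h3
    have hxi : x i = 1 := by
      rw [hxv, if_pos rfl, if_neg hij, add_zero]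
    by_contra hcon
    push Not at hcon
    have hxs : x (σ i) = 0 := by
      rw [hxv, if_neg hcon.1, if_neg hcon.2, add_zero]
    rw [hxi, hxs] at h3
    exact one_ne_zero h3
  have hfix : ∀ i, i ≠ ω → σ i = i := by
    intro i hi
    obtain ⟨j, hj⟩ := exists_avoid N ({i, ω} : Finset (Fin N)) (by
      have := Finset.card_le_two (a := i) (b := ω)
      omega)
    simp only [Finset.mem_insert, Finset.mem_singleton, not_or] at hj
    obtain ⟨j', hj'⟩ := exists_avoid N ({i, ω, j} : Finset (Fin N)) (by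
      have := Finset.card_le_three (a := i) (b := ω) (c := j)
      omega)
    simp only [Finset.mem_insert, Finset.mem_singleton, not_or] at hj'
    rcases hpair i j hi hj.2 (Ne.symm hj.1) with h1 | h1
    · exact h1
    · rcases hpair i j' hi hj'.2.1 (Ne.symm hj'.1) with h2 | h2
      · exact h2
      · exact absurd (h1.symm.trans h2) (Ne.symm hj'.2.2)
  ext i
  by_cases hi : i = ω
  · subst hi
    by_contra hne
    have hne' : σ i ≠ i := fun hh => hne (by rw [hh]; rfl)
    have h4 := hfix (σ i) hne'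
    exact hne' (σ.injective h4)
  · rw [hfix i hi]
    rfl

end concrete

/-- S_2n ≤ Sp_(2n−2)(2) for n ≥ 3: there is an injective homomorphism from the symmetric group on 2n letters into the symplectic group of degree 2n − 2 over the field with two elements. -/
theorem result (n : ℕ) (hn : 3 ≤ n) : ∃ f : Equiv.Perm (Fin (2 * n)) →* Matrix.symplecticGroup (Fin (n - 1)) (ZMod 2), Function.Injective f := by
  have hN : Even (2 * n) := even_two_mul n
  let ω : Fin (2 * n) := ⟨0, by omega⟩
  let i0 : Fin (2 * n) := ⟨1, by omega⟩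
  have hi0 : i0 ≠ ω := by
    simp [i0, ω, Fin.ext_iff]
  have hfr := finrank_WW (2 * n) ω i0 hi0
  apply symp_embed (BW (2 * n) ω) (BW_alt (2 * n) ω) (BW_nondeg (2 * n) hN ω i0 hi0) (n - 1)
    (by omega) (rho (2 * n) hN ω) (fun σ x y => BW_inv (2 * n) hN ω σ x y)
  intro σ τ hστ
  have h1 : rho (2 * n) hN ω (τ⁻¹ * σ) = 1 := by
    rw [map_mul, hστ, ← map_mul, inv_mul_cancel, map_one]
  have h2 : τ⁻¹ * σ = 1 := by
    apply faithful (2 * n) (by omega) ω
    intro x hx
    have h3 := congrArg (fun T => ((T ⟨x, hx⟩ : WW (2 * n) ω) : Fin (2 * n) → ZMod 2)) h1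
    exact h3
  calc σ = τ * (τ⁻¹ * σ) := by group
    _ = τ := by rw [h2, mul_one]

end Cfsg.Agent.S0826
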