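import Cfsg.Statements.S0247
import Mathlib
import Cfsg.Agent.S0826
import Cfsg.Agent.S0245

set_option autoImplicit false
open Cfsg

namespace Cfsg.Agent.S0247

/-- a ring isomorphism induces an isomorphism of symplectic groups -/
def spMapEquiv {R S : Type*} [CommRing R] [CommRing S] (m : ℕ) (e : R ≃+* S) :
    Matrix.symplecticGroup (Fin m) R ≃* Matrix.symplecticGroup (Fin m) S where
  toFun A := ⟨A.1.map e, SymplecticGroup.map_mem A.2 e⟩
  invFun B := ⟨B.1.map e.symm, SymplecticGroup.map_mem B.2 e.symm⟩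
  left_inv A := Subtype.ext (by ext i j; simp)
  right_inv B := Subtype.ext (by ext i j; simp)
  map_mul' A B := Subtype.ext (by
    change ((A : Matrix (Fin m ⊕ Fin m) (Fin m ⊕ Fin m) R) *
      (B : Matrix (Fin m ⊕ Fin m) (Fin m ⊕ Fin m) R)).map e = _
    rw [Matrix.map_mul]
    rfl)

/-- Sp_4(2) is isomorphic to the symmetric group S_6. -/
theorem result {F : Type*} [Field F] [Fintype F] (hF : Fintype.card F = 2) : Nonempty (Matrix.symplecticGroup (Fin 2) F ≃* Equiv.Perm (Fin 6)) := by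
  obtain ⟨f, hf⟩ := Cfsg.Agent.S0826.result 3 (by norm_num)
  have hcard2 : Nat.card (Matrix.symplecticGroup (Fin 2) (ZMod 2)) = 720 := by
    have h := Cfsg.Agent.S0245.result (F := ZMod 2) (q := 2) (by simp [ZMod.card]) 2
    rw [h]
    decide
  have hperm : Nat.card (Equiv.Perm (Fin 6)) = 720 := by
    rw [Nat.card_perm, Nat.card_eq_fintype_card, Fintype.card_fin]
    decide
  let f' : Equiv.Perm (Fin 6) →* Matrix.symplecticGroup (Fin 2) (ZMod 2) := f
  have hbij : Function.Bijective f' := by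
    rw [Nat.bijective_iff_injective_and_card]
    exact ⟨hf, by rw [hperm, hcard2]⟩
  let e1 : Equiv.Perm (Fin 6) ≃* Matrix.symplecticGroup (Fin 2) (ZMod 2) :=
    MulEquiv.ofBijective f' hbij
  let e0 : ZMod 2 ≃+* F := ZMod.ringEquivOfPrime F Nat.prime_two hF
  exact ⟨(spMapEquiv 2 e0.symm).trans e1.symm⟩

end Cfsg.Agent.S0247
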