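import Cfsg.Statements.S0300
import Mathlib
import Cfsg.Agent.S0288
import Cfsg.Agent.Lib.Helper16.SpinQuot
import Cfsg.Agent.Lib.Helper16.SpinForms
import Cfsg.Agent.Lib.Helper17.NormForm
import Cfsg.Agent.Lib.Helper17.QuadExt
import Cfsg.Agent.Lib.Helper3.OmegaTools
import Cfsg.Agent.Lib.Helper3.OmegaTools2
import Cfsg.Agent.Lib.Helper3.SL2Sylow
import Cfsg.Agent.Lib.Helper3.OrthCount

set_option autoImplicit false
open Cfsg

namespace Cfsg.Agent.S0300

open Matrix Cfsg.Agent.Lib.Helper16 Cfsg.Agent.Lib.Helper3 Cfsg.Agent.Lib.Helper17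

section Herm

variable {F K : Type*} [Field F] [Fintype F] [Field K] [Fintype K] [Algebra F K] {a b : F}

/-- The relative Frobenius `x ↦ x ^ |F|`. -/
noncomputable abbrev sg (F K : Type*) [Field F] [Fintype F] [Field K] [Algebra F K] : K →ₐ[F] K :=
  FiniteField.frobeniusAlgHom F K

theorem sg_apply (x : K) : sg F K x = x ^ Fintype.card F := rfl

theorem sg_sg (hK : Fintype.card K = Fintype.card F ^ 2) (x : K) : sg F K (sg F K x) = x := by
  rw [sg_apply, sg_apply, ← pow_mul, ← sq, ← hK, FiniteField.pow_card]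

theorem sg_fixed (x : K) (h : sg F K x = x) : ∃ s : F, algebraMap F K s = x :=
  exists_algebraMap_eq_of_pow_card x h

/-- The `K`-coordinate of a vector. -/
noncomputable def btL (D : NormData F K (Fintype.card F) a b) :
    ((Fin 1 ⊕ Fin 1) ⊕ Fin 2 → F) →ₗ[F] K :=
  D.cE.symm.toLinearMap ∘ₗ LinearMap.funLeft F F Sum.inr

theorem cE_btL (D : NormData F K (Fintype.card F) a b) (v : (Fin 1 ⊕ Fin 1) ⊕ Fin 2 → F)
    (s : Fin 2) : D.cE (btL D v) s = v (Sum.inr s) := by
  unfold btL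
  simp [LinearMap.funLeft]

/-- The hermitian matrix attached to a vector. -/
noncomputable def XmL (D : NormData F K (Fintype.card F) a b) :
    ((Fin 1 ⊕ Fin 1) ⊕ Fin 2 → F) →ₗ[F] Matrix (Fin 2) (Fin 2) K where
  toFun v := !![algebraMap F K (v (Sum.inl (Sum.inl 0))), btL D v;
    sg F K (btL D v), - algebraMap F K (v (Sum.inl (Sum.inr 0)))]
  map_add' v w := by
    ext i j
    fin_cases i <;> fin_cases j
    · show algebraMap F K ((v + w) (Sum.inl (Sum.inl 0)))
        = algebraMap F K (v (Sum.inl (Sum.inl 0))) + algebraMap F K (w (Sum.inl (Sum.inl 0)))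
      rw [Pi.add_apply, map_add]
    · show btL D (v + w) = btL D v + btL D w
      rw [map_add]
    · show sg F K (btL D (v + w)) = sg F K (btL D v) + sg F K (btL D w)
      rw [map_add, map_add]
    · show -algebraMap F K ((v + w) (Sum.inl (Sum.inr 0)))
        = -algebraMap F K (v (Sum.inl (Sum.inr 0))) + -algebraMap F K (w (Sum.inl (Sum.inr 0)))
      rw [Pi.add_apply, map_add, neg_add]
  map_smul' c v := by
    simp only [RingHom.id_apply]
    ext i j
    fin_cases i <;> fin_cases j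
    · show algebraMap F K ((c • v) (Sum.inl (Sum.inl 0)))
        = c • algebraMap F K (v (Sum.inl (Sum.inl 0)))
      rw [Pi.smul_apply, smul_eq_mul, map_mul, Algebra.smul_def]
    · show btL D (c • v) = c • btL D v
      rw [map_smul]
    · show sg F K (btL D (c • v)) = c • sg F K (btL D v)
      rw [map_smul, map_smul]
    · show -algebraMap F K ((c • v) (Sum.inl (Sum.inr 0)))
        = c • -algebraMap F K (v (Sum.inl (Sum.inr 0)))
      rw [Pi.smul_apply, smul_eq_mul, map_mul, Algebra.smul_def, mul_neg]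

theorem XmL_apply (D : NormData F K (Fintype.card F) a b) (v : (Fin 1 ⊕ Fin 1) ⊕ Fin 2 → F) :
    XmL D v = !![algebraMap F K (v (Sum.inl (Sum.inl 0))), btL D v;
      sg F K (btL D v), - algebraMap F K (v (Sum.inl (Sum.inr 0)))] := rfl

/-- Conjugation action on `2 × 2` matrices. -/
noncomputable def actL (g : Matrix (Fin 2) (Fin 2) K) :
    Matrix (Fin 2) (Fin 2) K →ₗ[F] Matrix (Fin 2) (Fin 2) K where
  toFun Y := g * Y * (g.map (sg F K))ᵀ
  map_add' Y Z := by rw [Matrix.mul_add, Matrix.add_mul]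
  map_smul' c Y := by
    simp only [RingHom.id_apply]
    rw [Matrix.mul_smul, Matrix.smul_mul]

/-- Coordinates of a hermitian matrix. -/
noncomputable def coL (D : NormData F K (Fintype.card F) a b) (r : K →ₗ[F] F) :
    Matrix (Fin 2) (Fin 2) K →ₗ[F] ((Fin 1 ⊕ Fin 1) ⊕ Fin 2 → F) where
  toFun Y := Sum.elim (Sum.elim (fun _ => r (Y 0 0)) (fun _ => - r (Y 1 1))) (D.cE (Y 0 1))
  map_add' Y Z := by
    funext x
    rcases x with (i | i) | i
    · show r ((Y + Z) 0 0) = r (Y 0 0) + r (Z 0 0)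
      rw [Matrix.add_apply, map_add]
    · show -r ((Y + Z) 1 1) = -r (Y 1 1) + -r (Z 1 1)
      rw [Matrix.add_apply, map_add, neg_add]
    · show D.cE ((Y + Z) 0 1) i = D.cE (Y 0 1) i + D.cE (Z 0 1) i
      rw [Matrix.add_apply, map_add]
      rfl
  map_smul' c Y := by
    simp only [RingHom.id_apply]
    funext x
    rcases x with (i | i) | i
    · show r ((c • Y) 0 0) = c • r (Y 0 0)
      rw [Matrix.smul_apply, map_smul]
    · show -r ((c • Y) 1 1) = c • -r (Y 1 1)
      rw [Matrix.smul_apply, map_smul, smul_neg]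
    · show D.cE ((c • Y) 0 1) i = c • D.cE (Y 0 1) i
      rw [Matrix.smul_apply, map_smul]
      rfl

theorem coL_apply (D : NormData F K (Fintype.card F) a b) (r : K →ₗ[F] F)
    (Y : Matrix (Fin 2) (Fin 2) K) :
    coL D r Y = Sum.elim (Sum.elim (fun _ => r (Y 0 0)) (fun _ => - r (Y 1 1))) (D.cE (Y 0 1)) :=
  rfl

/-- The matrix of the action of `g` on the four-dimensional space. -/
noncomputable def mM (D : NormData F K (Fintype.card F) a b) (r : K →ₗ[F] F)
    (g : Matrix (Fin 2) (Fin 2) K) :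
    Matrix ((Fin 1 ⊕ Fin 1) ⊕ Fin 2) ((Fin 1 ⊕ Fin 1) ⊕ Fin 2) F :=
  LinearMap.toMatrix' (coL D r ∘ₗ actL g ∘ₗ XmL D)

theorem mM_mulVec (D : NormData F K (Fintype.card F) a b) (r : K →ₗ[F] F)
    (g : Matrix (Fin 2) (Fin 2) K) (v : (Fin 1 ⊕ Fin 1) ⊕ Fin 2 → F) :
    mM D r g *ᵥ v = coL D r (g * XmL D v * (g.map (sg F K))ᵀ) := by
  unfold mM
  rw [LinearMap.toMatrix'_mulVec]
  rfl

/-- Hermitian matrices. -/
def IsH (Y : Matrix (Fin 2) (Fin 2) K) : Prop := (Y.map (sg F K))ᵀ = Y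

theorem isH_XmL (hK : Fintype.card K = Fintype.card F ^ 2) (D : NormData F K (Fintype.card F) a b)
    (v : (Fin 1 ⊕ Fin 1) ⊕ Fin 2 → F) : IsH (F := F) (XmL D v) := by
  unfold IsH
  rw [XmL_apply]
  ext i j
  fin_cases i <;> fin_cases j
  · show sg F K (algebraMap F K (v (Sum.inl (Sum.inl 0)))) = algebraMap F K (v (Sum.inl (Sum.inl 0)))
    exact AlgHom.commutes _ _
  · show sg F K (sg F K (btL D v)) = btL D v
    exact sg_sg hK _
  · rfl
  · show sg F K (-algebraMap F K (v (Sum.inl (Sum.inr 0)))) = -algebraMap F K (v (Sum.inl (Sum.inr 0)))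
    rw [map_neg, AlgHom.commutes]

theorem map_sg_map_sg (hK : Fintype.card K = Fintype.card F ^ 2) (g : Matrix (Fin 2) (Fin 2) K) :
    (g.map (sg F K)).map (sg F K) = g := by
  ext i j
  exact sg_sg hK _

theorem isH_act (hK : Fintype.card K = Fintype.card F ^ 2) (g Y : Matrix (Fin 2) (Fin 2) K)
    (hY : IsH (F := F) Y) : IsH (F := F) (g * Y * (g.map (sg F K))ᵀ) := by
  unfold IsH at hY ⊢
  rw [Matrix.map_mul, Matrix.map_mul, Matrix.transpose_mul, Matrix.transpose_mul,
    Matrix.transpose_map, Matrix.transpose_transpose, map_sg_map_sg hK, hY,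
    Matrix.mul_assoc]

theorem XmL_coL (D : NormData F K (Fintype.card F) a b) (r : K →ₗ[F] F)
    (hr : ∀ s, r (algebraMap F K s) = s) (Y : Matrix (Fin 2) (Fin 2) K) (hY : IsH (F := F) Y) :
    XmL D (coL D r Y) = Y := by
  have h00 : sg F K (Y 0 0) = Y 0 0 := congrFun (congrFun hY 0) 0
  have h11 : sg F K (Y 1 1) = Y 1 1 := congrFun (congrFun hY 1) 1
  have h10 : sg F K (Y 0 1) = Y 1 0 := congrFun (congrFun hY 1) 0
  obtain ⟨s0, hs0⟩ := sg_fixed _ h00
  obtain ⟨s1, hs1⟩ := sg_fixed _ h11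
  have hb : btL D (coL D r Y) = Y 0 1 := by
    apply D.cE.injective
    funext s
    rw [cE_btL]
    rfl
  rw [XmL_apply, hb]
  ext i j
  fin_cases i <;> fin_cases j
  · show algebraMap F K (r (Y 0 0)) = Y 0 0
    rw [← hs0, hr]
  · rfl
  · exact h10
  · show -algebraMap F K (-r (Y 1 1)) = Y 1 1
    rw [← hs1, hr, map_neg, neg_neg]

theorem coL_XmL (D : NormData F K (Fintype.card F) a b) (r : K →ₗ[F] F)
    (hr : ∀ s, r (algebraMap F K s) = s) (v : (Fin 1 ⊕ Fin 1) ⊕ Fin 2 → F) :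
    coL D r (XmL D v) = v := by
  funext x
  rcases x with (i | i) | i
  · show r (algebraMap F K (v (Sum.inl (Sum.inl 0)))) = v (Sum.inl (Sum.inl i))
    rw [hr, Subsingleton.elim i 0]
  · show -r (-algebraMap F K (v (Sum.inl (Sum.inr 0)))) = v (Sum.inl (Sum.inr i))
    rw [map_neg, hr, neg_neg, Subsingleton.elim i 0]
  · show D.cE (btL D v) i = v (Sum.inr i)
    exact cE_btL D v i

theorem quad_XmL (D : NormData F K (Fintype.card F) a b) (v : (Fin 1 ⊕ Fin 1) ⊕ Fin 2 → F) :
    algebraMap F K (Cfsg.quadFormMinus 1 F a b v) = - (XmL D v).det := by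
  have h := D.hN1 (btL D v)
  rw [cE_btL, cE_btL] at h
  rw [XmL_apply, Matrix.det_fin_two_of, sg_apply]
  unfold Cfsg.quadFormMinus
  rw [map_add, h]
  simp only [Finset.univ_unique, Fin.default_eq_zero, Fin.isValue, Finset.sum_singleton, map_mul]
  ring

theorem det_act (g Y : Matrix (Fin 2) (Fin 2) K) (hg : g.det = 1) :
    (g * Y * (g.map (sg F K))ᵀ).det = Y.det := by
  have h1 : (g.map (sg F K)).det = sg F K g.det :=
    (RingHom.map_det (sg F K : K →+* K) g).symm
  rw [Matrix.det_mul, Matrix.det_mul, Matrix.det_transpose, h1, hg, map_one, one_mul, mul_one]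

theorem mM_mul (hK : Fintype.card K = Fintype.card F ^ 2) (D : NormData F K (Fintype.card F) a b)
    (r : K →ₗ[F] F) (hr : ∀ s, r (algebraMap F K s) = s) (g h : Matrix (Fin 2) (Fin 2) K) :
    mM D r (g * h) = mM D r g * mM D r h := by
  apply Matrix.mulVec_injective
  funext v
  rw [← Matrix.mulVec_mulVec, mM_mulVec, mM_mulVec, mM_mulVec,
    XmL_coL D r hr _ (isH_act hK h _ (isH_XmL hK D v)), Matrix.map_mul, Matrix.transpose_mul]
  simp only [Matrix.mul_assoc]

theorem mM_one (D : NormData F K (Fintype.card F) a b)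
    (r : K →ₗ[F] F) (hr : ∀ s, r (algebraMap F K s) = s) :
    mM D r (1 : Matrix (Fin 2) (Fin 2) K) = 1 := by
  apply Matrix.mulVec_injective
  funext v
  rw [mM_mulVec, Matrix.map_one _ (map_zero _) (map_one _), Matrix.transpose_one, Matrix.one_mul,
    Matrix.mul_one, coL_XmL D r hr, Matrix.one_mulVec]

theorem mM_quad (hK : Fintype.card K = Fintype.card F ^ 2) (D : NormData F K (Fintype.card F) a b)
    (r : K →ₗ[F] F) (hr : ∀ s, r (algebraMap F K s) = s) (g : Matrix (Fin 2) (Fin 2) K)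
    (hg : g.det = 1) (v : (Fin 1 ⊕ Fin 1) ⊕ Fin 2 → F) :
    Cfsg.quadFormMinus 1 F a b (mM D r g *ᵥ v) = Cfsg.quadFormMinus 1 F a b v := by
  apply (algebraMap F K).injective
  rw [quad_XmL D, quad_XmL D, mM_mulVec, XmL_coL D r hr _ (isH_act hK g _ (isH_XmL hK D v)),
    det_act g _ hg]

/-- The action of `SL₂(K)` on hermitian matrices, as isometries of the minus-type form. -/
noncomputable def mHom (hK : Fintype.card K = Fintype.card F ^ 2)
    (D : NormData F K (Fintype.card F) a b) (r : K →ₗ[F] F)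
    (hr : ∀ s, r (algebraMap F K s) = s) :
    Matrix.SpecialLinearGroup (Fin 2) K →* ↥(Cfsg.isometryGroup F (Cfsg.quadFormMinus 1 F a b)) where
  toFun g := ⟨⟨mM D r g.1, mM D r (g⁻¹).1,
      by rw [← mM_mul hK D r hr, ← Matrix.SpecialLinearGroup.coe_mul, mul_inv_cancel]
         exact mM_one D r hr,
      by rw [← mM_mul hK D r hr, ← Matrix.SpecialLinearGroup.coe_mul, inv_mul_cancel]
         exact mM_one D r hr⟩,
    (Cfsg.Agent.Lib.Helper3.mem_isometryGroup_iff _ _).2 (fun u => mM_quad hK D r hr g.1 g.2 u)⟩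
  map_one' := by
    apply Subtype.ext
    apply Units.ext
    exact mM_one D r hr
  map_mul' g h := by
    apply Subtype.ext
    apply Units.ext
    exact mM_mul hK D r hr g.1 h.1

theorem mHom_coe (hK : Fintype.card K = Fintype.card F ^ 2)
    (D : NormData F K (Fintype.card F) a b) (r : K →ₗ[F] F)
    (hr : ∀ s, r (algebraMap F K s) = s) (g : Matrix.SpecialLinearGroup (Fin 2) K) :
    (((mHom hK D r hr g : ↥(Cfsg.isometryGroup F (Cfsg.quadFormMinus 1 F a b))) :
      Matrix.GeneralLinearGroup ((Fin 1 ⊕ Fin 1) ⊕ Fin 2) F) :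
        Matrix ((Fin 1 ⊕ Fin 1) ⊕ Fin 2) ((Fin 1 ⊕ Fin 1) ⊕ Fin 2) F) = mM D r g.1 := rfl

theorem mHom_ne_one (hK : Fintype.card K = Fintype.card F ^ 2)
    (D : NormData F K (Fintype.card F) a b) (r : K →ₗ[F] F)
    (hr : ∀ s, r (algebraMap F K s) = s) :
    mHom hK D r hr ⟨!![1, 1; 0, 1], by simp [Matrix.det_fin_two]⟩ ≠ 1 := by
  intro h
  have e := congrArg (fun x : ↥(Cfsg.isometryGroup F (Cfsg.quadFormMinus 1 F a b)) =>
    ((x : Matrix.GeneralLinearGroup ((Fin 1 ⊕ Fin 1) ⊕ Fin 2) F) :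
        Matrix ((Fin 1 ⊕ Fin 1) ⊕ Fin 2) ((Fin 1 ⊕ Fin 1) ⊕ Fin 2) F)) h
  have e1 : mM D r (!![1, 1; 0, 1] : Matrix (Fin 2) (Fin 2) K) = 1 := e
  set v : (Fin 1 ⊕ Fin 1) ⊕ Fin 2 → F := Pi.single (Sum.inl (Sum.inr 0)) 1 with hv
  have h1 := congrFun (congrArg (fun M => M *ᵥ v) e1) (Sum.inl (Sum.inl 0))
  simp only [Matrix.one_mulVec] at h1
  rw [mM_mulVec, coL_apply] at h1
  have hb : btL D v = 0 := by
    apply D.cE.injective
    funext s
    rw [cE_btL, map_zero, hv]
    simp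
  have h00 : v (Sum.inl (Sum.inl 0)) = 0 := by rw [hv]; simp
  have h01 : v (Sum.inl (Sum.inr 0)) = 1 := by rw [hv]; simp
  have hr1 : r 1 = 1 := by
    have := hr 1
    rwa [map_one] at this
  simp [Matrix.mul_apply, Fin.sum_univ_two, XmL_apply, hb, h00, h01, hr1] at h1

end Herm

/-- PΩ^-_4(q) is isomorphic to PSL_2(q^2). -/
theorem result {F K : Type*} [Field F] [Fintype F] [Field K] [Fintype K] {q : ℕ} (hF : Fintype.card F = q) (hK : Fintype.card K = q ^ 2) (a b : F) (hab : ∀ z₁ z₂ : F, z₁ ^ 2 + a * z₁ * z₂ + b * z₂ ^ 2 = 0 → z₁ = 0 ∧ z₂ = 0) : Nonempty (Cfsg.POmega F (Cfsg.quadFormMinus 1 F a b) ≃* Matrix.ProjectiveSpecialLinearGroup (Fin 2) K) := by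
  classical
  subst hF
  obtain ⟨j, ρ, ρ', hs, hp, hne⟩ := exists_quadratic_ext (F := F) (K := K) rfl hK a b hab
  let _ : Algebra F K := j.toAlgebra
  obtain ⟨D⟩ := normData_of_roots (F := F) (K := K) rfl hK a b hab ρ ρ' hs hp hne
  obtain ⟨r, hr'⟩ := LinearMap.exists_leftInverse_of_injective (Algebra.linearMap F K)
    (LinearMap.ker_eq_bot.2 (algebraMap F K).injective)
  have hr : ∀ s, r (algebraMap F K s) = s := fun s => congrArg (fun f => f s) hr'
  have hq : 2 ≤ Fintype.card F := Fintype.one_lt_card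
  have h4 : 4 ≤ Fintype.card K := by
    rw [hK]
    nlinarith
  obtain ⟨c, hc0, hcsq⟩ := exists_ne_zero_sq_ne_one K h4
  have hperf : commutator (Matrix.SpecialLinearGroup (Fin 2) K) = ⊤ :=
    Matrix.SL2.commutator_eq_top hc0 hcsq
  have hsimple : IsSimpleGroup (Matrix.ProjectiveSpecialLinearGroup (Fin 2) K) :=
    Matrix.ProjectiveSpecialLinearGroup.rank_two_simple (by rw [Nat.card_eq_fintype_card]; exact h4)
  set f := mHom hK D r hr with hf
  have hkerc : f.ker ≤ Subgroup.center (Matrix.SpecialLinearGroup (Fin 2) K) :=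
    ker_le_center_of_simple f hsimple hperf _ (mHom_ne_one hK D r hr)
  have hG := Cfsg.Agent.S0288.card_minus_closed a b hab 1
  have hSL := Cfsg.Agent.Lib.Helper3.card_SL2_eq (F := K)
  have hGS : Nat.card ↥(Cfsg.isometryGroup F (Cfsg.quadFormMinus 1 F a b))
      = 2 * Nat.card (Matrix.SpecialLinearGroup (Fin 2) K) := by
    rw [hG, hSL, hK]
    simp only [Finset.prod_range_one]
    have h1 : 1 ≤ Fintype.card F ^ 2 := Nat.one_le_pow _ _ (by omega)
    have e0 : ∀ m : ℕ, 1 ≤ m → 2 * m * (m + 1) * (m - 1) = 2 * (m * (m ^ 2 - 1)) := by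
      intro m hm
      obtain ⟨k, rfl⟩ : ∃ k, m = k + 1 := ⟨m - 1, by omega⟩
      have e1 : (k + 1) ^ 2 - 1 = (k + 2) * k := Nat.sub_eq_of_eq_add (by ring)
      have e5 : k + 1 - 1 = k := rfl
      rw [e1, e5]
      ring
    exact e0 (Fintype.card F ^ 2) h1
  have hkr := Subgroup.card_mul_index f.ker
  rw [Subgroup.index_ker] at hkr
  have hrange : f.range = Cfsg.Omega F (Cfsg.quadFormMinus 1 F a b) := by
    by_cases h2 : (2 : F) = 0
    · have h2K : (2 : K) = 0 := by
        have := congrArg (algebraMap F K) h2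
        rwa [map_ofNat, map_zero] at this
      have hk1 : Nat.card f.ker = 1 :=
        le_antisymm ((Subgroup.card_le_of_le hkerc).trans (card_center_SL2_char_two K h2K).le)
          Nat.card_pos
      apply range_eq_commutator_of_index_two f hperf
      rw [hk1, one_mul] at hkr
      rw [hkr, hGS]
    · have hnd := qfMinus_nondeg 1 F a b h2 hab
      have hn : 2 ≤ Fintype.card ((Fin 1 ⊕ Fin 1) ⊕ Fin 2) := by
        rw [Fintype.card_sum, Fintype.card_sum, Fintype.card_fin, Fintype.card_fin]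
        norm_num
      let t' : Matrix.SpecialLinearGroup (Fin 2) K →*
        ↥(Cfsg.isometryGroup F (⇑(qfMinus 1 F a b))) := f
      have hr := range_eq_omega_odd (qfMinus 1 F a b) h2 hnd hn t'
        (fun x => map_mem_commutator_of_perfect t' hperf x) (by
        have hk2 : Nat.card f.ker ≤ 2 :=
          (Subgroup.card_le_of_le hkerc).trans (card_center_SL2_le K)
        show Nat.card ↥(Cfsg.isometryGroup F (Cfsg.quadFormMinus 1 F a b)) * Nat.card f.ker
          ≤ 4 * Nat.card (Matrix.SpecialLinearGroup (Fin 2) K)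
        rw [hGS]
        calc 2 * Nat.card (Matrix.SpecialLinearGroup (Fin 2) K) * Nat.card f.ker
            ≤ 2 * Nat.card (Matrix.SpecialLinearGroup (Fin 2) K) * 2 := Nat.mul_le_mul_left _ hk2
          _ = 4 * Nat.card (Matrix.SpecialLinearGroup (Fin 2) K) := by ring)
      exact hr
  let φ : Matrix.SpecialLinearGroup (Fin 2) K →* ↥(Cfsg.Omega F (Cfsg.quadFormMinus 1 F a b)) :=
    f.codRestrict _ (fun x => hrange ▸ ⟨x, rfl⟩)
  have hsurj : Function.Surjective φ := by
    rintro ⟨y, hy⟩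
    rw [← hrange] at hy
    obtain ⟨x, rfl⟩ := hy
    exact ⟨x, rfl⟩
  have hφk : φ.ker ≤ Subgroup.center (Matrix.SpecialLinearGroup (Fin 2) K) := by
    intro g hg
    apply hkerc
    rw [MonoidHom.mem_ker] at hg ⊢
    exact congrArg Subtype.val hg
  obtain ⟨e1⟩ := quot_center_equiv φ hsurj (central_of_perfect φ hφk hperf)
  exact ⟨e1⟩

end Cfsg.Agent.S0300
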