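import Cfsg.Statements.S0254
import Mathlib
import Cfsg.Agent.S0243
import Cfsg.Agent.S0300

set_option autoImplicit false
open Cfsg

namespace Cfsg.Agent.S0254

open Matrix

abbrev I4 : Type := (Fin 1 ⊕ Fin 1) ⊕ Fin 2

def Lm : Matrix (Fin 6) I4 (ZMod 3) :=
  Matrix.of fun i k =>
    Sum.elim (Sum.elim (fun _ => (![1,1,1,0,0,0] : Fin 6 → ZMod 3) i)
        (fun _ => (![2,2,0,2,0,0] : Fin 6 → ZMod 3) i))
      (fun t => (![![1,2,0,0,0,0], ![0,0,0,0,1,2]] : Fin 2 → Fin 6 → ZMod 3) t i) k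

def Pm : Matrix I4 (Fin 6) (ZMod 3) :=
  Matrix.of fun k =>
    Sum.elim (Sum.elim (fun _ => (![2,2,0,2,0,0] : Fin 6 → ZMod 3))
        (fun _ => (![1,1,1,0,0,0] : Fin 6 → ZMod 3)))
      (![![2,1,0,0,0,0], ![0,0,0,0,2,1]] : Fin 2 → Fin 6 → ZMod 3) k

def ell : Fin 6 → ZMod 3 := ![2,2,2,2,0,0]

def mv : Fin 6 → ZMod 3 := ![0,0,0,0,1,1]

theorem PL : Pm * Lm = 1 := by decide +kernel

theorem LP : Lm * Pm = 1 + vecMulVec 1 ell + vecMulVec mv 1 := by decide +kernel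

theorem P_one : Pm *ᵥ 1 = 0 := by decide +kernel

theorem one_L : (1 : Fin 6 → ZMod 3) ᵥ* Lm = 0 := by decide +kernel

theorem Q_L : ∀ w : I4 → ZMod 3,
    Cfsg.quadFormMinus 1 (ZMod 3) 0 1 w = -(∑ i, (Lm *ᵥ w) i ^ 2) := by decide +kernel

theorem aniso : ∀ z₁ z₂ : ZMod 3, z₁ ^ 2 + 0 * z₁ * z₂ + 1 * z₂ ^ 2 = 0 → z₁ = 0 ∧ z₂ = 0 := by
  decide

def pmat (σ : Equiv.Perm (Fin 6)) : Matrix (Fin 6) (Fin 6) (ZMod 3) :=
  Matrix.of fun i j => if σ j = i then 1 else 0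

theorem pmat_mulVec (σ : Equiv.Perm (Fin 6)) (x : Fin 6 → ZMod 3) :
    pmat σ *ᵥ x = fun i => x (σ.symm i) := by
  ext i
  simp only [pmat, mulVec, dotProduct, of_apply]
  rw [Finset.sum_eq_single (σ.symm i)]
  · simp
  · intro j _ hj
    rw [if_neg, zero_mul]
    intro h
    apply hj
    rw [← h]
    simp
  · simp

theorem pmat_mul (σ τ : Equiv.Perm (Fin 6)) : pmat (σ * τ) = pmat σ * pmat τ := by
  ext i k
  simp only [pmat, mul_apply, of_apply, Equiv.Perm.mul_apply]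
  rw [Finset.sum_eq_single (τ k)]
  · rw [if_pos rfl, mul_one]
    rfl
  · intro j _ hj
    rw [if_neg (Ne.symm hj), mul_zero]
  · simp

theorem pmat_one : pmat 1 = 1 := by
  ext i j
  simp [pmat, Matrix.one_apply, eq_comm]

def rhoM (σ : Equiv.Perm (Fin 6)) : Matrix I4 I4 (ZMod 3) := Pm * pmat σ * Lm

theorem rhoM_one : rhoM 1 = 1 := by rw [rhoM, pmat_one, Matrix.mul_one, PL]

theorem pmat_mulVec_one (σ : Equiv.Perm (Fin 6)) : pmat σ *ᵥ 1 = 1 := by
  rw [pmat_mulVec]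
  rfl

theorem one_vecMul_pmat (σ : Equiv.Perm (Fin 6)) : (1 : Fin 6 → ZMod 3) ᵥ* pmat σ = 1 := by
  ext j
  simp [pmat, vecMul, dotProduct]

theorem rhoM_mul (σ τ : Equiv.Perm (Fin 6)) : rhoM (σ * τ) = rhoM σ * rhoM τ := by
  have h1 : rhoM σ * rhoM τ = Pm * pmat σ * (Lm * Pm) * (pmat τ * Lm) := by
    simp only [rhoM, Matrix.mul_assoc]
  have h2 : Pm * pmat σ * vecMulVec (1 : Fin 6 → ZMod 3) ell = 0 := by
    rw [Matrix.mul_vecMulVec, ← Matrix.mulVec_mulVec, pmat_mulVec_one, P_one]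
    ext i j
    simp [vecMulVec]
  have h3 : vecMulVec mv (1 : Fin 6 → ZMod 3) * (pmat τ * Lm) = 0 := by
    rw [Matrix.vecMulVec_mul, ← Matrix.vecMul_vecMul, one_vecMul_pmat, one_L]
    ext i j
    simp [vecMulVec]
  rw [h1, LP, Matrix.mul_add, Matrix.mul_add, Matrix.add_mul, Matrix.add_mul, Matrix.mul_one,
    h2, Matrix.zero_mul, add_zero, Matrix.mul_assoc (Pm * pmat σ) (vecMulVec mv 1), h3,
    Matrix.mul_zero, add_zero]
  simp only [rhoM, pmat_mul, Matrix.mul_assoc]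

theorem q6_shift (x : Fin 6 → ZMod 3) (c : ZMod 3) (hs : ∑ i, x i = 0) :
    ∑ i, (x i + c) ^ 2 = ∑ i, x i ^ 2 := by
  have h : ∀ i, (x i + c) ^ 2 = x i ^ 2 + 2 * c * x i + c ^ 2 := fun i => by ring
  simp only [h, Finset.sum_add_distrib, ← Finset.mul_sum, hs]
  have h6 : (6 : ZMod 3) = 0 := by decide
  simp [h6]

theorem rho_isom (σ : Equiv.Perm (Fin 6)) (w : I4 → ZMod 3) :
    Cfsg.quadFormMinus 1 (ZMod 3) 0 1 (rhoM σ *ᵥ w) = Cfsg.quadFormMinus 1 (ZMod 3) 0 1 w := by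
  obtain ⟨x, hx⟩ : ∃ x, x = pmat σ *ᵥ (Lm *ᵥ w) := ⟨_, rfl⟩
  have h1 : rhoM σ *ᵥ w = Pm *ᵥ x := by
    rw [hx, rhoM]
    simp only [Matrix.mulVec_mulVec, Matrix.mul_assoc]
  have hsum : ∑ i, x i = 0 := by
    rw [hx, pmat_mulVec, Equiv.sum_comp σ.symm (fun i => (Lm *ᵥ w) i)]
    have h := Matrix.dotProduct_mulVec (1 : Fin 6 → ZMod 3) Lm w
    rw [one_L, zero_dotProduct] at h
    simpa [dotProduct] using h
  have h2 : Lm *ᵥ (Pm *ᵥ x) = fun i => x i + (ell ⬝ᵥ x) := by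
    have h3 : (1 : Fin 6 → ZMod 3) ⬝ᵥ x = 0 := by simpa [dotProduct] using hsum
    rw [Matrix.mulVec_mulVec, LP, Matrix.add_mulVec, Matrix.add_mulVec, Matrix.one_mulVec,
      Matrix.vecMulVec_mulVec, Matrix.vecMulVec_mulVec, h3]
    ext i
    simp
  rw [h1, Q_L, h2, q6_shift x _ hsum, Q_L w, hx, pmat_mulVec,
    Equiv.sum_comp σ.symm (fun i => (Lm *ᵥ w) i ^ 2)]

def rhoHom : Equiv.Perm (Fin 6) →* Matrix I4 I4 (ZMod 3) where
  toFun := rhoM
  map_one' := rhoM_one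
  map_mul' := rhoM_mul

theorem rhoM_ne : rhoM (Equiv.swap 0 1 * Equiv.swap 1 2) ≠ 1 := by decide +kernel

theorem main {F : Type*} [Field F] [Fintype F] (hF : Fintype.card F = 9) :
    Nonempty (Matrix.ProjectiveSpecialLinearGroup (Fin 2) F ≃* alternatingGroup (Fin 6)) := by
  have h3 : Fintype.card (ZMod 3) = 3 := ZMod.card 3
  obtain ⟨e⟩ := Cfsg.Agent.S0300.result (F := ZMod 3) (K := F) (q := 3) h3
    (by rw [hF]; norm_num) 0 1 aniso
  have hmem : ∀ σ : Equiv.Perm (Fin 6), rhoHom.toHomUnits σ ∈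
      Cfsg.isometryGroup (ZMod 3) (Cfsg.quadFormMinus 1 (ZMod 3) 0 1) := by
    intro σ u _
    exact rho_isom σ u
  obtain ⟨f₀, hf₀⟩ : ∃ f₀ : alternatingGroup (Fin 6) →*
      Cfsg.isometryGroup (ZMod 3) (Cfsg.quadFormMinus 1 (ZMod 3) 0 1),
      ∀ g, ((f₀ g : Matrix.GeneralLinearGroup I4 (ZMod 3)) : Matrix I4 I4 (ZMod 3)) = rhoM g.1 :=
    ⟨(rhoHom.toHomUnits.codRestrict _ hmem).comp (alternatingGroup (Fin 6)).subtype,
      fun g => rfl⟩
  have h5 : 5 ≤ Nat.card (Fin 6) := by simp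
  have hperf : commutator (alternatingGroup (Fin 6)) = ⊤ := commutator_alternatingGroup_eq_top h5
  have hcomm : ∀ g, f₀ g ∈
      commutator (Cfsg.isometryGroup (ZMod 3) (Cfsg.quadFormMinus 1 (ZMod 3) 0 1)) := by
    intro g
    have hg : g ∈ commutator (alternatingGroup (Fin 6)) := by
      rw [hperf]
      trivial
    have := Subgroup.mem_map_of_mem f₀ hg
    rw [commutator_def, Subgroup.map_commutator] at this
    exact Subgroup.commutator_mono le_top le_top this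
  obtain ⟨f₁, hf₁⟩ : ∃ f₁ : alternatingGroup (Fin 6) →*
      Cfsg.Omega (ZMod 3) (Cfsg.quadFormMinus 1 (ZMod 3) 0 1), ∀ g, (f₁ g).1 = f₀ g :=
    ⟨f₀.codRestrict _ hcomm, fun g => rfl⟩
  obtain ⟨φ, hφ⟩ : ∃ φ : alternatingGroup (Fin 6) →*
      Cfsg.POmega (ZMod 3) (Cfsg.quadFormMinus 1 (ZMod 3) 0 1),
      ∀ g, φ g = QuotientGroup.mk (f₁ g) :=
    ⟨(QuotientGroup.mk' _).comp f₁, fun g => rfl⟩
  have hsimple : IsSimpleGroup (alternatingGroup (Fin 6)) := alternatingGroup.isSimpleGroup h5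
  have hinj : Function.Injective φ := by
    rw [← MonoidHom.ker_eq_bot_iff]
    rcases (φ.normal_ker).eq_bot_or_eq_top with h | h
    · exact h
    · exfalso
      have hcen : ∀ g, f₁ g ∈ Subgroup.center
          (Cfsg.Omega (ZMod 3) (Cfsg.quadFormMinus 1 (ZMod 3) 0 1)) := by
        intro g
        have hg : g ∈ φ.ker := by
          rw [h]
          trivial
        rw [MonoidHom.mem_ker, hφ] at hg
        exact (QuotientGroup.eq_one_iff _).1 hg
      have hker : commutator (alternatingGroup (Fin 6)) ≤ f₁.ker := by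
        rw [commutator_def, Subgroup.commutator_le]
        intro a _ b _
        rw [MonoidHom.mem_ker, map_commutatorElement, commutatorElement_eq_one_iff_commute]
        exact Subgroup.mem_center_iff.1 (hcen b) (f₁ a)
      rw [hperf] at hker
      have hσ₀ : Equiv.swap (0 : Fin 6) 1 * Equiv.swap 1 2 ∈ alternatingGroup (Fin 6) := by
        rw [Equiv.Perm.mem_alternatingGroup, Equiv.Perm.sign_mul, Equiv.Perm.sign_swap (by decide),
          Equiv.Perm.sign_swap (by decide)]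
        rfl
      have h1 : f₁ ⟨_, hσ₀⟩ = 1 := MonoidHom.mem_ker.1 (hker trivial)
      have h2 : rhoM (Equiv.swap (0 : Fin 6) 1 * Equiv.swap 1 2) = 1 := by
        rw [← hf₀ ⟨_, hσ₀⟩, ← hf₁, h1]
        rfl
      exact rhoM_ne h2
  have hc1 : Nat.card (alternatingGroup (Fin 6)) = 360 := by
    rw [nat_card_alternatingGroup]
    simp [Nat.factorial]
  have hc2 : Nat.card (Matrix.ProjectiveSpecialLinearGroup (Fin 2) F) = 360 := by
    have h1 := Cfsg.Agent.S0243.result hF 2 (by norm_num)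
    rw [Fin.prod_univ_two] at h1
    simp only [Fin.val_zero, pow_zero, Fin.val_one, pow_one] at h1
    norm_num at h1
    omega
  have hbij : Function.Bijective (e.toMonoidHom.comp φ) := by
    have hi : Function.Injective (e.toMonoidHom.comp φ) := by
      intro a b hab
      exact hinj (e.injective hab)
    exact hi.bijective_of_nat_card_le (by rw [hc1, hc2])
  exact ⟨(MulEquiv.ofBijective _ hbij).symm⟩

/-- PSL_2(9) is isomorphic to A_6. -/
theorem result {F : Type*} [Field F] [Fintype F] (hF : Fintype.card F = 9) : Nonempty (Matrix.ProjectiveSpecialLinearGroup (Fin 2) F ≃* alternatingGroup (Fin 6)) := by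
  exact main hF

end Cfsg.Agent.S0254
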