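import Cfsg.Statements.S0255
import Mathlib
import Cfsg.Agent.S0243
import Cfsg.Agent.Lib.Helper3.OmegaTools2

set_option autoImplicit false
open Cfsg

namespace Cfsg.Agent.S0255

open Matrix

instance fact7 : Fact (Nat.Prime 7) := ⟨by norm_num⟩

def tab : ZMod 7 → Fin 3 → ZMod 2 :=
  fun z => (![![1,0,0], ![0,1,0], ![0,0,1], ![1,1,0], ![0,1,1], ![1,1,1], ![1,0,1]] :
    Fin 7 → Fin 3 → ZMod 2) z

def tau (x y : ZMod 7) : Fin 3 → ZMod 2 := if y = 0 then 0 else tab (x * y ^ 5)

def amat (a b c d : ZMod 7) : Matrix (Fin 3) (Fin 3) (ZMod 2) :=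
  Matrix.of fun i j => tau (a * ((j : ℕ) : ZMod 7) + b) (c * ((j : ℕ) : ZMod 7) + d) i - tau a c i

def PP (a b c d : ZMod 7) : Prop :=
  ∀ x y : ZMod 7, (x ≠ 0 ∨ y ≠ 0) →
    tau (a * x + b * y) (c * x + d * y) = amat a b c d *ᵥ tau x y + tau a c

instance (a b c d : ZMod 7) : Decidable (PP a b c d) := by unfold PP; infer_instance

theorem PP_upper : ∀ t : ZMod 7, PP 1 t 0 1 := by decide +kernel

theorem PP_lower : ∀ t : ZMod 7, PP 1 0 t 1 := by decide +kernel

theorem tau_basis : ∀ j : Fin 3, tau ((j : ℕ) : ZMod 7) 1 = Pi.single j 1 := by decide +kernel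

theorem amat_scalar : ∀ r : ZMod 7, r ^ 2 = 1 → amat r 0 0 r = 1 := by decide +kernel

theorem amat_ne : amat 1 1 0 1 ≠ 1 := by decide +kernel

theorem zmod2_one : ∀ x : ZMod 2, x ≠ 0 → x = 1 := by decide

theorem PP_mul (a b c d a' b' c' d' : ZMod 7) (hdet : a' * d' - b' * c' = 1)
    (h : PP a b c d) (h' : PP a' b' c' d') :
    PP (a * a' + b * c') (a * b' + b * d') (c * a' + d * c') (c * b' + d * d') ∧
      amat (a * a' + b * c') (a * b' + b * d') (c * a' + d * c') (c * b' + d * d')
        = amat a b c d * amat a' b' c' d' := by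
  have hK : ∀ x y : ZMod 7, (x ≠ 0 ∨ y ≠ 0) →
      tau ((a * a' + b * c') * x + (a * b' + b * d') * y)
          ((c * a' + d * c') * x + (c * b' + d * d') * y)
        = amat a b c d *ᵥ (amat a' b' c' d' *ᵥ tau x y)
          + (amat a b c d *ᵥ tau a' c' + tau a c) := by
    intro x y hxy
    have e1 : (a * a' + b * c') * x + (a * b' + b * d') * y
        = a * (a' * x + b' * y) + b * (c' * x + d' * y) := by ring
    have e2 : (c * a' + d * c') * x + (c * b' + d * d') * y
        = c * (a' * x + b' * y) + d * (c' * x + d' * y) := by ring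
    have hne : a' * x + b' * y ≠ 0 ∨ c' * x + d' * y ≠ 0 := by
      by_contra hcon
      push Not at hcon
      obtain ⟨h1, h2⟩ := hcon
      have hx : x = 0 := by linear_combination d' * h1 - b' * h2 - x * hdet
      have hy : y = 0 := by linear_combination a' * h2 - c' * h1 - y * hdet
      rcases hxy with h | h
      · exact h hx
      · exact h hy
    rw [e1, e2, h _ _ hne, h' x y hxy, Matrix.mulVec_add, add_assoc]
  have hc : tau (a * a' + b * c') (c * a' + d * c')
      = amat a b c d *ᵥ tau a' c' + tau a c := by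
    have hne : a' ≠ 0 ∨ c' ≠ 0 := by
      by_contra hcon
      push Not at hcon
      obtain ⟨h1, h2⟩ := hcon
      rw [h1, h2] at hdet
      simp at hdet
    exact h a' c' hne
  have hA : amat (a * a' + b * c') (a * b' + b * d') (c * a' + d * c') (c * b' + d * d')
        = amat a b c d * amat a' b' c' d' := by
    ext i j
    have h1 := hK ((j : ℕ) : ZMod 7) 1 (Or.inr (by decide))
    rw [tau_basis, Matrix.mulVec_single_one] at h1
    have h2 := congrFun h1 i
    simp only [mul_one] at h2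
    show tau _ _ i - tau _ _ i = _
    rw [h2, hc]
    simp [Matrix.mul_apply, Matrix.mulVec, dotProduct]
  refine ⟨?_, hA⟩
  intro x y hxy
  rw [hK x y hxy, hA, hc, Matrix.mulVec_mulVec]

def am (g : SpecialLinearGroup (Fin 2) (ZMod 7)) : Matrix (Fin 3) (Fin 3) (ZMod 2) :=
  amat (g.1 0 0) (g.1 0 1) (g.1 1 0) (g.1 1 1)

theorem PP_all (g : SpecialLinearGroup (Fin 2) (ZMod 7)) :
    PP (g.1 0 0) (g.1 0 1) (g.1 1 0) (g.1 1 1) := by
  refine Matrix.SL2.transvection_induction
    (fun g => PP (g.1 0 0) (g.1 0 1) (g.1 1 0) (g.1 1 1)) ?_ ?_ g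
  · intro i j hij c
    fin_cases i <;> fin_cases j
    · exact absurd rfl hij
    · have := PP_upper c
      simpa [SpecialLinearGroup.transvection_coe, Matrix.single_apply] using this
    · have := PP_lower c
      simpa [SpecialLinearGroup.transvection_coe, Matrix.single_apply] using this
    · exact absurd rfl hij
  · intro A B hA hB
    have hdet : B.1 0 0 * B.1 1 1 - B.1 0 1 * B.1 1 0 = 1 := by
      have := B.2
      rwa [Matrix.det_fin_two] at this
    have := (PP_mul _ _ _ _ _ _ _ _ hdet hA hB).1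
    simpa [Matrix.mul_apply, Fin.sum_univ_two] using this

theorem am_mul (g h : SpecialLinearGroup (Fin 2) (ZMod 7)) : am (g * h) = am g * am h := by
  have hdet : h.1 0 0 * h.1 1 1 - h.1 0 1 * h.1 1 0 = 1 := by
    have := h.2
    rwa [Matrix.det_fin_two] at this
  have := (PP_mul _ _ _ _ _ _ _ _ hdet (PP_all g) (PP_all h)).2
  simpa [am, Matrix.mul_apply, Fin.sum_univ_two] using this

theorem am_one : am 1 = 1 := by
  have := amat_scalar 1 (by norm_num)
  simpa [am] using this

theorem am_det (g : SpecialLinearGroup (Fin 2) (ZMod 7)) : (am g).det = 1 := by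
  apply zmod2_one
  intro h0
  have h1 : am g * am g⁻¹ = 1 := by rw [← am_mul, mul_inv_cancel, am_one]
  have h2 := congrArg Matrix.det h1
  rw [Matrix.det_mul, h0, zero_mul, Matrix.det_one] at h2
  exact zero_ne_one h2

def Psi : SpecialLinearGroup (Fin 2) (ZMod 7) →* SpecialLinearGroup (Fin 3) (ZMod 2) :=
  MonoidHom.mk' (fun g => ⟨am g, am_det g⟩) (by
    intro g h
    apply Subtype.ext
    exact am_mul g h)

theorem center_sl3_bot {K : Type*} [Field K] [Fintype K] (hK : Fintype.card K = 2) :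
    Subgroup.center (SpecialLinearGroup (Fin 3) K) = ⊥ := by
  rw [eq_bot_iff]
  intro A hA
  rw [Matrix.SpecialLinearGroup.mem_center_iff] at hA
  obtain ⟨r, hr, hrA⟩ := hA
  have hr0 : r ≠ 0 := by
    rintro rfl
    simp at hr
  have hr1 : r = 1 := by
    have := FiniteField.pow_card_sub_one_eq_one r hr0
    rw [hK] at this
    simpa using this
  rw [Subgroup.mem_bot]
  apply Subtype.ext
  rw [← hrA, hr1]
  simp

theorem main {F K : Type*} [Field F] [Fintype F] [Field K] [Fintype K]
    (hF : Fintype.card F = 7) (hK : Fintype.card K = 2) :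
    Nonempty (Matrix.ProjectiveSpecialLinearGroup (Fin 2) F ≃*
      Matrix.ProjectiveSpecialLinearGroup (Fin 3) K) := by
  obtain ⟨e₁⟩ : Nonempty (ZMod 7 ≃+* F) := ⟨ZMod.ringEquivOfPrime F (by norm_num) hF⟩
  obtain ⟨e₂⟩ : Nonempty (ZMod 2 ≃+* K) := ⟨ZMod.ringEquivOfPrime K (by norm_num) hK⟩
  obtain ⟨f, hf⟩ : ∃ f : SpecialLinearGroup (Fin 2) F →* SpecialLinearGroup (Fin 3) K,
      f = (SpecialLinearGroup.map (e₂ : ZMod 2 →+* K)).comp
        (Psi.comp (SpecialLinearGroup.map (e₁.symm : F →+* ZMod 7))) := ⟨_, rfl⟩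
  have hfapp : ∀ x, f x = SpecialLinearGroup.map (e₂ : ZMod 2 →+* K)
      (Psi (SpecialLinearGroup.map (e₁.symm : F →+* ZMod 7) x)) := by
    intro x
    rw [hf]
    rfl
  have hmapinj : Function.Injective (SpecialLinearGroup.map (e₂ : ZMod 2 →+* K)
      : SpecialLinearGroup (Fin 3) (ZMod 2) → SpecialLinearGroup (Fin 3) K) := by
    intro A B hAB
    apply Subtype.ext
    ext i j
    have := congrArg (fun M : SpecialLinearGroup (Fin 3) K => M.1 i j) hAB
    simp only [SpecialLinearGroup.map_apply_coe, RingHom.mapMatrix_apply, Matrix.map_apply] at this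
    exact e₂.injective this
  -- nontriviality
  obtain ⟨g₀, hg₀⟩ : ∃ g₀ : SpecialLinearGroup (Fin 2) (ZMod 7), am g₀ = amat 1 1 0 1 := by
    refine ⟨⟨!![1, 1; 0, 1], by simp [Matrix.det_fin_two]⟩, ?_⟩
    simp [am]
  obtain ⟨x₀, hx₀⟩ : ∃ x₀ : SpecialLinearGroup (Fin 2) F,
      SpecialLinearGroup.map (e₁.symm : F →+* ZMod 7) x₀ = g₀ := by
    refine ⟨SpecialLinearGroup.map (e₁ : ZMod 7 →+* F) g₀, ?_⟩
    apply Subtype.ext
    ext i j
    simp [SpecialLinearGroup.map_apply_coe]
  have hne : f x₀ ≠ 1 := by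
    rw [hfapp, hx₀]
    intro h1
    have h2 : Psi g₀ = 1 := hmapinj (by rw [h1, map_one])
    have h3 : am g₀ = 1 := congrArg Subtype.val h2
    rw [hg₀] at h3
    exact amat_ne h3
  -- kernel
  have h4 : 4 ≤ Nat.card F := by
    rw [Nat.card_eq_fintype_card, hF]
    norm_num
  have hsimple : IsSimpleGroup (Matrix.ProjectiveSpecialLinearGroup (Fin 2) F) :=
    Matrix.ProjectiveSpecialLinearGroup.rank_two_simple h4
  have hperf : commutator (SpecialLinearGroup (Fin 2) F) = ⊤ := by
    have hc0 : e₁ 2 ≠ 0 := by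
      rw [Ne, map_eq_zero_iff e₁ e₁.injective]
      decide
    have hc1 : (e₁ 2) ^ 2 ≠ 1 := by
      rw [← map_pow, Ne, map_eq_one_iff e₁ e₁.injective]
      decide
    exact Matrix.SL2.commutator_eq_top hc0 hc1
  have hker : f.ker ≤ Subgroup.center (SpecialLinearGroup (Fin 2) F) :=
    Cfsg.Agent.Lib.Helper3.ker_le_center_of_simple f hsimple hperf x₀ hne
  have hcen : Subgroup.center (SpecialLinearGroup (Fin 2) F) ≤ f.ker := by
    intro z hz
    rw [Matrix.SpecialLinearGroup.mem_center_iff] at hz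
    obtain ⟨r, hr, hrz⟩ := hz
    rw [MonoidHom.mem_ker, hfapp]
    have h1 : Psi (SpecialLinearGroup.map (e₁.symm : F →+* ZMod 7) z) = 1 := by
      apply Subtype.ext
      show am _ = 1
      have h2 : am (SpecialLinearGroup.map (e₁.symm : F →+* ZMod 7) z)
          = amat (e₁.symm r) 0 0 (e₁.symm r) := by
        simp [am, SpecialLinearGroup.map_apply_coe, ← hrz]
      rw [h2]
      apply amat_scalar
      rw [← map_pow]
      simp only [Fintype.card_fin] at hr
      rw [hr, map_one]
    rw [h1, map_one]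
  have hZ3 := center_sl3_bot hK
  -- the induced map
  obtain ⟨φ, hφ⟩ : ∃ φ : Matrix.ProjectiveSpecialLinearGroup (Fin 2) F →*
      Matrix.ProjectiveSpecialLinearGroup (Fin 3) K,
      ∀ x, φ (QuotientGroup.mk x) = QuotientGroup.mk (f x) := by
    refine ⟨QuotientGroup.lift _ ((QuotientGroup.mk' _).comp f) ?_, fun x => rfl⟩
    intro z hz
    rw [MonoidHom.mem_ker, MonoidHom.comp_apply, MonoidHom.mem_ker.1 (hcen hz), map_one]
  have hinj : Function.Injective φ := by
    rw [injective_iff_map_eq_one]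
    intro y hy
    obtain ⟨x, rfl⟩ := QuotientGroup.mk_surjective y
    rw [hφ, QuotientGroup.eq_one_iff, hZ3, Subgroup.mem_bot] at hy
    rw [QuotientGroup.eq_one_iff]
    exact hker (MonoidHom.mem_ker.2 hy)
  have hc2 : Nat.card (Matrix.ProjectiveSpecialLinearGroup (Fin 2) F) = 168 := by
    have h1 := Cfsg.Agent.S0243.result hF 2 (by norm_num)
    rw [Fin.prod_univ_two] at h1
    simp only [Fin.val_zero, pow_zero, Fin.val_one, pow_one] at h1
    norm_num at h1
    omega
  have hc3 : Nat.card (Matrix.ProjectiveSpecialLinearGroup (Fin 3) K) = 168 := by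
    have h1 := Cfsg.Agent.S0243.result hK 3 (by norm_num)
    rw [Fin.prod_univ_three] at h1
    simp only [Fin.val_zero, pow_zero, Fin.val_one, pow_one, Fin.val_two] at h1
    norm_num at h1
    omega
  have hbij : Function.Bijective φ :=
    hinj.bijective_of_nat_card_le (by rw [hc2, hc3])
  exact ⟨MulEquiv.ofBijective φ hbij⟩

/-- PSL_2(7) is isomorphic to PSL_3(2). -/
theorem result {F K : Type*} [Field F] [Fintype F] [Field K] [Fintype K] (hF : Fintype.card F = 7) (hK : Fintype.card K = 2) : Nonempty (Matrix.ProjectiveSpecialLinearGroup (Fin 2) F ≃* Matrix.ProjectiveSpecialLinearGroup (Fin 3) K) := by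
  exact main hF hK

end Cfsg.Agent.S0255
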