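import Cfsg.Statements.S0257
import Mathlib
import Cfsg.Agent.S0261
import Cfsg.Agent.Lib.Helper3.SLn
import Cfsg.Agent.Lib.Helper3.SL2Sylow
import Cfsg.Agent.Lib.Helper3.SylowCard

set_option autoImplicit false
open Cfsg

namespace Cfsg.Agent.S0257

/-- SL_2(3) has a normal subgroup of index 3 isomorphic to the quaternion group of order 8, and its centre has order 2. -/
theorem result {F : Type*} [Field F] [Fintype F] (hF : Fintype.card F = 3) : (∃ Q : Subgroup (Matrix.SpecialLinearGroup (Fin 2) F), Q.Normal ∧ Q.index = 3 ∧ Nonempty (Q ≃* QuaternionGroup 2)) ∧ Nat.card (Subgroup.center (Matrix.SpecialLinearGroup (Fin 2) F)) = 2 := by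
  classical
  have hG : Nat.card (Matrix.SpecialLinearGroup (Fin 2) F) = 2 ^ 3 * 3 := by
    rw [Cfsg.Agent.Lib.Helper3.card_SL2_eq, hF]
    norm_num
  have : Fact (Nat.Prime 2) := ⟨Nat.prime_two⟩
  obtain ⟨P⟩ : Nonempty (Sylow 2 (Matrix.SpecialLinearGroup (Fin 2) F)) := inferInstance
  have hP8 : Nat.card P = 2 ^ 3 := Cfsg.Agent.Lib.Helper3.sylow_card_of P hG (by norm_num)
  obtain ⟨k, hk, ⟨e⟩⟩ := Cfsg.Agent.S0261.result (F := F) (by rw [hF]; decide) P
  have hk1 : k = 1 := by
    have : NeZero (2 ^ k) := ⟨by positivity⟩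
    have h1 := Nat.card_congr e.toEquiv
    rw [hP8, Nat.card_eq_fintype_card, QuaternionGroup.card] at h1
    have h2 : 2 ^ k = 2 ^ 1 := by omega
    exact Nat.pow_right_injective (le_refl 2) h2
  subst hk1
  have h3F : (3 : F) = 0 := by
    have := Nat.cast_card_eq_zero F
    rw [hF] at this
    exact_mod_cast this
  have hψ : ∀ ψ : Matrix.SpecialLinearGroup (Fin 2) F →* ℤˣ, ∀ g, ψ g = 1 := by
    intro ψ g
    refine Cfsg.Agent.Lib.Helper3.sl_transvection_induction (fun g => ψ g = 1) ?_ ?_ g
    · intro i j hij a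
      have h3 : (Matrix.SpecialLinearGroup.transvection hij a) ^ 3 = 1 := by
        apply Subtype.ext
        rw [Matrix.SpecialLinearGroup.coe_pow, Matrix.SpecialLinearGroup.transvection_coe]
        change (Matrix.transvection i j a) ^ 3 = 1
        rw [pow_succ, pow_succ, pow_one, Matrix.transvection_mul_transvection_same (h := hij),
          Matrix.transvection_mul_transvection_same (h := hij)]
        have h0 : a + a + a = 0 := by linear_combination a * h3F
        rw [h0, Matrix.transvection_zero]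
      have h4 : ψ (Matrix.SpecialLinearGroup.transvection hij a) ^ 3 = 1 := by
        rw [← map_pow, h3, map_one]
      have h5 := Int.units_sq (ψ (Matrix.SpecialLinearGroup.transvection hij a))
      calc ψ (Matrix.SpecialLinearGroup.transvection hij a)
          = ψ (Matrix.SpecialLinearGroup.transvection hij a) ^ 3 *
            (ψ (Matrix.SpecialLinearGroup.transvection hij a) ^ 2)⁻¹ := by group
        _ = 1 := by rw [h4, h5]; simp
    · intro A B hA hB
      rw [map_mul, hA, hB, one_mul]
  have hidx : (P : Subgroup (Matrix.SpecialLinearGroup (Fin 2) F)).index = 3 := by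
    have h1 := Subgroup.card_mul_index (P : Subgroup (Matrix.SpecialLinearGroup (Fin 2) F))
    rw [hG] at h1
    have h2 : Nat.card (P : Subgroup (Matrix.SpecialLinearGroup (Fin 2) F)) = 2 ^ 3 := hP8
    rw [h2] at h1
    omega
  have hnorm : (P : Subgroup (Matrix.SpecialLinearGroup (Fin 2) F)).Normal := by
    set φ := MulAction.toPermHom (Matrix.SpecialLinearGroup (Fin 2) F)
      (Matrix.SpecialLinearGroup (Fin 2) F ⧸ (P : Subgroup (Matrix.SpecialLinearGroup (Fin 2) F)))
      with hφ
    have hker : φ.ker = (P : Subgroup (Matrix.SpecialLinearGroup (Fin 2) F)).normalCore :=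
      (Subgroup.normalCore_eq_ker _).symm
    have hrange : φ.range ≤ alternatingGroup
        (Matrix.SpecialLinearGroup (Fin 2) F ⧸ (P : Subgroup (Matrix.SpecialLinearGroup (Fin 2) F))) := by
      rintro _ ⟨g, rfl⟩
      rw [Equiv.Perm.mem_alternatingGroup]
      exact hψ (Equiv.Perm.sign.comp φ) g
    have hcardX : Nat.card
        (Matrix.SpecialLinearGroup (Fin 2) F ⧸ (P : Subgroup (Matrix.SpecialLinearGroup (Fin 2) F))) = 3 :=
      hidx
    have : Nontrivial
        (Matrix.SpecialLinearGroup (Fin 2) F ⧸ (P : Subgroup (Matrix.SpecialLinearGroup (Fin 2) F))) := by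
      rw [← Finite.one_lt_card_iff_nontrivial, hcardX]; norm_num
    have hA3 : Nat.card (alternatingGroup
        (Matrix.SpecialLinearGroup (Fin 2) F ⧸ (P : Subgroup (Matrix.SpecialLinearGroup (Fin 2) F)))) = 3 := by
      rw [nat_card_alternatingGroup, hcardX]; decide
    have h1 : Nat.card φ.range ≤ 3 := (Subgroup.card_le_of_le hrange).trans_eq hA3
    have h2 := Subgroup.card_mul_index φ.ker
    rw [Subgroup.index_ker, hG] at h2
    have h3 : (P : Subgroup (Matrix.SpecialLinearGroup (Fin 2) F)).normalCore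
        = (P : Subgroup (Matrix.SpecialLinearGroup (Fin 2) F)) := by
      apply Subgroup.eq_of_le_of_card_ge (Subgroup.normalCore_le _)
      rw [← hker]
      have h4 : Nat.card (P : Subgroup (Matrix.SpecialLinearGroup (Fin 2) F)) = 2 ^ 3 := hP8
      rw [h4]
      nlinarith
    rw [← h3]
    exact Subgroup.normalCore_normal _
  refine ⟨⟨P, hnorm, hidx, ⟨e⟩⟩, ?_⟩
  rw [Nat.card_congr (Matrix.SpecialLinearGroup.center_equiv_rootsOfUnity (n := Fin 2) (R := F)).toEquiv]
  have h2 : rootsOfUnity (max (Fintype.card (Fin 2)) 1) F = (powMonoidHom 2 : Fˣ →* Fˣ).ker := by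
    ext x
    rw [mem_rootsOfUnity, MonoidHom.mem_ker, powMonoidHom_apply, Fintype.card_fin, max_eq_left (by omega)]
  rw [h2, IsCyclic.card_powMonoidHom_ker, Nat.card_eq_fintype_card, Fintype.card_units, hF]
  decide

end Cfsg.Agent.S0257
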