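import Cfsg.Statements.S0258
import Mathlib
import Cfsg.Agent.Lib.Helper3.GL2Sylow

set_option autoImplicit false
open Cfsg

namespace Cfsg.Agent.S0258

/-- GL_2(q), q a power of the prime p, has exactly q + 1 Sylow p-subgroups. -/
theorem result {F : Type*} [Field F] [Fintype F] {q : ℕ} (hF : Fintype.card F = q) (p : ℕ) [Fact p.Prime] [CharP F p] : Nat.card (Sylow p (Matrix.GeneralLinearGroup (Fin 2) F)) = q + 1 := by
  subst hF
  classical
  obtain ⟨P₀, hP₀⟩ := Cfsg.Agent.Lib.Helper3.exists_sylow_eq_uGL (F := F) p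
  have h2 : Nat.card (Sylow p (GL (Fin 2) F)) = (Subgroup.normalizer ((P₀ : Subgroup (GL (Fin 2) F)) : Set (GL (Fin 2) F))).index := Sylow.card_eq_index_normalizer P₀
  have h4 := Subgroup.card_mul_index (Subgroup.normalizer ((P₀ : Subgroup (GL (Fin 2) F)) : Set (GL (Fin 2) F)))
  rw [← h2, hP₀, Cfsg.Agent.Lib.Helper3.card_normalizer_uGL, Matrix.card_GL_field 2, Fin.prod_univ_two] at h4
  simp only [Fin.val_zero, pow_zero, Fin.val_one, pow_one] at h4
  have hq : 2 ≤ Fintype.card F := Fintype.one_lt_card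
  obtain ⟨k, hk⟩ : ∃ k, Fintype.card F = k + 2 := ⟨Fintype.card F - 2, by omega⟩
  rw [hk] at h4 ⊢
  have e1 : (k + 2) ^ 2 - 1 = (k + 1) * (k + 3) := Nat.sub_eq_of_eq_add (by ring)
  have e2 : (k + 2) ^ 2 - (k + 2) = (k + 2) * (k + 1) := Nat.sub_eq_of_eq_add (by ring)
  have e3 : k + 2 - 1 = k + 1 := rfl
  rw [e1, e2, e3] at h4
  have hpos : 0 < (k + 2) * (k + 1) ^ 2 := by positivity
  have h5 : (k + 2) * (k + 1) ^ 2 * Nat.card (Sylow p (GL (Fin 2) F)) = (k + 2) * (k + 1) ^ 2 * (k + 2 + 1) := by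
    rw [h4]
    ring
  exact Nat.eq_of_mul_eq_mul_left hpos h5

end Cfsg.Agent.S0258
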