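import Cfsg.Statements.S0259
import Mathlib
import Cfsg.Agent.Lib.Helper3.GL2Sylow

set_option autoImplicit false
open Cfsg

namespace Cfsg.Agent.S0259

/-- Distinct Sylow p-subgroups of GL_2(q), p the characteristic, intersect trivially. -/
theorem result {F : Type*} [Field F] [Fintype F] (p : ℕ) [Fact p.Prime] [CharP F p] (P Q : Sylow p (Matrix.GeneralLinearGroup (Fin 2) F)) (h : P ≠ Q) : (P : Subgroup (Matrix.GeneralLinearGroup (Fin 2) F)) ⊓ (Q : Subgroup (Matrix.GeneralLinearGroup (Fin 2) F)) = ⊥ := by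
  classical
  obtain ⟨P₀, hP₀⟩ := Cfsg.Agent.Lib.Helper3.exists_sylow_eq_uGL (F := F) p
  obtain ⟨g₁, rfl⟩ := MulAction.exists_smul_eq (GL (Fin 2) F) P₀ P
  obtain ⟨g₂, rfl⟩ := MulAction.exists_smul_eq (GL (Fin 2) F) P₀ Q
  rw [eq_bot_iff]
  rintro x ⟨hx1, hx2⟩
  rw [Subgroup.mem_bot]
  by_contra hx
  have m1 : g₁⁻¹ * x * g₁ ∈ P₀ := by
    have : g₁ * (g₁⁻¹ * x * g₁) * g₁⁻¹ ∈ g₁ • P₀ := by
      have e : g₁ * (g₁⁻¹ * x * g₁) * g₁⁻¹ = x := by group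
      rw [e]
      exact hx1
    exact Cfsg.Agent.Lib.Helper3.mem_conj_sylow.mp this
  have m2 : g₂⁻¹ * x * g₂ ∈ P₀ := by
    have : g₂ * (g₂⁻¹ * x * g₂) * g₂⁻¹ ∈ g₂ • P₀ := by
      have e : g₂ * (g₂⁻¹ * x * g₂) * g₂⁻¹ = x := by group
      rw [e]
      exact hx2
    exact Cfsg.Agent.Lib.Helper3.mem_conj_sylow.mp this
  have m1' : g₁⁻¹ * x * g₁ ∈ (Cfsg.Agent.Lib.Helper3.uGL : Multiplicative F →* GL (Fin 2) F).range := by
    rw [← hP₀]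
    exact m1
  have m2' : g₂⁻¹ * x * g₂ ∈ (Cfsg.Agent.Lib.Helper3.uGL : Multiplicative F →* GL (Fin 2) F).range := by
    rw [← hP₀]
    exact m2
  obtain ⟨s, hs⟩ := m1'
  obtain ⟨t, ht⟩ := m2'
  have hs0 : Multiplicative.toAdd s ≠ 0 := by
    intro h0
    have hs1 : s = 1 := by
      rw [← ofAdd_toAdd s, h0]
      rfl
    rw [hs1, map_one] at hs
    apply hx
    have e : x = g₁ * (g₁⁻¹ * x * g₁) * g₁⁻¹ := by group
    rw [e, ← hs]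
    group
  have hk : Cfsg.Agent.Lib.Helper3.uGL (Multiplicative.ofAdd (Multiplicative.toAdd s)) * (g₁⁻¹ * g₂) =
      (g₁⁻¹ * g₂) * Cfsg.Agent.Lib.Helper3.uGL (Multiplicative.ofAdd (Multiplicative.toAdd t)) := by
    rw [ofAdd_toAdd, ofAdd_toAdd, hs, ht]
    group
  have h10 := Cfsg.Agent.Lib.Helper3.uGL_mul_eq_mul_uGL hk hs0
  have hn : g₁⁻¹ * g₂ ∈ Subgroup.normalizer ((P₀ : Subgroup (GL (Fin 2) F)) : Set (GL (Fin 2) F)) := by
    rw [hP₀]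
    exact Cfsg.Agent.Lib.Helper3.mem_normalizer_uGL.mpr h10
  have hfix : (g₁⁻¹ * g₂) • P₀ = P₀ := Sylow.smul_eq_iff_mem_normalizer.mpr hn
  apply h
  calc g₁ • P₀ = g₁ • ((g₁⁻¹ * g₂) • P₀) := by rw [hfix]
    _ = g₂ • P₀ := by
      rw [← mul_smul]
      congr 1
      group

end Cfsg.Agent.S0259
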