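import Cfsg.Statements.S0260
import Mathlib
import Cfsg.Agent.Lib.Helper3.SL2Sylow

set_option autoImplicit false
open Cfsg

namespace Cfsg.Agent.S0260

/-- Any two distinct Sylow p-subgroups of SL_2(q), p the characteristic, generate SL_2(q). -/
theorem result {F : Type*} [Field F] [Fintype F] (p : ℕ) [Fact p.Prime] [CharP F p] (P Q : Sylow p (Matrix.SpecialLinearGroup (Fin 2) F)) (h : P ≠ Q) : (P : Subgroup (Matrix.SpecialLinearGroup (Fin 2) F)) ⊔ (Q : Subgroup (Matrix.SpecialLinearGroup (Fin 2) F)) = ⊤ := by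
  classical
  obtain ⟨P₀, hP₀⟩ := Cfsg.Agent.Lib.Helper3.exists_sylow_eq_uSL (F := F) p
  obtain ⟨g₁, rfl⟩ := MulAction.exists_smul_eq (Matrix.SpecialLinearGroup (Fin 2) F) P₀ P
  obtain ⟨g₂, rfl⟩ := MulAction.exists_smul_eq (Matrix.SpecialLinearGroup (Fin 2) F) P₀ Q
  have hmem : ∀ x : F, Cfsg.Agent.Lib.Helper3.uSL (Multiplicative.ofAdd x) ∈ P₀ := by
    intro x
    have : Cfsg.Agent.Lib.Helper3.uSL (Multiplicative.ofAdd x) ∈ (P₀ : Subgroup (Matrix.SpecialLinearGroup (Fin 2) F)) := by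
      rw [hP₀]
      exact ⟨_, rfl⟩
    exact this
  have hc : ((g₁⁻¹ * g₂ : Matrix.SpecialLinearGroup (Fin 2) F) : Matrix (Fin 2) (Fin 2) F) 1 0 ≠ 0 := by
    intro h10
    have hn : g₁⁻¹ * g₂ ∈ Subgroup.normalizer ((P₀ : Subgroup (Matrix.SpecialLinearGroup (Fin 2) F)) : Set (Matrix.SpecialLinearGroup (Fin 2) F)) := by
      rw [hP₀]
      exact Cfsg.Agent.Lib.Helper3.mem_normalizer_uSL_of h10
    have hfix : (g₁⁻¹ * g₂) • P₀ = P₀ := Sylow.smul_eq_iff_mem_normalizer.mpr hn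
    apply h
    calc g₁ • P₀ = g₁ • ((g₁⁻¹ * g₂) • P₀) := by rw [hfix]
      _ = g₂ • P₀ := by
        rw [← mul_smul]
        congr 1
        group
  obtain ⟨K, hK⟩ : ∃ K : Subgroup (Matrix.SpecialLinearGroup (Fin 2) F), K = ((g₁ • P₀ : Sylow p (Matrix.SpecialLinearGroup (Fin 2) F)) : Subgroup (Matrix.SpecialLinearGroup (Fin 2) F)) ⊔ ((g₂ • P₀ : Sylow p (Matrix.SpecialLinearGroup (Fin 2) F)) : Subgroup (Matrix.SpecialLinearGroup (Fin 2) F)) := ⟨_, rfl⟩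
  rw [← hK]
  have hP : ∀ x : F, g₁ * Cfsg.Agent.Lib.Helper3.uSL (Multiplicative.ofAdd x) * g₁⁻¹ ∈ K := by
    intro x
    rw [hK]
    exact Subgroup.mem_sup_left (Cfsg.Agent.Lib.Helper3.mem_conj_sylow.mpr (hmem x))
  have hQ : ∀ x : F, g₂ * Cfsg.Agent.Lib.Helper3.uSL (Multiplicative.ofAdd x) * g₂⁻¹ ∈ K := by
    intro x
    rw [hK]
    exact Subgroup.mem_sup_right (Cfsg.Agent.Lib.Helper3.mem_conj_sylow.mpr (hmem x))
  have key : ∀ B : Matrix.SpecialLinearGroup (Fin 2) F, g₁ * B * g₁⁻¹ ∈ K := by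
    intro B
    refine Matrix.SL2.transvection_induction (fun B => g₁ * B * g₁⁻¹ ∈ K) ?_ ?_ B
    · intro i j hij c
      fin_cases i
      · obtain rfl : j = 1 := by fin_cases j <;> tauto
        change g₁ * Matrix.SpecialLinearGroup.transvection (zero_ne_one : (0 : Fin 2) ≠ 1) c * g₁⁻¹ ∈ K
        rw [Cfsg.Agent.Lib.Helper3.transvection_zero_one_eq]
        exact hP c
      · obtain rfl : j = 0 := by fin_cases j <;> tauto
        change g₁ * Matrix.SpecialLinearGroup.transvection (one_ne_zero : (1 : Fin 2) ≠ 0) c * g₁⁻¹ ∈ K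
        have hl := Cfsg.Agent.Lib.Helper3.lower_transvection_mul (g₁⁻¹ * g₂) hc c
        obtain ⟨u₀, hu₀⟩ : ∃ u₀ : F, u₀ = -((g₁⁻¹ * g₂ : Matrix.SpecialLinearGroup (Fin 2) F) : Matrix (Fin 2) (Fin 2) F) 0 0 / ((g₁⁻¹ * g₂ : Matrix.SpecialLinearGroup (Fin 2) F) : Matrix (Fin 2) (Fin 2) F) 1 0 := ⟨_, rfl⟩
        obtain ⟨y, hy⟩ : ∃ y : F, y = -c / ((g₁⁻¹ * g₂ : Matrix.SpecialLinearGroup (Fin 2) F) : Matrix (Fin 2) (Fin 2) F) 1 0 ^ 2 := ⟨_, rfl⟩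
        rw [← hu₀, ← hy] at hl
        have hT : Matrix.SpecialLinearGroup.transvection (one_ne_zero : (1 : Fin 2) ≠ 0) c =
            Cfsg.Agent.Lib.Helper3.uSL (Multiplicative.ofAdd u₀) * (g₁⁻¹ * g₂) * Cfsg.Agent.Lib.Helper3.uSL (Multiplicative.ofAdd y) * (Cfsg.Agent.Lib.Helper3.uSL (Multiplicative.ofAdd u₀) * (g₁⁻¹ * g₂))⁻¹ := by
          rw [eq_mul_inv_iff_mul_eq]
          exact hl
        have e : g₁ * Matrix.SpecialLinearGroup.transvection (one_ne_zero : (1 : Fin 2) ≠ 0) c * g₁⁻¹ =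
            (g₁ * Cfsg.Agent.Lib.Helper3.uSL (Multiplicative.ofAdd u₀) * g₁⁻¹) * (g₂ * Cfsg.Agent.Lib.Helper3.uSL (Multiplicative.ofAdd y) * g₂⁻¹) * (g₁ * Cfsg.Agent.Lib.Helper3.uSL (Multiplicative.ofAdd u₀) * g₁⁻¹)⁻¹ := by
          rw [hT]
          group
        rw [e]
        exact mul_mem (mul_mem (hP u₀) (hQ y)) (inv_mem (hP u₀))
    · intro A B hA hB
      have e : g₁ * (A * B) * g₁⁻¹ = (g₁ * A * g₁⁻¹) * (g₁ * B * g₁⁻¹) := by group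
      rw [e]
      exact mul_mem hA hB
  rw [eq_top_iff]
  intro A _
  have e : A = g₁ * (g₁⁻¹ * A * g₁) * g₁⁻¹ := by group
  rw [e]
  exact key _

end Cfsg.Agent.S0260
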