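import Cfsg.Statements.S0262
import Mathlib
import Cfsg.Agent.Lib.Helper3.SL2Tori

set_option autoImplicit false
open Cfsg

namespace Cfsg.Agent.S0262

/-- For an odd prime r different from the characteristic, the Sylow r-subgroups of SL_2(q) are cyclic. -/
theorem result {F : Type*} [Field F] [Fintype F] (p : ℕ) [Fact p.Prime] [CharP F p] (r : ℕ) [Fact r.Prime] (hr : r ≠ 2) (hrp : r ≠ p) (R : Sylow r (Matrix.SpecialLinearGroup (Fin 2) F)) : IsCyclic (R : Subgroup (Matrix.SpecialLinearGroup (Fin 2) F)) := by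
  classical
  obtain ⟨f, hp, hq⟩ := FiniteField.card F p
  have hrprime : r.Prime := Fact.out
  have hq2 : 2 ≤ Fintype.card F := Fintype.one_lt_card
  have hSL := Cfsg.Agent.Lib.Helper3.card_SL2_eq (F := F)
  have hrq : ¬ r ∣ Fintype.card F := by
    intro h
    rw [hq] at h
    exact hrp ((Nat.prime_dvd_prime_iff_eq hrprime hp).mp (hrprime.dvd_of_dvd_pow h))
  have e1 : Fintype.card F ^ 2 - 1 = (Fintype.card F - 1) * (Fintype.card F + 1) := by
    obtain ⟨k, hk⟩ : ∃ k, Fintype.card F = k + 1 := ⟨Fintype.card F - 1, by omega⟩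
    rw [hk, Nat.add_sub_cancel]
    exact Nat.sub_eq_of_eq_add (by ring)
  by_cases hr1 : r ∣ Fintype.card F - 1
  · have hcyc := Cfsg.Agent.Lib.Helper3.isCyclic_range_dSL (F := F)
    refine Cfsg.Agent.Lib.Helper3.sylow_isCyclic_of_cyclic_subgroup
      (Cfsg.Agent.Lib.Helper3.dSL : Fˣ →* Matrix.SpecialLinearGroup (Fin 2) F).range ?_ R
    intro hdvd
    have h1 := Subgroup.card_mul_index (Cfsg.Agent.Lib.Helper3.dSL : Fˣ →* Matrix.SpecialLinearGroup (Fin 2) F).range
    rw [Cfsg.Agent.Lib.Helper3.card_range_dSL, hSL, e1] at h1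
    have hidx : (Cfsg.Agent.Lib.Helper3.dSL : Fˣ →* Matrix.SpecialLinearGroup (Fin 2) F).range.index =
        Fintype.card F * (Fintype.card F + 1) := by
      have hpos : 0 < Fintype.card F - 1 := by omega
      apply Nat.eq_of_mul_eq_mul_left hpos
      rw [h1]
      ring
    rw [hidx] at hdvd
    rcases (Nat.Prime.dvd_mul hrprime).mp hdvd with h | h
    · exact hrq h
    · have h2 : r ∣ 2 := by
        have h3 := Nat.dvd_sub h hr1
        have h4 : Fintype.card F + 1 - (Fintype.card F - 1) = 2 := by omega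
        rwa [h4] at h3
      exact hr ((Nat.prime_dvd_prime_iff_eq hrprime Nat.prime_two).mp h2)
  · obtain ⟨t, ht⟩ := Cfsg.Agent.Lib.Helper3.exists_aniso (F := F)
    have hcyc := Cfsg.Agent.Lib.Helper3.isCyclic_centralizer_comp ht
    obtain ⟨m, hm1, hm2⟩ := Cfsg.Agent.Lib.Helper3.card_centralizer_comp_mul ht
    refine Cfsg.Agent.Lib.Helper3.sylow_isCyclic_of_cyclic_subgroup
      (Subgroup.centralizer ({Cfsg.Agent.Lib.Helper3.compSL t} : Set (Matrix.SpecialLinearGroup (Fin 2) F))) ?_ R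
    intro hdvd
    have h1 := Subgroup.card_mul_index (Subgroup.centralizer ({Cfsg.Agent.Lib.Helper3.compSL t} : Set (Matrix.SpecialLinearGroup (Fin 2) F)))
    rw [hSL, ← hm2] at h1
    have hKpos : 0 < Nat.card (Subgroup.centralizer ({Cfsg.Agent.Lib.Helper3.compSL t} : Set (Matrix.SpecialLinearGroup (Fin 2) F))) := Nat.card_pos
    have hidx : (Subgroup.centralizer ({Cfsg.Agent.Lib.Helper3.compSL t} : Set (Matrix.SpecialLinearGroup (Fin 2) F))).index =
        Fintype.card F * m := by
      apply Nat.eq_of_mul_eq_mul_left hKpos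
      rw [h1]
      ring
    rw [hidx] at hdvd
    rcases (Nat.Prime.dvd_mul hrprime).mp hdvd with h | h
    · exact hrq h
    · exact hr1 (h.trans hm1)

end Cfsg.Agent.S0262
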