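import Cfsg.Statements.S0264
import Mathlib
import Cfsg.Agent.Lib.Helper3.SLn

set_option autoImplicit false
open Cfsg

namespace Cfsg.Agent.S0264

open Matrix Matrix.SpecialLinearGroup in
open scoped commutatorElement in
theorem gl_transvection_mem_commutator {ι : Type*} [Fintype ι] [DecidableEq ι] {F : Type*} [Field F]
    {a : F} (ha0 : a ≠ 0) (ha1 : a ≠ 1) {i j : ι} (hij : i ≠ j) (c : F) :
    Matrix.SpecialLinearGroup.toGL (SpecialLinearGroup.transvection hij c) ∈ commutator (GL ι F) := by
  set d : ι → F := fun k => if k = i then a else 1 with hd
  set d' : ι → F := fun k => if k = i then a⁻¹ else 1 with hd'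
  have hdd' : ∀ k, d k * d' k = 1 := by
    intro k
    simp only [hd, hd']
    split_ifs
    · exact mul_inv_cancel₀ ha0
    · exact mul_one 1
  have h1 : diagonal d * diagonal d' = 1 := by
    rw [diagonal_mul_diagonal, ← diagonal_one]
    congr 1
    funext k
    exact hdd' k
  have h2 : diagonal d' * diagonal d = 1 := by
    rw [diagonal_mul_diagonal, ← diagonal_one]
    congr 1
    funext k
    rw [mul_comm]
    exact hdd' k
  set D : GL ι F := ⟨diagonal d, diagonal d', h1, h2⟩ with hD
  have ha1' : a - 1 ≠ 0 := sub_ne_zero.mpr ha1
  have key : ⁅D, Matrix.SpecialLinearGroup.toGL (SpecialLinearGroup.transvection hij (c / (a - 1)))⁆ =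
      Matrix.SpecialLinearGroup.toGL (SpecialLinearGroup.transvection hij c) := by
    rw [commutatorElement_def, ← map_inv, transvection_inv]
    apply Units.ext
    simp only [Units.val_mul, Matrix.SpecialLinearGroup.coe_GL_coe_matrix, transvection_coe]
    have hDinv : ((D⁻¹ : GL ι F) : Matrix ι ι F) = diagonal d' := rfl
    have hDval : (D : Matrix ι ι F) = diagonal d := rfl
    rw [hDinv, hDval]
    have e1 : diagonal d * (1 + single i j (c / (a - 1))) * diagonal d' = 1 + single i j (a * (c / (a - 1))) := by
      ext r s
      simp only [Matrix.mul_diagonal, Matrix.diagonal_mul, Matrix.add_apply, Matrix.one_apply, Matrix.single_apply]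
      by_cases hrs : r = s
      · subst hrs
        have : ¬ (i = r ∧ j = r) := fun h => hij (h.1.trans h.2.symm)
        simp only [this, if_true, if_false, add_zero, mul_one]
        exact hdd' r
      · by_cases hir : i = r
        · subst hir
          by_cases hjs : j = s
          · subst hjs
            have hji : ¬ j = i := fun h => hij h.symm
            simp [hd, hd', hrs, hji]
          · simp [hrs, hjs]
        · simp [hrs, hir]
    rw [e1]
    have e2 : ∀ (x y : F), single i j x * single i j y = 0 :=
      fun x y => single_mul_single_of_ne x i j i hij.symm y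
    simp only [mul_add, add_mul, mul_one, one_mul, e2, add_zero]
    rw [add_assoc, ← Matrix.single_add]
    congr 2
    field_simp
    ring
  rw [← key]
  exact Subgroup.commutator_mem_commutator (Subgroup.mem_top _) (Subgroup.mem_top _)

/-- GL_n(F)' = SL_n(F) (as the kernel of det), for every field F and every n, except n = 2 over the field of two elements. -/
theorem result {F : Type*} [Field F] (n : ℕ) (h : n = 2 → ∃ a : F, a ≠ 0 ∧ a ≠ 1) : commutator (Matrix.GeneralLinearGroup (Fin n) F) = (Matrix.GeneralLinearGroup.det : Matrix.GeneralLinearGroup (Fin n) F →* Fˣ).ker := by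
  classical
  apply le_antisymm
  · exact Abelianization.commutator_subset_ker _
  · intro x hx
    have hx' : x ∈ Set.range (Matrix.SpecialLinearGroup.toGL : Matrix.SpecialLinearGroup (Fin n) F → GL (Fin n) F) := by
      rw [Matrix.SpecialLinearGroup.range_toGL]
      simpa [MonoidHom.mem_ker] using hx
    obtain ⟨A, rfl⟩ := hx'
    by_cases hn3 : 3 ≤ n
    · have hA : A ∈ commutator (Matrix.SpecialLinearGroup (Fin n) F) := by
        rw [Cfsg.Agent.Lib.Helper3.sl_commutator_eq_top (by simpa using hn3)]
        exact Subgroup.mem_top _
      have hle : Subgroup.map (Matrix.SpecialLinearGroup.toGL : Matrix.SpecialLinearGroup (Fin n) F →* GL (Fin n) F) (commutator (Matrix.SpecialLinearGroup (Fin n) F)) ≤ commutator (GL (Fin n) F) := by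
        rw [commutator_def, commutator_def, Subgroup.map_commutator]
        exact Subgroup.commutator_mono le_top le_top
      exact hle (Subgroup.mem_map_of_mem _ hA)
    · by_cases hn2 : n = 2
      · obtain ⟨a, ha0, ha1⟩ := h hn2
        subst hn2
        exact Cfsg.Agent.Lib.Helper3.sl_transvection_induction
          (fun A => Matrix.SpecialLinearGroup.toGL A ∈ commutator (GL (Fin 2) F))
          (fun i j hij c => gl_transvection_mem_commutator ha0 ha1 hij c)
          (fun A B hA hB => by
            show Matrix.SpecialLinearGroup.toGL (A * B) ∈ _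
            rw [map_mul]
            exact mul_mem hA hB) A
      · have hn1 : n ≤ 1 := by omega
        have : Subsingleton (Fin n) := by
          rw [← Fintype.card_le_one_iff_subsingleton]
          simpa using hn1
        rw [Subsingleton.elim A 1, map_one]
        exact one_mem _

end Cfsg.Agent.S0264
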