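import Cfsg.Statements.S0265
import Mathlib
import Cfsg.Agent.S0242

set_option autoImplicit false
open Cfsg

namespace Cfsg.Agent.S0265

/-- |PGL_n(q)| = |SL_n(q)|: GL_n modulo its centre (the q-1 non-zero scalars) has the same order as the kernel of det. -/
theorem result {F : Type*} [Field F] [Fintype F] (n : ℕ) : Nat.card (Matrix.ProjGenLinGroup (Fin n) F) = Nat.card (Matrix.SpecialLinearGroup (Fin n) F) := by
  classical
  rcases Nat.eq_zero_or_pos n with hn | hn
  · subst hn
    have h1 : Subsingleton (Matrix.SpecialLinearGroup (Fin 0) F) := inferInstance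
    have h2 : Subsingleton (Matrix.GeneralLinearGroup (Fin 0) F) := by
      refine ⟨fun a b => ?_⟩
      ext i j
      exact i.elim0
    have h3 : Subsingleton (Matrix.ProjGenLinGroup (Fin 0) F) := by
      refine ⟨fun a b => ?_⟩
      obtain ⟨a, rfl⟩ := Matrix.ProjGenLinGroup.mk_surjective a
      obtain ⟨b, rfl⟩ := Matrix.ProjGenLinGroup.mk_surjective b
      rw [Subsingleton.elim a b]
    rw [Nat.card_unique, Nat.card_unique]
  · have hinj : Function.Injective (Matrix.GeneralLinearGroup.scalar (Fin n) : Fˣ →* GL (Fin n) F) := by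
      intro a b hab
      have := congrArg (fun x : GL (Fin n) F => (x : Matrix (Fin n) (Fin n) F) ⟨0, hn⟩ ⟨0, hn⟩) hab
      simp only [Matrix.GeneralLinearGroup.coe_scalar] at this
      ext
      simpa using this
    have hc : Nat.card (Subgroup.center (GL (Fin n) F)) = Fintype.card F - 1 := by
      rw [Matrix.GeneralLinearGroup.center_eq_range_scalar]
      rw [Nat.card_congr (MonoidHom.ofInjective hinj).toEquiv.symm, Nat.card_eq_fintype_card, Fintype.card_units]
    have h1 := Subgroup.card_eq_card_quotient_mul_card_subgroup (Subgroup.center (GL (Fin n) F))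
    rw [hc, ← Cfsg.Agent.S0242.card_SL_mul' n hn] at h1
    have hq : 0 < Fintype.card F - 1 := by
      have := Fintype.one_lt_card (α := F)
      omega
    exact (Nat.eq_of_mul_eq_mul_right hq h1).symm

end Cfsg.Agent.S0265
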