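import Cfsg.Statements.S0266
import Mathlib

set_option autoImplicit false
open scoped MatrixGroups
open Cfsg

namespace Cfsg.Agent.S0266

open scoped LinearAlgebra.Projectivization MatrixGroups

theorem prop_of_det_zero {F : Type*} [Field F] {u v : Fin 2 → F} (hv : v ≠ 0)
    (h : u 0 * v 1 - u 1 * v 0 = 0) : ∃ a : F, a • v = u := by
  by_cases hv0 : v 0 = 0
  · have hv1 : v 1 ≠ 0 := by
      intro hv1
      apply hv
      funext i
      fin_cases i
      · exact hv0
      · exact hv1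
    rw [hv0, mul_zero, sub_zero] at h
    have hu0 : u 0 = 0 := (mul_eq_zero.mp h).resolve_right hv1
    refine ⟨u 1 / v 1, ?_⟩
    funext i
    fin_cases i
    · simp [hv0, hu0]
    · simp only [Pi.smul_apply, smul_eq_mul]
      show u 1 / v 1 * v 1 = u 1
      field_simp
  · refine ⟨u 0 / v 0, ?_⟩
    funext i
    fin_cases i
    · simp only [Pi.smul_apply, smul_eq_mul]
      show u 0 / v 0 * v 0 = u 0
      field_simp
    · simp only [Pi.smul_apply, smul_eq_mul]
      show u 0 / v 0 * v 1 = u 1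
      field_simp
      linear_combination h

theorem e10_ne {F : Type*} [Field F] : (![1, 0] : Fin 2 → F) ≠ 0 := by
  intro h
  simpa using congrFun h 0

theorem e01_ne {F : Type*} [Field F] : (![0, 1] : Fin 2 → F) ≠ 0 := by
  intro h
  simpa using congrFun h 1

theorem e11_ne {F : Type*} [Field F] : (![1, 1] : Fin 2 → F) ≠ 0 := by
  intro h
  simpa using congrFun h 0

theorem exists_gl_triple {F : Type*} [Field F] (p0 p1 p2 : ℙ F (Fin 2 → F)) (h01 : p0 ≠ p1) (h02 : p0 ≠ p2)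
    (h12 : p1 ≠ p2) :
    ∃ g : GL (Fin 2) F,
      (Matrix.ProjGenLinGroup.mk g : PGL(Fin 2, F)) • Projectivization.mk F ![1, 0] e10_ne = p0 ∧
      (Matrix.ProjGenLinGroup.mk g : PGL(Fin 2, F)) • Projectivization.mk F ![0, 1] e01_ne = p1 ∧
      (Matrix.ProjGenLinGroup.mk g : PGL(Fin 2, F)) • Projectivization.mk F ![1, 1] e11_ne = p2 := by
  induction p0 using Projectivization.ind with | _ u hu => ?_
  induction p1 using Projectivization.ind with | _ v hv => ?_
  induction p2 using Projectivization.ind with | _ w hw => ?_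
  have hD : u 0 * v 1 - u 1 * v 0 ≠ 0 := by
    intro hD
    obtain ⟨a, ha⟩ := prop_of_det_zero hv hD
    exact h01 ((Projectivization.mk_eq_mk_iff' F u v hu hv).mpr ⟨a, ha⟩)
  have hDwv : w 0 * v 1 - w 1 * v 0 ≠ 0 := by
    intro hD
    obtain ⟨a, ha⟩ := prop_of_det_zero hv hD
    exact h12.symm ((Projectivization.mk_eq_mk_iff' F w v hw hv).mpr ⟨a, ha⟩)
  have hDuw : u 0 * w 1 - u 1 * w 0 ≠ 0 := by
    intro hD
    obtain ⟨a, ha⟩ := prop_of_det_zero hw hD
    exact h02 ((Projectivization.mk_eq_mk_iff' F u w hu hw).mpr ⟨a, ha⟩)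
  obtain ⟨α, hα⟩ : ∃ α : F, α = (w 0 * v 1 - w 1 * v 0) / (u 0 * v 1 - u 1 * v 0) := ⟨_, rfl⟩
  obtain ⟨β, hβ⟩ : ∃ β : F, β = (u 0 * w 1 - u 1 * w 0) / (u 0 * v 1 - u 1 * v 0) := ⟨_, rfl⟩
  have hα0 : α ≠ 0 := by
    rw [hα]
    exact div_ne_zero hDwv hD
  have hβ0 : β ≠ 0 := by
    rw [hβ]
    exact div_ne_zero hDuw hD
  have hdet : (!![α * u 0, β * v 0; α * u 1, β * v 1] : Matrix (Fin 2) (Fin 2) F).det ≠ 0 := by
    rw [Matrix.det_fin_two_of]
    have : α * u 0 * (β * v 1) - β * v 0 * (α * u 1) = α * β * (u 0 * v 1 - u 1 * v 0) := by ring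
    rw [this]
    exact mul_ne_zero (mul_ne_zero hα0 hβ0) hD
  obtain ⟨D, hDdef⟩ : ∃ D : F, D = u 0 * v 1 - u 1 * v 0 := ⟨_, rfl⟩
  have hD' : D ≠ 0 := by rwa [hDdef]
  have e0 : α * u 0 + β * v 0 = w 0 := by
    rw [hα, hβ, ← hDdef]
    field_simp
    rw [hDdef]
    ring
  have e1 : α * u 1 + β * v 1 = w 1 := by
    rw [hα, hβ, ← hDdef]
    field_simp
    rw [hDdef]
    ring
  refine ⟨Matrix.GeneralLinearGroup.mkOfDetNeZero _ hdet, ?_, ?_, ?_⟩
  · rw [Projectivization.PGL.mk_smul_mk, Projectivization.mk_eq_mk_iff']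
    refine ⟨α, ?_⟩
    funext i
    fin_cases i <;> simp [Units.smul_def, Matrix.smul_eq_mulVec, Matrix.mulVec, dotProduct, Fin.sum_univ_two]
  · rw [Projectivization.PGL.mk_smul_mk, Projectivization.mk_eq_mk_iff']
    refine ⟨β, ?_⟩
    funext i
    fin_cases i <;> simp [Units.smul_def, Matrix.smul_eq_mulVec, Matrix.mulVec, dotProduct, Fin.sum_univ_two]
  · rw [Projectivization.PGL.mk_smul_mk, Projectivization.mk_eq_mk_iff']
    refine ⟨1, ?_⟩
    funext i
    fin_cases i <;> simp [Units.smul_def, Matrix.smul_eq_mulVec, Matrix.mulVec, dotProduct, Fin.sum_univ_two]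
    · linear_combination -e0
    · linear_combination -e1

theorem fix_std_eq_one {F : Type*} [Field F] (g : PGL(Fin 2, F))
    (h0 : g • Projectivization.mk F (![1, 0] : Fin 2 → F) e10_ne =
      Projectivization.mk F (![1, 0] : Fin 2 → F) e10_ne)
    (h1 : g • Projectivization.mk F (![0, 1] : Fin 2 → F) e01_ne =
      Projectivization.mk F (![0, 1] : Fin 2 → F) e01_ne)
    (h2 : g • Projectivization.mk F (![1, 1] : Fin 2 → F) e11_ne =
      Projectivization.mk F (![1, 1] : Fin 2 → F) e11_ne) :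
    g = 1 := by
  induction g using Matrix.ProjGenLinGroup.induction_on with | mk M => ?_
  rw [Projectivization.PGL.mk_smul_mk, Projectivization.mk_eq_mk_iff'] at h0 h1 h2
  obtain ⟨a, ha⟩ := h0
  obtain ⟨b, hb⟩ := h1
  obtain ⟨c, hc⟩ := h2
  have a0 := congrFun ha 0
  have a1 := congrFun ha 1
  have b0 := congrFun hb 0
  have b1 := congrFun hb 1
  have c0 := congrFun hc 0
  have c1 := congrFun hc 1
  simp [Units.smul_def, Matrix.smul_eq_mulVec, Matrix.mulVec, dotProduct, Fin.sum_univ_two] at a0 a1 b0 b1 c0 c1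
  have hM10 : (M : Matrix (Fin 2) (Fin 2) F) 1 0 = 0 := a1.symm
  have hM01 : (M : Matrix (Fin 2) (Fin 2) F) 0 1 = 0 := b0.symm
  have hM11 : (M : Matrix (Fin 2) (Fin 2) F) 1 1 = (M : Matrix (Fin 2) (Fin 2) F) 0 0 := by
    rw [hM10, zero_add] at c1
    rw [hM01, add_zero] at c0
    rw [← c1, c0]
  have hdet := ((Matrix.isUnit_iff_isUnit_det _).mp M.isUnit).ne_zero
  rw [Matrix.det_fin_two, hM10, mul_zero, sub_zero] at hdet
  have hM00 : (M : Matrix (Fin 2) (Fin 2) F) 0 0 ≠ 0 := left_ne_zero_of_mul hdet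
  rw [Matrix.ProjGenLinGroup.mk_eq_one, Matrix.GeneralLinearGroup.center_eq_range_scalar]
  refine ⟨Units.mk0 _ hM00, ?_⟩
  apply Units.ext
  ext i j
  fin_cases i <;> fin_cases j <;> simp [Matrix.GeneralLinearGroup.coe_scalar, hM10, hM01, hM11]

/-- PGL_2(F) is sharply 3-transitive on the projective line: it is 3-transitive and the stabiliser of three distinct points is trivial. -/
theorem result {F : Type*} [Field F] : MulAction.IsMultiplyPretransitive (Matrix.ProjGenLinGroup (Fin 2) F) (Projectivization F (Fin 2 → F)) 3 ∧ ∀ (g : Matrix.ProjGenLinGroup (Fin 2) F) (a b c : Projectivization F (Fin 2 → F)), a ≠ b → a ≠ c → b ≠ c → g • a = a → g • b = b → g • c = c → g = 1 := by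
  constructor
  · rw [MulAction.isMultiplyPretransitive_iff]
    intro x y
    obtain ⟨gx, hx0, hx1, hx2⟩ := exists_gl_triple (x 0) (x 1) (x 2) (x.injective.ne (by decide))
      (x.injective.ne (by decide)) (x.injective.ne (by decide))
    obtain ⟨gy, hy0, hy1, hy2⟩ := exists_gl_triple (y 0) (y 1) (y 2) (y.injective.ne (by decide))
      (y.injective.ne (by decide)) (y.injective.ne (by decide))
    refine ⟨Matrix.ProjGenLinGroup.mk gy * (Matrix.ProjGenLinGroup.mk gx)⁻¹, ?_⟩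
    ext i
    rw [Function.Embedding.smul_apply]
    fin_cases i
    · show (Matrix.ProjGenLinGroup.mk gy * (Matrix.ProjGenLinGroup.mk gx)⁻¹) • x 0 = y 0
      rw [← hx0, mul_smul, inv_smul_smul, hy0]
    · show (Matrix.ProjGenLinGroup.mk gy * (Matrix.ProjGenLinGroup.mk gx)⁻¹) • x 1 = y 1
      rw [← hx1, mul_smul, inv_smul_smul, hy1]
    · show (Matrix.ProjGenLinGroup.mk gy * (Matrix.ProjGenLinGroup.mk gx)⁻¹) • x 2 = y 2
      rw [← hx2, mul_smul, inv_smul_smul, hy2]
  · intro g a b c hab hac hbc ha hb hc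
    obtain ⟨h, h0, h1, h2⟩ := exists_gl_triple a b c hab hac hbc
    have key : (Matrix.ProjGenLinGroup.mk h)⁻¹ * g * Matrix.ProjGenLinGroup.mk h = 1 := by
      apply fix_std_eq_one
      · rw [mul_smul, mul_smul, h0, ha, ← h0, inv_smul_smul]
      · rw [mul_smul, mul_smul, h1, hb, ← h1, inv_smul_smul]
      · rw [mul_smul, mul_smul, h2, hc, ← h2, inv_smul_smul]
    calc g = Matrix.ProjGenLinGroup.mk h * ((Matrix.ProjGenLinGroup.mk h)⁻¹ * g * Matrix.ProjGenLinGroup.mk h) * (Matrix.ProjGenLinGroup.mk h)⁻¹ := by group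
      _ = 1 := by
        rw [key]
        group

end Cfsg.Agent.S0266
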