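import Cfsg.Statements.S0267
import Mathlib
import Cfsg.Agent.S0266

set_option autoImplicit false
open Cfsg

namespace Cfsg.Agent.S0267

open scoped LinearAlgebra.Projectivization MatrixGroups

theorem exists_sl_of_gl {F : Type*} [Field F] (hsq : ∀ a : F, IsSquare a) (M : GL (Fin 2) F) :
    ∃ A : Matrix.SpecialLinearGroup (Fin 2) F, ∀ p : ℙ F (Fin 2 → F),
      A • p = (Matrix.ProjGenLinGroup.mk M : PGL(Fin 2, F)) • p := by
  have hdet := ((Matrix.isUnit_iff_isUnit_det _).mp M.isUnit).ne_zero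
  obtain ⟨l, hl⟩ := hsq ((M : Matrix (Fin 2) (Fin 2) F).det)⁻¹
  obtain ⟨A, hA⟩ : ∃ A : Matrix.SpecialLinearGroup (Fin 2) F,
      (A : Matrix (Fin 2) (Fin 2) F) = l • (M : Matrix (Fin 2) (Fin 2) F) :=
    ⟨⟨l • (M : Matrix (Fin 2) (Fin 2) F), by
      rw [Matrix.det_smul, Fintype.card_fin, pow_two, ← hl, inv_mul_cancel₀ hdet]⟩, rfl⟩
  refine ⟨A, ?_⟩
  intro p
  induction p using Projectivization.ind with | _ v hv => ?_
  rw [Projectivization.PGL.mk_smul_mk]
  have h1 : A • Projectivization.mk F v hv =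
      Projectivization.mk F ((A : Matrix (Fin 2) (Fin 2) F).mulVec v)
        ((smul_ne_zero_iff_ne A).mpr hv) := rfl
  rw [h1, Projectivization.mk_eq_mk_iff']
  refine ⟨l, ?_⟩
  rw [hA, Matrix.smul_mulVec]
  rfl

theorem std_ne_01 {F : Type*} [Field F] :
    Projectivization.mk F (![1, 0] : Fin 2 → F) Cfsg.Agent.S0266.e10_ne ≠
      Projectivization.mk F (![0, 1] : Fin 2 → F) Cfsg.Agent.S0266.e01_ne := by
  intro h
  rw [Projectivization.mk_eq_mk_iff'] at h
  obtain ⟨a, ha⟩ := h
  have := congrFun ha 0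
  simp at this

theorem std_ne_0d {F : Type*} [Field F] (d : F) (hd : (![d, 1] : Fin 2 → F) ≠ 0) :
    Projectivization.mk F (![1, 0] : Fin 2 → F) Cfsg.Agent.S0266.e10_ne ≠
      Projectivization.mk F (![d, 1] : Fin 2 → F) hd := by
  intro h
  rw [Projectivization.mk_eq_mk_iff'] at h
  obtain ⟨a, ha⟩ := h
  have h0 := congrFun ha 0
  have h1 := congrFun ha 1
  simp at h0 h1
  rw [h1] at h0
  simp at h0

theorem std_ne_1d {F : Type*} [Field F] (d : F) (hd0 : d ≠ 0) (hd : (![d, 1] : Fin 2 → F) ≠ 0) :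
    Projectivization.mk F (![0, 1] : Fin 2 → F) Cfsg.Agent.S0266.e01_ne ≠
      Projectivization.mk F (![d, 1] : Fin 2 → F) hd := by
  intro h
  rw [Projectivization.mk_eq_mk_iff'] at h
  obtain ⟨a, ha⟩ := h
  have h0 := congrFun ha 0
  have h1 := congrFun ha 1
  simp at h0 h1
  rcases h0 with h0 | h0
  · rw [h0] at h1
    exact zero_ne_one h1
  · exact hd0 h0

theorem d1_ne {F : Type*} [Field F] (d : F) : (![d, 1] : Fin 2 → F) ≠ 0 := by
  intro h
  simpa using congrFun h 1

/-- An embedding of three pairwise distinct points. -/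
def triple {α : Type*} (a b c : α) (hab : a ≠ b) (hac : a ≠ c) (hbc : b ≠ c) : Fin 3 ↪ α :=
  ⟨![a, b, c], by
    intro i j h
    fin_cases i <;> fin_cases j <;> simp at h ⊢
    · exact hab h
    · exact hac h
    · exact hab h.symm
    · exact hbc h
    · exact hac h.symm
    · exact hbc h.symm⟩

/-- SL_2(q) is 3-transitive on the q+1 points of the projective line if and only if q is even. -/
theorem result {F : Type*} [Field F] [Fintype F] : MulAction.IsMultiplyPretransitive (Matrix.SpecialLinearGroup (Fin 2) F) (Projectivization F (Fin 2 → F)) 3 ↔ ringChar F = 2 := by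
  constructor
  · intro h3
    by_contra hchar
    obtain ⟨d, hd⟩ := FiniteField.exists_nonsquare hchar
    have hd0 : d ≠ 0 := by
      rintro rfl
      exact hd ⟨0, by simp⟩
    rw [MulAction.isMultiplyPretransitive_iff] at h3
    obtain ⟨g, hg⟩ := h3
      (triple _ _ _ std_ne_01 (std_ne_0d 1 Cfsg.Agent.S0266.e11_ne)
        (std_ne_1d 1 one_ne_zero Cfsg.Agent.S0266.e11_ne))
      (triple _ _ _ std_ne_01 (std_ne_0d d (d1_ne d)) (std_ne_1d d hd0 (d1_ne d)))
    have g0 := DFunLike.congr_fun hg 0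
    have g1 := DFunLike.congr_fun hg 1
    have g2 := DFunLike.congr_fun hg 2
    rw [Function.Embedding.smul_apply] at g0 g1 g2
    have g0' : Projectivization.mk F ((g : Matrix (Fin 2) (Fin 2) F).mulVec ![1, 0])
        ((smul_ne_zero_iff_ne g).mpr Cfsg.Agent.S0266.e10_ne) =
        Projectivization.mk F (![1, 0] : Fin 2 → F) Cfsg.Agent.S0266.e10_ne := g0
    have g1' : Projectivization.mk F ((g : Matrix (Fin 2) (Fin 2) F).mulVec ![0, 1])
        ((smul_ne_zero_iff_ne g).mpr Cfsg.Agent.S0266.e01_ne) =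
        Projectivization.mk F (![0, 1] : Fin 2 → F) Cfsg.Agent.S0266.e01_ne := g1
    have g2' : Projectivization.mk F ((g : Matrix (Fin 2) (Fin 2) F).mulVec ![1, 1])
        ((smul_ne_zero_iff_ne g).mpr Cfsg.Agent.S0266.e11_ne) =
        Projectivization.mk F (![d, 1] : Fin 2 → F) (d1_ne d) := g2
    rw [Projectivization.mk_eq_mk_iff'] at g0' g1' g2'
    obtain ⟨a, ha⟩ := g0'
    obtain ⟨b, hb⟩ := g1'
    obtain ⟨c, hc⟩ := g2'
    have a1 := congrFun ha 1
    have b0 := congrFun hb 0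
    have c0 := congrFun hc 0
    have c1 := congrFun hc 1
    simp [Matrix.mulVec, dotProduct, Fin.sum_univ_two] at a1 b0 c0 c1
    have hdet := g.det_coe
    rw [Matrix.det_fin_two, ← a1, ← b0] at hdet
    rw [← a1, zero_add] at c1
    rw [← b0, add_zero] at c0
    rw [← c0, ← c1] at hdet
    have hc0 : c ≠ 0 := by
      rintro rfl
      simp at hdet
    apply hd
    refine ⟨c⁻¹, ?_⟩
    field_simp
    linear_combination hdet
  · intro hchar
    have hsq := FiniteField.isSquare_of_char_two hchar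
    rw [MulAction.isMultiplyPretransitive_iff]
    intro x y
    obtain ⟨gx, hx0, hx1, hx2⟩ := Cfsg.Agent.S0266.exists_gl_triple (x 0) (x 1) (x 2) (x.injective.ne (by decide))
      (x.injective.ne (by decide)) (x.injective.ne (by decide))
    obtain ⟨gy, hy0, hy1, hy2⟩ := Cfsg.Agent.S0266.exists_gl_triple (y 0) (y 1) (y 2) (y.injective.ne (by decide))
      (y.injective.ne (by decide)) (y.injective.ne (by decide))
    obtain ⟨Ax, hAx⟩ := exists_sl_of_gl hsq gx
    obtain ⟨Ay, hAy⟩ := exists_sl_of_gl hsq gy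
    refine ⟨Ay * Ax⁻¹, ?_⟩
    ext i
    rw [Function.Embedding.smul_apply]
    fin_cases i
    · show (Ay * Ax⁻¹) • x 0 = y 0
      rw [← hx0, ← hAx, mul_smul, inv_smul_smul, hAy, hy0]
    · show (Ay * Ax⁻¹) • x 1 = y 1
      rw [← hx1, ← hAx, mul_smul, inv_smul_smul, hAy, hy1]
    · show (Ay * Ax⁻¹) • x 2 = y 2
      rw [← hx2, ← hAx, mul_smul, inv_smul_smul, hAy, hy2]

end Cfsg.Agent.S0267
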