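import Cfsg.Statements.S0268
import Mathlib

set_option autoImplicit false
open Cfsg

namespace Cfsg.Agent.S0268

/-- For q odd, -1 is the unique involution of SL_2(q). -/
theorem result {F : Type*} [Field F] [Fintype F] (hF : Odd (Fintype.card F)) (g : Matrix.SpecialLinearGroup (Fin 2) F) (h1 : g ≠ 1) (h2 : g * g = 1) : (g : Matrix (Fin 2) (Fin 2) F) = -1 := by
  have h2ne : (2 : F) ≠ 0 := by
    intro h20
    have hch : ringChar F = 2 := by
      have := (ringChar.spec F 2).mp (by exact_mod_cast h20)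
      have h1 : ringChar F ≠ 1 := CharP.ringChar_ne_one
      exact (Nat.dvd_prime Nat.prime_two).mp this |>.resolve_left h1
    have := FiniteField.even_card_of_char_two hch
    rcases hF with ⟨k, hk⟩
    omega
  have hdet := g.det_coe
  rw [Matrix.det_fin_two] at hdet
  have hmat : (g : Matrix (Fin 2) (Fin 2) F) * (g : Matrix (Fin 2) (Fin 2) F) = 1 := by
    have := congrArg (fun x : Matrix.SpecialLinearGroup (Fin 2) F => (x : Matrix (Fin 2) (Fin 2) F)) h2
    simpa using this
  have e00 := congrFun (congrFun hmat 0) 0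
  have e01 := congrFun (congrFun hmat 0) 1
  have e10 := congrFun (congrFun hmat 1) 0
  have e11 := congrFun (congrFun hmat 1) 1
  simp [Matrix.mul_apply, Fin.sum_univ_two] at e00 e01 e10 e11
  obtain ⟨a, ha⟩ : ∃ a, a = (g : Matrix (Fin 2) (Fin 2) F) 0 0 := ⟨_, rfl⟩
  obtain ⟨b, hb⟩ : ∃ a, a = (g : Matrix (Fin 2) (Fin 2) F) 0 1 := ⟨_, rfl⟩
  obtain ⟨c, hc⟩ : ∃ a, a = (g : Matrix (Fin 2) (Fin 2) F) 1 0 := ⟨_, rfl⟩
  obtain ⟨d, hd⟩ : ∃ a, a = (g : Matrix (Fin 2) (Fin 2) F) 1 1 := ⟨_, rfl⟩
  rw [← ha, ← hb, ← hc, ← hd] at hdet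
  rw [← ha, ← hb, ← hc] at e00
  rw [← ha, ← hb, ← hd] at e01
  rw [← ha, ← hc, ← hd] at e10
  rw [← hb, ← hc, ← hd] at e11
  have hs : a * (a + d) = 2 := by linear_combination e00 + hdet
  have hsne : a + d ≠ 0 := by
    intro h
    rw [h, mul_zero] at hs
    exact h2ne hs.symm
  have hb0 : b = 0 := by
    have : b * (a + d) = 0 := by linear_combination e01
    exact (mul_eq_zero.mp this).resolve_right hsne
  have hc0 : c = 0 := by
    have : c * (a + d) = 0 := by linear_combination e10
    exact (mul_eq_zero.mp this).resolve_right hsne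
  subst hb0 hc0
  have ha2 : a * a = 1 := by linear_combination e00
  have hane : a ≠ 0 := by
    intro h
    rw [h] at ha2
    simp at ha2
  have hda : d = a := by
    have : a * (d - a) = 0 := by linear_combination hdet - ha2
    have := (mul_eq_zero.mp this).resolve_left hane
    linear_combination this
  subst hda
  have hg : (g : Matrix (Fin 2) (Fin 2) F) = !![d, 0; 0, d] := by
    rw [Matrix.eta_fin_two (g : Matrix (Fin 2) (Fin 2) F), ← ha, ← hb, ← hc, ← hd]
  rcases mul_self_eq_one_iff.mp ha2 with h | h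
  · exfalso
    apply h1
    ext i j
    rw [hg, h]
    fin_cases i <;> fin_cases j <;> simp
  · rw [hg, h]
    ext i j
    fin_cases i <;> fin_cases j <;> simp

end Cfsg.Agent.S0268
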