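import Cfsg.Statements.S0269
import Mathlib
import Cfsg.Agent.Lib.Helper3.SpTools
import Cfsg.Agent.S0271

set_option autoImplicit false
open Cfsg

namespace Cfsg.Agent.S0269

open Cfsg.Agent.Lib.Helper3 in
theorem exists_index {F : Type*} [Field F] [Fintype F] (m : ℕ) (hm : 0 < m)
    (h : 3 ≤ m ∨ (m = 2 ∧ 3 ≤ Fintype.card F) ∨ 4 ≤ Fintype.card F) :
    ∃ i0 : Fin m, ∀ c : F, SpUComm m (Matrix.single i0 i0 c) := by
  classical
  by_cases h3 : 3 ≤ m
  · exact ⟨⟨0, by omega⟩, fun c => spUComm_single_of_three m ⟨0, by omega⟩ ⟨1, by omega⟩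
      ⟨2, by omega⟩ (by simp [Fin.ext_iff]) (by simp [Fin.ext_iff]) (by simp [Fin.ext_iff]) c⟩
  by_cases h4 : 4 ≤ Fintype.card F
  · obtain ⟨a, ha⟩ : ∃ a : F, a ∉ ({0, 1, -1} : Finset F) := by
      by_contra hcon
      push Not at hcon
      have h1 : (Finset.univ : Finset F) ⊆ {0, 1, -1} := fun x _ => hcon x
      have h2 := Finset.card_le_card h1
      have h3 : ({0, 1, -1} : Finset F).card ≤ 3 := Finset.card_le_three
      rw [Finset.card_univ] at h2
      omega
    simp only [Finset.mem_insert, Finset.mem_singleton, not_or] at ha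
    have ha2 : a ^ 2 ≠ 1 := by
      intro h
      have : (a - 1) * (a + 1) = 0 := by linear_combination h
      rcases mul_eq_zero.mp this with h | h
      · exact ha.2.1 (sub_eq_zero.mp h)
      · exact ha.2.2 (eq_neg_of_add_eq_zero_left h)
    exact ⟨⟨0, hm⟩, fun c => spUComm_single_of_sq m _ a ha.1 ha2 c⟩
  · have hm2 : m = 2 := by omega
    have hc3 : Fintype.card F = 3 := by omega
    have h2 : (2 : F) ≠ 0 := by
      intro h20
      have hchar : ringChar F = 2 :=
        CharP.ringChar_of_prime_eq_zero Nat.prime_two (by exact_mod_cast h20)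
      have := FiniteField.even_card_iff_char_two.mp hchar
      omega
    subst hm2
    exact ⟨0, fun c => spUComm_single_of_two 2 0 1 (by decide) h2 c⟩

/-- Sp_{2m}(q) is perfect except for Sp_2(2), Sp_2(3) and Sp_4(2): stated as m at least 3, or m = 2 and q at least 3, or q at least 4. -/
theorem result {F : Type*} [Field F] [Fintype F] (m : ℕ) (h : 3 ≤ m ∨ (m = 2 ∧ 3 ≤ Fintype.card F) ∨ 4 ≤ Fintype.card F) : commutator (Matrix.symplecticGroup (Fin m) F) = ⊤ := by
  rw [eq_top_iff, ← Cfsg.Agent.S0765.result m, Subgroup.closure_le]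
  rintro A ⟨w, c, hA⟩
  rw [SetLike.mem_coe]
  by_cases hw : w = 0
  · have : A = 1 := Subtype.ext (by
      rw [hA, hw, Cfsg.Agent.Lib.Helper3.sympTransvection_zero]; rfl)
    rw [this]; exact one_mem _
  · have hm : 0 < m := by
      rcases Nat.eq_zero_or_pos m with h0 | h0
      · subst h0
        exfalso; apply hw; funext x; rcases x with x | x <;> exact x.elim0
      · exact h0
    obtain ⟨i0, hi0⟩ := exists_index m hm h
    obtain ⟨g, hg, hgv⟩ := hi0 c
    rw [← Cfsg.Agent.Lib.Helper3.sympTransvection_single] at hgv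
    have hne : (Pi.single (Sum.inl i0) (1 : F) : Fin m ⊕ Fin m → F) ≠ 0 := by
      intro h0
      have := congrFun h0 (Sum.inl i0)
      simp at this
    obtain ⟨B, hB⟩ := Cfsg.Agent.S0271.result m _ w hne hw
    have hAeq : A = B * g * B⁻¹ := by
      apply Subtype.ext
      rw [Submonoid.coe_mul, Submonoid.coe_mul, hgv,
        Cfsg.Agent.Lib.Helper3.sp_conj_transvection, hB, hA]
    rw [hAeq]
    exact (inferInstance : (commutator _).Normal).conj_mem g hg B

end Cfsg.Agent.S0269
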