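import Cfsg.Statements.S0270
import Mathlib
import Cfsg.Agent.Lib.Helper3.SpIwasawa
import Cfsg.Agent.S0269

set_option autoImplicit false
open Cfsg

namespace Cfsg.Agent.S0270

/-- PSp_{2m}(q) is simple for m at least 2 and (m, q) other than (2, 2). -/
theorem result {F : Type*} [Field F] [Fintype F] (m : ℕ) (hm : 2 ≤ m) (h : m = 2 → 3 ≤ Fintype.card F) : IsSimpleGroup (Cfsg.PSp m F) := by
  have hperf : commutator (Matrix.symplecticGroup (Fin m) F) = ⊤ := by
    apply Cfsg.Agent.S0269.result m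
    by_cases h3 : 3 ≤ m
    · exact Or.inl h3
    · have h2 : m = 2 := by omega
      exact Or.inr (Or.inl ⟨h2, h h2⟩)
  have key := fun (N : Subgroup (Matrix.symplecticGroup (Fin m) F)) (hN : N.Normal) =>
    @Cfsg.Agent.Lib.Helper3.sp_normal_central_or_top m F _ _ (by omega) hperf N hN
  have hnt : Nontrivial (Cfsg.PSp m F) := by
    by_contra hnt
    rw [not_nontrivial_iff_subsingleton] at hnt
    have hcen : Subgroup.center (Matrix.symplecticGroup (Fin m) F) = ⊤ := by
      rw [eq_top_iff]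
      intro g _
      have h1 : (QuotientGroup.mk g : Cfsg.PSp m F) = 1 := Subsingleton.elim _ _
      exact (QuotientGroup.eq_one_iff g).mp h1
    have hbot := (commutator_eq_bot_iff_center_eq_top _).mpr hcen
    rw [hperf] at hbot
    obtain ⟨u, hu⟩ : ∃ u : Matrix.symplecticGroup (Fin m) F,
        (u : Matrix (Fin m ⊕ Fin m) (Fin m ⊕ Fin m) F)
          = Matrix.fromBlocks 1 (Matrix.single ⟨0, by omega⟩ ⟨0, by omega⟩ 1) 0 1 :=
      ⟨⟨_, Cfsg.Agent.Lib.Helper3.spU_mem m _ (Matrix.transpose_single _ _ _)⟩, rfl⟩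
    have hu1 : u = 1 := by
      have h2 : u ∈ (⊤ : Subgroup (Matrix.symplecticGroup (Fin m) F)) := Subgroup.mem_top u
      rw [hbot] at h2
      exact Subgroup.mem_bot.mp h2
    have h3 := congrArg (fun g : Matrix.symplecticGroup (Fin m) F =>
      (g : Matrix (Fin m ⊕ Fin m) (Fin m ⊕ Fin m) F) (Sum.inl ⟨0, by omega⟩) (Sum.inr ⟨0, by omega⟩)) hu1
    simp [hu] at h3
  refine ⟨fun K hK => ?_⟩
  rcases key (K.comap (QuotientGroup.mk' (Subgroup.center (Matrix.symplecticGroup (Fin m) F))))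
    inferInstance with h1 | h1
  · left
    rw [eq_bot_iff]
    intro k hk
    obtain ⟨g, rfl⟩ := QuotientGroup.mk_surjective k
    rw [Subgroup.mem_bot]
    exact (QuotientGroup.eq_one_iff g).mpr (h1 hk)
  · right
    rw [eq_top_iff]
    intro k _
    obtain ⟨g, rfl⟩ := QuotientGroup.mk_surjective k
    have h2 : g ∈ K.comap (QuotientGroup.mk' (Subgroup.center (Matrix.symplecticGroup (Fin m) F))) := by
      rw [h1]; exact Subgroup.mem_top g
    exact h2

end Cfsg.Agent.S0270
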