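import Cfsg.Statements.S0272
import Mathlib
import Cfsg.Agent.Lib.Helper3.GL2Sylow

set_option autoImplicit false
open Cfsg

namespace Cfsg.Agent.S0272

/-- The normaliser in GL_2(q) of a Sylow p-subgroup, p the characteristic, has order q (q-1)^2. -/
theorem result {F : Type*} [Field F] [Fintype F] {q : ℕ} (hF : Fintype.card F = q) (p : ℕ) [Fact p.Prime] [CharP F p] (P : Sylow p (Matrix.GeneralLinearGroup (Fin 2) F)) : Nat.card (Subgroup.normalizer ((P : Subgroup (Matrix.GeneralLinearGroup (Fin 2) F)) : Set (Matrix.GeneralLinearGroup (Fin 2) F))) = q * (q - 1) ^ 2 := by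
  subst hF
  classical
  obtain ⟨P₀, hP₀⟩ := Cfsg.Agent.Lib.Helper3.exists_sylow_eq_uGL (F := F) p
  have h1 : Nat.card (Sylow p (GL (Fin 2) F)) = (Subgroup.normalizer ((P : Subgroup (GL (Fin 2) F)) : Set (GL (Fin 2) F))).index := Sylow.card_eq_index_normalizer P
  have h2 : Nat.card (Sylow p (GL (Fin 2) F)) = (Subgroup.normalizer ((P₀ : Subgroup (GL (Fin 2) F)) : Set (GL (Fin 2) F))).index := Sylow.card_eq_index_normalizer P₀
  have h3 := Subgroup.card_mul_index (Subgroup.normalizer ((P : Subgroup (GL (Fin 2) F)) : Set (GL (Fin 2) F)))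
  have h4 := Subgroup.card_mul_index (Subgroup.normalizer ((P₀ : Subgroup (GL (Fin 2) F)) : Set (GL (Fin 2) F)))
  rw [← h1] at h3
  rw [← h2, ← h3] at h4
  have hpos : 0 < Nat.card (Sylow p (GL (Fin 2) F)) := Nat.card_pos
  have := Nat.eq_of_mul_eq_mul_right hpos h4
  rw [← this, hP₀]
  exact Cfsg.Agent.Lib.Helper3.card_normalizer_uGL

end Cfsg.Agent.S0272
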