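import Cfsg.Statements.S0273
import Mathlib
import Cfsg.Agent.Lib.Helper3.GL2Sylow

set_option autoImplicit false
open Cfsg

namespace Cfsg.Agent.S0273

/-- In GL_2(q) the centraliser of a non-trivial element of a Sylow p-subgroup (p the characteristic) has order q (q-1): the Sylow subgroup times the scalars. -/
theorem result {F : Type*} [Field F] [Fintype F] {q : ℕ} (hF : Fintype.card F = q) (p : ℕ) [Fact p.Prime] [CharP F p] (P : Sylow p (Matrix.GeneralLinearGroup (Fin 2) F)) (a : Matrix.GeneralLinearGroup (Fin 2) F) (ha : a ∈ P) (ha1 : a ≠ 1) : Nat.card (Subgroup.centralizer ({a} : Set (Matrix.GeneralLinearGroup (Fin 2) F))) = q * (q - 1) := by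
  subst hF
  classical
  obtain ⟨P₀, hP₀⟩ := Cfsg.Agent.Lib.Helper3.exists_sylow_eq_uGL (F := F) p
  obtain ⟨g, rfl⟩ := MulAction.exists_smul_eq (GL (Fin 2) F) P₀ P
  have m1 : g⁻¹ * a * g ∈ P₀ := by
    have : g * (g⁻¹ * a * g) * g⁻¹ ∈ g • P₀ := by
      have e : g * (g⁻¹ * a * g) * g⁻¹ = a := by group
      rw [e]
      exact ha
    exact Cfsg.Agent.Lib.Helper3.mem_conj_sylow.mp this
  have m1' : g⁻¹ * a * g ∈ (Cfsg.Agent.Lib.Helper3.uGL : Multiplicative F →* GL (Fin 2) F).range := by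
    rw [← hP₀]
    exact m1
  obtain ⟨s, hs⟩ := m1'
  have hs0 : Multiplicative.toAdd s ≠ 0 := by
    intro h0
    have hs1 : s = 1 := by
      rw [← ofAdd_toAdd s, h0]
      rfl
    rw [hs1, map_one] at hs
    apply ha1
    have e : a = g * (g⁻¹ * a * g) * g⁻¹ := by group
    rw [e, ← hs]
    group
  have ha' : a = g * Cfsg.Agent.Lib.Helper3.uGL (Multiplicative.ofAdd (Multiplicative.toAdd s)) * g⁻¹ := by
    rw [ofAdd_toAdd, hs]
    group
  rw [ha', Cfsg.Agent.Lib.Helper3.card_centralizer_conj, Cfsg.Agent.Lib.Helper3.card_centralizer_uGL hs0]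

end Cfsg.Agent.S0273
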