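import Cfsg.Statements.S0276
import Mathlib
import Cfsg.Agent.S0268
import Cfsg.Agent.S0243
import Cfsg.Agent.Lib.Helper3.SylowCard

set_option autoImplicit false
open Cfsg

namespace Cfsg.Agent.S0276

theorem cayley2 {F : Type*} [Field F] (g : Matrix.SpecialLinearGroup (Fin 2) F) :
    (g : Matrix (Fin 2) (Fin 2) F) * (g : Matrix (Fin 2) (Fin 2) F) =
      (g : Matrix (Fin 2) (Fin 2) F).trace • (g : Matrix (Fin 2) (Fin 2) F) - 1 := by
  have hdet := g.det_coe
  rw [Matrix.det_fin_two] at hdet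
  ext i j
  fin_cases i <;> fin_cases j <;>
    simp [Matrix.mul_apply, Fin.sum_univ_two, Matrix.trace_fin_two]
  · linear_combination (-1 : F) * hdet
  · ring
  · ring
  · linear_combination (-1 : F) * hdet

theorem cayley4 {F : Type*} [Field F] (g : Matrix.SpecialLinearGroup (Fin 2) F) :
    (g : Matrix (Fin 2) (Fin 2) F) * (g : Matrix (Fin 2) (Fin 2) F) *
      ((g : Matrix (Fin 2) (Fin 2) F) * (g : Matrix (Fin 2) (Fin 2) F)) =
      ((g : Matrix (Fin 2) (Fin 2) F).trace ^ 3 - 2 * (g : Matrix (Fin 2) (Fin 2) F).trace) •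
        (g : Matrix (Fin 2) (Fin 2) F) -
      ((g : Matrix (Fin 2) (Fin 2) F).trace ^ 2 - 1) • (1 : Matrix (Fin 2) (Fin 2) F) := by
  have h2 := cayley2 g
  obtain ⟨t, ht⟩ : ∃ t : F, t = (g : Matrix (Fin 2) (Fin 2) F).trace := ⟨_, rfl⟩
  obtain ⟨G, hG⟩ : ∃ G : Matrix (Fin 2) (Fin 2) F, G = (g : Matrix (Fin 2) (Fin 2) F) := ⟨_, rfl⟩
  rw [← ht, ← hG] at h2 ⊢
  have h3 : (t • G - 1) * (t • G - 1) = (t * t) • (G * G) - (2 * t) • G + 1 := by
    rw [sub_mul, mul_sub, mul_sub, Matrix.smul_mul, Matrix.mul_smul, smul_smul, mul_one, one_mul,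
      mul_one]
    module
  rw [h2, h3, h2]
  module

theorem scalar_neg_one {F : Type*} [Field F] :
    Matrix.scalar (Fin 2) (-1 : F) = -1 := by
  ext i j
  by_cases h : i = j <;> simp [h]

theorem sq_eq_one_of_pow_four {F : Type*} [Field F] [Fintype F]
    (hq : Fintype.card F % 8 = 3 ∨ Fintype.card F % 8 = 5)
    (y : Matrix.ProjectiveSpecialLinearGroup (Fin 2) F) (hy : y ^ 4 = 1) : y ^ 2 = 1 := by
  classical
  obtain ⟨g, rfl⟩ := QuotientGroup.mk_surjective y
  have hodd : Odd (Fintype.card F) := by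
    rw [Nat.odd_iff]
    omega
  have h4 : g ^ 4 ∈ Subgroup.center (Matrix.SpecialLinearGroup (Fin 2) F) := by
    rw [← QuotientGroup.eq_one_iff]
    exact hy
  suffices hs : g ^ 2 ∈ Subgroup.center (Matrix.SpecialLinearGroup (Fin 2) F) by
    exact (QuotientGroup.eq_one_iff _).mpr hs
  rw [Matrix.SpecialLinearGroup.mem_center_iff] at h4 ⊢
  obtain ⟨r, hr1, hr2⟩ := h4
  rw [Fintype.card_fin, pow_two] at hr1
  rcases mul_self_eq_one_iff.mp hr1 with hr | hr
  · subst hr
    have hg4 : g ^ 4 = 1 := by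
      apply Subtype.ext
      rw [← hr2]
      simp
    by_cases hg2 : g ^ 2 = 1
    · refine ⟨1, by simp, ?_⟩
      rw [hg2]
      simp
    · have h5 := Cfsg.Agent.S0268.result hodd (g ^ 2) hg2 (by rw [← pow_add]; exact hg4)
      refine ⟨-1, by simp, ?_⟩
      rw [h5]
      exact scalar_neg_one
  · subst hr
    have hG4 : (g : Matrix (Fin 2) (Fin 2) F) * (g : Matrix (Fin 2) (Fin 2) F) *
        ((g : Matrix (Fin 2) (Fin 2) F) * (g : Matrix (Fin 2) (Fin 2) F)) = -1 := by
      have e : g ^ 4 = g * g * (g * g) := by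
        rw [show (4 : ℕ) = 2 + 2 from rfl, pow_add, pow_two]
      rw [e] at hr2
      simp only [Matrix.SpecialLinearGroup.coe_mul] at hr2
      rw [← hr2]
      exact scalar_neg_one
    have h6 := cayley4 g
    rw [hG4] at h6
    obtain ⟨t, ht⟩ : ∃ t : F, t = (g : Matrix (Fin 2) (Fin 2) F).trace := ⟨_, rfl⟩
    obtain ⟨G, hG⟩ : ∃ G : Matrix (Fin 2) (Fin 2) F, G = (g : Matrix (Fin 2) (Fin 2) F) := ⟨_, rfl⟩
    rw [← ht, ← hG] at h6
    have key : (t ^ 3 - 2 * t) • G = (t ^ 2 - 2) • (1 : Matrix (Fin 2) (Fin 2) F) := by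
      have : (t ^ 3 - 2 * t) • G = (-1 : Matrix (Fin 2) (Fin 2) F) + (t ^ 2 - 1) • (1 : Matrix (Fin 2) (Fin 2) F) := by
        rw [h6]
        abel
      rw [this]
      module
    by_cases ht0 : t ^ 3 - 2 * t = 0
    · rw [ht0, zero_smul] at key
      have h00 := congrFun (congrFun key 0) 0
      simp at h00
      exfalso
      have hsq : IsSquare (2 : F) := ⟨t, by linear_combination h00⟩
      rw [FiniteField.isSquare_two_iff] at hsq
      omega
    · have hGs : G = ((t ^ 3 - 2 * t)⁻¹ * (t ^ 2 - 2)) • (1 : Matrix (Fin 2) (Fin 2) F) := by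
        have := congrArg (fun M : Matrix (Fin 2) (Fin 2) F => (t ^ 3 - 2 * t)⁻¹ • M) key
        simp only [smul_smul, inv_mul_cancel₀ ht0, one_smul] at this
        exact this
      obtain ⟨s, hs⟩ : ∃ s : F, s = (t ^ 3 - 2 * t)⁻¹ * (t ^ 2 - 2) := ⟨_, rfl⟩
      rw [← hs] at hGs
      have hg2 : ((g ^ 2 : Matrix.SpecialLinearGroup (Fin 2) F) : Matrix (Fin 2) (Fin 2) F) =
          (s * s) • (1 : Matrix (Fin 2) (Fin 2) F) := by
        rw [pow_two, Matrix.SpecialLinearGroup.coe_mul, ← hG, hGs]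
        simp [smul_smul]
      have hdet := (g ^ 2).det_coe
      rw [hg2, Matrix.det_smul, Matrix.det_one, Fintype.card_fin, mul_one] at hdet
      refine ⟨s * s, by rw [Fintype.card_fin]; exact hdet, ?_⟩
      rw [hg2, Matrix.smul_one_eq_diagonal]
      rfl

/-- For q = 3 or 5 mod 8 the Sylow 2-subgroups of PSL_2(q) are elementary abelian of order 4. -/
theorem result {F : Type*} [Field F] [Fintype F] {q : ℕ} (hF : Fintype.card F = q) (hq : q % 8 = 3 ∨ q % 8 = 5) (P : Sylow 2 (Matrix.ProjectiveSpecialLinearGroup (Fin 2) F)) : IsKleinFour (P : Subgroup (Matrix.ProjectiveSpecialLinearGroup (Fin 2) F)) := by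
  classical
  subst hF
  have hcard : Nat.card (P : Subgroup (Matrix.ProjectiveSpecialLinearGroup (Fin 2) F)) = 4 := by
    have hN := Cfsg.Agent.S0243.result (F := F) rfl 2 (le_refl 2)
    rw [Fin.prod_univ_two] at hN
    simp only [Fin.val_zero, pow_zero, Fin.val_one, pow_one] at hN
    rcases hq with h | h
    · obtain ⟨k, hk⟩ : ∃ k, Fintype.card F = 8 * k + 3 := ⟨Fintype.card F / 8, by omega⟩
      rw [hk] at hN
      have hg : Nat.gcd 2 (8 * k + 3 - 1) = 2 := Nat.gcd_eq_left ⟨4 * k + 1, by omega⟩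
      have e1 : (8 * k + 3) ^ 2 - 1 = (8 * k + 2) * (8 * k + 4) := Nat.sub_eq_of_eq_add (by ring)
      have e2 : (8 * k + 3) ^ 2 - (8 * k + 3) = (8 * k + 3) * (8 * k + 2) := Nat.sub_eq_of_eq_add (by ring)
      have e3 : 8 * k + 3 - 1 = 8 * k + 2 := rfl
      rw [hg, e1, e2, e3] at hN
      have hN' : Nat.card (Matrix.ProjectiveSpecialLinearGroup (Fin 2) F) =
          2 ^ 2 * ((2 * k + 1) * (8 * k + 3) * (4 * k + 1)) := by
        have hpos : 0 < 2 * (8 * k + 2) := by omega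
        apply Nat.eq_of_mul_eq_mul_left hpos
        rw [mul_assoc, hN]
        ring
      have h5 : Nat.card P = 2 ^ 2 := Cfsg.Agent.Lib.Helper3.sylow_card_of P hN' (by
        intro hd
        rcases (Nat.Prime.dvd_mul Nat.prime_two).mp hd with h1 | h1
        · rcases (Nat.Prime.dvd_mul Nat.prime_two).mp h1 with h2 | h2 <;> omega
        · omega)
      exact h5
    · obtain ⟨k, hk⟩ : ∃ k, Fintype.card F = 8 * k + 5 := ⟨Fintype.card F / 8, by omega⟩
      rw [hk] at hN
      have hg : Nat.gcd 2 (8 * k + 5 - 1) = 2 := Nat.gcd_eq_left ⟨4 * k + 2, by omega⟩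
      have e1 : (8 * k + 5) ^ 2 - 1 = (8 * k + 4) * (8 * k + 6) := Nat.sub_eq_of_eq_add (by ring)
      have e2 : (8 * k + 5) ^ 2 - (8 * k + 5) = (8 * k + 5) * (8 * k + 4) := Nat.sub_eq_of_eq_add (by ring)
      have e3 : 8 * k + 5 - 1 = 8 * k + 4 := rfl
      rw [hg, e1, e2, e3] at hN
      have hN' : Nat.card (Matrix.ProjectiveSpecialLinearGroup (Fin 2) F) =
          2 ^ 2 * ((2 * k + 1) * (8 * k + 5) * (4 * k + 3)) := by
        have hpos : 0 < 2 * (8 * k + 4) := by omega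
        apply Nat.eq_of_mul_eq_mul_left hpos
        rw [mul_assoc, hN]
        ring
      have h5 : Nat.card P = 2 ^ 2 := Cfsg.Agent.Lib.Helper3.sylow_card_of P hN' (by
        intro hd
        rcases (Nat.Prime.dvd_mul Nat.prime_two).mp hd with h1 | h1
        · rcases (Nat.Prime.dvd_mul Nat.prime_two).mp h1 with h2 | h2 <;> omega
        · omega)
      exact h5
  refine ⟨hcard, ?_⟩
  have hpow : ∀ x : (P : Subgroup (Matrix.ProjectiveSpecialLinearGroup (Fin 2) F)), x ^ 2 = 1 := by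
    intro x
    have h4 : x ^ 4 = 1 := by
      rw [← hcard]
      exact pow_card_eq_one'
    apply Subtype.ext
    have h5 := sq_eq_one_of_pow_four hq (x : Matrix.ProjectiveSpecialLinearGroup (Fin 2) F) (by
      have := congrArg Subtype.val h4
      simpa using this)
    simpa using h5
  have hdvd : Monoid.exponent (P : Subgroup (Matrix.ProjectiveSpecialLinearGroup (Fin 2) F)) ∣ 2 :=
    Monoid.exponent_dvd_of_forall_pow_eq_one hpow
  rcases (Nat.dvd_prime Nat.prime_two).mp hdvd with h1 | h2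
  · rw [Monoid.exp_eq_one_iff] at h1
    have := Finite.card_le_one_iff_subsingleton.mpr h1
    omega
  · exact h2

end Cfsg.Agent.S0276
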