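import Cfsg.Statements.S0281
import Mathlib
import Cfsg.Agent.S0278
import Cfsg.Agent.Lib.Helper3.SL2Sylow
import Cfsg.Agent.Lib.Helper3.SUCenter
import Cfsg.Agent.Lib.Helper3.UnitaryCount
import Cfsg.Agent.Lib.Helper17.RestrictScalars
import Cfsg.Agent.S0754
import Cfsg.Agent.S0779

set_option autoImplicit false
open Cfsg

namespace Cfsg.Agent.S0281

open Matrix

section aux

variable {F : Type*} [Field F]

/-- conjugation by an invertible matrix, on `SL₂` -/
noncomputable def conjSL (P : Matrix (Fin 2) (Fin 2) F) (hP : IsUnit P.det) :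
    Matrix.SpecialLinearGroup (Fin 2) F →* Matrix.SpecialLinearGroup (Fin 2) F where
  toFun M := ⟨P * (M : Matrix (Fin 2) (Fin 2) F) * P⁻¹, by
    rw [Matrix.det_mul, Matrix.det_mul, mul_right_comm, ← Matrix.det_mul,
      Matrix.mul_nonsing_inv _ hP, Matrix.det_one, one_mul]
    exact M.2⟩
  map_one' := by
    apply Subtype.ext
    show P * (1 : Matrix (Fin 2) (Fin 2) F) * P⁻¹ = 1
    rw [Matrix.mul_one, Matrix.mul_nonsing_inv _ hP]
  map_mul' := by
    intro M N
    apply Subtype.ext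
    show P * ((M : Matrix (Fin 2) (Fin 2) F) * (N : Matrix (Fin 2) (Fin 2) F)) * P⁻¹
      = (P * (M : Matrix (Fin 2) (Fin 2) F) * P⁻¹) * (P * (N : Matrix (Fin 2) (Fin 2) F) * P⁻¹)
    have h := Matrix.nonsing_inv_mul _ hP
    calc P * ((M : Matrix (Fin 2) (Fin 2) F) * (N : Matrix (Fin 2) (Fin 2) F)) * P⁻¹
        = P * (M : Matrix (Fin 2) (Fin 2) F) * (P⁻¹ * P) * (N : Matrix (Fin 2) (Fin 2) F) * P⁻¹ := by
          rw [h, Matrix.mul_one]
          simp only [Matrix.mul_assoc]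
      _ = _ := by simp only [Matrix.mul_assoc]

theorem conjSL_injective (P : Matrix (Fin 2) (Fin 2) F) (hP : IsUnit P.det) :
    Function.Injective (conjSL P hP) := by
  intro M N h
  have h1 : P * (M : Matrix (Fin 2) (Fin 2) F) * P⁻¹ = P * (N : Matrix (Fin 2) (Fin 2) F) * P⁻¹ :=
    congrArg Subtype.val h
  have h2 : ∀ A : Matrix (Fin 2) (Fin 2) F, P⁻¹ * (P * A * P⁻¹) * P = A := by
    intro A
    calc P⁻¹ * (P * A * P⁻¹) * P = (P⁻¹ * P) * A * (P⁻¹ * P) := by simp only [Matrix.mul_assoc]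
      _ = A := by rw [Matrix.nonsing_inv_mul _ hP, Matrix.one_mul, Matrix.mul_one]
  apply Subtype.ext
  rw [← h2 (M : Matrix (Fin 2) (Fin 2) F), h1, h2]

end aux

/-- SU_2(q) is isomorphic to SL_2(q). -/
theorem result {F K : Type*} [Field F] [Fintype F] [Field K] [Fintype K] {q : ℕ} (hF : Fintype.card F = q ^ 2) (hK : Fintype.card K = q) : Nonempty (Cfsg.SU 2 F q ≃* Matrix.SpecialLinearGroup (Fin 2) K) := by
  classical
  obtain ⟨φ, hφq, hφ2⟩ := Cfsg.Agent.S0779.exists_frob hF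
  have hφne := Cfsg.Agent.Lib.Helper3.frob_ne_id hF φ hφq
  obtain ⟨θ, hθ⟩ : ∃ θ, φ θ ≠ θ := by
    by_contra hcon
    push Not at hcon
    exact hφne (RingHom.ext hcon)
  obtain ⟨lam, hlam⟩ : ∃ lam : F, lam * φ lam = -1 := by
    have h1 : (-1 : F) ^ q = -1 := by
      have h2 := Cfsg.Agent.Lib.Helper3.neg_one_pow_succ hF
      rw [pow_succ] at h2
      linear_combination -h2
    have h3 := Cfsg.Agent.S0754.result hF (-1 : F) (neg_ne_zero.mpr one_ne_zero) h1
    have h4 : Nonempty {x : F // x ^ (q + 1) = -1} := by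
      have h5 : 0 < Nat.card {x : F // x ^ (q + 1) = -1} := by rw [h3]; omega
      exact (Nat.card_pos_iff.mp h5).1
    obtain ⟨x, hx⟩ := h4
    exact ⟨x, by rw [hφq, ← pow_succ']; exact hx⟩
  obtain ⟨j⟩ := Cfsg.Agent.Lib.Helper17.exists_ringHom_card_sq hK hF
  have hj : ∀ x : K, φ (j x) = j x := by
    intro x
    rw [hφq, ← map_pow, ← hK, FiniteField.pow_card]
  set P : Matrix (Fin 2) (Fin 2) F := !![1, θ; lam, φ θ * lam] with hPdef
  have hlam0 : lam ≠ 0 := by
    rintro rfl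
    simp at hlam
  have hPdet : P.det = lam * (φ θ - θ) := by
    rw [hPdef, Matrix.det_fin_two_of]
    ring
  have hP : IsUnit P.det := by
    rw [hPdet]
    exact (mul_ne_zero hlam0 (sub_ne_zero.mpr hθ)).isUnit
  have hH : ∀ x y : Fin 2 → F, Cfsg.hermForm 2 F q (P *ᵥ x) (P *ᵥ y)
      = (φ θ - θ) * (x 0 * φ (y 1) - x 1 * φ (y 0)) := by
    intro x y
    have hPx : ∀ z : Fin 2 → F, P *ᵥ z = ![z 0 + θ * z 1, lam * z 0 + φ θ * lam * z 1] := by
      intro z
      funext i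
      fin_cases i <;> simp [hPdef, Matrix.mulVec, dotProduct, Fin.sum_univ_two]
    rw [hPx, hPx]
    simp only [Cfsg.hermForm, Fin.sum_univ_two, Matrix.cons_val_zero, Matrix.cons_val_one, ← hφq,
      map_add, map_mul, hφ2]
    linear_combination ((x 0 + φ θ * x 1) * (φ (y 0) + θ * φ (y 1))) * hlam
  set Ψ : Matrix.SpecialLinearGroup (Fin 2) K →* Matrix.SpecialLinearGroup (Fin 2) F :=
    (conjSL P hP).comp (Matrix.SpecialLinearGroup.map j) with hΨ
  have hΨmem : ∀ h, Ψ h ∈ Cfsg.SU 2 F q := by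
    intro h u v
    set M : Matrix (Fin 2) (Fin 2) F := ((Matrix.SpecialLinearGroup.map j h :
      Matrix.SpecialLinearGroup (Fin 2) F) : Matrix (Fin 2) (Fin 2) F) with hM
    show Cfsg.hermForm 2 F q ((P * M * P⁻¹) *ᵥ u) ((P * M * P⁻¹) *ᵥ v) = Cfsg.hermForm 2 F q u v
    have hu : u = P *ᵥ (P⁻¹ *ᵥ u) := by
      rw [Matrix.mulVec_mulVec, Matrix.mul_nonsing_inv _ hP, Matrix.one_mulVec]
    have hv : v = P *ᵥ (P⁻¹ *ᵥ v) := by
      rw [Matrix.mulVec_mulVec, Matrix.mul_nonsing_inv _ hP, Matrix.one_mulVec]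
    conv_rhs => rw [hu, hv]
    rw [← Matrix.mulVec_mulVec, ← Matrix.mulVec_mulVec, ← Matrix.mulVec_mulVec,
      ← Matrix.mulVec_mulVec, hH, hH]
    generalize P⁻¹ *ᵥ u = x
    generalize P⁻¹ *ᵥ v = y
    have hMv : ∀ z : Fin 2 → F,
        M *ᵥ z = ![M 0 0 * z 0 + M 0 1 * z 1, M 1 0 * z 0 + M 1 1 * z 1] := by
      intro z
      funext i
      fin_cases i <;> simp [Matrix.mulVec, dotProduct, Fin.sum_univ_two]
    have hMφ : ∀ a b, φ (M a b) = M a b := by
      intro a b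
      exact hj _
    have hdet : M 0 0 * M 1 1 - M 0 1 * M 1 0 = 1 := by
      have := (Matrix.SpecialLinearGroup.map j h).2
      rw [Matrix.det_fin_two] at this
      exact this
    rw [hMv, hMv]
    simp only [Matrix.cons_val_zero, Matrix.cons_val_one, map_add, map_mul, hMφ]
    linear_combination ((φ θ - θ) * (x 0 * φ (y 1) - x 1 * φ (y 0))) * hdet
  set Ψ' : Matrix.SpecialLinearGroup (Fin 2) K →* Cfsg.SU 2 F q := Ψ.codRestrict _ hΨmem with hΨ'
  have hinj : Function.Injective Ψ' := by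
    intro a b hab
    have h1 : Ψ a = Ψ b := congrArg Subtype.val hab
    have h2 : Matrix.SpecialLinearGroup.map j a = Matrix.SpecialLinearGroup.map j b :=
      conjSL_injective P hP h1
    apply Subtype.ext
    have h3 : ((Matrix.SpecialLinearGroup.map j a : Matrix.SpecialLinearGroup (Fin 2) F) :
        Matrix (Fin 2) (Fin 2) F) = ((Matrix.SpecialLinearGroup.map j b :
        Matrix.SpecialLinearGroup (Fin 2) F) : Matrix (Fin 2) (Fin 2) F) := congrArg Subtype.val h2
    ext i k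
    have h4 := congrFun (congrFun h3 i) k
    exact j.injective h4
  have hq2 : 2 ≤ q := Cfsg.Agent.Lib.Helper3.two_le_of_card_sq hF
  have hcard : Nat.card (Cfsg.SU 2 F q) ≤ Nat.card (Matrix.SpecialLinearGroup (Fin 2) K) := by
    have h1 := Cfsg.Agent.S0278.result hF 2 (by norm_num)
    have h2 := Cfsg.Agent.Lib.Helper3.card_SL2_eq (F := K)
    rw [hK] at h2
    rw [h2]
    have h3 : (q + 1) * Nat.card (Cfsg.SU 2 F q) = (q + 1) * (q * (q ^ 2 - 1)) := by
      rw [h1]
      simp only [Finset.prod_range_succ, Finset.prod_range_zero, one_mul]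
      norm_num
      ring
    exact le_of_eq (Nat.eq_of_mul_eq_mul_left (by omega) h3)
  exact ⟨(MulEquiv.ofBijective Ψ' (hinj.bijective_of_nat_card_le hcard)).symm⟩

end Cfsg.Agent.S0281
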