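import Cfsg.Statements.S0283
import Mathlib
import Cfsg.Agent.Lib.Helper3.UnitarySimple

set_option autoImplicit false
open Cfsg

namespace Cfsg.Agent.S0283

/-- PSU_n(q) is simple for n at least 3 and (n, q) other than (3, 2). -/
theorem result {F : Type*} [Field F] [Fintype F] {q : ℕ} (hF : Fintype.card F = q ^ 2) (n : ℕ) (hn : 3 ≤ n) (h : ¬ (n = 3 ∧ q = 2)) : IsSimpleGroup (Cfsg.PSU n F q) := by
  classical
  obtain ⟨φ, hφq, hφ2⟩ := Cfsg.Agent.S0779.exists_frob hF
  have hφ := Cfsg.Agent.S0829.phi_ne_id hF φ hφq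
  have hq2 := Cfsg.Agent.S0829.two_le_q hF
  exact Cfsg.Agent.Lib.Helper3.psu_simple_of φ hφq hφ2 hφ (by omega)
    (Cfsg.Agent.S0780.result hF n hn h)
    (fun A hA => by
      obtain ⟨v, c, hv, hA'⟩ := hA
      exact Cfsg.Agent.S0781.result hF n (by omega) A v c hv hA')

end Cfsg.Agent.S0283
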