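import Cfsg.Statements.S0285
import Mathlib
import Cfsg.Agent.Lib.Helper3.HermCount

set_option autoImplicit false
open Cfsg

namespace Cfsg.Agent.S0285

/-- The standard Hermitian form on F^n, |F| = q^2, has exactly (q^n - (-1)^n)(q^(n-1) + (-1)^n) non-zero isotropic vectors; counting the zero vector too: -/
theorem result {F : Type*} [Field F] [Fintype F] {q : ℕ} (hF : Fintype.card F = q ^ 2) (n : ℕ) : Nat.card {v : Fin n → F // Cfsg.hermForm n F q v v = 0} = (if Even n then (q ^ n - 1) * (q ^ (n - 1) + 1) else (q ^ n + 1) * (q ^ (n - 1) - 1)) + 1 := by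
  have hq : 2 ≤ q := by
    have h1 : 1 < Fintype.card F := Fintype.one_lt_card
    rw [hF] at h1
    by_contra hcon
    have : q ≤ 1 := by omega
    have : q ^ 2 ≤ 1 := by nlinarith
    omega
  obtain ⟨hI, -⟩ := Cfsg.Agent.Lib.Helper3.hermCount_closed hF n
  change Cfsg.Agent.Lib.Helper3.hermCount n F q 0 = _
  set A := Cfsg.Agent.Lib.Helper3.hermCount n F q 0
  have hq0 : (q : ℤ) ≠ 0 := by positivity
  rcases Nat.eq_zero_or_pos n with h0 | hpos
  · subst h0
    have h2 : (A : ℤ) = 1 := by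
      apply mul_left_cancel₀ hq0
      rw [hI]; simp
    simp
    exact_mod_cast h2
  · obtain ⟨k, rfl⟩ : ∃ k, n = k + 1 := ⟨n - 1, by omega⟩
    simp only [Nat.add_sub_cancel]
    split_ifs with he
    · have h1 : (-1 : ℤ) ^ (k + 1) = 1 := he.neg_one_pow
      rw [h1] at hI
      have h2 : (A : ℤ) = ((q : ℤ) ^ (k + 1) - 1) * ((q : ℤ) ^ k + 1) + 1 := by
        apply mul_left_cancel₀ hq0
        rw [hI]; ring
      have h3 : 1 ≤ q ^ (k + 1) := Nat.one_le_pow _ _ (by omega)
      zify [h3]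
      exact h2
    · have h1 : (-1 : ℤ) ^ (k + 1) = -1 := (Nat.not_even_iff_odd.mp he).neg_one_pow
      rw [h1] at hI
      have h2 : (A : ℤ) = ((q : ℤ) ^ (k + 1) + 1) * ((q : ℤ) ^ k - 1) + 1 := by
        apply mul_left_cancel₀ hq0
        rw [hI]; ring
      have h3 : 1 ≤ q ^ k := Nat.one_le_pow _ _ (by omega)
      zify [h3]
      exact h2

end Cfsg.Agent.S0285
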