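import Cfsg.Statements.S0293
import Mathlib
import Cfsg.Agent.S0287
import Cfsg.Agent.S0790
import Cfsg.Agent.Lib.Helper3.OmegaCenter
import Cfsg.Agent.Lib.Helper17.PlusClass
import Cfsg.Agent.Lib.Helper16.SpinQuot

set_option autoImplicit false
open Cfsg

namespace Cfsg.Agent.S0293

open Cfsg.Agent.Lib.Helper16 Cfsg.Agent.Lib.Helper17 Cfsg.Agent.Lib.Helper3 Matrix

theorem exists_fourth {m : ℕ} (hm : 4 ≤ m) (i j l : Fin m) : ∃ k, k ≠ i ∧ k ≠ j ∧ k ≠ l := by
  by_contra h
  push Not at h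
  have h1 : (Finset.univ : Finset (Fin m)) ⊆ {i, j, l} := by
    intro k _
    by_cases h1 : k = i
    · simp [h1]
    · by_cases h2 : k = j
      · simp [h2]
      · simp [h k h1 h2]
  have h2 := Finset.card_le_card h1
  rw [Finset.card_univ, Fintype.card_fin] at h2
  have h3 := Finset.card_le_three (a := i) (b := j) (c := l)
  omega

section Plus

variable (m : ℕ) (F : Type*) [Field F]

/-- The vector `e_j + t f_j`. -/
def pp (j : Fin m) (t : F) : Fin m ⊕ Fin m → F :=
  Pi.single (Sum.inl j) 1 + Pi.single (Sum.inr j) t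

theorem pp_q (j : Fin m) (t : F) : qfPlus m F (pp m F j t) = t := by
  show Cfsg.quadFormPlus m F _ = t
  unfold Cfsg.quadFormPlus pp
  simp [Pi.single_apply]

theorem pp_polar (j : Fin m) (t : F) (x : Fin m ⊕ Fin m → F) :
    QuadraticMap.polar (⇑(qfPlus m F)) (pp m F j t) x
      = t * x (Sum.inl j) + x (Sum.inr j) := by
  rw [qfPlus_coe, polar_plus]
  unfold pp
  simp [Pi.single_apply, Finset.sum_add_distrib]
  ring

theorem eig_P [Fintype F] (hm : 3 ≤ m) (z : ↥(Cfsg.isometryGroup F (⇑(qfPlus m F))))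
    (hz : ∀ g ∈ commutator ↥(Cfsg.isometryGroup F (⇑(qfPlus m F))), z * g = g * z)
    (j k : Fin m) (hjk : j ≠ k) (u x : Fin m ⊕ Fin m → F)
    (hu : qfPlus m F u ≠ 0) (hux : QuadraticMap.polar (⇑(qfPlus m F)) u x ≠ 0)
    (h1 : u (Sum.inl j) = 0) (h2 : u (Sum.inr j) = 0)
    (h3 : u (Sum.inl k) = 0) (h4 : u (Sum.inr k) = 0)
    (h5 : x (Sum.inl j) = 0) (h6 : x (Sum.inr j) = 0)
    (h7 : x (Sum.inl k) = 0) (h8 : x (Sum.inr k) = 0) :
    ∃ c : F, ((z : Matrix.GeneralLinearGroup (Fin m ⊕ Fin m) F) :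
      Matrix (Fin m ⊕ Fin m) (Fin m ⊕ Fin m) F) *ᵥ u = c • u := by
  have hex : Fintype.card F ≠ 2 ∨ Fintype.card (Fin m ⊕ Fin m) ≠ 4 := by
    right
    rw [Fintype.card_sum, Fintype.card_fin]
    omega
  have hv : qfPlus m F (pp m F j (qfPlus m F u)) ≠ 0 := by rw [pp_q]; exact hu
  have hv' : qfPlus m F (pp m F k (qfPlus m F u)) ≠ 0 := by rw [pp_q]; exact hu
  have hmem := refl_pair_mem_omega (qfPlus m F) (qfPlus_nondeg m F) hex hu hv
    (by rw [pp_q]; exact ⟨_, rfl⟩)
  have hmem' := refl_pair_mem_omega (qfPlus m F) (qfPlus_nondeg m F) hex hu hv'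
    (by rw [pp_q]; exact ⟨_, rfl⟩)
  obtain ⟨a, b, hab⟩ := span_of_comm (qfPlus m F) z hu hv (hz _ hmem)
    (by rw [pp_polar, h5, h6]; ring) hux
  obtain ⟨a', b', hab'⟩ := span_of_comm (qfPlus m F) z hu hv' (hz _ hmem')
    (by rw [pp_polar, h7, h8]; ring) hux
  have e1 := congrFun hab (Sum.inl j)
  have e2 := congrFun hab' (Sum.inl j)
  rw [e1] at e2
  simp [pp, Pi.single_apply, h1, hjk, Ne.symm hjk] at e2
  refine ⟨a, ?_⟩
  rw [hab, e2, zero_smul, add_zero]

/-- An isometry of the hyperbolic form in dimension at least 8 that commutes with the commutator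
subgroup is a scalar of square one. -/
theorem plus_central_scalar [Fintype F] (hm : 4 ≤ m)
    (z : ↥(Cfsg.isometryGroup F (⇑(qfPlus m F))))
    (hz : ∀ g ∈ commutator ↥(Cfsg.isometryGroup F (⇑(qfPlus m F))), z * g = g * z) :
    ∃ c : F, c * c = 1 ∧ ((z : Matrix.GeneralLinearGroup (Fin m ⊕ Fin m) F) :
      Matrix (Fin m ⊕ Fin m) (Fin m ⊕ Fin m) F) = c • 1 := by
  set Z := ((z : Matrix.GeneralLinearGroup (Fin m ⊕ Fin m) F) :
      Matrix (Fin m ⊕ Fin m) (Fin m ⊕ Fin m) F) with hZ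
  have hstep1 : ∀ j : Fin m, ∃ c : F, Z *ᵥ pp m F j 1 = c • pp m F j 1 := by
    intro j
    obtain ⟨l, hlj, -⟩ := Fin.exists_ne_and_ne_of_two_lt j j (by omega)
    obtain ⟨k, hkj, hkl⟩ := Fin.exists_ne_and_ne_of_two_lt j l (by omega)
    exact eig_P m F (by omega) z hz l k (Ne.symm hkl) (pp m F j 1) (Pi.single (Sum.inl j) 1)
      (by rw [pp_q]; exact one_ne_zero)
      (by rw [pp_polar]; simp)
      (by simp [pp, Pi.single_apply, hlj, Ne.symm hlj])
      (by simp [pp, Pi.single_apply, hlj, Ne.symm hlj])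
      (by simp [pp, Pi.single_apply, hkj, Ne.symm hkj])
      (by simp [pp, Pi.single_apply, hkj, Ne.symm hkj])
      (by simp [Pi.single_apply, hlj, Ne.symm hlj]) (by simp)
      (by simp [Pi.single_apply, hkj, Ne.symm hkj]) (by simp)
  choose c hc using hstep1
  have hstep2 : ∀ i j : Fin m, i ≠ j →
      Z *ᵥ Pi.single (Sum.inl i) 1 = c j • Pi.single (Sum.inl i) 1 ∧
      Z *ᵥ Pi.single (Sum.inr i) 1 = c j • Pi.single (Sum.inr i) 1 := by
    intro i j hij
    obtain ⟨l, hli, hlj⟩ := Fin.exists_ne_and_ne_of_two_lt i j (by omega)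
    obtain ⟨k, hki, hkj, hkl⟩ := exists_fourth hm i j l
    have hqe : qfPlus m F (Pi.single (Sum.inl i) 1 + pp m F j 1) = 1 := by
      rw [QuadraticMap.map_add (⇑(qfPlus m F)), qfPlus_q_inl, pp_q, qfPlus_polar_inl]
      simp [pp, Pi.single_apply, hij]
    have hqf : qfPlus m F (Pi.single (Sum.inr i) 1 + pp m F j 1) = 1 := by
      rw [QuadraticMap.map_add (⇑(qfPlus m F)), qfPlus_q_inr, pp_q, qfPlus_polar_inr]
      simp [pp, Pi.single_apply, hij]
    obtain ⟨d, hd⟩ := eig_P m F (by omega) z hz l k (Ne.symm hkl)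
      (Pi.single (Sum.inl i) 1 + pp m F j 1) (Pi.single (Sum.inl j) 1)
      (by rw [hqe]; exact one_ne_zero)
      (by rw [QuadraticMap.polar_add_left, qfPlus_polar_inl, pp_polar]; simp [Pi.single_apply])
      (by simp [pp, Pi.single_apply, hli, hlj, Ne.symm hli, Ne.symm hlj])
      (by simp [pp, Pi.single_apply, hli, hlj, Ne.symm hli, Ne.symm hlj])
      (by simp [pp, Pi.single_apply, hki, hkj, Ne.symm hki, Ne.symm hkj])
      (by simp [pp, Pi.single_apply, hki, hkj, Ne.symm hki, Ne.symm hkj])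
      (by simp [Pi.single_apply, hlj, Ne.symm hlj]) (by simp)
      (by simp [Pi.single_apply, hkj, Ne.symm hkj]) (by simp)
    obtain ⟨d', hd'⟩ := eig_P m F (by omega) z hz l k (Ne.symm hkl)
      (Pi.single (Sum.inr i) 1 + pp m F j 1) (Pi.single (Sum.inl j) 1)
      (by rw [hqf]; exact one_ne_zero)
      (by rw [QuadraticMap.polar_add_left, qfPlus_polar_inr, pp_polar]; simp [Pi.single_apply, hij])
      (by simp [pp, Pi.single_apply, hli, hlj, Ne.symm hli, Ne.symm hlj])
      (by simp [pp, Pi.single_apply, hli, hlj, Ne.symm hli, Ne.symm hlj])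
      (by simp [pp, Pi.single_apply, hki, hkj, Ne.symm hki, Ne.symm hkj])
      (by simp [pp, Pi.single_apply, hki, hkj, Ne.symm hki, Ne.symm hkj])
      (by simp [Pi.single_apply, hlj, Ne.symm hlj]) (by simp)
      (by simp [Pi.single_apply, hkj, Ne.symm hkj]) (by simp)
    rw [Matrix.mulVec_add, hc j] at hd hd'
    have hZe : Z *ᵥ Pi.single (Sum.inl i) 1
        = d • Pi.single (Sum.inl i) 1 + (d - c j) • pp m F j 1 := by
      rw [eq_sub_of_add_eq hd, smul_add, sub_smul]
      abel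
    have hZf : Z *ᵥ Pi.single (Sum.inr i) 1
        = d' • Pi.single (Sum.inr i) 1 + (d' - c j) • pp m F j 1 := by
      rw [eq_sub_of_add_eq hd', smul_add, sub_smul]
      abel
    have hQe := isomG_map (qfPlus m F) z (Pi.single (Sum.inl i) 1)
    rw [← hZ, hZe, QuadraticMap.map_add (⇑(qfPlus m F)), QuadraticMap.map_smul,
      QuadraticMap.map_smul, qfPlus_q_inl, pp_q, QuadraticMap.polar_smul_left,
      QuadraticMap.polar_smul_right, qfPlus_polar_inl] at hQe
    simp [pp, Pi.single_apply, hij] at hQe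
    have hQf := isomG_map (qfPlus m F) z (Pi.single (Sum.inr i) 1)
    rw [← hZ, hZf, QuadraticMap.map_add (⇑(qfPlus m F)), QuadraticMap.map_smul,
      QuadraticMap.map_smul, qfPlus_q_inr, pp_q, QuadraticMap.polar_smul_left,
      QuadraticMap.polar_smul_right, qfPlus_polar_inr] at hQf
    simp [pp, Pi.single_apply, hij] at hQf
    have e1 : d = c j := sub_eq_zero.1 hQe
    have e2 : d' = c j := sub_eq_zero.1 hQf
    rw [hZe, hZf, e1, e2, sub_self, zero_smul, add_zero, add_zero]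
    exact ⟨rfl, rfl⟩
  have hconst : ∀ j j' : Fin m, c j = c j' := by
    intro j j'
    obtain ⟨i, hij, hij'⟩ := Fin.exists_ne_and_ne_of_two_lt j j' (by omega)
    have e1 := (hstep2 i j hij).1
    rw [(hstep2 i j' hij').1] at e1
    have e2 := congrFun e1 (Sum.inl i)
    simpa using e2.symm
  have hcol : ∀ b, Z *ᵥ Pi.single b 1 = c ⟨0, by omega⟩ • Pi.single b 1 := by
    rintro (i | i)
    · obtain ⟨j, hji, -⟩ := Fin.exists_ne_and_ne_of_two_lt i i (by omega)
      rw [(hstep2 i j (Ne.symm hji)).1, hconst j ⟨0, by omega⟩]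
    · obtain ⟨j, hji, -⟩ := Fin.exists_ne_and_ne_of_two_lt i i (by omega)
      rw [(hstep2 i j (Ne.symm hji)).2, hconst j ⟨0, by omega⟩]
  refine ⟨c ⟨0, by omega⟩, ?_, ?_⟩
  · have := isomG_map (qfPlus m F) z (pp m F ⟨0, by omega⟩ 1)
    rw [← hZ, hc, QuadraticMap.map_smul, pp_q, smul_eq_mul, mul_one] at this
    exact this
  · ext a b
    have := congrFun (hcol b) a
    rw [Matrix.mulVec_single_one] at this
    simp only [Matrix.col_apply, Pi.smul_apply, smul_eq_mul] at this
    rw [this, Matrix.smul_apply, Matrix.one_apply, Pi.single_apply, smul_eq_mul]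

/-- In characteristic two the commutator subgroup of the hyperbolic orthogonal group has
index two. -/
theorem omega_index_plus_even [Fintype F] (h2 : (2 : F) = 0) (hm : 3 ≤ m) :
    (Cfsg.Omega F (⇑(qfPlus m F))).index = 2 := by
  have : CharP F 2 := charP_two_of_eq h2
  have hex : Fintype.card F ≠ 2 ∨ Fintype.card (Fin m ⊕ Fin m) ≠ 4 := by
    right
    rw [Fintype.card_sum, Fintype.card_fin]
    omega
  have hex' : (∃ β : F, β ≠ 0 ∧ β ≠ 1) ∨ Fintype.card (Fin m ⊕ Fin m) ≠ 4 := by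
    rcases hex with h | h
    · exact Or.inl (c2_fin_hex h)
    · exact Or.inr h
  have hv0 : qfPlus m F (pp m F ⟨0, by omega⟩ 1) ≠ 0 := by rw [pp_q]; exact one_ne_zero
  have hle := c2P_le_commutator (qfPlus m F) (qfPlus_nondeg m F) c2_fin_hsq hex'
  rw [Subgroup.index_eq_two_iff]
  refine ⟨reflG (qfPlus m F) _ hv0, ?_⟩
  intro g
  have hgen := fin_cartan_dieudonne (qfPlus m F) (qfPlus_nondeg m F) hex g
  have hnot : ¬ (g ∈ Cfsg.Omega F (⇑(qfPlus m F)) ∧
      g * reflG (qfPlus m F) _ hv0 ∈ Cfsg.Omega F (⇑(qfPlus m F))) := by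
    rintro ⟨h1, h3⟩
    have e1 := dickson_of_mem_omega h2 h1
    have e3 := dickson_of_mem_omega h2 h3
    rw [dickson_mul h2, e1, reflG_coe, dicksonT_refl _ hv0, zero_add] at e3
    exact one_ne_zero e3
  rcases cd_parity (qfPlus m F) (reflG (qfPlus m F) _ hv0) ⟨_, hv0, rfl⟩ g hgen with h1 | h1
  · exact Or.inr ⟨hle h1, fun h => hnot ⟨hle h1, h⟩⟩
  · exact Or.inl ⟨hle h1, fun h => hnot ⟨h, hle h1⟩⟩

end Plus

/-- gcd(4, q^m - 1) |PΩ^+_{2m}(q)| = q^(m(m-1)) (q^m - 1) prod_{i=1}^{m-1} (q^(2i) - 1), m at least 4 (type D_m). -/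
theorem result {F : Type*} [Field F] [Fintype F] {q : ℕ} (hF : Fintype.card F = q) (m : ℕ) (hm : 4 ≤ m) : Nat.gcd 4 (q ^ m - 1) * Nat.card (Cfsg.POmega F (Cfsg.quadFormPlus m F)) = q ^ (m * (m - 1)) * (q ^ m - 1) * ∏ i ∈ Finset.range (m - 1), (q ^ (2 * (i + 1)) - 1) := by
  subst hF
  obtain ⟨k, rfl⟩ : ∃ k, m = k + 1 := ⟨m - 1, by omega⟩
  have hcard := Cfsg.Agent.S0287.card_plus_closed (F := F) k
  have hquot := Subgroup.card_eq_card_quotient_mul_card_subgroup
    (Subgroup.center (Cfsg.Omega F (Cfsg.quadFormPlus (k + 1) F)))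
  have hidxmul := Subgroup.card_mul_index (Cfsg.Omega F (Cfsg.quadFormPlus (k + 1) F))
  have hscal : ∀ z ∈ Subgroup.center (Cfsg.Omega F (Cfsg.quadFormPlus (k + 1) F)),
      ∃ c : F, c * c = 1 ∧ (((z : ↥(Cfsg.isometryGroup F (Cfsg.quadFormPlus (k + 1) F))) :
        Matrix.GeneralLinearGroup (Fin (k + 1) ⊕ Fin (k + 1)) F) :
        Matrix (Fin (k + 1) ⊕ Fin (k + 1)) (Fin (k + 1) ⊕ Fin (k + 1)) F) = c • 1 := by
    intro z hz
    rw [Subgroup.mem_center_iff] at hz
    apply plus_central_scalar (k + 1) F hm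
    intro g hg
    have := hz ⟨g, hg⟩
    exact (congrArg Subtype.val this).symm
  have hQpos : 1 ≤ Fintype.card F ^ (k + 1) := Nat.one_le_pow _ _ Fintype.card_pos
  rw [Nat.add_sub_cancel]
  show Nat.gcd 4 (Fintype.card F ^ (k + 1) - 1) *
    Nat.card (↥(Cfsg.Omega F (Cfsg.quadFormPlus (k + 1) F)) ⧸
      Subgroup.center ↥(Cfsg.Omega F (Cfsg.quadFormPlus (k + 1) F))) = _
  by_cases h2 : (2 : F) = 0
  · have hidx : (Cfsg.Omega F (Cfsg.quadFormPlus (k + 1) F)).index = 2 :=
      omega_index_plus_even (k + 1) F h2 (by omega)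
    have hcen : Nat.card (Subgroup.center (Cfsg.Omega F (Cfsg.quadFormPlus (k + 1) F))) = 1 := by
      rw [Subgroup.card_eq_one, Subgroup.eq_bot_iff_forall]
      intro z hz
      obtain ⟨c, hc, hzc⟩ := hscal z hz
      have hc1 : c = 1 := by
        have h3 : (c - 1) * (c - 1) = 0 := by linear_combination hc + (1 - c) * h2
        have h4 := mul_self_eq_zero.1 h3
        exact sub_eq_zero.1 h4
      apply Subtype.ext
      apply isomG_ext (qfPlus (k + 1) F)
      rw [hzc, hc1, one_smul]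
      rfl
    have heven : Even (Fintype.card F ^ (k + 1)) := by
      have : CharP F 2 := charP_two_of_eq h2
      have h3 := FiniteField.even_card_of_char_two ((ringChar.eq_iff).mpr this)
      exact (Nat.even_pow.2 ⟨Nat.even_iff.2 h3, by omega⟩)
    have hgcd : Nat.gcd 4 (Fintype.card F ^ (k + 1) - 1) = 1 := by
      rw [Nat.gcd_rec]
      obtain ⟨t, ht⟩ := heven
      have h5 : (Fintype.card F ^ (k + 1) - 1) % 4 = 1 ∨ (Fintype.card F ^ (k + 1) - 1) % 4 = 3 := by
        omega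
      rcases h5 with h5 | h5 <;> rw [h5] <;> rfl
    rw [hgcd, one_mul]
    rw [hidx, hquot, hcen, mul_one, hcard] at hidxmul
    generalize Nat.card (↥(Cfsg.Omega F (Cfsg.quadFormPlus (k + 1) F)) ⧸
      Subgroup.center ↥(Cfsg.Omega F (Cfsg.quadFormPlus (k + 1) F))) = x at hidxmul ⊢
    generalize Fintype.card F ^ ((k + 1) * k) = A at hidxmul ⊢
    generalize (Fintype.card F ^ (k + 1) - 1) = B at hidxmul ⊢
    generalize (∏ i ∈ Finset.range k, (Fintype.card F ^ (2 * (i + 1)) - 1)) = C at hidxmul ⊢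
    have : 2 * x = 2 * (A * B * C) := by rw [mul_comm 2 x, hidxmul]; ring
    exact Nat.eq_of_mul_eq_mul_left (by norm_num) this
  · have hodd : Odd (Fintype.card F) := by
      rw [← Nat.not_even_iff_odd]
      intro he
      have h3 : ringChar F = 2 := by
        have hp : (ringChar F).Prime := CharP.char_is_prime F (ringChar F)
        obtain ⟨n, hn, hcardF⟩ := FiniteField.card F (ringChar F)
        have h5 : 2 ∣ ringChar F ^ (n : ℕ) := by rw [← hcardF]; exact he.two_dvd
        have h6 := Nat.prime_two.dvd_of_dvd_pow h5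
        exact ((Nat.prime_dvd_prime_iff_eq Nat.prime_two hp).1 h6).symm
      have : CharP F 2 := ringChar.of_eq h3
      exact h2 CharTwo.two_eq_zero
    have hidx : (Cfsg.Omega F (Cfsg.quadFormPlus (k + 1) F)).index = 4 :=
      omega_index (qfPlus (k + 1) F) h2 (qfPlus_nondeg (k + 1) F) (by
        rw [Fintype.card_sum, Fintype.card_fin]
        omega)
    have hmem := Cfsg.Agent.S0790.result (F := F) rfl hodd (k + 1) (by omega)
    have hQodd : Odd (Fintype.card F ^ (k + 1)) := hodd.pow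
    by_cases h4 : Fintype.card F ^ (k + 1) % 4 = 1
    · obtain ⟨g, hgO, hg⟩ := hmem.2 h4
      have hgc : (⟨g, hgO⟩ : ↥(Cfsg.Omega F (Cfsg.quadFormPlus (k + 1) F)))
          ∈ Subgroup.center (Cfsg.Omega F (Cfsg.quadFormPlus (k + 1) F)) := by
        rw [Subgroup.mem_center_iff]
        intro h
        apply Subtype.ext
        apply isomG_ext (qfPlus (k + 1) F)
        show ((h : ↥(Cfsg.isometryGroup F (Cfsg.quadFormPlus (k + 1) F))) : Matrix.GeneralLinearGroup (Fin (k + 1) ⊕ Fin (k + 1)) F).1 * (g : Matrix.GeneralLinearGroup (Fin (k + 1) ⊕ Fin (k + 1)) F).1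
          = (g : Matrix.GeneralLinearGroup (Fin (k + 1) ⊕ Fin (k + 1)) F).1 * ((h : ↥(Cfsg.isometryGroup F (Cfsg.quadFormPlus (k + 1) F))) : Matrix.GeneralLinearGroup (Fin (k + 1) ⊕ Fin (k + 1)) F).1
        rw [hg]
        simp
      have hcen : Nat.card (Subgroup.center (Cfsg.Omega F (Cfsg.quadFormPlus (k + 1) F))) = 2 := by
        rw [Nat.card_eq_two_iff' 1]
        refine ⟨⟨⟨g, hgO⟩, hgc⟩, ?_, ?_⟩
        · intro h1
          have h3 := congrArg (fun y : ↥(Subgroup.center (Cfsg.Omega F (Cfsg.quadFormPlus (k + 1) F))) =>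
            (((y : ↥(Cfsg.Omega F (Cfsg.quadFormPlus (k + 1) F))) : ↥(Cfsg.isometryGroup F (Cfsg.quadFormPlus (k + 1) F))) : Matrix.GeneralLinearGroup (Fin (k + 1) ⊕ Fin (k + 1)) F).1 (Sum.inl 0) (Sum.inl 0)) h1
          simp only at h3
          rw [hg] at h3
          simp at h3
          apply h2
          linear_combination -h3
        · intro y hy
          obtain ⟨c, hc, hzc⟩ := hscal y.1 y.2
          rcases mul_self_eq_one_iff.1 hc with hc1 | hc1
          · exfalso
            apply hy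
            apply Subtype.ext
            apply Subtype.ext
            apply isomG_ext (qfPlus (k + 1) F)
            rw [hzc, hc1, one_smul]
            rfl
          · apply Subtype.ext
            apply Subtype.ext
            apply isomG_ext (qfPlus (k + 1) F)
            rw [hzc, hc1, hg]
            simp
      have hgcd : Nat.gcd 4 (Fintype.card F ^ (k + 1) - 1) = 4 := by
        rw [Nat.gcd_rec]
        have h5 : (Fintype.card F ^ (k + 1) - 1) % 4 = 0 := by omega
        rw [h5]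
        rfl
      rw [hgcd]
      rw [hidx, hquot, hcen, hcard] at hidxmul
      generalize Nat.card (↥(Cfsg.Omega F (Cfsg.quadFormPlus (k + 1) F)) ⧸
        Subgroup.center ↥(Cfsg.Omega F (Cfsg.quadFormPlus (k + 1) F))) = x at hidxmul ⊢
      generalize Fintype.card F ^ ((k + 1) * k) = A at hidxmul ⊢
      generalize (Fintype.card F ^ (k + 1) - 1) = B at hidxmul ⊢
      generalize (∏ i ∈ Finset.range k, (Fintype.card F ^ (2 * (i + 1)) - 1)) = C at hidxmul ⊢
      have : 2 * (4 * x) = 2 * (A * B * C) := by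
        have e : 2 * (4 * x) = x * 2 * 4 := by ring
        rw [e, hidxmul]; ring
      exact Nat.eq_of_mul_eq_mul_left (by norm_num) this
    · have hcen : Nat.card (Subgroup.center (Cfsg.Omega F (Cfsg.quadFormPlus (k + 1) F))) = 1 := by
        rw [Subgroup.card_eq_one, Subgroup.eq_bot_iff_forall]
        intro z hz
        obtain ⟨c, hc, hzc⟩ := hscal z hz
        rcases mul_self_eq_one_iff.1 hc with hc1 | hc1
        · apply Subtype.ext
          apply isomG_ext (qfPlus (k + 1) F)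
          rw [hzc, hc1, one_smul]
          rfl
        · exfalso
          apply h4
          rw [← hmem]
          refine ⟨z.1, z.2, ?_⟩
          rw [hzc, hc1]
          simp
      have hgcd : Nat.gcd 4 (Fintype.card F ^ (k + 1) - 1) = 2 := by
        rw [Nat.gcd_rec]
        obtain ⟨t, ht⟩ := hQodd
        have h5 : (Fintype.card F ^ (k + 1) - 1) % 4 = 2 := by omega
        rw [h5]
        rfl
      rw [hgcd]
      rw [hidx, hquot, hcen, mul_one, hcard] at hidxmul
      generalize Nat.card (↥(Cfsg.Omega F (Cfsg.quadFormPlus (k + 1) F)) ⧸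
        Subgroup.center ↥(Cfsg.Omega F (Cfsg.quadFormPlus (k + 1) F))) = x at hidxmul ⊢
      generalize Fintype.card F ^ ((k + 1) * k) = A at hidxmul ⊢
      generalize (Fintype.card F ^ (k + 1) - 1) = B at hidxmul ⊢
      generalize (∏ i ∈ Finset.range k, (Fintype.card F ^ (2 * (i + 1)) - 1)) = C at hidxmul ⊢
      have : 2 * (2 * x) = 2 * (A * B * C) := by
        have e : 2 * (2 * x) = x * 4 := by ring
        rw [e, hidxmul]; ring
      exact Nat.eq_of_mul_eq_mul_left (by norm_num) this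

end Cfsg.Agent.S0293
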