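import Cfsg.Statements.S0296
import Mathlib
import Cfsg.Agent.Lib.Helper3.SiegelChar2
import Cfsg.Agent.Lib.Helper16.SpinForms

set_option autoImplicit false
open Cfsg

namespace Cfsg.Agent.S0296

/-- PΩ^+_{2m}(q) is simple for m at least 4. -/
theorem result {F : Type*} [Field F] [Fintype F] (m : ℕ) (hm : 4 ≤ m) : IsSimpleGroup (Cfsg.POmega F (Cfsg.quadFormPlus m F)) := by
  have h7 : 7 ≤ Fintype.card (Fin m ⊕ Fin m) := by
    simp only [Fintype.card_sum, Fintype.card_fin]
    omega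
  exact Cfsg.Agent.Lib.Helper3.pomega_simple (Cfsg.Agent.Lib.Helper16.qfPlus m F)
    (Cfsg.Agent.Lib.Helper16.qfPlus_nondeg m F) h7

end Cfsg.Agent.S0296
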