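import Cfsg.Statements.S0298
import Mathlib
import Cfsg.Agent.S0286
import Cfsg.Agent.Lib.Helper16.SpinQuot
import Cfsg.Agent.Lib.Helper16.SpinForms
import Cfsg.Agent.Lib.Helper3.SLn
import Cfsg.Agent.Lib.Helper3.SL2Sylow
import Cfsg.Agent.Lib.Helper3.OrthCount

set_option autoImplicit false
open Cfsg

namespace Cfsg.Agent.S0298

open Matrix Cfsg.Agent.Lib.Helper16

variable {F : Type*} [Field F]

/-- The adjoint action of a `2 × 2` matrix on trace-zero matrices, in coordinates
`(x₀, y, z) ↦ [[x₀, y], [z, -x₀]]`. -/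
def adM (g : Matrix (Fin 2) (Fin 2) F) :
    Matrix (Unit ⊕ (Fin 1 ⊕ Fin 1)) (Unit ⊕ (Fin 1 ⊕ Fin 1)) F :=
  Matrix.of fun i j => match i, j with
    | .inl _, .inl _ => g 0 0 * g 1 1 + g 0 1 * g 1 0
    | .inl _, .inr (.inl _) => - (g 0 0 * g 1 0)
    | .inl _, .inr (.inr _) => g 0 1 * g 1 1
    | .inr (.inl _), .inl _ => - (2 * g 0 0 * g 0 1)
    | .inr (.inl _), .inr (.inl _) => g 0 0 ^ 2
    | .inr (.inl _), .inr (.inr _) => - g 0 1 ^ 2
    | .inr (.inr _), .inl _ => 2 * g 1 0 * g 1 1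
    | .inr (.inr _), .inr (.inl _) => - g 1 0 ^ 2
    | .inr (.inr _), .inr (.inr _) => g 1 1 ^ 2

theorem adM_mul (g h : Matrix (Fin 2) (Fin 2) F) : adM (g * h) = adM g * adM h := by
  ext i j
  rcases i with ⟨⟩ | i | i <;> rcases j with ⟨⟩ | j | j <;>
    simp [adM, Matrix.mul_apply, Fintype.sum_sum_type, Fin.sum_univ_two] <;> ring

theorem adM_one : adM (1 : Matrix (Fin 2) (Fin 2) F) = 1 := by
  ext i j
  rcases i with ⟨⟩ | i | i <;> rcases j with ⟨⟩ | j | j <;>
    (simp [adM, Matrix.one_apply] <;> exact Subsingleton.elim _ _)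

theorem adM_quad (g : Matrix (Fin 2) (Fin 2) F) (x : Unit ⊕ (Fin 1 ⊕ Fin 1) → F) :
    Cfsg.quadFormOdd 1 F (adM g *ᵥ x) = g.det ^ 2 * Cfsg.quadFormOdd 1 F x := by
  unfold Cfsg.quadFormOdd
  simp [adM, Matrix.mulVec, dotProduct, Fintype.sum_sum_type, Matrix.det_fin_two]
  ring

/-- The adjoint representation of `SL₂` as isometries of `x₀² + yz`. -/
noncomputable def adHom : Matrix.SpecialLinearGroup (Fin 2) F →*
    ↥(Cfsg.isometryGroup F (Cfsg.quadFormOdd 1 F)) where
  toFun g := ⟨⟨adM g.1, adM (g⁻¹).1,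
      by rw [← adM_mul, ← Matrix.SpecialLinearGroup.coe_mul, mul_inv_cancel]; exact adM_one,
      by rw [← adM_mul, ← Matrix.SpecialLinearGroup.coe_mul, inv_mul_cancel]; exact adM_one⟩,
    (Cfsg.Agent.Lib.Helper3.mem_isometryGroup_iff _ _).2 (fun u => by
      show Cfsg.quadFormOdd 1 F (adM g.1 *ᵥ u) = _
      rw [adM_quad, g.2, one_pow, one_mul])⟩
  map_one' := by
    apply Subtype.ext
    apply Units.ext
    exact adM_one
  map_mul' g h := by
    apply Subtype.ext
    apply Units.ext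
    exact adM_mul g.1 h.1

theorem adHom_coe (g : Matrix.SpecialLinearGroup (Fin 2) F) :
    (((adHom g : ↥(Cfsg.isometryGroup F (Cfsg.quadFormOdd 1 F))) :
      Matrix.GeneralLinearGroup (Unit ⊕ (Fin 1 ⊕ Fin 1)) F) :
        Matrix (Unit ⊕ (Fin 1 ⊕ Fin 1)) (Unit ⊕ (Fin 1 ⊕ Fin 1)) F) = adM g.1 := rfl

theorem scalar_mem_center (g : Matrix.SpecialLinearGroup (Fin 2) F)
    (hb : g.1 0 1 = 0) (hc : g.1 1 0 = 0) (had : g.1 0 0 = g.1 1 1) :
    g ∈ Subgroup.center (Matrix.SpecialLinearGroup (Fin 2) F) := by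
  rw [Matrix.SpecialLinearGroup.mem_center_iff]
  refine ⟨g.1 0 0, ?_, ?_⟩
  · have hd := g.2
    rw [Matrix.det_fin_two, hb, ← had] at hd
    rw [Fintype.card_fin]
    linear_combination hd
  · ext i j
    fin_cases i <;> fin_cases j <;> simp [hb, hc, had]

theorem adHom_ker (g : Matrix.SpecialLinearGroup (Fin 2) F)
    (hg : adHom g = 1) : g ∈ Subgroup.center (Matrix.SpecialLinearGroup (Fin 2) F) := by
  have h := congrArg (fun x : ↥(Cfsg.isometryGroup F (Cfsg.quadFormOdd 1 F)) =>
    ((x : Matrix.GeneralLinearGroup (Unit ⊕ (Fin 1 ⊕ Fin 1)) F) :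
        Matrix (Unit ⊕ (Fin 1 ⊕ Fin 1)) (Unit ⊕ (Fin 1 ⊕ Fin 1)) F)) hg
  simp only [adHom_coe] at h
  have h00 := congrFun (congrFun h (Sum.inl ())) (Sum.inl ())
  have h01 := congrFun (congrFun h (Sum.inl ())) (Sum.inr (Sum.inl 0))
  have h02 := congrFun (congrFun h (Sum.inl ())) (Sum.inr (Sum.inr 0))
  have h11 := congrFun (congrFun h (Sum.inr (Sum.inl 0))) (Sum.inr (Sum.inl 0))
  have h22 := congrFun (congrFun h (Sum.inr (Sum.inr 0))) (Sum.inr (Sum.inr 0))
  simp only [adM, Matrix.of_apply] at h00 h01 h02 h11 h22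
  rw [show ((((1 : ↥(Cfsg.isometryGroup F (Cfsg.quadFormOdd 1 F))) :
      Matrix.GeneralLinearGroup (Unit ⊕ (Fin 1 ⊕ Fin 1)) F) :
        Matrix (Unit ⊕ (Fin 1 ⊕ Fin 1)) (Unit ⊕ (Fin 1 ⊕ Fin 1)) F)) = 1 from rfl]
    at h00 h01 h02 h11 h22
  simp only [Matrix.one_apply] at h00 h01 h02 h11 h22
  simp at h00 h01 h02 h11 h22
  have ha : g.1 0 0 ≠ 0 := by
    rcases h11 with h | h <;> rw [h] <;> norm_num
  have hd : g.1 1 1 ≠ 0 := by
    rcases h22 with h | h <;> rw [h] <;> norm_num
  have hc : g.1 1 0 = 0 := h01.resolve_left ha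
  have hb : g.1 0 1 = 0 := h02.resolve_right hd
  rw [hb, zero_mul, add_zero] at h00
  apply scalar_mem_center g hb hc
  rcases h11 with h | h
  · rw [h, one_mul] at h00
    rw [h, h00]
  · rw [h] at h00 ⊢
    linear_combination h00

/-- An element of `SL₂` commuting with everything up to a scalar of square one is central. -/
theorem central_of_comm_mod (h2 : (2 : F) ≠ 0) (g : Matrix.SpecialLinearGroup (Fin 2) F)
    (H : ∀ h : Matrix.SpecialLinearGroup (Fin 2) F, ∃ ε : F, ε * ε = 1 ∧
      (g * h).1 = ε • (h * g).1) :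
    g ∈ Subgroup.center (Matrix.SpecialLinearGroup (Fin 2) F) := by
  have hdet := g.2
  rw [Matrix.det_fin_two] at hdet
  obtain ⟨ε, hε, hT⟩ := H ⟨!![1, 1; 0, 1], by simp [Matrix.det_fin_two]⟩
  obtain ⟨δ, hδ, hL⟩ := H ⟨!![1, 0; 1, 1], by simp [Matrix.det_fin_two]⟩
  have hT' : g.1 * !![1, 1; 0, 1] = ε • (!![1, 1; 0, 1] * g.1) := hT
  have hL' : g.1 * !![1, 0; 1, 1] = δ • (!![1, 0; 1, 1] * g.1) := hL
  have t00 := congrFun (congrFun hT' 0) 0
  have t01 := congrFun (congrFun hT' 0) 1
  have t10 := congrFun (congrFun hT' 1) 0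
  have l00 := congrFun (congrFun hL' 0) 0
  have l01 := congrFun (congrFun hL' 0) 1
  have l11 := congrFun (congrFun hL' 1) 1
  simp [Matrix.mul_apply, Fin.sum_univ_two, Matrix.vecMul, dotProduct] at t00 t01 t10 l00 l01 l11
  have hc : g.1 1 0 = 0 ∧ g.1 0 0 = g.1 1 1 := by
    rcases mul_self_eq_one_iff.1 hε with h | h
    · rw [h] at t00 t01 t10
      constructor
      · linear_combination -t00
      · linear_combination t01
    · exfalso
      rw [h] at t00 t01 t10
      have hc0 : g.1 1 0 = 0 := by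
        have : (2 : F) * g.1 1 0 = 0 := by linear_combination t10
        exact (mul_eq_zero.1 this).resolve_left h2
      have ha0 : g.1 0 0 = 0 := by
        have : (2 : F) * g.1 0 0 = 0 := by linear_combination t00 - hc0
        exact (mul_eq_zero.1 this).resolve_left h2
      rw [ha0, hc0] at hdet
      simp at hdet
  have hb : g.1 0 1 = 0 := by
    rcases mul_self_eq_one_iff.1 hδ with h | h
    · rw [h] at l00 l01 l11
      linear_combination l00
    · exfalso
      rw [h] at l00 l01 l11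
      have hb0 : g.1 0 1 = 0 := by
        have : (2 : F) * g.1 0 1 = 0 := by linear_combination l01
        exact (mul_eq_zero.1 this).resolve_left h2
      have hd0 : g.1 1 1 = 0 := by
        have : (2 : F) * g.1 1 1 = 0 := by linear_combination l11 - hb0
        exact (mul_eq_zero.1 this).resolve_left h2
      rw [hb0, hd0] at hdet
      simp at hdet
  exact scalar_mem_center g hb hc.1 hc.2

/-- PΩ_3(q) is isomorphic to PSL_2(q) for q odd. -/
theorem result {F : Type*} [Field F] [Fintype F] (hodd : Odd (Fintype.card F)) : Nonempty (Cfsg.POmega F (Cfsg.quadFormOdd 1 F) ≃* Matrix.ProjectiveSpecialLinearGroup (Fin 2) F) := by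
  classical
  have h2 : (2 : F) ≠ 0 := Cfsg.Agent.S0286.two_ne_zero_of_odd hodd
  have hnd := qfOdd_nondeg 1 F h2
  have hn : 2 ≤ Fintype.card (Unit ⊕ (Fin 1 ⊕ Fin 1)) := by
    rw [Fintype.card_sum, Fintype.card_sum, Fintype.card_unit, Fintype.card_fin]
    norm_num
  let ad' : Matrix.SpecialLinearGroup (Fin 2) F →* ↥(Cfsg.isometryGroup F (⇑(qfOdd 1 F))) := adHom
  have hψ : ∀ g : Matrix.SpecialLinearGroup (Fin 2) F, detSign (qfOdd 1 F) (ad' g) = 1 := by
    intro g
    have hsq : ∀ x : ↥(Cfsg.isometryGroup F (⇑(qfOdd 1 F))),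
        detSign (qfOdd 1 F) x * detSign (qfOdd 1 F) x = 1 := by
      intro x
      apply Prod.ext
      · apply Units.ext
        simp only [Prod.fst_mul, Units.val_mul, Prod.fst_one, Units.val_one]
        rw [detSign_fst]
        rcases det_isom_cases (qfOdd 1 F) h2 hnd x with h | h <;> rw [h] <;> norm_num
      · simp only [Prod.snd_mul, Prod.snd_one]
        exact Int.units_mul_self _
    refine Cfsg.Agent.Lib.Helper3.sl_transvection_induction
      (fun g => detSign (qfOdd 1 F) (ad' g) = 1) ?_ ?_ g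
    · intro i j hij a
      have : Matrix.SpecialLinearGroup.transvection hij a
          = Matrix.SpecialLinearGroup.transvection hij (a / 2)
            * Matrix.SpecialLinearGroup.transvection hij (a / 2) := by
        apply Subtype.ext
        rw [Matrix.SpecialLinearGroup.coe_mul, Matrix.SpecialLinearGroup.transvection_coe,
          Matrix.SpecialLinearGroup.transvection_coe]
        show Matrix.transvection i j a = Matrix.transvection i j (a / 2) * Matrix.transvection i j (a / 2)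
        rw [Matrix.transvection_mul_transvection_same i j hij]
        congr 1
        field_simp
        ring
      show detSign (qfOdd 1 F) (ad' (Matrix.SpecialLinearGroup.transvection hij a)) = 1
      rw [this, map_mul, map_mul]
      exact hsq _
    · intro A B hA hB
      show detSign (qfOdd 1 F) (ad' (A * B)) = 1
      rw [map_mul, map_mul, hA, hB, one_mul]
  have hmem : ∀ g : Matrix.SpecialLinearGroup (Fin 2) F,
      adHom g ∈ Cfsg.Omega F (Cfsg.quadFormOdd 1 F) := by
    intro g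
    have hker := detSign_ker (qfOdd 1 F) h2 hnd hn
    show ad' g ∈ Cfsg.Omega F (⇑(qfOdd 1 F))
    rw [← hker]
    exact MonoidHom.mem_ker.2 (hψ g)
  let φ : Matrix.SpecialLinearGroup (Fin 2) F →* ↥(Cfsg.Omega F (Cfsg.quadFormOdd 1 F)) :=
    adHom.codRestrict _ hmem
  have hker : ∀ g : Matrix.SpecialLinearGroup (Fin 2) F, φ g = 1 →
      g ∈ Subgroup.center (Matrix.SpecialLinearGroup (Fin 2) F) :=
    fun g hg => adHom_ker g (congrArg Subtype.val hg)
  have hsurj : Function.Surjective φ := by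
    have hidx : (Cfsg.Omega F (Cfsg.quadFormOdd 1 F)).index = 4 :=
      omega_index (qfOdd 1 F) h2 hnd hn
    have hG := Cfsg.Agent.S0286.card_odd_closed hodd 1
    have hSL := Cfsg.Agent.Lib.Helper3.card_SL2_eq (F := F)
    have hΩ := Subgroup.card_mul_index (Cfsg.Omega F (Cfsg.quadFormOdd 1 F))
    rw [hidx, hG] at hΩ
    have hkc : Nat.card φ.ker ≤ 2 := by
      have h1 : φ.ker ≤ Subgroup.center (Matrix.SpecialLinearGroup (Fin 2) F) :=
        fun g hg => hker g (MonoidHom.mem_ker.1 hg)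
      have h3 : Nat.card (Subgroup.center (Matrix.SpecialLinearGroup (Fin 2) F)) ≤ 2 := by
        rw [Nat.card_congr
          (Matrix.SpecialLinearGroup.center_equiv_rootsOfUnity' (R := F) (0 : Fin 2)).toEquiv,
          Fintype.card_fin]
        exact card_rootsOfUnity F 2
      exact (Subgroup.card_le_of_le h1).trans h3
    have hkr := Subgroup.card_mul_index φ.ker
    rw [Subgroup.index_ker, hSL] at hkr
    have hge : Nat.card ↥(Cfsg.Omega F (Cfsg.quadFormOdd 1 F)) ≤ Nat.card φ.range := by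
      simp only [one_pow, pow_one, Finset.prod_range_one, zero_add, mul_one] at hΩ
      have h5 : Nat.card φ.ker * Nat.card φ.range ≤ 2 * Nat.card φ.range :=
        Nat.mul_le_mul_right _ hkc
      have h6 : 2 * (Nat.card ↥(Cfsg.Omega F (Cfsg.quadFormOdd 1 F)) * 4)
          = 4 * (Nat.card φ.ker * Nat.card φ.range) := by
        rw [hΩ, hkr]
        ring
      omega
    rw [← MonoidHom.range_eq_top]
    exact Subgroup.eq_top_of_le_card _ hge
  let f : Matrix.SpecialLinearGroup (Fin 2) F →* Cfsg.POmega F (Cfsg.quadFormOdd 1 F) :=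
    (QuotientGroup.mk' (Subgroup.center (Cfsg.Omega F (Cfsg.quadFormOdd 1 F)))).comp φ
  have hfs : Function.Surjective f :=
    (QuotientGroup.mk'_surjective _).comp hsurj
  have hfk : f.ker = Subgroup.center (Matrix.SpecialLinearGroup (Fin 2) F) := by
    ext g
    rw [MonoidHom.mem_ker]
    show ((φ g : ↥(Cfsg.Omega F (Cfsg.quadFormOdd 1 F))) :
      ↥(Cfsg.Omega F (Cfsg.quadFormOdd 1 F)) ⧸ Subgroup.center _) = 1 ↔ _
    rw [QuotientGroup.eq_one_iff, Subgroup.mem_center_iff]
    constructor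
    · intro H
      apply central_of_comm_mod h2
      intro h
      have hc := H (φ h)
      have hz : (h * g)⁻¹ * (g * h) ∈ Subgroup.center (Matrix.SpecialLinearGroup (Fin 2) F) := by
        apply hker
        rw [map_mul, map_inv, map_mul, map_mul, hc, inv_mul_cancel]
      obtain ⟨r, hr, hrz⟩ := Matrix.SpecialLinearGroup.mem_center_iff.1 hz
      refine ⟨r, ?_, ?_⟩
      · rw [Fintype.card_fin] at hr
        rw [← hr]
        ring
      · have e : g * h = (h * g) * ((h * g)⁻¹ * (g * h)) := by group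
        rw [e, Matrix.SpecialLinearGroup.coe_mul (h * g), ← hrz]
        ext i j
        simp [Matrix.mul_apply, Matrix.scalar_apply, Matrix.diagonal_apply, mul_comm]
    · intro hg x
      obtain ⟨h, rfl⟩ := hsurj x
      rw [← map_mul, ← map_mul, Subgroup.mem_center_iff.1 hg h]
  exact ⟨((QuotientGroup.quotientMulEquivOfEq hfk).symm.trans
    (QuotientGroup.quotientKerEquivOfSurjective f hfs)).symm⟩

end Cfsg.Agent.S0298
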