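import Cfsg.Statements.S0299
import Mathlib
import Cfsg.Agent.S0287
import Cfsg.Agent.Lib.Helper16.SpinQuot
import Cfsg.Agent.Lib.Helper16.SpinForms
import Cfsg.Agent.Lib.Helper3.OmegaTools
import Cfsg.Agent.Lib.Helper3.SL2Sylow
import Cfsg.Agent.Lib.Helper3.OrthCount

set_option autoImplicit false
open Cfsg

namespace Cfsg.Agent.S0299

open Matrix Cfsg.Agent.Lib.Helper16 Cfsg.Agent.Lib.Helper3

variable {F : Type*} [Field F]

/-- The matrix of `X ↦ g X adj(h)` on `2 × 2` matrices, in coordinates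
`X = [[v (inl 0), v (inl 1)], [-v (inr 1), v (inr 0)]]`. -/
def tM (g h : Matrix (Fin 2) (Fin 2) F) : Matrix (Fin 2 ⊕ Fin 2) (Fin 2 ⊕ Fin 2) F :=
  Matrix.fromBlocks
    !![g 0 0 * h 1 1, -(g 0 0 * h 1 0); -(g 0 0 * h 0 1), g 0 0 * h 0 0]
    !![-(g 0 1 * h 1 0), -(g 0 1 * h 1 1); g 0 1 * h 0 0, g 0 1 * h 0 1]
    !![-(g 1 0 * h 0 1), g 1 0 * h 0 0; -(g 1 0 * h 1 1), g 1 0 * h 1 0]
    !![g 1 1 * h 0 0, g 1 1 * h 0 1; g 1 1 * h 1 0, g 1 1 * h 1 1]

theorem tM_mul (g h g' h' : Matrix (Fin 2) (Fin 2) F) :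
    tM (g * g') (h * h') = tM g h * tM g' h' := by
  ext (i | i) (j | j) <;> fin_cases i <;> fin_cases j <;>
    simp [tM, Matrix.mul_apply, Fintype.sum_sum_type, Fin.sum_univ_two] <;> ring

theorem tM_one : tM (1 : Matrix (Fin 2) (Fin 2) F) 1 = 1 := by
  ext (i | i) (j | j) <;> fin_cases i <;> fin_cases j <;>
    simp [tM]

theorem tM_quad (g h : Matrix (Fin 2) (Fin 2) F) (v : Fin 2 ⊕ Fin 2 → F) :
    Cfsg.quadFormPlus 2 F (tM g h *ᵥ v) = g.det * h.det * Cfsg.quadFormPlus 2 F v := by
  unfold Cfsg.quadFormPlus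
  simp [tM, Matrix.mulVec, dotProduct, Fintype.sum_sum_type, Fin.sum_univ_two, Matrix.det_fin_two]
  ring

/-- The action of `SL₂ × SL₂` on `2 × 2` matrices by `X ↦ g X h⁻¹`, as isometries of the
determinant form. -/
noncomputable def tHom : Matrix.SpecialLinearGroup (Fin 2) F × Matrix.SpecialLinearGroup (Fin 2) F →*
    ↥(Cfsg.isometryGroup F (Cfsg.quadFormPlus 2 F)) where
  toFun x := ⟨⟨tM x.1.1 x.2.1, tM (x.1⁻¹).1 (x.2⁻¹).1,
      by rw [← tM_mul, ← Matrix.SpecialLinearGroup.coe_mul, ← Matrix.SpecialLinearGroup.coe_mul,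
          mul_inv_cancel, mul_inv_cancel]; exact tM_one,
      by rw [← tM_mul, ← Matrix.SpecialLinearGroup.coe_mul, ← Matrix.SpecialLinearGroup.coe_mul,
          inv_mul_cancel, inv_mul_cancel]; exact tM_one⟩,
    (Cfsg.Agent.Lib.Helper3.mem_isometryGroup_iff _ _).2 (fun u => by
      show Cfsg.quadFormPlus 2 F (tM x.1.1 x.2.1 *ᵥ u) = _
      rw [tM_quad, x.1.2, x.2.2, one_mul, one_mul])⟩
  map_one' := by
    apply Subtype.ext
    apply Units.ext
    exact tM_one
  map_mul' x y := by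
    apply Subtype.ext
    apply Units.ext
    exact tM_mul x.1.1 x.2.1 y.1.1 y.2.1

theorem tHom_coe (x : Matrix.SpecialLinearGroup (Fin 2) F × Matrix.SpecialLinearGroup (Fin 2) F) :
    (((tHom x : ↥(Cfsg.isometryGroup F (Cfsg.quadFormPlus 2 F))) :
      Matrix.GeneralLinearGroup (Fin 2 ⊕ Fin 2) F) :
        Matrix (Fin 2 ⊕ Fin 2) (Fin 2 ⊕ Fin 2) F) = tM x.1.1 x.2.1 := rfl

theorem scalar_mem_center (g : Matrix.SpecialLinearGroup (Fin 2) F)
    (hb : g.1 0 1 = 0) (hc : g.1 1 0 = 0) (had : g.1 0 0 = g.1 1 1) :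
    g ∈ Subgroup.center (Matrix.SpecialLinearGroup (Fin 2) F) := by
  rw [Matrix.SpecialLinearGroup.mem_center_iff]
  refine ⟨g.1 0 0, ?_, ?_⟩
  · have hd := g.2
    rw [Matrix.det_fin_two, hb, ← had] at hd
    rw [Fintype.card_fin]
    linear_combination hd
  · ext i j
    fin_cases i <;> fin_cases j <;> simp [hb, hc, had]

theorem tHom_ker (x : Matrix.SpecialLinearGroup (Fin 2) F × Matrix.SpecialLinearGroup (Fin 2) F)
    (H : tHom x = 1) :
    x.1 ∈ Subgroup.center (Matrix.SpecialLinearGroup (Fin 2) F) ∧ x.2 = x.1 := by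
  obtain ⟨g, h⟩ := x
  have e := congrArg (fun x : ↥(Cfsg.isometryGroup F (Cfsg.quadFormPlus 2 F)) =>
    ((x : Matrix.GeneralLinearGroup (Fin 2 ⊕ Fin 2) F) :
        Matrix (Fin 2 ⊕ Fin 2) (Fin 2 ⊕ Fin 2) F)) H
  simp only [tHom_coe] at e
  rw [show ((((1 : ↥(Cfsg.isometryGroup F (Cfsg.quadFormPlus 2 F))) :
      Matrix.GeneralLinearGroup (Fin 2 ⊕ Fin 2) F) :
        Matrix (Fin 2 ⊕ Fin 2) (Fin 2 ⊕ Fin 2) F)) = 1 from rfl] at e
  have e00 := congrFun (congrFun e (Sum.inl 0)) (Sum.inl 0)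
  have e01 := congrFun (congrFun e (Sum.inl 0)) (Sum.inl 1)
  have e03 := congrFun (congrFun e (Sum.inl 0)) (Sum.inr 1)
  have e10 := congrFun (congrFun e (Sum.inl 1)) (Sum.inl 0)
  have e11 := congrFun (congrFun e (Sum.inl 1)) (Sum.inl 1)
  have e21 := congrFun (congrFun e (Sum.inr 0)) (Sum.inl 1)
  have e22 := congrFun (congrFun e (Sum.inr 0)) (Sum.inr 0)
  simp [tM] at e00 e01 e03 e10 e11 e21 e22
  have ha : g.1 0 0 ≠ 0 := left_ne_zero_of_mul_eq_one e00
  have hδ : h.1 1 1 ≠ 0 := right_ne_zero_of_mul_eq_one e00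
  have hα : h.1 0 0 ≠ 0 := right_ne_zero_of_mul_eq_one e11
  have hγ : h.1 1 0 = 0 := e01.resolve_left ha
  have hb : g.1 0 1 = 0 := e03.resolve_right hδ
  have hβ : h.1 0 1 = 0 := e10.resolve_left ha
  have hc : g.1 1 0 = 0 := e21.resolve_right hα
  have had : g.1 0 0 = g.1 1 1 := by
    have : (g.1 0 0 - g.1 1 1) * h.1 0 0 = 0 := by linear_combination e11 - e22
    exact sub_eq_zero.1 ((mul_eq_zero.1 this).resolve_right hα)
  have hαδ : h.1 0 0 = h.1 1 1 := by
    have : g.1 0 0 * (h.1 0 0 - h.1 1 1) = 0 := by linear_combination e11 - e00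
    exact sub_eq_zero.1 ((mul_eq_zero.1 this).resolve_left ha)
  have hdet := g.2
  rw [Matrix.det_fin_two, hb, ← had] at hdet
  have hαa : h.1 0 0 = g.1 0 0 := by
    linear_combination (g.1 0 0) * e11 - (h.1 0 0) * hdet
  refine ⟨scalar_mem_center g hb hc had, ?_⟩
  apply Subtype.ext
  ext i j
  fin_cases i <;> fin_cases j
  · exact hαa
  · show h.1 0 1 = g.1 0 1
    rw [hβ, hb]
  · show h.1 1 0 = g.1 1 0
    rw [hγ, hc]
  · show h.1 1 1 = g.1 1 1
    rw [← hαδ, hαa, had]

/-- PΩ^+_4(q) is isomorphic to PSL_2(q) x PSL_2(q) for q at least 3. -/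
theorem result {F : Type*} [Field F] [Fintype F] (hF : 3 ≤ Fintype.card F) : Nonempty (Cfsg.POmega F (Cfsg.quadFormPlus 2 F) ≃* Matrix.ProjectiveSpecialLinearGroup (Fin 2) F × Matrix.ProjectiveSpecialLinearGroup (Fin 2) F) := by
  classical
  have hG := Cfsg.Agent.S0287.card_plus_closed (F := F) 1
  have hSL := Cfsg.Agent.Lib.Helper3.card_SL2_eq (F := F)
  have hS : Nat.card (Matrix.SpecialLinearGroup (Fin 2) F × Matrix.SpecialLinearGroup (Fin 2) F)
      = (Fintype.card F * (Fintype.card F ^ 2 - 1)) * (Fintype.card F * (Fintype.card F ^ 2 - 1)) := by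
    rw [Nat.card_prod, hSL]
  have hkc : Nat.card (tHom (F := F)).ker
      ≤ Nat.card (Subgroup.center (Matrix.SpecialLinearGroup (Fin 2) F)) := by
    apply Nat.card_le_card_of_injective (fun x : (tHom (F := F)).ker =>
      (⟨x.1.1, (tHom_ker x.1 (MonoidHom.mem_ker.1 x.2)).1⟩ :
        Subgroup.center (Matrix.SpecialLinearGroup (Fin 2) F)))
    intro x y hxy
    have h1 : x.1.1 = y.1.1 := congrArg Subtype.val hxy
    have hx := (tHom_ker x.1 (MonoidHom.mem_ker.1 x.2)).2
    have hy := (tHom_ker y.1 (MonoidHom.mem_ker.1 y.2)).2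
    apply Subtype.ext
    apply Prod.ext h1
    rw [hx, hy, h1]
  have hcenter : Nat.card (Subgroup.center (Matrix.SpecialLinearGroup (Fin 2) F))
      = Nat.card (rootsOfUnity 2 F) := by
    rw [Nat.card_congr
      (Matrix.SpecialLinearGroup.center_equiv_rootsOfUnity' (R := F) (0 : Fin 2)).toEquiv,
      Fintype.card_fin]
  have hrange : (tHom (F := F)).range = Cfsg.Omega F (Cfsg.quadFormPlus 2 F) := by
    by_cases h2 : (2 : F) = 0
    · obtain ⟨a, ha0, ha1⟩ : ∃ a : F, a ≠ 0 ∧ a ≠ 1 := by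
        by_contra hcon
        push Not at hcon
        have : Fintype.card F ≤ 2 := by
          rw [← Finset.card_univ]
          calc (Finset.univ : Finset F).card ≤ ({0, 1} : Finset F).card := by
                apply Finset.card_le_card
                intro x _
                by_cases hx : x = 0
                · simp [hx]
                · simp [hcon x hx]
            _ ≤ 2 := Finset.card_le_two
        omega
      have hasq : a ^ 2 ≠ 1 := by
        intro h
        have : (a - 1) ^ 2 = 0 := by linear_combination h - (a - 1) * h2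
        exact ha1 (sub_eq_zero.1 (pow_eq_zero_iff two_ne_zero |>.1 this))
      have hp : commutator (Matrix.SpecialLinearGroup (Fin 2) F) = ⊤ :=
        Matrix.SL2.commutator_eq_top ha0 hasq
      have hpp : commutator (Matrix.SpecialLinearGroup (Fin 2) F
          × Matrix.SpecialLinearGroup (Fin 2) F) = ⊤ := by
        rw [eq_top_iff]
        rintro ⟨g, h⟩ -
        have e : ((g, h) : Matrix.SpecialLinearGroup (Fin 2) F
            × Matrix.SpecialLinearGroup (Fin 2) F) = MonoidHom.inl _ _ g * MonoidHom.inr _ _ h := by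
          simp
        rw [e]
        exact Subgroup.mul_mem _ (map_mem_commutator_of_perfect _ hp g)
          (map_mem_commutator_of_perfect _ hp h)
      have hc1 : Nat.card (Subgroup.center (Matrix.SpecialLinearGroup (Fin 2) F)) = 1 := by
        rw [hcenter]
        have : Subsingleton (rootsOfUnity 2 F) := by
          refine ⟨fun x y => ?_⟩
          have key : ∀ z : rootsOfUnity 2 F, z = 1 := by
            intro z
            have hz := z.2
            rw [mem_rootsOfUnity] at hz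
            have hz' : ((z : Fˣ) : F) ^ 2 = 1 := by
              have := congrArg (fun u : Fˣ => (u : F)) hz
              simpa using this
            have : (((z : Fˣ) : F) - 1) ^ 2 = 0 := by
              linear_combination hz' - (((z : Fˣ) : F) - 1) * h2
            have h3 : ((z : Fˣ) : F) = 1 := sub_eq_zero.1 (pow_eq_zero_iff two_ne_zero |>.1 this)
            apply Subtype.ext
            apply Units.ext
            exact h3
          rw [key x, key y]
        exact Nat.card_eq_one_iff_unique.2 ⟨this, ⟨1⟩⟩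
      have hk1 : Nat.card (tHom (F := F)).ker = 1 :=
        le_antisymm (hkc.trans hc1.le) Nat.card_pos
      apply range_eq_commutator_of_index_two tHom hpp
      have hkr := Subgroup.card_mul_index (tHom (F := F)).ker
      rw [Subgroup.index_ker, hk1, one_mul, hS] at hkr
      rw [hkr, hG]
      simp only [Finset.prod_range_one]
      ring
    · have hnd := qfPlus_nondeg 2 F
      have hn : 2 ≤ Fintype.card (Fin 2 ⊕ Fin 2) := by
        rw [Fintype.card_sum, Fintype.card_fin]
        norm_num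
      let t' : Matrix.SpecialLinearGroup (Fin 2) F × Matrix.SpecialLinearGroup (Fin 2) F →*
        ↥(Cfsg.isometryGroup F (⇑(qfPlus 2 F))) := tHom
      have hr := range_eq_omega_odd (qfPlus 2 F) h2 hnd hn t' (by
        intro x
        have e : x = MonoidHom.inl _ _ x.1 * MonoidHom.inr _ _ x.2 := by
          simp
        rw [e, map_mul]
        apply Subgroup.mul_mem
        · exact sl_map_mem_omega (qfPlus 2 F) h2 hnd hn (t'.comp (MonoidHom.inl _ _)) x.1
        · exact sl_map_mem_omega (qfPlus 2 F) h2 hnd hn (t'.comp (MonoidHom.inr _ _)) x.2) (by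
        have hc2 : Nat.card (Subgroup.center (Matrix.SpecialLinearGroup (Fin 2) F)) ≤ 2 := by
          rw [hcenter]
          exact card_rootsOfUnity F 2
        have hk2 : Nat.card (tHom (F := F)).ker ≤ 2 := hkc.trans hc2
        show Nat.card ↥(Cfsg.isometryGroup F (Cfsg.quadFormPlus 2 F)) * Nat.card (tHom (F := F)).ker
          ≤ 4 * Nat.card (Matrix.SpecialLinearGroup (Fin 2) F × Matrix.SpecialLinearGroup (Fin 2) F)
        rw [hG, hS]
        simp only [Finset.prod_range_one]
        calc 2 * Fintype.card F ^ ((1 + 1) * 1) * (Fintype.card F ^ (1 + 1) - 1)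
              * (Fintype.card F ^ (2 * (0 + 1)) - 1) * Nat.card (tHom (F := F)).ker
            ≤ 2 * Fintype.card F ^ ((1 + 1) * 1) * (Fintype.card F ^ (1 + 1) - 1)
              * (Fintype.card F ^ (2 * (0 + 1)) - 1) * 2 := Nat.mul_le_mul_left _ hk2
          _ = 4 * (Fintype.card F * (Fintype.card F ^ 2 - 1)
              * (Fintype.card F * (Fintype.card F ^ 2 - 1))) := by ring)
      exact hr
  let φ : Matrix.SpecialLinearGroup (Fin 2) F × Matrix.SpecialLinearGroup (Fin 2) F →*
      ↥(Cfsg.Omega F (Cfsg.quadFormPlus 2 F)) :=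
    tHom.codRestrict _ (fun x => hrange ▸ ⟨x, rfl⟩)
  have hsurj : Function.Surjective φ := by
    rintro ⟨y, hy⟩
    rw [← hrange] at hy
    obtain ⟨x, rfl⟩ := hy
    exact ⟨x, rfl⟩
  have hc : ∀ x, φ x ∈ Subgroup.center ↥(Cfsg.Omega F (Cfsg.quadFormPlus 2 F)) →
      x ∈ Subgroup.center (Matrix.SpecialLinearGroup (Fin 2) F
        × Matrix.SpecialLinearGroup (Fin 2) F) := by
    intro x hx
    have key : ∀ y : Matrix.SpecialLinearGroup (Fin 2) F × Matrix.SpecialLinearGroup (Fin 2) F,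
        tHom ((y * x)⁻¹ * (x * y)) = 1 := by
      intro y
      have := Subgroup.mem_center_iff.1 hx (φ y)
      have h' : tHom y * tHom x = tHom x * tHom y := congrArg Subtype.val this
      rw [map_mul, map_inv, map_mul, map_mul, h', inv_mul_cancel]
    rw [Subgroup.mem_center_iff]
    intro y
    have k1 := (tHom_ker _ (key (y.1, 1))).2
    have k2 := (tHom_ker _ (key (1, y.2))).2
    simp only [Prod.snd_mul, Prod.snd_inv, Prod.fst_mul, Prod.fst_inv, one_mul, mul_one,
      inv_mul_cancel] at k1 k2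
    apply Prod.ext
    · show y.1 * x.1 = x.1 * y.1
      have := congrArg (fun z => y.1 * x.1 * z) k1
      simpa [mul_assoc] using this
    · show y.2 * x.2 = x.2 * y.2
      have := congrArg (fun z => y.2 * x.2 * z) k2
      simpa [mul_assoc] using this.symm
  obtain ⟨e1⟩ := quot_center_equiv φ hsurj hc
  obtain ⟨e2⟩ := prod_quot_center_equiv (Matrix.SpecialLinearGroup (Fin 2) F)
    (Matrix.SpecialLinearGroup (Fin 2) F)
  exact ⟨e1.trans e2⟩

end Cfsg.Agent.S0299
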