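import Cfsg.Statements.S0301
import Mathlib
import Cfsg.Agent.S0302
import Cfsg.Agent.S0286
import Cfsg.Agent.S0269
import Cfsg.Agent.S0245
import Cfsg.Agent.S0246
import Cfsg.Agent.Lib.Helper16.SpinQuot
import Cfsg.Agent.Lib.Helper16.SpinForms
import Cfsg.Agent.Lib.Helper3.OmegaTools
import Cfsg.Agent.Lib.Helper3.OrthCount

set_option autoImplicit false
open Cfsg

namespace Cfsg.Agent.S0301

open Matrix Cfsg.Agent.Lib.Helper16 Cfsg.Agent.Lib.Helper3 Cfsg.Agent.S0302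

variable {F : Type*} [Field F]

/-- Identification of the index types of `4 × 4` matrices. -/
def sE : Fin 4 ≃ Fin 2 ⊕ Fin 2 where
  toFun := ![Sum.inl 0, Sum.inl 1, Sum.inr 0, Sum.inr 1]
  invFun := Sum.elim ![0, 1] ![2, 3]
  left_inv := by intro i; fin_cases i <;> rfl
  right_inv := by rintro (i | i) <;> fin_cases i <;> rfl

theorem sE_apply (i : Fin 4) : sE i = ![Sum.inl 0, Sum.inl 1, Sum.inr 0, Sum.inr 1] i := rfl

/-- A matrix on `Fin 2 ⊕ Fin 2` as a matrix on `Fin 4`. -/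
def gM (A : Matrix (Fin 2 ⊕ Fin 2) (Fin 2 ⊕ Fin 2) F) : Matrix (Fin 4) (Fin 4) F :=
  A.submatrix sE sE

theorem gM_mul (A B : Matrix (Fin 2 ⊕ Fin 2) (Fin 2 ⊕ Fin 2) F) : gM (A * B) = gM A * gM B := by
  unfold gM
  rw [Matrix.submatrix_mul_equiv]

theorem gM_one : gM (1 : Matrix (Fin 2 ⊕ Fin 2) (Fin 2 ⊕ Fin 2) F) = 1 := by
  unfold gM
  rw [Matrix.submatrix_one_equiv]

/-- The symplectic Gram matrix in `Fin 4` coordinates. -/
def J4 : Matrix (Fin 4) (Fin 4) F := !![0, 0, -1, 0; 0, 0, 0, -1; 1, 0, 0, 0; 0, 1, 0, 0]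

theorem gM_J : gM (Matrix.J (Fin 2) F) = J4 := by
  ext i j
  fin_cases i <;> fin_cases j <;> simp [gM, J4, Matrix.J, sE_apply]

theorem gM_rows (A : Matrix (Fin 2 ⊕ Fin 2) (Fin 2 ⊕ Fin 2) F)
    (hA : A ∈ Matrix.symplecticGroup (Fin 2) F) : gM A * J4 * (gM A)ᵀ = J4 := by
  rw [SymplecticGroup.mem_iff] at hA
  have h := congrArg gM hA
  rw [gM_mul, gM_mul, gM_J] at h
  exact h

theorem gM_cols (A : Matrix (Fin 2 ⊕ Fin 2) (Fin 2 ⊕ Fin 2) F)
    (hA : A ∈ Matrix.symplecticGroup (Fin 2) F) : (gM A)ᵀ * J4 * gM A = J4 := by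
  rw [SymplecticGroup.mem_iff'] at hA
  have h := congrArg gM hA
  rw [gM_mul, gM_mul, gM_J] at h
  exact h

theorem gM_det (A : Matrix (Fin 2 ⊕ Fin 2) (Fin 2 ⊕ Fin 2) F)
    (hA : A ∈ Matrix.symplecticGroup (Fin 2) F) : (gM A).det = 1 := by
  unfold gM
  rw [Matrix.det_submatrix_equiv_self, SymplecticGroup.det_eq_one hA]

/-- `W g` preserves the hyperplane `v (inl 1) = v (inr 1)` when `gᵀ J g = J`. -/
theorem K1 (g : Matrix (Fin 4) (Fin 4) F) (hg : gᵀ * J4 * g = J4) (v : Fin 3 ⊕ Fin 3 → F) :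
    (W g *ᵥ v) (Sum.inl 1) - (W g *ᵥ v) (Sum.inr 1) = v (Sum.inl 1) - v (Sum.inr 1) := by
  have r01 := congrFun (congrFun hg 0) 1
  have r02 := congrFun (congrFun hg 0) 2
  have r03 := congrFun (congrFun hg 0) 3
  have r23 := congrFun (congrFun hg 2) 3
  have r31 := congrFun (congrFun hg 3) 1
  have r12 := congrFun (congrFun hg 1) 2
  simp [Matrix.mul_apply, Fin.sum_univ_four, J4] at r01 r02 r03 r23 r31 r12
  simp [W, pr, Matrix.mulVec, dotProduct, Fintype.sum_sum_type, Fin.sum_univ_three]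
  linear_combination (-(v (Sum.inl 0))) * r01 + (-(v (Sum.inl 1))) * r02
    + (-(v (Sum.inl 2))) * r03 + (-(v (Sum.inr 0))) * r23 + (-(v (Sum.inr 1))) * r31
    + (-(v (Sum.inr 2))) * r12

/-- The bivector of the symplectic form. -/
def w0 : Fin 3 ⊕ Fin 3 → F := Sum.elim ![0, 1, 0] ![0, -1, 0]

/-- `W g` fixes the bivector of the symplectic form when `g J gᵀ = J`. -/
theorem K2 (g : Matrix (Fin 4) (Fin 4) F) (hg : g * J4 * gᵀ = J4) :
    W g *ᵥ (w0 : Fin 3 ⊕ Fin 3 → F) = w0 := by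
  have r01 := congrFun (congrFun hg 0) 1
  have r02 := congrFun (congrFun hg 0) 2
  have r03 := congrFun (congrFun hg 0) 3
  have r23 := congrFun (congrFun hg 2) 3
  have r31 := congrFun (congrFun hg 3) 1
  have r12 := congrFun (congrFun hg 1) 2
  simp [Matrix.mul_apply, Fin.sum_univ_four, J4] at r01 r02 r03 r23 r31 r12
  funext P
  rcases P with i | i <;> fin_cases i <;>
    simp [W, pr, w0, Matrix.mulVec, dotProduct, Fintype.sum_sum_type, Fin.sum_univ_three]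
  · linear_combination (-1 : F) * r01
  · linear_combination (-1 : F) * r02
  · linear_combination (-1 : F) * r03
  · linear_combination (-1 : F) * r23
  · linear_combination (-1 : F) * r31
  · linear_combination (-1 : F) * r12

/-- The embedding of the five-dimensional space as the hyperplane `v (inl 1) = v (inr 1)`. -/
def iota (u : Unit ⊕ (Fin 2 ⊕ Fin 2) → F) : Fin 3 ⊕ Fin 3 → F :=
  Sum.elim ![u (Sum.inr (Sum.inl 0)), u (Sum.inl ()), u (Sum.inr (Sum.inl 1))]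
    ![u (Sum.inr (Sum.inr 0)), u (Sum.inl ()), u (Sum.inr (Sum.inr 1))]

/-- A left inverse of `iota`. -/
def piv (v : Fin 3 ⊕ Fin 3 → F) : Unit ⊕ (Fin 2 ⊕ Fin 2) → F :=
  Sum.elim (fun _ => v (Sum.inl 1))
    (Sum.elim ![v (Sum.inl 0), v (Sum.inl 2)] ![v (Sum.inr 0), v (Sum.inr 2)])

theorem piv_iota (u : Unit ⊕ (Fin 2 ⊕ Fin 2) → F) : piv (iota u) = u := by
  funext b
  rcases b with ⟨⟩ | i | i
  · rfl
  · fin_cases i <;> rfl
  · fin_cases i <;> rfl

theorem iota_piv (v : Fin 3 ⊕ Fin 3 → F) (hv : v (Sum.inl 1) = v (Sum.inr 1)) :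
    iota (piv v) = v := by
  funext x
  rcases x with i | i <;> fin_cases i
  · rfl
  · rfl
  · rfl
  · rfl
  · exact hv
  · rfl

theorem quad_iota (u : Unit ⊕ (Fin 2 ⊕ Fin 2) → F) :
    Cfsg.quadFormPlus 3 F (iota u) = Cfsg.quadFormOdd 2 F u := by
  unfold Cfsg.quadFormPlus Cfsg.quadFormOdd
  simp [iota, Fin.sum_univ_three, Fin.sum_univ_two]
  ring

/-- `iota` as a linear map. -/
def iotaL : (Unit ⊕ (Fin 2 ⊕ Fin 2) → F) →ₗ[F] (Fin 3 ⊕ Fin 3 → F) where
  toFun := iota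
  map_add' u u' := by
    funext x
    rcases x with i | i <;> fin_cases i <;> rfl
  map_smul' c u := by
    funext x
    rcases x with i | i <;> fin_cases i <;> rfl

/-- `piv` as a linear map. -/
def pivL : (Fin 3 ⊕ Fin 3 → F) →ₗ[F] (Unit ⊕ (Fin 2 ⊕ Fin 2) → F) where
  toFun := piv
  map_add' v v' := by
    funext b
    rcases b with ⟨⟩ | i | i
    · rfl
    · fin_cases i <;> rfl
    · fin_cases i <;> rfl
  map_smul' c v := by
    funext b
    rcases b with ⟨⟩ | i | i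
    · rfl
    · fin_cases i <;> rfl
    · fin_cases i <;> rfl

/-- The induced `5 × 5` matrix. -/
noncomputable def nM (g : Matrix (Fin 4) (Fin 4) F) :
    Matrix (Unit ⊕ (Fin 2 ⊕ Fin 2)) (Unit ⊕ (Fin 2 ⊕ Fin 2)) F :=
  LinearMap.toMatrix' (pivL ∘ₗ (W g).mulVecLin ∘ₗ iotaL)

theorem nM_mulVec (g : Matrix (Fin 4) (Fin 4) F) (u : Unit ⊕ (Fin 2 ⊕ Fin 2) → F) :
    nM g *ᵥ u = piv (W g *ᵥ iota u) := by
  unfold nM
  rw [LinearMap.toMatrix'_mulVec]
  rfl

theorem K1c (A : Matrix (Fin 2 ⊕ Fin 2) (Fin 2 ⊕ Fin 2) F)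
    (hA : A ∈ Matrix.symplecticGroup (Fin 2) F) (u : Unit ⊕ (Fin 2 ⊕ Fin 2) → F) :
    (W (gM A) *ᵥ iota u) (Sum.inl 1) = (W (gM A) *ᵥ iota u) (Sum.inr 1) := by
  have h := K1 (gM A) (gM_cols A hA) (iota u)
  have e : (iota u) (Sum.inl 1) - (iota u) (Sum.inr 1) = 0 := by
    show u (Sum.inl ()) - u (Sum.inl ()) = 0
    ring
  rw [e] at h
  exact sub_eq_zero.1 h

theorem nM_mul (A B : Matrix (Fin 2 ⊕ Fin 2) (Fin 2 ⊕ Fin 2) F)
    (hB : B ∈ Matrix.symplecticGroup (Fin 2) F) :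
    nM (gM (A * B)) = nM (gM A) * nM (gM B) := by
  apply Matrix.mulVec_injective
  funext u
  rw [← Matrix.mulVec_mulVec, nM_mulVec, nM_mulVec, nM_mulVec, iota_piv _ (K1c B hB u), gM_mul,
    W_mul, Matrix.mulVec_mulVec]

theorem nM_one : nM (gM (1 : Matrix (Fin 2 ⊕ Fin 2) (Fin 2 ⊕ Fin 2) F)) = 1 := by
  apply Matrix.mulVec_injective
  funext u
  rw [nM_mulVec, gM_one, W_one, Matrix.one_mulVec, Matrix.one_mulVec, piv_iota]

theorem nM_quad (A : Matrix (Fin 2 ⊕ Fin 2) (Fin 2 ⊕ Fin 2) F)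
    (hA : A ∈ Matrix.symplecticGroup (Fin 2) F) (u : Unit ⊕ (Fin 2 ⊕ Fin 2) → F) :
    Cfsg.quadFormOdd 2 F (nM (gM A) *ᵥ u) = Cfsg.quadFormOdd 2 F u := by
  rw [← quad_iota, nM_mulVec, iota_piv _ (K1c A hA u), W_quad, gM_det A hA, one_mul, quad_iota]

/-- The representation of `Sp₄` on the five-dimensional orthogonal space. -/
noncomputable def nHom : Matrix.symplecticGroup (Fin 2) F →*
    ↥(Cfsg.isometryGroup F (Cfsg.quadFormOdd 2 F)) where
  toFun A := ⟨⟨nM (gM A.1), nM (gM (A⁻¹).1),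
      by
        rw [← nM_mul _ _ (A⁻¹).2]
        have : A.1 * (A⁻¹).1 = 1 := congrArg Subtype.val (mul_inv_cancel A)
        rw [this]
        exact nM_one,
      by
        rw [← nM_mul _ _ A.2]
        have : (A⁻¹).1 * A.1 = 1 := congrArg Subtype.val (inv_mul_cancel A)
        rw [this]
        exact nM_one⟩,
    (Cfsg.Agent.Lib.Helper3.mem_isometryGroup_iff _ _).2 (fun u => nM_quad A.1 A.2 u)⟩
  map_one' := by
    apply Subtype.ext
    apply Units.ext
    exact nM_one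
  map_mul' A B := by
    apply Subtype.ext
    apply Units.ext
    exact nM_mul A.1 B.1 B.2

theorem nHom_coe (A : Matrix.symplecticGroup (Fin 2) F) :
    (((nHom A : ↥(Cfsg.isometryGroup F (Cfsg.quadFormOdd 2 F))) :
      Matrix.GeneralLinearGroup (Unit ⊕ (Fin 2 ⊕ Fin 2)) F) :
        Matrix (Unit ⊕ (Fin 2 ⊕ Fin 2)) (Unit ⊕ (Fin 2 ⊕ Fin 2)) F) = nM (gM A.1) := rfl

theorem nHom_ker_le_center (h2 : (2 : F) ≠ 0) :
    (nHom (F := F)).ker ≤ Subgroup.center (Matrix.symplecticGroup (Fin 2) F) := by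
  intro A hA
  rw [MonoidHom.mem_ker] at hA
  have e := congrArg (fun x : ↥(Cfsg.isometryGroup F (Cfsg.quadFormOdd 2 F)) =>
    ((x : Matrix.GeneralLinearGroup (Unit ⊕ (Fin 2 ⊕ Fin 2)) F) :
        Matrix (Unit ⊕ (Fin 2 ⊕ Fin 2)) (Unit ⊕ (Fin 2 ⊕ Fin 2)) F)) hA
  simp only [nHom_coe] at e
  have e1 : nM (gM A.1) = 1 := e
  -- `W g` fixes the hyperplane pointwise
  have hfix : ∀ u : Unit ⊕ (Fin 2 ⊕ Fin 2) → F, W (gM A.1) *ᵥ iota u = iota u := by
    intro u
    have h := nM_mulVec (gM A.1) u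
    rw [e1, Matrix.one_mulVec] at h
    have h' := congrArg iota h
    rw [iota_piv _ (K1c A.1 A.2 u)] at h'
    exact h'.symm
  have hw := K2 (gM A.1) (gM_rows A.1 A.2)
  have hW : W (gM A.1) = 1 := by
    apply Matrix.mulVec_injective
    funext v
    rw [Matrix.one_mulVec]
    set t : F := (v (Sum.inl 1) - v (Sum.inr 1)) / 2 with ht
    have hv : v = iota (piv (v - t • w0)) + t • w0 := by
      rw [iota_piv]
      · abel
      · show v (Sum.inl 1) - t * 1 = v (Sum.inr 1) - t * (-1)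
        rw [ht]
        field_simp
        ring
    conv_lhs => rw [hv]
    rw [Matrix.mulVec_add, Matrix.mulVec_smul, hfix, hw]
    exact hv.symm
  have hk := wHom_ker (⟨gM A.1, gM_det A.1 A.2⟩ : Matrix.SpecialLinearGroup (Fin 4) F) (by
    apply Subtype.ext
    apply Units.ext
    exact hW)
  have hsc : A.1 = (gM A.1 0 0) • (1 : Matrix (Fin 2 ⊕ Fin 2) (Fin 2 ⊕ Fin 2) F) := by
    ext x y
    have h := congrFun (congrFun hk.2 (sE.symm x)) (sE.symm y)
    simp only [gM, Matrix.submatrix_apply, Equiv.apply_symm_apply] at h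
    rw [h]
    simp [Matrix.scalar_apply, Matrix.diagonal_apply, Matrix.one_apply]
    rfl
  rw [Subgroup.mem_center_iff]
  intro B
  apply Subtype.ext
  show B.1 * A.1 = A.1 * B.1
  rw [hsc, Matrix.mul_smul, Matrix.smul_mul, mul_one, one_mul]

/-- PΩ_5(q) is isomorphic to PSp_4(q) for q odd. -/
theorem result {F : Type*} [Field F] [Fintype F] (hodd : Odd (Fintype.card F)) : Nonempty (Cfsg.POmega F (Cfsg.quadFormOdd 2 F) ≃* Cfsg.PSp 2 F) := by
  classical
  have h2 : (2 : F) ≠ 0 := Cfsg.Agent.S0286.two_ne_zero_of_odd hodd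
  have hq3 : 3 ≤ Fintype.card F := by
    have h1 : 2 ≤ Fintype.card F := Fintype.one_lt_card
    obtain ⟨k, hk⟩ := hodd
    omega
  have hperf : commutator (Matrix.symplecticGroup (Fin 2) F) = ⊤ :=
    Cfsg.Agent.S0269.result 2 (Or.inr (Or.inl ⟨rfl, hq3⟩))
  have hG := Cfsg.Agent.S0286.card_odd_closed hodd 2
  have hS := Cfsg.Agent.S0245.result (F := F) rfl 2
  have hZ := Cfsg.Agent.S0246.result (F := F) rfl 2 (by norm_num)
  have hnd := qfOdd_nondeg 2 F h2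
  have hn : 2 ≤ Fintype.card (Unit ⊕ (Fin 2 ⊕ Fin 2)) := by
    rw [Fintype.card_sum, Fintype.card_sum, Fintype.card_unit, Fintype.card_fin]
    norm_num
  let t' : Matrix.symplecticGroup (Fin 2) F →* ↥(Cfsg.isometryGroup F (⇑(qfOdd 2 F))) := nHom
  have hrange : (nHom (F := F)).range = Cfsg.Omega F (Cfsg.quadFormOdd 2 F) := by
    have hr := range_eq_omega_odd (qfOdd 2 F) h2 hnd hn t'
      (fun x => map_mem_commutator_of_perfect t' hperf x) (by
      have hk2 : Nat.card (nHom (F := F)).ker ≤ 2 := by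
        have h1 := Subgroup.card_le_of_le (nHom_ker_le_center (F := F) h2)
        rw [hZ] at h1
        exact h1.trans (Nat.le_of_dvd (by norm_num) (Nat.gcd_dvd_left 2 _))
      show Nat.card ↥(Cfsg.isometryGroup F (Cfsg.quadFormOdd 2 F)) * Nat.card (nHom (F := F)).ker
        ≤ 4 * Nat.card (Matrix.symplecticGroup (Fin 2) F)
      rw [hG, hS]
      calc 2 * Fintype.card F ^ (2 ^ 2) * (∏ i ∈ Finset.range 2, (Fintype.card F ^ (2 * (i + 1)) - 1))
            * Nat.card (nHom (F := F)).ker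
          ≤ 2 * Fintype.card F ^ (2 ^ 2) * (∏ i ∈ Finset.range 2, (Fintype.card F ^ (2 * (i + 1)) - 1))
            * 2 := Nat.mul_le_mul_left _ hk2
        _ = 4 * (Fintype.card F ^ (2 ^ 2)
            * ∏ i ∈ Finset.range 2, (Fintype.card F ^ (2 * (i + 1)) - 1)) := by ring)
    exact hr
  let φ : Matrix.symplecticGroup (Fin 2) F →* ↥(Cfsg.Omega F (Cfsg.quadFormOdd 2 F)) :=
    nHom.codRestrict _ (fun x => hrange ▸ ⟨x, rfl⟩)
  have hsurj : Function.Surjective φ := by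
    rintro ⟨y, hy⟩
    rw [← hrange] at hy
    obtain ⟨x, rfl⟩ := hy
    exact ⟨x, rfl⟩
  have hφk : φ.ker ≤ Subgroup.center (Matrix.symplecticGroup (Fin 2) F) := by
    intro g hg
    apply nHom_ker_le_center h2
    rw [MonoidHom.mem_ker] at hg ⊢
    exact congrArg Subtype.val hg
  obtain ⟨e1⟩ := quot_center_equiv φ hsurj (central_of_perfect φ hφk hperf)
  exact ⟨e1⟩

end Cfsg.Agent.S0301
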