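import Cfsg.Statements.S0303
import Mathlib
import Cfsg.Agent.S0288
import Cfsg.Agent.S0300
import Cfsg.Agent.S0302
import Cfsg.Agent.S0278
import Cfsg.Agent.S0780
import Cfsg.Agent.S0781
import Cfsg.Agent.S0837
import Cfsg.Agent.Lib.Helper16.SpinQuot
import Cfsg.Agent.Lib.Helper16.SpinForms
import Cfsg.Agent.Lib.Helper17.NormForm
import Cfsg.Agent.Lib.Helper17.QuadExt
import Cfsg.Agent.Lib.Helper3.OmegaTools
import Cfsg.Agent.Lib.Helper3.OmegaTools2
import Cfsg.Agent.Lib.Helper3.OrthCount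

set_option autoImplicit false
open Cfsg

namespace Cfsg.Agent.S0303

open Matrix Cfsg.Agent.Lib.Helper16 Cfsg.Agent.Lib.Helper3 Cfsg.Agent.Lib.Helper17
open Cfsg.Agent.S0302 Cfsg.Agent.S0300

section General

variable {K : Type*} [Field K]

/-- The swap of the two halves of the coordinates of the exterior square. -/
def Sw : Matrix (Fin 3 ⊕ Fin 3) (Fin 3 ⊕ Fin 3) K := Matrix.fromBlocks 0 1 1 0

theorem Sw_mulVec (x : Fin 3 ⊕ Fin 3 → K) :
    (Sw : Matrix (Fin 3 ⊕ Fin 3) (Fin 3 ⊕ Fin 3) K) *ᵥ x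
      = Sum.elim (fun i => x (Sum.inr i)) (fun i => x (Sum.inl i)) := by
  funext P
  rcases P with i | i <;>
    simp [Sw, Matrix.mulVec, dotProduct, Fintype.sum_sum_type, Matrix.one_apply]

theorem quad_polar (x y : Fin 3 ⊕ Fin 3 → K) :
    Cfsg.quadFormPlus 3 K (x + y) - Cfsg.quadFormPlus 3 K x - Cfsg.quadFormPlus 3 K y
      = x ⬝ᵥ ((Sw : Matrix (Fin 3 ⊕ Fin 3) (Fin 3 ⊕ Fin 3) K) *ᵥ y) := by
  rw [Sw_mulVec]
  unfold Cfsg.quadFormPlus
  simp [dotProduct, Fintype.sum_sum_type, Fin.sum_univ_three]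
  ring

theorem W_bilin (h : Matrix (Fin 4) (Fin 4) K) (x y : Fin 3 ⊕ Fin 3 → K) :
    (W h *ᵥ x) ⬝ᵥ ((Sw : Matrix (Fin 3 ⊕ Fin 3) (Fin 3 ⊕ Fin 3) K) *ᵥ (W h *ᵥ y))
      = h.det * (x ⬝ᵥ ((Sw : Matrix (Fin 3 ⊕ Fin 3) (Fin 3 ⊕ Fin 3) K) *ᵥ y)) := by
  rw [← quad_polar, ← quad_polar, ← Matrix.mulVec_add, W_quad, W_quad, W_quad]
  ring

theorem ext_dot {n : Type*} [Fintype n] [DecidableEq n] (M N : Matrix n n K)
    (h : ∀ x y : n → K, x ⬝ᵥ (M *ᵥ y) = x ⬝ᵥ (N *ᵥ y)) : M = N := by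
  ext i j
  have := h (Pi.single i 1) (Pi.single j 1)
  rw [Matrix.mulVec_single_one, Matrix.mulVec_single_one, single_one_dotProduct,
    single_one_dotProduct] at this
  exact this

theorem W_S_W (h : Matrix (Fin 4) (Fin 4) K) :
    (W h)ᵀ * Sw * W h = h.det • (Sw : Matrix (Fin 3 ⊕ Fin 3) (Fin 3 ⊕ Fin 3) K) := by
  apply ext_dot
  intro x y
  rw [← Matrix.mulVec_mulVec, ← Matrix.mulVec_mulVec, Matrix.dotProduct_mulVec,
    Matrix.vecMul_transpose, W_bilin, Matrix.smul_mulVec, dotProduct_smul, smul_eq_mul]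

theorem W_transpose (h : Matrix (Fin 4) (Fin 4) K) : W hᵀ = (W h)ᵀ := by
  ext P P'
  simp only [W, Matrix.of_apply, Matrix.transpose_apply]
  ring

theorem W_map (σ : K →+* K) (h : Matrix (Fin 4) (Fin 4) K) : W (h.map σ) = (W h).map σ := by
  ext P P'
  simp only [W, Matrix.of_apply, Matrix.map_apply, map_sub, map_mul]

theorem W_S (σ : K →+* K) (g : Matrix (Fin 4) (Fin 4) K) (hdet : g.det = 1)
    (hu : gᵀ * g.map σ = 1) :
    W g * Sw = (Sw : Matrix (Fin 3 ⊕ Fin 3) (Fin 3 ⊕ Fin 3) K) * (W g).map σ := by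
  have hdet' : (g.map σ).det = 1 := by
    have h1 : (g.map σ).det = σ g.det := (RingHom.map_det σ g).symm
    rw [h1, hdet, map_one]
  have h1 : (g.map σ)ᵀ * g = 1 := by
    have := congrArg Matrix.transpose hu
    rwa [Matrix.transpose_mul, Matrix.transpose_transpose, Matrix.transpose_one] at this
  have h2 : (W (g.map σ))ᵀ * W g = 1 := by
    rw [← W_transpose, ← W_mul, h1, W_one]
  have h3 : W g * (W (g.map σ))ᵀ = 1 := mul_eq_one_comm.1 h2
  have h4 := W_S_W (g.map σ)
  rw [hdet', one_smul] at h4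
  calc W g * Sw = W g * ((W (g.map σ))ᵀ * Sw * W (g.map σ)) := by rw [h4]
    _ = (W g * (W (g.map σ))ᵀ) * Sw * W (g.map σ) := by simp only [Matrix.mul_assoc]
    _ = Sw * (W g).map σ := by rw [h3, Matrix.one_mul, W_map]

end General

section Unitary

variable {F K : Type*} [Field F] [Fintype F] [Field K] [Fintype K] [Algebra F K] {a b : F}

/-- The doubling map `β ↦ (β, σ β)`. -/
noncomputable def dblL : (Fin 3 → K) →ₗ[F] (Fin 3 ⊕ Fin 3 → K) where
  toFun β := Sum.elim β (fun i => sg F K (β i))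
  map_add' β γ := by
    funext P
    rcases P with i | i
    · rfl
    · show sg F K ((β + γ) i) = sg F K (β i) + sg F K (γ i)
      rw [Pi.add_apply, map_add]
  map_smul' c β := by
    simp only [RingHom.id_apply]
    funext P
    rcases P with i | i
    · rfl
    · show sg F K ((c • β) i) = c • sg F K (β i)
      rw [Pi.smul_apply, map_smul]

theorem dblL_apply (β : Fin 3 → K) :
    dblL (F := F) β = Sum.elim β (fun i => sg F K (β i)) := rfl

/-- The real structure on the exterior square. -/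
noncomputable def tau (F : Type*) [Field F] [Fintype F] [Algebra F K]
    (x : Fin 3 ⊕ Fin 3 → K) : Fin 3 ⊕ Fin 3 → K :=
  (Sw : Matrix (Fin 3 ⊕ Fin 3) (Fin 3 ⊕ Fin 3) K) *ᵥ (fun P => sg F K (x P))

theorem tau_dbl (hK : Fintype.card K = Fintype.card F ^ 2) (β : Fin 3 → K) :
    tau F (dblL (F := F) β) = dblL (F := F) β := by
  unfold tau
  rw [Sw_mulVec]
  funext P
  rcases P with i | i
  · show sg F K (sg F K (β i)) = β i
    exact sg_sg hK _
  · rfl

theorem dbl_of_tau (x : Fin 3 ⊕ Fin 3 → K) (hx : tau F x = x) :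
    dblL (F := F) (fun i => x (Sum.inl i)) = x := by
  funext P
  rcases P with i | i
  · rfl
  · have := congrFun hx (Sum.inr i)
    unfold tau at this
    rw [Sw_mulVec] at this
    exact this

theorem tau_W (g : Matrix (Fin 4) (Fin 4) K) (hdet : g.det = 1)
    (hu : gᵀ * g.map (sg F K : K →+* K) = 1) (x : Fin 3 ⊕ Fin 3 → K) :
    tau F (W g *ᵥ x) = W g *ᵥ tau F x := by
  unfold tau
  have h1 : (fun P => sg F K ((W g *ᵥ x) P))
      = ((W g).map (sg F K : K →+* K)) *ᵥ (fun P => sg F K (x P)) := by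
    funext P
    exact RingHom.map_mulVec (sg F K : K →+* K) (W g) x P
  rw [h1, Matrix.mulVec_mulVec, ← W_S (sg F K : K →+* K) g hdet hu, Matrix.mulVec_mulVec]

theorem key (hK : Fintype.card K = Fintype.card F ^ 2) (g : Matrix (Fin 4) (Fin 4) K)
    (hdet : g.det = 1) (hu : gᵀ * g.map (sg F K : K →+* K) = 1) (β : Fin 3 → K) :
    dblL (F := F) (fun i => (W g *ᵥ dblL (F := F) β) (Sum.inl i)) = W g *ᵥ dblL (F := F) β :=
  dbl_of_tau _ (by rw [tau_W g hdet hu, tau_dbl hK])

/-- Coordinates of the fixed space of the real structure. -/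
noncomputable def phiL (D : NormData F K (Fintype.card F) a b) :
    (Fin 3 → K) →ₗ[F] ((Fin 2 ⊕ Fin 2) ⊕ Fin 2 → F) where
  toFun β := Sum.elim (Sum.elim (D.P1 (β 0, β 1)) (D.P2 (β 0, β 1))) (D.cE (β 2))
  map_add' β γ := by
    have e : ((β + γ) 0, (β + γ) 1) = (β 0, β 1) + (γ 0, γ 1) := rfl
    funext x
    rcases x with (i | i) | i
    · show D.P1 ((β + γ) 0, (β + γ) 1) i = D.P1 (β 0, β 1) i + D.P1 (γ 0, γ 1) i
      rw [e, map_add]
      rfl
    · show D.P2 ((β + γ) 0, (β + γ) 1) i = D.P2 (β 0, β 1) i + D.P2 (γ 0, γ 1) i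
      rw [e, map_add]
      rfl
    · show D.cE ((β + γ) 2) i = D.cE (β 2) i + D.cE (γ 2) i
      rw [Pi.add_apply, map_add]
      rfl
  map_smul' c β := by
    simp only [RingHom.id_apply]
    have e : ((c • β) 0, (c • β) 1) = c • (β 0, β 1) := rfl
    funext x
    rcases x with (i | i) | i
    · show D.P1 ((c • β) 0, (c • β) 1) i = c • D.P1 (β 0, β 1) i
      rw [e, map_smul]
      rfl
    · show D.P2 ((c • β) 0, (c • β) 1) i = c • D.P2 (β 0, β 1) i
      rw [e, map_smul]
      rfl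
    · show D.cE ((c • β) 2) i = c • D.cE (β 2) i
      rw [Pi.smul_apply, map_smul]
      rfl

theorem phiL_apply (D : NormData F K (Fintype.card F) a b) (β : Fin 3 → K) :
    phiL D β = Sum.elim (Sum.elim (D.P1 (β 0, β 1)) (D.P2 (β 0, β 1))) (D.cE (β 2)) := rfl

theorem phiL_injective (D : NormData F K (Fintype.card F) a b) :
    Function.Injective (phiL D) := by
  rw [← LinearMap.ker_eq_bot, LinearMap.ker_eq_bot']
  intro β hβ
  have h1 : D.P1 (β 0, β 1) = 0 := by
    funext i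
    exact congrFun hβ (Sum.inl (Sum.inl i))
  have h2 : D.P2 (β 0, β 1) = 0 := by
    funext i
    exact congrFun hβ (Sum.inl (Sum.inr i))
  have h3 : D.cE (β 2) = 0 := by
    funext i
    exact congrFun hβ (Sum.inr i)
  obtain ⟨e0, e1⟩ := D.hinj _ _ h1 h2
  have e2 : β 2 = 0 := D.cE.injective (h3.trans (map_zero D.cE).symm)
  funext i
  fin_cases i
  · exact e0
  · exact e1
  · exact e2

theorem phiL_bijective (hK : Fintype.card K = Fintype.card F ^ 2)
    (D : NormData F K (Fintype.card F) a b) : Function.Bijective (phiL D) := by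
  classical
  rw [Fintype.bijective_iff_injective_and_card]
  refine ⟨phiL_injective D, ?_⟩
  rw [Fintype.card_fun, Fintype.card_fun, Fintype.card_fin, hK, Fintype.card_sum,
    Fintype.card_sum, Fintype.card_fin]
  ring

/-- The coordinates as a linear equivalence. -/
noncomputable def phiE (hK : Fintype.card K = Fintype.card F ^ 2)
    (D : NormData F K (Fintype.card F) a b) :
    (Fin 3 → K) ≃ₗ[F] ((Fin 2 ⊕ Fin 2) ⊕ Fin 2 → F) :=
  LinearEquiv.ofBijective (phiL D) (phiL_bijective hK D)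

theorem phiE_apply (hK : Fintype.card K = Fintype.card F ^ 2)
    (D : NormData F K (Fintype.card F) a b) (β : Fin 3 → K) : phiE hK D β = phiL D β := rfl

theorem phiL_symm (hK : Fintype.card K = Fintype.card F ^ 2)
    (D : NormData F K (Fintype.card F) a b) (v : (Fin 2 ⊕ Fin 2) ⊕ Fin 2 → F) :
    phiL D ((phiE hK D).symm v) = v :=
  (phiE hK D).apply_symm_apply v

theorem quad_phi (D : NormData F K (Fintype.card F) a b) (β : Fin 3 → K) :
    algebraMap F K (Cfsg.quadFormMinus 2 F a b (phiL D β))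
      = Cfsg.quadFormPlus 3 K (dblL (F := F) β) := by
  have h1 := D.hN2 (β 0) (β 1)
  have h2 := D.hN1 (β 2)
  unfold Cfsg.quadFormMinus Cfsg.quadFormPlus
  rw [map_add]
  have e1 : (∑ i : Fin 2, phiL D β (Sum.inl (Sum.inl i)) * phiL D β (Sum.inl (Sum.inr i)))
      = ∑ s, D.P1 (β 0, β 1) s * D.P2 (β 0, β 1) s := rfl
  have e2 : phiL D β (Sum.inr 0) ^ 2 + a * phiL D β (Sum.inr 0) * phiL D β (Sum.inr 1)
        + b * phiL D β (Sum.inr 1) ^ 2
      = (D.cE (β 2) 0) ^ 2 + a * D.cE (β 2) 0 * D.cE (β 2) 1 + b * (D.cE (β 2) 1) ^ 2 := rfl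
  rw [e1, e2, h1, h2, Fin.sum_univ_three]
  simp only [dblL_apply, Sum.elim_inl, Sum.elim_inr, sg_apply]

/-- The matrix of the action of `g` on the six-dimensional space over `F`. -/
noncomputable def uM (hK : Fintype.card K = Fintype.card F ^ 2)
    (D : NormData F K (Fintype.card F) a b) (g : Matrix (Fin 4) (Fin 4) K) :
    Matrix ((Fin 2 ⊕ Fin 2) ⊕ Fin 2) ((Fin 2 ⊕ Fin 2) ⊕ Fin 2) F :=
  LinearMap.toMatrix' (phiL D ∘ₗ LinearMap.funLeft F K Sum.inl
    ∘ₗ ((W g).mulVecLin.restrictScalars F) ∘ₗ dblL ∘ₗ (phiE hK D).symm.toLinearMap)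

theorem uM_mulVec (hK : Fintype.card K = Fintype.card F ^ 2)
    (D : NormData F K (Fintype.card F) a b) (g : Matrix (Fin 4) (Fin 4) K)
    (v : (Fin 2 ⊕ Fin 2) ⊕ Fin 2 → F) :
    uM hK D g *ᵥ v
      = phiL D (fun i => (W g *ᵥ dblL (F := F) ((phiE hK D).symm v)) (Sum.inl i)) := by
  unfold uM
  rw [LinearMap.toMatrix'_mulVec]
  rfl

theorem uM_mul (hK : Fintype.card K = Fintype.card F ^ 2)
    (D : NormData F K (Fintype.card F) a b) (g h : Matrix (Fin 4) (Fin 4) K)
    (hdet : h.det = 1) (hu : hᵀ * h.map (sg F K : K →+* K) = 1) :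
    uM hK D (g * h) = uM hK D g * uM hK D h := by
  apply Matrix.mulVec_injective
  funext v
  rw [← Matrix.mulVec_mulVec, uM_mulVec, uM_mulVec, uM_mulVec]
  have e : (phiE hK D).symm
      (phiL D (fun i => (W h *ᵥ dblL (F := F) ((phiE hK D).symm v)) (Sum.inl i)))
      = (fun i => (W h *ᵥ dblL (F := F) ((phiE hK D).symm v)) (Sum.inl i)) :=
    (phiE hK D).symm_apply_apply _
  rw [e, key hK h hdet hu, W_mul, Matrix.mulVec_mulVec]

theorem uM_one (hK : Fintype.card K = Fintype.card F ^ 2)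
    (D : NormData F K (Fintype.card F) a b) :
    uM hK D (1 : Matrix (Fin 4) (Fin 4) K) = 1 := by
  apply Matrix.mulVec_injective
  funext v
  rw [uM_mulVec, W_one, Matrix.one_mulVec, Matrix.one_mulVec]
  exact phiL_symm hK D v

theorem uM_quad (hK : Fintype.card K = Fintype.card F ^ 2)
    (D : NormData F K (Fintype.card F) a b) (g : Matrix (Fin 4) (Fin 4) K)
    (hdet : g.det = 1) (hu : gᵀ * g.map (sg F K : K →+* K) = 1)
    (v : (Fin 2 ⊕ Fin 2) ⊕ Fin 2 → F) :
    Cfsg.quadFormMinus 2 F a b (uM hK D g *ᵥ v) = Cfsg.quadFormMinus 2 F a b v := by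
  apply (algebraMap F K).injective
  rw [uM_mulVec, quad_phi, key hK g hdet hu, W_quad, hdet, one_mul, ← quad_phi, phiL_symm]

theorem su_unitary (A : ↥(Cfsg.SU 4 K (Fintype.card F))) :
    (A.1.1)ᵀ * (A.1.1).map (sg F K : K →+* K) = 1 := by
  refine (Cfsg.Agent.S0837.pres_iff (sg F K : K →+* K) A.1.1).1 ?_
  intro u v
  rw [← Cfsg.Agent.S0837.herm_eq (sg F K : K →+* K) (fun x => rfl) 4,
    ← Cfsg.Agent.S0837.herm_eq (sg F K : K →+* K) (fun x => rfl) 4]
  exact A.2 u v

/-- The action of `SU₄` on the fixed space of the real structure of the exterior square. -/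
noncomputable def uHom (hK : Fintype.card K = Fintype.card F ^ 2)
    (D : NormData F K (Fintype.card F) a b) :
    ↥(Cfsg.SU 4 K (Fintype.card F)) →* ↥(Cfsg.isometryGroup F (Cfsg.quadFormMinus 2 F a b)) where
  toFun A := ⟨⟨uM hK D A.1.1, uM hK D (A⁻¹).1.1,
      by
        rw [← uM_mul hK D _ _ (A⁻¹).1.2 (su_unitary A⁻¹)]
        have : A.1.1 * (A⁻¹).1.1 = 1 :=
          congrArg (fun B : ↥(Cfsg.SU 4 K (Fintype.card F)) => B.1.1) (mul_inv_cancel A)
        rw [this]
        exact uM_one hK D,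
      by
        rw [← uM_mul hK D _ _ A.1.2 (su_unitary A)]
        have : (A⁻¹).1.1 * A.1.1 = 1 :=
          congrArg (fun B : ↥(Cfsg.SU 4 K (Fintype.card F)) => B.1.1) (inv_mul_cancel A)
        rw [this]
        exact uM_one hK D⟩,
    (Cfsg.Agent.Lib.Helper3.mem_isometryGroup_iff _ _).2
      (fun u => uM_quad hK D A.1.1 A.1.2 (su_unitary A) u)⟩
  map_one' := by
    apply Subtype.ext
    apply Units.ext
    exact uM_one hK D
  map_mul' A B := by
    apply Subtype.ext
    apply Units.ext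
    exact uM_mul hK D A.1.1 B.1.1 B.1.2 (su_unitary B)

theorem exists_sg_ne (hK : Fintype.card K = Fintype.card F ^ 2) : ∃ ε : K, sg F K ε ≠ ε := by
  by_contra hcon
  push Not at hcon
  have hsurj : Function.Surjective (algebraMap F K) := fun x => sg_fixed x (hcon x)
  have h1 := Fintype.card_le_of_surjective _ hsurj
  have hq : 2 ≤ Fintype.card F := Fintype.one_lt_card
  rw [hK] at h1
  nlinarith

theorem uHom_ker (hK : Fintype.card K = Fintype.card F ^ 2)
    (D : NormData F K (Fintype.card F) a b) (A : ↥(Cfsg.SU 4 K (Fintype.card F)))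
    (hA : uHom hK D A = 1) :
    (A.1.1 0 0 = 1 ∨ A.1.1 0 0 = -1) ∧ A.1.1 = Matrix.scalar (Fin 4) (A.1.1 0 0) := by
  have e1 : uM hK D A.1.1 = 1 :=
    congrArg (fun x : ↥(Cfsg.isometryGroup F (Cfsg.quadFormMinus 2 F a b)) =>
      ((x : Matrix.GeneralLinearGroup ((Fin 2 ⊕ Fin 2) ⊕ Fin 2) F) :
        Matrix ((Fin 2 ⊕ Fin 2) ⊕ Fin 2) ((Fin 2 ⊕ Fin 2) ⊕ Fin 2) F)) hA
  have hfix : ∀ β : Fin 3 → K, W A.1.1 *ᵥ dblL (F := F) β = dblL (F := F) β := by
    intro β
    have h := uM_mulVec hK D A.1.1 (phiE hK D β)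
    rw [e1, Matrix.one_mulVec, LinearEquiv.symm_apply_apply, phiE_apply] at h
    have h' := phiL_injective D h
    rw [← key hK A.1.1 A.1.2 (su_unitary A) β, ← h']
  obtain ⟨ε, hε⟩ := exists_sg_ne (F := F) (K := K) hK
  have hcol : ∀ i : Fin 3,
      W A.1.1 *ᵥ Pi.single (Sum.inl i) 1 = Pi.single (Sum.inl i) 1 ∧
      W A.1.1 *ᵥ Pi.single (Sum.inr i) 1 = Pi.single (Sum.inr i) 1 := by
    intro i
    have hd : ∀ c : K, dblL (F := F) (Pi.single i c)
        = c • Pi.single (Sum.inl i) 1 + sg F K c • Pi.single (Sum.inr i) 1 := by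
      intro c
      funext P
      rcases P with k | k
      · simp [dblL_apply, Pi.single_apply]
      · by_cases hki : k = i
        · simp [dblL_apply, Pi.single_apply, hki]
        · simp [dblL_apply, Pi.single_apply, hki]
    have h1 := hfix (Pi.single i 1)
    have h2 := hfix (Pi.single i ε)
    rw [hd, Matrix.mulVec_add, Matrix.mulVec_smul, Matrix.mulVec_smul] at h1 h2
    simp only [map_one, one_smul] at h1
    have hne : ε - sg F K ε ≠ 0 := sub_ne_zero.2 (Ne.symm hε)
    have hU : W A.1.1 *ᵥ Pi.single (Sum.inl i) 1 = Pi.single (Sum.inl i) 1 := by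
      funext P
      have a1 := congrFun h1 P
      have a2 := congrFun h2 P
      simp only [Pi.add_apply, Pi.smul_apply, smul_eq_mul] at a1 a2
      have : (ε - sg F K ε) * ((W A.1.1 *ᵥ Pi.single (Sum.inl i) 1) P
          - (Pi.single (Sum.inl i) 1 : Fin 3 ⊕ Fin 3 → K) P) = 0 := by
        linear_combination a2 - sg F K ε * a1
      exact sub_eq_zero.1 ((mul_eq_zero.1 this).resolve_left hne)
    refine ⟨hU, ?_⟩
    rw [hU] at h1
    exact add_left_cancel h1
  have hW : W A.1.1 = 1 := by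
    ext P P'
    have hc : W A.1.1 *ᵥ Pi.single P' 1 = Pi.single P' 1 := by
      rcases P' with i | i
      · exact (hcol i).1
      · exact (hcol i).2
    have := congrFun hc P
    rw [Matrix.mulVec_single_one] at this
    have h' : W A.1.1 P P' = (Pi.single P' 1 : Fin 3 ⊕ Fin 3 → K) P := this
    rw [Matrix.one_apply, h', Pi.single_apply]
  exact wHom_ker A.1 (Subtype.ext (Units.ext hW))

theorem uHom_ker_le_center (hK : Fintype.card K = Fintype.card F ^ 2)
    (D : NormData F K (Fintype.card F) a b) :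
    (uHom hK D).ker ≤ Subgroup.center ↥(Cfsg.SU 4 K (Fintype.card F)) := by
  intro A hA
  have h := (uHom_ker hK D A (MonoidHom.mem_ker.1 hA)).2
  rw [Subgroup.mem_center_iff]
  intro B
  apply Subtype.ext
  apply Subtype.ext
  show B.1.1 * A.1.1 = A.1.1 * B.1.1
  rw [h]
  exact (Matrix.scalar_comm _ (fun r' => Commute.all _ _) _).symm

theorem su4_perfect (hK : Fintype.card K = Fintype.card F ^ 2) :
    commutator ↥(Cfsg.SU 4 K (Fintype.card F)) = ⊤ := by
  have hgen := Cfsg.Agent.S0780.result hK 4 (by norm_num) (by norm_num)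
  rw [eq_top_iff, ← hgen, commutator_eq_closure]
  apply Subgroup.closure_mono
  rintro A ⟨v, c, hv, hA⟩
  exact Cfsg.Agent.S0781.result hK 4 (Or.inl (by norm_num)) A v c hv hA

end Unitary

/-- PΩ^-_6(q) is isomorphic to PSU_4(q). -/
theorem result {F K : Type*} [Field F] [Fintype F] [Field K] [Fintype K] {q : ℕ} (hF : Fintype.card F = q) (hK : Fintype.card K = q ^ 2) (a b : F) (hab : ∀ z₁ z₂ : F, z₁ ^ 2 + a * z₁ * z₂ + b * z₂ ^ 2 = 0 → z₁ = 0 ∧ z₂ = 0) : Nonempty (Cfsg.POmega F (Cfsg.quadFormMinus 2 F a b) ≃* Cfsg.PSU 4 K q) := by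
  classical
  subst hF
  obtain ⟨j, ρ, ρ', hs, hp, hne⟩ := exists_quadratic_ext (F := F) (K := K) rfl hK a b hab
  let _ : Algebra F K := j.toAlgebra
  obtain ⟨D⟩ := normData_of_roots (F := F) (K := K) rfl hK a b hab ρ ρ' hs hp hne
  have hq : 2 ≤ Fintype.card F := Fintype.one_lt_card
  have hperf := su4_perfect (F := F) (K := K) hK
  set f := uHom hK D with hf
  have hkerc : f.ker ≤ Subgroup.center ↥(Cfsg.SU 4 K (Fintype.card F)) := uHom_ker_le_center hK D
  have hG := Cfsg.Agent.S0288.card_minus_closed a b hab 2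
  have hSU := Cfsg.Agent.S0278.result (F := K) hK 4 (by norm_num)
  have hGS : Nat.card ↥(Cfsg.isometryGroup F (Cfsg.quadFormMinus 2 F a b))
      = 2 * Nat.card ↥(Cfsg.SU 4 K (Fintype.card F)) := by
    have hq1 : 0 < Fintype.card F + 1 := by omega
    apply Nat.eq_of_mul_eq_mul_left hq1
    have e : (Fintype.card F + 1) * (2 * Nat.card ↥(Cfsg.SU 4 K (Fintype.card F)))
        = 2 * ((Fintype.card F + 1) * Nat.card ↥(Cfsg.SU 4 K (Fintype.card F))) := by ring
    rw [e, hSU, hG]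
    generalize Fintype.card F = q
    simp only [Finset.prod_range_succ, Finset.prod_range_zero, one_mul, Nat.even_iff]
    norm_num
    ring
  have hkr := Subgroup.card_mul_index f.ker
  rw [Subgroup.index_ker] at hkr
  have hk : ∀ x : f.ker, (x.1.1.1 0 0 = 1 ∨ x.1.1.1 0 0 = -1)
      ∧ x.1.1.1 = Matrix.scalar (Fin 4) (x.1.1.1 0 0) :=
    fun x => uHom_ker hK D x.1 (MonoidHom.mem_ker.1 x.2)
  have hkc : Nat.card f.ker ≤ 2 := by
    have hinj : Function.Injective (fun x : f.ker => decide (x.1.1.1 0 0 = 1)) := by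
      intro x y hxy
      have hx := hk x
      have hy := hk y
      have h' : (x.1.1.1 0 0 = 1) ↔ (y.1.1.1 0 0 = 1) := by simpa using hxy
      have h00 : x.1.1.1 0 0 = y.1.1.1 0 0 := by
        rcases hx.1 with h1 | h1 <;> rcases hy.1 with h3 | h3
        · rw [h1, h3]
        · rw [h1]
          exact (h'.1 h1).symm
        · rw [h3]
          exact h'.2 h3
        · rw [h1, h3]
      apply Subtype.ext
      apply Subtype.ext
      apply Subtype.ext
      rw [hx.2, hy.2, h00]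
    have := Nat.card_le_card_of_injective _ hinj
    simpa using this
  have hrange : f.range = Cfsg.Omega F (Cfsg.quadFormMinus 2 F a b) := by
    by_cases h2 : (2 : F) = 0
    · have h2K : (2 : K) = 0 := by
        have := congrArg (algebraMap F K) h2
        rwa [map_ofNat, map_zero] at this
      have hk1 : Nat.card f.ker = 1 := by
        have hbot : f.ker = ⊥ := by
          rw [Subgroup.eq_bot_iff_forall]
          intro x hx
          have hx' := hk ⟨x, hx⟩
          have h1 : x.1.1 0 0 = 1 := by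
            rcases hx'.1 with h | h
            · exact h
            · rw [h]
              linear_combination -h2K
          apply Subtype.ext
          apply Subtype.ext
          rw [hx'.2, h1]
          simp
        rw [hbot, Subgroup.card_bot]
      apply range_eq_commutator_of_index_two f hperf
      rw [hk1, one_mul] at hkr
      rw [hkr, hGS]
    · have hnd := qfMinus_nondeg 2 F a b h2 hab
      have hn : 2 ≤ Fintype.card ((Fin 2 ⊕ Fin 2) ⊕ Fin 2) := by
        rw [Fintype.card_sum, Fintype.card_sum, Fintype.card_fin]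
        norm_num
      let t' : ↥(Cfsg.SU 4 K (Fintype.card F)) →*
        ↥(Cfsg.isometryGroup F (⇑(qfMinus 2 F a b))) := f
      have hr := range_eq_omega_odd (qfMinus 2 F a b) h2 hnd hn t'
        (fun x => map_mem_commutator_of_perfect t' hperf x) (by
        show Nat.card ↥(Cfsg.isometryGroup F (Cfsg.quadFormMinus 2 F a b)) * Nat.card f.ker
          ≤ 4 * Nat.card ↥(Cfsg.SU 4 K (Fintype.card F))
        rw [hGS]
        calc 2 * Nat.card ↥(Cfsg.SU 4 K (Fintype.card F)) * Nat.card f.ker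
            ≤ 2 * Nat.card ↥(Cfsg.SU 4 K (Fintype.card F)) * 2 := Nat.mul_le_mul_left _ hkc
          _ = 4 * Nat.card ↥(Cfsg.SU 4 K (Fintype.card F)) := by ring)
      exact hr
  let φ : ↥(Cfsg.SU 4 K (Fintype.card F)) →* ↥(Cfsg.Omega F (Cfsg.quadFormMinus 2 F a b)) :=
    f.codRestrict _ (fun x => hrange ▸ ⟨x, rfl⟩)
  have hsurj : Function.Surjective φ := by
    rintro ⟨y, hy⟩
    rw [← hrange] at hy
    obtain ⟨x, rfl⟩ := hy
    exact ⟨x, rfl⟩
  have hφk : φ.ker ≤ Subgroup.center ↥(Cfsg.SU 4 K (Fintype.card F)) := by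
    intro g hg
    apply hkerc
    rw [MonoidHom.mem_ker] at hg ⊢
    exact congrArg Subtype.val hg
  obtain ⟨e1⟩ := quot_center_equiv φ hsurj (central_of_perfect φ hφk hperf)
  exact ⟨e1⟩

end Cfsg.Agent.S0303
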