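import Cfsg.Statements.S0304
import Mathlib
import Cfsg.Agent.Lib.Helper3.OrthCount
import Cfsg.Agent.Lib.Helper17.RestrictScalars

set_option autoImplicit false
open Cfsg

namespace Cfsg.Agent.S0304

open Cfsg.Agent.Lib.Helper3 Cfsg.Agent.Lib.Helper17 Matrix

section aux

variable {F : Type*} [Field F] [CharP F 2] (m : ℕ)

theorem plus_add (w w' : Fin m ⊕ Fin m → F) :
    Cfsg.quadFormPlus m F (w + w')
      = Cfsg.quadFormPlus m F w + Cfsg.quadFormPlus m F w' + stdSymp w w' := by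
  unfold Cfsg.quadFormPlus stdSymp
  rw [← Finset.sum_add_distrib, ← Finset.sum_add_distrib]
  refine Finset.sum_congr rfl fun i _ => ?_
  simp only [Pi.add_apply, CharTwo.sub_eq_add]
  ring

omit [CharP F 2] in
theorem odd_eq (v : Unit ⊕ (Fin m ⊕ Fin m) → F) :
    Cfsg.quadFormOdd m F v = v (Sum.inl ()) ^ 2 + Cfsg.quadFormPlus m F (v ∘ Sum.inr) := rfl

theorem odd_add (u v : Unit ⊕ (Fin m ⊕ Fin m) → F) :
    Cfsg.quadFormOdd m F (u + v)
      = Cfsg.quadFormOdd m F u + Cfsg.quadFormOdd m F v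
        + stdSymp (u ∘ Sum.inr) (v ∘ Sum.inr) := by
  rw [odd_eq, odd_eq, odd_eq]
  have h1 : (u + v) ∘ Sum.inr = u ∘ Sum.inr + v ∘ Sum.inr := rfl
  rw [h1, plus_add, Pi.add_apply, CharTwo.add_sq]
  ring

/-- isometries preserve the symplectic form on the last `2m` coordinates -/
theorem isom_symp (A : Matrix (Unit ⊕ (Fin m ⊕ Fin m)) (Unit ⊕ (Fin m ⊕ Fin m)) F)
    (hA : ∀ v, Cfsg.quadFormOdd m F (A *ᵥ v) = Cfsg.quadFormOdd m F v)
    (u v : Unit ⊕ (Fin m ⊕ Fin m) → F) :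
    stdSymp ((A *ᵥ u) ∘ Sum.inr) ((A *ᵥ v) ∘ Sum.inr) = stdSymp (u ∘ Sum.inr) (v ∘ Sum.inr) := by
  have h1 := odd_add m (A *ᵥ u) (A *ᵥ v)
  rw [← Matrix.mulVec_add, hA, hA, hA, odd_add] at h1
  exact (add_left_cancel h1).symm

omit [CharP F 2] in
theorem stdSymp_nondeg (y : Fin m ⊕ Fin m → F) (h : ∀ x, stdSymp x y = 0) : y = 0 := by
  funext k
  rcases k with k | k
  · have := h (Pi.single (Sum.inr k) 1)
    simpa [stdSymp, Pi.single_apply] using this
  · have := h (Pi.single (Sum.inl k) 1)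
    simpa [stdSymp, Pi.single_apply] using this

omit [CharP F 2] in
theorem mulVec_inr (A : Matrix (Unit ⊕ (Fin m ⊕ Fin m)) (Unit ⊕ (Fin m ⊕ Fin m)) F)
    (v : Unit ⊕ (Fin m ⊕ Fin m) → F) :
    (A *ᵥ v) ∘ Sum.inr = v (Sum.inl ()) • (fun k => A (Sum.inr k) (Sum.inl ()))
      + A.toBlocks₂₂ *ᵥ (v ∘ Sum.inr) := by
  funext k
  simp only [Function.comp_apply, Matrix.mulVec, dotProduct, Fintype.sum_sum_type,
    Finset.univ_unique, Finset.sum_singleton, Pi.add_apply, Pi.smul_apply, smul_eq_mul,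
    Matrix.toBlocks₂₂, Matrix.of_apply]
  rw [mul_comm]

omit [CharP F 2] in
theorem mulVec_inl (A : Matrix (Unit ⊕ (Fin m ⊕ Fin m)) (Unit ⊕ (Fin m ⊕ Fin m)) F)
    (v : Unit ⊕ (Fin m ⊕ Fin m) → F) :
    (A *ᵥ v) (Sum.inl ()) = A (Sum.inl ()) (Sum.inl ()) * v (Sum.inl ())
      + ∑ k, A (Sum.inl ()) (Sum.inr k) * v (Sum.inr k) := by
  simp only [Matrix.mulVec, dotProduct, Fintype.sum_sum_type,
    Finset.univ_unique, Finset.sum_singleton]

/-- the first column of an isometry is the first basis vector -/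
theorem isom_col (g : Matrix.GeneralLinearGroup (Unit ⊕ (Fin m ⊕ Fin m)) F)
    (hg : g ∈ Cfsg.isometryGroup F (Cfsg.quadFormOdd m F)) :
    (∀ k, (g : Matrix (Unit ⊕ (Fin m ⊕ Fin m)) (Unit ⊕ (Fin m ⊕ Fin m)) F)
        (Sum.inr k) (Sum.inl ()) = 0) ∧
      (g : Matrix (Unit ⊕ (Fin m ⊕ Fin m)) (Unit ⊕ (Fin m ⊕ Fin m)) F)
        (Sum.inl ()) (Sum.inl ()) = 1 := by
  have hA := (mem_isometryGroup_iff _ g).mp hg
  set A := (g : Matrix (Unit ⊕ (Fin m ⊕ Fin m)) (Unit ⊕ (Fin m ⊕ Fin m)) F) with hAdef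
  set e0 : Unit ⊕ (Fin m ⊕ Fin m) → F := Pi.single (Sum.inl ()) 1 with he0
  have he0r : e0 ∘ Sum.inr = 0 := by
    funext k
    simp [he0]
  have hcol : (A *ᵥ e0) ∘ Sum.inr = fun k => A (Sum.inr k) (Sum.inl ()) := by
    funext k
    rw [he0, Matrix.mulVec_single_one]
    rfl
  have hw : (fun k => A (Sum.inr k) (Sum.inl ())) = (0 : Fin m ⊕ Fin m → F) := by
    apply stdSymp_nondeg
    intro x
    have hsurj : ∃ v, A *ᵥ v = Sum.elim (fun _ => (0 : F)) x := by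
      refine ⟨((g⁻¹ : Matrix.GeneralLinearGroup (Unit ⊕ (Fin m ⊕ Fin m)) F) :
        Matrix (Unit ⊕ (Fin m ⊕ Fin m)) (Unit ⊕ (Fin m ⊕ Fin m)) F) *ᵥ
          Sum.elim (fun _ => (0 : F)) x, ?_⟩
      rw [hAdef, Matrix.mulVec_mulVec, ← Units.val_mul, mul_inv_cancel, Units.val_one,
        Matrix.one_mulVec]
    obtain ⟨v, hv⟩ := hsurj
    have h1 := isom_symp m A hA v e0
    rw [hv, hcol, he0r] at h1
    have h2 : (Sum.elim (fun _ : Unit => (0 : F)) x) ∘ Sum.inr = x := rfl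
    rw [h2] at h1
    rw [h1]
    simp [stdSymp]
  have hw' : ∀ k, A (Sum.inr k) (Sum.inl ()) = 0 := fun k => congrFun hw k
  refine ⟨hw', ?_⟩
  have h1 := hA e0
  rw [odd_eq, odd_eq, hcol, hw, he0r] at h1
  have h2 : (A *ᵥ e0) (Sum.inl ()) = A (Sum.inl ()) (Sum.inl ()) := by
    rw [he0, Matrix.mulVec_single_one]
    rfl
  rw [h2] at h1
  have h3 : Cfsg.quadFormPlus m F (0 : Fin m ⊕ Fin m → F) = 0 := by
    simp [Cfsg.quadFormPlus]
  rw [h3, add_zero, add_zero] at h1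
  have h4 : e0 (Sum.inl ()) = 1 := by simp [he0]
  rw [h4, one_pow] at h1
  have h5 : (A (Sum.inl ()) (Sum.inl ()) - 1) ^ 2 = 0 := by
    rw [CharTwo.sub_eq_add, CharTwo.add_sq, h1, one_pow]
    exact CharTwo.add_self_eq_zero 1
  exact sub_eq_zero.mp (pow_eq_zero_iff (two_ne_zero) |>.mp h5)

/-- restriction to the last `2m` coordinates -/
def blockHom : Cfsg.isometryGroup F (Cfsg.quadFormOdd m F) →* Matrix.symplecticGroup (Fin m) F where
  toFun g := ⟨((g : Matrix.GeneralLinearGroup (Unit ⊕ (Fin m ⊕ Fin m)) F) :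
      Matrix (Unit ⊕ (Fin m ⊕ Fin m)) (Unit ⊕ (Fin m ⊕ Fin m)) F).toBlocks₂₂, by
    apply mem_symplectic_of_preserves
    intro x y
    have hA := (mem_isometryGroup_iff _ g.1).mp g.2
    have h1 := isom_symp m _ hA (Sum.elim (fun _ => (0 : F)) x) (Sum.elim (fun _ => (0 : F)) y)
    rw [mulVec_inr, mulVec_inr] at h1
    simp only [Sum.elim_inl, zero_smul, zero_add] at h1
    exact h1⟩
  map_one' := by
    apply Subtype.ext
    show (1 : Matrix (Unit ⊕ (Fin m ⊕ Fin m)) (Unit ⊕ (Fin m ⊕ Fin m)) F).toBlocks₂₂ = 1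
    ext i j
    simp [Matrix.toBlocks₂₂, Matrix.one_apply]
  map_mul' := by
    intro g h
    apply Subtype.ext
    show (((g : Matrix.GeneralLinearGroup (Unit ⊕ (Fin m ⊕ Fin m)) F) :
        Matrix (Unit ⊕ (Fin m ⊕ Fin m)) (Unit ⊕ (Fin m ⊕ Fin m)) F)
      * ((h : Matrix.GeneralLinearGroup (Unit ⊕ (Fin m ⊕ Fin m)) F) :
        Matrix (Unit ⊕ (Fin m ⊕ Fin m)) (Unit ⊕ (Fin m ⊕ Fin m)) F)).toBlocks₂₂
      = ((g : Matrix.GeneralLinearGroup (Unit ⊕ (Fin m ⊕ Fin m)) F) :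
        Matrix (Unit ⊕ (Fin m ⊕ Fin m)) (Unit ⊕ (Fin m ⊕ Fin m)) F).toBlocks₂₂
      * ((h : Matrix.GeneralLinearGroup (Unit ⊕ (Fin m ⊕ Fin m)) F) :
        Matrix (Unit ⊕ (Fin m ⊕ Fin m)) (Unit ⊕ (Fin m ⊕ Fin m)) F).toBlocks₂₂
    ext i j
    simp only [Matrix.toBlocks₂₂, Matrix.of_apply, Matrix.mul_apply, Fintype.sum_sum_type,
      Finset.univ_unique, Finset.sum_singleton]
    rw [show (default : Unit) = () from rfl, (isom_col m g.1 g.2).1 i, zero_mul, zero_add]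

theorem blockHom_injective : Function.Injective (blockHom (F := F) m) := by
  rw [injective_iff_map_eq_one]
  intro g hg
  have hA := (mem_isometryGroup_iff _ g.1).mp g.2
  obtain ⟨hcol, hc⟩ := isom_col m g.1 g.2
  set A := ((g : Matrix.GeneralLinearGroup (Unit ⊕ (Fin m ⊕ Fin m)) F) :
    Matrix (Unit ⊕ (Fin m ⊕ Fin m)) (Unit ⊕ (Fin m ⊕ Fin m)) F) with hAdef
  have h22 : A.toBlocks₂₂ = 1 := congrArg Subtype.val hg
  have hrow : ∀ k, A (Sum.inl ()) (Sum.inr k) = 0 := by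
    intro k
    have h1 := hA (Pi.single (Sum.inr k) 1)
    rw [odd_eq, odd_eq, mulVec_inr, h22, Matrix.one_mulVec, mulVec_inl] at h1
    have h2 : (Pi.single (Sum.inr k) (1 : F) : Unit ⊕ (Fin m ⊕ Fin m) → F) (Sum.inl ()) = 0 := by
      simp
    rw [h2, zero_smul, zero_add, mul_zero, zero_add] at h1
    have h3 := add_right_cancel h1
    simp only [Pi.single_apply, Sum.inr.injEq, mul_ite, mul_one, mul_zero, Finset.sum_ite_eq',
      Finset.mem_univ, if_true] at h3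
    have h4 : A (Sum.inl ()) (Sum.inr k) ^ 2 = 0 := by
      rw [h3]
      simp
    exact pow_eq_zero_iff (two_ne_zero) |>.mp h4
  apply Subtype.ext
  apply Units.ext
  show A = 1
  ext i j
  rcases i with i | i <;> rcases j with j | j
  · rw [show i = () from rfl, show j = () from rfl, hc]
    simp
  · rw [show i = () from rfl, hrow]
    simp
  · rw [show j = () from rfl, hcol]
    simp
  · have := congrFun (congrFun h22 i) j
    simp only [Matrix.toBlocks₂₂, Matrix.of_apply] at this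
    rw [this]
    simp [Matrix.one_apply]

theorem blockHom_surjective [Finite F] : Function.Surjective (blockHom (F := F) m) := by
  classical
  rintro ⟨h, hh⟩
  have hchar : ringChar F = 2 := ringChar.eq F 2
  have : Fintype F := Fintype.ofFinite F
  -- the defect form
  set D : (Fin m ⊕ Fin m → F) → F := fun w =>
    Cfsg.quadFormPlus m F w + Cfsg.quadFormPlus m F (h *ᵥ w) with hD
  have hDadd : ∀ x y, D (x + y) = D x + D y := by
    intro x y
    simp only [hD]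
    rw [Matrix.mulVec_add, plus_add, plus_add, preserves_of_mem_symplectic h hh]
    have := CharTwo.add_self_eq_zero (stdSymp x y)
    linear_combination this
  have hD0 : D 0 = 0 := by
    simp [hD, Cfsg.quadFormPlus]
  have hDsmul : ∀ (c : F) (x : Fin m ⊕ Fin m → F), D (c • x) = c ^ 2 * D x := by
    intro c x
    have e : ∀ y : Fin m ⊕ Fin m → F,
        Cfsg.quadFormPlus m F (c • y) = c ^ 2 * Cfsg.quadFormPlus m F y := by
      intro y
      simp only [Cfsg.quadFormPlus, Pi.smul_apply, smul_eq_mul, Finset.mul_sum]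
      refine Finset.sum_congr rfl fun i _ => ?_
      ring
    simp only [hD]
    rw [Matrix.mulVec_smul, e, e]
    ring
  let Dadd : (Fin m ⊕ Fin m → F) →+ F := ⟨⟨D, hD0⟩, hDadd⟩
  have hsq : ∀ k : Fin m ⊕ Fin m, ∃ r : F, D (Pi.single k 1) = r * r := fun k =>
    FiniteField.isSquare_of_char_two hchar _
  choose lam hlam using hsq
  have hlamD : ∀ w : Fin m ⊕ Fin m → F, (∑ k, lam k * w k) ^ 2 = D w := by
    intro w
    rw [CharTwo.sum_sq]
    have h1 : w = ∑ k, w k • (Pi.single k (1 : F) : Fin m ⊕ Fin m → F) := eq_sum_single w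
    conv_rhs => rw [h1]
    have h2 : D (∑ k, w k • (Pi.single k (1 : F) : Fin m ⊕ Fin m → F))
        = ∑ k, D (w k • (Pi.single k (1 : F) : Fin m ⊕ Fin m → F)) :=
      map_sum Dadd (fun k => w k • (Pi.single k (1 : F) : Fin m ⊕ Fin m → F)) Finset.univ
    rw [h2]
    refine Finset.sum_congr rfl fun k _ => ?_
    rw [hDsmul, hlam]
    ring
  set A : Matrix (Unit ⊕ (Fin m ⊕ Fin m)) (Unit ⊕ (Fin m ⊕ Fin m)) F :=
    Matrix.fromBlocks (1 : Matrix Unit Unit F) (Matrix.of fun _ k => lam k) 0 h with hAdef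
  have hAmul : ∀ v : Unit ⊕ (Fin m ⊕ Fin m) → F,
      Cfsg.quadFormOdd m F (A *ᵥ v) = Cfsg.quadFormOdd m F v := by
    intro v
    rw [odd_eq, odd_eq, hAdef, Matrix.fromBlocks_mulVec]
    have h1 : (Sum.elim ((1 : Matrix Unit Unit F) *ᵥ (v ∘ Sum.inl)
        + (Matrix.of fun (_ : Unit) k => lam k) *ᵥ (v ∘ Sum.inr))
        ((0 : Matrix (Fin m ⊕ Fin m) Unit F) *ᵥ (v ∘ Sum.inl) + h *ᵥ (v ∘ Sum.inr))) ∘ Sum.inr
        = h *ᵥ (v ∘ Sum.inr) := by
      funext k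
      simp
    have h2 : (Sum.elim ((1 : Matrix Unit Unit F) *ᵥ (v ∘ Sum.inl)
        + (Matrix.of fun (_ : Unit) k => lam k) *ᵥ (v ∘ Sum.inr))
        ((0 : Matrix (Fin m ⊕ Fin m) Unit F) *ᵥ (v ∘ Sum.inl) + h *ᵥ (v ∘ Sum.inr)))
        (Sum.inl ()) = v (Sum.inl ()) + ∑ k, lam k * v (Sum.inr k) := by
      simp [Matrix.mulVec, dotProduct]
    have hDv : D (fun k => v (Sum.inr k)) = Cfsg.quadFormPlus m F (v ∘ Sum.inr)
        + Cfsg.quadFormPlus m F (h *ᵥ (v ∘ Sum.inr)) := rfl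
    rw [h1, h2, CharTwo.add_sq, hlamD, hDv]
    have := CharTwo.add_self_eq_zero (Cfsg.quadFormPlus m F (h *ᵥ (v ∘ Sum.inr)))
    linear_combination this
  have hdet : IsUnit A.det := by
    rw [hAdef, Matrix.det_fromBlocks_zero₂₁, Matrix.det_one, one_mul]
    exact SymplecticGroup.symplectic_det hh
  obtain ⟨g, hg⟩ := (Matrix.isUnit_iff_isUnit_det A).mpr hdet
  refine ⟨⟨g, (mem_isometryGroup_iff _ g).mpr (by rw [hg]; exact hAmul)⟩, ?_⟩
  apply Subtype.ext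
  show ((g : Matrix (Unit ⊕ (Fin m ⊕ Fin m)) (Unit ⊕ (Fin m ⊕ Fin m)) F)).toBlocks₂₂ = h
  rw [hg, hAdef, Matrix.toBlocks_fromBlocks₂₂]

end aux

/-- In characteristic 2, O_{2m+1}(q) is isomorphic to Sp_{2m}(q). -/
theorem result {F : Type*} [Field F] [Fintype F] [CharP F 2] (m : ℕ) : Nonempty (Cfsg.isometryGroup F (Cfsg.quadFormOdd m F) ≃* Matrix.symplecticGroup (Fin m) F) := by
  exact ⟨MulEquiv.ofBijective (blockHom m) ⟨blockHom_injective m, blockHom_surjective m⟩⟩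

end Cfsg.Agent.S0304
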