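import Cfsg.Statements.S0305
import Mathlib
import Cfsg.Agent.Lib.Helper21.Dihedral

set_option autoImplicit false
open Cfsg

namespace Cfsg.Agent.S0305

section go2

variable {F : Type*} [Field F]

theorem Q_eq (v : Fin 1 ⊕ Fin 1 → F) :
    Cfsg.quadFormPlus 1 F v = v (Sum.inl 0) * v (Sum.inr 0) := by
  simp [Cfsg.quadFormPlus]

theorem mulVec_inl (A : Matrix (Fin 1 ⊕ Fin 1) (Fin 1 ⊕ Fin 1) F) (v : Fin 1 ⊕ Fin 1 → F) :
    (A.mulVec v) (Sum.inl 0) = A (Sum.inl 0) (Sum.inl 0) * v (Sum.inl 0)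
      + A (Sum.inl 0) (Sum.inr 0) * v (Sum.inr 0) := by
  simp [Matrix.mulVec, dotProduct, Fintype.sum_sum_type]

theorem mulVec_inr (A : Matrix (Fin 1 ⊕ Fin 1) (Fin 1 ⊕ Fin 1) F) (v : Fin 1 ⊕ Fin 1 → F) :
    (A.mulVec v) (Sum.inr 0) = A (Sum.inr 0) (Sum.inl 0) * v (Sum.inl 0)
      + A (Sum.inr 0) (Sum.inr 0) * v (Sum.inr 0) := by
  simp [Matrix.mulVec, dotProduct, Fintype.sum_sum_type]

omit [Field F] in
theorem mat_ext (A B : Matrix (Fin 1 ⊕ Fin 1) (Fin 1 ⊕ Fin 1) F)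
    (h00 : A (Sum.inl 0) (Sum.inl 0) = B (Sum.inl 0) (Sum.inl 0))
    (h01 : A (Sum.inl 0) (Sum.inr 0) = B (Sum.inl 0) (Sum.inr 0))
    (h10 : A (Sum.inr 0) (Sum.inl 0) = B (Sum.inr 0) (Sum.inl 0))
    (h11 : A (Sum.inr 0) (Sum.inr 0) = B (Sum.inr 0) (Sum.inr 0)) : A = B := by
  ext i j
  rcases i with i | i <;> rcases j with j | j <;>
    rw [Subsingleton.elim i 0, Subsingleton.elim j 0] <;> assumption

theorem mul_entry (A B : Matrix (Fin 1 ⊕ Fin 1) (Fin 1 ⊕ Fin 1) F) (i j : Fin 1 ⊕ Fin 1) :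
    (A * B) i j = A i (Sum.inl 0) * B (Sum.inl 0) j + A i (Sum.inr 0) * B (Sum.inr 0) j := by
  simp [Matrix.mul_apply, Fintype.sum_sum_type]

/-- the matrix with prescribed four entries -/
def mk4 (a b c d : F) : Matrix (Fin 1 ⊕ Fin 1) (Fin 1 ⊕ Fin 1) F :=
  Matrix.of (fun i j => Sum.elim (fun _ => Sum.elim (fun _ => a) (fun _ => b) j)
    (fun _ => Sum.elim (fun _ => c) (fun _ => d) j) i)

omit [Field F] in
@[simp] theorem mk4_00 (a b c d : F) : mk4 a b c d (Sum.inl 0) (Sum.inl 0) = a := rfl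
omit [Field F] in
@[simp] theorem mk4_01 (a b c d : F) : mk4 a b c d (Sum.inl 0) (Sum.inr 0) = b := rfl
omit [Field F] in
@[simp] theorem mk4_10 (a b c d : F) : mk4 a b c d (Sum.inr 0) (Sum.inl 0) = c := rfl
omit [Field F] in
@[simp] theorem mk4_11 (a b c d : F) : mk4 a b c d (Sum.inr 0) (Sum.inr 0) = d := rfl

theorem mk4_mul (a b c d a' b' c' d' : F) :
    mk4 a b c d * mk4 a' b' c' d'
      = mk4 (a * a' + b * c') (a * b' + b * d') (c * a' + d * c') (c * b' + d * d') := by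
  apply mat_ext <;> simp [mul_entry]

theorem mk4_one : mk4 (1 : F) 0 0 1 = 1 := by
  apply mat_ext <;> simp

/-- diagonal isometries -/
def dGL (a : Fˣ) : Matrix.GeneralLinearGroup (Fin 1 ⊕ Fin 1) F :=
  ⟨mk4 (a : F) 0 0 ((a⁻¹ : Fˣ) : F), mk4 ((a⁻¹ : Fˣ) : F) 0 0 (a : F),
    by rw [mk4_mul, ← mk4_one]; simp, by rw [mk4_mul, ← mk4_one]; simp⟩

theorem dGL_val (a : Fˣ) : ((dGL a : Matrix.GeneralLinearGroup (Fin 1 ⊕ Fin 1) F) :
    Matrix (Fin 1 ⊕ Fin 1) (Fin 1 ⊕ Fin 1) F) = mk4 (a : F) 0 0 ((a⁻¹ : Fˣ) : F) := rfl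

theorem mem_iso_iff (A : Matrix.GeneralLinearGroup (Fin 1 ⊕ Fin 1) F) :
    A ∈ Cfsg.isometryGroup F (Cfsg.quadFormPlus 1 F) ↔
      ∀ v : Fin 1 ⊕ Fin 1 → F, Cfsg.quadFormPlus 1 F
        ((A : Matrix (Fin 1 ⊕ Fin 1) (Fin 1 ⊕ Fin 1) F).mulVec v) = Cfsg.quadFormPlus 1 F v := by
  constructor
  · intro h v
    exact h v v
  · intro h u v
    exact h u

theorem dGL_mem (a : Fˣ) : dGL a ∈ Cfsg.isometryGroup F (Cfsg.quadFormPlus 1 F) := by
  rw [mem_iso_iff]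
  intro v
  rw [Q_eq, Q_eq, mulVec_inl, mulVec_inr, dGL_val]
  simp only [mk4_00, mk4_01, mk4_10, mk4_11, zero_mul, add_zero, zero_add]
  have h : (a : F) * ((a⁻¹ : Fˣ) : F) = 1 := by rw [← Units.val_mul, mul_inv_cancel, Units.val_one]
  calc (a : F) * v (Sum.inl 0) * (((a⁻¹ : Fˣ) : F) * v (Sum.inr 0))
      = ((a : F) * ((a⁻¹ : Fˣ) : F)) * (v (Sum.inl 0) * v (Sum.inr 0)) := by ring
    _ = v (Sum.inl 0) * v (Sum.inr 0) := by rw [h, one_mul]

/-- the diagonal torus as a homomorphism -/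
def dHom : Fˣ →* ↥(Cfsg.isometryGroup F (Cfsg.quadFormPlus 1 F)) where
  toFun a := ⟨dGL a, dGL_mem a⟩
  map_one' := by
    apply Subtype.ext
    apply Units.ext
    change mk4 ((1 : Fˣ) : F) 0 0 (((1 : Fˣ)⁻¹ : Fˣ) : F) = 1
    rw [← mk4_one]; simp
  map_mul' a b := by
    apply Subtype.ext
    apply Units.ext
    change mk4 ((a * b : Fˣ) : F) 0 0 (((a * b)⁻¹ : Fˣ) : F)
      = mk4 (a : F) 0 0 ((a⁻¹ : Fˣ) : F) * mk4 (b : F) 0 0 ((b⁻¹ : Fˣ) : F)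
    rw [mk4_mul]
    simp [mul_comm]

theorem dHom_val (a : Fˣ) : (((dHom a : ↥(Cfsg.isometryGroup F (Cfsg.quadFormPlus 1 F))) :
    Matrix.GeneralLinearGroup (Fin 1 ⊕ Fin 1) F) : Matrix (Fin 1 ⊕ Fin 1) (Fin 1 ⊕ Fin 1) F)
      = mk4 (a : F) 0 0 ((a⁻¹ : Fˣ) : F) := rfl

theorem dHom_injective : Function.Injective (dHom (F := F)) := by
  intro a b h
  have h1 := congrArg (fun z : ↥(Cfsg.isometryGroup F (Cfsg.quadFormPlus 1 F)) =>
    ((z : Matrix.GeneralLinearGroup (Fin 1 ⊕ Fin 1) F) :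
      Matrix (Fin 1 ⊕ Fin 1) (Fin 1 ⊕ Fin 1) F) (Sum.inl 0) (Sum.inl 0)) h
  simp only [dHom_val, mk4_00] at h1
  exact Units.ext h1

/-- the swap -/
def sGL : Matrix.GeneralLinearGroup (Fin 1 ⊕ Fin 1) F :=
  ⟨mk4 0 1 1 0, mk4 0 1 1 0, by rw [mk4_mul, ← mk4_one]; simp, by rw [mk4_mul, ← mk4_one]; simp⟩

theorem sGL_val : ((sGL : Matrix.GeneralLinearGroup (Fin 1 ⊕ Fin 1) F) :
    Matrix (Fin 1 ⊕ Fin 1) (Fin 1 ⊕ Fin 1) F) = mk4 0 1 1 0 := rfl

theorem sGL_mem : (sGL : Matrix.GeneralLinearGroup (Fin 1 ⊕ Fin 1) F)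
    ∈ Cfsg.isometryGroup F (Cfsg.quadFormPlus 1 F) := by
  rw [mem_iso_iff]
  intro v
  rw [Q_eq, Q_eq, mulVec_inl, mulVec_inr, sGL_val]
  simp only [mk4_00, mk4_01, mk4_10, mk4_11, zero_mul, add_zero, zero_add, one_mul]
  ring

/-- classification of the isometries -/
theorem iso_cases (A : Matrix.GeneralLinearGroup (Fin 1 ⊕ Fin 1) F)
    (hA : A ∈ Cfsg.isometryGroup F (Cfsg.quadFormPlus 1 F)) :
    (∃ a : Fˣ, (A : Matrix (Fin 1 ⊕ Fin 1) (Fin 1 ⊕ Fin 1) F) = mk4 (a : F) 0 0 ((a⁻¹ : Fˣ) : F))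
    ∨ (∃ a : Fˣ, (A : Matrix (Fin 1 ⊕ Fin 1) (Fin 1 ⊕ Fin 1) F)
        = mk4 0 ((a⁻¹ : Fˣ) : F) (a : F) 0) := by
  rw [mem_iso_iff] at hA
  set M := (A : Matrix (Fin 1 ⊕ Fin 1) (Fin 1 ⊕ Fin 1) F) with hM
  have h1 := hA (Sum.elim (fun _ => 1) (fun _ => 0))
  have h2 := hA (Sum.elim (fun _ => 0) (fun _ => 1))
  have h3 := hA (Sum.elim (fun _ => 1) (fun _ => 1))
  rw [Q_eq, Q_eq, mulVec_inl, mulVec_inr] at h1 h2 h3
  simp only [Sum.elim_inl, Sum.elim_inr, mul_one, mul_zero, add_zero, zero_add] at h1 h2 h3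
  by_cases ha : M (Sum.inl 0) (Sum.inl 0) = 0
  · right
    rw [ha] at h1 h3
    rw [zero_add] at h3
    have hb : M (Sum.inl 0) (Sum.inr 0) ≠ 0 := by
      intro h0
      rw [h0, zero_mul] at h3
      exact zero_ne_one h3
    have hd : M (Sum.inr 0) (Sum.inr 0) = 0 := by
      rcases mul_eq_zero.mp h2 with h | h
      · exact absurd h hb
      · exact h
    rw [hd, add_zero] at h3
    have hc : M (Sum.inr 0) (Sum.inl 0) ≠ 0 := by
      intro h0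
      rw [h0, mul_zero] at h3
      exact zero_ne_one h3
    refine ⟨Units.mk0 _ hc, ?_⟩
    apply mat_ext
    · simpa using ha
    · simp only [mk4_01, Units.val_inv_eq_inv_val, Units.val_mk0]
      exact eq_inv_of_mul_eq_one_left h3
    · simp
    · simpa using hd
  · left
    have hc : M (Sum.inr 0) (Sum.inl 0) = 0 := by
      rcases mul_eq_zero.mp h1 with h | h
      · exact absurd h ha
      · exact h
    rw [hc, zero_add] at h3
    have hd : M (Sum.inr 0) (Sum.inr 0) ≠ 0 := by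
      intro h0
      rw [h0, mul_zero] at h3
      exact zero_ne_one h3
    have hb : M (Sum.inl 0) (Sum.inr 0) = 0 := by
      rcases mul_eq_zero.mp h2 with h | h
      · exact h
      · exact absurd h hd
    rw [hb, add_zero] at h3
    refine ⟨Units.mk0 _ ha, ?_⟩
    apply mat_ext
    · simp
    · simpa using hb
    · simpa using hc
    · simp only [mk4_11, Units.val_inv_eq_inv_val, Units.val_mk0]
      exact eq_inv_of_mul_eq_one_right h3

end go2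

/-- GO^+_2(q) is dihedral of order 2(q-1). -/
theorem result {F : Type*} [Field F] [Fintype F] {q : ℕ} (hF : Fintype.card F = q) : Nonempty (Cfsg.isometryGroup F (Cfsg.quadFormPlus 1 F) ≃* DihedralGroup (q - 1)) := by
  classical
  have hq : 2 ≤ q := hF ▸ Fintype.one_lt_card
  obtain ⟨g, hg⟩ := IsCyclic.exists_generator (α := Fˣ)
  set ρ : ↥(Cfsg.isometryGroup F (Cfsg.quadFormPlus 1 F)) := dHom g with hρ
  set s : ↥(Cfsg.isometryGroup F (Cfsg.quadFormPlus 1 F)) := ⟨sGL, sGL_mem⟩ with hs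
  have hss : s * s = 1 := by
    apply Subtype.ext
    apply Units.ext
    change mk4 (0 : F) 1 1 0 * mk4 0 1 1 0 = 1
    rw [mk4_mul, ← mk4_one]; simp
  have hsinv : s⁻¹ = s := inv_eq_of_mul_eq_one_left hss
  have hord : orderOf ρ = q - 1 := by
    rw [hρ, orderOf_injective dHom dHom_injective g, orderOf_eq_card_of_forall_mem_zpowers hg,
      Nat.card_eq_fintype_card, Fintype.card_units, hF]
  have hconj : s * ρ * s⁻¹ = ρ⁻¹ := by
    rw [hsinv, hρ, ← map_inv]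
    apply Subtype.ext
    apply Units.ext
    change mk4 (0 : F) 1 1 0 * mk4 (g : F) 0 0 ((g⁻¹ : Fˣ) : F) * mk4 0 1 1 0
      = mk4 ((g⁻¹ : Fˣ) : F) 0 0 (((g⁻¹)⁻¹ : Fˣ) : F)
    rw [mk4_mul, mk4_mul]
    simp
  have hsnot : s ∉ Subgroup.zpowers ρ := by
    rintro ⟨k, hk⟩
    have hk' : dHom (g ^ k) = s := by rw [map_zpow]; exact hk
    have h1 := congrArg (fun z : ↥(Cfsg.isometryGroup F (Cfsg.quadFormPlus 1 F)) =>
      ((z : Matrix.GeneralLinearGroup (Fin 1 ⊕ Fin 1) F) :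
        Matrix (Fin 1 ⊕ Fin 1) (Fin 1 ⊕ Fin 1) F) (Sum.inl 0) (Sum.inr 0)) hk'
    simp only [dHom_val, mk4_01] at h1
    change (0 : F) = mk4 (0 : F) 1 1 0 (Sum.inl 0) (Sum.inr 0) at h1
    rw [mk4_01] at h1
    exact zero_ne_one h1
  have hrange : ∀ a : Fˣ, dHom a ∈ Subgroup.closure
      ({s, ρ} : Set ↥(Cfsg.isometryGroup F (Cfsg.quadFormPlus 1 F))) := by
    intro a
    obtain ⟨k, hk⟩ := Subgroup.mem_zpowers_iff.mp (hg a)
    rw [← hk, map_zpow]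
    exact Subgroup.zpow_mem _ (Subgroup.subset_closure (Set.mem_insert_of_mem _ (Set.mem_singleton _))) k
  have hgen : Subgroup.closure ({s, ρ} : Set ↥(Cfsg.isometryGroup F (Cfsg.quadFormPlus 1 F))) = ⊤ := by
    rw [eq_top_iff]
    rintro ⟨A, hA⟩ -
    rcases iso_cases A hA with ⟨a, ha⟩ | ⟨a, ha⟩
    · have : (⟨A, hA⟩ : ↥(Cfsg.isometryGroup F (Cfsg.quadFormPlus 1 F))) = dHom a := by
        apply Subtype.ext
        apply Units.ext
        exact ha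
      rw [this]
      exact hrange a
    · have : (⟨A, hA⟩ : ↥(Cfsg.isometryGroup F (Cfsg.quadFormPlus 1 F))) = s * dHom a := by
        apply Subtype.ext
        apply Units.ext
        change (A : Matrix (Fin 1 ⊕ Fin 1) (Fin 1 ⊕ Fin 1) F)
          = mk4 (0 : F) 1 1 0 * mk4 (a : F) 0 0 ((a⁻¹ : Fˣ) : F)
        rw [ha, mk4_mul]
        simp
      rw [this]
      exact Subgroup.mul_mem _ (Subgroup.subset_closure (Set.mem_insert _ _)) (hrange a)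
  obtain ⟨e⟩ := Cfsg.Agent.Lib.Helper21.nonempty_dihedral_mulEquiv s ρ (q - 1) hss hord (by omega)
    hconj hgen hsnot
  exact ⟨e.symm⟩

end Cfsg.Agent.S0305
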