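import Cfsg.Statements.S0306
import Mathlib
import Cfsg.Agent.Lib.Helper3.OrthMinus
import Cfsg.Agent.Lib.Helper17.QuadExt
import Cfsg.Agent.Lib.Helper21.Dihedral

set_option autoImplicit false
open Cfsg

namespace Cfsg.Agent.S0306

open Cfsg.Agent.Lib.Helper3 Matrix

section aux

variable {F : Type*} [Field F]

/-- reindexing as an isomorphism of isometry groups -/
noncomputable def isomReindex {ι ι₁ : Type} [Fintype ι] [DecidableEq ι] [Fintype ι₁]
    [DecidableEq ι₁] (e : ι ≃ ι₁) (Q₁ : (ι₁ → F) → F) :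
    Cfsg.isometryGroup F (fun x : ι → F => Q₁ (x ∘ e.symm)) ≃* Cfsg.isometryGroup F Q₁ :=
  let φ : Matrix.GeneralLinearGroup ι F ≃* Matrix.GeneralLinearGroup ι₁ F :=
    Units.mapEquiv (Matrix.reindexAlgEquiv F F e).toMulEquiv
  have hφ : ∀ (g : Matrix.GeneralLinearGroup ι F) (y : ι₁ → F),
      ((φ g : Matrix.GeneralLinearGroup ι₁ F) : Matrix ι₁ ι₁ F) *ᵥ y
        = ((g : Matrix ι ι F) *ᵥ (y ∘ e)) ∘ e.symm := by
    intro g y
    show (Matrix.reindex e e (g : Matrix ι ι F)) *ᵥ y = _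
    rw [Matrix.reindex_apply, Matrix.submatrix_mulVec_equiv, Equiv.symm_symm]
  { toEquiv := Equiv.subtypeEquiv φ.toEquiv (fun g => by
      rw [mem_isometryGroup_iff, mem_isometryGroup_iff]
      constructor
      · intro h y
        have h1 := h (y ∘ e)
        have h2 : (y ∘ e) ∘ e.symm = y := by
          funext i
          simp
        rw [h2] at h1
        show Q₁ (((φ g : Matrix.GeneralLinearGroup ι₁ F) : Matrix ι₁ ι₁ F) *ᵥ y) = Q₁ y
        rw [hφ]
        exact h1
      · intro h x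
        have h1 : Q₁ (((φ g : Matrix.GeneralLinearGroup ι₁ F) : Matrix ι₁ ι₁ F) *ᵥ
            (x ∘ e.symm)) = Q₁ (x ∘ e.symm) := h (x ∘ e.symm)
        rw [hφ] at h1
        have h2 : (x ∘ e.symm) ∘ e = x := by
          funext i
          simp
        rw [h2] at h1
        exact h1)
    map_mul' := fun x y => Subtype.ext (map_mul φ x.1 y.1) }

/-- the group of rotations -/
def rot (a b : F) : Subgroup (Cfsg.isometryGroup F (binQ a b)) where
  carrier := {g | ∃ (u : Fin 2 → F) (hu : binQ a b u = 1),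
    (g : Matrix.GeneralLinearGroup (Fin 2) F) = binRU a b u hu}
  mul_mem' := by
    rintro g h ⟨u, hu, hg⟩ ⟨v, hv, hh⟩
    refine ⟨binR a b u *ᵥ v, by rw [binQ_binR, hu, hv, one_mul], ?_⟩
    apply Units.ext
    show ((g : Matrix.GeneralLinearGroup (Fin 2) F) : Matrix (Fin 2) (Fin 2) F)
      * ((h : Matrix.GeneralLinearGroup (Fin 2) F) : Matrix (Fin 2) (Fin 2) F)
      = binR a b (binR a b u *ᵥ v)
    rw [hg, hh]
    exact binR_mul a b u v
  one_mem' := by
    refine ⟨![1, 0], by simp [binQ], ?_⟩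
    apply Units.ext
    show (1 : Matrix (Fin 2) (Fin 2) F) = binR a b ![1, 0]
    ext i j
    fin_cases i <;> fin_cases j <;> simp [binR]
  inv_mem' := by
    rintro g ⟨u, hu, hg⟩
    refine ⟨binC a u, by rw [binQ_binC, hu], ?_⟩
    show ((g : Matrix.GeneralLinearGroup (Fin 2) F))⁻¹ = _
    rw [hg]
    apply inv_eq_of_mul_eq_one_right
    apply Units.ext
    show binR a b u * binR a b (binC a u) = 1
    rw [binR_mul_conj, hu, one_smul]

theorem card_rot [Fintype F] (a b : F)
    (hab : ∀ z₁ z₂ : F, z₁ ^ 2 + a * z₁ * z₂ + b * z₂ ^ 2 = 0 → z₁ = 0 ∧ z₂ = 0) :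
    Nat.card (rot a b) = Fintype.card F + 1 := by
  rw [← card_binQ_one a b hab]
  symm
  apply Nat.card_congr
  refine Equiv.ofBijective (fun u => ⟨⟨binRU a b u.1 u.2, binRU_mem a b u.1 u.2⟩,
    ⟨u.1, u.2, rfl⟩⟩) ⟨?_, ?_⟩
  · rintro ⟨u, hu⟩ ⟨v, hv⟩ h
    apply Subtype.ext
    funext i
    have h1 := congrArg (fun g : rot a b =>
      (((g : Cfsg.isometryGroup F (binQ a b)) : Matrix.GeneralLinearGroup (Fin 2) F) :
        Matrix (Fin 2) (Fin 2) F) i 0) h
    simpa [binRU, binR_col] using h1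
  · rintro ⟨⟨g, hg⟩, u, hu, hgu⟩
    refine ⟨⟨u, hu⟩, ?_⟩
    apply Subtype.ext
    apply Subtype.ext
    exact hgu.symm

/-- rotations embed in the multiplicative group of a quadratic extension -/
def rotHom {K : Type*} [Field K] (a b : F) (j : F →+* K) (ρ : K)
    (hρ : ρ ^ 2 + j a * ρ + j b = 0) : rot a b →* K where
  toFun g := j ((((g : Cfsg.isometryGroup F (binQ a b)) : Matrix.GeneralLinearGroup (Fin 2) F) :
      Matrix (Fin 2) (Fin 2) F) 0 0)
    - ρ * j ((((g : Cfsg.isometryGroup F (binQ a b)) : Matrix.GeneralLinearGroup (Fin 2) F) :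
      Matrix (Fin 2) (Fin 2) F) 1 0)
  map_one' := by simp
  map_mul' := by
    rintro ⟨⟨g, hg⟩, u, hu, hgu⟩ ⟨⟨h, hh⟩, v, hv, hhv⟩
    simp only at hgu hhv
    subst hgu hhv
    show j ((binR a b u * binR a b v) 0 0) - ρ * j ((binR a b u * binR a b v) 1 0)
      = (j (binR a b u 0 0) - ρ * j (binR a b u 1 0))
        * (j (binR a b v 0 0) - ρ * j (binR a b v 1 0))
    rw [binR_mul, binR_col, binR_col, binR_col, binR_col, binR_col, binR_col, binR_mulVec]
    simp only [Matrix.cons_val_zero, Matrix.cons_val_one, map_sub, map_mul, map_add]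
    linear_combination (-(j (u 1) * j (v 1))) * hρ

theorem rotHom_injective [Finite F] {K : Type*} [Field K] (a b : F)
    (hab : ∀ z₁ z₂ : F, z₁ ^ 2 + a * z₁ * z₂ + b * z₂ ^ 2 = 0 → z₁ = 0 ∧ z₂ = 0)
    (j : F →+* K) (ρ : K) (hρ : ρ ^ 2 + j a * ρ + j b = 0) :
    Function.Injective (rotHom a b j ρ hρ) := by
  rintro ⟨⟨g, hg⟩, u, hu, hgu⟩ ⟨⟨h, hh⟩, v, hv, hhv⟩ hgh
  simp only at hgu hhv
  subst hgu hhv
  have h1 : j (u 0) - ρ * j (u 1) = j (v 0) - ρ * j (v 1) := by
    have := hgh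
    simp only [rotHom, MonoidHom.coe_mk, OneHom.coe_mk] at this
    have e1 : ((binRU a b u hu : Matrix.GeneralLinearGroup (Fin 2) F) :
        Matrix (Fin 2) (Fin 2) F) = binR a b u := rfl
    have e2 : ((binRU a b v hv : Matrix.GeneralLinearGroup (Fin 2) F) :
        Matrix (Fin 2) (Fin 2) F) = binR a b v := rfl
    rw [e1, e2, binR_col, binR_col, binR_col, binR_col] at this
    exact this
  have h2 : u 1 = v 1 := by
    by_contra hne
    have hne' : u 1 - v 1 ≠ 0 := sub_ne_zero.mpr hne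
    have h3 : ρ = j ((u 0 - v 0) / (u 1 - v 1)) := by
      rw [map_div₀, eq_div_iff (by rw [map_ne_zero]; exact hne'), map_sub, map_sub]
      linear_combination -h1
    set r := (u 0 - v 0) / (u 1 - v 1) with hr
    have h4 : j (r ^ 2 + a * r + b) = 0 := by
      rw [map_add, map_add, map_mul, map_pow, ← h3]
      exact hρ
    have h5 : r ^ 2 + a * r + b = 0 := (map_eq_zero j).mp h4
    have h6 := hab r 1 (by linear_combination h5)
    exact one_ne_zero h6.2
  have h3 : u 0 = v 0 := by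
    rw [h2] at h1
    have h4 : j (u 0) = j (v 0) := by linear_combination h1
    exact j.injective h4
  have huv : u = v := by
    funext i
    fin_cases i
    · exact h3
    · exact h2
  subst huv
  rfl

end aux

/-- GO^-_2(q) is dihedral of order 2(q+1). -/
theorem result {F : Type*} [Field F] [Fintype F] {q : ℕ} (hF : Fintype.card F = q) (a b : F) (hab : ∀ z₁ z₂ : F, z₁ ^ 2 + a * z₁ * z₂ + b * z₂ ^ 2 = 0 → z₁ = 0 ∧ z₂ = 0) : Nonempty (Cfsg.isometryGroup F (Cfsg.quadFormMinus 0 F a b) ≃* DihedralGroup (q + 1)) := by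
  classical
  subst hF
  -- a quadratic extension
  obtain ⟨p, -, n, hp, hcard⟩ := FiniteField.card' F
  have : Fact p.Prime := ⟨hp⟩
  have : Fintype (GaloisField p (2 * (n : ℕ))) := Fintype.ofFinite _
  have hK : Fintype.card (GaloisField p (2 * (n : ℕ))) = (Fintype.card F) ^ 2 := by
    rw [← Nat.card_eq_fintype_card, GaloisField.card p (2 * (n : ℕ)) (by have := n.pos; omega),
      hcard, pow_mul']
  obtain ⟨j, ρ, ρ', hsum, hprod, hne⟩ :=
    Cfsg.Agent.Lib.Helper17.exists_quadratic_ext rfl hK a b hab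
  have hρ : ρ ^ 2 + j a * ρ + j b = 0 := by
    linear_combination ρ * hsum - hprod
  have : IsCyclic (rot a b) :=
    isCyclic_of_injective_ringHom (rotHom a b j ρ hρ) (rotHom_injective a b hab j ρ hρ)
  obtain ⟨r₀, hr₀⟩ := IsCyclic.exists_generator (α := rot a b)
  set r : ↥(Cfsg.isometryGroup F (binQ a b)) := (r₀ : ↥(Cfsg.isometryGroup F (binQ a b))) with hr
  set s : ↥(Cfsg.isometryGroup F (binQ a b)) := ⟨binSU a, binSU_mem a b⟩ with hs
  have hss : s * s = 1 := by
    apply Subtype.ext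
    apply Units.ext
    exact binS_mul_self a
  have hsinv : s⁻¹ = s := inv_eq_of_mul_eq_one_left hss
  have hord : orderOf r = Fintype.card F + 1 := by
    rw [hr, Subgroup.orderOf_coe, orderOf_eq_card_of_forall_mem_zpowers hr₀, card_rot a b hab]
  obtain ⟨u, hu, hru⟩ := r₀.2
  have hconj : s * r * s⁻¹ = r⁻¹ := by
    rw [hsinv]
    apply eq_inv_of_mul_eq_one_left
    apply Subtype.ext
    apply Units.ext
    show binS a * ((r₀ : ↥(Cfsg.isometryGroup F (binQ a b))) :
        Matrix.GeneralLinearGroup (Fin 2) F).1 * binS a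
      * ((r₀ : ↥(Cfsg.isometryGroup F (binQ a b))) : Matrix.GeneralLinearGroup (Fin 2) F).1 = 1
    rw [hru]
    show binS a * binR a b u * binS a * binR a b u = 1
    rw [binS_binR_binS, binR_comm, binR_mul_conj, hu, one_smul]
  have hrot_le : Subgroup.zpowers r ≤ rot a b := by
    rw [Subgroup.zpowers_le]
    exact r₀.2
  have hsnot : s ∉ Subgroup.zpowers r := by
    intro hmem
    obtain ⟨v, hv, hsv⟩ := hrot_le hmem
    have h1 : binS a = binR a b v := congrArg Units.val hsv
    have h2 : v = ![1, 0] := by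
      funext i
      have := congrFun (congrFun h1 i) 0
      rw [binR_col] at this
      rw [← this]
      fin_cases i <;> simp [binS]
    apply binS_ne_one a b hab
    rw [h1, h2]
    ext i k
    fin_cases i <;> fin_cases k <;> simp [binR]
  have hrange : ∀ (v : Fin 2 → F) (hv : binQ a b v = 1),
      (⟨binRU a b v hv, binRU_mem a b v hv⟩ : ↥(Cfsg.isometryGroup F (binQ a b)))
        ∈ Subgroup.closure ({s, r} : Set ↥(Cfsg.isometryGroup F (binQ a b))) := by
    intro v hv
    obtain ⟨k, hk⟩ := Subgroup.mem_zpowers_iff.mp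
      (hr₀ ⟨⟨binRU a b v hv, binRU_mem a b v hv⟩, ⟨v, hv, rfl⟩⟩)
    have hk' : r ^ k = ⟨binRU a b v hv, binRU_mem a b v hv⟩ := by
      rw [hr, ← Subgroup.coe_zpow, hk]
    rw [← hk']
    exact Subgroup.zpow_mem _
      (Subgroup.subset_closure (Set.mem_insert_of_mem _ (Set.mem_singleton _))) k
  have hgen : Subgroup.closure ({s, r} : Set ↥(Cfsg.isometryGroup F (binQ a b))) = ⊤ := by
    rw [eq_top_iff]
    rintro ⟨g, hg⟩ -
    obtain ⟨hN, hcases⟩ := bin_isom_cases a b hab g.1 ((mem_isometryGroup_iff _ g).mp hg)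
    rcases hcases with h | h
    · have h1 : (⟨g, hg⟩ : ↥(Cfsg.isometryGroup F (binQ a b)))
          = ⟨binRU a b _ hN, binRU_mem a b _ hN⟩ := by
        apply Subtype.ext
        apply Units.ext
        exact h
      rw [h1]
      exact hrange _ hN
    · have h1 : (⟨g, hg⟩ : ↥(Cfsg.isometryGroup F (binQ a b)))
          = ⟨binRU a b _ hN, binRU_mem a b _ hN⟩ * s := by
        apply Subtype.ext
        apply Units.ext
        exact h
      rw [h1]
      exact Subgroup.mul_mem _ (hrange _ hN) (Subgroup.subset_closure (Set.mem_insert _ _))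
  obtain ⟨e⟩ := Cfsg.Agent.Lib.Helper21.nonempty_dihedral_mulEquiv s r (Fintype.card F + 1) hss hord
    (by omega) hconj hgen hsnot
  have e2 := isomReindex minusE0 (Cfsg.quadFormMinus 0 F a b)
  rw [minus_zero_eq] at e2
  exact ⟨e2.symm.trans e.symm⟩

end Cfsg.Agent.S0306
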