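import Cfsg.Statements.S0307
import Mathlib
import Cfsg.Agent.S0242

set_option autoImplicit false
open Cfsg

namespace Cfsg.Agent.S0307

theorem nonempty_equiv_zmod {Q : Type*} [Group Q] [hQ : IsCyclic Q] {d : ℕ} (hd : Nat.card Q = d) :
    Nonempty (Q ≃* Multiplicative (ZMod d)) := by
  subst hd
  exact ⟨(zmodCyclicMulEquiv hQ).symm⟩

/-- PSL_n(q) is normal in PGL_n(q) with cyclic quotient of order gcd(n, q-1): the image of the natural map PSL_n → PGL_n is the kernel of a surjective homomorphism onto the cyclic group of that order. -/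
theorem result {F : Type*} [Field F] [Fintype F] {q : ℕ} (hF : Fintype.card F = q) (n : ℕ) (hn : 1 ≤ n) : ∃ g : Matrix.ProjGenLinGroup (Fin n) F →* Multiplicative (ZMod (Nat.gcd n (q - 1))), Function.Surjective g ∧ g.ker = (Matrix.ProjectiveSpecialLinearGroup.toPGL : Matrix.ProjectiveSpecialLinearGroup (Fin n) F →* Matrix.ProjGenLinGroup (Fin n) F).range := by
  classical
  subst hF
  have hcyc : IsCyclic (Fˣ ⧸ (powMonoidHom n : Fˣ →* Fˣ).range) :=
    isCyclic_of_surjective (QuotientGroup.mk' (powMonoidHom n : Fˣ →* Fˣ).range) (QuotientGroup.mk'_surjective _)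
  have hcard : Nat.card (Fˣ ⧸ (powMonoidHom n : Fˣ →* Fˣ).range) = Nat.gcd n (Fintype.card F - 1) := by
    have h1 := IsCyclic.index_powMonoidHom_range (G := Fˣ) n
    rw [Nat.card_eq_fintype_card, Fintype.card_units, Nat.gcd_comm] at h1
    exact h1
  obtain ⟨e⟩ := nonempty_equiv_zmod hcard
  have hf : ((e.toMonoidHom.comp ((QuotientGroup.mk' (powMonoidHom n : Fˣ →* Fˣ).range).comp
      (Matrix.GeneralLinearGroup.det : GL (Fin n) F →* Fˣ))).comp (Matrix.GeneralLinearGroup.scalar (Fin n))) = 1 := by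
    ext u
    simp only [MonoidHom.comp_apply, MonoidHom.one_apply, Matrix.GeneralLinearGroup.det_scalar, Fintype.card_fin]
    have : (QuotientGroup.mk' (powMonoidHom n : Fˣ →* Fˣ).range) (u ^ n) = 1 := by
      rw [QuotientGroup.mk'_apply, QuotientGroup.eq_one_iff]
      exact ⟨u, rfl⟩
    rw [this]
    simp
  refine ⟨Matrix.ProjGenLinGroup.lift _ hf, ?_, ?_⟩
  · intro z
    obtain ⟨u, hu⟩ := QuotientGroup.mk'_surjective (powMonoidHom n : Fˣ →* Fˣ).range (e.symm z)
    obtain ⟨M, hM⟩ := Cfsg.Agent.S0242.det_surj (F := F) n hn u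
    refine ⟨Matrix.ProjGenLinGroup.mk M, ?_⟩
    rw [Matrix.ProjGenLinGroup.lift_mk]
    simp only [MonoidHom.comp_apply]
    rw [hM, hu]
    simp
  · ext x
    constructor
    · intro h
      induction x using Matrix.ProjGenLinGroup.induction_on with | mk M => ?_
      rw [MonoidHom.mem_ker, Matrix.ProjGenLinGroup.lift_mk] at h
      simp only [MonoidHom.comp_apply] at h
      have h1 : (QuotientGroup.mk' (powMonoidHom n : Fˣ →* Fˣ).range) (Matrix.GeneralLinearGroup.det M) = 1 := by
        have := congrArg e.symm h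
        simpa using this
      rw [QuotientGroup.mk'_apply, QuotientGroup.eq_one_iff] at h1
      obtain ⟨u, hu⟩ := h1
      rw [powMonoidHom_apply] at hu
      have hdet : (((Matrix.GeneralLinearGroup.scalar (Fin n) u)⁻¹ * M : GL (Fin n) F) : Matrix (Fin n) (Fin n) F).det = 1 := by
        have h2 : Matrix.GeneralLinearGroup.det ((Matrix.GeneralLinearGroup.scalar (Fin n) u)⁻¹ * M) = 1 := by
          rw [map_mul, map_inv, Matrix.GeneralLinearGroup.det_scalar, Fintype.card_fin, hu, inv_mul_cancel]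
        have := congrArg Units.val h2
        simpa using this
      obtain ⟨A, hA⟩ : ∃ A : Matrix.SpecialLinearGroup (Fin n) F, (A : Matrix (Fin n) (Fin n) F) =
          (((Matrix.GeneralLinearGroup.scalar (Fin n) u)⁻¹ * M : GL (Fin n) F) : Matrix (Fin n) (Fin n) F) :=
        ⟨⟨_, hdet⟩, rfl⟩
      refine ⟨QuotientGroup.mk A, ?_⟩
      rw [Matrix.ProjectiveSpecialLinearGroup.toPGL_mk]
      have h3 : Matrix.SpecialLinearGroup.toGL A = (Matrix.GeneralLinearGroup.scalar (Fin n) u)⁻¹ * M :=
        Units.ext hA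
      rw [h3, map_mul, map_inv, Matrix.ProjGenLinGroup.mk_scalar, inv_one, one_mul]
    · rintro ⟨y, rfl⟩
      obtain ⟨A, rfl⟩ := QuotientGroup.mk_surjective y
      rw [Matrix.ProjectiveSpecialLinearGroup.toPGL_mk, MonoidHom.mem_ker, Matrix.ProjGenLinGroup.lift_mk]
      simp only [MonoidHom.comp_apply]
      rw [Matrix.SpecialLinearGroup.coeToGL_det]
      simp

end Cfsg.Agent.S0307
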