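import Cfsg.Statements.S0316
import Cfsg.Agent.Lib.Helper4.BNPair

set_option autoImplicit false
open Cfsg
open Cfsg.Agent.Lib.Helper4

namespace Cfsg.Agent.S0316

/-- The map `J ↦ P_J` is a lattice isomorphism from the power set of the set of distinguished generators onto the
subgroups containing `B`. -/
theorem result {G : Type*} [Group G] (P : Cfsg.BNPair G) :
    ∃ e : Set P.S ≃o {M : Subgroup G // P.B ≤ M},
      ∀ J : Set P.S, ((e J : {M : Subgroup G // P.B ≤ M}) : Subgroup G) = P.parabolic (Subtype.val '' J) := by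
  classical
  have himg : ∀ J : Set P.S, (Subtype.val '' J : Set G) ⊆ P.S := by
    rintro J _ ⟨s, _, rfl⟩
    exact s.2
  refine ⟨{ toFun := fun J => ⟨P.parabolic (Subtype.val '' J), BN.B_le_parabolic P _⟩
            invFun := fun M => {s : P.S | (s : G) ∈ M.1}
            left_inv := ?_
            right_inv := ?_
            map_rel_iff' := ?_ }, fun J => rfl⟩
  · intro J
    ext s
    constructor
    · intro hs
      have := BN.mem_of_mem_parabolic P (himg J) s.2 hs
      obtain ⟨t, ht, e⟩ := this
      have : t = s := Subtype.val_injective e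
      rw [← this]; exact ht
    · intro hs
      exact BN.closure_le_parabolic P _ (Subgroup.subset_closure ⟨s, hs, rfl⟩)
  · rintro ⟨M, hM⟩
    apply Subtype.ext
    have e : (Subtype.val '' {s : P.S | (s : G) ∈ M} : Set G) = {s | s ∈ P.S ∧ s ∈ M} := by
      ext x
      constructor
      · rintro ⟨s, hs, rfl⟩; exact ⟨s.2, hs⟩
      · rintro ⟨h1, h2⟩; exact ⟨⟨x, h1⟩, h2, rfl⟩
    show P.parabolic (Subtype.val '' {s : P.S | (s : G) ∈ M}) = M
    rw [e]
    exact (BN.eq_parabolic_of_le P M hM).symm
  · intro J K
    show P.parabolic (Subtype.val '' J) ≤ P.parabolic (Subtype.val '' K) ↔ J ≤ K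
    rw [BN.parabolic_le_iff P (himg J) (himg K)]
    exact Set.image_subset_image_iff Subtype.val_injective

end Cfsg.Agent.S0316
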