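import Cfsg.Statements.S0320
import Cfsg.Agent.Lib.Helper4.BNPair
import Cfsg.Agent.Lib.Helper4.Coxeter

set_option autoImplicit false
open Cfsg
open Cfsg.Agent.Lib.Helper4

namespace Cfsg.Agent.S0320

/-- The Weyl group `W = N / (B ⊓ N)` of a (B,N)-pair, with its distinguished involutions, is a Coxeter system. -/
theorem result {G : Type*} [Group G] (P : Cfsg.BNPair G)
    [hN : ((P.B ⊓ P.N).subgroupOf P.N).Normal] :
    ∃ (M : CoxeterMatrix P.S) (cs : CoxeterSystem M (P.N ⧸ (P.B ⊓ P.N).subgroupOf P.N)),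
      ∀ s : P.S, cs.simple s = QuotientGroup.mk (⟨(s : G), P.subset s.2⟩ : P.N) := by
  have hgen : Set.range (fun s : P.S => BN.cl P ⟨(s : G), P.subset s.2⟩) = (BN.E P).gen := by
    ext w
    constructor
    · rintro ⟨s, rfl⟩
      exact ⟨⟨(s : G), P.subset s.2⟩, s.2, rfl⟩
    · rintro ⟨n, hn, rfl⟩
      exact ⟨⟨(n : G), hn⟩, rfl⟩
  have hf : Function.Injective (fun s : P.S => BN.cl P ⟨(s : G), P.subset s.2⟩) := by
    intro s s' h
    have h1 := (BN.cl_eq_iff P).mp h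
    exact Subtype.ext (P.inj s s.2 s' s'.2 h1)
  obtain ⟨cs, hcs⟩ := (BN.E P).exists_coxeterSystem hgen hf ((BN.E P).coxMat hgen hf)
    (fun i j => rfl)
  exact ⟨(BN.E P).coxMat hgen hf, cs, hcs⟩

end Cfsg.Agent.S0320
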