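import Cfsg.Statements.S0321
import Cfsg.Agent.Lib.Helper4.BNPair

set_option autoImplicit false
open Cfsg
open Cfsg.Agent.Lib.Helper4

namespace Cfsg.Agent.S0321

/-- For `n ∈ N` not in `B`, the union `B ∪ B n B` is (the underlying set of) a subgroup exactly when `n` agrees
modulo `B ⊓ N` with one of the distinguished representatives; thus the distinguished involutions are
determined by `B` and `N`. -/
theorem result {G : Type*} [Group G] (P : Cfsg.BNPair G) {n : G}
    (hn : n ∈ P.N) (hnB : n ∉ P.B) :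
    (∃ H : Subgroup G, (H : Set G) = (P.B : Set G) ∪ DoubleCoset.doubleCoset n (P.B : Set G) P.B) ↔ ∃ s ∈ P.S, s⁻¹ * n ∈ P.B := by
  constructor
  · rintro ⟨H, hH⟩
    have hBH : P.B ≤ H := by
      intro b hb
      have : b ∈ (H : Set G) := by rw [hH]; exact Or.inl hb
      exact this
    have hnH : n ∈ H := by
      have : n ∈ (H : Set G) := by rw [hH]; exact Or.inr (BN.self_mem_D P n)
      exact this
    have hpar := BN.eq_parabolic_of_le P H hBH
    by_cases hempty : {s | s ∈ P.S ∧ s ∈ H} = (∅ : Set G)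
    · exfalso
      rw [hempty, BN.parabolic_empty] at hpar
      rw [hpar] at hnH
      exact hnB hnH
    · obtain ⟨s, hs, hsH⟩ := Set.nonempty_iff_ne_empty.mpr hempty
      refine ⟨s, hs, ?_⟩
      have h1 : s ∈ (H : Set G) := hsH
      rw [hH] at h1
      rcases h1 with h1 | h1
      · exact absurd h1 (BN.S_not_mem_B P hs)
      · have h2 : BN.D P s = BN.D P n := BN.D_eq_of_mem P h1
        exact (BN.D_eq_iff P (P.subset hs) hn).mp h2
  · rintro ⟨s, hs, h⟩
    refine ⟨P.parabolic {s}, ?_⟩
    rw [BN.coe_parabolic_singleton P hs]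
    have h2 : BN.D P s = BN.D P n := (BN.D_eq_iff P (P.subset hs) hn).mpr h
    show (P.B : Set G) ∪ BN.D P s = (P.B : Set G) ∪ BN.D P n
    rw [h2]

end Cfsg.Agent.S0321
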