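import Cfsg.Statements.S0322
import Cfsg.Agent.Lib.Helper4.BNPair

set_option autoImplicit false
open Cfsg
open Cfsg.Agent.Lib.Helper4

namespace Cfsg.Agent.S0322

/-- A group with a (B,N)-pair of rank one acts doubly transitively on the left cosets of `B`. -/
theorem result {G : Type*} [Group G] (P : Cfsg.BNPair G) (h : P.rank = 1) : MulAction.IsMultiplyPretransitive G (G ⧸ P.B) 2 := by
  unfold Cfsg.BNPair.rank at h
  obtain ⟨hsub, ⟨s⟩⟩ := Nat.card_eq_one_iff_unique.mp h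
  have hS : P.S = {(s : G)} := by
    ext x
    constructor
    · intro hx
      have : (⟨x, hx⟩ : P.S) = s := Subsingleton.elim _ _
      exact congrArg Subtype.val this
    · rintro rfl; exact s.2
  have hall : ∀ g : G, g ∈ P.B ∨ g ∈ BN.D P (s : G) := by
    intro g
    have h1 : g ∈ ((P.parabolic {(s : G)} : Subgroup G) : Set G) := by
      rw [← hS, BN.parabolic_S]; trivial
    rw [BN.coe_parabolic_singleton P s.2] at h1
    exact h1
  rw [MulAction.is_two_pretransitive_iff]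
  intro a b c d hab hcd
  obtain ⟨x, rfl⟩ := QuotientGroup.mk_surjective a
  obtain ⟨y, rfl⟩ := QuotientGroup.mk_surjective b
  obtain ⟨z, rfl⟩ := QuotientGroup.mk_surjective c
  obtain ⟨w, rfl⟩ := QuotientGroup.mk_surjective d
  have hxy : x⁻¹ * y ∈ BN.D P (s : G) := by
    rcases hall (x⁻¹ * y) with h1 | h1
    · exact absurd (QuotientGroup.eq.mpr h1) hab
    · exact h1
  have hzw : z⁻¹ * w ∈ BN.D P (s : G) := by
    rcases hall (z⁻¹ * w) with h1 | h1
    · exact absurd (QuotientGroup.eq.mpr h1) hcd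
    · exact h1
  obtain ⟨b1, hb1, b2, hb2, e1⟩ := (BN.mem_D P).mp hxy
  obtain ⟨b3, hb3, b4, hb4, e2⟩ := (BN.mem_D P).mp hzw
  refine ⟨z * b3 * b1⁻¹ * x⁻¹, ?_, ?_⟩
  · show (QuotientGroup.mk (z * b3 * b1⁻¹ * x⁻¹ * x) : G ⧸ P.B) = QuotientGroup.mk z
    rw [QuotientGroup.eq]
    have e : (z * b3 * b1⁻¹ * x⁻¹ * x)⁻¹ * z = b1 * b3⁻¹ := by simp [mul_assoc]
    rw [e]; exact P.B.mul_mem hb1 (P.B.inv_mem hb3)
  · show (QuotientGroup.mk (z * b3 * b1⁻¹ * x⁻¹ * y) : G ⧸ P.B) = QuotientGroup.mk w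
    rw [QuotientGroup.eq]
    have ey : y = x * (b1 * s * b2) := by rw [← e1]; simp
    have ew : w = z * (b3 * s * b4) := by rw [← e2]; simp
    have e : (z * b3 * b1⁻¹ * x⁻¹ * y)⁻¹ * w = b2⁻¹ * b4 := by
      rw [ey, ew]; simp [mul_assoc]
    rw [e]; exact P.B.mul_mem (P.B.inv_mem hb2) hb4

end Cfsg.Agent.S0322
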