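import Cfsg.Statements.S0323
import Mathlib

set_option autoImplicit false
open scoped Pointwise
open Cfsg

namespace Cfsg.Agent.S0323

/-- A doubly transitive action on a set with at least three points yields a (B,N)-pair of rank one:
`B` is the stabiliser of a point `x`, `N` the setwise stabiliser of a pair `{x, y}`. -/
theorem result {G Ω : Type*} [Group G] [MulAction G Ω]
    (h2 : MulAction.IsMultiplyPretransitive G Ω 2) {x y z : Ω} (hxy : x ≠ y) (hyz : y ≠ z) (hxz : x ≠ z) :
    ∃ P : Cfsg.BNPair G, P.B = MulAction.stabilizer G x ∧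
      P.N = MulAction.stabilizer G ({x, y} : Set Ω) ∧ P.rank = 1 := by
  classical
  have H2 : ∀ (a b c d : Ω), a ≠ b → c ≠ d → ∃ g : G, g • a = c ∧ g • b = d :=
    fun a b c d hab hcd => MulAction.is_two_pretransitive_iff.mp h2 hab hcd
  obtain ⟨s, hsx, hsy⟩ := H2 _ _ _ _ hxy hxy.symm
  have hsix : s⁻¹ • y = x := by rw [← hsx, inv_smul_smul]
  have hsiy : s⁻¹ • x = y := by rw [← hsy, inv_smul_smul]
  have memB : ∀ g : G, g ∈ MulAction.stabilizer G x ↔ g • x = x := fun g => MulAction.mem_stabilizer_iff
  have memN : ∀ g : G, g ∈ MulAction.stabilizer G ({x, y} : Set Ω) ↔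
      (g • x = x ∧ g • y = y) ∨ (g • x = y ∧ g • y = x) := by
    intro g
    rw [MulAction.mem_stabilizer_iff, Set.smul_set_insert, Set.smul_set_singleton,
      Set.pair_eq_pair_iff]
  have hsN : s ∈ MulAction.stabilizer G ({x, y} : Set Ω) := (memN s).mpr (Or.inr ⟨hsx, hsy⟩)
  -- every element is in B or in B s B
  have hall : ∀ g : G, g • x = x ∨ ∃ b1, b1 • x = x ∧ ∃ b2, b2 • x = x ∧ g = b1 * s * b2 := by
    intro g
    by_cases hg : g • x = x
    · left; exact hg
    · right
      obtain ⟨b, hb1, hb2⟩ := H2 _ _ _ _ (Ne.symm hg) hxy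
      refine ⟨b⁻¹, by rw [← hb1, inv_smul_smul, hb1], s⁻¹ * b * g, ?_, by simp [mul_assoc]⟩
      rw [mul_smul, mul_smul, hb2, hsix]
  obtain ⟨b0, hb0x, hb0y⟩ := H2 _ _ _ _ hxy hxz
  refine ⟨{ B := MulAction.stabilizer G x
            N := MulAction.stabilizer G ({x, y} : Set Ω)
            S := {s}
            sup_eq_top := ?_
            conj_mem := ?_
            subset := ?_
            sq_mem := ?_
            inj := ?_
            closure_sup := ?_
            mul_mem_union := ?_
            conj_ne := ?_ }, rfl, rfl, ?_⟩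
  · rw [eq_top_iff]
    intro g _
    rcases hall g with hg | ⟨b1, hb1, b2, hb2, rfl⟩
    · exact (le_sup_left : MulAction.stabilizer G x ≤ _) ((memB g).mpr hg)
    · exact Subgroup.mul_mem _ (Subgroup.mul_mem _
        ((le_sup_left : MulAction.stabilizer G x ≤ _) ((memB b1).mpr hb1))
        ((le_sup_right : MulAction.stabilizer G ({x, y} : Set Ω) ≤ _) hsN))
        ((le_sup_left : MulAction.stabilizer G x ≤ _) ((memB b2).mpr hb2))
  · rintro n hn t ⟨htB, htN⟩
    have htB' : t • x = x := (memB t).mp htB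
    refine (memB _).mpr ?_
    have hty : t • y = y := by
      rcases (memN t).mp htN with h | h
      · exact h.2
      · exact absurd (htB'.symm.trans h.1) hxy
    have hn' := (memN n⁻¹).mp (Subgroup.inv_mem _ hn)
    rw [mul_smul, mul_smul]
    rcases hn' with h | h
    · rw [h.1, htB']
      exact (inv_smul_eq_iff.mp h.1).symm
    · rw [h.1, hty]
      exact (inv_smul_eq_iff.mp h.1).symm
  · intro s' hs'
    rw [Set.mem_singleton_iff] at hs'
    subst hs'
    exact hsN
  · intro s' hs'
    rw [Set.mem_singleton_iff] at hs'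
    subst hs'
    refine (memB _).mpr ?_
    rw [mul_smul, hsx, hsy]
  · intro s' hs' s'' hs'' _
    rw [Set.mem_singleton_iff] at hs' hs''
    rw [hs', hs'']
  · apply le_antisymm
    · apply sup_le _ inf_le_right
      rw [Subgroup.closure_le]
      intro s' hs'
      rw [Set.mem_singleton_iff] at hs'
      subst hs'
      exact hsN
    · intro n hn
      rcases (memN n).mp hn with h | h
      · exact (le_sup_right : MulAction.stabilizer G x ⊓ MulAction.stabilizer G ({x, y} : Set Ω) ≤ _)
          ⟨(memB n).mpr h.1, hn⟩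
      · have e : n = s * (s⁻¹ * n) := by simp
        rw [e]
        refine Subgroup.mul_mem _ ((le_sup_left : Subgroup.closure {s} ≤ _)
          (Subgroup.subset_closure rfl)) ((le_sup_right :
            MulAction.stabilizer G x ⊓ MulAction.stabilizer G ({x, y} : Set Ω) ≤ _) ⟨?_, ?_⟩)
        · refine (memB _).mpr ?_
          rw [mul_smul, h.1, hsix]
        · exact Subgroup.mul_mem _ (Subgroup.inv_mem _ hsN) hn
  · intro s' hs' n hn b hb
    rw [Set.mem_singleton_iff] at hs'
    subst hs'
    have hb' : b • x = x := (memB b).mp hb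
    rcases (memN n).mp hn with h | h
    · left
      rw [DoubleCoset.mem_doubleCoset]
      refine ⟨1, Subgroup.one_mem _, n⁻¹ * b * n, ?_, by simp [mul_assoc]⟩
      refine (memB _).mpr ?_
      rw [mul_smul, mul_smul, h.1, hb', ← h.1, inv_smul_smul, h.1]
    · rcases hall (s' * b * n) with hg | ⟨b1, hb1, b2, hb2, e⟩
      · left
        rw [DoubleCoset.mem_doubleCoset]
        refine ⟨s' * b * n * (s' * n)⁻¹, ?_, 1, Subgroup.one_mem _, by simp [mul_assoc]⟩
        refine (memB _).mpr ?_
        rw [mul_smul]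
        have h1 : (s' * n) • x = x := by rw [mul_smul, h.1, hsy]
        have h2 : (s' * n)⁻¹ • x = x := by rw [inv_smul_eq_iff, h1]
        rw [h2, hg]
      · right
        rw [DoubleCoset.mem_doubleCoset]
        refine ⟨b1, (memB b1).mpr hb1, (s'⁻¹ * n)⁻¹ * b2, ?_, ?_⟩
        · refine (memB _).mpr ?_
          rw [mul_smul, hb2, inv_smul_eq_iff, mul_smul, h.1, hsix]
        · rw [e]; simp [mul_assoc]
  · intro s' hs' hEq
    rw [Set.mem_singleton_iff] at hs'
    subst hs'
    have h1 : s' * b0 * s' ∈ (fun b : G => s' * b * s') '' (MulAction.stabilizer G x : Set G) :=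
      ⟨b0, (memB b0).mpr hb0x, rfl⟩
    rw [hEq] at h1
    have h1' : (s' * b0 * s') • x = x := (memB _).mp h1
    rw [mul_smul, mul_smul, hsx, hb0y] at h1'
    have h2 : z = y := by rw [← hsiy, ← h1', inv_smul_smul]
    exact hyz h2.symm
  · show Nat.card ({s} : Set G) = 1
    simp

end Cfsg.Agent.S0323
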