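import Cfsg.Statements.S0325
import Cfsg.Agent.Lib.Helper4.SuzC2
import Cfsg.Agent.Lib.Helper4.Suz8

set_option autoImplicit false
open Cfsg

namespace Cfsg.Agent.S0325

/-- The Suzuki group over a field with `2^(2m+1)` elements, `m ≥ 1`, is a simple group. -/
theorem result {F : Type*} [Field F] [Fintype F] {m : ℕ} (hm : 1 ≤ m)
    (hF : Fintype.card F = 2 ^ (2 * m + 1)) :
    IsSimpleGroup (Cfsg.Sz F m) := by
  obtain ⟨k0, h0, h1⟩ := Cfsg.Agent.Lib.Helper4.Suz.exists_ne01 hm hF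
  rw [Cfsg.Agent.Lib.Helper4.Suz.Sz_eq hF]
  exact (Cfsg.Agent.Lib.Helper4.Suz.dat hF).simple
    (Cfsg.Agent.Lib.Helper4.Suz.dat_indep hm hF) k0 h0 h1

end Cfsg.Agent.S0325
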