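import Cfsg.Statements.S0326

set_option autoImplicit false
open Cfsg

namespace Cfsg.Agent.S0326

/-- The Suzuki–Tits ovoid over a finite field with `q` elements has `q² + 1` points. -/
theorem result {F : Type*} [Field F] [Fintype F] (m : ℕ) :
    Nat.card (Cfsg.suzukiOvoid F m) = Fintype.card F ^ 2 + 1 := by
  classical
  let f : F × F → (Fin 4 → F) := fun p =>
    ![p.1 * p.2 + p.1 ^ (2 ^ (m + 1) + 2) + p.2 ^ (2 ^ (m + 1)), p.2, p.1, 1]
  have hf : ∀ p, f p ≠ 0 := fun p h => by
    have := congrFun h 3
    simp [f] at this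
  have h0 : (![1, 0, 0, 0] : Fin 4 → F) ≠ 0 := fun h => by
    have := congrFun h 0
    simp at this
  let g : Option (F × F) → Projectivization F (Fin 4 → F) := fun o => match o with
    | none => Projectivization.mk F ![1, 0, 0, 0] h0
    | some p => Projectivization.mk F (f p) (hf p)
  have hg : Function.Injective g := by
    rintro (_ | p) (_ | q) h
    · rfl
    · exfalso
      simp only [g] at h
      rw [Projectivization.mk_eq_mk_iff'] at h
      obtain ⟨a, ha⟩ := h
      have h3 := congrFun ha 3
      have h0' := congrFun ha 0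
      simp [f] at h3 h0'
      rw [h3] at h0'
      simp at h0'
    · exfalso
      simp only [g] at h
      rw [Projectivization.mk_eq_mk_iff'] at h
      obtain ⟨a, ha⟩ := h
      have h3 := congrFun ha 3
      simp [f] at h3
    · simp only [g] at h
      rw [Projectivization.mk_eq_mk_iff'] at h
      obtain ⟨a, ha⟩ := h
      have h3 := congrFun ha 3
      have h2 := congrFun ha 2
      have h1 := congrFun ha 1
      simp [f] at h1 h2 h3
      subst h3
      simp at h1 h2
      congr 1
      exact Prod.ext h2.symm h1.symm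
  have hr : Set.range g = Cfsg.suzukiOvoid F m := by
    ext P
    constructor
    · rintro ⟨(_ | p), rfl⟩
      · exact ⟨_, h0, rfl, Or.inl rfl⟩
      · exact ⟨_, hf p, rfl, Or.inr ⟨p.1, p.2, rfl⟩⟩
    · rintro ⟨v, hv, rfl, (rfl | ⟨x, y, rfl⟩)⟩
      · exact ⟨none, rfl⟩
      · exact ⟨some (x, y), rfl⟩
  rw [← hr, Nat.card_range_of_injective hg, Nat.card_eq_fintype_card, Fintype.card_option,
    Fintype.card_prod]
  ring

end Cfsg.Agent.S0326
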