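import Cfsg.Statements.S0353
import Cfsg.Agent.Lib.Helper4.Steiner

set_option autoImplicit false
open Cfsg

namespace Cfsg.Agent.S0353

open Cfsg.Agent.Lib.Helper4.Steiner in
theorem inter_even {α : Type*} [Fintype α] [DecidableEq α] (hα : Fintype.card α = 24)
    {B : Set (Finset α)} (hB : Cfsg.IsSteinerSystem 5 8 B) {b c : Finset α} (hb : b ∈ B)
    (hc : c ∈ B) : Even (c ∩ b).card := by
  by_cases hbc : b = c
  · subst hbc
    rw [Finset.inter_self, hB.1 b hb]
    decide
  obtain ⟨h0, h1, h2, h3, h4⟩ := s5824 hα hB hb
  have hpos := cnt_pos (s := ∅) (X := b) hc (Finset.empty_subset _) rfl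
  have h8 : (c ∩ b).card < 5 := by
    by_contra hcon
    exact hbc (eq_of_le_inter hB hc hb (by omega)).symm
  have n1 : (c ∩ b).card ≠ 1 := fun e => by rw [e, h1] at hpos; exact lt_irrefl _ hpos
  have n3 : (c ∩ b).card ≠ 3 := fun e => by rw [e, h3] at hpos; exact lt_irrefl _ hpos
  rw [Nat.even_iff]
  omega


/-- In an S(5, 8, 24), the symmetric difference of two blocks meeting in four points is a block. -/
theorem result {α : Type*} [Fintype α] [DecidableEq α] (hα : Fintype.card α = 24) {B : Set (Finset α)} (hB : Cfsg.IsSteinerSystem 5 8 B) {b c : Finset α} (hb : b ∈ B) (hc : c ∈ B) (h4 : (b ∩ c).card = 4) : symmDiff b c ∈ B := by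
  open Cfsg.Agent.Lib.Helper4.Steiner in
  have hbcard := hB.1 b hb
  have hccard := hB.1 c hc
  have hX : (symmDiff b c).card = 8 := by
    have e : symmDiff b c = (b \ c) ∪ (c \ b) := rfl
    rw [e, Finset.card_union_of_disjoint (Finset.disjoint_of_subset_left Finset.sdiff_subset
      Finset.sdiff_disjoint.symm)]
    have h1 := Finset.card_sdiff_add_card_inter b c
    have h2 := Finset.card_sdiff_add_card_inter c b
    rw [Finset.inter_comm] at h2
    omega
  have par : ∀ d ∈ B, Even (d ∩ symmDiff b c).card := by
    intro d hd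
    have e : symmDiff b c = (b \ c) ∪ (c \ b) := rfl
    have e1 : (d ∩ symmDiff b c).card = (d ∩ (b \ c)).card + (d ∩ (c \ b)).card := by
      rw [e, Finset.inter_union_distrib_left, Finset.card_union_of_disjoint]
      exact Finset.disjoint_of_subset_left Finset.inter_subset_right
        (Finset.disjoint_of_subset_right Finset.inter_subset_right
          (Finset.disjoint_of_subset_left Finset.sdiff_subset Finset.sdiff_disjoint.symm))
    have e2 : (d ∩ b).card = (d ∩ (b \ c)).card + (d ∩ (b ∩ c)).card := by
      rw [← Finset.card_union_of_disjoint, ← Finset.inter_union_distrib_left,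
        Finset.sdiff_union_inter]
      exact Finset.disjoint_of_subset_left Finset.inter_subset_right
        (Finset.disjoint_of_subset_right Finset.inter_subset_right
          (Finset.disjoint_of_subset_right Finset.inter_subset_right Finset.sdiff_disjoint))
    have e3 : (d ∩ c).card = (d ∩ (c \ b)).card + (d ∩ (b ∩ c)).card := by
      rw [← Finset.card_union_of_disjoint, ← Finset.inter_union_distrib_left,
        Finset.inter_comm b c, Finset.sdiff_union_inter]
      exact Finset.disjoint_of_subset_left Finset.inter_subset_right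
        (Finset.disjoint_of_subset_right Finset.inter_subset_right
          (Finset.disjoint_of_subset_right Finset.inter_subset_left Finset.sdiff_disjoint))
    have p1 := inter_even hα hB hb hd
    have p2 := inter_even hα hB hc hd
    rw [Nat.even_iff] at p1 p2 ⊢
    omega
  have z5 : cnt B ∅ (symmDiff b c) 5 = 0 := by
    apply cnt_eq_zero
    intro d hd _ hj
    have := par d hd
    rw [hj] at this
    exact absurd this (by decide)
  have z7 : cnt B ∅ (symmDiff b c) 7 = 0 := by
    apply cnt_eq_zero
    intro d hd _ hj
    have := par d hd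
    rw [hj] at this
    exact absurd this (by decide)
  have e5 := sum_choose_cnt B ∅ (symmDiff b c) (Finset.disjoint_empty_left _) 5 1 9
    (fun T hT => (s5824_deg hα hB T).2.2.2.2.2 (by simpa using hT)) (by omega)
  simp only [Finset.sum_range_succ, Finset.sum_range_zero, hX, z5, z7] at e5
  norm_num [Nat.choose] at e5
  have h8 : 0 < cnt B ∅ (symmDiff b c) 8 := by omega
  rw [cnt, Finset.card_pos] at h8
  obtain ⟨d, hd⟩ := h8
  rw [Finset.mem_filter, mem_blocks] at hd
  obtain ⟨hdB, -, hd8⟩ := hd
  have hsub : d ∩ symmDiff b c = symmDiff b c :=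
    Finset.eq_of_subset_of_card_le Finset.inter_subset_right (by rw [hX, hd8])
  have hsub2 : symmDiff b c ⊆ d := by
    rw [← hsub]
    exact Finset.inter_subset_left
  have : symmDiff b c = d := Finset.eq_of_subset_of_card_le hsub2 (by rw [hX, hB.1 d hdB])
  rw [this]
  exact hdB

end Cfsg.Agent.S0353
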