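import Cfsg.Statements.S0356
import Cfsg.Agent.Lib.Helper4.Steiner

set_option autoImplicit false
open Cfsg

namespace Cfsg.Agent.S0356

/-- In a Steiner system S(3, 6, 22), two distinct blocks intersect in 0 or 2 points. -/
theorem result {α : Type*} [Fintype α] [DecidableEq α] (hα : Fintype.card α = 22) {B : Set (Finset α)} (hB : Cfsg.IsSteinerSystem 3 6 B) {b c : Finset α} (hb : b ∈ B) (hc : c ∈ B) (hbc : b ≠ c) : (b ∩ c).card = 0 ∨ (b ∩ c).card = 2 := by
  obtain ⟨h0, h1, h2⟩ := Cfsg.Agent.Lib.Helper4.Steiner.s3622 hα hB hb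
  have hpos := Cfsg.Agent.Lib.Helper4.Steiner.cnt_pos (s := ∅) (X := b) hc (Finset.empty_subset _) rfl
  have h8 : (c ∩ b).card < 3 := by
    by_contra hcon
    exact hbc (Cfsg.Agent.Lib.Helper4.Steiner.eq_of_le_inter hB hc hb (by omega)).symm
  have n1 : (c ∩ b).card ≠ 1 := fun e => by rw [e, h1] at hpos; exact lt_irrefl _ hpos
  rw [Finset.inter_comm]
  omega

end Cfsg.Agent.S0356
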