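import Cfsg.Statements.S0373
import Cfsg.Agent.Lib.Helper4.Golay

set_option autoImplicit false
open Cfsg

namespace Cfsg.Agent.S0373

/-- The cube-twist permutation (squares t ↦ t^3/9, non-squares t ↦ 9t^3, extra point fixed) lies in the group of the length-24 code. -/
theorem result : Cfsg.cubeTwist ∈ Cfsg.M24 := by
  exact Cfsg.Agent.Lib.Helper4.Golay.mem_M24_of_tbl Cfsg.cubeTwist Cfsg.cubeTwistFun (fun _ => rfl)
    [340831, 5598424, 7770270, 438188, 4020100, 4420775, 5815878, 3390737, 7500648, 2089522, 5966731, 6801989, 6391794, 4839740, 7136523, 1366499, 2779606, 3165759, 3087466, 7092913, 3776749, 6161781, 710361]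
    (by decide +kernel) (by decide +kernel)

end Cfsg.Agent.S0373
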