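import Cfsg.Statements.S0407
import Cfsg.Agent.S0409

set_option autoImplicit false
open Cfsg

namespace Cfsg.Agent.S0407

open Finset
open Cfsg.Agent.Lib.Helper4 Cfsg.Agent.Lib.Helper28 Cfsg.Agent.Lib.Helper28.Plane4
open Cfsg.Agent.Lib.Helper28.Aut22 Cfsg.Agent.Lib.Helper28.Ext23 Cfsg.Agent.S0410

/-- A system with the parameters in question is contained in any other one with the same
derived system. -/
theorem ext_sub {Ω : Type*} [Fintype Ω] [DecidableEq Ω] (hΩ : Fintype.card (Option Ω) = 24)
    {B B' : Set (Finset (Option Ω))} (hB : IsSteinerSystem 5 8 B)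
    (hB' : IsSteinerSystem 5 8 B') (hder : der B = der B') : B ⊆ B' := by
  intro X hX
  by_cases hn : none ∈ X
  · have h1 : Finset.eraseNone X ∈ der B := by
      show Finset.insertNone (Finset.eraseNone X) ∈ B
      rw [ins_erase hn]
      exact hX
    rw [hder] at h1
    have h2 : Finset.insertNone (Finset.eraseNone X) ∈ B' := h1
    rwa [ins_erase hn] at h2
  · have hX8 := hB.1 X hX
    obtain ⟨S, hSX, hS5⟩ := Finset.exists_subset_card_eq (show 5 ≤ X.card by omega)
    obtain ⟨O, ⟨hO, hSO⟩, -⟩ := hB'.2 S hS5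
    have tr : ∀ C, C ∈ B' → none ∈ C → C ∈ B := by
      intro C hC hnC
      have h1 : Finset.eraseNone C ∈ der B' := by
        show Finset.insertNone (Finset.eraseNone C) ∈ B'
        rw [ins_erase hnC]
        exact hC
      rw [← hder] at h1
      have h2 : Finset.insertNone (Finset.eraseNone C) ∈ B := h1
      rwa [ins_erase hnC] at h2
    have hnO : none ∉ O := by
      intro h
      have h1 := tr O hO h
      have h2 : O = X := Steiner.eq_of_le_inter hB h1 hX (by
        rw [← hS5]
        exact Finset.card_le_card (Finset.subset_inter hSO hSX))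
      exact hn (h2 ▸ h)
    by_cases hOX : O = X
    · rw [← hOX]
      exact hO
    exfalso
    have hO8 := hB'.1 O hO
    obtain ⟨x, hxX, hxO⟩ : ∃ x ∈ X, x ∉ O := by
      by_contra h
      push Not at h
      exact hOX (Finset.eq_of_subset_of_card_le h (by omega)).symm
    have hxn : x ≠ none := fun e => hn (e ▸ hxX)
    have key : ∀ T : Finset (Option Ω), T ⊆ S → T.card = 3 →
        ∃ d, d ∈ O ∧ d ∉ X ∧ ∃ C ∈ B', none ∈ C ∧ x ∈ C ∧ T ⊆ C ∧ d ∈ C := by
      intro T hTS hT3
      have hxT : x ∉ T := fun h => hxO (hSO (hTS h))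
      have hnT : none ∉ insert x T := by
        rw [Finset.mem_insert, not_or]
        exact ⟨fun e => hxn e.symm, fun h => hn (hSX (hTS h))⟩
      have hU : (insert none (insert x T)).card = 5 := by
        rw [Finset.card_insert_of_notMem hnT, Finset.card_insert_of_notMem hxT, hT3]
      obtain ⟨C, ⟨hC, hUC⟩, -⟩ := hB'.2 _ hU
      have hnC : none ∈ C := hUC (Finset.mem_insert_self _ _)
      have hxC : x ∈ C := hUC (Finset.mem_insert_of_mem (Finset.mem_insert_self _ _))
      have hTC : T ⊆ C := fun z hz =>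
        hUC (Finset.mem_insert_of_mem (Finset.mem_insert_of_mem hz))
      have h3 : (C ∩ O).card ≠ 3 := by
        intro h3
        have hp := Steiner.cnt_pos hC (Finset.empty_subset C) h3
        rw [(Steiner.s5824 hΩ hB' hO).2.2.2.1] at hp
        exact lt_irrefl _ hp
      have hTCO : T ⊆ C ∩ O := Finset.subset_inter hTC (hTS.trans hSO)
      have h4 : T.card < (C ∩ O).card := by
        have := Finset.card_le_card hTCO
        omega
      obtain ⟨d, hd, hdT⟩ := Finset.exists_mem_notMem_of_card_lt_card h4
      rw [Finset.mem_inter] at hd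
      refine ⟨d, hd.2, ?_, C, hC, hnC, hxC, hTC, hd.1⟩
      intro hdX
      have hdx : d ≠ x := fun e => hxO (e ▸ hd.2)
      have hW : (insert d (insert x T)).card = 5 := by
        rw [Finset.card_insert_of_notMem, Finset.card_insert_of_notMem hxT, hT3]
        rw [Finset.mem_insert, not_or]
        exact ⟨hdx, hdT⟩
      have hWs : insert d (insert x T) ⊆ C ∩ X := by
        intro z hz
        rw [Finset.mem_insert, Finset.mem_insert] at hz
        rw [Finset.mem_inter]
        rcases hz with rfl | rfl | hz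
        · exact ⟨hd.1, hdX⟩
        · exact ⟨hxC, hxX⟩
        · exact ⟨hTC hz, hSX (hTS hz)⟩
      have hCX : C = X := Steiner.eq_of_le_inter hB (tr C hC hnC) hX (by
        rw [← hW]
        exact Finset.card_le_card hWs)
      exact hn (hCX ▸ hnC)
    obtain ⟨Q, hQS, hQ4⟩ := Finset.exists_subset_card_eq (show 4 ≤ S.card by omega)
    have key' : ∀ a ∈ Q, ∃ d, d ∈ O ∧ d ∉ X ∧
        ∃ C ∈ B', none ∈ C ∧ x ∈ C ∧ Q.erase a ⊆ C ∧ d ∈ C := by
      intro a ha
      exact key (Q.erase a) ((Finset.erase_subset _ _).trans hQS)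
        (by rw [Finset.card_erase_of_mem ha, hQ4])
    choose! f hf using key'
    have hQX : ∀ z ∈ Q, z ∈ X := fun z hz => hSX (hQS hz)
    have hQO : ∀ z ∈ Q, z ∈ O := fun z hz => hSO (hQS hz)
    have hinj : Set.InjOn f ↑Q := by
      intro a ha b hb hab
      by_contra hne
      have ha' : a ∈ Q := ha
      have hb' : b ∈ Q := hb
      obtain ⟨fa1, fa2, Ca, hCa, na, xa, Ta, da⟩ := hf a ha'
      obtain ⟨fb1, fb2, Cb, hCb, nb, xb, Tb, db⟩ := hf b hb'
      have hbm : b ∈ Q.erase a := Finset.mem_erase.2 ⟨fun e => hne e.symm, hb'⟩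
      have hc2 : ((Q.erase a).erase b).card = 2 := by
        rw [Finset.card_erase_of_mem hbm, Finset.card_erase_of_mem ha', hQ4]
      have sub2 : ∀ z ∈ (Q.erase a).erase b, z ∈ Q := fun z hz =>
        Finset.mem_of_mem_erase (Finset.mem_of_mem_erase hz)
      have hW : (insert none (insert x (insert (f a) ((Q.erase a).erase b)))).card = 5 := by
        rw [Finset.card_insert_of_notMem, Finset.card_insert_of_notMem,
          Finset.card_insert_of_notMem, hc2]
        · exact fun h => fa2 (hQX _ (sub2 _ h))
        · rw [Finset.mem_insert, not_or]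
          exact ⟨fun e => hxO (e ▸ fa1), fun h => hxO (hQO _ (sub2 _ h))⟩
        · rw [Finset.mem_insert, Finset.mem_insert, not_or, not_or]
          exact ⟨fun e => hxn e.symm, fun e => hnO (e ▸ fa1), fun h => hn (hQX _ (sub2 _ h))⟩
      have hWs : insert none (insert x (insert (f a) ((Q.erase a).erase b))) ⊆ Ca ∩ Cb := by
        intro z hz
        rw [Finset.mem_insert, Finset.mem_insert, Finset.mem_insert] at hz
        rw [Finset.mem_inter]
        rcases hz with rfl | rfl | rfl | hz
        · exact ⟨na, nb⟩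
        · exact ⟨xa, xb⟩
        · refine ⟨da, ?_⟩
          rw [hab]
          exact db
        · refine ⟨Ta (Finset.mem_of_mem_erase hz), Tb ?_⟩
          rw [Finset.mem_erase] at hz ⊢
          exact ⟨hz.1, Finset.mem_of_mem_erase hz.2⟩
      have hCC : Ca = Cb := Steiner.eq_of_le_inter hB' hCa hCb (by
        rw [← hW]
        exact Finset.card_le_card hWs)
      have hQC : insert (f a) Q ⊆ Ca ∩ O := by
        intro z hz
        rw [Finset.mem_insert] at hz
        rw [Finset.mem_inter]
        rcases hz with rfl | hz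
        · exact ⟨da, fa1⟩
        · refine ⟨?_, hQO z hz⟩
          by_cases hza : z = a
          · rw [hCC]
            apply Tb
            rw [hza]
            exact Finset.mem_erase.2 ⟨hne, ha'⟩
          · exact Ta (Finset.mem_erase.2 ⟨hza, hz⟩)
      have h5 : (insert (f a) Q).card = 5 := by
        rw [Finset.card_insert_of_notMem (fun h => fa2 (hQX _ h)), hQ4]
      have hCO : Ca = O := Steiner.eq_of_le_inter hB' hCa hO (by
        rw [← h5]
        exact Finset.card_le_card hQC)
      exact hnO (hCO ▸ na)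
    have hmaps : ∀ a ∈ Q, f a ∈ O \ X := fun a ha =>
      Finset.mem_sdiff.2 ⟨(hf a ha).1, (hf a ha).2.1⟩
    have hle := Finset.card_le_card_of_injOn f hmaps hinj
    have h1 := Finset.card_sdiff_add_card_inter O X
    have h2 : 5 ≤ (O ∩ X).card := by
      rw [← hS5]
      exact Finset.card_le_card (Finset.subset_inter hSO hSX)
    omega

/-- A system with the parameters in question is determined by its derived system. -/
theorem ext_unique {Ω : Type*} [Fintype Ω] [DecidableEq Ω] (hΩ : Fintype.card (Option Ω) = 24)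
    {B B' : Set (Finset (Option Ω))} (hB : IsSteinerSystem 5 8 B)
    (hB' : IsSteinerSystem 5 8 B') (hder : der B = der B') : B = B' :=
  Set.Subset.antisymm (ext_sub hΩ hB hB' hder) (ext_sub hΩ hB' hB hder.symm)

/-- Two systems with the parameters in question are isomorphic by a map respecting the extra
points. -/
theorem iso_of_der {Ω Ω' : Type*} [Fintype Ω] [DecidableEq Ω] [Fintype Ω'] [DecidableEq Ω']
    (hΩ : Fintype.card Ω = 23) (hΩ' : Fintype.card Ω' = 23)
    {B1 : Set (Finset (Option Ω))} {B1' : Set (Finset (Option Ω'))}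
    (h1 : IsSteinerSystem 5 8 B1) (h1' : IsSteinerSystem 5 8 B1') :
    ∃ f : Ω ≃ Ω', (fun b : Finset (Option Ω) => b.image (Equiv.optionCongr f)) '' B1 = B1' := by
  have hD : IsSteinerSystem 4 7 (der B1) := der_steiner h1
  have hD' : IsSteinerSystem 4 7 (der B1') := der_steiner h1'
  have h := Cfsg.Agent.S0409.result hΩ hΩ' hD hD'
  obtain ⟨f, hf⟩ : ∃ e : Ω ≃ Ω', (fun b : Finset Ω => b.image e) '' der B1 = der B1' := h
  refine ⟨f, ?_⟩
  apply ext_unique (by rw [Fintype.card_option, hΩ']) (steiner_image _ h1) h1'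
  rw [der_image]
  exact hf

/-- Uniqueness of the Steiner system S(5, 8, 24) up to isomorphism. -/
theorem result {α β : Type*} [Fintype α] [DecidableEq α] [Fintype β] [DecidableEq β] (hα : Fintype.card α = 24) (hβ : Fintype.card β = 24) {B : Set (Finset α)} {B' : Set (Finset β)} (hB : Cfsg.IsSteinerSystem 5 8 B) (hB' : Cfsg.IsSteinerSystem 5 8 B') : Cfsg.SetSystemIso B B' := by
  have c23 : Fintype.card (Fin 23) = 23 := Fintype.card_fin 23
  have c24 : Fintype.card (Option (Fin 23)) = 24 := by rw [Fintype.card_option, c23]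
  have e0 : α ≃ Option (Fin 23) := Fintype.equivOfCardEq (by rw [hα, c24])
  have e0' : β ≃ Option (Fin 23) := Fintype.equivOfCardEq (by rw [hβ, c24])
  obtain ⟨f, hf⟩ := iso_of_der c23 c23 (steiner_image e0 hB) (steiner_image e0' hB')
  show ∃ e : α ≃ β, (fun b => b.image e) '' B = B'
  refine ⟨(e0.trans (Equiv.optionCongr f)).trans e0'.symm, ?_⟩
  rw [image_trans_set, image_trans_set, hf, image_symm_set]
end Cfsg.Agent.S0407
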