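import Cfsg.Statements.S0375
import Cfsg.Agent.S0407
import Cfsg.Agent.S0358
import Cfsg.Agent.S0359
import Cfsg.Agent.S0362

set_option autoImplicit false
open Cfsg

namespace Cfsg.Agent.S0375

open Finset
open Cfsg.Agent.Lib.Helper4

section code
variable {α : Type*} [Fintype α] [DecidableEq α]

/-- The indicator word of a set. -/
def ind (s : Finset α) : α → ZMod 2 := fun i => if i ∈ s then 1 else 0

theorem zmod2_cases : ∀ x : ZMod 2, x = 0 ∨ x = 1 := by decide

theorem mem_supp {w : α → ZMod 2} {i : α} : i ∈ support₂ w ↔ w i ≠ 0 := by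
  rw [support₂, Finset.mem_filter]
  exact ⟨fun h => h.2, fun h => ⟨Finset.mem_univ _, h⟩⟩

theorem ind_ne {s : Finset α} {i : α} : ind s i ≠ 0 ↔ i ∈ s := by
  unfold ind
  by_cases h : i ∈ s
  · rw [if_pos h]
    exact ⟨fun _ => h, fun _ => one_ne_zero⟩
  · rw [if_neg h]
    exact ⟨fun h' => absurd rfl h', fun h' => absurd h' h⟩

theorem supp_ind (s : Finset α) : support₂ (ind s) = s := by
  ext i
  rw [mem_supp, ind_ne]

theorem ind_supp (w : α → ZMod 2) : ind (support₂ w) = w := by
  funext i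
  unfold ind
  by_cases h : i ∈ support₂ w
  · rw [if_pos h]
    rcases zmod2_cases (w i) with h0 | h1
    · exact absurd h0 (mem_supp.1 h)
    · exact h1.symm
  · rw [if_neg h]
    by_contra h'
    exact h (mem_supp.2 (Ne.symm h'))

theorem norm_eq (w : α → ZMod 2) : hammingNorm w = (support₂ w).card := rfl

theorem norm_ind (s : Finset α) : hammingNorm (ind s) = s.card := by
  rw [norm_eq, supp_ind]

theorem ind_sub (s t : Finset α) : ind s - ind t = ind ((s \ t) ∪ (t \ s)) := by
  funext i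
  show ind s i - ind t i = ind ((s \ t) ∪ (t \ s)) i
  unfold ind
  by_cases hs : i ∈ s <;> by_cases ht : i ∈ t
  · rw [if_pos hs, if_pos ht, if_neg, sub_self]
    intro h
    rcases Finset.mem_union.1 h with h | h
    · exact (Finset.mem_sdiff.1 h).2 ht
    · exact (Finset.mem_sdiff.1 h).2 hs
  · rw [if_pos hs, if_neg ht, if_pos (Finset.mem_union_left _ (Finset.mem_sdiff.2 ⟨hs, ht⟩)),
      sub_zero]
  · rw [if_neg hs, if_pos ht, if_pos (Finset.mem_union_right _ (Finset.mem_sdiff.2 ⟨ht, hs⟩))]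
    decide
  · rw [if_neg hs, if_neg ht, if_neg, sub_zero]
    intro h
    rcases Finset.mem_union.1 h with h | h
    · exact hs (Finset.mem_sdiff.1 h).1
    · exact ht (Finset.mem_sdiff.1 h).1

theorem sd_card (s t : Finset α) :
    ((s \ t) ∪ (t \ s)).card + 2 * (s ∩ t).card = s.card + t.card := by
  have hd : Disjoint (s \ t) (t \ s) := by
    rw [Finset.disjoint_left]
    intro i hi hi'
    exact (Finset.mem_sdiff.1 hi).2 (Finset.mem_sdiff.1 hi').1
  have h1 := Finset.card_sdiff_add_card_inter s t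
  have h2 := Finset.card_sdiff_add_card_inter t s
  rw [Finset.inter_comm t s] at h2
  rw [Finset.card_union_of_disjoint hd]
  omega

/-- The hypotheses on the code. -/
def IsG (C : Submodule (ZMod 2) (α → ZMod 2)) : Prop :=
  Module.finrank (ZMod 2) C = 12 ∧ (∀ v ∈ C, ∀ w ∈ C, ∑ i, v i * w i = 0) ∧
  (∀ w ∈ C, 4 ∣ hammingNorm w) ∧ (∀ w ∈ C, hammingNorm w ≠ 4)

variable {C : Submodule (ZMod 2) (α → ZMod 2)}

theorem small (hC : IsG C) {w : α → ZMod 2} (hw : w ∈ C) (h : hammingNorm w < 8) : w = 0 := by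
  have h1 := hC.2.2.1 w hw
  have h2 := hC.2.2.2 w hw
  rw [← hammingNorm_eq_zero]
  obtain ⟨k, hk⟩ := h1
  omega

theorem far (hC : IsG C) {s t : Finset α} (hst : s ≠ t) (h : ind s - ind t ∈ C) :
    8 ≤ ((s \ t) ∪ (t \ s)).card := by
  by_contra hlt
  push Not at hlt
  have h0 : ind s - ind t = 0 := small hC h (by rw [ind_sub, norm_ind]; exact hlt)
  apply hst
  have h1 : ind s = ind t := sub_eq_zero.1 h0
  rw [← supp_ind s, ← supp_ind t, h1]

theorem cover (hα : Fintype.card α = 24) (hC : IsG C) (v : α → ZMod 2) :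
    ∃ s : Finset α, s.card ≤ 4 ∧ v - ind s ∈ C := by
  classical
  have hφ : ∀ s t : Finset α, (Submodule.Quotient.mk (ind s) : (α → ZMod 2) ⧸ C)
      = Submodule.Quotient.mk (ind t) ↔ ind s - ind t ∈ C :=
    fun s t => Submodule.Quotient.eq C
  have cQ : Fintype.card ((α → ZMod 2) ⧸ C) = 4096 := by
    have h1 := Submodule.card_eq_card_quotient_mul_card C
    have h2 : Nat.card (α → ZMod 2) = 2 ^ 24 := by
      rw [Nat.card_eq_fintype_card, Fintype.card_fun, ZMod.card, hα]
    have h3 : Nat.card C = 2 ^ 12 := by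
      rw [Module.natCard_eq_pow_finrank (K := ZMod 2), hC.1, Nat.card_eq_fintype_card, ZMod.card]
    rw [h2, h3, Nat.card_eq_fintype_card] at h1
    norm_num at h1
    omega
  generalize hφdef : (fun s : Finset α => (Submodule.Quotient.mk (ind s) : (α → ZMod 2) ⧸ C)) = φ
  have hφ' : ∀ s t : Finset α, φ s = φ t ↔ ind s - ind t ∈ C := by
    intro s t
    rw [← hφdef]
    exact hφ s t
  generalize hL3 : (Finset.range 4).biUnion (fun k => Finset.powersetCard k (Finset.univ : Finset α)) = L3
  generalize hL4 : Finset.powersetCard 4 (Finset.univ : Finset α) = L4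
  have m3 : ∀ s, s ∈ L3 → s.card ≤ 3 := by
    intro s hs
    rw [← hL3, Finset.mem_biUnion] at hs
    obtain ⟨k, hk, hs⟩ := hs
    rw [Finset.mem_range] at hk
    rw [(Finset.mem_powersetCard.1 hs).2]
    omega
  have m4 : ∀ s, s ∈ L4 → s.card = 4 := by
    intro s hs
    rw [← hL4] at hs
    exact (Finset.mem_powersetCard.1 hs).2
  have c3 : L3.card = 2325 := by
    rw [← hL3, Finset.card_biUnion (fun i _ j _ hij => Finset.pairwise_disjoint_powersetCard _ hij)]
    simp only [Finset.card_powersetCard, Finset.card_univ, hα]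
    decide
  have c4 : L4.card = 10626 := by
    rw [← hL4, Finset.card_powersetCard, Finset.card_univ, hα]
    decide
  have inj3 : Set.InjOn φ L3 := by
    intro s hs t ht h
    by_contra hst
    have h8 := far hC hst ((hφ' s t).1 h)
    have hc := sd_card s t
    have := m3 s hs
    have := m3 t ht
    omega
  have hI3 : (L3.image φ).card = 2325 := by
    rw [Finset.card_image_of_injOn inj3, c3]
  have hfib : ∀ q ∈ L4.image φ, (L4.filter (fun s => φ s = q)).card ≤ 6 := by
    intro q _
    have hpd : ((L4.filter (fun s => φ s = q) : Finset (Finset α)) : Set (Finset α)).PairwiseDisjoint id := by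
      intro s hs t ht hst
      have hs' := Finset.mem_filter.1 hs
      have ht' := Finset.mem_filter.1 ht
      have h8 := far hC hst ((hφ' s t).1 (hs'.2.trans ht'.2.symm))
      have hc := sd_card s t
      rw [m4 s hs'.1, m4 t ht'.1] at hc
      show Disjoint s t
      rw [Finset.disjoint_iff_inter_eq_empty, ← Finset.card_eq_zero]
      omega
    have hcard := Finset.card_biUnion hpd
    have hsum : ∑ s ∈ L4.filter (fun s => φ s = q), (id s).card
        = (L4.filter (fun s => φ s = q)).card * 4 :=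
      Finset.sum_const_nat (fun s hs => m4 s (Finset.mem_filter.1 hs).1)
    have hle := Finset.card_le_univ ((L4.filter (fun s => φ s = q)).biUnion id)
    rw [hcard, hsum, hα] at hle
    omega
  have hI4 : 10626 ≤ 6 * (L4.image φ).card := by
    rw [← c4]
    exact Finset.card_le_mul_card_image L4 6 hfib
  have hdis : Disjoint (L3.image φ) (L4.image φ) := by
    rw [Finset.disjoint_left]
    intro q h3 h4
    obtain ⟨s, hs, es⟩ := Finset.mem_image.1 h3
    obtain ⟨t, ht, et⟩ := Finset.mem_image.1 h4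
    have hs3 := m3 s hs
    have ht4 := m4 t ht
    have hst : s ≠ t := by
      intro e
      rw [e] at hs3
      omega
    have h8 := far hC hst ((hφ' s t).1 (es.trans et.symm))
    have hc := sd_card s t
    omega
  have hall : L3.image φ ∪ L4.image φ = Finset.univ := by
    apply Finset.eq_univ_of_card
    have hle := Finset.card_le_univ (L3.image φ ∪ L4.image φ)
    rw [Finset.card_union_of_disjoint hdis, hI3, cQ] at hle
    rw [Finset.card_union_of_disjoint hdis, hI3, cQ]
    omega
  have hv : φ (support₂ v) ∈ L3.image φ ∪ L4.image φ := by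
    rw [hall]
    exact Finset.mem_univ _
  rw [Finset.mem_union, Finset.mem_image, Finset.mem_image] at hv
  have fin : ∀ s : Finset α, φ s = φ (support₂ v) → v - ind s ∈ C := by
    intro s e
    have h := (hφ' (support₂ v) s).1 e.symm
    rw [ind_supp] at h
    exact h
  rcases hv with ⟨s, hs, e⟩ | ⟨s, hs, e⟩
  · exact ⟨s, by have := m3 s hs; omega, fin s e⟩
  · exact ⟨s, by rw [m4 s hs], fin s e⟩

theorem oct_eq (hC : IsG C) {o1 o2 : Finset α}
    (h1 : o1 ∈ wordsOfWeight (C : Set (α → ZMod 2)) 8)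
    (h2 : o2 ∈ wordsOfWeight (C : Set (α → ZMod 2)) 8) (h5 : 5 ≤ (o1 ∩ o2).card) : o1 = o2 := by
  by_contra hne
  obtain ⟨⟨w1, hw1, e1⟩, c1⟩ := h1
  obtain ⟨⟨w2, hw2, e2⟩, c2⟩ := h2
  have hsub : ind o1 - ind o2 ∈ C := by
    rw [← e1, ← e2, ind_supp, ind_supp]
    exact C.sub_mem hw1 hw2
  have h8 := far hC hne hsub
  have hc := sd_card o1 o2
  omega

theorem steiner (hα : Fintype.card α = 24) (hC : IsG C) :
    IsSteinerSystem 5 8 (wordsOfWeight (C : Set (α → ZMod 2)) 8) := by
  constructor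
  · intro b hb
    exact hb.2
  · intro T hT
    obtain ⟨s, hs4, hsC⟩ := cover hα hC (ind T)
    have hne : T ≠ s := by
      intro h
      rw [← h, hT] at hs4
      omega
    have h8 := far hC hne hsC
    have hc := sd_card T s
    have h4 := hC.2.2.1 _ hsC
    rw [ind_sub, norm_ind] at h4
    have hinter : (T ∩ s).card ≤ s.card := Finset.card_le_card Finset.inter_subset_right
    have hi0 : (T ∩ s).card = 0 := by omega
    have hc8 : ((T \ s) ∪ (s \ T)).card = 8 := by
      obtain ⟨k, hk⟩ := h4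
      omega
    have hmem : (T \ s) ∪ (s \ T) ∈ wordsOfWeight (C : Set (α → ZMod 2)) 8 :=
      ⟨⟨ind T - ind s, hsC, by rw [ind_sub, supp_ind]⟩, hc8⟩
    have hsub : T ⊆ (T \ s) ∪ (s \ T) := by
      intro i hi
      refine Finset.mem_union_left _ (Finset.mem_sdiff.2 ⟨hi, fun his => ?_⟩)
      have : i ∈ T ∩ s := Finset.mem_inter.2 ⟨hi, his⟩
      rw [Finset.card_eq_zero.1 hi0] at this
      exact absurd this (Finset.notMem_empty i)
    refine ⟨_, ⟨hmem, hsub⟩, ?_⟩
    rintro o' ⟨ho', hTo'⟩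
    apply oct_eq hC ho' hmem
    rw [← hT]
    exact Finset.card_le_card (Finset.subset_inter hTo' hsub)

theorem avoid (hα : Fintype.card α = 24) (hC : IsG C) {R : Finset α} {q : α} (hq : q ∉ R)
    (hR : R.card ≤ 4) :
    ∃ o ∈ wordsOfWeight (C : Set (α → ZMod 2)) 8, R ⊆ o ∧ q ∉ o := by
  have hS := steiner hα hC
  have hcomp : 5 - R.card ≤ ((insert q R)ᶜ).card := by
    rw [Finset.card_compl, hα, Finset.card_insert_of_notMem hq]
    omega
  obtain ⟨A, hA, hAc⟩ := Finset.exists_subset_card_eq hcomp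
  have hAdis : ∀ i ∈ A, i ≠ q ∧ i ∉ R := by
    intro i hi
    have h := Finset.mem_compl.1 (hA hi)
    rw [Finset.mem_insert, not_or] at h
    exact h
  have hdAR : Disjoint A R := by
    rw [Finset.disjoint_left]
    intro i hi
    exact (hAdis i hi).2
  have hT1 : (A ∪ R).card = 5 := by
    rw [Finset.card_union_of_disjoint hdAR, hAc]
    omega
  obtain ⟨o1, ⟨ho1, hT1o⟩, -⟩ := hS.2 _ hT1
  by_cases hq1 : q ∈ o1
  swap
  · exact ⟨o1, ho1, fun i hi => hT1o (Finset.mem_union_right _ hi), hq1⟩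
  have ho1c : o1.card = 8 := hS.1 o1 ho1
  obtain ⟨x, hx⟩ : ∃ x, x ∉ o1 := by
    by_contra hcon
    push Not at hcon
    have h : o1 = Finset.univ := Finset.eq_univ_iff_forall.2 hcon
    rw [h, Finset.card_univ, hα] at ho1c
    omega
  obtain ⟨a, ha⟩ : A.Nonempty := by
    rw [← Finset.card_pos, hAc]
    omega
  have hsubT : A.erase a ∪ R ⊆ A ∪ R := by
    intro i hi
    rcases Finset.mem_union.1 hi with h | h
    · exact Finset.mem_union_left _ (Finset.mem_of_mem_erase h)
    · exact Finset.mem_union_right _ h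
  have hxn : x ∉ A.erase a ∪ R := fun h => hx (hT1o (hsubT h))
  have hdis2 : Disjoint (A.erase a) R := by
    rw [Finset.disjoint_left]
    intro i hi
    exact (hAdis i (Finset.mem_of_mem_erase hi)).2
  have hc4 : (A.erase a ∪ R).card = 4 := by
    rw [Finset.card_union_of_disjoint hdis2, Finset.card_erase_of_mem ha, hAc]
    omega
  have hT2 : (insert x (A.erase a ∪ R)).card = 5 := by
    rw [Finset.card_insert_of_notMem hxn, hc4]
  obtain ⟨o2, ⟨ho2, hT2o⟩, -⟩ := hS.2 _ hT2
  by_cases hq2 : q ∈ o2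
  swap
  · exact ⟨o2, ho2, fun i hi => hT2o (Finset.mem_insert_of_mem (Finset.mem_union_right _ hi)),
      hq2⟩
  exfalso
  have hqn : q ∉ A.erase a ∪ R := by
    intro h
    rcases Finset.mem_union.1 h with h | h
    · exact (hAdis q (Finset.mem_of_mem_erase h)).1 rfl
    · exact hq h
  have h5 : 5 ≤ (o1 ∩ o2).card := by
    have hsub : insert q (A.erase a ∪ R) ⊆ o1 ∩ o2 := by
      intro i hi
      rw [Finset.mem_insert] at hi
      rcases hi with rfl | hi
      · exact Finset.mem_inter.2 ⟨hq1, hq2⟩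
      · exact Finset.mem_inter.2 ⟨hT1o (hsubT hi), hT2o (Finset.mem_insert_of_mem hi)⟩
    have hc : (insert q (A.erase a ∪ R)).card = 5 := by
      rw [Finset.card_insert_of_notMem hqn, hc4]
    rw [← hc]
    exact Finset.card_le_card hsub
  have heq := oct_eq hC ho1 ho2 h5
  exact hx (by rw [heq]; exact hT2o (Finset.mem_insert_self _ _))

theorem odd_oct (hα : Fintype.card α = 24) (hC : IsG C) {s : Finset α} (h1 : 1 ≤ s.card)
    (h4 : s.card ≤ 4) :
    ∃ o ∈ wordsOfWeight (C : Set (α → ZMod 2)) 8, (o ∩ s).card % 2 = 1 := by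
  have hS := steiner hα hC
  by_cases hodd : s.card % 2 = 1
  · obtain ⟨T, hsT, -, hTc⟩ := Finset.exists_subsuperset_card_eq (Finset.subset_univ s)
      (n := 5) (by omega) (by rw [Finset.card_univ, hα]; norm_num)
    obtain ⟨o, ⟨ho, hTo⟩, -⟩ := hS.2 T hTc
    refine ⟨o, ho, ?_⟩
    rw [Finset.inter_eq_right.2 (hsT.trans hTo)]
    exact hodd
  · obtain ⟨q, hq⟩ : s.Nonempty := by
      rw [← Finset.card_pos]
      omega
    obtain ⟨o, ho, hRo, hqo⟩ := avoid hα hC (Finset.notMem_erase q s)
      (by rw [Finset.card_erase_of_mem hq]; omega)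
    refine ⟨o, ho, ?_⟩
    have h : o ∩ s = s.erase q := by
      ext i
      rw [Finset.mem_inter, Finset.mem_erase]
      constructor
      · rintro ⟨hio, his⟩
        exact ⟨fun e => hqo (e ▸ hio), his⟩
      · rintro ⟨hiq, his⟩
        exact ⟨hRo (Finset.mem_erase.2 ⟨hiq, his⟩), his⟩
    rw [h, Finset.card_erase_of_mem hq]
    omega

theorem dot_ind (s : Finset α) (w : α → ZMod 2) :
    ∑ i, ind s i * w i = ((support₂ w ∩ s).card : ZMod 2) := by
  have h : ∀ i, ind s i * w i = if i ∈ support₂ w ∩ s then 1 else 0 := by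
    intro i
    unfold ind
    by_cases hs : i ∈ s
    · by_cases hw : i ∈ support₂ w
      · rw [if_pos hs, if_pos (Finset.mem_inter.2 ⟨hw, hs⟩), one_mul]
        rcases zmod2_cases (w i) with h0 | h1
        · exact absurd h0 (mem_supp.1 hw)
        · exact h1
      · rw [if_pos hs, if_neg (fun h => hw (Finset.mem_inter.1 h).1), one_mul]
        by_contra h'
        exact hw (mem_supp.2 h')
    · rw [if_neg hs, if_neg (fun h => hs (Finset.mem_inter.1 h).2), zero_mul]
  rw [Finset.sum_congr rfl (fun i _ => h i), Finset.sum_boole, Finset.filter_mem_eq_inter,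
    Finset.univ_inter]

theorem mem_of_orth (hα : Fintype.card α = 24) (hC : IsG C) {v : α → ZMod 2}
    (h : ∀ w ∈ C, hammingNorm w = 8 → ∑ i, v i * w i = 0) : v ∈ C := by
  obtain ⟨s, hs4, hsC⟩ := cover hα hC v
  by_cases hs0 : s.card = 0
  · rw [Finset.card_eq_zero] at hs0
    have h0 : ind s = 0 := by
      funext i
      unfold ind
      rw [hs0, if_neg (Finset.notMem_empty i)]
      rfl
    rw [h0, sub_zero] at hsC
    exact hsC
  · exfalso
    obtain ⟨o, ⟨⟨w, hw, e⟩, hc⟩, hodd⟩ := odd_oct hα hC (s := s) (by omega) hs4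
    have hw8 : hammingNorm w = 8 := by
      rw [norm_eq, e, hc]
    have h1 := h w hw hw8
    have h2 := hC.2.1 (v - ind s) hsC w hw
    have h3 : ∑ i, ind s i * w i = 0 := by
      have h' : ∀ i, ind s i * w i = v i * w i - (v - ind s) i * w i := by
        intro i
        rw [Pi.sub_apply, sub_mul, sub_sub_cancel]
      rw [Finset.sum_congr rfl (fun i _ => h' i), Finset.sum_sub_distrib, h1, h2, sub_zero]
    rw [dot_ind, e, ZMod.natCast_eq_zero_iff] at h3
    omega

end code

/-- A doubly even self-dual binary code of length 24 with no words of weight 4 is equivalent to the length-24 code built from the squares modulo 23. -/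
theorem result (C : Submodule (ZMod 2) (Fin 24 → ZMod 2)) (hdim : Module.finrank (ZMod 2) C = 12) (horth : ∀ v ∈ C, ∀ w ∈ C, ∑ i, v i * w i = 0) (h4 : ∀ w ∈ C, 4 ∣ hammingNorm w) (hno4 : ∀ w ∈ C, hammingNorm w ≠ 4) : ∃ e : Fin 24 ≃ Cfsg.GolayPt, ∀ w : Cfsg.GolayPt → ZMod 2, w ∈ Cfsg.golayCode ↔ (fun i => w (e i)) ∈ C := by
  have hC : IsG C := ⟨hdim, horth, h4, hno4⟩
  have hG : IsG Cfsg.golayCode := by
    refine ⟨Cfsg.Agent.S0358.result, fun v hv w hw => Cfsg.Agent.S0362.result v w hv hw, ?_, ?_⟩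
    · intro w hw
      rcases Cfsg.Agent.S0359.result w hw with h | h | h | h | h <;> rw [h] <;> norm_num
    · intro w hw
      rcases Cfsg.Agent.S0359.result w hw with h | h | h | h | h <;> rw [h] <;> norm_num
  have c24 : Fintype.card (Fin 24) = 24 := Fintype.card_fin 24
  have cG : Fintype.card Cfsg.GolayPt = 24 := by rw [Fintype.card_option, ZMod.card]
  have hSC := steiner c24 hC
  have hSG := steiner cG hG
  obtain ⟨e, he⟩ : ∃ e : Fin 24 ≃ Cfsg.GolayPt,
      (fun b : Finset (Fin 24) => b.image e) '' wordsOfWeight (C : Set (Fin 24 → ZMod 2)) 8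
        = wordsOfWeight (Cfsg.golayCode : Set (Cfsg.GolayPt → ZMod 2)) 8 :=
    Cfsg.Agent.S0407.result c24 cG hSC hSG
  refine ⟨e, ?_⟩
  have key : ∀ (u : Fin 24 → ZMod 2) (u' : Cfsg.GolayPt → ZMod 2),
      (support₂ u).image e = support₂ u' → ∀ i, u' (e i) = u i := by
    intro u u' hs i
    have h1 : u' (e i) ≠ 0 ↔ u i ≠ 0 := by
      rw [← mem_supp, ← hs, ← mem_supp]
      constructor
      · intro h
        obtain ⟨j, hj, ej⟩ := Finset.mem_image.1 h
        rw [← e.injective ej]
        exact hj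
      · exact Finset.mem_image_of_mem e
    rcases zmod2_cases (u' (e i)) with a | a <;> rcases zmod2_cases (u i) with b | b
    · rw [a, b]
    · exact absurd a (h1.2 (by rw [b]; exact one_ne_zero))
    · exact absurd b (h1.1 (by rw [a]; exact one_ne_zero))
    · rw [a, b]
  intro w
  constructor
  · intro hw
    apply mem_of_orth c24 hC
    intro u hu hu8
    have hm : (support₂ u).image e ∈ wordsOfWeight (Cfsg.golayCode : Set (Cfsg.GolayPt → ZMod 2)) 8 := by
      rw [← he]
      exact ⟨_, ⟨⟨u, hu, rfl⟩, by rw [← norm_eq]; exact hu8⟩, rfl⟩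
    obtain ⟨⟨u', hu', e'⟩, -⟩ := hm
    have hk := key u u' e'.symm
    have hsum : ∑ i, w (e i) * u i = ∑ j, w j * u' j := by
      rw [← Equiv.sum_comp e (fun j => w j * u' j)]
      exact Finset.sum_congr rfl (fun i _ => by rw [hk i])
    rw [hsum]
    exact Cfsg.Agent.S0362.result w u' hw hu'
  · intro hw
    apply mem_of_orth cG hG
    intro u' hu' hu8
    have hm : support₂ u' ∈ wordsOfWeight (Cfsg.golayCode : Set (Cfsg.GolayPt → ZMod 2)) 8 :=
      ⟨⟨u', hu', rfl⟩, by rw [← norm_eq]; exact hu8⟩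
    rw [← he] at hm
    obtain ⟨o, ⟨⟨u, hu, rfl⟩, -⟩, eo⟩ := hm
    have hk := key u u' eo
    have hsum : ∑ j, w j * u' j = ∑ i, w (e i) * u i := by
      rw [← Equiv.sum_comp e (fun j => w j * u' j)]
      exact Finset.sum_congr rfl (fun i _ => by rw [hk i])
    rw [hsum]
    exact horth _ hw u hu
end Cfsg.Agent.S0375
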