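import Cfsg.Statements.S0377
import Cfsg.Agent.Lib.Helper4.GolayM21
import Cfsg.Agent.Lib.Helper4.ConjEquiv

set_option autoImplicit false
open Cfsg

namespace Cfsg.Agent.S0377

/-- A point stabiliser in the group of the length-24 code is simple. -/
theorem result (p : Cfsg.GolayPt) : IsSimpleGroup (MulAction.stabilizer Cfsg.M24 p) := by
  obtain ⟨k, hk, hkp⟩ := Cfsg.Agent.Lib.Helper4.Golay.exists_map1 p (Cfsg.Agent.Lib.Helper4.Golay.pt 0)
  have := Cfsg.Agent.Lib.Helper4.Golay.M23_simple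
  have h : ∀ g, g ∈ Cfsg.M24 ⊓ MulAction.stabilizer (Equiv.Perm Cfsg.GolayPt) p ↔
      k * g * k⁻¹ ∈ Cfsg.Agent.Lib.Helper4.Golay.KK [0] := by
    intro g
    have hkp' : k • p = Cfsg.Agent.Lib.Helper4.Golay.pt 0 := hkp
    rw [Cfsg.Agent.Lib.Helper4.Golay.KK_cons, Cfsg.Agent.Lib.Helper4.Golay.KK_nil,
      Subgroup.mem_inf, Subgroup.mem_inf, Cfsg.Agent.Lib.Helper4.SimpleCrit.conj_mem_iff _ hk,
      ← hkp', Cfsg.Agent.Lib.Helper4.SimpleCrit.conj_mem_stabilizer]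
  exact ((Cfsg.Agent.Lib.Helper4.SimpleCrit.stabMulEquiv Cfsg.M24 p).trans
    (Cfsg.Agent.Lib.Helper4.SimpleCrit.conjEquiv _ _ k h)).isSimpleGroup

end Cfsg.Agent.S0377
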