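import Cfsg.Statements.S0379
import Cfsg.Agent.Lib.Helper4.GolayM21
import Cfsg.Agent.Lib.Helper4.ConjEquiv

set_option autoImplicit false
open Cfsg

namespace Cfsg.Agent.S0379

/-- A two-point stabiliser in the group of the length-24 code is simple. -/
theorem result (p q : Cfsg.GolayPt) (hpq : p ≠ q) : IsSimpleGroup ↥(MulAction.stabilizer Cfsg.M24 p ⊓ MulAction.stabilizer Cfsg.M24 q) := by
  obtain ⟨k, hk, hkp, hkq⟩ := Cfsg.Agent.Lib.Helper4.Golay.exists_map2 hpq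
    (Cfsg.Agent.Lib.Helper4.Golay.pt_ne_pt (i := 0) (j := 1) (by norm_num) (by norm_num)
      (by norm_num))
  have := Cfsg.Agent.Lib.Helper4.Golay.M22_simple
  have h : ∀ g, g ∈ Cfsg.M24 ⊓ MulAction.stabilizer (Equiv.Perm Cfsg.GolayPt) p ⊓
      MulAction.stabilizer (Equiv.Perm Cfsg.GolayPt) q ↔
      k * g * k⁻¹ ∈ Cfsg.Agent.Lib.Helper4.Golay.KK [1, 0] := by
    intro g
    have hkp' : k • p = Cfsg.Agent.Lib.Helper4.Golay.pt 0 := hkp
    have hkq' : k • q = Cfsg.Agent.Lib.Helper4.Golay.pt 1 := hkq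
    rw [Cfsg.Agent.Lib.Helper4.Golay.KK_cons, Cfsg.Agent.Lib.Helper4.Golay.KK_cons,
      Cfsg.Agent.Lib.Helper4.Golay.KK_nil,
      Subgroup.mem_inf, Subgroup.mem_inf, Subgroup.mem_inf, Subgroup.mem_inf,
      Cfsg.Agent.Lib.Helper4.SimpleCrit.conj_mem_iff _ hk,
      ← hkp', ← hkq', Cfsg.Agent.Lib.Helper4.SimpleCrit.conj_mem_stabilizer,
      Cfsg.Agent.Lib.Helper4.SimpleCrit.conj_mem_stabilizer]
  exact ((Cfsg.Agent.Lib.Helper4.SimpleCrit.stab2MulEquiv Cfsg.M24 p q).trans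
    (Cfsg.Agent.Lib.Helper4.SimpleCrit.conjEquiv _ _ k h)).isSimpleGroup

end Cfsg.Agent.S0379
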