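import Cfsg.Statements.S0380
import Cfsg.Agent.Lib.Helper28.PG24
import Cfsg.Agent.Lib.Helper4.GolayM21
import Cfsg.Agent.Lib.Helper4.Stv1
import Cfsg.Agent.Lib.Helper16.PSL43
import Cfsg.Agent.S0363

set_option autoImplicit false
open Cfsg

namespace Cfsg.Agent.S0380

open Cfsg.Agent.Lib.Helper28 Cfsg.Agent.Lib.Helper4 Cfsg.Agent.Lib.Helper4.Golay
open scoped Pointwise

/-- The points other than the three standard ones. -/
abbrev P21 : Type := {x : GolayPt // x ≠ pt 0 ∧ x ≠ pt 1 ∧ x ≠ pt 2}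

theorem card_P21 : Fintype.card P21 = 21 := by decide +kernel

/-- The lines: octads through the three standard points, with these points removed. -/
def L21 : Set (Finset P21) :=
  {b | ∃ o ∈ octads, pt 0 ∈ o ∧ pt 1 ∈ o ∧ pt 2 ∈ o ∧
    b = o.subtype (fun x => x ≠ pt 0 ∧ x ≠ pt 1 ∧ x ≠ pt 2)}

theorem pts_ne : pt 0 ≠ pt 1 ∧ pt 0 ≠ pt 2 ∧ pt 1 ≠ pt 2 := by decide

theorem steiner21 : IsSteinerSystem 2 5 L21 := by
  obtain ⟨n01, n02, n12⟩ := pts_ne
  refine ⟨?_, ?_⟩
  · rintro b ⟨o, ho, h0, h1, h2, rfl⟩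
    have ho8 : o.card = 8 := Cfsg.Agent.S0363.result.1 o ho
    rw [Finset.card_subtype]
    have e : o.filter (fun x => x ≠ pt 0 ∧ x ≠ pt 1 ∧ x ≠ pt 2) = o \ {pt 0, pt 1, pt 2} := by
      ext x
      simp only [Finset.mem_filter, Finset.mem_sdiff, Finset.mem_insert, Finset.mem_singleton,
        not_or]
    have hsub : ({pt 0, pt 1, pt 2} : Finset GolayPt) ⊆ o := by
      intro x hx
      simp only [Finset.mem_insert, Finset.mem_singleton] at hx
      rcases hx with rfl | rfl | rfl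
      · exact h0
      · exact h1
      · exact h2
    have h3 : ({pt 0, pt 1, pt 2} : Finset GolayPt).card = 3 := by
      rw [Finset.card_insert_of_notMem, Finset.card_insert_of_notMem, Finset.card_singleton]
      · simpa using n12
      · simp only [Finset.mem_insert, Finset.mem_singleton, not_or]
        exact ⟨n01, n02⟩
    rw [e, Finset.card_sdiff_of_subset hsub, ho8, h3]
  · intro s hs
    obtain ⟨x, y, hxy, rfl⟩ := Finset.card_eq_two.1 hs
    have hxy' : x.1 ≠ y.1 := fun h => hxy (Subtype.ext h)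
    have hT : ({pt 0, pt 1, pt 2, x.1, y.1} : Finset GolayPt).card = 5 := by
      rw [Finset.card_insert_of_notMem, Finset.card_insert_of_notMem,
        Finset.card_insert_of_notMem, Finset.card_insert_of_notMem, Finset.card_singleton]
      · simpa using hxy'
      · simp only [Finset.mem_insert, Finset.mem_singleton, not_or]
        exact ⟨fun h => x.2.2.2 h.symm, fun h => y.2.2.2 h.symm⟩
      · simp only [Finset.mem_insert, Finset.mem_singleton, not_or]
        exact ⟨n12, fun h => x.2.2.1 h.symm, fun h => y.2.2.1 h.symm⟩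
      · simp only [Finset.mem_insert, Finset.mem_singleton, not_or]
        exact ⟨n01, n02, fun h => x.2.1 h.symm, fun h => y.2.1 h.symm⟩
    obtain ⟨o, ⟨ho, hTo⟩, huniq⟩ := Cfsg.Agent.S0363.result.2 _ hT
    have m0 : pt 0 ∈ o := hTo (by simp)
    have m1 : pt 1 ∈ o := hTo (by simp)
    have m2 : pt 2 ∈ o := hTo (by simp)
    have mx : x.1 ∈ o := hTo (by simp)
    have my : y.1 ∈ o := hTo (by simp)
    refine ⟨o.subtype (fun x => x ≠ pt 0 ∧ x ≠ pt 1 ∧ x ≠ pt 2),
      ⟨⟨o, ho, m0, m1, m2, rfl⟩, ?_⟩, ?_⟩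
    · intro z hz
      rw [Finset.mem_insert, Finset.mem_singleton] at hz
      rw [Finset.mem_subtype]
      rcases hz with rfl | rfl
      · exact mx
      · exact my
    · rintro b ⟨⟨o', ho', h0, h1, h2, rfl⟩, hsub⟩
      have hx' : x.1 ∈ o' := Finset.mem_subtype.1 (hsub (Finset.mem_insert_self _ _))
      have hy' : y.1 ∈ o' := Finset.mem_subtype.1
        (hsub (Finset.mem_insert_of_mem (Finset.mem_singleton_self _)))
      have e : o' = o := by
        apply huniq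
        refine ⟨ho', ?_⟩
        intro z hz
        simp only [Finset.mem_insert, Finset.mem_singleton] at hz
        rcases hz with rfl | rfl | rfl | rfl | rfl
        · exact h0
        · exact h1
        · exact h2
        · exact hx'
        · exact hy'
      rw [e]

theorem kk_fix (m : ↥(KK [2, 1, 0])) :
    (m : Equiv.Perm GolayPt) (pt 0) = pt 0 ∧ (m : Equiv.Perm GolayPt) (pt 1) = pt 1 ∧
      (m : Equiv.Perm GolayPt) (pt 2) = pt 2 := by
  have h := (mem_KK.1 m.2).2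
  exact ⟨h 0 (by simp), h 1 (by simp), h 2 (by simp)⟩

theorem kk_pred (m : ↥(KK [2, 1, 0])) (x : GolayPt) :
    ((m : Equiv.Perm GolayPt) x ≠ pt 0 ∧ (m : Equiv.Perm GolayPt) x ≠ pt 1 ∧
      (m : Equiv.Perm GolayPt) x ≠ pt 2) ↔ (x ≠ pt 0 ∧ x ≠ pt 1 ∧ x ≠ pt 2) := by
  obtain ⟨f0, f1, f2⟩ := kk_fix m
  have e : ∀ (i : ℕ), (m : Equiv.Perm GolayPt) (pt i) = pt i →
      ((m : Equiv.Perm GolayPt) x = pt i ↔ x = pt i) := by
    intro i hi
    constructor
    · intro h
      apply (m : Equiv.Perm GolayPt).injective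
      rw [h, hi]
    · intro h
      rw [h, hi]
  rw [Ne, Ne, Ne, e 0 f0, e 1 f1, e 2 f2]

/-- The action of the three-point stabiliser on the remaining points. -/
def phi21 : ↥(KK [2, 1, 0]) →* Equiv.Perm P21 where
  toFun m := Equiv.Perm.subtypePerm (m : Equiv.Perm GolayPt) (kk_pred m)
  map_one' := Equiv.ext fun _ => Subtype.ext rfl
  map_mul' _ _ := Equiv.ext fun _ => Subtype.ext rfl

theorem phi21_apply (m : ↥(KK [2, 1, 0])) (x : P21) :
    ((phi21 m x : P21) : GolayPt) = (m : Equiv.Perm GolayPt) x.1 := rfl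

theorem phi21_line (m : ↥(KK [2, 1, 0])) (b : Finset P21) (hb : b ∈ L21) :
    phi21 m • b ∈ L21 := by
  obtain ⟨o, ho, h0, h1, h2, rfl⟩ := hb
  obtain ⟨f0, f1, f2⟩ := kk_fix m
  have hm : (m : Equiv.Perm GolayPt) ∈ M24 := (mem_KK.1 m.2).1
  have hfix : ∀ i : ℕ, (m : Equiv.Perm GolayPt) (pt i) = pt i → pt i ∈ o →
      pt i ∈ (m : Equiv.Perm GolayPt) • o := by
    intro i hi hio
    have h := Finset.smul_mem_smul_finset (a := (m : Equiv.Perm GolayPt)) hio
    rw [Equiv.Perm.smul_def, hi] at h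
    exact h
  refine ⟨(m : Equiv.Perm GolayPt) • o, smul_mem_weight hm ho, hfix 0 f0 h0, hfix 1 f1 h1,
    hfix 2 f2 h2, ?_⟩
  ext z
  rw [← Finset.inv_smul_mem_iff, Finset.mem_subtype, Finset.mem_subtype,
    ← Finset.inv_smul_mem_iff, ← map_inv]
  rfl

theorem phi21_mem (m : ↥(KK [2, 1, 0])) : phi21 m ∈ setSystemAut L21 := by
  apply AutPlane.mem_aut_of_forall L21 _ (phi21_line m)
  intro b hb
  have h := phi21_line m⁻¹ b hb
  rwa [map_inv] at h

theorem phi21_inj : Function.Injective phi21 := by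
  intro m1 m2 e
  obtain ⟨a0, a1, a2⟩ := kk_fix m1
  obtain ⟨b0, b1, b2⟩ := kk_fix m2
  apply Subtype.ext
  apply Equiv.ext
  intro x
  by_cases hx : x ≠ pt 0 ∧ x ≠ pt 1 ∧ x ≠ pt 2
  · have h := congrArg (fun σ : Equiv.Perm P21 => ((σ ⟨x, hx⟩ : P21) : GolayPt)) e
    exact h
  · have hx' : x = pt 0 ∨ x = pt 1 ∨ x = pt 2 := by
      by_contra hcon
      push Not at hcon
      exact hx hcon
    rcases hx' with rfl | rfl | rfl
    · rw [a0, b0]
    · rw [a1, b1]
    · rw [a2, b2]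

/-- The standard three-point stabiliser is isomorphic to the projective special linear group. -/
theorem std_iso (F : Type) [Field F] [Fintype F] (hF : Fintype.card F = 4) :
    Nonempty (↥(KK [2, 1, 0]) ≃* Matrix.ProjectiveSpecialLinearGroup (Fin 3) F) := by
  obtain ⟨β, iF, iD, L, ψ, hβ, hL, hψ⟩ := PG24.psl_plane hF
  have hs := M21_simple
  have hinj : Function.Injective (phi21.codRestrict (setSystemAut L21) phi21_mem) := by
    intro m1 m2 e
    exact phi21_inj (congrArg Subtype.val e)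
  exact AutPlane.iso_of_planes card_P21 hβ steiner21 hL card_KK3
    (Cfsg.Agent.Lib.Helper16.card_PSL3_four hF)
    (phi21.codRestrict (setSystemAut L21) phi21_mem) hinj ψ hψ

/-- A three-point stabiliser in the group of the length-24 code is isomorphic to PSL(3, F) for the field F with 4 elements. -/
theorem result (p q r : Cfsg.GolayPt) (hpq : p ≠ q) (hpr : p ≠ r) (hqr : q ≠ r) (F : Type) [Field F] [Fintype F] (hF : Fintype.card F = 4) : Nonempty (↥(MulAction.stabilizer Cfsg.M24 p ⊓ MulAction.stabilizer Cfsg.M24 q ⊓ MulAction.stabilizer Cfsg.M24 r) ≃* Matrix.ProjectiveSpecialLinearGroup (Fin 3) F) := by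
  classical
  obtain ⟨E⟩ := std_iso F hF
  have hx : [pt 0, pt 1, pt 2].Nodup := by decide
  have hy : [p, q, r].Nodup := by
    simp only [List.nodup_cons, List.mem_cons, List.not_mem_nil, or_false, not_or,
      List.nodup_nil, not_false_eq_true, and_true]
    exact ⟨⟨hpq, hpr⟩, hqr⟩
  obtain ⟨π, hπ, π0, π1, π2⟩ := Cfsg.Agent.Lib.Helper4.Stv.map3 (pt 0) (pt 1) (pt 2) p q r hx hy
  have hinv : ∀ (i : ℕ) (s : Cfsg.GolayPt), π (pt i) = s → π⁻¹ s = pt i := by
    intro i s h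
    rw [Equiv.Perm.inv_eq_iff_eq, h]
  have hmemK : ∀ m : ↥(KK [2, 1, 0]), π * (m : Equiv.Perm Cfsg.GolayPt) * π⁻¹ ∈ Cfsg.M24 :=
    fun m => Cfsg.M24.mul_mem (Cfsg.M24.mul_mem hπ (mem_KK.1 m.2).1) (Cfsg.M24.inv_mem hπ)
  have hfixK : ∀ (m : ↥(KK [2, 1, 0])) (i : ℕ) (s : Cfsg.GolayPt), π (pt i) = s →
      (m : Equiv.Perm Cfsg.GolayPt) (pt i) = pt i →
      (π * (m : Equiv.Perm Cfsg.GolayPt) * π⁻¹) s = s := by
    intro m i s h1 h2
    rw [Equiv.Perm.mul_apply, Equiv.Perm.mul_apply, hinv i s h1, h2, h1]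
  let θ : ↥(KK [2, 1, 0]) →* ↥(MulAction.stabilizer Cfsg.M24 p ⊓ MulAction.stabilizer Cfsg.M24 q ⊓
      MulAction.stabilizer Cfsg.M24 r) :=
    { toFun := fun m => ⟨⟨π * (m : Equiv.Perm Cfsg.GolayPt) * π⁻¹, hmemK m⟩,
        Subgroup.mem_inf.2 ⟨Subgroup.mem_inf.2
          ⟨hfixK m 0 p π0 (kk_fix m).1, hfixK m 1 q π1 (kk_fix m).2.1⟩,
          hfixK m 2 r π2 (kk_fix m).2.2⟩⟩
      map_one' := by
        apply Subtype.ext
        apply Subtype.ext
        show π * ((1 : ↥(KK [2, 1, 0])) : Equiv.Perm Cfsg.GolayPt) * π⁻¹ = 1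
        rw [Subgroup.coe_one]
        group
      map_mul' := by
        intro m1 m2
        apply Subtype.ext
        apply Subtype.ext
        show π * ((m1 * m2 : ↥(KK [2, 1, 0])) : Equiv.Perm Cfsg.GolayPt) * π⁻¹ =
          (π * (m1 : Equiv.Perm Cfsg.GolayPt) * π⁻¹) * (π * (m2 : Equiv.Perm Cfsg.GolayPt) * π⁻¹)
        rw [Subgroup.coe_mul]
        group }
  have hθi : Function.Injective θ := by
    intro m1 m2 e
    have e1 : π * (m1 : Equiv.Perm Cfsg.GolayPt) * π⁻¹ =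
        π * (m2 : Equiv.Perm Cfsg.GolayPt) * π⁻¹ :=
      congrArg (fun t : ↥(MulAction.stabilizer Cfsg.M24 p ⊓ MulAction.stabilizer Cfsg.M24 q ⊓
        MulAction.stabilizer Cfsg.M24 r) => ((t : ↥Cfsg.M24) : Equiv.Perm Cfsg.GolayPt)) e
    exact Subtype.ext (mul_left_cancel (mul_right_cancel e1))
  have hθs : Function.Surjective θ := by
    intro h
    have hh := Subgroup.mem_inf.1 h.2
    have hh' := Subgroup.mem_inf.1 hh.1
    have fp : ((h : ↥Cfsg.M24) : Equiv.Perm Cfsg.GolayPt) p = p := hh'.1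
    have fq : ((h : ↥Cfsg.M24) : Equiv.Perm Cfsg.GolayPt) q = q := hh'.2
    have fr : ((h : ↥Cfsg.M24) : Equiv.Perm Cfsg.GolayPt) r = r := hh.2
    have hm : π⁻¹ * ((h : ↥Cfsg.M24) : Equiv.Perm Cfsg.GolayPt) * π ∈ KK [2, 1, 0] := by
      rw [mem_KK]
      refine ⟨Cfsg.M24.mul_mem (Cfsg.M24.mul_mem (Cfsg.M24.inv_mem hπ) (h : ↥Cfsg.M24).2) hπ, ?_⟩
      intro f hf
      simp only [List.mem_cons, List.not_mem_nil, or_false] at hf
      rcases hf with rfl | rfl | rfl
      · rw [Equiv.Perm.mul_apply, Equiv.Perm.mul_apply, π2, fr, hinv 2 r π2]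
      · rw [Equiv.Perm.mul_apply, Equiv.Perm.mul_apply, π1, fq, hinv 1 q π1]
      · rw [Equiv.Perm.mul_apply, Equiv.Perm.mul_apply, π0, fp, hinv 0 p π0]
    refine ⟨⟨_, hm⟩, ?_⟩
    apply Subtype.ext
    apply Subtype.ext
    show π * (π⁻¹ * ((h : ↥Cfsg.M24) : Equiv.Perm Cfsg.GolayPt) * π) * π⁻¹ =
      ((h : ↥Cfsg.M24) : Equiv.Perm Cfsg.GolayPt)
    group
  exact ⟨(MulEquiv.ofBijective θ ⟨hθi, hθs⟩).symm.trans E⟩
end Cfsg.Agent.S0380
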