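import Cfsg.Statements.S0384
import Cfsg.Agent.Lib.Helper4.GolayDod2

set_option autoImplicit false
open scoped Pointwise
open Cfsg

namespace Cfsg.Agent.S0384

/-- A dodecad stabiliser is sharply 5-transitive on the dodecad. -/
theorem result (d : Finset Cfsg.GolayPt) (hd : d ∈ Cfsg.dodecads) (x y : Fin 5 ↪ Cfsg.GolayPt) (hx : ∀ i, x i ∈ d) (hy : ∀ i, y i ∈ d) : ∃! g : MulAction.stabilizer Cfsg.M24 d, ∀ i, ((g : Cfsg.M24) : Equiv.Perm Cfsg.GolayPt) (x i) = y i := by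
  obtain ⟨g, hg, hgd, hxy⟩ := Cfsg.Agent.Lib.Helper4.Golay.dod_map hd x y hx hy
  refine ⟨⟨⟨g, hg⟩, hgd⟩, hxy, ?_⟩
  intro g' hg'
  have h1 : ((g'.1.1)⁻¹ * g) = 1 := by
    apply Cfsg.Agent.Lib.Helper4.Golay.dodC x hd hx
      (Subgroup.mul_mem _ (Subgroup.inv_mem _ g'.1.2) hg)
    · intro i
      rw [Equiv.Perm.mul_apply, hxy i, ← hg' i]
      simp
    · have h2 : g'.1.1 • d = d := g'.2
      rw [mul_smul, hgd, inv_smul_eq_iff]
      exact h2.symm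
  apply Subtype.ext
  apply Subtype.ext
  exact inv_mul_eq_one.1 h1

end Cfsg.Agent.S0384
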