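import Cfsg.Statements.S0385
import Cfsg.Agent.Lib.Helper4.Golay2
import Cfsg.Agent.S0363

set_option autoImplicit false
open Cfsg

namespace Cfsg.Agent.S0385

/-- The 6-point intersections of octads with a fixed dodecad form a Steiner system S(5, 6, 12) on the dodecad. -/
theorem result (d : Finset Cfsg.GolayPt) (hd : d ∈ Cfsg.dodecads) : Cfsg.IsSteinerSystem 5 6 {h : Finset {p : Cfsg.GolayPt // p ∈ d} | ∃ o ∈ Cfsg.octads, (o ∩ d).card = 6 ∧ h = Finset.subtype (fun p => p ∈ d) o} := by
  classical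
  have hB := Cfsg.Agent.S0363.result
  constructor
  · rintro h ⟨o, ho, h6, rfl⟩
    rw [Finset.card_subtype, ← h6, Finset.filter_mem_eq_inter]
  · intro s hs
    have hT : (s.map (Function.Embedding.subtype _)).card = 5 := by rw [Finset.card_map, hs]
    have hTd : s.map (Function.Embedding.subtype _) ⊆ d := by
      intro p hp
      rw [Finset.mem_map] at hp
      obtain ⟨x, _, rfl⟩ := hp
      exact x.2
    obtain ⟨o, ⟨ho, hTo⟩, huniq⟩ := hB.2 _ hT
    have h6 : (o ∩ d).card = 6 := by
      have h5 : 5 ≤ (o ∩ d).card := by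
        rw [← hT]
        exact Finset.card_le_card (Finset.subset_inter hTo hTd)
      rcases Cfsg.Agent.Lib.Helper4.Golay.octad_dodecad ho hd with h | h | h <;> omega
    refine ⟨Finset.subtype (fun p => p ∈ d) o, ⟨⟨o, ho, h6, rfl⟩, ?_⟩, ?_⟩
    · intro x hx
      rw [Finset.mem_subtype]
      exact hTo (Finset.mem_map.2 ⟨x, hx, rfl⟩)
    · rintro h' ⟨⟨o', ho', h6', rfl⟩, hs'⟩
      have : o' = o := huniq o' ⟨ho', by
        intro p hp
        rw [Finset.mem_map] at hp
        obtain ⟨x, hx, rfl⟩ := hp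
        have := hs' hx
        rwa [Finset.mem_subtype] at this⟩
      rw [this]

end Cfsg.Agent.S0385
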