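import Cfsg.Statements.S0386
import Cfsg.Agent.Lib.Helper4.Golay2
import Cfsg.Agent.Lib.Helper4.Steiner
import Cfsg.Agent.S0363

set_option autoImplicit false
open Cfsg

namespace Cfsg.Agent.S0386

/-- For a fixed dodecad, 132 octads meet it in 6 points, 132 in 2 points and 495 in 4 points. -/
theorem result (d : Finset Cfsg.GolayPt) (hd : d ∈ Cfsg.dodecads) : {o : Finset Cfsg.GolayPt | o ∈ Cfsg.octads ∧ (o ∩ d).card = 6}.ncard = 132 ∧ {o : Finset Cfsg.GolayPt | o ∈ Cfsg.octads ∧ (o ∩ d).card = 2}.ncard = 132 ∧ {o : Finset Cfsg.GolayPt | o ∈ Cfsg.octads ∧ (o ∩ d).card = 4}.ncard = 495 := by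
  classical
  have hB := Cfsg.Agent.S0363.result
  have hα := Cfsg.Agent.Lib.Helper4.Golay.card_pts
  have hdc : d.card = 12 := hd.2
  have hdeg := fun T => Cfsg.Agent.Lib.Helper4.Steiner.s5824_deg hα hB T
  have z : ∀ j, j ≠ 2 → j ≠ 4 → j ≠ 6 →
      Cfsg.Agent.Lib.Helper4.Steiner.cnt Cfsg.octads ∅ d j = 0 := by
    intro j h2 h4 h6
    apply Cfsg.Agent.Lib.Helper4.Steiner.cnt_eq_zero
    intro o ho _ hj
    have := Cfsg.Agent.Lib.Helper4.Golay.octad_dodecad ho hd
    omega
  have e0 := Cfsg.Agent.Lib.Helper4.Steiner.sum_choose_cnt Cfsg.octads ∅ d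
    (Finset.disjoint_empty_left _) 0 759 13 (fun T hT => (hdeg T).1 (by simpa using hT)) (by omega)
  have e1 := Cfsg.Agent.Lib.Helper4.Steiner.sum_choose_cnt Cfsg.octads ∅ d
    (Finset.disjoint_empty_left _) 1 253 13 (fun T hT => (hdeg T).2.1 (by simpa using hT))
    (by omega)
  have e2 := Cfsg.Agent.Lib.Helper4.Steiner.sum_choose_cnt Cfsg.octads ∅ d
    (Finset.disjoint_empty_left _) 2 77 13 (fun T hT => (hdeg T).2.2.1 (by simpa using hT))
    (by omega)
  have z0 := z 0 (by norm_num) (by norm_num) (by norm_num)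
  have z1 := z 1 (by norm_num) (by norm_num) (by norm_num)
  have z3 := z 3 (by norm_num) (by norm_num) (by norm_num)
  have z5 := z 5 (by norm_num) (by norm_num) (by norm_num)
  have z7 := z 7 (by norm_num) (by norm_num) (by norm_num)
  have z8 := z 8 (by norm_num) (by norm_num) (by norm_num)
  have z9 := z 9 (by norm_num) (by norm_num) (by norm_num)
  have z10 := z 10 (by norm_num) (by norm_num) (by norm_num)
  have z11 := z 11 (by norm_num) (by norm_num) (by norm_num)
  have z12 := z 12 (by norm_num) (by norm_num) (by norm_num)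
  simp only [Finset.sum_range_succ, Finset.sum_range_zero, hdc, z0, z1, z3, z5, z7, z8, z9, z10,
    z11, z12] at e0 e1 e2
  norm_num [Nat.choose] at e0 e1 e2
  have c : ∀ j, {o : Finset Cfsg.GolayPt | o ∈ Cfsg.octads ∧ (o ∩ d).card = j}.ncard
      = Cfsg.Agent.Lib.Helper4.Steiner.cnt Cfsg.octads ∅ d j := by
    intro j
    rw [Cfsg.Agent.Lib.Helper4.Steiner.ncard_setOf, Cfsg.Agent.Lib.Helper4.Steiner.cnt]
    congr 1
    ext o
    simp
  rw [c, c, c]
  omega

end Cfsg.Agent.S0386
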