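import Cfsg.Statements.S0392
import Cfsg.Agent.Lib.Helper4.Leech

set_option autoImplicit false
open Cfsg

namespace Cfsg.Agent.S0392

/-- Sum of squares of every lattice vector is divisible by 16 (even lattice at scale 1/8). -/
theorem result (x : Cfsg.GolayPt → ℤ) (hx : x ∈ Cfsg.leechLattice) : (16 : ℤ) ∣ Cfsg.sqNorm x := by
  obtain ⟨m, y, hxy, hc, hsum⟩ := Cfsg.Agent.Lib.Helper28.leech_struct x hx
  have h24 : (Finset.univ : Finset Cfsg.GolayPt).card = 24 := by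
    rw [Finset.card_univ]
    exact Cfsg.Agent.Lib.Helper4.Golay.card_pts
  have h1 : Cfsg.sqNorm x = 24 * m ^ 2 + 4 * m * (∑ i, y i) + 4 * ∑ i, (y i) ^ 2 := by
    have e : ∀ i, x i ^ 2 = m ^ 2 + 4 * m * y i + 4 * (y i) ^ 2 := fun i => by
      rw [hxy i]
      ring
    show ∑ i, x i ^ 2 = _
    rw [Finset.sum_congr rfl (fun i _ => e i), Finset.sum_add_distrib, Finset.sum_add_distrib,
      ← Finset.mul_sum, ← Finset.mul_sum, Finset.sum_const, h24]
    simp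
  have h2 : ∑ i, x i = 24 * m + 2 * ∑ i, y i := by
    rw [Finset.sum_congr rfl (fun i _ => hxy i), Finset.sum_add_distrib, ← Finset.mul_sum,
      Finset.sum_const, h24]
    simp
  have h3 : ∃ t, ∑ i, y i = 2 * m + 4 * t := by
    rw [h2] at hsum
    obtain ⟨k, hk⟩ := hsum.dvd
    exact ⟨-3 * m - k, by linarith⟩
  have key : ∀ a : ℤ, ∃ q, a ^ 2 = (if ¬ (2 : ℤ) ∣ a then 1 else 0) + 4 * q := by
    intro a
    rcases Int.even_or_odd a with ⟨k, rfl⟩ | ⟨k, rfl⟩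
    · refine ⟨k ^ 2, ?_⟩
      rw [if_neg (by omega)]
      ring
    · refine ⟨k ^ 2 + k, ?_⟩
      rw [if_pos (by omega)]
      ring
  choose q hq using key
  have h4 : ∑ i, (y i) ^ 2 = ((Cfsg.support₂ (Cfsg.Agent.Lib.Helper28.zword y)).card : ℤ)
      + 4 * ∑ i, q (y i) := by
    rw [Finset.sum_congr rfl (fun i _ => hq (y i)), Finset.sum_add_distrib, ← Finset.mul_sum,
      Finset.sum_boole]
    congr 3
    ext i
    rw [Finset.mem_filter, Cfsg.Agent.Lib.Helper28.mem_support₂_zword]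
    simp
  have h5 : ∃ u : ℤ, ((Cfsg.support₂ (Cfsg.Agent.Lib.Helper28.zword y)).card : ℤ) = 4 * u := by
    rcases Cfsg.Agent.Lib.Helper28.golay_weight _ hc with h | h | h | h | h
    · exact ⟨0, by rw [h]; norm_num⟩
    · exact ⟨2, by rw [h]; norm_num⟩
    · exact ⟨3, by rw [h]; norm_num⟩
    · exact ⟨4, by rw [h]; norm_num⟩
    · exact ⟨6, by rw [h]; norm_num⟩
  obtain ⟨t, ht⟩ := h3
  obtain ⟨u, hu⟩ := h5
  rw [h1, ht, h4, hu]
  exact ⟨2 * m ^ 2 + m * t + u + ∑ i, q (y i), by ring⟩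

end Cfsg.Agent.S0392
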