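import Cfsg.Statements.S1571
import Cfsg.Agent.Lib.Helper28.Leech
import Cfsg.Agent.Lib.Helper4.LeechCross
import Cfsg.Agent.Lib.Helper4.Orb2
import Cfsg.Agent.Lib.Helper4.CoA
import Cfsg.Agent.Lib.Helper4.GolayOrder

set_option autoImplicit false
open scoped Pointwise
open Cfsg

namespace Cfsg.Agent.S1571

open Cfsg.Agent.Lib.Helper4 Cfsg.Agent.Lib.Helper28

/-- The vector with entries 2 on the support of a word and 0 elsewhere lies in the lattice when
the word is in the code. -/
theorem two_word_mem (w : GolayPt → ZMod 2) (hw : w ∈ golayCode) :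
    (fun i => if w i = 1 then (2 : ℤ) else 0) ∈ leechLattice := by
  classical
  have hz : zword (fun i => if w i = 1 then (1 : ℤ) else 0) = w := by
    funext i
    show (((if w i = 1 then (1 : ℤ) else 0) : ℤ) : ZMod 2) = w i
    rcases z2_cases (w i) with h | h <;> simp [h]
  refine Leech.mem_leech_of_struct _ 0 (fun i => if w i = 1 then (1 : ℤ) else 0) ?_ ?_ ?_
  · intro i
    split_ifs <;> norm_num
  · rw [hz]
    exact hw
  · have hs : ∑ i, (if w i = 1 then (2 : ℤ) else 0) = 2 * (hammingNorm w : ℤ) := by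
      have h1 : ∑ i, (if w i = 1 then (2 : ℤ) else 0) = 2 * ∑ i, (if w i = 1 then (1 : ℤ) else 0) := by
        rw [Finset.mul_sum]
        apply Finset.sum_congr rfl
        intro i _
        split_ifs <;> norm_num
      rw [h1, Finset.sum_boole]
      congr 2
      unfold hammingNorm
      refine congrArg Finset.card (Finset.filter_congr ?_)
      intro i _
      exact (z2_ne_zero_iff (w i)).symm
    rw [hs]
    rcases Golay.weights w hw with h | h | h | h | h <;> rw [h] <;> decide

/-- For an even lattice vector, the word of the halved coordinates modulo 2 is in the code. -/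
theorem half_word_mem (y : GolayPt → ℤ) (hy : y ∈ leechLattice) (he : ∀ k, (2 : ℤ) ∣ y k) :
    (fun k => ((y k / 2 : ℤ) : ZMod 2)) ∈ golayCode := by
  obtain ⟨m, t, hyt, ht, -⟩ := leech_struct y hy
  have hm : (2 : ℤ) ∣ m := by
    have h1 := he none
    rw [hyt none] at h1
    omega
  obtain ⟨m', hm'⟩ := hm
  have e : (fun k => ((y k / 2 : ℤ) : ZMod 2)) = zword (fun k => m' + t k) := by
    funext k
    show ((y k / 2 : ℤ) : ZMod 2) = ((m' + t k : ℤ) : ZMod 2)
    congr 1
    rw [hyt k, hm']
    omega
  rw [e, zword_const_add]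
  exact Submodule.add_mem _ (Submodule.smul_mem _ _ one_mem_golay) ht

/-- The predicate: `g` maps the standard cross into itself. -/
def StdP (g : ↥Co0) : Prop :=
  ∀ v : ↥leechLattice, (v : GolayPt → ℤ) ∈ stdCross →
    ((g • v : ↥leechLattice) : GolayPt → ℤ) ∈ stdCross

theorem co_add (g : ↥Co0) (x y : ↥leechLattice) : g • (x + y) = g • x + g • y := g.2.1 x y

theorem co_neg (g : ↥Co0) (v : ↥leechLattice) : g • (-v) = -(g • v) :=
  CoA.map_neg_of_add (fun v => g • v) (co_add g) v

theorem bv_std (i : GolayPt) : ((CoA.bv i : ↥leechLattice) : GolayPt → ℤ) ∈ stdCross := by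
  refine ⟨i, 8, Or.inl rfl, ?_⟩
  funext j
  rw [CoA.bv_apply, Pi.single_apply]

/-- Core: an automorphism stabilizing the standard cross is a signed coordinate permutation with
permutation in the code group and sign word in the code. -/
theorem core (g : ↥Co0) (hstd : StdP g) :
    ∃ σ ∈ M24, ∃ a ∈ golayCode, ∀ (v : ↥leechLattice) (k : GolayPt),
      ((g • v : ↥leechLattice) : GolayPt → ℤ) k
        = if a k = 1 then -(v : GolayPt → ℤ) (σ k) else (v : GolayPt → ℤ) (σ k) := by
  classical
  choose τ s hs hτ using fun i => hstd (CoA.bv i) (bv_std i)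
  have hform : ∀ (w : ↥leechLattice) (k : GolayPt),
      8 * ((g • w : ↥leechLattice) : GolayPt → ℤ) k
        = ∑ i, (w : GolayPt → ℤ) i * (if k = τ i then s i else 0) := by
    intro w k
    obtain ⟨gH, hgH⟩ : ∃ gH : ↥leechLattice →+ ↥leechLattice, ∀ v, gH v = g • v :=
      ⟨AddMonoidHom.mk' (fun v => g • v) (co_add g), fun _ => rfl⟩
    have h1 : gH ((8 : ℤ) • w) = gH (∑ i, ((w : GolayPt → ℤ) i) • CoA.bv i) :=
      congrArg gH (CoA.decomp w)
    rw [map_zsmul, map_sum] at h1
    have h2 : leechLattice.subtype ((8 : ℤ) • gH w)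
        = leechLattice.subtype (∑ i, gH (((w : GolayPt → ℤ) i) • CoA.bv i)) := congrArg _ h1
    rw [map_zsmul, map_sum] at h2
    have h3 := congrFun h2 k
    simp only [map_zsmul, AddSubgroup.subtype_apply, Pi.smul_apply, Finset.sum_apply,
      smul_eq_mul] at h3
    rw [hgH] at h3
    rw [h3]
    apply Finset.sum_congr rfl
    intro i _
    rw [hgH, hτ i, Pi.single_apply]
  have hτinj : Function.Injective τ := by
    intro i j hij
    have key : g • CoA.bv i = g • CoA.bv j ∨ g • CoA.bv i = g • (-CoA.bv j) := by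
      rcases hs i with h1 | h1 <;> rcases hs j with h2 | h2
      · left
        apply Subtype.ext
        rw [hτ i, hτ j, hij, h1, h2]
      · right
        apply Subtype.ext
        rw [co_neg, AddSubgroup.coe_neg, hτ i, hτ j, hij, h1, h2, ← Pi.single_neg]
        norm_num
      · right
        apply Subtype.ext
        rw [co_neg, AddSubgroup.coe_neg, hτ i, hτ j, hij, h1, h2, ← Pi.single_neg]
      · left
        apply Subtype.ext
        rw [hτ i, hτ j, hij, h1, h2]
    rcases key with h | h
    · have h' : ((CoA.bv i : ↥leechLattice) : GolayPt → ℤ) i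
          = ((CoA.bv j : ↥leechLattice) : GolayPt → ℤ) i := by
        rw [smul_left_cancel g h]
      rw [CoA.bv_apply, CoA.bv_apply, if_pos rfl] at h'
      by_contra hne
      rw [if_neg hne] at h'
      norm_num at h'
    · have h' : ((CoA.bv i : ↥leechLattice) : GolayPt → ℤ) i
          = ((-CoA.bv j : ↥leechLattice) : GolayPt → ℤ) i := by
        rw [smul_left_cancel g h]
      rw [AddSubgroup.coe_neg, Pi.neg_apply, CoA.bv_apply, CoA.bv_apply, if_pos rfl] at h'
      exfalso
      split_ifs at h' <;> norm_num at h'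
  obtain ⟨σ, hσ⟩ : ∃ σ : Equiv.Perm GolayPt, ∀ i, σ i = τ i :=
    ⟨Equiv.ofBijective τ ⟨hτinj, Finite.injective_iff_surjective.mp hτinj⟩, fun _ => rfl⟩
  have hpt : ∀ (w : ↥leechLattice) (k : GolayPt), ((g • w : ↥leechLattice) : GolayPt → ℤ) k
      = if s (σ.symm k) = -8 then -(w : GolayPt → ℤ) (σ.symm k) else (w : GolayPt → ℤ) (σ.symm k) := by
    intro w k
    have h1 := hform w k
    rw [Finset.sum_eq_single (σ.symm k)] at h1
    · have hk : k = τ (σ.symm k) := by rw [← hσ, Equiv.apply_symm_apply]
      rw [if_pos hk] at h1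
      rcases hs (σ.symm k) with h2 | h2
      · rw [h2] at h1
        rw [if_neg (by rw [h2]; norm_num)]
        omega
      · rw [h2] at h1
        rw [if_pos h2]
        omega
    · intro i _ hi
      rw [if_neg, mul_zero]
      intro hk
      apply hi
      rw [hk, ← hσ, Equiv.symm_apply_apply]
    · intro h
      exact absurd (Finset.mem_univ _) h
  -- the permutation lies in the code group
  have hσM : σ.symm ∈ M24 := by
    apply Golay.mem_M24_of_forall
    intro w hw
    have hx := two_word_mem w hw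
    have hy := (g • (⟨_, hx⟩ : ↥leechLattice)).2
    have hval : ∀ k, ((g • (⟨_, hx⟩ : ↥leechLattice) : ↥leechLattice) : GolayPt → ℤ) k
        = if s (σ.symm k) = -8 then -(if w (σ.symm k) = 1 then (2 : ℤ) else 0)
          else (if w (σ.symm k) = 1 then (2 : ℤ) else 0) := fun k => hpt _ k
    have he : ∀ k, (2 : ℤ) ∣ ((g • (⟨_, hx⟩ : ↥leechLattice) : ↥leechLattice) : GolayPt → ℤ) k := by
      intro k
      rw [hval k]
      split_ifs <;> norm_num
    have hh := half_word_mem _ hy he
    have e : (fun k => ((((g • (⟨_, hx⟩ : ↥leechLattice) : ↥leechLattice) : GolayPt → ℤ) k / 2 : ℤ)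
        : ZMod 2)) = w ∘ σ.symm := by
      funext k
      rw [hval k, Function.comp_apply]
      rcases z2_cases (w (σ.symm k)) with h | h
      · have h1 : ¬ w (σ.symm k) = 1 := by
          rw [h]
          decide
        rw [if_neg h1, h]
        split_ifs <;> simp
      · rw [if_pos h, h]
        split_ifs
        · show (((-2 : ℤ) / 2 : ℤ) : ZMod 2) = 1
          decide
        · show (((2 : ℤ) / 2 : ℤ) : ZMod 2) = 1
          decide
    rw [e] at hh
    exact hh
  -- the sign word lies in the code
  obtain ⟨a, hadef⟩ : ∃ a : GolayPt → ZMod 2, a = fun k => if s (σ.symm k) = -8 then 1 else 0 :=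
    ⟨_, rfl⟩
  have ha1 : ∀ k, a k = 1 ↔ s (σ.symm k) = -8 := by
    intro k
    rw [hadef]
    show (if s (σ.symm k) = -8 then (1 : ZMod 2) else 0) = 1 ↔ s (σ.symm k) = -8
    by_cases h : s (σ.symm k) = -8
    · rw [if_pos h]
      exact ⟨fun _ => h, fun _ => rfl⟩
    · rw [if_neg h]
      exact ⟨fun h0 => absurd h0 (by decide), fun h0 => absurd h0 h⟩
  have haC : a ∈ golayCode := by
    have hy := (g • Orb.cStar).2
    obtain ⟨m, t, hyt, ht, -⟩ := leech_struct _ hy
    have hval : ∀ k, ((g • Orb.cStar : ↥leechLattice) : GolayPt → ℤ) k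
        = if s (σ.symm k) = -8 then -(LeechGen.v0 (σ.symm k)) else LeechGen.v0 (σ.symm k) :=
      fun k => hpt _ k
    have hv0 : ∀ p : GolayPt, LeechGen.v0 p % 4 = 1 := by
      intro p
      unfold LeechGen.v0
      split_ifs <;> norm_num
    have hmod : ∀ k, (m + 2 * t k) % 4 = if s (σ.symm k) = -8 then 3 else 1 := by
      intro k
      rw [← hyt k, hval k]
      have := hv0 (σ.symm k)
      split_ifs <;> omega
    have hm2 : m % 2 = 1 := by
      have := hmod none
      split_ifs at this <;> omega
    by_cases hm4 : m % 4 = 1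
    · have e : a = zword t := by
        funext k
        have := hmod k
        rcases z2_cases (a k) with h | h
        · rw [h]
          symm
          rw [Leech.zword_eq_zero]
          have h' : ¬ s (σ.symm k) = -8 := by
            rw [← ha1, h]
            decide
          rw [if_neg h'] at this
          omega
        · rw [h]
          symm
          rw [Leech.zword_eq_one]
          rw [if_pos ((ha1 k).mp h)] at this
          omega
      rw [e]
      exact ht
    · have e : a = zword t + 1 := by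
        funext k
        have := hmod k
        rw [Pi.add_apply, Pi.one_apply]
        rcases z2_cases (a k) with h | h
        · rw [h]
          have h' : ¬ s (σ.symm k) = -8 := by
            rw [← ha1, h]
            decide
          rw [if_neg h'] at this
          have hz : zword t k = 1 := by
            rw [Leech.zword_eq_one]
            omega
          rw [hz]
          decide
        · rw [h]
          rw [if_pos ((ha1 k).mp h)] at this
          have hz : zword t k = 0 := by
            rw [Leech.zword_eq_zero]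
            omega
          rw [hz]
          decide
      rw [e]
      exact Submodule.add_mem _ ht one_mem_golay
  refine ⟨σ.symm, hσM, a, haC, ?_⟩
  intro v k
  rw [hpt v k]
  by_cases h : s (σ.symm k) = -8
  · rw [if_pos h, if_pos ((ha1 k).mpr h)]
  · rw [if_neg h, if_neg (fun h' => h ((ha1 k).mp h'))]

/-- The signed coordinate permutation attached to an element of the code group and a code word. -/
def mk (σ : ↥M24) (a : ↥golayCode) : ↥Co0 :=
  ⟨CoA.sgnP (a : GolayPt → ZMod 2) a.2, CoA.sgnP_mem _ a.2⟩ *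
    ⟨CoA.prmP (σ : Equiv.Perm GolayPt) σ.2, CoA.prmP_mem _ σ.2⟩

theorem mk_apply (σ : ↥M24) (a : ↥golayCode) (v : ↥leechLattice) (k : GolayPt) :
    ((mk σ a • v : ↥leechLattice) : GolayPt → ℤ) k
      = if (a : GolayPt → ZMod 2) k = 1 then -(v : GolayPt → ℤ) ((σ : Equiv.Perm GolayPt) k)
        else (v : GolayPt → ℤ) ((σ : Equiv.Perm GolayPt) k) := rfl

theorem mk_std (σ : ↥M24) (a : ↥golayCode) : StdP (mk σ a) := by
  classical
  rintro v ⟨i, s0, hs0, hv⟩
  refine ⟨(σ : Equiv.Perm GolayPt).symm i,
    if (a : GolayPt → ZMod 2) ((σ : Equiv.Perm GolayPt).symm i) = 1 then -s0 else s0, ?_, ?_⟩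
  · split_ifs
    · rcases hs0 with h | h
      · right
        rw [h]
      · left
        rw [h]
        norm_num
    · exact hs0
  · funext k
    rw [mk_apply, hv, Pi.single_apply, Pi.single_apply]
    by_cases hk : k = (σ : Equiv.Perm GolayPt).symm i
    · have hk' : (σ : Equiv.Perm GolayPt) k = i := by
        rw [hk, Equiv.apply_symm_apply]
      rw [if_pos hk', if_pos hk, hk]
    · have hk' : ¬ (σ : Equiv.Perm GolayPt) k = i := by
        intro h
        apply hk
        rw [← h, Equiv.symm_apply_apply]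
      rw [if_neg hk', if_neg hk]
      split_ifs <;> norm_num

theorem mk_inj (σ σ' : ↥M24) (a a' : ↥golayCode) (h : mk σ a = mk σ' a') : σ = σ' ∧ a = a' := by
  have hk : ∀ (v : ↥leechLattice) (k : GolayPt),
      (if (a : GolayPt → ZMod 2) k = 1 then -(v : GolayPt → ℤ) ((σ : Equiv.Perm GolayPt) k)
        else (v : GolayPt → ℤ) ((σ : Equiv.Perm GolayPt) k))
      = (if (a' : GolayPt → ZMod 2) k = 1 then -(v : GolayPt → ℤ) ((σ' : Equiv.Perm GolayPt) k)
        else (v : GolayPt → ℤ) ((σ' : Equiv.Perm GolayPt) k)) := by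
    intro v k
    rw [← mk_apply, ← mk_apply, h]
  have hσ : ∀ k, (σ' : Equiv.Perm GolayPt) k = (σ : Equiv.Perm GolayPt) k := by
    intro k
    have h1 := hk (CoA.bv ((σ : Equiv.Perm GolayPt) k)) k
    rw [CoA.bv_apply, CoA.bv_apply, if_pos rfl] at h1
    by_contra hne
    rw [if_neg hne] at h1
    split_ifs at h1 <;> norm_num at h1
  constructor
  · apply Subtype.ext
    apply Equiv.ext
    intro k
    exact (hσ k).symm
  · apply Subtype.ext
    funext k
    have h1 := hk (CoA.bv ((σ : Equiv.Perm GolayPt) k)) k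
    rw [hσ k, CoA.bv_apply, if_pos rfl] at h1
    rcases z2_cases ((a : GolayPt → ZMod 2) k) with h2 | h2 <;>
      rcases z2_cases ((a' : GolayPt → ZMod 2) k) with h3 | h3
    · rw [h2, h3]
    · exfalso
      rw [if_neg (by rw [h2]; decide), if_pos h3] at h1
      norm_num at h1
    · exfalso
      rw [if_pos h2, if_neg (by rw [h3]; decide)] at h1
      norm_num at h1
    · rw [h2, h3]

theorem mk_surj (g : ↥Co0) (hg : StdP g) : ∃ (σ : ↥M24) (a : ↥golayCode), mk σ a = g := by
  obtain ⟨σ, hσ, a, ha, hform⟩ := core g hg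
  refine ⟨⟨σ, hσ⟩, ⟨a, ha⟩, ?_⟩
  apply Subtype.ext
  apply Equiv.ext
  intro v
  apply Subtype.ext
  funext k
  show ((mk ⟨σ, hσ⟩ ⟨a, ha⟩ • v : ↥leechLattice) : GolayPt → ℤ) k
    = ((g • v : ↥leechLattice) : GolayPt → ℤ) k
  rw [mk_apply, hform]

theorem card_std : Nat.card {g : ↥Co0 // StdP g} = 4096 * 244823040 := by
  have e : (↥M24 × ↥golayCode) ≃ {g : ↥Co0 // StdP g} :=
    Equiv.ofBijective (fun p => ⟨mk p.1 p.2, mk_std p.1 p.2⟩) (by
      constructor
      · rintro ⟨σ, a⟩ ⟨σ', a'⟩ h
        have h' : mk σ a = mk σ' a' := congrArg Subtype.val h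
        obtain ⟨h1, h2⟩ := mk_inj σ σ' a a' h'
        rw [h1, h2]
      · rintro ⟨g, hg⟩
        obtain ⟨σ, a, h⟩ := mk_surj g hg
        exact ⟨(σ, a), Subtype.ext h⟩)
  rw [← Nat.card_congr e, Nat.card_prod, Golay.card_M24, Golay.card_code]

/-- The stabiliser of the standard cross in the automorphism group of the lattice is the monomial group of the code: each of its elements acts as a signed permutation with permutation part in the code's group and sign set a codeword, and it has order 4096 · 244823040. -/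
theorem result : (∀ g : ↥Cfsg.Co0, (∀ v : ↥Cfsg.leechLattice, (v : Cfsg.GolayPt → ℤ) ∈ Cfsg.stdCross → ((g • v : ↥Cfsg.leechLattice) : Cfsg.GolayPt → ℤ) ∈ Cfsg.stdCross) → ∃ f ∈ Cfsg.golayMonomialMaps, ∀ v : ↥Cfsg.leechLattice, ((g • v : ↥Cfsg.leechLattice) : Cfsg.GolayPt → ℤ) = f (v : Cfsg.GolayPt → ℤ)) ∧ Nat.card {g : ↥Cfsg.Co0 // (∀ v : ↥Cfsg.leechLattice, (v : Cfsg.GolayPt → ℤ) ∈ Cfsg.stdCross → ((g • v : ↥Cfsg.leechLattice) : Cfsg.GolayPt → ℤ) ∈ Cfsg.stdCross)} = 4096 * 244823040 := by
  constructor
  · intro g hg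
    obtain ⟨σ, hσ, a, ha, hform⟩ := core g hg
    refine ⟨signedPerm σ⁻¹ (support₂ a),
      ⟨σ⁻¹, Subgroup.inv_mem _ hσ, support₂ a, ⟨a, ha, rfl⟩, rfl⟩, ?_⟩
    intro v
    funext k
    rw [hform v k]
    unfold signedPerm
    have e : (σ⁻¹ : Equiv.Perm GolayPt).symm k = σ k := rfl
    rw [e]
    by_cases h : a k = 1
    · have hk : k ∈ support₂ a := by
        rw [Cfsg.Agent.Lib.Helper28.mem_support₂]
        exact h
      rw [if_pos h, if_pos hk]
    · have hk : k ∉ support₂ a := by
        rw [Cfsg.Agent.Lib.Helper28.mem_support₂]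
        exact h
      rw [if_neg h, if_neg hk]
  · exact card_std
end Cfsg.Agent.S1571
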