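import Cfsg.Statements.S5593
import Cfsg.Agent.Lib.Helper28.Leech
import Cfsg.Agent.S5592
import Cfsg.Agent.S1569
import Cfsg.Agent.S0400
import Cfsg.Agent.S1576

set_option autoImplicit false
open Cfsg

namespace Cfsg.Agent.S5593

open Cfsg.Agent.Lib.Helper28 in
/-- A lattice vector of sum of squares 64 is the sum of two orthogonal shortest vectors. -/
theorem decomp (v : GolayPt → ℤ) (hv : v ∈ leechLattice) (hvn : sqNorm v = 64) :
    ∃ a ∈ leechLattice, ∃ b ∈ leechLattice, sqNorm a = 32 ∧ sqNorm b = 32 ∧ dotInt a b = 0 ∧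
      v = a + b := by
  have hc := Cfsg.Agent.S1569.result v hv hvn
  have hex : ∃ y ∈ cross v, y ≠ v ∧ y ≠ -v := by
    by_contra hcon
    push Not at hcon
    have hsub : cross v ⊆ {v, -v} := by
      intro y hy
      by_cases h : y = v
      · exact Or.inl h
      · exact Or.inr (hcon y hy h)
    have h1 := Set.ncard_le_ncard hsub (Set.toFinite _)
    have h2 : ({v, -v} : Set (GolayPt → ℤ)).ncard ≤ 2 := by
      have := Set.ncard_insert_le v ({-v} : Set (GolayPt → ℤ))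
      rw [Set.ncard_singleton] at this
      exact this
    omega
  obtain ⟨y, ⟨hy, hyn, z, hz, hzc⟩, hyv, hynv⟩ := hex
  rw [hvn] at hyn
  have hdot : dotInt v y = 0 := by
    rcases Cfsg.Agent.S5592.result v y hv hy (Ne.symm hyv) (le_of_eq hvn) (le_of_eq hyn)
      ⟨z, hz, hzc⟩ with h | h
    · exfalso
      apply hynv
      rw [h, neg_neg]
    · exact h.2.2
  have hzn : sqNorm z = 32 := by
    have h1 := sqNorm_sub v y
    rw [hzc, sqNorm_two_nsmul, hvn, hyn, hdot] at h1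
    omega
  have hb : v - z ∈ leechLattice := leechLattice.sub_mem hv hz
  have h2b : 2 • (v - z) = v + y := by
    rw [smul_sub, ← hzc, two_nsmul]
    abel
  have hbn : sqNorm (v - z) = 32 := by
    have h1 := sqNorm_add v y
    rw [← h2b, sqNorm_two_nsmul, hvn, hyn, hdot] at h1
    omega
  refine ⟨z, hz, v - z, hb, hzn, hbn, ?_, by abel⟩
  have h1 := sqNorm_add z (v - z)
  have e : z + (v - z) = v := by abel
  rw [e, hvn, hzn, hbn] at h1
  omega

/-- The automorphism group of the Leech lattice acts transitively on the congruence classes modulo twice the lattice of the vectors of sum of squares 64 (customary norm 8): for any two such vectors some automorphism carries the first to a vector congruent to the second. -/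
theorem result (v w : ↥Cfsg.leechLattice) (hv : Cfsg.sqNorm (v : Cfsg.GolayPt → ℤ) = 64) (hw : Cfsg.sqNorm (w : Cfsg.GolayPt → ℤ) = 64) :
    ∃ g : ↥Cfsg.Co0, ∃ z ∈ Cfsg.leechLattice, ((g • v : ↥Cfsg.leechLattice) : Cfsg.GolayPt → ℤ) - (w : Cfsg.GolayPt → ℤ) = 2 • z := by
  obtain ⟨a, ha, b, hb, han, hbn, hab, hvab⟩ := decomp v.1 v.2 hv
  obtain ⟨a', ha', b', hb', han', hbn', hab', hwab⟩ := decomp w.1 w.2 hw
  obtain ⟨g1, hg1⟩ := Cfsg.Agent.S0400.result ⟨a, ha⟩ ⟨a', ha'⟩ han han'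
  have hadd : ∀ (g : ↥Co0) (x y : ↥leechLattice), g • (x + y) = g • x + g • y :=
    fun g x y => g.2.1 x y
  have hnorm : ∀ (g : ↥Co0) (x : ↥leechLattice),
      sqNorm ((g • x : ↥leechLattice) : GolayPt → ℤ) = sqNorm (x : GolayPt → ℤ) :=
    fun g x => g.2.2 x
  have hdotp : ∀ (g : ↥Co0) (x y : ↥leechLattice),
      dotInt ((g • x : ↥leechLattice) : GolayPt → ℤ) ((g • y : ↥leechLattice) : GolayPt → ℤ)
        = dotInt (x : GolayPt → ℤ) (y : GolayPt → ℤ) := by
    intro g x y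
    have h1 := hnorm g (x + y)
    rw [hadd] at h1
    have h2 := Cfsg.Agent.Lib.Helper28.sqNorm_add ((g • x : ↥leechLattice) : GolayPt → ℤ)
      ((g • y : ↥leechLattice) : GolayPt → ℤ)
    have h3 := Cfsg.Agent.Lib.Helper28.sqNorm_add (x : GolayPt → ℤ) (y : GolayPt → ℤ)
    rw [hnorm, hnorm] at h2
    rw [AddSubgroup.coe_add, AddSubgroup.coe_add] at h1
    omega
  have hd1 : dotInt a' ((g1 • (⟨b, hb⟩ : ↥leechLattice) : ↥leechLattice) : GolayPt → ℤ) = 0 := by
    have h := hdotp g1 ⟨a, ha⟩ ⟨b, hb⟩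
    rw [hg1] at h
    rw [← hab]
    exact h
  obtain ⟨g2, hg2a, hg2b⟩ := Cfsg.Agent.S1576.result ⟨a', ha'⟩ (g1 • ⟨b, hb⟩) ⟨b', hb'⟩ han'
    (by rw [hnorm]; exact hbn) hbn' hd1 hab'
  have hv' : v = ⟨a, ha⟩ + ⟨b, hb⟩ := Subtype.ext hvab
  have hgv : (g2 * g1) • v = ⟨a', ha'⟩ + g2 • (g1 • (⟨b, hb⟩ : ↥leechLattice)) := by
    rw [mul_smul, hv', hadd, hadd, hg1, hg2a]
  refine ⟨g2 * g1, ?_⟩
  rcases hg2b with h | h
  · refine ⟨0, leechLattice.zero_mem, ?_⟩
    rw [hgv, h, AddSubgroup.coe_add, hwab]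
    simp
  · refine ⟨-b', leechLattice.neg_mem hb', ?_⟩
    rw [hgv, h, AddSubgroup.coe_add, hwab, AddSubgroup.coe_neg, two_nsmul]
    show a' + -b' - (a' + b') = -b' + -b'
    abel
end Cfsg.Agent.S5593
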