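import Cfsg.Statements.S0397
import Cfsg.Agent.Lib.Helper28.Leech
import Cfsg.Agent.Lib.Helper4.LeechCross
import Cfsg.Agent.Lib.Helper4.LeechGen
import Cfsg.Agent.Lib.Helper4.Orb2
import Cfsg.Agent.Lib.Helper4.CoA
import Cfsg.Agent.Lib.Helper4.GolayOrder
import Cfsg.Agent.S0396
import Cfsg.Agent.S5592
import Cfsg.Agent.S5593
import Cfsg.Agent.S1571

set_option autoImplicit false
open Cfsg

namespace Cfsg.Agent.S0397

open Cfsg.Agent.Lib.Helper4 Cfsg.Agent.Lib.Helper28 Cfsg.Agent.S1571

/-- The base point. -/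
def i0 : GolayPt := Golay.pt 0

/-- The base vector `8 e_{i0}`. -/
def b0 : ↥leechLattice := CoA.bv i0

theorem b0_apply (k : GolayPt) : (b0 : GolayPt → ℤ) k = if k = i0 then 8 else 0 := rfl

/-- A lattice vector of sum of squares 64 congruent to some `8 e_j` modulo twice the lattice lies
in the standard cross. -/
theorem cross_std (y : GolayPt → ℤ) (hy : y ∈ leechLattice) (hyn : sqNorm y = 64) (j0 : GolayPt)
    (hc : ∃ z ∈ leechLattice, ((CoA.bv j0 : ↥leechLattice) : GolayPt → ℤ) - y = 2 • z) :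
    y ∈ stdCross := by
  classical
  obtain ⟨z, hz, hzc⟩ := hc
  have hj : ∀ j : GolayPt, y = ((CoA.bv j : ↥leechLattice) : GolayPt → ℤ) ∨
      y = -((CoA.bv j : ↥leechLattice) : GolayPt → ℤ) ∨ y j = 0 := by
    intro j
    by_cases h1 : ((CoA.bv j : ↥leechLattice) : GolayPt → ℤ) = y
    · left
      exact h1.symm
    · have hcj : ∃ z' ∈ leechLattice,
          ((CoA.bv j : ↥leechLattice) : GolayPt → ℤ) - y = 2 • z' := by
        refine ⟨LeechGen.pp j j0 (-4) + z,
          leechLattice.add_mem (LeechGen.pp_mem j j0 (-4) (Or.inr rfl)) hz, ?_⟩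
        rw [smul_add, ← hzc]
        funext k
        rw [Pi.sub_apply, Pi.add_apply, Pi.smul_apply, Pi.sub_apply, nsmul_eq_mul, CoA.bv_apply,
          CoA.bv_apply]
        unfold LeechGen.pp
        push_cast
        split_ifs <;> ring
      rcases Cfsg.Agent.S5592.result _ y (CoA.bv j).2 hy h1 (by rw [CoA.sqNorm_bv])
        (by rw [hyn]) hcj with h | h
      · right
        left
        rw [h, neg_neg]
      · right
        right
        have hd := h.2.2
        unfold dotInt at hd
        rw [Finset.sum_eq_single j] at hd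
        · rw [CoA.bv_apply, if_pos rfl] at hd
          omega
        · intro k _ hk
          rw [CoA.bv_apply, if_neg hk, zero_mul]
        · intro h'
          exact absurd (Finset.mem_univ j) h'
  by_cases hall : ∀ j, y j = 0
  · exfalso
    have h0 : y = 0 := funext hall
    rw [h0, LeechCross.sqNorm_zero] at hyn
    omega
  · push Not at hall
    obtain ⟨j, hj0⟩ := hall
    rcases hj j with h | h | h
    · rw [h]
      exact bv_std j
    · rw [h]
      refine ⟨j, -8, Or.inr rfl, ?_⟩
      funext k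
      rw [Pi.neg_apply, CoA.bv_apply, Pi.single_apply]
      split_ifs <;> norm_num
    · exact absurd h hj0

theorem co_norm (g : ↥Co0) (x : ↥leechLattice) :
    sqNorm ((g • x : ↥leechLattice) : GolayPt → ℤ) = sqNorm (x : GolayPt → ℤ) := g.2.2 x

theorem mk_b0 (σ : ↥M24) (a : ↥golayCode) (k : GolayPt) :
    ((mk σ a • b0 : ↥leechLattice) : GolayPt → ℤ) k
      = if (a : GolayPt → ZMod 2) k = 1
          then -(if (σ : Equiv.Perm GolayPt) k = i0 then (8 : ℤ) else 0)
          else (if (σ : Equiv.Perm GolayPt) k = i0 then (8 : ℤ) else 0) := rfl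

/-- If `b0 - v = 2 z` then `g b0 - g v = 2 (g z)`. -/
theorem congr_smul (g : ↥Co0) (u v : ↥leechLattice) (z : GolayPt → ℤ) (hz : z ∈ leechLattice)
    (h : (u : GolayPt → ℤ) - (v : GolayPt → ℤ) = 2 • z) :
    ((g • u : ↥leechLattice) : GolayPt → ℤ) - ((g • v : ↥leechLattice) : GolayPt → ℤ)
      = 2 • ((g • (⟨z, hz⟩ : ↥leechLattice) : ↥leechLattice) : GolayPt → ℤ) := by
  have h1 : u = v + ((⟨z, hz⟩ : ↥leechLattice) + ⟨z, hz⟩) := by
    apply Subtype.ext
    rw [AddSubgroup.coe_add, AddSubgroup.coe_add]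
    have e : (u : GolayPt → ℤ) = (v : GolayPt → ℤ) + 2 • z := by
      rw [← h]
      abel
    rw [e, two_nsmul]
  have h2 : g • u = g • v + (g • (⟨z, hz⟩ : ↥leechLattice) + g • (⟨z, hz⟩ : ↥leechLattice)) := by
    rw [← co_add, ← co_add, ← h1]
  have h3 := congrArg (fun x : ↥leechLattice => (x : GolayPt → ℤ)) h2
  simp only [AddSubgroup.coe_add] at h3
  rw [h3, two_nsmul]
  abel

theorem orbit_eq :
    MulAction.orbit ↥Co0 b0 = {v : ↥leechLattice | sqNorm (v : GolayPt → ℤ) = 64} := by
  classical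
  ext w
  constructor
  · rintro ⟨g, rfl⟩
    show sqNorm ((g • b0 : ↥leechLattice) : GolayPt → ℤ) = 64
    rw [co_norm]
    exact CoA.sqNorm_bv i0
  · intro hw
    have hw' : sqNorm (w : GolayPt → ℤ) = 64 := hw
    obtain ⟨g, z, hz, hgz⟩ := Cfsg.Agent.S5593.result b0 w (CoA.sqNorm_bv i0) hw'
    have hu : ((g⁻¹ • w : ↥leechLattice) : GolayPt → ℤ) ∈ stdCross := by
      apply cross_std _ (g⁻¹ • w).2 (by rw [co_norm]; exact hw') i0
      have h1 := congr_smul g⁻¹ (g • b0) w z hz hgz
      rw [inv_smul_smul] at h1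
      exact ⟨_, (g⁻¹ • (⟨z, hz⟩ : ↥leechLattice)).2, h1⟩
    obtain ⟨j, s0, hs0, hu'⟩ := hu
    obtain ⟨σ, hσ, hσj⟩ := Orb.m24_one j i0
    have hσk : ∀ k, σ k = i0 ↔ k = j := by
      intro k
      constructor
      · intro h
        apply σ.injective
        rw [h, hσj]
      · intro h
        rw [h, hσj]
    have hm : ∃ m : ↥Co0, m • b0 = g⁻¹ • w := by
      rcases hs0 with h | h
      · refine ⟨mk ⟨σ, hσ⟩ 0, ?_⟩
        apply Subtype.ext
        funext k
        rw [mk_b0, hu', h, Pi.single_apply]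
        have h0 : ¬ ((0 : ↥golayCode) : GolayPt → ZMod 2) k = 1 := by
          show ¬ (0 : ZMod 2) = 1
          decide
        rw [if_neg h0]
        by_cases hk : k = j
        · rw [if_pos ((hσk k).mpr hk), if_pos hk]
        · rw [if_neg (fun h' => hk ((hσk k).mp h')), if_neg hk]
      · refine ⟨mk ⟨σ, hσ⟩ ⟨1, one_mem_golay⟩, ?_⟩
        apply Subtype.ext
        funext k
        rw [mk_b0, hu', h, Pi.single_apply]
        have h1 : ((⟨1, one_mem_golay⟩ : ↥golayCode) : GolayPt → ZMod 2) k = 1 := rfl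
        rw [if_pos h1]
        by_cases hk : k = j
        · rw [if_pos ((hσk k).mpr hk), if_pos hk]
        · rw [if_neg (fun h' => hk ((hσk k).mp h')), if_neg hk]
          norm_num
    obtain ⟨m, hm⟩ := hm
    refine ⟨g * m, ?_⟩
    show (g * m) • b0 = w
    rw [mul_smul, hm, smul_inv_smul]

theorem card_T : Nat.card ↥{v : ↥leechLattice | sqNorm (v : GolayPt → ℤ) = 64} = 398034000 := by
  rw [← Cfsg.Agent.S0396.result, ← Nat.card_coe_set_eq]
  apply Nat.card_congr
  exact
    { toFun := fun v => ⟨v.1.1, v.1.2, v.2⟩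
      invFun := fun x => ⟨⟨x.1, x.2.1⟩, x.2.2⟩
      left_inv := fun _ => rfl
      right_inv := fun _ => rfl }

theorem stab_std (g : ↥Co0) (hg : g • b0 = b0) : StdP g := by
  classical
  rintro v ⟨j, s0, hs0, hv⟩
  have hvn : sqNorm (v : GolayPt → ℤ) = 64 := by
    rw [hv]
    unfold sqNorm
    rw [Finset.sum_eq_single j]
    · rw [Pi.single_eq_same]
      rcases hs0 with h | h <;> rw [h] <;> norm_num
    · intro k _ hk
      rw [Pi.single_eq_of_ne hk]
      norm_num
    · intro h'
      exact absurd (Finset.mem_univ j) h'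
  apply cross_std _ (g • v).2 (by rw [co_norm]; exact hvn) i0
  obtain ⟨z0, hz0, hz0c⟩ : ∃ z0 ∈ leechLattice,
      (b0 : GolayPt → ℤ) - (v : GolayPt → ℤ) = 2 • z0 := by
    rcases hs0 with h | h
    · refine ⟨LeechGen.pp i0 j (-4), LeechGen.pp_mem i0 j (-4) (Or.inr rfl), ?_⟩
      rw [hv, h]
      funext k
      rw [Pi.sub_apply, Pi.smul_apply, nsmul_eq_mul, b0_apply, Pi.single_apply]
      unfold LeechGen.pp
      push_cast
      split_ifs <;> ring
    · refine ⟨LeechGen.pp i0 j 4, LeechGen.pp_mem i0 j 4 (Or.inl rfl), ?_⟩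
      rw [hv, h]
      funext k
      rw [Pi.sub_apply, Pi.smul_apply, nsmul_eq_mul, b0_apply, Pi.single_apply]
      unfold LeechGen.pp
      push_cast
      split_ifs <;> ring
  have h1 := congr_smul g b0 v z0 hz0 hz0c
  rw [hg] at h1
  exact ⟨_, (g • (⟨z0, hz0⟩ : ↥leechLattice)).2, h1⟩

/-- The evaluation at the base point, as a homomorphism on the code. -/
def ev : ↥golayCode →+ ZMod 2 where
  toFun a := (a : GolayPt → ZMod 2) i0
  map_zero' := rfl
  map_add' _ _ := rfl

theorem card_ev0 : Nat.card {a : ↥golayCode // (a : GolayPt → ZMod 2) i0 = 0} = 2048 := by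
  have hsurj : Function.Surjective ev := by
    intro c
    rcases z2_cases c with h | h
    · exact ⟨0, by rw [h]; rfl⟩
    · exact ⟨⟨1, one_mem_golay⟩, by rw [h]; rfl⟩
  have h1 : ev.ker.index = 2 := by
    rw [AddSubgroup.index_ker, AddMonoidHom.range_eq_top.mpr hsurj, AddSubgroup.card_top]
    simp
  have h2 := AddSubgroup.card_mul_index ev.ker
  rw [h1, Golay.card_code] at h2
  have h3 : Nat.card {a : ↥golayCode // (a : GolayPt → ZMod 2) i0 = 0} = Nat.card ↥ev.ker := rfl
  rw [h3]
  omega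

theorem card_stab : Nat.card (MulAction.stabilizer ↥Co0 b0) = 10200960 * 2048 := by
  classical
  have hfix : ∀ p : ↥(Golay.KK [0]) × {a : ↥golayCode // (a : GolayPt → ZMod 2) i0 = 0},
      mk ⟨p.1.1, (Golay.mem_KK.mp p.1.2).1⟩ p.2.1 ∈ MulAction.stabilizer ↥Co0 b0 := by
    rintro ⟨⟨σ, hσ⟩, ⟨a, ha⟩⟩
    rw [MulAction.mem_stabilizer_iff]
    have hσ0 : σ i0 = i0 := (Golay.mem_KK.mp hσ).2 0 List.mem_cons_self
    apply Subtype.ext
    funext k
    rw [mk_b0, b0_apply]
    show (if (a : GolayPt → ZMod 2) k = 1 then -(if σ k = i0 then (8 : ℤ) else 0)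
      else (if σ k = i0 then (8 : ℤ) else 0)) = if k = i0 then 8 else 0
    by_cases hk : k = i0
    · rw [hk, if_pos hσ0, if_pos rfl, if_neg]
      rw [ha]
      decide
    · have hk' : ¬ σ k = i0 := by
        intro h
        apply hk
        apply σ.injective
        rw [h, hσ0]
      rw [if_neg hk', if_neg hk]
      split_ifs <;> norm_num
  have e : (↥(Golay.KK [0]) × {a : ↥golayCode // (a : GolayPt → ZMod 2) i0 = 0})
      ≃ MulAction.stabilizer ↥Co0 b0 :=
    Equiv.ofBijective (fun p => ⟨mk ⟨p.1.1, (Golay.mem_KK.mp p.1.2).1⟩ p.2.1, hfix p⟩) (by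
      constructor
      · rintro ⟨⟨σ, hσ⟩, ⟨a, ha⟩⟩ ⟨⟨σ', hσ'⟩, ⟨a', ha'⟩⟩ h
        have h' := congrArg Subtype.val h
        obtain ⟨h1, h2⟩ := mk_inj _ _ _ _ h'
        have h1' : σ = σ' := congrArg Subtype.val h1
        subst h1'
        subst h2
        rfl
      · rintro ⟨g, hg⟩
        rw [MulAction.mem_stabilizer_iff] at hg
        obtain ⟨σ, a, hσa⟩ := mk_surj g (stab_std g hg)
        have hk : ∀ k, ((mk σ a • b0 : ↥leechLattice) : GolayPt → ℤ) k = (b0 : GolayPt → ℤ) k := by
          intro k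
          rw [hσa, hg]
        have hσ0 : (σ : Equiv.Perm GolayPt) i0 = i0 := by
          have h1 := hk ((σ : Equiv.Perm GolayPt).symm i0)
          rw [mk_b0, b0_apply, Equiv.apply_symm_apply, if_pos rfl] at h1
          by_contra hne
          have hne' : ¬ (σ : Equiv.Perm GolayPt).symm i0 = i0 := by
            intro h
            apply hne
            rw [← h, Equiv.apply_symm_apply, h]
          rw [if_neg hne'] at h1
          split_ifs at h1 <;> norm_num at h1
        have ha0 : (a : GolayPt → ZMod 2) i0 = 0 := by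
          have h1 := hk i0
          rw [mk_b0, b0_apply, if_pos hσ0, if_pos rfl] at h1
          rcases z2_cases ((a : GolayPt → ZMod 2) i0) with h | h
          · exact h
          · rw [if_pos h] at h1
            norm_num at h1
        refine ⟨(⟨σ.1, Golay.mem_KK.mpr ⟨σ.2, ?_⟩⟩, ⟨a, ha0⟩), Subtype.ext hσa⟩
        intro f hf
        rw [List.mem_singleton] at hf
        rw [hf]
        exact hσ0)
  rw [← Nat.card_congr e, Nat.card_prod, Golay.card_KK1, card_ev0]

/-- The automorphism group of the lattice has order 8315553613086720000 = 2^22·3^9·5^4·7^2·11·13·23. -/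
theorem result : Nat.card Cfsg.Co0 = 8315553613086720000 := by
  rw [Subgroup.card_eq_card_quotient_mul_card_subgroup (MulAction.stabilizer ↥Co0 b0),
    ← Nat.card_congr (MulAction.orbitEquivQuotientStabilizer ↥Co0 b0), card_stab, orbit_eq, card_T]
end Cfsg.Agent.S0397
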