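import Cfsg.Statements.S0399
import Cfsg.Agent.S0402
import Cfsg.Agent.S0398
import Cfsg.Agent.S0394
import Cfsg.Agent.S1574
import Cfsg.Agent.Lib.Helper28.Co1Abs

set_option autoImplicit false
open Cfsg

namespace Cfsg.Agent.S0399

open Cfsg.Agent.Lib.Helper28 Cfsg.Agent.Lib.Helper4 Cfsg.Agent.Lib.Helper4.Golay
open Cfsg.Agent.Lib.Helper4.Stv
open Cfsg.Agent.S1584 Cfsg.Agent.S1571 Cfsg.Agent.S1634 Cfsg.Agent.S1580 Cfsg.Agent.S0403
open Cfsg.Agent.S0402
open scoped Pointwise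

theorem orbit_eq0 : MulAction.orbit ↥Co0 vStar =
    {y : ↥leechLattice | sqNorm (y : GolayPt → ℤ) = 32} := by
  ext y
  constructor
  · rintro ⟨g, rfl⟩
    show sqNorm ((g • vStar : ↥leechLattice) : GolayPt → ℤ) = 32
    rw [Cfsg.Agent.S1640.hnorm]
    exact vStar_norm
  · intro hy
    obtain ⟨g, hg⟩ := Cfsg.Agent.S0400.result vStar y vStar_norm hy
    exact ⟨g, hg⟩

theorem card_orbit0 : (MulAction.orbit ↥Co0 vStar).ncard = 196560 := by
  rw [orbit_eq0, Cfsg.Agent.S1578.ncard_sub (fun y => sqNorm y = 32)]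
  exact Cfsg.Agent.S0394.result

theorem card_Co0 : Nat.card ↥Co0 = 8315553613086720000 := by
  have h := Rank4.card_abs4 (H := ↥Co0) vStar (MulAction.stabilizer ↥Co0 vStar).subtype
    Subtype.val_injective (fun m => m.2) (fun h hh => ⟨⟨h, hh⟩, rfl⟩)
  rw [h, card_orbit0, std_Co2.2]

theorem neg_norm (y : ↥leechLattice) (hy : sqNorm (y : GolayPt → ℤ) = 32) :
    sqNorm ((-y : ↥leechLattice) : GolayPt → ℤ) = 32 := by
  rw [AddSubgroup.coe_neg, sqNorm_neg]
  exact hy

theorem dot_negr (x y : ↥leechLattice) :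
    dotInt (x : GolayPt → ℤ) ((-y : ↥leechLattice) : GolayPt → ℤ) =
      - dotInt (x : GolayPt → ℤ) (y : GolayPt → ℤ) := by
  rw [AddSubgroup.coe_neg, Cfsg.Agent.S1640.dot_neg_right]

theorem eq_of_32 (y : ↥leechLattice) (hy : sqNorm (y : GolayPt → ℤ) = 32)
    (h : dotInt ((vStar : ↥leechLattice) : GolayPt → ℤ) (y : GolayPt → ℤ) = 32) :
    y = vStar := by
  by_contra hne
  have := dot_le vStar y vStar_norm hy (fun e => hne e.symm)
  omega

theorem eq_of_m32 (y : ↥leechLattice) (hy : sqNorm (y : GolayPt → ℤ) = 32)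
    (h : dotInt ((vStar : ↥leechLattice) : GolayPt → ℤ) (y : GolayPt → ℤ) = -32) :
    y = -vStar := by
  have h' : dotInt ((vStar : ↥leechLattice) : GolayPt → ℤ)
      ((-y : ↥leechLattice) : GolayPt → ℤ) = 32 := by
    rw [dot_negr, h]
    norm_num
  have e := eq_of_32 (-y) (neg_norm y hy) h'
  rw [← e, neg_neg]

theorem cls_vals (y : ↥leechLattice) (hy : sqNorm (y : GolayPt → ℤ) = 32) :
    dotInt ((vStar : ↥leechLattice) : GolayPt → ℤ) (y : GolayPt → ℤ) ∈
      ({32, 16, 8, 0, -8, -16, -32} : Finset ℤ) := by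
  have h8 := dot_dvd vStar y
  simp only [Finset.mem_insert, Finset.mem_singleton]
  by_cases e1 : y = vStar
  · left
    rw [e1, dot_self]
    exact vStar_norm
  by_cases e2 : -y = vStar
  · right; right; right; right; right; right
    have h : dotInt ((vStar : ↥leechLattice) : GolayPt → ℤ)
        ((-y : ↥leechLattice) : GolayPt → ℤ) = 32 := by
      rw [e2, dot_self]
      exact vStar_norm
    rw [dot_negr] at h
    omega
  have l1 := dot_le vStar y vStar_norm hy (fun e => e1 e.symm)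
  have l2 := dot_le vStar (-y) vStar_norm (neg_norm y hy) (fun e => e2 e.symm)
  rw [dot_negr] at l2
  obtain ⟨t, ht⟩ := h8
  omega

/-- The stabiliser of the standard vector is transitive on each class of shortest vectors. -/
theorem cls_trans (y y' : ↥leechLattice) (hy : sqNorm (y : GolayPt → ℤ) = 32)
    (hy' : sqNorm (y' : GolayPt → ℤ) = 32)
    (h : dotInt ((vStar : ↥leechLattice) : GolayPt → ℤ) (y : GolayPt → ℤ) =
      dotInt ((vStar : ↥leechLattice) : GolayPt → ℤ) (y' : GolayPt → ℤ)) :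
    ∃ g : ↥Co0, g • vStar = vStar ∧ g • y = y' := by
  have hv := cls_vals y hy
  simp only [Finset.mem_insert, Finset.mem_singleton] at hv
  rcases hv with k | k | k | k | k | k | k
  · have e1 := eq_of_32 y hy k
    have e2 := eq_of_32 y' hy' (by rw [← h]; exact k)
    exact ⟨1, one_smul _ _, by rw [one_smul, e1, e2]⟩
  · obtain ⟨g, g1, g2⟩ := Cfsg.Agent.S1574.result vStar (-y) (-y') vStar_norm (neg_norm y hy)
      (neg_norm y' hy') (by rw [dot_negr, k]) (by rw [dot_negr, ← h, k])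
    refine ⟨g, g1, ?_⟩
    rw [co_neg] at g2
    exact neg_injective g2
  · obtain ⟨g, g1, g2⟩ := Cfsg.Agent.S1575.result vStar (-y) (-y') vStar_norm (neg_norm y hy)
      (neg_norm y' hy') (by rw [dot_negr, k]) (by rw [dot_negr, ← h, k])
    refine ⟨g, g1, ?_⟩
    rw [co_neg] at g2
    exact neg_injective g2
  · obtain ⟨g, g1, g2⟩ := Cfsg.Agent.S1583.orth_trans vStar y y' vStar_norm hy hy' k
      (by rw [← h]; exact k)
    exact ⟨g, g1, g2⟩
  · obtain ⟨g, g1, g2⟩ := Cfsg.Agent.S1575.result vStar y y' vStar_norm hy hy' k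
      (by rw [← h]; exact k)
    exact ⟨g, g1, g2⟩
  · obtain ⟨g, g1, g2⟩ := Cfsg.Agent.S1574.result vStar y y' vStar_norm hy hy' k
      (by rw [← h]; exact k)
    exact ⟨g, g1, g2⟩
  · have e1 := eq_of_m32 y hy k
    have e2 := eq_of_m32 y' hy' (by rw [← h]; exact k)
    exact ⟨1, one_smul _ _, by rw [one_smul, e1, e2]⟩

theorem cnt32 : {y : ↥leechLattice | sqNorm (y : GolayPt → ℤ) = 32 ∧
    dotInt ((vStar : ↥leechLattice) : GolayPt → ℤ) (y : GolayPt → ℤ) = 32}.ncard = 1 := by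
  have e : {y : ↥leechLattice | sqNorm (y : GolayPt → ℤ) = 32 ∧
      dotInt ((vStar : ↥leechLattice) : GolayPt → ℤ) (y : GolayPt → ℤ) = 32} = {vStar} := by
    ext y
    constructor
    · rintro ⟨h1, h2⟩
      exact eq_of_32 y h1 h2
    · intro hy
      rw [Set.mem_singleton_iff] at hy
      rw [hy]
      exact ⟨vStar_norm, by rw [dot_self]; exact vStar_norm⟩
  rw [e, Set.ncard_singleton]

theorem cntm32 : {y : ↥leechLattice | sqNorm (y : GolayPt → ℤ) = 32 ∧
    dotInt ((vStar : ↥leechLattice) : GolayPt → ℤ) (y : GolayPt → ℤ) = -32}.ncard = 1 := by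
  have e : {y : ↥leechLattice | sqNorm (y : GolayPt → ℤ) = 32 ∧
      dotInt ((vStar : ↥leechLattice) : GolayPt → ℤ) (y : GolayPt → ℤ) = -32} = {-vStar} := by
    ext y
    constructor
    · rintro ⟨h1, h2⟩
      exact eq_of_m32 y h1 h2
    · intro hy
      rw [Set.mem_singleton_iff] at hy
      rw [hy]
      exact ⟨neg_norm vStar vStar_norm, by rw [dot_negr, dot_self, vStar_norm]⟩
  rw [e, Set.ncard_singleton]

theorem cnt_m16 : {y : ↥leechLattice | sqNorm (y : GolayPt → ℤ) = 32 ∧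
    dotInt ((vStar : ↥leechLattice) : GolayPt → ℤ) (y : GolayPt → ℤ) = -16}.ncard = 4600 := by
  rw [Cfsg.Agent.S1578.ncard_sub (fun y => sqNorm y = 32 ∧
    dotInt ((vStar : ↥leechLattice) : GolayPt → ℤ) y = -16)]
  exact (Cfsg.Agent.S1573.result _ vStar.2 vStar_norm).1

theorem cnt_neg (k k' : ℤ) (hk : k' = -k) :
    {y : ↥leechLattice | sqNorm (y : GolayPt → ℤ) = 32 ∧
      dotInt ((vStar : ↥leechLattice) : GolayPt → ℤ) (y : GolayPt → ℤ) = k'}.ncard =
    {y : ↥leechLattice | sqNorm (y : GolayPt → ℤ) = 32 ∧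
      dotInt ((vStar : ↥leechLattice) : GolayPt → ℤ) (y : GolayPt → ℤ) = k}.ncard := by
  subst hk
  have e : {y : ↥leechLattice | sqNorm (y : GolayPt → ℤ) = 32 ∧
      dotInt ((vStar : ↥leechLattice) : GolayPt → ℤ) (y : GolayPt → ℤ) = -k} =
      (fun y => -y) '' {y : ↥leechLattice | sqNorm (y : GolayPt → ℤ) = 32 ∧
      dotInt ((vStar : ↥leechLattice) : GolayPt → ℤ) (y : GolayPt → ℤ) = k} := by
    ext y
    constructor
    · rintro ⟨h1, h2⟩
      exact ⟨-y, ⟨neg_norm y h1, by rw [dot_negr, h2, neg_neg]⟩, neg_neg y⟩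
    · rintro ⟨z, ⟨h1, h2⟩, rfl⟩
      exact ⟨neg_norm z h1, by rw [dot_negr, h2]⟩
  rw [e, Set.ncard_image_of_injective _ neg_injective]

set_option maxRecDepth 100000 in
theorem table_m11 :
    (Cnt.clsK.map fun k => k.2.2.2 * Cnt.hvalP 32 true k.2.1 k.2.2.1 k.1 (-1) 1).sum +
    (Cnt.clsK.map fun k => k.2.2.2 * Cnt.hvalP 32 false k.2.1 k.2.2.1 k.1 (-1) 1).sum = 22528 := by
  decide +kernel

/-- The number of shortest vectors with the two standard coordinates equal to -1 and 1. -/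
theorem cntV1 : {t : ↥leechLattice | sqNorm (t : GolayPt → ℤ) = 32 ∧ (t : GolayPt → ℤ) a = -1 ∧
    (t : GolayPt → ℤ) b = 1}.ncard = 22528 := by
  obtain ⟨π, hπ, π0, π1⟩ := Golay.exists_map2 (a := Cnt.q0) (b := Cnt.q1) (c := a) (d := b)
    (by decide) ab
  rw [Cfsg.Agent.S1581.ncard_transport ⟨CoA.prmP π hπ, CoA.prmP_mem π hπ⟩ _
    {t : ↥leechLattice | sqNorm (t : GolayPt → ℤ) = 32 ∧ (t : GolayPt → ℤ) Cnt.q0 = -1 ∧
      (t : GolayPt → ℤ) Cnt.q1 = 1}]
  · rw [Cfsg.Agent.S1578.ncard_sub (fun y => sqNorm y = 32 ∧ y Cnt.q0 = -1 ∧ y Cnt.q1 = 1)]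
    have h := Tri.count_pair 32 (by norm_num) (-1) 1
    rw [table_m11] at h
    rw [← h]
    congr 1
  · intro y
    have c1 : ∀ i, ((CoA.prmP π hπ y : leechLattice) : GolayPt → ℤ) i =
        (y : GolayPt → ℤ) (π i) := fun _ => rfl
    show (sqNorm (y : GolayPt → ℤ) = 32 ∧ (y : GolayPt → ℤ) a = -1 ∧ (y : GolayPt → ℤ) b = 1) ↔
      (sqNorm ((CoA.prmP π hπ y : leechLattice) : GolayPt → ℤ) = 32 ∧
        ((CoA.prmP π hπ y : leechLattice) : GolayPt → ℤ) Cnt.q0 = -1 ∧
        ((CoA.prmP π hπ y : leechLattice) : GolayPt → ℤ) Cnt.q1 = 1)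
    rw [c1, c1, π0, π1, (CoA.prmP_mem π hπ).2 y]

theorem wA1_vStar : dotInt ((wA1 : ↥leechLattice) : GolayPt → ℤ)
    ((vStar : ↥leechLattice) : GolayPt → ℤ) = 0 := by
  rw [LeechCross.dot_comm]
  exact Cfsg.Agent.S0404.wA1_mem.2.1

theorem t4_norm : sqNorm ((t4 : ↥leechLattice) : GolayPt → ℤ) = 32 := t4_props.1

set_option maxRecDepth 100000 in
theorem t4_ab : Orb.vecL t4L a = -1 ∧ Orb.vecL t4L b = -1 := by decide +kernel

theorem t4_vStar : dotInt ((t4 : ↥leechLattice) : GolayPt → ℤ)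
    ((vStar : ↥leechLattice) : GolayPt → ℤ) = -8 := by
  rw [LeechCross.dot_comm, dot_vStar]
  have h1 : ((t4 : ↥leechLattice) : GolayPt → ℤ) a = -1 := t4_ab.1
  have h2 : ((t4 : ↥leechLattice) : GolayPt → ℤ) b = -1 := t4_ab.2
  omega

theorem wA1_t4 : dotInt ((wA1 : ↥leechLattice) : GolayPt → ℤ)
    ((t4 : ↥leechLattice) : GolayPt → ℤ) = 0 := by
  rw [Tri.dot_wA1]
  have h1 : ((t4 : ↥leechLattice) : GolayPt → ℤ) a = -1 := t4_ab.1
  have h2 : ((t4 : ↥leechLattice) : GolayPt → ℤ) b = -1 := t4_ab.2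
  omega

/-- Two large sets of shortest vectors through the standard vector cover more than half of all
shortest vectors. -/
theorem card_union : 98280 < ({u : ↥leechLattice | sqNorm (u : GolayPt → ℤ) = 32 ∧
      dotInt ((wA1 : ↥leechLattice) : GolayPt → ℤ) (u : GolayPt → ℤ) = 0} ∪
    {u : ↥leechLattice | sqNorm (u : GolayPt → ℤ) = 32 ∧
      dotInt ((t4 : ↥leechLattice) : GolayPt → ℤ) (u : GolayPt → ℤ) = -8}).ncard := by
  have c1 := cnt_z wA1 wA1_norm
  have c2 := cnt_m8 t4 t4_norm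
  have f1 : {u : ↥leechLattice | sqNorm (u : GolayPt → ℤ) = 32 ∧
      dotInt ((wA1 : ↥leechLattice) : GolayPt → ℤ) (u : GolayPt → ℤ) = 0}.Finite :=
    Set.finite_of_ncard_ne_zero (by rw [c1]; norm_num)
  have f2 : {u : ↥leechLattice | sqNorm (u : GolayPt → ℤ) = 32 ∧
      dotInt ((t4 : ↥leechLattice) : GolayPt → ℤ) (u : GolayPt → ℤ) = -8}.Finite :=
    Set.finite_of_ncard_ne_zero (by rw [c2]; norm_num)
  have hi : ({u : ↥leechLattice | sqNorm (u : GolayPt → ℤ) = 32 ∧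
      dotInt ((wA1 : ↥leechLattice) : GolayPt → ℤ) (u : GolayPt → ℤ) = 0} ∩
    {u : ↥leechLattice | sqNorm (u : GolayPt → ℤ) = 32 ∧
      dotInt ((t4 : ↥leechLattice) : GolayPt → ℤ) (u : GolayPt → ℤ) = -8}).ncard = 22528 := by
    obtain ⟨G, G1, G2⟩ := frame0 wA1 t4 wA1_norm t4_norm wA1_t4
    rw [Cfsg.Agent.S1581.ncard_transport G _ {t : ↥leechLattice | sqNorm (t : GolayPt → ℤ) = 32 ∧
      (t : GolayPt → ℤ) a = -1 ∧ (t : GolayPt → ℤ) b = 1}]
    · exact cntV1
    · intro t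
      have e1 := Cfsg.Agent.S1640.hdotp G wA1 t
      have e2 := Cfsg.Agent.S1640.hdotp G t4 t
      rw [G1, dot_vStar] at e1
      rw [G2, Tri.dot_wA1] at e2
      constructor
      · rintro ⟨⟨t1, t2⟩, -, t3⟩
        exact ⟨by rw [Cfsg.Agent.S1640.hnorm]; exact t1, by omega, by omega⟩
      · rintro ⟨t1, t2, t3⟩
        rw [Cfsg.Agent.S1640.hnorm] at t1
        exact ⟨⟨t1, by omega⟩, t1, by omega⟩
  have hu := Set.ncard_union_add_ncard_inter _ _ f1 f2
  rw [hi, c1, c2] at hu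
  omega

/-- Every normal subgroup of the automorphism group is central or everything. -/
theorem normal_cases (N : Subgroup ↥Co0) (hN : N.Normal) :
    N ≤ Subgroup.center ↥Co0 ∨ N = ⊤ := by
  obtain ⟨hs, hc2⟩ := std_Co2
  obtain ⟨hs3, hc3⟩ := Cfsg.Agent.S0403.std_Co3
  have hHf : Finite ↥Co0 := Nat.finite_of_card_ne_zero (by rw [card_Co0]; norm_num)
  have hmem : ∀ y : ↥leechLattice, y ∈ MulAction.orbit ↥Co0 vStar →
      sqNorm (y : GolayPt → ℤ) = 32 := by
    intro y hy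
    rw [orbit_eq0] at hy
    exact hy
  rcases (hN.comap (MulAction.stabilizer ↥Co0 vStar).subtype).eq_bot_or_eq_top with hb | ht
  · left
    have hreg : ∀ n ∈ N, n • vStar = vStar → n = 1 := by
      intro n hn hfix
      have hm : (⟨n, hfix⟩ : ↥(MulAction.stabilizer ↥Co0 vStar)) ∈
          N.comap (MulAction.stabilizer ↥Co0 vStar).subtype := hn
      rw [hb, Subgroup.mem_bot] at hm
      exact congrArg Subtype.val hm
    have hne := Co1Abs.card_ne_of_simple (H := ↥Co0)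
      (Subgroup.subtype (MulAction.stabilizer ↥Co0 v0)) Subtype.val_injective hc3 card_Co0 N
    have hle := Co1Abs.card_le_two_of_semireg (H := ↥Co0) (L := ↥leechLattice) vStar
      (fun p q => dotInt (p : GolayPt → ℤ) (q : GolayPt → ℤ)) card_orbit0
      (by
        show dotInt ((vStar : ↥leechLattice) : GolayPt → ℤ)
          ((vStar : ↥leechLattice) : GolayPt → ℤ) = 32
        rw [dot_self]
        exact vStar_norm)
      (fun y hy => cls_vals y (hmem y hy))
      (fun y hy y' hy' h => cls_trans y y' (hmem y hy) (hmem y' hy') h)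
      (by rw [orbit_eq0]; exact cnt32)
      (by rw [orbit_eq0, ← cnt_m16]; exact cnt_neg (-16) 16 (by norm_num))
      (by rw [orbit_eq0, ← cnt_m8 vStar vStar_norm]; exact cnt_neg (-8) 8 (by norm_num))
      (by rw [orbit_eq0]; exact cnt_z vStar vStar_norm)
      (by rw [orbit_eq0]; exact cnt_m8 vStar vStar_norm)
      (by rw [orbit_eq0]; exact cnt_m16)
      (by rw [orbit_eq0]; exact cntm32)
      N hreg hne
    exact Co1Abs.central_of_card_le_two N hle
  · right
    have hNs : ∀ h : ↥Co0, h • vStar = vStar → h ∈ N := by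
      intro h hh
      have hm : (⟨h, hh⟩ : ↥(MulAction.stabilizer ↥Co0 vStar)) ∈
          N.comap (MulAction.stabilizer ↥Co0 vStar).subtype := by
        rw [ht]
        exact Subgroup.mem_top _
      exact hm
    refine Co1Abs.top_of_stab_le196 (H := ↥Co0) vStar card_orbit0 N hNs _ _ ?_ ?_ card_union
    · intro u hu
      refine ⟨wA1, by rw [orbit_eq0]; exact wA1_norm, ?_⟩
      obtain ⟨g, g1, g2⟩ := Cfsg.Agent.S1583.orth_trans wA1 vStar u wA1_norm vStar_norm hu.1
        wA1_vStar hu.2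
      exact ⟨g, g1, g2⟩
    · intro u hu
      refine ⟨t4, by rw [orbit_eq0]; exact t4_norm, ?_⟩
      obtain ⟨g, g1, g2⟩ := Cfsg.Agent.S1575.result t4 vStar u t4_norm vStar_norm hu.1
        t4_vStar hu.2
      exact ⟨g, g1, g2⟩

/-- Automorphism group of the lattice modulo its centre is simple of order 4157776806543360000. -/
theorem result : Cfsg.IsCo1 (Cfsg.Co0 ⧸ Subgroup.center Cfsg.Co0) := by
  have hc := card_Co0
  have hz := Cfsg.Agent.S0398.result
  have hHf : Finite ↥Co0 := Nat.finite_of_card_ne_zero (by rw [hc]; norm_num)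
  refine ⟨Cfsg.Agent.Lib.Helper28.Co1Abs.simple_quot ?_ (fun N hN => normal_cases N hN), ?_⟩
  · intro h
    rw [h, Subgroup.card_top, hc] at hz
    norm_num at hz
  · have h4 := Subgroup.card_eq_card_quotient_mul_card_subgroup (Subgroup.center ↥Co0)
    rw [hc, hz] at h4
    omega
end Cfsg.Agent.S0399
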