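import Cfsg.Statements.S0401
import Cfsg.Agent.Lib.Helper28.Leech
import Cfsg.Agent.Lib.Helper4.Leech
import Cfsg.Agent.Lib.Helper4.LeechGen
import Cfsg.Agent.S0363
import Cfsg.Agent.S0400
import Cfsg.Agent.S1575
import Cfsg.Agent.S5552

set_option autoImplicit false
open Cfsg

namespace Cfsg.Agent.S0401

open Cfsg.Agent.Lib.Helper28 Cfsg.Agent.Lib.Helper4 in
/-- A shortest vector with large product against a vector of sum of squares 48 completes it. -/
theorem fin (u a : GolayPt → ℤ) (hu : u ∈ leechLattice) (ha : a ∈ leechLattice)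
    (hun : sqNorm u = 48) (han : sqNorm a = 32) (hd : 17 ≤ dotInt u a) :
    sqNorm (u - a) = 32 := by
  obtain ⟨c, hc⟩ := Cfsg.Agent.S5552.dot_dvd u a hu ha
  have h1 := sqNorm_sub u a
  have hne : u - a ≠ 0 := by
    intro h
    have h' : u = a := sub_eq_zero.mp h
    rw [h'] at hun
    omega
  have h2 := leech_min_norm (u - a) (leechLattice.sub_mem hu ha) hne
  omega

/-- The vector with entry `s` at `i` and `t` at `j`. -/
def two (i j : GolayPt) (s t : ℤ) : GolayPt → ℤ :=
  fun k => (if k = i then s else 0) + (if k = j then t else 0)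

open Cfsg.Agent.Lib.Helper28 Cfsg.Agent.Lib.Helper4 in
theorem two_neg (i j : GolayPt) (t : ℤ) : two i j (-4) t = - LeechGen.pp i j (-t) := by
  funext k
  unfold two LeechGen.pp
  rw [Pi.neg_apply]
  split_ifs <;> ring

open Cfsg.Agent.Lib.Helper28 Cfsg.Agent.Lib.Helper4 in
theorem two_mem (i j : GolayPt) (s t : ℤ) (hs : s = 4 ∨ s = -4) (ht : t = 4 ∨ t = -4) :
    two i j s t ∈ leechLattice := by
  rcases hs with rfl | rfl
  · exact LeechGen.pp_mem i j t ht
  · rw [two_neg]
    exact leechLattice.neg_mem (LeechGen.pp_mem i j (-t) (by omega))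

open Cfsg.Agent.Lib.Helper28 Cfsg.Agent.Lib.Helper4 in
theorem two_sq (i j : GolayPt) (hij : i ≠ j) (s t : ℤ) (hs : s = 4 ∨ s = -4)
    (ht : t = 4 ∨ t = -4) : sqNorm (two i j s t) = 32 := by
  rcases hs with rfl | rfl
  · have h := LeechGen.sq_pp i j hij t
    have e : two i j 4 t = LeechGen.pp i j t := rfl
    rw [e, h]
    rcases ht with rfl | rfl <;> norm_num
  · rw [two_neg, sqNorm_neg, LeechGen.sq_pp i j hij (-t)]
    rcases ht with rfl | rfl <;> norm_num

theorem two_dot (u : GolayPt → ℤ) (i j : GolayPt) (s t : ℤ) :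
    dotInt u (two i j s t) = u i * s + u j * t := by
  unfold dotInt two
  have h : ∀ k : GolayPt, u k * ((if k = i then s else 0) + (if k = j then t else 0))
      = (if k = i then u k * s else 0) + (if k = j then u k * t else 0) := by
    intro k
    split_ifs <;> ring
  rw [Finset.sum_congr rfl (fun k _ => h k), Finset.sum_add_distrib,
    Finset.sum_ite_eq' Finset.univ i (fun k => u k * s),
    Finset.sum_ite_eq' Finset.univ j (fun k => u k * t)]
  simp

theorem flip_sum (o : Finset GolayPt) (p : GolayPt) (hp : p ∈ o) (ε : ℤ) (f : GolayPt → ℤ) :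
    ∑ i ∈ o, (if i = p then ε * f i else f i) = ∑ i ∈ o, f i + (ε - 1) * f p := by
  have h : ∀ i ∈ o, (if i = p then ε * f i else f i)
      = f i + (if i = p then (ε - 1) * f i else 0) := by
    intro i _
    split_ifs <;> ring
  rw [Finset.sum_congr rfl h, Finset.sum_add_distrib,
    Finset.sum_ite_eq' o p (fun i => (ε - 1) * f i), if_pos hp]

/-- The vector carried by a set `o` with entries `2 * τ i`. -/
def oct (o : Finset GolayPt) (τ : GolayPt → ℤ) : GolayPt → ℤ :=
  fun i => if i ∈ o then 2 * τ i else 0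

theorem oct_sum (o : Finset GolayPt) (τ : GolayPt → ℤ) :
    ∑ i, oct o τ i = 2 * ∑ i ∈ o, τ i := by
  unfold oct
  rw [Finset.sum_ite_mem, Finset.univ_inter, Finset.mul_sum]

theorem oct_sq (o : Finset GolayPt) (τ : GolayPt → ℤ) (hτ : ∀ i, τ i = 1 ∨ τ i = -1) :
    sqNorm (oct o τ) = 4 * (o.card : ℤ) := by
  unfold sqNorm oct
  have h : ∀ i : GolayPt, (if i ∈ o then 2 * τ i else 0) ^ 2 = if i ∈ o then (4 : ℤ) else 0 := by
    intro i
    split_ifs
    · rcases hτ i with h | h <;> rw [h] <;> norm_num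
    · norm_num
  rw [Finset.sum_congr rfl (fun i _ => h i), Finset.sum_ite_mem, Finset.univ_inter,
    Finset.sum_const, nsmul_eq_mul]
  ring

theorem oct_dot (u : GolayPt → ℤ) (o : Finset GolayPt) (τ : GolayPt → ℤ) :
    dotInt u (oct o τ) = 2 * ∑ i ∈ o, u i * τ i := by
  unfold dotInt oct
  have h : ∀ i : GolayPt, u i * (if i ∈ o then 2 * τ i else 0)
      = if i ∈ o then 2 * (u i * τ i) else 0 := by
    intro i
    split_ifs <;> ring
  rw [Finset.sum_congr rfl (fun i _ => h i), Finset.sum_ite_mem, Finset.univ_inter,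
    Finset.mul_sum]

open Cfsg.Agent.Lib.Helper28 Cfsg.Agent.Lib.Helper4 in
theorem oct_mem (c : GolayPt → ZMod 2) (hc : c ∈ golayCode) (τ : GolayPt → ℤ)
    (hτ : ∀ i, τ i = 1 ∨ τ i = -1) (h4 : (4 : ℤ) ∣ ∑ i ∈ support₂ c, τ i) :
    oct (support₂ c) τ ∈ leechLattice := by
  have hz : zword (fun i => if i ∈ support₂ c then τ i else 0) = c := by
    funext i
    show (((if i ∈ support₂ c then τ i else 0 : ℤ)) : ZMod 2) = c i
    by_cases hi : i ∈ support₂ c
    · rw [if_pos hi, (mem_support₂ c i).1 hi]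
      rcases hτ i with h | h <;> rw [h] <;> decide
    · rw [if_neg hi]
      rcases z2_cases (c i) with h | h
      · rw [h]; rfl
      · exact absurd ((mem_support₂ c i).2 h) hi
  refine Leech.mem_leech_of_struct _ 0 (fun i => if i ∈ support₂ c then τ i else 0) ?_ ?_ ?_
  · intro i
    unfold oct
    split_ifs <;> ring
  · rw [hz]
    exact hc
  · rw [oct_sum]
    obtain ⟨k, hk⟩ := h4
    rw [hk]
    unfold Int.ModEq
    omega

open Cfsg.Agent.Lib.Helper28 Cfsg.Agent.Lib.Helper4 in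
/-- A lattice vector of sum of squares 48 is the sum of two shortest vectors. -/
theorem decomp3 (u : GolayPt → ℤ) (hu : u ∈ leechLattice) (hun : sqNorm u = 48) :
    ∃ a ∈ leechLattice, sqNorm a = 32 ∧ sqNorm (u - a) = 32 := by
  classical
  by_cases hA : ∃ i j : GolayPt, i ≠ j ∧ ∃ s t : ℤ, (s = 4 ∨ s = -4) ∧ (t = 4 ∨ t = -4) ∧
      17 ≤ u i * s + u j * t
  · obtain ⟨i, j, hij, s, t, hs, ht, h17⟩ := hA
    refine ⟨two i j s t, two_mem i j s t hs ht, two_sq i j hij s t hs ht, ?_⟩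
    exact fin u _ hu (two_mem i j s t hs ht) hun (two_sq i j hij s t hs ht)
      (by rw [two_dot]; exact h17)
  · push Not at hA
    have hB : ∀ i j : GolayPt, i ≠ j →
        u i + u j ≤ 4 ∧ u i - u j ≤ 4 ∧ - u i + u j ≤ 4 ∧ - u i - u j ≤ 4 := by
      intro i j hij
      have h1 := hA i j hij 4 4 (Or.inl rfl) (Or.inl rfl)
      have h2 := hA i j hij 4 (-4) (Or.inl rfl) (Or.inr rfl)
      have h3 := hA i j hij (-4) 4 (Or.inr rfl) (Or.inl rfl)
      have h4 := hA i j hij (-4) (-4) (Or.inr rfl) (Or.inr rfl)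
      omega
    have hB1 : ∀ i, -2 ≤ u i ∧ u i ≤ 2 := by
      by_contra hcon
      push Not at hcon
      obtain ⟨i, hi⟩ := hcon
      have hj : ∀ j, j ≠ i → u j ^ 2 ≤ 1 := by
        intro j hji
        have h := hB i j (Ne.symm hji)
        have h1 : -1 ≤ u j ∧ u j ≤ 1 := by omega
        nlinarith [h1.1, h1.2]
      have hi16 : u i ^ 2 ≤ 16 := by
        obtain ⟨j, hji⟩ : ∃ j : GolayPt, j ≠ i := exists_ne i
        have h := hB i j (Ne.symm hji)
        have h1 : -4 ≤ u i ∧ u i ≤ 4 := by omega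
        nlinarith [h1.1, h1.2]
      have hle : sqNorm u ≤ ∑ j : GolayPt, ((1 : ℤ) + if j = i then 15 else 0) := by
        unfold sqNorm
        apply Finset.sum_le_sum
        intro j _
        by_cases hji : j = i
        · rw [if_pos hji, hji]; omega
        · rw [if_neg hji]; have := hj j hji; omega
      rw [Finset.sum_add_distrib, Finset.sum_const,
        Finset.sum_ite_eq' Finset.univ i (fun _ => (15:ℤ)), Finset.card_univ, card_golayPt] at hle
      simp at hle
      omega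
    obtain ⟨m, y, hxy, hc, hsum⟩ := leech_struct u hu
    have hm : (2 : ℤ) ∣ m := by
      by_contra hm
      have h1 : ∀ i, u i ^ 2 = 1 := by
        intro i
        have h := hB1 i
        have h2 := hxy i
        have h3 : u i = 1 ∨ u i = -1 := by omega
        rcases h3 with h3 | h3 <;> rw [h3] <;> norm_num
      have : sqNorm u = 24 := by
        unfold sqNorm
        rw [Finset.sum_congr rfl (fun i _ => h1 i), Finset.sum_const, Finset.card_univ,
          card_golayPt]
        norm_num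
      omega
    have hB3 : ∀ i, u i = 0 ∨ u i = 2 ∨ u i = -2 := by
      intro i
      have h := hB1 i
      have h2 := hxy i
      omega
    obtain ⟨D, hD⟩ : ∃ D : Finset GolayPt, D = Finset.univ.filter (fun i => u i ≠ 0) := ⟨_, rfl⟩
    have hDmem : ∀ i, i ∈ D ↔ u i ≠ 0 := by
      intro i
      rw [hD]
      simp
    have hDcard : D.card = 12 := by
      have h1 : ∀ i : GolayPt, u i ^ 2 = 4 * (if u i ≠ 0 then (1 : ℤ) else 0) := by
        intro i
        rcases hB3 i with h | h | h <;> rw [h] <;> norm_num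
      have h2 : sqNorm u = 4 * (D.card : ℤ) := by
        unfold sqNorm
        rw [Finset.sum_congr rfl (fun i _ => h1 i), ← Finset.mul_sum, Finset.sum_boole, hD]
      omega
    obtain ⟨s, hsD, hs5⟩ := Finset.exists_subset_card_eq (show 5 ≤ D.card by omega)
    obtain ⟨o, ⟨ho, hso⟩, -⟩ := Cfsg.Agent.S0363.result.2 s hs5
    obtain ⟨⟨c, hc', rfl⟩, ho8⟩ := ho
    obtain ⟨τ0, hτ0⟩ : ∃ τ0 : GolayPt → ℤ, τ0 = fun i => if u i = -2 then -1 else 1 := ⟨_, rfl⟩
    have hτ0v : ∀ i, τ0 i = 1 ∨ τ0 i = -1 := by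
      intro i
      rw [hτ0]
      dsimp only
      split_ifs <;> simp
    obtain ⟨wt, hwt⟩ : ∃ wt : GolayPt → ℤ, wt = fun i => if u i ≠ 0 then 2 else 0 := ⟨_, rfl⟩
    have huτ : ∀ i, u i * τ0 i = wt i := by
      intro i
      rw [hτ0, hwt]
      dsimp only
      rcases hB3 i with h | h | h <;> rw [h] <;> norm_num
    have hW : 10 ≤ ∑ i ∈ support₂ c, wt i := by
      have h1 : ∑ i ∈ s, wt i ≤ ∑ i ∈ support₂ c, wt i :=
        Finset.sum_le_sum_of_subset_of_nonneg hso (fun i _ _ => by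
          rw [hwt]; dsimp only; split_ifs <;> norm_num)
      have h2 : ∑ i ∈ s, wt i = ∑ i ∈ s, (2 : ℤ) := by
        apply Finset.sum_congr rfl
        intro i hi
        rw [hwt]
        dsimp only
        rw [if_pos ((hDmem i).1 (hsD hi))]
      rw [h2, Finset.sum_const, hs5] at h1
      norm_num at h1
      exact h1
    obtain ⟨p, hpo, hp⟩ : ∃ p ∈ support₂ c, 10 ≤ ∑ i ∈ support₂ c, wt i - 2 * wt p := by
      by_cases h : ∃ p ∈ support₂ c, u p = 0
      · obtain ⟨p, hp, hup⟩ := h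
        refine ⟨p, hp, ?_⟩
        have : wt p = 0 := by
          rw [hwt]
          dsimp only
          rw [if_neg (by rw [hup]; simp)]
        rw [this]
        omega
      · push Not at h
        have h1 : ∑ i ∈ support₂ c, wt i = ∑ i ∈ support₂ c, (2 : ℤ) := by
          apply Finset.sum_congr rfl
          intro i hi
          rw [hwt]
          dsimp only
          rw [if_pos (h i hi)]
        rw [Finset.sum_const, ho8] at h1
        obtain ⟨p, hp⟩ : (support₂ c).Nonempty := by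
          rw [← Finset.card_pos, ho8]
          norm_num
        refine ⟨p, hp, ?_⟩
        have : wt p = 2 := by
          rw [hwt]
          dsimp only
          rw [if_pos (h p hp)]
        rw [h1, this]
        norm_num
    have hS0 : (2 : ℤ) ∣ ∑ i ∈ support₂ c, τ0 i := by
      have h1 : (2 : ℤ) ∣ ∑ i ∈ support₂ c, (τ0 i - 1) := by
        apply Finset.dvd_sum
        intro i _
        rcases hτ0v i with h | h <;> rw [h] <;> norm_num
      rw [Finset.sum_sub_distrib, Finset.sum_const, ho8] at h1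
      norm_num at h1
      omega
    obtain ⟨ε, hε, h4⟩ : ∃ ε : ℤ, (ε = 1 ∨ ε = -1) ∧
        (4 : ℤ) ∣ ∑ i ∈ support₂ c, τ0 i + (ε - 1) * τ0 p := by
      by_cases h : (4 : ℤ) ∣ ∑ i ∈ support₂ c, τ0 i
      · exact ⟨1, Or.inl rfl, by simpa using h⟩
      · refine ⟨-1, Or.inr rfl, ?_⟩
        rcases hτ0v p with h' | h' <;> rw [h'] <;> omega
    obtain ⟨τ, hτ⟩ : ∃ τ : GolayPt → ℤ, τ = fun i => if i = p then ε * τ0 i else τ0 i := ⟨_, rfl⟩
    have hτv : ∀ i, τ i = 1 ∨ τ i = -1 := by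
      intro i
      rw [hτ]
      dsimp only
      split_ifs
      · rcases hε with h | h <;> rcases hτ0v i with h' | h' <;> rw [h, h'] <;> norm_num
      · exact hτ0v i
    have hτsum : ∑ i ∈ support₂ c, τ i = ∑ i ∈ support₂ c, τ0 i + (ε - 1) * τ0 p := by
      rw [hτ]
      exact flip_sum _ p hpo ε τ0
    have hdot : ∑ i ∈ support₂ c, u i * τ i = ∑ i ∈ support₂ c, wt i + (ε - 1) * wt p := by
      rw [← flip_sum _ p hpo ε wt]
      apply Finset.sum_congr rfl
      intro i _
      rw [hτ]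
      dsimp only
      split_ifs
      · rw [← huτ i]; ring
      · exact huτ i
    have ha : oct (support₂ c) τ ∈ leechLattice :=
      oct_mem c hc' τ hτv (by rw [hτsum]; exact h4)
    have han : sqNorm (oct (support₂ c) τ) = 32 := by
      rw [oct_sq _ _ hτv, ho8]
      norm_num
    refine ⟨_, ha, han, fin u _ hu ha hun han ?_⟩
    rw [oct_dot, hdot]
    have hwp : 0 ≤ wt p := by
      rw [hwt]
      dsimp only
      split_ifs <;> norm_num
    rcases hε with h | h
    · rw [h]
      norm_num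
      omega
    · rw [h]
      norm_num
      omega

/-- Automorphisms of the lattice act transitively on vectors of sum of squares 48. -/
theorem result (v w : Cfsg.leechLattice) (hv : Cfsg.sqNorm (v : Cfsg.GolayPt → ℤ) = 48) (hw : Cfsg.sqNorm (w : Cfsg.GolayPt → ℤ) = 48) : ∃ g : Cfsg.Co0, g • v = w := by
  have hadd : ∀ (g : ↥Co0) (x y : ↥leechLattice), g • (x + y) = g • x + g • y :=
    fun g x y => g.2.1 x y
  have hnorm : ∀ (g : ↥Co0) (x : ↥leechLattice),
      sqNorm ((g • x : ↥leechLattice) : GolayPt → ℤ) = sqNorm (x : GolayPt → ℤ) :=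
    fun g x => g.2.2 x
  have hdotp : ∀ (g : ↥Co0) (x y : ↥leechLattice),
      dotInt ((g • x : ↥leechLattice) : GolayPt → ℤ) ((g • y : ↥leechLattice) : GolayPt → ℤ)
        = dotInt (x : GolayPt → ℤ) (y : GolayPt → ℤ) := by
    intro g x y
    have h1 := hnorm g (x + y)
    rw [hadd] at h1
    have h2 := Cfsg.Agent.Lib.Helper28.sqNorm_add ((g • x : ↥leechLattice) : GolayPt → ℤ)
      ((g • y : ↥leechLattice) : GolayPt → ℤ)
    have h3 := Cfsg.Agent.Lib.Helper28.sqNorm_add (x : GolayPt → ℤ) (y : GolayPt → ℤ)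
    rw [hnorm, hnorm] at h2
    rw [AddSubgroup.coe_add, AddSubgroup.coe_add] at h1
    omega
  obtain ⟨a, ha, han, hva⟩ := decomp3 v.1 v.2 hv
  obtain ⟨a', ha', han', hwa⟩ := decomp3 w.1 w.2 hw
  have key : ∀ (u a : GolayPt → ℤ), sqNorm u = 48 → sqNorm a = 32 → sqNorm (u - a) = 32 →
      dotInt a (u - a) = -8 := by
    intro u a h0 h1 h2
    have h3 := Cfsg.Agent.Lib.Helper28.sqNorm_add a (u - a)
    have e : a + (u - a) = u := by abel
    rw [e, h0, h1, h2] at h3
    omega
  obtain ⟨g1, hg1⟩ := Cfsg.Agent.S0400.result ⟨a, ha⟩ ⟨a', ha'⟩ han han'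
  have hb : v.1 - a ∈ leechLattice := leechLattice.sub_mem v.2 ha
  have hb' : w.1 - a' ∈ leechLattice := leechLattice.sub_mem w.2 ha'
  have hd1 : dotInt a' ((g1 • (⟨v.1 - a, hb⟩ : ↥leechLattice) : ↥leechLattice) : GolayPt → ℤ)
      = -8 := by
    have h := hdotp g1 ⟨a, ha⟩ ⟨v.1 - a, hb⟩
    rw [hg1] at h
    rw [← key v.1 a hv han hva]
    exact h
  obtain ⟨g2, hg2a, hg2b⟩ := Cfsg.Agent.S1575.result ⟨a', ha'⟩ (g1 • ⟨v.1 - a, hb⟩)
    ⟨w.1 - a', hb'⟩ han' (by rw [hnorm]; exact hva) hwa hd1 (key w.1 a' hw han' hwa)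
  refine ⟨g2 * g1, ?_⟩
  have e : v = ⟨a, ha⟩ + ⟨v.1 - a, hb⟩ := Subtype.ext (by show v.1 = a + (v.1 - a); abel)
  have e' : w = ⟨a', ha'⟩ + ⟨w.1 - a', hb'⟩ := Subtype.ext (by show w.1 = a' + (w.1 - a'); abel)
  calc (g2 * g1) • v = (g2 * g1) • ((⟨a, ha⟩ : ↥leechLattice) + ⟨v.1 - a, hb⟩) := congrArg _ e
    _ = ⟨a', ha'⟩ + ⟨w.1 - a', hb'⟩ := by rw [mul_smul, hadd, hadd, hg1, hg2a, hg2b]
    _ = w := e'.symm
end Cfsg.Agent.S0401
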