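import Cfsg.Statements.S1579
import Cfsg.Agent.Lib.Helper28.Leech
import Cfsg.Agent.S0400
import Cfsg.Agent.S1575

set_option autoImplicit false
open Cfsg

namespace Cfsg.Agent.S1579

/-- The stabiliser of a vector of customary norm 6 is transitive on the 552 minimal vectors that complete it to a sum of two minimal vectors. -/
theorem result (u v v' : ↥Cfsg.leechLattice) (hu : Cfsg.sqNorm (u : Cfsg.GolayPt → ℤ) = 48) (hv : Cfsg.sqNorm (v : Cfsg.GolayPt → ℤ) = 32 ∧ Cfsg.sqNorm ((u - v) : Cfsg.GolayPt → ℤ) = 32) (hv' : Cfsg.sqNorm (v' : Cfsg.GolayPt → ℤ) = 32 ∧ Cfsg.sqNorm ((u - v') : Cfsg.GolayPt → ℤ) = 32) : ∃ g : ↥Cfsg.Co0, g • u = u ∧ g • v = v' := by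
  have hadd : ∀ (g : ↥Co0) (x y : ↥leechLattice), g • (x + y) = g • x + g • y :=
    fun g x y => g.2.1 x y
  have hnorm : ∀ (g : ↥Co0) (x : ↥leechLattice),
      sqNorm ((g • x : ↥leechLattice) : GolayPt → ℤ) = sqNorm (x : GolayPt → ℤ) :=
    fun g x => g.2.2 x
  have hdotp : ∀ (g : ↥Co0) (x y : ↥leechLattice),
      dotInt ((g • x : ↥leechLattice) : GolayPt → ℤ) ((g • y : ↥leechLattice) : GolayPt → ℤ)
        = dotInt (x : GolayPt → ℤ) (y : GolayPt → ℤ) := by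
    intro g x y
    have h1 := hnorm g (x + y)
    rw [hadd] at h1
    have h2 := Cfsg.Agent.Lib.Helper28.sqNorm_add ((g • x : ↥leechLattice) : GolayPt → ℤ)
      ((g • y : ↥leechLattice) : GolayPt → ℤ)
    have h3 := Cfsg.Agent.Lib.Helper28.sqNorm_add (x : GolayPt → ℤ) (y : GolayPt → ℤ)
    rw [hnorm, hnorm] at h2
    rw [AddSubgroup.coe_add, AddSubgroup.coe_add] at h1
    omega
  have key : ∀ (a : ↥leechLattice), sqNorm (a : GolayPt → ℤ) = 32 →
      sqNorm (((u - a : ↥leechLattice)) : GolayPt → ℤ) = 32 →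
      dotInt (a : GolayPt → ℤ) ((u - a : ↥leechLattice) : GolayPt → ℤ) = -8 := by
    intro a h1 h2
    have h3 := Cfsg.Agent.Lib.Helper28.sqNorm_add (a : GolayPt → ℤ)
      ((u - a : ↥leechLattice) : GolayPt → ℤ)
    have e : (a : GolayPt → ℤ) + ((u - a : ↥leechLattice) : GolayPt → ℤ) = (u : GolayPt → ℤ) := by
      rw [AddSubgroup.coe_sub]; abel
    rw [e, hu, h1, h2] at h3
    omega
  have hw : sqNorm (((u - v : ↥leechLattice)) : GolayPt → ℤ) = 32 := hv.2
  have hw' : sqNorm (((u - v' : ↥leechLattice)) : GolayPt → ℤ) = 32 := hv'.2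
  have hd := key v hv.1 hw
  have hd' := key v' hv'.1 hw'
  obtain ⟨g1, hg1⟩ := Cfsg.Agent.S0400.result v v' hv.1 hv'.1
  have hd1 : dotInt (v' : GolayPt → ℤ) ((g1 • (u - v) : ↥leechLattice) : GolayPt → ℤ) = -8 := by
    have h := hdotp g1 v (u - v)
    rw [hg1] at h
    rw [h]
    exact hd
  obtain ⟨g2, hg2a, hg2b⟩ := Cfsg.Agent.S1575.result v' (g1 • (u - v)) (u - v') hv'.1
    (by rw [hnorm]; exact hw) hw' hd1 hd'
  refine ⟨g2 * g1, ?_, ?_⟩
  · have e : u = v + (u - v) := by abel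
    have e' : u = v' + (u - v') := by abel
    calc (g2 * g1) • u = (g2 * g1) • (v + (u - v)) := by rw [← e]
      _ = v' + (u - v') := by rw [mul_smul, hadd, hadd, hg1, hg2a, hg2b]
      _ = u := e'.symm
  · rw [mul_smul, hg1, hg2a]
end Cfsg.Agent.S1579
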