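import Cfsg.Statements.S1578
import Cfsg.Agent.Lib.Helper28.Leech
import Cfsg.Agent.S0394
import Cfsg.Agent.S0395
import Cfsg.Agent.S1573
import Cfsg.Agent.S0401

set_option autoImplicit false
open Cfsg

namespace Cfsg.Agent.S1578

theorem ncard_sub (P : (GolayPt → ℤ) → Prop) :
    {v : ↥leechLattice | P (v : GolayPt → ℤ)}.ncard
      = {x : GolayPt → ℤ | x ∈ leechLattice ∧ P x}.ncard := by
  rw [← Set.ncard_image_of_injective _ Subtype.val_injective]
  congr 1
  ext x
  constructor
  · rintro ⟨v, hv, rfl⟩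
    exact ⟨v.2, hv⟩
  · rintro ⟨hx, hp⟩
    exact ⟨⟨x, hx⟩, hp, rfl⟩

theorem card2 : {v : ↥leechLattice | sqNorm (v : GolayPt → ℤ) = 32}.ncard = 196560 := by
  rw [ncard_sub (fun x => sqNorm x = 32)]
  exact Cfsg.Agent.S0394.result

theorem card3 : {v : ↥leechLattice | sqNorm (v : GolayPt → ℤ) = 48}.ncard = 16773120 := by
  rw [ncard_sub (fun x => sqNorm x = 48)]
  exact Cfsg.Agent.S0395.result

theorem cardK (v : ↥leechLattice) (hv : sqNorm (v : GolayPt → ℤ) = 32) :
    {w : ↥leechLattice | sqNorm (w : GolayPt → ℤ) = 32 ∧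
      dotInt (v : GolayPt → ℤ) (w : GolayPt → ℤ) = -8}.ncard = 47104 := by
  rw [ncard_sub (fun x => sqNorm x = 32 ∧ dotInt (v : GolayPt → ℤ) x = -8)]
  exact (Cfsg.Agent.S1573.result v.1 v.2 hv).2.1

/-- The set of shortest summands of `u`. -/
def NS (u : ↥leechLattice) : Set ↥leechLattice :=
  {v | sqNorm (v : GolayPt → ℤ) = 32 ∧ sqNorm ((u - v : ↥leechLattice) : GolayPt → ℤ) = 32}

theorem NS_smul (g : ↥Co0) (u : ↥leechLattice) : (NS (g • u)).ncard = (NS u).ncard := by
  have hadd : ∀ (g : ↥Co0) (x y : ↥leechLattice), g • (x + y) = g • x + g • y :=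
    fun g x y => g.2.1 x y
  have hnorm : ∀ (g : ↥Co0) (x : ↥leechLattice),
      sqNorm ((g • x : ↥leechLattice) : GolayPt → ℤ) = sqNorm (x : GolayPt → ℤ) :=
    fun g x => g.2.2 x
  have hsub : ∀ (g : ↥Co0) (x y : ↥leechLattice), g • (x - y) = g • x - g • y := by
    intro g x y
    have h := hadd g (x - y) y
    rw [sub_add_cancel] at h
    rw [h, add_sub_cancel_right]
  have himg : (fun v => g • v) '' NS u = NS (g • u) := by
    ext v'
    constructor
    · rintro ⟨v, ⟨h1, h2⟩, rfl⟩
      exact ⟨by rw [hnorm]; exact h1, by rw [← hsub, hnorm]; exact h2⟩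
    · rintro ⟨h1, h2⟩
      refine ⟨g⁻¹ • v', ⟨by rw [hnorm]; exact h1, ?_⟩, smul_inv_smul g v'⟩
      have e : u - g⁻¹ • v' = g⁻¹ • (g • u - v') := by rw [hsub, inv_smul_smul]
      rw [e, hnorm]
      exact h2
  rw [← himg]
  exact Set.ncard_image_of_injective _ (MulAction.injective g)

/-- A lattice vector of customary norm 6 is the sum of an unordered pair of minimal vectors in exactly 276 ways (552 ordered summands). -/
theorem result (u : ↥Cfsg.leechLattice) (hu : Cfsg.sqNorm (u : Cfsg.GolayPt → ℤ) = 48) : {v : ↥Cfsg.leechLattice | Cfsg.sqNorm (v : Cfsg.GolayPt → ℤ) = 32 ∧ Cfsg.sqNorm ((u - v) : Cfsg.GolayPt → ℤ) = 32}.ncard = 552 := by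
  classical
  show (NS u).ncard = 552
  have hfin2 : {v : ↥leechLattice | sqNorm (v : GolayPt → ℤ) = 32}.Finite :=
    Set.finite_of_ncard_ne_zero (by rw [card2]; norm_num)
  have hfin3 : {v : ↥leechLattice | sqNorm (v : GolayPt → ℤ) = 48}.Finite :=
    Set.finite_of_ncard_ne_zero (by rw [card3]; norm_num)
  obtain ⟨F2, hF2⟩ : ∃ F2 : Finset ↥leechLattice,
      ∀ v, v ∈ F2 ↔ sqNorm (v : GolayPt → ℤ) = 32 :=
    ⟨hfin2.toFinset, fun v => by rw [Set.Finite.mem_toFinset]; rfl⟩
  obtain ⟨F3, hF3⟩ : ∃ F3 : Finset ↥leechLattice,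
      ∀ v, v ∈ F3 ↔ sqNorm (v : GolayPt → ℤ) = 48 :=
    ⟨hfin3.toFinset, fun v => by rw [Set.Finite.mem_toFinset]; rfl⟩
  have hF2c : F2.card = 196560 := by
    rw [← card2, ← Set.ncard_coe_finset]
    congr 1
    ext v
    exact hF2 v
  have hF3c : F3.card = 16773120 := by
    rw [← card3, ← Set.ncard_coe_finset]
    congr 1
    ext v
    exact hF3 v
  have hNS : ∀ u : ↥leechLattice, (NS u).ncard
      = (F2.filter (fun v => sqNorm ((u - v : ↥leechLattice) : GolayPt → ℤ) = 32)).card := by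
    intro u
    rw [← Set.ncard_coe_finset]
    congr 1
    ext v
    simp only [NS, Set.mem_ofPred_eq, Finset.coe_filter, hF2]
  obtain ⟨P, hP⟩ : ∃ P : Finset (↥leechLattice × ↥leechLattice),
      P = (F2 ×ˢ F2).filter
        (fun q => dotInt (q.1 : GolayPt → ℤ) (q.2 : GolayPt → ℤ) = -8) := ⟨_, rfl⟩
  have hPmem : ∀ q : ↥leechLattice × ↥leechLattice, q ∈ P ↔
      sqNorm (q.1 : GolayPt → ℤ) = 32 ∧ sqNorm (q.2 : GolayPt → ℤ) = 32 ∧
        dotInt (q.1 : GolayPt → ℤ) (q.2 : GolayPt → ℤ) = -8 := by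
    intro q
    rw [hP, Finset.mem_filter, Finset.mem_product, hF2, hF2, and_assoc]
  have hPa : P.card = 196560 * 47104 := by
    have hmaps : Set.MapsTo (Prod.fst : ↥leechLattice × ↥leechLattice → ↥leechLattice)
        (P : Set (↥leechLattice × ↥leechLattice)) (F2 : Set ↥leechLattice) := by
      intro q hq
      rw [Finset.mem_coe, hF2]
      exact ((hPmem q).1 (Finset.mem_coe.1 hq)).1
    rw [Finset.card_eq_sum_card_fiberwise hmaps]
    have hfib : ∀ v ∈ F2, (P.filter (fun q => q.1 = v)).card = 47104 := by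
      intro v hv
      rw [hF2] at hv
      have hcard : (P.filter (fun q => q.1 = v)).card
          = (F2.filter (fun w : ↥leechLattice =>
              dotInt (v : GolayPt → ℤ) (w : GolayPt → ℤ) = -8)).card := by
        refine Finset.card_nbij' (fun q => q.2) (fun w => (v, w)) ?_ ?_ ?_ ?_
        · intro q hq
          rw [Finset.mem_coe, Finset.mem_filter, hPmem] at hq
          rw [Finset.mem_coe, Finset.mem_filter, hF2]
          obtain ⟨⟨h1, h2, h3⟩, h4⟩ := hq
          rw [h4] at h3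
          exact ⟨h2, h3⟩
        · intro w hw
          rw [Finset.mem_coe, Finset.mem_filter, hF2] at hw
          rw [Finset.mem_coe, Finset.mem_filter, hPmem]
          exact ⟨⟨hv, hw.1, hw.2⟩, rfl⟩
        · intro q hq
          rw [Finset.mem_coe, Finset.mem_filter] at hq
          exact Prod.ext hq.2.symm rfl
        · intro w _
          rfl
      rw [hcard, ← cardK v hv, ← Set.ncard_coe_finset]
      congr 1
      ext w
      simp only [Set.mem_ofPred_eq, Finset.coe_filter, hF2]
    rw [Finset.sum_congr rfl hfib, Finset.sum_const, hF2c, smul_eq_mul]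
  have hPb : P.card = 16773120 * (NS u).ncard := by
    have hmaps : Set.MapsTo (fun q : ↥leechLattice × ↥leechLattice => q.1 + q.2)
        (P : Set (↥leechLattice × ↥leechLattice)) (F3 : Set ↥leechLattice) := by
      intro q hq
      rw [Finset.mem_coe, hF3]
      obtain ⟨h1, h2, h3⟩ := (hPmem q).1 (Finset.mem_coe.1 hq)
      have h := Cfsg.Agent.Lib.Helper28.sqNorm_add (q.1 : GolayPt → ℤ) (q.2 : GolayPt → ℤ)
      rw [AddSubgroup.coe_add]
      omega
    rw [Finset.card_eq_sum_card_fiberwise hmaps]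
    have hfib : ∀ u' ∈ F3, (P.filter (fun q => q.1 + q.2 = u')).card = (NS u).ncard := by
      intro u' hu'
      rw [hF3] at hu'
      obtain ⟨g, hg⟩ := Cfsg.Agent.S0401.result u u' hu hu'
      rw [← NS_smul g u, hg, hNS u']
      refine Finset.card_nbij' (fun q => q.1) (fun v => (v, u' - v)) ?_ ?_ ?_ ?_
      · intro q hq
        rw [Finset.mem_coe, Finset.mem_filter, hPmem] at hq
        rw [Finset.mem_coe, Finset.mem_filter, hF2]
        obtain ⟨⟨h1, h2, h3⟩, h4⟩ := hq
        refine ⟨h1, ?_⟩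
        have e : u' - q.1 = q.2 := by rw [← h4]; abel
        rw [e]
        exact h2
      · intro v hv
        rw [Finset.mem_coe, Finset.mem_filter, hF2] at hv
        rw [Finset.mem_coe, Finset.mem_filter, hPmem]
        refine ⟨⟨hv.1, hv.2, ?_⟩, by show v + (u' - v) = u'; abel⟩
        show dotInt (v : GolayPt → ℤ) ((u' - v : ↥leechLattice) : GolayPt → ℤ) = -8
        have h := Cfsg.Agent.Lib.Helper28.sqNorm_add (v : GolayPt → ℤ)
          ((u' - v : ↥leechLattice) : GolayPt → ℤ)
        have e : (v : GolayPt → ℤ) + ((u' - v : ↥leechLattice) : GolayPt → ℤ)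
            = (u' : GolayPt → ℤ) := by
          rw [AddSubgroup.coe_sub]; abel
        rw [e, hu', hv.1, hv.2] at h
        omega
      · intro q hq
        rw [Finset.mem_coe, Finset.mem_filter] at hq
        refine Prod.ext rfl ?_
        show u' - q.1 = q.2
        rw [← hq.2]; abel
      · intro v _
        rfl
    rw [Finset.sum_congr rfl hfib, Finset.sum_const, hF3c, smul_eq_mul]
  omega
end Cfsg.Agent.S1578
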