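import Cfsg.Statements.S1640
import Cfsg.Agent.Lib.Helper28.Tri3
import Cfsg.Agent.Lib.Helper4.Cnt8
import Cfsg.Agent.S0400
import Cfsg.Agent.S0401
import Cfsg.Agent.S1578

set_option autoImplicit false
open Cfsg

namespace Cfsg.Agent.S1640

open Cfsg.Agent.Lib.Helper28 Cfsg.Agent.Lib.Helper4

def αs7 : List ℤ := [-6, -5, -4, -3, -2, -1, 0, 1, 2, 3, 4, 5, 6]

theorem αs7_complete (t : ℤ) (h : t ^ 2 ≤ ((48 : ℕ) : ℤ)) : t ∈ αs7 := by
  have h' : t ^ 2 ≤ 48 := by exact_mod_cast h
  have h1 : -7 < t := by nlinarith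
  have h2 : t < 7 := by nlinarith
  interval_cases t <;> decide

set_option maxRecDepth 100000 in
theorem census48 : (αs7.map fun α =>
    (Cnt.clsK.map fun k => k.2.2.2 * Cnt.hvalP 48 true k.2.1 k.2.2.1 k.1 α (-4 - α)).sum +
    (Cnt.clsK.map fun k => k.2.2.2 * Cnt.hvalP 48 false k.2.1 k.2.2.1 k.1 α (-4 - α)).sum).sum
      = 953856 := by
  decide +kernel

theorem cnt_std : {w : GolayPt → ℤ | w ∈ leechLattice ∧ sqNorm w = ((48 : ℕ) : ℤ) ∧
    w Cnt.q0 + w Cnt.q1 = -4}.ncard = 953856 := by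
  have h := Cnt.count_pairsum 48 (by norm_num) αs7 (by decide) αs7_complete (-4)
  rw [census48] at h
  exact h

theorem hdotp (g : ↥Co0) (x y : ↥leechLattice) :
    dotInt ((g • x : ↥leechLattice) : GolayPt → ℤ) ((g • y : ↥leechLattice) : GolayPt → ℤ)
      = dotInt (x : GolayPt → ℤ) (y : GolayPt → ℤ) :=
  Orb.dot_pres g.1 g.2 x y

theorem hnorm (g : ↥Co0) (x : ↥leechLattice) :
    sqNorm ((g • x : ↥leechLattice) : GolayPt → ℤ) = sqNorm (x : GolayPt → ℤ) := g.2.2 x

/-- Counts of vectors of given sum of squares and product with `y` are invariant. -/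
theorem cnt_smul (N d : ℤ) (g : ↥Co0) (y : ↥leechLattice) :
    {w : ↥leechLattice | sqNorm (w : GolayPt → ℤ) = N ∧
      dotInt ((g • y : ↥leechLattice) : GolayPt → ℤ) (w : GolayPt → ℤ) = d}.ncard =
    {w : ↥leechLattice | sqNorm (w : GolayPt → ℤ) = N ∧
      dotInt (y : GolayPt → ℤ) (w : GolayPt → ℤ) = d}.ncard := by
  have himg : (fun w => g • w) '' {w : ↥leechLattice | sqNorm (w : GolayPt → ℤ) = N ∧
      dotInt (y : GolayPt → ℤ) (w : GolayPt → ℤ) = d} =
      {w : ↥leechLattice | sqNorm (w : GolayPt → ℤ) = N ∧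
      dotInt ((g • y : ↥leechLattice) : GolayPt → ℤ) (w : GolayPt → ℤ) = d} := by
    ext w'
    constructor
    · rintro ⟨w, ⟨h1, h2⟩, rfl⟩
      exact ⟨by rw [hnorm]; exact h1, by rw [hdotp]; exact h2⟩
    · rintro ⟨h1, h2⟩
      refine ⟨g⁻¹ • w', ⟨by rw [hnorm]; exact h1, ?_⟩, smul_inv_smul g w'⟩
      have e := hdotp g y (g⁻¹ • w')
      rw [smul_inv_smul] at e
      rw [← e]
      exact h2
  rw [← himg]
  exact Set.ncard_image_of_injective _ (MulAction.injective g)

theorem cnt_aStar : {w : ↥leechLattice | sqNorm (w : GolayPt → ℤ) = 48 ∧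
    dotInt ((Orb.aStar : ↥leechLattice) : GolayPt → ℤ) (w : GolayPt → ℤ) = -16}.ncard
      = 953856 := by
  rw [Cfsg.Agent.S1578.ncard_sub (fun y => sqNorm y = 48 ∧
    dotInt ((Orb.aStar : ↥leechLattice) : GolayPt → ℤ) y = -16), ← cnt_std]
  congr 1
  ext w
  simp only [Set.mem_ofPred_eq, Orb.dot_aStar]
  constructor
  · rintro ⟨h1, h2, h3⟩
    exact ⟨h1, by exact_mod_cast h2, by omega⟩
  · rintro ⟨h1, h2, h3⟩
    exact ⟨h1, by exact_mod_cast h2, by omega⟩

theorem cnt_min (x : ↥leechLattice) (hx : sqNorm (x : GolayPt → ℤ) = 32) :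
    {w : ↥leechLattice | sqNorm (w : GolayPt → ℤ) = 48 ∧
      dotInt (x : GolayPt → ℤ) (w : GolayPt → ℤ) = -16}.ncard = 953856 := by
  have ha : sqNorm ((Orb.aStar : ↥leechLattice) : GolayPt → ℤ) = 32 := by
    show sqNorm (LeechGen.pp Orb.p0 Orb.p1 4) = 32
    rw [LeechGen.sq_pp _ _ (by decide)]
    norm_num
  obtain ⟨g, hg⟩ := Cfsg.Agent.S0400.result Orb.aStar x ha hx
  rw [← hg, cnt_smul]
  exact cnt_aStar

theorem dot_neg_right (x y : GolayPt → ℤ) : dotInt x (-y) = - dotInt x y := by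
  unfold dotInt
  rw [← Finset.sum_neg_distrib]
  apply Finset.sum_congr rfl
  intro i _
  rw [Pi.neg_apply]
  ring

/-- The stabiliser of a vector of customary norm 6 is transitive on the 11178 minimal vectors of customary inner product −2 with it. -/
theorem result (u : ↥Cfsg.leechLattice) (hu : Cfsg.sqNorm (u : Cfsg.GolayPt → ℤ) = 48) : {x : ↥Cfsg.leechLattice | Cfsg.sqNorm (x : Cfsg.GolayPt → ℤ) = 32 ∧ Cfsg.dotInt (u : Cfsg.GolayPt → ℤ) (x : Cfsg.GolayPt → ℤ) = -16}.ncard = 11178 ∧ ∀ x ∈ {x : ↥Cfsg.leechLattice | Cfsg.sqNorm (x : Cfsg.GolayPt → ℤ) = 32 ∧ Cfsg.dotInt (u : Cfsg.GolayPt → ℤ) (x : Cfsg.GolayPt → ℤ) = -16}, ∀ x' ∈ {x : ↥Cfsg.leechLattice | Cfsg.sqNorm (x : Cfsg.GolayPt → ℤ) = 32 ∧ Cfsg.dotInt (u : Cfsg.GolayPt → ℤ) (x : Cfsg.GolayPt → ℤ) = -16}, ∃ g : ↥Cfsg.Co0, g • u = u ∧ g • x = x' := by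
  classical
  constructor
  · -- the count
    have hfin2 : {v : ↥leechLattice | sqNorm (v : GolayPt → ℤ) = 32}.Finite :=
      Set.finite_of_ncard_ne_zero (by rw [Cfsg.Agent.S1578.card2]; norm_num)
    have hfin3 : {v : ↥leechLattice | sqNorm (v : GolayPt → ℤ) = 48}.Finite :=
      Set.finite_of_ncard_ne_zero (by rw [Cfsg.Agent.S1578.card3]; norm_num)
    obtain ⟨F2, hF2⟩ : ∃ F2 : Finset ↥leechLattice,
        ∀ v, v ∈ F2 ↔ sqNorm (v : GolayPt → ℤ) = 32 :=
      ⟨hfin2.toFinset, fun v => by rw [Set.Finite.mem_toFinset]; rfl⟩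
    obtain ⟨F3, hF3⟩ : ∃ F3 : Finset ↥leechLattice,
        ∀ v, v ∈ F3 ↔ sqNorm (v : GolayPt → ℤ) = 48 :=
      ⟨hfin3.toFinset, fun v => by rw [Set.Finite.mem_toFinset]; rfl⟩
    have hF2c : F2.card = 196560 := by
      rw [← Cfsg.Agent.S1578.card2, ← Set.ncard_coe_finset]
      congr 1
      ext v
      exact hF2 v
    have hF3c : F3.card = 16773120 := by
      rw [← Cfsg.Agent.S1578.card3, ← Set.ncard_coe_finset]
      congr 1
      ext v
      exact hF3 v
    obtain ⟨P, hP⟩ : ∃ P : Finset (↥leechLattice × ↥leechLattice),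
        P = (F2 ×ˢ F3).filter
          (fun q => dotInt (q.1 : GolayPt → ℤ) (q.2 : GolayPt → ℤ) = -16) := ⟨_, rfl⟩
    have hPmem : ∀ q : ↥leechLattice × ↥leechLattice, q ∈ P ↔
        sqNorm (q.1 : GolayPt → ℤ) = 32 ∧ sqNorm (q.2 : GolayPt → ℤ) = 48 ∧
          dotInt (q.1 : GolayPt → ℤ) (q.2 : GolayPt → ℤ) = -16 := by
      intro q
      rw [hP, Finset.mem_filter, Finset.mem_product, hF2, hF3, and_assoc]
    have hPa : P.card = 196560 * 953856 := by
      have hmaps : Set.MapsTo (Prod.fst : ↥leechLattice × ↥leechLattice → ↥leechLattice)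
          (P : Set (↥leechLattice × ↥leechLattice)) (F2 : Set ↥leechLattice) := by
        intro q hq
        rw [Finset.mem_coe, hF2]
        exact ((hPmem q).1 (Finset.mem_coe.1 hq)).1
      rw [Finset.card_eq_sum_card_fiberwise hmaps]
      have hfib : ∀ x ∈ F2, (P.filter (fun q => q.1 = x)).card = 953856 := by
        intro x hx
        rw [hF2] at hx
        have hcard : (P.filter (fun q => q.1 = x)).card
            = (F3.filter (fun w : ↥leechLattice =>
                dotInt (x : GolayPt → ℤ) (w : GolayPt → ℤ) = -16)).card := by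
          refine Finset.card_nbij' (fun q => q.2) (fun w => (x, w)) ?_ ?_ ?_ ?_
          · intro q hq
            rw [Finset.mem_coe, Finset.mem_filter, hPmem] at hq
            rw [Finset.mem_coe, Finset.mem_filter, hF3]
            obtain ⟨⟨h1, h2, h3⟩, h4⟩ := hq
            rw [h4] at h3
            exact ⟨h2, h3⟩
          · intro w hw
            rw [Finset.mem_coe, Finset.mem_filter, hF3] at hw
            rw [Finset.mem_coe, Finset.mem_filter, hPmem]
            exact ⟨⟨hx, hw.1, hw.2⟩, rfl⟩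
          · intro q hq
            rw [Finset.mem_coe, Finset.mem_filter] at hq
            exact Prod.ext hq.2.symm rfl
          · intro w _
            rfl
        rw [hcard, ← cnt_min x hx, ← Set.ncard_coe_finset]
        congr 1
        ext w
        simp only [Set.mem_ofPred_eq, Finset.coe_filter, hF3]
      rw [Finset.sum_congr rfl hfib, Finset.sum_const, hF2c, smul_eq_mul]
    have hPb : P.card = 16773120 * {x : ↥leechLattice | sqNorm (x : GolayPt → ℤ) = 32 ∧
        dotInt (u : GolayPt → ℤ) (x : GolayPt → ℤ) = -16}.ncard := by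
      have hmaps : Set.MapsTo (Prod.snd : ↥leechLattice × ↥leechLattice → ↥leechLattice)
          (P : Set (↥leechLattice × ↥leechLattice)) (F3 : Set ↥leechLattice) := by
        intro q hq
        rw [Finset.mem_coe, hF3]
        exact ((hPmem q).1 (Finset.mem_coe.1 hq)).2.1
      rw [Finset.card_eq_sum_card_fiberwise hmaps]
      have hfib : ∀ u' ∈ F3, (P.filter (fun q => q.2 = u')).card =
          {x : ↥leechLattice | sqNorm (x : GolayPt → ℤ) = 32 ∧
            dotInt (u : GolayPt → ℤ) (x : GolayPt → ℤ) = -16}.ncard := by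
        intro u' hu'
        rw [hF3] at hu'
        obtain ⟨g, hg⟩ := Cfsg.Agent.S0401.result u u' hu hu'
        rw [← cnt_smul 32 (-16) g u, hg]
        have hcard : (P.filter (fun q => q.2 = u')).card
            = (F2.filter (fun x : ↥leechLattice =>
                dotInt (u' : GolayPt → ℤ) (x : GolayPt → ℤ) = -16)).card := by
          refine Finset.card_nbij' (fun q => q.1) (fun x => (x, u')) ?_ ?_ ?_ ?_
          · intro q hq
            rw [Finset.mem_coe, Finset.mem_filter, hPmem] at hq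
            rw [Finset.mem_coe, Finset.mem_filter, hF2]
            obtain ⟨⟨h1, h2, h3⟩, h4⟩ := hq
            rw [h4] at h3
            exact ⟨h1, by rw [LeechCross.dot_comm]; exact h3⟩
          · intro x hx
            rw [Finset.mem_coe, Finset.mem_filter, hF2] at hx
            rw [Finset.mem_coe, Finset.mem_filter, hPmem]
            exact ⟨⟨hx.1, hu', by rw [LeechCross.dot_comm]; exact hx.2⟩, rfl⟩
          · intro q hq
            rw [Finset.mem_coe, Finset.mem_filter] at hq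
            exact Prod.ext rfl hq.2.symm
          · intro x _
            rfl
        rw [hcard, ← Set.ncard_coe_finset]
        congr 1
        ext x
        simp only [Set.mem_ofPred_eq, Finset.coe_filter, hF2]
      rw [Finset.sum_congr rfl hfib, Finset.sum_const, hF3c, smul_eq_mul]
    omega
  · -- transitivity
    rintro x ⟨hx, hdx⟩ x' ⟨hx', hdx'⟩
    obtain ⟨g1, hg1⟩ := Cfsg.Agent.S0400.result x x' hx hx'
    have hn1 : sqNorm ((-(g1 • u) : ↥leechLattice) : GolayPt → ℤ) = 48 := by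
      rw [AddSubgroup.coe_neg, sqNorm_neg, hnorm]
      exact hu
    have hn2 : sqNorm ((-u : ↥leechLattice) : GolayPt → ℤ) = 48 := by
      rw [AddSubgroup.coe_neg, sqNorm_neg]
      exact hu
    have hd1 : dotInt (x' : GolayPt → ℤ) ((-(g1 • u) : ↥leechLattice) : GolayPt → ℤ) = 16 := by
      rw [AddSubgroup.coe_neg, dot_neg_right, ← hg1, hdotp, LeechCross.dot_comm, hdx]
      norm_num
    have hd2 : dotInt (x' : GolayPt → ℤ) ((-u : ↥leechLattice) : GolayPt → ℤ) = 16 := by
      rw [AddSubgroup.coe_neg, dot_neg_right, LeechCross.dot_comm, hdx']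
      norm_num
    obtain ⟨k, hk, hkx, hku⟩ := Tri.pair_trans x' (-(g1 • u)) (-u) hx' hn1 hn2 hd1 hd2
    have hku' : k (g1 • u) = u := by
      have e := CoA.map_neg_of_add k hk.1 (g1 • u)
      rw [hku] at e
      exact neg_injective e.symm
    refine ⟨⟨k, hk⟩ * g1, ?_, ?_⟩
    · rw [mul_smul]
      exact hku'
    · rw [mul_smul, hg1]
      exact hkx
end Cfsg.Agent.S1640
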