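import Cfsg.Statements.S1583
import Cfsg.Agent.Lib.Helper28.Tri4
import Cfsg.Agent.S0400
import Cfsg.Agent.S1573
import Cfsg.Agent.S1578
import Cfsg.Agent.S1640

set_option autoImplicit false
open Cfsg

namespace Cfsg.Agent.S1583

open Cfsg.Agent.Lib.Helper28 Cfsg.Agent.Lib.Helper4

theorem dot_add_left (x y w : GolayPt → ℤ) : dotInt (x + y) w = dotInt x w + dotInt y w := by
  unfold dotInt
  rw [← Finset.sum_add_distrib]
  apply Finset.sum_congr rfl
  intro i _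
  rw [Pi.add_apply]
  ring

/-- Counts with two product conditions are invariant. -/
theorem cnt_smul2 (N d1 d2 : ℤ) (g : ↥Co0) (y1 y2 : ↥leechLattice) :
    {w : ↥leechLattice | sqNorm (w : GolayPt → ℤ) = N ∧
      dotInt ((g • y1 : ↥leechLattice) : GolayPt → ℤ) (w : GolayPt → ℤ) = d1 ∧
      dotInt ((g • y2 : ↥leechLattice) : GolayPt → ℤ) (w : GolayPt → ℤ) = d2}.ncard =
    {w : ↥leechLattice | sqNorm (w : GolayPt → ℤ) = N ∧
      dotInt (y1 : GolayPt → ℤ) (w : GolayPt → ℤ) = d1 ∧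
      dotInt (y2 : GolayPt → ℤ) (w : GolayPt → ℤ) = d2}.ncard := by
  have himg : (fun w => g • w) '' {w : ↥leechLattice | sqNorm (w : GolayPt → ℤ) = N ∧
      dotInt (y1 : GolayPt → ℤ) (w : GolayPt → ℤ) = d1 ∧
      dotInt (y2 : GolayPt → ℤ) (w : GolayPt → ℤ) = d2} =
      {w : ↥leechLattice | sqNorm (w : GolayPt → ℤ) = N ∧
      dotInt ((g • y1 : ↥leechLattice) : GolayPt → ℤ) (w : GolayPt → ℤ) = d1 ∧
      dotInt ((g • y2 : ↥leechLattice) : GolayPt → ℤ) (w : GolayPt → ℤ) = d2} := by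
    ext w'
    constructor
    · rintro ⟨w, ⟨h1, h2, h3⟩, rfl⟩
      exact ⟨by rw [Cfsg.Agent.S1640.hnorm]; exact h1, by rw [Cfsg.Agent.S1640.hdotp]; exact h2,
        by rw [Cfsg.Agent.S1640.hdotp]; exact h3⟩
    · rintro ⟨h1, h2, h3⟩
      refine ⟨g⁻¹ • w', ⟨by rw [Cfsg.Agent.S1640.hnorm]; exact h1, ?_, ?_⟩, smul_inv_smul g w'⟩
      · have e := Cfsg.Agent.S1640.hdotp g y1 (g⁻¹ • w')
        rw [smul_inv_smul] at e
        rw [← e]
        exact h2
      · have e := Cfsg.Agent.S1640.hdotp g y2 (g⁻¹ • w')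
        rw [smul_inv_smul] at e
        rw [← e]
        exact h3
  rw [← himg]
  exact Set.ncard_image_of_injective _ (MulAction.injective g)

/-- The standard shortest vector orthogonal to the reference vector of the counting engine. -/
def cStd : ↥leechLattice :=
  ⟨LeechGen.pp Orb.p0 Orb.p1 (-4), LeechGen.pp_mem Orb.p0 Orb.p1 (-4) (Or.inr rfl)⟩

theorem dot_cStd (w : GolayPt → ℤ) :
    dotInt ((cStd : ↥leechLattice) : GolayPt → ℤ) w = 4 * (w Cnt.q0 - w Cnt.q1) := by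
  show dotInt (LeechGen.pp Orb.p0 Orb.p1 (-4)) w = _
  unfold dotInt LeechGen.pp
  simp only [add_mul, ite_mul, zero_mul]
  rw [Finset.sum_add_distrib, Finset.sum_ite_eq' Finset.univ Orb.p0 (fun k => 4 * w k),
    Finset.sum_ite_eq' Finset.univ Orb.p1 (fun k => -4 * w k), if_pos (Finset.mem_univ _),
    if_pos (Finset.mem_univ _)]
  show 4 * w Cnt.q0 + -4 * w Cnt.q1 = _
  ring

theorem cnt_std2 : {v : ↥leechLattice | sqNorm (v : GolayPt → ℤ) = 48 ∧
    dotInt ((Orb.aStar : ↥leechLattice) : GolayPt → ℤ) (v : GolayPt → ℤ) = 16 ∧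
    dotInt ((cStd : ↥leechLattice) : GolayPt → ℤ) (v : GolayPt → ℤ) = 24}.ncard = 1024 := by
  rw [Cfsg.Agent.S1578.ncard_sub (fun y => sqNorm y = 48 ∧
    dotInt ((Orb.aStar : ↥leechLattice) : GolayPt → ℤ) y = 16 ∧
    dotInt ((cStd : ↥leechLattice) : GolayPt → ℤ) y = 24), ← Tri.count_5m1]
  congr 1
  ext w
  simp only [Set.mem_ofPred_eq, Orb.dot_aStar, dot_cStd]
  constructor
  · rintro ⟨h1, h2, h3, h4⟩
    exact ⟨h1, by exact_mod_cast h2, by omega, by omega⟩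
  · rintro ⟨h1, h2, h3, h4⟩
    exact ⟨h1, by exact_mod_cast h2, by omega, by omega⟩

/-- The stabiliser of a shortest vector is transitive on the shortest vectors orthogonal to
it. -/
theorem orth_trans (z c c' : ↥leechLattice) (hz : sqNorm (z : GolayPt → ℤ) = 32)
    (hc : sqNorm (c : GolayPt → ℤ) = 32) (hc' : sqNorm (c' : GolayPt → ℤ) = 32)
    (hd : dotInt (z : GolayPt → ℤ) (c : GolayPt → ℤ) = 0)
    (hd' : dotInt (z : GolayPt → ℤ) (c' : GolayPt → ℤ) = 0) :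
    ∃ g : ↥Co0, g • z = z ∧ g • c = c' := by
  obtain ⟨h, hh, hhz⟩ := Stv.exists_std z hz
  have hh' : h⁻¹ ∈ Co0 := Co0.inv_mem hh
  have hzs : h⁻¹ z = Stv.vStar := by
    rw [← hhz]
    simp
  have key : ∀ y : ↥leechLattice, sqNorm (y : GolayPt → ℤ) = 32 →
      dotInt (z : GolayPt → ℤ) (y : GolayPt → ℤ) = 0 → Stv.RelV (h⁻¹ y) Stv.wA1 := by
    intro y hy hzy
    apply Tri.all_relV0
    · rw [hh'.2 y]
      exact hy
    · have e := Orb.dot_pres h⁻¹ hh' z y
      rw [hzs, hzy, Stv.dot_vStar] at e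
      omega
  obtain ⟨g0, hg0, g0v, g0c⟩ := (key c hc hd).trans (key c' hc' hd').symm
  refine ⟨⟨h * g0 * h⁻¹, Co0.mul_mem (Co0.mul_mem hh hg0) hh'⟩, ?_, ?_⟩
  · show h (g0 (h⁻¹ z)) = z
    rw [hzs, g0v, hhz]
  · show h (g0 (h⁻¹ c)) = c'
    rw [g0c]
    simp

theorem aStar_norm : sqNorm ((Orb.aStar : ↥leechLattice) : GolayPt → ℤ) = 32 := by
  show sqNorm (LeechGen.pp Orb.p0 Orb.p1 4) = 32
  rw [LeechGen.sq_pp _ _ (by decide)]
  norm_num

theorem cStd_norm : sqNorm ((cStd : ↥leechLattice) : GolayPt → ℤ) = 32 := by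
  show sqNorm (LeechGen.pp Orb.p0 Orb.p1 (-4)) = 32
  rw [LeechGen.sq_pp _ _ (by decide)]
  norm_num

theorem aStar_cStd : dotInt ((Orb.aStar : ↥leechLattice) : GolayPt → ℤ)
    ((cStd : ↥leechLattice) : GolayPt → ℤ) = 0 := by
  rw [Orb.dot_aStar]
  show 4 * (LeechGen.pp Orb.p0 Orb.p1 (-4) Cnt.q0 + LeechGen.pp Orb.p0 Orb.p1 (-4) Cnt.q1) = 0
  decide

theorem cnt_orth (z c : ↥leechLattice) (hz : sqNorm (z : GolayPt → ℤ) = 32)
    (hc : sqNorm (c : GolayPt → ℤ) = 32)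
    (hzc : dotInt (z : GolayPt → ℤ) (c : GolayPt → ℤ) = 0) :
    {v : ↥leechLattice | sqNorm (v : GolayPt → ℤ) = 48 ∧
      dotInt (z : GolayPt → ℤ) (v : GolayPt → ℤ) = 16 ∧
      dotInt (c : GolayPt → ℤ) (v : GolayPt → ℤ) = 24}.ncard = 1024 := by
  obtain ⟨g1, hg1⟩ := Cfsg.Agent.S0400.result Orb.aStar z aStar_norm hz
  have hd1 : dotInt (z : GolayPt → ℤ) ((g1 • cStd : ↥leechLattice) : GolayPt → ℤ) = 0 := by
    rw [← hg1, Cfsg.Agent.S1640.hdotp]
    exact aStar_cStd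
  obtain ⟨g2, hg2z, hg2c⟩ := orth_trans z (g1 • cStd) c hz
    (by rw [Cfsg.Agent.S1640.hnorm]; exact cStd_norm) hc hd1 hzc
  have e1 : (g2 * g1) • Orb.aStar = z := by
    rw [mul_smul, hg1, hg2z]
  have e2 : (g2 * g1) • cStd = c := by
    rw [mul_smul, hg2c]
  rw [← e1, ← e2, cnt_smul2]
  exact cnt_std2

theorem card0 (z : ↥leechLattice) (hz : sqNorm (z : GolayPt → ℤ) = 32) :
    {c : ↥leechLattice | sqNorm (c : GolayPt → ℤ) = 32 ∧
      dotInt (z : GolayPt → ℤ) (c : GolayPt → ℤ) = 0}.ncard = 93150 := by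
  rw [Cfsg.Agent.S1578.ncard_sub (fun x => sqNorm x = 32 ∧ dotInt (z : GolayPt → ℤ) x = 0)]
  exact (Cfsg.Agent.S1573.result z.1 z.2 hz).2.2

theorem cnt_pos (z : ↥leechLattice) (hz : sqNorm (z : GolayPt → ℤ) = 32) :
    {v : ↥leechLattice | sqNorm (v : GolayPt → ℤ) = 48 ∧
      dotInt (z : GolayPt → ℤ) (v : GolayPt → ℤ) = 16}.ncard = 953856 := by
  rw [← Cfsg.Agent.S1640.cnt_min z hz]
  have himg : (fun v : ↥leechLattice => -v) '' {v : ↥leechLattice |
      sqNorm (v : GolayPt → ℤ) = 48 ∧ dotInt (z : GolayPt → ℤ) (v : GolayPt → ℤ) = -16} =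
      {v : ↥leechLattice | sqNorm (v : GolayPt → ℤ) = 48 ∧
        dotInt (z : GolayPt → ℤ) (v : GolayPt → ℤ) = 16} := by
    ext v
    constructor
    · rintro ⟨w, ⟨h1, h2⟩, rfl⟩
      refine ⟨?_, ?_⟩
      · rw [AddSubgroup.coe_neg, sqNorm_neg]
        exact h1
      · rw [AddSubgroup.coe_neg, Cfsg.Agent.S1640.dot_neg_right, h2]
        norm_num
    · rintro ⟨h1, h2⟩
      refine ⟨-v, ⟨?_, ?_⟩, neg_neg v⟩
      · rw [AddSubgroup.coe_neg, sqNorm_neg]
        exact h1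
      · rw [AddSubgroup.coe_neg, Cfsg.Agent.S1640.dot_neg_right, h2]
  rw [← himg]
  exact Set.ncard_image_of_injective _ neg_injective

theorem pair_full (z z' v v' : ↥leechLattice) (hz : sqNorm (z : GolayPt → ℤ) = 32)
    (hz' : sqNorm (z' : GolayPt → ℤ) = 32) (hv : sqNorm (v : GolayPt → ℤ) = 48)
    (hv' : sqNorm (v' : GolayPt → ℤ) = 48)
    (hd : dotInt (z : GolayPt → ℤ) (v : GolayPt → ℤ) = 16)
    (hd' : dotInt (z' : GolayPt → ℤ) (v' : GolayPt → ℤ) = 16) :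
    ∃ g : ↥Co0, g • z = z' ∧ g • v = v' := by
  obtain ⟨g1, hg1⟩ := Cfsg.Agent.S0400.result z z' hz hz'
  have h1 : dotInt (z' : GolayPt → ℤ) ((g1 • v : ↥leechLattice) : GolayPt → ℤ) = 16 := by
    rw [← hg1, Cfsg.Agent.S1640.hdotp]
    exact hd
  obtain ⟨k, hk, hkz, hkv⟩ := Tri.pair_trans z' (g1 • v) v' hz'
    (by rw [Cfsg.Agent.S1640.hnorm]; exact hv) hv' h1 hd'
  refine ⟨⟨k, hk⟩ * g1, ?_, ?_⟩
  · rw [mul_smul, hg1]
    exact hkz
  · rw [mul_smul]
    exact hkv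

/-- A shortest vector `z` and a vector `v` of sum of squares 48 with product 16: exactly 100
shortest vectors are orthogonal to `z` and have product 24 with `v`. -/
theorem cnt100 (z v : ↥leechLattice) (hz : sqNorm (z : GolayPt → ℤ) = 32)
    (hv : sqNorm (v : GolayPt → ℤ) = 48)
    (hzv : dotInt (z : GolayPt → ℤ) (v : GolayPt → ℤ) = 16) :
    {c : ↥leechLattice | sqNorm (c : GolayPt → ℤ) = 32 ∧
      dotInt (z : GolayPt → ℤ) (c : GolayPt → ℤ) = 0 ∧
      dotInt (v : GolayPt → ℤ) (c : GolayPt → ℤ) = 24}.ncard = 100 := by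
  classical
  have hfin2 : {v : ↥leechLattice | sqNorm (v : GolayPt → ℤ) = 32}.Finite :=
    Set.finite_of_ncard_ne_zero (by rw [Cfsg.Agent.S1578.card2]; norm_num)
  have hfin3 : {v : ↥leechLattice | sqNorm (v : GolayPt → ℤ) = 48}.Finite :=
    Set.finite_of_ncard_ne_zero (by rw [Cfsg.Agent.S1578.card3]; norm_num)
  obtain ⟨F2, hF2⟩ : ∃ F2 : Finset ↥leechLattice,
      ∀ v, v ∈ F2 ↔ sqNorm (v : GolayPt → ℤ) = 32 :=
    ⟨hfin2.toFinset, fun v => by rw [Set.Finite.mem_toFinset]; rfl⟩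
  obtain ⟨F3, hF3⟩ : ∃ F3 : Finset ↥leechLattice,
      ∀ v, v ∈ F3 ↔ sqNorm (v : GolayPt → ℤ) = 48 :=
    ⟨hfin3.toFinset, fun v => by rw [Set.Finite.mem_toFinset]; rfl⟩
  have hF2c : F2.card = 196560 := by
    rw [← Cfsg.Agent.S1578.card2, ← Set.ncard_coe_finset]
    congr 1
    ext v
    exact hF2 v
  obtain ⟨Q, hQ⟩ : ∃ Q : Finset (↥leechLattice × ↥leechLattice × ↥leechLattice),
      Q = (F2 ×ˢ (F2 ×ˢ F3)).filter (fun q =>
        dotInt (q.1 : GolayPt → ℤ) (q.2.1 : GolayPt → ℤ) = 0 ∧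
        dotInt (q.1 : GolayPt → ℤ) (q.2.2 : GolayPt → ℤ) = 16 ∧
        dotInt (q.2.2 : GolayPt → ℤ) (q.2.1 : GolayPt → ℤ) = 24) := ⟨_, rfl⟩
  have hQmem : ∀ q : ↥leechLattice × ↥leechLattice × ↥leechLattice, q ∈ Q ↔
      sqNorm (q.1 : GolayPt → ℤ) = 32 ∧ sqNorm (q.2.1 : GolayPt → ℤ) = 32 ∧
      sqNorm (q.2.2 : GolayPt → ℤ) = 48 ∧
      dotInt (q.1 : GolayPt → ℤ) (q.2.1 : GolayPt → ℤ) = 0 ∧
      dotInt (q.1 : GolayPt → ℤ) (q.2.2 : GolayPt → ℤ) = 16 ∧
      dotInt (q.2.2 : GolayPt → ℤ) (q.2.1 : GolayPt → ℤ) = 24 := by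
    intro q
    rw [hQ, Finset.mem_filter, Finset.mem_product, Finset.mem_product, hF2, hF2, hF3]
    tauto
  obtain ⟨O, hO⟩ : ∃ O : Finset (↥leechLattice × ↥leechLattice),
      O = (F2 ×ˢ F2).filter (fun p =>
        dotInt (p.1 : GolayPt → ℤ) (p.2 : GolayPt → ℤ) = 0) := ⟨_, rfl⟩
  have hOmem : ∀ p : ↥leechLattice × ↥leechLattice, p ∈ O ↔
      sqNorm (p.1 : GolayPt → ℤ) = 32 ∧ sqNorm (p.2 : GolayPt → ℤ) = 32 ∧
      dotInt (p.1 : GolayPt → ℤ) (p.2 : GolayPt → ℤ) = 0 := by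
    intro p
    rw [hO, Finset.mem_filter, Finset.mem_product, hF2, hF2, and_assoc]
  obtain ⟨R, hR⟩ : ∃ R : Finset (↥leechLattice × ↥leechLattice),
      R = (F2 ×ˢ F3).filter (fun p =>
        dotInt (p.1 : GolayPt → ℤ) (p.2 : GolayPt → ℤ) = 16) := ⟨_, rfl⟩
  have hRmem : ∀ p : ↥leechLattice × ↥leechLattice, p ∈ R ↔
      sqNorm (p.1 : GolayPt → ℤ) = 32 ∧ sqNorm (p.2 : GolayPt → ℤ) = 48 ∧
      dotInt (p.1 : GolayPt → ℤ) (p.2 : GolayPt → ℤ) = 16 := by
    intro p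
    rw [hR, Finset.mem_filter, Finset.mem_product, hF2, hF3, and_assoc]
  have hOc : O.card = 196560 * 93150 := by
    have hmaps : Set.MapsTo (Prod.fst : ↥leechLattice × ↥leechLattice → ↥leechLattice)
        (O : Set (↥leechLattice × ↥leechLattice)) (F2 : Set ↥leechLattice) := by
      intro p hp
      rw [Finset.mem_coe, hF2]
      exact ((hOmem p).1 (Finset.mem_coe.1 hp)).1
    rw [Finset.card_eq_sum_card_fiberwise hmaps]
    have hfib : ∀ x ∈ F2, (O.filter (fun p => p.1 = x)).card = 93150 := by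
      intro x hx
      rw [hF2] at hx
      have hcard : (O.filter (fun p => p.1 = x)).card
          = (F2.filter (fun c : ↥leechLattice =>
              dotInt (x : GolayPt → ℤ) (c : GolayPt → ℤ) = 0)).card := by
        refine Finset.card_nbij' (fun p => p.2) (fun c => (x, c)) ?_ ?_ ?_ ?_
        · intro p hp
          rw [Finset.mem_coe, Finset.mem_filter, hOmem] at hp
          rw [Finset.mem_coe, Finset.mem_filter, hF2]
          obtain ⟨⟨h1, h2, h3⟩, h4⟩ := hp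
          rw [h4] at h3
          exact ⟨h2, h3⟩
        · intro c hc
          rw [Finset.mem_coe, Finset.mem_filter, hF2] at hc
          rw [Finset.mem_coe, Finset.mem_filter, hOmem]
          exact ⟨⟨hx, hc.1, hc.2⟩, rfl⟩
        · intro p hp
          rw [Finset.mem_coe, Finset.mem_filter] at hp
          exact Prod.ext hp.2.symm rfl
        · intro c _
          rfl
      rw [hcard, ← card0 x hx, ← Set.ncard_coe_finset]
      congr 1
      ext c
      simp only [Set.mem_ofPred_eq, Finset.coe_filter, hF2]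
    rw [Finset.sum_congr rfl hfib, Finset.sum_const, hF2c, smul_eq_mul]
  have hRc : R.card = 196560 * 953856 := by
    have hmaps : Set.MapsTo (Prod.fst : ↥leechLattice × ↥leechLattice → ↥leechLattice)
        (R : Set (↥leechLattice × ↥leechLattice)) (F2 : Set ↥leechLattice) := by
      intro p hp
      rw [Finset.mem_coe, hF2]
      exact ((hRmem p).1 (Finset.mem_coe.1 hp)).1
    rw [Finset.card_eq_sum_card_fiberwise hmaps]
    have hfib : ∀ x ∈ F2, (R.filter (fun p => p.1 = x)).card = 953856 := by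
      intro x hx
      rw [hF2] at hx
      have hcard : (R.filter (fun p => p.1 = x)).card
          = (F3.filter (fun w : ↥leechLattice =>
              dotInt (x : GolayPt → ℤ) (w : GolayPt → ℤ) = 16)).card := by
        refine Finset.card_nbij' (fun p => p.2) (fun w => (x, w)) ?_ ?_ ?_ ?_
        · intro p hp
          rw [Finset.mem_coe, Finset.mem_filter, hRmem] at hp
          rw [Finset.mem_coe, Finset.mem_filter, hF3]
          obtain ⟨⟨h1, h2, h3⟩, h4⟩ := hp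
          rw [h4] at h3
          exact ⟨h2, h3⟩
        · intro w hw
          rw [Finset.mem_coe, Finset.mem_filter, hF3] at hw
          rw [Finset.mem_coe, Finset.mem_filter, hRmem]
          exact ⟨⟨hx, hw.1, hw.2⟩, rfl⟩
        · intro p hp
          rw [Finset.mem_coe, Finset.mem_filter] at hp
          exact Prod.ext hp.2.symm rfl
        · intro w _
          rfl
      rw [hcard, ← cnt_pos x hx, ← Set.ncard_coe_finset]
      congr 1
      ext w
      simp only [Set.mem_ofPred_eq, Finset.coe_filter, hF3]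
    rw [Finset.sum_congr rfl hfib, Finset.sum_const, hF2c, smul_eq_mul]
  have hQa : Q.card = O.card * 1024 := by
    have hmaps : Set.MapsTo
        (fun q : ↥leechLattice × ↥leechLattice × ↥leechLattice => (q.1, q.2.1))
        (Q : Set (↥leechLattice × ↥leechLattice × ↥leechLattice))
        (O : Set (↥leechLattice × ↥leechLattice)) := by
      intro q hq
      rw [Finset.mem_coe, hOmem]
      obtain ⟨h1, h2, h3, h4, h5, h6⟩ := (hQmem q).1 (Finset.mem_coe.1 hq)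
      exact ⟨h1, h2, h4⟩
    rw [Finset.card_eq_sum_card_fiberwise hmaps]
    have hfib : ∀ p ∈ O, (Q.filter (fun q => (q.1, q.2.1) = p)).card = 1024 := by
      rintro ⟨pz, pc⟩ hp
      rw [hOmem] at hp
      have hcard : (Q.filter (fun q => (q.1, q.2.1) = (pz, pc))).card
          = (F3.filter (fun w : ↥leechLattice =>
              dotInt (pz : GolayPt → ℤ) (w : GolayPt → ℤ) = 16 ∧
              dotInt (pc : GolayPt → ℤ) (w : GolayPt → ℤ) = 24)).card := by
        refine Finset.card_nbij' (fun q => q.2.2) (fun w => (pz, pc, w)) ?_ ?_ ?_ ?_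
        · intro q hq
          rw [Finset.mem_coe, Finset.mem_filter, hQmem, Prod.mk.injEq] at hq
          rw [Finset.mem_coe, Finset.mem_filter, hF3]
          obtain ⟨⟨h1, h2, h3, h4, h5, h6⟩, h7, h8⟩ := hq
          rw [h7] at h5
          rw [h8] at h6
          exact ⟨h3, h5, by rw [LeechCross.dot_comm]; exact h6⟩
        · intro w hw
          rw [Finset.mem_coe, Finset.mem_filter, hF3] at hw
          rw [Finset.mem_coe, Finset.mem_filter, hQmem]
          exact ⟨⟨hp.1, hp.2.1, hw.1, hp.2.2, hw.2.1,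
            by rw [LeechCross.dot_comm]; exact hw.2.2⟩, rfl⟩
        · intro q hq
          rw [Finset.mem_coe, Finset.mem_filter, Prod.mk.injEq] at hq
          obtain ⟨-, h7, h8⟩ := hq
          exact Prod.ext h7.symm (Prod.ext h8.symm rfl)
        · intro w _
          rfl
      rw [hcard, ← cnt_orth pz pc hp.1 hp.2.1 hp.2.2, ← Set.ncard_coe_finset]
      congr 1
      ext w
      simp only [Set.mem_ofPred_eq, Finset.coe_filter, hF3]
    rw [Finset.sum_congr rfl hfib, Finset.sum_const, smul_eq_mul]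
  have hQb : Q.card = R.card * {c : ↥leechLattice | sqNorm (c : GolayPt → ℤ) = 32 ∧
      dotInt (z : GolayPt → ℤ) (c : GolayPt → ℤ) = 0 ∧
      dotInt (v : GolayPt → ℤ) (c : GolayPt → ℤ) = 24}.ncard := by
    have hmaps : Set.MapsTo
        (fun q : ↥leechLattice × ↥leechLattice × ↥leechLattice => (q.1, q.2.2))
        (Q : Set (↥leechLattice × ↥leechLattice × ↥leechLattice))
        (R : Set (↥leechLattice × ↥leechLattice)) := by
      intro q hq
      rw [Finset.mem_coe, hRmem]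
      obtain ⟨h1, h2, h3, h4, h5, h6⟩ := (hQmem q).1 (Finset.mem_coe.1 hq)
      exact ⟨h1, h3, h5⟩
    rw [Finset.card_eq_sum_card_fiberwise hmaps]
    have hfib : ∀ p ∈ R, (Q.filter (fun q => (q.1, q.2.2) = p)).card =
        {c : ↥leechLattice | sqNorm (c : GolayPt → ℤ) = 32 ∧
          dotInt (z : GolayPt → ℤ) (c : GolayPt → ℤ) = 0 ∧
          dotInt (v : GolayPt → ℤ) (c : GolayPt → ℤ) = 24}.ncard := by
      rintro ⟨pz, pv⟩ hp
      rw [hRmem] at hp
      obtain ⟨g, hgz, hgv⟩ := pair_full z pz v pv hz hp.1 hv hp.2.1 hzv hp.2.2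
      rw [← cnt_smul2 32 0 24 g z v, hgz, hgv]
      have hcard : (Q.filter (fun q => (q.1, q.2.2) = (pz, pv))).card
          = (F2.filter (fun c : ↥leechLattice =>
              dotInt (pz : GolayPt → ℤ) (c : GolayPt → ℤ) = 0 ∧
              dotInt (pv : GolayPt → ℤ) (c : GolayPt → ℤ) = 24)).card := by
        refine Finset.card_nbij' (fun q => q.2.1) (fun c => (pz, c, pv)) ?_ ?_ ?_ ?_
        · intro q hq
          rw [Finset.mem_coe, Finset.mem_filter, hQmem, Prod.mk.injEq] at hq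
          rw [Finset.mem_coe, Finset.mem_filter, hF2]
          obtain ⟨⟨h1, h2, h3, h4, h5, h6⟩, h7, h8⟩ := hq
          rw [h7] at h4
          rw [h8] at h6
          exact ⟨h2, h4, h6⟩
        · intro c hc
          rw [Finset.mem_coe, Finset.mem_filter, hF2] at hc
          rw [Finset.mem_coe, Finset.mem_filter, hQmem]
          exact ⟨⟨hp.1, hc.1, hp.2.1, hc.2.1, hp.2.2, hc.2.2⟩, rfl⟩
        · intro q hq
          rw [Finset.mem_coe, Finset.mem_filter, Prod.mk.injEq] at hq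
          obtain ⟨-, h7, h8⟩ := hq
          exact Prod.ext h7.symm (Prod.ext rfl h8.symm)
        · intro c _
          rfl
      rw [hcard, ← Set.ncard_coe_finset]
      congr 1
      ext c
      simp only [Set.mem_ofPred_eq, Finset.coe_filter, hF2]
    rw [Finset.sum_congr rfl hfib, Finset.sum_const, smul_eq_mul]
  rw [hOc] at hQa
  rw [hRc] at hQb
  omega

/-- The Higman–Sims configuration: for two vectors of customary norm 6 with inner product −4, exactly 100 minimal vectors have customary inner products 3 and −3 with them, and the joint stabiliser permutes these transitively. -/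
theorem result (v w : ↥Cfsg.leechLattice) (hv : Cfsg.sqNorm (v : Cfsg.GolayPt → ℤ) = 48) (hw : Cfsg.sqNorm (w : Cfsg.GolayPt → ℤ) = 48) (hvw : Cfsg.dotInt (v : Cfsg.GolayPt → ℤ) (w : Cfsg.GolayPt → ℤ) = -32) : {x : ↥Cfsg.leechLattice | Cfsg.sqNorm (x : Cfsg.GolayPt → ℤ) = 32 ∧ Cfsg.dotInt (v : Cfsg.GolayPt → ℤ) (x : Cfsg.GolayPt → ℤ) = 24 ∧ Cfsg.dotInt (w : Cfsg.GolayPt → ℤ) (x : Cfsg.GolayPt → ℤ) = -24}.ncard = 100 ∧ ∀ x ∈ {x : ↥Cfsg.leechLattice | Cfsg.sqNorm (x : Cfsg.GolayPt → ℤ) = 32 ∧ Cfsg.dotInt (v : Cfsg.GolayPt → ℤ) (x : Cfsg.GolayPt → ℤ) = 24 ∧ Cfsg.dotInt (w : Cfsg.GolayPt → ℤ) (x : Cfsg.GolayPt → ℤ) = -24}, ∀ x' ∈ {x : ↥Cfsg.leechLattice | Cfsg.sqNorm (x : Cfsg.GolayPt → ℤ) = 32 ∧ Cfsg.dotInt (v : Cfsg.GolayPt → ℤ) (x : Cfsg.GolayPt → ℤ) = 24 ∧ Cfsg.dotInt (w : Cfsg.GolayPt → ℤ) (x : Cfsg.GolayPt → ℤ) = -24}, ∃ g : ↥Cfsg.Co0, g • v = v ∧ g • w = w ∧ g • x = x' := by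
  have hz : sqNorm ((v + w : ↥leechLattice) : GolayPt → ℤ) = 32 := by
    rw [AddSubgroup.coe_add, Cfsg.Agent.Lib.Helper28.sqNorm_add, hv, hw, hvw]
    norm_num
  have hzv : dotInt ((v + w : ↥leechLattice) : GolayPt → ℤ) (v : GolayPt → ℤ) = 16 := by
    have h := Cfsg.Agent.Lib.Helper28.sqNorm_sub ((v + w : ↥leechLattice) : GolayPt → ℤ)
      (v : GolayPt → ℤ)
    have e : ((v + w : ↥leechLattice) : GolayPt → ℤ) - (v : GolayPt → ℤ) = (w : GolayPt → ℤ) := by
      rw [AddSubgroup.coe_add]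
      abel
    rw [e, hz, hv, hw] at h
    omega
  have hset : {x : ↥leechLattice | sqNorm (x : GolayPt → ℤ) = 32 ∧
      dotInt (v : GolayPt → ℤ) (x : GolayPt → ℤ) = 24 ∧
      dotInt (w : GolayPt → ℤ) (x : GolayPt → ℤ) = -24} =
      {c : ↥leechLattice | sqNorm (c : GolayPt → ℤ) = 32 ∧
      dotInt ((v + w : ↥leechLattice) : GolayPt → ℤ) (c : GolayPt → ℤ) = 0 ∧
      dotInt (v : GolayPt → ℤ) (c : GolayPt → ℤ) = 24} := by
    ext x
    simp only [Set.mem_ofPred_eq, AddSubgroup.coe_add, dot_add_left]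
    constructor
    · rintro ⟨h1, h2, h3⟩
      exact ⟨h1, by omega, h2⟩
    · rintro ⟨h1, h2, h3⟩
      exact ⟨h1, h3, by omega⟩
  rw [hset]
  refine ⟨cnt100 (v + w) v hz hv hzv, ?_⟩
  rintro x ⟨hx, hzx, hvx⟩ x' ⟨hx', hzx', hvx'⟩
  obtain ⟨g, hg, hgz, hgv, hgx⟩ := Cfsg.Agent.Lib.Helper28.Tri.triple_trans (v + w) v x x' hz hv
    hx hx' hzv hzx hzx' hvx hvx'
  refine ⟨⟨g, hg⟩, hgv, ?_, hgx⟩
  show g w = w
  have hadd := hg.1 v w
  rw [hgz, hgv] at hadd
  exact (add_left_cancel hadd).symm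
end Cfsg.Agent.S1583
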