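import Cfsg.Statements.S1584
import Cfsg.Agent.S1583
import Cfsg.Agent.S0363
import Cfsg.Agent.Lib.Helper4.Steiner
import Cfsg.Agent.Lib.Helper4.Leech

set_option autoImplicit false
open Cfsg

namespace Cfsg.Agent.S1584

open Cfsg.Agent.Lib.Helper28 Cfsg.Agent.Lib.Helper4
open Cfsg.Agent.Lib.Helper4.Stv
open scoped Pointwise

/-- The vector with coordinate `c` at `p` and 1 elsewhere. -/
def oddF (p : GolayPt) (c : ℤ) : GolayPt → ℤ := fun i => if i = p then c else 1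

theorem sum_oddF (p : GolayPt) (c : ℤ) : ∑ i, oddF p c i = c + 23 := by
  have e : ∀ i, oddF p c i = 1 + (if i = p then (c - 1) else 0) := by
    intro i
    unfold oddF
    split_ifs <;> ring
  simp only [e]
  rw [Finset.sum_add_distrib, Finset.sum_ite_eq' Finset.univ p (fun _ => c - 1),
    if_pos (Finset.mem_univ _), Finset.sum_const, Finset.card_univ, card_golayPt]
  norm_num
  ring

theorem sq_oddF (p : GolayPt) (c : ℤ) : sqNorm (oddF p c) = c ^ 2 + 23 := by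
  unfold sqNorm
  have e : ∀ i, oddF p c i ^ 2 = 1 + (if i = p then (c ^ 2 - 1) else 0) := by
    intro i
    unfold oddF
    split_ifs <;> ring
  simp only [e]
  rw [Finset.sum_add_distrib, Finset.sum_ite_eq' Finset.univ p (fun _ => c ^ 2 - 1),
    if_pos (Finset.mem_univ _), Finset.sum_const, Finset.card_univ, card_golayPt]
  norm_num
  ring

theorem dot_oddF (p : GolayPt) (c : ℤ) (w : GolayPt → ℤ) :
    dotInt (oddF p c) w = (∑ i, w i) + (c - 1) * w p := by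
  unfold dotInt
  have e : ∀ i, oddF p c i * w i = w i + (if i = p then (c - 1) * w i else 0) := by
    intro i
    unfold oddF
    split_ifs <;> ring
  simp only [e]
  rw [Finset.sum_add_distrib, Finset.sum_ite_eq' Finset.univ p (fun k => (c - 1) * w k),
    if_pos (Finset.mem_univ _)]

theorem oddF_mem (p : GolayPt) (t : ℤ) (ht : t % 2 = 1) :
    oddF p (1 + 4 * t) ∈ leechLattice := by
  apply Leech.mem_leech_of_struct _ 1 (fun i => if i = p then 2 * t else 0)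
  · intro i
    unfold oddF
    split_ifs <;> ring
  · have h0 : zword (fun i => if i = p then 2 * t else 0) = 0 := by
      funext i
      rw [Pi.zero_apply, Leech.zword_eq_zero]
      split_ifs
      · exact dvd_mul_right 2 t
      · exact dvd_zero 2
    rw [h0]
    exact Submodule.zero_mem _
  · rw [sum_oddF, Int.modEq_iff_dvd]
    omega

theorem oddF_mem5 (p : GolayPt) : oddF p 5 ∈ leechLattice := by
  have h := oddF_mem p 1 (by norm_num)
  norm_num at h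
  exact h

theorem oddF_mem3 (p : GolayPt) : oddF p (-3) ∈ leechLattice := by
  have h := oddF_mem p (-1) (by norm_num)
  norm_num at h
  exact h

/-- Twice the indicator of a set of points. -/
def octF (o : Finset GolayPt) : GolayPt → ℤ := fun i => if i ∈ o then 2 else 0

theorem sum_octF (o : Finset GolayPt) : ∑ i, octF o i = 2 * (o.card : ℤ) := by
  unfold octF
  rw [Finset.sum_ite_mem, Finset.univ_inter, Finset.sum_const, nsmul_eq_mul]
  ring

theorem sq_octF (o : Finset GolayPt) : sqNorm (octF o) = 4 * (o.card : ℤ) := by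
  unfold sqNorm
  have e : ∀ i, octF o i ^ 2 = if i ∈ o then 4 else 0 := by
    intro i
    unfold octF
    split_ifs <;> norm_num
  simp only [e]
  rw [Finset.sum_ite_mem, Finset.univ_inter, Finset.sum_const, nsmul_eq_mul]
  ring

theorem octF_mem (o : Finset GolayPt) (ho : o ∈ octads) : octF o ∈ leechLattice := by
  obtain ⟨⟨c, hc, rfl⟩, h8⟩ := ho
  apply Leech.mem_leech_of_struct _ 0 (fun i => if i ∈ support₂ c then 1 else 0)
  · intro i
    unfold octF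
    split_ifs <;> ring
  · have h0 : zword (fun i => if i ∈ support₂ c then (1 : ℤ) else 0) = c := by
      funext i
      unfold zword
      show (((if i ∈ support₂ c then (1 : ℤ) else 0 : ℤ)) : ZMod 2) = c i
      by_cases h : i ∈ support₂ c
      · rw [if_pos h]
        rw [mem_support₂] at h
        rw [h]
        norm_num
      · rw [if_neg h]
        rw [mem_support₂] at h
        have h1 : c i = 0 := by
          revert h
          generalize c i = t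
          revert t
          decide
        rw [h1]
        norm_num
    rw [h0]
    exact hc
  · rw [sum_octF, h8]
    decide

theorem octF_inj : Function.Injective octF := by
  intro o o' h
  ext i
  have hi := congrFun h i
  unfold octF at hi
  constructor
  · intro h1
    by_contra h2
    rw [if_pos h1, if_neg h2] at hi
    norm_num at hi
  · intro h1
    by_contra h2
    rw [if_neg h2, if_pos h1] at hi
    norm_num at hi

theorem oddF_inj (c : ℤ) (hc : c ≠ 1) : Function.Injective (fun p => oddF p c) := by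
  intro p q h
  have hi := congrFun h p
  simp only [oddF, if_true] at hi
  by_contra hne
  rw [if_neg hne] at hi
  exact hc hi

/-- The standard vector of sum of squares 48. -/
def v0 : leechLattice := ⟨oddF a 5, oddF_mem5 a⟩

theorem v0_norm : sqNorm ((v0 : leechLattice) : GolayPt → ℤ) = 48 := by
  show sqNorm (oddF a 5) = 48
  rw [sq_oddF]
  norm_num

theorem dot_v0 (w : GolayPt → ℤ) :
    dotInt ((v0 : leechLattice) : GolayPt → ℤ) w = (∑ i, w i) + 4 * w a := by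
  show dotInt (oddF a 5) w = _
  rw [dot_oddF]
  norm_num

theorem wA1_norm : sqNorm ((wA1 : leechLattice) : GolayPt → ℤ) = 32 := by
  show sqNorm (LeechGen.pp a b (-4)) = 32
  rw [LeechGen.sq_pp a b ab]
  norm_num

theorem wA1_v0 : dotInt ((wA1 : leechLattice) : GolayPt → ℤ)
    ((v0 : leechLattice) : GolayPt → ℤ) = 16 := by
  rw [Tri.dot_wA1]
  show 4 * (oddF a 5 a - oddF a 5 b) = 16
  decide

/-- Membership in the standard set of 100, on coordinates. -/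
def InS (y : GolayPt → ℤ) : Prop :=
  sqNorm y = 32 ∧ y a = y b ∧ (∑ i, y i) + 4 * y a = 24

theorem inS_iff (y : GolayPt → ℤ) :
    (sqNorm y = 32 ∧ dotInt ((wA1 : leechLattice) : GolayPt → ℤ) y = 0 ∧
      dotInt ((v0 : leechLattice) : GolayPt → ℤ) y = 24) ↔ InS y := by
  rw [Tri.dot_wA1, dot_v0]
  unfold InS
  constructor
  · rintro ⟨h1, h2, h3⟩
    exact ⟨h1, by omega, h3⟩
  · rintro ⟨h1, h2, h3⟩
    exact ⟨h1, by omega, h3⟩

theorem vStar_vals : ((vStar : leechLattice) : GolayPt → ℤ) a = 4 ∧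
    ((vStar : leechLattice) : GolayPt → ℤ) b = 4 := by
  constructor
  · show LeechGen.pp a b 4 a = 4
    decide
  · show LeechGen.pp a b 4 b = 4
    decide

theorem inS_vStar : InS ((vStar : leechLattice) : GolayPt → ℤ) := by
  refine ⟨vStar_norm, by rw [vStar_vals.1, vStar_vals.2], ?_⟩
  rw [vStar_vals.1]
  show (∑ i, LeechGen.pp a b 4 i) + 4 * 4 = 24
  rw [LeechGen.sum_pp]
  norm_num

theorem inS_odd (i : GolayPt) (hia : i ≠ a) (hib : i ≠ b) :
    InS (oddF i (-3)) ∧ oddF i (-3) a + oddF i (-3) b = 2 := by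
  have e1 : oddF i (-3) a = 1 := by
    unfold oddF
    rw [if_neg (Ne.symm hia)]
  have e2 : oddF i (-3) b = 1 := by
    unfold oddF
    rw [if_neg (Ne.symm hib)]
  refine ⟨⟨?_, ?_, ?_⟩, ?_⟩
  · rw [sq_oddF]
    norm_num
  · rw [e1, e2]
  · rw [sum_oddF, e1]
    norm_num
  · rw [e1, e2]
    norm_num

theorem inS_oct (o : Finset GolayPt) (ho : o ∈ octads) (ha : a ∈ o) (hb : b ∈ o) :
    InS (octF o) ∧ octF o a + octF o b = 4 := by
  have e1 : octF o a = 2 := by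
    unfold octF
    rw [if_pos ha]
  have e2 : octF o b = 2 := by
    unfold octF
    rw [if_pos hb]
  refine ⟨⟨?_, ?_, ?_⟩, ?_⟩
  · rw [sq_octF, ho.2]
    norm_num
  · rw [e1, e2]
  · rw [sum_octF, ho.2, e1]
    norm_num
  · rw [e1, e2]
    norm_num

def S100 : Set (GolayPt → ℤ) := {y | y ∈ leechLattice ∧ InS y}

def SA : Set (GolayPt → ℤ) := {y | y ∈ leechLattice ∧ InS y ∧ y a + y b = 2}

def SB : Set (GolayPt → ℤ) := {y | y ∈ leechLattice ∧ InS y ∧
  y ≠ ((vStar : leechLattice) : GolayPt → ℤ) ∧ y a + y b ≠ 2}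

theorem cntS : S100.ncard = 100 := by
  have h := Cfsg.Agent.S1583.cnt100 wA1 v0 wA1_norm v0_norm wA1_v0
  rw [Cfsg.Agent.S1578.ncard_sub (fun y => sqNorm y = 32 ∧
    dotInt ((wA1 : leechLattice) : GolayPt → ℤ) y = 0 ∧
    dotInt ((v0 : leechLattice) : GolayPt → ℤ) y = 24)] at h
  rw [← h]
  congr 1
  ext y
  constructor
  · rintro ⟨h1, h2⟩
    exact ⟨h1, (inS_iff y).2 h2⟩
  · rintro ⟨h1, h2⟩
    exact ⟨h1, (inS_iff y).1 h2⟩

theorem exists_F22 : ∃ F : Finset GolayPt, F.card = 22 ∧ ∀ i, i ∈ F ↔ (i ≠ a ∧ i ≠ b) := by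
  refine ⟨(Finset.univ.erase a).erase b, ?_, ?_⟩
  · rw [Finset.card_erase_of_mem (Finset.mem_erase.2 ⟨ab.symm, Finset.mem_univ _⟩),
      Finset.card_erase_of_mem (Finset.mem_univ _), Finset.card_univ, card_golayPt]
  · intro i
    rw [Finset.mem_erase, Finset.mem_erase]
    constructor
    · rintro ⟨h1, h2, -⟩
      exact ⟨h2, h1⟩
    · rintro ⟨h1, h2⟩
      exact ⟨h2, h1, Finset.mem_univ _⟩

theorem exists_O77 : ∃ F : Finset (Finset GolayPt), F.card = 77 ∧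
    ∀ o, o ∈ F ↔ (o ∈ octads ∧ a ∈ o ∧ b ∈ o) := by
  have h77 := (Steiner.s5824_deg card_golayPt Cfsg.Agent.S0363.result
    ({a, b} : Finset GolayPt)).2.2.1 (Finset.card_pair ab)
  unfold Steiner.deg at h77
  refine ⟨_, h77, ?_⟩
  intro o
  rw [Finset.mem_filter, Steiner.mem_blocks, Finset.insert_subset_iff,
    Finset.singleton_subset_iff]

theorem std_main : ∃ (I22 : Finset (GolayPt → ℤ)) (I77 : Finset (GolayPt → ℤ)),
    I22.card = 22 ∧ I77.card = 77 ∧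
    (∀ y, y ∈ I22 ↔ ∃ i, i ≠ a ∧ i ≠ b ∧ oddF i (-3) = y) ∧
    (∀ y, y ∈ I77 ↔ ∃ o, o ∈ octads ∧ a ∈ o ∧ b ∈ o ∧ octF o = y) ∧
    SA = (I22 : Set (GolayPt → ℤ)) ∧ SB = (I77 : Set (GolayPt → ℤ)) ∧
    SA.ncard = 22 ∧ SB.ncard = 77 := by
  obtain ⟨F, hFc, hF⟩ := exists_F22
  obtain ⟨O, hOc, hO⟩ := exists_O77
  obtain ⟨I22, hI22⟩ : ∃ I : Finset (GolayPt → ℤ), I = F.image (fun i => oddF i (-3)) :=
    ⟨_, rfl⟩
  obtain ⟨I77, hI77⟩ : ∃ I : Finset (GolayPt → ℤ), I = O.image octF := ⟨_, rfl⟩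
  have c22 : I22.card = 22 := by
    rw [hI22, Finset.card_image_of_injective _ (oddF_inj (-3) (by norm_num)), hFc]
  have c77 : I77.card = 77 := by
    rw [hI77, Finset.card_image_of_injective _ octF_inj, hOc]
  have m22 : ∀ y, y ∈ I22 ↔ ∃ i, i ≠ a ∧ i ≠ b ∧ oddF i (-3) = y := by
    intro y
    rw [hI22, Finset.mem_image]
    constructor
    · rintro ⟨i, hi, rfl⟩
      exact ⟨i, ((hF i).1 hi).1, ((hF i).1 hi).2, rfl⟩
    · rintro ⟨i, h1, h2, rfl⟩
      exact ⟨i, (hF i).2 ⟨h1, h2⟩, rfl⟩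
  have m77 : ∀ y, y ∈ I77 ↔ ∃ o, o ∈ octads ∧ a ∈ o ∧ b ∈ o ∧ octF o = y := by
    intro y
    rw [hI77, Finset.mem_image]
    constructor
    · rintro ⟨o, ho, rfl⟩
      exact ⟨o, ((hO o).1 ho).1, ((hO o).1 ho).2.1, ((hO o).1 ho).2.2, rfl⟩
    · rintro ⟨o, h1, h2, h3, rfl⟩
      exact ⟨o, (hO o).2 ⟨h1, h2, h3⟩, rfl⟩
  have sub22 : (I22 : Set (GolayPt → ℤ)) ⊆ SA := by
    intro y hy
    rw [Finset.mem_coe, m22] at hy
    obtain ⟨i, h1, h2, rfl⟩ := hy
    exact ⟨oddF_mem3 i, (inS_odd i h1 h2).1, (inS_odd i h1 h2).2⟩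
  have sub77 : (I77 : Set (GolayPt → ℤ)) ⊆ SB := by
    intro y hy
    rw [Finset.mem_coe, m77] at hy
    obtain ⟨o, ho, h1, h2, rfl⟩ := hy
    have h3 := inS_oct o ho h1 h2
    refine ⟨octF_mem o ho, h3.1, ?_, by omega⟩
    intro he
    have h4 := h3.2
    rw [he, vStar_vals.1, vStar_vals.2] at h4
    norm_num at h4
  have hS := cntS
  have hfin : S100.Finite := Set.finite_of_ncard_ne_zero (by rw [hS]; norm_num)
  have hSA : SA ⊆ S100 := fun y hy => ⟨hy.1, hy.2.1⟩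
  have hSB : SB ⊆ S100 := fun y hy => ⟨hy.1, hy.2.1⟩
  have hdec : S100 = insert ((vStar : leechLattice) : GolayPt → ℤ) (SA ∪ SB) := by
    ext y
    constructor
    · rintro ⟨h1, h2⟩
      by_cases hy : y = ((vStar : leechLattice) : GolayPt → ℤ)
      · exact Or.inl hy
      · by_cases h2' : y a + y b = 2
        · exact Or.inr (Or.inl ⟨h1, h2, h2'⟩)
        · exact Or.inr (Or.inr ⟨h1, h2, hy, h2'⟩)
    · rintro (rfl | h | h)
      · exact ⟨vStar.2, inS_vStar⟩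
      · exact hSA h
      · exact hSB h
  have hdisj : Disjoint SA SB := by
    rw [Set.disjoint_left]
    intro y hy hy'
    exact hy'.2.2.2 hy.2.2
  have hnot : ((vStar : leechLattice) : GolayPt → ℤ) ∉ SA ∪ SB := by
    rintro (h | h)
    · have h4 := h.2.2
      rw [vStar_vals.1, vStar_vals.2] at h4
      norm_num at h4
    · exact h.2.2.1 rfl
  have hcount : S100.ncard = SA.ncard + SB.ncard + 1 := by
    rw [hdec, Set.ncard_insert_of_notMem hnot ((hfin.subset hSA).union (hfin.subset hSB)),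
      Set.ncard_union_eq hdisj (hfin.subset hSA) (hfin.subset hSB)]
  have l22 : 22 ≤ SA.ncard := by
    have h5 := Set.ncard_le_ncard sub22 (hfin.subset hSA)
    rw [Set.ncard_coe_finset, c22] at h5
    exact h5
  have l77 : 77 ≤ SB.ncard := by
    have h5 := Set.ncard_le_ncard sub77 (hfin.subset hSB)
    rw [Set.ncard_coe_finset, c77] at h5
    exact h5
  have eA : SA.ncard = 22 := by omega
  have eB : SB.ncard = 77 := by omega
  refine ⟨I22, I77, c22, c77, m22, m77, ?_, ?_, eA, eB⟩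
  · exact (Set.eq_of_subset_of_ncard_le sub22 (by rw [Set.ncard_coe_finset, c22, eA])
      (hfin.subset hSA)).symm
  · exact (Set.eq_of_subset_of_ncard_le sub77 (by rw [Set.ncard_coe_finset, c77, eB])
      (hfin.subset hSB)).symm

theorem std_cntA : {y : ↥leechLattice | (sqNorm (y : GolayPt → ℤ) = 32 ∧
    dotInt ((wA1 : leechLattice) : GolayPt → ℤ) (y : GolayPt → ℤ) = 0 ∧
    dotInt ((v0 : leechLattice) : GolayPt → ℤ) (y : GolayPt → ℤ) = 24) ∧
    dotInt ((vStar : leechLattice) : GolayPt → ℤ) (y : GolayPt → ℤ) = 8}.ncard = 22 := by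
  obtain ⟨I22, I77, -, -, -, -, -, -, eA, -⟩ := std_main
  rw [Cfsg.Agent.S1578.ncard_sub (fun y => (sqNorm y = 32 ∧
    dotInt ((wA1 : leechLattice) : GolayPt → ℤ) y = 0 ∧
    dotInt ((v0 : leechLattice) : GolayPt → ℤ) y = 24) ∧
    dotInt ((vStar : leechLattice) : GolayPt → ℤ) y = 8)]
  refine Eq.trans ?_ eA
  congr 1
  ext y
  constructor
  · rintro ⟨h1, h2, h3⟩
    rw [dot_vStar] at h3
    exact ⟨h1, (inS_iff y).1 h2, by omega⟩
  · rintro ⟨h1, h2, h3⟩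
    exact ⟨h1, (inS_iff y).2 h2, by rw [dot_vStar]; omega⟩

theorem std_cntB : {y : ↥leechLattice | (sqNorm (y : GolayPt → ℤ) = 32 ∧
    dotInt ((wA1 : leechLattice) : GolayPt → ℤ) (y : GolayPt → ℤ) = 0 ∧
    dotInt ((v0 : leechLattice) : GolayPt → ℤ) (y : GolayPt → ℤ) = 24) ∧ y ≠ vStar ∧
    dotInt ((vStar : leechLattice) : GolayPt → ℤ) (y : GolayPt → ℤ) ≠ 8}.ncard = 77 := by
  obtain ⟨I22, I77, -, -, -, -, -, -, -, eB⟩ := std_main
  have e : {y : ↥leechLattice | (sqNorm (y : GolayPt → ℤ) = 32 ∧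
      dotInt ((wA1 : leechLattice) : GolayPt → ℤ) (y : GolayPt → ℤ) = 0 ∧
      dotInt ((v0 : leechLattice) : GolayPt → ℤ) (y : GolayPt → ℤ) = 24) ∧ y ≠ vStar ∧
      dotInt ((vStar : leechLattice) : GolayPt → ℤ) (y : GolayPt → ℤ) ≠ 8} =
      {y : ↥leechLattice | (fun y : GolayPt → ℤ => (sqNorm y = 32 ∧
        dotInt ((wA1 : leechLattice) : GolayPt → ℤ) y = 0 ∧
        dotInt ((v0 : leechLattice) : GolayPt → ℤ) y = 24) ∧
        y ≠ ((vStar : leechLattice) : GolayPt → ℤ) ∧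
        dotInt ((vStar : leechLattice) : GolayPt → ℤ) y ≠ 8) (y : GolayPt → ℤ)} := by
    ext y
    constructor
    · rintro ⟨h1, h2, h3⟩
      exact ⟨h1, fun h => h2 (Subtype.ext h), h3⟩
    · rintro ⟨h1, h2, h3⟩
      exact ⟨h1, fun h => h2 (congrArg Subtype.val h), h3⟩
  rw [e]
  refine Eq.trans (Cfsg.Agent.S1578.ncard_sub (fun y : GolayPt → ℤ => (sqNorm y = 32 ∧
        dotInt ((wA1 : leechLattice) : GolayPt → ℤ) y = 0 ∧
        dotInt ((v0 : leechLattice) : GolayPt → ℤ) y = 24) ∧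
        y ≠ ((vStar : leechLattice) : GolayPt → ℤ) ∧
        dotInt ((vStar : leechLattice) : GolayPt → ℤ) y ≠ 8)) ?_
  refine Eq.trans ?_ eB
  congr 1
  ext y
  constructor
  · rintro ⟨h1, h2, h3, h4⟩
    rw [dot_vStar] at h4
    exact ⟨h1, (inS_iff y).1 h2, h3, by omega⟩
  · rintro ⟨h1, h2, h3, h4⟩
    exact ⟨h1, (inS_iff y).2 h2, h3, by rw [dot_vStar]; omega⟩

theorem prm_wA1 (g : Equiv.Perm GolayPt) (hg : g ∈ M24) (ha : g a = a) (hb : g b = b) :
    CoA.prmP g hg wA1 = wA1 := by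
  apply Subtype.ext
  funext k
  rw [CoA.prmP_apply]
  show LeechGen.pp a b (-4) (g k) = LeechGen.pp a b (-4) k
  unfold LeechGen.pp
  have e1 : (g k = a) ↔ (k = a) := by
    constructor
    · intro h
      apply g.injective
      rw [h, ha]
    · intro h
      rw [h, ha]
  have e2 : (g k = b) ↔ (k = b) := by
    constructor
    · intro h
      apply g.injective
      rw [h, hb]
    · intro h
      rw [h, hb]
  simp only [e1, e2]

theorem prm_v0 (g : Equiv.Perm GolayPt) (hg : g ∈ M24) (ha : g a = a) :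
    CoA.prmP g hg v0 = v0 := by
  apply Subtype.ext
  funext k
  rw [CoA.prmP_apply]
  show oddF a 5 (g k) = oddF a 5 k
  unfold oddF
  have e1 : (g k = a) ↔ (k = a) := by
    constructor
    · intro h
      apply g.injective
      rw [h, ha]
    · intro h
      rw [h, ha]
  simp only [e1]

theorem map3 (x0 x1 x2 y0 y1 y2 : GolayPt) (hx : [x0, x1, x2].Nodup)
    (hy : [y0, y1, y2].Nodup) : ∃ g ∈ M24, g x0 = y0 ∧ g x1 = y1 ∧ g x2 = y2 := by
  classical
  obtain ⟨x3, hx3⟩ := exists_not_mem [x0, x1, x2].toFinset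
    (lt_of_le_of_lt (List.toFinset_card_le _) (by simp))
  obtain ⟨y3, hy3⟩ := exists_not_mem [y0, y1, y2].toFinset
    (lt_of_le_of_lt (List.toFinset_card_le _) (by simp))
  rw [List.mem_toFinset] at hx3 hy3
  obtain ⟨g, hg, -, h0, h1, h2⟩ := map4 x3 x0 x1 x2 y3 y0 y1 y2
    (List.nodup_cons.2 ⟨hx3, hx⟩) (List.nodup_cons.2 ⟨hy3, hy⟩)
  exact ⟨g, hg, h0, h1, h2⟩

/-- The stabiliser of the standard triple is transitive on each of the two kinds of
remaining points. -/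
theorem std_trans (y y' : leechLattice) (hy : InS (y : GolayPt → ℤ))
    (hy' : InS (y' : GolayPt → ℤ)) (hne : y ≠ vStar) (hne' : y' ≠ vStar)
    (hiff : (y : GolayPt → ℤ) a + (y : GolayPt → ℤ) b = 2 ↔
      (y' : GolayPt → ℤ) a + (y' : GolayPt → ℤ) b = 2) :
    ∃ g ∈ Co0, g wA1 = wA1 ∧ g v0 = v0 ∧ g vStar = vStar ∧ g y = y' := by
  obtain ⟨I22, I77, -, -, m22, m77, eA, eB, -, -⟩ := std_main
  by_cases h2 : (y : GolayPt → ℤ) a + (y : GolayPt → ℤ) b = 2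
  · have hyA : (y : GolayPt → ℤ) ∈ SA := ⟨y.2, hy, h2⟩
    have hyA' : (y' : GolayPt → ℤ) ∈ SA := ⟨y'.2, hy', hiff.1 h2⟩
    rw [eA, Finset.mem_coe, m22] at hyA hyA'
    obtain ⟨i, hia, hib, hi⟩ := hyA
    obtain ⟨j, hja, hjb, hj⟩ := hyA'
    obtain ⟨π, hπ, πa, πb, πj⟩ := map3 a b j a b i
      (by simp [ab, Ne.symm hja, Ne.symm hjb]) (by simp [ab, Ne.symm hia, Ne.symm hib])
    refine ⟨CoA.prmP π hπ, CoA.prmP_mem π hπ, prm_wA1 π hπ πa πb, prm_v0 π hπ πa,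
      prm_vStar π hπ πa πb, ?_⟩
    apply Subtype.ext
    funext k
    rw [CoA.prmP_apply, ← hi, ← hj]
    unfold oddF
    have e1 : (π k = i) ↔ (k = j) := by
      constructor
      · intro h
        apply π.injective
        rw [h, πj]
      · intro h
        rw [h, πj]
    simp only [e1]
  · have hyB : (y : GolayPt → ℤ) ∈ SB := ⟨y.2, hy, fun h => hne (Subtype.ext h), h2⟩
    have hyB' : (y' : GolayPt → ℤ) ∈ SB :=
      ⟨y'.2, hy', fun h => hne' (Subtype.ext h), fun h => h2 (hiff.2 h)⟩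
    rw [eB, Finset.mem_coe, m77] at hyB hyB'
    obtain ⟨o, ho, hoa, hob, hoy⟩ := hyB
    obtain ⟨o', ho', hoa', hob', hoy'⟩ := hyB'
    obtain ⟨π, hπ, πa, πb, πo⟩ := octad_pq o' o ho' ho a b ab hoa' hob' hoa hob
    refine ⟨CoA.prmP π hπ, CoA.prmP_mem π hπ, prm_wA1 π hπ πa πb, prm_v0 π hπ πa,
      prm_vStar π hπ πa πb, ?_⟩
    apply Subtype.ext
    funext k
    rw [CoA.prmP_apply, ← hoy, ← hoy']
    unfold octF
    have e1 : (π k ∈ o) ↔ (k ∈ o') := by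
      rw [← πo, ← Equiv.Perm.smul_def, Finset.smul_mem_smul_finset_iff]
    simp only [e1]

theorem ncard_smul_set (g : ↥Co0) (P Q : ↥leechLattice → Prop)
    (h : ∀ y, Q (g • y) ↔ P y) : {y | Q y}.ncard = {y | P y}.ncard := by
  have himg : (fun y => g • y) '' {y | P y} = {y | Q y} := by
    ext y'
    constructor
    · rintro ⟨y, hy, rfl⟩
      exact (h y).2 hy
    · intro hy'
      refine ⟨g⁻¹ • y', (h _).1 ?_, smul_inv_smul g y'⟩
      rw [smul_inv_smul]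
      exact hy'
  rw [← himg]
  exact Set.ncard_image_of_injective _ (MulAction.injective g)

theorem cntA_smul (g : ↥Co0) (z v x : ↥leechLattice) :
    {y : ↥leechLattice | (sqNorm (y : GolayPt → ℤ) = 32 ∧
      dotInt ((g • z : ↥leechLattice) : GolayPt → ℤ) (y : GolayPt → ℤ) = 0 ∧
      dotInt ((g • v : ↥leechLattice) : GolayPt → ℤ) (y : GolayPt → ℤ) = 24) ∧
      dotInt ((g • x : ↥leechLattice) : GolayPt → ℤ) (y : GolayPt → ℤ) = 8}.ncard =
    {y : ↥leechLattice | (sqNorm (y : GolayPt → ℤ) = 32 ∧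
      dotInt (z : GolayPt → ℤ) (y : GolayPt → ℤ) = 0 ∧
      dotInt (v : GolayPt → ℤ) (y : GolayPt → ℤ) = 24) ∧
      dotInt (x : GolayPt → ℤ) (y : GolayPt → ℤ) = 8}.ncard := by
  apply ncard_smul_set g
  intro y
  rw [Cfsg.Agent.S1640.hnorm, Cfsg.Agent.S1640.hdotp, Cfsg.Agent.S1640.hdotp,
    Cfsg.Agent.S1640.hdotp]

theorem cntB_smul (g : ↥Co0) (z v x : ↥leechLattice) :
    {y : ↥leechLattice | (sqNorm (y : GolayPt → ℤ) = 32 ∧
      dotInt ((g • z : ↥leechLattice) : GolayPt → ℤ) (y : GolayPt → ℤ) = 0 ∧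
      dotInt ((g • v : ↥leechLattice) : GolayPt → ℤ) (y : GolayPt → ℤ) = 24) ∧ y ≠ g • x ∧
      dotInt ((g • x : ↥leechLattice) : GolayPt → ℤ) (y : GolayPt → ℤ) ≠ 8}.ncard =
    {y : ↥leechLattice | (sqNorm (y : GolayPt → ℤ) = 32 ∧
      dotInt (z : GolayPt → ℤ) (y : GolayPt → ℤ) = 0 ∧
      dotInt (v : GolayPt → ℤ) (y : GolayPt → ℤ) = 24) ∧ y ≠ x ∧
      dotInt (x : GolayPt → ℤ) (y : GolayPt → ℤ) ≠ 8}.ncard := by
  apply ncard_smul_set g
  intro y
  rw [Cfsg.Agent.S1640.hnorm, Cfsg.Agent.S1640.hdotp, Cfsg.Agent.S1640.hdotp,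
    Cfsg.Agent.S1640.hdotp, Ne, smul_left_cancel_iff]

/-- The Higman–Sims group acts with rank 3 and subdegrees 1, 22, 77 on its 100 points, the orbits of a point stabiliser being distinguished by customary inner product 1 with the fixed point. -/
theorem result (v w x : ↥Cfsg.leechLattice) (hv : Cfsg.sqNorm (v : Cfsg.GolayPt → ℤ) = 48) (hw : Cfsg.sqNorm (w : Cfsg.GolayPt → ℤ) = 48) (hvw : Cfsg.dotInt (v : Cfsg.GolayPt → ℤ) (w : Cfsg.GolayPt → ℤ) = -32) (hx : x ∈ {x : ↥Cfsg.leechLattice | Cfsg.sqNorm (x : Cfsg.GolayPt → ℤ) = 32 ∧ Cfsg.dotInt (v : Cfsg.GolayPt → ℤ) (x : Cfsg.GolayPt → ℤ) = 24 ∧ Cfsg.dotInt (w : Cfsg.GolayPt → ℤ) (x : Cfsg.GolayPt → ℤ) = -24}) : {y : ↥Cfsg.leechLattice | y ∈ {x : ↥Cfsg.leechLattice | Cfsg.sqNorm (x : Cfsg.GolayPt → ℤ) = 32 ∧ Cfsg.dotInt (v : Cfsg.GolayPt → ℤ) (x : Cfsg.GolayPt → ℤ) = 24 ∧ Cfsg.dotInt (w : Cfsg.GolayPt → ℤ) (x : Cfsg.GolayPt → ℤ) = -24} ∧ Cfsg.dotInt (x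 : Cfsg.GolayPt → ℤ) (y : Cfsg.GolayPt → ℤ) = 8}.ncard = 22 ∧ {y : ↥Cfsg.leechLattice | y ∈ {x : ↥Cfsg.leechLattice | Cfsg.sqNorm (x : Cfsg.GolayPt → ℤ) = 32 ∧ Cfsg.dotInt (v : Cfsg.GolayPt → ℤ) (x : Cfsg.GolayPt → ℤ) = 24 ∧ Cfsg.dotInt (w : Cfsg.GolayPt → ℤ) (x : Cfsg.GolayPt → ℤ) = -24} ∧ y ≠ x ∧ Cfsg.dotInt (x : Cfsg.GolayPt → ℤ) (y : Cfsg.GolayPt → ℤ) ≠ 8}.ncard = 77 ∧ ∀ y ∈ {x : ↥Cfsg.leechLattice | Cfsg.sqNorm (x : Cfsg.GolayPt → ℤ) = 32 ∧ Cfsg.dotInt (v : Cfsg.GolayPt → ℤ) (x : Cfsg.GolayPt → ℤ) = 24 ∧ Cfsg.dotInt (w : Cfsg.GolayPt → ℤ) (x : Cfsg.GolayPt → ℤ) = -24}, ∀ y' ∈ {x : ↥Cfsg.leechLattice | Cfsg.sqNorm (x : Cfsg.GolayPt → ℤ) = 32 ∧ Cfsg.dotInt (v : Cfsg.GolayPt → ℤ) (x : Cfsg.GolayPt → ℤ) = 24 ∧ Cfsg.dotInt (w : Cfsg.GolayPt → ℤ) (x : Cfsg.GolayPt → ℤ) = -24}, y ≠ x → y' ≠ x → (Cfsg.dotInt (x : Cfsg.GolayPt → ℤ) (y : Cfsg.GolayPt → ℤ) = 8 ↔ Cfsg.dotInt (x : Cfsg.GolayPt → ℤ) (y' : Cfsg.GolayPt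 → ℤ) = 8) → ∃ g : ↥Cfsg.Co0, g • v = v ∧ g • w = w ∧ g • x = x ∧ g • y = y' := by
  have hz : sqNorm ((v + w : ↥leechLattice) : GolayPt → ℤ) = 32 := by
    rw [AddSubgroup.coe_add, Cfsg.Agent.Lib.Helper28.sqNorm_add, hv, hw, hvw]
    norm_num
  have hzv : dotInt ((v + w : ↥leechLattice) : GolayPt → ℤ) (v : GolayPt → ℤ) = 16 := by
    have h := Cfsg.Agent.Lib.Helper28.sqNorm_sub ((v + w : ↥leechLattice) : GolayPt → ℤ)
      (v : GolayPt → ℤ)
    have e : ((v + w : ↥leechLattice) : GolayPt → ℤ) - (v : GolayPt → ℤ) = (w : GolayPt → ℤ) := by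
      rw [AddSubgroup.coe_add]
      abel
    rw [e, hz, hv, hw] at h
    omega
  have hmem : ∀ y : ↥leechLattice, (sqNorm (y : GolayPt → ℤ) = 32 ∧
      dotInt (v : GolayPt → ℤ) (y : GolayPt → ℤ) = 24 ∧
      dotInt (w : GolayPt → ℤ) (y : GolayPt → ℤ) = -24) ↔
      (sqNorm (y : GolayPt → ℤ) = 32 ∧
      dotInt ((v + w : ↥leechLattice) : GolayPt → ℤ) (y : GolayPt → ℤ) = 0 ∧
      dotInt (v : GolayPt → ℤ) (y : GolayPt → ℤ) = 24) := by
    intro y
    rw [AddSubgroup.coe_add, Cfsg.Agent.S1583.dot_add_left]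
    constructor
    · rintro ⟨h1, h2, h3⟩
      exact ⟨h1, by omega, h2⟩
    · rintro ⟨h1, h2, h3⟩
      exact ⟨h1, h3, by omega⟩
  obtain ⟨hx1, hx2, hx3⟩ := (hmem x).1 hx
  have wA1_vStar := ((inS_iff _).2 inS_vStar).2.1
  have v0_vStar := ((inS_iff _).2 inS_vStar).2.2
  obtain ⟨g1, hg1z, hg1v⟩ := Cfsg.Agent.S1583.pair_full (v + w) Stv.wA1 v v0 hz wA1_norm hv
    v0_norm hzv wA1_v0
  obtain ⟨k, hk, hkz, hkv, hkx⟩ := Cfsg.Agent.Lib.Helper28.Tri.triple_trans Stv.wA1 v0 (g1 • x)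
    Stv.vStar wA1_norm v0_norm
    (by rw [Cfsg.Agent.S1640.hnorm]; exact hx1) Stv.vStar_norm wA1_v0
    (by rw [← hg1z, Cfsg.Agent.S1640.hdotp]; exact hx2) wA1_vStar
    (by rw [← hg1v, Cfsg.Agent.S1640.hdotp]; exact hx3) v0_vStar
  obtain ⟨G, hG⟩ : ∃ G : ↥Co0, G = ⟨k, hk⟩ * g1 := ⟨_, rfl⟩
  have hGz : G • (v + w) = Stv.wA1 := by
    rw [hG, mul_smul, hg1z]
    exact hkz
  have hGv : G • v = v0 := by
    rw [hG, mul_smul, hg1v]
    exact hkv
  have hGx : G • x = Stv.vStar := by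
    rw [hG, mul_smul]
    exact hkx
  refine ⟨?_, ?_, ?_⟩
  · have e : {y : ↥Cfsg.leechLattice | y ∈ {x : ↥Cfsg.leechLattice | Cfsg.sqNorm (x : Cfsg.GolayPt → ℤ) = 32 ∧ Cfsg.dotInt (v : Cfsg.GolayPt → ℤ) (x : Cfsg.GolayPt → ℤ) = 24 ∧ Cfsg.dotInt (w : Cfsg.GolayPt → ℤ) (x : Cfsg.GolayPt → ℤ) = -24} ∧ Cfsg.dotInt (x : Cfsg.GolayPt → ℤ) (y : Cfsg.GolayPt → ℤ) = 8} =
        {y : ↥leechLattice | (sqNorm (y : GolayPt → ℤ) = 32 ∧
          dotInt ((v + w : ↥leechLattice) : GolayPt → ℤ) (y : GolayPt → ℤ) = 0 ∧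
          dotInt (v : GolayPt → ℤ) (y : GolayPt → ℤ) = 24) ∧
          dotInt (x : GolayPt → ℤ) (y : GolayPt → ℤ) = 8} := by
      ext y
      constructor
      · rintro ⟨h1, h2⟩
        exact ⟨(hmem y).1 h1, h2⟩
      · rintro ⟨h1, h2⟩
        exact ⟨(hmem y).2 h1, h2⟩
    rw [e, ← cntA_smul G, hGz, hGv, hGx]
    exact std_cntA
  · have e : {y : ↥Cfsg.leechLattice | y ∈ {x : ↥Cfsg.leechLattice | Cfsg.sqNorm (x : Cfsg.GolayPt → ℤ) = 32 ∧ Cfsg.dotInt (v : Cfsg.GolayPt → ℤ) (x : Cfsg.GolayPt → ℤ) = 24 ∧ Cfsg.dotInt (w : Cfsg.GolayPt → ℤ) (x : Cfsg.GolayPt → ℤ) = -24} ∧ y ≠ x ∧ Cfsg.dotInt (x : Cfsg.GolayPt → ℤ) (y : Cfsg.GolayPt → ℤ) ≠ 8} =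
        {y : ↥leechLattice | (sqNorm (y : GolayPt → ℤ) = 32 ∧
          dotInt ((v + w : ↥leechLattice) : GolayPt → ℤ) (y : GolayPt → ℤ) = 0 ∧
          dotInt (v : GolayPt → ℤ) (y : GolayPt → ℤ) = 24) ∧ y ≠ x ∧
          dotInt (x : GolayPt → ℤ) (y : GolayPt → ℤ) ≠ 8} := by
      ext y
      constructor
      · rintro ⟨h1, h2⟩
        exact ⟨(hmem y).1 h1, h2⟩
      · rintro ⟨h1, h2⟩
        exact ⟨(hmem y).2 h1, h2⟩
    rw [e, ← cntB_smul G, hGz, hGv, hGx]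
    exact std_cntB
  · intro y hy y' hy' hne hne' hiff
    have hyS := (hmem y).1 hy
    have hyS' := (hmem y').1 hy'
    have t1 : InS ((G • y : ↥leechLattice) : GolayPt → ℤ) := by
      rw [← inS_iff]
      refine ⟨by rw [Cfsg.Agent.S1640.hnorm]; exact hyS.1,
        by rw [← hGz, Cfsg.Agent.S1640.hdotp]; exact hyS.2.1,
        by rw [← hGv, Cfsg.Agent.S1640.hdotp]; exact hyS.2.2⟩
    have t1' : InS ((G • y' : ↥leechLattice) : GolayPt → ℤ) := by
      rw [← inS_iff]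
      refine ⟨by rw [Cfsg.Agent.S1640.hnorm]; exact hyS'.1,
        by rw [← hGz, Cfsg.Agent.S1640.hdotp]; exact hyS'.2.1,
        by rw [← hGv, Cfsg.Agent.S1640.hdotp]; exact hyS'.2.2⟩
    have t2 : G • y ≠ Stv.vStar := by
      rw [← hGx]
      exact fun h => hne (MulAction.injective G h)
    have t2' : G • y' ≠ Stv.vStar := by
      rw [← hGx]
      exact fun h => hne' (MulAction.injective G h)
    have d : ∀ u : ↥leechLattice, dotInt (x : GolayPt → ℤ) (u : GolayPt → ℤ) =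
        4 * (((G • u : ↥leechLattice) : GolayPt → ℤ) Stv.a +
          ((G • u : ↥leechLattice) : GolayPt → ℤ) Stv.b) := by
      intro u
      rw [← Stv.dot_vStar, ← hGx, Cfsg.Agent.S1640.hdotp]
    rw [d y, d y'] at hiff
    have t3 : ((G • y : ↥leechLattice) : GolayPt → ℤ) Stv.a +
        ((G • y : ↥leechLattice) : GolayPt → ℤ) Stv.b = 2 ↔
        ((G • y' : ↥leechLattice) : GolayPt → ℤ) Stv.a +
        ((G • y' : ↥leechLattice) : GolayPt → ℤ) Stv.b = 2 := by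
      constructor
      · intro h
        have := hiff.1 (by omega)
        omega
      · intro h
        have := hiff.2 (by omega)
        omega
    obtain ⟨g0, hg0, g0z, g0v, g0x, g0y⟩ := std_trans (G • y) (G • y') t1 t1' t2 t2' t3
    obtain ⟨g', hg'⟩ : ∃ g' : ↥Co0, g' = G⁻¹ * ⟨g0, hg0⟩ * G := ⟨_, rfl⟩
    have g0z' : (⟨g0, hg0⟩ : ↥Co0) • Stv.wA1 = Stv.wA1 := g0z
    have g0v' : (⟨g0, hg0⟩ : ↥Co0) • v0 = v0 := g0v
    have g0x' : (⟨g0, hg0⟩ : ↥Co0) • Stv.vStar = Stv.vStar := g0x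
    have g0y' : (⟨g0, hg0⟩ : ↥Co0) • (G • y) = G • y' := g0y
    have e1 : g' • (v + w) = v + w := by
      rw [hg', mul_smul, mul_smul, hGz, g0z', ← hGz, inv_smul_smul]
    have e2 : g' • v = v := by
      rw [hg', mul_smul, mul_smul, hGv, g0v', ← hGv, inv_smul_smul]
    have e3 : g' • x = x := by
      rw [hg', mul_smul, mul_smul, hGx, g0x', ← hGx, inv_smul_smul]
    have e4 : g' • y = y' := by
      rw [hg', mul_smul, mul_smul, g0y', inv_smul_smul]
    refine ⟨g', e2, ?_, e3, e4⟩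
    have hadd : g' • (v + w) = g' • v + g' • w := g'.2.1 v w
    rw [e1, e2] at hadd
    exact (add_left_cancel hadd).symm
end Cfsg.Agent.S1584
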