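import Cfsg.Statements.S1580
import Cfsg.Agent.S1584
import Cfsg.Agent.S1579
import Cfsg.Agent.S0401
import Cfsg.Agent.S0352
import Cfsg.Agent.Lib.Helper4.LeechCross

set_option autoImplicit false
open Cfsg

namespace Cfsg.Agent.S1580

open Cfsg.Agent.Lib.Helper28 Cfsg.Agent.Lib.Helper4
open Cfsg.Agent.Lib.Helper4.Stv
open scoped Pointwise

theorem dot_dvd (x y : ↥leechLattice) :
    (8 : ℤ) ∣ dotInt (x : GolayPt → ℤ) (y : GolayPt → ℤ) := by
  have h1 := LeechCross.sqNorm_dvd _ x.2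
  have h2 := LeechCross.sqNorm_dvd _ y.2
  have h3 := LeechCross.sqNorm_dvd _ (x + y).2
  rw [AddSubgroup.coe_add, sqNorm_add] at h3
  omega

theorem dot_sub_right (x y w : GolayPt → ℤ) : dotInt x (y - w) = dotInt x y - dotInt x w := by
  unfold dotInt
  rw [← Finset.sum_sub_distrib]
  apply Finset.sum_congr rfl
  intro i _
  rw [Pi.sub_apply]
  ring

theorem dot_sub_left (x y w : GolayPt → ℤ) : dotInt (x - y) w = dotInt x w - dotInt y w := by
  unfold dotInt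
  rw [← Finset.sum_sub_distrib]
  apply Finset.sum_congr rfl
  intro i _
  rw [Pi.sub_apply]
  ring

theorem dot_self (x : GolayPt → ℤ) : dotInt x x = sqNorm x := by
  unfold dotInt sqNorm
  apply Finset.sum_congr rfl
  intro i _
  ring

theorem sub_norm (u x : ↥leechLattice) (hu : sqNorm (u : GolayPt → ℤ) = 48)
    (hx : sqNorm (x : GolayPt → ℤ) = 32) :
    sqNorm ((u - x : ↥leechLattice) : GolayPt → ℤ) = 32 ↔
      dotInt (u : GolayPt → ℤ) (x : GolayPt → ℤ) = 24 := by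
  rw [AddSubgroup.coe_sub, sqNorm_sub, hu, hx]
  constructor <;> intro h <;> omega

/-- Distinct shortest vectors have product at most 16. -/
theorem dot_le (x y : ↥leechLattice) (hx : sqNorm (x : GolayPt → ℤ) = 32)
    (hy : sqNorm (y : GolayPt → ℤ) = 32) (hne : x ≠ y) :
    dotInt (x : GolayPt → ℤ) (y : GolayPt → ℤ) ≤ 16 := by
  have h0 : ((x - y : ↥leechLattice) : GolayPt → ℤ) ≠ 0 := by
    intro h
    apply hne
    have h2 : x - y = 0 := Subtype.ext h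
    exact sub_eq_zero.1 h2
  have h1 := leech_min_norm _ (x - y).2 h0
  rw [AddSubgroup.coe_sub, sqNorm_sub, hx, hy] at h1
  omega

/-- A vector `u` of sum of squares 48 and a shortest vector `v` with product 24: exactly 275
shortest vectors have product 24 with `u` and 16 with `v`. -/
theorem cnt275 (u v : ↥leechLattice) (hu : sqNorm (u : GolayPt → ℤ) = 48)
    (hv : sqNorm (v : GolayPt → ℤ) = 32)
    (huv : dotInt (u : GolayPt → ℤ) (v : GolayPt → ℤ) = 24) :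
    {x : ↥leechLattice | sqNorm (x : GolayPt → ℤ) = 32 ∧
      dotInt (u : GolayPt → ℤ) (x : GolayPt → ℤ) = 24 ∧
      dotInt (v : GolayPt → ℤ) (x : GolayPt → ℤ) = 16}.ncard = 275 := by
  have h552 := Cfsg.Agent.S1578.result u hu
  obtain ⟨P, hP⟩ : ∃ P : Set ↥leechLattice, P = {v : ↥leechLattice |
      sqNorm (v : GolayPt → ℤ) = 32 ∧ sqNorm ((u : GolayPt → ℤ) - (v : GolayPt → ℤ)) = 32} :=
    ⟨_, rfl⟩
  obtain ⟨A, hA⟩ : ∃ A : Set ↥leechLattice, A = {x : ↥leechLattice |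
      sqNorm (x : GolayPt → ℤ) = 32 ∧ dotInt (u : GolayPt → ℤ) (x : GolayPt → ℤ) = 24 ∧
      dotInt (v : GolayPt → ℤ) (x : GolayPt → ℤ) = 16} := ⟨_, rfl⟩
  obtain ⟨A', hA'⟩ : ∃ A' : Set ↥leechLattice, A' = {x : ↥leechLattice |
      sqNorm (x : GolayPt → ℤ) = 32 ∧ dotInt (u : GolayPt → ℤ) (x : GolayPt → ℤ) = 24 ∧
      dotInt (v : GolayPt → ℤ) (x : GolayPt → ℤ) = 8} := ⟨_, rfl⟩
  rw [← hP] at h552
  rw [← hA]
  have hPmem : ∀ x, x ∈ P ↔ (sqNorm (x : GolayPt → ℤ) = 32 ∧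
      dotInt (u : GolayPt → ℤ) (x : GolayPt → ℤ) = 24) := by
    intro x
    rw [hP]
    constructor
    · rintro ⟨h1, h2⟩
      exact ⟨h1, (sub_norm u x hu h1).1 h2⟩
    · rintro ⟨h1, h2⟩
      exact ⟨h1, (sub_norm u x hu h1).2 h2⟩
  have hAmem : ∀ x, x ∈ A ↔ (sqNorm (x : GolayPt → ℤ) = 32 ∧
      dotInt (u : GolayPt → ℤ) (x : GolayPt → ℤ) = 24 ∧
      dotInt (v : GolayPt → ℤ) (x : GolayPt → ℤ) = 16) := by
    intro x
    rw [hA]
    exact Iff.rfl
  have hA'mem : ∀ x, x ∈ A' ↔ (sqNorm (x : GolayPt → ℤ) = 32 ∧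
      dotInt (u : GolayPt → ℤ) (x : GolayPt → ℤ) = 24 ∧
      dotInt (v : GolayPt → ℤ) (x : GolayPt → ℤ) = 8) := by
    intro x
    rw [hA']
    exact Iff.rfl
  have hfin : P.Finite := Set.finite_of_ncard_ne_zero (by rw [h552]; norm_num)
  have hAP : A ⊆ P := fun x hx => (hPmem x).2 ⟨((hAmem x).1 hx).1, ((hAmem x).1 hx).2.1⟩
  have hA'P : A' ⊆ P := fun x hx => (hPmem x).2 ⟨((hA'mem x).1 hx).1, ((hA'mem x).1 hx).2.1⟩
  -- the reflection x ↦ u - x
  have hrefl : ∀ x : ↥leechLattice, sqNorm (x : GolayPt → ℤ) = 32 →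
      dotInt (u : GolayPt → ℤ) (x : GolayPt → ℤ) = 24 →
      sqNorm ((u - x : ↥leechLattice) : GolayPt → ℤ) = 32 ∧
      dotInt (u : GolayPt → ℤ) ((u - x : ↥leechLattice) : GolayPt → ℤ) = 24 ∧
      dotInt (v : GolayPt → ℤ) ((u - x : ↥leechLattice) : GolayPt → ℤ) =
        24 - dotInt (v : GolayPt → ℤ) (x : GolayPt → ℤ) := by
    intro x h1 h2
    refine ⟨(sub_norm u x hu h1).2 h2, ?_, ?_⟩
    · rw [AddSubgroup.coe_sub, dot_sub_right, dot_self, hu, h2]
      norm_num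
    · rw [AddSubgroup.coe_sub, dot_sub_right, LeechCross.dot_comm (v : GolayPt → ℤ)
        (u : GolayPt → ℤ), huv]
  have himg : (fun x : ↥leechLattice => u - x) '' A = A' := by
    ext y
    constructor
    · rintro ⟨x, hx, rfl⟩
      rw [hAmem] at hx
      obtain ⟨r1, r2, r3⟩ := hrefl x hx.1 hx.2.1
      rw [hA'mem]
      exact ⟨r1, r2, by rw [r3, hx.2.2]; norm_num⟩
    · intro hy
      rw [hA'mem] at hy
      obtain ⟨r1, r2, r3⟩ := hrefl y hy.1 hy.2.1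
      refine ⟨u - y, (hAmem _).2 ⟨r1, r2, by rw [r3, hy.2.2]; norm_num⟩, ?_⟩
      show u - (u - y) = y
      abel
  have hcard' : A'.ncard = A.ncard := by
    rw [← himg]
    exact Set.ncard_image_of_injective _ sub_right_injective
  have hvv : dotInt (v : GolayPt → ℤ) (v : GolayPt → ℤ) = 32 := by rw [dot_self, hv]
  obtain ⟨rv1, rv2, rv3⟩ := hrefl v hv huv
  rw [hvv] at rv3
  have hdec : P = insert v (insert (u - v) (A ∪ A')) := by
    ext x
    constructor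
    · intro hx
      rw [hPmem] at hx
      by_cases h1 : x = v
      · exact Or.inl h1
      · by_cases h2 : x = u - v
        · exact Or.inr (Or.inl h2)
        · obtain ⟨r1, r2, r3⟩ := hrefl x hx.1 hx.2
          have l1 := dot_le v x hv hx.1 (Ne.symm h1)
          have l2 := dot_le v (u - x) hv r1 (by
            intro h
            apply h2
            rw [h]
            abel)
          have l3 := dot_dvd v x
          rw [r3] at l2
          have l4 : dotInt (v : GolayPt → ℤ) (x : GolayPt → ℤ) = 16 ∨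
              dotInt (v : GolayPt → ℤ) (x : GolayPt → ℤ) = 8 := by omega
          rcases l4 with l4 | l4
          · exact Or.inr (Or.inr (Or.inl ((hAmem x).2 ⟨hx.1, hx.2, l4⟩)))
          · exact Or.inr (Or.inr (Or.inr ((hA'mem x).2 ⟨hx.1, hx.2, l4⟩)))
    · rintro (rfl | rfl | h | h)
      · exact (hPmem _).2 ⟨hv, huv⟩
      · exact (hPmem _).2 ⟨rv1, rv2⟩
      · exact hAP h
      · exact hA'P h
  have hdisj : Disjoint A A' := by
    rw [Set.disjoint_left]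
    intro x hx hx'
    have e1 := ((hAmem x).1 hx).2.2
    have e2 := ((hA'mem x).1 hx').2.2
    omega
  have hn1 : (u - v) ∉ A ∪ A' := by
    rintro (h | h)
    · have e1 := ((hAmem _).1 h).2.2
      omega
    · have e1 := ((hA'mem _).1 h).2.2
      omega
  have hn2 : v ∉ insert (u - v) (A ∪ A') := by
    rintro (h | h | h)
    · rw [← h] at rv3
      omega
    · have e1 := ((hAmem _).1 h).2.2
      omega
    · have e1 := ((hA'mem _).1 h).2.2
      omega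
  have hfinU : (A ∪ A').Finite := (hfin.subset hAP).union (hfin.subset hA'P)
  rw [hdec, Set.ncard_insert_of_notMem hn2 (hfinU.insert _),
    Set.ncard_insert_of_notMem hn1 hfinU,
    Set.ncard_union_eq hdisj (hfin.subset hAP) (hfin.subset hA'P), hcard'] at h552
  omega

/-- Membership in the standard set of 275, on coordinates. -/
def InA (y : GolayPt → ℤ) : Prop :=
  sqNorm y = 32 ∧ (∑ i, y i) + 4 * y a = 24 ∧ y a + y b = 4

theorem inA_iff (y : GolayPt → ℤ) :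
    (sqNorm y = 32 ∧ dotInt ((Cfsg.Agent.S1584.v0 : leechLattice) : GolayPt → ℤ) y = 24 ∧
      dotInt ((vStar : leechLattice) : GolayPt → ℤ) y = 16) ↔ InA y := by
  rw [Cfsg.Agent.S1584.dot_v0, dot_vStar]
  unfold InA
  constructor
  · rintro ⟨h1, h2, h3⟩
    exact ⟨h1, h2, by omega⟩
  · rintro ⟨h1, h2, h3⟩
    exact ⟨h1, h2, by omega⟩

theorem v0_vStar : dotInt ((Cfsg.Agent.S1584.v0 : leechLattice) : GolayPt → ℤ)
    ((vStar : leechLattice) : GolayPt → ℤ) = 24 :=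
  ((Cfsg.Agent.S1584.inS_iff _).2 Cfsg.Agent.S1584.inS_vStar).2.2

/-- The odd vector attached to a set of points. -/
def qF (o : Finset GolayPt) : GolayPt → ℤ :=
  fun k => 1 - Cfsg.Agent.S1584.octF o k + (if k = a then 4 else 0)

theorem sum_qF (o : Finset GolayPt) : ∑ k, qF o k = 28 - 2 * (o.card : ℤ) := by
  unfold qF
  rw [Finset.sum_add_distrib, Finset.sum_sub_distrib, Cfsg.Agent.S1584.sum_octF,
    Finset.sum_ite_eq' Finset.univ a (fun _ => (4 : ℤ)), if_pos (Finset.mem_univ _),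
    Finset.sum_const, Finset.card_univ, card_golayPt]
  norm_num
  ring

theorem qF_a (o : Finset GolayPt) (ha : a ∈ o) : qF o a = 3 := by
  unfold qF Cfsg.Agent.S1584.octF
  rw [if_pos ha, if_pos rfl]
  norm_num

theorem qF_b (o : Finset GolayPt) (hb : b ∉ o) : qF o b = 1 := by
  unfold qF Cfsg.Agent.S1584.octF
  rw [if_neg hb, if_neg (Ne.symm ab)]
  norm_num

theorem sq_qF (o : Finset GolayPt) (ha : a ∈ o) : sqNorm (qF o) = 32 := by
  unfold sqNorm
  have e : ∀ k, qF o k ^ 2 = 1 + (if k = a then 8 else 0) := by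
    intro k
    by_cases hk : k = a
    · rw [hk, qF_a o ha, if_pos rfl]
      norm_num
    · unfold qF Cfsg.Agent.S1584.octF
      rw [if_neg hk]
      split_ifs <;> norm_num
  simp only [e]
  rw [Finset.sum_add_distrib, Finset.sum_ite_eq' Finset.univ a (fun _ => (8 : ℤ)),
    if_pos (Finset.mem_univ _), Finset.sum_const, Finset.card_univ, card_golayPt]
  norm_num

theorem qF_mem (o : Finset GolayPt) (ho : o ∈ octads) : qF o ∈ leechLattice := by
  have h8 := ho.2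
  obtain ⟨⟨c, hc, rfl⟩, -⟩ := ho
  apply Leech.mem_leech_of_struct _ 1
    (fun k => -(if k ∈ support₂ c then 1 else 0) + (if k = a then 2 else 0))
  · intro k
    unfold qF Cfsg.Agent.S1584.octF
    split_ifs <;> ring
  · have h0 : zword (fun k => -(if k ∈ support₂ c then (1 : ℤ) else 0) +
        (if k = a then 2 else 0)) = c := by
      funext k
      by_cases h : k ∈ support₂ c
      · have h1 := h
        rw [mem_support₂] at h1
        rw [h1, Leech.zword_eq_one]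
        show ¬ (2 : ℤ) ∣ -(if k ∈ support₂ c then (1 : ℤ) else 0) + (if k = a then 2 else 0)
        rw [if_pos h]
        split_ifs <;> omega
      · have h1 : c k = 0 := by
          rw [mem_support₂] at h
          revert h
          generalize c k = t
          revert t
          decide
        rw [h1, Leech.zword_eq_zero]
        show (2 : ℤ) ∣ -(if k ∈ support₂ c then (1 : ℤ) else 0) + (if k = a then 2 else 0)
        rw [if_neg h]
        split_ifs <;> omega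
    rw [h0]
    exact hc
  · rw [sum_qF, h8, Int.modEq_iff_dvd]
    norm_num

theorem qF_inj : Function.Injective qF := by
  intro o o' h
  apply Cfsg.Agent.S1584.octF_inj
  funext k
  have hk := congrFun h k
  unfold qF at hk
  linarith

theorem inA_q (o : Finset GolayPt) (ho : o ∈ octads) (ha : a ∈ o) (hb : b ∉ o) :
    InA (qF o) := by
  refine ⟨sq_qF o ha, ?_, ?_⟩
  · rw [sum_qF, ho.2, qF_a o ha]
    norm_num
  · rw [qF_a o ha, qF_b o hb]
    norm_num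

theorem inA_oct (o : Finset GolayPt) (ho : o ∈ octads) (ha : a ∈ o) (hb : b ∈ o) :
    InA (Cfsg.Agent.S1584.octF o) ∧ Cfsg.Agent.S1584.octF o a = 2 := by
  obtain ⟨⟨h1, h2, h3⟩, h4⟩ := Cfsg.Agent.S1584.inS_oct o ho ha hb
  exact ⟨⟨h1, h3, h4⟩, by omega⟩

theorem pp_vals (i : GolayPt) (hia : i ≠ a) (hib : i ≠ b) :
    LeechGen.pp a i 4 a = 4 ∧ LeechGen.pp a i 4 b = 0 := by
  unfold LeechGen.pp
  rw [if_pos rfl, if_neg (Ne.symm hia), if_neg (Ne.symm ab), if_neg (Ne.symm hib)]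
  norm_num

theorem inA_pp (i : GolayPt) (hia : i ≠ a) (hib : i ≠ b) : InA (LeechGen.pp a i 4) := by
  obtain ⟨e1, e2⟩ := pp_vals i hia hib
  refine ⟨?_, ?_, ?_⟩
  · rw [LeechGen.sq_pp a i (Ne.symm hia)]
    norm_num
  · rw [LeechGen.sum_pp, e1]
    norm_num
  · rw [e1, e2]
    norm_num

theorem pp_inj (i j : GolayPt) (hia : i ≠ a) (h : LeechGen.pp a i 4 = LeechGen.pp a j 4) :
    i = j := by
  have hi := congrFun h i
  unfold LeechGen.pp at hi
  rw [if_neg hia, if_pos rfl] at hi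
  by_contra hne
  rw [if_neg hne] at hi
  norm_num at hi

theorem exists_O176 : ∃ F : Finset (Finset GolayPt), F.card = 176 ∧
    ∀ o, o ∈ F ↔ (o ∈ octads ∧ a ∈ o ∧ b ∉ o) := by
  have h253 := (Steiner.s5824_deg card_golayPt Cfsg.Agent.S0363.result
    ({a} : Finset GolayPt)).2.1 (Finset.card_singleton a)
  have h77 := (Steiner.s5824_deg card_golayPt Cfsg.Agent.S0363.result
    ({a, b} : Finset GolayPt)).2.2.1 (Finset.card_pair ab)
  unfold Steiner.deg at h253 h77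
  refine ⟨((Steiner.blocks octads).filter (({a} : Finset GolayPt) ⊆ ·)).filter
    (fun o => ¬ b ∈ o), ?_, ?_⟩
  · have h := Finset.card_filter_add_card_filter_not
      (s := (Steiner.blocks octads).filter (({a} : Finset GolayPt) ⊆ ·)) (fun o => b ∈ o)
    have e : ((Steiner.blocks octads).filter (({a} : Finset GolayPt) ⊆ ·)).filter
        (fun o => b ∈ o) = (Steiner.blocks octads).filter (({a, b} : Finset GolayPt) ⊆ ·) := by
      ext o
      simp only [Finset.mem_filter, Finset.insert_subset_iff, Finset.singleton_subset_iff]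
      tauto
    rw [e, h77, h253] at h
    omega
  · intro o
    rw [Finset.mem_filter, Finset.mem_filter, Steiner.mem_blocks, Finset.singleton_subset_iff]
    tauto

def A0f : Set (GolayPt → ℤ) := {y | y ∈ leechLattice ∧ InA y}

theorem cntA0 : A0f.ncard = 275 := by
  have h := cnt275 Cfsg.Agent.S1584.v0 vStar Cfsg.Agent.S1584.v0_norm vStar_norm v0_vStar
  rw [Cfsg.Agent.S1578.ncard_sub (fun y => sqNorm y = 32 ∧
    dotInt ((Cfsg.Agent.S1584.v0 : leechLattice) : GolayPt → ℤ) y = 24 ∧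
    dotInt ((vStar : leechLattice) : GolayPt → ℤ) y = 16)] at h
  refine Eq.trans ?_ h
  congr 1
  ext y
  constructor
  · rintro ⟨h1, h2⟩
    exact ⟨h1, (inA_iff y).2 h2⟩
  · rintro ⟨h1, h2⟩
    exact ⟨h1, (inA_iff y).1 h2⟩

/-- Every vector of the standard set of 275 is of one of three explicit kinds. -/
theorem std275 (y : GolayPt → ℤ) (hy : y ∈ leechLattice) (hA : InA y) :
    (∃ i, i ≠ a ∧ i ≠ b ∧ LeechGen.pp a i 4 = y) ∨
    (∃ o, o ∈ octads ∧ a ∈ o ∧ b ∈ o ∧ Cfsg.Agent.S1584.octF o = y) ∨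
    (∃ o, o ∈ octads ∧ a ∈ o ∧ b ∉ o ∧ qF o = y) := by
  obtain ⟨F, hFc, hF⟩ := Cfsg.Agent.S1584.exists_F22
  obtain ⟨O, hOc, hO⟩ := Cfsg.Agent.S1584.exists_O77
  obtain ⟨O', hOc', hO'⟩ := exists_O176
  obtain ⟨I4, hI4⟩ : ∃ I : Finset (GolayPt → ℤ), I = F.image (fun i => LeechGen.pp a i 4) :=
    ⟨_, rfl⟩
  obtain ⟨I2, hI2⟩ : ∃ I : Finset (GolayPt → ℤ), I = O.image Cfsg.Agent.S1584.octF := ⟨_, rfl⟩
  obtain ⟨I3, hI3⟩ : ∃ I : Finset (GolayPt → ℤ), I = O'.image qF := ⟨_, rfl⟩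
  have c4 : I4.card = 22 := by
    rw [hI4, Finset.card_image_of_injOn, hFc]
    intro i hi j hj h
    rw [Finset.mem_coe, hF] at hi
    exact pp_inj i j hi.1 h
  have c2 : I2.card = 77 := by
    rw [hI2, Finset.card_image_of_injective _ Cfsg.Agent.S1584.octF_inj, hOc]
  have c3 : I3.card = 176 := by
    rw [hI3, Finset.card_image_of_injective _ qF_inj, hOc']
  have m4 : ∀ y, y ∈ I4 ↔ ∃ i, i ≠ a ∧ i ≠ b ∧ LeechGen.pp a i 4 = y := by
    intro y
    rw [hI4, Finset.mem_image]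
    constructor
    · rintro ⟨i, hi, rfl⟩
      exact ⟨i, ((hF i).1 hi).1, ((hF i).1 hi).2, rfl⟩
    · rintro ⟨i, h1, h2, rfl⟩
      exact ⟨i, (hF i).2 ⟨h1, h2⟩, rfl⟩
  have m2 : ∀ y, y ∈ I2 ↔ ∃ o, o ∈ octads ∧ a ∈ o ∧ b ∈ o ∧ Cfsg.Agent.S1584.octF o = y := by
    intro y
    rw [hI2, Finset.mem_image]
    constructor
    · rintro ⟨o, ho, rfl⟩
      exact ⟨o, ((hO o).1 ho).1, ((hO o).1 ho).2.1, ((hO o).1 ho).2.2, rfl⟩
    · rintro ⟨o, h1, h2, h3, rfl⟩
      exact ⟨o, (hO o).2 ⟨h1, h2, h3⟩, rfl⟩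
  have m3 : ∀ y, y ∈ I3 ↔ ∃ o, o ∈ octads ∧ a ∈ o ∧ b ∉ o ∧ qF o = y := by
    intro y
    rw [hI3, Finset.mem_image]
    constructor
    · rintro ⟨o, ho, rfl⟩
      exact ⟨o, ((hO' o).1 ho).1, ((hO' o).1 ho).2.1, ((hO' o).1 ho).2.2, rfl⟩
    · rintro ⟨o, h1, h2, h3, rfl⟩
      exact ⟨o, (hO' o).2 ⟨h1, h2, h3⟩, rfl⟩
  have v4 : ∀ y ∈ I4, y ∈ leechLattice ∧ InA y ∧ y a = 4 := by
    intro y hy
    rw [m4] at hy
    obtain ⟨i, h1, h2, rfl⟩ := hy
    exact ⟨LeechGen.pp_mem a i 4 (Or.inl rfl), inA_pp i h1 h2, (pp_vals i h1 h2).1⟩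
  have v2 : ∀ y ∈ I2, y ∈ leechLattice ∧ InA y ∧ y a = 2 := by
    intro y hy
    rw [m2] at hy
    obtain ⟨o, ho, h1, h2, rfl⟩ := hy
    exact ⟨Cfsg.Agent.S1584.octF_mem o ho, (inA_oct o ho h1 h2).1, (inA_oct o ho h1 h2).2⟩
  have v3 : ∀ y ∈ I3, y ∈ leechLattice ∧ InA y ∧ y a = 3 := by
    intro y hy
    rw [m3] at hy
    obtain ⟨o, ho, h1, h2, rfl⟩ := hy
    exact ⟨qF_mem o ho, inA_q o ho h1 h2, qF_a o h1⟩
  have d23 : Disjoint I2 I3 := by
    rw [Finset.disjoint_left]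
    intro y h2 h3
    have e2 := (v2 y h2).2.2
    have e3 := (v3 y h3).2.2
    omega
  have d4 : Disjoint I4 (I2 ∪ I3) := by
    rw [Finset.disjoint_left]
    intro y h4 h23
    have e4 := (v4 y h4).2.2
    rcases Finset.mem_union.1 h23 with h | h
    · have e2 := (v2 y h).2.2
      omega
    · have e3 := (v3 y h).2.2
      omega
  have cU : (I4 ∪ (I2 ∪ I3)).card = 275 := by
    rw [Finset.card_union_of_disjoint d4, Finset.card_union_of_disjoint d23, c4, c2, c3]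
  have hsub : ((I4 ∪ (I2 ∪ I3) : Finset (GolayPt → ℤ)) : Set (GolayPt → ℤ)) ⊆ A0f := by
    intro y hy
    rw [Finset.mem_coe, Finset.mem_union, Finset.mem_union] at hy
    rcases hy with h | h | h
    · exact ⟨(v4 y h).1, (v4 y h).2.1⟩
    · exact ⟨(v2 y h).1, (v2 y h).2.1⟩
    · exact ⟨(v3 y h).1, (v3 y h).2.1⟩
  have hfin : A0f.Finite := Set.finite_of_ncard_ne_zero (by rw [cntA0]; norm_num)
  have heq := Set.eq_of_subset_of_ncard_le hsub (by rw [Set.ncard_coe_finset, cU, cntA0]) hfin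
  have hyU : y ∈ ((I4 ∪ (I2 ∪ I3) : Finset (GolayPt → ℤ)) : Set (GolayPt → ℤ)) := by
    rw [heq]
    exact ⟨hy, hA⟩
  rw [Finset.mem_coe, Finset.mem_union, Finset.mem_union, m4, m2, m3] at hyU
  exact hyU

/-- Same orbit under the joint stabiliser of the two standard vectors. -/
def RelM (x x' : ↥leechLattice) : Prop :=
  ∃ g : ↥Co0, g • Cfsg.Agent.S1584.v0 = Cfsg.Agent.S1584.v0 ∧ g • vStar = vStar ∧ g • x = x'

theorem RelM.symm {x x' : ↥leechLattice} (h : RelM x x') : RelM x' x := by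
  obtain ⟨g, h1, h2, h3⟩ := h
  refine ⟨g⁻¹, ?_, ?_, ?_⟩
  · rw [inv_smul_eq_iff, h1]
  · rw [inv_smul_eq_iff, h2]
  · rw [inv_smul_eq_iff, h3]

theorem RelM.trans {x x' x'' : ↥leechLattice} (h : RelM x x') (h' : RelM x' x'') :
    RelM x x'' := by
  obtain ⟨g, h1, h2, h3⟩ := h
  obtain ⟨g', h1', h2', h3'⟩ := h'
  exact ⟨g' * g, by rw [mul_smul, h1, h1'], by rw [mul_smul, h2, h2'],
    by rw [mul_smul, h3, h3']⟩

theorem relM_prm (π : Equiv.Perm GolayPt) (hπ : π ∈ M24) (πa : π a = a) (πb : π b = b)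
    (x x' : ↥leechLattice)
    (h : ∀ k, (x' : GolayPt → ℤ) k = (x : GolayPt → ℤ) (π k)) : RelM x x' := by
  refine ⟨⟨CoA.prmP π hπ, CoA.prmP_mem π hπ⟩, Cfsg.Agent.S1584.prm_v0 π hπ πa,
    prm_vStar π hπ πa πb, ?_⟩
  apply Subtype.ext
  funext k
  show ((CoA.prmP π hπ x : leechLattice) : GolayPt → ℤ) k = (x' : GolayPt → ℤ) k
  rw [CoA.prmP_apply]
  exact (h k).symm

theorem rel_I (x x' : ↥leechLattice) (i j : GolayPt) (hia : i ≠ a) (hib : i ≠ b)
    (hja : j ≠ a) (hjb : j ≠ b) (hx : LeechGen.pp a i 4 = (x : GolayPt → ℤ))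
    (hx' : LeechGen.pp a j 4 = (x' : GolayPt → ℤ)) : RelM x x' := by
  obtain ⟨π, hπ, πa, πb, πj⟩ := Cfsg.Agent.S1584.map3 a b j a b i
    (by simp [ab, Ne.symm hja, Ne.symm hjb]) (by simp [ab, Ne.symm hia, Ne.symm hib])
  apply relM_prm π hπ πa πb
  intro k
  rw [← hx, ← hx']
  unfold LeechGen.pp
  have e1 : (π k = a) ↔ (k = a) := by
    constructor
    · intro h
      apply π.injective
      rw [h, πa]
    · intro h
      rw [h, πa]
  have e2 : (π k = i) ↔ (k = j) := by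
    constructor
    · intro h
      apply π.injective
      rw [h, πj]
    · intro h
      rw [h, πj]
  simp only [e1, e2]

theorem rel_II (x x' : ↥leechLattice) (o o' : Finset GolayPt) (ho : o ∈ octads)
    (ho' : o' ∈ octads) (hoa : a ∈ o) (hob : b ∈ o) (hoa' : a ∈ o') (hob' : b ∈ o')
    (hx : Cfsg.Agent.S1584.octF o = (x : GolayPt → ℤ))
    (hx' : Cfsg.Agent.S1584.octF o' = (x' : GolayPt → ℤ)) : RelM x x' := by
  obtain ⟨π, hπ, πa, πb, πo⟩ := octad_pq o' o ho' ho a b ab hoa' hob' hoa hob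
  apply relM_prm π hπ πa πb
  intro k
  rw [← hx, ← hx']
  unfold Cfsg.Agent.S1584.octF
  have e1 : (π k ∈ o) ↔ (k ∈ o') := by
    rw [← πo, ← Equiv.Perm.smul_def, Finset.smul_mem_smul_finset_iff]
  simp only [e1]

theorem exists_perm_III (o o' : Finset GolayPt) (ho : o ∈ octads) (ho' : o' ∈ octads)
    (hoa : a ∈ o) (hob : b ∉ o) (hoa' : a ∈ o') (hob' : b ∉ o') :
    ∃ π ∈ M24, π a = a ∧ π b = b ∧ π • o' = o := by
  have step1 : ∃ π1 ∈ M24, π1 a = a ∧ π1 • o' = o := by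
    by_cases heq : o' = o
    · exact ⟨1, Subgroup.one_mem _, rfl, by rw [heq, one_smul]⟩
    · have hint := Cfsg.Agent.S0352.result card_golayPt Cfsg.Agent.S0363.result ho' ho heq
      have hain : a ∈ o' ∩ o := Finset.mem_inter.2 ⟨hoa', hoa⟩
      have h1 : 1 < (o' ∩ o).card := by
        have h0 : 0 < (o' ∩ o).card := Finset.card_pos.2 ⟨a, hain⟩
        omega
      obtain ⟨q, hq, hqa⟩ := Finset.exists_mem_ne h1 a
      rw [Finset.mem_inter] at hq
      obtain ⟨π, hπ, πa, -, πo⟩ := octad_pq o' o ho' ho a q (Ne.symm hqa) hoa' hq.1 hoa hq.2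
      exact ⟨π, hπ, πa, πo⟩
  obtain ⟨π1, hπ1, π1a, π1o⟩ := step1
  have hb' : π1 b ∉ o := by
    rw [← π1o, ← Equiv.Perm.smul_def, Finset.smul_mem_smul_finset_iff]
    exact hob'
  obtain ⟨π2, hπ2, π2fix, π2b⟩ := oct_fix_trans o ho (π1 b) b hb' hob
  refine ⟨π2 * π1, Subgroup.mul_mem _ hπ2 hπ1, ?_, ?_, ?_⟩
  · rw [Equiv.Perm.mul_apply, π1a, π2fix a hoa]
  · rw [Equiv.Perm.mul_apply, π2b]
  · rw [mul_smul, π1o]
    ext k
    rw [Finset.mem_smul_finset]
    constructor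
    · rintro ⟨x, hx, rfl⟩
      rw [Equiv.Perm.smul_def, π2fix x hx]
      exact hx
    · intro hk
      exact ⟨k, hk, by rw [Equiv.Perm.smul_def]; exact π2fix k hk⟩

theorem rel_III (x x' : ↥leechLattice) (o o' : Finset GolayPt) (ho : o ∈ octads)
    (ho' : o' ∈ octads) (hoa : a ∈ o) (hob : b ∉ o) (hoa' : a ∈ o') (hob' : b ∉ o')
    (hx : qF o = (x : GolayPt → ℤ)) (hx' : qF o' = (x' : GolayPt → ℤ)) : RelM x x' := by
  obtain ⟨π, hπ, πa, πb, πo⟩ := exists_perm_III o o' ho ho' hoa hob hoa' hob'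
  apply relM_prm π hπ πa πb
  intro k
  rw [← hx, ← hx']
  unfold qF Cfsg.Agent.S1584.octF
  have e1 : (π k ∈ o) ↔ (k ∈ o') := by
    rw [← πo, ← Equiv.Perm.smul_def, Finset.smul_mem_smul_finset_iff]
  have e2 : (π k = a) ↔ (k = a) := by
    constructor
    · intro h
      apply π.injective
      rw [h, πa]
    · intro h
      rw [h, πa]
  simp only [e1, e2]

/-- Two vectors of the standard set with the same coordinate at the first standard point
are in the same orbit. -/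
theorem rel_same (x x' : ↥leechLattice) (hx : InA (x : GolayPt → ℤ))
    (hx' : InA (x' : GolayPt → ℤ))
    (h : (x : GolayPt → ℤ) a = (x' : GolayPt → ℤ) a) : RelM x x' := by
  rcases std275 _ x.2 hx with ⟨i, hia, hib, hi⟩ | ⟨o, ho, hoa, hob, hxo⟩ | ⟨o, ho, hoa, hob, hxo⟩
  · have ea : (x : GolayPt → ℤ) a = 4 := by rw [← hi]; exact (pp_vals i hia hib).1
    rcases std275 _ x'.2 hx' with ⟨j, hja, hjb, hj⟩ | ⟨o', ho', hoa', hob', hxo'⟩ |
      ⟨o', ho', hoa', hob', hxo'⟩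
    · exact rel_I x x' i j hia hib hja hjb hi hj
    · exfalso
      have e2 := (inA_oct o' ho' hoa' hob').2
      rw [hxo'] at e2
      omega
    · exfalso
      have e2 := qF_a o' hoa'
      rw [hxo'] at e2
      omega
  · have ea : (x : GolayPt → ℤ) a = 2 := by rw [← hxo]; exact (inA_oct o ho hoa hob).2
    rcases std275 _ x'.2 hx' with ⟨j, hja, hjb, hj⟩ | ⟨o', ho', hoa', hob', hxo'⟩ |
      ⟨o', ho', hoa', hob', hxo'⟩
    · exfalso
      have e2 := (pp_vals j hja hjb).1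
      rw [hj] at e2
      omega
    · exact rel_II x x' o o' ho ho' hoa hob hoa' hob' hxo hxo'
    · exfalso
      have e2 := qF_a o' hoa'
      rw [hxo'] at e2
      omega
  · have ea : (x : GolayPt → ℤ) a = 3 := by rw [← hxo]; exact qF_a o hoa
    rcases std275 _ x'.2 hx' with ⟨j, hja, hjb, hj⟩ | ⟨o', ho', hoa', hob', hxo'⟩ |
      ⟨o', ho', hoa', hob', hxo'⟩
    · exfalso
      have e2 := (pp_vals j hja hjb).1
      rw [hj] at e2
      omega
    · exfalso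
      have e2 := (inA_oct o' ho' hoa' hob').2
      rw [hxo'] at e2
      omega
    · exact rel_III x x' o o' ho ho' hoa hob hoa' hob' hxo hxo'

theorem bStar_norm : sqNorm ((Orb.bStar : leechLattice) : GolayPt → ℤ) = 32 := by
  show sqNorm Orb.bVec = 32
  decide +kernel

theorem bStar_v0 : dotInt ((Orb.bStar : leechLattice) : GolayPt → ℤ)
    ((Cfsg.Agent.S1584.v0 : leechLattice) : GolayPt → ℤ) = 16 := by
  rw [LeechCross.dot_comm, Cfsg.Agent.S1584.dot_v0]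
  show (∑ i, Orb.bVec i) + 4 * Orb.bVec a = 16
  decide +kernel

theorem bStar_vStar : dotInt ((Orb.bStar : leechLattice) : GolayPt → ℤ)
    ((vStar : leechLattice) : GolayPt → ℤ) = 0 := by
  rw [LeechCross.dot_comm, dot_vStar]
  show 4 * (Orb.bVec a + Orb.bVec b) = 0
  decide +kernel

/-- Two vectors of the standard set orthogonal to the auxiliary octad vector are in the same
orbit, by the rank 3 action on 100 points. -/
theorem link (y y' : ↥leechLattice) (hy : InA (y : GolayPt → ℤ)) (hy' : InA (y' : GolayPt → ℤ))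
    (hz : dotInt ((Orb.bStar : leechLattice) : GolayPt → ℤ) (y : GolayPt → ℤ) = 0)
    (hz' : dotInt ((Orb.bStar : leechLattice) : GolayPt → ℤ) (y' : GolayPt → ℤ) = 0) :
    RelM y y' := by
  have hw : sqNorm ((Orb.bStar - Cfsg.Agent.S1584.v0 : ↥leechLattice) : GolayPt → ℤ) = 48 := by
    rw [AddSubgroup.coe_sub, sqNorm_sub, bStar_norm, Cfsg.Agent.S1584.v0_norm, bStar_v0]
    norm_num
  have hvw : dotInt ((Cfsg.Agent.S1584.v0 : leechLattice) : GolayPt → ℤ)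
      ((Orb.bStar - Cfsg.Agent.S1584.v0 : ↥leechLattice) : GolayPt → ℤ) = -32 := by
    rw [AddSubgroup.coe_sub, dot_sub_right, LeechCross.dot_comm, bStar_v0, dot_self,
      Cfsg.Agent.S1584.v0_norm]
    norm_num
  have hmem : ∀ t : ↥leechLattice, InA (t : GolayPt → ℤ) →
      dotInt ((Orb.bStar : leechLattice) : GolayPt → ℤ) (t : GolayPt → ℤ) = 0 →
      t ∈ {x : ↥leechLattice | sqNorm (x : GolayPt → ℤ) = 32 ∧
        dotInt ((Cfsg.Agent.S1584.v0 : leechLattice) : GolayPt → ℤ) (x : GolayPt → ℤ) = 24 ∧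
        dotInt ((Orb.bStar - Cfsg.Agent.S1584.v0 : ↥leechLattice) : GolayPt → ℤ)
          (x : GolayPt → ℤ) = -24} := by
    intro t ht htz
    obtain ⟨h1, h2, h3⟩ := (inA_iff _).2 ht
    refine ⟨h1, h2, ?_⟩
    rw [AddSubgroup.coe_sub, dot_sub_left, htz, h2]
    norm_num
  have hxS : vStar ∈ {x : ↥leechLattice | sqNorm (x : GolayPt → ℤ) = 32 ∧
        dotInt ((Cfsg.Agent.S1584.v0 : leechLattice) : GolayPt → ℤ) (x : GolayPt → ℤ) = 24 ∧
        dotInt ((Orb.bStar - Cfsg.Agent.S1584.v0 : ↥leechLattice) : GolayPt → ℤ)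
          (x : GolayPt → ℤ) = -24} := by
    refine ⟨vStar_norm, v0_vStar, ?_⟩
    rw [AddSubgroup.coe_sub, dot_sub_left, bStar_vStar, v0_vStar]
    norm_num
  have h16 : ∀ t : ↥leechLattice, InA (t : GolayPt → ℤ) →
      dotInt ((vStar : leechLattice) : GolayPt → ℤ) (t : GolayPt → ℤ) = 16 :=
    fun t ht => ((inA_iff _).2 ht).2.2
  have hne : ∀ t : ↥leechLattice, InA (t : GolayPt → ℤ) → t ≠ vStar := by
    intro t ht h
    have e := h16 t ht
    rw [h, dot_self, vStar_norm] at e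
    norm_num at e
  obtain ⟨g, g1, g2, g3, g4⟩ := (Cfsg.Agent.S1584.result Cfsg.Agent.S1584.v0
    (Orb.bStar - Cfsg.Agent.S1584.v0) vStar Cfsg.Agent.S1584.v0_norm hw hvw hxS).2.2
    y (hmem y hy hz) y' (hmem y' hy' hz') (hne y hy) (hne y' hy')
    (by rw [h16 y hy, h16 y' hy'])
  exact ⟨g, g1, g3, g4⟩

def y4L : List ℤ := [0, 0, 0, 0, 0, 4, 4, 0, 0, 0, 0, 0, 0, 0, 0, 0, 0, 0, 0, 0, 0, 0, 0, 0]

def y2L : List ℤ := [0, 0, 0, 0, 0, 2, 2, 0, 2, 2, 0, 0, 0, 0, 2, 0, 0, 0, 2, 2, 2, 0, 0, 0]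

def y3L : List ℤ := [1, -1, -1, -1, -1, 3, 1, 1, -1, 1, 1, -1, 1, -1, 1, 1, 1, 1, 1, 1, 1, 1, 1,
  1]

set_option maxRecDepth 100000 in
theorem y4_chk : Xi.inD (fun k => 2 * Orb.vecL y4L k) 0 0 := by decide +kernel

set_option maxRecDepth 100000 in
theorem y2_chk : Xi.inD (fun k => 2 * Orb.vecL y2L k) 0 1852256 := by decide +kernel

set_option maxRecDepth 100000 in
theorem y3_chk : Xi.inD (fun k => 2 * Orb.vecL y3L k) 1 10558 := by decide +kernel

def y4 : leechLattice := ⟨Orb.vecL y4L, Orb.mem_of_double _ 0 0 y4_chk⟩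

def y2 : leechLattice := ⟨Orb.vecL y2L, Orb.mem_of_double _ 0 1852256 y2_chk⟩

def y3 : leechLattice := ⟨Orb.vecL y3L, Orb.mem_of_double _ 1 10558 y3_chk⟩

set_option maxRecDepth 100000 in
theorem y4_props : (sqNorm (Orb.vecL y4L) = 32 ∧ (∑ i, Orb.vecL y4L i) + 4 * Orb.vecL y4L a = 24
    ∧ Orb.vecL y4L a + Orb.vecL y4L b = 4) ∧ dotInt Orb.bVec (Orb.vecL y4L) = 0 ∧
    Orb.vecL y4L a = 4 := by decide +kernel

set_option maxRecDepth 100000 in
theorem y2_props : (sqNorm (Orb.vecL y2L) = 32 ∧ (∑ i, Orb.vecL y2L i) + 4 * Orb.vecL y2L a = 24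
    ∧ Orb.vecL y2L a + Orb.vecL y2L b = 4) ∧ dotInt Orb.bVec (Orb.vecL y2L) = 0 ∧
    Orb.vecL y2L a = 2 := by decide +kernel

set_option maxRecDepth 100000 in
theorem y3_props : (sqNorm (Orb.vecL y3L) = 32 ∧ (∑ i, Orb.vecL y3L i) + 4 * Orb.vecL y3L a = 24
    ∧ Orb.vecL y3L a + Orb.vecL y3L b = 4) ∧ dotInt Orb.bVec (Orb.vecL y3L) = 0 ∧
    Orb.vecL y3L a = 3 := by decide +kernel

/-- The joint stabiliser of the two standard vectors is transitive on the standard set of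
275. -/
theorem std_trans (x x' : ↥leechLattice) (hx : InA (x : GolayPt → ℤ))
    (hx' : InA (x' : GolayPt → ℤ)) : RelM x x' := by
  have i4 : InA ((y4 : leechLattice) : GolayPt → ℤ) := y4_props.1
  have i2 : InA ((y2 : leechLattice) : GolayPt → ℤ) := y2_props.1
  have i3 : InA ((y3 : leechLattice) : GolayPt → ℤ) := y3_props.1
  have l42 : RelM y4 y2 := link y4 y2 i4 i2 y4_props.2.1 y2_props.2.1
  have l43 : RelM y4 y3 := link y4 y3 i4 i3 y4_props.2.1 y3_props.2.1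
  have key : ∀ t : ↥leechLattice, InA (t : GolayPt → ℤ) → RelM t y4 := by
    intro t ht
    rcases std275 _ t.2 ht with ⟨i, hia, hib, hi⟩ | ⟨o, ho, hoa, hob, hxo⟩ |
      ⟨o, ho, hoa, hob, hxo⟩
    · apply rel_same t y4 ht i4
      rw [← hi, (pp_vals i hia hib).1]
      exact y4_props.2.2.symm
    · refine (rel_same t y2 ht i2 ?_).trans l42.symm
      rw [← hxo, (inA_oct o ho hoa hob).2]
      exact y2_props.2.2.symm
    · refine (rel_same t y3 ht i3 ?_).trans l43.symm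
      rw [← hxo, qF_a o hoa]
      exact y3_props.2.2.symm
  exact (key x hx).trans (key x' hx').symm

/-- The McLaughlin configuration: for u of customary norm 6 and v minimal with u − v minimal, there are 275 further such summands x of customary inner product 2 with v, permuted transitively by the stabiliser of u and v. -/
theorem result (u v : ↥Cfsg.leechLattice) (hu : Cfsg.sqNorm (u : Cfsg.GolayPt → ℤ) = 48) (hv : Cfsg.sqNorm (v : Cfsg.GolayPt → ℤ) = 32 ∧ Cfsg.sqNorm ((u - v) : Cfsg.GolayPt → ℤ) = 32) : {x : ↥Cfsg.leechLattice | Cfsg.sqNorm (x : Cfsg.GolayPt → ℤ) = 32 ∧ Cfsg.sqNorm ((u - x) : Cfsg.GolayPt → ℤ) = 32 ∧ Cfsg.dotInt (v : Cfsg.GolayPt → ℤ) (x : Cfsg.GolayPt → ℤ) = 16}.ncard = 275 ∧ ∀ x ∈ {x : ↥Cfsg.leechLattice | Cfsg.sqNorm (x : Cfsg.GolayPt → ℤ) = 32 ∧ Cfsg.sqNorm ((u - x) : Cfsg.GolayPt → ℤ) = 32 ∧ Cfsg.dotInt (v : Cfsg.GolayPt → ℤ) (x : Cfsg.GolayPt → ℤ) = 16}, ∀ x' ∈ {x : ↥Cfsg.leechLattice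 | Cfsg.sqNorm (x : Cfsg.GolayPt → ℤ) = 32 ∧ Cfsg.sqNorm ((u - x) : Cfsg.GolayPt → ℤ) = 32 ∧ Cfsg.dotInt (v : Cfsg.GolayPt → ℤ) (x : Cfsg.GolayPt → ℤ) = 16}, ∃ g : ↥Cfsg.Co0, g • u = u ∧ g • v = v ∧ g • x = x' := by
  have huv : dotInt (u : GolayPt → ℤ) (v : GolayPt → ℤ) = 24 := (sub_norm u v hu hv.1).1 hv.2
  have hmem : ∀ x : ↥leechLattice, (sqNorm (x : GolayPt → ℤ) = 32 ∧
      sqNorm ((u : GolayPt → ℤ) - (x : GolayPt → ℤ)) = 32 ∧
      dotInt (v : GolayPt → ℤ) (x : GolayPt → ℤ) = 16) ↔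
      (sqNorm (x : GolayPt → ℤ) = 32 ∧ dotInt (u : GolayPt → ℤ) (x : GolayPt → ℤ) = 24 ∧
      dotInt (v : GolayPt → ℤ) (x : GolayPt → ℤ) = 16) := by
    intro x
    constructor
    · rintro ⟨h1, h2, h3⟩
      exact ⟨h1, (sub_norm u x hu h1).1 h2, h3⟩
    · rintro ⟨h1, h2, h3⟩
      exact ⟨h1, (sub_norm u x hu h1).2 h2, h3⟩
  have hset : {x : ↥leechLattice | sqNorm (x : GolayPt → ℤ) = 32 ∧
      sqNorm ((u : GolayPt → ℤ) - (x : GolayPt → ℤ)) = 32 ∧
      dotInt (v : GolayPt → ℤ) (x : GolayPt → ℤ) = 16} =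
      {x : ↥leechLattice | sqNorm (x : GolayPt → ℤ) = 32 ∧
      dotInt (u : GolayPt → ℤ) (x : GolayPt → ℤ) = 24 ∧
      dotInt (v : GolayPt → ℤ) (x : GolayPt → ℤ) = 16} := by
    ext x
    exact hmem x
  rw [hset]
  refine ⟨cnt275 u v hu hv.1 huv, ?_⟩
  rintro x ⟨hx1, hx2, hx3⟩ x' ⟨hx1', hx2', hx3'⟩
  obtain ⟨G1, hG1⟩ := Cfsg.Agent.S0401.result u Cfsg.Agent.S1584.v0 hu Cfsg.Agent.S1584.v0_norm
  have hd1 : dotInt ((Cfsg.Agent.S1584.v0 : leechLattice) : GolayPt → ℤ)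
      ((G1 • v : ↥leechLattice) : GolayPt → ℤ) = 24 := by
    rw [← hG1, Cfsg.Agent.S1640.hdotp]
    exact huv
  have hn1 : sqNorm ((G1 • v : ↥leechLattice) : GolayPt → ℤ) = 32 := by
    rw [Cfsg.Agent.S1640.hnorm]
    exact hv.1
  obtain ⟨G2, hG2u, hG2v⟩ := Cfsg.Agent.S1579.result Cfsg.Agent.S1584.v0 (G1 • v) Stv.vStar
    Cfsg.Agent.S1584.v0_norm
    ⟨hn1, (sub_norm Cfsg.Agent.S1584.v0 (G1 • v) Cfsg.Agent.S1584.v0_norm hn1).2 hd1⟩
    ⟨Stv.vStar_norm, (sub_norm Cfsg.Agent.S1584.v0 Stv.vStar Cfsg.Agent.S1584.v0_norm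
      Stv.vStar_norm).2 v0_vStar⟩
  obtain ⟨G, hG⟩ : ∃ G : ↥Co0, G = G2 * G1 := ⟨_, rfl⟩
  have hGu : G • u = Cfsg.Agent.S1584.v0 := by
    rw [hG, mul_smul, hG1, hG2u]
  have hGv : G • v = Stv.vStar := by
    rw [hG, mul_smul, hG2v]
  have t1 : InA ((G • x : ↥leechLattice) : GolayPt → ℤ) := by
    rw [← inA_iff]
    exact ⟨by rw [Cfsg.Agent.S1640.hnorm]; exact hx1,
      by rw [← hGu, Cfsg.Agent.S1640.hdotp]; exact hx2,
      by rw [← hGv, Cfsg.Agent.S1640.hdotp]; exact hx3⟩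
  have t1' : InA ((G • x' : ↥leechLattice) : GolayPt → ℤ) := by
    rw [← inA_iff]
    exact ⟨by rw [Cfsg.Agent.S1640.hnorm]; exact hx1',
      by rw [← hGu, Cfsg.Agent.S1640.hdotp]; exact hx2',
      by rw [← hGv, Cfsg.Agent.S1640.hdotp]; exact hx3'⟩
  obtain ⟨g0, g0u, g0v, g0x⟩ := std_trans (G • x) (G • x') t1 t1'
  refine ⟨G⁻¹ * g0 * G, ?_, ?_, ?_⟩
  · rw [mul_smul, mul_smul, hGu, g0u, ← hGu, inv_smul_smul]
  · rw [mul_smul, mul_smul, hGv, g0v, ← hGv, inv_smul_smul]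
  · rw [mul_smul, mul_smul, g0x, inv_smul_smul]
end Cfsg.Agent.S1580
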