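import Cfsg.Statements.S0405
import Cfsg.Agent.S1584
import Cfsg.Agent.S1580
import Cfsg.Agent.S0397
import Cfsg.Agent.Lib.Helper28.Rank3
import Cfsg.Agent.Lib.Helper4.GolayM21
import Cfsg.Agent.Lib.Helper4.GolayStab

set_option autoImplicit false
open Cfsg

namespace Cfsg.Agent.S0405

open Cfsg.Agent.Lib.Helper28 Cfsg.Agent.Lib.Helper4
open Cfsg.Agent.Lib.Helper4.Stv
open Cfsg.Agent.S1584 Cfsg.Agent.S1571

/-- Conjugate point pairs have isomorphic joint stabilisers. -/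
theorem transfer (g : ↥Co0) (v w : ↥leechLattice)
    (h : IsHS ↥(MulAction.stabilizer ↥Co0 (g • v) ⊓ MulAction.stabilizer ↥Co0 (g • w))) :
    IsHS ↥(MulAction.stabilizer ↥Co0 v ⊓ MulAction.stabilizer ↥Co0 w) := by
  have e : Nonempty (↥(MulAction.stabilizer ↥Co0 v ⊓ MulAction.stabilizer ↥Co0 w) ≃*
      ↥(MulAction.stabilizer ↥Co0 (g • v) ⊓ MulAction.stabilizer ↥Co0 (g • w))) := by
    rw [MulAction.stabilizer_smul_eq_stabilizer_map_conj,
      MulAction.stabilizer_smul_eq_stabilizer_map_conj,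
      ← Subgroup.map_inf_eq _ _ _ (MulAut.conj g).injective]
    exact ⟨Subgroup.equivMapOfInjective _ _ (MulAut.conj g).injective⟩
  obtain ⟨e⟩ := e
  obtain ⟨h1, h2⟩ := h
  exact ⟨e.isSimpleGroup, by rw [Nat.card_congr e.toEquiv]; exact h2⟩

/-- The second standard vector. -/
def w0 : ↥leechLattice := wA1 - v0

theorem v0_add_w0 : v0 + w0 = wA1 := by
  unfold w0
  abel

theorem w0_norm : sqNorm ((w0 : ↥leechLattice) : GolayPt → ℤ) = 48 := by
  show sqNorm (((wA1 - v0 : ↥leechLattice)) : GolayPt → ℤ) = 48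
  rw [AddSubgroup.coe_sub, sqNorm_sub, wA1_norm, v0_norm, wA1_v0]
  norm_num

theorem v0_w0 : dotInt ((v0 : ↥leechLattice) : GolayPt → ℤ)
    ((w0 : ↥leechLattice) : GolayPt → ℤ) = -32 := by
  show dotInt _ (((wA1 - v0 : ↥leechLattice)) : GolayPt → ℤ) = -32
  rw [AddSubgroup.coe_sub, Cfsg.Agent.S1580.dot_sub_right, LeechCross.dot_comm, wA1_v0,
    Cfsg.Agent.S1580.dot_self, v0_norm]
  norm_num

theorem mem_S0 (y : ↥leechLattice) : (sqNorm (y : GolayPt → ℤ) = 32 ∧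
    dotInt ((v0 : ↥leechLattice) : GolayPt → ℤ) (y : GolayPt → ℤ) = 24 ∧
    dotInt ((w0 : ↥leechLattice) : GolayPt → ℤ) (y : GolayPt → ℤ) = -24) ↔
    InS (y : GolayPt → ℤ) := by
  rw [← inS_iff]
  have e : dotInt ((w0 : ↥leechLattice) : GolayPt → ℤ) (y : GolayPt → ℤ) =
      dotInt ((wA1 : ↥leechLattice) : GolayPt → ℤ) (y : GolayPt → ℤ) -
      dotInt ((v0 : ↥leechLattice) : GolayPt → ℤ) (y : GolayPt → ℤ) := by
    show dotInt (((wA1 - v0 : ↥leechLattice)) : GolayPt → ℤ) _ = _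
    rw [AddSubgroup.coe_sub, Cfsg.Agent.S1580.dot_sub_left]
  rw [e]
  constructor
  · rintro ⟨h1, h2, h3⟩
    exact ⟨h1, by omega, h2⟩
  · rintro ⟨h1, h2, h3⟩
    exact ⟨h1, h3, by omega⟩

theorem fix_wA1 (g : ↥Co0) (h1 : g • v0 = v0) (h2 : g • w0 = w0) : g • wA1 = wA1 := by
  rw [← v0_add_w0, co_add, h1, h2]

theorem fix_w0 (g : ↥Co0) (h1 : g • v0 = v0) (h2 : g • wA1 = wA1) : g • w0 = w0 := by
  have h := co_add g v0 w0
  rw [v0_add_w0, h1, h2] at h
  rw [← v0_add_w0] at h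
  exact (add_left_cancel h).symm

/-- An automorphism fixing `8 e_p` preserves the standard cross. -/
theorem stab_std_pt (p : GolayPt) (g : ↥Co0) (hg : g • CoA.bv p = CoA.bv p) : StdP g := by
  classical
  rintro v ⟨j, s0, hs0, hv⟩
  have hvn : sqNorm (v : GolayPt → ℤ) = 64 := by
    rw [hv]
    unfold sqNorm
    rw [Finset.sum_eq_single j]
    · rw [Pi.single_eq_same]
      rcases hs0 with h | h <;> rw [h] <;> norm_num
    · intro k _ hk
      rw [Pi.single_eq_of_ne hk]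
      norm_num
    · intro h'
      exact absurd (Finset.mem_univ j) h'
  apply Cfsg.Agent.S0397.cross_std _ (g • v).2 (by rw [Cfsg.Agent.S0397.co_norm]; exact hvn) p
  obtain ⟨z0, hz0, hz0c⟩ : ∃ z0 ∈ leechLattice,
      ((CoA.bv p : ↥leechLattice) : GolayPt → ℤ) - (v : GolayPt → ℤ) = 2 • z0 := by
    rcases hs0 with h | h
    · refine ⟨LeechGen.pp p j (-4), LeechGen.pp_mem p j (-4) (Or.inr rfl), ?_⟩
      rw [hv, h]
      funext k
      rw [Pi.sub_apply, Pi.smul_apply, nsmul_eq_mul, CoA.bv_apply, Pi.single_apply]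
      unfold LeechGen.pp
      push_cast
      split_ifs <;> ring
    · refine ⟨LeechGen.pp p j 4, LeechGen.pp_mem p j 4 (Or.inl rfl), ?_⟩
      rw [hv, h]
      funext k
      rw [Pi.sub_apply, Pi.smul_apply, nsmul_eq_mul, CoA.bv_apply, Pi.single_apply]
      unfold LeechGen.pp
      push_cast
      split_ifs <;> ring
  have h1 := Cfsg.Agent.S0397.congr_smul g (CoA.bv p) v z0 hz0 hz0c
  rw [hg] at h1
  exact ⟨_, (g • (⟨z0, hz0⟩ : ↥leechLattice)).2, h1⟩

theorem bv_a : vStar + wA1 = CoA.bv a := by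
  apply Subtype.ext
  funext k
  show LeechGen.pp a b 4 k + LeechGen.pp a b (-4) k = _
  rw [CoA.bv_apply]
  unfold LeechGen.pp
  split_ifs <;> norm_num

/-- An automorphism fixing the three standard vectors is a coordinate permutation fixing the
two base points. -/
theorem stab_perm (g : ↥Co0) (h1 : g • v0 = v0) (h2 : g • wA1 = wA1) (h3 : g • vStar = vStar) :
    ∃ σ : ↥M24, (σ : Equiv.Perm GolayPt) a = a ∧ (σ : Equiv.Perm GolayPt) b = b ∧
      ∀ (v : ↥leechLattice) (k : GolayPt), ((g • v : ↥leechLattice) : GolayPt → ℤ) k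
        = (v : GolayPt → ℤ) ((σ : Equiv.Perm GolayPt) k) := by
  have hb : g • CoA.bv a = CoA.bv a := by
    rw [← bv_a, co_add, h3, h2]
  obtain ⟨σ, c, hmk⟩ := mk_surj g (stab_std_pt a g hb)
  have hform : ∀ (v : ↥leechLattice) (k : GolayPt),
      ((g • v : ↥leechLattice) : GolayPt → ℤ) k
        = if (c : GolayPt → ZMod 2) k = 1 then -(v : GolayPt → ℤ) ((σ : Equiv.Perm GolayPt) k)
          else (v : GolayPt → ℤ) ((σ : Equiv.Perm GolayPt) k) := by
    intro v k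
    rw [← hmk, mk_apply]
  have hpos : ∀ k, 0 < ((v0 : ↥leechLattice) : GolayPt → ℤ) k := by
    intro k
    show 0 < oddF a 5 k
    unfold oddF
    split_ifs <;> norm_num
  have hc : ∀ k, ¬ (c : GolayPt → ZMod 2) k = 1 := by
    intro k hk
    have h := hform v0 k
    rw [h1, if_pos hk] at h
    have p1 := hpos k
    have p2 := hpos ((σ : Equiv.Perm GolayPt) k)
    omega
  have hform' : ∀ (v : ↥leechLattice) (k : GolayPt),
      ((g • v : ↥leechLattice) : GolayPt → ℤ) k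
        = (v : GolayPt → ℤ) ((σ : Equiv.Perm GolayPt) k) := by
    intro v k
    rw [hform, if_neg (hc k)]
  refine ⟨σ, ?_, ?_, hform'⟩
  · have h := hform' v0 a
    rw [h1] at h
    by_contra hne
    have e1 : ((v0 : ↥leechLattice) : GolayPt → ℤ) a = 5 := by
      show oddF a 5 a = 5
      unfold oddF
      rw [if_pos rfl]
    have e2 : ((v0 : ↥leechLattice) : GolayPt → ℤ) ((σ : Equiv.Perm GolayPt) a) = 1 := by
      show oddF a 5 _ = 1
      unfold oddF
      rw [if_neg hne]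
    rw [e1, e2] at h
    norm_num at h
  · have h := hform' wA1 b
    rw [h2] at h
    by_contra hne
    have e1 : ((wA1 : ↥leechLattice) : GolayPt → ℤ) b = -4 := by
      show LeechGen.pp a b (-4) b = -4
      decide
    have e2 : 0 ≤ ((wA1 : ↥leechLattice) : GolayPt → ℤ) ((σ : Equiv.Perm GolayPt) b) := by
      show 0 ≤ LeechGen.pp a b (-4) _
      unfold LeechGen.pp
      rw [if_neg hne]
      split_ifs <;> norm_num
    rw [e1] at h
    omega

theorem conj_mem (π : Equiv.Perm GolayPt) (hπ : π ∈ M24) (m : ↥(Golay.KK [1, 0])) :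
    π * (m : Equiv.Perm GolayPt)⁻¹ * π⁻¹ ∈ M24 :=
  M24.mul_mem (M24.mul_mem hπ (M24.inv_mem (Golay.mem_KK.mp m.2).1)) (M24.inv_mem hπ)

theorem conj_fix (π m : Equiv.Perm GolayPt) (p q : GolayPt) (hπ : π p = q) (hm : m p = p) :
    (π * m⁻¹ * π⁻¹) q = q := by
  rw [Equiv.Perm.mul_apply, Equiv.Perm.mul_apply]
  have e1 : π⁻¹ q = p := by
    rw [Equiv.Perm.inv_eq_iff_eq, hπ]
  have e2 : m⁻¹ p = p := by
    rw [Equiv.Perm.inv_eq_iff_eq, hm]
  rw [e1, e2, hπ]

/-- The coordinate permutations of the two-point stabiliser, transported to the base points. -/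
def phi0 (π : Equiv.Perm GolayPt) (hπ : π ∈ M24) : ↥(Golay.KK [1, 0]) →* ↥Co0 where
  toFun m := ⟨CoA.prmP (π * (m : Equiv.Perm GolayPt)⁻¹ * π⁻¹) (conj_mem π hπ m),
    CoA.prmP_mem _ _⟩
  map_one' := by
    apply Subtype.ext
    apply Equiv.ext
    intro v
    apply Subtype.ext
    funext k
    show (v : GolayPt → ℤ) ((π * ((1 : ↥(Golay.KK [1, 0])) : Equiv.Perm GolayPt)⁻¹ * π⁻¹) k)
      = (v : GolayPt → ℤ) k
    simp
  map_mul' m1 m2 := by
    apply Subtype.ext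
    apply Equiv.ext
    intro v
    apply Subtype.ext
    funext k
    show (v : GolayPt → ℤ) ((π * ((m1 * m2 : ↥(Golay.KK [1, 0])) : Equiv.Perm GolayPt)⁻¹ * π⁻¹) k)
      = (v : GolayPt → ℤ) ((π * (m2 : Equiv.Perm GolayPt)⁻¹ * π⁻¹)
          ((π * (m1 : Equiv.Perm GolayPt)⁻¹ * π⁻¹) k))
    simp [mul_inv_rev]

theorem phi0_apply (π : Equiv.Perm GolayPt) (hπ : π ∈ M24) (m : ↥(Golay.KK [1, 0]))
    (v : ↥leechLattice) (k : GolayPt) :
    ((phi0 π hπ m • v : ↥leechLattice) : GolayPt → ℤ) k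
      = (v : GolayPt → ℤ) ((π * (m : Equiv.Perm GolayPt)⁻¹ * π⁻¹) k) := rfl

theorem phi0_fix (π : Equiv.Perm GolayPt) (hπ : π ∈ M24) (π0 : π (Golay.pt 0) = a)
    (π1 : π (Golay.pt 1) = b) (m : ↥(Golay.KK [1, 0])) :
    phi0 π hπ m • v0 = v0 ∧ phi0 π hπ m • wA1 = wA1 ∧ phi0 π hπ m • vStar = vStar := by
  have hm := (Golay.mem_KK.mp m.2).2
  have ha : (π * (m : Equiv.Perm GolayPt)⁻¹ * π⁻¹) a = a :=
    conj_fix π m (Golay.pt 0) a π0 (hm 0 (by simp))
  have hb : (π * (m : Equiv.Perm GolayPt)⁻¹ * π⁻¹) b = b :=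
    conj_fix π m (Golay.pt 1) b π1 (hm 1 (by simp))
  exact ⟨prm_v0 _ (conj_mem π hπ m) ha, prm_wA1 _ (conj_mem π hπ m) ha hb,
    prm_vStar _ (conj_mem π hπ m) ha hb⟩

theorem phi0_mem (π : Equiv.Perm GolayPt) (hπ : π ∈ M24) (π0 : π (Golay.pt 0) = a)
    (π1 : π (Golay.pt 1) = b) (m : ↥(Golay.KK [1, 0])) :
    phi0 π hπ m ∈ MulAction.stabilizer ↥Co0 v0 ⊓ MulAction.stabilizer ↥Co0 w0 := by
  obtain ⟨h1, h2, -⟩ := phi0_fix π hπ π0 π1 m
  exact Subgroup.mem_inf.2 ⟨h1, fix_w0 _ h1 h2⟩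

/-- The homomorphism from the two-point stabiliser of the code group into the joint stabiliser
of the standard pair. -/
def phi (π : Equiv.Perm GolayPt) (hπ : π ∈ M24) (π0 : π (Golay.pt 0) = a)
    (π1 : π (Golay.pt 1) = b) :
    ↥(Golay.KK [1, 0]) →* ↥(MulAction.stabilizer ↥Co0 v0 ⊓ MulAction.stabilizer ↥Co0 w0) :=
  (phi0 π hπ).codRestrict _ (phi0_mem π hπ π0 π1)

theorem vStar_mem : sqNorm ((vStar : ↥leechLattice) : GolayPt → ℤ) = 32 ∧
    dotInt ((v0 : ↥leechLattice) : GolayPt → ℤ) ((vStar : ↥leechLattice) : GolayPt → ℤ) = 24 ∧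
    dotInt ((w0 : ↥leechLattice) : GolayPt → ℤ) ((vStar : ↥leechLattice) : GolayPt → ℤ) = -24 :=
  (mem_S0 vStar).2 inS_vStar

theorem orbit_eq :
    MulAction.orbit ↥(MulAction.stabilizer ↥Co0 v0 ⊓ MulAction.stabilizer ↥Co0 w0) vStar =
      {x : ↥leechLattice | sqNorm (x : GolayPt → ℤ) = 32 ∧
        dotInt ((v0 : ↥leechLattice) : GolayPt → ℤ) (x : GolayPt → ℤ) = 24 ∧
        dotInt ((w0 : ↥leechLattice) : GolayPt → ℤ) (x : GolayPt → ℤ) = -24} := by
  ext y
  constructor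
  · rintro ⟨h, rfl⟩
    have hv : h.1 • v0 = v0 := (Subgroup.mem_inf.1 h.2).1
    have hw : h.1 • w0 = w0 := (Subgroup.mem_inf.1 h.2).2
    obtain ⟨m1, m2, m3⟩ := vStar_mem
    show sqNorm ((h.1 • vStar : ↥leechLattice) : GolayPt → ℤ) = 32 ∧
      dotInt ((v0 : ↥leechLattice) : GolayPt → ℤ)
        ((h.1 • vStar : ↥leechLattice) : GolayPt → ℤ) = 24 ∧
      dotInt ((w0 : ↥leechLattice) : GolayPt → ℤ)
        ((h.1 • vStar : ↥leechLattice) : GolayPt → ℤ) = -24
    refine ⟨by rw [Cfsg.Agent.S1640.hnorm]; exact m1, ?_, ?_⟩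
    · have e := Cfsg.Agent.S1640.hdotp h.1 v0 vStar
      rw [hv] at e
      rw [e]
      exact m2
    · have e := Cfsg.Agent.S1640.hdotp h.1 w0 vStar
      rw [hw] at e
      rw [e]
      exact m3
  · intro hy
    obtain ⟨g, g1, g2, g3⟩ := (Cfsg.Agent.S1583.result v0 w0 v0_norm w0_norm v0_w0).2 vStar
      vStar_mem y hy
    exact ⟨⟨g, Subgroup.mem_inf.2 ⟨g1, g2⟩⟩, g3⟩

theorem ncard_sub' {α : Type*} (T : Set α) (Q : α → Prop) :
    {y : ↥T | Q (y : α)}.ncard = {y : α | y ∈ T ∧ Q y}.ncard := by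
  rw [← Set.ncard_image_of_injective _ Subtype.val_injective]
  congr 1
  ext y
  constructor
  · rintro ⟨⟨z, hz⟩, hq, rfl⟩
    exact ⟨hz, hq⟩
  · rintro ⟨hz, hq⟩
    exact ⟨⟨y, hz⟩, hq, rfl⟩

/-- The standard joint stabiliser is simple of the stated order. -/
theorem std_HS : IsHS ↥(MulAction.stabilizer ↥Co0 v0 ⊓ MulAction.stabilizer ↥Co0 w0) := by
  classical
  obtain ⟨π, hπ, π0, π1⟩ := Golay.exists_map2 (a := Golay.pt 0) (b := Golay.pt 1) (c := a)
    (d := b) (by decide) ab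
  have := Golay.M22_simple
  obtain ⟨c100, tr100⟩ := Cfsg.Agent.S1583.result v0 w0 v0_norm w0_norm v0_w0
  obtain ⟨c22, c77, tr3⟩ := Cfsg.Agent.S1584.result v0 w0 vStar v0_norm w0_norm v0_w0 vStar_mem
  have hX : Nat.card ↥(MulAction.orbit
      ↥(MulAction.stabilizer ↥Co0 v0 ⊓ MulAction.stabilizer ↥Co0 w0) vStar) = 100 := by
    rw [Nat.card_coe_set_eq, orbit_eq]
    exact c100
  obtain ⟨x, hx⟩ : ∃ x : ↥(MulAction.orbit
      ↥(MulAction.stabilizer ↥Co0 v0 ⊓ MulAction.stabilizer ↥Co0 w0) vStar),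
      (x : ↥leechLattice) = vStar := ⟨⟨vStar, MulAction.mem_orbit_self _⟩, rfl⟩
  -- the action on the orbit, on coordinates
  have hsm : ∀ (h : ↥(MulAction.stabilizer ↥Co0 v0 ⊓ MulAction.stabilizer ↥Co0 w0))
      (y : ↥(MulAction.orbit
        ↥(MulAction.stabilizer ↥Co0 v0 ⊓ MulAction.stabilizer ↥Co0 w0) vStar)),
      ((h • y : ↥(MulAction.orbit
        ↥(MulAction.stabilizer ↥Co0 v0 ⊓ MulAction.stabilizer ↥Co0 w0) vStar)) : ↥leechLattice)
        = h.1 • (y : ↥leechLattice) := fun h y => rfl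
  have hfixx : ∀ h : ↥(MulAction.stabilizer ↥Co0 v0 ⊓ MulAction.stabilizer ↥Co0 w0),
      h • x = x ↔ h.1 • vStar = vStar := by
    intro h
    rw [Subtype.ext_iff, hsm, hx]
  have hperm : ∀ h : ↥(MulAction.stabilizer ↥Co0 v0 ⊓ MulAction.stabilizer ↥Co0 w0),
      h • x = x → ∃ σ : ↥M24, (σ : Equiv.Perm GolayPt) a = a ∧ (σ : Equiv.Perm GolayPt) b = b ∧
      ∀ (v : ↥leechLattice) (k : GolayPt), ((h.1 • v : ↥leechLattice) : GolayPt → ℤ) k
        = (v : GolayPt → ℤ) ((σ : Equiv.Perm GolayPt) k) := by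
    intro h hh
    have hv : h.1 • v0 = v0 := (Subgroup.mem_inf.1 h.2).1
    have hw : h.1 • w0 = w0 := (Subgroup.mem_inf.1 h.2).2
    exact stab_perm h.1 hv (fix_wA1 h.1 hv hw) ((hfixx h).1 hh)
  have hφ1 : ∀ m, phi π hπ π0 π1 m • x = x := by
    intro m
    rw [hfixx]
    exact (phi0_fix π hπ π0 π1 m).2.2
  have hφ2 : ∀ h : ↥(MulAction.stabilizer ↥Co0 v0 ⊓ MulAction.stabilizer ↥Co0 w0),
      h • x = x → ∃ m, phi π hπ π0 π1 m = h := by
    intro h hh
    obtain ⟨σ, σa, σb, hform⟩ := hperm h hh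
    have hm : π⁻¹ * (σ : Equiv.Perm GolayPt)⁻¹ * π ∈ Golay.KK [1, 0] := by
      rw [Golay.mem_KK]
      refine ⟨M24.mul_mem (M24.mul_mem (M24.inv_mem hπ) (M24.inv_mem σ.2)) hπ, ?_⟩
      intro f hf
      have e1 : (σ : Equiv.Perm GolayPt)⁻¹ a = a := by
        rw [Equiv.Perm.inv_eq_iff_eq, σa]
      have e2 : (σ : Equiv.Perm GolayPt)⁻¹ b = b := by
        rw [Equiv.Perm.inv_eq_iff_eq, σb]
      simp only [List.mem_cons, List.not_mem_nil, or_false] at hf
      rcases hf with rfl | rfl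
      · rw [Equiv.Perm.mul_apply, Equiv.Perm.mul_apply, π1, e2, Equiv.Perm.inv_eq_iff_eq, π1]
      · rw [Equiv.Perm.mul_apply, Equiv.Perm.mul_apply, π0, e1, Equiv.Perm.inv_eq_iff_eq, π0]
    refine ⟨⟨_, hm⟩, ?_⟩
    apply Subtype.ext
    apply Subtype.ext
    apply Equiv.ext
    intro v
    apply Subtype.ext
    funext k
    show ((phi0 π hπ ⟨_, hm⟩ • v : ↥leechLattice) : GolayPt → ℤ) k
      = ((h.1 • v : ↥leechLattice) : GolayPt → ℤ) k
    rw [phi0_apply, hform]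
    simp
  have hinj : Function.Injective (phi π hπ π0 π1) := by
    intro m1 m2 e
    have e0 : phi0 π hπ m1 = phi0 π hπ m2 := congrArg Subtype.val e
    have hk : ∀ k, (π * (m1 : Equiv.Perm GolayPt)⁻¹ * π⁻¹) k
        = (π * (m2 : Equiv.Perm GolayPt)⁻¹ * π⁻¹) k := by
      intro k
      have h1 := phi0_apply π hπ m1 (CoA.bv ((π * (m1 : Equiv.Perm GolayPt)⁻¹ * π⁻¹) k)) k
      rw [e0, phi0_apply, CoA.bv_apply, CoA.bv_apply, if_pos rfl] at h1
      by_contra hne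
      rw [if_neg (fun h => hne h.symm)] at h1
      norm_num at h1
    have e1 : π * (m1 : Equiv.Perm GolayPt)⁻¹ * π⁻¹ = π * (m2 : Equiv.Perm GolayPt)⁻¹ * π⁻¹ :=
      Equiv.ext hk
    apply Subtype.ext
    have e2 : (m1 : Equiv.Perm GolayPt)⁻¹ = (m2 : Equiv.Perm GolayPt)⁻¹ :=
      mul_left_cancel (mul_right_cancel e1)
    exact inv_injective e2
  refine ⟨?_, ?_⟩
  · -- simplicity
    have hf : ∀ h : ↥(MulAction.stabilizer ↥Co0 v0 ⊓ MulAction.stabilizer ↥Co0 w0),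
        (∀ y : ↥(MulAction.orbit
          ↥(MulAction.stabilizer ↥Co0 v0 ⊓ MulAction.stabilizer ↥Co0 w0) vStar), h • y = y) →
        h = 1 := by
      intro h hall
      obtain ⟨σ, σa, σb, hform⟩ := hperm h (hall x)
      have hσ : ∀ i, (σ : Equiv.Perm GolayPt) i = i := by
        intro i
        by_cases hia : i = a
        · rw [hia, σa]
        by_cases hib : i = b
        · rw [hib, σb]
        have hmem : (⟨oddF i (-3), oddF_mem3 i⟩ : ↥leechLattice) ∈ MulAction.orbit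
            ↥(MulAction.stabilizer ↥Co0 v0 ⊓ MulAction.stabilizer ↥Co0 w0) vStar := by
          rw [orbit_eq]
          exact (mem_S0 _).2 (inS_odd i hia hib).1
        have h1 := hall ⟨_, hmem⟩
        rw [Subtype.ext_iff, hsm] at h1
        have h2 := hform ⟨oddF i (-3), oddF_mem3 i⟩ i
        rw [h1] at h2
        by_contra hne
        have e1 : oddF i (-3) i = -3 := by
          unfold oddF
          rw [if_pos rfl]
        have e2 : oddF i (-3) ((σ : Equiv.Perm GolayPt) i) = 1 := by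
          unfold oddF
          rw [if_neg hne]
        have h3 : oddF i (-3) i = oddF i (-3) ((σ : Equiv.Perm GolayPt) i) := h2
        rw [e1, e2] at h3
        norm_num at h3
      apply Subtype.ext
      apply Subtype.ext
      apply Equiv.ext
      intro v
      apply Subtype.ext
      funext k
      show ((h.1 • v : ↥leechLattice) : GolayPt → ℤ) k = (v : GolayPt → ℤ) k
      rw [hform, hσ]
    have hPx : ¬ dotInt ((vStar : ↥leechLattice) : GolayPt → ℤ)
        (((x : ↥leechLattice)) : GolayPt → ℤ) = 8 := by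
      rw [hx, Cfsg.Agent.S1580.dot_self, vStar_norm]
      norm_num
    have h22 : {y : ↥(MulAction.orbit
        ↥(MulAction.stabilizer ↥Co0 v0 ⊓ MulAction.stabilizer ↥Co0 w0) vStar) |
        dotInt ((vStar : ↥leechLattice) : GolayPt → ℤ)
          (((y : ↥leechLattice)) : GolayPt → ℤ) = 8}.ncard = 22 := by
      rw [ncard_sub' _ (fun y : ↥leechLattice => dotInt ((vStar : ↥leechLattice) : GolayPt → ℤ)
        (y : GolayPt → ℤ) = 8), orbit_eq]
      exact c22
    have h77 : {y : ↥(MulAction.orbit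
        ↥(MulAction.stabilizer ↥Co0 v0 ⊓ MulAction.stabilizer ↥Co0 w0) vStar) |
        y ≠ x ∧ ¬ dotInt ((vStar : ↥leechLattice) : GolayPt → ℤ)
          (((y : ↥leechLattice)) : GolayPt → ℤ) = 8}.ncard = 77 := by
      have e : {y : ↥(MulAction.orbit
          ↥(MulAction.stabilizer ↥Co0 v0 ⊓ MulAction.stabilizer ↥Co0 w0) vStar) |
          y ≠ x ∧ ¬ dotInt ((vStar : ↥leechLattice) : GolayPt → ℤ)
            (((y : ↥leechLattice)) : GolayPt → ℤ) = 8} =
          {y : ↥(MulAction.orbit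
          ↥(MulAction.stabilizer ↥Co0 v0 ⊓ MulAction.stabilizer ↥Co0 w0) vStar) |
          (fun y : ↥leechLattice => y ≠ vStar ∧
            dotInt ((vStar : ↥leechLattice) : GolayPt → ℤ) (y : GolayPt → ℤ) ≠ 8)
            (y : ↥leechLattice)} := by
        ext y
        constructor
        · rintro ⟨h1, h2⟩
          exact ⟨fun h => h1 (Subtype.ext (h.trans hx.symm)), h2⟩
        · rintro ⟨h1, h2⟩
          exact ⟨fun h => h1 ((congrArg Subtype.val h).trans hx), h2⟩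
      rw [e, ncard_sub' _ (fun y : ↥leechLattice => y ≠ vStar ∧
        dotInt ((vStar : ↥leechLattice) : GolayPt → ℤ) (y : GolayPt → ℤ) ≠ 8), orbit_eq]
      exact c77
    have htr : ∀ y y' : ↥(MulAction.orbit
        ↥(MulAction.stabilizer ↥Co0 v0 ⊓ MulAction.stabilizer ↥Co0 w0) vStar),
        y ≠ x → y' ≠ x →
        (dotInt ((vStar : ↥leechLattice) : GolayPt → ℤ)
          (((y : ↥leechLattice)) : GolayPt → ℤ) = 8 ↔
         dotInt ((vStar : ↥leechLattice) : GolayPt → ℤ)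
          (((y' : ↥leechLattice)) : GolayPt → ℤ) = 8) →
        ∃ h : ↥(MulAction.stabilizer ↥Co0 v0 ⊓ MulAction.stabilizer ↥Co0 w0),
          h • x = x ∧ h • y = y' := by
      intro y y' hy hy' hiff
      have my : (y : ↥leechLattice) ∈ {x : ↥leechLattice | sqNorm (x : GolayPt → ℤ) = 32 ∧
          dotInt ((v0 : ↥leechLattice) : GolayPt → ℤ) (x : GolayPt → ℤ) = 24 ∧
          dotInt ((w0 : ↥leechLattice) : GolayPt → ℤ) (x : GolayPt → ℤ) = -24} := by
        rw [← orbit_eq]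
        exact y.2
      have my' : (y' : ↥leechLattice) ∈ {x : ↥leechLattice | sqNorm (x : GolayPt → ℤ) = 32 ∧
          dotInt ((v0 : ↥leechLattice) : GolayPt → ℤ) (x : GolayPt → ℤ) = 24 ∧
          dotInt ((w0 : ↥leechLattice) : GolayPt → ℤ) (x : GolayPt → ℤ) = -24} := by
        rw [← orbit_eq]
        exact y'.2
      obtain ⟨g, g1, g2, g3, g4⟩ := tr3 (y : ↥leechLattice) my (y' : ↥leechLattice) my'
        (fun h => hy (Subtype.ext (h.trans hx.symm)))
        (fun h => hy' (Subtype.ext (h.trans hx.symm))) hiff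
      refine ⟨⟨g, Subgroup.mem_inf.2 ⟨g1, g2⟩⟩, ?_, ?_⟩
      · rw [hfixx]
        exact g3
      · rw [Subtype.ext_iff, hsm]
        exact g4
    exact Rank3.simple_abs x hX hf
      (fun y => dotInt ((vStar : ↥leechLattice) : GolayPt → ℤ)
        (((y : ↥leechLattice)) : GolayPt → ℤ) = 8) hPx h22 h77 htr (phi π hπ π0 π1) hφ2
  · rw [Rank3.card_abs x (phi π hπ π0 π1) hinj hφ1 hφ2, hX, Golay.card_KK2]

/-- Joint stabiliser of two vectors of sum of squares 48 with coordinate dot product −32 is simple of order 44352000. -/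
theorem result (v w : Cfsg.leechLattice) (hv : Cfsg.sqNorm (v : Cfsg.GolayPt → ℤ) = 48) (hw : Cfsg.sqNorm (w : Cfsg.GolayPt → ℤ) = 48) (hvw : Cfsg.dotInt (v : Cfsg.GolayPt → ℤ) (w : Cfsg.GolayPt → ℤ) = -32) : Cfsg.IsHS ↥(MulAction.stabilizer Cfsg.Co0 v ⊓ MulAction.stabilizer Cfsg.Co0 w) := by
  have hz : sqNorm ((v + w : ↥leechLattice) : GolayPt → ℤ) = 32 := by
    rw [AddSubgroup.coe_add, Cfsg.Agent.Lib.Helper28.sqNorm_add, hv, hw, hvw]
    norm_num
  have hzv : dotInt ((v + w : ↥leechLattice) : GolayPt → ℤ) (v : GolayPt → ℤ) = 16 := by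
    have h := Cfsg.Agent.Lib.Helper28.sqNorm_sub ((v + w : ↥leechLattice) : GolayPt → ℤ)
      (v : GolayPt → ℤ)
    have e : ((v + w : ↥leechLattice) : GolayPt → ℤ) - (v : GolayPt → ℤ) = (w : GolayPt → ℤ) := by
      rw [AddSubgroup.coe_add]
      abel
    rw [e, hz, hv, hw] at h
    omega
  obtain ⟨g1, hg1z, hg1v⟩ := Cfsg.Agent.S1583.pair_full (v + w) Stv.wA1 v v0 hz wA1_norm hv
    v0_norm hzv wA1_v0
  have hg1w : g1 • w = w0 := by
    have hadd : g1 • (v + w) = g1 • v + g1 • w := g1.2.1 v w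
    rw [hg1z, hg1v, ← v0_add_w0] at hadd
    exact (add_left_cancel hadd).symm
  apply transfer g1
  rw [hg1v, hg1w]
  exact std_HS
end Cfsg.Agent.S0405
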