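import Cfsg.Statements.S1634
import Cfsg.Agent.S0405
import Cfsg.Agent.Lib.Helper28.OctStab

set_option autoImplicit false
open Cfsg

namespace Cfsg.Agent.S1634

open Cfsg.Agent.Lib.Helper28 Cfsg.Agent.Lib.Helper4
open Cfsg.Agent.Lib.Helper4.Stv
open Cfsg.Agent.S1584 Cfsg.Agent.S1571
open scoped Pointwise

theorem dot_neg_left (x y : GolayPt → ℤ) : dotInt (-x) y = - dotInt x y := by
  rw [LeechCross.dot_comm, Cfsg.Agent.S1640.dot_neg_right, LeechCross.dot_comm]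

/-- For a vector `u` of sum of squares 48 and a shortest vector `v` with product 24, exactly 2025
shortest vectors have product 16 with `u` and are orthogonal to `v`. -/
theorem cnt2025 (u v : ↥leechLattice) (hu : sqNorm (u : GolayPt → ℤ) = 48)
    (hv : sqNorm (v : GolayPt → ℤ) = 32)
    (huv : dotInt (u : GolayPt → ℤ) (v : GolayPt → ℤ) = 24) :
    {x : ↥leechLattice | sqNorm (x : GolayPt → ℤ) = 32 ∧
      dotInt (u : GolayPt → ℤ) (x : GolayPt → ℤ) = 16 ∧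
      dotInt (v : GolayPt → ℤ) (x : GolayPt → ℤ) = 0}.ncard = 2025 := by
  classical
  have hP := Cfsg.Agent.S1578.result u hu
  have hQ := (Cfsg.Agent.S1640.result (-u) (by rw [AddSubgroup.coe_neg, sqNorm_neg]; exact hu)).1
  have hPfin := Set.finite_of_ncard_ne_zero (by rw [hP]; norm_num)
  have hQfin := Set.finite_of_ncard_ne_zero (by rw [hQ]; norm_num)
  obtain ⟨FP, hFP⟩ : ∃ FP : Finset ↥leechLattice, ∀ c, c ∈ FP ↔
      (sqNorm (c : GolayPt → ℤ) = 32 ∧ dotInt (u : GolayPt → ℤ) (c : GolayPt → ℤ) = 24) := by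
    refine ⟨hPfin.toFinset, fun c => ?_⟩
    rw [Set.Finite.mem_toFinset]
    constructor
    · rintro ⟨h1, h2⟩
      exact ⟨h1, (Cfsg.Agent.S1580.sub_norm u c hu h1).1 h2⟩
    · rintro ⟨h1, h2⟩
      exact ⟨h1, (Cfsg.Agent.S1580.sub_norm u c hu h1).2 h2⟩
  obtain ⟨FQ, hFQ⟩ : ∃ FQ : Finset ↥leechLattice, ∀ x, x ∈ FQ ↔
      (sqNorm (x : GolayPt → ℤ) = 32 ∧ dotInt (u : GolayPt → ℤ) (x : GolayPt → ℤ) = 16) := by
    refine ⟨hQfin.toFinset, fun x => ?_⟩
    rw [Set.Finite.mem_toFinset]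
    show (sqNorm (x : GolayPt → ℤ) = 32 ∧
      dotInt ((-u : ↥leechLattice) : GolayPt → ℤ) (x : GolayPt → ℤ) = -16) ↔ _
    rw [AddSubgroup.coe_neg, dot_neg_left]
    constructor
    · rintro ⟨h1, h2⟩
      exact ⟨h1, by omega⟩
    · rintro ⟨h1, h2⟩
      exact ⟨h1, by omega⟩
  have hFPc : FP.card = 552 := by
    rw [← hP, ← Set.ncard_coe_finset]
    congr 1
    ext c
    rw [Finset.mem_coe, hFP]
    constructor
    · rintro ⟨h1, h2⟩
      exact ⟨h1, (Cfsg.Agent.S1580.sub_norm u c hu h1).2 h2⟩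
    · rintro ⟨h1, h2⟩
      exact ⟨h1, (Cfsg.Agent.S1580.sub_norm u c hu h1).1 h2⟩
  have hFQc : FQ.card = 11178 := by
    rw [← hQ, ← Set.ncard_coe_finset]
    congr 1
    ext x
    rw [Finset.mem_coe, hFQ]
    show _ ↔ (sqNorm (x : GolayPt → ℤ) = 32 ∧
      dotInt ((-u : ↥leechLattice) : GolayPt → ℤ) (x : GolayPt → ℤ) = -16)
    rw [AddSubgroup.coe_neg, dot_neg_left]
    constructor
    · rintro ⟨h1, h2⟩
      exact ⟨h1, by omega⟩
    · rintro ⟨h1, h2⟩
      exact ⟨h1, by omega⟩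
  have hdc := Finset.sum_card_bipartiteAbove_eq_sum_card_bipartiteBelow (s := FP) (t := FQ)
    (fun (c x : ↥leechLattice) => dotInt (c : GolayPt → ℤ) (x : GolayPt → ℤ) = 0)
  have hvP : v ∈ FP := (hFP v).2 ⟨hv, huv⟩
  -- all fibres over FP have the same size
  have hA : ∀ c ∈ FP, (FQ.bipartiteAbove (fun (c x : ↥leechLattice) =>
      dotInt (c : GolayPt → ℤ) (x : GolayPt → ℤ) = 0) c).card =
      (FQ.bipartiteAbove (fun (c x : ↥leechLattice) =>
      dotInt (c : GolayPt → ℤ) (x : GolayPt → ℤ) = 0) v).card := by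
    intro c hc
    rw [hFP] at hc
    obtain ⟨g, hgu, hgv⟩ := Cfsg.Agent.S1579.result u v c hu
      ⟨hv, (Cfsg.Agent.S1580.sub_norm u v hu hv).2 huv⟩
      ⟨hc.1, (Cfsg.Agent.S1580.sub_norm u c hu hc.1).2 hc.2⟩
    symm
    refine Finset.card_nbij' (fun x => g • x) (fun x => g⁻¹ • x) ?_ ?_ ?_ ?_
    · intro x hx
      rw [Finset.mem_coe, Finset.mem_bipartiteAbove, hFQ] at hx ⊢
      refine ⟨⟨by rw [Cfsg.Agent.S1640.hnorm]; exact hx.1.1, ?_⟩, ?_⟩
      · have e := Cfsg.Agent.S1640.hdotp g u x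
        rw [hgu] at e
        rw [e]
        exact hx.1.2
      · have e := Cfsg.Agent.S1640.hdotp g v x
        rw [hgv] at e
        rw [e]
        exact hx.2
    · intro x hx
      rw [Finset.mem_coe, Finset.mem_bipartiteAbove, hFQ] at hx ⊢
      refine ⟨⟨by rw [Cfsg.Agent.S1640.hnorm]; exact hx.1.1, ?_⟩, ?_⟩
      · have e := Cfsg.Agent.S1640.hdotp g u (g⁻¹ • x)
        rw [hgu, smul_inv_smul] at e
        rw [← e]
        exact hx.1.2
      · have e := Cfsg.Agent.S1640.hdotp g v (g⁻¹ • x)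
        rw [hgv, smul_inv_smul] at e
        rw [← e]
        exact hx.2
    · intro x _
      exact inv_smul_smul g x
    · intro x _
      exact smul_inv_smul g x
  have hB : ∀ x ∈ FQ, (FP.bipartiteBelow (fun (c x : ↥leechLattice) =>
      dotInt (c : GolayPt → ℤ) (x : GolayPt → ℤ) = 0) x).card = 100 := by
    intro x hx
    rw [hFQ] at hx
    rw [← Cfsg.Agent.S1583.cnt100 x u hx.1 hu (by rw [LeechCross.dot_comm]; exact hx.2),
      ← Set.ncard_coe_finset]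
    congr 1
    ext c
    rw [Finset.mem_coe, Finset.mem_bipartiteBelow, hFP]
    show _ ↔ (sqNorm (c : GolayPt → ℤ) = 32 ∧
      dotInt (x : GolayPt → ℤ) (c : GolayPt → ℤ) = 0 ∧
      dotInt (u : GolayPt → ℤ) (c : GolayPt → ℤ) = 24)
    rw [LeechCross.dot_comm (x : GolayPt → ℤ) (c : GolayPt → ℤ)]
    tauto
  rw [Finset.sum_congr rfl hA, Finset.sum_congr rfl hB, Finset.sum_const, Finset.sum_const,
    hFPc, hFQc, smul_eq_mul, smul_eq_mul] at hdc
  have hN : (FQ.bipartiteAbove (fun (c x : ↥leechLattice) =>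
      dotInt (c : GolayPt → ℤ) (x : GolayPt → ℤ) = 0) v).card = 2025 := by omega
  rw [← hN, ← Set.ncard_coe_finset]
  congr 1
  ext x
  rw [Finset.mem_coe, Finset.mem_bipartiteAbove, hFQ]
  constructor
  · rintro ⟨h1, h2, h3⟩
    exact ⟨⟨h1, h2⟩, h3⟩
  · rintro ⟨⟨h1, h2⟩, h3⟩
    exact ⟨h1, h2, h3⟩

/-- The second standard shortest vector. -/
def wM : ↥leechLattice := v0 - vStar

theorem vStar_add_wM : vStar + wM = v0 := by
  unfold wM
  abel

/-- Every configuration is conjugate to the standard one. -/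
theorem frame (v w x : ↥leechLattice) (hv : sqNorm (v : GolayPt → ℤ) = 32)
    (hw : sqNorm (w : GolayPt → ℤ) = 32)
    (hvw : dotInt (v : GolayPt → ℤ) (w : GolayPt → ℤ) = -8)
    (hx : sqNorm (x : GolayPt → ℤ) = 32)
    (hvx : dotInt (v : GolayPt → ℤ) (x : GolayPt → ℤ) = 0)
    (hwx : dotInt (w : GolayPt → ℤ) (x : GolayPt → ℤ) = 16) :
    ∃ G : ↥Co0, G • v = vStar ∧ G • w = wM ∧ G • x = wA1 := by
  have hu : sqNorm ((v + w : ↥leechLattice) : GolayPt → ℤ) = 48 := by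
    rw [AddSubgroup.coe_add, sqNorm_add, hv, hw, hvw]
    norm_num
  have hux : dotInt ((v + w : ↥leechLattice) : GolayPt → ℤ) (x : GolayPt → ℤ) = 16 := by
    rw [AddSubgroup.coe_add, Cfsg.Agent.S1583.dot_add_left, hvx, hwx]
    norm_num
  have huv : dotInt ((v + w : ↥leechLattice) : GolayPt → ℤ) (v : GolayPt → ℤ) = 24 := by
    rw [AddSubgroup.coe_add, Cfsg.Agent.S1583.dot_add_left, Cfsg.Agent.S1580.dot_self, hv,
      LeechCross.dot_comm, hvw]
    norm_num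
  obtain ⟨g1, hg1x, hg1u⟩ := Cfsg.Agent.S1583.pair_full x wA1 (v + w) v0 hx wA1_norm hu v0_norm
    (by rw [LeechCross.dot_comm]; exact hux) wA1_v0
  have hy : sqNorm ((g1 • v : ↥leechLattice) : GolayPt → ℤ) = 32 ∧
      dotInt ((v0 : ↥leechLattice) : GolayPt → ℤ) ((g1 • v : ↥leechLattice) : GolayPt → ℤ) = 24 ∧
      dotInt ((Cfsg.Agent.S0405.w0 : ↥leechLattice) : GolayPt → ℤ)
        ((g1 • v : ↥leechLattice) : GolayPt → ℤ) = -24 := by
    rw [Cfsg.Agent.S0405.mem_S0, ← inS_iff]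
    refine ⟨by rw [Cfsg.Agent.S1640.hnorm]; exact hv, ?_, ?_⟩
    · rw [← hg1x, Cfsg.Agent.S1640.hdotp, LeechCross.dot_comm]
      exact hvx
    · rw [← hg1u, Cfsg.Agent.S1640.hdotp]
      exact huv
  obtain ⟨g2, h21, h22, h23⟩ := (Cfsg.Agent.S1583.result v0 Cfsg.Agent.S0405.w0 v0_norm
    Cfsg.Agent.S0405.w0_norm Cfsg.Agent.S0405.v0_w0).2 (g1 • v) hy vStar
    Cfsg.Agent.S0405.vStar_mem
  have h24 : g2 • wA1 = wA1 := Cfsg.Agent.S0405.fix_wA1 g2 h21 h22
  refine ⟨g2 * g1, ?_, ?_, ?_⟩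
  · rw [mul_smul]
    exact h23
  · have hadd : (g2 * g1) • (v + w) = (g2 * g1) • v + (g2 * g1) • w := co_add _ v w
    have e1 : (g2 * g1) • (v + w) = v0 := by
      rw [mul_smul, hg1u, h21]
    have e2 : (g2 * g1) • v = vStar := by
      rw [mul_smul]
      exact h23
    rw [e1, e2, ← vStar_add_wM] at hadd
    exact (add_left_cancel hadd).symm
  · rw [mul_smul, hg1x, h24]

/-- Coordinate description of the standard set of 2025. -/
def InB (y : GolayPt → ℤ) : Prop :=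
  sqNorm y = 32 ∧ y a + y b = 0 ∧ (∑ i, y i) + 4 * y a = 16

theorem inB_iff (y : GolayPt → ℤ) :
    (sqNorm y = 32 ∧ dotInt ((vStar : leechLattice) : GolayPt → ℤ) y = 0 ∧
      dotInt ((wM : leechLattice) : GolayPt → ℤ) y = 16) ↔ InB y := by
  have e : dotInt ((wM : leechLattice) : GolayPt → ℤ) y =
      dotInt ((v0 : leechLattice) : GolayPt → ℤ) y -
      dotInt ((vStar : leechLattice) : GolayPt → ℤ) y := by
    show dotInt (((v0 - vStar : ↥leechLattice)) : GolayPt → ℤ) _ = _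
    rw [AddSubgroup.coe_sub, Cfsg.Agent.S1580.dot_sub_left]
  rw [e, dot_vStar, dot_v0]
  unfold InB
  constructor
  · rintro ⟨h1, h2, h3⟩
    exact ⟨h1, by omega, by omega⟩
  · rintro ⟨h1, h2, h3⟩
    exact ⟨h1, by omega, by omega⟩

theorem stab_perm' (g : ↥Co0) (h1 : g • vStar = vStar) (h2 : g • wM = wM)
    (h3 : g • wA1 = wA1) :
    ∃ σ : ↥M24, (σ : Equiv.Perm GolayPt) a = a ∧ (σ : Equiv.Perm GolayPt) b = b ∧
      ∀ (v : ↥leechLattice) (k : GolayPt), ((g • v : ↥leechLattice) : GolayPt → ℤ) k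
        = (v : GolayPt → ℤ) ((σ : Equiv.Perm GolayPt) k) := by
  have h0 : g • v0 = v0 := by
    rw [← vStar_add_wM, co_add, h1, h2]
  exact Cfsg.Agent.S0405.stab_perm g h0 h3 h1

theorem perm_fix (σ : Equiv.Perm GolayPt) (hσ : σ ∈ M24) (σa : σ a = a) (σb : σ b = b) :
    (⟨CoA.prmP σ hσ, CoA.prmP_mem σ hσ⟩ : ↥Co0) • vStar = vStar ∧
    (⟨CoA.prmP σ hσ, CoA.prmP_mem σ hσ⟩ : ↥Co0) • wM = wM ∧
    (⟨CoA.prmP σ hσ, CoA.prmP_mem σ hσ⟩ : ↥Co0) • wA1 = wA1 := by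
  have e1 : (⟨CoA.prmP σ hσ, CoA.prmP_mem σ hσ⟩ : ↥Co0) • vStar = vStar :=
    prm_vStar σ hσ σa σb
  have e0 : (⟨CoA.prmP σ hσ, CoA.prmP_mem σ hσ⟩ : ↥Co0) • v0 = v0 := prm_v0 σ hσ σa
  refine ⟨e1, ?_, prm_wA1 σ hσ σa σb⟩
  have h := co_add (⟨CoA.prmP σ hσ, CoA.prmP_mem σ hσ⟩ : ↥Co0) vStar wM
  rw [vStar_add_wM, e0, e1] at h
  rw [← vStar_add_wM] at h
  exact (add_left_cancel h).symm

/-- The orbits of the standard three-vector stabiliser are the orbits of the coordinate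
permutations of the code group fixing the two base points. -/
theorem mem_orbit_std (y z : ↥leechLattice) :
    z ∈ MulAction.orbit ↥(MulAction.stabilizer ↥Co0 vStar ⊓ MulAction.stabilizer ↥Co0 wM ⊓
      MulAction.stabilizer ↥Co0 wA1) y ↔
    ∃ σ ∈ M24, σ a = a ∧ σ b = b ∧ ∀ k, (z : GolayPt → ℤ) k = (y : GolayPt → ℤ) (σ k) := by
  constructor
  · rintro ⟨h, rfl⟩
    have m := h.2
    rw [Subgroup.mem_inf, Subgroup.mem_inf] at m
    obtain ⟨σ, σa, σb, hform⟩ := stab_perm' h.1 m.1.1 m.1.2 m.2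
    exact ⟨σ.1, σ.2, σa, σb, fun k => hform y k⟩
  · rintro ⟨σ, hσ, σa, σb, hk⟩
    obtain ⟨f1, f2, f3⟩ := perm_fix σ hσ σa σb
    refine ⟨⟨⟨CoA.prmP σ hσ, CoA.prmP_mem σ hσ⟩,
      Subgroup.mem_inf.2 ⟨Subgroup.mem_inf.2 ⟨f1, f2⟩, f3⟩⟩, ?_⟩
    apply Subtype.ext
    funext k
    show ((CoA.prmP σ hσ y : leechLattice) : GolayPt → ℤ) k = _
    rw [CoA.prmP_apply, hk]

theorem ncard_of_image {ι : Type*} (S : Set ↥leechLattice) (I : Finset ι)
    (f : ι → GolayPt → ℤ) (hinj : Set.InjOn f (I : Set ι))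
    (h : ∀ z : ↥leechLattice, z ∈ S ↔ ∃ t ∈ I, f t = (z : GolayPt → ℤ))
    (hmem : ∀ t ∈ I, f t ∈ leechLattice) : S.ncard = I.card := by
  rw [← Set.ncard_image_of_injective S Subtype.val_injective, ← Set.ncard_coe_finset I,
    ← Set.InjOn.ncard_image hinj]
  congr 1
  ext y
  constructor
  · rintro ⟨z, hz, rfl⟩
    obtain ⟨t, ht, e⟩ := (h z).1 hz
    exact ⟨t, ht, e⟩
  · rintro ⟨t, ht, rfl⟩
    exact ⟨⟨f t, hmem t ht⟩, (h _).2 ⟨t, ht, rfl⟩, rfl⟩

theorem exists_O176' (p q : GolayPt) (hpq : p ≠ q) :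
    ∃ F : Finset (Finset GolayPt), F.card = 176 ∧
    ∀ o, o ∈ F ↔ (o ∈ octads ∧ p ∈ o ∧ q ∉ o) := by
  have h253 := (Steiner.s5824_deg card_golayPt Cfsg.Agent.S0363.result
    ({p} : Finset GolayPt)).2.1 (Finset.card_singleton p)
  have h77 := (Steiner.s5824_deg card_golayPt Cfsg.Agent.S0363.result
    ({p, q} : Finset GolayPt)).2.2.1 (Finset.card_pair hpq)
  unfold Steiner.deg at h253 h77
  refine ⟨((Steiner.blocks octads).filter (({p} : Finset GolayPt) ⊆ ·)).filter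
    (fun o => ¬ q ∈ o), ?_, ?_⟩
  · have h := Finset.card_filter_add_card_filter_not
      (s := (Steiner.blocks octads).filter (({p} : Finset GolayPt) ⊆ ·)) (fun o => q ∈ o)
    have e : ((Steiner.blocks octads).filter (({p} : Finset GolayPt) ⊆ ·)).filter
        (fun o => q ∈ o) = (Steiner.blocks octads).filter (({p, q} : Finset GolayPt) ⊆ ·) := by
      ext o
      simp only [Finset.mem_filter, Finset.insert_subset_iff, Finset.singleton_subset_iff]
      tauto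
    rw [e, h77, h253] at h
    omega
  · intro o
    rw [Finset.mem_filter, Finset.mem_filter, Steiner.mem_blocks, Finset.singleton_subset_iff]
    tauto

theorem exists_O330 : ∃ F : Finset (Finset GolayPt), F.card = 330 ∧
    ∀ o, o ∈ F ↔ (o ∈ octads ∧ a ∉ o ∧ b ∉ o) := by
  classical
  have h759 := (Steiner.s5824_deg card_golayPt Cfsg.Agent.S0363.result
    (∅ : Finset GolayPt)).1 Finset.card_empty
  have h253 := (Steiner.s5824_deg card_golayPt Cfsg.Agent.S0363.result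
    ({a} : Finset GolayPt)).2.1 (Finset.card_singleton a)
  obtain ⟨F176, hc176, hF176⟩ := exists_O176' b a (Ne.symm ab)
  unfold Steiner.deg at h759 h253
  have e0 : (Steiner.blocks octads).filter ((∅ : Finset GolayPt) ⊆ ·) = Steiner.blocks octads :=
    Finset.filter_true_of_mem (fun o _ => Finset.empty_subset o)
  rw [e0] at h759
  have h1 := Finset.card_filter_add_card_filter_not (s := Steiner.blocks octads)
    (fun o => a ∈ o)
  have e1 : (Steiner.blocks octads).filter (fun o => a ∈ o)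
      = (Steiner.blocks octads).filter (({a} : Finset GolayPt) ⊆ ·) := by
    ext o
    simp only [Finset.mem_filter, Finset.singleton_subset_iff]
  rw [e1, h253, h759] at h1
  have h2 := Finset.card_filter_add_card_filter_not
    (s := (Steiner.blocks octads).filter (fun o => ¬ a ∈ o)) (fun o => b ∈ o)
  have e2 : ((Steiner.blocks octads).filter (fun o => ¬ a ∈ o)).filter (fun o => b ∈ o)
      = F176 := by
    ext o
    rw [hF176, Finset.mem_filter, Finset.mem_filter, Steiner.mem_blocks]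
    tauto
  rw [e2, hc176] at h2
  refine ⟨((Steiner.blocks octads).filter (fun o => ¬ a ∈ o)).filter (fun o => ¬ b ∈ o), ?_, ?_⟩
  · omega
  · intro o
    rw [Finset.mem_filter, Finset.mem_filter, Steiner.mem_blocks]
    tauto

/-- First class: twice the indicator of an octad avoiding both base points. -/
theorem orbit_I (o1 : Finset GolayPt) (ho1 : o1 ∈ octads) (ha1 : a ∉ o1) (hb1 : b ∉ o1) :
    (MulAction.orbit ↥(MulAction.stabilizer ↥Co0 vStar ⊓ MulAction.stabilizer ↥Co0 wM ⊓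
      MulAction.stabilizer ↥Co0 wA1) (⟨octF o1, octF_mem o1 ho1⟩ : ↥leechLattice)).ncard
      = 330 := by
  obtain ⟨F, hFc, hF⟩ := exists_O330
  rw [ncard_of_image _ F octF (octF_inj.injOn) ?_ (fun o ho => octF_mem o ((hF o).1 ho).1), hFc]
  intro z
  rw [mem_orbit_std]
  constructor
  · rintro ⟨σ, hσ, σa, σb, hk⟩
    have hm : ∀ k, k ∈ σ⁻¹ • o1 ↔ σ k ∈ o1 := by
      intro k
      rw [Finset.mem_inv_smul_finset_iff]
      rfl
    refine ⟨σ⁻¹ • o1, (hF _).2 ⟨Golay.smul_mem_weight (M24.inv_mem hσ) ho1, ?_, ?_⟩, ?_⟩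
    · rw [hm, σa]
      exact ha1
    · rw [hm, σb]
      exact hb1
    · funext k
      rw [hk]
      show octF (σ⁻¹ • o1) k = octF o1 (σ k)
      unfold octF
      simp only [hm]
  · rintro ⟨o, ho, e⟩
    obtain ⟨h1, h2, h3⟩ := (hF o).1 ho
    obtain ⟨g, hg, ga, gb, go⟩ := OctStab.octad_notpq o o1 h1 ho1 a b ab h2 h3 ha1 hb1
    refine ⟨g, hg, ga, gb, fun k => ?_⟩
    rw [← e]
    show octF o k = octF o1 (g k)
    unfold octF
    have hm : g k ∈ o1 ↔ k ∈ o := by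
      rw [← go, ← Equiv.Perm.smul_def, Finset.smul_mem_smul_finset_iff]
    simp only [hm]

/-- An element of the code group mapping five points of one octad into another octad maps the
first octad onto the second. -/
theorem octad_of_five {g : Equiv.Perm GolayPt} (hg : g ∈ M24) {o o' : Finset GolayPt}
    (ho : o ∈ octads) (ho' : o' ∈ octads) (t : Finset GolayPt) (ht : t.card = 5) (hto : t ⊆ o)
    (hgt : ∀ p ∈ t, g p ∈ o') : g • o = o' := by
  classical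
  have ht' : (t.image g).card = 5 := by
    rw [Finset.card_image_of_injective _ g.injective, ht]
  obtain ⟨b0, -, huniq⟩ := Cfsg.Agent.S0363.result.2 (t.image g) ht'
  have h1 : g • o = b0 := huniq _ ⟨Golay.smul_mem_weight hg ho, by
    intro p hp
    obtain ⟨x, hx, rfl⟩ := Finset.mem_image.1 hp
    exact Finset.smul_mem_smul_finset (hto hx)⟩
  have h2 : o' = b0 := huniq _ ⟨ho', by
    intro p hp
    obtain ⟨x, hx, rfl⟩ := Finset.mem_image.1 hp
    exact hgt x hx⟩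
  rw [h1, h2]

theorem list5_card (x0 x1 x2 x3 x4 : GolayPt) (h : [x0, x1, x2, x3, x4].Nodup) :
    ([x0, x1, x2, x3, x4].toFinset).card = 5 := by
  rw [List.toFinset_card_of_nodup h]
  rfl

/-- Second class. -/
def cII (o : Finset GolayPt) (c : GolayPt) : GolayPt → ℤ := octF o - LeechGen.pp b c 4

theorem cII_apply (o : Finset GolayPt) (c k : GolayPt) :
    cII o c k = (if k ∈ o then 2 else 0) - ((if k = b then 4 else 0) + (if k = c then 4 else 0)) :=
  rfl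

theorem cII_mem (o : Finset GolayPt) (c : GolayPt) (ho : o ∈ octads) :
    cII o c ∈ leechLattice :=
  leechLattice.sub_mem (octF_mem o ho) (LeechGen.pp_mem b c 4 (Or.inl rfl))

theorem cII_c (o : Finset GolayPt) (c : GolayPt) (hc : c ∈ o) (hcb : c ≠ b) :
    cII o c c = -2 := by
  rw [cII_apply, if_pos hc, if_neg hcb, if_pos rfl]
  norm_num

theorem cII_eq (o : Finset GolayPt) (c k : GolayPt) (hkb : k ≠ b) (h : cII o c k = -2) :
    k = c := by
  rw [cII_apply, if_neg hkb] at h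
  by_contra hne
  rw [if_neg hne] at h
  split_ifs at h <;> norm_num at h

theorem cII_ne (o : Finset GolayPt) (c k : GolayPt) (hb : b ∈ o) (hc : c ∈ o) (hcb : c ≠ b) :
    cII o c k ≠ 0 ↔ k ∈ o := by
  rw [cII_apply]
  constructor
  · intro h
    by_contra hk
    apply h
    have h1 : k ≠ b := fun e => hk (e ▸ hb)
    have h2 : k ≠ c := fun e => hk (e ▸ hc)
    rw [if_neg hk, if_neg h1, if_neg h2]
    norm_num
  · intro hk
    rw [if_pos hk]
    by_cases h1 : k = b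
    · rw [if_pos h1, if_neg (fun e => hcb (e.symm.trans h1))]
      norm_num
    · rw [if_neg h1]
      split_ifs <;> norm_num

theorem cII_inB (o : Finset GolayPt) (c : GolayPt) (ho : o ∈ octads) (ha : a ∈ o) (hb : b ∈ o)
    (hc : c ∈ o) (hca : c ≠ a) (hcb : c ≠ b) : InB (cII o c) := by
  refine ⟨?_, ?_, ?_⟩
  · have e : sqNorm (cII o c) = sqNorm (octF o) := by
      unfold sqNorm
      apply Finset.sum_congr rfl
      intro k _
      rw [cII_apply]
      unfold octF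
      by_cases hk : k ∈ o
      · rw [if_pos hk]
        by_cases h1 : k = b
        · rw [if_pos h1, if_neg (fun e => hcb (e.symm.trans h1))]
          norm_num
        · rw [if_neg h1]
          split_ifs <;> norm_num
      · have h1 : k ≠ b := fun e => hk (e ▸ hb)
        have h2 : k ≠ c := fun e => hk (e ▸ hc)
        rw [if_neg hk, if_neg h1, if_neg h2]
        norm_num
    rw [e, sq_octF, ho.2]
    norm_num
  · rw [cII_apply, cII_apply, if_pos ha, if_pos hb, if_neg ab, if_neg (Ne.symm hca), if_pos rfl,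
      if_neg (Ne.symm hcb)]
    norm_num
  · have e : ∑ i, cII o c i = 8 := by
      unfold cII
      simp only [Pi.sub_apply]
      rw [Finset.sum_sub_distrib, sum_octF, LeechGen.sum_pp, ho.2]
      norm_num
    rw [e, cII_apply, if_pos ha, if_neg ab, if_neg (Ne.symm hca)]
    norm_num

/-- The index set of the second class. -/
theorem exists_I2 : ∃ I : Finset (Σ _ : Finset GolayPt, GolayPt), I.card = 462 ∧
    ∀ t, t ∈ I ↔ (t.1 ∈ octads ∧ a ∈ t.1 ∧ b ∈ t.1 ∧ t.2 ∈ t.1 ∧ t.2 ≠ a ∧ t.2 ≠ b) := by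
  classical
  obtain ⟨F, hFc, hF⟩ := exists_O77
  refine ⟨F.sigma (fun o => (o.erase a).erase b), ?_, ?_⟩
  · rw [Finset.card_sigma]
    have h6 : ∀ o ∈ F, ((o.erase a).erase b).card = 6 := by
      intro o ho
      obtain ⟨h1, h2, h3⟩ := (hF o).1 ho
      rw [Finset.card_erase_of_mem (Finset.mem_erase.2 ⟨Ne.symm ab, h3⟩),
        Finset.card_erase_of_mem h2, h1.2]
    rw [Finset.sum_congr rfl h6, Finset.sum_const, hFc]
    rfl
  · rintro ⟨o, c⟩
    rw [Finset.mem_sigma, hF, Finset.mem_erase, Finset.mem_erase]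
    tauto

theorem cII_injOn (I : Finset (Σ _ : Finset GolayPt, GolayPt))
    (hI : ∀ t, t ∈ I ↔ (t.1 ∈ octads ∧ a ∈ t.1 ∧ b ∈ t.1 ∧ t.2 ∈ t.1 ∧ t.2 ≠ a ∧ t.2 ≠ b)) :
    Set.InjOn (fun t : (Σ _ : Finset GolayPt, GolayPt) => cII t.1 t.2) (I : Set _) := by
  rintro ⟨o, c⟩ ht ⟨o', c'⟩ ht' e
  rw [Finset.mem_coe, hI] at ht ht'
  obtain ⟨h1, h2, h3, h4, h5, h6⟩ := ht
  obtain ⟨h1', h2', h3', h4', h5', h6'⟩ := ht'
  have e' : cII o c = cII o' c' := e
  have hc : c = c' := by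
    apply cII_eq o' c' c h6
    rw [← e']
    exact cII_c o c h4 h6
  have ho : o = o' := by
    ext k
    rw [← cII_ne o c k h3 h4 h6, ← cII_ne o' c' k h3' h4' h6', e']
  subst hc
  subst ho
  rfl

theorem pick2 (S : Finset GolayPt) (h : 2 ≤ S.card) : ∃ d1 ∈ S, ∃ d2 ∈ S, d1 ≠ d2 :=
  Finset.one_lt_card.1 (by omega)

theorem orbit_II (o2 : Finset GolayPt) (c2 : GolayPt) (ho2 : o2 ∈ octads) (ha2 : a ∈ o2)
    (hb2 : b ∈ o2) (hc2 : c2 ∈ o2) (hca2 : c2 ≠ a) (hcb2 : c2 ≠ b) :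
    (MulAction.orbit ↥(MulAction.stabilizer ↥Co0 vStar ⊓ MulAction.stabilizer ↥Co0 wM ⊓
      MulAction.stabilizer ↥Co0 wA1) (⟨cII o2 c2, cII_mem o2 c2 ho2⟩ : ↥leechLattice)).ncard
      = 462 := by
  classical
  obtain ⟨I, hIc, hI⟩ := exists_I2
  rw [ncard_of_image _ I (fun t => cII t.1 t.2) (cII_injOn I hI) ?_
    (fun t ht => cII_mem t.1 t.2 ((hI t).1 ht).1), hIc]
  intro z
  rw [mem_orbit_std]
  constructor
  · rintro ⟨σ, hσ, σa, σb, hk⟩
    have hm : ∀ k, k ∈ σ⁻¹ • o2 ↔ σ k ∈ o2 := by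
      intro k
      rw [Finset.mem_inv_smul_finset_iff]
      rfl
    have hs : σ (σ⁻¹ c2) = c2 := by simp
    refine ⟨⟨σ⁻¹ • o2, σ⁻¹ c2⟩, (hI _).2 ⟨Golay.smul_mem_weight (M24.inv_mem hσ) ho2, ?_, ?_,
      ?_, ?_, ?_⟩, ?_⟩
    · show a ∈ σ⁻¹ • o2
      rw [hm, σa]
      exact ha2
    · show b ∈ σ⁻¹ • o2
      rw [hm, σb]
      exact hb2
    · show σ⁻¹ c2 ∈ σ⁻¹ • o2
      rw [hm, hs]
      exact hc2
    · show σ⁻¹ c2 ≠ a
      intro e
      rw [e, σa] at hs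
      exact hca2 hs.symm
    · show σ⁻¹ c2 ≠ b
      intro e
      rw [e, σb] at hs
      exact hcb2 hs.symm
    · funext k
      rw [hk]
      show cII (σ⁻¹ • o2) (σ⁻¹ c2) k = cII o2 c2 (σ k)
      rw [cII_apply, cII_apply]
      have e1 : (k = b) ↔ (σ k = b) := by
        constructor
        · intro h
          rw [h, σb]
        · intro h
          apply σ.injective
          rw [h, σb]
      have e2 : (k = σ⁻¹ c2) ↔ (σ k = c2) := by
        constructor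
        · intro h
          rw [h, hs]
        · intro h
          apply σ.injective
          rw [h, hs]
      simp only [hm, e1, e2]
  · rintro ⟨⟨o, c⟩, ht, e⟩
    obtain ⟨h1, h2, h3, h4, h5, h6⟩ := (hI _).1 ht
    have hS : (((o.erase a).erase b).erase c).card = 5 := by
      rw [Finset.card_erase_of_mem (Finset.mem_erase.2 ⟨h6, Finset.mem_erase.2 ⟨h5, h4⟩⟩),
        Finset.card_erase_of_mem (Finset.mem_erase.2 ⟨Ne.symm ab, h3⟩),
        Finset.card_erase_of_mem h2, h1.2]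
    have hS2 : (((o2.erase a).erase b).erase c2).card = 5 := by
      rw [Finset.card_erase_of_mem (Finset.mem_erase.2 ⟨hcb2, Finset.mem_erase.2 ⟨hca2, hc2⟩⟩),
        Finset.card_erase_of_mem (Finset.mem_erase.2 ⟨Ne.symm ab, hb2⟩),
        Finset.card_erase_of_mem ha2, ho2.2]
    obtain ⟨d1, hd1, d2, hd2, hd⟩ := pick2 _ (by rw [hS]; norm_num)
    obtain ⟨e1, he1, e2, he2, he⟩ := pick2 _ (by rw [hS2]; norm_num)
    simp only [Finset.mem_erase] at hd1 hd2 he1 he2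
    have nd : [a, b, c, d1, d2].Nodup := by
      simp only [List.nodup_cons, List.mem_cons, List.not_mem_nil, or_false, not_or,
        List.nodup_nil, and_true]
      exact ⟨⟨ab, Ne.symm h5, Ne.symm hd1.2.2.1, Ne.symm hd2.2.2.1⟩,
        ⟨Ne.symm h6, Ne.symm hd1.2.1, Ne.symm hd2.2.1⟩, ⟨Ne.symm hd1.1, Ne.symm hd2.1⟩, hd, not_false⟩
    have ne : [a, b, c2, e1, e2].Nodup := by
      simp only [List.nodup_cons, List.mem_cons, List.not_mem_nil, or_false, not_or,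
        List.nodup_nil, and_true]
      exact ⟨⟨ab, Ne.symm hca2, Ne.symm he1.2.2.1, Ne.symm he2.2.2.1⟩,
        ⟨Ne.symm hcb2, Ne.symm he1.2.1, Ne.symm he2.2.1⟩, ⟨Ne.symm he1.1, Ne.symm he2.1⟩, he, not_false⟩
    obtain ⟨g, hg, ga, gb, gc, gd1, gd2⟩ := map5 a b c d1 d2 a b c2 e1 e2 nd ne
    have go : g • o = o2 := by
      apply octad_of_five hg h1 ho2 [a, b, c, d1, d2].toFinset (list5_card _ _ _ _ _ nd)
      · intro p hp
        simp only [List.mem_toFinset, List.mem_cons, List.not_mem_nil, or_false] at hp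
        rcases hp with rfl | rfl | rfl | rfl | rfl
        · exact h2
        · exact h3
        · exact h4
        · exact hd1.2.2.2
        · exact hd2.2.2.2
      · intro p hp
        simp only [List.mem_toFinset, List.mem_cons, List.not_mem_nil, or_false] at hp
        rcases hp with rfl | rfl | rfl | rfl | rfl
        · rw [ga]
          exact ha2
        · rw [gb]
          exact hb2
        · rw [gc]
          exact hc2
        · rw [gd1]
          exact he1.2.2.2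
        · rw [gd2]
          exact he2.2.2.2
    refine ⟨g, hg, ga, gb, fun k => ?_⟩
    rw [← e]
    show cII o c k = cII o2 c2 (g k)
    rw [cII_apply, cII_apply]
    have hm : g k ∈ o2 ↔ k ∈ o := by
      rw [← go, ← Equiv.Perm.smul_def, Finset.smul_mem_smul_finset_iff]
    have e1 : (g k = b) ↔ (k = b) := by
      constructor
      · intro h
        apply g.injective
        rw [h, gb]
      · intro h
        rw [h, gb]
    have e2 : (g k = c2) ↔ (k = c) := by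
      constructor
      · intro h
        apply g.injective
        rw [h, gc]
      · intro h
        rw [h, gc]
    simp only [hm, e1, e2]

/-- Third class. -/
def cIII (o : Finset GolayPt) (c : GolayPt) : GolayPt → ℤ := oddF c 5 - octF o

theorem cIII_apply (o : Finset GolayPt) (c k : GolayPt) :
    cIII o c k = (if k = c then 5 else 1) - (if k ∈ o then 2 else 0) := rfl

theorem cIII_mem (o : Finset GolayPt) (c : GolayPt) (ho : o ∈ octads) :
    cIII o c ∈ leechLattice :=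
  leechLattice.sub_mem (oddF_mem5 c) (octF_mem o ho)

theorem cIII_c (o : Finset GolayPt) (c : GolayPt) (hc : c ∈ o) : cIII o c c = 3 := by
  rw [cIII_apply, if_pos rfl, if_pos hc]
  norm_num

theorem cIII_eq (o : Finset GolayPt) (c k : GolayPt) (h : cIII o c k = 3) : k = c := by
  rw [cIII_apply] at h
  by_contra hne
  rw [if_neg hne] at h
  split_ifs at h <;> norm_num at h

theorem cIII_ne (o : Finset GolayPt) (c k : GolayPt) (hc : c ∈ o) :
    cIII o c k ≠ 1 ↔ k ∈ o := by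
  rw [cIII_apply]
  constructor
  · intro h
    by_contra hk
    apply h
    have h2 : k ≠ c := fun e => hk (e ▸ hc)
    rw [if_neg hk, if_neg h2]
    norm_num
  · intro hk
    rw [if_pos hk]
    split_ifs <;> norm_num

theorem cIII_inB (o : Finset GolayPt) (c : GolayPt) (ho : o ∈ octads) (ha : a ∉ o) (hb : b ∈ o)
    (hc : c ∈ o) (hcb : c ≠ b) : InB (cIII o c) := by
  have hca : c ≠ a := fun e => ha (e ▸ hc)
  refine ⟨?_, ?_, ?_⟩
  · unfold sqNorm
    have e : ∀ k, cIII o c k ^ 2 = 1 + (if k = c then 8 else 0) := by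
      intro k
      rw [cIII_apply]
      by_cases hk : k = c
      · rw [if_pos hk, if_pos hk, if_pos (hk ▸ hc)]
        norm_num
      · rw [if_neg hk, if_neg hk]
        split_ifs <;> norm_num
    simp only [e]
    rw [Finset.sum_add_distrib, Finset.sum_ite_eq' Finset.univ c (fun _ => (8 : ℤ)),
      if_pos (Finset.mem_univ _), Finset.sum_const, Finset.card_univ, card_golayPt]
    norm_num
  · rw [cIII_apply, cIII_apply, if_neg (Ne.symm hca), if_neg ha, if_neg (Ne.symm hcb), if_pos hb]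
    norm_num
  · have e : ∑ i, cIII o c i = 12 := by
      unfold cIII
      simp only [Pi.sub_apply]
      rw [Finset.sum_sub_distrib, sum_octF, sum_oddF, ho.2]
      norm_num
    rw [e, cIII_apply, if_neg (Ne.symm hca), if_neg ha]
    norm_num

/-- The index set of the third class. -/
theorem exists_I3 : ∃ I : Finset (Σ _ : Finset GolayPt, GolayPt), I.card = 1232 ∧
    ∀ t, t ∈ I ↔ (t.1 ∈ octads ∧ b ∈ t.1 ∧ a ∉ t.1 ∧ t.2 ∈ t.1 ∧ t.2 ≠ b) := by
  classical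
  obtain ⟨F, hFc, hF⟩ := exists_O176' b a (Ne.symm ab)
  refine ⟨F.sigma (fun o => o.erase b), ?_, ?_⟩
  · rw [Finset.card_sigma]
    have h7 : ∀ o ∈ F, (o.erase b).card = 7 := by
      intro o ho
      obtain ⟨h1, h2, h3⟩ := (hF o).1 ho
      rw [Finset.card_erase_of_mem h2, h1.2]
    rw [Finset.sum_congr rfl h7, Finset.sum_const, hFc]
    rfl
  · rintro ⟨o, c⟩
    rw [Finset.mem_sigma, hF, Finset.mem_erase]
    tauto

theorem cIII_injOn (I : Finset (Σ _ : Finset GolayPt, GolayPt))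
    (hI : ∀ t, t ∈ I ↔ (t.1 ∈ octads ∧ b ∈ t.1 ∧ a ∉ t.1 ∧ t.2 ∈ t.1 ∧ t.2 ≠ b)) :
    Set.InjOn (fun t : (Σ _ : Finset GolayPt, GolayPt) => cIII t.1 t.2) (I : Set _) := by
  rintro ⟨o, c⟩ ht ⟨o', c'⟩ ht' e
  rw [Finset.mem_coe, hI] at ht ht'
  obtain ⟨h1, h2, h3, h4, h5⟩ := ht
  obtain ⟨h1', h2', h3', h4', h5'⟩ := ht'
  have e' : cIII o c = cIII o' c' := e
  have hc : c = c' := by
    apply cIII_eq o' c' c
    rw [← e']
    exact cIII_c o c h4
  have ho : o = o' := by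
    ext k
    rw [← cIII_ne o c k h4, ← cIII_ne o' c' k h4', e']
  subst hc
  subst ho
  rfl

theorem pick3 (S : Finset GolayPt) (h : 3 ≤ S.card) :
    ∃ d1 ∈ S, ∃ d2 ∈ S, ∃ d3 ∈ S, d1 ≠ d2 ∧ d1 ≠ d3 ∧ d2 ≠ d3 := by
  classical
  obtain ⟨d1, hd1⟩ := Finset.card_pos.1 (show 0 < S.card by omega)
  have h2 : 2 ≤ (S.erase d1).card := by
    rw [Finset.card_erase_of_mem hd1]
    omega
  obtain ⟨d2, hd2, d3, hd3, hd⟩ := pick2 _ h2
  rw [Finset.mem_erase] at hd2 hd3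
  exact ⟨d1, hd1, d2, hd2.2, d3, hd3.2, Ne.symm hd2.1, Ne.symm hd3.1, hd⟩

theorem orbit_III (o3 : Finset GolayPt) (c3 : GolayPt) (ho3 : o3 ∈ octads) (ha3 : a ∉ o3)
    (hb3 : b ∈ o3) (hc3 : c3 ∈ o3) (hcb3 : c3 ≠ b) :
    (MulAction.orbit ↥(MulAction.stabilizer ↥Co0 vStar ⊓ MulAction.stabilizer ↥Co0 wM ⊓
      MulAction.stabilizer ↥Co0 wA1) (⟨cIII o3 c3, cIII_mem o3 c3 ho3⟩ : ↥leechLattice)).ncard
      = 1232 := by
  classical
  obtain ⟨I, hIc, hI⟩ := exists_I3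
  rw [ncard_of_image _ I (fun t => cIII t.1 t.2) (cIII_injOn I hI) ?_
    (fun t ht => cIII_mem t.1 t.2 ((hI t).1 ht).1), hIc]
  intro z
  rw [mem_orbit_std]
  constructor
  · rintro ⟨σ, hσ, σa, σb, hk⟩
    have hm : ∀ k, k ∈ σ⁻¹ • o3 ↔ σ k ∈ o3 := by
      intro k
      rw [Finset.mem_inv_smul_finset_iff]
      rfl
    have hs : σ (σ⁻¹ c3) = c3 := by simp
    refine ⟨⟨σ⁻¹ • o3, σ⁻¹ c3⟩, (hI _).2 ⟨Golay.smul_mem_weight (M24.inv_mem hσ) ho3, ?_, ?_,
      ?_, ?_⟩, ?_⟩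
    · show b ∈ σ⁻¹ • o3
      rw [hm, σb]
      exact hb3
    · show a ∉ σ⁻¹ • o3
      rw [hm, σa]
      exact ha3
    · show σ⁻¹ c3 ∈ σ⁻¹ • o3
      rw [hm, hs]
      exact hc3
    · show σ⁻¹ c3 ≠ b
      intro e
      rw [e, σb] at hs
      exact hcb3 hs.symm
    · funext k
      rw [hk]
      show cIII (σ⁻¹ • o3) (σ⁻¹ c3) k = cIII o3 c3 (σ k)
      rw [cIII_apply, cIII_apply]
      have e2 : (k = σ⁻¹ c3) ↔ (σ k = c3) := by
        constructor
        · intro h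
          rw [h, hs]
        · intro h
          apply σ.injective
          rw [h, hs]
      simp only [hm, e2]
  · rintro ⟨⟨o, c⟩, ht, e⟩
    obtain ⟨h1, h2, h3, h4, h5⟩ := (hI _).1 ht
    have hS : ((o.erase b).erase c).card = 6 := by
      rw [Finset.card_erase_of_mem (Finset.mem_erase.2 ⟨h5, h4⟩),
        Finset.card_erase_of_mem h2, h1.2]
    have hS3 : ((o3.erase b).erase c3).card = 6 := by
      rw [Finset.card_erase_of_mem (Finset.mem_erase.2 ⟨hcb3, hc3⟩),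
        Finset.card_erase_of_mem hb3, ho3.2]
    obtain ⟨d1, hd1, d2, hd2, d3, hd3, hd12, hd13, hd23⟩ := pick3 _ (by rw [hS]; norm_num)
    obtain ⟨e1, he1, e2, he2, e3, he3, he12, he13, he23⟩ := pick3 _ (by rw [hS3]; norm_num)
    simp only [Finset.mem_erase] at hd1 hd2 hd3 he1 he2 he3
    have nd : [b, c, d1, d2, d3].Nodup := by
      simp only [List.nodup_cons, List.mem_cons, List.not_mem_nil, or_false, not_or,
        List.nodup_nil, and_true]
      exact ⟨⟨Ne.symm h5, Ne.symm hd1.2.1, Ne.symm hd2.2.1, Ne.symm hd3.2.1⟩,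
        ⟨Ne.symm hd1.1, Ne.symm hd2.1, Ne.symm hd3.1⟩, ⟨hd12, hd13⟩, hd23, not_false⟩
    have ne : [b, c3, e1, e2, e3].Nodup := by
      simp only [List.nodup_cons, List.mem_cons, List.not_mem_nil, or_false, not_or,
        List.nodup_nil, and_true]
      exact ⟨⟨Ne.symm hcb3, Ne.symm he1.2.1, Ne.symm he2.2.1, Ne.symm he3.2.1⟩,
        ⟨Ne.symm he1.1, Ne.symm he2.1, Ne.symm he3.1⟩, ⟨he12, he13⟩, he23, not_false⟩
    obtain ⟨g1, hg1, gb, gc, gd1, gd2, gd3⟩ := map5 b c d1 d2 d3 b c3 e1 e2 e3 nd ne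
    have go : g1 • o = o3 := by
      apply octad_of_five hg1 h1 ho3 [b, c, d1, d2, d3].toFinset (list5_card _ _ _ _ _ nd)
      · intro p hp
        simp only [List.mem_toFinset, List.mem_cons, List.not_mem_nil, or_false] at hp
        rcases hp with rfl | rfl | rfl | rfl | rfl
        · exact h2
        · exact h4
        · exact hd1.2.2
        · exact hd2.2.2
        · exact hd3.2.2
      · intro p hp
        simp only [List.mem_toFinset, List.mem_cons, List.not_mem_nil, or_false] at hp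
        rcases hp with rfl | rfl | rfl | rfl | rfl
        · rw [gb]
          exact hb3
        · rw [gc]
          exact hc3
        · rw [gd1]
          exact he1.2.2
        · rw [gd2]
          exact he2.2.2
        · rw [gd3]
          exact he3.2.2
    have ha1 : g1 a ∉ o3 := by
      rw [← go]
      exact OctStab.not_mem_smul h3
    obtain ⟨r, hr, rfix, ra⟩ := oct_fix_trans o3 ho3 (g1 a) a ha1 ha3
    have hro : r • o3 = o3 := OctStab.smul_eq_of_maps (fun x hx => by rw [rfix x hx]; exact hx)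
    refine ⟨r * g1, M24.mul_mem hr hg1, ?_, ?_, fun k => ?_⟩
    · rw [Equiv.Perm.mul_apply, ra]
    · rw [Equiv.Perm.mul_apply, gb, rfix b hb3]
    · rw [← e]
      show cIII o c k = cIII o3 c3 ((r * g1) k)
      rw [cIII_apply, cIII_apply]
      have hm : (r * g1) k ∈ o3 ↔ k ∈ o := by
        have : (r * g1) • o = o3 := by rw [mul_smul, go, hro]
        rw [← this, ← Equiv.Perm.smul_def, Finset.smul_mem_smul_finset_iff]
      have e2 : ((r * g1) k = c3) ↔ (k = c) := by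
        have hc' : (r * g1) c = c3 := by
          rw [Equiv.Perm.mul_apply, gc, rfix c3 hc3]
        constructor
        · intro h
          apply (r * g1).injective
          rw [h, hc']
        · intro h
          rw [h, hc']
      simp only [hm, e2]

theorem orbit_transport (G : ↥Co0) (v w x y : ↥leechLattice) :
    (MulAction.orbit ↥(MulAction.stabilizer ↥Co0 v ⊓ MulAction.stabilizer ↥Co0 w ⊓
      MulAction.stabilizer ↥Co0 x) y).ncard =
    (MulAction.orbit ↥(MulAction.stabilizer ↥Co0 (G • v) ⊓ MulAction.stabilizer ↥Co0 (G • w) ⊓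
      MulAction.stabilizer ↥Co0 (G • x)) (G • y)).ncard := by
  rw [← Set.ncard_image_of_injective (MulAction.orbit ↥(MulAction.stabilizer ↥Co0 v ⊓
    MulAction.stabilizer ↥Co0 w ⊓ MulAction.stabilizer ↥Co0 x) y) (MulAction.injective G)]
  congr 1
  ext z
  constructor
  · rintro ⟨z0, ⟨h, rfl⟩, rfl⟩
    have m := h.2
    rw [Subgroup.mem_inf, Subgroup.mem_inf] at m
    have m1 : h.1 • v = v := m.1.1
    have m2 : h.1 • w = w := m.1.2
    have m3 : h.1 • x = x := m.2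
    refine ⟨⟨G * h.1 * G⁻¹, Subgroup.mem_inf.2 ⟨Subgroup.mem_inf.2 ⟨?_, ?_⟩, ?_⟩⟩, ?_⟩
    · show (G * h.1 * G⁻¹) • (G • v) = G • v
      rw [mul_smul, mul_smul, inv_smul_smul, m1]
    · show (G * h.1 * G⁻¹) • (G • w) = G • w
      rw [mul_smul, mul_smul, inv_smul_smul, m2]
    · show (G * h.1 * G⁻¹) • (G • x) = G • x
      rw [mul_smul, mul_smul, inv_smul_smul, m3]
    · show (G * h.1 * G⁻¹) • (G • y) = G • (h.1 • y)
      rw [mul_smul, mul_smul, inv_smul_smul]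
  · rintro ⟨h, rfl⟩
    have m := h.2
    rw [Subgroup.mem_inf, Subgroup.mem_inf] at m
    have m1 : h.1 • (G • v) = G • v := m.1.1
    have m2 : h.1 • (G • w) = G • w := m.1.2
    have m3 : h.1 • (G • x) = G • x := m.2
    refine ⟨(G⁻¹ * h.1 * G) • y, ⟨⟨G⁻¹ * h.1 * G,
      Subgroup.mem_inf.2 ⟨Subgroup.mem_inf.2 ⟨?_, ?_⟩, ?_⟩⟩, rfl⟩, ?_⟩
    · show (G⁻¹ * h.1 * G) • v = v
      rw [mul_smul, mul_smul, m1, inv_smul_smul]
    · show (G⁻¹ * h.1 * G) • w = w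
      rw [mul_smul, mul_smul, m2, inv_smul_smul]
    · show (G⁻¹ * h.1 * G) • x = x
      rw [mul_smul, mul_smul, m3, inv_smul_smul]
    · show G • ((G⁻¹ * h.1 * G) • y) = h.1 • (G • y)
      rw [mul_smul, mul_smul, smul_inv_smul]

/-- The three further orbits of the standard stabiliser. -/
theorem std_orbits : ∃ y1 y2 y3 : ↥leechLattice,
    InB (y1 : GolayPt → ℤ) ∧ InB (y2 : GolayPt → ℤ) ∧ InB (y3 : GolayPt → ℤ) ∧
    (MulAction.orbit ↥(MulAction.stabilizer ↥Co0 vStar ⊓ MulAction.stabilizer ↥Co0 wM ⊓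
      MulAction.stabilizer ↥Co0 wA1) y1).ncard = 330 ∧
    (MulAction.orbit ↥(MulAction.stabilizer ↥Co0 vStar ⊓ MulAction.stabilizer ↥Co0 wM ⊓
      MulAction.stabilizer ↥Co0 wA1) y2).ncard = 462 ∧
    (MulAction.orbit ↥(MulAction.stabilizer ↥Co0 vStar ⊓ MulAction.stabilizer ↥Co0 wM ⊓
      MulAction.stabilizer ↥Co0 wA1) y3).ncard = 1232 := by
  obtain ⟨F1, hF1c, hF1⟩ := exists_O330
  obtain ⟨I2, hI2c, hI2⟩ := exists_I2
  obtain ⟨I3, hI3c, hI3⟩ := exists_I3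
  obtain ⟨o1, ho1⟩ := Finset.card_pos.1 (show 0 < F1.card by rw [hF1c]; norm_num)
  obtain ⟨t2, ht2⟩ := Finset.card_pos.1 (show 0 < I2.card by rw [hI2c]; norm_num)
  obtain ⟨t3, ht3⟩ := Finset.card_pos.1 (show 0 < I3.card by rw [hI3c]; norm_num)
  obtain ⟨p1, p2, p3⟩ := (hF1 o1).1 ho1
  obtain ⟨q1, q2, q3, q4, q5, q6⟩ := (hI2 t2).1 ht2
  obtain ⟨r1, r2, r3, r4, r5⟩ := (hI3 t3).1 ht3
  refine ⟨⟨octF o1, octF_mem o1 p1⟩, ⟨cII t2.1 t2.2, cII_mem t2.1 t2.2 q1⟩,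
    ⟨cIII t3.1 t3.2, cIII_mem t3.1 t3.2 r1⟩, ?_, cII_inB t2.1 t2.2 q1 q2 q3 q4 q5 q6,
    cIII_inB t3.1 t3.2 r1 r3 r2 r4 r5, orbit_I o1 p1 p2 p3,
    orbit_II t2.1 t2.2 q1 q2 q3 q4 q5 q6, orbit_III t3.1 t3.2 r1 r3 r2 r4 r5⟩
  refine ⟨?_, ?_, ?_⟩
  · rw [sq_octF, p1.2]
    norm_num
  · show octF o1 a + octF o1 b = 0
    unfold octF
    rw [if_neg p2, if_neg p3]
    norm_num
  · show (∑ i, octF o1 i) + 4 * octF o1 a = 16
    rw [sum_octF, p1.2]
    unfold octF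
    rw [if_neg p2]
    norm_num

/-- The McLaughlin group acts on 2025 points (minimal vectors orthogonal to v with customary inner product 2 with w) transitively with rank 4 and subdegrees 1, 330, 462, 1232. -/
theorem result (v w : ↥Cfsg.leechLattice) (hv : Cfsg.sqNorm (v : Cfsg.GolayPt → ℤ) = 32) (hw : Cfsg.sqNorm (w : Cfsg.GolayPt → ℤ) = 32) (hvw : Cfsg.dotInt (v : Cfsg.GolayPt → ℤ) (w : Cfsg.GolayPt → ℤ) = -8) : {x : ↥Cfsg.leechLattice | Cfsg.sqNorm (x : Cfsg.GolayPt → ℤ) = 32 ∧ Cfsg.dotInt (v : Cfsg.GolayPt → ℤ) (x : Cfsg.GolayPt → ℤ) = 0 ∧ Cfsg.dotInt (w : Cfsg.GolayPt → ℤ) (x : Cfsg.GolayPt → ℤ) = 16}.ncard = 2025 ∧ (∀ x ∈ {x : ↥Cfsg.leechLattice | Cfsg.sqNorm (x : Cfsg.GolayPt → ℤ) = 32 ∧ Cfsg.dotInt (v : Cfsg.GolayPt → ℤ) (x : Cfsg.GolayPt → ℤ) = 0 ∧ Cfsg.dotInt (w : Cfsg.GolayPt → ℤ) (x : Cfsg.GolayPt → ℤ) = 16}, ∀ x' ∈ {x : ↥Cfsg.leechLattice | Cfsg.sqNorm (x : Cfsg.GolayPt → ℤ) = 32 ∧ Cfsg.dotInt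 (v : Cfsg.GolayPt → ℤ) (x : Cfsg.GolayPt → ℤ) = 0 ∧ Cfsg.dotInt (w : Cfsg.GolayPt → ℤ) (x : Cfsg.GolayPt → ℤ) = 16}, ∃ g : ↥Cfsg.Co0, g • v = v ∧ g • w = w ∧ g • x = x') ∧ ∀ x ∈ {x : ↥Cfsg.leechLattice | Cfsg.sqNorm (x : Cfsg.GolayPt → ℤ) = 32 ∧ Cfsg.dotInt (v : Cfsg.GolayPt → ℤ) (x : Cfsg.GolayPt → ℤ) = 0 ∧ Cfsg.dotInt (w : Cfsg.GolayPt → ℤ) (x : Cfsg.GolayPt → ℤ) = 16}, ∃ y₁ ∈ {x : ↥Cfsg.leechLattice | Cfsg.sqNorm (x : Cfsg.GolayPt → ℤ) = 32 ∧ Cfsg.dotInt (v : Cfsg.GolayPt → ℤ) (x : Cfsg.GolayPt → ℤ) = 0 ∧ Cfsg.dotInt (w : Cfsg.GolayPt → ℤ) (x : Cfsg.GolayPt → ℤ) = 16}, ∃ y₂ ∈ {x : ↥Cfsg.leechLattice | Cfsg.sqNorm (x : Cfsg.GolayPt → ℤ) = 32 ∧ Cfsg.dotInt (v : Cfsg.GolayPt → ℤ) (x : Cfsg.GolayPt → ℤ) = 0 ∧ Cfsg.dotInt (w : Cfsg.GolayPt → ℤ) (x : Cfsg.GolayPt → ℤ) = 16}, ∃ y₃ ∈ {x : ↥Cfsg.leechLattice | Cfsg.sqNorm (x : Cfsg.GolayPt → ℤ) = 32 ∧ Cfsg.dotInt (v : Cfsg.GolayPt → ℤ) (x : Cfsg.GolayPt → ℤ) = 0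 ∧ Cfsg.dotInt (w : Cfsg.GolayPt → ℤ) (x : Cfsg.GolayPt → ℤ) = 16}, (MulAction.orbit ↥(MulAction.stabilizer ↥Cfsg.Co0 v ⊓ MulAction.stabilizer ↥Cfsg.Co0 w ⊓ MulAction.stabilizer ↥Cfsg.Co0 x) y₁).ncard = 330 ∧ (MulAction.orbit ↥(MulAction.stabilizer ↥Cfsg.Co0 v ⊓ MulAction.stabilizer ↥Cfsg.Co0 w ⊓ MulAction.stabilizer ↥Cfsg.Co0 x) y₂).ncard = 462 ∧ (MulAction.orbit ↥(MulAction.stabilizer ↥Cfsg.Co0 v ⊓ MulAction.stabilizer ↥Cfsg.Co0 w ⊓ MulAction.stabilizer ↥Cfsg.Co0 x) y₃).ncard = 1232 := by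
  have hu : sqNorm ((v + w : ↥leechLattice) : GolayPt → ℤ) = 48 := by
    rw [AddSubgroup.coe_add, Cfsg.Agent.Lib.Helper28.sqNorm_add, hv, hw, hvw]
    norm_num
  have huv : dotInt ((v + w : ↥leechLattice) : GolayPt → ℤ) (v : GolayPt → ℤ) = 24 := by
    rw [AddSubgroup.coe_add, Cfsg.Agent.S1583.dot_add_left, Cfsg.Agent.S1580.dot_self, hv,
      Cfsg.Agent.Lib.Helper4.LeechCross.dot_comm, hvw]
    norm_num
  refine ⟨?_, ?_, ?_⟩
  · rw [← cnt2025 (v + w) v hu hv huv]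
    congr 1
    ext x
    show (sqNorm (x : GolayPt → ℤ) = 32 ∧ dotInt (v : GolayPt → ℤ) (x : GolayPt → ℤ) = 0 ∧
      dotInt (w : GolayPt → ℤ) (x : GolayPt → ℤ) = 16) ↔
      (sqNorm (x : GolayPt → ℤ) = 32 ∧
      dotInt ((v + w : ↥leechLattice) : GolayPt → ℤ) (x : GolayPt → ℤ) = 16 ∧
      dotInt (v : GolayPt → ℤ) (x : GolayPt → ℤ) = 0)
    rw [AddSubgroup.coe_add, Cfsg.Agent.S1583.dot_add_left]
    constructor
    · rintro ⟨h1, h2, h3⟩
      exact ⟨h1, by omega, h2⟩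
    · rintro ⟨h1, h2, h3⟩
      exact ⟨h1, h3, by omega⟩
  · intro x hx x' hx'
    obtain ⟨G, G1, G2, G3⟩ := frame v w x hv hw hvw hx.1 hx.2.1 hx.2.2
    obtain ⟨G', G1', G2', G3'⟩ := frame v w x' hv hw hvw hx'.1 hx'.2.1 hx'.2.2
    refine ⟨G'⁻¹ * G, ?_, ?_, ?_⟩
    · rw [mul_smul, G1, inv_smul_eq_iff, G1']
    · rw [mul_smul, G2, inv_smul_eq_iff, G2']
    · rw [mul_smul, G3, inv_smul_eq_iff, G3']
  · intro x hx
    obtain ⟨G, G1, G2, G3⟩ := frame v w x hv hw hvw hx.1 hx.2.1 hx.2.2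
    obtain ⟨y1, y2, y3, b1, b2, b3, n1, n2, n3⟩ := std_orbits
    have key : ∀ y0 : ↥leechLattice, InB (y0 : GolayPt → ℤ) →
        (sqNorm ((G⁻¹ • y0 : ↥leechLattice) : GolayPt → ℤ) = 32 ∧
        dotInt (v : GolayPt → ℤ) ((G⁻¹ • y0 : ↥leechLattice) : GolayPt → ℤ) = 0 ∧
        dotInt (w : GolayPt → ℤ) ((G⁻¹ • y0 : ↥leechLattice) : GolayPt → ℤ) = 16) ∧
        (MulAction.orbit ↥(MulAction.stabilizer ↥Co0 v ⊓ MulAction.stabilizer ↥Co0 w ⊓
          MulAction.stabilizer ↥Co0 x) (G⁻¹ • y0)).ncard =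
        (MulAction.orbit ↥(MulAction.stabilizer ↥Co0 Cfsg.Agent.Lib.Helper4.Stv.vStar ⊓
          MulAction.stabilizer ↥Co0 wM ⊓
          MulAction.stabilizer ↥Co0 Cfsg.Agent.Lib.Helper4.Stv.wA1) y0).ncard := by
      intro y0 hy0
      obtain ⟨c1, c2, c3⟩ := (inB_iff _).2 hy0
      refine ⟨⟨by rw [Cfsg.Agent.S1640.hnorm]; exact c1, ?_, ?_⟩, ?_⟩
      · have e := Cfsg.Agent.S1640.hdotp G v (G⁻¹ • y0)
        rw [smul_inv_smul, G1] at e
        rw [← e]
        exact c2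
      · have e := Cfsg.Agent.S1640.hdotp G w (G⁻¹ • y0)
        rw [smul_inv_smul, G2] at e
        rw [← e]
        exact c3
      · rw [orbit_transport G v w x (G⁻¹ • y0), G1, G2, G3, smul_inv_smul]
    refine ⟨G⁻¹ • y1, (key y1 b1).1, G⁻¹ • y2, (key y2 b2).1, G⁻¹ • y3, (key y3 b3).1, ?_, ?_, ?_⟩
    · rw [(key y1 b1).2]
      exact n1
    · rw [(key y2 b2).2]
      exact n2
    · rw [(key y3 b3).2]
      exact n3
end Cfsg.Agent.S1634
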