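import Cfsg.Statements.S0404
import Cfsg.Agent.S1634
import Cfsg.Agent.S0405
import Cfsg.Agent.Lib.Helper28.Rank4
import Cfsg.Agent.Lib.Helper4.GolayM21
import Cfsg.Agent.Lib.Helper4.GolayStab

set_option autoImplicit false
open Cfsg

namespace Cfsg.Agent.S0404

open Cfsg.Agent.Lib.Helper28 Cfsg.Agent.Lib.Helper4
open Cfsg.Agent.Lib.Helper4.Stv
open Cfsg.Agent.S1584 Cfsg.Agent.S1571 Cfsg.Agent.S1634

/-- Conjugate pairs have isomorphic joint stabilisers. -/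
theorem transferM (g : ↥Co0) (v w : ↥leechLattice)
    (h : IsMcL ↥(MulAction.stabilizer ↥Co0 (g • v) ⊓ MulAction.stabilizer ↥Co0 (g • w))) :
    IsMcL ↥(MulAction.stabilizer ↥Co0 v ⊓ MulAction.stabilizer ↥Co0 w) := by
  have e : Nonempty (↥(MulAction.stabilizer ↥Co0 v ⊓ MulAction.stabilizer ↥Co0 w) ≃*
      ↥(MulAction.stabilizer ↥Co0 (g • v) ⊓ MulAction.stabilizer ↥Co0 (g • w))) := by
    rw [MulAction.stabilizer_smul_eq_stabilizer_map_conj,
      MulAction.stabilizer_smul_eq_stabilizer_map_conj,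
      ← Subgroup.map_inf_eq _ _ _ (MulAut.conj g).injective]
    exact ⟨Subgroup.equivMapOfInjective _ _ (MulAut.conj g).injective⟩
  obtain ⟨e⟩ := e
  obtain ⟨h1, h2⟩ := h
  exact ⟨e.isSimpleGroup, by rw [Nat.card_congr e.toEquiv]; exact h2⟩

theorem wM_norm : sqNorm ((wM : ↥leechLattice) : GolayPt → ℤ) = 32 := by
  show sqNorm (((v0 - vStar : ↥leechLattice)) : GolayPt → ℤ) = 32
  rw [AddSubgroup.coe_sub, sqNorm_sub, v0_norm, vStar_norm, Cfsg.Agent.S0405.vStar_mem.2.1]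
  norm_num

theorem vStar_wM : dotInt ((vStar : ↥leechLattice) : GolayPt → ℤ)
    ((wM : ↥leechLattice) : GolayPt → ℤ) = -8 := by
  show dotInt _ (((v0 - vStar : ↥leechLattice)) : GolayPt → ℤ) = -8
  rw [AddSubgroup.coe_sub, Cfsg.Agent.S1580.dot_sub_right, Cfsg.Agent.S1580.dot_self, vStar_norm,
    LeechCross.dot_comm, Cfsg.Agent.S0405.vStar_mem.2.1]
  norm_num

/-- The standard third vector lies in the standard set. -/
theorem wA1_mem : sqNorm ((wA1 : ↥leechLattice) : GolayPt → ℤ) = 32 ∧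
    dotInt ((vStar : ↥leechLattice) : GolayPt → ℤ) ((wA1 : ↥leechLattice) : GolayPt → ℤ) = 0 ∧
    dotInt ((wM : ↥leechLattice) : GolayPt → ℤ) ((wA1 : ↥leechLattice) : GolayPt → ℤ) = 16 := by
  have hc := (Cfsg.Agent.S1634.result vStar wM vStar_norm wM_norm vStar_wM).1
  obtain ⟨x, hx⟩ := Set.nonempty_of_ncard_ne_zero (by rw [hc]; norm_num)
  obtain ⟨G, G1, G2, G3⟩ := frame vStar wM x vStar_norm wM_norm vStar_wM hx.1 hx.2.1 hx.2.2
  refine ⟨wA1_norm, ?_, ?_⟩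
  · have e := Cfsg.Agent.S1640.hdotp G vStar x
    rw [G1, G3] at e
    rw [e]
    exact hx.2.1
  · have e := Cfsg.Agent.S1640.hdotp G wM x
    rw [G2, G3] at e
    rw [e]
    exact hx.2.2

/-- The orbit of the standard third vector under the standard joint stabiliser. -/
theorem orbit_eqM :
    MulAction.orbit ↥(MulAction.stabilizer ↥Co0 vStar ⊓ MulAction.stabilizer ↥Co0 wM) wA1 =
      {x : ↥leechLattice | sqNorm (x : GolayPt → ℤ) = 32 ∧
        dotInt ((vStar : ↥leechLattice) : GolayPt → ℤ) (x : GolayPt → ℤ) = 0 ∧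
        dotInt ((wM : ↥leechLattice) : GolayPt → ℤ) (x : GolayPt → ℤ) = 16} := by
  ext y
  constructor
  · rintro ⟨h, rfl⟩
    have m := Subgroup.mem_inf.1 h.2
    have m1 : h.1 • vStar = vStar := m.1
    have m2 : h.1 • wM = wM := m.2
    show sqNorm ((h.1 • wA1 : ↥leechLattice) : GolayPt → ℤ) = 32 ∧
      dotInt ((vStar : ↥leechLattice) : GolayPt → ℤ)
        ((h.1 • wA1 : ↥leechLattice) : GolayPt → ℤ) = 0 ∧
      dotInt ((wM : ↥leechLattice) : GolayPt → ℤ)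
        ((h.1 • wA1 : ↥leechLattice) : GolayPt → ℤ) = 16
    refine ⟨by rw [Cfsg.Agent.S1640.hnorm]; exact wA1_mem.1, ?_, ?_⟩
    · have e := Cfsg.Agent.S1640.hdotp h.1 vStar wA1
      rw [m1] at e
      rw [e]
      exact wA1_mem.2.1
    · have e := Cfsg.Agent.S1640.hdotp h.1 wM wA1
      rw [m2] at e
      rw [e]
      exact wA1_mem.2.2
  · intro hy
    obtain ⟨G, G1, G2, G3⟩ := frame vStar wM y vStar_norm wM_norm vStar_wM hy.1 hy.2.1 hy.2.2
    refine ⟨⟨G⁻¹, Subgroup.mem_inf.2 ⟨?_, ?_⟩⟩, ?_⟩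
    · show G⁻¹ • vStar = vStar
      rw [inv_smul_eq_iff, G1]
    · show G⁻¹ • wM = wM
      rw [inv_smul_eq_iff, G2]
    · show G⁻¹ • wA1 = y
      rw [inv_smul_eq_iff, G3]

/-- The orbits of the point stabiliser inside the joint stabiliser are the orbits of the
three-vector stabiliser. -/
theorem orbit_bridge (y : ↥leechLattice) :
    MulAction.orbit ↥(MulAction.stabilizer
      ↥(MulAction.stabilizer ↥Co0 vStar ⊓ MulAction.stabilizer ↥Co0 wM) wA1) y =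
    MulAction.orbit ↥(MulAction.stabilizer ↥Co0 vStar ⊓ MulAction.stabilizer ↥Co0 wM ⊓
      MulAction.stabilizer ↥Co0 wA1) y := by
  ext z
  constructor
  · rintro ⟨s, rfl⟩
    have hs : s.1.1 • wA1 = wA1 := s.2
    exact ⟨⟨s.1.1, Subgroup.mem_inf.2 ⟨s.1.2, hs⟩⟩, rfl⟩
  · rintro ⟨t, rfl⟩
    have m := Subgroup.mem_inf.1 t.2
    exact ⟨⟨⟨t.1, m.1⟩, m.2⟩, rfl⟩

theorem phiM_mem (π : Equiv.Perm GolayPt) (hπ : π ∈ M24) (π0 : π (Golay.pt 0) = a)
    (π1 : π (Golay.pt 1) = b) (m : ↥(Golay.KK [1, 0])) :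
    Cfsg.Agent.S0405.phi0 π hπ m ∈
      MulAction.stabilizer ↥Co0 vStar ⊓ MulAction.stabilizer ↥Co0 wM := by
  obtain ⟨h1, h2, h3⟩ := Cfsg.Agent.S0405.phi0_fix π hπ π0 π1 m
  refine Subgroup.mem_inf.2 ⟨h3, ?_⟩
  have h := co_add (Cfsg.Agent.S0405.phi0 π hπ m) vStar wM
  rw [vStar_add_wM, h1, h3] at h
  rw [← vStar_add_wM] at h
  exact (add_left_cancel h).symm

/-- The homomorphism from the two-point stabiliser of the code group into the standard joint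
stabiliser. -/
def phiM (π : Equiv.Perm GolayPt) (hπ : π ∈ M24) (π0 : π (Golay.pt 0) = a)
    (π1 : π (Golay.pt 1) = b) :
    ↥(Golay.KK [1, 0]) →* ↥(MulAction.stabilizer ↥Co0 vStar ⊓ MulAction.stabilizer ↥Co0 wM) :=
  (Cfsg.Agent.S0405.phi0 π hπ).codRestrict _ (phiM_mem π hπ π0 π1)

/-- The standard joint stabiliser is simple of the stated order. -/
theorem std_McL : IsMcL ↥(MulAction.stabilizer ↥Co0 vStar ⊓ MulAction.stabilizer ↥Co0 wM) := by
  classical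
  obtain ⟨π, hπ, π0, π1⟩ := Golay.exists_map2 (a := Golay.pt 0) (b := Golay.pt 1) (c := a)
    (d := b) (by decide) ab
  have := Golay.M22_simple
  have c2025 := (Cfsg.Agent.S1634.result vStar wM vStar_norm wM_norm vStar_wM).1
  have hfixx : ∀ h : ↥(MulAction.stabilizer ↥Co0 vStar ⊓ MulAction.stabilizer ↥Co0 wM),
      h • wA1 = wA1 ↔ h.1 • wA1 = wA1 := fun h => Iff.rfl
  have hperm : ∀ h : ↥(MulAction.stabilizer ↥Co0 vStar ⊓ MulAction.stabilizer ↥Co0 wM),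
      h • wA1 = wA1 → ∃ σ : ↥M24, (σ : Equiv.Perm GolayPt) a = a ∧
      (σ : Equiv.Perm GolayPt) b = b ∧
      ∀ (v : ↥leechLattice) (k : GolayPt), ((h.1 • v : ↥leechLattice) : GolayPt → ℤ) k
        = (v : GolayPt → ℤ) ((σ : Equiv.Perm GolayPt) k) := by
    intro h hh
    have hv : h.1 • vStar = vStar := (Subgroup.mem_inf.1 h.2).1
    have hw : h.1 • wM = wM := (Subgroup.mem_inf.1 h.2).2
    exact stab_perm' h.1 hv hw ((hfixx h).1 hh)
  have hφ1 : ∀ m, phiM π hπ π0 π1 m • wA1 = wA1 := by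
    intro m
    rw [hfixx]
    exact (Cfsg.Agent.S0405.phi0_fix π hπ π0 π1 m).2.1
  have hφ2 : ∀ h : ↥(MulAction.stabilizer ↥Co0 vStar ⊓ MulAction.stabilizer ↥Co0 wM),
      h • wA1 = wA1 → ∃ m, phiM π hπ π0 π1 m = h := by
    intro h hh
    obtain ⟨σ, σa, σb, hform⟩ := hperm h hh
    have hm : π⁻¹ * (σ : Equiv.Perm GolayPt)⁻¹ * π ∈ Golay.KK [1, 0] := by
      rw [Golay.mem_KK]
      refine ⟨M24.mul_mem (M24.mul_mem (M24.inv_mem hπ) (M24.inv_mem σ.2)) hπ, ?_⟩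
      intro f hf
      have e1 : (σ : Equiv.Perm GolayPt)⁻¹ a = a := by
        rw [Equiv.Perm.inv_eq_iff_eq, σa]
      have e2 : (σ : Equiv.Perm GolayPt)⁻¹ b = b := by
        rw [Equiv.Perm.inv_eq_iff_eq, σb]
      simp only [List.mem_cons, List.not_mem_nil, or_false] at hf
      rcases hf with rfl | rfl
      · rw [Equiv.Perm.mul_apply, Equiv.Perm.mul_apply, π1, e2, Equiv.Perm.inv_eq_iff_eq, π1]
      · rw [Equiv.Perm.mul_apply, Equiv.Perm.mul_apply, π0, e1, Equiv.Perm.inv_eq_iff_eq, π0]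
    refine ⟨⟨_, hm⟩, ?_⟩
    apply Subtype.ext
    apply Subtype.ext
    apply Equiv.ext
    intro v
    apply Subtype.ext
    funext k
    show ((Cfsg.Agent.S0405.phi0 π hπ ⟨_, hm⟩ • v : ↥leechLattice) : GolayPt → ℤ) k
      = ((h.1 • v : ↥leechLattice) : GolayPt → ℤ) k
    rw [Cfsg.Agent.S0405.phi0_apply, hform]
    simp
  have hinj : Function.Injective (phiM π hπ π0 π1) := by
    intro m1 m2 e
    have e0 : Cfsg.Agent.S0405.phi0 π hπ m1 = Cfsg.Agent.S0405.phi0 π hπ m2 :=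
      congrArg Subtype.val e
    have hk : ∀ k, (π * (m1 : Equiv.Perm GolayPt)⁻¹ * π⁻¹) k
        = (π * (m2 : Equiv.Perm GolayPt)⁻¹ * π⁻¹) k := by
      intro k
      have h1 := Cfsg.Agent.S0405.phi0_apply π hπ m1
        (CoA.bv ((π * (m1 : Equiv.Perm GolayPt)⁻¹ * π⁻¹) k)) k
      rw [e0, Cfsg.Agent.S0405.phi0_apply, CoA.bv_apply, CoA.bv_apply, if_pos rfl] at h1
      by_contra hne
      rw [if_neg (fun h => hne h.symm)] at h1
      norm_num at h1
    have e1 : π * (m1 : Equiv.Perm GolayPt)⁻¹ * π⁻¹ = π * (m2 : Equiv.Perm GolayPt)⁻¹ * π⁻¹ :=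
      Equiv.ext hk
    apply Subtype.ext
    have e2 : (m1 : Equiv.Perm GolayPt)⁻¹ = (m2 : Equiv.Perm GolayPt)⁻¹ :=
      mul_left_cancel (mul_right_cancel e1)
    exact inv_injective e2
  obtain ⟨y1, y2, y3, b1, b2, b3, n1, n2, n3⟩ := std_orbits
  have hmem : ∀ y : ↥leechLattice, InB (y : GolayPt → ℤ) → y ∈ MulAction.orbit
      ↥(MulAction.stabilizer ↥Co0 vStar ⊓ MulAction.stabilizer ↥Co0 wM) wA1 := by
    intro y hy
    rw [orbit_eqM]
    exact (inB_iff _).2 hy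
  have hcard : (MulAction.orbit
      ↥(MulAction.stabilizer ↥Co0 vStar ⊓ MulAction.stabilizer ↥Co0 wM) wA1).ncard = 2025 := by
    rw [orbit_eqM]
    exact c2025
  have hyp : Rank4.Hyp ↥(MulAction.stabilizer ↥Co0 vStar ⊓ MulAction.stabilizer ↥Co0 wM)
      ↥leechLattice wA1 := by
    refine ⟨hcard, ?_, ⟨y1, y2, y3, hmem y1 b1, hmem y2 b2, hmem y3 b3, ?_, ?_, ?_⟩⟩
    · exact Rank4.faith_of_simple wA1 (phiM π hπ π0 π1) hφ2 y1 (hmem y1 b1)
        (by rw [orbit_bridge, n1]; norm_num)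
    · rw [orbit_bridge]
      exact n1
    · rw [orbit_bridge]
      exact n2
    · rw [orbit_bridge]
      exact n3
  refine ⟨Rank4.simple_abs4 wA1 hyp (phiM π hπ π0 π1) hφ2, ?_⟩
  rw [Rank4.card_abs4 wA1 (phiM π hπ π0 π1) hinj hφ1 hφ2, hcard, Golay.card_KK2]

/-- Joint stabiliser of two minimal vectors with coordinate dot product −8 is simple of order 898128000. -/
theorem result (v w : Cfsg.leechLattice) (hv : Cfsg.sqNorm (v : Cfsg.GolayPt → ℤ) = 32) (hw : Cfsg.sqNorm (w : Cfsg.GolayPt → ℤ) = 32) (hvw : Cfsg.dotInt (v : Cfsg.GolayPt → ℤ) (w : Cfsg.GolayPt → ℤ) = -8) : Cfsg.IsMcL ↥(MulAction.stabilizer Cfsg.Co0 v ⊓ MulAction.stabilizer Cfsg.Co0 w) := by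
  have hc := (Cfsg.Agent.S1634.result v w hv hw hvw).1
  obtain ⟨x, hx⟩ := Set.nonempty_of_ncard_ne_zero (by rw [hc]; norm_num)
  obtain ⟨G, G1, G2, G3⟩ := Cfsg.Agent.S1634.frame v w x hv hw hvw hx.1 hx.2.1 hx.2.2
  apply transferM G v w
  rw [G1, G2]
  exact std_McL
end Cfsg.Agent.S0404
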