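import Cfsg.Statements.S0403
import Cfsg.Agent.S0404
import Cfsg.Agent.S1578
import Cfsg.Agent.S1579
import Cfsg.Agent.S0401
import Cfsg.Agent.Lib.Helper28.Imp552

set_option autoImplicit false
open Cfsg

namespace Cfsg.Agent.S0403

open Cfsg.Agent.Lib.Helper28 Cfsg.Agent.Lib.Helper4
open Cfsg.Agent.Lib.Helper4.Stv
open Cfsg.Agent.S1584 Cfsg.Agent.S1571 Cfsg.Agent.S1634 Cfsg.Agent.S1580

/-- Conjugate vectors have isomorphic stabilisers. -/
theorem transfer3 (g : ↥Co0) (v : ↥leechLattice)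
    (h : IsCo3 ↥(MulAction.stabilizer ↥Co0 (g • v))) :
    IsCo3 ↥(MulAction.stabilizer ↥Co0 v) := by
  have e : Nonempty (↥(MulAction.stabilizer ↥Co0 v) ≃*
      ↥(MulAction.stabilizer ↥Co0 (g • v))) := by
    rw [MulAction.stabilizer_smul_eq_stabilizer_map_conj]
    exact ⟨Subgroup.equivMapOfInjective _ _ (MulAut.conj g).injective⟩
  obtain ⟨e⟩ := e
  obtain ⟨h1, h2⟩ := h
  exact ⟨e.isSimpleGroup, by rw [Nat.card_congr e.toEquiv]; exact h2⟩

theorem co_sub (g : ↥Co0) (x y : ↥leechLattice) : g • (x - y) = g • x - g • y := by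
  rw [sub_eq_add_neg, co_add, co_neg, ← sub_eq_add_neg]

/-- The stabiliser of the standard vector of sum of squares 48. -/
abbrev H3 : Subgroup ↥Co0 := MulAction.stabilizer ↥Co0 v0

/-- The point stabiliser inside it. -/
abbrev K3 : Subgroup ↥H3 := MulAction.stabilizer ↥H3 vStar

theorem mem_P (h : ↥H3) (y : ↥leechLattice)
    (hy : sqNorm (y : GolayPt → ℤ) = 32 ∧
      dotInt ((v0 : ↥leechLattice) : GolayPt → ℤ) (y : GolayPt → ℤ) = 24) :
    sqNorm ((h.1 • y : ↥leechLattice) : GolayPt → ℤ) = 32 ∧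
      dotInt ((v0 : ↥leechLattice) : GolayPt → ℤ)
        ((h.1 • y : ↥leechLattice) : GolayPt → ℤ) = 24 := by
  have hv : h.1 • v0 = v0 := h.2
  refine ⟨?_, ?_⟩
  · rw [Cfsg.Agent.S1640.hnorm]
    exact hy.1
  · have e := Cfsg.Agent.S1640.hdotp h.1 v0 y
    rw [hv] at e
    rw [e]
    exact hy.2

theorem orbit_eq3 : MulAction.orbit ↥H3 vStar =
    {y : ↥leechLattice | sqNorm (y : GolayPt → ℤ) = 32 ∧
      dotInt ((v0 : ↥leechLattice) : GolayPt → ℤ) (y : GolayPt → ℤ) = 24} := by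
  ext y
  constructor
  · rintro ⟨h, rfl⟩
    exact mem_P h vStar ⟨vStar_norm, v0_vStar⟩
  · intro hy
    obtain ⟨g, g1, g2⟩ := Cfsg.Agent.S1579.result v0 vStar y v0_norm
      ⟨vStar_norm, (sub_norm v0 vStar v0_norm vStar_norm).2 v0_vStar⟩
      ⟨hy.1, (sub_norm v0 y v0_norm hy.1).2 hy.2⟩
    exact ⟨⟨g, g1⟩, g2⟩

theorem card_orbit3 : (MulAction.orbit ↥H3 vStar).ncard = 552 := by
  rw [orbit_eq3, ← Cfsg.Agent.S1578.result v0 v0_norm]
  congr 1
  ext y
  constructor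
  · rintro ⟨h1, h2⟩
    exact ⟨h1, (sub_norm v0 y v0_norm h1).2 h2⟩
  · rintro ⟨h1, h2⟩
    exact ⟨h1, (sub_norm v0 y v0_norm h1).1 h2⟩

theorem tau_mem (y : ↥leechLattice)
    (hy : sqNorm (y : GolayPt → ℤ) = 32 ∧
      dotInt ((v0 : ↥leechLattice) : GolayPt → ℤ) (y : GolayPt → ℤ) = 24) :
    sqNorm ((v0 - y : ↥leechLattice) : GolayPt → ℤ) = 32 ∧
      dotInt ((v0 : ↥leechLattice) : GolayPt → ℤ)
        ((v0 - y : ↥leechLattice) : GolayPt → ℤ) = 24 := by
  refine ⟨(sub_norm v0 y v0_norm hy.1).2 hy.2, ?_⟩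
  rw [AddSubgroup.coe_sub, dot_sub_right, dot_self, v0_norm, hy.2]
  norm_num

/-- The orbit of the point stabiliser on the 275 neighbours. -/
theorem orbit_O1 (y2 : ↥leechLattice) (hy2 : InA (y2 : GolayPt → ℤ)) :
    MulAction.orbit ↥K3 y2 = {y : ↥leechLattice | InA (y : GolayPt → ℤ)} := by
  ext y
  constructor
  · rintro ⟨s, rfl⟩
    have hv : s.1.1 • v0 = v0 := s.1.2
    have hx : s.1.1 • vStar = vStar := s.2
    show InA ((s.1.1 • y2 : ↥leechLattice) : GolayPt → ℤ)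
    obtain ⟨c1, c2, c3⟩ := (inA_iff _).2 hy2
    rw [← inA_iff]
    refine ⟨by rw [Cfsg.Agent.S1640.hnorm]; exact c1, ?_, ?_⟩
    · have e := Cfsg.Agent.S1640.hdotp s.1.1 v0 y2
      rw [hv] at e
      rw [e]
      exact c2
    · have e := Cfsg.Agent.S1640.hdotp s.1.1 vStar y2
      rw [hx] at e
      rw [e]
      exact c3
  · intro hy
    obtain ⟨g, g1, g2, g3⟩ := std_trans y2 y hy2 hy
    exact ⟨⟨⟨g, g1⟩, g2⟩, g3⟩

theorem card_InA : {y : ↥leechLattice | InA (y : GolayPt → ℤ)}.ncard = 275 := by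
  rw [← cnt275 v0 vStar v0_norm vStar_norm v0_vStar]
  congr 1
  ext y
  exact (inA_iff _).symm

/-- The orbit of the point stabiliser on the complementary vectors. -/
theorem orbit_O2 (y2 : ↥leechLattice) :
    MulAction.orbit ↥K3 (v0 - y2) = (fun y => v0 - y) '' MulAction.orbit ↥K3 y2 := by
  ext y
  constructor
  · rintro ⟨s, rfl⟩
    refine ⟨s • y2, ⟨s, rfl⟩, ?_⟩
    have hv : s.1.1 • v0 = v0 := s.1.2
    show v0 - s.1.1 • y2 = s.1.1 • (v0 - y2)
    rw [co_sub, hv]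
  · rintro ⟨t, ⟨s, rfl⟩, rfl⟩
    refine ⟨s, ?_⟩
    have hv : s.1.1 • v0 = v0 := s.1.2
    show s.1.1 • (v0 - y2) = v0 - s.1.1 • y2
    rw [co_sub, hv]

theorem dot_bv (p : GolayPt) (y : GolayPt → ℤ) :
    dotInt ((CoA.bv p : ↥leechLattice) : GolayPt → ℤ) y = 8 * y p := by
  unfold dotInt
  rw [Finset.sum_eq_single p]
  · rw [CoA.bv_apply, if_pos rfl]
  · intro j _ hj
    rw [CoA.bv_apply, if_neg hj, zero_mul]
  · intro h
    exact absurd (Finset.mem_univ p) h

theorem dot_pp (t : GolayPt → ℤ) (c : GolayPt) :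
    dotInt t (LeechGen.pp a c 4) = 4 * t a + 4 * t c := by
  unfold dotInt LeechGen.pp
  simp only [mul_add, mul_ite, mul_zero]
  rw [Finset.sum_add_distrib, Finset.sum_ite_eq' Finset.univ a (fun k => t k * 4),
    Finset.sum_ite_eq' Finset.univ c (fun k => t k * 4)]
  simp only [Finset.mem_univ, if_true]
  ring

theorem dot_octF (t : GolayPt → ℤ) (o : Finset GolayPt) :
    dotInt t (octF o) = 2 * ∑ i ∈ o, t i := by
  unfold dotInt octF
  simp only [mul_ite, mul_zero]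
  rw [Finset.sum_ite_mem, Finset.univ_inter, Finset.mul_sum]
  apply Finset.sum_congr rfl
  intro i _
  ring

theorem pp_a (c : GolayPt) (hc : c ≠ a) : LeechGen.pp a c 4 a = 4 := by
  unfold LeechGen.pp
  rw [if_pos rfl, if_neg (Ne.symm hc)]
  norm_num

theorem pp_c (c : GolayPt) (hc : c ≠ a) : LeechGen.pp a c 4 c = 4 := by
  unfold LeechGen.pp
  rw [if_neg hc, if_pos rfl]
  norm_num

theorem pp_k (c k : GolayPt) (hka : k ≠ a) (hkc : k ≠ c) : LeechGen.pp a c 4 k = 0 := by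
  unfold LeechGen.pp
  rw [if_neg hka, if_neg hkc]
  norm_num

/-- The vector with entries 4 at the base point and at `c`. -/
def pA (c : GolayPt) : ↥leechLattice := ⟨LeechGen.pp a c 4, LeechGen.pp_mem a c 4 (Or.inl rfl)⟩

theorem pA_mem (c : GolayPt) (hc : c ≠ a) :
    sqNorm ((pA c : ↥leechLattice) : GolayPt → ℤ) = 32 ∧
      dotInt ((v0 : ↥leechLattice) : GolayPt → ℤ) ((pA c : ↥leechLattice) : GolayPt → ℤ) = 24 := by
  refine ⟨?_, ?_⟩
  · show sqNorm (LeechGen.pp a c 4) = 32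
    rw [LeechGen.sq_pp a c (Ne.symm hc)]
    norm_num
  · show dotInt _ (LeechGen.pp a c 4) = 24
    rw [dot_v0, LeechGen.sum_pp, pp_a c hc]
    norm_num

theorem v0_a : ((v0 : ↥leechLattice) : GolayPt → ℤ) a = 5 := by
  show oddF a 5 a = 5
  unfold oddF
  rw [if_pos rfl]

/-- No automorphism fixing the standard vector exchanges every summand with its complement. -/
theorem w1_std : ¬ ∃ n : ↥H3, ∀ g : ↥H3, n • g • vStar = g • wM := by
  rintro ⟨n, hn⟩
  have hnv : n.1 • v0 = v0 := n.2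
  have hact : ∀ y : ↥leechLattice, sqNorm (y : GolayPt → ℤ) = 32 →
      dotInt ((v0 : ↥leechLattice) : GolayPt → ℤ) (y : GolayPt → ℤ) = 24 →
      n.1 • y = v0 - y := by
    intro y h1 h2
    have hy : y ∈ MulAction.orbit ↥H3 vStar := by
      rw [orbit_eq3]
      exact ⟨h1, h2⟩
    obtain ⟨g, rfl⟩ := hy
    have hgv : g.1 • v0 = v0 := g.2
    have e' : n.1 • (g.1 • vStar) = g.1 • wM := hn g
    show n.1 • (g.1 • vStar) = v0 - g.1 • vStar
    rw [e']
    show g.1 • (v0 - vStar) = v0 - g.1 • vStar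
    rw [co_sub, hgv]
  obtain ⟨t, ht⟩ : ∃ t : ↥leechLattice, t = n.1 • CoA.bv a := ⟨_, rfl⟩
  have hkey : ∀ y : ↥leechLattice, sqNorm (y : GolayPt → ℤ) = 32 →
      dotInt ((v0 : ↥leechLattice) : GolayPt → ℤ) (y : GolayPt → ℤ) = 24 →
      dotInt (t : GolayPt → ℤ) (y : GolayPt → ℤ) = 40 - 8 * (y : GolayPt → ℤ) a := by
    intro y h1 h2
    have e1 := Cfsg.Agent.S1640.hdotp n.1 (CoA.bv a) y
    rw [hact y h1 h2, ← ht, dot_bv, AddSubgroup.coe_sub, dot_sub_right] at e1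
    have e2 := Cfsg.Agent.S1640.hdotp n.1 (CoA.bv a) v0
    rw [hnv, ← ht, dot_bv, v0_a] at e2
    omega
  obtain ⟨F, hFc, hF⟩ := exists_O77
  obtain ⟨o, ho⟩ := Finset.card_pos.1 (show 0 < F.card by rw [hFc]; norm_num)
  obtain ⟨ho1, ho2, ho3⟩ := (hF o).1 ho
  have hA : ∀ c ∈ o.erase a, (t : GolayPt → ℤ) c = 2 - (t : GolayPt → ℤ) a := by
    intro c hc
    have hca : c ≠ a := (Finset.mem_erase.1 hc).1
    have h3 := hkey (pA c) (pA_mem c hca).1 (pA_mem c hca).2
    have h4 : dotInt (t : GolayPt → ℤ) (LeechGen.pp a c 4) = 40 - 8 * LeechGen.pp a c 4 a := h3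
    rw [dot_pp, pp_a c hca] at h4
    omega
  have hB : ∑ i ∈ o, (t : GolayPt → ℤ) i = 12 := by
    have ea : octF o a = 2 := by
      unfold octF
      rw [if_pos ho2]
    have h1 : sqNorm (octF o) = 32 := by
      rw [sq_octF, ho1.2]
      norm_num
    have h2 : dotInt ((v0 : ↥leechLattice) : GolayPt → ℤ) (octF o) = 24 := by
      rw [dot_v0, sum_octF, ho1.2, ea]
      norm_num
    have h3 := hkey ⟨octF o, octF_mem o ho1⟩ h1 h2
    have h4 : dotInt (t : GolayPt → ℤ) (octF o) = 40 - 8 * octF o a := h3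
    rw [dot_octF, ea] at h4
    omega
  rw [← Finset.add_sum_erase o _ ho2, Finset.sum_congr rfl hA, Finset.sum_const,
    Finset.card_erase_of_mem ho2, ho1.2, nsmul_eq_mul] at hB
  norm_num at hB
  omega

theorem inv_dot (g : ↥H3) (z : ↥leechLattice) :
    dotInt ((vStar : ↥leechLattice) : GolayPt → ℤ) ((g⁻¹ • z : ↥leechLattice) : GolayPt → ℤ) =
      dotInt ((g • vStar : ↥leechLattice) : GolayPt → ℤ) (z : GolayPt → ℤ) := by
  have e := Cfsg.Agent.S1640.hdotp g.1 vStar (g.1⁻¹ • z)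
  rw [smul_inv_smul] at e
  exact e.symm

/-- The hypotheses of the abstract criterion for the standard configuration. -/
theorem hyp_std : ∃ y2 y3 : ↥leechLattice, Imp552.Hyp ↥H3 ↥leechLattice vStar wM y2 y3 := by
  classical
  obtain ⟨F, hFc, hF⟩ := exists_O77
  obtain ⟨o, ho⟩ := Finset.card_pos.1 (show 0 < F.card by rw [hFc]; norm_num)
  obtain ⟨ho1, ho2, ho3⟩ := (hF o).1 ho
  obtain ⟨c, hc⟩ : ∃ c, c ∉ o := by
    by_contra hcon
    push Not at hcon
    have h8 := ho1.2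
    rw [Finset.eq_univ_iff_forall.2 hcon, Finset.card_univ, card_golayPt] at h8
    omega
  have hca : c ≠ a := fun h => hc (h ▸ ho2)
  have hcb : c ≠ b := fun h => hc (h ▸ ho3)
  obtain ⟨d, hda, hdb, hdc⟩ : ∃ d : GolayPt, d ≠ a ∧ d ≠ b ∧ d ≠ c := by
    by_contra hcon
    push Not at hcon
    have hsub : (Finset.univ : Finset GolayPt) ⊆ {a, b, c} := by
      intro d _
      by_cases h1 : d = a
      · rw [h1]; simp
      by_cases h2 : d = b
      · rw [h2]; simp
      rw [hcon d h1 h2]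
      simp
    have h3 := Finset.card_le_card hsub
    rw [Finset.card_univ, card_golayPt] at h3
    have h4 : ({a, b, c} : Finset GolayPt).card ≤ 3 := Finset.card_le_three
    omega
  have iC : InA ((pA c : ↥leechLattice) : GolayPt → ℤ) := inA_pp c hca hcb
  have iD : InA ((pA d : ↥leechLattice) : GolayPt → ℤ) := inA_pp d hda hdb
  have iO : InA (octF o) := (inA_oct o ho1 ho2 ho3).1
  have hmemP : ∀ y : ↥leechLattice, sqNorm (y : GolayPt → ℤ) = 32 ∧
      dotInt ((v0 : ↥leechLattice) : GolayPt → ℤ) (y : GolayPt → ℤ) = 24 →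
      y ∈ MulAction.orbit ↥H3 vStar := by
    intro y hy
    rw [orbit_eq3]
    exact hy
  have hInA : ∀ y : ↥leechLattice, InA (y : GolayPt → ℤ) →
      sqNorm (y : GolayPt → ℤ) = 32 ∧
      dotInt ((v0 : ↥leechLattice) : GolayPt → ℤ) (y : GolayPt → ℤ) = 24 := by
    intro y hy
    obtain ⟨c1, c2, c3⟩ := (inA_iff _).2 hy
    exact ⟨c1, c2⟩
  have hwM : sqNorm ((wM : ↥leechLattice) : GolayPt → ℤ) = 32 ∧
      dotInt ((v0 : ↥leechLattice) : GolayPt → ℤ) ((wM : ↥leechLattice) : GolayPt → ℤ) = 24 :=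
    tau_mem vStar ⟨vStar_norm, v0_vStar⟩
  refine ⟨pA c, v0 - pA c, ?_⟩
  refine ⟨card_orbit3, hmemP wM hwM, hmemP (pA c) (hInA _ iC),
    hmemP _ (tau_mem _ (hInA _ iC)), ?_, ?_, ?_, ?_, ?_, w1_std, ?_, ?_⟩
  · -- wM ≠ vStar
    intro h
    have e := Cfsg.Agent.S0404.vStar_wM
    rw [h, dot_self, vStar_norm] at e
    norm_num at e
  · -- the point stabiliser fixes wM
    intro h hh
    have hv : h.1 • v0 = v0 := h.2
    have hx : h.1 • vStar = vStar := hh
    show h.1 • (v0 - vStar) = v0 - vStar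
    rw [co_sub, hv, hx]
  · rw [orbit_O1 (pA c) iC]
    exact card_InA
  · rw [orbit_O2, Set.ncard_image_of_injective _ sub_right_injective, orbit_O1 (pA c) iC]
    exact card_InA
  · -- the two orbits differ
    rw [orbit_O1 (pA c) iC]
    intro hI
    have h1 := ((inA_iff _).2 hI).2.2
    rw [AddSubgroup.coe_sub, dot_sub_right, LeechCross.dot_comm, v0_vStar,
      ((inA_iff _).2 iC).2.2] at h1
    norm_num at h1
  · -- witness for the first class
    obtain ⟨g, hg⟩ := hmemP (pA c) (hInA _ iC)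
    have hg' : g • vStar = pA c := hg
    refine ⟨g, ⟨octF o, octF_mem o ho1⟩, ?_, ?_, ?_, ?_⟩
    · rw [hg', orbit_O1 (pA c) iC]
      exact iC
    · rw [orbit_O1 (pA c) iC]
      exact iO
    · rw [hg']
      intro h
      have e := congrArg (fun w : ↥leechLattice => (w : GolayPt → ℤ) c) h
      have e' : octF o c = LeechGen.pp a c 4 c := e
      rw [pp_c c hca] at e'
      unfold octF at e'
      rw [if_neg hc] at e'
      norm_num at e'
    · rw [orbit_O1 (pA c) iC]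
      intro hI
      have h1 := ((inA_iff _).2 hI).2.2
      rw [inv_dot, hg'] at h1
      have h2 : dotInt (LeechGen.pp a c 4) (octF o) = 16 := h1
      rw [LeechCross.dot_comm, dot_pp] at h2
      unfold octF at h2
      rw [if_pos ho2, if_neg hc] at h2
      norm_num at h2
  · -- witness for the second class
    obtain ⟨g, hg⟩ := hmemP (v0 - pA c) (tau_mem _ (hInA _ iC))
    have hg' : g • vStar = v0 - pA c := hg
    refine ⟨g, v0 - pA d, ?_, ?_, ?_, ?_⟩
    · rw [hg', orbit_O2, orbit_O1 (pA c) iC]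
      exact ⟨pA c, iC, rfl⟩
    · rw [orbit_O2, orbit_O1 (pA c) iC]
      exact ⟨pA d, iD, rfl⟩
    · rw [hg']
      intro h
      have h2 : pA d = pA c := sub_right_injective h
      have e := congrArg (fun w : ↥leechLattice => (w : GolayPt → ℤ) c) h2
      have e' : LeechGen.pp a d 4 c = LeechGen.pp a c 4 c := e
      rw [pp_c c hca, pp_k d c hca (Ne.symm hdc)] at e'
      norm_num at e'
    · rw [orbit_O2, orbit_O1 (pA c) iC]
      rintro ⟨y0, hy0, e0⟩
      have hy0' : InA ((y0 : ↥leechLattice) : GolayPt → ℤ) := hy0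
      have h1 := ((inA_iff _).2 hy0').2.2
      have e1 : dotInt ((vStar : ↥leechLattice) : GolayPt → ℤ)
          ((g⁻¹ • (v0 - pA d) : ↥leechLattice) : GolayPt → ℤ) = 8 := by
        have e0' : v0 - y0 = g⁻¹ • (v0 - pA d) := e0
        rw [← e0', AddSubgroup.coe_sub, dot_sub_right, LeechCross.dot_comm, v0_vStar, h1]
        norm_num
      rw [inv_dot, hg', AddSubgroup.coe_sub, AddSubgroup.coe_sub, dot_sub_left, dot_sub_right,
        dot_sub_right, dot_self, v0_norm, (pA_mem d hda).2, LeechCross.dot_comm _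
        ((v0 : ↥leechLattice) : GolayPt → ℤ), (pA_mem c hca).2] at e1
      have h2 : dotInt (LeechGen.pp a c 4) (LeechGen.pp a d 4) = 16 := by
        rw [dot_pp, pp_a c hca, pp_k c d hda hdc]
        norm_num
      have h3 : dotInt ((pA c : ↥leechLattice) : GolayPt → ℤ)
          ((pA d : ↥leechLattice) : GolayPt → ℤ) = 16 := h2
      rw [h3] at e1
      norm_num at e1

theorem le_H3 : MulAction.stabilizer ↥Co0 vStar ⊓ MulAction.stabilizer ↥Co0 wM ≤ H3 := by
  intro g hg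
  have m := Subgroup.mem_inf.1 hg
  have m1 : g • vStar = vStar := m.1
  have m2 : g • wM = wM := m.2
  show g • v0 = v0
  rw [← vStar_add_wM, co_add, m1, m2]

/-- The standard stabiliser is simple of the stated order. -/
theorem std_Co3 : IsCo3 ↥H3 := by
  obtain ⟨y2, y3, hyp⟩ := hyp_std
  obtain ⟨hs, hcard⟩ := Cfsg.Agent.S0404.std_McL
  have hφ1 : ∀ m, Subgroup.inclusion le_H3 m • vStar = vStar := by
    intro m
    exact (Subgroup.mem_inf.1 m.2).1
  have hφ2 : ∀ h : ↥H3, h • vStar = vStar → ∃ m, Subgroup.inclusion le_H3 m = h := by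
    intro h hh
    have hv : h.1 • v0 = v0 := h.2
    have hx : h.1 • vStar = vStar := hh
    have hw : h.1 • wM = wM := by
      show h.1 • (v0 - vStar) = v0 - vStar
      rw [co_sub, hv, hx]
    exact ⟨⟨h.1, Subgroup.mem_inf.2 ⟨hx, hw⟩⟩, Subtype.ext rfl⟩
  refine ⟨Imp552.simple552 vStar wM y2 y3 hyp (Subgroup.inclusion le_H3) hφ2, ?_⟩
  rw [Rank4.card_abs4 vStar (Subgroup.inclusion le_H3) (Subgroup.inclusion_injective le_H3)
    hφ1 hφ2, card_orbit3, hcard]

/-- Stabiliser of a vector of sum of squares 48 is simple of order 495766656000. -/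
theorem result (v : Cfsg.leechLattice) (hv : Cfsg.sqNorm (v : Cfsg.GolayPt → ℤ) = 48) : Cfsg.IsCo3 (MulAction.stabilizer Cfsg.Co0 v) := by
  obtain ⟨g, hg⟩ := Cfsg.Agent.S0401.result v Cfsg.Agent.S1584.v0 hv Cfsg.Agent.S1584.v0_norm
  apply transfer3 g v
  rw [hg]
  exact std_Co3
end Cfsg.Agent.S0403
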