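import Cfsg.Statements.S0406
import Cfsg.Agent.Lib.Helper28.LeechU
import Cfsg.Agent.S0375

set_option autoImplicit false
open Matrix
open Cfsg

namespace Cfsg.Agent.S0406

open Finset
open Cfsg.Agent Cfsg.Agent.Lib.Helper28.LeechU

section lat
variable {M : AddSubgroup V24}

theorem exists_ocs (M : AddSubgroup V24) :
    ∃ OCs : Finset (Finset (Fin 24)), ∀ S, S ∈ OCs ↔ OC M S := by
  classical
  exact ⟨Finset.univ.filter (fun S => OC M S), fun S => by
    rw [Finset.mem_filter]
    exact ⟨fun h => h.2, fun h => ⟨Finset.mem_univ _, h⟩⟩⟩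

theorem oc_le (hM : PL M) (OCs : Finset (Finset (Fin 24))) (hOCs : ∀ S, S ∈ OCs ↔ OC M S) :
    OCs.card * 2325 ≤ 16777216 := by
  generalize hL3 : (Finset.range 4).biUnion
    (fun k => Finset.powersetCard k (Finset.univ : Finset (Fin 24))) = L3
  have m3 : ∀ s, s ∈ L3 → s.card ≤ 3 := by
    intro s hs
    rw [← hL3, Finset.mem_biUnion] at hs
    obtain ⟨k, hk, hs⟩ := hs
    rw [Finset.mem_range] at hk
    rw [(Finset.mem_powersetCard.1 hs).2]
    omega
  have c3 : L3.card = 2325 := by
    rw [← hL3, Finset.card_biUnion (fun i _ j _ hij => Finset.pairwise_disjoint_powersetCard _ hij)]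
    simp only [Finset.card_powersetCard, Finset.card_univ, Fintype.card_fin]
    decide
  have hinj : Set.InjOn (fun p : Finset (Fin 24) × Finset (Fin 24) => symmDiff p.1 p.2)
      ((OCs ×ˢ L3 : Finset (Finset (Fin 24) × Finset (Fin 24))) :
        Set (Finset (Fin 24) × Finset (Fin 24))) := by
    rintro ⟨A, s⟩ hp ⟨A', s'⟩ hp' h
    have hp1 := Finset.mem_product.1 (Finset.mem_coe.1 hp)
    have hp2 := Finset.mem_product.1 (Finset.mem_coe.1 hp')
    have h0 : symmDiff A s = symmDiff A' s' := h
    have key : symmDiff A A' = symmDiff s s' := by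
      have h' : symmDiff (symmDiff A s) (symmDiff A' s') = ⊥ := by
        rw [h0]
        exact symmDiff_self _
      rw [symmDiff_symmDiff_symmDiff_comm] at h'
      exact symmDiff_eq_bot.1 h'
    by_cases hAA : A = A'
    · rw [hAA, symmDiff_self] at key
      have hs : s = s' := symmDiff_eq_bot.1 key.symm
      rw [hAA, hs]
    · exfalso
      have hfar := oc_far hM ((hOCs A).1 hp1.1) ((hOCs A').1 hp2.1) hAA
      have e1 : (A \ A') ∪ (A' \ A) = symmDiff A A' := rfl
      rw [e1, key] at hfar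
      have hc := sd_card' s s'
      have e2 : (s \ s') ∪ (s' \ s) = symmDiff s s' := rfl
      rw [e2] at hc
      have := m3 s hp1.2
      have := m3 s' hp2.2
      omega
  have h := Finset.card_le_card_of_injOn (t := Finset.univ) _
    (fun _ _ => Finset.mem_coe.2 (Finset.mem_univ _)) hinj
  rw [Finset.card_product, c3, Finset.card_univ, Fintype.card_finset, Fintype.card_fin] at h
  norm_num at h
  exact h

theorem supp_zero' : support₂ (0 : Fin 24 → ZMod 2) = ∅ := by
  ext i
  rw [S0375.mem_supp]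
  exact ⟨fun h => absurd rfl h, fun h => absurd h (Finset.notMem_empty i)⟩

theorem zmod2_add_ne : ∀ x y : ZMod 2,
    x + y ≠ 0 ↔ (x ≠ 0 ∧ ¬ y ≠ 0) ∨ (y ≠ 0 ∧ ¬ x ≠ 0) := by decide

theorem supp_add' (a b : Fin 24 → ZMod 2) :
    support₂ (a + b) = (support₂ a \ support₂ b) ∪ (support₂ b \ support₂ a) := by
  ext i
  rw [S0375.mem_supp, Finset.mem_union, Finset.mem_sdiff, Finset.mem_sdiff, S0375.mem_supp,
    S0375.mem_supp]
  exact zmod2_add_ne (a i) (b i)

/-- The code of the lattice. -/
def codeOf (M : AddSubgroup V24) : Submodule (ZMod 2) (Fin 24 → ZMod 2) where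
  carrier := {w | OC M (support₂ w)}
  zero_mem' := by
    show OC M (support₂ 0)
    rw [supp_zero']
    exact oc_empty
  add_mem' := by
    intro a b ha hb
    show OC M (support₂ (a + b))
    rw [supp_add']
    exact oc_sd ha hb
  smul_mem' := by
    intro c w hw
    rcases S0375.zmod2_cases c with rfl | rfl
    · show OC M (support₂ ((0 : ZMod 2) • w))
      rw [zero_smul, supp_zero']
      exact oc_empty
    · show OC M (support₂ ((1 : ZMod 2) • w))
      rw [one_smul]
      exact hw

theorem mem_codeOf {w : Fin 24 → ZMod 2} : w ∈ codeOf M ↔ OC M (support₂ w) := Iff.rfl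

theorem code_weight (hM : PL M) {w : Fin 24 → ZMod 2} (hw : w ∈ codeOf M) :
    4 ∣ hammingNorm w ∧ hammingNorm w ≠ 4 := oc_card hM hw

theorem code_orth (hM : PL M) {v w : Fin 24 → ZMod 2} (hv : v ∈ codeOf M) (hw : w ∈ codeOf M) :
    ∑ i, v i * w i = 0 := by
  have h := S0375.dot_ind (support₂ v) w
  rw [S0375.ind_supp] at h
  rw [h, ZMod.natCast_eq_zero_iff]
  have h1 := oc_card hM hv
  have h2 := oc_card hM hw
  have h3 := oc_card hM (oc_sd hw hv)
  have hc := sd_card' (support₂ w) (support₂ v)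
  obtain ⟨k1, hk1⟩ := h1.1
  obtain ⟨k2, hk2⟩ := h2.1
  obtain ⟨k3, hk3⟩ := h3.1
  omega

theorem code_card (OCs : Finset (Finset (Fin 24))) (hOCs : ∀ S, S ∈ OCs ↔ OC M S) :
    Nat.card (codeOf M) = OCs.card := by
  have e : ↥(codeOf M) ≃ ↥OCs :=
    { toFun := fun w => ⟨support₂ w.1, (hOCs _).2 w.2⟩
      invFun := fun S => ⟨S0375.ind S.1, by
        show OC M (support₂ (S0375.ind S.1))
        rw [S0375.supp_ind]
        exact (hOCs _).1 S.2⟩
      left_inv := fun w => Subtype.ext (S0375.ind_supp w.1)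
      right_inv := fun S => Subtype.ext (S0375.supp_ind S.1) }
  rw [Nat.card_congr e, Nat.card_eq_fintype_card, Fintype.card_coe]

theorem code_dim (hM : PL M) : Module.finrank (ZMod 2) (codeOf M) = 12 := by
  obtain ⟨OCs, hOCs⟩ := exists_ocs M
  have h1 := (count_main hM OCs hOCs).2
  have h2 := oc_le hM OCs hOCs
  have hc : Nat.card (codeOf M) = OCs.card := code_card OCs hOCs
  have hp : Nat.card (codeOf M) = 2 ^ Module.finrank (ZMod 2) (codeOf M) := by
    rw [Module.natCard_eq_pow_finrank (K := ZMod 2), Nat.card_eq_fintype_card, ZMod.card]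
  rw [hc] at hp
  generalize Module.finrank (ZMod 2) (codeOf M) = d at hp
  rw [hp] at h1 h2
  by_contra hd
  rcases Nat.lt_or_gt_of_ne hd with h | h
  · have h' : 2 ^ d ≤ 2 ^ 11 := Nat.pow_le_pow_right (by norm_num) (by omega)
    norm_num at h'
    omega
  · have h' : 2 ^ 13 ≤ 2 ^ d := Nat.pow_le_pow_right (by norm_num) (by omega)
    norm_num at h'
    omega

theorem supp_comp (e : Fin 24 ≃ GolayPt) (w' : GolayPt → ZMod 2) :
    support₂ (fun i => w' (e i)) = (support₂ w').image e.symm := by
  ext i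
  rw [S0375.mem_supp, Finset.mem_image]
  constructor
  · intro h
    exact ⟨e i, S0375.mem_supp.2 h, e.symm_apply_apply i⟩
  · rintro ⟨p, hp, rfl⟩
    rw [Equiv.apply_symm_apply]
    exact S0375.mem_supp.1 hp

theorem gs_iff (e : Fin 24 ≃ GolayPt)
    (he : ∀ w : GolayPt → ZMod 2, w ∈ golayCode ↔ (fun i => w (e i)) ∈ codeOf M)
    (S' : Finset GolayPt) :
    S' ∈ supports (golayCode : Set (GolayPt → ZMod 2)) ↔ OC M (S'.image e.symm) := by
  constructor
  · rintro ⟨w', hw', rfl⟩
    have h := (he w').1 hw'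
    rw [mem_codeOf, supp_comp] at h
    exact h
  · intro h
    refine ⟨S0375.ind S', ?_, S0375.supp_ind S'⟩
    show S0375.ind S' ∈ golayCode
    rw [he, mem_codeOf, supp_comp, S0375.supp_ind]
    exact h

theorem compl_sd (S : Finset (Fin 24)) : (Finset.univ \ S) ∪ (S \ Finset.univ) = Sᶜ := by
  ext i
  rw [Finset.mem_union, Finset.mem_sdiff, Finset.mem_sdiff, Finset.mem_compl]
  constructor
  · rintro (h | h)
    · exact h.2
    · exact absurd (Finset.mem_univ i) h.2
  · intro h
    exact Or.inl ⟨Finset.mem_univ i, h⟩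

end lat

theorem leech_of_PL {M : AddSubgroup V24} (hM : PL M) :
    ∃ Tm : V24 →+ (GolayPt → ℤ), Function.Injective Tm ∧ (∀ y, sqNorm (Tm y) = sqNorm y) ∧
      (∀ y ∈ M, Tm y ∈ leechLattice) ∧ ∀ z ∈ leechLattice, ∃ y ∈ M, Tm y = z := by
  obtain ⟨OCs, hOCs⟩ := exists_ocs M
  obtain ⟨x0, hx0, hodd⟩ := (count_main hM OCs hOCs).1
  obtain ⟨e, he⟩ := Cfsg.Agent.S0375.result (codeOf M) (code_dim hM)
    (fun v hv w hw => code_orth hM hv hw) (fun w hw => (code_weight hM hw).1)
    (fun w hw => (code_weight hM hw).2)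
  obtain ⟨ε, hε, hεx⟩ : ∃ ε : Fin 24 → ℤ, (∀ i, ε i = 1 ∨ ε i = -1) ∧
      ∀ i, (ε i * x0 i) % 4 = 1 := by
    refine ⟨fun i => if x0 i % 4 = 1 then 1 else -1, fun i => ?_, fun i => ?_⟩
    · by_cases h : x0 i % 4 = 1
      · left
        show (if x0 i % 4 = 1 then (1 : ℤ) else -1) = 1
        rw [if_pos h]
      · right
        show (if x0 i % 4 = 1 then (1 : ℤ) else -1) = -1
        rw [if_neg h]
    · have ho := hodd i
      show ((if x0 i % 4 = 1 then (1 : ℤ) else -1) * x0 i) % 4 = 1
      by_cases h : x0 i % 4 = 1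
      · rw [if_pos h]
        omega
      · rw [if_neg h]
        omega
  have hεsq : ∀ i (a : ℤ), (ε i * a) ^ 2 = a ^ 2 := by
    intro i a
    rcases hε i with h | h <;> rw [h] <;> ring
  have hεε : ∀ i (a : ℤ), ε i * (ε i * a) = a := by
    intro i a
    rcases hε i with h | h <;> rw [h] <;> ring
  have htx : ∀ i, ∃ t : ℤ, ε i * x0 i = 1 + 4 * t :=
    fun i => ⟨(ε i * x0 i) / 4, by have := hεx i; omega⟩
  choose t ht using htx
  have hsx0 : (∑ i, ε i * x0 i) % 8 = 4 := by
    have h16 := hM.1 x0 hx0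
    have hsq : sqNorm x0 = 24 + 8 * ∑ i, t i + 16 * ∑ i, t i ^ 2 := by
      show ∑ i, x0 i ^ 2 = _
      have h' : ∀ i, x0 i ^ 2 = 1 + 8 * t i + 16 * t i ^ 2 := by
        intro i
        rw [← hεsq i (x0 i), ht i]
        ring
      rw [Finset.sum_congr rfl (fun i _ => h' i), Finset.sum_add_distrib, Finset.sum_add_distrib,
        Finset.sum_const, Finset.card_univ, Fintype.card_fin, ← Finset.mul_sum, ← Finset.mul_sum]
      norm_num
    have hs : ∑ i, ε i * x0 i = 24 + 4 * ∑ i, t i := by
      rw [Finset.sum_congr rfl (fun i _ => ht i), Finset.sum_add_distrib, Finset.sum_const,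
        Finset.card_univ, Fintype.card_fin, ← Finset.mul_sum]
      norm_num
    rw [hsq] at h16
    obtain ⟨k, hk⟩ := h16
    rw [hs]
    omega
  have hsE : ∀ y ∈ M, Ev y → (8 : ℤ) ∣ ∑ i, ε i * y i := by
    intro y hy hev
    have hd := hM.2.2.1 y hy x0 hx0
    have hdot : dotInt y x0 = ∑ i, ε i * y i + 4 * ∑ i, ε i * y i * t i := by
      show ∑ i, y i * x0 i = _
      rw [Finset.mul_sum, ← Finset.sum_add_distrib]
      apply Finset.sum_congr rfl
      intro i _
      have h1 : y i * x0 i = (ε i * y i) * (ε i * x0 i) := by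
        rcases hε i with h | h <;> rw [h] <;> ring
      rw [h1, ht i]
      ring
    have h2 : (2 : ℤ) ∣ ∑ i, ε i * y i * t i := Finset.dvd_sum (fun i _ => by
      obtain ⟨k, hk⟩ := hev i
      exact ⟨ε i * k * t i, by rw [hk]; ring⟩)
    rw [hdot] at hd
    obtain ⟨k2, hk2⟩ := h2
    obtain ⟨k, hk⟩ := hd
    exact ⟨k - k2, by omega⟩
  have hsO : ∀ y ∈ M, (∀ i, ¬ (2 : ℤ) ∣ y i) → (∑ i, ε i * y i) % 8 = 4 := by
    intro y hy ho
    have hev : Ev (y - x0) := by
      intro i
      have := ho i
      have := hodd i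
      show (2 : ℤ) ∣ y i - x0 i
      omega
    have h := hsE (y - x0) (M.sub_mem hy hx0) hev
    have hs : ∑ i, ε i * (y - x0) i = ∑ i, ε i * y i - ∑ i, ε i * x0 i := by
      rw [← Finset.sum_sub_distrib]
      apply Finset.sum_congr rfl
      intro i _
      show ε i * (y i - x0 i) = _
      ring
    rw [hs] at h
    obtain ⟨k, hk⟩ := h
    omega
  have hOCuniv : OC M Finset.univ := oc_univ hM hx0 hodd
  have hcompl : ∀ S, OC M S → OC M Sᶜ := by
    intro S hS
    have h := oc_sd hOCuniv hS
    rwa [compl_sd] at h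
  obtain ⟨Tm, hTm⟩ : ∃ Tm : V24 →+ (GolayPt → ℤ),
      ∀ y p, Tm y p = ε (e.symm p) * y (e.symm p) :=
    ⟨AddMonoidHom.mk' (fun y p => ε (e.symm p) * y (e.symm p)) (by
      intro y y'
      funext p
      show ε (e.symm p) * (y (e.symm p) + y' (e.symm p))
        = ε (e.symm p) * y (e.symm p) + ε (e.symm p) * y' (e.symm p)
      ring), fun y p => rfl⟩
  have hTsum : ∀ y, ∑ p, Tm y p = ∑ i, ε i * y i := by
    intro y
    rw [← Equiv.sum_comp e (fun p => Tm y p)]
    apply Finset.sum_congr rfl
    intro i _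
    rw [hTm, Equiv.symm_apply_apply]
  have hGS : ∀ (y : V24) (k : ℤ) (Z' : Finset (Fin 24)),
      (∀ i, (ε i * y i) % 4 = k % 4 ↔ i ∈ Z') → OC M Z' →
      (Finset.univ.filter fun p => Tm y p ≡ k [ZMOD 4])
        ∈ supports (golayCode : Set (GolayPt → ZMod 2)) := by
    intro y k Z' hZ hoc
    rw [gs_iff e he]
    have h : (Finset.univ.filter fun p => Tm y p ≡ k [ZMOD 4]).image e.symm = Z' := by
      ext i
      rw [Finset.mem_image, ← hZ]
      constructor
      · rintro ⟨p, hp, rfl⟩
        have h' := (Finset.mem_filter.1 hp).2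
        rw [hTm] at h'
        exact h'
      · intro h'
        refine ⟨e i, Finset.mem_filter.2 ⟨Finset.mem_univ _, ?_⟩, e.symm_apply_apply i⟩
        show Tm y (e i) % 4 = k % 4
        rw [hTm, Equiv.symm_apply_apply]
        exact h'
    rw [h]
    exact hoc
  have claimI : ∀ y ∈ M, Tm y ∈ leechSet := by
    intro y hy
    rcases parity hM hy with hev | hod
    · refine ⟨0, ?_, ?_, ?_⟩
      · intro p
        show Tm y p % 2 = 0 % 2
        rw [hTm]
        have := hev (e.symm p)
        rcases hε (e.symm p) with h | h <;> rw [h] <;> omega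
      · show (∑ p, Tm y p) % 8 = (4 * 0) % 8
        rw [hTsum]
        obtain ⟨k, hk⟩ := hsE y hy hev
        omega
      · intro k
        have hk4 : k % 4 = 0 ∨ k % 4 = 1 ∨ k % 4 = 2 ∨ k % 4 = 3 := by omega
        rcases hk4 with h | h | h | h
        · apply hGS y k (cls y)ᶜ _ (hcompl _ ⟨y, hy, hev, rfl⟩)
          intro i
          rw [Finset.mem_compl, mem_cls, h]
          have := hev i
          rcases hε i with h' | h' <;> rw [h'] <;> omega
        · apply hGS y k ∅ _ oc_empty
          intro i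
          rw [h]
          have := hev i
          constructor
          · intro h''
            exfalso
            rcases hε i with h' | h' <;> rw [h'] at h'' <;> omega
          · intro h''
            exact absurd h'' (Finset.notMem_empty i)
        · apply hGS y k (cls y) _ ⟨y, hy, hev, rfl⟩
          intro i
          rw [mem_cls, h]
          have := hev i
          rcases hε i with h' | h' <;> rw [h'] <;> omega
        · apply hGS y k ∅ _ oc_empty
          intro i
          rw [h]
          have := hev i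
          constructor
          · intro h''
            exfalso
            rcases hε i with h' | h' <;> rw [h'] at h'' <;> omega
          · intro h''
            exact absurd h'' (Finset.notMem_empty i)
    · have hev : Ev (y - x0) := by
        intro i
        have := hod i
        have := hodd i
        show (2 : ℤ) ∣ y i - x0 i
        omega
      have hmem : y - x0 ∈ M := M.sub_mem hy hx0
      refine ⟨1, ?_, ?_, ?_⟩
      · intro p
        show Tm y p % 2 = 1 % 2
        rw [hTm]
        have := hod (e.symm p)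
        rcases hε (e.symm p) with h | h <;> rw [h] <;> omega
      · show (∑ p, Tm y p) % 8 = (4 * 1) % 8
        rw [hTsum, hsO y hy hod]
        norm_num
      · intro k
        have hk4 : k % 4 = 0 ∨ k % 4 = 1 ∨ k % 4 = 2 ∨ k % 4 = 3 := by omega
        rcases hk4 with h | h | h | h
        · apply hGS y k ∅ _ oc_empty
          intro i
          rw [h]
          have := hod i
          constructor
          · intro h''
            exfalso
            rcases hε i with h' | h' <;> rw [h'] at h'' <;> omega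
          · intro h''
            exact absurd h'' (Finset.notMem_empty i)
        · apply hGS y k (cls (y - x0))ᶜ _ (hcompl _ ⟨y - x0, hmem, hev, rfl⟩)
          intro i
          rw [Finset.mem_compl, mem_cls, h]
          show _ ↔ ¬ ¬ (4 : ℤ) ∣ y i - x0 i
          have := hod i
          have := hodd i
          have hx := hεx i
          rcases hε i with h' | h' <;> rw [h'] at hx ⊢ <;> omega
        · apply hGS y k ∅ _ oc_empty
          intro i
          rw [h]
          have := hod i
          constructor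
          · intro h''
            exfalso
            rcases hε i with h' | h' <;> rw [h'] at h'' <;> omega
          · intro h''
            exact absurd h'' (Finset.notMem_empty i)
        · apply hGS y k (cls (y - x0)) _ ⟨y - x0, hmem, hev, rfl⟩
          intro i
          rw [mem_cls, h]
          show _ ↔ ¬ (4 : ℤ) ∣ y i - x0 i
          have := hod i
          have := hodd i
          have hx := hεx i
          rcases hε i with h' | h' <;> rw [h'] at hx ⊢ <;> omega
  have memOf : ∀ u : V24, Ev u → OC M (cls u) → (8 : ℤ) ∣ ∑ i, ε i * u i → u ∈ M := by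
    intro u hev hoc hsum
    obtain ⟨y1, hy1, hev1, hcl1⟩ := hoc
    have hd4 : ∀ i, (4 : ℤ) ∣ (u - y1) i := by
      intro i
      show (4 : ℤ) ∣ u i - y1 i
      have h1 := hev i
      have h2 := hev1 i
      have h3 : i ∈ cls y1 ↔ i ∈ cls u := by rw [hcl1]
      rw [mem_cls, mem_cls] at h3
      omega
    have hs1 := hsE y1 hy1 hev1
    have hdiff : (8 : ℤ) ∣ ∑ i, (ε i * (u - y1) i - (u - y1) i) := Finset.dvd_sum (fun i _ => by
      obtain ⟨k, hk⟩ := hd4 i
      rcases hε i with h | h
      · rw [h]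
        exact ⟨0, by ring⟩
      · rw [h, hk]
        exact ⟨-k, by ring⟩)
    have hsε : ∑ i, ε i * (u - y1) i = ∑ i, ε i * u i - ∑ i, ε i * y1 i := by
      rw [← Finset.sum_sub_distrib]
      apply Finset.sum_congr rfl
      intro i _
      show ε i * (u i - y1 i) = _
      ring
    have h8 : (8 : ℤ) ∣ ∑ i, (u - y1) i := by
      rw [Finset.sum_sub_distrib, hsε] at hdiff
      obtain ⟨a, ha⟩ := hdiff
      obtain ⟨b, hb⟩ := hs1
      obtain ⟨c, hc⟩ := hsum
      exact ⟨c - b - a, by omega⟩
    have h := M.add_mem (four_mem hM hd4 h8) hy1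
    rwa [sub_add_cancel] at h
  have claimII : ∀ z ∈ leechSet, ∃ y ∈ M, Tm y = z := by
    rintro z ⟨m, hpar, hsum, hcls⟩
    have hTy : Tm (fun i => ε i * z (e i)) = z := by
      funext p
      rw [hTm, Equiv.apply_symm_apply, hεε]
    refine ⟨fun i => ε i * z (e i), ?_, hTy⟩
    have hsz : ∑ i, ε i * (ε i * z (e i)) = ∑ p, z p := by
      rw [← Equiv.sum_comp e (fun p => z p)]
      exact Finset.sum_congr rfl (fun i _ => hεε i _)
    have hpar' : ∀ p, z p % 2 = m % 2 := hpar
    have hsum' : (∑ p, z p) % 8 = (4 * m) % 8 := hsum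
    have hclsk : ∀ (k : ℤ) (Z' : Finset (Fin 24)),
        (∀ i, i ∈ Z' ↔ z (e i) % 4 = k % 4) → OC M Z' := by
      intro k Z' hZ
      have h := (gs_iff e he _).1 (hcls k)
      have h' : (Finset.univ.filter fun p => z p ≡ k [ZMOD 4]).image e.symm = Z' := by
        ext i
        rw [Finset.mem_image, hZ]
        constructor
        · rintro ⟨p, hp, rfl⟩
          rw [Equiv.apply_symm_apply]
          exact (Finset.mem_filter.1 hp).2
        · intro h''
          exact ⟨e i, Finset.mem_filter.2 ⟨Finset.mem_univ _, h''⟩, e.symm_apply_apply i⟩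
      rwa [h'] at h
    rcases Int.emod_two_eq_zero_or_one m with hm | hm
    · apply memOf
      · intro i
        show (2 : ℤ) ∣ ε i * z (e i)
        have := hpar' (e i)
        rcases hε i with h | h <;> rw [h] <;> omega
      · apply hclsk 2
        intro i
        rw [mem_cls]
        show ¬ (4 : ℤ) ∣ ε i * z (e i) ↔ _
        have := hpar' (e i)
        rcases hε i with h | h <;> rw [h] <;> omega
      · show (8 : ℤ) ∣ ∑ i, ε i * (ε i * z (e i))
        rw [hsz]
        omega
    · have hu : (fun i => ε i * z (e i)) - x0 ∈ M := by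
        apply memOf
        · intro i
          show (2 : ℤ) ∣ ε i * z (e i) - x0 i
          have := hpar' (e i)
          have := hodd i
          rcases hε i with h | h <;> rw [h] <;> omega
        · apply hclsk 3
          intro i
          rw [mem_cls]
          show ¬ (4 : ℤ) ∣ ε i * z (e i) - x0 i ↔ _
          have := hpar' (e i)
          have := hodd i
          have hx := hεx i
          rcases hε i with h | h <;> rw [h] at hx ⊢ <;> omega
        · have hs : ∑ i, ε i * ((fun i => ε i * z (e i)) - x0) i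
              = ∑ p, z p - ∑ i, ε i * x0 i := by
            rw [← hsz, ← Finset.sum_sub_distrib]
            apply Finset.sum_congr rfl
            intro i _
            show ε i * (ε i * z (e i) - x0 i) = _
            ring
          rw [hs]
          omega
      have h := M.add_mem hu hx0
      rwa [sub_add_cancel] at h
  refine ⟨Tm, ?_, ?_, ?_, ?_⟩
  · rw [injective_iff_map_eq_zero]
    intro y hy
    funext i
    have h := congrFun hy (e i)
    rw [hTm, Equiv.symm_apply_apply] at h
    have h0 : ε i * y i = 0 := h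
    show y i = 0
    rcases hε i with h' | h' <;> rw [h'] at h0 <;> omega
  · intro y
    show ∑ p, Tm y p ^ 2 = ∑ i, y i ^ 2
    rw [← Equiv.sum_comp e (fun p => Tm y p ^ 2)]
    apply Finset.sum_congr rfl
    intro i _
    rw [hTm, Equiv.symm_apply_apply, hεsq]
  · intro y hy
    exact AddSubgroup.subset_closure (claimI y hy)
  · intro z hz
    have hle : leechLattice ≤ M.map Tm := by
      show AddSubgroup.closure leechSet ≤ _
      rw [AddSubgroup.closure_le]
      intro z hz
      obtain ⟨y, hy, e'⟩ := claimII z hz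
      exact ⟨y, hy, e'⟩
    obtain ⟨y, hy, e'⟩ := hle hz
    exact ⟨y, hy, e'⟩

/-- A rank-24 even lattice with no roots and the stated numbers of vectors of norms 4, 6, 8 is isomorphic to the Leech lattice. -/
theorem result (B : Matrix (Fin 24) (Fin 24) ℤ) (hsymm : B.IsSymm) (hpos : ∀ x : Fin 24 → ℤ, x ≠ 0 → 0 < x ⬝ᵥ (B *ᵥ x)) (heven : ∀ x : Fin 24 → ℤ, (2 : ℤ) ∣ x ⬝ᵥ (B *ᵥ x)) (h2 : ∀ x : Fin 24 → ℤ, x ⬝ᵥ (B *ᵥ x) ≠ 2) (h4 : {x : Fin 24 → ℤ | x ⬝ᵥ (B *ᵥ x) = 4}.ncard = 196560) (h6 : {x : Fin 24 → ℤ | x ⬝ᵥ (B *ᵥ x) = 6}.ncard = 16773120) (h8 : {x : Fin 24 → ℤ | x ⬝ᵥ (B *ᵥ x) = 8}.ncard = 398034000) : ∃ f : (Fin 24 → ℤ) ≃+ Cfsg.leechLattice, ∀ x : Fin 24 → ℤ, Cfsg.sqNorm ((f x : Cfsg.leechLattice) : Cfsg.GolayPt → ℤ) = 8 * (x ⬝ᵥ (B *ᵥ x)) := by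
  have hbf : ∀ x y : Fin 24 → ℤ, Matrix.toLinearMap₂' ℤ B x y = x ⬝ᵥ (B *ᵥ y) :=
    fun x y => Matrix.toLinearMap₂'_apply' B x y
  have hform : IsForm (Matrix.toLinearMap₂' ℤ B) := by
    refine ⟨fun x y => ?_, fun x hx => ?_, fun x => ?_, fun x => ?_⟩
    · rw [hbf, hbf]
      have hv : Matrix.vecMul x B = B *ᵥ x := by
        rw [← Matrix.vecMul_transpose, hsymm.eq]
      rw [Matrix.dotProduct_mulVec, hv, dotProduct_comm]
    · rw [hbf]
      exact hpos x hx
    · rw [hbf]
      exact heven x
    · rw [hbf]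
      exact h2 x
  have h4' : {x : V24 | Matrix.toLinearMap₂' ℤ B x x = 4}.ncard = 196560 := by
    rw [← h4]
    congr 1
    ext x
    rw [Set.mem_setOf_eq, Set.mem_setOf_eq, hbf]
  have h6' : {x : V24 | Matrix.toLinearMap₂' ℤ B x x = 6}.ncard = 16773120 := by
    rw [← h6]
    congr 1
    ext x
    rw [Set.mem_setOf_eq, Set.mem_setOf_eq, hbf]
  have h8' : {x : V24 | Matrix.toLinearMap₂' ℤ B x x = 8}.ncard = 398034000 := by
    rw [← h8]
    congr 1
    ext x
    rw [Set.mem_setOf_eq, Set.mem_setOf_eq, hbf]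
  obtain ⟨c, hcinj, hcsq, hPL⟩ := exists_PL _ hform h4' h6' h8'
  obtain ⟨Tm, hTinj, hTsq, hTmem, hTsurj⟩ := leech_of_PL hPL
  have hmem : ∀ x, (Tm.comp c) x ∈ Cfsg.leechLattice := fun x => hTmem (c x) ⟨x, rfl⟩
  refine ⟨AddEquiv.ofBijective ((Tm.comp c).codRestrict Cfsg.leechLattice hmem) ⟨?_, ?_⟩, ?_⟩
  · intro x x' h
    have h' : Tm (c x) = Tm (c x') := congrArg Subtype.val h
    exact hcinj (hTinj h')
  · rintro ⟨z, hz⟩
    obtain ⟨y, ⟨x, rfl⟩, e'⟩ := hTsurj z hz
    exact ⟨x, Subtype.ext e'⟩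
  · intro x
    show Cfsg.sqNorm (Tm (c x)) = 8 * (x ⬝ᵥ (B *ᵥ x))
    rw [hTsq, hcsq, hbf]
end Cfsg.Agent.S0406
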