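import Cfsg.Statements.S0410
import Cfsg.Agent.Lib.Helper28.Hyp3
import Cfsg.Agent.Lib.Helper28.Syn6
import Cfsg.Agent.Lib.Helper4.Steiner22

set_option autoImplicit false
open Cfsg

namespace Cfsg.Agent.S0410

open Finset
open Cfsg.Agent.Lib.Helper4 Cfsg.Agent.Lib.Helper28 Cfsg.Agent.Lib.Helper28.Plane4

/-- The six base points of the model. -/
def Hstd : Finset M := univ.map ⟨Sum.inl, Sum.inl_injective⟩

theorem mem_Hstd {z : M} : z ∈ Hstd ↔ ∃ i : Fin 6, Sum.inl i = z := by
  simp [Hstd]

theorem ncol {H : Finset M} (hH : IsHyp LM H) {x y z : Fin 15} (hx : Sum.inr x ∈ H)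
    (hy : Sum.inr y ∈ H) (hz : Sum.inr z ∈ H) (hxy : x ≠ y) (hxz : x ≠ z) (hyz : y ≠ z) :
    col x y z = false := by
  by_contra hc
  rw [Bool.not_eq_false] at hc
  have n1 : (Sum.inr x : M) ≠ Sum.inr y := fun e => hxy (Sum.inr_injective e)
  have n2 : (Sum.inr x : M) ≠ Sum.inr z := fun e => hxz (Sum.inr_injective e)
  have n3 : (Sum.inr y : M) ≠ Sum.inr z := fun e => hyz (Sum.inr_injective e)
  rcases col_sound x y z hc with ⟨t, h1, h2, h3⟩ | ⟨i, h1, h2⟩
  · exact no_three hH.2 (Or.inr ⟨t, rfl⟩ : totSet t ∈ LM) (mem_totSet_inr.2 h1)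
      (mem_totSet_inr.2 h2) (mem_totSet_inr.2 h3) hx hy hz n1 n2 n3
  · exact no_three hH.2
      (Or.inl ⟨i, synF x i, (synF_ne x i).symm, rfl⟩ : secSet i (synF x i) ∈ LM)
      (mem_secSet_inr.2 rfl) (mem_secSet_inr.2 h1.symm) (mem_secSet_inr.2 h2.symm) hx hy hz
      n1 n2 n3

/-- A hyperoval of the model missing the base points contains three points that are pairwise
joined by lines missing the base points. -/
theorem tri_exists (hLM : IsSteinerSystem 2 5 LM) {H : Finset M} (hH : IsHyp LM H)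
    (hd : ∀ i : Fin 6, Sum.inl i ∉ H) :
    ∃ x y z : Fin 15, Sum.inr x ∈ H ∧ Sum.inr y ∈ H ∧ Sum.inr z ∈ H ∧ cot x y ∧ cot x z ∧
      cot y z := by
  have hne : H.Nonempty := by
    rw [← Finset.card_pos, hH.1]
    norm_num
  obtain ⟨w, hw⟩ := hne
  rcases w with i | k1
  · exact absurd hw (hd i)
  obtain ⟨t, t', htt, ht, ht'⟩ := two_tot k1
  obtain ⟨q2, hq2, hq2H, hq2ne⟩ := hyp_other card_M hLM hH (Or.inr ⟨t, rfl⟩ : totSet t ∈ LM)
    (mem_totSet_inr.2 ht) hw
  rcases q2 with i | k2
  · exact absurd hq2H (hd i)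
  obtain ⟨q3, hq3, hq3H, hq3ne⟩ := hyp_other card_M hLM hH (Or.inr ⟨t', rfl⟩ : totSet t' ∈ LM)
    (mem_totSet_inr.2 ht') hw
  rcases q3 with i | k3
  · exact absurd hq3H (hd i)
  have h12 : k1 ≠ k2 := fun e => hq2ne (by rw [e])
  have h13 : k1 ≠ k3 := fun e => hq3ne (by rw [e])
  have i2 := mem_totSet_inr.1 hq2
  have i3 := mem_totSet_inr.1 hq3
  have c12 : cot k1 k2 := ⟨h12, t, ht, i2⟩
  have c13 : cot k1 k3 := ⟨h13, t', ht', i3⟩
  have h23 : k2 ≠ k3 := by
    intro e
    rw [← e] at i3
    exact htt (tot_unique t t' k1 k2 h12 ht i2 ht' i3)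
  by_cases c23 : cot k2 k3
  · exact ⟨k1, k2, k3, hw, hq2H, hq3H, c12, c13, c23⟩
  exfalso
  have hsub : ({Sum.inr k1, Sum.inr k2, Sum.inr k3} : Finset M) ⊆ H := by
    intro z hz
    simp only [Finset.mem_insert, Finset.mem_singleton] at hz
    rcases hz with rfl | rfl | rfl <;> assumption
  have hc3 : (H \ {Sum.inr k1, Sum.inr k2, Sum.inr k3}).card = 3 := by
    rw [Finset.card_sdiff_of_subset hsub, hH.1, Finset.card_eq_three.2
      ⟨_, _, _, fun e => h12 (Sum.inr_injective e), fun e => h13 (Sum.inr_injective e),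
        fun e => h23 (Sum.inr_injective e), rfl⟩]
  obtain ⟨a, b, c, hab, hac, hbc, he⟩ := Finset.card_eq_three.1 hc3
  have key : ∀ z, z ∈ H \ {Sum.inr k1, Sum.inr k2, Sum.inr k3} →
      ∃ k : Fin 15, z = Sum.inr k ∧ Sum.inr k ∈ H ∧ k1 ≠ k ∧ k2 ≠ k ∧ k3 ≠ k := by
    intro z hz
    rw [Finset.mem_sdiff] at hz
    obtain ⟨hzH, hz⟩ := hz
    simp only [Finset.mem_insert, Finset.mem_singleton, not_or] at hz
    rcases z with i | k
    · exact absurd hzH (hd i)
    · exact ⟨k, rfl, hzH, fun e => hz.1 (by rw [e]), fun e => hz.2.1 (by rw [e]),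
        fun e => hz.2.2 (by rw [e])⟩
  obtain ⟨k4, rfl, m4, d14, d24, d34⟩ := key a (by rw [he]; simp)
  obtain ⟨k5, rfl, m5, d15, d25, d35⟩ := key b (by rw [he]; simp)
  obtain ⟨k6, rfl, m6, d16, d26, d36⟩ := key c (by rw [he]; simp)
  have d45 : k4 ≠ k5 := fun e => hab (by rw [e])
  have d46 : k4 ≠ k6 := fun e => hac (by rw [e])
  have d56 : k5 ≠ k6 := fun e => hbc (by rw [e])
  exact no_path k1 k2 k3 c12 c13 h23 c23 k4
    ⟨d14, d24, d34, ncol hH hw hq2H m4 h12 d14 d24, ncol hH hw hq3H m4 h13 d14 d34,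
      ncol hH hq2H hq3H m4 h23 d24 d34⟩
    k5 ⟨d15, d25, d35, d45, ncol hH hw hq2H m5 h12 d15 d25, ncol hH hw hq3H m5 h13 d15 d35,
      ncol hH hw m4 m5 d14 d15 d45, ncol hH hq2H hq3H m5 h23 d25 d35,
      ncol hH hq2H m4 m5 d24 d25 d45, ncol hH hq3H m4 m5 d34 d35 d45⟩
    k6 ⟨d16, d26, d36, d46, d56, ncol hH hw hq2H m6 h12 d16 d26, ncol hH hw hq3H m6 h13 d16 d36,
      ncol hH hw m4 m6 d14 d16 d46, ncol hH hw m5 m6 d15 d16 d56,
      ncol hH hq2H hq3H m6 h23 d26 d36, ncol hH hq2H m4 m6 d24 d26 d46,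
      ncol hH hq2H m5 m6 d25 d26 d56, ncol hH hq3H m4 m6 d34 d36 d46,
      ncol hH hq3H m5 m6 d35 d36 d56, ncol hH m4 m5 m6 d45 d46 d56⟩

/-- The derived design at the extra point. -/
def der {γ : Type*} (B : Set (Finset (Option γ))) : Set (Finset γ) :=
  {ℓ | Finset.insertNone ℓ ∈ B}

theorem der_steiner {γ : Type*} [DecidableEq γ] {t k : ℕ} {B : Set (Finset (Option γ))}
    (hB : IsSteinerSystem (t + 1) (k + 1) B) : IsSteinerSystem t k (der B) := by
  constructor
  · intro ℓ hℓ
    have h := hB.1 _ hℓ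
    rw [Finset.card_insertNone] at h
    omega
  · intro s hs
    obtain ⟨b, ⟨hb, hsb⟩, huniq⟩ := hB.2 (Finset.insertNone s)
      (by rw [Finset.card_insertNone, hs])
    have hnone : none ∈ b := hsb Finset.none_mem_insertNone
    have hb' : Finset.insertNone (Finset.eraseNone b) = b := by
      rw [Finset.insertNone_eraseNone, Finset.insert_eq_of_mem hnone]
    refine ⟨Finset.eraseNone b, ⟨?_, ?_⟩, ?_⟩
    · show Finset.insertNone (Finset.eraseNone b) ∈ B
      rw [hb']
      exact hb
    · intro x hx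
      rw [Finset.mem_eraseNone]
      exact hsb (Finset.some_mem_insertNone.2 hx)
    · rintro ℓ ⟨hℓ, hsℓ⟩
      have h := huniq (Finset.insertNone ℓ) ⟨hℓ, Finset.insertNone.monotone hsℓ⟩
      rw [← h, Finset.eraseNone_insertNone]

theorem blk_hyp {γ : Type*} [Fintype γ] [DecidableEq γ] (hγ : Fintype.card (Option γ) = 22)
    {B : Set (Finset (Option γ))} (hB : IsSteinerSystem 3 6 B) {b : Finset (Option γ)}
    (hb : b ∈ B) (hn : none ∉ b) :
    IsHyp (der B) (Finset.eraseNone b) ∧
      (Finset.eraseNone b).map Function.Embedding.some = b := by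
  have e1 : (Finset.eraseNone b).map Function.Embedding.some = b := by
    rw [Finset.map_some_eraseNone, Finset.erase_eq_of_notMem hn]
  refine ⟨⟨?_, ?_⟩, e1⟩
  · rw [← Finset.card_map Function.Embedding.some, e1]
    exact hB.1 b hb
  · intro ℓ hℓ
    have hne : b ≠ Finset.insertNone ℓ := by
      intro e
      rw [e] at hn
      exact hn Finset.none_mem_insertNone
    have h := Steiner.s3622_inter hγ hB hb hℓ hne
    have hsub : (ℓ ∩ Finset.eraseNone b).map Function.Embedding.some
        ⊆ Finset.insertNone ℓ ∩ b := by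
      intro z hz
      obtain ⟨x, hx, rfl⟩ := Finset.mem_map.1 hz
      rw [Finset.mem_inter] at hx ⊢
      exact ⟨Finset.some_mem_insertNone.2 hx.1, Finset.mem_eraseNone.1 hx.2⟩
    have hc := Finset.card_le_card hsub
    rw [Finset.card_map] at hc
    omega

theorem steiner_image {α β : Type*} [DecidableEq α] [DecidableEq β] (e : α ≃ β) {t k : ℕ}
    {B : Set (Finset α)} (hB : IsSteinerSystem t k B) :
    IsSteinerSystem t k ((fun b => b.image e) '' B) := by
  constructor
  · rintro _ ⟨b, hb, rfl⟩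
    rw [Finset.card_image_of_injective _ e.injective]
    exact hB.1 b hb
  · intro s hs
    obtain ⟨b, ⟨hb, hsb⟩, huniq⟩ := hB.2 (s.image e.symm)
      (by rw [Finset.card_image_of_injective _ e.symm.injective, hs])
    refine ⟨b.image e, ⟨⟨b, hb, rfl⟩, ?_⟩, ?_⟩
    · intro x hx
      rw [Finset.mem_image]
      exact ⟨e.symm x, hsb (Finset.mem_image_of_mem _ hx), by simp⟩
    · rintro _ ⟨⟨c, hc, rfl⟩, hsc⟩
      have h : c = b := huniq c ⟨hc, by
        intro x hx
        obtain ⟨y, hy, rfl⟩ := Finset.mem_image.1 hx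
        obtain ⟨z, hz, e1⟩ := Finset.mem_image.1 (hsc hy)
        rw [← e1]
        simpa using hz⟩
      rw [h]

theorem image_insertNone {γ δ : Type*} [DecidableEq γ] [DecidableEq δ] (e : γ ≃ δ)
    (ℓ : Finset γ) :
    (Finset.insertNone ℓ).image (Equiv.optionCongr e) = Finset.insertNone (ℓ.image e) := by
  ext z
  rcases z with _ | z
  · constructor
    · intro _
      exact Finset.none_mem_insertNone
    · intro _
      exact Finset.mem_image.2 ⟨none, Finset.none_mem_insertNone, rfl⟩
  · rw [Finset.some_mem_insertNone, Finset.mem_image, Finset.mem_image]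
    constructor
    · rintro ⟨a, ha, e1⟩
      rcases a with _ | a
      · simp at e1
      · refine ⟨a, Finset.some_mem_insertNone.1 ha, ?_⟩
        simpa using e1
    · rintro ⟨a, ha, rfl⟩
      exact ⟨some a, Finset.some_mem_insertNone.2 ha, rfl⟩

theorem image_map_some {γ δ : Type*} [DecidableEq γ] [DecidableEq δ] (e : γ ≃ δ)
    (s : Finset γ) :
    (s.map Function.Embedding.some).image (Equiv.optionCongr e)
      = (s.image e).map Function.Embedding.some := by
  ext z
  rw [Finset.mem_image, Finset.mem_map]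
  constructor
  · rintro ⟨a, ha, rfl⟩
    obtain ⟨x, hx, rfl⟩ := Finset.mem_map.1 ha
    exact ⟨e x, Finset.mem_image_of_mem _ hx, rfl⟩
  · rintro ⟨y, hy, rfl⟩
    obtain ⟨x, hx, rfl⟩ := Finset.mem_image.1 hy
    exact ⟨some x, Finset.mem_map.2 ⟨x, hx, rfl⟩, rfl⟩

theorem image_oc_symm {γ δ : Type*} [DecidableEq γ] [DecidableEq δ] (e : γ ≃ δ)
    (b : Finset (Option γ)) :
    (b.image (Equiv.optionCongr e)).image (Equiv.optionCongr e.symm) = b := by
  rw [Finset.image_image]
  have h : (Equiv.optionCongr e.symm) ∘ (Equiv.optionCongr e) = id := by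
    funext x
    rcases x with _ | x
    · rfl
    · show some (e.symm (e x)) = some x
      rw [Equiv.symm_apply_apply]
  rw [h, Finset.image_id]

/-- The hyperovals of the model belonging to the standard system. -/
def Good : Set (Finset M) :=
  {H | IsHyp LM H ∧ ((H ∩ Hstd).card = 0 ∨ (H ∩ Hstd).card = 2 ∨ H = Hstd)}

/-- The standard system on twenty-two points. -/
def Bstd : Set (Finset (Option M)) :=
  {b | (∃ ℓ ∈ LM, b = Finset.insertNone ℓ) ∨ ∃ H ∈ Good, b = H.map Function.Embedding.some}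

theorem card_OM : Fintype.card (Option M) = 22 := by
  rw [Fintype.card_option, card_M]

/-- A system on the model points with an extra point, whose derived design is the model plane
and which contains the six base points as a block, is the standard system. -/
theorem std_eq {B : Set (Finset (Option M))} (hB : IsSteinerSystem 3 6 B) (hder : der B = LM)
    (h0 : Hstd.map Function.Embedding.some ∈ B) : B = Bstd := by
  have hLM : IsSteinerSystem 2 5 LM := by
    rw [← hder]
    exact der_steiner hB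
  have hn0 : none ∉ Hstd.map Function.Embedding.some := by simp
  have hH0 : IsHyp LM Hstd := by
    have h := (blk_hyp card_OM hB h0 hn0).1
    rw [hder, Finset.eraseNone_map_some] at h
    exact h
  have blk : ∀ (H : Finset M), IsHyp LM H → ∀ p q r : M, p ∈ H → q ∈ H → r ∈ H → p ≠ q →
      p ≠ r → q ≠ r → ∃ H' : Finset M, IsHyp LM H' ∧ H'.map Function.Embedding.some ∈ B ∧
        p ∈ H' ∧ q ∈ H' ∧ r ∈ H' := by
    intro H hH p q r hp hq hr hpq hpr hqr
    have hs3 : ({some p, some q, some r} : Finset (Option M)).card = 3 :=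
      Finset.card_eq_three.2 ⟨_, _, _, fun e => hpq (Option.some_injective _ e),
        fun e => hpr (Option.some_injective _ e), fun e => hqr (Option.some_injective _ e), rfl⟩
    obtain ⟨b', ⟨hb', hs⟩, -⟩ := hB.2 _ hs3
    have mp : some p ∈ b' := hs (by simp)
    have mq : some q ∈ b' := hs (by simp)
    have mr : some r ∈ b' := hs (by simp)
    have hn : none ∉ b' := by
      intro hnone
      have hℓ : Finset.eraseNone b' ∈ LM := by
        rw [← hder]
        show Finset.insertNone (Finset.eraseNone b') ∈ B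
        rw [Finset.insertNone_eraseNone, Finset.insert_eq_of_mem hnone]
        exact hb'
      exact no_three hH.2 hℓ (Finset.mem_eraseNone.2 mp) (Finset.mem_eraseNone.2 mq)
        (Finset.mem_eraseNone.2 mr) hp hq hr hpq hpr hqr
    obtain ⟨k1, k2⟩ := blk_hyp card_OM hB hb' hn
    rw [hder] at k1
    exact ⟨Finset.eraseNone b', k1, by rw [k2]; exact hb', Finset.mem_eraseNone.2 mp,
      Finset.mem_eraseNone.2 mq, Finset.mem_eraseNone.2 mr⟩
  have inter : ∀ H' : Finset M, H'.map Function.Embedding.some ∈ B → H' ≠ Hstd →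
      (H' ∩ Hstd).card = 0 ∨ (H' ∩ Hstd).card = 2 := by
    intro H' hb' hne
    have hne' : Hstd.map Function.Embedding.some ≠ H'.map Function.Embedding.some := by
      intro e
      exact hne (Finset.map_injective _ e).symm
    have h := Steiner.s3622_inter card_OM hB h0 hb' hne'
    rwa [← Finset.map_inter, Finset.card_map] at h
  ext b
  constructor
  · intro hb
    by_cases hn : none ∈ b
    · left
      refine ⟨Finset.eraseNone b, ?_, ?_⟩
      · rw [← hder]
        show Finset.insertNone (Finset.eraseNone b) ∈ B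
        rw [Finset.insertNone_eraseNone, Finset.insert_eq_of_mem hn]
        exact hb
      · rw [Finset.insertNone_eraseNone, Finset.insert_eq_of_mem hn]
    · right
      obtain ⟨k1, k2⟩ := blk_hyp card_OM hB hb hn
      rw [hder] at k1
      refine ⟨Finset.eraseNone b, ⟨k1, ?_⟩, k2.symm⟩
      by_cases e : Finset.eraseNone b = Hstd
      · exact Or.inr (Or.inr e)
      · rcases inter _ (by rw [k2]; exact hb) e with h | h
        · exact Or.inl h
        · exact Or.inr (Or.inl h)
  · rintro (⟨ℓ, hℓ, rfl⟩ | ⟨H, ⟨hH, hcase⟩, rfl⟩)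
    · rw [← hder] at hℓ
      exact hℓ
    · rcases hcase with h | h | h
      · have hd : ∀ z ∈ H, z ∉ Hstd := by
          intro z hz hz0
          have h' : z ∈ H ∩ Hstd := Finset.mem_inter.2 ⟨hz, hz0⟩
          rw [Finset.card_eq_zero.1 h] at h'
          exact absurd h' (Finset.notMem_empty z)
        have hd' : ∀ i : Fin 6, Sum.inl i ∉ H := fun i hi => hd _ hi (mem_Hstd.2 ⟨i, rfl⟩)
        obtain ⟨x, y, z, hx, hy, hz, ⟨nxy, t1, a1, b1⟩, ⟨nxz, t2, a2, b2⟩, ⟨nyz, t3, a3, b3⟩⟩ :=
          tri_exists hLM hH hd'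
        have n1 : (Sum.inr x : M) ≠ Sum.inr y := fun e => nxy (Sum.inr_injective e)
        have n2 : (Sum.inr x : M) ≠ Sum.inr z := fun e => nxz (Sum.inr_injective e)
        have n3 : (Sum.inr y : M) ≠ Sum.inr z := fun e => nyz (Sum.inr_injective e)
        obtain ⟨H', hH', hb', mp, mq, mr⟩ := blk H hH _ _ _ hx hy hz n1 n2 n3
        have hne : H' ≠ Hstd := by
          intro e
          rw [e] at mp
          obtain ⟨i, hi⟩ := mem_Hstd.1 mp
          cases hi
        have hc : (H' ∩ Hstd).card ≤ 2 := by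
          rcases inter H' hb' hne with h | h <;> omega
        have ext : ∀ t : Fin 6, ∀ z ∈ totSet t, z ∉ Hstd := by
          intro t z hz hz0
          obtain ⟨i, rfl⟩ := mem_Hstd.1 hz0
          simp [totSet] at hz
        have e := hyp_unique_zero card_M hLM hH0 hH hH' n1 n2 n3 hx hy hz mp mq mr hd hc
          (Or.inr ⟨t1, rfl⟩ : totSet t1 ∈ LM) (Or.inr ⟨t2, rfl⟩ : totSet t2 ∈ LM)
          (Or.inr ⟨t3, rfl⟩ : totSet t3 ∈ LM)
          (mem_totSet_inr.2 a1) (mem_totSet_inr.2 b1) (mem_totSet_inr.2 a2) (mem_totSet_inr.2 b2)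
          (mem_totSet_inr.2 a3) (mem_totSet_inr.2 b3) (ext t1) (ext t2) (ext t3)
        rw [e]
        exact hb'
      · obtain ⟨p, q, hpq, e⟩ := Finset.card_eq_two.1 h
        have mp : p ∈ H ∩ Hstd := by rw [e]; simp
        have mq : q ∈ H ∩ Hstd := by rw [e]; simp
        obtain ⟨hp, hp0⟩ := Finset.mem_inter.1 mp
        obtain ⟨hq, hq0⟩ := Finset.mem_inter.1 mq
        obtain ⟨r, hr, hrn⟩ : ∃ r ∈ H, r ∉ ({p, q} : Finset M) := by
          apply Finset.exists_mem_notMem_of_card_lt_card
          rw [Finset.card_pair hpq, hH.1]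
          norm_num
        simp only [Finset.mem_insert, Finset.mem_singleton, not_or] at hrn
        have hr0 : r ∉ Hstd := by
          intro hr0
          have h' : r ∈ H ∩ Hstd := Finset.mem_inter.2 ⟨hr, hr0⟩
          rw [e] at h'
          simp only [Finset.mem_insert, Finset.mem_singleton] at h'
          exact h'.elim hrn.1 hrn.2
        obtain ⟨H', hH', hb', mp', mq', mr'⟩ :=
          blk H hH p q r hp hq hr hpq (Ne.symm hrn.1) (Ne.symm hrn.2)
        have hne : H' ≠ Hstd := fun e' => hr0 (e' ▸ mr')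
        have hc : (H' ∩ Hstd).card = 2 := by
          rcases inter H' hb' hne with h' | h'
          · have h'' : p ∈ H' ∩ Hstd := Finset.mem_inter.2 ⟨mp', hp0⟩
            rw [Finset.card_eq_zero.1 h'] at h''
            exact absurd h'' (Finset.notMem_empty p)
          · exact h'
        have e' : ({p, q} : Finset M) = H' ∩ Hstd := by
          apply Finset.eq_of_subset_of_card_le
          · intro z hz
            simp only [Finset.mem_insert, Finset.mem_singleton] at hz
            rcases hz with rfl | rfl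
            · exact Finset.mem_inter.2 ⟨mp', hp0⟩
            · exact Finset.mem_inter.2 ⟨mq', hq0⟩
          · rw [hc, Finset.card_pair hpq]
        have h1 : ∀ z ∈ H, z ∈ Hstd → z = p ∨ z = q := by
          intro z hz hz0
          have h' : z ∈ H ∩ Hstd := Finset.mem_inter.2 ⟨hz, hz0⟩
          rw [e] at h'
          simpa using h'
        have h2 : ∀ z ∈ H', z ∈ Hstd → z = p ∨ z = q := by
          intro z hz hz0
          have h' : z ∈ H' ∩ Hstd := Finset.mem_inter.2 ⟨hz, hz0⟩
          rw [← e'] at h'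
          simpa using h'
        have ee := hyp_unique_two card_M hLM hH0 hH hH' hpq hp0 hq0 hr0 hp hq hr mp' mq' mr' h1 h2
        rw [ee]
        exact hb'
      · rw [h]
        exact h0

/-- Every system with the parameters in question is isomorphic to the standard one. -/
theorem to_std {α : Type*} [Fintype α] [DecidableEq α] (hα : Fintype.card α = 22)
    {B : Set (Finset α)} (hB : IsSteinerSystem 3 6 B) :
    ∃ E : α ≃ Option M, (fun b => b.image E) '' B = Bstd := by
  have c21 : Fintype.card (Fin 21) = 21 := Fintype.card_fin 21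
  have c22 : Fintype.card (Option (Fin 21)) = 22 := by rw [Fintype.card_option, c21]
  have e0 : α ≃ Option (Fin 21) := Fintype.equivOfCardEq (by rw [hα, c22])
  have hB1 : IsSteinerSystem 3 6 ((fun b => b.image e0) '' B) := steiner_image e0 hB
  generalize hB1def : (fun b : Finset α => b.image e0) '' B = B1 at hB1
  have hL1 : IsSteinerSystem 2 5 (der B1) := der_steiner hB1
  obtain ⟨b0, hb0, hn0⟩ : ∃ b ∈ B1, none ∉ b := by
    obtain ⟨H, hH⟩ := exists_hyp c21 hL1
    obtain ⟨h, hinj, hr⟩ := exists_label H hH.1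
    have hs3 : ({some (h 0), some (h 1), some (h 2)} : Finset (Option (Fin 21))).card = 3 :=
      Finset.card_eq_three.2 ⟨_, _, _,
        fun e => absurd (hinj (Option.some_injective _ e)) (by decide),
        fun e => absurd (hinj (Option.some_injective _ e)) (by decide),
        fun e => absurd (hinj (Option.some_injective _ e)) (by decide), rfl⟩
    obtain ⟨b, ⟨hb, hs⟩, -⟩ := hB1.2 _ hs3
    refine ⟨b, hb, ?_⟩
    intro hnone
    have hℓ : Finset.eraseNone b ∈ der B1 := by
      show Finset.insertNone (Finset.eraseNone b) ∈ B1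
      rw [Finset.insertNone_eraseNone, Finset.insert_eq_of_mem hnone]
      exact hb
    have m0 : h 0 ∈ Finset.eraseNone b := Finset.mem_eraseNone.2 (hs (by simp))
    have m1 : h 1 ∈ Finset.eraseNone b := Finset.mem_eraseNone.2 (hs (by simp))
    have m2 : h 2 ∈ Finset.eraseNone b := Finset.mem_eraseNone.2 (hs (by simp))
    exact no_three hH.2 hℓ m0 m1 m2 ((hr _).2 ⟨0, rfl⟩) ((hr _).2 ⟨1, rfl⟩) ((hr _).2 ⟨2, rfl⟩)
      (fun e => absurd (hinj e) (by decide)) (fun e => absurd (hinj e) (by decide))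
      (fun e => absurd (hinj e) (by decide))
  obtain ⟨hH0, hmap0⟩ := blk_hyp c22 hB1 hb0 hn0
  obtain ⟨h, hinj, hr⟩ := exists_label (Finset.eraseNone b0) hH0.1
  obtain ⟨e1, he1, hLM⟩ := model_iso c21 hL1 hH0 h hinj hr
  refine ⟨e0.trans (Equiv.optionCongr e1), ?_⟩
  have hB2 : IsSteinerSystem 3 6 ((fun b => b.image (Equiv.optionCongr e1)) '' B1) :=
    steiner_image _ hB1
  have hE : (fun b : Finset α => b.image (e0.trans (Equiv.optionCongr e1))) '' B
      = (fun b => b.image (Equiv.optionCongr e1)) '' B1 := by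
    rw [← hB1def, Set.image_image]
    congr 1
    funext b
    rw [Finset.image_image]
    rfl
  rw [hE]
  apply std_eq hB2
  · rw [← hLM]
    ext ℓ
    constructor
    · rintro ⟨b, hb, e⟩
      refine ⟨ℓ.image e1.symm, ?_, ?_⟩
      · show Finset.insertNone (ℓ.image e1.symm) ∈ B1
        have h' : Finset.insertNone (ℓ.image e1.symm) = b := by
          rw [← image_insertNone e1.symm ℓ, ← e, image_oc_symm]
        rw [h']
        exact hb
      · show (ℓ.image e1.symm).image e1 = ℓ
        rw [Finset.image_image]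
        have h' : e1 ∘ e1.symm = id := by
          funext x
          simp
        rw [h', Finset.image_id]
    · rintro ⟨ℓ1, hℓ1, rfl⟩
      exact ⟨Finset.insertNone ℓ1, hℓ1, image_insertNone e1 ℓ1⟩
  · refine ⟨b0, hb0, ?_⟩
    show b0.image (Equiv.optionCongr e1) = Hstd.map Function.Embedding.some
    rw [← hmap0, image_map_some]
    congr 1
    ext z
    rw [Finset.mem_image, mem_Hstd]
    constructor
    · rintro ⟨x, hx, rfl⟩
      obtain ⟨i, rfl⟩ := (hr x).1 hx
      exact ⟨i, (he1 i).symm⟩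
    · rintro ⟨i, rfl⟩
      exact ⟨h i, (hr _).2 ⟨i, rfl⟩, he1 i⟩

/-- Uniqueness of the Steiner system S(3, 6, 22) up to isomorphism. -/
theorem result {α β : Type*} [Fintype α] [DecidableEq α] [Fintype β] [DecidableEq β] (hα : Fintype.card α = 22) (hβ : Fintype.card β = 22) {B : Set (Finset α)} {B' : Set (Finset β)} (hB : Cfsg.IsSteinerSystem 3 6 B) (hB' : Cfsg.IsSteinerSystem 3 6 B') : Cfsg.SetSystemIso B B' := by
  obtain ⟨E, hE⟩ := to_std hα hB
  obtain ⟨E', hE'⟩ := to_std hβ hB'
  show ∃ e : α ≃ β, (fun b => b.image e) '' B = B'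
  refine ⟨E.trans E'.symm, ?_⟩
  ext C
  constructor
  · rintro ⟨b, hb, rfl⟩
    have m1 : b.image E ∈ Bstd := by
      rw [← hE]
      exact ⟨b, hb, rfl⟩
    rw [← hE'] at m1
    obtain ⟨b', hb', e1⟩ := m1
    show b.image (E.trans E'.symm) ∈ B'
    rw [image_trans_symm E E' b b' e1]
    exact hb'
  · intro hC
    have m1 : C.image E' ∈ Bstd := by
      rw [← hE']
      exact ⟨C, hC, rfl⟩
    rw [← hE] at m1
    obtain ⟨b, hb, e1⟩ := m1
    exact ⟨b, hb, image_trans_symm E E' b C e1.symm⟩
end Cfsg.Agent.S0410
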