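import Cfsg.Statements.S0413
import Cfsg.Agent.S0407
import Cfsg.Agent.S0363
import Cfsg.Agent.S0366
import Cfsg.Agent.S0369
import Cfsg.Agent.S0376
import Cfsg.Agent.S0377

set_option autoImplicit false
open Cfsg

namespace Cfsg.Agent.S0413

open Finset
open Cfsg.Agent.Lib.Helper4 Cfsg.Agent.Lib.Helper28 Cfsg.Agent.Lib.Helper28.Plane4
open Cfsg.Agent.Lib.Helper28.Aut22 Cfsg.Agent.S0410

theorem card_pts : Fintype.card GolayPt = 24 := by
  rw [Fintype.card_option, ZMod.card]

/-- Conjugating an automorphism of one system by an isomorphism gives an automorphism of the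
other. -/
theorem conj_mem {α γ : Type*} [Fintype α] [DecidableEq α] [Fintype γ] [DecidableEq γ]
    {B0 : Set (Finset γ)}
    {B : Set (Finset α)} (e : γ ≃ α) (he : (fun b : Finset γ => b.image e) '' B0 = B)
    {g : Equiv.Perm γ} (hg : g ∈ setSystemAut B0) :
    e.symm.trans (g.trans e) ∈ setSystemAut B := by
  rw [mem_aut_iff, image_trans_set, image_trans_set, ← he, image_symm_set, mem_aut_iff.1 hg]

/-- The reference system: the derived system of the octads at the extra point. -/
abbrev D23 : Set (Finset (ZMod 23)) := der octads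

theorem D23_steiner : IsSteinerSystem 4 7 D23 := der_steiner Cfsg.Agent.S0363.result

theorem hM : Cfsg.M24 = setSystemAut octads := Cfsg.Agent.S0369.result

theorem oc_mem {φ : Equiv.Perm (ZMod 23)} (hφ : φ ∈ setSystemAut D23) :
    Equiv.optionCongr φ ∈ setSystemAut octads := by
  rw [mem_aut_iff]
  apply Cfsg.Agent.S0407.ext_unique card_pts (steiner_image _ Cfsg.Agent.S0363.result)
    Cfsg.Agent.S0363.result
  rw [der_image]
  exact mem_aut_iff.1 hφ

theorem oc_removeNone {Ω : Type*} (g : Equiv.Perm (Option Ω)) (hg : g none = none) :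
    Equiv.optionCongr (Equiv.removeNone g) = g := by
  apply Equiv.ext
  intro z
  rcases z with _ | z
  · exact hg.symm
  · show some (Equiv.removeNone g z) = g (some z)
    apply Equiv.removeNone_some
    rcases h : g (some z) with _ | w
    · rw [← hg] at h
      exact absurd (g.injective h) (by simp)
    · exact ⟨w, rfl⟩

theorem rn_mem {g : Equiv.Perm GolayPt} (hg : g ∈ setSystemAut octads) (h0 : g none = none) :
    Equiv.removeNone g ∈ setSystemAut D23 := by
  rw [mem_aut_iff]
  show (fun b : Finset (ZMod 23) => b.image (Equiv.removeNone g)) '' der octads = der octads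
  rw [← der_image, oc_removeNone g h0, mem_aut_iff.1 hg]

/-- The point stabiliser. -/
abbrev M23s : Subgroup ↥Cfsg.M24 := MulAction.stabilizer Cfsg.M24 (none : GolayPt)

/-- Extension of an automorphism of the reference system by the extra point. -/
def rho : ↥(setSystemAut D23) →* ↥M23s :=
  MonoidHom.mk' (fun φ => ⟨⟨Equiv.optionCongr φ.1, by rw [hM]; exact oc_mem φ.2⟩, by
      rw [MulAction.mem_stabilizer_iff]
      rfl⟩) (by
    intro a b
    apply Subtype.ext
    apply Subtype.ext
    apply Equiv.ext
    intro z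
    rcases z with _ | z
    · rfl
    · rfl)

theorem rho_inj : Function.Injective rho := by
  intro a b hab
  apply Subtype.ext
  have h : Equiv.optionCongr a.1 = Equiv.optionCongr b.1 :=
    congrArg (fun t : ↥M23s => (t.1.1 : Equiv.Perm GolayPt)) hab
  exact Equiv.optionCongr_injective h

theorem rho_surj : Function.Surjective rho := by
  intro g
  have h0 : (g.1.1 : Equiv.Perm GolayPt) none = none := g.2
  have hg : (g.1.1 : Equiv.Perm GolayPt) ∈ setSystemAut octads := by
    rw [← hM]
    exact g.1.2
  refine ⟨⟨Equiv.removeNone g.1.1, rn_mem hg h0⟩, ?_⟩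
  apply Subtype.ext
  apply Subtype.ext
  exact oc_removeNone _ h0

/-- Extension of a tuple by the extra point. -/
def ext5 {Ω : Type*} (x : Fin 4 ↪ Ω) : Fin 5 ↪ Option Ω :=
  ⟨fun i => if h : i = 0 then none else some (x (i.pred h)), by
    intro a b hab
    by_cases ha : a = 0
    · by_cases hb : b = 0
      · rw [ha, hb]
      · simp only [dif_pos ha, dif_neg hb] at hab
        exact absurd hab (by simp)
    · by_cases hb : b = 0
      · simp only [dif_neg ha, dif_pos hb] at hab
        exact absurd hab (by simp)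
      · simp only [dif_neg ha, dif_neg hb] at hab
        have h1 := x.injective (Option.some_injective _ hab)
        exact Fin.pred_inj.1 h1⟩

theorem ext5_zero {Ω : Type*} (x : Fin 4 ↪ Ω) : ext5 x 0 = none := by
  show (if h : (0 : Fin 5) = 0 then none else some (x ((0 : Fin 5).pred h))) = none
  rw [dif_pos rfl]

theorem ext5_succ {Ω : Type*} (x : Fin 4 ↪ Ω) (i : Fin 4) : ext5 x i.succ = some (x i) := by
  show (if h : i.succ = 0 then none else some (x (i.succ.pred h))) = some (x i)
  rw [dif_neg (Fin.succ_ne_zero i), Fin.pred_succ]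

/-- Aut of an S(4, 7, 23) is simple of order 10200960 and 4-transitive. -/
theorem result {α : Type*} [Fintype α] [DecidableEq α] (hα : Fintype.card α = 23) {B : Set (Finset α)} (hB : Cfsg.IsSteinerSystem 4 7 B) : Cfsg.IsM23 (Cfsg.setSystemAut B) ∧ MulAction.IsMultiplyPretransitive (Cfsg.setSystemAut B) α 4 := by
  have c23 : Fintype.card (ZMod 23) = 23 := ZMod.card 23
  have hiso := Cfsg.Agent.S0409.result c23 hα D23_steiner hB
  obtain ⟨e, he⟩ : ∃ e : ZMod 23 ≃ α,
    (fun b : Finset (ZMod 23) => b.image e) '' D23 = B := hiso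
  have he' : (fun b : Finset α => b.image e.symm) '' B = D23 := by
    rw [← he, image_symm_set]
  obtain ⟨Θ, hΘ⟩ := conj_hom e he
  obtain ⟨Θ', hΘ'⟩ := conj_hom e.symm he'
  have hle : Nat.card ↥(setSystemAut B) ≤ Nat.card ↥(setSystemAut D23) :=
    Nat.card_le_card_of_injective _ hΘ'
  have hbij := hΘ.bijective_of_nat_card_le hle
  have E1 : ↥(setSystemAut D23) ≃* ↥(setSystemAut B) := MulEquiv.ofBijective _ hbij
  have E0 : ↥(setSystemAut D23) ≃* ↥M23s := MulEquiv.ofBijective rho ⟨rho_inj, rho_surj⟩
  have hsimp : IsSimpleGroup ↥M23s := Cfsg.Agent.S0377.result none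
  have E : ↥(setSystemAut B) ≃* ↥M23s := E1.symm.trans E0
  refine ⟨⟨E.isSimpleGroup, ?_⟩, ?_⟩
  · rw [Nat.card_congr E.toEquiv]
    exact Cfsg.Agent.S0376.result none
  · rw [MulAction.isMultiplyPretransitive_iff]
    intro x y
    obtain ⟨g, hg⟩ := MulAction.isMultiplyPretransitive_iff.1 Cfsg.Agent.S0366.result
      (ext5 (x.trans e.symm.toEmbedding)) (ext5 (y.trans e.symm.toEmbedding))
    have hg' : (g : Equiv.Perm GolayPt) ∈ setSystemAut octads := by
      rw [← hM]
      exact g.2
    have h0 : (g : Equiv.Perm GolayPt) none = none := by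
      have h : g • ext5 (x.trans e.symm.toEmbedding) 0 = ext5 (y.trans e.symm.toEmbedding) 0 :=
        congrArg (fun f : Fin 5 ↪ GolayPt => f 0) hg
      rw [ext5_zero, ext5_zero] at h
      exact h
    have hs : ∀ i : Fin 4, (g : Equiv.Perm GolayPt) (some (e.symm (x i)))
        = some (e.symm (y i)) := by
      intro i
      have h : g • ext5 (x.trans e.symm.toEmbedding) i.succ
          = ext5 (y.trans e.symm.toEmbedding) i.succ :=
        congrArg (fun f : Fin 5 ↪ GolayPt => f i.succ) hg
      rw [ext5_succ, ext5_succ] at h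
      exact h
    refine ⟨⟨e.symm.trans ((Equiv.removeNone (g : Equiv.Perm GolayPt)).trans e),
      conj_mem e he (rn_mem hg' h0)⟩, ?_⟩
    apply Function.Embedding.ext
    intro i
    show e (Equiv.removeNone (g : Equiv.Perm GolayPt) (e.symm (x i))) = y i
    have h1 : some (Equiv.removeNone (g : Equiv.Perm GolayPt) (e.symm (x i)))
        = some (e.symm (y i)) := by
      rw [← hs i]
      exact congrArg (fun f : Equiv.Perm GolayPt => f (some (e.symm (x i))))
        (oc_removeNone (g : Equiv.Perm GolayPt) h0)
    rw [Option.some_injective _ h1, Equiv.apply_symm_apply]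
end Cfsg.Agent.S0413
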