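import Cfsg.Statements.S0411
import Cfsg.Agent.Lib.Helper28.Witt12
import Cfsg.Agent.S0413

set_option autoImplicit false
open Cfsg

namespace Cfsg.Agent.S0411

open Finset
open Cfsg.Agent.Lib.Helper4 Cfsg.Agent.Lib.Helper28.Ext23 Cfsg.Agent.S0410
open Cfsg.Agent.Lib.Helper28.Aff9 Cfsg.Agent.Lib.Helper28.Aut22 Cfsg.Agent.Lib.Helper28.Plane4

section count
variable {Ω : Type*} [Fintype Ω] [DecidableEq Ω]

theorem s4511_deg (hΩ : Fintype.card Ω = 11) {E : Set (Finset Ω)}
    (hE : IsSteinerSystem 4 5 E) (T : Finset Ω) :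
    (T.card = 0 → Steiner.deg E T = 66) ∧ (T.card = 1 → Steiner.deg E T = 30) ∧
    (T.card = 2 → Steiner.deg E T = 12) ∧ (T.card = 3 → Steiner.deg E T = 4) ∧
    (T.card = 4 → Steiner.deg E T = 1) := by
  refine ⟨?_, ?_, ?_, ?_, ?_⟩ <;> intro h <;>
  · have h1 := Steiner.deg_mul hE T (by omega)
    rw [h, hΩ] at h1
    norm_num [Nat.choose] at h1
    omega

theorem s4511_cnt (hΩ : Fintype.card Ω = 11) {E : Set (Finset Ω)}
    (hE : IsSteinerSystem 4 5 E) {X : Finset Ω} (hX : X.card = 5) :
    (X ∈ E → Steiner.cnt E ∅ X 0 = 0) ∧ (X ∉ E → Steiner.cnt E ∅ X 0 = 1) := by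
  have hd := fun T => s4511_deg hΩ hE T
  have e0 := Steiner.sum_choose_cnt E ∅ X (disjoint_empty_left _) 0 66 6
    (fun T hT => (hd T).1 (by simpa using hT)) (by omega)
  have e1 := Steiner.sum_choose_cnt E ∅ X (disjoint_empty_left _) 1 30 6
    (fun T hT => (hd T).2.1 (by simpa using hT)) (by omega)
  have e2 := Steiner.sum_choose_cnt E ∅ X (disjoint_empty_left _) 2 12 6
    (fun T hT => (hd T).2.2.1 (by simpa using hT)) (by omega)
  have e3 := Steiner.sum_choose_cnt E ∅ X (disjoint_empty_left _) 3 4 6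
    (fun T hT => (hd T).2.2.2.1 (by simpa using hT)) (by omega)
  have e4 := Steiner.sum_choose_cnt E ∅ X (disjoint_empty_left _) 4 1 6
    (fun T hT => (hd T).2.2.2.2 (by simpa using hT)) (by omega)
  simp only [sum_range_succ, sum_range_zero, hX] at e0 e1 e2 e3 e4
  norm_num [Nat.choose] at e0 e1 e2 e3 e4
  constructor
  · intro hXE
    have m5 := Steiner.cnt_block_self hE hXE (by norm_num)
    omega
  · intro hXE
    have m5 : Steiner.cnt E ∅ X 5 = 0 := by
      apply Steiner.cnt_eq_zero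
      intro d hd _ hj
      apply hXE
      have h1 : d ∩ X = d :=
        Finset.eq_of_subset_of_card_le inter_subset_left (by rw [hj, hE.1 d hd])
      have h2 : d ∩ X = X :=
        Finset.eq_of_subset_of_card_le inter_subset_right (by rw [hj, hX])
      rw [← h2, h1]
      exact hd
    omega

/-- The one-point extension. -/
def ext11 (E : Set (Finset Ω)) : Set (Finset (Option Ω)) :=
  {c | (∃ b ∈ E, c = Finset.insertNone b) ∨ (∃ b ∈ E, c = (bᶜ).map Function.Embedding.some)}

theorem der_ext11 (E : Set (Finset Ω)) : der (ext11 E) = E := by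
  ext b
  constructor
  · rintro (⟨b', hb', e⟩ | ⟨b', hb', e⟩)
    · have h : b = b' := Finset.insertNone.injective e
      rw [h]
      exact hb'
    · exfalso
      have h : none ∈ Finset.insertNone b := Finset.none_mem_insertNone
      rw [e] at h
      simp at h
  · intro hb
    exact Or.inl ⟨b, hb, rfl⟩

theorem sub_ins {s : Finset (Option Ω)} {b : Finset Ω} :
    s ⊆ Finset.insertNone b ↔ Finset.eraseNone s ⊆ b := by
  constructor
  · intro h x hx
    exact Finset.some_mem_insertNone.1 (h (Finset.mem_eraseNone.1 hx))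
  · intro h z hz
    rcases z with _ | x
    · exact Finset.none_mem_insertNone
    · exact Finset.some_mem_insertNone.2 (h (Finset.mem_eraseNone.2 hz))

theorem sub_map {s : Finset (Option Ω)} {b : Finset Ω} (hn : none ∉ s) :
    s ⊆ b.map Function.Embedding.some ↔ Finset.eraseNone s ⊆ b := by
  constructor
  · intro h x hx
    have h1 := h (Finset.mem_eraseNone.1 hx)
    exact (Finset.mem_map' Function.Embedding.some).1 h1
  · intro h z hz
    rcases z with _ | x
    · exact absurd hz hn
    · exact (Finset.mem_map' Function.Embedding.some).2 (h (Finset.mem_eraseNone.2 hz))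

theorem sub_compl {s b : Finset Ω} : s ⊆ bᶜ ↔ (b ∩ s).card = 0 := by
  rw [Finset.card_eq_zero, ← Finset.disjoint_iff_inter_eq_empty, Finset.subset_compl_iff_disjoint_left]

theorem ext11_steiner (hΩ : Fintype.card Ω = 11) {E : Set (Finset Ω)}
    (hE : IsSteinerSystem 4 5 E) : IsSteinerSystem 5 6 (ext11 E) := by
  constructor
  · rintro c (⟨b, hb, rfl⟩ | ⟨b, hb, rfl⟩)
    · rw [Finset.card_insertNone, hE.1 b hb]
    · rw [Finset.card_map, Finset.card_compl, hΩ, hE.1 b hb]
  · intro s hs
    by_cases hn : none ∈ s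
    · have hs' : (Finset.eraseNone s).card = 4 := by
        have := Finset.card_insertNone (Finset.eraseNone s)
        rw [ins_erase hn, hs] at this
        omega
      obtain ⟨b, ⟨hb, hsb⟩, huniq⟩ := hE.2 _ hs'
      refine ⟨Finset.insertNone b, ⟨Or.inl ⟨b, hb, rfl⟩, sub_ins.2 hsb⟩, ?_⟩
      rintro c ⟨(⟨b', hb', rfl⟩ | ⟨b', hb', rfl⟩), hsc⟩
      · rw [huniq b' ⟨hb', sub_ins.1 hsc⟩]
      · exact absurd (hsc hn) (by simp)
    · have hs' : (Finset.eraseNone s).card = 5 := by
        have := Finset.card_map Function.Embedding.some (s := Finset.eraseNone s)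
        rw [map_erase hn, hs] at this
        omega
      have hc := s4511_cnt hΩ hE hs'
      by_cases hsE : Finset.eraseNone s ∈ E
      · refine ⟨Finset.insertNone (Finset.eraseNone s),
          ⟨Or.inl ⟨_, hsE, rfl⟩, sub_ins.2 (Finset.Subset.refl _)⟩, ?_⟩
        rintro c ⟨(⟨b', hb', rfl⟩ | ⟨b', hb', rfl⟩), hsc⟩
        · have h1 : Finset.eraseNone s = b' :=
            Finset.eq_of_subset_of_card_le (sub_ins.1 hsc) (by rw [hs', hE.1 b' hb'])
          rw [h1]
        · exfalso
          have h1 := sub_compl.1 ((sub_map hn).1 hsc)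
          have h2 := Steiner.cnt_pos hb' (Finset.empty_subset _) h1
          rw [hc.1 hsE] at h2
          exact absurd h2 (lt_irrefl _)
      · have h1 := hc.2 hsE
        rw [Steiner.cnt, Finset.card_eq_one] at h1
        obtain ⟨d, hd⟩ := h1
        have hd' : d ∈ E ∧ (d ∩ Finset.eraseNone s).card = 0 := by
          have h2 : d ∈ ({d} : Finset (Finset Ω)) := Finset.mem_singleton_self d
          rw [← hd, Finset.mem_filter, Steiner.mem_blocks] at h2
          exact ⟨h2.1, h2.2.2⟩
        refine ⟨(dᶜ).map Function.Embedding.some,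
          ⟨Or.inr ⟨d, hd'.1, rfl⟩, (sub_map hn).2 (sub_compl.2 hd'.2)⟩, ?_⟩
        rintro c ⟨(⟨b', hb', rfl⟩ | ⟨b', hb', rfl⟩), hsc⟩
        · exfalso
          have h1 : Finset.eraseNone s = b' :=
            Finset.eq_of_subset_of_card_le (sub_ins.1 hsc) (by rw [hs', hE.1 b' hb'])
          rw [h1] at hsE
          exact hsE hb'
        · have h1 := sub_compl.1 ((sub_map hn).1 hsc)
          have h2 : b' ∈ ({d} : Finset (Finset Ω)) := by
            rw [← hd, Finset.mem_filter, Steiner.mem_blocks]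
            exact ⟨hb', Finset.empty_subset _, h1⟩
          rw [Finset.mem_singleton.1 h2]

end count

/-- Three linear maps of the plane. -/
def hf (k : Fin 3) : P9 → P9 :=
  ![fun m => m, fun m => (2 * m.1 + 2 * m.2, m.2), fun m => (2 * m.1 + 2 * m.2, m.1)] k

/-- Their inverses. -/
def hg (k : Fin 3) : P9 → P9 :=
  ![fun m => m, fun m => (2 * m.1 + 2 * m.2, m.2), fun m => (m.2, 2 * m.1 + 2 * m.2)] k

theorem d_hl : ∀ k m, hg k (hf k m) = m := by decide
theorem d_hr : ∀ k m, hf k (hg k m) = m := by decide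
theorem d_hadd : ∀ k m m', hf k (m + m') = hf k m + hf k m' := by decide
theorem d_g0 : ∀ k, hg k 0 = 0 := by decide
theorem d_h0 : ∀ k, hf k 0 = 0 := by decide

/-- The linear maps as bijections. -/
def hc (k : Fin 3) : P9 ≃ P9 := ⟨hf k, hg k, d_hl k, d_hr k⟩

theorem d_Qd : ∀ k c, (Qd c av (bv k)).image (hf k) = Qd (hf k c) av (bv 0) := by decide
theorem d_Pg : ∀ k c, (Pg c av (bv k)).image (hf k) = Pg (hf k c) av (bv 0) := by decide
theorem d_Qd' : ∀ k c, (Qd c av (bv 0)).image (hg k) = Qd (hg k c) av (bv k) := by decide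
theorem d_Pg' : ∀ k c, (Pg c av (bv 0)).image (hg k) = Pg (hg k c) av (bv k) := by decide

theorem L9_hc (k : Fin 3) : (fun b : Finset P9 => b.image (hc k)) '' L9 = L9 := by
  have key : ∀ b : Finset P9, b.image (hc k) ∈ L9 ↔ b ∈ L9 := by
    intro b
    have hsum : ∑ x ∈ b.image (hc k), x = hf k (∑ x ∈ b, x) := by
      rw [Finset.sum_image (fun x _ y _ h => (hc k).injective h)]
      exact (map_sum (AddMonoidHom.mk' (hf k) (d_hadd k)) (fun x => x) b).symm
    show ((b.image (hc k)).card = 3 ∧ ∑ x ∈ b.image (hc k), x = 0) ↔ (b.card = 3 ∧ ∑ x ∈ b, x = 0)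
    rw [Finset.card_image_of_injective _ (hc k).injective, hsum]
    constructor
    · rintro ⟨h1, h2⟩
      refine ⟨h1, ?_⟩
      have h3 := congrArg (hg k) h2
      rwa [d_hl, d_g0] at h3
    · rintro ⟨h1, h2⟩
      refine ⟨h1, ?_⟩
      rw [h2]
      exact d_h0 k
  ext ℓ
  constructor
  · rintro ⟨b, hb, rfl⟩
    exact (key b).2 hb
  · intro h
    refine ⟨ℓ.image (hc k).symm, ?_, img_symm (hc k) ℓ⟩
    rw [← key, img_symm]
    exact h

theorem Cl_hc (k : Fin 3) : (fun b : Finset P9 => b.image (hc k)) '' Cl k = Cl 0 := by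
  ext S
  constructor
  · rintro ⟨T, ⟨c, rfl | rfl⟩, rfl⟩
    · exact ⟨hf k c, Or.inl (d_Qd k c)⟩
    · exact ⟨hf k c, Or.inr (d_Pg k c)⟩
  · rintro ⟨c, rfl | rfl⟩
    · refine ⟨_, ⟨hg k c, Or.inl rfl⟩, ?_⟩
      rw [← d_Qd' k c]
      exact img_symm (hc k) _
    · refine ⟨_, ⟨hg k c, Or.inr rfl⟩, ?_⟩
      rw [← d_Pg' k c]
      exact img_symm (hc k) _

/-- The permutation of the twelve points induced by a permutation of the plane. -/
def cp (h : P9 ≃ P9) : Equiv.Perm Y12 := Equiv.sumCongr (Equiv.refl (Fin 3)) h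

theorem cp_image (h : P9 ≃ P9) (I : Finset (Fin 3)) (S : Finset P9) :
    (I.disjSum S).image (cp h) = I.disjSum (S.image h) := by
  ext z
  rw [mem_img]
  rcases z with i | m
  · show (Sum.inl i : Y12) ∈ _ ↔ _
    rw [Finset.inl_mem_disjSum, Finset.inl_mem_disjSum]
  · show (Sum.inr (h.symm m) : Y12) ∈ _ ↔ _
    rw [Finset.inr_mem_disjSum, Finset.inr_mem_disjSum, mem_img]

theorem sl_cp (h : P9 ≃ P9) (B : Set (Finset Y12)) (I : Finset (Fin 3)) :
    {S : Finset P9 | I.disjSum S ∈ (fun b : Finset Y12 => b.image (cp h)) '' B}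
      = (fun b : Finset P9 => b.image h) '' {S : Finset P9 | I.disjSum S ∈ B} := by
  ext ℓ
  constructor
  · intro hm
    refine ⟨ℓ.image h.symm, ?_, img_symm h ℓ⟩
    show I.disjSum (ℓ.image h.symm) ∈ B
    have hm' : I.disjSum ℓ ∈ (fun b : Finset Y12 => b.image (cp h)) '' B := hm
    rw [← img_symm h ℓ, ← cp_image] at hm'
    exact (img_mem (cp h)).1 hm'
  · rintro ⟨b, hb, rfl⟩
    show I.disjSum (b.image h) ∈ (fun b : Finset Y12 => b.image (cp h)) '' B
    rw [← cp_image]
    exact (img_mem (cp h)).2 hb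

theorem Ln_cp (h : P9 ≃ P9) (B : Set (Finset Y12)) :
    Ln ((fun b : Finset Y12 => b.image (cp h)) '' B) = (fun b : Finset P9 => b.image h) '' Ln B :=
  sl_cp h B univ

theorem Fc_cp (h : P9 ≃ P9) (B : Set (Finset Y12)) (i : Fin 3) :
    Fc ((fun b : Finset Y12 => b.image (cp h)) '' B) i
      = (fun b : Finset P9 => b.image h) '' Fc B i :=
  sl_cp h B (univ.erase i)

/-- Normalisation with a prescribed point sent to the first extra point. -/
theorem to_norm_pt {α : Type*} [Fintype α] [DecidableEq α] (hα : Fintype.card α = 12)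
    {B : Set (Finset α)} (hB : IsSteinerSystem 5 6 B) (p : α) :
    ∃ Φ : α ≃ Y12, Φ p = Sum.inl 0 ∧ IsNorm ((fun b : Finset α => b.image Φ) '' B) := by
  have c9 : Fintype.card (Fin 9) = 9 := Fintype.card_fin 9
  have c12 : Fintype.card (Option (Option (Option (Fin 9)))) = 12 := by
    simp [Fintype.card_option]
  have e00 : α ≃ Option (Option (Option (Fin 9))) := Fintype.equivOfCardEq (by rw [hα, c12])
  obtain ⟨e0, he0⟩ : ∃ e0 : α ≃ Option (Option (Option (Fin 9))), e0 p = none :=
    ⟨e00.trans (Equiv.swap (e00 p) none), by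
      rw [Equiv.trans_apply, Equiv.swap_apply_left]⟩
  have hB1 := steiner_image e0 hB
  generalize hB1def : (fun b : Finset α => b.image e0) '' B = B1 at hB1
  have hL1 : IsSteinerSystem 2 3 (der (der (der B1))) :=
    der_steiner (der_steiner (der_steiner hB1))
  obtain ⟨f, hf⟩ := plane_iso c9 hL1
  have hB2 := steiner_image (Equiv.optionCongr (Equiv.optionCongr (Equiv.optionCongr f))) hB1
  have hder2 : der (der (der ((fun b : Finset (Option (Option (Option (Fin 9)))) =>
      b.image (Equiv.optionCongr (Equiv.optionCongr (Equiv.optionCongr f)))) '' B1))) = L9 := by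
    rw [der_image, der_image, der_image, hf]
  generalize hB2def : (fun b : Finset (Option (Option (Option (Fin 9)))) =>
      b.image (Equiv.optionCongr (Equiv.optionCongr (Equiv.optionCongr f)))) '' B1 = B2
    at hB2 hder2
  have hB3 := steiner_image E0.symm hB2
  have hLn3 := (Ln_E0 B2).trans hder2
  generalize hB3def : (fun b : Finset (Option (Option (Option P9))) => b.image E0.symm) '' B2 = B3
    at hB3 hLn3
  obtain ⟨k, hk⟩ := fc_all hB3 hLn3 0
  have hB4 := steiner_image (cp (hc k)) hB3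
  have hLn4 : Ln ((fun b : Finset Y12 => b.image (cp (hc k))) '' B3) = L9 := by
    rw [Ln_cp, hLn3, L9_hc]
  have hF4 : Fc ((fun b : Finset Y12 => b.image (cp (hc k))) '' B3) 0 = Cl 0 := by
    rw [Fc_cp, hk, Cl_hc]
  generalize hB4def : (fun b : Finset Y12 => b.image (cp (hc k))) '' B3 = B4 at hB4 hLn4 hF4
  obtain ⟨τ, hτ, hτ0⟩ := normalize hB4 hLn4
  refine ⟨e0.trans ((Equiv.optionCongr (Equiv.optionCongr (Equiv.optionCongr f))).trans
    (E0.symm.trans ((cp (hc k)).trans (gp τ)))), ?_, ?_⟩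
  · show gp τ (cp (hc k) (E0.symm
      (Equiv.optionCongr (Equiv.optionCongr (Equiv.optionCongr f)) (e0 p)))) = Sum.inl 0
    rw [he0]
    show (Sum.inl (τ 0) : Y12) = Sum.inl 0
    rw [hτ0 hF4]
  · rw [image_trans_set, image_trans_set, image_trans_set, image_trans_set, hB1def, hB2def,
      hB3def, hB4def]
    exact ⟨steiner_image _ hB4, (Ln_gp τ B4).trans hLn4, hτ⟩

theorem oc_rn {γ δ : Type*} (g : Option γ ≃ Option δ) (hg : g none = none) :
    Equiv.optionCongr (Equiv.removeNone g) = g := by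
  apply Equiv.ext
  intro z
  rcases z with _ | z
  · exact hg.symm
  · show some (Equiv.removeNone g z) = g (some z)
    apply Equiv.removeNone_some
    rcases h : g (some z) with _ | w
    · rw [← hg] at h
      exact absurd (g.injective h) (by simp)
    · exact ⟨w, rfl⟩

/-- Uniqueness of the Steiner system S(4, 5, 11) up to isomorphism. -/
theorem result {α β : Type*} [Fintype α] [DecidableEq α] [Fintype β] [DecidableEq β] (hα : Fintype.card α = 11) (hβ : Fintype.card β = 11) {B : Set (Finset α)} {B' : Set (Finset β)} (hB : Cfsg.IsSteinerSystem 4 5 B) (hB' : Cfsg.IsSteinerSystem 4 5 B') : Cfsg.SetSystemIso B B' := by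
  have c12α : Fintype.card (Option α) = 12 := by rw [Fintype.card_option, hα]
  have c12β : Fintype.card (Option β) = 12 := by rw [Fintype.card_option, hβ]
  obtain ⟨Φ, hΦp, hΦ⟩ := to_norm_pt c12α (ext11_steiner hα hB) none
  obtain ⟨Φ', hΦ'p, hΦ'⟩ := to_norm_pt c12β (ext11_steiner hβ hB') none
  have h := norm_unique hΦ hΦ'
  have hg0 : (Φ.trans Φ'.symm) none = none := by
    rw [Equiv.trans_apply, hΦp, ← hΦ'p, Equiv.symm_apply_apply]
  have himg : (fun b : Finset (Option α) => b.image (Φ.trans Φ'.symm)) '' ext11 B = ext11 B' := by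
    rw [image_trans_set, h, image_symm_set]
  show ∃ e : α ≃ β, (fun b => b.image e) '' B = B'
  refine ⟨Equiv.removeNone (Φ.trans Φ'.symm), ?_⟩
  rw [← der_ext11 B, ← der_image, oc_rn _ hg0, himg, der_ext11]
end Cfsg.Agent.S0411
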