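import Cfsg.Statements.S0412
import Cfsg.Agent.S0407
import Cfsg.Agent.S0363
import Cfsg.Agent.S0364
import Cfsg.Agent.S0365
import Cfsg.Agent.S0366
import Cfsg.Agent.S0369

set_option autoImplicit false
open Cfsg

namespace Cfsg.Agent.S0412

open Finset
open Cfsg.Agent.Lib.Helper4 Cfsg.Agent.Lib.Helper28
open Cfsg.Agent.Lib.Helper28.Aut22 Cfsg.Agent.S0410

theorem card_pts : Fintype.card GolayPt = 24 := by
  rw [Fintype.card_option, ZMod.card]

/-- Conjugating an automorphism of one system by an isomorphism gives an automorphism of the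
other. -/
theorem conj_mem {α γ : Type*} [Fintype α] [DecidableEq α] [Fintype γ] [DecidableEq γ] {B0 : Set (Finset γ)}
    {B : Set (Finset α)} (e : γ ≃ α) (he : (fun b : Finset γ => b.image e) '' B0 = B)
    {g : Equiv.Perm γ} (hg : g ∈ setSystemAut B0) :
    e.symm.trans (g.trans e) ∈ setSystemAut B := by
  rw [mem_aut_iff, image_trans_set, image_trans_set, ← he, image_symm_set, mem_aut_iff.1 hg]

/-- Aut of an S(5, 8, 24) is simple of order 244823040 and 5-transitive on points. -/
theorem result {α : Type*} [Fintype α] [DecidableEq α] (hα : Fintype.card α = 24) {B : Set (Finset α)} (hB : Cfsg.IsSteinerSystem 5 8 B) : Cfsg.IsM24 (Cfsg.setSystemAut B) ∧ MulAction.IsMultiplyPretransitive (Cfsg.setSystemAut B) α 5 := by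
  have hiso := Cfsg.Agent.S0407.result card_pts hα Cfsg.Agent.S0363.result hB
  obtain ⟨e, he⟩ : ∃ e : GolayPt ≃ α, (fun b : Finset GolayPt => b.image e) '' octads = B := hiso
  have he' : (fun b : Finset α => b.image e.symm) '' B = octads := by
    rw [← he, image_symm_set]
  obtain ⟨Θ, hΘ⟩ := conj_hom e he
  obtain ⟨Θ', hΘ'⟩ := conj_hom e.symm he'
  have hM : Cfsg.M24 = setSystemAut octads := Cfsg.Agent.S0369.result
  have hF : Function.Injective (Θ.comp (MulEquiv.subgroupCongr hM).toMonoidHom) :=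
    hΘ.comp (MulEquiv.subgroupCongr hM).injective
  have hF' : Function.Injective ((MulEquiv.subgroupCongr hM).symm.toMonoidHom.comp Θ') :=
    (MulEquiv.subgroupCongr hM).symm.injective.comp hΘ'
  have hle : Nat.card ↥(setSystemAut B) ≤ Nat.card ↥Cfsg.M24 :=
    Nat.card_le_card_of_injective _ hF'
  have hbij := hF.bijective_of_nat_card_le hle
  have E : ↥Cfsg.M24 ≃* ↥(setSystemAut B) := MulEquiv.ofBijective _ hbij
  have hsimp : IsSimpleGroup ↥Cfsg.M24 := Cfsg.Agent.S0365.result
  refine ⟨⟨E.symm.isSimpleGroup, ?_⟩, ?_⟩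
  · rw [← Nat.card_congr E.toEquiv]
    exact Cfsg.Agent.S0364.result
  · rw [MulAction.isMultiplyPretransitive_iff]
    intro x y
    obtain ⟨g, hg⟩ := MulAction.isMultiplyPretransitive_iff.1 Cfsg.Agent.S0366.result
      (x.trans e.symm.toEmbedding) (y.trans e.symm.toEmbedding)
    have hg' : (g : Equiv.Perm GolayPt) ∈ setSystemAut octads := by
      rw [← hM]
      exact g.2
    refine ⟨⟨e.symm.trans ((g : Equiv.Perm GolayPt).trans e), conj_mem e he hg'⟩, ?_⟩
    apply Function.Embedding.ext
    intro i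
    show e ((g : Equiv.Perm GolayPt) (e.symm (x i))) = y i
    have h1 := congrArg (fun f : Fin 5 ↪ GolayPt => f i) hg
    have h2 : (g : Equiv.Perm GolayPt) (e.symm (x i)) = e.symm (y i) := h1
    rw [h2, Equiv.apply_symm_apply]
end Cfsg.Agent.S0412
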