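import Cfsg.Statements.S0414
import Cfsg.Agent.Lib.Helper28.Aut22
import Cfsg.Agent.Lib.Helper28.AutPlane
import Cfsg.Agent.S0363
import Cfsg.Agent.S0369
import Cfsg.Agent.S0378
import Cfsg.Agent.S0379

set_option autoImplicit false
open Cfsg

namespace Cfsg.Agent.S0414

open Finset
open scoped Pointwise
open Cfsg.Agent.Lib.Helper4 Cfsg.Agent.Lib.Helper28 Cfsg.Agent.Lib.Helper28.Aut22

/-- The first removed point. -/
abbrev pt0 : GolayPt := none

/-- The second removed point. -/
abbrev pt1 : GolayPt := some 0

theorem pt_ne : pt0 ≠ pt1 := (Option.some_ne_none _).symm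

/-- The remaining twenty-two points. -/
abbrev P22 : Type := {x : GolayPt // x ≠ pt0 ∧ x ≠ pt1}

theorem card_P22 : Fintype.card P22 = 22 := by decide

/-- The blocks: the octads through the two removed points, with these points removed. -/
def Bref : Set (Finset P22) :=
  {b | insert pt0 (insert pt1 (b.map (Function.Embedding.subtype _))) ∈ octads}

theorem not_mem_map0 (b : Finset P22) : pt0 ∉ b.map (Function.Embedding.subtype _) := by
  intro h
  obtain ⟨x, -, e⟩ := Finset.mem_map.1 h
  exact x.2.1 e

theorem not_mem_map1 (b : Finset P22) : pt1 ∉ b.map (Function.Embedding.subtype _) := by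
  intro h
  obtain ⟨x, -, e⟩ := Finset.mem_map.1 h
  exact x.2.2 e

theorem card_ext (b : Finset P22) :
    (insert pt0 (insert pt1 (b.map (Function.Embedding.subtype _)))).card = b.card + 2 := by
  rw [Finset.card_insert_of_notMem, Finset.card_insert_of_notMem (not_mem_map1 b),
    Finset.card_map]
  rw [Finset.mem_insert, not_or]
  exact ⟨pt_ne, not_mem_map0 b⟩

theorem Bref_steiner : IsSteinerSystem 3 6 Bref := by
  have hO := Cfsg.Agent.S0363.result
  constructor
  · intro b hb
    have h8 := hO.1 _ hb
    rw [card_ext] at h8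
    omega
  · intro s hs
    have h5 : (insert pt0 (insert pt1 (s.map (Function.Embedding.subtype _)))).card = 5 := by
      rw [card_ext, hs]
    obtain ⟨O, ⟨hOo, hsub⟩, huniq⟩ := hO.2 _ h5
    have m0 : pt0 ∈ O := hsub (Finset.mem_insert_self _ _)
    have m1 : pt1 ∈ O := hsub (Finset.mem_insert_of_mem (Finset.mem_insert_self _ _))
    have key : insert pt0 (insert pt1 ((O.subtype (fun x => x ≠ pt0 ∧ x ≠ pt1)).map
        (Function.Embedding.subtype _))) = O := by
      ext z
      rw [Finset.mem_insert, Finset.mem_insert, Finset.subtype_map, Finset.mem_filter]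
      constructor
      · rintro (rfl | rfl | ⟨h, -⟩)
        · exact m0
        · exact m1
        · exact h
      · intro hz
        by_cases e0 : z = pt0
        · exact Or.inl e0
        by_cases e1 : z = pt1
        · exact Or.inr (Or.inl e1)
        · exact Or.inr (Or.inr ⟨hz, e0, e1⟩)
    refine ⟨O.subtype (fun x => x ≠ pt0 ∧ x ≠ pt1), ⟨?_, ?_⟩, ?_⟩
    · show insert pt0 (insert pt1 ((O.subtype (fun x => x ≠ pt0 ∧ x ≠ pt1)).map
        (Function.Embedding.subtype _))) ∈ octads
      rw [key]
      exact hOo
    · intro x hx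
      rw [Finset.mem_subtype]
      apply hsub
      exact Finset.mem_insert_of_mem (Finset.mem_insert_of_mem (Finset.mem_map_of_mem _ hx))
    · rintro b' ⟨hb', hsb'⟩
      have hO' := huniq _ ⟨hb', Finset.insert_subset_insert _
        (Finset.insert_subset_insert _ (Finset.map_subset_map.2 hsb'))⟩
      ext x
      rw [Finset.mem_subtype, ← hO']
      constructor
      · intro hx
        exact Finset.mem_insert_of_mem (Finset.mem_insert_of_mem (Finset.mem_map_of_mem _ hx))
      · intro hx
        rw [Finset.mem_insert, Finset.mem_insert] at hx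
        rcases hx with e | e | hx
        · exact absurd e x.2.1
        · exact absurd e x.2.2
        · obtain ⟨y, hy, e⟩ := Finset.mem_map.1 hx
          have e' : y = x := Subtype.ext e
          rw [← e']
          exact hy

/-- The two-point stabiliser. -/
abbrev M22s : Subgroup ↥M24 := MulAction.stabilizer M24 pt0 ⊓ MulAction.stabilizer M24 pt1

theorem fix0 (g : ↥M22s) : (g.1.1 : Equiv.Perm GolayPt) pt0 = pt0 := (Subgroup.mem_inf.1 g.2).1

theorem fix1 (g : ↥M22s) : (g.1.1 : Equiv.Perm GolayPt) pt1 = pt1 := (Subgroup.mem_inf.1 g.2).2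

/-- The restriction of an element of the two-point stabiliser to the remaining points. -/
def restr (g : ↥M22s) : Equiv.Perm P22 :=
  (g.1.1 : Equiv.Perm GolayPt).subtypePerm (fun x => by
    have i0 : (g.1.1 : Equiv.Perm GolayPt) x = pt0 ↔ x = pt0 := by
      constructor
      · intro e
        exact (g.1.1 : Equiv.Perm GolayPt).injective (e.trans (fix0 g).symm)
      · intro e
        rw [e]
        exact fix0 g
    have i1 : (g.1.1 : Equiv.Perm GolayPt) x = pt1 ↔ x = pt1 := by
      constructor
      · intro e
        exact (g.1.1 : Equiv.Perm GolayPt).injective (e.trans (fix1 g).symm)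
      · intro e
        rw [e]
        exact fix1 g
    rw [Ne, Ne, i0, i1])

/-- The restriction homomorphism. -/
def restrHom : ↥M22s →* Equiv.Perm P22 :=
  MonoidHom.mk' restr (by
    intro a b
    apply Equiv.ext
    intro x
    apply Subtype.ext
    rfl)

theorem restr_smul (g : ↥M22s) {b : Finset P22} (hb : b ∈ Bref) : restr g • b ∈ Bref := by
  show insert pt0 (insert pt1 ((restr g • b).map (Function.Embedding.subtype _))) ∈ octads
  have hg : (g.1.1 : Equiv.Perm GolayPt) ∈ setSystemAut octads := by
    rw [← Cfsg.Agent.S0369.result]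
    exact g.1.2
  have h1 := AutPlane.aut_smul_mem hg hb
  have e : insert pt0 (insert pt1 ((restr g • b).map (Function.Embedding.subtype _)))
      = (g.1.1 : Equiv.Perm GolayPt) •
        (insert pt0 (insert pt1 (b.map (Function.Embedding.subtype _)))) := by
    ext z
    constructor
    · intro hz
      rw [Finset.mem_insert, Finset.mem_insert] at hz
      rcases hz with rfl | rfl | hz
      · exact Finset.mem_smul_finset.2 ⟨pt0, Finset.mem_insert_self _ _, fix0 g⟩
      · exact Finset.mem_smul_finset.2
          ⟨pt1, Finset.mem_insert_of_mem (Finset.mem_insert_self _ _), fix1 g⟩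
      · obtain ⟨y, hy, rfl⟩ := Finset.mem_map.1 hz
        obtain ⟨y0, hy0, rfl⟩ := Finset.mem_smul_finset.1 hy
        exact Finset.mem_smul_finset.2 ⟨y0.1, Finset.mem_insert_of_mem
          (Finset.mem_insert_of_mem (Finset.mem_map_of_mem _ hy0)), rfl⟩
    · intro hz
      obtain ⟨w, hw, rfl⟩ := Finset.mem_smul_finset.1 hz
      rw [Finset.mem_insert, Finset.mem_insert] at hw
      rcases hw with rfl | rfl | hw
      · rw [Equiv.Perm.smul_def, fix0 g]
        exact Finset.mem_insert_self _ _
      · rw [Equiv.Perm.smul_def, fix1 g]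
        exact Finset.mem_insert_of_mem (Finset.mem_insert_self _ _)
      · obtain ⟨y0, hy0, rfl⟩ := Finset.mem_map.1 hw
        exact Finset.mem_insert_of_mem (Finset.mem_insert_of_mem
          (Finset.mem_map.2 ⟨restr g • y0, Finset.smul_mem_smul_finset hy0, rfl⟩))
  rw [e]
  exact h1

theorem restr_mem (g : ↥M22s) : restrHom g ∈ setSystemAut Bref := by
  apply AutPlane.mem_aut_of_forall Bref _ (fun b hb => restr_smul g hb)
  intro b hb
  have h := restr_smul g⁻¹ hb
  have e : restr g⁻¹ = (restr g)⁻¹ := map_inv restrHom g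
  rw [← e]
  exact h

/-- The two-point stabiliser acting on the reference system. -/
def phi : ↥M22s →* ↥(setSystemAut Bref) := restrHom.codRestrict _ restr_mem

theorem phi_inj : Function.Injective phi := by
  intro a b hab
  have h : restr a = restr b := congrArg Subtype.val hab
  apply Subtype.ext
  apply Subtype.ext
  apply Equiv.ext
  intro x
  by_cases e0 : x = pt0
  · rw [e0, fix0 a, fix0 b]
  by_cases e1 : x = pt1
  · rw [e1, fix1 a, fix1 b]
  exact congrArg (fun f : Equiv.Perm P22 => (f ⟨x, e0, e1⟩).1) h

/-- Aut of an S(3, 6, 22) has order 887040, is 3-transitive, and contains a simple subgroup of index 2. -/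
theorem result {α : Type*} [Fintype α] [DecidableEq α] (hα : Fintype.card α = 22) {B : Set (Finset α)} (hB : Cfsg.IsSteinerSystem 3 6 B) : Nat.card (Cfsg.setSystemAut B) = 887040 ∧ MulAction.IsMultiplyPretransitive (Cfsg.setSystemAut B) α 3 ∧ ∃ H : Subgroup (Cfsg.setSystemAut B), H.index = 2 ∧ Cfsg.IsM22 H := by
  refine ⟨card_aut hα hB, three_trans hα hB, ?_⟩
  obtain ⟨e, he⟩ := Cfsg.Agent.S0410.result card_P22 hα Bref_steiner hB
  obtain ⟨Θ, hΘ⟩ := conj_hom e he
  have hψ : Function.Injective (Θ.comp phi) := hΘ.comp phi_inj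
  have : IsSimpleGroup ↥M22s := Cfsg.Agent.S0379.result pt0 pt1 pt_ne
  have E1 : ↥M22s ≃* ↥(Θ.comp phi).range := MonoidHom.ofInjective hψ
  have c1 : Nat.card ↥(Θ.comp phi).range = 443520 := by
    rw [← Nat.card_congr E1.toEquiv]
    exact Cfsg.Agent.S0378.result pt0 pt1 pt_ne
  refine ⟨(Θ.comp phi).range, ?_, And.intro E1.symm.isSimpleGroup c1⟩
  have h := Subgroup.card_mul_index (Θ.comp phi).range
  rw [c1, card_aut hα hB] at h
  omega
end Cfsg.Agent.S0414
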