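import Cfsg.Statements.S0419
import Cfsg.Agent.Lib.Helper4.Sharp2

set_option autoImplicit false
open Cfsg

namespace Cfsg.Agent.S0419

/-- A sharply 5-transitive group of degree 12 is simple of order 95040. -/
theorem result {α : Type*} [Fintype α] [DecidableEq α] (hα : Fintype.card α = 12) (G : Subgroup (Equiv.Perm α)) [MulAction.IsMultiplyPretransitive G α 5] (hsharp : ∀ x : Fin 5 ↪ α, MulAction.stabilizer G x = ⊥) : Cfsg.IsM12 G := by
  have hs := Cfsg.Agent.Lib.Helper4.Sharp.isSharp_univ G 5 hsharp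
  have hc : (Finset.univ : Finset α).card = 12 := by rw [Finset.card_univ, hα]
  refine ⟨Cfsg.Agent.Lib.Helper4.Sharp.simple12 hs hc, ?_⟩
  rw [hs.card (by omega), hc]
  rfl

end Cfsg.Agent.S0419
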