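import Cfsg.Statements.S0423
import Cfsg.Agent.Lib.Helper13.J2O

set_option autoImplicit false
open Cfsg

namespace Cfsg.Agent.S0423

open Cfsg.Agent.Lib.Helper13 Cfsg.Agent.Lib.Helper13.CE

/-- Existence of a simple group of order 604800. -/
theorem result : ∃ G : Subgroup (Equiv.Perm (Fin 100)), Cfsg.IsJ2 G := by
  obtain ⟨X, f, hnets, hev, hf, hinj, hcard⟩ := J2O.faithful
  have e : J2O.P ≃* X.φ.range := MonoidHom.ofInjective hinj
  refine ⟨X.φ.range, ?_, ?_⟩
  · have := J2O.simple
    exact e.symm.isSimpleGroup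
  · rw [← Nat.card_congr e.toEquiv, hcard]

end Cfsg.Agent.S0423
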