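import Cfsg.Statements.S0425
import Cfsg.Agent.S0408
import Cfsg.Agent.S0384
import Cfsg.Agent.S0385
import Cfsg.Agent.S0419
import Cfsg.Agent.S0369
import Cfsg.Agent.Lib.Helper28.AutPlane

set_option autoImplicit false
open Cfsg

namespace Cfsg.Agent.S0425

open Finset
open scoped Pointwise
open Cfsg.Agent.Lib.Helper4 Cfsg.Agent.Lib.Helper28 Cfsg.Agent.Lib.Helper28.Aut22

/-! ### The hexads of a dodecad -/

/-- The hexads of a dodecad. -/
def Hx (d : Finset GolayPt) : Set (Finset {p : GolayPt // p ∈ d}) :=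
  {h | ∃ o ∈ octads, (o ∩ d).card = 6 ∧ h = Finset.subtype (fun p => p ∈ d) o}

theorem hx_smul {d : Finset GolayPt} (g : Equiv.Perm GolayPt) (hg : g ∈ setSystemAut octads)
    (hgd : g • d = d) (memd : ∀ p, g p ∈ d ↔ p ∈ d) {b : Finset {p : GolayPt // p ∈ d}}
    (hb : b ∈ Hx d) : g.subtypePerm memd • b ∈ Hx d := by
  obtain ⟨o, ho, h6, rfl⟩ := hb
  refine ⟨g • o, AutPlane.aut_smul_mem hg ho, ?_, ?_⟩
  · have h : g • o ∩ d = g • (o ∩ d) := by
      rw [Finset.smul_finset_inter, hgd]
    rw [h, Finset.card_smul_finset, h6]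
  · ext z
    rw [Finset.mem_subtype]
    constructor
    · intro hz
      obtain ⟨y, hy, rfl⟩ := Finset.mem_smul_finset.1 hz
      rw [Finset.mem_subtype] at hy
      exact Finset.smul_mem_smul_finset hy
    · intro hz
      obtain ⟨w, hw, e⟩ := Finset.mem_smul_finset.1 hz
      have hwd : w ∈ d := by
        rw [← memd]
        have e' : g w = z.1 := e
        rw [e']
        exact z.2
      refine Finset.mem_smul_finset.2 ⟨⟨w, hwd⟩, ?_, ?_⟩
      · rw [Finset.mem_subtype]
        exact hw
      · apply Subtype.ext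
        exact e

theorem hx_trans {d : Finset GolayPt} (hd : d ∈ dodecads) (x y : Fin 5 ↪ {p : GolayPt // p ∈ d}) :
    ∃ g ∈ setSystemAut (Hx d), ∀ i, g (x i) = y i := by
  obtain ⟨g, hg, -⟩ := Cfsg.Agent.S0384.result d hd (x.trans (Function.Embedding.subtype _))
    (y.trans (Function.Embedding.subtype _)) (fun i => (x i).2) (fun i => (y i).2)
  have hgd : (g.1.1 : Equiv.Perm GolayPt) • d = d := g.2
  have hM : Cfsg.M24 = setSystemAut octads := Cfsg.Agent.S0369.result
  have hga : (g.1.1 : Equiv.Perm GolayPt) ∈ setSystemAut octads := by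
    rw [← hM]
    exact g.1.2
  have memd : ∀ p, (g.1.1 : Equiv.Perm GolayPt) p ∈ d ↔ p ∈ d := by
    intro p
    have h := Finset.smul_mem_smul_finset_iff (a := (g.1.1 : Equiv.Perm GolayPt)) (b := p) (s := d)
    rw [hgd] at h
    exact h
  have hgd' : (g.1.1 : Equiv.Perm GolayPt)⁻¹ • d = d := by
    rw [inv_smul_eq_iff, hgd]
  have memd' : ∀ p, (g.1.1 : Equiv.Perm GolayPt)⁻¹ p ∈ d ↔ p ∈ d := by
    intro p
    have h := Finset.smul_mem_smul_finset_iff (a := (g.1.1 : Equiv.Perm GolayPt)⁻¹) (b := p) (s := d)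
    rw [hgd'] at h
    exact h
  have hinv : ((g.1.1 : Equiv.Perm GolayPt).subtypePerm memd)⁻¹
      = ((g.1.1 : Equiv.Perm GolayPt)⁻¹).subtypePerm memd' := by
    apply inv_eq_of_mul_eq_one_right
    apply Equiv.ext
    intro z
    apply Subtype.ext
    show (g.1.1 : Equiv.Perm GolayPt) ((g.1.1 : Equiv.Perm GolayPt)⁻¹ z.1) = z.1
    exact Equiv.apply_symm_apply (g.1.1 : Equiv.Perm GolayPt) z.1
  refine ⟨(g.1.1 : Equiv.Perm GolayPt).subtypePerm memd, ?_, ?_⟩
  · apply AutPlane.mem_aut_of_forall
    · intro b hb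
      exact hx_smul _ hga hgd memd hb
    · intro b hb
      rw [hinv]
      exact hx_smul _ (inv_mem hga) hgd' memd' hb
  · intro i
    apply Subtype.ext
    exact hg i

/-! ### Transitivity -/

section sys
variable {α : Type*} [Fintype α] [DecidableEq α]

theorem conj_mem' {γ : Type*} [Fintype γ] [DecidableEq γ] {B0 : Set (Finset γ)}
    {B : Set (Finset α)} (e : γ ≃ α) (he : (fun b : Finset γ => b.image e) '' B0 = B)
    {g : Equiv.Perm γ} (hg : g ∈ setSystemAut B0) :
    e.symm.trans (g.trans e) ∈ setSystemAut B := by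
  rw [mem_aut_iff, image_trans_set, image_trans_set, ← he, image_symm_set, mem_aut_iff.1 hg]

theorem trans5 (hα : Fintype.card α = 12) {B : Set (Finset α)} (hB : IsSteinerSystem 5 6 B)
    (x y : Fin 5 ↪ α) : ∃ g ∈ setSystemAut B, ∀ i, g (x i) = y i := by
  obtain ⟨d, hd⟩ : ∃ d, d ∈ dodecads := ⟨_, Cfsg.Agent.Lib.Helper4.Golay.D0_dod⟩
  have c12 : Fintype.card {p : GolayPt // p ∈ d} = 12 := by
    rw [Fintype.card_coe]
    exact hd.2
  obtain ⟨e, he⟩ : ∃ e : {p : GolayPt // p ∈ d} ≃ α,
      (fun b : Finset {p : GolayPt // p ∈ d} => b.image e) '' Hx d = B :=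
    Cfsg.Agent.S0408.result c12 hα (Cfsg.Agent.S0385.result d hd) hB
  obtain ⟨g, hg, hgx⟩ := hx_trans hd (x.trans e.symm.toEmbedding) (y.trans e.symm.toEmbedding)
  refine ⟨e.symm.trans (g.trans e), conj_mem' e he hg, ?_⟩
  intro i
  show e (g (e.symm (x i))) = y i
  have h2 : g (e.symm (x i)) = e.symm (y i) := hgx i
  rw [h2, Equiv.apply_symm_apply]

/-! ### Sharpness -/

theorem pair_cnt (hα : Fintype.card α = 12) {B : Set (Finset α)} (hB : IsSteinerSystem 5 6 B)
    {b : Finset α} (hb : b ∈ B) {u v : α} (hu : u ∉ b) (hv : v ∉ b) (huv : u ≠ v) :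
    Steiner.cnt B {u, v} b 3 = 8 ∧ Steiner.cnt B {u, v} b 4 = 3 := by
  have hbc : b.card = 6 := hB.1 b hb
  have hd := fun T => Steiner.s5612_deg hα hB T
  have hs : ({u, v} : Finset α).card = 2 := Finset.card_pair huv
  have hdisj : Disjoint ({u, v} : Finset α) b := by
    rw [Finset.disjoint_left]
    intro z hz
    rw [Finset.mem_insert, Finset.mem_singleton] at hz
    rcases hz with rfl | rfl
    · exact hu
    · exact hv
  have e1 := Steiner.sum_choose_cnt B {u, v} b hdisj 1 12 7
    (fun T hT => (hd T).2.2.2.1 (by rw [hT, hs])) (by omega)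
  have e2 := Steiner.sum_choose_cnt B {u, v} b hdisj 2 4 7
    (fun T hT => (hd T).2.2.2.2.1 (by rw [hT, hs])) (by omega)
  have e3 := Steiner.sum_choose_cnt B {u, v} b hdisj 3 1 7
    (fun T hT => (hd T).2.2.2.2.2 (by rw [hT, hs])) (by omega)
  have m1 : Steiner.cnt B {u, v} b 1 = 0 := by
    apply Steiner.cnt_eq_zero
    intro c hc _ hj
    have h := Steiner.cnt_pos hc (Finset.empty_subset _) hj
    rw [(Steiner.s5612 hα hB hb).2.1] at h
    exact absurd h (lt_irrefl _)
  have big : ∀ j, 5 ≤ j → Steiner.cnt B {u, v} b j = 0 := by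
    intro j hj5
    apply Steiner.cnt_eq_zero
    intro c hc hsc hj
    have h := Steiner.eq_of_le_inter hB hc hb (by omega)
    rw [h] at hsc
    exact hu (hsc (Finset.mem_insert_self _ _))
  have m5 := big 5 (le_refl _)
  have m6 := big 6 (by norm_num)
  simp only [sum_range_succ, sum_range_zero, hbc, m1, m5, m6] at e1 e2 e3
  norm_num [Nat.choose] at e1 e2 e3
  omega

theorem pair_blk (hα : Fintype.card α = 12) {B : Set (Finset α)} (hB : IsSteinerSystem 5 6 B)
    {b : Finset α} (hb : b ∈ B) {u v : α} (hu : u ∉ b) (hv : v ∉ b) (huv : u ≠ v) (j : ℕ)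
    (hj : j = 3 ∨ j = 4) : ∃ c ∈ B, u ∈ c ∧ v ∈ c ∧ (c ∩ b).card = j := by
  have h := pair_cnt hα hB hb hu hv huv
  have hpos : 0 < Steiner.cnt B {u, v} b j := by
    rcases hj with rfl | rfl
    · rw [h.1]
      norm_num
    · rw [h.2]
      norm_num
  rw [Steiner.cnt, Finset.card_pos] at hpos
  obtain ⟨c, hc⟩ := hpos
  rw [Finset.mem_filter, Steiner.mem_blocks] at hc
  exact ⟨c, hc.1, hc.2.1 (Finset.mem_insert_self _ _),
    hc.2.1 (Finset.mem_insert_of_mem (Finset.mem_singleton_self _)), hc.2.2⟩

theorem img_eq {B : Set (Finset α)} (hB : IsSteinerSystem 5 6 B) {g : Equiv.Perm α}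
    (hg : g ∈ setSystemAut B) {c T : Finset α} (hc : c ∈ B) (hT : 5 ≤ T.card) (h1 : T ⊆ c)
    (h2 : T ⊆ c.image g) : c.image g = c := by
  have hm : c.image g ∈ B := by
    have h := mem_aut_iff.1 hg
    rw [← h]
    exact ⟨c, hc, rfl⟩
  apply Steiner.eq_of_le_inter hB hm hc
  exact le_trans hT (Finset.card_le_card (Finset.subset_inter h2 h1))

theorem fix_block (hα : Fintype.card α = 12) {B : Set (Finset α)} (hB : IsSteinerSystem 5 6 B)
    {b : Finset α} (hb : b ∈ B) {g : Equiv.Perm α} (hg : g ∈ setSystemAut B)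
    (hfix : ∀ p ∈ b, g p = p) : g = 1 := by
  have hbc : b.card = 6 := hB.1 b hb
  have hout : ∀ u, u ∉ b → g u ∉ b := by
    intro u hu h
    have h1 := hfix _ h
    exact hu (by rw [← g.injective h1]; exact h)
  -- the two outer points of a block meeting `b` in four points
  have two : ∀ c ∈ B, ∀ u w : α, u ∈ c → w ∈ c → u ∉ b → w ∉ b → u ≠ w → (c ∩ b).card = 4 →
      ∀ z ∈ c, z ∉ b → z = u ∨ z = w := by
    intro c hc u w huc hwc hu hw huw h4 z hz hzb
    have hcard : (c \ b).card = 2 := by
      have h := Finset.card_sdiff_add_card_inter c b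
      rw [hB.1 c hc, h4] at h
      omega
    have hsub : ({u, w} : Finset α) ⊆ c \ b := by
      intro t ht
      rw [Finset.mem_insert, Finset.mem_singleton] at ht
      rcases ht with rfl | rfl
      · exact Finset.mem_sdiff.2 ⟨huc, hu⟩
      · exact Finset.mem_sdiff.2 ⟨hwc, hw⟩
    have heq : ({u, w} : Finset α) = c \ b :=
      Finset.eq_of_subset_of_card_le hsub (by rw [hcard, Finset.card_pair huw])
    have hz' : z ∈ ({u, w} : Finset α) := by
      rw [heq]
      exact Finset.mem_sdiff.2 ⟨hz, hzb⟩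
    rw [Finset.mem_insert, Finset.mem_singleton] at hz'
    exact hz'
  -- a block through a fixed outer point and four points of `b` is fixed
  have stab4 : ∀ c ∈ B, ∀ w : α, w ∈ c → w ∉ b → w ∈ c.image g → (c ∩ b).card = 4 →
      c.image g = c := by
    intro c hc w hwc hw hwi h4
    apply img_eq hB hg hc (T := insert w (c ∩ b))
    · rw [Finset.card_insert_of_notMem (fun h => hw (Finset.mem_inter.1 h).2), h4]
    · intro t ht
      rw [Finset.mem_insert] at ht
      rcases ht with rfl | ht
      · exact hwc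
      · exact (Finset.mem_inter.1 ht).1
    · intro t ht
      rw [Finset.mem_insert] at ht
      rcases ht with rfl | ht
      · exact hwi
      · have h := Finset.mem_inter.1 ht
        exact Finset.mem_image.2 ⟨t, h.1, hfix t h.2⟩
  -- step 1: involution outside `b`
  have inv : ∀ u, u ∉ b → g (g u) = u := by
    intro u hu
    by_cases h : g u = u
    · rw [h, h]
    · have hw := hout u hu
      obtain ⟨c, hc, huc, hwc, h4⟩ := pair_blk hα hB hb hu hw (Ne.symm h) 4 (Or.inr rfl)
      have himg := stab4 c hc (g u) hwc hw (Finset.mem_image_of_mem g huc) h4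
      have hgw : g (g u) ∈ c := by
        rw [← himg]
        exact Finset.mem_image_of_mem g hwc
      rcases two c hc u (g u) huc hwc hu hw (Ne.symm h) h4 _ hgw (hout _ hw) with h1 | h1
      · exact h1
      · exact absurd (g.injective h1) h
  -- step 2: a fixed point outside `b`
  have fixpt : ∃ z, z ∉ b ∧ g z = z := by
    obtain ⟨u, hu⟩ : ∃ u, u ∉ b := by
      by_contra hcon
      push Not at hcon
      have h : b = Finset.univ := Finset.eq_univ_iff_forall.2 hcon
      rw [h, Finset.card_univ, hα] at hbc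
      omega
    by_cases h : g u = u
    · exact ⟨u, hu, h⟩
    · have hw := hout u hu
      have hgw := inv u hu
      obtain ⟨c, hc, huc, hwc, h3⟩ := pair_blk hα hB hb hu hw (Ne.symm h) 3 (Or.inl rfl)
      have himg : c.image g = c := by
        apply img_eq hB hg hc (T := insert u (insert (g u) (c ∩ b)))
        · rw [Finset.card_insert_of_notMem, Finset.card_insert_of_notMem, h3]
          · exact fun h' => hw (Finset.mem_inter.1 h').2
          · intro h'
            rw [Finset.mem_insert] at h'
            rcases h' with h' | h'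
            · exact h h'.symm
            · exact hu (Finset.mem_inter.1 h').2
        · intro t ht
          rw [Finset.mem_insert, Finset.mem_insert] at ht
          rcases ht with rfl | rfl | ht
          · exact huc
          · exact hwc
          · exact (Finset.mem_inter.1 ht).1
        · intro t ht
          rw [Finset.mem_insert, Finset.mem_insert] at ht
          rcases ht with rfl | rfl | ht
          · exact Finset.mem_image.2 ⟨g t, hwc, hgw⟩
          · exact Finset.mem_image_of_mem g huc
          · have h' := Finset.mem_inter.1 ht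
            exact Finset.mem_image.2 ⟨t, h'.1, hfix t h'.2⟩
      have hcard : (c \ b).card = 3 := by
        have h' := Finset.card_sdiff_add_card_inter c b
        rw [hB.1 c hc, h3] at h'
        omega
      obtain ⟨z, hz, hzn⟩ := Finset.exists_mem_notMem_of_card_lt_card
        (s := ({u, g u} : Finset α)) (t := c \ b) (by rw [hcard, Finset.card_pair (Ne.symm h)]; norm_num)
      have hzc := (Finset.mem_sdiff.1 hz).1
      have hzb := (Finset.mem_sdiff.1 hz).2
      have hzu : z ≠ u := fun e => hzn (by rw [e]; exact Finset.mem_insert_self _ _)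
      have hzw : z ≠ g u := fun e =>
        hzn (by rw [e]; exact Finset.mem_insert_of_mem (Finset.mem_singleton_self _))
      have hsub : ({u, g u, z} : Finset α) ⊆ c \ b := by
        intro t ht
        rw [Finset.mem_insert, Finset.mem_insert, Finset.mem_singleton] at ht
        rcases ht with rfl | rfl | rfl
        · exact Finset.mem_sdiff.2 ⟨huc, hu⟩
        · exact Finset.mem_sdiff.2 ⟨hwc, hw⟩
        · exact hz
      have hc3 : ({u, g u, z} : Finset α).card = 3 := by
        rw [Finset.card_insert_of_notMem, Finset.card_pair (Ne.symm hzw)]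
        intro h'
        rw [Finset.mem_insert, Finset.mem_singleton] at h'
        rcases h' with h' | h'
        · exact h h'.symm
        · exact hzu h'.symm
      have heq : ({u, g u, z} : Finset α) = c \ b :=
        Finset.eq_of_subset_of_card_le hsub (by rw [hcard, hc3])
      have hgz : g z ∈ ({u, g u, z} : Finset α) := by
        rw [heq]
        refine Finset.mem_sdiff.2 ⟨?_, hout z hzb⟩
        rw [← himg]
        exact Finset.mem_image_of_mem g hzc
      rw [Finset.mem_insert, Finset.mem_insert, Finset.mem_singleton] at hgz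
      rcases hgz with h1 | h1 | h1
      · rw [← hgw] at h1
        exact absurd (g.injective h1) hzw
      · exact absurd (g.injective h1) hzu
      · exact ⟨z, hzb, h1⟩
  obtain ⟨z, hzb, hgz⟩ := fixpt
  apply Equiv.ext
  intro v
  show g v = v
  by_cases hv : v ∈ b
  · exact hfix v hv
  · by_cases hvz : v = z
    · rw [hvz, hgz]
    · obtain ⟨c, hc, hzc, hvc, h4⟩ := pair_blk hα hB hb hzb hv (Ne.symm hvz) 4 (Or.inr rfl)
      have himg := stab4 c hc z hzc hzb
        (Finset.mem_image.2 ⟨z, hzc, hgz⟩) h4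
      have hgv : g v ∈ c := by
        rw [← himg]
        exact Finset.mem_image_of_mem g hvc
      rcases two c hc z v hzc hvc hzb hv (Ne.symm hvz) h4 _ hgv (hout _ hv) with h1 | h1
      · rw [← hgz] at h1
        exact absurd (g.injective h1) hvz
      · exact h1

theorem sharp5 (hα : Fintype.card α = 12) {B : Set (Finset α)} (hB : IsSteinerSystem 5 6 B)
    (x : Fin 5 ↪ α) {g : Equiv.Perm α} (hg : g ∈ setSystemAut B) (hx : ∀ i, g (x i) = x i) :
    g = 1 := by
  have hT : (Finset.univ.map x).card = 5 := by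
    rw [Finset.card_map, Finset.card_univ, Fintype.card_fin]
  obtain ⟨b, ⟨hb, hTb⟩, huniq⟩ := hB.2 _ hT
  have hbc : b.card = 6 := hB.1 b hb
  have hm : b.image g ∈ B := by
    have h := mem_aut_iff.1 hg
    rw [← h]
    exact ⟨b, hb, rfl⟩
  have hTi : Finset.univ.map x ⊆ b.image g := by
    intro t ht
    obtain ⟨i, -, rfl⟩ := Finset.mem_map.1 ht
    exact Finset.mem_image.2 ⟨x i, hTb (Finset.mem_map_of_mem _ (Finset.mem_univ i)), hx i⟩
  have himg : b.image g = b := huniq _ ⟨hm, hTi⟩
  have hcard : (b \ Finset.univ.map x).card = 1 := by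
    rw [Finset.card_sdiff_of_subset hTb, hbc, hT]
  obtain ⟨a, ha⟩ := Finset.card_eq_one.1 hcard
  have hab : a ∈ b \ Finset.univ.map x := by
    rw [ha]
    exact Finset.mem_singleton_self a
  have hga : g a = a := by
    have h1 : g a ∈ b \ Finset.univ.map x := by
      refine Finset.mem_sdiff.2 ⟨?_, ?_⟩
      · rw [← himg]
        exact Finset.mem_image_of_mem g (Finset.mem_sdiff.1 hab).1
      · intro h
        obtain ⟨i, -, e⟩ := Finset.mem_map.1 h
        have e' : x i = g a := e
        rw [← hx i] at e'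
        have e'' := g.injective e'
        apply (Finset.mem_sdiff.1 hab).2
        rw [← e'']
        exact Finset.mem_map_of_mem _ (Finset.mem_univ i)
    rw [ha] at h1
    exact Finset.mem_singleton.1 h1
  apply fix_block hα hB hb hg
  intro p hp
  by_cases hpT : p ∈ Finset.univ.map x
  · obtain ⟨i, -, rfl⟩ := Finset.mem_map.1 hpT
    exact hx i
  · have h1 : p ∈ b \ Finset.univ.map x := Finset.mem_sdiff.2 ⟨hp, hpT⟩
    rw [ha] at h1
    rw [Finset.mem_singleton.1 h1]
    exact hga

end sys

/-- Aut of an S(5, 6, 12) is simple of order 95040 and sharply 5-transitive on points. -/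
theorem result {α : Type*} [Fintype α] [DecidableEq α] (hα : Fintype.card α = 12) {B : Set (Finset α)} (hB : Cfsg.IsSteinerSystem 5 6 B) : Cfsg.IsM12 (Cfsg.setSystemAut B) ∧ MulAction.IsMultiplyPretransitive (Cfsg.setSystemAut B) α 5 ∧ ∀ x : Fin 5 ↪ α, MulAction.stabilizer (Cfsg.setSystemAut B) x = ⊥ := by
  have htr : MulAction.IsMultiplyPretransitive (Cfsg.setSystemAut B) α 5 := by
    rw [MulAction.isMultiplyPretransitive_iff]
    intro x y
    obtain ⟨g, hg, hgx⟩ := trans5 hα hB x y
    refine ⟨⟨g, hg⟩, ?_⟩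
    apply Function.Embedding.ext
    intro i
    exact hgx i
  have hsharp : ∀ x : Fin 5 ↪ α, MulAction.stabilizer (Cfsg.setSystemAut B) x = ⊥ := by
    intro x
    rw [eq_bot_iff]
    intro g hg
    rw [MulAction.mem_stabilizer_iff] at hg
    rw [Subgroup.mem_bot]
    apply Subtype.ext
    apply sharp5 hα hB x g.2
    intro i
    exact congrArg (fun f : Fin 5 ↪ α => f i) hg
  exact ⟨Cfsg.Agent.S0419.result hα (Cfsg.setSystemAut B) hsharp, htr, hsharp⟩
end Cfsg.Agent.S0425
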