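import Cfsg.Statements.S0426
import Cfsg.Agent.S0411
import Cfsg.Agent.S0425
import Cfsg.Agent.S0418

set_option autoImplicit false
open Cfsg

namespace Cfsg.Agent.S0426

open Finset
open scoped Pointwise
open Cfsg.Agent.Lib.Helper4 Cfsg.Agent.Lib.Helper28 Cfsg.Agent.Lib.Helper28.Aut22
open Cfsg.Agent.S0410 Cfsg.Agent.Lib.Helper28.Plane4

section sys
variable {α : Type*} [Fintype α] [DecidableEq α]

theorem rn_aut {E : Set (Finset α)} {g : Equiv.Perm (Option α)}
    (hg : g ∈ setSystemAut (Cfsg.Agent.S0411.ext11 E)) (h0 : g none = none) :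
    Equiv.removeNone g ∈ setSystemAut E := by
  rw [mem_aut_iff]
  have h : (fun b : Finset α => b.image (Equiv.removeNone g)) ''
      der (Cfsg.Agent.S0411.ext11 E) = der (Cfsg.Agent.S0411.ext11 E) := by
    rw [← der_image, Cfsg.Agent.S0411.oc_rn g h0, mem_aut_iff.1 hg]
  rw [Cfsg.Agent.S0411.der_ext11] at h
  exact h

theorem img_compl (g : Equiv.Perm α) (b : Finset α) : (bᶜ).image g = (b.image g)ᶜ := by
  ext z
  rw [Cfsg.Agent.Lib.Helper28.Aff9.mem_img, Finset.mem_compl, Finset.mem_compl,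
    Cfsg.Agent.Lib.Helper28.Aff9.mem_img]

theorem oc_ext {E : Set (Finset α)} {g : Equiv.Perm α} (hg : ∀ b ∈ E, b.image g ∈ E)
    {c : Finset (Option α)} (hc : c ∈ Cfsg.Agent.S0411.ext11 E) :
    c.image (Equiv.optionCongr g) ∈ Cfsg.Agent.S0411.ext11 E := by
  rcases hc with ⟨b, hb, rfl⟩ | ⟨b, hb, rfl⟩
  · exact Or.inl ⟨b.image g, hg b hb, image_insertNone g b⟩
  · refine Or.inr ⟨b.image g, hg b hb, ?_⟩
    rw [image_map_some, img_compl]

theorem aut_img {E : Set (Finset α)} {g : Equiv.Perm α} (hg : g ∈ setSystemAut E)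
    {b : Finset α} (hb : b ∈ E) : b.image g ∈ E := by
  have h := mem_aut_iff.1 hg
  rw [← h]
  exact ⟨b, hb, rfl⟩

theorem oc_aut {E : Set (Finset α)} {g : Equiv.Perm α} (hg : g ∈ setSystemAut E) :
    Equiv.optionCongr g ∈ setSystemAut (Cfsg.Agent.S0411.ext11 E) := by
  apply AutPlane.mem_aut_of_forall
  · intro c hc
    exact oc_ext (fun b hb => aut_img hg hb) hc
  · intro c hc
    exact oc_ext (g := g⁻¹) (fun b hb => aut_img (inv_mem hg) hb) hc

theorem sharp4 (hα : Fintype.card α = 11) {E : Set (Finset α)} (hE : IsSteinerSystem 4 5 E)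
    (x : Fin 4 ↪ α) {g : Equiv.Perm α} (hg : g ∈ setSystemAut E) (hx : ∀ i, g (x i) = x i) :
    g = 1 := by
  have c12 : Fintype.card (Option α) = 12 := by rw [Fintype.card_option, hα]
  have h := Cfsg.Agent.S0425.sharp5 c12 (Cfsg.Agent.S0411.ext11_steiner hα hE)
    (Cfsg.Agent.S0413.ext5 x) (oc_aut hg) (by
      intro i
      refine Fin.cases ?_ ?_ i
      · rw [Cfsg.Agent.S0413.ext5_zero]
        rfl
      · intro j
        rw [Cfsg.Agent.S0413.ext5_succ]
        show some (g (x j)) = some (x j)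
        rw [hx j])
  apply Equiv.ext
  intro p
  have h1 : Equiv.optionCongr g (some p) = some p := by
    rw [h]
    rfl
  exact Option.some_injective _ h1

end sys

/-- Aut of an S(4, 5, 11) is simple of order 7920 and sharply 4-transitive on points. -/
theorem result {α : Type*} [Fintype α] [DecidableEq α] (hα : Fintype.card α = 11) {B : Set (Finset α)} (hB : Cfsg.IsSteinerSystem 4 5 B) : Cfsg.IsM11 (Cfsg.setSystemAut B) ∧ MulAction.IsMultiplyPretransitive (Cfsg.setSystemAut B) α 4 ∧ ∀ x : Fin 4 ↪ α, MulAction.stabilizer (Cfsg.setSystemAut B) x = ⊥ := by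
  have c12 : Fintype.card (Option α) = 12 := by rw [Fintype.card_option, hα]
  have hS := Cfsg.Agent.S0411.ext11_steiner hα hB
  have htr : MulAction.IsMultiplyPretransitive (Cfsg.setSystemAut B) α 4 := by
    rw [MulAction.isMultiplyPretransitive_iff]
    intro x y
    obtain ⟨g, hg, hgx⟩ := Cfsg.Agent.S0425.trans5 c12 hS
      (Cfsg.Agent.S0413.ext5 x) (Cfsg.Agent.S0413.ext5 y)
    have h0 : g none = none := by
      have h := hgx 0
      rw [Cfsg.Agent.S0413.ext5_zero, Cfsg.Agent.S0413.ext5_zero] at h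
      exact h
    have hs : ∀ i : Fin 4, g (some (x i)) = some (y i) := by
      intro i
      have h := hgx i.succ
      rw [Cfsg.Agent.S0413.ext5_succ, Cfsg.Agent.S0413.ext5_succ] at h
      exact h
    refine ⟨⟨Equiv.removeNone g, rn_aut hg h0⟩, ?_⟩
    apply Function.Embedding.ext
    intro i
    show Equiv.removeNone g (x i) = y i
    have h1 : some (Equiv.removeNone g (x i)) = some (y i) := by
      rw [← hs i]
      exact congrArg (fun f : Equiv.Perm (Option α) => f (some (x i)))
        (Cfsg.Agent.S0411.oc_rn g h0)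
    exact Option.some_injective _ h1
  have hsharp : ∀ x : Fin 4 ↪ α, MulAction.stabilizer (Cfsg.setSystemAut B) x = ⊥ := by
    intro x
    rw [eq_bot_iff]
    intro g hg
    rw [MulAction.mem_stabilizer_iff] at hg
    rw [Subgroup.mem_bot]
    apply Subtype.ext
    exact sharp4 hα hB x g.2 (fun i => congrArg (fun f : Fin 4 ↪ α => f i) hg)
  exact ⟨Cfsg.Agent.S0418.result hα (Cfsg.setSystemAut B) hsharp, htr, hsharp⟩
end Cfsg.Agent.S0426
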