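import Cfsg.Statements.S0427
import Cfsg.Agent.Lib.Helper4.Steiner22

set_option autoImplicit false
open Cfsg

namespace Cfsg.Agent.S0427

/-- The block graph (adjacent = disjoint) of an S(3, 6, 22) is strongly regular with parameters (77, 16, 0, 4). -/
theorem result {α : Type*} [Fintype α] (hα : Fintype.card α = 22) {B : Set (Finset α)} (hB : Cfsg.IsSteinerSystem 3 6 B) [Fintype B] [DecidableRel (Cfsg.blockGraph B).Adj] : (Cfsg.blockGraph B).IsSRGWith 77 16 0 4 := by
  refine ⟨?_, ?_, ?_, ?_⟩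
  · rw [← Nat.card_eq_fintype_card, Nat.card_coe_set_eq]
    exact Cfsg.Agent.Lib.Helper4.Steiner.s3622_card hα hB
  · intro v
    rw [← SimpleGraph.card_neighborSet_eq_degree, Cfsg.Agent.Lib.Helper4.Steiner.card_eq_ncard]
    exact Cfsg.Agent.Lib.Helper4.Steiner.blockGraph_neighbor hα hB v
  · intro v w hvw
    rw [Cfsg.Agent.Lib.Helper4.Steiner.card_eq_ncard]
    have h := (Cfsg.Agent.Lib.Helper4.Steiner.blockGraph_adj v w).1 hvw
    exact (Cfsg.Agent.Lib.Helper4.Steiner.blockGraph_common hα hB v w h.1).1 h.2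
  · intro v w hne hnadj
    rw [Cfsg.Agent.Lib.Helper4.Steiner.card_eq_ncard]
    exact (Cfsg.Agent.Lib.Helper4.Steiner.blockGraph_common hα hB v w hne).2
      (fun h => hnadj ((Cfsg.Agent.Lib.Helper4.Steiner.blockGraph_adj v w).2 ⟨hne, h⟩))

end Cfsg.Agent.S0427
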