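import Cfsg.Statements.S0428
import Cfsg.Agent.Lib.Helper4.SteinerPBG

set_option autoImplicit false
open Cfsg

namespace Cfsg.Agent.S0428

/-- The point-block graph of an S(3, 6, 22) is strongly regular with parameters (100, 22, 0, 6). -/
theorem result {α : Type*} [Fintype α] (hα : Fintype.card α = 22) {B : Set (Finset α)} (hB : Cfsg.IsSteinerSystem 3 6 B) [Fintype B] [DecidableRel (Cfsg.pointBlockGraph B).Adj] : (Cfsg.pointBlockGraph B).IsSRGWith 100 22 0 6 := by
  refine ⟨?_, ?_, ?_, ?_⟩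
  · rw [Fintype.card_option, Fintype.card_sum, hα, ← Nat.card_eq_fintype_card (α := B),
      Nat.card_coe_set_eq, Cfsg.Agent.Lib.Helper4.Steiner.s3622_card hα hB]
  · intro v
    rw [← SimpleGraph.card_neighborSet_eq_degree, Cfsg.Agent.Lib.Helper4.Steiner.card_eq_ncard]
    exact Cfsg.Agent.Lib.Helper4.Steiner.pbg_neighbor hα hB v
  · intro v w hvw
    rw [Cfsg.Agent.Lib.Helper4.Steiner.card_eq_ncard]
    exact (Cfsg.Agent.Lib.Helper4.Steiner.pbg_common hα hB v w hvw.ne).1 hvw
  · intro v w hne hnadj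
    rw [Cfsg.Agent.Lib.Helper4.Steiner.card_eq_ncard]
    exact (Cfsg.Agent.Lib.Helper4.Steiner.pbg_common hα hB v w hne).2 hnadj

end Cfsg.Agent.S0428
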