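import Cfsg.Statements.S0430
import Cfsg.Agent.S0410

set_option autoImplicit false
open Cfsg

namespace Cfsg.Agent.S0430

open Finset

section Basic

variable {V : Type*} [Fintype V] [DecidableEq V] {G : SimpleGraph V} [DecidableRel G.Adj]

theorem deg22 (hG : G.IsSRGWith 100 22 0 6) (x : V) : (G.neighborFinset x).card = 22 := by
  rw [SimpleGraph.card_neighborFinset_eq_degree]
  exact hG.regular x

theorem cn_card (x y : V) [Fintype (G.commonNeighbors x y)] :
    Fintype.card (G.commonNeighbors x y)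
      = (G.neighborFinset x ∩ G.neighborFinset y).card := by
  apply Fintype.card_of_subtype
  intro z
  rw [Finset.mem_inter, SimpleGraph.mem_neighborFinset, SimpleGraph.mem_neighborFinset,
    SimpleGraph.mem_commonNeighbors]

theorem lam0 (hG : G.IsSRGWith 100 22 0 6) {x y : V} (h : G.Adj x y) :
    G.neighborFinset x ∩ G.neighborFinset y = ∅ := by
  have h1 := hG.of_adj x y h
  rw [cn_card x y] at h1
  exact Finset.card_eq_zero.1 h1

theorem mu6 (hG : G.IsSRGWith 100 22 0 6) {x y : V} (hne : x ≠ y) (h : ¬G.Adj x y) :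
    (G.neighborFinset x ∩ G.neighborFinset y).card = 6 := by
  have h1 := hG.of_not_adj hne h
  rw [cn_card x y] at h1
  exact h1

/-- No two neighbours of a vertex are adjacent. -/
theorem nadj (hG : G.IsSRGWith 100 22 0 6) {z p p' : V} (hp : G.Adj z p) (hp' : G.Adj z p') :
    ¬G.Adj p p' := by
  intro h
  have h1 := lam0 hG hp
  have hm : p' ∈ G.neighborFinset z ∩ G.neighborFinset p :=
    Finset.mem_inter.2 ⟨(SimpleGraph.mem_neighborFinset _ _ _).2 hp',
      (SimpleGraph.mem_neighborFinset _ _ _).2 h⟩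
  rw [h1] at hm
  exact absurd hm (Finset.notMem_empty _)

/-- Two vertices, neither equal nor adjacent to a vertex `v` nor to each other, have exactly two
common neighbours among the neighbours of `v`. -/
theorem two_common (hG : G.IsSRGWith 100 22 0 6) {v u : V} (huv : u ≠ v) (hna : ¬G.Adj v u)
    {x : V} (hxv : x ≠ v) (hxP : ¬G.Adj v x) (hxu : x ≠ u) (hxN : ¬G.Adj u x) :
    (G.neighborFinset x ∩ (G.neighborFinset u ∩ G.neighborFinset v)).card = 2 := by
  have hb6 : (G.neighborFinset u ∩ G.neighborFinset v).card = 6 :=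
    mu6 hG huv (fun h => hna h.symm)
  generalize hb : G.neighborFinset u ∩ G.neighborFinset v = b at hb6 ⊢
  have hbu : ∀ p ∈ b, G.Adj u p := by
    intro p hp
    rw [← hb, Finset.mem_inter] at hp
    exact (SimpleGraph.mem_neighborFinset _ _ _).1 hp.1
  have hbv : ∀ p ∈ b, G.Adj v p := by
    intro p hp
    rw [← hb, Finset.mem_inter] at hp
    exact (SimpleGraph.mem_neighborFinset _ _ _).1 hp.2
  have i1 : ∀ y, (G.neighborFinset y ∩ b).card = ∑ p ∈ b, if G.Adj y p then 1 else 0 := by
    intro y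
    rw [← Finset.card_filter]
    congr 1
    ext p
    rw [Finset.mem_inter, Finset.mem_filter, SimpleGraph.mem_neighborFinset, and_comm]
  have i3 : ∀ p p', ∑ y, (if G.Adj y p then 1 else 0) * (if G.Adj y p' then 1 else 0)
      = (G.neighborFinset p ∩ G.neighborFinset p').card := by
    intro p p'
    have e1 : G.neighborFinset p ∩ G.neighborFinset p'
        = univ.filter (fun y => G.Adj y p ∧ G.Adj y p') := by
      ext y
      rw [Finset.mem_inter, SimpleGraph.mem_neighborFinset, SimpleGraph.mem_neighborFinset,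
        Finset.mem_filter]
      constructor
      · rintro ⟨h1, h2⟩
        exact ⟨Finset.mem_univ _, h1.symm, h2.symm⟩
      · rintro ⟨-, h1, h2⟩
        exact ⟨h1.symm, h2.symm⟩
    rw [e1, Finset.card_filter]
    apply Finset.sum_congr rfl
    intro y _
    by_cases h1 : G.Adj y p <;> by_cases h2 : G.Adj y p' <;> simp [h1, h2]
  have i2 : ∀ p, ∑ y, (if G.Adj y p then 1 else 0) = 22 := by
    intro p
    have h := i3 p p
    rw [Finset.inter_self, deg22 hG] at h
    rw [← h]
    apply Finset.sum_congr rfl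
    intro y _
    by_cases h1 : G.Adj y p <;> simp [h1]
  have S1 : ∑ y, (G.neighborFinset y ∩ b).card = 132 := by
    rw [Finset.sum_congr rfl (fun y _ => i1 y), Finset.sum_comm,
      Finset.sum_congr rfl (fun p _ => i2 p), Finset.sum_const, hb6]
    rfl
  have inner : ∀ p ∈ b, ∑ p' ∈ b, (G.neighborFinset p ∩ G.neighborFinset p').card = 52 := by
    intro p hp
    rw [← Finset.add_sum_erase b _ hp, Finset.inter_self, deg22 hG]
    have h5 : ∀ p' ∈ b.erase p, (G.neighborFinset p ∩ G.neighborFinset p').card = 6 := by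
      intro p' hp'
      rw [Finset.mem_erase] at hp'
      exact mu6 hG (Ne.symm hp'.1) (nadj hG (hbv p hp) (hbv p' hp'.2))
    rw [Finset.sum_congr rfl h5, Finset.sum_const, Finset.card_erase_of_mem hp, hb6]
    rfl
  have S2 : ∑ y, (G.neighborFinset y ∩ b).card * (G.neighborFinset y ∩ b).card = 312 := by
    have e1 : ∀ y, (G.neighborFinset y ∩ b).card * (G.neighborFinset y ∩ b).card
        = ∑ p ∈ b, ∑ p' ∈ b, (if G.Adj y p then 1 else 0) * (if G.Adj y p' then 1 else 0) := by
      intro y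
      rw [i1 y, Finset.sum_mul_sum]
    rw [Finset.sum_congr rfl (fun y _ => e1 y), Finset.sum_comm]
    have e2 : ∀ p ∈ b, ∑ y, ∑ p' ∈ b,
        (if G.Adj y p then 1 else 0) * (if G.Adj y p' then 1 else 0) = 52 := by
      intro p hp
      rw [Finset.sum_comm, Finset.sum_congr rfl (fun p' _ => i3 p p')]
      exact inner p hp
    rw [Finset.sum_congr rfl e2, Finset.sum_const, hb6]
    rfl
  have c0 : ∀ z, (∀ p ∈ b, G.Adj z p) → ∀ y, G.Adj z y → (G.neighborFinset y ∩ b).card = 0 := by
    intro z hz y hy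
    rw [Finset.card_eq_zero, Finset.eq_empty_iff_forall_notMem]
    intro p hp
    rw [Finset.mem_inter, SimpleGraph.mem_neighborFinset] at hp
    exact nadj hG hy (hz p hp.2) hp.1
  have c6 : ∀ z, (∀ p ∈ b, G.Adj z p) → (G.neighborFinset z ∩ b).card = 6 := by
    intro z hz
    rw [Finset.inter_eq_right.2 (fun p hp => (SimpleGraph.mem_neighborFinset _ _ _).2 (hz p hp)),
      hb6]
  have hvA : v ∉ insert u (G.neighborFinset v ∪ (G.neighborFinset u \ G.neighborFinset v)) := by
    rw [Finset.mem_insert, Finset.mem_union, Finset.mem_sdiff, SimpleGraph.mem_neighborFinset,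
      SimpleGraph.mem_neighborFinset]
    rintro (h | h | h)
    · exact huv h.symm
    · exact G.loopless.irrefl v h
    · exact hna h.1.symm
  have huA : u ∉ G.neighborFinset v ∪ (G.neighborFinset u \ G.neighborFinset v) := by
    rw [Finset.mem_union, Finset.mem_sdiff, SimpleGraph.mem_neighborFinset,
      SimpleGraph.mem_neighborFinset]
    rintro (h | h)
    · exact hna h
    · exact G.loopless.irrefl u h.1
  have h16 : (G.neighborFinset u \ G.neighborFinset v).card = 16 := by
    have h := Finset.card_sdiff_add_card_inter (G.neighborFinset u) (G.neighborFinset v)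
    rw [hb, hb6, deg22 hG] at h
    omega
  have SA : ∑ y ∈ insert v (insert u (G.neighborFinset v ∪
      (G.neighborFinset u \ G.neighborFinset v))),
      (((G.neighborFinset y ∩ b).card : ℤ) - 2) ^ 2 = 184 := by
    rw [Finset.sum_insert hvA, Finset.sum_insert huA,
      Finset.sum_union Finset.disjoint_sdiff, c6 v hbv, c6 u hbu]
    have e1 : ∀ y ∈ G.neighborFinset v, (((G.neighborFinset y ∩ b).card : ℤ) - 2) ^ 2 = 4 := by
      intro y hy
      rw [c0 v hbv y ((SimpleGraph.mem_neighborFinset _ _ _).1 hy)]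
      norm_num
    have e2 : ∀ y ∈ G.neighborFinset u \ G.neighborFinset v,
        (((G.neighborFinset y ∩ b).card : ℤ) - 2) ^ 2 = 4 := by
      intro y hy
      rw [c0 u hbu y ((SimpleGraph.mem_neighborFinset _ _ _).1 (Finset.mem_sdiff.1 hy).1)]
      norm_num
    rw [Finset.sum_congr rfl e1, Finset.sum_congr rfl e2, Finset.sum_const, Finset.sum_const,
      deg22 hG, h16]
    norm_num
  have ST : ∑ y, (((G.neighborFinset y ∩ b).card : ℤ) - 2) ^ 2 = 184 := by
    have e1 : ∀ y, (((G.neighborFinset y ∩ b).card : ℤ) - 2) ^ 2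
        = (((G.neighborFinset y ∩ b).card * (G.neighborFinset y ∩ b).card : ℕ) : ℤ)
          - 4 * ((G.neighborFinset y ∩ b).card : ℤ) + 4 := by
      intro y
      push_cast
      ring
    rw [Finset.sum_congr rfl (fun y _ => e1 y), Finset.sum_add_distrib, Finset.sum_sub_distrib,
      ← Finset.mul_sum, ← Nat.cast_sum, ← Nat.cast_sum, S1, S2, Finset.sum_const,
      Finset.card_univ, hG.card]
    norm_num
  have hsd := Finset.sum_sdiff (Finset.subset_univ (insert v (insert u (G.neighborFinset v ∪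
      (G.neighborFinset u \ G.neighborFinset v)))))
    (f := fun y => (((G.neighborFinset y ∩ b).card : ℤ) - 2) ^ 2)
  rw [SA, ST] at hsd
  have hz : ∑ y ∈ univ \ insert v (insert u (G.neighborFinset v ∪
      (G.neighborFinset u \ G.neighborFinset v))),
      (((G.neighborFinset y ∩ b).card : ℤ) - 2) ^ 2 = 0 := by
    linarith
  have hx : x ∈ univ \ insert v (insert u (G.neighborFinset v ∪
      (G.neighborFinset u \ G.neighborFinset v))) := by
    rw [Finset.mem_sdiff, Finset.mem_insert, Finset.mem_insert, Finset.mem_union,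
      Finset.mem_sdiff, SimpleGraph.mem_neighborFinset, SimpleGraph.mem_neighborFinset]
    refine ⟨Finset.mem_univ _, ?_⟩
    rintro (h | h | h | h)
    · exact hxv h
    · exact hxu h
    · exact hxP h
    · exact hxN h.1
  have h0 := (Finset.sum_eq_zero_iff_of_nonneg (fun y _ => sq_nonneg _)).1 hz x hx
  have h1 : ((G.neighborFinset x ∩ b).card : ℤ) - 2 = 0 := by
    exact pow_eq_zero_iff (by norm_num) |>.1 h0
  omega

end Basic

section Local

variable {V : Type*} [Fintype V] [DecidableEq V] {G : SimpleGraph V} [DecidableRel G.Adj]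

/-- The traces of two far vertices on the neighbourhood of `v` share at most two points. -/
theorem tr_inter (hG : G.IsSRGWith 100 22 0 6) {v u u' : V} (hu : u ≠ v ∧ ¬G.Adj v u)
    (hu' : u' ≠ v ∧ ¬G.Adj v u') (hne : u ≠ u') :
    ((G.neighborFinset u ∩ G.neighborFinset v) ∩
      (G.neighborFinset u' ∩ G.neighborFinset v)).card ≤ 2 := by
  by_cases ha : G.Adj u u'
  · have h0 := lam0 hG ha
    have hsub : (G.neighborFinset u ∩ G.neighborFinset v) ∩
        (G.neighborFinset u' ∩ G.neighborFinset v) ⊆ G.neighborFinset u ∩ G.neighborFinset u' := by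
      intro z hz
      rw [Finset.mem_inter, Finset.mem_inter, Finset.mem_inter] at hz
      exact Finset.mem_inter.2 ⟨hz.1.1, hz.2.1⟩
    rw [h0, Finset.subset_empty] at hsub
    rw [hsub, Finset.card_empty]
    norm_num
  · have h2 := two_common hG hu.1 hu.2 hu'.1 hu'.2 (Ne.symm hne) ha
    rw [← h2]
    apply Finset.card_le_card
    intro z hz
    rw [Finset.mem_inter, Finset.mem_inter, Finset.mem_inter] at hz
    exact Finset.mem_inter.2 ⟨hz.2.1, Finset.mem_inter.2 hz.1⟩

/-- A far vertex is determined by its trace. -/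
theorem far_inj (hG : G.IsSRGWith 100 22 0 6) {v u u' : V} (hu : u ≠ v ∧ ¬G.Adj v u)
    (hu' : u' ≠ v ∧ ¬G.Adj v u') (h : ∀ p, G.Adj v p → (G.Adj u p ↔ G.Adj u' p)) : u = u' := by
  by_contra hne
  have h1 := tr_inter hG hu hu' hne
  have e : G.neighborFinset u' ∩ G.neighborFinset v = G.neighborFinset u ∩ G.neighborFinset v := by
    ext p
    rw [Finset.mem_inter, Finset.mem_inter, SimpleGraph.mem_neighborFinset,
      SimpleGraph.mem_neighborFinset, SimpleGraph.mem_neighborFinset]
    constructor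
    · rintro ⟨a, b⟩
      exact ⟨(h p b).2 a, b⟩
    · rintro ⟨a, b⟩
      exact ⟨(h p b).1 a, b⟩
  rw [e, Finset.inter_self, mu6 hG hu.1 (fun h => hu.2 h.symm)] at h1
  omega

/-- Adjacency of far vertices in terms of their traces. -/
theorem far_adj (hG : G.IsSRGWith 100 22 0 6) {v u u' : V} (hu : u ≠ v ∧ ¬G.Adj v u)
    (hu' : u' ≠ v ∧ ¬G.Adj v u') :
    G.Adj u u' ↔ ∀ p, G.Adj v p → ¬(G.Adj u p ∧ G.Adj u' p) := by
  constructor
  · intro ha p _ hp
    have h0 := lam0 hG ha
    have hm : p ∈ G.neighborFinset u ∩ G.neighborFinset u' :=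
      Finset.mem_inter.2 ⟨(SimpleGraph.mem_neighborFinset _ _ _).2 hp.1,
        (SimpleGraph.mem_neighborFinset _ _ _).2 hp.2⟩
    rw [h0] at hm
    exact absurd hm (Finset.notMem_empty _)
  · intro h
    by_contra ha
    by_cases hne : u = u'
    · have h6 := mu6 hG hu.1 (fun h => hu.2 h.symm)
      have hn : (G.neighborFinset u ∩ G.neighborFinset v).Nonempty := by
        rw [← Finset.card_pos, h6]
        norm_num
      obtain ⟨p, hp⟩ := hn
      rw [Finset.mem_inter, SimpleGraph.mem_neighborFinset, SimpleGraph.mem_neighborFinset] at hp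
      exact h p hp.2 ⟨hp.1, hne ▸ hp.1⟩
    · have h2 := two_common hG hu.1 hu.2 hu'.1 hu'.2 (Ne.symm hne) ha
      have hn : (G.neighborFinset u' ∩ (G.neighborFinset u ∩ G.neighborFinset v)).Nonempty := by
        rw [← Finset.card_pos, h2]
        norm_num
      obtain ⟨p, hp⟩ := hn
      rw [Finset.mem_inter, Finset.mem_inter, SimpleGraph.mem_neighborFinset,
        SimpleGraph.mem_neighborFinset, SimpleGraph.mem_neighborFinset] at hp
      exact h p hp.2.2 ⟨hp.2.1, hp.1⟩

/-- Every triple of neighbours of `v` lies in the trace of a far vertex. -/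
theorem tr_cover (hG : G.IsSRGWith 100 22 0 6) (v : V) {T : Finset V}
    (hT : T ⊆ G.neighborFinset v) (hT3 : T.card = 3) :
    ∃ u, (u ≠ v ∧ ¬G.Adj v u) ∧ T ⊆ G.neighborFinset u ∩ G.neighborFinset v := by
  have hU : (univ.filter (fun u => u ≠ v ∧ ¬G.Adj v u)).card = 77 := by
    have e : univ.filter (fun u => u ≠ v ∧ ¬G.Adj v u) = univ \ insert v (G.neighborFinset v) := by
      ext u
      rw [Finset.mem_filter, Finset.mem_sdiff, Finset.mem_insert, SimpleGraph.mem_neighborFinset,
        not_or]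
    have hv : v ∉ G.neighborFinset v := by
      rw [SimpleGraph.mem_neighborFinset]
      exact G.loopless.irrefl v
    rw [e, Finset.card_sdiff_of_subset (Finset.subset_univ _), Finset.card_univ, hG.card,
      Finset.card_insert_of_notMem hv, deg22 hG]
  have hdisj : ∀ u ∈ univ.filter (fun u => u ≠ v ∧ ¬G.Adj v u),
      ∀ u' ∈ univ.filter (fun u => u ≠ v ∧ ¬G.Adj v u), u ≠ u' →
      Disjoint (Finset.powersetCard 3 (G.neighborFinset u ∩ G.neighborFinset v))
        (Finset.powersetCard 3 (G.neighborFinset u' ∩ G.neighborFinset v)) := by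
    intro u hu u' hu' hne
    rw [Finset.disjoint_left]
    intro S hS hS'
    rw [Finset.mem_powersetCard] at hS hS'
    have h1 := tr_inter hG (Finset.mem_filter.1 hu).2 (Finset.mem_filter.1 hu').2 hne
    have h2 := Finset.card_le_card (Finset.subset_inter hS.1 hS'.1)
    rw [hS.2] at h2
    omega
  have hcard : ((univ.filter (fun u => u ≠ v ∧ ¬G.Adj v u)).biUnion
      (fun u => Finset.powersetCard 3 (G.neighborFinset u ∩ G.neighborFinset v))).card = 1540 := by
    rw [Finset.card_biUnion hdisj]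
    have h20 : ∀ u ∈ univ.filter (fun u => u ≠ v ∧ ¬G.Adj v u),
        (Finset.powersetCard 3 (G.neighborFinset u ∩ G.neighborFinset v)).card = 20 := by
      intro u hu
      rw [Finset.card_powersetCard, mu6 hG (Finset.mem_filter.1 hu).2.1
        (fun h => (Finset.mem_filter.1 hu).2.2 h.symm)]
      rfl
    rw [Finset.sum_congr rfl h20, Finset.sum_const, hU]
    rfl
  have hsub : (univ.filter (fun u => u ≠ v ∧ ¬G.Adj v u)).biUnion
      (fun u => Finset.powersetCard 3 (G.neighborFinset u ∩ G.neighborFinset v))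
      ⊆ Finset.powersetCard 3 (G.neighborFinset v) := by
    intro S hS
    obtain ⟨u, -, hS'⟩ := Finset.mem_biUnion.1 hS
    rw [Finset.mem_powersetCard] at hS' ⊢
    exact ⟨hS'.1.trans Finset.inter_subset_right, hS'.2⟩
  have heq := Finset.eq_of_subset_of_card_le hsub (by
    rw [hcard, Finset.card_powersetCard, deg22 hG]
    decide)
  have hm : T ∈ Finset.powersetCard 3 (G.neighborFinset v) :=
    Finset.mem_powersetCard.2 ⟨hT, hT3⟩
  rw [← heq] at hm
  obtain ⟨u, hu, hS'⟩ := Finset.mem_biUnion.1 hm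
  exact ⟨u, (Finset.mem_filter.1 hu).2, (Finset.mem_powersetCard.1 hS').1⟩

/-- The local system at a vertex: the traces of the far vertices on its neighbourhood. -/
def Loc (G : SimpleGraph V) [DecidableRel G.Adj] (v : V) :
    Set (Finset {p // p ∈ G.neighborFinset v}) :=
  {s | ∃ u, (u ≠ v ∧ ¬G.Adj v u) ∧ ∀ p : {p // p ∈ G.neighborFinset v}, p ∈ s ↔ G.Adj u p.1}

theorem loc_map {v u : V} {s : Finset {p // p ∈ G.neighborFinset v}}
    (hs : ∀ p : {p // p ∈ G.neighborFinset v}, p ∈ s ↔ G.Adj u p.1) :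
    s.map (Function.Embedding.subtype _) = G.neighborFinset u ∩ G.neighborFinset v := by
  ext z
  rw [Finset.mem_map, Finset.mem_inter, SimpleGraph.mem_neighborFinset]
  constructor
  · rintro ⟨p, hp, rfl⟩
    exact ⟨(hs p).1 hp, p.2⟩
  · rintro ⟨h1, h2⟩
    exact ⟨⟨z, h2⟩, (hs ⟨z, h2⟩).2 h1, rfl⟩

theorem loc_steiner (hG : G.IsSRGWith 100 22 0 6) (v : V) : IsSteinerSystem 3 6 (Loc G v) := by
  constructor
  · rintro s ⟨u, hu, hs⟩
    rw [← Finset.card_map (Function.Embedding.subtype _), loc_map hs]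
    exact mu6 hG hu.1 (fun h => hu.2 h.symm)
  · intro T hT3
    have hTm : T.map (Function.Embedding.subtype _) ⊆ G.neighborFinset v := by
      intro z hz
      obtain ⟨p, -, rfl⟩ := Finset.mem_map.1 hz
      exact p.2
    obtain ⟨u, hu, hTu⟩ := tr_cover hG v hTm (by rw [Finset.card_map, hT3])
    have hmem : ∀ p : {p // p ∈ G.neighborFinset v},
        p ∈ univ.filter (fun p : {p // p ∈ G.neighborFinset v} => G.Adj u p.1) ↔ G.Adj u p.1 := by
      intro p
      rw [Finset.mem_filter]
      exact ⟨fun h => h.2, fun h => ⟨Finset.mem_univ _, h⟩⟩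
    refine ⟨univ.filter (fun p : {p // p ∈ G.neighborFinset v} => G.Adj u p.1),
      ⟨⟨u, hu, hmem⟩, ?_⟩, ?_⟩
    · intro p hp
      rw [hmem]
      have h1 := hTu (Finset.mem_map_of_mem _ hp)
      rw [Finset.mem_inter, SimpleGraph.mem_neighborFinset] at h1
      exact h1.1
    · rintro s' ⟨⟨u', hu', hs'⟩, hTs'⟩
      have huu : u' = u := by
        by_contra hne
        have h1 := tr_inter hG hu' hu hne
        have hsub : T.map (Function.Embedding.subtype _) ⊆
            (G.neighborFinset u' ∩ G.neighborFinset v) ∩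
              (G.neighborFinset u ∩ G.neighborFinset v) := by
          apply Finset.subset_inter _ hTu
          rw [← loc_map hs']
          exact Finset.map_subset_map.2 hTs'
        have h2 := Finset.card_le_card hsub
        rw [Finset.card_map, hT3] at h2
        omega
      ext p
      rw [hs', hmem, huu]

theorem card_nb (hG : G.IsSRGWith 100 22 0 6) (v : V) :
    Fintype.card {p // p ∈ G.neighborFinset v} = 22 := by
  rw [Fintype.card_coe, deg22 hG]

end Local

section Iso

variable {V W : Type*} [Fintype V] [DecidableEq V] [Fintype W] [DecidableEq W]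
  {G : SimpleGraph V} {H : SimpleGraph W} [DecidableRel G.Adj] [DecidableRel H.Adj]

/-- The correspondence between the vertices of two graphs induced by a bijection between the
neighbourhoods of two vertices. -/
def Rl (G : SimpleGraph V) (H : SimpleGraph W) [DecidableRel G.Adj] [DecidableRel H.Adj]
    (v : V) (w : W) (e : {p // p ∈ G.neighborFinset v} ≃ {q // q ∈ H.neighborFinset w})
    (x : V) (y : W) : Prop :=
  (x = v ∧ y = w) ∨ (∃ hx : x ∈ G.neighborFinset v, y = (e ⟨x, hx⟩).1) ∨
    ((x ≠ v ∧ ¬G.Adj v x) ∧ (y ≠ w ∧ ¬H.Adj w y) ∧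
      ∀ p : {p // p ∈ G.neighborFinset v}, H.Adj y (e p).1 ↔ G.Adj x p.1)

theorem rl_exists (v : V) (w : W)
    (e : {p // p ∈ G.neighborFinset v} ≃ {q // q ∈ H.neighborFinset w})
    (he : (fun b : Finset {p // p ∈ G.neighborFinset v} => b.image e) '' Loc G v = Loc H w)
    (x : V) : ∃ y, Rl G H v w e x y := by
  by_cases hxv : x = v
  · exact ⟨w, Or.inl ⟨hxv, rfl⟩⟩
  by_cases hx : x ∈ G.neighborFinset v
  · exact ⟨(e ⟨x, hx⟩).1, Or.inr (Or.inl ⟨hx, rfl⟩)⟩
  have hfar : x ≠ v ∧ ¬G.Adj v x :=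
    ⟨hxv, fun h => hx ((SimpleGraph.mem_neighborFinset _ _ _).2 h)⟩
  have hmem : ∀ p : {p // p ∈ G.neighborFinset v},
      p ∈ univ.filter (fun p : {p // p ∈ G.neighborFinset v} => G.Adj x p.1) ↔ G.Adj x p.1 := by
    intro p
    rw [Finset.mem_filter]
    exact ⟨fun h => h.2, fun h => ⟨Finset.mem_univ _, h⟩⟩
  have hs : univ.filter (fun p : {p // p ∈ G.neighborFinset v} => G.Adj x p.1) ∈ Loc G v :=
    ⟨x, hfar, hmem⟩
  have hs' : (univ.filter (fun p : {p // p ∈ G.neighborFinset v} => G.Adj x p.1)).image e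
      ∈ Loc H w := by
    rw [← he]
    exact ⟨_, hs, rfl⟩
  obtain ⟨y, hy, hys⟩ := hs'
  refine ⟨y, Or.inr (Or.inr ⟨hfar, hy, ?_⟩)⟩
  intro p
  rw [← hys, ← hmem p]
  constructor
  · intro h
    obtain ⟨p', hp', e'⟩ := Finset.mem_image.1 h
    rw [← e.injective e']
    exact hp'
  · intro h
    exact Finset.mem_image_of_mem _ h

theorem rl_adj (hG : G.IsSRGWith 100 22 0 6) (hH : H.IsSRGWith 100 22 0 6) (v : V) (w : W)
    (e : {p // p ∈ G.neighborFinset v} ≃ {q // q ∈ H.neighborFinset w})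
    {x x' : V} {y y' : W} (h : Rl G H v w e x y) (h' : Rl G H v w e x' y') :
    G.Adj x x' ↔ H.Adj y y' := by
  have mem : ∀ p : {p // p ∈ G.neighborFinset v}, G.Adj v p.1 := fun p =>
    (SimpleGraph.mem_neighborFinset _ _ _).1 p.2
  have mem' : ∀ q : {q // q ∈ H.neighborFinset w}, H.Adj w q.1 := fun q =>
    (SimpleGraph.mem_neighborFinset _ _ _).1 q.2
  rcases h with ⟨rfl, rfl⟩ | ⟨hx, rfl⟩ | ⟨hf, hf', hc⟩
  · rcases h' with ⟨rfl, rfl⟩ | ⟨hx', rfl⟩ | ⟨hf2, hf2', hc2⟩
    · exact ⟨fun h => absurd h (G.loopless.irrefl _), fun h => absurd h (H.loopless.irrefl _)⟩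
    · exact ⟨fun _ => mem' _, fun _ => mem ⟨x', hx'⟩⟩
    · exact ⟨fun h => absurd h hf2.2, fun h => absurd h hf2'.2⟩
  · rcases h' with ⟨rfl, rfl⟩ | ⟨hx', rfl⟩ | ⟨hf2, hf2', hc2⟩
    · exact ⟨fun _ => (mem' _).symm, fun _ => (mem ⟨x, hx⟩).symm⟩
    · exact ⟨fun h => absurd h (nadj hG (mem ⟨x, hx⟩) (mem ⟨x', hx'⟩)),
        fun h => absurd h (nadj hH (mem' _) (mem' _))⟩
    · have h1 := hc2 ⟨x, hx⟩
      exact ⟨fun h => (h1.2 h.symm).symm, fun h => (h1.1 h.symm).symm⟩
  · rcases h' with ⟨rfl, rfl⟩ | ⟨hx', rfl⟩ | ⟨hf2, hf2', hc2⟩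
    · exact ⟨fun h => absurd h.symm hf.2, fun h => absurd h.symm hf'.2⟩
    · exact (hc ⟨x', hx'⟩).symm
    · rw [far_adj hG hf hf2, far_adj hH hf' hf2']
      constructor
      · intro h q hq hqq
        have hq' : q ∈ H.neighborFinset w := (SimpleGraph.mem_neighborFinset _ _ _).2 hq
        have e1 : (e (e.symm ⟨q, hq'⟩)).1 = q := by rw [Equiv.apply_symm_apply]
        have a1 := hc (e.symm ⟨q, hq'⟩)
        have a2 := hc2 (e.symm ⟨q, hq'⟩)
        rw [e1] at a1 a2
        exact h _ (mem (e.symm ⟨q, hq'⟩)) ⟨a1.1 hqq.1, a2.1 hqq.2⟩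
      · intro h p hp hpp
        have hp' : p ∈ G.neighborFinset v := (SimpleGraph.mem_neighborFinset _ _ _).2 hp
        exact h _ (mem' (e ⟨p, hp'⟩)) ⟨(hc ⟨p, hp'⟩).2 hpp.1, (hc2 ⟨p, hp'⟩).2 hpp.2⟩

theorem rl_inj (hG : G.IsSRGWith 100 22 0 6) (v : V) (w : W)
    (e : {p // p ∈ G.neighborFinset v} ≃ {q // q ∈ H.neighborFinset w})
    {x x' : V} {y : W} (h : Rl G H v w e x y) (h' : Rl G H v w e x' y) : x = x' := by
  have mem' : ∀ q : {q // q ∈ H.neighborFinset w}, H.Adj w q.1 := fun q =>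
    (SimpleGraph.mem_neighborFinset _ _ _).1 q.2
  rcases h with ⟨rfl, rfl⟩ | ⟨hx, rfl⟩ | ⟨hf, hf', hc⟩
  · rcases h' with ⟨rfl, -⟩ | ⟨hx', e2⟩ | ⟨hf2, hf2', hc2⟩
    · rfl
    · have h1 := mem' (e ⟨x', hx'⟩)
      rw [← e2] at h1
      exact absurd h1 (H.loopless.irrefl _)
    · exact absurd rfl hf2'.1
  · rcases h' with ⟨rfl, e2⟩ | ⟨hx', e2⟩ | ⟨hf2, hf2', hc2⟩
    · have h1 := mem' (e ⟨x, hx⟩)
      rw [e2] at h1
      exact absurd h1 (H.loopless.irrefl _)
    · have h1 := e.injective (Subtype.ext e2)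
      exact congrArg Subtype.val h1
    · exact absurd (mem' (e ⟨x, hx⟩)) hf2'.2
  · rcases h' with ⟨rfl, rfl⟩ | ⟨hx', rfl⟩ | ⟨hf2, hf2', hc2⟩
    · exact absurd rfl hf'.1
    · exact absurd (mem' (e ⟨x', hx'⟩)) hf'.2
    · apply far_inj hG hf hf2
      intro p hp
      have hp' : p ∈ G.neighborFinset v := (SimpleGraph.mem_neighborFinset _ _ _).2 hp
      rw [← hc ⟨p, hp'⟩, ← hc2 ⟨p, hp'⟩]

/-- Two graphs with the parameters in question are isomorphic, by an isomorphism matching two
given vertices. -/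
theorem iso_pt (hG : G.IsSRGWith 100 22 0 6) (hH : H.IsSRGWith 100 22 0 6) (v : V) (w : W) :
    ∃ φ : G ≃g H, φ v = w := by
  have hiso := Cfsg.Agent.S0410.result (card_nb hG v) (card_nb hH w) (loc_steiner hG v)
    (loc_steiner hH w)
  obtain ⟨e, he⟩ : ∃ e : {p // p ∈ G.neighborFinset v} ≃ {q // q ∈ H.neighborFinset w},
    (fun b : Finset {p // p ∈ G.neighborFinset v} => b.image e) '' Loc G v = Loc H w := hiso
  have hR := rl_exists v w e he
  choose f hf using hR
  have hinj : Function.Injective f := by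
    intro a b hab
    have h1 := hf a
    rw [hab] at h1
    exact rl_inj hG v w e h1 (hf b)
  have hbij : Function.Bijective f :=
    (Fintype.bijective_iff_injective_and_card f).2 ⟨hinj, by rw [hG.card, hH.card]⟩
  refine ⟨⟨Equiv.ofBijective f hbij, ?_⟩, ?_⟩
  · intro a b
    exact (rl_adj hG hH v w e (hf a) (hf b)).symm
  · have h1 := hf v
    rcases h1 with ⟨-, h2⟩ | ⟨hx, -⟩ | ⟨hf1, -, -⟩
    · exact h2
    · exact absurd ((SimpleGraph.mem_neighborFinset _ _ _).1 hx) (G.loopless.irrefl _)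
    · exact absurd rfl hf1.1

end Iso

/-- Uniqueness of the strongly regular graph with parameters (100, 22, 0, 6). -/
theorem result {V W : Type*} [Fintype V] [Fintype W] {G : SimpleGraph V} {H : SimpleGraph W} [DecidableRel G.Adj] [DecidableRel H.Adj] (hG : G.IsSRGWith 100 22 0 6) (hH : H.IsSRGWith 100 22 0 6) : Nonempty (G ≃g H) := by
  classical
  have hV : Nonempty V := Fintype.card_pos_iff.1 (by rw [hG.card]; norm_num)
  have hW : Nonempty W := Fintype.card_pos_iff.1 (by rw [hH.card]; norm_num)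
  obtain ⟨v⟩ := hV
  obtain ⟨w⟩ := hW
  obtain ⟨φ, -⟩ := iso_pt hG hH v w
  exact ⟨φ⟩
end Cfsg.Agent.S0430
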