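import Cfsg.Statements.S1586
import Cfsg.Agent.S0430
import Cfsg.Agent.S0428
import Cfsg.Agent.Lib.Helper28.Aut22
import Cfsg.Agent.Lib.Helper28.AutPlane

set_option autoImplicit false
open Cfsg

namespace Cfsg.Agent.S1586

open Finset
open scoped Pointwise
open Cfsg.Agent.Lib.Helper4 Cfsg.Agent.Lib.Helper4.Steiner Cfsg.Agent.Lib.Helper28
open Cfsg.Agent.Lib.Helper28.Aut22

section Aux

variable {α : Type*} [Fintype α] [DecidableEq α] {B : Set (Finset α)}

/-- The action of an automorphism of the system on the blocks. -/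
def blockPerm (g : ↥(setSystemAut B)) : ↥B ≃ ↥B where
  toFun b := ⟨g.1 • b.1, AutPlane.aut_smul_mem g.2 b.2⟩
  invFun b := ⟨g.1⁻¹ • b.1, AutPlane.aut_smul_mem ((setSystemAut B).inv_mem g.2) b.2⟩
  left_inv b := Subtype.ext (inv_smul_smul g.1 b.1)
  right_inv b := Subtype.ext (smul_inv_smul g.1 b.1)

/-- The automorphism of the graph induced by an automorphism of the system. -/
def toGraph (g : ↥(setSystemAut B)) : pointBlockGraph B ≃g pointBlockGraph B where
  toEquiv := Equiv.optionCongr (Equiv.sumCongr g.1 (blockPerm g))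
  map_rel_iff' := by
    intro x y
    rcases x with _ | p | b <;> rcases y with _ | q | c
    · exact ⟨fun h => absurd h (pbg_nn B), fun h => absurd h (pbg_nn B)⟩
    · exact ⟨fun _ => pbg_np B q, fun _ => pbg_np B _⟩
    · exact ⟨fun h => absurd h (pbg_nb B _), fun h => absurd h (pbg_nb B c)⟩
    · exact ⟨fun _ => pbg_pn B p, fun _ => pbg_pn B _⟩
    · exact ⟨fun h => absurd h (pbg_pp B _ _), fun h => absurd h (pbg_pp B p q)⟩
    · show (pointBlockGraph B).Adj (some (Sum.inl (g.1 p))) (some (Sum.inr (blockPerm g c))) ↔ _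
      rw [pbg_pb, pbg_pb]
      exact Finset.smul_mem_smul_finset_iff g.1
    · exact ⟨fun h => absurd h (pbg_bn B _), fun h => absurd h (pbg_bn B b)⟩
    · show (pointBlockGraph B).Adj (some (Sum.inr (blockPerm g b))) (some (Sum.inl (g.1 q))) ↔ _
      rw [pbg_bp, pbg_bp]
      exact Finset.smul_mem_smul_finset_iff g.1
    · show (pointBlockGraph B).Adj (some (Sum.inr (blockPerm g b)))
        (some (Sum.inr (blockPerm g c))) ↔ _
      rw [pbg_bb, pbg_bb, (blockPerm g).injective.ne_iff]
      have hd : Disjoint (g.1 • b.1) (g.1 • c.1) ↔ Disjoint b.1 c.1 :=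
        Finset.disjoint_image (MulAction.injective g.1)
      exact and_congr Iff.rfl hd

theorem pt_image (φ : pointBlockGraph B ≃g pointBlockGraph B) (h0 : φ none = none) (p : α) :
    ∃ q, φ (some (Sum.inl p)) = some (Sum.inl q) := by
  have h1 : (pointBlockGraph B).Adj (φ none) (φ (some (Sum.inl p))) :=
    φ.map_rel_iff.2 (pbg_np B p)
  rw [h0] at h1
  rcases h : φ (some (Sum.inl p)) with _ | q | c
  · rw [h] at h1
    exact absurd h1 (pbg_nn B)
  · exact ⟨q, rfl⟩
  · rw [h] at h1
    exact absurd h1 (pbg_nb B c)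

theorem blk_image (φ : pointBlockGraph B ≃g pointBlockGraph B) (h0 : φ none = none) (b : ↥B) :
    ∃ c, φ (some (Sum.inr b)) = some (Sum.inr c) := by
  have h1 : ¬(pointBlockGraph B).Adj (φ none) (φ (some (Sum.inr b))) :=
    fun h => pbg_nb B b (φ.map_rel_iff.1 h)
  rw [h0] at h1
  rcases h : φ (some (Sum.inr b)) with _ | q | c
  · exfalso
    rw [← h0] at h
    exact absurd (φ.injective h) (by simp)
  · rw [h] at h1
    exact absurd (pbg_np B q) h1
  · exact ⟨c, rfl⟩

/-- The permutation of the points induced by a graph automorphism fixing the extra vertex. -/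
noncomputable def ptPerm (φ : pointBlockGraph B ≃g pointBlockGraph B) (h0 : φ none = none) :
    Equiv.Perm α :=
  Equiv.ofBijective (fun p => Classical.choose (pt_image φ h0 p)) (by
    apply Finite.injective_iff_bijective.1
    intro p p' h
    have e1 := Classical.choose_spec (pt_image φ h0 p)
    have e2 := Classical.choose_spec (pt_image φ h0 p')
    have h' : Classical.choose (pt_image φ h0 p) = Classical.choose (pt_image φ h0 p') := h
    rw [h', ← e2] at e1
    exact Sum.inl_injective (Option.some_injective _ (φ.injective e1)))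

theorem ptPerm_spec (φ : pointBlockGraph B ≃g pointBlockGraph B) (h0 : φ none = none) (p : α) :
    φ (some (Sum.inl p)) = some (Sum.inl (ptPerm φ h0 p)) :=
  Classical.choose_spec (pt_image φ h0 p)

theorem blk_spec (φ : pointBlockGraph B ≃g pointBlockGraph B) (h0 : φ none = none) (b c : ↥B)
    (hc : φ (some (Sum.inr b)) = some (Sum.inr c)) : c.1 = b.1.image (ptPerm φ h0) := by
  ext q
  rw [Finset.mem_image]
  constructor
  · intro hq
    refine ⟨(ptPerm φ h0).symm q, ?_, Equiv.apply_symm_apply _ _⟩
    have h1 : (pointBlockGraph B).Adj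
        (some (Sum.inl ((ptPerm φ h0) ((ptPerm φ h0).symm q)))) (some (Sum.inr c)) := by
      rw [Equiv.apply_symm_apply]
      exact (pbg_pb B q c).2 hq
    rw [← ptPerm_spec φ h0, ← hc] at h1
    exact (pbg_pb B _ b).1 (φ.map_rel_iff.1 h1)
  · rintro ⟨p, hp, rfl⟩
    have h1 := φ.map_rel_iff.2 ((pbg_pb B p b).2 hp)
    rw [ptPerm_spec φ h0 p, hc] at h1
    exact (pbg_pb B _ c).1 h1

theorem ptPerm_mem (φ : pointBlockGraph B ≃g pointBlockGraph B) (h0 : φ none = none) :
    ptPerm φ h0 ∈ setSystemAut B := by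
  rw [mem_aut_iff]
  have hsub : (fun b : Finset α => b.image (ptPerm φ h0)) '' B ⊆ B := by
    rintro _ ⟨b, hb, rfl⟩
    obtain ⟨c, hc⟩ := blk_image φ h0 ⟨b, hb⟩
    have e := blk_spec φ h0 ⟨b, hb⟩ c hc
    show b.image (ptPerm φ h0) ∈ B
    rw [← e]
    exact c.2
  have hcard : B.ncard ≤ ((fun b : Finset α => b.image (ptPerm φ h0)) '' B).ncard := by
    rw [Set.ncard_image_of_injective _ (Finset.image_injective (ptPerm φ h0).injective)]
  exact Set.eq_of_subset_of_ncard_le hsub hcard (Set.toFinite B)

theorem stab_inj (φ φ' : pointBlockGraph B ≃g pointBlockGraph B) (h0 : φ none = none)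
    (h0' : φ' none = none) (h : ptPerm φ h0 = ptPerm φ' h0') : φ = φ' := by
  apply RelIso.ext
  intro x
  rcases x with _ | p | b
  · rw [h0, h0']
  · rw [ptPerm_spec φ h0, ptPerm_spec φ' h0', h]
  · obtain ⟨c, hc⟩ := blk_image φ h0 b
    obtain ⟨c', hc'⟩ := blk_image φ' h0' b
    have e := blk_spec φ h0 b c hc
    have e' := blk_spec φ' h0' b c' hc'
    rw [h, ← e'] at e
    rw [hc, hc', Subtype.ext e]

theorem toGraph_inj : Function.Injective (toGraph (B := B)) := by
  intro g g' h
  apply Subtype.ext
  apply Equiv.ext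
  intro p
  have h1 := congrArg (fun φ : pointBlockGraph B ≃g pointBlockGraph B => φ (some (Sum.inl p))) h
  have h2 : (some (Sum.inl (g.1 p)) : Option (α ⊕ ↥B)) = some (Sum.inl (g'.1 p)) := h1
  exact Sum.inl_injective (Option.some_injective _ h2)

theorem card_stab (hα : Fintype.card α = 22) (hB : IsSteinerSystem 3 6 B) :
    Nat.card {φ : pointBlockGraph B ≃g pointBlockGraph B // φ none = none} = 887040 := by
  haveI : Finite (pointBlockGraph B ≃g pointBlockGraph B) :=
    Finite.of_injective (fun φ => (φ : Option (α ⊕ ↥B) → Option (α ⊕ ↥B)))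
      DFunLike.coe_injective
  rw [← card_aut hα hB]
  apply le_antisymm
  · apply Nat.card_le_card_of_injective
      (fun φ : {φ : pointBlockGraph B ≃g pointBlockGraph B // φ none = none} =>
        (⟨ptPerm φ.1 φ.2, ptPerm_mem φ.1 φ.2⟩ : ↥(setSystemAut B)))
    intro φ φ' h
    apply Subtype.ext
    exact stab_inj φ.1 φ'.1 φ.2 φ'.2 (congrArg Subtype.val h)
  · apply Nat.card_le_card_of_injective
      (fun g : ↥(setSystemAut B) =>
        (⟨toGraph g, rfl⟩ : {φ : pointBlockGraph B ≃g pointBlockGraph B // φ none = none}))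
    intro g g' h
    exact toGraph_inj (congrArg Subtype.val h)

end Aux

/-- The Higman–Sims graph built from an S(3, 6, 22) has exactly 88704000 automorphisms. -/
theorem result {α : Type*} [Fintype α] [DecidableEq α] (hα : Fintype.card α = 22) {B : Set (Finset α)} (hB : Cfsg.IsSteinerSystem 3 6 B) : Nat.card (Cfsg.pointBlockGraph B ≃g Cfsg.pointBlockGraph B) = 88704000 := by
  classical
  haveI : Fintype ↥B := Fintype.ofFinite _
  have hΓ := Cfsg.Agent.S0428.result hα hB
  have hψ : ∀ x : Option (α ⊕ ↥B), ∃ ψ : pointBlockGraph B ≃g pointBlockGraph B, ψ none = x :=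
    fun x => Cfsg.Agent.S0430.iso_pt hΓ hΓ none x
  choose ψ hψ' using hψ
  have Φ : (pointBlockGraph B ≃g pointBlockGraph B) ≃ Option (α ⊕ ↥B) ×
      {φ : pointBlockGraph B ≃g pointBlockGraph B // φ none = none} :=
    { toFun := fun φ => (φ none, ⟨φ.trans (ψ (φ none)).symm, by
          show (ψ (φ none)).symm (φ none) = none
          have h := RelIso.symm_apply_apply (ψ (φ none)) none
          rw [hψ'] at h
          exact h⟩)
      invFun := fun q => q.2.1.trans (ψ q.1)
      left_inv := by
        intro φ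
        apply RelIso.ext
        intro x
        show ψ (φ none) ((ψ (φ none)).symm (φ x)) = φ x
        rw [RelIso.apply_symm_apply]
      right_inv := by
        rintro ⟨x, σ, hσ⟩
        have e1 : (σ.trans (ψ x)) none = x := by
          show ψ x (σ none) = x
          rw [hσ, hψ']
        apply Prod.ext
        · exact e1
        · apply Subtype.ext
          apply RelIso.ext
          intro z
          show (ψ ((σ.trans (ψ x)) none)).symm (ψ x (σ z)) = σ z
          rw [e1, RelIso.symm_apply_apply] }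
  rw [Nat.card_congr Φ, Nat.card_prod, card_stab hα hB, Nat.card_eq_fintype_card, hΓ.card]
end Cfsg.Agent.S1586
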