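import Cfsg.Statements.S0431
import Cfsg.Agent.S1586
import Cfsg.Agent.S0414
import Cfsg.Agent.Lib.Helper28.HSModel
import Cfsg.Agent.Lib.Helper28.HSSimple

set_option autoImplicit false
open Cfsg

namespace Cfsg.Agent.S0431

open Finset
open scoped Pointwise
open Cfsg.Agent.Lib.Helper4 Cfsg.Agent.Lib.Helper4.Steiner Cfsg.Agent.Lib.Helper28
open Cfsg.Agent.Lib.Helper28.Aut22 Cfsg.Agent.S1586

/-- A subgroup of index two of a group acting transitively on a set is still transitive there,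
provided some element outside it fixes a point. -/
theorem trans_of_index_two {A X : Type*} [Group A] [MulAction A X] (H0 : Subgroup A)
    (hidx : H0.index = 2) (u : A) (hu : u ∉ H0) (x0 : X) (hux : u • x0 = x0) (Y : Set X)
    (hx0 : x0 ∈ Y) (htr : ∀ x ∈ Y, ∀ y ∈ Y, ∃ g : A, g • x = y) :
    ∀ x ∈ Y, ∀ y ∈ Y, ∃ g ∈ H0, g • x = y := by
  have hnorm : H0.Normal := Subgroup.normal_of_index_eq_two hidx
  intro x hx y hy
  obtain ⟨g, hg⟩ := htr x hx y hy
  by_cases hgH : g ∈ H0
  · exact ⟨g, hgH, hg⟩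
  · obtain ⟨c, hc⟩ := htr x0 hx0 x hx
    have hu' : c * u * c⁻¹ ∉ H0 := by
      intro h
      apply hu
      have h2 := hnorm.conj_mem _ h c⁻¹
      have e : c⁻¹ * (c * u * c⁻¹) * c⁻¹⁻¹ = u := by group
      rwa [e] at h2
    refine ⟨g * (c * u * c⁻¹),
      (Subgroup.mul_mem_iff_of_index_two hidx).2 (iff_of_false hgH hu'), ?_⟩
    have e1 : c⁻¹ • x = x0 := by rw [← hc, inv_smul_smul]
    rw [mul_smul, mul_smul, mul_smul, e1, hux, hc, hg]

section Aux

variable {α : Type*} [Fintype α] [DecidableEq α] {B : Set (Finset α)}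

theorem toGraph_mul (g g' : ↥(setSystemAut B)) :
    toGraph (g * g') = toGraph g * toGraph g' := by
  apply RelIso.ext
  intro x
  rcases x with _ | p | b
  · rfl
  · rfl
  · show some (Sum.inr (blockPerm (g * g') b)) = some (Sum.inr (blockPerm g (blockPerm g' b)))
    congr 2
    apply Subtype.ext
    show (g.1 * g'.1) • b.1 = g.1 • (g'.1 • b.1)
    exact mul_smul g.1 g'.1 b.1

theorem ptPerm_toGraph (g : ↥(setSystemAut B)) (h0 : toGraph g none = none) :
    ptPerm (toGraph g) h0 = g.1 := by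
  apply Equiv.ext
  intro p
  have h := ptPerm_spec (toGraph g) h0 p
  have h' : (toGraph g) (some (Sum.inl p)) = some (Sum.inl (g.1 p)) := rfl
  rw [h'] at h
  exact (Sum.inl_injective (Option.some_injective _ h)).symm

theorem eq_toGraph (φ : pointBlockGraph B ≃g pointBlockGraph B) (h0 : φ none = none) :
    φ = toGraph ⟨ptPerm φ h0, ptPerm_mem φ h0⟩ :=
  stab_inj φ (toGraph ⟨ptPerm φ h0, ptPerm_mem φ h0⟩) h0 rfl
    (ptPerm_toGraph ⟨ptPerm φ h0, ptPerm_mem φ h0⟩ rfl).symm

theorem aut_trans_pt (hα : Fintype.card α = 22)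
    (h3 : MulAction.IsMultiplyPretransitive (↥(setSystemAut B)) α 3) (p q : α) :
    ∃ g : ↥(setSystemAut B), g • p = q := by
  haveI := h3
  haveI : MulAction.IsMultiplyPretransitive (↥(setSystemAut B)) α 1 :=
    MulAction.isMultiplyPretransitive_of_le (n := 3) (by norm_num)
      (by rw [Nat.card_eq_fintype_card, hα]; norm_num)
  haveI : MulAction.IsPretransitive (↥(setSystemAut B)) α :=
    MulAction.is_one_pretransitive_iff.1 inferInstance
  exact MulAction.exists_smul_eq _ p q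

theorem aut_trans_blk (hB : IsSteinerSystem 3 6 B)
    (h3 : MulAction.IsMultiplyPretransitive (↥(setSystemAut B)) α 3)
    (b c : Finset α) (hb : b ∈ B) (hc : c ∈ B) : ∃ g : ↥(setSystemAut B), g • b = c := by
  obtain ⟨x, hx⟩ := Function.Embedding.exists_of_card_le_finset (α := Fin 3) (s := b)
    (by rw [hB.1 b hb]; simp)
  obtain ⟨y, hy⟩ := Function.Embedding.exists_of_card_le_finset (α := Fin 3) (s := c)
    (by rw [hB.1 c hc]; simp)
  obtain ⟨g, hg⟩ := (MulAction.isMultiplyPretransitive_iff.1 h3) x y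
  refine ⟨g, ?_⟩
  have hT : (univ.map y).card = 3 := by rw [Finset.card_map]; simp
  obtain ⟨blk, -, huniq⟩ := hB.2 (univ.map y) hT
  have h1 : g.1 • b ∈ B ∧ univ.map y ⊆ g.1 • b := by
    refine ⟨AutPlane.aut_smul_mem g.2 hb, ?_⟩
    intro z hz
    obtain ⟨i, -, rfl⟩ := Finset.mem_map.1 hz
    have e : y i = g.1 • x i := by rw [← hg]; rfl
    rw [e]
    exact Finset.smul_mem_smul_finset (hx ⟨i, rfl⟩)
  have h2 : c ∈ B ∧ univ.map y ⊆ c := ⟨hc, fun z hz => by
    obtain ⟨i, -, rfl⟩ := Finset.mem_map.1 hz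
    exact hy ⟨i, rfl⟩⟩
  show g.1 • b = c
  rw [huniq _ h1, huniq _ h2]

variable [Fintype ↥B]

/-- The sign of a graph automorphism as a permutation of the vertices. -/
noncomputable def sgn : (pointBlockGraph B ≃g pointBlockGraph B) →* ℤˣ where
  toFun φ := Equiv.Perm.sign φ.toEquiv
  map_one' := Equiv.Perm.sign_one
  map_mul' φ ψ := Equiv.Perm.sign_mul φ.toEquiv ψ.toEquiv

/-- The action of the graph automorphisms on the vertices. -/
def actV : (pointBlockGraph B ≃g pointBlockGraph B) →* Equiv.Perm (Option (α ⊕ ↥B)) where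
  toFun φ := φ.toEquiv
  map_one' := rfl
  map_mul' _ _ := rfl

theorem exists_odd [DecidableRel (pointBlockGraph B).Adj]
    (hΓ : (pointBlockGraph B).IsSRGWith 100 22 0 6) :
    ∃ τ : pointBlockGraph B ≃g pointBlockGraph B, τ none = none ∧ sgn τ = -1 ∧
      (∃ p : α, τ (some (Sum.inl p)) = some (Sum.inl p)) ∧
        ∃ b : ↥B, τ (some (Sum.inr b)) = some (Sum.inr b) := by
  obtain ⟨ψ, hψ⟩ := Cfsg.Agent.S0430.iso_pt HSModel.Gm_srg hΓ 0 none
  refine ⟨(ψ.symm.trans HSModel.tauIso).trans ψ, ?_, ?_, ?_, ?_⟩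
  · show ψ (HSModel.tauIso (ψ.symm none)) = none
    have e : ψ.symm none = 0 := by rw [← hψ, RelIso.symm_apply_apply]
    rw [e, HSModel.tau_fix0, hψ]
  · show Equiv.Perm.sign ((ψ.toEquiv.symm.trans HSModel.tauIso.toEquiv).trans ψ.toEquiv) = -1
    rw [Equiv.Perm.sign_symm_trans_trans, HSModel.sign_tau]
  · have hadj : (pointBlockGraph B).Adj none (ψ 3) := by
      rw [← hψ]
      exact ψ.map_rel_iff.2 HSModel.adj03
    rcases h : ψ 3 with _ | p | b
    · rw [h] at hadj
      exact absurd hadj (pbg_nn B)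
    · refine ⟨p, ?_⟩
      show ψ (HSModel.tauIso (ψ.symm (some (Sum.inl p)))) = some (Sum.inl p)
      have e : ψ.symm (some (Sum.inl p)) = 3 := by rw [← h, RelIso.symm_apply_apply]
      rw [e, HSModel.tau_fix3, h]
    · rw [h] at hadj
      exact absurd hadj (pbg_nb B b)
  · have hnadj : ¬ (pointBlockGraph B).Adj none (ψ 23) := by
      rw [← hψ]
      intro hh
      exact HSModel.nadj023 (ψ.map_rel_iff.1 hh)
    rcases h : ψ 23 with _ | p | b
    · exfalso
      rw [← hψ] at h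
      exact absurd (ψ.injective h) (by decide)
    · rw [h] at hnadj
      exact absurd (pbg_np B p) hnadj
    · refine ⟨b, ?_⟩
      show ψ (HSModel.tauIso (ψ.symm (some (Sum.inr b)))) = some (Sum.inr b)
      have e : ψ.symm (some (Sum.inr b)) = 23 := by rw [← h, RelIso.symm_apply_apply]
      rw [e, HSModel.tau_fix23, h]

end Aux

/-- Aut of the point-block graph of an S(3, 6, 22) contains a simple subgroup of order 44352000. -/
theorem result {α : Type*} [Fintype α] (hα : Fintype.card α = 22) {B : Set (Finset α)} (hB : Cfsg.IsSteinerSystem 3 6 B) : ∃ H : Subgroup (Cfsg.pointBlockGraph B ≃g Cfsg.pointBlockGraph B), Cfsg.IsHS H := by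
  classical
  haveI : Fintype ↥B := Fintype.ofFinite _
  have hΓ := Cfsg.Agent.S0428.result hα hB
  haveI : Finite (pointBlockGraph B ≃g pointBlockGraph B) :=
    Finite.of_injective (fun φ => (φ : Option (α ⊕ ↥B) → Option (α ⊕ ↥B)))
      DFunLike.coe_injective
  obtain ⟨τ, hτ0, hτs, ⟨p2, hτp⟩, ⟨b1, hτb⟩⟩ := exists_odd hΓ
  obtain ⟨-, h3, H0, hidx, hsimp, hcardH0⟩ := Cfsg.Agent.S0414.result hα hB
  haveI := hsimp
  have hm1 : (-1 : ℤˣ) ≠ 1 := by decide
  -- the sign is trivial on the simple subgroup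
  have hH0sgn : ∀ g : ↥(setSystemAut B), g ∈ H0 → sgn (toGraph g) = 1 := by
    let χ : ↥H0 →* ℤˣ := ((sgn (B := B)).comp (MonoidHom.mk' toGraph toGraph_mul)).comp H0.subtype
    rcases (MonoidHom.normal_ker χ).eq_bot_or_eq_top with h | h
    · exfalso
      have hinj := (MonoidHom.ker_eq_bot_iff χ).1 h
      have hle := Nat.card_le_card_of_injective χ hinj
      rw [hcardH0, Nat.card_eq_fintype_card, Fintype.card_units_int] at hle
      omega
    · intro g hg
      have h1 : (⟨g, hg⟩ : ↥H0) ∈ χ.ker := by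
        rw [h]
        exact Subgroup.mem_top _
      exact MonoidHom.mem_ker.1 h1
  have hτeq : τ = toGraph ⟨ptPerm τ hτ0, ptPerm_mem τ hτ0⟩ := eq_toGraph τ hτ0
  generalize hgτ : (⟨ptPerm τ hτ0, ptPerm_mem τ hτ0⟩ : ↥(setSystemAut B)) = gτ at hτeq
  have hgτH0 : gτ ∉ H0 := by
    intro h
    have h1 := hH0sgn gτ h
    rw [← hτeq, hτs] at h1
    exact hm1 h1
  have hgτp : gτ • p2 = p2 := by
    have h := ptPerm_spec τ hτ0 p2
    rw [hτp] at h
    rw [← hgτ]
    exact (Sum.inl_injective (Option.some_injective _ h)).symm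
  have hgτb : gτ • b1.1 = b1.1 := by
    have h := blk_spec τ hτ0 b1 b1 hτb
    rw [← hgτ]
    exact h.symm
  have hH0pt : ∀ p q : α, ∃ g ∈ H0, g • p = q := by
    intro p q
    exact trans_of_index_two H0 hidx gτ hgτH0 p2 hgτp Set.univ (Set.mem_univ _)
      (fun x _ y _ => aut_trans_pt hα h3 x y) p (Set.mem_univ _) q (Set.mem_univ _)
  have hH0blk : ∀ b ∈ B, ∀ c ∈ B, ∃ g ∈ H0, g • b = c :=
    trans_of_index_two H0 hidx gτ hgτH0 b1.1 hgτb B b1.2
      (fun x hx y hy => aut_trans_blk hB h3 x y hx hy)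
  -- the subgroup of even automorphisms
  obtain ⟨H, hHdef⟩ : ∃ H : Subgroup (pointBlockGraph B ≃g pointBlockGraph B),
      ∀ φ, φ ∈ H ↔ sgn φ = 1 := ⟨(sgn (B := B)).ker, fun φ => MonoidHom.mem_ker⟩
  have hHidx : H.index = 2 := by
    rw [Subgroup.index_eq_two_iff]
    refine ⟨τ, fun φ => ?_⟩
    rcases Int.units_eq_one_or (sgn φ) with h | h
    · refine Or.inr ⟨(hHdef φ).2 h, ?_⟩
      intro h2
      have h4 := (hHdef _).1 h2
      rw [map_mul, h, hτs, one_mul] at h4
      exact hm1 h4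
    · refine Or.inl ⟨(hHdef _).2 ?_, ?_⟩
      · rw [map_mul, h, hτs]
        decide
      · intro h2
        have h4 := (hHdef _).1 h2
        rw [h] at h4
        exact hm1 h4
  have hGcard := Cfsg.Agent.S1586.result hα hB
  have hHcard : Nat.card ↥H = 44352000 := by
    have h := Subgroup.index_mul_card H
    rw [hHidx, hGcard] at h
    omega
  refine ⟨H, ?_, hHcard⟩
  -- transitivity on the vertices
  have hodd : ∀ x : Option (α ⊕ ↥B), ∃ σ : pointBlockGraph B ≃g pointBlockGraph B,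
      σ x = x ∧ sgn σ = -1 := by
    intro x
    obtain ⟨ψ, hψ⟩ := Cfsg.Agent.S0430.iso_pt hΓ hΓ none x
    refine ⟨ψ * τ * ψ⁻¹, ?_, ?_⟩
    · rw [RelIso.mul_apply, RelIso.mul_apply]
      have e : ψ⁻¹ x = none := by rw [← hψ, RelIso.inv_apply_self]
      rw [e, hτ0, hψ]
    · rw [map_mul, map_mul, map_inv, hτs, mul_comm (sgn ψ), mul_assoc, mul_inv_cancel, mul_one]
  have hHtr : ∀ x y : Option (α ⊕ ↥B), ∃ h ∈ H, h x = y := by
    intro x y
    obtain ⟨φ, hφ⟩ := Cfsg.Agent.S0430.iso_pt hΓ hΓ x y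
    rcases Int.units_eq_one_or (sgn φ) with h | h
    · exact ⟨φ, (hHdef φ).2 h, hφ⟩
    · obtain ⟨σ, hσ, hσs⟩ := hodd x
      refine ⟨φ * σ, (hHdef _).2 ?_, ?_⟩
      · rw [map_mul, h, hσs]
        decide
      · rw [RelIso.mul_apply, hσ, hφ]
  -- the stabiliser of the extra vertex
  let S : Subgroup ↥H :=
    { carrier := {h | h.1 none = none}
      mul_mem' := fun {a b} (ha : a.1 none = none) (hb : b.1 none = none) =>
        show a.1 (b.1 none) = none by rw [hb, ha]
      one_mem' := rfl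
      inv_mem' := fun {a} (ha : a.1 none = none) => show a.1⁻¹ none = none by
        have h := RelIso.inv_apply_self a.1 none
        rw [ha] at h
        exact h }
  have hSmem : ∀ h : ↥H, h ∈ S ↔ h.1 none = none := fun h => Iff.rfl
  have hSsimple : IsSimpleGroup ↥S := by
    let θ : ↥H0 →* ↥S := MonoidHom.mk'
      (fun g => ⟨⟨toGraph g.1, (hHdef _).2 (hH0sgn g.1 g.2)⟩, (rfl : toGraph g.1 none = none)⟩)
      (fun a b => Subtype.ext (Subtype.ext (toGraph_mul a.1 b.1)))
    have hθinj : Function.Injective θ := by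
      intro a b e
      have e' : toGraph a.1 = toGraph b.1 := congrArg (fun s : ↥S => s.1.1) e
      exact Subtype.ext (toGraph_inj e')
    have hθsurj : Function.Surjective θ := by
      rintro ⟨⟨φ, hφH⟩, hφ0⟩
      have hφ0' : φ none = none := hφ0
      have heq := eq_toGraph φ hφ0'
      generalize hg : (⟨ptPerm φ hφ0', ptPerm_mem φ hφ0'⟩ : ↥(setSystemAut B)) = g at heq
      have hgH0 : g ∈ H0 := by
        by_contra hc
        have h1 : g * gτ ∈ H0 :=
          (Subgroup.mul_mem_iff_of_index_two hidx).2 (iff_of_false hc hgτH0)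
        have h2 := hH0sgn _ h1
        rw [toGraph_mul, map_mul, ← heq, ← hτeq, (hHdef φ).1 hφH, hτs, one_mul] at h2
        exact hm1 h2
      refine ⟨⟨g, hgH0⟩, ?_⟩
      apply Subtype.ext
      apply Subtype.ext
      exact heq.symm
    exact (MulEquiv.ofBijective θ ⟨hθinj, hθsurj⟩).symm.isSimpleGroup
  obtain ⟨P, hmemP, hPcard⟩ : ∃ P : Finset (Option (α ⊕ ↥B)),
      (∀ x, x ∈ P ↔ ∃ p : α, x = some (Sum.inl p)) ∧ P.card = 22 := by
    refine ⟨univ.image (fun p : α => some (Sum.inl p)), fun x => ?_, ?_⟩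
    · rw [Finset.mem_image]
      exact ⟨fun ⟨p, _, h⟩ => ⟨p, h.symm⟩, fun ⟨p, h⟩ => ⟨p, Finset.mem_univ _, h.symm⟩⟩
    · rw [Finset.card_image_of_injective _
        (fun a b e => Sum.inl_injective (Option.some_injective _ e)), Finset.card_univ, hα]
  have hB77 : Fintype.card ↥B = 77 := by
    have h := hΓ.card
    rw [Fintype.card_option, Fintype.card_sum, hα] at h
    omega
  obtain ⟨Bk, hmemB, hBkcard⟩ : ∃ Bk : Finset (Option (α ⊕ ↥B)),
      (∀ x, x ∈ Bk ↔ ∃ b : ↥B, x = some (Sum.inr b)) ∧ Bk.card = 77 := by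
    refine ⟨univ.image (fun b : ↥B => some (Sum.inr b)), fun x => ?_, ?_⟩
    · rw [Finset.mem_image]
      exact ⟨fun ⟨p, _, h⟩ => ⟨p, h.symm⟩, fun ⟨p, h⟩ => ⟨p, Finset.mem_univ _, h.symm⟩⟩
    · rw [Finset.card_image_of_injective _
        (fun a b e => Sum.inr_injective (Option.some_injective _ e)), Finset.card_univ, hB77]
  have hPtr : ∀ x ∈ P, ∀ y ∈ P, ∃ s ∈ S, s.1 x = y := by
    intro x hx y hy
    obtain ⟨p, rfl⟩ := (hmemP _).1 hx
    obtain ⟨q, rfl⟩ := (hmemP _).1 hy
    obtain ⟨g, hg, hgp⟩ := hH0pt p q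
    refine ⟨⟨toGraph g, (hHdef _).2 (hH0sgn g hg)⟩, (rfl : toGraph g none = none), ?_⟩
    show (some (Sum.inl (g.1 p)) : Option (α ⊕ ↥B)) = some (Sum.inl q)
    rw [← hgp]
    rfl
  have hBtr : ∀ x ∈ Bk, ∀ y ∈ Bk, ∃ s ∈ S, s.1 x = y := by
    intro x hx y hy
    obtain ⟨b, rfl⟩ := (hmemB _).1 hx
    obtain ⟨c, rfl⟩ := (hmemB _).1 hy
    obtain ⟨g, hg, hgb⟩ := hH0blk b.1 b.2 c.1 c.2
    refine ⟨⟨toGraph g, (hHdef _).2 (hH0sgn g hg)⟩, (rfl : toGraph g none = none), ?_⟩
    show (some (Sum.inr (blockPerm g b)) : Option (α ⊕ ↥B)) = some (Sum.inr c)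
    congr 2
    exact Subtype.ext hgb
  refine HSSimple.simple_of_rank3 ((actV (B := B)).comp H.subtype) none P Bk S
    (fun h => Iff.rfl) hHcard hSsimple hPcard hBkcard ?_ ?_ ?_ ?_ hPtr hBtr ?_
  · intro x
    rcases x with _ | p | b
    · exact Or.inl rfl
    · exact Or.inr (Or.inl ((hmemP _).2 ⟨p, rfl⟩))
    · exact Or.inr (Or.inr ((hmemB _).2 ⟨b, rfl⟩))
  · intro h
    obtain ⟨p, hp⟩ := (hmemP _).1 h
    exact absurd hp (by simp)
  · intro h
    obtain ⟨p, hp⟩ := (hmemB _).1 h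
    exact absurd hp (by simp)
  · rw [Finset.disjoint_left]
    intro x hx hx'
    obtain ⟨p, rfl⟩ := (hmemP _).1 hx
    obtain ⟨b, hb⟩ := (hmemB _).1 hx'
    exact absurd hb (by simp)
  · intro N hN hSN x y
    obtain ⟨w, hwx, hwy, hax, hay⟩ : ∃ w, w ≠ x ∧ w ≠ y ∧ ¬ (pointBlockGraph B).Adj w x ∧
        ¬ (pointBlockGraph B).Adj w y := by
      by_contra hc
      push Not at hc
      have hsub : (univ : Finset (Option (α ⊕ ↥B))) ⊆ insert x (insert y
          ((pointBlockGraph B).neighborFinset x ∪ (pointBlockGraph B).neighborFinset y)) := by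
        intro w _
        by_cases h1 : w = x
        · rw [h1]
          exact Finset.mem_insert_self _ _
        by_cases h2 : w = y
        · rw [h2]
          exact Finset.mem_insert_of_mem (Finset.mem_insert_self _ _)
        by_cases h3 : (pointBlockGraph B).Adj w x
        · exact Finset.mem_insert_of_mem (Finset.mem_insert_of_mem (Finset.mem_union_left _
            ((SimpleGraph.mem_neighborFinset _ _ _).2 h3.symm)))
        · have h4 := hc w h1 h2 h3
          exact Finset.mem_insert_of_mem (Finset.mem_insert_of_mem (Finset.mem_union_right _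
            ((SimpleGraph.mem_neighborFinset _ _ _).2 h4.symm)))
      have hle := Finset.card_le_card hsub
      have h5 : (insert x (insert y ((pointBlockGraph B).neighborFinset x ∪
          (pointBlockGraph B).neighborFinset y))).card ≤
          ((pointBlockGraph B).neighborFinset x).card +
            ((pointBlockGraph B).neighborFinset y).card + 1 + 1 :=
        (Finset.card_insert_le _ _).trans (Nat.succ_le_succ
          ((Finset.card_insert_le _ _).trans (Nat.succ_le_succ (Finset.card_union_le _ _))))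
      rw [SimpleGraph.card_neighborFinset_eq_degree, SimpleGraph.card_neighborFinset_eq_degree,
        hΓ.regular x, hΓ.regular y] at h5
      rw [Finset.card_univ, hΓ.card] at hle
      omega
    obtain ⟨h, hhH, hhw⟩ := hHtr none w
    have key : ∀ z : Option (α ⊕ ↥B), w ≠ z → ¬ (pointBlockGraph B).Adj w z →
        ∃ b : ↥B, h⁻¹ z = some (Sum.inr b) := by
      intro z hwz haz
      rcases e : h⁻¹ z with _ | p | b
      · exfalso
        apply hwz
        rw [← hhw, ← e, RelIso.apply_inv_self]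
      · exfalso
        apply haz
        have h1 : (pointBlockGraph B).Adj (h none) (h (h⁻¹ z)) := by
          rw [e]
          exact h.map_rel_iff.2 (pbg_np B p)
        rwa [hhw, RelIso.apply_inv_self] at h1
      · exact ⟨b, rfl⟩
    obtain ⟨b, hb⟩ := key x hwx hax
    obtain ⟨c, hc⟩ := key y hwy hay
    obtain ⟨s, hs, hsb⟩ := hBtr _ ((hmemB _).2 ⟨b, rfl⟩) _ ((hmemB _).2 ⟨c, rfl⟩)
    refine ⟨(⟨h, hhH⟩ : ↥H) * s * (⟨h, hhH⟩ : ↥H)⁻¹, hN.conj_mem s (hSN hs) ⟨h, hhH⟩, ?_⟩
    show h (s.1 (h⁻¹ x)) = y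
    rw [hb, hsb, ← hc, RelIso.apply_inv_self]
end Cfsg.Agent.S0431
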