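import Cfsg.Statements.S0432
import Cfsg.Agent.Lib.Helper4.Leech

set_option autoImplicit false
open Cfsg

namespace Cfsg.Agent.S0432

/-- Coordinate permutations from the code's group preserve the lattice. -/
theorem result (σ : Equiv.Perm Cfsg.GolayPt) (hσ : σ ∈ Cfsg.M24) (x : Cfsg.GolayPt → ℤ) (hx : x ∈ Cfsg.leechLattice) : (fun i => x (σ i)) ∈ Cfsg.leechLattice := by
  obtain ⟨m, y, hxy, hc, hsum⟩ := Cfsg.Agent.Lib.Helper28.leech_struct x hx
  apply Cfsg.Agent.Lib.Helper4.Leech.mem_leech_of_struct (fun i => x (σ i)) m (fun i => y (σ i))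
  · intro i
    exact hxy (σ i)
  · exact Cfsg.Agent.Lib.Helper4.Golay.comp_mem_of_mem_M24 hσ hc
  · rw [Equiv.sum_comp σ x]
    exact hsum

end Cfsg.Agent.S0432
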