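import Cfsg.Statements.S0433
import Cfsg.Agent.Lib.Helper4.Leech

set_option autoImplicit false
open Cfsg

namespace Cfsg.Agent.S0433

/-- Sign changes on the support of a codeword preserve the lattice. -/
theorem result (c : Finset Cfsg.GolayPt) (hc : c ∈ Cfsg.supports (Cfsg.golayCode : Set (Cfsg.GolayPt → ZMod 2))) (x : Cfsg.GolayPt → ℤ) (hx : x ∈ Cfsg.leechLattice) : (fun i => if i ∈ c then -x i else x i) ∈ Cfsg.leechLattice := by
  classical
  obtain ⟨w, hw, rfl⟩ := hc
  obtain ⟨m, y, hxy, hcy, hsum⟩ := Cfsg.Agent.Lib.Helper28.leech_struct x hx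
  have hmem : ∀ i, i ∈ Cfsg.support₂ w ↔ w i = 1 := fun i =>
    Cfsg.Agent.Lib.Helper28.mem_support₂ w i
  apply Cfsg.Agent.Lib.Helper4.Leech.mem_leech_of_struct _ m
    (fun i => if i ∈ Cfsg.support₂ w then -m - y i else y i)
  · intro i
    by_cases hi : i ∈ Cfsg.support₂ w
    · simp only [if_pos hi]
      rw [hxy i]
      ring
    · simp only [if_neg hi]
      exact hxy i
  · have e : Cfsg.Agent.Lib.Helper28.zword (fun i => if i ∈ Cfsg.support₂ w then -m - y i else y i)
        = Cfsg.Agent.Lib.Helper28.zword y + (m : ZMod 2) • w := by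
      funext i
      by_cases hi : i ∈ Cfsg.support₂ w
      · have hw1 : w i = 1 := (hmem i).1 hi
        simp only [Cfsg.Agent.Lib.Helper28.zword, if_pos hi, Pi.add_apply, Pi.smul_apply,
          smul_eq_mul, hw1, mul_one]
        push_cast
        have : ∀ a b : ZMod 2, -a - b = b + a := by decide
        exact this _ _
      · have hw0 : w i = 0 := by
          have : ∀ a : ZMod 2, ¬ a = 1 → a = 0 := by decide
          exact this _ (fun h => hi ((hmem i).2 h))
        simp only [Cfsg.Agent.Lib.Helper28.zword, if_neg hi, Pi.add_apply, Pi.smul_apply,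
          smul_eq_mul, hw0, mul_zero, add_zero]
    rw [e]
    exact Submodule.add_mem _ hcy (Submodule.smul_mem _ _ hw)
  · have e1 : ∀ i, (if i ∈ Cfsg.support₂ w then -x i else x i)
        = x i - 2 * (if i ∈ Cfsg.support₂ w then x i else 0) := by
      intro i
      by_cases hi : i ∈ Cfsg.support₂ w
      · simp only [if_pos hi]
        ring
      · simp only [if_neg hi]
        ring
    have e2 : ∑ i, (if i ∈ Cfsg.support₂ w then -x i else x i)
        = ∑ i, x i - 2 * ∑ i ∈ Cfsg.support₂ w, x i := by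
      rw [Finset.sum_congr rfl (fun i _ => e1 i), Finset.sum_sub_distrib, ← Finset.mul_sum,
        Finset.sum_ite_mem, Finset.univ_inter]
    have e3 : ∑ i ∈ Cfsg.support₂ w, x i
        = ((Cfsg.support₂ w).card : ℤ) * m + 2 * ∑ i ∈ Cfsg.support₂ w, y i := by
      rw [Finset.sum_congr rfl (fun i _ => hxy i), Finset.sum_add_distrib, ← Finset.mul_sum,
        Finset.sum_const]
      simp
    have h4 : ∃ u : ℤ, ((Cfsg.support₂ w).card : ℤ) = 4 * u := by
      rcases Cfsg.Agent.Lib.Helper28.golay_weight _ hw with h | h | h | h | h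
      · exact ⟨0, by rw [h]; norm_num⟩
      · exact ⟨2, by rw [h]; norm_num⟩
      · exact ⟨3, by rw [h]; norm_num⟩
      · exact ⟨4, by rw [h]; norm_num⟩
      · exact ⟨6, by rw [h]; norm_num⟩
    have h5 : (2 : ℤ) ∣ ∑ i ∈ Cfsg.support₂ w, y i := by
      refine (ZMod.intCast_zmod_eq_zero_iff_dvd (∑ i ∈ Cfsg.support₂ w, y i) 2).1 ?_
      push_cast
      have h6 := Cfsg.Agent.Lib.Helper4.Golay.self_orth w (Cfsg.Agent.Lib.Helper28.zword y) hw hcy
      rw [← h6, ← Finset.sum_subset (Finset.subset_univ (Cfsg.support₂ w))]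
      · apply Finset.sum_congr rfl
        intro i hi
        rw [(hmem i).1 hi, one_mul]
        rfl
      · intro i _ hi
        have hw0 : w i = 0 := by
          have : ∀ a : ZMod 2, ¬ a = 1 → a = 0 := by decide
          exact this _ (fun h => hi ((hmem i).2 h))
        rw [hw0, zero_mul]
    obtain ⟨u, hu⟩ := h4
    obtain ⟨v, hv⟩ := h5
    rw [e2, e3, hu, hv]
    have : (∑ i, x i - 2 * (4 * u * m + 2 * (2 * v))) ≡ ∑ i, x i [ZMOD 8] := by
      rw [Int.modEq_iff_dvd]
      exact ⟨u * m + v, by ring⟩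
    exact this.trans hsum

end Cfsg.Agent.S0433
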