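import Cfsg.Statements.S0439

set_option autoImplicit false
open Pointwise
open Cfsg

namespace Cfsg.Agent.S0439

theorem swap_mul_swap_cases {α : Type*} [DecidableEq α] [Fintype α] {x y z w : α} (hxy : x ≠ y) (hzw : z ≠ w) :
    (Equiv.swap x y * Equiv.swap z w) ^ 2 = 1 ∨ (Equiv.swap x y * Equiv.swap z w) ^ 3 = 1 := by
  have three : ∀ {a b c : α}, a ≠ b → a ≠ c → b ≠ c → (Equiv.swap a b * Equiv.swap a c) ^ 3 = 1 := by
    intro a b c hab hac hbc
    have := (Equiv.Perm.isThreeCycle_swap_mul_swap_same hab hac hbc).orderOf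
    rw [← this]; exact pow_orderOf_eq_one _
  by_cases hxz : x = z
  · subst hxz
    by_cases hyw : y = w
    · subst hyw; left; simp
    · right; exact three hxy hzw hyw
  · by_cases hxw : x = w
    · subst hxw
      rw [Equiv.swap_comm z x]
      by_cases hyz : y = z
      · subst hyz; left; simp
      · right; exact three hxy hxz hyz
    · by_cases hyz : y = z
      · subst hyz
        rw [Equiv.swap_comm x y]
        right; exact three (Ne.symm hxy) hzw hxw
      · by_cases hyw : y = w
        · subst hyw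
          rw [Equiv.swap_comm x y, Equiv.swap_comm z y]
          right; exact three (Ne.symm hxy) (Ne.symm hzw) hxz
        · left
          have hd : Equiv.Perm.Disjoint (Equiv.swap x y) (Equiv.swap z w) :=
            Equiv.Perm.disjoint_swap_swap (by simp [*])
          rw [hd.commute.mul_pow]; simp [pow_two]

/-- In the symmetric group of degree n ≥ 2, the set of transpositions is a conjugacy class of 3-transpositions which generates the group. -/
theorem result (n : ℕ) (hn : 2 ≤ n) : Cfsg.IsThreeTranspositionClass {σ : Equiv.Perm (Fin n) | σ.IsSwap} := by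
  refine ⟨⟨fun d hd => Equiv.Perm.IsSwap.orderOf hd, ?_⟩, ?_, Equiv.Perm.closure_isSwap⟩
  · rintro d ⟨x, y, hxy, rfl⟩ e ⟨z, w, hzw, rfl⟩
    exact swap_mul_swap_cases hxy hzw
  · have h01 : (⟨0, by omega⟩ : Fin n) ≠ ⟨1, by omega⟩ := by simp [Fin.ext_iff]
    refine ⟨Equiv.swap ⟨0, by omega⟩ ⟨1, by omega⟩, ⟨_, _, h01, rfl⟩, ?_⟩
    ext σ
    show σ.IsSwap ↔ IsConj _ σ
    constructor
    · rintro ⟨x, y, hxy, rfl⟩; exact Equiv.Perm.isConj_swap h01 hxy
    · intro h
      obtain ⟨c, hc⟩ := isConj_iff.mp h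
      rw [← hc, ← Equiv.swap_apply_apply]
      exact ⟨_, _, c.injective.ne h01, rfl⟩

end Cfsg.Agent.S0439
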