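import Cfsg.Statements.S0442

set_option autoImplicit false
open Pointwise
open Cfsg

namespace Cfsg.Agent.S0442

theorem inv_pow_of_sq {G : Type*} [Group G] (a : G) (ha2 : a * a = 1) (c : G) (hc : c * c = 1) (m : ℕ) :
    a * (a * c) ^ m * a = ((a * c) ^ m)⁻¹ := by
  have hainv : a⁻¹ = a := inv_eq_of_mul_eq_one_left ha2
  have h1 : a * (a * c) * a = (a * c)⁻¹ := by
    rw [mul_inv_rev, hainv, inv_eq_of_mul_eq_one_left hc, ← mul_assoc, ha2, one_mul]
  have h2 : a * (a * c) ^ m * a = (a * (a * c) * a) ^ m := by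
    have := conj_pow (a := a) (b := a * c) (i := m)
    rw [hainv] at this
    exact this.symm
  rw [h2, h1, inv_pow]

theorem comm_of_sq {G : Type*} [Group G] (a : G) (ha2 : a * a = 1) (c : G) (hc : c * c = 1) (m : ℕ)
    (h : (a * c) ^ (2 * m) = 1) : Commute ((a * c) ^ m) a := by
  have k := inv_pow_of_sq a ha2 c hc m
  have hx2 : ((a * c) ^ m)⁻¹ = (a * c) ^ m := by
    apply inv_eq_of_mul_eq_one_left
    rw [← pow_add, ← two_mul]; exact h
  rw [hx2] at k
  show (a * c) ^ m * a = a * (a * c) ^ m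
  calc (a * c) ^ m * a = a * (a * c) ^ m * a * a := by rw [k]
    _ = a * (a * c) ^ m := by rw [mul_assoc, ha2, mul_one]

/-- A standard trick for producing elements of an involution centraliser: for an involution a and an element g, let b be the conjugate g⁻¹ * a * g. If a * b has odd order 2m + 1 then g * (a * b) ^ m commutes with a; if a * b has even order 2m then (a * b) ^ m and (a * (g * a * g⁻¹)) ^ m commute with a. -/
theorem result {G : Type*} [Group G] (a g : G) (ha : orderOf a = 2) : (∀ m : ℕ, orderOf (a * (g⁻¹ * a * g)) = 2 * m + 1 → Commute (g * (a * (g⁻¹ * a * g)) ^ m) a) ∧ (∀ m : ℕ, orderOf (a * (g⁻¹ * a * g)) = 2 * m → Commute ((a * (g⁻¹ * a * g)) ^ m) a ∧ Commute ((a * (g * a * g⁻¹)) ^ m) a) := by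
  have ha2 : a * a = 1 := by
    have := pow_orderOf_eq_one a
    rw [ha, pow_two] at this
    exact this
  have ha2' : ∀ x, a * (a * x) = x := fun x => by rw [← mul_assoc, ha2, one_mul]
  have hainv : a⁻¹ = a := inv_eq_of_mul_eq_one_left ha2
  have hb : (g⁻¹ * a * g) * (g⁻¹ * a * g) = 1 := by simp [mul_assoc, ha2']
  have hc : (g * a * g⁻¹) * (g * a * g⁻¹) = 1 := by simp [mul_assoc, ha2']
  refine ⟨fun m hm => ?_, fun m hm => ⟨?_, ?_⟩⟩
  · have hx : (a * (g⁻¹ * a * g)) ^ (2 * m + 1) = 1 := by rw [← hm]; exact pow_orderOf_eq_one _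
    have k := inv_pow_of_sq a ha2 _ hb m
    have k1 := inv_pow_of_sq a ha2 _ hb 1
    set x := a * (g⁻¹ * a * g) with hxdef
    have hgx : a * g = g * (a * x) := by rw [hxdef]; simp [mul_assoc, ha2']
    have k2 : a * x ^ m = (x ^ m)⁻¹ * a := by
      have : a * x ^ m * a * a = (x ^ m)⁻¹ * a := by rw [k]
      rw [mul_assoc, ha2, mul_one] at this
      exact this
    have k3 : a * x = x⁻¹ * a := by
      rw [pow_one] at k1
      have : a * x * a * a = x⁻¹ * a := by rw [k1]
      rw [mul_assoc, ha2, mul_one] at this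
      exact this
    have hx2 : x⁻¹ * (x ^ m)⁻¹ = x ^ m := by
      have : x ^ m * x * x ^ m = 1 := by
        rw [← pow_succ, ← pow_add, ← hx]; congr 1; omega
      rw [← mul_inv_rev]
      exact inv_eq_of_mul_eq_one_right this
    show g * x ^ m * a = a * (g * x ^ m)
    calc g * x ^ m * a = g * (x⁻¹ * (x ^ m)⁻¹) * a := by rw [hx2]
      _ = g * (x⁻¹ * ((x ^ m)⁻¹ * a)) := by simp only [mul_assoc]
      _ = g * (x⁻¹ * (a * x ^ m)) := by rw [k2]
      _ = g * (x⁻¹ * a * x ^ m) := by simp only [mul_assoc]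
      _ = g * (a * x * x ^ m) := by rw [k3]
      _ = g * (a * x) * x ^ m := by simp only [mul_assoc]
      _ = a * g * x ^ m := by rw [hgx]
      _ = a * (g * x ^ m) := by simp only [mul_assoc]
  · have hx : (a * (g⁻¹ * a * g)) ^ (2 * m) = 1 := by rw [← hm]; exact pow_orderOf_eq_one _
    exact comm_of_sq a ha2 _ hb m hx
  · have hx : (a * (g⁻¹ * a * g)) ^ (2 * m) = 1 := by rw [← hm]; exact pow_orderOf_eq_one _
    have hy : (a * (g * a * g⁻¹)) ^ (2 * m) = 1 := by
      have e : a * (g * a * g⁻¹) = g * (a * (g⁻¹ * a * g))⁻¹ * g⁻¹ := by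
        simp [mul_assoc, hainv]
      rw [e, conj_pow, inv_pow, hx]; simp
    exact comm_of_sq a ha2 _ hc m hy

end Cfsg.Agent.S0442
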