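import Cfsg.Statements.S0443

set_option autoImplicit false
open Pointwise
open Cfsg

namespace Cfsg.Agent.S0443

/-- Two definitions of a 2-central involution agree: an element t of order 2 of a finite group lies in the centre of some Sylow 2-subgroup if and only if its centraliser contains some Sylow 2-subgroup. -/
theorem result {G : Type*} [Group G] [Finite G] (t : G) (ht : orderOf t = 2) : Cfsg.IsTwoCentralInvolution t ↔ ∃ P : Sylow 2 G, (P : Subgroup G) ≤ Subgroup.centralizer ({t} : Set G) := by
  have ht2 : t * t = 1 := by
    have := pow_orderOf_eq_one t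
    rw [ht, pow_two] at this
    exact this
  constructor
  · rintro ⟨_, P, _, hP⟩
    refine ⟨P, fun x hx => ?_⟩
    rw [Subgroup.mem_centralizer_singleton_iff]
    exact hP x hx
  · rintro ⟨P, hP⟩
    have hcomm : ∀ x ∈ P, x * t = t * x := fun x hx =>
      Subgroup.mem_centralizer_singleton_iff.mp (hP hx)
    refine ⟨ht, P, ?_, hcomm⟩
    have hz : IsPGroup 2 (Subgroup.zpowers t) := by
      rintro ⟨g, hg⟩
      refine ⟨1, ?_⟩
      obtain ⟨n, rfl⟩ := Subgroup.mem_zpowers_iff.mp hg
      ext
      simp only [pow_one, Subgroup.coe_pow, Subgroup.coe_one]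
      rw [← zpow_natCast, ← zpow_mul, mul_comm, zpow_mul, zpow_natCast, pow_two, ht2, one_zpow]
    have hn : Subgroup.zpowers t ≤ Subgroup.normalizer ((P : Subgroup G) : Set G) := by
      rw [Subgroup.zpowers_le, Subgroup.mem_normalizer_iff]
      intro h
      constructor
      · intro hh
        have : t * h * t⁻¹ = h := by rw [← hcomm h hh, mul_inv_cancel_right]
        rw [this]; exact hh
      · intro hh
        have e := hcomm _ hh
        have : t * h * t⁻¹ = h := by
          have e2 : t * h * t⁻¹ * t = t * (t * h * t⁻¹) := e
          rw [inv_mul_cancel_right] at e2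
          have e3 : h = t * h * t⁻¹ := mul_left_cancel e2
          exact e3.symm
        rw [this] at hh; exact hh
    have hQ : IsPGroup 2 ↥((P : Subgroup G) ⊔ Subgroup.zpowers t) :=
      IsPGroup.to_sup_of_normal_left' P.isPGroup' hz hn
    have := P.is_maximal' hQ le_sup_left
    have h1 : Subgroup.zpowers t ≤ (P : Subgroup G) := by
      rw [← this]; exact le_sup_right
    exact h1 (Subgroup.mem_zpowers t)

end Cfsg.Agent.S0443
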