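import Cfsg.Statements.S0445
import Mathlib

set_option autoImplicit false
open Cfsg

namespace Cfsg.Agent.S0445

/-- The matrix with first column `e0`, second row `e1`, and the remaining data free. -/
def build (a : ZMod 2) (r c : Fin 3 → ZMod 2) (M : Matrix (Fin 3) (Fin 3) (ZMod 2)) :
    Matrix (Fin 5) (Fin 5) (ZMod 2) :=
  Matrix.of (Matrix.vecCons (Matrix.vecCons 1 (Matrix.vecCons a r))
    (Matrix.vecCons (Matrix.vecCons 0 (Matrix.vecCons 1 0))
      (fun i => Matrix.vecCons 0 (Matrix.vecCons (c i) (M i)))))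

theorem build_00 (a : ZMod 2) (r c : Fin 3 → ZMod 2) (M : Matrix (Fin 3) (Fin 3) (ZMod 2)) :
    build a r c M 0 0 = 1 := rfl

theorem build_01 (a : ZMod 2) (r c : Fin 3 → ZMod 2) (M : Matrix (Fin 3) (Fin 3) (ZMod 2)) :
    build a r c M 0 1 = a := rfl

theorem build_0j (a : ZMod 2) (r c : Fin 3 → ZMod 2) (M : Matrix (Fin 3) (Fin 3) (ZMod 2))
    (j : Fin 3) : build a r c M 0 j.succ.succ = r j := rfl

theorem build_10 (a : ZMod 2) (r c : Fin 3 → ZMod 2) (M : Matrix (Fin 3) (Fin 3) (ZMod 2)) :
    build a r c M 1 0 = 0 := rfl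

theorem build_11 (a : ZMod 2) (r c : Fin 3 → ZMod 2) (M : Matrix (Fin 3) (Fin 3) (ZMod 2)) :
    build a r c M 1 1 = 1 := rfl

theorem build_1j (a : ZMod 2) (r c : Fin 3 → ZMod 2) (M : Matrix (Fin 3) (Fin 3) (ZMod 2))
    (j : Fin 3) : build a r c M 1 j.succ.succ = 0 := rfl

theorem build_i0 (a : ZMod 2) (r c : Fin 3 → ZMod 2) (M : Matrix (Fin 3) (Fin 3) (ZMod 2))
    (i : Fin 3) : build a r c M i.succ.succ 0 = 0 := rfl

theorem build_i1 (a : ZMod 2) (r c : Fin 3 → ZMod 2) (M : Matrix (Fin 3) (Fin 3) (ZMod 2))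
    (i : Fin 3) : build a r c M i.succ.succ 1 = c i := rfl

theorem build_ij (a : ZMod 2) (r c : Fin 3 → ZMod 2) (M : Matrix (Fin 3) (Fin 3) (ZMod 2))
    (i j : Fin 3) : build a r c M i.succ.succ j.succ.succ = M i j := rfl

theorem comm_iff (g : Matrix (Fin 5) (Fin 5) (ZMod 2)) :
    Matrix.transvection 0 1 1 * g = g * Matrix.transvection 0 1 1 ↔
      (g 0 0 = g 1 1 ∧ (∀ i : Fin 4, g i.succ 0 = 0) ∧ ∀ j : Fin 3, g 1 j.succ.succ = 0) := by
  have e : Matrix.transvection 0 1 1 * g = g * Matrix.transvection 0 1 1 ↔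
      Matrix.single 0 1 (1 : ZMod 2) * g = g * Matrix.single 0 1 (1 : ZMod 2) := by
    rw [Matrix.transvection, Matrix.add_mul, Matrix.mul_add, Matrix.one_mul, Matrix.mul_one]
    exact add_right_inj g
  rw [e]
  constructor
  · intro h
    refine ⟨?_, ?_, ?_⟩
    · have h1 := congrFun (congrFun h 0) 1
      rw [Matrix.single_mul_apply_same, Matrix.mul_single_apply_same] at h1
      simpa using h1.symm
    · intro i
      have h1 := congrFun (congrFun h i.succ) 1
      rw [Matrix.single_mul_apply_of_ne (h := Fin.succ_ne_zero i),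
        Matrix.mul_single_apply_same] at h1
      simpa using h1.symm
    · intro j
      have h1 := congrFun (congrFun h 0) j.succ.succ
      rw [Matrix.single_mul_apply_same, Matrix.mul_single_apply_of_ne (hbj := by
        intro hh
        have := congrArg Fin.val hh
        simp at this)] at h1
      simpa using h1
  · rintro ⟨h1, h2, h3⟩
    ext i j
    by_cases hi : i = 0
    · subst hi
      rw [Matrix.single_mul_apply_same]
      by_cases hj : j = 1
      · subst hj
        rw [Matrix.mul_single_apply_same, h1]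
        simp
      · rw [Matrix.mul_single_apply_of_ne (hbj := hj)]
        revert hj
        refine Fin.cases ?_ (fun j => Fin.cases ?_ (fun j => ?_) j) j
        · intro _
          have := h2 0
          simpa using this
        · intro hj
          exact absurd rfl hj
        · intro _
          simp [h3 j]
    · rw [Matrix.single_mul_apply_of_ne (h := hi)]
      by_cases hj : j = 1
      · subst hj
        rw [Matrix.mul_single_apply_same]
        obtain ⟨i', rfl⟩ := Fin.exists_succ_eq.2 hi
        simp [h2 i']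
      · rw [Matrix.mul_single_apply_of_ne (hbj := hj)]

theorem det_of_shape (g : Matrix (Fin 5) (Fin 5) (ZMod 2)) (h0 : ∀ i : Fin 4, g i.succ 0 = 0)
    (h1 : ∀ j : Fin 3, g 1 j.succ.succ = 0) :
    g.det = g 0 0 * (g 1 1 * (g.submatrix (Fin.succ ∘ Fin.succ) (Fin.succ ∘ Fin.succ)).det) := by
  rw [Matrix.det_succ_column_zero, Fin.sum_univ_succ]
  have hz : ∑ i : Fin 4, (-1 : ZMod 2) ^ (i.succ : ℕ) * g i.succ 0 *
      (g.submatrix i.succ.succAbove Fin.succ).det = 0 := by
    apply Finset.sum_eq_zero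
    intro i _
    rw [h0 i]
    simp
  rw [hz, add_zero, Matrix.det_succ_row_zero (g.submatrix (Fin.succAbove 0) Fin.succ),
    Fin.sum_univ_succ]
  have hz2 : ∑ j : Fin 3, (-1 : ZMod 2) ^ (j.succ : ℕ) *
      (g.submatrix (Fin.succAbove 0) Fin.succ) 0 j.succ *
      ((g.submatrix (Fin.succAbove 0) Fin.succ).submatrix Fin.succ j.succ.succAbove).det = 0 := by
    apply Finset.sum_eq_zero
    intro j _
    have : (g.submatrix (Fin.succAbove 0) Fin.succ) 0 j.succ = 0 := h1 j
    rw [this]
    simp
  rw [hz2, add_zero]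
  have e1 : (g.submatrix (Fin.succAbove 0) Fin.succ) 0 0 = g 1 1 := rfl
  rw [e1]
  simp only [Fin.val_zero, pow_zero, one_mul]
  rfl

theorem zmod2_mul {x y : ZMod 2} (h : x * y = 1) : x = 1 ∧ y = 1 := by
  revert x y
  decide

theorem zmod2_unit {x : ZMod 2} (h : IsUnit x) : x = 1 := by
  obtain ⟨u, rfl⟩ := h
  have : ∀ a b : ZMod 2, a * b = 1 → a = 1 := by decide
  exact this _ _ u.mul_inv

/-- Matrices of determinant one are the invertible ones over the field with two elements. -/
noncomputable def glEquiv :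
    Matrix.GeneralLinearGroup (Fin 3) (ZMod 2) ≃ {M : Matrix (Fin 3) (Fin 3) (ZMod 2) // M.det = 1} where
  toFun u := ⟨u.1, zmod2_unit ((Matrix.isUnit_iff_isUnit_det _).1 u.isUnit)⟩
  invFun M := Matrix.GeneralLinearGroup.mk'' M.1 (by rw [M.2]; exact isUnit_one)
  left_inv u := by
    apply Units.ext
    rfl
  right_inv M := rfl

theorem card_sl3 : Nat.card {M : Matrix (Fin 3) (Fin 3) (ZMod 2) // M.det = 1} = 168 := by
  rw [← Nat.card_congr glEquiv, Matrix.card_GL_field]
  simp [Fin.prod_univ_succ, ZMod.card]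

/-- The parametrisation of the centraliser. -/
def param (p : ZMod 2 × (Fin 3 → ZMod 2) × (Fin 3 → ZMod 2) ×
    {M : Matrix (Fin 3) (Fin 3) (ZMod 2) // M.det = 1}) : Matrix (Fin 5) (Fin 5) (ZMod 2) :=
  build p.1 p.2.1 p.2.2.1 p.2.2.2.1

theorem param_injective : Function.Injective param := by
  rintro ⟨a, r, c, M⟩ ⟨a', r', c', M'⟩ h
  simp only [param] at h
  have ha : a = a' := by
    have := congrFun (congrFun h 0) 1
    rwa [build_01, build_01] at this
  have hr : r = r' := by
    funext j
    have := congrFun (congrFun h 0) j.succ.succ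
    rwa [build_0j, build_0j] at this
  have hc : c = c' := by
    funext i
    have := congrFun (congrFun h i.succ.succ) 1
    rwa [build_i1, build_i1] at this
  have hM : M = M' := by
    apply Subtype.ext
    ext i j
    have := congrFun (congrFun h i.succ.succ) j.succ.succ
    rwa [build_ij, build_ij] at this
  rw [ha, hr, hc, hM]

theorem range_param : Set.range param =
    {g : Matrix (Fin 5) (Fin 5) (ZMod 2) | g.det = 1 ∧
      Matrix.transvection 0 1 1 * g = g * Matrix.transvection 0 1 1} := by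
  ext g
  constructor
  · rintro ⟨⟨a, r, c, M⟩, rfl⟩
    have hc : Matrix.transvection 0 1 1 * build a r c M.1
        = build a r c M.1 * Matrix.transvection 0 1 1 := by
      rw [comm_iff]
      refine ⟨rfl, ?_, fun j => rfl⟩
      intro i
      refine Fin.cases ?_ (fun i => ?_) i
      · rfl
      · rfl
    refine ⟨?_, hc⟩
    rw [comm_iff] at hc
    show (build a r c M.1).det = 1
    rw [det_of_shape _ hc.2.1 hc.2.2, build_00, build_11, one_mul, one_mul]
    have : (build a r c M.1).submatrix (Fin.succ ∘ Fin.succ) (Fin.succ ∘ Fin.succ) = M.1 := by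
      ext i j
      rfl
    rw [this, M.2]
  · rintro ⟨hdet, hc⟩
    rw [comm_iff] at hc
    obtain ⟨h1, h2, h3⟩ := hc
    rw [det_of_shape _ h2 h3] at hdet
    obtain ⟨e0, e1'⟩ := zmod2_mul hdet
    obtain ⟨e1, e2⟩ := zmod2_mul e1'
    refine ⟨⟨g 0 1, fun j => g 0 j.succ.succ, fun i => g i.succ.succ 1,
      ⟨g.submatrix (Fin.succ ∘ Fin.succ) (Fin.succ ∘ Fin.succ), e2⟩⟩, ?_⟩
    simp only [param]
    ext i j
    refine Fin.cases ?_ (fun i => Fin.cases ?_ (fun i => ?_) i) i <;>
      refine Fin.cases ?_ (fun j => Fin.cases ?_ (fun j => ?_) j) j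
    · exact e0.symm
    · rfl
    · rfl
    · exact (h2 0).symm
    · exact e1.symm
    · exact (h3 j).symm
    · exact (h2 i.succ).symm
    · rfl
    · rfl


theorem mem_cent (s : Matrix.SpecialLinearGroup (Fin 5) (ZMod 2))
    (hs : (s : Matrix (Fin 5) (Fin 5) (ZMod 2)) = Matrix.transvection 0 1 1)
    (g : Matrix.SpecialLinearGroup (Fin 5) (ZMod 2)) :
    g ∈ Subgroup.centralizer ({s} : Set (Matrix.SpecialLinearGroup (Fin 5) (ZMod 2))) ↔
      Matrix.transvection 0 1 1 * g.1 = g.1 * Matrix.transvection 0 1 1 := by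
  rw [Subgroup.mem_centralizer_iff]
  constructor
  · intro h
    have h' := congrArg Subtype.val (h s rfl)
    rw [Matrix.SpecialLinearGroup.coe_mul, Matrix.SpecialLinearGroup.coe_mul, hs] at h'
    exact h'
  · intro h x hx
    rw [Set.mem_singleton_iff] at hx
    subst hx
    apply Subtype.ext
    rw [Matrix.SpecialLinearGroup.coe_mul, Matrix.SpecialLinearGroup.coe_mul, hs]
    exact h

/-- In the special linear group of dimension 5 over the field with two elements, the centraliser of a transvection has order 21504 = 2 ^ 7 · 168 (it is an extension of an extraspecial group of order 2 ^ 7 by the simple group of order 168). -/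
theorem result (s : Matrix.SpecialLinearGroup (Fin 5) (ZMod 2)) (hs : (s : Matrix (Fin 5) (Fin 5) (ZMod 2)) = Matrix.transvection 0 1 1) : Nat.card (Subgroup.centralizer ({s} : Set (Matrix.SpecialLinearGroup (Fin 5) (ZMod 2)))) = 21504 := by
  let T : Set (Matrix (Fin 5) (Fin 5) (ZMod 2)) := {g | g.det = 1 ∧
      Matrix.transvection 0 1 1 * g = g * Matrix.transvection 0 1 1}
  let e : (Subgroup.centralizer ({s} : Set (Matrix.SpecialLinearGroup (Fin 5) (ZMod 2)))) ≃ T :=
    { toFun := fun x => ⟨x.1.1, x.1.2, (mem_cent s hs x.1).1 x.2⟩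
      invFun := fun y => ⟨⟨y.1, y.2.1⟩, (mem_cent s hs ⟨y.1, y.2.1⟩).2 y.2.2⟩
      left_inv := fun x => rfl
      right_inv := fun y => rfl }
  rw [Nat.card_congr e]
  show Nat.card ({g : Matrix (Fin 5) (Fin 5) (ZMod 2) | g.det = 1 ∧
      Matrix.transvection 0 1 1 * g = g * Matrix.transvection 0 1 1}) = 21504
  rw [← range_param, Nat.card_range_of_injective param_injective, Nat.card_prod, Nat.card_prod,
    Nat.card_prod, card_sl3]
  simp [Nat.card_eq_fintype_card, ZMod.card]

end Cfsg.Agent.S0445
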