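import Cfsg.Statements.S0458
import Cfsg.Agent.Lib.Helper13.J3O

set_option autoImplicit false
open Cfsg

namespace Cfsg.Agent.S0458

open Cfsg.Agent.Lib.Helper13 Cfsg.Agent.Lib.Helper13.CE

/-- Existence of J₃ as a permutation group on 6156 points with point stabiliser of order 8160. -/
theorem result : ∃ H : Subgroup (Equiv.Perm (Fin 6156)), Cfsg.IsJ3 H ∧ MulAction.IsPretransitive H (Fin 6156) ∧ Nat.card (MulAction.stabilizer H (0 : Fin 6156)) = 8160 := by
  obtain ⟨X, f, hnets, hev, hf, hinj, hcard⟩ := J3O.faithful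
  have e : J3O.P ≃* X.φ.range := MonoidHom.ofInjective hinj
  have hcardR : Nat.card X.φ.range = 50232960 := by
    rw [← Nat.card_congr e.toEquiv, hcard]
  have htr : MulAction.IsPretransitive X.φ.range (Fin 6156) := by
    constructor
    intro x y
    obtain ⟨gx, hx⟩ := X.exists_φ_zero_eq J3O.Hs f hf x
    obtain ⟨gy, hy⟩ := X.exists_φ_zero_eq J3O.Hs f hf y
    refine ⟨⟨X.φ (gy * gx⁻¹), ⟨_, rfl⟩⟩, ?_⟩
    show X.φ (gy * gx⁻¹) x = y
    rw [map_mul, Equiv.Perm.coe_mul, Function.comp_apply, map_inv, ← hx]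
    simp [hy]
  refine ⟨X.φ.range, ⟨?_, hcardR⟩, htr, ?_⟩
  · have := J3O.simple
    exact e.symm.isSimpleGroup
  · have h1 := MulAction.index_stabilizer_of_transitive X.φ.range (0 : Fin 6156)
    rw [Nat.card_eq_fintype_card, Fintype.card_fin] at h1
    have h2 := Subgroup.card_mul_index (MulAction.stabilizer X.φ.range (0 : Fin 6156))
    rw [h1, hcardR] at h2
    omega

end Cfsg.Agent.S0458
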