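import Cfsg.Statements.S0462
import Cfsg.Agent.Lib.Helper13.HeSp
import Cfsg.Agent.Lib.Helper13.Sp44F

set_option autoImplicit false
open Cfsg

namespace Cfsg.Agent.S0462

open Cfsg.Agent.Lib.Helper13.CE Cfsg.Spor
open Cfsg.Agent.Lib.Helper13

/-- The Held group exists as a transitive permutation group of degree 2058: simple of order 4030387200, with point stabiliser containing, with index 2, a copy of the 4-dimensional symplectic group over the field with four elements. -/
theorem result : ∃ H : Subgroup (Equiv.Perm (Fin 2058)), Cfsg.IsHe H ∧ MulAction.IsPretransitive H (Fin 2058) ∧ ∃ (F : Type) (_ : Field F) (_ : Fintype F), Fintype.card F = 4 ∧ ∃ N : Subgroup (MulAction.stabilizer H (0 : Fin 2058)), N.index = 2 ∧ Nonempty (N ≃* Matrix.symplecticGroup (Fin 2) F) := by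
  classical
  obtain ⟨X, f, hnets, hev, hf, hinj, hcard⟩ := HeO.faithful
  have e : He ≃* X.φ.range := MonoidHom.ofInjective hinj
  have hcardR : Nat.card X.φ.range = 4030387200 := by
    rw [← Nat.card_congr e.toEquiv, hcard]
  have htr : MulAction.IsPretransitive X.φ.range (Fin 2058) := by
    constructor
    intro x y
    obtain ⟨gx, hx⟩ := X.exists_φ_zero_eq HeO.HB f hf x
    obtain ⟨gy, hy⟩ := X.exists_φ_zero_eq HeO.HB f hf y
    refine ⟨⟨X.φ (gy * gx⁻¹), ⟨_, rfl⟩⟩, ?_⟩
    show X.φ (gy * gx⁻¹) x = y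
    rw [map_mul, Equiv.Perm.coe_mul, Function.comp_apply, map_inv, ← hx]
    simp [hy]
  have hcS : Nat.card (MulAction.stabilizer X.φ.range (0 : Fin 2058)) = 1958400 := by
    have h1 := MulAction.index_stabilizer_of_transitive X.φ.range (0 : Fin 2058)
    rw [Nat.card_eq_fintype_card, Fintype.card_fin] at h1
    have h2 := Subgroup.card_mul_index (MulAction.stabilizer X.φ.range (0 : Fin 2058))
    rw [h1, hcardR] at h2
    omega
  obtain ⟨K, hK1, hK2, hK, ⟨eK⟩⟩ := Sp44.exists_field
  let η : HeNO.P →* X.φ.range :=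
    (X.φ.rangeRestrict).comp ((Subgroup.subtype HeO.HB).comp HeSp.psi)
  have hη : ∀ p, η p ∈ MulAction.stabilizer X.φ.range (0 : Fin 2058) := by
    intro p
    rw [MulAction.mem_stabilizer_iff]
    show X.φ ((HeSp.psi p : HeO.HB) : He) 0 = 0
    exact (X.mem_iff_φ_zero HeO.HB f hf _).mp (HeSp.psi p).2
  let χ : HeNO.P →* MulAction.stabilizer X.φ.range (0 : Fin 2058) := η.codRestrict _ hη
  have hχ : Function.Injective χ := by
    intro p q hpq
    apply HeSp.psi_injective
    apply Subtype.ext
    apply hinj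
    have h1 := congrArg (fun z : MulAction.stabilizer X.φ.range (0 : Fin 2058) =>
      ((z : X.φ.range) : Equiv.Perm (Fin 2058))) hpq
    exact h1
  have eN : HeNO.P ≃* χ.range := MonoidHom.ofInjective hχ
  have hcN : Nat.card χ.range = 979200 := by
    rw [← Nat.card_congr eN.toEquiv, HeNO.card]
  refine ⟨X.φ.range, ⟨?_, hcardR⟩, htr, K, hK1, hK2, hK, χ.range, ?_, ⟨eN.symm.trans eK⟩⟩
  · have := HeO.simple
    exact e.symm.isSimpleGroup
  · have h := Subgroup.card_mul_index χ.range
    rw [hcN, hcS] at h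
    omega

end Cfsg.Agent.S0462
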