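import Cfsg.Statements.S0471
import Cfsg.Agent.Lib.Helper13.U6Fi
import Cfsg.Agent.Lib.Helper13.U6SU
import Cfsg.Agent.Lib.Helper13.CosetTransp

set_option autoImplicit false
open Cfsg

namespace Cfsg.Agent.S0471

open Cfsg.Agent.Lib.Helper13.CE Cfsg.Agent.Lib.Helper13.Fi22x3510 Cfsg.Spor
open Cfsg.Agent.Lib.Helper13

theorem exists_omega (F : Type) [Field F] [Fintype F] (hcard : Fintype.card F = 4) :
    ∃ ω : F, ω ^ 2 + ω + 1 = 0 := by
  classical
  have hx : ∃ x : F, x ≠ 0 ∧ x ≠ 1 := by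
    by_contra hne
    have hne' : ∀ x : F, x ≠ 0 → x = 1 := by
      intro x hx0
      by_contra hx1
      exact hne ⟨x, hx0, hx1⟩
    have hle : Fintype.card F ≤ 2 := by
      calc Fintype.card F = (Finset.univ : Finset F).card := rfl
        _ ≤ ({0, 1} : Finset F).card := Finset.card_le_card (by
            intro x _
            by_cases h : x = 0
            · simp [h]
            · simp [hne' x h])
        _ ≤ 2 := Finset.card_le_two
    omega
  obtain ⟨x, hx0, hx1⟩ := hx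
  refine ⟨x, ?_⟩
  have h3 : x ^ 3 = 1 := by
    have := FiniteField.pow_card_sub_one_eq_one x hx0
    rw [hcard] at this
    exact this
  have h4 : (x - 1) * (x ^ 2 + x + 1) = 0 := by linear_combination h3
  rcases mul_eq_zero.mp h4 with h | h
  · exact absurd (sub_eq_zero.mp h) hx1
  · exact h

/-- The Fischer group of order 64561751654400 exists as a 3-transposition group: a simple group of that order generated by a conjugacy class of 3510 3-transpositions, the centraliser of each being a non-split double cover of PSU(6, 2). -/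
theorem result : ∃ (G : Type) (_ : Group G) (_ : Finite G), Cfsg.IsFi22 G ∧ ∃ D : Set G, Cfsg.IsThreeTranspositionClass D ∧ Nat.card D = 3510 ∧ ∀ d ∈ D, ∃ (F : Type) (_ : Field F) (_ : Fintype F), Fintype.card F = 4 ∧ Cfsg.IsNonsplitDoubleCover (Subgroup.centralizer ({d} : Set G)) (Cfsg.PSU 6 F 2) := by
  classical
  letI : Fintype (GaloisField 2 2) := Fintype.ofFinite (GaloisField 2 2)
  have hcard4 : Fintype.card (GaloisField 2 2) = 4 := by
    have h := GaloisField.card 2 2 (by norm_num)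
    rw [Nat.card_eq_fintype_card] at h
    rw [h]; norm_num
  obtain ⟨ω, hω⟩ := exists_omega (GaloisField 2 2) hcard4
  obtain ⟨XA, fA, hnetsA, hevA, hfA, hinj, hcard⟩ := Fi22O.faithful
  obtain ⟨X, f, hnets, hev, hf⟩ := Fi22O.mainB
  have hH : Fi22O.HB = Subgroup.closure {g | ∃ W ∈ par.subs, g = X.ev W} := by
    unfold Fi22O.HB
    congr 1
    ext g
    constructor
    · rintro ⟨W, hW, rfl⟩; exact ⟨W, hW, (hev W).symm⟩
    · rintro ⟨W, hW, rfl⟩; exact ⟨W, hW, hev W⟩
  have ho1 : orbOK X.nets 3510 par.subs orb1 1 693 = true := by rw [hnets]; exact horb1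
  have ho2 : orbOK X.nets 3510 par.subs orb694 (1 + 693) 2816 = true := by
    rw [hnets]; exact horb694
  -- the transposition
  have ht2 : U6Fi.val [.a] * U6Fi.val [.a] = 1 := U6Fi.a_sq
  have ht1 : U6Fi.val [.a] ≠ 1 := U6Fi.a_ne_one
  have hcent : ∀ h ∈ Fi22O.HB, h * U6Fi.val [.a] = U6Fi.val [.a] * h := U6Fi.a_comm
  have hs : ∀ x, XA.s x = PresentedGroup.of x := by
    intro x
    have := hevA [x]
    simp only [Act.ev, List.map_cons, List.map_nil, List.prod_cons, List.prod_nil,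
      mul_one] at this
    exact this
  have hgen : Subgroup.closure (Set.range XA.s) = ⊤ := by
    have h1 : XA.s = PresentedGroup.of (rels := Fi22O.Rel) := funext hs
    rw [h1]
    exact PresentedGroup.closure_range_of _
  have hTw : XA.ev Fi22S.Tw = U6Fi.val [.a] := hevA _
  have hconj : ∀ x, ∃ v, XA.s x = v * U6Fi.val [.a] * v⁻¹ := fun x =>
    ⟨XA.ev (Fi22S.conjW x), by
      rw [← hTw]
      exact XA.conj_of_relOK hinj _ _ x (by
        rw [hnetsA]; exact (List.all_eq_true.mp Fi22S.hconj) x (Fi22O.hlettersA x))⟩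
  have hperf : commutator Fi22 = ⊤ :=
    XA.commutator_eq_top hgen _ hconj Fi22S.W0
      (XA.ev_eq_one_of_inj hinj _ (by rw [hnetsA]; exact Fi22S.hW0)) (by decide)
  have : IsSimpleGroup Fi22 := Fi22O.simple
  have htc : U6Fi.val [.a] ∉ Subgroup.center Fi22 := by
    rw [center_eq_bot_of_simple hperf, Subgroup.mem_bot]
    exact ht1
  have hprim := X.isPreprimitive_of_rank3 Fi22O.HB f hf par.subs hH orb1 orb694 693 2816
    (by norm_num) ho1 ho2 (by norm_num) (by norm_num)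
  have hC : Subgroup.centralizer ({U6Fi.val [.a]} : Set Fi22) = Fi22O.HB :=
    X.centralizer_eq Fi22O.HB f hf hprim (by norm_num) _ hcent htc
  -- the generators `a`, `b`, `c`
  have hA : XA.s .a = U6Fi.val [.a] := by
    rw [← hTw]
    simp only [Fi22S.Tw, Act.ev_cons, Act.ev_nil, mul_one]
  have hB : XA.s .b = XA.ev (Fi22S.conjW .b) * U6Fi.val [.a] * (XA.ev (Fi22S.conjW .b))⁻¹ := by
    rw [← hTw]
    exact XA.conj_of_relOK hinj _ _ .b (by
      rw [hnetsA]; exact (List.all_eq_true.mp Fi22S.hconj) .b (Fi22O.hlettersA .b))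
  have hCc : XA.s .c = XA.ev (Fi22S.conjW .c) * U6Fi.val [.a] * (XA.ev (Fi22S.conjW .c))⁻¹ := by
    rw [← hTw]
    exact XA.conj_of_relOK hinj _ _ .c (by
      rw [hnetsA]; exact (List.all_eq_true.mp Fi22S.hconj) .c (Fi22O.hlettersA .c))
  have cox : ∀ x y : Fi22.Gen, (XA.s x * XA.s y) ^ coxLabel Fi22.edges x y = 1 := by
    intro x y
    rw [hs, hs]
    have h : PresentedGroup.mk Fi22O.Rel
        ((FreeGroup.of x * FreeGroup.of y) ^ coxLabel Fi22.edges x y) = 1 :=
      PresentedGroup.one_of_mem (Or.inl ⟨x, Fi22O.hnodes x, y, Fi22O.hnodes y, rfl⟩)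
    rw [map_pow, map_mul] at h
    exact h
  have h2 : (U6Fi.val [.a] * (XA.ev (Fi22S.conjW .c) * U6Fi.val [.a] *
      (XA.ev (Fi22S.conjW .c))⁻¹)) ^ 2 = 1 := by
    rw [← hCc, ← hA]
    have h := cox .a .c
    have hl : coxLabel Fi22.edges .a .c = 2 := by decide
    rw [hl] at h
    exact h
  have h3 : (U6Fi.val [.a] * (XA.ev (Fi22S.conjW .b) * U6Fi.val [.a] *
      (XA.ev (Fi22S.conjW .b))⁻¹)) ^ 3 = 1 := by
    rw [← hB, ← hA]
    have h := cox .a .b
    have hl : coxLabel Fi22.edges .a .b = 3 := by decide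
    rw [hl] at h
    exact h
  have hAB : ∀ W : List Fi22.Gen, XA.ev W = X.ev W := fun W => by rw [hevA, hev]
  have hu1 : 1 ≤ ((X.φ (XA.ev (Fi22S.conjW .c)) 0 : Fin 3510) : ℕ) ∧
      ((X.φ (XA.ev (Fi22S.conjW .c)) 0 : Fin 3510) : ℕ) < 1 + 693 := by
    have h0 : wpos X.nets (Fi22S.conjW .c) 0 = 1 := by rw [hnets]; exact U6Fi.hpc
    have h1 := X.φ_ev_val (Fi22S.conjW .c) 0
    rw [hAB, h1]
    show 1 ≤ wpos X.nets (Fi22S.conjW .c) 0 ∧ wpos X.nets (Fi22S.conjW .c) 0 < 1 + 693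
    rw [h0]; norm_num
  have hu2 : 1 + 693 ≤ ((X.φ (XA.ev (Fi22S.conjW .b)) 0 : Fin 3510) : ℕ) ∧
      ((X.φ (XA.ev (Fi22S.conjW .b)) 0 : Fin 3510) : ℕ) < 1 + 693 + 2816 := by
    have h0 : wpos X.nets (Fi22S.conjW .b) 0 = 695 := by rw [hnets]; exact U6Fi.hpb
    have h1 := X.φ_ev_val (Fi22S.conjW .b) 0
    rw [hAB, h1]
    show 1 + 693 ≤ wpos X.nets (Fi22S.conjW .b) 0 ∧
      wpos X.nets (Fi22S.conjW .b) 0 < 1 + 693 + 2816
    rw [h0]; norm_num
  have h3t := X.three_transp Fi22O.HB f hf par.subs hH orb1 orb694 693 2816 (by norm_num)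
    ho1 ho2 (U6Fi.val [.a]) hcent ht2 _ _ hu1 hu2 h2 h3
  refine ⟨Fi22, inferInstance, Fi22O.finite, ⟨Fi22O.simple, Fi22O.card⟩,
    conjugatesOf (U6Fi.val [.a]), ⟨⟨?_, h3t⟩, ⟨U6Fi.val [.a], mem_conjugatesOf_self, rfl⟩, ?_⟩,
    X.card_conjugatesOf Fi22O.HB f hf _ hC, ?_⟩
  · intro d hd
    obtain ⟨a, rfl⟩ := isConj_iff.mp hd
    have : Fact (Nat.Prime 2) := ⟨Nat.prime_two⟩
    apply orderOf_eq_prime
    · rw [conj_pow, pow_two, ht2]; group
    · intro h
      exact ht1 (conj_eq_one_iff.mp h)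
  · rw [eq_top_iff, ← hgen, Subgroup.closure_le]
    rintro _ ⟨x, rfl⟩
    obtain ⟨v, hv⟩ := hconj x
    apply Subgroup.subset_closure
    exact isConj_iff.mpr ⟨v, hv.symm⟩
  · intro d hd
    obtain ⟨a, rfl⟩ := isConj_iff.mp hd
    refine ⟨GaloisField 2 2, inferInstance, inferInstance, hcard4, ?_⟩
    exact nonsplit_congr ((MulEquiv.subgroupCongr hC.symm).trans (centralizerConjEquiv _ a))
      (U6Fi.nonsplit_right (U6SU.equivPSU hcard4 ω hω) U6Fi.cover)

end Cfsg.Agent.S0471
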