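import Cfsg.Statements.S0478
import Cfsg.Agent.Lib.Helper13.J3SUg

set_option autoImplicit false
open Cfsg

namespace Cfsg.Agent.S0478

open Cfsg.Agent.Lib.Helper13

theorem exists_omega (F : Type) [Field F] [Fintype F] (hcard : Fintype.card F = 4) :
    ∃ ω : F, ω ^ 2 + ω + 1 = 0 := by
  classical
  have hx : ∃ x : F, x ≠ 0 ∧ x ≠ 1 := by
    by_contra hne
    have hne' : ∀ x : F, x ≠ 0 → x = 1 := by
      intro x hx0
      by_contra hx1
      exact hne ⟨x, hx0, hx1⟩
    have hle : Fintype.card F ≤ 2 := by
      calc Fintype.card F = (Finset.univ : Finset F).card := rfl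
        _ ≤ ({0, 1} : Finset F).card := Finset.card_le_card (by
            intro x _
            by_cases h : x = 0
            · simp [h]
            · simp [hne' x h])
        _ ≤ 2 := Finset.card_le_two
    omega
  obtain ⟨x, hx0, hx1⟩ := hx
  refine ⟨x, ?_⟩
  have h3 : x ^ 3 = 1 := by
    have := FiniteField.pow_card_sub_one_eq_one x hx0
    rw [hcard] at this
    exact this
  have h4 : (x - 1) * (x ^ 2 + x + 1) = 0 := by linear_combination h3
  rcases mul_eq_zero.mp h4 with h | h
  · exact absurd (sub_eq_zero.mp h) hx1
  · exact h

/-- A triple cover of Janko's third group inside a unitary group: for a field F with four elements, the special unitary group of dimension 9 (with respect to the form with q = 2) has a subgroup whose centre has order 3 and whose quotient by its centre is simple of order 50232960. -/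
theorem result : ∃ (F : Type) (_ : Field F) (_ : Fintype F), Fintype.card F = 4 ∧ ∃ H : Subgroup (Cfsg.SU 9 F 2), Nat.card (Subgroup.center H) = 3 ∧ Cfsg.IsJ3 (H ⧸ Subgroup.center H) := by
  classical
  letI : Fintype (GaloisField 2 2) := Fintype.ofFinite (GaloisField 2 2)
  have hcard : Fintype.card (GaloisField 2 2) = 4 := by
    have h := GaloisField.card 2 2 (by norm_num)
    rw [Nat.card_eq_fintype_card] at h
    rw [h]; norm_num
  obtain ⟨ω, hω⟩ := exists_omega (GaloisField 2 2) hcard
  exact ⟨GaloisField 2 2, inferInstance, inferInstance, hcard, J3SU.main ω hω⟩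

end Cfsg.Agent.S0478
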