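import Cfsg.Statements.S0481

set_option autoImplicit false
open Cfsg

namespace Cfsg.Agent.S0481

open scoped Pointwise

/-- Large extraspecial subgroups: let z be an involution of a finite group G whose centraliser C contains a normal 2-subgroup Q with centre of order 2 and all squares central, such that every element of G centralising Q lies in Q. Then C contains a Sylow 2-subgroup of G, and any involution of G whose centraliser contains a Sylow 2-subgroup of G is conjugate to z. -/
theorem result {G : Type*} [Group G] [Finite G] (z : G) (hz : orderOf z = 2) (Q : Subgroup G) (hQC : Q ≤ Subgroup.centralizer ({z} : Set G)) (hQn : ∀ g ∈ Subgroup.centralizer ({z} : Set G), ∀ q ∈ Q, g * q * g⁻¹ ∈ Q) (hQ2 : IsPGroup 2 Q) (hZ : Nat.card (Subgroup.center Q) = 2) (hsq : ∀ x : Q, x ^ 2 ∈ Subgroup.center Q) (hlarge : Subgroup.centralizer (Q : Set G) ≤ Q) : (∃ P : Sylow 2 G, (P : Subgroup G) ≤ Subgroup.centralizer ({z} : Set G)) ∧ ∀ u : G, orderOf u = 2 → (∃ P : Sylow 2 G, (P : Subgroup G)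 ≤ Subgroup.centralizer ({u} : Set G)) → IsConj z u := by
  classical
  have hF : Fact (Nat.Prime 2) := ⟨Nat.prime_two⟩
  have hz1 : z ≠ 1 := by
    intro h
    rw [h, orderOf_one] at hz
    omega
  have hzz : z * z = 1 := by
    have h := pow_orderOf_eq_one z
    rwa [hz, pow_two] at h
  have hQz : ∀ q ∈ Q, q * z = z * q := fun q hq =>
    Subgroup.mem_centralizer_singleton_iff.mp (hQC hq)
  have hzQ : z ∈ Q := by
    apply hlarge
    rw [Subgroup.mem_centralizer_iff]
    intro q hq
    exact hQz q hq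
  have hzZ : (⟨z, hzQ⟩ : Q) ∈ Subgroup.center Q := by
    rw [Subgroup.mem_center_iff]
    intro q
    exact Subtype.ext (hQz q q.2)
  have key : ∀ y ∈ Q, (∀ q ∈ Q, q * y = y * q) → y = 1 ∨ y = z := by
    intro y hy hyc
    have hyZ : (⟨y, hy⟩ : Q) ∈ Subgroup.center Q := by
      rw [Subgroup.mem_center_iff]
      intro q
      exact Subtype.ext (hyc q q.2)
    have hne : (⟨⟨z, hzQ⟩, hzZ⟩ : Subgroup.center Q) ≠ 1 := by
      intro h
      exact hz1 (congrArg (fun w : Subgroup.center Q => ((w : Q) : G)) h)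
    have hmem : (⟨⟨y, hy⟩, hyZ⟩ : Subgroup.center Q) ∈
        Subgroup.zpowers (⟨⟨z, hzQ⟩, hzZ⟩ : Subgroup.center Q) :=
      mem_zpowers_of_prime_card hZ hne
    obtain ⟨k, hk⟩ := Subgroup.mem_zpowers_iff.mp hmem
    have hk' : z ^ k = y := by
      have h := congrArg (fun w : Subgroup.center Q => ((w : Q) : G)) hk
      simpa using h
    have h2 : z ^ (2 : ℤ) = 1 := by rw [zpow_two]; exact hzz
    rw [zpow_eq_zpow_emod k h2] at hk'
    rcases Int.emod_two_eq_zero_or_one k with h | h
    · left; rw [h, zpow_zero] at hk'; exact hk'.symm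
    · right; rw [h, zpow_one] at hk'; exact hk'.symm
  obtain ⟨P, hQP⟩ := hQ2.exists_le_sylow
  have hzP : ∀ x ∈ (P : Subgroup G), x * z = z * x := by
    have hnt : Nontrivial (P : Subgroup G) :=
      ⟨⟨⟨z, hQP hzQ⟩, 1, fun h => hz1 (congrArg Subtype.val h)⟩⟩
    have hcn : Nontrivial (Subgroup.center (P : Subgroup G)) := P.isPGroup'.center_nontrivial
    obtain ⟨y', hy'⟩ := exists_ne (1 : Subgroup.center (P : Subgroup G))
    have hyc : ∀ x ∈ (P : Subgroup G), x * ((y' : (P : Subgroup G)) : G) =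
        ((y' : (P : Subgroup G)) : G) * x := by
      intro x hx
      have h := Subgroup.mem_center_iff.mp y'.2 ⟨x, hx⟩
      exact congrArg Subtype.val h
    have hyQ : ((y' : (P : Subgroup G)) : G) ∈ Q := by
      apply hlarge
      rw [Subgroup.mem_centralizer_iff]
      intro q hq
      exact hyc q (hQP hq)
    rcases key _ hyQ (fun q hq => hyc q (hQP hq)) with h | h
    · exfalso
      apply hy'
      apply Subtype.ext
      apply Subtype.ext
      exact h
    · rw [← h]; exact hyc
  refine ⟨⟨P, fun x hx => Subgroup.mem_centralizer_singleton_iff.mpr (hzP x hx)⟩, ?_⟩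
  rintro u hu ⟨P', hP'⟩
  have hu1 : u ≠ 1 := by
    intro h
    rw [h, orderOf_one] at hu
    omega
  obtain ⟨g, hg⟩ := MulAction.exists_smul_eq G P' P
  have hgP : ∀ x ∈ (P : Subgroup G), g⁻¹ * x * g ∈ (P' : Subgroup G) := by
    intro x hx
    rw [← hg, Sylow.coe_subgroup_smul, Subgroup.mem_pointwise_smul_iff_inv_smul_mem] at hx
    have h7 : (MulAut.conj g)⁻¹ • x = g⁻¹ * x * g := by simp [MulAut.smul_def, mul_assoc]
    rwa [h7] at hx
  have huc : ∀ x ∈ (P : Subgroup G), x * (g * u * g⁻¹) = (g * u * g⁻¹) * x := by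
    intro x hx
    have h1 : (g⁻¹ * x * g) * u = u * (g⁻¹ * x * g) :=
      Subgroup.mem_centralizer_singleton_iff.mp (hP' (hgP x hx))
    calc x * (g * u * g⁻¹) = g * ((g⁻¹ * x * g) * u) * g⁻¹ := by group
      _ = g * (u * (g⁻¹ * x * g)) * g⁻¹ := by rw [h1]
      _ = (g * u * g⁻¹) * x := by group
  have huQ : g * u * g⁻¹ ∈ Q := by
    apply hlarge
    rw [Subgroup.mem_centralizer_iff]
    intro q hq
    exact huc q (hQP hq)
  rcases key _ huQ (fun q hq => huc q (hQP hq)) with h | h
  · exfalso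
    apply hu1
    have h2 : u = g⁻¹ * (g * u * g⁻¹) * g := by group
    rw [h2, h]; group
  · rw [isConj_iff]
    refine ⟨g⁻¹, ?_⟩
    rw [← h]; group

end Cfsg.Agent.S0481
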