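import Cfsg.Statements.S0493
import Cfsg.Agent.Lib.Helper2.CharBurnside

set_option autoImplicit false
open Cfsg

namespace Cfsg.Agent.S0493

universe u

/-- A simple group of order `2 * m` with `m > 1` odd does not exist. -/
theorem two_odd (G : Type u) [Group G] [Finite G] [IsSimpleGroup G] (m : ℕ) (hm : Odd m)
    (hm1 : 1 < m) (hcard : Nat.card G = 2 * m) : False := by
  classical
  haveI : Fact (Nat.Prime 2) := ⟨Nat.prime_two⟩
  obtain ⟨P⟩ := (inferInstance : Nonempty (Sylow 2 G))
  have hfac : (Nat.card G).factorization 2 = 1 := by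
    rw [hcard, Nat.factorization_mul (by norm_num) (by omega), Finsupp.add_apply,
      Nat.Prime.factorization_self Nat.prime_two,
      Nat.factorization_eq_zero_of_not_dvd (by rw [← even_iff_two_dvd]; exact Nat.not_even_iff_odd.mpr hm)]
  have hcP : Nat.card P = 2 := by
    rw [P.card_eq_multiplicity, hfac, pow_one]
  have hNC : Subgroup.normalizer ((P : Subgroup G) : Set G) ≤
      Subgroup.centralizer ((P : Subgroup G) : Set G) := by
    intro g hg
    rw [Subgroup.mem_centralizer_iff]
    intro y hy
    obtain ⟨z, hz, huniq⟩ := (Nat.card_eq_two_iff' (1 : P)).mp hcP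
    by_cases hy1 : y = 1
    · rw [hy1]; simp
    · have hyz : (⟨y, hy⟩ : P) = z := huniq _ (fun h => hy1 (congrArg Subtype.val h))
      have hgy : g * y * g⁻¹ ∈ (P : Subgroup G) := (Subgroup.mem_normalizer_iff.mp hg y).mp hy
      have hne : (⟨g * y * g⁻¹, hgy⟩ : P) ≠ 1 := by
        intro h
        have h1 : g * y * g⁻¹ = 1 := congrArg Subtype.val h
        apply hy1
        calc y = g⁻¹ * (g * y * g⁻¹) * g := by group
          _ = 1 := by rw [h1]; group
      have h2 : (⟨g * y * g⁻¹, hgy⟩ : P) = z := huniq _ hne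
      have h3 : g * y * g⁻¹ = y := by
        have := congrArg Subtype.val (h2.trans hyz.symm)
        exact this
      calc y * g = g * y * g⁻¹ * g := by rw [h3]
        _ = g * y := by group
  have hcomp := MonoidHom.ker_transferSylow_isComplement' P hNC
  have hcm := hcomp.card_mul_card
  rw [hcP, hcard] at hcm
  have hKn : (MonoidHom.transferSylow P hNC).ker.Normal := MonoidHom.normal_ker _
  rcases Subgroup.Normal.eq_bot_or_eq_top hKn with h | h
  · rw [h, Subgroup.card_bot] at hcm
    omega
  · rw [h, Subgroup.card_top, hcard] at hcm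
    omega

/-- No simple group has order 84. -/
theorem order84 (G : Type u) [Group G] [Finite G] [IsSimpleGroup G] : Nat.card G ≠ 84 := by
  classical
  intro hcard
  haveI : Fact (Nat.Prime 7) := ⟨by norm_num⟩
  obtain ⟨P⟩ := (inferInstance : Nonempty (Sylow 7 G))
  have hfac : (Nat.card G).factorization 7 = 1 := by
    rw [hcard]
    have h84 : (84 : ℕ) = 7 * 12 := by norm_num
    rw [h84, Nat.factorization_mul (by norm_num) (by norm_num), Finsupp.add_apply,
      Nat.Prime.factorization_self (by norm_num),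
      Nat.factorization_eq_zero_of_not_dvd (by norm_num)]
  have hcP : Nat.card P = 7 := by
    rw [P.card_eq_multiplicity, hfac, pow_one]
  have hidx : (P : Subgroup G).index = 12 := by
    have h1 : Nat.card P * (P : Subgroup G).index = Nat.card G := Subgroup.card_mul_index _
    rw [hcP, hcard] at h1
    omega
  have h1 : Nat.card (Sylow 7 G) ≡ 1 [MOD 7] := card_sylow_modEq_one 7 G
  have h2 : Nat.card (Sylow 7 G) ∣ 12 := hidx ▸ Sylow.card_dvd_index P
  have h3 : Nat.card (Sylow 7 G) = 1 := by
    have hle : Nat.card (Sylow 7 G) ≤ 12 := Nat.le_of_dvd (by norm_num) h2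
    have hpos : 0 < Nat.card (Sylow 7 G) := Nat.card_pos
    unfold Nat.ModEq at h1
    generalize Nat.card (Sylow 7 G) = k at *
    interval_cases k <;> simp_all (config := {decide := true})
  haveI : Subsingleton (Sylow 7 G) := (Nat.card_eq_one_iff_unique.mp h3).1
  have hPn : (P : Subgroup G).Normal := Sylow.normal_of_subsingleton P
  rcases Subgroup.Normal.eq_bot_or_eq_top hPn with h | h
  · rw [h, Subgroup.card_bot] at hcP
    omega
  · rw [h, Subgroup.card_top, hcard] at hcP
    omega

/-- A finite simple group of order at most 100 that is not cyclic has order 60. -/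
theorem result {G : Type*} [Group G] [Finite G] [IsSimpleGroup G]
    (hG : ¬ IsCyclic G) (h : Nat.card G ≤ 100) : Nat.card G = 60 := by
  classical
  have hns : ¬ Group.IsSolvable G := by
    intro hsolv
    have hcomm := IsSimpleGroup.comm_iff_isSolvable.mpr hsolv
    letI : CommGroup G := { (inferInstance : Group G) with mul_comm := hcomm }
    exact hG inferInstance
  have hpos : 0 < Nat.card G := Nat.card_pos
  generalize hcard : Nat.card G = n at h hpos ⊢
  interval_cases n
  · exact absurd (Cfsg.Agent.Lib.Helper2.burnside_paqb (G := G) 2 3 0 0 (by norm_num) (by norm_num) (hcard.trans (by norm_num))) hns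
  · exact absurd (Cfsg.Agent.Lib.Helper2.burnside_paqb (G := G) 2 3 1 0 (by norm_num) (by norm_num) (hcard.trans (by norm_num))) hns
  · exact absurd (Cfsg.Agent.Lib.Helper2.burnside_paqb (G := G) 3 2 1 0 (by norm_num) (by norm_num) (hcard.trans (by norm_num))) hns
  · exact absurd (Cfsg.Agent.Lib.Helper2.burnside_paqb (G := G) 2 3 2 0 (by norm_num) (by norm_num) (hcard.trans (by norm_num))) hns
  · exact absurd (Cfsg.Agent.Lib.Helper2.burnside_paqb (G := G) 5 2 1 0 (by norm_num) (by norm_num) (hcard.trans (by norm_num))) hns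
  · exact absurd (Cfsg.Agent.Lib.Helper2.burnside_paqb (G := G) 2 3 1 1 (by norm_num) (by norm_num) (hcard.trans (by norm_num))) hns
  · exact absurd (Cfsg.Agent.Lib.Helper2.burnside_paqb (G := G) 7 2 1 0 (by norm_num) (by norm_num) (hcard.trans (by norm_num))) hns
  · exact absurd (Cfsg.Agent.Lib.Helper2.burnside_paqb (G := G) 2 3 3 0 (by norm_num) (by norm_num) (hcard.trans (by norm_num))) hns
  · exact absurd (Cfsg.Agent.Lib.Helper2.burnside_paqb (G := G) 3 2 2 0 (by norm_num) (by norm_num) (hcard.trans (by norm_num))) hns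
  · exact absurd (Cfsg.Agent.Lib.Helper2.burnside_paqb (G := G) 2 5 1 1 (by norm_num) (by norm_num) (hcard.trans (by norm_num))) hns
  · exact absurd (Cfsg.Agent.Lib.Helper2.burnside_paqb (G := G) 11 2 1 0 (by norm_num) (by norm_num) (hcard.trans (by norm_num))) hns
  · exact absurd (Cfsg.Agent.Lib.Helper2.burnside_paqb (G := G) 2 3 2 1 (by norm_num) (by norm_num) (hcard.trans (by norm_num))) hns
  · exact absurd (Cfsg.Agent.Lib.Helper2.burnside_paqb (G := G) 13 2 1 0 (by norm_num) (by norm_num) (hcard.trans (by norm_num))) hns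
  · exact absurd (Cfsg.Agent.Lib.Helper2.burnside_paqb (G := G) 2 7 1 1 (by norm_num) (by norm_num) (hcard.trans (by norm_num))) hns
  · exact absurd (Cfsg.Agent.Lib.Helper2.burnside_paqb (G := G) 3 5 1 1 (by norm_num) (by norm_num) (hcard.trans (by norm_num))) hns
  · exact absurd (Cfsg.Agent.Lib.Helper2.burnside_paqb (G := G) 2 3 4 0 (by norm_num) (by norm_num) (hcard.trans (by norm_num))) hns
  · exact absurd (Cfsg.Agent.Lib.Helper2.burnside_paqb (G := G) 17 2 1 0 (by norm_num) (by norm_num) (hcard.trans (by norm_num))) hns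
  · exact absurd (Cfsg.Agent.Lib.Helper2.burnside_paqb (G := G) 2 3 1 2 (by norm_num) (by norm_num) (hcard.trans (by norm_num))) hns
  · exact absurd (Cfsg.Agent.Lib.Helper2.burnside_paqb (G := G) 19 2 1 0 (by norm_num) (by norm_num) (hcard.trans (by norm_num))) hns
  · exact absurd (Cfsg.Agent.Lib.Helper2.burnside_paqb (G := G) 2 5 2 1 (by norm_num) (by norm_num) (hcard.trans (by norm_num))) hns
  · exact absurd (Cfsg.Agent.Lib.Helper2.burnside_paqb (G := G) 3 7 1 1 (by norm_num) (by norm_num) (hcard.trans (by norm_num))) hns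
  · exact absurd (Cfsg.Agent.Lib.Helper2.burnside_paqb (G := G) 2 11 1 1 (by norm_num) (by norm_num) (hcard.trans (by norm_num))) hns
  · exact absurd (Cfsg.Agent.Lib.Helper2.burnside_paqb (G := G) 23 2 1 0 (by norm_num) (by norm_num) (hcard.trans (by norm_num))) hns
  · exact absurd (Cfsg.Agent.Lib.Helper2.burnside_paqb (G := G) 2 3 3 1 (by norm_num) (by norm_num) (hcard.trans (by norm_num))) hns
  · exact absurd (Cfsg.Agent.Lib.Helper2.burnside_paqb (G := G) 5 2 2 0 (by norm_num) (by norm_num) (hcard.trans (by norm_num))) hns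
  · exact absurd (Cfsg.Agent.Lib.Helper2.burnside_paqb (G := G) 2 13 1 1 (by norm_num) (by norm_num) (hcard.trans (by norm_num))) hns
  · exact absurd (Cfsg.Agent.Lib.Helper2.burnside_paqb (G := G) 3 2 3 0 (by norm_num) (by norm_num) (hcard.trans (by norm_num))) hns
  · exact absurd (Cfsg.Agent.Lib.Helper2.burnside_paqb (G := G) 2 7 2 1 (by norm_num) (by norm_num) (hcard.trans (by norm_num))) hns
  · exact absurd (Cfsg.Agent.Lib.Helper2.burnside_paqb (G := G) 29 2 1 0 (by norm_num) (by norm_num) (hcard.trans (by norm_num))) hns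
  · exact (two_odd G 15 (by decide) (by norm_num) (hcard.trans (by norm_num))).elim
  · exact absurd (Cfsg.Agent.Lib.Helper2.burnside_paqb (G := G) 31 2 1 0 (by norm_num) (by norm_num) (hcard.trans (by norm_num))) hns
  · exact absurd (Cfsg.Agent.Lib.Helper2.burnside_paqb (G := G) 2 3 5 0 (by norm_num) (by norm_num) (hcard.trans (by norm_num))) hns
  · exact absurd (Cfsg.Agent.Lib.Helper2.burnside_paqb (G := G) 3 11 1 1 (by norm_num) (by norm_num) (hcard.trans (by norm_num))) hns
  · exact absurd (Cfsg.Agent.Lib.Helper2.burnside_paqb (G := G) 2 17 1 1 (by norm_num) (by norm_num) (hcard.trans (by norm_num))) hns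
  · exact absurd (Cfsg.Agent.Lib.Helper2.burnside_paqb (G := G) 5 7 1 1 (by norm_num) (by norm_num) (hcard.trans (by norm_num))) hns
  · exact absurd (Cfsg.Agent.Lib.Helper2.burnside_paqb (G := G) 2 3 2 2 (by norm_num) (by norm_num) (hcard.trans (by norm_num))) hns
  · exact absurd (Cfsg.Agent.Lib.Helper2.burnside_paqb (G := G) 37 2 1 0 (by norm_num) (by norm_num) (hcard.trans (by norm_num))) hns
  · exact absurd (Cfsg.Agent.Lib.Helper2.burnside_paqb (G := G) 2 19 1 1 (by norm_num) (by norm_num) (hcard.trans (by norm_num))) hns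
  · exact absurd (Cfsg.Agent.Lib.Helper2.burnside_paqb (G := G) 3 13 1 1 (by norm_num) (by norm_num) (hcard.trans (by norm_num))) hns
  · exact absurd (Cfsg.Agent.Lib.Helper2.burnside_paqb (G := G) 2 5 3 1 (by norm_num) (by norm_num) (hcard.trans (by norm_num))) hns
  · exact absurd (Cfsg.Agent.Lib.Helper2.burnside_paqb (G := G) 41 2 1 0 (by norm_num) (by norm_num) (hcard.trans (by norm_num))) hns
  · exact (two_odd G 21 (by decide) (by norm_num) (hcard.trans (by norm_num))).elim
  · exact absurd (Cfsg.Agent.Lib.Helper2.burnside_paqb (G := G) 43 2 1 0 (by norm_num) (by norm_num) (hcard.trans (by norm_num))) hns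
  · exact absurd (Cfsg.Agent.Lib.Helper2.burnside_paqb (G := G) 2 11 2 1 (by norm_num) (by norm_num) (hcard.trans (by norm_num))) hns
  · exact absurd (Cfsg.Agent.Lib.Helper2.burnside_paqb (G := G) 3 5 2 1 (by norm_num) (by norm_num) (hcard.trans (by norm_num))) hns
  · exact absurd (Cfsg.Agent.Lib.Helper2.burnside_paqb (G := G) 2 23 1 1 (by norm_num) (by norm_num) (hcard.trans (by norm_num))) hns
  · exact absurd (Cfsg.Agent.Lib.Helper2.burnside_paqb (G := G) 47 2 1 0 (by norm_num) (by norm_num) (hcard.trans (by norm_num))) hns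
  · exact absurd (Cfsg.Agent.Lib.Helper2.burnside_paqb (G := G) 2 3 4 1 (by norm_num) (by norm_num) (hcard.trans (by norm_num))) hns
  · exact absurd (Cfsg.Agent.Lib.Helper2.burnside_paqb (G := G) 7 2 2 0 (by norm_num) (by norm_num) (hcard.trans (by norm_num))) hns
  · exact absurd (Cfsg.Agent.Lib.Helper2.burnside_paqb (G := G) 2 5 1 2 (by norm_num) (by norm_num) (hcard.trans (by norm_num))) hns
  · exact absurd (Cfsg.Agent.Lib.Helper2.burnside_paqb (G := G) 3 17 1 1 (by norm_num) (by norm_num) (hcard.trans (by norm_num))) hns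
  · exact absurd (Cfsg.Agent.Lib.Helper2.burnside_paqb (G := G) 2 13 2 1 (by norm_num) (by norm_num) (hcard.trans (by norm_num))) hns
  · exact absurd (Cfsg.Agent.Lib.Helper2.burnside_paqb (G := G) 53 2 1 0 (by norm_num) (by norm_num) (hcard.trans (by norm_num))) hns
  · exact absurd (Cfsg.Agent.Lib.Helper2.burnside_paqb (G := G) 2 3 1 3 (by norm_num) (by norm_num) (hcard.trans (by norm_num))) hns
  · exact absurd (Cfsg.Agent.Lib.Helper2.burnside_paqb (G := G) 5 11 1 1 (by norm_num) (by norm_num) (hcard.trans (by norm_num))) hns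
  · exact absurd (Cfsg.Agent.Lib.Helper2.burnside_paqb (G := G) 2 7 3 1 (by norm_num) (by norm_num) (hcard.trans (by norm_num))) hns
  · exact absurd (Cfsg.Agent.Lib.Helper2.burnside_paqb (G := G) 3 19 1 1 (by norm_num) (by norm_num) (hcard.trans (by norm_num))) hns
  · exact absurd (Cfsg.Agent.Lib.Helper2.burnside_paqb (G := G) 2 29 1 1 (by norm_num) (by norm_num) (hcard.trans (by norm_num))) hns
  · exact absurd (Cfsg.Agent.Lib.Helper2.burnside_paqb (G := G) 59 2 1 0 (by norm_num) (by norm_num) (hcard.trans (by norm_num))) hns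
  · rfl
  · exact absurd (Cfsg.Agent.Lib.Helper2.burnside_paqb (G := G) 61 2 1 0 (by norm_num) (by norm_num) (hcard.trans (by norm_num))) hns
  · exact absurd (Cfsg.Agent.Lib.Helper2.burnside_paqb (G := G) 2 31 1 1 (by norm_num) (by norm_num) (hcard.trans (by norm_num))) hns
  · exact absurd (Cfsg.Agent.Lib.Helper2.burnside_paqb (G := G) 3 7 2 1 (by norm_num) (by norm_num) (hcard.trans (by norm_num))) hns
  · exact absurd (Cfsg.Agent.Lib.Helper2.burnside_paqb (G := G) 2 3 6 0 (by norm_num) (by norm_num) (hcard.trans (by norm_num))) hns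
  · exact absurd (Cfsg.Agent.Lib.Helper2.burnside_paqb (G := G) 5 13 1 1 (by norm_num) (by norm_num) (hcard.trans (by norm_num))) hns
  · exact (two_odd G 33 (by decide) (by norm_num) (hcard.trans (by norm_num))).elim
  · exact absurd (Cfsg.Agent.Lib.Helper2.burnside_paqb (G := G) 67 2 1 0 (by norm_num) (by norm_num) (hcard.trans (by norm_num))) hns
  · exact absurd (Cfsg.Agent.Lib.Helper2.burnside_paqb (G := G) 2 17 2 1 (by norm_num) (by norm_num) (hcard.trans (by norm_num))) hns
  · exact absurd (Cfsg.Agent.Lib.Helper2.burnside_paqb (G := G) 3 23 1 1 (by norm_num) (by norm_num) (hcard.trans (by norm_num))) hns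
  · exact (two_odd G 35 (by decide) (by norm_num) (hcard.trans (by norm_num))).elim
  · exact absurd (Cfsg.Agent.Lib.Helper2.burnside_paqb (G := G) 71 2 1 0 (by norm_num) (by norm_num) (hcard.trans (by norm_num))) hns
  · exact absurd (Cfsg.Agent.Lib.Helper2.burnside_paqb (G := G) 2 3 3 2 (by norm_num) (by norm_num) (hcard.trans (by norm_num))) hns
  · exact absurd (Cfsg.Agent.Lib.Helper2.burnside_paqb (G := G) 73 2 1 0 (by norm_num) (by norm_num) (hcard.trans (by norm_num))) hns
  · exact absurd (Cfsg.Agent.Lib.Helper2.burnside_paqb (G := G) 2 37 1 1 (by norm_num) (by norm_num) (hcard.trans (by norm_num))) hns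
  · exact absurd (Cfsg.Agent.Lib.Helper2.burnside_paqb (G := G) 3 5 1 2 (by norm_num) (by norm_num) (hcard.trans (by norm_num))) hns
  · exact absurd (Cfsg.Agent.Lib.Helper2.burnside_paqb (G := G) 2 19 2 1 (by norm_num) (by norm_num) (hcard.trans (by norm_num))) hns
  · exact absurd (Cfsg.Agent.Lib.Helper2.burnside_paqb (G := G) 7 11 1 1 (by norm_num) (by norm_num) (hcard.trans (by norm_num))) hns
  · exact (two_odd G 39 (by decide) (by norm_num) (hcard.trans (by norm_num))).elim
  · exact absurd (Cfsg.Agent.Lib.Helper2.burnside_paqb (G := G) 79 2 1 0 (by norm_num) (by norm_num) (hcard.trans (by norm_num))) hns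
  · exact absurd (Cfsg.Agent.Lib.Helper2.burnside_paqb (G := G) 2 5 4 1 (by norm_num) (by norm_num) (hcard.trans (by norm_num))) hns
  · exact absurd (Cfsg.Agent.Lib.Helper2.burnside_paqb (G := G) 3 2 4 0 (by norm_num) (by norm_num) (hcard.trans (by norm_num))) hns
  · exact absurd (Cfsg.Agent.Lib.Helper2.burnside_paqb (G := G) 2 41 1 1 (by norm_num) (by norm_num) (hcard.trans (by norm_num))) hns
  · exact absurd (Cfsg.Agent.Lib.Helper2.burnside_paqb (G := G) 83 2 1 0 (by norm_num) (by norm_num) (hcard.trans (by norm_num))) hns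
  · exact absurd hcard (order84 G)
  · exact absurd (Cfsg.Agent.Lib.Helper2.burnside_paqb (G := G) 5 17 1 1 (by norm_num) (by norm_num) (hcard.trans (by norm_num))) hns
  · exact absurd (Cfsg.Agent.Lib.Helper2.burnside_paqb (G := G) 2 43 1 1 (by norm_num) (by norm_num) (hcard.trans (by norm_num))) hns
  · exact absurd (Cfsg.Agent.Lib.Helper2.burnside_paqb (G := G) 3 29 1 1 (by norm_num) (by norm_num) (hcard.trans (by norm_num))) hns
  · exact absurd (Cfsg.Agent.Lib.Helper2.burnside_paqb (G := G) 2 11 3 1 (by norm_num) (by norm_num) (hcard.trans (by norm_num))) hns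
  · exact absurd (Cfsg.Agent.Lib.Helper2.burnside_paqb (G := G) 89 2 1 0 (by norm_num) (by norm_num) (hcard.trans (by norm_num))) hns
  · exact (two_odd G 45 (by decide) (by norm_num) (hcard.trans (by norm_num))).elim
  · exact absurd (Cfsg.Agent.Lib.Helper2.burnside_paqb (G := G) 7 13 1 1 (by norm_num) (by norm_num) (hcard.trans (by norm_num))) hns
  · exact absurd (Cfsg.Agent.Lib.Helper2.burnside_paqb (G := G) 2 23 2 1 (by norm_num) (by norm_num) (hcard.trans (by norm_num))) hns
  · exact absurd (Cfsg.Agent.Lib.Helper2.burnside_paqb (G := G) 3 31 1 1 (by norm_num) (by norm_num) (hcard.trans (by norm_num))) hns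
  · exact absurd (Cfsg.Agent.Lib.Helper2.burnside_paqb (G := G) 2 47 1 1 (by norm_num) (by norm_num) (hcard.trans (by norm_num))) hns
  · exact absurd (Cfsg.Agent.Lib.Helper2.burnside_paqb (G := G) 5 19 1 1 (by norm_num) (by norm_num) (hcard.trans (by norm_num))) hns
  · exact absurd (Cfsg.Agent.Lib.Helper2.burnside_paqb (G := G) 2 3 5 1 (by norm_num) (by norm_num) (hcard.trans (by norm_num))) hns
  · exact absurd (Cfsg.Agent.Lib.Helper2.burnside_paqb (G := G) 97 2 1 0 (by norm_num) (by norm_num) (hcard.trans (by norm_num))) hns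
  · exact absurd (Cfsg.Agent.Lib.Helper2.burnside_paqb (G := G) 2 7 1 2 (by norm_num) (by norm_num) (hcard.trans (by norm_num))) hns
  · exact absurd (Cfsg.Agent.Lib.Helper2.burnside_paqb (G := G) 3 11 2 1 (by norm_num) (by norm_num) (hcard.trans (by norm_num))) hns
  · exact absurd (Cfsg.Agent.Lib.Helper2.burnside_paqb (G := G) 2 5 2 2 (by norm_num) (by norm_num) (hcard.trans (by norm_num))) hns

end Cfsg.Agent.S0493
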