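import Cfsg.Statements.S0498
import Cfsg.Agent.Lib.Helper20.PSL2RecL
import Cfsg.Agent.S0243

set_option autoImplicit false
open Cfsg

namespace Cfsg.Agent.S0498

open Cfsg.Agent.Lib.Helper20.PSL2Rec Cfsg.Agent.Lib.Helper20.PSL2RecL

theorem cert11 : CertL 11 5 4 3 2 2 [1, 2] := by
  constructor <;> decide +kernel

theorem cert13 : Cert 13 6 4 10 2 1 := by
  constructor <;> decide +kernel

theorem card_psl11 {F : Type*} [Field F] [Fintype F] (hF : Fintype.card F = 11) :
    Nat.card (Matrix.ProjectiveSpecialLinearGroup (Fin 2) F) = 660 := by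
  have h1 := Cfsg.Agent.S0243.result hF 2 (le_refl 2)
  simp only [Fin.prod_univ_two, Fin.val_zero, Fin.val_one, pow_zero, pow_one] at h1
  norm_num at h1
  omega

theorem card_psl13 {F : Type*} [Field F] [Fintype F] (hF : Fintype.card F = 13) :
    Nat.card (Matrix.ProjectiveSpecialLinearGroup (Fin 2) F) = 1092 := by
  have h1 := Cfsg.Agent.S0243.result hF 2 (le_refl 2)
  simp only [Fin.prod_univ_two, Fin.val_zero, Fin.val_one, pow_zero, pow_one] at h1
  norm_num at h1
  omega

/-- A simple group of order 660, respectively 1092, is isomorphic to the projective special linear group of dimension 2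
over the field with 11, respectively 13, elements. -/
theorem result {G : Type*} [Group G] [Finite G] [IsSimpleGroup G] (p : ℕ)
    (hp : p = 11 ∨ p = 13) (h : 2 * Nat.card G = p * (p ^ 2 - 1)) {F : Type*} [Field F] [Fintype F]
    (hF : Fintype.card F = p) : Nonempty (G ≃* Matrix.ProjectiveSpecialLinearGroup (Fin 2) F) := by
  rcases hp with rfl | rfl
  · have hp : Fact (Nat.Prime 11) := ⟨by norm_num⟩
    have hG : Nat.card G = 660 := by
      norm_num at h
      omega
    have hs : IsSimpleGroup (Matrix.ProjectiveSpecialLinearGroup (Fin 2) F) :=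
      Matrix.ProjectiveSpecialLinearGroup.rank_two_simple
        (by rw [Nat.card_eq_fintype_card, hF]; norm_num)
    obtain ⟨e1⟩ := mainL cert11 (G := G) (by rw [hG])
    obtain ⟨e2⟩ := mainL cert11 (G := Matrix.ProjectiveSpecialLinearGroup (Fin 2) F)
      (by rw [card_psl11 hF])
    exact ⟨e1.trans e2.symm⟩
  · have hp : Fact (Nat.Prime 13) := ⟨by norm_num⟩
    have hG : Nat.card G = 1092 := by
      norm_num at h
      omega
    have hs : IsSimpleGroup (Matrix.ProjectiveSpecialLinearGroup (Fin 2) F) :=
      Matrix.ProjectiveSpecialLinearGroup.rank_two_simple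
        (by rw [Nat.card_eq_fintype_card, hF]; norm_num)
    obtain ⟨e1⟩ := main cert13 (G := G) (by rw [hG])
    obtain ⟨e2⟩ := main cert13 (G := Matrix.ProjectiveSpecialLinearGroup (Fin 2) F)
      (by rw [card_psl13 hF])
    exact ⟨e1.trans e2.symm⟩

end Cfsg.Agent.S0498
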