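import Cfsg.Statements.S0499
import Cfsg.Agent.Lib.Helper5.FrobAux

set_option autoImplicit false
open Cfsg

namespace Cfsg.Agent.S0499

/-- A non-abelian finite simple group of even order has order divisible by 12, 16 or 56. -/
theorem result {G : Type*} [Group G] [Finite G] [IsSimpleGroup G]
    (hG : ¬ IsMulCommutative G) (h2 : Even (Nat.card G)) :
    12 ∣ Nat.card G ∨ 16 ∣ Nat.card G ∨ 56 ∣ Nat.card G := by
  classical
  by_contra hcon
  push Not at hcon
  obtain ⟨h12, h16, h56⟩ := hcon
  haveI : Fact (Nat.Prime 2) := ⟨Nat.prime_two⟩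
  obtain ⟨P⟩ := (inferInstance : Nonempty (Sylow 2 G))
  set n := Nat.card G with hn
  set a := n.factorization 2 with ha
  have hcP : Nat.card P = 2 ^ a := P.card_eq_multiplicity
  have h2a : 2 ^ a ∣ n := Nat.ordProj_dvd n 2
  have ha3 : a ≤ 3 := by
    by_contra hlt
    have h4 : 4 ≤ a := by omega
    exact h16 ((pow_dvd_pow 2 h4).trans h2a)
  -- the Frobenius condition at the prime 2
  have hFrob : Cfsg.Agent.Lib.Helper1.FrobCond 2 G := by
    apply Cfsg.Agent.Lib.Helper1.frobCond_of_sylow P
    intro Q hQP g hg hcop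
    apply Cfsg.Agent.Lib.Helper5.mem_centralizer_of_prime_power Q 2 _ g hg hcop
    intro x hx r k hr hr2 hxo
    haveI : Fact r.Prime := ⟨hr⟩
    by_cases hk0 : k = 0
    · rw [hk0, pow_zero, orderOf_eq_one_iff] at hxo
      rw [hxo]
      exact Subgroup.one_mem _
    have hrn : r ∣ n := by
      have h1 : r ∣ orderOf x := by rw [hxo]; exact dvd_pow_self r hk0
      exact h1.trans (orderOf_dvd_natCard x)
    set Z : Subgroup G := Subgroup.zpowers x with hZ
    have hZN : Z ≤ Subgroup.normalizer (Q : Set G) := by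
      rw [hZ, Subgroup.zpowers_le]; exact hx
    have hZr : IsPGroup r Z := by
      apply IsPGroup.of_card (n := k)
      rw [hZ, Nat.card_zpowers, hxo]
    have hmod := Cfsg.Agent.Lib.Helper5.card_modEq_card_inf_centralizer Q Z hZN r hZr
    have hQ2 : IsPGroup 2 Q := P.isPGroup'.to_le hQP
    obtain ⟨b, hb⟩ := IsPGroup.iff_card.mp hQ2
    set F : Subgroup G := Q ⊓ Subgroup.centralizer (Z : Set G) with hF
    have hF2 : IsPGroup 2 F := hQ2.to_le inf_le_left
    obtain ⟨c, hc⟩ := IsPGroup.iff_card.mp hF2
    have hba : b ≤ a := by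
      have h1 : Nat.card Q ∣ Nat.card P := Subgroup.card_dvd_of_le hQP
      rw [hb, hcP] at h1
      exact (Nat.pow_dvd_pow_iff_le_right (by norm_num)).mp h1
    have hcb : c ≤ b := by
      have h1 : Nat.card F ∣ Nat.card Q := Subgroup.card_dvd_of_le inf_le_left
      rw [hb, hc] at h1
      exact (Nat.pow_dvd_pow_iff_le_right (by norm_num)).mp h1
    have h2b : 2 ^ b ∣ n := (pow_dvd_pow 2 hba).trans h2a
    rw [hb, hc] at hmod
    have hdvd : r ∣ 2 ^ b - 2 ^ c :=
      (Nat.modEq_iff_dvd' (Nat.pow_le_pow_right (by norm_num) hcb)).mp hmod.symm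
    have hceqb : c = b := by
      by_contra hne
      have hclt : c < b := lt_of_le_of_ne hcb hne
      have hb3 : b ≤ 3 := hba.trans ha3
      exfalso
      have hrle : r ≤ 7 := by
        have h1 : 2 ^ b - 2 ^ c ≤ 7 := by
          have h3 : 2 ^ b ≤ 2 ^ 3 := Nat.pow_le_pow_right (by norm_num) hb3
          have h4 : 1 ≤ 2 ^ c := Nat.one_le_two_pow
          omega
        have h5 : 0 < 2 ^ b - 2 ^ c :=
          Nat.sub_pos_of_lt (Nat.pow_lt_pow_right (by norm_num) hclt)
        exact (Nat.le_of_dvd h5 hdvd).trans h1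
      have hr357 : r = 3 ∨ r = 5 ∨ r = 7 := by
        have h0 := hr.two_le
        have hr' := hr
        clear hmod hdvd hZr hxo
        interval_cases r
        · exact absurd rfl hr2
        · left; rfl
        · exact absurd hr' (by norm_num)
        · right; left; rfl
        · exact absurd hr' (by norm_num)
        · right; right; rfl
      rcases hr357 with h3 | h5 | h7
      · rw [h3] at hdvd hrn
        have hb2 : 2 ≤ b := by
          by_contra hlt
          have hb1 : b ≤ 1 := by omega
          interval_cases b <;> interval_cases c <;> norm_num at hdvd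
        have h4 : 4 ∣ n := (pow_dvd_pow 2 hb2).trans h2b
        exact h12 (Nat.Coprime.mul_dvd_of_dvd_of_dvd (by norm_num : Nat.Coprime 3 4) hrn h4)
      · rw [h5] at hdvd
        interval_cases b <;> interval_cases c <;> norm_num at hdvd
      · rw [h7] at hdvd hrn
        have hb3' : 3 ≤ b := by
          by_contra hlt
          have hb2 : b ≤ 2 := by omega
          interval_cases b <;> interval_cases c <;> norm_num at hdvd
        have h8 : 8 ∣ n := (pow_dvd_pow 2 hb3').trans h2b
        exact h56 (Nat.Coprime.mul_dvd_of_dvd_of_dvd (by norm_num : Nat.Coprime 7 8) hrn h8)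
    have hFQ : F = Q := by
      apply Subgroup.eq_of_le_of_card_ge inf_le_left
      rw [hb, hc, hceqb]
    have hQle : Q ≤ Subgroup.centralizer (Z : Set G) := by
      rw [← hFQ]; exact inf_le_right
    rw [Subgroup.mem_centralizer_iff]
    intro y hy
    have := Subgroup.mem_centralizer_iff.mp (hQle hy) x (Subgroup.mem_zpowers x)
    exact this.symm
  have hKn : (Cfsg.pResidual 2 G).Normal := Cfsg.Agent.Lib.Helper1.pResidual_normal (G := G) 2
  have hcm := (Cfsg.Agent.Lib.Helper1.frobCond_isComplement' hFrob P).card_mul_card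
  rcases Subgroup.Normal.eq_bot_or_eq_top hKn with hbot | htop
  · rw [hbot, Subgroup.card_bot, one_mul] at hcm
    have hG2 : IsPGroup 2 G := by
      apply IsPGroup.of_card (n := a)
      rw [← hcm]
      exact hcP
    have hnt : Nontrivial G := IsSimpleGroup.toNontrivial
    have hcen := hG2.bot_lt_center
    rcases Subgroup.Normal.eq_bot_or_eq_top (inferInstance : (Subgroup.center G).Normal)
      with h | h
    · exact absurd h (ne_of_gt hcen)
    · apply hG
      refine ⟨⟨fun x y => ?_⟩⟩
      have hx : x ∈ Subgroup.center G := by rw [h]; exact Subgroup.mem_top x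
      exact (Subgroup.mem_center_iff.mp hx y).symm
  · rw [htop, Subgroup.card_top] at hcm
    have hP1 : Nat.card P = 1 := by
      have h3 : Nat.card G * Nat.card P = Nat.card G * 1 := by rw [mul_one]; exact hcm
      exact Nat.eq_of_mul_eq_mul_left Nat.card_pos h3
    rw [hcP] at hP1
    have h2n : 2 ^ 1 ∣ n := by
      rw [pow_one]; exact even_iff_two_dvd.mp h2
    have h1a : 1 ≤ a := (Nat.prime_two.pow_dvd_iff_le_factorization Nat.card_pos.ne').mp h2n
    have h2le : 2 ^ 1 ≤ 2 ^ a := Nat.pow_le_pow_right (by norm_num) h1a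
    omega

end Cfsg.Agent.S0499
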