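import Cfsg.Statements.S0502
import Cfsg.Agent.Lib.Helper10.QD2

set_option autoImplicit false
open Cfsg

namespace Cfsg.Agent.S0502

open Cfsg.Agent.Lib.Helper10 Cfsg.Agent.Lib.Helper10.QD

/-- An involution `t` normalizing an elementary abelian 2-group `D`: `|D| ≤ |C_D(t)|²`. -/
theorem card_le_sq {P : Type*} [Group P] [Finite P] (D : Subgroup P)
    (hc : ∀ x ∈ D, ∀ y ∈ D, x * y = y * x) (h2 : ∀ x ∈ D, x * x = 1) (t : P) (ht : t * t = 1)
    (hinv : ∀ x ∈ D, t * x * t⁻¹ ∈ D) (C : Subgroup P)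
    (hC : ∀ x, x ∈ C ↔ x ∈ D ∧ t * x = x * t) :
    Nat.card D ≤ Nat.card C * Nat.card C := by
  have htinv : t⁻¹ = t := inv_eq_of_mul_eq_one_left ht
  let φ : D →* D :=
    { toFun := fun x => ⟨x.1 * (t * x.1 * t⁻¹), D.mul_mem x.2 (hinv x.1 x.2)⟩
      map_one' := by
        apply Subtype.ext
        show (1 : P) * (t * 1 * t⁻¹) = 1
        group
      map_mul' := fun x y => by
        apply Subtype.ext
        show x.1 * y.1 * (t * (x.1 * y.1) * t⁻¹) =
          x.1 * (t * x.1 * t⁻¹) * (y.1 * (t * y.1 * t⁻¹))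
        have h1 : t * (x.1 * y.1) * t⁻¹ = (t * x.1 * t⁻¹) * (t * y.1 * t⁻¹) := by group
        have h2' := hc y.1 y.2 (t * x.1 * t⁻¹) (hinv x.1 x.2)
        rw [h1]
        calc x.1 * y.1 * (t * x.1 * t⁻¹ * (t * y.1 * t⁻¹))
            = x.1 * (y.1 * (t * x.1 * t⁻¹)) * (t * y.1 * t⁻¹) := by group
          _ = x.1 * ((t * x.1 * t⁻¹) * y.1) * (t * y.1 * t⁻¹) := by rw [h2']
          _ = _ := by group }
  have hφ : ∀ x : D, ((φ x : D) : P) = x.1 * (t * x.1 * t⁻¹) := fun x => rfl
  have hcard : Nat.card D = Nat.card φ.range * Nat.card φ.ker := by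
    rw [Subgroup.card_eq_card_quotient_mul_card_subgroup φ.ker,
      Nat.card_congr (QuotientGroup.quotientKerEquivRange φ).toEquiv]
  have hker : Nat.card φ.ker ≤ Nat.card C := by
    have hmem : ∀ x : φ.ker, (x.1.1 : P) ∈ C := by
      intro x
      rw [hC]
      refine ⟨x.1.2, ?_⟩
      have h1 : φ x.1 = 1 := x.2
      have h3 : x.1.1 * (t * x.1.1 * t⁻¹) = 1 := by
        rw [← hφ, h1]; rfl
      have h4 : t * x.1.1 * t⁻¹ = x.1.1 := by
        have h5 : t * x.1.1 * t⁻¹ = (x.1.1)⁻¹ := (inv_eq_of_mul_eq_one_right h3).symm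
        rw [h5]
        exact inv_eq_of_mul_eq_one_left (h2 x.1.1 x.1.2)
      calc t * x.1.1 = t * x.1.1 * t⁻¹ * t := by group
        _ = x.1.1 * t := by rw [h4]
    refine Nat.card_le_card_of_injective (fun x : φ.ker => (⟨x.1.1, hmem x⟩ : C)) ?_
    intro x y h
    have h' : (x.1.1 : P) = y.1.1 := congrArg (fun c : C => (c : P)) h
    exact Subtype.ext (Subtype.ext h')
  have hrange : Nat.card φ.range ≤ Nat.card C := by
    have hmem : ∀ y : φ.range, (y.1.1 : P) ∈ C := by
      intro y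
      rw [hC]
      refine ⟨y.1.2, ?_⟩
      obtain ⟨x, hx⟩ := y.2
      have h3 : (y.1.1 : P) = x.1 * (t * x.1 * t⁻¹) := by rw [← hφ, hx]
      have h4 := hc x.1 x.2 (t * x.1 * t⁻¹) (hinv x.1 x.2)
      rw [h3]
      have h5 : t * (x.1 * (t * x.1 * t⁻¹)) = t * x.1 * t⁻¹ * (t * t) * x.1 * t⁻¹ := by group
      rw [h5, ht, mul_one, htinv]
      rw [htinv] at h4
      calc t * x.1 * t * x.1 * t = (t * x.1 * t * x.1) * t := by group
        _ = (x.1 * (t * x.1 * t)) * t := by rw [h4]
        _ = _ := by group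
    refine Nat.card_le_card_of_injective (fun y : φ.range => (⟨y.1.1, hmem y⟩ : C)) ?_
    intro x y h
    have h' : (x.1.1 : P) = y.1.1 := congrArg (fun c : C => (c : P)) h
    exact Subtype.ext (Subtype.ext h')
  rw [hcard]
  exact Nat.mul_le_mul hrange hker

theorem exists_not_pair {P : Type*} [Group P] [Finite P] (C : Subgroup P)
    (h : 3 ≤ Nat.card C) (e : P) : ∃ f ∈ C, f ≠ 1 ∧ f ≠ e := by
  by_contra hcon
  push Not at hcon
  have hsub : (C : Set P) ⊆ {1, e} := by
    intro f hf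
    by_cases h1 : f = 1
    · left; exact h1
    · right; exact hcon f hf h1
  have h1 : Nat.card C ≤ 2 := by
    have h2 : Nat.card C = (C : Set P).ncard := rfl
    rw [h2]
    calc (C : Set P).ncard ≤ ({1, e} : Set P).ncard := Set.ncard_le_ncard hsub (Set.toFinite _)
      _ ≤ ({e} : Set P).ncard + 1 := Set.ncard_insert_le _ _
      _ = 2 := by rw [Set.ncard_singleton]
  omega

/-- If a finite 2-group has a normal elementary abelian subgroup of order at least 8, then any two of its Klein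
four-subgroups are joined by a chain of Klein four-subgroups with consecutive members commuting elementwise. -/
theorem result {P : Type*} [Group P] [Finite P] (hP : IsPGroup 2 P)
    (E : Subgroup P) [E.Normal] (hE : IsMulCommutative E) (hE2 : ∀ e ∈ E, e ^ 2 = 1) (hE8 : 8 ≤ Nat.card E) :
    Cfsg.IsFourConnected P := by
  classical
  have hEc : ∀ x ∈ E, ∀ y ∈ E, x * y = y * x := by
    intro x hx y hy
    have := hE.is_comm.comm (⟨x, hx⟩ : E) ⟨y, hy⟩
    exact congrArg Subtype.val this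
  have hE2' : ∀ x ∈ E, x * x = 1 := fun x hx => by rw [← pow_two]; exact hE2 x hx
  have hEn : ∀ (t : P), ∀ x ∈ E, t * x * t⁻¹ ∈ E := fun t x hx =>
    ‹E.Normal›.conj_mem x hx t
  have hcen : ∀ (D : Subgroup P) (t x : P),
      x ∈ D ⊓ Subgroup.centralizer ({t} : Set P) ↔ x ∈ D ∧ t * x = x * t := by
    intro D t x
    rw [Subgroup.mem_inf, Subgroup.mem_centralizer_iff]
    simp
  have key1 : ∀ t : P, t * t = 1 → 3 ≤ Nat.card ↥(E ⊓ Subgroup.centralizer ({t} : Set P)) := by
    intro t ht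
    have h1 := card_le_sq E hEc hE2' t ht (hEn t) _ (hcen E t)
    by_contra hlt
    have h2 : Nat.card ↥(E ⊓ Subgroup.centralizer ({t} : Set P)) ≤ 2 := by omega
    have h3 := Nat.mul_le_mul h2 h2
    omega
  have key2 : ∀ u v : P, u * u = 1 → v * v = 1 → u * v = v * u →
      ∃ e ∈ E, e ≠ 1 ∧ u * e = e * u ∧ v * e = e * v := by
    intro u v hu hv huv
    have hvinv : v⁻¹ = v := inv_eq_of_mul_eq_one_left hv
    have h3 := key1 u hu
    have hD : ∀ x, x ∈ E ⊓ Subgroup.centralizer ({u} : Set P) ↔ x ∈ E ∧ u * x = x * u :=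
      hcen E u
    have h1 := card_le_sq (E ⊓ Subgroup.centralizer ({u} : Set P))
      (fun x hx y hy => hEc x ((hD x).mp hx).1 y ((hD y).mp hy).1)
      (fun x hx => hE2' x ((hD x).mp hx).1) v hv
      (fun x hx => by
        rw [hD]
        refine ⟨hEn v x ((hD x).mp hx).1, ?_⟩
        have hux := ((hD x).mp hx).2
        rw [hvinv]
        calc u * (v * x * v) = (u * v) * x * v := by group
          _ = v * (u * x) * v := by rw [huv]; group
          _ = v * x * (u * v) := by rw [hux]; group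
          _ = v * x * v * u := by rw [huv]; group)
      _ (hcen _ v)
    have h4 : (E ⊓ Subgroup.centralizer ({u} : Set P)) ⊓ Subgroup.centralizer ({v} : Set P) ≠ ⊥ := by
      intro hbot
      rw [hbot, Subgroup.card_bot] at h1
      omega
    obtain ⟨e, he1⟩ := (Subgroup.ne_bot_iff_exists_ne_one).mp h4
    have he' := (hcen _ v e.1).mp e.2
    have he'' := (hD e.1).mp he'.1
    exact ⟨e.1, he''.1, fun h => he1 (Subtype.ext h), he''.2, he'.2⟩
  -- each four-group is linked to a four-subgroup of `E`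
  have step : ∀ U : Subgroup P, IsKleinFour U → ∃ W F : Subgroup P, IsKleinFour W ∧
      IsKleinFour F ∧ F ≤ E ∧ (∀ x ∈ U, ∀ y ∈ W, x * y = y * x) ∧
      (∀ x ∈ W, ∀ y ∈ F, x * y = y * x) := by
    intro U hU
    obtain ⟨a, b, ha, hb, ha1, hb1, hab⟩ := klein_exists U hU
    have hmemU := klein_mem_iff U hU ha hb ha1 hb1 hab
    obtain ⟨e, heE, he1, hae, hbe⟩ := key2 a b (klein_mul_self U hU ha) (klein_mul_self U hU hb)
      (klein_comm U hU ha hb)
    have heU : ∀ x ∈ U, x * e = e * x := by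
      intro x hx
      rcases (hmemU x).mp hx with rfl | rfl | rfl | rfl
      · simp
      · exact hae
      · exact hbe
      · rw [mul_assoc, hbe, ← mul_assoc, hae, mul_assoc]
    obtain ⟨v, hvU, hv1, hve⟩ : ∃ v ∈ U, v ≠ 1 ∧ v ≠ e := by
      by_cases h : a = e
      · exact ⟨b, hb, hb1, fun h' => hab (h.trans h'.symm)⟩
      · exact ⟨a, ha, ha1, h⟩
    have hvv := klein_mul_self U hU hvU
    obtain ⟨f, hf, hf1, hfe⟩ := exists_not_pair _ (key1 v hvv) e
    obtain ⟨hfE, hvf⟩ := (hcen E v f).mp hf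
    obtain ⟨W, hW, hWmem⟩ := exists_four v e hv1 he1 hve hvv (hE2' e heE) (heU v hvU)
    obtain ⟨F, hF, hFmem⟩ := exists_four e f he1 hf1 (Ne.symm hfe) (hE2' e heE) (hE2' f hfE)
      (hEc e heE f hfE)
    refine ⟨W, F, hW, hF, ?_, ?_, ?_⟩
    · intro x hx
      rcases (hFmem x).mp hx with rfl | rfl | rfl | rfl
      · exact E.one_mem
      · exact heE
      · exact hfE
      · exact E.mul_mem heE hfE
    · intro x hx y hy
      have hxv : x * v = v * x := klein_comm U hU hx hvU
      have hxe := heU x hx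
      rcases (hWmem y).mp hy with rfl | rfl | rfl | rfl
      · simp
      · exact hxv
      · exact hxe
      · rw [← mul_assoc, hxv, mul_assoc, hxe, ← mul_assoc]
    · have hve' : v * e = e * v := heU v hvU
      have hee : e * e = e * e := rfl
      have hef : e * f = f * e := hEc e heE f hfE
      have hc : ∀ x : P, x * e = e * x → x * f = f * x → ∀ y ∈ F, x * y = y * x := by
        intro x hxe hxf y hy
        rcases (hFmem y).mp hy with rfl | rfl | rfl | rfl
        · simp
        · exact hxe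
        · exact hxf
        · rw [← mul_assoc, hxe, mul_assoc, hxf, ← mul_assoc]
      intro x hx y hy
      rcases (hWmem x).mp hx with rfl | rfl | rfl | rfl
      · simp
      · exact hc x hve' hvf y hy
      · exact hc x rfl hef y hy
      · exact hc (v * e) (by rw [mul_assoc, ← mul_assoc e v e, ← hve', mul_assoc])
          (by rw [mul_assoc, hef, ← mul_assoc, hvf, mul_assoc]) y hy
  intro U V hU hV
  obtain ⟨W, F, hW, hF, hFE, hUW, hWF⟩ := step U hU
  obtain ⟨W', F', hW', hF', hFE', hVW', hWF'⟩ := step V hV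
  refine Relation.ReflTransGen.head ⟨hU, hW, hUW⟩ ?_
  refine Relation.ReflTransGen.head ⟨hW, hF, hWF⟩ ?_
  refine Relation.ReflTransGen.head
    ⟨hF, hF', fun x hx y hy => hEc x (hFE hx) y (hFE' hy)⟩ ?_
  refine Relation.ReflTransGen.head ⟨hF', hW', fun x hx y hy => (hWF' y hy x hx).symm⟩ ?_
  exact Relation.ReflTransGen.single ⟨hW', hV, fun x hx y hy => (hVW' y hy x hx).symm⟩

end Cfsg.Agent.S0502
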