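import Cfsg.Statements.S0505
import Cfsg.Agent.S0044
import Cfsg.Agent.S1264
import Cfsg.Agent.Lib.Helper17.PCore
import Cfsg.Agent.Lib.Helper11.ThompsonAB
import Cfsg.Agent.Lib.Helper24.Fitting
import Cfsg.Agent.Lib.Helper5.Carter

set_option autoImplicit false
open Cfsg

namespace Cfsg.Agent.S0505

open scoped commutatorElement

/-- A finite group with trivial odd core whose Fitting subgroup contains its own centralizer
has characteristic `2`. -/
theorem char_two_of_fitting {H : Type*} [Group H] [Finite H] (hO : Cfsg.pPrimeCore 2 H = ⊥)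
    (hF : Subgroup.centralizer (Cfsg.fittingSubgroup H : Set H) ≤ Cfsg.fittingSubgroup H) :
    Subgroup.centralizer (Cfsg.pCore 2 H : Set H) ≤ Cfsg.pCore 2 H := by
  have hFn : (Cfsg.fittingSubgroup H).Normal := Cfsg.Agent.Lib.Helper24.fitting_normal'
  have hFnil : Group.IsNilpotent (Cfsg.fittingSubgroup H) :=
    Cfsg.Agent.Lib.Helper24.fitting_nilpotent
  obtain ⟨Q, k, hQF, hQcop, hQidx, hQcard, -, -, -, hQnorm⟩ :=
    Cfsg.Agent.Lib.Helper5.exists_prime_part (Cfsg.fittingSubgroup H) hFnil 2 Nat.prime_two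
  have hQn : Q.Normal := by
    rw [← Subgroup.normalizer_eq_top_iff, eq_top_iff]
    rw [Subgroup.normalizer_eq_top] at hQnorm
    exact hQnorm
  have hQbot : Q = ⊥ := by
    have h1 : Q ≤ Cfsg.pPrimeCore 2 H := le_sSup ⟨hQn, hQcop⟩
    rw [hO] at h1
    exact le_bot_iff.mp h1
  have hF2 : IsPGroup 2 (Cfsg.fittingSubgroup H) := by
    apply IsPGroup.of_card (n := k)
    rw [← hQcard, hQbot, Subgroup.card_bot, one_mul]
  have hFle : Cfsg.fittingSubgroup H ≤ Cfsg.pCore 2 H := le_sSup ⟨hFn, hF2⟩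
  exact (Subgroup.centralizer_le (SetLike.coe_subset_coe.mpr hFle)).trans (hF.trans hFle)

/-- Let G be a finite group of even order in which the centralizer of every involution is solvable and has trivial
core (no nontrivial normal subgroup of odd order). Then G is of characteristic 2 type. -/
theorem result {G : Type*} [Group G] [Finite G]
    (h2 : Even (Nat.card G))
    (hs : ∀ t : G, orderOf t = 2 → Group.IsSolvable (Subgroup.centralizer ({t} : Set G)))
    (hc : ∀ t : G, orderOf t = 2 → Cfsg.oddCore (Subgroup.centralizer ({t} : Set G)) = ⊥) :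
    Cfsg.IsCharacteristicTwoType G := by
  classical
  have hF2 : Fact (Nat.Prime 2) := ⟨Nat.prime_two⟩
  refine ⟨h2, ?_⟩
  intro T hT hTbot
  have hTnt : Nontrivial T := (Subgroup.nontrivial_iff_ne_bot T).mpr hTbot
  have hZnt : Nontrivial (Subgroup.center T) := hT.center_nontrivial
  obtain ⟨z', hz'⟩ : ∃ z' : Subgroup.center T, orderOf z' = 2 := by
    apply exists_prime_orderOf_dvd_card' 2
    obtain ⟨j, hj⟩ := IsPGroup.iff_card.mp (hT.to_subgroup (Subgroup.center T))
    have h1 : 1 < Nat.card (Subgroup.center T) := Finite.one_lt_card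
    rw [hj] at h1 ⊢
    have hj0 : j ≠ 0 := by
      rintro rfl
      simp at h1
    exact dvd_pow_self 2 hj0
  obtain ⟨z, hzdef⟩ : ∃ z : G, z = ((z' : T) : G) := ⟨_, rfl⟩
  have hz : orderOf z = 2 := by
    rw [hzdef, Subgroup.orderOf_coe, Subgroup.orderOf_coe]; exact hz'
  have hzT : z ∈ T := by rw [hzdef]; exact (z' : T).2
  have hzc : ∀ x ∈ T, x * z = z * x := by
    intro x hx
    have h1 := Subgroup.mem_center_iff.mp z'.2 ⟨x, hx⟩
    have h3 := congrArg Subtype.val h1
    rw [hzdef]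
    exact h3
  have hCs : Group.IsSolvable (Subgroup.centralizer ({z} : Set G)) := hs z hz
  have hCc : Cfsg.pPrimeCore 2 (Subgroup.centralizer ({z} : Set G)) = ⊥ := hc z hz
  have hLC : Subgroup.centralizer
      (Cfsg.pCore 2 (Subgroup.centralizer ({z} : Set G)) : Set (Subgroup.centralizer ({z} : Set G)))
      ≤ Cfsg.pCore 2 (Subgroup.centralizer ({z} : Set G)) :=
    char_two_of_fitting hCc Cfsg.Agent.S0044.result
  have hTC : T ≤ Subgroup.centralizer ({z} : Set G) :=
    fun x hx => Subgroup.mem_centralizer_singleton_iff.mpr (hzc x hx)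
  have hON : Cfsg.pPrimeCore 2 ↥(Subgroup.normalizer (T : Set G)) = ⊥ := by
    unfold Cfsg.pPrimeCore
    rw [sSup_eq_bot]
    rintro W ⟨hWn, hWodd⟩
    obtain ⟨W₀, hW₀def⟩ : ∃ W₀ : Subgroup G,
        W₀ = W.map (Subgroup.normalizer (T : Set G)).subtype := ⟨_, rfl⟩
    have hW₀card : Nat.card W₀ = Nat.card W := by
      rw [hW₀def]
      exact Subgroup.card_map_of_injective (Subgroup.subtype_injective _)
    have hW₀N : W₀ ≤ Subgroup.normalizer (T : Set G) := by
      rw [hW₀def]; exact Subgroup.map_subtype_le W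
    have hNW₀ : ∀ n ∈ Subgroup.normalizer (T : Set G), ∀ w ∈ W₀, n * w * n⁻¹ ∈ W₀ := by
      intro n hn w hw
      rw [hW₀def] at hw ⊢
      obtain ⟨w', hw', rfl⟩ := hw
      exact ⟨⟨n, hn⟩ * w' * ⟨n, hn⟩⁻¹, hWn.conj_mem w' hw' ⟨n, hn⟩, rfl⟩
    have hdisj : ∀ R : Subgroup G, IsPGroup 2 R → ∀ x, x ∈ W₀ → x ∈ R → x = 1 := by
      intro R hR x hxW hxR
      obtain ⟨j, hj⟩ := IsPGroup.iff_card.mp hR
      have h1 : Disjoint W₀ R := Subgroup.disjoint_of_coprime_natCard (by
        rw [hW₀card, hj]; exact Nat.Coprime.pow_right j hWodd)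
      have h3 : x ∈ W₀ ⊓ R := ⟨hxW, hxR⟩
      rw [h1.eq_bot] at h3
      exact Subgroup.mem_bot.mp h3
    have hWT : ∀ w ∈ W₀, ∀ x ∈ T, w * x = x * w := by
      intro w hw x hx
      have h1 : w * x * w⁻¹ * x⁻¹ ∈ W₀ := by
        have h0 := hNW₀ x (Subgroup.le_normalizer hx) w⁻¹ (W₀.inv_mem hw)
        have e : w * x * w⁻¹ * x⁻¹ = w * (x * w⁻¹ * x⁻¹) := by group
        rw [e]; exact W₀.mul_mem hw h0
      have h3 : w * x * w⁻¹ * x⁻¹ ∈ T := by
        have h0 := (Subgroup.mem_normalizer_iff.mp (hW₀N hw) x).mp hx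
        exact T.mul_mem h0 (T.inv_mem hx)
      have h4 := hdisj T hT _ h1 h3
      calc w * x = (w * x * w⁻¹ * x⁻¹) * (x * w) := by group
        _ = x * w := by rw [h4, one_mul]
    have hWC : W₀ ≤ Subgroup.centralizer ({z} : Set G) :=
      fun w hw => Subgroup.mem_centralizer_singleton_iff.mpr (hWT w hw z hzT)
    obtain ⟨R₀, hR₀def⟩ : ∃ R₀ : Subgroup G,
        R₀ = (Cfsg.pCore 2 (Subgroup.centralizer ({z} : Set G))).map
          (Subgroup.centralizer ({z} : Set G)).subtype := ⟨_, rfl⟩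
    have hR₀2 : IsPGroup 2 R₀ := by
      rw [hR₀def]
      exact (Cfsg.Agent.Lib.Helper17.pCore_isPGroup).map _
    have hCR₀ : ∀ c ∈ Subgroup.centralizer ({z} : Set G), ∀ r ∈ R₀, c * r * c⁻¹ ∈ R₀ := by
      intro c hc r hr
      rw [hR₀def] at hr ⊢
      obtain ⟨r', hr', rfl⟩ := hr
      exact ⟨⟨c, hc⟩ * r' * ⟨c, hc⟩⁻¹,
        (Cfsg.Agent.Lib.Helper17.pCore_normal).conj_mem r' hr' ⟨c, hc⟩, rfl⟩
    have hCnorm : Subgroup.centralizer ({z} : Set G) ≤ Subgroup.normalizer (R₀ : Set G) := by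
      intro c hc
      rw [Subgroup.mem_normalizer_iff]
      intro r
      refine ⟨hCR₀ c hc r, fun h => ?_⟩
      have h1 := hCR₀ c⁻¹ (Subgroup.inv_mem _ hc) _ h
      have e : c⁻¹ * (c * r * c⁻¹) * c⁻¹⁻¹ = r := by group
      rwa [e] at h1
    have hWodd' : ¬ 2 ∣ Nat.card W₀ := by
      rw [hW₀card]
      intro hdvd
      have := Nat.Coprime.eq_one_of_dvd hWodd.symm hdvd
      omega
    have hcomm : ⁅W₀, T⁆ = ⊥ := by
      rw [Subgroup.commutator_eq_bot_iff_le_centralizer]
      intro w hw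
      rw [Subgroup.mem_centralizer_iff]
      intro x hx
      exact (hWT w hw x hx).symm
    have hAB := Cfsg.Agent.Lib.Helper11.thompson_AxB 2 W₀ T hWodd' hT hcomm (Nat.card R₀) R₀ hR₀2
      (hWC.trans hCnorm) (hTC.trans hCnorm) (by
        rintro r ⟨hrR, hrT⟩
        rw [Subgroup.mem_centralizer_iff]
        intro w hw
        have hrN : r ∈ Subgroup.normalizer (T : Set G) :=
          Subgroup.centralizer_le_normalizer _ hrT
        have h1 : w * r * w⁻¹ * r⁻¹ ∈ W₀ := by
          have h0 := hNW₀ r hrN w⁻¹ (W₀.inv_mem hw)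
          have e : w * r * w⁻¹ * r⁻¹ = w * (r * w⁻¹ * r⁻¹) := by group
          rw [e]; exact W₀.mul_mem hw h0
        have h3 : w * r * w⁻¹ * r⁻¹ ∈ R₀ :=
          R₀.mul_mem (hCR₀ w (hWC hw) r hrR) (R₀.inv_mem hrR)
        have h4 := hdisj R₀ hR₀2 _ h1 h3
        calc w * r = (w * r * w⁻¹ * r⁻¹) * (r * w) := by group
          _ = r * w := by rw [h4, one_mul]) le_rfl
    have hWR : W₀ ≤ R₀ := by
      intro w hw
      have hwC : (⟨w, hWC hw⟩ : Subgroup.centralizer ({z} : Set G)) ∈ Subgroup.centralizer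
          (Cfsg.pCore 2 (Subgroup.centralizer ({z} : Set G)) :
            Set (Subgroup.centralizer ({z} : Set G))) := by
        rw [Subgroup.mem_centralizer_iff]
        intro r hr
        apply Subtype.ext
        have hrR : (r : G) ∈ R₀ := by rw [hR₀def]; exact ⟨r, hr, rfl⟩
        have h0 := Subgroup.mem_centralizer_iff.mp (hAB hrR) w hw
        exact h0.symm
      rw [hR₀def]
      exact ⟨⟨w, hWC hw⟩, hLC hwC, rfl⟩
    rw [eq_bot_iff]
    intro w hw
    have h1 : (w : G) ∈ W₀ := by rw [hW₀def]; exact ⟨w, hw, rfl⟩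
    have h3 := hdisj R₀ hR₀2 _ h1 (hWR h1)
    exact Subgroup.mem_bot.mpr (Subtype.ext h3)
  have hFN : Subgroup.centralizer (Cfsg.fittingSubgroup ↥(Subgroup.normalizer (T : Set G)) :
      Set ↥(Subgroup.normalizer (T : Set G))) ≤
      Cfsg.fittingSubgroup ↥(Subgroup.normalizer (T : Set G)) := by
    have hzN : z ∈ Subgroup.normalizer (T : Set G) := Subgroup.le_normalizer hzT
    have hTn : (T.subgroupOf (Subgroup.normalizer (T : Set G))).Normal :=
      Subgroup.normal_in_normalizer
    have hTnil : Group.IsNilpotent (T.subgroupOf (Subgroup.normalizer (T : Set G))) :=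
      (hT.comap_subtype).isNilpotent
    have hzF : (⟨z, hzN⟩ : Subgroup.normalizer (T : Set G)) ∈
        Cfsg.fittingSubgroup ↥(Subgroup.normalizer (T : Set G)) :=
      Cfsg.Agent.Lib.Helper24.le_fitting _ hTn hTnil (Subgroup.mem_subgroupOf.mpr hzT)
    have hmem : ∀ x : Subgroup.centralizer
        (Cfsg.fittingSubgroup ↥(Subgroup.normalizer (T : Set G)) :
          Set ↥(Subgroup.normalizer (T : Set G))),
        ((Subgroup.normalizer (T : Set G)).subtype.comp (Subgroup.subtype _)) x ∈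
          Subgroup.centralizer ({z} : Set G) := by
      intro x
      rw [Subgroup.mem_centralizer_singleton_iff]
      have h1 := Subgroup.mem_centralizer_iff.mp x.2 ⟨z, hzN⟩ hzF
      have h3 := congrArg Subtype.val h1
      exact h3.symm
    have hinj : Function.Injective
        (((Subgroup.normalizer (T : Set G)).subtype.comp (Subgroup.subtype _)).codRestrict
          (Subgroup.centralizer ({z} : Set G)) hmem) := by
      intro x y hxy
      have h1 := congrArg Subtype.val hxy
      exact Subtype.ext (Subtype.ext h1)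
    have hsolv : Group.IsSolvable (Subgroup.centralizer
        (Cfsg.fittingSubgroup ↥(Subgroup.normalizer (T : Set G)) :
          Set ↥(Subgroup.normalizer (T : Set G)))) :=
      Group.isSolvable_of_isSolvable_injective hinj
    have h1 := Cfsg.Agent.S1264.result (G := ↥(Subgroup.normalizer (T : Set G)))
      (Subgroup.centralizer (Cfsg.fittingSubgroup ↥(Subgroup.normalizer (T : Set G)) :
          Set ↥(Subgroup.normalizer (T : Set G)))) le_rfl Subgroup.le_normalizer hsolv
    exact h1.trans (Subgroup.map_subtype_le _)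
  exact char_two_of_fitting hON hFN

end Cfsg.Agent.S0505
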