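import Cfsg.Statements.S0514
import Cfsg.Agent.S0071
import Cfsg.Agent.Lib.Helper10.DihSyl

set_option autoImplicit false
open Cfsg

namespace Cfsg.Agent.S0514

open scoped Pointwise

open Cfsg.Agent.Lib.Helper10 in
/-- In a dihedral `2`-group `S`, an element `g` of odd order that normalizes a subgroup `Q`
centralized by an involution `t ∈ S` which `g` centralizes, centralizes `Q`. -/
theorem odd_centralizes {X : Type*} [Group X] [Finite X] (S : Subgroup X) (hS : IsPGroup 2 S)
    {m : ℕ} (e : ↥S ≃* DihedralGroup m) (t : X) (ht : orderOf t = 2) (htS : t ∈ S)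
    (Q : Subgroup X) (hQS : Q ≤ S) (htQ : ∀ q ∈ Q, q * t = t * q) (g : X)
    (hg : g ∈ Subgroup.normalizer (Q : Set X)) (hgt : g * t = t * g)
    (hodd : (orderOf g).Coprime 2) : g ∈ Subgroup.centralizer (Q : Set X) := by
  classical
  have hF2 : Fact (Nat.Prime 2) := ⟨Nat.prime_two⟩
  have hconj : ∀ q ∈ Q, g * q * g⁻¹ ∈ Q := fun q hq =>
    (Subgroup.mem_normalizer_iff.mp hg q).mp hq
  have hQ2 : IsPGroup 2 Q := hS.to_le hQS
  have htt : t * t = 1 := by
    have h := pow_orderOf_eq_one t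
    rwa [ht, pow_two] at h
  by_cases hQR : Q ≤ rotSub S e
  · exact mem_centralizer_of_isCyclic Q (isCyclic_of_le_rotSub S e hQR) hQ2 g hg hodd
  obtain ⟨a, haQ, haR⟩ := SetLike.not_le_iff_exists.mp hQR
  have hQ₁c : IsCyclic ↥(Q ⊓ rotSub S e) := isCyclic_of_le_rotSub S e inf_le_right
  have hQ₁2 : IsPGroup 2 ↥(Q ⊓ rotSub S e) := hQ2.to_le inf_le_left
  have hkey : g ∈ Subgroup.normalizer ((Q ⊓ rotSub S e : Subgroup X) : Set X) := by
    by_contra hnot
    obtain ⟨q0, hq0⟩ := hQ₁c.exists_generator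
    have hgen : ∀ u ∈ Q ⊓ rotSub S e, ∃ k : ℤ, (q0 : X) ^ k = u := by
      intro u hu
      obtain ⟨k, hk⟩ := Subgroup.mem_zpowers_iff.mp (hq0 ⟨u, hu⟩)
      refine ⟨k, ?_⟩
      have h := congrArg Subtype.val hk
      rwa [Subgroup.coe_zpow] at h
    have hq0R : g * (q0 : X) * g⁻¹ ∉ rotSub S e := by
      intro hC
      apply hnot
      apply mem_normalizer_of_conj_mem_finite
      intro u hu
      obtain ⟨k, hk⟩ := hgen u hu
      have h1 : g * u * g⁻¹ = (g * (q0 : X) * g⁻¹) ^ k := by rw [← hk, conj_zpow]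
      rw [h1]
      exact Subgroup.zpow_mem _ (Subgroup.mem_inf.mpr ⟨hconj _ q0.2.1, hC⟩) k
    have hq0Q : g * (q0 : X) * g⁻¹ ∈ Q := hconj _ q0.2.1
    have h2 : orderOf (g * (q0 : X) * g⁻¹) = 2 :=
      orderOf_of_not_mem_rotSub S e (hQS hq0Q) hq0R
    have hq02 : orderOf (q0 : X) = 2 := by rw [← orderOf_conj_eq g]; exact h2
    have hq0q0 : (q0 : X) * (q0 : X) = 1 := by
      have h := pow_orderOf_eq_one (q0 : X)
      rwa [hq02, pow_two] at h
    have hQ₁mem : ∀ x ∈ Q ⊓ rotSub S e, x = 1 ∨ x = (q0 : X) := by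
      intro x hx
      obtain ⟨k, hk⟩ := hgen x hx
      exact (mem_zpowers_invol (q0 : X) hq0q0 x).mp (hk ▸ Subgroup.zpow_mem_zpowers _ k)
    have ha2 : orderOf a = 2 := orderOf_of_not_mem_rotSub S e (hQS haQ) haR
    have haa : a * a = 1 := by
      have h := pow_orderOf_eq_one a
      rwa [ha2, pow_two] at h
    -- t lies in Q
    have htQmem : t ∈ Q := by
      by_cases htR : t ∈ rotSub S e
      · have h3 : t = (q0 : X) := rotSub_invol_unique S e htR q0.2.2 ht hq02
        rw [h3]; exact q0.2.1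
      · have h3 : t * a ∈ rotSub S e := mul_mem_rotSub S e htS (hQS haQ) htR haR
        have hta : (t * a) * (t * a) = 1 := by
          have h4 := htQ a haQ
          calc (t * a) * (t * a) = t * (a * t) * a := by group
            _ = t * (t * a) * a := by rw [h4]
            _ = (t * t) * (a * a) := by group
            _ = 1 := by rw [htt, haa, one_mul]
        by_cases h4 : t * a = 1
        · have h5 : t = a⁻¹ := eq_inv_of_mul_eq_one_left h4
          rw [h5]; exact Q.inv_mem haQ
        · have h5 : orderOf (t * a) = 2 := orderOf_eq_prime (by rw [pow_two]; exact hta) h4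
          have h6 : t * a = (q0 : X) := rotSub_invol_unique S e h3 q0.2.2 h5 hq02
          have h7 : t = (q0 : X) * a⁻¹ := by rw [← h6]; group
          rw [h7]; exact Q.mul_mem q0.2.1 (Q.inv_mem haQ)
    by_cases htR : t ∈ rotSub S e
    · have h3 : t = (q0 : X) := rotSub_invol_unique S e htR q0.2.2 ht hq02
      apply hq0R
      rw [← h3]
      have h4 : g * t * g⁻¹ = t := by rw [hgt]; group
      rw [h4]; exact htR
    · have h3 : t * (g * (q0 : X) * g⁻¹) ∈ rotSub S e :=
        mul_mem_rotSub S e htS (hQS hq0Q) htR hq0R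
      rcases hQ₁mem _ ⟨Q.mul_mem htQmem hq0Q, h3⟩ with h4 | h4
      · -- g q0 g⁻¹ = t
        have h5 : g * (q0 : X) * g⁻¹ = t := by
          have h6 : g * (q0 : X) * g⁻¹ = t⁻¹ := eq_inv_of_mul_eq_one_right h4
          have h7 : t⁻¹ = t := inv_eq_of_mul_eq_one_left htt
          rw [h6, h7]
        have h8 : (q0 : X) = t := by
          have h9 : (q0 : X) = g⁻¹ * (g * (q0 : X) * g⁻¹) * g := by group
          rw [h9, h5, mul_assoc, ← hgt]; group
        exact htR (h8 ▸ q0.2.2)
      · -- g q0 g⁻¹ = t q0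
        have h5 : g * (q0 : X) * g⁻¹ = t * (q0 : X) := by
          have h6 : g * (q0 : X) * g⁻¹ = t⁻¹ * (q0 : X) := eq_inv_mul_of_mul_eq h4
          have h7 : t⁻¹ = t := inv_eq_of_mul_eq_one_left htt
          rw [h6, h7]
        have h8 : g ^ 2 * (q0 : X) = (q0 : X) * g ^ 2 := by
          have h9 : g ^ 2 * (q0 : X) * (g ^ 2)⁻¹ = (q0 : X) := by
            calc g ^ 2 * (q0 : X) * (g ^ 2)⁻¹ = g * (g * (q0 : X) * g⁻¹) * g⁻¹ := by
                  rw [pow_two, mul_inv_rev]; simp only [mul_assoc]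
              _ = g * (t * (q0 : X)) * g⁻¹ := by rw [h5]
              _ = (g * t) * ((q0 : X) * g⁻¹) := by group
              _ = (t * g) * ((q0 : X) * g⁻¹) := by rw [hgt]
              _ = t * (g * (q0 : X) * g⁻¹) := by group
              _ = t * (t * (q0 : X)) := by rw [h5]
              _ = (q0 : X) := by rw [← mul_assoc, htt, one_mul]
          calc g ^ 2 * (q0 : X) = g ^ 2 * (q0 : X) * (g ^ 2)⁻¹ * g ^ 2 := by
                rw [inv_mul_cancel_right]
            _ = (q0 : X) * g ^ 2 := by rw [h9]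
        obtain ⟨j, hj⟩ := exists_pow_eq_self_of_coprime (x := g) (n := 2) hodd.symm
        have h10 : g * (q0 : X) = (q0 : X) * g := by
          have h11 : Commute (g ^ 2) (q0 : X) := h8
          have h12 := h11.pow_left j
          rw [hj] at h12
          exact h12
        apply hq0R
        have h13 : g * (q0 : X) * g⁻¹ = (q0 : X) := by rw [h10]; group
        rw [h13]; exact q0.2.2
  have hc₁ : g ∈ Subgroup.centralizer ((Q ⊓ rotSub S e : Subgroup X) : Set X) :=
    mem_centralizer_of_isCyclic _ hQ₁c hQ₁2 g hkey hodd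
  rw [Subgroup.mem_centralizer_iff]
  intro q hq
  by_cases hqR : q ∈ rotSub S e
  · exact Subgroup.mem_centralizer_iff.mp hc₁ q ⟨hq, hqR⟩
  · have hb : g * q * g⁻¹ ∈ Q := hconj q hq
    have hbR : g * q * g⁻¹ ∉ rotSub S e := by
      intro hC
      have h1 : g⁻¹ ∈ Subgroup.normalizer ((Q ⊓ rotSub S e : Subgroup X) : Set X) :=
        Subgroup.inv_mem _ hkey
      have h2 := (Subgroup.mem_normalizer_iff.mp h1 (g * q * g⁻¹)).mp ⟨hb, hC⟩
      have e1 : g⁻¹ * (g * q * g⁻¹) * g⁻¹⁻¹ = q := by group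
      rw [e1] at h2
      exact hqR h2.2
    have hc : q * (g * q * g⁻¹) ∈ Q ⊓ rotSub S e :=
      ⟨Q.mul_mem hq hb, mul_mem_rotSub S e (hQS hq) (hQS hb) hqR hbR⟩
    have hgc : (q * (g * q * g⁻¹)) * g = g * (q * (g * q * g⁻¹)) :=
      Subgroup.mem_centralizer_iff.mp hc₁ _ hc
    have hq2 : orderOf q = 2 := orderOf_of_not_mem_rotSub S e (hQS hq) hqR
    have hqq : q * q = 1 := by
      have h := pow_orderOf_eq_one q
      rwa [hq2, pow_two] at h
    obtain ⟨c, hcdef⟩ : ∃ c, c = q * (g * q * g⁻¹) := ⟨_, rfl⟩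
    rw [← hcdef] at hc hgc
    have hgq : g * q * g⁻¹ = q * c := by
      rw [hcdef, ← mul_assoc, hqq, one_mul]
    have hgcn : ∀ n : ℕ, g * c ^ n * g⁻¹ = c ^ n := by
      intro n
      have h1 : Commute g c := hgc.symm
      have h2 : g * c ^ n = c ^ n * g := (h1.pow_right n)
      rw [h2]; group
    have hind : ∀ n : ℕ, g ^ n * q * (g ^ n)⁻¹ = q * c ^ n := by
      intro n
      induction n with
      | zero => simp
      | succ n ih =>
        calc g ^ (n + 1) * q * (g ^ (n + 1))⁻¹ = g * (g ^ n * q * (g ^ n)⁻¹) * g⁻¹ := by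
              rw [pow_succ']; group
          _ = g * (q * c ^ n) * g⁻¹ := by rw [ih]
          _ = (g * q * g⁻¹) * (g * c ^ n * g⁻¹) := by group
          _ = (q * c) * c ^ n := by rw [hgq, hgcn]
          _ = q * c ^ (n + 1) := by rw [pow_succ']; group
    have h3 := hind (orderOf g)
    rw [pow_orderOf_eq_one, one_mul, inv_one, mul_one] at h3
    have h4 : c ^ orderOf g = 1 := by
      have h5 : q * c ^ orderOf g = q * 1 := by rw [mul_one]; exact h3.symm
      exact mul_left_cancel h5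
    have h5 : orderOf c ∣ orderOf g := orderOf_dvd_of_pow_eq_one h4
    obtain ⟨j, hj⟩ := hQ₁2 ⟨c, hc⟩
    have h6 : c ^ 2 ^ j = 1 := by
      have h := congrArg Subtype.val hj
      simpa using h
    have h7 : orderOf c ∣ 2 ^ j := orderOf_dvd_of_pow_eq_one h6
    have h8 : orderOf c = 1 :=
      Nat.Coprime.eq_one_of_dvd (Nat.Coprime.coprime_dvd_left h5 (Nat.Coprime.pow_right j hodd)) h7
    have h9 : c = 1 := orderOf_eq_one_iff.mp h8
    rw [h9, mul_one] at hgq
    calc q * g = (g * q * g⁻¹) * g := by rw [hgq]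
      _ = g * q := by group

/-- In a finite group whose Sylow 2-subgroups are dihedral of order at least 4, the centralizer of any involution has a
normal subgroup of odd order whose index in the centralizer is a power of 2. -/
theorem result {X : Type*} [Group X] [Finite X]
    (S : Sylow 2 X) (n : ℕ) (hn : 2 ≤ n) (hS : Nonempty ((S : Subgroup X) ≃* DihedralGroup n)) (t : X)
    (ht : orderOf t = 2) :
    ∃ N : Subgroup (Subgroup.centralizer ({t} : Set X)), N.Normal ∧ Odd (Nat.card N) ∧ ∃ k : ℕ, N.index = 2 ^ k := by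
  classical
  have hF2 : Fact (Nat.Prime 2) := ⟨Nat.prime_two⟩
  obtain ⟨e⟩ := hS
  obtain ⟨T⟩ := (Sylow.nonempty : Nonempty (Sylow 2 (Subgroup.centralizer ({t} : Set X))))
  have hcomm : ∀ y : Subgroup.centralizer ({t} : Set X), (y : X) * t = t * (y : X) := fun y =>
    Subgroup.mem_centralizer_singleton_iff.mp y.2
  have hfrob : ∀ Q : Subgroup (Subgroup.centralizer ({t} : Set X)),
      Q ≤ (T : Subgroup (Subgroup.centralizer ({t} : Set X))) →
      ∀ g ∈ Subgroup.normalizer (Q : Set (Subgroup.centralizer ({t} : Set X))),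
      Nat.Coprime (orderOf g) 2 → g ∈ Subgroup.centralizer (Q : Set _) := by
    intro Q hQT g hg hodd
    have hT₀ : IsPGroup 2 ((T : Subgroup (Subgroup.centralizer ({t} : Set X))).map
        (Subgroup.subtype _)) := T.isPGroup'.map _
    have htz : IsPGroup 2 (Subgroup.zpowers t) := by
      apply IsPGroup.of_card (n := 1)
      rw [Nat.card_zpowers, ht, pow_one]
    have hT₁ : IsPGroup 2 (((T : Subgroup (Subgroup.centralizer ({t} : Set X))).map
        (Subgroup.subtype _)) ⊔ Subgroup.zpowers t : Subgroup X) := by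
      apply IsPGroup.to_sup_of_normal_right' hT₀ htz
      rintro x ⟨y, -, rfl⟩
      apply Cfsg.Agent.Lib.Helper10.mem_normalizer_of_conj_mem_finite
      intro u hu
      obtain ⟨k, rfl⟩ := Subgroup.mem_zpowers_iff.mp hu
      have h1 : (y : X) * t * (y : X)⁻¹ = t := by
        have := hcomm y
        rw [this]; group
      have h2 : Subgroup.subtype _ y * t ^ k * (Subgroup.subtype _ y)⁻¹ = t ^ k := by
        rw [Subgroup.coe_subtype, ← conj_zpow, h1]
      rw [h2]
      exact Subgroup.zpow_mem_zpowers t k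
    obtain ⟨S', hS'⟩ := hT₁.exists_le_sylow
    obtain ⟨x, hx⟩ := MulAction.exists_smul_eq X S S'
    have e' : (S' : Subgroup X) ≃* DihedralGroup n := by
      rw [← hx]
      exact (Sylow.equivSMul S x).symm.trans e
    have hQS' : Q.map (Subgroup.subtype _) ≤ (S' : Subgroup X) :=
      (Subgroup.map_mono hQT).trans (le_sup_left.trans hS')
    have htS' : t ∈ (S' : Subgroup X) := hS' (Subgroup.mem_sup_right (Subgroup.mem_zpowers t))
    have hgn : (g : X) ∈ Subgroup.normalizer ((Q.map (Subgroup.subtype _) : Subgroup X) : Set X) := by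
      apply Cfsg.Agent.Lib.Helper10.mem_normalizer_of_conj_mem_finite
      rintro u ⟨q, hq, rfl⟩
      have h1 : g * q * g⁻¹ ∈ Q := (Subgroup.mem_normalizer_iff.mp hg q).mp hq
      exact ⟨g * q * g⁻¹, h1, rfl⟩
    have h1 := odd_centralizes (S' : Subgroup X) S'.isPGroup' e' t ht htS'
      (Q.map (Subgroup.subtype _)) hQS' (by
        rintro u ⟨q, -, rfl⟩
        exact hcomm q) (g : X) hgn (hcomm g) (by rwa [Subgroup.orderOf_coe])
    rw [Subgroup.mem_centralizer_iff] at h1 ⊢
    intro q hq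
    apply Subtype.ext
    exact h1 (q : X) ⟨q, hq, rfl⟩
  obtain ⟨N, hN1, hN2⟩ := (Cfsg.Agent.S0071.result T).mpr hfrob
  refine ⟨N, hN1, ?_, ?_⟩
  · have h1 : Nat.card N = (T : Subgroup (Subgroup.centralizer ({t} : Set X))).index :=
      hN2.index_eq_card.symm
    rw [h1]
    have h2 := T.not_dvd_index
    exact Nat.odd_iff.mpr (by omega)
  · obtain ⟨k, hk⟩ := IsPGroup.iff_card.mp T.isPGroup'
    exact ⟨k, by rw [← hk]; exact hN2.symm.index_eq_card⟩

end Cfsg.Agent.S0514
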