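import Cfsg.Statements.S0520
import Cfsg.Agent.Lib.Helper10.QD2
import Cfsg.Agent.Lib.Helper18.SylowL
import Cfsg.Agent.Lib.Helper21.SylowInt

set_option autoImplicit false
open Cfsg

namespace Cfsg.Agent.S0520

open Cfsg.Agent.Lib.Helper10 Cfsg.Agent.Lib.Helper10.QD Cfsg.Agent.Lib.Helper18

theorem exists_not_pair {P : Type*} [Group P] [Finite P] (C : Subgroup P)
    (h : 3 ≤ Nat.card C) (e : P) : ∃ f ∈ C, f ≠ 1 ∧ f ≠ e := by
  by_contra hcon
  push Not at hcon
  have hsub : (C : Set P) ⊆ {1, e} := by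
    intro f hf
    by_cases h1 : f = 1
    · left; exact h1
    · right; exact hcon f hf h1
  have h1 : Nat.card C ≤ 2 := by
    have h2 : Nat.card C = (C : Set P).ncard := rfl
    rw [h2]
    calc (C : Set P).ncard ≤ ({1, e} : Set P).ncard := Set.ncard_le_ncard hsub (Set.toFinite _)
      _ ≤ ({e} : Set P).ncard + 1 := Set.ncard_insert_le _ _
      _ = 2 := by rw [Set.ncard_singleton]
  omega

theorem klein_of_equiv {A B : Type*} [Group A] [Group B] (e : A ≃* B) (h : IsKleinFour A) :
    IsKleinFour B :=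
  ⟨by rw [← Nat.card_congr e.toEquiv]; exact h.card_four,
    by rw [← Monoid.exponent_eq_of_mulEquiv e]; exact h.exponent_two⟩

variable {G : Type*} [Group G]

theorem klein_conj (U : Subgroup G) (hU : IsKleinFour U) (g : G) :
    IsKleinFour (U.map (MulAut.conj g).toMonoidHom) :=
  klein_of_equiv (U.equivMapOfInjective _ (MulAut.conj g).injective) hU

/-- The commuting relation on four-subgroups. -/
abbrev Rel (A B : Subgroup G) : Prop :=
  IsKleinFour A ∧ IsKleinFour B ∧ ∀ a ∈ A, ∀ b ∈ B, a * b = b * a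

theorem rel_symm {A B : Subgroup G} (h : Rel A B) : Rel B A :=
  ⟨h.2.1, h.1, fun b hb a ha => (h.2.2 a ha b hb).symm⟩

theorem rel_conj (g : G) {A B : Subgroup G} (h : Rel A B) :
    Rel (A.map (MulAut.conj g).toMonoidHom) (B.map (MulAut.conj g).toMonoidHom) := by
  obtain ⟨hA, hB, hc⟩ := h
  refine ⟨klein_conj A hA g, klein_conj B hB g, ?_⟩
  rintro _ ⟨a, ha, rfl⟩ _ ⟨b, hb, rfl⟩
  show MulAut.conj g a * MulAut.conj g b = MulAut.conj g b * MulAut.conj g a
  rw [← map_mul, ← map_mul, hc a ha b hb]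

theorem conn_conj (g : G) {A B : Subgroup G} (h : Relation.ReflTransGen Rel A B) :
    Relation.ReflTransGen Rel (A.map (MulAut.conj g).toMonoidHom)
      (B.map (MulAut.conj g).toMonoidHom) :=
  Relation.ReflTransGen.lift (fun X : Subgroup G => X.map (MulAut.conj g).toMonoidHom)
    (fun _ _ h => rel_conj g h) A B h

theorem conn_symm {A B : Subgroup G} (h : Relation.ReflTransGen Rel A B) :
    Relation.ReflTransGen Rel B A := by
  induction h with
  | refl => exact Relation.ReflTransGen.refl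
  | tail _ hbc ih => exact Relation.ReflTransGen.head (rel_symm hbc) ih

theorem conn_of_le (S : Subgroup G) (hS : Cfsg.IsFourConnected S) {U V : Subgroup G}
    (hU : IsKleinFour U) (hV : IsKleinFour V) (hUS : U ≤ S) (hVS : V ≤ S) :
    Relation.ReflTransGen Rel U V := by
  have hU' : IsKleinFour (U.subgroupOf S) :=
    klein_of_equiv (Subgroup.subgroupOfEquivOfLe hUS).symm hU
  have hV' : IsKleinFour (V.subgroupOf S) :=
    klein_of_equiv (Subgroup.subgroupOfEquivOfLe hVS).symm hV
  have h := hS _ _ hU' hV'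
  have hlift : ∀ A B : Subgroup S,
      (IsKleinFour A ∧ IsKleinFour B ∧ ∀ a ∈ A, ∀ b ∈ B, a * b = b * a) →
      Rel (A.map S.subtype) (B.map S.subtype) := by
    rintro A B ⟨hA, hB, hc⟩
    refine ⟨klein_of_equiv (A.equivMapOfInjective _ S.subtype_injective) hA,
      klein_of_equiv (B.equivMapOfInjective _ S.subtype_injective) hB, ?_⟩
    rintro _ ⟨a, ha, rfl⟩ _ ⟨b, hb, rfl⟩
    exact congrArg Subtype.val (hc a ha b hb)
  have h2 := Relation.ReflTransGen.lift (p := Rel (G := G))
    (fun A : Subgroup S => A.map S.subtype) hlift _ _ h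
  simp only [Function.onFun] at h2
  rw [Subgroup.map_subgroupOf_eq_of_le hUS, Subgroup.map_subgroupOf_eq_of_le hVS] at h2
  exact h2

theorem exists_four_of_not_rank {H : Type*} [Group H] [Finite H] (h : ¬ Cfsg.PRankLE 2 1 H) :
    ∃ U : Subgroup H, IsKleinFour U := by
  unfold Cfsg.PRankLE at h
  push Not at h
  obtain ⟨A, hAc, hA2, hAcard⟩ := h
  have h3 : 3 ≤ Nat.card A := by norm_num at hAcard; omega
  obtain ⟨a, ha, ha1, -⟩ := exists_not_pair A h3 1
  obtain ⟨b, hb, hb1, hba⟩ := exists_not_pair A h3 a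
  have hab : a * b = b * a := congrArg Subtype.val (hAc.is_comm.comm ⟨a, ha⟩ ⟨b, hb⟩)
  obtain ⟨U, hU, -⟩ := exists_four a b ha1 hb1 (Ne.symm hba)
    (by rw [← pow_two]; exact hA2 a ha) (by rw [← pow_two]; exact hA2 b hb) hab
  exact ⟨U, hU⟩

theorem not_rank_of_four {Q U : Subgroup G} (hU : IsKleinFour U) (hUQ : U ≤ Q) :
    ¬ Cfsg.PRankLE 2 1 Q := by
  intro h
  have hU' : IsKleinFour (U.subgroupOf Q) :=
    klein_of_equiv (Subgroup.subgroupOfEquivOfLe hUQ).symm hU
  have h1 := h (U.subgroupOf Q) (@IsKleinFour.isMulCommutative _ _ hU')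
    (fun a ha => by rw [pow_two]; exact klein_mul_self _ hU' ha)
  rw [hU'.card_four] at h1
  norm_num at h1

/-- Let G be a finite group of 2-rank at least 2 and S a Sylow 2-subgroup whose commuting graph of Klein four-subgroups is
connected. Then the commuting graph of Klein four-subgroups of G is disconnected if and only if the 2-generated core — the
subgroup generated by the normalizers N_G(Q) of the subgroups Q of S that contain a Klein four-group — is a proper
subgroup of G. -/
theorem result {G : Type*} [Group G] [Finite G] (h2 : ¬ Cfsg.PRankLE 2 1 G)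
    (S : Sylow 2 G) (hS : Cfsg.IsFourConnected (S : Subgroup G)) :
    ¬ Cfsg.IsFourConnected G ↔
      (⨆ Q : {Q : Subgroup G // Q ≤ (S : Subgroup G) ∧ ¬ Cfsg.PRankLE 2 1 Q},
          Subgroup.normalizer ((Q : Subgroup G) : Set G)) ≠ ⊤ := by
  classical
  have : Fact (Nat.Prime 2) := ⟨Nat.prime_two⟩
  obtain ⟨U1, hU1⟩ := exists_four_of_not_rank h2
  have hU1p : IsPGroup 2 U1 := IsPGroup.of_card (n := 2) (by rw [hU1.card_four]; norm_num)
  obtain ⟨g0, hg0⟩ := exists_conj_le_sylow hU1p S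
  obtain ⟨U0, hU0, hU0S⟩ : ∃ U0 : Subgroup G, IsKleinFour U0 ∧ U0 ≤ (S : Subgroup G) := by
    refine ⟨U1.map (MulAut.conj g0⁻¹).toMonoidHom, klein_conj U1 hU1 _, ?_⟩
    rw [map_conj_le_iff, inv_inv]; exact hg0
  obtain ⟨Γ, hΓ⟩ : ∃ Γ : Subgroup G,
      Γ = ⨆ Q : {Q : Subgroup G // Q ≤ (S : Subgroup G) ∧ ¬ Cfsg.PRankLE 2 1 Q},
        Subgroup.normalizer ((Q : Subgroup G) : Set G) := ⟨_, rfl⟩
  rw [← hΓ]
  have hΓle : ∀ Q : Subgroup G, Q ≤ (S : Subgroup G) →
      (∃ U : Subgroup G, IsKleinFour U ∧ U ≤ Q) → Subgroup.normalizer (Q : Set G) ≤ Γ := by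
    rintro Q hQS ⟨U, hU, hUQ⟩
    rw [hΓ]
    exact le_iSup (fun Q : {Q : Subgroup G // Q ≤ (S : Subgroup G) ∧ ¬ Cfsg.PRankLE 2 1 Q} =>
      Subgroup.normalizer ((Q : Subgroup G) : Set G)) ⟨Q, hQS, not_rank_of_four hU hUQ⟩
  have hΓlub : ∀ H : Subgroup G, (∀ Q : Subgroup G, Q ≤ (S : Subgroup G) →
      (∃ U : Subgroup G, IsKleinFour U ∧ U ≤ Q) → Subgroup.normalizer (Q : Set G) ≤ H) →
      Γ ≤ H := by
    intro H hH
    rw [hΓ]
    apply iSup_le
    rintro ⟨Q, hQS, hQr⟩
    obtain ⟨U', hU'⟩ := exists_four_of_not_rank hQr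
    exact hH Q hQS ⟨U'.map Q.subtype,
      klein_of_equiv (U'.equivMapOfInjective _ Q.subtype_injective) hU',
      Subgroup.map_subtype_le U'⟩
  constructor
  · intro hnc hΓtop
    apply hnc
    let H : Subgroup G :=
      { carrier := {g | Relation.ReflTransGen Rel U0 (U0.map (MulAut.conj g).toMonoidHom)}
        one_mem' := by
          show Relation.ReflTransGen Rel U0 (U0.map (MulAut.conj (1 : G)).toMonoidHom)
          rw [map_conj_one]
        mul_mem' := by
          intro g h hg hh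
          show Relation.ReflTransGen Rel U0 (U0.map (MulAut.conj (g * h)).toMonoidHom)
          rw [map_conj_mul]
          exact Relation.ReflTransGen.trans hg (conn_conj g hh)
        inv_mem' := by
          intro g hg
          show Relation.ReflTransGen Rel U0 (U0.map (MulAut.conj g⁻¹).toMonoidHom)
          have h1 := conn_conj g⁻¹ hg
          rw [← map_conj_mul, inv_mul_cancel, map_conj_one] at h1
          exact conn_symm h1 }
    have hHmem : ∀ g, g ∈ H ↔
        Relation.ReflTransGen Rel U0 (U0.map (MulAut.conj g).toMonoidHom) := fun g => Iff.rfl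
    have hΓH : Γ ≤ H := by
      apply hΓlub
      rintro Q hQS ⟨U, hU, hUQ⟩ g hg
      rw [hHmem]
      have h1 : Relation.ReflTransGen Rel U0 U :=
        conn_of_le S hS hU0 hU hU0S (hUQ.trans hQS)
      have hgU : U.map (MulAut.conj g).toMonoidHom ≤ Q := by
        calc U.map (MulAut.conj g).toMonoidHom ≤ Q.map (MulAut.conj g).toMonoidHom :=
              Subgroup.map_mono hUQ
          _ = Q := map_conj_eq_of_mem_normalizer Q hg
      have h2 : Relation.ReflTransGen Rel U0 (U.map (MulAut.conj g).toMonoidHom) :=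
        conn_of_le S hS hU0 (klein_conj U hU g) hU0S (hgU.trans hQS)
      exact Relation.ReflTransGen.trans h2 (conn_symm (conn_conj g h1))
    have hHtop : H = ⊤ := top_le_iff.mp (hΓtop ▸ hΓH)
    have hall : ∀ V : Subgroup G, IsKleinFour V → Relation.ReflTransGen Rel U0 V := by
      intro V hV
      have hVp : IsPGroup 2 V := IsPGroup.of_card (n := 2) (by rw [hV.card_four]; norm_num)
      obtain ⟨g, hg⟩ := exists_conj_le_sylow hVp S
      have hVS : V.map (MulAut.conj g⁻¹).toMonoidHom ≤ S := by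
        rw [map_conj_le_iff, inv_inv]; exact hg
      have h1 := conn_of_le S hS hU0 (klein_conj V hV g⁻¹) hU0S hVS
      have h2 := conn_conj g h1
      rw [← map_conj_mul V, mul_inv_cancel, map_conj_one] at h2
      have h3 : g ∈ H := by rw [hHtop]; exact Subgroup.mem_top g
      exact Relation.ReflTransGen.trans ((hHmem g).mp h3) h2
    intro U V hU hV
    exact Relation.ReflTransGen.trans (conn_symm (hall U hU)) (hall V hV)
  · intro hΓne hconn
    apply hΓne
    have hSΓ : (S : Subgroup G) ≤ Γ :=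
      (Subgroup.le_normalizer).trans (hΓle S le_rfl ⟨U0, hU0, hU0S⟩)
    have claimA : ∀ Q : Subgroup G, IsPGroup 2 Q → Q ≤ Γ →
        (∃ U : Subgroup G, IsKleinFour U ∧ U ≤ Q) → Subgroup.normalizer (Q : Set G) ≤ Γ := by
      rintro Q hQ hQΓ ⟨U, hU, hUQ⟩
      obtain ⟨m, hm, hQm⟩ := exists_conj_le_of_sylow_le hQ hQΓ S hSΓ
      have hQ'S : Q.map (MulAut.conj m⁻¹).toMonoidHom ≤ S := by
        rw [map_conj_le_iff, inv_inv]; exact hQm
      have h1 := hΓle _ hQ'S ⟨U.map (MulAut.conj m⁻¹).toMonoidHom, klein_conj U hU _,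
        Subgroup.map_mono hUQ⟩
      intro n hn
      have h2 : m⁻¹ * n * m ∈ Subgroup.normalizer
          ((Q.map (MulAut.conj m⁻¹).toMonoidHom : Subgroup G) : Set G) := by
        apply mem_normalizer_of_map_conj_eq
        rw [← map_conj_mul]
        have e : m⁻¹ * n * m * m⁻¹ = m⁻¹ * n := by group
        rw [e, map_conj_mul, map_conj_eq_of_mem_normalizer Q hn]
      have h3 := h1 h2
      have e : n = m * (m⁻¹ * n * m) * m⁻¹ := by group
      rw [e]
      exact Γ.mul_mem (Γ.mul_mem hm h3) (Γ.inv_mem hm)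
    have claimB : ∀ V : Subgroup G, Relation.ReflTransGen Rel U0 V → V ≤ Γ := by
      intro V hpath
      induction hpath with
      | refl => exact hU0S.trans hSΓ
      | tail _ hbc ih =>
        obtain ⟨hb, hc, hcomm⟩ := hbc
        rename_i b c _
        have hbp : IsPGroup 2 b := IsPGroup.of_card (n := 2) (by rw [hb.card_four]; norm_num)
        have h1 := claimA b hbp ih ⟨b, hb, le_rfl⟩
        intro x hx
        apply h1
        apply mem_normalizer_of_conj_mem_finite
        intro u hu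
        have h2 := hcomm u hu x hx
        have e : x * u * x⁻¹ = u := by rw [← h2]; group
        rw [e]; exact hu
    have claimC : ∀ T : Subgroup G, IsPGroup 2 T →
        (∃ U : Subgroup G, IsKleinFour U ∧ U ≤ T) → T ≤ Γ := by
      rintro T hT ⟨U, hU, hUT⟩
      by_contra hne
      have hlt : T ⊓ Γ < T :=
        lt_of_le_of_ne inf_le_left (fun h => hne (h ▸ inf_le_right))
      obtain ⟨x, hxT, hxN, hxn⟩ :=
        Cfsg.Agent.Lib.Helper21.exists_mem_normalizer_not_mem hT hlt
      have h1 := claimA (T ⊓ Γ) (hT.to_le inf_le_left) inf_le_right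
        ⟨U, hU, le_inf hUT (claimB U (hconn U0 U hU0 hU))⟩
      exact hxn ⟨hxT, h1 hxN⟩
    rw [eq_top_iff]
    intro g _
    have hT : IsPGroup 2 ((S : Subgroup G).map (MulAut.conj g).toMonoidHom) :=
      isPGroup_map_conj S.isPGroup' g
    have hTΓ := claimC _ hT ⟨U0.map (MulAut.conj g).toMonoidHom, klein_conj U0 hU0 g,
      Subgroup.map_mono hU0S⟩
    obtain ⟨m, hm, hTm⟩ := exists_conj_le_of_sylow_le hT hTΓ S hSΓ
    have h1 : m⁻¹ * g ∈ Subgroup.normalizer ((S : Subgroup G) : Set G) := by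
      apply mem_normalizer_of_conj_mem_finite
      intro u hu
      have h2 := hTm (conj_mem_map_conj (S : Subgroup G) g hu)
      rw [mem_map_conj_iff] at h2
      have e : m⁻¹ * g * u * (m⁻¹ * g)⁻¹ = m⁻¹ * (g * u * g⁻¹) * m := by group
      rw [e]; exact h2
    have h3 : m⁻¹ * g ∈ Γ := hΓle S le_rfl ⟨U0, hU0, hU0S⟩ h1
    have e : g = m * (m⁻¹ * g) := by group
    rw [e]; exact Γ.mul_mem hm h3

end Cfsg.Agent.S0520
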