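import Cfsg.Statements.S0521
import Cfsg.Agent.Lib.Helper14.Cores
import Cfsg.Agent.Lib.Helper1.Cores
import Cfsg.Agent.Lib.Helper1.ThompsonAux

set_option autoImplicit false
open Cfsg

namespace Cfsg.Agent.S0521

set_option linter.style.haveILetI false

universe u

section Alg
variable {X : Type u} [Group X]

theorem conj_pow_of_comm (g v c : X) (hv : g * v * g⁻¹ = c * v) (hc : g * c * g⁻¹ = c) (k : ℕ) :
    g ^ k * v * (g ^ k)⁻¹ = c ^ k * v := by
  induction k with
  | zero => simp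
  | succ k ih =>
    calc g ^ (k + 1) * v * (g ^ (k + 1))⁻¹ = g * (g ^ k * v * (g ^ k)⁻¹) * g⁻¹ := by
          rw [pow_succ']; group
      _ = g * (c ^ k * v) * g⁻¹ := by rw [ih]
      _ = (g * c * g⁻¹) ^ k * (g * v * g⁻¹) := by rw [conj_pow]; group
      _ = c ^ (k + 1) * v := by rw [hc, hv, ← mul_assoc, ← pow_succ]

theorem stab_pow {p : ℕ} (g : X) (U V : Subgroup X)
    (h1 : ∀ u ∈ U, g * u * g⁻¹ = u) (h2 : ∀ v ∈ V, g * v * g⁻¹ * v⁻¹ ∈ U)
    (h3 : ∀ u ∈ U, u ^ p = 1) : ∀ v ∈ V, g ^ p * v * (g ^ p)⁻¹ = v := by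
  intro v hv
  have hc := h2 v hv
  have := conj_pow_of_comm g v (g * v * g⁻¹ * v⁻¹) (by group) (h1 _ hc) p
  rw [this, h3 _ hc, one_mul]

/-- The stability group of the chain `W₁ ≤ W ≤ M`. -/
def stab2 (W₁ W M : Subgroup X) (hW : W₁ ≤ W) : Subgroup X where
  carrier := {g | (∀ u ∈ W₁, g * u * g⁻¹ = u) ∧ (∀ w ∈ W, g * w * g⁻¹ * w⁻¹ ∈ W₁) ∧
    (∀ m ∈ M, g * m * g⁻¹ * m⁻¹ ∈ W)}
  mul_mem' := by
    rintro g h ⟨g1, g2, g3⟩ ⟨h1, h2, h3⟩
    refine ⟨?_, ?_, ?_⟩
    · intro u hu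
      calc g * h * u * (g * h)⁻¹ = g * (h * u * h⁻¹) * g⁻¹ := by group
        _ = u := by rw [h1 u hu, g1 u hu]
    · intro w hw
      have e : g * h * w * (g * h)⁻¹ * w⁻¹ =
          (g * (h * w * h⁻¹ * w⁻¹) * g⁻¹) * (g * w * g⁻¹ * w⁻¹) := by group
      rw [e, g1 _ (h2 w hw)]
      exact W₁.mul_mem (h2 w hw) (g2 w hw)
    · intro m hm
      have e : g * h * m * (g * h)⁻¹ * m⁻¹ =
          (g * (h * m * h⁻¹ * m⁻¹) * g⁻¹ * (h * m * h⁻¹ * m⁻¹)⁻¹) * (h * m * h⁻¹ * m⁻¹) *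
            (g * m * g⁻¹ * m⁻¹) := by group
      rw [e]
      exact W.mul_mem (W.mul_mem (hW (g2 _ (h3 m hm))) (h3 m hm)) (g3 m hm)
  one_mem' := by
    refine ⟨?_, ?_, ?_⟩
    · intro u _; simp
    · intro w _; simp
    · intro m _; simp
  inv_mem' := by
    rintro g ⟨g1, g2, g3⟩
    have i1 : ∀ u ∈ W₁, g⁻¹ * u * g⁻¹⁻¹ = u := by
      intro u hu
      calc g⁻¹ * u * g⁻¹⁻¹ = g⁻¹ * (g * u * g⁻¹) * g := by rw [g1 u hu, inv_inv]
        _ = u := by group
    have i2 : ∀ w ∈ W, g⁻¹ * w * g⁻¹⁻¹ * w⁻¹ ∈ W₁ := by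
      intro w hw
      have hc := g2 w hw
      have e : g⁻¹ * w * g⁻¹⁻¹ * w⁻¹ = (g⁻¹ * (g * w * g⁻¹ * w⁻¹) * g⁻¹⁻¹)⁻¹ := by group
      rw [e, i1 _ hc]
      exact W₁.inv_mem hc
    refine ⟨i1, i2, ?_⟩
    intro m hm
    have hc := g3 m hm
    have e : g⁻¹ * m * g⁻¹⁻¹ * m⁻¹ =
        (g⁻¹ * (g * m * g⁻¹ * m⁻¹)⁻¹ * g⁻¹⁻¹ * (g * m * g⁻¹ * m⁻¹)⁻¹⁻¹) *
          (g * m * g⁻¹ * m⁻¹)⁻¹ := by group
    rw [e]
    exact W.mul_mem (hW (i2 _ (W.inv_mem hc))) (W.inv_mem hc)

theorem stab2_pow {p : ℕ} {W₁ W M : Subgroup X} (hW : W₁ ≤ W) (hWp : ∀ w ∈ W, w ^ p = 1)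
    {g : X} (hg : g ∈ stab2 W₁ W M hW) :
    ∀ m ∈ M, (g ^ p) ^ p * m * ((g ^ p) ^ p)⁻¹ = m := by
  have h1 : ∀ w ∈ W, g ^ p * w * (g ^ p)⁻¹ = w :=
    stab_pow g W₁ W hg.1 hg.2.1 (fun u hu => hWp u (hW hu))
  have hgp : g ^ p ∈ stab2 W₁ W M hW := Subgroup.pow_mem _ hg p
  exact stab_pow (g ^ p) W M h1 hgp.2.2 hWp

theorem nf_mul {a b : X} (hab : Commute a b) (k l m n : ℕ) :
    (a ^ k * b ^ l) * (a ^ m * b ^ n) = a ^ (k + m) * b ^ (l + n) := by
  have h := (hab.pow_pow m l).eq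
  calc (a ^ k * b ^ l) * (a ^ m * b ^ n) = a ^ k * (b ^ l * a ^ m) * b ^ n := by group
    _ = a ^ k * (a ^ m * b ^ l) * b ^ n := by rw [h]
    _ = a ^ (k + m) * b ^ (l + n) := by rw [pow_add, pow_add]; group

theorem nf_pow {a b : X} (hab : Commute a b) (k l n : ℕ) :
    (a ^ k * b ^ l) ^ n = a ^ (k * n) * b ^ (l * n) := by
  rw [(hab.pow_pow k l).mul_pow, ← pow_mul, ← pow_mul]

theorem conj_nf (g a b u v : X) (hu : g * a * g⁻¹ = u) (hv : g * b * g⁻¹ = v) (k l : ℕ) :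
    g * (a ^ k * b ^ l) * g⁻¹ = u ^ k * v ^ l := by
  rw [← hu, ← hv, conj_pow, conj_pow]
  group

theorem sl2_invert (x y a b : X) (hab : Commute a b) (i j t : ℕ)
    (hxa : x * a * x⁻¹ = a) (hxb : x * b * x⁻¹ = a ^ i * b)
    (hya : y * a * y⁻¹ = a * b ^ j) (hyb : y * b * y⁻¹ = b)
    (n : ℕ) (ha : a ^ n = 1) (hb : b ^ n = 1) (hn : n ∣ t * j * i + 4) :
    (x * y ^ t) * (a ^ i * b ^ 2) * (x * y ^ t)⁻¹ * (a ^ i * b ^ 2) = 1 := by
  have Fy : ∀ k l : ℕ, y * (a ^ k * b ^ l) * y⁻¹ = a ^ k * b ^ (j * k + l) := by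
    intro k l
    rw [conj_nf y a b _ _ hya hyb k l]
    have := nf_pow hab 1 j k
    rw [pow_one] at this
    rw [this, one_mul, mul_assoc, ← pow_add]
  have Fyt : ∀ (s k l : ℕ), y ^ s * (a ^ k * b ^ l) * (y ^ s)⁻¹ = a ^ k * b ^ (s * j * k + l) := by
    intro s
    induction s with
    | zero => intro k l; simp
    | succ s ih =>
      intro k l
      calc y ^ (s + 1) * (a ^ k * b ^ l) * (y ^ (s + 1))⁻¹
          = y * (y ^ s * (a ^ k * b ^ l) * (y ^ s)⁻¹) * y⁻¹ := by rw [pow_succ']; group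
        _ = y * (a ^ k * b ^ (s * j * k + l)) * y⁻¹ := by rw [ih]
        _ = a ^ k * b ^ (j * k + (s * j * k + l)) := Fy _ _
        _ = a ^ k * b ^ ((s + 1) * j * k + l) := by congr 2; ring
  have Fx : ∀ k l : ℕ, x * (a ^ k * b ^ l) * x⁻¹ = a ^ (k + i * l) * b ^ l := by
    intro k l
    rw [conj_nf x a b _ _ hxa hxb k l]
    have := nf_pow hab i 1 l
    rw [pow_one] at this
    rw [this, one_mul, ← mul_assoc, ← pow_add]
  have e1 : (x * y ^ t) * (a ^ i * b ^ 2) * (x * y ^ t)⁻¹ =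
      x * (y ^ t * (a ^ i * b ^ 2) * (y ^ t)⁻¹) * x⁻¹ := by group
  rw [e1, Fyt, Fx, nf_mul hab]
  obtain ⟨q, hq⟩ := hn
  have ea : i + i * (t * j * i + 2) + i = n * (q * i) := by
    have : i + i * (t * j * i + 2) + i = (t * j * i + 4) * i := by ring
    rw [this, hq]; ring
  have eb : t * j * i + 2 + 2 = n * q := by rw [← hq]
  rw [ea, eb, pow_mul a, pow_mul b, ha, hb, one_pow, one_pow, one_mul]

theorem eq_one_of_inverted [Finite X] (hodd : Odd (Nat.card X)) (g w : X)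
    (h : g * w * g⁻¹ = w⁻¹) : w = 1 := by
  have h2 : g ^ 2 * w * (g ^ 2)⁻¹ = w := by
    calc g ^ 2 * w * (g ^ 2)⁻¹ = g * (g * w * g⁻¹) * g⁻¹ := by rw [pow_two]; group
      _ = g * w⁻¹ * g⁻¹ := by rw [h]
      _ = (g * w * g⁻¹)⁻¹ := by group
      _ = w := by rw [h, inv_inv]
  have hc2 : Commute (g ^ 2) w := by
    have : g ^ 2 * w = w * g ^ 2 := by
      calc g ^ 2 * w = (g ^ 2 * w * (g ^ 2)⁻¹) * g ^ 2 := by group
        _ = w * g ^ 2 := by rw [h2]
    exact this
  have hgodd : Odd (orderOf g) := Odd.of_dvd_nat hodd (orderOf_dvd_natCard g)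
  obtain ⟨k, hk⟩ := hgodd
  have hg : g = (g ^ 2) ^ (k + 1) := by
    rw [← pow_mul]
    have : 2 * (k + 1) = orderOf g + 1 := by omega
    rw [this, pow_succ, pow_orderOf_eq_one, one_mul]
  have hc : Commute g w := by
    rw [hg]; exact hc2.pow_left _
  have hw : w = w⁻¹ := by
    rw [← h, hc.eq, mul_inv_cancel_right]
  have hw2 : w ^ 2 = 1 := by
    rw [pow_two]
    nth_rewrite 1 [hw]
    exact inv_mul_cancel w
  have hwodd : Odd (orderOf w) := Odd.of_dvd_nat hodd (orderOf_dvd_natCard w)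
  have hd : orderOf w ∣ 2 := orderOf_dvd_of_pow_eq_one hw2
  have h1 : orderOf w = 1 := by
    rcases (Nat.dvd_prime Nat.prime_two).mp hd with h | h
    · exact h
    · rw [h] at hwodd; exact absurd hwodd (by decide)
  exact orderOf_eq_one_iff.mp h1

theorem conj_eq_of_ppow {p : ℕ} [hp : Fact p.Prime] (x a : X) (k i : ℕ) (hx : x ^ (p ^ k) = 1)
    (ha : a ^ p = 1) (hxa : x * a * x⁻¹ = a ^ i) : x * a * x⁻¹ = a := by
  by_cases ha1 : a = 1
  · rw [ha1]; simp
  have hord : orderOf a = p := orderOf_eq_prime ha ha1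
  have hpow : ∀ n : ℕ, x ^ n * a * (x ^ n)⁻¹ = a ^ (i ^ n) := by
    intro n
    induction n with
    | zero => simp
    | succ n ih =>
      calc x ^ (n + 1) * a * (x ^ (n + 1))⁻¹ = x * (x ^ n * a * (x ^ n)⁻¹) * x⁻¹ := by
            rw [pow_succ']; group
        _ = x * a ^ (i ^ n) * x⁻¹ := by rw [ih]
        _ = (x * a * x⁻¹) ^ (i ^ n) := by rw [conj_pow]
        _ = a ^ (i ^ (n + 1)) := by rw [hxa, ← pow_mul, pow_succ']
  have h1 := hpow (p ^ k)
  rw [hx] at h1
  simp only [one_mul, inv_one, mul_one] at h1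
  have h2 : a ^ (i ^ p ^ k) = a ^ 1 := by rw [← h1, pow_one]
  rw [pow_eq_pow_iff_modEq, hord] at h2
  have h3 : ((i ^ p ^ k : ℕ) : ZMod p) = ((1 : ℕ) : ZMod p) := (ZMod.natCast_eq_natCast_iff _ _ _).mpr h2
  rw [Nat.cast_pow, ZMod.pow_card_pow] at h3
  have h4 : i ≡ 1 [MOD p] := (ZMod.natCast_eq_natCast_iff _ _ _).mp h3
  rw [hxa]
  have h5 : a ^ i = a ^ 1 := by
    rw [pow_eq_pow_iff_modEq, hord]; exact h4
  rw [h5, pow_one]

theorem conj_fix_zpowers {g b : X} (h : g * b * g⁻¹ = b) :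
    ∀ u ∈ Subgroup.zpowers b, g * u * g⁻¹ = u := by
  intro u hu
  obtain ⟨k, rfl⟩ := Subgroup.mem_zpowers_iff.mp hu
  rw [← conj_zpow, h]

theorem conj_fix_sup {g a b : X} (ha : g * a * g⁻¹ = a) (hb : g * b * g⁻¹ = b) :
    ∀ u ∈ Subgroup.zpowers a ⊔ Subgroup.zpowers b, g * u * g⁻¹ = u := by
  have hle : Subgroup.zpowers a ⊔ Subgroup.zpowers b ≤ Subgroup.centralizer {g} := by
    rw [sup_le_iff, Subgroup.zpowers_le, Subgroup.zpowers_le]
    constructor
    · rw [Subgroup.mem_centralizer_iff]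
      intro h hh
      rw [Set.mem_singleton_iff] at hh
      subst hh
      calc h * a = (h * a * h⁻¹) * h := by group
        _ = a * h := by rw [ha]
    · rw [Subgroup.mem_centralizer_iff]
      intro h hh
      rw [Set.mem_singleton_iff] at hh
      subst hh
      calc h * b = (h * b * h⁻¹) * h := by group
        _ = b * h := by rw [hb]
  intro u hu
  have := Subgroup.mem_centralizer_iff.mp (hle hu) g rfl
  rw [this, mul_inv_cancel_right]

theorem action_pgroup [Finite X] (hodd : Odd (Nat.card X)) {p : ℕ} [hp : Fact p.Prime]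
    (M : Subgroup X) (hMab : ∀ u ∈ M, ∀ v ∈ M, u * v = v * u) (hMp : ∀ u ∈ M, u ^ p = 1)
    (x y a b : X) (ha : a ∈ M) (hb : b ∈ M)
    (hxM : ∀ m ∈ M, x * m * x⁻¹ * m⁻¹ ∈ Subgroup.zpowers a)
    (hyM : ∀ m ∈ M, y * m * y⁻¹ * m⁻¹ ∈ Subgroup.zpowers b)
    (hxa : x * a * x⁻¹ = a) (hyb : y * b * y⁻¹ = b) :
    ∀ g ∈ Subgroup.closure ({x, y} : Set X), ∀ m ∈ M,
      (g ^ p) ^ p * m * ((g ^ p) ^ p)⁻¹ = m := by
  have hA : Subgroup.zpowers a ≤ M := (Subgroup.zpowers_le).mpr ha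
  have hB : Subgroup.zpowers b ≤ M := (Subgroup.zpowers_le).mpr hb
  have hWM : Subgroup.zpowers a ⊔ Subgroup.zpowers b ≤ M := sup_le hA hB
  have hWp : ∀ w ∈ Subgroup.zpowers a ⊔ Subgroup.zpowers b, w ^ p = 1 :=
    fun w hw => hMp w (hWM hw)
  by_cases h1 : x * b * x⁻¹ = b
  · have hx : x ∈ stab2 (Subgroup.zpowers b) (Subgroup.zpowers a ⊔ Subgroup.zpowers b) M
        le_sup_right := by
      refine ⟨conj_fix_zpowers h1, ?_, fun m hm => Subgroup.mem_sup_left (hxM m hm)⟩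
      intro w hw
      rw [conj_fix_sup hxa h1 w hw, mul_inv_cancel]
      exact one_mem _
    have hy : y ∈ stab2 (Subgroup.zpowers b) (Subgroup.zpowers a ⊔ Subgroup.zpowers b) M
        le_sup_right :=
      ⟨conj_fix_zpowers hyb, fun w hw => hyM w (hWM hw),
        fun m hm => Subgroup.mem_sup_right (hyM m hm)⟩
    intro g hg
    have hle : Subgroup.closure ({x, y} : Set X) ≤
        stab2 (Subgroup.zpowers b) (Subgroup.zpowers a ⊔ Subgroup.zpowers b) M le_sup_right := by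
      rw [Subgroup.closure_le]
      rintro _ (rfl | rfl)
      · exact hx
      · exact hy
    exact stab2_pow le_sup_right hWp (hle hg)
  · by_cases h2 : y * a * y⁻¹ = a
    · have hx : x ∈ stab2 (Subgroup.zpowers a) (Subgroup.zpowers a ⊔ Subgroup.zpowers b) M
          le_sup_left :=
        ⟨conj_fix_zpowers hxa, fun w hw => hxM w (hWM hw),
          fun m hm => Subgroup.mem_sup_left (hxM m hm)⟩
      have hy : y ∈ stab2 (Subgroup.zpowers a) (Subgroup.zpowers a ⊔ Subgroup.zpowers b) M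
          le_sup_left := by
        refine ⟨conj_fix_zpowers h2, ?_, fun m hm => Subgroup.mem_sup_right (hyM m hm)⟩
        intro w hw
        rw [conj_fix_sup h2 hyb w hw, mul_inv_cancel]
        exact one_mem _
      intro g hg
      have hle : Subgroup.closure ({x, y} : Set X) ≤
          stab2 (Subgroup.zpowers a) (Subgroup.zpowers a ⊔ Subgroup.zpowers b) M le_sup_left := by
        rw [Subgroup.closure_le]
        rintro _ (rfl | rfl)
        · exact hx
        · exact hy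
      exact stab2_pow le_sup_left hWp (hle hg)
    · exfalso
      have hc : x * b * x⁻¹ * b⁻¹ ∈ Subgroup.zpowers a := hxM b hb
      have hd : y * a * y⁻¹ * a⁻¹ ∈ Subgroup.zpowers b := hyM a ha
      obtain ⟨i, hi⟩ := (Submonoid.mem_powers_iff _ _).mp (mem_powers_iff_mem_zpowers.mpr hc)
      obtain ⟨j, hj⟩ := (Submonoid.mem_powers_iff _ _).mp (mem_powers_iff_mem_zpowers.mpr hd)
      have hab : Commute a b := hMab a ha b hb
      have hxb : x * b * x⁻¹ = a ^ i * b := by rw [hi]; group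
      have hya : y * a * y⁻¹ = a * b ^ j := by
        rw [hj]
        have : a * (y * a * y⁻¹ * a⁻¹) = (y * a * y⁻¹ * a⁻¹) * a := hMab a ha _ (hB hd)
        rw [this]; group
      have hpi : ¬ p ∣ i := by
        rintro ⟨q, rfl⟩
        apply h1
        have : a ^ (p * q) = 1 := by rw [pow_mul, hMp a ha, one_pow]
        rw [hxb, this, one_mul]
      have hpj : ¬ p ∣ j := by
        rintro ⟨q, rfl⟩
        apply h2
        have : b ^ (p * q) = 1 := by rw [pow_mul, hMp b hb, one_pow]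
        rw [hya, this, mul_one]
      obtain ⟨t, ht⟩ : ∃ t : ℕ, p ∣ t * j * i + 4 := by
        have hji : ((j * i : ℕ) : ZMod p) ≠ 0 := by
          rw [Ne, ZMod.natCast_eq_zero_iff]
          intro h
          rcases (Nat.Prime.dvd_mul hp.out).mp h with h | h
          · exact hpj h
          · exact hpi h
        refine ⟨((-4 : ZMod p) * ((j * i : ℕ) : ZMod p)⁻¹).val, ?_⟩
        rw [← ZMod.natCast_eq_zero_iff]
        have e : (((((-4 : ZMod p) * ((j * i : ℕ) : ZMod p)⁻¹).val * j * i + 4 : ℕ)) : ZMod p) =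
            ((-4 : ZMod p) * ((j * i : ℕ) : ZMod p)⁻¹) * ((j * i : ℕ) : ZMod p) + 4 := by
          push_cast
          rw [ZMod.natCast_zmod_val]
          ring
        rw [e, mul_assoc, inv_mul_cancel₀ hji]
        ring
      have key := sl2_invert x y a b hab i j t hxa hxb hya hyb p (hMp a ha) (hMp b hb) ht
      have hinv : (x * y ^ t) * (a ^ i * b ^ 2) * (x * y ^ t)⁻¹ = (a ^ i * b ^ 2)⁻¹ :=
        eq_inv_of_mul_eq_one_left key
      have hw1 := eq_one_of_inverted hodd _ _ hinv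
      have hb2 : b ^ 2 ∈ Subgroup.zpowers a := by
        have : b ^ 2 = (a ^ i)⁻¹ := eq_inv_of_mul_eq_one_right hw1
        rw [this]
        exact Subgroup.inv_mem _ (Subgroup.pow_mem _ (Subgroup.mem_zpowers a) i)
      have hbodd : Odd (orderOf b) := Odd.of_dvd_nat hodd (orderOf_dvd_natCard b)
      obtain ⟨k, hk⟩ := hbodd
      have hbb : b = (b ^ 2) ^ (k + 1) := by
        rw [← pow_mul]
        have : 2 * (k + 1) = orderOf b + 1 := by omega
        rw [this, pow_succ, pow_orderOf_eq_one, one_mul]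
      have hbA : b ∈ Subgroup.zpowers a := by
        rw [hbb]; exact Subgroup.pow_mem _ hb2 _
      exact h1 (conj_fix_zpowers hxa b hbA)

end Alg

section Grp
variable {X : Type u} [Group X]

open Cfsg.Agent.Lib.Helper1
open scoped commutatorElement

theorem exists_zpowers_of_cyclic (S : Subgroup X) (hS : IsCyclic (commutator ↥S)) :
    ∃ z : X, ⁅S, S⁆ ≤ Subgroup.zpowers z := by
  obtain ⟨g, hg⟩ := hS.exists_generator
  refine ⟨((g : ↥S) : X), ?_⟩
  rw [← Subgroup.map_subtype_commutator]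
  rintro _ ⟨u, hu, rfl⟩
  obtain ⟨k, hk⟩ := Subgroup.mem_zpowers_iff.mp (hg ⟨u, hu⟩)
  rw [Subgroup.mem_zpowers_iff]
  refine ⟨k, ?_⟩
  have := congrArg (fun t : ↥(commutator ↥S) => ((t : ↥S) : X)) hk
  simpa using this

theorem exists_gen_inf_zpowers (M : Subgroup X) (z : X) :
    ∃ a ∈ M, M ⊓ Subgroup.zpowers z ≤ Subgroup.zpowers a := by
  obtain ⟨g, hg⟩ := IsCyclic.exists_generator
    (α := ↥((M ⊓ Subgroup.zpowers z).subgroupOf (Subgroup.zpowers z)))
  refine ⟨((g : ↥(Subgroup.zpowers z)) : X), ?_, ?_⟩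
  · exact (Subgroup.mem_subgroupOf.mp g.2).1
  · intro u hu
    have h1 := hg ⟨⟨u, hu.2⟩, Subgroup.mem_subgroupOf.mpr hu⟩
    obtain ⟨k, hk⟩ := Subgroup.mem_zpowers_iff.mp h1
    rw [Subgroup.mem_zpowers_iff]
    refine ⟨k, ?_⟩
    have := congrArg (fun t : ↥((M ⊓ Subgroup.zpowers z).subgroupOf (Subgroup.zpowers z)) =>
      ((t : ↥(Subgroup.zpowers z)) : X)) hk
    simpa using this

theorem exists_normal_elemab [Finite X] [hsolv : Group.IsSolvable X] [Nontrivial X] (p : ℕ)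
    [hp : Fact p.Prime]
    (hB : ∀ N : Subgroup X, N.Normal → (Nat.card N).Coprime p → N = ⊥) :
    ∃ M : Subgroup X, M.Normal ∧ M ≠ ⊥ ∧ (∀ u ∈ M, ∀ v ∈ M, u * v = v * u) ∧
      ∀ u ∈ M, u ^ p = 1 := by
  classical
  have hex : ∃ n : ℕ, derivedSeries X n = ⊥ := hsolv.solvable
  have hn₀ : derivedSeries X (Nat.find hex) = ⊥ := Nat.find_spec hex
  have hpos : Nat.find hex ≠ 0 := by
    intro h0
    rw [h0, derivedSeries_zero] at hn₀
    exact top_ne_bot hn₀
  obtain ⟨k, hk⟩ := Nat.exists_eq_succ_of_ne_zero hpos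
  have hA1 : derivedSeries X k ≠ ⊥ := Nat.find_min hex (by omega : k < Nat.find hex)
  have hA2 : ⁅derivedSeries X k, derivedSeries X k⁆ = ⊥ := by
    rw [← derivedSeries_succ, ← Nat.succ_eq_add_one, ← hk]
    exact hn₀
  obtain ⟨A, hA⟩ : ∃ A, A = derivedSeries X k := ⟨_, rfl⟩
  rw [← hA] at hA1 hA2
  have hAn : A.Normal := by rw [hA]; exact derivedSeries_normal X k
  have hAab : ∀ u ∈ A, ∀ v ∈ A, u * v = v * u := by
    intro u hu v hv
    have := Subgroup.commutator_eq_bot_iff_le_centralizer.mp hA2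
    exact (Subgroup.mem_centralizer_iff.mp (this hv) u hu)
  let M : Subgroup X :=
    { carrier := {u | u ∈ A ∧ u ^ p = 1}
      mul_mem' := by
        rintro u v ⟨hu, hu1⟩ ⟨hv, hv1⟩
        refine ⟨A.mul_mem hu hv, ?_⟩
        rw [(show Commute u v from hAab u hu v hv).mul_pow, hu1, hv1, one_mul]
      one_mem' := ⟨A.one_mem, one_pow p⟩
      inv_mem' := by
        rintro u ⟨hu, hu1⟩
        exact ⟨A.inv_mem hu, by rw [inv_pow, hu1, inv_one]⟩ }
  refine ⟨M, ?_, ?_, ?_, ?_⟩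
  · constructor
    rintro u ⟨hu, hu1⟩ g
    refine ⟨hAn.conj_mem u hu g, ?_⟩
    rw [conj_pow, hu1]
    group
  · have hpA : p ∣ Nat.card A := by
      by_contra hnd
      exact hA1 (hB A hAn (Nat.Coprime.symm ((Nat.Prime.coprime_iff_not_dvd hp.out).mpr hnd)))
    obtain ⟨a, ha⟩ := exists_prime_orderOf_dvd_card' (G := ↥A) p hpA
    intro hM
    have h1 : (a : X) ∈ M := by
      refine ⟨a.2, ?_⟩
      have : a ^ p = 1 := by rw [← ha]; exact pow_orderOf_eq_one a
      have := congrArg Subtype.val this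
      simpa using this
    rw [hM, Subgroup.mem_bot] at h1
    have h2 : a = 1 := Subtype.ext h1
    rw [h2, orderOf_one] at ha
    exact hp.out.one_lt.ne ha
  · rintro u ⟨hu, -⟩ v ⟨hv, -⟩
    exact hAab u hu v hv
  · rintro u ⟨-, hu1⟩
    exact hu1

theorem cent_le [Finite X] (p : ℕ) [hp : Fact p.Prime] (M : Subgroup X) [hMn : M.Normal]
    (hMab : ∀ u ∈ M, ∀ v ∈ M, u * v = v * u) (hMp : IsPGroup p M)
    (K₁ : Subgroup X) (hK₁n : K₁.Normal) (hMK₁ : M ≤ K₁) (hrel : ¬ p ∣ M.relIndex K₁)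
    (hB : ∀ N : Subgroup X, N.Normal → (Nat.card N).Coprime p → N = ⊥) :
    K₁ ⊓ Subgroup.centralizer (M : Set X) ≤ M := by
  obtain ⟨C, hC⟩ : ∃ C, C = K₁ ⊓ Subgroup.centralizer (M : Set X) := ⟨_, rfl⟩
  rw [← hC]
  have hCn : C.Normal := by rw [hC]; infer_instance
  have hMC : M ≤ C := by
    rw [hC]
    refine le_inf hMK₁ ?_
    intro m hm
    rw [Subgroup.mem_centralizer_iff]
    intro u hu
    exact hMab u hu m hm
  have hCK : C ≤ K₁ := by rw [hC]; exact inf_le_left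
  have hidx : ¬ p ∣ (M.subgroupOf C).index := by
    intro h
    apply hrel
    rw [← Subgroup.relIndex_mul_relIndex M C K₁ hMC hCK]
    exact Dvd.dvd.mul_right h _
  have hMp' : IsPGroup p (M.subgroupOf C) := hMp.comap_subtype
  let P₀ : Sylow p ↥C := hMp'.toSylow hidx
  have hP₀ : ∀ u : ↥C, u ∈ P₀ ↔ (u : X) ∈ M := fun u => by
    rw [IsPGroup.mem_toSylow, Subgroup.mem_subgroupOf]
  have hcen : (P₀ : Subgroup ↥C) ≤ Subgroup.center ↥C := by
    intro u hu
    rw [Subgroup.mem_center_iff]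
    intro c
    apply Subtype.ext
    have hc : (c : X) ∈ Subgroup.centralizer (M : Set X) := by
      have hle : C ≤ Subgroup.centralizer (M : Set X) := by rw [hC]; exact inf_le_right
      exact hle c.2
    have := Subgroup.mem_centralizer_iff.mp hc (u : X) ((hP₀ u).mp hu)
    simp only [Subgroup.coe_mul]
    exact this.symm
  obtain ⟨H', hH'n, hH'p, hH'sup, hH'mem⟩ :=
    Cfsg.Agent.Lib.Helper14.exists_normal_compl_of_central_sylow' P₀ hcen
  have hHn : (H'.map C.subtype).Normal := by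
    constructor
    rintro _ ⟨h', hh', rfl⟩ g
    have hgC : g * (h' : X) * g⁻¹ ∈ C := hCn.conj_mem _ h'.2 g
    refine ⟨⟨_, hgC⟩, ?_, rfl⟩
    apply (hH'mem _).mpr
    have : orderOf (⟨g * (h' : X) * g⁻¹, hgC⟩ : ↥C) = orderOf h' := by
      rw [Subgroup.orderOf_mk, ← Subgroup.orderOf_coe h']
      exact MulEquiv.orderOf_eq (MulAut.conj g) (h' : X)
    rw [this]
    exact (hH'mem h').mp hh'
  have hHc : (Nat.card (H'.map C.subtype)).Coprime p := by
    rw [Subgroup.card_map_of_injective C.subtype_injective]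
    exact Nat.Coprime.symm ((Nat.Prime.coprime_iff_not_dvd hp.out).mpr hH'p)
  have hH0 := hB _ hHn hHc
  have hH'0 : H' = ⊥ := (Subgroup.map_eq_bot_iff_of_injective H' C.subtype_injective).mp hH0
  rw [hH'0, bot_sup_eq] at hH'sup
  intro c hc
  have : (⟨c, hc⟩ : ↥C) ∈ (P₀ : Subgroup ↥C) := by rw [hH'sup]; trivial
  exact (hP₀ _).mp this

theorem quot_props [Finite X] (p : ℕ) [Fact p.Prime] (M : Subgroup X) [M.Normal]
    (S : Subgroup X) (K' : Subgroup (X ⧸ M)) (hK'n : K'.Normal)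
    (hK'c : (Nat.card K').Coprime p)
    (hKS : (K' ⊔ S.map (QuotientGroup.mk' M)).Normal) :
    (K'.comap (QuotientGroup.mk' M)).Normal ∧ M ≤ K'.comap (QuotientGroup.mk' M) ∧
    (K'.comap (QuotientGroup.mk' M) ⊔ S).Normal ∧
    (∀ k ∈ K'.comap (QuotientGroup.mk' M), ∀ j : ℕ, k ^ (p ^ j) ∈ M → k ∈ M) ∧
    M.relIndex (K'.comap (QuotientGroup.mk' M)) = Nat.card K' := by
  have hM : M ≤ K'.comap (QuotientGroup.mk' M) := by
    intro m hm
    rw [Subgroup.mem_comap]
    have : (QuotientGroup.mk' M) m = 1 := (QuotientGroup.eq_one_iff m).mpr hm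
    rw [this]
    exact one_mem _
  refine ⟨hK'n.comap _, hM, ?_, ?_, ?_⟩
  · have h1 : (K' ⊔ S.map (QuotientGroup.mk' M)).comap (QuotientGroup.mk' M) =
        K'.comap (QuotientGroup.mk' M) ⊔ S := by
      rw [← Subgroup.comap_sup_eq _ _ _ (QuotientGroup.mk'_surjective M), Subgroup.comap_map_eq,
        QuotientGroup.ker_mk', sup_comm S M, ← sup_assoc, sup_eq_left.mpr hM]
    rw [← h1]
    exact hKS.comap _
  · intro k hk j hkj
    rw [Subgroup.mem_comap] at hk
    have h1 : ((QuotientGroup.mk' M) k) ^ (p ^ j) = 1 := by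
      rw [← map_pow]
      exact (QuotientGroup.eq_one_iff _).mpr hkj
    have h2 : orderOf ((QuotientGroup.mk' M) k) ∣ p ^ j := orderOf_dvd_of_pow_eq_one h1
    have h3 : orderOf ((QuotientGroup.mk' M) k) ∣ Nat.card K' := K'.orderOf_dvd_natCard hk
    have h4 : orderOf ((QuotientGroup.mk' M) k) = 1 :=
      Nat.eq_one_of_dvd_coprimes (Nat.Coprime.pow_right j hK'c) h3 h2
    exact (QuotientGroup.eq_one_iff k).mp (orderOf_eq_one_iff.mp h4)
  · have h2 : (K'.comap (QuotientGroup.mk' M)).map (QuotientGroup.mk' M) = K' :=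
      Subgroup.map_comap_eq_self_of_surjective (QuotientGroup.mk'_surjective _) _
    have h3 := Subgroup.relIndex_comap (H := (⊥ : Subgroup (X ⧸ M))) (QuotientGroup.mk' M)
      (K'.comap (QuotientGroup.mk' M))
    rw [MonoidHom.comap_bot, QuotientGroup.ker_mk', h2, Subgroup.relIndex_bot_left] at h3
    exact h3

theorem main (p : ℕ) [hp : Fact p.Prime] : ∀ n : ℕ, ∀ (X : Type u) [Group X] [Finite X],
    Group.IsSolvable X → Odd (Nat.card X) → Nat.card X ≤ n → ∀ S : Subgroup X, IsPGroup p S →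
    ¬ p ∣ S.index → (∃ z : X, ⁅S, S⁆ ≤ Subgroup.zpowers z) →
    ∃ K : Subgroup X, K.Normal ∧ (Nat.card K).Coprime p ∧ (K ⊔ S).Normal := by
  intro n
  induction n with
  | zero =>
    intro X _ _ _ _ hcard
    exfalso
    have := Nat.card_pos (α := X)
    omega
  | succ n ih =>
    intro X _ _ hsolv hodd hcard S hSp hSidx ⟨z, hz⟩
    have hquot : ∀ (M : Subgroup X) [M.Normal], M ≠ ⊥ →
        ∃ K' : Subgroup (X ⧸ M), K'.Normal ∧ (Nat.card K').Coprime p ∧
          (K' ⊔ S.map (QuotientGroup.mk' M)).Normal := by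
      intro M _ hMne
      have hcardq : Nat.card (X ⧸ M) ≤ n := by
        have h1 := Subgroup.card_eq_card_quotient_mul_card_subgroup M
        have h2 : 1 < Nat.card M := (Subgroup.one_lt_card_iff_ne_bot M).mpr hMne
        have h3 : 0 < Nat.card (X ⧸ M) := Nat.card_pos
        nlinarith
      have hoddq : Odd (Nat.card (X ⧸ M)) :=
        Odd.of_dvd_nat hodd (Subgroup.card_quotient_dvd_card M)
      apply ih (X ⧸ M) inferInstance hoddq hcardq (S.map (QuotientGroup.mk' M)) (hSp.map _)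
      · exact fun h => hSidx (dvd_trans h (Subgroup.index_map_dvd S
          (QuotientGroup.mk'_surjective M)))
      · refine ⟨(QuotientGroup.mk' M) z, ?_⟩
        rw [← Subgroup.map_commutator, ← MonoidHom.map_zpowers]
        exact Subgroup.map_mono hz
    by_cases hA : ∃ M₀ : Subgroup X, M₀.Normal ∧ M₀ ≠ ⊥ ∧ (Nat.card M₀).Coprime p
    · obtain ⟨M₀, hM₀n, hM₀ne, hM₀c⟩ := hA
      haveI := hM₀n
      obtain ⟨K', hK'n, hK'c, hKS⟩ := hquot M₀ hM₀ne
      obtain ⟨h1, h2, h3, -, h5⟩ := quot_props p M₀ S K' hK'n hK'c hKS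
      refine ⟨K'.comap (QuotientGroup.mk' M₀), h1, ?_, h3⟩
      have e1 := Subgroup.card_mul_index (M₀.subgroupOf (K'.comap (QuotientGroup.mk' M₀)))
      have e2 : Nat.card (M₀.subgroupOf (K'.comap (QuotientGroup.mk' M₀))) = Nat.card M₀ :=
        Nat.card_congr (Subgroup.subgroupOfEquivOfLe h2).toEquiv
      have e3 : (M₀.subgroupOf (K'.comap (QuotientGroup.mk' M₀))).index = Nat.card K' := h5
      rw [e2, e3] at e1
      rw [← e1]
      exact Nat.Coprime.mul_left hM₀c hK'c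
    · push Not at hA
      have hB : ∀ N : Subgroup X, N.Normal → (Nat.card N).Coprime p → N = ⊥ := by
        intro N hN hc
        by_contra hne
        exact hA N hN hne hc
      by_cases htriv : Subsingleton X
      · refine ⟨⊥, inferInstance, by rw [Subgroup.card_bot]; exact Nat.coprime_one_left p, ?_⟩
        rw [bot_sup_eq]
        constructor
        intro s hs g
        have : g * s * g⁻¹ = s := Subsingleton.elim _ _
        rw [this]; exact hs
      rw [not_subsingleton_iff_nontrivial] at htriv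
      haveI := htriv
      obtain ⟨M, hMn, hMne, hMab, hMp⟩ := exists_normal_elemab p hB
      haveI := hMn
      obtain ⟨K', hK'n, hK'c, hKS⟩ := hquot M hMne
      obtain ⟨hK₁n, hMK₁, hK₁S, hE, hrel⟩ := quot_props p M S K' hK'n hK'c hKS
      obtain ⟨K₁, hK₁⟩ : ∃ K₁, K₁ = K'.comap (QuotientGroup.mk' M) := ⟨_, rfl⟩
      rw [← hK₁] at hK₁n hMK₁ hK₁S hE hrel
      have hMpg : IsPGroup p M := by
        intro u
        exact ⟨1, by rw [pow_one]; exact Subtype.ext (hMp u u.2)⟩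
      have hMS : M ≤ S := by
        have := normal_pgroup_le_sylow hMn hMpg (hSp.toSylow hSidx)
        intro m hm
        exact (IsPGroup.mem_toSylow hSp hSidx).mp (this hm)
      have hcent : K₁ ⊓ Subgroup.centralizer (M : Set X) ≤ M :=
        cent_le p M hMab hMpg K₁ hK₁n hMK₁ (by
          rw [hrel]
          intro h
          have h1 : (Nat.card K').Coprime p := hK'c
          rw [Nat.Coprime, Nat.gcd_eq_right h] at h1
          exact hp.out.one_lt.ne' h1) hB
      obtain ⟨a, haM, haz⟩ := exists_gen_inf_zpowers M z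
      have hxM : ∀ x ∈ S, ∀ m ∈ M, x * m * x⁻¹ * m⁻¹ ∈ Subgroup.zpowers a := by
        intro x hx m hm
        apply haz
        refine Subgroup.mem_inf.mpr ⟨?_, ?_⟩
        · exact M.mul_mem (hMn.conj_mem m hm x) (M.inv_mem hm)
        · apply hz
          have : x * m * x⁻¹ * m⁻¹ = ⁅x, m⁆ := rfl
          rw [this]
          exact Subgroup.commutator_mem_commutator hx (hMS hm)
      have hxa : ∀ x ∈ S, x * a * x⁻¹ = a := by
        intro x hx
        obtain ⟨k, hk⟩ := hSp ⟨x, hx⟩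
        have hk' : x ^ (p ^ k) = 1 := congrArg Subtype.val hk
        have h1 := hxM x hx a haM
        have h2 : x * a * x⁻¹ ∈ Subgroup.zpowers a := by
          have := Subgroup.mul_mem _ h1 (Subgroup.mem_zpowers a)
          simpa using this
        obtain ⟨i, hi⟩ := (Submonoid.mem_powers_iff _ _).mp (mem_powers_iff_mem_zpowers.mpr h2)
        exact conj_eq_of_ppow x a k i hk' (hMp a haM) hi.symm
      have hKS' : ∀ r ∈ K₁, ∀ s ∈ S, r * s * r⁻¹ ∈ S := by
        intro r hr s hs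
        have hyM : ∀ m ∈ M, (r * s * r⁻¹) * m * (r * s * r⁻¹)⁻¹ * m⁻¹ ∈
            Subgroup.zpowers (r * a * r⁻¹) := by
          intro m hm
          have hm' : r⁻¹ * m * r ∈ M := by
            have := hMn.conj_mem m hm r⁻¹
            simpa using this
          have h1 := hxM s hs _ hm'
          obtain ⟨k, hk⟩ := Subgroup.mem_zpowers_iff.mp h1
          rw [Subgroup.mem_zpowers_iff]
          refine ⟨k, ?_⟩
          rw [conj_zpow, hk]
          group
        have hyb : (r * s * r⁻¹) * (r * a * r⁻¹) * (r * s * r⁻¹)⁻¹ = r * a * r⁻¹ := by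
          have := hxa s hs
          calc (r * s * r⁻¹) * (r * a * r⁻¹) * (r * s * r⁻¹)⁻¹ = r * (s * a * s⁻¹) * r⁻¹ := by
                group
            _ = r * a * r⁻¹ := by rw [this]
        have hg : s⁻¹ * (r * s * r⁻¹) ∈ Subgroup.closure ({s, r * s * r⁻¹} : Set X) :=
          Subgroup.mul_mem _ (Subgroup.inv_mem _ (Subgroup.subset_closure (by simp)))
            (Subgroup.subset_closure (by simp))
        have hact := action_pgroup hodd M hMab hMp s (r * s * r⁻¹) a (r * a * r⁻¹) haM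
          (hMn.conj_mem a haM r) (hxM s hs) hyM (hxa s hs) hyb _ hg
        have hgK : s⁻¹ * (r * s * r⁻¹) ∈ K₁ := by
          have h1 : s⁻¹ * r * s⁻¹⁻¹ ∈ K₁ := hK₁n.conj_mem r hr s⁻¹
          have h2 := K₁.mul_mem h1 (K₁.inv_mem hr)
          convert h2 using 1
          group
        have hgc : ((s⁻¹ * (r * s * r⁻¹)) ^ p) ^ p ∈
            K₁ ⊓ Subgroup.centralizer (M : Set X) := by
          refine Subgroup.mem_inf.mpr ⟨K₁.pow_mem (K₁.pow_mem hgK p) p, ?_⟩
          rw [Subgroup.mem_centralizer_iff]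
          intro m hm
          have := hact m hm
          calc m * ((s⁻¹ * (r * s * r⁻¹)) ^ p) ^ p
              = (((s⁻¹ * (r * s * r⁻¹)) ^ p) ^ p * m * (((s⁻¹ * (r * s * r⁻¹)) ^ p) ^ p)⁻¹) *
                  ((s⁻¹ * (r * s * r⁻¹)) ^ p) ^ p := by rw [this]
            _ = ((s⁻¹ * (r * s * r⁻¹)) ^ p) ^ p * m := by group
        have hgM : s⁻¹ * (r * s * r⁻¹) ∈ M := by
          apply hE _ hgK 2
          rw [pow_two, pow_mul]
          exact hcent hgc
        have : r * s * r⁻¹ = s * (s⁻¹ * (r * s * r⁻¹)) := by group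
        rw [this]
        exact S.mul_mem hs (hMS hgM)
      refine ⟨⊥, inferInstance, by rw [Subgroup.card_bot]; exact Nat.coprime_one_left p, ?_⟩
      rw [bot_sup_eq]
      have hnorm : K₁ ⊔ S ≤ Subgroup.normalizer (S : Set X) := by
        rw [sup_le_iff]
        exact ⟨fun r hr => mem_normalizer_of_conj_mem (fun s hs => hKS' r hr s hs),
          Subgroup.le_normalizer⟩
      constructor
      intro s hs g
      have hQp : IsPGroup p (S.map (MulAut.conj g).toMonoidHom) := hSp.map _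
      have hQle : S.map (MulAut.conj g).toMonoidHom ≤ Subgroup.normalizer (S : Set X) := by
        rintro _ ⟨t, ht, rfl⟩
        apply hnorm
        exact hK₁S.conj_mem t (Subgroup.mem_sup_right ht) g
      have h1 := hQp.inf_normalizer_sylow (hSp.toSylow hSidx)
      have h2 : g * s * g⁻¹ ∈ S.map (MulAut.conj g).toMonoidHom := ⟨s, hs, rfl⟩
      have h3 : g * s * g⁻¹ ∈ S.map (MulAut.conj g).toMonoidHom ⊓
          ((hSp.toSylow hSidx : Sylow p X) : Subgroup X) := by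
        rw [← h1]
        refine Subgroup.mem_inf.mpr ⟨h2, ?_⟩
        have h4 : g * s * g⁻¹ ∈ Subgroup.normalizer (S : Set X) := hQle h2
        exact h4
      exact (IsPGroup.mem_toSylow hSp hSidx).mp (Subgroup.mem_inf.mp h3).2

end Grp

/-- Let X be a finite solvable group of odd order, p a prime and S a Sylow p-subgroup of X whose commutator subgroup is
cyclic. Then the product of the largest normal subgroup of X of order prime to p with S is a normal subgroup of X. -/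
theorem result {X : Type*} [Group X] [Finite X] [Group.IsSolvable X]
    (hX : Odd (Nat.card X)) (p : ℕ) [Fact p.Prime] (S : Sylow p X) (hS : IsCyclic (commutator (S : Subgroup X))) :
    (Cfsg.pPrimeCore p X ⊔ (S : Subgroup X)).Normal := by
  obtain ⟨K, hKn, hKc, hKS⟩ := main p (Nat.card X) X inferInstance hX le_rfl (S : Subgroup X)
    S.isPGroup' S.not_dvd_index (exists_zpowers_of_cyclic _ hS)
  have hle : K ≤ Cfsg.pPrimeCore p X := Cfsg.Agent.Lib.Helper14.le_pPrimeCore p hKn hKc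
  have e : Cfsg.pPrimeCore p X ⊔ (S : Subgroup X) =
      Cfsg.pPrimeCore p X ⊔ (K ⊔ (S : Subgroup X)) := by
    rw [← sup_assoc, sup_eq_left.mpr hle]
  rw [e]
  haveI : (Cfsg.pPrimeCore p X).Normal := Cfsg.Agent.Lib.Helper1.pPrimeCore_normal p
  haveI := hKS
  infer_instance

end Cfsg.Agent.S0521
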