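import Cfsg.Statements.S0524
import Cfsg.Agent.Lib.Helper5.Supersolvable

namespace Cfsg.Agent.S0524

open Cfsg.Agent.Lib.Helper5

theorem result {G : Type*} [Group G] [Finite G] (hG : Cfsg.IsSupersolvable G) (H N : Subgroup G) [N.Normal] : Cfsg.IsSupersolvable H ∧ Cfsg.IsSupersolvable (G ⧸ N) := by
  exact ⟨ss_subgroup hG H, star_imp_ss (star_quotient N (ss_imp_star hG))⟩

end Cfsg.Agent.S0524
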