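import Cfsg.Statements.S0525
import Cfsg.Agent.Lib.Helper5.Supersolvable

namespace Cfsg.Agent.S0525

open Cfsg.Agent.Lib.Helper5

theorem map_inl_normal {G H : Type*} [Group G] [Group H] (L : Subgroup G) (hL : L.Normal) :
    (L.map (MonoidHom.inl G H)).Normal := by
  constructor
  rintro _ ⟨l, hl, rfl⟩ ⟨a, b⟩
  refine ⟨a * l * a⁻¹, hL.conj_mem l hl a, ?_⟩
  ext <;> simp

theorem result {G H : Type*} [Group G] [Group H] [Finite G] [Finite H] (hG : Cfsg.IsSupersolvable G) (hH : Cfsg.IsSupersolvable H) : Cfsg.IsSupersolvable (G × H) := by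
  apply star_imp_ss
  apply star_of_ext (MonoidHom.snd G H) Prod.snd_surjective ?_ (ss_imp_star hH)
  intro K hK hker
  have hK1n : (K.comap (MonoidHom.inl G H)).Normal := hK.comap _
  have hK1top : K.comap (MonoidHom.inl G H) ≠ ⊤ := by
    intro h
    apply hker
    intro x hx
    rw [MonoidHom.mem_ker] at hx
    have hx' : x = MonoidHom.inl G H x.1 := by
      ext
      · simp
      · simpa using hx
    rw [hx']
    have h2 : x.1 ∈ K.comap (MonoidHom.inl G H) := by rw [h]; trivial
    exact h2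
  obtain ⟨g, hg, hgn⟩ := ss_imp_star hG _ hK1n hK1top
  refine ⟨MonoidHom.inl G H g, hg, ?_⟩
  have hmapn : ((K.comap (MonoidHom.inl G H) ⊔ Subgroup.zpowers g).map (MonoidHom.inl G H)).Normal :=
    map_inl_normal _ hgn
  have h3 : K ⊔ Subgroup.zpowers (MonoidHom.inl G H g) =
      K ⊔ (K.comap (MonoidHom.inl G H) ⊔ Subgroup.zpowers g).map (MonoidHom.inl G H) := by
    rw [Subgroup.map_sup, MonoidHom.map_zpowers, ← sup_assoc,
      sup_of_le_left (Subgroup.map_comap_le _ _)]
  rw [h3]
  exact Subgroup.sup_normal _ _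

end Cfsg.Agent.S0525
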