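import Cfsg.Statements.S0526
import Cfsg.Agent.Lib.Helper5.Supersolvable

namespace Cfsg.Agent.S0526

open Cfsg.Agent.Lib.Helper5

universe u

theorem card_quot_lt {G : Type u} [Group G] [Finite G] (g : G) (hp : (orderOf g).Prime)
    [(Subgroup.zpowers g).Normal] : Nat.card (G ⧸ Subgroup.zpowers g) < Nat.card G := by
  rw [Subgroup.card_eq_card_quotient_mul_card_subgroup (Subgroup.zpowers g), Nat.card_zpowers]
  have h2 : 2 ≤ orderOf g := hp.two_le
  have h3 : 0 < Nat.card (G ⧸ Subgroup.zpowers g) := Nat.card_pos
  nlinarith

theorem aux : ∀ (n : ℕ) (G : Type u) [Group G] [Finite G], Nat.card G = n → SSStar G →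
    Group.IsNilpotent (commutator G) := by
  intro n
  induction n using Nat.strong_induction_on with
  | _ n ih =>
  intro G _ _ hcard hG
  by_cases htriv : Subsingleton G
  · infer_instance
  · have hnt : Nontrivial G := not_subsingleton_iff_nontrivial.mp htriv
    obtain ⟨g, hgp, hgn⟩ := exists_normal_prime_order hG
    have hlt : Nat.card (G ⧸ Subgroup.zpowers g) < n := hcard ▸ card_quot_lt g hgp
    have hq := ih _ hlt (G ⧸ Subgroup.zpowers g) rfl (star_quotient _ hG)
    have hmap : ∀ x : commutator G,
        ((QuotientGroup.mk' (Subgroup.zpowers g)).comp (commutator G).subtype) x ∈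
          commutator (G ⧸ Subgroup.zpowers g) := by
      intro x
      have h1 : (commutator G).map (QuotientGroup.mk' (Subgroup.zpowers g)) =
          commutator (G ⧸ Subgroup.zpowers g) := by
        rw [commutator_def, Subgroup.map_commutator,
          Subgroup.map_top_of_surjective _ (QuotientGroup.mk'_surjective _), ← commutator_def]
      rw [← h1]
      exact Subgroup.mem_map_of_mem _ x.2
    have hq' : Group.IsNilpotent (commutator (G ⧸ Subgroup.zpowers g)) := hq
    refine Subgroup.isNilpotent_of_ker_le_center
      (((QuotientGroup.mk' (Subgroup.zpowers g)).comp (commutator G).subtype).codRestrict _ hmap)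
      ?_
    intro x hx
    rw [Subgroup.mem_center_iff]
    intro y
    have hxN : (x : G) ∈ Subgroup.zpowers g := by
      rw [MonoidHom.mem_ker] at hx
      have h5 := congrArg Subtype.val hx
      have h6 : (QuotientGroup.mk' (Subgroup.zpowers g)) (x : G) = 1 := h5
      exact (QuotientGroup.eq_one_iff _).mp h6
    have hy : (y : G) ∈ Subgroup.centralizer (Subgroup.zpowers g : Set G) :=
      commutator_le_centralizer_zpowers g hgn y.2
    ext
    simp only [Subgroup.coe_mul]
    exact (Subgroup.mem_centralizer_iff.mp hy _ hxN).symm

theorem result {G : Type*} [Group G] [Finite G] (hG : Cfsg.IsSupersolvable G) : Group.IsNilpotent (commutator G) := by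
  exact aux _ G rfl (ss_imp_star hG)

end Cfsg.Agent.S0526
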