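import Cfsg.Statements.S0527
import Cfsg.Agent.Lib.Helper5.Supersolvable
import Cfsg.Agent.Lib.Helper5.IndexAux

namespace Cfsg.Agent.S0527

open Cfsg.Agent.Lib.Helper5

universe u

theorem card_quot_lt {G : Type u} [Group G] [Finite G] (g : G) (hp : (orderOf g).Prime)
    [(Subgroup.zpowers g).Normal] : Nat.card (G ⧸ Subgroup.zpowers g) < Nat.card G := by
  rw [Subgroup.card_eq_card_quotient_mul_card_subgroup (Subgroup.zpowers g), Nat.card_zpowers]
  have h2 : 2 ≤ orderOf g := hp.two_le
  have h3 : 0 < Nat.card (G ⧸ Subgroup.zpowers g) := Nat.card_pos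
  nlinarith

theorem aux : ∀ (n : ℕ) (G : Type u) [Group G] [Finite G], Nat.card G = n → SSStar G →
    ∀ M : Subgroup G, IsCoatom M → M.index.Prime := by
  intro n
  induction n using Nat.strong_induction_on with
  | _ n ih =>
  intro G _ _ hcard hG M hM
  have hnt : Nontrivial G := by
    by_contra hcon
    have : Subsingleton G := not_nontrivial_iff_subsingleton.mp hcon
    exact hM.1 (Subsingleton.elim _ _)
  obtain ⟨g, hgp, hgn⟩ := exists_normal_prime_order hG
  have hlt : Nat.card (G ⧸ Subgroup.zpowers g) < n := hcard ▸ card_quot_lt g hgp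
  by_cases hNM : Subgroup.zpowers g ≤ M
  · have hker : (QuotientGroup.mk' (Subgroup.zpowers g)).ker ≤ M := by
      rw [QuotientGroup.ker_mk']; exact hNM
    have hidx : (M.map (QuotientGroup.mk' (Subgroup.zpowers g))).index = M.index :=
      Subgroup.index_map_eq M (QuotientGroup.mk'_surjective _) hker
    have hcomap : (M.map (QuotientGroup.mk' (Subgroup.zpowers g))).comap
        (QuotientGroup.mk' (Subgroup.zpowers g)) = M := by
      rw [Subgroup.comap_map_eq, sup_of_le_left hker]
    have hco : IsCoatom (M.map (QuotientGroup.mk' (Subgroup.zpowers g))) := by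
      constructor
      · intro htop
        apply hM.1
        rw [← hcomap, htop, Subgroup.comap_top]
      · intro L hL
        have h1 : M < L.comap (QuotientGroup.mk' (Subgroup.zpowers g)) := by
          rw [← hcomap]
          exact (Subgroup.comap_lt_comap_of_surjective (QuotientGroup.mk'_surjective _)).mpr hL
        have h2 := hM.2 _ h1
        rw [← Subgroup.map_comap_eq_self_of_surjective (QuotientGroup.mk'_surjective _) L, h2,
          Subgroup.map_top_of_surjective _ (QuotientGroup.mk'_surjective _)]
    rw [← hidx]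
    exact ih _ hlt (G ⧸ Subgroup.zpowers g) rfl (star_quotient _ hG) _ hco
  · have hsup : M ⊔ Subgroup.zpowers g = ⊤ := by
      apply hM.2
      refine lt_of_le_of_ne le_sup_left ?_
      intro heq
      apply hNM
      rw [heq]
      exact le_sup_right
    have hidx : M.index = M.relIndex (Subgroup.zpowers g) :=
      index_eq_relIndex_of_sup_eq_top M _ hsup
    have hdvd : M.relIndex (Subgroup.zpowers g) ∣ orderOf g := by
      rw [← Nat.card_zpowers]
      exact Subgroup.relIndex_dvd_card M _
    have hne : M.relIndex (Subgroup.zpowers g) ≠ 1 := by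
      intro h1
      exact hNM (Subgroup.relIndex_eq_one.mp h1)
    rw [hidx]
    rcases (Nat.dvd_prime hgp).mp hdvd with h1 | h1
    · exact absurd h1 hne
    · rw [h1]; exact hgp

theorem result {G : Type*} [Group G] [Finite G] (hG : Cfsg.IsSupersolvable G) (M : Subgroup G) (hM : IsCoatom M) : M.index.Prime := by
  exact aux _ G rfl (ss_imp_star hG) M hM

end Cfsg.Agent.S0527
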