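import Cfsg.Statements.S0528
import Cfsg.Agent.Lib.Helper5.Supersolvable

namespace Cfsg.Agent.S0528

open Cfsg.Agent.Lib.Helper5

theorem result {G : Type*} [Group G] [Finite G] (N : Subgroup G) [N.Normal] [IsCyclic N] (h : Cfsg.IsSupersolvable (G ⧸ N)) : Cfsg.IsSupersolvable G := by
  apply star_imp_ss
  apply star_of_ext (QuotientGroup.mk' N) (QuotientGroup.mk'_surjective N) ?_ (ss_imp_star h)
  intro K hK hker
  rw [QuotientGroup.ker_mk'] at hker
  obtain ⟨⟨g0, hg0⟩, hgen⟩ := IsCyclic.exists_generator (α := N)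
  have hN : N = Subgroup.zpowers g0 := by
    apply le_antisymm
    · intro x hx
      obtain ⟨i, hi⟩ := Subgroup.mem_zpowers_iff.mp (hgen ⟨x, hx⟩)
      rw [Subgroup.mem_zpowers_iff]
      exact ⟨i, by simpa using congrArg Subtype.val hi⟩
    · rw [Subgroup.zpowers_le]; exact hg0
  refine ⟨g0, fun hg => hker (by rw [hN, Subgroup.zpowers_le]; exact hg), ?_⟩
  rw [← hN]
  exact Subgroup.sup_normal _ _

end Cfsg.Agent.S0528
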