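import Cfsg.Statements.S0529
import Cfsg.Agent.Lib.Helper5.Supersolvable2

namespace Cfsg.Agent.S0529

open Cfsg.Agent.Lib.Helper5

universe u

theorem aux : ∀ (n : ℕ) (G : Type u) [Group G] [Finite G], Nat.card G = n → SSStar G →
    ∃ (m : ℕ) (H : Fin (m + 1) → Subgroup G), H 0 = ⊥ ∧ H (Fin.last m) = ⊤ ∧
      (∀ i, (H i).Normal) ∧
      (∀ i : Fin m, H i.castSucc ≤ H i.succ ∧ ((H i.castSucc).relIndex (H i.succ)).Prime) ∧
      ∀ i j : Fin m, i ≤ j →
        (H j.castSucc).relIndex (H j.succ) ≤ (H i.castSucc).relIndex (H i.succ) := by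
  intro n
  induction n using Nat.strong_induction_on with
  | _ n ih =>
  intro G _ _ hcard hG
  by_cases htriv : Subsingleton G
  · have hss : Subsingleton (Subgroup G) := Subgroup.subsingleton_iff.mpr htriv
    exact ⟨0, fun _ => ⊥, rfl, Subsingleton.elim _ _, fun _ => Subgroup.normal_bot,
      fun i => i.elim0, fun i => i.elim0⟩
  · have hnt : Nontrivial G := not_subsingleton_iff_nontrivial.mp htriv
    obtain ⟨g, hgp, hgn, hgmax⟩ := exists_normal_largest_prime _ G rfl hG hnt
    have hcN : Nat.card (Subgroup.zpowers g) = orderOf g := Nat.card_zpowers g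
    have hcG : Nat.card G = Nat.card (G ⧸ Subgroup.zpowers g) * orderOf g := by
      rw [← hcN]; exact Subgroup.card_eq_card_quotient_mul_card_subgroup _
    have hlt : Nat.card (G ⧸ Subgroup.zpowers g) < n := by
      rw [← hcard, hcG]
      have h2 : 2 ≤ orderOf g := hgp.two_le
      have h3 : 0 < Nat.card (G ⧸ Subgroup.zpowers g) := Nat.card_pos
      nlinarith
    obtain ⟨m, H', h0, hl, hn', hs, hmono⟩ :=
      ih _ hlt (G ⧸ Subgroup.zpowers g) rfl (star_quotient _ hG)
    have hsurj := QuotientGroup.mk'_surjective (Subgroup.zpowers g)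
    have hr0 : ((Fin.cons ⊥ (fun i => (H' i).comap (QuotientGroup.mk' (Subgroup.zpowers g))) :
        Fin (m + 1 + 1) → Subgroup G) (Fin.castSucc 0)).relIndex
        ((Fin.cons ⊥ (fun i => (H' i).comap (QuotientGroup.mk' (Subgroup.zpowers g))) :
        Fin (m + 1 + 1) → Subgroup G) (Fin.succ 0)) = orderOf g := by
      rw [Fin.cons_succ, h0, MonoidHom.comap_bot, QuotientGroup.ker_mk']
      show (⊥ : Subgroup G).relIndex (Subgroup.zpowers g) = orderOf g
      rw [Subgroup.relIndex_bot_left, Nat.card_zpowers]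
    have hrs : ∀ j : Fin m,
        ((Fin.cons ⊥ (fun i => (H' i).comap (QuotientGroup.mk' (Subgroup.zpowers g))) :
        Fin (m + 1 + 1) → Subgroup G) (Fin.castSucc j.succ)).relIndex
        ((Fin.cons ⊥ (fun i => (H' i).comap (QuotientGroup.mk' (Subgroup.zpowers g))) :
        Fin (m + 1 + 1) → Subgroup G) (Fin.succ j.succ)) =
        (H' j.castSucc).relIndex (H' j.succ) := by
      intro j
      rw [Fin.cons_succ, ← Fin.succ_castSucc, Fin.cons_succ]
      exact relIndex_comap_comap _ hsurj _ _
    refine ⟨m + 1, (Fin.cons ⊥ (fun i => (H' i).comap (QuotientGroup.mk' (Subgroup.zpowers g))) :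
      Fin (m + 1 + 1) → Subgroup G), rfl, ?_, ?_, ?_, ?_⟩
    · rw [← Fin.succ_last, Fin.cons_succ, hl, Subgroup.comap_top]
    · intro i
      refine Fin.cases ?_ (fun j => ?_) i
      · exact Subgroup.normal_bot
      · rw [Fin.cons_succ]
        exact (hn' j).comap _
    · intro i
      refine Fin.cases ?_ (fun j => ?_) i
      · refine ⟨?_, ?_⟩
        · exact bot_le
        · rw [hr0]; exact hgp
      · refine ⟨?_, ?_⟩
        · rw [Fin.cons_succ, ← Fin.succ_castSucc, Fin.cons_succ]
          exact Subgroup.comap_mono (hs j).1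
        · rw [hrs]; exact (hs j).2
    · intro i j
      refine Fin.cases ?_ (fun i' => ?_) i
      · refine Fin.cases ?_ (fun j' => ?_) j
        · intro _; exact le_rfl
        · intro _
          rw [hrs, hr0]
          apply hgmax _ (hs j').2
          exact ((Subgroup.relIndex_dvd_card _ _).trans (Subgroup.card_subgroup_dvd_card _)).trans
            (Subgroup.card_quotient_dvd_card _)
      · refine Fin.cases ?_ (fun j' => ?_) j
        · intro hij
          exact absurd hij (by simp)
        · intro hij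
          rw [hrs, hrs]
          exact hmono i' j' (Fin.succ_le_succ_iff.mp hij)

theorem result {G : Type*} [Group G] [Finite G] (hG : Cfsg.IsSupersolvable G) : ∃ (n : ℕ) (H : Fin (n + 1) → Subgroup G), H 0 = ⊥ ∧ H (Fin.last n) = ⊤ ∧ (∀ i, (H i).Normal) ∧ (∀ i : Fin n, H i.castSucc ≤ H i.succ ∧ ((H i.castSucc).relIndex (H i.succ)).Prime) ∧ ∀ i j : Fin n, i ≤ j → (H j.castSucc).relIndex (H j.succ) ≤ (H i.castSucc).relIndex (H i.succ) := by
  exact aux _ G rfl (ss_imp_star hG)

end Cfsg.Agent.S0529
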