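import Cfsg.Statements.S0530
import Cfsg.Agent.Lib.Helper5.Supersolvable

namespace Cfsg.Agent.S0530

open Cfsg.Agent.Lib.Helper5

universe u

theorem exists_normal_cyclic_of_index_two {Q : Type u} [Group Q] (P : Subgroup Q)
    (hP : P.index = 2) (z : Q) (hzP : z ∈ P) (hz1 : z ≠ 1) (hzc : ∀ u ∈ P, Commute u z) :
    ∃ x : Q, x ≠ 1 ∧ (Subgroup.zpowers x).Normal := by
  have hPn : P.Normal := Subgroup.normal_of_index_eq_two hP
  have hPtop : P ≠ ⊤ := by
    intro h
    rw [h, Subgroup.index_top] at hP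
    omega
  obtain ⟨t, -, ht⟩ := SetLike.exists_of_lt (lt_top_iff_ne_top.mpr hPtop)
  have ht2 : t * t ∈ P := Subgroup.mul_self_mem_of_index_two hP t
  have hz'P : t * z * t⁻¹ ∈ P := hPn.conj_mem z hzP t
  have hz'c : ∀ u ∈ P, Commute u (t * z * t⁻¹) := by
    intro u hu
    have h1 : Commute (t⁻¹ * u * t) z := hzc (t⁻¹ * u * t) (by simpa using hPn.conj_mem u hu t⁻¹)
    show u * (t * z * t⁻¹) = (t * z * t⁻¹) * u
    calc u * (t * z * t⁻¹) = t * ((t⁻¹ * u * t) * z) * t⁻¹ := by group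
      _ = t * (z * (t⁻¹ * u * t)) * t⁻¹ := by rw [h1.eq]
      _ = (t * z * t⁻¹) * u := by group
  have hwc : ∀ u ∈ P, Commute u (z * (t * z * t⁻¹)) := fun u hu =>
    (hzc u hu).mul_right (hz'c u hu)
  have htw : Commute t (z * (t * z * t⁻¹)) := by
    have h1 : t * t * z = z * (t * t) := (hzc _ ht2).eq
    have h2 : (t * z * t⁻¹) * z = z * (t * z * t⁻¹) := (hzc _ hz'P).eq
    show t * (z * (t * z * t⁻¹)) = (z * (t * z * t⁻¹)) * t
    calc t * (z * (t * z * t⁻¹)) = (t * z * t⁻¹) * (t * t * z) * t⁻¹ * t⁻¹ * t := by group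
      _ = (t * z * t⁻¹) * (z * (t * t)) * t⁻¹ * t⁻¹ * t := by rw [h1]
      _ = ((t * z * t⁻¹) * z) * t := by group
      _ = (z * (t * z * t⁻¹)) * t := by rw [h2]
  have hall : ∀ x : Q, Commute x (z * (t * z * t⁻¹)) := by
    intro x
    by_cases hx : x ∈ P
    · exact hwc x hx
    · have hxt : x * t ∈ P := (Subgroup.mul_mem_iff_of_index_two hP).mpr (iff_of_false hx ht)
      have h1 : Commute (x * t * t⁻¹) (z * (t * z * t⁻¹)) := (hwc _ hxt).mul_left htw.inv_left
      simpa using h1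
  by_cases hw1 : z * (t * z * t⁻¹) = 1
  · refine ⟨z, hz1, ?_⟩
    have hz'inv : t * z * t⁻¹ = z⁻¹ := eq_inv_of_mul_eq_one_right hw1
    have hconj : ∀ x : Q, x * z * x⁻¹ ∈ Subgroup.zpowers z := by
      intro x
      by_cases hx : x ∈ P
      · have h3 : x * z * x⁻¹ = z := by rw [(hzc x hx).eq]; group
        rw [h3]; exact Subgroup.mem_zpowers z
      · have htinv : t⁻¹ ∉ P := fun h => ht (by simpa using P.inv_mem h)
        have hxt : x * t⁻¹ ∈ P :=
          (Subgroup.mul_mem_iff_of_index_two hP).mpr (iff_of_false hx htinv)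
        have h1 : Commute (x * t⁻¹) z⁻¹ := (hzc _ hxt).inv_right
        have h3 : x * z * x⁻¹ = z⁻¹ := by
          calc x * z * x⁻¹ = (x * t⁻¹) * (t * z * t⁻¹) * (x * t⁻¹)⁻¹ := by group
            _ = (x * t⁻¹) * z⁻¹ * (x * t⁻¹)⁻¹ := by rw [hz'inv]
            _ = z⁻¹ := by rw [h1.eq]; group
        rw [h3]; exact Subgroup.inv_mem _ (Subgroup.mem_zpowers z)
    constructor
    intro y hy x
    obtain ⟨i, rfl⟩ := Subgroup.mem_zpowers_iff.mp hy
    rw [← conj_zpow]
    exact Subgroup.zpow_mem _ (hconj x) i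
  · refine ⟨z * (t * z * t⁻¹), hw1, ?_⟩
    constructor
    intro y hy x
    obtain ⟨i, rfl⟩ := Subgroup.mem_zpowers_iff.mp hy
    have h3 : x * (z * (t * z * t⁻¹)) ^ i * x⁻¹ = (z * (t * z * t⁻¹)) ^ i := by
      rw [((hall x).zpow_right i).eq]; group
    rw [h3]; exact hy

theorem exists_normal_cyclic_of_pgroup {Q : Type u} [Group Q] [Finite Q] [Nontrivial Q] (q : ℕ)
    [Fact q.Prime] (hQ : IsPGroup q Q) : ∃ x : Q, x ≠ 1 ∧ (Subgroup.zpowers x).Normal := by
  have := hQ.center_nontrivial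
  obtain ⟨⟨x, hx⟩, hx1⟩ := exists_ne (1 : Subgroup.center Q)
  refine ⟨x, fun h => hx1 (Subtype.ext h), ?_⟩
  constructor
  intro y hy a
  obtain ⟨i, rfl⟩ := Subgroup.mem_zpowers_iff.mp hy
  have hxc : Commute a x := Subgroup.mem_center_iff.mp hx a
  have h3 : a * x ^ i * a⁻¹ = x ^ i := by
    rw [(hxc.zpow_right i).eq]; group
  rw [h3]; exact hy

theorem exists_normal_cyclic (p n : ℕ) (hp : p.Prime) (Q : Type u) [Group Q] [Finite Q]
    [Nontrivial Q] (hdvd : Nat.card Q ∣ 2 * p ^ n) :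
    ∃ x : Q, x ≠ 1 ∧ (Subgroup.zpowers x).Normal := by
  have hfact : Fact p.Prime := ⟨hp⟩
  obtain ⟨P⟩ := (inferInstance : Nonempty (Sylow p Q))
  have hidx : (P : Subgroup Q).index ∣ 2 := by
    have h1 : (P : Subgroup Q).index ∣ 2 * p ^ n := (Subgroup.index_dvd_card _).trans hdvd
    have h2 : Nat.Coprime (P : Subgroup Q).index (p ^ n) :=
      Nat.Coprime.pow_right _ (Nat.Coprime.symm ((Nat.Prime.coprime_iff_not_dvd hp).mpr
        P.not_dvd_index))
    exact h2.dvd_of_dvd_mul_right h1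
  rcases (Nat.dvd_prime Nat.prime_two).mp hidx with h1 | h2
  · have hPtop : (P : Subgroup Q) = ⊤ := Subgroup.index_eq_one.mp h1
    have hQ : IsPGroup p Q := by
      intro g
      obtain ⟨k, hk⟩ := P.isPGroup' ⟨g, by rw [hPtop]; trivial⟩
      exact ⟨k, by simpa using congrArg Subtype.val hk⟩
    exact exists_normal_cyclic_of_pgroup p hQ
  · by_cases hPbot : (P : Subgroup Q) = ⊥
    · have hc : Nat.card Q = 2 := by
        have h3 := Subgroup.card_mul_index (P : Subgroup Q)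
        rw [h2, hPbot, Subgroup.card_bot] at h3
        omega
      have hQ : IsPGroup 2 Q := IsPGroup.of_card (n := 1) (by rw [hc]; rfl)
      have hfact2 : Fact (Nat.Prime 2) := ⟨Nat.prime_two⟩
      exact exists_normal_cyclic_of_pgroup 2 hQ
    · have hPnt : Nontrivial (P : Subgroup Q) := (Subgroup.nontrivial_iff_ne_bot _).mpr hPbot
      have := P.isPGroup'.center_nontrivial
      obtain ⟨⟨z, hz⟩, hz1⟩ := exists_ne (1 : Subgroup.center (P : Subgroup Q))
      refine exists_normal_cyclic_of_index_two (P : Subgroup Q) h2 (z : Q) z.2 ?_ ?_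
      · intro h
        apply hz1
        apply Subtype.ext
        apply Subtype.ext
        exact h
      · intro u hu
        have h3 := Subgroup.mem_center_iff.mp hz ⟨u, hu⟩
        exact congrArg Subtype.val h3

theorem result {G : Type*} [Group G] [Finite G] (p n : ℕ) (hp : p.Prime) (hG : Nat.card G = 2 * p ^ n) : Cfsg.IsSupersolvable G := by
  apply star_imp_ss
  intro K hK hKtop
  have hnt : Nontrivial (G ⧸ K) := by
    by_contra hcon
    have : Subsingleton (G ⧸ K) := not_nontrivial_iff_subsingleton.mp hcon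
    exact hKtop (QuotientGroup.subgroup_eq_top_of_subsingleton K this)
  have hdvd : Nat.card (G ⧸ K) ∣ 2 * p ^ n := hG ▸ Subgroup.card_quotient_dvd_card K
  obtain ⟨x, hx1, hxn⟩ := exists_normal_cyclic p n hp (G ⧸ K) hdvd
  obtain ⟨g, rfl⟩ := QuotientGroup.mk'_surjective K x
  refine ⟨g, fun hg => hx1 ((QuotientGroup.eq_one_iff g).mpr hg), ?_⟩
  have h3 : K ⊔ Subgroup.zpowers g =
      (Subgroup.zpowers ((QuotientGroup.mk' K) g)).comap (QuotientGroup.mk' K) := by
    rw [← MonoidHom.map_zpowers, Subgroup.comap_map_eq, QuotientGroup.ker_mk', sup_comm]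
  rw [h3]
  exact hxn.comap _

end Cfsg.Agent.S0530
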