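import Cfsg.Statements.S0531
import Cfsg.Agent.Lib.Helper5.Supersolvable

namespace Cfsg.Agent.S0531

open Cfsg.Agent.Lib.Helper5

universe u

theorem card_comap_mk {G : Type u} [Group G] [Finite G] (N : Subgroup G) [N.Normal]
    (H' : Subgroup (G ⧸ N)) :
    Nat.card (H'.comap (QuotientGroup.mk' N)) = Nat.card H' * Nat.card N := by
  have h1 : (H'.comap (QuotientGroup.mk' N)).index = H'.index :=
    Subgroup.index_comap_of_surjective H' (QuotientGroup.mk'_surjective N)
  have h2 := Subgroup.card_mul_index (H'.comap (QuotientGroup.mk' N))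
  have h3 := Subgroup.card_mul_index H'
  have h4 := Subgroup.card_eq_card_quotient_mul_card_subgroup N
  rw [h1] at h2
  have h5 : Nat.card (H'.comap (QuotientGroup.mk' N)) * H'.index =
      Nat.card H' * Nat.card N * H'.index := by
    rw [h2, h4, ← h3]; ring
  have hpos : 0 < H'.index := Nat.pos_of_ne_zero Subgroup.index_ne_zero_of_finite
  exact Nat.eq_of_mul_eq_mul_right hpos h5

theorem aux : ∀ (n : ℕ) (G : Type u) [Group G] [Finite G], Nat.card G = n → SSStar G →
    ∀ d : ℕ, d ∣ Nat.card G → ∃ H : Subgroup G, Nat.card H = d := by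
  intro n
  induction n using Nat.strong_induction_on with
  | _ n ih =>
  intro G _ _ hcard hG d hd
  by_cases htriv : Subsingleton G
  · refine ⟨⊥, ?_⟩
    have h1 : Nat.card G = 1 := Nat.card_eq_one_iff_unique.mpr ⟨htriv, ⟨1⟩⟩
    rw [h1, Nat.dvd_one] at hd
    rw [hd]
    exact Subgroup.card_bot
  · have hnt : Nontrivial G := not_subsingleton_iff_nontrivial.mp htriv
    obtain ⟨g, hgp, hgn⟩ := exists_normal_prime_order hG
    have hcN : Nat.card (Subgroup.zpowers g) = orderOf g := Nat.card_zpowers g
    have hcG : Nat.card G = Nat.card (G ⧸ Subgroup.zpowers g) * orderOf g := by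
      rw [← hcN]; exact Subgroup.card_eq_card_quotient_mul_card_subgroup _
    have hlt : Nat.card (G ⧸ Subgroup.zpowers g) < n := by
      rw [← hcard, hcG]
      have h2 : 2 ≤ orderOf g := hgp.two_le
      have h3 : 0 < Nat.card (G ⧸ Subgroup.zpowers g) := Nat.card_pos
      nlinarith
    have hqs := ih _ hlt (G ⧸ Subgroup.zpowers g) rfl (star_quotient _ hG)
    by_cases hpd : orderOf g ∣ d
    · obtain ⟨d', rfl⟩ := hpd
      have hd' : d' ∣ Nat.card (G ⧸ Subgroup.zpowers g) := by
        rw [hcG, mul_comm] at hd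
        exact Nat.dvd_of_mul_dvd_mul_right hgp.pos hd
      obtain ⟨H', hH'⟩ := hqs d' hd'
      refine ⟨H'.comap (QuotientGroup.mk' (Subgroup.zpowers g)), ?_⟩
      rw [card_comap_mk, hH', hcN, mul_comm]
    · have hcop : Nat.Coprime d (orderOf g) :=
        (Nat.Coprime.symm ((Nat.Prime.coprime_iff_not_dvd hgp).mpr hpd))
      have hd' : d ∣ Nat.card (G ⧸ Subgroup.zpowers g) := by
        rw [hcG] at hd
        exact hcop.dvd_of_dvd_mul_right hd
      obtain ⟨H', hH'⟩ := hqs d hd'
      set H := H'.comap (QuotientGroup.mk' (Subgroup.zpowers g)) with hH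
      have hcH : Nat.card H = d * orderOf g := by
        rw [hH, card_comap_mk, hH', hcN]
      have hNH : Subgroup.zpowers g ≤ H := by
        intro x hx
        rw [hH, Subgroup.mem_comap, QuotientGroup.mk'_apply, (QuotientGroup.eq_one_iff x).mpr hx]
        exact H'.one_mem
      have hN'n : ((Subgroup.zpowers g).subgroupOf H).Normal := Subgroup.normal_subgroupOf
      have hcN' : Nat.card ((Subgroup.zpowers g).subgroupOf H) = orderOf g := by
        rw [← hcN]
        exact Nat.card_congr (Subgroup.subgroupOfEquivOfLe hNH).toEquiv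
      have hidx : ((Subgroup.zpowers g).subgroupOf H).index = d := by
        have h2 := Subgroup.card_mul_index ((Subgroup.zpowers g).subgroupOf H)
        rw [hcN', hcH, mul_comm] at h2
        exact Nat.eq_of_mul_eq_mul_right hgp.pos h2
      have hcop' : Nat.Coprime (Nat.card ((Subgroup.zpowers g).subgroupOf H))
          ((Subgroup.zpowers g).subgroupOf H).index := by
        rw [hcN', hidx]; exact hcop.symm
      obtain ⟨C, hC⟩ := Subgroup.exists_right_complement'_of_coprime hcop'
      refine ⟨C.map H.subtype, ?_⟩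
      rw [Subgroup.card_map_of_injective H.subtype_injective]
      have h3 := hC.card_mul_card
      rw [hcN', hcH, mul_comm] at h3
      exact Nat.eq_of_mul_eq_mul_right hgp.pos h3

theorem result {G : Type*} [Group G] [Finite G] (hG : Cfsg.IsSupersolvable G) : Cfsg.HasSubgroupOfEveryOrder G := by
  intro d hd
  exact aux _ G rfl (ss_imp_star hG) d hd

end Cfsg.Agent.S0531
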