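import Cfsg.Statements.S0532
import Mathlib

set_option autoImplicit false
open Pointwise
open Cfsg

namespace Cfsg.Agent.S0532

universe u

theorem clt_of_equiv {G H : Type*} [Group G] [Group H] (e : G ≃* H)
    (hG : Cfsg.HasSubgroupOfEveryOrder G) : Cfsg.HasSubgroupOfEveryOrder H := by
  intro d hd
  rw [← Nat.card_congr e.toEquiv] at hd
  obtain ⟨K, hK⟩ := hG d hd
  exact ⟨K.map e.toMonoidHom, by rw [Subgroup.card_map_of_injective e.injective]; exact hK⟩

theorem aux (n : ℕ) : ∀ (G : Type u) [Group G] [Finite G], Nat.card G = n →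
    (∀ H : Subgroup G, Cfsg.HasSubgroupOfEveryOrder H) → ∀ (p : ℕ) [Fact p.Prime],
    p ∣ Nat.card G → (∀ q : ℕ, q.Prime → q ∣ Nat.card G → q ≤ p) →
    ∀ P : Sylow p G, (P : Subgroup G).Normal := by
  induction n using Nat.strong_induction_on with
  | _ n ih =>
  intro G _ _ hn h p _ hdvd hmax P
  have hp : p.Prime := Fact.out
  have hcard1 : Nat.card G ≠ 1 := by
    intro h1; rw [h1] at hdvd; exact hp.one_lt.ne' (Nat.dvd_one.mp hdvd)
  have hcardpos : 0 < Nat.card G := Nat.card_pos
  set q := (Nat.card G).minFac with hq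
  have hqp : q.Prime := Nat.minFac_prime hcard1
  have hqdvd : q ∣ Nat.card G := Nat.minFac_dvd _
  obtain ⟨M', hM'⟩ := h ⊤ (Nat.card G / q) (by
    rw [Subgroup.card_top]; exact Nat.div_dvd_of_dvd hqdvd)
  set M : Subgroup G := M'.map (⊤ : Subgroup G).subtype with hM
  have hMcard : Nat.card M = Nat.card G / q := by
    rw [hM, Subgroup.card_subtype]; exact hM'
  have h2 : q * (Nat.card G / q) = Nat.card G := Nat.mul_div_cancel' hqdvd
  have hMpos : 0 < Nat.card M := Nat.card_pos
  have hMindex : M.index = q := by
    have h3 := M.card_mul_index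
    rw [hMcard] at h3 hMpos
    have : Nat.card G / q * M.index = Nat.card G / q * q := by rw [h3, mul_comm, h2]
    exact Nat.eq_of_mul_eq_mul_left hMpos this
  have : M.Normal := Subgroup.normal_of_index_eq_minFac_card hMindex
  by_cases hqp' : q = p
  · have hpow : Nat.card G = p ^ (Nat.card G).primeFactorsList.length := by
      apply Nat.eq_prime_pow_of_unique_prime_dvd hcardpos.ne'
      intro d hd hdd
      have h5 := hmax d hd hdd
      have h6 : q ≤ d := Nat.minFac_le_of_dvd hd.two_le hdd
      omega
    have hG : IsPGroup p G := IsPGroup.of_card hpow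
    have htop : (⊤ : Subgroup G) = P := P.is_maximal' (hG.to_subgroup ⊤) le_top
    rw [← htop]; infer_instance
  · have hGM : Nat.card G = Nat.card M * q := by rw [← hMindex]; exact M.card_mul_index.symm
    have hpM : p ∣ Nat.card M := by
      rw [hGM] at hdvd
      rcases (Nat.Prime.dvd_mul hp).mp hdvd with h7 | h7
      · exact h7
      · exact absurd ((Nat.prime_dvd_prime_iff_eq hp hqp).mp h7).symm hqp'
    have hMclt : ∀ H' : Subgroup M, Cfsg.HasSubgroupOfEveryOrder H' := by
      intro H'
      exact clt_of_equiv (Subgroup.equivMapOfInjective H' M.subtype M.subtype_injective).symm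
        (h (H'.map M.subtype))
    have hMmax : ∀ q' : ℕ, q'.Prime → q' ∣ Nat.card M → q' ≤ p := by
      intro q' hq' hq'd
      exact hmax q' hq' (hq'd.trans (Subgroup.card_subgroup_dvd_card M))
    have hlt : Nat.card M < n := by
      rw [← hn, hMcard]
      exact Nat.div_lt_self hcardpos hqp.one_lt
    obtain ⟨Q⟩ := (inferInstance : Nonempty (Sylow p M))
    have hQn : (Q : Subgroup M).Normal := ih (Nat.card M) hlt M rfl hMclt p hpM hMmax Q
    have := Sylow.characteristic_of_normal Q hQn
    have hNn : ((Q : Subgroup M).map M.subtype).Normal := ConjAct.normal_of_characteristic_of_normal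
    have hNp : IsPGroup p ((Q : Subgroup M).map M.subtype) := Q.isPGroup'.map M.subtype
    have hle : (Q : Subgroup M).map M.subtype ≤ P := hNp.le_sylow_of_normal P
    have hPcard : Nat.card P = p ^ (Nat.card G).factorization p := P.card_eq_multiplicity
    have hdvdM : p ^ (Nat.card G).factorization p ∣ Nat.card M := by
      have h8 : p ^ (Nat.card G).factorization p ∣ Nat.card M * q := by
        rw [← hGM]; exact Nat.ordProj_dvd _ _
      have hcop : Nat.Coprime (p ^ (Nat.card G).factorization p) q :=
        Nat.Coprime.pow_left _ ((Nat.coprime_primes hp hqp).mpr (Ne.symm hqp'))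
      exact hcop.dvd_of_dvd_mul_right h8
    have hQcard : p ^ (Nat.card G).factorization p ∣ Nat.card Q := Q.pow_dvd_card_of_pow_dvd_card hdvdM
    have hNcard : Nat.card ((Q : Subgroup M).map M.subtype) = Nat.card Q := Subgroup.card_subtype _ _
    have hge : Nat.card (P : Subgroup G) ≤ Nat.card ((Q : Subgroup M).map M.subtype) := by
      rw [hNcard]
      have : Nat.card (P : Subgroup G) = p ^ (Nat.card G).factorization p := hPcard
      rw [this]
      exact Nat.le_of_dvd Nat.card_pos hQcard
    have heq : (Q : Subgroup M).map M.subtype = P := Subgroup.eq_of_le_of_card_ge hle hge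
    rw [← heq]; exact hNn

/-- If each subgroup of a finite group satisfies the converse of Lagrange's theorem, then a Sylow subgroup for the largest prime dividing the group order is normal. -/
theorem result {G : Type*} [Group G] [Finite G] (h : ∀ H : Subgroup G, Cfsg.HasSubgroupOfEveryOrder H) (p : ℕ) [Fact p.Prime] (hdvd : p ∣ Nat.card G) (hmax : ∀ q : ℕ, q.Prime → q ∣ Nat.card G → q ≤ p) (P : Sylow p G) : (P : Subgroup G).Normal := by
  exact aux (Nat.card G) G rfl h p hdvd hmax P

end Cfsg.Agent.S0532
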