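import Cfsg.Statements.S0582
import Cfsg.Agent.Lib.Helper5.Supersolvable2
import Cfsg.Agent.Lib.Helper5.Kegel

set_option autoImplicit false
open Cfsg
open scoped Pointwise

namespace Cfsg.Agent.S0582

open Cfsg.Agent.Lib.Helper5

universe u

/-- A supersolvable group has a normal Sylow subgroup for any prime at least as large as all
prime divisors of its order. -/
theorem ss_normal_hall : ∀ (n : ℕ) (G : Type u) [Group G] [Finite G], Nat.card G = n →
    SSStar G → ∀ p : ℕ, p.Prime → (∀ q : ℕ, q.Prime → q ∣ Nat.card G → q ≤ p) →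
    ∃ N : Subgroup G, N.Normal ∧ IsPGroup p N ∧ ¬ p ∣ N.index := by
  intro n
  induction n using Nat.strong_induction_on with
  | _ n ih =>
  intro G _ _ hcard hG p hp hmax
  have hpf : Fact p.Prime := ⟨hp⟩
  by_cases hpG : p ∣ Nat.card G
  · have hnt : Nontrivial G := by
      rw [← Finite.one_lt_card_iff_nontrivial]
      exact lt_of_lt_of_le hp.one_lt (Nat.le_of_dvd Nat.card_pos hpG)
    obtain ⟨g, hgp, hgn, hgmax⟩ := exists_normal_largest_prime _ G rfl hG hnt
    have hog : orderOf g = p :=
      le_antisymm (hmax _ hgp (orderOf_dvd_natCard g)) (hgmax p hp hpG)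
    have hcN : Nat.card (Subgroup.zpowers g) = p := by rw [Nat.card_zpowers, hog]
    have hcG : Nat.card G = Nat.card (G ⧸ Subgroup.zpowers g) * p := by
      rw [← hcN]; exact Subgroup.card_eq_card_quotient_mul_card_subgroup _
    have hlt : Nat.card (G ⧸ Subgroup.zpowers g) < n := by
      rw [← hcard, hcG]
      have h2 : 2 ≤ p := hp.two_le
      have h3 : 0 < Nat.card (G ⧸ Subgroup.zpowers g) := Nat.card_pos
      nlinarith
    have hmaxQ : ∀ q : ℕ, q.Prime → q ∣ Nat.card (G ⧸ Subgroup.zpowers g) → q ≤ p := by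
      intro q hq hqd
      apply hmax q hq
      rw [hcG]; exact Dvd.dvd.mul_right hqd p
    obtain ⟨N', hN'n, hN'p, hN'i⟩ :=
      ih _ hlt (G ⧸ Subgroup.zpowers g) rfl (star_quotient _ hG) p hp hmaxQ
    refine ⟨N'.comap (QuotientGroup.mk' (Subgroup.zpowers g)), hN'n.comap _, ?_, ?_⟩
    · obtain ⟨k, hk⟩ := IsPGroup.iff_card.mp hN'p
      apply IsPGroup.of_card (n := k + 1)
      rw [card_comap_mk', hk, hcN, pow_succ]
    · rw [Subgroup.index_comap_of_surjective _ (QuotientGroup.mk'_surjective _)]
      exact hN'i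
  · refine ⟨⊥, Subgroup.normal_bot, IsPGroup.of_bot, ?_⟩
    rw [Subgroup.index_bot]; exact hpG

set_option maxHeartbeats 1000000 in
theorem main : ∀ (n : ℕ) (G : Type u) [Group G] [Finite G] (H K : Subgroup G),
    Nat.card H = n → Nat.card K = n → SSStar H → SSStar K → (Nat.card H).Coprime H.index →
    ∃ x : G, MulAut.conj x • H = K := by
  intro n
  induction n using Nat.strong_induction_on with
  | _ n ih =>
  intro G _ _ H K hH hK hsH hsK hcop
  classical
  have hnpos : 0 < n := hH ▸ Nat.card_pos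
  by_cases hn1 : n = 1
  · refine ⟨1, ?_⟩
    have h1 : H = ⊥ := Subgroup.card_eq_one.mp (hH.trans hn1)
    have h2 : K = ⊥ := Subgroup.card_eq_one.mp (hK.trans hn1)
    rw [h1, h2, Subgroup.smul_bot]
  have hntH : Nontrivial H := by
    rw [← Finite.one_lt_card_iff_nontrivial, hH]
    omega
  obtain ⟨g₀, hg₀p, -, hg₀max⟩ := exists_normal_largest_prime _ H rfl hsH hntH
  obtain ⟨p, hp_def⟩ : ∃ p, p = orderOf g₀ := ⟨_, rfl⟩
  rw [← hp_def] at hg₀p hg₀max
  have hp : p.Prime := hg₀p
  have hpf : Fact p.Prime := ⟨hp⟩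
  have hpH : p ∣ Nat.card H := hp_def ▸ orderOf_dvd_natCard g₀
  have hmaxK : ∀ q : ℕ, q.Prime → q ∣ Nat.card K → q ≤ p := by
    rw [hK, ← hH]; exact hg₀max
  obtain ⟨NH, hNHn, hNHp, hNHi⟩ := ss_normal_hall _ H rfl hsH p hp hg₀max
  obtain ⟨NK, hNKn, hNKp, hNKi⟩ := ss_normal_hall _ K rfl hsK p hp hmaxK
  have hKidx : K.index = H.index := by
    have h1 := Subgroup.card_mul_index H
    have h2 := Subgroup.card_mul_index K
    rw [hH] at h1; rw [hK] at h2
    exact Nat.eq_of_mul_eq_mul_left hnpos (h2.trans h1.symm)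
  have hpHi : ¬ p ∣ H.index := by
    intro h
    exact hp.ne_one (Nat.eq_one_of_dvd_coprimes hcop hpH h)
  have hPHp : IsPGroup p (NH.map H.subtype) := hNHp.map _
  have hPKp : IsPGroup p (NK.map K.subtype) := hNKp.map _
  have hPHi : ¬ p ∣ (NH.map H.subtype).index := by
    rw [Subgroup.index_map_subtype]
    intro h
    rcases (Nat.Prime.dvd_mul hp).mp h with h | h
    · exact hNHi h
    · exact hpHi h
  have hPKi : ¬ p ∣ (NK.map K.subtype).index := by
    rw [Subgroup.index_map_subtype, hKidx]
    intro h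
    rcases (Nat.Prime.dvd_mul hp).mp h with h | h
    · exact hNKi h
    · exact hpHi h
  obtain ⟨g, hg⟩ := MulAction.exists_smul_eq G (hPKp.toSylow hPKi) (hPHp.toSylow hPHi)
  have hgP : MulAut.conj g • (NK.map K.subtype) = NH.map H.subtype := by
    have h1 := congrArg (fun S : Sylow p G => (S : Subgroup G)) hg
    simp only [Sylow.coe_subgroup_smul, IsPGroup.toSylow_coe] at h1
    exact h1
  have hPH : NH.map H.subtype ≤ H := Subgroup.map_subtype_le NH
  have hPK : NK.map K.subtype ≤ K := Subgroup.map_subtype_le NK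
  have hconjP : ∀ h ∈ H, ∀ y ∈ NH.map H.subtype, h * y * h⁻¹ ∈ NH.map H.subtype := by
    rintro h hh y ⟨z, hz, rfl⟩
    exact ⟨⟨h, hh⟩ * z * ⟨h, hh⟩⁻¹, hNHn.conj_mem z hz ⟨h, hh⟩, rfl⟩
  have hconjPK : ∀ k ∈ K, ∀ y ∈ NK.map K.subtype, k * y * k⁻¹ ∈ NK.map K.subtype := by
    rintro k hk y ⟨z, hz, rfl⟩
    exact ⟨⟨k, hk⟩ * z * ⟨k, hk⟩⁻¹, hNKn.conj_mem z hz ⟨k, hk⟩, rfl⟩
  have hHnP : H ≤ Subgroup.normalizer ((NH.map H.subtype : Subgroup G) : Set G) := by
    intro h hh
    rw [Subgroup.mem_normalizer_iff]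
    intro y
    constructor
    · exact hconjP h hh y
    · intro hy
      have h1 := hconjP h⁻¹ (H.inv_mem hh) _ hy
      have e : h⁻¹ * (h * y * h⁻¹) * h⁻¹⁻¹ = y := by group
      rw [e] at h1; exact h1
  have hPK₁ : NH.map H.subtype ≤ MulAut.conj g • K := by
    intro y hy
    rw [← hgP, mem_conj_smul_iff] at hy
    rw [mem_conj_smul_iff]
    exact hPK hy
  have hconjP₁ : ∀ z ∈ MulAut.conj g • K, ∀ y ∈ NH.map H.subtype,
      z * y * z⁻¹ ∈ NH.map H.subtype := by
    intro z hz y hy
    rw [mem_conj_smul_iff] at hz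
    rw [← hgP, mem_conj_smul_iff] at hy ⊢
    have h1 := hconjPK _ hz _ hy
    have e : g⁻¹ * z * g * (g⁻¹ * y * g) * (g⁻¹ * z * g)⁻¹ = g⁻¹ * (z * y * z⁻¹) * g := by group
    rw [e] at h1; exact h1
  have hK₁nP : MulAut.conj g • K ≤
      Subgroup.normalizer ((NH.map H.subtype : Subgroup G) : Set G) := by
    intro z hz
    rw [Subgroup.mem_normalizer_iff]
    intro y
    constructor
    · exact hconjP₁ z hz y
    · intro hy
      have h1 := hconjP₁ z⁻¹ (Subgroup.inv_mem _ hz) _ hy
      have e : z⁻¹ * (z * y * z⁻¹) * z⁻¹⁻¹ = y := by group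
      rw [e] at h1; exact h1
  have hcK₁ : Nat.card (MulAut.conj g • K : Subgroup G) = n :=
    (Nat.card_congr (Subgroup.equivSMul (MulAut.conj g) K).toEquiv).symm.trans hK
  have hsK₁ : SSStar (MulAut.conj g • K : Subgroup G) :=
    star_of_surjective (Subgroup.equivSMul (MulAut.conj g) K).toMonoidHom
      (Subgroup.equivSMul (MulAut.conj g) K).surjective hsK
  have hK₁idx : (MulAut.conj g • K : Subgroup G).index = H.index := by
    have h1 := Subgroup.card_mul_index H
    have h2 := Subgroup.card_mul_index (MulAut.conj g • K : Subgroup G)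
    rw [hH] at h1; rw [hcK₁] at h2
    exact Nat.eq_of_mul_eq_mul_left hnpos (h2.trans h1.symm)
  have hcopK₁ : (Nat.card (MulAut.conj g • K : Subgroup G)).Coprime
      (MulAut.conj g • K : Subgroup G).index := by
    rw [hcK₁, hK₁idx, ← hH]; exact hcop
  have hPcard : 2 ≤ Nat.card (NH.map H.subtype : Subgroup G) := by
    have h1 := Subgroup.card_mul_index (NH.map H.subtype)
    have h2 : p ∣ Nat.card G := dvd_trans hpH (Subgroup.card_subgroup_dvd_card H)
    rw [← h1] at h2
    rcases (Nat.Prime.dvd_mul hp).mp h2 with h | h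
    · exact le_trans hp.two_le (Nat.le_of_dvd Nat.card_pos h)
    · exact absurd h hPHi
  generalize NH.map H.subtype = P at *
  generalize hK₁def : MulAut.conj g • K = K₁ at *
  have hPN : P ≤ Subgroup.normalizer (P : Set G) := Subgroup.le_normalizer
  have hPnorm : (P.subgroupOf (Subgroup.normalizer (P : Set G))).Normal :=
    Subgroup.normal_in_normalizer
  have hπ : Function.Surjective
      (QuotientGroup.mk' (P.subgroupOf (Subgroup.normalizer (P : Set G)))) :=
    QuotientGroup.mk'_surjective _
  have gen : ∀ L : Subgroup G, P ≤ L → ∀ hLN : L ≤ Subgroup.normalizer (P : Set G),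
      SSStar L → Nat.card L = n → (Nat.card L).Coprime L.index →
      SSStar ((L.subgroupOf (Subgroup.normalizer (P : Set G))).map
        (QuotientGroup.mk' (P.subgroupOf (Subgroup.normalizer (P : Set G))))) ∧
      Nat.card ((L.subgroupOf (Subgroup.normalizer (P : Set G))).map
        (QuotientGroup.mk' (P.subgroupOf (Subgroup.normalizer (P : Set G))))) * Nat.card P = n ∧
      (Nat.card ((L.subgroupOf (Subgroup.normalizer (P : Set G))).map
        (QuotientGroup.mk' (P.subgroupOf (Subgroup.normalizer (P : Set G)))))).Coprime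
        ((L.subgroupOf (Subgroup.normalizer (P : Set G))).map
        (QuotientGroup.mk' (P.subgroupOf (Subgroup.normalizer (P : Set G))))).index ∧
      ((L.subgroupOf (Subgroup.normalizer (P : Set G))).map
        (QuotientGroup.mk' (P.subgroupOf (Subgroup.normalizer (P : Set G))))).comap
        (QuotientGroup.mk' (P.subgroupOf (Subgroup.normalizer (P : Set G)))) =
        L.subgroupOf (Subgroup.normalizer (P : Set G)) := by
    intro L hPL hLN hsL hcL hcopL
    have hcomap : ((L.subgroupOf (Subgroup.normalizer (P : Set G))).map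
        (QuotientGroup.mk' (P.subgroupOf (Subgroup.normalizer (P : Set G))))).comap
        (QuotientGroup.mk' (P.subgroupOf (Subgroup.normalizer (P : Set G)))) =
        L.subgroupOf (Subgroup.normalizer (P : Set G)) := by
      rw [Subgroup.comap_map_eq, QuotientGroup.ker_mk', sup_of_le_left]
      intro y hy
      rw [Subgroup.mem_subgroupOf] at hy ⊢
      exact hPL hy
    have hcard1 : Nat.card (L.subgroupOf (Subgroup.normalizer (P : Set G))) = Nat.card L :=
      Nat.card_congr (Subgroup.subgroupOfEquivOfLe hLN).toEquiv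
    have hcard2 : Nat.card (P.subgroupOf (Subgroup.normalizer (P : Set G))) = Nat.card P :=
      Nat.card_congr (Subgroup.subgroupOfEquivOfLe hPN).toEquiv
    have hcard3 : Nat.card ((L.subgroupOf (Subgroup.normalizer (P : Set G))).map
        (QuotientGroup.mk' (P.subgroupOf (Subgroup.normalizer (P : Set G))))) * Nat.card P = n := by
      have h1 := card_comap_mk' (P.subgroupOf (Subgroup.normalizer (P : Set G)))
        ((L.subgroupOf (Subgroup.normalizer (P : Set G))).map
        (QuotientGroup.mk' (P.subgroupOf (Subgroup.normalizer (P : Set G)))))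
      rw [hcomap, hcard1, hcard2, hcL] at h1
      exact h1.symm
    refine ⟨?_, hcard3, ?_, hcomap⟩
    · have hf : Function.Surjective
          (((QuotientGroup.mk' (P.subgroupOf (Subgroup.normalizer (P : Set G)))).comp
            (Subgroup.inclusion hLN)).codRestrict
            ((L.subgroupOf (Subgroup.normalizer (P : Set G))).map
              (QuotientGroup.mk' (P.subgroupOf (Subgroup.normalizer (P : Set G)))))
            (fun y => ⟨Subgroup.inclusion hLN y,
              by rw [SetLike.mem_coe, Subgroup.mem_subgroupOf]; exact y.2, rfl⟩)) := by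
        rintro ⟨_, ⟨z, hz, rfl⟩⟩
        rw [SetLike.mem_coe, Subgroup.mem_subgroupOf] at hz
        exact ⟨⟨z, hz⟩, Subtype.ext rfl⟩
      exact star_of_surjective _ hf hsL
    · have hidx : ((L.subgroupOf (Subgroup.normalizer (P : Set G))).map
          (QuotientGroup.mk' (P.subgroupOf (Subgroup.normalizer (P : Set G))))).index =
          L.relIndex (Subgroup.normalizer (P : Set G)) := by
        rw [← Subgroup.index_comap_of_surjective _ hπ, hcomap]; rfl
      rw [hidx]
      have h1 : L.relIndex (Subgroup.normalizer (P : Set G)) ∣ L.index :=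
        Subgroup.relIndex_dvd_index_of_le hLN
      have h2 : Nat.card ((L.subgroupOf (Subgroup.normalizer (P : Set G))).map
          (QuotientGroup.mk' (P.subgroupOf (Subgroup.normalizer (P : Set G))))) ∣ Nat.card L := by
        rw [hcL, ← hcard3]; exact Dvd.intro _ rfl
      exact Nat.Coprime.coprime_dvd_left h2 (Nat.Coprime.coprime_dvd_right h1 hcopL)
  obtain ⟨sH', cH', copH', comH'⟩ := gen H hPH hHnP hsH hH hcop
  obtain ⟨sK', cK', copK', comK'⟩ := gen K₁ hPK₁ hK₁nP hsK₁ hcK₁ hcopK₁
  have hPpos : 0 < Nat.card P := Nat.card_pos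
  have hlt : Nat.card ((H.subgroupOf (Subgroup.normalizer (P : Set G))).map
      (QuotientGroup.mk' (P.subgroupOf (Subgroup.normalizer (P : Set G))))) < n := by
    have h3 : 0 < Nat.card ((H.subgroupOf (Subgroup.normalizer (P : Set G))).map
      (QuotientGroup.mk' (P.subgroupOf (Subgroup.normalizer (P : Set G))))) := Nat.card_pos
    nlinarith
  have hKm : Nat.card ((K₁.subgroupOf (Subgroup.normalizer (P : Set G))).map
      (QuotientGroup.mk' (P.subgroupOf (Subgroup.normalizer (P : Set G))))) =
      Nat.card ((H.subgroupOf (Subgroup.normalizer (P : Set G))).map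
      (QuotientGroup.mk' (P.subgroupOf (Subgroup.normalizer (P : Set G))))) :=
    Nat.eq_of_mul_eq_mul_right hPpos (cK'.trans cH'.symm)
  obtain ⟨x', hx'⟩ := ih _ hlt _ _ _ rfl hKm sH' sK' copH'
  obtain ⟨x, rfl⟩ := hπ x'
  have hle : K₁ ≤ MulAut.conj (x : G) • H := by
    intro y hy
    have hyN : y ∈ Subgroup.normalizer (P : Set G) := hK₁nP hy
    have h1 : (QuotientGroup.mk' (P.subgroupOf (Subgroup.normalizer (P : Set G))))
        (⟨y, hyN⟩ : Subgroup.normalizer (P : Set G)) ∈
        (K₁.subgroupOf (Subgroup.normalizer (P : Set G))).map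
        (QuotientGroup.mk' (P.subgroupOf (Subgroup.normalizer (P : Set G)))) :=
      Subgroup.mem_map_of_mem _ (by rw [Subgroup.mem_subgroupOf]; exact hy)
    rw [← hx', mem_conj_smul_iff, ← map_inv, ← map_mul, ← map_mul, ← Subgroup.mem_comap,
      comH', Subgroup.mem_subgroupOf] at h1
    rw [mem_conj_smul_iff]
    simpa using h1
  have hcx : Nat.card (MulAut.conj (x : G) • H : Subgroup G) = n :=
    (Nat.card_congr (Subgroup.equivSMul (MulAut.conj (x : G)) H).toEquiv).symm.trans hH
  have heq : K₁ = MulAut.conj (x : G) • H :=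
    Subgroup.eq_of_le_of_card_ge hle (by rw [hcx, hcK₁])
  refine ⟨g⁻¹ * x, ?_⟩
  rw [map_mul, mul_smul, ← heq, ← hK₁def, map_inv, inv_smul_smul]

/-- Let H and K be supersolvable subgroups of a finite group G of the same order, that order being coprime to their index. Then H and K are conjugate in G. -/
theorem result {G : Type*} [Group G] [Finite G] (H K : Subgroup G) (hH : Cfsg.IsSupersolvable H) (hK : Cfsg.IsSupersolvable K) (hcard : Nat.card H = Nat.card K) (hHall : (Nat.card H).Coprime H.index) : ∃ x : G, MulAut.conj x • H = K := by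
  exact main (Nat.card H) G H K rfl hcard.symm (ss_imp_star hH) (ss_imp_star hK) hHall

end Cfsg.Agent.S0582
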