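import Cfsg.Statements.S0533
import Cfsg.Agent.S0582
import Cfsg.Agent.Lib.Helper5.Supersolvable3

set_option autoImplicit false
open Cfsg

namespace Cfsg.Agent.S0533

open Cfsg.Agent.Lib.Helper5

universe u

theorem clt_of_equiv {A B : Type*} [Group A] [Group B] (e : A ≃* B)
    (h : Cfsg.HasSubgroupOfEveryOrder A) : Cfsg.HasSubgroupOfEveryOrder B := by
  intro d hd
  rw [← Nat.card_congr e.toEquiv] at hd
  obtain ⟨S, hS⟩ := h d hd
  refine ⟨S.map e.toMonoidHom, ?_⟩
  rw [← hS]
  exact (Nat.card_congr (S.equivMapOfInjective e.toMonoidHom e.injective).toEquiv).symm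

theorem index_of_card {G : Type u} [Group G] [Finite G] (L : Subgroup G) (q : ℕ) (hq : q.Prime)
    (hqd : q ∣ Nat.card G) (hL : Nat.card L = Nat.card G / q) : L.index = q := by
  have h1 := Subgroup.index_mul_card L
  rw [hL] at h1
  have h2 : q * (Nat.card G / q) = Nat.card G := Nat.mul_div_cancel' hqd
  have h3 : 0 < Nat.card G / q := Nat.div_pos (Nat.le_of_dvd Nat.card_pos hqd) hq.pos
  exact Nat.eq_of_mul_eq_mul_right h3 (h1.trans h2.symm)

theorem aux : ∀ (n : ℕ) (G : Type u) [Group G] [Finite G], Nat.card G = n →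
    (∀ H : Subgroup G, Cfsg.HasSubgroupOfEveryOrder H) → SSStar G := by
  intro n
  induction n using Nat.strong_induction_on with
  | _ n ih =>
  intro G _ _ hn h
  have hsub : ∀ H : Subgroup G, H ≠ ⊤ → SSStar H := by
    intro H hH
    have hlt : Nat.card H < n := by
      rw [← hn, ← Subgroup.card_mul_index H]
      have h1 : H.index ≠ 1 := fun h1 => hH (Subgroup.index_eq_one.mp h1)
      have h2 : 0 < H.index := Nat.pos_of_ne_zero Subgroup.index_ne_zero_of_finite
      have h3 : 0 < Nat.card H := Nat.card_pos
      have h4 : 2 ≤ H.index := by omega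
      nlinarith
    refine ih _ hlt H rfl ?_
    intro H'
    exact clt_of_equiv (H'.equivMapOfInjective H.subtype H.subtype_injective).symm
      (h (H'.map H.subtype))
  have hG : Cfsg.HasSubgroupOfEveryOrder G := clt_of_equiv Subgroup.topEquiv (h ⊤)
  by_cases hnt : Nontrivial G
  · have hcard1 : Nat.card G ≠ 1 := by
      intro h1
      have := Finite.one_lt_card_iff_nontrivial.mpr hnt
      omega
    have hcard0 : Nat.card G ≠ 0 := Nat.card_pos.ne'
    obtain ⟨p, hp_def⟩ : ∃ p : ℕ, p = (Nat.card G).minFac := ⟨_, rfl⟩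
    have hp : p.Prime := hp_def ▸ Nat.minFac_prime hcard1
    have hpd : p ∣ Nat.card G := hp_def ▸ Nat.minFac_dvd _
    have hne : (Nat.card G).primeFactors.Nonempty :=
      ⟨p, Nat.mem_primeFactors.mpr ⟨hp, hpd, hcard0⟩⟩
    obtain ⟨q, hq_def⟩ : ∃ q : ℕ, q = (Nat.card G).primeFactors.max' hne := ⟨_, rfl⟩
    have hqmem : q ∈ (Nat.card G).primeFactors := hq_def ▸ Finset.max'_mem _ hne
    obtain ⟨hq, hqd, -⟩ := Nat.mem_primeFactors.mp hqmem
    have hqmax : ∀ r : ℕ, r.Prime → r ∣ Nat.card G → r ≤ q := by
      intro r hr hrd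
      rw [hq_def]
      exact Finset.le_max' _ r (Nat.mem_primeFactors.mpr ⟨hr, hrd, hcard0⟩)
    by_cases hpq : p = q
    · have hpow : Nat.card G = p ^ (Nat.card G).primeFactorsList.length := by
        apply Nat.eq_prime_pow_of_unique_prime_dvd hcard0
        intro d hd hdd
        have h1 : p ≤ d := hp_def ▸ Nat.minFac_le_of_dvd hd.two_le hdd
        have h2 : d ≤ q := hqmax d hd hdd
        omega
      have : Fact p.Prime := ⟨hp⟩
      exact star_of_isPGroup p (IsPGroup.of_card hpow)
    · obtain ⟨M, hM⟩ := hG (Nat.card G / p) (Nat.div_dvd_of_dvd hpd)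
      have hMidx : M.index = p := index_of_card M p hp hpd hM
      have hMn : M.Normal := Subgroup.normal_of_index_eq_minFac_card (hp_def ▸ hMidx)
      have hMtop : M ≠ ⊤ := by
        intro h1
        rw [h1, Subgroup.index_top] at hMidx
        exact hp.one_lt.ne hMidx
      have hMss : SSStar M := hsub M hMtop
      have hqmaxM : ∀ r : ℕ, r.Prime → r ∣ Nat.card M → r ≤ q := by
        intro r hr hrd
        exact hqmax r hr (hrd.trans (Subgroup.card_subgroup_dvd_card M))
      obtain ⟨N, hNn, hNq, hNidx⟩ := Cfsg.Agent.S0582.ss_normal_hall _ M rfl hMss q hq hqmaxM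
      have : Fact q.Prime := ⟨hq⟩
      have hNchar : N.Characteristic := by
        have h1 := Sylow.characteristic_of_normal (hNq.toSylow hNidx)
          (by rw [IsPGroup.toSylow_coe]; exact hNn)
        rwa [IsPGroup.toSylow_coe] at h1
      have hQn : (N.map M.subtype).Normal := ConjAct.normal_of_characteristic_of_normal
      have hQq : IsPGroup q (N.map M.subtype) := hNq.map _
      have hQidx : ¬ q ∣ (N.map M.subtype).index := by
        rw [Subgroup.index_map_subtype, hMidx]
        intro hd
        rcases (Nat.Prime.dvd_mul hq).mp hd with h1 | h1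
        · exact hNidx h1
        · exact hpq ((Nat.prime_dvd_prime_iff_eq hq hp).mp h1).symm
      obtain ⟨L, hLc⟩ := hG (Nat.card G / q) (Nat.div_dvd_of_dvd hqd)
      have hLidx : L.index = q := index_of_card L q hq hqd hLc
      have hLtop : L ≠ ⊤ := by
        intro h1
        rw [h1, Subgroup.index_top] at hLidx
        exact hq.one_lt.ne hLidx
      have hLss : SSStar L := hsub L hLtop
      have hQL : N.map M.subtype ⊔ L = ⊤ := by
        have h1 : (N.map M.subtype ⊔ L).index ∣ q := hLidx ▸ Subgroup.index_dvd_of_le le_sup_right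
        rcases (Nat.dvd_prime hq).mp h1 with h2 | h2
        · exact Subgroup.index_eq_one.mp h2
        · exfalso
          have h3 : L = N.map M.subtype ⊔ L := by
            have hc1 := Subgroup.card_mul_index (N.map M.subtype ⊔ L)
            have hc2 := Subgroup.card_mul_index L
            rw [h2] at hc1
            rw [hLidx] at hc2
            have hc : Nat.card ↥(N.map M.subtype ⊔ L) = Nat.card L :=
              Nat.eq_of_mul_eq_mul_right hq.pos (hc1.trans hc2.symm)
            exact Subgroup.eq_of_le_of_card_ge le_sup_right hc.le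
          apply hQidx
          have hQL' : N.map M.subtype ≤ L := by rw [h3]; exact le_sup_left
          rw [← hLidx]
          exact Subgroup.index_dvd_of_le hQL'
      exact star_of_pgroup_ext _ G q (N.map M.subtype) L rfl hq hQn hQq hLss hQL (by rw [hLidx])
  · rw [not_nontrivial_iff_subsingleton] at hnt
    intro K hK hKtop
    exact absurd (Subsingleton.elim K ⊤) hKtop

/-- If every subgroup of a finite group has subgroups of all orders dividing its order, then the group is supersolvable. -/
theorem result {G : Type*} [Group G] [Finite G] (h : ∀ H : Subgroup G, Cfsg.HasSubgroupOfEveryOrder H) : Cfsg.IsSupersolvable G := by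
  exact star_imp_ss (aux _ G rfl h)

end Cfsg.Agent.S0533
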