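import Cfsg.Statements.S0534
import Cfsg.Agent.S0531
import Cfsg.Agent.Lib.Helper1.Hall

set_option autoImplicit false
open Cfsg

namespace Cfsg.Agent.S0534

universe u

/-- Arithmetic splitting of a divisor `d` of `N * a` into a Hall divisor of `N` and a divisor
of `a`. -/
theorem arith (N a d : ℕ) (hN : N ≠ 0) (ha : a ≠ 0)
    (hexp : ∀ p : ℕ, p.Prime → p ∣ N → a.factorization p + 1 = N.factorization p)
    (hd : d ∣ N * a) :
    ∃ m b n' : ℕ, m * b = d ∧ N = m * n' ∧ Nat.Coprime m n' ∧ b ∣ a := by
  classical
  have hd0 : d ≠ 0 := by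
    rintro rfl
    exact (Nat.mul_ne_zero hN ha) (zero_dvd_iff.mp hd)
  set P : ℕ → Prop := fun p => N.factorization p ≤ d.factorization p with hP
  set f : ℕ →₀ ℕ := N.factorization.filter P with hf
  set f' : ℕ →₀ ℕ := N.factorization.filter (fun p => ¬ P p) with hf'
  have hfp : ∀ p, f p = if P p then N.factorization p else 0 := by
    intro p
    rw [hf, Finsupp.filter_apply]
  have hfp' : ∀ p, f' p = if P p then 0 else N.factorization p := by
    intro p
    rw [hf', Finsupp.filter_apply]
    by_cases h : P p
    · simp [h]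
    · simp [h]
  have hfs : ∀ p ∈ f.support, p.Prime := by
    intro p hp
    rw [Finsupp.mem_support_iff, hfp] at hp
    by_contra hnp
    apply hp
    have h0 : N.factorization p = 0 := Nat.factorization_eq_zero_of_not_prime N hnp
    by_cases h : P p
    · rw [if_pos h]; exact h0
    · rw [if_neg h]
  have hfs' : ∀ p ∈ f'.support, p.Prime := by
    intro p hp
    rw [Finsupp.mem_support_iff, hfp'] at hp
    by_contra hnp
    apply hp
    have h0 : N.factorization p = 0 := Nat.factorization_eq_zero_of_not_prime N hnp
    by_cases h : P p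
    · rw [if_pos h]
    · rw [if_neg h]; exact h0
  set m : ℕ := f.prod (· ^ ·) with hm
  set n' : ℕ := f'.prod (· ^ ·) with hn'
  have hmf : m.factorization = f := Nat.prod_pow_factorization_eq_self hfs
  have hnf : n'.factorization = f' := Nat.prod_pow_factorization_eq_self hfs'
  have hm0 : m ≠ 0 := by
    rw [hm, Finsupp.prod_ne_zero_iff]
    intro p hp
    exact pow_ne_zero _ (hfs p hp).ne_zero
  have hn0 : n' ≠ 0 := by
    rw [hn', Finsupp.prod_ne_zero_iff]
    intro p hp
    exact pow_ne_zero _ (hfs' p hp).ne_zero
  have hNmn : N = m * n' := by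
    apply Nat.eq_of_factorization_eq hN (Nat.mul_ne_zero hm0 hn0)
    intro p
    rw [Nat.factorization_mul hm0 hn0, Finsupp.add_apply, hmf, hnf, hfp, hfp']
    by_cases h : P p
    · simp [h]
    · simp [h]
  have hcop : Nat.Coprime m n' := by
    apply Nat.coprime_of_dvd
    intro p hp hpm hpn
    have h1 : 0 < m.factorization p := hp.factorization_pos_of_dvd hm0 hpm
    have h2 : 0 < n'.factorization p := hp.factorization_pos_of_dvd hn0 hpn
    rw [hmf, hfp] at h1
    rw [hnf, hfp'] at h2
    by_cases h : P p
    · simp [h] at h2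
    · simp [h] at h1
  have hmd : m ∣ d := by
    rw [← Nat.factorization_le_iff_dvd hm0 hd0]
    intro p
    rw [hmf, hfp]
    by_cases h : P p
    · rw [if_pos h]; exact h
    · rw [if_neg h]; exact Nat.zero_le _
  have hdle : ∀ p, d.factorization p ≤ N.factorization p + a.factorization p := by
    intro p
    have h1 := (Nat.factorization_le_iff_dvd hd0 (Nat.mul_ne_zero hN ha)).mpr hd p
    rw [Nat.factorization_mul hN ha, Finsupp.add_apply] at h1
    exact h1
  refine ⟨m, d / m, n', Nat.mul_div_cancel' hmd, hNmn, hcop, ?_⟩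
  have hb0 : d / m ≠ 0 := by
    intro h
    have := Nat.mul_div_cancel' hmd
    rw [h, mul_zero] at this
    exact hd0 this.symm
  rw [← Nat.factorization_le_iff_dvd hb0 ha]
  intro p
  rw [Nat.factorization_div hmd, Finsupp.coe_tsub, Pi.sub_apply, hmf, hfp]
  have h3 := hdle p
  by_cases h : P p
  · rw [if_pos h]
    omega
  · rw [if_neg h]
    have h4 : d.factorization p < N.factorization p := not_le.mp h
    have h5 : N.factorization p ≠ 0 := by omega
    have hpp : p.Prime := by
      by_contra hnp
      exact h5 (Nat.factorization_eq_zero_of_not_prime N hnp)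
    have hpN : p ∣ N := by
      by_contra hnd
      exact h5 (Nat.factorization_eq_zero_of_not_dvd hnd)
    have h6 := hexp p hpp hpN
    omega

theorem abelian_clt (A : Type u) [CommGroup A] [Finite A] (d : ℕ) (hd : d ∣ Nat.card A) :
    ∃ B : Subgroup A, Nat.card B = d := by
  apply Cfsg.Agent.S0531.aux _ A rfl _ d hd
  intro K _ hK
  obtain ⟨g, hg⟩ : ∃ g : A, g ∉ K := by
    by_contra hcon
    push Not at hcon
    exact hK (eq_top_iff.mpr (fun x _ => hcon x))
  exact ⟨g, hg, Subgroup.normal_of_isMulCommutative _⟩

/-- Let G be a finite solvable group and A a finite abelian group such that every prime dividing the order of A divides the order of G and, for each prime p dividing the order of G, the exponent of p in the order of A is one less than its exponent in the order of G. Then G × A has a subgroup of every order dividing its order. -/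
theorem result {G A : Type*} [Group G] [CommGroup A] [Finite G] [Finite A] [Group.IsSolvable G] (hA : ∀ p : ℕ, p.Prime → p ∣ Nat.card A → p ∣ Nat.card G) (hexp : ∀ p : ℕ, p.Prime → p ∣ Nat.card G → (Nat.card A).factorization p + 1 = (Nat.card G).factorization p) : Cfsg.HasSubgroupOfEveryOrder (G × A) := by
  intro d hd
  rw [Nat.card_prod] at hd
  obtain ⟨m, b, n', hmb, hNmn, hcop, hba⟩ := arith (Nat.card G) (Nat.card A) d
    Nat.card_pos.ne' Nat.card_pos.ne' hexp hd
  obtain ⟨H, hH⟩ := (Cfsg.Agent.Lib.Helper1.hall_aux (Nat.card G) G le_rfl m n' hNmn hcop).1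
  obtain ⟨B, hB⟩ := abelian_clt A b hba
  refine ⟨H.prod B, ?_⟩
  rw [Nat.card_congr (Subgroup.prodEquiv H B).toEquiv, Nat.card_prod, hH, hB, hmb]

end Cfsg.Agent.S0534
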