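import Cfsg.Statements.S0535
import Cfsg.Agent.S0006
import Cfsg.Agent.Lib.Helper1.Hall

set_option autoImplicit false
open Cfsg

namespace Cfsg.Agent.S0535

universe u

theorem aux : ∀ (n : ℕ) (G : Type u) [Group G] [Finite G], Nat.card G = n →
    (∀ H : Subgroup G, H ≠ ⊥ → ∀ p : ℕ, p.Prime → p ∣ Nat.card H →
      ∃ K : Subgroup G, K ≤ H ∧ K ≠ H ∧ ∃ k : ℕ, K.relIndex H = p ^ k) →
    Group.IsSolvable G := by
  intro n
  induction n using Nat.strong_induction_on with
  | _ n ih =>
    intro G _ _ hcard hyp
    apply Cfsg.Agent.S0006.result
    intro p hp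
    by_cases hpd : p ∣ Nat.card G
    · have htop : (⊤ : Subgroup G) ≠ ⊥ := by
        intro h
        have h1 : Nat.card (⊤ : Subgroup G) = 1 := by rw [h]; exact Subgroup.card_bot
        rw [Subgroup.card_top] at h1
        rw [h1] at hpd
        exact hp.one_lt.ne' (Nat.dvd_one.mp hpd)
      obtain ⟨K, -, hKne, k, hk⟩ := hyp ⊤ htop p hp (by rw [Subgroup.card_top]; exact hpd)
      rw [Subgroup.relIndex_top_right] at hk
      have hKlt : Nat.card K < n := by
        rw [← hcard]
        refine lt_of_le_of_ne (Subgroup.card_le_card_group K) ?_
        intro hc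
        exact hKne (Subgroup.eq_top_of_card_eq K hc)
      have hKsolv : Group.IsSolvable K := by
        apply ih (Nat.card K) hKlt K rfl
        intro H' hH' q hq hqd
        have hHne : H'.map K.subtype ≠ ⊥ := by
          intro h
          exact hH' ((Subgroup.map_eq_bot_iff_of_injective _ K.subtype_injective).mp h)
        have hcH : Nat.card (H'.map K.subtype) = Nat.card H' :=
          Subgroup.card_map_of_injective K.subtype_injective
        obtain ⟨L, hLH, hLne, j, hj⟩ := hyp (H'.map K.subtype) hHne q hq (by rw [hcH]; exact hqd)
        refine ⟨L.subgroupOf K, ?_, ?_, j, ?_⟩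
        · intro x hx
          obtain ⟨y, hy, hyx⟩ := hLH (Subgroup.mem_subgroupOf.mp hx)
          have : y = x := Subtype.ext hyx
          exact this ▸ hy
        · intro heq
          apply hLne
          have hLK : L ≤ K := by
            intro x hx
            obtain ⟨y, -, hyx⟩ := hLH hx
            rw [← hyx]
            exact y.2
          rw [← Subgroup.map_subgroupOf_eq_of_le hLK, heq]
        · have h1 : (L.subgroupOf K).relIndex H' = L.relIndex (H'.map K.subtype) :=
            Subgroup.relIndex_comap L K.subtype H'
          rw [h1, hj]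
      set c := Nat.card K with hc
      have hc0 : c ≠ 0 := Nat.card_pos.ne'
      have hfac : c = c / p ^ c.factorization p * p ^ c.factorization p := by
        have := Nat.ordProj_mul_ordCompl_eq_self c p
        rw [mul_comm] at this
        exact this.symm
      have hcop : (c / p ^ c.factorization p).Coprime (p ^ c.factorization p) :=
        Nat.Coprime.pow_right _ (Nat.coprime_ordCompl hp hc0).symm
      obtain ⟨H', hH'⟩ := (Cfsg.Agent.Lib.Helper1.hall_aux c K le_rfl _ _ hfac hcop).1
      refine ⟨H'.map K.subtype, ?_⟩
      have h1 : Nat.card (H'.map K.subtype) = c / p ^ c.factorization p := by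
        rw [Subgroup.card_map_of_injective K.subtype_injective, hH']
      have h2 : Nat.card (H'.map K.subtype) * (H'.map K.subtype).index = Nat.card G :=
        Subgroup.card_mul_index _
      have h3 : c * K.index = Nat.card G := Subgroup.card_mul_index K
      have hm0 : 0 < c / p ^ c.factorization p := by
        rcases Nat.eq_zero_or_pos (c / p ^ c.factorization p) with h0 | h0
        · rw [h0, zero_mul] at hfac
          exact absurd hfac hc0
        · exact h0
      have h4 : (H'.map K.subtype).index = p ^ (c.factorization p + k) := by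
        have h5 : c / p ^ c.factorization p * (H'.map K.subtype).index =
            c / p ^ c.factorization p * p ^ (c.factorization p + k) := by
          rw [← h1, h2, ← h3, hk, h1, pow_add, ← mul_assoc, ← hfac]
        exact Nat.eq_of_mul_eq_mul_left hm0 h5
      rw [h4]
      congr 1
      have h6 : Nat.card G = c * p ^ k := by rw [← h3, hk]
      rw [h6, Nat.factorization_mul hc0 (pow_ne_zero _ hp.ne_zero), Finsupp.add_apply,
        Nat.Prime.factorization_pow hp]
      simp
    · exact ⟨⊤, by rw [Subgroup.index_top, Nat.factorization_eq_zero_of_not_dvd hpd, pow_zero]⟩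

/-- Suppose that for every nontrivial subgroup H of a finite group and every prime p dividing the order of H there is a proper subgroup of H whose index in H is a power of p. Then the group is solvable. -/
theorem result {G : Type*} [Group G] [Finite G] (h : ∀ H : Subgroup G, H ≠ ⊥ → ∀ p : ℕ, p.Prime → p ∣ Nat.card H → ∃ K : Subgroup H, K ≠ ⊤ ∧ ∃ k : ℕ, K.index = p ^ k) : Group.IsSolvable G := by
  apply aux _ G rfl
  intro H hH p hp hpd
  obtain ⟨K, hK, k, hk⟩ := h H hH p hp hpd
  refine ⟨K.map H.subtype, Subgroup.map_subtype_le K, ?_, k, ?_⟩
  · intro heq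
    apply hK
    rw [eq_top_iff]
    intro x _
    have hx : (x : G) ∈ K.map H.subtype := by rw [heq]; exact x.2
    obtain ⟨y, hy, hyx⟩ := hx
    have : y = x := Subtype.ext hyx
    exact this ▸ hy
  · have h1 : (K.map H.subtype).relIndex H = ((K.map H.subtype).subgroupOf H).index := rfl
    have h2 : (K.map H.subtype).subgroupOf H = K :=
      Subgroup.comap_map_eq_self_of_injective H.subtype_injective K
    rw [h1, h2, hk]

end Cfsg.Agent.S0535
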