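import Cfsg.Statements.S0537
import Mathlib
import Cfsg.Agent.Lib.Helper1.Schmidt
import Cfsg.Agent.Lib.Helper1.Averaging
import Cfsg.Agent.Lib.Helper1.Basic

set_option autoImplicit false
open Cfsg

namespace Cfsg.Agent.S0537

open Cfsg.Agent.Lib.Helper1
open scoped commutatorElement
set_option linter.style.haveILetI false

/-- A finite non-abelian group in which every proper subgroup is abelian is either of prime-power order, or is generated by a cyclic Sylow p-subgroup and a normal Sylow q-subgroup that is elementary abelian, for distinct primes p and q. -/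
theorem result {G : Type*} [Group G] [Finite G] (hna : ¬ IsMulCommutative G) (h : ∀ H : Subgroup G, H ≠ ⊤ → IsMulCommutative H) : (∃ p : ℕ, p.Prime ∧ IsPGroup p G) ∨ ∃ p q : ℕ, p.Prime ∧ q.Prime ∧ p ≠ q ∧ ∃ (P : Sylow p G) (Q : Sylow q G), IsCyclic P ∧ (Q : Subgroup G).Normal ∧ Cfsg.IsElementaryAbelian q (Q : Subgroup G) ∧ (P : Subgroup G) ⊔ Q = ⊤ := by
  by_cases hex : ∃ p : ℕ, p.Prime ∧ ¬ FrobCond p G
  · right
    obtain ⟨p, hp, hnot⟩ := hex
    haveI : Fact p.Prime := ⟨hp⟩
    have hprop : ∀ K : Subgroup G, K ≠ ⊤ → ∀ Q : Subgroup G, Q ≤ K → IsPGroup p Q → ∀ x ∈ K,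
        x ∈ Subgroup.normalizer (Q : Set G) → (orderOf x).Coprime p →
        x ∈ Subgroup.centralizer (Q : Set G) := by
      intro K hK Q hQK _ x hx _ _
      haveI := h K hK
      rw [Subgroup.mem_centralizer_iff]
      intro y hy
      exact congrArg Subtype.val (mul_comm' (⟨y, hQK hy⟩ : K) ⟨x, hx⟩)
    obtain ⟨Q, g, r, k, hr, hrp, hQ, hQn, hord, hgc, htop, hdisj, hcard⟩ :=
      schmidt_core p hprop hnot
    obtain ⟨⟨P, hP⟩, ⟨Q', hQ'⟩⟩ := schmidt_sylows hr hrp hQ hord hcard
    haveI := hQn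
    refine ⟨r, p, hr, hp, hrp, P, Q', ?_, ?_, ?_, ?_⟩
    · show IsCyclic (P : Subgroup G)
      rw [hP]
      infer_instance
    · rw [hQ']; exact hQn
    · rw [hQ']
      have hQtop : Q ≠ ⊤ := by
        intro hQt
        have h1 : g ∈ Q ⊓ Subgroup.zpowers g :=
          Subgroup.mem_inf.mpr ⟨hQt ▸ Subgroup.mem_top g, Subgroup.mem_zpowers g⟩
        rw [hdisj, Subgroup.mem_bot] at h1
        exact hgc (h1 ▸ Subgroup.one_mem _)
      haveI hQc := h Q hQtop
      refine ⟨hQc, ?_⟩
      have hQab : ∀ a ∈ Q, ∀ b ∈ Q, a * b = b * a := fun a ha b hb =>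
        congrArg Subtype.val (mul_comm' (⟨a, ha⟩ : Q) ⟨b, hb⟩)
      obtain ⟨T, hT⟩ := exists_torsion_subgroup Q hQab p
      have hTQ : T ≤ Q := fun x hx => ((hT x).mp hx).1
      obtain ⟨C, hCdef⟩ : ∃ C : Subgroup G, C = Subgroup.zpowers g := ⟨_, rfl⟩
      rw [← hCdef] at htop hdisj
      have hgC : g ∈ C := hCdef ▸ Subgroup.mem_zpowers g
      have hCcard : Nat.card C = r ^ k := by rw [hCdef, Nat.card_zpowers, hord]
      obtain ⟨n, hn⟩ := IsPGroup.iff_card.mp hQ
      have hcopCQ : (Nat.card C).Coprime (Nat.card Q) := by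
        rw [hCcard, hn]
        exact Nat.Coprime.pow _ _ ((Nat.coprime_primes hr hp).mpr hrp)
      have hCnQ : C ≤ Subgroup.normalizer (Q : Set G) := by
        rw [Subgroup.normalizer_eq_top_iff.mpr hQn]; exact le_top
      -- the torsion subgroup is normal
      have hTn : T.Normal := by
        constructor
        intro t ht x
        rw [hT] at ht ⊢
        refine ⟨hQn.conj_mem t ht.1 x, ?_⟩
        rw [conj_pow, ht.2, mul_one, mul_inv_cancel]
      haveI := hTn
      have hTC : T ⊔ C = ⊤ := by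
        by_contra hne
        haveI := h _ hne
        have hcomm : ∀ t ∈ T, ∀ c ∈ C, t * c = c * t := by
          intro t ht c hc
          exact congrArg Subtype.val (mul_comm' (⟨t, Subgroup.mem_sup_left ht⟩ : (T ⊔ C : Subgroup G))
            ⟨c, Subgroup.mem_sup_right hc⟩)
        have hTcent : T ≤ Q ⊓ Subgroup.centralizer (C : Set G) := by
          intro t ht
          refine Subgroup.mem_inf.mpr ⟨hTQ ht, ?_⟩
          rw [Subgroup.mem_centralizer_iff]
          intro c hc
          exact (hcomm t ht c hc).symm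
        have hD := coprime_abelian_inf_commutator C Q hCnQ hcopCQ
        have hDbot : ⁅Q, C⁆ = ⊥ := by
          by_contra hDne
          obtain ⟨z, hz, hz1⟩ : ∃ z ∈ ⁅Q, C⁆, z ≠ 1 := by
            by_contra hcon
            push Not at hcon
            exact hDne ((Subgroup.eq_bot_iff_forall _).mpr hcon)
          have hzQ : z ∈ Q := commutator_le_of_le_normalizer hCnQ hz
          obtain ⟨j, hj⟩ := hQ ⟨z, hzQ⟩
          have hzj : z ^ p ^ j = 1 := by
            have := congrArg Subtype.val hj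
            simpa using this
          have hdvd : p ∣ orderOf z := by
            have h1 : orderOf z ∣ p ^ j := orderOf_dvd_of_pow_eq_one hzj
            have h2 : orderOf z ≠ 1 := fun h => hz1 (orderOf_eq_one_iff.mp h)
            obtain ⟨i, _, hieq⟩ := (Nat.dvd_prime_pow hp).mp h1
            rw [hieq] at h2 ⊢
            rcases Nat.eq_zero_or_pos i with h0 | h0
            · rw [h0, pow_zero] at h2; exact absurd rfl h2
            · exact dvd_pow_self p h0.ne'
          have ho := orderOf_pow_orderOf_div (orderOf_pos z).ne' hdvd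
          have hw1 : z ^ (orderOf z / p) ≠ 1 := by
            intro h1
            rw [h1, orderOf_one] at ho
            exact hp.one_lt.ne ho
          have hwp : (z ^ (orderOf z / p)) ^ p = 1 := by
            have h3 := pow_orderOf_eq_one (z ^ (orderOf z / p))
            rwa [ho] at h3
          have hwT : z ^ (orderOf z / p) ∈ T := (hT _).mpr ⟨Q.pow_mem hzQ _, hwp⟩
          have hmem : z ^ (orderOf z / p) ∈
              (Q ⊓ Subgroup.centralizer (C : Set G)) ⊓ ⁅Q, C⁆ :=
            Subgroup.mem_inf.mpr ⟨hTcent hwT, Subgroup.pow_mem _ hz _⟩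
          rw [hD, Subgroup.mem_bot] at hmem
          exact hw1 hmem
        have hQcent := Subgroup.commutator_eq_bot_iff_le_centralizer.mp hDbot
        apply hgc
        rw [Subgroup.mem_centralizer_iff]
        intro y hy
        exact (Subgroup.mem_centralizer_iff.mp (hQcent hy) g hgC).symm
      have hcardT : Nat.card Q ≤ Nat.card T := by
        have h1 : Nat.card (C ⊔ T : Subgroup G) ∣ Nat.card C * Nat.card T :=
          card_sup_dvd_mul_of_normal C T
        rw [sup_comm, hTC, Subgroup.card_top, ← hcard, hCcard, mul_comm] at h1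
        have h2 : Nat.card Q ∣ Nat.card T := (Nat.mul_dvd_mul_iff_left (pow_pos hr.pos k)).mp h1
        exact Nat.le_of_dvd Nat.card_pos h2
      have hTeq : T = Q := Subgroup.eq_of_le_of_card_ge hTQ hcardT
      intro a ha
      rw [← hTeq] at ha
      exact ((hT a).mp ha).2
    · rw [hP, hQ', sup_comm]; exact htop
  · push Not at hex
    have hcard1 : Nat.card G ≠ 1 := by
      intro h1
      apply hna
      haveI : Subsingleton G := (Nat.card_eq_one_iff_unique.mp h1).1
      exact ⟨⟨fun a b => Subsingleton.elim _ _⟩⟩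
    obtain ⟨p, hp, hpG⟩ := Nat.exists_prime_and_dvd hcard1
    haveI : Fact p.Prime := ⟨hp⟩
    obtain ⟨P⟩ : Nonempty (Sylow p G) := inferInstance
    by_cases hPtop : (P : Subgroup G) = ⊤
    · left
      refine ⟨p, hp, ?_⟩
      intro x
      obtain ⟨j, hj⟩ := P.2 ⟨x, hPtop ▸ Subgroup.mem_top x⟩
      exact ⟨j, by
        have := congrArg Subtype.val hj
        simpa using this⟩
    · exfalso
      apply hna
      haveI hPc := h _ hPtop
      have hPn : (P : Subgroup G).Normal := sylow_normal_of_frobCond hex P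
      have hKn : (Cfsg.pResidual p G).Normal := pResidual_normal p
      have hc := frobCond_isComplement' (hex p hp) P
      have hKtop : Cfsg.pResidual p G ≠ ⊤ := by
        intro hK
        rw [hK, Subgroup.isComplement'_top_left] at hc
        exact P.ne_bot_of_dvd_card hpG hc
      haveI hKc := h _ hKtop
      have hcomm : ∀ a ∈ Cfsg.pResidual p G, ∀ b ∈ (P : Subgroup G), a * b = b * a :=
        fun a ha b hb => Subgroup.commute_of_normal_of_disjoint _ _ hKn hPn hc.disjoint a b ha hb
      refine ⟨⟨fun x y => ?_⟩⟩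
      obtain ⟨k₁, hk₁, a₁, ha₁, rfl⟩ := IsComplement'.exists_mul hc x
      obtain ⟨k₂, hk₂, a₂, ha₂, rfl⟩ := IsComplement'.exists_mul hc y
      have e1 : a₁ * a₂ = a₂ * a₁ := congrArg Subtype.val (mul_comm' (⟨a₁, ha₁⟩ : P) ⟨a₂, ha₂⟩)
      have e2 : k₁ * k₂ = k₂ * k₁ :=
        congrArg Subtype.val (mul_comm' (⟨k₁, hk₁⟩ : Cfsg.pResidual p G) ⟨k₂, hk₂⟩)
      calc k₁ * a₁ * (k₂ * a₂) = k₁ * (a₁ * k₂) * a₂ := by group
        _ = k₁ * (k₂ * a₁) * a₂ := by rw [hcomm k₂ hk₂ a₁ ha₁]
        _ = (k₁ * k₂) * (a₁ * a₂) := by group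
        _ = (k₂ * k₁) * (a₂ * a₁) := by rw [e1, e2]
        _ = k₂ * (k₁ * a₂) * a₁ := by group
        _ = k₂ * (a₂ * k₁) * a₁ := by rw [hcomm k₁ hk₁ a₂ ha₂]
        _ = k₂ * a₂ * (k₁ * a₁) := by group

end Cfsg.Agent.S0537
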