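import Cfsg.Statements.S0540
import Cfsg.Agent.Lib.Helper5.WielandtFamily2

set_option autoImplicit false
open Pointwise
open Cfsg

namespace Cfsg.Agent.S0540

/-- A uniqueness lemma of zipper type. Let A be a subgroup of a finite group G and U a nonempty family of subgroups. For V in U write S(V) for the set of conjugates of A that lie in V and are subnormal in V. Assume: A belongs to S(V) for every V in U; a member of some S(W) that lies in V belongs to S(V); and for all V, W in U the normalizer of the join of S(V) ∩ S(W) lies in some member of U. Then U has a greatest element. -/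
theorem result {G : Type*} [Group G] [Finite G] (A : Subgroup G) (U : Set (Subgroup G)) (hU : U.Nonempty) (S : Subgroup G → Set (Subgroup G)) (hS : ∀ V B : Subgroup G, B ∈ S V ↔ (∃ g : G, B = MulAut.conj g • A) ∧ B ≤ V ∧ (B.subgroupOf V).IsSubnormal) (h1 : ∀ V ∈ U, A ∈ S V) (h2 : ∀ V ∈ U, ∀ W ∈ U, ∀ B ∈ S W, B ≤ V → B ∈ S V) (h3 : ∀ V ∈ U, ∀ W ∈ U, ∃ X ∈ U, Subgroup.normalizer ((sSup (S V ∩ S W) : Subgroup G) : Set G) ≤ X) : ∃ M ∈ U, ∀ V ∈ U, V ≤ M := by
  classical
  have hSle : ∀ V B, B ∈ S V → B ≤ V := fun V B hB => ((hS V B).mp hB).2.1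
  have hSconj : ∀ V B, B ∈ S V → ∀ x ∈ V, MulAut.conj x • B ∈ S V := by
    intro V B hB x hx
    obtain ⟨⟨g, rfl⟩, hle, hsn⟩ := (hS V B).mp hB
    refine (hS V _).mpr ⟨⟨x * g, by rw [map_mul, mul_smul]⟩,
      Subgroup.conj_smul_le_of_le hle ⟨x, hx⟩, ?_⟩
    rw [← Subgroup.conj_smul_subgroupOf hle ⟨x, hx⟩]
    exact hsn.smul _
  have hSnorm : ∀ V, V ≤ Subgroup.normalizer ((sSup (S V) : Subgroup G) : Set G) := by
    intro V x hx
    exact Cfsg.Agent.Lib.Helper5.mem_normalizer_sSup_of_conj_mem (S V) x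
      (fun B hB => hSconj V B hB x hx) (fun B hB => hSconj V B hB x⁻¹ (V.inv_mem hx))
  have hW : ∀ V, ∀ T : Set (Subgroup G), T ⊂ S V → ∃ B ∈ S V, B ∉ T ∧
      B ≤ Subgroup.normalizer ((sSup T : Subgroup G) : Set G) := by
    intro V T hss
    exact Cfsg.Agent.Lib.Helper5.wielandt_family_rel _ V rfl (S V) T (fun B hB => hSle V B hB)
      (fun B hB => ((hS V B).mp hB).2.2) (fun B hB g hg => hSconj V B hB g hg) hss
  have hexmax : ∀ X ∈ U, ∃ M, X ≤ M ∧ Maximal (· ∈ U) M :=
    fun X hX => exists_maximal_ge_of_wellFoundedGT (· ∈ U) X hX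
  have huniq : ∀ V W, Maximal (· ∈ U) V → Maximal (· ∈ U) W → V = W := by
    by_contra hcon
    push Not at hcon
    set PP : Set (Subgroup G × Subgroup G) :=
      {q | Maximal (· ∈ U) q.1 ∧ Maximal (· ∈ U) q.2 ∧ q.1 ≠ q.2} with hPP
    have hne : PP.Nonempty := by
      obtain ⟨V, W, hV, hW', hne⟩ := hcon
      exact ⟨(V, W), hV, hW', hne⟩
    obtain ⟨⟨V, W⟩, ⟨hV, hW', hVW⟩, hmaxpair⟩ :=
      Set.exists_max_image PP (fun q => (S q.1 ∩ S q.2).ncard) (Set.toFinite PP) hne
    have key : ∀ V W, Maximal (· ∈ U) V → Maximal (· ∈ U) W → V ≠ W →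
        (∀ b ∈ PP, (S b.1 ∩ S b.2).ncard ≤ (S V ∩ S W).ncard) → S V ∩ S W ≠ S V →
        Subgroup.normalizer ((sSup (S V ∩ S W) : Subgroup G) : Set G) ≤ V := by
      intro V W hV hW' hVW hmaxpair hneq
      have hss : S V ∩ S W ⊂ S V :=
        Set.ssubset_iff_subset_ne.mpr ⟨Set.inter_subset_left, hneq⟩
      obtain ⟨B, hBV, hBT, hBn⟩ := hW V _ hss
      obtain ⟨X, hXU, hNX⟩ := h3 V hV.prop W hW'.prop
      obtain ⟨M, hXM, hM⟩ := hexmax X hXU
      by_cases hMV : M = V
      · exact (hNX.trans hXM).trans (le_of_eq hMV)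
      · exfalso
        have hpair : ((V, M) : Subgroup G × Subgroup G) ∈ PP := ⟨hV, hM, fun h => hMV h.symm⟩
        have hle := hmaxpair _ hpair
        have hsub : S V ∩ S W ⊂ S V ∩ S M := by
          refine ⟨fun B' hB' => ⟨hB'.1, h2 M hM.prop V hV.prop B' hB'.1 ?_⟩, ?_⟩
          · exact ((le_sSup hB').trans Subgroup.le_normalizer).trans (hNX.trans hXM)
          · intro hsub'
            exact hBT (hsub' ⟨hBV, h2 M hM.prop V hV.prop B hBV (hBn.trans (hNX.trans hXM))⟩)
        have hlt := Set.ncard_lt_ncard hsub (Set.toFinite _)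
        exact absurd hle (not_le.mpr hlt)
    have hcomm : S W ∩ S V = S V ∩ S W := Set.inter_comm _ _
    have hmaxpair' : ∀ b ∈ PP, (S b.1 ∩ S b.2).ncard ≤ (S W ∩ S V).ncard := by
      rw [hcomm]; exact hmaxpair
    by_cases hTV : S V ∩ S W = S V
    · by_cases hTW : S V ∩ S W = S W
      · obtain ⟨X, hXU, hNX⟩ := h3 V hV.prop W hW'.prop
        obtain ⟨M, hXM, hM⟩ := hexmax X hXU
        have hVM : V ≤ M := by
          have h5 := hSnorm V
          rw [← hTV] at h5
          exact h5.trans (hNX.trans hXM)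
        have hWM : W ≤ M := by
          have h5 := hSnorm W
          rw [← hTW] at h5
          exact h5.trans (hNX.trans hXM)
        have e1 : V = M := le_antisymm hVM (hV.2 hM.prop hVM)
        have e2 : W = M := le_antisymm hWM (hW'.2 hM.prop hWM)
        exact hVW (e1.trans e2.symm)
      · have hN := key W V hW' hV (Ne.symm hVW) hmaxpair' (by rw [hcomm]; exact hTW)
        rw [hcomm] at hN
        have hVW' : V ≤ W := by
          have h5 := hSnorm V
          rw [← hTV] at h5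
          exact h5.trans hN
        exact hVW (le_antisymm hVW' (hV.2 hW'.prop hVW'))
    · have hN := key V W hV hW' hVW hmaxpair hTV
      by_cases hTW : S V ∩ S W = S W
      · have hWV : W ≤ V := by
          have h5 := hSnorm W
          rw [← hTW] at h5
          exact h5.trans hN
        exact hVW (le_antisymm (hW'.2 hV.prop hWV) hWV)
      · have hss : S V ∩ S W ⊂ S W :=
          Set.ssubset_iff_subset_ne.mpr ⟨Set.inter_subset_right, hTW⟩
        obtain ⟨B, hBW, hBT, hBn⟩ := hW W _ hss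
        exact hBT ⟨h2 V hV.prop W hW'.prop B hBW (hBn.trans hN), hBW⟩
  obtain ⟨V₀, hV₀⟩ := hU
  obtain ⟨M, hV₀M, hM⟩ := hexmax V₀ hV₀
  refine ⟨M, hM.prop, fun V hV => ?_⟩
  obtain ⟨M', hVM', hM'⟩ := hexmax V hV
  rw [huniq M M' hM hM']
  exact hVM'

end Cfsg.Agent.S0540
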