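import Cfsg.Statements.S0541
import Cfsg.Agent.Lib.Helper5.WielandtFamily2

set_option autoImplicit false
open Pointwise
open Cfsg

namespace Cfsg.Agent.S0541

/-- Let Z and Y be subgroups of a finite group G and p a prime. Suppose that for every g in G the subgroup generated by the conjugates of g Z g⁻¹ under Y is a p-group. Then there is a Sylow p-subgroup P of G such that Y normalizes the subgroup generated by all conjugates of Z contained in P. -/
theorem result {G : Type*} [Group G] [Finite G] (p : ℕ) [Fact p.Prime] (Z Y : Subgroup G) (h : ∀ g : G, IsPGroup p ↥(⨆ y ∈ Y, MulAut.conj (y * g) • Z)) : ∃ P : Sylow p G, Y ≤ Subgroup.normalizer ((⨆ g ∈ {g : G | MulAut.conj g • Z ≤ (P : Subgroup G)}, MulAut.conj g • Z : Subgroup G) : Set G) := by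
  classical
  -- conjugates of Z inside a subgroup
  set Sg : Subgroup G → Set (Subgroup G) :=
    fun W => {U | (∃ g : G, U = MulAut.conj g • Z) ∧ U ≤ W} with hSg
  have hSgle : ∀ W : Subgroup G, sSup (Sg W) ≤ W := fun W => sSup_le (fun U hU => hU.2)
  have hSgmono : ∀ W W' : Subgroup G, W ≤ W' → Sg W ⊆ Sg W' :=
    fun W W' hWW' U hU => ⟨hU.1, hU.2.trans hWW'⟩
  -- the family of Y-invariant p-subgroups generated by conjugates of Z
  set good : Subgroup G → Prop := fun W =>
    IsPGroup p W ∧ Y ≤ Subgroup.normalizer (W : Set G) ∧ sSup (Sg W) = W with hgood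
  have hbot : good ⊥ := by
    refine ⟨IsPGroup.of_bot, ?_, le_antisymm (hSgle ⊥) bot_le⟩
    intro y _
    rw [Subgroup.mem_normalizer_iff]
    intro x
    simp [Subgroup.mem_bot]
  obtain ⟨W, hW⟩ := exists_maximal_of_wellFoundedGT good ⟨⊥, hbot⟩
  obtain ⟨⟨hWp, hWY, hWgen⟩, hWmax⟩ := hW
  obtain ⟨P, hWP⟩ := hWp.exists_le_sylow
  refine ⟨P, ?_⟩
  -- key claim: conjugates of Z in P lie in W
  have hclaim : Sg (P : Subgroup G) ⊆ Sg W := by
    by_contra hnot
    have hss : Sg W ⊂ Sg (P : Subgroup G) :=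
      ⟨hSgmono W P hWP, hnot⟩
    have : Group.IsNilpotent (P : Subgroup G) := P.isPGroup'.isNilpotent
    obtain ⟨X, hXP, hXW, hXn⟩ := Cfsg.Agent.Lib.Helper5.wielandt_family_rel _
      (P : Subgroup G) rfl (Sg (P : Subgroup G)) (Sg W) (fun U hU => hU.2)
      (fun U hU => Cfsg.Agent.Lib.Helper5.isSubnormal_of_isNilpotent _)
      (fun U hU g hg => by
        obtain ⟨⟨g0, rfl⟩, hUP⟩ := hU
        refine ⟨⟨g * g0, by rw [map_mul, mul_smul]⟩, ?_⟩
        exact Subgroup.conj_smul_le_of_le hUP ⟨g, hg⟩) hss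
    rw [hWgen] at hXn
    obtain ⟨⟨g, rfl⟩, hXleP⟩ := hXP
    have hXnotW : ¬ MulAut.conj g • Z ≤ W := fun hle => hXW ⟨⟨g, rfl⟩, hle⟩
    -- the Y-closure of this conjugate
    set TV : Set (Subgroup G) := {U | ∃ y ∈ Y, U = MulAut.conj (y * g) • Z} with hTV
    have hVeq : (⨆ y ∈ Y, MulAut.conj (y * g) • Z) = sSup TV := by
      apply le_antisymm
      · exact iSup₂_le (fun y hy => le_sSup ⟨y, hy, rfl⟩)
      · apply sSup_le
        rintro _ ⟨y, hy, rfl⟩
        exact le_iSup₂_of_le y hy le_rfl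
    have hVp : IsPGroup p (sSup TV : Subgroup G) := hVeq ▸ h g
    have hVN : sSup TV ≤ Subgroup.normalizer (W : Set G) := by
      apply sSup_le
      rintro _ ⟨y, hy, rfl⟩
      rw [map_mul, mul_smul]
      rintro _ ⟨x, hx, rfl⟩
      have hxN : x ∈ Subgroup.normalizer (W : Set G) := hXn hx
      have hyN : y ∈ Subgroup.normalizer (W : Set G) := hWY hy
      have : (MulAut.conj y) x = y * x * y⁻¹ := by simp
      change (MulAut.conj y) x ∈ Subgroup.normalizer (W : Set G)
      rw [this]
      exact Subgroup.mul_mem _ (Subgroup.mul_mem _ hyN hxN) (Subgroup.inv_mem _ hyN)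
    have hVY : Y ≤ Subgroup.normalizer ((sSup TV : Subgroup G) : Set G) := by
      intro y hy
      apply Cfsg.Agent.Lib.Helper5.mem_normalizer_sSup_of_conj_mem
      · rintro _ ⟨y', hy', rfl⟩
        exact ⟨y * y', Y.mul_mem hy hy', by rw [← mul_smul, ← map_mul, mul_assoc]⟩
      · rintro _ ⟨y', hy', rfl⟩
        exact ⟨y⁻¹ * y', Y.mul_mem (Y.inv_mem hy) hy', by rw [← mul_smul, ← map_mul, mul_assoc]⟩
    have hgood' : good (sSup TV ⊔ W) := by
      refine ⟨hVp.to_sup_of_normal_right' hWp hVN, ?_, ?_⟩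
      · intro y hy
        have h1 : MulAut.conj y • (sSup TV : Subgroup G) = sSup TV := by
          have := hVY hy
          rw [Subgroup.mem_normalizer_iff_map_conj_eq] at this
          exact this
        have h2 : MulAut.conj y • W = W := by
          have := hWY hy
          rw [Subgroup.mem_normalizer_iff_map_conj_eq] at this
          exact this
        have h3 : MulAut.conj y • (sSup TV ⊔ W) = sSup TV ⊔ W := by
          rw [Subgroup.smul_sup, h1, h2]
        rw [Subgroup.mem_normalizer_iff_map_conj_eq]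
        exact h3
      · apply le_antisymm (hSgle _)
        apply sup_le
        · apply sSup_le_sSup
          rintro _ ⟨y, hy, rfl⟩
          have hmemTV : MulAut.conj (y * g) • Z ∈ TV := ⟨y, hy, rfl⟩
          exact ⟨⟨y * g, rfl⟩, (le_sSup hmemTV).trans le_sup_left⟩
        · calc W = sSup (Sg W) := hWgen.symm
            _ ≤ sSup (Sg (sSup TV ⊔ W)) := sSup_le_sSup (hSgmono _ _ le_sup_right)
    have hle : sSup TV ⊔ W ≤ W := hWmax hgood' le_sup_right
    apply hXnotW
    have h1 : MulAut.conj g • Z ≤ sSup TV := le_sSup ⟨1, Y.one_mem, by rw [one_mul]⟩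
    exact h1.trans (le_sup_left.trans hle)
  have hfinal : (⨆ g ∈ {g : G | MulAut.conj g • Z ≤ (P : Subgroup G)}, MulAut.conj g • Z) = W := by
    apply le_antisymm
    · apply iSup₂_le
      intro g hg
      have hmem : MulAut.conj g • Z ∈ Sg (P : Subgroup G) := ⟨⟨g, rfl⟩, hg⟩
      exact (hclaim hmem).2
    · rw [← hWgen]
      apply sSup_le
      rintro _ ⟨⟨g, rfl⟩, hle⟩
      exact le_iSup₂_of_le (f := fun g _ => MulAut.conj g • Z) g (hle.trans hWP) le_rfl
  rw [hfinal]
  exact hWY

end Cfsg.Agent.S0541
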