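import Cfsg.Statements.S0542
import Mathlib

set_option autoImplicit false
open Pointwise
open Cfsg

namespace Cfsg.Agent.S0542

theorem relIndex_dvd_index_of_normal_right {X : Type*} [Group X] [Finite X] (T N : Subgroup X)
    [N.Normal] : T.relIndex N ∣ T.index := by
  have h1 : Nat.card ↥(T ⊓ N) * T.relIndex N = Nat.card N := by
    have := Subgroup.relIndex_mul_relIndex ⊥ (T ⊓ N) N bot_le inf_le_right
    rwa [Subgroup.relIndex_bot_left, Subgroup.relIndex_bot_left, Subgroup.inf_relIndex_right] at this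
  have h2 : Nat.card N * N.relIndex (T ⊔ N) = Nat.card ↥(T ⊔ N) := by
    have := Subgroup.relIndex_mul_relIndex ⊥ N (T ⊔ N) bot_le le_sup_right
    rwa [Subgroup.relIndex_bot_left, Subgroup.relIndex_bot_left] at this
  have h3 : N.relIndex (T ⊔ N) = N.relIndex T := Subgroup.relIndex_sup_right T N
  have h4 : Nat.card ↥(T ⊓ N) * N.relIndex T = Nat.card T := by
    have := Subgroup.relIndex_mul_relIndex ⊥ (T ⊓ N) T bot_le inf_le_left
    rwa [Subgroup.relIndex_bot_left, Subgroup.relIndex_bot_left, Subgroup.inf_relIndex_left] at this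
  have h5 : Nat.card T * T.relIndex (T ⊔ N) = Nat.card ↥(T ⊔ N) := by
    have := Subgroup.relIndex_mul_relIndex ⊥ T (T ⊔ N) bot_le le_sup_left
    rwa [Subgroup.relIndex_bot_left, Subgroup.relIndex_bot_left] at this
  have hpos1 : 0 < Nat.card ↥(T ⊓ N) := Nat.card_pos
  have hpos2 : 0 < N.relIndex T := by
    rcases Nat.eq_zero_or_pos (N.relIndex T) with h | h
    · rw [h, mul_zero] at h4
      exact absurd h4.symm (Nat.card_pos (α := T)).ne'
    · exact h
  have heq : T.relIndex (T ⊔ N) = T.relIndex N := by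
    have h6 : Nat.card ↥(T ⊓ N) * N.relIndex T * T.relIndex (T ⊔ N) =
        Nat.card ↥(T ⊓ N) * N.relIndex T * T.relIndex N := by
      calc Nat.card ↥(T ⊓ N) * N.relIndex T * T.relIndex (T ⊔ N)
          = Nat.card T * T.relIndex (T ⊔ N) := by rw [h4]
        _ = Nat.card N * N.relIndex (T ⊔ N) := by rw [h5, h2]
        _ = Nat.card ↥(T ⊓ N) * T.relIndex N * N.relIndex T := by rw [h3, h1]
        _ = Nat.card ↥(T ⊓ N) * N.relIndex T * T.relIndex N := by ring
    exact Nat.eq_of_mul_eq_mul_left (Nat.mul_pos hpos1 hpos2) h6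
  rw [← heq]
  exact Subgroup.relIndex_dvd_index_of_le le_sup_left

theorem key {G : Type*} [Group G] [Finite G] (p : ℕ) [Fact p.Prime] (H : Subgroup G)
    (hH : H.IsSubnormal) : ∀ S : Sylow p G, ¬ p ∣ (S : Subgroup G).relIndex H := by
  induction hH with
  | top =>
    intro S
    rw [Subgroup.relIndex_top_right]
    exact S.not_dvd_index
  | step H K hle hK hN ih =>
    intro S hdvd
    apply ih S
    have h1 := relIndex_dvd_index_of_normal_right ((S : Subgroup G).subgroupOf K) (H.subgroupOf K)
    rw [Subgroup.relIndex_subgroupOf hle] at h1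
    exact hdvd.trans h1

/-- A Sylow p-subgroup of a finite group meets every subnormal subgroup H in a Sylow p-subgroup of H. -/
theorem result {G : Type*} [Group G] [Finite G] (p : ℕ) [Fact p.Prime] (H : Subgroup G) (hH : H.IsSubnormal) (S : Sylow p G) : ∃ Q : Sylow p H, (Q : Subgroup H) = (S : Subgroup G).subgroupOf H := by
  have h1 : IsPGroup p ((S : Subgroup G).subgroupOf H) := S.isPGroup'.comap_subtype
  exact ⟨h1.toSylow (key p H hH S), rfl⟩

end Cfsg.Agent.S0542
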