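import Cfsg.Statements.S0544
import Mathlib

namespace Cfsg.Agent.S0544

theorem result {G : Type*} [Group G] [Finite G] [Group.IsSolvable G] (K : Nat.Primes → Subgroup G) (hK : Cfsg.IsComplementSystem K) : Group.IsNilpotent (Cfsg.systemNormalizer K) := by
  classical
  set D := Cfsg.systemNormalizer K with hD
  have hDle : ∀ r : Nat.Primes, D ≤ Subgroup.normalizer (K r : Set G) := fun r => iInf_le _ r
  refine ((Group.isNilpotent_of_finite_tfae (G := D)).out 0 3).mpr ?_
  intro p hp T
  have hpp : p.Prime := hp.out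
  have hKr : ∀ r : Nat.Primes, ¬ ((r : ℕ) ∣ Nat.card (K r)) := by
    intro r hdvd
    have h1 : Nat.card (K r) * (K r).index = Nat.card G := Subgroup.card_mul_index (K r)
    rw [hK r] at h1
    have h2 : (r : ℕ) ^ ((Nat.card G).factorization r + 1) ∣
        Nat.card (K r) * (r : ℕ) ^ (Nat.card G).factorization r := by
      rw [pow_succ, mul_comm]
      exact Nat.mul_dvd_mul hdvd (dvd_refl _)
    rw [h1] at h2
    exact Nat.pow_succ_factorization_not_dvd (Nat.card_pos.ne') r.2 h2
  set Sp : Subgroup G := ⨅ (r : Nat.Primes) (_ : (r : ℕ) ≠ p), K r with hSp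
  have hSple : ∀ r : Nat.Primes, (r : ℕ) ≠ p → Sp ≤ K r := fun r hr => iInf₂_le r hr
  have hSpP : IsPGroup p Sp := by
    have hcard : Nat.card Sp = p ^ (Nat.card Sp).primeFactorsList.length := by
      apply Nat.eq_prime_pow_of_unique_prime_dvd (Nat.card_pos.ne')
      intro d hd hdvd
      by_contra hne
      exact hKr ⟨d, hd⟩ (hdvd.trans (Subgroup.card_dvd_of_le (hSple ⟨d, hd⟩ hne)))
    exact IsPGroup.of_card hcard
  have hDN : D ≤ Subgroup.normalizer (Sp : Set G) := by
    intro g hg
    rw [Subgroup.mem_normalizer_iff]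
    intro x
    simp only [hSp, Subgroup.mem_iInf]
    constructor
    · intro hx r hr
      exact (Subgroup.mem_normalizer_iff.mp (hDle r hg) x).mp (hx r hr)
    · intro hx r hr
      exact (Subgroup.mem_normalizer_iff.mp (hDle r hg) x).mpr (hx r hr)
  have hTle : (T : Subgroup D) ≤ Sp.subgroupOf D := by
    intro t ht
    rw [Subgroup.mem_subgroupOf]
    simp only [hSp, Subgroup.mem_iInf]
    intro r hr
    have htN : (t : G) ∈ Subgroup.normalizer (K r : Set G) := hDle r t.2
    have hKN : K r ≤ Subgroup.normalizer (K r : Set G) := Subgroup.le_normalizer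
    let t' : Subgroup.normalizer (K r : Set G) := ⟨(t : G), htN⟩
    have ho1 : orderOf (QuotientGroup.mk' ((K r).subgroupOf (Subgroup.normalizer (K r : Set G))) t')
        ∣ orderOf t' := orderOf_map_dvd _ _
    have ho2 : orderOf (QuotientGroup.mk' ((K r).subgroupOf (Subgroup.normalizer (K r : Set G))) t')
        ∣ Nat.card (Subgroup.normalizer (K r : Set G) ⧸
          (K r).subgroupOf (Subgroup.normalizer (K r : Set G))) := orderOf_dvd_natCard _
    have ho3 : Nat.card (Subgroup.normalizer (K r : Set G) ⧸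
          (K r).subgroupOf (Subgroup.normalizer (K r : Set G)))
          ∣ (r : ℕ) ^ (Nat.card G).factorization r := by
      rw [← hK r]
      exact Subgroup.relIndex_dvd_index_of_le hKN
    obtain ⟨k, hk⟩ := T.isPGroup' ⟨t, ht⟩
    have ho4 : orderOf t' ∣ p ^ k := by
      apply orderOf_dvd_of_pow_eq_one
      have h1 : (t : D) ^ p ^ k = 1 := by simpa using congrArg Subtype.val hk
      have h2 : ((t : D) : G) ^ p ^ k = 1 := by simpa using congrArg Subtype.val h1
      ext
      simpa [t'] using h2
    have hcop : Nat.Coprime (p ^ k) ((r : ℕ) ^ (Nat.card G).factorization r) :=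
      Nat.Coprime.pow _ _ ((Nat.coprime_primes hpp r.2).mpr (Ne.symm hr))
    have ho5 : orderOf (QuotientGroup.mk' ((K r).subgroupOf (Subgroup.normalizer (K r : Set G))) t')
        = 1 := Nat.eq_one_of_dvd_coprimes hcop (ho1.trans ho4) (ho2.trans ho3)
    rw [orderOf_eq_one_iff] at ho5
    have h3 := (QuotientGroup.eq_one_iff t').mp ho5
    exact h3
  have hSpD : IsPGroup p (Sp.subgroupOf D) := hSpP.comap_subtype
  have hEq : Sp.subgroupOf D = T := T.is_maximal' hSpD hTle
  rw [← hEq]
  exact Subgroup.normal_subgroupOf_of_le_normalizer hDN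

end Cfsg.Agent.S0544
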