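import Cfsg.Statements.S0546
import Cfsg.Agent.S0545

set_option autoImplicit false
open Cfsg

namespace Cfsg.Agent.S0546

open scoped commutatorElement

/-- The normal closure of a system normalizer of a finite solvable group is the whole group. -/
theorem result {G : Type*} [Group G] [Finite G] [Group.IsSolvable G] (K : Nat.Primes → Subgroup G) (hK : Cfsg.IsComplementSystem K) : Subgroup.normalClosure ((Cfsg.systemNormalizer K : Subgroup G) : Set G) = ⊤ := by
  classical
  set M : Subgroup G := Subgroup.normalClosure ((Cfsg.systemNormalizer K : Subgroup G) : Set G)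
    with hM
  have : M.Normal := Subgroup.normalClosure_normal
  obtain ⟨hK1, hD1⟩ := Cfsg.Agent.S0545.result K hK M
  have hD1' : Cfsg.systemNormalizer (fun p => (K p).map (QuotientGroup.mk' M)) = ⊥ := by
    rw [hD1, ← le_bot_iff, Subgroup.map_le_iff_le_comap]
    intro d hd
    rw [Subgroup.mem_comap, Subgroup.mem_bot, QuotientGroup.mk'_apply, QuotientGroup.eq_one_iff]
    exact Subgroup.subset_normalClosure hd
  set K' : Nat.Primes → Subgroup (G ⧸ M) := fun p => (K p).map (QuotientGroup.mk' M) with hK'
  obtain ⟨hK2, hD2⟩ := Cfsg.Agent.S0545.result K' hK1 (commutator (G ⧸ M))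
  rw [hD1', Subgroup.map_bot] at hD2
  -- in the abelian quotient the system normalizer is everything
  have hD3 : Cfsg.systemNormalizer
      (fun p => (K' p).map (QuotientGroup.mk' (commutator (G ⧸ M)))) = ⊤ := by
    rw [eq_top_iff]
    intro x _
    refine Subgroup.mem_iInf.mpr (fun p => ?_)
    rw [Subgroup.mem_normalizer_iff]
    intro h
    have hc : x * h * x⁻¹ = h := by
      obtain ⟨x', rfl⟩ := QuotientGroup.mk'_surjective _ x
      obtain ⟨h', rfl⟩ := QuotientGroup.mk'_surjective _ h
      rw [← map_mul, ← map_inv, ← map_mul]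
      rw [QuotientGroup.mk'_eq_mk']
      refine ⟨x' * h'⁻¹ * x'⁻¹ * h', ?_, by group⟩
      have hc : ⁅x', h'⁻¹⁆ ∈ commutator (G ⧸ M) := by
        rw [commutator_def]
        exact Subgroup.commutator_mem_commutator (Subgroup.mem_top _) (Subgroup.mem_top _)
      simpa [commutatorElement_def] using hc
    rw [hc]
  rw [hD3] at hD2
  -- so the abelianization of G ⧸ M is trivial
  have hcomm : commutator (G ⧸ M) = ⊤ := by
    rw [eq_top_iff]
    intro x _
    have : QuotientGroup.mk' (commutator (G ⧸ M)) x ∈ (⊤ : Subgroup ((G ⧸ M) ⧸ commutator (G ⧸ M))) :=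
      Subgroup.mem_top _
    rw [hD2, Subgroup.mem_bot, QuotientGroup.mk'_apply, QuotientGroup.eq_one_iff] at this
    exact this
  by_contra hne
  have hnt : Nontrivial (G ⧸ M) := by
    rw [← Finite.one_lt_card_iff_nontrivial]
    have h1 : Nat.card (G ⧸ M) = M.index := rfl
    rw [h1]
    have h2 : M.index ≠ 1 := fun h => hne (Subgroup.index_eq_one.mp h)
    have h3 : M.index ≠ 0 := Subgroup.index_ne_zero_of_finite
    omega
  have := Group.IsSolvable.commutator_lt_top_of_nontrivial (G ⧸ M)
  rw [hcomm] at this
  exact lt_irrefl _ this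

end Cfsg.Agent.S0546
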