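import Cfsg.Statements.S0547
import Cfsg.Agent.Lib.Helper5.Primitive
import Cfsg.Agent.Lib.Helper5.MinNormal

namespace Cfsg.Agent.S0547

open Cfsg.Agent.Lib.Helper5

theorem result {G : Type*} [Group G] [Finite G] [Group.IsSolvable G] {Ω : Type*} [Nonempty Ω] [MulAction G Ω] [FaithfulSMul G Ω] (hprim : MulAction.IsPreprimitive G Ω) (M : Subgroup G) [M.Normal] (hM : M ≠ ⊥) (hmin : ∀ K : Subgroup G, K.Normal → K ≤ M → K = ⊥ ∨ K = M) : MulAction.IsPretransitive M Ω ∧ (∀ ω : Ω, MulAction.stabilizer M ω = ⊥) ∧ ∃ p d : ℕ, p.Prime ∧ 0 < d ∧ Nat.card Ω = p ^ d ∧ Nat.card M = p ^ d := by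
  have htrans : MulAction.IsPretransitive M Ω := prim_normal_transitive hprim M hM
  have hcomm := minimal_normal_comm hM hmin
  have hMc : M ≤ Subgroup.centralizer (M : Set G) := by
    intro a ha
    rw [Subgroup.mem_centralizer_iff]
    intro b hb
    exact hcomm b hb a ha
  have hstab : ∀ ω : Ω, MulAction.stabilizer M ω = ⊥ := by
    intro ω
    rw [Subgroup.eq_bot_iff_forall]
    intro m hm
    have h1 : (m : G) • ω = ω := hm
    have h2 := centralizer_fix_eq_one M (m : G) (hMc m.2) ω h1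
    exact Subtype.ext h2
  refine ⟨htrans, hstab, ?_⟩
  obtain ⟨p, hp, hMp⟩ := minimal_normal_isPGroup hM hmin
  have hfact : Fact p.Prime := ⟨hp⟩
  obtain ⟨d, hd⟩ := IsPGroup.iff_card.mp hMp
  obtain ⟨ω⟩ := ‹Nonempty Ω›
  have hbij : Function.Bijective (fun m : M => m • ω) := by
    constructor
    · intro a b hab
      have h1 : b⁻¹ * a ∈ MulAction.stabilizer M ω := by
        rw [MulAction.mem_stabilizer_iff, mul_smul]
        show b⁻¹ • (a • ω) = ω
        have hab' : a • ω = b • ω := hab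
        rw [hab', inv_smul_smul]
      rw [hstab ω, Subgroup.mem_bot] at h1
      have : a = b * (b⁻¹ * a) := by group
      rw [this, h1, mul_one]
    · intro ω'
      exact MulAction.exists_smul_eq M ω ω'
  have hcard : Nat.card Ω = Nat.card M := (Nat.card_congr (Equiv.ofBijective _ hbij)).symm
  refine ⟨p, d, hp, ?_, by rw [hcard, hd], hd⟩
  rcases Nat.eq_zero_or_pos d with h0 | h0
  · exfalso
    rw [h0, pow_zero] at hd
    exact hM (Subgroup.card_eq_one.mp hd)
  · exact h0

end Cfsg.Agent.S0547
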