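import Cfsg.Statements.S0548
import Cfsg.Agent.Lib.Helper5.Primitive
import Cfsg.Agent.Lib.Helper5.MinNormal

namespace Cfsg.Agent.S0548

open Cfsg.Agent.Lib.Helper5
open scoped Pointwise

theorem result {G : Type*} [Group G] [Finite G] [Group.IsSolvable G] {Ω : Type*} [MulAction G Ω] [FaithfulSMul G Ω] (hprim : MulAction.IsPreprimitive G Ω) (M : Subgroup G) [M.Normal] (hM : M ≠ ⊥) (hmin : ∀ K : Subgroup G, K.Normal → K ≤ M → K = ⊥ ∨ K = M) (ω : Ω) : Subgroup.IsComplement' M (MulAction.stabilizer G ω) ∧ MulAction.stabilizer G ω ⊓ Subgroup.centralizer (M : Set G) = ⊥ ∧ ∀ K : Subgroup G, K ≤ M → MulAction.stabilizer G ω ≤ Subgroup.normalizer (K : Set G) → K = ⊥ ∨ K = M := by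
  have htrans : MulAction.IsPretransitive M Ω := prim_normal_transitive hprim M hM
  have hcomm := minimal_normal_comm hM hmin
  have hMc : M ≤ Subgroup.centralizer (M : Set G) := by
    intro a ha
    rw [Subgroup.mem_centralizer_iff]
    intro b hb
    exact hcomm b hb a ha
  have hdecomp : ∀ g : G, ∃ m ∈ M, ∃ s ∈ MulAction.stabilizer G ω, g = m * s := by
    intro g
    obtain ⟨m, hm⟩ := MulAction.exists_smul_eq M ω (g • ω)
    have hm' : (m : G) • ω = g • ω := hm
    refine ⟨m, m.2, (m : G)⁻¹ * g, ?_, by group⟩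
    rw [MulAction.mem_stabilizer_iff, mul_smul, ← hm', inv_smul_smul]
  refine ⟨?_, ?_, ?_⟩
  · apply Subgroup.isComplement'_of_disjoint_and_mul_eq_univ
    · rw [Subgroup.disjoint_def]
      intro x hxM hxs
      exact centralizer_fix_eq_one M x (hMc hxM) ω hxs
    · apply Set.eq_univ_of_forall
      intro g
      obtain ⟨m, hm, s, hs, rfl⟩ := hdecomp g
      exact ⟨m, hm, s, hs, rfl⟩
  · rw [Subgroup.eq_bot_iff_forall]
    rintro c ⟨hc1, hc2⟩
    exact centralizer_fix_eq_one M c hc2 ω hc1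
  · intro K hKM hKN
    apply hmin K _ hKM
    constructor
    intro k hk g
    obtain ⟨m, hm, s, hs, rfl⟩ := hdecomp g
    have h1 : s * k * s⁻¹ ∈ K := (Subgroup.mem_normalizer_iff.mp (hKN hs) k).mp hk
    have h2 : m * (s * k * s⁻¹) = (s * k * s⁻¹) * m := hcomm m hm _ (hKM h1)
    have h3 : m * s * k * (m * s)⁻¹ = s * k * s⁻¹ := by
      calc m * s * k * (m * s)⁻¹ = m * (s * k * s⁻¹) * m⁻¹ := by group
        _ = (s * k * s⁻¹) * m * m⁻¹ := by rw [h2]
        _ = s * k * s⁻¹ := by group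
    rw [h3]
    exact h1

end Cfsg.Agent.S0548
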