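import Cfsg.Statements.S0550
import Cfsg.Agent.Lib.Helper5.CoreFree

set_option autoImplicit false
open Pointwise
open Cfsg

namespace Cfsg.Agent.S0550

open Cfsg.Agent.Lib.Helper5

theorem iso_aux {G : Type*} [Group G] (A B U : Subgroup G) [A.Normal] [B.Normal]
    (hAB : A ⊓ B = ⊥) (hBU : B ⊓ U = ⊥) (hBUtop : B ⊔ U = ⊤) :
    Nonempty (A ≃* ↥((A ⊔ B) ⊓ U)) := by
  set D : Subgroup G := (A ⊔ B) ⊓ U with hD
  let fA : A →* G ⧸ B := (QuotientGroup.mk' B).comp A.subtype
  let fD : D →* G ⧸ B := (QuotientGroup.mk' B).comp D.subtype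
  have hfA : Function.Injective fA := by
    rw [← MonoidHom.ker_eq_bot_iff, eq_bot_iff]
    intro x hx
    rw [MonoidHom.mem_ker] at hx
    have hxB : (x : G) ∈ B := by
      have : (QuotientGroup.mk' B) (x : G) = 1 := hx
      rwa [QuotientGroup.mk'_apply, QuotientGroup.eq_one_iff] at this
    have : (x : G) ∈ A ⊓ B := ⟨x.2, hxB⟩
    rw [hAB] at this
    rw [Subgroup.mem_bot]
    exact Subtype.ext (Subgroup.mem_bot.mp this)
  have hfD : Function.Injective fD := by
    rw [← MonoidHom.ker_eq_bot_iff, eq_bot_iff]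
    intro x hx
    rw [MonoidHom.mem_ker] at hx
    have hxB : (x : G) ∈ B := by
      have : (QuotientGroup.mk' B) (x : G) = 1 := hx
      rwa [QuotientGroup.mk'_apply, QuotientGroup.eq_one_iff] at this
    have : (x : G) ∈ B ⊓ U := ⟨hxB, x.2.2⟩
    rw [hBU] at this
    rw [Subgroup.mem_bot]
    exact Subtype.ext (Subgroup.mem_bot.mp this)
  have hrange : fA.range = fD.range := by
    have h1 : fA.range = A.map (QuotientGroup.mk' B) := by
      rw [MonoidHom.range_comp, Subgroup.range_subtype]
    have h2 : fD.range = D.map (QuotientGroup.mk' B) := by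
      rw [MonoidHom.range_comp, Subgroup.range_subtype]
    rw [h1, h2, Subgroup.map_eq_map_iff, QuotientGroup.ker_mk']
    apply le_antisymm
    · apply sup_le _ le_sup_right
      intro a ha
      obtain ⟨b, hb, u, hu, rfl⟩ := exists_mul_of_sup_eq_top hBUtop a
      have huD : u ∈ D := by
        refine ⟨?_, hu⟩
        have h3 : u = b⁻¹ * (b * u) := by group
        rw [h3]
        exact Subgroup.mul_mem _ (Subgroup.mem_sup_right (B.inv_mem hb)) (Subgroup.mem_sup_left ha)
      rw [sup_comm]
      exact Subgroup.mul_mem _ (Subgroup.mem_sup_left hb) (Subgroup.mem_sup_right huD)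
    · exact sup_le (inf_le_left) le_sup_right
  exact ⟨(MonoidHom.ofInjective hfA).trans ((MulEquiv.subgroupCongr hrange).trans
    (MonoidHom.ofInjective hfD).symm)⟩

/-- Let U be a maximal subgroup with trivial normal core in a finite group G, and A ≠ B two minimal normal subgroups. Then A is the centralizer of B and B that of A, U complements each of them, A and B are non-abelian, and A, B and (A ⊔ B) ∩ U are pairwise isomorphic. -/
theorem result {G : Type*} [Group G] [Finite G] (U : Subgroup G) (hU : IsCoatom U) (hcore : U.normalCore = ⊥) (A B : Subgroup G) [A.Normal] [B.Normal] (hA : A ≠ ⊥) (hB : B ≠ ⊥) (hAmin : ∀ K : Subgroup G, K.Normal → K ≤ A → K = ⊥ ∨ K = A) (hBmin : ∀ K : Subgroup G, K.Normal → K ≤ B → K = ⊥ ∨ K = B) (hAB : A ≠ B) : Subgroup.centralizer (B : Set G) = A ∧ Subgroup.centralizer (A : Set G) = B ∧ Subgroup.IsComplement' A U ∧ Subgroup.IsComplement' B U ∧ ¬ IsMulCommutative A ∧ Nonempty (A ≃* B) ∧ Nonempty (A ≃* ↥((A ⊔ B) ⊓ U)) := by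
  have hdisj : A ⊓ B = ⊥ := by
    rcases hAmin (A ⊓ B) inferInstance inf_le_left with h | h
    · exact h
    · exfalso
      have hle : A ≤ B := by rw [← h]; exact inf_le_right
      rcases hBmin A inferInstance hle with h' | h'
      · exact hA h'
      · exact hAB h'
  have hcomm : ∀ a ∈ A, ∀ b ∈ B, a * b = b * a := fun a ha b hb =>
    Subgroup.commute_of_normal_of_disjoint A B inferInstance inferInstance
      (disjoint_iff.mpr hdisj) a b ha hb
  have hAle : A ≤ Subgroup.centralizer (B : Set G) := by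
    intro a ha
    rw [Subgroup.mem_centralizer_iff]
    intro b hb
    exact (hcomm a ha b hb).symm
  have hBle : B ≤ Subgroup.centralizer (A : Set G) := by
    intro b hb
    rw [Subgroup.mem_centralizer_iff]
    intro a ha
    exact hcomm a ha b hb
  have hCB : Subgroup.centralizer (B : Set G) = A := by
    rcases centralizer_minimal hU hcore hB A inferInstance hAle with h | h
    · exact absurd h hA
    · exact h.symm
  have hCA : Subgroup.centralizer (A : Set G) = B := by
    rcases centralizer_minimal hU hcore hA B inferInstance hBle with h | h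
    · exact absurd h hB
    · exact h.symm
  have hAU : A ⊓ U = ⊥ := by rw [← hCB]; exact centralizer_inf_eq_bot hU hcore hB
  have hBU : B ⊓ U = ⊥ := by rw [← hCA]; exact centralizer_inf_eq_bot hU hcore hA
  have hAtop := sup_eq_top_of_coatom_corefree hU hcore hA
  have hBtop := sup_eq_top_of_coatom_corefree hU hcore hB
  have hcompA : Subgroup.IsComplement' A U := by
    apply Subgroup.isComplement'_of_disjoint_and_mul_eq_univ (disjoint_iff.mpr hAU)
    rw [← Subgroup.normal_mul, hAtop]; rfl
  have hcompB : Subgroup.IsComplement' B U := by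
    apply Subgroup.isComplement'_of_disjoint_and_mul_eq_univ (disjoint_iff.mpr hBU)
    rw [← Subgroup.normal_mul, hBtop]; rfl
  have hnc : ¬ IsMulCommutative A := by
    intro hc
    apply hA
    have hle : A ≤ Subgroup.centralizer (A : Set G) := by
      intro a ha
      rw [Subgroup.mem_centralizer_iff]
      intro a' ha'
      have := hc.is_comm.comm (⟨a', ha'⟩ : A) ⟨a, ha⟩
      exact congrArg Subtype.val this
    rw [hCA] at hle
    have : A ≤ A ⊓ B := le_inf le_rfl hle
    rw [hdisj] at this
    exact le_bot_iff.mp this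
  obtain ⟨e1⟩ := iso_aux A B U hdisj hBU hBtop
  have hdisj' : B ⊓ A = ⊥ := by rw [inf_comm]; exact hdisj
  obtain ⟨e2⟩ := iso_aux B A U hdisj' hAU hAtop
  have hsupcomm : (B ⊔ A) ⊓ U = (A ⊔ B) ⊓ U := by rw [sup_comm]
  exact ⟨hCB, hCA, hcompA, hcompB, hnc,
    ⟨e1.trans ((MulEquiv.subgroupCongr hsupcomm.symm).trans e2.symm)⟩, ⟨e1⟩⟩

end Cfsg.Agent.S0550
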