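import Cfsg.Statements.S0551
import Cfsg.Agent.Lib.Helper5.CoreFree
import Cfsg.Agent.Lib.Helper5.MinNormal

set_option autoImplicit false
open Pointwise
open Cfsg

namespace Cfsg.Agent.S0551

open Cfsg.Agent.Lib.Helper5

theorem map_subtype_conj_smul {G : Type*} [Group G] (M : Subgroup G) (m : M) (X : Subgroup M) :
    Subgroup.map M.subtype (MulAut.conj m • X) =
      MulAut.conj (m : G) • Subgroup.map M.subtype X := by
  ext x
  constructor
  · rintro ⟨y, hy, rfl⟩
    rw [SetLike.mem_coe, Subgroup.mem_pointwise_smul_iff_inv_smul_mem] at hy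
    rw [Subgroup.mem_pointwise_smul_iff_inv_smul_mem]
    refine ⟨(MulAut.conj m)⁻¹ • y, hy, ?_⟩
    simp [MulAut.smul_def]
  · intro hx
    rw [Subgroup.mem_pointwise_smul_iff_inv_smul_mem] at hx
    obtain ⟨y, hy, hyx⟩ := hx
    refine ⟨MulAut.conj m • y, ?_, ?_⟩
    · rw [SetLike.mem_coe, Subgroup.smul_mem_pointwise_smul_iff]; exact hy
    · have hx' : x = MulAut.conj (m : G) • M.subtype y := by rw [hyx, smul_inv_smul]
      rw [hx']
      simp [MulAut.smul_def]

/-- In a finite solvable group all core-free maximal subgroups are conjugate. -/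
theorem result {G : Type*} [Group G] [Finite G] [Group.IsSolvable G] (U V : Subgroup G) (hU : IsCoatom U) (hV : IsCoatom V) (hUc : U.normalCore = ⊥) (hVc : V.normalCore = ⊥) : ∃ g : G, MulAut.conj g • U = V := by
  have htop : (⊤ : Subgroup G) ≠ ⊥ := by
    intro h
    apply hU.1
    rw [eq_top_iff, h]
    exact bot_le
  obtain ⟨N, hNn, hN0, -, hNmin⟩ := exists_minimal_normal ⊤ inferInstance htop
  have hNab := minimal_normal_comm hN0 hNmin
  have hNC : N ≤ Subgroup.centralizer (N : Set G) := fun a ha =>
    Subgroup.mem_centralizer_iff.mpr (fun b hb => hNab b hb a ha)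
  have hCN : Subgroup.centralizer (N : Set G) = N := by
    rcases centralizer_minimal hU hUc hN0 N hNn hNC with h | h
    · exact absurd h hN0
    · exact h.symm
  have hNU : N ⊓ U = ⊥ := by
    have := centralizer_inf_eq_bot hU hUc hN0
    rwa [hCN] at this
  have hNV : N ⊓ V = ⊥ := by
    have := centralizer_inf_eq_bot hV hVc hN0
    rwa [hCN] at this
  have hNUtop := sup_eq_top_of_coatom_corefree hU hUc hN0
  have hNVtop := sup_eq_top_of_coatom_corefree hV hVc hN0
  by_cases hNtop : N = ⊤
  · have hU0 : U = ⊥ := by rw [hNtop, top_inf_eq] at hNU; exact hNU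
    have hV0 : V = ⊥ := by rw [hNtop, top_inf_eq] at hNV; exact hNV
    exact ⟨1, by rw [hU0, hV0]; simp⟩
  · obtain ⟨M, hMn, hNM, -, hMmin⟩ :=
      exists_minimal_normal_between N ⊤ inferInstance (lt_top_iff_ne_top.mpr hNtop)
    obtain ⟨p, hp, hNp⟩ := minimal_normal_isPGroup hN0 hNmin
    obtain ⟨q, hq, hMq⟩ := minimal_over_isPGroup hNM hMmin
    have hqp : q ≠ p := by
      intro hqp
      subst hqp
      have := Fact.mk hq
      have hMp : IsPGroup q M := by
        have h1 := hMq.comap_of_ker_isPGroup (QuotientGroup.mk' N)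
          (by rw [QuotientGroup.ker_mk']; exact hNp)
        rw [Subgroup.comap_map_eq, QuotientGroup.ker_mk', sup_of_le_left hNM.le] at h1
        exact h1
      have hMnil : Group.IsNilpotent M := hMp.isNilpotent
      have hcomm_le : ⁅N, M⁆ ≤ N := Subgroup.commutator_le_left N M
      rcases hNmin ⁅N, M⁆ inferInstance hcomm_le with h | h
      · have h2 : M ≤ Subgroup.centralizer (N : Set G) := by
          rw [Subgroup.commutator_comm, Subgroup.commutator_eq_bot_iff_le_centralizer] at h
          exact h
        rw [hCN] at h2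
        exact not_le_of_gt hNM h2
      · exact hN0 (eq_bot_of_commutator_eq_self hMnil hNM.le h)
    have := Fact.mk hq
    have := Fact.mk hp
    have key : ∀ W : Subgroup G, N ⊓ W = ⊥ → N ⊔ W = ⊤ → W.normalCore = ⊥ → IsCoatom W →
        ∃ (P : Sylow q M), (P : Subgroup M) = W.subgroupOf M ∧
          Subgroup.normalizer ((M ⊓ W : Subgroup G) : Set G) = W := by
      intro W hNW hNWtop hWc hW
      have hqW : IsPGroup q (W.subgroupOf M) := by
        intro x
        have hxM : ((x : M) : G) ∈ M := (x : M).2
        have hxW : ((x : M) : G) ∈ W := Subgroup.mem_subgroupOf.mp x.2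
        obtain ⟨k, hk⟩ := hMq ⟨QuotientGroup.mk' N ((x : M) : G), Subgroup.mem_map_of_mem _ hxM⟩
        refine ⟨k, ?_⟩
        have h1 : (QuotientGroup.mk' N ((x : M) : G)) ^ q ^ k = 1 := by
          have := congrArg Subtype.val hk
          simpa using this
        rw [← map_pow, QuotientGroup.mk'_apply, QuotientGroup.eq_one_iff] at h1
        have h2 : ((x : M) : G) ^ q ^ k ∈ N ⊓ W := ⟨h1, W.pow_mem hxW _⟩
        rw [hNW, Subgroup.mem_bot] at h2
        apply Subtype.ext; apply Subtype.ext
        simpa using h2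
      have hcompl : (N.subgroupOf M).IsComplement' (W.subgroupOf M) := by
        apply Subgroup.isComplement'_of_disjoint_and_mul_eq_univ
        · rw [disjoint_iff, eq_bot_iff]
          rintro x ⟨hx1, hx2⟩
          have h3 : (x : G) ∈ N ⊓ W := ⟨hx1, hx2⟩
          rw [hNW, Subgroup.mem_bot] at h3
          rw [Subgroup.mem_bot]
          exact Subtype.ext h3
        · rw [Set.eq_univ_iff_forall]
          intro m
          obtain ⟨n, hn, w, hw, hmnw⟩ := exists_mul_of_sup_eq_top hNWtop (m : G)
          have hwM : w ∈ M := by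
            have h4 := M.mul_mem (M.inv_mem (hNM.le hn)) m.2
            rw [hmnw] at h4
            simpa using h4
          refine ⟨⟨n, hNM.le hn⟩, ?_, ⟨w, hwM⟩, ?_, ?_⟩
          · exact hn
          · exact hw
          · exact Subtype.ext hmnw.symm
      have hidx : (W.subgroupOf M).index = Nat.card (N.subgroupOf M) := hcompl.index_eq_card
      have hNsub : IsPGroup p (N.subgroupOf M) := hNp.comap_subtype
      obtain ⟨a, ha⟩ := IsPGroup.iff_card.mp hNsub
      have hnd : ¬ q ∣ (W.subgroupOf M).index := by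
        rw [hidx, ha]
        intro hdvd
        exact hqp ((Nat.prime_dvd_prime_iff_eq hq hp).mp (hq.dvd_of_dvd_pow hdvd))
      have hWle : W ≤ Subgroup.normalizer ((M ⊓ W : Subgroup G) : Set G) := by
        intro w hw
        rw [Subgroup.mem_normalizer_iff]
        intro x
        constructor
        · rintro ⟨hxM, hxW⟩
          exact ⟨hMn.conj_mem x hxM w, W.mul_mem (W.mul_mem hw hxW) (W.inv_mem hw)⟩
        · rintro ⟨hxM, hxW⟩
          refine ⟨?_, ?_⟩
          · have h5 := hMn.conj_mem _ hxM w⁻¹
            simpa [mul_assoc] using h5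
          · have h5 := W.mul_mem (W.mul_mem (W.inv_mem hw) hxW) hw
            simpa [mul_assoc] using h5
      have hne : Subgroup.normalizer ((M ⊓ W : Subgroup G) : Set G) ≠ ⊤ := by
        intro h
        have hnorm : (M ⊓ W).Normal := Subgroup.normalizer_eq_top_iff.mp h
        have h1 : M ⊓ W ≤ W.normalCore := Subgroup.normal_le_normalCore.mpr inf_le_right
        rw [hWc] at h1
        apply not_le_of_gt hNM
        intro m hm
        obtain ⟨n, hn, w, hw, rfl⟩ := exists_mul_of_sup_eq_top hNWtop m
        have hwM : w ∈ M := by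
          have h4 := M.mul_mem (M.inv_mem (hNM.le hn)) hm
          simpa using h4
        have h6 : w ∈ M ⊓ W := ⟨hwM, hw⟩
        have h7 := h1 h6
        rw [Subgroup.mem_bot] at h7
        rw [h7, mul_one]
        exact hn
      have heq : Subgroup.normalizer ((M ⊓ W : Subgroup G) : Set G) = W := by
        by_contra hcon
        exact hne (hW.2 _ (lt_of_le_of_ne hWle (Ne.symm hcon)))
      exact ⟨hqW.toSylow hnd, rfl, heq⟩
    obtain ⟨PU, hPU, hnU⟩ := key U hNU hNUtop hUc hU
    obtain ⟨PV, hPV, hnV⟩ := key V hNV hNVtop hVc hV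
    obtain ⟨m, hm⟩ := MulAction.exists_smul_eq M PU PV
    refine ⟨(m : G), ?_⟩
    have h1 : (MulAut.conj (m : G)) • (M ⊓ U) = M ⊓ V := by
      have h2 : ((m • PU : Sylow q M) : Subgroup M) = MulAut.conj m • (PU : Subgroup M) :=
        Sylow.coe_subgroup_smul
      rw [hm, hPU, hPV] at h2
      have h3 := congrArg (Subgroup.map M.subtype) h2
      rw [Subgroup.subgroupOf_map_subtype] at h3
      rw [inf_comm M V, h3, inf_comm M U, ← Subgroup.subgroupOf_map_subtype]
      exact (map_subtype_conj_smul M m _).symm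
    rw [← hnU, ← hnV, ← h1]
    exact Subgroup.map_equiv_normalizer_eq _ (MulAut.conj (m : G))

end Cfsg.Agent.S0551
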