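import Cfsg.Statements.S0552
import Cfsg.Agent.S0044

namespace Cfsg.Agent.S0552

theorem result {G : Type*} [Group G] [Finite G] [Group.IsSolvable G] (σ : G ≃* G) (hσ : ∀ x ∈ Cfsg.fittingSubgroup G, σ x = x) (hne : σ ≠ MulEquiv.refl G) : ¬ (orderOf σ).Coprime (Nat.card G) := by
  intro hcop
  apply hne
  have hFn : (Cfsg.fittingSubgroup G).Normal := Subgroup.sSup_normal _ (fun _ h => h.1)
  have hC := Cfsg.Agent.S0044.result (G := G)
  have hf : ∀ g : G, g⁻¹ * σ g ∈ Cfsg.fittingSubgroup G := by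
    intro g
    apply hC
    rw [Subgroup.mem_centralizer_iff]
    intro x hx
    have h1 : σ (g * x * g⁻¹) = g * x * g⁻¹ := hσ _ (hFn.conj_mem x hx g)
    rw [map_mul, map_mul, hσ x hx, map_inv] at h1
    have h2 : σ g * x = g * x * g⁻¹ * σ g := by rw [← h1]; group
    calc x * (g⁻¹ * σ g) = g⁻¹ * (g * x * g⁻¹ * σ g) := by group
      _ = g⁻¹ * (σ g * x) := by rw [h2]
      _ = g⁻¹ * σ g * x := by group
  have hpow : ∀ (g : G) (k : ℕ), (σ ^ k) g = g * (g⁻¹ * σ g) ^ k := by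
    intro g k
    induction k with
    | zero => simp
    | succ k ih =>
      have h1 : (σ ^ (k + 1)) g = σ ((σ ^ k) g) := by
        rw [pow_succ']; rfl
      rw [h1, ih, map_mul, map_pow, hσ _ (hf g), pow_succ', ← mul_assoc g, mul_inv_cancel_left]
  apply MulEquiv.ext
  intro g
  have h1 : (σ ^ orderOf σ) g = g := by rw [pow_orderOf_eq_one]; rfl
  rw [hpow] at h1
  have h2 : (g⁻¹ * σ g) ^ orderOf σ = 1 := by simpa using h1
  have h3 : orderOf (g⁻¹ * σ g) ∣ orderOf σ := orderOf_dvd_of_pow_eq_one h2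
  have h4 : orderOf (g⁻¹ * σ g) ∣ Nat.card G := orderOf_dvd_natCard _
  have h5 : orderOf (g⁻¹ * σ g) = 1 := Nat.eq_one_of_dvd_coprimes hcop h3 h4
  rw [orderOf_eq_one_iff] at h5
  have h6 : σ g = g := by
    have := congrArg (fun t => g * t) h5
    simpa using this
  simpa using h6

end Cfsg.Agent.S0552
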