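import Cfsg.Statements.S0553
import Cfsg.Agent.Lib.Helper5.MinNormal
import Cfsg.Agent.Lib.Helper5.SylowQuot
import Cfsg.Agent.Lib.Helper5.IndexAux

namespace Cfsg.Agent.S0553

open Cfsg.Agent.Lib.Helper5

theorem result {G : Type*} [Group G] [Finite G] [Group.IsSolvable G] [Nontrivial G] (h : ∀ M : Subgroup G, IsCoatom M → (Nat.card M).Coprime M.index) : ∃ p : ℕ, p.Prime ∧ p ∣ Nat.card G ∧ ∀ P : Sylow p G, (P : Subgroup G).Normal := by
  classical
  set F := frattini G with hF
  have hFn : F.Normal := inferInstance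
  have hFne : F ≠ ⊤ := by
    obtain ⟨M0, hM0⟩ := (eq_top_or_exists_le_coatom (⊥ : Subgroup G)).resolve_left bot_ne_top
    intro hFt
    have := frattini_le_coatom hM0.1
    rw [← hF, hFt] at this
    exact hM0.1.1 (top_le_iff.mp this)
  obtain ⟨N, hNn, hFN, -, hmin⟩ :=
    exists_minimal_normal_between F ⊤ Subgroup.normal_top (lt_top_iff_ne_top.mpr hFne)
  obtain ⟨p, hp, hNp⟩ := minimal_over_isPGroup hFN hmin
  have : Fact p.Prime := ⟨hp⟩
  -- a maximal subgroup not containing N
  have hexM : ∃ M : Subgroup G, IsCoatom M ∧ ¬ N ≤ M := by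
    by_contra hcon
    push Not at hcon
    have : N ≤ F := by
      rw [hF]
      refine le_iInf fun M => le_iInf fun hM => ?_
      exact hcon M hM
    exact not_le_of_gt hFN this
  obtain ⟨M, hM, hNM⟩ := hexM
  have hsup : M ⊔ N = ⊤ := by
    apply hM.2
    refine lt_of_le_of_ne le_sup_left ?_
    intro heq
    apply hNM
    rw [heq]
    exact le_sup_right
  have hidx : M.index = M.relIndex N := index_eq_relIndex_of_sup_eq_top M N hsup
  have hFM : F ≤ M := frattini_le_coatom hM
  obtain ⟨n, hn⟩ := IsPGroup.iff_card.mp hNp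
  have hFrel : F.relIndex N = p ^ n := by
    have h1 := Subgroup.relIndex_comap (H := (⊥ : Subgroup (G ⧸ F))) (QuotientGroup.mk' F) N
    rw [Subgroup.relIndex_bot_left, hn] at h1
    rw [← h1]
    congr 1
    rw [MonoidHom.comap_bot, QuotientGroup.ker_mk']
  have hMdvd : M.index ∣ p ^ n := by
    rw [hidx, ← hFrel]
    exact Subgroup.relIndex_dvd_of_le_left N hFM
  have hpM : p ∣ M.index := by
    obtain ⟨j, -, hj⟩ := (Nat.dvd_prime_pow hp).mp hMdvd
    rcases Nat.eq_zero_or_pos j with h0 | h0
    · exfalso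
      rw [h0, pow_zero, Subgroup.index_eq_one] at hj
      exact hM.1 hj
    · rw [hj]
      exact dvd_pow_self p h0.ne'
  have hpcM : ¬ p ∣ Nat.card M := by
    intro hd
    have := Nat.dvd_gcd hd hpM
    rw [(h M hM)] at this
    exact hp.one_lt.ne' (Nat.dvd_one.mp this)
  have hpG : p ∣ Nat.card G := hpM.trans (Subgroup.index_dvd_card M)
  have hNidx : ¬ p ∣ N.index := by
    intro hd
    apply hpcM
    have h1 : N.index = N.relIndex M := by
      rw [← Subgroup.relIndex_top_right, ← hsup, Subgroup.relIndex_sup_right]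
    rw [h1] at hd
    exact hd.trans (Subgroup.relIndex_dvd_card N M)
  obtain ⟨P0⟩ : Nonempty (Sylow p N) := inferInstance
  set P : Subgroup G := (P0 : Subgroup N).map N.subtype with hP
  have hfr : Subgroup.normalizer (P : Set G) ⊔ N = ⊤ := Sylow.normalizer_sup_eq_top P0
  have hNle : N ≤ Subgroup.normalizer (P : Set G) ⊔ F := by
    intro x hx
    have hCn : (F.subgroupOf N).Normal := inferInstance
    have hcardq : Nat.card (N ⧸ F.subgroupOf N) = p ^ n := hFrel
    have hq : IsPGroup p (N ⧸ F.subgroupOf N) := IsPGroup.of_card hcardq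
    have hq' : IsPGroup p (⊤ : Subgroup (N ⧸ F.subgroupOf N)) := hq.to_subgroup ⊤
    obtain ⟨s, hs, c, hc, hxsc⟩ := exists_mul_of_mem_normal_pgroup_quot (F.subgroupOf N) ⊤ hq'
      (⟨x, hx⟩ : N) (Subgroup.mem_top _) P0
    have hx' : x = (s : G) * (c : G) := by
      have := congrArg Subtype.val hxsc
      simpa using this
    rw [hx']
    apply Subgroup.mul_mem
    · apply Subgroup.mem_sup_left
      apply Subgroup.le_normalizer
      exact Subgroup.mem_map_of_mem _ hs
    · apply Subgroup.mem_sup_right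
      exact Subgroup.mem_subgroupOf.mp hc
  have htop : Subgroup.normalizer (P : Set G) ⊔ F = ⊤ := by
    rw [eq_top_iff, ← hfr]
    exact sup_le le_sup_left hNle
  have hnorm : Subgroup.normalizer (P : Set G) = ⊤ := frattini_nongenerating htop
  have hPn : P.Normal := Subgroup.normalizer_eq_top_iff.mp hnorm
  have hPp : IsPGroup p P := P0.isPGroup'.map _
  have hPidx : ¬ p ∣ P.index := by
    rw [hP, Subgroup.index_map_subtype]
    exact hp.not_dvd_mul P0.not_dvd_index hNidx
  refine ⟨p, hp, hpG, fun S => ?_⟩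
  have hPS : P ≤ S := hPp.le_sylow_of_normal S
  have hcard : Nat.card S ≤ Nat.card P := by
    obtain ⟨m, hm⟩ := IsPGroup.iff_card.mp S.isPGroup'
    have h1 : Nat.card (S : Subgroup G) ∣ Nat.card P * P.index := by
      rw [Subgroup.card_mul_index]
      exact Subgroup.card_subgroup_dvd_card _
    have h2 : Nat.Coprime (Nat.card (S : Subgroup G)) P.index := by
      rw [hm]
      exact Nat.Coprime.pow_left _ ((Nat.Prime.coprime_iff_not_dvd hp).mpr hPidx)
    exact Nat.le_of_dvd Nat.card_pos (h2.dvd_of_dvd_mul_right h1)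
  have hEq : P = S := Subgroup.eq_of_le_of_card_ge hPS hcard
  rw [← hEq]
  exact hPn

end Cfsg.Agent.S0553
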