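import Cfsg.Statements.S0554
import Cfsg.Agent.Lib.Helper5.MinNormal

namespace Cfsg.Agent.S0554

open Cfsg.Agent.Lib.Helper5
open scoped Pointwise

universe u

theorem one_mem_prod {G : Type u} [Group G] (L : List (Subgroup G)) :
    (1 : G) ∈ (L.map (fun H : Subgroup G => (H : Set G))).prod := by
  induction L with
  | nil => simp
  | cons H L ih =>
    rw [List.map_cons, List.prod_cons]
    exact ⟨1, H.one_mem, 1, ih, by simp⟩

theorem set_mul_normal {G : Type u} [Group G] (N : Subgroup G) [hN : N.Normal] (S : Set G) :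
    S * (N : Set G) = (N : Set G) * S := by
  ext x
  constructor
  · rintro ⟨s, hs, n, hn, rfl⟩
    exact ⟨s * n * s⁻¹, hN.conj_mem n hn s, s, hs, by group⟩
  · rintro ⟨n, hn, s, hs, rfl⟩
    refine ⟨s, hs, s⁻¹ * n * s, ?_, by group⟩
    have := hN.conj_mem n hn s⁻¹
    simpa using this

theorem subgroup_mul_le {G : Type u} [Group G] (N H : Subgroup G) (h : N ≤ H) :
    (H : Set G) * (N : Set G) = (H : Set G) := by
  ext x
  constructor
  · rintro ⟨a, ha, n, hn, rfl⟩
    exact H.mul_mem ha (h hn)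
  · intro hx
    exact ⟨x, hx, 1, N.one_mem, by simp⟩

theorem absorb {G : Type u} [Group G] (N : Subgroup G) [N.Normal] (L : List (Subgroup G))
    (H : Subgroup G) (hH : H ∈ L) (hNH : N ≤ H) :
    (L.map (fun H : Subgroup G => (H : Set G))).prod * (N : Set G)
      = (L.map (fun H : Subgroup G => (H : Set G))).prod := by
  obtain ⟨L1, L2, rfl⟩ := List.append_of_mem hH
  rw [List.map_append, List.prod_append, List.map_cons, List.prod_cons]
  rw [mul_assoc, mul_assoc, set_mul_normal N, ← mul_assoc (H : Set G), subgroup_mul_le N H hNH]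

theorem prod_eq_univ : ∀ (n : ℕ) (G : Type u) [Group G] [Finite G] [Group.IsSolvable G]
    (L : List (Subgroup G)), Nat.card G = n →
    (∀ q : ℕ, q.Prime → q ∣ Nat.card G → ∃ H ∈ L, ∃ P : Sylow q G, (P : Subgroup G) ≤ H) →
    (L.map (fun H : Subgroup G => (H : Set G))).prod = Set.univ := by
  intro n
  induction n using Nat.strong_induction_on with
  | _ n ih =>
  intro G _ _ _ L hcard hL
  by_cases htriv : Subsingleton G
  · apply Set.eq_univ_of_forall
    intro g
    rw [Subsingleton.elim g 1]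
    exact one_mem_prod L
  · have hnt : Nontrivial G := not_subsingleton_iff_nontrivial.mp htriv
    obtain ⟨N, hNn, hNne, -, hNmin⟩ :=
      exists_minimal_normal (⊤ : Subgroup G) Subgroup.normal_top top_ne_bot
    have hNn' : N.Normal := hNn
    obtain ⟨q, hq, hNq⟩ := minimal_normal_isPGroup hNne hNmin
    have hqf : Fact q.Prime := ⟨hq⟩
    obtain ⟨k, hk⟩ := IsPGroup.iff_card.mp hNq
    have hcardN : Nat.card N ≠ 1 := fun h => hNne (Subgroup.card_eq_one.mp h)
    have hqN : q ∣ Nat.card N := by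
      rw [hk]
      rcases Nat.eq_zero_or_pos k with h0 | h0
      · exfalso; rw [h0, pow_zero] at hk; exact hcardN hk
      · exact dvd_pow_self q h0.ne'
    have hqG : q ∣ Nat.card G := hqN.trans (Subgroup.card_subgroup_dvd_card N)
    obtain ⟨H, hHL, P, hPH⟩ := hL q hq hqG
    have hNH : N ≤ H := (hNq.le_sylow_of_normal P).trans hPH
    -- quotient
    have hlt : Nat.card (G ⧸ N) < n := by
      rw [← hcard, Subgroup.card_eq_card_quotient_mul_card_subgroup N]
      have h2 : 2 ≤ Nat.card N := by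
        have := Nat.card_pos (α := N)
        omega
      have h3 : 0 < Nat.card (G ⧸ N) := Nat.card_pos
      nlinarith
    have hL' : ∀ q' : ℕ, q'.Prime → q' ∣ Nat.card (G ⧸ N) →
        ∃ H' ∈ L.map (Subgroup.map (QuotientGroup.mk' N)), ∃ P' : Sylow q' (G ⧸ N),
          (P' : Subgroup (G ⧸ N)) ≤ H' := by
      intro q' hq' hdvd
      have hq'f : Fact q'.Prime := ⟨hq'⟩
      obtain ⟨H1, hH1, P1, hP1⟩ := hL q' hq' (hdvd.trans (Subgroup.card_quotient_dvd_card N))
      refine ⟨H1.map (QuotientGroup.mk' N), List.mem_map_of_mem hH1,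
        P1.mapSurjective (QuotientGroup.mk'_surjective N), ?_⟩
      rw [Sylow.coe_mapSurjective]
      exact Subgroup.map_mono hP1
    have hq := ih _ hlt (G ⧸ N) (L.map (Subgroup.map (QuotientGroup.mk' N))) rfl hL'
    have himg : ((L.map (Subgroup.map (QuotientGroup.mk' N))).map
        (fun H : Subgroup (G ⧸ N) => (H : Set (G ⧸ N)))).prod
        = (QuotientGroup.mk' N) '' (L.map (fun H : Subgroup G => (H : Set G))).prod := by
      rw [Set.image_list_prod, List.map_map, List.map_map]
      congr 1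
    rw [← absorb N L H hHL hNH]
    apply Set.eq_univ_of_forall
    intro g
    have hg : (QuotientGroup.mk' N) g ∈ (QuotientGroup.mk' N) ''
        (L.map (fun H : Subgroup G => (H : Set G))).prod := by
      rw [← himg, hq]; exact Set.mem_univ _
    obtain ⟨x, hx, hxg⟩ := hg
    refine ⟨x, hx, x⁻¹ * g, ?_, by group⟩
    exact QuotientGroup.eq.mp hxg

theorem result {G : Type*} [Group G] [Finite G] [Group.IsSolvable G] (t : ℕ) (p : Fin t → ℕ) (hp : ∀ i, (p i).Prime) (hinj : Function.Injective p) (hall : ∀ q : ℕ, q.Prime → q ∣ Nat.card G → ∃ i, p i = q) (S : (i : Fin t) → Sylow (p i) G) : ∀ g : G, ∃ s : (i : Fin t) → G, (∀ i, s i ∈ (S i : Subgroup G)) ∧ g = (List.ofFn s).prod := by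
  intro g
  have h1 := prod_eq_univ (Nat.card G) G (List.ofFn (fun i => (S i : Subgroup G))) rfl (by
    intro q hq hdvd
    obtain ⟨i, rfl⟩ := hall q hq hdvd
    exact ⟨(S i : Subgroup G), (List.mem_ofFn' _ _).mpr ⟨i, rfl⟩, S i, le_rfl⟩)
  rw [List.map_ofFn] at h1
  have h2 : g ∈ (List.ofFn ((fun H : Subgroup G => (H : Set G)) ∘ fun i => (S i : Subgroup G))).prod := by
    rw [h1]; exact Set.mem_univ _
  rw [Set.mem_prod_list_ofFn] at h2
  obtain ⟨f, hf⟩ := h2
  exact ⟨fun i => (f i : G), fun i => (f i).2, hf.symm⟩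

end Cfsg.Agent.S0554
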