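import Cfsg.Statements.S0555
import Mathlib

set_option autoImplicit false
open Pointwise
open Cfsg
open scoped commutatorElement

namespace Cfsg.Agent.S0555

theorem cyclic_quot {G : Type*} [Group G] (Q R : Subgroup G)
    (hR : (R.subgroupOf Q).Normal) (h : IsCyclic (↥Q ⧸ R.subgroupOf Q)) :
    ∃ q ∈ Q, ∀ x ∈ Q, ∃ k : ℤ, (q ^ k)⁻¹ * x ∈ R := by
  obtain ⟨g, hg⟩ := h.exists_generator
  obtain ⟨q, rfl⟩ := QuotientGroup.mk_surjective g
  refine ⟨q, q.2, ?_⟩
  intro x hx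
  obtain ⟨k, hk⟩ := Subgroup.mem_zpowers_iff.mp (hg (QuotientGroup.mk ⟨x, hx⟩))
  refine ⟨k, ?_⟩
  rw [← QuotientGroup.mk_zpow, QuotientGroup.eq] at hk
  exact hk

/-- Let i ≥ 1. If in the derived series of a group the quotient of the i-th term by the (i+1)-st and the quotient of the (i+1)-st by the (i+2)-nd are both cyclic, then the (i+1)-st and (i+2)-nd terms coincide. -/
theorem result {G : Type*} [Group G] (i : ℕ) (hi : 1 ≤ i) (h₁ : IsCyclic (↥(derivedSeries G i) ⧸ (derivedSeries G (i + 1)).subgroupOf (derivedSeries G i))) (h₂ : IsCyclic (↥(derivedSeries G (i + 1)) ⧸ (derivedSeries G (i + 2)).subgroupOf (derivedSeries G (i + 1)))) : derivedSeries G (i + 1) = derivedSeries G (i + 2) := by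
  have hSn : (derivedSeries G (i + 2)).Normal := derivedSeries_normal G (i + 2)
  have hRn : (derivedSeries G (i + 1)).Normal := derivedSeries_normal G (i + 1)
  have hRQ : derivedSeries G (i + 1) = ⁅derivedSeries G i, derivedSeries G i⁆ := derivedSeries_succ G i
  have hSR : derivedSeries G (i + 2) = ⁅derivedSeries G (i + 1), derivedSeries G (i + 1)⁆ :=
    derivedSeries_succ G (i + 1)
  have hQle : derivedSeries G i ≤ commutator G := by
    obtain ⟨j, rfl⟩ : ∃ j, i = j + 1 := ⟨i - 1, by omega⟩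
    rw [derivedSeries_succ, commutator_def]
    exact Subgroup.commutator_mono le_top le_top
  have hRleQ : derivedSeries G (i + 1) ≤ derivedSeries G i := derivedSeries_antitone G (Nat.le_succ i)
  have hSleR : derivedSeries G (i + 2) ≤ derivedSeries G (i + 1) :=
    derivedSeries_antitone G (Nat.le_succ (i + 1))
  obtain ⟨r, hrR, hr⟩ := cyclic_quot _ _ inferInstance h₂
  obtain ⟨q0, hq0Q, hq0⟩ := cyclic_quot _ _ inferInstance h₁
  clear h₁ h₂
  generalize derivedSeries G i = Q at *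
  generalize derivedSeries G (i + 1) = R at *
  generalize derivedSeries G (i + 2) = S at *
  set π := QuotientGroup.mk' S with hπ
  have hRpow : ∀ x ∈ R, ∃ k : ℤ, π x = (π r) ^ k := by
    intro x hx
    obtain ⟨k, hk⟩ := hr x hx
    refine ⟨k, ?_⟩
    rw [← map_zpow]
    exact (QuotientGroup.eq.mpr hk).symm
  have hconj : ∀ x : G ⧸ S, ∃ k : ℤ, x * π r * x⁻¹ = (π r) ^ k := by
    intro x
    obtain ⟨g, rfl⟩ := QuotientGroup.mk'_surjective S x
    obtain ⟨k, hk⟩ := hRpow (g * r * g⁻¹) (hRn.conj_mem r hrR g)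
    exact ⟨k, by rw [← hk, map_mul, map_mul, map_inv]⟩
  have hxy : ∀ x y : G ⧸ S, ∀ m : ℤ,
      (x * y) * (π r) ^ m * (x * y)⁻¹ = (y * x) * (π r) ^ m * (y * x)⁻¹ := by
    intro x y m
    obtain ⟨k, hk⟩ := hconj x
    obtain ⟨l, hl⟩ := hconj y
    have e1 : (x * y) * (π r) ^ m * (x * y)⁻¹ = (π r) ^ (k * (l * m)) := by
      calc (x * y) * (π r) ^ m * (x * y)⁻¹ = x * (y * (π r) ^ m * y⁻¹) * x⁻¹ := by group
        _ = x * (((π r) ^ l) ^ m) * x⁻¹ := by rw [← conj_zpow, hl]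
        _ = x * (π r) ^ (l * m) * x⁻¹ := by rw [← zpow_mul]
        _ = ((π r) ^ k) ^ (l * m) := by rw [← conj_zpow, hk]
        _ = (π r) ^ (k * (l * m)) := by rw [← zpow_mul]
    have e2 : (y * x) * (π r) ^ m * (y * x)⁻¹ = (π r) ^ (l * (k * m)) := by
      calc (y * x) * (π r) ^ m * (y * x)⁻¹ = y * (x * (π r) ^ m * x⁻¹) * y⁻¹ := by group
        _ = y * (((π r) ^ k) ^ m) * y⁻¹ := by rw [← conj_zpow, hk]
        _ = y * (π r) ^ (k * m) * y⁻¹ := by rw [← zpow_mul]
        _ = ((π r) ^ l) ^ (k * m) := by rw [← conj_zpow, hl]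
        _ = (π r) ^ (l * (k * m)) := by rw [← zpow_mul]
    rw [e1, e2]
    congr 1
    ring
  have hcomm : ∀ x y : G ⧸ S, ⁅x, y⁆ * π r = π r * ⁅x, y⁆ := by
    intro x y
    obtain ⟨m, hm⟩ := hconj (y * x)⁻¹
    have h1 := hxy x y m
    rw [← hm] at h1
    generalize π r = rb at *
    have h2 : ⁅x, y⁆ * rb * ⁅x, y⁆⁻¹ = rb := by
      calc ⁅x, y⁆ * rb * ⁅x, y⁆⁻¹
          = (x * y) * ((y * x)⁻¹ * rb * (y * x)⁻¹⁻¹) * (x * y)⁻¹ := by
            rw [commutatorElement_def]; group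
        _ = (y * x) * ((y * x)⁻¹ * rb * (y * x)⁻¹⁻¹) * (y * x)⁻¹ := h1
        _ = rb := by group
    calc ⁅x, y⁆ * rb = (⁅x, y⁆ * rb * ⁅x, y⁆⁻¹) * ⁅x, y⁆ := by group
      _ = rb * ⁅x, y⁆ := by rw [h2]
  have hcen : commutator (G ⧸ S) ≤ Subgroup.centralizer {π r} := by
    rw [commutator_eq_closure, Subgroup.closure_le]
    rintro c ⟨x, y, rfl⟩
    rw [SetLike.mem_coe, Subgroup.mem_centralizer_iff]
    intro z hz
    rw [Set.mem_singleton_iff] at hz
    rw [hz]
    exact (hcomm x y).symm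
  have hQR : ∀ q ∈ Q, ∀ x ∈ R, Commute (π q) (π x) := by
    intro q hq x hx
    have hq' : π q ∈ commutator (G ⧸ S) := by
      have h3 : π q ∈ (commutator G).map π := Subgroup.mem_map_of_mem _ (hQle hq)
      rw [commutator_def, Subgroup.map_commutator] at h3
      rw [commutator_def]
      exact Subgroup.commutator_mono le_top le_top h3
    have h4 : Commute (π q) (π r) := by
      have := Subgroup.mem_centralizer_iff.mp (hcen hq') (π r) (Set.mem_singleton _)
      exact this.symm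
    obtain ⟨k, hk⟩ := hRpow x hx
    rw [hk]
    exact h4.zpow_right k
  apply le_antisymm _ hSleR
  rw [hRQ, Subgroup.commutator_le]
  intro x hx y hy
  rw [← QuotientGroup.eq_one_iff, ← QuotientGroup.mk'_apply, map_commutatorElement,
    commutatorElement_eq_one_iff_commute]
  obtain ⟨k, hk⟩ := hq0 x hx
  obtain ⟨l, hl⟩ := hq0 y hy
  have hx' : x = q0 ^ k * ((q0 ^ k)⁻¹ * x) := by group
  have hy' : y = q0 ^ l * ((q0 ^ l)⁻¹ * y) := by group
  rw [hx', hy', map_mul, map_mul]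
  have hqk : q0 ^ k ∈ Q := Q.zpow_mem hq0Q k
  have hql : q0 ^ l ∈ Q := Q.zpow_mem hq0Q l
  have c1 : Commute (π (q0 ^ k)) (π (q0 ^ l)) :=
    Commute.map ((Commute.refl q0).zpow_zpow k l) π
  have c2 := hQR _ hqk _ hl
  have c3 := (hQR _ hql _ hk).symm
  have c4 := hQR _ (hRleQ hk) _ hl
  exact Commute.mul_left (Commute.mul_right c1 c2) (Commute.mul_right c3 c4)

end Cfsg.Agent.S0555
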