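import Cfsg.Statements.S0556
import Mathlib
import Cfsg.Agent.Lib.Lead.FrobeniusMore
import Cfsg.Agent.Lib.Helper24.FrobComplement
import Cfsg.Agent.Lib.Helper1.CoprimeSylow
import Cfsg.Agent.Lib.Helper1.SZ

set_option autoImplicit false
open Cfsg

namespace Cfsg.Agent.S0556

open scoped Pointwise commutatorElement
open Cfsg.Agent.Lib.Helper1 Cfsg.Agent.Lib.Lead

theorem frob_abelian_coatom {X : Type*} [Group X] [Finite X] (H : Subgroup X)
    (hH : Cfsg.IsFrobeniusComplement H) (hco : IsCoatom H)
    (hab : ∀ a ∈ H, ∀ b ∈ H, a * b = b * a) : derivedSeries X 2 = ⊥ := by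
  obtain ⟨K, hKdef⟩ : ∃ K, K = frobKer H hH := ⟨_, rfl⟩
  have hKn : K.Normal := hKdef ▸ frobKer_normal H hH
  have hKH : K ⊓ H = ⊥ := hKdef ▸ frobKer_inf H hH
  have hKsup : K ⊔ H = ⊤ := hKdef ▸ frobKer_sup H hH
  have hKne : K ≠ ⊥ := hKdef ▸ frobKer_ne_bot H hH
  have hcop : (Nat.card K).Coprime (Nat.card H) := hKdef ▸ frobKer_coprime H hH
  have hcompl : Subgroup.IsComplement' K H := hKdef ▸ frobKer_isComplement' H hH
  -- invariant subgroups of K
  have hinv : ∀ M : Subgroup X, M ≤ K → H ≤ Subgroup.normalizer (M : Set X) → M = ⊥ ∨ M = K := by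
    intro M hMK hHM
    rcases eq_or_ne (M ⊔ H) H with h | h
    · left
      have : M ≤ K ⊓ H := le_inf hMK (h ▸ le_sup_left)
      rw [hKH] at this
      exact le_bot_iff.mp this
    · right
      have htop : M ⊔ H = ⊤ := hco.2 _ (lt_of_le_of_ne le_sup_right (Ne.symm h))
      apply le_antisymm hMK
      intro k hk
      have hk' : k ∈ ((M ⊔ H : Subgroup X) : Set X) := by rw [htop]; trivial
      rw [Subgroup.coe_mul_of_right_le_normalizer_left M H hHM] at hk'
      obtain ⟨m, hm, h', hh', rfl⟩ := Set.mem_mul.mp hk'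
      have h1 : h' ∈ K ⊓ H := by
        refine Subgroup.mem_inf.mpr ⟨?_, hh'⟩
        have : h' = m⁻¹ * (m * h') := by group
        rw [this]
        exact K.mul_mem (K.inv_mem (hMK hm)) hk
      rw [hKH, Subgroup.mem_bot] at h1
      rw [h1, mul_one]
      exact hm
  -- K is a p-group
  have hKcard : Nat.card K ≠ 1 := fun h => hKne (Subgroup.card_eq_one.mp h)
  obtain ⟨p, hp, hpK⟩ := Nat.exists_prime_and_dvd hKcard
  haveI := Fact.mk hp
  haveI hHsolv : Group.IsSolvable H :=
    Group.isSolvable_of_comm (fun a b => Subtype.ext (hab a a.2 b b.2))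
  have hHK : H ≤ Subgroup.normalizer (K : Set X) := by
    rw [Subgroup.normalizer_eq_top_iff.mpr hKn]; exact le_top
  obtain ⟨P, hP⟩ := exists_invariant_sylow H K hHK hcop.symm (Or.inl hHsolv) p
  have hPK : (P : Subgroup K).map K.subtype = K := by
    rcases hinv _ (Subgroup.map_subtype_le _) hP with h | h
    · exfalso
      have h1 : Nat.card (P : Subgroup K) = 1 := by
        rw [← Subgroup.card_map_of_injective K.subtype_injective, h, Subgroup.card_bot]
      have h2 : p ∣ Nat.card (P : Subgroup K) := P.dvd_card_of_dvd_card hpK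
      rw [h1] at h2
      exact hp.one_lt.ne' (Nat.dvd_one.mp h2)
    · exact h
  have hPtop : (P : Subgroup K) = ⊤ := by
    apply Subgroup.map_injective K.subtype_injective
    rw [hPK, ← MonoidHom.range_eq_map, Subgroup.range_subtype]
  have hKp : IsPGroup p K := by
    have := P.isPGroup'
    rw [hPtop] at this
    exact this.of_equiv Subgroup.topEquiv
  -- K is abelian
  haveI hKnt : Nontrivial K := (Subgroup.nontrivial_iff_ne_bot K).mpr hKne
  have hKab : ∀ a ∈ K, ∀ b ∈ K, a * b = b * a := by
    obtain ⟨Z, hZdef⟩ : ∃ Z, Z = K ⊓ Subgroup.centralizer (K : Set X) := ⟨_, rfl⟩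
    haveI : (Subgroup.centralizer (K : Set X)).Normal := Subgroup.normal_centralizer
    have hZn : Z.Normal := hZdef ▸ Subgroup.normal_inf_normal _ _
    have hZK : Z ≤ K := hZdef ▸ inf_le_left
    have hHZ : H ≤ Subgroup.normalizer (Z : Set X) := by
      rw [Subgroup.normalizer_eq_top_iff.mpr hZn]; exact le_top
    have hZne : Z ≠ ⊥ := by
      have h1 := hKp.bot_lt_center
      obtain ⟨⟨z, hz⟩, hz1'⟩ := (Subgroup.ne_bot_iff_exists_ne_one).mp h1.ne'
      have hz1 : z ≠ 1 := fun h => hz1' (Subtype.ext h)
      intro hbot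
      have hzZ : (z : X) ∈ Z := by
        rw [hZdef]
        refine Subgroup.mem_inf.mpr ⟨z.2, ?_⟩
        rw [Subgroup.mem_centralizer_iff]
        intro k hk
        have := (Subgroup.mem_center_iff.mp hz) ⟨k, hk⟩
        exact congrArg Subtype.val this
      rw [hbot, Subgroup.mem_bot] at hzZ
      exact hz1 (Subtype.ext hzZ)
    have hZeq : Z = K := (hinv Z hZK hHZ).resolve_left hZne
    intro a ha b hb
    have ha' : a ∈ Z := hZeq ▸ ha
    rw [hZdef] at ha'
    exact ((Subgroup.mem_centralizer_iff.mp (Subgroup.mem_inf.mp ha').2) b hb).symm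
  -- commutators lie in K
  have hGK : ∀ x y : X, ⁅x, y⁆ ∈ K := by
    intro x y
    obtain ⟨a, ha, c, hc, rfl⟩ := IsComplement'.exists_mul hcompl x
    obtain ⟨b, hb, d, hd, rfl⟩ := IsComplement'.exists_mul hcompl y
    have ha' : QuotientGroup.mk' K a = 1 := (QuotientGroup.eq_one_iff a).mpr ha
    have hb' : QuotientGroup.mk' K b = 1 := (QuotientGroup.eq_one_iff b).mpr hb
    have hcd : QuotientGroup.mk' K c * QuotientGroup.mk' K d =
        QuotientGroup.mk' K d * QuotientGroup.mk' K c := by
      rw [← map_mul, ← map_mul, hab c hc d hd]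
    have h1 : (QuotientGroup.mk' K) (a * c * (b * d) * (a * c)⁻¹ * (b * d)⁻¹) = 1 := by
      simp only [map_mul, map_inv]
      rw [ha', hb']
      simp only [one_mul]
      rw [hcd]
      group
    rw [commutatorElement_def]
    exact (QuotientGroup.eq_one_iff _).mp h1
  have hD1 : derivedSeries X 1 ≤ K := by
    rw [derivedSeries_one, commutator_def, Subgroup.commutator_le]
    intro x _ y _
    exact hGK x y
  rw [show (2 : ℕ) = 1 + 1 from rfl, derivedSeries_succ, eq_bot_iff, Subgroup.commutator_le]
  intro x hx y hy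
  rw [Subgroup.mem_bot, commutatorElement_def, hKab x (hD1 hx) y (hD1 hy)]
  group

/-- If a finite group has a maximal subgroup that is abelian, then the third term of its derived series is trivial (so the group is solvable of derived length at most three). -/
theorem result {G : Type*} [Group G] [Finite G] (A : Subgroup G) (hA : IsCoatom A) [IsMulCommutative A] : derivedSeries G 3 = ⊥ := by
  have hAab : ∀ a ∈ A, ∀ b ∈ A, a * b = b * a := by
    intro a ha b hb
    exact congrArg Subtype.val (mul_comm' (⟨a, ha⟩ : A) ⟨b, hb⟩)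
  have hfin : ∀ D : Subgroup G, (∀ a ∈ D, ∀ b ∈ D, a * b = b * a) → derivedSeries G 2 ≤ D →
      derivedSeries G 3 = ⊥ := by
    intro D hD h2
    rw [show (3 : ℕ) = 2 + 1 from rfl, derivedSeries_succ, eq_bot_iff, Subgroup.commutator_le]
    intro x hx y hy
    rw [Subgroup.mem_bot, commutatorElement_def, hD x (h2 hx) y (h2 hy)]
    group
  by_cases hAn : A.Normal
  · -- normal case
    obtain ⟨x, hx⟩ : ∃ x, x ∉ A := by
      by_contra hcon
      push Not at hcon
      exact hA.1 (eq_top_iff.mpr fun g _ => hcon g)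
    have htop : A ⊔ Subgroup.zpowers x = ⊤ := by
      apply hA.2
      refine lt_of_le_of_ne le_sup_left ?_
      intro h
      exact hx (h ▸ (le_sup_right : Subgroup.zpowers x ≤ A ⊔ Subgroup.zpowers x)
        (Subgroup.mem_zpowers x))
    have hpow : ∀ g : G, QuotientGroup.mk' A g ∈ Subgroup.zpowers (QuotientGroup.mk' A x) := by
      intro g
      have h1 : QuotientGroup.mk' A g ∈ (A ⊔ Subgroup.zpowers x).map (QuotientGroup.mk' A) := by
        rw [htop]
        exact Subgroup.mem_map_of_mem _ (Subgroup.mem_top g)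
      rw [Subgroup.map_sup, QuotientGroup.map_mk'_self, bot_sup_eq, MonoidHom.map_zpowers] at h1
      exact h1
    have hGA : ∀ u v : G, ⁅u, v⁆ ∈ A := by
      intro u v
      obtain ⟨i, hi⟩ := Subgroup.mem_zpowers_iff.mp (hpow u)
      obtain ⟨j, hj⟩ := Subgroup.mem_zpowers_iff.mp (hpow v)
      have h1 : (QuotientGroup.mk' A) (u * v * u⁻¹ * v⁻¹) = 1 := by
        simp only [map_mul, map_inv]
        rw [← hi, ← hj]
        rw [← zpow_add, ← zpow_neg, ← zpow_add, ← zpow_neg, ← zpow_add]
        have : i + j + -i + -j = 0 := by ring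
        rw [this, zpow_zero]
      rw [commutatorElement_def]
      exact (QuotientGroup.eq_one_iff _).mp h1
    have hD1 : derivedSeries G 1 ≤ A := by
      rw [derivedSeries_one, commutator_def, Subgroup.commutator_le]
      intro u _ v _
      exact hGA u v
    apply hfin A hAab
    rw [show (2 : ℕ) = 1 + 1 from rfl, derivedSeries_succ]
    exact le_trans (Subgroup.commutator_le_left _ _) hD1 |> fun h => h
  · -- non-normal case
    have hNA : Subgroup.normalizer (A : Set G) = A := by
      by_contra hne
      have hlt : A < Subgroup.normalizer (A : Set G) :=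
        lt_of_le_of_ne Subgroup.le_normalizer (Ne.symm hne)
      exact hAn (Subgroup.normalizer_eq_top_iff.mp (hA.2 _ hlt))
    obtain ⟨Z, hZdef⟩ : ∃ Z, Z = Subgroup.center G := ⟨_, rfl⟩
    haveI hZn : Z.Normal := by rw [hZdef]; infer_instance
    have hZcomm : ∀ z ∈ Z, ∀ g : G, g * z = z * g := by
      intro z hz g
      rw [hZdef] at hz
      exact (Subgroup.mem_center_iff.mp hz) g
    have hZA : Z ≤ A := by
      have h1 : Z ≤ Subgroup.normalizer (A : Set G) := by
        rw [hZdef]
        exact (Subgroup.center_le_centralizer _).trans (Subgroup.centralizer_le_normalizer _)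
      rw [hNA] at h1
      exact h1
    have hinter : ∀ g : G, g ∉ A → A ⊓ MulAut.conj g • A ≤ Z := by
      intro g hg
      have hne : MulAut.conj g • A ≠ A := by
        intro h
        have := mem_normalizer_of_conj_smul_eq h
        rw [hNA] at this
        exact hg this
      have htop : A ⊔ MulAut.conj g • A = ⊤ := by
        apply hA.2
        refine lt_of_le_of_ne le_sup_left ?_
        intro h
        have hle : MulAut.conj g • A ≤ A :=
          (le_sup_right : MulAut.conj g • A ≤ A ⊔ MulAut.conj g • A).trans h.ge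
        exact hne (Subgroup.eq_of_le_of_card_ge hle (card_conj_smul g A).symm.le)
      have hgAab : ∀ u ∈ MulAut.conj g • A, ∀ v ∈ MulAut.conj g • A, u * v = v * u := by
        intro u hu v hv
        rw [mem_conj_smul_iff] at hu hv
        have h1 := hAab _ hu _ hv
        have h2 : g⁻¹ * (u * v) * g = g⁻¹ * (v * u) * g := by
          calc g⁻¹ * (u * v) * g = (g⁻¹ * u * g) * (g⁻¹ * v * g) := by simp [mul_assoc]
            _ = (g⁻¹ * v * g) * (g⁻¹ * u * g) := h1
            _ = g⁻¹ * (v * u) * g := by simp [mul_assoc]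
        exact mul_left_cancel (mul_right_cancel h2)
      intro x hx
      obtain ⟨hx1, hx2⟩ := Subgroup.mem_inf.mp hx
      have hcen : A ⊔ MulAut.conj g • A ≤ Subgroup.centralizer ({x} : Set G) := by
        refine sup_le ?_ ?_
        · intro a ha
          rw [Subgroup.mem_centralizer_iff]
          intro h hh
          rw [Set.mem_singleton_iff] at hh
          rw [hh]
          exact hAab x hx1 a ha
        · intro a ha
          rw [Subgroup.mem_centralizer_iff]
          intro h hh
          rw [Set.mem_singleton_iff] at hh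
          rw [hh]
          exact hgAab x hx2 a ha
      rw [htop] at hcen
      rw [hZdef, Subgroup.mem_center_iff]
      intro y
      have := (Subgroup.mem_centralizer_iff.mp (hcen (Subgroup.mem_top y))) x (Set.mem_singleton x)
      exact this.symm
    obtain ⟨π, hπdef⟩ : ∃ π, π = QuotientGroup.mk' Z := ⟨_, rfl⟩
    have hπsurj : Function.Surjective π := hπdef ▸ QuotientGroup.mk'_surjective Z
    have hπone : ∀ g : G, π g = 1 ↔ g ∈ Z := by
      intro g
      rw [hπdef]
      exact QuotientGroup.eq_one_iff g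
    obtain ⟨Ab, hAbdef⟩ : ∃ Ab, Ab = A.map π := ⟨_, rfl⟩
    have hmem : ∀ g : G, π g ∈ Ab ↔ g ∈ A := by
      intro g
      rw [hAbdef]
      constructor
      · intro h
        obtain ⟨a, ha, hag⟩ := Subgroup.mem_map.mp h
        have h1 : π (a⁻¹ * g) = 1 := by rw [map_mul, map_inv, hag, inv_mul_cancel]
        have h2 : a⁻¹ * g ∈ A := hZA ((hπone _).mp h1)
        have : g = a * (a⁻¹ * g) := by group
        rw [this]
        exact A.mul_mem ha h2
      · intro h
        exact Subgroup.mem_map_of_mem _ h
    obtain ⟨x₀, hx₀⟩ : ∃ x, x ∉ A := by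
      by_contra hcon
      push Not at hcon
      exact hA.1 (eq_top_iff.mpr fun g _ => hcon g)
    have hAbtop : Ab ≠ ⊤ := by
      intro h
      exact hx₀ ((hmem x₀).mp (h ▸ Subgroup.mem_top _))
    have hAbco : IsCoatom Ab := by
      refine ⟨hAbtop, ?_⟩
      intro B hB
      have h1 : A < B.comap π := by
        refine lt_of_le_of_ne ?_ ?_
        · intro a ha
          exact hB.le ((hmem a).mpr ha)
        · intro heq
          obtain ⟨b, hbB, hbA⟩ := SetLike.exists_of_lt hB
          obtain ⟨b', rfl⟩ := hπsurj b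
          have h3 : b' ∈ B.comap π := hbB
          rw [← heq] at h3
          exact hbA ((hmem b').mpr h3)
      have h2 := hA.2 _ h1
      rw [eq_top_iff]
      intro y _
      obtain ⟨y', rfl⟩ := hπsurj y
      have h3 : y' ∈ B.comap π := h2 ▸ Subgroup.mem_top _
      exact h3
    have hAbab : ∀ a ∈ Ab, ∀ b ∈ Ab, a * b = b * a := by
      intro a ha b hb
      obtain ⟨a', rfl⟩ := hπsurj a
      obtain ⟨b', rfl⟩ := hπsurj b
      rw [← map_mul, ← map_mul, hAab a' ((hmem a').mp ha) b' ((hmem b').mp hb)]
    have hAbfrob : Cfsg.IsFrobeniusComplement Ab := by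
      rw [Cfsg.Agent.Lib.Helper24.isFrobeniusComplement_iff]
      refine ⟨?_, hAbtop, ?_⟩
      · intro hbot
        apply hAn
        have hAZ : A ≤ Z := by
          intro a ha
          have h1 : π a ∈ Ab := (hmem a).mpr ha
          rw [hbot, Subgroup.mem_bot] at h1
          exact (hπone a).mp h1
        have : A = Z := le_antisymm hAZ hZA
        rw [this]
        exact hZn
      · intro g hg x hx hgx
        obtain ⟨g', rfl⟩ := hπsurj g
        obtain ⟨x', rfl⟩ := hπsurj x
        have hg' : g' ∉ A := fun h => hg ((hmem g').mpr h)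
        have hx' : x' ∈ A := (hmem x').mp hx
        have hgx' : g'⁻¹ * x' * g' ∈ A := by
          rw [← hmem]
          simpa only [map_mul, map_inv] using hgx
        have h1 : x' ∈ A ⊓ MulAut.conj g' • A :=
          Subgroup.mem_inf.mpr ⟨hx', (mem_conj_smul_iff g' x' A).mpr hgx'⟩
        exact (hπone x').mpr (hinter g' hg' h1)
    have hF := frob_abelian_coatom Ab hAbfrob hAbco hAbab
    apply hfin Z
    · intro a ha b _
      exact hZcomm a ha b |>.symm
    · intro x hx
      have h1 : π x ∈ (derivedSeries G 2).map π := Subgroup.mem_map_of_mem _ hx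
      have h2 := map_derivedSeries_le_derivedSeries π 2 h1
      rw [hF, Subgroup.mem_bot] at h2
      exact (hπone x).mp h2

end Cfsg.Agent.S0556
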