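import Cfsg.Statements.S0557
import Cfsg.Agent.Lib.Helper5.SysNorm

set_option autoImplicit false
open Cfsg

namespace Cfsg.Agent.S0557

open scoped commutatorElement

universe u

theorem focal_mono {G : Type u} [Group G] {X Y : Subgroup G} (h : X ≤ Y) :
    Subgroup.focalSubgroup X ≤ Subgroup.focalSubgroup Y := by
  rw [Subgroup.focalSubgroup_def, Subgroup.focalSubgroup_def]
  apply Subgroup.closure_mono
  rintro g ⟨hg, x, hx, u, rfl⟩
  exact ⟨h hg, x, h hx, u, rfl⟩

theorem focal_iterate_mono {G : Type u} [Group G] (n : ℕ) {X Y : Subgroup G} (h : X ≤ Y) :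
    (fun K : Subgroup G => Subgroup.focalSubgroup K)^[n] X ≤
      (fun K : Subgroup G => Subgroup.focalSubgroup K)^[n] Y := by
  induction n generalizing X Y with
  | zero => simpa using h
  | succ n ih =>
    rw [Function.iterate_succ_apply, Function.iterate_succ_apply]
    exact ih (focal_mono h)

theorem focal_map_le {G : Type u} [Group G] (K : Subgroup G) (X : Subgroup K) :
    (Subgroup.focalSubgroup X).map K.subtype ≤ Subgroup.focalSubgroup (X.map K.subtype) := by
  rw [Subgroup.focalSubgroup_def, Subgroup.focalSubgroup_def, MonoidHom.map_closure]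
  apply Subgroup.closure_mono
  rintro _ ⟨g, ⟨hg, x, hx, u, rfl⟩, rfl⟩
  refine ⟨Subgroup.mem_map_of_mem _ hg, (x : G), Subgroup.mem_map_of_mem _ hx, (u : G), ?_⟩
  simp [commutatorElement_def]

theorem focal_iterate_map_le {G : Type u} [Group G] (K : Subgroup G) (n : ℕ) (X : Subgroup K) :
    ((fun L : Subgroup K => Subgroup.focalSubgroup L)^[n] X).map K.subtype ≤
      (fun L : Subgroup G => Subgroup.focalSubgroup L)^[n] (X.map K.subtype) := by
  induction n generalizing X with
  | zero => simp
  | succ n ih =>
    rw [Function.iterate_succ_apply, Function.iterate_succ_apply]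
    exact (ih _).trans (focal_iterate_mono n (focal_map_le K X))

theorem aux : ∀ (n : ℕ) (G : Type u) [Group G] [Finite G] (H : Subgroup G),
    (Nat.card H).Coprime H.index →
    (fun K : Subgroup G => Subgroup.focalSubgroup K)^[n] H = ⊥ →
    ∃ N : Subgroup G, N.Normal ∧ Subgroup.IsComplement' N H := by
  intro n
  induction n with
  | zero =>
    intro G _ _ H _ hfoc
    have hH : H = ⊥ := by simpa using hfoc
    exact ⟨⊤, Subgroup.normal_top, hH ▸ Subgroup.isComplement'_top_bot⟩
  | succ n ih =>
    intro G _ _ H hHall hfoc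
    classical
    rw [Function.iterate_succ_apply] at hfoc
    set V := Subgroup.transferFocal H with hV
    set K : Subgroup G := V.ker with hK
    have hKn : K.Normal := MonoidHom.normal_ker V
    have hQcop : (Nat.card (H ⧸ Subgroup.focalSubgroupOf H)).Coprime H.index :=
      Nat.Coprime.coprime_dvd_left (Subgroup.card_quotient_dvd_card _) hHall
    -- kernel restricted to H
    have hkerH : ∀ x : H, ((x : G) ∈ K ↔ x ∈ Subgroup.focalSubgroupOf H) := by
      intro x
      rw [hK, MonoidHom.mem_ker, hV, Subgroup.transferFocal_eq_pow]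
      constructor
      · intro hx
        have h1 : orderOf (x : H ⧸ Subgroup.focalSubgroupOf H) ∣ H.index :=
          orderOf_dvd_of_pow_eq_one hx
        have h2 : orderOf (x : H ⧸ Subgroup.focalSubgroupOf H) ∣
            Nat.card (H ⧸ Subgroup.focalSubgroupOf H) := orderOf_dvd_natCard _
        have h3 : orderOf (x : H ⧸ Subgroup.focalSubgroupOf H) = 1 :=
          Nat.eq_one_of_dvd_coprimes hQcop h2 h1
        rw [orderOf_eq_one_iff] at h3
        exact (QuotientGroup.eq_one_iff x).mp h3
      · intro hx
        rw [(QuotientGroup.eq_one_iff x).mpr hx, one_pow]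
    have hKH : K ⊓ H = Subgroup.focalSubgroup H := by
      ext y
      constructor
      · rintro ⟨hyK, hyH⟩
        have := (hkerH ⟨y, hyH⟩).mp hyK
        exact Subgroup.mem_subgroupOf.mp this
      · intro hy
        have hyH : y ∈ H := Subgroup.focalSubgroup_le H hy
        refine ⟨(hkerH ⟨y, hyH⟩).mpr ?_, hyH⟩
        exact Subgroup.mem_subgroupOf.mpr hy
    have hsup : H ⊔ K = ⊤ := by
      rw [eq_top_iff]
      intro g _
      obtain ⟨q, hq⟩ := (powCoprime hQcop).surjective (V g)
      obtain ⟨h, rfl⟩ := QuotientGroup.mk_surjective q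
      have hVh : V (h : G) = V g := by
        rw [hV, Subgroup.transferFocal_eq_pow]
        exact hq
      have hgK : g * (h : G)⁻¹ ∈ K := by
        rw [hK, MonoidHom.mem_ker, map_mul, map_inv, hVh, mul_inv_cancel]
      have : g = (h : G) * ((h : G)⁻¹ * g) := by group
      have hgK' : (h : G)⁻¹ * g ∈ K := by
        have := hKn.conj_mem _ hgK (h : G)⁻¹
        simpa [mul_assoc] using this
      rw [this]
      exact Subgroup.mul_mem _ (Subgroup.mem_sup_left h.2) (Subgroup.mem_sup_right hgK')
    set H₁ : Subgroup G := Subgroup.focalSubgroup H with hH₁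
    have hH₁K : H₁ ≤ K := hKH ▸ inf_le_left
    have hH₁H : H₁ ≤ H := Subgroup.focalSubgroup_le H
    -- index of H₁ in K equals the index of H
    have hrel : H₁.relIndex K = H.index := by
      have h1 := Cfsg.Agent.Lib.Helper5.relIndex_mul_index_sup H K
      rw [hsup, Subgroup.index_top, mul_one] at h1
      rw [← h1, ← hKH, inf_comm, Subgroup.inf_relIndex_right]
    have hcardH₁ : Nat.card (H₁.subgroupOf K) = Nat.card H₁ :=
      Nat.card_congr (Subgroup.subgroupOfEquivOfLe hH₁K).toEquiv
    have hH₁dvd : Nat.card H₁ ∣ Nat.card H := Subgroup.card_dvd_of_le hH₁H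
    have hHall₁ : (Nat.card (H₁.subgroupOf K)).Coprime (H₁.subgroupOf K).index := by
      rw [hcardH₁]
      have : (H₁.subgroupOf K).index = H.index := hrel
      rw [this]
      exact Nat.Coprime.coprime_dvd_left hH₁dvd hHall
    have hfoc₁ : (fun L : Subgroup K => Subgroup.focalSubgroup L)^[n] (H₁.subgroupOf K) = ⊥ := by
      have h1 := focal_iterate_map_le K n (H₁.subgroupOf K)
      rw [Subgroup.map_subgroupOf_eq_of_le hH₁K, hfoc, le_bot_iff] at h1
      exact (Subgroup.map_eq_bot_iff_of_injective _ K.subtype_injective).mp h1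
    obtain ⟨N', hN'n, hN'c⟩ := ih K (H₁.subgroupOf K) hHall₁ hfoc₁
    have hcN' : Nat.card N' = H.index := by
      have h1 := hN'c.card_mul_card
      have h2 : Nat.card (H₁.subgroupOf K) * (H₁.subgroupOf K).index = Nat.card K :=
        Subgroup.card_mul_index _
      have h3 : (H₁.subgroupOf K).index = H.index := hrel
      rw [h3, ← h1, mul_comm] at h2
      exact (Nat.eq_of_mul_eq_mul_right Nat.card_pos h2).symm
    have hN'idx : N'.index = Nat.card (H₁.subgroupOf K) := by
      have h1 := hN'c.card_mul_card
      have h2 : Nat.card N' * N'.index = Nat.card K := Subgroup.card_mul_index _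
      rw [← h1] at h2
      exact Nat.eq_of_mul_eq_mul_left Nat.card_pos h2
    have hcopN' : (Nat.card N').Coprime N'.index := by
      rw [hcN', hN'idx, hcardH₁]
      exact (Nat.Coprime.coprime_dvd_left hH₁dvd hHall).symm
    set N : Subgroup G := N'.map K.subtype with hN
    have hcN : Nat.card N = H.index := by
      rw [hN, Subgroup.card_map_of_injective K.subtype_injective, hcN']
    -- N is normal in G
    have hNn : N.Normal := by
      constructor
      intro y hy g
      obtain ⟨y', hy', rfl⟩ := hy
      have hmemK : g * (y' : G) * g⁻¹ ∈ K := hKn.conj_mem _ y'.2 g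
      set z : K := ⟨g * (y' : G) * g⁻¹, hmemK⟩ with hz
      have ho1 : orderOf z = orderOf y' := by
        have h1 : orderOf z = orderOf (z : G) := (Subgroup.orderOf_coe z).symm
        have h2 : orderOf y' = orderOf (y' : G) := (Subgroup.orderOf_coe y').symm
        rw [h1, h2]
        have h3 := MulEquiv.orderOf_eq (MulAut.conj g) (y' : G)
        rw [MulAut.conj_apply] at h3
        exact h3
      have ho2 : orderOf y' ∣ Nat.card N' := by
        have : orderOf (⟨y', hy'⟩ : N') = orderOf y' := Subgroup.orderOf_mk y' hy'
        rw [← this]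
        exact orderOf_dvd_natCard _
      have ho3 : orderOf (QuotientGroup.mk' N' z) ∣ orderOf z := orderOf_map_dvd _ _
      have ho4 : orderOf (QuotientGroup.mk' N' z) ∣ N'.index := orderOf_dvd_natCard _
      have ho5 : orderOf (QuotientGroup.mk' N' z) = 1 :=
        Nat.eq_one_of_dvd_coprimes hcopN' (ho3.trans (ho1 ▸ ho2)) ho4
      rw [orderOf_eq_one_iff] at ho5
      have hzN' : z ∈ N' := (QuotientGroup.eq_one_iff z).mp ho5
      exact ⟨z, hzN', rfl⟩
    refine ⟨N, hNn, ?_⟩
    apply Subgroup.isComplement'_of_coprime
    · rw [hcN, mul_comm]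
      exact Subgroup.card_mul_index H
    · rw [hcN]
      exact hHall.symm

/-- Let H be a subgroup of a finite group G with order coprime to its index. If iterating the focal-subgroup construction starting from H reaches the trivial subgroup after finitely many steps, then H has a normal complement in G. -/
theorem result {G : Type*} [Group G] [Finite G] (H : Subgroup G) (hHall : (Nat.card H).Coprime H.index) (n : ℕ) (hfoc : (fun K : Subgroup G => Subgroup.focalSubgroup K)^[n] H = ⊥) : ∃ N : Subgroup G, N.Normal ∧ Subgroup.IsComplement' N H := by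
  exact aux n G H hHall hfoc

end Cfsg.Agent.S0557
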