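import Cfsg.Statements.S0558
import Cfsg.Agent.Lib.Helper1.FrobPC
import Cfsg.Agent.Lib.Helper1.Hall
import Cfsg.Agent.Lib.Helper5.CoprimeIndex

set_option autoImplicit false
open Cfsg

namespace Cfsg.Agent.S0558

open scoped Pointwise

universe u

/-- A Sylow subgroup of `H` whose normalizer in `G` is `H` is a Sylow subgroup of `G`. -/
theorem card_map_sylow {G : Type u} [Group G] [Finite G] (H : Subgroup G) (p : ℕ) [Fact p.Prime]
    (P : Sylow p H)
    (hN : Subgroup.normalizer (((P : Subgroup H).map H.subtype : Subgroup G) : Set G) = H) :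
    Nat.card ((P : Subgroup H).map H.subtype) = p ^ (Nat.card G).factorization p := by
  have hp : p.Prime := Fact.out
  have hcQ : Nat.card ((P : Subgroup H).map H.subtype) = p ^ (Nat.card H).factorization p := by
    rw [Subgroup.card_map_of_injective H.subtype_injective]
    exact P.card_eq_multiplicity
  have hle : (Nat.card H).factorization p ≤ (Nat.card G).factorization p := by
    rw [← hp.pow_dvd_iff_le_factorization Nat.card_pos.ne', ← hcQ]
    exact Subgroup.card_subgroup_dvd_card _
  rcases hle.eq_or_lt with heq | hlt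
  · rw [hcQ, heq]
  · exfalso
    have hdvd : p ^ ((Nat.card H).factorization p + 1) ∣ Nat.card G :=
      (hp.pow_dvd_iff_le_factorization Nat.card_pos.ne').mpr hlt
    have h1 := Sylow.prime_pow_dvd_card_normalizer hdvd hcQ
    rw [hN] at h1
    exact Nat.pow_succ_factorization_not_dvd Nat.card_pos.ne' hp h1

/-- The core of the argument, for a family `Qf` of Sylow subgroups of `G` inside `H`, each with
normalizer `H`. -/
theorem core {G : Type u} [Group G] [Finite G] (H : Subgroup G) (Qf : ℕ → Subgroup G)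
    (hQle : ∀ p : ℕ, p.Prime → p ∣ Nat.card H → Qf p ≤ H)
    (hQcard : ∀ p : ℕ, p.Prime → p ∣ Nat.card H →
      Nat.card (Qf p) = p ^ (Nat.card G).factorization p)
    (hQnorm : ∀ p : ℕ, p.Prime → p ∣ Nat.card H → Subgroup.normalizer (Qf p : Set G) = H)
    (htwo : ∀ p : ℕ, p.Prime → p ∣ Nat.card H → ∃ q : ℕ, q.Prime ∧ q ∣ Nat.card H ∧ q ≠ p) :
    ∃ N : Subgroup G, N.Normal ∧ Subgroup.IsComplement' N H := by
  classical
  -- distinct Sylow subgroups commute
  have hcomm : ∀ p q : ℕ, p.Prime → p ∣ Nat.card H → q.Prime → q ∣ Nat.card H → q ≠ p →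
      Qf q ≤ Subgroup.centralizer (Qf p : Set G) := by
    intro p q hp hpd hq hqd hqp b hb
    rw [Subgroup.mem_centralizer_iff]
    intro a ha
    have hbH : b ∈ H := hQle q hq hqd hb
    have haH : a ∈ H := hQle p hp hpd ha
    have hbN : b ∈ Subgroup.normalizer (Qf p : Set G) := by rw [hQnorm p hp hpd]; exact hbH
    have haN : a ∈ Subgroup.normalizer (Qf q : Set G) := by rw [hQnorm q hq hqd]; exact haH
    have h1 : a * b * a⁻¹ * b⁻¹ ∈ Qf p ⊓ Qf q := by
      refine Subgroup.mem_inf.mpr ⟨?_, ?_⟩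
      · have h2 : b * a⁻¹ * b⁻¹ ∈ Qf p :=
          (Subgroup.mem_normalizer_iff.mp hbN a⁻¹).mp ((Qf p).inv_mem ha)
        have h3 : a * b * a⁻¹ * b⁻¹ = a * (b * a⁻¹ * b⁻¹) := by group
        rw [h3]
        exact (Qf p).mul_mem ha h2
      · have h2 : a * b * a⁻¹ ∈ Qf q := (Subgroup.mem_normalizer_iff.mp haN b).mp hb
        exact (Qf q).mul_mem h2 ((Qf q).inv_mem hb)
    have : Fact p.Prime := ⟨hp⟩
    have : Fact q.Prime := ⟨hq⟩
    have hdisj : Qf p ⊓ Qf q = ⊥ :=
      (IsPGroup.disjoint_of_ne p q (Ne.symm hqp) _ _ (IsPGroup.of_card (hQcard p hp hpd))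
        (IsPGroup.of_card (hQcard q hq hqd))).eq_bot
    rw [hdisj, Subgroup.mem_bot] at h1
    calc a * b = a * b * a⁻¹ * b⁻¹ * (b * a) := by group
      _ = b * a := by rw [h1, one_mul]
  -- every element of H has a p-power centralizing Qf p
  have hpow : ∀ p : ℕ, p.Prime → p ∣ Nat.card H → ∀ h ∈ H, ∃ k : ℕ,
      h ^ p ^ k ∈ Subgroup.centralizer (Qf p : Set G) := by
    intro p hp hpd h hh
    set T : Subgroup G := H ⊓ Subgroup.centralizer (Qf p : Set G) with hT
    have hTn : (T.subgroupOf H).Normal := by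
      constructor
      intro t ht x
      rw [Subgroup.mem_subgroupOf] at ht ⊢
      refine Subgroup.mem_inf.mpr ⟨(x * t * x⁻¹).2, ?_⟩
      rw [Subgroup.mem_centralizer_iff]
      intro a ha
      have hxN : (x : G) ∈ Subgroup.normalizer (Qf p : Set G) := by
        rw [hQnorm p hp hpd]; exact x.2
      have h2 : (x : G)⁻¹ * a * x ∈ Qf p := (Subgroup.mem_normalizer_iff''.mp hxN a).mp ha
      have h3 := Subgroup.mem_centralizer_iff.mp (Subgroup.mem_inf.mp ht).2 _ h2
      have h4 : ((x * t * x⁻¹ : H) : G) = (x : G) * t * (x : G)⁻¹ := by simp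
      rw [h4]
      calc a * ((x : G) * t * (x : G)⁻¹)
          = (x : G) * (((x : G)⁻¹ * a * x) * t) * (x : G)⁻¹ := by group
        _ = (x : G) * ((t : G) * ((x : G)⁻¹ * a * x)) * (x : G)⁻¹ := by rw [h3]
        _ = (x : G) * t * (x : G)⁻¹ * a := by group
    have hidx : ∃ k, (T.subgroupOf H).index = p ^ k := by
      refine ⟨_, Nat.eq_prime_pow_of_unique_prime_dvd Subgroup.index_ne_zero_of_finite ?_⟩
      intro r hr hrd
      by_contra hrp
      have hrH : r ∣ Nat.card H := hrd.trans (Subgroup.index_dvd_card _)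
      have hQT : Qf r ≤ T := le_inf (hQle r hr hrH) (hcomm p r hp hpd hr hrH hrp)
      have h1 : T.relIndex H ∣ (Qf r).relIndex H := Subgroup.relIndex_dvd_of_le_left H hQT
      have h2 : r ∣ (Qf r).relIndex H := hrd.trans h1
      have h3 : Nat.card ((Qf r).subgroupOf H) * ((Qf r).subgroupOf H).index = Nat.card H :=
        Subgroup.card_mul_index _
      have h4 : Nat.card ((Qf r).subgroupOf H) = Nat.card (Qf r) :=
        Nat.card_congr (Subgroup.subgroupOfEquivOfLe (hQle r hr hrH)).toEquiv
      rw [h4, hQcard r hr hrH] at h3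
      have h5 : r ^ ((Nat.card G).factorization r + 1) ∣ Nat.card H := by
        rw [← h3, pow_succ]
        exact Nat.mul_dvd_mul (dvd_refl _) h2
      exact Nat.pow_succ_factorization_not_dvd Nat.card_pos.ne' hr
        (h5.trans (Subgroup.card_subgroup_dvd_card H))
    obtain ⟨k, hk⟩ := hidx
    refine ⟨k, ?_⟩
    have h1 := @Subgroup.pow_index_mem H _ (T.subgroupOf H) hTn ⟨h, hh⟩
    rw [hk, Subgroup.mem_subgroupOf] at h1
    have h2 : (((⟨h, hh⟩ : H) ^ p ^ k : H) : G) = h ^ p ^ k := by simp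
    rw [h2] at h1
    exact (Subgroup.mem_inf.mp h1).2
  -- the Frobenius condition for each prime of H
  have hFrob : ∀ p : ℕ, p.Prime → p ∣ Nat.card H → Cfsg.Agent.Lib.Helper1.FrobCond p G := by
    intro p hp hpd
    have : Fact p.Prime := ⟨hp⟩
    apply Cfsg.Agent.Lib.Helper1.frobCond_of_sylow (Sylow.ofCard (Qf p) (hQcard p hp hpd))
    intro Q₀ hQ₀ g hg hcop
    have hQ₀' : Q₀ ≤ Qf p := hQ₀
    obtain ⟨q, hq, hqd, hqp⟩ := htwo p hp hpd
    have : Fact q.Prime := ⟨hq⟩
    set C : Subgroup G := Subgroup.centralizer (Q₀ : Set G) with hC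
    have hQqC : Qf q ≤ C :=
      (hcomm p q hp hpd hq hqd hqp).trans (Subgroup.centralizer_le hQ₀')
    set Sq : Sylow q G := Sylow.ofCard (Qf q) (hQcard q hq hqd) with hSq
    have hSqC : (Sq : Subgroup G) ≤ C := hQqC
    have hgC : ((g • Sq : Sylow q G) : Subgroup G) ≤ C := by
      rw [Sylow.coe_subgroup_smul]
      rintro _ ⟨x, hx, rfl⟩
      have hx' : x ∈ C := hQqC hx
      rw [hC, Subgroup.mem_centralizer_iff]
      intro y hy
      have h2 : g⁻¹ * y * g ∈ Q₀ := (Subgroup.mem_normalizer_iff''.mp hg y).mp hy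
      have h3 := Subgroup.mem_centralizer_iff.mp hx' _ h2
      change y * (g * x * g⁻¹) = g * x * g⁻¹ * y
      calc y * (g * x * g⁻¹) = g * ((g⁻¹ * y * g) * x) * g⁻¹ := by group
        _ = g * (x * (g⁻¹ * y * g)) * g⁻¹ := by rw [h3]
        _ = g * x * g⁻¹ * y := by group
    obtain ⟨c, hc⟩ := MulAction.exists_smul_eq (↥C) (Sq.subtype hSqC) ((g • Sq).subtype hgC)
    rw [Sylow.smul_subtype hSqC c] at hc
    have hc' : (c : G) • Sq = g • Sq := Sylow.subtype_injective hc
    have hh : (c : G)⁻¹ * g ∈ H := by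
      have h1 : ((c : G)⁻¹ * g) • Sq = Sq := by
        rw [mul_smul, ← hc', inv_smul_smul]
      have h2 := Sylow.smul_eq_iff_mem_normalizer.mp h1
      have h3 : (c : G)⁻¹ * g ∈ Subgroup.normalizer (Qf q : Set G) := h2
      rw [hQnorm q hq hqd] at h3
      exact h3
    obtain ⟨k, hk⟩ := hpow p hp hpd _ hh
    have hkC : ((c : G)⁻¹ * g) ^ p ^ k ∈ C :=
      Subgroup.centralizer_le hQ₀' hk
    -- pass to the quotient of the normalizer by the centralizer
    set Nn : Subgroup G := Subgroup.normalizer (Q₀ : Set G) with hNn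
    have hCN : C ≤ Nn := Subgroup.centralizer_le_normalizer _
    have hnormal : (C.subgroupOf Nn).Normal :=
      Subgroup.normal_subgroupOf_centralizer_normalizer (Q₀ : Set G)
    let g' : Nn := ⟨g, hg⟩
    let c' : Nn := ⟨(c : G), hCN c.2⟩
    have hc'mem : c' ∈ C.subgroupOf Nn := Subgroup.mem_subgroupOf.mpr c.2
    have h1 : QuotientGroup.mk' (C.subgroupOf Nn) g' =
        QuotientGroup.mk' (C.subgroupOf Nn) (c'⁻¹ * g') := by
      rw [map_mul, map_inv]
      have : QuotientGroup.mk' (C.subgroupOf Nn) c' = 1 := by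
        rw [QuotientGroup.mk'_apply, QuotientGroup.eq_one_iff]; exact hc'mem
      rw [this, inv_one, one_mul]
    have h2 : (QuotientGroup.mk' (C.subgroupOf Nn) (c'⁻¹ * g')) ^ p ^ k = 1 := by
      rw [← map_pow, QuotientGroup.mk'_apply, QuotientGroup.eq_one_iff, Subgroup.mem_subgroupOf]
      have : (((c'⁻¹ * g') ^ p ^ k : Nn) : G) = ((c : G)⁻¹ * g) ^ p ^ k := by simp [c', g']
      rw [this]
      exact hkC
    rw [← h1] at h2
    have ho1 : orderOf (QuotientGroup.mk' (C.subgroupOf Nn) g') ∣ p ^ k :=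
      orderOf_dvd_of_pow_eq_one h2
    have ho2 : orderOf (QuotientGroup.mk' (C.subgroupOf Nn) g') ∣ orderOf g' :=
      orderOf_map_dvd _ _
    have ho3 : orderOf g' = orderOf g := Subgroup.orderOf_mk g hg
    have ho4 : orderOf (QuotientGroup.mk' (C.subgroupOf Nn) g') = 1 :=
      Nat.eq_one_of_dvd_coprimes (Nat.Coprime.pow_right k hcop) (ho3 ▸ ho2) ho1
    rw [orderOf_eq_one_iff] at ho4
    have h5 : g' ∈ C.subgroupOf Nn := (QuotientGroup.eq_one_iff g').mp ho4
    exact Subgroup.mem_subgroupOf.mp h5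
  -- normal p-complements
  set K : ℕ → Subgroup G := fun p => Cfsg.pResidual p G with hK
  have hKn : ∀ p, (K p).Normal := fun p => Cfsg.Agent.Lib.Helper1.pResidual_normal p
  have hKcard : ∀ p : ℕ, p.Prime → p ∣ Nat.card H →
      Nat.card (K p) * p ^ (Nat.card G).factorization p = Nat.card G := by
    intro p hp hpd
    have : Fact p.Prime := ⟨hp⟩
    have h1 := (Cfsg.Agent.Lib.Helper1.frobCond_isComplement' (hFrob p hp hpd)
      (Sylow.ofCard (Qf p) (hQcard p hp hpd))).card_mul_card
    have h2 : Nat.card ((Sylow.ofCard (Qf p) (hQcard p hp hpd) : Sylow p G) : Subgroup G) =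
        p ^ (Nat.card G).factorization p := hQcard p hp hpd
    rw [h2] at h1
    exact h1
  have hKidx : ∀ p : ℕ, p.Prime → p ∣ Nat.card H →
      (K p).index = p ^ (Nat.card G).factorization p := by
    intro p hp hpd
    have h1 := hKcard p hp hpd
    have h2 : Nat.card (K p) * (K p).index = Nat.card G := Subgroup.card_mul_index _
    rw [← h1] at h2
    exact Nat.eq_of_mul_eq_mul_left Nat.card_pos h2
  have hKcop : ∀ p : ℕ, p.Prime → p ∣ Nat.card H → ¬ p ∣ Nat.card (K p) := by
    intro p hp hpd hdvd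
    have h1 := hKcard p hp hpd
    have h2 : p ^ ((Nat.card G).factorization p + 1) ∣
        Nat.card (K p) * p ^ (Nat.card G).factorization p := by
      rw [pow_succ, mul_comm]
      exact Nat.mul_dvd_mul hdvd (dvd_refl _)
    rw [h1] at h2
    exact Nat.pow_succ_factorization_not_dvd Nat.card_pos.ne' hp h2
  set N : Subgroup G := ⨅ p ∈ (Nat.card H).primeFactors, K p with hN
  have hNn : N.Normal :=
    Subgroup.normal_iInf_normal (fun p => Subgroup.normal_iInf_normal (fun _ => hKn p))
  have hNle : ∀ p : ℕ, p.Prime → p ∣ Nat.card H → N ≤ K p := by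
    intro p hp hpd
    exact iInf₂_le p (Nat.mem_primeFactors.mpr ⟨hp, hpd, Nat.card_pos.ne'⟩)
  have hcop : (Nat.card N).Coprime (Nat.card H) := by
    apply Nat.coprime_of_dvd
    intro q hq hqN hqH
    exact hKcop q hq hqH (hqN.trans (Subgroup.card_dvd_of_le (hNle q hq hqH)))
  -- prime divisors of the index of N divide |H|
  have hidxprime : ∀ q : ℕ, q.Prime → q ∣ N.index → q ∣ Nat.card H := by
    set M : Nat.Primes → Subgroup G := fun p => if (p : ℕ) ∣ Nat.card H then K p else ⊤ with hM
    have hMidx : ∀ p : Nat.Primes, ∃ k, (M p).index = (p : ℕ) ^ k := by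
      intro p
      by_cases hpd : (p : ℕ) ∣ Nat.card H
      · exact ⟨_, by rw [hM]; simp only [if_pos hpd]; exact hKidx p p.2 hpd⟩
      · exact ⟨0, by rw [hM]; simp only [if_neg hpd]; simp⟩
    obtain ⟨D, hD1, hD2⟩ := Cfsg.Agent.Lib.Helper5.exists_inf_of_prime_power_index M hMidx
      (Finset.subtype (fun p => Nat.Prime p) (Nat.card H).primeFactors)
    have hDN : D ≤ N := by
      refine le_iInf₂ (fun p hp => ?_)
      have hpp : p.Prime := Nat.prime_of_mem_primeFactors hp
      have hpd : p ∣ Nat.card H := Nat.dvd_of_mem_primeFactors hp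
      have hmem : (⟨p, hpp⟩ : Nat.Primes) ∈
          Finset.subtype (fun p => Nat.Prime p) (Nat.card H).primeFactors :=
        Finset.mem_subtype.mpr hp
      have h1 := hD1 ⟨p, hpp⟩ hmem
      have h2 : M ⟨p, hpp⟩ = K p := by rw [hM]; simp only [if_pos hpd]
      rw [h2] at h1
      exact h1
    intro q hq hqd
    obtain ⟨r, hr, hrq⟩ := hD2 q hq (hqd.trans (Subgroup.index_dvd_of_le hDN))
    have h1 : (r : ℕ) ∈ (Nat.card H).primeFactors := Finset.mem_subtype.mp hr
    rw [hrq] at h1
    exact Nat.dvd_of_mem_primeFactors h1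
  have hidx : N.index = Nat.card H := by
    apply Nat.dvd_antisymm
    · rw [← Nat.factorization_prime_le_iff_dvd Subgroup.index_ne_zero_of_finite Nat.card_pos.ne']
      intro q hq
      by_cases hqd : q ∣ N.index
      · have hqH := hidxprime q hq hqd
        have h1 : N.index.factorization q ≤ (Nat.card G).factorization q :=
          (Nat.factorization_le_iff_dvd Subgroup.index_ne_zero_of_finite Nat.card_pos.ne').mpr
            (Subgroup.index_dvd_card N) q
        have h2 : q ^ (Nat.card G).factorization q ∣ Nat.card H := by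
          rw [← hQcard q hq hqH]
          exact Subgroup.card_dvd_of_le (hQle q hq hqH)
        have h3 := (hq.pow_dvd_iff_le_factorization Nat.card_pos.ne').mp h2
        exact h1.trans h3
      · rw [Nat.factorization_eq_zero_of_not_dvd hqd]
        exact Nat.zero_le _
    · have hdisj : H ⊓ (QuotientGroup.mk' N).ker = ⊥ := by
        rw [QuotientGroup.ker_mk']
        exact (Subgroup.disjoint_of_coprime_natCard hcop.symm).eq_bot
      have h1 := Cfsg.Agent.Lib.Helper1.card_map_of_inf_ker_eq_bot (QuotientGroup.mk' N) H hdisj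
      rw [← h1]
      exact Subgroup.card_subgroup_dvd_card _
  refine ⟨N, hNn, ?_⟩
  apply Subgroup.isComplement'_of_coprime _ hcop
  rw [← hidx]
  exact Subgroup.card_mul_index N

/-- Let H be a subgroup of a finite group G that is not a Sylow subgroup of G for any prime, and suppose that for every prime p dividing the order of H and every Sylow p-subgroup P of H the normalizer of P in G is exactly H. Then some normal subgroup of G is a complement to H. -/
theorem result {G : Type*} [Group G] [Finite G] (H : Subgroup G) (hnot : ∀ p : ℕ, p.Prime → ∀ P : Sylow p G, (P : Subgroup G) ≠ H) (hnorm : ∀ p : ℕ, p.Prime → p ∣ Nat.card H → ∀ P : Sylow p H, Subgroup.normalizer (((P : Subgroup H).map H.subtype : Subgroup G) : Set G) = H) : ∃ N : Subgroup G, N.Normal ∧ Subgroup.IsComplement' N H := by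
  classical
  have hex : ∀ p : ℕ, p.Prime → p ∣ Nat.card H → ∃ Q : Subgroup G, Q ≤ H ∧
      Nat.card Q = p ^ (Nat.card G).factorization p ∧
      Subgroup.normalizer (Q : Set G) = H := by
    intro p hp hpd
    have : Fact p.Prime := ⟨hp⟩
    obtain ⟨P⟩ := (inferInstance : Nonempty (Sylow p H))
    exact ⟨(P : Subgroup H).map H.subtype, Subgroup.map_subtype_le _,
      card_map_sylow H p P (hnorm p hp hpd P), hnorm p hp hpd P⟩
  choose! Qf hQle hQcard hQnorm using hex
  apply core H Qf hQle hQcard hQnorm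
  intro p hp hpd
  by_contra hcon
  push Not at hcon
  have : Fact p.Prime := ⟨hp⟩
  have hHp : Nat.card H = p ^ (Nat.card H).primeFactorsList.length := by
    apply Nat.eq_prime_pow_of_unique_prime_dvd Nat.card_pos.ne'
    intro d hd hdd
    exact hcon d hd hdd
  have hle : Nat.card H ≤ Nat.card (Qf p) := by
    rw [hQcard p hp hpd]
    apply Nat.le_of_dvd (pow_pos hp.pos _)
    have h7 : p ^ (Nat.card H).primeFactorsList.length ∣ Nat.card G := by
      rw [← hHp]
      exact Subgroup.card_subgroup_dvd_card H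
    rw [hHp]
    exact pow_dvd_pow p ((hp.pow_dvd_iff_le_factorization Nat.card_pos.ne').mp h7)
  have hEq : Qf p = H := Subgroup.eq_of_le_of_card_ge (hQle p hp hpd) hle
  exact hnot p hp (Sylow.ofCard (Qf p) (hQcard p hp hpd)) hEq

end Cfsg.Agent.S0558
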