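import Cfsg.Statements.S0563
import Mathlib
import Cfsg.Agent.Lib.Helper1.KWCount
import Cfsg.Agent.S0561

set_option autoImplicit false
open Pointwise
open Cfsg

namespace Cfsg.Agent.S0563

/-- If a finite group G is the product AB of two nilpotent subgroups of coprime orders, then G is solvable, and for every Sylow p-subgroup P of A and Sylow q-subgroup Q of B the product set PQ is a subgroup. -/
theorem result {G : Type*} [Group G] [Finite G] (A B : Subgroup G) (hA : Group.IsNilpotent A) (hB : Group.IsNilpotent B) (hcop : (Nat.card A).Coprime (Nat.card B)) (hAB : ∀ g : G, ∃ a ∈ A, ∃ b ∈ B, g = a * b) : Group.IsSolvable G ∧ ∀ (p q : ℕ) [Fact p.Prime] [Fact q.Prime] (P : Sylow p A) (Q : Sylow q B), ∃ S : Subgroup G, (S : Set G) = (((P : Subgroup A).map A.subtype : Subgroup G) : Set G) * (((Q : Subgroup B).map B.subtype : Subgroup G) : Set G) := by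
  have c : Cfsg.Agent.Lib.Helper1.KW.Cfg A B := ⟨hA, hB, hcop, hAB⟩
  have hs : Group.IsSolvable G :=
    Cfsg.Agent.Lib.Helper1.KW.coprime_solvable _ G le_rfl A B c
  refine ⟨hs, ?_⟩
  intro p q _ _ P Q
  haveI := hs
  have key := Cfsg.Agent.S0561.result A B ((P : Subgroup A).map A.subtype)
    ((Q : Subgroup B).map B.subtype) hAB (Subgroup.map_subtype_le _)
    (by
      rw [Cfsg.Agent.Lib.Helper1.KW.sylow_map_eq_Sp hA P]
      exact (Subgroup.normal_subgroupOf_iff_le_normalizer
        (Cfsg.Agent.Lib.Helper1.KW.Sp_le A p)).mpr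
        (Cfsg.Agent.Lib.Helper1.KW.le_normalizer_Sp hA p))
    (Subgroup.map_subtype_le _)
    (by
      rw [Cfsg.Agent.Lib.Helper1.KW.sylow_map_eq_Sp hB Q]
      exact (Subgroup.normal_subgroupOf_iff_le_normalizer
        (Cfsg.Agent.Lib.Helper1.KW.Sp_le B q)).mpr
        (Cfsg.Agent.Lib.Helper1.KW.le_normalizer_Sp hB q))
    (by
      rw [Cfsg.Agent.Lib.Helper1.KW.sylow_map_eq_Sp hA P]
      exact Cfsg.Agent.Lib.Helper1.KW.Sp_hall' c p)
    (by
      rw [Cfsg.Agent.Lib.Helper1.KW.sylow_map_eq_Sp hB Q]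
      exact Cfsg.Agent.Lib.Helper1.KW.Sp_hall' c.symm q)
    1 1
  obtain ⟨S, hS⟩ := key
  simp only [map_one, one_smul] at hS
  exact ⟨S, hS⟩

end Cfsg.Agent.S0563
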