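import Cfsg.Statements.S0567
import Mathlib

set_option autoImplicit false
open Pointwise
open Cfsg
open scoped commutatorElement

namespace Cfsg.Agent.S0567

theorem iter_succ {G : Type*} [Group G] (H : Subgroup G) (m : ℕ) :
    (fun K : Subgroup G => ⁅K, H⁆)^[m + 1] ⊤ = ⁅(fun K : Subgroup G => ⁅K, H⁆)^[m] ⊤, H⁆ :=
  Function.iterate_succ_apply' _ _ _

theorem iter_mono {G : Type*} [Group G] {H H' : Subgroup G} (h : H ≤ H') (m : ℕ) :
    (fun K : Subgroup G => ⁅K, H⁆)^[m] ⊤ ≤ (fun K : Subgroup G => ⁅K, H'⁆)^[m] ⊤ := by
  induction m with
  | zero => exact le_rfl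
  | succ m ih => rw [iter_succ, iter_succ]; exact Subgroup.commutator_mono ih h

/-- A subgroup H of a group G is subnormal exactly when, for some m, the subgroup obtained from G by taking the commutator with H m times in succession is contained in H. -/
theorem result {G : Type*} [Group G] (H : Subgroup G) : H.IsSubnormal ↔ ∃ m : ℕ, (fun K : Subgroup G => ⁅K, H⁆)^[m] ⊤ ≤ H := by
  constructor
  · intro h
    induction h with
    | top => exact ⟨0, le_top⟩
    | step H K hle hK hN ih =>
      obtain ⟨m, hm⟩ := ih
      refine ⟨m + 1, ?_⟩
      rw [iter_succ]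
      have h1 : K ≤ Subgroup.normalizer (H : Set G) :=
        (Subgroup.normal_subgroupOf_iff_le_normalizer hle).mp hN
      have h2 : ⁅K, H⁆ ≤ H := by
        rw [Subgroup.commutator_comm]
        exact Subgroup.le_normalizer_iff_commutator_le_left.mp h1
      exact (Subgroup.commutator_mono ((iter_mono hle m).trans hm) le_rfl).trans h2
  · rintro ⟨m, hm⟩
    have key : ∀ i, (H ⊔ (fun K : Subgroup G => ⁅K, H⁆)^[i] ⊤).IsSubnormal := by
      intro i
      induction i with
      | zero => simp
      | succ i ih =>
        rw [iter_succ]
        set Ki := (fun K : Subgroup G => ⁅K, H⁆)^[i] ⊤ with hKi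
        have hle : H ⊔ ⁅Ki, H⁆ ≤ H ⊔ Ki :=
          sup_le le_sup_left ((Subgroup.commutator_le_sup Ki H).trans (by rw [sup_comm]))
        refine Subgroup.IsSubnormal.step _ _ hle ih ?_
        rw [Subgroup.normal_subgroupOf_iff_le_normalizer hle]
        apply sup_le
        · exact (le_inf Subgroup.le_normalizer (Subgroup.normalizer_commutator_ge_right Ki H)).trans
            (Subgroup.normalizer_inf_normalizer_le_normalizer_sup _ _)
        · intro k hk
          rw [Subgroup.mem_normalizer_iff_map_conj_eq, Subgroup.map_sup]
          have hkC := Subgroup.mem_normalizer_iff_map_conj_eq.mp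
              (Subgroup.normalizer_commutator_ge_left Ki H hk)
          rw [hkC]
          apply le_antisymm
          · apply sup_le _ le_sup_right
            rintro _ ⟨h, hh, rfl⟩
            have h3 : MulAut.conj k h = ⁅k, h⁆ * h := by
              simp [commutatorElement_def]
            show MulAut.conj k h ∈ _
            rw [h3]
            exact Subgroup.mul_mem _
              (Subgroup.mem_sup_right (Subgroup.commutator_mem_commutator hk hh))
              (Subgroup.mem_sup_left hh)
          · apply sup_le _ le_sup_right
            intro h hh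
            have h3 : h = ⁅k, h⁆⁻¹ * MulAut.conj k h := by
              rw [commutatorElement_def, MulAut.conj_apply]; group
            rw [h3]
            exact Subgroup.mul_mem _
              (Subgroup.mem_sup_right (Subgroup.inv_mem _ (Subgroup.commutator_mem_commutator hk hh)))
              (Subgroup.mem_sup_left ⟨h, hh, rfl⟩)
    have h4 := key m
    rwa [sup_of_le_left hm] at h4

end Cfsg.Agent.S0567
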