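import Cfsg.Statements.S0568
import Cfsg.Agent.S0545
import Cfsg.Agent.Lib.Helper5.ChiefCover

set_option autoImplicit false
open Cfsg

namespace Cfsg.Agent.S0568

open scoped commutatorElement

/-- Let D be the system normalizer of a Hall complement system of a finite solvable group G, and let A < B be normal subgroups with no normal subgroup of G strictly between them (a chief factor). If G centralizes B modulo A then B ≤ A ⊔ D (D covers the factor); otherwise B ∩ D ≤ A (D avoids it). -/
theorem result {G : Type*} [Group G] [Finite G] [Group.IsSolvable G] (K : Nat.Primes → Subgroup G) (hK : Cfsg.IsComplementSystem K) (A B : Subgroup G) [A.Normal] [B.Normal] (hAB : A < B) (hchief : ∀ N : Subgroup G, N.Normal → A ≤ N → N ≤ B → N = A ∨ N = B) : (⁅B, (⊤ : Subgroup G)⁆ ≤ A → B ≤ A ⊔ Cfsg.systemNormalizer K) ∧ (¬ ⁅B, (⊤ : Subgroup G)⁆ ≤ A → B ⊓ Cfsg.systemNormalizer K ≤ A) := by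
  classical
  obtain ⟨hK', hD'⟩ := Cfsg.Agent.S0545.result K hK A
  have hmemD : ∀ d : G, d ∈ Cfsg.systemNormalizer K →
      ∀ p : Nat.Primes, d ∈ Subgroup.normalizer ((K p : Subgroup G) : Set G) :=
    fun d hd p => (Subgroup.mem_iInf.mp hd) p
  constructor
  · intro hc b hb
    -- the image of b is central in G ⧸ A
    have hcen : QuotientGroup.mk' A b ∈ Subgroup.center (G ⧸ A) := by
      rw [Subgroup.mem_center_iff]
      intro y
      obtain ⟨g, rfl⟩ := QuotientGroup.mk'_surjective A y
      have h1 : ⁅b, g⁆ ∈ A := hc (Subgroup.commutator_mem_commutator hb (Subgroup.mem_top g))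
      have h2 : QuotientGroup.mk' A ⁅b, g⁆ = 1 := by
        rw [QuotientGroup.mk'_apply, QuotientGroup.eq_one_iff]; exact h1
      rw [commutatorElement_def, map_mul, map_mul, map_mul, map_inv, map_inv] at h2
      have h3 := mul_inv_eq_one.mp h2
      have h4 := mul_inv_eq_iff_eq_mul.mp h3
      exact h4.symm
    have hmem : QuotientGroup.mk' A b ∈
        Cfsg.systemNormalizer (fun p => (K p).map (QuotientGroup.mk' A)) := by
      refine Subgroup.mem_iInf.mpr (fun p => ?_)
      exact Subgroup.center_le_normalizer _ hcen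
    rw [hD'] at hmem
    obtain ⟨d, hd, hde⟩ := hmem
    have h5 : d⁻¹ * b ∈ A := by
      have := hde
      rw [QuotientGroup.mk'_eq_mk'] at this
      obtain ⟨n, hn, hne⟩ := this
      rw [← hne]
      simpa using hn
    have h6 : b = d * (d⁻¹ * b) := by group
    rw [h6]
    exact Subgroup.mul_mem _ (Subgroup.mem_sup_right hd) (Subgroup.mem_sup_left h5)
  · intro hnc b hbBD
    obtain ⟨hbB, hbD⟩ := Subgroup.mem_inf.mp hbBD
    by_contra hbA
    apply hnc
    set B' : Subgroup (G ⧸ A) := B.map (QuotientGroup.mk' A) with hB'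
    have hBn : B'.Normal := Subgroup.Normal.map inferInstance _ (QuotientGroup.mk'_surjective A)
    have hb1 : QuotientGroup.mk' A b ≠ 1 := by
      rw [QuotientGroup.mk'_apply, Ne, QuotientGroup.eq_one_iff]; exact hbA
    have hbB' : QuotientGroup.mk' A b ∈ B' := Subgroup.mem_map_of_mem _ hbB
    have hBne : B' ≠ ⊥ := by
      intro h
      rw [h, Subgroup.mem_bot] at hbB'
      exact hb1 hbB'
    have hmin' := Cfsg.Agent.Lib.Helper5.minimal_quotient hAB.le hchief
    obtain ⟨p, hp, hBp⟩ := Cfsg.Agent.Lib.Helper5.minimal_normal_isPGroup hBne hmin'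
    have : Fact p.Prime := ⟨hp⟩
    have hidx := hK' ⟨p, hp⟩
    have hcard := Cfsg.Agent.Lib.Helper5.not_dvd_card_of_index_eq _ p hp hidx
    have hbN : QuotientGroup.mk' A b ∈ Subgroup.normalizer
        ((((K ⟨p, hp⟩).map (QuotientGroup.mk' A) : Subgroup (G ⧸ A))) : Set (G ⧸ A)) :=
      Subgroup.le_normalizer_map _ ⟨b, hmemD b hbD ⟨p, hp⟩, rfl⟩
    have hcen := Cfsg.Agent.Lib.Helper5.minimal_normal_le_center_of_mem_normalizer B' hBne hmin'
      p hBp _ ⟨_, hidx⟩ hcard _ hbB' hb1 hbN
    rw [Subgroup.commutator_le]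
    intro b1 hb1B g _
    have h1 : QuotientGroup.mk' A b1 ∈ Subgroup.center (G ⧸ A) :=
      hcen (Subgroup.mem_map_of_mem _ hb1B)
    have h2 := Subgroup.mem_center_iff.mp h1 (QuotientGroup.mk' A g)
    have h3 : QuotientGroup.mk' A ⁅b1, g⁆ = 1 := by
      rw [commutatorElement_def, map_mul, map_mul, map_mul, map_inv, map_inv, ← h2]
      group
    rw [QuotientGroup.mk'_apply, QuotientGroup.eq_one_iff] at h3
    exact h3

end Cfsg.Agent.S0568
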