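import Cfsg.Statements.S0570
import Cfsg.Agent.Lib.Helper5.CarterSys

set_option autoImplicit false
open Cfsg

namespace Cfsg.Agent.S0570

open scoped Pointwise

open Cfsg.Agent.Lib.Helper5 in
/-- Let G be a finite group with a nilpotent normal subgroup F such that G modulo F is nilpotent (nilpotent length at most two). Then a subgroup of G is a Carter subgroup if and only if it is the system normalizer of some Hall complement system. -/
theorem result {G : Type*} [Group G] [Finite G] (F : Subgroup G) [F.Normal] (hF : Group.IsNilpotent F) (hGF : Group.IsNilpotent (G ⧸ F)) (C : Subgroup G) : Cfsg.IsCarterSubgroup C ↔ ∃ K : Nat.Primes → Subgroup G, Cfsg.IsComplementSystem K ∧ C = Cfsg.systemNormalizer K := by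
  classical
  have hF' := hF
  have hGF' := hGF
  have hsolv : Group.IsSolvable G := by
    have h1 : Group.IsSolvable F := IsNilpotent.to_isSolvable
    have h2 : Group.IsSolvable (G ⧸ F) := IsNilpotent.to_isSolvable
    exact Group.isSolvable_of_ker_le_range F.subtype (QuotientGroup.mk' F) (by simp)
  have key : ∀ C : Subgroup G, IsCarterSubgroup C →
      ∃ K : Nat.Primes → Subgroup G, IsComplementSystem K ∧ C = systemNormalizer K := by
    intro C hC
    obtain ⟨K, hK, hred⟩ := exists_reducing_system C hC.1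
    refine ⟨K, hK, le_antisymm ?_ (sysnorm_le_carter hC hK hred)⟩
    have hCF : C ⊔ F = ⊤ := by
      have h1 : C.map (QuotientGroup.mk' F) = ⊤ :=
        carter_eq_top (carter_map _ (QuotientGroup.mk'_surjective F) hC)
      have h2 := Subgroup.comap_map_eq (QuotientGroup.mk' F) C
      rw [h1, Subgroup.comap_top, QuotientGroup.ker_mk'] at h2
      exact h2.symm
    refine le_iInf (fun p => ?_)
    obtain ⟨Q, k, hQC, hQcop, hQidx, hQcard, hQpow, hQmem, hQord, hQnorm⟩ :=
      exists_prime_part C hC.1 p p.2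
    obtain ⟨Q', k', hQ'F, hQ'cop, hQ'idx, hQ'card, hQ'pow, hQ'mem, hQ'ord, hQ'norm⟩ :=
      exists_prime_part F hF p p.2
    have hQ'n : Q'.Normal := by
      rw [← Subgroup.normalizer_eq_top_iff, eq_top_iff]
      rw [Subgroup.normalizer_eq_top F] at hQ'norm
      exact hQ'norm
    have hQK : Q ≤ K p := fun x hx => hred p x (hQC hx) (hQord x hx)
    have hQ'K : Q' ≤ K p := normal_le_of_coprime (K p) Q' p p.2 ⟨_, hK p⟩ hQ'cop
    have hKcop : ¬ (p : ℕ) ∣ Nat.card (K p) := not_dvd_card_of_index_eq (K p) p p.2 (hK p)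
    have hX : (Q ⊔ Q').index ∣ (p : ℕ) ^ (k + k') := by
      have h1 : (Q ⊔ Q').relIndex (Q ⊔ F) * (Q ⊔ F).index = (Q ⊔ Q').index :=
        Subgroup.relIndex_mul_index (sup_le_sup_left hQ'F Q)
      have h2 : (Q ⊔ F).index ∣ (p : ℕ) ^ k := by
        have h0 := relIndex_sup_dvd Q C F hQC
        rw [hCF, Subgroup.relIndex_top_right, hQidx] at h0
        exact h0
      have h3 : (Q ⊔ Q').relIndex (Q ⊔ F) ∣ (p : ℕ) ^ k' := by
        have e : (Q ⊔ Q') ⊔ F = Q ⊔ F := by rw [sup_assoc, sup_of_le_right hQ'F]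
        rw [← e, relIndex_sup_normal, ← hQ'idx]
        exact Subgroup.relIndex_dvd_of_le_left F le_sup_right
      rw [← h1, pow_add, mul_comm]
      exact Nat.mul_dvd_mul h2 h3
    have hKX : K p = Q ⊔ Q' := by
      have h4 := eq_one_of_dvd_pow_of_dvd p.2
        ((Subgroup.relIndex_dvd_index_of_le (sup_le hQK hQ'K)).trans hX)
        (Subgroup.relIndex_dvd_card _ _) hKcop
      exact le_antisymm (Subgroup.relIndex_eq_one.mp h4) (sup_le hQK hQ'K)
    rw [hKX]
    intro c hc
    apply Cfsg.Agent.Lib.Helper1.mem_normalizer_of_conj_smul_eq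
    rw [Subgroup.smul_sup, conj_smul_eq_of_mem_normalizer Q c (hQnorm (Subgroup.le_normalizer hc)),
      conj_smul_eq_of_mem_normalizer Q' c (by rw [Subgroup.normalizer_eq_top]; trivial)]
  constructor
  · exact key C
  · rintro ⟨K, hK, rfl⟩
    obtain ⟨C₀, hC₀⟩ := carter_exists G
    obtain ⟨K₀, hK₀, hC₀K⟩ := key C₀ hC₀
    obtain ⟨g, hg⟩ := Cfsg.Agent.S0543.result K₀ K hK₀ hK
    rw [systemNormalizer_conj g K₀ K hg, ← hC₀K]
    exact carter_conj_smul g hC₀

end Cfsg.Agent.S0570
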