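import Cfsg.Statements.S0572
import Mathlib

set_option autoImplicit false
open Pointwise
open Cfsg
open scoped commutatorElement

namespace Cfsg.Agent.S0572

/-- Itô's Theorem: if a group G is the product AB of two abelian subgroups, then the commutator subgroup of G is abelian, i.e. the second term of the derived series is trivial. -/
theorem result {G : Type*} [Group G] (A B : Subgroup G) [IsMulCommutative A] [IsMulCommutative B] (hAB : ∀ g : G, ∃ a ∈ A, ∃ b ∈ B, g = a * b) : derivedSeries G 2 = ⊥ := by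
  have hA : ∀ x ∈ A, ∀ y ∈ A, x * y = y * x := by
    intro x hx y hy
    have := (inferInstance : IsMulCommutative A).is_comm.comm (⟨x, hx⟩ : A) ⟨y, hy⟩
    exact congrArg Subtype.val this
  have hB : ∀ x ∈ B, ∀ y ∈ B, x * y = y * x := by
    intro x hx y hy
    have := (inferInstance : IsMulCommutative B).is_comm.comm (⟨x, hx⟩ : B) ⟨y, hy⟩
    exact congrArg Subtype.val this
  have hBA : ∀ g : G, ∃ b ∈ B, ∃ a ∈ A, g = b * a := by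
    intro g
    obtain ⟨a, ha, b, hb, h⟩ := hAB g⁻¹
    exact ⟨b⁻¹, B.inv_mem hb, a⁻¹, A.inv_mem ha, by rw [← mul_inv_rev, ← h, inv_inv]⟩
  have comm_right : ∀ u w v : G, v * u = u * v → ⁅u, w * v⁆ = ⁅u, w⁆ := by
    intro u w v h
    rw [commutatorElement_def, commutatorElement_def]
    have h' : v * u⁻¹ = u⁻¹ * v := by
      calc v * u⁻¹ = u⁻¹ * (u * v) * u⁻¹ := by group
        _ = u⁻¹ * (v * u) * u⁻¹ := by rw [h]
        _ = u⁻¹ * v := by group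
    calc u * (w * v) * u⁻¹ * (w * v)⁻¹ = u * w * (v * u⁻¹) * v⁻¹ * w⁻¹ := by group
      _ = u * w * (u⁻¹ * v) * v⁻¹ * w⁻¹ := by rw [h']
      _ = u * w * u⁻¹ * w⁻¹ := by group
  have comm_left : ∀ u v w : G, v * w = w * v → ⁅u * v, w⁆ = ⁅u, w⁆ := by
    intro u v w h
    rw [commutatorElement_def, commutatorElement_def]
    calc u * v * w * (u * v)⁻¹ * w⁻¹ = u * (v * w) * v⁻¹ * u⁻¹ * w⁻¹ := by group
      _ = u * (w * v) * v⁻¹ * u⁻¹ * w⁻¹ := by rw [h]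
      _ = u * w * u⁻¹ * w⁻¹ := by group
  have conj_id : ∀ x y : G, x * y = y * x → x * y * x⁻¹ = y := by
    intro x y h; rw [h]; group
  have L : ∀ a1 ∈ A, ∀ b1 ∈ B, ∀ a ∈ A, ∀ b ∈ B, ∃ a3 ∈ A, ∃ b2 ∈ B,
      (a1 * b1) * ⁅a, b⁆ * (a1 * b1)⁻¹ = ⁅a3, b2⁆ ∧
      (b1 * a1) * ⁅a, b⁆ * (b1 * a1)⁻¹ = ⁅a3, b2⁆ := by
    intro a1 ha1 b1 hb1 a ha b hb
    obtain ⟨b2, hb2, a2, ha2, h2⟩ := hBA (a1 * b * a1⁻¹)
    obtain ⟨a3, ha3, b3, hb3, h3⟩ := hAB (b1 * a * b1⁻¹)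
    refine ⟨a3, ha3, b2, hb2, ?_, ?_⟩
    · calc (a1 * b1) * ⁅a, b⁆ * (a1 * b1)⁻¹ = a1 * (b1 * ⁅a, b⁆ * b1⁻¹) * a1⁻¹ := by group
        _ = a1 * ⁅b1 * a * b1⁻¹, b1 * b * b1⁻¹⁆ * a1⁻¹ := by rw [conjugate_commutatorElement]
        _ = a1 * ⁅a3 * b3, b⁆ * a1⁻¹ := by rw [h3, conj_id b1 b (hB b1 hb1 b hb)]
        _ = a1 * ⁅a3, b⁆ * a1⁻¹ := by rw [comm_left a3 b3 b (hB b3 hb3 b hb)]
        _ = ⁅a1 * a3 * a1⁻¹, a1 * b * a1⁻¹⁆ := by rw [conjugate_commutatorElement]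
        _ = ⁅a3, b2 * a2⁆ := by rw [h2, conj_id a1 a3 (hA a1 ha1 a3 ha3)]
        _ = ⁅a3, b2⁆ := comm_right a3 b2 a2 (hA a2 ha2 a3 ha3)
    · calc (b1 * a1) * ⁅a, b⁆ * (b1 * a1)⁻¹ = b1 * (a1 * ⁅a, b⁆ * a1⁻¹) * b1⁻¹ := by group
        _ = b1 * ⁅a1 * a * a1⁻¹, a1 * b * a1⁻¹⁆ * b1⁻¹ := by rw [conjugate_commutatorElement]
        _ = b1 * ⁅a, b2 * a2⁆ * b1⁻¹ := by rw [h2, conj_id a1 a (hA a1 ha1 a ha)]
        _ = b1 * ⁅a, b2⁆ * b1⁻¹ := by rw [comm_right a b2 a2 (hA a2 ha2 a ha)]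
        _ = ⁅b1 * a * b1⁻¹, b1 * b2 * b1⁻¹⁆ := by rw [conjugate_commutatorElement]
        _ = ⁅a3 * b3, b2⁆ := by rw [h3, conj_id b1 b2 (hB b1 hb1 b2 hb2)]
        _ = ⁅a3, b2⁆ := comm_left a3 b3 b2 (hB b3 hb3 b2 hb2)
  have hcomm : ∀ a ∈ A, ∀ b ∈ B, ∀ a1 ∈ A, ∀ b1 ∈ B,
      ⁅a1, b1⁆ * ⁅a, b⁆ = ⁅a, b⁆ * ⁅a1, b1⁆ := by
    intro a ha b hb a1 ha1 b1 hb1
    obtain ⟨a', ha', b', hb', h1, -⟩ := L a1⁻¹ (A.inv_mem ha1) b1⁻¹ (B.inv_mem hb1) a ha b hb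
    obtain ⟨a'', ha'', b'', hb'', h3, h4⟩ := L a1 ha1 b1 hb1 a' ha' b' hb'
    rw [← h1] at h3 h4
    generalize ⁅a, b⁆ = c at *
    generalize ⁅a'', b''⁆ = d at *
    have h5 : c = d := by rw [← h4]; group
    rw [← h5] at h3
    have h6 : ⁅a1, b1⁆ * c * ⁅a1, b1⁆⁻¹ = c := by
      calc ⁅a1, b1⁆ * c * ⁅a1, b1⁆⁻¹
          = (a1 * b1) * ((a1⁻¹ * b1⁻¹) * c * (a1⁻¹ * b1⁻¹)⁻¹) * (a1 * b1)⁻¹ := by group
        _ = c := h3
    calc ⁅a1, b1⁆ * c = (⁅a1, b1⁆ * c * ⁅a1, b1⁆⁻¹) * ⁅a1, b1⁆ := by group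
      _ = c * ⁅a1, b1⁆ := by rw [h6]
  have hK : IsMulCommutative (⁅A, B⁆ : Subgroup G) := by
    rw [Subgroup.commutator_def]
    apply Subgroup.isMulCommutative_closure
    rintro x ⟨a1, ha1, b1, hb1, rfl⟩ y ⟨a, ha, b, hb, rfl⟩
    exact hcomm a ha b hb a1 ha1 b1 hb1
  have hKn : (⁅A, B⁆ : Subgroup G).Normal := by
    rw [← Subgroup.normalizer_eq_top_iff, eq_top_iff]
    intro g _
    obtain ⟨a, ha, b, hb, rfl⟩ := hAB g
    exact Subgroup.mul_mem _ (Subgroup.normalizer_commutator_ge_left A B ha)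
      (Subgroup.normalizer_commutator_ge_right A B hb)
  have hle : ⁅(⊤ : Subgroup G), ⊤⁆ ≤ ⁅A, B⁆ := by
    rw [Subgroup.commutator_le]
    intro g _ h _
    obtain ⟨a, ha, b, hb, rfl⟩ := hAB g
    obtain ⟨a', ha', b', hb', rfl⟩ := hAB h
    rw [← QuotientGroup.eq_one_iff, ← QuotientGroup.mk'_apply, map_commutatorElement,
      commutatorElement_eq_one_iff_commute, map_mul, map_mul]
    have c1 : Commute (QuotientGroup.mk' ⁅A, B⁆ a) (QuotientGroup.mk' ⁅A, B⁆ a') :=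
      Commute.map (hA a ha a' ha') _
    have c2 : Commute (QuotientGroup.mk' ⁅A, B⁆ b) (QuotientGroup.mk' ⁅A, B⁆ b') :=
      Commute.map (hB b hb b' hb') _
    have c3 : Commute (QuotientGroup.mk' ⁅A, B⁆ a) (QuotientGroup.mk' ⁅A, B⁆ b') := by
      rw [← commutatorElement_eq_one_iff_commute, ← map_commutatorElement,
        QuotientGroup.mk'_apply, QuotientGroup.eq_one_iff]
      exact Subgroup.commutator_mem_commutator ha hb'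
    have c4 : Commute (QuotientGroup.mk' ⁅A, B⁆ a') (QuotientGroup.mk' ⁅A, B⁆ b) := by
      rw [← commutatorElement_eq_one_iff_commute, ← map_commutatorElement,
        QuotientGroup.mk'_apply, QuotientGroup.eq_one_iff]
      exact Subgroup.commutator_mem_commutator ha' hb
    exact Commute.mul_left (Commute.mul_right c1 c3) (Commute.mul_right c4.symm c2)
  rw [derivedSeries_succ, derivedSeries_succ, derivedSeries_zero, eq_bot_iff]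
  calc ⁅⁅(⊤ : Subgroup G), ⊤⁆, ⁅(⊤ : Subgroup G), ⊤⁆⁆ ≤ ⁅⁅A, B⁆, ⁅A, B⁆⁆ := Subgroup.commutator_mono hle hle
    _ = ⊥ := Subgroup.commutator_self_eq_bot_iff.mpr hK
    _ ≤ ⊥ := le_rfl

end Cfsg.Agent.S0572
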