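import Cfsg.Statements.S0573
import Cfsg.Agent.S0572
import Cfsg.Agent.Lib.Helper5.MinNormal
import Cfsg.Agent.Lib.Helper5.ChiefCover
import Cfsg.Agent.Lib.Helper5.ProdIndex

set_option autoImplicit false
open Cfsg
open scoped commutatorElement

namespace Cfsg.Agent.S0573

open Cfsg.Agent.Lib.Helper5

set_option maxHeartbeats 1000000 in
/-- If a nontrivial finite group G is the product AB of abelian subgroups A and B, then some nontrivial normal subgroup of G is contained in A or in B. -/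
theorem result {G : Type*} [Group G] [Finite G] [Nontrivial G] (A B : Subgroup G) [IsMulCommutative A] [IsMulCommutative B] (hAB : ∀ g : G, ∃ a ∈ A, ∃ b ∈ B, g = a * b) : ∃ N : Subgroup G, N.Normal ∧ N ≠ ⊥ ∧ (N ≤ A ∨ N ≤ B) := by
  classical
  have hA : ∀ x ∈ A, ∀ y ∈ A, x * y = y * x := by
    intro x hx y hy
    have := (inferInstance : IsMulCommutative A).is_comm.comm (⟨x, hx⟩ : A) ⟨y, hy⟩
    exact congrArg Subtype.val this
  have hB : ∀ x ∈ B, ∀ y ∈ B, x * y = y * x := by
    intro x hx y hy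
    have := (inferInstance : IsMulCommutative B).is_comm.comm (⟨x, hx⟩ : B) ⟨y, hy⟩
    exact congrArg Subtype.val this
  by_contra hcon
  have hno : ∀ N : Subgroup G, N.Normal → (N ≤ A ∨ N ≤ B) → N = ⊥ := by
    intro N hN h
    by_contra hne
    exact hcon ⟨N, hN, hne, h⟩
  have hcen : ∀ z : G, (∀ a ∈ A, a * z = z * a) → (∀ b ∈ B, b * z = z * b) →
      ∀ g : G, g * z = z * g := by
    intro z h1 h2 g
    obtain ⟨a, ha, b, hb, rfl⟩ := hAB g
    rw [mul_assoc, h2 b hb, ← mul_assoc, h1 a ha, mul_assoc]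
  have hzn : ∀ z : G, (∀ g : G, g * z = z * g) → (Subgroup.zpowers z).Normal := by
    intro z hc
    constructor
    intro n hn g
    have h1 : g * n * g⁻¹ = n := by
      obtain ⟨k, rfl⟩ := Subgroup.mem_zpowers_iff.mp hn
      have h2 : Commute g (z ^ k) := Commute.zpow_right (hc g) k
      rw [h2.eq]; group
    rw [h1]; exact hn
  have hZA : ∀ z ∈ A, (∀ g : G, g * z = z * g) → z = 1 := by
    intro z hz hc
    have := hno _ (hzn z hc) (Or.inl (by rw [Subgroup.zpowers_le]; exact hz))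
    rwa [Subgroup.zpowers_eq_bot] at this
  have hZB : ∀ z ∈ B, (∀ g : G, g * z = z * g) → z = 1 := by
    intro z hz hc
    have := hno _ (hzn z hc) (Or.inr (by rw [Subgroup.zpowers_le]; exact hz))
    rwa [Subgroup.zpowers_eq_bot] at this
  have hZ : ∀ z : G, (∀ g : G, g * z = z * g) → z = 1 := by
    intro z hc
    obtain ⟨a, ha, b, hb, rfl⟩ := hAB z
    have ha1 : a = 1 := by
      apply hZA a ha
      apply hcen
      · intro a' ha'; exact hA a' ha' a ha
      · intro b' hb'
        have h1 := hc b'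
        calc b' * a = b' * (a * b) * b⁻¹ := by group
          _ = a * b * b' * b⁻¹ := by rw [h1]
          _ = a * (b * b') * b⁻¹ := by group
          _ = a * (b' * b) * b⁻¹ := by rw [hB b hb b' hb']
          _ = a * b' := by group
    subst ha1
    rw [one_mul] at hc ⊢
    exact hZB b hb hc
  have hder : derivedSeries G 2 = ⊥ := Cfsg.Agent.S0572.result A B hAB
  have hsolv : Group.IsSolvable G := ⟨⟨2, hder⟩⟩
  have hDn : (commutator G).Normal := inferInstance
  have hDab : ∀ x ∈ commutator G, ∀ y ∈ commutator G, x * y = y * x := by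
    have h1 : ⁅commutator G, commutator G⁆ = ⊥ := by
      have : derivedSeries G 2 = ⁅commutator G, commutator G⁆ := by
        rw [derivedSeries_succ, derivedSeries_succ, derivedSeries_zero, commutator_def]
      rw [← this]; exact hder
    rw [Subgroup.commutator_eq_bot_iff_le_centralizer] at h1
    intro x hx y hy
    exact (Subgroup.mem_centralizer_iff.mp (h1 hx) y hy).symm
  have hcomD : ∀ g h : G, ⁅g, h⁆ ∈ commutator G := fun g h => by
    rw [commutator_def]
    exact Subgroup.commutator_mem_commutator (Subgroup.mem_top g) (Subgroup.mem_top h)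
  have hDne : commutator G ≠ ⊥ := by
    intro h
    obtain ⟨z, hz⟩ := exists_ne (1 : G)
    apply hz
    apply hZ
    intro g
    have := hcomD g z
    rw [h, Subgroup.mem_bot, commutatorElement_eq_one_iff_mul_comm] at this
    exact this
  obtain ⟨M, hMn, hMne, hMD, hmin⟩ := exists_minimal_normal (commutator G) hDn hDne
  obtain ⟨p, hp, hMp⟩ := minimal_normal_isPGroup hMne hmin
  have hpf : Fact p.Prime := ⟨hp⟩
  have hDM : ∀ d ∈ commutator G, ∀ m ∈ M, d * m = m * d :=
    fun d hd m hm => hDab d hd m (hMD hm)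
  have hinv : ∀ X : Set G, (M ⊓ Subgroup.centralizer X).Normal := by
    intro X
    constructor
    intro m hm g
    obtain ⟨hm1, hm2⟩ := Subgroup.mem_inf.mp hm
    refine Subgroup.mem_inf.mpr ⟨hMn.conj_mem m hm1 g, ?_⟩
    rw [Subgroup.mem_centralizer_iff] at hm2 ⊢
    intro x hx
    obtain ⟨c, hcD, e1⟩ : ∃ c ∈ commutator G, x * g = g * x * c :=
      ⟨⁅x⁻¹, g⁻¹⁆, hcomD _ _, by rw [commutatorElement_def]; group⟩
    have h1 := hDM c hcD m hm1
    have h2 := hm2 x hx
    calc x * (g * m * g⁻¹) = (x * g) * m * g⁻¹ := by group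
      _ = g * x * (c * m) * g⁻¹ := by rw [e1]; group
      _ = g * (x * m) * c * g⁻¹ := by rw [h1]; group
      _ = g * (m * x) * c * g⁻¹ := by rw [h2]
      _ = g * m * g⁻¹ * (g * x * c) * g⁻¹ := by group
      _ = g * m * g⁻¹ * (x * g) * g⁻¹ := by rw [e1]
      _ = g * m * g⁻¹ * x := by group
  have hmin' : ∀ X : Set G, (∃ z ∈ M, z ≠ 1 ∧ ∀ x ∈ X, x * z = z * x) →
      ∀ m ∈ M, ∀ x ∈ X, x * m = m * x := by
    rintro X ⟨z, hzM, hz1, hzX⟩ m hm x hx
    rcases hmin _ (hinv X) inf_le_left with h | h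
    · exfalso
      have : z ∈ M ⊓ Subgroup.centralizer X :=
        Subgroup.mem_inf.mpr ⟨hzM, Subgroup.mem_centralizer_iff.mpr hzX⟩
      rw [h, Subgroup.mem_bot] at this
      exact hz1 this
    · have : m ∈ M ⊓ Subgroup.centralizer X := by rw [h]; exact hm
      exact Subgroup.mem_centralizer_iff.mp (Subgroup.mem_inf.mp this).2 x hx
  have hCA : ∀ m ∈ M, (∀ a ∈ A, a * m = m * a) → m = 1 := by
    intro m hm hma
    by_contra hm1
    have hall := hmin' (A : Set G) ⟨m, hm, hm1, hma⟩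
    have hMA : M ≤ A := by
      intro m' hm'
      obtain ⟨a, ha, b, hb, hab⟩ := hAB m'
      have hb1 : b = 1 := by
        apply hZB b hb
        apply hcen
        · intro a' ha'
          have h1 := hall m' hm' a' ha'
          have hb' : b = a⁻¹ * m' := by rw [hab]; group
          rw [hb']
          calc a' * (a⁻¹ * m') = (a' * a⁻¹) * m' := by group
            _ = (a⁻¹ * a') * m' := by rw [hA a' ha' a⁻¹ (A.inv_mem ha)]
            _ = a⁻¹ * (a' * m') := by group
            _ = a⁻¹ * (m' * a') := by rw [h1]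
            _ = a⁻¹ * m' * a' := by group
        · intro b' hb'; exact hB b' hb' b hb
      rw [hab, hb1, mul_one]; exact ha
    exact hMne (hno M hMn (Or.inl hMA))
  have hCB : ∀ m ∈ M, (∀ b ∈ B, b * m = m * b) → m = 1 := by
    intro m hm hmb
    by_contra hm1
    have hall := hmin' (B : Set G) ⟨m, hm, hm1, hmb⟩
    have hMB : M ≤ B := by
      intro m' hm'
      obtain ⟨a, ha, b, hb, hab⟩ := hAB m'
      have ha1 : a = 1 := by
        apply hZA a ha
        apply hcen
        · intro a' ha'; exact hA a' ha' a ha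
        · intro b' hb'
          have h1 := hall m' hm' b' hb'
          have ha' : a = m' * b⁻¹ := by rw [hab]; group
          rw [ha']
          calc b' * (m' * b⁻¹) = (b' * m') * b⁻¹ := by group
            _ = (m' * b') * b⁻¹ := by rw [h1]
            _ = m' * (b' * b⁻¹) := by group
            _ = m' * (b⁻¹ * b') := by rw [hB b' hb' b⁻¹ (B.inv_mem hb)]
            _ = m' * b⁻¹ * b' := by group
      rw [hab, ha1, one_mul]; exact hb
    exact hMne (hno M hMn (Or.inr hMB))
  have hpc : ∀ Q : Subgroup G, IsPGroup p Q → ∀ x ∈ Q, ∀ m ∈ M, x * m = m * x := by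
    intro Q hQ x hx m hm
    obtain ⟨z, hzM, hz1, hzQ⟩ := exists_central_of_normal_pgroup p M hMne hMp Q hQ
    exact hmin' (Q : Set G) ⟨z, hzM, hz1, hzQ⟩ m hm x hx
  have hCmem : ∀ x, x ∈ Subgroup.centralizer (M : Set G) ↔ ∀ m ∈ M, m * x = x * m :=
    fun x => Subgroup.mem_centralizer_iff
  have hCn : (Subgroup.centralizer (M : Set G)).Normal := inferInstance
  have hCidx : ¬ p ∣ (Subgroup.centralizer (M : Set G)).index := by
    obtain ⟨P⟩ := (inferInstance : Nonempty (Sylow p G))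
    have hPC : (P : Subgroup G) ≤ Subgroup.centralizer (M : Set G) := by
      intro x hx
      rw [hCmem]
      intro m hm
      exact (hpc P P.isPGroup' x hx m hm).symm
    intro hdvd
    exact P.not_dvd_index (dvd_trans hdvd (Subgroup.index_dvd_of_le hPC))
  have hAB1 : ∀ x ∈ A, x ∈ B → x = 1 := by
    intro x hxA hxB
    exact hZ x (hcen x (fun a ha => hA a ha x hxA) (fun b hb => hB b hb x hxB))
  have hBM1 : ∀ x ∈ B, x ∈ M → x = 1 :=
    fun x hxB hxM => hCB x hxM (fun b hb => hB b hb x hxB)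
  have hA₁mem : ∀ x, x ∈ A ⊓ (B ⊔ M) ↔ x ∈ A ∧ ∃ b ∈ B, ∃ m ∈ M, x = b * m := by
    intro x
    rw [Subgroup.mem_inf, Subgroup.mem_sup_of_normal_right]
    constructor
    · rintro ⟨h1, b, hb, m, hm, rfl⟩; exact ⟨h1, b, hb, m, hm, rfl⟩
    · rintro ⟨h1, b, hb, m, hm, rfl⟩; exact ⟨h1, b, hb, m, hm, rfl⟩
  have hcard : Nat.card (A ⊓ (B ⊔ M) : Subgroup G) = Nat.card M := by
    apply le_antisymm
    · have hex : ∀ x : (A ⊓ (B ⊔ M) : Subgroup G), ∃ b ∈ B, (x : G) * b⁻¹ ∈ M := by
        intro x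
        obtain ⟨-, b, hb, m, hm, hx⟩ := (hA₁mem x).mp x.2
        refine ⟨b, hb, ?_⟩
        rw [hx]
        have h1 : b * m * b⁻¹ ∈ M := hMn.conj_mem m hm b
        exact h1
      choose f hf1 hf2 using hex
      apply Nat.card_le_card_of_injective
        (fun x : (A ⊓ (B ⊔ M) : Subgroup G) => (⟨(x : G) * (f x)⁻¹, hf2 x⟩ : M))
      intro x y hxy
      have h1 : (x : G) * (f x)⁻¹ = (y : G) * (f y)⁻¹ := congrArg Subtype.val hxy
      have h2 : (y : G)⁻¹ * x = (f y)⁻¹ * f x := by
        calc (y : G)⁻¹ * x = (y : G)⁻¹ * (x * (f x)⁻¹) * f x := by group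
          _ = (y : G)⁻¹ * (y * (f y)⁻¹) * f x := by rw [h1]
          _ = (f y)⁻¹ * f x := by group
      have h3 : (y : G)⁻¹ * x = 1 := by
        apply hAB1
        · exact A.mul_mem (A.inv_mem ((hA₁mem y).mp y.2).1) ((hA₁mem x).mp x.2).1
        · rw [h2]; exact B.mul_mem (B.inv_mem (hf1 y)) (hf1 x)
      apply Subtype.ext
      exact (inv_mul_eq_one.mp h3).symm
    · have hex : ∀ m : M, ∃ a ∈ (A ⊓ (B ⊔ M) : Subgroup G), ∃ b ∈ B, (m : G) = a * b := by
        intro m
        obtain ⟨a, ha, b, hb, hm⟩ := hAB m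
        refine ⟨a, ?_, b, hb, hm⟩
        rw [hA₁mem]
        refine ⟨ha, b⁻¹, B.inv_mem hb, b * m * b⁻¹, hMn.conj_mem _ m.2 b, ?_⟩
        rw [hm]; group
      choose f hf1 g hg1 hfg using hex
      apply Nat.card_le_card_of_injective
        (fun m : M => (⟨f m, hf1 m⟩ : (A ⊓ (B ⊔ M) : Subgroup G)))
      intro m m' hmm
      have h1 : f m = f m' := congrArg Subtype.val hmm
      have h2 : (m : G)⁻¹ * m' = (g m)⁻¹ * g m' := by
        rw [hfg m, hfg m', h1]; group
      have h3 : (m : G)⁻¹ * m' = 1 := by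
        apply hBM1
        · rw [h2]; exact B.mul_mem (B.inv_mem (hg1 m)) (hg1 m')
        · exact M.mul_mem (M.inv_mem m.2) m'.2
      apply Subtype.ext
      exact inv_mul_eq_one.mp h3
  have hA₁p : IsPGroup p (A ⊓ (B ⊔ M) : Subgroup G) := by
    obtain ⟨k, hk⟩ := IsPGroup.iff_card.mp hMp
    exact IsPGroup.of_card (hcard.trans hk)
  have hA₁M : ∀ x ∈ A ⊓ (B ⊔ M), ∀ m ∈ M, x * m = m * x := hpc _ hA₁p
  have hconjB : ∀ b ∈ B, ∀ x ∈ A ⊓ (B ⊔ M), ∃ t ∈ M, b * x * b⁻¹ = x * t ∧
      ((∀ m ∈ M, b * m = m * b) → t = 1) := by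
    intro b hb x hx
    obtain ⟨hxA, b₁, hb₁, m₁, hm₁, rfl⟩ := (hA₁mem x).mp hx
    refine ⟨m₁⁻¹ * (b * m₁ * b⁻¹), M.mul_mem (M.inv_mem hm₁) (hMn.conj_mem m₁ hm₁ b), ?_, ?_⟩
    · calc b * (b₁ * m₁) * b⁻¹ = (b * b₁) * m₁ * b⁻¹ := by group
        _ = (b₁ * b) * m₁ * b⁻¹ := by rw [hB b hb b₁ hb₁]
        _ = b₁ * m₁ * (m₁⁻¹ * (b * m₁ * b⁻¹)) := by group
    · intro hbm
      rw [hbm m₁ hm₁]; group
  have hconj : ∀ g : G, ∀ x ∈ A ⊓ (B ⊔ M), ∃ t ∈ M, g * x * g⁻¹ = x * t := by
    intro g x hx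
    obtain ⟨a, ha, b, hb, rfl⟩ := hAB g
    obtain ⟨t, ht, h1, -⟩ := hconjB b hb x hx
    refine ⟨a * t * a⁻¹, hMn.conj_mem t ht a, ?_⟩
    have hxA : x ∈ A := ((hA₁mem x).mp hx).1
    calc a * b * x * (a * b)⁻¹ = a * (b * x * b⁻¹) * a⁻¹ := by group
      _ = a * (x * t) * a⁻¹ := by rw [h1]
      _ = (a * x) * t * a⁻¹ := by group
      _ = (x * a) * t * a⁻¹ := by rw [hA a ha x hxA]
      _ = x * (a * t * a⁻¹) := by group
  have hNmem : ∀ g, g ∈ Subgroup.centralizer ((A ⊓ (B ⊔ M) : Subgroup G) : Set G) ⊓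
      Subgroup.centralizer (M : Set G) ↔
      (∀ x ∈ A ⊓ (B ⊔ M), x * g = g * x) ∧ (∀ m ∈ M, m * g = g * m) := by
    intro g; rw [Subgroup.mem_inf, Subgroup.mem_centralizer_iff, hCmem]; rfl
  have hNn : (Subgroup.centralizer ((A ⊓ (B ⊔ M) : Subgroup G) : Set G) ⊓
      Subgroup.centralizer (M : Set G)).Normal := by
    constructor
    intro n hn g
    rw [hNmem] at hn ⊢
    obtain ⟨hn1, hn2⟩ := hn
    constructor
    · intro x hx
      obtain ⟨t, ht, h1⟩ := hconj g⁻¹ x hx
      have h2 : (x * t) * n = n * (x * t) := by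
        rw [mul_assoc, hn2 t ht, ← mul_assoc, hn1 x hx, mul_assoc]
      have h1' : g⁻¹ * x * g = x * t := by simpa using h1
      calc x * (g * n * g⁻¹) = g * (g⁻¹ * x * g) * n * g⁻¹ := by group
        _ = g * ((x * t) * n) * g⁻¹ := by rw [h1']; group
        _ = g * (n * (x * t)) * g⁻¹ := by rw [h2]
        _ = g * n * (g⁻¹ * x * g) * g⁻¹ := by rw [h1']; group
        _ = g * n * g⁻¹ * x := by group
    · intro m hm
      have h3 := hn2 (g⁻¹ * m * g) (by simpa using hMn.conj_mem m hm g⁻¹)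
      calc m * (g * n * g⁻¹) = g * ((g⁻¹ * m * g) * n) * g⁻¹ := by group
        _ = g * (n * (g⁻¹ * m * g)) * g⁻¹ := by rw [h3]
        _ = g * n * g⁻¹ * m := by group
  have hAN : A ⊓ Subgroup.centralizer (M : Set G) ≤
      Subgroup.centralizer ((A ⊓ (B ⊔ M) : Subgroup G) : Set G) ⊓
      Subgroup.centralizer (M : Set G) := by
    intro a ha
    obtain ⟨haA, haC⟩ := Subgroup.mem_inf.mp ha
    rw [hNmem]
    exact ⟨fun x hx => hA x ((hA₁mem x).mp hx).1 a haA, (hCmem a).mp haC⟩
  have hBN : B ⊓ Subgroup.centralizer (M : Set G) ≤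
      Subgroup.centralizer ((A ⊓ (B ⊔ M) : Subgroup G) : Set G) ⊓
      Subgroup.centralizer (M : Set G) := by
    intro b hb
    obtain ⟨hbB, hbC⟩ := Subgroup.mem_inf.mp hb
    rw [hNmem]
    refine ⟨fun x hx => ?_, (hCmem b).mp hbC⟩
    obtain ⟨t, ht, h1, h2⟩ := hconjB b hbB x hx
    have ht1 : t = 1 := h2 (fun m hm => ((hCmem b).mp hbC m hm).symm)
    rw [ht1, mul_one] at h1
    calc x * b = (b * x * b⁻¹) * b := by rw [h1]
      _ = b * x := by group
  have hNidx : ¬ p ∣ (Subgroup.centralizer ((A ⊓ (B ⊔ M) : Subgroup G) : Set G) ⊓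
      Subgroup.centralizer (M : Set G)).index := by
    have h1 := index_dvd_relIndex_mul_relIndex A B
      (Subgroup.centralizer ((A ⊓ (B ⊔ M) : Subgroup G) : Set G) ⊓
      Subgroup.centralizer (M : Set G)) hAB
    have hA' : ¬ p ∣ (Subgroup.centralizer ((A ⊓ (B ⊔ M) : Subgroup G) : Set G) ⊓
        Subgroup.centralizer (M : Set G)).relIndex A := by
      intro h
      have h2 := Subgroup.relIndex_dvd_of_le_left A hAN
      have h3 : (A ⊓ Subgroup.centralizer (M : Set G)).relIndex A =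
          (Subgroup.centralizer (M : Set G)).relIndex A := Subgroup.inf_relIndex_left A _
      have h4 : (Subgroup.centralizer (M : Set G)).relIndex A ∣
          (Subgroup.centralizer (M : Set G)).index := Subgroup.relIndex_dvd_index_of_normal _ A
      rw [h3] at h2
      exact hCidx (dvd_trans h (dvd_trans h2 h4))
    have hB' : ¬ p ∣ (Subgroup.centralizer ((A ⊓ (B ⊔ M) : Subgroup G) : Set G) ⊓
        Subgroup.centralizer (M : Set G)).relIndex B := by
      intro h
      have h2 := Subgroup.relIndex_dvd_of_le_left B hBN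
      have h3 : (B ⊓ Subgroup.centralizer (M : Set G)).relIndex B =
          (Subgroup.centralizer (M : Set G)).relIndex B := Subgroup.inf_relIndex_left B _
      have h4 : (Subgroup.centralizer (M : Set G)).relIndex B ∣
          (Subgroup.centralizer (M : Set G)).index := Subgroup.relIndex_dvd_index_of_normal _ B
      rw [h3] at h2
      exact hCidx (dvd_trans h (dvd_trans h2 h4))
    intro h
    rcases (Nat.Prime.dvd_mul hp).mp (dvd_trans h h1) with h | h
    · exact hA' h
    · exact hB' h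
  have hCN : ∀ c ∈ Subgroup.centralizer (M : Set G), ∀ x ∈ A ⊓ (B ⊔ M), x * c = c * x := by
    intro c hc x hx
    have hcM : ∀ m ∈ M, m * c = c * m := (hCmem c).mp hc
    have hpow : c ^ Nat.card M ∈ Subgroup.centralizer ((A ⊓ (B ⊔ M) : Subgroup G) : Set G) ⊓
        Subgroup.centralizer (M : Set G) := by
      rw [hNmem]
      constructor
      · intro y hy
        obtain ⟨t, ht, h1⟩ := hconj c y hy
        have h2 : ∀ k : ℕ, c ^ k * y * (c ^ k)⁻¹ = y * t ^ k := by
          intro k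
          induction k with
          | zero => simp
          | succ k ih =>
            have h3 : c * t ^ k * c⁻¹ = t ^ k := by
              have := hcM (t ^ k) (M.pow_mem ht k)
              rw [← this]; group
            calc c ^ (k + 1) * y * (c ^ (k + 1))⁻¹ = c * (c ^ k * y * (c ^ k)⁻¹) * c⁻¹ := by
                  rw [pow_succ']; group
              _ = c * (y * t ^ k) * c⁻¹ := by rw [ih]
              _ = (c * y * c⁻¹) * (c * t ^ k * c⁻¹) := by group
              _ = y * t * t ^ k := by rw [h1, h3]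
              _ = y * t ^ (k + 1) := by rw [pow_succ']; group
        have h4 : t ^ Nat.card M = 1 := by
          have h5 := pow_card_eq_one' (G := M) (x := ⟨t, ht⟩)
          exact congrArg Subtype.val h5
        have h5 := h2 (Nat.card M)
        rw [h4, mul_one] at h5
        calc y * c ^ Nat.card M
            = (c ^ Nat.card M * y * (c ^ Nat.card M)⁻¹) * c ^ Nat.card M := by rw [h5]
          _ = c ^ Nat.card M * y := by group
      · intro m hm
        exact (Commute.pow_right (hcM m hm) _).eq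
    have hidx := Subgroup.pow_index_mem (Subgroup.centralizer ((A ⊓ (B ⊔ M) : Subgroup G) : Set G) ⊓
        Subgroup.centralizer (M : Set G)) c
    have hcop : Nat.Coprime (Nat.card M) (Subgroup.centralizer ((A ⊓ (B ⊔ M) : Subgroup G) : Set G) ⊓
        Subgroup.centralizer (M : Set G)).index := by
      obtain ⟨k, hk⟩ := IsPGroup.iff_card.mp hMp
      rw [hk]
      exact Nat.Coprime.pow_left _ ((Nat.Prime.coprime_iff_not_dvd hp).mpr hNidx)
    have hcN : c ∈ Subgroup.centralizer ((A ⊓ (B ⊔ M) : Subgroup G) : Set G) ⊓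
        Subgroup.centralizer (M : Set G) := by
      have h3 := Nat.gcd_eq_gcd_ab (Nat.card M) (Subgroup.centralizer ((A ⊓ (B ⊔ M) : Subgroup G) : Set G) ⊓
        Subgroup.centralizer (M : Set G)).index
      rw [hcop] at h3
      have h4 : c = (c ^ Nat.card M) ^ (Nat.gcdA (Nat.card M) (Subgroup.centralizer ((A ⊓ (B ⊔ M) : Subgroup G) : Set G) ⊓
        Subgroup.centralizer (M : Set G)).index) * (c ^ (Subgroup.centralizer ((A ⊓ (B ⊔ M) : Subgroup G) : Set G) ⊓
        Subgroup.centralizer (M : Set G)).index) ^ (Nat.gcdB (Nat.card M) (Subgroup.centralizer ((A ⊓ (B ⊔ M) : Subgroup G) : Set G) ⊓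
        Subgroup.centralizer (M : Set G)).index) := by
        rw [← zpow_natCast, ← zpow_natCast, ← zpow_mul, ← zpow_mul, ← zpow_add, ← h3]
        simp
      rw [h4]
      exact Subgroup.mul_mem _ (Subgroup.zpow_mem _ hpow _) (Subgroup.zpow_mem _ hidx _)
    exact ((hNmem c).mp hcN).1 x hx
  have hfinal : ∀ x ∈ A ⊓ (B ⊔ M), x = 1 := by
    intro x hx
    have hxA : x ∈ A := ((hA₁mem x).mp hx).1
    apply hZ
    apply hcen
    · intro a ha; exact hA a ha x hxA
    · intro b hb
      obtain ⟨t, ht, h1, -⟩ := hconjB b hb x hx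
      have ht1 : t = 1 := by
        apply hCA t ht
        intro a ha
        have ht_eq : t = x⁻¹ * (b * x * b⁻¹) := by rw [h1]; group
        obtain ⟨c, hcD, e1⟩ : ∃ c ∈ commutator G, a * b = c * b * a :=
          ⟨⁅a, b⁆, hcomD a b, by rw [commutatorElement_def]; group⟩
        have hcC : c ∈ Subgroup.centralizer (M : Set G) :=
          (hCmem c).mpr (fun m hm => (hDM c hcD m hm).symm)
        have hcx : x * c = c * x := hCN c hcC x hx
        have hct : c * t = t * c := hDM c hcD t ht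
        have hax : a * x = x * a := hA a ha x hxA
        have e_ax : a * x⁻¹ = x⁻¹ * a := by
          calc a * x⁻¹ = x⁻¹ * (x * a) * x⁻¹ := by group
            _ = x⁻¹ * (a * x) * x⁻¹ := by rw [hax]
            _ = x⁻¹ * a := by group
        have e2 : a * b⁻¹ = b⁻¹ * c⁻¹ * a := by
          calc a * b⁻¹ = b⁻¹ * c⁻¹ * (c * b * a) * b⁻¹ := by group
            _ = b⁻¹ * c⁻¹ * (a * b) * b⁻¹ := by rw [e1]
            _ = b⁻¹ * c⁻¹ * a := by group
        have hcx' : x⁻¹ * c = c * x⁻¹ := by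
          calc x⁻¹ * c = x⁻¹ * (c * x) * x⁻¹ := by group
            _ = x⁻¹ * (x * c) * x⁻¹ := by rw [hcx]
            _ = c * x⁻¹ := by group
        calc a * t = (a * x⁻¹) * b * x * b⁻¹ := by rw [ht_eq]; group
          _ = x⁻¹ * (a * b) * x * b⁻¹ := by rw [e_ax]; group
          _ = x⁻¹ * c * b * (a * x) * b⁻¹ := by rw [e1]; group
          _ = x⁻¹ * c * b * x * (a * b⁻¹) := by rw [hax]; group
          _ = (x⁻¹ * c) * (b * x * b⁻¹) * c⁻¹ * a := by rw [e2]; group
          _ = c * (x⁻¹ * (b * x * b⁻¹)) * c⁻¹ * a := by rw [hcx']; group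
          _ = (c * t) * c⁻¹ * a := by rw [← ht_eq]
          _ = t * a := by rw [hct]; group
      rw [ht1, mul_one] at h1
      calc b * x = (b * x * b⁻¹) * b := by group
        _ = x * b := by rw [h1]
  have hA₁bot : Nat.card (A ⊓ (B ⊔ M) : Subgroup G) = 1 := by
    rw [Subgroup.card_eq_one]
    exact (Subgroup.eq_bot_iff_forall _).mpr hfinal
  rw [hcard] at hA₁bot
  exact hMne (Subgroup.card_eq_one.mp hA₁bot)

end Cfsg.Agent.S0573
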