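import Cfsg.Statements.S0571
import Cfsg.Agent.S0573
import Cfsg.Agent.Lib.Helper5.Supersolvable

set_option autoImplicit false
open Cfsg

namespace Cfsg.Agent.S0571

open Cfsg.Agent.Lib.Helper5

universe u

theorem aux : ∀ (n : ℕ) (G : Type u) [Group G] [Finite G] (A B : Subgroup G),
    Nat.card G = n → IsCyclic A → IsCyclic B → (∀ g : G, ∃ a ∈ A, ∃ b ∈ B, g = a * b) →
    SSStar G := by
  intro n
  induction n using Nat.strong_induction_on with
  | _ n ih =>
    intro G _ _ A B hn hA hB hAB
    by_cases htriv : Nontrivial G
    · obtain ⟨N, hN, hNne, hNAB⟩ := Cfsg.Agent.S0573.result A B hAB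
      have hNcyc : IsCyclic N := by
        rcases hNAB with h | h
        · exact Subgroup.isCyclic_of_le h
        · exact Subgroup.isCyclic_of_le h
      obtain ⟨x, hx⟩ := (Subgroup.isCyclic_iff_exists_zpowers_eq_top N).mp hNcyc
      have hcardlt : Nat.card (G ⧸ N) < n := by
        rw [← hn, ← Subgroup.index_eq_card, ← Subgroup.index_mul_card N]
        have h1 : 1 < Nat.card N := by
          rw [Subgroup.one_lt_card_iff_ne_bot]; exact hNne
        have h2 : 0 < N.index := Nat.pos_of_ne_zero Subgroup.index_ne_zero_of_finite
        nlinarith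
      have hQ : SSStar (G ⧸ N) := by
        refine ih _ hcardlt (G ⧸ N) (A.map (QuotientGroup.mk' N)) (B.map (QuotientGroup.mk' N))
          rfl ?_ ?_ ?_
        · exact isCyclic_of_surjective ((QuotientGroup.mk' N).subgroupMap A)
            ((QuotientGroup.mk' N).subgroupMap_surjective A)
        · exact isCyclic_of_surjective ((QuotientGroup.mk' N).subgroupMap B)
            ((QuotientGroup.mk' N).subgroupMap_surjective B)
        · intro q
          obtain ⟨g, rfl⟩ := QuotientGroup.mk'_surjective N q
          obtain ⟨a, ha, b, hb, rfl⟩ := hAB g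
          exact ⟨_, Subgroup.mem_map_of_mem _ ha, _, Subgroup.mem_map_of_mem _ hb, map_mul _ _ _⟩
      refine star_of_ext (QuotientGroup.mk' N) (QuotientGroup.mk'_surjective N) ?_ hQ
      intro K hK hker
      rw [QuotientGroup.ker_mk'] at hker
      refine ⟨x, ?_, ?_⟩
      · intro hxK
        apply hker
        rw [← hx, Subgroup.zpowers_le]
        exact hxK
      · rw [hx]
        exact Subgroup.sup_normal K N
    · rw [not_nontrivial_iff_subsingleton] at htriv
      intro K hK hKtop
      exact absurd (Subsingleton.elim K ⊤) hKtop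

/-- If a finite group G is the product AB of two cyclic subgroups (every element is a product ab), then G is supersolvable. -/
theorem result {G : Type*} [Group G] [Finite G] (A B : Subgroup G) [IsCyclic A] [IsCyclic B] (hAB : ∀ g : G, ∃ a ∈ A, ∃ b ∈ B, g = a * b) : Cfsg.IsSupersolvable G := by
  exact star_imp_ss (aux _ G A B rfl inferInstance inferInstance hAB)

end Cfsg.Agent.S0571
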