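import Cfsg.Statements.S0576
import Mathlib

set_option autoImplicit false
open Pointwise
open Cfsg

namespace Cfsg.Agent.S0576

/-- Let H be a normal subgroup of a finite group G with H contained in the Frattini subgroup of G. Then the group of inner automorphisms of H is contained in the Frattini subgroup of the automorphism group of H. -/
theorem result {G : Type*} [Group G] [Finite G] (H : Subgroup G) [H.Normal] (hH : H ≤ frattini G) : (MulAut.conj : ↥H →* MulAut ↥H).range ≤ frattini (MulAut ↥H) := by
  let φ : G →* MulAut H := MulAut.conjNormal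
  have hnorm : (MulAut.conj : ↥H →* MulAut ↥H).range.Normal := by
    constructor
    rintro f ⟨h, rfl⟩ α
    refine ⟨α h, ?_⟩
    ext x
    simp [MulAut.conj_apply]
  unfold frattini Order.radical
  simp only [le_iInf_iff]
  intro U hU
  by_contra hnot
  have hsup : (MulAut.conj : ↥H →* MulAut ↥H).range ⊔ U = ⊤ := by
    apply hU.2
    refine lt_of_le_of_ne le_sup_right ?_
    intro heq
    apply hnot
    rw [heq]
    exact le_sup_left
  have hL : U.comap φ ⊔ frattini G = ⊤ := by
    rw [eq_top_iff]
    intro g _
    have hg : φ g ∈ (MulAut.conj : ↥H →* MulAut ↥H).range ⊔ U := by rw [hsup]; trivial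
    rw [← SetLike.mem_coe, Subgroup.normal_mul] at hg
    obtain ⟨f, ⟨h, rfl⟩, u, hu, hfu⟩ := hg
    have h1 : φ ((h : G)⁻¹ * g) = u := by
      rw [map_mul, map_inv, ← hfu]
      have : φ (h : G) = MulAut.conj h := MulAut.conjNormal_val
      rw [this]; group
    have h2 : (h : G)⁻¹ * g ∈ U.comap φ := by
      rw [Subgroup.mem_comap, h1]; exact hu
    have : g = ((h : G)⁻¹ * g) * (((h : G)⁻¹ * g)⁻¹ * (h : G) * ((h : G)⁻¹ * g)) := by group
    rw [this]
    refine Subgroup.mul_mem _ (Subgroup.mem_sup_left h2) (Subgroup.mem_sup_right ?_)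
    apply hH
    exact (inferInstance : H.Normal).conj_mem' _ h.2 _ |> fun hh => by simpa [mul_assoc] using hh
  have hL' := frattini_nongenerating hL
  apply hnot
  rintro f ⟨h, rfl⟩
  have : (h : G) ∈ U.comap φ := by rw [hL']; trivial
  rw [Subgroup.mem_comap] at this
  have h5 : φ (h : G) = MulAut.conj h := MulAut.conjNormal_val
  rw [← h5]; exact this

end Cfsg.Agent.S0576
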