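import Cfsg.Statements.S0577
import Mathlib
import Cfsg.Agent.Lib.Helper1.Schmidt
import Cfsg.Agent.Lib.Helper1.Coprime
import Cfsg.Agent.S0012
import Cfsg.Agent.S0092

set_option autoImplicit false
open Cfsg

namespace Cfsg.Agent.S0577

open Cfsg.Agent.Lib.Helper1
open scoped commutatorElement
set_option linter.style.haveILetI false

/-- Let G be a finite minimal non-nilpotent group and Q a normal Sylow q-subgroup of G, and let D be the commutator subgroup of Q regarded in G (a normal subgroup). Then G modulo D is non-abelian and all its proper subgroups are abelian. -/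
theorem result {G : Type*} [Group G] [Finite G] (hG : Cfsg.IsMinimalNonNilpotent G) (q : ℕ) [Fact q.Prime] (hq : q ∣ Nat.card G) (Q : Sylow q G) (hQ : (Q : Subgroup G).Normal) (D : Subgroup G) [D.Normal] (hD : D = (commutator ↥(Q : Subgroup G)).map (Q : Subgroup G).subtype) : ¬ IsMulCommutative (G ⧸ D) ∧ ∀ K : Subgroup (G ⧸ D), K ≠ ⊤ → IsMulCommutative K := by
  obtain ⟨hnn, hprop⟩ := hG
  have hq0 : q.Prime := Fact.out
  have hex : ∃ p : ℕ, p.Prime ∧ ¬ FrobCond p G := by
    by_contra hcon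
    push Not at hcon
    exact hnn (isNilpotent_of_frobCond hcon)
  obtain ⟨p, hp, hnot⟩ := hex
  haveI : Fact p.Prime := ⟨hp⟩
  obtain ⟨Q₀, g, r, k, hr, hrp, hQ₀, hQ₀n, hord, hgc, htop, hdisj, hcard⟩ := schmidt_core p
    (fun K hK Q hQK hQ x hx hxn hcop => centralizes_of_conj_in_nilpotent K (hprop K hK) Q hQK hQ
      x hxn hcop (fun y _ => ⟨x, hx, rfl⟩)) hnot
  obtain ⟨⟨P, hP⟩, ⟨Q', hQ'⟩⟩ := schmidt_sylows hr hrp hQ₀ hord hcard
  haveI := hQ₀n
  obtain ⟨C, hCdef⟩ : ∃ C : Subgroup G, C = Subgroup.zpowers g := ⟨_, rfl⟩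
  rw [← hCdef] at htop hdisj hP
  have hgC : g ∈ C := hCdef ▸ Subgroup.mem_zpowers g
  have hCcard : Nat.card C = r ^ k := by rw [hCdef, Nat.card_zpowers, hord]
  obtain ⟨n, hn⟩ := IsPGroup.iff_card.mp hQ₀
  have hqp : q = p := by
    by_contra hne
    have h1 : q ∣ p ^ n * r ^ k := by rw [← hn, hcard]; exact hq
    have hqr : q = r := by
      rcases (Nat.Prime.dvd_mul hq0).mp h1 with h2 | h2
      · exact absurd ((Nat.prime_dvd_prime_iff_eq hq0 hp).mp (hq0.dvd_of_dvd_pow h2)) hne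
      · exact (Nat.prime_dvd_prime_iff_eq hq0 hr).mp (hq0.dvd_of_dvd_pow h2)
    subst hqr
    have hsub : Subsingleton (Sylow q G) := (Sylow.unique_of_normal Q hQ).instSubsingleton
    have hPQ : P = Q := Subsingleton.elim _ _
    have hCn : C.Normal := by rw [← hP, hPQ]; exact hQ
    apply hgc
    rw [Subgroup.mem_centralizer_iff]
    intro y hy
    exact (Subgroup.commute_of_normal_of_disjoint _ _ hQ₀n hCn (disjoint_iff.mpr hdisj)
      y g hy hgC).eq
  subst hqp
  have hQeq : (Q : Subgroup G) = Q₀ := by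
    have hsub : Subsingleton (Sylow q G) := (Sylow.unique_of_normal Q hQ).instSubsingleton
    rw [← hQ', Subsingleton.elim Q Q']
  have hDeq : D = ⁅Q₀, Q₀⁆ := by
    rw [hD, commutator_def, Subgroup.map_commutator, ← MonoidHom.range_eq_map,
      Subgroup.range_subtype, hQeq]
  have hcompl : Q₀.IsComplement' C := isComplement'_of_disjoint_of_mul hdisj (by
      intro x
      have hx : x ∈ ((Q₀ ⊔ C : Subgroup G) : Set G) := by rw [htop]; trivial
      rw [Subgroup.normal_mul] at hx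
      obtain ⟨a, ha, b, hb, rfl⟩ := hx
      exact ⟨a, ha, b, hb, rfl⟩)
  have hCcomm : ∀ c ∈ C, ∀ d ∈ C, c * d = d * c := by
    intro c hc d hd
    rw [hCdef] at hc hd
    obtain ⟨i, rfl⟩ := Subgroup.mem_zpowers_iff.mp hc
    obtain ⟨j, rfl⟩ := Subgroup.mem_zpowers_iff.mp hd
    rw [← zpow_add, ← zpow_add, add_comm]
  have hGQ : ∀ x y : G, x * y * x⁻¹ * y⁻¹ ∈ Q₀ := by
    intro x y
    obtain ⟨a, ha, c, hc, rfl⟩ := IsComplement'.exists_mul hcompl x
    obtain ⟨b, hb, d, hd, rfl⟩ := IsComplement'.exists_mul hcompl y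
    have ha' : QuotientGroup.mk' Q₀ a = 1 := (QuotientGroup.eq_one_iff a).mpr ha
    have hb' : QuotientGroup.mk' Q₀ b = 1 := (QuotientGroup.eq_one_iff b).mpr hb
    have hcd : QuotientGroup.mk' Q₀ c * QuotientGroup.mk' Q₀ d =
        QuotientGroup.mk' Q₀ d * QuotientGroup.mk' Q₀ c := by
      rw [← map_mul, ← map_mul, hCcomm c hc d hd]
    have h1 : (QuotientGroup.mk' Q₀) (a * c * (b * d) * (a * c)⁻¹ * (b * d)⁻¹) = 1 := by
      simp only [map_mul, map_inv]
      rw [ha', hb']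
      simp only [one_mul]
      rw [hcd]
      group
    exact (QuotientGroup.eq_one_iff _).mp h1
  have hCnQ : C ≤ Subgroup.normalizer (Q₀ : Set G) := by
    rw [Subgroup.normalizer_eq_top_iff.mpr hQ₀n]; exact le_top
  have hcopCQ : (Nat.card C).Coprime (Nat.card Q₀) := by
    rw [hCcard, hn]
    exact Nat.Coprime.pow _ _ ((Nat.coprime_primes hr hq0).mpr hrp)
  haveI hCsolv : Group.IsSolvable C :=
    Group.isSolvable_of_comm (fun a b => Subtype.ext (hCcomm a a.2 b b.2))
  constructor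
  · intro hcomm
    have h1 : commutator G ≤ D := (Subgroup.Normal.quotient_commutative_iff_commutator_le).mp hcomm
    have h2 : ⁅Q₀, C⁆ ≤ D := by
      refine le_trans ?_ h1
      rw [commutator_def]
      exact Subgroup.commutator_mono le_top le_top
    have hsup := coprime_commutator_sup C Q₀ hCnQ hcopCQ (Or.inl hCsolv)
    have hfr := (Cfsg.Agent.S0012.result q hQ₀).1
    have hK : (Q₀ ⊓ Subgroup.centralizer (C : Set G)).subgroupOf Q₀ ⊔ frattini Q₀ = ⊤ := by
      rw [eq_top_iff]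
      intro x _
      have hx : (x : G) ∈ ((D ⊔ (Q₀ ⊓ Subgroup.centralizer (C : Set G)) : Subgroup G) : Set G) := by
        have hx0 : (x : G) ∈ ⁅Q₀, C⁆ ⊔ (Q₀ ⊓ Subgroup.centralizer (C : Set G)) := by
          rw [hsup]; exact x.2
        exact (sup_le_sup_right h2 _) hx0
      rw [Subgroup.normal_mul] at hx
      obtain ⟨d, hd, c, hc, hdc⟩ := hx
      rw [SetLike.mem_coe, hD] at hd
      obtain ⟨d', hd', rfl⟩ := hd
      have hcQ : c ∈ Q₀ := (Subgroup.mem_inf.mp hc).1
      have hx' : x = (⟨(d' : G), hQeq ▸ d'.2⟩ : Q₀) * ⟨c, hcQ⟩ := Subtype.ext hdc.symm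
      rw [hx', sup_comm]
      refine Subgroup.mul_mem_sup ?_ (Subgroup.mem_subgroupOf.mpr hc)
      have key : ∀ (A B : Subgroup G) (hAB : A = B) (e : A), e ∈ commutator A →
          (⟨(e : G), hAB ▸ e.2⟩ : B) ∈ commutator B := by
        intro A B hAB e he
        subst hAB
        exact he
      exact hfr (key _ _ hQeq d' hd')
    have hKtop := frattini_nongenerating hK
    apply hgc
    rw [Subgroup.mem_centralizer_iff]
    intro y hy
    have hy' : (⟨y, hy⟩ : Q₀) ∈ (Q₀ ⊓ Subgroup.centralizer (C : Set G)).subgroupOf Q₀ := by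
      rw [hKtop]; trivial
    have hyc : y ∈ Subgroup.centralizer (C : Set G) := (Subgroup.mem_inf.mp (Subgroup.mem_subgroupOf.mp hy')).2
    exact (Subgroup.mem_centralizer_iff.mp hyc g hgC).symm
  · intro Kbar hKbar
    obtain ⟨K, hKdef⟩ : ∃ K : Subgroup G, K = Kbar.comap (QuotientGroup.mk' D) := ⟨_, rfl⟩
    have hKtop : K ≠ ⊤ := by
      intro hK
      apply hKbar
      rw [eq_top_iff]
      intro z _
      obtain ⟨x, rfl⟩ := QuotientGroup.mk'_surjective D z
      have hxK : x ∈ K := hK ▸ Subgroup.mem_top x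
      rw [hKdef] at hxK
      exact hxK
    have hKnil := hprop K hKtop
    obtain ⟨Kp, hKpdef⟩ : ∃ Kp : Subgroup G, Kp = K ⊓ Q₀ := ⟨_, rfl⟩
    have hKpK : Kp ≤ K := hKpdef ▸ inf_le_left
    have hKpQ : Kp ≤ Q₀ := hKpdef ▸ inf_le_right
    have hKpp : IsPGroup q Kp := hQ₀.to_le hKpQ
    have hKnKp : K ≤ Subgroup.normalizer (Kp : Set G) := by
      intro x hx
      rw [Subgroup.mem_normalizer_iff]
      intro y
      rw [hKpdef]
      constructor
      · intro hy
        obtain ⟨hyK, hyQ⟩ := Subgroup.mem_inf.mp hy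
        exact Subgroup.mem_inf.mpr ⟨K.mul_mem (K.mul_mem hx hyK) (K.inv_mem hx),
          hQ₀n.conj_mem y hyQ x⟩
      · intro hy
        obtain ⟨hyK, hyQ⟩ := Subgroup.mem_inf.mp hy
        refine Subgroup.mem_inf.mpr ⟨?_, ?_⟩
        · have h3 := K.mul_mem (K.mul_mem (K.inv_mem hx) hyK) hx
          have e : x⁻¹ * (x * y * x⁻¹) * x = y := by group
          rwa [e] at h3
        · have h3 := hQ₀n.conj_mem _ hyQ x⁻¹
          have e : x⁻¹ * (x * y * x⁻¹) * x⁻¹⁻¹ = y := by group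
          rwa [e] at h3
    have hQidx : Q₀.index = r ^ k := by
      have h1 : Nat.card Q₀ * Q₀.index = Nat.card G := Subgroup.card_mul_index _
      rw [← hcard] at h1
      exact Nat.eq_of_mul_eq_mul_left Nat.card_pos h1
    have hrel : Kp.relIndex K ∣ r ^ k := by
      rw [hKpdef, Subgroup.inf_relIndex_left, ← hQidx]
      exact Subgroup.relIndex_dvd_index_of_normal Q₀ K
    have hcoprq : Nat.Coprime r q := (Nat.coprime_primes hr hq0).mpr hrp
    have hcopK : (Nat.card Kp).Coprime (Kp.relIndex K) := by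
      obtain ⟨j, hj⟩ := IsPGroup.iff_card.mp hKpp
      rw [hj]
      exact Nat.Coprime.coprime_dvd_right hrel (Nat.Coprime.pow _ _ hcoprq.symm)
    obtain ⟨R, hRK, hKpR, hRcard, hKmul⟩ :=
      Cfsg.Agent.S0092.exists_complement_rel Kp K hKpK hKnKp hcopK
    have hRcent : ∀ s ∈ R, ∀ a ∈ Kp, s * a = a * s := by
      intro s hs a ha
      have hsord : (orderOf s).Coprime q := by
        have h1 : orderOf s ∣ Nat.card R := by
          have h0 := orderOf_dvd_natCard (⟨s, hs⟩ : R)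
          rwa [Subgroup.orderOf_mk] at h0
        exact Nat.Coprime.coprime_dvd_left (dvd_trans h1 (hRcard ▸ hrel))
          (Nat.Coprime.pow_left k hcoprq)
      have h2 := centralizes_of_conj_in_nilpotent K hKnil Kp hKpK hKpp s (hKnKp (hRK hs)) hsord
        (fun y _ => ⟨s, hRK hs, rfl⟩)
      exact (Subgroup.mem_centralizer_iff.mp h2 a ha).symm
    have hRab : ∀ s ∈ R, ∀ t ∈ R, s * t = t * s := by
      intro s hs t ht
      have h1 : s * t * s⁻¹ * t⁻¹ ∈ Kp ⊓ R := by
        refine Subgroup.mem_inf.mpr ⟨?_, R.mul_mem (R.mul_mem (R.mul_mem hs ht) (R.inv_mem hs))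
          (R.inv_mem ht)⟩
        rw [hKpdef]
        exact Subgroup.mem_inf.mpr ⟨K.mul_mem (K.mul_mem (K.mul_mem (hRK hs) (hRK ht))
          (K.inv_mem (hRK hs))) (K.inv_mem (hRK ht)), hGQ s t⟩
      rw [hKpR, Subgroup.mem_bot] at h1
      calc s * t = (s * t * s⁻¹ * t⁻¹) * (t * s) := by group
        _ = t * s := by rw [h1, one_mul]
    have hKD : ∀ x ∈ K, ∀ y ∈ K, x * y * (y * x)⁻¹ ∈ D := by
      intro x hx y hy
      obtain ⟨a, ha, s, hs, rfl⟩ := hKmul x hx
      obtain ⟨b, hb, t, ht, rfl⟩ := hKmul y hy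
      have e : a * s * (b * t) * (b * t * (a * s))⁻¹ = a * b * a⁻¹ * b⁻¹ := by
        calc a * s * (b * t) * (b * t * (a * s))⁻¹
            = a * (s * b) * t * (b * (t * a) * s)⁻¹ := by group
          _ = a * (b * s) * t * (b * (a * t) * s)⁻¹ := by rw [hRcent s hs b hb, hRcent t ht a ha]
          _ = a * b * (s * t) * (b * a * (t * s))⁻¹ := by group
          _ = a * b * (s * t) * (b * a * (s * t))⁻¹ := by rw [hRab t ht s hs]
          _ = a * b * a⁻¹ * b⁻¹ := by group
      rw [e, hDeq, ← commutatorElement_def]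
      exact Subgroup.commutator_mem_commutator (hKpQ ha) (hKpQ hb)
    refine ⟨⟨fun u v => ?_⟩⟩
    obtain ⟨x, hxu⟩ := QuotientGroup.mk'_surjective D (u : G ⧸ D)
    obtain ⟨y, hyv⟩ := QuotientGroup.mk'_surjective D (v : G ⧸ D)
    have hxK : x ∈ K := by rw [hKdef, Subgroup.mem_comap, hxu]; exact u.2
    have hyK : y ∈ K := by rw [hKdef, Subgroup.mem_comap, hyv]; exact v.2
    apply Subtype.ext
    show (u : G ⧸ D) * (v : G ⧸ D) = (v : G ⧸ D) * (u : G ⧸ D)
    rw [← hxu, ← hyv, ← map_mul, ← map_mul]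
    have h5 : (QuotientGroup.mk' D) (x * y * (y * x)⁻¹) = 1 :=
      (QuotientGroup.eq_one_iff _).mpr (hKD x hxK y hyK)
    rw [map_mul, map_inv] at h5
    exact mul_inv_eq_one.mp h5

end Cfsg.Agent.S0577
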