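import Cfsg.Statements.S0578
import Mathlib

set_option autoImplicit false
open Pointwise
open Cfsg
open scoped commutatorElement

namespace Cfsg.Agent.S0578

theorem sylow_comm {G : Type*} [Group G] [Finite G]
    (h : ∀ A : Subgroup G, IsMulCommutative A →
      Subgroup.normalizer (A : Set G) = Subgroup.centralizer (A : Set G))
    (p : ℕ) [Fact p.Prime] (P : Sylow p G) :
    ∀ x ∈ (P : Subgroup G), ∀ y ∈ (P : Subgroup G), x * y = y * x := by
  obtain ⟨A', hA'⟩ := exists_maximal_of_wellFoundedGT
    (fun A : Subgroup (P : Subgroup G) => IsMulCommutative A) ⟨⊥, inferInstance⟩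
  have hA'c : IsMulCommutative A' := hA'.1
  have hA'comm : ∀ a ∈ A', ∀ b ∈ A', a * b = b * a := by
    intro a ha b hb
    have := hA'c.is_comm.comm (⟨a, ha⟩ : A') ⟨b, hb⟩
    exact congrArg Subtype.val this
  have htop : A' = ⊤ := by
    by_contra hne
    have hnil : Group.IsNilpotent (P : Subgroup G) := P.isPGroup'.isNilpotent
    have hnc := Group.normalizerCondition_of_isNilpotent (G := (P : Subgroup G))
    have hlt := hnc A' (lt_top_iff_ne_top.mpr hne)
    obtain ⟨x, hxN, hxA⟩ := SetLike.exists_of_lt hlt
    have hAc : IsMulCommutative (A'.map (P : Subgroup G).subtype) := by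
      refine ⟨⟨?_⟩⟩
      rintro ⟨_, a, ha, rfl⟩ ⟨_, b, hb, rfl⟩
      apply Subtype.ext
      have := hA'comm a ha b hb
      show (a : G) * b = b * a
      exact congrArg Subtype.val this
    have hxG : (x : G) ∈ Subgroup.normalizer ((A'.map (P : Subgroup G).subtype : Subgroup G) : Set G) :=
      Subgroup.le_normalizer_map _ (Subgroup.mem_map_of_mem _ hxN)
    rw [h _ hAc] at hxG
    have hxcomm : ∀ a ∈ A', a * x = x * a := by
      intro a ha
      have := Subgroup.mem_centralizer_iff.mp hxG (a : G) (Subgroup.mem_map_of_mem _ ha)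
      exact Subtype.ext this
    have hB : IsMulCommutative (Subgroup.closure ((A' : Set (P : Subgroup G)) ∪ {x})) := by
      apply Subgroup.isMulCommutative_closure
      rintro a (ha | ha) b (hb | hb)
      · exact hA'comm a ha b hb
      · rw [Set.mem_singleton_iff] at hb; rw [hb]; exact hxcomm a ha
      · rw [Set.mem_singleton_iff] at ha; rw [ha]; exact (hxcomm b hb).symm
      · rw [Set.mem_singleton_iff] at ha hb; rw [ha, hb]
    have hle : A' ≤ Subgroup.closure ((A' : Set (P : Subgroup G)) ∪ {x}) :=
      fun a ha => Subgroup.subset_closure (Or.inl ha)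
    have h5 := hA'.2 hB hle
    exact hxA (h5 (Subgroup.subset_closure (Or.inr rfl)))
  intro x hx y hy
  have hx' : (⟨x, hx⟩ : (P : Subgroup G)) ∈ A' := by rw [htop]; trivial
  have hy' : (⟨y, hy⟩ : (P : Subgroup G)) ∈ A' := by rw [htop]; trivial
  have := hA'comm _ hx' _ hy'
  exact congrArg Subtype.val this

/-- If in a finite group the normalizer of each abelian subgroup coincides with its centralizer, then the group is abelian. -/
theorem result {G : Type*} [Group G] [Finite G] (h : ∀ A : Subgroup G, IsMulCommutative A → Subgroup.normalizer (A : Set G) = Subgroup.centralizer (A : Set G)) : IsMulCommutative G := by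
  rw [← commutator_eq_bot_iff, ← Subgroup.card_eq_one]
  by_contra hne
  obtain ⟨p, hp, hpd⟩ := Nat.exists_prime_and_dvd hne
  have := Fact.mk hp
  obtain ⟨P⟩ := (inferInstance : Nonempty (Sylow p G))
  have hPc := sylow_comm h p P
  have hPcomm : IsMulCommutative (P : Subgroup G) :=
    ⟨⟨fun a b => Subtype.ext (hPc a a.2 b b.2)⟩⟩
  have hP : Subgroup.normalizer ((P : Subgroup G) : Set G) ≤
      Subgroup.centralizer ((P : Subgroup G) : Set G) := (h P hPcomm).le
  have hker : commutator G ≤ (MonoidHom.transferSylow P hP).ker := by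
    rw [commutator_eq_closure, Subgroup.closure_le]
    rintro c ⟨x, y, rfl⟩
    rw [SetLike.mem_coe, MonoidHom.mem_ker, map_commutatorElement,
      commutatorElement_eq_one_iff_mul_comm]
    exact Subtype.ext (hPc _ (Subtype.property _) _ (Subtype.property _))
  have hnd := MonoidHom.not_dvd_card_ker_transferSylow P hP
  exact hnd (hpd.trans (Subgroup.card_dvd_of_le hker))

end Cfsg.Agent.S0578
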