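import Cfsg.Statements.S0579
import Cfsg.Agent.Lib.Helper5.SSFrattini
import Cfsg.Agent.Lib.Helper5.MinNormal
import Cfsg.Agent.Lib.Helper5.ProdIndex

set_option autoImplicit false
open Cfsg

namespace Cfsg.Agent.S0579

open Cfsg.Agent.Lib.Helper5

universe u

/-- If all maximal subgroups have prime index, the Sylow subgroup for the largest prime divisor
is normal. -/
theorem sylow_normal {G : Type u} [Group G] [Finite G]
    (h : ∀ M : Subgroup G, IsCoatom M → M.index.Prime) (p : ℕ) [Fact p.Prime]
    (hmax : ∀ r : ℕ, r.Prime → r ∣ Nat.card G → r ≤ p) (P : Sylow p G) :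
    (P : Subgroup G).Normal := by
  rw [← Subgroup.normalizer_eq_top_iff]
  by_contra hne
  obtain ⟨M, hM, hle⟩ := (eq_top_or_exists_le_coatom
    (Subgroup.normalizer ((P : Subgroup G) : Set G))).resolve_left hne
  have hr := h M hM
  have hrd : M.index ∣ Nat.card G := Subgroup.index_dvd_card M
  have hrle : M.index ≤ p := hmax _ hr hrd
  have hPM : (P : Subgroup G) ≤ M := Subgroup.le_normalizer.trans hle
  have h1 : Nat.card (Sylow p G) ≡ 1 [MOD p] := card_sylow_modEq_one p G
  have h2 : Nat.card (Sylow p M) ≡ 1 [MOD p] := card_sylow_modEq_one p M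
  have h3 : Nat.card (Sylow p G) = (Subgroup.normalizer ((P : Subgroup G) : Set G)).index :=
    Sylow.card_eq_index_normalizer P
  have h4 : Nat.card (Sylow p M) =
      (Subgroup.normalizer (((P.subtype hPM : Sylow p M) : Subgroup M) : Set M)).index :=
    Sylow.card_eq_index_normalizer (P.subtype hPM)
  have h5 : (Subgroup.normalizer (((P.subtype hPM : Sylow p M) : Subgroup M) : Set M)) =
      (Subgroup.normalizer ((P : Subgroup G) : Set G)).subgroupOf M := by
    rw [Subgroup.subgroupOf_normalizer_eq hPM]; rfl
  have h6 : (Subgroup.normalizer ((P : Subgroup G) : Set G)).relIndex M * M.index =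
      (Subgroup.normalizer ((P : Subgroup G) : Set G)).index := Subgroup.relIndex_mul_index hle
  have h7 : (Subgroup.normalizer ((P : Subgroup G) : Set G)).relIndex M ≡ 1 [MOD p] := by
    rw [Subgroup.relIndex, ← h5, ← h4]; exact h2
  have h8 : M.index ≡ 1 [MOD p] := by
    have h9 : (Subgroup.normalizer ((P : Subgroup G) : Set G)).relIndex M * M.index ≡ 1 [MOD p] := by
      rw [h6, ← h3]; exact h1
    have h10 : (Subgroup.normalizer ((P : Subgroup G) : Set G)).relIndex M * M.index ≡
        1 * M.index [MOD p] := Nat.ModEq.mul_right _ h7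
    rw [one_mul] at h10
    exact h10.symm.trans h9
  have hp : p.Prime := Fact.out
  have h10 : M.index % p = 1 % p := h8
  rw [Nat.mod_eq_of_lt hp.one_lt] at h10
  have hr2 := hr.two_le
  rcases Nat.lt_or_ge M.index p with hlt | hge
  · rw [Nat.mod_eq_of_lt hlt] at h10; omega
  · have h11 : M.index = p := le_antisymm hrle hge
    rw [h11, Nat.mod_self] at h10; omega

theorem aux : ∀ (n : ℕ) (G : Type u) [Group G] [Finite G], Nat.card G = n →
    (∀ M : Subgroup G, IsCoatom M → M.index.Prime) → SSStar G := by
  intro n
  induction n using Nat.strong_induction_on with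
  | _ n ih =>
  intro G _ _ hn h
  by_cases hnt : Nontrivial G
  · have hcard1 : Nat.card G ≠ 1 := by
      intro h1
      have := Finite.one_lt_card_iff_nontrivial.mpr hnt
      omega
    have hcard0 : Nat.card G ≠ 0 := Nat.card_pos.ne'
    have hne : (Nat.card G).primeFactors.Nonempty :=
      ⟨(Nat.card G).minFac,
        Nat.mem_primeFactors.mpr ⟨Nat.minFac_prime hcard1, Nat.minFac_dvd _, hcard0⟩⟩
    obtain ⟨p, hp_def⟩ : ∃ p : ℕ, p = (Nat.card G).primeFactors.max' hne := ⟨_, rfl⟩
    have hpmem : p ∈ (Nat.card G).primeFactors := hp_def ▸ Finset.max'_mem _ hne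
    obtain ⟨hp, hpd, -⟩ := Nat.mem_primeFactors.mp hpmem
    have hpmax : ∀ r : ℕ, r.Prime → r ∣ Nat.card G → r ≤ p := by
      intro r hr hrd
      rw [hp_def]
      exact Finset.le_max' _ r (Nat.mem_primeFactors.mpr ⟨hr, hrd, hcard0⟩)
    have : Fact p.Prime := ⟨hp⟩
    obtain ⟨P⟩ : Nonempty (Sylow p G) := inferInstance
    have hPn : (P : Subgroup G).Normal := sylow_normal h p hpmax P
    have hPne : (P : Subgroup G) ≠ ⊥ := P.ne_bot_of_dvd_card hpd
    obtain ⟨N, hNn, hNne, hNle, hNmin⟩ := exists_minimal_normal (P : Subgroup G) hPn hPne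
    have := hNn
    have hNp : IsPGroup p N := P.isPGroup'.to_le hNle
    have hcardlt : Nat.card (G ⧸ N) < n := by
      rw [← hn, ← Subgroup.index_eq_card, ← Subgroup.index_mul_card N]
      have h1 : 1 < Nat.card N := by
        rw [Subgroup.one_lt_card_iff_ne_bot]; exact hNne
      have h2 : 0 < N.index := Nat.pos_of_ne_zero Subgroup.index_ne_zero_of_finite
      nlinarith
    have hsurj := QuotientGroup.mk'_surjective N
    have hQ : SSStar (G ⧸ N) := by
      refine ih _ hcardlt (G ⧸ N) rfl ?_
      intro M hM
      have h1 := h _ (Subgroup.isCoatom_comap_of_surjective hsurj hM)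
      rwa [Subgroup.index_comap_of_surjective _ hsurj] at h1
    have key : ∃ w : G, w ≠ 1 ∧ Subgroup.zpowers w = N := by
      by_cases hfr : N ≤ frattini G
      · exact frattini_minimal_cyclic p N hNne hNp hNmin hfr hQ
      · have hex : ∃ M : Subgroup G, IsCoatom M ∧ ¬ N ≤ M := by
          by_contra hcon
          push Not at hcon
          apply hfr
          unfold frattini Order.radical
          exact le_iInf₂ (fun M hM => hcon M hM)
        obtain ⟨M, hM, hNM⟩ := hex
        obtain ⟨hcomm, -⟩ := minimal_normal_pgroup_comm p N hNne hNp hNmin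
        have hsup : N ⊔ M = ⊤ := by
          apply hM.2 (N ⊔ M)
          refine lt_of_le_of_ne le_sup_right ?_
          intro heq; apply hNM; rw [heq]; exact le_sup_left
        have hinf_n : (N ⊓ M).Normal := by
          rw [← Subgroup.normalizer_eq_top_iff, eq_top_iff, ← hsup]
          refine sup_le ?_ ?_
          · intro x hx
            rw [Subgroup.mem_normalizer_iff]
            intro y
            constructor
            · rintro ⟨hyN, hyM⟩
              have h1 : x * y * x⁻¹ = y := by rw [hcomm x hx y hyN]; group
              rw [h1]; exact ⟨hyN, hyM⟩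
            · rintro ⟨hyN, hyM⟩
              have hyN' : y ∈ N := by
                have h2 := hNn.conj_mem _ hyN x⁻¹
                simpa [mul_assoc] using h2
              have h1 : x * y * x⁻¹ = y := by rw [hcomm x hx y hyN']; group
              rw [h1] at hyM
              exact ⟨hyN', hyM⟩
          · intro l hl
            rw [Subgroup.mem_normalizer_iff]
            intro x
            constructor
            · rintro ⟨hxQ, hxL⟩
              exact ⟨hNn.conj_mem x hxQ l, M.mul_mem (M.mul_mem hl hxL) (M.inv_mem hl)⟩
            · rintro ⟨hxQ, hxL⟩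
              refine ⟨?_, ?_⟩
              · have h2 := hNn.conj_mem _ hxQ l⁻¹
                simpa [mul_assoc] using h2
              · have h2 := M.mul_mem (M.mul_mem (M.inv_mem hl) hxL) hl
                simpa [mul_assoc] using h2
        have hinf : N ⊓ M = ⊥ := by
          rcases hNmin _ hinf_n inf_le_left with h1 | h1
          · exact h1
          · exfalso; apply hNM; rw [← h1]; exact inf_le_right
        have hcN : Nat.card N = M.index := by
          have h1 : M.index = M.relIndex N := by
            apply index_eq_relIndex_of_mul M N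
            intro g
            have hg : g ∈ N ⊔ M := hsup ▸ Subgroup.mem_top g
            obtain ⟨x, hx, l, hl, rfl⟩ := Subgroup.mem_sup_of_normal_left.mp hg
            exact ⟨x, hx, l, hl, rfl⟩
          rw [h1, ← Subgroup.inf_relIndex_left, hinf, Subgroup.relIndex_bot_left]
        have hprime : (Nat.card N).Prime := hcN ▸ h M hM
        obtain ⟨x, hx1⟩ := (Subgroup.ne_bot_iff_exists_ne_one).mp hNne
        have hx1' : (x : G) ≠ 1 := fun h => hx1 (Subtype.ext h)
        refine ⟨x, hx1', ?_⟩
        apply Subgroup.eq_of_le_of_card_ge (Subgroup.zpowers_le.mpr x.2)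
        rw [Nat.card_zpowers]
        have h1 : orderOf (x : G) ∣ Nat.card N := by
          rw [Subgroup.orderOf_coe]; exact orderOf_dvd_natCard x
        rcases (Nat.dvd_prime hprime).mp h1 with h2 | h2
        · exact absurd (orderOf_eq_one_iff.mp h2) hx1'
        · exact h2.ge
    obtain ⟨w, hw1, hwN⟩ := key
    refine star_of_ext (QuotientGroup.mk' N) hsurj ?_ hQ
    intro K hK hker
    rw [QuotientGroup.ker_mk'] at hker
    refine ⟨w, ?_, ?_⟩
    · intro hwK; apply hker; rw [← hwN]; exact Subgroup.zpowers_le.mpr hwK
    · rw [hwN]; exact Subgroup.sup_normal K N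
  · rw [not_nontrivial_iff_subsingleton] at hnt
    intro K hK hKtop
    exact absurd (Subsingleton.elim K ⊤) hKtop

/-- Huppert's supersolvability criterion: if every maximal subgroup of a finite group has prime index, then the group is supersolvable. -/
theorem result {G : Type*} [Group G] [Finite G] (h : ∀ M : Subgroup G, IsCoatom M → M.index.Prime) : Cfsg.IsSupersolvable G := by
  exact star_imp_ss (aux _ G rfl h)

end Cfsg.Agent.S0579
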