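import Cfsg.Statements.S0580
import Mathlib

set_option autoImplicit false
open Pointwise
open Cfsg

namespace Cfsg.Agent.S0580

universe u

theorem aux (n : ℕ) : ∀ (G : Type u) [Group G] [Finite G], Nat.card G = n →
    (∀ M : Subgroup G, IsCoatom M → M.index.Prime) → Group.IsSolvable G := by
  induction n using Nat.strong_induction_on with
  | _ n ih =>
  intro G _ _ hn h
  by_cases hcard1 : Nat.card G = 1
  · have : Subsingleton G := (Nat.card_eq_one_iff_unique.mp hcard1).1
    infer_instance
  have hcardpos : 0 < Nat.card G := Nat.card_pos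
  -- largest prime divisor
  obtain ⟨p, hpmem, hpmax⟩ := Finset.exists_max_image (Nat.card G).primeFactors id
    (Nat.nonempty_primeFactors.mpr (by omega))
  have hp : p.Prime := Nat.prime_of_mem_primeFactors hpmem
  have hpdvd : p ∣ Nat.card G := Nat.dvd_of_mem_primeFactors hpmem
  have hmax : ∀ q : ℕ, q.Prime → q ∣ Nat.card G → q ≤ p := fun q hq hqd =>
    hpmax q (Nat.mem_primeFactors.mpr ⟨hq, hqd, hcardpos.ne'⟩)
  have := Fact.mk hp
  obtain ⟨P⟩ := (inferInstance : Nonempty (Sylow p G))
  have hPn : (P : Subgroup G).Normal := by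
    by_contra hPn
    have hNtop : Subgroup.normalizer ((P : Subgroup G) : Set G) ≠ ⊤ := fun h1 =>
      hPn (Subgroup.normalizer_eq_top_iff.mp h1)
    obtain ⟨M, hM, hNM⟩ := (eq_top_or_exists_le_coatom _).resolve_left hNtop
    have hq := h M hM
    have hPM : (P : Subgroup G) ≤ M := Subgroup.le_normalizer.trans hNM
    have h1 : Nat.card (Sylow p G) = (Subgroup.normalizer ((P : Subgroup G) : Set G)).index :=
      P.card_eq_index_normalizer
    have h2 : Nat.card (Sylow p M) =
        (Subgroup.normalizer (((P.subtype hPM : Sylow p M) : Subgroup M) : Set M)).index :=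
      (P.subtype hPM).card_eq_index_normalizer
    have h3 : (Subgroup.normalizer (((P.subtype hPM : Sylow p M) : Subgroup M) : Set M)).index =
        (Subgroup.normalizer ((P : Subgroup G) : Set G)).relIndex M := by
      rw [Sylow.coe_subtype, ← Subgroup.subgroupOf_normalizer_eq hPM]
      rfl
    have h4 := Subgroup.relIndex_mul_index hNM
    have m1 : Nat.card (Sylow p G) ≡ 1 [MOD p] := card_sylow_modEq_one p G
    have m2 : Nat.card (Sylow p M) ≡ 1 [MOD p] := card_sylow_modEq_one p M
    rw [h1, ← h4] at m1
    rw [h2, h3] at m2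
    have m3 : M.index ≡ 1 [MOD p] := by
      have m4 := Nat.ModEq.mul_right M.index m2
      rw [one_mul] at m4
      exact m4.symm.trans m1
    have hqd : M.index ∣ Nat.card G := Subgroup.index_dvd_card M
    have hle := hmax _ hq hqd
    have hlt : 1 < M.index := hq.one_lt
    have hdiv : p ∣ M.index - 1 := (Nat.modEq_iff_dvd' hlt.le).mp m3.symm
    have := Nat.le_of_dvd (by omega) hdiv
    omega
  have hPne : (P : Subgroup G) ≠ ⊥ := P.ne_bot_of_dvd_card hpdvd
  have hquot : Group.IsSolvable (G ⧸ (P : Subgroup G)) := by
    apply ih (Nat.card (G ⧸ (P : Subgroup G))) _ _ rfl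
    · intro M hM
      have hco := Subgroup.isCoatom_comap_of_surjective (QuotientGroup.mk'_surjective (P : Subgroup G)) hM
      have := h _ hco
      rwa [Subgroup.index_comap_of_surjective _ (QuotientGroup.mk'_surjective (P : Subgroup G))] at this
    · rw [← hn]
      have h5 := Subgroup.card_eq_card_quotient_mul_card_subgroup (P : Subgroup G)
      have h6 : 1 < Nat.card (P : Subgroup G) := by
        rcases Nat.lt_or_ge 1 (Nat.card (P : Subgroup G)) with h7 | h7
        · exact h7
        · exfalso
          have h8 : Nat.card (P : Subgroup G) = 1 := by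
            have := Nat.card_pos (α := (P : Subgroup G)); omega
          exact hPne (Subgroup.card_eq_one.mp h8)
      have h9 : 0 < Nat.card (G ⧸ (P : Subgroup G)) := Nat.card_pos
      nlinarith
  have hPsolv : Group.IsSolvable (P : Subgroup G) := by
    have : Group.IsNilpotent (P : Subgroup G) := P.isPGroup'.isNilpotent
    infer_instance
  exact Group.isSolvable_of_ker_le_range (P : Subgroup G).subtype (QuotientGroup.mk' (P : Subgroup G))
    (by rw [QuotientGroup.ker_mk', Subgroup.range_subtype])

/-- If every maximal subgroup of a finite group has prime index, then the group is solvable. -/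
theorem result {G : Type*} [Group G] [Finite G] (h : ∀ M : Subgroup G, IsCoatom M → M.index.Prime) : Group.IsSolvable G := by
  exact aux (Nat.card G) G rfl h

end Cfsg.Agent.S0580
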