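import Cfsg.Statements.S0583
import Cfsg.Agent.Lib.Helper5.MinNormal

set_option autoImplicit false
open Pointwise
open Cfsg

namespace Cfsg.Agent.S0583

open Cfsg.Agent.Lib.Helper5

/-- In a finite group the Fitting subgroup is contained in the centralizer of each minimal normal subgroup. -/
theorem result {G : Type*} [Group G] [Finite G] (M : Subgroup G) [M.Normal] (hM : M ≠ ⊥) (hmin : ∀ K : Subgroup G, K.Normal → K ≤ M → K = ⊥ ∨ K = M) : Cfsg.fittingSubgroup G ≤ Subgroup.centralizer (M : Set G) := by
  apply sSup_le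
  rintro N ⟨hNn, hNnil⟩
  have hle : ⁅M, N⁆ ≤ M := Subgroup.commutator_le_left M N
  rcases hmin ⁅M, N⁆ inferInstance hle with h | h
  · rw [Subgroup.commutator_comm, Subgroup.commutator_eq_bot_iff_le_centralizer] at h
    exact h
  · exfalso
    have hMN : M ≤ N := by
      calc M = ⁅M, N⁆ := h.symm
        _ ≤ N := Subgroup.commutator_le_right M N
    exact hM (eq_bot_of_commutator_eq_self hNnil hMN h)

end Cfsg.Agent.S0583
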