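import Cfsg.Statements.S0584
import Cfsg.Agent.S0070

namespace Cfsg.Agent.S0584

theorem result {G : Type*} [Group G] [Finite G] (A B : Subgroup G) [A.Normal] [B.Normal] (hBA : B ≤ A) (hB : B ≤ frattini G) (h : Group.IsNilpotent (↥A ⧸ B.subgroupOf A)) : Group.IsNilpotent A := by
  have hsurj := QuotientGroup.mk'_surjective (frattini G)
  have hFn : (A.map (QuotientGroup.mk' (frattini G))).Normal :=
    Subgroup.Normal.map inferInstance _ hsurj
  have hker : B.subgroupOf A ≤ ((QuotientGroup.mk' (frattini G)).subgroupMap A).ker := by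
    intro x hx
    rw [MonoidHom.mem_ker]
    apply Subtype.ext
    show (QuotientGroup.mk' (frattini G)) (x : G) = 1
    rw [QuotientGroup.mk'_apply, QuotientGroup.eq_one_iff]
    exact hB (Subgroup.mem_subgroupOf.mp hx)
  have hsurj2 : Function.Surjective
      (QuotientGroup.lift (B.subgroupOf A) ((QuotientGroup.mk' (frattini G)).subgroupMap A) hker) :=
    QuotientGroup.lift_surjective_of_surjective _ _
      (MonoidHom.subgroupMap_surjective _ _) _
  have hFnil : Group.IsNilpotent (A.map (QuotientGroup.mk' (frattini G))) :=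
    Group.nilpotent_of_surjective _ hsurj2
  have hT := Cfsg.Agent.S0070.nilpotent_comap_frattini _ hFn hFnil
  have hle : A ≤ (A.map (QuotientGroup.mk' (frattini G))).comap (QuotientGroup.mk' (frattini G)) :=
    Subgroup.le_comap_map _ _
  refine Subgroup.isNilpotent_of_ker_le_center (Subgroup.inclusion hle) ?_
  rw [(MonoidHom.ker_eq_bot_iff _).mpr (Subgroup.inclusion_injective hle)]
  exact bot_le

end Cfsg.Agent.S0584
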