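import Cfsg.Statements.S0585
import Cfsg.Agent.Lib.Helper5.CoreFree

set_option autoImplicit false
open Pointwise
open Cfsg

namespace Cfsg.Agent.S0585

open Cfsg.Agent.Lib.Helper5

/-- If the Frattini subgroup of a finite group G is trivial, then every abelian normal subgroup of G has a complement in G. -/
theorem result {G : Type*} [Group G] [Finite G] (hΦ : frattini G = ⊥) (A : Subgroup G) [A.Normal] [IsMulCommutative A] : ∃ H : Subgroup G, Subgroup.IsComplement' A H := by
  obtain ⟨H, hH⟩ := exists_minimal_of_wellFoundedLT (fun H : Subgroup G => A ⊔ H = ⊤)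
    ⟨⊤, sup_top_eq A⟩
  have hAH : A ⊔ H = ⊤ := hH.1
  have hcomm : ∀ a ∈ A, ∀ b ∈ A, a * b = b * a := by
    intro a ha b hb
    have := (inferInstance : IsMulCommutative A).is_comm.comm (⟨a, ha⟩ : A) ⟨b, hb⟩
    exact congrArg Subtype.val this
  have hDn : (A ⊓ H).Normal := by
    constructor
    intro x hx g
    obtain ⟨a, ha, h, hh, rfl⟩ := exists_mul_of_sup_eq_top hAH g
    have h1 : h * x * h⁻¹ ∈ A ⊓ H :=
      ⟨Subgroup.Normal.conj_mem inferInstance x hx.1 h, H.mul_mem (H.mul_mem hh hx.2) (H.inv_mem hh)⟩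
    have h2 : a * h * x * (a * h)⁻¹ = h * x * h⁻¹ := by
      have hc := hcomm a ha _ h1.1
      calc a * h * x * (a * h)⁻¹ = a * (h * x * h⁻¹) * a⁻¹ := by group
        _ = (h * x * h⁻¹) * a * a⁻¹ := by rw [hc]
        _ = h * x * h⁻¹ := by group
    rw [h2]; exact h1
  have hD : A ⊓ H ≤ frattini G := by
    refine le_iInf fun M => le_iInf fun hM => ?_
    by_contra hnot
    have hsup : (A ⊓ H) ⊔ M = ⊤ := by
      apply hM.2
      refine lt_of_le_of_ne le_sup_right ?_
      intro heq
      apply hnot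
      rw [heq]
      exact le_sup_left
    have hgen : A ⊔ (H ⊓ M) = ⊤ := by
      rw [eq_top_iff, ← hAH]
      apply sup_le le_sup_left
      intro h hh
      obtain ⟨d, hd, m, hm, rfl⟩ := exists_mul_of_sup_eq_top hsup h
      have hmH : m ∈ H := by
        have h1 := H.mul_mem (H.inv_mem hd.2) hh
        simpa using h1
      exact Subgroup.mul_mem _ (Subgroup.mem_sup_left hd.1) (Subgroup.mem_sup_right ⟨hmH, hm⟩)
    have hle : H ≤ H ⊓ M := hH.2 hgen inf_le_left
    exact hnot (inf_le_right.trans (hle.trans inf_le_right))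
  rw [hΦ] at hD
  refine ⟨H, Subgroup.isComplement'_of_disjoint_and_mul_eq_univ (disjoint_iff.mpr (le_bot_iff.mp hD)) ?_⟩
  rw [← Subgroup.normal_mul, hAH]; rfl

end Cfsg.Agent.S0585
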