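import Cfsg.Statements.S0586
import Cfsg.Agent.S0585
import Cfsg.Agent.S0575
import Cfsg.Agent.Lib.Helper24.Fitting
import Cfsg.Agent.Lib.Helper5.MinNormal
import Cfsg.Agent.Lib.Helper5.CoreFree

namespace Cfsg.Agent.S0586

open Cfsg.Agent.Lib.Helper5
open scoped commutatorElement

/-- In a finite nilpotent group the commutator subgroup lies in the Frattini subgroup. -/
theorem commutator_le_frattini {F : Type*} [Group F] [Finite F] [hnil : Group.IsNilpotent F] :
    commutator F ≤ frattini F := by
  refine le_iInf fun M => le_iInf fun hM => ?_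
  have h02 := (Group.isNilpotent_of_finite_tfae (G := F)).out 0 2
  have hMn : M.Normal := h02.mp hnil M hM
  -- the quotient F ⧸ M has no nontrivial proper subgroups, hence is commutative
  have hcomm : ∀ a b : F ⧸ M, a * b = b * a := by
    intro a b
    by_cases ha : a = 1
    · rw [ha]; simp
    · have htop : Subgroup.zpowers a = ⊤ := by
        have hco := Subgroup.isCoatom_comap_of_surjective (QuotientGroup.mk'_surjective M)
          (M := Subgroup.zpowers a)
        by_contra hne
        -- M ≤ comap (zpowers a); comap ≠ ⊤; so comap = M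
        have hle : M ≤ (Subgroup.zpowers a).comap (QuotientGroup.mk' M) := by
          intro x hx
          rw [Subgroup.mem_comap, QuotientGroup.mk'_apply, (QuotientGroup.eq_one_iff x).mpr hx]
          exact Subgroup.one_mem _
        have hne' : (Subgroup.zpowers a).comap (QuotientGroup.mk' M) ≠ ⊤ := by
          intro h
          apply hne
          rw [← Subgroup.map_comap_eq_self_of_surjective (QuotientGroup.mk'_surjective M)
            (Subgroup.zpowers a), h, Subgroup.map_top_of_surjective _ (QuotientGroup.mk'_surjective M)]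
        have heq : M = (Subgroup.zpowers a).comap (QuotientGroup.mk' M) := by
          by_contra hne2
          exact hne' (hM.2 _ (lt_of_le_of_ne hle hne2))
        obtain ⟨x, rfl⟩ := QuotientGroup.mk'_surjective M a
        apply ha
        rw [QuotientGroup.mk'_apply, QuotientGroup.eq_one_iff, heq, Subgroup.mem_comap]
        exact Subgroup.mem_zpowers _
      have hb : b ∈ Subgroup.zpowers a := by rw [htop]; trivial
      obtain ⟨i, rfl⟩ := Subgroup.mem_zpowers_iff.mp hb
      exact ((Commute.refl a).zpow_right i).eq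
  rw [commutator_def, Subgroup.commutator_le]
  intro x _ y _
  rw [← QuotientGroup.eq_one_iff, commutatorElement_def]
  have := hcomm (x : F ⧸ M) (y : F ⧸ M)
  simp only [QuotientGroup.mk_mul, QuotientGroup.mk_inv]
  rw [this]
  group

theorem result {G : Type*} [Group G] [Finite G] (hΦ : frattini G = ⊥) : Cfsg.fittingSubgroup G = sSup {N : Subgroup G | N.Normal ∧ N ≠ ⊥ ∧ IsMulCommutative N ∧ ∀ K : Subgroup G, K.Normal → K ≤ N → K = ⊥ ∨ K = N} := by
  set F := Cfsg.fittingSubgroup G with hF
  have hFn : F.Normal := Cfsg.Agent.Lib.Helper24.fitting_normal'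
  have hFnil : Group.IsNilpotent F := Cfsg.Agent.Lib.Helper24.fitting_nilpotent
  -- F is abelian
  have hΦF : frattini ↥F = ⊥ := by
    have h1 := Cfsg.Agent.S0575.result F
    rw [hΦ, le_bot_iff] at h1
    exact (Subgroup.map_eq_bot_iff_of_injective _ (Subgroup.subtype_injective F)).mp h1
  have hFcomm : ∀ a ∈ F, ∀ b ∈ F, a * b = b * a := by
    intro a ha b hb
    have h1 : ⁅(⟨a, ha⟩ : F), (⟨b, hb⟩ : F)⁆ ∈ commutator F := by
      rw [commutator_def]
      exact Subgroup.commutator_mem_commutator (Subgroup.mem_top _) (Subgroup.mem_top _)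
    have h2 := commutator_le_frattini h1
    rw [hΦF, Subgroup.mem_bot, commutatorElement_eq_one_iff_commute] at h2
    exact congrArg Subtype.val h2.eq
  set S := sSup {N : Subgroup G | N.Normal ∧ N ≠ ⊥ ∧ IsMulCommutative N ∧
    ∀ K : Subgroup G, K.Normal → K ≤ N → K = ⊥ ∨ K = N} with hS
  have hSn : S.Normal := Subgroup.sSup_normal _ (fun _ h => h.1)
  have hSF : S ≤ F := by
    apply sSup_le
    rintro N ⟨hNn, -, hNc, -⟩
    apply Cfsg.Agent.Lib.Helper24.le_fitting N hNn
    have : IsMulCommutative N := hNc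
    let _ : CommGroup N := { (inferInstance : Group N) with mul_comm := fun a b => this.is_comm.comm a b }
    infer_instance
  have hScomm : IsMulCommutative S := by
    constructor
    constructor
    intro a b
    apply Subtype.ext
    exact hFcomm a (hSF a.2) b (hSF b.2)
  obtain ⟨H, hH⟩ := Cfsg.Agent.S0585.result hΦ S
  apply le_antisymm _ hSF
  -- F ≤ S
  have hFH : F ⊓ H = ⊥ := by
    by_contra hne
    have hFHn : (F ⊓ H).Normal := by
      constructor
      intro n hn g
      -- g = s * h with s ∈ S, h ∈ H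
      have hsup : S ⊔ H = ⊤ := hH.sup_eq_top
      obtain ⟨s, hs, h, hh, rfl⟩ := exists_mul_of_sup_eq_top hsup g
      have h1 : h * n * h⁻¹ ∈ F ⊓ H :=
        ⟨hFn.conj_mem n hn.1 h, H.mul_mem (H.mul_mem hh hn.2) (H.inv_mem hh)⟩
      have h2 : s * (h * n * h⁻¹) * s⁻¹ = h * n * h⁻¹ := by
        rw [hFcomm s (hSF hs) _ h1.1]; group
      have h3 : s * h * n * (s * h)⁻¹ = s * (h * n * h⁻¹) * s⁻¹ := by group
      rw [h3, h2]
      exact h1
    obtain ⟨M, hMn, hMne, hMle, hMmin⟩ := exists_minimal_normal (F ⊓ H) hFHn hne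
    have hMS : M ≤ S := by
      apply le_sSup
      refine ⟨hMn, hMne, ?_, hMmin⟩
      constructor
      constructor
      intro a b
      apply Subtype.ext
      exact hFcomm a (hMle a.2).1 b (hMle b.2).1
    have hMH : M ≤ H := hMle.trans inf_le_right
    have hdis : S ⊓ H = ⊥ := hH.disjoint.eq_bot
    apply hMne
    rw [eq_bot_iff, ← hdis]
    exact le_inf hMS hMH
  intro f hf
  have hsup : S ⊔ H = ⊤ := hH.sup_eq_top
  obtain ⟨s, hs, h, hh, rfl⟩ := exists_mul_of_sup_eq_top hsup f
  have hhF : h ∈ F := by
    have : h = s⁻¹ * (s * h) := by group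
    rw [this]
    exact F.mul_mem (F.inv_mem (hSF hs)) hf
  have hh1 : h ∈ F ⊓ H := ⟨hhF, hh⟩
  rw [hFH, Subgroup.mem_bot] at hh1
  rw [hh1, mul_one]
  exact hs

end Cfsg.Agent.S0586
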