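import Cfsg.Statements.S0587
import Cfsg.Agent.Lib.Helper5.CoreFree

namespace Cfsg.Agent.S0587

open Cfsg.Agent.Lib.Helper5

theorem result {G : Type*} [Group G] [Finite G] (p : ℕ) [Fact p.Prime] (hL : Cfsg.pCore p G ≠ ⊥) (M : Subgroup G) (hM : IsCoatom M) (hcore : M.normalCore = ⊥) : Cfsg.IsElementaryAbelian p (Cfsg.pCore p G) ∧ Subgroup.IsComplement' (Cfsg.pCore p G) M ∧ (∀ K : Subgroup G, K.Normal → K ≤ Cfsg.pCore p G → K = ⊥ ∨ K = Cfsg.pCore p G) ∧ Subgroup.centralizer ((Cfsg.pCore p G : Subgroup G) : Set G) = Cfsg.pCore p G ∧ ∀ (q : ℕ) [Fact q.Prime], Cfsg.pCore q ↥M ≠ ⊥ → Nat.card (Cfsg.pCore p G) % q = 1 % q ∧ q ≠ p := by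
  classical
  have hp : p.Prime := Fact.out
  have hPn : (Cfsg.pCore p G).Normal := Subgroup.sSup_normal _ (fun _ h => h.1)
  have hPp : IsPGroup p (Cfsg.pCore p G) :=
    Sylow.sSup_of_normal _ (fun H hH => hH.2) (fun H hH => hH.1)
  generalize hPdef : Cfsg.pCore p G = P at hL hPn hPp ⊢
  have hPnt : Nontrivial P := (Subgroup.nontrivial_iff_ne_bot P).mpr hL
  have hZnt := hPp.center_nontrivial
  have hZn : ((Subgroup.center P).map P.subtype).Normal :=
    ConjAct.normal_of_characteristic_of_normal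
  have hZne : (Subgroup.center P).map P.subtype ≠ ⊥ := by
    intro h
    have h1 := (Subgroup.map_eq_bot_iff_of_injective _ P.subtype_injective).mp h
    exact (Subgroup.nontrivial_iff_ne_bot _).mp hZnt h1
  have hZP : (Subgroup.center P).map P.subtype ≤ P := by
    rintro _ ⟨y, -, rfl⟩; exact y.2
  have hPcZ : P ≤ Subgroup.centralizer (((Subgroup.center P).map P.subtype : Subgroup G) : Set G) := by
    intro x hx
    rw [Subgroup.mem_centralizer_iff]
    rintro _ ⟨y, hy, rfl⟩
    have h1 := Subgroup.mem_center_iff.mp hy ⟨x, hx⟩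
    exact congrArg Subtype.val h1.symm
  have h1 : P = Subgroup.centralizer (((Subgroup.center P).map P.subtype : Subgroup G) : Set G) :=
    (centralizer_minimal hM hcore hZne P hPn hPcZ).resolve_left hL
  have h2 : (Subgroup.center P).map P.subtype =
      Subgroup.centralizer (((Subgroup.center P).map P.subtype : Subgroup G) : Set G) :=
    (centralizer_minimal hM hcore hZne _ hZn (hZP.trans hPcZ)).resolve_left hZne
  have hZeqP : (Subgroup.center P).map P.subtype = P := h2.trans h1.symm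
  have hPcomm : ∀ a ∈ P, ∀ b ∈ P, a * b = b * a := by
    intro a ha b hb
    have hb' : b ∈ (Subgroup.center P).map P.subtype := by rw [hZeqP]; exact hb
    exact (Subgroup.mem_centralizer_iff.mp (hPcZ ha) b hb').symm
  have hPcP : P ≤ Subgroup.centralizer (P : Set G) := fun a ha =>
    Subgroup.mem_centralizer_iff.mpr (fun b hb => hPcomm b hb a ha)
  have hcent : Subgroup.centralizer (P : Set G) = P :=
    ((centralizer_minimal hM hcore hL P hPn hPcP).resolve_left hL).symm
  have hmin : ∀ K : Subgroup G, K.Normal → K ≤ P → K = ⊥ ∨ K = P := by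
    intro K hKn hKP
    have h3 := centralizer_minimal hM hcore hL K hKn (hKP.trans hPcP)
    rwa [hcent] at h3
  have hdvd : p ∣ Nat.card P := by
    obtain ⟨k, hk⟩ := IsPGroup.iff_card.mp hPp
    rcases Nat.eq_zero_or_pos k with h0 | h0
    · exfalso
      rw [h0, pow_zero] at hk
      exact hL (Subgroup.card_eq_one.mp hk)
    · rw [hk]; exact dvd_pow_self p h0.ne'
  -- elements of order dividing p
  have hexp : ∀ a ∈ P, a ^ p = 1 := by
    let K : Subgroup G :=
      { carrier := {x | x ∈ P ∧ x ^ p = 1}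
        one_mem' := ⟨P.one_mem, one_pow p⟩
        mul_mem' := fun {a b} ha hb => ⟨P.mul_mem ha.1 hb.1, by
          rw [(show Commute a b from hPcomm a ha.1 b hb.1).mul_pow, ha.2, hb.2, one_mul]⟩
        inv_mem' := fun {a} ha => ⟨P.inv_mem ha.1, by rw [inv_pow, ha.2, inv_one]⟩ }
    have hKn : K.Normal := ⟨fun x hx g => ⟨hPn.conj_mem x hx.1 g, by
      show (g * x * g⁻¹) ^ p = 1
      rw [conj_pow, hx.2]; group⟩⟩
    have hKP : K ≤ P := fun x hx => hx.1
    have hKne : K ≠ ⊥ := by
      obtain ⟨x, hx⟩ := exists_prime_orderOf_dvd_card' (G := P) p hdvd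
      intro h
      have hxK : (x : G) ∈ K := ⟨x.2, by
        rw [← Subgroup.coe_pow, ← hx, pow_orderOf_eq_one]; rfl⟩
      rw [h, Subgroup.mem_bot] at hxK
      have hx1 : x = 1 := Subtype.ext hxK
      rw [hx1, orderOf_one] at hx
      exact hp.one_lt.ne hx
    have hKeq : K = P := (hmin K hKn hKP).resolve_left hKne
    intro a ha
    have haK : a ∈ K := by rw [hKeq]; exact ha
    exact haK.2
  have hsup : P ⊔ M = ⊤ := sup_eq_top_of_coatom_corefree hM hcore hL
  have hinf : P ⊓ M = ⊥ := by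
    have h3 := centralizer_inf_eq_bot hM hcore hL (N := P)
    rwa [hcent] at h3
  refine ⟨⟨⟨⟨fun a b => Subtype.ext (hPcomm a a.2 b b.2)⟩⟩, hexp⟩, ?_, hmin, hcent, ?_⟩
  · apply Subgroup.isComplement'_of_disjoint_and_mul_eq_univ
    · exact disjoint_iff.mpr hinf
    · apply Set.eq_univ_of_forall
      intro g
      obtain ⟨k, hk, u, hu, rfl⟩ := exists_mul_of_sup_eq_top hsup g
      exact ⟨k, hk, u, hu, rfl⟩
  · intro q hq hQne
    have hQq : IsPGroup q (Cfsg.pCore q ↥M) :=
      Sylow.sSup_of_normal _ (fun H hH => hH.2) (fun H hH => hH.1)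
    have hQn : (Cfsg.pCore q ↥M).Normal := Subgroup.sSup_normal _ (fun _ h => h.1)
    have hCn : (P ⊓ Subgroup.centralizer
        (((Cfsg.pCore q ↥M).map M.subtype : Subgroup G) : Set G)).Normal := by
      constructor
      intro x hx g
      obtain ⟨n, hn, u, hu, rfl⟩ := exists_mul_of_sup_eq_top hsup g
      have hxP : u * x * u⁻¹ ∈ P := hPn.conj_mem x hx.1 u
      have hxC : u * x * u⁻¹ ∈ Subgroup.centralizer
          (((Cfsg.pCore q ↥M).map M.subtype : Subgroup G) : Set G) := by
        rw [Subgroup.mem_centralizer_iff]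
        rintro _ ⟨y, hy, rfl⟩
        have hy' : (⟨u, hu⟩ : M)⁻¹ * y * (⟨u, hu⟩ : M)⁻¹⁻¹ ∈ Cfsg.pCore q ↥M :=
          hQn.conj_mem y hy (⟨u, hu⟩ : M)⁻¹
        have hy'' : u⁻¹ * (y : G) * u ∈ (Cfsg.pCore q ↥M).map M.subtype :=
          ⟨_, hy', by simp⟩
        have hc := Subgroup.mem_centralizer_iff.mp hx.2 _ hy''
        show (y : G) * (u * x * u⁻¹) = (u * x * u⁻¹) * (y : G)
        calc (y : G) * (u * x * u⁻¹) = u * ((u⁻¹ * (y : G) * u) * x) * u⁻¹ := by group
          _ = u * (x * (u⁻¹ * (y : G) * u)) * u⁻¹ := by rw [hc]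
          _ = (u * x * u⁻¹) * (y : G) := by group
      have h3 : n * (u * x * u⁻¹) = (u * x * u⁻¹) * n := hPcomm n hn _ hxP
      have h4 : n * u * x * (n * u)⁻¹ = u * x * u⁻¹ := by
        calc n * u * x * (n * u)⁻¹ = n * (u * x * u⁻¹) * n⁻¹ := by group
          _ = (u * x * u⁻¹) * n * n⁻¹ := by rw [h3]
          _ = u * x * u⁻¹ := by group
      rw [h4]
      exact ⟨hxP, hxC⟩
    have hCbot : P ⊓ Subgroup.centralizer
        (((Cfsg.pCore q ↥M).map M.subtype : Subgroup G) : Set G) = ⊥ := by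
      rcases hmin _ hCn inf_le_left with h | h
      · exact h
      · exfalso
        have hPle : P ≤ Subgroup.centralizer
            (((Cfsg.pCore q ↥M).map M.subtype : Subgroup G) : Set G) := inf_eq_left.mp h
        have hQ'P : (Cfsg.pCore q ↥M).map M.subtype ≤ P := by
          rw [← hcent]
          intro y hy
          rw [Subgroup.mem_centralizer_iff]
          intro x hx
          exact (Subgroup.mem_centralizer_iff.mp (hPle hx) y hy).symm
        have hQ'M : (Cfsg.pCore q ↥M).map M.subtype ≤ M := by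
          rintro _ ⟨y, -, rfl⟩; exact y.2
        have hbot : (Cfsg.pCore q ↥M).map M.subtype = ⊥ := by
          rw [eq_bot_iff, ← hinf]; exact le_inf hQ'P hQ'M
        exact hQne ((Subgroup.map_eq_bot_iff_of_injective _ M.subtype_injective).mp hbot)
    let act : MulAction (Cfsg.pCore q ↥M) P :=
      { smul := fun a x => ⟨((a : M) : G) * (x : G) * ((a : M) : G)⁻¹, hPn.conj_mem x x.2 _⟩
        one_smul := fun x => Subtype.ext (by
          show (((1 : Cfsg.pCore q ↥M) : M) : G) * (x : G) * (((1 : Cfsg.pCore q ↥M) : M) : G)⁻¹ = x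
          simp)
        mul_smul := fun a b x => Subtype.ext (by
          show (((a * b : Cfsg.pCore q ↥M) : M) : G) * (x : G) *
            (((a * b : Cfsg.pCore q ↥M) : M) : G)⁻¹ =
            ((a : M) : G) * (((b : M) : G) * (x : G) * ((b : M) : G)⁻¹) * ((a : M) : G)⁻¹
          simp [mul_assoc]) }
    have hsmul : ∀ (a : Cfsg.pCore q ↥M) (x : P),
        ((a • x : P) : G) = ((a : M) : G) * (x : G) * ((a : M) : G)⁻¹ := fun _ _ => rfl
    have hmod := hQq.card_modEq_card_fixedPoints P
    have key : ∀ z : P, z ∈ MulAction.fixedPoints (Cfsg.pCore q ↥M) P → z = 1 := by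
      intro z hz
      have hzC : (z : G) ∈ P ⊓ Subgroup.centralizer
          (((Cfsg.pCore q ↥M).map M.subtype : Subgroup G) : Set G) := by
        refine Subgroup.mem_inf.mpr ⟨z.2, ?_⟩
        rw [Subgroup.mem_centralizer_iff]
        rintro _ ⟨a, ha, rfl⟩
        have h5 := hz ⟨a, ha⟩
        have h6 : ((a : M) : G) * (z : G) * ((a : M) : G)⁻¹ = (z : G) := by
          rw [← hsmul ⟨a, ha⟩ z, h5]
        show ((a : M) : G) * (z : G) = (z : G) * ((a : M) : G)
        calc ((a : M) : G) * (z : G) = (((a : M) : G) * (z : G) * ((a : M) : G)⁻¹) * (a : G) := by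
              group
          _ = (z : G) * ((a : M) : G) := by rw [h6]
      rw [hCbot, Subgroup.mem_bot] at hzC
      exact Subtype.ext hzC
    have hfix : Nat.card (MulAction.fixedPoints (Cfsg.pCore q ↥M) P) = 1 := by
      rw [Nat.card_eq_one_iff_unique]
      constructor
      · constructor
        rintro ⟨x, hx⟩ ⟨y, hy⟩
        apply Subtype.ext
        show x = y
        rw [key x hx, key y hy]
      · refine ⟨⟨1, fun a => Subtype.ext ?_⟩⟩
        rw [hsmul]
        simp
    rw [hfix] at hmod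
    refine ⟨hmod, ?_⟩
    intro hqp
    have hq' : q.Prime := hq.out
    have h0 : Nat.card P % q = 0 := Nat.mod_eq_zero_of_dvd (hqp ▸ hdvd)
    unfold Nat.ModEq at hmod
    rw [h0, Nat.mod_eq_of_lt hq'.one_lt] at hmod
    exact absurd hmod (by norm_num)

end Cfsg.Agent.S0587
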