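import Cfsg.Statements.S0588
import Mathlib

set_option autoImplicit false
open Pointwise
open Cfsg

namespace Cfsg.Agent.S0588

/-- If a subgroup H of a finite group G contains the centralizer of every non-identity element of H, then the order of H is coprime to its index. -/
theorem result {G : Type*} [Group G] [Finite G] (H : Subgroup G) (h : ∀ x ∈ H, x ≠ 1 → Subgroup.centralizer ({x} : Set G) ≤ H) : (Nat.card H).Coprime H.index := by
  by_contra hnc
  obtain ⟨p, hp, hpH, hpI⟩ := Nat.Prime.not_coprime_iff_dvd.mp hnc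
  have := Fact.mk hp
  obtain ⟨Q⟩ := (inferInstance : Nonempty (Sylow p H))
  have hQne : (Q : Subgroup H) ≠ ⊥ := Q.ne_bot_of_dvd_card hpH
  obtain ⟨x', hx1'⟩ := (Subgroup.ne_bot_iff_exists_ne_one).mp hQne
  obtain ⟨P, hQP⟩ := (Q.isPGroup'.map H.subtype).exists_le_sylow
  set x : H := (x' : H) with hxdef
  have hxP : ((x : H) : G) ∈ P := hQP (Subgroup.mem_map_of_mem _ x'.2)
  have hxne : ((x : H) : G) ≠ 1 := by
    intro h1
    apply hx1'
    apply Subtype.ext; apply Subtype.ext
    exact h1
  have hPnt : Nontrivial (P : Subgroup G) := ⟨⟨⟨_, hxP⟩, 1, fun h1 => hxne (congrArg Subtype.val h1)⟩⟩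
  have hcen := IsPGroup.center_nontrivial (P.isPGroup')
  obtain ⟨z, hz1⟩ := exists_ne (1 : Subgroup.center (P : Subgroup G))
  have hzne : ((z : (P : Subgroup G)) : G) ≠ 1 := by
    intro h1
    apply hz1
    apply Subtype.ext; apply Subtype.ext
    simpa using h1
  have hzcomm : ∀ y ∈ (P : Subgroup G), y * ((z : (P : Subgroup G)) : G) = ((z : (P : Subgroup G)) : G) * y := by
    intro y hy
    have h2 := Subgroup.mem_center_iff.mp z.2 ⟨y, hy⟩
    exact congrArg Subtype.val h2
  have hzH : ((z : (P : Subgroup G)) : G) ∈ H := by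
    apply h _ (x : H).2 hxne
    rw [Subgroup.mem_centralizer_iff]
    intro y hy
    rw [Set.mem_singleton_iff] at hy
    rw [hy]
    exact hzcomm _ hxP
  have hPH : (P : Subgroup G) ≤ H := by
    intro y hy
    apply h _ hzH hzne
    rw [Subgroup.mem_centralizer_iff]
    intro w hw
    rw [Set.mem_singleton_iff] at hw
    rw [hw]
    exact (hzcomm y hy).symm
  exact P.not_dvd_index (hpI.trans (Subgroup.index_dvd_of_le hPH))

end Cfsg.Agent.S0588
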