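import Cfsg.Statements.S0589
import Cfsg.Agent.Lib.Helper5.FixedPoint

namespace Cfsg.Agent.S0589

open Cfsg.Agent.Lib.Helper5
open scoped Pointwise

/-- A nonidentity element fixes at most one coset of a Frobenius complement. -/
theorem fix_unique {G : Type*} [Group G] (H : Subgroup G) (hH : Cfsg.IsFrobeniusComplement H)
    (ℓ : G) (hℓ : ℓ ≠ 1) (x y : G ⧸ H) (hx : ℓ • x = x) (hy : ℓ • y = y) : x = y := by
  obtain ⟨a, rfl⟩ := QuotientGroup.mk_surjective x
  obtain ⟨b, rfl⟩ := QuotientGroup.mk_surjective y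
  have hxa : a⁻¹ * ℓ * a ∈ H := by
    have h1 : ((ℓ * a : G) : G ⧸ H) = (a : G ⧸ H) := hx
    have h3 := H.inv_mem (QuotientGroup.eq.mp h1)
    simpa [mul_assoc] using h3
  have hyb : b⁻¹ * ℓ * b ∈ H := by
    have h1 : ((ℓ * b : G) : G ⧸ H) = (b : G ⧸ H) := hy
    have h3 := H.inv_mem (QuotientGroup.eq.mp h1)
    simpa [mul_assoc] using h3
  rw [QuotientGroup.eq]
  by_contra hg
  have hdis := hH.2.2 (a⁻¹ * b) hg
  have hmem : a⁻¹ * ℓ * a ∈ H ⊓ (MulAut.conj (a⁻¹ * b) • H) := by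
    refine Subgroup.mem_inf.mpr ⟨hxa, ?_⟩
    rw [Subgroup.mem_pointwise_smul_iff_inv_smul_mem]
    have h7 : (MulAut.conj (a⁻¹ * b))⁻¹ • (a⁻¹ * ℓ * a) = b⁻¹ * ℓ * b := by
      simp [MulAut.smul_def, mul_assoc]
    rw [h7]; exact hyb
  rw [hdis, Subgroup.mem_bot] at hmem
  apply hℓ
  have h8 : ℓ = a * (a⁻¹ * ℓ * a) * a⁻¹ := by group
  rw [h8, hmem]; group

theorem index_modEq_one {G : Type*} [Group G] [Finite G] (H : Subgroup G)
    (hH : Cfsg.IsFrobeniusComplement H) : H.index ≡ 1 [MOD Nat.card H] := by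
  classical
  have := Fintype.ofFinite H
  have := Fintype.ofFinite (G ⧸ H)
  have := Fintype.ofFinite (MulAction.orbitRel.Quotient H (G ⧸ H))
  have hB := MulAction.sum_card_fixedBy_eq_card_orbits_mul_card_group H (G ⧸ H)
  simp only [← Nat.card_eq_fintype_card] at hB
  have hfix : ∀ h : H, h ≠ 1 → Nat.card (MulAction.fixedBy (G ⧸ H) h) = 1 := by
    intro h hh
    rw [Nat.card_eq_one_iff_unique]
    constructor
    · constructor
      rintro ⟨x, hx⟩ ⟨y, hy⟩
      apply Subtype.ext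
      exact fix_unique H hH (h : G) (fun h1 => hh (Subtype.ext h1)) x y hx hy
    · refine ⟨⟨((1 : G) : G ⧸ H), ?_⟩⟩
      show (((h : G) * 1 : G) : G ⧸ H) = ((1 : G) : G ⧸ H)
      apply QuotientGroup.eq.mpr
      simp
  have hfix1 : Nat.card (MulAction.fixedBy (G ⧸ H) (1 : H)) = H.index := by
    rw [Subgroup.index]
    apply Nat.card_congr
    exact (Equiv.subtypeUnivEquiv (fun x => by simp))
  have hsum : ∑ h : H, Nat.card (MulAction.fixedBy (G ⧸ H) h) = H.index + (Nat.card H - 1) := by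
    rw [← Finset.add_sum_erase Finset.univ _ (Finset.mem_univ (1 : H)), hfix1]
    congr 1
    rw [Finset.sum_congr rfl (fun h hh => hfix h (Finset.ne_of_mem_erase hh))]
    simp [Finset.card_erase_of_mem, Finset.card_univ, Nat.card_eq_fintype_card]
  rw [hB] at hsum
  have hc : 0 < Nat.card H := Nat.card_pos
  have h3 : H.index + Nat.card H =
      1 + Nat.card (Quotient (MulAction.orbitRel H (G ⧸ H))) * Nat.card H := by omega
  unfold Nat.ModEq
  calc H.index % Nat.card H = (H.index + Nat.card H) % Nat.card H := (Nat.add_mod_right _ _).symm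
    _ = (1 + Nat.card (Quotient (MulAction.orbitRel H (G ⧸ H))) * Nat.card H) % Nat.card H := by
        rw [h3]
    _ = 1 % Nat.card H := Nat.add_mul_mod_self_right _ _ _

theorem result {G : Type*} [Group G] [Finite G] (H : Subgroup G) (hH : Cfsg.IsFrobeniusComplement H) (L : Subgroup G) (hL : Nat.card L ∣ Nat.card H) : ∃ x : G, L ≤ MulAut.conj x • H := by
  have h2 : Nat.card (G ⧸ H) ≡ 1 [MOD Nat.card L] := (index_modEq_one H hH).of_dvd hL
  have h1 : ∀ ℓ : L, ℓ ≠ 1 → ∀ x y : G ⧸ H, ℓ • x = x → ℓ • y = y → x = y := by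
    intro ℓ hℓ x y hx hy
    exact fix_unique H hH (ℓ : G) (fun h => hℓ (Subtype.ext h)) x y hx hy
  obtain ⟨x, hx⟩ := exists_fixed_point_of_card_modEq_one h1 h2
  obtain ⟨a, rfl⟩ := QuotientGroup.mk_surjective x
  refine ⟨a, fun ℓ hℓ => ?_⟩
  have h3 := hx ⟨ℓ, hℓ⟩
  have h4 : ((ℓ * a : G) : G ⧸ H) = (a : G ⧸ H) := h3
  have h5 := H.inv_mem (QuotientGroup.eq.mp h4)
  rw [Subgroup.mem_pointwise_smul_iff_inv_smul_mem]
  have h7 : (MulAut.conj a)⁻¹ • ℓ = a⁻¹ * ℓ * a := by simp [MulAut.smul_def, mul_assoc]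
  rw [h7]
  simpa [mul_assoc] using h5

end Cfsg.Agent.S0589
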