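import Cfsg.Statements.S0590
import Mathlib

set_option autoImplicit false
open Pointwise
open Cfsg
open scoped commutatorElement

namespace Cfsg.Agent.S0590

/-- Quadratic action on an elementary abelian p-group forces the acting group modulo the kernel of the action to be elementary abelian. -/
theorem result {G : Type*} [Group G] [Finite G] {p : ℕ} [Fact p.Prime] (V H : Subgroup G) (hV : Cfsg.IsElementaryAbelian p V) (hHV : H ≤ Subgroup.normalizer (V : Set G)) (hq : ⁅⁅V, H⁆, H⁆ = ⊥) : ⁅H, H⁆ ≤ Subgroup.centralizer (V : Set G) ∧ ∀ a ∈ H, a ^ p ∈ Subgroup.centralizer (V : Set G) := by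
  have hVcomm : ∀ x ∈ V, ∀ y ∈ V, x * y = y * x := by
    intro x hx y hy
    have := hV.1.is_comm.comm (⟨x, hx⟩ : V) ⟨y, hy⟩
    exact congrArg Subtype.val this
  rw [Subgroup.commutator_eq_bot_iff_le_centralizer] at hq
  have hF2 : ∀ v ∈ V, ∀ a ∈ H, ∀ b ∈ H, b * ⁅v, a⁆ = ⁅v, a⁆ * b := by
    intro v hv a ha b hb
    exact Subgroup.mem_centralizer_iff.mp (hq (Subgroup.commutator_mem_commutator hv ha)) b hb
  have hconj : ∀ v ∈ V, ∀ a ∈ H, a * v * a⁻¹ ∈ V := by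
    intro v hv a ha
    exact (Subgroup.mem_normalizer_iff.mp (hHV ha) v).mp hv
  have hF3 : ∀ v ∈ V, ∀ a ∈ H, ⁅v, a⁆ ∈ V := by
    intro v hv a ha
    have h1 : ⁅v, a⁆ = v * (a * v * a⁻¹)⁻¹ := by
      rw [commutatorElement_def]; group
    rw [h1]
    exact V.mul_mem hv (V.inv_mem (hconj v hv a ha))
  have hF1 : ∀ v a : G, a * v * a⁻¹ = ⁅v, a⁆⁻¹ * v := by
    intro v a
    rw [commutatorElement_def]; group
  have hsub : ∀ a ∈ H, ∀ b ∈ H, ∀ v ∈ V, (a * b) * v * (a * b)⁻¹ = (b * a) * v * (b * a)⁻¹ := by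
    intro a ha b hb v hv
    have hax := hF2 v hv b hb a ha
    have hbx := hF2 v hv a ha b hb
    have hxy := hVcomm _ (hF3 v hv a ha) _ (hF3 v hv b hb)
    have hxa := hF1 v a
    have hyb := hF1 v b
    set x := ⁅v, a⁆ with hxdef
    set y := ⁅v, b⁆ with hydef
    clear_value x y
    have hL : (a * b) * v * (a * b)⁻¹ = y⁻¹ * (x⁻¹ * v) := by
      calc (a * b) * v * (a * b)⁻¹ = a * (b * v * b⁻¹) * a⁻¹ := by group
        _ = a * (y⁻¹ * v) * a⁻¹ := by rw [hyb]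
        _ = (a * y * a⁻¹)⁻¹ * (a * v * a⁻¹) := by group
        _ = y⁻¹ * (x⁻¹ * v) := by rw [hax, hxa]; group
    have hR : (b * a) * v * (b * a)⁻¹ = x⁻¹ * (y⁻¹ * v) := by
      calc (b * a) * v * (b * a)⁻¹ = b * (a * v * a⁻¹) * b⁻¹ := by group
        _ = b * (x⁻¹ * v) * b⁻¹ := by rw [hxa]
        _ = (b * x * b⁻¹)⁻¹ * (b * v * b⁻¹) := by group
        _ = x⁻¹ * (y⁻¹ * v) := by rw [hbx, hyb]; group
    rw [hL, hR]
    have : y⁻¹ * x⁻¹ = x⁻¹ * y⁻¹ := by
      rw [← mul_inv_rev, ← mul_inv_rev, hxy]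
    rw [← mul_assoc, this, mul_assoc]
  constructor
  · rw [Subgroup.commutator_le]
    intro a ha b hb
    rw [Subgroup.mem_centralizer_iff]
    intro v hv
    have hv' : (b * a)⁻¹ * v * (b * a) ∈ V := by
      have := hconj v hv (b * a)⁻¹ (H.inv_mem (H.mul_mem hb ha))
      simpa using this
    have h1 := hsub a ha b hb _ hv'
    have h2 : (b * a) * ((b * a)⁻¹ * v * (b * a)) * (b * a)⁻¹ = v := by group
    rw [h2] at h1
    have h3 : (a * b) * ((b * a)⁻¹ * v * (b * a)) * (a * b)⁻¹ = ⁅a, b⁆ * v * ⁅a, b⁆⁻¹ := by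
      rw [commutatorElement_def]; group
    rw [h3] at h1
    calc v * ⁅a, b⁆ = (⁅a, b⁆ * v * ⁅a, b⁆⁻¹) * ⁅a, b⁆ := by rw [h1]
      _ = ⁅a, b⁆ * v := by group
  · intro a ha
    rw [Subgroup.mem_centralizer_iff]
    intro v hv
    have hx := hF2 v hv a ha a ha
    have hxa := hF1 v a
    have hxp := hV.2 _ (hF3 v hv a ha)
    set x := ⁅v, a⁆ with hxdef
    clear_value x
    have hpow : ∀ n : ℕ, a ^ n * v * (a ^ n)⁻¹ = (x ^ n)⁻¹ * v := by
      intro n
      induction n with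
      | zero => simp
      | succ n ih =>
        have hxn : a * (x ^ n)⁻¹ * a⁻¹ = (x ^ n)⁻¹ := by
          have h5 : a * x ^ n = x ^ n * a := by
            have hc : Commute a x := hx
            exact (hc.pow_right n)
          calc a * (x ^ n)⁻¹ * a⁻¹ = (a * x ^ n * a⁻¹)⁻¹ := by group
            _ = (x ^ n)⁻¹ := by rw [h5]; group
        calc a ^ (n + 1) * v * (a ^ (n + 1))⁻¹ = a * (a ^ n * v * (a ^ n)⁻¹) * a⁻¹ := by
              rw [pow_succ']; group
          _ = a * ((x ^ n)⁻¹ * v) * a⁻¹ := by rw [ih]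
          _ = (a * (x ^ n)⁻¹ * a⁻¹) * (a * v * a⁻¹) := by group
          _ = (x ^ n)⁻¹ * (x⁻¹ * v) := by rw [hxn, hxa]
          _ = (x ^ (n + 1))⁻¹ * v := by rw [pow_succ]; group
    have h6 := hpow p
    rw [hxp] at h6
    calc v * a ^ p = (a ^ p * v * (a ^ p)⁻¹) * a ^ p := by rw [h6]; group
      _ = a ^ p * v := by group

end Cfsg.Agent.S0590
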