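import Cfsg.Statements.S0591
import Mathlib

set_option autoImplicit false
open Pointwise
open Cfsg
open scoped commutatorElement

namespace Cfsg.Agent.S0591

/-- For a quadratically acting element a on an elementary abelian p-group V, the fixed points C_V(a) have order at least the square root of the order of V. -/
theorem result {G : Type*} [Group G] [Finite G] {p : ℕ} [Fact p.Prime] (V : Subgroup G) (hV : Cfsg.IsElementaryAbelian p V) (a : G) (ha : a ∈ Subgroup.normalizer (V : Set G)) (hq : ⁅⁅V, Subgroup.zpowers a⁆, Subgroup.zpowers a⁆ = ⊥) : Nat.card V ≤ Nat.card ↥(V ⊓ Subgroup.centralizer (Subgroup.zpowers a : Set G)) ^ 2 := by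
  have hVcomm : ∀ x ∈ V, ∀ y ∈ V, x * y = y * x := by
    intro x hx y hy
    have := hV.1.is_comm.comm (⟨x, hx⟩ : V) ⟨y, hy⟩
    exact congrArg Subtype.val this
  have haZ : a ∈ Subgroup.zpowers a := Subgroup.mem_zpowers a
  rw [Subgroup.commutator_eq_bot_iff_le_centralizer] at hq
  set C := V ⊓ Subgroup.centralizer (Subgroup.zpowers a : Set G) with hC
  have hconj : ∀ v ∈ V, a * v * a⁻¹ ∈ V := fun v hv => (Subgroup.mem_normalizer_iff.mp ha v).mp hv
  have hmem : ∀ v ∈ V, ⁅v, a⁆ ∈ C := by
    intro v hv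
    refine ⟨?_, hq (Subgroup.commutator_mem_commutator hv haZ)⟩
    have h1 : ⁅v, a⁆ = v * (a * v * a⁻¹)⁻¹ := by rw [commutatorElement_def]; group
    rw [h1]; exact V.mul_mem hv (V.inv_mem (hconj v hv))
  let f : V →* C :=
    { toFun := fun v => ⟨⁅(v : G), a⁆, hmem v v.2⟩
      map_one' := by
        apply Subtype.ext
        simp
      map_mul' := by
        intro v w
        apply Subtype.ext
        show ⁅(v : G) * w, a⁆ = ⁅(v : G), a⁆ * ⁅(w : G), a⁆
        have h1 := hVcomm _ (hmem w w.2).1 _ v.2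
        have h2 := hVcomm _ (hmem v v.2).1 _ (hmem w w.2).1
        have h3 : ⁅(v : G) * w, a⁆ = (v : G) * ⁅(w : G), a⁆ * (v : G)⁻¹ * ⁅(v : G), a⁆ := by
          simp only [commutatorElement_def]; group
        rw [h3, ← h1, mul_inv_cancel_right, h2] }
  have hker : f.ker.map V.subtype ≤ C := by
    rintro _ ⟨v, hv, rfl⟩
    refine ⟨v.2, ?_⟩
    have h1 : ⁅(v : G), a⁆ = 1 := congrArg Subtype.val (MonoidHom.mem_ker.mp hv)
    have hc : Commute (v : G) a := commutatorElement_eq_one_iff_commute.mp h1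
    show (v : G) ∈ Subgroup.centralizer (Subgroup.zpowers a : Set G)
    rw [Subgroup.mem_centralizer_iff]
    intro z hz
    obtain ⟨k, rfl⟩ := Subgroup.mem_zpowers_iff.mp hz
    exact (hc.zpow_right k).symm.eq
  have h1 : Nat.card V = Nat.card (V ⧸ f.ker) * Nat.card f.ker :=
    Subgroup.card_eq_card_quotient_mul_card_subgroup f.ker
  have h2 : Nat.card (V ⧸ f.ker) = Nat.card f.range :=
    Nat.card_congr (QuotientGroup.quotientKerEquivRange f).toEquiv
  have h3 : Nat.card f.range ≤ Nat.card C := Subgroup.card_le_card_group _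
  have h4 : Nat.card f.ker ≤ Nat.card C := by
    rw [← Subgroup.card_subtype V f.ker]
    exact Subgroup.card_le_of_le hker
  rw [h1, h2, pow_two]
  exact Nat.mul_le_mul h3 h4

end Cfsg.Agent.S0591
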