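import Cfsg.Statements.S0592
import Mathlib

set_option autoImplicit false
open Cfsg

namespace Cfsg.Agent.S0592

open Polynomial in
theorem exists_eigenvalue_of_pow {K : Type*} [Field K] [Fintype K] {p : ℕ} [Fact p.Prime]
    [CharP K p] {V : Type*} [AddCommGroup V] [Module K V] [FiniteDimensional K V] [Nontrivial V]
    (T : Module.End K V) (e k : ℕ) (hk : k ∣ Fintype.card K - 1) (hT : T ^ (p ^ e * k) = 1) :
    ∃ μ : K, T.HasEigenvalue μ := by
  have hp : p.Prime := Fact.out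
  have hq : 1 < Fintype.card K := Fintype.one_lt_card
  have e1 : ((X : K[X]) ^ k - 1) ^ (p ^ e) = X ^ (p ^ e * k) - 1 := by
    rw [sub_pow_char_pow, one_pow, ← pow_mul, mul_comm]
  have h1 : Polynomial.aeval T (((X : K[X]) ^ k - 1) ^ (p ^ e)) = 0 := by
    rw [e1]; simp [hT]
  have h2 : minpoly K T ∣ ((X : K[X]) ^ k - 1) ^ (p ^ e) := minpoly.dvd _ _ h1
  have h3 : ((X : K[X]) ^ k - 1) ∣ X ^ (Fintype.card K) - X := by
    obtain ⟨m, hm⟩ := hk
    have : (X : K[X]) ^ (Fintype.card K) - X = X * ((X ^ k) ^ m - 1 ^ m) := by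
      rw [one_pow, ← pow_mul, ← hm, mul_sub, mul_one, ← pow_succ', Nat.sub_add_cancel hq.le]
    rw [this]
    exact Dvd.dvd.mul_left (sub_dvd_pow_sub_pow _ _ _) _
  have h4 : (X ^ (Fintype.card K) - X : K[X]).Splits := by
    rw [Polynomial.splits_iff_card_roots, FiniteField.roots_X_pow_card_sub_X,
      FiniteField.X_pow_card_sub_X_natDegree_eq K hq]
    rfl
  have h5 : (X ^ (Fintype.card K) - X : K[X]) ≠ 0 := FiniteField.X_pow_card_sub_X_ne_zero K hq
  have h6 : ((X : K[X]) ^ k - 1).Splits := h4.of_dvd h5 h3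
  have h7 : (((X : K[X]) ^ k - 1) ^ (p ^ e)) ≠ 0 := by
    apply pow_ne_zero
    intro h
    rw [h, zero_dvd_iff] at h3
    exact h5 h3
  have h8 : (minpoly K T).Splits := (h6.pow _).of_dvd h7 h2
  have hint : IsIntegral K T := Algebra.IsIntegral.isIntegral T
  have h9 : (minpoly K T).degree ≠ 0 := (minpoly.degree_pos hint).ne'
  obtain ⟨μ, hμ⟩ := h8.exists_eval_eq_zero h9
  exact ⟨μ, Module.End.hasEigenvalue_of_isRoot hμ⟩

section

variable {K : Type*} [Field K] {W : Type*} [AddCommGroup W] [Module K W]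

/-- The span of all `h u - u`, `h ∈ H`, `u ∈ U`. -/
def jSub (H : Subgroup (W ≃ₗ[K] W)) (U : Submodule K W) : Submodule K W :=
  Submodule.span K {x | ∃ h ∈ H, ∃ u ∈ U, x = h u - u}

theorem jSub_le (H : Subgroup (W ≃ₗ[K] W)) (U : Submodule K W)
    (hU : ∀ h ∈ H, ∀ u ∈ U, h u ∈ U) : jSub H U ≤ U := by
  apply Submodule.span_le.mpr
  rintro x ⟨h, hh, u, hu, rfl⟩
  exact U.sub_mem (hU h hh u hu) hu

theorem jSub_inv (H : Subgroup (W ≃ₗ[K] W)) (U : Submodule K W)
    (hU : ∀ h ∈ H, ∀ u ∈ U, h u ∈ U) : ∀ g ∈ H, ∀ x ∈ jSub H U, g x ∈ jSub H U := by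
  intro g hg
  have hle : jSub H U ≤ (jSub H U).comap (g : W →ₗ[K] W) := by
    apply Submodule.span_le.mpr
    rintro x ⟨h, hh, u, hu, rfl⟩
    show g (h u - u) ∈ jSub H U
    have e : g (h u - u) = (g * h * g⁻¹) (g u) - g u := by
      rw [map_sub]
      congr 1
      simp [LinearEquiv.mul_apply]
    rw [e]
    exact Submodule.subset_span ⟨g * h * g⁻¹, H.mul_mem (H.mul_mem hg hh) (H.inv_mem hg), g u,
      hU g hg u hu, rfl⟩
  exact fun x hx => hle hx

theorem dichotomy [FiniteDimensional K W] {p : ℕ} [Fact p.Prime] [CharP K p]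
    (H : Subgroup (W ≃ₗ[K] W)) :
    ∀ (n : ℕ) (U : Submodule K W), Module.finrank K U ≤ n → (∀ h ∈ H, ∀ u ∈ U, h u ∈ U) →
      (∃ U' : Submodule K W, U' ≠ ⊥ ∧ (∀ h ∈ H, ∀ u ∈ U', h u ∈ U') ∧ jSub H U' = U') ∨
      (∃ m : ℕ, ∀ h ∈ H, ∀ u ∈ U, (h ^ (p ^ m)) u = u) := by
  intro n
  induction n with
  | zero =>
    intro U hU _
    right
    refine ⟨0, fun h _ u hu => ?_⟩
    have hb : U = ⊥ := by
      apply Submodule.finrank_eq_zero.mp
      omega
    rw [hb, Submodule.mem_bot] at hu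
    rw [hu, map_zero]
  | succ n ih =>
    intro U hU hinv
    by_cases hJ : jSub H U = U
    · by_cases hb : U = ⊥
      · right
        refine ⟨0, fun h _ u hu => ?_⟩
        rw [hb, Submodule.mem_bot] at hu
        rw [hu, map_zero]
      · left; exact ⟨U, hb, hinv, hJ⟩
    · have hlt : jSub H U < U := lt_of_le_of_ne (jSub_le H U hinv) hJ
      have hfr : Module.finrank K (jSub H U) ≤ n := by
        have := Submodule.finrank_lt_finrank_of_lt hlt
        omega
      rcases ih (jSub H U) hfr (jSub_inv H U hinv) with h | ⟨m, hm⟩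
      · left; exact h
      · right
        refine ⟨m + 1, fun h hh u hu => ?_⟩
        have hg : h ^ (p ^ m) ∈ H := H.pow_mem hh _
        obtain ⟨g, hgdef⟩ : ∃ g, g = h ^ (p ^ m) := ⟨_, rfl⟩
        rw [← hgdef] at hg
        have hv : g u - u ∈ jSub H U := Submodule.subset_span ⟨g, hg, u, hu, rfl⟩
        have hgv : g (g u - u) = g u - u := by
          have h1 := hm h hh _ hv
          rw [← hgdef] at h1
          exact h1
        have key : ∀ j : ℕ, (g ^ j) u = u + j • (g u - u) := by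
          intro j
          induction j with
          | zero => simp
          | succ j ihj =>
            rw [pow_succ', LinearEquiv.mul_apply, ihj, map_add, map_nsmul, hgv]
            rw [add_smul, one_smul]; abel
        have e1 : h ^ (p ^ (m + 1)) = g ^ p := by rw [hgdef, ← pow_mul, pow_succ]
        rw [e1, key]
        have e2 : (p : ℕ) • (g u - u) = 0 := by
          rw [← Nat.cast_smul_eq_nsmul K, CharP.cast_eq_zero, zero_smul]
        rw [e2, add_zero]

theorem inv_functional_zero (H : Subgroup (W ≃ₗ[K] W)) (U : Submodule K W)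
    (hJ : jSub H U = U) (G : W →ₗ[K] K)
    (hG : ∀ h ∈ H, ∀ u ∈ U, G (h u) = G u) : ∀ u ∈ U, G u = 0 := by
  have hle : jSub H U ≤ LinearMap.ker G := by
    apply Submodule.span_le.mpr
    rintro x ⟨h, hh, u, hu, rfl⟩
    show h u - u ∈ LinearMap.ker G
    rw [LinearMap.mem_ker, map_sub, hG h hh u hu, sub_self]
  intro u hu
  rw [← hJ] at hu
  exact LinearMap.mem_ker.mp (hle hu)

theorem exists_eigenfunctional [Fintype K] [FiniteDimensional K W] {p : ℕ} [Fact p.Prime]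
    [CharP K p] (U : Submodule K W) (hU : U ≠ ⊥) (T : W ≃ₗ[K] W) (hTU : ∀ u ∈ U, T u ∈ U)
    (e k : ℕ) (hk : k ∣ Fintype.card K - 1) (hT : T ^ (p ^ e * k) = 1) :
    ∃ (μ : K) (f : W →ₗ[K] K), μ ≠ 0 ∧ (∃ u ∈ U, f u ≠ 0) ∧ ∀ u ∈ U, f (T u) = μ * f u := by
  have hnt : Nontrivial U := (Submodule.nontrivial_iff_ne_bot).mpr hU
  obtain ⟨Tr, hTr⟩ : ∃ Tr : Module.End K U, ∀ x : U, ((Tr x : U) : W) = T x :=
    ⟨(T : W →ₗ[K] W).restrict hTU, fun x => rfl⟩
  have hpow : ∀ (n : ℕ) (x : U), (((Tr ^ n) x : U) : W) = (T ^ n) x := by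
    intro n
    induction n with
    | zero => intro x; simp
    | succ n ih =>
      intro x
      rw [pow_succ', Module.End.mul_apply, hTr, ih, pow_succ', LinearEquiv.mul_apply]
  have hTr1 : Tr ^ (p ^ e * k) = 1 := by
    apply LinearMap.ext
    intro x
    apply Subtype.ext
    rw [hpow, hT]
    rfl
  obtain ⟨μ, hμ⟩ := exists_eigenvalue_of_pow (p := p) Tr e k hk hTr1
  obtain ⟨v, hv⟩ := hμ.exists_hasEigenvector
  have hv1 : Tr v = μ • v := Module.End.mem_eigenspace_iff.mp hv.1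
  have hμ0 : μ ≠ 0 := by
    intro h0
    rw [h0, zero_smul] at hv1
    have h1 : T (v : W) = 0 := by rw [← hTr, hv1]; rfl
    have h2 : (v : W) = 0 := by simpa using h1
    exact hv.2 (Subtype.ext h2)
  have hns : ¬ Function.Surjective (Tr - μ • (1 : Module.End K U)) := by
    intro hs
    have hi := LinearMap.injective_iff_surjective.mpr hs
    have h1 : (Tr - μ • (1 : Module.End K U)) v = (Tr - μ • (1 : Module.End K U)) 0 := by
      simp [hv1]
    exact hv.2 (hi h1)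
  have hlt : LinearMap.range (Tr - μ • (1 : Module.End K U)) < ⊤ := by
    rw [lt_top_iff_ne_top]
    intro h
    exact hns (LinearMap.range_eq_top.mp h)
  obtain ⟨f', hf'0, hf'⟩ := Submodule.exists_le_ker_of_lt_top _ hlt
  obtain ⟨f, hf⟩ := LinearMap.exists_extend f'
  have hfu : ∀ u : U, f (u : W) = f' u := fun u => by rw [← hf]; rfl
  refine ⟨μ, f, hμ0, ?_, ?_⟩
  · by_contra hcon
    push Not at hcon
    apply hf'0
    apply LinearMap.ext
    intro u
    rw [← hfu, hcon u u.2]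
    rfl
  · intro u hu
    have h1 : (Tr - μ • (1 : Module.End K U)) ⟨u, hu⟩ ∈ LinearMap.ker f' :=
      hf' (LinearMap.mem_range_self _ _)
    rw [LinearMap.mem_ker, LinearMap.sub_apply, map_sub, LinearMap.smul_apply,
      Module.End.one_apply, map_smul, smul_eq_mul, sub_eq_zero] at h1
    have h2 := hfu ⟨u, hu⟩
    have h3 := hfu (Tr ⟨u, hu⟩)
    rw [hTr] at h3
    exact (h3.trans h1).trans (by rw [← h2])

/-- The intertwining relation between `h` on `U` and the matrix `M` on `K²` via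
`w ↦ (f w, f (a w))`. -/
def Rel (U : Submodule K W) (f : W →ₗ[K] K) (a : W ≃ₗ[K] W)
    (M : Matrix.SpecialLinearGroup (Fin 2) K) (h : W ≃ₗ[K] W) : Prop :=
  ∀ w ∈ U, f (h w) = M.1 0 0 * f w + M.1 0 1 * f (a w) ∧
    f (a (h w)) = M.1 1 0 * f w + M.1 1 1 * f (a w)

theorem Rel.mul {U : Submodule K W} {f : W →ₗ[K] K} {a : W ≃ₗ[K] W}
    {M N : Matrix.SpecialLinearGroup (Fin 2) K} {g h : W ≃ₗ[K] W}
    (hg : Rel U f a M g) (hh : Rel U f a N h) (hU : ∀ u ∈ U, h u ∈ U) :
    Rel U f a (M * N) (g * h) := by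
  intro w hw
  obtain ⟨h1, h2⟩ := hg (h w) (hU w hw)
  obtain ⟨h3, h4⟩ := hh w hw
  rw [LinearEquiv.mul_apply, h1, h2, h3, h4]
  simp only [Matrix.SpecialLinearGroup.coe_mul, Matrix.mul_apply, Fin.sum_univ_two]
  constructor <;> ring

theorem Rel.inv {U : Submodule K W} {f : W →ₗ[K] K} {a : W ≃ₗ[K] W}
    {M : Matrix.SpecialLinearGroup (Fin 2) K} {g : W ≃ₗ[K] W}
    (hg : Rel U f a M g) (hU : ∀ u ∈ U, g⁻¹ u ∈ U) :
    Rel U f a M⁻¹ g⁻¹ := by
  intro w hw
  obtain ⟨h1, h2⟩ := hg (g⁻¹ w) (hU w hw)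
  have hxx : g (g⁻¹ w) = w := by
    rw [← LinearEquiv.mul_apply, mul_inv_cancel]
    rfl
  rw [hxx] at h1 h2
  have hdet : M.1 0 0 * M.1 1 1 - M.1 0 1 * M.1 1 0 = 1 := by
    rw [← Matrix.det_fin_two]; exact M.2
  have e00 : (M⁻¹).1 0 0 = M.1 1 1 := by
    rw [Matrix.SpecialLinearGroup.coe_inv, Matrix.adjugate_fin_two]; rfl
  have e01 : (M⁻¹).1 0 1 = - M.1 0 1 := by
    rw [Matrix.SpecialLinearGroup.coe_inv, Matrix.adjugate_fin_two]; rfl
  have e10 : (M⁻¹).1 1 0 = - M.1 1 0 := by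
    rw [Matrix.SpecialLinearGroup.coe_inv, Matrix.adjugate_fin_two]; rfl
  have e11 : (M⁻¹).1 1 1 = M.1 0 0 := by
    rw [Matrix.SpecialLinearGroup.coe_inv, Matrix.adjugate_fin_two]; rfl
  rw [e00, e01, e10, e11]
  constructor
  · linear_combination (-M.1 1 1) * h1 + M.1 0 1 * h2 - f (g⁻¹ w) * hdet
  · linear_combination M.1 1 0 * h1 - M.1 0 0 * h2 - f (a (g⁻¹ w)) * hdet

/-- The natural action of `SL₂(K)` on `K × K`. -/
@[instance_reducible]
def slAct : MulAction (Matrix.SpecialLinearGroup (Fin 2) K) (K × K) where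
  smul := fun M v => (M.1 0 0 * v.1 + M.1 0 1 * v.2, M.1 1 0 * v.1 + M.1 1 1 * v.2)
  one_smul := fun v => by
    show ((1 : Matrix.SpecialLinearGroup (Fin 2) K).1 0 0 * v.1 +
      (1 : Matrix.SpecialLinearGroup (Fin 2) K).1 0 1 * v.2,
      (1 : Matrix.SpecialLinearGroup (Fin 2) K).1 1 0 * v.1 +
      (1 : Matrix.SpecialLinearGroup (Fin 2) K).1 1 1 * v.2) = v
    simp
  mul_smul := fun M N v => by
    show ((M * N).1 0 0 * v.1 + (M * N).1 0 1 * v.2, (M * N).1 1 0 * v.1 + (M * N).1 1 1 * v.2) =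
      (M.1 0 0 * (N.1 0 0 * v.1 + N.1 0 1 * v.2) + M.1 0 1 * (N.1 1 0 * v.1 + N.1 1 1 * v.2),
       M.1 1 0 * (N.1 0 0 * v.1 + N.1 0 1 * v.2) + M.1 1 1 * (N.1 1 0 * v.1 + N.1 1 1 * v.2))
    simp only [Matrix.SpecialLinearGroup.coe_mul, Matrix.mul_apply, Fin.sum_univ_two]
    apply Prod.ext <;> ring

end

/-- Two quadratically acting generators of a linear group that is not a p-group, with the p'-part of the order of their product dividing q - 1, give a homomorphism onto a subgroup of SL(2, q) that is not a p-group. -/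
theorem result {K : Type*} [Field K] [Fintype K] {p : ℕ} [Fact p.Prime] [CharP K p] {W : Type*} [AddCommGroup W] [Module K W] [FiniteDimensional K W] [Finite W] [Nontrivial W] (H : Subgroup (W ≃ₗ[K] W)) (a b : W ≃ₗ[K] W) (hH : H = Subgroup.closure {a, b}) (ha : ∀ w : W, a (a w - w) = a w - w) (hb : ∀ w : W, b (b w - w) = b w - w) (hnp : ¬ IsPGroup p H) (hk : ∃ e k : ℕ, orderOf (a * b) = p ^ e * k ∧ k ∣ Fintype.card K - 1) : ∃ φ : H →* Matrix.SpecialLinearGroup (Fin 2) K, ¬ IsPGroup p φ.range := by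
  classical
  have hp : p.Prime := Fact.out
  have haH : a ∈ H := by rw [hH]; exact Subgroup.subset_closure (by simp)
  have hbH : b ∈ H := by rw [hH]; exact Subgroup.subset_closure (by simp)
  -- Step 1: an invariant subspace `U ≠ 0` with `J(U) = U`
  obtain ⟨U, hU0, hUinv, hUJ⟩ : ∃ U' : Submodule K W, U' ≠ ⊥ ∧
      (∀ h ∈ H, ∀ u ∈ U', h u ∈ U') ∧ jSub H U' = U' := by
    rcases dichotomy (p := p) H (Module.finrank K (⊤ : Submodule K W)) ⊤ le_rfl
      (fun _ _ _ _ => Submodule.mem_top) with h | ⟨m, hm⟩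
    · exact h
    · exfalso
      apply hnp
      intro g
      refine ⟨m, ?_⟩
      apply Subtype.ext
      apply LinearEquiv.ext
      intro w
      have h1 := hm g.1 g.2 w Submodule.mem_top
      simpa using h1
  -- Step 2: eigenfunctional
  obtain ⟨e, k, hord, hk⟩ := hk
  obtain ⟨μ, f, hμ0, ⟨u0, hu0, hfu0⟩, hfT⟩ := exists_eigenfunctional (p := p) U hU0 (a * b)
    (fun u hu => hUinv _ (H.mul_mem haH hbH) u hu) e k hk
    (by rw [← hord]; exact pow_orderOf_eq_one _)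
  have haa : ∀ w, a (a w) = a w + a w - w := by
    intro w
    have h1 := ha w
    rw [map_sub, sub_eq_iff_eq_add] at h1
    rw [h1]; abel
  have hbb : ∀ w, b (b w) = b w + b w - w := by
    intro w
    have h1 := hb w
    rw [map_sub, sub_eq_iff_eq_add] at h1
    rw [h1]; abel
  have hfb : ∀ w ∈ U, f (b w) = 2 * f w - μ⁻¹ * f (a w) := by
    intro w hw
    have hy : b.symm w ∈ U := hUinv b⁻¹ (H.inv_mem hbH) w hw
    have h1 : f (a w) = μ * f (b.symm w) := by
      have h := hfT (b.symm w) hy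
      rw [LinearEquiv.mul_apply, LinearEquiv.apply_symm_apply] at h
      exact h
    have h2 : b w = w + w - b.symm w := by
      have h := hbb (b.symm w)
      rw [LinearEquiv.apply_symm_apply] at h
      exact h
    rw [h2, map_sub, map_add, h1]
    field_simp
    ring
  have hfab : ∀ w ∈ U, f (a (b w)) = μ * f w := fun w hw => hfT w hw
  have hfaa : ∀ w, f (a (a w)) = 2 * f (a w) - f w := by
    intro w; rw [haa, map_sub, map_add]; ring
  -- Step 3: the matrices
  have key : ∀ h ∈ H, ∃ M : Matrix.SpecialLinearGroup (Fin 2) K, Rel U f a M h := by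
    intro h hh
    have hh' := hh
    rw [hH] at hh'
    refine Subgroup.closure_induction
      (p := fun g _ => ∃ M : Matrix.SpecialLinearGroup (Fin 2) K, Rel U f a M g) ?_ ?_ ?_ ?_ hh'
    · rintro x (rfl | rfl)
      · refine ⟨⟨!![0, 1; -1, 2], by simp [Matrix.det_fin_two]⟩, fun w hw => ⟨?_, ?_⟩⟩
        · simp
        · simp [hfaa]; ring
      · refine ⟨⟨!![2, -μ⁻¹; μ, 0], by simp [Matrix.det_fin_two, hμ0]⟩, fun w hw => ⟨?_, ?_⟩⟩
        · simp [hfb w hw]; ring
        · simp [hfab w hw]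
    · exact ⟨1, fun w hw => by simp⟩
    · rintro x y hx hy ⟨Mx, hMx⟩ ⟨My, hMy⟩
      exact ⟨Mx * My, hMx.mul hMy (hUinv y (hH ▸ hy))⟩
    · rintro x hx ⟨M, hM⟩
      exact ⟨M⁻¹, hM.inv (hUinv x⁻¹ (H.inv_mem (hH ▸ hx)))⟩
  -- Step 4: surjectivity of `w ↦ (f w, f (a w))` on `U`
  have hsurj : ∀ x y : K, ∃ w ∈ U, f w = x ∧ f (a w) = y := by
    by_cases hex : ∃ w0 ∈ U, f w0 = 0 ∧ f (a w0) ≠ 0
    · obtain ⟨w0, hw0, h0, h0a⟩ := hex
      intro x y
      refine ⟨(x / f u0) • u0 + ((y - x / f u0 * f (a u0)) / f (a w0)) • w0,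
        U.add_mem (U.smul_mem _ hu0) (U.smul_mem _ hw0), ?_, ?_⟩
      · simp [h0, hfu0]
      · simp [h0a]
    · exfalso
      push Not at hex
      obtain ⟨c, hcdef⟩ : ∃ c, c = f (a u0) / f u0 := ⟨_, rfl⟩
      have hc : ∀ w ∈ U, f (a w) = c * f w := by
        intro w hw
        have hz : f (w - (f w / f u0) • u0) = 0 := by simp [hfu0]
        have h1 := hex (w - (f w / f u0) • u0) (U.sub_mem hw (U.smul_mem _ hu0)) hz
        rw [map_sub, map_smul, map_sub, map_smul, smul_eq_mul, sub_eq_zero] at h1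
        rw [h1, hcdef]; field_simp
      have hc1 : c = 1 := by
        have h1 := hfaa u0
        rw [hc (a u0) (hUinv a haH u0 hu0), hc u0 hu0] at h1
        have h2 : (c - 1) ^ 2 * f u0 = 0 := by linear_combination h1
        have h3 : (c - 1) ^ 2 = 0 := by
          rcases mul_eq_zero.mp h2 with h | h
          · exact h
          · exact absurd h hfu0
        have h4 : c - 1 = 0 := by simpa using h3
        linear_combination h4
      have hfa : ∀ w ∈ U, f (a w) = f w := by intro w hw; rw [hc w hw, hc1, one_mul]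
      have hμ1 : μ = 1 := by
        have h1 := hfab u0 hu0
        rw [hfa (b u0) (hUinv b hbH u0 hu0), hfb u0 hu0, hfa u0 hu0] at h1
        have h2 : (μ - 1) ^ 2 * f u0 = 0 := by
          have h : μ * (2 * f u0 - μ⁻¹ * f u0) = μ * (μ * f u0) := congrArg (fun t => μ * t) h1
          rw [mul_sub, ← mul_assoc μ μ⁻¹, mul_inv_cancel₀ hμ0] at h
          linear_combination (-1 : K) * h
        have h3 : (μ - 1) ^ 2 = 0 := by
          rcases mul_eq_zero.mp h2 with h | h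
          · exact h
          · exact absurd h hfu0
        have h4 : μ - 1 = 0 := by simpa using h3
        linear_combination h4
      have hfbw : ∀ w ∈ U, f (b w) = f w := by
        intro w hw
        rw [hfb w hw, hfa w hw, hμ1, inv_one]
        ring
      have hfH : ∀ h ∈ H, ∀ u ∈ U, f (h u) = f u := by
        intro h hh
        have hh' := hh
        rw [hH] at hh'
        refine Subgroup.closure_induction (p := fun g _ => ∀ u ∈ U, f (g u) = f u) ?_ ?_ ?_ ?_ hh'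
        · rintro x (rfl | rfl)
          · exact hfa
          · exact hfbw
        · intro u _; rfl
        · intro x y hx hy ihx ihy u hu
          rw [LinearEquiv.mul_apply, ihx _ (hUinv y (hH ▸ hy) u hu), ihy u hu]
        · intro x hx ih u hu
          have h1 := ih (x⁻¹ u) (hUinv x⁻¹ (H.inv_mem (hH ▸ hx)) u hu)
          rw [← h1, ← LinearEquiv.mul_apply, mul_inv_cancel]
          rfl
      exact hfu0 (inv_functional_zero H U hUJ f hfH u0 hu0)
  have huniq : ∀ (h : W ≃ₗ[K] W) (M N : Matrix.SpecialLinearGroup (Fin 2) K),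
      Rel U f a M h → Rel U f a N h → M = N := by
    intro h M N hM hN
    obtain ⟨w1, hw1, h11, h12⟩ := hsurj 1 0
    obtain ⟨w2, hw2, h21, h22⟩ := hsurj 0 1
    have e1 := hM w1 hw1
    have e2 := hN w1 hw1
    have e3 := hM w2 hw2
    have e4 := hN w2 hw2
    rw [h11, h12] at e1 e2
    rw [h21, h22] at e3 e4
    simp only [mul_one, mul_zero, add_zero, zero_add] at e1 e2 e3 e4
    apply Matrix.SpecialLinearGroup.ext
    intro i j
    fin_cases i <;> fin_cases j
    · exact e1.1.symm.trans e2.1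
    · exact e3.1.symm.trans e4.1
    · exact e1.2.symm.trans e2.2
    · exact e3.2.symm.trans e4.2
  obtain ⟨φ, hφ⟩ : ∃ φ : H →* Matrix.SpecialLinearGroup (Fin 2) K,
      ∀ h : H, Rel U f a (φ h) h.1 := by
    refine ⟨MonoidHom.mk' (fun h => Classical.choose (key h.1 h.2)) ?_,
      fun h => Classical.choose_spec (key h.1 h.2)⟩
    intro g h
    exact huniq (g * h).1 _ _ (Classical.choose_spec (key (g * h).1 (g * h).2))
      ((Classical.choose_spec (key g.1 g.2)).mul (Classical.choose_spec (key h.1 h.2))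
        (hUinv h.1 h.2))
  refine ⟨φ, fun hP => ?_⟩
  let _ : MulAction (Matrix.SpecialLinearGroup (Fin 2) K) (K × K) := slAct
  have hpdvd : p ∣ Nat.card (K × K) := by
    rw [Nat.card_prod]
    apply Dvd.dvd.mul_right
    rw [Nat.card_eq_fintype_card]
    exact (CharP.cast_eq_zero_iff K p _).mp (Nat.cast_card_eq_zero K)
  have h0 : (0 : K × K) ∈ MulAction.fixedPoints φ.range (K × K) := by
    intro M
    show ((M.1.1 0 0 * (0 : K × K).1 + M.1.1 0 1 * (0 : K × K).2,
      M.1.1 1 0 * (0 : K × K).1 + M.1.1 1 1 * (0 : K × K).2) : K × K) = 0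
    simp
  obtain ⟨v, hv, hv0⟩ := hP.exists_fixed_point_of_prime_dvd_card_of_fixed_point (K × K) hpdvd h0
  have hfix : ∀ h : H, (φ h).1 0 0 * v.1 + (φ h).1 0 1 * v.2 = v.1 ∧
      (φ h).1 1 0 * v.1 + (φ h).1 1 1 * v.2 = v.2 := by
    intro h
    have h1 : ((φ h).1 0 0 * v.1 + (φ h).1 0 1 * v.2,
        (φ h).1 1 0 * v.1 + (φ h).1 1 1 * v.2) = v :=
      hv ⟨φ h, MonoidHom.mem_range.mpr ⟨h, rfl⟩⟩
    exact ⟨congrArg Prod.fst h1, congrArg Prod.snd h1⟩
  obtain ⟨G, hG⟩ : ∃ G : W →ₗ[K] K, ∀ w, G w = v.1 * f (a w) - v.2 * f w :=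
    ⟨v.1 • (f ∘ₗ (a : W →ₗ[K] W)) - v.2 • f, fun w => by simp⟩
  have hGinv : ∀ h ∈ H, ∀ u ∈ U, G (h u) = G u := by
    intro h hh u hu
    obtain ⟨h1, h2⟩ := hφ ⟨h, hh⟩ u hu
    obtain ⟨e1, e2⟩ := hfix ⟨h, hh⟩
    have hdet : (φ ⟨h, hh⟩).1 0 0 * (φ ⟨h, hh⟩).1 1 1 -
        (φ ⟨h, hh⟩).1 0 1 * (φ ⟨h, hh⟩).1 1 0 = 1 := by
      rw [← Matrix.det_fin_two]; exact (φ ⟨h, hh⟩).2
    rw [hG, hG, h1, h2]
    linear_combination (-((φ ⟨h, hh⟩).1 1 0 * f u + (φ ⟨h, hh⟩).1 1 1 * f (a u))) * e1 +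
      ((φ ⟨h, hh⟩).1 0 0 * f u + (φ ⟨h, hh⟩).1 0 1 * f (a u)) * e2 +
      (v.1 * f (a u) - v.2 * f u) * hdet
  have hG0 := inv_functional_zero H U hUJ G hGinv
  by_cases hv1 : v.1 = 0
  · have hv2 : v.2 ≠ 0 := by
      intro h
      exact hv0 (Prod.ext hv1.symm h.symm)
    obtain ⟨w, hw, hw1, hw2⟩ := hsurj 1 0
    have h1 := hG0 w hw
    rw [hG, hw1, hw2] at h1
    simp at h1
    exact hv2 h1
  · obtain ⟨w, hw, hw1, hw2⟩ := hsurj 0 1
    have h1 := hG0 w hw
    rw [hG, hw1, hw2] at h1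
    simp at h1
    exact hv1 h1

end Cfsg.Agent.S0592
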