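import Cfsg.Statements.S0593
import Cfsg.Agent.Lib.Helper17.QuadAb3

set_option autoImplicit false
open Cfsg

namespace Cfsg.Agent.S0593

/-- For odd p, a faithful group on an elementary abelian p-group generated by two quadratically acting elements is a p-group or has non-abelian Sylow 2-subgroups. -/
theorem result {G : Type*} [Group G] [Finite G] {p : ℕ} [Fact p.Prime] (hp : p ≠ 2) (V H : Subgroup G) (hV : Cfsg.IsElementaryAbelian p V) (hHV : H ≤ Subgroup.normalizer (V : Set G)) (hf : H ⊓ Subgroup.centralizer (V : Set G) = ⊥) (a b : G) (hab : H = Subgroup.closure {a, b}) (ha : ⁅⁅V, Subgroup.zpowers a⁆, Subgroup.zpowers a⁆ = ⊥) (hb : ⁅⁅V, Subgroup.zpowers b⁆, Subgroup.zpowers b⁆ = ⊥) (hnp : ¬ IsPGroup p H) (T : Sylow 2 H) : ¬ IsMulCommutative T := by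
  classical
  intro hTc
  apply hnp
  obtain ⟨hVc, hVp⟩ := hV
  letI : CommGroup ↥V :=
    { (inferInstance : Group ↥V) with mul_comm := fun x y => hVc.is_comm.comm x y }
  obtain ⟨φ, hφ⟩ : ∃ φ : ↥H →* MulAut ↥V,
      ∀ (h : ↥H) (v : ↥V), ((φ h v : ↥V) : G) = h * v * (h : G)⁻¹ :=
    ⟨(V.normalizerMonoidHom).comp (Subgroup.inclusion hHV), fun _ _ => rfl⟩
  have haH : a ∈ H := by rw [hab]; exact Subgroup.subset_closure (by simp)
  have hbH : b ∈ H := by rw [hab]; exact Subgroup.subset_closure (by simp)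
  have hAp : ∀ v : ↥V, v ^ p = 1 := by
    intro v
    apply Subtype.ext
    rw [Subgroup.coe_pow, hVp _ v.2]
    rfl
  have hqa : Cfsg.Agent.Lib.Helper17.QuadAct φ ⟨a, haH⟩ := by
    intro v
    apply Subtype.ext
    rw [hφ, Subgroup.coe_div, hφ, div_eq_mul_inv]
    exact Cfsg.Agent.Lib.Helper17.quad_elem_of_comm V a ha v v.2
  have hqb : Cfsg.Agent.Lib.Helper17.QuadAct φ ⟨b, hbH⟩ := by
    intro v
    apply Subtype.ext
    rw [hφ, Subgroup.coe_div, hφ, div_eq_mul_inv]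
    exact Cfsg.Agent.Lib.Helper17.quad_elem_of_comm V b hb v v.2
  have hgen : Subgroup.closure ({⟨a, haH⟩, ⟨b, hbH⟩} : Set ↥H) = ⊤ := by
    apply Subgroup.map_injective H.subtype_injective
    rw [MonoidHom.map_closure, ← MonoidHom.range_eq_map, Subgroup.range_subtype]
    conv_rhs => rw [hab]
    congr 1
    ext w
    simp [Set.image_pair]
  have hT : ∀ s ∈ T, ∀ t ∈ T, φ s * φ t = φ t * φ s := by
    intro s hs t ht
    have h1 : (⟨s, hs⟩ : ↥(T : Subgroup ↥H)) * ⟨t, ht⟩ = ⟨t, ht⟩ * ⟨s, hs⟩ :=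
      hTc.is_comm.comm _ _
    have h2 : s * t = t * s := congrArg Subtype.val h1
    rw [← map_mul, ← map_mul, h2]
  intro g
  obtain ⟨k, hk⟩ := Cfsg.Agent.Lib.Helper17.quad_two hp hAp φ ⟨a, haH⟩ ⟨b, hbH⟩ hgen hqa hqb
    T hT g
  refine ⟨k, ?_⟩
  have hmem : ((g ^ p ^ k : ↥H) : G) ∈ H ⊓ Subgroup.centralizer (V : Set G) := by
    refine Subgroup.mem_inf.mpr ⟨(g ^ p ^ k).2, ?_⟩
    rw [Subgroup.mem_centralizer_iff]
    intro v hv
    have h1 : φ (g ^ p ^ k) ⟨v, hv⟩ = ⟨v, hv⟩ := by rw [map_pow, hk]; rfl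
    have h2 := congrArg Subtype.val h1
    rw [hφ] at h2
    obtain ⟨y, hy⟩ : ∃ y : G, y = ((g ^ p ^ k : ↥H) : G) := ⟨_, rfl⟩
    rw [← hy] at h2 ⊢
    calc v * y = (y * v * y⁻¹) * y := by rw [h2]
      _ = y * v := by group
  rw [hf, Subgroup.mem_bot] at hmem
  exact Subtype.ext hmem

end Cfsg.Agent.S0593
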