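import Cfsg.Statements.S0594
import Cfsg.Agent.Lib.Helper17.QuadSub

set_option autoImplicit false
open Cfsg

namespace Cfsg.Agent.S0594

/-- For odd p, two quadratic generators of a faithful group that is not a p-group, one of which acts nontrivially on a normal subgroup of order prime to p, force p = 3 and a section isomorphic to SL(2,3). -/
theorem result {G : Type*} [Group G] [Finite G] {p : ℕ} [Fact p.Prime] (hp : p ≠ 2) (V H : Subgroup G) (hV : Cfsg.IsElementaryAbelian p V) (hHV : H ≤ Subgroup.normalizer (V : Set G)) (hf : H ⊓ Subgroup.centralizer (V : Set G) = ⊥) (a b : G) (hab : H = Subgroup.closure {a, b}) (ha : ⁅⁅V, Subgroup.zpowers a⁆, Subgroup.zpowers a⁆ = ⊥) (hb : ⁅⁅V, Subgroup.zpowers b⁆, Subgroup.zpowers b⁆ = ⊥) (hnp : ¬ IsPGroup p H) (Q : Subgroup G) (hQH : Q ≤ H) (hQn : H ≤ Subgroup.normalizer (Q : Set G)) (hQ : (Nat.card Q).Coprime p) (hQa : ⁅Q, Subgroup.zpowers a⁆ ≠ ⊥) : p = 3 ∧ ∃ (K L : Subgroup G) (hL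 : (L.subgroupOf K).Normal), K ≤ H ∧ Nonempty ((K ⧸ L.subgroupOf K) ≃* Matrix.SpecialLinearGroup (Fin 2) (ZMod 3)) := by
  classical
  have haH : a ∈ H := by rw [hab]; exact Subgroup.subset_closure (by simp)
  have hquad := Cfsg.Agent.Lib.Helper17.quad_elem_of_comm V a ha
  have hQa' : ∀ r ∈ Q, a * r * a⁻¹ ∈ Q := by
    intro r hr
    exact (Subgroup.mem_normalizer_iff.mp (hQn haH) r).mp hr
  have hex : ∃ r ∈ Q, a * r * a⁻¹ ≠ r := by
    by_contra hcon
    push Not at hcon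
    apply hQa
    rw [Subgroup.commutator_eq_bot_iff_le_centralizer]
    intro r hr
    rw [Subgroup.mem_centralizer_iff]
    intro z hz
    obtain ⟨k, rfl⟩ := Subgroup.mem_zpowers_iff.mp hz
    have h1 : Commute a r := by
      have h0 := hcon r hr
      have e : a * r = (a * r * a⁻¹) * a := by group
      rw [h0] at e
      exact e
    exact (h1.zpow_left k).eq
  obtain ⟨r, hr, hr'⟩ := hex
  have hne : ∃ r ∈ Q, ∃ v ∈ V, (a * r * a⁻¹) * v * (a * r * a⁻¹)⁻¹ ≠ r * v * r⁻¹ := by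
    refine ⟨r, hr, ?_⟩
    by_contra hcon
    push Not at hcon
    apply hr'
    have h1 : r⁻¹ * (a * r * a⁻¹) ∈ H ⊓ Subgroup.centralizer (V : Set G) := by
      refine Subgroup.mem_inf.mpr ⟨H.mul_mem (H.inv_mem (hQH hr)) (hQH (hQa' r hr)), ?_⟩
      rw [Subgroup.mem_centralizer_iff]
      intro v hv
      have h2 := hcon v hv
      calc v * (r⁻¹ * (a * r * a⁻¹)) = r⁻¹ * (r * v * r⁻¹) * (a * r * a⁻¹) := by group
        _ = r⁻¹ * ((a * r * a⁻¹) * v * (a * r * a⁻¹)⁻¹) * (a * r * a⁻¹) := by rw [h2]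
        _ = r⁻¹ * (a * r * a⁻¹) * v := by group
    rw [hf, Subgroup.mem_bot] at h1
    have e : a * r * a⁻¹ = r * (r⁻¹ * (a * r * a⁻¹)) := by group
    rw [e, h1, mul_one]
  obtain ⟨h3, hinv⟩ := Cfsg.Agent.Lib.Helper17.quad_sol_subgroup hp V H hV hHV a haH hquad Q hQH
    hQa' hQ hne
  exact ⟨h3, Cfsg.Agent.Lib.Helper17.exists_section_of_involves_subgroup H hinv⟩

end Cfsg.Agent.S0594
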