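import Cfsg.Statements.S0595
import Cfsg.Agent.Lib.Helper17.QuadAb3

set_option autoImplicit false
open Cfsg

namespace Cfsg.Agent.S0595

/-- For odd p, a faithful action on an elementary abelian p-group that is not p-stable forces non-abelian Sylow 2-subgroups. -/
theorem result {G : Type*} [Group G] [Finite G] {p : ℕ} [Fact p.Prime] (hp : p ≠ 2) (V H : Subgroup G) (hV : Cfsg.IsElementaryAbelian p V) (hHV : H ≤ Subgroup.normalizer (V : Set G)) (hf : H ⊓ Subgroup.centralizer (V : Set G) = ⊥) (a : G) (haH : a ∈ H) (hq : ⁅⁅V, Subgroup.zpowers a⁆, Subgroup.zpowers a⁆ = ⊥) (hna : a ∉ (Cfsg.pCore p H).map H.subtype) (T : Sylow 2 H) : ¬ IsMulCommutative T := by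
  classical
  intro hTc
  apply hna
  obtain ⟨hVc, hVp⟩ := hV
  letI : CommGroup ↥V :=
    { (inferInstance : Group ↥V) with mul_comm := fun x y => hVc.is_comm.comm x y }
  obtain ⟨φ, hφ⟩ : ∃ φ : ↥H →* MulAut ↥V,
      ∀ (h : ↥H) (v : ↥V), ((φ h v : ↥V) : G) = h * v * (h : G)⁻¹ :=
    ⟨(V.normalizerMonoidHom).comp (Subgroup.inclusion hHV), fun _ _ => rfl⟩
  have hAp : ∀ v : ↥V, v ^ p = 1 := by
    intro v
    apply Subtype.ext
    rw [Subgroup.coe_pow, hVp _ v.2]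
    rfl
  have hqa : Cfsg.Agent.Lib.Helper17.QuadAct φ ⟨a, haH⟩ := by
    intro v
    apply Subtype.ext
    rw [hφ, Subgroup.coe_div, hφ, div_eq_mul_inv]
    exact Cfsg.Agent.Lib.Helper17.quad_elem_of_comm V a hq v v.2
  have hT : ∀ s ∈ T, ∀ t ∈ T, s * t = t * s := by
    intro s hs t ht
    have h1 : (⟨s, hs⟩ : ↥(T : Subgroup ↥H)) * ⟨t, ht⟩ = ⟨t, ht⟩ * ⟨s, hs⟩ :=
      hTc.is_comm.comm _ _
    exact congrArg Subtype.val h1
  have hab := Cfsg.Agent.Lib.Helper17.comm_of_two_subgroup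
    (Cfsg.Agent.Lib.Helper17.abSyl_of_one T hT)
  obtain ⟨N, hNn, haN, hN⟩ := Cfsg.Agent.Lib.Helper17.quad_abSyl2 hp hAp φ hab ⟨a, haH⟩ hqa
  have hNp : IsPGroup p N := by
    rintro ⟨g, hg⟩
    obtain ⟨k, hk⟩ := hN g hg
    refine ⟨k, ?_⟩
    apply Subtype.ext
    rw [Subgroup.coe_pow, Subgroup.coe_one]
    have hmem : ((g ^ p ^ k : ↥H) : G) ∈ H ⊓ Subgroup.centralizer (V : Set G) := by
      refine Subgroup.mem_inf.mpr ⟨(g ^ p ^ k).2, ?_⟩
      rw [Subgroup.mem_centralizer_iff]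
      intro v hv
      have h1 : φ (g ^ p ^ k) ⟨v, hv⟩ = ⟨v, hv⟩ := by rw [map_pow, hk]; rfl
      have h2 := congrArg Subtype.val h1
      rw [hφ] at h2
      obtain ⟨y, hy⟩ : ∃ y : G, y = ((g ^ p ^ k : ↥H) : G) := ⟨_, rfl⟩
      rw [← hy] at h2 ⊢
      calc v * y = (y * v * y⁻¹) * y := by rw [h2]
        _ = y * v := by group
    rw [hf, Subgroup.mem_bot] at hmem
    exact Subtype.ext hmem
  exact ⟨⟨a, haH⟩, Cfsg.Agent.Lib.Helper14.le_pCore p hNn hNp haN, rfl⟩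

end Cfsg.Agent.S0595
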