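import Cfsg.Statements.S0596
import Cfsg.Agent.Lib.Helper17.QuadPSub

set_option autoImplicit false
open Cfsg

namespace Cfsg.Agent.S0596

/-- For odd p, a p-separable group with a faithful action on an elementary abelian p-group that is not p-stable has p = 3 and involves SL(2,3). -/
theorem result {G : Type*} [Group G] [Finite G] {p : ℕ} [Fact p.Prime] (hp : p ≠ 2) (V H : Subgroup G) (hV : Cfsg.IsElementaryAbelian p V) (hHV : H ≤ Subgroup.normalizer (V : Set G)) (hf : H ⊓ Subgroup.centralizer (V : Set G) = ⊥) (hsep : Cfsg.IsPSolvable p H) (a : G) (haH : a ∈ H) (hq : ⁅⁅V, Subgroup.zpowers a⁆, Subgroup.zpowers a⁆ = ⊥) (hna : a ∉ (Cfsg.pCore p H).map H.subtype) : p = 3 ∧ ∃ (K L : Subgroup G) (hL : (L.subgroupOf K).Normal), K ≤ H ∧ Nonempty ((K ⧸ L.subgroupOf K) ≃* Matrix.SpecialLinearGroup (Fin 2) (ZMod 3)) := by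
  classical
  have hquad := Cfsg.Agent.Lib.Helper17.quad_elem_of_comm V a hq
  have hyp : ∀ N : Subgroup ↥H, N.Normal → (⟨a, haH⟩ : ↥H) ∈ N →
      ¬ (∀ x ∈ N, ∃ k : ℕ, ∀ v ∈ V, (x : G) ^ p ^ k * v = v * (x : G) ^ p ^ k) := by
    intro N hNn haN hN
    apply hna
    have hNp : IsPGroup p N := by
      intro x
      obtain ⟨k, hk⟩ := hN x x.2
      refine ⟨k, ?_⟩
      have h1 : ((x : ↥H) : G) ^ p ^ k ∈ H ⊓ Subgroup.centralizer (V : Set G) := by
        refine Subgroup.mem_inf.mpr ⟨H.pow_mem (x : ↥H).2 _, ?_⟩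
        rw [Subgroup.mem_centralizer_iff]
        intro v hv
        exact (hk v hv).symm
      rw [hf, Subgroup.mem_bot] at h1
      apply Subtype.ext
      apply Subtype.ext
      rw [Subgroup.coe_pow, Subgroup.coe_pow]
      exact h1
    have hle := Cfsg.Agent.Lib.Helper14.le_pCore p hNn hNp
    exact ⟨⟨a, haH⟩, hle haN, rfl⟩
  obtain ⟨h3, hinv⟩ := Cfsg.Agent.Lib.Helper17.quad_psolv_subgroup hp V H hV hHV hsep a haH hquad
    hyp
  exact ⟨h3, Cfsg.Agent.Lib.Helper17.exists_section_of_involves_subgroup H hinv⟩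

end Cfsg.Agent.S0596
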