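import Cfsg.Statements.S0597
import Cfsg.Agent.Lib.Helper5.Wielandt
import Cfsg.Agent.Lib.Helper11.Basic

set_option autoImplicit false
open Cfsg
open scoped commutatorElement

namespace Cfsg.Agent.S0597

/-- If two subnormal subgroups of a faithful group on an elementary abelian p-group satisfy [V, E₁, E₂] = 1, then their commutator lies in the largest normal p-subgroup. -/
theorem result {G : Type*} [Group G] [Finite G] {p : ℕ} [Fact p.Prime] (V H : Subgroup G) (hV : Cfsg.IsElementaryAbelian p V) (hHV : H ≤ Subgroup.normalizer (V : Set G)) (hf : H ⊓ Subgroup.centralizer (V : Set G) = ⊥) (E₁ E₂ : Subgroup G) (h₁ : E₁ ≤ H) (h₂ : E₂ ≤ H) (hs₁ : (E₁.subgroupOf H).IsSubnormal) (hs₂ : (E₂.subgroupOf H).IsSubnormal) (hc : ⁅⁅V, E₁⁆, E₂⁆ = ⊥) : ⁅E₁, E₂⁆ ≤ (Cfsg.pCore p H).map H.subtype := by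
  classical
  have hDH : ⁅E₁, E₂⁆ ≤ H := by
    rw [Subgroup.commutator_le]
    intro a ha b hb
    exact H.mul_mem (H.mul_mem (H.mul_mem (h₁ ha) (h₂ hb)) (H.inv_mem (h₁ ha))) (H.inv_mem (h₂ hb))
  have hconjV : ∀ g ∈ H, ∀ v ∈ V, g * v * g⁻¹ ∈ V :=
    fun g hg v hv => (Subgroup.mem_normalizer_iff.mp (hHV hg) v).mp hv
  have hW₁V : ⁅V, E₁⁆ ≤ V := by
    rw [Subgroup.commutator_le]
    intro v hv a ha
    rw [commutatorElement_def]
    have h3 := hconjV a (h₁ ha) v⁻¹ (V.inv_mem hv)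
    have e : v * a * v⁻¹ * a⁻¹ = v * (a * v⁻¹ * a⁻¹) := by group
    rw [e]; exact V.mul_mem hv h3
  have hE₂W : ∀ e₂ ∈ E₂, ∀ w ∈ ⁅V, E₁⁆, e₂ * w = w * e₂ := by
    have h4 := Subgroup.commutator_eq_bot_iff_le_centralizer.mp hc
    intro e₂ he₂ w hw
    exact Subgroup.mem_centralizer_iff.mp (h4 hw) e₂ he₂
  have hE₁N : E₁ ≤ Subgroup.normalizer ((⁅V, E₁⁆ : Subgroup G) : Set G) :=
    Subgroup.normalizer_commutator_ge_right V E₁
  have hE₂N : E₂ ≤ Subgroup.normalizer ((⁅V, E₁⁆ : Subgroup G) : Set G) := by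
    intro e he
    apply Subgroup.centralizer_le_normalizer
    rw [Subgroup.mem_centralizer_iff]
    intro w hw; exact (hE₂W e he w hw).symm
  let K₁ : Subgroup G :=
    { carrier := {g | g ∈ Subgroup.normalizer (V : Set G) ∧
        g ∈ Subgroup.normalizer ((⁅V, E₁⁆ : Subgroup G) : Set G) ∧ ∀ v ∈ V, ⁅v, g⁆ ∈ ⁅V, E₁⁆}
      one_mem' := by
        refine ⟨Subgroup.one_mem _, Subgroup.one_mem _, fun v _ => ?_⟩
        rw [commutatorElement_one_right]
        exact Subgroup.one_mem _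
      mul_mem' := by
        rintro x y ⟨x1, x2, x3⟩ ⟨y1, y2, y3⟩
        refine ⟨Subgroup.mul_mem _ x1 y1, Subgroup.mul_mem _ x2 y2, fun v hv => ?_⟩
        have e : ⁅v, x * y⁆ = ⁅v, x⁆ * (x * ⁅v, y⁆ * x⁻¹) := by
          simp only [commutatorElement_def]; group
        rw [e]
        exact Subgroup.mul_mem _ (x3 v hv) ((Subgroup.mem_normalizer_iff.mp x2 _).mp (y3 v hv))
      inv_mem' := by
        rintro x ⟨x1, x2, x3⟩
        refine ⟨Subgroup.inv_mem _ x1, Subgroup.inv_mem _ x2, fun v hv => ?_⟩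
        have e : ⁅v, x⁻¹⁆ = x⁻¹ * (⁅v, x⁆)⁻¹ * (x⁻¹)⁻¹ := by
          simp only [commutatorElement_def]; group
        rw [e]
        exact (Subgroup.mem_normalizer_iff.mp (Subgroup.inv_mem _ x2) _).mp
          (Subgroup.inv_mem _ (x3 v hv)) }
  have hE₁K : E₁ ≤ K₁ := fun e he =>
    ⟨hHV (h₁ he), hE₁N he, fun v hv => Subgroup.commutator_mem_commutator hv he⟩
  have hDK : ⁅E₁, E₂⁆ ≤ K₁ ⊓ Subgroup.centralizer ((⁅V, E₁⁆ : Subgroup G) : Set G) := by
    rw [Subgroup.commutator_le]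
    intro e₁ he₁ e₂ he₂
    refine Subgroup.mem_inf.mpr ⟨?_, ?_⟩
    · have hconj : e₂ * e₁⁻¹ * e₂⁻¹ ∈ K₁ := by
        obtain ⟨k1, k2, k3⟩ := hE₁K (E₁.inv_mem he₁)
        have n1 := hHV (h₂ he₂)
        have n2 := hE₂N he₂
        refine ⟨Subgroup.mul_mem _ (Subgroup.mul_mem _ n1 k1) (Subgroup.inv_mem _ n1),
          Subgroup.mul_mem _ (Subgroup.mul_mem _ n2 k2) (Subgroup.inv_mem _ n2), fun v hv => ?_⟩
        have hv' : e₂⁻¹ * v * e₂ ∈ V := by
          simpa using hconjV e₂⁻¹ (H.inv_mem (h₂ he₂)) v hv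
        have h4 := k3 _ hv'
        have e : ⁅v, e₂ * e₁⁻¹ * e₂⁻¹⁆ = e₂ * ⁅e₂⁻¹ * v * e₂, e₁⁻¹⁆ * e₂⁻¹ := by
          simp only [commutatorElement_def]; group
        rw [e]
        exact (Subgroup.mem_normalizer_iff.mp n2 _).mp h4
      have e : ⁅e₁, e₂⁆ = e₁ * (e₂ * e₁⁻¹ * e₂⁻¹) := by rw [commutatorElement_def]; group
      rw [e]
      exact K₁.mul_mem (hE₁K he₁) hconj
    · rw [Subgroup.mem_centralizer_iff]
      intro w hw
      have hw' : e₁⁻¹ * w * e₁ ∈ ⁅V, E₁⁆ := by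
        simpa using (Subgroup.mem_normalizer_iff.mp (hE₁N (E₁.inv_mem he₁)) w).mp hw
      have c1 := hE₂W e₂ he₂ w hw
      have c2 := hE₂W e₂ he₂ _ hw'
      rw [commutatorElement_def]
      have c1' : e₂⁻¹ * w = w * e₂⁻¹ := by
        calc e₂⁻¹ * w = e₂⁻¹ * (w * e₂) * e₂⁻¹ := by group
          _ = e₂⁻¹ * (e₂ * w) * e₂⁻¹ := by rw [c1]
          _ = w * e₂⁻¹ := by group
      calc w * (e₁ * e₂ * e₁⁻¹ * e₂⁻¹)
          = e₁ * ((e₁⁻¹ * w * e₁) * e₂) * e₁⁻¹ * e₂⁻¹ := by group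
        _ = e₁ * (e₂ * (e₁⁻¹ * w * e₁)) * e₁⁻¹ * e₂⁻¹ := by rw [c2]
        _ = e₁ * e₂ * e₁⁻¹ * (w * e₂⁻¹) := by group
        _ = e₁ * e₂ * e₁⁻¹ * (e₂⁻¹ * w) := by rw [c1']
        _ = e₁ * e₂ * e₁⁻¹ * e₂⁻¹ * w := by group
  have hpow : ∀ d ∈ ⁅E₁, E₂⁆, d ^ p = 1 := by
    intro d hd
    obtain ⟨⟨-, -, hk3⟩, hdW⟩ := Subgroup.mem_inf.mp (hDK hd)
    have hdH := hDH hd
    have hcent : d ^ p ∈ H ⊓ Subgroup.centralizer (V : Set G) := by
      refine Subgroup.mem_inf.mpr ⟨H.pow_mem hdH p, ?_⟩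
      rw [Subgroup.mem_centralizer_iff]
      intro v hv
      obtain ⟨c, hc1, hdv⟩ : ∃ c ∈ ⁅V, E₁⁆, d * v * d⁻¹ = c * v := by
        refine ⟨⁅d, v⁆, ?_, by rw [commutatorElement_def]; group⟩
        rw [← commutatorElement_inv]; exact Subgroup.inv_mem _ (hk3 v hv)
      have hc2 : c * d = d * c := Subgroup.mem_centralizer_iff.mp hdW _ hc1
      have hcV : c ∈ V := hW₁V hc1
      have hk : ∀ k : ℕ, d ^ k * v * (d ^ k)⁻¹ = c ^ k * v := by
        intro k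
        induction k with
        | zero => simp
        | succ k ih =>
          have hcomm : d * c ^ k = c ^ k * d :=
            (Commute.pow_right (show Commute d c from hc2.symm) k).eq
          calc d ^ (k + 1) * v * (d ^ (k + 1))⁻¹
              = d * (d ^ k * v * (d ^ k)⁻¹) * d⁻¹ := by rw [pow_succ']; group
            _ = d * (c ^ k * v) * d⁻¹ := by rw [ih]
            _ = (d * c ^ k) * (v * d⁻¹) := by group
            _ = (c ^ k * d) * (v * d⁻¹) := by rw [hcomm]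
            _ = c ^ k * (d * v * d⁻¹) := by group
            _ = c ^ k * (c * v) := by rw [hdv]
            _ = c ^ (k + 1) * v := by rw [pow_succ]; group
      have h5 := hk p
      have hcp : c ^ p = 1 := hV.2 c hcV
      rw [hcp, one_mul] at h5
      calc v * d ^ p = (d ^ p * v * (d ^ p)⁻¹) * d ^ p := by rw [h5]
        _ = d ^ p * v := by group
    rw [hf, Subgroup.mem_bot] at hcent
    exact hcent
  have hJ : (E₁.subgroupOf H ⊔ E₂.subgroupOf H).IsSubnormal :=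
    Cfsg.Agent.Lib.Helper5.isSubnormal_sup _ _ hs₁ hs₂
  have hDJ : ⁅E₁.subgroupOf H, E₂.subgroupOf H⁆ ≤ E₁.subgroupOf H ⊔ E₂.subgroupOf H :=
    Subgroup.commutator_le_sup _ _
  have hDn : (⁅E₁.subgroupOf H, E₂.subgroupOf H⁆.subgroupOf
      (E₁.subgroupOf H ⊔ E₂.subgroupOf H)).Normal := by
    rw [Subgroup.normal_subgroupOf_iff_le_normalizer hDJ]
    exact sup_le (Subgroup.normalizer_commutator_ge_left _ _)
      (Subgroup.normalizer_commutator_ge_right _ _)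
  have hDs : (⁅E₁.subgroupOf H, E₂.subgroupOf H⁆).IsSubnormal :=
    Subgroup.IsSubnormal.step _ _ hDJ hJ hDn
  have hmap : (⁅E₁.subgroupOf H, E₂.subgroupOf H⁆).map H.subtype = ⁅E₁, E₂⁆ := by
    rw [Subgroup.map_commutator, Subgroup.map_subgroupOf_eq_of_le h₁,
      Subgroup.map_subgroupOf_eq_of_le h₂]
  have hDp : IsPGroup p (⁅E₁.subgroupOf H, E₂.subgroupOf H⁆ : Subgroup H) := by
    intro d
    refine ⟨1, ?_⟩
    rw [pow_one]
    apply Subtype.ext; apply Subtype.ext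
    have hd : ((d : H) : G) ∈ ⁅E₁, E₂⁆ := by
      rw [← hmap]
      exact Subgroup.mem_map_of_mem H.subtype d.2
    simpa using hpow _ hd
  have hle := Cfsg.Agent.Lib.Helper11.subnormal_pGroup_le_pCore p hDs hDp
  intro x hx
  rw [← hmap] at hx
  obtain ⟨y, hy, hyx⟩ := hx
  exact ⟨y, hle hy, hyx⟩

end Cfsg.Agent.S0597
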