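import Cfsg.Statements.S0599
import Cfsg.Agent.Lib.Helper5.Offender

set_option autoImplicit false
open Cfsg
open scoped commutatorElement

namespace Cfsg.Agent.S0599

open Cfsg.Agent.Lib.Helper5

/-- The Timmesfeld replacement Theorem: replacing a best offender A by C_A([U, A]) gives a best offender with fixed points [U, A]C_V(A), still nontrivial on V if A was. -/
theorem result {G : Type*} [Group G] [Finite G] {p : ℕ} [Fact p.Prime] (V A : Subgroup G) (hV : Cfsg.IsElementaryAbelian p V) (hAV : A ≤ Subgroup.normalizer (V : Set G)) (hA : Cfsg.IsBestOffenderOn p V A) (U : Subgroup G) (hU : U ≤ V) : Cfsg.IsBestOffenderOn p V (A ⊓ Subgroup.centralizer ((⁅U, A⁆ : Subgroup G) : Set G)) ∧ V ⊓ Subgroup.centralizer ((A ⊓ Subgroup.centralizer ((⁅U, A⁆ : Subgroup G) : Set G) : Subgroup G) : Set G) = ⁅U, A⁆ ⊔ (V ⊓ Subgroup.centralizer (A : Set G)) ∧ (⁅V, A⁆ ≠ ⊥ → ⁅V, A ⊓ Subgroup.centralizer ((⁅U, A⁆ : Subgroup G) : Set G)⁆ ≠ ⊥) := by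
  obtain ⟨hbest, hab, hpow⟩ := hA
  have hVab : ∀ x ∈ V, ∀ y ∈ V, x * y = y * x := by
    intro x hx y hy
    have := hV.1.is_comm.comm (⟨x, hx⟩ : V) ⟨y, hy⟩
    exact congrArg Subtype.val this
  obtain ⟨c1, c2⟩ := offender_core V A hVab hAV hab hbest U hU
  have hBA : A ⊓ Subgroup.centralizer ((⁅U, A⁆ : Subgroup G) : Set G) ≤ A := inf_le_left
  have hcomV : ∀ v ∈ V, ∀ a ∈ A, ⁅v, a⁆ ∈ V := by
    intro v hv a ha
    rw [commutatorElement_def]
    have h3 : a * v⁻¹ * a⁻¹ ∈ V :=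
      (Subgroup.mem_normalizer_iff.mp (hAV ha) v⁻¹).mp (V.inv_mem hv)
    have e : v * a * v⁻¹ * a⁻¹ = v * (a * v⁻¹ * a⁻¹) := by group
    rw [e]; exact V.mul_mem hv h3
  refine ⟨⟨?_, ?_, ?_⟩, c2, ?_⟩
  · intro B' hB'
    rw [c1]
    exact hbest B' (hB'.trans hBA)
  · exact (Subgroup.commutator_mono hBA hBA).trans hab
  · intro a ha; exact hpow a (hBA ha)
  · intro hVA hVB
    apply hVA
    have h1 : V ≤ Subgroup.centralizer
        ((A ⊓ Subgroup.centralizer ((⁅U, A⁆ : Subgroup G) : Set G) : Subgroup G) : Set G) :=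
      Subgroup.commutator_eq_bot_iff_le_centralizer.mp hVB
    have h2 : V = ⁅U, A⁆ ⊔ (V ⊓ Subgroup.centralizer (A : Set G)) := by
      rw [← c2]; exact (inf_eq_left.mpr h1).symm
    have hVp : IsPGroup p V := by
      intro v
      refine ⟨1, ?_⟩
      rw [pow_one]
      apply Subtype.ext
      simpa using hV.2 v v.2
    have hXV : ⁅V, A⁆ ≤ V := by
      rw [Subgroup.commutator_le]
      exact hcomV
    apply eq_bot_of_le_commutator_of_pgroup_action V A ⁅V, A⁆ hVp hAV hpow hXV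
    let V' : Subgroup G :=
      { carrier := {v | v ∈ V ∧ ∀ a ∈ A, ⁅v, a⁆ ∈ ⁅⁅V, A⁆, A⁆}
        one_mem' := by
          refine ⟨V.one_mem, fun a _ => ?_⟩
          rw [commutatorElement_def]
          simp
        mul_mem' := by
          rintro v₁ v₂ ⟨h1V, h1⟩ ⟨h2V, h2⟩
          refine ⟨V.mul_mem h1V h2V, fun a ha => ?_⟩
          have e : ⁅v₁ * v₂, a⁆ = ⁅v₂, a⁆ * ⁅v₁, a⁆ := by
            have e1 : ⁅v₁ * v₂, a⁆ = v₁ * ⁅v₂, a⁆ * v₁⁻¹ * ⁅v₁, a⁆ := by
              rw [commutatorElement_def, commutatorElement_def, commutatorElement_def]; group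
            rw [e1, hVab v₁ h1V _ (hcomV v₂ h2V a ha)]; group
          rw [e]
          exact Subgroup.mul_mem _ (h2 a ha) (h1 a ha)
        inv_mem' := by
          rintro v ⟨hvV, hv⟩
          refine ⟨V.inv_mem hvV, fun a ha => ?_⟩
          have e : ⁅v⁻¹, a⁆ = (⁅v, a⁆)⁻¹ := by
            have e1 : ⁅v⁻¹, a⁆ = v⁻¹ * (⁅v, a⁆)⁻¹ * v := by
              rw [commutatorElement_def, commutatorElement_def]; group
            rw [e1, hVab v⁻¹ (V.inv_mem hvV) _ (V.inv_mem (hcomV v hvV a ha))]; group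
          rw [e]
          exact Subgroup.inv_mem _ (hv a ha) }
    have hV' : V ≤ V' := by
      rw [h2]
      apply sup_le
      · intro x hx
        have hxX : x ∈ ⁅V, A⁆ := Subgroup.commutator_mono hU le_rfl hx
        exact ⟨hXV hxX, fun a ha => Subgroup.commutator_mem_commutator hxX ha⟩
      · intro z hz
        obtain ⟨hzV, hzA⟩ := Subgroup.mem_inf.mp hz
        refine ⟨hzV, fun a ha => ?_⟩
        have h3 := Subgroup.mem_centralizer_iff.mp hzA a ha
        have e : ⁅z, a⁆ = 1 := by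
          rw [commutatorElement_def, ← h3]; group
        rw [e]
        exact Subgroup.one_mem _
    rw [Subgroup.commutator_le]
    intro v hv a ha
    exact (hV' hv).2 a ha

end Cfsg.Agent.S0599
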