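import Cfsg.Statements.S0600
import Cfsg.Agent.Lib.Helper5.SylowQuot

set_option autoImplicit false
open Pointwise
open Cfsg

namespace Cfsg.Agent.S0600

open Cfsg.Agent.Lib.Helper5

/-- A normal elementary abelian p-subgroup generated by the fixed points of the Sylow p-subgroups admits no nontrivial normal p-subgroup of G modulo its centralizer. -/
theorem result {G : Type*} [Group G] [Finite G] {p : ℕ} [Fact p.Prime] (V : Subgroup G) [V.Normal] (hV : Cfsg.IsElementaryAbelian p V) (hgen : V = ⨆ S : Sylow p G, V ⊓ Subgroup.centralizer ((S : Subgroup G) : Set G)) : Cfsg.pCore p (G ⧸ Subgroup.centralizer (V : Set G)) = ⊥ := by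
  rw [eq_bot_iff]
  apply sSup_le
  rintro N ⟨hNn, hNp⟩ x hx
  obtain ⟨g, rfl⟩ := QuotientGroup.mk'_surjective (Subgroup.centralizer (V : Set G)) x
  rw [Subgroup.mem_bot, QuotientGroup.mk'_apply, QuotientGroup.eq_one_iff]
  have hle : V ≤ Subgroup.centralizer ({g} : Set G) := by
    rw [hgen]
    apply iSup_le
    intro S v hv
    obtain ⟨s, hs, c, hc, rfl⟩ := exists_mul_of_mem_normal_pgroup_quot _ N hNp g hx S
    rw [Subgroup.mem_centralizer_iff]
    intro z hz
    rw [Set.mem_singleton_iff] at hz
    rw [hz]
    have h1 : s * v = v * s := Subgroup.mem_centralizer_iff.mp hv.2 s hs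
    have h2 : v * c = c * v := Subgroup.mem_centralizer_iff.mp hc v hv.1
    calc s * c * v = s * (c * v) := by group
      _ = s * (v * c) := by rw [h2]
      _ = (s * v) * c := by group
      _ = v * s * c := by rw [h1]
      _ = v * (s * c) := by group
  rw [Subgroup.mem_centralizer_iff]
  intro v hv
  have := Subgroup.mem_centralizer_iff.mp (hle hv) g (Set.mem_singleton g)
  exact this.symm

end Cfsg.Agent.S0600
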