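import Cfsg.Statements.S0603
import Cfsg.Agent.Lib.Helper6.Thompson

set_option autoImplicit false
open Cfsg

namespace Cfsg.Agent.S0603

/-- The Thompson subgroup of any subgroup containing J(G) is J(G) itself. -/
theorem result {G : Type*} [Group G] [Finite G] {p : ℕ} [Fact p.Prime] (U : Subgroup G) (hU : Cfsg.thompsonSubgroup p G ≤ U) : Cfsg.thompsonSubgroupOf p U = Cfsg.thompsonSubgroup p G := by
  obtain ⟨A₀, hA₀⟩ := Cfsg.Agent.Lib.Helper6.maxElementaryAbelianSubgroups_nonempty (G := G) p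
  have hA₀U : A₀ ≤ U := (Cfsg.Agent.Lib.Helper6.le_thompsonSubgroup hA₀).trans hU
  unfold Cfsg.thompsonSubgroupOf
  apply le_antisymm
  · rw [Subgroup.map_le_iff_le_comap]
    apply sSup_le
    intro B hB
    rw [← Subgroup.map_le_iff_le_comap]
    exact Cfsg.Agent.Lib.Helper6.le_thompsonSubgroup
      (Cfsg.Agent.Lib.Helper6.map_subtype_mem_maxElementaryAbelianSubgroups hA₀ hA₀U hB)
  · apply sSup_le
    intro A hA
    have hAU : A ≤ U := (Cfsg.Agent.Lib.Helper6.le_thompsonSubgroup hA).trans hU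
    have h1 := Cfsg.Agent.Lib.Helper6.subgroupOf_mem_maxElementaryAbelianSubgroups hA hAU
    have h2 : A = (A.subgroupOf U).map U.subtype := by
      rw [Subgroup.map_subgroupOf_eq_of_le hAU]
    rw [h2]
    exact Subgroup.map_mono (Cfsg.Agent.Lib.Helper6.le_thompsonSubgroup h1)

end Cfsg.Agent.S0603
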