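import Cfsg.Statements.S0605
import Cfsg.Agent.Lib.Helper6.Thompson

set_option autoImplicit false
open Cfsg

namespace Cfsg.Agent.S0605

/-- Elements of order p in the centralizer of the Thompson subgroup belong to the Thompson subgroup (so to its centre). -/
theorem result {G : Type*} [Group G] [Finite G] {p : ℕ} [Fact p.Prime] (x : G) (hx : x ∈ Subgroup.centralizer (Cfsg.thompsonSubgroup p G : Set G)) (ho : orderOf x = p) : x ∈ Cfsg.thompsonSubgroup p G := by
  obtain ⟨A, hA⟩ := Cfsg.Agent.Lib.Helper6.maxElementaryAbelianSubgroups_nonempty (G := G) p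
  have hAJ : A ≤ Cfsg.thompsonSubgroup p G := Cfsg.Agent.Lib.Helper6.le_thompsonSubgroup hA
  have hxp : x ^ p = 1 := by rw [← ho]; exact pow_orderOf_eq_one x
  have hcomm : ∀ a ∈ A, ∀ b ∈ Subgroup.zpowers x, a * b = b * a := by
    intro a ha b hb
    obtain ⟨k, rfl⟩ := Subgroup.mem_zpowers_iff.mp hb
    have h1 : x * a = a * x := (Subgroup.mem_centralizer_iff.mp hx a (hAJ ha)).symm
    have h2 : Commute x a := h1
    exact (h2.zpow_left k).eq.symm
  have hE := Cfsg.Agent.Lib.Helper6.ea_sup hA.1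
    (Cfsg.Agent.Lib.Helper6.isElementaryAbelian_zpowers x hxp) hcomm
  have hcard := hA.2 _ hE
  have heq : A = A ⊔ Subgroup.zpowers x := Subgroup.eq_of_le_of_card_ge le_sup_left hcard
  have hxA : x ∈ A := by
    rw [heq]
    exact (le_sup_right : Subgroup.zpowers x ≤ _) (Subgroup.mem_zpowers x)
  exact hAJ hxA

end Cfsg.Agent.S0605
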