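import Cfsg.Statements.S0622
import Mathlib
import Cfsg.Agent.Lib.Helper6.Thompson
import Cfsg.Agent.S0605

set_option autoImplicit false
universe u
open Cfsg

namespace Cfsg.Agent.S0622

open Cfsg.Agent.Lib.Helper6

theorem oct_map_le {S S' : Type u} [Group S] [Group S'] (p : ℕ) (η : S ≃* S') :
    (Cfsg.omegaCenterThompson p S).map η.toMonoidHom ≤ Cfsg.omegaCenterThompson p S' := by
  unfold Cfsg.omegaCenterThompson Cfsg.omegaOne
  rw [MonoidHom.map_closure, Subgroup.closure_le]
  rintro _ ⟨x, ⟨hx, hxp⟩, rfl⟩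
  apply Subgroup.subset_closure
  have hJ := thompsonSubgroup_map_equiv p η
  refine ⟨⟨?_, ?_⟩, ?_⟩
  · rw [← hJ]; exact Subgroup.mem_map_of_mem _ hx.1
  · refine Subgroup.mem_centralizer_iff.mpr ?_
    intro y' hy'
    rw [SetLike.mem_coe, ← hJ] at hy'
    obtain ⟨y, hy, rfl⟩ := hy'
    have h1 := Subgroup.mem_centralizer_iff.mp hx.2 y hy
    show η y * η x = η x * η y
    rw [← map_mul, ← map_mul, h1]
  · show (η x) ^ p = 1
    rw [← map_pow, hxp, map_one]

theorem oct_map {S S' : Type u} [Group S] [Group S'] (p : ℕ) (η : S ≃* S') :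
    (Cfsg.omegaCenterThompson p S).map η.toMonoidHom = Cfsg.omegaCenterThompson p S' := by
  apply le_antisymm (oct_map_le p η)
  have h := oct_map_le p η.symm
  intro x' hx'
  have h1 := h (Subgroup.mem_map_of_mem _ hx')
  exact ⟨η.symm x', h1, by simp⟩

theorem stable_comp {S S' H : Type u} [Group S] [Group S'] [Group H] (p : ℕ) (η : S ≃* S')
    (τ : S' →* H) (h : Cfsg.IsStableEmbedding p τ) :
    Cfsg.IsStableEmbedding p (τ.comp η.toMonoidHom) := by
  obtain ⟨hinj, hfin, ⟨P, hP⟩, hcent, hJ, hstab⟩ := h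
  refine ⟨hinj.comp η.injective, hfin, ⟨P, ?_⟩, hcent, ?_, ?_⟩
  · rw [hP]
    ext x
    constructor
    · rintro ⟨y, rfl⟩; exact ⟨η.symm y, by simp⟩
    · rintro ⟨y, rfl⟩; exact ⟨η y, rfl⟩
  · have h1 : (Cfsg.thompsonSubgroup p S).map (τ.comp η.toMonoidHom) =
        (Cfsg.thompsonSubgroup p S').map τ := by
      rw [← Subgroup.map_map, thompsonSubgroup_map_equiv]
    rw [h1]; exact hJ
  · intro V hV hle
    have h1 : (Cfsg.omegaCenterThompson p S).map (τ.comp η.toMonoidHom) =
        (Cfsg.omegaCenterThompson p S').map τ := by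
      rw [← Subgroup.map_map, oct_map]
    rw [h1] at hle
    exact hstab V hle

theorem family_map {S S' : Type u} [Group S] [Group S'] (p : ℕ) (η : S ≃* S') (W : Subgroup S)
    (hW : Cfsg.omegaOne p (Subgroup.center S) ≤ W ∧ ∀ (H : Type u) [Group H] (τ : S →* H),
      Cfsg.IsStableEmbedding p τ → (W.map τ).Normal) :
    Cfsg.omegaOne p (Subgroup.center S') ≤ W.map η.toMonoidHom ∧
      ∀ (H : Type u) [Group H] (τ : S' →* H),
        Cfsg.IsStableEmbedding p τ → ((W.map η.toMonoidHom).map τ).Normal := by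
  obtain ⟨h1, h2⟩ := hW
  constructor
  · unfold Cfsg.omegaOne
    rw [Subgroup.closure_le]
    rintro x' ⟨hx', hxp⟩
    refine ⟨η.symm x', h1 (Subgroup.subset_closure ⟨?_, ?_⟩), by simp⟩
    · rw [Subgroup.mem_center_iff] at hx' ⊢
      intro g
      apply η.injective
      rw [map_mul, map_mul, η.apply_symm_apply]
      exact hx' (η g)
    · rw [← map_pow, hxp, map_one]
  · intro H _ τ hτ
    rw [Subgroup.map_map]
    exact h2 H (τ.comp η.toMonoidHom) (stable_comp p η τ hτ)

theorem snc_map_le {S S' : Type u} [Group S] [Group S'] (p : ℕ) (η : S ≃* S') :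
    (Cfsg.stableNormalClosure p S).map η.toMonoidHom ≤ Cfsg.stableNormalClosure p S' := by
  unfold Cfsg.stableNormalClosure
  apply le_sInf
  intro W' hW'
  have hW := family_map p η.symm W' hW'
  have h1 : sInf {W : Subgroup S | Cfsg.omegaOne p (Subgroup.center S) ≤ W ∧
      ∀ (H : Type u) [Group H] (τ : S →* H), Cfsg.IsStableEmbedding p τ → (W.map τ).Normal} ≤
      W'.map η.symm.toMonoidHom := sInf_le hW
  rintro _ ⟨x, hx, rfl⟩
  obtain ⟨y, hy, hyx⟩ := h1 hx
  have h2 : η x = y := by rw [← hyx]; simp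
  show η x ∈ W'
  rw [h2]; exact hy

theorem snc_map {S S' : Type u} [Group S] [Group S'] (p : ℕ) (η : S ≃* S') :
    (Cfsg.stableNormalClosure p S).map η.toMonoidHom = Cfsg.stableNormalClosure p S' := by
  apply le_antisymm (snc_map_le p η)
  intro x' hx'
  have h1 := snc_map_le p η.symm (Subgroup.mem_map_of_mem _ hx')
  exact ⟨η.symm x', h1, by simp⟩

/-- Basic properties of the stable normal closure W(S) of Ω₁(Z(S)) in a finite p-group: characteristic, squeezed between Ω₁(Z(S)) and Ω₁(Z(J(S))), nontrivial for S ≠ 1, and transported by group isomorphisms. -/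
theorem result {S : Type u} [Group S] [Finite S] {p : ℕ} [Fact p.Prime] (hS : IsPGroup p S) : (Cfsg.stableNormalClosure p S).Characteristic ∧ Cfsg.omegaOne p (Subgroup.center S) ≤ Cfsg.stableNormalClosure p S ∧ Cfsg.stableNormalClosure p S ≤ Cfsg.omegaCenterThompson p S ∧ (Nontrivial S → Cfsg.stableNormalClosure p S ≠ ⊥) ∧ ∀ (S' : Type u) [Group S'] (η : S ≃* S'), (Cfsg.stableNormalClosure p S).map η.toMonoidHom = Cfsg.stableNormalClosure p S' := by
  have hpart2 : Cfsg.omegaOne p (Subgroup.center S) ≤ Cfsg.stableNormalClosure p S := by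
    unfold Cfsg.stableNormalClosure
    apply le_sInf
    intro W hW
    exact hW.1
  refine ⟨?_, hpart2, ?_, ?_, fun S' _ η => snc_map p η⟩
  · rw [Subgroup.characteristic_iff_map_eq]
    intro φ
    exact snc_map p φ
  · unfold Cfsg.stableNormalClosure
    apply sInf_le
    refine ⟨?_, ?_⟩
    · unfold Cfsg.omegaCenterThompson Cfsg.omegaOne
      apply Subgroup.closure_mono
      rintro x ⟨hx, hxp⟩
      have hxC : x ∈ Subgroup.centralizer (Cfsg.thompsonSubgroup p S : Set S) :=
        Subgroup.mem_centralizer_iff.mpr (fun y _ => Subgroup.mem_center_iff.mp hx y)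
      refine ⟨⟨?_, hxC⟩, hxp⟩
      by_cases h1 : x = 1
      · rw [h1]; exact Subgroup.one_mem _
      · exact Cfsg.Agent.S0605.result x hxC (orderOf_eq_prime hxp h1)
    · intro H _ τ hτ
      obtain ⟨hinj, hfin, -, -, hJ, -⟩ := hτ
      constructor
      intro n hn h
      have hmap : ((Cfsg.omegaCenterThompson p S).map τ).map (MulAut.conj h).toMonoidHom ≤
          (Cfsg.omegaCenterThompson p S).map τ := by
        unfold Cfsg.omegaCenterThompson Cfsg.omegaOne
        rw [MonoidHom.map_closure, MonoidHom.map_closure, Subgroup.closure_le]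
        rintro _ ⟨_, ⟨x, ⟨⟨hxJ, hxC⟩, hxp⟩, rfl⟩, rfl⟩
        apply Subgroup.subset_closure
        have h1 : h * τ x * h⁻¹ ∈ (Cfsg.thompsonSubgroup p S).map τ :=
          hJ.conj_mem _ (Subgroup.mem_map_of_mem τ hxJ) h
        obtain ⟨y, hyJ, hy⟩ := h1
        refine ⟨y, ⟨⟨hyJ, ?_⟩, ?_⟩, hy⟩
        · refine Subgroup.mem_centralizer_iff.mpr ?_
          intro j hj
          apply hinj
          rw [map_mul, map_mul, hy]
          have h2 : h⁻¹ * τ j * h⁻¹⁻¹ ∈ (Cfsg.thompsonSubgroup p S).map τ :=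
            hJ.conj_mem _ (Subgroup.mem_map_of_mem τ hj) h⁻¹
          obtain ⟨j', hj', hj'e⟩ := h2
          have h3 : τ j = h * τ j' * h⁻¹ := by rw [hj'e]; group
          have h4 : j' * x = x * j' := Subgroup.mem_centralizer_iff.mp hxC j' hj'
          rw [h3]
          calc h * τ j' * h⁻¹ * (h * τ x * h⁻¹) = h * (τ j' * τ x) * h⁻¹ := by group
            _ = h * (τ x * τ j') * h⁻¹ := by rw [← map_mul, h4, map_mul]
            _ = h * τ x * h⁻¹ * (h * τ j' * h⁻¹) := by group
        · apply hinj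
          rw [map_pow, hy, map_one, conj_pow, ← map_pow, hxp, map_one]
          group
      exact hmap ⟨n, hn, rfl⟩
  · intro hnt hbot
    have hZ := hS.center_nontrivial
    have hZp : IsPGroup p (Subgroup.center S) := hS.to_subgroup _
    have hdvd : p ∣ Nat.card (Subgroup.center S) := by
      rcases hZp.card_eq_or_dvd with h | h
      · have h1 := Finite.one_lt_card (α := Subgroup.center S)
        omega
      · exact h
    obtain ⟨z, hz⟩ := exists_prime_orderOf_dvd_card' p hdvd
    have hzp : (z : S) ^ p = 1 := by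
      have h1 := pow_orderOf_eq_one z
      rw [hz] at h1
      exact_mod_cast congrArg Subtype.val h1
    have hzmem : (z : S) ∈ Cfsg.omegaOne p (Subgroup.center S) :=
      Subgroup.subset_closure ⟨z.2, hzp⟩
    have h2 := hpart2 hzmem
    rw [hbot, Subgroup.mem_bot] at h2
    have hz1 : z = 1 := Subtype.ext h2
    rw [hz1, orderOf_one] at hz
    exact (Fact.out : p.Prime).ne_one hz.symm

end Cfsg.Agent.S0622
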