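import Cfsg.Statements.S0634
import Cfsg.Agent.Lib.Helper6.PSolv

set_option autoImplicit false
open Cfsg

namespace Cfsg.Agent.S0634

/-- In a p-soluble group each p-factor of the upper p-series contains its own centralizer in the corresponding quotient. -/
theorem result {G : Type*} [Group G] [Finite G] {p : ℕ} [Fact p.Prime] (hsol : Cfsg.IsPSolvable p G) (k : ℕ) : Subgroup.centralizer ((((Cfsg.upperPSeries p G (2 * k + 2)).1.map (QuotientGroup.mk' (Cfsg.upperPSeries p G (2 * k + 1)).1)) : Subgroup (G ⧸ (Cfsg.upperPSeries p G (2 * k + 1)).1)) : Set (G ⧸ (Cfsg.upperPSeries p G (2 * k + 1)).1)) ≤ (Cfsg.upperPSeries p G (2 * k + 2)).1.map (QuotientGroup.mk' (Cfsg.upperPSeries p G (2 * k + 1)).1) := by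
  have hp : p.Prime := Fact.out
  have h2 := Cfsg.Agent.Lib.Helper6.upperPSeries_succ_odd (G := G) (p := p) (2 * k + 1)
    (by rw [Nat.not_even_iff_odd]; exact ⟨k, rfl⟩)
  have h1 := Cfsg.Agent.Lib.Helper6.upperPSeries_succ_even (G := G) (p := p) (2 * k)
    ⟨k, by ring⟩
  have e : 2 * k + 2 = 2 * k + 1 + 1 := rfl
  rw [e, h2, Subgroup.map_comap_eq_self_of_surjective (QuotientGroup.mk'_surjective _)]
  apply Cfsg.Agent.Lib.Helper6.centralizer_pCore_le_of_isPSolvable
    (Cfsg.Agent.Lib.Helper6.isPSolvable_quotient hp _ hsol)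
  exact Cfsg.Agent.Lib.Helper6.pPrimeCore_quotient_comap_eq_bot _ _ h1

end Cfsg.Agent.S0634
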