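import Cfsg.Statements.S0642
import Mathlib

set_option autoImplicit false
open Cfsg

namespace Cfsg.Agent.S0642

open scoped commutatorElement

/-- A finite 2-group generated by the squares of its elements is trivial. -/
theorem eq_bot_of_le_closure_sq {G : Type*} [Group G] [Finite G] (hG : IsPGroup 2 G)
    (K : Subgroup G) (hK : K ≤ Subgroup.closure {y : G | ∃ x ∈ K, y = x ^ (2 ^ 1)}) : K = ⊥ := by
  have : Fact (Nat.Prime 2) := ⟨Nat.prime_two⟩
  have hKp : IsPGroup 2 K := hG.to_subgroup K
  obtain ⟨k, hk⟩ := hKp.exists_card_eq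
  rcases Nat.eq_zero_or_pos k with h0 | hpos
  · rw [h0, pow_zero] at hk
    exact Subgroup.card_eq_one.mp hk
  exfalso
  obtain ⟨M, hM⟩ := Sylow.exists_subgroup_card_pow_prime (G := K) 2 (n := k - 1)
    (by rw [hk]; exact pow_dvd_pow 2 (Nat.sub_le k 1))
  have hidx : M.index = 2 := by
    have h1 := Subgroup.card_mul_index M
    rw [hM, hk] at h1
    have h2 : (2 : ℕ) ^ k = 2 ^ (k - 1) * 2 := by
      rw [← pow_succ]; congr 1; omega
    rw [h2] at h1
    exact Nat.eq_of_mul_eq_mul_left (by positivity) h1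
  have hle : Subgroup.closure {y : G | ∃ x ∈ K, y = x ^ (2 ^ 1)} ≤ M.map K.subtype := by
    rw [Subgroup.closure_le]
    rintro y ⟨x, hx, rfl⟩
    refine ⟨(⟨x, hx⟩ : K) ^ 2, Subgroup.sq_mem_of_index_two hidx _, ?_⟩
    simp
  have hcard := Subgroup.card_le_of_le (hK.trans hle)
  rw [Subgroup.card_map_of_injective K.subtype_injective, hM, hk] at hcard
  have : (2 : ℕ) ^ (k - 1) < 2 ^ k := Nat.pow_lt_pow_right (by norm_num) (by omega)
  omega

/-- Among finite 2-groups the regular ones are exactly the abelian ones. -/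
theorem result {G : Type*} [Group G] [Finite G] (hG : IsPGroup 2 G) : Cfsg.IsRegularPGroup 2 G ↔ ∀ a b : G, a * b = b * a := by
  constructor
  · rintro ⟨-, hreg⟩ a b
    set H := Subgroup.closure ({a, b} : Set G) with hH
    set K := ⁅H, H⁆ with hK
    set N := Cfsg.powerClosure 2 1 K with hN
    obtain ⟨c, hcN, hc⟩ := hreg a b 1
    have haH : a ∈ H := Subgroup.subset_closure (by simp)
    have hbH : b ∈ H := Subgroup.subset_closure (by simp)
    have hKH : K ≤ H := by
      rw [hK, Subgroup.commutator_le]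
      intro g₁ hg₁ g₂ hg₂
      exact H.mul_mem (H.mul_mem (H.mul_mem hg₁ hg₂) (H.inv_mem hg₁)) (H.inv_mem hg₂)
    -- H normalizes K
    have hKn : ∀ h ∈ H, ∀ x ∈ K, h * x * h⁻¹ ∈ K := by
      intro h hh x hx
      have h1 : ⁅h, x⁆ ∈ K := Subgroup.commutator_mem_commutator hh (hKH hx)
      have h2 : h * x * h⁻¹ = ⁅h, x⁆ * x := by
        rw [commutatorElement_def]; group
      rw [h2]
      exact K.mul_mem h1 hx
    -- H normalizes N
    have hNn : ∀ h ∈ H, ∀ n ∈ N, h * n * h⁻¹ ∈ N := by
      intro h hh n hn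
      have hmap : N.map (MulAut.conj h).toMonoidHom ≤ N := by
        rw [Subgroup.map_le_iff_le_comap, hN]
        unfold Cfsg.powerClosure
        rw [Subgroup.closure_le]
        rintro y ⟨x, hx, rfl⟩
        apply Subgroup.subset_closure
        refine ⟨h * x * h⁻¹, hKn h hh x hx, ?_⟩
        simp [conj_pow]
      exact hmap ⟨n, hn, rfl⟩
    have hNnormal : (N.subgroupOf H).Normal := by
      constructor
      intro n hn h
      rw [Subgroup.mem_subgroupOf] at hn ⊢
      exact hNn h h.2 n hn
    -- a and b commute modulo N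
    have hkey : (a * b)⁻¹ * (b * a) = b * c * b⁻¹ := by
      have h1 : a * b * (a * b) = a * a * (b * b) * c := by
        simpa [pow_two] using hc
      have h2 : b * a * b = a * b * b * c := by
        calc b * a * b = a⁻¹ * (a * b * (a * b)) := by group
          _ = a⁻¹ * (a * a * (b * b) * c) := by rw [h1]
          _ = a * b * b * c := by group
      calc (a * b)⁻¹ * (b * a) = (a * b)⁻¹ * ((b * a * b) * b⁻¹) := by group
        _ = (a * b)⁻¹ * ((a * b * b * c) * b⁻¹) := by rw [h2]
        _ = b * c * b⁻¹ := by group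
    let a' : H := ⟨a, haH⟩
    let b' : H := ⟨b, hbH⟩
    have hab' : (QuotientGroup.mk a' : H ⧸ N.subgroupOf H) * QuotientGroup.mk b' =
        QuotientGroup.mk b' * QuotientGroup.mk a' := by
      rw [← QuotientGroup.mk_mul, ← QuotientGroup.mk_mul, QuotientGroup.eq,
        Subgroup.mem_subgroupOf]
      show (a * b)⁻¹ * (b * a) ∈ N
      rw [hkey]
      exact hNn b hbH c hcN
    have hgen : Subgroup.closure ({a', b'} : Set H) = ⊤ := by
      have := Subgroup.closure_closure_coe_preimage (k := ({a, b} : Set G))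
      convert this using 2
      ext x
      simp [a', b', Subtype.ext_iff]
    have h1 : Subgroup.closure ({(QuotientGroup.mk a' : H ⧸ N.subgroupOf H),
        QuotientGroup.mk b'} : Set (H ⧸ N.subgroupOf H)) = ⊤ := by
      have := congrArg (Subgroup.map (QuotientGroup.mk' (N.subgroupOf H))) hgen
      rw [MonoidHom.map_closure, Set.image_pair,
        Subgroup.map_top_of_surjective _ (QuotientGroup.mk'_surjective _)] at this
      exact this
    have h2 : IsMulCommutative (Subgroup.closure ({(QuotientGroup.mk a' : H ⧸ N.subgroupOf H),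
        QuotientGroup.mk b'} : Set (H ⧸ N.subgroupOf H))) := by
      apply Subgroup.isMulCommutative_closure
      rintro x (rfl | rfl) y (rfl | rfl)
      · rfl
      · exact hab'
      · exact hab'.symm
      · rfl
    have hcommQ : ∀ x y : H ⧸ N.subgroupOf H, x * y = y * x := by
      intro x y
      have hx : x ∈ Subgroup.closure ({(QuotientGroup.mk a' : H ⧸ N.subgroupOf H),
        QuotientGroup.mk b'} : Set (H ⧸ N.subgroupOf H)) := by rw [h1]; trivial
      have hy : y ∈ Subgroup.closure ({(QuotientGroup.mk a' : H ⧸ N.subgroupOf H),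
        QuotientGroup.mk b'} : Set (H ⧸ N.subgroupOf H)) := by rw [h1]; trivial
      exact setLike_mul_comm hx hy
    have hKN : K ≤ N := by
      rw [hK, Subgroup.commutator_le]
      intro g₁ hg₁ g₂ hg₂
      let x₁ : H := ⟨g₁, hg₁⟩
      let x₂ : H := ⟨g₂, hg₂⟩
      have h3 : (QuotientGroup.mk (x₁ * x₂ * x₁⁻¹ * x₂⁻¹) : H ⧸ N.subgroupOf H) = 1 := by
        simp only [QuotientGroup.mk_mul, QuotientGroup.mk_inv]
        rw [hcommQ (QuotientGroup.mk x₁) (QuotientGroup.mk x₂)]
        group
      rw [QuotientGroup.eq_one_iff, Subgroup.mem_subgroupOf] at h3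
      exact h3
    have hKbot : K = ⊥ := eq_bot_of_le_closure_sq hG K hKN
    have hcomm : ⁅a, b⁆ ∈ K := Subgroup.commutator_mem_commutator haH hbH
    rw [hKbot, Subgroup.mem_bot] at hcomm
    exact commutatorElement_eq_one_iff_mul_comm.mp hcomm
  · intro hcomm
    refine ⟨hG, fun a b n => ⟨1, one_mem _, ?_⟩⟩
    rw [mul_one]
    exact (Commute.mul_pow (hcomm a b) _)

end Cfsg.Agent.S0642
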