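import Cfsg.Statements.S0646
import Mathlib

set_option autoImplicit false
open Cfsg

namespace Cfsg.Agent.S0646

variable {G : Type*} [Group G]

/-- a group generated by a cyclic subgroup and one more commuting element is abelian -/
lemma comm_of_gen (C : Subgroup G) (a b : G)
    (hCeq : Subgroup.zpowers a = C) (htop : C ⊔ Subgroup.zpowers b = ⊤) (hcomm : b * a = a * b) :
    ∀ x y : G, x * y = y * x := by
  have hza : C ⊔ Subgroup.zpowers b ≤ Subgroup.centralizer {a} := by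
    refine sup_le ?_ ?_
    · rw [← hCeq, Subgroup.zpowers_le, Subgroup.mem_centralizer_iff]
      intro h hh
      rw [Set.mem_singleton_iff] at hh
      rw [hh]
    · rw [Subgroup.zpowers_le, Subgroup.mem_centralizer_iff]
      intro h hh
      rw [Set.mem_singleton_iff] at hh
      rw [hh, hcomm]
  have hzb : C ⊔ Subgroup.zpowers b ≤ Subgroup.centralizer {b} := by
    refine sup_le ?_ ?_
    · rw [← hCeq, Subgroup.zpowers_le, Subgroup.mem_centralizer_iff]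
      intro h hh
      rw [Set.mem_singleton_iff] at hh
      rw [hh, hcomm]
    · rw [Subgroup.zpowers_le, Subgroup.mem_centralizer_iff]
      intro h hh
      rw [Set.mem_singleton_iff] at hh
      rw [hh]
  have ha : a ∈ Subgroup.center G := by
    rw [Subgroup.mem_center_iff]
    intro g
    have hg : g ∈ Subgroup.centralizer {a} := hza (htop ▸ Subgroup.mem_top g)
    exact ((Subgroup.mem_centralizer_iff.mp hg) a rfl).symm
  have hb : b ∈ Subgroup.center G := by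
    rw [Subgroup.mem_center_iff]
    intro g
    have hg : g ∈ Subgroup.centralizer {b} := hzb (htop ▸ Subgroup.mem_top g)
    exact ((Subgroup.mem_centralizer_iff.mp hg) b rfl).symm
  have hcen : C ⊔ Subgroup.zpowers b ≤ Subgroup.center G :=
    sup_le (hCeq ▸ Subgroup.zpowers_le.mpr ha) (Subgroup.zpowers_le.mpr hb)
  intro x y
  have hy : y ∈ Subgroup.center G := hcen (htop ▸ Subgroup.mem_top y)
  exact (Subgroup.mem_center_iff.mp hy) x

lemma zpow_congr' {a : G} {L : ℤ} (ho : ∀ k : ℤ, a ^ k = 1 ↔ 4 * L ∣ k) {k k' : ℤ}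
    (h : 4 * L ∣ k - k') : a ^ k = a ^ k' := by
  have h1 : a ^ (k - k') = 1 := (ho _).mpr h
  have h2 : k = k' + (k - k') := by ring
  rw [h2, zpow_add, h1, mul_one]

/-- `b` commutes with `b ^ 2 = a ^ i` -/
lemma conj_zpow_self {a b : G} {e i : ℤ} (hconj : b * a * b⁻¹ = a ^ e) (hb2 : b ^ 2 = a ^ i) :
    a ^ ((e - 1) * i) = 1 := by
  have h1 : b * (a ^ i) * b⁻¹ = a ^ i := by rw [← hb2]; group
  rw [← conj_zpow, hconj, ← zpow_mul] at h1
  rw [sub_mul, one_mul, zpow_sub, h1, mul_inv_cancel]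

lemma conj_mul_zpow {a b : G} (j : ℤ) : (b * a ^ j) * a * (b * a ^ j)⁻¹ = b * a * b⁻¹ := by
  have hc : a ^ j * a = a * a ^ j := ((Commute.refl a).zpow_left j).eq
  calc (b * a ^ j) * a * (b * a ^ j)⁻¹ = b * (a ^ j * a) * (a ^ j)⁻¹ * b⁻¹ := by group
    _ = b * (a * a ^ j) * (a ^ j)⁻¹ * b⁻¹ := by rw [hc]
    _ = b * a * b⁻¹ := by group

lemma sq_mul_zpow {a b : G} {e i : ℤ} (hconj : b * a * b⁻¹ = a ^ e) (hb2 : b ^ 2 = a ^ i)
    (j : ℤ) : (b * a ^ j) ^ 2 = a ^ (e * j + i + j) := by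
  have h1 : (b * a ^ j) ^ 2 = (b * a ^ j * b⁻¹) * b ^ 2 * a ^ j := by
    rw [pow_two, pow_two]; group
  rw [h1, ← conj_zpow, hconj, ← zpow_mul, hb2, ← zpow_add, ← zpow_add]

/-- dihedral / quaternion type -/
lemma type_D {a b : G} {L : ℤ} (ho : ∀ k : ℤ, a ^ k = 1 ↔ 4 * L ∣ k)
    (hconj : b * a * b⁻¹ = a ^ (-1 : ℤ)) (hb2 : b ^ 2 ∈ Subgroup.zpowers a) :
    b ^ 2 = 1 ∨ b ^ 2 = a ^ (2 * L) := by
  obtain ⟨i, hi⟩ := Subgroup.mem_zpowers_iff.mp hb2
  have h1 := conj_zpow_self hconj hi.symm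
  rw [ho] at h1
  obtain ⟨c, hc⟩ := h1
  have hi2 : i = 2 * L * (-c) := by linarith
  rcases Int.even_or_odd' (-c) with ⟨t, ht | ht⟩
  · left
    rw [← hi, ho]
    exact ⟨t, by rw [hi2, ht]; ring⟩
  · right
    rw [← hi]
    exact zpow_congr' ho ⟨t, by rw [hi2, ht]; ring⟩

/-- modular type -/
lemma type_M {a b : G} {L L' : ℤ} (hL0 : L ≠ 0) (hL : L = 2 * L')
    (ho : ∀ k : ℤ, a ^ k = 1 ↔ 4 * L ∣ k)
    (hconj : b * a * b⁻¹ = a ^ (1 + 2 * L)) (hb2 : b ^ 2 ∈ Subgroup.zpowers a) :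
    ∃ j : ℤ, (b * a ^ j) ^ 2 = 1 := by
  obtain ⟨i, hi⟩ := Subgroup.mem_zpowers_iff.mp hb2
  have h1 := conj_zpow_self hconj hi.symm
  rw [ho] at h1
  obtain ⟨c, hc⟩ := h1
  have hi2 : i = 2 * c := by
    have h2 : L * i = L * (2 * c) := by linarith
    exact mul_left_cancel₀ hL0 h2
  refine ⟨c * (L - 1), ?_⟩
  rw [sq_mul_zpow hconj hi.symm, ho]
  exact ⟨c * L', by rw [hi2, hL]; ring⟩

/-- semidihedral type -/
lemma type_SD {a b : G} {L L' : ℤ} (hL0 : L ≠ 0) (hL : L = 2 * L')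
    (ho : ∀ k : ℤ, a ^ k = 1 ↔ 4 * L ∣ k)
    (hconj : b * a * b⁻¹ = a ^ (2 * L - 1)) (hb2 : b ^ 2 ∈ Subgroup.zpowers a) :
    ∃ j : ℤ, (b * a ^ j) ^ 2 = 1 := by
  obtain ⟨i, hi⟩ := Subgroup.mem_zpowers_iff.mp hb2
  have h1 := conj_zpow_self hconj hi.symm
  rw [ho] at h1
  obtain ⟨c, hc⟩ := h1
  have hc' : (L - 1) * i = 2 * L * c := by
    have h2 : 2 * ((L - 1) * i) = 2 * (2 * L * c) := by linarith
    exact mul_left_cancel₀ (by norm_num) h2
  have hi2 : i = 2 * L * (L' * i - (L + 1) * c) := by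
    have e1 : 2 * L * (L' * i - (L + 1) * c) = (2 * L') * L * i - (L + 1) * (2 * L * c) := by ring
    rw [e1, ← hL, ← hc']
    ring
  rcases Int.even_or_odd' (L' * i - (L + 1) * c) with ⟨t, ht | ht⟩
  · refine ⟨0, ?_⟩
    rw [sq_mul_zpow hconj hi.symm, ho]
    exact ⟨t, by rw [hi2, ht]; ring⟩
  · refine ⟨1, ?_⟩
    rw [sq_mul_zpow hconj hi.symm, ho]
    exact ⟨t + 1, by rw [hi2, ht]; ring⟩

/-- square roots of `1` modulo a power of two -/
lemma nt_two (L : ℤ) (k : ℕ) (hL : L = 2 ^ k) (r : ℤ) (h : 4 * L ∣ r ^ 2 - 1) :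
    4 * L ∣ r - 1 ∨ 4 * L ∣ r + 1 ∨ 4 * L ∣ r - 1 - 2 * L ∨ 4 * L ∣ r + 1 - 2 * L := by
  obtain ⟨c, hc⟩ := h
  -- `r` is odd
  obtain ⟨s, hs⟩ : ∃ s, r = 2 * s + 1 := by
    rcases Int.even_or_odd' r with ⟨q, hq | hq⟩
    · exfalso
      have : (4 : ℤ) ∣ 1 := ⟨q * q - L * c, by rw [hq] at hc; linarith⟩
      norm_num at this
    · exact ⟨q, hq⟩
  have hss : s * (s + 1) = L * c := by
    have h2 : 4 * (s * (s + 1)) = 4 * (L * c) := by rw [hs] at hc; linarith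
    exact mul_left_cancel₀ (by norm_num) h2
  have hodd_cop : ∀ q : ℤ, IsCoprime L (2 * q + 1) := by
    intro q
    rw [hL]
    apply IsCoprime.pow_left
    exact ⟨-q, 1, by ring⟩
  rcases Int.even_or_odd' s with ⟨q, hq | hq⟩
  · -- `s` even, `s + 1` odd
    have hdvd : L ∣ s := by
      have h3 : L ∣ s * (s + 1) := ⟨c, hss⟩
      have hcop : IsCoprime L (s + 1) := by rw [hq]; exact hodd_cop q
      exact hcop.dvd_of_dvd_mul_right h3
    obtain ⟨t, ht⟩ := hdvd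
    rcases Int.even_or_odd' t with ⟨t', ht' | ht'⟩
    · left
      exact ⟨t', by rw [hs, ht, ht']; ring⟩
    · right; right; left
      exact ⟨t', by rw [hs, ht, ht']; ring⟩
  · -- `s` odd
    have hdvd : L ∣ s + 1 := by
      have h3 : L ∣ s * (s + 1) := ⟨c, hss⟩
      have hcop : IsCoprime L s := by rw [hq]; exact hodd_cop q
      exact hcop.dvd_of_dvd_mul_left h3
    obtain ⟨t, ht⟩ := hdvd
    have hs' : s = L * t - 1 := by linarith
    rcases Int.even_or_odd' t with ⟨t', ht' | ht'⟩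
    · right; left
      exact ⟨t', by rw [hs, hs', ht']; ring⟩
    · right; right; right
      exact ⟨t', by rw [hs, hs', ht']; ring⟩

/-- Classification of non-abelian 2-groups with a cyclic maximal subgroup: dihedral, generalized quaternion, and for order at least 16 the modular group and the semidihedral group, each given by generators a (of index 2) and b with the stated relations. -/
theorem result {G : Type*} [Group G] [Finite G] (n : ℕ) (hn : 3 ≤ n) (hG : Nat.card G = 2 ^ n) (C : Subgroup G) (hC : IsCyclic C) (hCi : C.index = 2) (hna : ∃ x y : G, x * y ≠ y * x) : ∃ a b : G, orderOf a = 2 ^ (n - 1) ∧ b ∉ Subgroup.zpowers a ∧ ((b ^ 2 = 1 ∧ b * a * b⁻¹ = a⁻¹) ∨ (b ^ 2 = a ^ (2 ^ (n - 2)) ∧ b * a * b⁻¹ = a⁻¹) ∨ (4 ≤ n ∧ b ^ 2 = 1 ∧ b * a * b⁻¹ = a ^ (1 + 2 ^ (n - 2))) ∨ (4 ≤ n ∧ b ^ 2 = 1 ∧ b * a * b⁻¹ = a ^ (2 ^ (n - 2) - 1))) := by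
  classical
  -- generator of `C`
  obtain ⟨a', ha'⟩ := hC.exists_generator
  obtain ⟨a, haC, hCa⟩ : ∃ a ∈ C, ∀ m ∈ C, m ∈ Subgroup.zpowers a := by
    refine ⟨a', a'.2, ?_⟩
    intro m hm
    obtain ⟨i, hi⟩ := Subgroup.mem_zpowers_iff.mp (ha' ⟨m, hm⟩)
    exact Subgroup.mem_zpowers_iff.mpr ⟨i, by simpa using congrArg Subtype.val hi⟩
  have hCeq : Subgroup.zpowers a = C := le_antisymm (Subgroup.zpowers_le.mpr haC) hCa
  have hCcard : Nat.card C = 2 ^ (n - 1) := by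
    have h1 := C.card_mul_index
    rw [hCi, hG] at h1
    have h2 : 2 ^ n = 2 ^ (n - 1) * 2 := by
      rw [← pow_succ]; congr 1; omega
    rw [h2] at h1
    exact Nat.eq_of_mul_eq_mul_right (by norm_num) h1
  have hoa : orderOf a = 2 ^ (n - 1) := by rw [← hCcard, ← hCeq, Nat.card_zpowers]
  have hCn : C.Normal := Subgroup.normal_of_index_eq_two hCi
  obtain ⟨b, hb⟩ : ∃ b, b ∉ C := by
    by_contra hall
    push Not at hall
    have : C = ⊤ := eq_top_iff.mpr (fun x _ => hall x)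
    rw [this, Subgroup.index_top] at hCi
    omega
  have hbz : b ∉ Subgroup.zpowers a := hCeq ▸ hb
  have hb2 : b ^ 2 ∈ Subgroup.zpowers a := hCeq ▸ Subgroup.sq_mem_of_index_two hCi b
  obtain ⟨r, hr⟩ : ∃ r : ℤ, b * a * b⁻¹ = a ^ r := by
    have h1 : b * a * b⁻¹ ∈ Subgroup.zpowers a := hCeq ▸ hCn.conj_mem a haC b
    obtain ⟨r, hr⟩ := Subgroup.mem_zpowers_iff.mp h1
    exact ⟨r, hr.symm⟩
  obtain ⟨L, hLdef⟩ : ∃ L : ℤ, L = 2 ^ (n - 3) := ⟨_, rfl⟩
  have hL0 : L ≠ 0 := by rw [hLdef]; positivity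
  have hNL : ((2 ^ (n - 1) : ℕ) : ℤ) = 4 * L := by
    have : n - 1 = (n - 3) + 2 := by omega
    rw [this, hLdef]; push_cast; ring
  have hHL : ((2 ^ (n - 2) : ℕ) : ℤ) = 2 * L := by
    have : n - 2 = (n - 3) + 1 := by omega
    rw [this, hLdef]; push_cast; ring
  have hHL' : (2 : ℤ) ^ (n - 2) = 2 * L := by exact_mod_cast hHL
  have ho : ∀ k : ℤ, a ^ k = 1 ↔ 4 * L ∣ k := fun k => by
    rw [← hNL, ← hoa]; exact orderOf_dvd_iff_zpow_eq_one.symm
  -- `r ^ 2 ≡ 1`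
  have hr2 : 4 * L ∣ r ^ 2 - 1 := by
    rw [← ho]
    obtain ⟨i, hi⟩ := Subgroup.mem_zpowers_iff.mp hb2
    have h1 : b ^ 2 * a * (b ^ 2)⁻¹ = a := by
      rw [← hi]
      have hc : a ^ i * a = a * a ^ i := ((Commute.refl a).zpow_left i).eq
      rw [hc]; group
    have h2 : b ^ 2 * a * (b ^ 2)⁻¹ = a ^ (r * r) := by
      have : b ^ 2 * a * (b ^ 2)⁻¹ = b * (b * a * b⁻¹) * b⁻¹ := by
        rw [pow_two]; group
      rw [this, hr, ← conj_zpow, hr, ← zpow_mul]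
    rw [h1] at h2
    rw [show r ^ 2 - 1 = r * r - 1 by ring, zpow_sub, ← h2, zpow_one, mul_inv_cancel]
  -- non-commutativity
  have hne : ¬ (4 * L ∣ r - 1) := by
    intro h
    have h1 : a ^ r = a := by
      have := zpow_congr' ho (k := r) (k' := 1) h
      rwa [zpow_one] at this
    rw [h1] at hr
    have hcomm : b * a = a * b := by
      calc b * a = b * a * b⁻¹ * b := by group
        _ = a * b := by rw [hr]
    obtain ⟨x, y, hxy⟩ := hna
    apply hxy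
    have htop : C ⊔ Subgroup.zpowers b = ⊤ := by
      have hlt : C < C ⊔ Subgroup.zpowers b := by
        refine lt_of_le_of_ne le_sup_left (fun h => hb ?_)
        rw [h]
        exact Subgroup.mem_sup_right (Subgroup.mem_zpowers b)
      have h1 := Subgroup.relIndex_mul_index hlt.le
      rw [hCi] at h1
      have h2 : C.relIndex (C ⊔ Subgroup.zpowers b) ≠ 1 := fun h =>
        (not_le_of_gt hlt) (Subgroup.relIndex_eq_one.mp h)
      have h3 : C.relIndex (C ⊔ Subgroup.zpowers b) ∣ 2 := Dvd.intro _ h1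
      have h4 : C.relIndex (C ⊔ Subgroup.zpowers b) = 2 := by
        rcases (Nat.dvd_prime Nat.prime_two).mp h3 with h | h
        · exact absurd h h2
        · exact h
      rw [h4] at h1
      rw [← Subgroup.index_eq_one]
      omega
    exact comm_of_gen C a b hCeq htop hcomm x y
  have hmem : ∀ j : ℤ, b * a ^ j ∉ Subgroup.zpowers a := by
    intro j h
    apply hbz
    have := Subgroup.mul_mem _ h (Subgroup.inv_mem _ (Subgroup.zpow_mem _ (Subgroup.mem_zpowers a) j))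
    simpa using this
  have caseD : b * a * b⁻¹ = a ^ (-1 : ℤ) →
      ∃ a b : G, orderOf a = 2 ^ (n - 1) ∧ b ∉ Subgroup.zpowers a ∧ ((b ^ 2 = 1 ∧ b * a * b⁻¹ = a⁻¹) ∨ (b ^ 2 = a ^ (2 ^ (n - 2)) ∧ b * a * b⁻¹ = a⁻¹) ∨ (4 ≤ n ∧ b ^ 2 = 1 ∧ b * a * b⁻¹ = a ^ (1 + 2 ^ (n - 2))) ∨ (4 ≤ n ∧ b ^ 2 = 1 ∧ b * a * b⁻¹ = a ^ (2 ^ (n - 2) - 1))) := by
    intro hconj
    have hconj' : b * a * b⁻¹ = a⁻¹ := by rw [hconj, zpow_neg_one]
    rcases type_D ho hconj hb2 with h2 | h2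
    · exact ⟨a, b, hoa, hbz, Or.inl ⟨h2, hconj'⟩⟩
    · refine ⟨a, b, hoa, hbz, Or.inr (Or.inl ⟨?_, hconj'⟩)⟩
      rw [h2, ← hHL, zpow_natCast]
  rcases nt_two L (n - 3) hLdef r hr2 with h | h | h | h
  · exact absurd h hne
  · apply caseD
    rw [hr]
    exact zpow_congr' ho (by simpa using h)
  · by_cases h4 : 4 ≤ n
    · have hconj : b * a * b⁻¹ = a ^ (1 + 2 * L) := by
        rw [hr]
        exact zpow_congr' ho (by
          have e : r - (1 + 2 * L) = r - 1 - 2 * L := by ring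
          rw [e]; exact h)
      have hLL : L = 2 * 2 ^ (n - 4) := by
        have : n - 3 = (n - 4) + 1 := by omega
        rw [hLdef, this, pow_succ]; ring
      obtain ⟨j, hj⟩ := type_M hL0 hLL ho hconj hb2
      refine ⟨a, b * a ^ j, hoa, hmem j, Or.inr (Or.inr (Or.inl ⟨h4, hj, ?_⟩))⟩
      rw [conj_mul_zpow, hconj, ← zpow_natCast]
      congr 1
      push_cast
      rw [hHL']
    · apply caseD
      have hn3 : n = 3 := by omega
      have hL1 : L = 1 := by rw [hLdef, hn3]; norm_num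
      rw [hr]
      refine zpow_congr' ho ?_
      rw [hL1] at h ⊢
      obtain ⟨c, hc⟩ := h
      exact ⟨c + 1, by linarith⟩
  · by_cases h4 : 4 ≤ n
    · have hconj : b * a * b⁻¹ = a ^ (2 * L - 1) := by
        rw [hr]
        exact zpow_congr' ho (by
          have e : r - (2 * L - 1) = r + 1 - 2 * L := by ring
          rw [e]; exact h)
      have hLL : L = 2 * 2 ^ (n - 4) := by
        have : n - 3 = (n - 4) + 1 := by omega
        rw [hLdef, this, pow_succ]; ring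
      obtain ⟨j, hj⟩ := type_SD hL0 hLL ho hconj hb2
      refine ⟨a, b * a ^ j, hoa, hmem j, Or.inr (Or.inr (Or.inr ⟨h4, hj, ?_⟩))⟩
      rw [conj_mul_zpow, hconj, ← zpow_natCast]
      congr 1
      rw [Nat.cast_sub Nat.one_le_two_pow, hHL]
      norm_num
    · exfalso
      have hn3 : n = 3 := by omega
      have hL1 : L = 1 := by rw [hLdef, hn3]; norm_num
      apply hne
      rw [hL1] at h ⊢
      obtain ⟨c, hc⟩ := h
      exact ⟨c, by linarith⟩

end Cfsg.Agent.S0646
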