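import Cfsg.Statements.S0660
import Mathlib

set_option autoImplicit false
open Cfsg

namespace Cfsg.Agent.S0660

open scoped IsMulCommutative

/-- Under a coprime action on an abelian group, an invariant subgroup that is complemented admits an invariant complement. -/
theorem result {G : Type*} [Group G] [Finite G] (V A U : Subgroup G) (hVab : IsMulCommutative V) (hAV : A ≤ Subgroup.normalizer (V : Set G)) (hcop : (Nat.card A).Coprime (Nat.card V)) (hUV : U ≤ V) (hAU : A ≤ Subgroup.normalizer (U : Set G)) (W : Subgroup G) (hWV : W ≤ V) (hUW : U ⊓ W = ⊥) (hUWV : U ⊔ W = V) : ∃ W' : Subgroup G, W' ≤ V ∧ A ≤ Subgroup.normalizer (W' : Set G) ∧ U ⊓ W' = ⊥ ∧ U ⊔ W' = V := by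
  classical
  have : Fintype A := Fintype.ofFinite A
  let φ : A →* MulAut V := (Subgroup.normalizerMonoidHom V).comp (Subgroup.inclusion hAV)
  have hφ : ∀ (a : A) (v : V), ((φ a v : V) : G) = a * v * (a : G)⁻¹ := by
    intro a v; rfl
  let U' : Subgroup V := U.subgroupOf V
  let W₀ : Subgroup V := W.subgroupOf V
  have hdisj : U' ⊓ W₀ = ⊥ := by
    rw [eq_bot_iff]
    intro x hx
    have h1 : (x : G) ∈ U ⊓ W := ⟨hx.1, hx.2⟩
    rw [hUW, Subgroup.mem_bot] at h1
    rw [Subgroup.mem_bot]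
    exact Subtype.ext h1
  have hsup : U' ⊔ W₀ = ⊤ := by
    rw [← Subgroup.subgroupOf_sup hUV hWV, hUWV]; simp
  let f : U' × W₀ →* V := MonoidHom.coprod U'.subtype W₀.subtype
  have hf_inj : Function.Injective f := by
    rw [injective_iff_map_eq_one]
    rintro ⟨u, w⟩ h
    have h1 : (u : V) * (w : V) = 1 := h
    have h2 : (u : V) ∈ U' ⊓ W₀ :=
      ⟨u.2, by rw [eq_inv_of_mul_eq_one_left h1]; exact W₀.inv_mem w.2⟩
    rw [hdisj, Subgroup.mem_bot] at h2
    have h3 : (w : V) = 1 := by rw [h2, one_mul] at h1; exact h1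
    exact Prod.ext (Subtype.ext h2) (Subtype.ext h3)
  have hf_surj : Function.Surjective f := by
    intro v
    have hv : v ∈ U' ⊔ W₀ := by rw [hsup]; trivial
    obtain ⟨u, hu, w, hw, rfl⟩ := Subgroup.mem_sup.mp hv
    exact ⟨(⟨u, hu⟩, ⟨w, hw⟩), rfl⟩
  let e : U' × W₀ ≃* V := MulEquiv.ofBijective f ⟨hf_inj, hf_surj⟩
  let π : V →* V := U'.subtype.comp ((MonoidHom.fst U' W₀).comp e.symm.toMonoidHom)
  have hπU : ∀ v, π v ∈ U' := fun v => (e.symm v).1.2
  have hπid : ∀ u ∈ U', π u = u := by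
    intro u hu
    have h1 : e.symm u = (⟨u, hu⟩, 1) := by
      rw [MulEquiv.symm_apply_eq]
      show u = f (⟨u, hu⟩, 1)
      simp [f]
    show ((e.symm u).1 : V) = u
    rw [h1]
  have hφU : ∀ (a : A) (u : V), u ∈ U' → φ a u ∈ U' := by
    intro a u hu
    rw [Subgroup.mem_subgroupOf] at hu ⊢
    rw [hφ]
    exact (Subgroup.mem_normalizer_iff.mp (hAU a.2) _).mp hu
  let θ : V →* V := ∏ a : A, ((φ a)⁻¹).toMonoidHom.comp (π.comp (φ a).toMonoidHom)
  have hθ : ∀ v, θ v = ∏ a : A, (φ a)⁻¹ (π (φ a v)) := by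
    intro v
    simp [θ, MonoidHom.finsetProd_apply]
  have hθU : ∀ v, θ v ∈ U' := by
    intro v
    rw [hθ]
    apply Subgroup.prod_mem
    intro a _
    have := hφU a⁻¹ _ (hπU (φ a v))
    rwa [map_inv] at this
  have hθid : ∀ u ∈ U', θ u = u ^ Nat.card A := by
    intro u hu
    rw [hθ]
    have h1 : ∀ a : A, (φ a)⁻¹ (π (φ a u)) = u := by
      intro a
      rw [hπid _ (hφU a u hu)]
      simp
    simp [h1, Nat.card_eq_fintype_card]
  have hθeq : ∀ (b : A) (v : V), θ (φ b v) = φ b (θ v) := by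
    intro b v
    rw [hθ, hθ, map_prod]
    refine Fintype.prod_equiv (Equiv.mulRight b) _ _ ?_
    intro c
    simp only [Equiv.coe_mulRight, map_mul]
    simp [MulAut.mul_apply]
  have hconj : ∀ (a : A) (x : G), x ∈ θ.ker.map V.subtype →
      (a : G) * x * (a : G)⁻¹ ∈ θ.ker.map V.subtype := by
    rintro a _ ⟨v, hv, rfl⟩
    refine ⟨φ a v, ?_, (hφ a v)⟩
    rw [SetLike.mem_coe, MonoidHom.mem_ker] at hv ⊢
    rw [hθeq, hv, map_one]
  refine ⟨θ.ker.map V.subtype, Subgroup.map_subtype_le _, ?_, ?_, ?_⟩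
  · intro a ha
    rw [Subgroup.mem_normalizer_iff]
    intro x
    constructor
    · exact hconj ⟨a, ha⟩ x
    · intro hx
      have := hconj ⟨a⁻¹, A.inv_mem ha⟩ _ hx
      simpa [mul_assoc] using this
  · rw [eq_bot_iff]
    rintro x ⟨hxU, v, hv, rfl⟩
    have hvU : v ∈ U' := hxU
    rw [SetLike.mem_coe, MonoidHom.mem_ker, hθid v hvU] at hv
    have h1 : orderOf v ∣ Nat.card A := orderOf_dvd_of_pow_eq_one hv
    have h2 : orderOf v ∣ Nat.card V := orderOf_dvd_natCard v
    have h3 : orderOf v = 1 := Nat.eq_one_of_dvd_coprimes hcop h1 h2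
    rw [orderOf_eq_one_iff] at h3
    simp [h3]
  · apply le_antisymm (sup_le hUV (Subgroup.map_subtype_le _))
    intro x hx
    let v : V := ⟨x, hx⟩
    let u : V := (powCoprime hcop.symm).symm (θ v)
    have hu : u ^ Nat.card A = θ v := (powCoprime hcop.symm).apply_symm_apply (θ v)
    have huU : u ∈ U' := by
      show (powCoprime hcop.symm).symm (θ v) ∈ U'
      rw [powCoprime_symm_apply]
      exact U'.zpow_mem (hθU v) _
    have hker : v * u⁻¹ ∈ θ.ker := by
      rw [MonoidHom.mem_ker, map_mul, map_inv, hθid u huU, hu, mul_inv_cancel]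
    have hx2 : x = ((v * u⁻¹ : V) : G) * (u : G) := by
      simp [v]
    rw [hx2, sup_comm]
    exact Subgroup.mul_mem_sup ⟨_, hker, rfl⟩ huU

end Cfsg.Agent.S0660
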