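import Cfsg.Statements.S0661
import Cfsg.Agent.Lib.Helper11.PLayerLocal
import Cfsg.Agent.Lib.Helper6.PConstr
import Cfsg.Agent.Lib.Helper14.Cores

set_option autoImplicit false
open Cfsg

namespace Cfsg.Agent.S0661

/-- If, modulo the largest normal subgroup of order prime to p, the largest normal p-subgroup contains its centralizer, then for every p-subgroup P the p'-core of N_G(P) is just O_p'(G) ∩ N_G(P). -/
theorem result {G : Type*} [Group G] [Finite G] {p : ℕ} [Fact p.Prime] (hc : Subgroup.centralizer (Cfsg.pCore p (G ⧸ Cfsg.pPrimeCore p G) : Set (G ⧸ Cfsg.pPrimeCore p G)) ≤ Cfsg.pCore p (G ⧸ Cfsg.pPrimeCore p G)) (P : Subgroup G) (hP : IsPGroup p P) : (Cfsg.pPrimeCore p ↥(Subgroup.normalizer (P : Set G))).map (Subgroup.normalizer (P : Set G)).subtype = Cfsg.pPrimeCore p G ⊓ Subgroup.normalizer (P : Set G) := by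
  classical
  have hpc : IsPConstrained p G := Cfsg.Agent.Lib.Helper6.isPConstrained_iff_quotient.mpr hc
  have hL : Cfsg.pLayer p G = ⊥ := (Cfsg.Agent.Lib.Helper11.isPConstrained_iff_pLayer_eq_bot p).mp hpc
  obtain ⟨-, hle⟩ := Cfsg.Agent.Lib.Helper11.pLayer_normalizer_eq_bot p hL P hP
  apply le_antisymm
  · exact le_inf hle (Subgroup.map_subtype_le _)
  · intro x hx
    obtain ⟨hxO, hxN⟩ := hx
    refine ⟨⟨x, hxN⟩, ?_, rfl⟩
    have hn : ((Cfsg.pPrimeCore p G).subgroupOf (Subgroup.normalizer (P : Set G))).Normal :=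
      Subgroup.Normal.subgroupOf (Cfsg.pPrimeCore_normal p G) _
    have hcop : (Nat.card ((Cfsg.pPrimeCore p G).subgroupOf (Subgroup.normalizer (P : Set G)))).Coprime p := by
      have h1 : Nat.card ((Cfsg.pPrimeCore p G).subgroupOf (Subgroup.normalizer (P : Set G)))
          ∣ Nat.card (Cfsg.pPrimeCore p G) := by
        have h2 : Nat.card (((Cfsg.pPrimeCore p G).subgroupOf (Subgroup.normalizer (P : Set G))).map
            (Subgroup.normalizer (P : Set G)).subtype)
            = Nat.card ((Cfsg.pPrimeCore p G).subgroupOf (Subgroup.normalizer (P : Set G))) :=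
          Subgroup.card_map_of_injective (Subgroup.subtype_injective _)
        rw [← h2]
        apply Subgroup.card_dvd_of_le
        rintro _ ⟨y, hy, rfl⟩
        exact hy
      exact Nat.Coprime.coprime_dvd_left h1 (Cfsg.Agent.Lib.Helper14.pPrimeCore_coprime p)
    exact Cfsg.Agent.Lib.Helper14.le_pPrimeCore p hn hcop hxO

end Cfsg.Agent.S0661
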