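import Cfsg.Statements.S0662
import Mathlib

set_option autoImplicit false
open Cfsg

namespace Cfsg.Agent.S0662

section

open scoped commutatorElement

variable {G : Type*} [Group G]

theorem lcs_const {i : ℕ}
    (h : (⊤ : Subgroup G).lowerCentralSeries (i + 1) = (⊤ : Subgroup G).lowerCentralSeries i) :
    ∀ j, i ≤ j →
      (⊤ : Subgroup G).lowerCentralSeries j = (⊤ : Subgroup G).lowerCentralSeries i := by
  intro j hj
  induction j, hj using Nat.le_induction with
  | base => rfl
  | succ j hj ih =>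
    rw [Subgroup.lowerCentralSeries_succ, ih, ← Subgroup.lowerCentralSeries_succ, h]

theorem lcs_two_eq_one_of_cyclic
    (hc : IsCyclic (G ⧸ (⊤ : Subgroup G).lowerCentralSeries 1)) :
    (⊤ : Subgroup G).lowerCentralSeries 2 = (⊤ : Subgroup G).lowerCentralSeries 1 := by
  have hle0 : (⊤ : Subgroup G).lowerCentralSeries 2 ≤ (⊤ : Subgroup G).lowerCentralSeries 1 :=
    Subgroup.lowerCentralSeries_antitone ⊤ (by norm_num : 1 ≤ 2)
  apply le_antisymm hle0
  have hle : (⊤ : Subgroup G).lowerCentralSeries 2 ≤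
      ((⊤ : Subgroup G).lowerCentralSeries 1).comap (MonoidHom.id G) := hle0
  obtain ⟨f, hf⟩ : ∃ f : G ⧸ (⊤ : Subgroup G).lowerCentralSeries 2 →*
      G ⧸ (⊤ : Subgroup G).lowerCentralSeries 1,
      ∀ x : G, f (QuotientGroup.mk x) = QuotientGroup.mk x :=
    ⟨QuotientGroup.map _ _ (MonoidHom.id G) hle, fun x => rfl⟩
  have hker : f.ker ≤ Subgroup.center (G ⧸ (⊤ : Subgroup G).lowerCentralSeries 2) := by
    intro q hq
    obtain ⟨x, rfl⟩ := QuotientGroup.mk_surjective q
    rw [MonoidHom.mem_ker, hf] at hq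
    have hx : x ∈ (⊤ : Subgroup G).lowerCentralSeries 1 := (QuotientGroup.eq_one_iff x).mp hq
    rw [Subgroup.mem_center_iff]
    intro r
    obtain ⟨y, rfl⟩ := QuotientGroup.mk_surjective r
    have h1 : ⁅x⁻¹, y⁻¹⁆ ∈ (⊤ : Subgroup G).lowerCentralSeries 2 :=
      Subgroup.commutator_mem_commutator (inv_mem hx) (Subgroup.mem_top _)
    rw [← QuotientGroup.mk_mul, ← QuotientGroup.mk_mul, QuotientGroup.eq]
    have h2 : (y * x)⁻¹ * (x * y) = ⁅x⁻¹, y⁻¹⁆ := by
      rw [commutatorElement_def]; group
    rw [h2]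
    exact h1
  have hcomm := commutative_of_cyclic_center_quotient f hker
  have h3 : ⁅(⊤ : Subgroup G), (⊤ : Subgroup G)⁆ ≤ (⊤ : Subgroup G).lowerCentralSeries 2 := by
    rw [Subgroup.commutator_le]
    intro a _ b _
    rw [← QuotientGroup.eq_one_iff]
    have h4 : ((⁅a, b⁆ : G) : G ⧸ (⊤ : Subgroup G).lowerCentralSeries 2) =
        ⁅(QuotientGroup.mk a : G ⧸ (⊤ : Subgroup G).lowerCentralSeries 2), QuotientGroup.mk b⁆ :=
      map_commutatorElement (QuotientGroup.mk' ((⊤ : Subgroup G).lowerCentralSeries 2)) a b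
    rw [h4, commutatorElement_eq_one_iff_mul_comm]
    exact hcomm _ _
  exact h3


variable [Finite G] {p : ℕ} [Fact p.Prime]

theorem chain (hG : IsPGroup p G) (c : ℕ) (hc : Group.nilpotencyClass G = c) (hc2 : 2 ≤ c) :
    (∀ i, 1 ≤ i → i ≤ c → p ^ (i + 1) ∣ ((⊤ : Subgroup G).lowerCentralSeries i).index) ∧
    (∀ j i, i + j = c →
      p ^ j * ((⊤ : Subgroup G).lowerCentralSeries i).index ∣ Nat.card G) := by
  have hp : p.Prime := Fact.out
  have hnil : Group.IsNilpotent G := hG.isNilpotent
  have hbot : ∀ i, (⊤ : Subgroup G).lowerCentralSeries i = ⊥ ↔ c ≤ i := by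
    intro i
    rw [← hc]
    exact Subgroup.lowerCentralSeries_eq_bot_iff_nilpotencyClass_le
  have hstrict : ∀ i, i < c →
      (⊤ : Subgroup G).lowerCentralSeries (i + 1) ≠ (⊤ : Subgroup G).lowerCentralSeries i := by
    intro i hi h
    have h1 := lcs_const h c hi.le
    have h2 : (⊤ : Subgroup G).lowerCentralSeries i = ⊥ := by
      rw [← h1]
      exact (hbot c).mpr le_rfl
    have h3 := (hbot i).mp h2
    omega
  have hstep : ∀ i, i < c → p * ((⊤ : Subgroup G).lowerCentralSeries i).index ∣
      ((⊤ : Subgroup G).lowerCentralSeries (i + 1)).index := by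
    intro i hi
    have hle : (⊤ : Subgroup G).lowerCentralSeries (i + 1) ≤
        (⊤ : Subgroup G).lowerCentralSeries i :=
      Subgroup.lowerCentralSeries_antitone ⊤ (Nat.le_succ i)
    have h1 := Subgroup.relIndex_mul_index hle
    have h2 : p ∣ ((⊤ : Subgroup G).lowerCentralSeries (i + 1)).relIndex
        ((⊤ : Subgroup G).lowerCentralSeries i) := by
      have hne : ((⊤ : Subgroup G).lowerCentralSeries (i + 1)).relIndex
          ((⊤ : Subgroup G).lowerCentralSeries i) ≠ 1 := by
        intro h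
        rw [Subgroup.relIndex_eq_one] at h
        exact hstrict i hi (le_antisymm hle h)
      obtain ⟨k, hk⟩ := (hG.to_subgroup ((⊤ : Subgroup G).lowerCentralSeries i)).index
        (((⊤ : Subgroup G).lowerCentralSeries (i + 1)).subgroupOf
          ((⊤ : Subgroup G).lowerCentralSeries i))
      have hk' : ((⊤ : Subgroup G).lowerCentralSeries (i + 1)).relIndex
          ((⊤ : Subgroup G).lowerCentralSeries i) = p ^ k := hk
      rw [hk'] at hne ⊢
      have hk0 : k ≠ 0 := by
        rintro rfl
        exact hne (pow_zero p)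
      exact dvd_pow_self p hk0
    rw [← h1]
    exact Nat.mul_dvd_mul_right h2 _
  have h1 : p ^ 2 ∣ ((⊤ : Subgroup G).lowerCentralSeries 1).index := by
    obtain ⟨k, hk⟩ := hG.index ((⊤ : Subgroup G).lowerCentralSeries 1)
    rw [hk]
    apply pow_dvd_pow
    by_contra hlt
    push Not at hlt
    have hcard : Nat.card (G ⧸ (⊤ : Subgroup G).lowerCentralSeries 1) = p ^ k := hk
    have hcyc : IsCyclic (G ⧸ (⊤ : Subgroup G).lowerCentralSeries 1) := by
      interval_cases k
      · rw [pow_zero] at hcard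
        have : Subsingleton (G ⧸ (⊤ : Subgroup G).lowerCentralSeries 1) :=
          (Nat.card_eq_one_iff_unique.mp hcard).1
        exact isCyclic_of_subsingleton
      · rw [pow_one] at hcard
        exact isCyclic_of_prime_card hcard
    exact hstrict 1 (by omega) (lcs_two_eq_one_of_cyclic hcyc)
  refine ⟨?_, ?_⟩
  · intro i hi
    induction i, hi using Nat.le_induction with
    | base => intro _; exact h1
    | succ i hi ih =>
      intro hic
      have h2 := ih (by omega)
      have h3 := hstep i (by omega)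
      refine dvd_trans ?_ h3
      rw [pow_succ, mul_comm]
      exact Nat.mul_dvd_mul_left p h2
  · intro j
    induction j with
    | zero =>
      intro i hi
      have hi' : i = c := by omega
      rw [hi', (hbot c).mpr le_rfl, Subgroup.index_bot, pow_zero, one_mul]
    | succ j ih =>
      intro i hi
      have h2 := ih (i + 1) (by omega)
      have h3 := hstep i (by omega)
      refine dvd_trans ?_ h2
      rw [pow_succ, mul_assoc]
      exact Nat.mul_dvd_mul_left _ h3

theorem lcs_eq_bot_of_card (r : ℕ) (hr : 2 ≤ r) (hQ : Nat.card G = p ^ r) :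
    (⊤ : Subgroup G).lowerCentralSeries (r - 1) = ⊥ := by
  have hp : p.Prime := Fact.out
  have hP : IsPGroup p G := IsPGroup.of_card hQ
  have hnil : Group.IsNilpotent G := hP.isNilpotent
  rw [Subgroup.lowerCentralSeries_eq_bot_iff_nilpotencyClass_le]
  by_contra hlt
  push Not at hlt
  obtain ⟨h1, -⟩ := chain hP _ rfl (by omega : 2 ≤ Group.nilpotencyClass G)
  have h2 := h1 (Group.nilpotencyClass G) (by omega) le_rfl
  rw [Subgroup.lowerCentralSeries_nilpotencyClass, Subgroup.index_bot, hQ] at h2
  have h3 := (Nat.pow_dvd_pow_iff_le_right hp.one_lt).mp h2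
  omega


theorem card_index_p_subgroups {A : Type*} [CommGroup A] [Finite A] {p : ℕ} [Fact p.Prime]
    (hA : Nat.card A = p ^ 2) (hnc : ¬ IsCyclic A) :
    Nat.card {H : Subgroup A // H.index = p} = p + 1 := by
  have hp : p.Prime := Fact.out
  have hord : ∀ x : A, x ≠ 1 → orderOf x = p := by
    intro x hx
    have h1 : orderOf x ∣ p ^ 2 := hA ▸ orderOf_dvd_natCard x
    obtain ⟨k, hk, hk'⟩ := (Nat.dvd_prime_pow hp).mp h1
    interval_cases k
    · rw [pow_zero, orderOf_eq_one_iff] at hk'
      exact absurd hk' hx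
    · rw [hk', pow_one]
    · exfalso
      exact hnc (isCyclic_of_orderOf_eq_card x (by rw [hk', hA]))
  have hcardH : ∀ H : Subgroup A, H.index = p → Nat.card H = p := by
    intro H hH
    have h1 := H.card_mul_index
    rw [hH, hA, pow_two] at h1
    exact Nat.eq_of_mul_eq_mul_right hp.pos h1
  have hzp : ∀ x : A, x ≠ 1 → ∀ H : Subgroup A, H.index = p → x ∈ H →
      H = Subgroup.zpowers x := by
    intro x hx H hH hxH
    symm
    apply Subgroup.eq_of_le_of_card_ge (Subgroup.zpowers_le.mpr hxH)
    rw [Nat.card_zpowers, hord x hx, hcardH H hH]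
  obtain ⟨f, hfdef⟩ : ∃ f : (Σ H : {H : Subgroup A // H.index = p},
      {x : A // x ∈ H.1 ∧ x ≠ 1}) → {x : A // x ≠ 1}, ∀ q, (f q).1 = q.2.1 :=
    ⟨fun q => ⟨q.2.1, q.2.2.2⟩, fun q => rfl⟩
  have hf : Function.Bijective f := by
    constructor
    · rintro ⟨⟨H, hH⟩, ⟨x, hx1, hx2⟩⟩ ⟨⟨H', hH'⟩, ⟨x', hx1', hx2'⟩⟩ h
      have hxx : x = x' := by
        have h1 := congrArg Subtype.val h
        rwa [hfdef, hfdef] at h1
      subst hxx
      have hHH : H = H' := (hzp x hx2 H hH hx1).trans (hzp x hx2 H' hH' hx1').symm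
      subst hHH
      rfl
    · rintro ⟨x, hx⟩
      have hidx : (Subgroup.zpowers x).index = p := by
        have h1 := (Subgroup.zpowers x).card_mul_index
        rw [Nat.card_zpowers, hord x hx, hA, pow_two] at h1
        exact Nat.eq_of_mul_eq_mul_left hp.pos h1
      refine ⟨⟨⟨Subgroup.zpowers x, hidx⟩, ⟨x, Subgroup.mem_zpowers x, hx⟩⟩, ?_⟩
      apply Subtype.ext
      rw [hfdef]
  have h1 := Nat.card_congr (Equiv.ofBijective f hf)
  have : Fintype {H : Subgroup A // H.index = p} := Fintype.ofFinite _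
  rw [Nat.card_sigma] at h1
  have h2 : ∀ H : {H : Subgroup A // H.index = p},
      Nat.card {x : A // x ∈ H.1 ∧ x ≠ 1} = p - 1 := by
    intro H
    have h3 : Nat.card {x : A // x ∈ H.1 ∧ x ≠ 1} = ((H.1 : Set A) \ {1}).ncard :=
      Nat.card_coe_set_eq ((H.1 : Set A) \ {1})
    rw [h3, Set.ncard_sdiff_singleton_of_mem (one_mem _)]
    have h4 : (H.1 : Set A).ncard = Nat.card H.1 := (Nat.card_coe_set_eq _).symm
    rw [h4, hcardH H.1 H.2]
  have h4 : Nat.card {x : A // x ≠ 1} = p ^ 2 - 1 := by
    have h5 : Nat.card {x : A // x ≠ 1} = (({1} : Set A)ᶜ).ncard :=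
      Nat.card_coe_set_eq (({1} : Set A)ᶜ)
    rw [h5, Set.ncard_compl, Set.ncard_singleton, hA]
  rw [Finset.sum_congr rfl (fun H _ => h2 H), Finset.sum_const, Finset.card_univ, smul_eq_mul,
    h4, ← Nat.card_eq_fintype_card] at h1
  have h6 : p ^ 2 - 1 = (p + 1) * (p - 1) := by
    obtain ⟨m, rfl⟩ : ∃ m, p = m + 1 := ⟨p - 1, by have := hp.pos; omega⟩
    have h7 : (m + 1) ^ 2 = (m + 1 + 1) * m + 1 := by ring
    rw [h7]
    simp
  rw [h6] at h1
  exact Nat.eq_of_mul_eq_mul_right (by have := hp.two_le; omega) h1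

theorem commutator_le_of_index_prime {p : ℕ} [Fact p.Prime] (N : Subgroup G) [N.Normal]
    (hNp : N.index = p) : commutator G ≤ N := by
  have hcard : Nat.card (G ⧸ N) = p := hNp
  have hcyc : IsCyclic (G ⧸ N) := isCyclic_of_prime_card hcard
  rw [commutator_def, Subgroup.commutator_le]
  intro a _ b _
  rw [← QuotientGroup.eq_one_iff]
  have h4 : ((⁅a, b⁆ : G) : G ⧸ N) = ⁅(QuotientGroup.mk a : G ⧸ N), QuotientGroup.mk b⁆ :=
    map_commutatorElement (QuotientGroup.mk' N) a b
  rw [h4, commutatorElement_eq_one_iff_mul_comm]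
  let _ := IsCyclic.commGroup (α := G ⧸ N)
  exact mul_comm _ _

end

/-- In a p-group of maximal class of order at least p³ the normal subgroups of index at least p² are exactly the terms of the lower central series, and there are exactly p + 1 normal subgroups of index p. -/
theorem result {G : Type*} [Group G] [Finite G] {p : ℕ} [Fact p.Prime] (n : ℕ) (hG : Nat.card G = p ^ n) (hcl : Group.nilpotencyClass G = n - 1) (hn : 3 ≤ n) : (∀ (N : Subgroup G) [N.Normal] (r : ℕ), 2 ≤ r → N.index = p ^ r → N = (⊤ : Subgroup G).lowerCentralSeries (r - 1)) ∧ Nat.card {N : Subgroup G // N.Normal ∧ N.index = p} = p + 1 := by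
  have hp : p.Prime := Fact.out
  have hP : IsPGroup p G := IsPGroup.of_card hG
  obtain ⟨hA, hB⟩ := chain hP (n - 1) hcl (by omega)
  have hidx : ∀ i, 1 ≤ i → i ≤ n - 1 →
      ((⊤ : Subgroup G).lowerCentralSeries i).index = p ^ (i + 1) := by
    intro i h1 h2
    obtain ⟨m, hm⟩ := hA i h1 h2
    have h3 := hB (n - 1 - i) i (by omega)
    rw [hm, hG] at h3
    have h4 : p ^ n * m ∣ p ^ n * 1 := by
      have h5 : p ^ (n - 1 - i) * (p ^ (i + 1) * m) = p ^ n * m := by
        rw [← mul_assoc, ← pow_add]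
        congr 2
        omega
      rw [h5] at h3
      simpa using h3
    have h5 : m ∣ 1 := Nat.dvd_of_mul_dvd_mul_left (pow_pos hp.pos n) h4
    rw [hm, Nat.dvd_one.mp h5, mul_one]
  refine ⟨?_, ?_⟩
  · intro N hN r hr hNr
    have hQ : Nat.card (G ⧸ N) = p ^ r := hNr
    have hbot := lcs_eq_bot_of_card (p := p) r hr hQ
    have hle : (⊤ : Subgroup G).lowerCentralSeries (r - 1) ≤ N := by
      have h1 := Subgroup.map_lowerCentralSeries (⊤ : Subgroup G) (QuotientGroup.mk' N) (r - 1)
      rw [← MonoidHom.range_eq_map, MonoidHom.range_eq_top.mpr (QuotientGroup.mk'_surjective N),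
        hbot, Subgroup.map_eq_bot_iff, QuotientGroup.ker_mk'] at h1
      exact h1
    have hrn : r ≤ n := by
      have h1 : p ^ r ∣ p ^ n := by
        rw [← hNr, ← hG]
        exact Subgroup.index_dvd_card N
      exact (Nat.pow_dvd_pow_iff_le_right hp.one_lt).mp h1
    have hi := hidx (r - 1) (by omega) (by omega)
    have hr1 : r - 1 + 1 = r := by omega
    rw [hr1] at hi
    have h2 := Subgroup.relIndex_mul_index hle
    rw [hNr, hi] at h2
    have h3 : ((⊤ : Subgroup G).lowerCentralSeries (r - 1)).relIndex N = 1 := by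
      have h4 : ((⊤ : Subgroup G).lowerCentralSeries (r - 1)).relIndex N * p ^ r = 1 * p ^ r := by
        rw [h2, one_mul]
      exact Nat.eq_of_mul_eq_mul_right (pow_pos hp.pos r) h4
    rw [Subgroup.relIndex_eq_one] at h3
    exact le_antisymm h3 hle
  · have hL1 : (⊤ : Subgroup G).lowerCentralSeries 1 = commutator G := rfl
    have hcardA : Nat.card (Abelianization G) = p ^ 2 := by
      have h1 := hidx 1 le_rfl (by omega)
      rw [hL1] at h1
      exact h1
    have hnc : ¬ IsCyclic (Abelianization G) := by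
      intro hcyc
      have h21 := lcs_two_eq_one_of_cyclic (G := G) hcyc
      have h3 := lcs_const h21 (n - 1) (by omega)
      have h4 := hidx (n - 1) (by omega) le_rfl
      rw [h3, hidx 1 le_rfl (by omega)] at h4
      have h5 := Nat.pow_right_injective hp.two_le h4
      omega
    rw [← card_index_p_subgroups hcardA hnc]
    have hsurj : Function.Surjective (Abelianization.of : G →* Abelianization G) :=
      fun x => QuotientGroup.mk_surjective x
    have hker : (Abelianization.of : G →* Abelianization G).ker = commutator G :=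
      Abelianization.ker_of G
    apply Nat.card_congr
    refine
      { toFun := fun N => ⟨N.1.map Abelianization.of, ?_⟩
        invFun := fun H => ⟨H.1.comap Abelianization.of, ?_, ?_⟩
        left_inv := ?_
        right_inv := ?_ }
    · have hN := N.2.1
      rw [Subgroup.index_map_eq _ hsurj (hker ▸ commutator_le_of_index_prime N.1 N.2.2)]
      exact N.2.2
    · exact Subgroup.Normal.comap inferInstance _
    · rw [Subgroup.index_comap_of_surjective _ hsurj]
      exact H.2
    · intro N
      have hN := N.2.1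
      apply Subtype.ext
      exact Subgroup.comap_map_eq_self (hker ▸ commutator_le_of_index_prime N.1 N.2.2)
    · intro H
      apply Subtype.ext
      exact Subgroup.map_comap_eq_self_of_surjective hsurj _

end Cfsg.Agent.S0662
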