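import Cfsg.Statements.S0663
import Cfsg.Agent.Lib.Helper1.PQ
import Cfsg.Agent.Lib.Helper6.Thompson

set_option autoImplicit false
open Cfsg

namespace Cfsg.Agent.S0663

open scoped commutatorElement Pointwise

universe u

section aux

variable {L : Type u} [Group L] [Finite L] {p : ℕ} [Fact p.Prime]

omit [Finite L] [Fact p.Prime] in
lemma iter_zero (N G : Subgroup L) : iterCommutator N G 0 = N := rfl

omit [Finite L] [Fact p.Prime] in
lemma iter_succ (N G : Subgroup L) (i : ℕ) :
    iterCommutator N G (i + 1) = ⁅iterCommutator N G i, G⁆ := rfl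

omit [Fact p.Prime] in
lemma iter_norm (N G : Subgroup L) (hGN : G ≤ Subgroup.normalizer (N : Set L)) :
    ∀ i, G ≤ Subgroup.normalizer (iterCommutator N G i : Set L) ∧ iterCommutator N G i ≤ N := by
  intro i
  induction i with
  | zero => exact ⟨hGN, le_rfl⟩
  | succ i ih =>
    rw [iter_succ]
    exact ⟨le_sup_right.trans (Cfsg.Agent.Lib.Helper1.commutator_normalizer ih.1),
      (Cfsg.Agent.Lib.Helper1.commutator_le_of_le_normalizer ih.1).trans ih.2⟩

omit [Fact p.Prime] in
lemma iter_succ_le (N G : Subgroup L) (hGN : G ≤ Subgroup.normalizer (N : Set L)) (i : ℕ) :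
    iterCommutator N G (i + 1) ≤ iterCommutator N G i :=
  Cfsg.Agent.Lib.Helper1.commutator_le_of_le_normalizer (iter_norm N G hGN i).1

omit [Fact p.Prime] in
lemma iter_anti (N G : Subgroup L) (hGN : G ≤ Subgroup.normalizer (N : Set L)) :
    ∀ i j, i ≤ j → iterCommutator N G j ≤ iterCommutator N G i := by
  intro i j hij
  induction j, hij using Nat.le_induction with
  | base => exact le_rfl
  | succ j hj ih => exact (iter_succ_le N G hGN j).trans ih

omit [Finite L] [Fact p.Prime] in
lemma iter_mono_right (N : Subgroup L) {G T : Subgroup L} (hGT : G ≤ T) :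
    ∀ i, iterCommutator N G i ≤ iterCommutator N T i := by
  intro i
  induction i with
  | zero => exact le_rfl
  | succ i ih =>
    rw [iter_succ, iter_succ]
    exact Subgroup.commutator_mono ih hGT

/-- exponent data for the chain -/
lemma iter_exp (N G : Subgroup L) (hN : IsPGroup p N) (hG : IsPGroup p G)
    (hGN : G ≤ Subgroup.normalizer (N : Set L)) (n : ℕ) (hn : Nat.card N = p ^ n) :
    ∃ e : ℕ → ℕ, (∀ i, Nat.card (iterCommutator N G i) = p ^ e i) ∧ e 0 = n ∧
      (∀ i, e (i + 1) ≤ e i) ∧ (∀ i, e i ≠ 0 → e (i + 1) < e i) ∧ (∀ i, e i ≤ n - i) := by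
  have hp : p.Prime := Fact.out
  have hex : ∀ i, ∃ k, Nat.card (iterCommutator N G i) = p ^ k := fun i =>
    IsPGroup.iff_card.mp (hN.to_le (iter_norm N G hGN i).2)
  choose e he using hex
  have h0 : e 0 = n := by
    have := he 0
    rw [iter_zero, hn] at this
    exact (Nat.pow_right_injective hp.two_le this).symm
  have hmono : ∀ i, e (i + 1) ≤ e i := by
    intro i
    have h1 := Subgroup.card_le_of_le (iter_succ_le N G hGN i)
    rw [he, he] at h1
    exact (Nat.pow_le_pow_iff_right hp.one_lt).mp h1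
  have hstrict : ∀ i, e i ≠ 0 → e (i + 1) < e i := by
    intro i hi
    have hne : iterCommutator N G i ≠ ⊥ := by
      intro hb
      have h1 := he i
      rw [hb, Subgroup.card_bot] at h1
      have h2 := Nat.one_lt_pow hi hp.one_lt
      omega
    have hlt := Cfsg.Agent.Lib.Helper1.commutator_lt_of_pgroups
      (hN.to_le (iter_norm N G hGN i).2) hG (iter_norm N G hGN i).1 hne
    have hcard : Nat.card (iterCommutator N G (i + 1)) < Nat.card (iterCommutator N G i) := by
      rw [iter_succ]
      exact lt_of_not_ge (fun h => hlt.ne (Subgroup.eq_of_le_of_card_ge hlt.le h))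
    rw [he, he] at hcard
    exact (Nat.pow_lt_pow_iff_right hp.one_lt).mp hcard
  refine ⟨e, he, h0, hmono, hstrict, ?_⟩
  intro i
  induction i with
  | zero => omega
  | succ i ih =>
    by_cases hi : e i = 0
    · have := hmono i
      omega
    · have := hstrict i hi
      omega

omit [Finite L] [Fact p.Prime] in
lemma arith_of_nonbot (e : ℕ → ℕ) (n : ℕ) (hmono : ∀ i, e (i + 1) ≤ e i)
    (hstrict : ∀ i, e i ≠ 0 → e (i + 1) < e i) (hub : ∀ i, e i ≤ n - i) (hn : 1 ≤ n)
    (h : e (n - 1) ≠ 0) : ∀ i, i ≤ n → e i = n - i := by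
  have hanti : ∀ i j, i ≤ j → e j ≤ e i := by
    intro i j hij
    induction j, hij using Nat.le_induction with
    | base => exact le_rfl
    | succ j hj ih => exact (hmono j).trans ih
  have key : ∀ k, k ≤ n - 1 → k + 1 ≤ e (n - 1 - k) := by
    intro k
    induction k with
    | zero =>
      intro _
      have h1 : n - 1 - 0 = n - 1 := by omega
      rw [h1]
      omega
    | succ k ih =>
      intro hk
      have h1 := ih (by omega)
      have h2 : e (n - 1 - (k + 1)) ≠ 0 := by
        have := hanti (n - 1 - (k + 1)) (n - 1) (by omega)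
        omega
      have h3 := hstrict _ h2
      have h4 : n - 1 - (k + 1) + 1 = n - 1 - k := by omega
      rw [h4] at h3
      omega
  intro i hi
  rcases Nat.lt_or_ge i n with hlt | hge
  · have h1 := key (n - 1 - i) (by omega)
    have h5 : n - 1 - (n - 1 - i) = i := by omega
    rw [h5] at h1
    have := hub i
    omega
  · have := hub i
    omega

omit [Finite L] [Fact p.Prime] in
lemma arith_of_uniserial (e : ℕ → ℕ) (n : ℕ) (h0 : e 0 = n)
    (hu : ∀ i, e i ≠ 0 → e i = e (i + 1) + 1) : ∀ i, i ≤ n → e i = n - i := by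
  intro i
  induction i with
  | zero =>
    intro _
    omega
  | succ i ih =>
    intro hi
    have h1 := ih (by omega)
    have h2 := hu i (by omega)
    omega

omit [Finite L] [Fact p.Prime] in
lemma comm_prod {X Y G V W : Subgroup L} (hXY : X ≤ Subgroup.normalizer (Y : Set L))
    (hXV : X ≤ Subgroup.normalizer (V : Set L)) (hY : ⁅Y, G⁆ ≤ V) (hX : ⁅X, G⁆ ≤ W) :
    ⁅X ⊔ Y, G⁆ ≤ V ⊔ W := by
  rw [Subgroup.commutator_le]
  intro z hz g hg
  have hz' : z ∈ ((X ⊔ Y : Subgroup L) : Set L) := hz
  rw [Subgroup.coe_mul_of_left_le_normalizer_right X Y hXY] at hz'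
  obtain ⟨x, hx, y, hy, rfl⟩ := hz'
  have e : ⁅x * y, g⁆ = (x * ⁅y, g⁆ * x⁻¹) * ⁅x, g⁆ := by
    simp only [commutatorElement_def]; group
  rw [e]
  exact Subgroup.mul_mem_sup
    ((Subgroup.mem_normalizer_iff.mp (hXV hx) _).mp (hY (Subgroup.commutator_mem_commutator hy hg)))
    (hX (Subgroup.commutator_mem_commutator hx hg))

/-- Under the chain condition, the chain terms are normalized by `N`. -/
lemma chain_normal (N G : Subgroup L) (hN : IsPGroup p N) (hG : IsPGroup p G)
    (hGN : G ≤ Subgroup.normalizer (N : Set L)) (n : ℕ) (hn : Nat.card N = p ^ n)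
    (hCC : ∀ i, i ≤ n → Nat.card (iterCommutator N G i) = p ^ (n - i)) :
    ∀ i, N ≤ Subgroup.normalizer (iterCommutator N G i : Set L) := by
  have hp : p.Prime := Fact.out
  obtain ⟨T, hT⟩ : ∃ T : Subgroup L, T = G ⊔ N := ⟨_, rfl⟩
  have hTp : IsPGroup p T := hT ▸ IsPGroup.to_sup_of_normal_right' hG hN hGN
  have hGT : G ≤ T := hT ▸ le_sup_left
  have hNT : N ≤ T := hT ▸ le_sup_right
  have hTN : T ≤ Subgroup.normalizer (N : Set L) := hT ▸ sup_le hGN Subgroup.le_normalizer
  obtain ⟨e', he', -, -, -, hub'⟩ := iter_exp N T hN hTp hTN n hn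
  obtain ⟨e, he, -, -, -, hub⟩ := iter_exp N G hN hG hGN n hn
  intro i
  rcases Nat.lt_or_ge n i with hlt | hle
  · -- beyond `n` the chain is trivial
    have h1 := hub i
    have h2 : e i = 0 := by omega
    have h3 := he i
    rw [h2, pow_zero] at h3
    rw [Subgroup.card_eq_one.mp h3]
    intro x _
    rw [Subgroup.mem_normalizer_iff]
    intro y
    simp
  · have h1 : iterCommutator N G i = iterCommutator N T i := by
      apply Subgroup.eq_of_le_of_card_ge (iter_mono_right N hGT i)
      rw [hCC i hle, he']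
      exact Nat.pow_le_pow_right hp.pos (hub' i)
    rw [h1]
    exact hNT.trans (iter_norm N T hTN i).1

/-- Under the chain condition, every invariant nontrivial subgroup is a chain term, and its
commutator with `G` is the next one. -/
lemma chain_structure (N G : Subgroup L) (hN : IsPGroup p N) (hG : IsPGroup p G)
    (hGN : G ≤ Subgroup.normalizer (N : Set L)) (n : ℕ) (hn : Nat.card N = p ^ n)
    (hCC : ∀ i, i ≤ n → Nat.card (iterCommutator N G i) = p ^ (n - i))
    (H : Subgroup L) (hHN : H ≤ N) (hGH : G ≤ Subgroup.normalizer (H : Set L)) (hH : H ≠ ⊥) :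
    ∃ i, i < n ∧ H = iterCommutator N G i ∧ ⁅H, G⁆ = iterCommutator N G (i + 1) := by
  classical
  have hp : p.Prime := Fact.out
  have hnormal := chain_normal N G hN hG hGN n hn hCC
  have hbot : ∀ j, n ≤ j → iterCommutator N G j = ⊥ := by
    intro j hj
    have h1 := iter_anti N G hGN n j hj
    have h2 := hCC n le_rfl
    rw [Nat.sub_self, pow_zero] at h2
    rw [Subgroup.card_eq_one.mp h2] at h1
    exact le_bot_iff.mp h1
  obtain ⟨i, hi⟩ : ∃ i, i = Nat.findGreatest (fun j => H ≤ iterCommutator N G j) n := ⟨_, rfl⟩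
  have hP0 : H ≤ iterCommutator N G 0 := hHN
  have hPi : H ≤ iterCommutator N G i := by
    rw [hi]
    exact Nat.findGreatest_spec (P := fun j => H ≤ iterCommutator N G j) (Nat.zero_le n) hP0
  have hin : i < n := by
    have h1 : i ≤ n := hi ▸ Nat.findGreatest_le n
    rcases Nat.lt_or_ge i n with h | h
    · exact h
    · exfalso
      apply hH
      have h2 := hbot i h
      rw [h2] at hPi
      exact le_bot_iff.mp hPi
  have hnP : ¬ H ≤ iterCommutator N G (i + 1) := by
    have := Nat.findGreatest_is_greatest (P := fun j => H ≤ iterCommutator N G j) (n := n)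
      (k := i + 1) (by rw [← hi]; omega) (by omega)
    exact this
  obtain ⟨M, hM⟩ : ∃ M, M = iterCommutator N G (i + 1) := ⟨_, rfl⟩
  rw [← hM] at hnP
  have hMI : M ≤ iterCommutator N G i := hM ▸ iter_succ_le N G hGN i
  have hHM : H ⊔ M = iterCommutator N G i := by
    have hle : H ⊔ M ≤ iterCommutator N G i := sup_le hPi hMI
    apply Subgroup.eq_of_le_of_card_ge hle
    obtain ⟨a, ha⟩ := IsPGroup.iff_card.mp (hN.to_le (hle.trans (iter_norm N G hGN i).2))
    have hlt : Nat.card M < Nat.card (H ⊔ M : Subgroup L) := by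
      apply lt_of_not_ge
      intro h
      have h1 : M = H ⊔ M := Subgroup.eq_of_le_of_card_ge le_sup_right h
      apply hnP
      rw [h1]
      exact le_sup_left
    have hcM : Nat.card M = p ^ (n - (i + 1)) := by rw [hM]; exact hCC (i + 1) (by omega)
    rw [hcM, ha] at hlt
    have h2 : n - (i + 1) < a := (Nat.pow_lt_pow_iff_right hp.one_lt).mp hlt
    rw [hCC i (by omega), ha]
    exact Nat.pow_le_pow_right hp.pos (by omega)
  have hcHG : ⁅⁅H, G⁆, G⁆ ≤ ⁅H, G⁆ :=
    Cfsg.Agent.Lib.Helper1.commutator_le_of_le_normalizer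
      (le_sup_right.trans (Cfsg.Agent.Lib.Helper1.commutator_normalizer hGH))
  have hHGH : ⁅H, G⁆ ≤ H := Cfsg.Agent.Lib.Helper1.commutator_le_of_le_normalizer hGH
  have hbase : iterCommutator N G (i + 1) ≤ ⁅H, G⁆ ⊔ iterCommutator N G (i + 2) := by
    have h1 : ⁅H ⊔ M, G⁆ ≤ iterCommutator N G (i + 2) ⊔ ⁅H, G⁆ :=
      comm_prod (hHN.trans (hM ▸ hnormal (i + 1))) (hHN.trans (hnormal (i + 2)))
        (by rw [hM]; exact le_rfl) le_rfl
    rw [hHM, sup_comm] at h1
    exact h1
  have hZ : ∀ j, i + 2 ≤ j → iterCommutator N G (i + 1) ≤ ⁅H, G⁆ ⊔ iterCommutator N G j := by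
    intro j hj
    induction j, hj using Nat.le_induction with
    | base => exact hbase
    | succ j hj ih =>
      have h1 : ⁅⁅H, G⁆ ⊔ iterCommutator N G j, G⁆ ≤ iterCommutator N G (j + 1) ⊔ ⁅H, G⁆ :=
        comm_prod ((hHGH.trans hHN).trans (hnormal j)) ((hHGH.trans hHN).trans (hnormal (j + 1)))
          le_rfl hcHG
      have h2 : iterCommutator N G (i + 2) ≤ ⁅H, G⁆ ⊔ iterCommutator N G (j + 1) := by
        have h3 : iterCommutator N G (i + 2) = ⁅iterCommutator N G (i + 1), G⁆ := rfl
        rw [h3, sup_comm]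
        exact (Subgroup.commutator_mono ih le_rfl).trans h1
      exact hbase.trans (sup_le le_sup_left h2)
  have hcomm : ⁅H, G⁆ = iterCommutator N G (i + 1) := by
    apply le_antisymm
    · exact Subgroup.commutator_mono hPi le_rfl
    · have h1 := hZ (n + 2) (by omega)
      rw [hbot (n + 2) (by omega), sup_bot_eq] at h1
      exact h1
  refine ⟨i, hin, ?_, hcomm⟩
  rw [← hHM, hM, ← hcomm]
  exact (sup_eq_left.mpr hHGH).symm

end aux

/-- A p-group acts uniserially on a p-group N of order p^n exactly when the iterated commutator chain from N has length n; in that case the chain terms are all the invariant subgroups of N and they are normal in N. -/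
theorem result {L : Type*} [Group L] [Finite L] {p : ℕ} [Fact p.Prime] (N G : Subgroup L) (hN : IsPGroup p N) (hG : IsPGroup p G) (hGN : G ≤ Subgroup.normalizer (N : Set L)) (n : ℕ) (hn : Nat.card N = p ^ n) : ((∀ H : Subgroup L, H ≤ N → G ≤ Subgroup.normalizer (H : Set L) → H ≠ ⊥ → (⁅H, G⁆).relIndex H = p) ↔ Cfsg.iterCommutator N G (n - 1) ≠ ⊥ ∨ n = 0) ∧ ((∀ H : Subgroup L, H ≤ N → G ≤ Subgroup.normalizer (H : Set L) → H ≠ ⊥ → (⁅H, G⁆).relIndex H = p) → ∀ H : Subgroup L, H ≤ N → G ≤ Subgroup.normalizer (H : Set L) → (∃ i ≤ n, H = Cfsg.iterCommutator N G i) ∧ N ≤ Subgroup.normalizer (H : Set L)) := by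
  classical
  have hp : p.Prime := Fact.out
  obtain ⟨e, he, h0, hmono, hstrict, hub⟩ := iter_exp N G hN hG hGN n hn
  have hCCU : (∀ H : Subgroup L, H ≤ N → G ≤ Subgroup.normalizer (H : Set L) → H ≠ ⊥ →
      (⁅H, G⁆).relIndex H = p) → ∀ i, i ≤ n → Nat.card (iterCommutator N G i) = p ^ (n - i) := by
    intro hU
    have harith : ∀ i, e i ≠ 0 → e i = e (i + 1) + 1 := by
      intro i hi
      have hne : iterCommutator N G i ≠ ⊥ := by
        intro hb
        have h1 := he i
        rw [hb, Subgroup.card_bot] at h1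
        have h2 := Nat.one_lt_pow hi hp.one_lt
        omega
      have h1 := hU _ (iter_norm N G hGN i).2 (iter_norm N G hGN i).1 hne
      have h2 := Cfsg.Agent.Lib.Helper6.relIndex_mul_card_of_le (iter_succ_le N G hGN i)
      rw [iter_succ, h1, ← iter_succ, he, he, ← pow_succ'] at h2
      exact (Nat.pow_right_injective hp.two_le h2).symm
    intro i hi
    rw [he, arith_of_uniserial e n h0 harith i hi]
  have hUCC : (∀ i, i ≤ n → Nat.card (iterCommutator N G i) = p ^ (n - i)) →
      (∀ H : Subgroup L, H ≤ N → G ≤ Subgroup.normalizer (H : Set L) → H ≠ ⊥ →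
      (⁅H, G⁆).relIndex H = p) := by
    intro hCC H hHN hGH hH
    obtain ⟨i, hin, hHi, hci⟩ := chain_structure N G hN hG hGN n hn hCC H hHN hGH hH
    have h2 := Cfsg.Agent.Lib.Helper6.relIndex_mul_card_of_le (iter_succ_le N G hGN i)
    rw [hci, hHi]
    rw [hCC i (by omega), hCC (i + 1) (by omega)] at h2
    have h3 : n - i = (n - (i + 1)) + 1 := by omega
    rw [h3, pow_succ'] at h2
    exact Nat.eq_of_mul_eq_mul_right (pow_pos hp.pos _) h2
  refine ⟨⟨?_, ?_⟩, ?_⟩
  · intro hU
    rcases Nat.eq_zero_or_pos n with h | h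
    · exact Or.inr h
    · left
      intro hb
      have h1 := hCCU hU (n - 1) (by omega)
      rw [hb, Subgroup.card_bot] at h1
      have h2 : n - (n - 1) = 1 := by omega
      rw [h2, pow_one] at h1
      have := hp.one_lt
      omega
  · intro hor
    rcases Nat.eq_zero_or_pos n with h | h
    · intro H hHN hGH hH
      exfalso
      apply hH
      rw [h, pow_zero] at hn
      rw [Subgroup.card_eq_one.mp hn] at hHN
      exact le_bot_iff.mp hHN
    · have hne : iterCommutator N G (n - 1) ≠ ⊥ := hor.resolve_right (by omega)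
      have hen : e (n - 1) ≠ 0 := by
        intro h1
        apply hne
        have h2 := he (n - 1)
        rw [h1, pow_zero] at h2
        exact Subgroup.card_eq_one.mp h2
      apply hUCC
      intro i hi
      rw [he, arith_of_nonbot e n hmono hstrict hub h hen i hi]
  · intro hU H hHN hGH
    have hCC := hCCU hU
    by_cases hH : H = ⊥
    · refine ⟨⟨n, le_rfl, ?_⟩, ?_⟩
      · have h2 := hCC n le_rfl
        rw [Nat.sub_self, pow_zero] at h2
        rw [hH, Subgroup.card_eq_one.mp h2]
      · rw [hH]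
        intro x _
        rw [Subgroup.mem_normalizer_iff]
        intro y
        simp
    · obtain ⟨i, hin, hHi, -⟩ := chain_structure N G hN hG hGN n hn hCC H hHN hGH hH
      refine ⟨⟨i, hin.le, hHi⟩, ?_⟩
      rw [hHi]
      exact chain_normal N G hN hG hGN n hn hCC i

end Cfsg.Agent.S0663
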