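import Cfsg.Statements.S0666
import Cfsg.Agent.Lib.Lead.FrobeniusMore

set_option autoImplicit false
open Cfsg

namespace Cfsg.Agent.S0666

open scoped IsMulCommutative
open Cfsg.Agent.Lib.Lead

/-- Conjugation by an element of `F ≤ N(V)` as an endomorphism of `V`. -/
def cj {G : Type*} [Group G] (V F : Subgroup G)
    (hFV : F ≤ Subgroup.normalizer (V : Set G)) (f : F) : V →* V where
  toFun v := ⟨(f : G) * (v : G) * (f : G)⁻¹,
    (Subgroup.mem_normalizer_iff.mp (hFV f.2) (v : G)).mp v.2⟩
  map_one' := by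
    apply Subtype.ext
    simp
  map_mul' a b := by
    apply Subtype.ext
    simp [mul_assoc]

theorem cj_coe {G : Type*} [Group G] (V F : Subgroup G)
    (hFV : F ≤ Subgroup.normalizer (V : Set G)) (f : F) (v : V) :
    ((cj V F hFV f v : V) : G) = (f : G) * (v : G) * (f : G)⁻¹ := rfl

theorem cj_mul {G : Type*} [Group G] (V F : Subgroup G)
    (hFV : F ≤ Subgroup.normalizer (V : Set G)) (f g : F) (v : V) :
    cj V F hFV (f * g) v = cj V F hFV f (cj V F hFV g v) := by
  apply Subtype.ext
  simp [cj_coe, mul_assoc]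

theorem cj_one {G : Type*} [Group G] (V F : Subgroup G)
    (hFV : F ≤ Subgroup.normalizer (V : Set G)) (v : V) :
    cj V F hFV 1 v = v := by
  apply Subtype.ext
  simp [cj_coe]

theorem norm_fixed {G : Type*} [Group G] (V F : Subgroup G) [IsMulCommutative V]
    (hFV : F ≤ Subgroup.normalizer (V : Set G)) (L : Subgroup F) [Fintype L] (v : V)
    (f : F) (hf : f ∈ L) :
    cj V F hFV f (∏ l : L, cj V F hFV (l : F) v) = ∏ l : L, cj V F hFV (l : F) v := by
  rw [map_prod]
  refine Fintype.prod_equiv (Equiv.mulLeft (⟨f, hf⟩ : L)) _ _ ?_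
  intro l
  rw [← cj_mul]
  rfl

theorem norm_comm {G : Type*} [Group G] (V F : Subgroup G) [IsMulCommutative V]
    (hFV : F ≤ Subgroup.normalizer (V : Set G)) (L : Subgroup F) [Fintype L] (v : V)
    (f : F) (hf : f ∈ L) :
    (f : G) * ((∏ l : L, cj V F hFV (l : F) v : V) : G)
      = ((∏ l : L, cj V F hFV (l : F) v : V) : G) * (f : G) := by
  have h := congrArg Subtype.val (norm_fixed V F hFV L v f hf)
  rw [cj_coe] at h
  calc (f : G) * ((∏ l : L, cj V F hFV (l : F) v : V) : G)
      = (f : G) * ((∏ l : L, cj V F hFV (l : F) v : V) : G) * (f : G)⁻¹ * (f : G) := by group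
    _ = _ := by rw [h]

/-- The map realising the partition of a Frobenius group into its kernel and the nontrivial
elements of the conjugates of the complement. -/
def psi {F : Type*} [Group F] (K H : Subgroup F) : K ⊕ (K × {h : H // h ≠ 1}) → F
  | Sum.inl k => (k : F)
  | Sum.inr y => (y.1 : F) * ((y.2 : H) : F) * (y.1 : F)⁻¹

theorem psi_inj {F : Type*} [Group F] [Finite F] (H : Subgroup F)
    (hH : Cfsg.IsFrobeniusComplement H) :
    Function.Injective (psi (frobKer H hH) H) := by
  have hKn : (frobKer H hH).Normal := frobKer_normal H hH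
  have hinf : ∀ x : F, x ∈ frobKer H hH → x ∈ H → x = 1 := by
    intro x hx hxH
    have : x ∈ frobKer H hH ⊓ H := ⟨hx, hxH⟩
    rw [frobKer_inf] at this
    exact Subgroup.mem_bot.mp this
  have hmix : ∀ (k : frobKer H hH) (y : (frobKer H hH) × {h : H // h ≠ 1}),
      (k : F) ≠ (y.1 : F) * ((y.2 : H) : F) * (y.1 : F)⁻¹ := by
    intro k y heq
    have h1 : ((y.2 : H) : F) = (y.1 : F)⁻¹ * (k : F) * (y.1 : F) := by
      rw [heq]; group
    have h2 : ((y.2 : H) : F) ∈ frobKer H hH := by
      rw [h1]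
      have := hKn.conj_mem (k : F) k.2 (y.1 : F)⁻¹
      simpa using this
    have h3 := hinf _ h2 (y.2 : H).2
    exact y.2.2 (Subtype.ext h3)
  rintro (k | y) (k' | y') h
  · have h' : (k : F) = (k' : F) := h
    rw [Subtype.ext h']
  · exact absurd h (hmix k y')
  · exact absurd h.symm (hmix k' y)
  · obtain ⟨k, h1⟩ := y
    obtain ⟨k', h1'⟩ := y'
    have h' : (k : F) * ((h1 : H) : F) * (k : F)⁻¹ = (k' : F) * ((h1' : H) : F) * (k' : F)⁻¹ := h
    clear h
    rename' h' => h
    have hx : (k : F)⁻¹ * (k' : F) ∈ H := by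
      apply frob_conj_mem hH (h1 : H).2 (fun e => h1.2 (Subtype.ext e))
      have e : ((k : F)⁻¹ * (k' : F))⁻¹ * ((h1 : H) : F) * ((k : F)⁻¹ * (k' : F))
          = (k' : F)⁻¹ * ((k : F) * ((h1 : H) : F) * (k : F)⁻¹) * (k' : F) := by group
      rw [e, h]
      have e2 : (k' : F)⁻¹ * ((k' : F) * ((h1' : H) : F) * (k' : F)⁻¹) * (k' : F)
          = ((h1' : H) : F) := by group
      rw [e2]
      exact (h1' : H).2
    have hx2 : (k : F)⁻¹ * (k' : F) ∈ frobKer H hH :=
      (frobKer H hH).mul_mem ((frobKer H hH).inv_mem k.2) k'.2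
    have hx3 := hinf _ hx2 hx
    have hkk : (k : F) = (k' : F) := by
      have := inv_mul_eq_one.mp hx3
      exact this
    have hkk' : k = k' := Subtype.ext hkk
    subst hkk'
    have hh : ((h1 : H) : F) = ((h1' : H) : F) := by
      have := mul_left_cancel (mul_right_cancel h)
      exact this
    have : h1 = h1' := Subtype.ext (Subtype.ext hh)
    rw [this]

theorem psi_bij {F : Type*} [Group F] [Finite F] (H : Subgroup F)
    (hH : Cfsg.IsFrobeniusComplement H) [Fintype F] [Fintype (frobKer H hH)] [Fintype H]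
    [DecidableEq H] :
    Function.Bijective (psi (frobKer H hH) H) := by
  rw [Fintype.bijective_iff_injective_and_card]
  refine ⟨psi_inj H hH, ?_⟩
  have hc := card_frobKer_mul_card H hH
  rw [Nat.card_eq_fintype_card, Nat.card_eq_fintype_card, Nat.card_eq_fintype_card] at hc
  have h1 : Fintype.card {h : H // h ≠ 1} = Fintype.card H - 1 := by
    have := Fintype.card_subtype_compl (fun h : H => h = 1)
    rw [Fintype.card_subtype_eq] at this
    exact this
  have hpos : 0 < Fintype.card H := Fintype.card_pos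
  rw [Fintype.card_sum, Fintype.card_prod, h1, ← hc]
  obtain ⟨m, hm⟩ : ∃ m, Fintype.card H = m + 1 := ⟨Fintype.card H - 1, by omega⟩
  rw [hm]
  simp only [Nat.add_sub_cancel]
  ring

/-- A Frobenius group acting on a nontrivial abelian group of order prime to that of its kernel, with the kernel acting without nontrivial fixed points, has a complement with a nontrivial fixed point. -/
theorem result {G : Type*} [Group G] [Finite G] (V F : Subgroup G) (hVab : IsMulCommutative V) (hV1 : V ≠ ⊥) (hFV : F ≤ Subgroup.normalizer (V : Set G)) (H : Subgroup ↥F) (hH : Cfsg.IsFrobeniusComplement H) (hcop : (Nat.card V).Coprime (Nat.card (Cfsg.frobeniusKernel H))) (hCK : V ⊓ Subgroup.centralizer (Subtype.val '' Cfsg.frobeniusKernel H : Set G) = ⊥) : V ⊓ Subgroup.centralizer ((H.map F.subtype : Subgroup G) : Set G) ≠ ⊥ := by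
  classical
  intro hCH
  have hVc : IsMulCommutative V := hVab
  have hFn : Fintype F := Fintype.ofFinite F
  have hKf : Fintype (frobKer H hH) := Fintype.ofFinite _
  have hHf : Fintype H := Fintype.ofFinite H
  have hKn : (frobKer H hH).Normal := frobKer_normal H hH
  -- norms vanish
  have hNK : ∀ v : V, ∏ k : frobKer H hH, cj V F hFV (k : F) v = 1 := by
    intro v
    have hmem : ((∏ k : frobKer H hH, cj V F hFV (k : F) v : V) : G) ∈
        V ⊓ Subgroup.centralizer (Subtype.val '' Cfsg.frobeniusKernel H : Set G) := by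
      refine ⟨Subtype.property _, ?_⟩
      refine Subgroup.mem_centralizer_iff.mpr ?_
      rintro g ⟨x, hx, rfl⟩
      have hxK : x ∈ frobKer H hH := by
        rw [← SetLike.mem_coe, coe_frobKer]
        exact hx
      exact norm_comm V F hFV (frobKer H hH) v x hxK
    rw [hCK, Subgroup.mem_bot] at hmem
    exact Subtype.ext hmem
  have hNH : ∀ v : V, ∏ h : H, cj V F hFV (h : F) v = 1 := by
    intro v
    have hmem : ((∏ h : H, cj V F hFV (h : F) v : V) : G) ∈
        V ⊓ Subgroup.centralizer ((H.map F.subtype : Subgroup G) : Set G) := by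
      refine ⟨Subtype.property _, ?_⟩
      refine Subgroup.mem_centralizer_iff.mpr ?_
      rintro g ⟨x, hx, rfl⟩
      exact norm_comm V F hFV H v x hx
    rw [hCH, Subgroup.mem_bot] at hmem
    exact Subtype.ext hmem
  -- the total product is trivial
  have hT : ∀ v : V, ∏ f : F, cj V F hFV f v = 1 := by
    intro v
    have hbij : Function.Bijective (fun x : (frobKer H hH) × H => (x.1 : F) * (x.2 : F)) :=
      frobKer_isComplement' H hH
    rw [← Fintype.prod_bijective _ hbij (fun x : (frobKer H hH) × H =>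
      cj V F hFV ((x.1 : F) * (x.2 : F)) v) (fun f => cj V F hFV f v) (fun x => rfl)]
    rw [Fintype.prod_prod_type_right' (fun (k : frobKer H hH) (h : H) =>
      cj V F hFV ((k : F) * (h : F)) v)]
    apply Finset.prod_eq_one
    intro h _
    rw [← hNK (cj V F hFV (h : F) v)]
    apply Finset.prod_congr rfl
    intro k _
    rw [cj_mul]
  -- the partition of F
  have hP : ∀ v : V, ∏ f : F, cj V F hFV f v =
      (∏ k : frobKer H hH, cj V F hFV (k : F) v) *
        ∏ k : frobKer H hH, ∏ h : {h : H // h ≠ 1},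
          cj V F hFV ((k : F) * ((h : H) : F) * (k : F)⁻¹) v := by
    intro v
    rw [← Fintype.prod_bijective _ (psi_bij H hH) (fun x =>
      cj V F hFV (psi (frobKer H hH) H x) v)
      (fun f => cj V F hFV f v) (fun x => rfl)]
    rw [Fintype.prod_sum_type]
    congr 1
    rw [← Fintype.prod_prod_type' (fun (k : frobKer H hH) (h : {h : H // h ≠ 1}) =>
      cj V F hFV ((k : F) * ((h : H) : F) * (k : F)⁻¹) v)]
    rfl
  -- inner products
  have hI0 : ∀ w : V, ∏ h : {h : H // h ≠ 1}, cj V F hFV ((h : H) : F) w = w⁻¹ := by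
    intro w
    have h1 : ∏ h : {h : H // h ≠ 1}, cj V F hFV ((h : H) : F) w
        = ∏ h ∈ (Finset.univ : Finset H).erase 1, cj V F hFV (h : F) w := by
      rw [Finset.prod_subtype ((Finset.univ : Finset H).erase 1) (p := fun h : H => h ≠ 1)
        (by intro x; simp) (fun h : H => cj V F hFV (h : F) w)]
    have h2 := Finset.mul_prod_erase (Finset.univ : Finset H) (fun h : H => cj V F hFV (h : F) w)
      (Finset.mem_univ 1)
    rw [hNH w] at h2
    have h3 : cj V F hFV ((1 : H) : F) w = w := cj_one V F hFV w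
    rw [h3] at h2
    rw [h1]
    exact (eq_inv_of_mul_eq_one_right h2)
  have hI : ∀ (v : V) (k : frobKer H hH), ∏ h : {h : H // h ≠ 1},
      cj V F hFV ((k : F) * ((h : H) : F) * (k : F)⁻¹) v = v⁻¹ := by
    intro v k
    have h1 : ∏ h : {h : H // h ≠ 1}, cj V F hFV ((k : F) * ((h : H) : F) * (k : F)⁻¹) v
        = cj V F hFV (k : F) (∏ h : {h : H // h ≠ 1},
            cj V F hFV ((h : H) : F) (cj V F hFV (k : F)⁻¹ v)) := by
      rw [map_prod]
      apply Finset.prod_congr rfl
      intro h _
      rw [cj_mul, cj_mul]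
    rw [h1, hI0, map_inv, ← cj_mul, mul_inv_cancel, cj_one]
  have hpow : ∀ v : V, v ^ Fintype.card (frobKer H hH) = 1 := by
    intro v
    have h1 := hP v
    rw [hT v, hNK v, one_mul] at h1
    have h2 : ∏ k : frobKer H hH, ∏ h : {h : H // h ≠ 1},
        cj V F hFV ((k : F) * ((h : H) : F) * (k : F)⁻¹) v = ∏ _k : frobKer H hH, v⁻¹ :=
      Finset.prod_congr rfl (fun k _ => hI v k)
    rw [h2, Finset.prod_const, Finset.card_univ, inv_pow] at h1
    exact inv_eq_one.mp h1.symm
  have hcardK : Nat.card (Cfsg.frobeniusKernel H) = Fintype.card (frobKer H hH) := by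
    rw [← Nat.card_eq_fintype_card, ← coe_frobKer H hH]
    rfl
  apply hV1
  rw [Subgroup.eq_bot_iff_forall]
  intro x hx
  have h1 := hpow ⟨x, hx⟩
  have h2 : orderOf (⟨x, hx⟩ : V) ∣ Fintype.card (frobKer H hH) := orderOf_dvd_of_pow_eq_one h1
  have h3 : orderOf (⟨x, hx⟩ : V) ∣ Nat.card V := orderOf_dvd_natCard _
  rw [hcardK] at hcop
  have h4 : orderOf (⟨x, hx⟩ : V) = 1 := Nat.eq_one_of_dvd_coprimes hcop h3 h2
  have h5 := orderOf_eq_one_iff.mp h4
  exact congrArg Subtype.val h5

end Cfsg.Agent.S0666
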