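import Cfsg.Statements.S0668
import Mathlib

set_option autoImplicit false
open Cfsg

namespace Cfsg.Agent.S0668

/-- The equivariant linear maps between the permutation modules of two finite `G`-sets form a space whose dimension is the number of `G`-orbits on the product of the two sets. -/
theorem result {G : Type*} [Group G] {K : Type*} [Field K] {Ω₁ Ω₂ : Type*} [Fintype Ω₁] [Fintype Ω₂] [MulAction G Ω₁] [MulAction G Ω₂] : Module.finrank K ((Cfsg.permRep K G Ω₁).linHom (Cfsg.permRep K G Ω₂)).invariants = Nat.card (MulAction.orbitRel.Quotient G (Ω₁ × Ω₂)) := by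
  classical
  have hfinQ : Fintype (MulAction.orbitRel.Quotient G (Ω₁ × Ω₂)) := Fintype.ofFinite _
  let mkq : Ω₁ × Ω₂ → MulAction.orbitRel.Quotient G (Ω₁ × Ω₂) :=
    Quotient.mk (MulAction.orbitRel G (Ω₁ × Ω₂))
  have hmk : ∀ (g : G) (a : Ω₁ × Ω₂), mkq (g • a) = mkq a := fun g a => Quotient.sound ⟨g, rfl⟩
  let Φ : (MulAction.orbitRel.Quotient G (Ω₁ × Ω₂) → K) →ₗ[K] ((Ω₁ → K) →ₗ[K] (Ω₂ → K)) :=
    { toFun := fun c =>
        { toFun := fun v y => ∑ x, c (mkq (x, y)) * v x
          map_add' := by
            intro v w; funext y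
            simp [mul_add, Finset.sum_add_distrib]
          map_smul' := by
            intro r v; funext y
            simp [Finset.mul_sum, mul_left_comm] }
      map_add' := by
        intro c d
        apply LinearMap.ext
        intro v
        funext y
        simp [add_mul, Finset.sum_add_distrib]
      map_smul' := by
        intro r c
        apply LinearMap.ext
        intro v
        funext y
        simp [Finset.mul_sum, mul_assoc] }
  have hΦ : ∀ c v y, Φ c v y = ∑ x, c (mkq (x, y)) * v x := fun c v y => rfl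
  have hsingle : ∀ (c : MulAction.orbitRel.Quotient G (Ω₁ × Ω₂) → K) (x : Ω₁) (r : K) (y : Ω₂),
      Φ c (Pi.single x r) y = c (mkq (x, y)) * r := by
    intro c x r y
    rw [hΦ, Finset.sum_eq_single x]
    · rw [Pi.single_eq_same]
    · intro b _ hb
      rw [Pi.single_eq_of_ne hb, mul_zero]
    · intro h; exact absurd (Finset.mem_univ x) h
  have hinj : Function.Injective Φ := by
    rw [injective_iff_map_eq_zero]
    intro c hc
    funext q
    induction q using Quotient.inductionOn with
    | _ a =>
      obtain ⟨x, y⟩ := a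
      have h1 := hsingle c x 1 y
      rw [hc, mul_one] at h1
      exact h1.symm
  have hrange : LinearMap.range Φ =
      ((Cfsg.permRep K G Ω₁).linHom (Cfsg.permRep K G Ω₂)).invariants := by
    ext f
    rw [LinearMap.mem_range, Representation.mem_invariants]
    constructor
    · rintro ⟨c, rfl⟩ g
      apply LinearMap.ext
      intro v
      funext y
      rw [Representation.linHom_apply]
      show Φ c (Cfsg.permRep K G Ω₁ g⁻¹ v) (g⁻¹ • y) = Φ c v y
      rw [hΦ, hΦ]
      refine Fintype.sum_equiv (MulAction.toPerm g) _ _ ?_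
      intro x
      show c (mkq (x, g⁻¹ • y)) * v (g⁻¹⁻¹ • x) = c (mkq (g • x, y)) * v (g • x)
      rw [inv_inv]
      have h1 : (g • x, y) = g • (x, g⁻¹ • y) := by
        rw [Prod.smul_mk, smul_inv_smul]
      rw [h1, hmk]
    · intro hf
      have key : ∀ (g : G) (x : Ω₁) (y : Ω₂),
          f (Pi.single (g • x) 1) (g • y) = f (Pi.single x 1) y := by
        intro g x y
        have h1 := congrFun (congrArg
          (fun F : (Ω₁ → K) →ₗ[K] (Ω₂ → K) => F (Pi.single (g • x) 1)) (hf g)) (g • y)
        have h2 : Cfsg.permRep K G Ω₁ g⁻¹ (Pi.single (g • x) 1) = Pi.single x 1 := by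
          funext z
          show (Pi.single (g • x) (1 : K) : Ω₁ → K) (g⁻¹⁻¹ • z) = (Pi.single x (1 : K) : Ω₁ → K) z
          rw [inv_inv]
          by_cases hz : z = x
          · rw [hz, Pi.single_eq_same, Pi.single_eq_same]
          · rw [Pi.single_eq_of_ne hz, Pi.single_eq_of_ne]
            exact fun h => hz (smul_left_cancel g h)
        have h3 : (Cfsg.permRep K G Ω₂ g ∘ₗ f ∘ₗ Cfsg.permRep K G Ω₁ g⁻¹)
            (Pi.single (g • x) 1) (g • y) = f (Pi.single x 1) y := by
          show f (Cfsg.permRep K G Ω₁ g⁻¹ (Pi.single (g • x) 1)) (g⁻¹ • g • y) = _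
          rw [h2, inv_smul_smul]
        rw [Representation.linHom_apply] at h1
        exact h1.symm.trans h3
      let c : MulAction.orbitRel.Quotient G (Ω₁ × Ω₂) → K :=
        Quotient.lift (fun a : Ω₁ × Ω₂ => f (Pi.single a.1 1) a.2) (by
          rintro a b ⟨g, hg⟩
          have hg' : g • b = a := hg
          rw [← hg']
          exact key g b.1 b.2)
      refine ⟨c, ?_⟩
      apply LinearMap.pi_ext
      intro x r
      funext y
      rw [hsingle]
      show f (Pi.single x 1) y * r = f (Pi.single x r) y
      have h4 : (Pi.single x r : Ω₁ → K) = r • Pi.single x 1 := by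
        rw [← Pi.single_smul, smul_eq_mul, mul_one]
      rw [h4, map_smul, Pi.smul_apply, smul_eq_mul, mul_comm]
  rw [← hrange, LinearMap.finrank_range_of_inj hinj, Module.finrank_fintype_fun_eq_card,
    Nat.card_eq_fintype_card]

end Cfsg.Agent.S0668
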