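import Cfsg.Statements.S0669
import Mathlib

set_option autoImplicit false
open Cfsg

namespace Cfsg.Agent.S0669

open MulAction

/-- The map from orbits of a point stabiliser to orbits on pairs. -/
def pairMap {G : Type*} [Group G] {Ω : Type*} [MulAction G Ω] (a : Ω) :
    orbitRel.Quotient (stabilizer G a) Ω → orbitRel.Quotient G (Ω × Ω) :=
  Quotient.map' (fun x => (a, x)) (by
    intro x x' h
    change x ∈ orbit (stabilizer G a) x' at h
    change (a, x) ∈ orbit G (a, x')
    obtain ⟨g, rfl⟩ := h
    refine ⟨(g : G), ?_⟩
    show ((g : G) • a, (g : G) • x') = (a, g • x')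
    rw [g.2]
    rfl)

theorem pairMap_bijective {G : Type*} [Group G] {Ω : Type*} [MulAction G Ω]
    [IsPretransitive G Ω] (a : Ω) : Function.Bijective (pairMap (G := G) a) := by
  constructor
  · intro q q'
    induction q using Quotient.inductionOn' with
    | h x =>
    induction q' using Quotient.inductionOn' with
    | h x' =>
    intro h
    have h' : (a, x) ∈ orbit G (a, x') := Quotient.exact' h
    obtain ⟨g, hg⟩ := h'
    have hg1 : g • a = a := congrArg Prod.fst hg
    have hg2 : g • x' = x := congrArg Prod.snd hg
    apply Quotient.sound'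
    change x ∈ orbit (stabilizer G a) x'
    exact ⟨⟨g, hg1⟩, hg2⟩
  · intro q
    induction q using Quotient.inductionOn' with
    | h yz =>
    obtain ⟨y, z⟩ := yz
    obtain ⟨g, hg⟩ := exists_smul_eq G y a
    refine ⟨Quotient.mk'' (g • z), ?_⟩
    apply Quotient.sound'
    change (a, g • z) ∈ orbit G (y, z)
    refine ⟨g, ?_⟩
    show (g • y, g • z) = (a, g • z)
    rw [hg]

/-- The rank of a transitive action: orbits on ordered pairs correspond to orbits of a point stabiliser. -/
theorem result {G : Type*} [Group G] {Ω : Type*} [Finite Ω] [MulAction G Ω] [MulAction.IsPretransitive G Ω] (a : Ω) : Nat.card (MulAction.orbitRel.Quotient G (Ω × Ω)) = Nat.card (MulAction.orbitRel.Quotient (MulAction.stabilizer G a) Ω) := by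
  exact (Nat.card_congr (Equiv.ofBijective _ (pairMap_bijective (G := G) a))).symm

end Cfsg.Agent.S0669
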