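import Cfsg.Statements.S0670
import Mathlib

set_option autoImplicit false
open Cfsg

namespace Cfsg.Agent.S0670

/-- In characteristic `p`, the permutation module of a transitive action of degree `p ^ f` has the line of constant functions as its only irreducible submodule: every non-zero subrepresentation contains it. -/
theorem result {G : Type*} [Group G] [Finite G] {K : Type*} [Field K] {p f : ℕ} [Fact p.Prime] [CharP K p] {Ω : Type*} [Fintype Ω] [MulAction G Ω] [MulAction.IsPretransitive G Ω] (hf : 1 ≤ f) (hcard : Fintype.card Ω = p ^ f) (W : Subrepresentation (Cfsg.permRep K G Ω)) (hW : W.toSubmodule ≠ ⊥) : (Cfsg.permConstants K G Ω).toSubmodule ≤ W.toSubmodule := by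
  classical
  obtain ⟨w, hwW, hw0⟩ := (Submodule.ne_bot_iff _).mp hW
  have hρ : ∀ (g : G) (v : Ω → K) (x : Ω), Cfsg.permRep K G Ω g v x = v (g⁻¹ • x) :=
    fun g v x => rfl
  obtain ⟨P⟩ : Nonempty (Sylow p G) := inferInstance
  have hPtrans : ∀ x y : Ω, ∃ g ∈ (P : Subgroup G), g • x = y := by
    intro x y
    have hidx : (MulAction.stabilizer G x).index = p ^ f := by
      rw [MulAction.index_stabilizer_of_transitive, Nat.card_eq_fintype_card, hcard]
    have hD1 := Subgroup.relIndex_mul_index
      (inf_le_left : (P : Subgroup G) ⊓ MulAction.stabilizer G x ≤ P)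
    have hD2 := Subgroup.relIndex_mul_index
      (inf_le_right : (P : Subgroup G) ⊓ MulAction.stabilizer G x ≤ MulAction.stabilizer G x)
    have hdvd : p ^ f ∣ ((P : Subgroup G) ⊓ MulAction.stabilizer G x).relIndex P := by
      have h3 : p ^ f ∣ ((P : Subgroup G) ⊓ MulAction.stabilizer G x).relIndex P *
          (P : Subgroup G).index := by
        rw [hD1, ← hD2, hidx]; exact dvd_mul_left _ _
      have hcop : Nat.Coprime (p ^ f) (P : Subgroup G).index := by
        apply Nat.Coprime.pow_left
        rw [Nat.Prime.coprime_iff_not_dvd Fact.out]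
        exact P.not_dvd_index
      exact hcop.dvd_of_dvd_mul_right h3
    have horb : ((P : Subgroup G) ⊓ MulAction.stabilizer G x).relIndex P =
        (MulAction.orbit (P : Subgroup G) x).ncard := by
      rw [Subgroup.inf_relIndex_left, ← MulAction.index_stabilizer]
      rfl
    have hle : (MulAction.orbit (P : Subgroup G) x).ncard ≤ p ^ f := by
      rw [← hcard, ← Nat.card_eq_fintype_card]
      exact Set.ncard_le_card _
    have hpos : 0 < (MulAction.orbit (P : Subgroup G) x).ncard := by
      rw [Set.ncard_pos]
      exact MulAction.nonempty_orbit x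
    have heq : (MulAction.orbit (P : Subgroup G) x).ncard = Nat.card Ω := by
      rw [Nat.card_eq_fintype_card, hcard]
      exact le_antisymm hle (Nat.le_of_dvd hpos (horb ▸ hdvd))
    have huniv : MulAction.orbit (P : Subgroup G) x = Set.univ :=
      (Set.eq_univ_iff_ncard _).mpr heq
    have hy : y ∈ MulAction.orbit (P : Subgroup G) x := by rw [huniv]; trivial
    obtain ⟨⟨g, hg⟩, hgy⟩ := hy
    exact ⟨g, hg, hgy⟩
  have hfix : ∃ u ∈ W.toSubmodule, u ≠ 0 ∧
      ∀ g ∈ (P : Subgroup G), Cfsg.permRep K G Ω g u = u := by
    let _ := ZMod.algebra K p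
    let U : Submodule (ZMod p) (Ω → K) := Submodule.span (ZMod p)
      (Set.range (fun g : (P : Subgroup G) => Cfsg.permRep K G Ω (g : G) w))
    have hUfin : Finite U := by
      have hmf : Module.Finite (ZMod p) U :=
        Module.Finite.span_of_finite (ZMod p) (Set.finite_range _)
      exact Module.finite_of_finite (ZMod p)
    have hUW : ∀ u ∈ U, u ∈ W.toSubmodule := by
      intro u hu
      have hle : U ≤ W.toSubmodule.restrictScalars (ZMod p) := by
        rw [Submodule.span_le]
        rintro _ ⟨g, rfl⟩
        exact W.apply_mem_toSubmodule (g : G) hwW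
      exact hle hu
    have hUinv : ∀ g ∈ (P : Subgroup G), ∀ u ∈ U, Cfsg.permRep K G Ω g u ∈ U := by
      intro g hg u hu
      induction hu using Submodule.span_induction with
      | mem v hv =>
        obtain ⟨h, rfl⟩ := hv
        apply Submodule.subset_span
        refine ⟨⟨g, hg⟩ * h, ?_⟩
        show Cfsg.permRep K G Ω (g * h) w = Cfsg.permRep K G Ω g (Cfsg.permRep K G Ω h w)
        rw [map_mul]; rfl
      | zero => rw [map_zero]; exact U.zero_mem
      | add a b _ _ ha hb => rw [map_add]; exact U.add_mem ha hb
      | smul c a _ ha =>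
        have hsm : Cfsg.permRep K G Ω g (c • a) = c • Cfsg.permRep K G Ω g a := by
          rw [← algebraMap_smul K c a, map_smul, algebraMap_smul]
        rw [hsm]; exact U.smul_mem c ha
    let act : MulAction (P : Subgroup G) U :=
      { smul := fun g u => ⟨Cfsg.permRep K G Ω (g : G) u, hUinv g g.2 u u.2⟩
        one_smul := fun u => Subtype.ext (by
          show Cfsg.permRep K G Ω (1 : G) u = u
          rw [map_one]; rfl)
        mul_smul := fun g h u => Subtype.ext (by
          show Cfsg.permRep K G Ω ((g : G) * h) u =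
            Cfsg.permRep K G Ω g (Cfsg.permRep K G Ω h u)
          rw [map_mul]; rfl) }
    have hPG : IsPGroup p (P : Subgroup G) := P.isPGroup'
    have hw_U : w ∈ U := Submodule.subset_span ⟨1, by
      show Cfsg.permRep K G Ω (1 : G) w = w
      rw [map_one]; rfl⟩
    have hdvd : p ∣ Nat.card U := by
      have hPU : IsPGroup p (Multiplicative U) := by
        intro v
        refine ⟨1, ?_⟩
        rw [pow_one]
        have h0 : p • Multiplicative.toAdd v = 0 := by
          apply Subtype.ext
          funext x
          simp [CharP.cast_eq_zero K p]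
        exact congrArg Multiplicative.ofAdd h0
      have hnt : Nontrivial (Multiplicative U) :=
        ⟨⟨Multiplicative.ofAdd ⟨w, hw_U⟩, 1, fun h => hw0
          (congrArg (fun v : Multiplicative U => ((Multiplicative.toAdd v : U) : Ω → K)) h)⟩⟩
      rcases hPU.card_eq_or_dvd with h | h
      · have h1 := Finite.one_lt_card (α := Multiplicative U)
        omega
      · exact h
    have h0 : (0 : U) ∈ MulAction.fixedPoints (P : Subgroup G) U := by
      intro g
      apply Subtype.ext
      show Cfsg.permRep K G Ω (g : G) 0 = 0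
      rw [map_zero]
    obtain ⟨b, hb, hb0⟩ := hPG.exists_fixed_point_of_prime_dvd_card_of_fixed_point U hdvd h0
    refine ⟨b, hUW b b.2, ?_, ?_⟩
    · intro h; exact hb0 (Subtype.ext h.symm)
    · intro g hg
      exact congrArg Subtype.val (hb ⟨g, hg⟩)
  obtain ⟨u, huW, hu0, hufix⟩ := hfix
  obtain ⟨x₀, hx₀⟩ : ∃ x, u x ≠ 0 := by
    by_contra h
    push Not at h
    exact hu0 (funext h)
  have hconst : ∀ x, u x = u x₀ := by
    intro x
    obtain ⟨g, hg, hgx⟩ := hPtrans x x₀
    have h1 := congrFun (hufix g⁻¹ (inv_mem hg)) x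
    rw [hρ, inv_inv, hgx] at h1
    exact h1.symm
  have h1 : (fun _ : Ω => (1 : K)) = (u x₀)⁻¹ • u := by
    funext x
    simp [hconst x, hx₀]
  show (Submodule.span K {fun _ => (1 : K)}) ≤ W.toSubmodule
  rw [Submodule.span_le, Set.singleton_subset_iff, h1]
  exact W.toSubmodule.smul_mem _ huW

end Cfsg.Agent.S0670
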