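import Cfsg.Statements.S0671
import Cfsg.Agent.S0670

set_option autoImplicit false
open Cfsg

namespace Cfsg.Agent.S0671

/-- If the heart of the permutation module in characteristic `p` of a transitive action of degree `p ^ f` has no trivial composition factor, the action is doubly transitive. The hypothesis is phrased without composition series: no invariant subspaces `W < W'` between the constants and the sum-zero functions with trivial action on the quotient. -/
theorem result {G : Type*} [Group G] [Finite G] {K : Type*} [Field K] {p f : ℕ} [Fact p.Prime] [CharP K p] {Ω : Type*} [Fintype Ω] [MulAction G Ω] [MulAction.IsPretransitive G Ω] (hf : 1 ≤ f) (hcard : Fintype.card Ω = p ^ f) (h : ∀ W W' : Subrepresentation (Cfsg.permRep K G Ω), (Cfsg.permConstants K G Ω).toSubmodule ≤ W.toSubmodule → W.toSubmodule < W'.toSubmodule → W'.toSubmodule ≤ (Cfsg.permSumZero K G Ω).toSubmodule → ∃ g : G, ∃ v ∈ W'.toSubmodule, Cfsg.permRep K G Ω g v - v ∉ W.toSubmodule) : MulAction.IsMultiplyPretransitive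 G Ω 2 := by
  classical
  by_contra hcon
  have hp : p.Prime := Fact.out
  rw [MulAction.is_two_pretransitive_iff] at hcon
  push Not at hcon
  obtain ⟨a, b, c, d, hab, hcd, hno⟩ := hcon
  set Δ : Ω → Finset Ω :=
    fun x => Finset.univ.filter (fun y => ∃ g : G, g • a = x ∧ g • b = y) with hΔ
  have hΔmem : ∀ x y, y ∈ Δ x ↔ ∃ g : G, g • a = x ∧ g • b = y := by
    intro x y
    simp [hΔ]
  have hΔimg : ∀ (g : G) (x : Ω), Δ (g • x) = (Δ x).image (fun y => g • y) := by
    intro g x
    ext y
    rw [Finset.mem_image, hΔmem]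
    constructor
    · rintro ⟨k, h1, h2⟩
      refine ⟨g⁻¹ • y, (hΔmem _ _).mpr ⟨g⁻¹ * k, ?_, ?_⟩, smul_inv_smul g y⟩
      · rw [mul_smul, h1, inv_smul_smul]
      · rw [mul_smul, h2]
    · rintro ⟨y', hy', rfl⟩
      obtain ⟨k, h1, h2⟩ := (hΔmem _ _).mp hy'
      exact ⟨g * k, by rw [mul_smul, h1], by rw [mul_smul, h2]⟩
  have hΔsum : ∀ (g : G) (x : Ω) (f : Ω → K),
      ∑ y ∈ Δ (g • x), f y = ∑ y ∈ Δ x, f (g • y) := by
    intro g x f
    rw [hΔimg, Finset.sum_image (fun y _ z _ h => MulAction.injective g h)]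
  set m := (Δ a).card with hm
  have hΔcard : ∀ x, (Δ x).card = m := by
    intro x
    obtain ⟨g, rfl⟩ := MulAction.exists_smul_eq G a x
    rw [hΔimg, Finset.card_image_of_injective _ (MulAction.injective g)]
  have hbΔ : b ∈ Δ a := (hΔmem _ _).mpr ⟨1, one_smul _ _, one_smul _ _⟩
  obtain ⟨k, hk⟩ := MulAction.exists_smul_eq G c a
  have hd' : k • d ∉ Δ a := by
    intro hmem
    obtain ⟨g, h1, h2⟩ := (hΔmem _ _).mp hmem
    apply hno (k⁻¹ * g)
    · rw [mul_smul, h1, ← hk, inv_smul_smul]
    · rw [mul_smul, h2, inv_smul_smul]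
  have hd'a : k • d ≠ a := by
    intro h
    apply hcd
    rw [← hk] at h
    exact (MulAction.injective k h).symm
  let φ : (Ω → K) →ₗ[K] (Ω → K) :=
    { toFun := fun f x => ∑ y ∈ Δ x, f y - (m : K) * f x
      map_add' := by
        intro f1 f2
        funext x
        simp only [Pi.add_apply, Finset.sum_add_distrib]
        ring
      map_smul' := by
        intro c f
        funext x
        simp only [Pi.smul_apply, smul_eq_mul, ← Finset.mul_sum, RingHom.id_apply]
        ring }
  have hφ : ∀ (f : Ω → K) (x : Ω), φ f x = ∑ y ∈ Δ x, f y - (m : K) * f x := fun f x => rfl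
  have hρ : ∀ (g : G) (v : Ω → K) (x : Ω), Cfsg.permRep K G Ω g v x = v (g⁻¹ • x) :=
    fun g v x => rfl
  have hcomm : ∀ (g : G) (v : Ω → K),
      φ (Cfsg.permRep K G Ω g v) = Cfsg.permRep K G Ω g (φ v) := by
    intro g v
    funext x
    simp only [hφ, hρ]
    rw [hΔsum]
  have hone_sum : ∑ _x : Ω, (1 : K) = 0 := by
    rw [Finset.sum_const, Finset.card_univ, hcard, nsmul_eq_mul, mul_one, Nat.cast_pow,
      CharP.cast_eq_zero K p, zero_pow (by omega)]
  have hφone : φ (fun _ => 1) = 0 := by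
    funext x
    rw [hφ]
    simp [hΔcard]
  let W : Subrepresentation (Cfsg.permRep K G Ω) :=
    { toSubmodule := (Cfsg.permSumZero K G Ω).toSubmodule ⊓ LinearMap.ker φ
      apply_mem_toSubmodule := by
        intro g v hv
        rw [Submodule.mem_inf] at hv ⊢
        refine ⟨(Cfsg.permSumZero K G Ω).apply_mem_toSubmodule g hv.1, ?_⟩
        rw [LinearMap.mem_ker, hcomm, LinearMap.mem_ker.mp hv.2, map_zero] }
  let W' : Subrepresentation (Cfsg.permRep K G Ω) :=
    { toSubmodule := (Cfsg.permSumZero K G Ω).toSubmodule ⊓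
        (Cfsg.permConstants K G Ω).toSubmodule.comap φ
      apply_mem_toSubmodule := by
        intro g v hv
        rw [Submodule.mem_inf] at hv ⊢
        refine ⟨(Cfsg.permSumZero K G Ω).apply_mem_toSubmodule g hv.1, ?_⟩
        rw [Submodule.mem_comap, hcomm]
        exact (Cfsg.permConstants K G Ω).apply_mem_toSubmodule g hv.2 }
  let U : Subrepresentation (Cfsg.permRep K G Ω) :=
    { toSubmodule := (Cfsg.permSumZero K G Ω).toSubmodule.map φ
      apply_mem_toSubmodule := by
        rintro g _ ⟨v, hv, rfl⟩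
        exact ⟨Cfsg.permRep K G Ω g v,
          (Cfsg.permSumZero K G Ω).apply_mem_toSubmodule g hv, hcomm g v⟩ }
  have hU : U.toSubmodule ≠ ⊥ := by
    intro hbot
    have hf0 : (Pi.single b 1 - Pi.single (k • d) 1 : Ω → K) ∈
        (Cfsg.permSumZero K G Ω).toSubmodule := by
      show ∑ x, (Pi.single b 1 - Pi.single (k • d) 1 : Ω → K) x = 0
      simp [Finset.sum_sub_distrib]
    have h1 : φ (Pi.single b 1 - Pi.single (k • d) 1) ∈ U.toSubmodule := ⟨_, hf0, rfl⟩
    rw [hbot, Submodule.mem_bot] at h1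
    have h2 := congrFun h1 a
    rw [hφ] at h2
    simp [Finset.sum_sub_distrib, Pi.single_apply, hbΔ, hd', hab, hd'a.symm] at h2
  have hconstU := Cfsg.Agent.S0670.result hf hcard U hU
  obtain ⟨v, hv, hv1⟩ : ∃ v ∈ (Cfsg.permSumZero K G Ω).toSubmodule, φ v = fun _ => 1 := by
    have h1 : (fun _ => (1 : K)) ∈ U.toSubmodule :=
      hconstU (Submodule.subset_span (Set.mem_singleton _))
    exact h1
  have hW1 : (Cfsg.permConstants K G Ω).toSubmodule ≤ W.toSubmodule := by
    show Submodule.span K {fun _ => 1} ≤ _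
    rw [Submodule.span_singleton_le_iff_mem]
    exact Submodule.mem_inf.mpr ⟨hone_sum, LinearMap.mem_ker.mpr hφone⟩
  have hWW' : W.toSubmodule < W'.toSubmodule := by
    rw [lt_iff_le_and_ne]
    refine ⟨fun u hu => ?_, ?_⟩
    · have hu' := Submodule.mem_inf.mp hu
      refine Submodule.mem_inf.mpr ⟨hu'.1, ?_⟩
      rw [Submodule.mem_comap, LinearMap.mem_ker.mp hu'.2]
      exact Submodule.zero_mem _
    · intro heq
      have hvW' : v ∈ W'.toSubmodule :=
        Submodule.mem_inf.mpr ⟨hv, by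
          rw [Submodule.mem_comap, hv1]; exact Submodule.subset_span (Set.mem_singleton _)⟩
      rw [← heq] at hvW'
      have h1 := LinearMap.mem_ker.mp (Submodule.mem_inf.mp hvW').2
      rw [hv1] at h1
      have h2 := congrFun h1 a
      simp at h2
  have hW'2 : W'.toSubmodule ≤ (Cfsg.permSumZero K G Ω).toSubmodule := inf_le_left
  obtain ⟨g, u, hu, hgu⟩ := h W W' hW1 hWW' hW'2
  apply hgu
  have hu' := Submodule.mem_inf.mp hu
  refine Submodule.mem_inf.mpr
    ⟨Submodule.sub_mem _ ((Cfsg.permSumZero K G Ω).apply_mem_toSubmodule g hu'.1) hu'.1, ?_⟩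
  rw [LinearMap.mem_ker, map_sub, hcomm]
  have hc : φ u ∈ (Cfsg.permConstants K G Ω).toSubmodule := hu'.2
  change φ u ∈ Submodule.span K {fun _ => 1} at hc
  rw [Submodule.mem_span_singleton] at hc
  obtain ⟨c', hc'⟩ := hc
  rw [← hc']
  funext x
  simp [hρ]

end Cfsg.Agent.S0671
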