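import Cfsg.Statements.S0672
import Mathlib

set_option autoImplicit false
open Cfsg

namespace Cfsg.Agent.S0672

open scoped Pointwise in
theorem core {G : Type*} [Group G] [Finite G] {K : Type*} [Field K]
    {Ω : Type*} [Fintype Ω] [DecidableEq Ω] [MulAction G Ω] [FaithfulSMul G Ω]
    (h2 : ∀ {a b c d : Ω}, a ≠ b → c ≠ d → ∃ g : G, g • a = c ∧ g • b = d)
    (htr : MulAction.IsPretransitive G (Set.powersetCard Ω 2))
    (hone : ∑ _x : Ω, (1 : K) = 0)
    (heven : ∀ a : Ω, Even (Nat.card (MulAction.stabilizer G a)))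
    (h : ∀ f : Representation.IntertwiningMap (Cfsg.permSumZero K G Ω).toRepresentation
        (Cfsg.permRep K G (Set.powersetCard Ω 2)),
      (∀ v : (Cfsg.permSumZero K G Ω).toSubmodule,
        (v : Ω → K) ∈ (Cfsg.permConstants K G Ω).toSubmodule → f v = 0) → f = 0)
    (a0 b0 : Ω) (hab : a0 ≠ b0) (c0 c : Ω) (hc0a : c0 ≠ a0) (hc0b : c0 ≠ b0) (hca : c ≠ a0)
    (hcb : c ≠ b0) : ∃ g : G, g • a0 = a0 ∧ g • b0 = b0 ∧ g • c0 = c := by
  classical
  set s0 : Set.powersetCard Ω 2 := ⟨{a0, b0}, Finset.card_pair hab⟩ with hs0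
  have hmem0 : ∀ x : Ω, x ∈ (s0 : Finset Ω) ↔ x = a0 ∨ x = b0 := by
    intro x
    simp [hs0]
  -- elements stabilising the pair fix or swap its points
  have hstab : ∀ g : G, g • s0 = s0 →
      (g • a0 = a0 ∧ g • b0 = b0) ∨ (g • a0 = b0 ∧ g • b0 = a0) := by
    intro g hg
    have hcoe : g • (s0 : Finset Ω) = (s0 : Finset Ω) := by
      rw [← Set.powersetCard.coe_smul, hg]
    have ha : g • a0 ∈ (s0 : Finset Ω) := by
      rw [← hcoe]
      exact Finset.smul_mem_smul_finset ((hmem0 a0).mpr (Or.inl rfl))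
    have hb : g • b0 ∈ (s0 : Finset Ω) := by
      rw [← hcoe]
      exact Finset.smul_mem_smul_finset ((hmem0 b0).mpr (Or.inr rfl))
    rw [hmem0] at ha hb
    have hne : g • a0 ≠ g • b0 := fun h => hab (MulAction.injective g h)
    rcases ha with ha | ha <;> rcases hb with hb | hb
    · exact absurd (ha.trans hb.symm) hne
    · exact Or.inl ⟨ha, hb⟩
    · exact Or.inr ⟨ha, hb⟩
    · exact absurd (ha.trans hb.symm) hne
  have hnotmem : ∀ (g : G) (z : Ω), g • s0 = s0 → z ≠ a0 → z ≠ b0 → g • z ≠ a0 ∧ g • z ≠ b0 := by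
    intro g z hg hza hzb
    rcases hstab g hg with ⟨h1, h2⟩ | ⟨h1, h2⟩
    · exact ⟨fun h => hza (MulAction.injective g (h.trans h1.symm)),
        fun h => hzb (MulAction.injective g (h.trans h2.symm))⟩
    · exact ⟨fun h => hzb (MulAction.injective g (h.trans h2.symm)),
        fun h => hza (MulAction.injective g (h.trans h1.symm))⟩
  -- the orbit sets
  set orb : Ω → Set.powersetCard Ω 2 → Finset Ω :=
    fun z s => Finset.univ.filter (fun c => ∃ g : G, g • s0 = s ∧ g • z = c) with horb
  have horbmem : ∀ z s c, c ∈ orb z s ↔ ∃ g : G, g • s0 = s ∧ g • z = c := by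
    intro z s c
    simp [horb]
  have horbimg : ∀ (z : Ω) (g : G) (s : Set.powersetCard Ω 2),
      orb z (g • s) = (orb z s).image (fun y => g • y) := by
    intro z g s
    ext y
    rw [Finset.mem_image, horbmem]
    constructor
    · rintro ⟨k, h1, h2⟩
      refine ⟨g⁻¹ • y, (horbmem _ _ _).mpr ⟨g⁻¹ * k, ?_, ?_⟩, smul_inv_smul g y⟩
      · rw [mul_smul, h1, inv_smul_smul]
      · rw [mul_smul, h2]
    · rintro ⟨y', hy', rfl⟩
      obtain ⟨k, h1, h2⟩ := (horbmem _ _ _).mp hy'
      exact ⟨g * k, by rw [mul_smul, h1], by rw [mul_smul, h2]⟩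
  have horbsum : ∀ (z : Ω) (g : G) (s : Set.powersetCard Ω 2) (f : Ω → K),
      ∑ y ∈ orb z (g • s), f y = ∑ y ∈ orb z s, f (g • y) := by
    intro z g s f
    rw [horbimg, Finset.sum_image (fun y _ w _ h => MulAction.injective g h)]
  have horbcard : ∀ (z : Ω) (s : Set.powersetCard Ω 2), (orb z s).card = (orb z s0).card := by
    intro z s
    obtain ⟨g, rfl⟩ := MulAction.exists_smul_eq G s0 s
    rw [horbimg, Finset.card_image_of_injective _ (MulAction.injective g)]
  have horbself : ∀ z, z ∈ orb z s0 := fun z => (horbmem _ _ _).mpr ⟨1, one_smul _ _, one_smul _ _⟩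
  have horba : ∀ z, z ≠ a0 → z ≠ b0 → a0 ∉ orb z s0 := by
    intro z hza hzb hmem
    obtain ⟨g, h1, h2⟩ := (horbmem _ _ _).mp hmem
    exact (hnotmem g z h1 hza hzb).1 h2
  -- the operators
  let A : Ω → (Ω → K) →ₗ[K] (Set.powersetCard Ω 2 → K) := fun z =>
    { toFun := fun f s => ∑ y ∈ orb z s, f y
      map_add' := by
        intro f1 f2
        funext s
        simp only [Pi.add_apply, Finset.sum_add_distrib]
      map_smul' := by
        intro c f
        funext s
        simp only [Pi.smul_apply, smul_eq_mul, ← Finset.mul_sum, RingHom.id_apply] }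
  have hA : ∀ z (f : Ω → K) s, A z f s = ∑ y ∈ orb z s, f y := fun z f s => rfl
  have hρ : ∀ (g : G) (v : Ω → K) (x : Ω), Cfsg.permRep K G Ω g v x = v (g⁻¹ • x) :=
    fun g v x => rfl
  have hρ2 : ∀ (g : G) (v : Set.powersetCard Ω 2 → K) (s : Set.powersetCard Ω 2),
      Cfsg.permRep K G (Set.powersetCard Ω 2) g v s = v (g⁻¹ • s) := fun g v s => rfl
  have hAcomm : ∀ z (g : G) (f : Ω → K),
      A z (Cfsg.permRep K G Ω g f) = Cfsg.permRep K G (Set.powersetCard Ω 2) g (A z f) := by
    intro z g f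
    funext s
    simp only [hA, hρ, hρ2]
    rw [horbsum]
  have hAone : ∀ z, A z (fun _ => 1) = fun _ => ((orb z s0).card : K) := by
    intro z
    funext s
    rw [hA]
    simp [horbcard z s]
  -- the key consequence of the hypothesis
  have key : ∀ L : (Ω → K) →ₗ[K] (Set.powersetCard Ω 2 → K),
      (∀ (g : G) (f : Ω → K),
        L (Cfsg.permRep K G Ω g f) = Cfsg.permRep K G (Set.powersetCard Ω 2) g (L f)) →
      L (fun _ => 1) = 0 → ∀ v ∈ (Cfsg.permSumZero K G Ω).toSubmodule, L v = 0 := by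
    intro L hL h1 v hv
    let F : Representation.IntertwiningMap (Cfsg.permSumZero K G Ω).toRepresentation
        (Cfsg.permRep K G (Set.powersetCard Ω 2)) :=
      LinearMap.intertwiningMap_of_isIntertwiningMap _ _
        (L ∘ₗ (Cfsg.permSumZero K G Ω).toSubmodule.subtype) (fun g w => hL g w.1)
    have hF := h F (by
      intro w hw
      change (w : Ω → K) ∈ Submodule.span K {fun _ => 1} at hw
      rw [Submodule.mem_span_singleton] at hw
      obtain ⟨c', hc'⟩ := hw
      show L (w : Ω → K) = 0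
      rw [← hc', map_smul, h1, smul_zero])
    have h3 := congrArg (fun F' : Representation.IntertwiningMap
      (Cfsg.permSumZero K G Ω).toRepresentation
        (Cfsg.permRep K G (Set.powersetCard Ω 2)) => F' ⟨v, hv⟩) hF
    exact h3
  -- transitivity of the pair stabiliser on the remaining points
  have claimA : ∀ z c : Ω, z ≠ a0 → z ≠ b0 → c ≠ a0 → c ≠ b0 →
      ∃ g : G, g • s0 = s0 ∧ g • z = c := by
    intro z c1 hza hzb hc1a hc1b
    by_contra hcon
    have hc1 : c1 ∉ orb z s0 := fun hmem => hcon ((horbmem _ _ _).mp hmem)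
    have hsz : ∀ u : Ω, u ≠ a0 →
        (Pi.single u 1 - Pi.single a0 1 : Ω → K) ∈ (Cfsg.permSumZero K G Ω).toSubmodule := by
      intro u _
      show ∑ x, (Pi.single u 1 - Pi.single a0 1 : Ω → K) x = 0
      simp [Finset.sum_sub_distrib]
    by_cases hm : ((orb z s0).card : K) = 0
    · have h1 := key (A z) (hAcomm z) (by rw [hAone, hm]; rfl) _ (hsz z hza)
      have h2 := congrFun h1 s0
      rw [hA] at h2
      simp [Finset.sum_sub_distrib, Pi.single_apply, horbself z, horba z hza hzb] at h2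
    · have h1 := key (((orb c1 s0).card : K) • A z - ((orb z s0).card : K) • A c1)
        (by
          intro g f
          simp only [LinearMap.sub_apply, LinearMap.smul_apply, hAcomm, map_sub, map_smul])
        (by
          simp only [LinearMap.sub_apply, LinearMap.smul_apply, hAone]
          funext s
          simp only [Pi.sub_apply, Pi.smul_apply, smul_eq_mul, Pi.zero_apply]
          ring) _ (hsz c1 hc1a)
      have h2 := congrFun h1 s0
      simp only [LinearMap.sub_apply, LinearMap.smul_apply, Pi.sub_apply, Pi.smul_apply, hA,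
        smul_eq_mul, Pi.zero_apply] at h2
      simp [Finset.sum_sub_distrib, Pi.single_apply, horbself c1, horba z hza hzb,
        horba c1 hc1a hc1b, hc1] at h2
      exact hm h2
  -- an involution swapping `a0` and `b0` and fixing a third point
  obtain ⟨t, ht⟩ := exists_prime_orderOf_dvd_card' 2 (even_iff_two_dvd.mp (heven a0))
  set T : G := t.1 with hT
  have hTa : T • a0 = a0 := t.2
  have hT2 : T * T = 1 := by
    have h1 : t ^ 2 = 1 := by rw [← ht]; exact pow_orderOf_eq_one t
    have h2 := congrArg (fun u : MulAction.stabilizer G a0 => (u : G)) h1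
    simpa [pow_two] using h2
  have hT1 : T ≠ 1 := by
    intro h1
    have h2 : t = 1 := Subtype.ext h1
    rw [h2, orderOf_one] at ht
    omega
  obtain ⟨x, hx⟩ : ∃ x : Ω, T • x ≠ x := by
    by_contra hcon
    push Not at hcon
    exact hT1 (FaithfulSMul.eq_of_smul_eq_smul (α := Ω) (fun a => by rw [hcon a, one_smul]))
  have hTT : T • T • x = x := by rw [← mul_smul, hT2, one_smul]
  obtain ⟨k, hkx, hky⟩ := h2 (a := x) (b := T • x) (c := a0) (d := b0) hx.symm hab
  have hxa : a0 ≠ x := by
    intro h1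
    rw [← h1] at hx
    exact hx hTa
  have hya : a0 ≠ T • x := by
    intro h1
    have h3 : T • a0 = x := by rw [h1]; exact hTT
    rw [hTa] at h3
    exact hxa h3
  set t' : G := k * T * k⁻¹ with ht'
  set z : Ω := k • a0 with hz
  have ht'a : t' • a0 = b0 := by
    rw [ht', mul_smul, mul_smul, ← hkx, inv_smul_smul, hky]
  have ht'b : t' • b0 = a0 := by
    rw [ht', mul_smul, mul_smul, ← hky, inv_smul_smul, hTT, hkx]
  have ht'z : t' • z = z := by
    rw [ht', hz, mul_smul, mul_smul, inv_smul_smul, hTa]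
  have hza : z ≠ a0 := by
    intro h1
    have h3 : k • a0 = k • x := h1.trans hkx.symm
    exact hxa (MulAction.injective k h3)
  have hzb : z ≠ b0 := by
    intro h1
    have h3 : k • a0 = k • T • x := h1.trans hky.symm
    exact hya (MulAction.injective k h3)
  have claimB : ∀ c1 : Ω, c1 ≠ a0 → c1 ≠ b0 → ∃ g : G, g • a0 = a0 ∧ g • b0 = b0 ∧ g • z = c1 := by
    intro c1 hc1a hc1b
    obtain ⟨g, hg, hgz⟩ := claimA z c1 hza hzb hc1a hc1b
    rcases hstab g hg with ⟨h1, h2⟩ | ⟨h1, h2⟩
    · exact ⟨g, h1, h2, hgz⟩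
    · exact ⟨g * t', by rw [mul_smul, ht'a, h2], by rw [mul_smul, ht'b, h1],
        by rw [mul_smul, ht'z, hgz]⟩
  obtain ⟨g1, g1a, g1b, g1z⟩ := claimB c0 hc0a hc0b
  obtain ⟨g2, g2a, g2b, g2z⟩ := claimB c hca hcb
  refine ⟨g2 * g1⁻¹, ?_, ?_, ?_⟩
  · rw [mul_smul, inv_smul_eq_iff.mpr g1a.symm, g2a]
  · rw [mul_smul, inv_smul_eq_iff.mpr g1b.symm, g2b]
  · rw [mul_smul, inv_smul_eq_iff.mpr g1z.symm, g2z]

/-- Let a finite group act faithfully and doubly transitively with point stabilisers of even order, and let `K` have characteristic `p` dividing the degree. If the heart of the permutation module admits no non-zero equivariant map to the permutation module on unordered pairs (phrased: every intertwining map from the sum-zero functions vanishing on the constants is zero), the action is triply transitive. -/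
theorem result {G : Type*} [Group G] [Finite G] {K : Type*} [Field K] {p : ℕ} [Fact p.Prime] [CharP K p] {Ω : Type*} [Fintype Ω] [DecidableEq Ω] [MulAction G Ω] [FaithfulSMul G Ω] (h2 : MulAction.IsMultiplyPretransitive G Ω 2) (hp : p ∣ Fintype.card Ω) (heven : ∀ a : Ω, Even (Nat.card (MulAction.stabilizer G a))) (h : ∀ f : Representation.IntertwiningMap (Cfsg.permSumZero K G Ω).toRepresentation (Cfsg.permRep K G (Set.powersetCard Ω 2)), (∀ v : (Cfsg.permSumZero K G Ω).toSubmodule, (v : Ω → K) ∈ (Cfsg.permConstants K G Ω).toSubmodule → f v = 0) → f = 0) : MulAction.IsMultiplyPretransitive G Ω 3 := by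
  classical
  have hpp : p.Prime := Fact.out
  have htr : MulAction.IsPretransitive G (Set.powersetCard Ω 2) :=
    Set.powersetCard.isPretransitive_of_isMultiplyPretransitive (G := G) (α := Ω) (n := 2) h2
  have h2' : ∀ {a b c d : Ω}, a ≠ b → c ≠ d → ∃ g : G, g • a = c ∧ g • b = d :=
    MulAction.is_two_pretransitive_iff.mp h2
  have hone : ∑ _x : Ω, (1 : K) = 0 := by
    rw [Finset.sum_const, Finset.card_univ, nsmul_eq_mul, mul_one]
    obtain ⟨q, hq⟩ := hp
    rw [hq, Nat.cast_mul, CharP.cast_eq_zero K p, zero_mul]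
  constructor
  intro x y
  have hx01 : x 0 ≠ x 1 := x.injective.ne (by decide)
  have hx02 : x 0 ≠ x 2 := x.injective.ne (by decide)
  have hx12 : x 1 ≠ x 2 := x.injective.ne (by decide)
  have hy01 : y 0 ≠ y 1 := y.injective.ne (by decide)
  have hy02 : y 0 ≠ y 2 := y.injective.ne (by decide)
  have hy12 : y 1 ≠ y 2 := y.injective.ne (by decide)
  obtain ⟨k, hk0, hk1⟩ := h2' hx01 hy01
  have hkx0 : k • x 2 ≠ y 0 := fun h => hx02 (MulAction.injective k (hk0.trans h.symm))
  have hkx1 : k • x 2 ≠ y 1 := fun h => hx12 (MulAction.injective k (hk1.trans h.symm))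
  obtain ⟨g, hg0, hg1, hg2⟩ := core h2' htr hone heven h (y 0) (y 1) hy01 (k • x 2) (y 2)
    hkx0 hkx1 hy02.symm hy12.symm
  refine ⟨g * k, ?_⟩
  apply DFunLike.ext
  intro i
  rw [Function.Embedding.smul_apply]
  fin_cases i
  · show (g * k) • x 0 = y 0
    rw [mul_smul, hk0, hg0]
  · show (g * k) • x 1 = y 1
    rw [mul_smul, hk1, hg1]
  · show (g * k) • x 2 = y 2
    rw [mul_smul, hg2]

end Cfsg.Agent.S0672
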