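import Cfsg.Statements.S0673
import Mathlib

set_option autoImplicit false
open Cfsg

namespace Cfsg.Agent.S0673

open Polynomial

/-- Evaluation of polynomials on the image of `ZMod p`. -/
noncomputable def ev (p : ℕ) (K : Type*) [Field K] : K[X] →ₗ[K] (ZMod p → K) where
  toFun P j := P.eval (ZMod.cast j : K)
  map_add' P Q := by funext j; simp
  map_smul' c P := by funext j; simp

/-- Polynomial functions of degree less than `r`. -/
noncomputable def polyFun (p : ℕ) (K : Type*) [Field K] (r : ℕ) : Submodule K (ZMod p → K) :=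
  (degreeLT K r).map (ev p K)

/-- The shift operator. -/
def shift (p : ℕ) (K : Type*) [Field K] : (ZMod p → K) →ₗ[K] (ZMod p → K) where
  toFun f j := f (j - 1)
  map_add' _ _ := rfl
  map_smul' _ _ := rfl

section

variable {p : ℕ} [Fact p.Prime] {K : Type*} [Field K] [CharP K p]

theorem shift_ev (P : K[X]) : shift p K (ev p K P) = ev p K (P.comp (X - C 1)) := by
  funext j
  show P.eval (ZMod.cast (j - 1) : K) = (P.comp (X - C 1)).eval (ZMod.cast j : K)
  rw [eval_comp, eval_sub, eval_X, eval_C, ZMod.cast_sub', ZMod.cast_one']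

theorem ev_injOn {r : ℕ} (hr : r ≤ p) {P : K[X]} (hP : P ∈ degreeLT K r)
    (hev : ev p K P = 0) : P = 0 := by
  by_cases hP0 : P = 0
  · exact hP0
  have hdeg : P.natDegree < r := (natDegree_lt_iff_degree_lt hP0).mpr (mem_degreeLT.mp hP)
  have hinj : Function.Injective (fun j : ZMod p => (ZMod.cast j : K)) :=
    ZMod.castHom_injective K
  exact eq_zero_of_natDegree_lt_card_of_eval_eq_zero P hinj (fun j => congrFun hev j)
    (by rw [ZMod.card]; omega)

theorem finrank_polyFun {r : ℕ} (hr : r ≤ p) : Module.finrank K (polyFun p K r) = r := by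
  have h1 : polyFun p K r = LinearMap.range ((ev p K).domRestrict (degreeLT K r)) :=
    (LinearMap.range_domRestrict _ _).symm
  have hinj : Function.Injective ((ev p K).domRestrict (degreeLT K r)) := by
    rw [injective_iff_map_eq_zero]
    intro P hP
    exact Subtype.ext (ev_injOn hr P.2 hP)
  rw [h1, LinearMap.finrank_range_of_inj hinj, (degreeLTEquiv K r).finrank_eq,
    Module.finrank_fin_fun]

theorem polyFun_zero : polyFun p K 0 = ⊥ := by
  rw [← Submodule.finrank_eq_zero]
  exact finrank_polyFun (Nat.zero_le p)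

theorem polyFun_succ (n : ℕ) :
    polyFun p K (n + 1) = polyFun p K n ⊔ Submodule.span K {ev p K (X ^ n)} := by
  classical
  unfold polyFun
  rw [degreeLT_eq_span_X_pow, degreeLT_eq_span_X_pow, Finset.range_add_one, Finset.image_insert,
    Finset.coe_insert, Submodule.span_insert, Submodule.map_sup, Submodule.map_span,
    Set.image_singleton, sup_comm]

theorem polyFun_mono {m n : ℕ} (h : m ≤ n) : polyFun p K m ≤ polyFun p K n :=
  Submodule.map_mono (degreeLT_mono h)

theorem polyFun_top : polyFun p K p = ⊤ := by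
  apply Submodule.eq_top_of_finrank_eq
  rw [finrank_polyFun le_rfl, Module.finrank_fintype_fun_eq_card, ZMod.card]

theorem ev_pow_mem (n : ℕ) : ev p K (X ^ n) ∈ polyFun p K (n + 1) := by
  rw [polyFun_succ]
  exact Submodule.mem_sup_right (Submodule.mem_span_singleton_self _)

theorem ev_pow_notMem {n : ℕ} (hn : n < p) : ev p K (X ^ n) ∉ polyFun p K n := by
  intro h
  have h1 : polyFun p K (n + 1) = polyFun p K n := by
    rw [polyFun_succ]
    apply sup_eq_left.mpr
    rw [Submodule.span_le, Set.singleton_subset_iff]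
    exact h
  have h2 := finrank_polyFun (K := K) (show n + 1 ≤ p by omega)
  rw [h1, finrank_polyFun (by omega)] at h2
  omega

theorem delta_pow_succ (n : ℕ) :
    shift p K (ev p K (X ^ (n + 1))) - ev p K (X ^ (n + 1)) + ((n + 1 : ℕ) : K) • ev p K (X ^ n) ∈
      polyFun p K n := by
  have h1 : shift p K (ev p K (X ^ (n + 1))) - ev p K (X ^ (n + 1)) +
      ((n + 1 : ℕ) : K) • ev p K (X ^ n) =
      ev p K ((X + C (-1)) ^ (n + 1) - X ^ (n + 1) + C ((n + 1 : ℕ) : K) * X ^ n) := by
    rw [shift_ev, X_pow_comp, map_add, map_sub, ← smul_eq_C_mul, map_smul, C_neg,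
      ← sub_eq_add_neg]
  rw [h1]
  refine ⟨_, ?_, rfl⟩
  rw [SetLike.mem_coe, mem_degreeLT, degree_lt_iff_coeff_zero]
  intro m hm
  rw [coeff_add, coeff_sub, coeff_X_add_C_pow, coeff_X_pow, coeff_C_mul, coeff_X_pow]
  rcases Nat.lt_or_ge m (n + 1) with h | h
  · have hmn : m = n := by omega
    subst hmn
    have h2 : m + 1 - m = 1 := by omega
    rw [h2, Nat.choose_succ_self_right]
    simp
  · rcases Nat.eq_or_lt_of_le h with h3 | h3
    · subst h3
      simp
    · have h4 : (n + 1).choose m = 0 := Nat.choose_eq_zero_of_lt h3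
      have h5 : m ≠ n + 1 := by omega
      have h6 : m ≠ n := by omega
      simp [h4, h5, h6]

theorem delta_pow_zero : shift p K (ev p K (X ^ 0)) - ev p K (X ^ 0) = 0 := by
  rw [shift_ev, X_pow_comp, pow_zero, pow_zero, sub_self]

theorem delta_polyFun (r : ℕ) : ∀ f ∈ polyFun p K (r + 1), shift p K f - f ∈ polyFun p K r := by
  induction r with
  | zero =>
    intro f hf
    rw [polyFun_succ, polyFun_zero, bot_sup_eq] at hf
    obtain ⟨c, rfl⟩ := Submodule.mem_span_singleton.mp hf
    rw [map_smul, ← smul_sub, delta_pow_zero, smul_zero]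
    exact Submodule.zero_mem _
  | succ k ih =>
    intro f hf
    rw [polyFun_succ] at hf
    obtain ⟨m, hm, y, hy, rfl⟩ := Submodule.mem_sup.mp hf
    obtain ⟨c, rfl⟩ := Submodule.mem_span_singleton.mp hy
    have h1 : shift p K (m + c • ev p K (X ^ (k + 1))) - (m + c • ev p K (X ^ (k + 1))) =
        (shift p K m - m) + c • ((shift p K (ev p K (X ^ (k + 1))) - ev p K (X ^ (k + 1)) +
          ((k + 1 : ℕ) : K) • ev p K (X ^ k)) - ((k + 1 : ℕ) : K) • ev p K (X ^ k)) := by
      rw [map_add, map_smul]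
      simp only [smul_sub, smul_add]
      abel
    rw [h1]
    apply Submodule.add_mem
    · exact polyFun_mono (Nat.le_succ k) (ih m hm)
    · apply Submodule.smul_mem
      apply Submodule.sub_mem
      · exact polyFun_mono (Nat.le_succ k) (delta_pow_succ k)
      · exact Submodule.smul_mem _ _ (ev_pow_mem k)

theorem key (W : Submodule K (ZMod p → K)) (hW : ∀ f ∈ W, shift p K f ∈ W) :
    ∀ n : ℕ, n + 1 ≤ p → ∀ f ∈ W, f ∈ polyFun p K (n + 1) → f ∉ polyFun p K n →
      polyFun p K (n + 1) ≤ W := by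
  intro n
  induction n with
  | zero =>
    intro _ f hfW hf1 hf0
    rw [polyFun_succ, polyFun_zero, bot_sup_eq] at hf1 ⊢
    obtain ⟨c, rfl⟩ := Submodule.mem_span_singleton.mp hf1
    have hc : c ≠ 0 := by
      rintro rfl
      rw [zero_smul] at hf0
      exact hf0 (Submodule.zero_mem _)
    rw [Submodule.span_le, Set.singleton_subset_iff]
    have h1 : ev p K (X ^ 0) = c⁻¹ • (c • ev p K (X ^ 0)) := by
      rw [smul_smul, inv_mul_cancel₀ hc, one_smul]
    rw [h1]
    exact W.smul_mem _ hfW
  | succ k ih =>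
    intro hkp f hfW hf1 hf0
    have hf1' := hf1
    rw [polyFun_succ] at hf1
    obtain ⟨m, hm, y, hy, rfl⟩ := Submodule.mem_sup.mp hf1
    obtain ⟨c, rfl⟩ := Submodule.mem_span_singleton.mp hy
    have hc : c ≠ 0 := by
      rintro rfl
      rw [zero_smul, add_zero] at hf0
      exact hf0 hm
    -- the difference
    have hdW : shift p K (m + c • ev p K (X ^ (k + 1))) - (m + c • ev p K (X ^ (k + 1))) ∈ W :=
      W.sub_mem (hW _ hfW) hfW
    have hdM : shift p K (m + c • ev p K (X ^ (k + 1))) - (m + c • ev p K (X ^ (k + 1))) ∈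
        polyFun p K (k + 1) := delta_polyFun (k + 1) _ hf1'
    have hdN : shift p K (m + c • ev p K (X ^ (k + 1))) - (m + c • ev p K (X ^ (k + 1))) ∉
        polyFun p K k := by
      intro hd
      have h1 : (c * ((k + 1 : ℕ) : K)) • ev p K (X ^ k) =
          (shift p K m - m) + c • (shift p K (ev p K (X ^ (k + 1))) - ev p K (X ^ (k + 1)) +
            ((k + 1 : ℕ) : K) • ev p K (X ^ k)) -
          (shift p K (m + c • ev p K (X ^ (k + 1))) - (m + c • ev p K (X ^ (k + 1)))) := by
        rw [map_add, map_smul]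
        simp only [smul_sub, smul_add, mul_smul]
        abel
      have h2 : (c * ((k + 1 : ℕ) : K)) • ev p K (X ^ k) ∈ polyFun p K k := by
        rw [h1]
        apply Submodule.sub_mem
        · apply Submodule.add_mem
          · exact delta_polyFun k m hm
          · exact Submodule.smul_mem _ _ (delta_pow_succ k)
        · exact hd
      have hk0 : ((k + 1 : ℕ) : K) ≠ 0 := by
        rw [Ne, CharP.cast_eq_zero_iff K p]
        intro hdvd
        have := Nat.le_of_dvd (Nat.succ_pos k) hdvd
        omega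
      have hne : c * ((k + 1 : ℕ) : K) ≠ 0 := mul_ne_zero hc hk0
      have h3 : ev p K (X ^ k) = (c * ((k + 1 : ℕ) : K))⁻¹ •
          ((c * ((k + 1 : ℕ) : K)) • ev p K (X ^ k)) := by
        rw [smul_smul, inv_mul_cancel₀ hne, one_smul]
      have h4 : ev p K (X ^ k) ∈ polyFun p K k := by
        rw [h3]
        exact Submodule.smul_mem _ _ h2
      exact ev_pow_notMem (by omega) h4
    have hle : polyFun p K (k + 1) ≤ W := ih (by omega) _ hdW hdM hdN
    rw [polyFun_succ]
    apply sup_le hle
    rw [Submodule.span_le, Set.singleton_subset_iff]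
    have h5 : c • ev p K (X ^ (k + 1)) ∈ W := by
      have h6 := W.sub_mem hfW (hle hm)
      rwa [add_sub_cancel_left] at h6
    have h7 : ev p K (X ^ (k + 1)) = c⁻¹ • (c • ev p K (X ^ (k + 1))) := by
      rw [smul_smul, inv_mul_cancel₀ hc, one_smul]
    rw [h7]
    exact W.smul_mem _ h5

end

/-- In characteristic `p`, the translation-invariant subspaces of the space of functions on `ZMod p` are exactly the spaces of polynomial functions of degree less than `r`, one for each `r ≤ p`, of dimension `r`. -/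
theorem result {p : ℕ} [Fact p.Prime] {K : Type*} [Field K] [CharP K p] (W : Submodule K (ZMod p → K)) (hW : ∀ f ∈ W, (fun j => f (j - 1)) ∈ W) : ∃ r : ℕ, r ≤ p ∧ Module.finrank K W = r ∧ ∀ f : ZMod p → K, f ∈ W ↔ ∃ P : Polynomial K, P.degree < r ∧ ∀ j : ZMod p, f j = P.eval (ZMod.cast j : K) := by
  classical
  have hW' : ∀ f ∈ W, shift p K f ∈ W := hW
  have hex : ∃ r, W ≤ polyFun p K r := ⟨p, by rw [polyFun_top]; exact le_top⟩
  obtain ⟨r, hr, hmin⟩ : ∃ r, W ≤ polyFun p K r ∧ ∀ m < r, ¬ W ≤ polyFun p K m :=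
    ⟨Nat.find hex, Nat.find_spec hex, fun m hm => Nat.find_min hex hm⟩
  have hrp : r ≤ p := by
    by_contra hlt
    exact hmin p (by omega) (by rw [polyFun_top]; exact le_top)
  have hWeq : W = polyFun p K r := by
    rcases Nat.eq_zero_or_pos r with h0 | hpos
    · rw [h0, polyFun_zero] at hr ⊢
      exact le_bot_iff.mp hr
    · obtain ⟨n, hn⟩ := Nat.exists_eq_succ_of_ne_zero (Nat.pos_iff_ne_zero.mp hpos)
      have hnot : ¬ W ≤ polyFun p K n := hmin n (by omega)
      obtain ⟨f, hfW, hfn⟩ := SetLike.not_le_iff_exists.mp hnot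
      rw [hn] at hr hrp ⊢
      exact le_antisymm hr (key W hW' n hrp f hfW (hr hfW) hfn)
  refine ⟨r, hrp, by rw [hWeq, finrank_polyFun hrp], fun f => ?_⟩
  rw [hWeq]
  unfold polyFun
  rw [Submodule.mem_map]
  constructor
  · rintro ⟨P, hP, rfl⟩
    exact ⟨P, mem_degreeLT.mp hP, fun j => rfl⟩
  · rintro ⟨P, hP, hf⟩
    exact ⟨P, mem_degreeLT.mpr hP, (funext hf).symm⟩

end Cfsg.Agent.S0673
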