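import Cfsg.Statements.S0674
import Cfsg.Agent.Lib.Helper20.PrimeDegMod
import Cfsg.Agent.S0673

set_option autoImplicit false
open Cfsg

namespace Cfsg.Agent.S0674

/-- Let `G` be a non-solvable transitive permutation group of prime degree `p` and `K` a field of characteristic `p`. Then the heart of the permutation module is irreducible: an invariant subspace containing the constants and contained in the sum-zero functions is one or the other. -/
theorem result {α : Type*} [Fintype α] [DecidableEq α] {p : ℕ} [Fact p.Prime] (hα : Fintype.card α = p) (G : Subgroup (Equiv.Perm α)) [MulAction.IsPretransitive G α] (hG : ¬ Group.IsSolvable G) {K : Type*} [Field K] [CharP K p] (W : Subrepresentation (Cfsg.permRep K G α)) (h₁ : (Cfsg.permConstants K G α).toSubmodule ≤ W.toSubmodule) (h₂ : W.toSubmodule ≤ (Cfsg.permSumZero K G α).toSubmodule) : W = Cfsg.permConstants K G α ∨ W = Cfsg.permSumZero K G α := by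
  classical
  have hp : p.Prime := Fact.out
  have hp2 := hp.two_le
  have hNZ : NeZero p := ⟨hp.ne_zero⟩
  obtain ⟨e, σ, hσG, hστ⟩ := Cfsg.Agent.Lib.Helper20.PrimeDeg.exists_equiv_zmod hα G
  set W' : Submodule K (ZMod p → K) :=
    W.toSubmodule.comap (LinearMap.funLeft K K e.symm) with hW'
  have hmemW' : ∀ f : ZMod p → K, f ∈ W' ↔ (fun x => f (e.symm x)) ∈ W.toSubmodule :=
    fun f => Iff.rfl
  have hinvW : ∀ g ∈ G, ∀ f ∈ W', (fun j => f (e.symm (g (e j)))) ∈ W' := by
    intro g hg f hf
    rw [hmemW'] at hf ⊢
    have h1 := W.apply_mem_toSubmodule (⟨g, hg⟩⁻¹ : G) hf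
    convert h1 using 1
    funext x
    simp only [Equiv.apply_symm_apply]
    show _ = f (e.symm (((⟨g, hg⟩ : G)⁻¹)⁻¹ • x))
    rw [inv_inv]
    rfl
  have hσinv' : ∀ j, e.symm (σ⁻¹ (e j)) = j - 1 := by
    intro j
    rw [Equiv.symm_apply_eq, Equiv.Perm.inv_eq_iff_eq, ← hστ, sub_add_cancel]
  have htransW : ∀ f ∈ W', (fun j => f (j - 1)) ∈ W' := by
    intro f hf
    have := hinvW σ⁻¹ (G.inv_mem hσG) f hf
    simpa only [hσinv'] using this
  obtain ⟨r, hrp, hrank, hchar⟩ := Cfsg.Agent.S0673.result W' htransW
  have hnotaff : ¬ ∀ g ∈ G, ∃ a c : ZMod p, ∀ x, e.symm (g (e x)) = a * x + c :=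
    fun h => hG (Cfsg.Agent.Lib.Helper20.PrimeDeg.isSolvable_of_affine G e h)
  have hg01 : ∀ g : Equiv.Perm α, e.symm (g (e 0)) ≠ e.symm (g (e 1)) := by
    intro g h
    exact zero_ne_one (e.injective (g.injective (e.symm.injective h)))
  have hsumpred : ∑ x : α, (ZMod.cast (e.symm x) : K) ^ (p - 1) = -1 := by
    rw [Fintype.sum_equiv e.symm _ (fun j : ZMod p => (ZMod.cast j : K) ^ (p - 1))
      (fun x => rfl)]
    exact Cfsg.Agent.Lib.Helper20.PrimeDeg.sum_cast_pow_pred K
  have hr1 : 1 ≤ r := by
    by_contra hcon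
    have hr0 : r = 0 := by omega
    have h1 : (fun _ : ZMod p => (1 : K)) ∈ W' := by
      rw [hmemW']
      apply h₁
      exact Submodule.subset_span (Set.mem_singleton _)
    rw [hchar] at h1
    obtain ⟨P, hPd, hP⟩ := h1
    rw [hr0] at hPd
    have hP0 : P = 0 := by
      by_contra hne
      have := (Polynomial.natDegree_lt_iff_degree_lt hne).mpr hPd
      omega
    rw [hP0] at hP
    simpa using hP 0
  have hrp1 : r ≤ p - 1 := by
    by_contra hcon
    have hrp' : r = p := by omega
    have h1 : (fun j : ZMod p => (ZMod.cast j : K) ^ (p - 1)) ∈ W' := by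
      rw [hchar]
      refine ⟨Polynomial.X ^ (p - 1), ?_, fun j => by simp⟩
      rw [Polynomial.degree_X_pow, hrp']
      exact_mod_cast (show p - 1 < p by omega)
    rw [hmemW'] at h1
    have h3 : ∑ x : α, (ZMod.cast (e.symm x) : K) ^ (p - 1) = 0 := h₂ h1
    rw [hsumpred] at h3
    simp at h3
  by_cases hr_one : r = 1
  · left
    apply Subrepresentation.toSubmodule_injective
    apply le_antisymm _ h₁
    intro v hv
    have h1 : (fun j => v (e j)) ∈ W' := by
      rw [hmemW']
      simpa using hv
    rw [hchar] at h1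
    obtain ⟨P, hPd, hP⟩ := h1
    rw [hr_one] at hPd
    have hPc : P.natDegree = 0 := by
      by_cases hP0 : P = 0
      · rw [hP0, Polynomial.natDegree_zero]
      · have := (Polynomial.natDegree_lt_iff_degree_lt hP0).mpr hPd
        omega
    have hc := Polynomial.eq_C_of_natDegree_eq_zero hPc
    show v ∈ Submodule.span K {fun _ => 1}
    rw [Submodule.mem_span_singleton]
    refine ⟨P.coeff 0, ?_⟩
    funext x
    have h2 := hP (e.symm x)
    rw [hc] at h2
    simp only [Equiv.apply_symm_apply, Polynomial.eval_C] at h2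
    simp [h2]
  by_cases hr_top : r = p - 1
  · right
    apply Subrepresentation.toSubmodule_injective
    apply le_antisymm h₂
    set S' : Submodule K (ZMod p → K) :=
      (Cfsg.permSumZero K G α).toSubmodule.comap (LinearMap.funLeft K K e.symm) with hS'
    have hWS : W' ≤ S' := Submodule.comap_mono h₂
    have hSne : S' ≠ ⊤ := by
      intro htop
      have h1 : (fun j : ZMod p => (ZMod.cast j : K) ^ (p - 1)) ∈ S' := by
        rw [htop]; trivial
      have h3 : ∑ x : α, (ZMod.cast (e.symm x) : K) ^ (p - 1) = 0 := h1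
      rw [hsumpred] at h3
      simp at h3
    have hfin : Module.finrank K S' < p := by
      have := Submodule.finrank_lt hSne
      rwa [Module.finrank_fintype_fun_eq_card, ZMod.card] at this
    have hEq : W' = S' :=
      Submodule.eq_of_le_of_finrank_le hWS (by rw [hrank, hr_top]; omega)
    intro v hv
    have h1 : (fun j => v (e j)) ∈ S' := by
      show (fun x => v (e (e.symm x))) ∈ (Cfsg.permSumZero K G α).toSubmodule
      simpa using hv
    rw [← hEq, hmemW'] at h1
    simpa using h1
  exfalso
  apply hnotaff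
  by_cases hsmall : 2 * (r - 1) ≤ p - 1
  · intro g hg
    exact Cfsg.Agent.Lib.Helper20.PrimeDeg.affine_of_invariant W' r (by omega) hsmall hchar
      (fun j => e.symm (g (e j))) (hg01 g) (hinvW g hg)
  · let V : Submodule K (ZMod p → K) :=
      { carrier := {h | ∀ f ∈ W', ∑ j, h j * f j = 0}
        add_mem' := by
          intro a b ha hb f hf
          simp only [Pi.add_apply, add_mul, Finset.sum_add_distrib]
          rw [ha f hf, hb f hf, add_zero]
        zero_mem' := by
          intro f hf
          simp
        smul_mem' := by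
          intro c a ha f hf
          simp only [Pi.smul_apply, smul_eq_mul, mul_assoc, ← Finset.mul_sum]
          rw [ha f hf, mul_zero] }
    have hmemV : ∀ h : ZMod p → K, h ∈ V ↔ ∀ f ∈ W', ∑ j, h j * f j = 0 := fun h => Iff.rfl
    have hinvV : ∀ g ∈ G, ∀ h ∈ V, (fun j => h (e.symm (g (e j)))) ∈ V := by
      intro g hg h hh
      rw [hmemV] at hh ⊢
      intro f hf
      have h1 := hh _ (hinvW g⁻¹ (G.inv_mem hg) f hf)
      rw [← h1]
      apply Fintype.sum_equiv (e.trans (g.trans e.symm))
      intro i
      simp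
    have htransV : ∀ h ∈ V, (fun j => h (j - 1)) ∈ V := by
      intro h hh
      have := hinvV σ⁻¹ (G.inv_mem hσG) h hh
      simpa only [hσinv'] using this
    obtain ⟨r', hr'p, hrank', hchar'⟩ := Cfsg.Agent.S0673.result V htransV
    have hr'2 : 2 ≤ r' := by
      have h1 : (fun j : ZMod p => (ZMod.cast j : K)) ∈ V := by
        rw [hmemV]
        intro f hf
        rw [hchar] at hf
        obtain ⟨P, hPd, hP⟩ := hf
        have h2 : ∀ j : ZMod p, (ZMod.cast j : K) * f j =
            (Polynomial.X * P).eval (ZMod.cast j : K) := by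
          intro j
          rw [hP j]
          simp
        rw [Finset.sum_congr rfl (fun j _ => h2 j)]
        apply Cfsg.Agent.Lib.Helper20.PrimeDeg.sum_eval_cast_eq_zero
        by_cases hP0 : P = 0
        · rw [hP0, mul_zero, Polynomial.natDegree_zero]; omega
        · have := (Polynomial.natDegree_lt_iff_degree_lt hP0).mpr hPd
          rw [Polynomial.natDegree_X_mul hP0]; omega
      rw [hchar'] at h1
      obtain ⟨Q, hQd, hQ⟩ := h1
      by_contra hcon
      have hQc : Q.natDegree = 0 := by
        by_cases hQ0 : Q = 0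
        · rw [hQ0, Polynomial.natDegree_zero]
        · have := (Polynomial.natDegree_lt_iff_degree_lt hQ0).mpr hQd
          omega
      have hc := Polynomial.eq_C_of_natDegree_eq_zero hQc
      have q0 := hQ 0
      have q1 := hQ 1
      rw [hc] at q0 q1
      simp only [ZMod.cast_zero, Polynomial.eval_C] at q0 q1
      have h11 : (ZMod.cast (1 : ZMod p) : K) = 1 := by
        have := (ZMod.castHom (dvd_refl p) K).map_one
        rwa [ZMod.castHom_apply] at this
      rw [h11] at q1
      exact zero_ne_one (q0.trans q1.symm)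
    have hr'le : r' ≤ p - r := by
      by_contra hcon
      have h1 : (fun j : ZMod p => (ZMod.cast j : K) ^ (p - r)) ∈ V := by
        rw [hchar']
        refine ⟨Polynomial.X ^ (p - r), ?_, fun j => by simp⟩
        rw [Polynomial.degree_X_pow]
        exact_mod_cast (show p - r < r' by omega)
      have h2 : (fun j : ZMod p => (ZMod.cast j : K) ^ (r - 1)) ∈ W' := by
        rw [hchar]
        refine ⟨Polynomial.X ^ (r - 1), ?_, fun j => by simp⟩
        rw [Polynomial.degree_X_pow]
        exact_mod_cast (show r - 1 < r by omega)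
      have h3 := (hmemV _).mp h1 _ h2
      simp only [← pow_add] at h3
      rw [show p - r + (r - 1) = p - 1 by omega,
        Cfsg.Agent.Lib.Helper20.PrimeDeg.sum_cast_pow_pred] at h3
      simp at h3
    intro g hg
    exact Cfsg.Agent.Lib.Helper20.PrimeDeg.affine_of_invariant V r' hr'2 (by omega) hchar'
      (fun j => e.symm (g (e j))) (hg01 g) (hinvV g hg)

end Cfsg.Agent.S0674
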