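import Cfsg.Statements.S0675
import Cfsg.Agent.Lib.Helper20.PrimeDeg

set_option autoImplicit false
open Cfsg

namespace Cfsg.Agent.S0675

/-- Burnside's Theorem on permutation groups of prime degree: a transitive permutation group of prime degree that is not solvable is doubly transitive. -/
theorem result {α : Type*} [Fintype α] [DecidableEq α] (hα : (Fintype.card α).Prime) (G : Subgroup (Equiv.Perm α)) [MulAction.IsPretransitive G α] : Group.IsSolvable G ∨ MulAction.IsMultiplyPretransitive G α 2 := by
  classical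
  have : Fact (Fintype.card α).Prime := ⟨hα⟩
  obtain ⟨e, σ, hσG, hστ⟩ :=
    Cfsg.Agent.Lib.Helper20.PrimeDeg.exists_equiv_zmod (p := Fintype.card α) rfl G
  set G' : Subgroup (Equiv.Perm (ZMod (Fintype.card α))) :=
    G.comap (e.permCongrHom : Equiv.Perm (ZMod (Fintype.card α)) →* Equiv.Perm α) with hG'
  have hmem : ∀ g' : Equiv.Perm (ZMod (Fintype.card α)), g' ∈ G' ↔ e.permCongrHom g' ∈ G :=
    fun g' => Iff.rfl
  have happ : ∀ (g' : Equiv.Perm (ZMod (Fintype.card α))) (x : ZMod (Fintype.card α)),
      e.permCongrHom g' (e x) = e (g' x) := by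
    intro g' x
    simp [Equiv.permCongrHom]
  have ht : Equiv.addRight (1 : ZMod (Fintype.card α)) ∈ G' := by
    rw [hmem]
    have h1 : e.permCongrHom (Equiv.addRight (1 : ZMod (Fintype.card α))) = σ := by
      apply Equiv.ext
      intro y
      obtain ⟨x, rfl⟩ := e.surjective y
      rw [happ, Equiv.coe_addRight, hστ]
    rw [h1]
    exact hσG
  rcases Cfsg.Agent.Lib.Helper20.PrimeDeg.affine_or_transitive G' ht with haff | htr
  · left
    apply Cfsg.Agent.Lib.Helper20.PrimeDeg.isSolvable_of_affine G e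
    intro g hg
    have h1 : e.permCongrHom.symm g ∈ G' := by
      rw [hmem, MulEquiv.apply_symm_apply]
      exact hg
    obtain ⟨a, c, hac⟩ := haff _ h1
    refine ⟨a, c, fun x => ?_⟩
    rw [← hac x]
    simp [Equiv.permCongrHom]
  · right
    rw [MulAction.is_two_pretransitive_iff]
    intro a b c d hab hcd
    obtain ⟨h1, hh1⟩ := MulAction.exists_smul_eq G a (e 0)
    obtain ⟨h2, hh2⟩ := MulAction.exists_smul_eq G c (e 0)
    have hb' : e.symm (h1 • b) ≠ 0 := by
      intro h
      rw [Equiv.symm_apply_eq] at h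
      exact hab (MulAction.injective h1 (hh1.trans h.symm))
    have hd' : e.symm (h2 • d) ≠ 0 := by
      intro h
      rw [Equiv.symm_apply_eq] at h
      exact hcd (MulAction.injective h2 (hh2.trans h.symm))
    obtain ⟨g', hg', hg0, hgb⟩ := htr _ _ hb' hd'
    refine ⟨h2⁻¹ * ⟨e.permCongrHom g', (hmem g').mp hg'⟩ * h1, ?_, ?_⟩
    · rw [mul_smul, mul_smul, hh1, inv_smul_eq_iff, hh2]
      show e.permCongrHom g' (e 0) = e 0
      rw [happ, hg0]
    · rw [mul_smul, mul_smul, inv_smul_eq_iff]
      show e.permCongrHom g' (h1 • b) = h2 • d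
      have h3 : h1 • b = e (e.symm (h1 • b)) := (e.apply_symm_apply _).symm
      rw [h3, happ, hgb, e.apply_symm_apply]

end Cfsg.Agent.S0675
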