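import Cfsg.Statements.S0676
import Cfsg.Agent.Lib.Helper20.PrimeDegInv
import Cfsg.Agent.S0674
import Cfsg.Agent.S0675

set_option autoImplicit false
open Cfsg

namespace Cfsg.Agent.S0676

theorem core {α : Type*} [Fintype α] [DecidableEq α] {p : ℕ} [Fact p.Prime]
    (hα : Fintype.card α = p) (G : Subgroup (Equiv.Perm α)) [MulAction.IsPretransitive G α]
    (hG : ¬ Group.IsSolvable G) (hp2 : p ≠ 2)
    (h2tr : ∀ {a b c d : α}, a ≠ b → c ≠ d → ∃ g : G, g • a = c ∧ g • b = d)
    (e : ZMod p ≃ α) (σ ν : Equiv.Perm α) (hσG : σ ∈ G) (hνG : ν ∈ G)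
    (hσ : ∀ i, σ (e i) = e (i + 1)) (hν : ∀ i, ν (e i) = e (-i)) :
    ∀ c, c ≠ e 1 → c ≠ e (-1) →
      ∃ g ∈ G, g (e 1) = e 1 ∧ g (e (-1)) = e (-1) ∧ g (e 0) = c := by
  classical
  have hp : p.Prime := Fact.out
  have hp3 : 3 ≤ p := by have := hp.two_le; omega
  have hNZ : NeZero p := ⟨hp.ne_zero⟩
  have h2ne : (2 : ZMod p) ≠ 0 := by
    intro h
    have h' : ((2 : ℕ) : ZMod p) = 0 := by exact_mod_cast h
    rw [ZMod.natCast_eq_zero_iff] at h'
    have := Nat.le_of_dvd (by norm_num) h'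
    omega
  have h01 : e 0 ≠ e 1 := fun h => zero_ne_one (e.injective h)
  have h0m : e 0 ≠ e (-1) := fun h => by
    have h' : (0 : ZMod p) = -1 := e.injective h
    exact one_ne_zero (neg_eq_zero.mp h'.symm)
  have h1m : e 1 ≠ e (-1) := fun h => by
    have h' : (1 : ZMod p) = -1 := e.injective h
    apply h2ne
    linear_combination h'
  set Γ : α → α → Finset α := fun a b =>
    Finset.univ.filter (fun c => ∃ g ∈ G, g (e 1) = a ∧ g (e (-1)) = b ∧ g (e 0) = c) with hΓ
  have hΓmem : ∀ a b c, c ∈ Γ a b ↔ ∃ g ∈ G, g (e 1) = a ∧ g (e (-1)) = b ∧ g (e 0) = c := by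
    intro a b c
    simp [hΓ]
  have hΓimg : ∀ g ∈ G, ∀ a b, Γ (g a) (g b) = (Γ a b).image g := by
    intro g hg a b
    ext c
    rw [Finset.mem_image, hΓmem]
    constructor
    · rintro ⟨k, hk, h1, h2, h3⟩
      refine ⟨g⁻¹ c, (hΓmem _ _ _).mpr ⟨g⁻¹ * k, G.mul_mem (G.inv_mem hg) hk, ?_, ?_, ?_⟩,
        by simp⟩
      · rw [Equiv.Perm.mul_apply, h1]; simp
      · rw [Equiv.Perm.mul_apply, h2]; simp
      · rw [Equiv.Perm.mul_apply, h3]
    · rintro ⟨c', hc', rfl⟩
      obtain ⟨k, hk, h1, h2, h3⟩ := (hΓmem _ _ _).mp hc'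
      exact ⟨g * k, G.mul_mem hg hk, by rw [Equiv.Perm.mul_apply, h1],
        by rw [Equiv.Perm.mul_apply, h2], by rw [Equiv.Perm.mul_apply, h3]⟩
  have hΓsymm : ∀ a b, Γ a b = Γ b a := by
    have key : ∀ a b c, c ∈ Γ a b → c ∈ Γ b a := by
      intro a b c hc
      obtain ⟨k, hk, h1, h2, h3⟩ := (hΓmem _ _ _).mp hc
      refine (hΓmem _ _ _).mpr ⟨k * ν, G.mul_mem hk hνG, ?_, ?_, ?_⟩
      · rw [Equiv.Perm.mul_apply, hν, h2]
      · rw [Equiv.Perm.mul_apply, hν, neg_neg, h1]
      · rw [Equiv.Perm.mul_apply, hν, neg_zero, h3]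
    intro a b
    ext c
    exact ⟨key a b c, key b a c⟩
  have hΓsum : ∀ g ∈ G, ∀ (a b : α) (f : α → ZMod p),
      ∑ c ∈ Γ (g a) (g b), f c = ∑ c ∈ Γ a b, f (g c) := by
    intro g hg a b f
    rw [hΓimg g hg, Finset.sum_image (fun x _ y _ h => g.injective h)]
  set m := (Γ (e 1) (e (-1))).card with hm
  have hΓcard : ∀ a b, a ≠ b → (Γ a b).card = m := by
    intro a b hab
    obtain ⟨g, hga, hgb⟩ := h2tr h1m hab
    have hga' : g.1 (e 1) = a := hga
    have hgb' : g.1 (e (-1)) = b := hgb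
    have h1 : Γ a b = (Γ (e 1) (e (-1))).image g.1 := by
      rw [← hΓimg g.1 g.2, hga', hgb']
    rw [h1, Finset.card_image_of_injective _ g.1.injective]
  have h0Γ : e 0 ∈ Γ (e 1) (e (-1)) := (hΓmem _ _ _).mpr ⟨1, G.one_mem, rfl, rfl, rfl⟩
  obtain ⟨lam, hlam⟩ : ∃ lam : ZMod p, lam * 2 = (m : ZMod p) :=
    ⟨(m : ZMod p) / 2, by field_simp⟩
  let W : Subrepresentation (Cfsg.permRep (ZMod p) G α) :=
    { toSubmodule :=
        { carrier := {f | ∑ x, f x = 0 ∧
            ∀ a b, a ≠ b → ∑ c ∈ Γ a b, f c = lam * (f a + f b)}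
          add_mem' := by
            rintro f1 f2 ⟨h1, h1'⟩ ⟨h2, h2'⟩
            refine ⟨?_, fun a b hab => ?_⟩
            · simp only [Pi.add_apply, Finset.sum_add_distrib, h1, h2, add_zero]
            · simp only [Pi.add_apply, Finset.sum_add_distrib, h1' a b hab, h2' a b hab]
              ring
          zero_mem' := ⟨by simp, fun a b _ => by simp⟩
          smul_mem' := by
            rintro c f ⟨h1, h1'⟩
            refine ⟨?_, fun a b hab => ?_⟩
            · simp only [Pi.smul_apply, smul_eq_mul, ← Finset.mul_sum, h1, mul_zero]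
            · simp only [Pi.smul_apply, smul_eq_mul, ← Finset.mul_sum, h1' a b hab]
              ring }
      apply_mem_toSubmodule := by
        rintro g f ⟨h1, h1'⟩
        refine ⟨?_, fun a b hab => ?_⟩
        · show ∑ x, f (g⁻¹ • x) = 0
          rw [← h1]
          exact Fintype.sum_equiv (MulAction.toPerm g⁻¹) _ _ (fun x => rfl)
        · show ∑ c ∈ Γ a b, f (g⁻¹ • c) = lam * (f (g⁻¹ • a) + f (g⁻¹ • b))
          have h3 := hΓsum (g⁻¹ : G).1 (g⁻¹ : G).2 a b f
          have h4 : ∑ c ∈ Γ a b, f (g⁻¹ • c) = ∑ c ∈ Γ a b, f ((g⁻¹ : G).1 c) := rfl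
          rw [h4, ← h3]
          exact h1' _ _ (fun h => hab ((g⁻¹ : G).1.injective h)) }
  have hW1 : (Cfsg.permConstants (ZMod p) G α).toSubmodule ≤ W.toSubmodule := by
    show Submodule.span (ZMod p) {fun _ => 1} ≤ W.toSubmodule
    rw [Submodule.span_singleton_le_iff_mem]
    refine ⟨?_, fun a b hab => ?_⟩
    · simp [hα]
    · simp only [Finset.sum_const, nsmul_eq_mul, mul_one, hΓcard a b hab]
      linear_combination -hlam
  have hW2 : W.toSubmodule ≤ (Cfsg.permSumZero (ZMod p) G α).toSubmodule := fun f hf => hf.1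
  have hxW : (fun y => e.symm y) ∈ W.toSubmodule := by
    refine ⟨?_, ?_⟩
    · rw [Fintype.sum_equiv e.symm _ (fun j : ZMod p => j) (fun x => rfl)]
      have := FiniteField.sum_pow_lt_card_sub_one (ZMod p) 1 (by rw [ZMod.card]; omega)
      simpa using this
    · set ψ : α → α → ZMod p :=
        fun a b => ∑ c ∈ Γ a b, e.symm c - lam * (e.symm a + e.symm b) with hψ
      have hσs : ∀ y, e.symm (σ y) = e.symm y + 1 := by
        intro y
        rw [Equiv.symm_apply_eq, ← hσ, Equiv.apply_symm_apply]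
      have hνs : ∀ y, e.symm (ν y) = - e.symm y := by
        intro y
        rw [Equiv.symm_apply_eq, ← hν, Equiv.apply_symm_apply]
      have hψσ : ∀ a b, a ≠ b → ψ (σ a) (σ b) = ψ a b := by
        intro a b hab
        simp only [hψ]
        rw [hΓsum σ hσG]
        simp only [hσs, Finset.sum_add_distrib, Finset.sum_const, nsmul_eq_mul, mul_one,
          hΓcard a b hab]
        linear_combination -hlam
      have hψν : ∀ a b, ψ (ν a) (ν b) = - ψ a b := by
        intro a b
        simp only [hψ]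
        rw [hΓsum ν hνG]
        simp only [hνs, Finset.sum_neg_distrib]
        ring
      have hψpow : ∀ (n : ℕ) (a b : α), a ≠ b → ψ ((σ ^ n) a) ((σ ^ n) b) = ψ a b := by
        intro n
        induction n with
        | zero => intro a b _; simp
        | succ n ih =>
          intro a b hab
          rw [pow_succ', Equiv.Perm.mul_apply, Equiv.Perm.mul_apply,
            hψσ _ _ (fun h => hab ((σ ^ n).injective h)), ih a b hab]
      have hσpow : ∀ (n : ℕ) (i : ZMod p), (σ ^ n) (e i) = e (i + n) := by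
        intro n
        induction n with
        | zero => intro i; simp
        | succ n ih =>
          intro i
          rw [pow_succ', Equiv.Perm.mul_apply, ih, hσ]
          congr 1
          push_cast
          ring
      intro a b hab
      have hψsym : ψ b a = ψ a b := by
        simp only [hψ]
        rw [hΓsymm b a]
        ring
      obtain ⟨i, rfl⟩ := e.surjective a
      obtain ⟨j, rfl⟩ := e.surjective b
      have h5 := hψpow (i + j).val (ν (e i)) (ν (e j)) (fun h => hab (ν.injective h))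
      rw [hψν] at h5
      rw [hν, hν, hσpow, hσpow, ZMod.natCast_zmod_val] at h5
      have h6 : ψ (e j) (e i) = - ψ (e i) (e j) := by
        have e1 : -i + (i + j) = j := by ring
        have e2 : -j + (i + j) = i := by ring
        rw [e1, e2] at h5
        exact h5
      have h7 : ψ (e i) (e j) = 0 := by
        have h8 : (2 : ZMod p) * ψ (e i) (e j) = 0 := by linear_combination h6 - hψsym
        exact (mul_eq_zero.mp h8).resolve_left h2ne
      exact sub_eq_zero.mp h7
  rcases Cfsg.Agent.S0674.result hα G hG W hW1 hW2 with hWc | hWs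
  · exfalso
    have h1 : (fun y => e.symm y) ∈ (Cfsg.permConstants (ZMod p) G α).toSubmodule := by
      rw [← hWc]; exact hxW
    change _ ∈ Submodule.span (ZMod p) {fun _ => 1} at h1
    rw [Submodule.mem_span_singleton] at h1
    obtain ⟨c, hc⟩ := h1
    have q0 := congrFun hc (e 0)
    have q1 := congrFun hc (e 1)
    simp only [Pi.smul_apply, smul_eq_mul, mul_one, Equiv.symm_apply_apply] at q0 q1
    exact zero_ne_one (q0.symm.trans q1)
  · intro c hc1 hcm
    by_contra hcon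
    have hcΓ : c ∉ Γ (e 1) (e (-1)) := fun h => hcon ((hΓmem _ _ _).mp h)
    have hf : (Pi.single (e 0) 1 - Pi.single c 1 : α → ZMod p) ∈ W.toSubmodule := by
      rw [hWs]
      show ∑ x, (Pi.single (e 0) 1 - Pi.single c 1 : α → ZMod p) x = 0
      simp [Finset.sum_sub_distrib]
    obtain ⟨-, hf2⟩ := hf
    have h9 := hf2 (e 1) (e (-1)) h1m
    simp [Finset.sum_sub_distrib, Pi.single_apply, h0Γ, hcΓ, h01.symm, h0m.symm, hc1.symm,
      hcm.symm] at h9

/-- A non-solvable transitive permutation group of prime degree `p` whose Sylow `p`-normaliser has even order is triply transitive. -/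
theorem result {α : Type*} [Fintype α] [DecidableEq α] {p : ℕ} [Fact p.Prime] (hα : Fintype.card α = p) (G : Subgroup (Equiv.Perm α)) [MulAction.IsPretransitive G α] (hG : ¬ Group.IsSolvable G) (P : Sylow p G) (heven : Even (Nat.card (Subgroup.normalizer ((P : Subgroup G) : Set G)))) : MulAction.IsMultiplyPretransitive G α 3 := by
  classical
  have hp : p.Prime := Fact.out
  have hp2 : p ≠ 2 := by
    rintro rfl
    apply hG
    have hcardG : Nat.card G ≤ 2 := by
      have h1 := Subgroup.card_subgroup_dvd_card G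
      rw [Nat.card_eq_fintype_card (α := Equiv.Perm α), Fintype.card_perm, hα] at h1
      exact Nat.le_of_dvd (by norm_num) h1
    have hcyc : IsCyclic G := by
      rcases Nat.lt_or_ge (Nat.card G) 2 with h | h
      · have h1 : Nat.card G = 1 := by have := Nat.card_pos (α := G); omega
        have : Subsingleton G := (Nat.card_eq_one_iff_unique.mp h1).1
        infer_instance
      · have h2 : Nat.card G = 2 := by omega
        exact isCyclic_of_prime_card h2
    have hcomm : ∀ a b : G, a * b = b * a := fun a b => by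
      obtain ⟨g, hg⟩ := IsCyclic.exists_generator (α := G)
      obtain ⟨i, rfl⟩ := Subgroup.mem_zpowers_iff.mp (hg a)
      obtain ⟨j, rfl⟩ := Subgroup.mem_zpowers_iff.mp (hg b)
      rw [← zpow_add, ← zpow_add, add_comm]
    exact Group.isSolvable_of_comm hcomm
  have h2tr : MulAction.IsMultiplyPretransitive G α 2 := by
    rcases Cfsg.Agent.S0675.result (by rw [hα]; exact hp) G with h | h
    · exact absurd h hG
    · exact h
  rw [MulAction.is_two_pretransitive_iff] at h2tr
  obtain ⟨e, σ, ν, hσG, hνG, hσ, hν⟩ :=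
    Cfsg.Agent.Lib.Helper20.PrimeDeg.exists_neg hα hp2 G P heven
  have h3 := core hα G hG hp2 h2tr e σ ν hσG hνG hσ hν
  have h2ne : (2 : ZMod p) ≠ 0 := by
    intro h
    have h' : ((2 : ℕ) : ZMod p) = 0 := by exact_mod_cast h
    rw [ZMod.natCast_eq_zero_iff] at h'
    have := Nat.le_of_dvd (by norm_num) h'
    have := hp.two_le
    omega
  have h1m : e 1 ≠ e (-1) := fun h => by
    have h' : (1 : ZMod p) = -1 := e.injective h
    apply h2ne
    linear_combination h'
  constructor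
  intro x y
  have hx01 : x 0 ≠ x 1 := x.injective.ne (by decide)
  have hx02 : x 0 ≠ x 2 := x.injective.ne (by decide)
  have hx12 : x 1 ≠ x 2 := x.injective.ne (by decide)
  have hy01 : y 0 ≠ y 1 := y.injective.ne (by decide)
  have hy02 : y 0 ≠ y 2 := y.injective.ne (by decide)
  have hy12 : y 1 ≠ y 2 := y.injective.ne (by decide)
  obtain ⟨k1, hk1a, hk1b⟩ := h2tr hx01 h1m
  obtain ⟨k2, hk2a, hk2b⟩ := h2tr hy01 h1m
  have hxa : k1 • x 2 ≠ e 1 := fun h => hx02 (MulAction.injective k1 (hk1a.trans h.symm))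
  have hxb : k1 • x 2 ≠ e (-1) := fun h => hx12 (MulAction.injective k1 (hk1b.trans h.symm))
  have hya : k2 • y 2 ≠ e 1 := fun h => hy02 (MulAction.injective k2 (hk2a.trans h.symm))
  have hyb : k2 • y 2 ≠ e (-1) := fun h => hy12 (MulAction.injective k2 (hk2b.trans h.symm))
  obtain ⟨g1, hg1, g1a, g1b, g1c⟩ := h3 (k1 • x 2) hxa hxb
  obtain ⟨g2, hg2, g2a, g2b, g2c⟩ := h3 (k2 • y 2) hya hyb
  have i1a : (⟨g1, hg1⟩ : G)⁻¹ • e 1 = e 1 := by rw [inv_smul_eq_iff]; exact g1a.symm
  have i1b : (⟨g1, hg1⟩ : G)⁻¹ • e (-1) = e (-1) := by rw [inv_smul_eq_iff]; exact g1b.symm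
  have i1c : (⟨g1, hg1⟩ : G)⁻¹ • (k1 • x 2) = e 0 := by rw [inv_smul_eq_iff]; exact g1c.symm
  have j2a : (⟨g2, hg2⟩ : G) • e 1 = e 1 := g2a
  have j2b : (⟨g2, hg2⟩ : G) • e (-1) = e (-1) := g2b
  have j2c : (⟨g2, hg2⟩ : G) • e 0 = k2 • y 2 := g2c
  refine ⟨k2⁻¹ * ⟨g2, hg2⟩ * (⟨g1, hg1⟩ : G)⁻¹ * k1, ?_⟩
  apply DFunLike.ext
  intro i
  rw [Function.Embedding.smul_apply]
  fin_cases i
  · show (k2⁻¹ * ⟨g2, hg2⟩ * (⟨g1, hg1⟩ : G)⁻¹ * k1) • x 0 = y 0
    rw [mul_smul, mul_smul, mul_smul, hk1a, i1a, j2a, inv_smul_eq_iff, hk2a]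
  · show (k2⁻¹ * ⟨g2, hg2⟩ * (⟨g1, hg1⟩ : G)⁻¹ * k1) • x 1 = y 1
    rw [mul_smul, mul_smul, mul_smul, hk1b, i1b, j2b, inv_smul_eq_iff, hk2b]
  · show (k2⁻¹ * ⟨g2, hg2⟩ * (⟨g1, hg1⟩ : G)⁻¹ * k1) • x 2 = y 2
    rw [mul_smul, mul_smul, mul_smul, i1c, j2c, inv_smul_eq_iff]

end Cfsg.Agent.S0676
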