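import Cfsg.Statements.S0677
import Cfsg.Agent.Lib.Helper20.PrimeDegIndex
import Cfsg.Agent.S0675
import Cfsg.Agent.S0676

set_option autoImplicit false
open Cfsg

namespace Cfsg.Agent.S0677

/-- In a transitive permutation group of prime degree `p` whose Sylow `p`-normaliser has even order, the point stabilisers are the only subgroups of index `p`. -/
theorem result {α : Type*} [Fintype α] [DecidableEq α] {p : ℕ} [Fact p.Prime] (hα : Fintype.card α = p) (G : Subgroup (Equiv.Perm α)) [MulAction.IsPretransitive G α] (P : Sylow p G) (heven : Even (Nat.card (Subgroup.normalizer ((P : Subgroup G) : Set G)))) (H : Subgroup G) (hH : H.index = p) : ∃ a : α, H = MulAction.stabilizer G a := by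
  classical
  have hp : p.Prime := Fact.out
  have hHcard : ¬ p ∣ Nat.card H := by
    intro h
    apply Cfsg.Agent.Lib.Helper20.PrimeDeg.not_sq_dvd_card hα G
    rw [← H.card_mul_index, hH, pow_two]
    exact Nat.mul_dvd_mul_right h p
  suffices hfix : ∃ a : α, ∀ h ∈ H, (h : Equiv.Perm α) a = a by
    obtain ⟨a, ha⟩ := hfix
    refine ⟨a, ?_⟩
    have hle : H ≤ MulAction.stabilizer G a := fun h hh => by
      rw [MulAction.mem_stabilizer_iff]
      exact ha h hh
    have hidx : (MulAction.stabilizer G a).index = p := by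
      rw [MulAction.index_stabilizer_of_transitive, Nat.card_eq_fintype_card, hα]
    have h1 := Subgroup.relIndex_mul_index hle
    rw [hidx, hH] at h1
    have h2 : H.relIndex (MulAction.stabilizer G a) = 1 :=
      Nat.eq_of_mul_eq_mul_right hp.pos (by rw [h1, one_mul])
    exact le_antisymm hle (Subgroup.relIndex_eq_one.mp h2)
  by_cases hsolv : Group.IsSolvable G
  · obtain ⟨e, he⟩ := Cfsg.Agent.Lib.Helper20.PrimeDeg.galois hα G hsolv
    exact Cfsg.Agent.Lib.Helper20.PrimeDeg.exists_fixed_of_affine G e he H hHcard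
  · have h2tr : MulAction.IsMultiplyPretransitive G α 2 :=
      (Cfsg.Agent.S0675.result (by rw [hα]; exact hp) G).resolve_left hsolv
    have hX2 : ∀ {a b c d : α}, a ≠ b → c ≠ d → ∃ g : G, g • a = c ∧ g • b = d :=
      MulAction.is_two_pretransitive_iff.mp h2tr
    let _iβ : Fintype (↥G ⧸ H) := Fintype.ofFinite _
    have hβ : Fintype.card (↥G ⧸ H) = p := by
      rw [← Nat.card_eq_fintype_card, ← Subgroup.index_eq_card, hH]
    let φ : G →* Equiv.Perm (↥G ⧸ H) := MulAction.toPermHom G (↥G ⧸ H)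
    have hφ : ∀ (g : G) (x : ↥G ⧸ H), φ g x = g • x := fun g x => rfl
    have hH0 : ∀ g : G, g ∈ H ↔ g • (QuotientGroup.mk (1 : G) : ↥G ⧸ H) = QuotientGroup.mk 1 := by
      intro g
      show g ∈ H ↔ (QuotientGroup.mk (g * 1) : ↥G ⧸ H) = QuotientGroup.mk 1
      rw [QuotientGroup.eq]
      simp
    have hinj : Function.Injective φ := by
      rw [← MonoidHom.ker_eq_bot_iff]
      by_contra hne
      have h1 := Cfsg.Agent.Lib.Helper20.PrimeDeg.prime_dvd_card_of_normal hα G φ.ker hne
      have hle : φ.ker ≤ H := by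
        intro n hn
        rw [hH0]
        have h2 := MonoidHom.mem_ker.mp hn
        rw [← hφ, h2]
        rfl
      exact hHcard (h1.trans (Subgroup.card_dvd_of_le hle))
    let ψ : G ≃* φ.range := MonoidHom.ofInjective hinj
    have htr₂ : MulAction.IsPretransitive φ.range (↥G ⧸ H) := by
      constructor
      intro x y
      obtain ⟨g, hg⟩ := MulAction.exists_smul_eq G x y
      exact ⟨⟨φ g, ⟨g, rfl⟩⟩, hg⟩
    have hsolv₂ : ¬ Group.IsSolvable φ.range := by
      intro h
      exact hsolv (Group.isSolvable_of_isSolvable_injective (f := ψ.toMonoidHom) ψ.injective)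
    obtain ⟨P₂⟩ : Nonempty (Sylow p φ.range) := inferInstance
    have heven₂ : Even (Nat.card (Subgroup.normalizer ((P₂ : Subgroup φ.range) : Set φ.range))) := by
      have e1 : Nat.card (Sylow p G) = (Subgroup.normalizer ((P : Subgroup G) : Set G)).index :=
        P.card_eq_index_normalizer
      have e2 : Nat.card (Sylow p φ.range) =
          (Subgroup.normalizer ((P₂ : Subgroup φ.range) : Set φ.range)).index :=
        P₂.card_eq_index_normalizer
      have e3 := Cfsg.Agent.Lib.Helper20.PrimeDeg.card_sylow_congr (p := p) ψ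
      have e4 : Nat.card G = Nat.card φ.range := Nat.card_congr ψ.toEquiv
      have e5 := (Subgroup.normalizer ((P : Subgroup G) : Set G)).card_mul_index
      have e6 := (Subgroup.normalizer ((P₂ : Subgroup φ.range) : Set φ.range)).card_mul_index
      have e7 : Nat.card (Subgroup.normalizer ((P₂ : Subgroup φ.range) : Set φ.range)) =
          Nat.card (Subgroup.normalizer ((P : Subgroup G) : Set G)) := by
        have hpos : 0 < (Subgroup.normalizer ((P₂ : Subgroup φ.range) : Set φ.range)).index :=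
          Nat.pos_of_ne_zero Subgroup.index_ne_zero_of_finite
        apply Nat.eq_of_mul_eq_mul_right hpos
        rw [e6, ← e2, ← e3, e1, e5, e4]
      rw [e7]
      exact heven
    have h3tr₂ := Cfsg.Agent.S0676.result hβ φ.range hsolv₂ P₂ heven₂
    have h2tr₂ : MulAction.IsMultiplyPretransitive φ.range (↥G ⧸ H) 2 :=
      (Cfsg.Agent.S0675.result (by rw [hβ]; exact hp) φ.range).resolve_left hsolv₂
    have hY2 : ∀ {a b c d : ↥G ⧸ H}, a ≠ b → c ≠ d → ∃ g : G, g • a = c ∧ g • b = d := by
      intro a b c d hab hcd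
      obtain ⟨g₂, h1, h2⟩ := MulAction.is_two_pretransitive_iff.mp h2tr₂ hab hcd
      obtain ⟨g, hg⟩ := g₂.2
      refine ⟨g, ?_, ?_⟩
      · rw [← hφ, hg]; exact h1
      · rw [← hφ, hg]; exact h2
    have hY3 : ∀ a b c a' b' c' : ↥G ⧸ H, a ≠ b → a ≠ c → b ≠ c → a' ≠ b' → a' ≠ c' → b' ≠ c' →
        ∃ g : G, g • a = a' ∧ g • b = b' ∧ g • c = c' := by
      intro a b c a' b' c' hab hac hbc hab' hac' hbc'
      have inj : ∀ (u v w : ↥G ⧸ H), u ≠ v → u ≠ w → v ≠ w →
          Function.Injective ![u, v, w] := by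
        intro u v w huv huw hvw i j hij
        fin_cases i <;> fin_cases j <;> simp_all
      let x : Fin 3 ↪ ↥G ⧸ H := ⟨![a, b, c], inj a b c hab hac hbc⟩
      let y : Fin 3 ↪ ↥G ⧸ H := ⟨![a', b', c'], inj a' b' c' hab' hac' hbc'⟩
      obtain ⟨g₂, hg₂⟩ := MulAction.exists_smul_eq φ.range x y
      obtain ⟨g, hg⟩ := g₂.2
      have key : ∀ i, g • x i = y i := by
        intro i
        have h5 := DFunLike.congr_fun hg₂ i
        rw [Function.Embedding.smul_apply] at h5
        rw [← hφ, hg]
        exact h5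
      exact ⟨g, key 0, key 1, key 2⟩
    obtain ⟨a0⟩ : Nonempty α := Fintype.card_pos_iff.mp (by rw [hα]; exact hp.pos)
    have hintr : ∃ a1 : α, ∀ h ∈ H, h • a0 ≠ a1 := by
      by_contra hcon
      push Not at hcon
      have htrH : MulAction.IsPretransitive H α := by
        constructor
        intro x y
        obtain ⟨hx, hhx, hx'⟩ := hcon x
        obtain ⟨hy, hhy, hy'⟩ := hcon y
        refine ⟨⟨hy, hhy⟩ * ⟨hx, hhx⟩⁻¹, ?_⟩
        rw [mul_smul, ← hx']
        show hy • (hx⁻¹ • hx • a0) = y
        rw [inv_smul_smul, hy']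
      have h6 := Cfsg.Agent.Lib.Helper20.PrimeDeg.dvd_card_of_transitive (M := H) a0
      rw [hα] at h6
      exact hHcard h6
    obtain ⟨a1, ha1⟩ := hintr
    obtain ⟨a, ha⟩ := Cfsg.Agent.Lib.Helper20.PrimeDeg.exists_fixed_of_three_trans H
      (QuotientGroup.mk (1 : G) : ↥G ⧸ H) hH0 hX2 hY2 hY3 a0 a1 ha1
    exact ⟨a, fun h hh => ha h hh⟩

end Cfsg.Agent.S0677
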