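import Cfsg.Statements.S0678
import Cfsg.Agent.Lib.Helper20.PrimeDegNorm
import Cfsg.Agent.Lib.Helper2.CharBurnside
import Cfsg.Agent.S0675
import Cfsg.Agent.S0676

set_option autoImplicit false
open Cfsg

namespace Cfsg.Agent.S0678

open Cfsg.Agent.Lib.Helper20.PrimeDeg

theorem sign_neg7 {α : Type*} [Fintype α] [DecidableEq α] (e : ZMod 7 ≃ α) (ν : Equiv.Perm α)
    (hν : ∀ i, ν (e i) = e (-i)) : Equiv.Perm.sign ν = -1 := by
  have h1 : ν = e.permCongr (Equiv.neg (ZMod 7)) := by
    apply Equiv.ext
    intro y
    obtain ⟨i, rfl⟩ := e.surjective y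
    rw [hν]
    simp [Equiv.permCongr_apply]
  rw [h1, Equiv.Perm.sign_permCongr]
  decide

theorem descFactorial_dvd {α : Type*} [Fintype α] [DecidableEq α]
    (G : Subgroup (Equiv.Perm α)) (n : ℕ) (hn : n ≤ Fintype.card α)
    (h : MulAction.IsMultiplyPretransitive G α n) :
    (Fintype.card α).descFactorial n ∣ Nat.card G := by
  have hx : Nonempty (Fin n ↪ α) :=
    Function.Embedding.nonempty_of_card_le (by rw [Fintype.card_fin]; exact hn)
  obtain ⟨x⟩ := hx
  have h1 := @dvd_card_of_transitive G (Fin n ↪ α) _ _ h _ x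
  rwa [Fintype.card_embedding_eq, Fintype.card_fin] at h1

theorem map_facts {α : Type*} [Fintype α] [DecidableEq α] (hα : Fintype.card α = 7)
    (G : Subgroup (Equiv.Perm α)) [MulAction.IsPretransitive G α] (M : Subgroup G) [M.Normal]
    (hM : M ≠ ⊥) :
    MulAction.IsPretransitive (M.map G.subtype) α ∧
      Nat.card (M.map G.subtype) = Nat.card M ∧
      (Group.IsSolvable (M.map G.subtype) → Group.IsSolvable M) := by
  have : Fact (Nat.Prime 7) := ⟨by norm_num⟩
  refine ⟨?_, Subgroup.card_map_of_injective G.subtype_injective, ?_⟩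
  · have := isPretransitive_of_normal (p := 7) hα G M hM
    constructor
    intro x y
    obtain ⟨m, hm⟩ := MulAction.exists_smul_eq M x y
    exact ⟨⟨m.1.1, ⟨m.1, m.2, rfl⟩⟩, hm⟩
  · intro h
    exact Group.isSolvable_of_isSolvable_injective
      (f := (M.equivMapOfInjective G.subtype G.subtype_injective).toMonoidHom)
      (MulEquiv.injective _)

theorem card_alt7 {α : Type*} [Fintype α] [DecidableEq α] (hα : Fintype.card α = 7) :
    Nat.card (alternatingGroup α) = 2520 := by
  have : Nontrivial α := Fintype.one_lt_card_iff_nontrivial.mp (by rw [hα]; norm_num)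
  have h1 := two_mul_nat_card_alternatingGroup (α := α)
  have h0 : Nat.card α = 7 := by rw [Nat.card_eq_fintype_card, hα]
  rw [Nat.card_perm, h0] at h1
  have h2 : Nat.factorial 7 = 5040 := by decide
  omega

/-- A non-solvable transitive group of even permutations of degree `7` has order `168` or
`2520`. -/
theorem card_of_le_alt {α : Type*} [Fintype α] [DecidableEq α] (hα : Fintype.card α = 7)
    (G : Subgroup (Equiv.Perm α)) [MulAction.IsPretransitive G α] (hG : ¬ Group.IsSolvable G)
    (hle : G ≤ alternatingGroup α) : Nat.card G = 168 ∨ Nat.card G = 2520 := by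
  classical
  have : Fact (Nat.Prime 7) := ⟨by norm_num⟩
  obtain ⟨P⟩ : Nonempty (Sylow 7 G) := inferInstance
  have hc1 := card_normalizer_dvd (p := 7) hα G P
  have hc2 : 7 ∣ Nat.card (Subgroup.normalizer ((P : Subgroup G) : Set G)) := by
    have h1 := Subgroup.card_dvd_of_le
      (Subgroup.le_normalizer : (P : Subgroup G) ≤ Subgroup.normalizer ((P : Subgroup G) : Set G))
    have h2 : Nat.card (P : Subgroup G) = 7 := card_sylow (p := 7) hα G P
    rwa [h2] at h1
  have hc7 : Nat.card (Subgroup.normalizer ((P : Subgroup G) : Set G)) ≠ 7 := by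
    intro h7
    have hcard := card_eq_of_card_normalizer (p := 7) hα G P h7
    apply hG
    have hcyc : IsCyclic G := isCyclic_of_prime_card hcard
    apply Group.isSolvable_of_comm
    intro a b
    obtain ⟨g, hg⟩ := IsCyclic.exists_generator (α := G)
    obtain ⟨i, rfl⟩ := Subgroup.mem_zpowers_iff.mp (hg a)
    obtain ⟨j, rfl⟩ := Subgroup.mem_zpowers_iff.mp (hg b)
    rw [← zpow_add, ← zpow_add, add_comm]
  have hodd : ¬ Even (Nat.card (Subgroup.normalizer ((P : Subgroup G) : Set G))) := by
    intro hev
    obtain ⟨e, σ, ν, hσG, hνG, hσ, hν⟩ := exists_neg (p := 7) hα (by norm_num) G P hev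
    have hs := sign_neg7 e ν hν
    have hmem := hle hνG
    rw [Equiv.Perm.mem_alternatingGroup] at hmem
    rw [hmem] at hs
    exact absurd hs (by decide)
  have hn1 : Nat.card (Sylow 7 G) ≡ 1 [MOD 7] := card_sylow_modEq_one 7 G
  have hn2 : Nat.card (Sylow 7 G) =
      (Subgroup.normalizer ((P : Subgroup G) : Set G)).index := P.card_eq_index_normalizer
  have hn3 := (Subgroup.normalizer ((P : Subgroup G) : Set G)).card_mul_index
  have h2tr : MulAction.IsMultiplyPretransitive G α 2 :=
    (Cfsg.Agent.S0675.result (by rw [hα]; norm_num) G).resolve_left hG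
  have h42 : 42 ∣ Nat.card G := by
    have h1 := descFactorial_dvd G 2 (by rw [hα]; norm_num) h2tr
    rw [hα] at h1
    exact h1
  have h5040 : Nat.card G ∣ 5040 := by
    have h1 := Subgroup.card_subgroup_dvd_card G
    rw [Nat.card_eq_fintype_card (α := Equiv.Perm α), Fintype.card_perm, hα] at h1
    exact h1
  rw [hn2] at hn1
  generalize Nat.card (Subgroup.normalizer ((P : Subgroup G) : Set G)) = c at *
  generalize (Subgroup.normalizer ((P : Subgroup G) : Set G)).index = n at *
  have hc21 : c = 21 := by
    have hcd : c ∣ 42 := hc1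
    have hmem : c ∈ Nat.divisors 42 := Nat.mem_divisors.mpr ⟨hcd, by norm_num⟩
    have key : ∀ c ∈ Nat.divisors 42, 7 ∣ c → c ≠ 7 → ¬ Even c → c = 21 := by decide
    exact key c hmem hc2 hc7 hodd
  subst hc21
  have hn240 : n ∣ 240 := by
    have h1 : 21 * n ∣ 21 * 240 := by rw [hn3]; exact h5040
    exact Nat.dvd_of_mul_dvd_mul_left (by norm_num) h1
  have hneven : 2 ∣ n := by
    have h1 : 21 * 2 ∣ 21 * n := by rw [hn3]; exact h42
    exact Nat.dvd_of_mul_dvd_mul_left (by norm_num) h1
  have key : ∀ n ∈ Nat.divisors 240, 2 ∣ n → n % 7 = 1 → n = 8 ∨ n = 120 := by decide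
  rcases key n (Nat.mem_divisors.mpr ⟨hn240, by norm_num⟩) hneven hn1 with h | h
  · left; rw [← hn3, h]
  · right; rw [← hn3, h]

/-- A non-solvable transitive permutation group on 7 points that does not contain the alternating group is a simple group of order 168. -/
theorem result {α : Type*} [Fintype α] [DecidableEq α] (hα : Fintype.card α = 7) (G : Subgroup (Equiv.Perm α)) [MulAction.IsPretransitive G α] (hG : ¬ Group.IsSolvable G) (hA : ¬ alternatingGroup α ≤ G) : Nat.card G = 168 ∧ IsSimpleGroup G := by
  classical
  have hF7 : Fact (Nat.Prime 7) := ⟨by norm_num⟩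
  have h2tr : MulAction.IsMultiplyPretransitive G α 2 :=
    (Cfsg.Agent.S0675.result (by rw [hα]; norm_num) G).resolve_left hG
  have h42 : 42 ∣ Nat.card G := by
    have h1 := descFactorial_dvd G 2 (by rw [hα]; norm_num) h2tr
    rw [hα] at h1
    exact h1
  have hmain : G ≤ alternatingGroup α ∧ Nat.card G = 168 := by
    by_cases hle : G ≤ alternatingGroup α
    · refine ⟨hle, ?_⟩
      rcases card_of_le_alt hα G hG hle with h | h
      · exact h
      · exfalso
        apply hA
        have h1 : G = alternatingGroup α := by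
          apply Subgroup.eq_of_le_of_card_ge hle
          rw [h, card_alt7 hα]
        rw [h1]
    · exfalso
      let s : G →* ℤˣ := Equiv.Perm.sign.comp G.subtype
      have hs_surj : Function.Surjective s := by
        obtain ⟨g, hgG, hgA⟩ := SetLike.not_le_iff_exists.mp hle
        have hsg : Equiv.Perm.sign g = -1 := by
          rcases Int.units_eq_one_or (Equiv.Perm.sign g) with h | h
          · exact absurd (Equiv.Perm.mem_alternatingGroup.mpr h) hgA
          · exact h
        intro u
        rcases Int.units_eq_one_or u with h | h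
        · exact ⟨1, by rw [h, map_one]⟩
        · exact ⟨⟨g, hgG⟩, by rw [h]; exact hsg⟩
      have hidx : s.ker.index = 2 := by
        rw [Subgroup.index_ker, MonoidHom.range_eq_top.mpr hs_surj, Subgroup.card_top]
        simp
      have hK0card : Nat.card s.ker * 2 = Nat.card G := by
        rw [← hidx]
        exact s.ker.card_mul_index
      have hK0ne : s.ker ≠ ⊥ := by
        intro h
        rw [h, Subgroup.card_bot] at hK0card
        have h1 := Nat.le_of_dvd (by omega) h42
        omega
      obtain ⟨htrK, hcardK, hsolvK⟩ := map_facts hα G s.ker hK0ne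
      have hKle : s.ker.map G.subtype ≤ alternatingGroup α := by
        rintro _ ⟨g, hg, rfl⟩
        rw [Equiv.Perm.mem_alternatingGroup]
        exact MonoidHom.mem_ker.mp hg
      have hKns : ¬ Group.IsSolvable (s.ker.map G.subtype) := by
        intro h
        have h1 := hsolvK h
        apply hG
        exact Group.isSolvable_of_ker_le_range s.ker.subtype s (by rw [Subgroup.range_subtype])
      rcases card_of_le_alt hα (s.ker.map G.subtype) hKns hKle with h | h
      · have hG336 : Nat.card G = 336 := by rw [← hK0card, ← hcardK, h]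
        obtain ⟨P⟩ : Nonempty (Sylow 7 G) := inferInstance
        have hc1 := card_normalizer_dvd (p := 7) hα G P
        have hc2 : 7 ∣ Nat.card (Subgroup.normalizer ((P : Subgroup G) : Set G)) := by
          have h1 := Subgroup.card_dvd_of_le
            (Subgroup.le_normalizer :
              (P : Subgroup G) ≤ Subgroup.normalizer ((P : Subgroup G) : Set G))
          have h2 : Nat.card (P : Subgroup G) = 7 := card_sylow (p := 7) hα G P
          rwa [h2] at h1
        have hc7 : Nat.card (Subgroup.normalizer ((P : Subgroup G) : Set G)) ≠ 7 := by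
          intro h7
          have hcard := card_eq_of_card_normalizer (p := 7) hα G P h7
          omega
        have hn1 : Nat.card (Sylow 7 G) ≡ 1 [MOD 7] := card_sylow_modEq_one 7 G
        have hn2 : Nat.card (Sylow 7 G) =
            (Subgroup.normalizer ((P : Subgroup G) : Set G)).index := P.card_eq_index_normalizer
        have hn3 := (Subgroup.normalizer ((P : Subgroup G) : Set G)).card_mul_index
        rw [hn2] at hn1
        rw [hG336] at hn3
        have hev : Even (Nat.card (Subgroup.normalizer ((P : Subgroup G) : Set G))) := by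
          generalize Nat.card (Subgroup.normalizer ((P : Subgroup G) : Set G)) = c at *
          generalize (Subgroup.normalizer ((P : Subgroup G) : Set G)).index = n at *
          have hmem : c ∈ Nat.divisors 42 := Nat.mem_divisors.mpr ⟨hc1, by norm_num⟩
          have hn336 : n = 336 / c := by
            rw [← hn3, Nat.mul_div_cancel_left _ (Nat.pos_of_ne_zero (by rintro rfl; simp at hc1))]
          have key : ∀ c ∈ Nat.divisors 42, 7 ∣ c → c ≠ 7 → (336 / c) % 7 = 1 → Even c := by
            decide
          exact key c hmem hc2 hc7 (by rw [← hn336]; exact hn1)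
        have h3tr := Cfsg.Agent.S0676.result hα G hG P hev
        have h210 := descFactorial_dvd G 3 (by rw [hα]; norm_num) h3tr
        rw [hα, hG336] at h210
        revert h210
        decide
      · apply hA
        have h1 : s.ker.map G.subtype = alternatingGroup α := by
          apply Subgroup.eq_of_le_of_card_ge hKle
          rw [h, card_alt7 hα]
        rw [← h1]
        exact Subgroup.map_subtype_le _
  obtain ⟨hle, hcard⟩ := hmain
  refine ⟨hcard, ?_⟩
  have hnt : Nontrivial G := Finite.one_lt_card_iff_nontrivial.mp (by rw [hcard]; norm_num)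
  refine ⟨fun M hMn => ?_⟩
  by_contra hcon
  push Not at hcon
  obtain ⟨hMbot, hMtop⟩ := hcon
  obtain ⟨htrM, hcardM, hsolvM⟩ := map_facts hα G M hMbot
  have hMle : M.map G.subtype ≤ alternatingGroup α := (Subgroup.map_subtype_le M).trans hle
  have hMdvd : Nat.card M ∣ 168 := hcard ▸ Subgroup.card_subgroup_dvd_card M
  have hMne : Nat.card M ≠ 168 := fun h => hMtop (Subgroup.eq_top_of_card_eq M (by rw [h, hcard]))
  have hMlt : Nat.card M ≤ 84 := by
    obtain ⟨k, hk⟩ := hMdvd
    have hk0 : k ≠ 0 := by rintro rfl; simp at hk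
    have hk1 : k ≠ 1 := by rintro rfl; omega
    have hk2 : 2 ≤ k := by omega
    nlinarith
  have hMsolv : Group.IsSolvable M := by
    apply hsolvM
    by_contra hns
    rcases card_of_le_alt hα (M.map G.subtype) hns hMle with h | h <;> omega
  have h7M : 7 ∣ Nat.card M := prime_dvd_card_of_normal (p := 7) hα G M hMbot
  have hq : Group.IsSolvable (↥G ⧸ M) := by
    apply Cfsg.Agent.Lib.Helper2.solvable_of_two_primes 2 3 (by norm_num) (by norm_num)
      (Nat.card (↥G ⧸ M)) (↥G ⧸ M) rfl
    intro r hr hrd
    have h1 : Nat.card M * Nat.card (↥G ⧸ M) = 168 := by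
      rw [← hcard, ← Subgroup.index_eq_card, Subgroup.card_mul_index]
    have h24 : Nat.card (↥G ⧸ M) ∣ 24 := by
      obtain ⟨t, ht⟩ := h7M
      rw [ht] at h1
      exact ⟨t, by nlinarith⟩
    have hr24 : r ∣ 2 ^ 3 * 3 := hrd.trans h24
    rcases (Nat.Prime.dvd_mul hr).mp hr24 with h | h
    · left
      exact (Nat.prime_dvd_prime_iff_eq hr (by norm_num)).mp (hr.dvd_of_dvd_pow h)
    · right
      exact (Nat.prime_dvd_prime_iff_eq hr (by norm_num)).mp h
  exact hG (Group.isSolvable_of_ker_le_range M.subtype (QuotientGroup.mk' M)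
    (by rw [QuotientGroup.ker_mk', Subgroup.range_subtype]))

end Cfsg.Agent.S0678
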