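import Cfsg.Statements.S0680
import Cfsg.Agent.Lib.Lead.FrobeniusMore

set_option autoImplicit false
open Cfsg

namespace Cfsg.Agent.S0680

open Cfsg.Agent.Lib.Lead

section

variable {α : Type*} [Fintype α] [DecidableEq α]

omit [Fintype α] [DecidableEq α] in
theorem fix2 (G : Subgroup (Equiv.Perm α))
    (hsharp : ∀ x : Fin 2 ↪ α, MulAction.stabilizer G x = ⊥)
    (x : G) (a b : α) (hab : a ≠ b) (ha : x • a = a) (hb : x • b = b) : x = 1 := by
  have : x ∈ MulAction.stabilizer G (Function.Embedding.embFinTwo hab) := by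
    rw [MulAction.mem_stabilizer_iff]
    ext i
    fin_cases i
    · exact ha
    · exact hb
  rw [hsharp, Subgroup.mem_bot] at this
  exact this

theorem card_G (G : Subgroup (Equiv.Perm α)) [inst : MulAction.IsMultiplyPretransitive G α 2]
    (hsharp : ∀ x : Fin 2 ↪ α, MulAction.stabilizer G x = ⊥) (h2 : 2 ≤ Fintype.card α) :
    Nat.card G = Fintype.card α * (Fintype.card α - 1) := by
  classical
  obtain ⟨a, b, hab⟩ := Fintype.one_lt_card_iff.mp (show 1 < Fintype.card α by omega)
  have h := @MulAction.index_stabilizer_of_transitive G (Fin 2 ↪ α) _ _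
    (Function.Embedding.embFinTwo hab) inst
  rw [hsharp, Subgroup.index_bot] at h
  rw [h, Nat.card_eq_fintype_card, Fintype.card_embedding_eq, Fintype.card_fin]
  simp [Nat.descFactorial]
  ring

theorem exists_kernel (G : Subgroup (Equiv.Perm α)) [MulAction.IsMultiplyPretransitive G α 2]
    (hsharp : ∀ x : Fin 2 ↪ α, MulAction.stabilizer G x = ⊥) (h2 : 2 ≤ Fintype.card α) :
    ∃ N : Subgroup G, N.Normal ∧ Nat.card N = Fintype.card α ∧
      ∀ g : G, g ∈ N ↔ g = 1 ∨ ∀ a : α, g • a ≠ a := by
  classical
  have htr : MulAction.IsPretransitive G α := MulAction.isPretransitive_of_is_two_pretransitive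
  have hcardG := card_G G hsharp h2
  by_cases hn : Fintype.card α = 2
  · refine ⟨⊤, inferInstance, ?_, ?_⟩
    · rw [Subgroup.card_top, hcardG, hn]
    · intro g
      simp only [Subgroup.mem_top, true_iff]
      by_cases hg : g = 1
      · exact Or.inl hg
      · right
        obtain ⟨x, y, hxy, huniv⟩ := Nat.card_eq_two_iff.mp
          ((Nat.card_eq_fintype_card (α := α)).trans hn)
        have hmem : ∀ c : α, c = x ∨ c = y := by
          intro c
          have : c ∈ (Set.univ : Set α) := Set.mem_univ c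
          rw [← huniv] at this
          simpa using this
        have hinj : Function.Injective (fun c : α => g • c) := MulAction.injective g
        intro c hc
        apply hg
        rcases hmem c with rfl | rfl
        · -- g fixes x, hence y
          have hy : g • y = y := by
            rcases hmem (g • y) with h | h
            · exact absurd (hinj (h.trans hc.symm)) (Ne.symm hxy)
            · exact h
          exact fix2 G hsharp g _ _ hxy hc hy
        · have hx : g • x = x := by
            rcases hmem (g • x) with h | h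
            · exact h
            · exact absurd (hinj (h.trans hc.symm)) hxy
          exact fix2 G hsharp g _ _ hxy hx hc
  · have hn3 : 3 ≤ Fintype.card α := by omega
    obtain ⟨a⟩ : Nonempty α := Fintype.card_pos_iff.mp (by omega)
    have hidx : (MulAction.stabilizer G a).index = Fintype.card α := by
      rw [MulAction.index_stabilizer_of_transitive, Nat.card_eq_fintype_card]
    have hcardH : Nat.card (MulAction.stabilizer G a) = Fintype.card α - 1 := by
      have h1 := Subgroup.card_mul_index (MulAction.stabilizer G a)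
      rw [hidx, hcardG, mul_comm] at h1
      exact Nat.eq_of_mul_eq_mul_left (by omega) h1
    have hH : Cfsg.IsFrobeniusComplement (MulAction.stabilizer G a) := by
      refine ⟨?_, ?_, ?_⟩
      · intro h
        rw [h, Subgroup.card_bot] at hcardH
        omega
      · intro h
        rw [h, Subgroup.index_top] at hidx
        omega
      · intro g hg
        rw [eq_bot_iff]
        intro x hx
        have hxa : x • a = a := MulAction.mem_stabilizer_iff.mp hx.1
        have h1 : g⁻¹ * x * g ∈ MulAction.stabilizer G a :=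
          (mem_conj_smul (MulAction.stabilizer G a) g x).mp hx.2
        have h2' : (g⁻¹ * x * g) • a = a := MulAction.mem_stabilizer_iff.mp h1
        have hxg : x • (g • a) = g • a := by
          rw [mul_smul, mul_smul, inv_smul_eq_iff] at h2'
          exact h2'
        have hga : g • a ≠ a := fun h => hg (MulAction.mem_stabilizer_iff.mpr h)
        rw [Subgroup.mem_bot]
        exact fix2 G hsharp x a (g • a) (Ne.symm hga) hxa hxg
    refine ⟨frobKer _ hH, frobKer_normal _ hH, ?_, ?_⟩
    · rw [card_frobKer, hidx]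
    · intro g
      rw [mem_frobKer_iff]
      apply or_congr Iff.rfl
      constructor
      · intro h b hb
        obtain ⟨k, rfl⟩ := MulAction.exists_smul_eq G a b
        apply h k
        rw [mem_conj_smul, MulAction.mem_stabilizer_iff, mul_smul, mul_smul, inv_smul_eq_iff]
        exact hb
      · intro h k hk
        rw [mem_conj_smul, MulAction.mem_stabilizer_iff, mul_smul, mul_smul, inv_smul_eq_iff] at hk
        exact h (k • a) hk

end

/-- A finite sharply doubly transitive permutation group has degree a prime power `p ^ j`; a Sylow `p`-subgroup is normal, elementary abelian and regular, and consists of the identity together with the elements without fixed points. (Frobenius' Theorem is not needed.) -/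
theorem result {α : Type*} [Fintype α] [DecidableEq α] (G : Subgroup (Equiv.Perm α)) [MulAction.IsMultiplyPretransitive G α 2] (hsharp : ∀ x : Fin 2 ↪ α, MulAction.stabilizer G x = ⊥) (h2 : 2 ≤ Fintype.card α) : ∃ p j : ℕ, p.Prime ∧ 1 ≤ j ∧ Fintype.card α = p ^ j ∧ ∀ (hp : Fact p.Prime) (P : Sylow p G), (P : Subgroup G).Normal ∧ IsMulCommutative (P : Subgroup G) ∧ (∀ x ∈ (P : Subgroup G), x ^ p = 1) ∧ MulAction.IsPretransitive (P : Subgroup G) α ∧ (∀ a : α, MulAction.stabilizer (P : Subgroup G) a = ⊥) ∧ ∀ g : G, g ∈ (P : Subgroup G) ↔ g = 1 ∨ ∀ a : α, g • a ≠ a := by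
  classical
  obtain ⟨N, hNn, hNcard, hNmem⟩ := exists_kernel G hsharp h2
  have hcardG := card_G G hsharp h2
  have htr : MulAction.IsPretransitive G α := MulAction.isPretransitive_of_is_two_pretransitive
  have h2t : ∀ {a b c d : α}, a ≠ b → c ≠ d → ∃ g : G, g • a = c ∧ g • b = d :=
    MulAction.is_two_pretransitive_iff.mp inferInstance
  obtain ⟨a₀⟩ : Nonempty α := Fintype.card_pos_iff.mp (by omega)
  have hreg : ∀ x ∈ N, ∀ a : α, x • a = a → x = 1 := by
    intro x hx a ha
    rcases (hNmem x).mp hx with h | h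
    · exact h
    · exact absurd ha (h a)
  have hconj : ∀ x ∈ N, ∀ y ∈ N, x ≠ 1 → y ≠ 1 → ∃ g : G, y = g * x * g⁻¹ := by
    intro x hx y hy hx1 hy1
    have hxa : x • a₀ ≠ a₀ := fun h => hx1 (hreg x hx a₀ h)
    have hya : y • a₀ ≠ a₀ := fun h => hy1 (hreg y hy a₀ h)
    obtain ⟨g, hga, hgb⟩ := h2t (Ne.symm hxa) (Ne.symm hya)
    refine ⟨g, ?_⟩
    have hmem : y⁻¹ * (g * x * g⁻¹) ∈ N := N.mul_mem (N.inv_mem hy) (hNn.conj_mem x hx g)
    have hfix : (y⁻¹ * (g * x * g⁻¹)) • a₀ = a₀ := by
      have hg' : g⁻¹ • a₀ = a₀ := by rw [inv_smul_eq_iff, hga]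
      rw [mul_smul, mul_smul, mul_smul, hg', hgb, inv_smul_smul]
    have := hreg _ hmem a₀ hfix
    exact inv_mul_eq_one.mp this
  have hNcard2 : 2 ≤ Nat.card N := by rw [hNcard]; exact h2
  obtain ⟨p, hp, hpdvd⟩ := Nat.exists_prime_and_dvd (show Nat.card N ≠ 1 by omega)
  have hpF : Fact p.Prime := ⟨hp⟩
  obtain ⟨x₀, hx₀⟩ := exists_prime_orderOf_dvd_card' p hpdvd
  have hx₀o : orderOf (x₀ : G) = p := by rw [Subgroup.orderOf_coe]; exact hx₀
  have hx₀1 : (x₀ : G) ≠ 1 := by
    intro h
    rw [h, orderOf_one] at hx₀o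
    exact hp.one_lt.ne hx₀o
  have hx₀p : (x₀ : G) ^ p = 1 := by rw [← hx₀o]; exact pow_orderOf_eq_one _
  have hexp : ∀ y ∈ N, y ^ p = 1 := by
    intro y hy
    by_cases hy1 : y = 1
    · rw [hy1, one_pow]
    · obtain ⟨g, rfl⟩ := hconj x₀ x₀.2 y hy hx₀1 hy1
      rw [conj_pow, hx₀p, mul_one, mul_inv_cancel]
  have hNp : IsPGroup p N := by
    intro y
    refine ⟨1, ?_⟩
    rw [pow_one]
    apply Subtype.ext
    rw [Subgroup.coe_pow]
    exact hexp y y.2
  obtain ⟨j, hj⟩ := IsPGroup.iff_card.mp hNp
  have hj1 : 1 ≤ j := by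
    by_contra hcon
    have : j = 0 := by omega
    rw [this, pow_zero] at hj
    omega
  have hNab : ∀ y ∈ N, ∀ w ∈ N, y * w = w * y := by
    have hnt : Nontrivial N := Finite.one_lt_card_iff_nontrivial.mp (by omega)
    have hcn := hNp.center_nontrivial
    obtain ⟨z, hz⟩ := exists_ne (1 : Subgroup.center N)
    have hz1' : ((z : N) : G) ≠ 1 := fun h => hz (Subtype.ext (Subtype.ext h))
    intro y hy w hw
    by_cases hy1 : y = 1
    · rw [hy1, one_mul, mul_one]
    · obtain ⟨g, rfl⟩ := hconj (z : N) (z : N).2 y hy hz1' hy1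
      have hw' : g⁻¹ * w * g ∈ N := by
        have := hNn.conj_mem w hw g⁻¹
        simpa using this
      have hc := Subgroup.mem_center_iff.mp z.2 ⟨g⁻¹ * w * g, hw'⟩
      have hc' : (g⁻¹ * w * g) * ((z : N) : G) = ((z : N) : G) * (g⁻¹ * w * g) :=
        congrArg Subtype.val hc
      calc g * ((z : N) : G) * g⁻¹ * w = g * (((z : N) : G) * (g⁻¹ * w * g)) * g⁻¹ := by group
        _ = g * ((g⁻¹ * w * g) * ((z : N) : G)) * g⁻¹ := by rw [hc']
        _ = w * (g * ((z : N) : G) * g⁻¹) := by group
  have hstab : ∀ a : α, MulAction.stabilizer N a = ⊥ := by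
    intro a
    rw [eq_bot_iff]
    intro x hx
    rw [Subgroup.mem_bot]
    apply Subtype.ext
    exact hreg x x.2 a (MulAction.mem_stabilizer_iff.mp hx)
  have htrN : MulAction.IsPretransitive N α := by
    constructor
    intro a b
    have h1 := MulAction.index_stabilizer N a
    rw [hstab a, Subgroup.index_bot, hNcard, ← Nat.card_eq_fintype_card] at h1
    have h2' : MulAction.orbit N a = Set.univ := (Set.eq_univ_iff_ncard _).mpr h1.symm
    have h3 : b ∈ MulAction.orbit N a := by rw [h2']; trivial
    exact h3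
  refine ⟨p, j, hp, hj1, by rw [← hNcard, hj], ?_⟩
  intro _ P
  have hPN : (P : Subgroup G) = N := by
    have hle : N ≤ P := hNp.le_sylow_of_normal P
    symm
    apply Subgroup.eq_of_le_of_card_ge hle
    obtain ⟨k, hk⟩ := IsPGroup.iff_card.mp P.2
    have hdvd : Nat.card (P : Subgroup G) ∣ Nat.card G := Subgroup.card_subgroup_dvd_card _
    rw [hk, hcardG, ← hNcard, hj] at hdvd
    have hcop1 : p.Coprime (p ^ j - 1) := by
      rw [Nat.Prime.coprime_iff_not_dvd hp]
      intro hd
      have h1 : p ∣ p ^ j := dvd_pow_self p (by omega)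
      have h2' : p ∣ p ^ j - (p ^ j - 1) := Nat.dvd_sub h1 hd
      have h3 : p ^ j - (p ^ j - 1) = 1 := by
        have : 1 ≤ p ^ j := Nat.one_le_pow _ _ hp.pos
        omega
      rw [h3] at h2'
      exact hp.one_lt.ne' (Nat.dvd_one.mp h2')
    have hcop : (p ^ k).Coprime (p ^ j - 1) := Nat.Coprime.pow_left k hcop1
    have h4 : p ^ k ∣ p ^ j := hcop.dvd_of_dvd_mul_right hdvd
    rw [hk, hj]
    exact Nat.le_of_dvd (pow_pos hp.pos j) h4
  rw [hPN]
  exact ⟨hNn, IsMulCommutative.of_setLike_mul_comm hNab, hexp, htrN, hstab, hNmem⟩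

end Cfsg.Agent.S0680
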