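import Cfsg.Statements.S0681
import Mathlib

set_option autoImplicit false
open Cfsg

namespace Cfsg.Agent.S0681

theorem nf_zero_mul {F : Type*} [Cfsg.NearField F] (a : F) : (0 : F) * a = 0 := by
  have h := Cfsg.NearField.right_distrib (0 : F) 0 a
  rw [add_zero] at h
  have h2 : (0 : F) * a + 0 = 0 * a + 0 * a := by rw [add_zero]; exact h
  exact (add_left_cancel h2).symm

theorem nf_neg_mul {F : Type*} [Cfsg.NearField F] (x a : F) : (-x) * a = -(x * a) := by
  have h := Cfsg.NearField.right_distrib (-x) x a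
  rw [neg_add_cancel, nf_zero_mul] at h
  exact eq_neg_of_add_eq_zero_left h.symm

theorem nf_sub_mul {F : Type*} [Cfsg.NearField F] (x y a : F) : (x - y) * a = x * a - y * a := by
  rw [sub_eq_add_neg, Cfsg.NearField.right_distrib, nf_neg_mul, ← sub_eq_add_neg]

theorem nf_ne_zero_of_mul_eq_one {F : Type*} [Cfsg.NearField F] {a b : F} (h : a * b = 1) :
    a ≠ 0 := by
  rintro rfl
  rw [nf_zero_mul] at h
  exact Cfsg.NearField.zero_ne_one h

theorem nf_mul_ne_zero {F : Type*} [Cfsg.NearField F] {a c : F} (ha : a ≠ 0) (hc : c ≠ 0) :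
    a * c ≠ 0 := by
  intro h
  obtain ⟨d, hd1, hd2⟩ := Cfsg.NearField.exists_inv c hc
  apply ha
  calc a = a * (c * d) := by rw [hd1, mul_one]
    _ = (a * c) * d := by rw [mul_assoc]
    _ = 0 := by rw [h, nf_zero_mul]

/-- The affine permutation `x ↦ x * a + b`. -/
def affMap {F : Type*} [Cfsg.NearField F] (a a' b : F) (h1 : a * a' = 1) (h2 : a' * a = 1) :
    Equiv.Perm F where
  toFun x := x * a + b
  invFun y := (y + -b) * a'
  left_inv x := by
    show (x * a + b + -b) * a' = x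
    rw [add_neg_cancel_right, mul_assoc, h1, mul_one]
  right_inv y := by
    show (y + -b) * a' * a + b = y
    rw [mul_assoc, h2, mul_one, neg_add_cancel_right]

/-- The group of affine permutations of a near-field. -/
def affH (F : Type*) [Cfsg.NearField F] : Subgroup (Equiv.Perm F) where
  carrier := {σ | ∃ a b : F, a ≠ 0 ∧ ∀ x, σ x = x * a + b}
  one_mem' := ⟨1, 0, (Cfsg.NearField.zero_ne_one).symm, fun x => by simp⟩
  mul_mem' := by
    rintro σ τ ⟨a, b, ha, hσ⟩ ⟨c, d, hc, hτ⟩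
    refine ⟨c * a, d * a + b, nf_mul_ne_zero hc ha, fun x => ?_⟩
    rw [Equiv.Perm.mul_apply, hτ, hσ, Cfsg.NearField.right_distrib, mul_assoc, add_assoc]
  inv_mem' := by
    rintro σ ⟨a, b, ha, hσ⟩
    obtain ⟨a', h1, h2⟩ := Cfsg.NearField.exists_inv a ha
    refine ⟨a', (-b) * a', nf_ne_zero_of_mul_eq_one h2, fun x => ?_⟩
    apply σ.injective
    rw [Equiv.Perm.inv_def, Equiv.apply_symm_apply, hσ, Cfsg.NearField.right_distrib, mul_assoc, mul_assoc, h2,
      mul_one, mul_one, neg_add_cancel_right]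

/-- The affine maps `x ↦ x * a + b`, `a ≠ 0`, of a near-field form a sharply doubly transitive permutation group. -/
theorem result {F : Type*} [Cfsg.NearField F] : ∃ H : Subgroup (Equiv.Perm F), (∀ σ : Equiv.Perm F, σ ∈ H ↔ ∃ a b : F, a ≠ 0 ∧ ∀ x : F, σ x = x * a + b) ∧ MulAction.IsMultiplyPretransitive H F 2 ∧ ∀ x : Fin 2 ↪ F, MulAction.stabilizer H x = ⊥ := by
  refine ⟨affH F, fun σ => Iff.rfl, ?_, ?_⟩
  · rw [MulAction.is_two_pretransitive_iff]
    intro x₁ x₂ y₁ y₂ hx hy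
    have hx' : x₁ - x₂ ≠ 0 := sub_ne_zero.mpr hx
    have hy' : y₁ - y₂ ≠ 0 := sub_ne_zero.mpr hy
    obtain ⟨u, hu1, hu2⟩ := Cfsg.NearField.exists_inv _ hx'
    obtain ⟨w, hw1, hw2⟩ := Cfsg.NearField.exists_inv _ hy'
    have h1 : (u * (y₁ - y₂)) * (w * (x₁ - x₂)) = 1 := by
      rw [mul_assoc, ← mul_assoc (y₁ - y₂), hw1, one_mul, hu2]
    have h2 : (w * (x₁ - x₂)) * (u * (y₁ - y₂)) = 1 := by
      rw [mul_assoc, ← mul_assoc (x₁ - x₂), hu1, one_mul, hw2]
    have hσ : affMap (u * (y₁ - y₂)) (w * (x₁ - x₂)) (-(x₁ * (u * (y₁ - y₂))) + y₁) h1 h2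
        ∈ affH F := ⟨u * (y₁ - y₂), _, nf_ne_zero_of_mul_eq_one h1, fun x => rfl⟩
    refine ⟨⟨_, hσ⟩, ?_, ?_⟩
    · show x₁ * (u * (y₁ - y₂)) + (-(x₁ * (u * (y₁ - y₂))) + y₁) = y₁
      rw [← add_assoc, add_neg_cancel, zero_add]
    · show x₂ * (u * (y₁ - y₂)) + (-(x₁ * (u * (y₁ - y₂))) + y₁) = y₂
      have h3 : (x₁ - x₂) * (u * (y₁ - y₂)) = y₁ - y₂ := by rw [← mul_assoc, hu1, one_mul]
      rw [← add_assoc, ← sub_eq_add_neg, ← nf_sub_mul, ← neg_sub x₁ x₂, nf_neg_mul, h3]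
      simp
  · intro x
    rw [eq_bot_iff]
    rintro ⟨σ, a, b, ha, hσ⟩ hg
    rw [MulAction.mem_stabilizer_iff] at hg
    have h0 : σ (x 0) = x 0 := congrArg (fun e : Fin 2 ↪ F => e 0) hg
    have h1 : σ (x 1) = x 1 := congrArg (fun e : Fin 2 ↪ F => e 1) hg
    have hne : x 0 ≠ x 1 := fun h => by
      have := x.injective h
      simp at this
    rw [hσ] at h0 h1
    have h3 : (x 0 - x 1) * a = x 0 - x 1 := by
      rw [nf_sub_mul]
      have h4 : x 0 * a + b - (x 1 * a + b) = x 0 - x 1 := by rw [h0, h1]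
      rw [← h4, add_sub_add_right_eq_sub]
    obtain ⟨u, hu1, hu2⟩ := Cfsg.NearField.exists_inv _ (sub_ne_zero.mpr hne)
    have ha1 : a = 1 := by
      calc a = (u * (x 0 - x 1)) * a := by rw [hu2, one_mul]
        _ = u * ((x 0 - x 1) * a) := mul_assoc _ _ _
        _ = 1 := by rw [h3, hu2]
    rw [ha1, mul_one] at h0
    have hb : b = 0 := by simpa using h0
    rw [Subgroup.mem_bot]
    apply Subtype.ext
    ext y
    show σ y = y
    rw [hσ, ha1, hb, mul_one, add_zero]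

end Cfsg.Agent.S0681
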