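import Cfsg.Statements.S0682
import Mathlib

set_option autoImplicit false
open Cfsg

namespace Cfsg.Agent.S0682

theorem nf_zero_mul {F : Type*} [Cfsg.NearField F] (a : F) : (0 : F) * a = 0 := by
  have h := Cfsg.NearField.right_distrib (0 : F) 0 a
  rw [add_zero] at h
  have h2 : (0 : F) * a + 0 = 0 * a + 0 * a := by rw [add_zero]; exact h
  exact (add_left_cancel h2).symm

theorem nf_neg_mul {F : Type*} [Cfsg.NearField F] (x a : F) : (-x) * a = -(x * a) := by
  have h := Cfsg.NearField.right_distrib (-x) x a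
  rw [neg_add_cancel, nf_zero_mul] at h
  exact eq_neg_of_add_eq_zero_left h.symm

theorem nf_sub_mul {F : Type*} [Cfsg.NearField F] (x y a : F) : (x - y) * a = x * a - y * a := by
  rw [sub_eq_add_neg, Cfsg.NearField.right_distrib, nf_neg_mul, ← sub_eq_add_neg]

theorem nf_ne_zero_of_mul_eq_one {F : Type*} [Cfsg.NearField F] {a b : F} (h : a * b = 1) :
    a ≠ 0 := by
  rintro rfl
  rw [nf_zero_mul] at h
  exact Cfsg.NearField.zero_ne_one h

theorem nf_nsmul_mul {F : Type*} [Cfsg.NearField F] (n : ℕ) (y c : F) :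
    (n • y) * c = n • (y * c) := by
  induction n with
  | zero => rw [zero_nsmul, zero_nsmul, nf_zero_mul]
  | succ k ih => rw [succ_nsmul, succ_nsmul, Cfsg.NearField.right_distrib, ih]

/-- A finite near-field has prime-power order; its additive group is commutative of prime exponent. -/
theorem result {F : Type*} [Cfsg.NearField F] [Finite F] : ∃ p j : ℕ, p.Prime ∧ 1 ≤ j ∧ Nat.card F = p ^ j ∧ (∀ x y : F, x + y = y + x) ∧ ∀ x : F, p • x = 0 := by
  have hnt : Nontrivial F := ⟨⟨0, 1, Cfsg.NearField.zero_ne_one⟩⟩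
  have hcard : 1 < Nat.card F := Finite.one_lt_card
  set p := (Nat.card F).minFac with hp
  have hpp : p.Prime := Nat.minFac_prime (by omega)
  have hfact : Fact p.Prime := ⟨hpp⟩
  have hdvd : p ∣ Nat.card F := Nat.minFac_dvd _
  obtain ⟨y, hy⟩ := exists_prime_addOrderOf_dvd_card' p hdvd
  have hy0 : y ≠ 0 := by
    rintro rfl
    rw [addOrderOf_zero] at hy
    exact hpp.ne_one hy.symm
  have hpy : p • y = 0 := by rw [← hy]; exact addOrderOf_nsmul_eq_zero y
  have hall : ∀ x : F, p • x = 0 := by
    intro x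
    obtain ⟨u, hu1, hu2⟩ := Cfsg.NearField.exists_inv y hy0
    have hx : x = y * (u * x) := by rw [← mul_assoc, hu1, one_mul]
    rw [hx, ← nf_nsmul_mul, hpy, nf_zero_mul]
  have hPG : IsPGroup p (Multiplicative F) := by
    intro g
    refine ⟨1, ?_⟩
    rw [pow_one]
    exact congrArg Multiplicative.ofAdd (hall (Multiplicative.toAdd g))
  obtain ⟨j, hj⟩ := IsPGroup.iff_card.mp hPG
  have hj' : Nat.card F = p ^ j := by rw [← hj]; rfl
  refine ⟨p, j, hpp, ?_, hj', ?_, hall⟩
  · by_contra h
    have hj0 : j = 0 := by omega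
    rw [hj0, pow_zero] at hj'
    omega
  · have hnt' : Nontrivial (Multiplicative F) := hnt
    have hfin : Finite (Multiplicative F) := inferInstance
    have hZ := hPG.center_nontrivial
    obtain ⟨⟨z, hz⟩, hz1⟩ := exists_ne (1 : Subgroup.center (Multiplicative F))
    have hz0 : Multiplicative.toAdd z ≠ 0 := by
      intro h
      apply hz1
      apply Subtype.ext
      exact h
    have hzc : ∀ x : F, Multiplicative.toAdd z + x = x + Multiplicative.toAdd z := by
      intro x
      have := Subgroup.mem_center_iff.mp hz (Multiplicative.ofAdd x)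
      exact this.symm
    intro w x
    by_cases hw : w = 0
    · rw [hw, zero_add, add_zero]
    obtain ⟨u, hu1, hu2⟩ := Cfsg.NearField.exists_inv _ hz0
    have hzc' : Multiplicative.toAdd z * (u * w) = w := by rw [← mul_assoc, hu1, one_mul]
    have hc0 : u * w ≠ 0 := by
      intro h0
      rw [h0, Cfsg.NearField.mul_zero] at hzc'
      exact hw hzc'.symm
    obtain ⟨c', hc1, hc2⟩ := Cfsg.NearField.exists_inv _ hc0
    have hx : (x * c') * (u * w) = x := by rw [mul_assoc, hc2, mul_one]
    calc w + x = Multiplicative.toAdd z * (u * w) + (x * c') * (u * w) := by rw [hzc', hx]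
      _ = (Multiplicative.toAdd z + x * c') * (u * w) := (Cfsg.NearField.right_distrib _ _ _).symm
      _ = (x * c' + Multiplicative.toAdd z) * (u * w) := by rw [hzc]
      _ = (x * c') * (u * w) + Multiplicative.toAdd z * (u * w) := Cfsg.NearField.right_distrib _ _ _
      _ = x + w := by rw [hzc', hx]

end Cfsg.Agent.S0682
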