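import Cfsg.Statements.S0683
import Cfsg.Agent.S0680

set_option autoImplicit false
open Cfsg

namespace Cfsg.Agent.S0683

universe u

/-- The data extracted from a sharply 2-transitive group: a regular normal abelian subgroup, two
base points, and the sharp 2-transitivity itself. -/
structure NFData (α : Type u) (H : Subgroup (Equiv.Perm α)) where
  N : Subgroup H
  normal : N.Normal
  comm : ∀ y ∈ N, ∀ w ∈ N, y * w = w * y
  trans : ∀ a b : α, ∃ n ∈ N, n • a = b
  reg : ∀ n ∈ N, ∀ a : α, n • a = a → n = 1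
  o : α
  e : α
  hoe : o ≠ e
  two : ∀ {a b c d : α}, a ≠ b → c ≠ d → ∃ g : H, g • a = c ∧ g • b = d
  fix2 : ∀ (x : H) (a b : α), a ≠ b → x • a = a → x • b = b → x = 1

section

variable {α : Type u} {H : Subgroup (Equiv.Perm α)} (D : NFData α H)

/-- The translation taking the origin to `x`. -/
noncomputable def nu (x : α) : H := Classical.choose (D.trans D.o x)

theorem nu_mem (x : α) : nu D x ∈ D.N := (Classical.choose_spec (D.trans D.o x)).1

theorem nu_smul (x : α) : nu D x • D.o = x := (Classical.choose_spec (D.trans D.o x)).2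

theorem nu_unique {n : H} (hn : n ∈ D.N) {x : α} (h : n • D.o = x) : n = nu D x := by
  have h1 : (nu D x)⁻¹ * n ∈ D.N := D.N.mul_mem (D.N.inv_mem (nu_mem D x)) hn
  have h2 : ((nu D x)⁻¹ * n) • D.o = D.o := by
    rw [mul_smul, h, inv_smul_eq_iff, nu_smul]
  have := D.reg _ h1 _ h2
  exact (inv_mul_eq_one.mp this).symm

theorem nu_o : nu D D.o = 1 := (nu_unique D D.N.one_mem (one_smul _ _)).symm

open Classical in
/-- The element fixing the origin and taking the unit point to `a`. -/
noncomputable def mu (a : α) : H :=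
  if h : a = D.o then 1 else Classical.choose (D.two D.hoe (fun h' => h h'.symm))

theorem mu_o : mu D D.o = 1 := by
  unfold mu
  rw [dif_pos rfl]

theorem mu_spec {a : α} (h : a ≠ D.o) : mu D a • D.o = D.o ∧ mu D a • D.e = a := by
  unfold mu
  rw [dif_neg h]
  exact Classical.choose_spec (D.two D.hoe (fun h' => h h'.symm))

theorem mu_fix (a : α) : mu D a • D.o = D.o := by
  by_cases h : a = D.o
  · rw [h, mu_o, one_smul]
  · exact (mu_spec D h).1

theorem mu_unique {g : H} (h0 : g • D.o = D.o) {a : α} (ha : a ≠ D.o) (h1 : g • D.e = a) :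
    g = mu D a := by
  have : (mu D a)⁻¹ * g = 1 := by
    apply D.fix2 _ D.o D.e D.hoe
    · rw [mul_smul, h0, inv_smul_eq_iff, (mu_spec D ha).1]
    · rw [mul_smul, h1, inv_smul_eq_iff, (mu_spec D ha).2]
  exact (inv_mul_eq_one.mp this).symm

theorem mu_e : mu D D.e = 1 :=
  (mu_unique D (one_smul _ _) D.hoe.symm (one_smul _ _)).symm

/-- Addition. -/
noncomputable def add' (x y : α) : α := (nu D x * nu D y) • D.o

/-- Negation. -/
noncomputable def neg' (x : α) : α := (nu D x)⁻¹ • D.o

open Classical in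
/-- Multiplication. -/
noncomputable def mul' (x a : α) : α := if a = D.o then D.o else mu D a • x

theorem nu_add (x y : α) : nu D (add' D x y) = nu D x * nu D y :=
  (nu_unique D (D.N.mul_mem (nu_mem D x) (nu_mem D y)) rfl).symm

theorem nu_neg (x : α) : nu D (neg' D x) = (nu D x)⁻¹ :=
  (nu_unique D (D.N.inv_mem (nu_mem D x)) rfl).symm

theorem add'_assoc (x y z : α) : add' D (add' D x y) z = add' D x (add' D y z) := by
  show (nu D (add' D x y) * nu D z) • D.o = (nu D x * nu D (add' D y z)) • D.o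
  rw [nu_add, nu_add, mul_assoc]

theorem zero_add' (x : α) : add' D D.o x = x := by
  unfold add'
  rw [nu_o, one_mul, nu_smul]

theorem add_zero' (x : α) : add' D x D.o = x := by
  unfold add'
  rw [nu_o, mul_one, nu_smul]

theorem neg_add' (x : α) : add' D (neg' D x) x = D.o := by
  unfold add'
  rw [nu_neg, inv_mul_cancel, one_smul]

theorem add'_eq (x y : α) : add' D x y = nu D y • x := by
  unfold add'
  rw [D.comm _ (nu_mem D x) _ (nu_mem D y), mul_smul, nu_smul]

theorem mul'_o (x : α) : mul' D x D.o = D.o := by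
  unfold mul'
  rw [if_pos rfl]

theorem mul'_of_ne (x : α) {a : α} (ha : a ≠ D.o) : mul' D x a = mu D a • x := by
  unfold mul'
  rw [if_neg ha]

theorem o_mul' (a : α) : mul' D D.o a = D.o := by
  by_cases ha : a = D.o
  · rw [ha, mul'_o]
  · rw [mul'_of_ne D _ ha, mu_fix]

theorem mul'_ne {x a : α} (hx : x ≠ D.o) (ha : a ≠ D.o) : mul' D x a ≠ D.o := by
  rw [mul'_of_ne D _ ha]
  intro h
  apply hx
  have h1 : mu D a • x = mu D a • D.o := by rw [h, mu_fix]
  exact MulAction.injective (mu D a) h1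

theorem mu_mul' {a b : α} (ha : a ≠ D.o) (hb : b ≠ D.o) :
    mu D (mul' D a b) = mu D b * mu D a := by
  symm
  apply mu_unique D
  · rw [mul_smul, mu_fix, mu_fix]
  · exact mul'_ne D ha hb
  · rw [mul_smul, (mu_spec D ha).2, mul'_of_ne D _ hb]

theorem mul'_assoc (x a b : α) : mul' D (mul' D x a) b = mul' D x (mul' D a b) := by
  by_cases hb : b = D.o
  · rw [hb, mul'_o, mul'_o, mul'_o]
  · by_cases ha : a = D.o
    · rw [ha, mul'_o, o_mul', mul'_o]
    · rw [mul'_of_ne D _ (mul'_ne D ha hb), mu_mul' D ha hb, mul'_of_ne D _ hb,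
        mul'_of_ne D _ ha, mul_smul]

theorem one_mul' (a : α) : mul' D D.e a = a := by
  by_cases ha : a = D.o
  · rw [ha, mul'_o]
  · rw [mul'_of_ne D _ ha, (mu_spec D ha).2]

theorem mul'_one (a : α) : mul' D a D.e = a := by
  rw [mul'_of_ne D _ D.hoe.symm, mu_e, one_smul]

theorem conj_nu (g : H) (hg : g • D.o = D.o) (x : α) : g * nu D x * g⁻¹ = nu D (g • x) := by
  apply nu_unique D (D.normal.conj_mem _ (nu_mem D x) g)
  have hg' : g⁻¹ • D.o = D.o := by rw [inv_smul_eq_iff, hg]
  rw [mul_smul, mul_smul, hg', nu_smul]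

theorem right_distrib' (x y c : α) :
    mul' D (add' D x y) c = add' D (mul' D x c) (mul' D y c) := by
  by_cases hc : c = D.o
  · rw [hc, mul'_o, mul'_o, mul'_o, zero_add']
  · rw [mul'_of_ne D _ hc, mul'_of_ne D _ hc, mul'_of_ne D _ hc]
    unfold add'
    rw [← conj_nu D _ (mu_fix D c), ← conj_nu D _ (mu_fix D c)]
    have hg' : (mu D c)⁻¹ • D.o = D.o := by rw [inv_smul_eq_iff, mu_fix]
    have e1 : mu D c * nu D x * (mu D c)⁻¹ * (mu D c * nu D y * (mu D c)⁻¹)
        = mu D c * (nu D x * nu D y) * (mu D c)⁻¹ := by group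
    rw [e1]
    simp only [mul_smul, hg']

theorem exists_inv' (a : α) (ha : a ≠ D.o) :
    ∃ b : α, mul' D a b = D.e ∧ mul' D b a = D.e := by
  have hb : (mu D a)⁻¹ • D.e ≠ D.o := by
    intro h
    rw [inv_smul_eq_iff, mu_fix] at h
    exact D.hoe h.symm
  have hmu : (mu D a)⁻¹ = mu D ((mu D a)⁻¹ • D.e) := by
    apply mu_unique D _ hb rfl
    rw [inv_smul_eq_iff, mu_fix]
  refine ⟨(mu D a)⁻¹ • D.e, ?_, ?_⟩
  · rw [mul'_of_ne D _ hb, ← hmu, inv_smul_eq_iff, (mu_spec D ha).2]
  · rw [mul'_of_ne D _ ha, smul_inv_smul]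

/-- The additive group. -/
@[reducible] noncomputable def addGroup : AddGroup α :=
  @AddGroup.ofLeftAxioms α ⟨add' D⟩ ⟨neg' D⟩ ⟨D.o⟩ (add'_assoc D) (zero_add' D) (neg_add' D)

/-- The multiplicative monoid. -/
@[reducible] noncomputable def monoid : Monoid α where
  mul := mul' D
  mul_assoc := mul'_assoc D
  one := D.e
  one_mul := one_mul' D
  mul_one := mul'_one D
  npow := @npowRec α ⟨D.e⟩ ⟨mul' D⟩
  npow_zero := fun _ => rfl
  npow_succ := fun _ _ => rfl

/-- The near-field structure. -/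
@[reducible] noncomputable def nearField : Cfsg.NearField α where
  toAddGroup := addGroup D
  toMonoid := monoid D
  right_distrib := right_distrib' D
  mul_zero := mul'_o D
  zero_ne_one := D.hoe
  exists_inv := exists_inv' D

theorem mem_iff (σ : Equiv.Perm α) :
    σ ∈ H ↔ ∃ a b : α, a ≠ D.o ∧ ∀ x : α, σ x = add' D (mul' D x a) b := by
  constructor
  · intro hσ
    have hg0 : ((nu D (σ D.o))⁻¹ * (⟨σ, hσ⟩ : H)) • D.o = D.o := by
      rw [mul_smul, inv_smul_eq_iff, nu_smul]
      rfl
    have hge : ((nu D (σ D.o))⁻¹ * (⟨σ, hσ⟩ : H)) • D.e ≠ D.o := by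
      intro h
      have h1 := h.trans hg0.symm
      exact D.hoe (MulAction.injective _ h1).symm
    have hmu := mu_unique D hg0 hge rfl
    refine ⟨_, σ D.o, hge, ?_⟩
    intro x
    rw [add'_eq, mul'_of_ne D _ hge, ← hmu, ← mul_smul, mul_inv_cancel_left]
    rfl
  · rintro ⟨a, b, ha, h⟩
    have : σ = ((nu D b * mu D a : H) : Equiv.Perm α) := by
      ext x
      rw [h x, add'_eq, mul'_of_ne D _ ha, ← mul_smul]
      rfl
    rw [this]
    exact (nu D b * mu D a : H).2

end

/-- A finite sharply doubly transitive permutation group is the affine group of a near-field: the permuted set carries a near-field structure for which the group consists exactly of the maps `x ↦ x * a + b` with `a ≠ 0`. -/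
theorem result {α : Type*} [Fintype α] [DecidableEq α] (H : Subgroup (Equiv.Perm α)) [MulAction.IsMultiplyPretransitive H α 2] (hsharp : ∀ x : Fin 2 ↪ α, MulAction.stabilizer H x = ⊥) (h2 : 2 ≤ Fintype.card α) : ∃ _ : Cfsg.NearField α, ∀ σ : Equiv.Perm α, σ ∈ H ↔ ∃ a b : α, a ≠ 0 ∧ ∀ x : α, σ x = x * a + b := by
  classical
  obtain ⟨p, j, hp, hj, hcard, hall⟩ := Cfsg.Agent.S0680.result H hsharp h2
  have hpF : Fact p.Prime := ⟨hp⟩
  obtain ⟨P⟩ : Nonempty (Sylow p H) := inferInstance
  obtain ⟨hPn, hPc, -, hPt, hPs, -⟩ := hall hpF P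
  obtain ⟨o, e, hoe⟩ := Fintype.one_lt_card_iff.mp (show 1 < Fintype.card α by omega)
  have h2t : ∀ {a b c d : α}, a ≠ b → c ≠ d → ∃ g : H, g • a = c ∧ g • b = d :=
    MulAction.is_two_pretransitive_iff.mp inferInstance
  let D : NFData α H :=
    { N := (P : Subgroup H)
      normal := hPn
      comm := fun y hy w hw => setLike_mul_comm hy hw
      trans := fun a b => by
        obtain ⟨n, hn⟩ := MulAction.exists_smul_eq (P : Subgroup H) a b
        exact ⟨n, n.2, hn⟩
      reg := fun n hn a ha => by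
        have h1 : (⟨n, hn⟩ : (P : Subgroup H)) ∈ MulAction.stabilizer (P : Subgroup H) a :=
          MulAction.mem_stabilizer_iff.mpr ha
        rw [hPs a, Subgroup.mem_bot] at h1
        exact congrArg Subtype.val h1
      o := o
      e := e
      hoe := hoe
      two := h2t
      fix2 := Cfsg.Agent.S0680.fix2 H hsharp }
  exact ⟨nearField D, mem_iff D⟩

end Cfsg.Agent.S0683
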