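import Cfsg.Statements.S0684
import Mathlib

set_option autoImplicit false
open Cfsg

namespace Cfsg.Agent.S0684

theorem isCyclic_of_irreducible {K V A : Type*} [Field K] [AddCommGroup V] [Module K V]
    [CommGroup A] [Finite A] (ρ : A →* Module.End K V) (W : Submodule K V) (hW0 : W ≠ ⊥)
    (hWinv : ∀ a, ∀ w ∈ W, ρ a w ∈ W)
    (hmin : ∀ W' : Submodule K V, W' ≤ W → (∀ a, ∀ w ∈ W', ρ a w ∈ W') → W' = ⊥ ∨ W' = W)
    (hinj : ∀ a b, (∀ w ∈ W, ρ a w = ρ b w) → a = b) : IsCyclic A := by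
  classical
  let φ : MonoidAlgebra K A →ₐ[K] Module.End K V := MonoidAlgebra.lift K (Module.End K V) A ρ
  have hφof : ∀ a, φ (MonoidAlgebra.of K A a) = ρ a := fun a => MonoidAlgebra.lift_of ρ a
  have hφinv : ∀ x, ∀ w ∈ W, φ x w ∈ W := by
    intro x
    induction x using MonoidAlgebra.induction_on with
    | of a => intro w hw; rw [hφof]; exact hWinv a w hw
    | add x y hx hy =>
      intro w hw
      rw [map_add, LinearMap.add_apply]
      exact W.add_mem (hx w hw) (hy w hw)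
    | smul r x hx =>
      intro w hw
      rw [map_smul, LinearMap.smul_apply]
      exact W.smul_mem r (hx w hw)
  have hcomm : ∀ x y, φ x * φ y = φ y * φ x := by
    intro x y
    rw [← map_mul, mul_comm, map_mul]
  let I : Ideal (MonoidAlgebra K A) :=
    { carrier := {x | ∀ w ∈ W, φ x w = 0}
      add_mem' := by
        intro x y hx hy w hw
        rw [map_add, LinearMap.add_apply, hx w hw, hy w hw, add_zero]
      zero_mem' := by
        intro w hw
        rw [map_zero, LinearMap.zero_apply]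
      smul_mem' := by
        intro c x hx w hw
        rw [smul_eq_mul, map_mul, Module.End.mul_apply, hx w hw, map_zero] }
  have hImem : ∀ x, x ∈ I ↔ ∀ w ∈ W, φ x w = 0 := fun x => Iff.rfl
  obtain ⟨w0, hw0W, hw0⟩ := Submodule.exists_mem_ne_zero_of_ne_bot hW0
  have hIprime : I.IsPrime := by
    refine ⟨?_, ?_⟩
    · intro htop
      have h1 : (1 : MonoidAlgebra K A) ∈ I := by rw [htop]; trivial
      have := (hImem 1).mp h1 w0 hw0W
      rw [map_one, Module.End.one_apply] at this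
      exact hw0 this
    · intro x y hxy
      by_contra hcon
      push Not at hcon
      obtain ⟨hx, hy⟩ := hcon
      have hW' := hmin (W ⊓ LinearMap.ker (φ x)) inf_le_left (by
        intro a w hw
        rw [Submodule.mem_inf, LinearMap.mem_ker] at hw ⊢
        refine ⟨hWinv a w hw.1, ?_⟩
        have h1 : φ x (ρ a w) = (φ x * φ (MonoidAlgebra.of K A a)) w := by
          rw [Module.End.mul_apply, hφof]
        rw [h1, hcomm, Module.End.mul_apply, hw.2, map_zero])
      rcases hW' with hW' | hW'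
      · apply hy
        rw [hImem]
        intro w hw
        have h2 : φ y w ∈ W ⊓ LinearMap.ker (φ x) := by
          rw [Submodule.mem_inf, LinearMap.mem_ker]
          refine ⟨hφinv y w hw, ?_⟩
          have := (hImem _).mp hxy w hw
          rwa [map_mul, Module.End.mul_apply] at this
        rw [hW'] at h2
        exact (Submodule.mem_bot K).mp h2
      · apply hx
        rw [hImem]
        intro w hw
        have h2 : w ∈ W ⊓ LinearMap.ker (φ x) := by rw [hW']; exact hw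
        exact LinearMap.mem_ker.mp (Submodule.mem_inf.mp h2).2
  let f : A →* (MonoidAlgebra K A ⧸ I) :=
    (Ideal.Quotient.mk I).toMonoidHom.comp (MonoidAlgebra.of K A)
  have hf : Function.Injective f := by
    intro a b hab
    have h1 : Ideal.Quotient.mk I (MonoidAlgebra.of K A a)
        = Ideal.Quotient.mk I (MonoidAlgebra.of K A b) := hab
    rw [Ideal.Quotient.eq, hImem] at h1
    apply hinj
    intro w hw
    have h2 := h1 w hw
    rw [map_sub, LinearMap.sub_apply, hφof, hφof, sub_eq_zero] at h2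
    exact h2
  exact isCyclic_of_injective_ringHom f hf

/-- Point stabiliser of a sharply doubly transitive group not of semilinear type: a maximal normal abelian subgroup `A` of a linear group `H` that is regular on non-zero vectors and has no irreducible cyclic normal subgroup is cyclic and reducible, and the order of `A` divides `p ^ k - 1` for `k` the dimension of a minimal `A`-invariant subspace. -/
theorem result {p : ℕ} [Fact p.Prime] {V : Type*} [AddCommGroup V] [Module (ZMod p) V] [Finite V] (H : Subgroup (V ≃ₗ[ZMod p] V)) (hreg : ∀ v w : V, v ≠ 0 → w ≠ 0 → ∃! h : H, (h : V ≃ₗ[ZMod p] V) v = w) (hI : ∀ A : Subgroup H, A.Normal → IsCyclic A → ∃ W : Submodule (ZMod p) V, W ≠ ⊥ ∧ W ≠ ⊤ ∧ ∀ a ∈ A, ∀ v ∈ W, ((a : H) : V ≃ₗ[ZMod p] V) v ∈ W) (A : Subgroup H) (hAn : A.Normal) (hAc : IsMulCommutative A) (hAmax : ∀ B : Subgroup H, B.Normal → IsMulCommutative B → A ≤ B → B = A) : IsCyclic A ∧ ∃ W : Submodule (ZMod p) V, W ≠ ⊥ ∧ W ≠ ⊤ ∧ (∀ a ∈ A, ∀ v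 ∈ W, ((a : H) : V ≃ₗ[ZMod p] V) v ∈ W) ∧ (∀ W' : Submodule (ZMod p) V, W' ≤ W → (∀ a ∈ A, ∀ v ∈ W', ((a : H) : V ≃ₗ[ZMod p] V) v ∈ W') → W' = ⊥ ∨ W' = W) ∧ Nat.card A ∣ p ^ Module.finrank (ZMod p) W - 1 := by
  classical
  have hfinV : Finite (V ≃ₗ[ZMod p] V) :=
    Finite.of_injective (fun f : V ≃ₗ[ZMod p] V => (f : V → V)) DFunLike.coe_injective
  have hfree : ∀ a b : H, ∀ v : V, v ≠ 0 →
      (a : V ≃ₗ[ZMod p] V) v = (b : V ≃ₗ[ZMod p] V) v → a = b := by
    intro a b v hv hab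
    have hne : (b : V ≃ₗ[ZMod p] V) v ≠ 0 := fun h =>
      hv ((LinearEquiv.map_eq_zero_iff _).mp h)
    obtain ⟨h, -, huniq⟩ := hreg v ((b : V ≃ₗ[ZMod p] V) v) hv hne
    rw [huniq a hab, huniq b rfl]
  let ρ : A →* Module.End (ZMod p) V :=
    { toFun := fun a => (((a : H) : V ≃ₗ[ZMod p] V) : V →ₗ[ZMod p] V)
      map_one' := rfl
      map_mul' := fun a b => rfl }
  have hρ : ∀ (a : A) (v : V), ρ a v = ((a : H) : V ≃ₗ[ZMod p] V) v := fun a v => rfl
  have hfin : Finite (Submodule (ZMod p) V) :=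
    Finite.of_injective (fun W : Submodule (ZMod p) V => (W : Set V)) SetLike.coe_injective
  have hexmin : ∀ U : Submodule (ZMod p) V, U ≠ ⊥ →
      (∀ a ∈ A, ∀ v ∈ U, ((a : H) : V ≃ₗ[ZMod p] V) v ∈ U) →
      ∃ W : Submodule (ZMod p) V, W ≤ U ∧ W ≠ ⊥ ∧
        (∀ a ∈ A, ∀ v ∈ W, ((a : H) : V ≃ₗ[ZMod p] V) v ∈ W) ∧
        (∀ W' : Submodule (ZMod p) V, W' ≤ W →
          (∀ a ∈ A, ∀ v ∈ W', ((a : H) : V ≃ₗ[ZMod p] V) v ∈ W') → W' = ⊥ ∨ W' = W) := by
    intro U hU hUinv
    let S : Set (Submodule (ZMod p) V) :=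
      {W | W ≤ U ∧ W ≠ ⊥ ∧ ∀ a ∈ A, ∀ v ∈ W, ((a : H) : V ≃ₗ[ZMod p] V) v ∈ W}
    have hSne : S.Nonempty := ⟨U, le_rfl, hU, hUinv⟩
    obtain ⟨W, hWS, hWmin⟩ := S.toFinite.exists_minimal hSne
    refine ⟨W, hWS.1, hWS.2.1, hWS.2.2, ?_⟩
    intro W' hW' hinv
    by_cases h0 : W' = ⊥
    · exact Or.inl h0
    · right
      exact le_antisymm hW' (hWmin ⟨hW'.trans hWS.1, h0, hinv⟩ hW')
  have hVne : (⊤ : Submodule (ZMod p) V) ≠ ⊥ := by
    obtain ⟨W, hW0, -, -⟩ := hI ⊥ inferInstance inferInstance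
    intro h
    exact hW0 (le_bot_iff.mp (h ▸ le_top))
  obtain ⟨W1, -, hW1ne, hW1inv, hW1min⟩ := hexmin ⊤ hVne (fun _ _ _ _ => trivial)
  have hcyc : IsCyclic A := by
    open IsMulCommutative in
    refine isCyclic_of_irreducible ρ W1 hW1ne (fun a w hw => hW1inv a a.2 w hw)
      (fun W' hW' hinv => hW1min W' hW' (fun a ha v hv => hinv ⟨a, ha⟩ v hv)) ?_
    intro a b hab
    obtain ⟨w0, hw0W, hw0⟩ := Submodule.exists_mem_ne_zero_of_ne_bot hW1ne
    exact Subtype.ext (hfree a b w0 hw0 (hab w0 hw0W))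
  refine ⟨hcyc, ?_⟩
  obtain ⟨W0, hW0ne, hW0top, hW0inv⟩ := hI A hAn hcyc
  obtain ⟨W, hWle, hWne, hWinv, hWmin⟩ := hexmin W0 hW0ne hW0inv
  refine ⟨W, hWne, ?_, hWinv, hWmin, ?_⟩
  · intro h
    apply hW0top
    rw [h] at hWle
    exact top_le_iff.mp hWle
  · have hcardW : Nat.card W = p ^ Module.finrank (ZMod p) W := by
      rw [Module.natCard_eq_pow_finrank (K := ZMod p) (V := W), Nat.card_zmod]
    rw [← hcardW]
    let β := {v : V // v ∈ W ∧ v ≠ 0}
    let _ : MulAction A β :=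
      { smul := fun a x => ⟨((a : H) : V ≃ₗ[ZMod p] V) x.1, hWinv a a.2 x.1 x.2.1,
          fun h => x.2.2 ((LinearEquiv.map_eq_zero_iff _).mp h)⟩
        one_smul := fun x => Subtype.ext rfl
        mul_smul := fun a b x => Subtype.ext rfl }
    have hstab : ∀ x : β, MulAction.stabilizer A x = ⊥ := by
      intro x
      rw [eq_bot_iff]
      intro a ha
      rw [MulAction.mem_stabilizer_iff] at ha
      have h1 : ((a : H) : V ≃ₗ[ZMod p] V) x.1 = ((1 : H) : V ≃ₗ[ZMod p] V) x.1 :=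
        congrArg Subtype.val ha
      have h2 : (a : H) = 1 := hfree a 1 x.1 x.2.2 h1
      rw [Subgroup.mem_bot]
      exact Subtype.ext h2
    have e := MulAction.selfEquivOrbitsQuotientProd hstab
    have hβ : Nat.card β = Nat.card W - 1 := by
      have h1 : Nat.card β = Set.ncard ((W : Set V) \ {0}) := by
        rw [← Nat.card_coe_set_eq]
        exact Nat.card_congr (Equiv.subtypeEquivRight (fun v => by simp))
      rw [h1, Set.ncard_sdiff_singleton_of_mem (show (0 : V) ∈ (W : Set V) from W.zero_mem)]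
      rfl
    have h3 : Nat.card β = Nat.card (Quotient (MulAction.orbitRel A β)) * Nat.card A := by
      rw [Nat.card_congr e, Nat.card_prod]
    rw [← hβ, h3]
    exact dvd_mul_left _ _

end Cfsg.Agent.S0684
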