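import Cfsg.Statements.S0685
import Mathlib
import Cfsg.Agent.S0684

set_option autoImplicit false
open Cfsg

namespace Cfsg.Agent.S0685

/-- In a linear group over the prime field that is regular on non-zero vectors and has no irreducible cyclic normal subgroup, a maximal normal abelian subgroup is properly contained in its centraliser, which is non-abelian. -/
theorem result {p : ℕ} [Fact p.Prime] {V : Type*} [AddCommGroup V] [Module (ZMod p) V] [Finite V] (H : Subgroup (V ≃ₗ[ZMod p] V)) (hreg : ∀ v w : V, v ≠ 0 → w ≠ 0 → ∃! h : H, (h : V ≃ₗ[ZMod p] V) v = w) (hI : ∀ A : Subgroup H, A.Normal → IsCyclic A → ∃ W : Submodule (ZMod p) V, W ≠ ⊥ ∧ W ≠ ⊤ ∧ ∀ a ∈ A, ∀ v ∈ W, ((a : H) : V ≃ₗ[ZMod p] V) v ∈ W) (A : Subgroup H) (hAn : A.Normal) (hAc : IsMulCommutative A) (hAmax : ∀ B : Subgroup H, B.Normal → IsMulCommutative B → A ≤ B → B = A) : A < Subgroup.centralizer (A : Set H) ∧ ¬ IsMulCommutative (Subgroup.centralizer (A : Set H)) := by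
  classical
  have hp : p.Prime := Fact.out
  have hfinV : Finite (V ≃ₗ[ZMod p] V) :=
    Finite.of_injective (fun f : V ≃ₗ[ZMod p] V => (f : V → V)) DFunLike.coe_injective
  obtain ⟨hcyc, W, hW0, hWtop, hWinv, hWmin, hdvd⟩ :=
    Cfsg.Agent.S0684.result H hreg hI A hAn hAc hAmax
  have hle : A ≤ Subgroup.centralizer (A : Set H) :=
    Subgroup.le_centralizer_iff_isMulCommutative.mpr hAc
  have hne : A ≠ Subgroup.centralizer (A : Set H) := by
    intro hCA
    obtain ⟨w0, hw0W, hw0⟩ := Submodule.exists_mem_ne_zero_of_ne_bot hW0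
    -- the order of H
    have hcardH : Nat.card H = Nat.card V - 1 := by
      have e : H ≃ {v : V // v ≠ 0} := by
        refine Equiv.ofBijective (fun h => ⟨(h : V ≃ₗ[ZMod p] V) w0, fun h0 =>
          hw0 ((LinearEquiv.map_eq_zero_iff _).mp h0)⟩) ⟨?_, ?_⟩
        · intro h h' hh
          have h1 : (h : V ≃ₗ[ZMod p] V) w0 = (h' : V ≃ₗ[ZMod p] V) w0 := congrArg Subtype.val hh
          have hne' : (h' : V ≃ₗ[ZMod p] V) w0 ≠ 0 := fun h0 =>
            hw0 ((LinearEquiv.map_eq_zero_iff _).mp h0)
          exact (hreg w0 _ hw0 hne').unique h1 rfl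
        · rintro ⟨v, hv⟩
          obtain ⟨h, hh, -⟩ := hreg w0 v hw0 hv
          exact ⟨h, Subtype.ext hh⟩
      rw [Nat.card_congr e]
      have h1 : Nat.card {v : V // v ≠ 0} = Set.ncard ((Set.univ : Set V) \ {0}) := by
        rw [← Nat.card_coe_set_eq]
        exact Nat.card_congr (Equiv.subtypeEquivRight (fun v => by simp))
      rw [h1, Set.ncard_sdiff_singleton_of_mem (Set.mem_univ _), Set.ncard_univ]
    have hcardV : Nat.card V = p ^ Module.finrank (ZMod p) V := by
      rw [Module.natCard_eq_pow_finrank (K := ZMod p) (V := V), Nat.card_zmod]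
    -- a translate of W different from W
    have hex : ∃ h : H, Submodule.map ((h : V ≃ₗ[ZMod p] V) : V →ₗ[ZMod p] V) W ≠ W := by
      by_contra hall
      push Not at hall
      apply hWtop
      rw [eq_top_iff]
      intro v _
      by_cases hv : v = 0
      · rw [hv]; exact W.zero_mem
      · obtain ⟨h, hh, -⟩ := hreg w0 v hw0 hv
        rw [← hall h]
        exact ⟨w0, hw0W, hh⟩
    obtain ⟨h, hh⟩ := hex
    set W' := Submodule.map ((h : V ≃ₗ[ZMod p] V) : V →ₗ[ZMod p] V) W with hW'def
    have hW'inv : ∀ a ∈ A, ∀ v ∈ W', ((a : H) : V ≃ₗ[ZMod p] V) v ∈ W' := by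
      rintro a ha _ ⟨w, hw, rfl⟩
      have h1 : h⁻¹ * a * h ∈ A := by
        have := hAn.conj_mem a ha h⁻¹
        rwa [inv_inv] at this
      refine ⟨((h⁻¹ * a * h : H) : V ≃ₗ[ZMod p] V) w, hWinv _ h1 w hw, ?_⟩
      have h2 : (h : H) * (h⁻¹ * a * h) = a * h := by group
      have h3 := congrArg (fun g : H => (g : V ≃ₗ[ZMod p] V) w) h2
      exact h3
    have hfr : Module.finrank (ZMod p) W' = Module.finrank (ZMod p) W :=
      LinearEquiv.finrank_map_eq (h : V ≃ₗ[ZMod p] V) W
    have hinf : W ⊓ W' = ⊥ := by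
      rcases hWmin (W ⊓ W') inf_le_left (fun a ha v hv =>
        ⟨hWinv a ha v hv.1, hW'inv a ha v hv.2⟩) with h1 | h1
      · exact h1
      · exfalso
        apply hh
        have h2 : W ≤ W' := inf_eq_left.mp h1
        exact (Submodule.eq_of_le_of_finrank_eq h2 hfr.symm).symm
    have hk2 : 2 * Module.finrank (ZMod p) W ≤ Module.finrank (ZMod p) V := by
      have h1 := Submodule.finrank_sup_add_finrank_inf_eq W W'
      rw [hinf, finrank_bot, add_zero, hfr] at h1
      have h2 := Submodule.finrank_le (W ⊔ W')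
      omega
    have hk1 : 1 ≤ Module.finrank (ZMod p) W := by
      rw [Nat.one_le_iff_ne_zero]
      intro h0
      exact hW0 (Submodule.finrank_eq_zero.mp h0)
    -- the order of H through the automorphisms of A
    have hker : (MulAut.conjNormal (H := A)).ker = Subgroup.centralizer (A : Set H) := by
      ext g
      rw [MonoidHom.mem_ker, Subgroup.mem_centralizer_iff]
      constructor
      · intro hg a ha
        have h1 := congrArg (fun f : MulAut A => ((f ⟨a, ha⟩ : A) : H)) hg
        simp only [MulAut.conjNormal_apply, MulAut.one_apply] at h1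
        nth_rewrite 1 [← h1]
        group
      · intro hg
        ext a
        rw [MulAut.conjNormal_apply, MulAut.one_apply, ← hg a a.2]
        group
    have hcard2 : Nat.card H ≤ Nat.card A * Nat.card A := by
      have h1 := Subgroup.card_mul_index (MulAut.conjNormal (H := A)).ker
      rw [Subgroup.index_ker, hker, ← hCA] at h1
      rw [← h1]
      apply Nat.mul_le_mul_left
      calc Nat.card (MulAut.conjNormal (H := A)).range ≤ Nat.card (MulAut A) :=
            Nat.card_le_card_of_injective _ Subtype.val_injective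
        _ = Nat.totient (Nat.card A) := IsCyclic.card_mulAut A
        _ ≤ Nat.card A := Nat.totient_le _
    -- arithmetic
    set k := Module.finrank (ZMod p) W with hkdef
    set n := Module.finrank (ZMod p) V with hndef
    have hx2 : 2 ≤ p ^ k := by
      calc 2 ≤ p := hp.two_le
        _ = p ^ 1 := (pow_one p).symm
        _ ≤ p ^ k := Nat.pow_le_pow_right hp.pos hk1
    have hm : Nat.card A ≤ p ^ k - 1 := Nat.le_of_dvd (by omega) hdvd
    have hpn : p ^ k * p ^ k ≤ p ^ n := by
      rw [← pow_add]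
      exact Nat.pow_le_pow_right hp.pos (by omega)
    rw [hcardH, hcardV] at hcard2
    have h5 : Nat.card A * Nat.card A ≤ (p ^ k - 1) * (p ^ k - 1) := Nat.mul_le_mul hm hm
    obtain ⟨y, hy⟩ : ∃ y, p ^ k = y + 2 := ⟨p ^ k - 2, by omega⟩
    rw [hy] at h5 hpn
    have h6 : (y + 2 - 1) * (y + 2 - 1) = y * y + 2 * y + 1 := by
      have : y + 2 - 1 = y + 1 := by omega
      rw [this]; ring
    have h7 : (y + 2) * (y + 2) = y * y + 4 * y + 4 := by ring
    rw [h6] at h5
    rw [h7] at hpn
    omega
  refine ⟨lt_of_le_of_ne hle hne, ?_⟩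
  intro hCcomm
  exact hne (hAmax _ inferInstance hCcomm hle).symm

end Cfsg.Agent.S0685
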