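import Cfsg.Statements.S0691
import Mathlib
import Cfsg.Agent.Lib.Helper6.MatReg

set_option autoImplicit false
open Cfsg

namespace Cfsg.Agent.S0691

open Cfsg.Agent.Lib.Helper6

/-- The table of group elements (encoded), identity last. -/
def tbl : List Q4 := [(4, 1, 2, 2), (4, 4, 3, 2), (2, 3, 4, 4), (2, 2, 1, 4), (1, 1, 2, 3), (3, 4, 3, 1), (3, 2, 1, 1), (1, 3, 4, 3), (1, 4, 3, 3), (3, 1, 2, 1), (4, 3, 4, 2), (0, 1, 4, 0), (3, 0, 0, 2), (3, 3, 4, 1), (4, 2, 1, 2), (2, 4, 3, 4), (0, 3, 3, 0), (2, 1, 2, 4), (0, 2, 2, 0), (4, 0, 0, 4), (1, 2, 1, 3), (0, 4, 1, 0), (2, 0, 0, 3), (1, 0, 0, 1)]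

/-- The encoded generators. -/
def gq : List Q4 := [(2, 0, 0, 3), (0, 4, 1, 0), (1, 2, 1, 3)]

/-- An exceptional sharply doubly transitive group of degree 5^2: the listed matrices generate a subgroup of GL(2,5) of order 24 acting regularly on the non-zero vectors. -/
theorem result (A : Matrix.GeneralLinearGroup (Fin 2) (ZMod 5)) (B : Matrix.GeneralLinearGroup (Fin 2) (ZMod 5)) (C : Matrix.GeneralLinearGroup (Fin 2) (ZMod 5)) (hA : (A : Matrix (Fin 2) (Fin 2) (ZMod 5)) = !![2, 0; 0, -2]) (hB : (B : Matrix (Fin 2) (Fin 2) (ZMod 5)) = !![0, -1; 1, 0]) (hC : (C : Matrix (Fin 2) (Fin 2) (ZMod 5)) = !![1, 2; 1, -2]) : Nat.card (Subgroup.closure ({A, B, C} : Set (Matrix.GeneralLinearGroup (Fin 2) (ZMod 5)))) = 24 ∧ ∀ v w : Fin 2 → ZMod 5, v ≠ 0 → w ≠ 0 → ∃! h : Subgroup.closure ({A, B, C} : Set (Matrix.GeneralLinearGroup (Fin 2) (ZMod 5))), Matrix.mulVec ((h : Matrix.GeneralLinearGroup (Fin 2) (ZMod 5)) : Matrix (Fin 2) (Fin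 2) (ZMod 5)) v = w := by
  have hp : Fact (Nat.Prime 5) := ⟨by norm_num⟩
  have hA' : qmat 5 (2, 0, 0, 3) = (A : Matrix (Fin 2) (Fin 2) (ZMod 5)) := by
    rw [hA]
    ext i j
    fin_cases i <;> fin_cases j <;> simp [qmat] <;> decide
  have hB' : qmat 5 (0, 4, 1, 0) = (B : Matrix (Fin 2) (Fin 2) (ZMod 5)) := by
    rw [hB]
    ext i j
    fin_cases i <;> fin_cases j <;> simp [qmat] <;> decide
  have hC' : qmat 5 (1, 2, 1, 3) = (C : Matrix (Fin 2) (Fin 2) (ZMod 5)) := by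
    rw [hC]
    ext i j
    fin_cases i <;> fin_cases j <;> simp [qmat] <;> decide
  have hset : ({A, B, C} : Set (Matrix.GeneralLinearGroup (Fin 2) (ZMod 5))) =
      {g | g ∈ [A, B, C]} := by
    ext g; simp
  rw [hset]
  have hg1 : ∀ g ∈ [A, B, C], ∃ q ∈ gq, qmat 5 q = (g : Matrix (Fin 2) (Fin 2) (ZMod 5)) := by
    intro g hg
    simp only [List.mem_cons, List.not_mem_nil, or_false] at hg
    rcases hg with rfl | rfl | rfl
    · exact ⟨_, by decide, hA'⟩
    · exact ⟨_, by decide, hB'⟩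
    · exact ⟨_, by decide, hC'⟩
  have hg2 : ∀ q ∈ gq, ∃ g ∈ [A, B, C], qmat 5 q = (g : Matrix (Fin 2) (Fin 2) (ZMod 5)) := by
    intro q hq
    simp only [gq, List.mem_cons, List.not_mem_nil, or_false] at hq
    rcases hq with rfl | rfl | rfl
    · exact ⟨A, by simp, hA'⟩
    · exact ⟨B, by simp, hB'⟩
    · exact ⟨C, by simp, hC'⟩
  have h1 : tbl.contains qone = true := by decide +kernel
  have h2 : qclosed 5 gq tbl = true := by decide +kernel
  have h3 : qwf 5 gq tbl = true := by decide +kernel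
  have h4 : qallred 5 tbl = true := by decide +kernel
  have h5 : tbl.Nodup := by decide +kernel
  have h6 : qsemireg 5 1 tbl = true := by decide +kernel
  have hlen : tbl.length = 24 := by decide +kernel
  have hcard := table_card [A, B, C] gq tbl hg1 hg2 h1 h2 h3 h4 h5
  have hmem := table_mem [A, B, C] gq tbl hg1 h1 h2 h4
  have hsr : ∀ h ∈ Subgroup.closure {g | g ∈ [A, B, C]},
      ((h : Matrix (Fin 2) (Fin 2) (ZMod 5)) - 1).det = 0 → h = 1 := by
    intro h hh hdet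
    obtain ⟨x, hx, hx'⟩ := hmem h hh
    have hdet' : (((1 : ℕ) : ZMod 5) • qmat 5 x - 1).det = 0 := by
      rw [Nat.cast_one, one_smul, hx']; exact hdet
    have hx1 := (qsemireg_spec 1 tbl h6 hx hdet').1
    apply Units.ext
    rw [← hx', hx1, qmat_qone]; rfl
  refine ⟨by rw [hcard, hlen], ?_⟩
  exact regular_of_semiregular _ (by rw [hcard, hlen]; norm_num) hsr

end Cfsg.Agent.S0691
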