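import Cfsg.Statements.S0692
import Mathlib
import Cfsg.Agent.Lib.Helper6.MatReg

set_option autoImplicit false
open Cfsg

namespace Cfsg.Agent.S0692

open Cfsg.Agent.Lib.Helper6

/-- The table of group elements (encoded), identity last. -/
def tbl : List Q4 := [(4, 4, 4, 7), (4, 7, 7, 7), (8, 2, 6, 3), (4, 6, 10, 7), (7, 4, 4, 4), (9, 8, 8, 6), (10, 7, 7, 5), (7, 8, 8, 3), (2, 2, 2, 8), (5, 4, 4, 10), (7, 7, 7, 4), (6, 3, 3, 9), (3, 9, 5, 8), (7, 5, 1, 4), (8, 6, 2, 3), (4, 10, 6, 7), (3, 7, 8, 8), (9, 2, 3, 2), (8, 3, 4, 3), (2, 8, 9, 9), (2, 3, 3, 5), (6, 7, 7, 1), (3, 10, 0, 4), (5, 8, 8, 2), (1, 4, 4, 6), (4, 3, 3, 8), (9, 9, 9, 3), (1, 3, 7, 0), (8, 8, 8, 4), (3, 2, 2, 9), (0, 4, 8, 1), (6, 2, 1, 6), (4, 1, 0, 3), (2, 6, 5, 10), (3, 5, 9, 8), (7, 1, 5, 4), (8, 4, 3, 3), (2, 9, 8, 9), (8, 1, 0, 7), (3, 8, 7, 8), (9, 3, 2, 2), (7, 0, 10, 8), (9, 6, 5, 1), (10,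 4, 8, 0), (5, 2, 1, 5), (1, 6, 5, 9), (0, 3, 7, 10), (5, 10, 9, 5), (10, 8, 4, 0), (3, 3, 3, 7), (8, 9, 9, 2), (0, 7, 3, 10), (5, 9, 10, 5), (7, 10, 0, 8), (9, 5, 6, 1), (5, 1, 2, 5), (8, 0, 1, 7), (1, 5, 6, 9), (0, 9, 6, 4), (10, 1, 9, 1), (5, 6, 3, 6), (4, 5, 2, 0), (4, 0, 1, 3), (2, 5, 6, 10), (1, 7, 3, 0), (6, 9, 10, 6), (10, 5, 6, 2), (0, 8, 4, 1), (6, 1, 2, 6), (2, 0, 7, 6), (10, 10, 10, 9), (5, 5, 5, 3), (6, 4, 0, 2), (9, 1, 1, 10), (3, 6, 6, 5), (2, 7, 0, 6), (6, 10, 9, 6), (3, 0, 10, 4), (10, 6, 5, 2), (0, 2, 5, 7), (1, 10, 2, 10), (6, 5, 8, 5), (7, 6, 9, 0), (10, 9, 1, 1), (5, 3, 6, 6), (4, 2, 5, 0), (2, 1, 4, 8), (0, 6, 9, 4), (9, 0, 4, 5), (1, 1, 1, 2), (6, 6, 6, 8), (5, 7, 0, 9), (2, 10, 10, 1), (8, 5, 5, 6), (9, 4, 0, 5), (10, 2, 3, 4), (5, 0, 7, 9), (4, 8, 9, 10), (8, 10, 7, 2), (1, 2, 10, 10), (6, 8, 5, 5), (7, 9, 6, 0), (9, 10, 7, 3), (0, 5, 2,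 7), (3, 4, 1, 9), (1, 8, 9, 7), (7, 2, 3, 1), (1, 9, 8, 7), (6, 0, 4, 2), (7, 3, 2, 1), (3, 1, 4, 9), (9, 7, 10, 3), (0, 1, 10, 0), (8, 7, 10, 2), (10, 3, 2, 4), (4, 9, 8, 10), (10, 0, 0, 10), (2, 4, 1, 8), (0, 10, 1, 0), (1, 0, 0, 1)]

/-- The encoded generators. -/
def gq : List Q4 := [(0, 10, 1, 0), (2, 4, 1, 8)]

/-- An exceptional sharply doubly transitive group of degree 11^2: the listed matrices generate a subgroup of GL(2,11) of order 120 acting regularly on the non-zero vectors. -/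
theorem result (A : Matrix.GeneralLinearGroup (Fin 2) (ZMod 11)) (B : Matrix.GeneralLinearGroup (Fin 2) (ZMod 11)) (hA : (A : Matrix (Fin 2) (Fin 2) (ZMod 11)) = !![0, -1; 1, 0]) (hB : (B : Matrix (Fin 2) (Fin 2) (ZMod 11)) = !![2, 4; 1, -3]) : Nat.card (Subgroup.closure ({A, B} : Set (Matrix.GeneralLinearGroup (Fin 2) (ZMod 11)))) = 120 ∧ ∀ v w : Fin 2 → ZMod 11, v ≠ 0 → w ≠ 0 → ∃! h : Subgroup.closure ({A, B} : Set (Matrix.GeneralLinearGroup (Fin 2) (ZMod 11))), Matrix.mulVec ((h : Matrix.GeneralLinearGroup (Fin 2) (ZMod 11)) : Matrix (Fin 2) (Fin 2) (ZMod 11)) v = w := by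
  have hp : Fact (Nat.Prime 11) := ⟨by norm_num⟩
  have hA' : qmat 11 (0, 10, 1, 0) = (A : Matrix (Fin 2) (Fin 2) (ZMod 11)) := by
    rw [hA]
    ext i j
    fin_cases i <;> fin_cases j <;> simp [qmat] <;> decide
  have hB' : qmat 11 (2, 4, 1, 8) = (B : Matrix (Fin 2) (Fin 2) (ZMod 11)) := by
    rw [hB]
    ext i j
    fin_cases i <;> fin_cases j <;> simp [qmat] <;> decide
  have hset : ({A, B} : Set (Matrix.GeneralLinearGroup (Fin 2) (ZMod 11))) =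
      {g | g ∈ [A, B]} := by
    ext g; simp
  rw [hset]
  have hg1 : ∀ g ∈ [A, B], ∃ q ∈ gq, qmat 11 q = (g : Matrix (Fin 2) (Fin 2) (ZMod 11)) := by
    intro g hg
    simp only [List.mem_cons, List.not_mem_nil, or_false] at hg
    rcases hg with rfl | rfl
    · exact ⟨_, by decide, hA'⟩
    · exact ⟨_, by decide, hB'⟩
  have hg2 : ∀ q ∈ gq, ∃ g ∈ [A, B], qmat 11 q = (g : Matrix (Fin 2) (Fin 2) (ZMod 11)) := by
    intro q hq
    simp only [gq, List.mem_cons, List.not_mem_nil, or_false] at hq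
    rcases hq with rfl | rfl
    · exact ⟨A, by simp, hA'⟩
    · exact ⟨B, by simp, hB'⟩
  have h1 : tbl.contains qone = true := by decide +kernel
  have h2 : qclosed 11 gq tbl = true := by decide +kernel
  have h3 : qwf 11 gq tbl = true := by decide +kernel
  have h4 : qallred 11 tbl = true := by decide +kernel
  have h5 : tbl.Nodup := by decide +kernel
  have h6 : qsemireg 11 1 tbl = true := by decide +kernel
  have hlen : tbl.length = 120 := by decide +kernel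
  have hcard := table_card [A, B] gq tbl hg1 hg2 h1 h2 h3 h4 h5
  have hmem := table_mem [A, B] gq tbl hg1 h1 h2 h4
  have hsr : ∀ h ∈ Subgroup.closure {g | g ∈ [A, B]},
      ((h : Matrix (Fin 2) (Fin 2) (ZMod 11)) - 1).det = 0 → h = 1 := by
    intro h hh hdet
    obtain ⟨x, hx, hx'⟩ := hmem h hh
    have hdet' : (((1 : ℕ) : ZMod 11) • qmat 11 x - 1).det = 0 := by
      rw [Nat.cast_one, one_smul, hx']; exact hdet
    have hx1 := (qsemireg_spec 1 tbl h6 hx hdet').1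
    apply Units.ext
    rw [← hx', hx1, qmat_qone]; rfl
  refine ⟨by rw [hcard, hlen], ?_⟩
  exact regular_of_semiregular _ (by rw [hcard, hlen]; norm_num) hsr

end Cfsg.Agent.S0692
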