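import Cfsg.Statements.S0693
import Mathlib
import Cfsg.Agent.Lib.Helper6.MatReg

set_option autoImplicit false
open Cfsg

namespace Cfsg.Agent.S0693

open Cfsg.Agent.Lib.Helper6

/-- The table of the subgroup generated by the first two matrices (encoded), identity last. -/
def tbl : List Q4 := [(3, 7, 7, 56), (7, 56, 56, 52), (41, 14, 40, 18), (34, 17, 43, 25), (52, 3, 3, 7), (45, 41, 41, 40), (43, 25, 25, 42), (53, 21, 21, 5), (48, 40, 40, 10), (42, 34, 34, 43), (56, 52, 52, 3), (40, 18, 18, 45), (18, 45, 19, 41), (25, 42, 16, 34), (41, 40, 14, 18), (34, 43, 17, 25), (38, 53, 54, 21), (19, 48, 49, 40), (21, 5, 6, 38), (40, 10, 11, 19), (14, 18, 18, 19), (17, 25, 25, 16), (38, 30, 31, 54), (19, 41, 41, 14), (16, 34, 34, 17), (6, 38, 38, 54), (11, 19, 19, 49), (29, 38, 5, 31), (54, 21, 21, 6), (49, 40, 40, 11), (31, 54, 21, 29), (32, 25, 24, 28), (54, 29, 28, 38), (25, 28, 27, 35), (18, 19, 45, 41), (25, 16, 42, 34), (21, 6, 5, 38), (40, 11, 10,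 19), (21, 29, 28, 5), (38, 54, 53, 21), (19, 49, 48, 40), (5, 31, 30, 21), (34, 32, 31, 24), (30, 54, 21, 28), (31, 25, 24, 27), (24, 28, 27, 34), (28, 38, 5, 30), (27, 35, 34, 31), (30, 21, 54, 28), (5, 38, 38, 53), (10, 19, 19, 48), (28, 5, 38, 30), (27, 34, 35, 31), (5, 30, 31, 21), (34, 31, 32, 24), (31, 24, 25, 27), (21, 28, 29, 5), (24, 27, 28, 34), (39, 14, 48, 46), (4, 36, 11, 55), (58, 55, 30, 1), (46, 11, 45, 39), (54, 28, 29, 38), (25, 27, 28, 35), (29, 5, 38, 31), (28, 34, 35, 32), (35, 31, 32, 25), (31, 21, 54, 29), (32, 24, 25, 28), (45, 39, 13, 48), (23, 4, 4, 11), (4, 58, 58, 30), (48, 46, 20, 45), (11, 55, 55, 23), (30, 1, 1, 4), (45, 13, 39, 48), (28, 35, 34, 32), (38, 31, 30, 54), (35, 32, 31, 25), (20, 45, 11, 13), (55, 23, 48, 4), (1, 4, 29, 58), (13, 48, 14, 20), (4, 11, 36, 55), (58, 30, 55, 1), (46, 45, 11, 39), (9, 49, 15, 49), (39, 48, 14, 46), (14, 20, 46, 11), (36, 55, 55, 48), (55, 1, 1, 29), (11, 13, 39, 14), (48,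 4, 4, 36), (29, 58, 58, 55), (14, 46, 20, 11), (10, 9, 10, 15), (11, 39, 13, 14), (15, 49, 50, 10), (49, 10, 44, 9), (55, 48, 23, 4), (1, 29, 4, 58), (13, 14, 48, 20), (50, 10, 44, 10), (20, 11, 45, 13), (10, 15, 49, 50), (49, 49, 50, 44), (44, 9, 10, 49), (49, 50, 49, 44), (48, 20, 46, 45), (44, 10, 9, 49), (10, 49, 15, 50), (50, 44, 10, 10), (0, 1, 58, 0), (49, 44, 10, 9), (10, 10, 9, 15), (15, 50, 49, 10), (58, 0, 0, 58), (9, 15, 49, 49), (0, 58, 1, 0), (1, 0, 0, 1)]

theorem four_ne_one : (4 : ZMod 59) ≠ 1 := by decide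

/-- The encoded generators. -/
def gq : List Q4 := [(0, 58, 1, 0), (9, 15, 49, 49)]

/-- An exceptional sharply doubly transitive group of degree 59^2: the listed matrices generate a subgroup of GL(2,59) of order 3480 acting regularly on the non-zero vectors. -/
theorem result (A : Matrix.GeneralLinearGroup (Fin 2) (ZMod 59)) (B : Matrix.GeneralLinearGroup (Fin 2) (ZMod 59)) (C : Matrix.GeneralLinearGroup (Fin 2) (ZMod 59)) (hA : (A : Matrix (Fin 2) (Fin 2) (ZMod 59)) = !![0, -1; 1, 0]) (hB : (B : Matrix (Fin 2) (Fin 2) (ZMod 59)) = !![9, 15; -10, -10]) (hC : (C : Matrix (Fin 2) (Fin 2) (ZMod 59)) = !![4, 0; 0, 4]) : Nat.card (Subgroup.closure ({A, B, C} : Set (Matrix.GeneralLinearGroup (Fin 2) (ZMod 59)))) = 3480 ∧ ∀ v w : Fin 2 → ZMod 59, v ≠ 0 → w ≠ 0 → ∃! h : Subgroup.closure ({A, B, C} : Set (Matrix.GeneralLinearGroup (Fin 2) (ZMod 59))), Matrix.mulVec ((h : Matrix.GeneralLinearGroup (Fin 2) (ZMod 59)) : Matrix (Fin 2) (Fin 2) (ZMod 59))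 v = w := by
  have hp : Fact (Nat.Prime 59) := ⟨by norm_num⟩
  have hA' : qmat 59 (0, 58, 1, 0) = (A : Matrix (Fin 2) (Fin 2) (ZMod 59)) := by
    rw [hA]
    ext i j
    fin_cases i <;> fin_cases j <;> simp [qmat] <;> decide
  have hB' : qmat 59 (9, 15, 49, 49) = (B : Matrix (Fin 2) (Fin 2) (ZMod 59)) := by
    rw [hB]
    ext i j
    fin_cases i <;> fin_cases j <;> simp [qmat] <;> decide
  have hCs : (C : Matrix (Fin 2) (Fin 2) (ZMod 59)) =
      (4 : ZMod 59) • (1 : Matrix (Fin 2) (Fin 2) (ZMod 59)) := by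
    rw [hC]
    ext i j
    fin_cases i <;> fin_cases j <;> simp
  have hCcomm : ∀ g : Matrix.GeneralLinearGroup (Fin 2) (ZMod 59), C * g = g * C := by
    intro g
    apply Units.ext
    rw [Units.val_mul, Units.val_mul, hCs, smul_mul_assoc, mul_smul_comm, one_mul, mul_one]
  have hCpow : ∀ j : ℕ, ((C ^ j : Matrix.GeneralLinearGroup (Fin 2) (ZMod 59)) :
      Matrix (Fin 2) (Fin 2) (ZMod 59)) =
      ((4 ^ j % 59 : ℕ) : ZMod 59) • (1 : Matrix (Fin 2) (Fin 2) (ZMod 59)) := by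
    intro j
    rw [Units.val_pow_eq_pow_val, hCs, smul_pow, one_pow, ZMod.natCast_mod]
    push_cast
    rfl
  have hC29 : C ^ 29 = 1 := by
    apply Units.ext
    rw [hCpow]
    have h429 : (4 ^ 29 % 59 : ℕ) = 1 := by norm_num
    rw [h429]
    simp
  have hC1 : C ≠ 1 := by
    intro h
    have h00 := congrArg (fun g : Matrix.GeneralLinearGroup (Fin 2) (ZMod 59) =>
      (g : Matrix (Fin 2) (Fin 2) (ZMod 59)) 0 0) h
    simp only [hC, Units.val_one, Matrix.one_apply_eq, Matrix.of_apply, Matrix.cons_val_zero] at h00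
    exact four_ne_one h00
  have hf29 : Fact (Nat.Prime 29) := ⟨by norm_num⟩
  have hord : orderOf C = 29 := orderOf_eq_prime hC29 hC1
  have hg1 : ∀ g ∈ [A, B], ∃ q ∈ gq, qmat 59 q = (g : Matrix (Fin 2) (Fin 2) (ZMod 59)) := by
    intro g hg
    simp only [List.mem_cons, List.not_mem_nil, or_false] at hg
    rcases hg with rfl | rfl
    · exact ⟨_, by decide, hA'⟩
    · exact ⟨_, by decide, hB'⟩
  have hg2 : ∀ q ∈ gq, ∃ g ∈ [A, B], qmat 59 q = (g : Matrix (Fin 2) (Fin 2) (ZMod 59)) := by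
    intro q hq
    simp only [gq, List.mem_cons, List.not_mem_nil, or_false] at hq
    rcases hq with rfl | rfl
    · exact ⟨A, by simp, hA'⟩
    · exact ⟨B, by simp, hB'⟩
  have h1 : tbl.contains qone = true := by decide +kernel
  have h2 : qclosed 59 gq tbl = true := by decide +kernel
  have h3 : qwf 59 gq tbl = true := by decide +kernel
  have h4 : qallred 59 tbl = true := by decide +kernel
  have h5 : tbl.Nodup := by decide +kernel
  have h6 : (List.range 29).all (fun j => qsemireg 59 (4 ^ j % 59) tbl) = true := by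
    decide +kernel
  have hlen : tbl.length = 120 := by decide +kernel
  have hcardK : Nat.card (Subgroup.closure {g | g ∈ [A, B]}) = 120 := by
    rw [table_card [A, B] gq tbl hg1 hg2 h1 h2 h3 h4 h5, hlen]
  have hmemK := table_mem [A, B] gq tbl hg1 h1 h2 h4
  have hKH : Subgroup.closure {g | g ∈ [A, B]} ≤
      Subgroup.closure ({A, B, C} : Set (Matrix.GeneralLinearGroup (Fin 2) (ZMod 59))) := by
    apply Subgroup.closure_mono
    intro g hg
    simp only [Set.mem_ofPred_eq, List.mem_cons, List.not_mem_nil, or_false] at hg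
    rcases hg with rfl | rfl
    · simp
    · simp
  have hCH : C ∈ Subgroup.closure ({A, B, C} : Set (Matrix.GeneralLinearGroup (Fin 2) (ZMod 59))) :=
    Subgroup.subset_closure (by simp)
  have hHelts : ∀ h ∈ Subgroup.closure ({A, B, C} :
      Set (Matrix.GeneralLinearGroup (Fin 2) (ZMod 59))),
      ∃ k ∈ Subgroup.closure {g | g ∈ [A, B]}, ∃ j : ℕ, j < 29 ∧ h = k * C ^ j := by
    intro h hh
    induction hh using Subgroup.closure_induction with
    | mem g hg =>
      rcases hg with rfl | rfl | rfl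
      · exact ⟨g, Subgroup.subset_closure (by simp), 0, by norm_num, by simp⟩
      · exact ⟨g, Subgroup.subset_closure (by simp), 0, by norm_num, by simp⟩
      · exact ⟨1, Subgroup.one_mem _, 1, by norm_num, by simp⟩
    | one => exact ⟨1, Subgroup.one_mem _, 0, by norm_num, by simp⟩
    | mul x y _ _ hx hy =>
      obtain ⟨k1, hk1, j1, -, rfl⟩ := hx
      obtain ⟨k2, hk2, j2, -, rfl⟩ := hy
      refine ⟨k1 * k2, Subgroup.mul_mem _ hk1 hk2, (j1 + j2) % 29,
        Nat.mod_lt _ (by norm_num), ?_⟩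
      have hcomm : C ^ j1 * k2 = k2 * C ^ j1 :=
        (Commute.pow_left (show Commute C k2 from hCcomm k2) j1).eq
      have hmod : C ^ ((j1 + j2) % 29) = C ^ (j1 + j2) := by
        rw [← hord, pow_mod_orderOf]
      rw [hmod, pow_add]
      calc k1 * C ^ j1 * (k2 * C ^ j2) = k1 * (C ^ j1 * k2) * C ^ j2 := by group
        _ = k1 * (k2 * C ^ j1) * C ^ j2 := by rw [hcomm]
        _ = k1 * k2 * (C ^ j1 * C ^ j2) := by group
    | inv x _ hx =>
      obtain ⟨k, hk, j, hj, rfl⟩ := hx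
      refine ⟨k⁻¹, Subgroup.inv_mem _ hk, (29 - j) % 29, Nat.mod_lt _ (by norm_num), ?_⟩
      have hcomm : C ^ (29 - j) * k⁻¹ = k⁻¹ * C ^ (29 - j) :=
        (Commute.pow_left (show Commute C k⁻¹ from hCcomm k⁻¹) _).eq
      have hmod : C ^ ((29 - j) % 29) = C ^ (29 - j) := by
        rw [← hord, pow_mod_orderOf]
      rw [hmod, ← hcomm, eq_comm, eq_inv_iff_mul_eq_one]
      calc C ^ (29 - j) * k⁻¹ * (k * C ^ j) = C ^ (29 - j) * C ^ j := by group
        _ = 1 := by rw [← pow_add, Nat.sub_add_cancel hj.le, hC29]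
  have hsr : ∀ h ∈ Subgroup.closure ({A, B, C} :
      Set (Matrix.GeneralLinearGroup (Fin 2) (ZMod 59))),
      ((h : Matrix (Fin 2) (Fin 2) (ZMod 59)) - 1).det = 0 → h = 1 := by
    intro h hh hdet
    obtain ⟨k, hk, j, hj, rfl⟩ := hHelts h hh
    obtain ⟨x, hx, hx'⟩ := hmemK k hk
    have h6j : qsemireg 59 (4 ^ j % 59) tbl = true :=
      List.all_eq_true.mp h6 j (List.mem_range.mpr hj)
    have hval : ((k * C ^ j : Matrix.GeneralLinearGroup (Fin 2) (ZMod 59)) :
        Matrix (Fin 2) (Fin 2) (ZMod 59)) = ((4 ^ j % 59 : ℕ) : ZMod 59) • qmat 59 x := by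
      rw [Units.val_mul, hCpow, hx', mul_smul_comm, mul_one]
    have hdet' : (((4 ^ j % 59 : ℕ) : ZMod 59) • qmat 59 x - 1).det = 0 := by
      rw [← hval]; exact hdet
    obtain ⟨hx1, hlam⟩ := qsemireg_spec _ tbl h6j hx hdet'
    have hk1 : k = 1 := by
      apply Units.ext
      rw [← hx', hx1, qmat_qone]
      rfl
    have hCj : C ^ j = 1 := by
      apply Units.ext
      rw [hCpow]
      rw [Nat.mod_mod] at hlam
      rw [hlam]
      simp
    rw [hk1, hCj, mul_one]
  have hle := card_le_of_semiregular _ hsr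
  have h120 : 120 ∣ Nat.card (Subgroup.closure ({A, B, C} :
      Set (Matrix.GeneralLinearGroup (Fin 2) (ZMod 59)))) := by
    rw [← hcardK]; exact Subgroup.card_dvd_of_le hKH
  have h29 : 29 ∣ Nat.card (Subgroup.closure ({A, B, C} :
      Set (Matrix.GeneralLinearGroup (Fin 2) (ZMod 59)))) := by
    have h7 := orderOf_dvd_natCard (⟨C, hCH⟩ : Subgroup.closure ({A, B, C} :
      Set (Matrix.GeneralLinearGroup (Fin 2) (ZMod 59))))
    rw [Subgroup.orderOf_mk, hord] at h7
    exact h7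
  have h3480 : 120 * 29 ∣ Nat.card (Subgroup.closure ({A, B, C} :
      Set (Matrix.GeneralLinearGroup (Fin 2) (ZMod 59)))) :=
    Nat.Coprime.mul_dvd_of_dvd_of_dvd (by norm_num) h120 h29
  have hpos : 0 < Nat.card (Subgroup.closure ({A, B, C} :
      Set (Matrix.GeneralLinearGroup (Fin 2) (ZMod 59)))) := Nat.card_pos
  have hcard : Nat.card (Subgroup.closure ({A, B, C} :
      Set (Matrix.GeneralLinearGroup (Fin 2) (ZMod 59)))) = 3480 := by
    have h8 := Nat.le_of_dvd hpos h3480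
    norm_num at hle h8
    omega
  exact ⟨hcard, regular_of_semiregular _ (by rw [hcard]; norm_num) hsr⟩

end Cfsg.Agent.S0693
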