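import Cfsg.Statements.S0694
import Mathlib

set_option autoImplicit false
open Cfsg

namespace Cfsg.Agent.S0694

/-- if every prime factor of `m` divides `a - 1` then `m * (a - 1)` divides `a ^ m - 1` -/
lemma lift_dvd_int (a : ℤ) : ∀ m : ℕ, m ≠ 0 → (∀ r : ℕ, r.Prime → r ∣ m → (r : ℤ) ∣ a - 1) →
    (m : ℤ) * (a - 1) ∣ a ^ m - 1 := by
  intro m
  induction m using Nat.strong_induction_on with
  | _ m ih =>
    intro hm hr
    by_cases h1 : m = 1
    · subst h1; simp
    · have hrp : (m.minFac).Prime := Nat.minFac_prime h1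
      obtain ⟨m', hm'⟩ := Nat.minFac_dvd m
      have hm'0 : m' ≠ 0 := by
        rintro rfl
        rw [mul_zero] at hm'
        exact hm hm'
      have hlt : m' < m := by
        have h2 := hrp.two_le
        have : 0 < m' := Nat.pos_of_ne_zero hm'0
        calc m' < m.minFac * m' := by nlinarith
          _ = m := hm'.symm
      have ih' := ih m' hlt hm'0 (fun r hrp' hrd => hr r hrp' (hrd.trans ⟨m.minFac, by rw [mul_comm]; exact hm'⟩))
      have hrdvd : (m.minFac : ℤ) ∣ a - 1 := hr _ hrp (Nat.minFac_dvd m)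
      have hb : (m.minFac : ℤ) ∣ a ^ m' - 1 := hrdvd.trans ((dvd_mul_left _ _).trans ih')
      have hsum : (m.minFac : ℤ) ∣ ∑ i ∈ Finset.range m.minFac, (a ^ m') ^ i := by
        have := dvd_geom_sum₂_self (n := m.minFac) (x := a ^ m') (y := 1) hb
        simpa using this
      have e1 : a ^ m - 1 = (∑ i ∈ Finset.range m.minFac, (a ^ m') ^ i) * (a ^ m' - 1) := by
        rw [geom_sum_mul, ← pow_mul]
        congr 2
        conv_lhs => rw [hm']
        ring
      have e2 : (m : ℤ) * (a - 1) = (m.minFac : ℤ) * ((m' : ℤ) * (a - 1)) := by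
        conv_lhs => rw [hm']
        push_cast
        ring
      rw [e1, e2]
      exact mul_dvd_mul hsum ih'

lemma lift_dvd (a : ℕ) (ha : 1 ≤ a) (m : ℕ) (hm : m ≠ 0)
    (h : ∀ r : ℕ, r.Prime → r ∣ m → r ∣ a - 1) : m * (a - 1) ∣ a ^ m - 1 := by
  apply Int.natCast_dvd_natCast.mp
  rw [Nat.cast_mul, Nat.cast_sub ha, Nat.cast_sub (Nat.one_le_pow _ _ ha), Nat.cast_pow,
    Nat.cast_one]
  apply lift_dvd_int
  · exact hm
  · intro r hr hrm
    have := Int.natCast_dvd_natCast.mpr (h r hr hrm)
    rwa [Nat.cast_sub ha, Nat.cast_one] at this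

/-- the lifting-the-exponent upper bound in the form needed -/
lemma val_le {l a x : ℕ} (hl : l.Prime) (ha : 2 ≤ a) (hla : l ∣ a - 1)
    (hcase : Odd l ∨ 4 ∣ a - 1) (hx : x ≠ 0) :
    padicValNat l (a ^ x - 1) ≤ padicValNat l (a - 1) + padicValNat l x := by
  haveI : Fact l.Prime := ⟨hl⟩
  have hnl : ¬ l ∣ a := by
    intro h
    have h2 : l ∣ a - (a - 1) := Nat.dvd_sub h hla
    have h3 : a - (a - 1) = 1 := by omega
    rw [h3] at h2
    exact hl.one_lt.ne' (Nat.dvd_one.mp h2)
  by_cases hodd : Odd l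
  · have := padicValNat.pow_sub_pow hodd (show 1 < a by omega) hla hnl hx
    rw [one_pow] at this
    exact this.le
  · have h4 : 4 ∣ a - 1 := hcase.resolve_left hodd
    have hl2 : l = 2 := hl.eq_two_or_odd'.resolve_right hodd
    subst hl2
    have h2x : 2 * x ≠ 0 := by omega
    have h := padicValNat.pow_two_sub_one (x := a) (n := 2 * x) (by omega) hnl h2x (even_two_mul x)
    have hv2x : padicValNat 2 (2 * x) = 1 + padicValNat 2 x := by
      rw [padicValNat.mul (by norm_num) hx, padicValNat_self]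
    have hva1 : padicValNat 2 (a + 1) = 1 := by
      have h1 : 1 ≤ padicValNat 2 (a + 1) := by
        apply (padicValNat_dvd_iff_le (by omega)).mp
        rw [pow_one]; omega
      have h2 : ¬ 2 ≤ padicValNat 2 (a + 1) := by
        intro hh
        have := (padicValNat_dvd_iff_le (p := 2) (a := a + 1) (n := 2) (by omega)).mpr hh
        omega
      omega
    have hpos : 1 < a ^ x := Nat.one_lt_pow hx (by omega)
    have hfac : a ^ (2 * x) - 1 = (a ^ x + 1) * (a ^ x - 1) := by
      have := Nat.sq_sub_sq (a ^ x) 1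
      rw [one_pow] at this
      rw [← this, ← pow_mul, mul_comm x 2]
    have hvmul : padicValNat 2 (a ^ (2 * x) - 1)
        = padicValNat 2 (a ^ x + 1) + padicValNat 2 (a ^ x - 1) := by
      rw [hfac, padicValNat.mul (by omega) (by omega)]
    have hge : 1 ≤ padicValNat 2 (a ^ x + 1) := by
      apply one_le_padicValNat_of_dvd (by omega)
      have hao : Odd a := by
        rw [Nat.odd_iff]; omega
      have : Odd (a ^ x) := hao.pow
      rw [Nat.odd_iff] at this
      omega
    omega

lemma pow_dvd_of_lift {l a x e : ℕ} (hl : l.Prime) (ha : 2 ≤ a) (hla : l ∣ a - 1)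
    (hcase : Odd l ∨ 4 ∣ a - 1) (hx : x ≠ 0) (hd : l ^ e * (a - 1) ∣ a ^ x - 1) : l ^ e ∣ x := by
  haveI : Fact l.Prime := ⟨hl⟩
  have h1 := val_le hl ha hla hcase hx
  have hpos : a ^ x - 1 ≠ 0 := by
    have := Nat.one_lt_pow hx (show 1 < a by omega)
    omega
  have h2 : l ^ (e + padicValNat l (a - 1)) ∣ a ^ x - 1 := by
    rw [pow_add]
    exact (Nat.mul_dvd_mul_left _ pow_padicValNat_dvd).trans hd
  have h3 := (padicValNat_dvd_iff_le hpos).mp h2
  apply (padicValNat_dvd_iff_le hx).mpr
  omega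

lemma geom_parity (q : ℕ) (hq : q % 2 = 1) : ∀ i : ℕ,
    (∑ k ∈ Finset.range i, q ^ k) % 2 = i % 2 := by
  intro i
  induction i with
  | zero => simp
  | succ t ih =>
    rw [Finset.sum_range_succ, Nat.add_mod, ih, Nat.pow_mod, hq, one_pow]
    omega

/-- The Dickson pair condition: for a prime power `q` and `n > 1`, (every prime factor of `n` divides `q - 1`, and `4 ∣ n → 4 ∣ q - 1`) holds exactly when `q ^ n ≡ 1` modulo `n * (q - 1)` but `q ^ i` is not, for `0 < i < n`. -/
theorem result (q n : ℕ) (hq : IsPrimePow q) (hn : 1 < n) : ((∀ r : ℕ, r.Prime → r ∣ n → r ∣ q - 1) ∧ (4 ∣ n → 4 ∣ q - 1)) ↔ (q ^ n ≡ 1 [MOD n * (q - 1)] ∧ ∀ i : ℕ, 0 < i → i < n → ¬ q ^ i ≡ 1 [MOD n * (q - 1)]) := by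
  classical
  have hq2 : 2 ≤ q := hq.two_le
  have hq1 : 1 ≤ q := by omega
  have hc : 0 < q - 1 := by omega
  have hn0 : n ≠ 0 := by omega
  obtain ⟨S, hSdef⟩ : ∃ S : ℕ → ℕ, ∀ i, S i = ∑ k ∈ Finset.range i, q ^ k := ⟨_, fun _ => rfl⟩
  have hS : ∀ i, q ^ i - 1 = (q - 1) * S i := by
    intro i
    rw [hSdef, Nat.geomSum_eq hq2 i]
    exact (Nat.mul_div_cancel' (Nat.sub_one_dvd_pow_sub_one q i)).symm
  have hS' : ∀ k m, m * (q - 1) ∣ q ^ k - 1 ↔ m ∣ S k := by
    intro k m
    rw [hS k, mul_comm m]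
    exact Nat.mul_dvd_mul_iff_left hc
  have hmod : ∀ i, (q ^ i ≡ 1 [MOD n * (q - 1)]) ↔ n ∣ S i := by
    intro i
    have h1 : 1 ≤ q ^ i := Nat.one_le_pow _ _ (by omega)
    rw [Nat.ModEq.comm, Nat.modEq_iff_dvd' h1]
    exact hS' i n
  have hmod' : (∀ i, 0 < i → i < n → ¬ q ^ i ≡ 1 [MOD n * (q - 1)]) ↔
      ∀ i, 0 < i → i < n → ¬ n ∣ S i := by
    constructor
    · intro h i h0 hi
      rw [← hmod i]; exact h i h0 hi
    · intro h i h0 hi
      rw [hmod i]; exact h i h0 hi
  rw [hmod n, hmod']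
  have hcrit : ∀ k, (∀ l e : ℕ, l.Prime → l ^ e ∣ n → l ^ e ∣ S k) → n ∣ S k := by
    intro k h
    rw [Nat.dvd_iff_prime_pow_dvd_dvd]
    intro l e hl hle
    exact h l e hl hle
  constructor
  · rintro ⟨hA1, hA2⟩
    constructor
    · rw [← hS' n n]
      exact lift_dvd q hq1 n hn0 hA1
    · intro i hi0 hin hdiv
      have hni : n ∣ i := by
        rw [Nat.dvd_iff_prime_pow_dvd_dvd]
        intro l e hl hle
        rcases Nat.eq_zero_or_pos e with rfl | hepos
        · simp
        have hln : l ∣ n := (dvd_pow_self l hepos.ne').trans hle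
        have hlq : l ∣ q - 1 := hA1 l hl hln
        have hdiv' : l ^ e * (q - 1) ∣ q ^ i - 1 := (hS' i _).mpr (hle.trans hdiv)
        by_cases hcase : Odd l ∨ 4 ∣ q - 1
        · exact pow_dvd_of_lift hl hq2 hlq hcase hi0.ne' hdiv'
        · push Not at hcase
          obtain ⟨hodd, h4⟩ := hcase
          have hl2 : l = 2 := hl.eq_two_or_odd'.resolve_right hodd
          subst hl2
          have h4n : ¬ 4 ∣ n := fun h => h4 (hA2 h)
          have he1 : e = 1 := by
            by_contra hne
            have h2e : 2 ≤ e := by omega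
            have h44 : (4 : ℕ) = 2 ^ 2 := by norm_num
            exact h4n (h44 ▸ (pow_dvd_pow 2 h2e).trans hle)
          subst he1
          rw [pow_one]
          by_contra hi2
          have hSodd := geom_parity q (by omega) i
          rw [← hSdef] at hSodd
          have h2S : 2 ∣ S i := (hS' i 2).mp (by simpa using hdiv')
          omega
      exact absurd (Nat.le_of_dvd hi0 hni) (by omega)
  · rintro ⟨hB1, hB2⟩
    by_contra hA
    suffices h : ∃ k, 0 < k ∧ k < n ∧ n ∣ S k by
      obtain ⟨k, hk0, hkn, hk⟩ := h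
      exact hB2 k hk0 hkn hk
    rw [not_and_or] at hA
    by_cases hA1 : ∀ r : ℕ, r.Prime → r ∣ n → r ∣ q - 1
    · have hA2 : ¬ (4 ∣ n → 4 ∣ q - 1) := hA.resolve_left (not_not.mpr hA1)
      push Not at hA2
      obtain ⟨h4n, h4q⟩ := hA2
      obtain ⟨k2, hk2⟩ := h4n
      have h2q : 2 ∣ q - 1 := hA1 2 Nat.prime_two ⟨2 * k2, by omega⟩
      refine ⟨2 * k2, by omega, by omega, ?_⟩
      apply hcrit
      intro l e hl hle
      by_cases hl2 : l = 2
      · subst hl2
        obtain ⟨f, k3, hk3, hk2'⟩ := Nat.exists_eq_pow_mul_and_not_dvd (show k2 ≠ 0 by omega) 2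
          (by norm_num)
        have h1 : 2 ^ e ∣ 2 ^ (f + 2) := by
          have hcop : Nat.Coprime (2 ^ e) k3 :=
            Nat.Coprime.pow_left _ ((Nat.Prime.coprime_iff_not_dvd Nat.prime_two).mpr hk3)
          have h2 : 2 ^ e ∣ 2 ^ (f + 2) * k3 := by
            rw [hk2, hk2'] at hle
            have e1 : 2 ^ (f + 2) * k3 = 4 * (2 ^ f * k3) := by ring
            rw [e1]; exact hle
          exact hcop.dvd_of_dvd_mul_right h2
        have h2 : 2 ^ f * (q ^ 2 - 1) ∣ (q ^ 2) ^ (2 ^ f) - 1 := by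
          apply lift_dvd (q ^ 2) (Nat.one_le_pow _ _ (by omega)) (2 ^ f) (by positivity)
          intro r hr hrd
          have hr2 : r ∣ 2 := hr.dvd_of_dvd_pow hrd
          have hr2' : r = 2 := (Nat.prime_dvd_prime_iff_eq hr Nat.prime_two).mp hr2
          subst hr2'
          exact h2q.trans (Nat.sub_one_dvd_pow_sub_one q 2)
        have h3 : (q ^ 2) ^ (2 ^ f) - 1 ∣ q ^ (2 * k2) - 1 := by
          rw [← pow_mul]
          apply Nat.pow_sub_one_dvd_pow_sub_one
          rw [hk2']
          exact Nat.mul_dvd_mul_left 2 (dvd_mul_right _ _)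
        have h4 : 4 * (q - 1) ∣ q ^ 2 - 1 := by
          have h4' : 4 ∣ q + 1 := by omega
          have e1 : q ^ 2 - 1 = (q + 1) * (q - 1) := by
            have := Nat.sq_sub_sq q 1
            rwa [one_pow] at this
          rw [e1]; exact Nat.mul_dvd_mul_right h4' _
        have h5 : 2 ^ (f + 2) * (q - 1) ∣ q ^ (2 * k2) - 1 := by
          have e1 : 2 ^ (f + 2) * (q - 1) = 2 ^ f * (4 * (q - 1)) := by ring
          rw [e1]
          exact ((Nat.mul_dvd_mul_left _ h4).trans h2).trans h3
        exact h1.trans ((hS' _ _).mp h5)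
      · have hcop : Nat.Coprime (l ^ e) 4 := by
          apply Nat.Coprime.pow_left
          have h2 : Nat.Coprime l 2 := (Nat.coprime_primes hl Nat.prime_two).mpr hl2
          have h44 : (4 : ℕ) = 2 ^ 2 := by norm_num
          rw [h44]
          exact h2.pow_right 2
        have h1 : l ^ e ∣ k2 := hcop.dvd_of_dvd_mul_left (hk2 ▸ hle)
        have h2 : l ^ e * (q - 1) ∣ q ^ (l ^ e) - 1 :=
          lift_dvd q hq1 (l ^ e) (by have := hl.pos; positivity)
            (fun r hr hrd => hA1 r hr (hrd.trans hle))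
        have h3 : q ^ (l ^ e) - 1 ∣ q ^ (2 * k2) - 1 :=
          Nat.pow_sub_one_dvd_pow_sub_one q (h1.trans (dvd_mul_left _ _))
        exact (hS' _ _).mp (h2.trans h3)
    · push Not at hA1
      obtain ⟨r0, hr0p, hr0n, hr0q⟩ := hA1
      obtain ⟨s, ⟨hsp, hsn, hsq⟩, hsmax⟩ : ∃ s, (s.Prime ∧ s ∣ n ∧ ¬ s ∣ q - 1) ∧
          ∀ r : ℕ, r.Prime → r ∣ n → ¬ r ∣ q - 1 → r ≤ s := by
        have hne : ((Finset.range (n + 1)).filter
            (fun r => r.Prime ∧ r ∣ n ∧ ¬ r ∣ q - 1)).Nonempty := by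
          refine ⟨r0, Finset.mem_filter.mpr ⟨Finset.mem_range.mpr ?_, hr0p, hr0n, hr0q⟩⟩
          have := Nat.le_of_dvd (by omega) hr0n
          omega
        obtain ⟨s, hs, hmax⟩ := Finset.exists_max_image _ (fun r : ℕ => r) hne
        refine ⟨s, (Finset.mem_filter.mp hs).2, ?_⟩
        intro r hr hrn hrq
        apply hmax r
        refine Finset.mem_filter.mpr ⟨Finset.mem_range.mpr ?_, hr, hrn, hrq⟩
        have := Nat.le_of_dvd (by omega) hrn
        omega
      obtain ⟨k, hk⟩ := hsn
      have hk0 : 0 < k := by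
        rcases Nat.eq_zero_or_pos k with rfl | h
        · rw [mul_zero] at hk; omega
        · exact h
      have hkn : k < n := by
        rw [hk]
        have := hsp.two_le
        nlinarith
      refine ⟨k, hk0, hkn, ?_⟩
      apply hcrit
      intro l e hl hle
      rcases Nat.eq_zero_or_pos e with rfl | hepos
      · simp
      have hln : l ∣ n := (dvd_pow_self l hepos.ne').trans hle
      by_cases hlq : l ∣ q - 1
      · have hne : l ≠ s := fun h => hsq (h ▸ hlq)
        have hcop : Nat.Coprime (l ^ e) s :=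
          Nat.Coprime.pow_left _ ((Nat.coprime_primes hl hsp).mpr hne)
        have h1 : l ^ e ∣ k := hcop.dvd_of_dvd_mul_left (hk ▸ hle)
        have h2 : l ^ e * (q - 1) ∣ q ^ (l ^ e) - 1 := by
          apply lift_dvd q hq1 (l ^ e) (by have := hl.pos; positivity)
          intro r hr hrd
          have h3 : r ∣ l := hr.dvd_of_dvd_pow hrd
          have h4 : r = l := (Nat.prime_dvd_prime_iff_eq hr hl).mp h3
          rw [h4]; exact hlq
        have h3 : q ^ (l ^ e) - 1 ∣ q ^ k - 1 := Nat.pow_sub_one_dvd_pow_sub_one q h1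
        exact (hS' _ _).mp (h2.trans h3)
      · have hls : l ≤ s := hsmax l hl hln hlq
        have hB1' : n * (q - 1) ∣ q ^ n - 1 := (hS' n n).mpr hB1
        have hlqn : l ∣ q ^ n - 1 := (hln.trans (dvd_mul_right n (q - 1))).trans hB1'
        have hlnq : ¬ l ∣ q := by
          intro h
          have h1 : l ∣ q ^ n := dvd_pow h hn0
          have h2 : l ∣ q ^ n - (q ^ n - 1) := Nat.dvd_sub h1 hlqn
          have h3 : q ^ n - (q ^ n - 1) = 1 := by
            have := Nat.one_le_pow n q (by omega)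
            omega
          rw [h3] at h2
          exact hl.one_lt.ne' (Nat.dvd_one.mp h2)
        obtain ⟨f, k', hk', hkk'⟩ := Nat.exists_eq_pow_mul_and_not_dvd hk0.ne' l hl.ne_one
        have hclaim : l ∣ q ^ k' - 1 := by
          haveI : Fact l.Prime := ⟨hl⟩
          have ha : (q : ZMod l) ≠ 0 := by
            rw [Ne, ZMod.natCast_eq_zero_iff]
            exact hlnq
          have hn1 : (q : ZMod l) ^ n = 1 := by
            have h0 : ((q ^ n - 1 : ℕ) : ZMod l) = 0 := (ZMod.natCast_eq_zero_iff _ _).mpr hlqn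
            rw [Nat.cast_sub (Nat.one_le_pow _ _ (by omega)), Nat.cast_pow, Nat.cast_one,
              sub_eq_zero] at h0
            exact h0
          have hf1 : (q : ZMod l) ^ (l - 1) = 1 := ZMod.pow_card_sub_one_eq_one ha
          have hg : (q : ZMod l) ^ (Nat.gcd n (l - 1)) = 1 := pow_gcd_eq_one.mpr ⟨hn1, hf1⟩
          have hgk : Nat.gcd n (l - 1) ∣ k' := by
            obtain ⟨g, hg_def⟩ : ∃ g, g = Nat.gcd n (l - 1) := ⟨_, rfl⟩
            rw [← hg_def]
            have hg1 : g ∣ l - 1 := hg_def ▸ Nat.gcd_dvd_right _ _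
            have hg2 : g ∣ n := hg_def ▸ Nat.gcd_dvd_left _ _
            have hgpos : 0 < g := hg_def ▸ Nat.gcd_pos_of_pos_left _ (by omega)
            have hl2 := hl.two_le
            have hgle : g ≤ l - 1 := Nat.le_of_dvd (by omega) hg1
            have hcs : Nat.Coprime g s := by
              rw [Nat.coprime_comm, Nat.Prime.coprime_iff_not_dvd hsp]
              intro h
              have := Nat.le_of_dvd hgpos h
              omega
            have hcl : Nat.Coprime g l := by
              rw [Nat.coprime_comm, Nat.Prime.coprime_iff_not_dvd hl]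
              intro h
              have := Nat.le_of_dvd hgpos h
              omega
            have h1 : g ∣ k := hcs.dvd_of_dvd_mul_left (hk ▸ hg2)
            rw [hkk'] at h1
            exact (hcl.pow_right f).dvd_of_dvd_mul_left h1
          obtain ⟨t, ht⟩ := hgk
          have hk1 : (q : ZMod l) ^ k' = 1 := by rw [ht, pow_mul, hg, one_pow]
          have h0 : ((q ^ k' - 1 : ℕ) : ZMod l) = 0 := by
            rw [Nat.cast_sub (Nat.one_le_pow _ _ (by omega)), Nat.cast_pow, Nat.cast_one, hk1,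
              sub_self]
          exact (ZMod.natCast_eq_zero_iff _ _).mp h0
        have h2 : l ^ f * (q ^ k' - 1) ∣ (q ^ k') ^ (l ^ f) - 1 := by
          apply lift_dvd (q ^ k') (Nat.one_le_pow _ _ (by omega)) (l ^ f)
            (by have := hl.pos; positivity)
          intro r hr hrd
          have h3 : r ∣ l := hr.dvd_of_dvd_pow hrd
          have h4 : r = l := (Nat.prime_dvd_prime_iff_eq hr hl).mp h3
          rw [h4]; exact hclaim
        have h3 : l ^ (f + 1) ∣ q ^ k - 1 := by
          have e1 : (q ^ k') ^ (l ^ f) = q ^ k := by rw [← pow_mul, hkk', mul_comm]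
          rw [e1] at h2
          have h5 : l ^ (f + 1) ∣ l ^ f * (q ^ k' - 1) := by
            rw [pow_succ]; exact Nat.mul_dvd_mul_left _ hclaim
          exact h5.trans h2
        have h4 : l ^ e ∣ l ^ (f + 1) := by
          have hcop : Nat.Coprime (l ^ e) k' :=
            Nat.Coprime.pow_left _ ((Nat.Prime.coprime_iff_not_dvd hl).mpr hk')
          have h5 : l ^ e ∣ s * l ^ f := by
            have h6 : l ^ e ∣ (s * l ^ f) * k' := by
              rw [hk, hkk'] at hle
              have e1 : s * l ^ f * k' = s * (l ^ f * k') := by ring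
              rw [e1]; exact hle
            exact hcop.dvd_of_dvd_mul_right h6
          by_cases hsl : s = l
          · rw [hsl] at h5; rw [pow_succ, mul_comm]; exact h5
          · have hcop2 : Nat.Coprime (l ^ e) s :=
              Nat.Coprime.pow_left _ ((Nat.coprime_primes hl hsp).mpr (Ne.symm hsl))
            exact (hcop2.dvd_of_dvd_mul_left h5).trans (pow_dvd_pow l (Nat.le_succ f))
        have h6 : l ^ e ∣ q ^ k - 1 := h4.trans h3
        rw [hS k] at h6
        have hcop3 : Nat.Coprime (l ^ e) (q - 1) :=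
          Nat.Coprime.pow_left _ ((Nat.Prime.coprime_iff_not_dvd hl).mpr hlq)
        exact hcop3.dvd_of_dvd_mul_left h6

end Cfsg.Agent.S0694
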