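import Cfsg.Statements.S0695
import Mathlib

set_option autoImplicit false
open Cfsg

namespace Cfsg.Agent.S0695

open scoped Pointwise

/-- A regular normal subgroup of a doubly primitive group of finite degree at least 2 is an elementary abelian 2-group (and the degree is a power of 2), unless the degree is 3. -/
theorem result {G : Type*} [Group G] {X : Type*} [Fintype X] [MulAction G X] (hX : 2 ≤ Fintype.card X) (h2 : MulAction.IsMultiplyPreprimitive G X 2) (N : Subgroup G) [N.Normal] (htrans : MulAction.IsPretransitive N X) (hreg : ∀ x : X, MulAction.stabilizer N x = ⊥) : Fintype.card X = 3 ∨ (IsMulCommutative N ∧ (∀ n ∈ N, n ^ 2 = 1) ∧ ∃ m : ℕ, Fintype.card X = 2 ^ m) := by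
  classical
  have hne : Nonempty X := by
    rw [← Fintype.card_pos_iff]; omega
  obtain ⟨a⟩ := hne
  have hinj : ∀ n ∈ N, ∀ m ∈ N, n • a = m • a → n = m := by
    intro n hn m hm h
    have h1 : (⟨m⁻¹ * n, N.mul_mem (N.inv_mem hm) hn⟩ : N) ∈ MulAction.stabilizer N a := by
      rw [MulAction.mem_stabilizer_iff]
      show (m⁻¹ * n) • a = a
      rw [mul_smul, h, inv_smul_smul]
    rw [hreg a, Subgroup.mem_bot] at h1
    have h2 : m⁻¹ * n = 1 := congrArg Subtype.val h1
    exact (inv_mul_eq_one.mp h2).symm
  have hbij : Function.Bijective (fun n : N => (n : G) • a) := by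
    constructor
    · intro n m h
      exact Subtype.ext (hinj n n.2 m m.2 h)
    · intro x
      obtain ⟨n, hn⟩ := MulAction.exists_smul_eq N a x
      exact ⟨n, hn⟩
  have hcard : Nat.card N = Fintype.card X := by
    rw [← Nat.card_eq_fintype_card]; exact Nat.card_eq_of_bijective _ hbij
  have hfinN : Finite N := Finite.of_injective _ hbij.1
  by_cases hall : ∀ n ∈ N, n ^ 2 = 1
  · right
    refine ⟨?_, hall, ?_⟩
    · have hinv : ∀ z ∈ N, z⁻¹ = z := fun z hz => by
        rw [inv_eq_iff_mul_eq_one, ← pow_two]; exact hall z hz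
      refine IsMulCommutative.of_setLike_mul_comm fun x hx y hy => ?_
      calc x * y = (x * y)⁻¹ := (hinv _ (N.mul_mem hx hy)).symm
        _ = y⁻¹ * x⁻¹ := mul_inv_rev x y
        _ = y * x := by rw [hinv x hx, hinv y hy]
    · have hPG : IsPGroup 2 N := by
        intro g
        refine ⟨1, ?_⟩
        rw [pow_one]
        exact Subtype.ext (hall g g.2)
      have hf2 : Fact (Nat.Prime 2) := ⟨Nat.prime_two⟩
      obtain ⟨m, hm⟩ := IsPGroup.iff_card.mp hPG
      exact ⟨m, by rw [← hcard, hm]⟩
  · left
    push Not at hall
    obtain ⟨n, hn, hn2⟩ := hall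
    have h2t : MulAction.IsMultiplyPretransitive G X 2 := h2.isMultiplyPretransitive
    have hG : MulAction.IsPretransitive G X := MulAction.isPretransitive_of_is_two_pretransitive
    have h2' : MulAction.IsMultiplyPreprimitive G X (Nat.succ 1) := h2
    have h1 : MulAction.IsMultiplyPreprimitive (MulAction.stabilizer G a)
        (SubMulAction.ofStabilizer G a) 1 := MulAction.isMultiplyPreprimitive_ofStabilizer G X
    have hprim : MulAction.IsPreprimitive (MulAction.stabilizer G a)
        (SubMulAction.ofStabilizer G a) := (MulAction.is_one_preprimitive_iff _ _).mp h1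
    let B : Set X := {n • a, n⁻¹ • a}
    have hB : MulAction.IsBlock (MulAction.stabilizer G a) B := by
      rw [MulAction.isBlock_iff_smul_eq_or_disjoint]
      intro g
      have hmN : (g : G) * n * (g : G)⁻¹ ∈ N := ‹N.Normal›.conj_mem n hn g
      have hga : (g : G) • a = a := g.2
      have hga' : (g : G)⁻¹ • a = a := by rw [inv_smul_eq_iff, hga]
      have hgB : g • B = {((g : G) * n * (g : G)⁻¹) • a, ((g : G) * n * (g : G)⁻¹)⁻¹ • a} := by
        show (g : G) • ({n • a, n⁻¹ • a} : Set X) = _
        rw [Set.smul_set_insert, Set.smul_set_singleton]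
        congr 1
        · rw [mul_smul, mul_smul, hga']
        · have h5 : ((g : G) * n * (g : G)⁻¹)⁻¹ = (g : G) * n⁻¹ * (g : G)⁻¹ := by group
          rw [h5, mul_smul, mul_smul, hga']
      rw [hgB]
      by_cases hd : Disjoint ({((g : G) * n * (g : G)⁻¹) • a,
          ((g : G) * n * (g : G)⁻¹)⁻¹ • a} : Set X) B
      · right; exact hd
      · left
        rw [Set.not_disjoint_iff] at hd
        obtain ⟨x, hx1, hx2⟩ := hd
        have hcase : (g : G) * n * (g : G)⁻¹ = n ∨ (g : G) * n * (g : G)⁻¹ = n⁻¹ := by
          rcases hx1 with rfl | rfl <;> rcases hx2 with h | h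
          · left; exact hinj _ hmN n hn h
          · right; exact hinj _ hmN n⁻¹ (N.inv_mem hn) h
          · right
            have h6 := hinj _ (N.inv_mem hmN) n hn h
            exact inv_eq_iff_eq_inv.mp h6
          · left
            have h6 := hinj _ (N.inv_mem hmN) n⁻¹ (N.inv_mem hn) h
            exact inv_injective h6
        rcases hcase with h | h
        · rw [h]
        · rw [h, inv_inv]; exact Set.pair_comm _ _
    have hB' := hB.subtype_val_preimage (C := SubMulAction.ofStabilizer G a)
    have htriv := hprim.isTrivialBlock_of_isBlock hB'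
    have hna : n • a ≠ a := by
      intro h
      have h7 := hinj n hn 1 N.one_mem (by rw [h, one_smul])
      rw [h7, one_pow] at hn2; exact hn2 rfl
    have hna' : n⁻¹ • a ≠ a := by
      intro h; apply hna; rw [inv_smul_eq_iff] at h; exact h.symm
    have hnn : n • a ≠ n⁻¹ • a := by
      intro h
      have h7 := hinj n hn n⁻¹ (N.inv_mem hn) h
      apply hn2
      have h8 : n * n = 1 := by
        nth_rewrite 2 [h7]; exact mul_inv_cancel n
      rw [pow_two]; exact h8
    rcases htriv with hs | ht
    · exfalso
      have h1 : (⟨n • a, hna⟩ : SubMulAction.ofStabilizer G a) ∈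
          (Subtype.val ⁻¹' B : Set (SubMulAction.ofStabilizer G a)) := Or.inl rfl
      have h2 : (⟨n⁻¹ • a, hna'⟩ : SubMulAction.ofStabilizer G a) ∈
          (Subtype.val ⁻¹' B : Set (SubMulAction.ofStabilizer G a)) := Or.inr rfl
      exact hnn (congrArg Subtype.val (hs h1 h2))
    · have hx : ∀ x : X, x = a ∨ x = n • a ∨ x = n⁻¹ • a := by
        intro x
        by_cases hxa : x = a
        · left; exact hxa
        · right
          have h9 : (⟨x, hxa⟩ : SubMulAction.ofStabilizer G a) ∈
              (Subtype.val ⁻¹' B : Set (SubMulAction.ofStabilizer G a)) := by rw [ht]; trivial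
          exact h9
      have huniv : (Finset.univ : Finset X) = {a, n • a, n⁻¹ • a} := by
        ext x
        simp only [Finset.mem_univ, Finset.mem_insert, Finset.mem_singleton, true_iff]
        exact hx x
      rw [← Finset.card_univ, huniv]
      rw [Finset.card_insert_of_notMem, Finset.card_insert_of_notMem, Finset.card_singleton]
      · simpa using hnn
      · simp only [Finset.mem_insert, Finset.mem_singleton, not_or]
        exact ⟨fun h => hna h.symm, fun h => hna' h.symm⟩

end Cfsg.Agent.S0695
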