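import Cfsg.Statements.S0696
import Mathlib
import Cfsg.Agent.S0695

set_option autoImplicit false
open Cfsg

namespace Cfsg.Agent.S0696

open scoped Pointwise

/-- A triply primitive group of degree at least 3 having a regular normal subgroup has degree 3 or 4. -/
theorem result {G : Type*} [Group G] {X : Type*} [Fintype X] [MulAction G X] (hX : 3 ≤ Fintype.card X) (h3 : MulAction.IsMultiplyPreprimitive G X 3) (N : Subgroup G) [N.Normal] (htrans : MulAction.IsPretransitive N X) (hreg : ∀ x : X, MulAction.stabilizer N x = ⊥) : Fintype.card X = 3 ∨ Fintype.card X = 4 := by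
  classical
  have hcardE : ((3 : ℕ) : ℕ∞) ≤ ENat.card X := by
    rw [ENat.card_eq_coe_fintype_card]; exact_mod_cast hX
  have h2 : MulAction.IsMultiplyPreprimitive G X 2 :=
    MulAction.isMultiplyPreprimitive_of_le G X h3 (by norm_num) hcardE
  rcases Cfsg.Agent.S0695.result (by omega) h2 N htrans hreg with h | ⟨hcomm, hexp, m, hm⟩
  · left; exact h
  right
  have hne : Nonempty X := by rw [← Fintype.card_pos_iff]; omega
  obtain ⟨a⟩ := hne
  have hinj : ∀ n ∈ N, ∀ m ∈ N, n • a = m • a → n = m := by
    intro n hn m hm h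
    have h1 : (⟨m⁻¹ * n, N.mul_mem (N.inv_mem hm) hn⟩ : N) ∈ MulAction.stabilizer N a := by
      rw [MulAction.mem_stabilizer_iff]
      show (m⁻¹ * n) • a = a
      rw [mul_smul, h, inv_smul_smul]
    rw [hreg a, Subgroup.mem_bot] at h1
    have h2 : m⁻¹ * n = 1 := congrArg Subtype.val h1
    exact (inv_mul_eq_one.mp h2).symm
  obtain ⟨b, hba⟩ : ∃ b : X, b ≠ a := by
    by_contra hcon
    push Not at hcon
    have h1 : Fintype.card X ≤ 1 :=
      Fintype.card_le_one_iff.mpr (fun x y => by rw [hcon x, hcon y])
    omega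
  obtain ⟨c, hca, hcb⟩ : ∃ c : X, c ≠ a ∧ c ≠ b := by
    by_contra hcon
    push Not at hcon
    have h1 : (Finset.univ : Finset X) ⊆ {a, b} := by
      intro x _
      by_cases hxa : x = a
      · simp [hxa]
      · simp [hcon x hxa]
    have h4 := Finset.card_le_card h1
    have h5 : ({a, b} : Finset X).card ≤ 2 := Finset.card_le_two
    rw [Finset.card_univ] at h4
    omega
  obtain ⟨⟨n, hnN⟩, hn⟩ := MulAction.exists_smul_eq N a b
  obtain ⟨⟨m', hmN⟩, hm'⟩ := MulAction.exists_smul_eq N a c
  have hn' : n • a = b := hn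
  have hm'' : m' • a = c := hm'
  have hnn : n * n = 1 := by rw [← pow_two]; exact hexp n hnN
  have hs : ({a, b} : Set X).encard + 1 = 3 := by
    rw [Set.encard_pair hba.symm]; norm_num
  have hprim : MulAction.IsPreprimitive (fixingSubgroup G ({a, b} : Set X))
      (SubMulAction.ofFixingSubgroup G ({a, b} : Set X)) :=
    h3.isPreprimitive_ofFixingSubgroup (by exact_mod_cast hs)
  let B : Set X := {m' • a, (n * m') • a}
  have hB : MulAction.IsBlock (fixingSubgroup G ({a, b} : Set X)) B := by
    rw [MulAction.isBlock_iff_smul_eq_or_disjoint]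
    intro g
    have hga : (g : G) • a = a := (mem_fixingSubgroup_iff G).mp g.2 a (by simp)
    have hgb : (g : G) • b = b := (mem_fixingSubgroup_iff G).mp g.2 b (by simp)
    have hga' : (g : G)⁻¹ • a = a := by rw [inv_smul_eq_iff, hga]
    have hgn : (g : G) * n * (g : G)⁻¹ = n := by
      apply hinj _ (‹N.Normal›.conj_mem n hnN g) n hnN
      rw [mul_smul, mul_smul, hga', hn', hgb]
    have hm₂N : (g : G) * m' * (g : G)⁻¹ ∈ N := ‹N.Normal›.conj_mem m' hmN g
    have hgB : g • B = {((g : G) * m' * (g : G)⁻¹) • a,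
        (n * ((g : G) * m' * (g : G)⁻¹)) • a} := by
      show (g : G) • ({m' • a, (n * m') • a} : Set X) = _
      rw [Set.smul_set_insert, Set.smul_set_singleton]
      congr 1
      · rw [mul_smul, mul_smul, hga']
      · have h5 : n * ((g : G) * m' * (g : G)⁻¹) = (g : G) * (n * m') * (g : G)⁻¹ := by
          conv_lhs => rw [← hgn]
          group
        rw [h5]
        simp only [mul_smul, hga']
    rw [hgB]
    by_cases hd : Disjoint ({((g : G) * m' * (g : G)⁻¹) • a,
        (n * ((g : G) * m' * (g : G)⁻¹)) • a} : Set X) B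
    · right; exact hd
    · left
      rw [Set.not_disjoint_iff] at hd
      obtain ⟨x, hx1, hx2⟩ := hd
      have hcase : (g : G) * m' * (g : G)⁻¹ = m' ∨ (g : G) * m' * (g : G)⁻¹ = n * m' := by
        rcases hx1 with rfl | rfl <;> rcases hx2 with h | h
        · left; exact hinj _ hm₂N _ hmN h
        · right; exact hinj _ hm₂N _ (N.mul_mem hnN hmN) h
        · right
          have h6 := hinj _ (N.mul_mem hnN hm₂N) _ hmN h
          calc (g : G) * m' * (g : G)⁻¹ = n * (n * ((g : G) * m' * (g : G)⁻¹)) := by
                rw [← mul_assoc, hnn, one_mul]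
            _ = n * m' := by rw [h6]
        · left
          have h6 := hinj _ (N.mul_mem hnN hm₂N) _ (N.mul_mem hnN hmN) h
          exact mul_left_cancel h6
      rcases hcase with h | h
      · rw [h]
      · rw [h, ← mul_assoc, hnn, one_mul]; exact Set.pair_comm _ _
  have hB' := hB.subtype_val_preimage (C := SubMulAction.ofFixingSubgroup G ({a, b} : Set X))
  have htriv := hprim.isTrivialBlock_of_isBlock hB'
  have hn1 : n ≠ 1 := by rintro rfl; rw [one_smul] at hn'; exact hba hn'.symm
  have hm1 : m' ≠ 1 := by rintro rfl; rw [one_smul] at hm''; exact hca hm''.symm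
  have hmn : m' ≠ n := by rintro rfl; exact hcb (hm''.symm.trans hn')
  have hnm_a : (n * m') • a ≠ a := by
    intro h
    have h7 := hinj _ (N.mul_mem hnN hmN) 1 N.one_mem (by rw [h, one_smul])
    apply hmn
    calc m' = n * (n * m') := by rw [← mul_assoc, hnn, one_mul]
      _ = n := by rw [h7, mul_one]
  have hnm_b : (n * m') • a ≠ b := by
    intro h
    rw [← hn'] at h
    have h7 := hinj _ (N.mul_mem hnN hmN) n hnN h
    exact hm1 (mul_left_cancel (h7.trans (mul_one n).symm))
  have hmm : m' • a ≠ (n * m') • a := by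
    intro h
    have h7 := hinj _ hmN _ (N.mul_mem hnN hmN) h
    exact hn1 (mul_right_cancel ((one_mul m').trans h7)).symm
  have hc_s : m' • a ∉ ({a, b} : Set X) := by
    rw [hm'']
    simp [hca, hcb]
  have hd_s : (n * m') • a ∉ ({a, b} : Set X) := by simp [hnm_a, hnm_b]
  rcases htriv with hsub | ht
  · exfalso
    have h1 : (⟨m' • a, hc_s⟩ : SubMulAction.ofFixingSubgroup G ({a, b} : Set X)) ∈
        (Subtype.val ⁻¹' B : Set (SubMulAction.ofFixingSubgroup G ({a, b} : Set X))) :=
      Or.inl rfl
    have h2 : (⟨(n * m') • a, hd_s⟩ : SubMulAction.ofFixingSubgroup G ({a, b} : Set X)) ∈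
        (Subtype.val ⁻¹' B : Set (SubMulAction.ofFixingSubgroup G ({a, b} : Set X))) :=
      Or.inr rfl
    exact hmm (congrArg Subtype.val (hsub h1 h2))
  · have hx : ∀ x : X, x = a ∨ x = b ∨ x = m' • a ∨ x = (n * m') • a := by
      intro x
      by_cases hxa : x = a
      · left; exact hxa
      by_cases hxb : x = b
      · right; left; exact hxb
      right; right
      have hxs : x ∉ ({a, b} : Set X) := by simp [hxa, hxb]
      have h9 : (⟨x, hxs⟩ : SubMulAction.ofFixingSubgroup G ({a, b} : Set X)) ∈
          (Subtype.val ⁻¹' B : Set (SubMulAction.ofFixingSubgroup G ({a, b} : Set X))) := by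
        rw [ht]; trivial
      exact h9
    have huniv : (Finset.univ : Finset X) = {a, b, m' • a, (n * m') • a} := by
      ext x
      simp only [Finset.mem_univ, Finset.mem_insert, Finset.mem_singleton, true_iff]
      exact hx x
    rw [← Finset.card_univ, huniv]
    rw [Finset.card_insert_of_notMem, Finset.card_insert_of_notMem,
      Finset.card_insert_of_notMem, Finset.card_singleton]
    · simpa using hmm
    · simp only [Finset.mem_insert, Finset.mem_singleton, not_or]
      exact ⟨by rw [hm'']; exact hcb.symm, hnm_b.symm⟩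
    · simp only [Finset.mem_insert, Finset.mem_singleton, not_or]
      exact ⟨hba.symm, by rw [hm'']; exact hca.symm, hnm_a.symm⟩

end Cfsg.Agent.S0696
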