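import Cfsg.Statements.S0697
import Cfsg.Agent.Lib.Helper6.MTrans

set_option autoImplicit false
open Cfsg

namespace Cfsg.Agent.S0697

open Equiv Cfsg.Agent.Lib.Helper6
open scoped Pointwise

variable {α : Type*} [Fintype α] [DecidableEq α]

/-- `N` is normalized by `S` -/
def NormBy (S N : Subgroup (Perm α)) : Prop := ∀ s ∈ S, ∀ n ∈ N, s * n * s⁻¹ ∈ N

omit [Fintype α] in
lemma NormBy.ptStab {S N : Subgroup (Perm α)} (h : NormBy S N) (a : α) :
    NormBy (ptStab S a) (ptStab N a) := by
  intro s hs n hn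
  rw [mem_ptStab] at hs hn ⊢
  refine ⟨h s hs.1 n hn.1, ?_⟩
  rw [Perm.mul_apply, Perm.mul_apply, Perm.inv_eq_iff_eq.mpr hs.2.symm, hn.2, hs.2]

omit [Fintype α] in
lemma exists_moved {n : Perm α} (hn : n ≠ 1) : ∃ a, n a ≠ a := by
  by_contra hc
  push Not at hc
  exact hn (Equiv.ext hc)

/-- relative primitivity: transitive off `F`, and blocks off `F` are trivial -/
def Prim (S : Subgroup (Perm α)) (F : Finset α) : Prop :=
  TrOff S F ∧ ∀ B : Finset α, Disjoint B F →
    (∀ s ∈ S, B.image s = B ∨ Disjoint (B.image s) B) → B.card ≤ 1 ∨ ∀ z, z ∉ F → z ∈ B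

/-- relative multiple primitivity -/
def MP : ℕ → Subgroup (Perm α) → Finset α → Prop
  | 0, _, _ => True
  | 1, S, F => Prim S F
  | m + 2, S, F => TrOff S F ∧ ∀ a, a ∉ F → MP (m + 1) (ptStab S a) (insert a F)

/-- `S` induces the full symmetric group off `F` -/
def Full (S : Subgroup (Perm α)) (F : Finset α) : Prop :=
  ∀ σ : Perm α, (∀ z ∈ F, σ z = z) → σ ∈ S

omit [Fintype α] in
lemma MP.mt : ∀ (m : ℕ) (S : Subgroup (Perm α)) (F : Finset α), MP m S F → MT m S F
  | 0, _, _, _ => trivial
  | 1, _, _, h => MT_one_iff.mpr h.1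
  | m + 2, _, _, h => ⟨h.1, fun a ha => MP.mt (m + 1) _ _ (h.2 a ha)⟩

omit [Fintype α] in
lemma prim_of_two {S : Subgroup (Perm α)} {F : Finset α} (hF : FixesOn S F) (h : MT 2 S F) :
    Prim S F := by
  refine ⟨h.trOff (by norm_num), ?_⟩
  intro B hBF hB
  by_cases hc : B.card ≤ 1
  · exact Or.inl hc
  · right
    push Not at hc
    obtain ⟨a, b, haB, hbB, hab⟩ := Finset.one_lt_card_iff.mp hc
    have haF : a ∉ F := fun hh => Finset.disjoint_left.mp hBF haB hh
    have hbF : b ∉ F := fun hh => Finset.disjoint_left.mp hBF hbB hh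
    intro z hz
    by_cases hza : z = a
    · rw [hza]; exact haB
    · obtain ⟨s, hs, hsa, hsb⟩ := h.two hF haF hbF haF hz hab (Ne.symm hza)
      rcases hB s hs with h1 | h1
      · rw [← h1, ← hsb]
        exact Finset.mem_image_of_mem _ hbB
      · exfalso
        have : a ∈ B.image s := by
          rw [← hsa]; exact Finset.mem_image_of_mem _ haB
        exact Finset.disjoint_left.mp h1 this haB

omit [Fintype α] in
lemma MP.prim : ∀ (m : ℕ) (S : Subgroup (Perm α)) (F : Finset α), 1 ≤ m → FixesOn S F →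
    MP m S F → Prim S F
  | 0, _, _, h, _, _ => absurd h (by norm_num)
  | 1, _, _, _, _, h => h
  | m + 2, S, F, _, hF, h => prim_of_two hF (MT_le (by omega) (MP.mt (m + 2) S F h))

/-- a nontrivial normal subgroup of a primitive group is transitive -/
lemma tr_of_normal_prim {S N : Subgroup (Perm α)} {F : Finset α} (hF : FixesOn S F)
    (hNS : N ≤ S) (hn : NormBy S N) (hN : N ≠ ⊥) (hP : Prim S F) : TrOff N F := by
  classical
  obtain ⟨n, hnN, hn1⟩ : ∃ n ∈ N, n ≠ 1 := by
    by_contra hc
    push Not at hc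
    exact hN ((Subgroup.eq_bot_iff_forall N).mpr hc)
  obtain ⟨a, ha⟩ := exists_moved hn1
  have hFN : FixesOn N F := hF.mono hNS
  have haF : a ∉ F := fun h => ha (hF n (hNS hnN) a h)
  -- the orbit of `a`
  obtain ⟨B, hBdef⟩ : ∃ B : Finset α, ∀ z, z ∈ B ↔ ∃ h ∈ N, h a = z :=
    ⟨Finset.univ.filter (fun z => ∃ h ∈ N, h a = z), fun z => by simp⟩
  have hBF : Disjoint B F := by
    rw [Finset.disjoint_left]
    intro z hz hzF
    obtain ⟨h, hh, rfl⟩ := (hBdef z).mp hz
    exact hFN.not_mem hh haF hzF
  have hblock : ∀ s ∈ S, B.image s = B ∨ Disjoint (B.image s) B := by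
    intro s hs
    by_cases hd : Disjoint (B.image s) B
    · exact Or.inr hd
    · left
      rw [Finset.not_disjoint_iff] at hd
      obtain ⟨z, hz1, hz2⟩ := hd
      obtain ⟨y, hy, rfl⟩ := Finset.mem_image.mp hz1
      obtain ⟨h, hh, rfl⟩ := (hBdef y).mp hy
      obtain ⟨h', hh', hh'a⟩ := (hBdef _).mp hz2
      -- `s a = n₀ a` with `n₀ ∈ N`
      have hn0 : (s * h⁻¹ * s⁻¹) * h' ∈ N := N.mul_mem (hn s hs _ (N.inv_mem hh)) hh'
      have hsa : s a = ((s * h⁻¹ * s⁻¹) * h') a := by
        rw [Perm.mul_apply, Perm.mul_apply, Perm.mul_apply, hh'a, perm_inv_apply, perm_inv_apply]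
      apply Finset.eq_of_subset_of_card_le
      · intro w hw
        obtain ⟨y, hy, rfl⟩ := Finset.mem_image.mp hw
        obtain ⟨h₂, hh₂, rfl⟩ := (hBdef y).mp hy
        rw [hBdef]
        refine ⟨(s * h₂ * s⁻¹) * ((s * h⁻¹ * s⁻¹) * h'), N.mul_mem (hn s hs _ hh₂) hn0, ?_⟩
        rw [Perm.mul_apply, ← hsa, Perm.mul_apply, Perm.mul_apply, perm_inv_apply]
      · rw [Finset.card_image_of_injective _ s.injective]
  have haB : a ∈ B := (hBdef a).mpr ⟨1, N.one_mem, rfl⟩
  have hnaB : n a ∈ B := (hBdef _).mpr ⟨n, hnN, rfl⟩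
  rcases hP.2 B hBF hblock with h1 | h1
  · exfalso
    exact ha (Finset.card_le_one.mp h1 _ hnaB _ haB)
  · intro x hx y hy
    obtain ⟨h₁, hh₁, rfl⟩ := (hBdef x).mp (h1 x hx)
    obtain ⟨h₂, hh₂, rfl⟩ := (hBdef y).mp (h1 y hy)
    refine ⟨h₂ * h₁⁻¹, N.mul_mem hh₂ (N.inv_mem hh₁), ?_⟩
    rw [Perm.mul_apply, perm_inv_apply]

omit [Fintype α] in
lemma full_of_ptStab {S : Subgroup (Perm α)} {F : Finset α} (hF : FixesOn S F)
    (hT : TrOff S F) {a : α} (ha : a ∉ F) (h : Full (ptStab S a) (insert a F)) : Full S F := by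
  intro σ hσ
  have hσa : σ a ∉ F := by
    intro hh
    have h1 := hσ (σ a) hh
    have h2 : σ a = a := σ.injective h1
    rw [h2] at hh
    exact ha hh
  obtain ⟨s, hs, hsa⟩ := hT (σ a) hσa a ha
  have h1 : s * σ ∈ ptStab S a := by
    apply h
    intro z hz
    rcases Finset.mem_insert.mp hz with rfl | hz
    · rw [Perm.mul_apply, hsa]
    · rw [Perm.mul_apply, hσ z hz, hF s hs z hz]
  have h2 := S.mul_mem (S.inv_mem hs) (ptStab_le S a h1)
  simpa using h2

lemma full_of_mt : ∀ (m : ℕ) (S : Subgroup (Perm α)) (F : Finset α), FixesOn S F → MT m S F →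
    Fintype.card α ≤ F.card + m + 1 → Full S F
  | 0, S, F, _, _, hc => by
    intro σ hσ
    have : σ = 1 := by
      ext z
      by_contra hz
      change σ z ≠ z at hz
      have hzF : z ∉ F := fun hh => hz (hσ z hh)
      have hσz : σ z ∉ F := by
        intro hh
        have h1 := hσ (σ z) hh
        exact hz (σ.injective h1)
      have h1 : (insert z (insert (σ z) F)).card = F.card + 2 := by
        rw [Finset.card_insert_of_notMem, Finset.card_insert_of_notMem hσz]
        rw [Finset.mem_insert, not_or]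
        exact ⟨fun hh => hz hh.symm, hzF⟩
      have h2 := Finset.card_le_univ (insert z (insert (σ z) F))
      omega
    rw [this]; exact S.one_mem
  | m + 1, S, F, hF, h, hc => by
    by_cases hex : ∃ a, a ∉ F
    · obtain ⟨a, ha⟩ := hex
      refine full_of_ptStab hF h.1 ha ?_
      refine full_of_mt m _ _ (hF.ptStab a) (h.2 a ha) ?_
      rw [Finset.card_insert_of_notMem ha]; omega
    · push Not at hex
      intro σ hσ
      have : σ = 1 := by
        ext z
        exact hσ z (hex z)
      rw [this]; exact S.one_mem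

/-- the exceptional case: a sharply 2-transitive normal subgroup of a 3-primitive group -/
lemma full_of_sharp {S N : Subgroup (Perm α)} {F : Finset α} (hF : FixesOn S F)
    (hNS : N ≤ S) (hn : NormBy S N) (h3 : MT 3 S F)
    (hP : ∀ a b, a ∉ F → b ∉ insert a F →
      Prim (ptStab (ptStab S a) b) (insert b (insert a F)))
    {a : α} (ha : a ∉ F) (hT : TrOff N F) (hTa : TrOff (ptStab N a) (insert a F))
    (hsr : ∀ n ∈ ptStab N a, ∀ z, z ∉ insert a F → n z = z → n = 1) : Full S F := by
  by_cases hcard : Fintype.card α ≤ F.card + 3 + 1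
  · exact full_of_mt 3 S F hF h3 hcard
  exfalso
  push Not at hcard
  have hFN : FixesOn N F := hF.mono hNS
  -- elements of `N` fixing two points are trivial
  have R : ∀ n ∈ N, ∀ a' b', a' ∉ F → b' ∉ F → a' ≠ b' → n a' = a' → n b' = b' → n = 1 := by
    intro n hnN a' b' ha' hb' hab h1 h2
    obtain ⟨h, hh, hha⟩ := hT a ha a' ha'
    have hm : h⁻¹ * n * h ∈ ptStab N a := by
      rw [mem_ptStab]
      refine ⟨N.mul_mem (N.mul_mem (N.inv_mem hh) hnN) hh, ?_⟩
      rw [Perm.mul_apply, Perm.mul_apply, hha, h1, ← hha, perm_inv_apply]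
    have hz : h⁻¹ b' ∉ insert a F := by
      rw [Finset.mem_insert, not_or]
      refine ⟨?_, hFN.not_mem (N.inv_mem hh) hb'⟩
      intro hc
      rw [Perm.inv_eq_iff_eq, hha] at hc
      exact hab hc.symm
    have h3 := hsr _ hm (h⁻¹ b') hz (by
      rw [Perm.mul_apply, Perm.mul_apply, perm_apply_inv, h2])
    have h4 := congrArg (fun t => h * t * h⁻¹) h3
    simpa [mul_assoc] using h4
  obtain ⟨b, hb⟩ := exists_notMem_of_card_lt (insert a F) (by
    rw [Finset.card_insert_of_notMem ha]; omega)
  have hb' := hb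
  rw [Finset.mem_insert, not_or] at hb'
  -- an element of `N` swapping `a` and `b`
  obtain ⟨h₁, hh₁, h1b⟩ := hT b hb'.2 a ha
  have hc1 : h₁ a ∉ insert a F := by
    rw [Finset.mem_insert, not_or]
    refine ⟨?_, hFN.not_mem hh₁ ha⟩
    intro hc
    exact hb'.1 (h₁.injective (h1b.trans hc.symm))
  obtain ⟨h₂, hh₂, h2c⟩ := hTa (h₁ a) hc1 b hb
  rw [mem_ptStab] at hh₂
  have htN : h₂ * h₁ ∈ N := N.mul_mem hh₂.1 hh₁
  have hta : (h₂ * h₁) a = b := by rw [Perm.mul_apply, h2c]
  have htb : (h₂ * h₁) b = a := by rw [Perm.mul_apply, h1b, hh₂.2]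
  obtain ⟨t, ht⟩ : ∃ t, t = h₂ * h₁ := ⟨_, rfl⟩
  rw [← ht] at htN hta htb
  -- `t` is an involution
  have htt : ∀ z, t (t z) = z := by
    have : t * t = 1 := by
      apply R _ (N.mul_mem htN htN) a b ha hb'.2 (Ne.symm hb'.1)
      · rw [Perm.mul_apply, hta, htb]
      · rw [Perm.mul_apply, htb, hta]
    intro z
    have := congrArg (fun u : Perm α => u z) this
    simpa using this
  -- `t` commutes with the stabilizer of `a`, `b` in `S`
  have hcomm : ∀ s ∈ ptStab (ptStab S a) b, ∀ z, s (t z) = t (s z) := by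
    intro s hs
    rw [mem_ptStab, mem_ptStab] at hs
    obtain ⟨⟨hsS, hsa⟩, hsb⟩ := hs
    have hy : t⁻¹ * (s * t * s⁻¹) ∈ N := N.mul_mem (N.inv_mem htN) (hn s hsS t htN)
    have hya : (t⁻¹ * (s * t * s⁻¹)) a = a := by
      rw [Perm.mul_apply, Perm.mul_apply, Perm.mul_apply, Perm.inv_eq_iff_eq.mpr hsa.symm, hta,
        hsb, ← hta, perm_inv_apply]
    have hyb : (t⁻¹ * (s * t * s⁻¹)) b = b := by
      rw [Perm.mul_apply, Perm.mul_apply, Perm.mul_apply, Perm.inv_eq_iff_eq.mpr hsb.symm, htb,
        hsa, ← htb, perm_inv_apply]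
    have h1 := R _ hy a b ha hb'.2 (Ne.symm hb'.1) hya hyb
    have h3 : s * t * s⁻¹ = t := by
      have h4 := congrArg (fun u => t * u) h1
      simpa using h4
    have hc : s * t = t * s := by
      calc s * t = s * t * s⁻¹ * s := by group
        _ = t * s := by rw [h3]
    intro z
    have := congrArg (fun u : Perm α => u z) hc
    simpa using this
  -- every point off `F ∪ {a, b}` is fixed by `t`
  have hfix : ∀ c, c ∉ insert b (insert a F) → t c = c := by
    intro c hc
    have hc' := hc
    simp only [Finset.mem_insert, not_or] at hc'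
    obtain ⟨hcb, hca, hcF⟩ := hc'
    have htcF : t c ∉ F := hFN.not_mem htN hcF
    have htca : t c ≠ a := fun h => hcb (t.injective (h.trans htb.symm))
    have htcb : t c ≠ b := fun h => hca (t.injective (h.trans hta.symm))
    have hBF : Disjoint ({c, t c} : Finset α) (insert b (insert a F)) := by
      rw [Finset.disjoint_left]
      intro z hz
      simp only [Finset.mem_insert, Finset.mem_singleton] at hz
      simp only [Finset.mem_insert, not_or]
      rcases hz with rfl | rfl
      · exact ⟨hcb, hca, hcF⟩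
      · exact ⟨htcb, htca, htcF⟩
    have hblock : ∀ s ∈ ptStab (ptStab S a) b,
        ({c, t c} : Finset α).image s = {c, t c} ∨ Disjoint (({c, t c} : Finset α).image s) {c, t c} := by
      intro s hs
      by_cases hd : Disjoint (({c, t c} : Finset α).image s) {c, t c}
      · exact Or.inr hd
      · left
        rw [Finset.not_disjoint_iff] at hd
        obtain ⟨z, hz1, hz2⟩ := hd
        have key : s c = c ∨ s c = t c := by
          simp only [Finset.mem_image, Finset.mem_insert, Finset.mem_singleton] at hz1 hz2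
          obtain ⟨y, hy, rfl⟩ := hz1
          rcases hy with rfl | rfl
          · exact hz2
          · rw [hcomm s hs] at hz2
            rcases hz2 with h | h
            · right
              rw [← htt (s c), h]
            · left
              exact t.injective h
        rw [Finset.image_insert, Finset.image_singleton, hcomm s hs]
        rcases key with h | h
        · rw [h]
        · rw [h, htt, Finset.pair_comm]
    rcases (hP a b ha hb).2 _ hBF hblock with h1 | h1
    · exact (Finset.card_le_one.mp h1 (t c) (by simp) c (by simp))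
    · exfalso
      have hsub : (Finset.univ : Finset α) ⊆ {c, t c} ∪ insert b (insert a F) := by
        intro z _
        by_cases hz : z ∈ insert b (insert a F)
        · exact Finset.mem_union_right _ hz
        · exact Finset.mem_union_left _ (h1 z hz)
      have h2 := Finset.card_le_card hsub
      have h3 := Finset.card_union_le ({c, t c} : Finset α) (insert b (insert a F))
      have h4 := Finset.card_le_two (a := c) (b := t c)
      have h5 := Finset.card_insert_le b (insert a F)
      have h6 := Finset.card_insert_le a F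
      rw [Finset.card_univ] at h2
      omega
  have hcc : (insert b (insert a F)).card < Fintype.card α := by
    have h5 := Finset.card_insert_le b (insert a F)
    have h6 := Finset.card_insert_le a F
    omega
  obtain ⟨c₁, hc₁⟩ := exists_notMem_of_card_lt _ hcc
  have hcc2 : (insert c₁ (insert b (insert a F))).card < Fintype.card α := by
    have h4 := Finset.card_insert_le c₁ (insert b (insert a F))
    have h5 := Finset.card_insert_le b (insert a F)
    have h6 := Finset.card_insert_le a F
    omega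
  obtain ⟨c₂, hc₂⟩ := exists_notMem_of_card_lt _ hcc2
  have hc₂' : c₂ ∉ insert b (insert a F) := fun h => hc₂ (Finset.mem_insert_of_mem h)
  have hne : c₁ ≠ c₂ := fun h => hc₂ (by rw [← h]; exact Finset.mem_insert_self _ _)
  have hc₁F : c₁ ∉ F := fun h => hc₁ (Finset.mem_insert_of_mem (Finset.mem_insert_of_mem h))
  have hc₂F : c₂ ∉ F := fun h => hc₂' (Finset.mem_insert_of_mem (Finset.mem_insert_of_mem h))
  have := R t htN c₁ c₂ hc₁F hc₂F hne (hfix c₁ hc₁) (hfix c₂ hc₂')
  rw [this] at hta
  exact hb'.1 hta.symm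

/-- relative form of the theorem -/
theorem main_rel : ∀ (m : ℕ), 1 ≤ m → ∀ (S N : Subgroup (Perm α)) (F : Finset α),
    FixesOn S F → N ≤ S → NormBy S N → MP m S F → (∃ a, a ∉ F ∧ ptStab N a ≠ ⊥) →
    MT m N F ∨ Full S F := by
  intro m hm
  induction m, hm using Nat.le_induction with
  | base =>
    intro S N F hF hNS hn hS hex
    left
    obtain ⟨a, _, hNa⟩ := hex
    have hN : N ≠ ⊥ := by
      intro h
      apply hNa
      rw [eq_bot_iff, ← h]
      exact ptStab_le N a
    exact MT_one_iff.mpr (tr_of_normal_prim hF hNS hn hN hS)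
  | succ m hm ih =>
    intro S N F hF hNS hn hS hex
    obtain ⟨m', rfl⟩ : ∃ m', m = m' + 1 := ⟨m - 1, by omega⟩
    have hFN : FixesOn N F := hF.mono hNS
    obtain ⟨a, ha, hNa⟩ := hex
    have hN : N ≠ ⊥ := by
      intro h
      apply hNa
      rw [eq_bot_iff, ← h]
      exact ptStab_le N a
    have hSmt : MT (m' + 2) S F := MP.mt _ _ _ hS
    have hTN : TrOff N F :=
      tr_of_normal_prim hF hNS hn hN (prim_of_two hF (MT_le (by omega) hSmt))
    have hSa : MP (m' + 1) (ptStab S a) (insert a F) := hS.2 a ha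
    have hle : ptStab N a ≤ ptStab S a := by
      intro g hg
      rw [mem_ptStab] at hg ⊢
      exact ⟨hNS hg.1, hg.2⟩
    by_cases hex2 : ∃ b, b ∉ insert a F ∧ ptStab (ptStab N a) b ≠ ⊥
    · rcases ih (ptStab S a) (ptStab N a) (insert a F) (hF.ptStab a) hle (hn.ptStab a) hSa hex2
        with h | h
      · left
        exact MT_lift hFN hTN ha h
      · right
        exact full_of_ptStab hF (hSmt.trOff (by omega)) ha h
    · push Not at hex2
      have hsr : ∀ n ∈ ptStab N a, ∀ z, z ∉ insert a F → n z = z → n = 1 := by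
        intro n hnN z hz hnz
        have : n ∈ ptStab (ptStab N a) z := mem_ptStab.mpr ⟨hnN, hnz⟩
        rw [hex2 z hz] at this
        exact Subgroup.mem_bot.mp this
      have hTa : TrOff (ptStab N a) (insert a F) :=
        tr_of_normal_prim (hF.ptStab a) hle (hn.ptStab a) hNa
          (MP.prim _ _ _ (by omega) (hF.ptStab a) hSa)
      rcases Nat.eq_zero_or_pos m' with h0 | h0
      · subst h0
        left
        exact MT_lift hFN hTN ha (MT_one_iff.mpr hTa)
      · right
        obtain ⟨m'', rfl⟩ : ∃ m'', m' = m'' + 1 := ⟨m' - 1, by omega⟩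
        refine full_of_sharp hF hNS hn (MT_le (by omega) hSmt) ?_ ha hTN hTa hsr
        intro a' b' ha' hb'
        have h1 : MP (m'' + 2) (ptStab S a') (insert a' F) := hS.2 a' ha'
        have h2 : MP (m'' + 1) (ptStab (ptStab S a') b') (insert b' (insert a' F)) :=
          h1.2 b' hb'
        exact MP.prim _ _ _ (by omega) ((hF.ptStab a').ptStab b') h2

/-- conversion from Mathlib's multiple primitivity -/
lemma mp_of_isMultiplyPreprimitive (G : Subgroup (Perm α)) (k : ℕ) (hkn : k ≤ Fintype.card α)
    (hG : MulAction.IsMultiplyPreprimitive G α k) :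
    ∀ (m : ℕ), 1 ≤ m → ∀ T : Finset α, T.card + m = k → MP m (fixr G T) T := by
  classical
  have hGt : MT k G ∅ := MT_of_isMultiplyPretransitive (H := G) G
    (fun h => ⟨h.1, h.2, fun a => rfl⟩) k hkn hG.isMultiplyPretransitive
  intro m hm
  induction m, hm using Nat.le_induction with
  | base =>
    intro T hT
    have hprim := MulAction.IsMultiplyPreprimitive.isPreprimitive_ofFixingSubgroup (M := G)
      (n := k) (s := (T : Set α)) (by
        rw [Set.encard_coe_eq_coe_finsetCard]; exact_mod_cast hT)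
    have hmemX : ∀ x : α, x ∉ T → x ∈ SubMulAction.ofFixingSubgroup G (T : Set α) := by
      intro x hx
      rw [SubMulAction.mem_ofFixingSubgroup_iff]
      simpa using hx
    have hfix : ∀ g : fixingSubgroup G (T : Set α), ((g : G) : Perm α) ∈ fixr G T := by
      intro g
      refine mem_fixr.mpr ⟨(g : G).2, fun z hz => ?_⟩
      exact (mem_fixingSubgroup_iff G).mp g.2 z (by simpa using hz)
    refine ⟨?_, ?_⟩
    · intro x hx y hy
      obtain ⟨g, hg⟩ := MulAction.exists_smul_eq (fixingSubgroup G (T : Set α))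
        (⟨x, hmemX x hx⟩ : SubMulAction.ofFixingSubgroup G (T : Set α)) ⟨y, hmemX y hy⟩
      refine ⟨((g : G) : Perm α), hfix g, ?_⟩
      exact congrArg Subtype.val hg
    · intro B hBT hB
      obtain ⟨B', hB'⟩ : ∃ B' : Set (SubMulAction.ofFixingSubgroup G (T : Set α)),
          B' = {x : SubMulAction.ofFixingSubgroup G (T : Set α) | (x : α) ∈ B} := ⟨_, rfl⟩
      have hmem : ∀ (g : fixingSubgroup G (T : Set α))
          (y : SubMulAction.ofFixingSubgroup G (T : Set α)),
          y ∈ g • B' ↔ (y : α) ∈ B.image ((g : G) : Perm α) := by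
        intro g y
        rw [Set.mem_smul_set_iff_inv_smul_mem, hB', Set.mem_ofPred_eq, Finset.mem_image]
        have e : ((g⁻¹ • y : SubMulAction.ofFixingSubgroup G (T : Set α)) : α)
            = (((g : G) : Perm α))⁻¹ (y : α) := rfl
        rw [e]
        constructor
        · intro h
          exact ⟨_, h, perm_apply_inv _ _⟩
        · rintro ⟨b, hb, hby⟩
          rw [← hby, perm_inv_apply]
          exact hb
      have hblock : MulAction.IsBlock (fixingSubgroup G (T : Set α)) B' := by
        rw [MulAction.isBlock_iff_smul_eq_or_disjoint]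
        intro g
        rcases hB _ (hfix g) with h | h
        · left
          ext y
          rw [hmem g y, h, hB', Set.mem_ofPred_eq]
        · right
          rw [Set.disjoint_left]
          intro y hy hy'
          rw [hmem g y] at hy
          rw [hB', Set.mem_ofPred_eq] at hy'
          exact Finset.disjoint_left.mp h hy hy'
      rcases hprim.isTrivialBlock_of_isBlock hblock with h | h
      · left
        rw [Finset.card_le_one]
        intro a ha b hb
        have haT : a ∉ T := fun hh => Finset.disjoint_left.mp hBT ha hh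
        have hbT : b ∉ T := fun hh => Finset.disjoint_left.mp hBT hb hh
        have hxa : (⟨a, hmemX a haT⟩ : SubMulAction.ofFixingSubgroup G (T : Set α)) ∈ B' := by
          rw [hB']; exact ha
        have hxb : (⟨b, hmemX b hbT⟩ : SubMulAction.ofFixingSubgroup G (T : Set α)) ∈ B' := by
          rw [hB']; exact hb
        exact congrArg Subtype.val (h hxa hxb)
      · right
        intro z hz
        have : (⟨z, hmemX z hz⟩ : SubMulAction.ofFixingSubgroup G (T : Set α)) ∈ B' := by
          rw [h]; exact Set.mem_univ _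
        rw [hB'] at this
        exact this
  | succ m hm ih =>
    intro T hT
    obtain ⟨m', rfl⟩ : ∃ m', m = m' + 1 := ⟨m - 1, by omega⟩
    refine ⟨?_, ?_⟩
    · have h1 : MT (T.card + 1) G ∅ := MT_le (by omega) hGt
      have h2 := MT_fixr T 1 G ∅ (Finset.disjoint_empty_right T) h1
      rw [Finset.union_empty] at h2
      exact MT_one_iff.mp h2
    · intro a ha
      rw [ptStab_fixr]
      exact ih (insert a T) (by rw [Finset.card_insert_of_notMem ha]; omega)

/-- In a `k`-primitive permutation group which is not the whole symmetric group, a non-trivial non-regular normal subgroup is `k`-transitive. -/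
theorem result {α : Type*} [Fintype α] [DecidableEq α] (G : Subgroup (Equiv.Perm α)) {k : ℕ} (hk : 1 ≤ k) (hkn : k ≤ Fintype.card α) (hG : MulAction.IsMultiplyPreprimitive G α k) (htop : G ≠ ⊤) (H : Subgroup G) [H.Normal] (hH : H ≠ ⊥) (hnr : ∃ a : α, MulAction.stabilizer H a ≠ ⊥) : MulAction.IsMultiplyPretransitive H α k := by
  classical
  have hMP : MP k G ∅ := by
    have := mp_of_isMultiplyPreprimitive G k hkn hG k hk ∅ (by simp)
    rwa [fixr_empty] at this
  have hNn : NormBy G (H.map G.subtype) := by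
    intro s hs n hnN
    obtain ⟨n₀, hn₀, rfl⟩ := hnN
    refine ⟨⟨s, hs⟩ * n₀ * ⟨s, hs⟩⁻¹, ?_, rfl⟩
    exact ‹H.Normal›.conj_mem n₀ hn₀ ⟨s, hs⟩
  obtain ⟨a, ha⟩ := hnr
  have hex : ∃ a, a ∉ (∅ : Finset α) ∧ ptStab (H.map G.subtype) a ≠ ⊥ := by
    refine ⟨a, by simp, ?_⟩
    intro h
    apply ha
    rw [eq_bot_iff]
    intro x hx
    have h1 : ((x : G) : Perm α) ∈ ptStab (H.map G.subtype) a :=
      mem_ptStab.mpr ⟨⟨x.1, x.2, rfl⟩, MulAction.mem_stabilizer_iff.mp hx⟩
    rw [h, Subgroup.mem_bot] at h1
    rw [Subgroup.mem_bot]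
    apply Subtype.ext
    apply Subtype.ext
    exact h1
  rcases main_rel k hk G (H.map G.subtype) ∅ (fixesOn_empty G) (Subgroup.map_subtype_le H)
    hNn hMP hex with h | h
  · refine isMultiplyPretransitive_of_MT (H := H) (H.map G.subtype) ?_ k h
    rintro g ⟨n₀, hn₀, rfl⟩
    exact ⟨⟨n₀, hn₀⟩, fun a => rfl⟩
  · exfalso
    apply htop
    rw [eq_top_iff]
    intro σ _
    exact h σ (by simp)

end Cfsg.Agent.S0697
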