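import Cfsg.Statements.S0698
import Cfsg.Agent.Lib.Helper6.MTrans

set_option autoImplicit false
open Cfsg

namespace Cfsg.Agent.S0698

open Equiv Cfsg.Agent.Lib.Helper6

variable {α : Type*} [Fintype α] [DecidableEq α]

/-- `N` is normalized by `S` -/
def NormBy (S N : Subgroup (Perm α)) : Prop := ∀ s ∈ S, ∀ n ∈ N, s * n * s⁻¹ ∈ N

omit [Fintype α] in
lemma NormBy.ptStab {S N : Subgroup (Perm α)} (h : NormBy S N) (a : α) :
    NormBy (ptStab S a) (ptStab N a) := by
  intro s hs n hn
  rw [mem_ptStab] at hs hn ⊢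
  refine ⟨h s hs.1 n hn.1, ?_⟩
  rw [Perm.mul_apply, Perm.mul_apply, Perm.inv_eq_iff_eq.mpr hs.2.symm, hn.2, hs.2]

omit [Fintype α] in
lemma exists_moved {n : Perm α} (hn : n ≠ 1) : ∃ a, n a ≠ a := by
  by_contra hc
  push Not at hc
  exact hn (Equiv.ext hc)

omit [Fintype α] in
/-- a nontrivial normal subgroup of a 2-transitive group is transitive -/
lemma tr_of_normal {S N : Subgroup (Perm α)} {F : Finset α} (hF : FixesOn S F) (hNS : N ≤ S)
    (hn : NormBy S N) (hN : N ≠ ⊥) (h2 : MT 2 S F) : TrOff N F := by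
  obtain ⟨n, hnN, hn1⟩ : ∃ n ∈ N, n ≠ 1 := by
    by_contra hc
    push Not at hc
    exact hN ((Subgroup.eq_bot_iff_forall N).mpr hc)
  obtain ⟨a, ha⟩ := exists_moved hn1
  have haF : a ∉ F := fun h => ha (hF n (hNS hnN) a h)
  have hbF : n a ∉ F := hF.not_mem (hNS hnN) haF
  intro x hx y hy
  by_cases hxy : x = y
  · exact ⟨1, N.one_mem, by rw [hxy]; rfl⟩
  · obtain ⟨s, hs, hsa, hsb⟩ := h2.two hF haF hbF hx hy (Ne.symm ha) hxy
    refine ⟨s * n * s⁻¹, hn s hs n hnN, ?_⟩
    rw [Perm.mul_apply, Perm.mul_apply, Perm.inv_eq_iff_eq.mpr hsa.symm, hsb]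

omit [Fintype α] in
lemma comm_of_fix {S N : Subgroup (Perm α)} {F : Finset α} (hn : NormBy S N)
    (hsr : ∀ n ∈ N, ∀ z, z ∉ F → n z = z → n = 1) {x : Perm α} (hx : x ∈ N) {s : Perm α}
    (hs : s ∈ S) {a : α} (ha : a ∉ F) (h1 : s a = a) (h2 : s (x a) = x a) : s * x = x * s := by
  have hy : x⁻¹ * (s * x * s⁻¹) ∈ N := N.mul_mem (N.inv_mem hx) (hn s hs x hx)
  have hya : (x⁻¹ * (s * x * s⁻¹)) a = a := by
    rw [Perm.mul_apply, Perm.mul_apply, Perm.mul_apply, Perm.inv_eq_iff_eq.mpr h1.symm, h2,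
      perm_inv_apply]
  have := hsr _ hy a ha hya
  have h3 : s * x * s⁻¹ = x := by
    have h4 := congrArg (fun t => x * t) this
    simpa using h4
  calc s * x = s * x * s⁻¹ * s := by group
    _ = x * s := by rw [h3]

/-- regular normal subgroup of a 3-transitive group has exponent 2 -/
lemma sq_eq_one_of_regular {S N : Subgroup (Perm α)} {F : Finset α} (hF : FixesOn S F)
    (hNS : N ≤ S) (hn : NormBy S N) (h3 : MT 3 S F)
    (hsr : ∀ n ∈ N, ∀ z, z ∉ F → n z = z → n = 1) (hcard : F.card + 4 ≤ Fintype.card α) :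
    ∀ x ∈ N, x ^ 2 = 1 := by
  intro x hx
  by_contra hx2
  obtain ⟨a, ha⟩ := exists_notMem_of_card_lt F (by omega)
  have hFN : FixesOn N F := hF.mono hNS
  have hxa : x a ∉ F := hFN.not_mem hx ha
  have hxia : x⁻¹ a ∉ F := hFN.not_mem (N.inv_mem hx) ha
  have hx1 : x ≠ 1 := fun h => hx2 (by rw [h]; simp)
  have h1 : x a ≠ a := fun h => hx1 (hsr x hx a ha h)
  have h2 : x⁻¹ a ≠ a := fun h => h1 (by
    have := congrArg x h
    rw [perm_apply_inv] at this
    exact this.symm)
  have h3' : x⁻¹ a ≠ x a := by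
    intro h
    apply hx2
    apply hsr _ (N.pow_mem hx 2) a ha
    rw [pow_two, Perm.mul_apply, ← h, perm_apply_inv]
  have hc : ({a, x a, x⁻¹ a} ∪ F : Finset α).card < Fintype.card α := by
    have := Finset.card_union_le ({a, x a, x⁻¹ a} : Finset α) F
    have := Finset.card_le_three (a := a) (b := x a) (c := x⁻¹ a)
    omega
  obtain ⟨w, hw⟩ := exists_notMem_of_card_lt _ hc
  simp only [Finset.mem_union, Finset.mem_insert, Finset.mem_singleton, not_or] at hw
  obtain ⟨s, hs, hsT, hsw⟩ := h3.exists_fix {a, x a} (by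
      have := Finset.card_le_two (a := a) (b := x a)
      omega) (by
      rw [Finset.disjoint_left]
      intro z hz
      simp only [Finset.mem_insert, Finset.mem_singleton] at hz
      rcases hz with rfl | rfl
      · exact ha
      · exact hxa) (x := x⁻¹ a) (y := w) (by
      simp only [Finset.mem_union, Finset.mem_insert, Finset.mem_singleton, not_or]
      exact ⟨⟨h2, h3'⟩, hxia⟩) (by
      simp only [Finset.mem_union, Finset.mem_insert, Finset.mem_singleton, not_or]
      exact ⟨⟨hw.1.1, hw.1.2.1⟩, hw.2⟩)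
  have hsa : s a = a := hsT a (by simp)
  have hsxa : s (x a) = x a := hsT (x a) (by simp)
  have hcomm := comm_of_fix hn hsr hx hs ha hsa hsxa
  have hcomm' : s * x⁻¹ = x⁻¹ * s := by
    calc s * x⁻¹ = x⁻¹ * (x * s) * x⁻¹ := by group
      _ = x⁻¹ * (s * x) * x⁻¹ := by rw [hcomm]
      _ = x⁻¹ * s := by group
  have : s (x⁻¹ a) = x⁻¹ a := by
    have := congrArg (fun t : Perm α => t a) hcomm'
    simp only [Perm.mul_apply] at this
    rw [this, hsa]
  exact hw.1.2.2 (hsw.symm.trans this)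

/-- a 4-transitive group has no nontrivial semiregular normal subgroup -/
lemma false_of_regular_four {S N : Subgroup (Perm α)} {F : Finset α} (hF : FixesOn S F)
    (hNS : N ≤ S) (hn : NormBy S N) (hN : N ≠ ⊥) (h4 : MT 4 S F)
    (hsr : ∀ n ∈ N, ∀ z, z ∉ F → n z = z → n = 1) (hcard : F.card + 5 ≤ Fintype.card α) :
    False := by
  obtain ⟨x, hx, hx1⟩ : ∃ n ∈ N, n ≠ 1 := by
    by_contra hc
    push Not at hc
    exact hN ((Subgroup.eq_bot_iff_forall N).mpr hc)
  obtain ⟨a, ha⟩ := exists_notMem_of_card_lt F (by omega)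
  have hFN : FixesOn N F := hF.mono hNS
  have hxa : x a ∉ F := hFN.not_mem hx ha
  have hxia : x⁻¹ a ∉ F := hFN.not_mem (N.inv_mem hx) ha
  have h1 : x a ≠ a := fun h => hx1 (hsr x hx a ha h)
  have hc : ({a, x a, x⁻¹ a} ∪ F : Finset α).card < Fintype.card α := by
    have := Finset.card_union_le ({a, x a, x⁻¹ a} : Finset α) F
    have := Finset.card_le_three (a := a) (b := x a) (c := x⁻¹ a)
    omega
  obtain ⟨p, hp⟩ := exists_notMem_of_card_lt _ hc
  simp only [Finset.mem_union, Finset.mem_insert, Finset.mem_singleton, not_or] at hp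
  have hxp : x p ∉ F := hFN.not_mem hx hp.2
  have hq1 : x p ≠ a := fun h => hp.1.2.2 (by rw [← h, perm_inv_apply])
  have hq2 : x p ≠ x a := fun h => hp.1.1 (x.injective h)
  have hq3 : x p ≠ p := fun h => hx1 (hsr x hx p hp.2 h)
  have hc2 : ({a, x a, p, x p} ∪ F : Finset α).card < Fintype.card α := by
    have := Finset.card_union_le ({a, x a, p, x p} : Finset α) F
    have := Finset.card_le_four (a := a) (b := x a) (c := p) (d := x p)
    omega
  obtain ⟨w, hw⟩ := exists_notMem_of_card_lt _ hc2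
  simp only [Finset.mem_union, Finset.mem_insert, Finset.mem_singleton, not_or] at hw
  obtain ⟨s, hs, hsT, hsw⟩ := h4.exists_fix {a, x a, p} (by
      have := Finset.card_le_three (a := a) (b := x a) (c := p)
      omega) (by
      rw [Finset.disjoint_left]
      intro z hz
      simp only [Finset.mem_insert, Finset.mem_singleton] at hz
      rcases hz with rfl | rfl | rfl
      · exact ha
      · exact hxa
      · exact hp.2) (x := x p) (y := w) (by
      simp only [Finset.mem_union, Finset.mem_insert, Finset.mem_singleton, not_or]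
      exact ⟨⟨hq1, hq2, hq3⟩, hxp⟩) (by
      simp only [Finset.mem_union, Finset.mem_insert, Finset.mem_singleton, not_or]
      exact ⟨⟨hw.1.1, hw.1.2.1, hw.1.2.2.1⟩, hw.2⟩)
  have hsa : s a = a := hsT a (by simp)
  have hsxa : s (x a) = x a := hsT (x a) (by simp)
  have hsp : s p = p := hsT p (by simp)
  have hcomm := comm_of_fix hn hsr hx hs ha hsa hsxa
  have : s (x p) = x p := by
    have := congrArg (fun t : Perm α => t p) hcomm
    simp only [Perm.mul_apply] at this
    rw [this, hsp]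
  exact hw.1.2.2.2 (hsw.symm.trans this)

/-- a 4-transitive group of degree at least 5 has no normal subgroup which is
sharply 2-transitive -/
lemma false_of_sharp {S N : Subgroup (Perm α)} {F : Finset α} (hF : FixesOn S F)
    (hNS : N ≤ S) (hn : NormBy S N) (h4 : MT 4 S F) (hcard : F.card + 5 ≤ Fintype.card α)
    {a : α} (ha : a ∉ F) (hT : TrOff N F) (hTa : TrOff (ptStab N a) (insert a F))
    (hsr : ∀ n ∈ ptStab N a, ∀ z, z ∉ insert a F → n z = z → n = 1) : False := by
  have hFN : FixesOn N F := hF.mono hNS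
  -- elements of `N` fixing two points are trivial
  have R : ∀ n ∈ N, ∀ a' b', a' ∉ F → b' ∉ F → a' ≠ b' → n a' = a' → n b' = b' → n = 1 := by
    intro n hnN a' b' ha' hb' hab h1 h2
    obtain ⟨h, hh, hha⟩ := hT a ha a' ha'
    have hm : h⁻¹ * n * h ∈ ptStab N a := by
      rw [mem_ptStab]
      refine ⟨N.mul_mem (N.mul_mem (N.inv_mem hh) hnN) hh, ?_⟩
      rw [Perm.mul_apply, Perm.mul_apply, hha, h1, ← hha, perm_inv_apply]
    have hz : h⁻¹ b' ∉ insert a F := by
      rw [Finset.mem_insert, not_or]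
      refine ⟨?_, hFN.not_mem (N.inv_mem hh) hb'⟩
      intro hc
      rw [Perm.inv_eq_iff_eq, hha] at hc
      exact hab hc.symm
    have h3 := hsr _ hm (h⁻¹ b') hz (by
      rw [Perm.mul_apply, Perm.mul_apply, perm_apply_inv, h2])
    have h4 := congrArg (fun t => h * t * h⁻¹) h3
    simpa [mul_assoc] using h4
  obtain ⟨b, hb⟩ := exists_notMem_of_card_lt (insert a F) (by
    rw [Finset.card_insert_of_notMem ha]; omega)
  have hb' := hb
  rw [Finset.mem_insert, not_or] at hb'
  -- an element of `N` swapping `a` and `b`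
  obtain ⟨h₁, hh₁, h1b⟩ := hT b hb'.2 a ha
  have hc1 : h₁ a ∉ insert a F := by
    rw [Finset.mem_insert, not_or]
    refine ⟨?_, hFN.not_mem hh₁ ha⟩
    intro hc
    exact hb'.1 (h₁.injective (h1b.trans hc.symm))
  obtain ⟨h₂, hh₂, h2c⟩ := hTa (h₁ a) hc1 b hb
  rw [mem_ptStab] at hh₂
  have htN : h₂ * h₁ ∈ N := N.mul_mem hh₂.1 hh₁
  have hta : (h₂ * h₁) a = b := by rw [Perm.mul_apply, h2c]
  have htb : (h₂ * h₁) b = a := by rw [Perm.mul_apply, h1b, hh₂.2]
  obtain ⟨t, ht⟩ : ∃ t, t = h₂ * h₁ := ⟨_, rfl⟩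
  rw [← ht] at htN hta htb
  have hcc : ({a, b} ∪ F : Finset α).card < Fintype.card α := by
    have := Finset.card_union_le ({a, b} : Finset α) F
    have := Finset.card_le_two (a := a) (b := b)
    omega
  obtain ⟨c₁, hc₁⟩ := exists_notMem_of_card_lt _ hcc
  have hcc2 : ({a, b, c₁} ∪ F : Finset α).card < Fintype.card α := by
    have := Finset.card_union_le ({a, b, c₁} : Finset α) F
    have := Finset.card_le_three (a := a) (b := b) (c := c₁)
    omega
  obtain ⟨c₂, hc₂⟩ := exists_notMem_of_card_lt _ hcc2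
  simp only [Finset.mem_union, Finset.mem_insert, Finset.mem_singleton, not_or] at hc₁ hc₂
  obtain ⟨c, hca, hcb, hcF, htc⟩ : ∃ c, c ≠ a ∧ c ≠ b ∧ c ∉ F ∧ t c ≠ c := by
    by_cases h1 : t c₁ = c₁
    · refine ⟨c₂, hc₂.1.1, hc₂.1.2.1, hc₂.2, ?_⟩
      intro h2
      have := R t htN c₁ c₂ hc₁.2 hc₂.2 (Ne.symm hc₂.1.2.2) h1 h2
      rw [this] at hta
      exact hb'.1 hta.symm
    · exact ⟨c₁, hc₁.1.1, hc₁.1.2, hc₁.2, h1⟩
  have hdF : t c ∉ F := hFN.not_mem htN hcF
  have hda : t c ≠ a := fun h => hcb (t.injective (h.trans htb.symm))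
  have hdb : t c ≠ b := fun h => hca (t.injective (h.trans hta.symm))
  have hcc3 : ({a, b, c, t c} ∪ F : Finset α).card < Fintype.card α := by
    have := Finset.card_union_le ({a, b, c, t c} : Finset α) F
    have := Finset.card_le_four (a := a) (b := b) (c := c) (d := t c)
    omega
  obtain ⟨e, he⟩ := exists_notMem_of_card_lt _ hcc3
  simp only [Finset.mem_union, Finset.mem_insert, Finset.mem_singleton, not_or] at he
  obtain ⟨s, hs, hsT, hse⟩ := h4.exists_fix {a, b, c} (by
      have := Finset.card_le_three (a := a) (b := b) (c := c)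
      omega) (by
      rw [Finset.disjoint_left]
      intro z hz
      simp only [Finset.mem_insert, Finset.mem_singleton] at hz
      rcases hz with rfl | rfl | rfl
      · exact ha
      · exact hb'.2
      · exact hcF) (x := t c) (y := e) (by
      simp only [Finset.mem_union, Finset.mem_insert, Finset.mem_singleton, not_or]
      exact ⟨⟨hda, hdb, htc⟩, hdF⟩) (by
      simp only [Finset.mem_union, Finset.mem_insert, Finset.mem_singleton, not_or]
      exact ⟨⟨he.1.1, he.1.2.1, he.1.2.2.1⟩, he.2⟩)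
  have hsa : s a = a := hsT a (by simp)
  have hsb : s b = b := hsT b (by simp)
  have hsc : s c = c := hsT c (by simp)
  have hy : t⁻¹ * (s * t * s⁻¹) ∈ N := N.mul_mem (N.inv_mem htN) (hn s hs t htN)
  have hya : (t⁻¹ * (s * t * s⁻¹)) a = a := by
    rw [Perm.mul_apply, Perm.mul_apply, Perm.mul_apply, Perm.inv_eq_iff_eq.mpr hsa.symm, hta,
      hsb, ← hta, perm_inv_apply]
  have hyb : (t⁻¹ * (s * t * s⁻¹)) b = b := by
    rw [Perm.mul_apply, Perm.mul_apply, Perm.mul_apply, Perm.inv_eq_iff_eq.mpr hsb.symm, htb,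
      hsa, ← htb, perm_inv_apply]
  have h1 := R _ hy a b ha hb'.2 (Ne.symm hb'.1) hya hyb
  have h3 : s * t * s⁻¹ = t := by
    have h4 := congrArg (fun u => t * u) h1
    simpa using h4
  have hcomm : s * t = t * s := by
    calc s * t = s * t * s⁻¹ * s := by group
      _ = t * s := by rw [h3]
  have : s (t c) = t c := by
    have := congrArg (fun u : Perm α => u c) hcomm
    simp only [Perm.mul_apply] at this
    rw [this, hsc]
  exact he.1.2.2.2 (hse.symm.trans this)

/-- Jordan's theorem, relative form -/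
theorem jordan_rel : ∀ (m : ℕ), 2 ≤ m → ∀ (S N : Subgroup (Perm α)) (F : Finset α),
    FixesOn S F → N ≤ S → NormBy S N → N ≠ ⊥ → MT m S F → F.card + m < Fintype.card α →
    MT (m - 1) N F ∨ (m = 3 ∧ (∀ n ∈ N, n ^ 2 = 1) ∧
      (∀ n ∈ N, ∀ z, z ∉ F → n z = z → n = 1)) := by
  intro m hm
  induction m, hm using Nat.le_induction with
  | base =>
    intro S N F hF hNS hn hN h2 _
    left
    exact MT_one_iff.mpr (tr_of_normal hF hNS hn hN h2)
  | succ m hm ih =>
    intro S N F hF hNS hn hN hS hcard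
    have hFN : FixesOn N F := hF.mono hNS
    have hTN : TrOff N F := tr_of_normal hF hNS hn hN (MT_le (by omega) hS)
    by_cases hex : ∃ a, a ∉ F ∧ ptStab N a ≠ ⊥
    · obtain ⟨a, ha, hNa⟩ := hex
      have hSa : MT m (ptStab S a) (insert a F) := hS.2 a ha
      have hle : ptStab N a ≤ ptStab S a := by
        intro g hg
        rw [mem_ptStab] at hg ⊢
        exact ⟨hNS hg.1, hg.2⟩
      rcases ih (ptStab S a) (ptStab N a) (insert a F) (hF.ptStab a) hle (hn.ptStab a) hNa hSa
        (by rw [Finset.card_insert_of_notMem ha]; omega) with h | ⟨h3, _, hsr⟩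
      · left
        have := MT_lift hFN hTN ha h
        have e : m - 1 + 1 = m + 1 - 1 := by omega
        rw [e] at this
        exact this
      · exfalso
        subst h3
        have hTa : TrOff (ptStab N a) (insert a F) :=
          tr_of_normal (hF.ptStab a) hle (hn.ptStab a) hNa (MT_le (by omega) hSa)
        exact false_of_sharp hF hNS hn hS (by omega) ha hTN hTa hsr
    · push Not at hex
      have hsr : ∀ n ∈ N, ∀ z, z ∉ F → n z = z → n = 1 := by
        intro n hnN z hz hnz
        have : n ∈ ptStab N z := mem_ptStab.mpr ⟨hnN, hnz⟩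
        rw [hex z hz] at this
        exact Subgroup.mem_bot.mp this
      rcases Nat.eq_or_lt_of_le hm with h2 | h2
      · subst h2
        right
        exact ⟨rfl, sq_eq_one_of_regular hF hNS hn hS hsr (by omega), hsr⟩
      · exfalso
        exact false_of_regular_four hF hNS hn hN (MT_le (by omega) hS) hsr (by omega)

/-- Jordan's Theorem on normal subgroups of multiply transitive groups: if `G` is `k`-transitive (`k > 1`) of degree greater than `k`, a non-trivial normal subgroup is `(k-1)`-transitive, except possibly for `k = 3` when it may be an elementary abelian 2-group. -/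
theorem result {α : Type*} [Fintype α] [DecidableEq α] (G : Subgroup (Equiv.Perm α)) {k : ℕ} (hk : 1 < k) (hdeg : k < Fintype.card α) (hG : MulAction.IsMultiplyPretransitive G α k) (N : Subgroup G) [N.Normal] (hN : N ≠ ⊥) : MulAction.IsMultiplyPretransitive N α (k - 1) ∨ (k = 3 ∧ IsMulCommutative N ∧ ∀ n ∈ N, n ^ 2 = 1) := by
  classical
  have hGt : MT k G ∅ := MT_of_isMultiplyPretransitive (H := G) G
    (fun h => ⟨h.1, h.2, fun a => rfl⟩) k (by omega) hG
  have hNn : NormBy G (N.map G.subtype) := by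
    intro s hs n hnN
    obtain ⟨n₀, hn₀, rfl⟩ := hnN
    refine ⟨⟨s, hs⟩ * n₀ * ⟨s, hs⟩⁻¹, ?_, rfl⟩
    exact ‹N.Normal›.conj_mem n₀ hn₀ ⟨s, hs⟩
  have hN' : N.map G.subtype ≠ ⊥ := by
    intro h
    rw [Subgroup.map_eq_bot_iff_of_injective _ (Subgroup.subtype_injective G)] at h
    exact hN h
  rcases jordan_rel k hk G (N.map G.subtype) ∅ (fixesOn_empty G) (Subgroup.map_subtype_le N)
    hNn hN' hGt (by simpa using hdeg) with h | ⟨h3, hexp, _⟩
  · left
    refine isMultiplyPretransitive_of_MT (H := N) (N.map G.subtype) ?_ (k - 1) h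
    rintro g ⟨n₀, hn₀, rfl⟩
    exact ⟨⟨n₀, hn₀⟩, fun a => rfl⟩
  · right
    have hexp' : ∀ n ∈ N, n ^ 2 = 1 := by
      intro n hnN
      have := hexp (G.subtype n) ⟨n, hnN, rfl⟩
      apply Subtype.ext
      simpa using this
    refine ⟨h3, ⟨⟨fun x y => ?_⟩⟩, hexp'⟩
    have hx := hexp' x.1 x.2
    have hy := hexp' y.1 y.2
    have hxy := hexp' (x.1 * y.1) (N.mul_mem x.2 y.2)
    apply Subtype.ext
    show x.1 * y.1 = y.1 * x.1
    have e1 : x.1⁻¹ = x.1 := by
      rw [inv_eq_iff_mul_eq_one, ← pow_two]; exact hx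
    have e2 : y.1⁻¹ = y.1 := by
      rw [inv_eq_iff_mul_eq_one, ← pow_two]; exact hy
    have e3 : (x.1 * y.1)⁻¹ = x.1 * y.1 := by
      rw [inv_eq_iff_mul_eq_one, ← pow_two]; exact hxy
    rw [← e3, mul_inv_rev, e1, e2]

end Cfsg.Agent.S0698
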