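import Cfsg.Statements.S0699
import Cfsg.Agent.S0698
import Cfsg.Agent.Lib.Helper18.SylowRel

set_option autoImplicit false
open Cfsg

namespace Cfsg.Agent.S0699

open Equiv Cfsg.Agent.Lib.Helper6 Cfsg.Agent.Lib.Helper18
open Cfsg.Agent.S0698 (NormBy jordan_rel tr_of_normal exists_moved)

variable {α : Type*} [Fintype α] [DecidableEq α]

/-- a `p`-group of permutations preserving a finset of size prime to `p` fixes a point of it -/
lemma exists_fixed_of_isPGroup (p : ℕ) [Fact p.Prime] (R : Subgroup (Perm α))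
    (hR : IsPGroup p R) (X : Finset α) (hX : ∀ r ∈ R, ∀ x ∈ X, r x ∈ X)
    (hcard : ¬ p ∣ X.card) : ∃ x ∈ X, ∀ r ∈ R, r x = x := by
  let S : SubMulAction R α :=
    { carrier := (X : Set α)
      smul_mem' := fun r x hx => hX r.1 r.2 x hx }
  have hc : ¬ p ∣ Nat.card S := by
    have e : Nat.card S = X.card := by
      have h1 : Nat.card S = Nat.card (X : Set α) := rfl
      rw [h1, Nat.card_coe_set_eq, Set.ncard_coe_finset]
    rwa [e]
  obtain ⟨⟨x, hx⟩, hfix⟩ := hR.nonempty_fixed_point_of_prime_not_dvd_card S hc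
  refine ⟨x, hx, fun r hr => ?_⟩
  have := hfix ⟨r, hr⟩
  exact congrArg Subtype.val this

omit [Fintype α] [DecidableEq α] in
lemma pow_swap {u : Perm α} {a b : α} (h1 : u a = b) (h2 : u b = a) :
    ∀ i : ℕ, (u ^ (2 * i + 1)) a = b ∧ (u ^ (2 * i + 1)) b = a := by
  intro i
  induction i with
  | zero => simpa using ⟨h1, h2⟩
  | succ i ih =>
    have e : u ^ (2 * (i + 1) + 1) = u ^ (2 * i + 1) * u * u := by
      rw [show 2 * (i + 1) + 1 = (2 * i + 1) + 1 + 1 by ring, pow_succ, pow_succ]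
    rw [e]
    simp only [Perm.mul_apply, h1, h2]
    exact ih

omit [Fintype α] in
lemma three_pt {G : Subgroup (Perm α)} (h3 : MT 3 G ∅) {x y z a b c : α} (hxy : x ≠ y)
    (hxz : x ≠ z) (hyz : y ≠ z) (hab : a ≠ b) (hac : a ≠ c) (hbc : b ≠ c) :
    ∃ g ∈ G, g x = a ∧ g y = b ∧ g z = c := by
  obtain ⟨g₁, hg₁, h1, h2⟩ := (MT_le (by norm_num) h3 : MT 2 G ∅).two (fixesOn_empty G)
    (Finset.notMem_empty x) (Finset.notMem_empty y) (Finset.notMem_empty a)
    (Finset.notMem_empty b) hxy hab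
  obtain ⟨g₂, hg₂, hT, h3'⟩ := h3.exists_fix {a, b} (by
      have := Finset.card_le_two (a := a) (b := b)
      omega) (Finset.disjoint_empty_right _) (x := g₁ z) (y := c) (by
      simp only [Finset.union_empty, Finset.mem_insert, Finset.mem_singleton, not_or]
      exact ⟨fun h => hxz (g₁.injective (h1.trans h.symm)),
        fun h => hyz (g₁.injective (h2.trans h.symm))⟩) (by
      simp only [Finset.union_empty, Finset.mem_insert, Finset.mem_singleton, not_or]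
      exact ⟨fun h => hac h.symm, fun h => hbc h.symm⟩)
  refine ⟨g₂ * g₁, G.mul_mem hg₂ hg₁, ?_, ?_, ?_⟩
  · rw [Perm.mul_apply, h1]; exact hT a (by simp)
  · rw [Perm.mul_apply, h2]; exact hT b (by simp)
  · rw [Perm.mul_apply, h3']

/-- Wagner's theorem, for subgroups of `Perm α` -/
theorem wagner_rel (G N : Subgroup (Perm α)) (hodd : Odd (Fintype.card α))
    (h5 : 5 ≤ Fintype.card α) (h3 : MT 3 G ∅) (hNG : N ≤ G) (hn : NormBy G N) (hN : N ≠ ⊥) :
    MT 3 N ∅ := by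
  classical
  have hF := fixesOn_empty G
  have hFN := fixesOn_empty N
  have : Fact (Nat.Prime 2) := ⟨Nat.prime_two⟩
  have h2dvd : ¬ 2 ∣ Fintype.card α := by
    rcases hodd with ⟨i, hi⟩; omega
  -- Step 1: `N` is 2-transitive
  have hN2 : MT 2 N ∅ := by
    rcases jordan_rel 3 (by norm_num) G N ∅ hF hNG hn hN h3 (by simp; omega)
      with h | ⟨_, hexp, hsr⟩
    · exact h
    · exfalso
      obtain ⟨x, hx, hx1⟩ : ∃ n ∈ N, n ≠ 1 := by
        by_contra hc
        push Not at hc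
        exact hN ((Subgroup.eq_bot_iff_forall N).mpr hc)
      obtain ⟨a, ha⟩ := Equiv.Perm.exists_fixed_point_of_prime (p := 2) (n := 1) h2dvd
        (σ := x) (by simpa using hexp x hx)
      exact hx1 (hsr x hx a (Finset.notMem_empty a) ha)
  obtain ⟨a, -⟩ := exists_notMem_of_card_lt (∅ : Finset α) (by simp; omega)
  obtain ⟨b, hb⟩ := exists_notMem_of_card_lt ({a} : Finset α) (by simp; omega)
  rw [Finset.mem_singleton] at hb
  have hab : a ≠ b := fun h => hb h.symm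
  obtain ⟨K, hKdef⟩ : ∃ K, K = ptStab (ptStab N a) b := ⟨_, rfl⟩
  have hK : ∀ k, k ∈ K ↔ k ∈ N ∧ k a = a ∧ k b = b := by
    intro k; rw [hKdef, mem_ptStab, mem_ptStab, and_assoc]
  suffices hTr : TrOff K (insert b (insert a ∅)) by
    have h1 : MT 2 (ptStab N a) (insert a ∅) :=
      MT_lift (hFN.ptStab a) (hN2.2 a (Finset.notMem_empty a)).1 (a := b)
        (by simp [hb]) (by rw [← hKdef]; exact MT_one_iff.mpr hTr)
    exact MT_lift hFN hN2.1 (a := a) (Finset.notMem_empty a) h1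
  -- involutions swapping `a`, `b` and fixing a given point
  have F1 : ∀ c, c ≠ a → c ≠ b → ∃ t ∈ N, t a = b ∧ t b = a ∧ t c = c := by
    obtain ⟨u, hu, hua, hub⟩ := hN2.two hFN (Finset.notMem_empty a) (Finset.notMem_empty b)
      (Finset.notMem_empty b) (Finset.notMem_empty a) hab hb
    have heven : 2 ∣ orderOf u := by
      by_contra hc
      obtain ⟨i, hi⟩ : ∃ i, orderOf u = 2 * i + 1 := ⟨orderOf u / 2, by omega⟩
      have := (pow_swap hua hub i).1
      rw [← hi, pow_orderOf_eq_one] at this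
      exact hab this
    have hupos : 0 < orderOf u := orderOf_pos u
    obtain ⟨t₀, ht₀def⟩ : ∃ t₀, t₀ = u ^ (orderOf u / 2) := ⟨_, rfl⟩
    have ht₀N : t₀ ∈ N := ht₀def ▸ N.pow_mem hu _
    have ht₀2 : t₀ ^ 2 = 1 := by
      rw [ht₀def, ← pow_mul, Nat.div_mul_cancel heven, pow_orderOf_eq_one]
    have ht₀1 : t₀ ≠ 1 := by
      rw [ht₀def]
      have h2le : 2 ≤ orderOf u := Nat.le_of_dvd hupos heven
      exact pow_ne_one_of_lt_orderOf (by omega) (by omega)
    obtain ⟨x, hx⟩ := exists_moved ht₀1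
    have htt : ∀ w, t₀ (t₀ w) = w := fun w => by
      have := congrArg (fun s : Perm α => s w) ht₀2
      simpa [pow_two] using this
    obtain ⟨z, hz⟩ := Equiv.Perm.exists_fixed_point_of_prime (p := 2) (n := 1) h2dvd
      (σ := t₀) (by simpa using ht₀2)
    have hzx : z ≠ x := fun h => hx (h ▸ hz)
    have hzy : z ≠ t₀ x := by
      intro h
      have h1 : t₀ z = x := by rw [h, htt]
      rw [hz] at h1
      exact hzx h1
    intro c hca hcb
    obtain ⟨g, hg, hgx, hgy, hgz⟩ := three_pt h3 (x := x) (y := t₀ x) (z := z) (a := a)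
      (b := b) (c := c) (Ne.symm hx) (Ne.symm hzx) (Ne.symm hzy) hab (Ne.symm hca) (Ne.symm hcb)
    refine ⟨g * t₀ * g⁻¹, hn g hg t₀ ht₀N, ?_, ?_, ?_⟩
    · rw [Perm.mul_apply, Perm.mul_apply, Perm.inv_eq_iff_eq.mpr hgx.symm, hgy]
    · rw [Perm.mul_apply, Perm.mul_apply, Perm.inv_eq_iff_eq.mpr hgy.symm, htt, hgx]
    · rw [Perm.mul_apply, Perm.mul_apply, Perm.inv_eq_iff_eq.mpr hgz.symm, hz, hgz]
  -- elements of `N` swapping `a`, `b` preserve the `K`-orbits
  have F2 : ∀ u ∈ N, u a = b → u b = a → ∀ c, c ≠ a → c ≠ b → ∃ k ∈ K, k c = u c := by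
    intro u hu hua hub c hca hcb
    obtain ⟨t, ht, hta, htb, htc⟩ := F1 c hca hcb
    refine ⟨u * t, (hK _).mpr ⟨N.mul_mem hu ht, ?_, ?_⟩, ?_⟩
    · rw [Perm.mul_apply, hta, hub]
    · rw [Perm.mul_apply, htb, hua]
    · rw [Perm.mul_apply, htc]
  -- conjugation by elements of `G` preserving `{a, b}` preserves `K`
  have hKc : ∀ g ∈ G, ((g a = a ∧ g b = b) ∨ (g a = b ∧ g b = a)) → ∀ x ∈ K,
      g * x * g⁻¹ ∈ K := by
    intro g hg hgab x hx
    rw [hK] at hx ⊢
    refine ⟨hn g hg x hx.1, ?_, ?_⟩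
    · rcases hgab with ⟨h1, h2⟩ | ⟨h1, h2⟩
      · rw [Perm.mul_apply, Perm.mul_apply, Perm.inv_eq_iff_eq.mpr h1.symm, hx.2.1, h1]
      · rw [Perm.mul_apply, Perm.mul_apply, Perm.inv_eq_iff_eq.mpr h2.symm, hx.2.2, h2]
    · rcases hgab with ⟨h1, h2⟩ | ⟨h1, h2⟩
      · rw [Perm.mul_apply, Perm.mul_apply, Perm.inv_eq_iff_eq.mpr h2.symm, hx.2.2, h2]
      · rw [Perm.mul_apply, Perm.mul_apply, Perm.inv_eq_iff_eq.mpr h1.symm, hx.2.1, h1]
  have hKmap : ∀ g ∈ G, ((g a = a ∧ g b = b) ∨ (g a = b ∧ g b = a)) →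
      K.map (MulAut.conj g).toMonoidHom = K := by
    intro g hg hgab
    have hgab' : (g⁻¹ a = a ∧ g⁻¹ b = b) ∨ (g⁻¹ a = b ∧ g⁻¹ b = a) := by
      rcases hgab with ⟨h1, h2⟩ | ⟨h1, h2⟩
      · exact Or.inl ⟨Perm.inv_eq_iff_eq.mpr h1.symm, Perm.inv_eq_iff_eq.mpr h2.symm⟩
      · exact Or.inr ⟨Perm.inv_eq_iff_eq.mpr h2.symm, Perm.inv_eq_iff_eq.mpr h1.symm⟩
    ext x
    rw [mem_map_conj_iff]
    constructor
    · intro hx
      have := hKc g hg hgab _ hx
      simpa [mul_assoc] using this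
    · intro hx
      have := hKc g⁻¹ (G.inv_mem hg) hgab' x hx
      simpa using this
  -- a Sylow 2-subgroup of `K`
  obtain ⟨Q, hQ, -⟩ := exists_isSylowIn_ge (p := 2) (R₀ := ⊥) (K := K) IsPGroup.of_bot bot_le
  have hQK : Q ≤ K := hQ.1
  have hQp : IsPGroup 2 Q := hQ.2.1
  -- an element of `N` normalizing `Q` and swapping `a`, `b`
  obtain ⟨u₀, hu₀, hu₀a, hu₀b⟩ := hN2.two hFN (Finset.notMem_empty a) (Finset.notMem_empty b)
    (Finset.notMem_empty b) (Finset.notMem_empty a) hab hb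
  have hQ₀ : IsSylowIn 2 (Q.map (MulAut.conj u₀).toMonoidHom) K := by
    have := hQ.map_conj u₀
    rwa [hKmap u₀ (hNG hu₀) (Or.inr ⟨hu₀a, hu₀b⟩)] at this
  obtain ⟨c, hcK, hceq⟩ := hQ.exists_conj_eq hQ₀
  obtain ⟨u, hudef⟩ : ∃ u, u = c⁻¹ * u₀ := ⟨_, rfl⟩
  have hcK' := (hK c).mp hcK
  have huN : u ∈ N := hudef ▸ N.mul_mem (N.inv_mem hcK'.1) hu₀
  have hua : u a = b := by
    rw [hudef, Perm.mul_apply, hu₀a, Perm.inv_eq_iff_eq, hcK'.2.2]
  have hub : u b = a := by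
    rw [hudef, Perm.mul_apply, hu₀b, Perm.inv_eq_iff_eq, hcK'.2.1]
  have hun : u ∈ Subgroup.normalizer (Q : Set (Perm α)) := by
    apply mem_normalizer_of_map_conj_eq
    rw [hudef, map_conj_mul, hceq, ← map_conj_mul, inv_mul_cancel, map_conj_one]
  -- its 2-part
  obtain ⟨j, m, hm, hjm⟩ := Nat.exists_eq_two_pow_mul_odd (orderOf_pos u).ne'
  obtain ⟨i, hi⟩ := hm
  obtain ⟨τ, hτdef⟩ : ∃ τ, τ = u ^ m := ⟨_, rfl⟩
  have hτ2 : τ ^ 2 ^ j = 1 := by
    rw [hτdef, ← pow_mul, mul_comm, ← hjm, pow_orderOf_eq_one]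
  have hτa : τ a = b := by rw [hτdef, hi]; exact (pow_swap hua hub i).1
  have hτb : τ b = a := by rw [hτdef, hi]; exact (pow_swap hua hub i).2
  have hτN : τ ∈ N := hτdef ▸ N.pow_mem huN m
  have hτn : τ ∈ Subgroup.normalizer (Q : Set (Perm α)) := hτdef ▸ Subgroup.pow_mem _ hun m
  have hτi : τ⁻¹ a = b ∧ τ⁻¹ b = a :=
    ⟨Perm.inv_eq_iff_eq.mpr hτb.symm, Perm.inv_eq_iff_eq.mpr hτa.symm⟩
  have hZp : IsPGroup 2 (Subgroup.zpowers τ) := by
    obtain ⟨j', -, hj'⟩ := (Nat.dvd_prime_pow Nat.prime_two).mp (orderOf_dvd_of_pow_eq_one hτ2)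
    exact IsPGroup.of_card (n := j') (by rw [Nat.card_zpowers, hj'])
  have hQhat : IsPGroup 2 (Q ⊔ Subgroup.zpowers τ : Subgroup (Perm α)) := by
    rw [sup_comm]
    exact IsPGroup.to_sup_of_normal_right' hZp hQp (by rw [Subgroup.zpowers_le]; exact hτn)
  -- a fixed point of `Q` off `{a, b}`
  obtain ⟨c₀, hc₀X, hc₀fix⟩ := exists_fixed_of_isPGroup 2 Q hQp
    ((Finset.univ.erase a).erase b) (by
      intro q hq x hx
      have hqK := (hK q).mp (hQK hq)
      simp only [Finset.mem_erase, Finset.mem_univ, and_true] at hx ⊢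
      refine ⟨fun h => hx.1 (q.injective (h.trans hqK.2.2.symm)),
        fun h => hx.2 (q.injective (h.trans hqK.2.1.symm))⟩) (by
      rw [Finset.card_erase_of_mem (by simp [hb]), Finset.card_erase_of_mem (Finset.mem_univ a),
        Finset.card_univ]
      rcases hodd with ⟨i, hi⟩
      omega)
  simp only [Finset.mem_erase, Finset.mem_univ, and_true] at hc₀X
  -- each `K`-orbit contains a common fixed point of `Q` and `τ`
  have key : ∀ c, c ≠ a → c ≠ b →
      ∃ x, (∃ k ∈ K, k c = x) ∧ τ x = x ∧ ∀ q ∈ Q, q x = x := by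
    intro c hca hcb
    obtain ⟨g, hg, hgT, hgc⟩ := h3.exists_fix {a, b} (by
        have := Finset.card_le_two (a := a) (b := b)
        omega) (Finset.disjoint_empty_right _) (x := c₀) (y := c) (by
        simp only [Finset.union_empty, Finset.mem_insert, Finset.mem_singleton, not_or]
        exact ⟨hc₀X.2, hc₀X.1⟩) (by
        simp only [Finset.union_empty, Finset.mem_insert, Finset.mem_singleton, not_or]
        exact ⟨hca, hcb⟩)
    have hga : g a = a := hgT a (by simp)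
    have hgb : g b = b := hgT b (by simp)
    have hQ' : IsSylowIn 2 (Q.map (MulAut.conj g).toMonoidHom) K := by
      have := hQ.map_conj g
      rwa [hKmap g hg (Or.inl ⟨hga, hgb⟩)] at this
    have hQ'c : ∀ q ∈ Q.map (MulAut.conj g).toMonoidHom, q c = c := by
      intro q hq
      rw [mem_map_conj_iff] at hq
      have := hc₀fix _ hq
      rw [Perm.mul_apply, Perm.mul_apply, hgc, Perm.inv_eq_iff_eq, hgc] at this
      exact this
    obtain ⟨Δ, hΔ⟩ : ∃ Δ : Finset α, ∀ z, z ∈ Δ ↔ ∃ k ∈ K, k c = z :=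
      ⟨Finset.univ.filter (fun z => ∃ k ∈ K, k c = z), fun z => by simp⟩
    have hΔab : ∀ z ∈ Δ, z ≠ a ∧ z ≠ b := by
      intro z hz
      obtain ⟨k, hk, rfl⟩ := (hΔ z).mp hz
      have hk' := (hK k).mp hk
      exact ⟨fun h => hca (k.injective (h.trans hk'.2.1.symm)),
        fun h => hcb (k.injective (h.trans hk'.2.2.symm))⟩
    have hΔodd : ¬ 2 ∣ Δ.card := by
      obtain ⟨S, hS⟩ := hQ'.exists_sylow
      have h1 : (S : Subgroup K) ≤ MulAction.stabilizer K c := by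
        intro s hs
        rw [MulAction.mem_stabilizer_iff]
        exact hQ'c (s : Perm α) (hS ▸ ⟨s, hs, rfl⟩)
      have h2 : (MulAction.stabilizer K c).index ∣ (S : Subgroup K).index :=
        Subgroup.index_dvd_of_le h1
      have h3 : ¬ 2 ∣ (S : Subgroup K).index := S.not_dvd_index
      have h4 : (MulAction.stabilizer K c).index = Δ.card := by
        rw [MulAction.index_stabilizer, ← Set.ncard_coe_finset]
        congr 1
        ext z
        rw [MulAction.mem_orbit_iff, Finset.mem_coe, hΔ]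
        constructor
        · rintro ⟨k, hk⟩; exact ⟨k.1, k.2, hk⟩
        · rintro ⟨k, hk, hkz⟩; exact ⟨⟨k, hk⟩, hkz⟩
      rw [← h4]
      exact fun h => h3 (dvd_trans h h2)
    have hKΔ : ∀ k ∈ K, ∀ x ∈ Δ, k x ∈ Δ := by
      intro k hk x hx
      obtain ⟨k', hk', rfl⟩ := (hΔ x).mp hx
      exact (hΔ _).mpr ⟨k * k', K.mul_mem hk hk', rfl⟩
    have hswΔ : ∀ v ∈ N, v a = b → v b = a → ∀ x ∈ Δ, v x ∈ Δ := by
      intro v hv hva hvb x hx
      obtain ⟨k, hk, hkx⟩ := F2 v hv hva hvb x (hΔab x hx).1 (hΔab x hx).2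
      rw [← hkx]
      exact hKΔ k hk x hx
    have hinv : ∀ r ∈ (Q ⊔ Subgroup.zpowers τ : Subgroup (Perm α)), ∀ x ∈ Δ, r x ∈ Δ := by
      let T : Subgroup (Perm α) :=
        { carrier := {r | ∀ x, r x ∈ Δ ↔ x ∈ Δ}
          mul_mem' := by
            intro r s hr hs x
            rw [Perm.mul_apply, hr (s x), hs x]
          one_mem' := fun x => Iff.rfl
          inv_mem' := by
            intro r hr x
            have := hr (r⁻¹ x)
            rw [perm_apply_inv] at this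
            exact this.symm }
      have hQT : Q ≤ T := by
        intro q hq x
        constructor
        · intro h
          have := hKΔ q⁻¹ (K.inv_mem (hQK hq)) _ h
          rwa [perm_inv_apply] at this
        · exact hKΔ q (hQK hq) x
      have hτT : τ ∈ T := by
        intro x
        constructor
        · intro h
          have := hswΔ τ⁻¹ (N.inv_mem hτN) hτi.1 hτi.2 _ h
          rwa [perm_inv_apply] at this
        · exact hswΔ τ hτN hτa hτb x
      have hle : Q ⊔ Subgroup.zpowers τ ≤ T := sup_le hQT ((Subgroup.zpowers_le).mpr hτT)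
      intro r hr x hx
      exact ((hle hr) x).mpr hx
    obtain ⟨x, hxΔ, hxfix⟩ := exists_fixed_of_isPGroup 2 _ hQhat Δ hinv hΔodd
    exact ⟨x, (hΔ x).mp hxΔ, hxfix τ (Subgroup.mem_sup_right (Subgroup.mem_zpowers τ)),
      fun q hq => hxfix q (Subgroup.mem_sup_left hq)⟩
  -- conclusion
  intro c₁ hc₁ c₂ hc₂
  simp only [Finset.mem_insert, Finset.notMem_empty, or_false, not_or] at hc₁ hc₂
  obtain ⟨x₁, ⟨k₁, hk₁, hk₁c⟩, hτ₁, hQ₁⟩ := key c₁ hc₁.2 hc₁.1
  obtain ⟨x₂, ⟨k₂, hk₂, hk₂c⟩, hτ₂, hQ₂⟩ := key c₂ hc₂.2 hc₂.1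
  by_cases hx : x₁ = x₂
  · refine ⟨k₂⁻¹ * k₁, K.mul_mem (K.inv_mem hk₂) hk₁, ?_⟩
    rw [Perm.mul_apply, hk₁c, hx, ← hk₂c, perm_inv_apply]
  · exfalso
    obtain ⟨n₀, hn₀, hn₀a, hn₀b⟩ := hN2.two hFN (Finset.notMem_empty a) (Finset.notMem_empty b)
      (Finset.notMem_empty x₁) (Finset.notMem_empty x₂) hab hx
    have hmemK' : ∀ v ∈ N, v x₁ = x₁ → v x₂ = x₂ →
        v ∈ K.map (MulAut.conj n₀).toMonoidHom := by
      intro v hv h1 h2
      rw [mem_map_conj_iff, hK]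
      refine ⟨N.mul_mem (N.mul_mem (N.inv_mem hn₀) hv) hn₀, ?_, ?_⟩
      · rw [Perm.mul_apply, Perm.mul_apply, hn₀a, h1, ← hn₀a, perm_inv_apply]
      · rw [Perm.mul_apply, Perm.mul_apply, hn₀b, h2, ← hn₀b, perm_inv_apply]
    have hQK' : Q ≤ K.map (MulAut.conj n₀).toMonoidHom := fun q hq =>
      hmemK' q ((hK q).mp (hQK hq)).1 (hQ₁ q hq) (hQ₂ q hq)
    have hτK' : τ ∈ K.map (MulAut.conj n₀).toMonoidHom := hmemK' τ hτN hτ₁ hτ₂
    have hQ'' : IsSylowIn 2 (Q.map (MulAut.conj n₀).toMonoidHom)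
        (K.map (MulAut.conj n₀).toMonoidHom) := hQ.map_conj n₀
    obtain ⟨Q₁, hQ₁syl, hQQ₁⟩ := exists_isSylowIn_ge hQp hQK'
    obtain ⟨d, -, hd⟩ := hQ''.exists_conj_eq hQ₁syl
    have hcard : Nat.card Q₁ = Nat.card Q := by
      rw [hd, card_map_conj, card_map_conj]
    have hQeq : Q = Q₁ := Subgroup.eq_of_le_of_card_ge hQQ₁ hcard.le
    rw [← hQeq] at hQ₁syl
    have h1 := hQ₁syl.2.2 (Q ⊔ Subgroup.zpowers τ) hQhat le_sup_left
      (sup_le hQK' (by rw [Subgroup.zpowers_le]; exact hτK'))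
    have hτQ : τ ∈ Q := by
      rw [← h1]; exact Subgroup.mem_sup_right (Subgroup.mem_zpowers τ)
    have h2 := ((hK τ).mp (hQK hτQ)).2.1
    rw [hτa] at h2
    exact hb h2

/-- Wagner's Theorem: a non-trivial normal subgroup of a triply transitive permutation group of odd degree at least 5 is triply transitive. -/
theorem result {α : Type*} [Fintype α] [DecidableEq α] (G : Subgroup (Equiv.Perm α)) (hodd : Odd (Fintype.card α)) (h5 : 5 ≤ Fintype.card α) (hG : MulAction.IsMultiplyPretransitive G α 3) (N : Subgroup G) [N.Normal] (hN : N ≠ ⊥) : MulAction.IsMultiplyPretransitive N α 3 := by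
  classical
  have hGt : MT 3 G ∅ := MT_of_isMultiplyPretransitive (H := G) G
    (fun h => ⟨h.1, h.2, fun a => rfl⟩) 3 (by omega) hG
  have hNn : NormBy G (N.map G.subtype) := by
    intro s hs n hnN
    obtain ⟨n₀, hn₀, rfl⟩ := hnN
    refine ⟨⟨s, hs⟩ * n₀ * ⟨s, hs⟩⁻¹, ?_, rfl⟩
    exact ‹N.Normal›.conj_mem n₀ hn₀ ⟨s, hs⟩
  have hN' : N.map G.subtype ≠ ⊥ := by
    intro h
    rw [Subgroup.map_eq_bot_iff_of_injective _ (Subgroup.subtype_injective G)] at h
    exact hN h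
  have h := wagner_rel G (N.map G.subtype) hodd h5 hGt (Subgroup.map_subtype_le N) hNn hN'
  refine isMultiplyPretransitive_of_MT (H := N) (N.map G.subtype) ?_ 3 h
  rintro g ⟨n₀, hn₀, rfl⟩
  exact ⟨⟨n₀, hn₀⟩, fun a => rfl⟩

end Cfsg.Agent.S0699
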