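import Cfsg.Statements.S0700
import Mathlib
import Cfsg.Agent.Lib.Lead.FrobeniusMore

set_option autoImplicit false
open Cfsg

namespace Cfsg.Agent.S0700

section

variable {α : Type*} [Fintype α] [DecidableEq α]

/-- An element commuting with a transitive set of permutations and fixing a point is trivial. -/
theorem eq_one_of_commute_transitive (U : Subgroup (Equiv.Perm α))
    (hU : ∀ c d : α, ∃ x ∈ U, x c = d) (z : Equiv.Perm α)
    (hz : ∀ x ∈ U, z * x = x * z) (c : α) (hc : z c = c) : z = 1 := by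
  ext d
  obtain ⟨x, hx, rfl⟩ := hU c d
  have h1 : (z * x) c = (x * z) c := by rw [hz x hx]
  rw [Equiv.Perm.mul_apply, Equiv.Perm.mul_apply, hc] at h1
  rw [h1, Equiv.Perm.one_apply]

/-- If all nonidentity elements of a nontrivial finite group have the same order, that order is
a prime `p`. -/
theorem exists_prime_pow_eq_one (T : Subgroup (Equiv.Perm α)) (hT : T ≠ ⊥)
    (h : ∀ x ∈ T, ∀ y ∈ T, x ≠ 1 → y ≠ 1 → orderOf x = orderOf y) :
    ∃ p : ℕ, p.Prime ∧ ∀ x ∈ T, x ^ p = 1 := by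
  obtain ⟨⟨x0, hx0T⟩, hx0⟩ := (Subgroup.ne_bot_iff_exists_ne_one).mp hT
  have hx01 : x0 ≠ 1 := fun e => hx0 (Subtype.ext e)
  have hn1 : orderOf x0 ≠ 1 := fun e => hx01 (orderOf_eq_one_iff.mp e)
  have hn0 : orderOf x0 ≠ 0 := (orderOf_pos x0).ne'
  have hp : (orderOf x0).minFac.Prime := Nat.minFac_prime hn1
  have hy : orderOf (x0 ^ (orderOf x0 / (orderOf x0).minFac)) = (orderOf x0).minFac :=
    orderOf_pow_orderOf_div hn0 (Nat.minFac_dvd _)
  have hyT : x0 ^ (orderOf x0 / (orderOf x0).minFac) ∈ T := T.pow_mem hx0T _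
  have hy1 : x0 ^ (orderOf x0 / (orderOf x0).minFac) ≠ 1 := by
    intro e
    rw [e, orderOf_one] at hy
    exact hp.one_lt.ne hy
  refine ⟨_, hp, fun x hx => ?_⟩
  by_cases hx1 : x = 1
  · rw [hx1, one_pow]
  · rw [← hy, ← h x hx _ hyT hx1 hy1]
    exact pow_orderOf_eq_one x

/-- A nontrivial finite group of prime exponent has a nontrivial central element. -/
theorem exists_central (T : Subgroup (Equiv.Perm α)) (hT : T ≠ ⊥) (p : ℕ) (hp : p.Prime)
    (h : ∀ x ∈ T, x ^ p = 1) : ∃ z ∈ T, z ≠ 1 ∧ ∀ x ∈ T, z * x = x * z := by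
  have : Fact p.Prime := ⟨hp⟩
  have hP : IsPGroup p T := by
    intro x
    refine ⟨1, ?_⟩
    rw [pow_one]
    apply Subtype.ext
    rw [Subgroup.coe_pow]
    exact h x x.2
  have : Nontrivial T := (Subgroup.nontrivial_iff_ne_bot T).mpr hT
  have hZ := hP.center_nontrivial
  obtain ⟨⟨z, hz⟩, hz1⟩ := exists_ne (1 : Subgroup.center T)
  refine ⟨z, z.2, ?_, ?_⟩
  · intro e
    apply hz1
    apply Subtype.ext
    apply Subtype.ext
    exact e
  · intro x hx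
    rw [Subgroup.mem_center_iff] at hz
    have h1 := hz ⟨x, hx⟩
    have h2 := congrArg Subtype.val h1
    exact h2.symm

/-- Two commuting permutations agreeing at a point have powers agreeing at that point. -/
theorem pow_apply_eq_of_commute (x y : Equiv.Perm α) (hxy : x * y = y * x) (a : α)
    (ha : x a = y a) (k : ℕ) : (y ^ k) a = (x ^ k) a := by
  induction k with
  | zero => simp
  | succ k ih =>
    have hc : Commute x (y ^ k) := Commute.pow_right hxy k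
    have h1 : (y ^ (k + 1)) a = (y ^ k) (y a) := by
      rw [pow_succ, Equiv.Perm.mul_apply]
    have h2 : (x ^ (k + 1)) a = x ((x ^ k) a) := by
      rw [pow_succ', Equiv.Perm.mul_apply]
    rw [h1, h2, ← ha, ← ih, ← Equiv.Perm.mul_apply, ← Equiv.Perm.mul_apply, hc.eq]


theorem inv_apply_eq (g : Equiv.Perm α) {a c : α} (h : g a = c) : g⁻¹ c = a := by
  rw [Equiv.Perm.inv_eq_iff_eq]
  exact h.symm

variable (G N : Subgroup (Equiv.Perm α))

theorem transitive_of_normal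
    (h2t : ∀ a b c d : α, a ≠ b → c ≠ d → ∃ g ∈ G, g a = c ∧ g b = d)
    (hnorm : ∀ g ∈ G, ∀ x ∈ N, g * x * g⁻¹ ∈ N) (hN : N ≠ ⊥) :
    ∀ c d : α, ∃ n ∈ N, n c = d := by
  obtain ⟨⟨x, hxN⟩, hx⟩ := (Subgroup.ne_bot_iff_exists_ne_one).mp hN
  have hx1 : x ≠ 1 := fun e => hx (Subtype.ext e)
  obtain ⟨a, ha⟩ : ∃ a, x a ≠ a := by
    by_contra h
    push Not at h
    exact hx1 (Equiv.Perm.ext h)
  intro c d
  by_cases hcd : c = d
  · exact ⟨1, N.one_mem, by rw [hcd]; rfl⟩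
  · obtain ⟨g, hg, h1, h2⟩ := h2t a (x a) c d (Ne.symm ha) hcd
    refine ⟨g * x * g⁻¹, hnorm g hg x hxN, ?_⟩
    rw [Equiv.Perm.mul_apply, Equiv.Perm.mul_apply, inv_apply_eq g h1, h2]

theorem regular_case
    (h2t : ∀ a b c d : α, a ≠ b → c ≠ d → ∃ g ∈ G, g a = c ∧ g b = d)
    (hnorm : ∀ g ∈ G, ∀ x ∈ N, g * x * g⁻¹ ∈ N) (hN : N ≠ ⊥)
    (hmin : ∀ M : Subgroup (Equiv.Perm α), M ≤ N → (∀ g ∈ G, ∀ x ∈ M, g * x * g⁻¹ ∈ M) →
      M = ⊥ ∨ M = N)
    (hreg : ∀ x ∈ N, ∀ a, x a = a → x = 1) :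
    (∀ x ∈ N, ∀ y ∈ N, x * y = y * x) ∧ ∃ p : ℕ, p.Prime ∧ ∀ x ∈ N, x ^ p = 1 := by
  obtain ⟨⟨x0, hx0N⟩, hx0⟩ := (Subgroup.ne_bot_iff_exists_ne_one).mp hN
  have hx01 : x0 ≠ 1 := fun e => hx0 (Subtype.ext e)
  obtain ⟨a, -⟩ : ∃ a, x0 a ≠ a := by
    by_contra h
    push Not at h
    exact hx01 (Equiv.Perm.ext h)
  have hord : ∀ x ∈ N, ∀ y ∈ N, x ≠ 1 → y ≠ 1 → orderOf x = orderOf y := by
    intro x hx y hy hx1 hy1
    have hxa : x a ≠ a := fun e => hx1 (hreg x hx a e)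
    have hya : y a ≠ a := fun e => hy1 (hreg y hy a e)
    obtain ⟨g, hg, h1, h2⟩ := h2t a (x a) a (y a) (Ne.symm hxa) (Ne.symm hya)
    have hz : y⁻¹ * (g * x * g⁻¹) = 1 := by
      apply hreg _ (N.mul_mem (N.inv_mem hy) (hnorm g hg x hx)) a
      rw [Equiv.Perm.mul_apply, Equiv.Perm.mul_apply, Equiv.Perm.mul_apply, inv_apply_eq g h1, h2,
        inv_apply_eq y rfl]
    rw [inv_mul_eq_one] at hz
    rw [hz]
    exact (MulEquiv.orderOf_eq (MulAut.conj g) x).symm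
  obtain ⟨p, hp, hpow⟩ := exists_prime_pow_eq_one N hN hord
  refine ⟨?_, p, hp, hpow⟩
  obtain ⟨z, hzN, hz1, hzc⟩ := exists_central N hN p hp hpow
  have hM := hmin (N ⊓ Subgroup.centralizer (N : Set (Equiv.Perm α))) inf_le_left (by
    intro g hg x hx
    rw [Subgroup.mem_inf] at hx ⊢
    refine ⟨hnorm g hg x hx.1, ?_⟩
    rw [Subgroup.mem_centralizer_iff]
    intro n hn
    have hn' : g⁻¹ * n * g ∈ N := by
      have h3 := hnorm g⁻¹ (G.inv_mem hg) n hn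
      rwa [inv_inv] at h3
    have h1 := (Subgroup.mem_centralizer_iff.mp hx.2) (g⁻¹ * n * g) hn'
    have e1 : n * (g * x * g⁻¹) = g * ((g⁻¹ * n * g) * x) * g⁻¹ := by group
    have e2 : g * x * g⁻¹ * n = g * (x * (g⁻¹ * n * g)) * g⁻¹ := by group
    rw [e1, e2, h1])
  rcases hM with hM | hM
  · exfalso
    have h3 : z ∈ N ⊓ Subgroup.centralizer (N : Set (Equiv.Perm α)) := by
      rw [Subgroup.mem_inf, Subgroup.mem_centralizer_iff]
      exact ⟨hzN, fun n hn => (hzc n hn).symm⟩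
    rw [hM, Subgroup.mem_bot] at h3
    exact hz1 h3
  · intro x hx y hy
    have hx' : x ∈ N ⊓ Subgroup.centralizer (N : Set (Equiv.Perm α)) := by
      rw [hM]
      exact hx
    rw [Subgroup.mem_inf] at hx'
    exact ((Subgroup.mem_centralizer_iff.mp hx'.2) y hy).symm

theorem primitive_of_nonregular
    (h2t : ∀ a b c d : α, a ≠ b → c ≠ d → ∃ g ∈ G, g a = c ∧ g b = d)
    (hnorm : ∀ g ∈ G, ∀ x ∈ N, g * x * g⁻¹ ∈ N) (hN : N ≠ ⊥)
    (hmin : ∀ M : Subgroup (Equiv.Perm α), M ≤ N → (∀ g ∈ G, ∀ x ∈ M, g * x * g⁻¹ ∈ M) →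
      M = ⊥ ∨ M = N)
    (x0 : Equiv.Perm α) (hx0 : x0 ∈ N) (hx01 : x0 ≠ 1) (a0 : α) (hx0a : x0 a0 = a0) :
    ∀ B : Set α, (∀ n ∈ N, ∀ c ∈ B, n c ∈ B → ∀ d ∈ B, n d ∈ B) →
      B.Subsingleton ∨ B = Set.univ := by
  classical
  by_contra hcon
  push Not at hcon
  have hex : ∃ k, ∃ B : Set α, (∀ n ∈ N, ∀ c ∈ B, n c ∈ B → ∀ d ∈ B, n d ∈ B) ∧
      ¬ B.Subsingleton ∧ B ≠ Set.univ ∧ B.ncard = k := by
    obtain ⟨B, h1, h2, h3⟩ := hcon
    exact ⟨_, B, h1, Set.not_subsingleton_iff.mpr h2, h3, rfl⟩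
  obtain ⟨B, hBblk, hBns, hBne, hBcard⟩ := Nat.find_spec hex
  have hBmin : ∀ B' : Set α, (∀ n ∈ N, ∀ c ∈ B', n c ∈ B' → ∀ d ∈ B', n d ∈ B') →
      ¬ B'.Subsingleton → B' ≠ Set.univ → B.ncard ≤ B'.ncard := by
    intro B' h1 h2 h3
    rw [hBcard]
    exact Nat.find_min' hex ⟨B', h1, h2, h3, rfl⟩
  have hLcard : ∀ g : Equiv.Perm α, (g '' B).ncard = B.ncard :=
    fun g => Set.ncard_image_of_injective _ g.injective
  have hLblk : ∀ g ∈ G, ∀ n ∈ N, ∀ c ∈ g '' B, n c ∈ g '' B → ∀ d ∈ g '' B, n d ∈ g '' B := by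
    rintro g hg n hn _ ⟨c, hc, rfl⟩ ⟨c', hc', e⟩ _ ⟨d, hd, rfl⟩
    have hn' : g⁻¹ * n * g ∈ N := by
      have h3 := hnorm g⁻¹ (G.inv_mem hg) n hn
      rwa [inv_inv] at h3
    have h1 : (g⁻¹ * n * g) c ∈ B := by
      rw [Equiv.Perm.mul_apply, Equiv.Perm.mul_apply, ← e, inv_apply_eq g rfl]
      exact hc'
    have h2 := hBblk _ hn' c hc h1 d hd
    refine ⟨(g⁻¹ * n * g) d, h2, ?_⟩
    rw [Equiv.Perm.mul_apply, Equiv.Perm.mul_apply]
    exact (Equiv.Perm.inv_eq_iff_eq.mp rfl).symm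
  have hLne : ∀ g : Equiv.Perm α, g '' B ≠ Set.univ := by
    intro g e
    have h1 : B.ncard < (Set.univ : Set α).ncard :=
      Set.ncard_lt_ncard (Set.ssubset_univ_iff.mpr hBne)
    rw [← e, hLcard] at h1
    exact lt_irrefl _ h1
  have hL3 : ∀ g ∈ G, ∀ g' ∈ G, ∀ c d, c ≠ d → c ∈ g '' B → d ∈ g '' B → c ∈ g' '' B →
      d ∈ g' '' B → g '' B = g' '' B := by
    intro g hg g' hg' c d hcd hc hd hc' hd'
    have hI : ∀ n ∈ N, ∀ c ∈ g '' B ∩ g' '' B, n c ∈ g '' B ∩ g' '' B →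
        ∀ d ∈ g '' B ∩ g' '' B, n d ∈ g '' B ∩ g' '' B := by
      intro n hn c hc hnc d hd
      exact ⟨hLblk g hg n hn c hc.1 hnc.1 d hd.1, hLblk g' hg' n hn c hc.2 hnc.2 d hd.2⟩
    have hIns : ¬ (g '' B ∩ g' '' B).Subsingleton := by
      intro hs
      exact hcd (hs ⟨hc, hc'⟩ ⟨hd, hd'⟩)
    have hIne : g '' B ∩ g' '' B ≠ Set.univ := by
      intro e
      apply hLne g
      rw [Set.eq_univ_iff_forall] at e ⊢
      exact fun x => (e x).1
    have hIcard := hBmin _ hI hIns hIne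
    have e1 : g '' B ∩ g' '' B = g '' B :=
      Set.eq_of_subset_of_ncard_le Set.inter_subset_left (by rw [hLcard]; exact hIcard)
    have e2 : g '' B ∩ g' '' B = g' '' B :=
      Set.eq_of_subset_of_ncard_le Set.inter_subset_right (by rw [hLcard]; exact hIcard)
    rw [← e1, e2]
  obtain ⟨b1, hb1, b2, hb2, hb12⟩ := Set.not_subsingleton_iff.mp hBns
  have hL4 : ∀ c d, c ≠ d → ∃ g ∈ G, c ∈ g '' B ∧ d ∈ g '' B := by
    intro c d hcd
    obtain ⟨g, hg, h1, h2⟩ := h2t b1 b2 c d hb12 hcd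
    exact ⟨g, hg, ⟨b1, hb1, h1⟩, ⟨b2, hb2, h2⟩⟩
  have hL6 : ∀ x ∈ N, ∀ c, x c = c → ∀ g ∈ G, c ∈ g '' B → ∀ e ∈ g '' B, x e ∈ g '' B := by
    intro x hx c hxc g hg hc e he
    exact hLblk g hg x hx c hc (by rw [hxc]; exact hc) e he
  have key1 : ∀ x ∈ N, ∀ c d e, x c = c → x d = d → ∀ g1 ∈ G, ∀ g2 ∈ G, c ∈ g1 '' B →
      e ∈ g1 '' B → d ∈ g2 '' B → e ∈ g2 '' B → g1 '' B ≠ g2 '' B → x e = e := by
    intro x hx c d e hxc hxd g1 hg1 g2 hg2 hc1 he1 hd2 he2 hne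
    by_contra hxe
    exact hne (hL3 g1 hg1 g2 hg2 (x e) e hxe (hL6 x hx c hxc g1 hg1 hc1 e he1) he1
      (hL6 x hx d hxd g2 hg2 hd2 e he2) he2)
  have key2 : ∀ x ∈ N, ∀ c d, c ≠ d → x c = c → x d = d → x = 1 := by
    intro x hx c d hcd hxc hxd
    obtain ⟨g0, hg0, hc0, hd0⟩ := hL4 c d hcd
    have hsub : ∀ f, f ∉ g0 '' B → x f = f := by
      intro f hf
      have hfc : c ≠ f := fun e => hf (e ▸ hc0)
      have hfd : d ≠ f := fun e => hf (e ▸ hd0)
      obtain ⟨g1, hg1, hc1, hf1⟩ := hL4 c f hfc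
      obtain ⟨g2, hg2, hd2, hf2⟩ := hL4 d f hfd
      apply key1 x hx c d f hxc hxd g1 hg1 g2 hg2 hc1 hf1 hd2 hf2
      intro e12
      have hd1 : d ∈ g1 '' B := e12 ▸ hd2
      have e10 := hL3 g1 hg1 g0 hg0 c d hcd hc1 hd1 hc0 hd0
      exact hf (e10 ▸ hf1)
    ext e
    rw [Equiv.Perm.one_apply]
    by_cases he : e ∈ g0 '' B
    · by_cases hec : e = c
      · rw [hec]
        exact hxc
      · obtain ⟨f, hf⟩ := (Set.ne_univ_iff_exists_notMem _).mp (hLne g0)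
        have hxf := hsub f hf
        have hfe : f ≠ e := fun h => hf (h ▸ he)
        obtain ⟨g3, hg3, hf3, he3⟩ := hL4 f e hfe
        apply key1 x hx c f e hxc hxf g0 hg0 g3 hg3 hc0 he hf3 he3
        intro e03
        exact hf (e03 ▸ hf3)
    · exact hsub e he
  have htr := transitive_of_normal G N h2t hnorm hN
  obtain ⟨K, hKdef⟩ : ∃ K : Subgroup N, K = MulAction.stabilizer N a0 := ⟨_, rfl⟩
  have hKmem : ∀ n : N, n ∈ K ↔ (n : Equiv.Perm α) a0 = a0 := by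
    intro n
    rw [hKdef]
    exact Iff.rfl
  have hconjmem : ∀ g x : N, g⁻¹ * x * g ∈ K ↔
      (x : Equiv.Perm α) ((g : Equiv.Perm α) a0) = (g : Equiv.Perm α) a0 := by
    intro g x
    rw [hKmem, Subgroup.coe_mul, Subgroup.coe_mul, Subgroup.coe_inv, Equiv.Perm.mul_apply,
      Equiv.Perm.mul_apply, Equiv.Perm.inv_eq_iff_eq]
  have hK : Cfsg.IsFrobeniusComplement K := by
    refine ⟨?_, ?_, ?_⟩
    · intro e
      have h1 : (⟨x0, hx0⟩ : N) ∈ K := (hKmem _).mpr hx0a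
      rw [e, Subgroup.mem_bot] at h1
      exact hx01 (congrArg Subtype.val h1)
    · intro e
      obtain ⟨d, hd⟩ : ∃ d, d ≠ a0 := by
        by_cases h : b1 = a0
        · exact ⟨b2, fun h' => hb12 (h.trans h'.symm)⟩
        · exact ⟨b1, h⟩
      obtain ⟨n, hn, hnd⟩ := htr a0 d
      have h1 : (⟨n, hn⟩ : N) ∈ K := e ▸ Subgroup.mem_top _
      exact hd (hnd.symm.trans ((hKmem _).mp h1))
    · intro g hg
      rw [eq_bot_iff]
      intro x hx
      rw [Subgroup.mem_bot]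
      have h1 : (x : Equiv.Perm α) a0 = a0 := (hKmem x).mp hx.1
      have h2 := (Cfsg.Agent.Lib.Lead.mem_conj_smul K g x).mp hx.2
      rw [hconjmem] at h2
      have h5 : (g : Equiv.Perm α) a0 ≠ a0 := fun h => hg ((hKmem g).mpr h)
      apply Subtype.ext
      exact key2 x x.2 a0 _ (Ne.symm h5) h1 h2
  have hFmem : ∀ x : N, x ∈ Cfsg.Agent.Lib.Lead.frobKer K hK ↔
      (x : Equiv.Perm α) = 1 ∨ ∀ c, (x : Equiv.Perm α) c ≠ c := by
    intro x
    rw [Cfsg.Agent.Lib.Lead.mem_frobKer_iff]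
    constructor
    · rintro (h | h)
      · left
        exact congrArg Subtype.val h
      · right
        intro c hc
        obtain ⟨n, hn, hnc⟩ := htr a0 c
        apply h ⟨n, hn⟩
        rw [Cfsg.Agent.Lib.Lead.mem_conj_smul, hconjmem]
        show (x : Equiv.Perm α) (n a0) = n a0
        rw [hnc]
        exact hc
    · rintro (h | h)
      · left
        exact Subtype.ext h
      · right
        intro g hg
        rw [Cfsg.Agent.Lib.Lead.mem_conj_smul, hconjmem] at hg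
        exact h _ hg
  have hM := hmin ((Cfsg.Agent.Lib.Lead.frobKer K hK).map N.subtype)
    (Subgroup.map_subtype_le _) (by
    rintro g hg _ ⟨f, hf, rfl⟩
    have hfN : g * (f : Equiv.Perm α) * g⁻¹ ∈ N := hnorm g hg f f.2
    refine ⟨⟨_, hfN⟩, ?_, rfl⟩
    rw [SetLike.mem_coe, hFmem]
    rcases (hFmem f).mp hf with h | h
    · left
      show g * (f : Equiv.Perm α) * g⁻¹ = 1
      rw [h]
      group
    · right
      intro c hc
      apply h (g⁻¹ c)
      have hc' : g ((f : Equiv.Perm α) (g⁻¹ c)) = c := hc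
      exact (Equiv.Perm.inv_eq_iff_eq.mpr hc'.symm).symm)
  rcases hM with hM | hM
  · apply Cfsg.Agent.Lib.Lead.frobKer_ne_bot K hK
    rw [eq_bot_iff]
    intro f hf
    have h1 : (f : Equiv.Perm α) ∈ (Cfsg.Agent.Lib.Lead.frobKer K hK).map N.subtype :=
      ⟨f, hf, rfl⟩
    rw [hM, Subgroup.mem_bot] at h1
    rw [Subgroup.mem_bot]
    exact Subtype.ext h1
  · have h1 : x0 ∈ (Cfsg.Agent.Lib.Lead.frobKer K hK).map N.subtype := by
      rw [hM]
      exact hx0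
    obtain ⟨f, hf, hfx⟩ := h1
    have hfx' : (f : Equiv.Perm α) = x0 := hfx
    rcases (hFmem f).mp hf with h | h
    · exact hx01 (hfx' ▸ h)
    · exact h a0 (by rw [hfx']; exact hx0a)


theorem simple_of_primitive
    (h2t : ∀ a b c d : α, a ≠ b → c ≠ d → ∃ g ∈ G, g a = c ∧ g b = d)
    (hnorm : ∀ g ∈ G, ∀ x ∈ N, g * x * g⁻¹ ∈ N) (hN : N ≠ ⊥)
    (hmin : ∀ M : Subgroup (Equiv.Perm α), M ≤ N → (∀ g ∈ G, ∀ x ∈ M, g * x * g⁻¹ ∈ M) →
      M = ⊥ ∨ M = N)
    (hprim : ∀ B : Set α, (∀ n ∈ N, ∀ c ∈ B, n c ∈ B → ∀ d ∈ B, n d ∈ B) →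
      B.Subsingleton ∨ B = Set.univ) :
    ∀ T : Subgroup (Equiv.Perm α), T ≤ N → (∀ n ∈ N, ∀ x ∈ T, n * x * n⁻¹ ∈ T) →
      T = ⊥ ∨ T = N := by
  classical
  by_contra hcon
  push Not at hcon
  obtain ⟨T1, hT1N, hT1inv, hT1bot, hT1ne⟩ := hcon
  have htrN := transitive_of_normal G N h2t hnorm hN
  have hex : ∃ k, ∃ T : Subgroup (Equiv.Perm α), T ≤ N ∧
      (∀ n ∈ N, ∀ x ∈ T, n * x * n⁻¹ ∈ T) ∧ T ≠ ⊥ ∧ Nat.card T = k :=
    ⟨_, T1, hT1N, hT1inv, hT1bot, rfl⟩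
  obtain ⟨T, hTN, hTinv, hTbot, hTcard⟩ := Nat.find_spec hex
  have hTmin : ∀ U : Subgroup (Equiv.Perm α), U ≤ N → (∀ n ∈ N, ∀ x ∈ U, n * x * n⁻¹ ∈ U) →
      U ≠ ⊥ → Nat.card T ≤ Nat.card U := by
    intro U h1 h2 h3
    rw [hTcard]
    exact Nat.find_min' hex ⟨U, h1, h2, h3, rfl⟩
  have hTneN : T ≠ N := by
    intro e
    have h1 := hTmin T1 hT1N hT1inv hT1bot
    have h2 : T1 = N := Subgroup.eq_of_le_of_card_ge hT1N (by rw [← e]; exact h1)
    exact hT1ne h2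
  have hD4 : ∀ U : Subgroup (Equiv.Perm α), U ≤ N → (∀ n ∈ N, ∀ x ∈ U, n * x * n⁻¹ ∈ U) →
      U ≠ ⊥ → ∀ c d : α, ∃ x ∈ U, x c = d := by
    intro U hUN hUinv hUbot c d
    have hblk : ∀ n ∈ N, ∀ e ∈ {d | ∃ x ∈ U, x c = d}, n e ∈ {d | ∃ x ∈ U, x c = d} →
        ∀ d' ∈ {d | ∃ x ∈ U, x c = d}, n d' ∈ {d | ∃ x ∈ U, x c = d} := by
      rintro n hn _ ⟨x1, hx1, rfl⟩ ⟨x2, hx2, e2⟩ _ ⟨x, hx, rfl⟩
      refine ⟨(n * (x * x1⁻¹) * n⁻¹) * x2,
        U.mul_mem (hUinv n hn _ (U.mul_mem hx (U.inv_mem hx1))) hx2, ?_⟩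
      rw [Equiv.Perm.mul_apply, e2, Equiv.Perm.mul_apply, Equiv.Perm.mul_apply,
        Equiv.Perm.mul_apply, inv_apply_eq n rfl, inv_apply_eq x1 rfl]
    rcases hprim _ hblk with hs | hu
    · exfalso
      have hfix : ∀ x ∈ U, x c = c := fun x hx => hs ⟨x, hx, rfl⟩ ⟨1, U.one_mem, rfl⟩
      apply hUbot
      rw [eq_bot_iff]
      intro x hx
      rw [Subgroup.mem_bot]
      ext e
      obtain ⟨n, hn, rfl⟩ := htrN c e
      have hn' : n⁻¹ * x * n ∈ U := by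
        have h3 := hUinv n⁻¹ (N.inv_mem hn) x hx
        rwa [inv_inv] at h3
      have h1 := hfix _ hn'
      rw [Equiv.Perm.mul_apply, Equiv.Perm.mul_apply, Equiv.Perm.inv_eq_iff_eq] at h1
      rw [h1, Equiv.Perm.one_apply]
    · have h3 : d ∈ {d | ∃ x ∈ U, x c = d} := hu ▸ Set.mem_univ d
      exact h3
  obtain ⟨g, hg, x1, hx1T, hx1g⟩ : ∃ g ∈ G, ∃ x ∈ T, g * x * g⁻¹ ∉ T := by
    by_contra h
    push Not at h
    rcases hmin T hTN h with h' | h'
    · exact hTbot h'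
    · exact hTneN h'
  have hconj : ∀ g ∈ G, (T.map (MulAut.conj g).toMonoidHom) ≤ N ∧
      (∀ n ∈ N, ∀ x ∈ T.map (MulAut.conj g).toMonoidHom,
        n * x * n⁻¹ ∈ T.map (MulAut.conj g).toMonoidHom) ∧
      T.map (MulAut.conj g).toMonoidHom ≠ ⊥ ∧
      Nat.card (T.map (MulAut.conj g).toMonoidHom) = Nat.card T := by
    intro g hg
    refine ⟨?_, ?_, ?_, ?_⟩
    · rintro _ ⟨x, hx, rfl⟩
      exact hnorm g hg x (hTN hx)
    · rintro n hn _ ⟨x, hx, rfl⟩
      have hn' : g⁻¹ * n * g ∈ N := by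
        have h3 := hnorm g⁻¹ (G.inv_mem hg) n hn
        rwa [inv_inv] at h3
      refine ⟨(g⁻¹ * n * g) * x * (g⁻¹ * n * g)⁻¹, hTinv _ hn' x hx, ?_⟩
      show g * ((g⁻¹ * n * g) * x * (g⁻¹ * n * g)⁻¹) * g⁻¹ = n * (g * x * g⁻¹) * n⁻¹
      group
    · intro e
      apply hTbot
      rw [eq_bot_iff]
      intro x hx
      have h3 : (MulAut.conj g) x ∈ T.map (MulAut.conj g).toMonoidHom := ⟨x, hx, rfl⟩
      rw [e, Subgroup.mem_bot] at h3
      rw [Subgroup.mem_bot]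
      exact (MulAut.conj g).injective (h3.trans (map_one _).symm)
    · exact Subgroup.card_map_of_injective (MulAut.conj g).injective
  have hD3 : ∀ U : Subgroup (Equiv.Perm α), U ≤ N → (∀ n ∈ N, ∀ x ∈ U, n * x * n⁻¹ ∈ U) →
      U ≠ ⊥ → Nat.card U = Nat.card T → U ≠ T →
      T ⊓ U = ⊥ ∧ ∀ x ∈ T, ∀ y ∈ U, x * y = y * x := by
    intro U hUN hUinv hUbot hUcard hUT
    have hI : T ⊓ U = ⊥ := by
      by_contra hIbot
      have h1 := hTmin (T ⊓ U) (inf_le_left.trans hTN) (fun n hn x hx => by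
        rw [Subgroup.mem_inf] at hx ⊢
        exact ⟨hTinv n hn x hx.1, hUinv n hn x hx.2⟩) hIbot
      have e1 : T ⊓ U = T := Subgroup.eq_of_le_of_card_ge inf_le_left h1
      have e2 : T ⊓ U = U := Subgroup.eq_of_le_of_card_ge inf_le_right (by rw [hUcard]; exact h1)
      exact hUT (e2.symm.trans e1)
    refine ⟨hI, fun x hx y hy => ?_⟩
    have hc : x * y * x⁻¹ * y⁻¹ ∈ T ⊓ U := by
      rw [Subgroup.mem_inf]
      constructor
      · have h1 := hTinv y (hUN hy) x⁻¹ (T.inv_mem hx)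
        have e : x * y * x⁻¹ * y⁻¹ = x * (y * x⁻¹ * y⁻¹) := by group
        rw [e]
        exact T.mul_mem hx h1
      · have h1 := hUinv x (hTN hx) y hy
        exact U.mul_mem h1 (U.inv_mem hy)
    rw [hI, Subgroup.mem_bot] at hc
    have e : x * y = (x * y * x⁻¹ * y⁻¹) * (y * x) := by group
    rw [e, hc, one_mul]
  obtain ⟨hT'N, hT'inv, hT'bot, hT'card⟩ := hconj g hg
  have hT'ne : T.map (MulAut.conj g).toMonoidHom ≠ T := by
    intro e
    apply hx1g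
    rw [← e]
    exact ⟨x1, hx1T, rfl⟩
  obtain ⟨hI, hcomm⟩ := hD3 _ hT'N hT'inv hT'bot hT'card hT'ne
  have htrT := hD4 T hTN hTinv hTbot
  have htrT' := hD4 _ hT'N hT'inv hT'bot
  have hsemi : ∀ x ∈ T, ∀ c, x c = c → x = 1 := by
    intro x hx c hc
    exact eq_one_of_commute_transitive _ htrT' x (fun y hy => hcomm x hx y hy) c hc
  obtain ⟨a⟩ : Nonempty α := by
    by_contra h
    rw [not_nonempty_iff] at h
    apply hN
    rw [eq_bot_iff]
    intro x _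
    rw [Subgroup.mem_bot]
    ext c
    exact (h.false c).elim
  have hord : ∀ x ∈ T, ∀ y ∈ T, x ≠ 1 → y ≠ 1 → orderOf x = orderOf y := by
    intro x hx x2 hx2 hx1 hx21
    have hxa : x a ≠ a := fun e => hx1 (hsemi x hx a e)
    have hx2a : x2 a ≠ a := fun e => hx21 (hsemi x2 hx2 a e)
    obtain ⟨g', hg', h1, h2⟩ := h2t a (x a) a (x2 a) (Ne.symm hxa) (Ne.symm hx2a)
    have hya : (g' * x * g'⁻¹) a = x2 a := by
      rw [Equiv.Perm.mul_apply, Equiv.Perm.mul_apply, inv_apply_eq g' h1, h2]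
    have hyord : orderOf (g' * x * g'⁻¹) = orderOf x := MulEquiv.orderOf_eq (MulAut.conj g') x
    rw [← hyord]
    by_cases hyT : g' * x * g'⁻¹ ∈ T
    · have h3 : x2⁻¹ * (g' * x * g'⁻¹) = 1 := by
        apply hsemi _ (T.mul_mem (T.inv_mem hx2) hyT) a
        rw [Equiv.Perm.mul_apply, hya, inv_apply_eq x2 rfl]
      rw [inv_mul_eq_one] at h3
      rw [← h3]
    · obtain ⟨hUN, hUinv, hUbot, hUcard⟩ := hconj g' hg'
      have hUne : T.map (MulAut.conj g').toMonoidHom ≠ T := by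
        intro e
        apply hyT
        rw [← e]
        exact ⟨x, hx, rfl⟩
      obtain ⟨-, hcommU⟩ := hD3 _ hUN hUinv hUbot hUcard hUne
      have hyU : g' * x * g'⁻¹ ∈ T.map (MulAut.conj g').toMonoidHom := ⟨x, hx, rfl⟩
      have hc := hcommU x2 hx2 _ hyU
      rw [orderOf_eq_orderOf_iff]
      intro k
      have hk := pow_apply_eq_of_commute x2 (g' * x * g'⁻¹) hc a hya.symm k
      constructor
      · intro e
        apply hsemi _ (T.pow_mem hx2 k) a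
        rw [← hk, e, Equiv.Perm.one_apply]
      · intro e
        apply eq_one_of_commute_transitive T htrT ((g' * x * g'⁻¹) ^ k) (fun u hu => ?_) a
          (by rw [hk, e, Equiv.Perm.one_apply])
        have hcu : Commute u (g' * x * g'⁻¹) := hcommU u hu _ hyU
        exact ((Commute.pow_right hcu k).eq).symm
  obtain ⟨p, hp, hpow⟩ := exists_prime_pow_eq_one T hTbot hord
  obtain ⟨z, hzT, hz1, hzc⟩ := exists_central T hTbot p hp hpow
  have hZ := hTmin (T ⊓ Subgroup.centralizer (T : Set (Equiv.Perm α))) (inf_le_left.trans hTN)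
    (by
      intro n hn x hx
      rw [Subgroup.mem_inf] at hx ⊢
      refine ⟨hTinv n hn x hx.1, ?_⟩
      rw [Subgroup.mem_centralizer_iff]
      intro u hu
      have hu' : n⁻¹ * u * n ∈ T := by
        have h3 := hTinv n⁻¹ (N.inv_mem hn) u hu
        rwa [inv_inv] at h3
      have h1 := (Subgroup.mem_centralizer_iff.mp hx.2) _ hu'
      have e1 : u * (n * x * n⁻¹) = n * ((n⁻¹ * u * n) * x) * n⁻¹ := by group
      have e2 : n * x * n⁻¹ * u = n * (x * (n⁻¹ * u * n)) * n⁻¹ := by group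
      rw [e1, e2, h1])
    (by
      intro e
      have h3 : z ∈ T ⊓ Subgroup.centralizer (T : Set (Equiv.Perm α)) := by
        rw [Subgroup.mem_inf, Subgroup.mem_centralizer_iff]
        exact ⟨hzT, fun u hu => (hzc u hu).symm⟩
      rw [e, Subgroup.mem_bot] at h3
      exact hz1 h3)
  have hZT : T ⊓ Subgroup.centralizer (T : Set (Equiv.Perm α)) = T :=
    Subgroup.eq_of_le_of_card_ge inf_le_left hZ
  have hab : ∀ x ∈ T, ∀ u ∈ T, x * u = u * x := by
    intro x hx u hu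
    have hx' : x ∈ T ⊓ Subgroup.centralizer (T : Set (Equiv.Perm α)) := by
      rw [hZT]
      exact hx
    rw [Subgroup.mem_inf] at hx'
    exact ((Subgroup.mem_centralizer_iff.mp hx'.2) u hu).symm
  obtain ⟨⟨y, hyT'⟩, hy⟩ := (Subgroup.ne_bot_iff_exists_ne_one).mp hT'bot
  have hy1 : y ≠ 1 := fun e => hy (Subtype.ext e)
  obtain ⟨x, hxT, hxa⟩ := htrT a (y a)
  have hw : x⁻¹ * y = 1 := by
    apply eq_one_of_commute_transitive T htrT (x⁻¹ * y) (fun u hu => ?_) a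
      (by rw [Equiv.Perm.mul_apply, ← hxa, inv_apply_eq x rfl])
    have h1 : y * u = u * y := (hcomm u hu y hyT').symm
    have h2 : x⁻¹ * u = u * x⁻¹ := hab _ (T.inv_mem hxT) u hu
    rw [mul_assoc, h1, ← mul_assoc, h2, mul_assoc]
  rw [inv_mul_eq_one] at hw
  have h3 : y ∈ T ⊓ T.map (MulAut.conj g).toMonoidHom := by
    rw [Subgroup.mem_inf]
    exact ⟨hw ▸ hxT, hyT'⟩
  rw [hI, Subgroup.mem_bot] at h3
  exact hy1 h3

end

/-- Burnside's Theorem on doubly transitive groups: a minimal normal subgroup of a finite doubly transitive permutation group is elementary abelian and regular, or simple and primitive. -/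
theorem result {α : Type*} [Fintype α] [DecidableEq α] (G : Subgroup (Equiv.Perm α)) (hG : MulAction.IsMultiplyPretransitive G α 2) (N : Subgroup G) [N.Normal] (hN : N ≠ ⊥) (hmin : ∀ M : Subgroup G, M.Normal → M ≤ N → M = ⊥ ∨ M = N) : (IsMulCommutative N ∧ (∃ p : ℕ, p.Prime ∧ ∀ n ∈ N, n ^ p = 1) ∧ ∀ a : α, MulAction.stabilizer N a = ⊥) ∨ (IsSimpleGroup N ∧ MulAction.IsPreprimitive N α) := by
  classical
  have hNn : N.Normal := inferInstance
  obtain ⟨N', hN'def⟩ : ∃ N' : Subgroup (Equiv.Perm α), N' = N.map G.subtype := ⟨_, rfl⟩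
  have hN'mem : ∀ x : Equiv.Perm α, x ∈ N' ↔ ∃ h : x ∈ G, (⟨x, h⟩ : G) ∈ N := by
    intro x
    rw [hN'def]
    constructor
    · rintro ⟨y, hy, rfl⟩
      exact ⟨y.2, hy⟩
    · rintro ⟨h, hx⟩
      exact ⟨⟨x, h⟩, hx, rfl⟩
  have hN'G : N' ≤ G := fun x hx => ((hN'mem x).mp hx).1
  have hcoe : ∀ n : G, n ∈ N ↔ (n : Equiv.Perm α) ∈ N' := by
    intro n
    rw [hN'mem]
    exact ⟨fun h => ⟨n.2, h⟩, fun ⟨_, h⟩ => h⟩
  have h2t : ∀ a b c d : α, a ≠ b → c ≠ d → ∃ g ∈ G, g a = c ∧ g b = d := by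
    intro a b c d hab hcd
    obtain ⟨g, h1, h2⟩ := MulAction.is_two_pretransitive_iff.mp hG hab hcd
    exact ⟨g, g.2, h1, h2⟩
  have hnorm : ∀ g ∈ G, ∀ x ∈ N', g * x * g⁻¹ ∈ N' := by
    intro g hg x hx
    obtain ⟨hxG, hxN⟩ := (hN'mem x).mp hx
    rw [hN'mem]
    exact ⟨G.mul_mem (G.mul_mem hg hxG) (G.inv_mem hg), hNn.conj_mem ⟨x, hxG⟩ hxN ⟨g, hg⟩⟩
  have hN'bot : N' ≠ ⊥ := by
    intro e
    apply hN
    rw [eq_bot_iff]
    intro n hn
    have h1 : (n : Equiv.Perm α) ∈ N' := (hcoe n).mp hn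
    rw [e, Subgroup.mem_bot] at h1
    rw [Subgroup.mem_bot]
    exact Subtype.ext h1
  have hmin' : ∀ M : Subgroup (Equiv.Perm α), M ≤ N' → (∀ g ∈ G, ∀ x ∈ M, g * x * g⁻¹ ∈ M) →
      M = ⊥ ∨ M = N' := by
    intro M hMN hMinv
    have hMn : (M.subgroupOf G).Normal := by
      constructor
      intro x hx g
      rw [Subgroup.mem_subgroupOf] at hx ⊢
      exact hMinv g g.2 x hx
    have hMle : M.subgroupOf G ≤ N := by
      intro x hx
      rw [Subgroup.mem_subgroupOf] at hx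
      exact (hcoe x).mpr (hMN hx)
    rcases hmin _ hMn hMle with h | h
    · left
      rw [eq_bot_iff]
      intro x hx
      have h1 : (⟨x, hN'G (hMN hx)⟩ : G) ∈ M.subgroupOf G := Subgroup.mem_subgroupOf.mpr hx
      rw [h, Subgroup.mem_bot] at h1
      rw [Subgroup.mem_bot]
      exact congrArg Subtype.val h1
    · right
      apply le_antisymm hMN
      intro x hx
      obtain ⟨hxG, hxN⟩ := (hN'mem x).mp hx
      have h1 : (⟨x, hxG⟩ : G) ∈ M.subgroupOf G := by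
        rw [h]
        exact hxN
      exact Subgroup.mem_subgroupOf.mp h1
  by_cases hreg : ∀ x ∈ N', ∀ a, x a = a → x = 1
  · left
    obtain ⟨hcomm, p, hp, hpow⟩ := regular_case G N' h2t hnorm hN'bot hmin' hreg
    refine ⟨⟨⟨fun x y => ?_⟩⟩, ⟨p, hp, fun n hn => ?_⟩, fun a => ?_⟩
    · apply Subtype.ext
      apply Subtype.ext
      exact hcomm _ ((hcoe x.1).mp x.2) _ ((hcoe y.1).mp y.2)
    · apply Subtype.ext
      rw [Subgroup.coe_pow]
      exact hpow _ ((hcoe n).mp hn)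
    · rw [eq_bot_iff]
      intro x hx
      rw [Subgroup.mem_bot]
      have h1 : ((x : G) : Equiv.Perm α) a = a := hx
      have h3 := hreg _ ((hcoe x.1).mp x.2) a h1
      apply Subtype.ext
      apply Subtype.ext
      exact h3
  · right
    push Not at hreg
    obtain ⟨x0, hx0, a0, hx0a, hx01⟩ := hreg
    have hprim := primitive_of_nonregular G N' h2t hnorm hN'bot hmin' x0 hx0 hx01 a0 hx0a
    have hsimp := simple_of_primitive G N' h2t hnorm hN'bot hmin' hprim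
    have htr := transitive_of_normal G N' h2t hnorm hN'bot
    constructor
    · have hnt : Nontrivial N := (Subgroup.nontrivial_iff_ne_bot N).mpr hN
      refine { exists_pair_ne := hnt.exists_pair_ne, eq_bot_or_eq_top_of_normal := ?_ }
      intro H hH
      have hTmem : ∀ x : Equiv.Perm α, x ∈ (H.map N.subtype).map G.subtype ↔
          ∃ h : N, h ∈ H ∧ ((h : G) : Equiv.Perm α) = x := by
        intro x
        constructor
        · rintro ⟨y, ⟨h, hh, rfl⟩, rfl⟩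
          exact ⟨h, hh, rfl⟩
        · rintro ⟨h, hh, rfl⟩
          exact ⟨h, ⟨h, hh, rfl⟩, rfl⟩
      rcases hsimp ((H.map N.subtype).map G.subtype) (by
          intro x hx
          obtain ⟨h, hh, rfl⟩ := (hTmem x).mp hx
          exact (hcoe _).mp h.2) (by
          intro n hn x hx
          obtain ⟨h, hh, rfl⟩ := (hTmem x).mp hx
          rw [hTmem]
          exact ⟨⟨⟨n, hN'G hn⟩, (hcoe _).mpr hn⟩ * h * ⟨⟨n, hN'G hn⟩, (hcoe _).mpr hn⟩⁻¹,
            hH.conj_mem h hh _, rfl⟩) with h | h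
      · left
        rw [eq_bot_iff]
        intro x hx
        have h1 : ((x : G) : Equiv.Perm α) ∈ (H.map N.subtype).map G.subtype :=
          (hTmem _).mpr ⟨x, hx, rfl⟩
        rw [h, Subgroup.mem_bot] at h1
        rw [Subgroup.mem_bot]
        apply Subtype.ext
        apply Subtype.ext
        exact h1
      · right
        rw [eq_top_iff]
        intro x _
        have h1 : ((x : G) : Equiv.Perm α) ∈ (H.map N.subtype).map G.subtype := by
          rw [h]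
          exact (hcoe _).mp x.2
        obtain ⟨y, hy, hyx⟩ := (hTmem _).mp h1
        have hyx' : y = x := by
          apply Subtype.ext
          apply Subtype.ext
          exact hyx
        exact hyx' ▸ hy
    · refine { exists_smul_eq := fun c d => ?_, isTrivialBlock_of_isBlock := fun {B} hB => ?_ }
      · obtain ⟨n, hn, hnc⟩ := htr c d
        exact ⟨⟨⟨n, hN'G hn⟩, (hcoe _).mpr hn⟩, hnc⟩
      · apply hprim B
        intro n hn c hc hnc d hd
        obtain ⟨n', hn'⟩ : ∃ n' : N, ((n' : G) : Equiv.Perm α) = n :=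
          ⟨⟨⟨n, hN'G hn⟩, (hcoe _).mpr hn⟩, rfl⟩
        subst hn'
        have h1 := (MulAction.isBlock_iff_smul_eq_of_mem.mp hB) (g := n') (a := c) hc hnc
        have h2 := Set.smul_mem_smul_set (a := n') hd
        rw [h1] at h2
        exact h2

end Cfsg.Agent.S0700
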