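import Cfsg.Statements.S0701
import Mathlib

set_option autoImplicit false
open Cfsg

namespace Cfsg.Agent.S0701

/-- The map sending `h • u` to `h • v`. -/
noncomputable def f {α : Type*} (G : Subgroup (Equiv.Perm α)) [MulAction.IsPretransitive G α]
    (u v : α) (z : α) : α :=
  (Classical.choose (MulAction.exists_smul_eq G u z)) • v

/-- The centraliser in the full symmetric group of a transitive permutation group `G` is semiregular, and it is transitive if and only if `G` is regular. -/
theorem result {α : Type*} (G : Subgroup (Equiv.Perm α)) [MulAction.IsPretransitive G α] : (∀ c ∈ Subgroup.centralizer (G : Set (Equiv.Perm α)), ∀ a : α, c a = a → c = 1) ∧ (MulAction.IsPretransitive (Subgroup.centralizer (G : Set (Equiv.Perm α))) α ↔ ∀ a : α, MulAction.stabilizer G a = ⊥) := by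
  constructor
  · intro c hc a hca
    ext b
    obtain ⟨g, hg⟩ := MulAction.exists_smul_eq G a b
    have h1 : (g : Equiv.Perm α) * c = c * (g : Equiv.Perm α) :=
      Subgroup.mem_centralizer_iff.mp hc g g.2
    have h2 : (g : Equiv.Perm α) a = b := hg
    rw [← h2]
    have h3 := congrArg (fun σ : Equiv.Perm α => σ a) h1
    simp only [Equiv.Perm.coe_mul, Function.comp_apply] at h3
    rw [Equiv.Perm.coe_one, id_eq, ← h3, hca]
  · constructor
    · intro htr a
      rw [eq_bot_iff]
      intro g hg
      rw [Subgroup.mem_bot]
      have hga : (g : Equiv.Perm α) a = a := hg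
      apply Subtype.ext
      ext b
      obtain ⟨c, hc⟩ := MulAction.exists_smul_eq (Subgroup.centralizer (G : Set (Equiv.Perm α))) a b
      have h1 : (g : Equiv.Perm α) * (c : Equiv.Perm α) = (c : Equiv.Perm α) * (g : Equiv.Perm α) :=
        Subgroup.mem_centralizer_iff.mp c.2 g g.2
      have h2 : (c : Equiv.Perm α) a = b := hc
      have h3 := congrArg (fun σ : Equiv.Perm α => σ a) h1
      simp only [Equiv.Perm.coe_mul, Function.comp_apply] at h3
      rw [Subgroup.coe_one, Equiv.Perm.coe_one, id_eq, ← h2, h3, hga]
    · intro hreg
      refine ⟨fun x y => ?_⟩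
      have huniq : ∀ (u : α) (g h : G), g • u = h • u → g = h := by
        intro u g h hgh
        have : h⁻¹ * g ∈ MulAction.stabilizer G u := by
          rw [MulAction.mem_stabilizer_iff, mul_smul, hgh, inv_smul_smul]
        rw [hreg u, Subgroup.mem_bot] at this
        exact (inv_mul_eq_one.mp this).symm
      have hf : ∀ (u v : α) (h : G), f G u v (h • u) = h • v := by
        intro u v h
        unfold f
        have := Classical.choose_spec (MulAction.exists_smul_eq G u (h • u))
        rw [huniq u _ h this]
      have hinv : ∀ (u v : α) (z : α), f G v u (f G u v z) = z := by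
        intro u v z
        obtain ⟨h, rfl⟩ := MulAction.exists_smul_eq G u z
        rw [hf u v h, hf v u h]
      let c : Equiv.Perm α := ⟨f G x y, f G y x, hinv x y, hinv y x⟩
      have hc : c ∈ Subgroup.centralizer (G : Set (Equiv.Perm α)) := by
        rw [Subgroup.mem_centralizer_iff]
        intro g hg
        ext z
        obtain ⟨h, rfl⟩ := MulAction.exists_smul_eq G x z
        show g (f G x y (h • x)) = f G x y (g (h • x))
        have h1 : g (h • x) = ((⟨g, hg⟩ : G) * h) • x := by
          rw [mul_smul]; rfl
        rw [h1, hf x y, hf x y, mul_smul]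
        rfl
      refine ⟨⟨c, hc⟩, ?_⟩
      show f G x y x = y
      have := hf x y 1
      rw [one_smul, one_smul] at this
      exact this

end Cfsg.Agent.S0701
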