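import Cfsg.Statements.S0702
import Mathlib

set_option autoImplicit false
open Cfsg

namespace Cfsg.Agent.S0702

/-- For a transitive permutation group `G` on a finite set, the centraliser of `G` in the symmetric group is isomorphic to `N_G(G_ω)/G_ω`, and its orbit of `ω` is the set of fixed points of `G_ω`. -/
theorem result {α : Type*} [Finite α] (G : Subgroup (Equiv.Perm α)) [MulAction.IsPretransitive G α] (a : α) : Nonempty (Subgroup.centralizer (G : Set (Equiv.Perm α)) ≃* Subgroup.normalizer ((MulAction.stabilizer G a : Subgroup G) : Set G) ⧸ (MulAction.stabilizer G a).subgroupOf (Subgroup.normalizer ((MulAction.stabilizer G a : Subgroup G) : Set G))) ∧ MulAction.orbit (Subgroup.centralizer (G : Set (Equiv.Perm α))) a = MulAction.fixedPoints (MulAction.stabilizer G a) α := by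
  classical
  set S : Subgroup G := MulAction.stabilizer G a with hS
  set N : Subgroup G := Subgroup.normalizer (S : Set G) with hN
  have hmemN : ∀ g : G, (∀ s ∈ S, s • g • a = g • a) → g ∈ N := by
    intro g hg
    have h1 : ∀ s ∈ S, g⁻¹ * s * g ∈ S := by
      intro s hs
      rw [hS, MulAction.mem_stabilizer_iff, mul_smul, mul_smul, hg s hs, inv_smul_smul]
    have hinj : Function.Injective (fun s : S => (⟨g⁻¹ * s * g, h1 s s.2⟩ : S)) := by
      intro s t hst
      have h2 : g⁻¹ * (s : G) * g = g⁻¹ * (t : G) * g := congrArg Subtype.val hst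
      have h3 : (s : G) = t := by
        have := congrArg (fun x => g * x * g⁻¹) h2
        simpa [mul_assoc] using this
      exact Subtype.ext h3
    have hsurj := Finite.surjective_of_injective hinj
    rw [hN, Subgroup.mem_normalizer_iff]
    intro s
    constructor
    · intro hs
      obtain ⟨t, ht⟩ := hsurj ⟨s, hs⟩
      have ht' : g⁻¹ * (t : G) * g = s := congrArg Subtype.val ht
      have h4 : g * s * g⁻¹ = t := by rw [← ht']; group
      rw [h4]; exact t.2
    · intro hs
      have h5 := h1 _ hs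
      have h2 : g⁻¹ * (g * s * g⁻¹) * g = s := by group
      rwa [h2] at h5
  have hwd : ∀ n ∈ N, ∀ g h : G, g • a = h • a → g • n⁻¹ • a = h • n⁻¹ • a := by
    intro n hn g h hgh
    have h1 : h⁻¹ * g ∈ S := by
      rw [hS, MulAction.mem_stabilizer_iff, mul_smul, hgh, inv_smul_smul]
    have h2 : n * (h⁻¹ * g) * n⁻¹ ∈ S := (Subgroup.mem_normalizer_iff.mp hn _).mp h1
    rw [hS, MulAction.mem_stabilizer_iff] at h2
    have h3 : g • n⁻¹ • a = h • n⁻¹ • (n * (h⁻¹ * g) * n⁻¹) • a := by
      simp only [← mul_smul]; congr 1; group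
    rw [h3, h2]
  let ρ : G → α → α := fun n z => (Classical.choose (MulAction.exists_smul_eq G a z)) • n⁻¹ • a
  have hρ : ∀ n ∈ N, ∀ g : G, ρ n (g • a) = g • n⁻¹ • a := by
    intro n hn g
    exact hwd n hn _ _ (Classical.choose_spec (MulAction.exists_smul_eq G a (g • a)))
  have hρcomm : ∀ n ∈ N, ∀ (h : G) (z : α), ρ n (h • z) = h • ρ n z := by
    intro n hn h z
    obtain ⟨g, rfl⟩ := MulAction.exists_smul_eq G a z
    rw [← mul_smul, hρ n hn, hρ n hn, mul_smul]
  have hρmul : ∀ n ∈ N, ∀ m ∈ N, ∀ z, ρ (n * m) z = ρ n (ρ m z) := by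
    intro n hn m hm z
    obtain ⟨g, rfl⟩ := MulAction.exists_smul_eq G a z
    rw [hρ _ (N.mul_mem hn hm), hρ m hm]
    have h7 : g • (m⁻¹ • a) = (g * m⁻¹) • a := (mul_smul _ _ _).symm
    rw [h7, hρ n hn]
    simp only [mul_inv_rev, mul_smul]
  have hρone : ∀ z, ρ 1 z = z := by
    intro z
    obtain ⟨g, rfl⟩ := MulAction.exists_smul_eq G a z
    rw [hρ 1 N.one_mem, inv_one, one_smul]
  let Ψ₀ : N →* Equiv.Perm α :=
    { toFun := fun n => ⟨ρ (n : G), ρ (n : G)⁻¹,
        fun z => by rw [← hρmul _ (N.inv_mem n.2) _ n.2, inv_mul_cancel, hρone],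
        fun z => by rw [← hρmul _ n.2 _ (N.inv_mem n.2), mul_inv_cancel, hρone]⟩
      map_one' := by ext z; exact hρone z
      map_mul' := fun n m => by ext z; exact hρmul n n.2 m m.2 z }
  have hΨC : ∀ n : N, Ψ₀ n ∈ Subgroup.centralizer (G : Set (Equiv.Perm α)) := by
    intro n
    rw [Subgroup.mem_centralizer_iff]
    intro h hh
    ext z
    exact (hρcomm n n.2 ⟨h, hh⟩ z).symm
  let Ψ : N →* Subgroup.centralizer (G : Set (Equiv.Perm α)) := Ψ₀.codRestrict _ hΨC
  have hfix : ∀ c ∈ Subgroup.centralizer (G : Set (Equiv.Perm α)), ∀ s ∈ S, s • c a = c a := by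
    intro c hc s hs
    have h1 := Subgroup.mem_centralizer_iff.mp hc (s : Equiv.Perm α) s.2
    have h2 : s • a = a := hs
    calc s • c a = ((s : Equiv.Perm α) * c) a := rfl
      _ = (c * (s : Equiv.Perm α)) a := by rw [h1]
      _ = c (s • a) := rfl
      _ = c a := by rw [h2]
  have hΨsurj : Function.Surjective Ψ := by
    rintro ⟨c, hc⟩
    obtain ⟨g, hg⟩ := MulAction.exists_smul_eq G a (c a)
    have hgN : g ∈ N := hmemN g (by intro s hs; rw [hg]; exact hfix c hc s hs)
    refine ⟨⟨g⁻¹, N.inv_mem hgN⟩, ?_⟩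
    apply Subtype.ext
    ext z
    obtain ⟨h, rfl⟩ := MulAction.exists_smul_eq G a z
    show ρ g⁻¹ (h • a) = c (h • a)
    rw [hρ _ (N.inv_mem hgN), inv_inv, hg]
    have h1 := Subgroup.mem_centralizer_iff.mp hc (h : Equiv.Perm α) h.2
    exact congrFun (congrArg DFunLike.coe h1) a
  have hker : Ψ.ker = S.subgroupOf N := by
    ext n
    rw [MonoidHom.mem_ker, Subgroup.mem_subgroupOf]
    constructor
    · intro h
      have h1 : ρ n a = a :=
        congrArg (fun c : Subgroup.centralizer (G : Set (Equiv.Perm α)) =>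
          (c : Equiv.Perm α) a) h
      have h2 := hρ n n.2 1
      rw [one_smul, one_smul, h1] at h2
      rw [hS, MulAction.mem_stabilizer_iff]
      rw [eq_inv_smul_iff] at h2
      exact h2
    · intro h
      apply Subtype.ext
      ext z
      obtain ⟨g, rfl⟩ := MulAction.exists_smul_eq G a z
      show ρ n (g • a) = g • a
      rw [hρ n n.2]
      have h3 : (n : G)⁻¹ • a = a := by
        rw [inv_smul_eq_iff]; exact h.symm
      rw [h3]
  constructor
  · exact ⟨((QuotientGroup.quotientMulEquivOfEq hker).symm.trans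
      (QuotientGroup.quotientKerEquivOfSurjective Ψ hΨsurj)).symm⟩
  · ext x
    constructor
    · rintro ⟨c, rfl⟩
      rw [MulAction.mem_fixedPoints]
      intro s
      exact hfix c c.2 s s.2
    · intro hx
      rw [MulAction.mem_fixedPoints] at hx
      obtain ⟨g, rfl⟩ := MulAction.exists_smul_eq G a x
      have hgN : g ∈ N := hmemN g (fun s hs => hx ⟨s, hs⟩)
      refine ⟨Ψ ⟨g⁻¹, N.inv_mem hgN⟩, ?_⟩
      show ρ g⁻¹ a = g • a
      have h6 := hρ g⁻¹ (N.inv_mem hgN) 1
      rwa [one_smul, one_smul, inv_inv] at h6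

end Cfsg.Agent.S0702
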