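import Cfsg.Statements.S0703
import Cfsg.Agent.Lib.Helper6.PermCent

set_option autoImplicit false
open Cfsg

namespace Cfsg.Agent.S0703

open Equiv

theorem trans_map {α : Type*} (G : Subgroup (Perm α)) (M : Subgroup G)
    (hMt : MulAction.IsPretransitive M α) :
    ∀ a b : α, ∃ k ∈ M.map G.subtype, k a = b := by
  intro a b
  obtain ⟨m, hm⟩ := MulAction.exists_smul_eq M a b
  exact ⟨((m : G) : Perm α), ⟨(m : G), m.2, rfl⟩, hm⟩

theorem disjoint_of_min {G : Type*} [Group G] (M L : Subgroup G) [M.Normal] [L.Normal]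
    (hMmin : ∀ K : Subgroup G, K.Normal → K ≤ M → K = ⊥ ∨ K = M)
    (hLmin : ∀ K : Subgroup G, K.Normal → K ≤ L → K = ⊥ ∨ K = L) (hne : L ≠ M) :
    M ⊓ L = ⊥ := by
  rcases hMmin (M ⊓ L) inferInstance inf_le_left with h | h
  · exact h
  · have hML : M ≤ L := by rw [← h]; exact inf_le_right
    rcases hLmin M inferInstance hML with h2 | h2
    · rw [h2]; exact bot_inf_eq L
    · exact absurd h2.symm hne

/-- A finite abelian minimal normal subgroup has prime exponent. -/
theorem exists_prime_exponent {G : Type*} [Group G] [Finite G] (M : Subgroup G) [M.Normal]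
    (hM : M ≠ ⊥) (hmin : ∀ L : Subgroup G, L.Normal → L ≤ M → L = ⊥ ∨ L = M)
    (hab : IsMulCommutative M) : ∃ p : ℕ, p.Prime ∧ ∀ m ∈ M, m ^ p = 1 := by
  have hcard : Nat.card M ≠ 1 := by
    intro h1
    exact hM (Subgroup.card_eq_one.mp h1)
  obtain ⟨p, hp, hpd⟩ := Nat.exists_prime_and_dvd hcard
  have : Fact p.Prime := ⟨hp⟩
  obtain ⟨x, hx⟩ := exists_prime_orderOf_dvd_card' (G := M) p hpd
  let L : Subgroup G :=
    { carrier := {m | m ∈ M ∧ m ^ p = 1}
      one_mem' := ⟨one_mem _, one_pow _⟩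
      mul_mem' := by
        rintro a b ⟨ha, hap⟩ ⟨hb, hbp⟩
        refine ⟨mul_mem ha hb, ?_⟩
        have hc : Commute a b := setLike_mul_comm ha hb
        rw [hc.mul_pow, hap, hbp, one_mul]
      inv_mem' := by
        rintro a ⟨ha, hap⟩
        exact ⟨inv_mem ha, by rw [inv_pow, hap, inv_one]⟩ }
  have hLn : L.Normal := by
    constructor
    rintro n ⟨hn, hnp⟩ g
    refine ⟨Subgroup.Normal.conj_mem inferInstance n hn g, ?_⟩
    rw [conj_pow, hnp, mul_one, mul_inv_cancel]
  have hLM : L ≤ M := fun m hm => hm.1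
  have hLne : L ≠ ⊥ := by
    intro hb
    have hxL : (x : G) ∈ L := by
      refine ⟨x.2, ?_⟩
      rw [← Subgroup.coe_pow, ← hx, pow_orderOf_eq_one]
      rfl
    rw [hb, Subgroup.mem_bot] at hxL
    have hx1 : x = 1 := Subtype.ext hxL
    rw [hx1, orderOf_one] at hx
    exact hp.one_lt.ne hx
  rcases hmin L hLn hLM with h | h
  · exact absurd h hLne
  · refine ⟨p, hp, fun m hm => ?_⟩
    have : m ∈ L := by rw [h]; exact hm
    exact this.2

/-- An abelian transitive minimal normal subgroup `M` of a permutation group on a finite set is self-centralising in the symmetric group, regular, elementary abelian, and is the unique minimal normal subgroup. -/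
theorem result {α : Type*} [Finite α] (G : Subgroup (Equiv.Perm α)) (M : Subgroup G) [M.Normal] (hM : M ≠ ⊥) (hmin : ∀ L : Subgroup G, L.Normal → L ≤ M → L = ⊥ ∨ L = M) (hab : IsMulCommutative M) (htrans : MulAction.IsPretransitive M α) : Subgroup.centralizer ((M.map G.subtype : Subgroup (Equiv.Perm α)) : Set (Equiv.Perm α)) = M.map G.subtype ∧ (∀ a : α, MulAction.stabilizer M a = ⊥) ∧ (∃ p : ℕ, p.Prime ∧ ∀ m ∈ M, m ^ p = 1) ∧ ∀ L : Subgroup G, L.Normal → L ≠ ⊥ → (∀ L' : Subgroup G, L'.Normal → L' ≤ L → L' = ⊥ ∨ L' = L) → L = M := by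
  have hcommG : ∀ m ∈ M, ∀ n ∈ M, m * n = n * m := fun m hm n hn => setLike_mul_comm hm hn
  have hM' := trans_map G M htrans
  have hcomm : ∀ m ∈ M.map G.subtype, ∀ n ∈ M.map G.subtype, m * n = n * m := by
    rintro _ ⟨m, hm, rfl⟩ _ ⟨n, hn, rfl⟩
    have := congrArg G.subtype (hcommG m hm n hn)
    simpa using this
  have hCM := Cfsg.Agent.Lib.Helper6.centralizer_eq_of_transitive_of_commute _ _ hM' hM' hcomm
  have hinj : Function.Injective G.subtype := G.subtype_injective
  have hGfin : Finite G := Finite.of_injective _ hinj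
  refine ⟨hCM, ?_, exists_prime_exponent M hM hmin hab, ?_⟩
  · intro a
    rw [eq_bot_iff]
    intro m hm
    rw [Subgroup.mem_bot]
    have h1 : ((m : G) : Perm α) = 1 :=
      Cfsg.Agent.Lib.Helper6.semiregular_of_transitive_of_commute _ _ hM' hcomm _
        ⟨(m : G), m.2, rfl⟩ a hm
    apply Subtype.ext
    apply Subtype.ext
    exact h1
  · intro L hLn hL hLmin
    by_contra hcon
    have hd : M ⊓ L = ⊥ := disjoint_of_min M L hmin hLmin hcon
    have hc : ∀ m ∈ M, ∀ l ∈ L, m * l = l * m := fun m hm l hl =>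
      (Subgroup.commute_of_normal_of_disjoint M L inferInstance inferInstance
        (disjoint_iff.mpr hd) m l hm hl).eq
    have h1 : L.map G.subtype ≤ M.map G.subtype := by
      rw [← hCM]
      rintro _ ⟨l, hl, rfl⟩
      rw [Subgroup.mem_centralizer_iff]
      rintro _ ⟨m, hm, rfl⟩
      have := congrArg G.subtype (hc m hm l hl)
      simpa using this
    have h2 : L ≤ M := (Subgroup.map_le_map_iff_of_injective hinj).mp h1
    rcases hmin L hLn h2 with h3 | h3
    · exact hL h3
    · exact hcon h3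

end Cfsg.Agent.S0703
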