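import Cfsg.Statements.S0704
import Cfsg.Agent.Lib.Helper6.PermCent

set_option autoImplicit false
open Cfsg

namespace Cfsg.Agent.S0704

open Equiv

theorem trans_map {α : Type*} (G : Subgroup (Perm α)) (M : Subgroup G)
    (hMt : MulAction.IsPretransitive M α) :
    ∀ a b : α, ∃ k ∈ M.map G.subtype, k a = b := by
  intro a b
  obtain ⟨m, hm⟩ := MulAction.exists_smul_eq M a b
  exact ⟨((m : G) : Perm α), ⟨(m : G), m.2, rfl⟩, hm⟩

theorem disjoint_of_min {G : Type*} [Group G] (M L : Subgroup G) [M.Normal] [L.Normal]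
    (hMmin : ∀ K : Subgroup G, K.Normal → K ≤ M → K = ⊥ ∨ K = M)
    (hLmin : ∀ K : Subgroup G, K.Normal → K ≤ L → K = ⊥ ∨ K = L) (hne : L ≠ M) :
    M ⊓ L = ⊥ := by
  rcases hMmin (M ⊓ L) inferInstance inf_le_left with h | h
  · exact h
  · have hML : M ≤ L := by rw [← h]; exact inf_le_right
    rcases hLmin M inferInstance hML with h2 | h2
    · rw [h2]; exact bot_inf_eq L
    · exact absurd h2.symm hne

/-- Two distinct transitive minimal normal subgroups `M`, `N` of a permutation group are regular, non-abelian, isomorphic, each other's centraliser in the symmetric group, and the only minimal normal subgroups. -/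
theorem result {α : Type*} (G : Subgroup (Equiv.Perm α)) (M N : Subgroup G) [M.Normal] [N.Normal] (hM : M ≠ ⊥) (hN : N ≠ ⊥) (hMmin : ∀ L : Subgroup G, L.Normal → L ≤ M → L = ⊥ ∨ L = M) (hNmin : ∀ L : Subgroup G, L.Normal → L ≤ N → L = ⊥ ∨ L = N) (hMN : M ≠ N) (hMt : MulAction.IsPretransitive M α) (hNt : MulAction.IsPretransitive N α) : (∀ a : α, MulAction.stabilizer M a = ⊥) ∧ (∀ a : α, MulAction.stabilizer N a = ⊥) ∧ ¬ IsMulCommutative M ∧ Nonempty (M ≃* N) ∧ Subgroup.centralizer ((M.map G.subtype : Subgroup (Equiv.Perm α)) : Set (Equiv.Perm α)) = N.map G.subtype ∧ Subgroup.centralizer ((N.map G.subtype : Subgroup (Equiv.Perm α)) : Set (Equiv.Perm α)) = M.map G.subtype ∧ ∀ L : Subgroup G, L.Normal → L ≠ ⊥ → (∀ L' : Subgroup G, L'.Normal → L' ≤ L → L' = ⊥ ∨ L' = L) → L = M ∨ L = N := by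
  have hdisj : M ⊓ N = ⊥ := disjoint_of_min M N hMmin hNmin hMN.symm
  have hcommG : ∀ m ∈ M, ∀ n ∈ N, m * n = n * m := fun m hm n hn =>
    (Subgroup.commute_of_normal_of_disjoint M N inferInstance inferInstance
      (disjoint_iff.mpr hdisj) m n hm hn).eq
  have hM' := trans_map G M hMt
  have hN' := trans_map G N hNt
  have hcomm : ∀ m ∈ M.map G.subtype, ∀ n ∈ N.map G.subtype, m * n = n * m := by
    rintro _ ⟨m, hm, rfl⟩ _ ⟨n, hn, rfl⟩
    have := congrArg G.subtype (hcommG m hm n hn)
    simpa using this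
  have hcomm' : ∀ n ∈ N.map G.subtype, ∀ m ∈ M.map G.subtype, n * m = m * n :=
    fun n hn m hm => (hcomm m hm n hn).symm
  have hCM := Cfsg.Agent.Lib.Helper6.centralizer_eq_of_transitive_of_commute _ _ hM' hN' hcomm
  have hCN := Cfsg.Agent.Lib.Helper6.centralizer_eq_of_transitive_of_commute _ _ hN' hM' hcomm'
  have hMreg : ∀ a : α, MulAction.stabilizer M a = ⊥ := by
    intro a
    rw [eq_bot_iff]
    intro m hm
    rw [Subgroup.mem_bot]
    have h1 : ((m : G) : Perm α) = 1 :=
      Cfsg.Agent.Lib.Helper6.semiregular_of_transitive_of_commute _ _ hN' hcomm' _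
        ⟨(m : G), m.2, rfl⟩ a hm
    apply Subtype.ext
    apply Subtype.ext
    exact h1
  have hNreg : ∀ a : α, MulAction.stabilizer N a = ⊥ := by
    intro a
    rw [eq_bot_iff]
    intro n hn
    rw [Subgroup.mem_bot]
    have h1 : ((n : G) : Perm α) = 1 :=
      Cfsg.Agent.Lib.Helper6.semiregular_of_transitive_of_commute _ _ hM' hcomm _
        ⟨(n : G), n.2, rfl⟩ a hn
    apply Subtype.ext
    apply Subtype.ext
    exact h1
  have hinj : Function.Injective G.subtype := G.subtype_injective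
  refine ⟨hMreg, hNreg, ?_, ?_, hCM, hCN, ?_⟩
  · intro hab
    have h1 : M.map G.subtype ≤ N.map G.subtype := by
      rw [← hCM]
      rintro _ ⟨m, hm, rfl⟩
      rw [Subgroup.mem_centralizer_iff]
      rintro _ ⟨m', hm', rfl⟩
      have := congrArg G.subtype (setLike_mul_comm hm' hm)
      simpa using this
    have h2 : M ≤ N := (Subgroup.map_le_map_iff_of_injective hinj).mp h1
    rw [inf_eq_left.mpr h2] at hdisj
    exact hM hdisj
  · obtain ⟨e⟩ := Cfsg.Agent.Lib.Helper6.nonempty_mulEquiv_of_transitive_of_commute _ _ hM' hN' hcomm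
    exact ⟨((M.equivMapOfInjective G.subtype hinj).trans e).trans
      (N.equivMapOfInjective G.subtype hinj).symm⟩
  · intro L hLn hL hLmin
    by_contra hcon
    push Not at hcon
    have hd : M ⊓ L = ⊥ := disjoint_of_min M L hMmin hLmin hcon.1
    have hc : ∀ m ∈ M, ∀ l ∈ L, m * l = l * m := fun m hm l hl =>
      (Subgroup.commute_of_normal_of_disjoint M L inferInstance inferInstance
        (disjoint_iff.mpr hd) m l hm hl).eq
    have h1 : L.map G.subtype ≤ N.map G.subtype := by
      rw [← hCM]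
      rintro _ ⟨l, hl, rfl⟩
      rw [Subgroup.mem_centralizer_iff]
      rintro _ ⟨m, hm, rfl⟩
      have := congrArg G.subtype (hc m hm l hl)
      simpa using this
    have h2 : L ≤ N := (Subgroup.map_le_map_iff_of_injective hinj).mp h1
    rcases hNmin L hLn h2 with h3 | h3
    · exact hL h3
    · exact hcon.2 h3

end Cfsg.Agent.S0704
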