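import Cfsg.Statements.S0705
import Mathlib

set_option autoImplicit false
open scoped Pointwise
open Cfsg

namespace Cfsg.Agent.S0705

/-- A generously `k`-transitive permutation group (every `(k+1)`-subset has its full symmetric group induced by the setwise stabiliser) of degree greater than `k` is `k`-transitive, and for a `k`-subset the setwise and pointwise stabilisers have the same orbits outside it. -/
theorem result {α : Type*} [Fintype α] [DecidableEq α] (G : Subgroup (Equiv.Perm α)) {k : ℕ} (hk : k < Fintype.card α) (hgen : ∀ s : Finset α, s.card = k + 1 → ∀ σ : Equiv.Perm ↥s, ∃ g ∈ G, ∀ x : ↥s, g (x : α) = σ x) : MulAction.IsMultiplyPretransitive G α k ∧ ∀ s : Finset α, s.card = k → ∀ a b : α, a ∉ s → b ∉ s → (∃ g ∈ G, g • s = s ∧ g a = b) → ∃ g ∈ G, (∀ x ∈ s, g x = x) ∧ g a = b := by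
  classical
  have hmove : ∀ (x : Fin k → α) (u v : α),
      (insert u (insert v (Finset.univ.image x))).card ≤ k + 1 →
      ∃ g ∈ G, ∀ l, g (x l) = Equiv.swap u v (x l) := by
    intro x u v hcard
    obtain ⟨s, hTs, -, hs⟩ := Finset.exists_subsuperset_card_eq
      (Finset.subset_univ (insert u (insert v (Finset.univ.image x)))) hcard
      (by rw [Finset.card_univ]; omega)
    have hu : u ∈ s := hTs (Finset.mem_insert_self _ _)
    have hv : v ∈ s := hTs (Finset.mem_insert_of_mem (Finset.mem_insert_self _ _))
    have hxs : ∀ l, x l ∈ s := fun l => hTs (Finset.mem_insert_of_mem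
      (Finset.mem_insert_of_mem (Finset.mem_image_of_mem x (Finset.mem_univ l))))
    have hpres : ∀ y, Equiv.swap u v y ∈ s ↔ y ∈ s := by
      intro y
      by_cases hyu : y = u
      · rw [hyu, Equiv.swap_apply_left]; exact ⟨fun _ => hu, fun _ => hv⟩
      by_cases hyv : y = v
      · rw [hyv, Equiv.swap_apply_right]; exact ⟨fun _ => hv, fun _ => hu⟩
      rw [Equiv.swap_apply_of_ne_of_ne hyu hyv]
    obtain ⟨g, hg, hgs⟩ := hgen s hs ((Equiv.swap u v).subtypePerm hpres)
    refine ⟨g, hg, fun l => ?_⟩
    have := hgs ⟨x l, hxs l⟩
    rw [this]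
    rfl
  have hind : ∀ n : ℕ, ∀ x y : Fin k → α, Function.Injective x → Function.Injective y →
      (Finset.univ.filter (fun l => x l ≠ y l)).card ≤ n → ∃ g ∈ G, ∀ l, g (x l) = y l := by
    intro n
    induction n with
    | zero =>
      intro x y hx hy hc
      refine ⟨1, G.one_mem, fun l => ?_⟩
      have h0 : Finset.univ.filter (fun l => x l ≠ y l) = ∅ := Finset.card_eq_zero.mp (by omega)
      by_contra hne
      have : l ∈ Finset.univ.filter (fun l => x l ≠ y l) := by
        rw [Finset.mem_filter]; exact ⟨Finset.mem_univ l, hne⟩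
      rw [h0] at this
      exact Finset.notMem_empty l this
    | succ n ih =>
      intro x y hx hy hc
      by_cases hxy : ∀ l, x l = y l
      · exact ⟨1, G.one_mem, fun l => hxy l⟩
      push Not at hxy
      obtain ⟨i, hi⟩ := hxy
      have hcard : (insert (x i) (insert (y i) (Finset.univ.image x))).card ≤ k + 1 := by
        have h1 : insert (x i) (insert (y i) (Finset.univ.image x)) =
            insert (y i) (Finset.univ.image x) := by
          apply Finset.insert_eq_of_mem
          exact Finset.mem_insert_of_mem (Finset.mem_image_of_mem x (Finset.mem_univ i))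
        rw [h1]
        refine (Finset.card_insert_le _ _).trans ?_
        have h2 : (Finset.univ.image x).card ≤ k := by
          refine Finset.card_image_le.trans ?_
          rw [Finset.card_univ, Fintype.card_fin]
        omega
      obtain ⟨g₁, hg₁, hg₁x⟩ := hmove x (x i) (y i) hcard
      have hx' : Function.Injective (fun l => Equiv.swap (x i) (y i) (x l)) :=
        (Equiv.swap (x i) (y i)).injective.comp hx
      have hsub : Finset.univ.filter (fun l => Equiv.swap (x i) (y i) (x l) ≠ y l) ⊆
          (Finset.univ.filter (fun l => x l ≠ y l)).erase i := by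
        intro l hl
        rw [Finset.mem_filter] at hl
        rw [Finset.mem_erase, Finset.mem_filter]
        have hli : l ≠ i := by
          rintro rfl
          exact hl.2 (Equiv.swap_apply_left _ _)
        refine ⟨hli, Finset.mem_univ l, ?_⟩
        intro hxl
        apply hl.2
        have h3 : x l ≠ x i := fun h => hli (hx h)
        have h4 : x l ≠ y i := by rw [hxl]; exact fun h => hli (hy h)
        rw [Equiv.swap_apply_of_ne_of_ne h3 h4, hxl]
      have hc' : (Finset.univ.filter (fun l => Equiv.swap (x i) (y i) (x l) ≠ y l)).card ≤ n := by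
        have h5 := Finset.card_le_card hsub
        have h6 : i ∈ Finset.univ.filter (fun l => x l ≠ y l) := by
          rw [Finset.mem_filter]; exact ⟨Finset.mem_univ i, hi⟩
        rw [Finset.card_erase_of_mem h6] at h5
        omega
      obtain ⟨g₂, hg₂, hg₂x⟩ := ih _ y hx' hy hc'
      refine ⟨g₂ * g₁, G.mul_mem hg₂ hg₁, fun l => ?_⟩
      rw [Equiv.Perm.mul_apply, hg₁x l]
      exact hg₂x l
  constructor
  · refine ⟨fun x y => ?_⟩
    obtain ⟨g, hg, hgx⟩ := hind _ x y x.injective y.injective le_rfl
    refine ⟨⟨g, hg⟩, ?_⟩
    ext l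
    exact hgx l
  · intro s hs a b ha hb hex
    obtain ⟨g, hg, hgs, hgab⟩ := hex
    have hmem : ∀ x, x ∈ s ↔ g x ∈ s := by
      intro x
      constructor
      · intro hx
        have : g • x ∈ g • s := Finset.smul_mem_smul_finset hx
        rw [hgs] at this
        exact this
      · intro hx
        rw [← hgs] at hx
        obtain ⟨y, hy, hyx⟩ := Finset.mem_smul_finset.mp hx
        have : y = x := g.injective hyx
        rw [← this]; exact hy
    -- the permutation swap a b * g⁻¹ restricted to insert b s
    have hcard : (insert b s).card = k + 1 := by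
      rw [Finset.card_insert_of_notMem hb, hs]
    have hpres : ∀ y, (Equiv.swap a b * g⁻¹) y ∈ insert b s ↔ y ∈ insert b s := by
      intro y
      rw [Equiv.Perm.mul_apply]
      by_cases hyb : y = b
      · have h1 : g⁻¹ y = a := by
          rw [hyb, ← hgab]; exact g.symm_apply_apply a
        rw [h1, Equiv.swap_apply_left, hyb]
      · have hya : g⁻¹ y ≠ a := by
          intro h
          apply hyb
          rw [← hgab, ← h]
          exact (g.apply_symm_apply y).symm
        constructor
        · intro h
          rw [Finset.mem_insert] at h ⊢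
          right
          rcases h with h | h
          · exfalso
            by_cases hyb' : g⁻¹ y = b
            · rw [hyb', Equiv.swap_apply_right] at h
              exact hya (hyb'.trans h.symm)
            · rw [Equiv.swap_apply_of_ne_of_ne hya hyb'] at h
              exact hyb' h
          · by_cases hyb' : g⁻¹ y = b
            · rw [hyb', Equiv.swap_apply_right] at h
              exact absurd h ha
            · rw [Equiv.swap_apply_of_ne_of_ne hya hyb'] at h
              have h2 := (hmem (g⁻¹ y)).mp h
              have h3 : g (g⁻¹ y) = y := g.apply_symm_apply y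
              rwa [h3] at h2
        · intro h
          rw [Finset.mem_insert] at h ⊢
          rcases h with h | h
          · exact absurd h hyb
          · right
            have h3 : g (g⁻¹ y) = y := g.apply_symm_apply y
            have h4 : g⁻¹ y ∈ s := (hmem _).mpr (by rw [h3]; exact h)
            have hyb' : g⁻¹ y ≠ b := fun h5 => hb (h5 ▸ h4)
            rw [Equiv.swap_apply_of_ne_of_ne hya hyb']
            exact h4
    obtain ⟨h, hh, hhs⟩ := hgen (insert b s) hcard ((Equiv.swap a b * g⁻¹).subtypePerm hpres)
    refine ⟨h * g, G.mul_mem hh hg, ?_, ?_⟩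
    · intro x hx
      rw [Equiv.Perm.mul_apply]
      have hgx : g x ∈ insert b s := Finset.mem_insert_of_mem ((hmem x).mp hx)
      have h1 := hhs ⟨g x, hgx⟩
      have h2 : h (g x) = (Equiv.swap a b * g⁻¹) (g x) := h1
      rw [h2, Equiv.Perm.mul_apply]
      have h3 : g⁻¹ (g x) = x := g.symm_apply_apply x
      rw [h3]
      exact Equiv.swap_apply_of_ne_of_ne (fun h => ha (h ▸ hx)) (fun h => hb (h ▸ hx))
    · rw [Equiv.Perm.mul_apply, hgab]
      have h1 := hhs ⟨b, Finset.mem_insert_self b s⟩
      have h2 : h b = (Equiv.swap a b * g⁻¹) b := h1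
      rw [h2, Equiv.Perm.mul_apply]
      have h3 : g⁻¹ b = a := by rw [← hgab]; exact g.symm_apply_apply a
      rw [h3, Equiv.swap_apply_left]

end Cfsg.Agent.S0705
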