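import Cfsg.Statements.S0706
import Mathlib

set_option autoImplicit false
open Cfsg

namespace Cfsg.Agent.S0706

section

variable {α : Type*} [Fintype α] [DecidableEq α]

lemma mem_iff_of_maps (g : Equiv.Perm α) (A B : Finset α) (hc : A.card = B.card)
    (h : ∀ x ∈ A, g x ∈ B) : ∀ x, g x ∈ B ↔ x ∈ A := by
  have himg : A.image g = B := by
    apply Finset.eq_of_subset_of_card_le
    · intro y hy
      obtain ⟨x, hx, rfl⟩ := Finset.mem_image.mp hy
      exact h x hx
    · rw [Finset.card_image_of_injective _ g.injective, hc]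
  intro x
  rw [← himg, Finset.mem_image]
  constructor
  · rintro ⟨a, ha, hax⟩
    rw [← g.injective hax]
    exact ha
  · intro hx
    exact ⟨x, hx, rfl⟩

lemma gen_perm (G : Subgroup (Equiv.Perm α)) {k : ℕ}
    (hgen : ∀ s : Finset α, s.card = k + 1 → ∀ σ : Equiv.Perm ↥s,
      ∃ g ∈ G, ∀ x : ↥s, g (x : α) = σ x)
    (s : Finset α) (hs : s.card = k + 1) (τ : Equiv.Perm α) (hτ : ∀ x, τ x ∈ s ↔ x ∈ s) :
    ∃ g ∈ G, ∀ x ∈ s, g x = τ x := by
  obtain ⟨g, hg, h⟩ := hgen s hs (τ.subtypePerm hτ)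
  refine ⟨g, hg, fun x hx => ?_⟩
  have := h ⟨x, hx⟩
  simpa using this

lemma swap_mem_iff (s : Finset α) {a b : α} (ha : a ∈ s) (hb : b ∈ s) (x : α) :
    Equiv.swap a b x ∈ s ↔ x ∈ s := by
  by_cases h1 : x = a
  · rw [h1, Equiv.swap_apply_left]
    exact iff_of_true hb ha
  · by_cases h2 : x = b
    · rw [h2, Equiv.swap_apply_right]
      exact iff_of_true ha hb
    · rw [Equiv.swap_apply_of_ne_of_ne h1 h2]

lemma homog (G : Subgroup (Equiv.Perm α)) {k : ℕ}
    (hgen : ∀ s : Finset α, s.card = k + 1 → ∀ σ : Equiv.Perm ↥s,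
      ∃ g ∈ G, ∀ x : ↥s, g (x : α) = σ x) :
    ∀ (n : ℕ) (A B : Finset α), A.card = k → B.card = k → (A \ B).card = n →
      ∃ g ∈ G, ∀ x ∈ A, g x ∈ B := by
  intro n
  induction n with
  | zero =>
    intro A B hA hB h0
    refine ⟨1, G.one_mem, fun x hx => ?_⟩
    have h1 : A \ B = ∅ := Finset.card_eq_zero.mp h0
    have hsub : A ⊆ B := Finset.sdiff_eq_empty_iff_subset.mp h1
    exact hsub hx
  | succ n ih =>
    intro A B hA hB hn
    have hne : (A \ B).Nonempty := Finset.card_pos.mp (by omega)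
    obtain ⟨a, ha⟩ := hne
    rw [Finset.mem_sdiff] at ha
    have hBA : (B \ A).card = n + 1 := by
      have h1 := Finset.card_sdiff_add_card_inter A B
      have h2 := Finset.card_sdiff_add_card_inter B A
      rw [Finset.inter_comm] at h2
      omega
    obtain ⟨b, hb⟩ : (B \ A).Nonempty := Finset.card_pos.mp (by omega)
    rw [Finset.mem_sdiff] at hb
    have hab : a ≠ b := fun h => ha.2 (h ▸ hb.1)
    have hs : (insert b A).card = k + 1 := by rw [Finset.card_insert_of_notMem hb.2, hA]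
    obtain ⟨g, hg, hgs⟩ := gen_perm G hgen (insert b A) hs (Equiv.swap a b)
      (swap_mem_iff _ (Finset.mem_insert_of_mem ha.1) (Finset.mem_insert_self _ _))
    have hkpos : 0 < k := by
      rw [← hA]
      exact Finset.card_pos.mpr ⟨a, ha.1⟩
    have hA' : (insert b (A.erase a)).card = k := by
      rw [Finset.card_insert_of_notMem (fun h => hb.2 (Finset.mem_of_mem_erase h)),
        Finset.card_erase_of_mem ha.1, hA]
      omega
    have hA'B : ((insert b (A.erase a)) \ B).card = n := by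
      have h1 : (insert b (A.erase a)) \ B = (A \ B).erase a := by
        ext x
        simp only [Finset.mem_sdiff, Finset.mem_insert, Finset.mem_erase]
        constructor
        · rintro ⟨h1 | h1, h2⟩
          · exact absurd (h1 ▸ hb.1) h2
          · exact ⟨h1.1, h1.2, h2⟩
        · rintro ⟨h1, h2, h3⟩
          exact ⟨Or.inr ⟨h1, h2⟩, h3⟩
      rw [h1, Finset.card_erase_of_mem (Finset.mem_sdiff.mpr ha), hn]
      rfl
    obtain ⟨g', hg', hg's⟩ := ih _ B hA' hB hA'B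
    refine ⟨g' * g, G.mul_mem hg' hg, fun x hx => ?_⟩
    rw [Equiv.Perm.mul_apply]
    apply hg's
    rw [hgs x (Finset.mem_insert_of_mem hx)]
    by_cases hxa : x = a
    · rw [hxa, Equiv.swap_apply_left]
      exact Finset.mem_insert_self _ _
    · have hxb : x ≠ b := fun h => hb.2 (h ▸ hx)
      rw [Equiv.swap_apply_of_ne_of_ne hxa hxb]
      exact Finset.mem_insert_of_mem (Finset.mem_erase.mpr ⟨hxa, hx⟩)


theorem fixed_point_of_pgroup {p : ℕ} [Fact p.Prime] {H : Type*} [Group H] [Finite H]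
    (hH : IsPGroup p H) {β : Type*} [Finite β] [MulAction H β] (S : Set β)
    (hS : ∀ (h : H) (x : β), x ∈ S → h • x ∈ S) (hcard : ¬ p ∣ Nat.card S) :
    ∃ x ∈ S, ∀ h : H, h • x = x := by
  let Δ : SubMulAction H β := { carrier := S, smul_mem' := fun h x hx => hS h x hx }
  have hc : ¬ p ∣ Nat.card Δ := hcard
  obtain ⟨⟨δ, hδ⟩, hfix⟩ := hH.nonempty_fixed_point_of_prime_not_dvd_card Δ hc
  exact ⟨δ, hδ, fun h => congrArg Subtype.val (hfix h)⟩

end

/-- In a generously `k`-transitive permutation group, for a prime `p ≤ k` and a `k`-set `Γ`, there are no `p` points outside `Γ` lying in distinct orbits of the pointwise stabiliser of `Γ` all of length prime to `p` (at most `p - 1` such orbits). -/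
theorem result {α : Type*} [Fintype α] [DecidableEq α] (G : Subgroup (Equiv.Perm α)) {k : ℕ} (hk : k < Fintype.card α) (hgen : ∀ s : Finset α, s.card = k + 1 → ∀ σ : Equiv.Perm ↥s, ∃ g ∈ G, ∀ x : ↥s, g (x : α) = σ x) {p : ℕ} (hp : p.Prime) (hpk : p ≤ k) (Γ : Finset α) (hΓ : Γ.card = k) (f : Fin p → α) (hf : ∀ i, f i ∉ Γ) (hdist : ∀ i j, i ≠ j → f j ∉ MulAction.orbit (fixingSubgroup G (Γ : Set α)) (f i)) : ∃ i, p ∣ Nat.card (MulAction.orbit (fixingSubgroup G (Γ : Set α)) (f i)) := by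
  classical
  have : Fact p.Prime := ⟨hp⟩
  by_contra hcon
  push Not at hcon
  have hsm : ∀ (g : G) (x : α), g • x = (g : Equiv.Perm α) x := fun g x => rfl
  have hyy : ∀ (y : Equiv.Perm α) (x : α), y (y⁻¹ x) = x := fun y x => by
    rw [← Equiv.Perm.mul_apply, mul_inv_cancel, Equiv.Perm.one_apply]
  have hyy' : ∀ (y : Equiv.Perm α) (x : α), y⁻¹ (y x) = x := fun y x => by
    rw [← Equiv.Perm.mul_apply, inv_mul_cancel, Equiv.Perm.one_apply]
  have hKmem : ∀ g : G, g ∈ fixingSubgroup G (Γ : Set α) ↔ ∀ x ∈ Γ, g • x = x := by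
    intro g
    rw [mem_fixingSubgroup_iff]
    simp
  have horbΓ : ∀ i, ∀ x ∈ MulAction.orbit (fixingSubgroup G (Γ : Set α)) (f i), x ∉ Γ := by
    intro i x hx hxΓ
    obtain ⟨c, rfl⟩ := MulAction.mem_orbit_iff.mp hx
    have h1 : (c : G) • (c • f i) = c • f i := (hKmem c).mp c.2 _ hxΓ
    have h2 : c • f i = f i := smul_left_cancel (c : G) h1
    exact hf i (h2 ▸ hxΓ)
  obtain ⟨δ₀, hδ₀⟩ : ∃ δ₀, δ₀ ∉ Γ := by
    by_contra h
    push Not at h
    have h1 : Γ = Finset.univ := Finset.eq_univ_iff_forall.mpr h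
    rw [h1, Finset.card_univ] at hΓ
    omega
  obtain ⟨Θ, hΘΓ, hΘc⟩ := Finset.exists_subset_card_eq (hΓ ▸ hpk)
  -- elements preserving `Γ` preserve the orbits of the pointwise stabilizer
  have hA : ∀ y : G, (∀ x, y • x ∈ Γ ↔ x ∈ Γ) → ∀ δ, δ ∉ Γ →
      ∃ c ∈ fixingSubgroup G (Γ : Set α), c • δ = y • δ := by
    intro y hy δ hδ
    have hyδ : y • δ ∉ Γ := fun h => hδ ((hy δ).mp h)
    have hs : (insert (y • δ) Γ).card = k + 1 := by
      rw [Finset.card_insert_of_notMem hyδ, hΓ]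
    have hyinv : ∀ x, (y : Equiv.Perm α)⁻¹ x ∈ Γ ↔ x ∈ Γ := by
      intro x
      have h1 := hy ((y : Equiv.Perm α)⁻¹ x)
      rw [hsm, hyy] at h1
      exact h1.symm
    obtain ⟨τ, hτdef⟩ : ∃ τ : Equiv.Perm α,
        τ = Equiv.Perm.ofSubtype ((y : Equiv.Perm α)⁻¹.subtypePerm hyinv) := ⟨_, rfl⟩
    have hτin : ∀ x ∈ Γ, τ x = (y : Equiv.Perm α)⁻¹ x := by
      intro x hx
      rw [hτdef, Equiv.Perm.ofSubtype_apply_of_mem _ hx]
      rfl
    have hτout : ∀ x, x ∉ Γ → τ x = x := by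
      intro x hx
      rw [hτdef]
      exact Equiv.Perm.ofSubtype_apply_of_not_mem _ hx
    obtain ⟨g, hg, hgs⟩ := gen_perm G hgen _ hs τ (by
      intro x
      by_cases hx : x ∈ Γ
      · rw [hτin x hx]
        exact iff_of_true (Finset.mem_insert_of_mem ((hyinv x).mpr hx))
          (Finset.mem_insert_of_mem hx)
      · rw [hτout x hx])
    refine ⟨⟨g, hg⟩ * y, ?_, ?_⟩
    · rw [hKmem]
      intro x hx
      rw [mul_smul]
      have hyx : y • x ∈ Γ := (hy x).mpr hx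
      show g (y • x) = x
      rw [hgs _ (Finset.mem_insert_of_mem hyx), hτin _ hyx, hsm, hyy']
    · rw [mul_smul]
      show g (y • δ) = y • δ
      rw [hgs _ (Finset.mem_insert_self _ _), hτout _ hyδ]
  -- the subgroup `M`
  let M : Subgroup G :=
    { carrier := {g | (∀ x ∈ Γ \ Θ, g • x = x) ∧ ∀ x, g • x ∈ Θ ↔ x ∈ Θ}
      mul_mem' := by
        rintro a b ⟨ha1, ha2⟩ ⟨hb1, hb2⟩
        exact ⟨fun x hx => by rw [mul_smul, hb1 x hx, ha1 x hx],
          fun x => by rw [mul_smul, ha2, hb2]⟩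
      one_mem' := ⟨fun x _ => one_smul _ x, fun x => by rw [one_smul]⟩
      inv_mem' := by
        rintro a ⟨ha1, ha2⟩
        refine ⟨fun x hx => by rw [inv_smul_eq_iff, ha1 x hx], fun x => ?_⟩
        rw [← ha2 (a⁻¹ • x), smul_inv_smul] }
  have hMΓ : ∀ g ∈ M, ∀ x, g • x ∈ Γ ↔ x ∈ Γ := by
    rintro g ⟨h1, h2⟩ x
    by_cases hxΘ : x ∈ Θ
    · exact iff_of_true (hΘΓ ((h2 x).mpr hxΘ)) (hΘΓ hxΘ)
    · by_cases hxΓ : x ∈ Γ
      · rw [h1 x (Finset.mem_sdiff.mpr ⟨hxΓ, hxΘ⟩)]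
      · refine iff_of_false ?_ hxΓ
        intro hgx
        by_cases hgxΘ : g • x ∈ Θ
        · exact hxΘ ((h2 x).mp hgxΘ)
        · have h3 := h1 (g • x) (Finset.mem_sdiff.mpr ⟨hgx, hgxΘ⟩)
          have h4 : g • x = x := smul_left_cancel g h3
          exact hxΓ (h4 ▸ hgx)
  have hKM : fixingSubgroup G (Γ : Set α) ≤ M := by
    intro g hg
    rw [hKmem] at hg
    refine ⟨fun x hx => hg x (Finset.mem_sdiff.mp hx).1, ?_⟩
    exact mem_iff_of_maps (g : Equiv.Perm α) Θ Θ rfl (fun x hx => by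
      rw [← hsm, hg x (hΘΓ hx)]
      exact hx)
  obtain ⟨θ₁, hθ₁⟩ : Θ.Nonempty := Finset.card_pos.mp (hΘc ▸ hp.pos)
  have horbM : MulAction.orbit M θ₁ = (Θ : Set α) := by
    ext x
    constructor
    · rintro ⟨m, rfl⟩
      exact (m.2.2 θ₁).mpr hθ₁
    · intro hx
      have hx' : x ∈ Θ := hx
      have hs : (insert δ₀ Γ).card = k + 1 := by
        rw [Finset.card_insert_of_notMem hδ₀, hΓ]
      obtain ⟨g, hg, hgs⟩ := gen_perm G hgen _ hs (Equiv.swap θ₁ x)
        (swap_mem_iff _ (Finset.mem_insert_of_mem (hΘΓ hθ₁)) (Finset.mem_insert_of_mem (hΘΓ hx')))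
      have hgM : (⟨g, hg⟩ : G) ∈ M := by
        refine ⟨fun y hy => ?_, ?_⟩
        · have hy' := Finset.mem_sdiff.mp hy
          show g y = y
          rw [hgs y (Finset.mem_insert_of_mem hy'.1)]
          exact Equiv.swap_apply_of_ne_of_ne (fun h => hy'.2 (h ▸ hθ₁)) (fun h => hy'.2 (h ▸ hx'))
        · apply mem_iff_of_maps g Θ Θ rfl
          intro y hy
          rw [hgs y (Finset.mem_insert_of_mem (hΘΓ hy))]
          exact (swap_mem_iff Θ hθ₁ hx' y).mpr hy
      refine ⟨⟨⟨g, hg⟩, hgM⟩, ?_⟩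
      show g θ₁ = x
      rw [hgs θ₁ (Finset.mem_insert_of_mem (hΘΓ hθ₁)), Equiv.swap_apply_left]
  have hdiv : p * Nat.card (fixingSubgroup G (Γ : Set α)) ∣ Nat.card M := by
    have h1 : (MulAction.stabilizer M θ₁).index = p := by
      rw [MulAction.index_stabilizer, horbM, Set.ncard_coe_finset, hΘc]
    have h2 := Subgroup.card_mul_index (MulAction.stabilizer M θ₁)
    rw [h1] at h2
    have h3 : (fixingSubgroup G (Γ : Set α)).subgroupOf M ≤ MulAction.stabilizer M θ₁ := by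
      intro m hm
      rw [MulAction.mem_stabilizer_iff]
      exact (hKmem _).mp (Subgroup.mem_subgroupOf.mp hm) θ₁ (hΘΓ hθ₁)
    have h4 := Subgroup.card_dvd_of_le h3
    rw [Nat.card_congr (Subgroup.subgroupOfEquivOfLe hKM).toEquiv] at h4
    rw [← h2, mul_comm]
    exact Nat.mul_dvd_mul_right h4 p
  obtain ⟨T⟩ : Nonempty (Sylow p M) := inferInstance
  have hTfix : ∀ i, ∃ δ ∈ MulAction.orbit (fixingSubgroup G (Γ : Set α)) (f i),
      ∀ t ∈ (T : Subgroup M), (t : G) • δ = δ := by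
    intro i
    obtain ⟨δ, hδ, hfix⟩ := fixed_point_of_pgroup (H := (T : Subgroup M)) T.isPGroup'
      (MulAction.orbit (fixingSubgroup G (Γ : Set α)) (f i)) (by
        intro t x hx
        obtain ⟨c, hc, hcx⟩ := hA ((t : M) : G) (hMΓ _ (t : M).2) x (horbΓ i x hx)
        have h1 : t • x = (⟨c, hc⟩ : fixingSubgroup G (Γ : Set α)) • x := hcx.symm
        rw [h1]
        exact MulAction.mem_orbit_of_mem_orbit _ hx) (hcon i)
    exact ⟨δ, hδ, fun t ht => hfix ⟨t, ht⟩⟩
  choose δ' hδ'orb hδ'fix using hTfix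
  have hδ'inj : Function.Injective δ' := by
    intro i j hij
    by_contra hne
    have h1 : MulAction.orbit (fixingSubgroup G (Γ : Set α)) (f i) =
        MulAction.orbit (fixingSubgroup G (Γ : Set α)) (f j) := by
      rw [← MulAction.orbit_eq_iff.mpr (hδ'orb i), ← MulAction.orbit_eq_iff.mpr (hδ'orb j), hij]
    exact hdist i j hne (h1 ▸ MulAction.mem_orbit_self (f j))
  obtain ⟨Γ'', hΓ''def⟩ : ∃ Γ'' : Finset α, Γ'' = (Γ \ Θ) ∪ Finset.image δ' Finset.univ :=
    ⟨_, rfl⟩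
  have hΓ''c : Γ''.card = k := by
    rw [hΓ''def, Finset.card_union_of_disjoint, Finset.card_image_of_injective _ hδ'inj,
      Finset.card_univ, Fintype.card_fin, Finset.card_sdiff_of_subset hΘΓ, hΓ, hΘc]
    · omega
    · rw [Finset.disjoint_left]
      intro x hx hx'
      obtain ⟨i, -, rfl⟩ := Finset.mem_image.mp hx'
      exact horbΓ i _ (hδ'orb i) (Finset.mem_sdiff.mp hx).1
  have hTΓ'' : ∀ t ∈ (T : Subgroup M), ∀ x ∈ Γ'', (t : G) • x = x := by
    intro t ht x hx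
    rw [hΓ''def] at hx
    rcases Finset.mem_union.mp hx with h | h
    · exact t.2.1 x h
    · obtain ⟨i, -, rfl⟩ := Finset.mem_image.mp h
      exact hδ'fix i t ht
  obtain ⟨g, hg, hgmap⟩ := homog G hgen _ Γ Γ'' hΓ hΓ''c rfl
  have hTK : Nat.card (T : Subgroup M) ∣ Nat.card (fixingSubgroup G (Γ : Set α)) := by
    obtain ⟨φ, hφdef⟩ : ∃ φ : (T : Subgroup M) →* G,
        φ = (MulAut.conj (⟨g, hg⟩ : G)⁻¹).toMonoidHom.comp
          (M.subtype.comp (T : Subgroup M).subtype) := ⟨_, rfl⟩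
    have hφinj : Function.Injective φ := by
      rw [hφdef]
      exact (MulAut.conj _).injective.comp
        (M.subtype_injective.comp (Subgroup.subtype_injective _))
    have hφrange : φ.range ≤ fixingSubgroup G (Γ : Set α) := by
      rintro _ ⟨t, rfl⟩
      rw [hKmem]
      intro x hx
      have h1 : φ t = (⟨g, hg⟩ : G)⁻¹ * ((t : M) : G) * (⟨g, hg⟩ : G) := by
        rw [hφdef]
        simp
      have h2 : (⟨g, hg⟩ : G) • x ∈ Γ'' := hgmap x hx
      rw [h1, mul_smul, mul_smul, hTΓ'' t t.2 _ h2, inv_smul_smul]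
    have h1 := Subgroup.card_dvd_of_le hφrange
    rwa [Nat.card_congr (MonoidHom.ofInjective hφinj).symm.toEquiv] at h1
  have h1 : Nat.card (T : Subgroup M) = p ^ (Nat.card M).factorization p :=
    T.card_eq_multiplicity
  have h2 : p ^ ((Nat.card M).factorization p + 1) ∣ Nat.card M := by
    rw [pow_succ, ← h1, mul_comm]
    exact dvd_trans (Nat.mul_dvd_mul_left p hTK) hdiv
  exact Nat.pow_succ_factorization_not_dvd Nat.card_pos.ne' hp h2

end Cfsg.Agent.S0706
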