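import Cfsg.Statements.S0707
import Mathlib

set_option autoImplicit false
open Cfsg

namespace Cfsg.Agent.S0707

theorem prime_card_of_bot_coatom {G : Type*} [Group G] (h : IsCoatom (⊥ : Subgroup G)) :
    (Nat.card G).Prime := by
  have hne : (⊥ : Subgroup G) ≠ ⊤ := h.1
  have hsub : ∀ K : Subgroup G, K ≠ ⊥ → K = ⊤ := fun K hK =>
    h.2 K (bot_lt_iff_ne_bot.mpr hK)
  obtain ⟨g, hg⟩ : ∃ g : G, g ≠ 1 := by
    by_contra hcon
    push Not at hcon
    apply hne
    rw [eq_comm, eq_bot_iff]
    intro x _
    rw [Subgroup.mem_bot]; exact hcon x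
  have hz : ∀ x : G, x ≠ 1 → Subgroup.zpowers x = ⊤ := by
    intro x hx
    apply hsub
    intro hb
    apply hx
    rw [← Subgroup.zpowers_eq_bot]; exact hb
  have hord : orderOf g ≠ 0 := by
    intro h0
    have hg2 : g ^ 2 ≠ 1 := by
      intro h2
      have := orderOf_dvd_of_pow_eq_one h2
      rw [h0] at this
      simp at this
    have htop := hz (g ^ 2) hg2
    have hgm : g ∈ Subgroup.zpowers (g ^ 2) := by rw [htop]; trivial
    obtain ⟨k, hk⟩ := Subgroup.mem_zpowers_iff.mp hgm
    have h3 : g ^ (2 * k - 1) = 1 := by
      rw [zpow_sub, zpow_mul, zpow_one]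
      have : (g ^ (2 : ℤ)) = g ^ 2 := by norm_cast
      rw [this, hk, mul_inv_cancel]
    have h4 := orderOf_dvd_iff_zpow_eq_one.mpr h3
    rw [h0] at h4
    simp only [Nat.cast_zero, zero_dvd_iff] at h4
    omega
  have hfin : Finite (Subgroup.zpowers g) := by
    apply Nat.finite_of_card_ne_zero
    rw [Nat.card_zpowers]; exact hord
  have hG : Finite G := by
    have e : (⊤ : Subgroup G) ≃ G := Subgroup.topEquiv.toEquiv
    rw [hz g hg] at hfin
    exact Finite.of_equiv _ e
  have hcardg : Nat.card G = orderOf g := by
    rw [← Nat.card_zpowers, hz g hg, Subgroup.card_top]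
  obtain ⟨q, hq, hqd⟩ := Nat.exists_prime_and_dvd (n := Nat.card G) (by
    rw [hcardg]
    intro h1
    exact hg (orderOf_eq_one_iff.mp h1))
  have : Fact q.Prime := ⟨hq⟩
  obtain ⟨x, hx⟩ := exists_prime_orderOf_dvd_card' q hqd
  have hx1 : x ≠ 1 := by
    intro h1
    rw [h1, orderOf_one] at hx
    exact hq.one_lt.ne hx
  have : Nat.card G = q := by
    rw [← hx, ← Nat.card_zpowers, hz x hx1, Subgroup.card_top]
  rw [this]; exact hq

/-- In a primitive permutation group, distinct points have distinct stabilisers unless the group is regular of prime degree. -/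
theorem result {α : Type*} (G : Subgroup (Equiv.Perm α)) [MulAction.IsPreprimitive G α] (h : ¬ (Nat.card α).Prime ∨ ∃ a : α, MulAction.stabilizer G a ≠ ⊥) {a b : α} (hab : a ≠ b) : MulAction.stabilizer G a ≠ MulAction.stabilizer G b := by
  intro heq
  -- the class of points with the same stabilizer as `a` is a block
  let B : Set α := {x | MulAction.stabilizer G x = MulAction.stabilizer G a}
  have hstab : ∀ (g : G) (x : α), MulAction.stabilizer G (g • x) =
      (MulAction.stabilizer G x).map (MulAut.conj g).toMonoidHom := by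
    intro g x
    rw [MulAction.stabilizer_smul_eq_stabilizer_map_conj]
  have hB : MulAction.IsBlock G B := by
    rw [MulAction.isBlock_iff_smul_eq_of_nonempty]
    intro g hg
    obtain ⟨y, hy1, hy2⟩ := hg
    obtain ⟨x, hx, rfl⟩ := hy1
    have hx' : MulAction.stabilizer G x = MulAction.stabilizer G a := hx
    have hy2' : MulAction.stabilizer G (g • x) = MulAction.stabilizer G a := hy2
    have hconj : (MulAction.stabilizer G a).map (MulAut.conj g).toMonoidHom =
        MulAction.stabilizer G a := by
      rw [← hx', ← hstab, hy2', hx']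
    ext z
    constructor
    · rintro ⟨w, hw, rfl⟩
      show MulAction.stabilizer G (g • w) = MulAction.stabilizer G a
      have hw' : MulAction.stabilizer G w = MulAction.stabilizer G a := hw
      rw [hstab, hw', hconj]
    · intro hz
      have hz' : MulAction.stabilizer G z = MulAction.stabilizer G a := hz
      refine ⟨g⁻¹ • z, ?_, smul_inv_smul g z⟩
      show MulAction.stabilizer G (g⁻¹ • z) = MulAction.stabilizer G a
      rw [hstab, hz']
      have h2 : (MulAction.stabilizer G a).map (MulAut.conj g⁻¹).toMonoidHom =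
          ((MulAction.stabilizer G a).map (MulAut.conj g).toMonoidHom).map
            (MulAut.conj g⁻¹).toMonoidHom := by rw [hconj]
      rw [h2, Subgroup.map_map]
      have : (MulAut.conj g⁻¹).toMonoidHom.comp (MulAut.conj g).toMonoidHom = MonoidHom.id G := by
        ext x; simp
      rw [this, Subgroup.map_id]
  have hBtriv := MulAction.IsPreprimitive.isTrivialBlock_of_isBlock hB
  have haB : a ∈ B := rfl
  have hbB : b ∈ B := heq.symm
  have hBuniv : B = Set.univ := by
    rcases hBtriv with h1 | h1
    · exact absurd (h1 haB hbB) hab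
    · exact h1
  have hall : ∀ x : α, MulAction.stabilizer G x = MulAction.stabilizer G a := by
    intro x
    have : x ∈ B := by rw [hBuniv]; trivial
    exact this
  have hbot : MulAction.stabilizer G a = ⊥ := by
    rw [eq_bot_iff]
    intro g hg
    rw [Subgroup.mem_bot]
    apply Subtype.ext
    ext x
    have : g ∈ MulAction.stabilizer G x := by rw [hall x]; exact hg
    exact this
  have hallbot : ∀ x : α, MulAction.stabilizer G x = ⊥ := fun x => (hall x).trans hbot
  have hnp : ¬ (Nat.card α).Prime := by
    rcases h with h | ⟨c, hc⟩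
    · exact h
    · exact absurd (hallbot c) hc
  apply hnp
  -- `G` acts regularly, so `α ≃ G`, and `⊥` is a coatom of the subgroup lattice
  have : Nontrivial α := ⟨⟨a, b, hab⟩⟩
  have hco : IsCoatom (MulAction.stabilizer G a) :=
    (MulAction.isCoatom_stabilizer_iff_preprimitive (G := G) (X := α) a).mpr inferInstance
  rw [hbot] at hco
  have hcard : Nat.card α = Nat.card G := by
    have e := MulAction.orbitEquivQuotientStabilizer G a
    rw [MulAction.orbit_eq_univ] at e
    have e2 : (G ⧸ MulAction.stabilizer G a) ≃ G := by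
      rw [hbot]
      exact (QuotientGroup.quotientBot (G := G)).toEquiv
    exact Nat.card_congr ((Equiv.Set.univ α).symm.trans (e.trans e2))
  rw [hcard]
  exact prime_card_of_bot_coatom hco

end Cfsg.Agent.S0707
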