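import Cfsg.Statements.S0708
import Mathlib.GroupTheory.PGroup


set_option autoImplicit false
open Cfsg

namespace Cfsg.Agent.S0708

set_option linter.unusedSimpArgs false
set_option maxHeartbeats 1000000

section
variable {Ω : Type*}

/-- four pairwise distinct points -/
def D4 (w x y z : Ω) : Prop := w ≠ x ∧ w ≠ y ∧ w ≠ z ∧ x ≠ y ∧ x ≠ z ∧ y ≠ z

/-- the embedding of `Fin 4` given by four distinct points -/
def emb4 (w x y z : Ω) (h : D4 w x y z) : Fin 4 ↪ Ω :=
  ⟨![w, x, y, z], by
    obtain ⟨h1, h2, h3, h4, h5, h6⟩ := h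
    intro i j hij
    fin_cases i <;> fin_cases j <;> simp_all⟩

theorem small3 (S : Set Ω) (h : ∀ w x y z : Ω, w ∈ S → x ∈ S → y ∈ S → z ∈ S → ¬ D4 w x y z) :
    S.Finite ∧ S.ncard ≤ 3 := by
  classical
  have key : ∀ t : Finset Ω, (↑t : Set Ω) ⊆ S → t.card ≤ 3 := by
    intro t hts
    by_contra hc
    have h3 : 3 < t.card := by omega
    obtain ⟨a, b, c, d, ha, hb, hc', hd, hab, hac, had, hbc, hbd, hcd⟩ := Finset.three_lt_card_iff.mp h3
    exact h a b c d (hts ha) (hts hb) (hts hc') (hts hd) ⟨hab, hac, had, hbc, hbd, hcd⟩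
  have hfin : S.Finite := by
    by_contra hinf
    obtain ⟨t, hts, htc⟩ := Set.Infinite.exists_subset_card_eq hinf 4
    have := key t hts
    omega
  refine ⟨hfin, ?_⟩
  have := key hfin.toFinset (by simp)
  rwa [Set.ncard_eq_toFinset_card S hfin]

variable {G : Type*} [Group G] [MulAction G Ω]

theorem fix4 (hsharp : ∀ x : Fin 4 ↪ Ω, MulAction.stabilizer G x = ⊥) (g : G) (w x y z : Ω) (h : D4 w x y z)
    (hw : g • w = w) (hx : g • x = x) (hy : g • y = y) (hz : g • z = z) : g = 1 := by
  have hmem : g ∈ MulAction.stabilizer G (emb4 w x y z h) := by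
    rw [MulAction.mem_stabilizer_iff]
    ext i
    fin_cases i <;> simp [emb4, Function.Embedding.smul_apply, hw, hx, hy, hz]
  rw [hsharp] at hmem
  exact Subgroup.mem_bot.mp hmem

theorem eq4 (hsharp : ∀ x : Fin 4 ↪ Ω, MulAction.stabilizer G x = ⊥) (g h : G) (w x y z : Ω) (hD : D4 w x y z)
    (hw : g • w = h • w) (hx : g • x = h • x) (hy : g • y = h • y) (hz : g • z = h • z) : g = h := by
  have := fix4 hsharp (h⁻¹ * g) w x y z hD (by rw [mul_smul, hw, inv_smul_smul])
    (by rw [mul_smul, hx, inv_smul_smul]) (by rw [mul_smul, hy, inv_smul_smul]) (by rw [mul_smul, hz, inv_smul_smul])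
  exact (inv_mul_eq_one.mp this).symm

theorem ex4 (h4 : MulAction.IsMultiplyPretransitive G Ω 4) (w x y z w' x' y' z' : Ω) (h : D4 w x y z)
    (h' : D4 w' x' y' z') : ∃ g : G, g • w = w' ∧ g • x = x' ∧ g • y = y' ∧ g • z = z' := by
  obtain ⟨g, hg⟩ := h4.exists_smul_eq (emb4 w x y z h) (emb4 w' x' y' z' h')
  refine ⟨g, ?_, ?_, ?_, ?_⟩
  · have := congrArg (fun f : Fin 4 ↪ Ω => f 0) hg
    simpa [emb4, Function.Embedding.smul_apply] using this
  · have := congrArg (fun f : Fin 4 ↪ Ω => f 1) hg
    simpa [emb4, Function.Embedding.smul_apply] using this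
  · have := congrArg (fun f : Fin 4 ↪ Ω => f 2) hg
    simpa [emb4, Function.Embedding.smul_apply] using this
  · have := congrArg (fun f : Fin 4 ↪ Ω => f 3) hg
    simpa [emb4, Function.Embedding.smul_apply] using this

theorem conj_inv (g h k : G) (hk : g * h = k * g) (π : Ω) : h • (g⁻¹ • π) = g⁻¹ • (k • π) := by
  rw [eq_inv_smul_iff, ← mul_smul, hk, mul_smul, smul_inv_smul]

theorem conj_fwd (g h k : G) (hk : g * h = k * g) (π : Ω) : k • (g • π) = g • (h • π) := by
  rw [← mul_smul, ← hk, mul_smul]

end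

/-- Tits' argument: a sharply 4-transitive group (no finiteness assumed) has finite degree at most 11, and at most 6 when the degree is even. -/
theorem result {G : Type*} [Group G] {Ω : Type*} [MulAction G Ω] (h4 : MulAction.IsMultiplyPretransitive G Ω 4) (hsharp : ∀ x : Fin 4 ↪ Ω, MulAction.stabilizer G x = ⊥) (hne : Nonempty (Fin 4 ↪ Ω)) : Finite Ω ∧ Nat.card Ω ≤ 11 ∧ (Even (Nat.card Ω) → Nat.card Ω ≤ 6) := by
  classical
  obtain ⟨e0⟩ := hne
  obtain ⟨p1, p2, p3, p4, hD⟩ : ∃ p1 p2 p3 p4 : Ω, D4 p1 p2 p3 p4 :=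
    ⟨e0 0, e0 1, e0 2, e0 3, e0.injective.ne (by decide), e0.injective.ne (by decide),
      e0.injective.ne (by decide), e0.injective.ne (by decide), e0.injective.ne (by decide),
      e0.injective.ne (by decide)⟩
  obtain ⟨h12, h13, h14, h23, h24, h34⟩ := id hD
  have fix := fix4 (G := G) (Ω := Ω) hsharp
  have eqq := eq4 (G := G) (Ω := Ω) hsharp
  have ex := ex4 h4
  obtain ⟨a, ha1, ha2, ha3, ha4⟩ := ex p1 p2 p3 p4 p2 p1 p4 p3 hD ⟨h12.symm, h24, h23, h14, h13, h34.symm⟩
  obtain ⟨b, hb1, hb2, hb3, hb4⟩ := ex p1 p2 p3 p4 p3 p4 p1 p2 hD ⟨h34, h13.symm, h23.symm, h14.symm, h24.symm, h12⟩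
  obtain ⟨t, ht1, ht2, ht3, ht4⟩ := ex p1 p2 p3 p4 p1 p2 p4 p3 hD ⟨h12, h14, h13, h24, h23, h34.symm⟩
  obtain ⟨u, hu1, hu2, hu3, hu4⟩ := ex p1 p2 p3 p4 p1 p3 p4 p2 hD ⟨h13, h14, h12, h34, h23.symm, h24.symm⟩
  have haa : a * a = 1 := eqq _ _ p1 p2 p3 p4 hD
    (by simp only [mul_smul, one_smul, ha1, ha2, ha3, ha4])
    (by simp only [mul_smul, one_smul, ha1, ha2, ha3, ha4])
    (by simp only [mul_smul, one_smul, ha1, ha2, ha3, ha4])
    (by simp only [mul_smul, one_smul, ha1, ha2, ha3, ha4])
  have hbb : b * b = 1 := eqq _ _ p1 p2 p3 p4 hD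
    (by simp only [mul_smul, one_smul, hb1, hb2, hb3, hb4])
    (by simp only [mul_smul, one_smul, hb1, hb2, hb3, hb4])
    (by simp only [mul_smul, one_smul, hb1, hb2, hb3, hb4])
    (by simp only [mul_smul, one_smul, hb1, hb2, hb3, hb4])
  have htt : t * t = 1 := eqq _ _ p1 p2 p3 p4 hD
    (by simp only [mul_smul, one_smul, ht1, ht2, ht3, ht4])
    (by simp only [mul_smul, one_smul, ht1, ht2, ht3, ht4])
    (by simp only [mul_smul, one_smul, ht1, ht2, ht3, ht4])
    (by simp only [mul_smul, one_smul, ht1, ht2, ht3, ht4])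
  have hab : a * b = b * a := eqq _ _ p1 p2 p3 p4 hD
    (by simp only [mul_smul, ha1, ha2, ha3, ha4, hb1, hb2, hb3, hb4])
    (by simp only [mul_smul, ha1, ha2, ha3, ha4, hb1, hb2, hb3, hb4])
    (by simp only [mul_smul, ha1, ha2, ha3, ha4, hb1, hb2, hb3, hb4])
    (by simp only [mul_smul, ha1, ha2, ha3, ha4, hb1, hb2, hb3, hb4])
  have hat : a * t = t * a := eqq _ _ p1 p2 p3 p4 hD
    (by simp only [mul_smul, ha1, ha2, ha3, ha4, ht1, ht2, ht3, ht4])
    (by simp only [mul_smul, ha1, ha2, ha3, ha4, ht1, ht2, ht3, ht4])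
    (by simp only [mul_smul, ha1, ha2, ha3, ha4, ht1, ht2, ht3, ht4])
    (by simp only [mul_smul, ha1, ha2, ha3, ha4, ht1, ht2, ht3, ht4])
  have hua : u * a = b * u := eqq _ _ p1 p2 p3 p4 hD
    (by simp only [mul_smul, ha1, ha2, ha3, ha4, hb1, hb2, hb3, hb4, hu1, hu2, hu3, hu4])
    (by simp only [mul_smul, ha1, ha2, ha3, ha4, hb1, hb2, hb3, hb4, hu1, hu2, hu3, hu4])
    (by simp only [mul_smul, ha1, ha2, ha3, ha4, hb1, hb2, hb3, hb4, hu1, hu2, hu3, hu4])
    (by simp only [mul_smul, ha1, ha2, ha3, ha4, hb1, hb2, hb3, hb4, hu1, hu2, hu3, hu4])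
  have huc : u * (a * b) = a * u := eqq _ _ p1 p2 p3 p4 hD
    (by simp only [mul_smul, ha1, ha2, ha3, ha4, hb1, hb2, hb3, hb4, hu1, hu2, hu3, hu4])
    (by simp only [mul_smul, ha1, ha2, ha3, ha4, hb1, hb2, hb3, hb4, hu1, hu2, hu3, hu4])
    (by simp only [mul_smul, ha1, ha2, ha3, ha4, hb1, hb2, hb3, hb4, hu1, hu2, hu3, hu4])
    (by simp only [mul_smul, ha1, ha2, ha3, ha4, hb1, hb2, hb3, hb4, hu1, hu2, hu3, hu4])
  have a2 : ∀ π : Ω, a • a • π = π := fun π => by rw [← mul_smul, haa, one_smul]
  have b2 : ∀ π : Ω, b • b • π = π := fun π => by rw [← mul_smul, hbb, one_smul]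
  have t2 : ∀ π : Ω, t • t • π = π := fun π => by rw [← mul_smul, htt, one_smul]
  have abc : ∀ π : Ω, a • b • π = b • a • π := fun π => by rw [← mul_smul, hab, mul_smul]
  have atc : ∀ π : Ω, a • t • π = t • a • π := fun π => by rw [← mul_smul, hat, mul_smul]
  have ha_ne : a ≠ 1 := fun h => h12 (by have := ha1; rw [h, one_smul] at this; exact this)
  have hb_ne : b ≠ 1 := fun h => h13 (by have := hb1; rw [h, one_smul] at this; exact this)
  have ht_ne : t ≠ 1 := fun h => h34 (by have := ht3; rw [h, one_smul] at this; exact this)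
  have hab_ne : a * b ≠ 1 := fun h => h14 (by
    have : (a * b) • p1 = p4 := by rw [mul_smul, hb1, ha3]
    rw [h, one_smul] at this; exact this)
  have hat_ne : a * t ≠ 1 := fun h => h12 (by
    have : (a * t) • p1 = p2 := by rw [mul_smul, ht1, ha1]
    rw [h, one_smul] at this; exact this)
  have nfix : ∀ π : Ω, a • π = π → π ≠ p1 ∧ π ≠ p2 ∧ π ≠ p3 ∧ π ≠ p4 := by
    intro π h
    refine ⟨?_, ?_, ?_, ?_⟩
    · intro e; rw [e, ha1] at h; exact h12 h.symm
    · intro e; rw [e, ha2] at h; exact h12 h
    · intro e; rw [e, ha3] at h; exact h34 h.symm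
    · intro e; rw [e, ha4] at h; exact h34 h
  by_cases hreg : ∃ ω : Ω, a • ω ≠ ω ∧ t • ω ≠ ω ∧ a • t • ω ≠ ω
  · obtain ⟨ω, hωa, hωt, hωs⟩ := hreg
    have hDω : D4 ω (a • ω) (t • ω) (a • t • ω) := by
      refine ⟨Ne.symm hωa, Ne.symm hωt, Ne.symm hωs, ?_, ?_, ?_⟩
      · intro h; apply hωs; rw [← h, a2]
      · intro h; exact hωt (smul_left_cancel a h).symm
      · intro h; apply hωa; rw [atc] at h; exact (smul_left_cancel t h).symm
    obtain ⟨g', hg1, hg2, hg3, hg4⟩ := ex p1 p2 p3 p4 _ _ _ _ hD hDω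
    have hga : g' * a = a * g' := eqq _ _ p1 p2 p3 p4 hD
      (by rw [mul_smul, mul_smul, ha1, hg2, hg1])
      (by rw [mul_smul, mul_smul, ha2, hg1, hg2, a2])
      (by rw [mul_smul, mul_smul, ha3, hg4, hg3])
      (by rw [mul_smul, mul_smul, ha4, hg3, hg4, a2])
    have hgb : g' * b = t * g' := eqq _ _ p1 p2 p3 p4 hD
      (by rw [mul_smul, mul_smul, hb1, hg3, hg1])
      (by rw [mul_smul, mul_smul, hb2, hg4, hg2, atc])
      (by rw [mul_smul, mul_smul, hb3, hg1, hg3, t2])
      (by rw [mul_smul, mul_smul, hb4, hg2, hg4, ← atc, t2])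
    have hgc : g' * (a * b) = (a * t) * g' := by rw [← mul_assoc, hga, mul_assoc, hgb, ← mul_assoc]
    obtain ⟨y, hyb, hya⟩ : ∃ y : Ω, b • y = y ∧ a • y ≠ y :=
      ⟨g'⁻¹ • p1, by rw [conj_inv g' b t hgb, ht1], by
        rw [conj_inv g' a a hga, ha1]
        intro h; exact h12 (smul_left_cancel _ h).symm⟩
    obtain ⟨z, hzc, hza⟩ : ∃ z : Ω, a • b • z = z ∧ a • z ≠ z :=
      ⟨g'⁻¹ • p3, by rw [← mul_smul, conj_inv g' (a * b) (a * t) hgc, mul_smul, ht3, ha4], by
        rw [conj_inv g' a a hga, ha3]
        intro h; exact h34 (smul_left_cancel _ h).symm⟩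
    obtain ⟨x, hxa, hxb⟩ : ∃ x : Ω, a • x = x ∧ b • x ≠ x :=
      ⟨u • z, by rw [conj_fwd u (a * b) a huc, mul_smul, hzc], by
        rw [conj_fwd u a b hua]
        intro h; exact hza (smul_left_cancel _ h)⟩
    have hxb' : a • b • x = b • x := by rw [abc, hxa]
    have hyb' : b • a • y = a • y := by rw [← abc, hyb]
    have hbz : b • z = a • z := by
      have := congrArg (fun π => a • π) hzc
      simp only [a2] at this
      exact this
    have hzc' : a • b • a • z = a • z := by rw [← abc, a2, hbz]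
    have cFa : ∀ π : Ω, a • π = π → π = x ∨ π = b • x ∨ b • π = π := by
      intro π hπ
      by_contra hcon
      push Not at hcon
      obtain ⟨n1, n2, n3⟩ := hcon
      apply ha_ne
      refine fix a x (b • x) π (b • π) ⟨Ne.symm hxb, Ne.symm n1, ?_, Ne.symm n2, ?_, Ne.symm n3⟩ hxa hxb' hπ
        (by rw [abc, hπ])
      · intro h; apply n2; rw [h, b2]
      · intro h; exact n1 (smul_left_cancel _ h).symm
    have cF : ∀ π π' : Ω, a • π = π → b • π = π → a • π' = π' → b • π' = π' → π = π' := by
      intro π π' h1 h2 h3 h4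
      by_contra hne
      apply ha_ne
      refine fix a x (b • x) π π' ⟨Ne.symm hxb, ?_, ?_, ?_, ?_, hne⟩ hxa hxb' h1 h3
      · exact fun h => hxb (by rw [h]; exact h2)
      · exact fun h => hxb (by rw [h]; exact h4)
      · intro h; apply hxb; have := h2; rw [← h, b2] at this; exact this.symm
      · intro h; apply hxb; have := h4; rw [← h, b2] at this; exact this.symm
    have cFb : ∀ π : Ω, b • π = π → π = y ∨ π = a • y ∨ a • π = π := by
      intro π hπ
      by_contra hcon
      push Not at hcon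
      obtain ⟨n1, n2, n3⟩ := hcon
      apply hb_ne
      refine fix b y (a • y) π (a • π) ⟨Ne.symm hya, Ne.symm n1, ?_, Ne.symm n2, ?_, Ne.symm n3⟩ hyb hyb' hπ
        (by rw [← abc, hπ])
      · intro h; apply n2; rw [h, a2]
      · intro h; exact n1 (smul_left_cancel _ h).symm
    have cFc : ∀ π : Ω, a • b • π = π → π = z ∨ π = a • z ∨ a • π = π := by
      intro π hπ
      by_contra hcon
      push Not at hcon
      obtain ⟨n1, n2, n3⟩ := hcon
      apply hab_ne
      refine fix (a * b) z (a • z) π (a • π) ⟨Ne.symm hza, Ne.symm n1, ?_, Ne.symm n2, ?_, Ne.symm n3⟩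
        (by rw [mul_smul]; exact hzc) (by rw [mul_smul]; exact hzc') (by rw [mul_smul]; exact hπ)
        (by rw [mul_smul, ← abc, hπ])
      · intro h; apply n2; rw [h, a2]
      · intro h; exact n1 (smul_left_cancel _ h).symm
    have cab : Commute a b := hab
    have cR : ∀ π : Ω, a • π ≠ π → b • π ≠ π → a • b • π ≠ π → π = p1 ∨ π = p2 ∨ π = p3 ∨ π = p4 := by
      intro π na nb nc
      have hDπ : D4 π (a • π) (b • π) (a • b • π) := by
        refine ⟨Ne.symm na, Ne.symm nb, Ne.symm nc, ?_, ?_, ?_⟩
        · intro h; apply nc; rw [← h, a2]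
        · intro h; exact nb (smul_left_cancel a h).symm
        · intro h; apply na; rw [abc] at h; exact (smul_left_cancel b h).symm
      obtain ⟨g, hg1, hg2, hg3, hg4⟩ := ex p1 p2 p3 p4 _ _ _ _ hD hDπ
      have hga' : Commute g a := eqq _ _ p1 p2 p3 p4 hD
        (by rw [mul_smul, mul_smul, ha1, hg2, hg1])
        (by rw [mul_smul, mul_smul, ha2, hg1, hg2, a2])
        (by rw [mul_smul, mul_smul, ha3, hg4, hg3])
        (by rw [mul_smul, mul_smul, ha4, hg3, hg4, a2])
      have hgb' : Commute g b := eqq _ _ p1 p2 p3 p4 hD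
        (by rw [mul_smul, mul_smul, hb1, hg3, hg1])
        (by rw [mul_smul, mul_smul, hb2, hg4, hg2, abc])
        (by rw [mul_smul, mul_smul, hb3, hg1, hg3, b2])
        (by rw [mul_smul, mul_smul, hb4, hg2, hg4, ← abc, b2])
      have key : ∀ h : G, Commute h a → Commute h b → h • x = x → h • y = y → h = 1 := by
        intro h hha hhb hhx hhy
        refine fix h x (b • x) y (a • y) ⟨Ne.symm hxb, ?_, ?_, ?_, ?_, Ne.symm hya⟩ hhx ?_ hhy ?_
        · exact fun e => hya (by rw [← e]; exact hxa)
        · intro e; apply hya; have := hxa; rw [e, a2] at this; exact this.symm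
        · intro e; apply hxb; have := hyb; rw [← e, b2] at this; exact this.symm
        · intro e; apply hya; have := hxb'; rw [e, a2] at this; exact this.symm
        · rw [← conj_fwd h b b hhb.eq, hhx]
        · rw [← conj_fwd h a a hha.eq, hhy]
      have gy : g • y = y ∨ g • y = a • y := by
        have h1 : b • g • y = g • y := by rw [conj_fwd g b b hgb'.eq, hyb]
        have h2 : a • g • y ≠ g • y := by
          rw [conj_fwd g a a hga'.eq]; intro e; exact hya (smul_left_cancel _ e)
        rcases cFb _ h1 with e | e | e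
        · exact Or.inl e
        · exact Or.inr e
        · exact absurd e h2
      have gx : g • x = x ∨ g • x = b • x := by
        have h1 : a • g • x = g • x := by rw [conj_fwd g a a hga'.eq, hxa]
        have h2 : b • g • x ≠ g • x := by
          rw [conj_fwd g b b hgb'.eq]; intro e; exact hxb (smul_left_cancel _ e)
        rcases cFa _ h1 with e | e | e
        · exact Or.inl e
        · exact Or.inr e
        · exact absurd e h2
      rcases gx with ex1 | ex1 <;> rcases gy with ey1 | ey1
      · have := key g hga' hgb' ex1 ey1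
        left; rw [← hg1, this, one_smul]
      · have := key (a * g) ((Commute.refl a).mul_left hga') (cab.mul_left hgb')
          (by rw [mul_smul, ex1, hxa]) (by rw [mul_smul, ey1, a2])
        have e : a • π = p1 := by rw [← hg1, ← mul_smul, this, one_smul]
        right; left; rw [← a2 π, e, ha1]
      · have := key (b * g) (cab.symm.mul_left hga') ((Commute.refl b).mul_left hgb')
          (by rw [mul_smul, ex1, b2]) (by rw [mul_smul, ey1, hyb])
        have e : b • π = p1 := by rw [← hg1, ← mul_smul, this, one_smul]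
        right; right; left; rw [← b2 π, e, hb1]
      · have := key (a * b * g) (((Commute.refl a).mul_left cab.symm).mul_left hga')
          ((cab.mul_left (Commute.refl b)).mul_left hgb')
          (by rw [mul_smul, mul_smul, ex1, b2, hxa]) (by rw [mul_smul, mul_smul, ey1, hyb', a2])
        have e : a • b • π = p1 := by rw [← hg1, ← mul_smul, ← mul_smul, this, one_smul]
        have e2 : b • π = p2 := by rw [← a2 (b • π), e, ha1]
        right; right; right; rw [← b2 π, e2, hb2]
    have hcov : ∀ π : Ω, π = p1 ∨ π = p2 ∨ π = p3 ∨ π = p4 ∨ π = x ∨ π = b • x ∨ π = y ∨ π = a • y ∨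
        π = z ∨ π = a • z ∨ (a • π = π ∧ b • π = π) := by
      intro π
      by_cases h1 : a • π = π
      · rcases cFa π h1 with e | e | e
        · iterate 4 right
          left; exact e
        · iterate 5 right
          left; exact e
        · iterate 10 right
          exact ⟨h1, e⟩
      · by_cases h2 : b • π = π
        · rcases cFb π h2 with e | e | e
          · iterate 6 right
            left; exact e
          · iterate 7 right
            left; exact e
          · exact absurd e h1
        · by_cases h3 : a • b • π = π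
          · rcases cFc π h3 with e | e | e
            · iterate 8 right
              left; exact e
            · iterate 9 right
              left; exact e
            · exact absurd e h1
          · rcases cR π h1 h2 h3 with e | e | e | e
            · left; exact e
            · right; left; exact e
            · right; right; left; exact e
            · right; right; right; left; exact e
    obtain ⟨nx1, nx2, nx3, nx4⟩ := nfix x hxa
    obtain ⟨nxb1, nxb2, nxb3, nxb4⟩ := nfix (b • x) hxb'
    have hFex : ∃ φ : Ω, a • φ = φ ∧ b • φ = φ := by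
      by_contra hno
      push Not at hno
      have hfin : Finite Ω := by
        have hsub : (Set.univ : Set Ω) ⊆
            (([p1, p2, p3, p4, x, b • x, y, a • y, z, a • z].toFinset : Finset Ω) : Set Ω) := by
          intro π _
          rcases hcov π with e | e | e | e | e | e | e | e | e | e | ⟨e1, e2⟩
          all_goals first | exact absurd e2 (hno π e1) | simp [e]
        exact Set.finite_univ_iff.mp ((Finset.finite_toSet _).subset hsub)
      have cFa' : ∀ π : Ω, a • π = π → π = x ∨ π = b • x := by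
        intro π h
        rcases cFa π h with e | e | e
        · exact Or.inl e
        · exact Or.inr e
        · exact absurd e (hno π h)
      have htx : t • x = b • x := by
        have h1 : a • t • x = t • x := by rw [atc, hxa]
        rcases cFa' _ h1 with e | e
        · exfalso
          have h2 : a • t • b • x = t • b • x := by rw [atc, hxb']
          have e' : t • b • x = b • x := by
            rcases cFa' _ h2 with e' | e'
            · exfalso
              exact hxb (smul_left_cancel t (e'.trans e.symm))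
            · exact e'
          apply ht_ne
          exact fix t p1 p2 x (b • x) ⟨h12, Ne.symm nx1, Ne.symm nxb1, Ne.symm nx2, Ne.symm nxb2, Ne.symm hxb⟩
            ht1 ht2 e e'
        · exact e
      have htx' : t • b • x = x := by rw [← htx, t2]
      have hwx : (b * t) • x = x := by rw [mul_smul, htx, b2]
      have hwx' : (b * t) • b • x = b • x := by rw [mul_smul, htx']
      have hww : (b * t) * (b * t) = a := eqq _ _ p1 p2 p3 p4 hD
        (by simp only [mul_smul, ha1, ha2, ha3, ha4, hb1, hb2, hb3, hb4, ht1, ht2, ht3, ht4])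
        (by simp only [mul_smul, ha1, ha2, ha3, ha4, hb1, hb2, hb3, hb4, ht1, ht2, ht3, ht4])
        (by simp only [mul_smul, ha1, ha2, ha3, ha4, hb1, hb2, hb3, hb4, ht1, ht2, ht3, ht4])
        (by simp only [mul_smul, ha1, ha2, ha3, ha4, hb1, hb2, hb3, hb4, ht1, ht2, ht3, ht4])
      have hDx2 : D4 x (b • x) p1 p2 := ⟨Ne.symm hxb, nx1, nx2, nxb1, nxb2, h12⟩
      have hDx3 : D4 x (b • x) p1 p3 := ⟨Ne.symm hxb, nx1, nx3, nxb1, nxb3, h13⟩
      obtain ⟨h, hhx, hhxb, hh1, hh2⟩ := ex x (b • x) p1 p2 x (b • x) p1 p3 hDx2 hDx3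
      have hh1' : h⁻¹ • p1 = p1 := by rw [inv_smul_eq_iff, hh1]
      have hh3' : h⁻¹ • p3 = p2 := by rw [inv_smul_eq_iff, hh2]
      have hhx' : h⁻¹ • x = x := by rw [inv_smul_eq_iff, hhx]
      have hhxb' : h⁻¹ • b • x = b • x := by rw [inv_smul_eq_iff, hhxb]
      obtain ⟨j, hj1, hj3, hjx, hjxb, hjj, hjfix⟩ : ∃ j : G, j • p1 = p3 ∧ j • p3 = p1 ∧ j • x = x ∧
          j • b • x = b • x ∧ j * j = 1 ∧ ∀ π : Ω, j • π = π → π = x ∨ π = b • x := by
        refine ⟨h * a * h⁻¹, ?_, ?_, ?_, ?_, ?_, ?_⟩
        · rw [mul_smul, mul_smul, hh1', ha1, hh2]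
        · rw [mul_smul, mul_smul, hh3', ha2, hh1]
        · rw [mul_smul, mul_smul, hhx', hxa, hhx]
        · rw [mul_smul, mul_smul, hhxb', hxb', hhxb]
        · have : (h * a * h⁻¹) * (h * a * h⁻¹) = h * (a * a) * h⁻¹ := by group
          rw [this, haa]; group
        · intro π hπ
          have : a • h⁻¹ • π = h⁻¹ • π := by
            rw [mul_smul, mul_smul] at hπ
            rw [eq_inv_smul_iff]; exact hπ
          rcases cFa' _ this with e | e
          · left; rw [inv_smul_eq_iff] at e; rw [e, hhx]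
          · right; rw [inv_smul_eq_iff] at e; rw [e, hhxb]
      have j2 : ∀ π : Ω, j • j • π = π := fun π => by rw [← mul_smul, hjj, one_smul]
      have hk1 : (j * (b * t)) • p1 = p1 := by rw [mul_smul, mul_smul, ht1, hb1, hj3]
      have hkx : (j * (b * t)) • x = x := by rw [mul_smul, hwx, hjx]
      have hkxb : (j * (b * t)) • b • x = b • x := by rw [mul_smul, hwx', hjxb]
      have kfix : ∀ κ' : G, κ' • x = x → κ' • b • x = b • x → κ' • p1 = p1 → κ' • p3 = p3 → κ' = 1 :=
        fun κ' e1 e2 e3 e4 => fix κ' x (b • x) p1 p3 hDx3 e1 e2 e3 e4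
      have kne : ∀ κ' : G, κ' • x = x → κ' • b • x = b • x → κ' • p1 = p1 →
          κ' • p3 ≠ x ∧ κ' • p3 ≠ b • x ∧ κ' • p3 ≠ p1 := by
        intro κ' e1 e2 e3
        refine ⟨fun e => nx3 (smul_left_cancel κ' (e.trans e1.symm)).symm,
          fun e => nxb3 (smul_left_cancel κ' (e.trans e2.symm)).symm,
          fun e => h13 (smul_left_cancel κ' (e.trans e3.symm)).symm⟩
      have hk : j * (b * t) = 1 := by
        by_contra hk
        have hκ : ∀ π : {π : Ω // π ≠ x ∧ π ≠ b • x ∧ π ≠ p1 ∧ π ≠ p3}, ∃ κ : G, κ • x = x ∧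
            κ • b • x = b • x ∧ κ • p1 = p1 ∧ κ • π.1 = j • π.1 := by
          intro π
          obtain ⟨q1, q2, q3, q4⟩ := π.2
          have r1 : j • π.1 ≠ x := fun e => q1 (by rw [← j2 π.1, e, hjx])
          have r2 : j • π.1 ≠ b • x := fun e => q2 (by rw [← j2 π.1, e, hjxb])
          have r3 : j • π.1 ≠ p1 := fun e => q4 (by rw [← j2 π.1, e, hj1])
          exact ex x (b • x) p1 π.1 x (b • x) p1 (j • π.1)
            ⟨Ne.symm hxb, nx1, Ne.symm q1, nxb1, Ne.symm q2, Ne.symm q3⟩
            ⟨Ne.symm hxb, nx1, Ne.symm r1, nxb1, Ne.symm r2, Ne.symm r3⟩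
        choose κ hκ1 hκ2 hκ3 hκ4 using hκ
        let Ψ : {π : Ω // π ≠ x ∧ π ≠ b • x ∧ π ≠ p1 ∧ π ≠ p3} →
            {π : Ω // π ≠ x ∧ π ≠ b • x ∧ π ≠ p1 ∧ π ≠ p3} := fun π => ⟨κ π • p3, by
          obtain ⟨r1, r2, r3⟩ := kne (κ π) (hκ1 π) (hκ2 π) (hκ3 π)
          refine ⟨r1, r2, r3, ?_⟩
          intro e
          have h1 := kfix (κ π) (hκ1 π) (hκ2 π) (hκ3 π) e
          have h4 := hκ4 π
          rw [h1, one_smul] at h4
          rcases hjfix π.1 h4.symm with e' | e'
          · exact π.2.1 e'
          · exact π.2.2.1 e'⟩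
        have hΨinj : Function.Injective Ψ := by
          intro π π' hΨ
          have e3 : κ π • p3 = κ π' • p3 := congrArg Subtype.val hΨ
          have eκ : κ π = κ π' := eqq _ _ x (b • x) p1 p3 hDx3 (by rw [hκ1, hκ1]) (by rw [hκ2, hκ2])
            (by rw [hκ3, hκ3]) e3
          by_contra hne
          have hne' : π.1 ≠ π'.1 := fun e => hne (Subtype.ext e)
          have : j * κ π = 1 := fix (j * κ π) x (b • x) π.1 π'.1
            ⟨Ne.symm hxb, Ne.symm π.2.1, Ne.symm π'.2.1, Ne.symm π.2.2.1, Ne.symm π'.2.2.1, hne'⟩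
            (by rw [mul_smul, hκ1, hjx]) (by rw [mul_smul, hκ2, hjxb]) (by rw [mul_smul, hκ4, j2])
            (by rw [eκ, mul_smul, hκ4, j2])
          have h1 : (j * κ π) • p1 = p3 := by rw [mul_smul, hκ3, hj1]
          rw [this, one_smul] at h1
          exact h13 h1
        have hΨsurj : Function.Surjective Ψ := Finite.injective_iff_surjective.mp hΨinj
        obtain ⟨r1, r2, r3⟩ := kne (j * (b * t)) hkx hkxb hk1
        have r4 : (j * (b * t)) • p3 ≠ p3 := fun e => hk (kfix _ hkx hkxb hk1 e)
        obtain ⟨π, hπ⟩ := hΨsurj ⟨(j * (b * t)) • p3, r1, r2, r3, r4⟩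
        have e3 : κ π • p3 = (j * (b * t)) • p3 := congrArg Subtype.val hπ
        have eκ : κ π = j * (b * t) := eqq _ _ x (b • x) p1 p3 hDx3 (by rw [hκ1, hkx]) (by rw [hκ2, hkxb])
          (by rw [hκ3, hk1]) e3
        have hwπ : (b * t) • π.1 = π.1 := by
          have h4 := hκ4 π
          rw [eκ, mul_smul] at h4
          exact smul_left_cancel j h4
        have haπ : a • π.1 = π.1 := by rw [← hww, mul_smul, hwπ, hwπ]
        rcases cFa' _ haπ with e | e
        · exact π.2.1 e
        · exact π.2.2.1 e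
      have hbt : b * t = j⁻¹ := eq_inv_of_mul_eq_one_right hk
      rw [hbt, ← mul_inv_rev, hjj, inv_one] at hww
      exact ha_ne hww.symm
    obtain ⟨φ, hφa, hφb⟩ := hFex
    have hcov' : ∀ π : Ω, π ∈ ([p1, p2, p3, p4, x, b • x, y, a • y, z, a • z, φ].toFinset : Finset Ω) := by
      intro π
      rcases hcov π with e | e | e | e | e | e | e | e | e | e | ⟨e1, e2⟩
      all_goals first | simp [e] | (have := cF π φ e1 e2 hφa hφb; simp [this])
    have hfinU : (Set.univ : Set Ω).Finite := (Finset.finite_toSet _).subset (fun π _ => hcov' π)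
    have hfin : Finite Ω := Set.finite_univ_iff.mp hfinU
    have hcard : Nat.card Ω ≤ 11 := by
      rw [← Set.ncard_univ]
      calc (Set.univ : Set Ω).ncard
          ≤ ((([p1, p2, p3, p4, x, b • x, y, a • y, z, a • z, φ].toFinset : Finset Ω)) : Set Ω).ncard :=
            Set.ncard_le_ncard (fun π _ => hcov' π) (Finset.finite_toSet _)
        _ = ([p1, p2, p3, p4, x, b • x, y, a • y, z, a • z, φ].toFinset : Finset Ω).card :=
            Set.ncard_coe_finset _
        _ ≤ [p1, p2, p3, p4, x, b • x, y, a • y, z, a • z, φ].length := List.toFinset_card_le _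
        _ = 11 := rfl
    have hodd : ¬ Even (Nat.card Ω) := by
      have hp : IsPGroup 2 (Subgroup.zpowers a) := by
        refine IsPGroup.of_card (n := 1) ?_
        rw [Nat.card_zpowers, pow_one]
        exact orderOf_eq_prime (by rw [sq, haa]) ha_ne
      have hmod := hp.card_modEq_card_fixedPoints Ω
      have hfixset : MulAction.fixedPoints (Subgroup.zpowers a) Ω = {x, b • x, φ} := by
        ext π
        simp only [MulAction.mem_fixedPoints, Set.mem_insert_iff, Set.mem_singleton_iff]
        constructor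
        · intro h
          have h1 : a • π = π := h ⟨a, Subgroup.mem_zpowers a⟩
          rcases cFa π h1 with e | e | e
          · exact Or.inl e
          · exact Or.inr (Or.inl e)
          · exact Or.inr (Or.inr (cF π φ h1 e hφa hφb))
        · intro hπ
          have h1 : a • π = π := by
            rcases hπ with e | e | e
            · rw [e]; exact hxa
            · rw [e]; exact hxb'
            · rw [e]; exact hφa
          rintro ⟨g, hg⟩
          have hle : Subgroup.zpowers a ≤ MulAction.stabilizer G π := by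
            rw [Subgroup.zpowers_le]; exact MulAction.mem_stabilizer_iff.mpr h1
          exact MulAction.mem_stabilizer_iff.mp (hle hg)
      have h3 : Nat.card (MulAction.fixedPoints (Subgroup.zpowers a) Ω) = 3 := by
        rw [hfixset, Nat.card_coe_set_eq]
        refine Set.ncard_eq_three.mpr ⟨x, b • x, φ, Ne.symm hxb, ?_, ?_, rfl⟩
        · exact fun e => hxb (by rw [e]; exact hφb)
        · intro e; apply hxb; have := hφb; rw [← e, b2] at this; exact this.symm
      rw [h3] at hmod
      intro he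
      have h2 := Nat.even_iff.mp he
      unfold Nat.ModEq at hmod
      omega
    exact ⟨hfin, hcard, fun he => absurd he hodd⟩
  · push Not at hreg
    have hcov : ∀ π : Ω, π = p1 ∨ π = p2 ∨ π = p3 ∨ π = p4 ∨ a • π = π := by
      intro π
      by_contra hcon
      push Not at hcon
      obtain ⟨n1, n2, n3, n4, n5⟩ := hcon
      by_cases htp : t • π = π
      · apply ht_ne
        refine fix t p1 p2 π (a • π) ⟨h12, Ne.symm n1, ?_, Ne.symm n2, ?_, Ne.symm n5⟩ ht1 ht2 htp
          (by rw [← atc, htp])
        · intro h; apply n2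
          have := congrArg (fun π => a • π) h
          simp only [a2, ha1] at this
          exact this.symm
        · intro h; apply n1
          have := congrArg (fun π => a • π) h
          simp only [a2, ha2] at this
          exact this.symm
      · have hs := hreg π n5 htp
        apply hat_ne
        refine fix (a * t) p3 p4 π (a • π) ⟨h34, Ne.symm n3, ?_, Ne.symm n4, ?_, Ne.symm n5⟩
          (by rw [mul_smul, ht3, ha4]) (by rw [mul_smul, ht4, ha3]) (by rw [mul_smul]; exact hs)
          (by rw [mul_smul, ← atc, hs])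
        · intro h; apply n4
          have := congrArg (fun π => a • π) h
          simp only [a2, ha3] at this
          exact this.symm
        · intro h; apply n3
          have := congrArg (fun π => a • π) h
          simp only [a2, ha4] at this
          exact this.symm
    have hFa := small3 {π : Ω | a • π = π} (by
      intro w x y z hw hx hy hz hd
      exact ha_ne (fix a w x y z hd hw hx hy hz))
    have hsub : (Set.univ : Set Ω) ⊆ (({p1, p2, p3, p4} : Finset Ω) : Set Ω) ∪ {π : Ω | a • π = π} := by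
      intro π _
      rcases hcov π with h | h | h | h | h
      · left; simp [h]
      · left; simp [h]
      · left; simp [h]
      · left; simp [h]
      · right; exact h
    have hfinU : (Set.univ : Set Ω).Finite := Set.Finite.subset ((Finset.finite_toSet _).union hFa.1) hsub
    have hfin : Finite Ω := Set.finite_univ_iff.mp hfinU
    have hcard : Nat.card Ω ≤ 7 := by
      rw [← Set.ncard_univ]
      calc (Set.univ : Set Ω).ncard
          ≤ ((({p1, p2, p3, p4} : Finset Ω) : Set Ω) ∪ {π : Ω | a • π = π}).ncard :=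
            Set.ncard_le_ncard hsub ((Finset.finite_toSet _).union hFa.1)
        _ ≤ (({p1, p2, p3, p4} : Finset Ω) : Set Ω).ncard + {π : Ω | a • π = π}.ncard :=
            Set.ncard_union_le _ _
        _ ≤ 4 + 3 := by
            apply Nat.add_le_add _ hFa.2
            rw [Set.ncard_coe_finset]; exact Finset.card_le_four
    refine ⟨hfin, by omega, fun he => ?_⟩
    obtain ⟨r, hr⟩ := he
    omega

end Cfsg.Agent.S0708
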