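import Cfsg.Statements.S0709
import Mathlib

set_option autoImplicit false
open Cfsg

namespace Cfsg.Agent.S0709

section

variable {Γ : Type*} [Group Γ]

theorem ext_lemma (W D : Subgroup Γ) (hDW : D ≤ W) (h s : Γ) (hh : h ∈ W)
    (h1 : ∀ w ∈ W, w ∈ D ∨ ∃ d1 ∈ D, ∃ d2 ∈ D, w = d1 * h * d2)
    (h2 : s ^ 2 ∈ D)
    (h3 : ∀ d ∈ D, s * d * s⁻¹ ∈ D)
    (h4 : (h * s) ^ 3 ∈ W) :
    ∀ x ∈ Subgroup.closure ((W : Set Γ) ∪ {s}),
      x ∈ W ∨ ∃ w1 ∈ W, ∃ w2 ∈ W, x = w1 * s * w2 := by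
  have hsinv : ∃ e ∈ D, s⁻¹ = e * s := ⟨(s ^ 2)⁻¹, D.inv_mem h2, by group⟩
  have h3' : ∀ d ∈ D, s⁻¹ * d * s ∈ D := by
    intro d hd
    have e : s⁻¹ * d * s = (s ^ 2)⁻¹ * (s * d * s⁻¹) * s ^ 2 := by group
    rw [e]
    exact D.mul_mem (D.mul_mem (D.inv_mem h2) (h3 d hd)) h2
  have hshs : ∃ w1 ∈ W, ∃ w2 ∈ W, s * h * s = w1 * s * w2 := by
    refine ⟨h⁻¹ * (h * s) ^ 3 * (s ^ 2)⁻¹, ?_, h⁻¹, W.inv_mem hh, ?_⟩
    · exact W.mul_mem (W.mul_mem (W.inv_mem hh) h4) (W.inv_mem (hDW h2))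
    · have e3 : (h * s) ^ 3 = h * s * (h * s) * (h * s) := by
        rw [pow_succ, pow_succ, pow_one]
      rw [e3]
      group
  have key : ∀ w ∈ W, s * w * s ∈ W ∨ ∃ w1 ∈ W, ∃ w2 ∈ W, s * w * s = w1 * s * w2 := by
    intro w hw
    rcases h1 w hw with hd | ⟨d1, hd1, d2, hd2, rfl⟩
    · left
      have e : s * w * s = (s * w * s⁻¹) * s ^ 2 := by group
      rw [e]
      exact hDW (D.mul_mem (h3 w hd) h2)
    · right
      obtain ⟨w1, hw1, w2, hw2, e⟩ := hshs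
      refine ⟨(s * d1 * s⁻¹) * w1, W.mul_mem (hDW (h3 d1 hd1)) hw1, w2 * (s⁻¹ * d2 * s),
        W.mul_mem hw2 (hDW (h3' d2 hd2)), ?_⟩
      have e' : s * (d1 * h * d2) * s = (s * d1 * s⁻¹) * (s * h * s) * (s⁻¹ * d2 * s) := by group
      rw [e', e]
      group
  intro x hx
  induction hx using Subgroup.closure_induction with
  | mem x hx =>
    rcases hx with hx | hx
    · left
      exact hx
    · right
      rw [Set.mem_singleton_iff] at hx
      exact ⟨1, W.one_mem, 1, W.one_mem, by rw [hx]; group⟩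
  | one =>
    left
    exact W.one_mem
  | mul x y _ _ ihx ihy =>
    rcases ihx with hx | ⟨a1, ha1, a2, ha2, rfl⟩ <;> rcases ihy with hy | ⟨b1, hb1, b2, hb2, rfl⟩
    · left
      exact W.mul_mem hx hy
    · right
      exact ⟨x * b1, W.mul_mem hx hb1, b2, hb2, by group⟩
    · right
      exact ⟨a1, ha1, a2 * y, W.mul_mem ha2 hy, by group⟩
    · have e0 : a1 * s * a2 * (b1 * s * b2) = a1 * (s * (a2 * b1) * s) * b2 := by group
      rcases key (a2 * b1) (W.mul_mem ha2 hb1) with hk | ⟨w1, hw1, w2, hw2, e⟩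
      · left
        rw [e0]
        exact W.mul_mem (W.mul_mem ha1 hk) hb2
      · right
        refine ⟨a1 * w1, W.mul_mem ha1 hw1, w2 * b2, W.mul_mem hw2 hb2, ?_⟩
        rw [e0, e]
        group
  | inv x _ ih =>
    rcases ih with hx | ⟨a1, ha1, a2, ha2, rfl⟩
    · left
      exact W.inv_mem hx
    · right
      obtain ⟨e, he, hse⟩ := hsinv
      refine ⟨a2⁻¹ * e, W.mul_mem (W.inv_mem ha2) (hDW he), a1⁻¹, W.inv_mem ha1, ?_⟩
      have e0 : (a1 * s * a2)⁻¹ = a2⁻¹ * s⁻¹ * a1⁻¹ := by group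
      rw [e0, hse]
      group

theorem conj_closure (S : Set Γ) (K : Subgroup Γ) (s : Γ)
    (h : ∀ g ∈ S, s * g * s⁻¹ ∈ K) : ∀ x ∈ Subgroup.closure S, s * x * s⁻¹ ∈ K := by
  intro x hx
  induction hx using Subgroup.closure_induction with
  | mem x hx => exact h x hx
  | one =>
    have e : s * 1 * s⁻¹ = 1 := by group
    rw [e]
    exact K.one_mem
  | mul x y _ _ ihx ihy =>
    have e : s * (x * y) * s⁻¹ = (s * x * s⁻¹) * (s * y * s⁻¹) := by group
    rw [e]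
    exact K.mul_mem ihx ihy
  | inv x _ ih =>
    have e : s * x⁻¹ * s⁻¹ = (s * x * s⁻¹)⁻¹ := by group
    rw [e]
    exact K.inv_mem ih

theorem conj_of_sq (K H : Subgroup Γ) (hHK : H ≤ K) (s g : Γ) (hg : g ∈ K)
    (hs : s ^ 2 ∈ H) (hsg : (s * g) ^ 2 ∈ H) : s * g * s⁻¹ ∈ K := by
  have e : s * g * s⁻¹ = (s * g) ^ 2 * g⁻¹ * (s ^ 2)⁻¹ := by
    have e2 : (s * g) ^ 2 = s * g * (s * g) := pow_two _
    rw [e2]
    group
  rw [e]
  exact K.mul_mem (K.mul_mem (hHK hsg) (K.inv_mem hg)) (K.inv_mem (hHK hs))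


theorem double_coset {α : Type*} (W D : Subgroup (Equiv.Perm α)) (p : α) (h : Equiv.Perm α)
    (P : α → Prop) (hD : ∀ w, w ∈ D ↔ w ∈ W ∧ w p = p) (hh : h ∈ W)
    (htr : ∀ a b, P a → P b → ∃ d ∈ D, d a = b) (hhp : P (h p))
    (hW : ∀ w ∈ W, w p ≠ p → P (w p)) :
    ∀ w ∈ W, w ∈ D ∨ ∃ d1 ∈ D, ∃ d2 ∈ D, w = d1 * h * d2 := by
  intro w hw
  by_cases hwp : w p = p
  · left
    exact (hD w).mpr ⟨hw, hwp⟩
  · right
    obtain ⟨d, hd, hdp⟩ := htr (h p) (w p) hhp (hW w hw hwp)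
    refine ⟨d, hd, h⁻¹ * d⁻¹ * w, ?_, by group⟩
    rw [hD]
    refine ⟨W.mul_mem (W.mul_mem (W.inv_mem hh) (W.inv_mem ((hD d).mp hd).1)) hw, ?_⟩
    rw [Equiv.Perm.mul_apply, Equiv.Perm.mul_apply, ← hdp, Equiv.Perm.inv_eq_iff_eq,
      Equiv.Perm.inv_eq_iff_eq]

end

/-- Witt's Lemma for constructing transitive extensions. Points `q 1, …, q t` (`t ≥ 2`) of a finite set are given; `G` fixes `q i` for `i ≥ 3` and is doubly transitive on the remaining points; `s 1 ∈ G` swaps `q 1, q 2`; for `2 ≤ i ≤ t-1`, `s i` swaps `q i, q (i+1)` and fixes the other `q j`; with `H` the stabiliser of `q 1, q 2` in `G`: `s i ^ 2 ∈ H`, `(s i * s (i+1)) ^ 3 ∈ H`, `(s i * s j) ^ 2 ∈ H` for `j ≥ i + 2`, and `s i` (`i ≥ 2`) normalises the stabiliser of `q 2` in `G`. Then `G` and the `s i` generate a `t`-transitive group whose pointwise stabiliser of the `q`'s is `H`. -/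
theorem result {α : Type*} [Fintype α] [DecidableEq α] (t : ℕ) (ht : 2 ≤ t) (q : ℕ → α) (hq : ∀ i j : ℕ, 1 ≤ i → i ≤ t → 1 ≤ j → j ≤ t → q i = q j → i = j) (G : Subgroup (Equiv.Perm α)) (hfix : ∀ g ∈ G, ∀ i : ℕ, 3 ≤ i → i ≤ t → g (q i) = q i) (h2 : ∀ a b c d : α, (∀ i, 3 ≤ i → i ≤ t → a ≠ q i ∧ b ≠ q i ∧ c ≠ q i ∧ d ≠ q i) → a ≠ b → c ≠ d → ∃ g ∈ G, g a = c ∧ g b = d) (s : ℕ → Equiv.Perm α) (hs1 : s 1 ∈ G) (hs1q : s 1 (q 1) = q 2 ∧ s 1 (q 2) = q 1) (hsq : ∀ i : ℕ, 2 ≤ i → i + 1 ≤ t → s i (q i) = q (i + 1) ∧ s i (q (i + 1)) = q i ∧ ∀ j : ℕ, 1 ≤ j → j ≤ t → j ≠ i → j ≠ i + 1 → s i (q j) = q j) (H : Subgroup (Equiv.Perm α)) (hH : H = G ⊓ MulAction.stabilizer (Equiv.Perm α) (q 1) ⊓ MulAction.stabilizer (Equiv.Perm α) (q 2)) (hsq2 : ∀ i : ℕ, 1 ≤ i → i + 1 ≤ t → s i ^ 2 ∈ H) (hbraid : ∀ i : ℕ, 1 ≤ i → i + 2 ≤ t → (s i * s (i + 1)) ^ 3 ∈ H) (hcomm : ∀ i j : ℕ, 1 ≤ i → i + 2 ≤ j → j + 1 ≤ t → (s i * s j) ^ 2 ∈ H ∧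 (s j * s i) ^ 2 ∈ H) (hnorm : ∀ i : ℕ, 2 ≤ i → i + 1 ≤ t → ∀ g ∈ G ⊓ MulAction.stabilizer (Equiv.Perm α) (q 2), s i * g * (s i)⁻¹ ∈ G ⊓ MulAction.stabilizer (Equiv.Perm α) (q 2)) : MulAction.IsMultiplyPretransitive ↥(Subgroup.closure ((G : Set (Equiv.Perm α)) ∪ {x | ∃ i : ℕ, 2 ≤ i ∧ i + 1 ≤ t ∧ x = s i})) α t ∧ Subgroup.closure ((G : Set (Equiv.Perm α)) ∪ {x | ∃ i : ℕ, 2 ≤ i ∧ i + 1 ≤ t ∧ x = s i}) ⊓ fixingSubgroup (Equiv.Perm α) {x | ∃ i : ℕ, 1 ≤ i ∧ i ≤ t ∧ x = q i} = H := by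
  classical
  obtain ⟨X, hXdef⟩ : ∃ X : ℕ → Subgroup (Equiv.Perm α), ∀ k, X k =
      Subgroup.closure ((G : Set (Equiv.Perm α)) ∪ {x | ∃ i : ℕ, 2 ≤ i ∧ i + 1 ≤ k ∧ x = s i}) :=
    ⟨fun k => _, fun k => rfl⟩
  obtain ⟨Om, hOm⟩ : ∃ Om : ℕ → α → Prop, ∀ k x, Om k x ↔ ∀ i, k < i → i ≤ t → x ≠ q i :=
    ⟨fun k x => ∀ i, k < i → i ≤ t → x ≠ q i, fun k x => Iff.rfl⟩
  rw [← hXdef t]
  have hmemS : ∀ (g : Equiv.Perm α) (a : α),
      g ∈ MulAction.stabilizer (Equiv.Perm α) a ↔ g a = a := fun g a => Iff.rfl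
  have hGX : ∀ k, G ≤ X k := by
    intro k g hg
    rw [hXdef]
    exact Subgroup.subset_closure (Or.inl hg)
  have hsX : ∀ k i, 2 ≤ i → i + 1 ≤ k → s i ∈ X k := by
    intro k i h1 h2'
    rw [hXdef]
    exact Subgroup.subset_closure (Or.inr ⟨i, h1, h2', rfl⟩)
  have hXmono : ∀ k l, k ≤ l → X k ≤ X l := by
    intro k l hkl
    rw [hXdef, hXdef]
    apply Subgroup.closure_mono
    rintro x (hx | ⟨i, h1, h2', rfl⟩)
    · exact Or.inl hx
    · exact Or.inr ⟨i, h1, by omega, rfl⟩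
  have hX2 : X 2 = G := by
    apply le_antisymm
    · rw [hXdef, Subgroup.closure_le]
      rintro x (hx | ⟨i, h1, h2', rfl⟩)
      · exact hx
      · omega
    · exact hGX 2
  have hXsucc : ∀ k, 2 ≤ k → X (k + 1) = Subgroup.closure ((X k : Set (Equiv.Perm α)) ∪ {s k}) := by
    intro k hk
    apply le_antisymm
    · rw [hXdef (k + 1), Subgroup.closure_le]
      rintro x (hx | ⟨i, h1, h2', rfl⟩)
      · exact Subgroup.subset_closure (Or.inl (hGX k hx))
      · by_cases hik : i = k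
        · subst hik
          exact Subgroup.subset_closure (Or.inr rfl)
        · exact Subgroup.subset_closure (Or.inl (hsX k i h1 (by omega)))
    · rw [Subgroup.closure_le]
      rintro x (hx | hx)
      · exact hXmono k (k + 1) (Nat.le_succ k) hx
      · rw [Set.mem_singleton_iff] at hx
        subst hx
        exact hsX (k + 1) k hk le_rfl
  have hXfix : ∀ k, 2 ≤ k → ∀ x ∈ X k, ∀ j, k < j → j ≤ t → x (q j) = q j := by
    intro k hk2 x hx j hkj hjt
    rw [hXdef] at hx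
    induction hx using Subgroup.closure_induction with
    | mem x hx =>
      rcases hx with hx | ⟨i, h1, h2', rfl⟩
      · exact hfix x hx j (by omega) hjt
      · exact (hsq i h1 (by omega)).2.2 j (by omega) hjt (by omega) (by omega)
    | one => rfl
    | mul x y _ _ ihx ihy => rw [Equiv.Perm.mul_apply, ihy, ihx]
    | inv x _ ih =>
      rw [Equiv.Perm.inv_eq_iff_eq]
      exact ih.symm
  have hOmX : ∀ k, 2 ≤ k → ∀ x ∈ X k, ∀ y, Om k y → Om k (x y) := by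
    intro k hk x hx y hy
    rw [hOm] at hy ⊢
    intro i hki hit hxy
    have h3 := hXfix k hk x hx i hki hit
    exact hy i hki hit (x.injective (hxy.trans h3.symm))
  have hqne : ∀ i j, 1 ≤ i → i ≤ t → 1 ≤ j → j ≤ t → i ≠ j → q i ≠ q j :=
    fun i j h1 h2' h3 h4 hij e => hij (hq i j h1 h2' h3 h4 e)
  have hqOm : ∀ k i, 1 ≤ i → i ≤ k → k ≤ t → Om k (q i) := by
    intro k i h1 hik hkt
    rw [hOm]
    intro j hkj hjt
    exact hqne i j h1 (by omega) (by omega) hjt (by omega)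
  have hq12 : q 1 ≠ q 2 := hqne 1 2 le_rfl (by omega) (by omega) ht (by omega)
  have hG2 : ∀ a b, Om 2 a → Om 2 b → ∃ g ∈ G, g a = b := by
    intro a b ha hb
    obtain ⟨a', ha', haa'⟩ : ∃ a', Om 2 a' ∧ a ≠ a' := by
      by_cases h : a = q 1
      · exact ⟨q 2, hqOm 2 2 (by omega) le_rfl ht, h ▸ hq12⟩
      · exact ⟨q 1, hqOm 2 1 le_rfl (by omega) ht, h⟩
    obtain ⟨b', hb', hbb'⟩ : ∃ b', Om 2 b' ∧ b ≠ b' := by
      by_cases h : b = q 1
      · exact ⟨q 2, hqOm 2 2 (by omega) le_rfl ht, h ▸ hq12⟩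
      · exact ⟨q 1, hqOm 2 1 le_rfl (by omega) ht, h⟩
    rw [hOm] at ha ha' hb hb'
    obtain ⟨g, hg, h1, -⟩ := h2 a a' b b' (fun i h3 hit =>
      ⟨ha i (by omega) hit, ha' i (by omega) hit, hb i (by omega) hit, hb' i (by omega) hit⟩)
      haa' hbb'
    exact ⟨g, hg, h1⟩
  have hqto2 : ∀ k, 2 ≤ k → k ≤ t → ∀ i, 2 ≤ i → i ≤ k → ∃ g ∈ X k, g (q i) = q 2 := by
    intro k hk hkt i hi
    induction i, hi using Nat.le_induction with
    | base =>
      intro _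
      exact ⟨1, one_mem _, rfl⟩
    | succ i hi ih =>
      intro hik
      obtain ⟨g, hg, hgq⟩ := ih (by omega)
      refine ⟨g * s i, mul_mem hg (hsX k i hi hik), ?_⟩
      rw [Equiv.Perm.mul_apply, (hsq i hi (by omega)).2.1, hgq]
  have hTR : ∀ k, 2 ≤ k → k ≤ t → ∀ x y, Om k x → Om k y → ∃ g ∈ X k, g x = y := by
    intro k hk hkt
    have hto : ∀ x, Om k x → ∃ g ∈ X k, g x = q 2 := by
      intro x hx
      by_cases hx2 : Om 2 x
      · obtain ⟨g, hg, e⟩ := hG2 x (q 2) hx2 (hqOm 2 2 (by omega) le_rfl ht)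
        exact ⟨g, hGX k hg, e⟩
      · rw [hOm] at hx2
        push Not at hx2
        obtain ⟨i, hi2, hit, rfl⟩ := hx2
        have hik : i ≤ k := by
          by_contra h
          rw [hOm] at hx
          exact hx i (by omega) hit rfl
        exact hqto2 k hk hkt i (by omega) hik
    intro x y hx hy
    obtain ⟨g1, hg1, e1⟩ := hto x hx
    obtain ⟨g2, hg2, e2⟩ := hto y hy
    refine ⟨g2⁻¹ * g1, mul_mem (inv_mem hg2) hg1, ?_⟩
    rw [Equiv.Perm.mul_apply, e1, Equiv.Perm.inv_eq_iff_eq]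
    exact e2.symm
  have hT : ∀ k, 2 ≤ k → k ≤ t → ∀ x : ℕ → α, (∀ i, 1 ≤ i → i ≤ k → Om k (x i)) →
      (∀ i j, 1 ≤ i → i ≤ k → 1 ≤ j → j ≤ k → x i = x j → i = j) →
      ∃ g ∈ X k, ∀ i, 1 ≤ i → i ≤ k → g (x i) = q i := by
    intro k hk
    induction k, hk using Nat.le_induction with
    | base =>
      intro _ x hxO hxinj
      have hx1 := hxO 1 le_rfl (by omega)
      have hx2 := hxO 2 (by omega) le_rfl
      have hq1 := hqOm 2 1 le_rfl (by omega) ht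
      have hq2 := hqOm 2 2 (by omega) le_rfl ht
      rw [hOm] at hx1 hx2 hq1 hq2
      obtain ⟨g, hg, e1, e2⟩ := h2 (x 1) (x 2) (q 1) (q 2) (fun i h3 hit =>
        ⟨hx1 i (by omega) hit, hx2 i (by omega) hit, hq1 i (by omega) hit, hq2 i (by omega) hit⟩)
        (fun e => by have := hxinj 1 2 le_rfl (by omega) (by omega) le_rfl e; omega) hq12
      refine ⟨g, hGX 2 hg, fun i h1 h2' => ?_⟩
      interval_cases i
      · exact e1
      · exact e2
    | succ k hk ih =>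
      intro hkt x hxO hxinj
      obtain ⟨g1, hg1, e1⟩ := hTR (k + 1) (by omega) hkt (x (k + 1)) (q (k + 1))
        (hxO (k + 1) (by omega) le_rfl) (hqOm (k + 1) (k + 1) (by omega) le_rfl hkt)
      obtain ⟨g2, hg2, e2⟩ := ih (by omega) (fun i => g1 (x i)) (by
          intro i h1 h2'
          have h3 := hOmX (k + 1) (by omega) g1 hg1 (x i) (hxO i h1 (by omega))
          rw [hOm] at h3 ⊢
          intro j hkj hjt e
          by_cases hj : j = k + 1
          · subst hj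
            have h4 : x i = x (k + 1) := g1.injective (e.trans e1.symm)
            have h5 := hxinj i (k + 1) h1 (by omega) (by omega) le_rfl h4
            omega
          · exact h3 j (by omega) hjt e)
        (by
          intro i j h1 h2' h3 h4 e
          exact hxinj i j h1 (by omega) h3 (by omega) (g1.injective e))
      refine ⟨g2 * g1, mul_mem (hXmono k (k + 1) (Nat.le_succ k) hg2) hg1, fun i h1 h2' => ?_⟩
      rw [Equiv.Perm.mul_apply]
      by_cases hi : i = k + 1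
      · subst hi
        rw [e1]
        exact hXfix k hk g2 hg2 (k + 1) (by omega) hkt
      · exact e2 i h1 (by omega)
  have hHG : H ≤ G := by
    rw [hH]
    exact inf_le_left.trans inf_le_left
  have hHfix : ∀ x ∈ H, ∀ i, 1 ≤ i → i ≤ t → x (q i) = q i := by
    intro x hx i h1 hit
    have hx' := hx
    rw [hH] at hx'
    by_cases hi1 : i = 1
    · subst hi1
      exact hx'.1.2
    · by_cases hi2 : i = 2
      · subst hi2
        exact hx'.2
      · exact hfix x (hHG hx) i (by omega) hit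
  have htrD2 : ∀ a b, (Om 2 a ∧ a ≠ q 2) → (Om 2 b ∧ b ≠ q 2) →
      ∃ d ∈ G ⊓ MulAction.stabilizer (Equiv.Perm α) (q 2), d a = b := by
    rintro a b ⟨haO, ha⟩ ⟨hbO, hb⟩
    have hq2 := hqOm 2 2 (by omega) le_rfl ht
    rw [hOm] at haO hbO hq2
    obtain ⟨g, hg, e1, e2⟩ := h2 (q 2) a (q 2) b (fun i h3 hit =>
      ⟨hq2 i (by omega) hit, haO i (by omega) hit, hq2 i (by omega) hit, hbO i (by omega) hit⟩)
      (Ne.symm ha) (Ne.symm hb)
    exact ⟨g, ⟨hg, e1⟩, e2⟩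
  have hdouble2 : ∀ w ∈ G, w ∈ G ⊓ MulAction.stabilizer (Equiv.Perm α) (q 2) ∨
      ∃ d1 ∈ G ⊓ MulAction.stabilizer (Equiv.Perm α) (q 2),
      ∃ d2 ∈ G ⊓ MulAction.stabilizer (Equiv.Perm α) (q 2), w = d1 * s 1 * d2 := by
    refine double_coset G _ (q 2) (s 1) (fun a => Om 2 a ∧ a ≠ q 2) (fun w => Iff.rfl) hs1
      htrD2 ?_ ?_
    · rw [hs1q.2]
      exact ⟨hqOm 2 1 le_rfl (by omega) ht, hq12⟩
    · intro w hw hwp
      exact ⟨hOmX 2 le_rfl w (hGX 2 hw) (q 2) (hqOm 2 2 (by omega) le_rfl ht), hwp⟩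
  have hsG : ∀ j, 3 ≤ j → j + 1 ≤ t → ∀ g ∈ G, s j * g * (s j)⁻¹ ∈ G := by
    intro j hj hjt g hg
    rcases hdouble2 g hg with hd | ⟨d1, hd1, d2, hd2, rfl⟩
    · exact (hnorm j (by omega) hjt g hd).1
    · have e : s j * (d1 * s 1 * d2) * (s j)⁻¹ =
          (s j * d1 * (s j)⁻¹) * (s j * s 1 * (s j)⁻¹) * (s j * d2 * (s j)⁻¹) := by group
      rw [e]
      exact G.mul_mem (G.mul_mem (hnorm j (by omega) hjt d1 hd1).1
        (conj_of_sq G H hHG (s j) (s 1) hs1 (hsq2 j (by omega) hjt)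
          (hcomm 1 j le_rfl (by omega) hjt).2)) (hnorm j (by omega) hjt d2 hd2).1
  have hstep : ∀ m, 1 ≤ m → m + 2 ≤ t →
      (∀ d ∈ X (m + 1) ⊓ MulAction.stabilizer (Equiv.Perm α) (q (m + 1)),
        s (m + 1) * d * (s (m + 1))⁻¹ ∈
          X (m + 1) ⊓ MulAction.stabilizer (Equiv.Perm α) (q (m + 1))) →
      (∀ a b, (Om (m + 1) a ∧ a ≠ q (m + 1)) → (Om (m + 1) b ∧ b ≠ q (m + 1)) →
        ∃ d ∈ X (m + 1) ⊓ MulAction.stabilizer (Equiv.Perm α) (q (m + 1)), d a = b) →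
      s m ∈ X (m + 1) → s m (q (m + 1)) = q m →
      ∀ x ∈ X (m + 2), x (q (m + 2)) = q (m + 2) → x ∈ X (m + 1) := by
    intro m hm hmt hnormD htr hsm hsmq
    have hd := double_coset (X (m + 1)) _ (q (m + 1)) (s m)
      (fun a => Om (m + 1) a ∧ a ≠ q (m + 1)) (fun w => Iff.rfl) hsm htr
      (by
        rw [hsmq]
        exact ⟨hqOm (m + 1) m hm (by omega) (by omega),
          hqne m (m + 1) hm (by omega) (by omega) (by omega) (by omega)⟩)
      (fun w hw hwp => ⟨hOmX (m + 1) (by omega) w hw (q (m + 1))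
        (hqOm (m + 1) (m + 1) (by omega) le_rfl (by omega)), hwp⟩)
    have hHD : H ≤ X (m + 1) ⊓ MulAction.stabilizer (Equiv.Perm α) (q (m + 1)) :=
      fun x hx => ⟨hGX (m + 1) (hHG hx), hHfix x hx (m + 1) (by omega) (by omega)⟩
    have hext := ext_lemma (X (m + 1)) _ inf_le_left (s m) (s (m + 1)) hsm hd
      (hHD (hsq2 (m + 1) (by omega) (by omega))) hnormD
      (hGX (m + 1) (hHG (hbraid m hm hmt)))
    intro x hx hxq
    have hx' : x ∈ Subgroup.closure ((X (m + 1) : Set (Equiv.Perm α)) ∪ {s (m + 1)}) := by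
      rw [← hXsucc (m + 1) (by omega)]
      exact hx
    rcases hext x hx' with h | ⟨w1, hw1, w2, hw2, rfl⟩
    · exact h
    · exfalso
      have e1 : w2 (q (m + 2)) = q (m + 2) :=
        hXfix (m + 1) (by omega) w2 hw2 (m + 2) (by omega) hmt
      have e2 : s (m + 1) (q (m + 2)) = q (m + 1) := (hsq (m + 1) (by omega) (by omega)).2.1
      have e3 : w1 (q (m + 2)) = q (m + 2) :=
        hXfix (m + 1) (by omega) w1 hw1 (m + 2) (by omega) hmt
      rw [Equiv.Perm.mul_apply, Equiv.Perm.mul_apply, e1, e2] at hxq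
      exact hqne (m + 1) (m + 2) (by omega) (by omega) (by omega) hmt (by omega)
        (w1.injective (hxq.trans e3.symm))
  have hPP : ∀ m, 1 ≤ m → m + 2 ≤ t →
      ∀ x ∈ X (m + 2), x (q (m + 2)) = q (m + 2) → x ∈ X (m + 1) := by
    intro m hm
    induction m, hm using Nat.le_induction with
    | base =>
      intro hmt
      apply hstep 1 le_rfl hmt
      · intro d hd
        have hd' : d ∈ G ⊓ MulAction.stabilizer (Equiv.Perm α) (q 2) := ⟨hX2 ▸ hd.1, hd.2⟩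
        have h3 := hnorm 2 le_rfl hmt d hd'
        exact ⟨hGX 2 h3.1, h3.2⟩
      · intro a b ha hb
        obtain ⟨d, hd, e⟩ := htrD2 a b ha hb
        exact ⟨d, ⟨hGX 2 hd.1, hd.2⟩, e⟩
      · exact hGX 2 hs1
      · exact hs1q.2
    | succ m hm ih =>
      intro hmt
      have ih' := ih (by omega)
      apply hstep (m + 1) (by omega) hmt
      · intro d hd
        have hd' : d ∈ X (m + 1) := ih' d hd.1 hd.2
        have hc : s (m + 2) * d * (s (m + 2))⁻¹ ∈ X (m + 1) := by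
          have hgen : ∀ g ∈ (G : Set (Equiv.Perm α)) ∪
              {x | ∃ i : ℕ, 2 ≤ i ∧ i + 1 ≤ m + 1 ∧ x = s i},
              s (m + 2) * g * (s (m + 2))⁻¹ ∈ X (m + 1) := by
            rintro g (hg | ⟨i, hi1, hi2, rfl⟩)
            · exact hGX (m + 1) (hsG (m + 2) (by omega) (by omega) g hg)
            · exact conj_of_sq (X (m + 1)) H (hHG.trans (hGX (m + 1))) (s (m + 2)) (s i)
                (hsX (m + 1) i hi1 hi2) (hsq2 (m + 2) (by omega) (by omega))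
                ((hcomm i (m + 2) (by omega) (by omega) (by omega)).2)
          rw [hXdef (m + 1)] at hd'
          exact conj_closure _ _ (s (m + 2)) hgen d hd'
        exact ⟨hXmono (m + 1) (m + 2) (by omega) hc,
          hXfix (m + 1) (by omega) _ hc (m + 2) (by omega) (by omega)⟩
      · rintro a b ⟨haO, ha⟩ ⟨hbO, hb⟩
        have haO' : Om (m + 1) a := by
          rw [hOm] at haO ⊢
          intro i h1 h2'
          by_cases hi : i = m + 2
          · subst hi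
            exact ha
          · exact haO i (by omega) h2'
        have hbO' : Om (m + 1) b := by
          rw [hOm] at hbO ⊢
          intro i h1 h2'
          by_cases hi : i = m + 2
          · subst hi
            exact hb
          · exact hbO i (by omega) h2'
        obtain ⟨g, hg, e⟩ := hTR (m + 1) (by omega) (by omega) a b haO' hbO'
        exact ⟨g, ⟨hXmono (m + 1) (m + 2) (by omega) hg,
          hXfix (m + 1) (by omega) g hg (m + 2) (by omega) (by omega)⟩, e⟩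
      · exact hsX (m + 2) (m + 1) (by omega) le_rfl
      · exact (hsq (m + 1) (by omega) (by omega)).2.1
  have hfixset : ∀ x : Equiv.Perm α,
      x ∈ fixingSubgroup (Equiv.Perm α) {x | ∃ i : ℕ, 1 ≤ i ∧ i ≤ t ∧ x = q i} ↔
        ∀ i, 1 ≤ i → i ≤ t → x (q i) = q i := by
    intro x
    rw [mem_fixingSubgroup_iff]
    constructor
    · intro h i h1 h2'
      exact h (q i) ⟨i, h1, h2', rfl⟩
    · rintro h y ⟨i, h1, h2', rfl⟩
      exact h i h1 h2'
  refine ⟨?_, ?_⟩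
  · rw [MulAction.isMultiplyPretransitive_iff]
    intro x y
    have hOmt : ∀ a, Om t a := by
      intro a
      rw [hOm]
      intro i h1 h2'
      omega
    have key : ∀ z : Fin t ↪ α, ∃ g ∈ X t, ∀ i : Fin t, g (z i) = q (i.1 + 1) := by
      intro z
      obtain ⟨g, hg, hgz⟩ := hT t ht le_rfl
        (fun i => if h : 1 ≤ i ∧ i ≤ t then z ⟨i - 1, by omega⟩ else q 1)
        (fun i _ _ => hOmt _) (by
          intro i j h1 h2' h3 h4 e
          rw [dif_pos ⟨h1, h2'⟩, dif_pos ⟨h3, h4⟩] at e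
          have h5 := z.injective e
          rw [Fin.mk.injEq] at h5
          omega)
      refine ⟨g, hg, fun i => ?_⟩
      have hi := i.2
      have h5 := hgz (i.1 + 1) (by omega) (by omega)
      rw [dif_pos ⟨by omega, by omega⟩] at h5
      have h6 : (⟨i.1 + 1 - 1, by omega⟩ : Fin t) = i := by
        apply Fin.ext
        simp
      rw [h6] at h5
      exact h5
    obtain ⟨gx, hgx, ex⟩ := key x
    obtain ⟨gy, hgy, ey⟩ := key y
    refine ⟨⟨gy⁻¹ * gx, mul_mem (inv_mem hgy) hgx⟩, ?_⟩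
    ext i
    show (gy⁻¹ * gx) (x i) = y i
    rw [Equiv.Perm.mul_apply, ex i, Equiv.Perm.inv_eq_iff_eq, ey i]
  · ext x
    rw [Subgroup.mem_inf, hfixset]
    constructor
    · rintro ⟨hxX, hxfix⟩
      have hdown : ∀ k, 2 ≤ k → k ≤ t → x ∈ X k → x ∈ X 2 := by
        intro k hk
        induction k, hk using Nat.le_induction with
        | base => exact fun _ h => h
        | succ k hk ih =>
          intro hkt hxk
          obtain ⟨m, rfl⟩ : ∃ m, k = m + 1 := ⟨k - 1, by omega⟩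
          exact ih (by omega) (hPP m (by omega) hkt x hxk (hxfix (m + 2) (by omega) hkt))
      have hxG : x ∈ G := hX2 ▸ hdown t ht le_rfl hxX
      rw [hH]
      exact ⟨⟨hxG, hxfix 1 le_rfl (by omega)⟩, hxfix 2 (by omega) ht⟩
    · intro hx
      exact ⟨hGX t (hHG hx), hHfix x hx⟩

end Cfsg.Agent.S0709
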