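import Cfsg.Statements.S0710
import Mathlib

set_option autoImplicit false
open Cfsg

namespace Cfsg.Agent.S0710

/-- No transitive permutation group on 13 points has order `13 * 12 * 11 * 10 * 9 * 8`. -/
theorem result {α : Type*} [Fintype α] [DecidableEq α] (hα : Fintype.card α = 13) (G : Subgroup (Equiv.Perm α)) [MulAction.IsPretransitive G α] : Nat.card G ≠ 13 * 12 * 11 * 10 * 9 * 8 := by
  intro hcard
  have hcard' : Nat.card G = 1235520 := by rw [hcard]
  have : Fact (Nat.Prime 13) := ⟨by norm_num⟩
  have : Finite G := Nat.finite_of_card_ne_zero (by rw [hcard']; norm_num)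
  obtain ⟨P⟩ := (inferInstance : Nonempty (Sylow 13 G))
  -- the Sylow subgroup has order 13
  have hP13 : Nat.card P = 13 := by
    obtain ⟨k, hk⟩ := P.2.exists_card_eq
    have h1 : Nat.card P ∣ Nat.card G := Subgroup.card_subgroup_dvd_card _
    have h2 : ¬ 13 ∣ (P : Subgroup G).index := P.not_dvd_index
    have h3 : Nat.card P * (P : Subgroup G).index = Nat.card G := Subgroup.card_mul_index _
    rw [hk] at h1 h3
    rw [hcard'] at h1 h3
    have hk2 : k < 2 := by
      by_contra hcon
      push Not at hcon
      have : 13 ^ 2 ∣ 1235520 := (pow_dvd_pow 13 hcon).trans h1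
      norm_num at this
    interval_cases k
    · exfalso
      apply h2
      rw [pow_zero, one_mul] at h3
      rw [h3]; norm_num
    · rw [hk]; norm_num
  -- an element of order 13
  have hPc : IsCyclic P := isCyclic_of_prime_card hP13
  have hPcomm : IsMulCommutative P := ⟨⟨fun a b => by
    let _ := hPc.commGroup; exact mul_comm a b⟩⟩
  obtain ⟨x, hx⟩ := exists_prime_orderOf_dvd_card' (G := P) 13 (by rw [hP13])
  set σ : Equiv.Perm α := ((x : G) : Equiv.Perm α) with hσ
  have hσord : orderOf σ = 13 := by
    rw [hσ, Subgroup.orderOf_coe, Subgroup.orderOf_coe, hx]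
  have hct : σ.cycleType = {13} := by
    obtain ⟨n, hn⟩ := Equiv.Perm.cycleType_prime_order (by rw [hσord]; norm_num : (orderOf σ).Prime)
    rw [hσord] at hn
    have hs := Equiv.Perm.sum_cycleType_le σ
    rw [hn, Multiset.sum_replicate, hα, smul_eq_mul] at hs
    have hn0 : n = 0 := by omega
    rw [hn, hn0]
    rfl
  have hcent : Nat.card (Subgroup.centralizer ({σ} : Set (Equiv.Perm α))) = 13 := by
    rw [Equiv.Perm.nat_card_centralizer, hct, hα]
    decide
  -- the centralizer of P in G has order 13
  have hC13 : Nat.card (Subgroup.centralizer ((P : Subgroup G) : Set G)) = 13 := by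
    apply le_antisymm
    · refine le_of_le_of_eq ?_ hcent
      let φ : Subgroup.centralizer ((P : Subgroup G) : Set G) →
          Subgroup.centralizer ({σ} : Set (Equiv.Perm α)) := fun c =>
        ⟨((c : G) : Equiv.Perm α), by
          rw [Subgroup.mem_centralizer_iff]
          intro y hy
          rw [Set.mem_singleton_iff] at hy
          subst hy
          have h1 := Subgroup.mem_centralizer_iff.mp c.2 (x : G) x.2
          have h2 := congrArg (fun z : G => (z : Equiv.Perm α)) h1
          simpa using h2⟩
      have hφ : Function.Injective φ := by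
        intro c d hcd
        apply Subtype.ext
        apply Subtype.ext
        exact congrArg (fun z : Subgroup.centralizer ({σ} : Set (Equiv.Perm α)) => (z : Equiv.Perm α)) hcd
      exact Nat.card_le_card_of_injective φ hφ
    · refine le_of_eq_of_le hP13.symm ?_
      exact Subgroup.card_le_of_le (Subgroup.le_centralizer (P : Subgroup G))
  -- N/C embeds in Aut(P)
  have key := Subgroup.card_dvd_of_injective _
    (QuotientGroup.kerLift_injective (P : Subgroup G).normalizerMonoidHom)
  rw [Subgroup.normalizerMonoidHom_ker, ← Subgroup.index, ← Subgroup.relIndex] at key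
  rw [hPc.card_mulAut, hP13] at key
  have htot : Nat.totient 13 = 12 := by decide
  rw [htot] at key
  have hCN : Subgroup.centralizer ((P : Subgroup G) : Set G) ≤
      Subgroup.normalizer ((P : Subgroup G) : Set G) := Subgroup.centralizer_le_normalizer _
  have hN : (Subgroup.centralizer ((P : Subgroup G) : Set G)).relIndex
      (Subgroup.normalizer ((P : Subgroup G) : Set G)) * 13 =
      Nat.card (Subgroup.normalizer ((P : Subgroup G) : Set G)) := by
    have h1 := Subgroup.card_mul_index ((Subgroup.centralizer ((P : Subgroup G) : Set G)).subgroupOf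
      (Subgroup.normalizer ((P : Subgroup G) : Set G)))
    rw [Nat.card_congr (Subgroup.subgroupOfEquivOfLe hCN).toEquiv, hC13] at h1
    rw [Subgroup.relIndex, mul_comm]
    exact h1
  have hsyl := card_sylow_modEq_one 13 G
  rw [Sylow.card_eq_index_normalizer P] at hsyl
  have hidx := Subgroup.index_mul_card (Subgroup.normalizer ((P : Subgroup G) : Set G))
  rw [← hN, hcard'] at hidx
  set d := (Subgroup.centralizer ((P : Subgroup G) : Set G)).relIndex
      (Subgroup.normalizer ((P : Subgroup G) : Set G)) with hd
  set m := (Subgroup.normalizer ((P : Subgroup G) : Set G)).index with hm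
  have hd12 : d ≤ 12 := Nat.le_of_dvd (by norm_num) key
  have hm1 : m % 13 = 1 := hsyl
  interval_cases d <;> omega

end Cfsg.Agent.S0710
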