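import Cfsg.Statements.S0711
import Cfsg.Agent.Lib.Helper6.MTrans

set_option autoImplicit false
open Cfsg

namespace Cfsg.Agent.S0711

open Equiv Cfsg.Agent.Lib.Helper6

variable {α : Type*} [Fintype α] [DecidableEq α]

/-- support of the commutator `g⁻¹ x g x⁻¹` when `x` fixes `Γ` pointwise -/
lemma supp_comm_subset (g x : Perm α) (Γ Γ' : Finset α) (hx : ∀ z ∈ Γ, x z = z)
    (hΓ' : ∀ z ∈ Γ', z ∈ Γ ∧ g z ∈ Γ) :
    (g⁻¹ * x * g * x⁻¹).support ⊆
      (g.support \ Γ') ∪ ((g.support \ Γ).image x \ g.support) := by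
  intro z hz
  by_contra hzU
  apply Perm.mem_support.mp hz
  rw [Finset.mem_union, not_or] at hzU
  obtain ⟨hU1, hU2⟩ := hzU
  by_cases hzΔ : z ∈ g.support
  · have hzΓ' : z ∈ Γ' := by
      by_contra hh
      exact hU1 (Finset.mem_sdiff.mpr ⟨hzΔ, hh⟩)
    obtain ⟨hzΓ, hgz⟩ := hΓ' z hzΓ'
    have h1 : x⁻¹ z = z := Perm.inv_eq_iff_eq.mpr (hx z hzΓ).symm
    rw [Perm.mul_apply, Perm.mul_apply, Perm.mul_apply, h1, hx (g z) hgz, perm_inv_apply]
  · have hgz : g z = z := Perm.notMem_support.mp hzΔ
    have h1 : x⁻¹ z ∉ g.support := by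
      intro hy
      by_cases hyΓ : x⁻¹ z ∈ Γ
      · have h2 := hx _ hyΓ
        rw [perm_apply_inv] at h2
        rw [← h2] at hy
        exact hzΔ hy
      · apply hU2
        rw [Finset.mem_sdiff]
        refine ⟨Finset.mem_image.mpr ⟨x⁻¹ z, Finset.mem_sdiff.mpr ⟨hy, hyΓ⟩, perm_apply_inv x z⟩,
          hzΔ⟩
    have h2 : g (x⁻¹ z) = x⁻¹ z := Perm.notMem_support.mp h1
    rw [Perm.mul_apply, Perm.mul_apply, Perm.mul_apply, h2, perm_apply_inv]
    exact Perm.inv_eq_iff_eq.mpr hgz.symm

/-- subsets of the support with at most one exit -/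
lemma exists_chain (g : Perm α) : ∀ j : ℕ, j ≤ g.support.card →
    ∃ Γ : Finset α, Γ ⊆ g.support ∧ Γ.card = j ∧
      ∀ c₁ ∈ Γ, ∀ c₂ ∈ Γ, g c₁ ∉ Γ → g c₂ ∉ Γ → c₁ = c₂ := by
  intro j
  induction j with
  | zero => intro _; exact ⟨∅, by simp, by simp, by simp⟩
  | succ j ih =>
    intro hj
    obtain ⟨Γ, hΓ, hcard, hex⟩ := ih (by omega)
    by_cases hinv : ∃ c₀ ∈ Γ, g c₀ ∉ Γ
    · obtain ⟨c₀, hc₀, hgc₀⟩ := hinv
      refine ⟨insert (g c₀) Γ, ?_, ?_, ?_⟩
      · intro z hz
        rcases Finset.mem_insert.mp hz with rfl | hz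
        · exact Perm.apply_mem_support.mpr (hΓ hc₀)
        · exact hΓ hz
      · rw [Finset.card_insert_of_notMem hgc₀, hcard]
      · have key : ∀ c ∈ insert (g c₀) Γ, g c ∉ insert (g c₀) Γ → c = g c₀ := by
          intro c hc hgc
          rcases Finset.mem_insert.mp hc with rfl | hc
          · rfl
          · exfalso
            have h1 : g c ∉ Γ := fun hh => hgc (Finset.mem_insert_of_mem hh)
            have h2 := hex c hc c₀ hc₀ h1 hgc₀
            rw [h2] at hgc
            exact hgc (Finset.mem_insert_self _ _)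
        intro c₁ hc₁ c₂ hc₂ h1 h2
        rw [key c₁ hc₁ h1, key c₂ hc₂ h2]
    · push Not at hinv
      obtain ⟨d, hd, hdΓ⟩ := Finset.exists_mem_notMem_of_card_lt_card (s := Γ) (t := g.support)
        (by omega)
      refine ⟨insert d Γ, ?_, ?_, ?_⟩
      · intro z hz
        rcases Finset.mem_insert.mp hz with rfl | hz
        · exact hd
        · exact hΓ hz
      · rw [Finset.card_insert_of_notMem hdΓ, hcard]
      · have key : ∀ c ∈ insert d Γ, g c ∉ insert d Γ → c = d := by
          intro c hc hgc
          rcases Finset.mem_insert.mp hc with rfl | hc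
          · rfl
          · exfalso
            exact hgc (Finset.mem_insert_of_mem (hinv c hc))
        intro c₁ hc₁ c₂ hc₂ h1 h2
        rw [key c₁ hc₁ h1, key c₂ hc₂ h2]

/-- reduction step: an element with support of size between 4 and `2k-3` yields a
nontrivial element of smaller support -/
lemma reduce {G : Subgroup (Perm α)} {k : ℕ} (hk : 3 ≤ k) (hkn : k ≤ Fintype.card α)
    (hG : MT k G ∅) (g : Perm α) (hg : g ∈ G) (h4 : 4 ≤ g.support.card)
    (hsupp : g.support.card < 2 * k - 2) :
    ∃ h ∈ G, h ≠ 1 ∧ h.support.card < g.support.card := by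
  by_cases huniv : ∀ e, e ∈ g.support
  · -- no fixed point: take any nontrivial element with a fixed point
    obtain ⟨a, _⟩ := exists_notMem_of_card_lt (∅ : Finset α) (by simp; omega)
    obtain ⟨b, hb⟩ := exists_notMem_of_card_lt ({a} : Finset α) (by simp; omega)
    obtain ⟨c, hc⟩ := exists_notMem_of_card_lt ({a, b} : Finset α) (by
      have := Finset.card_le_two (a := a) (b := b)
      omega)
    simp only [Finset.mem_insert, Finset.mem_singleton, not_or] at hb hc
    obtain ⟨s, hs, hsT, hsb⟩ := hG.exists_fix {a} (by simp; omega) (by simp) (x := b) (y := c)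
      (by simp [hb]) (by simp [hc.1])
    refine ⟨s, hs, ?_, ?_⟩
    · intro h1
      rw [h1] at hsb
      exact hc.2 hsb.symm
    · have h1 : s.support ⊆ Finset.univ.erase a := by
        intro z hz
        rw [Finset.mem_erase]
        refine ⟨?_, Finset.mem_univ _⟩
        rintro rfl
        exact Perm.mem_support.mp hz (hsT z (by simp))
      have h2 := Finset.card_le_card h1
      rw [Finset.card_erase_of_mem (Finset.mem_univ a), Finset.card_univ] at h2
      have h3 : g.support = Finset.univ := Finset.eq_univ_iff_forall.mpr huniv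
      rw [h3, Finset.card_univ]
      have : 0 < Fintype.card α := by omega
      omega
  push Not at huniv
  obtain ⟨e, he⟩ := huniv
  have hge : g e = e := Perm.notMem_support.mp he
  by_cases hmk : g.support.card ≤ k
  · -- small support: produce an element of support at most 3
    obtain ⟨d, hd⟩ : ∃ d, d ∈ g.support := by
      apply Finset.card_pos.mp; omega
    have hgd : g d ≠ d := Perm.mem_support.mp hd
    have hgid : g⁻¹ d ≠ d := fun h => hgd (Perm.inv_eq_iff_eq.mp h).symm
    have hgidΔ : g⁻¹ d ∈ g.support := by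
      rw [← Perm.apply_mem_support, perm_apply_inv]; exact hd
    obtain ⟨x, hxG, hxT, hxd⟩ := hG.exists_fix (g.support.erase d) (by
        rw [Finset.card_erase_of_mem hd]; omega) (by simp) (x := d) (y := e)
        (by simp) (by simp [he])
    have hsub := supp_comm_subset g x (g.support.erase d) ((g.support.erase d).erase (g⁻¹ d)) hxT
      (by
        intro z hz
        rw [Finset.mem_erase, Finset.mem_erase] at hz
        refine ⟨Finset.mem_erase.mpr ⟨hz.2.1, hz.2.2⟩, Finset.mem_erase.mpr ⟨?_, ?_⟩⟩
        · intro h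
          exact hz.1 (Perm.inv_eq_iff_eq.mpr h.symm).symm
        · exact Perm.apply_mem_support.mpr hz.2.2)
    refine ⟨g⁻¹ * x * g * x⁻¹, ?_, ?_, ?_⟩
    · exact G.mul_mem (G.mul_mem (G.mul_mem (G.inv_mem hg) hxG) hg) (G.inv_mem hxG)
    · intro h1
      have h2 := congrArg (fun u : Perm α => u e) h1
      simp only [Perm.mul_apply, Perm.one_apply] at h2
      rw [Perm.inv_eq_iff_eq.mpr hxd.symm,
        hxT (g d) (Finset.mem_erase.mpr ⟨hgd, Perm.apply_mem_support.mpr hd⟩),
        perm_inv_apply] at h2
      rw [← h2] at he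
      exact he hd
    · have h1 := Finset.card_le_card hsub
      have h2 := Finset.card_union_le (g.support \ (g.support.erase d).erase (g⁻¹ d))
        ((g.support \ g.support.erase d).image x \ g.support)
      have h3 : (g.support \ (g.support.erase d).erase (g⁻¹ d)).card = 2 := by
        rw [Finset.card_sdiff_of_subset ((Finset.erase_subset _ _).trans (Finset.erase_subset _ _)),
          Finset.card_erase_of_mem (Finset.mem_erase.mpr ⟨hgid, hgidΔ⟩),
          Finset.card_erase_of_mem hd]
        omega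
      have h4' : ((g.support \ g.support.erase d).image x \ g.support).card ≤ 1 := by
        refine (Finset.card_le_card Finset.sdiff_subset).trans (Finset.card_image_le.trans ?_)
        rw [Finset.card_sdiff_of_subset (Finset.erase_subset _ _), Finset.card_erase_of_mem hd]
        omega
      omega
  push Not at hmk
  obtain ⟨Γ, hΓ, hΓcard, hΓex⟩ := exists_chain g (k - 1) (by omega)
  by_cases hinv : ∃ c₀ ∈ Γ, g c₀ ∉ Γ
  · obtain ⟨c₀, hc₀, hgc₀⟩ := hinv
    have hdΔ : g c₀ ∈ g.support := Perm.apply_mem_support.mpr (hΓ hc₀)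
    obtain ⟨e', he'Δ, he'⟩ := Finset.exists_mem_notMem_of_card_lt_card
      (s := insert (g c₀) Γ) (t := g.support) (by
        rw [Finset.card_insert_of_notMem hgc₀]; omega)
    rw [Finset.mem_insert, not_or] at he'
    obtain ⟨x, hxG, hxT, hxd⟩ := hG.exists_fix Γ (by omega) (by simp) (x := g c₀) (y := e')
      (by simpa using hgc₀) (by simpa using he'.2)
    have hsub := supp_comm_subset g x Γ (Γ.erase c₀) hxT (by
        intro z hz
        rw [Finset.mem_erase] at hz
        refine ⟨hz.2, ?_⟩
        by_contra hh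
        exact hz.1 (hΓex z hz.2 c₀ hc₀ hh hgc₀))
    refine ⟨g⁻¹ * x * g * x⁻¹, ?_, ?_, ?_⟩
    · exact G.mul_mem (G.mul_mem (G.mul_mem (G.inv_mem hg) hxG) hg) (G.inv_mem hxG)
    · intro h1
      have h2 := congrArg (fun u : Perm α => u c₀) h1
      simp only [Perm.mul_apply, Perm.one_apply] at h2
      rw [Perm.inv_eq_iff_eq.mpr (hxT c₀ hc₀).symm, hxd, Perm.inv_eq_iff_eq] at h2
      exact he'.1 h2
    · have h1 := Finset.card_le_card hsub
      have h2 := Finset.card_union_le (g.support \ Γ.erase c₀)
        ((g.support \ Γ).image x \ g.support)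
      have h3 : (g.support \ Γ.erase c₀).card = g.support.card - (k - 2) := by
        rw [Finset.card_sdiff_of_subset ((Finset.erase_subset _ _).trans hΓ),
          Finset.card_erase_of_mem hc₀, hΓcard]
        omega
      have h4' : ((g.support \ Γ).image x \ g.support).card ≤ g.support.card - (k - 1) - 1 := by
        have hsub2 : (g.support \ Γ).image x \ g.support ⊆
            ((g.support \ Γ).erase (g c₀)).image x := by
          intro z hz
          rw [Finset.mem_sdiff, Finset.mem_image] at hz
          obtain ⟨⟨y, hy, rfl⟩, hz2⟩ := hz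
          refine Finset.mem_image.mpr ⟨y, Finset.mem_erase.mpr ⟨?_, hy⟩, rfl⟩
          intro hyd
          rw [hyd, hxd] at hz2
          exact hz2 he'Δ
        refine (Finset.card_le_card hsub2).trans (Finset.card_image_le.trans ?_)
        rw [Finset.card_erase_of_mem (Finset.mem_sdiff.mpr ⟨hdΔ, hgc₀⟩),
          Finset.card_sdiff_of_subset hΓ, hΓcard]
      omega
  · push Not at hinv
    obtain ⟨d, hdΔ, hdΓ⟩ := Finset.exists_mem_notMem_of_card_lt_card (s := Γ) (t := g.support)
      (by omega)
    have hgd : g d ≠ d := Perm.mem_support.mp hdΔ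
    have heΓ : e ∉ Γ := fun h => he (hΓ h)
    obtain ⟨x, hxG, hxT, hxd⟩ := hG.exists_fix Γ (by omega) (by simp) (x := d) (y := e)
      (by simpa using hdΓ) (by simpa using heΓ)
    have hsub := supp_comm_subset g x Γ Γ hxT (fun z hz => ⟨hz, hinv z hz⟩)
    refine ⟨g⁻¹ * x * g * x⁻¹, ?_, ?_, ?_⟩
    · exact G.mul_mem (G.mul_mem (G.mul_mem (G.inv_mem hg) hxG) hg) (G.inv_mem hxG)
    · intro h1
      have h2 := congrArg (fun u : Perm α => u e) h1
      simp only [Perm.mul_apply, Perm.one_apply] at h2
      rw [Perm.inv_eq_iff_eq.mpr hxd.symm, Perm.inv_eq_iff_eq, hge, ← hxd] at h2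
      exact hgd (x.injective h2)
    · have h1 := Finset.card_le_card hsub
      have h2 := Finset.card_union_le (g.support \ Γ) ((g.support \ Γ).image x \ g.support)
      have h3 : (g.support \ Γ).card = g.support.card - (k - 1) := by
        rw [Finset.card_sdiff_of_subset hΓ, hΓcard]
      have h4' : ((g.support \ Γ).image x \ g.support).card ≤ g.support.card - (k - 1) := by
        refine (Finset.card_le_card Finset.sdiff_subset).trans (Finset.card_image_le.trans ?_)
        rw [h3]
      omega

lemma exists_small {G : Subgroup (Perm α)} {k : ℕ} (hk : 3 ≤ k) (hkn : k ≤ Fintype.card α)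
    (hG : MT k G ∅) : ∀ n : ℕ, ∀ g ∈ G, g ≠ 1 → g.support.card = n → n < 2 * k - 2 →
    ∃ h ∈ G, h ≠ 1 ∧ h.support.card ≤ 3 := by
  intro n
  induction n using Nat.strong_induction_on with
  | _ n ih =>
    intro g hg hg1 hn hlt
    by_cases h3 : n ≤ 3
    · exact ⟨g, hg, hg1, by omega⟩
    · obtain ⟨h, hh, hh1, hlt'⟩ := reduce hk hkn hG g hg (by omega) (by omega)
      exact ih h.support.card (by omega) h hh hh1 rfl (by omega)

/-- A `k`-transitive permutation group (`k ≥ 3`) with a non-identity element of support smaller than `2k - 2` contains a non-identity element of support at most 3, and therefore contains the alternating group. -/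
theorem result {α : Type*} [Fintype α] [DecidableEq α] (G : Subgroup (Equiv.Perm α)) {k : ℕ} (hk : 3 ≤ k) (hkn : k ≤ Fintype.card α) (hG : MulAction.IsMultiplyPretransitive G α k) (g : Equiv.Perm α) (hg : g ∈ G) (hg1 : g ≠ 1) (hsupp : g.support.card < 2 * k - 2) : (∃ h : Equiv.Perm α, h ∈ G ∧ h ≠ 1 ∧ h.support.card ≤ 3) ∧ alternatingGroup α ≤ G := by
  classical
  have hGt : MT k G ∅ := MT_of_isMultiplyPretransitive (H := G) G
    (fun h => ⟨h.1, h.2, fun a => rfl⟩) k hkn hG
  obtain ⟨h, hh, hh1, hh3⟩ := exists_small hk hkn hGt g.support.card g hg hg1 rfl hsupp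
  refine ⟨⟨h, hh, hh1, hh3⟩, ?_⟩
  have h2 : MulAction.IsMultiplyPretransitive G α 2 :=
    MulAction.isMultiplyPretransitive_of_le (n := k) (by omega)
      (by rw [Nat.card_eq_fintype_card]; exact hkn)
  have hprim : MulAction.IsPreprimitive G α := MulAction.isPreprimitive_of_is_two_pretransitive h2
  have hc0 : h.support.card ≠ 0 := fun hc => hh1 (Perm.card_support_eq_zero.mp hc)
  have hc1 := Perm.card_support_ne_one h
  have hcases : h.support.card = 2 ∨ h.support.card = 3 := by omega
  rcases hcases with hc | hc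
  · have := Perm.subgroup_eq_top_of_isPreprimitive_of_isSwap_mem hprim h
      (Perm.card_support_eq_two.mp hc) hh
    rw [this]; exact le_top
  · exact Perm.alternatingGroup_le_of_isPreprimitive_of_isThreeCycle_mem hprim
      (card_support_eq_three_iff.mp hc) hh

end Cfsg.Agent.S0711
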