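import Cfsg.Statements.S0712
import Mathlib

set_option autoImplicit false
open Cfsg

namespace Cfsg.Agent.S0712

open MulAction SubMulAction

/-- Jordan: if the fixing subgroup of a set of `m` points of a primitive group is doubly transitive
on the complement, then the group is `(m + 2)`-transitive. -/
theorem jordan_two {G α : Type*} [Group G] [MulAction G α] (m : ℕ) :
    ∀ (hG : IsPreprimitive G α) (s : Set α) (hsm : s.ncard = m) (hm : m + 2 ≤ Nat.card α)
    (h2 : IsMultiplyPretransitive (fixingSubgroup G s) (ofFixingSubgroup G s) 2),
    IsMultiplyPretransitive G α (m + 2) := by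
  induction m generalizing G α with
  | zero =>
    intro hG s hsm hm h2
    have hα : Finite α := Nat.finite_of_card_ne_zero (by omega)
    have hs : s = ∅ := by
      rwa [Set.ncard_eq_zero] at hsm
    subst hs
    exact (IsPretransitive.of_embedding_congr of_fixingSubgroupEmpty_mapScalars_surjective
      ofFixingSubgroupEmpty_equivariantMap_bijective).mp h2
  | succ n hrec =>
    intro hG s hsn hm h2
    have hα : Finite α := Nat.finite_of_card_ne_zero (by omega)
    have hsn' : n + 2 < Nat.card α := by omega
    have hprim : IsPreprimitive (fixingSubgroup G s) (ofFixingSubgroup G s) :=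
      isPreprimitive_of_is_two_pretransitive h2
    have hne : s.Nonempty := by
      rw [← Set.ncard_pos, hsn]; exact Nat.succ_pos n
    obtain ⟨a, ha⟩ := hne
    let t : Set (SubMulAction.ofStabilizer G a) := Subtype.val ⁻¹' s
    have hst : s = insert a (Subtype.val '' t) := by
      ext x
      by_cases hx : x = a <;> simp [t, hx, mem_ofStabilizer_iff, ha]
    have ha' : a ∉ Subtype.val '' t := by
      intro h; rw [Set.mem_image] at h; obtain ⟨x, hx⟩ := h
      apply x.prop; rw [hx.right]; exact Set.mem_singleton a
    have hGt : IsPretransitive G α := hG.toIsPretransitive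
    have ht_prim : IsPreprimitive (stabilizer G a) (SubMulAction.ofStabilizer G a) := by
      rw [← is_one_preprimitive_iff]
      rw [← isMultiplyPreprimitive_succ_iff_ofStabilizer]
      · exact IsPreprimitive.is_two_preprimitive hG hsn hsn' hprim
      · norm_num
    have h2' : IsMultiplyPretransitive ↥(fixingSubgroup G (insert a (Subtype.val '' t)))
        (ofFixingSubgroup G (insert a (Subtype.val '' t))) 2 :=
      IsPretransitive.of_embedding
        (ofFixingSubgroup_of_eq_bijective (hst := hst)).surjective
    have h2'' : IsMultiplyPretransitive (fixingSubgroup (stabilizer G a) t)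
        (ofFixingSubgroup (stabilizer G a) t) 2 :=
      IsPretransitive.of_embedding ofFixingSubgroup_insert_map_bijective.surjective
    have htn : t.ncard = n := by
      rw [← Set.ncard_image_of_injective t Subtype.val_injective]
      apply Nat.add_right_cancel
      rw [← Set.ncard_insert_of_notMem ha', ← hst, hsn]
    have hcard : n + 2 ≤ Nat.card (SubMulAction.ofStabilizer G a) := by
      have := nat_card_ofStabilizer_add_one_eq G a
      omega
    have := hrec ht_prim t htn hcard h2''
    exact ofStabilizer.isMultiplyPretransitive.mpr this

/-- Jordan: a primitive group in which the pointwise stabiliser of a set `s` is doubly transitive on the complement of `s` (which has at least 2 points) is `(|s| + 2)`-transitive. -/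
theorem result {α : Type*} [Fintype α] [DecidableEq α] (G : Subgroup (Equiv.Perm α)) (hG : MulAction.IsPreprimitive G α) (s : Set α) {m : ℕ} (hsm : s.ncard = m) (hm : m + 2 ≤ Fintype.card α) (h2 : MulAction.IsMultiplyPretransitive (fixingSubgroup G s) (SubMulAction.ofFixingSubgroup G s) 2) : MulAction.IsMultiplyPretransitive G α (m + 2) := by
  apply jordan_two m hG s hsm _ h2
  rw [Nat.card_eq_fintype_card]
  exact hm

end Cfsg.Agent.S0712
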