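import Cfsg.Statements.S0713
import Mathlib

set_option autoImplicit false
open Cfsg

namespace Cfsg.Agent.S0713

open Equiv MulAction

theorem card_fixing {α : Type*} [Fintype α] [DecidableEq α] (Δ : Set α) :
    Nat.card (fixingSubgroup (Equiv.Perm α) Δ) = (Nat.card α - Δ.ncard).factorial := by
  have h1 := (Equiv.Perm.isMultiplyPretransitive α Δ.ncard).index_of_fixingSubgroup_mul (s := Δ) rfl
  have h2 := Subgroup.index_mul_card (fixingSubgroup (Equiv.Perm α) Δ)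
  rw [Nat.card_perm] at h2
  have hidx : (fixingSubgroup (Equiv.Perm α) Δ).index ≠ 0 := Subgroup.index_ne_zero_of_finite
  exact Nat.eq_of_mul_eq_mul_left (Nat.pos_of_ne_zero hidx) (h2.trans h1.symm)

theorem conj_of_card_prime {F : Type*} [Group F] [Finite F] {p : ℕ} [Fact p.Prime]
    (P Q : Subgroup F) (hP : Nat.card P = p) (hQ : Nat.card Q = p) (hF : ¬ p ^ 2 ∣ Nat.card F) :
    ∃ f : F, Q.map (MulAut.conj f).toMonoidHom = P := by
  have hPp : IsPGroup p P := IsPGroup.of_card (n := 1) (by rw [hP, pow_one])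
  have hQp : IsPGroup p Q := IsPGroup.of_card (n := 1) (by rw [hQ, pow_one])
  obtain ⟨S, hS⟩ := hPp.exists_le_sylow
  obtain ⟨S', hS'⟩ := hQp.exists_le_sylow
  have key : ∀ (T : Sylow p F), Nat.card T ≤ p := by
    intro T
    obtain ⟨k, hk⟩ := T.2.exists_card_eq
    have hdvd : p ^ k ∣ Nat.card F := hk ▸ Subgroup.card_subgroup_dvd_card _
    have hk1 : k ≤ 1 := by
      by_contra hcon
      push Not at hcon
      exact hF ((pow_dvd_pow p hcon).trans hdvd)
    rw [hk]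
    calc p ^ k ≤ p ^ 1 := Nat.pow_le_pow_right (Fact.out : p.Prime).pos hk1
      _ = p := pow_one p
  have hSP : P = S := Subgroup.eq_of_le_of_card_ge hS (by rw [hP]; exact key S)
  have hSQ : Q = S' := Subgroup.eq_of_le_of_card_ge hS' (by rw [hQ]; exact key S')
  obtain ⟨f, hf⟩ := MulAction.exists_smul_eq F S' S
  refine ⟨f, ?_⟩
  rw [hSP, hSQ, ← hf, Sylow.coe_subgroup_smul]
  rfl

theorem swap_mem_of_mem {α : Type*} [DecidableEq α] (s : Set α) {a b d : α} (ha : a ∈ s)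
    (hb : b ∈ s) (hd : d ∈ s) : swap a b d ∈ s := by
  rw [Equiv.swap_apply_def]
  split_ifs <;> assumption

theorem perm_inv_apply_self' {α : Type*} (f : Perm α) (x : α) : f⁻¹ (f x) = x :=
  f.symm_apply_apply x

theorem perm_apply_inv_self' {α : Type*} (f : Perm α) (x : α) : f (f⁻¹ x) = x :=
  f.apply_symm_apply x

/-- Jordan's Theorem: a primitive permutation group of degree `n ≥ 5` containing a `p`-cycle for a prime `p ≤ n - 3` contains the alternating group. -/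
theorem result {α : Type*} [Fintype α] [DecidableEq α] (G : Subgroup (Equiv.Perm α)) (hG : MulAction.IsPreprimitive G α) {p : ℕ} (hp : p.Prime) (hn : 5 ≤ Fintype.card α) (hpn : p + 3 ≤ Fintype.card α) {g : Equiv.Perm α} (hgc : g.IsCycle) (hgp : g.support.card = p) (hg : g ∈ G) : alternatingGroup α ≤ G := by
  classical
  have hp2 : 2 ≤ p := hp.two_le
  have : Fact p.Prime := ⟨hp⟩
  set Δ : Set α := ((g.support : Set α))ᶜ with hΔ
  have hcardα : Nat.card α = Fintype.card α := Nat.card_eq_fintype_card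
  have hΔcard : p + Δ.ncard = Fintype.card α := by
    rw [hΔ, ← hgp, ← Set.ncard_coe_finset g.support, Set.ncard_add_ncard_compl, ← hcardα]
  obtain ⟨n', hn'⟩ : ∃ n', Δ.ncard = n' + 3 := ⟨Δ.ncard - 3, by omega⟩
  have hmemΔ : ∀ x, x ∈ Δ ↔ g x = x := by
    intro x; simp [hΔ]
  -- Step 1: multiple transitivity
  have hmp : MulAction.IsMultiplyPreprimitive G α (n' + 2 + 2) := by
    apply hG.isMultiplyPreprimitive (s := Δ) (by rw [hn'])
    · rw [hcardα]; omega
    · have := Equiv.Perm.isPretransitive_of_isCycle_mem hgc hg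
      apply MulAction.IsPreprimitive.of_prime_card
      convert! hp
      rw [Nat.card_eq_fintype_card, Fintype.card_subtype, ← hgp]
      apply congr_arg
      ext x
      simp [SubMulAction.mem_ofFixingSubgroup_iff, hmemΔ]
  have hmt : MulAction.IsMultiplyPretransitive G α (n' + 3) := by
    have h4 : MulAction.IsMultiplyPretransitive G α (n' + 2 + 2) := inferInstance
    exact MulAction.isMultiplyPretransitive_of_le (n := n' + 2 + 2) (by omega) (by rw [hcardα]; omega)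
  have hR : ∀ π : Equiv.Perm α, ∃ h ∈ G, ∀ d ∈ Δ, h d = π d := by
    intro π
    have hfin : Fintype Δ := Fintype.ofFinite Δ
    have hc : Fintype.card Δ = n' + 3 := by
      rw [← hn', ← Nat.card_eq_fintype_card, Nat.card_coe_set_eq]
    let e : Δ ≃ Fin (n' + 3) := Fintype.equivFinOfCardEq hc
    let x : Fin (n' + 3) ↪ α := e.symm.toEmbedding.trans (Function.Embedding.subtype _)
    let y : Fin (n' + 3) ↪ α := x.trans π.toEmbedding
    obtain ⟨h, hh⟩ := MulAction.exists_smul_eq G x y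
    refine ⟨(h : Equiv.Perm α), h.2, fun d hd => ?_⟩
    have h1 := congrArg (fun z : Fin (n' + 3) ↪ α => z (e ⟨d, hd⟩)) hh
    simp only [Function.Embedding.smul_apply] at h1
    have hx : x (e ⟨d, hd⟩) = d := by simp [x]
    have hy : y (e ⟨d, hd⟩) = π d := by simp [y, x]
    rw [hx, hy] at h1
    exact h1
  -- Step 2: the normalizer of P realizes involutions of Δ
  set P : Subgroup (Equiv.Perm α) := Subgroup.zpowers g with hP
  have hPcard : Nat.card P = p := by rw [hP, Nat.card_zpowers, hgc.orderOf, hgp]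
  let K : Subgroup (Equiv.Perm α) := fixingSubgroup (Equiv.Perm α) Δ
  have hKmem : ∀ σ : Equiv.Perm α, σ ∈ K ↔ ∀ d ∈ Δ, σ d = d := fun σ => by
    simp [K, mem_fixingSubgroup_iff]
  set F : Subgroup (Equiv.Perm α) := G ⊓ K with hF
  have hKcard : Nat.card K = p.factorial := by
    show Nat.card (fixingSubgroup (Equiv.Perm α) Δ) = p.factorial
    rw [card_fixing, hcardα]
    congr 1
    omega
  have hFnd : ¬ p ^ 2 ∣ Nat.card F := by
    intro hdvd
    have h1 : p ^ 2 ∣ p.factorial :=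
      hdvd.trans ((Subgroup.card_dvd_of_le inf_le_right).trans (dvd_of_eq hKcard))
    obtain ⟨m, hm⟩ : ∃ m, p = m + 1 := ⟨p - 1, by omega⟩
    rw [hm, Nat.factorial_succ, pow_two] at h1
    have h2 : (m + 1) ∣ m.factorial := Nat.dvd_of_mul_dvd_mul_left (by omega) h1
    rw [← hm] at h2
    have := (hp.dvd_factorial).mp h2
    omega
  have hgK : g ∈ K := (hKmem g).mpr (fun d hd => (hmemΔ d).mp hd)
  have hPF : P ≤ F := by
    rw [hP, Subgroup.zpowers_le]; exact ⟨hg, hgK⟩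
  have hN : ∀ π : Equiv.Perm α, (∀ d ∈ Δ, π d ∈ Δ) → (∀ x, π (π x) = x) →
      ∃ n ∈ G, n ∈ Subgroup.normalizer (P : Set (Equiv.Perm α)) ∧ ∀ d ∈ Δ, n d = π d := by
    intro π hπΔ hπ2
    obtain ⟨h, hhG, hh⟩ := hR π
    set Q : Subgroup (Equiv.Perm α) := P.map (MulAut.conj h).toMonoidHom with hQ
    have hQcard : Nat.card Q = p := by
      rw [hQ, Subgroup.card_map_of_injective (MulAut.conj h).injective, hPcard]
    have hhinv : ∀ d ∈ Δ, h⁻¹ d = π d := by
      intro d hd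
      rw [Equiv.Perm.inv_eq_iff_eq, hh (π d) (hπΔ d hd), hπ2]
    have hQF : Q ≤ F := by
      rw [hQ, Subgroup.map_le_iff_le_comap, hP, Subgroup.zpowers_le]
      show h * g * h⁻¹ ∈ F
      refine ⟨G.mul_mem (G.mul_mem hhG hg) (G.inv_mem hhG), (hKmem _).mpr ?_⟩
      intro d hd
      rw [Equiv.Perm.mul_apply, Equiv.Perm.mul_apply, hhinv d hd, (hmemΔ _).mp (hπΔ d hd),
        ← hhinv d hd, perm_apply_inv_self']
    have hP' : Nat.card (P.subgroupOf F) = p := by
      rw [Nat.card_congr (Subgroup.subgroupOfEquivOfLe hPF).toEquiv, hPcard]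
    have hQ' : Nat.card (Q.subgroupOf F) = p := by
      rw [Nat.card_congr (Subgroup.subgroupOfEquivOfLe hQF).toEquiv, hQcard]
    obtain ⟨f, hf⟩ := conj_of_card_prime (P.subgroupOf F) (Q.subgroupOf F) hP' hQ' hFnd
    refine ⟨(f : Equiv.Perm α) * h, G.mul_mem f.2.1 hhG, ?_, ?_⟩
    · rw [Subgroup.mem_normalizer_iff_map_conj_eq]
      refine Subgroup.eq_of_le_of_card_ge ?_ ?_
      · rintro _ ⟨x, hx, rfl⟩
        have hxQ : h * x * h⁻¹ ∈ Q := ⟨x, hx, rfl⟩
        have h1 : (⟨h * x * h⁻¹, hQF hxQ⟩ : F) ∈ Q.subgroupOf F := by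
          rw [Subgroup.mem_subgroupOf]; exact hxQ
        have h2 : (MulAut.conj f) ⟨h * x * h⁻¹, hQF hxQ⟩ ∈
            (Q.subgroupOf F).map (MulAut.conj f).toMonoidHom := ⟨_, h1, rfl⟩
        rw [hf, Subgroup.mem_subgroupOf] at h2
        convert h2 using 1
        simp [MulAut.conj_apply, mul_assoc]
      · exact le_of_eq (Subgroup.card_map_of_injective (MulAut.conj _).injective).symm
    · intro d hd
      rw [Equiv.Perm.mul_apply, hh d hd]
      exact (hKmem _).mp f.2.2 _ (hπΔ d hd)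
  -- Step 3: three points of Δ and the two involutions
  have hΔ3 : 2 < Δ.ncard := by omega
  obtain ⟨a, b, c₃, ha, hb, hc₃, hab, hac, hbc⟩ := (Set.two_lt_ncard_iff).mp hΔ3
  set π₁ : Equiv.Perm α := Equiv.swap a b with hπ₁
  set π₂ : Equiv.Perm α := Equiv.swap a c₃ with hπ₂
  have hπ₁Δ : ∀ d ∈ Δ, π₁ d ∈ Δ := fun d hd => swap_mem_of_mem Δ ha hb hd
  have hπ₂Δ : ∀ d ∈ Δ, π₂ d ∈ Δ := fun d hd => swap_mem_of_mem Δ ha hc₃ hd
  have hπ₁2 : ∀ x, π₁ (π₁ x) = x := fun x => Equiv.swap_apply_self a b x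
  have hπ₂2 : ∀ x, π₂ (π₂ x) = x := fun x => Equiv.swap_apply_self a c₃ x
  obtain ⟨n₁, hn₁G, hn₁N, hn₁⟩ := hN π₁ hπ₁Δ hπ₁2
  obtain ⟨n₂, hn₂G, hn₂N, hn₂⟩ := hN π₂ hπ₂Δ hπ₂2
  have hn₁inv : ∀ d ∈ Δ, n₁⁻¹ d = π₁ d := by
    intro d hd
    rw [Equiv.Perm.inv_eq_iff_eq, hn₁ _ (hπ₁Δ d hd), hπ₁2]
  have hn₂inv : ∀ d ∈ Δ, n₂⁻¹ d = π₂ d := by
    intro d hd
    rw [Equiv.Perm.inv_eq_iff_eq, hn₂ _ (hπ₂Δ d hd), hπ₂2]
  set c : Equiv.Perm α := n₁ * n₂ * n₁⁻¹ * n₂⁻¹ with hc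
  have hcG : c ∈ G :=
    G.mul_mem (G.mul_mem (G.mul_mem hn₁G hn₂G) (G.inv_mem hn₁G)) (G.inv_mem hn₂G)
  have hcΔ : ∀ d ∈ Δ, c d = (π₁ * π₂ * π₁ * π₂) d := by
    intro d hd
    simp only [hc, Equiv.Perm.mul_apply]
    rw [hn₂inv d hd, hn₁inv _ (hπ₂Δ d hd), hn₂ _ (hπ₁Δ _ (hπ₂Δ d hd)),
      hn₁ _ (hπ₂Δ _ (hπ₁Δ _ (hπ₂Δ d hd)))]
  -- Step 4: c commutes with g
  have hcg : c * g = g * c := by
    have hcyc : IsCyclic P := by rw [hP]; infer_instance
    have hcomm : ∀ u v : MulAut P, u * v = v * u := by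
      intro u v
      apply (IsCyclic.mulAutMulEquiv P).injective
      rw [map_mul, map_mul, mul_comm]
    let φ := Subgroup.normalizerMonoidHom P
    let m₁ : Subgroup.normalizer (P : Set (Equiv.Perm α)) := ⟨n₁, hn₁N⟩
    let m₂ : Subgroup.normalizer (P : Set (Equiv.Perm α)) := ⟨n₂, hn₂N⟩
    have hker : m₁ * m₂ * m₁⁻¹ * m₂⁻¹ ∈ φ.ker := by
      rw [MonoidHom.mem_ker, map_mul, map_mul, map_mul, map_inv, map_inv, hcomm (φ m₁) (φ m₂)]
      group
    rw [Subgroup.normalizerMonoidHom_ker, Subgroup.mem_subgroupOf] at hker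
    have hgP : g ∈ P := Subgroup.mem_zpowers g
    exact (Subgroup.mem_centralizer_iff.mp hker g hgP).symm
  -- Step 5: correct c by a power of g
  have hsupp : g.support.Nonempty := by rw [← Finset.card_pos, hgp]; omega
  obtain ⟨a₀, ha₀⟩ := hsupp
  rw [Equiv.Perm.mem_support] at ha₀
  have hca₀ : g (c a₀) ≠ c a₀ := by
    intro h1
    have h2 : c (g a₀) = g (c a₀) := by
      have := congrArg (fun σ : Equiv.Perm α => σ a₀) hcg
      simpa using this
    rw [h1] at h2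
    exact ha₀ (c.injective h2)
  obtain ⟨i, hi⟩ := hgc.exists_zpow_eq ha₀ hca₀
  set c' : Equiv.Perm α := (g ^ i)⁻¹ * c with hc'
  have hc'G : c' ∈ G := G.mul_mem (G.inv_mem (G.zpow_mem hg i)) hcG
  have hc'a₀ : c' a₀ = a₀ := by
    rw [hc', Equiv.Perm.mul_apply, ← hi, perm_inv_apply_self']
  have hc'g : Commute c' g := by
    have h1 : Commute c g := hcg
    have h2 : Commute ((g ^ i)⁻¹) g := ((Commute.refl g).zpow_left i).inv_left
    exact h2.mul_left h1
  have hτ : c' = π₁ * π₂ * π₁ * π₂ := by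
    ext x
    by_cases hx : g x = x
    · have hxΔ : x ∈ Δ := (hmemΔ x).mpr hx
      rw [hc', Equiv.Perm.mul_apply, hcΔ x hxΔ]
      have hτx : (π₁ * π₂ * π₁ * π₂) x ∈ Δ := by
        simp only [Equiv.Perm.mul_apply]
        exact hπ₁Δ _ (hπ₂Δ _ (hπ₁Δ _ (hπ₂Δ x hxΔ)))
      have hgfix : g ((π₁ * π₂ * π₁ * π₂) x) = (π₁ * π₂ * π₁ * π₂) x := (hmemΔ _).mp hτx
      rw [Equiv.Perm.inv_eq_iff_eq]
      exact (Equiv.Perm.zpow_apply_eq_self_of_apply_eq_self hgfix i).symm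
    · obtain ⟨j, hj⟩ := hgc.exists_zpow_eq ha₀ hx
      have h1 : c' x = x := by
        rw [← hj]
        have := (hc'g.zpow_right j).eq
        have h3 := congrArg (fun σ : Equiv.Perm α => σ a₀) this
        simp only [Equiv.Perm.mul_apply] at h3
        rw [h3, hc'a₀]
      rw [h1]
      have hxa : x ≠ a := fun h => hx ((hmemΔ _).mp (h ▸ ha))
      have hxb : x ≠ b := fun h => hx ((hmemΔ _).mp (h ▸ hb))
      have hxc : x ≠ c₃ := fun h => hx ((hmemΔ _).mp (h ▸ hc₃))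
      simp only [Equiv.Perm.mul_apply, hπ₁, hπ₂]
      rw [Equiv.swap_apply_of_ne_of_ne hxa hxc, Equiv.swap_apply_of_ne_of_ne hxa hxb,
        Equiv.swap_apply_of_ne_of_ne hxa hxc, Equiv.swap_apply_of_ne_of_ne hxa hxb]
  have h3 : Equiv.Perm.IsThreeCycle (π₁ * π₂ * π₁ * π₂) := by
    have h0 : Equiv.Perm.IsThreeCycle (π₁ * π₂) :=
      Equiv.Perm.isThreeCycle_swap_mul_swap_same hab hac hbc
    have := h0.isThreeCycle_sq
    rwa [← mul_assoc] at this
  rw [← hτ] at h3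
  exact Equiv.Perm.alternatingGroup_le_of_isPreprimitive_of_isThreeCycle_mem hG h3 hc'G

end Cfsg.Agent.S0713
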