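import Cfsg.Statements.S0714
import Mathlib

set_option autoImplicit false
open Cfsg

namespace Cfsg.Agent.S0714

open Equiv

theorem rep_apply {α : Type*} [Fintype α] [DecidableEq α] {K : Type*} [Field K]
    (g : alternatingGroup α) (f : α → K) (x : α) :
    Cfsg.permRep K (alternatingGroup α) α g f x = f ((g : Perm α)⁻¹ x) := rfl

theorem three_cycle_mem {α : Type*} [Fintype α] [DecidableEq α] {a b c : α} (hab : a ≠ b)
    (hbc : b ≠ c) : swap a b * swap b c ∈ alternatingGroup α := by
  rw [Equiv.Perm.mem_alternatingGroup, Equiv.Perm.sign_mul, Equiv.Perm.sign_swap hab,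
    Equiv.Perm.sign_swap hbc]
  rfl

theorem three_cycle_inv {α : Type*} [DecidableEq α] (a b c : α) :
    (swap a b * swap b c)⁻¹ = swap b c * swap a b := by
  rw [mul_inv_rev, Equiv.swap_inv, Equiv.swap_inv]

/-- From a non-constant vector of an invariant subspace one gets all differences of basis vectors. -/
theorem single_sub_single_mem {α : Type*} [Fintype α] [DecidableEq α] (hα : 5 ≤ Fintype.card α)
    {K : Type*} [Field K] (W : Subrepresentation (Cfsg.permRep K (alternatingGroup α) α))
    (f : α → K) (hf : f ∈ W.toSubmodule) (a b : α) (hab : f a ≠ f b) :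
    ∀ x y : α, x ≠ y → (Pi.single x (1 : K) - Pi.single y (1 : K) : α → K) ∈ W.toSubmodule := by
  have hab' : a ≠ b := fun h => hab (by rw [h])
  -- three more points
  have hcard : 2 < (Finset.univ \ {a, b} : Finset α).card := by
    have h1 := Finset.card_sdiff_add_card_inter (Finset.univ : Finset α) {a, b}
    have h2 : (Finset.univ ∩ {a, b} : Finset α).card ≤ 2 :=
      (Finset.card_le_card Finset.inter_subset_right).trans Finset.card_le_two
    rw [Finset.card_univ] at h1
    omega
  obtain ⟨e, c, d, he, hc, hd, hec, hed, hcd⟩ := Finset.two_lt_card_iff.mp hcard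
  simp only [Finset.mem_sdiff, Finset.mem_univ, Finset.mem_insert, Finset.mem_singleton,
    true_and, not_or] at he hc hd
  obtain ⟨hea, heb⟩ := he
  obtain ⟨hca, hcb⟩ := hc
  obtain ⟨hda, hdb⟩ := hd
  let r : alternatingGroup α := ⟨swap a b * swap b e, three_cycle_mem hab' (Ne.symm heb)⟩
  let t : alternatingGroup α := ⟨swap b c * swap c d, three_cycle_mem (Ne.symm hcb) hcd⟩
  let k : α → K := Cfsg.permRep K (alternatingGroup α) α r f - f
  have hk : k ∈ W.toSubmodule := W.toSubmodule.sub_mem (W.apply_mem_toSubmodule r hf) hf
  have hkx : ∀ x, k x = f ((swap b e * swap a b) x) - f x := by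
    intro x
    show Cfsg.permRep K (alternatingGroup α) α r f x - f x = _
    rw [rep_apply]
    show f ((swap a b * swap b e)⁻¹ x) - f x = _
    rw [three_cycle_inv]
  have hkb : k b = f a - f b := by
    rw [hkx, Perm.mul_apply, swap_apply_right, swap_apply_of_ne_of_ne hab' (Ne.symm hea)]
  have hkc : k c = 0 := by
    rw [hkx, Perm.mul_apply, swap_apply_of_ne_of_ne hca hcb, swap_apply_of_ne_of_ne hcb (Ne.symm hec),
      sub_self]
  have hkd : k d = 0 := by
    rw [hkx, Perm.mul_apply, swap_apply_of_ne_of_ne hda hdb, swap_apply_of_ne_of_ne hdb (Ne.symm hed),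
      sub_self]
  let k' : α → K := k - Cfsg.permRep K (alternatingGroup α) α t k
  have hk' : k' ∈ W.toSubmodule := W.toSubmodule.sub_mem hk (W.apply_mem_toSubmodule t hk)
  have hk'x : ∀ x, k' x = k x - k ((swap c d * swap b c) x) := by
    intro x
    show k x - Cfsg.permRep K (alternatingGroup α) α t k x = _
    rw [rep_apply]
    show k x - k ((swap b c * swap c d)⁻¹ x) = _
    rw [three_cycle_inv]
  have hk'eq : k' = (f a - f b) • (Pi.single b (1 : K) - Pi.single c (1 : K) : α → K) := by
    funext x
    rw [hk'x, Pi.smul_apply, Pi.sub_apply, Pi.single_apply, Pi.single_apply, smul_eq_mul,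
      Perm.mul_apply]
    by_cases hxb : x = b
    · subst hxb
      rw [swap_apply_left, swap_apply_left, hkd, hkb, if_pos rfl, if_neg (Ne.symm hcb)]
      ring
    · by_cases hxc : x = c
      · subst hxc
        rw [swap_apply_right, swap_apply_of_ne_of_ne (Ne.symm hxb) (fun h => hdb h.symm), hkc, hkb,
          if_neg hxb, if_pos rfl]
        ring
      · by_cases hxd : x = d
        · subst hxd
          rw [swap_apply_of_ne_of_ne hxb hxc, swap_apply_right, hkc, hkd, if_neg hxb, if_neg hxc]
          ring
        · rw [swap_apply_of_ne_of_ne hxb hxc, swap_apply_of_ne_of_ne hxc hxd, if_neg hxb,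
            if_neg hxc]
          ring
  have hbc_mem : (Pi.single b (1 : K) - Pi.single c (1 : K) : α → K) ∈ W.toSubmodule := by
    have hne : f a - f b ≠ 0 := sub_ne_zero.mpr hab
    have := W.toSubmodule.smul_mem (f a - f b)⁻¹ hk'
    rw [hk'eq, smul_smul, inv_mul_cancel₀ hne, one_smul] at this
    exact this
  -- double transitivity
  have h2 : MulAction.IsMultiplyPretransitive (alternatingGroup α) α 2 := by
    have h3 := alternatingGroup.isMultiplyPretransitive α
    have hc5 : 5 ≤ Nat.card α := by rw [Nat.card_eq_fintype_card]; exact hα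
    exact MulAction.isMultiplyPretransitive_of_le (n := Nat.card α - 2) (by omega) (by omega)
  intro x y hxy
  obtain ⟨g, hgb, hgc⟩ := (MulAction.is_two_pretransitive_iff.mp h2) (Ne.symm hcb) hxy
  have hgb' : (g : Perm α) b = x := hgb
  have hgc' : (g : Perm α) c = y := hgc
  have := W.apply_mem_toSubmodule g hbc_mem
  have heq : Cfsg.permRep K (alternatingGroup α) α g
      (Pi.single b (1 : K) - Pi.single c (1 : K) : α → K) =
      (Pi.single x (1 : K) - Pi.single y (1 : K) : α → K) := by
    funext z
    rw [rep_apply, Pi.sub_apply, Pi.sub_apply, Pi.single_apply, Pi.single_apply, Pi.single_apply,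
      Pi.single_apply]
    simp only [Perm.inv_eq_iff_eq, hgb', hgc']
  rw [heq] at this
  exact this

theorem sumZero_le {α : Type*} [Fintype α] [DecidableEq α] {K : Type*} [Field K]
    (W : Submodule K (α → K))
    (h : ∀ x y : α, x ≠ y → (Pi.single x (1 : K) - Pi.single y (1 : K) : α → K) ∈ W)
    (g : α → K) (hg : ∑ x, g x = 0) : g ∈ W := by
  rcases isEmpty_or_nonempty α with hα | ⟨⟨x₀⟩⟩
  · have : g = 0 := by funext x; exact (hα.false x).elim
    rw [this]; exact W.zero_mem
  have hrep : g = ∑ x, g x • (Pi.single x (1 : K) - Pi.single x₀ (1 : K) : α → K) := by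
    funext z
    rw [Finset.sum_apply]
    simp only [Pi.smul_apply, Pi.sub_apply, Pi.single_apply, smul_eq_mul, mul_sub, mul_ite, mul_one,
      mul_zero, Finset.sum_sub_distrib, Finset.sum_ite_eq, Finset.mem_univ, if_true]
    by_cases hz : z = x₀
    · subst hz; simp [hg]
    · simp [hz]
  rw [hrep]
  apply W.sum_mem
  intro x _
  apply W.smul_mem
  by_cases hx : x = x₀
  · rw [hx, sub_self]; exact W.zero_mem
  · exact h x x₀ hx

/-- Over any field, the permutation module of the alternating group of degree at least 5 has exactly four invariant subspaces: zero, the constant functions, the functions with coordinate sum zero, and everything. -/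
theorem result {α : Type*} [Fintype α] [DecidableEq α] (hα : 5 ≤ Fintype.card α) {K : Type*} [Field K] (W : Subrepresentation (Cfsg.permRep K (alternatingGroup α) α)) : W.toSubmodule = ⊥ ∨ W = Cfsg.permConstants K (alternatingGroup α) α ∨ W = Cfsg.permSumZero K (alternatingGroup α) α ∨ W.toSubmodule = ⊤ := by
  have hne : Nonempty α := by
    rw [← Fintype.card_pos_iff]; omega
  obtain ⟨x₀⟩ := hne
  by_cases hconst : ∀ f ∈ W.toSubmodule, ∀ a b : α, f a = f b
  · -- all vectors constant
    by_cases hbot : W.toSubmodule = ⊥
    · exact Or.inl hbot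
    · right; left
      apply Subrepresentation.toSubmodule_injective
      apply le_antisymm
      · intro f hf
        show f ∈ Submodule.span K {fun _ => (1 : K)}
        rw [Submodule.mem_span_singleton]
        refine ⟨f x₀, ?_⟩
        funext x
        simp [hconst f hf x x₀]
      · show Submodule.span K {fun _ => (1 : K)} ≤ W.toSubmodule
        rw [Submodule.span_le, Set.singleton_subset_iff]
        obtain ⟨f, hf, hf0⟩ := (Submodule.ne_bot_iff _).mp hbot
        have hfx : f x₀ ≠ 0 := by
          intro h0
          apply hf0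
          funext x
          rw [hconst f hf x x₀, h0]; rfl
        have := W.toSubmodule.smul_mem (f x₀)⁻¹ hf
        have heq : (f x₀)⁻¹ • f = fun _ => (1 : K) := by
          funext x
          rw [Pi.smul_apply, smul_eq_mul, hconst f hf x x₀, inv_mul_cancel₀ hfx]
        rw [heq] at this
        exact this
  · push Not at hconst
    obtain ⟨f, hf, a, b, hab⟩ := hconst
    have hdiff := single_sub_single_mem hα W f hf a b hab
    have hsz : (Cfsg.permSumZero K (alternatingGroup α) α).toSubmodule ≤ W.toSubmodule := by
      intro g hg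
      exact sumZero_le W.toSubmodule hdiff g hg
    by_cases hle : W.toSubmodule ≤ (Cfsg.permSumZero K (alternatingGroup α) α).toSubmodule
    · right; right; left
      apply Subrepresentation.toSubmodule_injective
      exact le_antisymm hle hsz
    · right; right; right
      rw [SetLike.not_le_iff_exists] at hle
      obtain ⟨h, hh, hh'⟩ := hle
      have hs : ∑ x, h x ≠ 0 := hh'
      rw [eq_top_iff]
      intro g _
      have h1 : g - ((∑ x, g x) / (∑ x, h x)) • h ∈ W.toSubmodule := by
        apply hsz
        show ∑ x, (g - ((∑ x, g x) / (∑ x, h x)) • h) x = 0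
        simp only [Pi.sub_apply, Pi.smul_apply, smul_eq_mul, Finset.sum_sub_distrib,
          ← Finset.mul_sum]
        field_simp
        ring
      have h2 := W.toSubmodule.add_mem h1 (W.toSubmodule.smul_mem ((∑ x, g x) / (∑ x, h x)) hh)
      rw [sub_add_cancel] at h2
      exact h2

end Cfsg.Agent.S0714
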