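import Mathlib
import Cfsg.Statements.S0715
import Cfsg.Agent.Lib.Helper7.PermChar

set_option autoImplicit false
open Cfsg

namespace Cfsg.Agent.S0715

open Cfsg.Agent.Lib.Helper2 Cfsg.Agent.Lib.Helper7.PermChar
open scoped ComplexConjugate

/-- If `f` divides the degree of every non-principal irreducible constituent of the permutation
character of a transitive group, then `f` divides the size of every set stable under a point
stabilizer and not containing the point. -/
theorem core {G : Type*} [Group G] [Fintype G] {Ω : Type*} [Fintype Ω] [MulAction G Ω]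
    [MulAction.IsPretransitive G Ω] (f : ℕ)
    (hf : ∀ χ : G → ℂ, Cfsg.IsIrrCharacter G χ → χ ≠ (fun _ => 1) →
      Cfsg.classInner (fun g : G => (Nat.card (MulAction.fixedBy Ω g) : ℂ)) χ ≠ 0 →
      ∃ m : ℕ, χ 1 = (f : ℂ) * m)
    (a : Ω) (O : Set Ω) (hO : ∀ h : G, h • a = a → ∀ y, (h • y ∈ O ↔ y ∈ O)) (haO : a ∉ O) :
    f ∣ Nat.card O := by
  classical
  have := Fintype.ofFinite (Cfsg.IrrCharacter G)
  obtain ⟨c, hc⟩ : ∃ c : ℂ, c = ∑ g : G, if g • a = a then (1 : ℂ) else 0 := ⟨_, rfl⟩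
  have hc0 : c ≠ 0 := by rw [hc]; exact stab_count_ne_zero a
  have hα : ∀ χ : Cfsg.IrrCharacter G, ∃ α : ℂ, IsIntegral ℤ α ∧
      (∑ g : G, if g • a ∈ O then (χ : G → ℂ) g⁻¹ else 0) = c * α ∧
      ((∑ g : G, if g • a = a then (χ : G → ℂ) g else 0) = 0 → α = 0) := by
    intro χ
    obtain ⟨n, ρ, _, hχ⟩ := χ.2
    have h := orbit_sum_integral a O hO ρ
    rw [hχ, ← hc] at h
    exact h
  choose α hα1 hα2 hα3 using hα
  have horth := sum_irr_deg_orbit (G := G) a O haO
  simp only [hα2] at horth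
  have horth' : ∑ χ : Cfsg.IrrCharacter G, (χ : G → ℂ) 1 * α χ = 0 := by
    have h1 : c * ∑ χ : Cfsg.IrrCharacter G, (χ : G → ℂ) 1 * α χ = 0 := by
      rw [Finset.mul_sum, ← horth]
      apply Finset.sum_congr rfl
      intro χ _
      ring
    rcases mul_eq_zero.mp h1 with h | h
    · exact absurd h hc0
    · exact h
  obtain ⟨χ₁, hχ₁⟩ : ∃ χ₁ : Cfsg.IrrCharacter G, (χ₁ : G → ℂ) = fun _ => 1 :=
    ⟨⟨fun _ => 1, isIrrCharacter_one⟩, rfl⟩
  have hχ₁1 : (χ₁ : G → ℂ) 1 = 1 := by rw [hχ₁]
  have hα₁ : α χ₁ = (Nat.card O : ℂ) := by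
    have h1 := hα2 χ₁
    rw [hχ₁] at h1
    have h2 := count_orbit (G := G) a O
    rw [← hc] at h2
    have h3 : c * α χ₁ = c * (Nat.card O : ℂ) := by rw [← h1, ← h2]
    exact mul_left_cancel₀ hc0 h3
  have hz : ∀ χ : Cfsg.IrrCharacter G, χ ≠ χ₁ →
      ∃ z : ℂ, IsIntegral ℤ z ∧ (χ : G → ℂ) 1 * α χ = (f : ℂ) * z := by
    intro χ hne
    by_cases hm : Cfsg.classInner (fun g : G => (Nat.card (MulAction.fixedBy Ω g) : ℂ))
        (χ : G → ℂ) = 0
    · refine ⟨0, isIntegral_zero, ?_⟩
      rw [classInner_perm a _ (isClassFunction_of_isIrrCharacter χ.2)] at hm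
      have hΩ : (Fintype.card Ω : ℂ) ≠ 0 := by
        have : Nonempty Ω := ⟨a⟩
        exact_mod_cast Fintype.card_ne_zero (α := Ω)
      have h1 : conj (∑ g : G, if g • a = a then (χ : G → ℂ) g else 0) = 0 := by
        rcases mul_eq_zero.mp hm with h | h
        · exact absurd h (inv_ne_zero (card_ne_zero_complex G))
        · rcases mul_eq_zero.mp h with h' | h'
          · exact absurd h' hΩ
          · exact h'
      have h2 : (∑ g : G, if g • a = a then (χ : G → ℂ) g else 0) = 0 := by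
        have h3 := congrArg conj h1
        rw [Complex.conj_conj, map_zero] at h3
        exact h3
      rw [hα3 χ h2, mul_zero, mul_zero]
    · have hne' : (χ : G → ℂ) ≠ fun _ => 1 := by
        intro h
        apply hne
        apply Subtype.ext
        rw [h, hχ₁]
      obtain ⟨m, hm'⟩ := hf χ χ.2 hne' hm
      exact ⟨m * α χ, (isIntegral_natCast m).mul (hα1 χ), by rw [hm']; ring⟩
  choose! z hz1 hz2 using hz
  have hsum : (Nat.card O : ℂ) + (f : ℂ) * ∑ χ ∈ Finset.univ.erase χ₁, z χ = 0 := by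
    rw [← Finset.add_sum_erase Finset.univ _ (Finset.mem_univ χ₁), hχ₁1, one_mul, hα₁] at horth'
    rw [Finset.mul_sum, ← horth']
    congr 1
    apply Finset.sum_congr rfl
    intro χ hχ
    rw [hz2 χ (Finset.ne_of_mem_erase hχ)]
  have hZ : IsIntegral ℤ (∑ χ ∈ Finset.univ.erase χ₁, z χ) :=
    IsIntegral.sum _ (fun χ hχ => hz1 χ (Finset.ne_of_mem_erase hχ))
  by_cases hf0 : f = 0
  · subst hf0
    rw [Nat.cast_zero, zero_mul, add_zero] at hsum
    have h1 : Nat.card O = 0 := by exact_mod_cast hsum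
    rw [h1]
  · apply nat_dvd_of_isIntegral_div hf0
    have hf0' : (f : ℂ) ≠ 0 := by exact_mod_cast hf0
    have h1 : (Nat.card O : ℂ) / (f : ℂ) = -∑ χ ∈ Finset.univ.erase χ₁, z χ := by
      field_simp
      linear_combination hsum
    rw [h1]
    exact hZ.neg

/-- If a natural number `f` divides the degree of every non-principal irreducible constituent of the permutation character of a transitive group, then `f` divides every non-trivial subdegree. -/
theorem result {G : Type*} [Group G] [Fintype G] {Ω : Type*} [Fintype Ω] [MulAction G Ω] [MulAction.IsPretransitive G Ω] (f : ℕ) (hf : ∀ χ : G → ℂ, Cfsg.IsIrrCharacter G χ → χ ≠ (fun _ => 1) → Cfsg.classInner (fun g : G => (Nat.card (MulAction.fixedBy Ω g) : ℂ)) χ ≠ 0 → ∃ m : ℕ, χ 1 = (f : ℂ) * m) (a b : Ω) (hab : b ≠ a) : f ∣ Nat.card (MulAction.orbit (MulAction.stabilizer G a) b) := by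
  classical
  apply core f hf a (MulAction.orbit (MulAction.stabilizer G a) b)
  · intro h hh y
    have hmem : h ∈ MulAction.stabilizer G a := hh
    constructor
    · intro hy
      have h1 := MulAction.mem_orbit_of_mem_orbit (⟨h, hmem⟩⁻¹ : MulAction.stabilizer G a) hy
      have h2 : (⟨h, hmem⟩⁻¹ : MulAction.stabilizer G a) • h • y = y := by
        show h⁻¹ • h • y = y
        rw [inv_smul_smul]
      rw [h2] at h1
      exact h1
    · intro hy
      exact MulAction.mem_orbit_of_mem_orbit (⟨h, hmem⟩ : MulAction.stabilizer G a) hy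
  · rintro ⟨⟨h, hh⟩, hb⟩
    apply hab
    have h1 : h • b = a := hb
    have h2 : h • a = a := hh
    rw [← h2] at h1
    exact smul_left_cancel h h1

end Cfsg.Agent.S0715
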