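import Mathlib
import Cfsg.Statements.S0716
import Cfsg.Agent.Lib.Helper7.PermChar2
import Cfsg.Agent.S0715

set_option autoImplicit false
open Cfsg

namespace Cfsg.Agent.S0716

open Cfsg.Agent.Lib.Helper2 Cfsg.Agent.Lib.Helper7.PermChar
open scoped ComplexConjugate

/-- (a) If all non-principal irreducible constituents of the permutation character of a transitive group have the same degree `f`, the character is multiplicity-free and all non-trivial subdegrees equal `f`. (b) A transitive group of rank at most 5 has multiplicity-free permutation character. -/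
theorem result {G : Type*} [Group G] [Fintype G] {Ω : Type*} [Fintype Ω] [MulAction G Ω] [MulAction.IsPretransitive G Ω] (a : Ω) : ((f : ℕ) → (∀ χ : G → ℂ, Cfsg.IsIrrCharacter G χ → χ ≠ (fun _ => 1) → Cfsg.classInner (fun g : G => (Nat.card (MulAction.fixedBy Ω g) : ℂ)) χ ≠ 0 → χ 1 = f) → (∀ χ : G → ℂ, Cfsg.IsIrrCharacter G χ → Cfsg.classInner (fun g : G => (Nat.card (MulAction.fixedBy Ω g) : ℂ)) χ = 0 ∨ Cfsg.classInner (fun g : G => (Nat.card (MulAction.fixedBy Ω g) : ℂ)) χ = 1) ∧ ∀ b : Ω, b ≠ a → Nat.card (MulAction.orbit (MulAction.stabilizer G a) b) = f) ∧ (Nat.card (MulAction.orbitRel.Quotient (MulAction.stabilizer G a) Ω) ≤ 5 → ∀ χ : G → ℂ, Cfsg.IsIrrCharacter G χ → Cfsg.classInner (fun g : G => (Nat.card (MulAction.fixedBy Ω g) : ℂ)) χ = 0 ∨ Cfsg.classInner (fun g : G => (Nat.card (MulAction.fixedBy Ω g) : ℂ)) χ = 1) := by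
  classical
  have := Fintype.ofFinite (Cfsg.IrrCharacter G)
  have hQfin : Fintype (MulAction.orbitRel.Quotient (MulAction.stabilizer G a) Ω) :=
    Fintype.ofFinite _
  obtain ⟨μ, d, hμ, hd, hd0, htriv, hn, hr⟩ := perm_data (G := G) a
  have horb := orbit_data (G := G) a
  obtain ⟨χ₁, hχ₁⟩ : ∃ χ₁ : Cfsg.IrrCharacter G, (χ₁ : G → ℂ) = fun _ => 1 :=
    ⟨⟨fun _ => 1, isIrrCharacter_one⟩, rfl⟩
  obtain ⟨hμ₁, hd₁⟩ := htriv χ₁ hχ₁
  obtain ⟨ωa, hωadef⟩ : ∃ ωa : MulAction.orbitRel.Quotient (MulAction.stabilizer G a) Ω,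
      ωa = Quotient.mk'' a := ⟨_, rfl⟩
  have horb_a : MulAction.orbit (MulAction.stabilizer G a) a = {a} := by
    ext x
    constructor
    · rintro ⟨⟨h, hh⟩, rfl⟩
      exact hh
    · intro hx
      rw [Set.mem_singleton_iff] at hx
      rw [hx]
      exact MulAction.mem_orbit_self a
  have hωa : Nat.card ωa.orbit = 1 := by
    rw [hωadef, MulAction.orbitRel.Quotient.orbit_mk, horb_a]
    simp
  have hne : ∀ b : Ω, b ≠ a →
      (Quotient.mk'' b : MulAction.orbitRel.Quotient (MulAction.stabilizer G a) Ω) ≠ ωa := by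
    intro b hb h
    rw [hωadef] at h
    have h1 : b ∈ MulAction.orbitRel.Quotient.orbit (Quotient.mk'' a :
        MulAction.orbitRel.Quotient (MulAction.stabilizer G a) Ω) :=
      MulAction.orbitRel.Quotient.mem_orbit.mpr h
    rw [MulAction.orbitRel.Quotient.orbit_mk, horb_a] at h1
    exact hb h1
  have hn' : Fintype.card Ω = 1 + ∑ χ ∈ Finset.univ.erase χ₁, μ χ * d χ := by
    rw [hn, ← Finset.add_sum_erase Finset.univ _ (Finset.mem_univ χ₁), hμ₁, hd₁]
  have hr' : Nat.card (MulAction.orbitRel.Quotient (MulAction.stabilizer G a) Ω)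
      = 1 + ∑ χ ∈ Finset.univ.erase χ₁, μ χ ^ 2 := by
    rw [hr, ← Finset.add_sum_erase Finset.univ _ (Finset.mem_univ χ₁), hμ₁, one_pow]
  have horb' : Fintype.card Ω = 1 + ∑ ω ∈ Finset.univ.erase ωa, Nat.card ω.orbit := by
    rw [horb, ← Finset.add_sum_erase Finset.univ _ (Finset.mem_univ ωa), hωa]
  have hcardQ : Nat.card (MulAction.orbitRel.Quotient (MulAction.stabilizer G a) Ω)
      = 1 + (Finset.univ.erase ωa).card := by
    rw [Nat.card_eq_fintype_card, Finset.card_erase_of_mem (Finset.mem_univ ωa), Finset.card_univ]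
    have : 0 < Fintype.card (MulAction.orbitRel.Quotient (MulAction.stabilizer G a) Ω) :=
      Fintype.card_pos_iff.mpr ⟨ωa⟩
    omega
  have hdiv : ∀ f : ℕ, (∀ χ : G → ℂ, Cfsg.IsIrrCharacter G χ → χ ≠ (fun _ => 1) →
      Cfsg.classInner (fun g : G => (Nat.card (MulAction.fixedBy Ω g) : ℂ)) χ ≠ 0 →
      ∃ m : ℕ, χ 1 = (f : ℂ) * m) → ∀ ω ∈ Finset.univ.erase ωa, f ∣ Nat.card ω.orbit := by
    intro f hf ω hω
    induction ω using Quotient.inductionOn' with
    | h b =>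
      have hb : b ≠ a := by
        rintro rfl
        exact (Finset.ne_of_mem_erase hω) hωadef.symm
      exact Cfsg.Agent.S0715.result f hf a b hb
  have hpos : ∀ ω : MulAction.orbitRel.Quotient (MulAction.stabilizer G a) Ω,
      0 < Nat.card ω.orbit := by
    intro ω
    induction ω using Quotient.inductionOn' with
    | h b =>
      rw [MulAction.orbitRel.Quotient.orbit_mk]
      have : Nonempty (MulAction.orbit (MulAction.stabilizer G a) b) :=
        ⟨⟨b, MulAction.mem_orbit_self b⟩⟩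
      exact Nat.card_pos
  have hmem1 : ∀ χ : Cfsg.IrrCharacter G, χ ≠ χ₁ → (χ : G → ℂ) ≠ fun _ => 1 := by
    intro χ hχ h
    apply hχ
    apply Subtype.ext
    rw [h, hχ₁]
  refine ⟨?_, ?_⟩
  · intro f hf
    have hf' : ∀ χ : G → ℂ, Cfsg.IsIrrCharacter G χ → χ ≠ (fun _ => 1) →
        Cfsg.classInner (fun g : G => (Nat.card (MulAction.fixedBy Ω g) : ℂ)) χ ≠ 0 →
        ∃ m : ℕ, χ 1 = (f : ℂ) * m := by
      intro χ h1 h2 h3
      exact ⟨1, by rw [hf χ h1 h2 h3]; simp⟩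
    have hdivs := hdiv f hf'
    have hμd : ∀ χ ∈ Finset.univ.erase χ₁, μ χ * d χ = μ χ * f := by
      intro χ hχ
      by_cases h0 : μ χ = 0
      · rw [h0, zero_mul, zero_mul]
      · have h1 : Cfsg.classInner (fun g : G => (Nat.card (MulAction.fixedBy Ω g) : ℂ))
            (χ : G → ℂ) ≠ 0 := by
          rw [hμ χ]
          exact_mod_cast h0
        have h2 := hf χ χ.2 (hmem1 χ (Finset.ne_of_mem_erase hχ)) h1
        rw [hd χ] at h2
        have h3 : d χ = f := by exact_mod_cast h2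
        rw [h3]
    have hn'' : Fintype.card Ω = 1 + (∑ χ ∈ Finset.univ.erase χ₁, μ χ) * f := by
      rw [hn', Finset.sum_mul]
      congr 1
      exact Finset.sum_congr rfl hμd
    have hAB : ∑ χ ∈ Finset.univ.erase χ₁, μ χ ≤ ∑ χ ∈ Finset.univ.erase χ₁, μ χ ^ 2 :=
      Finset.sum_le_sum (fun χ _ => Nat.le_self_pow (by norm_num) (μ χ))
    have hfinal : ∀ χ : G → ℂ, Cfsg.IsIrrCharacter G χ → (∀ χ' ∈ Finset.univ.erase χ₁, μ χ' ≤ 1) →
        Cfsg.classInner (fun g : G => (Nat.card (MulAction.fixedBy Ω g) : ℂ)) χ = 0 ∨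
        Cfsg.classInner (fun g : G => (Nat.card (MulAction.fixedBy Ω g) : ℂ)) χ = 1 := by
      intro χ hχ hle
      have h1 := hμ ⟨χ, hχ⟩
      by_cases h2 : (⟨χ, hχ⟩ : Cfsg.IrrCharacter G) = χ₁
      · right
        rw [h2, hμ₁] at h1
        rw [show χ = ((⟨χ, hχ⟩ : Cfsg.IrrCharacter G) : G → ℂ) from rfl, h2, hμ χ₁, hμ₁]
        simp
      · have h3 := hle ⟨χ, hχ⟩ (Finset.mem_erase.mpr ⟨h2, Finset.mem_univ _⟩)
        have h4 : μ ⟨χ, hχ⟩ = 0 ∨ μ ⟨χ, hχ⟩ = 1 := by omega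
        rcases h4 with h4 | h4
        · left
          rw [h4] at h1
          simpa using h1
        · right
          rw [h4] at h1
          simpa using h1
    rcases (Finset.univ.erase ωa).eq_empty_or_nonempty with hemp | ⟨ω₀, hω₀⟩
    · have hB : ∑ χ ∈ Finset.univ.erase χ₁, μ χ ^ 2 = 0 := by
        rw [hemp, Finset.card_empty] at hcardQ
        omega
      have hzero : ∀ χ ∈ Finset.univ.erase χ₁, μ χ = 0 := by
        intro χ hχ
        have := (Finset.sum_eq_zero_iff.mp hB) χ hχ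
        exact pow_eq_zero_iff (by norm_num) |>.mp this
      refine ⟨fun χ hχ => hfinal χ hχ (fun χ' hχ' => by rw [hzero χ' hχ']; norm_num), ?_⟩
      intro b hb
      have : (Quotient.mk'' b : MulAction.orbitRel.Quotient (MulAction.stabilizer G a) Ω)
          ∈ Finset.univ.erase ωa := Finset.mem_erase.mpr ⟨hne b hb, Finset.mem_univ _⟩
      rw [hemp] at this
      exact absurd this (Finset.notMem_empty _)
    · have hfpos : 0 < f := by
        rcases Nat.eq_zero_or_pos f with h0 | h0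
        · have h1 := hdivs ω₀ hω₀
          rw [h0, zero_dvd_iff] at h1
          have h2 := hpos ω₀
          omega
        · exact h0
      have hle : ∀ ω ∈ Finset.univ.erase ωa, f ≤ Nat.card ω.orbit :=
        fun ω hω => Nat.le_of_dvd (hpos ω) (hdivs ω hω)
      have hT : ∑ ω ∈ Finset.univ.erase ωa, f ≤ ∑ ω ∈ Finset.univ.erase ωa, Nat.card ω.orbit :=
        Finset.sum_le_sum hle
      have hT' : ∑ ω ∈ Finset.univ.erase ωa, f = (Finset.univ.erase ωa).card * f := by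
        rw [Finset.sum_const, smul_eq_mul]
      have hKA : (Finset.univ.erase ωa).card * f ≤ (∑ χ ∈ Finset.univ.erase χ₁, μ χ) * f := by
        omega
      have hKA' : (Finset.univ.erase ωa).card ≤ ∑ χ ∈ Finset.univ.erase χ₁, μ χ :=
        Nat.le_of_mul_le_mul_right hKA hfpos
      have hAB' : ∑ χ ∈ Finset.univ.erase χ₁, μ χ = ∑ χ ∈ Finset.univ.erase χ₁, μ χ ^ 2 := by
        omega
      have hTeq : ∑ ω ∈ Finset.univ.erase ωa, f = ∑ ω ∈ Finset.univ.erase ωa, Nat.card ω.orbit := by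
        have h1 : (Finset.univ.erase ωa).card = ∑ χ ∈ Finset.univ.erase χ₁, μ χ := by omega
        rw [hT', h1]
        omega
      have hμle : ∀ χ ∈ Finset.univ.erase χ₁, μ χ ≤ 1 := by
        intro χ hχ
        have h1 := (Finset.sum_eq_sum_iff_of_le
          (fun χ _ => Nat.le_self_pow (by norm_num : 2 ≠ 0) (μ χ))).mp hAB' χ hχ
        by_contra h2
        have h3 : 2 ≤ μ χ := by omega
        have h4 : μ χ * 2 ≤ μ χ * μ χ := Nat.mul_le_mul_left _ h3
        rw [pow_two] at h1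
        omega
      have hseq : ∀ ω ∈ Finset.univ.erase ωa, f = Nat.card ω.orbit :=
        (Finset.sum_eq_sum_iff_of_le hle).mp hTeq
      refine ⟨fun χ hχ => hfinal χ hχ hμle, ?_⟩
      intro b hb
      have h1 := hseq (Quotient.mk'' b) (Finset.mem_erase.mpr ⟨hne b hb, Finset.mem_univ _⟩)
      rw [MulAction.orbitRel.Quotient.orbit_mk] at h1
      exact h1.symm
  · intro h5 χ hχ
    by_contra hcon
    push Not at hcon
    have h1 := hμ ⟨χ, hχ⟩
    have hχ₀2 : 2 ≤ μ ⟨χ, hχ⟩ := by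
      by_contra h2
      have h3 : μ ⟨χ, hχ⟩ = 0 ∨ μ ⟨χ, hχ⟩ = 1 := by omega
      rcases h3 with h3 | h3
      · rw [h3] at h1
        exact hcon.1 (by simpa using h1)
      · rw [h3] at h1
        exact hcon.2 (by simpa using h1)
    obtain ⟨χ₀, hχ₀def⟩ : ∃ χ₀ : Cfsg.IrrCharacter G, χ₀ = ⟨χ, hχ⟩ := ⟨_, rfl⟩
    rw [← hχ₀def] at hχ₀2
    have hχ₀ne : χ₀ ≠ χ₁ := by
      intro h
      rw [h, hμ₁] at hχ₀2
      omega
    have hmem : χ₀ ∈ Finset.univ.erase χ₁ := Finset.mem_erase.mpr ⟨hχ₀ne, Finset.mem_univ _⟩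
    have hB := Finset.add_sum_erase (Finset.univ.erase χ₁) (fun χ => μ χ ^ 2) hmem
    have hsq : 4 ≤ μ χ₀ ^ 2 := by
      have : 2 * 2 ≤ μ χ₀ * μ χ₀ := Nat.mul_le_mul hχ₀2 hχ₀2
      rw [pow_two]
      omega
    have hrest : ∑ χ ∈ (Finset.univ.erase χ₁).erase χ₀, μ χ ^ 2 = 0 := by omega
    have hμ₀ : μ χ₀ = 2 := by
      have h4 : μ χ₀ ^ 2 ≤ 4 := by omega
      by_contra h2
      have h3 : 3 ≤ μ χ₀ := by omega
      have : 3 * 3 ≤ μ χ₀ * μ χ₀ := Nat.mul_le_mul h3 h3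
      rw [pow_two] at h4
      omega
    have hzero : ∀ χ ∈ (Finset.univ.erase χ₁).erase χ₀, μ χ = 0 := by
      intro χ hχ
      have := (Finset.sum_eq_zero_iff.mp hrest) χ hχ
      exact pow_eq_zero_iff (by norm_num) |>.mp this
    have hK : (Finset.univ.erase ωa).card = 4 := by
      rw [hμ₀] at hB
      omega
    have hf' : ∀ χ : G → ℂ, Cfsg.IsIrrCharacter G χ → χ ≠ (fun _ => 1) →
        Cfsg.classInner (fun g : G => (Nat.card (MulAction.fixedBy Ω g) : ℂ)) χ ≠ 0 →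
        ∃ m : ℕ, χ 1 = ((d χ₀ : ℕ) : ℂ) * m := by
      intro ψ hψ hψ1 hψ0
      have e1 : (⟨ψ, hψ⟩ : Cfsg.IrrCharacter G) ≠ χ₁ := by
        intro h
        apply hψ1
        rw [show ψ = ((⟨ψ, hψ⟩ : Cfsg.IrrCharacter G) : G → ℂ) from rfl, h, hχ₁]
      have e2 : μ ⟨ψ, hψ⟩ ≠ 0 := by
        intro h
        apply hψ0
        rw [show ψ = ((⟨ψ, hψ⟩ : Cfsg.IrrCharacter G) : G → ℂ) from rfl, hμ, h]
        simp
      have e3 : (⟨ψ, hψ⟩ : Cfsg.IrrCharacter G) = χ₀ := by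
        by_contra h
        exact e2 (hzero _ (Finset.mem_erase.mpr ⟨h, Finset.mem_erase.mpr ⟨e1, Finset.mem_univ _⟩⟩))
      refine ⟨1, ?_⟩
      rw [show ψ = ((⟨ψ, hψ⟩ : Cfsg.IrrCharacter G) : G → ℂ) from rfl, e3, hd χ₀]
      simp
    have hdivs := hdiv (d χ₀) hf'
    have hle : ∀ ω ∈ Finset.univ.erase ωa, d χ₀ ≤ Nat.card ω.orbit :=
      fun ω hω => Nat.le_of_dvd (hpos ω) (hdivs ω hω)
    have hT : ∑ ω ∈ Finset.univ.erase ωa, d χ₀ ≤ ∑ ω ∈ Finset.univ.erase ωa, Nat.card ω.orbit :=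
      Finset.sum_le_sum hle
    rw [Finset.sum_const, smul_eq_mul, hK] at hT
    have hN := Finset.add_sum_erase (Finset.univ.erase χ₁) (fun χ => μ χ * d χ) hmem
    have hrest' : ∑ χ ∈ (Finset.univ.erase χ₁).erase χ₀, μ χ * d χ = 0 := by
      apply Finset.sum_eq_zero
      intro χ hχ
      rw [hzero χ hχ, zero_mul]
    rw [hrest', hμ₀, add_zero] at hN
    have hd0' := hd0 χ₀
    omega

end Cfsg.Agent.S0716
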