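import Mathlib
import Cfsg.Statements.S0724

set_option autoImplicit false
open Cfsg

namespace Cfsg.Agent.S0724

open Polynomial

/-- Fixed points on tuples. -/
noncomputable def fixedPiEquiv {G α : Type*} [Group G] [MulAction G α] (k : ℕ) (g : G) :
    MulAction.fixedBy (Fin k → α) g ≃ (Fin k → MulAction.fixedBy α g) where
  toFun x := fun i => ⟨x.1 i, congrFun x.2 i⟩
  invFun y := ⟨fun i => (y i).1, funext fun i => (y i).2⟩
  left_inv x := rfl
  right_inv y := rfl

theorem card_dvd_sum_pow {G α : Type*} [Group G] [Fintype G] [Fintype α] [DecidableEq α]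
    [MulAction G α] (k : ℕ) :
    (Fintype.card G : ℤ) ∣ ∑ g : G, ((Fintype.card (MulAction.fixedBy α g) : ℕ) : ℤ) ^ k := by
  classical
  have h := MulAction.sum_card_fixedBy_eq_card_orbits_mul_card_group G (Fin k → α)
  have h2 : ∀ g : G, Fintype.card (MulAction.fixedBy (Fin k → α) g) =
      (Fintype.card (MulAction.fixedBy α g)) ^ k := by
    intro g
    rw [Fintype.card_congr (fixedPiEquiv k g), Fintype.card_fun, Fintype.card_fin]
  simp only [h2] at h
  have h3 : ∑ g : G, ((Fintype.card (MulAction.fixedBy α g) : ℕ) : ℤ) ^ k =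
      ((∑ g : G, (Fintype.card (MulAction.fixedBy α g)) ^ k : ℕ) : ℤ) := by
    push_cast
    rfl
  rw [h3, h]
  push_cast
  exact dvd_mul_left _ _

theorem card_dvd_sum_eval {G α : Type*} [Group G] [Fintype G] [Fintype α] [DecidableEq α]
    [MulAction G α] (P : ℤ[X]) :
    (Fintype.card G : ℤ) ∣ ∑ g : G, P.eval ((Fintype.card (MulAction.fixedBy α g) : ℕ) : ℤ) := by
  simp only [Polynomial.eval_eq_sum_range]
  rw [Finset.sum_comm]
  apply Finset.dvd_sum
  intro i _
  rw [← Finset.mul_sum]
  exact Dvd.dvd.mul_left (card_dvd_sum_pow i) _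

/-- Blichfeldt's Theorem: if a finite set `L` of natural numbers contains the number of fixed points of every non-identity element of a permutation group `G` of degree `n`, then the order of `G` divides `∏ (n - l)` over `l ∈ L`. -/
theorem result {α : Type*} [Fintype α] [DecidableEq α] (G : Subgroup (Equiv.Perm α)) (L : Finset ℕ) (hL : ∀ g ∈ G, g ≠ 1 → Nat.card (MulAction.fixedBy α g) ∈ L) : Nat.card G ∣ ∏ l ∈ L, (Fintype.card α - l) := by
  classical
  by_cases hbig : ∃ l ∈ L, Fintype.card α ≤ l
  · obtain ⟨l, hl, hle⟩ := hbig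
    have : ∏ l ∈ L, (Fintype.card α - l) = 0 := by
      apply Finset.prod_eq_zero hl
      omega
    rw [this]
    exact dvd_zero _
  · push Not at hbig
    set P : ℤ[X] := ∏ l ∈ L, (X - C (l : ℤ)) with hP
    have hPeval : ∀ x : ℤ, P.eval x = ∏ l ∈ L, (x - (l : ℤ)) := by
      intro x
      rw [hP, Polynomial.eval_prod]
      simp
    have hdvd := card_dvd_sum_eval (G := G) (α := α) P
    have hsum : ∑ g : G, P.eval ((Fintype.card (MulAction.fixedBy α g) : ℕ) : ℤ) =
        P.eval ((Fintype.card α : ℕ) : ℤ) := by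
      rw [Finset.sum_eq_single (1 : G)]
      · congr 2
        rw [Fintype.card_congr (Equiv.subtypeUnivEquiv (fun a => ?_))]
        simp [MulAction.mem_fixedBy]
      · intro g _ hg
        rw [hPeval]
        have hg' : (g : Equiv.Perm α) ≠ 1 := fun h => hg (Subtype.ext h)
        have hmem := hL g g.2 hg'
        rw [Nat.card_eq_fintype_card] at hmem
        apply Finset.prod_eq_zero hmem
        have : Fintype.card (MulAction.fixedBy α g) = Fintype.card (MulAction.fixedBy α (g : Equiv.Perm α)) := by
          apply Fintype.card_congr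
          exact Equiv.refl _
        rw [this]
        simp
      · intro h; exact absurd (Finset.mem_univ _) h
    rw [hsum, hPeval] at hdvd
    have hcast : ∏ l ∈ L, (((Fintype.card α : ℕ) : ℤ) - (l : ℤ)) =
        ((∏ l ∈ L, (Fintype.card α - l) : ℕ) : ℤ) := by
      rw [Nat.cast_prod]
      apply Finset.prod_congr rfl
      intro l hl
      rw [Nat.cast_sub (le_of_lt (hbig l hl))]
    rw [hcast] at hdvd
    rw [Nat.card_eq_fintype_card]
    exact Int.natCast_dvd_natCast.mp hdvd

end Cfsg.Agent.S0724
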