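import Mathlib
import Cfsg.Statements.S0726

set_option autoImplicit false
open Cfsg

namespace Cfsg.Agent.S0726

theorem mem_centralizer_iff' {G : Type*} [Group G] (σ : Equiv.Perm G) :
    σ ∈ Subgroup.centralizer ((MulAction.toPermHom G G).range : Set (Equiv.Perm G)) ↔
      ∀ g x : G, σ (g * x) = g * σ x := by
  rw [Subgroup.mem_centralizer_iff]
  constructor
  · intro h g x
    have h1 := h (MulAction.toPermHom G G g) ⟨g, rfl⟩
    have h2 := congrArg (fun τ : Equiv.Perm G => τ x) h1
    simp only [Equiv.Perm.coe_mul, Function.comp_apply, MulAction.toPermHom_apply,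
      MulAction.toPerm_apply, smul_eq_mul] at h2
    exact h2.symm
  · rintro h τ ⟨g, rfl⟩
    ext x
    simp only [Equiv.Perm.coe_mul, Function.comp_apply, MulAction.toPermHom_apply,
      MulAction.toPerm_apply, smul_eq_mul]
    exact (h g x).symm

theorem eq_of_mem_centralizer {G : Type*} [Group G] (σ : Equiv.Perm G)
    (h : σ ∈ Subgroup.centralizer ((MulAction.toPermHom G G).range : Set (Equiv.Perm G))) :
    σ = MulAction.toPermHom Gᵐᵒᵖ G (MulOpposite.op (σ 1)) := by
  rw [mem_centralizer_iff'] at h
  ext x
  simp only [MulAction.toPermHom_apply, MulAction.toPerm_apply, MulOpposite.smul_eq_mul_unop,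
    MulOpposite.unop_op]
  have := h x 1
  rwa [mul_one] at this

theorem centralizer_eq {G : Type*} [Group G] :
    Subgroup.centralizer ((MulAction.toPermHom G G).range : Set (Equiv.Perm G)) =
      (MulAction.toPermHom Gᵐᵒᵖ G).range := by
  ext σ
  constructor
  · intro h
    exact ⟨MulOpposite.op (σ 1), (eq_of_mem_centralizer σ h).symm⟩
  · rintro ⟨a, rfl⟩
    rw [mem_centralizer_iff']
    intro g x
    simp only [MulAction.toPermHom_apply, MulAction.toPerm_apply, MulOpposite.smul_eq_mul_unop,
      mul_assoc]

/-- The left and right regular permutation representations of a group are each other's centralisers in the symmetric group: the centraliser of the left regular image is the right regular image, and a transitive subgroup centralising the left regular image is the whole right regular image. -/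
theorem result {G : Type*} [Group G] : Subgroup.centralizer ((MulAction.toPermHom G G).range : Set (Equiv.Perm G)) = (MulAction.toPermHom Gᵐᵒᵖ G).range ∧ ∀ H : Subgroup (Equiv.Perm G), H ≤ Subgroup.centralizer ((MulAction.toPermHom G G).range : Set (Equiv.Perm G)) → MulAction.IsPretransitive H G → H = (MulAction.toPermHom Gᵐᵒᵖ G).range := by
  refine ⟨centralizer_eq, ?_⟩
  intro H hH htrans
  apply le_antisymm
  · rw [← centralizer_eq]; exact hH
  · rintro σ ⟨a, rfl⟩
    obtain ⟨h, hh⟩ := htrans.exists_smul_eq (1 : G) (MulOpposite.unop a)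
    have h1 : (h : Equiv.Perm G) = MulAction.toPermHom Gᵐᵒᵖ G (MulOpposite.op ((h : Equiv.Perm G) 1)) :=
      eq_of_mem_centralizer _ (hH h.2)
    have h2 : (h : Equiv.Perm G) 1 = MulOpposite.unop a := hh
    rw [h2, MulOpposite.op_unop] at h1
    rw [← h1]
    exact h.2

end Cfsg.Agent.S0726
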