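import Mathlib
import Cfsg.Statements.S0728
import Cfsg.Agent.Lib.Helper4.Zas1

set_option autoImplicit false
set_option linter.unusedSectionVars false
open Cfsg

namespace Cfsg.Agent.S0728

section abstract

/-- A fixed-point-free involutory endomorphism of a finite group inverts every element. -/
theorem fpf_invol {M : Type*} [Group M] [Finite M] (σ : M →* M) (h2 : ∀ m, σ (σ m) = m)
    (hf : ∀ m, σ m = m → m = 1) : ∀ m, σ m = m⁻¹ := by
  have hinj : Function.Injective (fun m : M => m⁻¹ * σ m) := by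
    intro m n h
    have h' : m⁻¹ * σ m = n⁻¹ * σ n := h
    have h1 : σ (n * m⁻¹) = n * m⁻¹ := by
      rw [map_mul, map_inv]
      have h3 : σ m = m * (n⁻¹ * σ n) := by rw [← h']; group
      rw [h3]
      group
    have h3 := hf _ h1
    have h4 : n = m := by
      have := mul_inv_eq_one.1 h3
      exact this
    exact h4.symm
  have hsurj : Function.Surjective (fun m : M => m⁻¹ * σ m) :=
    Finite.injective_iff_surjective.1 hinj
  intro m
  obtain ⟨n, hn⟩ := hsurj m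
  have hn' : n⁻¹ * σ n = m := hn
  rw [← hn', map_mul, map_inv, h2]
  group

theorem comm_of_inv {M : Type*} [Group M] (σ : M →* M) (h : ∀ m, σ m = m⁻¹) (x y : M) :
    x * y = y * x := by
  have h1 := h (x * y)
  rw [map_mul, h x, h y, mul_inv_rev] at h1
  have h2 : (x⁻¹ * y⁻¹)⁻¹ = (y⁻¹ * x⁻¹)⁻¹ := by rw [h1]
  rw [mul_inv_rev, mul_inv_rev, inv_inv, inv_inv] at h2
  exact h2.symm

/-- Two commuting fixed-point-free operators of order three on an abelian group which are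
neither equal nor inverse to each other can only act on the trivial group. -/
theorem comm3 {M : Type*} [Group M] (hc : ∀ x y : M, x * y = y * x) (X Y : M →* M)
    (hXY : ∀ v, X (Y v) = Y (X v)) (hX : ∀ v, v * X v * X (X v) = 1)
    (hY : ∀ v, v * Y v * Y (Y v) = 1) (hY3 : ∀ v, Y (Y (Y v)) = v)
    (h1 : ∀ v, X v = Y v → v = 1) (h2 : ∀ v, X v = Y (Y v) → v = 1) (v : M) : v = 1 := by
  apply h1
  have hm : X v * (Y v)⁻¹ = 1 := by
    apply h2
    have hXw : X (X v) = (X v)⁻¹ * v⁻¹ := by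
      have := hX v
      have h3 : X (X v) = (v * X v)⁻¹ := eq_inv_of_mul_eq_one_right this
      rw [h3, mul_inv_rev]
    have hYw : Y (Y (X v)) = (Y (X v))⁻¹ * (X v)⁻¹ := by
      have := hY (X v)
      have h3 : Y (Y (X v)) = (X v * Y (X v))⁻¹ := eq_inv_of_mul_eq_one_right this
      rw [h3, mul_inv_rev]
    calc X (X v * (Y v)⁻¹) = X (X v) * (Y (X v))⁻¹ := by rw [map_mul, map_inv, hXY]
      _ = ((X v)⁻¹ * v⁻¹) * (Y (X v))⁻¹ := by rw [hXw]
      _ = (Y (X v))⁻¹ * ((X v)⁻¹ * v⁻¹) := hc _ _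
      _ = Y (Y (X v)) * v⁻¹ := by rw [hYw]; group
      _ = Y (Y (X v * (Y v)⁻¹)) := by rw [map_mul, map_mul, map_inv, map_inv, hY3]
  exact mul_inv_eq_one.1 hm

end abstract

section general

variable {α : Type*} [Fintype α] [DecidableEq α]

omit [Fintype α] [DecidableEq α] in
theorem inv_app (f : Equiv.Perm α) (x : α) : f⁻¹ (f x) = x := Equiv.symm_apply_apply f x

omit [Fintype α] [DecidableEq α] in
theorem app_inv (f : Equiv.Perm α) (x : α) : f (f⁻¹ x) = x := Equiv.apply_symm_apply f x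

omit [Fintype α] [DecidableEq α] in
theorem pow3 {ω : Equiv.Perm α} (h : ω ^ 3 = 1) : ω * ω * ω = 1 ∧ ω⁻¹ * ω⁻¹ * ω⁻¹ = 1 := by
  have h1 : ω * ω * ω = 1 := by
    rw [← h, pow_succ, pow_succ, pow_one]
  refine ⟨h1, ?_⟩
  have h2 : ω⁻¹ * ω⁻¹ * ω⁻¹ = (ω * ω * ω)⁻¹ := by group
  rw [h2, h1, inv_one]

/-- Sharp triple transitivity in explicit form. -/
structure S3 (G : Subgroup (Equiv.Perm α)) : Prop where
  trans : ∀ x₁ x₂ x₃ y₁ y₂ y₃ : α, x₁ ≠ x₂ → x₁ ≠ x₃ → x₂ ≠ x₃ → y₁ ≠ y₂ → y₁ ≠ y₃ → y₂ ≠ y₃ →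
    ∃ g ∈ G, g x₁ = y₁ ∧ g x₂ = y₂ ∧ g x₃ = y₃
  rigid : ∀ g ∈ G, ∀ x₁ x₂ x₃ : α, x₁ ≠ x₂ → x₁ ≠ x₃ → x₂ ≠ x₃ → g x₁ = x₁ → g x₂ = x₂ →
    g x₃ = x₃ → g = 1

theorem s3_of (G : Subgroup (Equiv.Perm α)) (h3 : MulAction.IsMultiplyPretransitive G α 3)
    (hsharp : ∀ x : Fin 3 ↪ α, MulAction.stabilizer G x = ⊥) : S3 G := by
  have inj : ∀ x₁ x₂ x₃ : α, x₁ ≠ x₂ → x₁ ≠ x₃ → x₂ ≠ x₃ →
      Function.Injective ![x₁, x₂, x₃] := by
    intro x₁ x₂ x₃ h12 h13 h23 i j hij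
    fin_cases i <;> fin_cases j <;> simp_all
  refine ⟨?_, ?_⟩
  · intro x₁ x₂ x₃ y₁ y₂ y₃ h12 h13 h23 k12 k13 k23
    obtain ⟨g, hg⟩ := (MulAction.isMultiplyPretransitive_iff.1 h3)
      ⟨_, inj x₁ x₂ x₃ h12 h13 h23⟩ ⟨_, inj y₁ y₂ y₃ k12 k13 k23⟩
    refine ⟨g.1, g.2, ?_, ?_, ?_⟩
    · have := DFunLike.congr_fun hg 0
      exact this
    · have := DFunLike.congr_fun hg 1
      exact this
    · have := DFunLike.congr_fun hg 2
      exact this
  · intro g hg x₁ x₂ x₃ h12 h13 h23 e1 e2 e3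
    have hmem : (⟨g, hg⟩ : G) ∈
        MulAction.stabilizer G (⟨_, inj x₁ x₂ x₃ h12 h13 h23⟩ : Fin 3 ↪ α) := by
      rw [MulAction.mem_stabilizer_iff]
      apply Function.Embedding.ext
      intro i
      fin_cases i
      · exact e1
      · exact e2
      · exact e3
    rw [hsharp, Subgroup.mem_bot] at hmem
    exact congrArg Subtype.val hmem

theorem exists_notMem (s : Finset α) (h : s.card < Fintype.card α) : ∃ x, x ∉ s := by
  by_contra hcon
  push Not at hcon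
  have : s = Finset.univ := Finset.eq_univ_iff_forall.2 hcon
  rw [this, Finset.card_univ] at h
  exact lt_irrefl _ h

theorem exists_ne1 (h : 2 ≤ Fintype.card α) (a : α) : ∃ x, x ≠ a := by
  obtain ⟨x, hx⟩ := exists_notMem ({a} : Finset α) (by rw [Finset.card_singleton]; omega)
  exact ⟨x, by simpa using hx⟩

theorem exists_ne2 (h : 3 ≤ Fintype.card α) (a b : α) : ∃ x, x ≠ a ∧ x ≠ b := by
  obtain ⟨x, hx⟩ := exists_notMem ({a, b} : Finset α)
    (lt_of_le_of_lt Finset.card_le_two (by omega))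
  exact ⟨x, by simpa using hx⟩

theorem exists_ne3 (h : 4 ≤ Fintype.card α) (a b c : α) : ∃ x, x ≠ a ∧ x ≠ b ∧ x ≠ c := by
  obtain ⟨x, hx⟩ := exists_notMem ({a, b, c} : Finset α)
    (lt_of_le_of_lt Finset.card_le_three (by omega))
  exact ⟨x, by simpa using hx⟩

theorem ncard_ne (a : α) : ({x | x ≠ a} : Set α).ncard = Fintype.card α - 1 := by
  have : ({x | x ≠ a} : Set α) = ({a} : Set α)ᶜ := by
    ext x
    simp
  rw [this, Set.ncard_compl, Set.ncard_singleton, Nat.card_eq_fintype_card]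

/-- The stabiliser of a point. -/
def Xs (G : Subgroup (Equiv.Perm α)) (a : α) : Subgroup (Equiv.Perm α) :=
  G ⊓ MulAction.stabilizer (Equiv.Perm α) a

theorem mem_Xs {G : Subgroup (Equiv.Perm α)} {a : α} {h : Equiv.Perm α} :
    h ∈ Xs G a ↔ h ∈ G ∧ h a = a := by
  rw [Xs, Subgroup.mem_inf, MulAction.mem_stabilizer_iff]
  rfl

/-- The stabiliser of two points. -/
def Hs (G : Subgroup (Equiv.Perm α)) (a b : α) : Subgroup (Equiv.Perm α) :=
  Xs G a ⊓ MulAction.stabilizer (Equiv.Perm α) b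

theorem mem_Hs {G : Subgroup (Equiv.Perm α)} {a b : α} {h : Equiv.Perm α} :
    h ∈ Hs G a b ↔ h ∈ G ∧ h a = a ∧ h b = b := by
  rw [Hs, Subgroup.mem_inf, MulAction.mem_stabilizer_iff, mem_Xs, and_assoc]
  rfl

theorem Hs_le_Xs {G : Subgroup (Equiv.Perm α)} {a b : α} {h : Equiv.Perm α}
    (hh : h ∈ Hs G a b) : h ∈ Xs G a :=
  mem_Xs.2 ⟨(mem_Hs.1 hh).1, (mem_Hs.1 hh).2.1⟩

/-- `N` is the Frobenius kernel of the stabiliser of `a`. -/
structure Ker (G : Subgroup (Equiv.Perm α)) (a : α) (N : Subgroup (Equiv.Perm α)) : Prop where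
  mem : ∀ x, x ∈ N ↔ x ∈ G ∧ x a = a ∧ (x = 1 ∨ ∀ c, c ≠ a → x c ≠ c)
  card : Nat.card N = Fintype.card α - 1

theorem exists_ker {G : Subgroup (Equiv.Perm α)} (hS : S3 G) (h4 : 4 ≤ Fintype.card α) (a : α) :
    ∃ N : Subgroup (Equiv.Perm α), Ker G a N := by
  classical
  obtain ⟨b, hb⟩ := exists_ne1 (by omega) a
  obtain ⟨e, hea, heb⟩ := exists_ne2 (by omega) a b
  obtain ⟨e', he'a, he'b, he'e⟩ := exists_ne3 h4 a b e
  have key := Cfsg.Agent.Lib.Helper4.Zas.exists_kernel (G := Equiv.Perm α) (Ω := α)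
    (Xs G a) {x | x ≠ a} ?_ ?_ ?_ b hb ?_ ?_
  · obtain ⟨M, hM1, hM2⟩ := key
    refine ⟨M, ?_, ?_⟩
    · intro x
      rw [hM1, mem_Xs, and_assoc]
      rfl
    · rw [hM2, ncard_ne]
  · intro x hx c hc
    obtain ⟨-, hxa⟩ := mem_Xs.1 hx
    show x c ≠ a
    intro h
    rw [← hxa] at h
    exact hc (x.injective h)
  · intro c hc d hd
    obtain ⟨f, hfa, hfc⟩ := exists_ne2 (by omega) a c
    obtain ⟨f', hf'a, hf'd⟩ := exists_ne2 (by omega) a d
    obtain ⟨g, hg, h1, h2, -⟩ := hS.trans a c f a d f' (Ne.symm hc) (Ne.symm hfa) (Ne.symm hfc)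
      (Ne.symm hd) (Ne.symm hf'a) (Ne.symm hf'd)
    exact ⟨g, mem_Xs.2 ⟨hg, h1⟩, h2⟩
  · intro x hx hx1 c hc d hd hxc hxd
    by_contra hcd
    obtain ⟨hxG, hxa⟩ := mem_Xs.1 hx
    exact hx1 (hS.rigid x hxG a c d (Ne.symm hc) (Ne.symm hd) hcd hxa hxc hxd)
  · obtain ⟨g, hg, h1, h2, h3⟩ := hS.trans a b e a b e' (Ne.symm hb) (Ne.symm hea) (Ne.symm heb)
      (Ne.symm hb) (Ne.symm he'a) (Ne.symm he'b)
    refine ⟨g, mem_Xs.2 ⟨hg, h1⟩, ?_, h2⟩
    rintro rfl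
    exact he'e h3.symm
  · obtain ⟨g, hg, h1, h2, -⟩ := hS.trans a b e a e b (Ne.symm hb) (Ne.symm hea) (Ne.symm heb)
      (Ne.symm hea) (Ne.symm hb) heb
    refine ⟨g, mem_Xs.2 ⟨hg, h1⟩, ?_⟩
    show g b ≠ b
    rw [h2]
    exact heb

variable {G : Subgroup (Equiv.Perm α)} {a b : α} {N : Subgroup (Equiv.Perm α)}

theorem Ker.le (hK : Ker G a N) {n : Equiv.Perm α} (hn : n ∈ N) : n ∈ G := ((hK.mem n).1 hn).1

theorem Ker.fix (hK : Ker G a N) {n : Equiv.Perm α} (hn : n ∈ N) : n a = a :=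
  ((hK.mem n).1 hn).2.1

theorem Ker.semireg (hK : Ker G a N) {n : Equiv.Perm α} (hn : n ∈ N) {c : α} (hc : c ≠ a)
    (h : n c = c) : n = 1 := by
  rcases ((hK.mem n).1 hn).2.2 with h1 | h1
  · exact h1
  · exact absurd h (h1 c hc)

theorem Ker.ne (hK : Ker G a N) {n : Equiv.Perm α} (hn : n ∈ N) {c : α} (hc : c ≠ a) :
    n c ≠ a := by
  intro h
  rw [← hK.fix hn] at h
  exact hc (n.injective h)

theorem Ker.trans (hK : Ker G a N) {c d : α} (hc : c ≠ a) (hd : d ≠ a) : ∃ n ∈ N, n c = d := by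
  have key := Cfsg.Agent.Lib.Helper4.Zas.trans_of_card (G := Equiv.Perm α) (Ω := α) N
    {x | x ≠ a} ?_ ?_ ?_ c hc d hd
  · exact key
  · intro x hx c hc
    exact hK.ne hx hc
  · intro x hx c hc h
    exact hK.semireg hx hc h
  · rw [hK.card, ncard_ne]

theorem Ker.conj (hK : Ker G a N) {h : Equiv.Perm α} (hh : h ∈ Xs G a) {n : Equiv.Perm α}
    (hn : n ∈ N) : h * n * h⁻¹ ∈ N := by
  obtain ⟨hG, ha⟩ := mem_Xs.1 hh
  have ha' : h⁻¹ a = a := by
    rw [Equiv.Perm.inv_eq_iff_eq, ha]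
  rw [hK.mem]
  refine ⟨G.mul_mem (G.mul_mem hG (hK.le hn)) (G.inv_mem hG), ?_, ?_⟩
  · rw [Equiv.Perm.mul_apply, Equiv.Perm.mul_apply, ha', hK.fix hn, ha]
  · by_cases h1 : n = 1
    · left
      rw [h1]
      group
    · right
      intro c hc hfix
      rw [Equiv.Perm.mul_apply, Equiv.Perm.mul_apply] at hfix
      have h2 : n (h⁻¹ c) = h⁻¹ c := by
        have := congrArg (fun z => h⁻¹ z) hfix
        simp only [inv_app] at this
        exact this
      have h3 : h⁻¹ c ≠ a := by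
        intro e
        have := congrArg (fun z => h z) e
        simp only [app_inv] at this
        rw [ha] at this
        exact hc this
      exact h1 (hK.semireg hn h3 h2)

theorem Ker.eq_of_apply (hK : Ker G a N) {n n' : Equiv.Perm α} (hn : n ∈ N) (hn' : n' ∈ N)
    {c : α} (hc : c ≠ a) (h : n c = n' c) : n = n' := by
  have h1 : (n'⁻¹ * n) c = c := by rw [Equiv.Perm.mul_apply, h, inv_app]
  have h2 := hK.semireg (N.mul_mem (N.inv_mem hn') hn) hc h1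
  exact (inv_mul_eq_one.1 h2).symm

/-- The two-point stabiliser acts on the kernel without fixed points. -/
theorem fpf (hS : S3 G) (hK : Ker G a N) (hab : a ≠ b) {h n : Equiv.Perm α}
    (hh : h ∈ Hs G a b) (hn : n ∈ N) (hcomm : h * n = n * h) (hn1 : n ≠ 1) : h = 1 := by
  obtain ⟨hG, ha, hb⟩ := mem_Hs.1 hh
  have h1 : h (n b) = n b := by
    have := congrArg (fun f : Equiv.Perm α => f b) hcomm
    simp only [Equiv.Perm.mul_apply] at this
    rw [this, hb]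
  have h2 : n b ≠ b := fun e => hn1 (hK.semireg hn (Ne.symm hab) e)
  have h3 : n b ≠ a := hK.ne hn (Ne.symm hab)
  exact hS.rigid h hG a b (n b) hab (Ne.symm h3) (Ne.symm h2) ha hb h1

/-- Conjugation by an element of the point stabiliser, as an endomorphism of the kernel. -/
def cjN (hK : Ker G a N) (h : Equiv.Perm α) (hh : h ∈ Xs G a) : ↥N →* ↥N where
  toFun n := ⟨h * n.1 * h⁻¹, hK.conj hh n.2⟩
  map_one' := by
    apply Subtype.ext
    show h * 1 * h⁻¹ = 1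
    group
  map_mul' m n := by
    apply Subtype.ext
    show h * (m.1 * n.1) * h⁻¹ = (h * m.1 * h⁻¹) * (h * n.1 * h⁻¹)
    group

theorem cjN_apply (hK : Ker G a N) (h : Equiv.Perm α) (hh : h ∈ Xs G a) (n : ↥N) :
    ((cjN hK h hh n : ↥N) : Equiv.Perm α) = h * n.1 * h⁻¹ := rfl

/-- An involution in the two-point stabiliser inverts the kernel. -/
theorem invol_inverts (hS : S3 G) (hK : Ker G a N) (hab : a ≠ b) {j : Equiv.Perm α}
    (hj : j ∈ Hs G a b) (hj2 : j * j = 1) (hj1 : j ≠ 1) {n : Equiv.Perm α} (hn : n ∈ N) :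
    j * n * j⁻¹ = n⁻¹ := by
  have hjinv : j⁻¹ = j := inv_eq_of_mul_eq_one_left hj2
  have key := fpf_invol (cjN hK j (Hs_le_Xs hj)) ?_ ?_ ⟨n, hn⟩
  · have := congrArg Subtype.val key
    exact this
  · intro m
    apply Subtype.ext
    show j * (j * m.1 * j⁻¹) * j⁻¹ = m.1
    rw [hjinv]
    calc j * (j * m.1 * j) * j = (j * j) * m.1 * (j * j) := by group
      _ = m.1 := by rw [hj2, one_mul, mul_one]
  · intro m hm
    have hm' : j * m.1 * j⁻¹ = m.1 := congrArg Subtype.val hm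
    by_contra hne
    have hcomm : j * m.1 = m.1 * j := by
      calc j * m.1 = (j * m.1 * j⁻¹) * j := by group
        _ = m.1 * j := by rw [hm']
    have hm1 : m.1 ≠ 1 := fun h => hne (Subtype.ext h)
    exact hj1 (fpf hS hK hab hj m.2 hcomm hm1)

theorem comm_of_invol (hS : S3 G) (hK : Ker G a N) (hab : a ≠ b) {j : Equiv.Perm α}
    (hj : j ∈ Hs G a b) (hj2 : j * j = 1) (hj1 : j ≠ 1) :
    ∀ m ∈ N, ∀ n ∈ N, m * n = n * m := by
  intro m hm n hn
  have key := comm_of_inv (cjN hK j (Hs_le_Xs hj)) ?_ ⟨m, hm⟩ ⟨n, hn⟩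
  · exact congrArg Subtype.val key
  · intro x
    apply Subtype.ext
    exact invol_inverts hS hK hab hj hj2 hj1 x.2

/-- The fundamental relation for an element of order three. -/
theorem rel3 (hS : S3 G) (hK : Ker G a N) (hab : a ≠ b)
    (hc : ∀ m ∈ N, ∀ n ∈ N, m * n = n * m) {ω : Equiv.Perm α} (hω : ω ∈ Hs G a b)
    (hω3 : ω ^ 3 = 1) (hω1 : ω ≠ 1) {n : Equiv.Perm α} (hn : n ∈ N) :
    n * (ω * n * ω⁻¹) * (ω * (ω * n * ω⁻¹) * ω⁻¹) = 1 := by
  have hq : ω * n * ω⁻¹ ∈ N := hK.conj (Hs_le_Xs hω) hn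
  have hr : ω * (ω * n * ω⁻¹) * ω⁻¹ ∈ N := hK.conj (Hs_le_Xs hω) hq
  by_contra hm
  have e1 : ω * (ω * (ω * n * ω⁻¹) * ω⁻¹) * ω⁻¹ = n := by
    have : ω * (ω * (ω * n * ω⁻¹) * ω⁻¹) * ω⁻¹ = (ω * ω * ω) * n * (ω⁻¹ * ω⁻¹ * ω⁻¹) := by
      group
    rw [this, (pow3 hω3).1, (pow3 hω3).2]
    group
  have e2 : ω * (n * (ω * n * ω⁻¹) * (ω * (ω * n * ω⁻¹) * ω⁻¹)) * ω⁻¹
      = n * (ω * n * ω⁻¹) * (ω * (ω * n * ω⁻¹) * ω⁻¹) := by
    calc ω * (n * (ω * n * ω⁻¹) * (ω * (ω * n * ω⁻¹) * ω⁻¹)) * ω⁻¹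
        = ((ω * n * ω⁻¹) * (ω * (ω * n * ω⁻¹) * ω⁻¹)) * (ω * (ω * (ω * n * ω⁻¹) * ω⁻¹) * ω⁻¹) := by
          group
      _ = ((ω * n * ω⁻¹) * (ω * (ω * n * ω⁻¹) * ω⁻¹)) * n := by rw [e1]
      _ = n * ((ω * n * ω⁻¹) * (ω * (ω * n * ω⁻¹) * ω⁻¹)) := hc _ (N.mul_mem hq hr) _ hn
      _ = n * (ω * n * ω⁻¹) * (ω * (ω * n * ω⁻¹) * ω⁻¹) := by group
  have hcomm : ω * (n * (ω * n * ω⁻¹) * (ω * (ω * n * ω⁻¹) * ω⁻¹))
      = (n * (ω * n * ω⁻¹) * (ω * (ω * n * ω⁻¹) * ω⁻¹)) * ω := by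
    calc ω * (n * (ω * n * ω⁻¹) * (ω * (ω * n * ω⁻¹) * ω⁻¹))
        = (ω * (n * (ω * n * ω⁻¹) * (ω * (ω * n * ω⁻¹) * ω⁻¹)) * ω⁻¹) * ω := by group
      _ = (n * (ω * n * ω⁻¹) * (ω * (ω * n * ω⁻¹) * ω⁻¹)) * ω := by rw [e2]
  exact hω1 (fpf hS hK hab hω (N.mul_mem (N.mul_mem hn hq) hr) hcomm hm)

end general

section odd

variable {α : Type*} [Fintype α] [DecidableEq α] {G : Subgroup (Equiv.Perm α)} {a b : α}
  {N : Subgroup (Equiv.Perm α)}

theorem inv_fix {f : Equiv.Perm α} {x : α} (h : f x = x) : f⁻¹ x = x := by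
  rw [Equiv.Perm.inv_eq_iff_eq, h]

theorem eq_of_agree (hS : S3 G) (hab : a ≠ b) {g g' : Equiv.Perm α} (hg : g ∈ Hs G a b)
    (hg' : g' ∈ Hs G a b) {c : α} (hca : c ≠ a) (hcb : c ≠ b) (h : g c = g' c) : g = g' := by
  obtain ⟨hG, ha, hb⟩ := mem_Hs.1 hg
  obtain ⟨hG', ha', hb'⟩ := mem_Hs.1 hg'
  have := hS.rigid (g'⁻¹ * g) (G.mul_mem (G.inv_mem hG') hG) a b c hab (Ne.symm hca)
    (Ne.symm hcb) ?_ ?_ ?_
  · exact (inv_mul_eq_one.1 this).symm
  · rw [Equiv.Perm.mul_apply, ha, inv_fix ha']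
  · rw [Equiv.Perm.mul_apply, hb, inv_fix hb']
  · rw [Equiv.Perm.mul_apply, h, inv_app]

theorem card_Hs (hS : S3 G) (hab : a ≠ b) (h3 : 3 ≤ Fintype.card α) :
    Nat.card (Hs G a b) = Fintype.card α - 2 := by
  obtain ⟨c, hca, hcb⟩ := exists_ne2 h3 a b
  have hinv : ∀ h : Hs G a b, h.1 c ∈ (({a, b} : Set α)ᶜ : Set α) := by
    intro h
    obtain ⟨hG, ha, hb⟩ := mem_Hs.1 h.2
    simp only [Set.mem_compl_iff, Set.mem_insert_iff, Set.mem_singleton_iff, not_or]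
    constructor
    · intro e
      exact hca (h.1.injective (e.trans ha.symm))
    · intro e
      exact hcb (h.1.injective (e.trans hb.symm))
  have hf : Function.Bijective
      (fun h : Hs G a b => (⟨h.1 c, hinv h⟩ : (({a, b} : Set α)ᶜ : Set α))) := by
    constructor
    · intro h h' e
      have e' : h.1 c = h'.1 c := congrArg Subtype.val e
      exact Subtype.ext (eq_of_agree hS hab h.2 h'.2 hca hcb e')
    · rintro ⟨x, hx⟩
      simp only [Set.mem_compl_iff, Set.mem_insert_iff, Set.mem_singleton_iff, not_or] at hx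
      obtain ⟨g, hg, h1, h2, h3⟩ := hS.trans a b c a b x hab (Ne.symm hca) (Ne.symm hcb) hab
        (Ne.symm hx.1) (Ne.symm hx.2)
      exact ⟨⟨g, mem_Hs.2 ⟨hg, h1, h2⟩⟩, Subtype.ext h3⟩
  rw [Nat.card_congr (Equiv.ofBijective _ hf), Nat.card_coe_set_eq, Set.ncard_compl,
    Set.ncard_pair hab, Nat.card_eq_fintype_card]

theorem exists_invol (hS : S3 G) (hab : a ≠ b) (heven : Even (Fintype.card α))
    (h4 : 4 ≤ Fintype.card α) : ∃ j ∈ Hs G a b, j * j = 1 ∧ j ≠ 1 := by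
  have hcard := card_Hs hS hab (by omega)
  have h2 : 2 ∣ Nat.card (Hs G a b) := by
    rw [hcard]
    obtain ⟨k, hk⟩ := heven
    omega
  have : Fact (Nat.Prime 2) := ⟨Nat.prime_two⟩
  obtain ⟨j, hj⟩ := exists_prime_orderOf_dvd_card' 2 h2
  refine ⟨j.1, j.2, ?_, ?_⟩
  · have h3 := pow_orderOf_eq_one j
    rw [hj, pow_two] at h3
    exact congrArg Subtype.val h3
  · intro h
    have h3 : j = 1 := Subtype.ext h
    rw [h3, orderOf_one] at hj
    omega

theorem invol_unique (hS : S3 G) (hK : Ker G a N) (hab : a ≠ b) (h3 : 3 ≤ Fintype.card α)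
    {i j : Equiv.Perm α} (hi : i ∈ Hs G a b) (hi2 : i * i = 1) (hi1 : i ≠ 1)
    (hj : j ∈ Hs G a b) (hj2 : j * j = 1) (hj1 : j ≠ 1) : i = j := by
  obtain ⟨c, hca, hcb⟩ := exists_ne2 h3 a b
  obtain ⟨n, hn, hnb⟩ := hK.trans (Ne.symm hab) hca
  have hn1 : n ≠ 1 := by
    rintro rfl
    exact hcb hnb.symm
  have e1 := invol_inverts hS hK hab hj hj2 hj1 hn
  have e2 := invol_inverts hS hK hab hi hi2 hi1 (N.inv_mem hn)
  have hcomm : (i * j) * n = n * (i * j) := by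
    calc i * j * n = i * (j * n * j⁻¹) * i⁻¹ * (i * j) := by group
      _ = i * n⁻¹ * i⁻¹ * (i * j) := by rw [e1]
      _ = n * (i * j) := by rw [e2, inv_inv]
  have h5 := fpf hS hK hab ((Hs G a b).mul_mem hi hj) hn hcomm hn1
  have hjinv : j⁻¹ = j := inv_eq_of_mul_eq_one_left hj2
  rw [← hjinv]
  exact eq_inv_of_mul_eq_one_left h5

/-- The additive relations `1 + ω = -ω²`, `-1 - ω = ω²`, `-1 - ω² = ω` in point form. -/
theorem Lrel (hS : S3 G) (hK : Ker G a N) (hab : a ≠ b)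
    (hc : ∀ m ∈ N, ∀ n ∈ N, m * n = n * m) {j : Equiv.Perm α} (hjb : j b = b)
    (hjinv : j⁻¹ = j) (hinv : ∀ n ∈ N, j * n * j⁻¹ = n⁻¹) {ω : Equiv.Perm α}
    (hω : ω ∈ Hs G a b) (hω3 : ω ^ 3 = 1) (hω1 : ω ≠ 1) {u : Equiv.Perm α} (hu : u ∈ N) {c : α}
    (hub : u b = c) :
    u (ω c) = j (ω (ω c)) ∧ u⁻¹ (j (ω c)) = ω (ω c) ∧ u⁻¹ (j (ω (ω c))) = ω c := by
  obtain ⟨hωG, hωa, hωb⟩ := mem_Hs.1 hω
  have hωib : ω⁻¹ b = b := inv_fix hωb
  have hq : ω * u * ω⁻¹ ∈ N := hK.conj (Hs_le_Xs hω) hu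
  have hr : ω * (ω * u * ω⁻¹) * ω⁻¹ ∈ N := hK.conj (Hs_le_Xs hω) hq
  have hqb : (ω * u * ω⁻¹) b = ω c := by
    rw [Equiv.Perm.mul_apply, Equiv.Perm.mul_apply, hωib, hub]
  have hrb : (ω * (ω * u * ω⁻¹) * ω⁻¹) b = ω (ω c) := by
    rw [Equiv.Perm.mul_apply, Equiv.Perm.mul_apply, hωib, hqb]
  have hrel := rel3 hS hK hab hc hω hω3 hω1 hu
  have hinvb : ∀ n ∈ N, n⁻¹ b = j (n b) := by
    intro n hn
    rw [← hinv n hn, Equiv.Perm.mul_apply, Equiv.Perm.mul_apply, hjinv, hjb]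
  obtain ⟨r, hrdef⟩ : ∃ r, r = ω * (ω * u * ω⁻¹) * ω⁻¹ := ⟨_, rfl⟩
  rw [← hrdef] at hr hrb hrel
  obtain ⟨q, hqdef⟩ : ∃ q, q = ω * u * ω⁻¹ := ⟨_, rfl⟩
  rw [← hqdef] at hq hqb hrel
  refine ⟨?_, ?_, ?_⟩
  · have h1 : u * q = r⁻¹ := eq_inv_of_mul_eq_one_left hrel
    calc u (ω c) = u (q b) := by rw [hqb]
      _ = (u * q) b := rfl
      _ = r⁻¹ b := by rw [h1]
      _ = j (r b) := hinvb r hr
      _ = j (ω (ω c)) := by rw [hrb]
  · have h1 : u⁻¹ * q⁻¹ = r := by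
      have h2 : u * q = q * u := hc u hu q hq
      have h3 : q * u * r = 1 := by rw [← h2]; exact hrel
      have h4 : r = (q * u)⁻¹ := eq_inv_of_mul_eq_one_right h3
      rw [h4, mul_inv_rev]
    calc u⁻¹ (j (ω c)) = u⁻¹ (j (q b)) := by rw [hqb]
      _ = u⁻¹ (q⁻¹ b) := by rw [hinvb q hq]
      _ = (u⁻¹ * q⁻¹) b := rfl
      _ = r b := by rw [h1]
      _ = ω (ω c) := hrb
  · have h1 : u⁻¹ * r⁻¹ = q := by
      have h3 : u * (q * r) = 1 := by rw [← mul_assoc]; exact hrel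
      have h4 : q * r = u⁻¹ := eq_inv_of_mul_eq_one_right h3
      rw [← h4]
      group
    calc u⁻¹ (j (ω (ω c))) = u⁻¹ (j (r b)) := by rw [hrb]
      _ = u⁻¹ (r⁻¹ b) := by rw [hinvb r hr]
      _ = (u⁻¹ * r⁻¹) b := rfl
      _ = q b := by rw [h1]
      _ = ω c := hqb

/-- Two elements of order three in a two-point stabiliser generate the same subgroup. -/
theorem core (hS : S3 G) (heven : Even (Fintype.card α)) (h6 : 6 ≤ Fintype.card α)
    (hab : a ≠ b) {x y : Equiv.Perm α} (hx : x ∈ Hs G a b) (hy : y ∈ Hs G a b)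
    (hx3 : x ^ 3 = 1) (hx1 : x ≠ 1) (hy3 : y ^ 3 = 1) (hy1 : y ≠ 1) : y = x ∨ y = x⁻¹ := by
  obtain ⟨N, hK⟩ := exists_ker hS (by omega) a
  obtain ⟨j, hj, hj2, hj1⟩ := exists_invol hS hab heven (by omega)
  have hc := comm_of_invol hS hK hab hj hj2 hj1
  have hjinv : j⁻¹ = j := inv_eq_of_mul_eq_one_left hj2
  obtain ⟨hjG, hja, hjb⟩ := mem_Hs.1 hj
  have hinv : ∀ n ∈ N, j * n * j⁻¹ = n⁻¹ := fun n hn => invol_inverts hS hK hab hj hj2 hj1 hn
  obtain ⟨c, hca, hcb⟩ := exists_ne2 (by omega) a b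
  obtain ⟨t, htG, hta, htb, htc⟩ := hS.trans a b c b a c hab (Ne.symm hca) (Ne.symm hcb)
    (Ne.symm hab) (Ne.symm hcb) (Ne.symm hca)
  have ht2 : t * t = 1 := hS.rigid (t * t) (G.mul_mem htG htG) a b c hab (Ne.symm hca)
    (Ne.symm hcb) (by rw [Equiv.Perm.mul_apply, hta, htb])
    (by rw [Equiv.Perm.mul_apply, htb, hta]) (by rw [Equiv.Perm.mul_apply, htc, htc])
  have htinv : t⁻¹ = t := inv_eq_of_mul_eq_one_left ht2
  have htt : ∀ z, t (t z) = z := fun z => congrArg (fun f : Equiv.Perm α => f z) ht2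
  have hjj : ∀ z, j (j z) = z := fun z => congrArg (fun f : Equiv.Perm α => f z) hj2
  have hconj : ∀ h, h ∈ Hs G a b → t * h * t ∈ Hs G a b := by
    intro h hh
    obtain ⟨hG, ha, hb⟩ := mem_Hs.1 hh
    refine mem_Hs.2 ⟨G.mul_mem (G.mul_mem htG hG) htG, ?_, ?_⟩
    · rw [Equiv.Perm.mul_apply, Equiv.Perm.mul_apply, hta, hb, htb]
    · rw [Equiv.Perm.mul_apply, Equiv.Perm.mul_apply, htb, ha, hta]
  have htj : t * j = j * t := by
    have h1 : t * j * t = j := by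
      apply invol_unique hS hK hab (by omega) (hconj j hj) ?_ ?_ hj hj2 hj1
      · calc t * j * t * (t * j * t) = t * j * (t * t) * j * t := by group
          _ = t * (j * j) * t := by rw [ht2]; group
          _ = 1 := by rw [hj2, mul_one, ht2]
      · intro h
        apply hj1
        calc j = (t * t) * j * (t * t) := by rw [ht2]; group
          _ = t * (t * j * t) * t := by group
          _ = 1 := by rw [h, mul_one, ht2]
    calc t * j = t * j * (t * t) := by rw [ht2, mul_one]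
      _ = (t * j * t) * t := by group
      _ = j * t := by rw [h1]
  have htjz : ∀ z, t (j z) = j (t z) := fun z => congrArg (fun f : Equiv.Perm α => f z) htj
  obtain ⟨u, hu, hub⟩ := hK.trans (Ne.symm hab) hca
  have hinvb : ∀ n ∈ N, n⁻¹ b = j (n b) := by
    intro n hn
    rw [← hinv n hn, Equiv.Perm.mul_apply, Equiv.Perm.mul_apply, hjinv, hjb]
  -- the relation (j t u)^3 = 1
  obtain ⟨w, hw⟩ : ∃ w, w = j * t * u := ⟨_, rfl⟩
  have hwG : w ∈ G := by
    rw [hw]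
    exact G.mul_mem (G.mul_mem hjG htG) (hK.le hu)
  have hwa : w a = b := by
    rw [hw, Equiv.Perm.mul_apply, Equiv.Perm.mul_apply, hK.fix hu, hta, hjb]
  have hwb : w b = j c := by
    rw [hw, Equiv.Perm.mul_apply, Equiv.Perm.mul_apply, hub, htc]
  have hujc : u (j c) = b := by
    have h1 : j c = u⁻¹ b := by rw [hinvb u hu, hub]
    rw [h1, app_inv]
  have hwc : w (j c) = a := by
    rw [hw, Equiv.Perm.mul_apply, Equiv.Perm.mul_apply, hujc, htb, hja]
  have hjca : j c ≠ a := by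
    intro e
    rw [← hja] at e
    exact hca (j.injective e)
  have hjcb : j c ≠ b := by
    intro e
    rw [← hjb] at e
    exact hcb (j.injective e)
  have hw3 : w * w * w = 1 := by
    apply hS.rigid (w * w * w) (G.mul_mem (G.mul_mem hwG hwG) hwG) a b (j c) hab (Ne.symm hjca)
      (Ne.symm hjcb)
    · rw [Equiv.Perm.mul_apply, Equiv.Perm.mul_apply, hwa, hwb, hwc]
    · rw [Equiv.Perm.mul_apply, Equiv.Perm.mul_apply, hwb, hwc, hwa]
    · rw [Equiv.Perm.mul_apply, Equiv.Perm.mul_apply, hwc, hwa, hwb]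
  have ht'2 : (j * t) * (j * t) = 1 := by
    calc (j * t) * (j * t) = j * (t * j) * t := by group
      _ = j * (j * t) * t := by rw [htj]
      _ = (j * j) * (t * t) := by group
      _ = 1 := by rw [hj2, ht2, mul_one]
  have hFE : (j * t) * u * (j * t) = u⁻¹ * (j * t) * u⁻¹ := by
    have h1 : ((j * t) * u * (j * t)) * (u * (j * t) * u) = 1 := by
      rw [← hw3, hw]
      group
    have h2 : (j * t) * u * (j * t) = (u * (j * t) * u)⁻¹ := eq_inv_of_mul_eq_one_left h1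
    rw [h2, mul_inv_rev, mul_inv_rev, inv_eq_of_mul_eq_one_left ht'2]
    group
  -- conjugation by t inverts elements of order three
  have key : ∀ ω, ω ∈ Hs G a b → ω ^ 3 = 1 → ω ≠ 1 → t * ω * t = ω * ω := by
    intro ω hω hω3 hω1
    have hω' := hconj ω hω
    have hω'3 : (t * ω * t) ^ 3 = 1 := by
      rw [pow_succ, pow_succ, pow_one]
      calc t * ω * t * (t * ω * t) * (t * ω * t)
          = t * ω * (t * t) * ω * (t * t) * ω * t := by group
        _ = t * (ω * ω * ω) * t := by rw [ht2]; group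
        _ = 1 := by rw [(pow3 hω3).1, mul_one, ht2]
    have hω'1 : t * ω * t ≠ 1 := by
      intro h
      apply hω1
      calc ω = (t * t) * ω * (t * t) := by rw [ht2]; group
        _ = t * (t * ω * t) * t := by group
        _ = 1 := by rw [h, mul_one, ht2]
    obtain ⟨-, L2, -⟩ := Lrel hS hK hab hc hjb hjinv hinv hω hω3 hω1 hu hub
    obtain ⟨L1', -, L3'⟩ := Lrel hS hK hab hc hjb hjinv hinv hω' hω'3 hω'1 hu hub
    have hFEy := congrArg (fun f : Equiv.Perm α => f (j (ω c))) hFE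
    simp only [Equiv.Perm.mul_apply] at hFEy
    have e1 : j (t (j (ω c))) = (t * ω * t) c := by
      rw [htjz, hjj]
      show t (ω c) = t (ω (t c))
      rw [htc]
    have e2 : j (t (j ((t * ω * t) ((t * ω * t) c)))) = ω (ω c) := by
      rw [htjz, hjj]
      show t (t (ω (t (t (ω (t c)))))) = ω (ω c)
      rw [htt, htt, htc]
    have e3 : t (ω (ω c)) = (t * ω * t) ((t * ω * t) c) := by
      show t (ω (ω c)) = t (ω (t (t (ω (t c)))))
      rw [htt, htc]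
    rw [e1, L1', e2, L2, e3, L3'] at hFEy
    have hωω : ω * ω ∈ Hs G a b := (Hs G a b).mul_mem hω hω
    exact eq_of_agree hS hab hω' hωω hca hcb hFEy.symm
  -- elements of order three commute
  have hyy : y * y = y⁻¹ := eq_inv_of_mul_eq_one_left (pow3 hy3).1
  have hxy : x * y = y * x := by
    have kx := key x hx hx3 hx1
    have ky := key y hy hy3 hy1
    have hz : x * y * x⁻¹ ∈ Hs G a b :=
      (Hs G a b).mul_mem ((Hs G a b).mul_mem hx hy) ((Hs G a b).inv_mem hx)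
    have hz3 : (x * y * x⁻¹) ^ 3 = 1 := by
      rw [pow_succ, pow_succ, pow_one]
      calc x * y * x⁻¹ * (x * y * x⁻¹) * (x * y * x⁻¹) = x * (y * y * y) * x⁻¹ := by group
        _ = 1 := by rw [(pow3 hy3).1]; group
    have hz1 : x * y * x⁻¹ ≠ 1 := by
      intro h
      apply hy1
      calc y = x⁻¹ * (x * y * x⁻¹) * x := by group
        _ = 1 := by rw [h]; group
    have kz := key (x * y * x⁻¹) hz hz3 hz1
    have h1 : t * (x * y * x⁻¹) * t = (t * x * t) * (t * y * t) * (t * x * t)⁻¹ := by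
      have h2 : (t * x * t)⁻¹ = t * x⁻¹ * t := by
        rw [mul_inv_rev, mul_inv_rev, htinv]
        group
      rw [h2]
      calc t * (x * y * x⁻¹) * t = t * x * 1 * y * 1 * x⁻¹ * t := by group
        _ = t * x * (t * t) * y * (t * t) * x⁻¹ * t := by rw [ht2]
        _ = t * x * t * (t * y * t) * (t * x⁻¹ * t) := by group
    rw [kx, ky, kz] at h1
    have h2 : x * (y * y) = (y * y) * x := by
      have h3 : x * (y * y) * x⁻¹ = y * y := by
        calc x * (y * y) * x⁻¹ = x⁻¹ * (x * x * (y * y) * (x * x)⁻¹) * x := by group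
          _ = x⁻¹ * (x * y * x⁻¹ * (x * y * x⁻¹)) * x := by rw [h1]
          _ = y * y := by group
      calc x * (y * y) = x * (y * y) * x⁻¹ * x := by group
        _ = y * y * x := by rw [h3]
    rw [hyy] at h2
    calc x * y = y * (y⁻¹ * x) * y := by group
      _ = y * (x * y⁻¹) * y := by rw [h2]
      _ = y * x := by group
  -- conclusion
  by_contra hcon
  push Not at hcon
  have hu1 : (⟨u, hu⟩ : N) = 1 := by
    apply comm3 (M := ↥N) (fun m n => Subtype.ext (hc m.1 m.2 n.1 n.2))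
      (cjN hK x (Hs_le_Xs hx)) (cjN hK y (Hs_le_Xs hy))
    · intro v
      apply Subtype.ext
      show x * (y * v.1 * y⁻¹) * x⁻¹ = y * (x * v.1 * x⁻¹) * y⁻¹
      calc x * (y * v.1 * y⁻¹) * x⁻¹ = (x * y) * v.1 * (x * y)⁻¹ := by group
        _ = (y * x) * v.1 * (y * x)⁻¹ := by rw [hxy]
        _ = y * (x * v.1 * x⁻¹) * y⁻¹ := by group
    · intro v
      apply Subtype.ext
      exact rel3 hS hK hab hc hx hx3 hx1 v.2
    · intro v
      apply Subtype.ext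
      exact rel3 hS hK hab hc hy hy3 hy1 v.2
    · intro v
      apply Subtype.ext
      show y * (y * (y * v.1 * y⁻¹) * y⁻¹) * y⁻¹ = v.1
      have : y * (y * (y * v.1 * y⁻¹) * y⁻¹) * y⁻¹ = (y * y * y) * v.1 * (y⁻¹ * y⁻¹ * y⁻¹) := by
        group
      rw [this, (pow3 hy3).1, (pow3 hy3).2]
      group
    · intro v hv
      have hv' : x * v.1 * x⁻¹ = y * v.1 * y⁻¹ := congrArg Subtype.val hv
      by_contra hne
      have hcomm : (y⁻¹ * x) * v.1 = v.1 * (y⁻¹ * x) := by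
        calc (y⁻¹ * x) * v.1 = y⁻¹ * (x * v.1 * x⁻¹) * x := by group
          _ = y⁻¹ * (y * v.1 * y⁻¹) * x := by rw [hv']
          _ = v.1 * (y⁻¹ * x) := by group
      have h5 := fpf hS hK hab ((Hs G a b).mul_mem ((Hs G a b).inv_mem hy) hx) v.2 hcomm
        (fun h => hne (Subtype.ext h))
      exact hcon.1 (inv_mul_eq_one.1 h5)
    · intro v hv
      have hv' : x * v.1 * x⁻¹ = y * (y * v.1 * y⁻¹) * y⁻¹ := congrArg Subtype.val hv
      by_contra hne
      have hcomm : ((y * y)⁻¹ * x) * v.1 = v.1 * ((y * y)⁻¹ * x) := by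
        calc ((y * y)⁻¹ * x) * v.1 = (y * y)⁻¹ * (x * v.1 * x⁻¹) * x := by group
          _ = (y * y)⁻¹ * (y * (y * v.1 * y⁻¹) * y⁻¹) * x := by rw [hv']
          _ = v.1 * ((y * y)⁻¹ * x) := by group
      have h5 := fpf hS hK hab ((Hs G a b).mul_mem ((Hs G a b).inv_mem
        ((Hs G a b).mul_mem hy hy)) hx) v.2 hcomm (fun h => hne (Subtype.ext h))
      have h6 : y * y = x := inv_mul_eq_one.1 h5
      rw [hyy] at h6
      apply hcon.2
      rw [← h6, inv_inv]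
  have hu1' : u = 1 := congrArg Subtype.val hu1
  rw [hu1'] at hub
  exact hcb hub.symm

end odd

theorem result {α : Type*} [Fintype α] [DecidableEq α] (heven : Even (Fintype.card α)) (h6 : 6 ≤ Fintype.card α) (G : Subgroup (Equiv.Perm α)) (h3 : MulAction.IsMultiplyPretransitive G α 3) (hsharp : ∀ x : Fin 3 ↪ α, MulAction.stabilizer G x = ⊥) {a b : α} (hab : a ≠ b) (A B : Subgroup G) (hA : A ≤ MulAction.stabilizer G a ⊓ MulAction.stabilizer G b) (hB : B ≤ MulAction.stabilizer G a ⊓ MulAction.stabilizer G b) (hA3 : Nat.card A = 3) (hB3 : Nat.card B = 3) : A = B := by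
  classical
  have hS := s3_of G h3 hsharp
  have hcoreA : ∃ x : G, x ∈ A ∧ x ≠ 1 := by
    by_contra hcon
    push Not at hcon
    have h1 : A = ⊥ := (Subgroup.eq_bot_iff_forall A).2 (fun x hx => hcon x hx)
    rw [h1, Subgroup.card_bot] at hA3
    omega
  obtain ⟨x, hxA, hx1⟩ := hcoreA
  have hmemHs : ∀ (C : Subgroup G), C ≤ MulAction.stabilizer G a ⊓ MulAction.stabilizer G b →
      ∀ z ∈ C, (z : Equiv.Perm α) ∈ Hs G a b := by
    intro C hC z hz
    have h1 := hC hz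
    rw [Subgroup.mem_inf, MulAction.mem_stabilizer_iff, MulAction.mem_stabilizer_iff] at h1
    exact mem_Hs.2 ⟨z.2, h1.1, h1.2⟩
  have hpow : ∀ (C : Subgroup G), Nat.card C = 3 → ∀ z ∈ C, (z : Equiv.Perm α) ^ 3 = 1 := by
    intro C hC z hz
    have h1 : (⟨z, hz⟩ : C) ^ 3 = 1 := by
      rw [← hC]
      exact pow_card_eq_one'
    have h2 : z ^ 3 = 1 := congrArg Subtype.val h1
    have h3 : ((z ^ 3 : G) : Equiv.Perm α) = 1 := by rw [h2]; rfl
    exact h3
  have hBA : B ≤ A := by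
    intro z hz
    by_cases hz1 : z = 1
    · rw [hz1]
      exact A.one_mem
    · have h1 := core hS heven h6 hab (hmemHs A hA x hxA) (hmemHs B hB z hz) (hpow A hA3 x hxA)
        (fun h => hx1 (Subtype.ext h)) (hpow B hB3 z hz) (fun h => hz1 (Subtype.ext h))
      rcases h1 with h | h
      · have h2 : z = x := Subtype.ext h
        rw [h2]
        exact hxA
      · have h2 : z = x⁻¹ := Subtype.ext h
        rw [h2]
        exact A.inv_mem hxA
  exact (Subgroup.eq_of_le_of_card_ge hBA (by rw [hA3, hB3])).symm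

end Cfsg.Agent.S0728
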