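import Mathlib
import Cfsg.Statements.S0727
import Cfsg.Agent.S0728
import Cfsg.Agent.Lib.Helper4.Sharp2

set_option autoImplicit false
set_option linter.unusedSectionVars false
open Cfsg

namespace Cfsg.Agent.S0727

open Cfsg.Agent.S0728

section mobius

open OnePoint

variable {K : Type*} [Field K] [DecidableEq K]

theorem range_equiv {G G' : Type*} [Group G] [Group G'] (ψ : G →* G') (N : Subgroup G) [N.Normal]
    (h : ψ.ker = N) : Nonempty (ψ.range ≃* G ⧸ N) :=
  ⟨((QuotientGroup.quotientMulEquivOfEq h).symm.trans (QuotientGroup.quotientKerEquivRange ψ)).symm⟩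

theorem card_PGL2 [Fintype K] : Nat.card (Matrix.ProjGenLinGroup (Fin 2) K)
    = Fintype.card K * ((Fintype.card K - 1) * (Fintype.card K + 1)) := by
  classical
  have hinj : Function.Injective
      (Matrix.GeneralLinearGroup.scalar (Fin 2) : Kˣ →* GL (Fin 2) K) := by
    intro a b hab
    have := congrArg (fun x : GL (Fin 2) K => (x : Matrix (Fin 2) (Fin 2) K) 0 0) hab
    simp only [Matrix.GeneralLinearGroup.coe_scalar] at this
    ext
    simpa using this
  have hc : Nat.card (Subgroup.center (GL (Fin 2) K)) = Fintype.card K - 1 := by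
    rw [Matrix.GeneralLinearGroup.center_eq_range_scalar]
    rw [Nat.card_congr (MonoidHom.ofInjective hinj).toEquiv.symm, Nat.card_eq_fintype_card,
      Fintype.card_units]
  have h1 := Subgroup.card_eq_card_quotient_mul_card_subgroup (Subgroup.center (GL (Fin 2) K))
  rw [hc, Matrix.card_GL_field, Fin.prod_univ_two] at h1
  have hk : 1 < Fintype.card K := Fintype.one_lt_card
  obtain ⟨y, hy⟩ : ∃ y, Fintype.card K = y + 2 := ⟨Fintype.card K - 2, by omega⟩
  show Nat.card (GL (Fin 2) K ⧸ Subgroup.center (GL (Fin 2) K)) = _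
  rw [hy] at h1 ⊢
  simp only [Fin.val_zero, Fin.val_one, pow_zero, pow_one] at h1
  have e1 : (y + 2) ^ 2 - 1 = (y + 1) * (y + 3) := by
    have : (y + 2) ^ 2 = (y + 1) * (y + 3) + 1 := by ring
    rw [this, Nat.add_sub_cancel]
  have e2 : (y + 2) ^ 2 - (y + 2) = (y + 1) * (y + 2) := by
    have : (y + 2) ^ 2 = (y + 1) * (y + 2) + (y + 2) := by ring
    rw [this, Nat.add_sub_cancel]
  have e3 : y + 2 - 1 = y + 1 := by omega
  rw [e1, e2, e3] at h1
  rw [e3]
  have h2 : (y + 1) * ((y + 2) * ((y + 1) * (y + 2 + 1)))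
      = (y + 1) * Nat.card (GL (Fin 2) K ⧸ Subgroup.center (GL (Fin 2) K)) := by
    rw [mul_comm (y + 1) (Nat.card _), ← h1]
    ring
  exact (Nat.eq_of_mul_eq_mul_left (by omega) h2).symm

/-- The translation matrix. -/
noncomputable def Tm (r : K) : GL (Fin 2) K :=
  Matrix.GeneralLinearGroup.mkOfDetNeZero !![1, r; 0, 1] (by simp [Matrix.det_fin_two])

/-- The scaling matrix. -/
noncomputable def Dm (s : K) (hs : s ≠ 0) : GL (Fin 2) K :=
  Matrix.GeneralLinearGroup.mkOfDetNeZero !![s, 0; 0, 1] (by simp [Matrix.det_fin_two, hs])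

/-- The inversion matrix. -/
noncomputable def Wm : GL (Fin 2) K :=
  Matrix.GeneralLinearGroup.mkOfDetNeZero !![0, 1; 1, 0] (by simp [Matrix.det_fin_two])

theorem Tm_coe (r : K) : ((Tm r : GL (Fin 2) K) : Matrix (Fin 2) (Fin 2) K) = !![1, r; 0, 1] :=
  rfl

theorem Dm_coe (s : K) (hs : s ≠ 0) :
    ((Dm s hs : GL (Fin 2) K) : Matrix (Fin 2) (Fin 2) K) = !![s, 0; 0, 1] := rfl

theorem Wm_coe : ((Wm : GL (Fin 2) K) : Matrix (Fin 2) (Fin 2) K) = !![0, 1; 1, 0] := rfl

theorem Tm_smul_coe (r k : K) : Tm r • (k : OnePoint K) = ((k + r : K) : OnePoint K) := by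
  rw [OnePoint.smul_some_eq_ite]
  simp [Tm_coe]

theorem Tm_smul_infty (r : K) : Tm r • (∞ : OnePoint K) = ∞ := by
  rw [OnePoint.smul_infty_eq_ite]
  simp [Tm_coe]

theorem Dm_smul_coe (s : K) (hs : s ≠ 0) (k : K) :
    Dm s hs • (k : OnePoint K) = ((s * k : K) : OnePoint K) := by
  rw [OnePoint.smul_some_eq_ite]
  simp [Dm_coe]

theorem Dm_smul_infty (s : K) (hs : s ≠ 0) : Dm s hs • (∞ : OnePoint K) = ∞ := by
  rw [OnePoint.smul_infty_eq_ite]
  simp [Dm_coe]

theorem Wm_smul_coe (k : K) (hk : k ≠ 0) :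
    (Wm : GL (Fin 2) K) • (k : OnePoint K) = ((k⁻¹ : K) : OnePoint K) := by
  rw [OnePoint.smul_some_eq_ite]
  simp [Wm_coe, hk]

theorem Wm_smul_zero : (Wm : GL (Fin 2) K) • ((0 : K) : OnePoint K) = ∞ := by
  rw [OnePoint.smul_some_eq_ite]
  simp [Wm_coe]

theorem Wm_smul_infty : (Wm : GL (Fin 2) K) • (∞ : OnePoint K) = ((0 : K) : OnePoint K) := by
  rw [OnePoint.smul_infty_eq_ite]
  simp [Wm_coe]

theorem ker_rho : (MulAction.toPermHom (GL (Fin 2) K) (OnePoint K)).ker
    = Subgroup.center (GL (Fin 2) K) := by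
  ext g
  rw [MonoidHom.mem_ker, Matrix.GeneralLinearGroup.center_eq_range_scalar]
  constructor
  · intro h
    have hx : ∀ x : OnePoint K, g • x = x := fun x => by
      have := congrArg (fun p : Equiv.Perm (OnePoint K) => p x) h
      exact this
    have h10 : g 1 0 = 0 := OnePoint.smul_infty_eq_self_iff.1 (hx ∞)
    have h0 := hx ((0 : K) : OnePoint K)
    rw [OnePoint.smul_some_eq_ite] at h0
    simp only [mul_zero, zero_add] at h0
    have h11 : g 1 1 ≠ 0 := by
      intro e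
      rw [if_pos e] at h0
      exact OnePoint.infty_ne_coe _ h0
    rw [if_neg h11] at h0
    have h01 : g 0 1 = 0 := by
      have h2 := OnePoint.coe_injective h0
      rcases div_eq_zero_iff.1 h2 with h3 | h3
      · exact h3
      · exact absurd h3 h11
    have h1 := hx ((1 : K) : OnePoint K)
    rw [OnePoint.smul_some_eq_ite] at h1
    simp only [mul_one, h10, h01, zero_add, add_zero] at h1
    rw [if_neg h11] at h1
    have h00 : g 0 0 = g 1 1 := by
      have h2 := OnePoint.coe_injective h1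
      field_simp at h2
      exact h2
    refine ⟨Units.mk0 (g 1 1) h11, ?_⟩
    apply Units.ext
    ext i j
    fin_cases i <;> fin_cases j <;> simp [h10, h01, h00]
  · rintro ⟨u, rfl⟩
    ext x
    show (Matrix.GeneralLinearGroup.scalar (Fin 2) u) • x = x
    cases x with
    | infty =>
      rw [OnePoint.smul_infty_eq_ite]
      simp
    | coe k =>
      rw [OnePoint.smul_some_eq_ite]
      simp [u.ne_zero]

theorem perm_inv_fix {X : Type*} {p : Equiv.Perm X} {x : X} (h : p x = x) : p⁻¹ x = x := by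
  rw [Equiv.Perm.inv_eq_iff_eq, h]

theorem perm_inv_of {X : Type*} {p : Equiv.Perm X} {x y : X} (h : p x = y) : p⁻¹ y = x := by
  rw [Equiv.Perm.inv_eq_iff_eq, h]

/-- A group of permutations of the projective line which is rigid on `∞, 0, 1`, contains the
translations, the scalings and the inversion, and is at least as large as `PGL₂`, is `PGL₂`. -/
theorem mobius [Fintype K] (G' : Subgroup (Equiv.Perm (OnePoint K)))
    (hrigid : ∀ g ∈ G', g ∞ = ∞ → g ((0 : K) : OnePoint K) = ((0 : K) : OnePoint K) →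
      g ((1 : K) : OnePoint K) = ((1 : K) : OnePoint K) → g = 1)
    (hT : ∀ r : K, MulAction.toPerm (Tm r) ∈ G')
    (hD : ∀ (s : K) (hs : s ≠ 0), MulAction.toPerm (Dm s hs) ∈ G')
    (hW : MulAction.toPerm (Wm : GL (Fin 2) K) ∈ G')
    (hcard : Fintype.card K * ((Fintype.card K - 1) * (Fintype.card K + 1)) ≤ Nat.card G') :
    Nonempty (G' ≃* Matrix.ProjGenLinGroup (Fin 2) K) := by
  classical
  obtain ⟨ρ, hρ⟩ : ∃ ρ : GL (Fin 2) K →* Equiv.Perm (OnePoint K),
      ρ = MulAction.toPermHom (GL (Fin 2) K) (OnePoint K) := ⟨_, rfl⟩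
  have hρa : ∀ (g : GL (Fin 2) K), ρ g = MulAction.toPerm g := by
    intro g
    rw [hρ]
    rfl
  have hap : ∀ (g : GL (Fin 2) K) (x : OnePoint K), MulAction.toPerm g x = g • x :=
    fun g x => rfl
  have h1 : ∀ g ∈ G', g ∞ = ∞ → g ∈ ρ.range := by
    intro g hg hinf
    have h0ne : g ((0 : K) : OnePoint K) ≠ ∞ := by
      intro e
      rw [← hinf] at e
      exact OnePoint.coe_ne_infty _ (g.injective e)
    obtain ⟨r, hr⟩ := OnePoint.ne_infty_iff_exists.1 h0ne
    have hg1 : (MulAction.toPerm (Tm r))⁻¹ * g ∈ G' := G'.mul_mem (G'.inv_mem (hT r)) hg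
    have hg1inf : ((MulAction.toPerm (Tm r))⁻¹ * g : Equiv.Perm (OnePoint K)) ∞ = ∞ := by
      rw [Equiv.Perm.mul_apply, hinf]
      exact perm_inv_fix (by rw [hap, Tm_smul_infty])
    have hg10 : ((MulAction.toPerm (Tm r))⁻¹ * g : Equiv.Perm (OnePoint K)) ((0 : K) : OnePoint K)
        = ((0 : K) : OnePoint K) := by
      rw [Equiv.Perm.mul_apply, ← hr]
      exact perm_inv_of (by rw [hap, Tm_smul_coe, zero_add])
    have h1ne : ((MulAction.toPerm (Tm r))⁻¹ * g : Equiv.Perm (OnePoint K)) ((1 : K) : OnePoint K) ≠ ∞ := by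
      intro e
      rw [← hg1inf] at e
      exact OnePoint.coe_ne_infty _ (Equiv.injective _ e)
    obtain ⟨s, hs⟩ := OnePoint.ne_infty_iff_exists.1 h1ne
    have hs0 : s ≠ 0 := by
      rintro rfl
      rw [← hg10] at hs
      have h2 := Equiv.injective _ hs
      exact zero_ne_one (OnePoint.coe_injective h2)
    have hg2 := hrigid ((MulAction.toPerm (Dm s hs0))⁻¹ * ((MulAction.toPerm (Tm r))⁻¹ * g))
      (G'.mul_mem (G'.inv_mem (hD s hs0)) hg1) ?_ ?_ ?_
    · have hg' : g = ρ (Tm r * Dm s hs0) := by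
        rw [map_mul, hρa, hρa]
        calc g = MulAction.toPerm (Tm r) * (MulAction.toPerm (Dm s hs0) *
              ((MulAction.toPerm (Dm s hs0))⁻¹ * ((MulAction.toPerm (Tm r))⁻¹ * g))) := by group
          _ = _ := by rw [hg2, mul_one]
      rw [hg']
      exact ⟨_, rfl⟩
    · rw [Equiv.Perm.mul_apply, hg1inf]
      exact perm_inv_fix (by rw [hap, Dm_smul_infty])
    · rw [Equiv.Perm.mul_apply, hg10]
      exact perm_inv_fix (by rw [hap, Dm_smul_coe, mul_zero])
    · rw [Equiv.Perm.mul_apply, ← hs]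
      exact perm_inv_of (by rw [hap, Dm_smul_coe, mul_one])
  have hle : G' ≤ ρ.range := by
    intro g hg
    by_cases hinf : g ∞ = ∞
    · exact h1 g hg hinf
    · obtain ⟨r, hr⟩ := OnePoint.ne_infty_iff_exists.1 hinf
      have hg' : MulAction.toPerm (Wm : GL (Fin 2) K) * (MulAction.toPerm (Tm r))⁻¹ * g ∈ G' :=
        G'.mul_mem (G'.mul_mem hW (G'.inv_mem (hT r))) hg
      have hg'inf : (MulAction.toPerm (Wm : GL (Fin 2) K) * (MulAction.toPerm (Tm r))⁻¹ * g :
          Equiv.Perm (OnePoint K)) ∞ = ∞ := by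
        rw [Equiv.Perm.mul_apply, Equiv.Perm.mul_apply, ← hr]
        have h2 : (MulAction.toPerm (Tm r))⁻¹ (r : OnePoint K) = ((0 : K) : OnePoint K) :=
          perm_inv_of (by rw [hap, Tm_smul_coe, zero_add])
        rw [h2, hap, Wm_smul_zero]
      have h2 := h1 _ hg' hg'inf
      have hWr : MulAction.toPerm (Wm : GL (Fin 2) K) ∈ ρ.range := ⟨Wm, hρa _⟩
      have hTr : MulAction.toPerm (Tm r) ∈ ρ.range := ⟨Tm r, hρa _⟩
      have h3 : g = MulAction.toPerm (Tm r) * (MulAction.toPerm (Wm : GL (Fin 2) K))⁻¹ *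
          (MulAction.toPerm (Wm : GL (Fin 2) K) * (MulAction.toPerm (Tm r))⁻¹ * g) := by group
      rw [h3]
      exact ρ.range.mul_mem (ρ.range.mul_mem hTr (ρ.range.inv_mem hWr)) h2
  have hker : ρ.ker = Subgroup.center (GL (Fin 2) K) := by
    rw [hρ]
    exact ker_rho
  obtain ⟨e⟩ := range_equiv ρ (Subgroup.center (GL (Fin 2) K)) hker
  have hcr : Nat.card ρ.range
      = Fintype.card K * ((Fintype.card K - 1) * (Fintype.card K + 1)) := by
    rw [Nat.card_congr e.toEquiv]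
    exact card_PGL2
  have heq : G' = ρ.range := Subgroup.eq_of_le_of_card_ge hle (by rw [hcr]; exact hcard)
  exact ⟨(MulEquiv.subgroupCongr heq).trans e⟩

end mobius

section even

variable {α : Type*} [Fintype α] [DecidableEq α] {G : Subgroup (Equiv.Perm α)} {a b c : α}
  {N : Subgroup (Equiv.Perm α)}

theorem three_pts (h3 : Fintype.card α = 3) {x y z : α} (hxy : x ≠ y) (hxz : x ≠ z)
    (hyz : y ≠ z) (w : α) : w = x ∨ w = y ∨ w = z := by
  have hc : ({x, y, z} : Finset α).card = 3 := by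
    rw [Finset.card_insert_of_notMem, Finset.card_insert_of_notMem, Finset.card_singleton]
    · simpa using hyz
    · simp [hxy, hxz]
  have hu : ({x, y, z} : Finset α) = Finset.univ := Finset.eq_univ_of_card _ (by rw [hc, h3])
  have hw : w ∈ ({x, y, z} : Finset α) := by rw [hu]; exact Finset.mem_univ _
  simpa using hw

/-- The kernel in degree three. -/
theorem exists_ker3 (hS : S3 G) (h3 : Fintype.card α = 3) (a : α) :
    ∃ N : Subgroup (Equiv.Perm α), Ker G a N := by
  have hfix : ∀ x ∈ Xs G a, ∀ z, z ≠ a → x z = z → x = 1 := by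
    intro x hx z hz hxz
    obtain ⟨hxG, hxa⟩ := mem_Xs.1 hx
    obtain ⟨w, hwa, hwz⟩ := exists_ne2 (by omega) a z
    have hxw : x w = w := by
      rcases three_pts h3 (Ne.symm hz) (Ne.symm hwa) (Ne.symm hwz) (x w) with h | h | h
      · exact absurd (x.injective (h.trans hxa.symm)) hwa
      · exact absurd (x.injective (h.trans hxz.symm)) hwz
      · exact h
    exact hS.rigid x hxG a z w (Ne.symm hz) (Ne.symm hwa) (Ne.symm hwz) hxa hxz hxw
  obtain ⟨c, hca⟩ := exists_ne1 (by omega) a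
  obtain ⟨d, hda, hdc⟩ := exists_ne2 (by omega) a c
  refine ⟨Xs G a, ?_, ?_⟩
  · intro x
    rw [mem_Xs]
    constructor
    · rintro ⟨hxG, hxa⟩
      refine ⟨hxG, hxa, ?_⟩
      by_cases hx1 : x = 1
      · exact Or.inl hx1
      · right
        intro z hz hxz
        exact hx1 (hfix x (mem_Xs.2 ⟨hxG, hxa⟩) z hz hxz)
    · rintro ⟨hxG, hxa, -⟩
      exact ⟨hxG, hxa⟩
  · have hmem : ∀ g : Xs G a, g.1 c ∈ ({x | x ≠ a} : Set α) := by
      intro g
      obtain ⟨hG, ha⟩ := mem_Xs.1 g.2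
      intro e
      exact hca (g.1.injective (e.trans ha.symm))
    have hf : Function.Bijective
        (fun g : Xs G a => (⟨g.1 c, hmem g⟩ : ({x | x ≠ a} : Set α))) := by
      constructor
      · intro g g' e
        have e' : g.1 c = g'.1 c := congrArg Subtype.val e
        have h1 : (g'.1⁻¹ * g.1) c = c := by rw [Equiv.Perm.mul_apply, e', inv_app]
        have h2 := hfix _ ((Xs G a).mul_mem ((Xs G a).inv_mem g'.2) g.2) c hca h1
        exact Subtype.ext (inv_mul_eq_one.1 h2).symm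
      · rintro ⟨y, hy⟩
        have hya : y ≠ a := hy
        obtain ⟨y', hy'a, hy'y⟩ := exists_ne2 (by omega) a y
        obtain ⟨g, hg, h1, h2, -⟩ := hS.trans a c d a y y' (Ne.symm hca) (Ne.symm hda)
          (Ne.symm hdc) (Ne.symm hya) (Ne.symm hy'a) (Ne.symm hy'y)
        exact ⟨⟨g, mem_Xs.2 ⟨hg, h1⟩⟩, Subtype.ext h2⟩
    rw [Nat.card_congr (Equiv.ofBijective _ hf), Nat.card_coe_set_eq, ncard_ne]

/-- The kernel has exponent two when its order is even. -/
theorem exp2 (hS : S3 G) (hK : Ker G a N) (hab : a ≠ b) (heven : Even (Nat.card N)) :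
    ∀ n ∈ N, n * n = 1 := by
  have : Fact (Nat.Prime 2) := ⟨Nat.prime_two⟩
  obtain ⟨i, hi⟩ := exists_prime_orderOf_dvd_card' 2 (even_iff_two_dvd.1 heven)
  have hi2 : i.1 * i.1 = 1 := by
    have h3 := pow_orderOf_eq_one i
    rw [hi, pow_two] at h3
    exact congrArg Subtype.val h3
  have hi1 : i.1 ≠ 1 := by
    intro h
    have h3 : i = 1 := Subtype.ext h
    rw [h3, orderOf_one] at hi
    omega
  intro n hn
  by_cases hn1 : n = 1
  · rw [hn1, mul_one]
  · have hib_a : i.1 b ≠ a := hK.ne i.2 (Ne.symm hab)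
    have hib_b : i.1 b ≠ b := fun e => hi1 (hK.semireg i.2 (Ne.symm hab) e)
    have hnb_a : n b ≠ a := hK.ne hn (Ne.symm hab)
    have hnb_b : n b ≠ b := fun e => hn1 (hK.semireg hn (Ne.symm hab) e)
    obtain ⟨h, hG, ha, hb, hc⟩ := hS.trans a b (i.1 b) a b (n b) hab (Ne.symm hib_a)
      (Ne.symm hib_b) hab (Ne.symm hnb_a) (Ne.symm hnb_b)
    have hq : h * i.1 * h⁻¹ ∈ N := hK.conj (mem_Xs.2 ⟨hG, ha⟩) i.2
    have e : h * i.1 * h⁻¹ = n := by
      apply hK.eq_of_apply hq hn (Ne.symm hab)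
      rw [Equiv.Perm.mul_apply, Equiv.Perm.mul_apply, inv_fix hb, hc]
    rw [← e]
    calc h * i.1 * h⁻¹ * (h * i.1 * h⁻¹) = h * (i.1 * i.1) * h⁻¹ := by group
      _ = 1 := by rw [hi2]; group

omit [Fintype α] [DecidableEq α] in
theorem commN_of_exp2 (hexp : ∀ n ∈ N, n * n = 1) : ∀ m ∈ N, ∀ n ∈ N, m * n = n * m := by
  intro m hm n hn
  calc m * n = (m * n)⁻¹ := (inv_eq_of_mul_eq_one_left (hexp _ (N.mul_mem hm hn))).symm
    _ = n⁻¹ * m⁻¹ := mul_inv_rev _ _
    _ = n * m := by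
      rw [inv_eq_of_mul_eq_one_left (hexp n hn), inv_eq_of_mul_eq_one_left (hexp m hm)]

/-- The two-point stabiliser has no involutions when the kernel has exponent two. -/
theorem no_invol (hS : S3 G) (hK : Ker G a N) (hab : a ≠ b) (hexp : ∀ n ∈ N, n * n = 1)
    (hN1 : ∃ i ∈ N, i ≠ 1) {h : Equiv.Perm α} (hh : h ∈ Hs G a b) (h2 : h * h = 1) : h = 1 := by
  by_contra hne
  obtain ⟨i, hi, hi1⟩ := hN1
  have hc := commN_of_exp2 hexp
  have hhinv : h⁻¹ = h := inv_eq_of_mul_eq_one_left h2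
  have hq : h * i * h⁻¹ ∈ N := hK.conj (Hs_le_Xs hh) hi
  have hm : i * (h * i * h⁻¹) ∈ N := N.mul_mem hi hq
  have hcomm : h * (i * (h * i * h⁻¹)) = (i * (h * i * h⁻¹)) * h := by
    calc h * (i * (h * i * h⁻¹)) = (h * i * h⁻¹) * ((h * h) * i * (h⁻¹ * h⁻¹)) * h := by group
      _ = (h * i * h⁻¹) * i * h := by rw [h2, hhinv, h2]; group
      _ = (i * (h * i * h⁻¹)) * h := by rw [hc _ hq _ hi]
  have hm1 : i * (h * i * h⁻¹) = 1 := by
    by_contra hm1
    exact hne (fpf hS hK hab hh hm hcomm hm1)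
  have h3 : h * i * h⁻¹ = i := by
    have h4 : h * i * h⁻¹ = i⁻¹ := eq_inv_of_mul_eq_one_right hm1
    rw [h4, inv_eq_of_mul_eq_one_left (hexp i hi)]
  have hcomm2 : h * i = i * h := by
    calc h * i = (h * i * h⁻¹) * h := by group
      _ = i * h := by rw [h3]
  exact hne (fpf hS hK hab hh hi hcomm2 hi1)

/-- Only the identity of the two-point stabiliser commutes with the involution `t`. -/
theorem cent_t (hS : S3 G) (hK : Ker G a N) (hab : a ≠ b) (hca : c ≠ a) (hcb : c ≠ b)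
    (hexp : ∀ n ∈ N, n * n = 1) (hN1 : ∃ i ∈ N, i ≠ 1) {t : Equiv.Perm α} (htG : t ∈ G)
    (hta : t a = b) (htc : t c = c) {h : Equiv.Perm α} (hh : h ∈ Hs G a b)
    (hcomm : t * h = h * t) : h = 1 := by
  by_contra hne
  obtain ⟨hG, ha, hb⟩ := mem_Hs.1 hh
  have hcz : ∀ z, t (h z) = h (t z) := fun z => congrArg (fun f : Equiv.Perm α => f z) hcomm
  have ht1 : t ≠ 1 := by
    rintro rfl
    exact hab hta
  have hd_c : h c ≠ c :=
    fun e => hne (hS.rigid h hG a b c hab (Ne.symm hca) (Ne.symm hcb) ha hb e)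
  have htd : t (h c) = h c := by rw [hcz, htc]
  have hte : t (h (h c)) = h (h c) := by rw [hcz, htd]
  have he : h (h c) = c := by
    by_contra hec
    have hed : h (h c) ≠ h c := fun e => hd_c (h.injective e)
    exact ht1 (hS.rigid t htG c (h c) (h (h c)) (Ne.symm hd_c) (Ne.symm hec) (Ne.symm hed)
      htc htd hte)
  have h2 : h * h = 1 := hS.rigid (h * h) (G.mul_mem hG hG) a b c hab (Ne.symm hca)
    (Ne.symm hcb) (by rw [Equiv.Perm.mul_apply, ha, ha]) (by rw [Equiv.Perm.mul_apply, hb, hb])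
    (by rw [Equiv.Perm.mul_apply, he])
  exact hne (no_invol hS hK hab hexp hN1 hh h2)

/-- Conjugation by `t` on the two-point stabiliser. -/
def cjT (t : Equiv.Perm α) (ht2 : t * t = 1) (hconj : ∀ h ∈ Hs G a b, t * h * t ∈ Hs G a b) :
    ↥(Hs G a b) →* ↥(Hs G a b) where
  toFun h := ⟨t * h.1 * t, hconj h.1 h.2⟩
  map_one' := by
    apply Subtype.ext
    show t * 1 * t = 1
    rw [mul_one, ht2]
  map_mul' g h := by
    apply Subtype.ext
    show t * (g.1 * h.1) * t = (t * g.1 * t) * (t * h.1 * t)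
    calc t * (g.1 * h.1) * t = t * g.1 * 1 * h.1 * t := by group
      _ = t * g.1 * (t * t) * h.1 * t := by rw [ht2]
      _ = (t * g.1 * t) * (t * h.1 * t) := by group

theorem t_inverts (hS : S3 G) (hK : Ker G a N) (hab : a ≠ b) (hca : c ≠ a) (hcb : c ≠ b)
    (hexp : ∀ n ∈ N, n * n = 1) (hN1 : ∃ i ∈ N, i ≠ 1) {t : Equiv.Perm α} (htG : t ∈ G)
    (hta : t a = b) (htc : t c = c) (ht2 : t * t = 1)
    (hconj : ∀ h ∈ Hs G a b, t * h * t ∈ Hs G a b) :
    ∀ h ∈ Hs G a b, t * h * t = h⁻¹ := by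
  intro h hh
  have key := fpf_invol (cjT t ht2 hconj) ?_ ?_ ⟨h, hh⟩
  · exact congrArg Subtype.val key
  · intro m
    apply Subtype.ext
    show t * (t * m.1 * t) * t = m.1
    calc t * (t * m.1 * t) * t = (t * t) * m.1 * (t * t) := by group
      _ = m.1 := by rw [ht2]; group
  · intro m hm
    have hm' : t * m.1 * t = m.1 := congrArg Subtype.val hm
    have hcomm : t * m.1 = m.1 * t := by
      calc t * m.1 = (t * m.1) * (t * t) := by rw [ht2, mul_one]
        _ = (t * m.1 * t) * t := by group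
        _ = m.1 * t := by rw [hm']
    exact Subtype.ext (cent_t hS hK hab hca hcb hexp hN1 htG hta htc m.2 hcomm)

end even

section field

variable {α : Type*} [Fintype α] [DecidableEq α]

/-- The data of a sharply triply transitive group whose two-point stabiliser is abelian and
inverted by the involution `t`. -/
structure Dat (G : Subgroup (Equiv.Perm α)) (a b c : α) (N : Subgroup (Equiv.Perm α))
    (u t : Equiv.Perm α) : Prop where
  hS : S3 G
  hab : a ≠ b
  hca : c ≠ a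
  hcb : c ≠ b
  hK : Ker G a N
  hu : u ∈ N
  hub : u b = c
  commN : ∀ m ∈ N, ∀ n ∈ N, m * n = n * m
  commH : ∀ g ∈ Hs G a b, ∀ h ∈ Hs G a b, g * h = h * g
  htG : t ∈ G
  hta : t a = b
  htb : t b = a
  htc : t c = c
  hinvt : ∀ h ∈ Hs G a b, t * h * t = h⁻¹

variable {G : Subgroup (Equiv.Perm α)} {a b c : α} {N : Subgroup (Equiv.Perm α)}
  {u t : Equiv.Perm α}

/-- The kernel written additively. -/
def VV (_D : Dat G a b c N u t) : Type _ := Additive ↥N

noncomputable instance instACG (D : Dat G a b c N u t) : AddCommGroup (VV D) :=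
  letI : CommGroup ↥N :=
    { (inferInstance : Group ↥N) with
      mul_comm := fun m n => Subtype.ext (D.commN m.1 m.2 n.1 n.2) }
  inferInstanceAs (AddCommGroup (Additive ↥N))

instance instFinVV (D : Dat G a b c N u t) : Finite (VV D) :=
  inferInstanceAs (Finite (Additive ↥N))

/-- From the kernel to its additive version. -/
def ofN (D : Dat G a b c N u t) (n : ↥N) : VV D := Additive.ofMul n

/-- From the additive version back to the kernel. -/
def toN (D : Dat G a b c N u t) (v : VV D) : ↥N := Additive.toMul v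

theorem toN_ofN (D : Dat G a b c N u t) (n : ↥N) : toN D (ofN D n) = n := rfl

theorem ofN_toN (D : Dat G a b c N u t) (v : VV D) : ofN D (toN D v) = v := rfl

theorem ofN_mul (D : Dat G a b c N u t) (m n : ↥N) : ofN D (m * n) = ofN D m + ofN D n := rfl

theorem toN_add (D : Dat G a b c N u t) (v w : VV D) : toN D (v + w) = toN D v * toN D w := rfl

theorem toN_zero (D : Dat G a b c N u t) : toN D 0 = 1 := rfl

theorem ofN_one (D : Dat G a b c N u t) : ofN D 1 = 0 := rfl

/-- The action of the two-point stabiliser on the additive kernel. -/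
noncomputable def phi (D : Dat G a b c N u t) (h : ↥(Hs G a b)) : AddMonoid.End (VV D) :=
  AddMonoidHom.mk' (fun v => ofN D (cjN D.hK h.1 (Hs_le_Xs h.2) (toN D v))) (by
    intro v w
    rw [toN_add, map_mul, ofN_mul])

theorem phi_apply (D : Dat G a b c N u t) (h : ↥(Hs G a b)) (v : VV D) :
    phi D h v = ofN D (cjN D.hK h.1 (Hs_le_Xs h.2) (toN D v)) := rfl

theorem end_mul_apply (D : Dat G a b c N u t) (f g : AddMonoid.End (VV D)) (v : VV D) :
    (f * g) v = f (g v) := rfl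

theorem end_add_apply (D : Dat G a b c N u t) (f g : AddMonoid.End (VV D)) (v : VV D) :
    (f + g) v = f v + g v := rfl

theorem end_zero_apply (D : Dat G a b c N u t) (v : VV D) :
    (0 : AddMonoid.End (VV D)) v = 0 := rfl

theorem end_one_apply (D : Dat G a b c N u t) (v : VV D) :
    (1 : AddMonoid.End (VV D)) v = v := rfl

theorem phi_mul (D : Dat G a b c N u t) (g h : ↥(Hs G a b)) :
    phi D (g * h) = phi D g * phi D h := by
  apply AddMonoid.End.ext
  intro v
  rw [end_mul_apply, phi_apply, phi_apply, phi_apply, toN_ofN]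
  congr 1

theorem phi_one (D : Dat G a b c N u t) : phi D 1 = 1 := by
  apply AddMonoid.End.ext
  intro v
  rw [phi_apply, end_one_apply]
  have h1 : cjN D.hK (1 : ↥(Hs G a b)).1 (Hs_le_Xs (1 : ↥(Hs G a b)).2) (toN D v) = toN D v := by
    apply Subtype.ext
    show 1 * (toN D v).1 * 1⁻¹ = (toN D v).1
    group
  rw [h1, ofN_toN]

theorem phi_comm (D : Dat G a b c N u t) (g h : ↥(Hs G a b)) :
    phi D g * phi D h = phi D h * phi D g := by
  rw [← phi_mul, ← phi_mul]
  congr 1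
  exact Subtype.ext (D.commH g.1 g.2 h.1 h.2)

/-- The ring generated by the two-point stabiliser. -/
noncomputable def RR (D : Dat G a b c N u t) : Subring (AddMonoid.End (VV D)) :=
  Subring.closure (Set.range (phi D))

/-- The base vector. -/
def v0 (D : Dat G a b c N u t) : VV D := ofN D ⟨u, D.hu⟩

theorem phi_mem (D : Dat G a b c N u t) (h : ↥(Hs G a b)) : phi D h ∈ RR D :=
  Subring.subset_closure ⟨h, rfl⟩

theorem RR_comm_phi (D : Dat G a b c N u t) {r : AddMonoid.End (VV D)} (hr : r ∈ RR D)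
    (h : ↥(Hs G a b)) : phi D h * r = r * phi D h := by
  have hle : RR D ≤ Subring.centralizer (Set.range (phi D)) := by
    apply Subring.closure_le.2
    rintro _ ⟨g, rfl⟩
    rw [SetLike.mem_coe, Subring.mem_centralizer_iff]
    rintro _ ⟨h, rfl⟩
    exact phi_comm D h g
  have h1 := hle hr
  rw [Subring.mem_centralizer_iff] at h1
  exact h1 _ ⟨h, rfl⟩

theorem RR_comm (D : Dat G a b c N u t) {r s : AddMonoid.End (VV D)} (hr : r ∈ RR D)
    (hs : s ∈ RR D) : r * s = s * r := by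
  have hle : RR D ≤ Subring.centralizer {r} := by
    apply Subring.closure_le.2
    rintro _ ⟨g, rfl⟩
    rw [SetLike.mem_coe, Subring.mem_centralizer_iff]
    intro x hx
    rw [Set.mem_singleton_iff] at hx
    subst hx
    exact (RR_comm_phi D hr g).symm
  have h1 := hle hs
  rw [Subring.mem_centralizer_iff] at h1
  exact h1 r rfl

theorem v0_ne (D : Dat G a b c N u t) : v0 D ≠ 0 := by
  intro e
  have h1 : toN D (v0 D) = 1 := by rw [e, toN_zero]
  have h2 : u = 1 := congrArg Subtype.val h1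
  have h3 := D.hub
  rw [h2] at h3
  exact D.hcb h3.symm

theorem phi_trans (D : Dat G a b c N u t) (v : VV D) (hv : v ≠ 0) :
    ∃ h : ↥(Hs G a b), phi D h (v0 D) = v := by
  have hn1 : (toN D v).1 ≠ 1 := by
    intro e
    apply hv
    have h1 : toN D v = 1 := Subtype.ext e
    rw [← ofN_toN D v, h1, ofN_one]
  have hnb_a : (toN D v).1 b ≠ a := D.hK.ne (toN D v).2 (Ne.symm D.hab)
  have hnb_b : (toN D v).1 b ≠ b := fun e => hn1 (D.hK.semireg (toN D v).2 (Ne.symm D.hab) e)
  obtain ⟨h, hG, ha, hb, hc⟩ := D.hS.trans a b c a b ((toN D v).1 b) D.hab (Ne.symm D.hca)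
    (Ne.symm D.hcb) D.hab (Ne.symm hnb_a) (Ne.symm hnb_b)
  refine ⟨⟨h, mem_Hs.2 ⟨hG, ha, hb⟩⟩, ?_⟩
  have h1 : cjN D.hK h (Hs_le_Xs (mem_Hs.2 ⟨hG, ha, hb⟩)) ⟨u, D.hu⟩ = toN D v := by
    apply Subtype.ext
    apply D.hK.eq_of_apply (D.hK.conj (Hs_le_Xs (mem_Hs.2 ⟨hG, ha, hb⟩)) D.hu) (toN D v).2
      (Ne.symm D.hab)
    show (h * u * h⁻¹) b = (toN D v).1 b
    rw [Equiv.Perm.mul_apply, Equiv.Perm.mul_apply, inv_fix hb, D.hub, hc]
  show ofN D (cjN D.hK h _ (toN D (v0 D))) = v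
  have h2 : toN D (v0 D) = ⟨u, D.hu⟩ := rfl
  rw [h2, h1, ofN_toN]

theorem ev_inj (D : Dat G a b c N u t) {r s : AddMonoid.End (VV D)} (hr : r ∈ RR D)
    (hs : s ∈ RR D) (h : r (v0 D) = s (v0 D)) : r = s := by
  apply AddMonoid.End.ext
  intro v
  by_cases hv : v = 0
  · rw [hv, map_zero, map_zero]
  · obtain ⟨g, rfl⟩ := phi_trans D v hv
    have e1 : r (phi D g (v0 D)) = (r * phi D g) (v0 D) := rfl
    have e2 : s (phi D g (v0 D)) = (s * phi D g) (v0 D) := rfl
    rw [e1, e2, ← RR_comm_phi D hr g, ← RR_comm_phi D hs g]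
    show phi D g (r (v0 D)) = phi D g (s (v0 D))
    rw [h]

theorem eq_phi (D : Dat G a b c N u t) {r : AddMonoid.End (VV D)} (hr : r ∈ RR D)
    (hr0 : r ≠ 0) : ∃ h, r = phi D h := by
  have h1 : r (v0 D) ≠ 0 := by
    intro e
    apply hr0
    apply ev_inj D hr (RR D).zero_mem
    rw [e]
    rfl
  obtain ⟨h, hh⟩ := phi_trans D _ h1
  exact ⟨h, ev_inj D hr (phi_mem D h) hh.symm⟩

theorem isField (D : Dat G a b c N u t) : IsField ↥(RR D) := by
  refine ⟨⟨0, 1, ?_⟩, ?_, ?_⟩
  · intro e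
    have e' : (0 : AddMonoid.End (VV D)) = 1 := congrArg Subtype.val e
    have h1 := congrArg (fun f : AddMonoid.End (VV D) => f (v0 D)) e'
    exact v0_ne D h1.symm
  · intro x y
    exact Subtype.ext (RR_comm D x.2 y.2)
  · intro x hx
    obtain ⟨h, hh⟩ := eq_phi D x.2 (fun e => hx (Subtype.ext e))
    refine ⟨⟨phi D h⁻¹, phi_mem D _⟩, ?_⟩
    apply Subtype.ext
    show x.1 * phi D h⁻¹ = 1
    rw [hh, ← phi_mul, mul_inv_cancel, phi_one]

noncomputable instance instFieldRR (D : Dat G a b c N u t) : Field ↥(RR D) := (isField D).toField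

/-- The coordinate map from the field to the points other than `a`. -/
noncomputable def theta (D : Dat G a b c N u t) (r : ↥(RR D)) : α := (toN D (r.1 (v0 D))).1 b

theorem theta_ne (D : Dat G a b c N u t) (r : ↥(RR D)) : theta D r ≠ a :=
  D.hK.ne (toN D _).2 (Ne.symm D.hab)

theorem theta_inj (D : Dat G a b c N u t) : Function.Injective (theta D) := by
  intro r s h
  have h1 : toN D (r.1 (v0 D)) = toN D (s.1 (v0 D)) :=
    Subtype.ext (D.hK.eq_of_apply (toN D _).2 (toN D _).2 (Ne.symm D.hab) h)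
  have h2 : r.1 (v0 D) = s.1 (v0 D) := by
    rw [← ofN_toN D (r.1 (v0 D)), h1, ofN_toN]
  exact Subtype.ext (ev_inj D r.2 s.2 h2)

theorem theta_zero (D : Dat G a b c N u t) : theta D 0 = b := rfl

theorem theta_surj (D : Dat G a b c N u t) {x : α} (hx : x ≠ a) : ∃ r, theta D r = x := by
  obtain ⟨n, hn, hnb⟩ := D.hK.trans (Ne.symm D.hab) hx
  by_cases hn1 : n = 1
  · refine ⟨0, ?_⟩
    rw [theta_zero, ← hnb, hn1]
    rfl
  · obtain ⟨h, hh⟩ := phi_trans D (ofN D ⟨n, hn⟩) (by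
      intro e
      apply hn1
      have h1 : toN D (ofN D ⟨n, hn⟩) = 1 := by rw [e, toN_zero]
      exact congrArg Subtype.val h1)
    refine ⟨⟨phi D h, phi_mem D h⟩, ?_⟩
    show (toN D (phi D h (v0 D))).1 b = x
    rw [hh]
    exact hnb

theorem theta_add (D : Dat G a b c N u t) (r x : ↥(RR D)) :
    (toN D (r.1 (v0 D))).1 (theta D x) = theta D (x + r) := by
  have h1 : (x + r).1 (v0 D) = r.1 (v0 D) + x.1 (v0 D) := by
    show (x.1 + r.1) (v0 D) = _
    rw [end_add_apply, add_comm]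
  show (toN D (r.1 (v0 D))).1 ((toN D (x.1 (v0 D))).1 b) = (toN D ((x + r).1 (v0 D))).1 b
  rw [h1, toN_add]
  rfl

theorem theta_mul (D : Dat G a b c N u t) (h : ↥(Hs G a b)) (x : ↥(RR D)) :
    h.1 (theta D x) = theta D (⟨phi D h, phi_mem D h⟩ * x) := by
  have h1 : (toN D ((phi D h * x.1) (v0 D))).1 = h.1 * (toN D (x.1 (v0 D))).1 * h.1⁻¹ := rfl
  show h.1 ((toN D (x.1 (v0 D))).1 b) = (toN D ((phi D h * x.1) (v0 D))).1 b
  rw [h1, Equiv.Perm.mul_apply, Equiv.Perm.mul_apply, inv_fix (mem_Hs.1 h.2).2.2]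

theorem theta_phi (D : Dat G a b c N u t) (g : ↥(Hs G a b)) :
    theta D ⟨phi D g, phi_mem D g⟩ = g.1 c := by
  show (g.1 * u * g.1⁻¹) b = g.1 c
  rw [Equiv.Perm.mul_apply, Equiv.Perm.mul_apply, inv_fix (mem_Hs.1 g.2).2.2, D.hub]

theorem theta_inv (D : Dat G a b c N u t) (x : ↥(RR D)) (hx : x ≠ 0) :
    t (theta D x) = theta D x⁻¹ := by
  obtain ⟨h, hh⟩ := eq_phi D x.2 (fun e => hx (Subtype.ext e))
  have hx' : x = ⟨phi D h, phi_mem D h⟩ := Subtype.ext hh
  have hinv : x⁻¹ = ⟨phi D h⁻¹, phi_mem D h⁻¹⟩ := by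
    rw [hx']
    apply inv_eq_of_mul_eq_one_right
    apply Subtype.ext
    show phi D h * phi D h⁻¹ = 1
    rw [← phi_mul, mul_inv_cancel, phi_one]
  rw [hinv, hx', theta_phi, theta_phi]
  have h1 := D.hinvt h.1 h.2
  have h2 : (t * h.1 * t) c = t (h.1 c) := by
    rw [Equiv.Perm.mul_apply, Equiv.Perm.mul_apply, D.htc]
  rw [← h2, h1]
  rfl

theorem card_RR (D : Dat G a b c N u t) : Nat.card ↥(RR D) = Fintype.card α - 1 := by
  have hb : Function.Bijective (fun r : ↥(RR D) => r.1 (v0 D)) := by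
    constructor
    · intro r s h
      exact Subtype.ext (ev_inj D r.2 s.2 h)
    · intro v
      by_cases hv : v = 0
      · exact ⟨0, by rw [hv]; rfl⟩
      · obtain ⟨h, hh⟩ := phi_trans D v hv
        exact ⟨⟨phi D h, phi_mem D h⟩, hh⟩
  rw [Nat.card_congr (Equiv.ofBijective _ hb)]
  show Nat.card (Additive ↥N) = _
  rw [Nat.card_congr (Additive.toMul : Additive ↥N ≃ ↥N)]
  exact D.hK.card

instance instFinRR (D : Dat G a b c N u t) : Finite ↥(RR D) := by
  have hinj : Function.Injective (fun r : ↥(RR D) => r.1 (v0 D)) := by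
    intro r s h
    exact Subtype.ext (ev_inj D r.2 s.2 h)
  exact Finite.of_injective _ hinj

end field

section final

variable {α : Type*} [Fintype α] [DecidableEq α] {G : Subgroup (Equiv.Perm α)}

open OnePoint in
/-- A sharply triply transitive group coordinatised by a field is `PGL₂`. -/
theorem of_theta {K : Type*} [Field K] [Fintype K] (hS : S3 G) {a : α} (θ : K → α)
    (hinj : Function.Injective θ) (hne : ∀ k, θ k ≠ a) (hsurj : ∀ x, x ≠ a → ∃ k, θ k = x)
    (hT : ∀ r : K, ∃ g ∈ G, g a = a ∧ ∀ x, g (θ x) = θ (x + r))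
    (hD : ∀ s : K, s ≠ 0 → ∃ g ∈ G, g a = a ∧ ∀ x, g (θ x) = θ (s * x))
    (hW : ∃ g ∈ G, g a = θ 0 ∧ g (θ 0) = a ∧ ∀ x, x ≠ 0 → g (θ x) = θ x⁻¹)
    (hcard : Fintype.card K * ((Fintype.card K - 1) * (Fintype.card K + 1)) ≤ Nat.card G) :
    Nonempty (G ≃* Matrix.ProjGenLinGroup (Fin 2) K) := by
  classical
  have hbij : Function.Bijective (fun x : OnePoint K => OnePoint.elim x a θ) := by
    constructor
    · intro x y h
      cases x with
      | infty =>
        cases y with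
        | infty => rfl
        | coe y => exact absurd h.symm (hne y)
      | coe x =>
        cases y with
        | infty => exact absurd h (hne x)
        | coe y => exact congrArg _ (hinj h)
    · intro y
      by_cases hy : y = a
      · exact ⟨∞, hy.symm⟩
      · obtain ⟨k, hk⟩ := hsurj y hy
        exact ⟨(k : OnePoint K), hk⟩
  obtain ⟨Θ, hΘ⟩ : ∃ Θ : OnePoint K ≃ α, ∀ x, Θ x = OnePoint.elim x a θ :=
    ⟨Equiv.ofBijective _ hbij, fun x => rfl⟩
  have hΘinf : Θ ∞ = a := by rw [hΘ]; rfl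
  have hΘcoe : ∀ k : K, Θ (k : OnePoint K) = θ k := fun k => by rw [hΘ]; rfl
  have hΘsa : Θ.symm a = ∞ := by rw [← hΘinf, Equiv.symm_apply_apply]
  have hΘsc : ∀ k : K, Θ.symm (θ k) = (k : OnePoint K) := fun k => by
    rw [← hΘcoe, Equiv.symm_apply_apply]
  obtain ⟨φ, hφ⟩ : ∃ φ : Equiv.Perm α ≃* Equiv.Perm (OnePoint K),
      ∀ (g : Equiv.Perm α) (x : OnePoint K), φ g x = Θ.symm (g (Θ x)) :=
    ⟨Θ.symm.permCongrHom, fun g x => rfl⟩
  have e1 : G ≃* G.map φ.toMonoidHom := φ.subgroupMap G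
  have key := mobius (G.map φ.toMonoidHom) ?_ ?_ ?_ ?_ ?_
  · obtain ⟨e2⟩ := key
    exact ⟨e1.trans e2⟩
  · rintro _ ⟨g, hg, rfl⟩ hinf h0 h1
    have hinf' : φ g ∞ = ∞ := hinf
    have h0' : φ g ((0 : K) : OnePoint K) = ((0 : K) : OnePoint K) := h0
    have h1' : φ g ((1 : K) : OnePoint K) = ((1 : K) : OnePoint K) := h1
    have ha : g a = a := by
      rw [hφ, hΘinf] at hinf'
      have h2 := congrArg Θ hinf'
      rw [Equiv.apply_symm_apply, hΘinf] at h2
      exact h2
    have hb : g (θ 0) = θ 0 := by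
      rw [hφ, hΘcoe] at h0'
      have h2 := congrArg Θ h0'
      rw [Equiv.apply_symm_apply, hΘcoe] at h2
      exact h2
    have hc : g (θ 1) = θ 1 := by
      rw [hφ, hΘcoe] at h1'
      have h2 := congrArg Θ h1'
      rw [Equiv.apply_symm_apply, hΘcoe] at h2
      exact h2
    have hg1 : g = 1 := hS.rigid g hg a (θ 0) (θ 1) (Ne.symm (hne 0)) (Ne.symm (hne 1))
      (fun e => zero_ne_one (hinj e)) ha hb hc
    rw [hg1]
    exact map_one _
  · intro r
    obtain ⟨g, hg, hga, hgx⟩ := hT r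
    refine ⟨g, hg, ?_⟩
    apply Equiv.ext
    intro x
    show φ g x = Tm r • x
    cases x with
    | infty => rw [hφ, hΘinf, hga, hΘsa, Tm_smul_infty]
    | coe k => rw [hφ, hΘcoe, hgx, hΘsc, Tm_smul_coe]
  · intro s hs
    obtain ⟨g, hg, hga, hgx⟩ := hD s hs
    refine ⟨g, hg, ?_⟩
    apply Equiv.ext
    intro x
    show φ g x = Dm s hs • x
    cases x with
    | infty => rw [hφ, hΘinf, hga, hΘsa, Dm_smul_infty]
    | coe k => rw [hφ, hΘcoe, hgx, hΘsc, Dm_smul_coe]
  · obtain ⟨g, hg, hga, hg0, hgx⟩ := hW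
    refine ⟨g, hg, ?_⟩
    apply Equiv.ext
    intro x
    show φ g x = (Wm : GL (Fin 2) K) • x
    cases x with
    | infty => rw [hφ, hΘinf, hga, hΘsc, Wm_smul_infty]
    | coe k =>
      by_cases hk : k = 0
      · rw [hk, hφ, hΘcoe, hg0, hΘsa, Wm_smul_zero]
      · rw [hφ, hΘcoe, hgx k hk, hΘsc, Wm_smul_coe k hk]
  · rw [← Nat.card_congr e1.toEquiv]
    exact hcard

theorem exists_dat (hS : S3 G) {f : ℕ} (hf : 1 ≤ f) (hα : Fintype.card α = 2 ^ f + 1) :
    ∃ (a b c : α) (N : Subgroup (Equiv.Perm α)) (u t : Equiv.Perm α), Dat G a b c N u t := by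
  have h2f : 2 ≤ 2 ^ f := by
    have := Nat.one_lt_two_pow (show f ≠ 0 by omega)
    omega
  have h3 : 3 ≤ Fintype.card α := by omega
  obtain ⟨a⟩ : Nonempty α := Fintype.card_pos_iff.1 (by omega)
  obtain ⟨b, hba⟩ := exists_ne1 (by omega) a
  obtain ⟨c, hca, hcb⟩ := exists_ne2 h3 a b
  have hab : a ≠ b := Ne.symm hba
  obtain ⟨N, hK⟩ : ∃ N, Ker G a N := by
    by_cases h4 : 4 ≤ Fintype.card α
    · exact exists_ker hS h4 a
    · exact exists_ker3 hS (by omega) a
  have hNcard : Nat.card N = 2 ^ f := by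
    rw [hK.card, hα]
    omega
  have hNeven : Even (Nat.card N) := by
    rw [hNcard]
    exact (Nat.even_pow.2 ⟨even_two, by omega⟩)
  have hexp := exp2 hS hK hab hNeven
  have hcN := commN_of_exp2 hexp
  obtain ⟨u, hu, hub⟩ := hK.trans hba hca
  have hu1 : u ≠ 1 := by
    rintro rfl
    exact hcb hub.symm
  have hN1 : ∃ i ∈ N, i ≠ 1 := ⟨u, hu, hu1⟩
  obtain ⟨t, htG, hta, htb, htc⟩ := hS.trans a b c b a c hab (Ne.symm hca) (Ne.symm hcb)
    (Ne.symm hab) (Ne.symm hcb) (Ne.symm hca)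
  have ht2 : t * t = 1 := hS.rigid (t * t) (G.mul_mem htG htG) a b c hab (Ne.symm hca)
    (Ne.symm hcb) (by rw [Equiv.Perm.mul_apply, hta, htb])
    (by rw [Equiv.Perm.mul_apply, htb, hta]) (by rw [Equiv.Perm.mul_apply, htc, htc])
  have hconj : ∀ h, h ∈ Hs G a b → t * h * t ∈ Hs G a b := by
    intro h hh
    obtain ⟨hG, ha, hb⟩ := mem_Hs.1 hh
    refine mem_Hs.2 ⟨G.mul_mem (G.mul_mem htG hG) htG, ?_, ?_⟩
    · rw [Equiv.Perm.mul_apply, Equiv.Perm.mul_apply, hta, hb, htb]
    · rw [Equiv.Perm.mul_apply, Equiv.Perm.mul_apply, htb, ha, hta]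
  have hinvt := t_inverts hS hK hab hca hcb hexp hN1 htG hta htc ht2 hconj
  have hcH : ∀ g ∈ Hs G a b, ∀ h ∈ Hs G a b, g * h = h * g := by
    intro g hg h hh
    have key := comm_of_inv (cjT t ht2 hconj) (fun x => Subtype.ext (hinvt x.1 x.2))
      ⟨g, hg⟩ ⟨h, hh⟩
    exact congrArg Subtype.val key
  exact ⟨a, b, c, N, u, t, ⟨hS, hab, hca, hcb, hK, hu, hub, hcN, hcH, htG, hta, htb, htc, hinvt⟩⟩

end final

theorem result {α : Type*} [Fintype α] [DecidableEq α] {f : ℕ} (hf : 1 ≤ f) (hα : Fintype.card α = 2 ^ f + 1) (G : Subgroup (Equiv.Perm α)) (h3 : MulAction.IsMultiplyPretransitive G α 3) (hsharp : ∀ x : Fin 3 ↪ α, MulAction.stabilizer G x = ⊥) : ∃ (F : Type) (_ : Field F) (_ : Fintype F), Fintype.card F = 2 ^ f ∧ Nonempty (G ≃* Matrix.ProjGenLinGroup (Fin 2) F) := by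
  classical
  have hS := s3_of G h3 hsharp
  obtain ⟨a, b, c, N, u, t, D⟩ := exists_dat hS hf hα
  have hp2 : Fact (Nat.Prime 2) := ⟨Nat.prime_two⟩
  have h2f : 2 ≤ 2 ^ f := by
    have := Nat.one_lt_two_pow (show f ≠ 0 by omega)
    omega
  have hGc : Nat.card G = (Fintype.card α).descFactorial 3 := by
    have := h3
    have h1 := (Cfsg.Agent.Lib.Helper4.Sharp.isSharp_univ G 3 hsharp).card
      (by rw [Finset.card_univ, hα]; omega)
    rw [Finset.card_univ] at h1
    exact h1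
  letI inst : Fintype (GaloisField 2 f) := Fintype.ofFinite _
  have hFcard : Fintype.card (GaloisField 2 f) = 2 ^ f := by
    rw [← Nat.card_eq_fintype_card]
    exact GaloisField.card 2 f (by omega)
  refine ⟨GaloisField 2 f, inferInstance, inst, hFcard, ?_⟩
  letI instR : Fintype ↥(RR D) := Fintype.ofFinite _
  have hRcard : Fintype.card ↥(RR D) = 2 ^ f := by
    rw [← Nat.card_eq_fintype_card, card_RR, hα]
    omega
  obtain ⟨e⟩ : Nonempty (↥(RR D) ≃+* GaloisField 2 f) :=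
    ⟨FiniteField.ringEquivOfCardEq (by rw [hRcard, hFcard])⟩
  apply of_theta hS (a := a) (fun k => theta D (e.symm k))
  · exact (theta_inj D).comp e.symm.injective
  · intro k
    exact theta_ne D _
  · intro x hx
    obtain ⟨r, hr⟩ := theta_surj D hx
    refine ⟨e r, ?_⟩
    show theta D (e.symm (e r)) = x
    rw [RingEquiv.symm_apply_apply, hr]
  · intro r
    refine ⟨(toN D ((e.symm r).1 (v0 D))).1, D.hK.le (toN D _).2, D.hK.fix (toN D _).2, ?_⟩
    intro x
    show (toN D ((e.symm r).1 (v0 D))).1 (theta D (e.symm x)) = theta D (e.symm (x + r))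
    rw [theta_add, map_add]
  · intro s hs
    have hs' : e.symm s ≠ 0 := by
      intro h0
      apply hs
      have := congrArg e h0
      rw [RingEquiv.apply_symm_apply, map_zero] at this
      exact this
    obtain ⟨h, hh⟩ := eq_phi D (e.symm s).2 (fun e' => hs' (Subtype.ext e'))
    refine ⟨h.1, (mem_Hs.1 h.2).1, (mem_Hs.1 h.2).2.1, ?_⟩
    intro x
    show h.1 (theta D (e.symm x)) = theta D (e.symm (s * x))
    rw [theta_mul, map_mul]
    congr 2
    exact Subtype.ext hh.symm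
  · refine ⟨t, D.htG, ?_, ?_, ?_⟩
    · show t a = theta D (e.symm 0)
      rw [map_zero, theta_zero]
      exact D.hta
    · show t (theta D (e.symm 0)) = a
      rw [map_zero, theta_zero]
      exact D.htb
    · intro x hx
      show t (theta D (e.symm x)) = theta D (e.symm x⁻¹)
      rw [map_inv₀]
      apply theta_inv D
      intro h0
      apply hx
      have := congrArg e h0
      rw [RingEquiv.apply_symm_apply, map_zero] at this
      exact this
  · rw [hFcard, hGc, hα]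
    obtain ⟨k, hk⟩ : ∃ k, 2 ^ f = k + 2 := ⟨2 ^ f - 2, by omega⟩
    rw [hk]
    have e1 : (k + 2 + 1).descFactorial 3 = (k + 1) * ((k + 2) * (k + 3)) := by
      simp [Nat.descFactorial]
    have e2 : k + 2 - 1 = k + 1 := by omega
    rw [e1, e2]
    apply le_of_eq
    ring

end Cfsg.Agent.S0727
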