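import Mathlib
import Cfsg.Statements.S0733

set_option autoImplicit false
open Cfsg
open scoped Pointwise

namespace Cfsg.Agent.S0733

/-- A permutation group of affine type — generated by the translations of a finite vector space `V` over `ZMod p` together with a group `G₀` of linear automorphisms — is primitive on `V` if and only if `G₀` is irreducible on `V`. -/
theorem result {p : ℕ} [Fact p.Prime] {V : Type*} [AddCommGroup V] [Module (ZMod p) V] [Finite V] [Nontrivial V] (G₀ : Subgroup (V ≃ₗ[ZMod p] V)) (G : Subgroup (Equiv.Perm V)) (hG : ∀ σ : Equiv.Perm V, σ ∈ G ↔ ∃ g ∈ G₀, ∃ b : V, ∀ x : V, σ x = (g : V ≃ₗ[ZMod p] V) x + b) : MulAction.IsPreprimitive G V ↔ ∀ W : Submodule (ZMod p) V, (∀ g ∈ G₀, ∀ v ∈ W, (g : V ≃ₗ[ZMod p] V) v ∈ W) → W = ⊥ ∨ W = ⊤ := by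
  -- translations and linear maps as elements of G
  have htrans : ∀ b : V, ∃ τ : G, ∀ x : V, τ • x = x + b := by
    intro b
    refine ⟨⟨Equiv.addRight b, (hG _).mpr ⟨1, G₀.one_mem, b, fun x => by simp⟩⟩, fun x => rfl⟩
  have hlin : ∀ g ∈ G₀, ∃ τ : G, ∀ x : V, τ • x = (g : V ≃ₗ[ZMod p] V) x := by
    intro g hg
    refine ⟨⟨g.toEquiv, (hG _).mpr ⟨g, hg, 0, fun x => by simp⟩⟩, fun x => rfl⟩
  constructor
  · intro hprim W hW
    have hblock : MulAction.IsBlock G (W : Set V) := by
      rw [MulAction.isBlock_iff_smul_eq_of_mem]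
      intro σ a ha hσa
      obtain ⟨g, hg, b, hgb⟩ := (hG σ.1).mp σ.2
      have hσ : ∀ x : V, σ • x = g x + b := fun x => hgb x
      have hb : b ∈ W := by
        have h1 : g a + b ∈ W := by rw [← hσ]; exact hσa
        have h2 : g a ∈ W := hW g hg a ha
        have : b = (g a + b) - g a := by abel
        rw [this]
        exact W.sub_mem h1 h2
      ext y
      constructor
      · rintro ⟨w, hw, rfl⟩
        change σ • w ∈ W
        rw [hσ]
        exact W.add_mem (hW g hg w hw) hb
      · intro hy
        refine ⟨g⁻¹ (y - b), hW g⁻¹ (G₀.inv_mem hg) _ (W.sub_mem hy hb), ?_⟩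
        change σ • (g⁻¹ (y - b)) = y
        rw [hσ]
        have : g (g⁻¹ (y - b)) = y - b := by
          change (g * g⁻¹) (y - b) = y - b
          rw [mul_inv_cancel]; rfl
        rw [this]; abel
    rcases hprim.isTrivialBlock_of_isBlock hblock with h | h
    · left
      rw [Submodule.eq_bot_iff]
      intro x hx
      exact h hx W.zero_mem
    · right
      rw [Submodule.eq_top_iff']
      intro x
      have : x ∈ (W : Set V) := by rw [h]; exact Set.mem_univ x
      exact this
  · intro hirr
    have : MulAction.IsPretransitive G V := by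
      constructor
      intro x y
      obtain ⟨τ, hτ⟩ := htrans (y - x)
      exact ⟨τ, by rw [hτ]; abel⟩
    apply MulAction.IsPreprimitive.of_isTrivialBlock_base (0 : V)
    intro B h0 hB
    rw [MulAction.isBlock_iff_smul_eq_of_mem] at hB
    -- B is an additive subgroup
    have hadd : ∀ x ∈ B, ∀ y ∈ B, x + y ∈ B := by
      intro x hx y hy
      obtain ⟨τ, hτ⟩ := htrans y
      have h1 : τ • B = B := hB h0 (by rw [hτ, zero_add]; exact hy)
      rw [← h1]
      exact ⟨x, hx, hτ x⟩
    have hneg : ∀ x ∈ B, -x ∈ B := by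
      intro x hx
      obtain ⟨τ, hτ⟩ := htrans (-x)
      have h1 : τ • B = B := hB hx (by rw [hτ, add_neg_cancel]; exact h0)
      rw [← h1]
      exact ⟨0, h0, by change τ • (0 : V) = -x; rw [hτ, zero_add]⟩
    let S : AddSubgroup V :=
      { carrier := B
        add_mem' := fun {x y} hx hy => hadd x hx y hy
        zero_mem' := h0
        neg_mem' := fun {x} hx => hneg x hx }
    let W : Submodule (ZMod p) V := AddSubgroup.toZModSubmodule p S
    have hWB : (W : Set V) = B := rfl
    have hinv : ∀ g ∈ G₀, ∀ v ∈ W, (g : V ≃ₗ[ZMod p] V) v ∈ W := by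
      intro g hg v hv
      obtain ⟨τ, hτ⟩ := hlin g hg
      have h1 : τ • B = B := hB h0 (by rw [hτ, map_zero]; exact h0)
      have hv' : v ∈ B := hv
      change g v ∈ B
      rw [← h1]
      exact ⟨v, hv', hτ v⟩
    rcases hirr W hinv with h | h
    · left
      intro x hx y hy
      have hx' : x ∈ W := hx
      have hy' : y ∈ W := hy
      rw [h, Submodule.mem_bot] at hx' hy'
      rw [hx', hy']
    · right
      rw [← hWB, h]
      rfl

end Cfsg.Agent.S0733
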