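import Mathlib
import Cfsg.Statements.S0734

set_option autoImplicit false
open Cfsg
open scoped Pointwise

namespace Cfsg.Agent.S0734

/-- The orbital graph of the pair `(a, b)`. -/
def orbGraph (G : Type*) [Group G] {Ω : Type*} [MulAction G Ω] (a b : Ω) : SimpleGraph Ω :=
  SimpleGraph.fromRel fun x y : Ω => ∃ g : G, g • a = x ∧ g • b = y

theorem orbGraph_adj_smul {G : Type*} [Group G] {Ω : Type*} [MulAction G Ω] (a b : Ω) (g : G)
    {x y : Ω} (h : (orbGraph G a b).Adj x y) : (orbGraph G a b).Adj (g • x) (g • y) := by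
  rw [orbGraph, SimpleGraph.fromRel_adj] at h ⊢
  obtain ⟨hne, hr⟩ := h
  refine ⟨fun hc => hne (smul_left_cancel g hc), ?_⟩
  rcases hr with ⟨k, hk1, hk2⟩ | ⟨k, hk1, hk2⟩
  · left; exact ⟨g * k, by rw [mul_smul, hk1], by rw [mul_smul, hk2]⟩
  · right; exact ⟨g * k, by rw [mul_smul, hk1], by rw [mul_smul, hk2]⟩

/-- Translation by a group element as a graph homomorphism. -/
def orbHom (G : Type*) [Group G] {Ω : Type*} [MulAction G Ω] (a b : Ω) (g : G) :
    orbGraph G a b →g orbGraph G a b where
  toFun x := g • x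
  map_rel' h := orbGraph_adj_smul a b g h

theorem reachable_smul {G : Type*} [Group G] {Ω : Type*} [MulAction G Ω] (a b : Ω) (g : G)
    {x y : Ω} (h : (orbGraph G a b).Reachable x y) : (orbGraph G a b).Reachable (g • x) (g • y) :=
  h.map (orbHom G a b g)

theorem reachable_smul_iff {G : Type*} [Group G] {Ω : Type*} [MulAction G Ω] (a b : Ω) (g : G)
    {x y : Ω} : (orbGraph G a b).Reachable (g • x) (g • y) ↔ (orbGraph G a b).Reachable x y := by
  constructor
  · intro h
    have := reachable_smul a b g⁻¹ h
    rwa [inv_smul_smul, inv_smul_smul] at this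
  · exact reachable_smul a b g

theorem forward {G : Type*} [Group G] {Ω : Type*} [MulAction G Ω]
    (hprim : MulAction.IsPreprimitive G Ω) (a b : Ω) (hab : a ≠ b) : (orbGraph G a b).Connected := by
  set Γ := orbGraph G a b with hΓ
  set B : Set Ω := {x | Γ.Reachable a x} with hB
  have hblock : MulAction.IsBlock G B := by
    rw [MulAction.isBlock_iff_smul_eq_of_mem]
    intro g x hx hgx
    have h1 : Γ.Reachable (g • a) (g • x) := reachable_smul a b g hx
    have h2 : Γ.Reachable a (g • a) := hgx.trans h1.symm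
    ext z
    constructor
    · rintro ⟨y, hy, rfl⟩
      exact h2.trans (reachable_smul a b g hy)
    · intro hz
      refine ⟨g⁻¹ • z, ?_, smul_inv_smul g z⟩
      have h3 : Γ.Reachable (g • a) z := h2.symm.trans hz
      have h4 := reachable_smul a b g⁻¹ h3
      rwa [inv_smul_smul] at h4
  have hadj : Γ.Adj a b := by
    rw [hΓ, orbGraph, SimpleGraph.fromRel_adj]
    exact ⟨hab, Or.inl ⟨1, one_smul _ _, one_smul _ _⟩⟩
  have ha : a ∈ B := SimpleGraph.Reachable.refl a
  have hb : b ∈ B := hadj.reachable
  have huniv : B = Set.univ := by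
    rcases hprim.isTrivialBlock_of_isBlock hblock with h | h
    · exact absurd (h ha hb) hab
    · exact h
  have hreach : ∀ x, Γ.Reachable a x := by
    intro x
    have : x ∈ B := by rw [huniv]; exact Set.mem_univ x
    exact this
  haveI : Nonempty Ω := ⟨a⟩
  exact SimpleGraph.Connected.mk (fun u v => (hreach u).symm.trans (hreach v))

theorem backward {G : Type*} [Group G] {Ω : Type*} [MulAction G Ω] [MulAction.IsPretransitive G Ω]
    (h : ∀ a b : Ω, a ≠ b → (orbGraph G a b).Connected) : MulAction.IsPreprimitive G Ω := by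
  refine ⟨?_⟩
  intro B hB
  by_cases hsub : B.Subsingleton
  · exact Or.inl hsub
  · right
    rw [Set.not_subsingleton_iff] at hsub
    obtain ⟨a, ha, b, hb, hab⟩ := hsub
    have hconn := h a b hab
    have hstep : ∀ x y : Ω, (orbGraph G a b).Adj x y → x ∈ B → y ∈ B := by
      intro x y hxy hx
      rw [orbGraph, SimpleGraph.fromRel_adj] at hxy
      obtain ⟨_, hr⟩ := hxy
      have key : ∀ g : G, (g • a = x ∧ g • b = y) ∨ (g • a = y ∧ g • b = x) → y ∈ B := by
        intro g hg
        have hgB : g • B = B := by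
          apply hB.smul_eq_of_nonempty
          refine ⟨x, ?_, hx⟩
          rcases hg with ⟨h1, _⟩ | ⟨_, h2⟩
          · exact ⟨a, ha, h1⟩
          · exact ⟨b, hb, h2⟩
        rw [← hgB]
        rcases hg with ⟨_, h2⟩ | ⟨h1, _⟩
        · exact ⟨b, hb, h2⟩
        · exact ⟨a, ha, h1⟩
      rcases hr with ⟨g, h1, h2⟩ | ⟨g, h1, h2⟩
      · exact key g (Or.inl ⟨h1, h2⟩)
      · exact key g (Or.inr ⟨h1, h2⟩)
    have hwalk : ∀ (u v : Ω) (p : (orbGraph G a b).Walk u v), u ∈ B → v ∈ B := by
      intro u v p
      induction p with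
      | nil => exact id
      | cons hadj _ ih => exact fun hu => ih (hstep _ _ hadj hu)
    apply Set.eq_univ_of_forall
    intro x
    obtain ⟨p⟩ := hconn.preconnected a x
    exact hwalk a x p ha

/-- Higman's criterion for primitivity: a transitive action on a finite set is primitive if and only if every non-trivial orbital graph (edges = images of a fixed pair of distinct points) is connected. -/
theorem result {G : Type*} [Group G] {Ω : Type*} [Finite Ω] [MulAction G Ω] [MulAction.IsPretransitive G Ω] [Nontrivial Ω] : MulAction.IsPreprimitive G Ω ↔ ∀ a b : Ω, a ≠ b → (SimpleGraph.fromRel fun x y : Ω => ∃ g : G, g • a = x ∧ g • b = y).Connected := by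
  constructor
  · intro hprim a b hab
    exact forward hprim a b hab
  · intro h
    exact backward h

end Cfsg.Agent.S0734
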