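import Mathlib
import Cfsg.Statements.S0735

set_option autoImplicit false
open Cfsg
open scoped Pointwise

namespace Cfsg.Agent.S0735

theorem homog {α : Type*} [Fintype α] [DecidableEq α] (G : Subgroup (Equiv.Perm α))
    (h2 : MulAction.IsPretransitive G (Set.powersetCard α 2)) {a b c d : α} (hab : a ≠ b)
    (hcd : c ≠ d) : ∃ g : G, (g • a = c ∧ g • b = d) ∨ (g • a = d ∧ g • b = c) := by
  obtain ⟨g, hg⟩ := h2.exists_smul_eq
    (⟨{a, b}, Set.powersetCard.mem_iff.mpr (Finset.card_pair hab)⟩ : Set.powersetCard α 2)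
    ⟨{c, d}, Set.powersetCard.mem_iff.mpr (Finset.card_pair hcd)⟩
  have hg' : g • ({a, b} : Finset α) = {c, d} := by
    have := Set.powersetCard.coe_smul (g := g)
      (s := (⟨{a, b}, Set.powersetCard.mem_iff.mpr (Finset.card_pair hab)⟩ : Set.powersetCard α 2))
    exact this.symm.trans (congrArg Subtype.val hg)
  have ha : g • a ∈ ({c, d} : Finset α) := by
    rw [← hg']; exact Finset.smul_mem_smul_finset (by simp)
  have hb : g • b ∈ ({c, d} : Finset α) := by
    rw [← hg']; exact Finset.smul_mem_smul_finset (by simp)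
  have hne : g • a ≠ g • b := fun h => hab (smul_left_cancel g h)
  simp only [Finset.mem_insert, Finset.mem_singleton] at ha hb
  refine ⟨g, ?_⟩
  rcases ha with ha | ha <;> rcases hb with hb | hb
  · exact absurd (ha.trans hb.symm) hne
  · exact Or.inl ⟨ha, hb⟩
  · exact Or.inr ⟨ha, hb⟩
  · exact absurd (ha.trans hb.symm) hne

theorem exists_third {α : Type*} [Fintype α] [DecidableEq α] (hα : 3 ≤ Fintype.card α) (x y : α) :
    ∃ z : α, z ≠ x ∧ z ≠ y := by
  by_contra h
  push Not at h
  have h1 : (Finset.univ : Finset α) ⊆ {x, y} := by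
    intro z _
    by_cases hz : z = x
    · simp [hz]
    · simp [h z hz]
  have h2 := Finset.card_le_card h1
  have h3 : ({x, y} : Finset α).card ≤ 2 := Finset.card_le_two
  rw [Finset.card_univ] at h2
  omega

theorem trans {α : Type*} [Fintype α] [DecidableEq α] (G : Subgroup (Equiv.Perm α))
    (h2 : MulAction.IsPretransitive G (Set.powersetCard α 2)) (hα : 3 ≤ Fintype.card α) :
    MulAction.IsPretransitive G α := by
  constructor
  intro x y
  by_cases hxy : x = y
  · exact ⟨1, by rw [one_smul, hxy]⟩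
  · obtain ⟨z, hzx, hzy⟩ := exists_third hα x y
    obtain ⟨g1, hg1⟩ := homog G h2 hxy (Ne.symm hzy)
    rcases hg1 with ⟨h, _⟩ | ⟨h, _⟩
    · exact ⟨g1, h⟩
    · obtain ⟨g, hg⟩ := homog G h2 (Ne.symm hzx) hxy
      rcases hg with ⟨_, h'⟩ | ⟨h', _⟩
      · exact ⟨g * g1, by rw [mul_smul, h, h']⟩
      · exact ⟨g, h'⟩

/-- A 2-homogeneous permutation group (transitive on 2-subsets) of even order is doubly transitive; a non-trivial 2-homogeneous group is primitive. -/
theorem result {α : Type*} [Fintype α] [DecidableEq α] (G : Subgroup (Equiv.Perm α)) (h2 : MulAction.IsPretransitive G (Set.powersetCard α 2)) (hα : 3 ≤ Fintype.card α) : (Even (Nat.card G) → MulAction.IsMultiplyPretransitive G α 2) ∧ (G ≠ ⊥ → MulAction.IsPreprimitive G α) := by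
  constructor
  · intro heven
    haveI : Fact (Nat.Prime 2) := ⟨Nat.prime_two⟩
    obtain ⟨t, ht⟩ := exists_prime_orderOf_dvd_card' (G := G) 2 (even_iff_two_dvd.mp heven)
    have ht1 : t ≠ 1 := by
      intro h
      rw [h, orderOf_one] at ht
      norm_num at ht
    have ht2 : t * t = 1 := by
      rw [← sq, ← ht]; exact pow_orderOf_eq_one t
    obtain ⟨x, hx⟩ : ∃ x : α, t • x ≠ x := by
      by_contra h
      push Not at h
      apply ht1
      apply Subtype.ext
      ext x
      exact h x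
    have htt : t • (t • x) = x := by rw [← mul_smul, ht2, one_smul]
    rw [MulAction.is_two_pretransitive_iff]
    intro a b c d hab hcd
    obtain ⟨g, hg⟩ := homog G h2 hab hcd
    rcases hg with hg | ⟨hga, hgb⟩
    · exact ⟨g, hg⟩
    · obtain ⟨k, hk⟩ := homog G h2 (Ne.symm hx) hcd
      have key : ∃ s : G, s • c = d ∧ s • d = c := by
        rcases hk with ⟨hk1, hk2⟩ | ⟨hk1, hk2⟩
        · refine ⟨k * t * k⁻¹, ?_, ?_⟩
          · rw [mul_smul, mul_smul, ← hk1, inv_smul_smul, hk2]
          · rw [mul_smul, mul_smul, ← hk2, inv_smul_smul, htt, hk1]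
        · refine ⟨k * t * k⁻¹, ?_, ?_⟩
          · rw [mul_smul, mul_smul, ← hk2, inv_smul_smul, htt, hk1]
          · rw [mul_smul, mul_smul, ← hk1, inv_smul_smul, hk2]
      obtain ⟨s, hs1, hs2⟩ := key
      exact ⟨s * g, by rw [mul_smul, hga, hs2], by rw [mul_smul, hgb, hs1]⟩
  · intro _
    haveI := trans G h2 hα
    refine ⟨?_⟩
    intro B hB
    by_cases hsub : B.Subsingleton
    · exact Or.inl hsub
    · right
      rw [Set.not_subsingleton_iff] at hsub
      obtain ⟨a, ha, b, hb, hab⟩ := hsub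
      apply Set.eq_univ_of_forall
      intro c
      by_contra hc
      have hac : a ≠ c := fun h => hc (h ▸ ha)
      obtain ⟨g, hg⟩ := homog G h2 hab hac
      rcases hg with ⟨h1, h2'⟩ | ⟨h1, h2'⟩
      · have hgB : g • B = B := hB.smul_eq_of_nonempty ⟨a, ⟨a, ha, h1⟩, ha⟩
        apply hc
        rw [← hgB]
        exact ⟨b, hb, h2'⟩
      · have hgB : g • B = B := hB.smul_eq_of_nonempty ⟨a, ⟨b, hb, h2'⟩, ha⟩
        apply hc
        rw [← hgB]
        exact ⟨a, ha, h1⟩

end Cfsg.Agent.S0735
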