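import Mathlib
import Cfsg.Statements.S0736

set_option autoImplicit false
open Cfsg

namespace Cfsg.Agent.S0736

/-- For a prime power `q = p ^ j` dividing `k`, the binomial coefficient
`(k + q - 1).choose k` is prime to `p`. -/
theorem coprime_choose {p j k : ℕ} (hp : p.Prime) (hk : p ^ j ∣ k) :
    Nat.Coprime (p ^ j) ((k + p ^ j - 1).choose k) := by
  have : Fact p.Prime := ⟨hp⟩
  have hq1 : 1 ≤ p ^ j := Nat.one_le_pow _ _ hp.pos
  apply Nat.Coprime.pow_left
  rw [hp.coprime_iff_not_dvd]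
  intro hdvd
  have e1 : k + p ^ j - 1 = k + (p ^ j - 1) := by omega
  rw [e1, Nat.choose_symm_add, Nat.add_choose_eq] at hdvd
  have h0 : ((∑ ij ∈ Finset.HasAntidiagonal.antidiagonal (p ^ j - 1),
      k.choose ij.1 * (p ^ j - 1).choose ij.2 : ℕ) : ZMod p) = 0 := by
    rw [ZMod.natCast_eq_zero_iff]; exact hdvd
  rw [Nat.cast_sum, Finset.sum_eq_single (0, p ^ j - 1)] at h0
  · simp at h0
  · rintro ⟨a, b⟩ hab hne
    rw [Finset.HasAntidiagonal.mem_antidiagonal] at hab
    simp only at hab
    have ha0 : a ≠ 0 := by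
      rintro rfl
      apply hne
      simp only [zero_add] at hab
      rw [hab]
    have hpd : p ∣ k.choose a := by
      by_contra hnd
      have hc : Nat.Coprime (p ^ j) (k.choose a) :=
        Nat.Coprime.pow_left _ ((hp.coprime_iff_not_dvd).2 hnd)
      obtain ⟨a', rfl⟩ := Nat.exists_eq_succ_of_ne_zero ha0
      have hk0 : k ≠ 0 := by
        rintro rfl
        rw [Nat.choose_eq_zero_of_lt (Nat.succ_pos _)] at hnd
        exact hnd (dvd_zero _)
      obtain ⟨k', rfl⟩ := Nat.exists_eq_succ_of_ne_zero hk0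
      have h1 := Nat.add_one_mul_choose_eq k' a'
      have h2 : p ^ j ∣ (k' + 1).choose (a' + 1) * (a' + 1) := by
        rw [← h1]; exact Dvd.dvd.mul_right hk _
      have h3 : p ^ j ∣ a' + 1 := hc.dvd_of_dvd_mul_left h2
      have h4 := Nat.le_of_dvd (Nat.succ_pos _) h3
      omega
    simp only [Nat.cast_mul]
    rw [(ZMod.natCast_eq_zero_iff _ _).2 hpd, zero_mul]
  · intro h
    exact absurd (Finset.HasAntidiagonal.mem_antidiagonal.2 (by simp)) h

/-- The double count. -/
theorem double_count {α : Type*} [DecidableEq α] (D : Finset α → Prop) [DecidablePred D]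
    (U : Finset α) (k : ℕ) (hk : 1 ≤ k) :
    ∑ T ∈ U.powersetCard k, (T.filter (fun x => D (T.erase x))).card =
      ∑ S ∈ (U.powersetCard (k - 1)).filter D, (U \ S).card := by
  rw [← Finset.card_sigma, ← Finset.card_sigma]
  refine Finset.card_bij' (fun a _ => ⟨a.1.erase a.2, a.2⟩) (fun b _ => ⟨insert b.2 b.1, b.2⟩)
    ?_ ?_ ?_ ?_
  · rintro ⟨T, x⟩ h
    simp only [Finset.mem_sigma, Finset.mem_powersetCard, Finset.mem_filter] at h ⊢
    obtain ⟨⟨hTU, hTc⟩, hx, hD⟩ := h
    refine ⟨⟨⟨(Finset.erase_subset _ _).trans hTU, ?_⟩, hD⟩, ?_⟩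
    · rw [Finset.card_erase_of_mem hx, hTc]
    · rw [Finset.mem_sdiff]
      exact ⟨hTU hx, Finset.notMem_erase _ _⟩
  · rintro ⟨S, x⟩ h
    simp only [Finset.mem_sigma, Finset.mem_powersetCard, Finset.mem_filter,
      Finset.mem_sdiff] at h ⊢
    obtain ⟨⟨⟨hSU, hSc⟩, hD⟩, hxU, hxS⟩ := h
    refine ⟨⟨?_, ?_⟩, Finset.mem_insert_self _ _, ?_⟩
    · exact Finset.insert_subset hxU hSU
    · rw [Finset.card_insert_of_notMem hxS, hSc]; omega
    · rw [Finset.erase_insert hxS]; exact hD
  · rintro ⟨T, x⟩ h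
    simp only [Finset.mem_sigma, Finset.mem_powersetCard, Finset.mem_filter] at h
    simp only [Sigma.mk.injEq, heq_eq_eq, and_true]
    exact Finset.insert_erase h.2.1
  · rintro ⟨S, x⟩ h
    simp only [Finset.mem_sigma, Finset.mem_powersetCard, Finset.mem_filter,
      Finset.mem_sdiff] at h
    simp only [Sigma.mk.injEq, heq_eq_eq, and_true]
    exact Finset.erase_insert h.2.2

theorem core {α : Type*} [Fintype α] [DecidableEq α] (G : Subgroup (Equiv.Perm α)) {k : ℕ}
    (hk : 2 ≤ k)
    (hG : ∀ T T' : Finset α, T.card = k → T'.card = k → ∃ g ∈ G, T.image g = T')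
    (hq : ∀ q : ℕ, IsPrimePow q → q ∣ k → k + q - 1 ≤ Fintype.card α)
    (S₀ S₁ : Finset α) (h0 : S₀.card = k - 1) (h1 : S₁.card = k - 1) :
    ∃ g ∈ G, S₀.image g = S₁ := by
  classical
  -- k < n
  have hkn : k < Fintype.card α := by
    obtain ⟨p, hp, hpk⟩ := Nat.exists_prime_and_dvd (show k ≠ 1 by omega)
    have := hq p hp.isPrimePow hpk
    have := hp.two_le
    omega
  set D : Finset α → Prop := fun S => ∃ g ∈ G, S₀.image g = S with hD
  have hDinv : ∀ g ∈ G, ∀ S, D S → D (S.image g) := by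
    rintro g hg S ⟨h, hh, rfl⟩
    refine ⟨g * h, mul_mem hg hh, ?_⟩
    rw [Finset.image_image]; rfl
  have hDinv' : ∀ g ∈ G, ∀ S, D (S.image g) → D S := by
    intro g hg S h
    have := hDinv g⁻¹ (inv_mem hg) _ h
    rw [Finset.image_image] at this
    have e : (⇑g⁻¹ ∘ ⇑g) = id := by
      funext x; simp
    rwa [e, Finset.image_id] at this
  set c : Finset α → ℕ := fun T => (T.filter (fun x => D (T.erase x))).card with hc
  have hc_inv : ∀ g ∈ G, ∀ T, c (T.image g) = c T := by
    intro g hg T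
    have e : (T.image g).filter (fun y => D ((T.image g).erase y)) =
        (T.filter (fun x => D (T.erase x))).image g := by
      ext y
      simp only [Finset.mem_filter, Finset.mem_image]
      constructor
      · rintro ⟨⟨x, hx, rfl⟩, h⟩
        refine ⟨x, ⟨hx, ?_⟩, rfl⟩
        rw [← Finset.image_erase g.injective] at h
        exact hDinv' g hg _ h
      · rintro ⟨x, ⟨hx, h⟩, rfl⟩
        refine ⟨⟨x, hx, rfl⟩, ?_⟩
        rw [← Finset.image_erase g.injective]
        exact hDinv g hg _ h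
    simp only [hc]
    rw [e, Finset.card_image_of_injective _ g.injective]
  have hc_const : ∀ T T' : Finset α, T.card = k → T'.card = k → c T = c T' := by
    intro T T' hT hT'
    obtain ⟨g, hg, rfl⟩ := hG T T' hT hT'
    exact (hc_inv g hg T).symm
  obtain ⟨T₀, -, hT₀⟩ := Finset.exists_subset_card_eq
    (s := (Finset.univ : Finset α)) (n := k) (by rw [Finset.card_univ]; omega)
  set c₀ := c T₀ with hc₀
  have hcc : ∀ T : Finset α, T.card = k → c T = c₀ := fun T hT => hc_const T T₀ hT hT₀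
  have hdiv : ∀ q : ℕ, IsPrimePow q → q ∣ k → q ∣ c₀ := by
    intro q hqp hqk
    have hle := hq q hqp hqk
    obtain ⟨U, -, hU⟩ := Finset.exists_subset_card_eq
      (s := (Finset.univ : Finset α)) (n := k + q - 1) (by rw [Finset.card_univ]; exact hle)
    have hdc := double_count D U k (by omega)
    have hL : ∑ T ∈ U.powersetCard k, (T.filter (fun x => D (T.erase x))).card
        = (k + q - 1).choose k * c₀ := by
      rw [Finset.sum_congr rfl (fun T hT => hcc T (Finset.mem_powersetCard.1 hT).2),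
        Finset.sum_const, Finset.card_powersetCard, hU, smul_eq_mul]
    have hq1 : 1 ≤ q := hqp.pos
    have hR : ∑ S ∈ (U.powersetCard (k - 1)).filter D, (U \ S).card
        = ((U.powersetCard (k - 1)).filter D).card * q := by
      rw [Finset.sum_congr rfl (g := fun _ => q), Finset.sum_const, smul_eq_mul]
      intro S hS
      rw [Finset.mem_filter, Finset.mem_powersetCard] at hS
      rw [Finset.card_sdiff_of_subset hS.1.1, hU, hS.1.2]
      omega
    rw [hL, hR] at hdc
    obtain ⟨p, j, hp, hj, rfl⟩ := hqp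
    have hp' : p.Prime := Nat.prime_iff.2 hp
    have hcop := coprime_choose hp' hqk
    exact hcop.dvd_of_dvd_mul_left (hdc ▸ Dvd.intro_left _ rfl)
  have hk_dvd : k ∣ c₀ := by
    rw [Nat.dvd_iff_prime_pow_dvd_dvd]
    intro p j hp hpj
    rcases Nat.eq_zero_or_pos j with rfl | hj
    · simp
    · exact hdiv _ ⟨p, j, Nat.prime_iff.1 hp, hj, rfl⟩ hpj
  have hc_le : c₀ ≤ k := by
    rw [← hT₀]; exact Finset.card_filter_le _ _
  have hc_pos : 0 < c₀ := by
    have hex : ∃ x, x ∉ S₀ := by
      by_contra hcon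
      push Not at hcon
      have : S₀ = Finset.univ := Finset.eq_univ_iff_forall.2 hcon
      rw [this, Finset.card_univ] at h0
      omega
    obtain ⟨x, hx⟩ := hex
    have hT : (insert x S₀).card = k := by
      rw [Finset.card_insert_of_notMem hx, h0]; omega
    rw [← hcc _ hT]
    apply Finset.card_pos.2
    refine ⟨x, Finset.mem_filter.2 ⟨Finset.mem_insert_self _ _, ?_⟩⟩
    rw [Finset.erase_insert hx]
    exact ⟨1, one_mem _, by simp⟩
  have hck : c₀ = k := le_antisymm hc_le (Nat.le_of_dvd hc_pos hk_dvd)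
  have hex : ∃ y, y ∉ S₁ := by
    by_contra hcon
    push Not at hcon
    have : S₁ = Finset.univ := Finset.eq_univ_iff_forall.2 hcon
    rw [this, Finset.card_univ] at h1
    omega
  obtain ⟨y, hy⟩ := hex
  have hT : (insert y S₁).card = k := by
    rw [Finset.card_insert_of_notMem hy, h1]; omega
  have h2 : c (insert y S₁) = (insert y S₁).card := by rw [hcc _ hT, hck, hT]
  have h3 := Finset.filter_card_eq h2 y (Finset.mem_insert_self _ _)
  rw [Finset.erase_insert hy] at h3
  exact h3
/-- A `k`-homogeneous permutation group of degree `n`, `k ≥ 2`, with `k + q - 1 ≤ n` for every prime power `q` dividing `k`, is `(k-1)`-homogeneous. -/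
theorem result {α : Type*} [Fintype α] [DecidableEq α] (G : Subgroup (Equiv.Perm α)) {k : ℕ} (hk : 2 ≤ k) (hG : MulAction.IsPretransitive G (Set.powersetCard α k)) (hq : ∀ q : ℕ, IsPrimePow q → q ∣ k → k + q - 1 ≤ Fintype.card α) : MulAction.IsPretransitive G (Set.powersetCard α (k - 1)) := by
  have hG' : ∀ T T' : Finset α, T.card = k → T'.card = k → ∃ g ∈ G, T.image g = T' := by
    intro T T' hT hT'
    obtain ⟨g, hg⟩ := hG.exists_smul_eq (⟨T, hT⟩ : Set.powersetCard α k) ⟨T', hT'⟩
    refine ⟨g.1, g.2, ?_⟩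
    have h1 := congrArg Subtype.val hg
    have h2 := Set.powersetCard.coe_smul (g := g) (s := (⟨T, hT⟩ : Set.powersetCard α k))
    rw [Finset.smul_finset_def] at h2
    exact h2.symm.trans h1
  refine ⟨fun S S' => ?_⟩
  obtain ⟨g, hg, h⟩ := core G hk hG' hq S.1 S'.1 S.2 S'.2
  refine ⟨⟨g, hg⟩, Subtype.ext ?_⟩
  have h2 := Set.powersetCard.coe_smul (g := (⟨g, hg⟩ : G)) (s := S)
  rw [Finset.smul_finset_def] at h2
  exact h2.trans h

end Cfsg.Agent.S0736
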