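import Mathlib
import Cfsg.Statements.S0738

set_option autoImplicit false
open Cfsg

namespace Cfsg.Agent.S0738

/-- A fixed-point-free involutory endomorphism of a finite group inverts every element. -/
theorem fpf_invol {M : Type*} [Group M] [Finite M] (σ : M →* M) (h2 : ∀ m, σ (σ m) = m)
    (hf : ∀ m, σ m = m → m = 1) : ∀ m, σ m = m⁻¹ := by
  have hinj : Function.Injective (fun m : M => m⁻¹ * σ m) := by
    intro m n h
    have h' : m⁻¹ * σ m = n⁻¹ * σ n := h
    have h1 : σ (n * m⁻¹) = n * m⁻¹ := by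
      rw [map_mul, map_inv]
      have h3 : σ m = m * (n⁻¹ * σ n) := by rw [← h']; group
      rw [h3]
      group
    have h3 := hf _ h1
    have h4 : n = m := mul_inv_eq_one.1 h3
    exact h4.symm
  have hsurj : Function.Surjective (fun m : M => m⁻¹ * σ m) :=
    Finite.injective_iff_surjective.1 hinj
  intro m
  obtain ⟨n, hn⟩ := hsurj m
  have hn' : n⁻¹ * σ n = m := hn
  rw [← hn', map_mul, map_inv, h2]
  group

theorem comm_of_inv {M : Type*} [Group M] (σ : M →* M) (h : ∀ m, σ m = m⁻¹) (x y : M) :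
    x * y = y * x := by
  have h1 := h (x * y)
  rw [map_mul, h x, h y, mul_inv_rev] at h1
  have h2 : (x⁻¹ * y⁻¹)⁻¹ = (y⁻¹ * x⁻¹)⁻¹ := by rw [h1]
  rw [mul_inv_rev, mul_inv_rev, inv_inv, inv_inv] at h2
  exact h2.symm

theorem result {G Ω : Type*} [Group G] [Finite G] [MulAction G Ω] [Fintype Ω] (hZ : Cfsg.IsZassenhausGroup G Ω) {a b : Ω} (hab : a ≠ b) (hd : Fintype.card Ω - 2 ≤ 2 * Nat.card ↥(MulAction.stabilizer G a ⊓ MulAction.stabilizer G b)) (F : Subgroup G) (hFle : F ≤ MulAction.stabilizer G a) (hFn : (F.subgroupOf (MulAction.stabilizer G a)).Normal) (hreg : ∀ y z : Ω, y ≠ a → z ≠ a → ∃! u : F, (u : G) • y = z) : IsMulCommutative F ∧ ∃ p f : ℕ, p.Prime ∧ (∀ u ∈ F, u ^ p = 1) ∧ Fintype.card Ω = p ^ f + 1 := by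
  classical
  obtain ⟨hfaith, h2t, h3, hex, -⟩ := hZ
  rw [MulAction.is_two_pretransitive_iff] at h2t
  obtain ⟨H, hH⟩ : ∃ H : Subgroup G, H = MulAction.stabilizer G a ⊓ MulAction.stabilizer G b :=
    ⟨_, rfl⟩
  rw [← hH] at hd
  have hHmem : ∀ g : G, g ∈ H ↔ g • a = a ∧ g • b = b := by
    intro g
    rw [hH, Subgroup.mem_inf, MulAction.mem_stabilizer_iff, MulAction.mem_stabilizer_iff]
  have hFa : ∀ u ∈ F, u • a = a := fun u hu => MulAction.mem_stabilizer_iff.1 (hFle hu)
  have hFb : ∀ u ∈ F, u ≠ 1 → u • b ≠ b := by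
    intro u hu hu1 e
    obtain ⟨w, -, hw⟩ := hreg b b (Ne.symm hab) (Ne.symm hab)
    have h1 := hw ⟨u, hu⟩ e
    have h2 := hw 1 (one_smul _ _)
    apply hu1
    have h4 : (⟨u, hu⟩ : F) = 1 := h1.trans h2.symm
    exact congrArg Subtype.val h4
  have hFba : ∀ u ∈ F, u • b ≠ a := by
    intro u hu e
    have e' : u • b = u • a := e.trans (hFa u hu).symm
    exact hab (smul_left_cancel u e').symm
  have hnorm : ∀ h ∈ H, ∀ u ∈ F, h * u * h⁻¹ ∈ F := by
    intro h hh u hu
    have hha : h ∈ MulAction.stabilizer G a := by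
      rw [MulAction.mem_stabilizer_iff]
      exact ((hHmem h).1 hh).1
    have h1 := hFn.conj_mem ⟨u, hFle hu⟩ (Subgroup.mem_subgroupOf.2 hu) ⟨h, hha⟩
    rw [Subgroup.mem_subgroupOf] at h1
    exact h1
  have hfpf : ∀ h ∈ H, ∀ u ∈ F, u ≠ 1 → h * u = u * h → h = 1 := by
    intro h hh u hu hu1 hcomm
    obtain ⟨hha, hhb⟩ := (hHmem h).1 hh
    have h1 : h • (u • b) = u • b := by rw [smul_smul, hcomm, mul_smul, hhb]
    exact h3 h a b (u • b) hab (Ne.symm (hFb u hu hu1)) (Ne.symm (hFba u hu)) hha hhb h1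
  have hFcard : Nat.card F = Fintype.card Ω - 1 := by
    have hbij : Function.Bijective
        (fun u : F => (⟨(u : G) • b, hFba u.1 u.2⟩ : {x : Ω // x ≠ a})) := by
      constructor
      · intro u v huv
        have e : (u : G) • b = (v : G) • b := congrArg Subtype.val huv
        obtain ⟨w, -, hw⟩ := hreg b ((v : G) • b) (Ne.symm hab) (hFba v.1 v.2)
        exact (hw u e).trans (hw v rfl).symm
      · rintro ⟨x, hx⟩
        obtain ⟨w, hw, -⟩ := hreg b x (Ne.symm hab) hx
        exact ⟨w, Subtype.ext hw⟩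
    rw [Nat.card_congr (Equiv.ofBijective _ hbij), Nat.card_eq_fintype_card,
      Fintype.card_subtype_compl, Fintype.card_subtype_eq]
  -- the degree is at least three
  have hΩ3 : 3 ≤ Fintype.card Ω := by
    obtain ⟨g, hg1, a', b', ha'b', hga', hgb'⟩ := hex
    obtain ⟨c, hc⟩ : ∃ c : Ω, g • c ≠ c := by
      by_contra hcon
      push Not at hcon
      apply hg1
      apply hfaith.eq_of_smul_eq_smul
      intro x
      rw [hcon x, one_smul]
    have hca' : c ≠ a' := by
      rintro rfl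
      exact hc hga'
    have hcb' : c ≠ b' := by
      rintro rfl
      exact hc hgb'
    have h1 : ({a', b', c} : Finset Ω).card = 3 := by
      rw [Finset.card_insert_of_notMem, Finset.card_insert_of_notMem, Finset.card_singleton]
      · simpa using Ne.symm hcb'
      · simp [ha'b', Ne.symm hca']
    rw [← h1]
    exact Finset.card_le_univ _
  -- orbits
  obtain ⟨O, hO⟩ : ∃ O : G → Set G,
      ∀ x, O x = Set.range (fun h : ↥H => (h : G) * x * (h : G)⁻¹) := ⟨_, fun x => rfl⟩
  have hOmem : ∀ x y, y ∈ O x ↔ ∃ h : ↥H, (h : G) * x * (h : G)⁻¹ = y := by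
    intro x y
    rw [hO]
    rfl
  have hOcard : ∀ x ∈ F, x ≠ 1 → (O x).ncard = Nat.card H := by
    intro x hx hx1
    rw [hO, ← Nat.card_coe_set_eq]
    apply Nat.card_range_of_injective
    intro h h' e
    have e' : (h : G) * x * (h : G)⁻¹ = (h' : G) * x * (h' : G)⁻¹ := e
    have hcomm : ((h' : G)⁻¹ * (h : G)) * x = x * ((h' : G)⁻¹ * (h : G)) := by
      calc ((h' : G)⁻¹ * (h : G)) * x
          = (h' : G)⁻¹ * ((h : G) * x * (h : G)⁻¹) * (h : G) := by group
        _ = (h' : G)⁻¹ * ((h' : G) * x * (h' : G)⁻¹) * (h : G) := by rw [e']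
        _ = x * ((h' : G)⁻¹ * (h : G)) := by group
    have h1 := hfpf _ (H.mul_mem (H.inv_mem h'.2) h.2) x hx hx1 hcomm
    exact Subtype.ext (inv_mul_eq_one.1 h1).symm
  have hOsub : ∀ x ∈ F, x ≠ 1 → O x ⊆ (F : Set G) \ {1} := by
    intro x hx hx1 z hz
    obtain ⟨h, rfl⟩ := (hOmem x z).1 hz
    refine ⟨hnorm h.1 h.2 x hx, ?_⟩
    intro e
    apply hx1
    have e' : (h : G) * x * (h : G)⁻¹ = 1 := e
    calc x = (h : G)⁻¹ * ((h : G) * x * (h : G)⁻¹) * (h : G) := by group
      _ = 1 := by rw [e']; group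
  have hOsymm : ∀ x y z, z ∈ O x → z ∈ O y → y ∈ O x := by
    intro x y z hzx hzy
    obtain ⟨h, hh⟩ := (hOmem x z).1 hzx
    obtain ⟨h', hh'⟩ := (hOmem y z).1 hzy
    rw [hOmem]
    refine ⟨h'⁻¹ * h, ?_⟩
    show ((h' : G)⁻¹ * (h : G)) * x * ((h' : G)⁻¹ * (h : G))⁻¹ = y
    calc ((h' : G)⁻¹ * (h : G)) * x * ((h' : G)⁻¹ * (h : G))⁻¹
        = (h' : G)⁻¹ * ((h : G) * x * (h : G)⁻¹) * (h' : G) := by group
      _ = (h' : G)⁻¹ * ((h' : G) * y * (h' : G)⁻¹) * (h' : G) := by rw [hh, hh']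
      _ = y := by group
  have hFn1 : ((F : Set G) \ {1}).ncard = Nat.card F - 1 := by
    rw [Set.ncard_sdiff_singleton_of_mem (SetLike.mem_coe.2 F.one_mem)]
    rfl
  -- two distinct orbits fill up the group
  have hdia : ∀ x ∈ F, ∀ y ∈ F, x ≠ 1 → y ≠ 1 → y ∉ O x →
      O x ∪ O y = (F : Set G) \ {1} ∧ Nat.card F = 2 * Nat.card H + 1 := by
    intro x hx y hy hx1 hy1 hyx
    have hdisj : Disjoint (O x) (O y) := by
      rw [Set.disjoint_left]
      intro z hzx hzy
      exact hyx (hOsymm x y z hzx hzy)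
    have hsub : O x ∪ O y ⊆ (F : Set G) \ {1} :=
      Set.union_subset (hOsub x hx hx1) (hOsub y hy hy1)
    have hc1 : (O x ∪ O y).ncard = 2 * Nat.card H := by
      rw [Set.ncard_union_eq hdisj, hOcard x hx hx1, hOcard y hy hy1]
      ring
    have hle : ((F : Set G) \ {1}).ncard ≤ (O x ∪ O y).ncard := by
      rw [hc1, hFn1, hFcard]
      omega
    have heq := Set.eq_of_subset_of_ncard_le hsub hle
    refine ⟨heq, ?_⟩
    have h1 : ((F : Set G) \ {1}).ncard = (O x ∪ O y).ncard := by rw [heq]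
    rw [hc1, hFn1] at h1
    have hpos : 0 < Nat.card F := Nat.card_pos
    omega
  -- invariant subgroups are trivial or everything
  have hstar : ∀ K : Subgroup G, K ≤ F → (∀ h ∈ H, ∀ k ∈ K, h * k * h⁻¹ ∈ K) → K ≠ ⊥ →
      ∀ y ∈ F, y ∈ K := by
    intro K hKF hKinv hKbot y hy
    by_contra hyK
    obtain ⟨x, hxK, hx1⟩ : ∃ x ∈ K, x ≠ 1 := by
      by_contra hcon
      push Not at hcon
      exact hKbot ((Subgroup.eq_bot_iff_forall K).2 hcon)
    have hy1 : y ≠ 1 := by
      rintro rfl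
      exact hyK K.one_mem
    have hOxK : O x ⊆ (K : Set G) := by
      intro z hz
      obtain ⟨h, rfl⟩ := (hOmem x z).1 hz
      exact hKinv h.1 h.2 x hxK
    have hyx : y ∉ O x := fun h => hyK (hOxK h)
    obtain ⟨heq, hn⟩ := hdia x (hKF hxK) y hy hx1 hy1 hyx
    have hK1 : (K : Set G) \ {1} = O x := by
      apply Set.Subset.antisymm
      · rintro k ⟨hkK, hk1⟩
        have hkF : k ∈ (F : Set G) \ {1} := ⟨hKF hkK, hk1⟩
        rw [← heq] at hkF
        rcases hkF with h | h
        · exact h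
        · exfalso
          obtain ⟨h', hh'⟩ := (hOmem y k).1 h
          apply hyK
          have h5 : y = (h' : G)⁻¹ * k * ((h' : G)⁻¹)⁻¹ := by
            rw [← hh']
            group
          rw [h5]
          exact hKinv _ (H.inv_mem h'.2) k hkK
      · intro z hz
        exact ⟨hOxK hz, (hOsub x (hKF hxK) hx1 hz).2⟩
    have hKc : Nat.card K = Nat.card H + 1 := by
      have h1 : ((K : Set G) \ {1}).ncard = Nat.card K - 1 := by
        rw [Set.ncard_sdiff_singleton_of_mem (SetLike.mem_coe.2 K.one_mem)]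
        rfl
      rw [hK1, hOcard x (hKF hxK) hx1] at h1
      have hpos : 0 < Nat.card K := Nat.card_pos
      omega
    have hdvd : Nat.card K ∣ Nat.card F := Subgroup.card_dvd_of_le hKF
    rw [hKc, hn] at hdvd
    have hdpos : 0 < Nat.card H := Nat.card_pos
    obtain ⟨e, he⟩ := hdvd
    rcases e with _ | _ | e
    · omega
    · omega
    · nlinarith
  -- an element of prime order
  have hFc2 : 2 ≤ Nat.card F := by omega
  obtain ⟨p, hp, hpdvd⟩ := Nat.exists_prime_and_dvd (show Nat.card F ≠ 1 by omega)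
  have hpF : Fact p.Prime := ⟨hp⟩
  obtain ⟨x', hx'⟩ := exists_prime_orderOf_dvd_card' (G := ↥F) p hpdvd
  obtain ⟨x, hxdef⟩ : ∃ x : G, x = (x' : G) := ⟨_, rfl⟩
  have hxF : x ∈ F := by rw [hxdef]; exact x'.2
  have hxord : orderOf x = p := by rw [hxdef, Subgroup.orderOf_coe, hx']
  have hxp : x ^ p = 1 := by rw [← hxord]; exact pow_orderOf_eq_one x
  have hx1 : x ≠ 1 := by
    rintro rfl
    rw [orderOf_one] at hxord
    exact hp.one_lt.ne hxord
  -- exponent p
  have hexp : ∀ y ∈ F, y ^ p = 1 := by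
    intro y hy
    by_contra hyp
    have hy1 : y ≠ 1 := by
      rintro rfl
      exact hyp (one_pow p)
    have hyx : y ∉ O x := by
      intro h
      obtain ⟨h', rfl⟩ := (hOmem x y).1 h
      apply hyp
      rw [conj_pow, hxp, mul_one, mul_inv_cancel]
    obtain ⟨heq, hn⟩ := hdia x hxF y hy hx1 hy1 hyx
    rcases Nat.even_or_odd (Nat.card H) with hev | hodd
    · -- an involution of H inverts F
      have hp2 : Fact (Nat.Prime 2) := ⟨Nat.prime_two⟩
      obtain ⟨j', hj'⟩ := exists_prime_orderOf_dvd_card' (G := ↥H) 2 (even_iff_two_dvd.1 hev)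
      obtain ⟨j, hjdef⟩ : ∃ j : G, j = (j' : G) := ⟨_, rfl⟩
      have hjH : j ∈ H := by rw [hjdef]; exact j'.2
      have hj2 : j * j = 1 := by
        have h1 := pow_orderOf_eq_one j'
        rw [hj', pow_two] at h1
        rw [hjdef]
        exact congrArg Subtype.val h1
      have hj1 : j ≠ 1 := by
        intro h
        have h1 : j' = 1 := Subtype.ext (by rw [← hjdef, h]; rfl)
        rw [h1, orderOf_one] at hj'
        omega
      have hjinv : j⁻¹ = j := inv_eq_of_mul_eq_one_left hj2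
      obtain ⟨σ, hσ⟩ : ∃ σ : ↥F →* ↥F, ∀ u : ↥F, ((σ u : ↥F) : G) = j * (u : G) * j⁻¹ :=
        ⟨{ toFun := fun u => ⟨j * (u : G) * j⁻¹, hnorm j hjH u.1 u.2⟩
           map_one' := by
             apply Subtype.ext
             show j * 1 * j⁻¹ = 1
             group
           map_mul' := by
             intro u v
             apply Subtype.ext
             show j * ((u : G) * (v : G)) * j⁻¹ = (j * (u : G) * j⁻¹) * (j * (v : G) * j⁻¹)
             group }, fun u => rfl⟩
      have hinv := fpf_invol σ (by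
        intro m
        apply Subtype.ext
        rw [hσ, hσ, hjinv]
        calc j * (j * (m : G) * j) * j = (j * j) * (m : G) * (j * j) := by group
          _ = (m : G) := by rw [hj2, one_mul, mul_one]) (by
        intro m hm
        have hm' : j * (m : G) * j⁻¹ = (m : G) := by rw [← hσ, hm]
        by_contra hne
        have hcomm : j * (m : G) = (m : G) * j := by
          calc j * (m : G) = (j * (m : G) * j⁻¹) * j := by group
            _ = (m : G) * j := by rw [hm']
        exact hj1 (hfpf j hjH m.1 m.2 (fun h => hne (Subtype.ext h)) hcomm))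
      have hcomm : ∀ u ∈ F, ∀ v ∈ F, u * v = v * u := by
        intro u hu v hv
        exact congrArg Subtype.val (comm_of_inv σ hinv ⟨u, hu⟩ ⟨v, hv⟩)
      obtain ⟨K, hK⟩ : ∃ K : Subgroup G, ∀ u, u ∈ K ↔ u ∈ F ∧ u ^ p = 1 :=
        ⟨{ carrier := {u | u ∈ F ∧ u ^ p = 1}
           mul_mem' := by
             intro u v hu hv
             refine ⟨F.mul_mem hu.1 hv.1, ?_⟩
             rw [(show Commute u v from hcomm u hu.1 v hv.1).mul_pow, hu.2, hv.2, mul_one]
           one_mem' := ⟨F.one_mem, one_pow p⟩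
           inv_mem' := by
             intro u hu
             exact ⟨F.inv_mem hu.1, by rw [inv_pow, hu.2, inv_one]⟩ }, fun u => Iff.rfl⟩
      have hyK := hstar K (fun u hu => ((hK u).1 hu).1) (by
        intro h hh k hk
        rw [hK] at hk ⊢
        exact ⟨hnorm h hh k hk.1, by rw [conj_pow, hk.2, mul_one, mul_inv_cancel]⟩) (by
        intro hbot
        have h1 : x ∈ K := (hK x).2 ⟨hxF, hxp⟩
        rw [hbot, Subgroup.mem_bot] at h1
        exact hx1 h1) y hy
      exact hyp ((hK y).1 hyK).2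
    · -- d odd
      have hxinv : x⁻¹ ∈ (F : Set G) \ {1} := by
        refine ⟨F.inv_mem hxF, ?_⟩
        intro e
        apply hx1
        have e' : x⁻¹ = 1 := e
        rw [← inv_inv x, e', inv_one]
      rw [← heq] at hxinv
      rcases hxinv with h | h
      · obtain ⟨g₀, hg₀⟩ := (hOmem x x⁻¹).1 h
        have e1 : (g₀ : G) * x * (g₀ : G)⁻¹ = x⁻¹ := hg₀
        have e2 : (g₀ : G) * x⁻¹ * (g₀ : G)⁻¹ = x := by
          rw [← conj_inv, e1, inv_inv]
        have h1 : ((g₀ : G) * (g₀ : G)) * x = x * ((g₀ : G) * (g₀ : G)) := by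
          calc ((g₀ : G) * (g₀ : G)) * x
              = (g₀ : G) * ((g₀ : G) * x * (g₀ : G)⁻¹) * (g₀ : G)⁻¹ * ((g₀ : G) * (g₀ : G)) := by
                group
            _ = (g₀ : G) * x⁻¹ * (g₀ : G)⁻¹ * ((g₀ : G) * (g₀ : G)) := by rw [e1]
            _ = x * ((g₀ : G) * (g₀ : G)) := by rw [e2]
        have h2 := hfpf _ (H.mul_mem g₀.2 g₀.2) x hxF hx1 h1
        by_cases hg1 : (g₀ : G) = 1
        · rw [hg1] at e1
          have e3 : x = x⁻¹ := by
            calc x = 1 * x * 1⁻¹ := by group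
              _ = x⁻¹ := e1
          have e4 : x ^ 2 = 1 := by
            rw [pow_two]
            nth_rewrite 2 [e3]
            exact mul_inv_cancel x
          have h5 : p ∣ 2 := by
            rw [← hxord]
            exact orderOf_dvd_of_pow_eq_one e4
          have h6 : p = 2 := (Nat.prime_dvd_prime_iff_eq hp Nat.prime_two).1 h5
          rw [h6, hn] at hpdvd
          omega
        · have h5 : orderOf g₀ = 2 := by
            apply orderOf_eq_prime
            · apply Subtype.ext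
              rw [pow_two]
              exact h2
            · intro e
              exact hg1 (congrArg Subtype.val e)
          have h6 : 2 ∣ Nat.card H := by
            rw [← h5]
            exact orderOf_dvd_natCard g₀
          exact (Nat.not_even_iff_odd.2 hodd) (even_iff_two_dvd.2 h6)
      · obtain ⟨h', hh'⟩ := (hOmem y x⁻¹).1 h
        apply hyp
        have h5 : y = (h' : G)⁻¹ * x⁻¹ * ((h' : G)⁻¹)⁻¹ := by
          rw [← hh']
          group
        rw [h5, conj_pow, inv_pow, hxp, inv_one, mul_one, mul_inv_cancel]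
  -- the centre
  have hPG : IsPGroup p ↥F := by
    intro u
    exact ⟨1, by rw [pow_one]; exact Subtype.ext (hexp u.1 u.2)⟩
  have hnt : Nontrivial ↥F := ⟨⟨⟨x, hxF⟩, 1, fun e => hx1 (congrArg Subtype.val e)⟩⟩
  have hZn := hPG.center_nontrivial
  obtain ⟨z, hz1⟩ := exists_ne (1 : Subgroup.center ↥F)
  obtain ⟨Z, hZmem⟩ : ∃ Z : Subgroup G, ∀ u, u ∈ Z ↔ u ∈ F ∧ ∀ v ∈ F, v * u = u * v :=
    ⟨{ carrier := {u | u ∈ F ∧ ∀ v ∈ F, v * u = u * v}
       mul_mem' := by
         intro u w hu hw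
         refine ⟨F.mul_mem hu.1 hw.1, ?_⟩
         intro v hv
         calc v * (u * w) = (v * u) * w := by group
           _ = (u * v) * w := by rw [hu.2 v hv]
           _ = u * (v * w) := by group
           _ = u * (w * v) := by rw [hw.2 v hv]
           _ = u * w * v := by group
       one_mem' := ⟨F.one_mem, fun v _ => by rw [mul_one, one_mul]⟩
       inv_mem' := by
         intro u hu
         refine ⟨F.inv_mem hu.1, ?_⟩
         intro v hv
         calc v * u⁻¹ = u⁻¹ * (u * v) * u⁻¹ := by group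
           _ = u⁻¹ * (v * u) * u⁻¹ := by rw [hu.2 v hv]
           _ = u⁻¹ * v := by group }, fun u => Iff.rfl⟩
  have hZall := hstar Z (fun u hu => ((hZmem u).1 hu).1) (by
    intro h hh k hk
    rw [hZmem] at hk ⊢
    refine ⟨hnorm h hh k hk.1, ?_⟩
    intro v hv
    have hv' : h⁻¹ * v * (h⁻¹)⁻¹ ∈ F := hnorm h⁻¹ (H.inv_mem hh) v hv
    calc v * (h * k * h⁻¹) = h * ((h⁻¹ * v * (h⁻¹)⁻¹) * k) * h⁻¹ := by group
      _ = h * (k * (h⁻¹ * v * (h⁻¹)⁻¹)) * h⁻¹ := by rw [hk.2 _ hv']
      _ = (h * k * h⁻¹) * v := by group) (by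
    intro hbot
    have h1 : ((z : ↥F) : G) ∈ Z := by
      rw [hZmem]
      refine ⟨(z : ↥F).2, ?_⟩
      intro v hv
      have h2 := Subgroup.mem_center_iff.1 z.2 ⟨v, hv⟩
      exact congrArg Subtype.val h2
    rw [hbot, Subgroup.mem_bot] at h1
    apply hz1
    apply Subtype.ext
    apply Subtype.ext
    exact h1)
  have hcommF : ∀ u ∈ F, ∀ v ∈ F, u * v = v * u := by
    intro u hu v hv
    exact ((hZmem v).1 (hZall v hv)).2 u hu
  obtain ⟨f, hf⟩ := IsPGroup.iff_card.1 hPG
  refine ⟨⟨⟨fun u v => Subtype.ext (hcommF u.1 u.2 v.1 v.2)⟩⟩, p, f, hp, hexp, ?_⟩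
  rw [← hf, hFcard]
  omega

end Cfsg.Agent.S0738
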