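import Mathlib
import Cfsg.Statements.S0740

set_option autoImplicit false
open Cfsg

namespace Cfsg.Agent.S0740

section aux

variable {G Ω : Type*} [Group G] [MulAction G Ω]

theorem fix_le_two [Finite Ω]
    (h3 : ∀ g : G, ∀ a b c : Ω, a ≠ b → b ≠ c → a ≠ c → g • a = a → g • b = b → g • c = c → g = 1)
    (u : G) (hu : u ≠ 1) : Nat.card (MulAction.fixedBy Ω u) ≤ 2 := by
  by_contra hcon
  push Not at hcon
  rw [Nat.card_coe_set_eq, Set.two_lt_ncard_iff] at hcon
  obtain ⟨a, b, c, ha, hb, hc, hab, hac, hbc⟩ := hcon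
  exact hu (h3 u a b c hab hbc hac ha hb hc)

theorem fix_parity [Fintype Ω] (u : G) (hu : u * u = 1) :
    Nat.card (MulAction.fixedBy Ω u) % 2 = Fintype.card Ω % 2 := by
  classical
  obtain ⟨f, hf⟩ : ∃ f : Function.End Ω, ∀ x, f x = u • x := ⟨fun x => u • x, fun x => rfl⟩
  have hf2 : f ^ 2 ^ 1 = 1 := by
    rw [pow_one, pow_two]
    funext x
    show f (f x) = x
    rw [hf, hf, smul_smul, hu, one_smul]
  have h1 := Equiv.Perm.card_fixedPoints_modEq (p := 2) (n := 1) hf2
  have h2 : Nat.card (MulAction.fixedBy Ω u) = Fintype.card (Function.fixedPoints f) := by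
    rw [← Nat.card_eq_fintype_card]
    apply Nat.card_congr
    apply Equiv.subtypeEquivRight
    intro x
    show u • x = x ↔ f x = x
    rw [hf]
  rw [h2]
  exact h1.symm

theorem card_fix_conj [Fintype Ω] (h t : G) :
    Nat.card (MulAction.fixedBy Ω (h * t * h⁻¹)) = Nat.card (MulAction.fixedBy Ω t) := by
  apply Nat.card_congr
  refine ⟨fun x => ⟨h⁻¹ • x.1, ?_⟩, fun x => ⟨h • x.1, ?_⟩, ?_, ?_⟩
  · have hx : (h * t * h⁻¹) • x.1 = x.1 := x.2
    show t • h⁻¹ • x.1 = h⁻¹ • x.1
    have h1 := congrArg (fun y => h⁻¹ • y) hx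
    simp only [smul_smul] at h1
    rw [smul_smul, ← h1]
    congr 1
    group
  · have hx : t • x.1 = x.1 := x.2
    show (h * t * h⁻¹) • h • x.1 = h • x.1
    rw [smul_smul, mul_assoc, mul_assoc, inv_mul_cancel, mul_one, ← smul_smul, hx]
  · intro x
    apply Subtype.ext
    show h • h⁻¹ • x.1 = x.1
    rw [smul_smul, mul_inv_cancel, one_smul]
  · intro x
    apply Subtype.ext
    show h⁻¹ • h • x.1 = x.1
    rw [smul_smul, inv_mul_cancel, one_smul]

end aux

theorem result {G Ω : Type*} [Group G] [Finite G] [MulAction G Ω] [Fintype Ω] (hZ : Cfsg.IsZassenhausGroup G Ω) {a b : Ω} (hab : a ≠ b) : (∃ s : G, orderOf s = 2 ∧ s • a = b ∧ s • b = a) ∧ (∀ s : G, orderOf s = 2 → s • a = b → s • b = a → (Odd (Fintype.card Ω) → Nat.card (MulAction.fixedBy Ω s) = 1) ∧ (Even (Fintype.card Ω) → Nat.card (MulAction.fixedBy Ω s) = 0 ∨ Nat.card (MulAction.fixedBy Ω s) = 2)) ∧ (Even (Fintype.card Ω) → Even (Nat.card ↥(MulAction.stabilizer G a ⊓ MulAction.stabilizer G b)) → ∃ s : G,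 orderOf s = 2 ∧ s • a = b ∧ s • b = a ∧ Nat.card (MulAction.fixedBy Ω s) = 2) := by
  classical
  obtain ⟨hfaith, h2t, h3, -, -⟩ := hZ
  rw [MulAction.is_two_pretransitive_iff] at h2t
  -- conjugating an involution onto (a, b)
  have hconj : ∀ t : G, orderOf t = 2 → ∃ s : G, orderOf s = 2 ∧ s • a = b ∧ s • b = a ∧
      Nat.card (MulAction.fixedBy Ω s) = Nat.card (MulAction.fixedBy Ω t) := by
    intro t ht
    have ht1 : t ≠ 1 := by
      rintro rfl
      rw [orderOf_one] at ht
      omega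
    have htt : t * t = 1 := by
      have := pow_orderOf_eq_one t
      rwa [ht, pow_two] at this
    obtain ⟨c, hc⟩ : ∃ c : Ω, t • c ≠ c := by
      by_contra hcon
      push Not at hcon
      apply ht1
      apply hfaith.eq_of_smul_eq_smul
      intro x
      rw [hcon x, one_smul]
    obtain ⟨h, hh1, hh2⟩ := h2t (Ne.symm hc) hab
    refine ⟨h * t * h⁻¹, ?_, ?_, ?_, card_fix_conj h t⟩
    · rw [← ht]
      have := (MulAut.conj h).orderOf_eq t
      rw [MulAut.conj_apply] at this
      exact this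
    · rw [← hh1, smul_smul, mul_assoc, mul_assoc, inv_mul_cancel, mul_one, ← smul_smul, hh2]
    · rw [← hh2, smul_smul, mul_assoc, mul_assoc, inv_mul_cancel, mul_one, ← smul_smul,
        smul_smul t t, htt, one_smul, hh1]
  have hfix : ∀ s : G, orderOf s = 2 →
      Nat.card (MulAction.fixedBy Ω s) ≤ 2 ∧
      Nat.card (MulAction.fixedBy Ω s) % 2 = Fintype.card Ω % 2 := by
    intro s hs
    have hs1 : s ≠ 1 := by
      rintro rfl
      rw [orderOf_one] at hs
      omega
    have hss : s * s = 1 := by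
      have := pow_orderOf_eq_one s
      rwa [hs, pow_two] at this
    exact ⟨fix_le_two h3 s hs1, fix_parity s hss⟩
  refine ⟨?_, ?_, ?_⟩
  · obtain ⟨g, hg1, hg2⟩ := h2t hab (Ne.symm hab)
    have heven : 2 ∣ orderOf g := by
      by_contra hodd
      have hodd' : Odd (orderOf g) := by
        rw [← Nat.not_even_iff_odd, even_iff_two_dvd]
        exact hodd
      obtain ⟨k, hk⟩ := hodd'
      have h1 : g ^ (2 * k + 1) = 1 := by rw [← hk]; exact pow_orderOf_eq_one g
      have h4 : (g * g) ∈ MulAction.stabilizer G a := by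
        rw [MulAction.mem_stabilizer_iff, ← smul_smul, hg1, hg2]
      have h5 : (g * g) ^ k ∈ MulAction.stabilizer G a := pow_mem h4 k
      have h6 : g ^ (2 * k + 1) • a = b := by
        rw [pow_succ', pow_mul, pow_two, ← smul_smul]
        rw [MulAction.mem_stabilizer_iff] at h5
        rw [h5, hg1]
      rw [h1, one_smul] at h6
      exact hab h6
    have h2G : 2 ∣ Nat.card G := dvd_trans heven (orderOf_dvd_natCard g)
    obtain ⟨t, ht⟩ := exists_prime_orderOf_dvd_card' 2 h2G
    obtain ⟨s, hs1, hs2, hs3, -⟩ := hconj t ht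
    exact ⟨s, hs1, hs2, hs3⟩
  · intro s hs _ _
    obtain ⟨h1, h2⟩ := hfix s hs
    constructor
    · intro hodd
      obtain ⟨k, hk⟩ := hodd
      omega
    · intro hev
      obtain ⟨k, hk⟩ := hev
      omega
  · intro hev hst
    obtain ⟨t', ht'⟩ := exists_prime_orderOf_dvd_card' (G := ↥(MulAction.stabilizer G a ⊓
      MulAction.stabilizer G b)) 2 (even_iff_two_dvd.mp hst)
    have ht : orderOf (t' : G) = 2 := by rw [Subgroup.orderOf_coe, ht']
    obtain ⟨s, hs1, hs2, hs3, hs4⟩ := hconj (t' : G) ht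
    refine ⟨s, hs1, hs2, hs3, ?_⟩
    rw [hs4]
    obtain ⟨h1, h2⟩ := hfix (t' : G) ht
    have hmem := t'.2
    rw [Subgroup.mem_inf, MulAction.mem_stabilizer_iff, MulAction.mem_stabilizer_iff] at hmem
    have h3' : 2 ≤ Nat.card (MulAction.fixedBy Ω (t' : G)) := by
      rw [Nat.card_coe_set_eq]
      have hsub : ({a, b} : Set Ω) ⊆ MulAction.fixedBy Ω (t' : G) := by
        intro x hx
        rcases hx with rfl | rfl
        · exact hmem.1
        · exact hmem.2
      calc 2 = ({a, b} : Set Ω).ncard := (Set.ncard_pair hab).symm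
        _ ≤ (MulAction.fixedBy Ω (t' : G)).ncard := Set.ncard_le_ncard hsub
    omega

end Cfsg.Agent.S0740
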