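import Mathlib
import Cfsg.Statements.S0739
import Cfsg.Agent.S0740
import Cfsg.Agent.S0728
import Cfsg.Agent.S0041
import Cfsg.Agent.Lib.Helper4.Zas1
import Cfsg.Agent.Lib.Lead.FrobComplement

set_option autoImplicit false

open Cfsg

namespace Cfsg.Agent.S0739

open Cfsg.Agent.Lib.Lead

section Core

variable {G : Type*} [Group G]

theorem twist {t : G} (ht : t * t = 1) (g : G) :
    t * (g⁻¹ * (t * g * t⁻¹)) * t⁻¹ = (g⁻¹ * (t * g * t⁻¹))⁻¹ := by
  have hti : t⁻¹ = t := inv_eq_of_mul_eq_one_left ht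
  rw [hti]
  simp only [mul_inv_rev, inv_inv, mul_assoc, hti, ht, mul_one]

/-- An element of odd order whose square lies in a subgroup lies in it. -/
theorem mem_of_sq_mem (H : Subgroup G) {g : G} (hodd : Odd (orderOf g)) (h : g * g ∈ H) :
    g ∈ H := by
  obtain ⟨m, hm⟩ := hodd
  have h1 : g = (g * g) ^ (m + 1) := by
    rw [← pow_two, ← pow_mul]
    have h2 : 2 * (m + 1) = orderOf g + 1 := by omega
    rw [h2, pow_succ, pow_orderOf_eq_one, one_mul]
  rw [h1]
  exact H.pow_mem h _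

theorem odd_orderOf_of_pgroup [Finite G] {q : ℕ} [Fact q.Prime] (hq : Odd q) (P : Subgroup G)
    (hP : IsPGroup q P) {g : G} (hg : g ∈ P) : Odd (orderOf g) := by
  obtain ⟨k, hk⟩ := (IsPGroup.iff_orderOf.1 hP) ⟨g, hg⟩
  rw [Subgroup.orderOf_mk] at hk
  rw [hk]
  exact hq.pow

theorem sylow_le [Finite G] (H : Subgroup G) {t : G} (ht : t * t = 1)
    (htH : ∀ h ∈ H, t * h * t⁻¹ ∈ H)
    (hN : ∀ g : G, (∃ x ∈ H, x ≠ 1 ∧ g * x * g⁻¹ ∈ H) → g ∈ H ∨ t * g ∈ H)
    {q : ℕ} [Fact q.Prime] (hq : Odd q) (P : Subgroup G) (hP : IsPGroup q P) {x : G}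
    (hxP : x ∈ P) (hxH : x ∈ H) (hx1 : x ≠ 1) : P ≤ H := by
  have hti : t⁻¹ = t := inv_eq_of_mul_eq_one_left ht
  -- an element normalising a nonidentity element of H into H lies in H when of odd order
  have key : ∀ g ∈ P, (∃ y ∈ H, y ≠ 1 ∧ g * y * g⁻¹ ∈ H) → g ∈ H := by
    intro g hg hy
    apply mem_of_sq_mem H (odd_orderOf_of_pgroup hq P hP hg)
    rcases hN g hy with h | h
    · exact H.mul_mem h h
    · have h1 : g * g = (t * (t * g) * t⁻¹) * (t * g) := by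
        rw [hti]
        have h2 : ∀ z : G, t * (t * z) = z := fun z => by rw [← mul_assoc, ht, one_mul]
        simp only [mul_assoc, h2]
      rw [h1]
      exact H.mul_mem (htH _ h) h
  have hnt : Nontrivial P := ⟨⟨⟨x, hxP⟩, 1, fun h => hx1 (congrArg Subtype.val h)⟩⟩
  have hcen := hP.center_nontrivial
  obtain ⟨z', hz'⟩ := exists_ne (1 : Subgroup.center P)
  set z : G := ((z' : P) : G) with hz
  have hzP : z ∈ P := (z' : P).2
  have hz1 : z ≠ 1 := by
    intro h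
    apply hz'
    apply Subtype.ext
    apply Subtype.ext
    exact h
  have hzc : ∀ g ∈ P, g * z = z * g := by
    intro g hg
    have h1 := (Subgroup.mem_center_iff.1 z'.2) ⟨g, hg⟩
    exact congrArg Subtype.val h1
  have hzH : z ∈ H := by
    apply key z hzP
    refine ⟨x, hxH, hx1, ?_⟩
    rw [← hzc x hxP, mul_inv_cancel_right]
    exact hxH
  intro g hg
  apply key g hg
  refine ⟨z, hzH, hz1, ?_⟩
  rw [hzc g hg, mul_inv_cancel_right]
  exact hzH

theorem invol_cent [Finite G] {q : ℕ} [Fact q.Prime] (hq2 : q ≠ 2) (Q : Subgroup G)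
    (hQ : IsPGroup q Q) (hU : UniqP q Q) {t : G} (ht : t * t = 1)
    (htQ : ∀ g ∈ Q, t * g * t⁻¹ ∈ Q) {x : G} (hxQ : x ∈ Q) (hxo : orderOf x = q)
    (hxt : t * x = x * t) : ∀ g ∈ Q, t * g = g * t := by
  have hqp : q.Prime := Fact.out
  intro g hg
  by_contra hne
  set y := g⁻¹ * (t * g * t⁻¹) with hy
  have hyQ : y ∈ Q := Q.mul_mem (Q.inv_mem hg) (htQ g hg)
  have hty : t * y * t⁻¹ = y⁻¹ := twist ht g
  have hy1 : y ≠ 1 := by
    intro h
    apply hne
    have h1 : t * g * t⁻¹ = g := by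
      have h2 : g * y = g * 1 := by rw [h]
      rw [hy, mul_inv_cancel_left, mul_one] at h2
      exact h2
    calc t * g = t * g * t⁻¹ * t := by group
      _ = g * t := by rw [h1]
  obtain ⟨k, hk⟩ := (IsPGroup.iff_orderOf.1 hQ) ⟨y, hyQ⟩
  rw [Subgroup.orderOf_mk] at hk
  have hk0 : k ≠ 0 := by
    rintro rfl
    rw [pow_zero, orderOf_eq_one_iff] at hk
    exact hy1 hk
  obtain ⟨k', rfl⟩ : ∃ k', k = k' + 1 := ⟨k - 1, by omega⟩
  set y₁ := y ^ (q ^ k') with hy₁
  have hy₁q : y₁ ^ q = 1 := by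
    rw [hy₁, ← pow_mul, ← pow_succ, ← hk, pow_orderOf_eq_one]
  have hy₁1 : y₁ ≠ 1 := by
    intro h
    have h1 := orderOf_dvd_of_pow_eq_one h
    rw [hk] at h1
    have h2 := Nat.le_of_dvd (pow_pos hqp.pos _) h1
    have h3 : q ^ k' < q ^ (k' + 1) := Nat.pow_lt_pow_right hqp.one_lt (by omega)
    omega
  have hy₁Q : y₁ ∈ Q := Q.pow_mem hyQ _
  have h1 := hU ⟨y₁, hy₁Q⟩ ⟨x, hxQ⟩ (Subtype.ext hy₁q)
    (Subtype.ext (by rw [← hxo]; exact pow_orderOf_eq_one x))
    (fun h => hy₁1 (congrArg Subtype.val h))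
  obtain ⟨i, hi⟩ := Subgroup.mem_zpowers_iff.1 h1
  have hi' : y₁ ^ i = x := by
    have := congrArg Subtype.val hi
    simpa using this
  have hconj : t * x * t⁻¹ = x⁻¹ := by
    have e1 : t * y₁ * t⁻¹ = y₁⁻¹ := by
      rw [hy₁, ← inv_pow, ← hty, conj_pow]
    rw [← hi', ← inv_zpow, ← e1, conj_zpow]
  have hxx : x = x⁻¹ := by
    rw [← hconj, hxt, mul_inv_cancel_right]
  have hx2 : x ^ 2 = 1 := by
    rw [pow_two]
    nth_rewrite 1 [hxx]
    exact inv_mul_cancel x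
  have h2 := orderOf_dvd_of_pow_eq_one hx2
  rw [hxo] at h2
  exact hq2 ((Nat.prime_dvd_prime_iff_eq hqp Nat.prime_two).1 h2)

end Core

section Core2

open scoped Pointwise

variable {G : Type*} [Group G]

theorem exists_invariant_sylow [Finite G] (D : Subgroup G) (hodd : Odd (Nat.card D)) {t : G}
    (ht : t * t = 1) (htD : ∀ d ∈ D, t * d * t⁻¹ ∈ D) (q : ℕ) [Fact q.Prime] :
    ∃ Q' : Sylow q D, ∀ y : D, y ∈ Q' → (⟨t * y * t⁻¹, htD y y.2⟩ : D) ∈ Q' := by
  classical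
  have hti : t⁻¹ = t := inv_eq_of_mul_eq_one_left ht
  have hinv : ∀ d : G, t * (t * d * t⁻¹) * t⁻¹ = d := by
    intro d
    rw [hti]
    have h2 : ∀ z : G, t * (t * z) = z := fun z => by rw [← mul_assoc, ht, one_mul]
    simp only [mul_assoc, h2, ht, mul_one]
  let τ : MulAut D :=
    { toFun := fun d => ⟨t * d * t⁻¹, htD d d.2⟩
      invFun := fun d => ⟨t * d * t⁻¹, htD d d.2⟩
      left_inv := fun d => Subtype.ext (hinv d)
      right_inv := fun d => Subtype.ext (hinv d)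
      map_mul' := fun d e => Subtype.ext (by
        show t * (d * e) * t⁻¹ = (t * d * t⁻¹) * (t * e * t⁻¹)
        group) }
  have hτ2 : τ * τ = 1 := by
    apply MulEquiv.ext
    intro d
    exact Subtype.ext (hinv d)
  have hp2 : Fact (Nat.Prime 2) := ⟨Nat.prime_two⟩
  let Z : Subgroup (MulAut D) := Subgroup.zpowers τ
  have hZ : IsPGroup 2 Z := by
    intro z
    refine ⟨1, ?_⟩
    obtain ⟨i, hi⟩ := Subgroup.mem_zpowers_iff.1 z.2
    apply Subtype.ext
    rw [pow_one]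
    show ((z : MulAut D)) ^ 2 = 1
    rw [← hi, ← zpow_natCast, ← zpow_mul, mul_comm, zpow_mul, zpow_natCast, pow_two, hτ2,
      one_zpow]
  have hcard := hZ.card_modEq_card_fixedPoints (Sylow q D)
  have hoddS : Odd (Nat.card (Sylow q D)) := by
    obtain ⟨P⟩ : Nonempty (Sylow q D) := inferInstance
    have h1 : Nat.card (Sylow q D) ∣ Nat.card D :=
      (P.card_dvd_index).trans (Subgroup.index_dvd_card _)
    exact Odd.of_dvd_nat hodd h1
  have hne : Nonempty (MulAction.fixedPoints Z (Sylow q D)) := by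
    by_contra hemp
    rw [not_nonempty_iff] at hemp
    have h0 : Nat.card (MulAction.fixedPoints Z (Sylow q D)) = 0 := Nat.card_of_isEmpty
    rw [h0] at hcard
    have h1 := Nat.odd_iff.1 hoddS
    have h2 : Nat.card (Sylow q D) % 2 = 0 % 2 := hcard
    omega
  obtain ⟨⟨Q', hQ'⟩⟩ := hne
  refine ⟨Q', fun y hy => ?_⟩
  have h1 : (⟨τ, Subgroup.mem_zpowers τ⟩ : Z) • Q' = Q' := hQ' _
  have h2 : (⟨τ, Subgroup.mem_zpowers τ⟩ : Z) • y
      ∈ ((⟨τ, Subgroup.mem_zpowers τ⟩ : Z) • (Q' : Subgroup D)) :=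
    Subgroup.smul_mem_pointwise_smul _ _ _ hy
  have h3 : (⟨τ, Subgroup.mem_zpowers τ⟩ : Z) • y
      ∈ (((⟨τ, Subgroup.mem_zpowers τ⟩ : Z) • Q' : Sylow q D) : Subgroup D) := by
    exact h2
  rw [h1] at h3
  exact h3

theorem core [Finite G] (H : Subgroup G) (hodd : Odd (Nat.card H)) (t : G) (ht : t * t = 1)
    (htH : ∀ h ∈ H, t * h * t⁻¹ ∈ H)
    (hU : ∀ (q : ℕ) [Fact q.Prime] (P : Subgroup G), P ≤ H → IsPGroup q P → UniqP q P)
    (hN : ∀ g : G, (∃ x ∈ H, x ≠ 1 ∧ g * x * g⁻¹ ∈ H) → g ∈ H ∨ t * g ∈ H)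
    (hnil : ∀ q : ℕ, q.Prime → q ∣ Nat.card H →
      ¬ ∃ N : Subgroup G, N.Normal ∧ N.index = q ^ (Nat.card G).factorization q) :
    ∀ h ∈ H, t * h = h * t → h = 1 := by
  classical
  have hti : t⁻¹ = t := inv_eq_of_mul_eq_one_left ht
  by_contra hcon
  push Not at hcon
  obtain ⟨h₀, hh₀H, hh₀t, hh₀1⟩ := hcon
  set C : Subgroup G := H ⊓ Subgroup.centralizer {t} with hC
  have hCmem : ∀ g, g ∈ C ↔ g ∈ H ∧ t * g = g * t := by
    intro g
    rw [hC, Subgroup.mem_inf, Subgroup.mem_centralizer_iff]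
    constructor
    · rintro ⟨h1, h2⟩; exact ⟨h1, h2 t rfl⟩
    · rintro ⟨h1, h2⟩
      exact ⟨h1, fun s hs => by rw [Set.mem_singleton_iff.1 hs]; exact h2⟩
  have hCH : C ≤ H := inf_le_left
  have hCne : Nat.card C ≠ 1 := by
    intro h1
    have h2 : (⟨h₀, (hCmem h₀).2 ⟨hh₀H, hh₀t⟩⟩ : C) = 1 := by
      have := (Nat.card_eq_one_iff_unique.1 h1).1
      exact Subsingleton.elim _ _
    exact hh₀1 (congrArg Subtype.val h2)
  set q : ℕ := (Nat.card C).minFac with hq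
  have hqp : q.Prime := Nat.minFac_prime hCne
  have hqF : Fact q.Prime := ⟨hqp⟩
  have hqC : q ∣ Nat.card C := Nat.minFac_dvd _
  have hqH : q ∣ Nat.card H := hqC.trans (Subgroup.card_dvd_of_le hCH)
  have hqodd : Odd q := Odd.of_dvd_nat hodd hqH
  have hq2 : q ≠ 2 := by
    intro h
    rw [h] at hqodd
    exact absurd hqodd (by decide)
  obtain ⟨x', hx'⟩ := exists_prime_orderOf_dvd_card' (G := C) q hqC
  obtain ⟨x, hxdef⟩ : ∃ x : G, x = (x' : G) := ⟨_, rfl⟩
  have hxC : x ∈ C := by rw [hxdef]; exact x'.2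
  have hxH : x ∈ H := hCH hxC
  have hxt : t * x = x * t := ((hCmem x).1 hxC).2
  have hxo : orderOf x = q := by rw [hxdef, Subgroup.orderOf_coe]; exact hx'
  have hx1 : x ≠ 1 := by
    intro h
    rw [h, orderOf_one] at hxo
    exact hqp.one_lt.ne hxo
  obtain ⟨Q₁, hQ₁⟩ := (IsPGroup.of_card (n := 1) (by rw [Nat.card_zpowers, hxo, pow_one]) :
    IsPGroup q (Subgroup.zpowers x)).exists_le_sylow
  have hxQ₁ : x ∈ (Q₁ : Subgroup G) := hQ₁ (Subgroup.mem_zpowers x)
  have hQ₁H : (Q₁ : Subgroup G) ≤ H :=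
    sylow_le H ht htH hN hqodd Q₁ Q₁.isPGroup' hxQ₁ hxH hx1
  have hQ₁U := hU q Q₁ hQ₁H Q₁.isPGroup'
  have hQ₁cyc : IsCyclic (Q₁ : Subgroup G) :=
    isCyclic_of_uniqP_odd q hqodd _ _ rfl Q₁.isPGroup' hQ₁U
  set D : Subgroup G := H ⊓ Subgroup.centralizer {x} with hD
  have hDmem : ∀ g, g ∈ D ↔ g ∈ H ∧ x * g = g * x := by
    intro g
    rw [hD, Subgroup.mem_inf, Subgroup.mem_centralizer_iff]
    constructor
    · rintro ⟨h1, h2⟩; exact ⟨h1, h2 x rfl⟩
    · rintro ⟨h1, h2⟩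
      exact ⟨h1, fun s hs => by rw [Set.mem_singleton_iff.1 hs]; exact h2⟩
  have hQ₁D : (Q₁ : Subgroup G) ≤ D := by
    intro g hg
    rw [hDmem]
    refine ⟨hQ₁H hg, ?_⟩
    obtain ⟨g₀, hg₀⟩ := hQ₁cyc.exists_zpow_surjective
    obtain ⟨i, hi⟩ := hg₀ ⟨x, hxQ₁⟩
    obtain ⟨j, hj⟩ := hg₀ ⟨g, hg⟩
    have h1 : (⟨x, hxQ₁⟩ : (Q₁ : Subgroup G)) * ⟨g, hg⟩ = ⟨g, hg⟩ * ⟨x, hxQ₁⟩ := by
      rw [← hi, ← hj]
      exact (Commute.zpow_zpow_self g₀ i j).eq
    exact congrArg Subtype.val h1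
  have htD : ∀ d ∈ D, t * d * t⁻¹ ∈ D := by
    intro d hd
    obtain ⟨h1, h2⟩ := (hDmem d).1 hd
    rw [hDmem]
    refine ⟨htH d h1, ?_⟩
    have e1 : x * t = t * x := hxt.symm
    rw [hti]
    calc x * (t * d * t) = (x * t) * d * t := by simp only [mul_assoc]
      _ = (t * x) * d * t := by rw [e1]
      _ = t * (x * d) * t := by simp only [mul_assoc]
      _ = t * (d * x) * t := by rw [h2]
      _ = t * d * (x * t) := by simp only [mul_assoc]
      _ = t * d * (t * x) := by rw [e1]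
      _ = t * d * t * x := by simp only [mul_assoc]
  have hDodd : Odd (Nat.card D) := Odd.of_dvd_nat hodd (Subgroup.card_dvd_of_le inf_le_left)
  obtain ⟨Q', hQ'⟩ := exists_invariant_sylow D hDodd ht htD q
  set Q : Subgroup G := (Q' : Subgroup D).map D.subtype with hQ
  have hQD : Q ≤ D := Subgroup.map_subtype_le _
  have hQH : Q ≤ H := hQD.trans inf_le_left
  have hQmem : ∀ g, g ∈ Q ↔ ∃ hg : g ∈ D, (⟨g, hg⟩ : D) ∈ Q' := by
    intro g; constructor
    · rintro ⟨y, hy, rfl⟩; exact ⟨y.2, hy⟩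
    · rintro ⟨hg, h⟩; exact ⟨⟨g, hg⟩, h, rfl⟩
  have htQ : ∀ g ∈ Q, t * g * t⁻¹ ∈ Q := by
    intro g hg
    obtain ⟨hgD, hgQ'⟩ := (hQmem g).1 hg
    exact (hQmem _).2 ⟨htD g hgD, hQ' ⟨g, hgD⟩ hgQ'⟩
  have hxD : x ∈ D := (hDmem x).2 ⟨hxH, rfl⟩
  have hxQ : x ∈ Q := by
    have hcen : ∀ d : D, d * (⟨x, hxD⟩ : D) = ⟨x, hxD⟩ * d :=
      fun d => Subtype.ext (((hDmem d).1 d.2).2).symm
    have hnorm : (Subgroup.zpowers (⟨x, hxD⟩ : D)).Normal := ⟨fun y hy d => by
      obtain ⟨i, rfl⟩ := Subgroup.mem_zpowers_iff.1 hy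
      have hc : Commute d ((⟨x, hxD⟩ : D) ^ i) :=
        (show Commute d (⟨x, hxD⟩ : D) from hcen d).zpow_right i
      rw [hc.eq, mul_inv_cancel_right]
      exact Subgroup.zpow_mem _ (Subgroup.mem_zpowers _) i⟩
    have hp : IsPGroup q (Subgroup.zpowers (⟨x, hxD⟩ : D)) := IsPGroup.of_card (n := 1) (by
      rw [Nat.card_zpowers, pow_one, Subgroup.orderOf_mk, hxo])
    have h1 := hp.le_sylow_of_normal Q' (Subgroup.mem_zpowers _)
    exact (hQmem x).2 ⟨hxD, h1⟩
  have hcardQ : Nat.card Q = q ^ (Nat.card G).factorization q := by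
    rw [hQ, Subgroup.card_map_of_injective D.subtype_injective, Q'.card_eq_multiplicity]
    congr 1
    apply le_antisymm
    · have h1 : q ^ (Nat.card D).factorization q ∣ Nat.card G :=
        (Nat.ordProj_dvd _ _).trans (Subgroup.card_subgroup_dvd_card D)
      exact (hqp.pow_dvd_iff_le_factorization Nat.card_pos.ne').1 h1
    · have h1 : q ^ (Nat.card G).factorization q ∣ Nat.card D := by
        rw [← Q₁.card_eq_multiplicity]; exact Subgroup.card_dvd_of_le hQ₁D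
      exact (hqp.pow_dvd_iff_le_factorization Nat.card_pos.ne').1 h1
  let QS : Sylow q G := Sylow.ofCard Q hcardQ
  have hQp : IsPGroup q Q := QS.isPGroup'
  have hQU := hU q Q hQH hQp
  have htcent : ∀ g ∈ Q, t * g = g * t := invol_cent hq2 Q hQp hQU ht htQ hxQ hxo hxt
  have hQC : Q ≤ C := fun g hg => (hCmem g).2 ⟨hQH hg, htcent g hg⟩
  have hQcyc : IsCyclic Q := isCyclic_of_uniqP_odd q hqodd _ _ rfl hQp hQU
  let PC : Sylow q C := QS.subtype hQC
  have hPCmem : ∀ y : C, y ∈ PC ↔ (y : G) ∈ Q := fun y => Iff.rfl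
  have hPCcyc : IsCyclic PC := by
    obtain ⟨g₀, hg₀⟩ := hQcyc.exists_zpow_surjective
    refine ⟨⟨⟨⟨g₀.1, hQC g₀.2⟩, (hPCmem _).2 g₀.2⟩, ?_⟩⟩
    intro y
    obtain ⟨i, hi⟩ := hg₀ ⟨((y : C) : G), (hPCmem _).1 y.2⟩
    refine ⟨i, ?_⟩
    apply Subtype.ext
    apply Subtype.ext
    have h1 := congrArg Subtype.val hi
    simpa using h1
  have hNC := IsCyclic.normalizer_le_centralizer (G := C) (p := q) rfl (P := PC) hPCcyc
  set NQ : Subgroup G := Subgroup.normalizer (Q : Set G) with hNQ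
  set CQ : Subgroup G := Subgroup.centralizer (Q : Set G) with hCQ
  have hCN : CQ ≤ NQ := Subgroup.centralizer_le_normalizer _
  have hCQmem : ∀ g, g ∈ CQ ↔ ∀ u ∈ Q, u * g = g * u := fun g => Subgroup.mem_centralizer_iff
  have htCQ : t ∈ CQ := (hCQmem t).2 (fun u hu => (htcent u hu).symm)
  have hcC : ∀ c ∈ C, c ∈ NQ → c ∈ CQ := by
    intro c hc hcN
    have h1 : (⟨c, hc⟩ : C) ∈ Subgroup.normalizer ((PC : Subgroup C) : Set C) := by
      rw [Subgroup.mem_normalizer_iff]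
      intro y
      exact (Subgroup.mem_normalizer_iff.1 hcN (y : G))
    have h2 := hNC h1
    rw [Subgroup.mem_centralizer_iff] at h2
    rw [hCQmem]
    intro u hu
    have h3 := h2 ⟨u, hQC hu⟩ ((hPCmem _).2 hu)
    exact congrArg Subtype.val h3
  have hHN : ∀ h ∈ H, h ∈ NQ → h ∈ CQ := by
    intro h hhH hhN
    set k : G := h⁻¹ * (t * h * t⁻¹) with hk
    have hkH : k ∈ H := H.mul_mem (H.inv_mem hhH) (htH h hhH)
    have hkt : t * k * t⁻¹ = k⁻¹ := twist ht h
    have hkC : k ∈ CQ := by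
      rw [hCQmem]
      intro u hu
      have hw : h * u * h⁻¹ ∈ Q := (Subgroup.mem_normalizer_iff.1 hhN u).1 hu
      have e1 := htcent u hu
      have e2 := htcent _ hw
      have e3 : h * u = (h * u * h⁻¹) * h := by group
      have e4 : h⁻¹ * (h * u * h⁻¹) = u * h⁻¹ := by group
      rw [hk, hti]
      symm
      calc h⁻¹ * (t * h * t) * u = h⁻¹ * t * h * (t * u) := by simp only [mul_assoc]
        _ = h⁻¹ * t * h * (u * t) := by rw [e1]
        _ = h⁻¹ * t * (h * u) * t := by simp only [mul_assoc]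
        _ = h⁻¹ * t * ((h * u * h⁻¹) * h) * t := by rw [← e3]
        _ = h⁻¹ * (t * (h * u * h⁻¹)) * h * t := by simp only [mul_assoc]
        _ = h⁻¹ * ((h * u * h⁻¹) * t) * h * t := by rw [e2]
        _ = (h⁻¹ * (h * u * h⁻¹)) * t * h * t := by simp only [mul_assoc]
        _ = (u * h⁻¹) * t * h * t := by rw [e4]
        _ = u * (h⁻¹ * (t * h * t)) := by simp only [mul_assoc]
    have hkodd : Odd (orderOf k) := by
      have h1 : orderOf k ∣ Nat.card H := by
        rw [← Subgroup.orderOf_mk k hkH]; exact orderOf_dvd_natCard _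
      exact Odd.of_dvd_nat hodd h1
    obtain ⟨m, hm⟩ := hkodd
    set j : G := k ^ (m + 1) with hj
    have hjj : j * j = k := by
      rw [hj, ← pow_add]
      have h2 : m + 1 + (m + 1) = orderOf k + 1 := by omega
      rw [h2, pow_succ, pow_orderOf_eq_one, one_mul]
    have hjH : j ∈ H := H.pow_mem hkH _
    have hjC : j ∈ CQ := CQ.pow_mem hkC _
    have hjt : t * j * t⁻¹ = j⁻¹ := by
      rw [hj, ← inv_pow, ← hkt, conj_pow]
    set c : G := h * j with hc
    have hcH : c ∈ H := H.mul_mem hhH hjH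
    have hct : t * c = c * t := by
      have e1 : t * h * t⁻¹ = h * k := by rw [hk, mul_inv_cancel_left]
      calc t * c = (t * h * t⁻¹) * (t * j * t⁻¹) * t := by rw [hc]; group
        _ = h * k * j⁻¹ * t := by rw [e1, hjt]
        _ = h * (j * j) * j⁻¹ * t := by rw [hjj]
        _ = c * t := by rw [hc]; group
    have hcC' : c ∈ C := (hCmem c).2 ⟨hcH, hct⟩
    have hcN : c ∈ NQ := NQ.mul_mem hhN (hCN hjC)
    have hcQ : c ∈ CQ := hcC c hcC' hcN
    have e5 : h = c * j⁻¹ := by rw [hc, mul_inv_cancel_right]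
    rw [e5]
    exact CQ.mul_mem hcQ (CQ.inv_mem hjC)
  have hNCG : Subgroup.normalizer ((QS : Subgroup G) : Set G)
      ≤ Subgroup.centralizer ((QS : Subgroup G) : Set G) := by
    intro g hg
    have hgN : g ∈ NQ := hg
    have h1 : g * x * g⁻¹ ∈ Q := (Subgroup.mem_normalizer_iff.1 hgN x).1 hxQ
    rcases hN g ⟨x, hxH, hx1, hQH h1⟩ with h | h
    · exact hHN g h hgN
    · have h2 : t * g ∈ CQ := hHN _ h (NQ.mul_mem (hCN htCQ) hgN)
      have h3 : g = t⁻¹ * (t * g) := by group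
      show g ∈ CQ
      rw [h3]
      exact CQ.mul_mem (CQ.inv_mem htCQ) h2
  have hcomp := MonoidHom.ker_transferSylow_isComplement' QS hNCG
  apply hnil q hqp hqH
  refine ⟨(MonoidHom.transferSylow QS hNCG).ker, inferInstance, ?_⟩
  rw [hcomp.symm.index_eq_card]
  exact hcardQ

end Core2


theorem result {G Ω : Type*} [Group G] [Finite G] [MulAction G Ω] [Fintype Ω] (hZ : Cfsg.IsZassenhausGroup G Ω) {a b : Ω} (hab : a ≠ b) (hodd : Odd (Nat.card ↥(MulAction.stabilizer G a ⊓ MulAction.stabilizer G b))) (hnil : ∀ q : ℕ, q.Prime → q ∣ Nat.card ↥(MulAction.stabilizer G a ⊓ MulAction.stabilizer G b) → ¬ ∃ N : Subgroup G, N.Normal ∧ N.index = q ^ (Nat.card G).factorization q) : IsCyclic ↥(MulAction.stabilizer G a ⊓ MulAction.stabilizer G b) ∧ Subgroup.centralizer ((MulAction.stabilizer G a ⊓ MulAction.stabilizer G b : Subgroup G) : Set G) = MulAction.stabilizer G a ⊓ MulAction.stabilizer G b ∧ ∀ s : G, s • a = b → s • b = a → ∀ h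 ∈ MulAction.stabilizer G a ⊓ MulAction.stabilizer G b, s * h * s⁻¹ = h⁻¹ := by
  classical
  obtain ⟨⟨t, hto, hta, htb⟩, -, -⟩ := Cfsg.Agent.S0740.result hZ hab
  obtain ⟨hfaith, h2t, h3, hex, -⟩ := hZ
  rw [MulAction.is_two_pretransitive_iff] at h2t
  obtain ⟨H, hH⟩ : ∃ H : Subgroup G, H = MulAction.stabilizer G a ⊓ MulAction.stabilizer G b :=
    ⟨_, rfl⟩
  rw [← hH] at hodd hnil ⊢
  have hHmem : ∀ g : G, g ∈ H ↔ g • a = a ∧ g • b = b := by
    intro g
    rw [hH, Subgroup.mem_inf, MulAction.mem_stabilizer_iff, MulAction.mem_stabilizer_iff]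
  have ht2 : t * t = 1 := by rw [← pow_two, ← hto]; exact pow_orderOf_eq_one t
  have hti : t⁻¹ = t := inv_eq_of_mul_eq_one_left ht2
  have htH : ∀ h ∈ H, t * h * t⁻¹ ∈ H := by
    intro h hh
    obtain ⟨h1, h2⟩ := (hHmem h).1 hh
    rw [hHmem, hti]
    constructor
    · rw [mul_smul, mul_smul, hta, h2, htb]
    · rw [mul_smul, mul_smul, htb, h1, hta]
  have hfix : ∀ h ∈ H, h ≠ 1 → ∀ x : Ω, h • x = x → x = a ∨ x = b := by
    intro h hh h1 x hx
    by_contra hcon
    push Not at hcon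
    obtain ⟨ha, hb⟩ := (hHmem h).1 hh
    exact h1 (h3 h a b x hab (Ne.symm hcon.2) (Ne.symm hcon.1) ha hb hx)
  obtain ⟨g₀, hg₀1, c, e, hce, hg₀c, hg₀e⟩ := hex
  obtain ⟨k₀, hk₀c, hk₀e⟩ := h2t hce hab
  obtain ⟨x₀, hx₀H, hx₀1⟩ : ∃ x₀ ∈ H, x₀ ≠ 1 := by
    refine ⟨k₀ * g₀ * k₀⁻¹, ?_, ?_⟩
    · rw [hHmem]; constructor
      · rw [mul_smul, mul_smul, ← hk₀c, inv_smul_smul, hg₀c]
      · rw [mul_smul, mul_smul, ← hk₀e, inv_smul_smul, hg₀e]
    · intro h
      apply hg₀1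
      have h1 : g₀ = k₀⁻¹ * (k₀ * g₀ * k₀⁻¹) * k₀ := by group
      rw [h1, h]; group
  have hN : ∀ g : G, (∃ x ∈ H, x ≠ 1 ∧ g * x * g⁻¹ ∈ H) → g ∈ H ∨ t * g ∈ H := by
    rintro g ⟨x, hxH, hx1, hgx⟩
    have hgx1 : g * x * g⁻¹ ≠ 1 := by
      intro h; apply hx1
      have h1 : x = g⁻¹ * (g * x * g⁻¹) * g := by group
      rw [h1, h]; group
    obtain ⟨hxa, hxb⟩ := (hHmem x).1 hxH
    have h1 : (g * x * g⁻¹) • (g • a) = g • a := by
      rw [mul_smul, mul_smul, inv_smul_smul, hxa]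
    have h2 : (g * x * g⁻¹) • (g • b) = g • b := by
      rw [mul_smul, mul_smul, inv_smul_smul, hxb]
    have h3a := hfix _ hgx hgx1 _ h1
    have h3b := hfix _ hgx hgx1 _ h2
    have hinj : g • a ≠ g • b := fun h => hab (smul_left_cancel g h)
    rcases h3a with ha | ha <;> rcases h3b with hb | hb
    · exact absurd (ha.trans hb.symm) hinj
    · left; exact (hHmem g).2 ⟨ha, hb⟩
    · right; rw [hHmem, mul_smul, mul_smul, ha, hb]; exact ⟨htb, hta⟩
    · exact absurd (ha.trans hb.symm) hinj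
  obtain ⟨e', he'a, he'b⟩ : ∃ e' : Ω, e' ≠ a ∧ e' ≠ b := by
    by_contra hcon
    push Not at hcon
    apply hx₀1
    apply hfaith.eq_of_smul_eq_smul
    intro z
    rw [one_smul]
    by_cases hz : z = a
    · rw [hz]; exact ((hHmem x₀).1 hx₀H).1
    · rw [hcon z hz]; exact ((hHmem x₀).1 hx₀H).2
  obtain ⟨X, hXdef⟩ : ∃ X : Subgroup G, X = MulAction.stabilizer G a := ⟨_, rfl⟩
  have hXmem : ∀ g, g ∈ X ↔ g • a = a := fun g => by
    rw [hXdef]; exact MulAction.mem_stabilizer_iff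
  have hHX : H ≤ X := by rw [hH, hXdef]; exact inf_le_left
  obtain ⟨K, hKmem, hKcard⟩ := Cfsg.Agent.Lib.Helper4.Zas.exists_kernel (G := G) (Ω := Ω) X
    {x | x ≠ a}
    (by
      intro x hx c hc
      show x • c ≠ a
      intro h
      rw [← (hXmem x).1 hx] at h
      exact hc (smul_left_cancel x h))
    (by
      intro c hc d hd
      obtain ⟨g, hga, hgc⟩ := h2t (Ne.symm hc) (Ne.symm hd)
      exact ⟨g, (hXmem g).2 hga, hgc⟩)
    (by
      intro x hx hx1 c hc d hd hxc hxd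
      by_contra hcd
      exact hx1 (h3 x a c d (Ne.symm hc) hcd (Ne.symm hd) ((hXmem x).1 hx) hxc hxd))
    b (Ne.symm hab)
    ⟨x₀, hHX hx₀H, hx₀1, ((hHmem x₀).1 hx₀H).2⟩
    (by
      obtain ⟨g, hga, hgb⟩ := h2t hab (Ne.symm he'a)
      exact ⟨g, (hXmem g).2 hga, by rw [hgb]; exact he'b⟩)
  have hKX : K ≤ X := fun k hk => ((hKmem k).1 hk).1
  have hKfix : ∀ k ∈ K, ∀ c : Ω, c ≠ a → k • c = c → k = 1 := by
    intro k hk c hc hkc
    rcases ((hKmem k).1 hk).2 with h | h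
    · exact h
    · exact absurd hkc (h c hc)
  have hKnorm : ∀ g ∈ X, ∀ k ∈ K, g * k * g⁻¹ ∈ K := by
    intro g hg k hk
    rw [hKmem]
    refine ⟨X.mul_mem (X.mul_mem hg (hKX hk)) (X.inv_mem hg), ?_⟩
    rcases ((hKmem k).1 hk).2 with h | h
    · left; rw [h]; group
    · right
      intro c hc hfixc
      apply h (g⁻¹ • c)
      · show g⁻¹ • c ≠ a
        intro h'
        apply hc
        rw [← (hXmem g).1 hg, ← h', smul_inv_smul]
      · have h5 := congrArg (fun z => g⁻¹ • z) hfixc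
        simpa [mul_smul] using h5
  have hKne : K ≠ ⊥ := by
    intro h
    rw [h, Subgroup.card_bot] at hKcard
    have h5 : ({b, e'} : Set Ω) ⊆ {x | x ≠ a} := by
      intro z hz
      rcases hz with rfl | rfl
      · exact Ne.symm hab
      · exact he'a
    have h6 := Set.ncard_le_ncard h5 (Set.toFinite _)
    rw [Set.ncard_pair (Ne.symm he'b)] at h6
    omega
  let K' : Subgroup X := K.subgroupOf X
  have hK'n : K'.Normal := ⟨fun k hk g => by
    rw [Subgroup.mem_subgroupOf] at hk ⊢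
    exact hKnorm g g.2 k hk⟩
  have hK'ne : K' ≠ ⊥ := by
    intro h
    apply hKne
    rw [eq_bot_iff]
    intro k hk
    have h5 : (⟨k, hKX hk⟩ : X) ∈ K' := Subgroup.mem_subgroupOf.2 hk
    rw [h, Subgroup.mem_bot] at h5
    rw [Subgroup.mem_bot]
    exact congrArg Subtype.val h5
  have hfpf : ∀ h : X, (h : G) ∈ H → h ≠ 1 → K' ⊓ Subgroup.centralizer {h} = ⊥ := by
    intro h hh h1
    rw [eq_bot_iff]
    intro k hk
    obtain ⟨hkK, hkc⟩ := Subgroup.mem_inf.1 hk
    rw [Subgroup.mem_subgroupOf] at hkK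
    rw [Subgroup.mem_centralizer_iff] at hkc
    have hc : (h : G) * (k : G) = (k : G) * (h : G) := congrArg Subtype.val (hkc h rfl)
    rw [Subgroup.mem_bot]
    apply Subtype.ext
    have hhb : (h : G) • b = b := ((hHmem _).1 hh).2
    have h2 : (h : G) • ((k : G) • b) = (k : G) • b := by
      rw [← mul_smul, hc, mul_smul, hhb]
    have hh1 : (h : G) ≠ 1 := fun h' => h1 (Subtype.ext h')
    rcases hfix _ hh hh1 _ h2 with h4 | h4
    · exfalso
      have hka : (k : G) • a = a := (hXmem _).1 k.2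
      exact hab (smul_left_cancel _ (h4.trans hka.symm)).symm
    · exact hKfix _ hkK b (Ne.symm hab) h4
  have hU : ∀ (q : ℕ) [Fact q.Prime] (P : Subgroup G), P ≤ H → IsPGroup q P → UniqP q P := by
    intro q _ P hPH hP
    have hPX : P ≤ X := hPH.trans hHX
    let eP : ↥(P.subgroupOf X) ≃* ↥P := Subgroup.subgroupOfEquivOfLe hPX
    have hP' : IsPGroup q (P.subgroupOf X) := hP.of_equiv eP.symm
    have h1 := fpf_pgroup_uniq K' hK'ne q (P.subgroupOf X) hP' (by
      intro h hh hh1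
      exact hfpf h (hPH (Subgroup.mem_subgroupOf.1 hh)) hh1)
    exact uniqP_of_mulEquiv eP h1
  have hC1 : ∀ h ∈ H, t * h = h * t → h = 1 := core H hodd t ht2 htH hU hN hnil
  let σ : H →* H :=
    { toFun := fun h => ⟨t * h * t⁻¹, htH h h.2⟩
      map_one' := Subtype.ext (by simp)
      map_mul' := fun x y => Subtype.ext (by
        show t * (x * y) * t⁻¹ = (t * x * t⁻¹) * (t * y * t⁻¹)
        group) }
  have hσ2 : ∀ m, σ (σ m) = m := fun m => Subtype.ext (by
    show t * (t * m * t⁻¹) * t⁻¹ = m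
    rw [hti]
    have h2 : ∀ z : G, t * (t * z) = z := fun z => by rw [← mul_assoc, ht2, one_mul]
    simp only [mul_assoc, h2, ht2, mul_one])
  have hσf : ∀ m, σ m = m → m = 1 := by
    intro m hm
    apply Subtype.ext
    apply hC1 m m.2
    have h5 : t * m * t⁻¹ = m := congrArg Subtype.val hm
    calc t * m = t * m * t⁻¹ * t := by group
      _ = m * t := by rw [h5]
  have hinv := Cfsg.Agent.S0728.fpf_invol σ hσ2 hσf
  have hcomm := Cfsg.Agent.S0728.comm_of_inv σ hinv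
  have htinv : ∀ h ∈ H, t * h * t⁻¹ = h⁻¹ := fun h hh => congrArg Subtype.val (hinv ⟨h, hh⟩)
  have part3 : ∀ s : G, s • a = b → s • b = a → ∀ h ∈ H, s * h * s⁻¹ = h⁻¹ := by
    intro s hsa hsb h hh
    have hts : t * s ∈ H := by
      rw [hHmem, mul_smul, mul_smul, hsa, hsb]; exact ⟨htb, hta⟩
    obtain ⟨h₀, hh₀⟩ : ∃ h₀ : G, h₀ = t * s := ⟨_, rfl⟩
    rw [← hh₀] at hts
    have hs : s = t * h₀ := by rw [hh₀, ← mul_assoc, ht2, one_mul]
    have hc : h₀ * h * h₀⁻¹ = h := by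
      have h5 : h₀ * h = h * h₀ := congrArg Subtype.val (hcomm ⟨h₀, hts⟩ ⟨h, hh⟩)
      rw [h5, mul_inv_cancel_right]
    calc s * h * s⁻¹ = t * (h₀ * h * h₀⁻¹) * t⁻¹ := by rw [hs]; group
      _ = t * h * t⁻¹ := by rw [hc]
      _ = h⁻¹ := htinv h hh
  have part2 : Subgroup.centralizer (H : Set G) = H := by
    apply le_antisymm
    · intro g hg
      rw [Subgroup.mem_centralizer_iff] at hg
      have h1 : g * x₀ * g⁻¹ = x₀ := by rw [← hg x₀ hx₀H, mul_inv_cancel_right]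
      rcases hN g ⟨x₀, hx₀H, hx₀1, by rw [h1]; exact hx₀H⟩ with h | h
      · exact h
      · exfalso
        obtain ⟨h5, h6⟩ := (hHmem _).1 h
        rw [mul_smul] at h5 h6
        have hga : g • a = b := by
          have h7 : g • a = t⁻¹ • a := by
            have h8 := congrArg (fun z => t⁻¹ • z) h5
            simpa using h8
          rw [h7, hti]; exact hta
        have hgb : g • b = a := by
          have h7 : g • b = t⁻¹ • b := by
            have h8 := congrArg (fun z => t⁻¹ • z) h6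
            simpa using h8
          rw [h7, hti]; exact htb
        have h2 := part3 g hga hgb x₀ hx₀H
        rw [h1] at h2
        have hxo : Odd (orderOf x₀) := by
          have h8 : orderOf x₀ ∣ Nat.card H := by
            rw [← Subgroup.orderOf_mk x₀ hx₀H]; exact orderOf_dvd_natCard _
          exact Odd.of_dvd_nat hodd h8
        have h9 : x₀ * x₀ ∈ (⊥ : Subgroup G) := by
          rw [Subgroup.mem_bot]
          nth_rewrite 1 [h2]
          exact inv_mul_cancel x₀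
        exact hx₀1 (Subgroup.mem_bot.1 (mem_of_sq_mem ⊥ hxo h9))
    · intro g hg
      rw [Subgroup.mem_centralizer_iff]
      intro h hh
      exact congrArg Subtype.val (hcomm ⟨h, hh⟩ ⟨g, hg⟩)
  have part1 : IsCyclic H := by
    let A : Subgroup X := H.subgroupOf X
    let eA : ↥A ≃* ↥H := Subgroup.subgroupOfEquivOfLe hHX
    have hAc : ∀ x y : A, x * y = y * x := by
      intro x y
      apply eA.injective
      rw [map_mul, map_mul]; exact hcomm _ _
    have hAcomm : IsMulCommutative A := ⟨⟨hAc⟩⟩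
    have hAsolv : Group.IsSolvable A := Group.isSolvable_of_comm hAc
    have hcop : (Nat.card A).Coprime (Nat.card K') := by
      apply Nat.coprime_of_dvd
      intro p hp hpA hpK
      have hpF : Fact p.Prime := ⟨hp⟩
      obtain ⟨y, hy⟩ := exists_prime_orderOf_dvd_card' (G := A) p hpA
      have hyo : orderOf (y : X) = p := by rw [Subgroup.orderOf_coe]; exact hy
      have hP : IsPGroup p (Subgroup.zpowers (y : X)) := IsPGroup.of_card (n := 1) (by
        rw [Nat.card_zpowers, pow_one, hyo])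
      have hP1 : Subgroup.zpowers (y : X) ≠ ⊥ := by
        intro h
        have h5 : (y : X) = 1 := by
          rw [← Subgroup.mem_bot, ← h]; exact Subgroup.mem_zpowers _
        rw [h5, orderOf_one] at hyo
        exact hp.one_lt.ne hyo
      exact not_dvd_card_of_fpf K' p _ hP hP1 (by
        intro h hh hh1
        obtain ⟨i, rfl⟩ := Subgroup.mem_zpowers_iff.1 hh
        apply hfpf _ _ hh1
        have h5 : ((y : X) ^ i) ∈ A := A.zpow_mem y.2 i
        exact Subgroup.mem_subgroupOf.1 h5) hpK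
    obtain ⟨V, hVK, hV, hAV, hVc⟩ := exists_invariant_abelian A K' hK'ne hcop (Or.inl hAsolv)
    have hVcomm : IsMulCommutative V := ⟨⟨fun x y => Subtype.ext (hVc x x.2 y y.2)⟩⟩
    have hcyc : IsCyclic A := Cfsg.Agent.S0041.result A V hV hAV (by
      intro h hh hh1
      rw [eq_bot_iff, ← hfpf h (Subgroup.mem_subgroupOf.1 hh) hh1]
      exact inf_le_inf_right _ hVK) (Or.inl hAcomm)
    exact isCyclic_of_surjective eA eA.surjective
  exact ⟨part1, part2, part3⟩

end Cfsg.Agent.S0739
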