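import Mathlib
import Cfsg.Statements.S0741

set_option autoImplicit false
open Cfsg

namespace Cfsg.Agent.S0741

theorem result {G Ω : Type*} [Group G] [Finite G] [MulAction G Ω] [Fintype Ω] (hZ : Cfsg.IsZassenhausGroup G Ω) {a b : Ω} (hab : a ≠ b) (heven : Even (Nat.card ↥(MulAction.stabilizer G a ⊓ MulAction.stabilizer G b))) : Fintype.card Ω - 2 ≤ 2 * Nat.card ↥(MulAction.stabilizer G a ⊓ MulAction.stabilizer G b) := by
  classical
  obtain ⟨hfaith, h2t, h3, -, -⟩ := hZ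
  rw [MulAction.is_two_pretransitive_iff] at h2t
  have hp2 : Fact (Nat.Prime 2) := ⟨Nat.prime_two⟩
  obtain ⟨H, hH⟩ : ∃ H : Subgroup G, H = MulAction.stabilizer G a ⊓ MulAction.stabilizer G b :=
    ⟨_, rfl⟩
  rw [← hH] at heven ⊢
  have hHmem : ∀ g : G, g ∈ H ↔ g • a = a ∧ g • b = b := by
    intro g
    rw [hH, Subgroup.mem_inf, MulAction.mem_stabilizer_iff, MulAction.mem_stabilizer_iff]
  obtain ⟨j', hj'⟩ := exists_prime_orderOf_dvd_card' (G := ↥H) 2 (even_iff_two_dvd.1 heven)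
  obtain ⟨j, hjdef⟩ : ∃ j : G, j = (j' : G) := ⟨_, rfl⟩
  have hjH : j ∈ H := by rw [hjdef]; exact j'.2
  obtain ⟨hja, hjb⟩ := (hHmem j).1 hjH
  have hj2 : j * j = 1 := by
    have h1 := pow_orderOf_eq_one j'
    rw [hj', pow_two] at h1
    rw [hjdef]
    exact congrArg Subtype.val h1
  have hj1 : j ≠ 1 := by
    intro h
    have h1 : j' = 1 := Subtype.ext (by rw [← hjdef, h]; rfl)
    rw [h1, orderOf_one] at hj'
    omega
  have hjj : ∀ x : Ω, j • j • x = x := by
    intro x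
    rw [smul_smul, hj2, one_smul]
  have hfix : ∀ x : Ω, j • x = x → x = a ∨ x = b := by
    intro x hx
    by_contra hcon
    push Not at hcon
    exact hj1 (h3 j a b x hab (Ne.symm hcon.2) (Ne.symm hcon.1) hja hjb hx)
  -- an element swapping a and b
  obtain ⟨t₀, ht₀a, ht₀b⟩ := h2t hab (Ne.symm hab)
  -- lower bound
  have hκ : ∀ x : {x : Ω // j • x ≠ x}, ∃ k : G, k • a = x.1 ∧ k • b = j • x.1 :=
    fun x => h2t hab (Ne.symm x.2)
  choose κ hκ1 hκ2 using hκ
  have hlow : Nat.card {x : Ω // j • x ≠ x} * Nat.card H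
      ≤ Nat.card {k : G // j • k • a = k • b} := by
    rw [← Nat.card_prod]
    have hwd : ∀ p : {x : Ω // j • x ≠ x} × ↥H,
        j • (κ p.1 * (p.2 : G)) • a = (κ p.1 * (p.2 : G)) • b := by
      intro p
      obtain ⟨hpa, hpb⟩ := (hHmem _).1 p.2.2
      rw [mul_smul, mul_smul, hpa, hpb, hκ1, hκ2]
    apply Nat.card_le_card_of_injective
      (fun p : {x : Ω // j • x ≠ x} × ↥H =>
        (⟨κ p.1 * (p.2 : G), hwd p⟩ : {k : G // j • k • a = k • b}))
    intro p q hpq
    have h1 : κ p.1 * (p.2 : G) = κ q.1 * (q.2 : G) := congrArg Subtype.val hpq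
    have h2 : p.1 = q.1 := by
      apply Subtype.ext
      have h4 := congrArg (fun g : G => g • a) h1
      simp only [mul_smul] at h4
      rw [((hHmem _).1 p.2.2).1, ((hHmem _).1 q.2.2).1, hκ1, hκ1] at h4
      exact h4
    have h5 : p.2 = q.2 := by
      apply Subtype.ext
      rw [h2] at h1
      exact mul_left_cancel h1
    exact Prod.ext h2 h5
  have hmv : Nat.card {x : Ω // j • x ≠ x} = Fintype.card Ω - 2 := by
    have h1 : {x : Ω | j • x ≠ x} = ({a, b} : Set Ω)ᶜ := by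
      ext x
      simp only [Set.mem_ofPred_eq, Set.mem_compl_iff, Set.mem_insert_iff,
        Set.mem_singleton_iff]
      constructor
      · intro hx hxab
        rcases hxab with rfl | rfl
        · exact hx hja
        · exact hx hjb
      · intro hx hjx
        exact hx (hfix x hjx)
    have h2 : Nat.card {x : Ω // j • x ≠ x} = ({x : Ω | j • x ≠ x} : Set Ω).ncard :=
      Nat.card_coe_set_eq _
    rw [h2, h1, Set.ncard_compl, Set.ncard_pair hab, Nat.card_eq_fintype_card]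
  -- the swapping elements
  have hsw : Nat.card {g : G // g • a = b ∧ g • b = a} ≤ Nat.card H := by
    have hwd : ∀ g : {g : G // g • a = b ∧ g • b = a}, t₀⁻¹ * g.1 ∈ H := by
      intro g
      rw [hHmem, mul_smul, mul_smul, g.2.1, g.2.2, inv_smul_eq_iff, inv_smul_eq_iff]
      exact ⟨ht₀a.symm, ht₀b.symm⟩
    apply Nat.card_le_card_of_injective
      (fun g : {g : G // g • a = b ∧ g • b = a} => (⟨t₀⁻¹ * g.1, hwd g⟩ : ↥H))
    intro g g' h
    have h1 : t₀⁻¹ * g.1 = t₀⁻¹ * g'.1 := congrArg Subtype.val h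
    exact Subtype.ext (mul_left_cancel h1)
  -- the centraliser of j
  have hcent : Nat.card {c : G // c * j = j * c} ≤ 2 * Nat.card H := by
    have hcases : ∀ c : {c : G // c * j = j * c},
        (c.1 • a = a ∧ c.1 • b = b) ∨ (c.1 • a = b ∧ c.1 • b = a) := by
      intro c
      have h1 : j • c.1 • a = c.1 • a := by
        rw [smul_smul, ← c.2, mul_smul, hja]
      have h2 : j • c.1 • b = c.1 • b := by
        rw [smul_smul, ← c.2, mul_smul, hjb]
      have hne : c.1 • a ≠ c.1 • b := fun e => hab (smul_left_cancel c.1 e)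
      rcases hfix _ h1 with e1 | e1 <;> rcases hfix _ h2 with e2 | e2
      · exact absurd (e1.trans e2.symm) hne
      · exact Or.inl ⟨e1, e2⟩
      · exact Or.inr ⟨e1, e2⟩
      · exact absurd (e1.trans e2.symm) hne
    have hsum : Nat.card {c : G // c * j = j * c}
        ≤ Nat.card (↥H ⊕ {g : G // g • a = b ∧ g • b = a}) := by
      apply Nat.card_le_card_of_injective
        (fun c : {c : G // c * j = j * c} =>
          if h : c.1 • a = a ∧ c.1 • b = b then
            (Sum.inl ⟨c.1, (hHmem _).2 h⟩ : ↥H ⊕ {g : G // g • a = b ∧ g • b = a})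
          else Sum.inr ⟨c.1, (hcases c).resolve_left h⟩)
      intro c c' hcc
      by_cases h : c.1 • a = a ∧ c.1 • b = b
      · by_cases h' : c'.1 • a = a ∧ c'.1 • b = b
        · simp only [dif_pos h, dif_pos h'] at hcc
          have h1 := Sum.inl_injective hcc
          exact Subtype.ext (Subtype.mk_eq_mk.1 h1)
        · simp only [dif_pos h, dif_neg h'] at hcc
          exact absurd hcc (by simp)
      · by_cases h' : c'.1 • a = a ∧ c'.1 • b = b
        · simp only [dif_neg h, dif_pos h'] at hcc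
          exact absurd hcc (by simp)
        · simp only [dif_neg h, dif_neg h'] at hcc
          have h1 := Sum.inr_injective hcc
          exact Subtype.ext (Subtype.mk_eq_mk.1 h1)
    rw [Nat.card_sum] at hsum
    omega
  -- upper bound
  have hρ : ∀ i : {g : G // g • a = b ∧ g • b = a}, ∃ k₀ : G,
      (∃ k : G, k⁻¹ * j * k = i.1) → k₀⁻¹ * j * k₀ = i.1 := by
    intro i
    by_cases h : ∃ k : G, k⁻¹ * j * k = i.1
    · obtain ⟨k, hk⟩ := h
      exact ⟨k, fun _ => hk⟩
    · exact ⟨1, fun h' => absurd h' h⟩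
  choose ρ hρ' using hρ
  have hup : Nat.card {k : G // j • k • a = k • b}
      ≤ Nat.card H * (2 * Nat.card H) := by
    have hwd1 : ∀ k : {k : G // j • k • a = k • b},
        (k.1⁻¹ * j * k.1) • a = b ∧ (k.1⁻¹ * j * k.1) • b = a := by
      intro k
      constructor
      · rw [mul_smul, mul_smul, k.2, inv_smul_smul]
      · rw [mul_smul, mul_smul, ← k.2, hjj, inv_smul_smul]
    have hwd2 : ∀ k : {k : G // j • k • a = k • b},
        (k.1 * (ρ ⟨k.1⁻¹ * j * k.1, hwd1 k⟩)⁻¹) * j = j * (k.1 * (ρ ⟨k.1⁻¹ * j * k.1, hwd1 k⟩)⁻¹) := by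
      intro k
      have h1 : (ρ ⟨k.1⁻¹ * j * k.1, hwd1 k⟩)⁻¹ * j * ρ ⟨k.1⁻¹ * j * k.1, hwd1 k⟩
          = k.1⁻¹ * j * k.1 := hρ' ⟨k.1⁻¹ * j * k.1, hwd1 k⟩ ⟨k.1, rfl⟩
      obtain ⟨r, hr⟩ : ∃ r, r = ρ ⟨k.1⁻¹ * j * k.1, hwd1 k⟩ := ⟨_, rfl⟩
      rw [← hr] at h1 ⊢
      have h2 : j = r * (k.1⁻¹ * j * k.1) * r⁻¹ := by
        calc j = r * (r⁻¹ * j * r) * r⁻¹ := by group
          _ = r * (k.1⁻¹ * j * k.1) * r⁻¹ := by rw [h1]
      calc (k.1 * r⁻¹) * j = (k.1 * r⁻¹) * (r * (k.1⁻¹ * j * k.1) * r⁻¹) := by rw [← h2]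
        _ = j * (k.1 * r⁻¹) := by group
    have hinj : Nat.card {k : G // j • k • a = k • b}
        ≤ Nat.card ({g : G // g • a = b ∧ g • b = a} × {c : G // c * j = j * c}) := by
      apply Nat.card_le_card_of_injective
        (fun k : {k : G // j • k • a = k • b} =>
          ((⟨k.1⁻¹ * j * k.1, hwd1 k⟩, ⟨k.1 * (ρ ⟨k.1⁻¹ * j * k.1, hwd1 k⟩)⁻¹, hwd2 k⟩) :
            {g : G // g • a = b ∧ g • b = a} × {c : G // c * j = j * c}))
      intro k k' hkk
      have h1 : (⟨k.1⁻¹ * j * k.1, hwd1 k⟩ : {g : G // g • a = b ∧ g • b = a})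
          = ⟨k'.1⁻¹ * j * k'.1, hwd1 k'⟩ := congrArg Prod.fst hkk
      have h2 : k.1 * (ρ ⟨k.1⁻¹ * j * k.1, hwd1 k⟩)⁻¹
          = k'.1 * (ρ ⟨k'.1⁻¹ * j * k'.1, hwd1 k'⟩)⁻¹ :=
        congrArg (fun p : {g : G // g • a = b ∧ g • b = a} × {c : G // c * j = j * c} =>
          (p.2 : G)) hkk
      rw [h1] at h2
      exact Subtype.ext (mul_right_cancel h2)
    rw [Nat.card_prod] at hinj
    calc Nat.card {k : G // j • k • a = k • b}
        ≤ Nat.card {g : G // g • a = b ∧ g • b = a} * Nat.card {c : G // c * j = j * c} := hinj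
      _ ≤ Nat.card H * (2 * Nat.card H) := Nat.mul_le_mul hsw hcent
  -- conclusion
  have hd : 0 < Nat.card H := Nat.card_pos
  have hfin : (Fintype.card Ω - 2) * Nat.card H ≤ (2 * Nat.card H) * Nat.card H := by
    rw [← hmv]
    calc Nat.card {x : Ω // j • x ≠ x} * Nat.card H
        ≤ Nat.card {k : G // j • k • a = k • b} := hlow
      _ ≤ Nat.card H * (2 * Nat.card H) := hup
      _ = (2 * Nat.card H) * Nat.card H := Nat.mul_comm _ _
  exact Nat.le_of_mul_le_mul_right hfin hd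

end Cfsg.Agent.S0741
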