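import Mathlib
import Cfsg.Statements.S0743

set_option autoImplicit false
open Cfsg
open scoped Pointwise

namespace Cfsg.Agent.S0743

open MulAction

/-- Orbit counting modulo `p` for a `p`-subgroup with prescribed fixed points. -/
theorem orbit_modEq {G α : Type*} [Group G] [MulAction G α] [Finite α] {p : ℕ} [Fact p.Prime]
    (x : α) (P : Subgroup G) (hP : IsPGroup p P) (s : Set α) (hs : fixedPoints P α = s) :
    Nat.card (orbit G x) ≡ (orbit G x ∩ s).ncard [MOD p] := by
  have h := hP.card_modEq_card_fixedPoints (orbit G x)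
  have h2 : Nat.card (fixedPoints P (orbit G x)) = (orbit G x ∩ s).ncard := by
    rw [← Nat.card_coe_set_eq]
    apply Nat.card_congr
    refine
      { toFun := fun z => ⟨z.1.1, z.1.2, ?_⟩
        invFun := fun z => ⟨⟨z.1, z.2.1⟩, ?_⟩
        left_inv := fun z => rfl
        right_inv := fun z => rfl }
    · rw [← hs]
      intro g
      have := z.2 g
      exact congrArg Subtype.val this
    · intro g
      apply Subtype.ext
      have hz : z.1 ∈ fixedPoints P α := by rw [hs]; exact z.2.2
      exact hz g
  rw [h2] at h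
  exact h

theorem pretransitive {G α : Type*} [Group G] [MulAction G α] [Finite α] {p k : ℕ} (hp : p.Prime)
    (hk : 1 ≤ k) (hkn : k < Nat.card α)
    (h : ∀ s : Finset α, s.card = k → ∃ P : Subgroup G, IsPGroup p P ∧
      fixedPoints P α = (s : Set α)) : IsPretransitive G α := by
  classical
  haveI : Fact p.Prime := ⟨hp⟩
  haveI := Fintype.ofFinite α
  constructor
  intro x y
  by_contra hcon
  have hy : y ∉ orbit G x := fun hy => hcon hy
  have hxy : x ≠ y := by
    rintro rfl
    exact hy (mem_orbit_self x)
  -- choose s1 containing x, not y, of size k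
  have hcard : Nat.card α = Fintype.card α := Nat.card_eq_fintype_card
  obtain ⟨s1, hxs1, hs1, hs1card⟩ : ∃ s1 : Finset α, {x} ⊆ s1 ∧ s1 ⊆ Finset.univ.erase y ∧
      s1.card = k := by
    apply Finset.exists_subsuperset_card_eq
    · intro z hz
      rw [Finset.mem_singleton] at hz
      rw [hz]
      simp [hxy]
    · simpa using hk
    · rw [Finset.card_erase_of_mem (Finset.mem_univ y), Finset.card_univ]
      omega
  have hx1 : x ∈ s1 := hxs1 (Finset.mem_singleton_self x)
  have hy1 : y ∉ s1 := fun hy1 => by
    have := hs1 hy1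
    simp at this
  set s2 : Finset α := insert y (s1.erase x) with hs2
  have hs2card : s2.card = k := by
    rw [hs2, Finset.card_insert_of_notMem, Finset.card_erase_of_mem hx1, hs1card]
    · omega
    · intro hmem
      exact hy1 (Finset.mem_of_mem_erase hmem)
  obtain ⟨P1, hP1, hfix1⟩ := h s1 hs1card
  obtain ⟨P2, hP2, hfix2⟩ := h s2 hs2card
  have m1 := orbit_modEq x P1 hP1 _ hfix1
  have m2 := orbit_modEq x P2 hP2 _ hfix2
  have hrel : orbit G x ∩ (s1 : Set α) = insert x (orbit G x ∩ (s2 : Set α)) := by
    ext z
    simp only [Set.mem_inter_iff, Finset.mem_coe, Set.mem_insert_iff, hs2, Finset.mem_insert,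
      Finset.mem_erase]
    constructor
    · rintro ⟨hz1, hz2⟩
      by_cases hzx : z = x
      · left; exact hzx
      · right; exact ⟨hz1, Or.inr ⟨hzx, hz2⟩⟩
    · rintro (rfl | ⟨hz1, hz2 | ⟨_, hz2⟩⟩)
      · exact ⟨mem_orbit_self z, hx1⟩
      · rw [hz2] at hz1; exact absurd hz1 hy
      · exact ⟨hz1, hz2⟩
  have hnot : x ∉ orbit G x ∩ (s2 : Set α) := by
    simp only [Set.mem_inter_iff, Finset.mem_coe, hs2, Finset.mem_insert, Finset.mem_erase]
    rintro ⟨_, h1 | ⟨h1, _⟩⟩
    · exact hxy h1
    · exact h1 rfl
  rw [hrel, Set.ncard_insert_of_notMem hnot (Set.toFinite _)] at m1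
  have m3 : (orbit G x ∩ (s2 : Set α)).ncard + 1 ≡ (orbit G x ∩ (s2 : Set α)).ncard [MOD p] :=
    m1.symm.trans m2
  have m4 := m3.dvd
  have : (p : ℤ) ∣ 1 := by
    have e : ((orbit G x ∩ (s2 : Set α)).ncard : ℤ) - (((orbit G x ∩ (s2 : Set α)).ncard + 1 : ℕ) : ℤ) = -1 := by
      push_cast; ring
    rw [e] at m4
    exact (dvd_neg.mp m4)
  have hp1 : p = 1 := by
    have := Int.natCast_dvd_natCast.mp (by simpa using this : ((p : ℕ) : ℤ) ∣ ((1 : ℕ) : ℤ))
    exact Nat.dvd_one.mp this
  exact hp.one_lt.ne' hp1

theorem gleason.{u, v} {p : ℕ} (hp : p.Prime) (k : ℕ) : ∀ (G : Type u) (α : Type v) [Group G]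
    [MulAction G α] [Finite α], 1 ≤ k → k < Nat.card α →
    (∀ s : Finset α, s.card = k → ∃ P : Subgroup G, IsPGroup p P ∧
      fixedPoints P α = (s : Set α)) → IsMultiplyPretransitive G α k := by
  induction k with
  | zero => intro G α _ _ _ hk; omega
  | succ k ih =>
    intro G α _ _ _ _ hkn h
    classical
    haveI : IsPretransitive G α := pretransitive hp (Nat.succ_le_succ (Nat.zero_le k)) hkn h
    by_cases hk0 : k = 0
    · subst hk0
      rw [is_one_pretransitive_iff]
      infer_instance
    · have hk1 : 1 ≤ k := Nat.one_le_iff_ne_zero.mpr hk0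
      have hne : Nonempty α := by
        by_contra hempty
        rw [not_nonempty_iff] at hempty
        rw [Nat.card_of_isEmpty] at hkn
        omega
      obtain ⟨a⟩ := hne
      rw [SubMulAction.ofStabilizer.isMultiplyPretransitive (a := a)]
      apply ih (stabilizer G a) (SubMulAction.ofStabilizer G a) hk1
      · rw [SubMulAction.nat_card_ofStabilizer_eq]
        omega
      · intro s' hs'
        set s : Finset α := insert a (s'.map ⟨Subtype.val, Subtype.val_injective⟩) with hs
        have hanot : a ∉ s'.map ⟨Subtype.val, Subtype.val_injective⟩ := by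
          rw [Finset.mem_map]
          rintro ⟨z, _, hz⟩
          exact z.2 hz
        have hscard : s.card = k + 1 := by
          rw [hs, Finset.card_insert_of_notMem hanot, Finset.card_map, hs']
        obtain ⟨P, hP, hfix⟩ := h s hscard
        have ha : a ∈ fixedPoints P α := by
          rw [hfix, hs]; simp
        refine ⟨P.subgroupOf (stabilizer G a), hP.comap_subtype, ?_⟩
        ext z
        have hzmem : (z : α) ∈ fixedPoints P α ↔ z ∈ (s' : Set (SubMulAction.ofStabilizer G a)) := by
          rw [hfix, hs]
          simp only [Finset.coe_insert, Finset.coe_map, Function.Embedding.coeFn_mk,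
            Set.mem_insert_iff, Set.mem_image, Finset.mem_coe]
          constructor
          · rintro (hz | ⟨w, hw, hwz⟩)
            · exact absurd hz z.2
            · rw [← Subtype.ext hwz]; exact hw
          · intro hz
            exact Or.inr ⟨z, hz, rfl⟩
        rw [← hzmem]
        constructor
        · intro hz g
          have hg : (g : G) ∈ stabilizer G a := ha g
          have := hz ⟨⟨g, hg⟩, g.2⟩
          exact congrArg Subtype.val this
        · intro hz g
          apply Subtype.ext
          exact hz ⟨g.1.1, g.2⟩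

/-- Gleason's Lemma: let `p` be a prime and `1 ≤ k < n`; if every `k`-subset of the `n` points is exactly the fixed-point set of some `p`-subgroup of `G`, then `G` is `k`-transitive. -/
theorem result {α : Type*} [Fintype α] [DecidableEq α] (G : Subgroup (Equiv.Perm α)) {p k : ℕ} (hp : p.Prime) (hk : 1 ≤ k) (hkn : k < Fintype.card α) (h : ∀ s : Finset α, s.card = k → ∃ P : Subgroup G, IsPGroup p P ∧ MulAction.fixedPoints P α = (s : Set α)) : MulAction.IsMultiplyPretransitive G α k := by
  apply gleason hp k G α hk
  · rw [Nat.card_eq_fintype_card]; exact hkn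
  · exact h

end Cfsg.Agent.S0743
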