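import Mathlib
import Cfsg.Statements.S0744

set_option autoImplicit false
open Cfsg
open scoped Pointwise

namespace Cfsg.Agent.S0744

open MulAction

/-- If all point stabilizers have the same order `m`, then the group order divides `|β| * m`. -/
theorem lemmaL (H : Type*) [Group H] [Finite H] (β : Type*) [MulAction H β] [Finite β] (m : ℕ)
    (hm : ∀ b : β, Nat.card (stabilizer H b) = m) : Nat.card H ∣ Nat.card β * m := by
  classical
  rcases isEmpty_or_nonempty β with hβ | ⟨⟨b⟩⟩
  · rw [Nat.card_of_isEmpty (α := β), zero_mul]; exact dvd_zero _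
  haveI := Fintype.ofFinite H
  haveI := Fintype.ofFinite β
  have h := card_eq_sum_card_group_div_card_stabilizer H β
  have h2 : ∀ ω : Quotient (orbitRel H β), Fintype.card H / Fintype.card (stabilizer H ω.out) =
      Fintype.card H / m := by
    intro ω
    rw [← Nat.card_eq_fintype_card (α := stabilizer H ω.out), hm]
  simp only [h2] at h
  rw [Finset.sum_const, smul_eq_mul] at h
  have hdvd : m ∣ Fintype.card H := by
    rw [← hm b, ← Nat.card_eq_fintype_card]
    exact Subgroup.card_subgroup_dvd_card _
  rw [Nat.card_eq_fintype_card, Nat.card_eq_fintype_card, h, mul_assoc, Nat.div_mul_cancel hdvd]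
  exact dvd_mul_left _ _

/-- Version for an invariant subset. -/
theorem lemmaL' (H : Type*) [Group H] [Finite H] (α : Type*) [MulAction H α] [Finite α]
    (T : SubMulAction H α) (m : ℕ)
    (hm : ∀ b ∈ T, Nat.card (stabilizer H b) = m) : Nat.card H ∣ Nat.card T * m := by
  apply lemmaL H T m
  intro b
  rw [SubMulAction.stabilizer_of_subMul]
  exact hm b.1 b.2

theorem card_stab_stab {M α : Type*} [Group M] [MulAction M α] (x b : α) :
    Nat.card (stabilizer (stabilizer M x) b) = Nat.card (fixingSubgroup M ({x, b} : Set α)) := by
  apply Nat.card_congr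
  refine
    { toFun := fun g => ⟨g.1.1, ?_⟩
      invFun := fun g => ⟨⟨g.1, ?_⟩, ?_⟩
      left_inv := fun g => rfl
      right_inv := fun g => rfl }
  · rw [mem_fixingSubgroup_iff]
    intro y hy
    rcases hy with rfl | hy
    · exact g.1.2
    · rw [Set.mem_singleton_iff] at hy
      rw [hy]
      exact g.2
  · exact (mem_fixingSubgroup_iff M).mp g.2 x (by simp)
  · exact (mem_fixingSubgroup_iff M).mp g.2 b (by simp)

/-- The base case: transitivity. -/
theorem lemmaT {M α : Type*} [Group M] [Finite M] [MulAction M α] [Finite α] (l m : ℕ) (hl : 1 < l)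
    (hfaith : ∀ g : M, (∀ x : α, g • x = x) → g = 1)
    (hstab : ∀ x : α, Nat.card (stabilizer M x) = l)
    (hpair : ∀ x y : α, x ≠ y → Nat.card (fixingSubgroup M ({x, y} : Set α)) = m) :
    IsPretransitive M α := by
  classical
  constructor
  intro x y
  by_contra hcon
  have hy : y ∉ orbit M x := fun hy => hcon hy
  have hxy : x ≠ y := by
    rintro rfl
    exact hy (mem_orbit_self x)
  -- the stabilizer H of x and its two invariant sets
  let T1 : SubMulAction (stabilizer M x) α :=
    { carrier := {u | u ∈ orbit M x ∧ u ≠ x}
      smul_mem' := by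
        rintro h u ⟨hu1, hu2⟩
        refine ⟨?_, ?_⟩
        · rw [mem_orbit_iff] at hu1 ⊢
          obtain ⟨g, rfl⟩ := hu1
          exact ⟨(h : M) * g, mul_smul _ _ _⟩
        · intro hc
          apply hu2
          have hx : (h : M) • x = x := h.2
          have : (h : M) • u = (h : M) • x := by rw [hx]; exact hc
          exact smul_left_cancel _ this }
  let T2 : SubMulAction (stabilizer M x) α :=
    { carrier := orbit M y
      smul_mem' := by
        rintro h u hu
        rw [mem_orbit_iff] at hu ⊢
        obtain ⟨g, rfl⟩ := hu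
        exact ⟨(h : M) * g, mul_smul _ _ _⟩ }
  have hm1 : ∀ b ∈ T1, Nat.card (stabilizer (stabilizer M x) b) = m := by
    intro b hb
    rw [card_stab_stab]
    exact hpair x b (Ne.symm hb.2)
  have hm2 : ∀ b ∈ T2, Nat.card (stabilizer (stabilizer M x) b) = m := by
    intro b hb
    rw [card_stab_stab]
    apply hpair x b
    rintro rfl
    apply hy
    have hb' : x ∈ orbit M y := hb
    rw [mem_orbit_iff] at hb' ⊢
    obtain ⟨g, hg⟩ := hb'
    exact ⟨g⁻¹, by rw [← hg, inv_smul_smul]⟩
  have d1 := lemmaL' (stabilizer M x) α T1 m hm1
  have d2 := lemmaL' (stabilizer M x) α T2 m hm2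
  rw [hstab x] at d1 d2
  -- cardinalities
  have hr : ∀ z : α, Nat.card (orbit M z) * l = Nat.card M := by
    intro z
    haveI := Fintype.ofFinite M
    haveI := Fintype.ofFinite (orbit M z)
    haveI := Fintype.ofFinite (stabilizer M z)
    have := card_orbit_mul_card_stabilizer_eq_card_group M z
    rw [← Nat.card_eq_fintype_card, ← Nat.card_eq_fintype_card, ← Nat.card_eq_fintype_card,
      hstab z] at this
    exact this
  have hl0 : 0 < l := by omega
  have hrr : Nat.card (orbit M x) = Nat.card (orbit M y) := by
    have := (hr x).trans (hr y).symm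
    exact Nat.eq_of_mul_eq_mul_right hl0 this
  have hc2 : Nat.card T2 = Nat.card (orbit M x) := by
    rw [hrr]
    rfl
  have hc1 : Nat.card T1 + 1 = Nat.card (orbit M x) := by
    have e1 : Nat.card T1 = Set.ncard {u | u ∈ orbit M x ∧ u ≠ x} := Nat.card_coe_set_eq _
    have e2 : Nat.card (orbit M x) = Set.ncard (orbit M x) := Nat.card_coe_set_eq _
    rw [e1, e2]
    have e3 : {u | u ∈ orbit M x ∧ u ≠ x} = orbit M x \ {x} := by
      ext u; simp
    rw [e3, Set.ncard_sdiff_singleton_add_one (mem_orbit_self x) (Set.toFinite _)]
  rw [hc2, ← hc1] at d2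
  have hdvd : l ∣ m := by
    have : (Nat.card T1 + 1) * m = Nat.card T1 * m + m := by ring
    rw [this] at d2
    exact (Nat.dvd_add_right d1).mp d2
  -- so m = l, hence the stabilizer of x fixes everything
  have hle : fixingSubgroup M ({x, y} : Set α) ≤ stabilizer M x := by
    intro g hg
    exact (mem_fixingSubgroup_iff M).mp hg x (by simp)
  have hmpos : 0 < m := by
    rw [← hpair x y hxy]
    exact Nat.card_pos
  have hml : m = l := by
    apply le_antisymm
    · rw [← hpair x y hxy, ← hstab x]
      exact Subgroup.card_le_of_le hle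
    · exact Nat.le_of_dvd hmpos hdvd
  have hbot : stabilizer M x = ⊥ := by
    rw [Subgroup.eq_bot_iff_forall]
    intro g hg
    apply hfaith
    intro u
    by_cases hu : u = x
    · rw [hu]; exact hg
    · have hle' : fixingSubgroup M ({x, u} : Set α) ≤ stabilizer M x := by
        intro g hg
        exact (mem_fixingSubgroup_iff M).mp hg x (by simp)
      have heq : fixingSubgroup M ({x, u} : Set α) = stabilizer M x := by
        apply Subgroup.eq_of_le_of_card_ge hle'
        rw [hpair x u (Ne.symm hu), hstab x, hml]
      have hg' : g ∈ fixingSubgroup M ({x, u} : Set α) := by rw [heq]; exact hg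
      exact (mem_fixingSubgroup_iff M).mp hg' u (by simp)
  have := hstab x
  rw [hbot, Subgroup.card_bot] at this
  omega

theorem exists_third {α : Type*} [Finite α] (hα : 3 ≤ Nat.card α) (x y : α) :
    ∃ z : α, z ≠ x ∧ z ≠ y := by
  classical
  haveI := Fintype.ofFinite α
  by_contra h
  push Not at h
  have h1 : (Finset.univ : Finset α) ⊆ {x, y} := by
    intro z _
    by_cases hz : z = x
    · simp [hz]
    · simp [h z hz]
  have h2 := Finset.card_le_card h1
  have h3 : ({x, y} : Finset α).card ≤ 2 := Finset.card_le_two
  rw [Finset.card_univ, ← Nat.card_eq_fintype_card] at h2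
  omega

theorem GT.{u, v} (l m : ℕ) (hl : 1 < l) (j : ℕ) : ∀ (M : Type u) (α : Type v) [Group M] [Finite M]
    [MulAction M α] [Finite α], (∀ g : M, (∀ x : α, g • x = x) → g = 1) →
    j + 2 ≤ Nat.card α →
    (∀ s : Finset α, s.card = j + 1 → Nat.card (fixingSubgroup M (s : Set α)) = l) →
    (∀ s : Finset α, s.card = j + 2 → Nat.card (fixingSubgroup M (s : Set α)) = m) →
    IsMultiplyPretransitive M α (j + 1) := by
  induction j with
  | zero =>
    intro M α _ _ _ _ hfaith hcard h1 h2
    classical
    rw [is_one_pretransitive_iff]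
    apply lemmaT l m hl hfaith
    · intro x
      have := h1 {x} (Finset.card_singleton x)
      rw [Finset.coe_singleton] at this
      have e : stabilizer M x = fixingSubgroup M ({x} : Set α) := by
        ext g
        simp [mem_fixingSubgroup_iff]
      rw [e, this]
    · intro x y hxy
      have := h2 {x, y} (Finset.card_pair hxy)
      rw [Finset.coe_pair] at this
      exact this
  | succ j ih =>
    intro M α _ _ _ _ hfaith hcard h1 h2
    classical
    have key : ∀ a : α, IsMultiplyPretransitive (stabilizer M a) (SubMulAction.ofStabilizer M a)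
        (j + 1) := by
      intro a
      apply ih (stabilizer M a) (SubMulAction.ofStabilizer M a)
      · intro g hg
        apply Subtype.ext
        apply hfaith
        intro x
        by_cases hx : x = a
        · rw [hx]; exact g.2
        · have := hg ⟨x, hx⟩
          exact congrArg Subtype.val this
      · rw [SubMulAction.nat_card_ofStabilizer_eq]
        omega
      · intro s' hs'
        have hanot : a ∉ s'.map ⟨Subtype.val, Subtype.val_injective⟩ := by
          rw [Finset.mem_map]
          rintro ⟨z, _, hz⟩
          exact z.2 hz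
        have hc := h1 (insert a (s'.map ⟨Subtype.val, Subtype.val_injective⟩))
          (by rw [Finset.card_insert_of_notMem hanot, Finset.card_map, hs'])
        rw [Finset.coe_insert, Finset.coe_map] at hc
        rw [← hc]
        exact (Nat.card_congr (SubMulAction.fixingSubgroupInsertEquiv a (↑s' : Set (SubMulAction.ofStabilizer M a))).toEquiv).symm
      · intro s' hs'
        have hanot : a ∉ s'.map ⟨Subtype.val, Subtype.val_injective⟩ := by
          rw [Finset.mem_map]
          rintro ⟨z, _, hz⟩
          exact z.2 hz
        have hc := h2 (insert a (s'.map ⟨Subtype.val, Subtype.val_injective⟩))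
          (by rw [Finset.card_insert_of_notMem hanot, Finset.card_map, hs'])
        rw [Finset.coe_insert, Finset.coe_map] at hc
        rw [← hc]
        exact (Nat.card_congr (SubMulAction.fixingSubgroupInsertEquiv a (↑s' : Set (SubMulAction.ofStabilizer M a))).toEquiv).symm
    haveI : IsPretransitive M α := by
      constructor
      intro x y
      obtain ⟨a, hax, hay⟩ := exists_third (by omega : 3 ≤ Nat.card α) x y
      have hk := key a
      have h1t : IsMultiplyPretransitive (stabilizer M a) (SubMulAction.ofStabilizer M a) 1 := by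
        apply isMultiplyPretransitive_of_le (n := j + 1) (by omega)
        rw [SubMulAction.nat_card_ofStabilizer_eq]
        omega
      rw [is_one_pretransitive_iff] at h1t
      obtain ⟨g, hg⟩ := h1t.exists_smul_eq
        (⟨x, Ne.symm hax⟩ : SubMulAction.ofStabilizer M a) ⟨y, Ne.symm hay⟩
      exact ⟨g.1, congrArg Subtype.val hg⟩
    have hne : Nonempty α := by
      by_contra hempty
      rw [not_nonempty_iff] at hempty
      rw [Nat.card_of_isEmpty] at hcard
      omega
    obtain ⟨a⟩ := hne
    rw [SubMulAction.ofStabilizer.isMultiplyPretransitive (a := a)]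
    exact key a

/-- If for some `k > 1` the pointwise stabilisers of all `(k-1)`-subsets have the same order `> 1` and those of all `k`-subsets have the same order, then the group is `(k-1)`-transitive. -/
theorem result {α : Type*} [Fintype α] [DecidableEq α] (G : Subgroup (Equiv.Perm α)) {k : ℕ} (hk : 1 < k) (hkn : k ≤ Fintype.card α) (l m : ℕ) (hl : 1 < l) (hkm1 : ∀ s : Finset α, s.card = k - 1 → Nat.card (fixingSubgroup G (s : Set α)) = l) (hkm : ∀ s : Finset α, s.card = k → Nat.card (fixingSubgroup G (s : Set α)) = m) : MulAction.IsMultiplyPretransitive G α (k - 1) := by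
  obtain ⟨j, rfl⟩ : ∃ j, k = j + 2 := ⟨k - 2, by omega⟩
  have e : j + 2 - 1 = j + 1 := by omega
  rw [e] at hkm1 ⊢
  apply GT l m hl j G α
  · intro g hg
    apply Subtype.ext
    ext x
    exact hg x
  · rw [Nat.card_eq_fintype_card]; exact hkn
  · exact hkm1
  · exact hkm

end Cfsg.Agent.S0744
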