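import Mathlib
import Cfsg.Statements.S0756

set_option autoImplicit false
open Cfsg

namespace Cfsg.Agent.S0756

universe u v

open Polynomial in
theorem solve {F : Type*} [Field F] [Finite F] (h2 : (2 : F) ≠ 0) (a c : F) (ha : a ≠ 0)
    (hc : c ≠ 0) : ∃ x y : F, a * x ^ 2 + c * y ^ 2 = 1 := by
  classical
  have hfin := Fintype.ofFinite F
  have hchar : ringChar F ≠ 2 := by
    intro h
    apply h2
    have h3 := CharP.cast_eq_zero F (ringChar F)
    rw [h] at h3
    exact_mod_cast h3
  have hodd := FiniteField.odd_card_of_char_ne_two hchar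
  have hf : degree (C a * X ^ 2 : F[X]) = 2 := degree_C_mul_X_pow 2 ha
  have hg : degree (C c * X ^ 2 - 1 : F[X]) = 2 := by
    rw [degree_sub_eq_left_of_degree_lt]
    · exact degree_C_mul_X_pow 2 hc
    · rw [degree_C_mul_X_pow 2 hc, degree_one]
      norm_num
  obtain ⟨x, y, hxy⟩ := FiniteField.exists_root_sum_quadratic hf hg hodd
  refine ⟨x, y, ?_⟩
  simp only [eval_mul, eval_C, eval_pow, eval_X, eval_sub, eval_one] at hxy
  linear_combination hxy

theorem square_class {F : Type*} [Field F] [Finite F] (α d : F)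
    (hα : ¬ IsSquare α) (hd : d ≠ 0) :
    (∃ s : F, s ≠ 0 ∧ d = s ^ 2) ∨ (∃ s : F, s ≠ 0 ∧ d = α * s ^ 2) := by
  classical
  have hfin := Fintype.ofFinite F
  have hα0 : α ≠ 0 := by
    rintro rfl
    exact hα (IsSquare.zero)
  by_cases hsq : IsSquare d
  · left
    obtain ⟨s, hs⟩ := hsq
    refine ⟨s, ?_, by rw [hs]; ring⟩
    rintro rfl
    apply hd
    rw [hs]
    simp
  · right
    have h1 : quadraticChar F d = -1 := quadraticChar_neg_one_iff_not_isSquare.mpr hsq
    have h3 : quadraticChar F α = -1 := quadraticChar_neg_one_iff_not_isSquare.mpr hα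
    have h4 : quadraticChar F (d * α) = 1 := by
      rw [map_mul, h1, h3]
      norm_num
    have h5 : IsSquare (d * α) := (quadraticChar_one_iff_isSquare (mul_ne_zero hd hα0)).mp h4
    obtain ⟨t, ht⟩ := h5
    have ht0 : t ≠ 0 := by
      rintro rfl
      simp at ht
      rcases ht with h | h
      · exact hd h
      · exact hα0 h
    refine ⟨t / α, div_ne_zero ht0 hα0, ?_⟩
    field_simp
    linear_combination ht

theorem exists_norm_ne_zero {F V : Type*} [Field F] [AddCommGroup V] [Module F V]
    (h2 : (2 : F) ≠ 0) (B : LinearMap.BilinForm F V) (hS : B.IsSymm) (hB : B.Nondegenerate)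
    [Nontrivial V] : ∃ v, B v v ≠ 0 := by
  by_contra hcon
  push Not at hcon
  obtain ⟨x, hx⟩ := exists_ne (0 : V)
  apply hx
  apply hB.1
  intro y
  have h1 := hcon (x + y)
  simp only [map_add, LinearMap.add_apply, hcon x, hcon y] at h1
  have hsymm : B y x = B x y := LinearMap.BilinForm.isSymm_def.mp hS y x
  rw [hsymm] at h1
  have h3 : (2 : F) * B x y = 0 := by linear_combination h1
  exact (mul_eq_zero.mp h3).resolve_left h2

theorem restrict_facts {F V : Type*} [Field F] [AddCommGroup V] [Module F V]
    [FiniteDimensional F V] (B : LinearMap.BilinForm F V) (hS : B.IsSymm) (hB : B.Nondegenerate)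
    (v : V) (hv : B v v ≠ 0) :
    Module.finrank F (LinearMap.ker (B v)) + 1 = Module.finrank F V ∧
      (B.restrict (LinearMap.ker (B v))).IsSymm ∧
      (B.restrict (LinearMap.ker (B v))).Nondegenerate := by
  have hsymm : ∀ x y, B x y = B y x := fun x y => LinearMap.BilinForm.isSymm_def.mp hS x y
  have hsurj : LinearMap.range (B v) = ⊤ := by
    rw [LinearMap.range_eq_top]
    intro c
    refine ⟨(c / B v v) • v, ?_⟩
    rw [map_smul, smul_eq_mul]
    field_simp
  have hSW : (B.restrict (LinearMap.ker (B v))).IsSymm :=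
    LinearMap.BilinForm.isSymm_def.mpr (fun x y => hsymm x y)
  refine ⟨?_, hSW, ?_⟩
  · have h1 := LinearMap.finrank_range_add_finrank_ker (B v)
    rw [hsurj, finrank_top, Module.finrank_self] at h1
    omega
  · have hleft : ∀ w : LinearMap.ker (B v),
        (∀ w' : LinearMap.ker (B v), B (w : V) (w' : V) = 0) → w = 0 := by
      intro w hw
      apply Subtype.ext
      apply hB.1
      intro x
      have hwv : B (w : V) v = 0 := by
        rw [hsymm]
        exact LinearMap.mem_ker.mp w.2
      have hx' : x - (B v x / B v v) • v ∈ LinearMap.ker (B v) := by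
        rw [LinearMap.mem_ker, map_sub, map_smul, smul_eq_mul]
        field_simp
        ring
      have h1 : B (w : V) (x - (B v x / B v v) • v) = 0 := hw ⟨_, hx'⟩
      rw [map_sub, map_smul, hwv, smul_zero, sub_zero] at h1
      exact h1
    exact ⟨fun w hw => hleft w hw, fun y hy => hleft y (fun x => by rw [hsymm]; exact hy x)⟩

theorem exists_norm_one {F V : Type*} [Field F] [Finite F] [AddCommGroup V] [Module F V]
    [FiniteDimensional F V] (h2 : (2 : F) ≠ 0) (B : LinearMap.BilinForm F V) (hS : B.IsSymm)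
    (hB : B.Nondegenerate) (hdim : 2 ≤ Module.finrank F V) : ∃ v, B v v = 1 := by
  have hnt : Nontrivial V := Module.nontrivial_of_finrank_pos (R := F) (by omega)
  obtain ⟨v₀, hv₀⟩ := exists_norm_ne_zero h2 B hS hB
  obtain ⟨hWdim, hWS, hWnd⟩ := restrict_facts B hS hB v₀ hv₀
  have hntW : Nontrivial (LinearMap.ker (B v₀)) :=
    Module.nontrivial_of_finrank_pos (R := F) (by omega)
  obtain ⟨w, hw⟩ := exists_norm_ne_zero h2 (B.restrict (LinearMap.ker (B v₀))) hWS hWnd
  have hw' : B (w : V) (w : V) ≠ 0 := hw
  obtain ⟨x, y, hxy⟩ := solve h2 (B v₀ v₀) (B (w : V) (w : V)) hv₀ hw'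
  have h1 : B v₀ (w : V) = 0 := LinearMap.mem_ker.mp w.2
  have h3 : B (w : V) v₀ = 0 := by
    rw [LinearMap.BilinForm.isSymm_def.mp hS]
    exact h1
  refine ⟨x • v₀ + y • (w : V), ?_⟩
  simp only [map_add, map_smul, LinearMap.add_apply, LinearMap.smul_apply, smul_eq_mul, h1, h3]
  linear_combination hxy

theorem aux {F : Type v} [Field F] [Finite F] (h2 : (2 : F) ≠ 0) (α : F) (hα : ¬ IsSquare α) :
    ∀ (n : ℕ) (V : Type u) [AddCommGroup V] [Module F V] [FiniteDimensional F V]
      (B : LinearMap.BilinForm F V), B.IsSymm → B.Nondegenerate → Module.finrank F V = n + 1 →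
      ∃ b : Fin (n + 1) → V, (∀ i j, i ≠ j → B (b i) (b j) = 0) ∧
        (∀ i, i ≠ Fin.last n → B (b i) (b i) = 1) ∧
        (B (b (Fin.last n)) (b (Fin.last n)) = 1 ∨ B (b (Fin.last n)) (b (Fin.last n)) = α) := by
  intro n
  induction n with
  | zero =>
    intro V _ _ _ B hS hB hn
    have hnt : Nontrivial V := Module.nontrivial_of_finrank_pos (R := F) (by omega)
    obtain ⟨v, hv⟩ := exists_ne (0 : V)
    have hspan : ∀ w : V, ∃ c : F, c • v = w :=
      (finrank_eq_one_iff_of_nonzero' v hv).mp (by omega)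
    have hd : B v v ≠ 0 := by
      intro h0
      apply hv
      apply hB.1
      intro y
      obtain ⟨c, rfl⟩ := hspan y
      rw [map_smul, h0, smul_zero]
    rcases square_class α (B v v) hα hd with ⟨s, hs0, hs⟩ | ⟨s, hs0, hs⟩
    · refine ⟨fun _ => s⁻¹ • v, ?_, ?_, ?_⟩
      · intro i j hij
        exact absurd (Fin.ext (by have := i.isLt; have := j.isLt; omega)) hij
      · intro i hi
        exact absurd (Fin.ext (by have := i.isLt; simp)) hi
      · left
        simp only [map_smul, LinearMap.smul_apply, smul_eq_mul, hs]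
        field_simp
    · refine ⟨fun _ => s⁻¹ • v, ?_, ?_, ?_⟩
      · intro i j hij
        exact absurd (Fin.ext (by have := i.isLt; have := j.isLt; omega)) hij
      · intro i hi
        exact absurd (Fin.ext (by have := i.isLt; simp)) hi
      · right
        simp only [map_smul, LinearMap.smul_apply, smul_eq_mul, hs]
        field_simp
  | succ n ih =>
    intro V _ _ _ B hS hB hn
    have hsymm : ∀ x y, B x y = B y x := fun x y => LinearMap.BilinForm.isSymm_def.mp hS x y
    obtain ⟨v, hv⟩ := exists_norm_one h2 B hS hB (by omega)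
    have hv0 : B v v ≠ 0 := by rw [hv]; exact one_ne_zero
    obtain ⟨hWdim, hWS, hWnd⟩ := restrict_facts B hS hB v hv0
    obtain ⟨b', hb1, hb2, hb3⟩ := ih (LinearMap.ker (B v)) (B.restrict (LinearMap.ker (B v)))
      hWS hWnd (by omega)
    have hvW : ∀ w : LinearMap.ker (B v), B v (w : V) = 0 := fun w => LinearMap.mem_ker.mp w.2
    have hWv : ∀ w : LinearMap.ker (B v), B (w : V) v = 0 := fun w => by rw [hsymm]; exact hvW w
    refine ⟨Fin.cons v (fun i => (b' i : V)), ?_, ?_, ?_⟩
    · intro i j
      refine Fin.cases ?_ (fun i => ?_) i <;> refine Fin.cases ?_ (fun j => ?_) j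
      · intro h; exact absurd rfl h
      · intro _; simp [hvW]
      · intro _; simp [hWv]
      · intro hij
        have hij' : i ≠ j := fun h => hij (by rw [h])
        have h5 : B (b' i : V) (b' j : V) = 0 := hb1 i j hij'
        simp [h5]
    · intro i
      refine Fin.cases ?_ (fun i => ?_) i
      · intro _; simp [hv]
      · intro hi
        have hi' : i ≠ Fin.last n := fun h => hi (by rw [h]; rfl)
        have h5 : B (b' i : V) (b' i : V) = 1 := hb2 i hi'
        simp [h5]
    · have hlast : (Fin.last (n + 1) : Fin (n + 1 + 1)) = Fin.succ (Fin.last n) := rfl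
      rw [hlast]
      simp only [Fin.cons_succ]
      exact hb3

/-- Classification of symmetric bilinear forms over finite fields of odd characteristic: if B is non-degenerate symmetric on V of dimension n + 1 and α is a fixed non-square of F, there is an orthogonal basis b_0, ..., b_n with B(b_i, b_i) = 1 for i < n and B(b_n, b_n) ∈ {1, α}. -/
theorem result {F V : Type*} [Field F] [Finite F] [AddCommGroup V] [Module F V] [FiniteDimensional F V] (h2 : (2 : F) ≠ 0) (B : LinearMap.BilinForm F V) (hS : B.IsSymm) (hB : B.Nondegenerate) {n : ℕ} (hn : Module.finrank F V = n + 1) (α : F) (hα : ¬ IsSquare α) : ∃ b : Module.Basis (Fin (n + 1)) F V, (∀ i j, i ≠ j → B (b i) (b j) = 0) ∧ (∀ i, i ≠ Fin.last n → B (b i) (b i) = 1) ∧ (B (b (Fin.last n)) (b (Fin.last n)) = 1 ∨ B (b (Fin.last n)) (b (Fin.last n)) = α) := by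
  obtain ⟨b, hb1, hb2, hb3⟩ := aux h2 α hα n V B hS hB hn
  have hα0 : α ≠ 0 := by
    rintro rfl
    exact hα (IsSquare.zero)
  have hnorm : ∀ i, B (b i) (b i) ≠ 0 := by
    intro i
    by_cases hi : i = Fin.last n
    · rw [hi]
      rcases hb3 with h | h
      · rw [h]; exact one_ne_zero
      · rw [h]; exact hα0
    · rw [hb2 i hi]; exact one_ne_zero
  have hli : LinearIndependent F b := by
    rw [Fintype.linearIndependent_iff]
    intro c hc i
    have h1 := congrArg (fun w => B w (b i)) hc
    simp only [map_sum, map_smul, LinearMap.sum_apply, LinearMap.smul_apply, map_zero,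
      LinearMap.zero_apply] at h1
    rw [Finset.sum_eq_single i] at h1
    · exact (mul_eq_zero.mp h1).resolve_right (hnorm i)
    · intro j _ hj
      rw [hb1 j i hj, smul_zero]
    · intro h
      exact absurd (Finset.mem_univ i) h
  have hcard : Fintype.card (Fin (n + 1)) = Module.finrank F V := by
    rw [Fintype.card_fin, hn]
  refine ⟨basisOfLinearIndependentOfCardEqFinrank' b hli hcard, ?_, ?_, ?_⟩
  all_goals simp only [coe_basisOfLinearIndependentOfCardEqFinrank']
  · exact hb1
  · exact hb2
  · exact hb3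

end Cfsg.Agent.S0756
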