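import Mathlib
import Cfsg.Statements.S0757

set_option autoImplicit false
open Cfsg

namespace Cfsg.Agent.S0757

theorem toMatrix_polar_wss {F : Type*} [Field F] {ι : Type} [Fintype ι] [DecidableEq ι] (w : ι → F) :
    LinearMap.BilinForm.toMatrix' (QuadraticMap.polarBilin (QuadraticMap.weightedSumSquares F w)) =
      Matrix.diagonal (fun i => 2 * w i) := by
  ext i j
  rw [LinearMap.BilinForm.toMatrix'_apply]
  change QuadraticMap.polar ⇑(QuadraticMap.weightedSumSquares F w) (Pi.single i 1) (Pi.single j 1) = _
  simp only [QuadraticMap.polar, QuadraticMap.weightedSumSquares_apply, smul_eq_mul, Pi.add_apply,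
    ← Finset.sum_sub_distrib]
  by_cases hij : i = j
  · subst hij
    rw [Matrix.diagonal_apply_eq, Finset.sum_eq_single i]
    · simp; ring
    · intro k _ hk
      simp [hk]
    · intro h; exact absurd (Finset.mem_univ i) h
  · rw [Matrix.diagonal_apply_ne _ hij]
    apply Finset.sum_eq_zero
    intro k _
    by_cases hki : k = i
    · subst hki
      have : (Pi.single j (1 : F) : ι → F) k = 0 := by simp [hij]
      simp [this]
    · have : (Pi.single i (1 : F) : ι → F) k = 0 := by simp [hki]
      simp [this]

/-- The two diagonal forms Σ x_i^2 and Σ_(i<n) x_i^2 + α x_n^2 on F^(n+1), with α a non-square and 2 ≠ 0 in F, are inequivalent quadratic forms (so over a finite field of odd order there are exactly two classes of non-singular symmetric bilinear forms in each dimension). -/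
theorem result {F : Type*} [Field F] (h2 : (2 : F) ≠ 0) (n : ℕ) (α : F) (hα : ¬ IsSquare α) : ¬ (QuadraticMap.weightedSumSquares F (fun _ : Fin (n + 1) => (1 : F))).Equivalent (QuadraticMap.weightedSumSquares F (fun i : Fin (n + 1) => if i = Fin.last n then α else (1 : F))) := by
  rintro ⟨e⟩
  set Q₁ := QuadraticMap.weightedSumSquares F (fun _ : Fin (n + 1) => (1 : F)) with hQ₁
  set Q₂ := QuadraticMap.weightedSumSquares F (fun i : Fin (n + 1) => if i = Fin.last n then α else (1 : F)) with hQ₂
  set B₁ : LinearMap.BilinForm F (Fin (n + 1) → F) := QuadraticMap.polarBilin Q₁ with hB₁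
  set B₂ : LinearMap.BilinForm F (Fin (n + 1) → F) := QuadraticMap.polarBilin Q₂ with hB₂
  set L : (Fin (n + 1) → F) →ₗ[F] (Fin (n + 1) → F) := e.toLinearEquiv.toLinearMap with hL
  have he : ∀ v, Q₂ (L v) = Q₁ v := fun v => e.map_app' v
  have hcomp : B₂.comp L L = B₁ := by
    apply LinearMap.ext₂
    intro u v
    rw [LinearMap.BilinForm.comp_apply]
    change QuadraticMap.polar ⇑Q₂ (L u) (L v) = QuadraticMap.polar ⇑Q₁ u v
    simp only [QuadraticMap.polar, ← map_add, he]
  have hmat := congrArg LinearMap.BilinForm.toMatrix' hcomp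
  rw [LinearMap.BilinForm.toMatrix'_comp, hB₁, hB₂, hQ₁, hQ₂, toMatrix_polar_wss, toMatrix_polar_wss] at hmat
  have hdet := congrArg Matrix.det hmat
  rw [Matrix.det_mul, Matrix.det_mul, Matrix.det_transpose, Matrix.det_diagonal, Matrix.det_diagonal,
    Finset.prod_mul_distrib, Finset.prod_mul_distrib, Finset.prod_ite_eq' Finset.univ (Fin.last n)] at hdet
  simp only [Finset.prod_const, Finset.card_univ, Fintype.card_fin, Finset.mem_univ, if_true,
    one_pow, mul_one] at hdet
  have h2n : (2 : F) ^ (n + 1) ≠ 0 := pow_ne_zero _ h2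
  set d := (LinearMap.toMatrix' L).det with hd
  have hkey : d * d * α = 1 := by
    have : (2 : F) ^ (n + 1) * (d * d * α - 1) = 0 := by linear_combination hdet
    rcases mul_eq_zero.mp this with h | h
    · exact absurd h h2n
    · linear_combination h
  have hd0 : d ≠ 0 := by
    rintro h
    rw [h] at hkey
    simp at hkey
  apply hα
  refine ⟨d⁻¹, ?_⟩
  rw [← mul_inv]
  apply eq_inv_of_mul_eq_one_right
  linear_combination hkey

end Cfsg.Agent.S0757
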