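import Mathlib
import Cfsg.Statements.S0758

set_option autoImplicit false
open Cfsg

namespace Cfsg.Agent.S0758

theorem isotropic_iff {F : Type*} [Field F] (β : F) :
    (∃ x y : F, (x ≠ 0 ∨ y ≠ 0) ∧ x ^ 2 + β * y ^ 2 = 0) ↔ IsSquare (-β) := by
  constructor
  · rintro ⟨x, y, hxy, h⟩
    have hy : y ≠ 0 := by
      rintro rfl
      rcases hxy with hx | hy
      · apply hx
        simpa using h
      · exact hy rfl
    refine ⟨x / y, ?_⟩
    field_simp
    linear_combination -h
  · rintro ⟨s, hs⟩
    refine ⟨s, 1, Or.inr one_ne_zero, ?_⟩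
    linear_combination -hs

/-- For a finite field F of odd order q and a non-square α: the form x² + y² is isotropic iff q ≡ 1 mod 4, and the form x² + α y² is isotropic iff q ≡ 3 mod 4. -/
theorem result {F : Type*} [Field F] [Fintype F] (h2 : (2 : F) ≠ 0) (α : F) (hα : ¬ IsSquare α) : ((∃ x y : F, (x ≠ 0 ∨ y ≠ 0) ∧ x ^ 2 + y ^ 2 = 0) ↔ Fintype.card F % 4 = 1) ∧ ((∃ x y : F, (x ≠ 0 ∨ y ≠ 0) ∧ x ^ 2 + α * y ^ 2 = 0) ↔ Fintype.card F % 4 = 3) := by
  classical
  have hchar : ringChar F ≠ 2 := by
    intro h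
    apply h2
    have := ringChar.spec F 2
    rw [h] at this
    have h3 : ((2 : ℕ) : F) = 0 := this.mpr dvd_rfl
    exact_mod_cast h3
  have hodd : Fintype.card F % 2 = 1 := FiniteField.odd_card_of_char_ne_two hchar
  have hα0 : α ≠ 0 := by
    rintro rfl
    exact hα ⟨0, by simp⟩
  have hneg1 : IsSquare (-1 : F) ↔ Fintype.card F % 4 ≠ 3 := FiniteField.isSquare_neg_one_iff
  constructor
  · have h1 := isotropic_iff (1 : F)
    simp only [one_mul] at h1
    rw [h1, hneg1]
    omega
  · rw [isotropic_iff α]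
    have hχα : quadraticChar F α = -1 := quadraticChar_neg_one_iff_not_isSquare.mpr hα
    have hmul : quadraticChar F (-α) = quadraticChar F (-1) * quadraticChar F α := by
      rw [← map_mul, neg_one_mul]
    have hnα0 : -α ≠ 0 := neg_ne_zero.mpr hα0
    rw [← quadraticChar_one_iff_isSquare hnα0, hmul, hχα]
    have hd := quadraticChar_dichotomy (F := F) (a := -1) (neg_ne_zero.mpr one_ne_zero)
    constructor
    · intro h
      have h3 : quadraticChar F (-1) = -1 := by
        rcases hd with hd | hd
        · rw [hd] at h; norm_num at h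
        · exact hd
      have h4 : ¬ IsSquare (-1 : F) := quadraticChar_neg_one_iff_not_isSquare.mp h3
      rw [hneg1] at h4
      omega
    · intro h
      have h4 : ¬ IsSquare (-1 : F) := by
        rw [hneg1]; omega
      have h3 : quadraticChar F (-1) = -1 := quadraticChar_neg_one_iff_not_isSquare.mpr h4
      rw [h3]; norm_num

end Cfsg.Agent.S0758
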