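import Mathlib
import Cfsg.Statements.S0759
import Cfsg.Agent.S0756

set_option autoImplicit false
open Cfsg

namespace Cfsg.Agent.S0759

theorem det_swap {F : Type*} [Field F] (m : ℕ) :
    (Matrix.fromBlocks (0 : Matrix (Fin m) (Fin m) F) (1 : Matrix (Fin m) (Fin m) F)
      (1 : Matrix (Fin m) (Fin m) F) (0 : Matrix (Fin m) (Fin m) F)).det = (-1) ^ m := by
  have h1 : Matrix.fromBlocks (0 : Matrix (Fin m) (Fin m) F) (1 : Matrix (Fin m) (Fin m) F)
      (1 : Matrix (Fin m) (Fin m) F) (0 : Matrix (Fin m) (Fin m) F)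
      = Matrix.fromBlocks (1 : Matrix (Fin m) (Fin m) F) (1 : Matrix (Fin m) (Fin m) F)
          (0 : Matrix (Fin m) (Fin m) F) (1 : Matrix (Fin m) (Fin m) F)
        * Matrix.fromBlocks (-1 : Matrix (Fin m) (Fin m) F) (0 : Matrix (Fin m) (Fin m) F)
          (1 : Matrix (Fin m) (Fin m) F) (1 : Matrix (Fin m) (Fin m) F)
        * Matrix.fromBlocks (1 : Matrix (Fin m) (Fin m) F) (-1 : Matrix (Fin m) (Fin m) F)
          (0 : Matrix (Fin m) (Fin m) F) (1 : Matrix (Fin m) (Fin m) F) := by
    simp [Matrix.fromBlocks_multiply]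
  rw [h1, Matrix.det_mul, Matrix.det_mul, Matrix.det_fromBlocks_zero₂₁,
    Matrix.det_fromBlocks_zero₁₂, Matrix.det_fromBlocks_zero₂₁, Matrix.det_neg]
  simp

theorem fwd {F : Type*} [Field F] (h2 : (2 : F) ≠ 0) (m : ℕ)
    (W : Submodule F (Fin (2 * m) → F)) (hW : Module.finrank F W = m)
    (hsing : ∀ w ∈ W, ∑ i, w i ^ 2 = 0) : ∃ s : F, (-1 : F) ^ m = s ^ 2 := by
  classical
  have hpol : ∀ w ∈ W, ∀ w' ∈ W, ∑ i, w i * w' i = 0 := by
    intro w hw w' hw'
    have h1 := hsing (w + w') (W.add_mem hw hw')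
    have h3 : ∑ i, (w + w') i ^ 2 = ∑ i, w i ^ 2 + ∑ i, w' i ^ 2 + 2 * ∑ i, w i * w' i := by
      rw [Finset.mul_sum, ← Finset.sum_add_distrib, ← Finset.sum_add_distrib]
      apply Finset.sum_congr rfl
      intro i _
      simp only [Pi.add_apply]
      ring
    rw [h3, hsing w hw, hsing w' hw', zero_add, zero_add] at h1
    exact (mul_eq_zero.mp h1).resolve_left h2
  obtain ⟨W', hW'⟩ := Submodule.exists_isCompl W
  have hfr : Module.finrank F W' = m := by
    have := Submodule.finrank_add_eq_of_isCompl hW'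
    rw [Module.finrank_fin_fun] at this
    omega
  let bW : Module.Basis (Fin m) F W := Module.finBasisOfFinrankEq F W hW
  let bW' : Module.Basis (Fin m) F W' := Module.finBasisOfFinrankEq F W' hfr
  let b' : Module.Basis (Fin m ⊕ Fin m) F (Fin (2 * m) → F) :=
    (bW.prod bW').map (Submodule.prodEquivOfIsCompl W W' hW')
  have hb'l : ∀ i, b' (Sum.inl i) = (bW i : Fin (2 * m) → F) := by
    intro i
    simp [b']
  let e : Fin m ⊕ Fin m ≃ Fin (2 * m) := finSumFinEquiv.trans (finCongr (two_mul m).symm)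
  let P : Matrix (Fin m ⊕ Fin m) (Fin m ⊕ Fin m) F := fun i j => b' i (e j)
  have hG : ∀ i j, (P * P.transpose) i j = ∑ l, b' i l * b' j l := by
    intro i j
    rw [Matrix.mul_apply, ← Equiv.sum_comp e]
    rfl
  have hdet : P.det ≠ 0 := by
    intro h0
    obtain ⟨c, hc, hc0⟩ := Matrix.exists_vecMul_eq_zero_iff.mpr h0
    apply hc
    have hli := b'.linearIndependent
    rw [Fintype.linearIndependent_iff] at hli
    funext i
    apply hli c
    funext l
    have h1 := congrFun hc0 (e.symm l)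
    simp only [Matrix.vecMul, dotProduct, P, Equiv.apply_symm_apply, Pi.zero_apply] at h1
    rw [Finset.sum_apply]
    simpa using h1
  obtain ⟨A, C, hGb⟩ : ∃ A C : Matrix (Fin m) (Fin m) F,
      P * P.transpose = Matrix.fromBlocks 0 A A.transpose C := by
    refine ⟨(P * P.transpose).toBlocks₁₂, (P * P.transpose).toBlocks₂₂, ?_⟩
    have h11 : (P * P.transpose).toBlocks₁₁ = 0 := by
      ext i j
      simp only [Matrix.toBlocks₁₁, Matrix.of_apply, Matrix.zero_apply]
      rw [hG, hb'l, hb'l]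
      exact hpol _ (bW i).2 _ (bW j).2
    have h21 : (P * P.transpose).toBlocks₂₁ = (P * P.transpose).toBlocks₁₂.transpose := by
      ext i j
      simp only [Matrix.toBlocks₂₁, Matrix.toBlocks₁₂, Matrix.of_apply, Matrix.transpose_apply]
      rw [hG, hG]
      apply Finset.sum_congr rfl
      intro l _
      ring
    rw [← h11, ← h21, Matrix.fromBlocks_toBlocks]
  have hJ := det_swap (F := F) m
  have hprod : (P * P.transpose) * Matrix.fromBlocks (0 : Matrix (Fin m) (Fin m) F)
        (1 : Matrix (Fin m) (Fin m) F) (1 : Matrix (Fin m) (Fin m) F)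
        (0 : Matrix (Fin m) (Fin m) F)
      = Matrix.fromBlocks A 0 C A.transpose := by
    rw [hGb, Matrix.fromBlocks_multiply]
    simp
  have h3 := congrArg Matrix.det hprod
  rw [Matrix.det_mul, hJ, Matrix.det_mul, Matrix.det_transpose, Matrix.det_fromBlocks_zero₁₂,
    Matrix.det_transpose] at h3
  refine ⟨A.det / P.det, ?_⟩
  field_simp
  linear_combination h3

theorem graph_lemma {F : Type*} [Field F] {ι κ : Type*} [Fintype ι] [Fintype κ] (n : ℕ)
    (hcard : Fintype.card ι + Fintype.card κ = n)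
    (T : (ι → F) →ₗ[F] (κ → F)) (hT : ∀ c : ι → F, ∑ i, c i ^ 2 + ∑ k, T c k ^ 2 = 0) :
    ∃ W : Submodule F (Fin n → F),
      Module.finrank F W = Fintype.card ι ∧ ∀ w ∈ W, ∑ i, w i ^ 2 = 0 := by
  classical
  have e : ι ⊕ κ ≃ Fin n := Fintype.equivFinOfCardEq (by rw [Fintype.card_sum, hcard])
  let S : (ι → F) →ₗ[F] (Fin n → F) :=
    { toFun := fun c j => Sum.elim c (T c) (e.symm j)
      map_add' := by
        intro c d
        funext j
        simp only [Pi.add_apply, map_add]
        generalize e.symm j = x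
        cases x <;> simp
      map_smul' := by
        intro a c
        funext j
        simp only [Pi.smul_apply, map_smul, RingHom.id_apply]
        generalize e.symm j = x
        cases x <;> simp }
  have hS : ∀ c j, S c j = Sum.elim c (T c) (e.symm j) := fun c j => rfl
  refine ⟨LinearMap.range S, ?_, ?_⟩
  · rw [LinearMap.finrank_range_of_inj, Module.finrank_fintype_fun_eq_card]
    intro c d h
    funext i
    have h1 := congrFun h (e (Sum.inl i))
    rw [hS, hS, Equiv.symm_apply_apply] at h1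
    exact h1
  · rintro _ ⟨c, rfl⟩
    rw [← Equiv.sum_comp e, Fintype.sum_sum_type]
    simp only [hS, Equiv.symm_apply_apply, Sum.elim_inl, Sum.elim_inr]
    exact hT c

theorem caseA {F : Type*} [Field F] (m : ℕ) (r : F) (hr : r * r = -1) :
    ∃ W : Submodule F (Fin (2 * m) → F),
      Module.finrank F W = m ∧ ∀ w ∈ W, ∑ i, w i ^ 2 = 0 := by
  obtain ⟨W, hW1, hW2⟩ := graph_lemma (F := F) (ι := Fin m) (κ := Fin m) (2 * m)
    (by simp [two_mul]) (r • LinearMap.id) (by
      intro c
      rw [← Finset.sum_add_distrib]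
      apply Finset.sum_eq_zero
      intro i _
      simp only [LinearMap.smul_apply, LinearMap.id_coe, id_eq, Pi.smul_apply, smul_eq_mul]
      linear_combination (c i) ^ 2 * hr)
  exact ⟨W, by rw [hW1, Fintype.card_fin], hW2⟩

theorem caseB {F : Type*} [Field F] (t : ℕ) (a b : F) (hab : a ^ 2 + b ^ 2 = -1) :
    ∃ W : Submodule F (Fin (2 * (t + t)) → F),
      Module.finrank F W = t + t ∧ ∀ w ∈ W, ∑ i, w i ^ 2 = 0 := by
  let T : (Fin t ⊕ Fin t → F) →ₗ[F] (Fin t ⊕ Fin t → F) :=
    { toFun := fun x => Sum.elim (fun j => a * x (Sum.inl j) - b * x (Sum.inr j))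
        (fun j => b * x (Sum.inl j) + a * x (Sum.inr j))
      map_add' := by
        intro x y
        funext j
        cases j <;> simp <;> ring
      map_smul' := by
        intro c x
        funext j
        cases j <;> simp <;> ring }
  have hT : ∀ x j, T x j = Sum.elim (fun j => a * x (Sum.inl j) - b * x (Sum.inr j))
        (fun j => b * x (Sum.inl j) + a * x (Sum.inr j)) j := fun x j => rfl
  obtain ⟨W, hW1, hW2⟩ := graph_lemma (F := F) (ι := Fin t ⊕ Fin t) (κ := Fin t ⊕ Fin t)
    (2 * (t + t)) (by simp [two_mul]) T (by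
      intro x
      rw [Fintype.sum_sum_type, Fintype.sum_sum_type]
      simp only [hT, Sum.elim_inl, Sum.elim_inr]
      rw [← Finset.sum_add_distrib, ← Finset.sum_add_distrib, ← Finset.sum_add_distrib]
      apply Finset.sum_eq_zero
      intro j _
      linear_combination ((x (Sum.inl j)) ^ 2 + (x (Sum.inr j)) ^ 2) * hab)
  exact ⟨W, by rw [hW1]; simp, hW2⟩

/-- Type of the orthonormal form: over a finite field of odd order q and for m ≥ 1, the quadratic form Σ_(i<2m) x_i² on F^(2m) admits an m-dimensional subspace on which it vanishes identically if and only if it is not the case that q ≡ 3 (mod 4) and m is odd. -/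
theorem result {F : Type*} [Field F] [Fintype F] (h2 : (2 : F) ≠ 0) (m : ℕ) (hm : 1 ≤ m) : (∃ W : Submodule F (Fin (2 * m) → F), Module.finrank F W = m ∧ ∀ w ∈ W, ∑ i, w i ^ 2 = 0) ↔ ¬ (Fintype.card F % 4 = 3 ∧ Odd m) := by
  constructor
  · rintro ⟨W, hW, hsing⟩ ⟨hq, hodd⟩
    obtain ⟨s, hs⟩ := fwd h2 m W hW hsing
    rw [hodd.neg_one_pow] at hs
    have h1 : IsSquare (-1 : F) := ⟨s, by rw [hs]; ring⟩
    exact (FiniteField.isSquare_neg_one_iff.mp h1) hq
  · intro h
    rcases Nat.even_or_odd m with he | ho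
    · obtain ⟨t, rfl⟩ := he
      obtain ⟨a, b, hab⟩ := Cfsg.Agent.S0756.solve h2 (-1 : F) (-1 : F)
        (neg_ne_zero.mpr one_ne_zero) (neg_ne_zero.mpr one_ne_zero)
      exact caseB t a b (by linear_combination -hab)
    · have hq : Fintype.card F % 4 ≠ 3 := fun hq => h ⟨hq, ho⟩
      obtain ⟨r, hr⟩ := FiniteField.isSquare_neg_one_iff.mpr hq
      exact caseA m r hr.symm

end Cfsg.Agent.S0759
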