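import Mathlib
import Cfsg.Statements.S0760

set_option autoImplicit false
open Cfsg

namespace Cfsg.Agent.S0760

theorem key {F V : Type*} [Field F] [AddCommGroup V] [Module F V] [FiniteDimensional F V]
    (Q : QuadraticForm F V) (B : LinearMap.BilinForm F V) (hQ : B.Nondegenerate)
    (hBapp : ∀ x y : V, B x y = Q (x + y) - Q x - Q y)
    (W₁ W₂ : Submodule F V) (h₁ : ∀ w ∈ W₁, Q w = 0) (h₂ : ∀ w ∈ W₂, Q w = 0)
    (hmax₁ : ∀ W : Submodule F V, W₁ ≤ W → (∀ w ∈ W, Q w = 0) → W = W₁) :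
    Module.finrank F W₂ ≤ Module.finrank F W₁ := by
  have hiso₂ : ∀ x ∈ W₂, ∀ y ∈ W₂, B x y = 0 := by
    intro x hx y hy
    rw [hBapp, h₂ _ (W₂.add_mem hx hy), h₂ x hx, h₂ y hy]
    simp
  have hle : W₂ ⊓ B.orthogonal W₁ ≤ W₁ := by
    have hsing : ∀ w ∈ (W₂ ⊓ B.orthogonal W₁) ⊔ W₁, Q w = 0 := by
      intro w hw
      obtain ⟨a, ha, b, hb, rfl⟩ := Submodule.mem_sup.mp hw
      have hab : B b a = 0 := ha.2 b hb
      have h3 : Q (b + a) = Q b + Q a + B b a := by
        rw [hBapp]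
        ring
      rw [add_comm a b, h3, h₁ b hb, h₂ a ha.1, hab]
      simp
    have h4 := hmax₁ _ le_sup_right hsing
    calc W₂ ⊓ B.orthogonal W₁
        ≤ (W₂ ⊓ B.orthogonal W₁) ⊔ W₁ := le_sup_left
      _ = W₁ := h4
  have hle' : W₂ ⊓ B.orthogonal W₁ ≤ W₁ ⊓ W₂ := le_inf hle inf_le_left
  have hsup : W₂ ⊔ B.orthogonal W₁ ≤ B.orthogonal (W₁ ⊓ W₂) := by
    apply sup_le
    · intro w hw i hi
      exact hiso₂ i hi.2 w hw
    · exact LinearMap.BilinForm.orthogonal_le inf_le_left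
  have d1 := Submodule.finrank_sup_add_finrank_inf_eq W₂ (B.orthogonal W₁)
  have d2 := LinearMap.BilinForm.finrank_orthogonal hQ W₁
  have d3 := LinearMap.BilinForm.finrank_orthogonal hQ (W₁ ⊓ W₂)
  have d4 := Submodule.finrank_mono hsup
  have d5 := Submodule.finrank_mono hle'
  have d6 : Module.finrank F (W₁ ⊓ W₂ : Submodule F V) ≤ Module.finrank F W₁ :=
    Submodule.finrank_mono inf_le_left
  have d7 : Module.finrank F W₁ ≤ Module.finrank F V := Submodule.finrank_le _
  omega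

theorem half {F V : Type*} [Field F] [AddCommGroup V] [Module F V] [FiniteDimensional F V]
    (Q : QuadraticForm F V) (B : LinearMap.BilinForm F V) (hQ : B.Nondegenerate)
    (hBapp : ∀ x y : V, B x y = Q (x + y) - Q x - Q y)
    (W₁ : Submodule F V) (h₁ : ∀ w ∈ W₁, Q w = 0) :
    2 * Module.finrank F W₁ ≤ Module.finrank F V := by
  have hle : W₁ ≤ B.orthogonal W₁ := by
    intro x hx y hy
    rw [hBapp, h₁ _ (W₁.add_mem hy hx), h₁ x hx, h₁ y hy]
    simp
  have d1 := Submodule.finrank_mono hle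
  have d2 := LinearMap.BilinForm.finrank_orthogonal hQ W₁
  have d3 : Module.finrank F W₁ ≤ Module.finrank F V := Submodule.finrank_le _
  omega

/-- Witt index is well defined: if Q is a quadratic form on a finite-dimensional space V over a finite field with non-degenerate polar form, and W₁, W₂ are subspaces on which Q vanishes that are maximal with this property, then W₁ and W₂ have the same dimension, and twice this dimension is at most dim V. -/
theorem result {F V : Type*} [Field F] [Finite F] [AddCommGroup V] [Module F V] [FiniteDimensional F V] (Q : QuadraticForm F V) (hQ : (QuadraticMap.polarBilin Q).Nondegenerate) (W₁ W₂ : Submodule F V) (h₁ : ∀ w ∈ W₁, Q w = 0) (h₂ : ∀ w ∈ W₂, Q w = 0) (hmax₁ : ∀ W : Submodule F V, W₁ ≤ W → (∀ w ∈ W, Q w = 0) → W = W₁) (hmax₂ : ∀ W : Submodule F V, W₂ ≤ W → (∀ w ∈ W, Q w = 0) → W = W₂) : Module.finrank F W₁ = Module.finrank F W₂ ∧ 2 * Module.finrank F W₁ ≤ Module.finrank F V := by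
  have hBapp : ∀ x y : V, QuadraticMap.polarBilin Q x y = Q (x + y) - Q x - Q y := fun x y => rfl
  exact ⟨le_antisymm (key Q _ hQ hBapp W₂ W₁ h₂ h₁ hmax₂) (key Q _ hQ hBapp W₁ W₂ h₁ h₂ hmax₁),
    half Q _ hQ hBapp W₁ h₁⟩

end Cfsg.Agent.S0760
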