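import Mathlib
import Cfsg.Statements.S0761

set_option autoImplicit false
open Cfsg

namespace Cfsg.Agent.S0761

/-- Hyperbolic partners: let B be a non-degenerate bilinear form on a finite-dimensional space, either alternating, or symmetric with 2 ≠ 0. If Z is a subspace on which B vanishes, x ∉ Z is isotropic and orthogonal to Z, then there is an isotropic y with B x y = 1 which is orthogonal to Z. -/
theorem result {F V : Type*} [Field F] [AddCommGroup V] [Module F V] [FiniteDimensional F V] (B : LinearMap.BilinForm F V) (hB : B.Nondegenerate) (hform : B.IsAlt ∨ (B.IsSymm ∧ (2 : F) ≠ 0)) (x : V) (Z : Submodule F V) (hxZ : x ∉ Z) (hx : B x x = 0) (hxz : ∀ z ∈ Z, B x z = 0) (hZ : ∀ z ∈ Z, ∀ z' ∈ Z, B z z' = 0) : ∃ y : V, B y y = 0 ∧ B x y = 1 ∧ ∀ z ∈ Z, B z y = 0 := by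
  have hrefl : B.IsRefl := by
    rcases hform with h | ⟨h, _⟩
    · exact h.isRefl
    · exact h.isRefl
  have hoo : B.orthogonal (B.orthogonal Z) = Z :=
    LinearMap.BilinForm.orthogonal_orthogonal hB hrefl Z
  have hx' : x ∉ B.orthogonal (B.orthogonal Z) := by rw [hoo]; exact hxZ
  rw [LinearMap.BilinForm.mem_orthogonal_iff] at hx'
  push Not at hx'
  obtain ⟨v, hvZ, hvx⟩ := hx'
  rw [LinearMap.BilinForm.mem_orthogonal_iff] at hvZ
  have hxv : B x v ≠ 0 := fun h => hvx (hrefl _ _ h)
  set a := B x v with ha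
  set v' := a⁻¹ • v with hv'
  have h1 : B x v' = 1 := by
    rw [hv', map_smul, smul_eq_mul, ← ha, inv_mul_cancel₀ hxv]
  have h2 : ∀ z ∈ Z, B z v' = 0 := by
    intro z hz
    rw [hv', map_smul, hvZ z hz, smul_zero]
  have hzx : ∀ z ∈ Z, B z x = 0 := fun z hz => hrefl _ _ (hxz z hz)
  rcases hform with hA | ⟨hS, h2ne⟩
  · exact ⟨v', hA v', h1, h2⟩
  · have hsymm : ∀ u w, B u w = B w u := fun u w => (LinearMap.BilinForm.isSymm_def.mp hS u w)
    have h1' : B v' x = 1 := by rw [hsymm]; exact h1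
    refine ⟨v' - (B v' v' / 2) • x, ?_, ?_, ?_⟩
    · simp only [map_sub, map_smul, LinearMap.sub_apply, LinearMap.smul_apply, smul_eq_mul, h1, h1', hx]
      field_simp
      ring
    · simp only [map_sub, map_smul, smul_eq_mul, h1, hx]
      ring
    · intro z hz
      simp only [map_sub, map_smul, smul_eq_mul, h2 z hz, hzx z hz]
      ring

end Cfsg.Agent.S0761
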