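import Mathlib
import Cfsg.Statements.S0762

set_option autoImplicit false
open Cfsg

namespace Cfsg.Agent.S0762

theorem lemmaA {F V : Type*} [Field F] [Finite F] [CharP F 2] [AddCommGroup V] [Module F V]
    (Q : QuadraticForm F V) (r s : V)
    (hind : ∀ a b : F, a • r + b • s = 0 → a = 0 ∧ b = 0)
    (hrs : QuadraticMap.polar ⇑Q r s = 0) : ∃ v : V, v ≠ 0 ∧ Q v = 0 := by
  have h2 : (2 : F) = 0 := by exact_mod_cast CharP.cast_eq_zero F 2
  by_cases hr : Q r = 0
  · refine ⟨r, ?_, hr⟩
    intro h0
    have := hind 1 0 (by simp [h0])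
    exact one_ne_zero this.1
  · obtain ⟨t, ht⟩ := isSquare_of_charTwo' (Q s / Q r)
    refine ⟨t • r + s, ?_, ?_⟩
    · intro h0
      have := hind t 1 (by simpa using h0)
      exact one_ne_zero this.2
    · rw [QuadraticMap.map_add (⇑Q) (t • r) s, QuadraticMap.map_smul, QuadraticMap.polar_smul_left, hrs,
        smul_zero, add_zero, smul_eq_mul, ← ht]
      field_simp
      linear_combination (Q s) * h2

/-- In characteristic two over a finite field, a quadratic form on a space of dimension at least 3 vanishes on some non-zero vector. -/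
theorem result {F V : Type*} [Field F] [Finite F] [CharP F 2] [AddCommGroup V] [Module F V] [FiniteDimensional F V] (Q : QuadraticForm F V) (h3 : 3 ≤ Module.finrank F V) : ∃ v : V, v ≠ 0 ∧ Q v = 0 := by
  have h2 : (2 : F) = 0 := by exact_mod_cast CharP.cast_eq_zero F 2
  obtain ⟨f, hf⟩ := exists_linearIndependent_of_le_finrank h3
  rw [Fintype.linearIndependent_iff] at hf
  simp only [Fin.sum_univ_three] at hf
  set u := f 0 with hu
  set v := f 1 with hv
  set w := f 2 with hw
  have hind3 : ∀ a b c : F, a • u + b • v + c • w = 0 → a = 0 ∧ b = 0 ∧ c = 0 := by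
    intro a b c h
    have := hf ![a, b, c] (by simpa using h)
    exact ⟨this 0, this 1, this 2⟩
  have hself : ∀ z : V, QuadraticMap.polar ⇑Q z z = 0 := by
    intro z
    rw [QuadraticMap.polar_self, two_smul, ← two_mul, h2, zero_mul]
  have hcomm : ∀ y z : V, QuadraticMap.polar ⇑Q y z = QuadraticMap.polar ⇑Q z y :=
    fun y z => QuadraticMap.polar_comm _ _ _
  by_cases huv : QuadraticMap.polar ⇑Q u v = 0
  · apply lemmaA Q u v _ huv
    intro a b h
    have := hind3 a b 0 (by simpa using h)
    exact ⟨this.1, this.2.1⟩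
  · set r := QuadraticMap.polar ⇑Q v w • u + QuadraticMap.polar ⇑Q w u • v +
      QuadraticMap.polar ⇑Q u v • w with hr
    have hru : QuadraticMap.polar ⇑Q r u = 0 := by
      rw [hr, QuadraticMap.polar_add_left, QuadraticMap.polar_add_left, QuadraticMap.polar_smul_left,
        QuadraticMap.polar_smul_left, QuadraticMap.polar_smul_left, hself u, hcomm v u, hcomm w u]
      simp only [smul_eq_mul]
      linear_combination (QuadraticMap.polar ⇑Q u w * QuadraticMap.polar ⇑Q u v) * h2
    apply lemmaA Q r u _ hru
    intro a b h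
    rw [hr] at h
    have h' : (a * QuadraticMap.polar ⇑Q v w + b) • u + (a * QuadraticMap.polar ⇑Q w u) • v +
        (a * QuadraticMap.polar ⇑Q u v) • w = 0 := by
      rw [← h]
      simp only [smul_add, smul_smul, add_smul]
      abel
    obtain ⟨h1, _, h3'⟩ := hind3 _ _ _ h'
    have ha : a = 0 := by
      rcases mul_eq_zero.mp h3' with h | h
      · exact h
      · exact absurd h huv
    refine ⟨ha, ?_⟩
    rw [ha] at h1
    simpa using h1

end Cfsg.Agent.S0762
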