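import Mathlib
import Cfsg.Statements.S0763

set_option autoImplicit false
open Cfsg

namespace Cfsg.Agent.S0763

/-- Binary quadratic forms in characteristic two over a finite field: if Q is a quadratic form on a 2-dimensional space whose polar form is non-degenerate, then either there are vectors v, w with Q v = Q w = 0 and polar value 1 (Q is xy in these coordinates), or there are v, w and μ with Q v = 1, Q w = μ, polar value 1 and x² + x + μ without roots in F (Q is x² + xy + μy²). -/
theorem result {F V : Type*} [Field F] [Finite F] [CharP F 2] [AddCommGroup V] [Module F V] (Q : QuadraticForm F V) (h2 : Module.finrank F V = 2) (hQ : (QuadraticMap.polarBilin Q).Nondegenerate) : (∃ v w : V, LinearIndependent F ![v, w] ∧ Q v = 0 ∧ Q w = 0 ∧ QuadraticMap.polar Q v w = 1) ∨ (∃ (v w : V) (μ : F), LinearIndependent F ![v, w] ∧ (∀ x : F, x ^ 2 + x + μ ≠ 0) ∧ Q v = 1 ∧ Q w = μ ∧ QuadraticMap.polar Q v w = 1) := by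
  have h2' : (2 : F) = 0 := by exact_mod_cast CharP.cast_eq_zero F 2
  have hself : ∀ z : V, QuadraticMap.polar ⇑Q z z = 0 := by
    intro z
    rw [QuadraticMap.polar_self, two_smul, ← two_mul, h2', zero_mul]
  have hcomm : ∀ y z : V, QuadraticMap.polar ⇑Q y z = QuadraticMap.polar ⇑Q z y :=
    fun y z => QuadraticMap.polar_comm _ _ _
  have hnd : ∀ x : V, x ≠ 0 → ∃ y, QuadraticMap.polar ⇑Q x y ≠ 0 := by
    intro x hx
    by_contra hcon
    push Not at hcon
    exact hx (hQ.1 x (fun y => by rw [QuadraticMap.polarBilin_apply_apply]; exact hcon y))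
  have hnd1 : ∀ x : V, x ≠ 0 → ∃ y, QuadraticMap.polar ⇑Q x y = 1 := by
    intro x hx
    obtain ⟨y, hy⟩ := hnd x hx
    refine ⟨(QuadraticMap.polar ⇑Q x y)⁻¹ • y, ?_⟩
    rw [QuadraticMap.polar_smul_right, smul_eq_mul, inv_mul_cancel₀ hy]
  have hli : ∀ v w : V, QuadraticMap.polar ⇑Q v w = 1 → LinearIndependent F ![v, w] := by
    intro v w hvw
    rw [LinearIndependent.pair_iff]
    intro s t hst
    have e1 := congrArg (fun z => QuadraticMap.polar ⇑Q z w) hst
    have e2 := congrArg (fun z => QuadraticMap.polar ⇑Q v z) hst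
    simp only [QuadraticMap.polar_add_left, QuadraticMap.polar_smul_left,
      QuadraticMap.polar_add_right, QuadraticMap.polar_smul_right, hvw, hself, smul_eq_mul,
      mul_one, mul_zero, add_zero, zero_add, QuadraticMap.polar_zero_left,
      QuadraticMap.polar_zero_right] at e1 e2
    exact ⟨e1, e2⟩
  by_cases hiso : ∃ v : V, v ≠ 0 ∧ Q v = 0
  · left
    obtain ⟨v, hv0, hQv⟩ := hiso
    obtain ⟨w1, hw1⟩ := hnd1 v hv0
    have hp : QuadraticMap.polar ⇑Q v (w1 + (- Q w1) • v) = 1 := by
      rw [QuadraticMap.polar_add_right, QuadraticMap.polar_smul_right, hself, hw1]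
      simp
    refine ⟨v, w1 + (- Q w1) • v, hli _ _ hp, hQv, ?_, hp⟩
    rw [QuadraticMap.map_add (⇑Q), QuadraticMap.map_smul, hQv, QuadraticMap.polar_smul_right, hcomm, hw1]
    simp
  · right
    push Not at hiso
    have hnt : Nontrivial V := Module.nontrivial_of_finrank_pos (R := F) (by omega)
    obtain ⟨v0, hv0⟩ := exists_ne (0 : V)
    have hQv0 : Q v0 ≠ 0 := hiso v0 hv0
    obtain ⟨t, ht⟩ := isSquare_of_charTwo' (Q v0)
    have ht0 : t ≠ 0 := by
      rintro rfl
      apply hQv0
      rw [ht]
      simp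
    set v := t⁻¹ • v0 with hv
    have hQv : Q v = 1 := by
      rw [hv, QuadraticMap.map_smul, ht, smul_eq_mul]
      field_simp
    have hvne : v ≠ 0 := by
      intro h
      rw [h, QuadraticMap.map_zero] at hQv
      exact zero_ne_one hQv
    obtain ⟨w, hw⟩ := hnd1 v hvne
    refine ⟨v, w, Q w, hli v w hw, ?_, hQv, rfl, hw⟩
    intro x hx
    have hQxw : Q (x • v + w) = 0 := by
      rw [QuadraticMap.map_add (⇑Q), QuadraticMap.map_smul, hQv, QuadraticMap.polar_smul_left, hw]
      simp only [smul_eq_mul, mul_one]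
      linear_combination hx
    have hz : x • v + w = 0 := by
      by_contra hne
      exact hiso _ hne hQxw
    have h1 : QuadraticMap.polar ⇑Q v (x • v + w) = 1 := by
      rw [QuadraticMap.polar_add_right, QuadraticMap.polar_smul_right, hself, hw]
      simp
    rw [hz, QuadraticMap.polar_zero_right] at h1
    exact zero_ne_one h1

end Cfsg.Agent.S0763
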