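import Mathlib
import Cfsg.Statements.S0769

set_option autoImplicit false
open Cfsg

namespace Cfsg.Agent.S0769

theorem card_pairs (n : ℕ) : Nat.card {p : Fin n × Fin n // p.2 < p.1} = n * (n - 1) / 2 := by
  classical
  rw [Nat.card_eq_fintype_card, Fintype.card_subtype, Finset.card_filter, Fintype.sum_prod_type]
  have h : ∀ i : Fin n, ∑ j : Fin n, (if j < i then 1 else 0) = (i : ℕ) := by
    intro i
    rw [← Finset.card_filter]
    have e : Finset.univ.filter (fun j : Fin n => j < i) = Finset.Iio i := by
      ext j; simp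
    rw [e, Fin.card_Iio]
  simp only [h]
  rw [Fin.sum_univ_eq_sum_range (fun i => i) n, Finset.sum_range_id]

theorem det_lower {F : Type*} [Field F] {n : ℕ} (A : Matrix (Fin n) (Fin n) F)
    (hA : ∀ i j : Fin n, i < j → A i j = 0) : A.det = ∏ i, A i i := by
  apply Matrix.det_of_isLowerTriangular
  intro i j hij
  exact hA i j hij

/-- Lower triangular matrices with non-zero diagonal. -/
def T (F : Type*) [Field F] (n : ℕ) : Type _ :=
  {A : Matrix (Fin n) (Fin n) F // (∀ i j : Fin n, i < j → A i j = 0) ∧ ∀ i, A i i ≠ 0}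

noncomputable def e1 (F : Type*) [Field F] (n : ℕ) :
    {g : Matrix.GeneralLinearGroup (Fin n) F //
      ∀ i j : Fin n, i < j → (g : Matrix (Fin n) (Fin n) F) i j = 0} ≃ T F n where
  toFun g := ⟨(g.1 : Matrix (Fin n) (Fin n) F), g.2, by
    have hdet : (g.1 : Matrix (Fin n) (Fin n) F).det ≠ 0 :=
      ((Matrix.isUnit_iff_isUnit_det _).mp g.1.isUnit).ne_zero
    rw [det_lower _ g.2] at hdet
    exact fun i => (Finset.prod_ne_zero_iff.mp hdet) i (Finset.mem_univ i)⟩
  invFun A := ⟨Matrix.GeneralLinearGroup.mkOfDetNeZero A.1 (by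
    rw [det_lower _ A.2.1]
    exact Finset.prod_ne_zero_iff.mpr (fun i _ => A.2.2 i)), A.2.1⟩
  left_inv g := Subtype.ext (Units.ext rfl)
  right_inv A := rfl

noncomputable def e2 (F : Type*) [Field F] (n : ℕ) :
    T F n ≃ ({p : Fin n × Fin n // p.2 < p.1} → F) × (Fin n → {x : F // x ≠ 0}) where
  toFun A := (fun p => A.1 p.1.1 p.1.2, fun i => ⟨A.1 i i, A.2.2 i⟩)
  invFun fd := ⟨Matrix.of (fun i j => if h : j < i then fd.1 ⟨(i, j), h⟩
      else if i = j then (fd.2 i).1 else 0), by
    constructor
    · intro i j hij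
      have h1 : ¬ j < i := not_lt.mpr hij.le
      have h2 : i ≠ j := hij.ne
      simp [h1, h2]
    · intro i
      simp only [Matrix.of_apply, lt_self_iff_false, dite_false, if_true]
      exact (fd.2 i).2⟩
  left_inv A := by
    apply Subtype.ext
    ext i j
    simp only [Matrix.of_apply]
    by_cases h : j < i
    · simp [h]
    · by_cases h2 : i = j
      · subst h2; simp
      · have : i < j := lt_of_le_of_ne (not_lt.mp h) h2
        simp [h, h2, A.2.1 i j this]
  right_inv fd := by
    apply Prod.ext
    · funext p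
      simp [p.2]
    · funext i
      apply Subtype.ext
      simp

/-- Order of the Borel subgroup of GL_n(q): the invertible lower-triangular n × n matrices over a field with q elements number q^(n(n-1)/2) (q-1)^n (unitriangular part times the diagonal torus). -/
theorem result {F : Type*} [Field F] [Fintype F] {q : ℕ} (hF : Fintype.card F = q) (n : ℕ) : Nat.card {g : Matrix.GeneralLinearGroup (Fin n) F // ∀ i j : Fin n, i < j → (g : Matrix (Fin n) (Fin n) F) i j = 0} = q ^ (n * (n - 1) / 2) * (q - 1) ^ n := by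
  classical
  rw [Nat.card_congr (e1 F n), Nat.card_congr (e2 F n), Nat.card_prod, Nat.card_fun, Nat.card_fun,
    card_pairs, Nat.card_eq_fintype_card (α := F), hF, Nat.card_eq_fintype_card (α := Fin n),
    Fintype.card_fin, ← Nat.card_congr (unitsEquivNeZero (G₀ := F)), Nat.card_units,
    Nat.card_eq_fintype_card, hF]

end Cfsg.Agent.S0769
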