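import Mathlib
import Cfsg.Statements.S0770

set_option autoImplicit false
open Cfsg

namespace Cfsg.Agent.S0770

theorem mem_diag_iff {F : Type*} [Field F] (n : ℕ) (h : Matrix.GeneralLinearGroup (Fin n) F) :
    h ∈ ((Units.map (Matrix.diagonalRingHom (Fin n) F).toMonoidHom).range :
      Subgroup (Matrix.GeneralLinearGroup (Fin n) F)) ↔
      ∀ i j : Fin n, i ≠ j → (h : Matrix (Fin n) (Fin n) F) i j = 0 := by
  constructor
  · rintro ⟨d, rfl⟩ i j hij
    simp [Matrix.diagonal_apply_ne _ hij]
  · intro hd
    have hH : Matrix.diagonal (fun i => (h : Matrix (Fin n) (Fin n) F) i i)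
        = (h : Matrix (Fin n) (Fin n) F) := by
      ext i j
      by_cases hij : i = j
      · subst hij; simp
      · rw [Matrix.diagonal_apply_ne _ hij, hd i j hij]
    have hdet : (h : Matrix (Fin n) (Fin n) F).det ≠ 0 := (Matrix.isUnits_det_units h).ne_zero
    have hdet' : (Matrix.diagonal (fun i => (h : Matrix (Fin n) (Fin n) F) i i)).det ≠ 0 := by
      rw [hH]; exact hdet
    rw [Matrix.det_diagonal] at hdet'
    have hne : ∀ i, (h : Matrix (Fin n) (Fin n) F) i i ≠ 0 :=
      fun i => (Finset.prod_ne_zero_iff.mp hdet') i (Finset.mem_univ i)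
    refine ⟨⟨fun i => (h : Matrix (Fin n) (Fin n) F) i i,
      fun i => ((h : Matrix (Fin n) (Fin n) F) i i)⁻¹, ?_, ?_⟩, ?_⟩
    · ext i; simp [hne i]
    · ext i; simp [hne i]
    · apply Units.ext
      rw [Units.coe_map]
      exact hH

/-- For a field with at least 3 elements, an invertible matrix normalises the subgroup of invertible diagonal matrices of GL_n if and only if it is monomial (exactly one non-zero entry in each row). -/
theorem result {F : Type*} [Field F] (hF : ∃ a : F, a ≠ 0 ∧ a ≠ 1) (n : ℕ) (g : Matrix.GeneralLinearGroup (Fin n) F) : g ∈ Subgroup.normalizer ((Units.map (Matrix.diagonalRingHom (Fin n) F).toMonoidHom).range : Subgroup (Matrix.GeneralLinearGroup (Fin n) F)) ↔ ∀ i : Fin n, ∃! j : Fin n, (g : Matrix (Fin n) (Fin n) F) i j ≠ 0 := by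
  rw [Subgroup.mem_normalizer_iff]
  simp only [mem_diag_iff]
  have hMG : ∀ h : Matrix.GeneralLinearGroup (Fin n) F,
      ((g * h * g⁻¹ : Matrix.GeneralLinearGroup (Fin n) F) : Matrix (Fin n) (Fin n) F)
        * (g : Matrix (Fin n) (Fin n) F)
        = (g : Matrix (Fin n) (Fin n) F) * (h : Matrix (Fin n) (Fin n) F) := by
    intro h
    rw [← Units.val_mul, ← Units.val_mul]
    congr 1
    group
  constructor
  · intro hN i
    obtain ⟨a, ha0, ha1⟩ := hF
    have hex : ∃ j, (g : Matrix (Fin n) (Fin n) F) i j ≠ 0 := by
      by_contra hcon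
      push Not at hcon
      have h1 : ((g : Matrix (Fin n) (Fin n) F) *
          ((g⁻¹ : Matrix.GeneralLinearGroup (Fin n) F) : Matrix (Fin n) (Fin n) F)) i i = 1 := by
        rw [← Units.val_mul, mul_inv_cancel]; simp
      rw [Matrix.mul_apply] at h1
      simp [hcon] at h1
    obtain ⟨j, hj⟩ := hex
    refine ⟨j, hj, ?_⟩
    intro k hk
    by_contra hkj
    set dv : Fin n → F := fun l => if l = j then a else 1 with hdv
    have hdv0 : ∀ l, dv l ≠ 0 := by
      intro l
      by_cases hl : l = j
      · simp [hdv, hl, ha0]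
      · simp [hdv, hl]
    set u : (Fin n → F)ˣ := ⟨dv, fun l => (dv l)⁻¹, by ext l; simp [hdv0 l],
      by ext l; simp [hdv0 l]⟩ with hu
    set d : Matrix.GeneralLinearGroup (Fin n) F :=
      Units.map (Matrix.diagonalRingHom (Fin n) F).toMonoidHom u with hd
    have hdval : (d : Matrix (Fin n) (Fin n) F) = Matrix.diagonal dv := rfl
    have hM := (hN d).mp (by
      intro i j hij
      rw [hdval, Matrix.diagonal_apply_ne _ hij])
    have e1 := congrFun (congrFun (hMG d) i) j
    have e2 := congrFun (congrFun (hMG d) i) k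
    rw [hdval, Matrix.mul_diagonal, Matrix.mul_apply, Finset.sum_eq_single i] at e1 e2
    · have h3 : dv j = a := by simp [hdv]
      have h4 : dv k = 1 := by simp [hdv, hkj]
      rw [h3] at e1
      rw [h4, mul_one] at e2
      have h5 := mul_right_cancel₀ hk (e2.trans (one_mul _).symm)
      rw [h5, one_mul, mul_comm] at e1
      have h6 := mul_right_cancel₀ hj (e1.symm.trans (one_mul _).symm)
      exact ha1 h6
    · intro l _ hl
      rw [hM i l (Ne.symm hl), zero_mul]
    · simp
    · intro l _ hl
      rw [hM i l (Ne.symm hl), zero_mul]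
    · simp
  · intro hmono h
    choose σ hσ using hmono
    have hσ1 : ∀ i, (g : Matrix (Fin n) (Fin n) F) i (σ i) ≠ 0 := fun i => (hσ i).1
    have hσu : ∀ i j, (g : Matrix (Fin n) (Fin n) F) i j ≠ 0 → j = σ i := fun i j => (hσ i).2 j
    have hsurj : Function.Surjective σ := by
      intro j0
      by_contra hcon
      push Not at hcon
      have hcol : ∀ i, (g : Matrix (Fin n) (Fin n) F) i j0 = 0 := by
        intro i
        by_contra hne
        exact hcon i (hσu i j0 hne).symm
      have h1 : (((g⁻¹ : Matrix.GeneralLinearGroup (Fin n) F) : Matrix (Fin n) (Fin n) F) *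
          (g : Matrix (Fin n) (Fin n) F)) j0 j0 = 1 := by
        rw [← Units.val_mul, inv_mul_cancel]; simp
      rw [Matrix.mul_apply] at h1
      simp [hcol] at h1
    have hinj : Function.Injective σ := Finite.injective_iff_surjective.mpr hsurj
    constructor
    · intro hH i j hij
      have e := congrFun (congrFun (hMG h) i) (σ j)
      rw [Matrix.mul_apply, Matrix.mul_apply, Finset.sum_eq_single j,
        Finset.sum_eq_single (σ j)] at e
      · have h0 : (g : Matrix (Fin n) (Fin n) F) i (σ j) = 0 := by
          by_contra hne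
          exact hij (hinj (hσu i _ hne)).symm
        rw [h0, zero_mul] at e
        exact (mul_eq_zero.mp e).resolve_right (hσ1 j)
      · intro l _ hl
        rw [hH l (σ j) hl, mul_zero]
      · simp
      · intro l _ hl
        have h0 : (g : Matrix (Fin n) (Fin n) F) l (σ j) = 0 := by
          by_contra hne
          exact hl (hinj (hσu l _ hne)).symm
        rw [h0, mul_zero]
      · simp
    · intro hM j k hjk
      obtain ⟨i, rfl⟩ := hsurj j
      have e := congrFun (congrFun (hMG h) i) k
      rw [Matrix.mul_apply, Matrix.mul_apply, Finset.sum_eq_single i,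
        Finset.sum_eq_single (σ i)] at e
      · have h0 : (g : Matrix (Fin n) (Fin n) F) i k = 0 := by
          by_contra hne
          exact hjk (hσu i k hne).symm
        rw [h0, mul_zero] at e
        exact (mul_eq_zero.mp e.symm).resolve_left (hσ1 i)
      · intro l _ hl
        have h0 : (g : Matrix (Fin n) (Fin n) F) i l = 0 := by
          by_contra hne
          exact hl (hσu i l hne)
        rw [h0, zero_mul]
      · simp
      · intro l _ hl
        rw [hM i l (Ne.symm hl), zero_mul]
      · simp

end Cfsg.Agent.S0770
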