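import Mathlib
import Cfsg.Statements.S0771

set_option autoImplicit false
open Cfsg

namespace Cfsg.Agent.S0771

section aux

variable {F : Type*} [Field F] (n k : ℕ)

def ee (hk : k ≤ n) : Fin k ⊕ Fin (n - k) ≃ Fin n :=
  finSumFinEquiv.trans (finCongr (by omega))

theorem ee_inl (hk : k ≤ n) (i : Fin k) : ((ee n k hk (Sum.inl i) : Fin n) : ℕ) = i := by
  simp [ee]

theorem ee_inr (hk : k ≤ n) (j : Fin (n - k)) :
    ((ee n k hk (Sum.inr j) : Fin n) : ℕ) = k + j := by
  simp [ee]

theorem mem_S_iff (hk : k ≤ n) (v : Fin n → F) :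
    v ∈ {v : Fin n → F | ∀ i : Fin n, k ≤ (i : ℕ) → v i = 0} ↔
      ∀ j : Fin (n - k), v (ee n k hk (Sum.inr j)) = 0 := by
  constructor
  · intro h j
    apply h
    rw [ee_inr]
    omega
  · intro h i hi
    rcases hx : (ee n k hk).symm i with i' | j
    · exfalso
      have h1 : i = ee n k hk (Sum.inl i') := by rw [← hx]; simp
      have h2 := ee_inl n k hk i'
      rw [← h1] at h2
      have := i'.2
      omega
    · have h1 : i = ee n k hk (Sum.inr j) := by rw [← hx]; simp
      rw [h1]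
      exact h j

/-- the matrix in block coordinates -/
def MM (hk : k ≤ n) (g : Matrix (Fin n) (Fin n) F) :
    Matrix (Fin k ⊕ Fin (n - k)) (Fin k ⊕ Fin (n - k)) F :=
  g.submatrix (ee n k hk) (ee n k hk)

theorem mulVec_lower (hk : k ≤ n) (g : Matrix (Fin n) (Fin n) F)
    (h21 : (MM n k hk g).toBlocks₂₁ = 0) (v : Fin n → F) (j : Fin (n - k)) :
    (g.mulVec v) (ee n k hk (Sum.inr j))
      = ((MM n k hk g).toBlocks₂₂.mulVec (fun j' => v (ee n k hk (Sum.inr j')))) j := by
  simp only [Matrix.mulVec, dotProduct]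
  rw [← Equiv.sum_comp (ee n k hk), Fintype.sum_sum_type]
  have h1 : ∀ i : Fin k, g (ee n k hk (Sum.inr j)) (ee n k hk (Sum.inl i)) = 0 := by
    intro i
    have := congrFun (congrFun h21 j) i
    simpa [MM, Matrix.toBlocks₂₁] using this
  simp only [h1, zero_mul, Finset.sum_const_zero, zero_add]
  rfl

theorem det_MM (hk : k ≤ n) (g : Matrix (Fin n) (Fin n) F) : (MM n k hk g).det = g.det := by
  unfold MM
  exact Matrix.det_submatrix_equiv_self (ee n k hk) g

theorem MM_blocks (hk : k ≤ n) (g : Matrix (Fin n) (Fin n) F)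
    (h21 : (MM n k hk g).toBlocks₂₁ = 0) :
    MM n k hk g = Matrix.fromBlocks (MM n k hk g).toBlocks₁₁ (MM n k hk g).toBlocks₁₂ 0
      (MM n k hk g).toBlocks₂₂ := by
  conv_lhs => rw [← Matrix.fromBlocks_toBlocks (MM n k hk g)]
  rw [h21]

theorem det_blocks (hk : k ≤ n) (g : Matrix (Fin n) (Fin n) F)
    (h21 : (MM n k hk g).toBlocks₂₁ = 0) :
    g.det = (MM n k hk g).toBlocks₁₁.det * (MM n k hk g).toBlocks₂₂.det := by
  rw [← det_MM n k hk g]
  conv_lhs => rw [MM_blocks n k hk g h21]
  rw [Matrix.det_fromBlocks_zero₂₁]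

theorem mem_iff (hk : k ≤ n) (g : Matrix.GeneralLinearGroup (Fin n) F) :
    g ∈ Cfsg.stabilizing (Cfsg.glToMat (Fin n) F)
        {v : Fin n → F | ∀ i : Fin n, k ≤ (i : ℕ) → v i = 0} ↔
      (MM n k hk (g : Matrix (Fin n) (Fin n) F)).toBlocks₂₁ = 0 := by
  constructor
  · intro hg
    ext j i
    simp only [MM, Matrix.toBlocks₂₁, Matrix.of_apply, Matrix.submatrix_apply, Matrix.zero_apply]
    have h1 : (Pi.single (ee n k hk (Sum.inl i)) (1 : F) : Fin n → F)
        ∈ {v : Fin n → F | ∀ i : Fin n, k ≤ (i : ℕ) → v i = 0} := by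
      rw [mem_S_iff n k hk]
      intro j'
      rw [Pi.single_apply, if_neg]
      intro h
      have := (ee n k hk).injective h
      exact Sum.inr_ne_inl this
    have h2 := (hg _).mp h1
    rw [mem_S_iff n k hk] at h2
    have h3 := h2 j
    change ((g : Matrix (Fin n) (Fin n) F).mulVec (Pi.single (ee n k hk (Sum.inl i)) (1 : F)))
      (ee n k hk (Sum.inr j)) = 0 at h3
    rw [Matrix.mulVec_single_one] at h3
    exact h3
  · intro h21 v
    change v ∈ {v : Fin n → F | ∀ i : Fin n, k ≤ (i : ℕ) → v i = 0} ↔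
      (g : Matrix (Fin n) (Fin n) F).mulVec v ∈ {v : Fin n → F | ∀ i : Fin n, k ≤ (i : ℕ) → v i = 0}
    rw [mem_S_iff n k hk, mem_S_iff n k hk]
    have hdet : (MM n k hk (g : Matrix (Fin n) (Fin n) F)).toBlocks₂₂.det ≠ 0 := by
      have h1 := det_blocks n k hk (g : Matrix (Fin n) (Fin n) F) h21
      have h2 : (g : Matrix (Fin n) (Fin n) F).det ≠ 0 := by
        have := Matrix.GeneralLinearGroup.det_ne_zero g
        exact this
      intro h0
      rw [h0, mul_zero] at h1
      exact h2 h1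
    constructor
    · intro h j
      rw [mulVec_lower n k hk _ h21]
      have h0 : (fun j' => v (ee n k hk (Sum.inr j'))) = 0 := funext h
      rw [h0, Matrix.mulVec_zero]
      rfl
    · intro h j
      have h0 : (MM n k hk (g : Matrix (Fin n) (Fin n) F)).toBlocks₂₂.mulVec
          (fun j' => v (ee n k hk (Sum.inr j'))) = 0 := by
        funext j'
        rw [← mulVec_lower n k hk _ h21]
        exact h j'
      have h1 := Matrix.eq_zero_of_mulVec_eq_zero hdet h0
      exact congrFun h1 j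

noncomputable def parEquiv (hk : k ≤ n) :
    ↥(Cfsg.stabilizing (Cfsg.glToMat (Fin n) F)
        {v : Fin n → F | ∀ i : Fin n, k ≤ (i : ℕ) → v i = 0}) ≃
      Matrix.GeneralLinearGroup (Fin k) F × Matrix.GeneralLinearGroup (Fin (n - k)) F
        × Matrix (Fin k) (Fin (n - k)) F where
  toFun g :=
    have h21 := (mem_iff n k hk g.1).mp g.2
    have hd := det_blocks n k hk (g.1 : Matrix (Fin n) (Fin n) F) h21
    have hg : (g.1 : Matrix (Fin n) (Fin n) F).det ≠ 0 := Matrix.GeneralLinearGroup.det_ne_zero g.1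
    (Matrix.GeneralLinearGroup.mkOfDetNeZero (MM n k hk (g.1 : Matrix (Fin n) (Fin n) F)).toBlocks₁₁
        (fun h0 => hg (by rw [hd, h0, zero_mul])),
      Matrix.GeneralLinearGroup.mkOfDetNeZero (MM n k hk (g.1 : Matrix (Fin n) (Fin n) F)).toBlocks₂₂
        (fun h0 => hg (by rw [hd, h0, mul_zero])),
      (MM n k hk (g.1 : Matrix (Fin n) (Fin n) F)).toBlocks₁₂)
  invFun p :=
    ⟨Matrix.GeneralLinearGroup.mkOfDetNeZero
      ((Matrix.fromBlocks (p.1 : Matrix (Fin k) (Fin k) F) p.2.2 0
        (p.2.1 : Matrix (Fin (n - k)) (Fin (n - k)) F)).submatrix (ee n k hk).symm (ee n k hk).symm)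
      (by
        rw [Matrix.det_submatrix_equiv_self, Matrix.det_fromBlocks_zero₂₁]
        exact mul_ne_zero (Matrix.GeneralLinearGroup.det_ne_zero p.1)
          (Matrix.GeneralLinearGroup.det_ne_zero p.2.1)),
      by
        rw [mem_iff n k hk]
        change (MM n k hk ((Matrix.fromBlocks (p.1 : Matrix (Fin k) (Fin k) F) p.2.2 0
          (p.2.1 : Matrix (Fin (n - k)) (Fin (n - k)) F)).submatrix (ee n k hk).symm
            (ee n k hk).symm)).toBlocks₂₁ = 0
        unfold MM
        rw [Matrix.submatrix_submatrix]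
        simp⟩
  left_inv g := by
    have h21 := (mem_iff n k hk g.1).mp g.2
    apply Subtype.ext
    apply Units.ext
    change (Matrix.fromBlocks (MM n k hk (g.1 : Matrix (Fin n) (Fin n) F)).toBlocks₁₁
        (MM n k hk (g.1 : Matrix (Fin n) (Fin n) F)).toBlocks₁₂ 0
        (MM n k hk (g.1 : Matrix (Fin n) (Fin n) F)).toBlocks₂₂).submatrix (ee n k hk).symm
          (ee n k hk).symm = (g.1 : Matrix (Fin n) (Fin n) F)
    rw [← MM_blocks n k hk _ h21]
    unfold MM
    rw [Matrix.submatrix_submatrix]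
    simp
  right_inv p := by
    have h1 : MM n k hk ((Matrix.fromBlocks (p.1 : Matrix (Fin k) (Fin k) F) p.2.2 0
          (p.2.1 : Matrix (Fin (n - k)) (Fin (n - k)) F)).submatrix (ee n k hk).symm
            (ee n k hk).symm)
        = Matrix.fromBlocks (p.1 : Matrix (Fin k) (Fin k) F) p.2.2 0
          (p.2.1 : Matrix (Fin (n - k)) (Fin (n - k)) F) := by
      unfold MM
      rw [Matrix.submatrix_submatrix]
      simp
    apply Prod.ext
    · apply Units.ext
      change (MM n k hk ((Matrix.fromBlocks (p.1 : Matrix (Fin k) (Fin k) F) p.2.2 0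
          (p.2.1 : Matrix (Fin (n - k)) (Fin (n - k)) F)).submatrix (ee n k hk).symm
            (ee n k hk).symm)).toBlocks₁₁ = _
      rw [h1, Matrix.toBlocks_fromBlocks₁₁]
    · apply Prod.ext
      · apply Units.ext
        change (MM n k hk ((Matrix.fromBlocks (p.1 : Matrix (Fin k) (Fin k) F) p.2.2 0
            (p.2.1 : Matrix (Fin (n - k)) (Fin (n - k)) F)).submatrix (ee n k hk).symm
              (ee n k hk).symm)).toBlocks₂₂ = _
        rw [h1, Matrix.toBlocks_fromBlocks₂₂]
      · change (MM n k hk ((Matrix.fromBlocks (p.1 : Matrix (Fin k) (Fin k) F) p.2.2 0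
            (p.2.1 : Matrix (Fin (n - k)) (Fin (n - k)) F)).submatrix (ee n k hk).symm
              (ee n k hk).symm)).toBlocks₁₂ = _
        rw [h1, Matrix.toBlocks_fromBlocks₁₂]

end aux

/-- Maximal parabolic of GL_n(q): the stabiliser of the coordinate subspace spanned by the first k basis vectors has order q^(k(n-k)) · |GL_k(q)| · |GL_(n-k)(q)| (unipotent radical of order q^(k(n-k)) and Levi complement GL_k × GL_(n-k)). -/
theorem result {F : Type*} [Field F] [Fintype F] {q : ℕ} (hF : Fintype.card F = q) (n k : ℕ) (hk : k ≤ n) : Nat.card ↥(Cfsg.stabilizing (Cfsg.glToMat (Fin n) F) {v : Fin n → F | ∀ i : Fin n, k ≤ (i : ℕ) → v i = 0}) = q ^ (k * (n - k)) * (∏ i : Fin k, (q ^ k - q ^ (i : ℕ))) * ∏ i : Fin (n - k), (q ^ (n - k) - q ^ (i : ℕ)) := by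
  classical
  subst hF
  rw [Nat.card_congr (parEquiv n k hk), Nat.card_prod, Nat.card_prod, Matrix.card_GL_field,
    Matrix.card_GL_field]
  have h1 : Nat.card (Matrix (Fin k) (Fin (n - k)) F) = Fintype.card F ^ (k * (n - k)) := by
    change Nat.card (Fin k → Fin (n - k) → F) = _
    rw [Nat.card_eq_fintype_card, Fintype.card_fun, Fintype.card_fun, Fintype.card_fin,
      Fintype.card_fin, ← pow_mul, mul_comm]
  rw [h1]
  ring

end Cfsg.Agent.S0771
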