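import Mathlib
import Cfsg.Statements.S0773
import Cfsg.Agent.S0771

set_option autoImplicit false
open Cfsg

namespace Cfsg.Agent.S0773

section aux

variable {F : Type*} [Field F] (n : ℕ)

/-- entrywise description of the parabolic -/
theorem mem_iff' (k : ℕ) (hk : k ≤ n) (g : Matrix.GeneralLinearGroup (Fin n) F) :
    g ∈ Cfsg.stabilizing (Cfsg.glToMat (Fin n) F)
        {v : Fin n → F | ∀ i : Fin n, k ≤ (i : ℕ) → v i = 0} ↔
      ∀ i j : Fin n, k ≤ (i : ℕ) → (j : ℕ) < k → (g : Matrix (Fin n) (Fin n) F) i j = 0 := by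
  rw [Cfsg.Agent.S0771.mem_iff n k hk]
  constructor
  · intro h i j hi hj
    have h1 := congrFun (congrFun h ⟨(i : ℕ) - k, by omega⟩) ⟨(j : ℕ), hj⟩
    simp only [Cfsg.Agent.S0771.MM, Matrix.toBlocks₂₁, Matrix.of_apply, Matrix.submatrix_apply,
      Matrix.zero_apply] at h1
    have e1 : Cfsg.Agent.S0771.ee n k hk (Sum.inr ⟨(i : ℕ) - k, by omega⟩) = i := by
      apply Fin.ext
      rw [Cfsg.Agent.S0771.ee_inr]
      simp only
      omega
    have e2 : Cfsg.Agent.S0771.ee n k hk (Sum.inl ⟨(j : ℕ), hj⟩) = j := by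
      apply Fin.ext
      rw [Cfsg.Agent.S0771.ee_inl]
    rw [e1, e2] at h1
    exact h1
  · intro h
    ext j i
    simp only [Cfsg.Agent.S0771.MM, Matrix.toBlocks₂₁, Matrix.of_apply, Matrix.submatrix_apply,
      Matrix.zero_apply]
    apply h
    · rw [Cfsg.Agent.S0771.ee_inr]
      omega
    · rw [Cfsg.Agent.S0771.ee_inl]
      exact i.2

/-- inverse transpose, reindexed by reversal -/
def psi : Matrix.GeneralLinearGroup (Fin n) F →* Matrix.GeneralLinearGroup (Fin n) F where
  toFun A :=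
    ⟨(((A⁻¹ : Matrix.GeneralLinearGroup (Fin n) F) : Matrix (Fin n) (Fin n) F).transpose).submatrix
        (Fin.revPerm (n := n)) (Fin.revPerm (n := n)),
      ((A : Matrix (Fin n) (Fin n) F).transpose).submatrix
        (Fin.revPerm (n := n)) (Fin.revPerm (n := n)),
      by
        rw [Matrix.submatrix_mul_equiv, ← Matrix.transpose_mul, Units.mul_inv,
          Matrix.transpose_one, Matrix.submatrix_one_equiv],
      by
        rw [Matrix.submatrix_mul_equiv, ← Matrix.transpose_mul, Units.inv_mul,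
          Matrix.transpose_one, Matrix.submatrix_one_equiv]⟩
  map_one' := by
    apply Units.ext
    simp only [inv_one, Units.val_one, Matrix.transpose_one, Matrix.submatrix_one_equiv]
  map_mul' := by
    intro A B
    apply Units.ext
    simp only [mul_inv_rev, Units.val_mul, Matrix.transpose_mul, Matrix.submatrix_mul_equiv]

theorem psi_apply (A : Matrix.GeneralLinearGroup (Fin n) F) (i j : Fin n) :
    (psi n A : Matrix (Fin n) (Fin n) F) i j
      = ((A⁻¹ : Matrix.GeneralLinearGroup (Fin n) F) : Matrix (Fin n) (Fin n) F) j.rev i.rev := rfl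

theorem psi_psi (A : Matrix.GeneralLinearGroup (Fin n) F) : psi n (psi n A) = A := by
  apply Units.ext
  ext i j
  rw [psi_apply]
  change ((A : Matrix (Fin n) (Fin n) F).transpose).submatrix
        (Fin.revPerm (n := n)) (Fin.revPerm (n := n)) j.rev i.rev = _
  simp

theorem psi_mem (k : ℕ) (hk : k ≤ n) (A : Matrix.GeneralLinearGroup (Fin n) F) :
    A ∈ Cfsg.stabilizing (Cfsg.glToMat (Fin n) F)
        {v : Fin n → F | ∀ i : Fin n, k ≤ (i : ℕ) → v i = 0} ↔
    psi n A ∈ Cfsg.stabilizing (Cfsg.glToMat (Fin n) F)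
        {v : Fin n → F | ∀ i : Fin n, n - k ≤ (i : ℕ) → v i = 0} := by
  rw [← inv_mem_iff, mem_iff' n k hk, mem_iff' n (n - k) (Nat.sub_le n k)]
  constructor
  · intro h i j hi hj
    rw [psi_apply]
    apply h
    · rw [Fin.val_rev]
      omega
    · rw [Fin.val_rev]
      omega
  · intro h i j hi hj
    have h1 := h j.rev i.rev (by rw [Fin.val_rev]; omega) (by rw [Fin.val_rev]; have := i.2; omega)
    rw [psi_apply, Fin.rev_rev, Fin.rev_rev] at h1
    exact h1

theorem iso (k : ℕ) (hk : k ≤ n) :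
    Nonempty (↥(Cfsg.stabilizing (Cfsg.glToMat (Fin n) F)
        {v : Fin n → F | ∀ i : Fin n, k ≤ (i : ℕ) → v i = 0}) ≃*
      ↥(Cfsg.stabilizing (Cfsg.glToMat (Fin n) F)
        {v : Fin n → F | ∀ i : Fin n, n - k ≤ (i : ℕ) → v i = 0})) := by
  refine ⟨{ toFun := fun A => ⟨psi n A.1, (psi_mem n k hk A.1).mp A.2⟩
            invFun := fun B => ⟨psi n B.1, (psi_mem n k hk (psi n B.1)).mpr (by
              rw [psi_psi]
              exact B.2)⟩
            left_inv := fun A => Subtype.ext (psi_psi n A.1)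
            right_inv := fun B => Subtype.ext (psi_psi n B.1)
            map_mul' := fun A B => Subtype.ext (map_mul (psi n) A.1 B.1) }⟩

/-- elementary transvection as an element of the general linear group -/
def Tm (i j : Fin n) (hij : i ≠ j) : Matrix.GeneralLinearGroup (Fin n) F :=
  Matrix.GeneralLinearGroup.mkOfDetNeZero (Matrix.transvection i j (1 : F))
    (by rw [Matrix.det_transvection_of_ne _ _ hij]; exact one_ne_zero)

theorem Tm_mulVec (i j : Fin n) (hij : i ≠ j) (v : Fin n → F) :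
    ((Tm n i j hij : Matrix.GeneralLinearGroup (Fin n) F) : Matrix (Fin n) (Fin n) F).mulVec v
      = v + v j • Pi.single i (1 : F) := by
  change (Matrix.transvection i j (1 : F)).mulVec v = _
  rw [Matrix.transvection, Matrix.add_mulVec, Matrix.one_mulVec]
  congr 1
  funext l
  simp only [Matrix.mulVec, dotProduct, Matrix.single_apply, Pi.smul_apply, Pi.single_apply,
    smul_eq_mul]
  by_cases hl : l = i
  · subst hl
    simp
  · have hl' : ¬ i = l := fun h => hl h.symm
    simp [hl, hl']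

theorem Tm_mem (m : ℕ) (hm : m ≤ n) (i j : Fin n) (hij : i ≠ j)
    (h : ¬ (m ≤ (i : ℕ) ∧ (j : ℕ) < m)) :
    Tm n i j hij ∈ Cfsg.stabilizing (Cfsg.glToMat (Fin n) F)
        {v : Fin n → F | ∀ i : Fin n, m ≤ (i : ℕ) → v i = 0} := by
  rw [mem_iff' n m hm]
  intro i' j' hi' hj'
  change (Matrix.transvection i j (1 : F)) i' j' = 0
  have hne : i' ≠ j' := by
    intro h0
    rw [h0] at hi'
    omega
  rw [Matrix.transvection, Matrix.add_apply, Matrix.one_apply_ne hne, zero_add,
    Matrix.single_apply, if_neg]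
  rintro ⟨rfl, rfl⟩
  exact h ⟨hi', hj'⟩

theorem inv_subspace (m : ℕ) (hm : m ≤ n) (U : Submodule F (Fin n → F))
    (hU : ∀ B ∈ Cfsg.stabilizing (Cfsg.glToMat (Fin n) F)
        {v : Fin n → F | ∀ i : Fin n, m ≤ (i : ℕ) → v i = 0},
        ∀ u ∈ U, (B : Matrix (Fin n) (Fin n) F).mulVec u ∈ U)
    (u0 : Fin n → F) (hu0 : u0 ∈ U) (hu0' : u0 ≠ 0) :
    (∀ v, v ∈ U) ∨ (∀ v, v ∈ U ↔ ∀ i : Fin n, m ≤ (i : ℕ) → v i = 0) := by
  classical
  have hstep : ∀ u ∈ U, ∀ i j : Fin n, i ≠ j → ¬ (m ≤ (i : ℕ) ∧ (j : ℕ) < m) → u j ≠ 0 →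
      Pi.single i (1 : F) ∈ U := by
    intro u hu i j hij hnot huj
    have h1 := hU _ (Tm_mem n m hm i j hij hnot) u hu
    rw [Tm_mulVec] at h1
    have h2 : u j • Pi.single i (1 : F) ∈ U := by
      have h3 := U.sub_mem h1 hu
      rwa [add_sub_cancel_left] at h3
    have h4 := U.smul_mem (u j)⁻¹ h2
    rwa [smul_smul, inv_mul_cancel₀ huj, one_smul] at h4
  have hB : ∀ v : Fin n → F, (∀ i, v i = 0 ∨ Pi.single i (1 : F) ∈ U) → v ∈ U := by
    intro v hv
    rw [pi_eq_sum_univ' v]
    apply Submodule.sum_mem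
    intro i _
    rcases hv i with h | h
    · rw [h, zero_smul]
      exact U.zero_mem
    · exact U.smul_mem _ h
  have hA : ∀ u ∈ U, ∀ j : Fin n, u j ≠ 0 →
      (∀ i, i ≠ j → u i = 0 ∨ Pi.single i (1 : F) ∈ U) → Pi.single j (1 : F) ∈ U := by
    intro u hu j huj h
    have h1 : u - u j • Pi.single j (1 : F) ∈ U := by
      apply hB
      intro i
      by_cases hi : i = j
      · left
        subst hi
        simp
      · rcases h i hi with h2 | h2
        · left
          simp [h2, hi]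
        · right
          exact h2
    have h2 : u j • Pi.single j (1 : F) ∈ U := by
      have h3 := U.sub_mem hu h1
      rwa [sub_sub_cancel] at h3
    have h4 := U.smul_mem (u j)⁻¹ h2
    rwa [smul_smul, inv_mul_cancel₀ huj, one_smul] at h4
  by_cases hc : ∃ u ∈ U, ∃ j : Fin n, m ≤ (j : ℕ) ∧ u j ≠ 0
  · left
    obtain ⟨u, hu, j, hj, huj⟩ := hc
    have h1 : ∀ i, i ≠ j → Pi.single i (1 : F) ∈ U := by
      intro i hi
      exact hstep u hu i j hi (by omega) huj
    have h2 : Pi.single j (1 : F) ∈ U := hA u hu j huj (fun i hi => Or.inr (h1 i hi))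
    intro v
    apply hB
    intro i
    right
    by_cases hi : i = j
    · rw [hi]
      exact h2
    · exact h1 i hi
  · right
    push Not at hc
    obtain ⟨j, hj⟩ : ∃ j, u0 j ≠ 0 := by
      by_contra h0
      push Not at h0
      exact hu0' (funext h0)
    have hjm : (j : ℕ) < m := by
      by_contra h0
      exact hj (hc u0 hu0 j (by omega))
    have h1 : ∀ i : Fin n, i ≠ j → (i : ℕ) < m → Pi.single i (1 : F) ∈ U := by
      intro i hi him
      exact hstep u0 hu0 i j hi (by omega) hj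
    have h2 : Pi.single j (1 : F) ∈ U := by
      apply hA u0 hu0 j hj
      intro i hi
      by_cases him : (i : ℕ) < m
      · right
        exact h1 i hi him
      · left
        exact hc u0 hu0 i (by omega)
    intro v
    constructor
    · intro hv i hi
      exact hc v hv i hi
    · intro hv
      apply hB
      intro i
      by_cases him : (i : ℕ) < m
      · right
        by_cases hi : i = j
        · rw [hi]
          exact h2
        · exact h1 i hi him
      · left
        exact hv i (by omega)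

theorem dim_le (a b : ℕ) (ha : a ≤ n) (hb : b ≤ n) (M : Matrix (Fin n) (Fin n) F)
    (hM : Function.Injective M.mulVec)
    (h : ∀ v : Fin n → F, (∀ i : Fin n, a ≤ (i : ℕ) → v i = 0) →
      ∀ i : Fin n, b ≤ (i : ℕ) → (M.mulVec v) i = 0) : a ≤ b := by
  classical
  let ext : (Fin a → F) →ₗ[F] (Fin n → F) :=
    { toFun := fun x i => if h : (i : ℕ) < a then x ⟨i, h⟩ else 0
      map_add' := by
        intro x y
        funext i
        simp only [Pi.add_apply]
        split_ifs <;> simp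
      map_smul' := by
        intro c x
        funext i
        simp only [Pi.smul_apply, RingHom.id_apply, smul_eq_mul]
        split_ifs <;> simp }
  have hext : ∀ x i, ext x i = if h : (i : ℕ) < a then x ⟨i, h⟩ else 0 := fun x i => rfl
  let L : (Fin a → F) →ₗ[F] (Fin b → F) :=
    (LinearMap.funLeft F F (Fin.castLE hb)) ∘ₗ M.mulVecLin ∘ₗ ext
  have hL : ∀ x j, L x j = (M.mulVec (ext x)) (Fin.castLE hb j) := fun x j => rfl
  have hinj : Function.Injective L := by
    rw [injective_iff_map_eq_zero]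
    intro x hx
    have h1 : M.mulVec (ext x) = 0 := by
      funext i
      by_cases hi : (i : ℕ) < b
      · have h2 := congrFun hx ⟨i, hi⟩
        rw [hL] at h2
        exact h2
      · apply h (ext x) _ i (by omega)
        intro i' hi'
        rw [hext, dif_neg (by omega)]
    have h2 : ext x = 0 := hM (by rw [h1, Matrix.mulVec_zero])
    funext i
    have h3 := congrFun h2 (Fin.castLE ha i)
    rw [hext, dif_pos (by simp)] at h3
    exact h3
  have h1 := LinearMap.finrank_le_finrank_of_injective hinj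
  rw [Module.finrank_fin_fun, Module.finrank_fin_fun] at h1
  exact h1

theorem not_conj (k : ℕ) (hk0 : 0 < k) (hkn : k < n) (h2 : 2 * k ≠ n)
    (g : Matrix.GeneralLinearGroup (Fin n) F) :
    (Cfsg.stabilizing (Cfsg.glToMat (Fin n) F)
        {v : Fin n → F | ∀ i : Fin n, k ≤ (i : ℕ) → v i = 0}).map (MulAut.conj g).toMonoidHom ≠
      Cfsg.stabilizing (Cfsg.glToMat (Fin n) F)
        {v : Fin n → F | ∀ i : Fin n, n - k ≤ (i : ℕ) → v i = 0} := by
  classical
  intro hconj
  have hginj : Function.Injective (g : Matrix (Fin n) (Fin n) F).mulVec := by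
    intro x y hxy
    have h1 := congrArg ((g⁻¹ : Matrix.GeneralLinearGroup (Fin n) F) :
      Matrix (Fin n) (Fin n) F).mulVec hxy
    rwa [Matrix.mulVec_mulVec, Matrix.mulVec_mulVec, Units.inv_mul, Matrix.one_mulVec,
      Matrix.one_mulVec] at h1
  have hginj' : Function.Injective ((g⁻¹ : Matrix.GeneralLinearGroup (Fin n) F) :
      Matrix (Fin n) (Fin n) F).mulVec := by
    intro x y hxy
    have h1 := congrArg (g : Matrix (Fin n) (Fin n) F).mulVec hxy
    rwa [Matrix.mulVec_mulVec, Matrix.mulVec_mulVec, Units.mul_inv, Matrix.one_mulVec,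
      Matrix.one_mulVec] at h1
  let U : Submodule F (Fin n → F) :=
    { carrier := {u | ∃ v : Fin n → F, (∀ i : Fin n, k ≤ (i : ℕ) → v i = 0) ∧
        (g : Matrix (Fin n) (Fin n) F).mulVec v = u}
      add_mem' := by
        rintro _ _ ⟨v, hv, rfl⟩ ⟨w, hw, rfl⟩
        refine ⟨v + w, fun i hi => ?_, Matrix.mulVec_add _ _ _⟩
        rw [Pi.add_apply, hv i hi, hw i hi, add_zero]
      zero_mem' := ⟨0, fun i _ => rfl, Matrix.mulVec_zero _⟩
      smul_mem' := by
        rintro c _ ⟨v, hv, rfl⟩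
        refine ⟨c • v, fun i hi => ?_, Matrix.mulVec_smul _ _ _⟩
        rw [Pi.smul_apply, hv i hi, smul_zero] }
  have hUmem : ∀ u, u ∈ U ↔ ∃ v : Fin n → F, (∀ i : Fin n, k ≤ (i : ℕ) → v i = 0) ∧
        (g : Matrix (Fin n) (Fin n) F).mulVec v = u := fun u => Iff.rfl
  have hU : ∀ B ∈ Cfsg.stabilizing (Cfsg.glToMat (Fin n) F)
        {v : Fin n → F | ∀ i : Fin n, n - k ≤ (i : ℕ) → v i = 0},
        ∀ u ∈ U, (B : Matrix (Fin n) (Fin n) F).mulVec u ∈ U := by
    intro B hB u hu
    rw [← hconj] at hB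
    obtain ⟨A, hA, rfl⟩ := hB
    obtain ⟨v, hv, rfl⟩ := hu
    refine ⟨(A : Matrix (Fin n) (Fin n) F).mulVec v, (hA v).mp hv, ?_⟩
    change _ = ((g * A * g⁻¹ : Matrix.GeneralLinearGroup (Fin n) F) :
      Matrix (Fin n) (Fin n) F).mulVec _
    rw [Units.val_mul, Units.val_mul, Matrix.mulVec_mulVec, Matrix.mulVec_mulVec,
      Matrix.mul_assoc, Matrix.mul_assoc, Units.inv_mul, Matrix.mul_one]
  set e0 : Fin n → F := Pi.single ⟨0, by omega⟩ 1 with he0
  have he0k : ∀ i : Fin n, k ≤ (i : ℕ) → e0 i = 0 := by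
    intro i hi
    rw [he0, Pi.single_apply, if_neg]
    intro h0
    rw [h0] at hi
    simp at hi
    omega
  have he0ne : e0 ≠ 0 := by
    intro h0
    have h1 := congrFun h0 ⟨0, by omega⟩
    rw [he0, Pi.single_eq_same] at h1
    exact one_ne_zero h1
  have hu0 : (g : Matrix (Fin n) (Fin n) F).mulVec e0 ∈ U := ⟨e0, he0k, rfl⟩
  have hu0' : (g : Matrix (Fin n) (Fin n) F).mulVec e0 ≠ 0 := by
    intro h0
    apply he0ne
    apply hginj
    rw [h0, Matrix.mulVec_zero]
  have hback : ∀ u ∈ U, ∀ i : Fin n, k ≤ (i : ℕ) →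
      (((g⁻¹ : Matrix.GeneralLinearGroup (Fin n) F) : Matrix (Fin n) (Fin n) F).mulVec u) i
        = 0 := by
    rintro _ ⟨v, hv, rfl⟩ i hi
    rw [Matrix.mulVec_mulVec, Units.inv_mul, Matrix.one_mulVec]
    exact hv i hi
  rcases inv_subspace n (n - k) (Nat.sub_le n k) U hU _ hu0 hu0' with hall | hiff
  · have h1 := dim_le n n k le_rfl hkn.le _ hginj' (fun v _ i hi => hback v (hall v) i hi)
    omega
  · have h1 := dim_le n k (n - k) hkn.le (Nat.sub_le n k) _ hginj
      (fun v hv i hi => (hiff _).mp ⟨v, hv, rfl⟩ i hi)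
    have h3 := dim_le n (n - k) k (Nat.sub_le n k) hkn.le _ hginj'
      (fun v hv i hi => hback v ((hiff v).mpr hv) i hi)
    omega

end aux

/-- The stabilisers in GL_n(F), F finite, of the coordinate subspaces of dimensions k and n − k are isomorphic groups, but when 2k ≠ n (and 0 < k < n) no element of GL_n conjugates one onto the other. -/
theorem result {F : Type*} [Field F] [Finite F] (n k : ℕ) (hk0 : 0 < k) (hkn : k < n) (h2 : 2 * k ≠ n) : Nonempty (↥(Cfsg.stabilizing (Cfsg.glToMat (Fin n) F) {v : Fin n → F | ∀ i : Fin n, k ≤ (i : ℕ) → v i = 0}) ≃* ↥(Cfsg.stabilizing (Cfsg.glToMat (Fin n) F) {v : Fin n → F | ∀ i : Fin n, n - k ≤ (i : ℕ) → v i = 0})) ∧ ∀ g : Matrix.GeneralLinearGroup (Fin n) F, (Cfsg.stabilizing (Cfsg.glToMat (Fin n) F) {v : Fin n → F | ∀ i : Fin n, k ≤ (i : ℕ) → v i = 0}).map (MulAut.conj g).toMonoidHom ≠ Cfsg.stabilizing (Cfsg.glToMat (Fin n) F) {v : Fin n → F | ∀ i : Fin n, n - k ≤ (i : ℕ) → v i = 0} :=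
  ⟨iso n k hkn.le, fun g => not_conj n k hk0 hkn h2 g⟩

end Cfsg.Agent.S0773
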