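import Mathlib
import Cfsg.Statements.S0772
import Cfsg.Agent.S0773

set_option autoImplicit false
open Cfsg

namespace Cfsg.Agent.S0772

open Cfsg.Agent.S0773 (mem_iff')

section aux

variable {F : Type*} [Field F] (n : ℕ)

/-- rank-one unipotent element `1 + u vᵀ` with `vᵀ u = 0` -/
def R1 (u v : Fin n → F) (h : v ⬝ᵥ u = 0) : Matrix.GeneralLinearGroup (Fin n) F :=
  ⟨1 + Matrix.vecMulVec u v, 1 - Matrix.vecMulVec u v, by
      have hN : Matrix.vecMulVec u v * Matrix.vecMulVec u v = 0 := by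
        rw [Matrix.vecMulVec_mul_vecMulVec, h, zero_smul]
        ext a b
        simp [Matrix.vecMulVec_apply]
      calc (1 + Matrix.vecMulVec u v) * (1 - Matrix.vecMulVec u v)
          = 1 - Matrix.vecMulVec u v * Matrix.vecMulVec u v := by noncomm_ring
        _ = 1 := by rw [hN, sub_zero], by
      have hN : Matrix.vecMulVec u v * Matrix.vecMulVec u v = 0 := by
        rw [Matrix.vecMulVec_mul_vecMulVec, h, zero_smul]
        ext a b
        simp [Matrix.vecMulVec_apply]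
      calc (1 - Matrix.vecMulVec u v) * (1 + Matrix.vecMulVec u v)
          = 1 - Matrix.vecMulVec u v * Matrix.vecMulVec u v := by noncomm_ring
        _ = 1 := by rw [hN, sub_zero]⟩

theorem R1_val (u v : Fin n → F) (h : v ⬝ᵥ u = 0) :
    ((R1 n u v h : Matrix.GeneralLinearGroup (Fin n) F) : Matrix (Fin n) (Fin n) F)
      = 1 + Matrix.vecMulVec u v := rfl

theorem R1_mem (k : ℕ) (hk : k ≤ n) (u v : Fin n → F) (h : v ⬝ᵥ u = 0)
    (huv : ∀ a b : Fin n, k ≤ (a : ℕ) → (b : ℕ) < k → u a * v b = 0) :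
    R1 n u v h ∈ Cfsg.stabilizing (Cfsg.glToMat (Fin n) F)
        {v : Fin n → F | ∀ i : Fin n, k ≤ (i : ℕ) → v i = 0} := by
  rw [mem_iff' n k hk]
  intro a b ha hb
  have hne : a ≠ b := by
    intro h0
    rw [h0] at ha
    omega
  rw [R1_val, Matrix.add_apply, Matrix.one_apply_ne hne, zero_add, Matrix.vecMulVec_apply]
  exact huv a b ha hb

/-- diagonal element -/
def Dg (D : Fin n → F) (hD : ∀ i, D i ≠ 0) : Matrix.GeneralLinearGroup (Fin n) F :=
  ⟨Matrix.diagonal D, Matrix.diagonal (fun i => (D i)⁻¹),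
    by
      rw [Matrix.diagonal_mul_diagonal]
      have : (fun i => D i * (D i)⁻¹) = fun _ => (1 : F) := funext fun i => mul_inv_cancel₀ (hD i)
      rw [this, Matrix.diagonal_one],
    by
      rw [Matrix.diagonal_mul_diagonal]
      have : (fun i => (D i)⁻¹ * D i) = fun _ => (1 : F) := funext fun i => inv_mul_cancel₀ (hD i)
      rw [this, Matrix.diagonal_one]⟩

theorem Dg_val (D : Fin n → F) (hD : ∀ i, D i ≠ 0) :
    ((Dg n D hD : Matrix.GeneralLinearGroup (Fin n) F) : Matrix (Fin n) (Fin n) F)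
      = Matrix.diagonal D := rfl

theorem Dg_mem (k : ℕ) (hk : k ≤ n) (D : Fin n → F) (hD : ∀ i, D i ≠ 0) :
    Dg n D hD ∈ Cfsg.stabilizing (Cfsg.glToMat (Fin n) F)
        {v : Fin n → F | ∀ i : Fin n, k ≤ (i : ℕ) → v i = 0} := by
  rw [mem_iff' n k hk]
  intro a b ha hb
  have hne : a ≠ b := by
    intro h0
    rw [h0] at ha
    omega
  rw [Dg_val, Matrix.diagonal_apply_ne _ hne]

/-- elementary transvection as an element of the general linear group -/
def Tc (i j : Fin n) (hij : i ≠ j) (c : F) : Matrix.GeneralLinearGroup (Fin n) F :=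
  Matrix.GeneralLinearGroup.mkOfDetNeZero (Matrix.transvection i j c)
    (by rw [Matrix.det_transvection_of_ne _ _ hij]; exact one_ne_zero)

theorem Tc_val (i j : Fin n) (hij : i ≠ j) (c : F) :
    ((Tc n i j hij c : Matrix.GeneralLinearGroup (Fin n) F) : Matrix (Fin n) (Fin n) F)
      = Matrix.transvection i j c := rfl

theorem T_mem (k : ℕ) (hk : k ≤ n) (i j : Fin n) (c : F)
    (h : ¬ (k ≤ (i : ℕ) ∧ (j : ℕ) < k)) (T : Matrix.GeneralLinearGroup (Fin n) F)
    (hT : (T : Matrix (Fin n) (Fin n) F) = Matrix.transvection i j c) :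
    T ∈ Cfsg.stabilizing (Cfsg.glToMat (Fin n) F)
        {v : Fin n → F | ∀ i : Fin n, k ≤ (i : ℕ) → v i = 0} := by
  rw [mem_iff' n k hk]
  intro i' j' hi' hj'
  rw [hT]
  have hne : i' ≠ j' := by
    intro h0
    rw [h0] at hi'
    omega
  rw [Matrix.transvection, Matrix.add_apply, Matrix.one_apply_ne hne, zero_add,
    Matrix.single_apply, if_neg]
  rintro ⟨rfl, rfl⟩
  exact h ⟨hi', hj'⟩

theorem key (k : ℕ) (hk : k ≤ n) (H : Subgroup (Matrix.GeneralLinearGroup (Fin n) F))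
    (hPH : Cfsg.stabilizing (Cfsg.glToMat (Fin n) F)
        {v : Fin n → F | ∀ i : Fin n, k ≤ (i : ℕ) → v i = 0} ≤ H)
    (g : Matrix.GeneralLinearGroup (Fin n) F) (hg : g ∈ H) (i₀ j₀ : Fin n)
    (hi₀ : k ≤ (i₀ : ℕ)) (hj₀ : (j₀ : ℕ) < k)
    (hne : (g : Matrix (Fin n) (Fin n) F) i₀ j₀ ≠ 0) (j : Fin n) (hj : j ≠ i₀) (c : F)
    (T : Matrix.GeneralLinearGroup (Fin n) F)
    (hT : (T : Matrix (Fin n) (Fin n) F) = Matrix.transvection i₀ j c) : T ∈ H := by
  classical
  have hij₀ : i₀ ≠ j₀ := by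
    intro h0
    rw [h0] at hi₀
    omega
  -- Step A: scale
  set d : Fin n → F := Function.update (fun _ => (1 : F)) j₀
    ((g : Matrix (Fin n) (Fin n) F) i₀ j₀)⁻¹ with hd
  have hd0 : ∀ i, d i ≠ 0 := by
    intro i
    by_cases hi : i = j₀
    · rw [hd, hi, Function.update_self]
      exact inv_ne_zero hne
    · rw [hd, Function.update_of_ne hi]
      exact one_ne_zero
  obtain ⟨g₁, hg₁⟩ : ∃ g₁, g₁ = g * Dg n d hd0 := ⟨_, rfl⟩
  have hg₁H : g₁ ∈ H := by
    rw [hg₁]
    exact H.mul_mem hg (hPH (Dg_mem n k hk d hd0))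
  have hg₁v : ∀ a, (g₁ : Matrix (Fin n) (Fin n) F) a j₀
      = (g : Matrix (Fin n) (Fin n) F) a j₀ * ((g : Matrix (Fin n) (Fin n) F) i₀ j₀)⁻¹ := by
    intro a
    rw [hg₁, Units.val_mul, Dg_val, Matrix.mul_diagonal, hd, Function.update_self]
  have hg₁1 : (g₁ : Matrix (Fin n) (Fin n) F) i₀ j₀ = 1 := by
    rw [hg₁v, mul_inv_cancel₀ hne]
  -- Step B
  set x : Fin n → F := fun a => (g₁ : Matrix (Fin n) (Fin n) F) a j₀ with hx
  set u : Fin n → F := x - Pi.single i₀ 1 with hu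
  have hu0 : u i₀ = 0 := by
    rw [hu, Pi.sub_apply, Pi.single_eq_same, hx]
    simp only
    rw [hg₁1, sub_self]
  have hpu : (Pi.single i₀ (1 : F) : Fin n → F) ⬝ᵥ u = 0 := by
    rw [single_dotProduct, one_mul, hu0]
  obtain ⟨p, hp⟩ : ∃ p, p = R1 n u (Pi.single i₀ 1) hpu := ⟨_, rfl⟩
  have hpP : p ∈ Cfsg.stabilizing (Cfsg.glToMat (Fin n) F)
        {v : Fin n → F | ∀ i : Fin n, k ≤ (i : ℕ) → v i = 0} := by
    rw [hp]
    apply R1_mem n k hk
    intro a b ha hb
    have hb' : b ≠ i₀ := by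
      intro h0
      rw [h0] at hb
      omega
    rw [Pi.single_eq_of_ne hb', mul_zero]
  have hpx : (p : Matrix (Fin n) (Fin n) F).mulVec (Pi.single i₀ 1) = x := by
    rw [hp, R1_val, Matrix.add_mulVec, Matrix.one_mulVec]
    funext a
    simp only [Pi.add_apply, Matrix.mulVec, dotProduct, Matrix.vecMulVec_apply, Pi.single_apply,
      mul_ite, mul_one, mul_zero, Finset.sum_ite_eq', Finset.mem_univ, if_true, hu, Pi.sub_apply]
    ring
  -- Step C
  obtain ⟨g₂, hg₂⟩ : ∃ g₂, g₂ = p⁻¹ * g₁ := ⟨_, rfl⟩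
  have hg₂H : g₂ ∈ H := by
    rw [hg₂]
    exact H.mul_mem (H.inv_mem (hPH hpP)) hg₁H
  have hg₂col : ∀ a, (g₂ : Matrix (Fin n) (Fin n) F) a j₀ = (Pi.single i₀ (1 : F) : Fin n → F) a := by
    have h1 : (g₁ : Matrix (Fin n) (Fin n) F).mulVec (Pi.single j₀ 1) = x := by
      rw [Matrix.mulVec_single_one]
      rfl
    have h2 : (g₂ : Matrix (Fin n) (Fin n) F).mulVec (Pi.single j₀ 1) = Pi.single i₀ 1 := by
      rw [hg₂, Units.val_mul, ← Matrix.mulVec_mulVec, h1, ← hpx, Matrix.mulVec_mulVec,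
        Units.inv_mul, Matrix.one_mulVec]
    intro a
    rw [← h2, Matrix.mulVec_single_one]
    rfl
  -- Step D
  set β : Fin n → F := fun b => c * (g₂ : Matrix (Fin n) (Fin n) F) j b with hβ
  have hβ0 : β j₀ = 0 := by
    rw [hβ]
    simp only
    rw [hg₂col, Pi.single_eq_of_ne hj, mul_zero]
  have hβe : β ⬝ᵥ (Pi.single j₀ (1 : F) : Fin n → F) = 0 := by
    rw [dotProduct_single, mul_one, hβ0]
  obtain ⟨M, hM⟩ : ∃ M, M = R1 n (Pi.single j₀ 1) β hβe := ⟨_, rfl⟩
  have hMP : M ∈ Cfsg.stabilizing (Cfsg.glToMat (Fin n) F)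
        {v : Fin n → F | ∀ i : Fin n, k ≤ (i : ℕ) → v i = 0} := by
    rw [hM]
    apply R1_mem n k hk
    intro a b ha hb
    have ha' : a ≠ j₀ := by
      intro h0
      rw [h0] at ha
      omega
    rw [Pi.single_eq_of_ne ha', zero_mul]
  -- Step E
  have hTg : T * g₂ = g₂ * M := by
    apply Units.ext
    rw [Units.val_mul, Units.val_mul, hT, hM, R1_val, Matrix.transvection, add_mul, mul_add,
      one_mul, mul_one]
    congr 1
    ext a b
    rw [Matrix.mul_vecMulVec, Matrix.vecMulVec_apply, Matrix.mulVec_single_one]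
    simp only [Matrix.col_apply]
    rw [hg₂col, hβ]
    by_cases ha : a = i₀
    · rw [ha, Matrix.single_mul_apply_same, Pi.single_eq_same, one_mul]
    · rw [Matrix.single_mul_apply_of_ne (c := c) i₀ j a b ha, Pi.single_eq_of_ne ha, zero_mul]
  have hT' : T = g₂ * M * g₂⁻¹ := eq_mul_inv_of_mul_eq hTg
  rw [hT']
  exact H.mul_mem (H.mul_mem hg₂H (hPH hMP)) (H.inv_mem hg₂H)

end aux

/-- Maximal parabolics are maximal: over a finite field, for 0 < k < n the stabiliser in GL_n of the span of the first k coordinate vectors is a maximal proper subgroup. -/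
theorem result {F : Type*} [Field F] [Finite F] (n k : ℕ) (hk0 : 0 < k) (hkn : k < n) : IsCoatom (Cfsg.stabilizing (Cfsg.glToMat (Fin n) F) {v : Fin n → F | ∀ i : Fin n, k ≤ (i : ℕ) → v i = 0}) := by
  classical
  have hk : k ≤ n := hkn.le
  constructor
  · intro htop
    have hne : (⟨k, hkn⟩ : Fin n) ≠ ⟨0, by omega⟩ := by
      intro h
      have := congrArg Fin.val h
      simp only at this
      omega
    have h1 : Tc n ⟨k, hkn⟩ ⟨0, by omega⟩ hne (1 : F) ∈ Cfsg.stabilizing (Cfsg.glToMat (Fin n) F)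
        {v : Fin n → F | ∀ i : Fin n, k ≤ (i : ℕ) → v i = 0} := by
      rw [htop]
      exact Subgroup.mem_top _
    rw [mem_iff' n k hk] at h1
    have h2 := h1 ⟨k, hkn⟩ ⟨0, by omega⟩ le_rfl hk0
    rw [Tc_val, Matrix.transvection, Matrix.add_apply, Matrix.one_apply_ne hne, zero_add,
      Matrix.single_apply_same] at h2
    exact one_ne_zero h2
  · intro H hPH
    have hle : Cfsg.stabilizing (Cfsg.glToMat (Fin n) F)
        {v : Fin n → F | ∀ i : Fin n, k ≤ (i : ℕ) → v i = 0} ≤ H := hPH.le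
    obtain ⟨g, hgH, hgP⟩ := SetLike.exists_of_lt hPH
    rw [mem_iff' n k hk] at hgP
    push Not at hgP
    obtain ⟨i₀, j₀, hi₀, hj₀, hne⟩ := hgP
    have hi₀j₀ : i₀ ≠ j₀ := by
      intro h0
      rw [h0] at hi₀
      omega
    have hlow : ∀ (i j : Fin n) (c : F), k ≤ (i : ℕ) → (j : ℕ) < k →
        ∀ T : Matrix.GeneralLinearGroup (Fin n) F,
          (T : Matrix (Fin n) (Fin n) F) = Matrix.transvection i j c → T ∈ H := by
      intro i j c hi hj T hT
      have hji : j ≠ i := by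
        intro h0
        rw [h0] at hj
        omega
      by_cases hii : i = i₀
      · subst hii
        exact key n k hk H hle g hgH i j₀ hi hj₀ hne j hji c T hT
      · have hT2 : Tc n i₀ j₀ hi₀j₀ (1 : F) ∈ H :=
          key n k hk H hle g hgH i₀ j₀ hi₀ hj₀ hne j₀ (Ne.symm hi₀j₀) 1 _ (Tc_val n i₀ j₀ hi₀j₀ 1)
        have hT1 : Tc n i i₀ hii (1 : F) ∈ H :=
          hle (T_mem n k hk i i₀ 1 (by omega) _ (Tc_val n i i₀ hii 1))
        have hg' : Tc n i i₀ hii (1 : F) * Tc n i₀ j₀ hi₀j₀ (1 : F) ∈ H := H.mul_mem hT1 hT2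
        have hij₀ : i ≠ j₀ := by
          intro h0
          rw [h0] at hi
          omega
        have hent : ((Tc n i i₀ hii (1 : F) * Tc n i₀ j₀ hi₀j₀ (1 : F) :
            Matrix.GeneralLinearGroup (Fin n) F) : Matrix (Fin n) (Fin n) F) i j₀ ≠ 0 := by
          rw [Units.val_mul, Tc_val, Tc_val, Matrix.transvection_mul_apply_same]
          have e1 : (Matrix.transvection i₀ j₀ (1 : F)) i j₀ = 0 := by
            rw [Matrix.transvection, Matrix.add_apply, Matrix.one_apply_ne hij₀, zero_add,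
              Matrix.single_apply, if_neg]
            rintro ⟨h1, -⟩
            exact hii h1.symm
          have e2 : (Matrix.transvection i₀ j₀ (1 : F)) i₀ j₀ = 1 := by
            rw [Matrix.transvection, Matrix.add_apply, Matrix.one_apply_ne hi₀j₀, zero_add,
              Matrix.single_apply_same]
          rw [e1, e2, zero_add, mul_one]
          exact one_ne_zero
        exact key n k hk H hle _ hg' i j₀ hi hj₀ hent j hji c T hT
    have hall : ∀ t : Matrix.TransvectionStruct (Fin n) F,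
        ∀ T : Matrix.GeneralLinearGroup (Fin n) F,
          (T : Matrix (Fin n) (Fin n) F) = t.toMatrix → T ∈ H := by
      intro t T hT
      by_cases h : k ≤ (t.i : ℕ) ∧ (t.j : ℕ) < k
      · exact hlow t.i t.j t.c h.1 h.2 T hT
      · exact hle (T_mem n k hk t.i t.j t.c h T hT)
    rw [eq_top_iff]
    intro g _
    have hQ : ∃ g' : Matrix.GeneralLinearGroup (Fin n) F,
        g' ∈ H ∧ (g' : Matrix (Fin n) (Fin n) F) = (g : Matrix (Fin n) (Fin n) F) := by
      apply Matrix.diagonal_transvection_induction_of_det_ne_zero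
        (fun M => ∃ g' : Matrix.GeneralLinearGroup (Fin n) F,
          g' ∈ H ∧ (g' : Matrix (Fin n) (Fin n) F) = M) (g : Matrix (Fin n) (Fin n) F)
        (Matrix.GeneralLinearGroup.det_ne_zero g)
      · intro D hD
        have hD0 : ∀ i, D i ≠ 0 := by
          intro i h0
          apply hD
          rw [Matrix.det_diagonal]
          exact Finset.prod_eq_zero (Finset.mem_univ i) h0
        exact ⟨Dg n D hD0, hle (Dg_mem n k hk D hD0), rfl⟩
      · intro t
        exact ⟨Tc n t.i t.j t.hij t.c, hall t _ rfl, rfl⟩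
      · rintro A B _ _ ⟨a, ha, rfl⟩ ⟨b, hb, rfl⟩
        exact ⟨a * b, H.mul_mem ha hb, rfl⟩
    obtain ⟨g', hg', hgg⟩ := hQ
    rw [← Units.ext hgg]
    exact hg'

end Cfsg.Agent.S0772
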