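import Mathlib
import Cfsg.Statements.S0775
import Cfsg.Agent.S0245
import Cfsg.Agent.S0749
import Cfsg.Agent.S0766
import Cfsg.Agent.S0768
import Cfsg.Agent.S0828

set_option autoImplicit false
open Cfsg

namespace Cfsg.Agent.S0775

open Cfsg.Agent.S0768 (BJ BJ_apply BJ_alt BJ_nondeg)
open Cfsg.Agent.S0828 (card_fiber)

/-- abstract orbit counting for an action given as a function -/
theorem orbit_count {G X : Type*} [Group G] [Finite G] (act : G → X → X)
    (hmul : ∀ g h x, act (g * h) x = act g (act h x)) (h1 : ∀ x, act 1 x = x) (b0 : X)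
    (S : Set X) (hS : ∀ s ∈ S, ∃ g : G, act g b0 = s) :
    Nat.card {g : G // act g b0 ∈ S} = Nat.card S * Nat.card {g : G // act g b0 = b0} := by
  have hfin : Finite S := by
    refine Finite.of_surjective (fun g : {g : G // act g b0 ∈ S} => (⟨act g.1 b0, g.2⟩ : S)) ?_
    rintro ⟨s, hs⟩
    obtain ⟨g, hg⟩ := hS s hs
    exact ⟨⟨g, by rw [hg]; exact hs⟩, Subtype.ext hg⟩
  refine card_fiber (fun g : {g : G // act g b0 ∈ S} => (⟨act g.1 b0, g.2⟩ : S)) _ ?_
  rintro ⟨s, hs⟩
  obtain ⟨gs, hgs⟩ := hS s hs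
  refine Nat.card_congr
    { toFun := fun g => ⟨gs⁻¹ * g.1.1, by
        have h : act g.1.1 b0 = s := congrArg Subtype.val g.2
        rw [hmul, h, ← hgs, ← hmul, inv_mul_cancel, h1]⟩
      invFun := fun h => ⟨⟨gs * h.1, by rw [hmul, h.2, hgs]; exact hs⟩, Subtype.ext (by
        change act (gs * h.1) b0 = s
        rw [hmul, h.2, hgs])⟩
      left_inv := fun g => Subtype.ext (Subtype.ext (by
        change gs * (gs⁻¹ * g.1.1) = g.1.1
        rw [mul_inv_cancel_left]))
      right_inv := fun h => Subtype.ext (by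
        change gs⁻¹ * (gs * h.1) = h.1
        rw [inv_mul_cancel_left]) }

section sp

variable {F : Type*} [Field F] (m : ℕ)

/-- the action on tuples of vectors -/
def act (k : ℕ) (g : Matrix.symplecticGroup (Fin m) F) (b : Fin k → (Fin m ⊕ Fin m → F)) :
    Fin k → (Fin m ⊕ Fin m → F) :=
  fun i => (g : Matrix (Fin m ⊕ Fin m) (Fin m ⊕ Fin m) F).mulVec (b i)

theorem act_mul (k : ℕ) (g h : Matrix.symplecticGroup (Fin m) F)
    (b : Fin k → (Fin m ⊕ Fin m → F)) : act m k (g * h) b = act m k g (act m k h b) := by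
  funext i
  change ((g * h : Matrix.symplecticGroup (Fin m) F) :
    Matrix (Fin m ⊕ Fin m) (Fin m ⊕ Fin m) F).mulVec (b i) = _
  rw [show ((g * h : Matrix.symplecticGroup (Fin m) F) :
    Matrix (Fin m ⊕ Fin m) (Fin m ⊕ Fin m) F) = g.1 * h.1 from rfl, ← Matrix.mulVec_mulVec]
  rfl

theorem act_one (k : ℕ) (b : Fin k → (Fin m ⊕ Fin m → F)) : act m k 1 b = b := by
  funext i
  change ((1 : Matrix.symplecticGroup (Fin m) F) :
    Matrix (Fin m ⊕ Fin m) (Fin m ⊕ Fin m) F).mulVec (b i) = _
  rw [show ((1 : Matrix.symplecticGroup (Fin m) F) :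
    Matrix (Fin m ⊕ Fin m) (Fin m ⊕ Fin m) F) = 1 from rfl, Matrix.one_mulVec]

/-- totally isotropic frames -/
def Fr (k : ℕ) : Set (Fin k → (Fin m ⊕ Fin m → F)) :=
  {b | LinearIndependent F b ∧ ∀ i j, sympForm m F (b i) (b j) = 0}

/-- frames inside a subspace -/
def FrW (k : ℕ) (W : Submodule F (Fin m ⊕ Fin m → F)) : Set (Fin k → (Fin m ⊕ Fin m → F)) :=
  {b | b ∈ Fr (F := F) m k ∧ ∀ i, b i ∈ W}

theorem mulVec_inj (g : Matrix.symplecticGroup (Fin m) F) :
    Function.Injective (g : Matrix (Fin m ⊕ Fin m) (Fin m ⊕ Fin m) F).mulVec := by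
  intro x y hxy
  have h := congrArg ((g⁻¹ : Matrix.symplecticGroup (Fin m) F) :
    Matrix (Fin m ⊕ Fin m) (Fin m ⊕ Fin m) F).mulVec hxy
  rw [Matrix.mulVec_mulVec, Matrix.mulVec_mulVec] at h
  have e : ((g⁻¹ : Matrix.symplecticGroup (Fin m) F) :
      Matrix (Fin m ⊕ Fin m) (Fin m ⊕ Fin m) F) * g.1 = 1 := by
    have h1 : g⁻¹ * g = 1 := inv_mul_cancel g
    exact congrArg Subtype.val h1
  rwa [e, Matrix.one_mulVec, Matrix.one_mulVec] at h

theorem act_mem_Fr (k : ℕ) (g : Matrix.symplecticGroup (Fin m) F)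
    (b : Fin k → (Fin m ⊕ Fin m → F)) (hb : b ∈ Fr m k) : act m k g b ∈ Fr m k := by
  refine ⟨?_, fun i j => ?_⟩
  · have h := hb.1.map' (Matrix.mulVecLin (g : Matrix (Fin m ⊕ Fin m) (Fin m ⊕ Fin m) F))
      (LinearMap.ker_eq_bot.mpr (mulVec_inj m g))
    exact h
  · change sympForm m F (g.1.mulVec (b i)) (g.1.mulVec (b j)) = 0
    rw [Cfsg.Agent.S0766.form_pres, hb.2]

theorem B_sum_zero (k : ℕ) (b : Fin k → (Fin m ⊕ Fin m → F))
    (hb : ∀ i j, sympForm m F (b i) (b j) = 0) (c c' : Fin k → F) :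
    BJ (F := F) m (∑ i, c i • b i) (∑ j, c' j • b j) = 0 := by
  simp only [map_sum, LinearMap.sum_apply, map_smul, LinearMap.smul_apply, BJ_apply, hb,
    smul_zero, Finset.sum_const_zero]

theorem exists_sp (k : ℕ) (b0 b : Fin k → (Fin m ⊕ Fin m → F)) (h0 : b0 ∈ Fr m k)
    (hb : b ∈ Fr m k) : ∃ g : Matrix.symplecticGroup (Fin m) F, act m k g b0 = b := by
  classical
  -- a linear map sending `b0 i` to `b i`
  obtain ⟨f, hf⟩ := LinearMap.exists_extend
    ((Module.Basis.span h0.1).constr F b :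
      Submodule.span F (Set.range b0) →ₗ[F] (Fin m ⊕ Fin m → F))
  have hfb : ∀ i, f (b0 i) = b i := by
    intro i
    have h1 := LinearMap.congr_fun hf (Module.Basis.span h0.1 i)
    rw [Module.Basis.constr_basis] at h1
    rw [← h1]
    simp [Module.Basis.span_apply]
  have hfsum : ∀ c : Fin k → F, f (∑ i, c i • b0 i) = ∑ i, c i • b i := by
    intro c
    simp only [map_sum, map_smul, hfb]
  obtain ⟨g, hg1, hg2⟩ := Cfsg.Agent.S0749.extend_aux (BJ (F := F) m) (BJ_nondeg m) (BJ_alt m)
    (Module.finrank F (Fin m ⊕ Fin m → F)) (Submodule.span F (Set.range b0)) f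
    (Nat.le_add_left _ _)
    (by
      intro x hx x' hx'
      obtain ⟨c, rfl⟩ := (Submodule.mem_span_range_iff_exists_fun F).mp hx
      obtain ⟨c', rfl⟩ := (Submodule.mem_span_range_iff_exists_fun F).mp hx'
      rw [hfsum, hfsum, B_sum_zero m k b hb.2, B_sum_zero m k b0 h0.2])
    (by
      intro x hx hx0
      obtain ⟨c, rfl⟩ := (Submodule.mem_span_range_iff_exists_fun F).mp hx
      rw [hfsum] at hx0
      have hc := Fintype.linearIndependent_iff.mp hb.1 c hx0
      simp [hc])
  have hsp : LinearMap.toMatrix' g.toLinearMap ∈ Matrix.symplecticGroup (Fin m) F := by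
    rw [SymplecticGroup.mem_iff']
    have hcomp : (BJ (F := F) m).comp g.toLinearMap g.toLinearMap = BJ m := by
      refine LinearMap.ext₂ (fun x y => ?_)
      rw [LinearMap.BilinForm.comp_apply]
      exact hg1 x y
    have hmat := congrArg LinearMap.BilinForm.toMatrix' hcomp
    rw [LinearMap.BilinForm.toMatrix'_comp] at hmat
    have hJ : LinearMap.BilinForm.toMatrix' (BJ (F := F) m) = Matrix.J (Fin m) F := by
      unfold BJ
      exact LinearMap.BilinForm.toMatrix'_toBilin' _
    rw [hJ] at hmat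
    exact hmat
  refine ⟨⟨LinearMap.toMatrix' g.toLinearMap, hsp⟩, ?_⟩
  funext i
  change (LinearMap.toMatrix' g.toLinearMap).mulVec (b0 i) = b i
  rw [← Matrix.toLin'_apply, Matrix.toLin'_toMatrix']
  change g (b0 i) = b i
  rw [hg2 (b0 i) (Submodule.subset_span ⟨i, rfl⟩), hfb]

end sp

section count

variable {F : Type*} [Field F] [Fintype F] (m : ℕ)

theorem card_diff_gen {V : Type*} [AddCommGroup V] [Module F V] [Finite V]
    (S T : Submodule F V) (hST : S ≤ T) :
    Nat.card {u : V // u ∈ T ∧ u ∉ S}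
      = Fintype.card F ^ Module.finrank F T - Fintype.card F ^ Module.finrank F S := by
  have h1 : Nat.card {u : V // u ∈ T ∧ u ∉ S} = ((T : Set V) \ (S : Set V)).ncard :=
    Nat.card_coe_set_eq _
  have h2 : Nat.card T = (T : Set V).ncard := Nat.card_coe_set_eq _
  have h3 : Nat.card S = (S : Set V).ncard := Nat.card_coe_set_eq _
  rw [h1, Set.ncard_sdiff (show (S : Set V) ⊆ T from hST), ← h2, ← h3,
    Module.natCard_eq_pow_finrank (K := F) (V := T),
    Module.natCard_eq_pow_finrank (K := F) (V := S), Nat.card_eq_fintype_card]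

omit [Fintype F] in
theorem mem_perp_iff (k : ℕ) (b : Fin k → (Fin m ⊕ Fin m → F)) (v : Fin m ⊕ Fin m → F) :
    v ∈ (BJ (F := F) m).orthogonal (Submodule.span F (Set.range b))
      ↔ ∀ i, sympForm m F (b i) v = 0 := by
  rw [LinearMap.BilinForm.mem_orthogonal_iff]
  constructor
  · intro h i
    rw [← BJ_apply]
    exact h (b i) (Submodule.subset_span ⟨i, rfl⟩)
  · intro h n hn
    obtain ⟨c, rfl⟩ := (Submodule.mem_span_range_iff_exists_fun F).mp hn
    change BJ (F := F) m (∑ i, c i • b i) v = 0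
    simp only [map_sum, LinearMap.sum_apply, map_smul, LinearMap.smul_apply, BJ_apply, h,
      smul_zero, Finset.sum_const_zero]

theorem card_Fr {q : ℕ} (hF : Fintype.card F = q) (k : ℕ) :
    Nat.card (Fr (F := F) m k) = ∏ i ∈ Finset.range k, (q ^ (2 * m - i) - q ^ i) := by
  classical
  induction k with
  | zero =>
    rw [Finset.prod_range_zero, Nat.card_eq_one_iff_unique]
    exact ⟨⟨fun a b => Subtype.ext (Subsingleton.elim _ _)⟩,
      ⟨⟨fun i => i.elim0, linearIndependent_empty_type, fun i => i.elim0⟩⟩⟩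
  | succ k ih =>
    rw [Finset.prod_range_succ, ← ih]
    refine card_fiber (fun b : Fr (F := F) m (k + 1) =>
      (⟨fun i => b.1 i.castSucc, ⟨b.2.1.comp Fin.castSucc (Fin.castSucc_injective k),
        fun i j => b.2.2 _ _⟩⟩ : Fr (F := F) m k)) _ ?_
    intro b
    have hle : Submodule.span F (Set.range b.1)
        ≤ (BJ (F := F) m).orthogonal (Submodule.span F (Set.range b.1)) := by
      rw [Submodule.span_le]
      rintro _ ⟨i, rfl⟩
      exact (mem_perp_iff m k b.1 _).mpr (fun j => b.2.2 j i)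
    have h1 := card_diff_gen (Submodule.span F (Set.range b.1))
      ((BJ (F := F) m).orthogonal (Submodule.span F (Set.range b.1))) hle
    rw [LinearMap.BilinForm.finrank_orthogonal (BJ_nondeg m), finrank_span_eq_card b.2.1,
      Module.finrank_fintype_fun_eq_card, Fintype.card_sum] at h1
    simp only [Fintype.card_fin] at h1
    rw [hF, ← two_mul] at h1
    rw [← h1]
    refine Nat.card_congr
      { toFun := fun b' => ⟨b'.1.1 (Fin.last k), by
          have hb' : ∀ i, b.1 i = b'.1.1 i.castSucc :=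
            fun i => (congrFun (congrArg Subtype.val b'.2) i).symm
          refine ⟨(mem_perp_iff m k b.1 _).mpr (fun i => ?_), ?_⟩
          · rw [hb']
            exact b'.1.2.2 _ _
          · have hli := b'.1.2.1
            rw [← Fin.snoc_init_self b'.1.1] at hli
            have h2 := (linearIndependent_fin_snoc.mp hli).2
            have h3 : Fin.init b'.1.1 = b.1 := funext (fun i => (hb' i).symm)
            rw [h3] at h2
            exact h2⟩
        invFun := fun v => ⟨⟨(Fin.snoc b.1 v.1 : Fin (k + 1) → (Fin m ⊕ Fin m → F)),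
          ⟨linearIndependent_fin_snoc.mpr ⟨b.2.1, v.2.2⟩, by
            have hv := (mem_perp_iff m k b.1 v.1).mp v.2.1
            intro i j
            refine Fin.lastCases ?_ (fun i => ?_) i <;> refine Fin.lastCases ?_ (fun j => ?_) j
            · rw [Fin.snoc_last]
              exact Cfsg.Agent.S0766.form_self m v.1
            · rw [Fin.snoc_last, Fin.snoc_castSucc, Cfsg.Agent.S0766.form_swap, hv j, neg_zero]
            · rw [Fin.snoc_last, Fin.snoc_castSucc]
              exact hv i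
            · rw [Fin.snoc_castSucc, Fin.snoc_castSucc]
              exact b.2.2 i j⟩⟩, Subtype.ext (funext (fun i => by
            change (Fin.snoc b.1 v.1 : Fin (k + 1) → (Fin m ⊕ Fin m → F)) i.castSucc = b.1 i
            rw [Fin.snoc_castSucc]))⟩
        left_inv := fun b' => Subtype.ext (Subtype.ext (by
          have hb' : Fin.init b'.1.1 = b.1 := congrArg Subtype.val b'.2
          change (Fin.snoc b.1 (b'.1.1 (Fin.last k)) : Fin (k + 1) → (Fin m ⊕ Fin m → F))
            = b'.1.1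
          rw [← hb', Fin.snoc_init_self]))
        right_inv := fun v => Subtype.ext (by
          change (Fin.snoc b.1 v.1 : Fin (k + 1) → (Fin m ⊕ Fin m → F)) (Fin.last k) = v.1
          rw [Fin.snoc_last]) }

end count

theorem arith (q k d : ℕ) :
    q ^ (k * (k + 1) / 2 + 2 * k * d)
        * (q ^ (d ^ 2) * ∏ i ∈ Finset.range d, (q ^ (2 * (i + 1)) - 1))
        * ∏ i ∈ Finset.range k, (q ^ (2 * (k + d) - i) - q ^ i)
      = q ^ ((k + d) ^ 2) * ∏ i ∈ Finset.range (k + d), (q ^ (2 * (i + 1)) - 1) := by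
  have h1 : ∏ i ∈ Finset.range k, (q ^ (2 * (k + d) - i) - q ^ i)
      = q ^ (∑ i ∈ Finset.range k, i)
        * ∏ i ∈ Finset.range k, (q ^ (2 * (d + i + 1)) - 1) := by
    rw [← Finset.prod_pow_eq_pow_sum,
      ← Finset.prod_range_reflect (fun j => q ^ (2 * (d + j + 1)) - 1) k,
      ← Finset.prod_mul_distrib]
    refine Finset.prod_congr rfl (fun i hi => ?_)
    rw [Finset.mem_range] at hi
    have e : i + 2 * (d + (k - 1 - i) + 1) = 2 * (k + d) - i := by omega
    rw [Nat.mul_sub, mul_one, ← pow_add, e]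
  have h2 : ∏ i ∈ Finset.range (k + d), (q ^ (2 * (i + 1)) - 1)
      = (∏ i ∈ Finset.range d, (q ^ (2 * (i + 1)) - 1))
        * ∏ i ∈ Finset.range k, (q ^ (2 * (d + i + 1)) - 1) := by
    rw [add_comm k d, Finset.prod_range_add]
  have h3 : k * (k + 1) / 2 = (∑ i ∈ Finset.range k, i) + k := by
    have h := Finset.sum_range_id (k + 1)
    rw [Finset.sum_range_succ, Nat.add_sub_cancel] at h
    rw [h, mul_comm]
  have h4 := Finset.sum_range_id_mul_two k
  obtain ⟨T, hT⟩ : ∃ T, T = ∑ i ∈ Finset.range k, i := ⟨_, rfl⟩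
  rw [← hT] at h1 h3 h4
  have h5 : T * 2 + k = k * k := by
    rw [h4]
    cases k with
    | zero => rfl
    | succ n =>
      rw [Nat.add_sub_cancel]
      ring
  have h6 : T + k + 2 * k * d + d ^ 2 + T = (k + d) ^ 2 := by nlinarith [h5]
  rw [h1, h2, h3, ← h6]
  rw [pow_add, pow_add]
  ring

/-- Maximal parabolics of the symplectic group: if W is a k-dimensional subspace of F^(2m) on which the symplectic form vanishes identically, its stabiliser in Sp_2m(q) has order q^(k(k+1)/2 + 2k(m−k)) · |Sp_(2m−2k)(q)| · |GL_k(q)|. -/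
theorem result {F : Type*} [Field F] [Fintype F] {q : ℕ} (hF : Fintype.card F = q) (m k : ℕ) (hk : k ≤ m) (W : Submodule F (Fin m ⊕ Fin m → F)) (hWk : Module.finrank F W = k) (hW : ∀ u ∈ W, ∀ v ∈ W, Cfsg.sympForm m F u v = 0) : Nat.card ↥(Cfsg.stabilizing (Cfsg.spToMat m F) (W : Set (Fin m ⊕ Fin m → F))) = q ^ (k * (k + 1) / 2 + 2 * k * (m - k)) * (q ^ ((m - k) ^ 2) * ∏ i ∈ Finset.range (m - k), (q ^ (2 * (i + 1)) - 1)) * ∏ i : Fin k, (q ^ k - q ^ (i : ℕ)) := by
  classical
  obtain ⟨b0, hb0⟩ : ∃ b0 : Fin k → (Fin m ⊕ Fin m → F),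
      b0 = fun i => ((Module.finBasisOfFinrankEq F W hWk i : W) : Fin m ⊕ Fin m → F) := ⟨_, rfl⟩
  have hb0W : ∀ i, b0 i ∈ W := by
    intro i
    rw [hb0]
    exact (Module.finBasisOfFinrankEq F W hWk i).2
  have hb0li : LinearIndependent F b0 := by
    rw [hb0]
    exact (Module.finBasisOfFinrankEq F W hWk).linearIndependent.map' W.subtype
      (Submodule.ker_subtype W)
  have hb0Fr : b0 ∈ Fr (F := F) m k := ⟨hb0li, fun i j => hW _ (hb0W i) _ (hb0W j)⟩
  have hspan : Submodule.span F (Set.range b0) = W := by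
    apply Submodule.eq_of_le_of_finrank_eq
    · rw [Submodule.span_le]
      rintro _ ⟨i, rfl⟩
      exact hb0W i
    · rw [finrank_span_eq_card hb0li, Fintype.card_fin, hWk]
  have e1 := orbit_count (act (F := F) m k) (act_mul m k) (act_one m k) b0 (Fr (F := F) m k)
    (fun s hs => exists_sp m k b0 s hb0Fr hs)
  have e1' : Nat.card {g : Matrix.symplecticGroup (Fin m) F // act m k g b0 ∈ Fr (F := F) m k}
      = Nat.card (Matrix.symplecticGroup (Fin m) F) :=
    Nat.card_congr (Equiv.subtypeUnivEquiv (fun g => act_mem_Fr m k g b0 hb0Fr))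
  have e2 := orbit_count (act (F := F) m k) (act_mul m k) (act_one m k) b0 (FrW m k W)
    (fun s hs => exists_sp m k b0 s hb0Fr hs.1)
  have e2' : Nat.card ↥(Cfsg.stabilizing (Cfsg.spToMat m F) (W : Set (Fin m ⊕ Fin m → F)))
      = Nat.card {g : Matrix.symplecticGroup (Fin m) F // act m k g b0 ∈ FrW m k W} := by
    refine Nat.card_congr (Equiv.subtypeEquivRight (fun g => ?_))
    constructor
    · intro hg
      exact ⟨act_mem_Fr m k g b0 hb0Fr, fun i => (hg (b0 i)).mp (hb0W i)⟩
    · intro hg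
      obtain ⟨-, hgW⟩ := hg
      have hmap : ∀ x ∈ W, (Matrix.mulVecLin (g : Matrix (Fin m ⊕ Fin m) (Fin m ⊕ Fin m) F)) x
          ∈ W := by
        intro x hx
        rw [← hspan] at hx
        obtain ⟨c, rfl⟩ := (Submodule.mem_span_range_iff_exists_fun F).mp hx
        rw [map_sum]
        refine W.sum_mem (fun i _ => ?_)
        rw [map_smul]
        exact W.smul_mem _ (hgW i)
      have hinj : Function.Injective ((Matrix.mulVecLin
          (g : Matrix (Fin m ⊕ Fin m) (Fin m ⊕ Fin m) F)).restrict hmap) := by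
        intro x y hxy
        apply Subtype.ext
        apply mulVec_inj m g
        exact congrArg Subtype.val hxy
      have hsurj := LinearMap.surjective_of_injective hinj
      intro v
      change v ∈ W ↔ (g : Matrix (Fin m ⊕ Fin m) (Fin m ⊕ Fin m) F).mulVec v ∈ W
      constructor
      · intro hv
        exact hmap v hv
      · intro hv
        obtain ⟨w, hw⟩ := hsurj ⟨_, hv⟩
        have h1 : (g : Matrix (Fin m ⊕ Fin m) (Fin m ⊕ Fin m) F).mulVec w.1
            = (g : Matrix (Fin m ⊕ Fin m) (Fin m ⊕ Fin m) F).mulVec v := congrArg Subtype.val hw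
        rw [← mulVec_inj m g h1]
        exact w.2
  have e3 := card_Fr m hF k
  have e4 : Nat.card (FrW m k W) = ∏ i : Fin k, (q ^ k - q ^ (i : ℕ)) := by
    have h := card_linearIndependent (K := F) (V := W) (k := k) (le_of_eq hWk.symm)
    rw [hWk, hF] at h
    rw [← h]
    symm
    refine Nat.card_congr
      { toFun := fun s => ⟨fun i => (s.1 i : Fin m ⊕ Fin m → F),
          ⟨⟨s.2.map' W.subtype (Submodule.ker_subtype W),
            fun i j => hW _ (s.1 i).2 _ (s.1 j).2⟩, fun i => (s.1 i).2⟩⟩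
        invFun := fun b => ⟨fun i => ⟨b.1 i, b.2.2 i⟩,
          LinearIndependent.of_comp W.subtype b.2.1.1⟩
        left_inv := fun s => rfl
        right_inv := fun b => rfl }
  have hG := Cfsg.Agent.S0245.result hF m
  rw [e1'] at e1
  rw [e2', e2, e4]
  have hpos : 0 < Nat.card (Fr (F := F) m k) := by
    rcases Nat.eq_zero_or_pos (Nat.card (Fr (F := F) m k)) with h | h
    · rw [h, zero_mul] at e1
      have : 0 < Nat.card (Matrix.symplecticGroup (Fin m) F) := Nat.card_pos
      omega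
    · exact h
  apply Nat.eq_of_mul_eq_mul_right hpos
  obtain ⟨d, rfl⟩ : ∃ d, m = k + d := ⟨m - k, by omega⟩
  have hmk : k + d - k = d := by omega
  have har := arith q k d
  rw [hmk]
  rw [← e3] at har
  calc (∏ i : Fin k, (q ^ k - q ^ (i : ℕ)))
        * Nat.card {g : Matrix.symplecticGroup (Fin (k + d)) F // act (k + d) k g b0 = b0}
        * Nat.card (Fr (F := F) (k + d) k)
      = (∏ i : Fin k, (q ^ k - q ^ (i : ℕ))) * Nat.card (Matrix.symplecticGroup (Fin (k + d)) F) := by
        rw [e1]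
        ring
    _ = (∏ i : Fin k, (q ^ k - q ^ (i : ℕ)))
        * (q ^ (k * (k + 1) / 2 + 2 * k * d)
        * (q ^ (d ^ 2) * ∏ i ∈ Finset.range d, (q ^ (2 * (i + 1)) - 1))
        * Nat.card (Fr (F := F) (k + d) k)) := by
        rw [hG, har]
    _ = _ := by ring

end Cfsg.Agent.S0775
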