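import Mathlib
import Cfsg.Statements.S0774
import Cfsg.Agent.S0775
import Cfsg.Agent.S0769
import Cfsg.Agent.S0765

set_option autoImplicit false
open Cfsg

namespace Cfsg.Agent.S0774

open Cfsg.Agent.S0775
open Cfsg.Agent.S0768 (BJ BJ_apply BJ_alt BJ_nondeg)

section aux

variable {F : Type*} [Field F] (m : ℕ)

/-- the coordinate subspace spanned by `e_0, …, e_k` -/
def E (k : Fin m) : Submodule F (Fin m ⊕ Fin m → F) where
  carrier := {v | (∀ i : Fin m, (k : ℕ) < (i : ℕ) → v (Sum.inl i) = 0) ∧
    ∀ i : Fin m, v (Sum.inr i) = 0}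
  add_mem' := by
    rintro a b ⟨ha1, ha2⟩ ⟨hb1, hb2⟩
    exact ⟨fun i hi => by rw [Pi.add_apply, ha1 i hi, hb1 i hi, add_zero],
      fun i => by rw [Pi.add_apply, ha2 i, hb2 i, add_zero]⟩
  zero_mem' := ⟨fun i _ => rfl, fun i => rfl⟩
  smul_mem' := by
    rintro c a ⟨ha1, ha2⟩
    exact ⟨fun i hi => by rw [Pi.smul_apply, ha1 i hi, smul_zero],
      fun i => by rw [Pi.smul_apply, ha2 i, smul_zero]⟩

theorem E_mono (j k : Fin m) (hjk : j ≤ k) : E (F := F) m j ≤ E m k := by
  rintro v ⟨h1, h2⟩
  exact ⟨fun i hi => h1 i (lt_of_le_of_lt hjk hi), h2⟩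

/-- the standard frame -/
def b0 : Fin m → (Fin m ⊕ Fin m → F) := fun j => Pi.single (Sum.inl j) 1

theorem b0_mem_E (j : Fin m) : b0 (F := F) m j ∈ E m j := by
  classical
  refine ⟨fun i hi => ?_, fun i => ?_⟩
  · unfold b0
    rw [Pi.single_apply, if_neg]
    intro h
    have := Sum.inl.inj h
    rw [this] at hi
    exact lt_irrefl _ hi
  · unfold b0
    rw [Pi.single_apply, if_neg]
    intro h
    cases h

theorem b0_Fr : b0 (F := F) m ∈ Fr (F := F) m m := by
  classical
  refine ⟨?_, fun i j => ?_⟩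
  · have h := (Pi.basisFun F (Fin m ⊕ Fin m)).linearIndependent.comp Sum.inl Sum.inl_injective
    have e : ⇑(Pi.basisFun F (Fin m ⊕ Fin m)) ∘ Sum.inl = b0 (F := F) m := by
      funext j
      simp [b0]
    rw [e] at h
    exact h
  · unfold b0
    rw [Cfsg.Agent.S0765.form_e, Pi.single_apply, if_neg]
    intro h
    cases h

theorem decomp (x : Fin m ⊕ Fin m → F) (hx : ∀ i, x (Sum.inr i) = 0) :
    x = ∑ j, x (Sum.inl j) • b0 (F := F) m j := by
  classical
  funext s
  rcases s with i | i
  · simp [b0, Pi.single_apply, Finset.sum_apply]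
  · rw [hx]
    simp [b0, Pi.single_apply, Finset.sum_apply]

theorem ti_of_inr_zero (u v : Fin m ⊕ Fin m → F) (hu : ∀ i, u (Sum.inr i) = 0)
    (hv : ∀ i, v (Sum.inr i) = 0) : sympForm m F u v = 0 := by
  rw [← BJ_apply, decomp m u hu, decomp m v hv]
  exact B_sum_zero m m (b0 m) (b0_Fr m).2 _ _

/-- the embedding of the first half -/
def iota : (Fin m → F) →ₗ[F] (Fin m ⊕ Fin m → F) where
  toFun x := Sum.elim x (fun _ => 0)
  map_add' a b := by
    funext s
    rcases s with i | i <;> simp
  map_smul' c a := by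
    funext s
    rcases s with i | i <;> simp

theorem iota_inl (x : Fin m → F) (i : Fin m) : iota m x (Sum.inl i) = x i := rfl
theorem iota_inr (x : Fin m → F) (i : Fin m) : iota m x (Sum.inr i) = 0 := rfl

theorem iota_inj : Function.Injective (iota (F := F) m) := by
  intro a b h
  funext i
  have := congrFun h (Sum.inl i)
  rwa [iota_inl, iota_inl] at this

/-- frames inducing the standard flag -/
def FlagFr : Set (Fin m → (Fin m ⊕ Fin m → F)) :=
  {b | b ∈ Fr (F := F) m m ∧ ∀ j, b j ∈ E (F := F) m j}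

theorem card_FlagFr [Fintype F] {q : ℕ} (hF : Fintype.card F = q) :
    Nat.card (FlagFr (F := F) m) = q ^ (m * (m - 1) / 2) * (q - 1) ^ m := by
  classical
  rw [← Cfsg.Agent.S0769.result hF m]
  symm
  refine Nat.card_eq_of_bijective
    (fun g : {g : Matrix.GeneralLinearGroup (Fin m) F //
        ∀ i j : Fin m, i < j → (g : Matrix (Fin m) (Fin m) F) i j = 0} =>
      (⟨fun j => iota m ((g.1 : Matrix (Fin m) (Fin m) F) j), ⟨⟨?_, ?_⟩, ?_⟩⟩ :
        FlagFr (F := F) m)) ⟨?_, ?_⟩
  · have h1 : LinearIndependent F (g.1 : Matrix (Fin m) (Fin m) F).row :=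
      Matrix.linearIndependent_rows_iff_isUnit.mpr g.1.isUnit
    exact h1.map' (iota m) (LinearMap.ker_eq_bot.mpr (iota_inj m))
  · intro i j
    exact ti_of_inr_zero m _ _ (fun _ => rfl) (fun _ => rfl)
  · intro j
    exact ⟨fun i hi => g.2 j i (Fin.lt_def.mpr hi), fun _ => rfl⟩
  · intro g g' h
    apply Subtype.ext
    apply Units.ext
    ext i j
    have h1 := congrFun (congrFun (congrArg Subtype.val h) i) (Sum.inl j)
    exact h1
  · rintro ⟨b, ⟨hli, -⟩, hE⟩
    have hb : ∀ j, b j = iota m (fun i => b j (Sum.inl i)) := by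
      intro j
      funext s
      rcases s with i | i
      · rfl
      · rw [iota_inr]
        exact (hE j).2 i
    have hrow : LinearIndependent F
        (Matrix.of (fun j i => b j (Sum.inl i)) : Matrix (Fin m) (Fin m) F).row := by
      apply LinearIndependent.of_comp (iota m)
      have e : (iota m) ∘ (Matrix.of (fun j i => b j (Sum.inl i)) : Matrix (Fin m) (Fin m) F).row
          = b := by
        funext j
        exact (hb j).symm
      rw [e]
      exact hli
    have hunit := Matrix.linearIndependent_rows_iff_isUnit.mp hrow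
    refine ⟨⟨hunit.unit, fun i j hij => ?_⟩, ?_⟩
    · change b i (Sum.inl j) = 0
      exact (hE i).1 j (Fin.lt_def.mp hij)
    · apply Subtype.ext
      funext j
      exact (hb j).symm

end aux

/-- Borel subgroup of the symplectic group: the elements of Sp_2m(q) stabilising each of the totally isotropic coordinate subspaces ⟨e_0, ..., e_k⟩ (k < m) form a subgroup of order q^(m²) (q − 1)^m. -/
theorem result {F : Type*} [Field F] [Fintype F] {q : ℕ} (hF : Fintype.card F = q) (m : ℕ) : Nat.card ↥(⨅ k : Fin m, Cfsg.stabilizing (Cfsg.spToMat m F) {v : Fin m ⊕ Fin m → F | (∀ i : Fin m, (k : ℕ) < (i : ℕ) → v (Sum.inl i) = 0) ∧ ∀ i : Fin m, v (Sum.inr i) = 0}) = q ^ (m ^ 2) * (q - 1) ^ m := by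
  classical
  have e1 := orbit_count (act (F := F) m m) (act_mul m m) (act_one m m) (b0 m) (Fr (F := F) m m)
    (fun s hs => exists_sp m m (b0 m) s (b0_Fr m) hs)
  have e1' : Nat.card {g : Matrix.symplecticGroup (Fin m) F //
        act m m g (b0 m) ∈ Fr (F := F) m m}
      = Nat.card (Matrix.symplecticGroup (Fin m) F) :=
    Nat.card_congr (Equiv.subtypeUnivEquiv (fun g => act_mem_Fr m m g (b0 m) (b0_Fr m)))
  have e2 := orbit_count (act (F := F) m m) (act_mul m m) (act_one m m) (b0 m) (FlagFr (F := F) m)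
    (fun s hs => exists_sp m m (b0 m) s (b0_Fr m) hs.1)
  have e2' : Nat.card ↥(⨅ k : Fin m, Cfsg.stabilizing (Cfsg.spToMat m F)
        {v : Fin m ⊕ Fin m → F | (∀ i : Fin m, (k : ℕ) < (i : ℕ) → v (Sum.inl i) = 0) ∧
          ∀ i : Fin m, v (Sum.inr i) = 0})
      = Nat.card {g : Matrix.symplecticGroup (Fin m) F //
          act m m g (b0 m) ∈ FlagFr (F := F) m} := by
    refine Nat.card_congr (Equiv.subtypeEquivRight (fun g => ?_))
    rw [Subgroup.mem_iInf]
    constructor
    · intro hg
      exact ⟨act_mem_Fr m m g (b0 m) (b0_Fr m), fun j => (hg j (b0 m j)).mp (b0_mem_E m j)⟩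
    · rintro ⟨-, hgE⟩ k
      have hmap : ∀ x ∈ E (F := F) m k,
          (Matrix.mulVecLin (g : Matrix (Fin m ⊕ Fin m) (Fin m ⊕ Fin m) F)) x ∈ E (F := F) m k := by
        intro x hx
        rw [decomp m x hx.2, map_sum]
        refine (E m k).sum_mem (fun j _ => ?_)
        rw [map_smul]
        by_cases hjk : j ≤ k
        · exact (E m k).smul_mem _ (E_mono m j k hjk (hgE j))
        · have h0 : x (Sum.inl j) = 0 := hx.1 j (Fin.lt_def.mp (not_le.mp hjk))
          rw [h0, zero_smul]
          exact (E m k).zero_mem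
      have hinj : Function.Injective ((Matrix.mulVecLin
          (g : Matrix (Fin m ⊕ Fin m) (Fin m ⊕ Fin m) F)).restrict hmap) := by
        intro x y hxy
        apply Subtype.ext
        apply mulVec_inj m g
        exact congrArg Subtype.val hxy
      have hsurj := LinearMap.surjective_of_injective hinj
      intro v
      change v ∈ E (F := F) m k ↔
        (g : Matrix (Fin m ⊕ Fin m) (Fin m ⊕ Fin m) F).mulVec v ∈ E (F := F) m k
      constructor
      · intro hv
        exact hmap v hv
      · intro hv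
        obtain ⟨w, hw⟩ := hsurj ⟨_, hv⟩
        have h1 : (g : Matrix (Fin m ⊕ Fin m) (Fin m ⊕ Fin m) F).mulVec w.1
            = (g : Matrix (Fin m ⊕ Fin m) (Fin m ⊕ Fin m) F).mulVec v := congrArg Subtype.val hw
        rw [← mulVec_inj m g h1]
        exact w.2
  have e3 := card_Fr m hF m
  have e4 := card_FlagFr m hF
  have hG := Cfsg.Agent.S0245.result hF m
  rw [e1'] at e1
  rw [e2', e2, e4]
  have hpos : 0 < Nat.card (Fr (F := F) m m) := by
    rcases Nat.eq_zero_or_pos (Nat.card (Fr (F := F) m m)) with h | h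
    · rw [h, zero_mul] at e1
      have : 0 < Nat.card (Matrix.symplecticGroup (Fin m) F) := Nat.card_pos
      omega
    · exact h
  apply Nat.eq_of_mul_eq_mul_right hpos
  have har := arith q m 0
  simp only [add_zero, mul_zero, Finset.range_zero, Finset.prod_empty, mul_one, pow_zero,
    ne_eq, OfNat.ofNat_ne_zero, not_false_eq_true, zero_pow] at har
  rw [← e3] at har
  have hexp : m * (m - 1) / 2 + m * (m + 1) / 2 = m ^ 2 := by
    have h3 : m * (m + 1) / 2 = (∑ i ∈ Finset.range m, i) + m := by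
      have h := Finset.sum_range_id (m + 1)
      rw [Finset.sum_range_succ, Nat.add_sub_cancel] at h
      rw [h, mul_comm]
    have h4 := Finset.sum_range_id_mul_two m
    rw [h3, ← Finset.sum_range_id]
    have h5 : (∑ i ∈ Finset.range m, i) * 2 + m = m * m := by
      rw [h4]
      cases m with
      | zero => rfl
      | succ n =>
        rw [Nat.add_sub_cancel]
        ring
    nlinarith [h5]
  calc q ^ (m * (m - 1) / 2) * (q - 1) ^ m
        * Nat.card {g : Matrix.symplecticGroup (Fin m) F // act m m g (b0 m) = b0 m}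
        * Nat.card (Fr (F := F) m m)
      = q ^ (m * (m - 1) / 2) * (q - 1) ^ m * Nat.card (Matrix.symplecticGroup (Fin m) F) := by
        rw [e1]
        ring
    _ = q ^ (m * (m - 1) / 2) * (q - 1) ^ m
        * (q ^ (m * (m + 1) / 2) * Nat.card (Fr (F := F) m m)) := by
        rw [hG, har]
    _ = q ^ (m ^ 2) * (q - 1) ^ m * Nat.card (Fr (F := F) m m) := by
        rw [← hexp, pow_add]
        ring

end Cfsg.Agent.S0774
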