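import Mathlib
import Cfsg.Statements.S0776
import Cfsg.Agent.S0752
import Cfsg.Agent.S0766
import Cfsg.Agent.S0768

set_option autoImplicit false
open Cfsg

namespace Cfsg.Agent.S0776

open Cfsg.Agent.S0768 (BJ BJ_apply BJ_alt BJ_nondeg)

theorem symp_basis {F W : Type*} [Field F] [AddCommGroup W] [Module F W]
    [FiniteDimensional F W] (B : LinearMap.BilinForm F W) (hA : B.IsAlt)
    (hB : B.Nondegenerate) (m : ℕ) (hfr : Module.finrank F W = 2 * m) :
    ∃ b : Module.Basis (Fin m ⊕ Fin m) F W,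
      LinearMap.BilinForm.toMatrix b B = - Matrix.J (Fin m) F := by
  classical
  obtain ⟨m', k, b, h1, h2, h3, h4⟩ := Cfsg.Agent.S0752.result B hA
  have hk : IsEmpty (Fin k) := by
    constructor
    intro j
    have h5 : b (Sum.inr j) = 0 := hB.1 _ (h4 j)
    exact b.ne_zero _ h5
  have hm : m' = m := by
    have h5 := Module.finrank_eq_card_basis b
    rw [hfr] at h5
    simp only [Fintype.card_sum, Fintype.card_fin] at h5
    have h6 : k = 0 := by
      by_contra h7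
      exact hk.false ⟨0, Nat.pos_of_ne_zero h7⟩
    omega
  subst hm
  let b' : Module.Basis (Fin m' ⊕ Fin m') F W := b.reindex (Equiv.sumEmpty _ _)
  have hb' : ∀ i, b' i = b (Sum.inl i) := by
    intro i
    simp [b']
  have hskew : ∀ x y, B x y = - B y x := fun x y => (hA.neg_eq y x).symm
  refine ⟨b', ?_⟩
  ext i j
  rw [LinearMap.BilinForm.toMatrix_apply, hb', hb']
  rcases i with i | i <;> rcases j with j | j
  · simp [Matrix.J, h2]
  · simp [Matrix.J, h1, Matrix.one_apply]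
  · rw [hskew, h1]
    simp [Matrix.J, Matrix.one_apply, eq_comm]
  · simp [Matrix.J, h3]

section blocks

variable {F : Type*} [Field F] {ι₁ ι₂ : Type*} [Fintype ι₁] [Fintype ι₂] [DecidableEq ι₁]
  [DecidableEq ι₂]

omit [DecidableEq ι₂] in
/-- block analysis of an isometry whose lower-left block vanishes -/
theorem block_analysis (G1 : Matrix ι₁ ι₁ F) (G2 : Matrix ι₂ ι₂ F) (hG1 : G1.det ≠ 0)
    (N : Matrix (ι₁ ⊕ ι₂) (ι₁ ⊕ ι₂) F)
    (hN : N.transpose * Matrix.fromBlocks G1 0 0 G2 * N = Matrix.fromBlocks G1 0 0 G2)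
    (h21 : N.toBlocks₂₁ = 0) :
    N.toBlocks₁₂ = 0 ∧ N.toBlocks₁₁.transpose * G1 * N.toBlocks₁₁ = G1 ∧
      N.toBlocks₂₂.transpose * G2 * N.toBlocks₂₂ = G2 := by
  have hNb : N = Matrix.fromBlocks N.toBlocks₁₁ N.toBlocks₁₂ 0 N.toBlocks₂₂ := by
    rw [← h21, Matrix.fromBlocks_toBlocks]
  set N11 := N.toBlocks₁₁ with h11
  set N12 := N.toBlocks₁₂ with h12
  set N22 := N.toBlocks₂₂ with h22
  rw [hNb, Matrix.fromBlocks_transpose, Matrix.fromBlocks_multiply, Matrix.fromBlocks_multiply]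
    at hN
  simp only [Matrix.transpose_zero, Matrix.mul_zero, Matrix.zero_mul, add_zero, zero_add] at hN
  have e11 := congrArg Matrix.toBlocks₁₁ hN
  have e12 := congrArg Matrix.toBlocks₁₂ hN
  have e22 := congrArg Matrix.toBlocks₂₂ hN
  simp only [Matrix.toBlocks_fromBlocks₁₁, Matrix.toBlocks_fromBlocks₁₂,
    Matrix.toBlocks_fromBlocks₂₂] at e11 e12 e22
  have hdet : (N11.transpose * G1).det ≠ 0 := by
    have h3 := congrArg Matrix.det e11
    rw [Matrix.det_mul] at h3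
    intro h0
    rw [h0, zero_mul] at h3
    exact hG1 h3.symm
  have hN12 : N12 = 0 := by
    have h3 : (N11.transpose * G1)⁻¹ * ((N11.transpose * G1) * N12) = N12 := by
      rw [← Matrix.mul_assoc, Matrix.nonsing_inv_mul _ (Ne.isUnit hdet), Matrix.one_mul]
    rw [← h3, e12, Matrix.mul_zero]
  refine ⟨hN12, e11, ?_⟩
  rw [hN12] at e22
  simpa using e22

end blocks

section core

variable {F : Type*} [Field F] (m k1 k2 : ℕ)
  (c : Module.Basis ((Fin k1 ⊕ Fin k1) ⊕ (Fin k2 ⊕ Fin k2)) F (Fin m ⊕ Fin m → F))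

noncomputable def NN (A : Matrix (Fin m ⊕ Fin m) (Fin m ⊕ Fin m) F) :
    Matrix ((Fin k1 ⊕ Fin k1) ⊕ (Fin k2 ⊕ Fin k2)) ((Fin k1 ⊕ Fin k1) ⊕ (Fin k2 ⊕ Fin k2)) F :=
  LinearMap.toMatrix c c (Matrix.toLin' A)

theorem NN_mul (A A' : Matrix (Fin m ⊕ Fin m) (Fin m ⊕ Fin m) F) :
    NN m k1 k2 c (A * A') = NN m k1 k2 c A * NN m k1 k2 c A' := by
  unfold NN
  rw [Matrix.toLin'_mul, LinearMap.toMatrix_comp c c c]

theorem NN_one : NN m k1 k2 c (1 : Matrix (Fin m ⊕ Fin m) (Fin m ⊕ Fin m) F) = 1 := by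
  unfold NN
  rw [Matrix.toLin'_one, LinearMap.toMatrix_id]

theorem NN_inj : Function.Injective (NN (F := F) m k1 k2 c) := by
  intro A A' h
  unfold NN at h
  exact Matrix.toLin'.injective ((LinearMap.toMatrix c c).injective h)

theorem NN_iso (G : Matrix ((Fin k1 ⊕ Fin k1) ⊕ (Fin k2 ⊕ Fin k2))
      ((Fin k1 ⊕ Fin k1) ⊕ (Fin k2 ⊕ Fin k2)) F)
    (hG : LinearMap.BilinForm.toMatrix c (BJ (F := F) m) = G)
    (A : Matrix (Fin m ⊕ Fin m) (Fin m ⊕ Fin m) F) (hA : A ∈ Matrix.symplecticGroup (Fin m) F) :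
    (NN m k1 k2 c A).transpose * G * NN m k1 k2 c A = G := by
  have h5 : (BJ (F := F) m).comp (Matrix.toLin' A) (Matrix.toLin' A) = BJ m := by
    apply LinearMap.ext₂
    intro x y
    rw [LinearMap.BilinForm.comp_apply, Matrix.toLin'_apply, Matrix.toLin'_apply, BJ_apply,
      BJ_apply]
    exact Cfsg.Agent.S0766.form_pres m ⟨A, hA⟩ x y
  have h6 := LinearMap.BilinForm.toMatrix_comp c c (BJ (F := F) m) (Matrix.toLin' A)
    (Matrix.toLin' A)
  rw [h5, hG] at h6
  exact h6.symm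

theorem det_negJ (k : ℕ) : (- Matrix.J (Fin k) F).det ≠ 0 := by
  rw [Matrix.det_neg]
  have h := Matrix.isUnit_det_J (Fin k) F
  exact mul_ne_zero (pow_ne_zero _ (neg_ne_zero.mpr one_ne_zero)) h.ne_zero

theorem sp_of_neg (k : ℕ) (M : Matrix (Fin k ⊕ Fin k) (Fin k ⊕ Fin k) F)
    (h : M.transpose * (- Matrix.J (Fin k) F) * M = - Matrix.J (Fin k) F) :
    M ∈ Matrix.symplecticGroup (Fin k) F := by
  rw [SymplecticGroup.mem_iff']
  have h1 : M.transpose * Matrix.J (Fin k) F * M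
      = - (M.transpose * (- Matrix.J (Fin k) F) * M) := by
    simp
  rw [h1, h, neg_neg]

theorem neg_of_sp (k : ℕ) (M : Matrix (Fin k ⊕ Fin k) (Fin k ⊕ Fin k) F)
    (hM : M ∈ Matrix.symplecticGroup (Fin k) F) :
    M.transpose * (- Matrix.J (Fin k) F) * M = - Matrix.J (Fin k) F := by
  have h1 := SymplecticGroup.mem_iff'.mp hM
  rw [Matrix.mul_neg, Matrix.neg_mul, h1]

theorem core (hG : LinearMap.BilinForm.toMatrix c (BJ (F := F) m)
      = Matrix.fromBlocks (- Matrix.J (Fin k1) F) 0 0 (- Matrix.J (Fin k2) F))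
    (W : Submodule F (Fin m ⊕ Fin m → F))
    (hWc : ∀ x, x ∈ W ↔ ∀ j, c.repr x (Sum.inr j) = 0) :
    Nonempty (↥(Cfsg.stabilizing (Cfsg.spToMat m F) (W : Set (Fin m ⊕ Fin m → F)))
      ≃* Matrix.symplecticGroup (Fin k1) F × Matrix.symplecticGroup (Fin k2) F) := by
  classical
  have hstab : ∀ A : ↥(Cfsg.stabilizing (Cfsg.spToMat m F) (W : Set (Fin m ⊕ Fin m → F))),
      ∀ v, v ∈ W ↔ ((A : Matrix.symplecticGroup (Fin m) F) :
        Matrix (Fin m ⊕ Fin m) (Fin m ⊕ Fin m) F).mulVec v ∈ W := fun A => A.2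
  have h21 : ∀ A : ↥(Cfsg.stabilizing (Cfsg.spToMat m F) (W : Set (Fin m ⊕ Fin m → F))),
      (NN m k1 k2 c ((A : Matrix.symplecticGroup (Fin m) F) :
        Matrix (Fin m ⊕ Fin m) (Fin m ⊕ Fin m) F)).toBlocks₂₁ = 0 := by
    intro A
    ext j i
    simp only [Matrix.toBlocks₂₁, Matrix.of_apply, Matrix.zero_apply]
    unfold NN
    rw [LinearMap.toMatrix_apply, Matrix.toLin'_apply]
    have hci : c (Sum.inl i) ∈ W := by
      rw [hWc]
      intro j'
      simp
    exact (hWc _).mp ((hstab A _).mp hci) j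
  have hba := fun A : ↥(Cfsg.stabilizing (Cfsg.spToMat m F) (W : Set (Fin m ⊕ Fin m → F))) =>
    block_analysis (- Matrix.J (Fin k1) F) (- Matrix.J (Fin k2) F) (det_negJ k1)
      (NN m k1 k2 c ((A : Matrix.symplecticGroup (Fin m) F) :
        Matrix (Fin m ⊕ Fin m) (Fin m ⊕ Fin m) F))
      (NN_iso m k1 k2 c _ hG _ A.1.2) (h21 A)
  have hNform : ∀ A : ↥(Cfsg.stabilizing (Cfsg.spToMat m F) (W : Set (Fin m ⊕ Fin m → F))),
      NN m k1 k2 c ((A : Matrix.symplecticGroup (Fin m) F) :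
        Matrix (Fin m ⊕ Fin m) (Fin m ⊕ Fin m) F)
      = Matrix.fromBlocks (NN m k1 k2 c ((A : Matrix.symplecticGroup (Fin m) F) :
        Matrix (Fin m ⊕ Fin m) (Fin m ⊕ Fin m) F)).toBlocks₁₁ 0 0
        (NN m k1 k2 c ((A : Matrix.symplecticGroup (Fin m) F) :
        Matrix (Fin m ⊕ Fin m) (Fin m ⊕ Fin m) F)).toBlocks₂₂ := by
    intro A
    conv_lhs => rw [← Matrix.fromBlocks_toBlocks (NN m k1 k2 c
      ((A : Matrix.symplecticGroup (Fin m) F) : Matrix (Fin m ⊕ Fin m) (Fin m ⊕ Fin m) F))]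
    rw [(hba A).1, h21 A]
  let Φ : ↥(Cfsg.stabilizing (Cfsg.spToMat m F) (W : Set (Fin m ⊕ Fin m → F))) →*
      Matrix.symplecticGroup (Fin k1) F × Matrix.symplecticGroup (Fin k2) F :=
    { toFun := fun A =>
        (⟨(NN m k1 k2 c ((A : Matrix.symplecticGroup (Fin m) F) :
            Matrix (Fin m ⊕ Fin m) (Fin m ⊕ Fin m) F)).toBlocks₁₁,
          sp_of_neg k1 _ (hba A).2.1⟩,
         ⟨(NN m k1 k2 c ((A : Matrix.symplecticGroup (Fin m) F) :
            Matrix (Fin m ⊕ Fin m) (Fin m ⊕ Fin m) F)).toBlocks₂₂,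
          sp_of_neg k2 _ (hba A).2.2⟩)
      map_one' := by
        have h1 : NN m k1 k2 c (1 : Matrix (Fin m ⊕ Fin m) (Fin m ⊕ Fin m) F)
            = Matrix.fromBlocks 1 0 0 1 := by
          rw [NN_one, Matrix.fromBlocks_one]
        apply Prod.ext <;> apply Subtype.ext
        · change (NN m k1 k2 c (1 : Matrix (Fin m ⊕ Fin m) (Fin m ⊕ Fin m) F)).toBlocks₁₁ = 1
          rw [h1, Matrix.toBlocks_fromBlocks₁₁]
        · change (NN m k1 k2 c (1 : Matrix (Fin m ⊕ Fin m) (Fin m ⊕ Fin m) F)).toBlocks₂₂ = 1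
          rw [h1, Matrix.toBlocks_fromBlocks₂₂]
      map_mul' := by
        intro A A'
        have h1 : NN m k1 k2 c (((A : Matrix.symplecticGroup (Fin m) F) :
              Matrix (Fin m ⊕ Fin m) (Fin m ⊕ Fin m) F)
            * ((A' : Matrix.symplecticGroup (Fin m) F) :
              Matrix (Fin m ⊕ Fin m) (Fin m ⊕ Fin m) F))
            = Matrix.fromBlocks
              ((NN m k1 k2 c ((A : Matrix.symplecticGroup (Fin m) F) :
                Matrix (Fin m ⊕ Fin m) (Fin m ⊕ Fin m) F)).toBlocks₁₁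
                * (NN m k1 k2 c ((A' : Matrix.symplecticGroup (Fin m) F) :
                Matrix (Fin m ⊕ Fin m) (Fin m ⊕ Fin m) F)).toBlocks₁₁) 0 0
              ((NN m k1 k2 c ((A : Matrix.symplecticGroup (Fin m) F) :
                Matrix (Fin m ⊕ Fin m) (Fin m ⊕ Fin m) F)).toBlocks₂₂
                * (NN m k1 k2 c ((A' : Matrix.symplecticGroup (Fin m) F) :
                Matrix (Fin m ⊕ Fin m) (Fin m ⊕ Fin m) F)).toBlocks₂₂) := by
          rw [NN_mul]
          conv_lhs => rw [hNform A, hNform A', Matrix.fromBlocks_multiply]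
          simp
        apply Prod.ext <;> apply Subtype.ext
        · change (NN m k1 k2 c (((A : Matrix.symplecticGroup (Fin m) F) :
              Matrix (Fin m ⊕ Fin m) (Fin m ⊕ Fin m) F)
            * ((A' : Matrix.symplecticGroup (Fin m) F) :
              Matrix (Fin m ⊕ Fin m) (Fin m ⊕ Fin m) F))).toBlocks₁₁ = _
          rw [h1, Matrix.toBlocks_fromBlocks₁₁]
          rfl
        · change (NN m k1 k2 c (((A : Matrix.symplecticGroup (Fin m) F) :
              Matrix (Fin m ⊕ Fin m) (Fin m ⊕ Fin m) F)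
            * ((A' : Matrix.symplecticGroup (Fin m) F) :
              Matrix (Fin m ⊕ Fin m) (Fin m ⊕ Fin m) F))).toBlocks₂₂ = _
          rw [h1, Matrix.toBlocks_fromBlocks₂₂]
          rfl }
  have hΦ1 : ∀ A, ((Φ A).1 : Matrix (Fin k1 ⊕ Fin k1) (Fin k1 ⊕ Fin k1) F)
      = (NN m k1 k2 c ((A : Matrix.symplecticGroup (Fin m) F) :
            Matrix (Fin m ⊕ Fin m) (Fin m ⊕ Fin m) F)).toBlocks₁₁ := fun A => rfl
  have hΦ2 : ∀ A, ((Φ A).2 : Matrix (Fin k2 ⊕ Fin k2) (Fin k2 ⊕ Fin k2) F)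
      = (NN m k1 k2 c ((A : Matrix.symplecticGroup (Fin m) F) :
            Matrix (Fin m ⊕ Fin m) (Fin m ⊕ Fin m) F)).toBlocks₂₂ := fun A => rfl
  refine ⟨MulEquiv.ofBijective Φ ⟨?_, ?_⟩⟩
  · intro A A' h
    have h1 : (NN m k1 k2 c ((A : Matrix.symplecticGroup (Fin m) F) :
            Matrix (Fin m ⊕ Fin m) (Fin m ⊕ Fin m) F)).toBlocks₁₁
        = (NN m k1 k2 c ((A' : Matrix.symplecticGroup (Fin m) F) :
            Matrix (Fin m ⊕ Fin m) (Fin m ⊕ Fin m) F)).toBlocks₁₁ := by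
      rw [← hΦ1, ← hΦ1, h]
    have h2 : (NN m k1 k2 c ((A : Matrix.symplecticGroup (Fin m) F) :
            Matrix (Fin m ⊕ Fin m) (Fin m ⊕ Fin m) F)).toBlocks₂₂
        = (NN m k1 k2 c ((A' : Matrix.symplecticGroup (Fin m) F) :
            Matrix (Fin m ⊕ Fin m) (Fin m ⊕ Fin m) F)).toBlocks₂₂ := by
      rw [← hΦ2, ← hΦ2, h]
    have h3 : NN m k1 k2 c ((A : Matrix.symplecticGroup (Fin m) F) :
            Matrix (Fin m ⊕ Fin m) (Fin m ⊕ Fin m) F)
        = NN m k1 k2 c ((A' : Matrix.symplecticGroup (Fin m) F) :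
            Matrix (Fin m ⊕ Fin m) (Fin m ⊕ Fin m) F) := by
      rw [hNform A, hNform A', h1, h2]
    exact Subtype.ext (Subtype.ext (NN_inj m k1 k2 c h3))
  · rintro ⟨M1, M2⟩
    set N : Matrix ((Fin k1 ⊕ Fin k1) ⊕ (Fin k2 ⊕ Fin k2))
        ((Fin k1 ⊕ Fin k1) ⊕ (Fin k2 ⊕ Fin k2)) F :=
      Matrix.fromBlocks (M1 : Matrix (Fin k1 ⊕ Fin k1) (Fin k1 ⊕ Fin k1) F) 0 0
        (M2 : Matrix (Fin k2 ⊕ Fin k2) (Fin k2 ⊕ Fin k2) F) with hN
    set T := Matrix.toLin c c N with hT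
    set A0 := LinearMap.toMatrix' T with hA0
    have hTN : LinearMap.toMatrix c c T = N := by
      rw [hT, LinearMap.toMatrix_toLin]
    have hNN : NN m k1 k2 c A0 = N := by
      unfold NN
      rw [hA0, Matrix.toLin'_toMatrix', hTN]
    have hNG : N.transpose * Matrix.fromBlocks (- Matrix.J (Fin k1) F) 0 0
        (- Matrix.J (Fin k2) F) * N
        = Matrix.fromBlocks (- Matrix.J (Fin k1) F) 0 0 (- Matrix.J (Fin k2) F) := by
      rw [hN, Matrix.fromBlocks_transpose, Matrix.fromBlocks_multiply,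
        Matrix.fromBlocks_multiply]
      simp only [Matrix.transpose_zero, Matrix.mul_zero, Matrix.zero_mul, add_zero, zero_add]
      rw [neg_of_sp k1 _ M1.2, neg_of_sp k2 _ M2.2]
    have hA0sp : A0 ∈ Matrix.symplecticGroup (Fin m) F := by
      rw [SymplecticGroup.mem_iff']
      have hcomp : (BJ (F := F) m).comp T T = BJ m := by
        apply (LinearMap.BilinForm.toMatrix c).injective
        rw [LinearMap.BilinForm.toMatrix_comp c c, hG, hTN]
        exact hNG
      have hmat := congrArg LinearMap.BilinForm.toMatrix' hcomp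
      rw [LinearMap.BilinForm.toMatrix'_comp] at hmat
      have hJ : LinearMap.BilinForm.toMatrix' (BJ (F := F) m) = Matrix.J (Fin m) F := by
        unfold BJ
        exact LinearMap.BilinForm.toMatrix'_toBilin' _
      rw [hJ] at hmat
      exact hmat
    have hA0st : (⟨A0, hA0sp⟩ : Matrix.symplecticGroup (Fin m) F)
        ∈ Cfsg.stabilizing (Cfsg.spToMat m F) (W : Set (Fin m ⊕ Fin m → F)) := by
      intro v
      change v ∈ W ↔ A0.mulVec v ∈ W
      rw [hWc, hWc]
      have hrep : ∀ j, c.repr (A0.mulVec v) (Sum.inr j)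
          = ((M2 : Matrix (Fin k2 ⊕ Fin k2) (Fin k2 ⊕ Fin k2) F).mulVec
              (fun j' => c.repr v (Sum.inr j'))) j := by
        intro j
        have h1 : A0.mulVec v = T v := by
          rw [hA0, ← Matrix.toLin'_apply, Matrix.toLin'_toMatrix']
        have h2 := LinearMap.toMatrix_mulVec_repr c c T v
        rw [h1, ← h2, hTN, hN]
        simp [Matrix.mulVec, dotProduct, Fintype.sum_sum_type]
      constructor
      · intro h j
        rw [hrep]
        have h0 : (fun j' => c.repr v (Sum.inr j')) = 0 := funext h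
        rw [h0, Matrix.mulVec_zero]
        rfl
      · intro h j
        have h0 : (M2 : Matrix (Fin k2 ⊕ Fin k2) (Fin k2 ⊕ Fin k2) F).mulVec
            (fun j' => c.repr v (Sum.inr j')) = 0 := by
          funext j'
          rw [← hrep]
          exact h j'
        have h3 : ((M2⁻¹ : Matrix.symplecticGroup (Fin k2) F) :
            Matrix (Fin k2 ⊕ Fin k2) (Fin k2 ⊕ Fin k2) F)
            * (M2 : Matrix (Fin k2 ⊕ Fin k2) (Fin k2 ⊕ Fin k2) F) = 1 :=
          congrArg Subtype.val (inv_mul_cancel M2)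
        have h1 : ((M2⁻¹ : Matrix.symplecticGroup (Fin k2) F) :
            Matrix (Fin k2 ⊕ Fin k2) (Fin k2 ⊕ Fin k2) F).mulVec
            ((M2 : Matrix (Fin k2 ⊕ Fin k2) (Fin k2 ⊕ Fin k2) F).mulVec
              (fun j' => c.repr v (Sum.inr j'))) = (fun j' => c.repr v (Sum.inr j')) := by
          rw [Matrix.mulVec_mulVec, h3, Matrix.one_mulVec]
        rw [h0, Matrix.mulVec_zero] at h1
        exact (congrFun h1 j).symm
    refine ⟨⟨⟨A0, hA0sp⟩, hA0st⟩, ?_⟩
    apply Prod.ext <;> apply Subtype.ext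
    · change (NN m k1 k2 c A0).toBlocks₁₁ = M1
      rw [hNN, hN, Matrix.toBlocks_fromBlocks₁₁]
    · change (NN m k1 k2 c A0).toBlocks₂₂ = M2
      rw [hNN, hN, Matrix.toBlocks_fromBlocks₂₂]

end core

/-- If W ≤ F^(2m) is a 2k-dimensional subspace on which the symplectic form is non-degenerate, then the stabiliser of W in Sp_2m(F) is isomorphic to Sp_2k(F) × Sp_(2m−2k)(F). -/
theorem result {F : Type*} [Field F] (m k : ℕ) (hk : k ≤ m) (W : Submodule F (Fin m ⊕ Fin m → F)) (hWk : Module.finrank F W = 2 * k) (hW : ∀ u ∈ W, (∀ v ∈ W, Cfsg.sympForm m F u v = 0) → u = 0) : Nonempty (↥(Cfsg.stabilizing (Cfsg.spToMat m F) (W : Set (Fin m ⊕ Fin m → F))) ≃* Matrix.symplecticGroup (Fin k) F × Matrix.symplecticGroup (Fin (m - k)) F) := by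
  classical
  have hAlt := BJ_alt (F := F) m
  have hND := BJ_nondeg (F := F) m
  have hrefl : (BJ (F := F) m).IsRefl := hAlt.isRefl
  have hskew : ∀ x y : Fin m ⊕ Fin m → F, BJ (F := F) m x y = - BJ m y x :=
    fun x y => (hAlt.neg_eq y x).symm
  have hBW : ((BJ (F := F) m).restrict W).Nondegenerate := by
    have hleft : ∀ x : W, (∀ y : W, (BJ (F := F) m).restrict W x y = 0) → x = 0 := by
      intro x hx
      apply Subtype.ext
      apply hW x x.2
      intro v hv
      rw [← BJ_apply]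
      exact hx ⟨v, hv⟩
    refine ⟨hleft, fun y hy => hleft y (fun x => ?_)⟩
    have h1 : BJ (F := F) m (x : Fin m ⊕ Fin m → F) (y : Fin m ⊕ Fin m → F) = 0 := hy x
    change BJ (F := F) m (y : Fin m ⊕ Fin m → F) (x : Fin m ⊕ Fin m → F) = 0
    rw [hskew, h1, neg_zero]
  have hcompl := LinearMap.BilinForm.isCompl_orthogonal_of_restrict_nondegenerate hrefl hBW
  have hBW' : ((BJ (F := F) m).restrict ((BJ (F := F) m).orthogonal W)).Nondegenerate := by
    apply LinearMap.BilinForm.nondegenerate_restrict_of_disjoint_orthogonal _ hrefl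
    rw [LinearMap.BilinForm.orthogonal_orthogonal hND hrefl]
    exact hcompl.symm.disjoint
  have hfrW' : Module.finrank F ((BJ (F := F) m).orthogonal W) = 2 * (m - k) := by
    rw [LinearMap.BilinForm.finrank_orthogonal hND, hWk]
    simp only [Module.finrank_fintype_fun_eq_card, Fintype.card_sum, Fintype.card_fin]
    omega
  obtain ⟨b1, hb1⟩ := symp_basis ((BJ (F := F) m).restrict W) (fun x => hAlt x) hBW k hWk
  obtain ⟨b2, hb2⟩ := symp_basis ((BJ (F := F) m).restrict ((BJ (F := F) m).orthogonal W))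
    (fun x => hAlt x) hBW' (m - k) hfrW'
  let c : Module.Basis ((Fin k ⊕ Fin k) ⊕ (Fin (m - k) ⊕ Fin (m - k))) F (Fin m ⊕ Fin m → F) :=
    (b1.prod b2).map (Submodule.prodEquivOfIsCompl W _ hcompl)
  have hcl : ∀ i, c (Sum.inl i) = (b1 i : Fin m ⊕ Fin m → F) := by
    intro i
    simp [c]
  have hcr : ∀ j, c (Sum.inr j) = (b2 j : Fin m ⊕ Fin m → F) := by
    intro j
    simp [c]
  apply core m k (m - k) c
  · ext x y
    rw [LinearMap.BilinForm.toMatrix_apply]
    rcases x with i | j <;> rcases y with i' | j'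
    · rw [hcl, hcl, Matrix.fromBlocks_apply₁₁, ← hb1, LinearMap.BilinForm.toMatrix_apply]
      rfl
    · rw [hcl, hcr, Matrix.fromBlocks_apply₁₂]
      exact (b2 j').2 _ (b1 i).2
    · rw [hcr, hcl, Matrix.fromBlocks_apply₂₁, hskew]
      have h1 : BJ (F := F) m (b1 i' : Fin m ⊕ Fin m → F) (b2 j : Fin m ⊕ Fin m → F) = 0 :=
        (b2 j).2 _ (b1 i').2
      rw [h1, neg_zero]
      rfl
    · rw [hcr, hcr, Matrix.fromBlocks_apply₂₂, ← hb2, LinearMap.BilinForm.toMatrix_apply]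
      rfl
  · intro x
    constructor
    · intro hx j
      have h1 := Submodule.prodEquivOfIsCompl_symm_apply_left W _ hcompl (⟨x, hx⟩ : ↥W)
      simp only at h1
      simp only [c, Module.Basis.map_repr, LinearEquiv.trans_apply, h1,
        Module.Basis.prod_repr_inr, map_zero, Finsupp.coe_zero, Pi.zero_apply]
    · intro h
      have hx := c.sum_repr x
      rw [Fintype.sum_sum_type] at hx
      rw [← hx]
      simp only [h, zero_smul, Finset.sum_const_zero, add_zero]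
      apply Submodule.sum_mem
      intro i _
      apply W.smul_mem
      rw [hcl]
      exact (b1 i).2

end Cfsg.Agent.S0776
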