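import Mathlib
import Cfsg.Statements.S0777

set_option autoImplicit false
open Cfsg

namespace Cfsg.Agent.S0777

open Matrix

section basics

variable {F : Type*} [Field F] {m : ℕ}

/-- the sign pattern of the symplectic form -/
def sg (F : Type*) [Field F] {m : ℕ} : Fin m ⊕ Fin m → F := Sum.elim (fun _ => -1) (fun _ => 1)

/-- projection to the index -/
def pr {m : ℕ} : Fin m ⊕ Fin m → Fin m := Sum.elim id id

theorem sg_mul_self (i : Fin m ⊕ Fin m) : sg F i * sg F i = 1 := by
  rcases i with a | a <;> simp [sg]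

theorem sg_ne_zero (i : Fin m ⊕ Fin m) : sg F i ≠ 0 := by
  rcases i with a | a <;> simp [sg]

theorem sg_swap (i : Fin m ⊕ Fin m) : sg F (Sum.swap i) = -sg F i := by
  rcases i with a | a <;> simp [sg]

theorem swap_ne (i : Fin m ⊕ Fin m) : Sum.swap i ≠ i := by
  rcases i with a | a <;> simp

theorem pr_swap (i : Fin m ⊕ Fin m) : pr (Sum.swap i) = pr i := by
  rcases i with a | a <;> simp [pr]

theorem pr_eq (i j : Fin m ⊕ Fin m) (h : pr i = pr j) : i = j ∨ i = Sum.swap j := by
  rcases i with a | a <;> rcases j with b | b <;> simp_all [pr]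

theorem J_apply (i j : Fin m ⊕ Fin m) :
    Matrix.J (Fin m) F i j = if j = Sum.swap i then sg F i else 0 := by
  rcases i with a | a <;> rcases j with b | b <;>
    simp [Matrix.J, sg, Matrix.one_apply, eq_comm]
  split_ifs <;> simp

/-- monomial matrix -/
def mono (σ : Fin m ⊕ Fin m → Fin m ⊕ Fin m) (α : Fin m ⊕ Fin m → F) :
    Matrix (Fin m ⊕ Fin m) (Fin m ⊕ Fin m) F :=
  Matrix.of fun i j => if i = σ j then α j else 0

theorem mono_apply (σ : Fin m ⊕ Fin m → Fin m ⊕ Fin m) (α : Fin m ⊕ Fin m → F)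
    (i j : Fin m ⊕ Fin m) : mono σ α i j = if i = σ j then α j else 0 := rfl

theorem mono_form (σ : Fin m ⊕ Fin m → Fin m ⊕ Fin m) (α : Fin m ⊕ Fin m → F)
    (j l : Fin m ⊕ Fin m) :
    ((mono σ α)ᵀ * Matrix.J (Fin m) F * mono σ α) j l
      = α j * α l * Matrix.J (Fin m) F (σ j) (σ l) := by
  simp only [Matrix.mul_apply, Matrix.transpose_apply, mono_apply]
  simp only [ite_mul, zero_mul, mul_ite, mul_zero, Finset.sum_ite_eq', Finset.mem_univ, if_true]
  ring

theorem symp_mono (σ : Fin m ⊕ Fin m → Fin m ⊕ Fin m) (α : Fin m ⊕ Fin m → F)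
    (hσ : Function.Injective σ) (hswap : ∀ j, σ (Sum.swap j) = Sum.swap (σ j))
    (hα : ∀ j, α j * α (Sum.swap j) * sg F (σ j) = sg F j) :
    mono σ α ∈ Matrix.symplecticGroup (Fin m) F := by
  rw [SymplecticGroup.mem_iff']
  ext j l
  rw [mono_form, J_apply, J_apply]
  by_cases h : l = Sum.swap j
  · subst h
    rw [if_pos (hswap j), if_pos rfl]
    exact hα j
  · rw [if_neg h, if_neg (fun h' => h (hσ (h'.trans (hswap j).symm))), mul_zero]

end basics

section struct

variable {F : Type*} [Field F] {m : ℕ}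

/-- each column has at most one non-zero entry -/
def Mono (A : Matrix (Fin m ⊕ Fin m) (Fin m ⊕ Fin m) F) : Prop :=
  ∀ j, ∃ i₀, ∀ i, i ≠ i₀ → A i j = 0

theorem mono_data (A : Matrix (Fin m ⊕ Fin m) (Fin m ⊕ Fin m) F)
    (hA : A ∈ Matrix.symplecticGroup (Fin m) F) (h : Mono A) :
    ∃ σ : Fin m ⊕ Fin m → Fin m ⊕ Fin m, Function.Bijective σ ∧
      (∀ i j, i ≠ σ j → A i j = 0) ∧ ∀ j, A (σ j) j ≠ 0 := by
  have hdet : A.det ≠ 0 := (SymplecticGroup.symplectic_det hA).ne_zero
  choose σ hσ using h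
  have ha : ∀ j, A (σ j) j ≠ 0 := by
    intro j h0
    apply hdet
    apply Matrix.det_eq_zero_of_column_eq_zero j
    intro i
    by_cases hi : i = σ j
    · rw [hi, h0]
    · exact hσ j i hi
  have hsurj : Function.Surjective σ := by
    intro i
    by_contra hcon
    push Not at hcon
    apply hdet
    apply Matrix.det_eq_zero_of_row_eq_zero i
    intro j
    exact hσ j i (fun h => hcon j h.symm)
  exact ⟨σ, ⟨Finite.injective_iff_surjective.mpr hsurj, hsurj⟩, fun i j => hσ j i, ha⟩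

theorem eq_mono (A : Matrix (Fin m ⊕ Fin m) (Fin m ⊕ Fin m) F)
    (σ : Fin m ⊕ Fin m → Fin m ⊕ Fin m) (hσ : ∀ i j, i ≠ σ j → A i j = 0) :
    A = mono σ (fun j => A (σ j) j) := by
  ext i j
  rw [mono_apply]
  by_cases h : i = σ j
  · rw [if_pos h, h]
  · rw [if_neg h, hσ i j h]

theorem mono_rel (σ : Fin m ⊕ Fin m → Fin m ⊕ Fin m) (α : Fin m ⊕ Fin m → F)
    (h : mono σ α ∈ Matrix.symplecticGroup (Fin m) F) (j : Fin m ⊕ Fin m) :
    σ (Sum.swap j) = Sum.swap (σ j) ∧ α j * α (Sum.swap j) * sg F (σ j) = sg F j := by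
  rw [SymplecticGroup.mem_iff'] at h
  have h1 := congrFun (congrFun h j) (Sum.swap j)
  rw [mono_form, J_apply, J_apply, if_pos rfl] at h1
  by_cases h2 : σ (Sum.swap j) = Sum.swap (σ j)
  · rw [if_pos h2] at h1
    exact ⟨h2, h1⟩
  · rw [if_neg h2, mul_zero] at h1
    exact absurd h1.symm (sg_ne_zero j)

/-- the diagonal torus -/
def TT (F : Type*) [Field F] (m : ℕ) : Subgroup (Matrix.symplecticGroup (Fin m) F) :=
  ⨅ i : Fin m ⊕ Fin m, Cfsg.stabilizing (Cfsg.spToMat m F)
    ((Submodule.span F {(Pi.single i (1 : F) : Fin m ⊕ Fin m → F)} :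
      Submodule F (Fin m ⊕ Fin m → F)) : Set (Fin m ⊕ Fin m → F))

theorem mem_span_single (i : Fin m ⊕ Fin m) (v : Fin m ⊕ Fin m → F) :
    v ∈ Submodule.span F {(Pi.single i (1 : F) : Fin m ⊕ Fin m → F)} ↔ ∀ j, j ≠ i → v j = 0 := by
  rw [Submodule.mem_span_singleton]
  constructor
  · rintro ⟨c, rfl⟩ j hj
    simp [hj]
  · intro h
    refine ⟨v i, ?_⟩
    ext j
    by_cases hj : j = i
    · subst hj
      simp
    · simp [hj, h j hj]

theorem diag_entry_ne (A : Matrix (Fin m ⊕ Fin m) (Fin m ⊕ Fin m) F)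
    (hA : A ∈ Matrix.symplecticGroup (Fin m) F) (hd : ∀ i j, i ≠ j → A i j = 0)
    (j : Fin m ⊕ Fin m) : A j j ≠ 0 := by
  have hdet : A.det ≠ 0 := (SymplecticGroup.symplectic_det hA).ne_zero
  intro h0
  apply hdet
  apply Matrix.det_eq_zero_of_column_eq_zero j
  intro i
  by_cases hi : i = j
  · rw [hi, h0]
  · exact hd i j hi

theorem mem_TT_iff (A : Matrix.symplecticGroup (Fin m) F) :
    A ∈ TT F m ↔ ∀ i j, i ≠ j →
      (A : Matrix (Fin m ⊕ Fin m) (Fin m ⊕ Fin m) F) i j = 0 := by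
  unfold TT
  rw [Subgroup.mem_iInf]
  constructor
  · intro h i j hij
    have h1 := (h j (Pi.single j 1)).mp (Submodule.subset_span rfl)
    have h2 := (mem_span_single j _).mp h1 i hij
    simpa [Cfsg.spToMat] using h2
  · intro hd i v
    have hne := diag_entry_ne A.1 A.2 hd
    have hmv : ∀ j, ((Cfsg.spToMat m F) A *ᵥ v) j
        = (A : Matrix (Fin m ⊕ Fin m) (Fin m ⊕ Fin m) F) j j * v j := by
      intro j
      show ((A : Matrix (Fin m ⊕ Fin m) (Fin m ⊕ Fin m) F) *ᵥ v) j = _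
      rw [Matrix.mulVec, dotProduct, Finset.sum_eq_single j]
      · intro k _ hk
        rw [hd j k (Ne.symm hk), zero_mul]
      · intro h
        exact absurd (Finset.mem_univ j) h
    show v ∈ Submodule.span F {(Pi.single i (1 : F) : Fin m ⊕ Fin m → F)} ↔
      (Cfsg.spToMat m F) A *ᵥ v ∈ Submodule.span F {(Pi.single i (1 : F) : Fin m ⊕ Fin m → F)}
    rw [mem_span_single, mem_span_single]
    constructor
    · intro h j hj
      rw [hmv, h j hj, mul_zero]
    · intro h j hj
      have := h j hj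
      rw [hmv] at this
      rcases mul_eq_zero.mp this with h1 | h1
      · exact absurd h1 (hne j)
      · exact h1

theorem diag_symp (d : Fin m ⊕ Fin m → F) (h : ∀ i, d i * d (Sum.swap i) = 1) :
    Matrix.diagonal d ∈ Matrix.symplecticGroup (Fin m) F := by
  have h1 : Matrix.diagonal d = mono id d := by
    ext i j
    rw [mono_apply, Matrix.diagonal_apply]
    by_cases hij : i = j
    · subst hij
      simp
    · simp [hij]
  rw [h1]
  apply symp_mono id d Function.injective_id (fun j => rfl)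
  intro j
  rw [h j, one_mul]
  rfl

theorem exists_c [Fintype F] (hq : 4 ≤ Fintype.card F) : ∃ c : F, c ≠ 0 ∧ c * c ≠ 1 := by
  classical
  by_contra hcon
  push Not at hcon
  have : Fintype.card F ≤ 3 := by
    calc Fintype.card F = (Finset.univ : Finset F).card := Finset.card_univ.symm
      _ ≤ ({0, 1, -1} : Finset F).card := Finset.card_le_card (fun x _ => by
          by_cases hx : x = 0
          · simp [hx]
          · have h1 := hcon x hx
            have h2 : (x - 1) * (x + 1) = 0 := by linear_combination h1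
            rcases mul_eq_zero.mp h2 with h3 | h3
            · have : x = 1 := sub_eq_zero.mp h3
              simp [this]
            · have : x = -1 := eq_neg_of_add_eq_zero_left h3
              simp [this])
      _ ≤ 3 := Finset.card_le_three
  omega

end struct

section norm

variable {F : Type*} [Field F] {m : ℕ}

theorem mem_norm_iff [Fintype F] (hq : 4 ≤ Fintype.card F)
    (A : Matrix.symplecticGroup (Fin m) F) :
    A ∈ Subgroup.normalizer (TT F m : Set (Matrix.symplecticGroup (Fin m) F))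
      ↔ Mono (A : Matrix (Fin m ⊕ Fin m) (Fin m ⊕ Fin m) F) := by
  rw [Subgroup.mem_normalizer_iff]
  constructor
  · intro hN
    by_contra hM
    unfold Mono at hM
    push Not at hM
    obtain ⟨j, hj⟩ := hM
    obtain ⟨i₁, -, h1⟩ := hj j
    obtain ⟨i₂, h21, h2⟩ := hj i₁
    obtain ⟨c, hc0, hcc⟩ := exists_c hq
    obtain ⟨d, hd⟩ : ∃ d : Fin m ⊕ Fin m → F,
        d = fun k => if k = i₁ then c else if k = Sum.swap i₁ then c⁻¹ else 1 := ⟨_, rfl⟩
    have hdd : ∀ i, d i * d (Sum.swap i) = 1 := by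
      intro i
      rw [hd]
      simp only
      by_cases hi : i = i₁
      · subst hi
        rw [if_pos rfl, if_neg (swap_ne i), if_pos rfl, mul_inv_cancel₀ hc0]
      · by_cases hi' : i = Sum.swap i₁
        · subst hi'
          rw [if_neg (swap_ne i₁), if_pos rfl, Sum.swap_swap, if_pos rfl, inv_mul_cancel₀ hc0]
        · have h3 : Sum.swap i ≠ i₁ := by
            intro h
            apply hi'
            rw [← h, Sum.swap_swap]
          have h4 : Sum.swap i ≠ Sum.swap i₁ := by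
            intro h
            apply hi
            have := congrArg Sum.swap h
            rwa [Sum.swap_swap, Sum.swap_swap] at this
          rw [if_neg hi, if_neg hi', if_neg h3, if_neg h4, one_mul]
    obtain ⟨t', ht'v⟩ : ∃ t' : Matrix.symplecticGroup (Fin m) F,
        (t' : Matrix (Fin m ⊕ Fin m) (Fin m ⊕ Fin m) F) = Matrix.diagonal d :=
      ⟨⟨_, diag_symp d hdd⟩, rfl⟩
    have ht' : t' ∈ TT F m := by
      rw [mem_TT_iff, ht'v]
      intro i j hij
      exact Matrix.diagonal_apply_ne _ hij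
    have ht : A⁻¹ * t' * A ∈ TT F m := by
      rw [hN (A⁻¹ * t' * A)]
      have h3 : A * (A⁻¹ * t' * A) * A⁻¹ = t' := by group
      rw [h3]
      exact ht'
    obtain ⟨t, htdef⟩ : ∃ t : Matrix.symplecticGroup (Fin m) F, t = A⁻¹ * t' * A := ⟨_, rfl⟩
    rw [← htdef] at ht
    have htd := (mem_TT_iff t).mp ht
    have heq : A * t = t' * A := by rw [htdef]; group
    have hm : (A : Matrix (Fin m ⊕ Fin m) (Fin m ⊕ Fin m) F)
        * (t : Matrix (Fin m ⊕ Fin m) (Fin m ⊕ Fin m) F)
        = Matrix.diagonal d * (A : Matrix (Fin m ⊕ Fin m) (Fin m ⊕ Fin m) F) := by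
      rw [← ht'v, ← Submonoid.coe_mul, ← Submonoid.coe_mul, heq]
    have e : ∀ i, (A : Matrix (Fin m ⊕ Fin m) (Fin m ⊕ Fin m) F) i j
        * (t : Matrix (Fin m ⊕ Fin m) (Fin m ⊕ Fin m) F) j j
        = d i * (A : Matrix (Fin m ⊕ Fin m) (Fin m ⊕ Fin m) F) i j := by
      intro i
      have h3 := congrFun (congrFun hm i) j
      rw [Matrix.diagonal_mul, Matrix.mul_apply, Finset.sum_eq_single j] at h3
      · exact h3
      · intro k _ hk
        rw [htd k j hk, mul_zero]
      · intro h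
        exact absurd (Finset.mem_univ j) h
    have e1 := e i₁
    have e2 := e i₂
    have hτ1 : (t : Matrix (Fin m ⊕ Fin m) (Fin m ⊕ Fin m) F) j j = d i₁ := by
      have h3 : (A : Matrix (Fin m ⊕ Fin m) (Fin m ⊕ Fin m) F) i₁ j
          * ((t : Matrix (Fin m ⊕ Fin m) (Fin m ⊕ Fin m) F) j j - d i₁) = 0 := by
        linear_combination e1
      rcases mul_eq_zero.mp h3 with h4 | h4
      · exact absurd h4 h1
      · exact sub_eq_zero.mp h4
    have hτ2 : (t : Matrix (Fin m ⊕ Fin m) (Fin m ⊕ Fin m) F) j j = d i₂ := by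
      have h3 : (A : Matrix (Fin m ⊕ Fin m) (Fin m ⊕ Fin m) F) i₂ j
          * ((t : Matrix (Fin m ⊕ Fin m) (Fin m ⊕ Fin m) F) j j - d i₂) = 0 := by
        linear_combination e2
      rcases mul_eq_zero.mp h3 with h4 | h4
      · exact absurd h4 h2
      · exact sub_eq_zero.mp h4
    have h5 : d i₁ = d i₂ := hτ1.symm.trans hτ2
    rw [hd] at h5
    simp only at h5
    rw [if_true, if_neg h21] at h5
    by_cases h6 : i₂ = Sum.swap i₁
    · rw [if_pos h6] at h5
      apply hcc
      have h7 : c * c = c * c⁻¹ := congrArg (c * ·) h5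
      rw [h7, mul_inv_cancel₀ hc0]
    · rw [if_neg h6] at h5
      apply hcc
      rw [h5, one_mul]
  · intro hM t
    obtain ⟨σ, ⟨hinj, hsurj⟩, hσ, ha⟩ := mono_data A.1 A.2 hM
    obtain ⟨s, hsdef⟩ : ∃ s : Matrix.symplecticGroup (Fin m) F, s = A * t * A⁻¹ := ⟨_, rfl⟩
    rw [← hsdef]
    have heq : s * A = A * t := by rw [hsdef]; group
    have hm : (s : Matrix (Fin m ⊕ Fin m) (Fin m ⊕ Fin m) F)
        * (A : Matrix (Fin m ⊕ Fin m) (Fin m ⊕ Fin m) F)
        = (A : Matrix (Fin m ⊕ Fin m) (Fin m ⊕ Fin m) F)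
          * (t : Matrix (Fin m ⊕ Fin m) (Fin m ⊕ Fin m) F) := by
      rw [← Submonoid.coe_mul, ← Submonoid.coe_mul, heq]
    rw [mem_TT_iff, mem_TT_iff]
    constructor
    · intro ht i i' hii'
      obtain ⟨j, rfl⟩ := hsurj i
      obtain ⟨l, rfl⟩ := hsurj i'
      have hjl : σ j ≠ σ l := hii'
      have h3 := congrFun (congrFun hm (σ j)) l
      rw [Matrix.mul_apply, Matrix.mul_apply, Finset.sum_eq_single (σ l),
        Finset.sum_eq_single l] at h3
      · rw [hσ (σ j) l hjl, zero_mul] at h3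
        rcases mul_eq_zero.mp h3 with h4 | h4
        · exact h4
        · exact absurd h4 (ha l)
      · intro k _ hk
        rw [ht k l hk, mul_zero]
      · intro h
        exact absurd (Finset.mem_univ l) h
      · intro k _ hk
        rw [hσ k l hk, mul_zero]
      · intro h
        exact absurd (Finset.mem_univ (σ l)) h
    · intro hs j l hjl
      have hjl' : σ j ≠ σ l := fun h => hjl (hinj h)
      have h3 := congrFun (congrFun hm (σ j)) l
      rw [Matrix.mul_apply, Matrix.mul_apply, Finset.sum_eq_single (σ j),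
        Finset.sum_eq_single j] at h3
      · rw [hσ (σ j) l hjl', mul_zero] at h3
        rcases mul_eq_zero.mp h3.symm with h4 | h4
        · exact absurd h4 (ha j)
        · exact h4
      · intro k _ hk
        rw [hσ (σ j) k (fun h => hk (hinj h).symm), zero_mul]
      · intro h
        exact absurd (Finset.mem_univ j) h
      · intro k _ hk
        rw [hs (σ j) k (Ne.symm hk), zero_mul]
      · intro h
        exact absurd (Finset.mem_univ (σ j)) h

end norm

section count

variable {F : Type*} [Field F] {m : ℕ}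

/-- image of the first basis vectors -/
def tau (π : Equiv.Perm (Fin m)) (ε : Fin m → Bool) (k : Fin m) : Fin m ⊕ Fin m :=
  if ε k = true then Sum.inr (π k) else Sum.inl (π k)

/-- the permutation of the index set -/
def sigY (π : Equiv.Perm (Fin m)) (ε : Fin m → Bool) : Fin m ⊕ Fin m → Fin m ⊕ Fin m :=
  Sum.elim (tau π ε) (fun k => Sum.swap (tau π ε k))

/-- the coefficients -/
def alY (π : Equiv.Perm (Fin m)) (ε : Fin m → Bool) (c : Fin m → Fˣ) : Fin m ⊕ Fin m → F :=
  Sum.elim (fun k => (c k : F)) (fun k => -sg F (tau π ε k) * (((c k)⁻¹ : Fˣ) : F))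

theorem pr_tau (π : Equiv.Perm (Fin m)) (ε : Fin m → Bool) (k : Fin m) :
    pr (tau π ε k) = π k := by
  unfold tau
  split_ifs <;> rfl

theorem pr_sigY (π : Equiv.Perm (Fin m)) (ε : Fin m → Bool) (j : Fin m ⊕ Fin m) :
    pr (sigY π ε j) = π (pr j) := by
  rcases j with k | k
  · exact pr_tau π ε k
  · show pr (Sum.swap (tau π ε k)) = π k
    rw [pr_swap, pr_tau]

theorem sigY_swap (π : Equiv.Perm (Fin m)) (ε : Fin m → Bool) (j : Fin m ⊕ Fin m) :
    sigY π ε (Sum.swap j) = Sum.swap (sigY π ε j) := by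
  rcases j with k | k
  · rfl
  · show tau π ε k = Sum.swap (Sum.swap (tau π ε k))
    rw [Sum.swap_swap]

theorem sigY_inj (π : Equiv.Perm (Fin m)) (ε : Fin m → Bool) :
    Function.Injective (sigY π ε) := by
  intro j j' h
  have h1 : pr j = pr j' := by
    apply π.injective
    rw [← pr_sigY π ε, ← pr_sigY π ε, h]
  rcases pr_eq j j' h1 with h2 | h2
  · exact h2
  · exfalso
    rw [h2, sigY_swap] at h
    exact swap_ne _ h

theorem alY_rel (π : Equiv.Perm (Fin m)) (ε : Fin m → Bool) (c : Fin m → Fˣ)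
    (j : Fin m ⊕ Fin m) :
    alY π ε c j * alY π ε c (Sum.swap j) * sg F (sigY π ε j) = sg F j := by
  rcases j with k | k
  · show (c k : F) * (-sg F (tau π ε k) * (((c k)⁻¹ : Fˣ) : F)) * sg F (tau π ε k) = -1
    have h1 := Units.mul_inv (c k)
    have h2 := sg_mul_self (F := F) (tau π ε k)
    linear_combination (-(sg F (tau π ε k) * sg F (tau π ε k))) * h1 - h2
  · show (-sg F (tau π ε k) * (((c k)⁻¹ : Fˣ) : F)) * (c k : F) * sg F (Sum.swap (tau π ε k)) = 1
    rw [sg_swap]
    have h1 := Units.inv_mul (c k)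
    have h2 := sg_mul_self (F := F) (tau π ε k)
    linear_combination (sg F (tau π ε k) * sg F (tau π ε k)) * h1 + h2

theorem MY_mem (π : Equiv.Perm (Fin m)) (ε : Fin m → Bool) (c : Fin m → Fˣ) :
    mono (sigY π ε) (alY π ε c) ∈ Matrix.symplecticGroup (Fin m) F :=
  symp_mono _ _ (sigY_inj π ε) (sigY_swap π ε) (alY_rel π ε c)

theorem MY_mono (π : Equiv.Perm (Fin m)) (ε : Fin m → Bool) (c : Fin m → Fˣ) :
    Mono (mono (sigY π ε) (alY π ε c)) :=
  fun j => ⟨sigY π ε j, fun i hi => by rw [mono_apply, if_neg hi]⟩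

theorem MY_inj (π π' : Equiv.Perm (Fin m)) (ε ε' : Fin m → Bool) (c c' : Fin m → Fˣ)
    (h : mono (sigY π ε) (alY π ε c) = mono (sigY π' ε') (alY π' ε' c')) :
    π = π' ∧ ε = ε' ∧ c = c' := by
  have key : ∀ k, tau π ε k = tau π' ε' k ∧ (c k : F) = c' k := by
    intro k
    have h1 := congrFun (congrFun h (tau π ε k)) (Sum.inl k)
    rw [mono_apply, mono_apply] at h1
    have h2 : sigY π ε (Sum.inl k) = tau π ε k := rfl
    have h3 : sigY π' ε' (Sum.inl k) = tau π' ε' k := rfl
    have h4 : alY π ε c (Sum.inl k) = c k := rfl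
    have h5 : alY π' ε' c' (Sum.inl k) = c' k := rfl
    rw [h2, h3, h4, h5, if_pos rfl] at h1
    by_cases h6 : tau π ε k = tau π' ε' k
    · rw [if_pos h6] at h1
      exact ⟨h6, h1⟩
    · rw [if_neg h6] at h1
      exact absurd h1 (Units.ne_zero _)
  have key2 : ∀ k, π k = π' k ∧ ε k = ε' k := by
    intro k
    have h1 := (key k).1
    unfold tau at h1
    by_cases e1 : ε k = true <;> by_cases e2 : ε' k = true
    · rw [if_pos e1, if_pos e2] at h1
      exact ⟨Sum.inr_injective h1, e1.trans e2.symm⟩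
    · rw [if_pos e1, if_neg e2] at h1
      exact absurd h1 (by simp)
    · rw [if_neg e1, if_pos e2] at h1
      exact absurd h1 (by simp)
    · rw [if_neg e1, if_neg e2] at h1
      refine ⟨Sum.inl_injective h1, ?_⟩
      rw [Bool.not_eq_true] at e1 e2
      rw [e1, e2]
  refine ⟨Equiv.ext fun k => (key2 k).1, funext fun k => (key2 k).2,
    funext fun k => Units.ext (key k).2⟩

theorem MY_surj (A : Matrix (Fin m ⊕ Fin m) (Fin m ⊕ Fin m) F)
    (hA : A ∈ Matrix.symplecticGroup (Fin m) F) (hM : Mono A) :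
    ∃ (π : Equiv.Perm (Fin m)) (ε : Fin m → Bool) (c : Fin m → Fˣ),
      mono (sigY π ε) (alY π ε c) = A := by
  obtain ⟨σ, ⟨hinj, hsurj⟩, hσ, ha⟩ := mono_data A hA hM
  have hAm := eq_mono A σ hσ
  have hrel : ∀ j, σ (Sum.swap j) = Sum.swap (σ j) ∧
      A (σ j) j * A (σ (Sum.swap j)) (Sum.swap j) * sg F (σ j) = sg F j := by
    intro j
    have h1 : mono σ (fun j => A (σ j) j) ∈ Matrix.symplecticGroup (Fin m) F := by
      rw [← hAm]
      exact hA
    exact mono_rel σ _ h1 j
  have hπinj : Function.Injective (fun k : Fin m => pr (σ (Sum.inl k))) := by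
    intro k k' h
    rcases pr_eq _ _ h with h1 | h1
    · exact Sum.inl_injective (hinj h1)
    · rw [← (hrel (Sum.inl k')).1] at h1
      have := hinj h1
      simp at this
  obtain ⟨π, hπ⟩ : ∃ π : Equiv.Perm (Fin m), ∀ k, π k = pr (σ (Sum.inl k)) :=
    ⟨Equiv.ofBijective _ ⟨hπinj, Finite.injective_iff_surjective.mp hπinj⟩, fun k => rfl⟩
  refine ⟨π, fun k => (σ (Sum.inl k)).isRight, fun k => Units.mk0 (A (σ (Sum.inl k)) (Sum.inl k))
    (ha _), ?_⟩
  have htau : ∀ k, tau π (fun k => (σ (Sum.inl k)).isRight) k = σ (Sum.inl k) := by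
    intro k
    unfold tau
    rw [hπ]
    beta_reduce
    generalize σ (Sum.inl k) = x
    rcases x with b | b <;> simp [pr]
  have hsig : sigY π (fun k => (σ (Sum.inl k)).isRight) = σ := by
    funext j
    rcases j with k | k
    · exact htau k
    · show Sum.swap (tau π _ k) = σ (Sum.inr k)
      rw [htau, ← (hrel (Sum.inl k)).1]
      rfl
  refine Eq.trans ?_ hAm.symm
  rw [hsig]
  congr 1
  funext j
  rcases j with k | k
  · rfl
  · show -sg F (tau π _ k) * ((Units.mk0 (A (σ (Sum.inl k)) (Sum.inl k)) (ha _))⁻¹ : Fˣ)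
      = A (σ (Sum.inr k)) (Sum.inr k)
    rw [htau, Units.val_inv_eq_inv_val, Units.val_mk0]
    have h1 := (hrel (Sum.inl k)).2
    have h2 := sg_mul_self (F := F) (σ (Sum.inl k))
    have h3 : sg F (Sum.inl k : Fin m ⊕ Fin m) = -1 := rfl
    rw [h3] at h1
    have h4 : (Sum.swap (Sum.inl k : Fin m ⊕ Fin m)) = Sum.inr k := rfl
    rw [h4] at h1
    have h5 := ha (Sum.inl k)
    field_simp
    linear_combination (-(sg F (σ (Sum.inl k)))) * h1 + (A (σ (Sum.inl k)) (Sum.inl k)
      * A (σ (Sum.inr k)) (Sum.inr k)) * h2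

end count

theorem result {F : Type*} [Field F] [Fintype F] {q : ℕ} (hF : Fintype.card F = q) (hq : 4 ≤ q) (m : ℕ) : Nat.card ↥(Subgroup.normalizer (⨅ i : Fin m ⊕ Fin m, Cfsg.stabilizing (Cfsg.spToMat m F) ((Submodule.span F {(Pi.single i (1 : F) : Fin m ⊕ Fin m → F)} : Submodule F (Fin m ⊕ Fin m → F)) : Set (Fin m ⊕ Fin m → F)) : Set (Matrix.symplecticGroup (Fin m) F))) = 2 ^ m * Nat.factorial m * (q - 1) ^ m := by
  classical
  have hset : (⨅ i : Fin m ⊕ Fin m, ((Cfsg.stabilizing (Cfsg.spToMat m F)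
      ((Submodule.span F {(Pi.single i (1 : F) : Fin m ⊕ Fin m → F)} :
        Submodule F (Fin m ⊕ Fin m → F)) : Set (Fin m ⊕ Fin m → F)) :
        Subgroup (Matrix.symplecticGroup (Fin m) F)) : Set (Matrix.symplecticGroup (Fin m) F)))
      = (TT F m : Set (Matrix.symplecticGroup (Fin m) F)) := by
    unfold TT
    rw [Subgroup.coe_iInf]
    rfl
  rw [hset]
  have hq4 : 4 ≤ Fintype.card F := by rw [hF]; exact hq
  have e1 : ↥(Subgroup.normalizer (TT F m : Set (Matrix.symplecticGroup (Fin m) F)))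
      ≃ {A : Matrix.symplecticGroup (Fin m) F //
          Mono (A : Matrix (Fin m ⊕ Fin m) (Fin m ⊕ Fin m) F)} :=
    Equiv.subtypeEquivRight (fun A => mem_norm_iff hq4 A)
  have e2 : {A : Matrix.symplecticGroup (Fin m) F //
        Mono (A : Matrix (Fin m ⊕ Fin m) (Fin m ⊕ Fin m) F)}
      ≃ {A : Matrix (Fin m ⊕ Fin m) (Fin m ⊕ Fin m) F //
          A ∈ Matrix.symplecticGroup (Fin m) F ∧ Mono A} :=
    Equiv.subtypeSubtypeEquivSubtypeInter (fun A => A ∈ Matrix.symplecticGroup (Fin m) F) Mono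
  obtain ⟨f, hf⟩ : ∃ f : Equiv.Perm (Fin m) × (Fin m → Bool) × (Fin m → Fˣ) →
      {A : Matrix (Fin m ⊕ Fin m) (Fin m ⊕ Fin m) F //
          A ∈ Matrix.symplecticGroup (Fin m) F ∧ Mono A},
      ∀ y, (f y : Matrix (Fin m ⊕ Fin m) (Fin m ⊕ Fin m) F)
        = mono (sigY y.1 y.2.1) (alY y.1 y.2.1 y.2.2) :=
    ⟨fun y => ⟨_, MY_mem y.1 y.2.1 y.2.2, MY_mono y.1 y.2.1 y.2.2⟩, fun y => rfl⟩
  have hbij : Function.Bijective f := by
    constructor
    · rintro ⟨π, ε, c⟩ ⟨π', ε', c'⟩ h
      have h1 := congrArg Subtype.val h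
      rw [hf, hf] at h1
      obtain ⟨h2, h3, h4⟩ := MY_inj π π' ε ε' c c' h1
      rw [h2, h3, h4]
    · rintro ⟨A, hA, hM⟩
      obtain ⟨π, ε, c, h⟩ := MY_surj A hA hM
      refine ⟨(π, ε, c), ?_⟩
      apply Subtype.ext
      rw [hf]
      exact h
  rw [Nat.card_congr e1, Nat.card_congr e2, ← Nat.card_congr (Equiv.ofBijective f hbij),
    Nat.card_prod, Nat.card_prod, Nat.card_perm, Nat.card_fun, Nat.card_fun,
    Nat.card_eq_fintype_card (α := Fin m), Fintype.card_fin, Nat.card_eq_fintype_card (α := Bool),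
    Fintype.card_bool, Nat.card_eq_fintype_card (α := Fˣ), Fintype.card_units, hF]
  ring

end Cfsg.Agent.S0777
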