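import Mathlib
import Cfsg.Statements.S0778

set_option autoImplicit false
open Cfsg

namespace Cfsg.Agent.S0778

open Matrix

/-- The block diagonal matrix `diag(P, P⁻ᵀ)`. -/
def D {F : Type*} [Field F] {m : ℕ} (P : Matrix.GeneralLinearGroup (Fin m) F) :
    Matrix (Fin m ⊕ Fin m) (Fin m ⊕ Fin m) F :=
  Matrix.fromBlocks (P : Matrix (Fin m) (Fin m) F) 0 0
    ((P⁻¹ : Matrix.GeneralLinearGroup (Fin m) F) : Matrix (Fin m) (Fin m) F)ᵀ

theorem D_mul {F : Type*} [Field F] {m : ℕ} (P Q : Matrix.GeneralLinearGroup (Fin m) F) :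
    D (P * Q) = D P * D Q := by
  unfold D
  rw [Matrix.fromBlocks_multiply]
  simp only [Matrix.mul_zero, Matrix.zero_mul, add_zero, zero_add, _root_.mul_inv_rev,
    Units.val_mul, Matrix.transpose_mul]

theorem D_one {F : Type*} [Field F] {m : ℕ} : D (1 : Matrix.GeneralLinearGroup (Fin m) F) = 1 := by
  unfold D
  simp [Matrix.fromBlocks_one]

theorem D_symp {F : Type*} [Field F] {m : ℕ} (P : Matrix.GeneralLinearGroup (Fin m) F) :
    D P ∈ Matrix.symplecticGroup (Fin m) F := by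
  rw [SymplecticGroup.mem_iff]
  unfold D Matrix.J
  rw [Matrix.fromBlocks_transpose, Matrix.fromBlocks_multiply, Matrix.fromBlocks_multiply]
  have h1 : (P : Matrix (Fin m) (Fin m) F) *
      ((P⁻¹ : Matrix.GeneralLinearGroup (Fin m) F) : Matrix (Fin m) (Fin m) F) = 1 := by
    rw [← Units.val_mul, mul_inv_cancel, Units.val_one]
  have h2 : ((P⁻¹ : Matrix.GeneralLinearGroup (Fin m) F) : Matrix (Fin m) (Fin m) F)ᵀ *
      (P : Matrix (Fin m) (Fin m) F)ᵀ = 1 := by
    rw [← Matrix.transpose_mul, h1, Matrix.transpose_one]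
  simp only [Matrix.mul_zero, Matrix.zero_mul, add_zero, zero_add, Matrix.transpose_zero,
    Matrix.transpose_transpose, Matrix.mul_neg, Matrix.mul_one, Matrix.neg_mul, h1, h2,
    neg_zero]

theorem D_mulVec {F : Type*} [Field F] {m : ℕ} (P : Matrix.GeneralLinearGroup (Fin m) F)
    (v : Fin m ⊕ Fin m → F) :
    D P *ᵥ v = Sum.elim ((P : Matrix (Fin m) (Fin m) F) *ᵥ (v ∘ Sum.inl))
      (((P⁻¹ : Matrix.GeneralLinearGroup (Fin m) F) : Matrix (Fin m) (Fin m) F)ᵀ *ᵥ (v ∘ Sum.inr)) := by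
  conv_lhs => rw [← Sum.elim_comp_inl_inr v]
  unfold D
  rw [Matrix.fromBlocks_mulVec]
  simp

theorem mulVec_eq_zero_iff {F : Type*} [Field F] {m : ℕ} (A B : Matrix (Fin m) (Fin m) F)
    (hBA : B * A = 1) (y : Fin m → F) : A *ᵥ y = 0 ↔ y = 0 := by
  constructor
  · intro h
    have : B *ᵥ (A *ᵥ y) = y := by rw [Matrix.mulVec_mulVec, hBA, Matrix.one_mulVec]
    rw [← this, h, Matrix.mulVec_zero]
  · rintro rfl
    exact Matrix.mulVec_zero A

/-- The subgroup in question. -/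
abbrev K (F : Type*) [Field F] (m : ℕ) : Subgroup (Matrix.symplecticGroup (Fin m) F) :=
  Cfsg.stabilizing (Cfsg.spToMat m F) {v : Fin m ⊕ Fin m → F | ∀ i : Fin m, v (Sum.inr i) = 0} ⊓
    Cfsg.stabilizing (Cfsg.spToMat m F) {v : Fin m ⊕ Fin m → F | ∀ i : Fin m, v (Sum.inl i) = 0}

theorem D_mem {F : Type*} [Field F] {m : ℕ} (P : Matrix.GeneralLinearGroup (Fin m) F) :
    (⟨D P, D_symp P⟩ : Matrix.symplecticGroup (Fin m) F) ∈ K F m := by
  have hPinv : ((P⁻¹ : Matrix.GeneralLinearGroup (Fin m) F) : Matrix (Fin m) (Fin m) F) *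
      (P : Matrix (Fin m) (Fin m) F) = 1 := by
    rw [← Units.val_mul, inv_mul_cancel, Units.val_one]
  have hPinv' : (P : Matrix (Fin m) (Fin m) F)ᵀ *
      ((P⁻¹ : Matrix.GeneralLinearGroup (Fin m) F) : Matrix (Fin m) (Fin m) F)ᵀ = 1 := by
    rw [← Matrix.transpose_mul, hPinv, Matrix.transpose_one]
  constructor
  · intro v
    change v ∈ {v : Fin m ⊕ Fin m → F | ∀ i : Fin m, v (Sum.inr i) = 0} ↔
      D P *ᵥ v ∈ {v : Fin m ⊕ Fin m → F | ∀ i : Fin m, v (Sum.inr i) = 0}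
    rw [D_mulVec]
    simp only [Set.mem_ofPred_eq, Sum.elim_inr]
    rw [← funext_iff (g := fun _ => (0 : F)), ← funext_iff (g := fun _ => (0 : F))]
    exact (mulVec_eq_zero_iff _ _ hPinv' (v ∘ Sum.inr)).symm
  · intro v
    change v ∈ {v : Fin m ⊕ Fin m → F | ∀ i : Fin m, v (Sum.inl i) = 0} ↔
      D P *ᵥ v ∈ {v : Fin m ⊕ Fin m → F | ∀ i : Fin m, v (Sum.inl i) = 0}
    rw [D_mulVec]
    simp only [Set.mem_ofPred_eq, Sum.elim_inl]
    rw [← funext_iff (g := fun _ => (0 : F)), ← funext_iff (g := fun _ => (0 : F))]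
    exact (mulVec_eq_zero_iff _ _ hPinv (v ∘ Sum.inl)).symm

/-- The homomorphism from `GL_m` onto the stabiliser. -/
def psi (F : Type*) [Field F] (m : ℕ) : Matrix.GeneralLinearGroup (Fin m) F →* K F m where
  toFun P := ⟨⟨D P, D_symp P⟩, D_mem P⟩
  map_one' := Subtype.ext (Subtype.ext D_one)
  map_mul' P Q := Subtype.ext (Subtype.ext (D_mul P Q))

theorem psi_injective (F : Type*) [Field F] (m : ℕ) : Function.Injective (psi F m) := by
  intro P Q h
  have h1 : D P = D Q := congrArg (fun x : K F m => (x.1.1 : Matrix _ _ F)) h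
  apply Units.ext
  have := congrArg Matrix.toBlocks₁₁ h1
  simpa [D] using this

theorem psi_surjective (F : Type*) [Field F] (m : ℕ) : Function.Surjective (psi F m) := by
  rintro ⟨⟨A, hA⟩, hAW, hAU⟩
  set P := A.toBlocks₁₁ with hP
  set Q := A.toBlocks₁₂ with hQ
  set R := A.toBlocks₂₁ with hR
  set S := A.toBlocks₂₂ with hS
  have hAeq : A = Matrix.fromBlocks P Q R S := (Matrix.fromBlocks_toBlocks A).symm
  have hR0 : R = 0 := by
    ext i j
    have h := (hAW (Pi.single (Sum.inl j) 1)).mp (by intro i; simp)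
    have h2 : (A *ᵥ (Pi.single (Sum.inl j) 1)) (Sum.inr i) = 0 := h i
    rw [Matrix.mulVec_single_one] at h2
    exact h2
  have hQ0 : Q = 0 := by
    ext i j
    have h := (hAU (Pi.single (Sum.inr j) 1)).mp (by intro i; simp)
    have h2 : (A *ᵥ (Pi.single (Sum.inr j) 1)) (Sum.inl i) = 0 := h i
    rw [Matrix.mulVec_single_one] at h2
    exact h2
  have hsymp := SymplecticGroup.mem_iff.mp hA
  rw [hAeq, hR0, hQ0] at hsymp
  unfold Matrix.J at hsymp
  rw [Matrix.fromBlocks_transpose, Matrix.fromBlocks_multiply, Matrix.fromBlocks_multiply] at hsymp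
  simp only [Matrix.mul_zero, Matrix.zero_mul, add_zero, zero_add, Matrix.transpose_zero,
    Matrix.mul_neg, Matrix.mul_one, Matrix.neg_mul] at hsymp
  rw [Matrix.fromBlocks_inj] at hsymp
  obtain ⟨-, h12, h21, -⟩ := hsymp
  have hPS : P * Sᵀ = 1 := by
    have := neg_injective h12
    exact this
  have hSP : Sᵀ * P = 1 := by
    rw [mul_eq_one_comm]; exact hPS
  refine ⟨⟨P, Sᵀ, hPS, hSP⟩, ?_⟩
  apply Subtype.ext
  apply Subtype.ext
  change D (⟨P, Sᵀ, hPS, hSP⟩ : Matrix.GeneralLinearGroup (Fin m) F) = A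
  rw [hAeq, hR0, hQ0]
  unfold D
  simp

/-- The elements of Sp_2m(F) stabilising both W = ⟨e_1..e_m⟩ and U = ⟨f_1..f_m⟩ form a subgroup isomorphic to GL_m(F) (block-diagonal matrices diag(X, X^(−ᵀ)) up to the sign convention of J), for m ≥ 1 or m = 0 alike. -/
theorem result {F : Type*} [Field F] (m : ℕ) : Nonempty (↥(Cfsg.stabilizing (Cfsg.spToMat m F) {v : Fin m ⊕ Fin m → F | ∀ i : Fin m, v (Sum.inr i) = 0} ⊓ Cfsg.stabilizing (Cfsg.spToMat m F) {v : Fin m ⊕ Fin m → F | ∀ i : Fin m, v (Sum.inl i) = 0}) ≃* Matrix.GeneralLinearGroup (Fin m) F) :=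
  ⟨(MulEquiv.ofBijective (psi F m) ⟨psi_injective F m, psi_surjective F m⟩).symm⟩

end Cfsg.Agent.S0778
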