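import Mathlib
import Cfsg.Statements.S0782
import Cfsg.Agent.S0278
import Cfsg.Agent.S0751
import Cfsg.Agent.S0779
import Cfsg.Agent.S0780
import Cfsg.Agent.S0829
import Cfsg.Agent.S0837
import Cfsg.Agent.Lib.Helper7.TICount

set_option autoImplicit false
set_option linter.unusedVariables false
set_option linter.unusedSectionVars false
set_option linter.style.haveILetI false
set_option linter.unnecessarySeqFocus false
open Cfsg

namespace Cfsg.Agent.S0782

open Cfsg.Agent.Lib.Helper7.SU3Invol (h_add_left h_smul_left h_sub_left h_add_right h_smul_right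
  h_sub_right h_symm h_single_left h_single_right)
open Cfsg.Agent.Lib.Helper7.TICount (trace_surj TIFrame span_ti frames_formula)
open Cfsg.Agent.S0828 (card_fiber)
open Cfsg.Agent.S0829 (herm_self_pow two_le_q phi_ne_id herm_Bh)
open Cfsg.Agent.S0837 (Bh Bh_apply Bh_symm Bh_nondeg herm_eq pres_iff)

section fld

variable {F : Type*} [Field F] (φ : F →+* F) (hφ2 : ∀ a : F, φ (φ a) = a)
  (hφne : φ ≠ RingHom.id F)

include hφ2 hφne in
theorem hilbert90 (δ : F) (hδ : δ * φ δ = 1) : ∃ a : F, a ≠ 0 ∧ a = δ * φ a := by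
  by_cases h : 1 + δ = 0
  · obtain ⟨s, hs0, hs⟩ := Cfsg.Agent.S0780.exists_skew φ hφne hφ2
    refine ⟨s, hs0, ?_⟩
    rw [hs]
    linear_combination s * h
  · refine ⟨1 + δ, h, ?_⟩
    rw [map_add, map_one]
    linear_combination -hδ

end fld

section form

variable {F : Type*} [Field F] [Fintype F] {q : ℕ} {n : ℕ} (φ : F →+* F)
  (hφq : ∀ a : F, φ a = a ^ q) (hφ2 : ∀ a : F, φ (φ a) = a) (hφne : φ ≠ RingHom.id F)
  (hF : Fintype.card F = q ^ 2)

include hφq hφ2 hφne in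
theorem exists_rot (w : Fin n → F) (hw0 : w ≠ 0) (hw : hermForm n F q w w = 0) (δ : F)
    (hδ : δ * φ δ = 1) :
    ∃ P : Matrix (Fin n) (Fin n) F, P.det = δ ∧
      (∀ x y, hermForm n F q (P.mulVec x) (P.mulVec y) = hermForm n F q x y) ∧
      ∀ x, hermForm n F q x w = 0 → ∃ c : F, P.mulVec x = x + c • w := by
  obtain ⟨l, hl⟩ : ∃ l, w l ≠ 0 := by
    by_contra h
    push Not at h
    exact hw0 (funext h)
  obtain ⟨u₁, hu1w⟩ : ∃ u₁ : Fin n → F, hermForm n F q u₁ w = 1 :=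
    ⟨((w l) ^ q)⁻¹ • Pi.single l 1, by
      rw [h_smul_left, h_single_left, inv_mul_cancel₀ (pow_ne_zero q hl)]⟩
  have hfix : φ (hermForm n F q u₁ u₁) = hermForm n F q u₁ u₁ := by
    rw [hφq, herm_self_pow φ hφq hφ2]
  obtain ⟨t, ht⟩ := trace_surj φ hφ2 hφne (-(hermForm n F q u₁ u₁)) (by rw [map_neg, hfix])
  obtain ⟨w', h1, h3⟩ : ∃ w' : Fin n → F, hermForm n F q w' w = 1 ∧ hermForm n F q w' w' = 0 := by
    refine ⟨u₁ + t • w, ?_, ?_⟩
    · rw [h_add_left, h_smul_left, hw, mul_zero, add_zero, hu1w]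
    · rw [h_add_left, h_smul_left, h_add_right φ hφq, h_add_right φ hφq, h_smul_right φ hφq,
        h_smul_right φ hφq, hw, h_symm φ hφq hφ2 u₁ w, hu1w, map_one]
      linear_combination ht
  have h2 : hermForm n F q w w' = 1 := by
    rw [h_symm φ hφq hφ2 w' w, h1, map_one]
  obtain ⟨a, ha0, ha⟩ := hilbert90 φ hφ2 hφne δ hδ
  have hφa : φ a ≠ 0 := by rwa [Ne, map_eq_zero]
  obtain ⟨b, hb1, hb2⟩ : ∃ b : F, φ a * b = 1 ∧ a * φ b = 1 :=
    ⟨(φ a)⁻¹, mul_inv_cancel₀ hφa, by rw [map_inv₀, hφ2, mul_inv_cancel₀ ha0]⟩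
  refine ⟨1 + Matrix.vecMulVec ((a - 1) • w) (fun j => φ (w' j))
    + Matrix.vecMulVec ((b - 1) • w') (fun j => φ (w j)), ?_, ?_, ?_⟩
  · rw [Cfsg.Agent.S0780.det_rank_two]
    simp only [← herm_Bh φ hφq, h_smul_left, h1, h2, h3, hw]
    linear_combination b * ha + δ * hb1
  · intro x y
    rw [Cfsg.Agent.S0780.rank_two_mulVec, Cfsg.Agent.S0780.rank_two_mulVec]
    simp only [← herm_Bh φ hφq]
    have e1 : hermForm n F q w y = φ (hermForm n F q y w) := h_symm φ hφq hφ2 y w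
    have e2 : hermForm n F q w' y = φ (hermForm n F q y w') := h_symm φ hφq hφ2 y w'
    simp only [h_add_left, h_smul_left, h_add_right φ hφq, h_smul_right φ hφq, hw, h1, h2, h3,
      e1, e2, map_sub, map_one]
    linear_combination (hermForm n F q x w * φ (hermForm n F q y w')) * hb1
      + (hermForm n F q x w' * φ (hermForm n F q y w)) * hb2
  · intro x hx
    refine ⟨hermForm n F q x w' * (a - 1), ?_⟩
    rw [Cfsg.Agent.S0780.rank_two_mulVec]
    simp only [← herm_Bh φ hφq]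
    rw [hx, zero_smul, add_zero, smul_smul]

/-- totally isotropic subspaces of a given dimension -/
abbrev TISub (n : ℕ) (F : Type*) [Field F] (q k : ℕ) : Type _ :=
  {W : Submodule F (Fin n → F) // Module.finrank F W = k ∧
    ∀ u ∈ W, ∀ v ∈ W, hermForm n F q u v = 0}

include hφq hφ2 hF in
theorem card_frames_eq (k : ℕ) :
    Nat.card (TIFrame n F q k)
      = Nat.card (TISub n F q k) * ∏ i : Fin k, ((q ^ 2) ^ k - (q ^ 2) ^ (i : ℕ)) := by
  classical
  apply card_fiber (fun a : TIFrame n F q k =>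
    (⟨Submodule.span F (Set.range a.1), by rw [finrank_span_eq_card a.2.1, Fintype.card_fin],
      span_ti φ hφq hφ2 a.1 a.2.2⟩ : TISub n F q k))
  intro W
  have h1 := card_linearIndependent (K := F) (V := W.1) (k := k) (by rw [W.2.1])
  rw [W.2.1, hF] at h1
  rw [← h1]
  refine Nat.card_congr
    { toFun := fun a => ⟨fun i => ⟨a.1.1 i, ?_⟩, ?_⟩
      invFun := fun s => ⟨⟨fun i => (s.1 i : Fin n → F), ?_, ?_⟩, ?_⟩
      left_inv := fun a => Subtype.ext (Subtype.ext rfl)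
      right_inv := fun s => Subtype.ext rfl }
  · have h := congrArg Subtype.val a.2
    rw [← show Submodule.span F (Set.range a.1.1) = W.1 from h]
    exact Submodule.subset_span (Set.mem_range_self i)
  · apply LinearIndependent.of_comp W.1.subtype
    exact a.1.2.1
  · exact s.2.map' W.1.subtype (Submodule.ker_subtype _)
  · intro j l
    exact W.2.2 _ (s.1 j).2 _ (s.1 l).2
  · apply Subtype.ext
    change Submodule.span F (Set.range (fun i => (s.1 i : Fin n → F))) = W.1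
    apply Submodule.eq_of_le_of_finrank_eq
    · rw [Submodule.span_le]
      rintro x ⟨i, rfl⟩
      exact (s.1 i).2
    · have hli : LinearIndependent F (fun i => (s.1 i : Fin n → F)) :=
        s.2.map' W.1.subtype (Submodule.ker_subtype _)
      rw [finrank_span_eq_card hli, Fintype.card_fin, W.2.1]

omit [Fintype F] in
theorem su_mul_mv (s t : ↥(SU n F q)) (v : Fin n → F) :
    (s * t).1.1.mulVec v = s.1.1.mulVec (t.1.1.mulVec v) := by
  rw [Matrix.mulVec_mulVec]
  rfl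

omit [Fintype F] in
theorem su_inv_mv (s : ↥(SU n F q)) (v : Fin n → F) :
    (s⁻¹).1.1.mulVec (s.1.1.mulVec v) = v := by
  rw [← su_mul_mv, inv_mul_cancel]
  exact Matrix.one_mulVec v

omit [Fintype F] in
theorem su_mv_inv (s : ↥(SU n F q)) (v : Fin n → F) :
    s.1.1.mulVec ((s⁻¹).1.1.mulVec v) = v := by
  rw [← su_mul_mv, mul_inv_cancel]
  exact Matrix.one_mulVec v

omit [Fintype F] in
theorem mem_img (W : Submodule F (Fin n → F)) (s : ↥(SU n F q)) (x : Fin n → F) :
    x ∈ W.map (Matrix.SpecialLinearGroup.toLin' s.1 : (Fin n → F) →ₗ[F] (Fin n → F))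
      ↔ ∃ v ∈ W, s.1.1.mulVec v = x := by
  rw [Submodule.mem_map]
  rfl

include hφq hφ2 hφne hF in
theorem exists_su (k : ℕ) (W W' : Submodule F (Fin n → F)) (hk : Module.finrank F W = k)
    (hk' : Module.finrank F W' = k) (hW : ∀ u ∈ W, ∀ v ∈ W, hermForm n F q u v = 0)
    (hW' : ∀ u ∈ W', ∀ v ∈ W', hermForm n F q u v = 0) :
    ∃ s : ↥(SU n F q),
      W.map (Matrix.SpecialLinearGroup.toLin' s.1 : (Fin n → F) →ₗ[F] (Fin n → F)) = W' := by
  classical
  by_cases hk0 : k = 0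
  · subst hk0
    rw [Submodule.finrank_eq_zero] at hk hk'
    refine ⟨1, ?_⟩
    rw [hk, hk', Submodule.map_bot]
  · have hWne : W ≠ ⊥ := by
      intro h
      rw [h, finrank_bot] at hk
      exact hk0 hk.symm
    obtain ⟨w, hwW, hw0⟩ := Submodule.exists_mem_ne_zero_of_ne_bot hWne
    let φ₀ : W ≃ₗ[F] W' := LinearEquiv.ofFinrankEq W W' (hk.trans hk'.symm)
    obtain ⟨g, hg1, hg2⟩ := Cfsg.Agent.S0751.result φ hφne hφ2 (Bh φ n) (Bh_symm φ hφ2 n)
      (Bh_nondeg φ hφ2 n) W W' φ₀ (by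
        intro x x'
        rw [← herm_Bh φ hφq, ← herm_Bh φ hφq, hW' _ (φ₀ x').2 _ (φ₀ x).2, hW _ x'.2 _ x.2])
    set M : Matrix (Fin n) (Fin n) F :=
      LinearMap.toMatrix' (g : (Fin n → F) →ₗ[F] (Fin n → F)) with hM
    have hMv : ∀ v, M.mulVec v = g v := fun v => LinearMap.toMatrix'_mulVec _ v
    have hMpres : ∀ x y, hermForm n F q (M.mulVec x) (M.mulVec y) = hermForm n F q x y := by
      intro x y
      rw [hMv, hMv, herm_Bh φ hφq, herm_Bh φ hφq, hg1]
    have hMU : M.transpose * M.map φ = 1 := (pres_iff φ M).mp (by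
      intro u v
      rw [← herm_eq φ hφq, ← herm_eq φ hφq]
      exact hMpres u v)
    have hdet : M.det * φ M.det = 1 := by
      have h2 := congrArg Matrix.det hMU
      rw [Matrix.det_mul, Matrix.det_transpose, Matrix.det_one] at h2
      have h3 : (M.map φ).det = φ M.det := by
        rw [RingHom.map_det]
        rfl
      rw [h3] at h2
      exact h2
    have hd0 : M.det ≠ 0 := by
      intro h
      rw [h, zero_mul] at hdet
      exact zero_ne_one hdet
    have hδ : (M.det)⁻¹ * φ ((M.det)⁻¹) = 1 := by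
      rw [map_inv₀, ← mul_inv, hdet, inv_one]
    obtain ⟨P, hPdet, hPpres, hPW⟩ := exists_rot φ hφq hφ2 hφne w hw0 (hW w hwW w hwW) _ hδ
    have hNdet : (M * P).det = 1 := by
      rw [Matrix.det_mul, hPdet, mul_inv_cancel₀ hd0]
    let s : ↥(SU n F q) := ⟨⟨M * P, hNdet⟩, fun u v => by
      change hermForm n F q ((M * P).mulVec u) ((M * P).mulVec v) = _
      rw [← Matrix.mulVec_mulVec, ← Matrix.mulVec_mulVec, hMpres, hPpres]⟩
    refine ⟨s, ?_⟩
    apply Submodule.eq_of_le_of_finrank_eq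
    · intro x hx
      rw [mem_img] at hx
      obtain ⟨v, hv, rfl⟩ := hx
      change (M * P).mulVec v ∈ W'
      obtain ⟨c, hc⟩ := hPW v (hW v hv w hwW)
      have hv2 : v + c • w ∈ W := W.add_mem hv (W.smul_mem c hwW)
      rw [← Matrix.mulVec_mulVec, hc, hMv]
      have h5 := hg2 ⟨v + c • w, hv2⟩
      rw [h5]
      exact (φ₀ ⟨v + c • w, hv2⟩).2
    · rw [LinearEquiv.finrank_map_eq, hk, hk']

include hφq hφ2 hφne hF in
theorem card_orbit (k : ℕ) (W : Submodule F (Fin n → F)) (hk : Module.finrank F W = k)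
    (hW : ∀ u ∈ W, ∀ v ∈ W, hermForm n F q u v = 0) :
    Nat.card ↥(SU n F q) = Nat.card (TISub n F q k) *
      Nat.card ↥((stabilizing (slToMat n F) (W : Set (Fin n → F))).subgroupOf (SU n F q)) := by
  classical
  apply card_fiber (fun s : ↥(SU n F q) =>
    (⟨W.map (Matrix.SpecialLinearGroup.toLin' s.1 : (Fin n → F) →ₗ[F] (Fin n → F)),
      by rw [LinearEquiv.finrank_map_eq, hk], by
        intro u hu v hv
        rw [mem_img] at hu hv
        obtain ⟨u', hu', rfl⟩ := hu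
        obtain ⟨v', hv', rfl⟩ := hv
        exact (s.2 u' v').trans (hW u' hu' v' hv')⟩ : TISub n F q k))
  intro W'
  obtain ⟨s₀, hs₀⟩ := exists_su φ hφq hφ2 hφne hF k W W'.1 hk W'.2.1 hW W'.2.2
  have hstab : ∀ p : ↥(SU n F q),
      p ∈ (stabilizing (slToMat n F) (W : Set (Fin n → F))).subgroupOf (SU n F q)
        ↔ ∀ v, v ∈ W ↔ p.1.1.mulVec v ∈ W := fun p => Iff.rfl
  symm
  refine Nat.card_congr
    { toFun := fun p => ⟨s₀ * p.1, ?_⟩
      invFun := fun s => ⟨s₀⁻¹ * s.1, ?_⟩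
      left_inv := fun p => Subtype.ext (inv_mul_cancel_left s₀ p.1)
      right_inv := fun s => Subtype.ext (mul_inv_cancel_left s₀ s.1) }
  · apply Subtype.ext
    change W.map (Matrix.SpecialLinearGroup.toLin' (s₀ * p.1).1 :
      (Fin n → F) →ₗ[F] (Fin n → F)) = W'.1
    rw [← hs₀]
    have hp := (hstab p.1).mp p.2
    ext x
    rw [mem_img, mem_img]
    constructor
    · rintro ⟨v, hv, rfl⟩
      exact ⟨p.1.1.1.mulVec v, (hp v).mp hv, (su_mul_mv s₀ p.1 v).symm⟩
    · rintro ⟨v, hv, rfl⟩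
      refine ⟨(p.1⁻¹).1.1.mulVec v, (hp _).mpr ?_, ?_⟩
      · rw [su_mv_inv]
        exact hv
      · rw [su_mul_mv, su_mv_inv]
  · rw [hstab]
    have hs : W.map (Matrix.SpecialLinearGroup.toLin' s.1.1 :
        (Fin n → F) →ₗ[F] (Fin n → F)) = W'.1 := congrArg Subtype.val s.2
    rw [← hs₀] at hs
    intro v
    constructor
    · intro hv
      have h1 : s.1.1.1.mulVec v ∈ W.map (Matrix.SpecialLinearGroup.toLin' s.1.1 :
          (Fin n → F) →ₗ[F] (Fin n → F)) := (mem_img W s.1 _).mpr ⟨v, hv, rfl⟩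
      rw [hs, mem_img] at h1
      obtain ⟨v', hv', h2⟩ := h1
      rw [su_mul_mv, ← h2, su_inv_mv]
      exact hv'
    · intro hv
      rw [su_mul_mv] at hv
      have h1 : s.1.1.1.mulVec v ∈ W.map (Matrix.SpecialLinearGroup.toLin' s₀.1 :
          (Fin n → F) →ₗ[F] (Fin n → F)) :=
        (mem_img W s₀ _).mpr ⟨_, hv, su_mv_inv s₀ _⟩
      rw [← hs, mem_img] at h1
      obtain ⟨v', hv', h2⟩ := h1
      have h3 := congrArg (fun z => (s.1⁻¹).1.1.mulVec z) h2
      simp only [su_inv_mv] at h3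
      rw [← h3]
      exact hv'

end form
/-- Maximal parabolics of SU_n(q): if W is a k-dimensional subspace of F^n (n ≥ 1, |F| = q²) on which the Hermitian form vanishes, then (q + 1) times the order of its stabiliser in SU_n(q) equals q^(k(2n−3k)) · |GL_k(q²)| · |GU_(n−2k)(q)|, where |GU_m(q)| = q^(m(m−1)/2) Π_(i=1..m) (q^i − (−1)^i). -/
theorem result {F : Type*} [Field F] [Fintype F] {q : ℕ} (hF : Fintype.card F = q ^ 2) (n k : ℕ) (hn : 1 ≤ n) (hk : 2 * k ≤ n) (W : Submodule F (Fin n → F)) (hWk : Module.finrank F W = k) (hW : ∀ u ∈ W, ∀ v ∈ W, Cfsg.hermForm n F q u v = 0) : (q + 1) * Nat.card ↥((Cfsg.stabilizing (Cfsg.slToMat n F) (W : Set (Fin n → F))).subgroupOf (Cfsg.SU n F q)) = q ^ (k * (2 * n - 3 * k)) * (∏ i : Fin k, ((q ^ 2) ^ k - (q ^ 2) ^ (i : ℕ))) * (q ^ ((n - 2 * k) * ((n - 2 * k) - 1) / 2) * ∏ i ∈ Finset.range (n - 2 * k), (if Even i then q ^ (i + 1) + 1 else q ^ (i + 1) - 1)) := by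
  obtain ⟨φ, hφq, hφ2⟩ := Cfsg.Agent.S0779.exists_frob hF
  have hφne := phi_ne_id hF φ hφq
  have hSU := Cfsg.Agent.S0278.result hF n hn
  have horb := card_orbit φ hφq hφ2 hφne hF k W hWk hW
  have hfr := frames_formula φ hφq hφ2 hφne hF n k hk
  have hfe := card_frames_eq (n := n) φ hφq hφ2 hF k
  have hT : 0 < Nat.card (TISub n F q k) := by
    have : Nonempty (TISub n F q k) := ⟨⟨W, hWk, hW⟩⟩
    exact Nat.card_pos
  rw [horb, hfr, hfe] at hSU
  apply Nat.eq_of_mul_eq_mul_left hT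
  rw [← mul_left_comm, hSU]
  ring
end Cfsg.Agent.S0782
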