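import Mathlib
import Cfsg.Statements.S0785
import Cfsg.Agent.S0784

set_option autoImplicit false
open Cfsg

namespace Cfsg.Agent.S0785

theorem mem_isometryGroup_iff {F : Type*} [Field F] {n : ℕ} (Q : (Fin n → F) → F)
    (g : Matrix.GeneralLinearGroup (Fin n) F) :
    g ∈ Cfsg.isometryGroup F Q ↔ ∀ u, Q ((g : Matrix (Fin n) (Fin n) F).mulVec u) = Q u := by
  constructor
  · intro h u
    exact h u u
  · intro h u _
    exact h u

theorem det_sq_eq_one {F : Type*} [Field F] {n : ℕ} (Q : QuadraticForm F (Fin n → F))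
    (hQ : (QuadraticMap.polarBilin Q).Nondegenerate) (A : Matrix (Fin n) (Fin n) F)
    (hA : ∀ u, Q (A.mulVec u) = Q u) : A.det * A.det = 1 := by
  set B : LinearMap.BilinForm F (Fin n → F) := QuadraticMap.polarBilin Q with hB
  have hcomp : B.comp (Matrix.toLin' A) (Matrix.toLin' A) = B := by
    apply LinearMap.ext₂
    intro u v
    rw [LinearMap.BilinForm.comp_apply, Matrix.toLin'_apply, Matrix.toLin'_apply]
    change QuadraticMap.polar ⇑Q (A.mulVec u) (A.mulVec v) = QuadraticMap.polar ⇑Q u v
    simp only [QuadraticMap.polar, ← Matrix.mulVec_add, hA]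
  have hmat := congrArg LinearMap.BilinForm.toMatrix' hcomp
  rw [LinearMap.BilinForm.toMatrix'_comp, LinearMap.toMatrix'_toLin'] at hmat
  have hdet := congrArg Matrix.det hmat
  rw [Matrix.det_mul, Matrix.det_mul, Matrix.det_transpose] at hdet
  have hne : (LinearMap.BilinForm.toMatrix' B).det ≠ 0 := by
    rw [← Matrix.nondegenerate_iff_det_ne_zero]
    exact LinearMap.BilinForm.nondegenerate_toMatrix'_iff.mpr hQ
  have h2 : (A.det * A.det - 1) * (LinearMap.BilinForm.toMatrix' B).det = 0 := by
    linear_combination hdet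
  rcases mul_eq_zero.mp h2 with h3 | h3
  · linear_combination h3
  · exact absurd h3 hne

/-- det(I) = {±1}: for a quadratic form on F^n whose polar form is non-degenerate, every element of the isometry group has determinant 1 or −1, and as soon as Q takes a non-zero value some isometry has determinant −1. -/
theorem result {F : Type*} [Field F] {n : ℕ} (Q : QuadraticForm F (Fin n → F)) (hQ : (QuadraticMap.polarBilin Q).Nondegenerate) : (∀ g : ↥(Cfsg.isometryGroup F ⇑Q), ((g : Matrix.GeneralLinearGroup (Fin n) F) : Matrix (Fin n) (Fin n) F).det = 1 ∨ ((g : Matrix.GeneralLinearGroup (Fin n) F) : Matrix (Fin n) (Fin n) F).det = -1) ∧ ((∃ v, Q v ≠ 0) → ∃ g : ↥(Cfsg.isometryGroup F ⇑Q), ((g : Matrix.GeneralLinearGroup (Fin n) F) : Matrix (Fin n) (Fin n) F).det = -1) := by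
  constructor
  · intro g
    have hg := (mem_isometryGroup_iff (⇑Q) g.1).mp g.2
    have h := det_sq_eq_one Q hQ _ hg
    have h2 : ((g.1 : Matrix (Fin n) (Fin n) F).det - 1) * ((g.1 : Matrix (Fin n) (Fin n) F).det + 1) = 0 := by
      linear_combination h
    rcases mul_eq_zero.mp h2 with h3 | h3
    · left; linear_combination h3
    · right; linear_combination h3
  · rintro ⟨v, hv⟩
    obtain ⟨h1, -, -, h4⟩ := Cfsg.Agent.S0784.result Q v hv
    have hdet : (Cfsg.reflectionMatrix ⇑Q v).det ≠ 0 := by
      rw [h4]; exact neg_ne_zero.mpr one_ne_zero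
    refine ⟨⟨Matrix.GeneralLinearGroup.mkOfDetNeZero _ hdet, ?_⟩, ?_⟩
    · rw [mem_isometryGroup_iff]
      intro u
      exact h1 u
    · exact h4

end Cfsg.Agent.S0785
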