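import Cfsg.Statements.S0789
import Mathlib
import Cfsg.Agent.Lib.Helper3.DicksonGen

set_option autoImplicit false
open Cfsg

namespace Cfsg.Agent.S0789

/-- Ω has index 2 in O for q even: if F is finite of characteristic two, n ≥ 2, Q is a quadratic form on F^n with non-degenerate polar form, and (|F|, n) ≠ (2, 4), then the commutator subgroup of the isometry group of Q has index 2 in it. -/
theorem result {F : Type*} [Field F] [Fintype F] [CharP F 2] {n : ℕ} (hn : 2 ≤ n) (Q : QuadraticForm F (Fin n → F)) (hQ : (QuadraticMap.polarBilin Q).Nondegenerate) (h : Fintype.card F ≠ 2 ∨ n ≠ 4) : (Cfsg.Omega F ⇑Q).index = 2 := by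
  have : Nonempty (Fin n) := ⟨⟨0, by omega⟩⟩
  exact Cfsg.Agent.Lib.Helper3.omega_index_char_two Q CharTwo.two_eq_zero hQ (by
    rcases h with h | h
    · exact Or.inl h
    · exact Or.inr (by rw [Fintype.card_fin]; exact h))

end Cfsg.Agent.S0789
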