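import Cfsg.Statements.S0787
import Cfsg.Agent.Lib.Helper16.SpinSO
import Cfsg.Agent.S0789

set_option autoImplicit false
open Cfsg

namespace Cfsg.Agent.S0787

open Cfsg.Agent.Lib.Helper16

/-- Existence and uniqueness of Ω: if F is finite, n ≥ 2, Q is a quadratic form on F^n with non-degenerate polar form and (|F|, n) ≠ (2, 4), then the group of isometries of determinant one has a unique subgroup of index 2. -/
theorem result {F : Type*} [Field F] [Fintype F] {n : ℕ} (hn : 2 ≤ n) (Q : QuadraticForm F (Fin n → F)) (hQ : (QuadraticMap.polarBilin Q).Nondegenerate) (h : Fintype.card F ≠ 2 ∨ n ≠ 4) : ∃! H : Subgroup ↥(Cfsg.specialIsometryGroup F ⇑Q), H.index = 2 := by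
  by_cases h2 : (2 : F) = 0
  · have hchar : CharP F 2 := CharTwo.of_one_ne_zero_of_two_eq_zero one_ne_zero h2
    have hidx := Cfsg.Agent.S0789.result hn Q hQ h
    exact so_index_two_even Q hQ (by simpa [Fintype.card_fin] using h) hidx
  · exact so_index_two_odd Q h2 hQ (by simpa [Fintype.card_fin] using hn)

end Cfsg.Agent.S0787
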