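import Mathlib
import Cfsg.Statements.S0792
import Cfsg.Agent.S0785
import Cfsg.Agent.Lib.Helper7.QuadMat

set_option autoImplicit false
open Cfsg

namespace Cfsg.Agent.S0792

section aux

variable {F : Type*} [Field F] {n : ℕ} (Q : QuadraticForm F (Fin n → F))

def act (g : ↥(Cfsg.isometryGroup F ⇑Q)) (x : Fin n → F) : Fin n → F :=
  ((g : Matrix.GeneralLinearGroup (Fin n) F) : Matrix (Fin n) (Fin n) F).mulVec x

theorem act_mul (g h : ↥(Cfsg.isometryGroup F ⇑Q)) (x : Fin n → F) :
    act Q (g * h) x = act Q g (act Q h x) := by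
  unfold act
  rw [Subgroup.coe_mul, Units.val_mul, Matrix.mulVec_mulVec]

theorem act_one (x : Fin n → F) : act Q 1 x = x := by
  unfold act
  simp

theorem act_inv_act (g : ↥(Cfsg.isometryGroup F ⇑Q)) (x : Fin n → F) :
    act Q g⁻¹ (act Q g x) = x := by
  rw [← act_mul, inv_mul_cancel, act_one]

theorem act_add (g : ↥(Cfsg.isometryGroup F ⇑Q)) (x y : Fin n → F) :
    act Q g (x + y) = act Q g x + act Q g y := Matrix.mulVec_add _ _ _

theorem act_smul (g : ↥(Cfsg.isometryGroup F ⇑Q)) (c : F) (x : Fin n → F) :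
    act Q g (c • x) = c • act Q g x := Matrix.mulVec_smul _ _ _

theorem act_neg (g : ↥(Cfsg.isometryGroup F ⇑Q)) (x : Fin n → F) :
    act Q g (-x) = - act Q g x := Matrix.mulVec_neg _ _

theorem act_iso (g : ↥(Cfsg.isometryGroup F ⇑Q)) (x : Fin n → F) : Q (act Q g x) = Q x :=
  g.2 x x

theorem act_polar (g : ↥(Cfsg.isometryGroup F ⇑Q)) (x y : Fin n → F) :
    QuadraticMap.polar ⇑Q (act Q g x) (act Q g y) = QuadraticMap.polar ⇑Q x y := by
  simp only [QuadraticMap.polar, ← act_add, act_iso]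

theorem eq_one_of_act (g : ↥(Cfsg.isometryGroup F ⇑Q)) (h : ∀ x, act Q g x = x) : g = 1 := by
  apply Subtype.ext
  apply Units.ext
  have h1 : ((g : Matrix.GeneralLinearGroup (Fin n) F) : Matrix (Fin n) (Fin n) F).mulVec
      = (1 : Matrix (Fin n) (Fin n) F).mulVec := by
    funext x
    rw [Matrix.one_mulVec]
    exact h x
  exact Matrix.mulVec_injective h1

theorem polar_self' (x : Fin n → F) : QuadraticMap.polar ⇑Q x x = 2 * Q x := by
  rw [QuadraticMap.polar_self, two_nsmul, two_mul]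

theorem Q_sub' (y v : Fin n → F) : Q (y - v) = Q y + Q v - QuadraticMap.polar ⇑Q y v := by
  have e := QuadraticMap.map_add (⇑Q) (y - v) v
  rw [sub_add_cancel, QuadraticMap.polar_sub_left, polar_self'] at e
  linear_combination -e

theorem exists_refl (v : Fin n → F) (hv : Q v ≠ 0) :
    ∃ r : ↥(Cfsg.isometryGroup F ⇑Q),
      ((r : Matrix.GeneralLinearGroup (Fin n) F) : Matrix (Fin n) (Fin n) F)
        = Cfsg.reflectionMatrix ⇑Q v := by
  obtain ⟨h1, -, -, h4⟩ := Cfsg.Agent.S0784.result Q v hv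
  have hdet : (Cfsg.reflectionMatrix ⇑Q v).det ≠ 0 := by
    rw [h4]
    exact neg_ne_zero.mpr one_ne_zero
  exact ⟨⟨Matrix.GeneralLinearGroup.mkOfDetNeZero _ hdet,
    (Cfsg.Agent.S0785.mem_isometryGroup_iff _ _).mpr h1⟩, rfl⟩

theorem act_refl (r : ↥(Cfsg.isometryGroup F ⇑Q)) (v : Fin n → F)
    (hr : ((r : Matrix.GeneralLinearGroup (Fin n) F) : Matrix (Fin n) (Fin n) F)
      = Cfsg.reflectionMatrix ⇑Q v) (x : Fin n → F) :
    act Q r x = x - ((Q v)⁻¹ * QuadraticMap.polar ⇑Q v x) • v := by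
  unfold act
  rw [hr, Cfsg.Agent.Lib.Helper7.reflectionMatrix_mulVec]

def R : Set ↥(Cfsg.isometryGroup F ⇑Q) :=
  {g | ∃ v : Fin n → F, Q v ≠ 0 ∧
    ((g : Matrix.GeneralLinearGroup (Fin n) F) : Matrix (Fin n) (Fin n) F)
      = Cfsg.reflectionMatrix ⇑Q v}

theorem refl_sq (r : ↥(Cfsg.isometryGroup F ⇑Q)) (hr : r ∈ R Q) : r * r = 1 := by
  obtain ⟨v, hv, hrv⟩ := hr
  apply eq_one_of_act
  intro x
  rw [act_mul, act_refl Q r v hrv, act_refl Q r v hrv, QuadraticMap.polar_sub_right,
    QuadraticMap.polar_smul_right, polar_self', smul_eq_mul]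
  have h1 : (Q v)⁻¹ * (QuadraticMap.polar ⇑Q v x
      - (Q v)⁻¹ * QuadraticMap.polar ⇑Q v x * (2 * Q v))
      = - ((Q v)⁻¹ * QuadraticMap.polar ⇑Q v x) := by
    field_simp
    ring
  rw [h1, neg_smul]
  abel

theorem move (h2 : (2 : F) ≠ 0) (W : Submodule F (Fin n → F)) (v y : Fin n → F)
    (hv : v ∈ W) (hy : y ∈ W) (hQv : Q v ≠ 0) (hQy : Q y = Q v) :
    ∃ h ∈ Subgroup.closure (R Q), act Q h v = y ∧
      ∀ x, (∀ w ∈ W, QuadraticMap.polar ⇑Q x w = 0) → act Q h x = x := by
  have hpc : ∀ a b : Fin n → F, QuadraticMap.polar ⇑Q a b = QuadraticMap.polar ⇑Q b a :=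
    fun a b => QuadraticMap.polar_comm _ a b
  have e1 : Q (y + v) = Q y + Q v + QuadraticMap.polar ⇑Q y v := QuadraticMap.map_add (⇑Q) y v
  have e2 := Q_sub' Q y v
  by_cases h1 : Q (y - v) = 0
  · have hQ2 : Q (y + v) ≠ 0 := by
      intro h0
      have h3 : (2 : F) * 2 * Q v = 0 := by
        rw [hQy] at e1 e2
        linear_combination h0 + h1 - e1 - e2
      rcases mul_eq_zero.mp h3 with h4 | h4
      · exact h2 ((mul_self_eq_zero).mp h4)
      · exact hQv h4
    have hQy0 : Q y ≠ 0 := by rw [hQy]; exact hQv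
    obtain ⟨r1, hr1⟩ := exists_refl Q (y + v) hQ2
    obtain ⟨r2, hr2⟩ := exists_refl Q y hQy0
    refine ⟨r2 * r1, Subgroup.mul_mem _ (Subgroup.subset_closure ⟨y, hQy0, hr2⟩)
      (Subgroup.subset_closure ⟨y + v, hQ2, hr1⟩), ?_, ?_⟩
    · rw [act_mul, act_refl Q r1 _ hr1]
      have e3 : QuadraticMap.polar ⇑Q (y + v) v = Q (y + v) := by
        rw [QuadraticMap.polar_add_left, polar_self', e1, hQy]
        ring
      rw [e3, inv_mul_cancel₀ hQ2, one_smul]
      have e4 : v - (y + v) = -y := by abel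
      rw [e4, act_neg, act_refl Q r2 _ hr2, polar_self']
      have e5 : (Q y)⁻¹ * (2 * Q y) = 2 := by
        field_simp
      rw [e5, two_smul]
      abel
    · intro x hx
      rw [act_mul, act_refl Q r1 _ hr1, hpc, hx _ (W.add_mem hy hv), mul_zero, zero_smul,
        sub_zero, act_refl Q r2 _ hr2, hpc, hx _ hy, mul_zero, zero_smul, sub_zero]
  · obtain ⟨r, hr⟩ := exists_refl Q (y - v) h1
    refine ⟨r, Subgroup.subset_closure ⟨y - v, h1, hr⟩, ?_, ?_⟩
    · rw [act_refl Q r _ hr]
      have e3 : QuadraticMap.polar ⇑Q (y - v) v = - Q (y - v) := by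
        rw [QuadraticMap.polar_sub_left, polar_self', e2, hQy]
        ring
      rw [e3, mul_neg, inv_mul_cancel₀ h1, neg_smul, one_smul]
      abel
    · intro x hx
      rw [act_refl Q r _ hr, hpc, hx _ (W.sub_mem hy hv), mul_zero, zero_smul, sub_zero]

theorem cd_aux (h2 : (2 : F) ≠ 0) (hQ : (QuadraticMap.polarBilin Q).Nondegenerate) :
    ∀ (k : ℕ) (W : Submodule F (Fin n → F)), Module.finrank F W ≤ k →
      (∀ w ∈ W, (∀ w' ∈ W, QuadraticMap.polar ⇑Q w w' = 0) → w = 0) →
      ∀ g : ↥(Cfsg.isometryGroup F ⇑Q),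
        (∀ x, (∀ w ∈ W, QuadraticMap.polar ⇑Q x w = 0) → act Q g x = x) →
        g ∈ Subgroup.closure (R Q) := by
  have hpc : ∀ a b : Fin n → F, QuadraticMap.polar ⇑Q a b = QuadraticMap.polar ⇑Q b a :=
    fun a b => QuadraticMap.polar_comm _ a b
  have hbot : ∀ (W : Submodule F (Fin n → F)), W = ⊥ → ∀ g : ↥(Cfsg.isometryGroup F ⇑Q),
      (∀ x, (∀ w ∈ W, QuadraticMap.polar ⇑Q x w = 0) → act Q g x = x) →
      g ∈ Subgroup.closure (R Q) := by
    intro W hW g hfix
    have h1 : g = 1 := by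
      apply eq_one_of_act
      intro x
      apply hfix
      intro w hw
      rw [hW, Submodule.mem_bot] at hw
      rw [hw, QuadraticMap.polar_zero_right]
    rw [h1]
    exact Subgroup.one_mem _
  intro k
  induction k with
  | zero =>
    intro W hk hnd g hfix
    exact hbot W (Submodule.finrank_eq_zero.mp (Nat.le_zero.mp hk)) g hfix
  | succ k ih =>
    intro W hk hnd g hfix
    by_cases hW : W = ⊥
    · exact hbot W hW g hfix
    · obtain ⟨v, hvW, hQv⟩ : ∃ v ∈ W, Q v ≠ 0 := by
        obtain ⟨w, hwW, hw0⟩ := (Submodule.ne_bot_iff W).mp hW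
        by_contra hcon
        push Not at hcon
        apply hw0
        apply hnd w hwW
        intro w' hw'
        have e := QuadraticMap.map_add (⇑Q) w w'
        rw [hcon _ (W.add_mem hwW hw'), hcon w hwW, hcon w' hw'] at e
        rw [zero_add, zero_add] at e
        exact e.symm
      have hyW : act Q g v ∈ W := by
        have hrefl : (QuadraticMap.polarBilin Q).IsRefl := by
          intro a b hab
          change QuadraticMap.polar ⇑Q b a = 0
          rw [hpc]
          exact hab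
        have hoo := LinearMap.BilinForm.orthogonal_orthogonal hQ hrefl W
        rw [← hoo, LinearMap.BilinForm.mem_orthogonal_iff]
        intro x hx
        rw [LinearMap.BilinForm.mem_orthogonal_iff] at hx
        have hxfix : act Q g x = x := by
          apply hfix
          intro w hw
          have h3 := hx w hw
          change QuadraticMap.polar ⇑Q w x = 0 at h3
          rw [hpc]
          exact h3
        have h4 : QuadraticMap.polar ⇑Q x v = 0 := by
          have h3 := hx v hvW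
          change QuadraticMap.polar ⇑Q v x = 0 at h3
          rw [hpc]
          exact h3
        change QuadraticMap.polar ⇑Q x (act Q g v) = 0
        calc QuadraticMap.polar ⇑Q x (act Q g v)
            = QuadraticMap.polar ⇑Q (act Q g x) (act Q g v) := by rw [hxfix]
          _ = QuadraticMap.polar ⇑Q x v := act_polar Q g x v
          _ = 0 := h4
      obtain ⟨h, hh, hhv, hhfix⟩ := move Q h2 W v (act Q g v) hvW hyW hQv (act_iso Q g v)
      have hg'v : act Q (h⁻¹ * g) v = v := by
        rw [act_mul, ← hhv, act_inv_act]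
      have hg'fix : ∀ x, (∀ w ∈ W, QuadraticMap.polar ⇑Q x w = 0) → act Q (h⁻¹ * g) x = x := by
        intro x hx
        rw [act_mul, hfix x hx]
        have h3 := hhfix x hx
        calc act Q h⁻¹ x = act Q h⁻¹ (act Q h x) := by rw [h3]
          _ = x := act_inv_act Q h x
      set W' : Submodule F (Fin n → F) := W ⊓ LinearMap.ker (QuadraticMap.polarBilin Q v)
        with hW'
      have hmemW' : ∀ w, w ∈ W' ↔ w ∈ W ∧ QuadraticMap.polar ⇑Q v w = 0 := by
        intro w
        rw [hW', Submodule.mem_inf, LinearMap.mem_ker]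
        rfl
      have hvv : QuadraticMap.polar ⇑Q v v ≠ 0 := by
        rw [polar_self']
        exact mul_ne_zero h2 hQv
      have hdec : ∀ w ∈ W,
          w - (QuadraticMap.polar ⇑Q v w / QuadraticMap.polar ⇑Q v v) • v ∈ W' := by
        intro w hw
        rw [hmemW']
        refine ⟨W.sub_mem hw (W.smul_mem _ hvW), ?_⟩
        rw [QuadraticMap.polar_sub_right, QuadraticMap.polar_smul_right, smul_eq_mul]
        field_simp
        ring
      have hW'lt : W' < W := by
        refine lt_of_le_of_ne inf_le_left ?_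
        intro heq
        have h3 : v ∈ W' := by rw [heq]; exact hvW
        exact hvv ((hmemW' v).mp h3).2
      have hk' : Module.finrank F W' ≤ k := by
        have := Submodule.finrank_lt_finrank_of_lt hW'lt
        omega
      have hnd' : ∀ w ∈ W', (∀ w' ∈ W', QuadraticMap.polar ⇑Q w w' = 0) → w = 0 := by
        intro w hw hw0
        obtain ⟨hwW, hwv⟩ := (hmemW' w).mp hw
        apply hnd w hwW
        intro w'' hw''
        have h1 := hw0 _ (hdec w'' hw'')
        rw [QuadraticMap.polar_sub_right, QuadraticMap.polar_smul_right, hpc w v, hwv,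
          smul_zero, sub_zero] at h1
        exact h1
      have hfix' : ∀ x, (∀ w ∈ W', QuadraticMap.polar ⇑Q x w = 0) →
          act Q (h⁻¹ * g) x = x := by
        intro x hx
        set c := QuadraticMap.polar ⇑Q v x / QuadraticMap.polar ⇑Q v v with hc
        have hxdec : x = (x - c • v) + c • v := by abel
        have h1 : ∀ w ∈ W, QuadraticMap.polar ⇑Q (x - c • v) w = 0 := by
          intro w hw
          have h3 := hx _ (hdec w hw)
          rw [QuadraticMap.polar_sub_right, QuadraticMap.polar_smul_right, smul_eq_mul] at h3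
          rw [QuadraticMap.polar_sub_left, QuadraticMap.polar_smul_left, smul_eq_mul, hc]
          rw [hpc x v] at h3
          field_simp at h3 ⊢
          linear_combination h3
        calc act Q (h⁻¹ * g) x = act Q (h⁻¹ * g) ((x - c • v) + c • v) := by rw [← hxdec]
          _ = (x - c • v) + c • v := by rw [act_add, act_smul, hg'fix _ h1, hg'v]
          _ = x := hxdec.symm
      have h5 := ih W' hk' hnd' (h⁻¹ * g) hfix'
      have hg : g = h * (h⁻¹ * g) := by group
      rw [hg]
      exact Subgroup.mul_mem _ hh h5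

theorem cd (h2 : (2 : F) ≠ 0) (hQ : (QuadraticMap.polarBilin Q).Nondegenerate)
    (g : ↥(Cfsg.isometryGroup F ⇑Q)) : g ∈ Subgroup.closure (R Q) := by
  apply cd_aux Q h2 hQ (Module.finrank F (⊤ : Submodule F (Fin n → F))) ⊤ le_rfl
  · intro w _ hw
    apply hQ.1 w
    intro y
    exact hw y Submodule.mem_top
  · intro x hx
    have h1 : x = 0 := by
      apply hQ.1 x
      intro y
      exact hx y Submodule.mem_top
    rw [h1]
    unfold act
    rw [Matrix.mulVec_zero]

theorem mem_SO_iff (g : ↥(Cfsg.isometryGroup F ⇑Q)) :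
    g ∈ Cfsg.specialIsometryGroup F ⇑Q ↔
      ((g : Matrix.GeneralLinearGroup (Fin n) F) : Matrix (Fin n) (Fin n) F).det = 1 := by
  unfold Cfsg.specialIsometryGroup
  rw [MonoidHom.mem_ker, MonoidHom.comp_apply, Units.ext_iff]
  rfl

theorem det_refl (r : ↥(Cfsg.isometryGroup F ⇑Q)) (hr : r ∈ R Q) :
    ((r : Matrix.GeneralLinearGroup (Fin n) F) : Matrix (Fin n) (Fin n) F).det = -1 := by
  obtain ⟨v, hv, hrv⟩ := hr
  rw [hrv]
  exact (Cfsg.Agent.S0784.result Q v hv).2.2.2

end aux

/-- For q odd and Q with non-degenerate polar form on F^n, the determinant-one isometries form the subgroup generated by all products r_u r_v of two reflections (Q(u), Q(v) ≠ 0). -/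
theorem result {F : Type*} [Field F] [Fintype F] (h2 : (2 : F) ≠ 0) {n : ℕ} (Q : QuadraticForm F (Fin n → F)) (hQ : (QuadraticMap.polarBilin Q).Nondegenerate) : Cfsg.specialIsometryGroup F ⇑Q = Subgroup.closure {g : ↥(Cfsg.isometryGroup F ⇑Q) | ∃ u v : Fin n → F, Q u ≠ 0 ∧ Q v ≠ 0 ∧ ((g : Matrix.GeneralLinearGroup (Fin n) F) : Matrix (Fin n) (Fin n) F) = Cfsg.reflectionMatrix ⇑Q u * Cfsg.reflectionMatrix ⇑Q v} := by
  set K := Subgroup.closure {g : ↥(Cfsg.isometryGroup F ⇑Q) | ∃ u v : Fin n → F, Q u ≠ 0 ∧ Q v ≠ 0 ∧ ((g : Matrix.GeneralLinearGroup (Fin n) F) : Matrix (Fin n) (Fin n) F) = Cfsg.reflectionMatrix ⇑Q u * Cfsg.reflectionMatrix ⇑Q v} with hK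
  have hKle : K ≤ Cfsg.specialIsometryGroup F ⇑Q := by
    rw [hK, Subgroup.closure_le]
    rintro g ⟨u, v, hu, hv, hg⟩
    change g ∈ Cfsg.specialIsometryGroup F ⇑Q
    rw [mem_SO_iff, hg, Matrix.det_mul, (Cfsg.Agent.S0784.result Q u hu).2.2.2,
      (Cfsg.Agent.S0784.result Q v hv).2.2.2]
    ring
  have hpair : ∀ r ∈ R Q, ∀ s ∈ R Q, r * s ∈ K := by
    intro r hr s hs
    obtain ⟨u, hu, hru⟩ := hr
    obtain ⟨v, hv, hsv⟩ := hs
    apply Subgroup.subset_closure
    refine ⟨u, v, hu, hv, ?_⟩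
    rw [Subgroup.coe_mul, Units.val_mul, hru, hsv]
  have key : ∀ x ∈ Subgroup.closure (R Q), x ∈ K ∨ ∃ r ∈ R Q, x * r ∈ K := by
    intro x hx
    have hstep : ∀ (x : ↥(Cfsg.isometryGroup F ⇑Q)) (y : ↥(Cfsg.isometryGroup F ⇑Q)),
        y ∈ R Q → (x ∈ K ∨ ∃ r ∈ R Q, x * r ∈ K) → (x * y ∈ K ∨ ∃ r ∈ R Q, x * y * r ∈ K) := by
      intro x y hy hx
      rcases hx with hx | ⟨r, hr, hxr⟩
      · right
        refine ⟨y, hy, ?_⟩
        rw [mul_assoc, refl_sq Q y hy, mul_one]
        exact hx
      · left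
        have h3 : x * y = (x * r) * (r * y) := by
          rw [mul_assoc, ← mul_assoc r r y, refl_sq Q r hr, one_mul]
        rw [h3]
        exact Subgroup.mul_mem _ hxr (hpair r hr y hy)
    induction hx using Subgroup.closure_induction_right with
    | one => exact Or.inl (Subgroup.one_mem _)
    | mul_right x hx y hy ih => exact hstep x y hy ih
    | mul_inv_cancel x hx y hy ih =>
      have hyinv : y⁻¹ = y := inv_eq_of_mul_eq_one_right (refl_sq Q y hy)
      rw [hyinv]
      exact hstep x y hy ih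
  apply le_antisymm
  · intro g hg
    rcases key g (cd Q h2 hQ g) with h | ⟨r, hr, hgr⟩
    · exact h
    · exfalso
      have h3 := (mem_SO_iff Q (g * r)).mp (hKle hgr)
      rw [Subgroup.coe_mul, Units.val_mul, Matrix.det_mul, (mem_SO_iff Q g).mp hg,
        det_refl Q r hr] at h3
      apply h2
      linear_combination -h3
  · exact hKle

end Cfsg.Agent.S0792
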