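import Mathlib
import Cfsg.Statements.S0794
import Cfsg.Agent.S0792
import Cfsg.Agent.S0750
import Cfsg.Agent.S0793
import Cfsg.Agent.Lib.Helper7.QuadMat

set_option autoImplicit false
open Cfsg

namespace Cfsg.Agent.S0794

open Cfsg.Agent.S0792

section aux

variable {F : Type*} [Field F] {n : ℕ} (Q : QuadraticForm F (Fin n → F))

theorem act_sub' (g : ↥(Cfsg.isometryGroup F ⇑Q)) (x y : Fin n → F) :
    act Q g (x - y) = act Q g x - act Q g y := Matrix.mulVec_sub _ _ _

theorem ext_act (g g' : ↥(Cfsg.isometryGroup F ⇑Q)) (h : ∀ x, act Q g x = act Q g' x) :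
    g = g' := by
  apply Subtype.ext
  apply Units.ext
  have h1 : ((g : Matrix.GeneralLinearGroup (Fin n) F) : Matrix (Fin n) (Fin n) F).mulVec
      = ((g' : Matrix.GeneralLinearGroup (Fin n) F) : Matrix (Fin n) (Fin n) F).mulVec := by
    funext x
    exact h x
  exact Matrix.mulVec_injective h1

theorem of_equiv (g : (Fin n → F) ≃ₗ[F] (Fin n → F)) (hg : ∀ x, Q (g x) = Q x) :
    ∃ h : ↥(Cfsg.isometryGroup F ⇑Q), ∀ x, act Q h x = g x := by
  have hmv : ∀ x, (LinearMap.toMatrix' g.toLinearMap).mulVec x = g x := by
    intro x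
    rw [← Matrix.toLin'_apply, Matrix.toLin'_toMatrix']
    rfl
  let M : Matrix.GeneralLinearGroup (Fin n) F :=
    ⟨LinearMap.toMatrix' g.toLinearMap, LinearMap.toMatrix' g.symm.toLinearMap,
      by rw [← LinearMap.toMatrix'_comp]; simp,
      by rw [← LinearMap.toMatrix'_comp]; simp⟩
  have hM : M ∈ Cfsg.isometryGroup F ⇑Q := by
    rw [Cfsg.Agent.S0785.mem_isometryGroup_iff]
    intro x
    change Q ((LinearMap.toMatrix' g.toLinearMap).mulVec x) = Q x
    rw [hmv, hg]
  exact ⟨⟨M, hM⟩, fun x => hmv x⟩

theorem of_matrix (A : Matrix (Fin n) (Fin n) F) (A' : Matrix (Fin n) (Fin n) F)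
    (h1 : A * A' = 1) (hA : ∀ x, Q (A.mulVec x) = Q x) :
    ∃ h : ↥(Cfsg.isometryGroup F ⇑Q),
      ((h : Matrix.GeneralLinearGroup (Fin n) F) : Matrix (Fin n) (Fin n) F) = A := by
  have h2 : A' * A = 1 := mul_eq_one_comm.mp h1
  exact ⟨⟨⟨A, A', h1, h2⟩, (Cfsg.Agent.S0785.mem_isometryGroup_iff _ _).mpr hA⟩, rfl⟩

end aux

/-- For q odd, n ≥ 5 and Q with non-degenerate polar form: an isometry whose matrix is a Siegel transformation T_(u,v)(c) (u, v singular and orthogonal) is a commutator in the isometry group, so lies in Ω. -/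
theorem result {F : Type*} [Field F] [Fintype F] (h2 : (2 : F) ≠ 0) {n : ℕ} (hn : 5 ≤ n) (Q : QuadraticForm F (Fin n → F)) (hQ : (QuadraticMap.polarBilin Q).Nondegenerate) (u v : Fin n → F) (hu : Q u = 0) (hv : Q v = 0) (huv : QuadraticMap.polar ⇑Q u v = 0) (c : F) (g : ↥(Cfsg.isometryGroup F ⇑Q)) (hg : ((g : Matrix.GeneralLinearGroup (Fin n) F) : Matrix (Fin n) (Fin n) F) = Cfsg.siegelMatrix ⇑Q u v c) : g ∈ commutatorSet ↥(Cfsg.isometryGroup F ⇑Q) ∧ g ∈ Cfsg.Omega F ⇑Q := by
  have hpc : ∀ a b : Fin n → F, QuadraticMap.polar ⇑Q a b = QuadraticMap.polar ⇑Q b a :=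
    fun a b => QuadraticMap.polar_comm _ a b
  have hgact : ∀ x, act Q g x = x + (c * QuadraticMap.polar ⇑Q u x) • v
      - (c * QuadraticMap.polar ⇑Q v x) • u := by
    intro x
    unfold act
    rw [hg, Cfsg.Agent.Lib.Helper7.siegelMatrix_mulVec]
  have key : g ∈ commutatorSet ↥(Cfsg.isometryGroup F ⇑Q) := by
    by_cases hind : ∀ a b : F, a • u + b • v = 0 → a = 0 ∧ b = 0
    · -- independent case
      obtain ⟨hS1, hS2, hS3⟩ := Cfsg.Agent.S0793.result Q u v hu hv huv
      set d : F := -c / 2 with hd
      obtain ⟨t, ht⟩ := of_matrix Q (Cfsg.siegelMatrix ⇑Q u v d) (Cfsg.siegelMatrix ⇑Q u v (-d))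
        (by
          rw [hS3, add_neg_cancel]
          unfold Cfsg.siegelMatrix
          rw [zero_smul, add_zero]) (hS1 d)
      have htact : ∀ x, act Q t x = x + (d * QuadraticMap.polar ⇑Q u x) • v
          - (d * QuadraticMap.polar ⇑Q v x) • u := by
        intro x
        unfold act
        rw [ht, Cfsg.Agent.Lib.Helper7.siegelMatrix_mulVec]
      -- the isometry h with h u = -u, h v = v
      have huv' : u ∉ Submodule.span F {v} := by
        intro hmem
        obtain ⟨a, ha⟩ := Submodule.mem_span_singleton.mp hmem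
        have h3 := hind 1 (-a) (by rw [one_smul, neg_smul, ha, add_neg_cancel])
        exact one_ne_zero h3.1
      obtain ⟨f, hf1, hf2⟩ := LinearMap.exists_extend_of_notMem (Submodule.span F {v}).subtype
        huv' (-u)
      have hfv : f v = v := by
        have := LinearMap.congr_fun hf1 ⟨v, Submodule.mem_span_singleton_self v⟩
        simpa using this
      set X := Submodule.span F {u, v} with hX
      have hdec : ∀ x ∈ X, ∃ a b : F, x = a • u + b • v := by
        intro x hx
        obtain ⟨a, b, h⟩ := Submodule.mem_span_pair.mp hx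
        exact ⟨a, b, h.symm⟩
      have hQX : ∀ a b : F, Q (a • u + b • v) = 0 := by
        intro a b
        rw [QuadraticMap.map_add (⇑Q), QuadraticMap.map_smul, QuadraticMap.map_smul, hu, hv,
          QuadraticMap.polar_smul_left, QuadraticMap.polar_smul_right, huv]
        simp
      have hadd : ∀ x y : Fin n → F, Q (x + y) = Q x + Q y + QuadraticMap.polarBilin Q x y :=
        fun x y => QuadraticMap.map_add (⇑Q) x y
      have hsmul : ∀ (a : F) (x : Fin n → F), Q (a • x) = a * a * Q x := by
        intro a x
        rw [QuadraticMap.map_smul, smul_eq_mul]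
      obtain ⟨e, he1, he2⟩ := Cfsg.Agent.S0750.main (fun x => Q x) (QuadraticMap.polarBilin Q)
        hadd hsmul hQ (Module.finrank F X) X f le_rfl
        (by
          intro x hx
          obtain ⟨a, b, rfl⟩ := hdec x hx
          have h3 : f (a • u + b • v) = (-a) • u + b • v := by
            rw [map_add, map_smul, map_smul, hf2, hfv, smul_neg, neg_smul]
          change Q (f (a • u + b • v)) = Q (a • u + b • v)
          rw [h3, hQX, hQX])
        (by
          intro x hx h0
          obtain ⟨a, b, rfl⟩ := hdec x hx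
          have h3 : f (a • u + b • v) = (-a) • u + b • v := by
            rw [map_add, map_smul, map_smul, hf2, hfv, smul_neg, neg_smul]
          rw [h3] at h0
          obtain ⟨ha, hb⟩ := hind (-a) b h0
          rw [neg_eq_zero.mp ha, hb, zero_smul, zero_smul, add_zero])
      obtain ⟨h, hh⟩ := of_equiv Q e he1
      have hhu : act Q h u = -u := by
        rw [hh, he2 u (Submodule.subset_span (by simp)), hf2]
      have hhv : act Q h v = v := by
        rw [hh, he2 v (Submodule.subset_span (by simp)), hfv]
      have hpu : ∀ x, QuadraticMap.polar ⇑Q u (act Q h x) = - QuadraticMap.polar ⇑Q u x := by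
        intro x
        have h3 := act_polar Q h (-u) x
        rw [act_neg, hhu, neg_neg, QuadraticMap.polar_neg_left] at h3
        exact h3
      have hpv : ∀ x, QuadraticMap.polar ⇑Q v (act Q h x) = QuadraticMap.polar ⇑Q v x := by
        intro x
        have h3 := act_polar Q h v x
        rw [hhv] at h3
        exact h3
      rw [mem_commutatorSet_iff]
      refine ⟨h, t, ?_⟩
      -- ⁅h, t⁆ = g  iff  h * t = g * t * h
      have hcomm : h * t = g * t * h := by
        apply ext_act
        intro x
        rw [act_mul, act_mul, act_mul, htact, htact, hgact, act_sub', act_add, act_smul, act_smul,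
          hhu, hhv]
        simp only [QuadraticMap.polar_add_right, QuadraticMap.polar_sub_right,
          QuadraticMap.polar_smul_right, hpu, hpv, huv, hpc v u, smul_eq_mul, mul_zero,
          Cfsg.Agent.S0792.polar_self', hu, hv, add_zero, sub_zero]
        have hd2 : c = -(2 * d) := by
          rw [hd]
          field_simp
        rw [hd2]
        module
      rw [commutatorElement_def, hcomm]
      group
    · -- dependent case: the matrix is the identity
      push Not at hind
      obtain ⟨a, b, hab, hne⟩ := hind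
      have hg1 : g = 1 := by
        apply eq_one_of_act
        intro x
        rw [hgact]
        by_cases hb : b = 0
        · have ha : a ≠ 0 := fun ha => hne ha hb
          rw [hb, zero_smul, add_zero] at hab
          have hu0 : u = 0 := (smul_eq_zero.mp hab).resolve_left ha
          rw [hu0, QuadraticMap.polar_zero_left]
          simp
        · have hv' : v = (-(b⁻¹ * a)) • u := by
            have h3 : b • v = -(a • u) := by
              rw [eq_neg_iff_add_eq_zero, add_comm]
              exact hab
            calc v = b⁻¹ • (b • v) := by rw [smul_smul, inv_mul_cancel₀ hb, one_smul]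
              _ = b⁻¹ • (-(a • u)) := by rw [h3]
              _ = (-(b⁻¹ * a)) • u := by rw [neg_smul, mul_smul, smul_neg]
          rw [hv', QuadraticMap.polar_smul_left, smul_eq_mul]
          module
      rw [hg1]
      exact one_mem_commutatorSet _
  refine ⟨key, ?_⟩
  change g ∈ commutator ↥(Cfsg.isometryGroup F ⇑Q)
  rw [commutator_eq_closure]
  exact Subgroup.subset_closure key

end Cfsg.Agent.S0794
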