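import Mathlib
import Cfsg.Statements.S0795
import Cfsg.Agent.S0794
import Cfsg.Agent.Lib.Helper3.ReflClass

set_option autoImplicit false
open Cfsg

namespace Cfsg.Agent.S0795

open Cfsg.Agent.S0792 Cfsg.Agent.S0794
open scoped commutatorElement

section aux

variable {F : Type*} [Field F] {n : ℕ} (Q : QuadraticForm F (Fin n → F))

/-- The isometry `r` acts as the reflection in `v`. -/
def IsR (r : ↥(Cfsg.isometryGroup F ⇑Q)) (v : Fin n → F) : Prop :=
  ∀ x, act Q r x = x - ((Q v)⁻¹ * QuadraticMap.polar ⇑Q v x) • v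

/-- The isometry `g` acts as the Siegel transformation attached to `u`, `v`, `c`. -/
def IsS (g : ↥(Cfsg.isometryGroup F ⇑Q)) (u v : Fin n → F) (c : F) : Prop :=
  ∀ x, act Q g x = x + (c * QuadraticMap.polar ⇑Q u x) • v - (c * QuadraticMap.polar ⇑Q v x) • u

/-- The generating set of the statement. -/
def Sg : Set ↥(Cfsg.isometryGroup F ⇑Q) :=
  {g | ∃ (u v : Fin n → F) (c : F), Q u = 0 ∧ Q v = 0 ∧ QuadraticMap.polar ⇑Q u v = 0 ∧
    ((g : Matrix.GeneralLinearGroup (Fin n) F) : Matrix (Fin n) (Fin n) F)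
      = Cfsg.siegelMatrix ⇑Q u v c}

theorem exists_siegel (u v : Fin n → F) (hu : Q u = 0) (hv : Q v = 0)
    (huv : QuadraticMap.polar ⇑Q u v = 0) (c : F) :
    ∃ g : ↥(Cfsg.isometryGroup F ⇑Q), g ∈ Sg Q ∧ IsS Q g u v c := by
  obtain ⟨hS1, -, hS3⟩ := Cfsg.Agent.S0793.result Q u v hu hv huv
  obtain ⟨t, ht⟩ := of_matrix Q (Cfsg.siegelMatrix ⇑Q u v c) (Cfsg.siegelMatrix ⇑Q u v (-c))
    (by
      rw [hS3, add_neg_cancel]
      unfold Cfsg.siegelMatrix
      rw [zero_smul, add_zero]) (hS1 c)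
  refine ⟨t, ⟨u, v, c, hu, hv, huv, ht⟩, ?_⟩
  intro x
  unfold act
  rw [ht, Cfsg.Agent.Lib.Helper7.siegelMatrix_mulVec]

theorem isS_of_mem (g : ↥(Cfsg.isometryGroup F ⇑Q)) (hg : g ∈ Sg Q) :
    ∃ (u v : Fin n → F) (c : F), Q u = 0 ∧ Q v = 0 ∧ QuadraticMap.polar ⇑Q u v = 0 ∧
      IsS Q g u v c := by
  obtain ⟨u, v, c, hu, hv, huv, hm⟩ := hg
  refine ⟨u, v, c, hu, hv, huv, ?_⟩
  intro x
  unfold act
  rw [hm, Cfsg.Agent.Lib.Helper7.siegelMatrix_mulVec]

theorem act_conj (h _g : ↥(Cfsg.isometryGroup F ⇑Q)) (x : Fin n → F) :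
    act Q h (act Q h⁻¹ x) = x := by
  rw [← act_mul, mul_inv_cancel, act_one]

theorem polar_inv (h : ↥(Cfsg.isometryGroup F ⇑Q)) (u x : Fin n → F) :
    QuadraticMap.polar ⇑Q u (act Q h⁻¹ x) = QuadraticMap.polar ⇑Q (act Q h u) x := by
  rw [← act_polar Q h u (act Q h⁻¹ x), act_conj Q h h]

theorem conj_mem (h g : ↥(Cfsg.isometryGroup F ⇑Q)) (hg : g ∈ Sg Q) :
    h * g * h⁻¹ ∈ Sg Q := by
  obtain ⟨u, v, c, hu, hv, huv, hS⟩ := isS_of_mem Q g hg
  obtain ⟨g', hg', hS'⟩ := exists_siegel Q (act Q h u) (act Q h v)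
    (by rw [act_iso, hu]) (by rw [act_iso, hv]) (by rw [act_polar, huv]) c
  have e : h * g * h⁻¹ = g' := by
    apply ext_act
    intro x
    rw [act_mul, act_mul, hS (act Q h⁻¹ x), hS' x, act_sub', act_add, act_smul, act_smul,
      act_conj Q h h, polar_inv, polar_inv]
  rw [e]
  exact hg'

theorem closure_normal : (Subgroup.closure (Sg Q)).Normal := by
  constructor
  intro m hm g
  induction hm using Subgroup.closure_induction with
  | mem x hx => exact Subgroup.subset_closure (conj_mem Q g x hx)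
  | one =>
    rw [mul_one, mul_inv_cancel]
    exact Subgroup.one_mem _
  | mul x y _ _ hx hy =>
    have e : g * (x * y) * g⁻¹ = (g * x * g⁻¹) * (g * y * g⁻¹) := by group
    rw [e]
    exact Subgroup.mul_mem _ hx hy
  | inv x _ hx =>
    have e : g * x⁻¹ * g⁻¹ = (g * x * g⁻¹)⁻¹ := by group
    rw [e]
    exact Subgroup.inv_mem _ hx

theorem exists_isR (v : Fin n → F) (hv : Q v ≠ 0) :
    ∃ r : ↥(Cfsg.isometryGroup F ⇑Q), IsR Q r v := by
  obtain ⟨r, hr⟩ := exists_refl Q v hv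
  exact ⟨r, fun x => act_refl Q r v hr x⟩

theorem isR_of_mem (r : ↥(Cfsg.isometryGroup F ⇑Q)) (hr : r ∈ R Q) :
    ∃ v : Fin n → F, Q v ≠ 0 ∧ IsR Q r v := by
  obtain ⟨v, hv, hrv⟩ := hr
  exact ⟨v, hv, fun x => act_refl Q r v hrv x⟩

theorem isR_unique (r r' : ↥(Cfsg.isometryGroup F ⇑Q)) (v : Fin n → F) (hr : IsR Q r v)
    (hr' : IsR Q r' v) : r = r' := by
  apply ext_act
  intro x
  rw [hr x, hr' x]

theorem isR_sq (r : ↥(Cfsg.isometryGroup F ⇑Q)) (v : Fin n → F) (hv : Q v ≠ 0)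
    (hr : IsR Q r v) : r * r = 1 := by
  apply eq_one_of_act
  intro x
  rw [act_mul, hr x, hr _, QuadraticMap.polar_sub_right,
    QuadraticMap.polar_smul_right, polar_self', smul_eq_mul]
  have h1 : (Q v)⁻¹ * (QuadraticMap.polar ⇑Q v x
      - (Q v)⁻¹ * QuadraticMap.polar ⇑Q v x * (2 * Q v))
      = - ((Q v)⁻¹ * QuadraticMap.polar ⇑Q v x) := by
    field_simp
    ring
  rw [h1, neg_smul]
  abel

theorem isR_neg (r : ↥(Cfsg.isometryGroup F ⇑Q)) (v : Fin n → F) (hr : IsR Q r v) :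
    IsR Q r (-v) := by
  intro x
  rw [hr x, QuadraticMap.map_neg, QuadraticMap.polar_neg_left, mul_neg, neg_smul, smul_neg,
    neg_neg]

theorem isR_conj (h r : ↥(Cfsg.isometryGroup F ⇑Q)) (v : Fin n → F) (hr : IsR Q r v) :
    IsR Q (h * r * h⁻¹) (act Q h v) := by
  intro x
  rw [act_mul, act_mul, hr (act Q h⁻¹ x), act_sub', act_smul, act_conj Q h h, polar_inv,
    act_iso]

end aux

section main

variable {F : Type*} [Field F] [Fintype F] {n : ℕ} (Q : QuadraticForm F (Fin n → F))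

/-- The product of the reflections in `x` and `x - w`, for `w` singular and orthogonal to `x`,
is a product of two Siegel elements. -/
theorem key_iso' (h2 : (2 : F) ≠ 0) (hn : 5 ≤ n)
    (hQ : (QuadraticMap.polarBilin Q).Nondegenerate) (x w : Fin n → F) (κ : F) (hκ : κ ≠ 0)
    (hx : Q x = κ) (hw : Q w = 0) (hxw : QuadraticMap.polar ⇑Q x w = 0) (hw0 : w ≠ 0)
    (r r' : ↥(Cfsg.isometryGroup F ⇑Q)) (hr : IsR Q r x) (hr' : IsR Q r' (x - w)) :
    r * r' ∈ Subgroup.closure (Sg Q) := by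
  have hpc : ∀ a b : Fin n → F, QuadraticMap.polar ⇑Q a b = QuadraticMap.polar ⇑Q b a :=
    fun a b => QuadraticMap.polar_comm _ a b
  have hxne : Q x ≠ 0 := by rw [hx]; exact hκ
  obtain ⟨w₁, hw₁, hxw₁, hww₁⟩ :=
    Cfsg.Agent.Lib.Helper3.exists_hyp_partner' Q h2 hQ x w hxne hw0 hw hxw
  have hpxx : QuadraticMap.polar ⇑Q x x = 2 * κ := by rw [polar_self', hx]
  have hpww : QuadraticMap.polar ⇑Q w w = 0 := by rw [polar_self', hw, mul_zero]
  have hpwx : QuadraticMap.polar ⇑Q w x = 0 := by rw [hpc, hxw]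
  have hQy : Q (x - w) = κ := by rw [Q_sub', hx, hw, hxw]; ring
  -- the nondegenerate three-dimensional subspace
  have hT : ∀ v ∈ Submodule.span F ({x, w, w₁} : Set (Fin n → F)),
      (∀ t ∈ Submodule.span F ({x, w, w₁} : Set (Fin n → F)),
        QuadraticMap.polar (⇑Q) t v = 0) → v = 0 := by
    intro v hv hall
    obtain ⟨a, b, c, rfl⟩ := Submodule.mem_span_triple.mp hv
    have e1 := hall x (Submodule.subset_span (by simp))
    have e2 := hall w (Submodule.subset_span (by simp))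
    have e3 := hall w₁ (Submodule.subset_span (by simp))
    simp only [QuadraticMap.polar_add_right, QuadraticMap.polar_smul_right, smul_eq_mul, hpxx,
      hxw, hxw₁, hpwx, hpww, mul_zero, add_zero, zero_add] at e1 e2 e3
    have ha : a = 0 := by
      rcases mul_eq_zero.mp e1 with h | h
      · exact h
      · exact absurd h (mul_ne_zero h2 hκ)
    have hc : c = 0 := by
      rcases mul_eq_zero.mp e2 with h | h
      · exact h
      · exact absurd h hww₁
    rw [hpc w₁ x, hxw₁, hpc w₁ w, polar_self', hw₁, hc] at e3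
    have hb : b = 0 := by
      have e4 : b * QuadraticMap.polar ⇑Q w w₁ = 0 := by linear_combination e3
      rcases mul_eq_zero.mp e4 with h | h
      · exact h
      · exact absurd h hww₁
    rw [ha, hb, hc]
    simp
  have hdim : Module.finrank F ↥(Submodule.span F ({x, w, w₁} : Set (Fin n → F))) + 2
      ≤ Fintype.card (Fin n) := by
    classical
    have h := finrank_span_finset_le_card (R := F) ({x, w, w₁} : Finset (Fin n → F))
    have h3 : ({x, w, w₁} : Finset (Fin n → F)).card ≤ 3 := Finset.card_le_three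
    have e : ((({x, w, w₁} : Finset (Fin n → F)) : Set (Fin n → F))) = {x, w, w₁} := by
      push_cast
      rfl
    rw [e] at h
    have h' : Module.finrank F ↥(Submodule.span F ({x, w, w₁} : Set (Fin n → F))) ≤ 3 :=
      h.trans h3
    rw [Fintype.card_fin]
    omega
  obtain ⟨z, hz, hzT⟩ := Cfsg.Agent.Lib.Helper3.exists_perp_rep Q h2 hQ _ hT hdim (-κ / 4)
  have hxz : QuadraticMap.polar ⇑Q x z = 0 := hzT x (Submodule.subset_span (by simp))
  have hwz : QuadraticMap.polar ⇑Q w z = 0 := hzT w (Submodule.subset_span (by simp))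
  have hzx : QuadraticMap.polar ⇑Q z x = 0 := by rw [hpc, hxz]
  have hzw : QuadraticMap.polar ⇑Q z w = 0 := by rw [hpc, hwz]
  have hpzz : QuadraticMap.polar ⇑Q z z = 2 * (-κ / 4) := by rw [polar_self', hz]
  have h4 : (4 : F) ≠ 0 := by
    have : (4 : F) = 2 * 2 := by norm_num
    rw [this]
    exact mul_ne_zero h2 h2
  have hs₁ : Q ((2⁻¹ : F) • x + z) = 0 := by
    rw [QuadraticMap.map_add (⇑Q), QuadraticMap.map_smul, QuadraticMap.polar_smul_left, hxz, hx,
      hz]
    simp only [smul_eq_mul]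
    field_simp
    ring
  have hs₂ : Q ((2⁻¹ : F) • x - z) = 0 := by
    rw [Q_sub', QuadraticMap.map_smul, QuadraticMap.polar_smul_left, hxz, hx, hz]
    simp only [smul_eq_mul]
    field_simp
    ring
  have hs₁w : QuadraticMap.polar ⇑Q ((2⁻¹ : F) • x + z) w = 0 := by
    rw [QuadraticMap.polar_add_left, QuadraticMap.polar_smul_left, hxw, hzw]
    simp
  have hs₂w : QuadraticMap.polar ⇑Q ((2⁻¹ : F) • x - z) w = 0 := by
    rw [QuadraticMap.polar_sub_left, QuadraticMap.polar_smul_left, hxw, hzw]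
    simp
  obtain ⟨g₁, hg₁, hS₁⟩ := exists_siegel Q _ w hs₁ hw hs₁w κ⁻¹
  obtain ⟨g₂, hg₂, hS₂⟩ := exists_siegel Q _ w hs₂ hw hs₂w κ⁻¹
  have L : ∀ v, act Q (r * r') v = v + (κ⁻¹ * (QuadraticMap.polar ⇑Q x v
      - QuadraticMap.polar ⇑Q w v)) • w - (κ⁻¹ * QuadraticMap.polar ⇑Q w v) • x := by
    intro v
    rw [act_mul, hr' v, hr _, hQy, hx]
    simp only [QuadraticMap.polar_sub_right, QuadraticMap.polar_sub_left,
      QuadraticMap.polar_smul_right, smul_eq_mul, hpxx, hxw]
    match_scalars <;> field_simp <;> ring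
  have Rr : ∀ v, act Q (g₁ * g₂) v = v + (κ⁻¹ * (QuadraticMap.polar ⇑Q x v
      - QuadraticMap.polar ⇑Q w v)) • w - (κ⁻¹ * QuadraticMap.polar ⇑Q w v) • x := by
    intro v
    rw [act_mul, hS₂ v, hS₁ _]
    simp only [QuadraticMap.polar_sub_right, QuadraticMap.polar_sub_left,
      QuadraticMap.polar_add_right, QuadraticMap.polar_add_left,
      QuadraticMap.polar_smul_right, QuadraticMap.polar_smul_left, smul_eq_mul, hpxx, hxw,
      hpwx, hpww, hxz, hzx, hzw, hwz, hpzz]
    match_scalars <;> field_simp <;> ring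
  have e : r * r' = g₁ * g₂ := by
    apply ext_act
    intro v
    rw [L v, Rr v]
  rw [e]
  exact Subgroup.mul_mem _ (Subgroup.subset_closure hg₁) (Subgroup.subset_closure hg₂)

theorem key_iso (h2 : (2 : F) ≠ 0) (hn : 5 ≤ n)
    (hQ : (QuadraticMap.polarBilin Q).Nondegenerate) (x y : Fin n → F) (κ : F) (hκ : κ ≠ 0)
    (hx : Q x = κ) (hy : Q y = κ) (hxy : Q (x - y) = 0)
    (r r' : ↥(Cfsg.isometryGroup F ⇑Q)) (hr : IsR Q r x) (hr' : IsR Q r' y) :
    r * r' ∈ Subgroup.closure (Sg Q) := by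
  by_cases hw0 : x - y = 0
  · have hxy' : x = y := sub_eq_zero.mp hw0
    subst hxy'
    rw [isR_unique Q r' r x hr' hr, isR_sq Q r x (by rw [hx]; exact hκ) hr]
    exact Subgroup.one_mem _
  · have hpxy : QuadraticMap.polar ⇑Q x y = 2 * κ := by
      have e := Q_sub' Q x y
      rw [hxy, hx, hy] at e
      linear_combination e
    have hxw : QuadraticMap.polar ⇑Q x (x - y) = 0 := by
      rw [QuadraticMap.polar_sub_right, polar_self', hx, hpxy, sub_self]
    have hr'' : IsR Q r' (x - (x - y)) := by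
      rw [sub_sub_cancel]
      exact hr'
    exact key_iso' Q h2 hn hQ x (x - y) κ hκ hx hxy hxw hw0 r r' hr hr''

theorem key (h2 : (2 : F) ≠ 0) (hn : 5 ≤ n)
    (hQ : (QuadraticMap.polarBilin Q).Nondegenerate) (x y : Fin n → F) (κ : F) (hκ : κ ≠ 0)
    (hx : Q x = κ) (hy : Q y = κ)
    (r r' : ↥(Cfsg.isometryGroup F ⇑Q)) (hr : IsR Q r x) (hr' : IsR Q r' y) :
    r * r' ∈ Subgroup.closure (Sg Q) := by
  have hpc : ∀ a b : Fin n → F, QuadraticMap.polar ⇑Q a b = QuadraticMap.polar ⇑Q b a :=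
    fun a b => QuadraticMap.polar_comm _ a b
  have hpxx : QuadraticMap.polar ⇑Q x x = 2 * κ := by rw [polar_self', hx]
  have hpyy : QuadraticMap.polar ⇑Q y y = 2 * κ := by rw [polar_self', hy]
  by_cases h1 : QuadraticMap.polar ⇑Q x y = 2 * κ
  · exact key_iso Q h2 hn hQ x y κ hκ hx hy (by rw [Q_sub', hx, hy, h1]; ring) r r' hr hr'
  by_cases h1' : QuadraticMap.polar ⇑Q x y = -(2 * κ)
  · exact key_iso Q h2 hn hQ x (-y) κ hκ hx (by rw [QuadraticMap.map_neg, hy])
      (by rw [Q_sub', QuadraticMap.map_neg, hx, hy, QuadraticMap.polar_neg_right, h1']; ring)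
      r r' hr (isR_neg Q r' y hr')
  set β := QuadraticMap.polar ⇑Q x y with hβ
  have hd1 : 2 * κ - β ≠ 0 := fun h => h1 (by linear_combination -h)
  have hd2 : 2 * κ + β ≠ 0 := fun h => h1' (by linear_combination h)
  have hpyx : QuadraticMap.polar ⇑Q y x = β := by rw [hpc]
  have hT : ∀ v ∈ Submodule.span F ({x, y} : Set (Fin n → F)),
      (∀ t ∈ Submodule.span F ({x, y} : Set (Fin n → F)),
        QuadraticMap.polar (⇑Q) t v = 0) → v = 0 := by
    intro v hv hall
    obtain ⟨a, b, rfl⟩ := Submodule.mem_span_pair.mp hv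
    have e1 := hall x (Submodule.subset_span (by simp))
    have e2 := hall y (Submodule.subset_span (by simp))
    simp only [QuadraticMap.polar_add_right, QuadraticMap.polar_smul_right, smul_eq_mul, hpxx,
      hpyy, hpyx, ← hβ] at e1 e2
    have ha : a = 0 := by
      have e3 : (2 * κ - β) * (2 * κ + β) * a = 0 := by linear_combination 2 * κ * e1 - β * e2
      rcases mul_eq_zero.mp e3 with h | h
      · exact absurd h (mul_ne_zero hd1 hd2)
      · exact h
    have hb : b = 0 := by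
      have e3 : (2 * κ - β) * (2 * κ + β) * b = 0 := by linear_combination 2 * κ * e2 - β * e1
      rcases mul_eq_zero.mp e3 with h | h
      · exact absurd h (mul_ne_zero hd1 hd2)
      · exact h
    rw [ha, hb]
    simp
  have hdim : Module.finrank F ↥(Submodule.span F ({x, y} : Set (Fin n → F))) + 2
      ≤ Fintype.card (Fin n) := by
    classical
    have h := finrank_span_finset_le_card (R := F) ({x, y} : Finset (Fin n → F))
    have h3 : ({x, y} : Finset (Fin n → F)).card ≤ 2 := Finset.card_le_two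
    have e : ((({x, y} : Finset (Fin n → F)) : Set (Fin n → F))) = {x, y} := by
      push_cast
      rfl
    rw [e] at h
    have h' : Module.finrank F ↥(Submodule.span F ({x, y} : Set (Fin n → F))) ≤ 2 :=
      h.trans h3
    rw [Fintype.card_fin]
    omega
  obtain ⟨t, ht, htT⟩ := Cfsg.Agent.Lib.Helper3.exists_perp_rep Q h2 hQ _ hT hdim
    (κ * (β - 2 * κ) / (β + 2 * κ))
  have hxt : QuadraticMap.polar ⇑Q x t = 0 := htT x (Submodule.subset_span (by simp))
  have hyt : QuadraticMap.polar ⇑Q y t = 0 := htT y (Submodule.subset_span (by simp))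
  have hd2' : β + 2 * κ ≠ 0 := by rw [add_comm]; exact hd2
  have hQxy : Q (x + y) = 2 * κ + β := by
    rw [QuadraticMap.map_add (⇑Q), hx, hy, ← hβ]; ring
  obtain ⟨z, hzdef⟩ : ∃ z : Fin n → F, z = (2 * κ / (2 * κ + β)) • (x + y) + t := ⟨_, rfl⟩
  have hz : Q z = κ := by
    rw [hzdef, QuadraticMap.map_add (⇑Q), QuadraticMap.map_smul, QuadraticMap.polar_smul_left,
      QuadraticMap.polar_add_left, hxt, hyt, hQxy, ht]
    simp only [smul_eq_mul]
    field_simp
    ring
  have hpxz : QuadraticMap.polar ⇑Q x z = 2 * κ := by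
    rw [hzdef, QuadraticMap.polar_add_right, QuadraticMap.polar_smul_right,
      QuadraticMap.polar_add_right, hpxx, ← hβ, hxt]
    simp only [smul_eq_mul]
    field_simp
    ring
  have hpzy : QuadraticMap.polar ⇑Q z y = 2 * κ := by
    rw [hpc, hzdef, QuadraticMap.polar_add_right, QuadraticMap.polar_smul_right,
      QuadraticMap.polar_add_right, hpyy, hpyx, hyt]
    simp only [smul_eq_mul]
    field_simp
    ring
  obtain ⟨rz, hrz⟩ := exists_isR Q z (by rw [hz]; exact hκ)
  have hsq := isR_sq Q rz z (by rw [hz]; exact hκ) hrz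
  have e : r * r' = (r * rz) * (rz * r') := by
    calc r * r' = r * (rz * rz) * r' := by rw [hsq, mul_one]
      _ = (r * rz) * (rz * r') := by group
  rw [e]
  exact Subgroup.mul_mem _
    (key_iso Q h2 hn hQ x z κ hκ hx hz (by rw [Q_sub', hx, hz, hpxz]; ring) r rz hr hrz)
    (key_iso Q h2 hn hQ z y κ hκ hz hy (by rw [Q_sub', hz, hy, hpzy]; ring) rz r' hrz hr')

end main

/-- Generation of Ω by root elements: for q odd, n ≥ 5 and Q with non-degenerate polar form on F^n, the commutator subgroup of the isometry group equals the subgroup generated by the isometries whose matrices are Siegel transformations T_(u,v)(c) with u, v singular and orthogonal. -/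
theorem result {F : Type*} [Field F] [Fintype F] (h2 : (2 : F) ≠ 0) {n : ℕ} (hn : 5 ≤ n) (Q : QuadraticForm F (Fin n → F)) (hQ : (QuadraticMap.polarBilin Q).Nondegenerate) : Cfsg.Omega F ⇑Q = Subgroup.closure {g : ↥(Cfsg.isometryGroup F ⇑Q) | ∃ (u v : Fin n → F) (c : F), Q u = 0 ∧ Q v = 0 ∧ QuadraticMap.polar ⇑Q u v = 0 ∧ ((g : Matrix.GeneralLinearGroup (Fin n) F) : Matrix (Fin n) (Fin n) F) = Cfsg.siegelMatrix ⇑Q u v c} := by
  have hnormal := closure_normal Q
  apply le_antisymm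
  · -- Ω ≤ T
    have hRR : ∀ r₁ ∈ R Q, ∀ r₂ ∈ R Q, ⁅r₁, r₂⁆ ∈ Subgroup.closure (Sg Q) := by
      intro r₁ hr₁ r₂ hr₂
      obtain ⟨v₁, hv₁, hR₁⟩ := isR_of_mem Q r₁ hr₁
      obtain ⟨v₂, hv₂, hR₂⟩ := isR_of_mem Q r₂ hr₂
      have hi₂ : r₂⁻¹ = r₂ := inv_eq_of_mul_eq_one_left (refl_sq Q r₂ hr₂)
      have e : ⁅r₁, r₂⁆ = (r₁ * r₂ * r₁⁻¹) * r₂ := by
        rw [commutatorElement_def, hi₂]
      rw [e]
      exact key Q h2 hn hQ (act Q r₁ v₂) v₂ (Q v₂) hv₂ (act_iso Q r₁ v₂) rfl _ _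
        (isR_conj Q r₁ r₂ v₂ hR₂) hR₂
    have hgen := cd Q h2 hQ
    have step1 : ∀ r ∈ R Q, ∀ b : ↥(Cfsg.isometryGroup F ⇑Q),
        ⁅r, b⁆ ∈ Subgroup.closure (Sg Q) := by
      intro r hr b
      have hb := hgen b
      induction hb using Subgroup.closure_induction with
      | mem x hx => exact hRR r hr x hx
      | one =>
        rw [commutatorElement_one_right]
        exact Subgroup.one_mem _
      | mul x y _ _ hx hy =>
        have e : ⁅r, x * y⁆ = ⁅r, x⁆ * (x * ⁅r, y⁆ * x⁻¹) := by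
          simp only [commutatorElement_def]
          group
        rw [e]
        exact Subgroup.mul_mem _ hx (hnormal.conj_mem _ hy x)
      | inv x _ hx =>
        have e : ⁅r, x⁻¹⁆ = x⁻¹ * ⁅r, x⁆⁻¹ * x⁻¹⁻¹ := by
          simp only [commutatorElement_def]
          group
        rw [e]
        exact hnormal.conj_mem _ (Subgroup.inv_mem _ hx) x⁻¹
    have hcomm : ∀ a b : ↥(Cfsg.isometryGroup F ⇑Q), ⁅a, b⁆ ∈ Subgroup.closure (Sg Q) := by
      intro a b
      have ha := hgen a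
      induction ha using Subgroup.closure_induction with
      | mem x hx => exact step1 x hx b
      | one =>
        rw [commutatorElement_one_left]
        exact Subgroup.one_mem _
      | mul x y _ _ hx hy =>
        have e : ⁅x * y, b⁆ = (x * ⁅y, b⁆ * x⁻¹) * ⁅x, b⁆ := by
          simp only [commutatorElement_def]
          group
        rw [e]
        exact Subgroup.mul_mem _ (hnormal.conj_mem _ hy x) hx
      | inv x _ hx =>
        have e : ⁅x⁻¹, b⁆ = x⁻¹ * ⁅x, b⁆⁻¹ * x⁻¹⁻¹ := by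
          simp only [commutatorElement_def]
          group
        rw [e]
        exact hnormal.conj_mem _ (Subgroup.inv_mem _ hx) x⁻¹
    show commutator ↥(Cfsg.isometryGroup F ⇑Q) ≤ _
    rw [commutator_def]
    exact Subgroup.commutator_le.mpr (fun a _ b _ => hcomm a b)
  · -- T ≤ Ω
    apply (Subgroup.closure_le _).mpr
    rintro g ⟨u, v, c, hu, hv, huv, hg⟩
    exact (Cfsg.Agent.S0794.result h2 hn Q hQ u v hu hv huv c g hg).2

end Cfsg.Agent.S0795
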