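import Mathlib
import Cfsg.Statements.S0796

set_option autoImplicit false
open Cfsg

namespace Cfsg.Agent.S0796

/-- If G is finite and acts faithfully and primitively on X, H is the stabiliser of a point, A is a normal subgroup of H whose normal closure in G is G, then for every non-trivial normal subgroup K of G the quotient G ⧸ K is isomorphic to A ⧸ B for some normal subgroup B of A. -/
theorem result {G X : Type*} [Group G] [Finite G] [MulAction G X] [FaithfulSMul G X] (hprim : MulAction.IsPreprimitive G X) (x : X) (A : Subgroup G) (hA : A ≤ MulAction.stabilizer G x) (hAn : (A.subgroupOf (MulAction.stabilizer G x)).Normal) (hgen : Subgroup.normalClosure (A : Set G) = ⊤) (K : Subgroup G) [K.Normal] (hK : K ≠ ⊥) : ∃ (B : Subgroup A) (_ : B.Normal), Nonempty (G ⧸ K ≃* A ⧸ B) := by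
  classical
  -- K acts nontrivially
  have hfix : MulAction.fixedPoints K X ≠ Set.univ := by
    intro hcon
    apply hK
    rw [Subgroup.eq_bot_iff_forall]
    intro k hk
    apply FaithfulSMul.eq_of_smul_eq_smul (α := X)
    intro y
    have hy : y ∈ MulAction.fixedPoints K X := by rw [hcon]; exact Set.mem_univ y
    have := hy ⟨k, hk⟩
    rw [one_smul]
    exact this
  have htr : MulAction.IsPretransitive K X :=
    MulAction.IsQuasiPreprimitive.isPretransitive_of_normal hfix
  -- every element is k * h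
  have hdecomp : ∀ g : G, ∃ k ∈ K, ∃ h ∈ MulAction.stabilizer G x, g = k * h := by
    intro g
    obtain ⟨k, hk⟩ := htr.exists_smul_eq x (g • x)
    refine ⟨(k : G), k.2, (k : G)⁻¹ * g, ?_, by group⟩
    rw [MulAction.mem_stabilizer_iff, mul_smul]
    have hk' : (k : G) • x = g • x := hk
    rw [← hk', inv_smul_smul]
  -- conjugates of A lie in A ⊔ K
  have hconj : ∀ a ∈ A, ∀ g : G, g * a * g⁻¹ ∈ A ⊔ K := by
    intro a ha g
    obtain ⟨k, hk, h, hh, rfl⟩ := hdecomp g
    have ha' : h * a * h⁻¹ ∈ A := by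
      have := hAn.conj_mem ⟨a, hA ha⟩ (by simpa [Subgroup.mem_subgroupOf] using ha) ⟨h, hh⟩
      simpa [Subgroup.mem_subgroupOf] using this
    have e : k * h * a * (k * h)⁻¹ = (k * ((h * a * h⁻¹) * k⁻¹ * (h * a * h⁻¹)⁻¹)) * (h * a * h⁻¹) := by
      group
    rw [e]
    apply Subgroup.mul_mem
    · apply Subgroup.mem_sup_right
      apply K.mul_mem hk
      exact Subgroup.Normal.conj_mem inferInstance _ (K.inv_mem hk) _
    · exact Subgroup.mem_sup_left ha'
  have htop : A ⊔ K = ⊤ := by
    rw [eq_top_iff, ← hgen]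
    rw [Subgroup.normalClosure]
    rw [Subgroup.closure_le]
    intro y hy
    rw [Group.mem_conjugatesOfSet_iff] at hy
    obtain ⟨a, ha, hay⟩ := hy
    rw [isConj_iff] at hay
    obtain ⟨c, rfl⟩ := hay
    exact hconj a ha c
  have e1 : A ⧸ K.subgroupOf A ≃* (A ⊔ K : Subgroup G) ⧸ K.subgroupOf (A ⊔ K) :=
    QuotientGroup.quotientInfEquivProdNormalQuotient A K
  obtain ⟨e2, he2⟩ : ∃ e2 : (A ⊔ K : Subgroup G) ≃* G, ∀ y, e2 y = (y : G) :=
    ⟨(MulEquiv.subgroupCongr htop).trans Subgroup.topEquiv, fun y => rfl⟩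
  have e3 : (A ⊔ K : Subgroup G) ⧸ K.subgroupOf (A ⊔ K) ≃* G ⧸ K := by
    refine QuotientGroup.congr (K.subgroupOf (A ⊔ K)) K e2 ?_
    ext g
    simp only [Subgroup.mem_map, Subgroup.mem_subgroupOf]
    constructor
    · rintro ⟨y, hy, rfl⟩
      change e2 y ∈ K
      rw [he2]
      exact hy
    · intro hg
      exact ⟨⟨g, by rw [htop]; exact Subgroup.mem_top g⟩, hg, he2 _⟩
  exact ⟨K.subgroupOf A, inferInstance, ⟨(e1.trans e3).symm⟩⟩

end Cfsg.Agent.S0796
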