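import Mathlib
import Cfsg.Statements.S0800

set_option autoImplicit false
open Cfsg
open Polynomial

namespace Cfsg.Agent.S0800

/-- The polynomial `X ^ 2 - t X + 1`. -/
noncomputable def chi {F : Type*} [Field F] (t : F) : F[X] := X ^ 2 - C t * X + 1

theorem chi_eq {F : Type*} [Field F] (t : F) : chi t = X ^ 2 + (C (-t) * X + C 1) := by
  unfold chi
  simp only [map_neg, map_one]
  ring

theorem chi_monic {F : Type*} [Field F] (t : F) : (chi t).Monic := by
  rw [chi_eq]
  apply monic_X_pow_add
  exact lt_of_le_of_lt degree_linear_le (by norm_num)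

theorem chi_natDegree {F : Type*} [Field F] (t : F) : (chi t).natDegree = 2 := by
  rw [chi_eq, natDegree_add_eq_left_of_degree_lt, natDegree_X_pow]
  rw [degree_X_pow]
  exact lt_of_le_of_lt degree_linear_le (by norm_num)

theorem pow_eq_one_of_dvd {F : Type*} [Field F] (M : Matrix (Fin 2) (Fin 2) F) (hdet : M.det = 1)
    (k : ℕ) (h : chi M.trace ∣ X ^ k - 1) : M ^ k = 1 := by
  have hch : aeval M (chi M.trace) = 0 := by
    have := Matrix.aeval_self_charpoly M
    rwa [Matrix.charpoly_fin_two, hdet, map_one] at this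
  obtain ⟨h', hh'⟩ := h
  have := congrArg (aeval M) hh'
  simp only [map_sub, map_pow, aeval_X, map_one, map_mul, hch, zero_mul] at this
  exact sub_eq_zero.mp this

theorem irreducible_case {F : Type*} [Field F] [Fintype F] (p : ℕ) [Fact p.Prime] [CharP F p] (t : F)
    (hirr : Irreducible (chi t)) :
    chi t ∣ X ^ (Fintype.card F - 1) - 1 ∨ chi t ∣ X ^ (Fintype.card F + 1) - 1 := by
  have : Fact (Irreducible (chi t)) := ⟨hirr⟩
  set r : AdjoinRoot (chi t) := AdjoinRoot.root (chi t) with hr
  set τ : AdjoinRoot (chi t) := AdjoinRoot.of (chi t) t with hτ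
  have hroot : r ^ 2 - τ * r + 1 = 0 := by
    have h : AdjoinRoot.mk (chi t) (X ^ 2 - C t * X + 1) = 0 := AdjoinRoot.mk_self (f := chi t)
    simpa only [map_sub, map_add, map_mul, map_pow, map_one, AdjoinRoot.mk_X, AdjoinRoot.mk_C] using h
  obtain ⟨n, hp, hcard⟩ := FiniteField.card F p
  have : CharP (AdjoinRoot (chi t)) p :=
    charP_of_injective_algebraMap (algebraMap F (AdjoinRoot (chi t))).injective p
  set q := Fintype.card F with hq
  have hq1 : 1 ≤ q := Fintype.card_pos
  have hτq : τ ^ q = τ := by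
    rw [hτ, ← map_pow, hq, FiniteField.pow_card]
  have h2 : (r ^ q) ^ 2 - τ * r ^ q + 1 = 0 := by
    have h : (r ^ 2 - τ * r + 1) ^ q = (0 : AdjoinRoot (chi t)) ^ q := by rw [hroot]
    rw [hcard] at h
    rw [add_pow_char_pow, sub_pow_char_pow, one_pow, mul_pow, zero_pow (pow_ne_zero _ hp.ne_zero)] at h
    rw [← hcard] at h
    rw [hτq, ← pow_mul, mul_comm 2 q, pow_mul] at h
    exact h
  have h3 : (r ^ q - r) * (r ^ q - (τ - r)) = 0 := by linear_combination h2 - hroot
  have hr0 : r ≠ 0 := by
    intro h0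
    rw [h0] at hroot
    simp at hroot
  rcases mul_eq_zero.mp h3 with h | h
  · left
    rw [← AdjoinRoot.mk_eq_zero]
    simp only [map_sub, map_pow, map_one, AdjoinRoot.mk_X]
    have h4 : r ^ (q - 1) * r = r := by
      rw [← pow_succ, Nat.sub_add_cancel hq1]; exact sub_eq_zero.mp h
    have h5 : (r ^ (q - 1) - 1) * r = 0 := by linear_combination h4
    rcases mul_eq_zero.mp h5 with h6 | h6
    · exact h6
    · exact absurd h6 hr0
  · right
    rw [← AdjoinRoot.mk_eq_zero]
    simp only [map_sub, map_pow, map_one, AdjoinRoot.mk_X]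
    rw [pow_succ]
    linear_combination r * h - hroot

theorem exists_root_of_not_irreducible {F : Type*} [Field F] (t : F) (hred : ¬ Irreducible (chi t)) :
    ∃ a : F, a ^ 2 - t * a + 1 = 0 := by
  by_contra h
  push Not at h
  apply hred
  rw [(chi_monic t).irreducible_iff_roots_eq_zero_of_degree_le_three
    (by rw [chi_natDegree]) (by rw [chi_natDegree]; norm_num)]
  rw [Multiset.eq_zero_iff_forall_notMem]
  intro a ha
  rw [mem_roots (chi_monic t).ne_zero] at ha
  apply h a
  have : eval a (chi t) = 0 := ha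
  simpa [chi] using this

theorem split_case {F : Type*} [Field F] [Fintype F] (t a : F) (ha : a ^ 2 - t * a + 1 = 0)
    (ha1 : a ^ 2 ≠ 1) : chi t ∣ X ^ (Fintype.card F - 1) - 1 := by
  have ha0 : a ≠ 0 := by
    rintro rfl
    simp at ha
  have hfac : chi t = (X - C a) * (X - C a⁻¹) := by
    have ht : t = a + a⁻¹ := by
      field_simp
      linear_combination -ha
    rw [chi, ht]
    simp only [map_add]
    have : (C a : F[X]) * C a⁻¹ = 1 := by
      rw [← C_mul, mul_inv_cancel₀ ha0, C_1]
    linear_combination -this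
  rw [hfac]
  apply IsCoprime.mul_dvd
  · apply isCoprime_X_sub_C_of_isUnit_sub
    rw [isUnit_iff_ne_zero]
    intro h
    apply ha1
    field_simp at h
    linear_combination h
  · rw [dvd_iff_isRoot]
    simp [IsRoot, FiniteField.pow_card_sub_one_eq_one a ha0]
  · rw [dvd_iff_isRoot]
    simp [IsRoot, FiniteField.pow_card_sub_one_eq_one a⁻¹ (inv_ne_zero ha0)]

theorem unipotent_case {F : Type*} [Field F] (p : ℕ) [Fact p.Prime] [CharP F p]
    (M : Matrix (Fin 2) (Fin 2) F) (hdet : M.det = 1) (a : F)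
    (ha : a ^ 2 - M.trace * a + 1 = 0) (ha1 : a ^ 2 = 1) : M ^ (2 * p) = 1 := by
  have hch : aeval M (chi M.trace) = 0 := by
    have := Matrix.aeval_self_charpoly M
    rwa [Matrix.charpoly_fin_two, hdet, map_one] at this
  have ha0 : a ≠ 0 := by
    rintro rfl
    simp at ha
  have ht : M.trace = 2 * a := by
    have h1 : M.trace * a = 2 := by linear_combination -ha + ha1
    have h2 : M.trace * a * a = M.trace := by rw [mul_assoc, ← sq, ha1, mul_one]
    rw [← h2, h1]
  have hsq : (M - a • (1 : Matrix (Fin 2) (Fin 2) F)) ^ 2 = 0 := by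
    have h1 : M ^ 2 - M.trace • M + 1 = 0 := by
      simpa [chi, Algebra.smul_def] using hch
    have h3 : (M - a • (1 : Matrix (Fin 2) (Fin 2) F)) ^ 2 =
        M ^ 2 - (2 * a) • M + (a ^ 2) • (1 : Matrix (Fin 2) (Fin 2) F) := by
      rw [sq, sub_mul, mul_sub, mul_sub]
      simp only [smul_mul_assoc, mul_smul_comm, one_mul, mul_one, smul_smul]
      rw [sq M, two_mul, add_smul, sq a]
      abel
    rw [h3, ← ht, ha1, one_smul]
    exact h1
  have : CharP (Matrix (Fin 2) (Fin 2) F) p := inferInstance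
  have hp2 : 2 ≤ p := (Fact.out : p.Prime).two_le
  have hpow : (M - a • (1 : Matrix (Fin 2) (Fin 2) F)) ^ p = 0 := by
    obtain ⟨k, rfl⟩ : ∃ k, p = 2 + k := ⟨p - 2, by omega⟩
    rw [pow_add, hsq, zero_mul]
  have hcomm : Commute M (a • (1 : Matrix (Fin 2) (Fin 2) F)) := by
    rw [Commute, SemiconjBy]
    simp
  have hMp : M ^ p = (a • (1 : Matrix (Fin 2) (Fin 2) F)) ^ p := by
    have := sub_pow_char_of_commute p hcomm
    rw [hpow] at this
    exact (sub_eq_zero.mp this.symm)
  rw [mul_comm, pow_mul, hMp, ← pow_mul, _root_.smul_pow, one_pow, mul_comm, pow_mul, ha1, one_pow, one_smul]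

/-- Tori of SL_2(q): if g ∈ SL_2(q) has order coprime to the characteristic p, then the order of g divides q − 1 or q + 1. -/
theorem result {F : Type*} [Field F] [Fintype F] {q : ℕ} (hF : Fintype.card F = q) (p : ℕ) [Fact p.Prime] [CharP F p] (g : Matrix.SpecialLinearGroup (Fin 2) F) (hg : Nat.Coprime (orderOf g) p) : orderOf g ∣ q - 1 ∨ orderOf g ∣ q + 1 := by
  subst hF
  set M : Matrix (Fin 2) (Fin 2) F := g.1 with hM
  have hdet : M.det = 1 := g.2
  have hpow : ∀ k : ℕ, M ^ k = 1 → orderOf g ∣ k := by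
    intro k hk
    apply orderOf_dvd_of_pow_eq_one
    apply Subtype.ext
    rw [Matrix.SpecialLinearGroup.coe_pow]
    exact hk
  by_cases hirr : Irreducible (chi M.trace)
  · rcases irreducible_case p M.trace hirr with h | h
    · left; exact hpow _ (pow_eq_one_of_dvd M hdet _ h)
    · right; exact hpow _ (pow_eq_one_of_dvd M hdet _ h)
  · obtain ⟨a, ha⟩ := exists_root_of_not_irreducible M.trace hirr
    by_cases ha1 : a ^ 2 = 1
    · have h2p := hpow _ (unipotent_case p M hdet a ha ha1)
      have h2 : orderOf g ∣ 2 := Nat.Coprime.dvd_of_dvd_mul_right hg h2p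
      have hpp : p.Prime := Fact.out
      rcases hpp.eq_two_or_odd with hp2 | hpodd
      · left
        rw [hp2] at hg
        have : orderOf g = 1 := Nat.Coprime.eq_one_of_dvd hg h2
        rw [this]; exact one_dvd _
      · left
        obtain ⟨n, _, hcard⟩ := FiniteField.card F p
        have hodd : Fintype.card F % 2 = 1 := by
          rw [hcard, Nat.pow_mod, hpodd]; simp
        have : 2 ∣ Fintype.card F - 1 := by omega
        exact dvd_trans h2 this
    · left
      exact hpow _ (pow_eq_one_of_dvd M hdet _ (split_case M.trace a ha ha1))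

end Cfsg.Agent.S0800
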