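import Mathlib
import Cfsg.Statements.S0809
import Cfsg.Agent.Lib.Helper16.PSL2Class

set_option autoImplicit false
open Cfsg

namespace Cfsg.Agent.S0809

open Cfsg.Agent.Lib.Helper15 Cfsg.Agent.Lib.Helper16

section aux

variable {F : Type*} [Field F]

theorem inv_cases (h2 : (2 : F) ≠ 0) (g : Matrix.SpecialLinearGroup (Fin 2) F) (h : g * g = 1) :
    g = 1 ∨ g = -1 := by
  apply sl2_scalar_cases
  have hd := sl2_det_eq g
  have e00 := sl2_mul_entry g g 0 0
  have e01 := sl2_mul_entry g g 0 1
  have e10 := sl2_mul_entry g g 1 0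
  have e11 := sl2_mul_entry g g 1 1
  rw [h] at e00 e01 e10 e11
  simp only [Matrix.SpecialLinearGroup.coe_one, Matrix.one_apply_eq, ne_eq, zero_ne_one,
    not_false_eq_true, Matrix.one_apply_ne, one_ne_zero] at e00 e01 e10 e11
  set a := (g : Matrix (Fin 2) (Fin 2) F) 0 0
  set b := (g : Matrix (Fin 2) (Fin 2) F) 0 1
  set c := (g : Matrix (Fin 2) (Fin 2) F) 1 0
  set d := (g : Matrix (Fin 2) (Fin 2) F) 1 1
  have h1 : a * (a + d) = 2 := by linear_combination -e00 + hd
  have hs : a + d ≠ 0 := by
    intro h0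
    rw [h0, mul_zero] at h1
    exact h2 h1.symm
  have hb : b = 0 := by
    have : b * (a + d) = 0 := by linear_combination -e01
    exact (mul_eq_zero.mp this).resolve_right hs
  have hc : c = 0 := by
    have : c * (a + d) = 0 := by linear_combination -e10
    exact (mul_eq_zero.mp this).resolve_right hs
  refine ⟨hb, hc, ?_⟩
  have h3 : (a - d) * (a + d) = 0 := by linear_combination -e00 + e11
  have := (mul_eq_zero.mp h3).resolve_right hs
  linear_combination this

theorem tr0 (g : Matrix.SpecialLinearGroup (Fin 2) F) (h : g * g = -1) :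
    (g : Matrix (Fin 2) (Fin 2) F).trace = 0 := by
  have hd := sl2_det_eq g
  have e00 := sl2_mul_entry g g 0 0
  have e01 := sl2_mul_entry g g 0 1
  have e10 := sl2_mul_entry g g 1 0
  have e11 := sl2_mul_entry g g 1 1
  rw [h] at e00 e01 e10 e11
  simp only [Matrix.SpecialLinearGroup.coe_neg, Matrix.SpecialLinearGroup.coe_one,
    Matrix.neg_apply, Matrix.one_apply_eq, ne_eq, zero_ne_one,
    not_false_eq_true, Matrix.one_apply_ne, one_ne_zero, neg_zero] at e00 e01 e10 e11
  rw [Matrix.trace_fin_two]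
  set a := (g : Matrix (Fin 2) (Fin 2) F) 0 0
  set b := (g : Matrix (Fin 2) (Fin 2) F) 0 1
  set c := (g : Matrix (Fin 2) (Fin 2) F) 1 0
  set d := (g : Matrix (Fin 2) (Fin 2) F) 1 1
  by_contra hs
  have ha : a = 0 := by
    have : a * (a + d) = 0 := by linear_combination -e00 + hd
    exact (mul_eq_zero.mp this).resolve_right hs
  have hb : b = 0 := by
    have : b * (a + d) = 0 := by linear_combination -e01
    exact (mul_eq_zero.mp this).resolve_right hs
  rw [ha, hb] at hd
  simp at hd

theorem nonscalar (h2 : (2 : F) ≠ 0) (g : Matrix.SpecialLinearGroup (Fin 2) F)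
    (h : g * g = -1) : ¬ IsScalar2 (g : Matrix (Fin 2) (Fin 2) F) := by
  intro hs
  have h1 : g * g = 1 := by
    rcases sl2_scalar_cases g hs with rfl | rfl
    · exact mul_one 1
    · simp
  rw [h1] at h
  exact sl2_neg_one_ne_one h2 h.symm

theorem conj_of_sq [Fintype F] (h2 : (2 : F) ≠ 0) (g h : Matrix.SpecialLinearGroup (Fin 2) F)
    (hg : g * g = -1) (hh : h * h = -1) : IsConj g h := by
  apply SL2_isConj_of_trace g h _ (nonscalar h2 g hg) (nonscalar h2 h hh)
  · rw [tr0 g hg, tr0 h hh]
  · right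
    rw [tr0 g hg]
    intro h0
    apply h2
    have : (2 : F) * 2 = 0 := by linear_combination -h0
    exact (mul_eq_zero.mp this).elim id id

theorem order4 [Finite F] (h2 : (2 : F) ≠ 0) (A : Subgroup (Matrix.SpecialLinearGroup (Fin 2) F))
    (hA : Nat.card A = 4) : ∃ a ∈ A, a * a = -1 ∧ A = Subgroup.zpowers a := by
  classical
  have hex : ∃ a ∈ A, a * a = -1 := by
    by_contra hcon
    push Not at hcon
    have hsub : (A : Set (Matrix.SpecialLinearGroup (Fin 2) F)) ⊆ {1, -1} := by
      intro a ha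
      have h4 : a ^ 4 = 1 := by
        have h5 := pow_card_eq_one' (G := A) (x := ⟨a, ha⟩)
        rw [hA] at h5
        have h6 := congrArg Subtype.val h5
        simpa using h6
      have h7 : (a * a) * (a * a) = 1 := by
        rw [← h4, show (4 : ℕ) = 2 + 2 from rfl, pow_add, pow_two]
      rcases inv_cases h2 (a * a) h7 with h8 | h8
      · rcases inv_cases h2 a h8 with h9 | h9
        · left
          exact h9
        · right
          exact h9
      · exact absurd h8 (hcon a ha)
    have hc1 : Nat.card A = (A : Set (Matrix.SpecialLinearGroup (Fin 2) F)).ncard := rfl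
    have hc2 := Set.ncard_le_ncard hsub (Set.toFinite _)
    have hc3 : ({1, -1} : Set (Matrix.SpecialLinearGroup (Fin 2) F)).ncard ≤ 2 := by
      refine (Set.ncard_insert_le _ _).trans ?_
      rw [Set.ncard_singleton]
    omega
  obtain ⟨a, ha, haa⟩ := hex
  refine ⟨a, ha, haa, ?_⟩
  have hord : orderOf a = 2 ^ (1 + 1) := by
    apply orderOf_eq_prime_pow
    · rw [pow_one, pow_two, haa]
      exact sl2_neg_one_ne_one h2
    · have : a ^ 2 ^ (1 + 1) = (a * a) * (a * a) := by
        rw [show (2 : ℕ) ^ (1 + 1) = 2 + 2 from rfl, pow_add, pow_two]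
      rw [this, haa]
      simp
  symm
  apply Subgroup.eq_of_le_of_card_ge
  · rw [Subgroup.zpowers_le]
    exact ha
  · rw [Nat.card_zpowers, hord, hA]
    norm_num

theorem norm_card [Fintype F] (h2 : (2 : F) ≠ 0) (a : Matrix.SpecialLinearGroup (Fin 2) F)
    (haa : a * a = -1) :
    Nat.card (Subgroup.normalizer
        ((Subgroup.zpowers a : Subgroup (Matrix.SpecialLinearGroup (Fin 2) F)) :
          Set (Matrix.SpecialLinearGroup (Fin 2) F)))
      = 2 * Nat.card (Subgroup.centralizer ({a} : Set (Matrix.SpecialLinearGroup (Fin 2) F))) := by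
  classical
  have hs := nonscalar h2 a haa
  have ht := tr0 a haa
  have hainv : a⁻¹ = -a := by
    apply inv_eq_of_mul_eq_one_right
    rw [mul_neg, haa, neg_neg]
  have hne : -a ≠ a := by
    intro h0
    rw [← hainv] at h0
    have h1 : a * a = 1 := by
      nth_rewrite 1 [← h0]
      exact inv_mul_cancel a
    rw [h1] at haa
    exact sl2_neg_one_ne_one h2 haa.symm
  set N := Subgroup.normalizer
        ((Subgroup.zpowers a : Subgroup (Matrix.SpecialLinearGroup (Fin 2) F)) :
          Set (Matrix.SpecialLinearGroup (Fin 2) F)) with hN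
  set C := Subgroup.centralizer ({a} : Set (Matrix.SpecialLinearGroup (Fin 2) F)) with hC
  have hmem : ∀ g, g ∈ N ↔ (g * a * g⁻¹ = a ∨ g * a * g⁻¹ = -a) := by
    intro g
    constructor
    · intro hg
      have h1 := (Subgroup.mem_normalizer_iff.mp hg a).mp (Subgroup.mem_zpowers a)
      obtain ⟨k, hk⟩ := Subgroup.mem_zpowers_iff.mp h1
      have hcc : (g * a * g⁻¹) * (g * a * g⁻¹) = -1 := by
        have : (g * a * g⁻¹) * (g * a * g⁻¹) = g * (a * a) * g⁻¹ := by group
        rw [this, haa]
        simp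
      have hcomm : a⁻¹ * (g * a * g⁻¹) = (g * a * g⁻¹) * a⁻¹ := by
        rw [← hk]
        exact ((Commute.refl a).inv_left.zpow_right k).eq
      have h3 : ((g * a * g⁻¹) * a⁻¹) * ((g * a * g⁻¹) * a⁻¹) = 1 := by
        calc ((g * a * g⁻¹) * a⁻¹) * ((g * a * g⁻¹) * a⁻¹)
            = (g * a * g⁻¹) * (a⁻¹ * (g * a * g⁻¹)) * a⁻¹ := by group
          _ = ((g * a * g⁻¹) * (g * a * g⁻¹)) * (a⁻¹ * a⁻¹) := by rw [hcomm]; group
          _ = 1 := by
            rw [hcc, hainv]
            simp [haa]
      rcases inv_cases h2 _ h3 with h4 | h4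
      · left
        exact mul_inv_eq_one.mp h4
      · right
        have h5 := mul_inv_eq_iff_eq_mul.mp h4
        rw [h5]
        simp
    · intro hg
      rw [Subgroup.mem_normalizer_iff]
      have hz : Subgroup.zpowers (g * a * g⁻¹) = Subgroup.zpowers a := by
        rcases hg with h | h
        · rw [h]
        · rw [h, ← hainv, Subgroup.zpowers_inv]
      intro n
      constructor
      · intro hn
        obtain ⟨k, rfl⟩ := Subgroup.mem_zpowers_iff.mp hn
        rw [← hz, ← conj_zpow]
        exact Subgroup.zpow_mem_zpowers _ k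
      · intro hn
        rw [← hz] at hn
        obtain ⟨k, hk⟩ := Subgroup.mem_zpowers_iff.mp hn
        rw [conj_zpow] at hk
        have h5 : a ^ k = n := mul_left_cancel (mul_right_cancel hk)
        rw [← h5]
        exact Subgroup.zpow_mem_zpowers _ k
  have hCN : C ≤ N := by
    intro g hg
    rw [hmem]
    left
    exact (mem_centralizer_singleton a g).mp hg
  obtain ⟨x₀, hx₀⟩ := exists_conj_neg h2 a hs ht
  have hx₀N : x₀ ∈ N := (hmem x₀).mpr (Or.inr hx₀)
  have hidx : (C.subgroupOf N).index = 2 := by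
    rw [Subgroup.index_eq_two_iff]
    refine ⟨⟨x₀, hx₀N⟩, ?_⟩
    rintro ⟨y, hy⟩
    have hP : (⟨y, hy⟩ * ⟨x₀, hx₀N⟩ : N) ∈ C.subgroupOf N ↔ (y * x₀) * a * (y * x₀)⁻¹ = a := by
      rw [Subgroup.mem_subgroupOf]
      exact mem_centralizer_singleton a (y * x₀)
    have hQ : (⟨y, hy⟩ : N) ∈ C.subgroupOf N ↔ y * a * y⁻¹ = a := by
      rw [Subgroup.mem_subgroupOf]
      exact mem_centralizer_singleton a y
    have hyx : (y * x₀) * a * (y * x₀)⁻¹ = -(y * a * y⁻¹) := by
      have : (y * x₀) * a * (y * x₀)⁻¹ = y * (x₀ * a * x₀⁻¹) * y⁻¹ := by group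
      rw [this, hx₀]
      simp
    rw [hP, hQ, hyx]
    rcases (hmem y).mp hy with h | h
    · right
      refine ⟨h, ?_⟩
      rw [h]
      exact hne
    · left
      refine ⟨?_, ?_⟩
      · rw [h, neg_neg]
      · rw [h]
        exact hne
  have h1 := Subgroup.card_mul_index (C.subgroupOf N)
  rw [hidx] at h1
  have h2' : Nat.card (C.subgroupOf N) = Nat.card C :=
    Nat.card_congr (Subgroup.subgroupOfEquivOfLe hCN).toEquiv
  rw [h2'] at h1
  omega

end aux

/-- In SL_2(q), q odd: any two subgroups of order 4 are conjugate, and the normaliser of a subgroup of order 4 has order 2(q − 1) if q ≡ 1 (mod 4) and 2(q + 1) if q ≡ 3 (mod 4); consequently all involutions of PSL_2(q) are conjugate. -/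
theorem result {F : Type*} [Field F] [Fintype F] {q : ℕ} (hF : Fintype.card F = q) (hodd : Odd q) (A : Subgroup (Matrix.SpecialLinearGroup (Fin 2) F)) (hA : Nat.card A = 4) : (∀ B : Subgroup (Matrix.SpecialLinearGroup (Fin 2) F), Nat.card B = 4 → ∃ g : Matrix.SpecialLinearGroup (Fin 2) F, B = A.map (MulAut.conj g).toMonoidHom) ∧ (q % 4 = 1 → Nat.card ↥(Subgroup.normalizer (A : Set (Matrix.SpecialLinearGroup (Fin 2) F))) = 2 * (q - 1)) ∧ (q % 4 = 3 → Nat.card ↥(Subgroup.normalizer (A : Set (Matrix.SpecialLinearGroup (Fin 2) F))) = 2 * (q + 1)) ∧ (∀ x y : Matrix.ProjectiveSpecialLinearGroup (Fin 2) F, orderOf x = 2 → orderOf y = 2 → IsConj x y) := by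
  classical
  have h2 : (2 : F) ≠ 0 := by
    intro h
    have h1 : ringChar F = 2 :=
      CharP.ringChar_of_prime_eq_zero Nat.prime_two (by exact_mod_cast h)
    have h3 := FiniteField.even_card_of_char_two h1
    rw [hF] at h3
    rcases hodd with ⟨k, hk⟩
    omega
  have h4 : (4 : F) ≠ 0 := by
    intro h0
    have : (2 : F) * 2 = 0 := by linear_combination h0
    exact h2 ((mul_eq_zero.mp this).elim id id)
  obtain ⟨a, haA, haa, hAz⟩ := order4 h2 A hA
  have hs := nonscalar h2 a haa
  have ht := tr0 a haa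
  refine ⟨?_, ?_, ?_, ?_⟩
  · intro B hB
    obtain ⟨b, hbB, hbb, hBz⟩ := order4 h2 B hB
    obtain ⟨g, hg⟩ := isConj_iff.mp (conj_of_sq h2 a b haa hbb)
    refine ⟨g, ?_⟩
    rw [hBz, hAz, MonoidHom.map_zpowers]
    congr 1
    exact hg.symm
  · intro hq
    rw [hAz, norm_card h2 a haa]
    have hsq : IsSquare (-1 : F) := FiniteField.isSquare_neg_one_iff.mpr (by rw [hF]; omega)
    obtain ⟨m, hm⟩ := hsq
    rw [card_centralizer_split a hs (by rw [ht]; intro h0; exact h4 (by linear_combination -h0)) m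
      (by rw [ht]; linear_combination -hm), hF]
  · intro hq
    rw [hAz, norm_card h2 a haa]
    have hnr : NoRoot (a : Matrix (Fin 2) (Fin 2) F).trace := by
      intro m hm
      rw [ht] at hm
      have hsq : IsSquare (-1 : F) := ⟨m, by linear_combination -hm⟩
      exact (FiniteField.isSquare_neg_one_iff.mp hsq) (by rw [hF]; exact hq)
    rw [card_centralizer_nonsplit a hs hnr, hF]
  · intro x y hx hy
    have key : ∀ z : Matrix.ProjectiveSpecialLinearGroup (Fin 2) F, orderOf z = 2 →
        ∃ g : Matrix.SpecialLinearGroup (Fin 2) F, pslMk F g = z ∧ g * g = -1 := by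
      intro z hz
      obtain ⟨g, rfl⟩ := pslMk_surjective z
      refine ⟨g, rfl, ?_⟩
      have h1 : pslMk F g ^ 2 = 1 := by
        have h0 := pow_orderOf_eq_one (pslMk F g)
        rwa [hz] at h0
      have hne : pslMk F g ≠ 1 := by
        intro h0
        rw [h0, orderOf_one] at hz
        omega
      rw [pow_two, ← map_mul, pslMk_eq_one_iff] at h1
      rcases h1 with h1 | h1
      · exfalso
        apply hne
        rw [pslMk_eq_one_iff]
        exact inv_cases h2 g h1
      · exact h1
    obtain ⟨g, rfl, hg⟩ := key x hx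
    obtain ⟨h, rfl, hh⟩ := key y hy
    exact MonoidHom.map_isConj (pslMk F) (conj_of_sq h2 g h hg hh)

end Cfsg.Agent.S0809
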