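import Mathlib
import Cfsg.Statements.S0807
import Cfsg.Agent.S0809

set_option autoImplicit false
open Cfsg

namespace Cfsg.Agent.S0807

open Cfsg.Agent.Lib.Helper15 Cfsg.Agent.Lib.Helper16

theorem card_fiber_sum' {α β : Type*} [Finite α] [Fintype β] (π : α → β) :
    Nat.card α = ∑ b, Nat.card {a // π a = b} := by
  rw [← Nat.card_congr (Equiv.sigmaFiberEquiv π), Nat.card_sigma]

section generic

variable {G : Type*} [Group G]

/-- ordered pairs of distinct commuting involutions -/
def Pairs (G : Type*) [Group G] : Set (G × G) :=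
  {p | p.1 ≠ 1 ∧ p.2 ≠ 1 ∧ p.1 ≠ p.2 ∧ p.1 * p.1 = 1 ∧ p.2 * p.2 = 1 ∧ p.1 * p.2 = p.2 * p.1}

/-- the four-group generated by two commuting involutions -/
def VV (a b : G) (ha : a * a = 1) (hb : b * b = 1) (hab : a * b = b * a) : Subgroup G where
  carrier := {1, a, b, a * b}
  mul_mem' := by
    intro x y hx hy
    have t1 : a * (a * b) = b := by rw [← mul_assoc, ha, one_mul]
    have t2 : b * (a * b) = a := by rw [hab, ← mul_assoc, hb, one_mul]
    have t3 : a * b * a = b := by rw [hab, mul_assoc, ha, mul_one]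
    have t4 : a * b * b = a := by rw [mul_assoc, hb, mul_one]
    have t5 : a * b * (a * b) = 1 := by rw [mul_assoc, t2, ha]
    simp only [Set.mem_insert_iff, Set.mem_singleton_iff] at hx hy ⊢
    rcases hx with rfl | rfl | rfl | rfl <;> rcases hy with rfl | rfl | rfl | rfl <;>
      simp [ha, hb, t1, t2, t3, t4, t5, hab.symm]
  one_mem' := by simp
  inv_mem' := by
    intro x hx
    simp only [Set.mem_insert_iff, Set.mem_singleton_iff] at hx ⊢
    have ia : a⁻¹ = a := inv_eq_of_mul_eq_one_left ha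
    have ib : b⁻¹ = b := inv_eq_of_mul_eq_one_left hb
    rcases hx with rfl | rfl | rfl | rfl
    · simp
    · simp [ia]
    · simp [ib]
    · right; right; right
      rw [mul_inv_rev, ia, ib, hab]

theorem mem_VV (a b : G) (ha : a * a = 1) (hb : b * b = 1) (hab : a * b = b * a) (x : G) :
    x ∈ VV a b ha hb hab ↔ x = 1 ∨ x = a ∨ x = b ∨ x = a * b := Iff.rfl

theorem VV_klein (a b : G) (ha : a * a = 1) (hb : b * b = 1) (hab : a * b = b * a)
    (ha1 : a ≠ 1) (hb1 : b ≠ 1) (hne : a ≠ b) : IsKleinFour (VV a b ha hb hab) := by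
  have ib : b⁻¹ = b := inv_eq_of_mul_eq_one_left hb
  have hab1 : a * b ≠ 1 := by
    intro h
    apply hne
    have h1 : a = b⁻¹ := eq_inv_of_mul_eq_one_left h
    rw [h1, ib]
  constructor
  · have h1 : Nat.card (VV a b ha hb hab) = Set.ncard ({1, a, b, a * b} : Set G) :=
      Nat.card_coe_set_eq _
    rw [h1, Set.ncard_insert_of_notMem, Set.ncard_insert_of_notMem, Set.ncard_pair]
    · intro h
      apply ha1
      have h1 : a * b = 1 * b := by rw [one_mul]; exact h.symm
      exact mul_right_cancel h1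
    · simp only [Set.mem_insert_iff, Set.mem_singleton_iff, not_or]
      refine ⟨hne, fun h => hb1 ?_⟩
      have h1 : a * b = a * 1 := by rw [mul_one]; exact h.symm
      exact mul_left_cancel h1
    · simp only [Set.mem_insert_iff, Set.mem_singleton_iff, not_or]
      exact ⟨fun h => ha1 h.symm, fun h => hb1 h.symm, fun h => hab1 h.symm⟩
  · have : Nontrivial (VV a b ha hb hab) :=
      ⟨⟨⟨a, Or.inr (Or.inl rfl)⟩, 1, fun h => ha1 (congrArg Subtype.val h)⟩⟩
    rw [Monoid.exponent_eq_prime_iff Nat.prime_two]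
    intro g hg
    apply orderOf_eq_prime _ hg
    apply Subtype.ext
    rw [pow_two]
    obtain ⟨x, hx⟩ := g
    show x * x = 1
    rcases hx with rfl | rfl | rfl | rfl
    · simp
    · exact ha
    · exact hb
    · rw [mul_assoc, hab, ← mul_assoc b, hb, one_mul, ha]

theorem klein_sq (V : Subgroup G) [IsKleinFour V] (x : G) (hx : x ∈ V) : x * x = 1 := by
  have h := Monoid.pow_exponent_eq_one (⟨x, hx⟩ : V)
  rw [IsKleinFour.exponent_two, pow_two] at h
  exact congrArg Subtype.val h

theorem klein_comm (V : Subgroup G) [IsKleinFour V] (x y : G) (hx : x ∈ V) (hy : y ∈ V) :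
    x * y = y * x := by
  have h := mul_comm_of_exponent_two (IsKleinFour.exponent_two (G := V)) ⟨x, hx⟩ ⟨y, hy⟩
  exact congrArg Subtype.val h

theorem card_pairs [Finite G] :
    Nat.card (Pairs G) = 6 * Nat.card {V : Subgroup G // IsKleinFour V} := by
  classical
  have := Fintype.ofFinite G
  have : Fintype {V : Subgroup G // IsKleinFour V} := Fintype.ofFinite _
  let f : Pairs G → {V : Subgroup G // IsKleinFour V} := fun p =>
    ⟨VV p.1.1 p.1.2 p.2.2.2.2.1 p.2.2.2.2.2.1 p.2.2.2.2.2.2,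
      VV_klein _ _ _ _ _ p.2.1 p.2.2.1 p.2.2.2.1⟩
  rw [card_fiber_sum' f]
  have hfib : ∀ V : {V : Subgroup G // IsKleinFour V}, Nat.card {p : Pairs G // f p = V} = 6 := by
    rintro ⟨V, hV⟩
    have := hV
    obtain ⟨S, hSdef⟩ : ∃ S : Finset G, S = (Finset.univ.filter (· ∈ V)).erase 1 := ⟨_, rfl⟩
    have hmemS : ∀ x, x ∈ S ↔ x ≠ 1 ∧ x ∈ V := by
      intro x
      rw [hSdef]
      simp
    have hS : S.card = 3 := by
      have h4 : (Finset.univ.filter (· ∈ V)).card = 4 := by
        rw [← IsKleinFour.card_four (G := V), Nat.card_eq_fintype_card, Fintype.card_subtype]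
      rw [hSdef, Finset.card_erase_of_mem (by simp [V.one_mem]), h4]
    have e1 : ∀ p : Pairs G, f p = ⟨V, hV⟩ ↔ (p.1.1 ∈ V ∧ p.1.2 ∈ V) := by
      intro p
      constructor
      · intro h
        have h1 : VV p.1.1 p.1.2 p.2.2.2.2.1 p.2.2.2.2.2.1 p.2.2.2.2.2.2 = V :=
          congrArg Subtype.val h
        rw [← h1]
        exact ⟨Or.inr (Or.inl rfl), Or.inr (Or.inr (Or.inl rfl))⟩
      · rintro ⟨h1, h2⟩
        apply Subtype.ext
        show VV p.1.1 p.1.2 p.2.2.2.2.1 p.2.2.2.2.2.1 p.2.2.2.2.2.2 = V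
        apply Subgroup.eq_of_le_of_card_ge
        · intro x hx
          rcases hx with rfl | rfl | rfl | rfl
          · exact V.one_mem
          · exact h1
          · exact h2
          · exact V.mul_mem h1 h2
        · rw [IsKleinFour.card_four,
            (VV_klein _ _ _ _ _ p.2.1 p.2.2.1 p.2.2.2.1).card_four]
    have e2 : ∀ p : G × G, (p ∈ Pairs G ∧ (p.1 ∈ V ∧ p.2 ∈ V)) ↔ p ∈ S.offDiag := by
      intro p
      rw [Finset.mem_offDiag, hmemS, hmemS]
      constructor
      · rintro ⟨⟨h1, h2, h3, _⟩, h4, h5⟩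
        exact ⟨⟨h1, h4⟩, ⟨h2, h5⟩, h3⟩
      · rintro ⟨⟨h1, h4⟩, ⟨h2, h5⟩, h3⟩
        exact ⟨⟨h1, h2, h3, klein_sq V _ h4, klein_sq V _ h5, klein_comm V _ _ h4 h5⟩, h4, h5⟩
    rw [Nat.card_congr (Equiv.subtypeEquivRight e1),
      Nat.card_congr (Equiv.subtypeSubtypeEquivSubtypeInter (· ∈ Pairs G)
        (fun p : G × G => p.1 ∈ V ∧ p.2 ∈ V)),
      Nat.card_congr (Equiv.subtypeEquivRight e2), Nat.card_eq_fintype_card, Fintype.card_coe,
      Finset.offDiag_card, hS]
  simp only [hfib]
  rw [Finset.sum_const, Finset.card_univ, smul_eq_mul, Nat.card_eq_fintype_card, mul_comm]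

end generic

section sl2

variable {F : Type*} [Field F]

/-- anticommuting pairs of elements of order four -/
def PT (F : Type*) [Field F] :
    Set (Matrix.SpecialLinearGroup (Fin 2) F × Matrix.SpecialLinearGroup (Fin 2) F) :=
  {p | p.1 * p.1 = -1 ∧ p.2 * p.1 * p.2⁻¹ = -p.1}

theorem psl_neg' (g : Matrix.SpecialLinearGroup (Fin 2) F) : pslMk F (-g) = pslMk F g :=
  ((pslMk_eq_iff g (-g)).mpr (Or.inr rfl)).symm

theorem neg_ne_self (h2 : (2 : F) ≠ 0) (A : Matrix.SpecialLinearGroup (Fin 2) F) : -A ≠ A := by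
  intro h
  apply sl2_neg_one_ne_one h2
  have h1 : -A * A⁻¹ = A * A⁻¹ := by rw [h]
  rw [neg_mul, mul_inv_cancel] at h1
  exact h1

theorem sq_neg_of_psl (h2 : (2 : F) ≠ 0) (A : Matrix.SpecialLinearGroup (Fin 2) F)
    (h1 : pslMk F A ≠ 1) (hsq : pslMk F A * pslMk F A = 1) : A * A = -1 := by
  rw [← map_mul, pslMk_eq_one_iff] at hsq
  rcases hsq with h | h
  · exfalso
    apply h1
    rw [pslMk_eq_one_iff]
    exact Cfsg.Agent.S0809.inv_cases h2 A h
  · exact h

theorem ne_one_of_sq (h2 : (2 : F) ≠ 0) (A : Matrix.SpecialLinearGroup (Fin 2) F)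
    (hA : A * A = -1) : pslMk F A ≠ 1 := by
  intro h
  rw [pslMk_eq_one_iff] at h
  rcases h with rfl | rfl
  · rw [one_mul] at hA
    exact sl2_neg_one_ne_one h2 hA.symm
  · rw [neg_mul_neg, one_mul] at hA
    exact sl2_neg_one_ne_one h2 hA.symm

theorem sq_of_anti (h2 : (2 : F) ≠ 0) (A X : Matrix.SpecialLinearGroup (Fin 2) F)
    (h : X * A * X⁻¹ = -A) : X * X = -1 := by
  apply sq_of_trace_zero
  by_contra ht
  apply not_conj_neg_of_trace h2 X ht A
  have h3 : X * A = -A * X := mul_inv_eq_iff_eq_mul.mp h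
  have h4 : A * X = -(X * A) := by rw [h3, neg_mul, neg_neg]
  rw [h4, neg_mul, mul_inv_cancel_right]

theorem anti_of_pairs (h2 : (2 : F) ≠ 0) (A X : Matrix.SpecialLinearGroup (Fin 2) F)
    (hA : A * A = -1) (hX : X * X = -1) (hne : pslMk F A ≠ pslMk F X)
    (hcomm : pslMk F A * pslMk F X = pslMk F X * pslMk F A) : X * A * X⁻¹ = -A := by
  have h1 : pslMk F A = pslMk F (X * A * X⁻¹) := by
    rw [map_mul, map_mul, map_inv, ← hcomm, mul_inv_cancel_right]
  rcases (pslMk_eq_iff _ _).mp h1 with h | h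
  · exfalso
    have hc : X * A = A * X := mul_inv_eq_iff_eq_mul.mp h
    have hA' : A⁻¹ = -A := by
      apply inv_eq_of_mul_eq_one_right
      rw [mul_neg, hA, neg_neg]
    have hY : (X * A⁻¹) * (X * A⁻¹) = 1 := by
      rw [hA']
      calc X * -A * (X * -A) = X * A * (X * A) := by simp
        _ = X * (A * X) * A := by group
        _ = X * (X * A) * A := by rw [hc]
        _ = (X * X) * (A * A) := by group
        _ = 1 := by rw [hX, hA]; simp
    rcases Cfsg.Agent.S0809.inv_cases h2 _ hY with h5 | h5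
    · apply hne
      have h6 : X = A := mul_inv_eq_one.mp h5
      rw [h6]
    · apply hne
      have h6 : X = -A := by
        have h7 := mul_inv_eq_iff_eq_mul.mp h5
        rw [h7, neg_mul, one_mul]
      rw [h6, psl_neg']
  · exact h

theorem card_fibre (h2 : (2 : F) ≠ 0) (a : Matrix.ProjectiveSpecialLinearGroup (Fin 2) F) :
    Nat.card {A : Matrix.SpecialLinearGroup (Fin 2) F // pslMk F A = a} = 2 := by
  obtain ⟨A0, rfl⟩ := pslMk_surjective a
  have hset : {A : Matrix.SpecialLinearGroup (Fin 2) F | pslMk F A = pslMk F A0} = {A0, -A0} := by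
    ext A
    simp only [Set.mem_setOf_eq, Set.mem_insert_iff, Set.mem_singleton_iff]
    rw [eq_comm, pslMk_eq_iff]
  have h1 : Nat.card {A : Matrix.SpecialLinearGroup (Fin 2) F // pslMk F A = pslMk F A0}
      = Set.ncard {A : Matrix.SpecialLinearGroup (Fin 2) F | pslMk F A = pslMk F A0} :=
    Nat.card_coe_set_eq _
  rw [h1, hset, Set.ncard_pair (neg_ne_self h2 A0).symm]

theorem card_PT_eq [Finite F] (h2 : (2 : F) ≠ 0) :
    Nat.card (PT F) = 4 * Nat.card (Pairs (Matrix.ProjectiveSpecialLinearGroup (Fin 2) F)) := by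
  classical
  have : Fintype (Pairs (Matrix.ProjectiveSpecialLinearGroup (Fin 2) F)) := Fintype.ofFinite _
  have hΦ : ∀ p : PT F, (pslMk F p.1.1, pslMk F p.1.2)
      ∈ Pairs (Matrix.ProjectiveSpecialLinearGroup (Fin 2) F) := by
    rintro ⟨⟨A, X⟩, hA, hanti⟩
    have hX := sq_of_anti h2 A X hanti
    refine ⟨ne_one_of_sq h2 A hA, ne_one_of_sq h2 X hX, ?_, ?_, ?_, ?_⟩
    · intro h
      rcases (pslMk_eq_iff A X).mp h with rfl | rfl
      · simp only [mul_inv_cancel_right] at hanti
        exact neg_ne_self h2 _ hanti.symm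
      · simp only [inv_neg, mul_neg, neg_mul, neg_neg, mul_inv_cancel_right] at hanti
        exact neg_ne_self h2 _ hanti.symm
    · show pslMk F A * pslMk F A = 1
      rw [← map_mul, hA, pslMk_eq_one_iff]
      right
      rfl
    · show pslMk F X * pslMk F X = 1
      rw [← map_mul, hX, pslMk_eq_one_iff]
      right
      rfl
    · show pslMk F A * pslMk F X = pslMk F X * pslMk F A
      have h3 := congrArg (pslMk F) hanti
      rw [map_mul, map_mul, map_inv, psl_neg'] at h3
      exact (mul_inv_eq_iff_eq_mul.mp h3).symm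
  let Φ : PT F → Pairs (Matrix.ProjectiveSpecialLinearGroup (Fin 2) F) := fun p =>
    ⟨(pslMk F p.1.1, pslMk F p.1.2), hΦ p⟩
  rw [card_fiber_sum' Φ]
  have hfib : ∀ s : Pairs (Matrix.ProjectiveSpecialLinearGroup (Fin 2) F),
      Nat.card {p : PT F // Φ p = s} = 4 := by
    rintro ⟨⟨a, b⟩, hs⟩
    have e1 : ∀ p : PT F, Φ p = ⟨(a, b), hs⟩ ↔ (pslMk F p.1.1 = a ∧ pslMk F p.1.2 = b) := by
      intro p
      constructor
      · intro h
        have h3 := congrArg Subtype.val h
        exact ⟨congrArg Prod.fst h3, congrArg Prod.snd h3⟩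
      · rintro ⟨h3, h4⟩
        apply Subtype.ext
        exact Prod.ext h3 h4
    have e2 : ∀ p : Matrix.SpecialLinearGroup (Fin 2) F × Matrix.SpecialLinearGroup (Fin 2) F,
        (p ∈ PT F ∧ (pslMk F p.1 = a ∧ pslMk F p.2 = b)) ↔
          (pslMk F p.1 = a ∧ pslMk F p.2 = b) := by
      intro p
      constructor
      · exact fun h => h.2
      · rintro ⟨h3, h4⟩
        refine ⟨?_, h3, h4⟩
        obtain ⟨ha1, hb1, hne, haa, hbb, hab⟩ := hs
        subst h3
        subst h4
        have hA := sq_neg_of_psl h2 p.1 ha1 haa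
        have hX := sq_neg_of_psl h2 p.2 hb1 hbb
        exact ⟨hA, anti_of_pairs h2 p.1 p.2 hA hX hne hab⟩
    rw [Nat.card_congr (Equiv.subtypeEquivRight e1),
      Nat.card_congr (Equiv.subtypeSubtypeEquivSubtypeInter (· ∈ PT F)
        (fun p : Matrix.SpecialLinearGroup (Fin 2) F × Matrix.SpecialLinearGroup (Fin 2) F =>
          pslMk F p.1 = a ∧ pslMk F p.2 = b)),
      Nat.card_congr (Equiv.subtypeEquivRight e2),
      Nat.card_congr (Equiv.subtypeProdEquivProd (p := fun A => pslMk F A = a)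
        (q := fun X => pslMk F X = b)),
      Nat.card_prod, card_fibre h2, card_fibre h2]
  simp only [hfib]
  rw [Finset.sum_const, Finset.card_univ, smul_eq_mul, Nat.card_eq_fintype_card, mul_comm]

theorem card_PT [Fintype F] (h2 : (2 : F) ≠ 0) :
    Nat.card (PT F) = Nat.card (Matrix.SpecialLinearGroup (Fin 2) F) := by
  classical
  let pr : PT F → Matrix.SpecialLinearGroup (Fin 2) F := fun p => p.1.1
  rw [card_fiber_sum' pr]
  have hc : ∀ A : Matrix.SpecialLinearGroup (Fin 2) F, A * A = -1 →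
      Nat.card {p : PT F // pr p = A}
        = Nat.card (Subgroup.centralizer ({A} : Set (Matrix.SpecialLinearGroup (Fin 2) F))) := by
    intro A hA
    obtain ⟨X0, hX0⟩ := exists_conj_neg h2 A (Cfsg.Agent.S0809.nonscalar h2 A hA)
      (Cfsg.Agent.S0809.tr0 A hA)
    have hX0' : X0⁻¹ * -A * X0 = A := by
      rw [← hX0]
      group
    refine Nat.card_congr ⟨fun p => ⟨X0⁻¹ * p.1.1.2, ?_⟩,
      fun c => ⟨⟨(A, X0 * c.1), ⟨hA, ?_⟩⟩, rfl⟩, ?_, ?_⟩
    · rw [mem_centralizer_singleton]
      obtain ⟨⟨⟨A', X⟩, hA', hanti⟩, hp⟩ := p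
      have hp' : A' = A := hp
      subst hp'
      show X0⁻¹ * X * A' * (X0⁻¹ * X)⁻¹ = A'
      calc X0⁻¹ * X * A' * (X0⁻¹ * X)⁻¹ = X0⁻¹ * (X * A' * X⁻¹) * X0 := by group
        _ = A' := by rw [hanti, hX0']
    · have hc1 := (mem_centralizer_singleton A c.1).mp c.2
      show X0 * c.1 * A * (X0 * c.1)⁻¹ = -A
      calc X0 * c.1 * A * (X0 * c.1)⁻¹ = X0 * (c.1 * A * c.1⁻¹) * X0⁻¹ := by group
        _ = -A := by rw [hc1, hX0]
    · rintro ⟨⟨⟨A', X⟩, hA', hanti⟩, hp⟩
      have hp' : A' = A := hp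
      subst hp'
      apply Subtype.ext
      apply Subtype.ext
      show (A', X0 * (X0⁻¹ * X)) = (A', X)
      rw [mul_inv_cancel_left]
    · rintro ⟨c, hc⟩
      apply Subtype.ext
      show X0⁻¹ * (X0 * c) = c
      rw [inv_mul_cancel_left]
  have h0 : ∀ A : Matrix.SpecialLinearGroup (Fin 2) F, A * A ≠ -1 →
      Nat.card {p : PT F // pr p = A} = 0 := by
    intro A hA
    rw [Nat.card_eq_zero]
    left
    constructor
    rintro ⟨p, hp⟩
    apply hA
    rw [← hp]
    exact p.2.1
  obtain ⟨I, hI⟩ : ∃ I : Finset (Matrix.SpecialLinearGroup (Fin 2) F),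
      I = Finset.univ.filter (fun B : Matrix.SpecialLinearGroup (Fin 2) F => B * B = -1) :=
    ⟨_, rfl⟩
  have horb : ∀ A : Matrix.SpecialLinearGroup (Fin 2) F, A * A = -1 →
      I.card * Nat.card (Subgroup.centralizer ({A} : Set (Matrix.SpecialLinearGroup (Fin 2) F)))
        = Nat.card (Matrix.SpecialLinearGroup (Fin 2) F) := by
    intro A hA
    have h1 : Nat.card (MulAction.orbit (ConjAct (Matrix.SpecialLinearGroup (Fin 2) F)) A)
        * Nat.card (MulAction.stabilizer (ConjAct (Matrix.SpecialLinearGroup (Fin 2) F)) A)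
        = Nat.card (ConjAct (Matrix.SpecialLinearGroup (Fin 2) F)) := by
      rw [← Nat.card_prod]
      exact Nat.card_congr (MulAction.orbitProdStabilizerEquivGroup _ A)
    have h3 : MulAction.orbit (ConjAct (Matrix.SpecialLinearGroup (Fin 2) F)) A
        = {B : Matrix.SpecialLinearGroup (Fin 2) F | B * B = -1} := by
      ext B
      rw [ConjAct.mem_orbit_conjAct, Set.mem_setOf_eq]
      constructor
      · intro h
        obtain ⟨c, hc⟩ := isConj_iff.mp h
        rw [← hc] at hA
        have h4 : c * (B * B) * c⁻¹ = -1 := by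
          rw [← hA]
          group
        have h5 : B * B = c⁻¹ * (c * (B * B) * c⁻¹) * c := by group
        rw [h5, h4]
        simp
      · intro hB
        exact Cfsg.Agent.S0809.conj_of_sq h2 B A hB hA
    have h4 : Nat.card (MulAction.orbit (ConjAct (Matrix.SpecialLinearGroup (Fin 2) F)) A)
        = I.card := by
      rw [h3, hI, Nat.card_eq_fintype_card, Fintype.card_subtype]
      congr 1
    rw [← h4, Subgroup.nat_card_centralizer_nat_card_stabilizer, h1]
    rfl
  have hW : weylW F * weylW F = -1 := by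
    apply Subtype.ext
    rw [sq_of_antidiag (weylW F) (by simp [weylW_val]) (by simp [weylW_val])]
    simp
  have hsum : ∑ A : Matrix.SpecialLinearGroup (Fin 2) F, Nat.card {p : PT F // pr p = A}
      = ∑ A ∈ I, Nat.card (Subgroup.centralizer
          ({weylW F} : Set (Matrix.SpecialLinearGroup (Fin 2) F))) := by
    rw [hI, Finset.sum_filter]
    apply Finset.sum_congr rfl
    intro A _
    by_cases hA : A * A = -1
    · rw [if_pos hA, hc A hA]
      have e1 := horb A hA
      have e2 := horb (weylW F) hW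
      have hpos : 0 < I.card := by
        rw [hI]
        exact Finset.card_pos.mpr ⟨weylW F, by simp [hW]⟩
      exact Nat.eq_of_mul_eq_mul_left hpos (e1.trans e2.symm)
    · rw [if_neg hA, h0 A hA]
  rw [hsum, Finset.sum_const, smul_eq_mul, horb (weylW F) hW]

end sl2

/-- For q odd, twelve times the number of Klein four-subgroups of PSL_2(q) equals the order of PSL_2(q). -/
theorem result {F : Type*} [Field F] [Fintype F] {q : ℕ} (hF : Fintype.card F = q) (hodd : Odd q) : 12 * Nat.card {V : Subgroup (Matrix.ProjectiveSpecialLinearGroup (Fin 2) F) // IsKleinFour V} = Nat.card (Matrix.ProjectiveSpecialLinearGroup (Fin 2) F) := by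
  classical
  have h2 : (2 : F) ≠ 0 := by
    intro h
    have hchar : ringChar F = 2 := by
      have h3 : ringChar F ∣ 2 := by
        apply (ringChar.spec F 2).mp
        exact_mod_cast h
      rcases (Nat.dvd_prime Nat.prime_two).mp h3 with h4 | h4
      · exfalso
        exact CharP.ringChar_ne_one (R := F) h4
      · exact h4
    have h5 : Even (Fintype.card F) := by
      obtain ⟨m, hp, hcard⟩ := FiniteField.card F (ringChar F)
      rw [hcard, hchar]
      exact (Nat.even_pow' (PNat.ne_zero m)).mpr even_two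
    rw [hF] at h5
    exact (Nat.not_even_iff_odd.mpr hodd) h5
  have e1 := card_pairs (G := Matrix.ProjectiveSpecialLinearGroup (Fin 2) F)
  have e2 := card_PT_eq (F := F) h2
  have e3 := card_PT (F := F) h2
  have e4 : Nat.card (Matrix.SpecialLinearGroup (Fin 2) F)
      = 2 * Nat.card (Matrix.ProjectiveSpecialLinearGroup (Fin 2) F) := by
    have h5 := card_fiber_sum' (pslMk F)
    simp only [card_fibre h2] at h5
    rw [h5, Finset.sum_const, Finset.card_univ, smul_eq_mul, Nat.card_eq_fintype_card, mul_comm]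
  omega

end Cfsg.Agent.S0807
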