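import Mathlib
import Cfsg.Agent.S0807

set_option autoImplicit false
open Cfsg

namespace Cfsg.Agent.S0805

open Cfsg.Agent.Lib.Helper16

theorem range_equiv {G G' : Type*} [Group G] [Group G'] (ψ : G →* G') (N : Subgroup G) [N.Normal]
    (h : ψ.ker = N) : Nonempty (ψ.range ≃* G ⧸ N) :=
  ⟨((QuotientGroup.quotientMulEquivOfEq h).symm.trans (QuotientGroup.quotientKerEquivRange ψ)).symm⟩

theorem exists_emb {F K : Type*} [Field F] [Fintype F] [Field K] [Fintype K] (m : ℕ)
    (hK : Fintype.card K ^ m = Fintype.card F) : Nonempty (K →+* F) := by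
  obtain ⟨p, hp⟩ := CharP.exists F
  have : Fact p.Prime := ⟨CharP.char_is_prime F p⟩
  obtain ⟨p', hp'⟩ := CharP.exists K
  have : Fact p'.Prime := ⟨CharP.char_is_prime K p'⟩
  obtain ⟨n, -, hn⟩ := FiniteField.card F p
  obtain ⟨a, -, ha⟩ := FiniteField.card K p'
  have hm : m ≠ 0 := by
    rintro rfl
    have := Fintype.one_lt_card (α := F)
    simp at hK
    omega
  have hpp : p' = p := by
    have h1 : p' ∣ p ^ (n : ℕ) := by
      rw [← hn, ← hK, ha]
      exact dvd_pow (dvd_pow_self p' a.ne_zero) hm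
    exact (Nat.prime_dvd_prime_iff_eq Fact.out Fact.out).mp
      ((Fact.out : p'.Prime).dvd_of_dvd_pow h1)
  subst hpp
  letI : Algebra (ZMod p') K := ZMod.algebra K p'
  letI : Algebra (ZMod p') F := ZMod.algebra F p'
  have h1 := FiniteField.pow_finrank_eq_card p' K
  have h2 := FiniteField.pow_finrank_eq_card p' F
  have hdvd : Module.finrank (ZMod p') K ∣ Module.finrank (ZMod p') F := by
    refine ⟨m, ?_⟩
    apply Nat.pow_right_injective (Fact.out : p'.Prime).two_le
    show p' ^ _ = p' ^ _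
    rw [h2, pow_mul, h1, hK]
  obtain ⟨f⟩ := FiniteField.nonempty_algHom_of_finrank_dvd hdvd
  exact ⟨f.toRingHom⟩

section mats

variable {F K : Type*} [Field F] [Field K]

theorem scalar_of_map (φ : K →+* F) (A : Matrix (Fin 2) (Fin 2) K) (c : F)
    (h : φ.mapMatrix A = c • (1 : Matrix (Fin 2) (Fin 2) F)) :
    A = A 0 0 • (1 : Matrix (Fin 2) (Fin 2) K) := by
  have hinj := φ.injective
  have e := fun i j => congrFun (congrFun h i) j
  have e01 := e 0 1
  have e10 := e 1 0
  have e00 := e 0 0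
  have e11 := e 1 1
  simp only [RingHom.mapMatrix_apply, Matrix.map_apply, Matrix.smul_apply, Matrix.one_apply,
    smul_eq_mul, Fin.isValue, Fin.reduceEq, ↓reduceIte, mul_zero, mul_one] at e01 e10 e00 e11
  have a01 : A 0 1 = 0 := hinj (by rw [e01, map_zero])
  have a10 : A 1 0 = 0 := hinj (by rw [e10, map_zero])
  have a11 : A 1 1 = A 0 0 := hinj (by rw [e11, e00])
  ext i j
  fin_cases i <;> fin_cases j <;> simp [a01, a10, a11]

theorem mem_center_of_smul (A : Matrix.SpecialLinearGroup (Fin 2) F) (c : F)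
    (h : (A : Matrix (Fin 2) (Fin 2) F) = c • 1) :
    A ∈ Subgroup.center (Matrix.SpecialLinearGroup (Fin 2) F) := by
  rw [Subgroup.mem_center_iff]
  intro X
  apply Subtype.ext
  simp only [Matrix.SpecialLinearGroup.coe_mul, h, Matrix.mul_smul, Matrix.smul_mul, mul_one,
    one_mul]

theorem mk_eq_of_smul (A B : Matrix.SpecialLinearGroup (Fin 2) F) (c : F)
    (h : (B : Matrix (Fin 2) (Fin 2) F) = c • (A : Matrix (Fin 2) (Fin 2) F)) :
    (QuotientGroup.mk A : Matrix.ProjectiveSpecialLinearGroup (Fin 2) F) = QuotientGroup.mk B := by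
  rw [QuotientGroup.eq]
  apply mem_center_of_smul _ c
  rw [Matrix.SpecialLinearGroup.coe_mul, h, Matrix.mul_smul, ← Matrix.SpecialLinearGroup.coe_mul,
    inv_mul_cancel, Matrix.SpecialLinearGroup.coe_one]

theorem ker1 (φ : K →+* F) :
    ((QuotientGroup.mk' (Subgroup.center (Matrix.SpecialLinearGroup (Fin 2) F))).comp
      (Matrix.SpecialLinearGroup.map φ)).ker
      = Subgroup.center (Matrix.SpecialLinearGroup (Fin 2) K) := by
  ext A
  rw [MonoidHom.mem_ker, MonoidHom.comp_apply, QuotientGroup.mk'_apply, QuotientGroup.eq_one_iff]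
  constructor
  · intro h
    rw [Matrix.SpecialLinearGroup.mem_center_iff] at h
    obtain ⟨r, hr, hA⟩ := h
    have h1 : φ.mapMatrix (A : Matrix (Fin 2) (Fin 2) K) = r • 1 := by
      rw [← Matrix.SpecialLinearGroup.map_apply_coe, ← hA]
      ext i j
      simp [Matrix.one_apply, Matrix.diagonal_apply]
    exact mem_center_of_smul A _ (scalar_of_map φ A.1 r h1)
  · intro h
    rw [Matrix.SpecialLinearGroup.mem_center_iff] at h
    obtain ⟨r, hr, hA⟩ := h
    apply mem_center_of_smul _ (φ r)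
    rw [Matrix.SpecialLinearGroup.map_apply_coe, ← hA]
    ext i j
    by_cases hij : i = j <;> simp [hij]

end mats

theorem geo (x : ℕ) (hx : Odd x) : ∀ m : ℕ, ∃ S : ℕ, x ^ m = (x - 1) * S + 1 ∧ (Odd S ↔ Odd m) := by
  have hx1 : 1 ≤ x := hx.pos
  intro m
  induction m with
  | zero => exact ⟨0, by simp, by simp⟩
  | succ m ih =>
    obtain ⟨S, hS, hpar⟩ := ih
    refine ⟨x * S + 1, ?_, ?_⟩
    · obtain ⟨y, rfl⟩ : ∃ y, x = y + 1 := ⟨x - 1, by omega⟩
      rw [pow_succ, hS]
      simp only [Nat.add_sub_cancel]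
      ring
    · rw [Nat.odd_add_one, Nat.odd_add_one, ← hpar, Nat.not_odd_iff_even, Nat.not_odd_iff_even,
        Nat.even_mul]
      constructor
      · rintro (h | h)
        · exact absurd h (Nat.not_even_iff_odd.mpr hx)
        · exact h
      · exact fun h => Or.inr h

theorem not_odd_embed {k m q : ℕ} (hk : 2 ≤ k) (hq : q = k ^ m) (hodd : Odd q) (hm : Odd m)
    (N : ℕ) (hN : 2 * N = q * ((q - 1) * (q + 1)))
    (hdiv : k * ((k - 1) * (k + 1)) ∣ N) : False := by
  have hkodd : Odd k := by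
    rw [hq] at hodd
    obtain ⟨j, hj⟩ : ∃ j, m = j + 1 := ⟨m - 1, by have := hm.pos; omega⟩
    rw [hj, pow_succ] at hodd
    exact (Nat.odd_mul.mp hodd).2
  obtain ⟨S, hS, hpar⟩ := geo (k ^ 2) hkodd.pow m
  have hSodd : Odd S := hpar.mpr hm
  obtain ⟨c, hc⟩ := hdiv
  have h1 : (k - 1) * (k + 1) = k ^ 2 - 1 := by
    obtain ⟨y, rfl⟩ : ∃ y, k = y + 1 := ⟨k - 1, by omega⟩
    simp only [Nat.add_sub_cancel]
    have : (y + 1) ^ 2 = y * (y + 1 + 1) + 1 := by ring
    rw [this, Nat.add_sub_cancel]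
  have h2 : (q - 1) * (q + 1) = (k ^ 2 - 1) * S := by
    have hq1 : 1 ≤ q := hodd.pos
    obtain ⟨y, hy⟩ : ∃ y, q = y + 1 := ⟨q - 1, by omega⟩
    have h3 : q ^ 2 = (k ^ 2 - 1) * S + 1 := by rw [← hS, hq]; ring
    have h4 : (q - 1) * (q + 1) + 1 = q ^ 2 := by
      rw [hy]
      simp only [Nat.add_sub_cancel]
      ring
    omega
  have hpos : 0 < k ^ 2 - 1 := by
    have : 2 ^ 2 ≤ k ^ 2 := Nat.pow_le_pow_left hk 2
    omega
  have h5 : (k ^ 2 - 1) * (2 * (k * c)) = (k ^ 2 - 1) * (q * S) := by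
    rw [h2] at hN
    rw [hc, h1] at hN
    calc (k ^ 2 - 1) * (2 * (k * c)) = 2 * (k * (k ^ 2 - 1) * c) := by ring
      _ = q * ((k ^ 2 - 1) * S) := hN
      _ = (k ^ 2 - 1) * (q * S) := by ring
  have h6 : 2 * (k * c) = q * S := Nat.eq_of_mul_eq_mul_left hpos h5
  have h7 : Odd (q * S) := hodd.mul hSodd
  rw [← h6] at h7
  exact (Nat.not_even_iff_odd.mpr h7) (even_two_mul _)

section pgl

variable {F K : Type*} [Field F] [Field K]

theorem sq_exists [Fintype F] [Fintype K] (φ : K →+* F) (hodd : Odd (Fintype.card F)) (m : ℕ)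
    (hm : Even m) (hK : Fintype.card K ^ m = Fintype.card F) (u : K) (hu : u ≠ 0) :
    ∃ s : F, s ≠ 0 ∧ s * s = φ u := by
  have hchar : ringChar F ≠ 2 := by
    intro h
    have := FiniteField.even_card_of_char_two h
    rcases hodd with ⟨r, hr⟩
    omega
  have hφu : φ u ≠ 0 := (map_ne_zero φ).mpr hu
  have hsq : IsSquare (φ u) := by
    rw [FiniteField.isSquare_iff hchar hφu]
    obtain ⟨m', hm'⟩ := hm
    obtain ⟨k, hkdef⟩ : ∃ k, k = Fintype.card K := ⟨_, rfl⟩
    rw [← hkdef] at hK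
    have hq1 : 1 < Fintype.card F := Fintype.one_lt_card
    have hkodd : Odd k := by
      rw [← hK] at hodd
      have hm0 : m ≠ 0 := by
        rintro rfl
        rw [pow_zero] at hK
        omega
      exact (Nat.odd_pow_iff hm0).mp hodd
    have hk1 : φ u ^ (k - 1) = 1 := by
      rw [← map_pow, hkdef, FiniteField.pow_card_sub_one_eq_one u hu, map_one]
    have hdvd : (k - 1) ∣ Fintype.card F / 2 := by
      have h1 : k ^ 2 - 1 ∣ (k ^ 2) ^ m' - 1 ^ m' := Nat.sub_dvd_pow_sub_pow (k ^ 2) 1 m'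
      obtain ⟨e, he⟩ := h1
      obtain ⟨j, hj⟩ := hkodd
      have h2 : k ^ 2 - 1 = (k - 1) * (2 * (j + 1)) := by
        rw [hj]
        simp only [Nat.add_sub_cancel]
        have : (2 * j + 1) ^ 2 = 2 * j * (2 * (j + 1)) + 1 := by ring
        rw [this, Nat.add_sub_cancel]
      have h3 : Fintype.card F = (k ^ 2) ^ m' := by rw [← hK, hm', ← two_mul, pow_mul]
      rw [one_pow, ← h3, h2] at he
      refine ⟨(j + 1) * e, ?_⟩
      have h4 : (k - 1) * (2 * (j + 1)) * e = 2 * ((k - 1) * ((j + 1) * e)) := by ring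
      omega
    obtain ⟨d, hd⟩ := hdvd
    rw [hd, pow_mul, hk1, one_pow]
  obtain ⟨s, hs⟩ := hsq
  refine ⟨s, ?_, hs.symm⟩
  rintro rfl
  rw [mul_zero] at hs
  exact hφu hs

theorem pgl_embed (φ : K →+* F) (s : GL (Fin 2) K → F) (hs0 : ∀ g, s g ≠ 0)
    (hs : ∀ g : GL (Fin 2) K, s g * s g = φ (g : Matrix (Fin 2) (Fin 2) K).det) :
    ∃ Θ : GL (Fin 2) K →* Matrix.ProjectiveSpecialLinearGroup (Fin 2) F,
      Θ.ker = Subgroup.center (GL (Fin 2) K) := by
  have hdet : ∀ g : GL (Fin 2) K,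
      ((s g)⁻¹ • φ.mapMatrix (g : Matrix (Fin 2) (Fin 2) K)).det = 1 := by
    intro g
    rw [Matrix.det_smul, ← RingHom.map_det, ← hs g, Fintype.card_fin]
    have := hs0 g
    field_simp
  obtain ⟨X, hX⟩ : ∃ X : GL (Fin 2) K → Matrix.SpecialLinearGroup (Fin 2) F,
      ∀ g, ((X g : Matrix.SpecialLinearGroup (Fin 2) F) : Matrix (Fin 2) (Fin 2) F)
        = (s g)⁻¹ • φ.mapMatrix (g : Matrix (Fin 2) (Fin 2) K) :=
    ⟨fun g => ⟨_, hdet g⟩, fun g => rfl⟩
  refine ⟨MonoidHom.mk' (fun g =>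
    (QuotientGroup.mk (X g) : Matrix.ProjectiveSpecialLinearGroup (Fin 2) F)) ?_, ?_⟩
  · intro g h
    rw [← QuotientGroup.mk_mul]
    apply mk_eq_of_smul _ _ ((s g)⁻¹ * (s h)⁻¹ * s (g * h))
    rw [Matrix.SpecialLinearGroup.coe_mul, hX, hX, hX, Units.val_mul, map_mul, smul_smul,
      Matrix.smul_mul, Matrix.mul_smul, smul_smul]
    congr 1
    have := hs0 (g * h)
    field_simp
  · ext g
    rw [MonoidHom.mem_ker, MonoidHom.mk'_apply, QuotientGroup.eq_one_iff]
    constructor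
    · intro h
      rw [Matrix.SpecialLinearGroup.mem_center_iff] at h
      obtain ⟨r, hr, hA⟩ := h
      have h1 : φ.mapMatrix (g : Matrix (Fin 2) (Fin 2) K) = (s g * r) • 1 := by
        have h0 : (s g)⁻¹ • φ.mapMatrix (g : Matrix (Fin 2) (Fin 2) K)
            = r • (1 : Matrix (Fin 2) (Fin 2) F) := by
          rw [← hX, ← hA]
          ext i j
          simp [Matrix.one_apply, Matrix.diagonal_apply]
        rw [mul_smul, ← h0, smul_smul, mul_inv_cancel₀ (hs0 g), one_smul]
      have h2 := scalar_of_map φ _ _ h1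
      rw [Subgroup.mem_center_iff]
      intro y
      apply Units.ext
      rw [Units.val_mul, Units.val_mul, h2]
      simp
    · intro h
      rw [Matrix.GeneralLinearGroup.center_eq_range_scalar] at h
      obtain ⟨u, rfl⟩ := h
      apply mem_center_of_smul _ ((s (Matrix.GeneralLinearGroup.scalar (Fin 2) u))⁻¹ * φ u)
      rw [hX]
      ext i j
      by_cases hij : i = j <;> simp [hij]

theorem card_PGL2 [Fintype K] : Nat.card (Matrix.ProjGenLinGroup (Fin 2) K)
    = Fintype.card K * ((Fintype.card K - 1) * (Fintype.card K + 1)) := by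
  classical
  have hinj : Function.Injective
      (Matrix.GeneralLinearGroup.scalar (Fin 2) : Kˣ →* GL (Fin 2) K) := by
    intro a b hab
    have := congrArg (fun x : GL (Fin 2) K => (x : Matrix (Fin 2) (Fin 2) K) 0 0) hab
    simp only [Matrix.GeneralLinearGroup.coe_scalar] at this
    ext
    simpa using this
  have hc : Nat.card (Subgroup.center (GL (Fin 2) K)) = Fintype.card K - 1 := by
    rw [Matrix.GeneralLinearGroup.center_eq_range_scalar]
    rw [Nat.card_congr (MonoidHom.ofInjective hinj).toEquiv.symm, Nat.card_eq_fintype_card,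
      Fintype.card_units]
  have h1 := Subgroup.card_eq_card_quotient_mul_card_subgroup (Subgroup.center (GL (Fin 2) K))
  rw [hc, Matrix.card_GL_field, Fin.prod_univ_two] at h1
  have hk : 1 < Fintype.card K := Fintype.one_lt_card
  obtain ⟨y, hy⟩ : ∃ y, Fintype.card K = y + 2 := ⟨Fintype.card K - 2, by omega⟩
  show Nat.card (GL (Fin 2) K ⧸ Subgroup.center (GL (Fin 2) K)) = _
  rw [hy] at h1 ⊢
  simp only [Fin.val_zero, Fin.val_one, pow_zero, pow_one] at h1
  have e1 : (y + 2) ^ 2 - 1 = (y + 1) * (y + 3) := by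
    have : (y + 2) ^ 2 = (y + 1) * (y + 3) + 1 := by ring
    rw [this, Nat.add_sub_cancel]
  have e2 : (y + 2) ^ 2 - (y + 2) = (y + 1) * (y + 2) := by
    have : (y + 2) ^ 2 = (y + 1) * (y + 2) + (y + 2) := by ring
    rw [this, Nat.add_sub_cancel]
  have e3 : y + 2 - 1 = y + 1 := by omega
  rw [e1, e2, e3] at h1
  rw [e3]
  have h2 : (y + 1) * ((y + 2) * ((y + 1) * (y + 2 + 1)))
      = (y + 1) * Nat.card (GL (Fin 2) K ⧸ Subgroup.center (GL (Fin 2) K)) := by
    rw [mul_comm (y + 1) (Nat.card _), ← h1]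
    ring
  exact (Nat.eq_of_mul_eq_mul_left (by omega) h2).symm

end pgl

theorem result {F K : Type*} [Field F] [Fintype F] [Field K] [Fintype K] {q : ℕ} (hF : Fintype.card F = q) (hodd : Odd q) (m : ℕ) (hm : 1 ≤ m) (hK : Fintype.card K ^ m = q) : (∃ H : Subgroup (Matrix.ProjectiveSpecialLinearGroup (Fin 2) F), Nonempty (H ≃* Matrix.ProjectiveSpecialLinearGroup (Fin 2) K)) ∧ ((∃ H : Subgroup (Matrix.ProjectiveSpecialLinearGroup (Fin 2) F), Nonempty (H ≃* Matrix.ProjGenLinGroup (Fin 2) K)) ↔ Even m) := by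
  subst hF
  obtain ⟨φ⟩ := exists_emb (F := F) (K := K) m hK
  refine ⟨⟨_, range_equiv _ _ (ker1 φ)⟩, ?_, ?_⟩
  · rintro ⟨H, ⟨e⟩⟩
    by_contra hm2
    rw [Nat.not_even_iff_odd] at hm2
    have h2 : (2 : F) ≠ 0 := by
      intro h
      have hchar : ringChar F = 2 := by
        have h3 : ringChar F ∣ 2 := by
          apply (ringChar.spec F 2).mp
          exact_mod_cast h
        rcases (Nat.dvd_prime Nat.prime_two).mp h3 with h4 | h4
        · exfalso
          exact CharP.ringChar_ne_one (R := F) h4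
        · exact h4
      have := FiniteField.even_card_of_char_two hchar
      rcases hodd with ⟨r, hr⟩
      omega
    haveI : Fintype (Matrix.ProjectiveSpecialLinearGroup (Fin 2) F) := Fintype.ofFinite _
    have e4 : Nat.card (Matrix.SpecialLinearGroup (Fin 2) F)
        = 2 * Nat.card (Matrix.ProjectiveSpecialLinearGroup (Fin 2) F) := by
      have h5 := Cfsg.Agent.S0807.card_fiber_sum' (pslMk F)
      simp only [Cfsg.Agent.S0807.card_fibre h2] at h5
      rw [h5, Finset.sum_const, Finset.card_univ, smul_eq_mul, Nat.card_eq_fintype_card, mul_comm]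
    rw [card_SL2_eq] at e4
    have hdiv : Nat.card H ∣ Nat.card (Matrix.ProjectiveSpecialLinearGroup (Fin 2) F) :=
      Subgroup.card_subgroup_dvd_card H
    rw [Nat.card_congr e.toEquiv, card_PGL2] at hdiv
    exact not_odd_embed (Fintype.one_lt_card (α := K)) hK.symm hodd hm2 _ e4.symm hdiv
  · intro hm2
    have hs := fun g : GL (Fin 2) K => sq_exists φ hodd m hm2 hK
      ((g : Matrix (Fin 2) (Fin 2) K).det) (Matrix.isUnits_det_units g).ne_zero
    choose s hs0 hs using hs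
    obtain ⟨Θ, hΘ⟩ := pgl_embed φ s hs0 hs
    exact ⟨Θ.range, range_equiv Θ _ hΘ⟩

end Cfsg.Agent.S0805
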