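import Mathlib
import Cfsg.Agent.S0807

set_option autoImplicit false
open Cfsg

namespace Cfsg.Agent.S0808

open Cfsg.Agent.Lib.Helper15 Cfsg.Agent.Lib.Helper16

section generic

variable {G : Type*} [Group G]

/-- conjugate of a subgroup -/
def cj (g : G) (V : Subgroup G) : Subgroup G := V.map (MulAut.conj g).toMonoidHom

theorem mem_cj (g : G) (V : Subgroup G) (x : G) : x ∈ cj g V ↔ g⁻¹ * x * g ∈ V := by
  unfold cj
  rw [Subgroup.mem_map]
  constructor
  · rintro ⟨v, hv, rfl⟩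
    simpa [mul_assoc] using hv
  · intro h
    exact ⟨_, h, by simp [mul_assoc]⟩

theorem cj_one (V : Subgroup G) : cj 1 V = V := by
  ext x
  simp [mem_cj]

theorem cj_mul (g h : G) (V : Subgroup G) : cj (g * h) V = cj g (cj h V) := by
  ext x
  simp [mem_cj, mul_assoc]

theorem cj_eq_iff (g : G) (V : Subgroup G) :
    cj g V = V ↔ g ∈ Subgroup.normalizer (V : Set G) := by
  rw [Subgroup.mem_normalizer_iff]
  constructor
  · intro h x
    have h1 := mem_cj g V (g * x * g⁻¹)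
    rw [h] at h1
    rw [h1]
    simp [mul_assoc]
  · intro hn
    ext x
    rw [mem_cj, hn (g⁻¹ * x * g)]
    simp [mul_assoc]

theorem card_orbit [Finite G] (V : Subgroup G) :
    Nat.card (Set.range (fun g : G => cj g V)) * Nat.card (Subgroup.normalizer (V : Set G))
      = Nat.card G := by
  classical
  have : Fintype (Set.range (fun g : G => cj g V)) := Fintype.ofFinite _
  obtain ⟨f, hf⟩ : ∃ f : G → Set.range (fun g : G => cj g V), ∀ g, (f g : Subgroup G) = cj g V :=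
    ⟨fun g => ⟨cj g V, g, rfl⟩, fun g => rfl⟩
  rw [Cfsg.Agent.S0807.card_fiber_sum' f]
  have hfib : ∀ o, Nat.card {g // f g = o} = Nat.card (Subgroup.normalizer (V : Set G)) := by
    rintro ⟨_, g, rfl⟩
    apply Nat.card_congr
    refine ⟨fun h => ⟨g⁻¹ * h.1, ?_⟩, fun n => ⟨g * n.1, ?_⟩, ?_, ?_⟩
    · rw [← cj_eq_iff, cj_mul]
      have h1 := congrArg Subtype.val h.2
      rw [hf] at h1
      simp only at h1
      rw [h1, ← cj_mul, inv_mul_cancel, cj_one]
    · apply Subtype.ext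
      rw [hf]
      simp only
      rw [cj_mul, (cj_eq_iff _ _).mpr n.2]
    · intro h
      simp
    · intro n
      simp
  simp only [hfib]
  rw [Finset.sum_const, Finset.card_univ, smul_eq_mul, Nat.card_eq_fintype_card]

theorem cj_klein (g : G) (V : Subgroup G) [IsKleinFour V] : IsKleinFour (cj g V) := by
  have e : V ≃* cj g V := Subgroup.equivMapOfInjective V _ (MulAut.conj g).injective
  exact ⟨by rw [← Nat.card_congr e.toEquiv, IsKleinFour.card_four],
    by rw [← Monoid.exponent_eq_of_mulEquiv e, IsKleinFour.exponent_two]⟩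

theorem klein_elems (V : Subgroup G) [IsKleinFour V] :
    ∃ a b : G, a ∈ V ∧ b ∈ V ∧ a ≠ 1 ∧ b ≠ 1 ∧ a ≠ b ∧
      ∀ x ∈ V, x = 1 ∨ x = a ∨ x = b ∨ x = a * b := by
  classical
  have hfin : Finite V := IsKleinFour.instFinite
  have : Fintype V := Fintype.ofFinite V
  have hc : Fintype.card V = 4 := by rw [← Nat.card_eq_fintype_card, IsKleinFour.card_four]
  obtain ⟨a, ha⟩ : ∃ a : V, a ≠ 1 := by
    by_contra hcon
    push Not at hcon
    have : Fintype.card V ≤ 1 := by
      calc Fintype.card V = (Finset.univ : Finset V).card := Finset.card_univ.symm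
        _ ≤ ({1} : Finset V).card := Finset.card_le_card (fun x _ => by simp [hcon x])
        _ = 1 := Finset.card_singleton _
    omega
  obtain ⟨b, hb1, hba⟩ : ∃ b : V, b ≠ 1 ∧ b ≠ a := by
    by_contra hcon
    push Not at hcon
    have : Fintype.card V ≤ 2 := by
      calc Fintype.card V = (Finset.univ : Finset V).card := Finset.card_univ.symm
        _ ≤ ({1, a} : Finset V).card := Finset.card_le_card (fun x _ => by
            by_cases hx : x = 1
            · simp [hx]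
            · simp [hcon x hx])
        _ ≤ 2 := Finset.card_le_two
    omega
  refine ⟨a.1, b.1, a.2, b.2, fun h => ha (Subtype.ext h), fun h => hb1 (Subtype.ext h),
    fun h => hba (Subtype.ext h).symm, ?_⟩
  intro x hx
  by_cases h1 : (⟨x, hx⟩ : V) = 1
  · exact Or.inl (congrArg Subtype.val h1)
  by_cases h2 : (⟨x, hx⟩ : V) = a
  · exact Or.inr (Or.inl (congrArg Subtype.val h2))
  by_cases h3 : (⟨x, hx⟩ : V) = b
  · exact Or.inr (Or.inr (Or.inl (congrArg Subtype.val h3)))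
  · have := IsKleinFour.eq_mul_of_ne_all ha hb1 (Ne.symm hba) h1 h2 h3
    exact Or.inr (Or.inr (Or.inr (congrArg Subtype.val this)))

/-- the normaliser acts on the non-identity elements by conjugation -/
@[reducible] def actT (V : Subgroup G) :
    MulAction (Subgroup.normalizer (V : Set G)) {t : G // t ∈ V ∧ t ≠ 1} where
  smul n t := ⟨n.1 * t.1 * n.1⁻¹, (Subgroup.mem_normalizer_iff.mp n.2 t.1).mp t.2.1,
    fun h => t.2.2 (conj_eq_one_iff.mp h)⟩
  one_smul t := Subtype.ext (by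
    show (1 : G) * t.1 * (1 : G)⁻¹ = t.1
    simp)
  mul_smul m n t := Subtype.ext (by
    show (m.1 * n.1) * t.1 * (m.1 * n.1)⁻¹ = m.1 * (n.1 * t.1 * n.1⁻¹) * m.1⁻¹
    simp [mul_assoc])

theorem card_T [Finite G] (V : Subgroup G) [IsKleinFour V] :
    Nat.card {t : G // t ∈ V ∧ t ≠ 1} = 3 := by
  have h1 : Nat.card {t : G // t ∈ V ∧ t ≠ 1} = Set.ncard ((V : Set G) \ {1}) := by
    rw [← Nat.card_coe_set_eq]
    rfl
  rw [h1, Set.ncard_sdiff_singleton_of_mem (Subgroup.one_mem V), ← Nat.card_coe_set_eq]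
  have : Nat.card (V : Set G) = 4 := IsKleinFour.card_four (G := V)
  rw [this]

end generic

section field

variable {F : Type*} [Field F]

theorem field_core (h2 : (2 : F) ≠ 0) (a b c e f g y1 y2 y3 y4 : F)
    (dA : -a * a - b * c = 1) (dB : -e * e - f * g = 1)
    (E1 : y1 * b + y2 * (-a) = a * y2 + b * y4)
    (E2 : y3 * a + y4 * c = c * y1 + (-a) * y3)
    (E3 : y1 * a + y2 * c = a * y1 + b * y3)
    (E4 : y1 * f + y2 * (-e) = e * y2 + f * y4)
    (E5 : y3 * e + y4 * g = g * y1 + (-e) * y3)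
    (E6 : y1 * e + y2 * g = e * y1 + f * y3)
    (E7 : e * a + f * c = -(a * e + b * g)) : y2 = 0 ∧ y3 = 0 ∧ y1 = y4 := by
  obtain ⟨δ, hδ⟩ : ∃ δ, δ = y1 - y4 := ⟨_, rfl⟩
  obtain ⟨τA, hτA⟩ : ∃ τA, τA = a * δ + c * y2 + b * y3 := ⟨_, rfl⟩
  obtain ⟨τB, hτB⟩ : ∃ τB, τB = e * δ + g * y2 + f * y3 := ⟨_, rfl⟩
  have hA1 : 2 * δ + 2 * a * τA = 0 := by
    rw [hτA, hδ]
    linear_combination (-2 * (y1 - y4)) * dA - c * E1 + b * E2
  have hA2 : 2 * y2 + b * τA = 0 := by
    rw [hτA, hδ]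
    linear_combination a * E1 - b * E3 - 2 * y2 * dA
  have hA3 : 2 * y3 + c * τA = 0 := by
    rw [hτA, hδ]
    linear_combination -a * E2 + c * E3 - 2 * y3 * dA
  have hB1 : 2 * δ + 2 * e * τB = 0 := by
    rw [hτB, hδ]
    linear_combination (-2 * (y1 - y4)) * dB - g * E4 + f * E5
  have hB2 : 2 * y2 + f * τB = 0 := by
    rw [hτB, hδ]
    linear_combination e * E4 - f * E6 - 2 * y2 * dB
  have hB3 : 2 * y3 + g * τB = 0 := by
    rw [hτB, hδ]
    linear_combination -e * E5 + g * E6 - 2 * y3 * dB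
  have hτ : 2 * τB = 0 := by
    rw [hτB]
    linear_combination e * hA1 + g * hA2 + f * hA3 - τA * E7
  have hτ0 : τB = 0 := by
    rcases mul_eq_zero.mp hτ with h | h
    · exact absurd h h2
    · exact h
  rw [hτ0, mul_zero, add_zero] at hB1 hB2 hB3
  have hδ0 : δ = 0 := by
    rcases mul_eq_zero.mp hB1 with h | h
    · exact absurd h h2
    · exact h
  refine ⟨?_, ?_, ?_⟩
  · rcases mul_eq_zero.mp hB2 with h | h
    · exact absurd h h2
    · exact h
  · rcases mul_eq_zero.mp hB3 with h | h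
    · exact absurd h h2
    · exact h
  · rw [hδ] at hδ0
    exact sub_eq_zero.mp hδ0

end field

section psl

variable {F : Type*} [Field F]

theorem cent_core (h2 : (2 : F) ≠ 0) (A B Y : Matrix.SpecialLinearGroup (Fin 2) F)
    (hA : A * A = -1) (hB : B * B = -1) (hAB : B * A * B⁻¹ = -A)
    (h1 : Y * A * Y⁻¹ = A) (h3 : Y * B * Y⁻¹ = B) : Y = 1 ∨ Y = -1 := by
  apply sl2_scalar_cases
  have tA := Cfsg.Agent.S0809.tr0 A hA
  have tB := Cfsg.Agent.S0809.tr0 B hB
  rw [Matrix.trace_fin_two] at tA tB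
  have dA := sl2_det_eq A
  have dB := sl2_det_eq B
  have c1 : Y * A = A * Y := mul_inv_eq_iff_eq_mul.mp h1
  have c2 : Y * B = B * Y := mul_inv_eq_iff_eq_mul.mp h3
  have c3 : B * A = -(A * B) := by
    rw [← neg_mul]
    exact mul_inv_eq_iff_eq_mul.mp hAB
  have hd : (A : Matrix (Fin 2) (Fin 2) F) 1 1 = -(A : Matrix (Fin 2) (Fin 2) F) 0 0 := by
    linear_combination tA
  have hh : (B : Matrix (Fin 2) (Fin 2) F) 1 1 = -(B : Matrix (Fin 2) (Fin 2) F) 0 0 := by
    linear_combination tB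
  have e1 := fun i j => congrArg
    (fun M : Matrix.SpecialLinearGroup (Fin 2) F => (M : Matrix (Fin 2) (Fin 2) F) i j) c1
  have e2 := fun i j => congrArg
    (fun M : Matrix.SpecialLinearGroup (Fin 2) F => (M : Matrix (Fin 2) (Fin 2) F) i j) c2
  have e3 := congrArg
    (fun M : Matrix.SpecialLinearGroup (Fin 2) F => (M : Matrix (Fin 2) (Fin 2) F) 0 0) c3
  simp only [sl2_mul_entry] at e1 e2
  simp only [Matrix.SpecialLinearGroup.coe_neg, Matrix.neg_apply, sl2_mul_entry] at e3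
  have E1 := e1 0 1
  have E2 := e1 1 0
  have E3 := e1 0 0
  have E4 := e2 0 1
  have E5 := e2 1 0
  have E6 := e2 0 0
  rw [hd] at E1 E2 dA
  rw [hh] at E4 E5 dB
  exact field_core h2 _ _ _ _ _ _ _ _ _ _ (by linear_combination dA) (by linear_combination dB)
    E1 E2 E3 E4 E5 E6 e3

theorem cent_psl (h2 : (2 : F) ≠ 0) (a b x : Matrix.ProjectiveSpecialLinearGroup (Fin 2) F)
    (ha1 : a ≠ 1) (hb1 : b ≠ 1) (hab : a ≠ b) (ha : a * a = 1) (hb : b * b = 1)
    (hc : a * b = b * a) (hxa : x * a = a * x) (hxb : x * b = b * x) :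
    x = 1 ∨ x = a ∨ x = b ∨ x = a * b := by
  obtain ⟨A, rfl⟩ := pslMk_surjective a
  obtain ⟨B, rfl⟩ := pslMk_surjective b
  obtain ⟨Y, rfl⟩ := pslMk_surjective x
  have hA : A * A = -1 := Cfsg.Agent.S0807.sq_neg_of_psl h2 A ha1 ha
  have hB : B * B = -1 := Cfsg.Agent.S0807.sq_neg_of_psl h2 B hb1 hb
  have hAB : B * A * B⁻¹ = -A := Cfsg.Agent.S0807.anti_of_pairs h2 A B hA hB hab hc
  have hBA : A * B * A⁻¹ = -B := by
    have c3 : B * A = -(A * B) := by
      rw [← neg_mul]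
      exact mul_inv_eq_iff_eq_mul.mp hAB
    rw [mul_inv_eq_iff_eq_mul, neg_mul, c3, neg_neg]
  have sA : Y * A * Y⁻¹ = A ∨ Y * A * Y⁻¹ = -A := by
    apply (pslMk_eq_iff A (Y * A * Y⁻¹)).mp
    rw [map_mul, map_mul, map_inv, hxa, mul_inv_cancel_right]
  have sB : Y * B * Y⁻¹ = B ∨ Y * B * Y⁻¹ = -B := by
    apply (pslMk_eq_iff B (Y * B * Y⁻¹)).mp
    rw [map_mul, map_mul, map_inv, hxb, mul_inv_cancel_right]
  have key : ∀ Z : Matrix.SpecialLinearGroup (Fin 2) F, Z * A * Z⁻¹ = A → Z * B * Z⁻¹ = B →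
      pslMk F Z = 1 := by
    intro Z hZA hZB
    rw [pslMk_eq_one_iff]
    exact cent_core h2 A B Z hA hB hAB hZA hZB
  have ia : (pslMk F A)⁻¹ = pslMk F A := inv_eq_of_mul_eq_one_left ha
  have ib : (pslMk F B)⁻¹ = pslMk F B := inv_eq_of_mul_eq_one_left hb
  rcases sA with sA | sA <;> rcases sB with sB | sB
  · exact Or.inl (key Y sA sB)
  · -- commutes with A, anticommutes with B: use Y * A
    right; left
    have h := key (Y * A) (by
      rw [mul_inv_rev]
      calc Y * A * A * (A⁻¹ * Y⁻¹) = Y * A * Y⁻¹ := by group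
        _ = A := sA) (by
      rw [mul_inv_rev]
      calc Y * A * B * (A⁻¹ * Y⁻¹) = Y * (A * B * A⁻¹) * Y⁻¹ := by group
        _ = B := by rw [hBA, mul_neg, neg_mul, sB, neg_neg])
    rw [map_mul] at h
    rw [eq_inv_of_mul_eq_one_left h, ia]
  · right; right; left
    have h := key (Y * B) (by
      rw [mul_inv_rev]
      calc Y * B * A * (B⁻¹ * Y⁻¹) = Y * (B * A * B⁻¹) * Y⁻¹ := by group
        _ = A := by rw [hAB, mul_neg, neg_mul, sA, neg_neg]) (by
      rw [mul_inv_rev]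
      calc Y * B * B * (B⁻¹ * Y⁻¹) = Y * B * Y⁻¹ := by group
        _ = B := sB)
    rw [map_mul] at h
    rw [eq_inv_of_mul_eq_one_left h, ib]
  · right; right; right
    have h := key (Y * (A * B)) (by
      rw [mul_inv_rev, mul_inv_rev]
      calc Y * (A * B) * A * (B⁻¹ * A⁻¹ * Y⁻¹) = Y * (A * (B * A * B⁻¹) * A⁻¹) * Y⁻¹ := by group
        _ = Y * (-A) * Y⁻¹ := by
          rw [hAB]
          congr 2
          rw [mul_neg, neg_mul, mul_inv_cancel_right]
        _ = A := by rw [mul_neg, neg_mul, sA, neg_neg]) (by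
      rw [mul_inv_rev, mul_inv_rev]
      calc Y * (A * B) * B * (B⁻¹ * A⁻¹ * Y⁻¹) = Y * (A * B * A⁻¹) * Y⁻¹ := by group
        _ = B := by rw [hBA, mul_neg, neg_mul, sB, neg_neg])
    rw [map_mul, map_mul] at h
    rw [eq_inv_of_mul_eq_one_left h, mul_inv_rev, ia, ib, hc]

end psl

section main

theorem klein_sylow {G : Type*} [Group G] [Finite G] (h8 : ¬ 8 ∣ Nat.card G) (V : Subgroup G)
    [IsKleinFour V] : ∃ P : Sylow 2 G, (P : Subgroup G) = V := by
  have hp : IsPGroup 2 V := IsPGroup.of_card (n := 2) IsKleinFour.card_four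
  obtain ⟨P, hle⟩ := hp.exists_le_sylow
  refine ⟨P, ?_⟩
  obtain ⟨n, hn⟩ := IsPGroup.iff_card.mp P.2
  have hdvd : Nat.card P ∣ Nat.card G := Subgroup.card_subgroup_dvd_card _
  have hn2 : n ≤ 2 := by
    by_contra hcon
    push Not at hcon
    apply h8
    refine dvd_trans ?_ hdvd
    rw [hn]
    exact pow_dvd_pow 2 (show 3 ≤ n by omega)
  have hcard : Nat.card P ≤ Nat.card V := by
    rw [hn, IsKleinFour.card_four]
    calc 2 ^ n ≤ 2 ^ 2 := Nat.pow_le_pow_right (by norm_num) hn2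
      _ = 4 := by norm_num
  exact (Subgroup.eq_of_le_of_card_ge hle hcard).symm

theorem sylow_conj {G : Type*} [Group G] [Finite G] (P Q : Sylow 2 G) :
    ∃ g : G, (Q : Subgroup G) = cj g (P : Subgroup G) := by
  obtain ⟨g, hg⟩ := MulAction.exists_smul_eq G P Q
  refine ⟨g, ?_⟩
  rw [← hg]
  ext x
  rw [Sylow.coe_subgroup_smul, mem_cj, Subgroup.mem_pointwise_smul_iff_inv_smul_mem]
  simp [MulAut.smul_def, mul_assoc]

theorem arith_not8 (q N : ℕ) (h : q * ((q - 1) * (q + 1)) = 2 * N)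
    (hq : q % 8 = 3 ∨ q % 8 = 5) : ¬ 8 ∣ N := by
  rcases hq with hq | hq
  · obtain ⟨j, rfl⟩ : ∃ j, q = 8 * j + 3 := ⟨q / 8, by omega⟩
    have h1 : (8 * j + 3) * ((8 * j + 3 - 1) * (8 * j + 3 + 1))
        = 8 * ((8 * j + 3) * ((4 * j + 1) * (2 * j + 1))) := by
      have : 8 * j + 3 - 1 = 8 * j + 2 := by omega
      rw [this]
      ring
    have hodd : Odd ((8 * j + 3) * ((4 * j + 1) * (2 * j + 1))) :=
      Odd.mul ⟨4 * j + 1, by ring⟩ (Odd.mul ⟨2 * j, by ring⟩ ⟨j, by ring⟩)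
    obtain ⟨X, hX⟩ : ∃ X, X = (8 * j + 3) * ((4 * j + 1) * (2 * j + 1)) := ⟨_, rfl⟩
    rw [← hX] at h1 hodd
    rintro ⟨m, hm⟩
    obtain ⟨r, hr⟩ := hodd
    omega
  · obtain ⟨j, rfl⟩ : ∃ j, q = 8 * j + 5 := ⟨q / 8, by omega⟩
    have h1 : (8 * j + 5) * ((8 * j + 5 - 1) * (8 * j + 5 + 1))
        = 8 * ((8 * j + 5) * ((2 * j + 1) * (4 * j + 3))) := by
      have : 8 * j + 5 - 1 = 8 * j + 4 := by omega
      rw [this]
      ring
    have hodd : Odd ((8 * j + 5) * ((2 * j + 1) * (4 * j + 3))) :=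
      Odd.mul ⟨4 * j + 2, by ring⟩ (Odd.mul ⟨j, by ring⟩ ⟨2 * j + 1, by ring⟩)
    obtain ⟨X, hX⟩ : ∃ X, X = (8 * j + 5) * ((2 * j + 1) * (4 * j + 3)) := ⟨_, rfl⟩
    rw [← hX] at h1 hodd
    rintro ⟨m, hm⟩
    obtain ⟨r, hr⟩ := hodd
    omega

theorem arith_8 (q N : ℕ) (h : q * ((q - 1) * (q + 1)) = 2 * N)
    (hq : q % 8 = 1 ∨ q % 8 = 7) : 8 ∣ N := by
  rcases hq with hq | hq
  · obtain ⟨j, rfl⟩ : ∃ j, q = 8 * j + 1 := ⟨q / 8, by omega⟩
    have h1 : (8 * j + 1) * ((8 * j + 1 - 1) * (8 * j + 1 + 1))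
        = 16 * ((8 * j + 1) * (j * (4 * j + 1))) := by
      have : 8 * j + 1 - 1 = 8 * j := by omega
      rw [this]
      ring
    obtain ⟨X, hX⟩ : ∃ X, X = (8 * j + 1) * (j * (4 * j + 1)) := ⟨_, rfl⟩
    rw [← hX] at h1
    exact ⟨X, by omega⟩
  · obtain ⟨j, rfl⟩ : ∃ j, q = 8 * j + 7 := ⟨q / 8, by omega⟩
    have h1 : (8 * j + 7) * ((8 * j + 7 - 1) * (8 * j + 7 + 1))
        = 16 * ((8 * j + 7) * ((4 * j + 3) * (j + 1))) := by
      have : 8 * j + 7 - 1 = 8 * j + 6 := by omega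
      rw [this]
      ring
    obtain ⟨X, hX⟩ : ∃ X, X = (8 * j + 7) * ((4 * j + 3) * (j + 1)) := ⟨_, rfl⟩
    rw [← hX] at h1
    exact ⟨X, by omega⟩

variable {F : Type*} [Field F] [Fintype F]

theorem card_norm_dvd (h2 : (2 : F) ≠ 0)
    (V : Subgroup (Matrix.ProjectiveSpecialLinearGroup (Fin 2) F)) [IsKleinFour V] :
    Nat.card (Subgroup.normalizer
      (V : Set (Matrix.ProjectiveSpecialLinearGroup (Fin 2) F))) ∣ 24 := by
  classical
  obtain ⟨a, b, haV, hbV, ha1, hb1, hab, hall⟩ := klein_elems V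
  letI := actT V
  obtain ⟨ρ, hρ⟩ : ∃ ρ : Subgroup.normalizer
      (V : Set (Matrix.ProjectiveSpecialLinearGroup (Fin 2) F)) →*
      Equiv.Perm {t : Matrix.ProjectiveSpecialLinearGroup (Fin 2) F // t ∈ V ∧ t ≠ 1},
      ∀ n t, ((ρ n t : {t : Matrix.ProjectiveSpecialLinearGroup (Fin 2) F // t ∈ V ∧ t ≠ 1}) :
        Matrix.ProjectiveSpecialLinearGroup (Fin 2) F) = n.1 * t.1 * n.1⁻¹ :=
    ⟨MulAction.toPermHom _ _, fun n t => rfl⟩
  have h1 := Subgroup.card_eq_card_quotient_mul_card_subgroup ρ.ker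
  have h3 : Nat.card (Subgroup.normalizer
      (V : Set (Matrix.ProjectiveSpecialLinearGroup (Fin 2) F)) ⧸ ρ.ker) ∣ 6 := by
    rw [Nat.card_congr (QuotientGroup.quotientKerEquivRange ρ).toEquiv]
    have h5 := Subgroup.card_subgroup_dvd_card ρ.range
    rw [Nat.card_perm, card_T V] at h5
    exact h5
  have h4 : Nat.card ρ.ker ∣ 4 := by
    have hle : ρ.ker.map (Subgroup.subtype _) ≤ V := by
      rintro _ ⟨n, hn, rfl⟩
      have hfix : ∀ t : {t : Matrix.ProjectiveSpecialLinearGroup (Fin 2) F // t ∈ V ∧ t ≠ 1},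
          n.1 * t.1 * n.1⁻¹ = t.1 := fun t => by
        rw [← hρ n t, MonoidHom.mem_ker.mp hn]
        rfl
      have hxa : n.1 * a = a * n.1 := mul_inv_eq_iff_eq_mul.mp (hfix ⟨a, haV, ha1⟩)
      have hxb : n.1 * b = b * n.1 := mul_inv_eq_iff_eq_mul.mp (hfix ⟨b, hbV, hb1⟩)
      rw [Subgroup.coe_subtype]
      rcases cent_psl h2 a b n.1 ha1 hb1 hab (Cfsg.Agent.S0807.klein_sq V a haV)
        (Cfsg.Agent.S0807.klein_sq V b hbV) (Cfsg.Agent.S0807.klein_comm V a b haV hbV)
        hxa hxb with h | h | h | h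
      · rw [h]; exact one_mem V
      · rw [h]; exact haV
      · rw [h]; exact hbV
      · rw [h]; exact mul_mem haV hbV
    have h5 := Subgroup.card_dvd_of_le hle
    rw [Subgroup.card_map_of_injective (Subgroup.subtype_injective _)] at h5
    rw [IsKleinFour.card_four (G := V)] at h5
    exact h5
  rw [h1]
  exact Nat.mul_dvd_mul h3 h4

theorem result {F : Type*} [Field F] [Fintype F] {q : ℕ} (hF : Fintype.card F = q) (hodd : Odd q) : ((q % 8 = 3 ∨ q % 8 = 5) → ∀ V W : Subgroup (Matrix.ProjectiveSpecialLinearGroup (Fin 2) F), IsKleinFour V → IsKleinFour W → ∃ g : Matrix.ProjectiveSpecialLinearGroup (Fin 2) F, W = V.map (MulAut.conj g).toMonoidHom) ∧ ((q % 8 = 1 ∨ q % 8 = 7) → ∃ V₁ V₂ : Subgroup (Matrix.ProjectiveSpecialLinearGroup (Fin 2) F), IsKleinFour V₁ ∧ IsKleinFour V₂ ∧ (¬ ∃ g : Matrix.ProjectiveSpecialLinearGroup (Fin 2) F, V₂ = V₁.map (MulAut.conj g).toMonoidHom) ∧ ∀ W : Subgroup (Matrix.ProjectiveSpecialLinearGroup (Fin 2) F), IsKleinFour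 W → (∃ g : Matrix.ProjectiveSpecialLinearGroup (Fin 2) F, W = V₁.map (MulAut.conj g).toMonoidHom) ∨ (∃ g : Matrix.ProjectiveSpecialLinearGroup (Fin 2) F, W = V₂.map (MulAut.conj g).toMonoidHom)) := by
  classical
  have h2 : (2 : F) ≠ 0 := by
    intro h
    have hchar : ringChar F = 2 := by
      have h3 : ringChar F ∣ 2 := by
        apply (ringChar.spec F 2).mp
        exact_mod_cast h
      rcases (Nat.dvd_prime Nat.prime_two).mp h3 with h4 | h4
      · exfalso
        exact CharP.ringChar_ne_one (R := F) h4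
      · exact h4
    have := FiniteField.even_card_of_char_two hchar
    rw [hF] at this
    rcases hodd with ⟨r, hr⟩
    omega
  haveI : Fintype (Matrix.ProjectiveSpecialLinearGroup (Fin 2) F) := Fintype.ofFinite _
  have e4 : Nat.card (Matrix.SpecialLinearGroup (Fin 2) F)
      = 2 * Nat.card (Matrix.ProjectiveSpecialLinearGroup (Fin 2) F) := by
    have h5 := Cfsg.Agent.S0807.card_fiber_sum' (pslMk F)
    simp only [Cfsg.Agent.S0807.card_fibre h2] at h5
    rw [h5, Finset.sum_const, Finset.card_univ, smul_eq_mul, Nat.card_eq_fintype_card, mul_comm]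
  rw [card_SL2_eq, hF] at e4
  have hK := Cfsg.Agent.S0807.result (F := F) hF hodd
  have hNpos : 0 < Nat.card (Matrix.ProjectiveSpecialLinearGroup (Fin 2) F) := Nat.card_pos
  refine ⟨?_, ?_⟩
  · intro hq V W hV hW
    have h8 := arith_not8 q _ e4 hq
    obtain ⟨P, hP⟩ := klein_sylow h8 V
    obtain ⟨Q, hQ⟩ := klein_sylow h8 W
    obtain ⟨g, hg⟩ := sylow_conj P Q
    rw [hP, hQ] at hg
    exact ⟨g, hg⟩
  · intro hq
    have h8 := arith_8 q _ e4 hq
    have horb : ∀ V : Subgroup (Matrix.ProjectiveSpecialLinearGroup (Fin 2) F), IsKleinFour V →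
        2 * Nat.card (Set.range (fun g : Matrix.ProjectiveSpecialLinearGroup (Fin 2) F => cj g V))
          = Nat.card {V : Subgroup (Matrix.ProjectiveSpecialLinearGroup (Fin 2) F) //
              IsKleinFour V} := by
      intro V hV
      have hd := card_norm_dvd h2 V
      have h8N := Sylow.prime_pow_dvd_card_normalizer (p := 2) (n := 2) (H := V)
        (by simpa using h8) IsKleinFour.card_four
      have ho := card_orbit V
      have hle : Nat.card (Set.range
            (fun g : Matrix.ProjectiveSpecialLinearGroup (Fin 2) F => cj g V))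
          ≤ Nat.card {V : Subgroup (Matrix.ProjectiveSpecialLinearGroup (Fin 2) F) //
              IsKleinFour V} := by
        apply Nat.card_le_card_of_injective (fun o : Set.range
            (fun g : Matrix.ProjectiveSpecialLinearGroup (Fin 2) F => cj g V) =>
          (⟨o.1, by
            obtain ⟨g, hg⟩ := o.2
            rw [← hg]
            exact cj_klein g V⟩ :
            {V : Subgroup (Matrix.ProjectiveSpecialLinearGroup (Fin 2) F) // IsKleinFour V}))
        intro o1 o2 h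
        have h' : (o1 : Subgroup (Matrix.ProjectiveSpecialLinearGroup (Fin 2) F)) = o2 :=
          congrArg (fun x : {V : Subgroup (Matrix.ProjectiveSpecialLinearGroup (Fin 2) F) //
            IsKleinFour V} => x.1) h
        exact Subtype.ext h'
      obtain ⟨n, hn⟩ : ∃ n, n = Nat.card (Subgroup.normalizer
          (V : Set (Matrix.ProjectiveSpecialLinearGroup (Fin 2) F))) := ⟨_, rfl⟩
      rw [← hn] at hd h8N ho
      have hn24 : n ≤ 24 := Nat.le_of_dvd (by norm_num) hd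
      obtain ⟨c, hc⟩ := h8N
      have hc' : n = 8 * c := by rw [hc]; norm_num
      have hc3 : c ≤ 3 := by omega
      interval_cases c
      · rw [hc'] at hd
        norm_num at hd
      · rw [hc'] at ho
        omega
      · rw [hc'] at hd
        norm_num at hd
      · rw [hc'] at ho
        omega
    have hsub : ∀ V : Subgroup (Matrix.ProjectiveSpecialLinearGroup (Fin 2) F), IsKleinFour V →
        Set.range (fun g : Matrix.ProjectiveSpecialLinearGroup (Fin 2) F => cj g V)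
          ⊆ {V | IsKleinFour V} := by
      rintro V hV _ ⟨g, rfl⟩
      exact cj_klein g V
    have hKc : Set.ncard {V : Subgroup (Matrix.ProjectiveSpecialLinearGroup (Fin 2) F) |
        IsKleinFour V} = Nat.card {V : Subgroup (Matrix.ProjectiveSpecialLinearGroup (Fin 2) F) //
          IsKleinFour V} := (Nat.card_coe_set_eq _).symm
    have hkpos : 0 < Nat.card {V : Subgroup (Matrix.ProjectiveSpecialLinearGroup (Fin 2) F) //
        IsKleinFour V} := by omega
    obtain ⟨⟨V₁, hV₁⟩⟩ := (Nat.card_pos_iff.mp hkpos).1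
    have hO₁ := horb V₁ hV₁
    have hlt : (Set.range
        (fun g : Matrix.ProjectiveSpecialLinearGroup (Fin 2) F => cj g V₁)).ncard
        < Set.ncard {V : Subgroup (Matrix.ProjectiveSpecialLinearGroup (Fin 2) F) |
          IsKleinFour V} := by
      rw [hKc, ← Nat.card_coe_set_eq]
      omega
    obtain ⟨V₂, hV₂K, hV₂⟩ := Set.exists_mem_notMem_of_ncard_lt_ncard hlt
    have hO₂ := horb V₂ hV₂K
    have hdisj : Disjoint
        (Set.range (fun g : Matrix.ProjectiveSpecialLinearGroup (Fin 2) F => cj g V₁))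
        (Set.range (fun g : Matrix.ProjectiveSpecialLinearGroup (Fin 2) F => cj g V₂)) := by
      rw [Set.disjoint_left]
      rintro _ ⟨g, rfl⟩ ⟨h, hh⟩
      apply hV₂
      refine ⟨h⁻¹ * g, ?_⟩
      simp only at hh ⊢
      rw [cj_mul, ← hh, ← cj_mul, inv_mul_cancel, cj_one]
    have hun : Set.range (fun g : Matrix.ProjectiveSpecialLinearGroup (Fin 2) F => cj g V₁)
        ∪ Set.range (fun g : Matrix.ProjectiveSpecialLinearGroup (Fin 2) F => cj g V₂)
        = {V : Subgroup (Matrix.ProjectiveSpecialLinearGroup (Fin 2) F) | IsKleinFour V} := by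
      apply Set.eq_of_subset_of_ncard_le (Set.union_subset (hsub V₁ hV₁) (hsub V₂ hV₂K))
      rw [Set.ncard_union_eq hdisj, hKc, ← Nat.card_coe_set_eq, ← Nat.card_coe_set_eq]
      omega
    refine ⟨V₁, V₂, hV₁, hV₂K, ?_, ?_⟩
    · rintro ⟨g, hg⟩
      exact hV₂ ⟨g, hg.symm⟩
    · intro W hW
      have hWK : W ∈ {V : Subgroup (Matrix.ProjectiveSpecialLinearGroup (Fin 2) F) |
          IsKleinFour V} := hW
      rw [← hun] at hWK
      rcases hWK with ⟨g, hg⟩ | ⟨g, hg⟩
      · exact Or.inl ⟨g, hg.symm⟩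
      · exact Or.inr ⟨g, hg.symm⟩

end main

end Cfsg.Agent.S0808
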