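import Mathlib
import Cfsg.Agent.S0808
import Cfsg.Agent.S0805
import Cfsg.Agent.S0228
import Cfsg.Agent.S0252
import Cfsg.Agent.Lib.Helper16.PSL2Order

set_option autoImplicit false
open Cfsg

namespace Cfsg.Agent.S0802

open Cfsg.Agent.Lib.Helper15 Cfsg.Agent.Lib.Helper16

section chartwo

variable {F : Type*} [Field F]

/-- the standard transvection -/
def EE (F : Type*) [Field F] : Matrix.SpecialLinearGroup (Fin 2) F :=
  ⟨!![1, 1; 0, 1], by simp [Matrix.det_fin_two]⟩

theorem EE_00 : ((EE F : Matrix.SpecialLinearGroup (Fin 2) F) : Matrix (Fin 2) (Fin 2) F) 0 0 = 1 := rfl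
theorem EE_01 : ((EE F : Matrix.SpecialLinearGroup (Fin 2) F) : Matrix (Fin 2) (Fin 2) F) 0 1 = 1 := rfl
theorem EE_10 : ((EE F : Matrix.SpecialLinearGroup (Fin 2) F) : Matrix (Fin 2) (Fin 2) F) 1 0 = 0 := rfl
theorem EE_11 : ((EE F : Matrix.SpecialLinearGroup (Fin 2) F) : Matrix (Fin 2) (Fin 2) F) 1 1 = 1 := rfl

theorem one_00 : ((1 : Matrix.SpecialLinearGroup (Fin 2) F) : Matrix (Fin 2) (Fin 2) F) 0 0 = 1 := rfl
theorem one_01 : ((1 : Matrix.SpecialLinearGroup (Fin 2) F) : Matrix (Fin 2) (Fin 2) F) 0 1 = 0 := rfl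
theorem one_10 : ((1 : Matrix.SpecialLinearGroup (Fin 2) F) : Matrix (Fin 2) (Fin 2) F) 1 0 = 0 := rfl
theorem one_11 : ((1 : Matrix.SpecialLinearGroup (Fin 2) F) : Matrix (Fin 2) (Fin 2) F) 1 1 = 1 := rfl

/-- normal form computation -/
theorem std_case (h2 : (2 : F) = 0) (B X : Matrix.SpecialLinearGroup (Fin 2) F)
    (hB1 : B ≠ 1) (hc : EE F * B = B * EE F)
    (hX3 : X * X * X = 1) (hX1 : X ≠ 1) (hX : X * EE F = B * X) :
    ∃ u : F, u ≠ 1 ∧ u ^ 3 = 1 := by
  have dB := sl2_det_eq B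
  have dX := sl2_det_eq X
  have c00 := congrArg
    (fun M : Matrix.SpecialLinearGroup (Fin 2) F => (M : Matrix (Fin 2) (Fin 2) F) 0 0) hc
  have c01 := congrArg
    (fun M : Matrix.SpecialLinearGroup (Fin 2) F => (M : Matrix (Fin 2) (Fin 2) F) 0 1) hc
  simp only [sl2_mul_entry, EE_00, EE_01, EE_10, EE_11, one_mul, mul_one, mul_zero, zero_mul,
    add_zero, zero_add] at c00 c01
  have b10 : (B : Matrix (Fin 2) (Fin 2) F) 1 0 = 0 := by linear_combination c00
  have b11 : (B : Matrix (Fin 2) (Fin 2) F) 1 1 = (B : Matrix (Fin 2) (Fin 2) F) 0 0 := by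
    linear_combination c01
  rw [b10, b11, mul_zero, sub_zero] at dB
  have b00 : (B : Matrix (Fin 2) (Fin 2) F) 0 0 = 1 := by
    have : ((B : Matrix (Fin 2) (Fin 2) F) 0 0 - 1) * ((B : Matrix (Fin 2) (Fin 2) F) 0 0 - 1)
        = 0 := by
      linear_combination dB + (1 - (B : Matrix (Fin 2) (Fin 2) F) 0 0) * h2
    rcases mul_eq_zero.mp this with h | h <;> exact sub_eq_zero.mp h
  rw [b00] at b11
  have b01 : (B : Matrix (Fin 2) (Fin 2) F) 0 1 ≠ 0 := by
    intro h
    apply hB1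
    apply sl2_ext
    · rw [b00, one_00]
    · rw [h, one_01]
    · rw [b10, one_10]
    · rw [b11, one_11]
  have x00 := congrArg
    (fun M : Matrix.SpecialLinearGroup (Fin 2) F => (M : Matrix (Fin 2) (Fin 2) F) 0 0) hX
  simp only [sl2_mul_entry, EE_00, EE_01, EE_10, EE_11, one_mul, mul_one, mul_zero, zero_mul,
    add_zero, zero_add, b00, b10, b11] at x00
  have x10 : (X : Matrix (Fin 2) (Fin 2) F) 1 0 = 0 := by
    have : (B : Matrix (Fin 2) (Fin 2) F) 0 1 * (X : Matrix (Fin 2) (Fin 2) F) 1 0 = 0 := by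
      linear_combination -x00
    rcases mul_eq_zero.mp this with h | h
    · exact absurd h b01
    · exact h
  rw [x10, mul_zero, sub_zero] at dX
  have h3 := congrArg
    (fun M : Matrix.SpecialLinearGroup (Fin 2) F => (M : Matrix (Fin 2) (Fin 2) F) 0 0) hX3
  simp only [sl2_mul_entry, x10, mul_zero, add_zero, one_00] at h3
  refine ⟨(X : Matrix (Fin 2) (Fin 2) F) 0 0, ?_, by linear_combination h3⟩
  intro hp
  rw [hp, one_mul] at dX
  apply hX1
  have hXX : X * X = 1 := by
    apply sl2_ext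
    · simp only [sl2_mul_entry, x10, hp, one_00]; ring
    · simp only [sl2_mul_entry, x10, hp, dX, one_01]
      linear_combination (X : Matrix (Fin 2) (Fin 2) F) 0 1 * h2
    · simp only [sl2_mul_entry, x10, hp, dX, one_10]; ring
    · simp only [sl2_mul_entry, x10, hp, dX, one_11]; ring
  rw [hXX, one_mul] at hX3
  exact hX3

theorem chartwo_core [Fintype F] (h2 : (2 : F) = 0) (A B X : Matrix.SpecialLinearGroup (Fin 2) F)
    (hA : A * A = 1) (hA1 : A ≠ 1) (hc : A * B = B * A)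
    (hX3 : X * X * X = 1) (hX1 : X ≠ 1) (hX : X * A * X⁻¹ = B) :
    ∃ u : F, u ≠ 1 ∧ u ^ 3 = 1 := by
  have hchar : ringChar F = 2 := by
    have h3 : ringChar F ∣ 2 := by
      apply (ringChar.spec F 2).mp
      exact_mod_cast h2
    rcases (Nat.dvd_prime Nat.prime_two).mp h3 with h4 | h4
    · exfalso
      exact CharP.ringChar_ne_one (R := F) h4
    · exact h4
  have hneg : (-1 : Matrix.SpecialLinearGroup (Fin 2) F) = 1 := sl2_neg_one_eq_one h2
  have hAns : ¬ IsScalar2 (A : Matrix (Fin 2) (Fin 2) F) := by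
    intro hs
    rcases sl2_scalar_cases A hs with h | h
    · exact hA1 h
    · exact hA1 (h.trans hneg)
  have hEns : ¬ IsScalar2 ((EE F : Matrix.SpecialLinearGroup (Fin 2) F) :
      Matrix (Fin 2) (Fin 2) F) := by
    intro hs
    have := hs.1
    rw [EE_01] at this
    exact one_ne_zero this
  have htA : (A : Matrix (Fin 2) (Fin 2) F).trace = 0 := by
    have h1 := sl2_cayley A
    rw [← Matrix.SpecialLinearGroup.coe_mul, hA, Matrix.SpecialLinearGroup.coe_one] at h1
    by_contra ht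
    apply hAns
    have h4 : (A : Matrix (Fin 2) (Fin 2) F).trace • (A : Matrix (Fin 2) (Fin 2) F)
        = (2 : F) • (1 : Matrix (Fin 2) (Fin 2) F) := by
      rw [two_smul]
      exact (eq_sub_iff_add_eq.mp h1).symm
    rw [h2, zero_smul] at h4
    have h5 : (A : Matrix (Fin 2) (Fin 2) F) = 0 := by
      rcases smul_eq_zero.mp h4 with h | h
      · exact absurd h ht
      · exact h
    refine ⟨by rw [h5]; rfl, by rw [h5]; rfl, by rw [h5]; rfl⟩
  have htE : ((EE F : Matrix.SpecialLinearGroup (Fin 2) F) : Matrix (Fin 2) (Fin 2) F).trace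
      = 0 := by
    rw [Matrix.trace_fin_two, EE_00, EE_11]
    linear_combination h2
  have hconj : IsConj A (EE F) :=
    SL2_isConj_of_trace A (EE F) (Or.inl hchar) hAns hEns (by rw [htA, htE])
  obtain ⟨c, hcE⟩ := isConj_iff.mp hconj
  refine std_case h2 (c * B * c⁻¹) (c * X * c⁻¹) ?_ ?_ ?_ ?_ ?_
  · intro h
    apply hA1
    have hB1 : B = 1 := by
      have := congrArg (fun M => c⁻¹ * M * c) h
      simpa [mul_assoc] using this
    rw [hB1] at hX
    have := congrArg (fun M => X⁻¹ * M * X) hX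
    simpa [mul_assoc] using this
  · rw [← hcE]
    calc c * A * c⁻¹ * (c * B * c⁻¹) = c * (A * B) * c⁻¹ := by group
      _ = c * (B * A) * c⁻¹ := by rw [hc]
      _ = c * B * c⁻¹ * (c * A * c⁻¹) := by group
  · calc c * X * c⁻¹ * (c * X * c⁻¹) * (c * X * c⁻¹) = c * (X * X * X) * c⁻¹ := by group
      _ = 1 := by rw [hX3]; group
  · intro h
    apply hX1
    have := congrArg (fun M => c⁻¹ * M * c) h
    simpa [mul_assoc] using this
  · rw [← hcE, ← hX]
    group

end chartwo

theorem two_pow_odd (n : ℕ) (hn : Odd n) : ∃ k, 2 ^ n - 1 = 3 * k + 1 := by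
  obtain ⟨j, rfl⟩ := hn
  have h1 : 2 ^ (2 * j + 1) % 3 = 2 := by
    rw [pow_succ, pow_mul, Nat.mul_mod, Nat.pow_mod]
    norm_num
  obtain ⟨N, hN⟩ : ∃ N, N = 2 ^ (2 * j + 1) := ⟨_, rfl⟩
  rw [← hN] at h1 ⊢
  exact ⟨N / 3, by omega⟩

theorem A4_elems : ∃ a x : alternatingGroup (Fin 4), a * a = 1 ∧ a ≠ 1 ∧
    a * (x * a * x⁻¹) = (x * a * x⁻¹) * a ∧ x * x * x = 1 ∧ x ≠ 1 := by
  have ha : Equiv.swap (0 : Fin 4) 1 * Equiv.swap (2 : Fin 4) 3 ∈ alternatingGroup (Fin 4) := by
    rw [Equiv.Perm.mem_alternatingGroup, Equiv.Perm.sign_mul,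
      Equiv.Perm.sign_swap (by decide), Equiv.Perm.sign_swap (by decide)]
    rfl
  have hx : Equiv.swap (0 : Fin 4) 1 * Equiv.swap (1 : Fin 4) 2 ∈ alternatingGroup (Fin 4) := by
    rw [Equiv.Perm.mem_alternatingGroup, Equiv.Perm.sign_mul,
      Equiv.Perm.sign_swap (by decide), Equiv.Perm.sign_swap (by decide)]
    rfl
  refine ⟨⟨_, ha⟩, ⟨_, hx⟩, ?_, ?_, ?_, ?_, ?_⟩
  · apply Subtype.ext
    show Equiv.swap (0 : Fin 4) 1 * Equiv.swap (2 : Fin 4) 3
      * (Equiv.swap (0 : Fin 4) 1 * Equiv.swap (2 : Fin 4) 3) = 1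
    decide
  · intro h
    have h1 := congrArg Subtype.val h
    have h2 : Equiv.swap (0 : Fin 4) 1 * Equiv.swap (2 : Fin 4) 3 ≠ 1 := by decide
    exact h2 h1
  · apply Subtype.ext
    show Equiv.swap (0 : Fin 4) 1 * Equiv.swap (2 : Fin 4) 3
      * (Equiv.swap (0 : Fin 4) 1 * Equiv.swap (1 : Fin 4) 2
        * (Equiv.swap (0 : Fin 4) 1 * Equiv.swap (2 : Fin 4) 3)
        * (Equiv.swap (0 : Fin 4) 1 * Equiv.swap (1 : Fin 4) 2)⁻¹)
      = (Equiv.swap (0 : Fin 4) 1 * Equiv.swap (1 : Fin 4) 2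
        * (Equiv.swap (0 : Fin 4) 1 * Equiv.swap (2 : Fin 4) 3)
        * (Equiv.swap (0 : Fin 4) 1 * Equiv.swap (1 : Fin 4) 2)⁻¹)
        * (Equiv.swap (0 : Fin 4) 1 * Equiv.swap (2 : Fin 4) 3)
    decide
  · apply Subtype.ext
    show Equiv.swap (0 : Fin 4) 1 * Equiv.swap (1 : Fin 4) 2
      * (Equiv.swap (0 : Fin 4) 1 * Equiv.swap (1 : Fin 4) 2)
      * (Equiv.swap (0 : Fin 4) 1 * Equiv.swap (1 : Fin 4) 2) = 1
    decide
  · intro h
    have h1 := congrArg Subtype.val h
    have h2 : Equiv.swap (0 : Fin 4) 1 * Equiv.swap (1 : Fin 4) 2 ≠ 1 := by decide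
    exact h2 h1

theorem no_A4 {F : Type*} [Field F] [Fintype F] (n : ℕ) (hF : Fintype.card F = 2 ^ n)
    (hn : Odd n) (h2 : (2 : F) = 0)
    (H : Subgroup (Matrix.ProjectiveSpecialLinearGroup (Fin 2) F))
    (e : H ≃* alternatingGroup (Fin 4)) : False := by
  obtain ⟨a₀, x₀, h1, h2', h3, h4, h5⟩ := A4_elems
  have hinj := pslMk_injective_of_two (F := F) h2
  obtain ⟨A, hA⟩ := pslMk_surjective (F := F) (e.symm a₀ : H).1
  obtain ⟨X, hX⟩ := pslMk_surjective (F := F) (e.symm x₀ : H).1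
  have e1 : A * A = 1 := by
    apply hinj
    rw [map_mul, hA, map_one, ← Subgroup.coe_mul, ← map_mul, h1, map_one, Subgroup.coe_one]
  have e2 : A ≠ 1 := by
    intro h
    rw [h, map_one] at hA
    apply h2'
    apply e.symm.injective
    apply Subtype.ext
    rw [← hA, map_one, Subgroup.coe_one]
  have e3 : A * (X * A * X⁻¹) = (X * A * X⁻¹) * A := by
    apply hinj
    simp only [map_mul, map_inv, hA, hX]
    have := congrArg (fun y : alternatingGroup (Fin 4) => ((e.symm y : H) :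
      Matrix.ProjectiveSpecialLinearGroup (Fin 2) F)) h3
    simpa only [map_mul, map_inv, Subgroup.coe_mul, Subgroup.coe_inv] using this
  have e4 : X * X * X = 1 := by
    apply hinj
    rw [map_mul, map_mul, hX, map_one, ← Subgroup.coe_mul, ← Subgroup.coe_mul, ← map_mul,
      ← map_mul, h4, map_one, Subgroup.coe_one]
  have e5 : X ≠ 1 := by
    intro h
    rw [h, map_one] at hX
    apply h5
    apply e.symm.injective
    apply Subtype.ext
    rw [← hX, map_one, Subgroup.coe_one]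
  obtain ⟨u, hu1, hu3⟩ := chartwo_core h2 A (X * A * X⁻¹) X e1 e2 e3 e4 e5 rfl
  have hu0 : u ≠ 0 := by
    rintro rfl
    simp at hu3
  have hq := FiniteField.pow_card_sub_one_eq_one u hu0
  obtain ⟨k, hk⟩ := two_pow_odd n hn
  rw [hF, hk, pow_succ, pow_mul, hu3, one_pow, one_mul] at hq
  exact hu1 hq

theorem exists_A4_A5 :
    ∃ j : alternatingGroup (Fin 4) →* alternatingGroup (Fin 5), Function.Injective j := by
  classical
  let f : Fin 4 ≃ {i : Fin 5 // i ∈ Set.range (Fin.castSucc : Fin 4 → Fin 5)} :=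
    Equiv.ofInjective _ (Fin.castSucc_injective 4)
  have hg : Function.Injective (Equiv.Perm.extendDomainHom f) :=
    Equiv.Perm.extendDomainHom_injective f
  have hmem : ∀ x : alternatingGroup (Fin 4),
      ((Equiv.Perm.extendDomainHom f).comp (alternatingGroup (Fin 4)).subtype) x
        ∈ alternatingGroup (Fin 5) := by
    intro x
    rw [Equiv.Perm.mem_alternatingGroup]
    show Equiv.Perm.sign (Equiv.Perm.extendDomain x.1 f) = 1
    rw [Equiv.Perm.sign_extendDomain]
    exact Equiv.Perm.mem_alternatingGroup.mp x.2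
  refine ⟨((Equiv.Perm.extendDomainHom f).comp (alternatingGroup (Fin 4)).subtype).codRestrict
    (alternatingGroup (Fin 5)) hmem, ?_⟩
  intro x y h
  apply Subtype.ext
  apply hg
  exact congrArg Subtype.val h

theorem exists_A4_even {F : Type*} [Field F] [Fintype F] (m : ℕ)
    (hF : Fintype.card F = 2 ^ (m + m)) :
    ∃ H : Subgroup (Matrix.ProjectiveSpecialLinearGroup (Fin 2) F),
      Nonempty (H ≃* alternatingGroup (Fin 4)) := by
  haveI : Fintype (GaloisField 2 2) := Fintype.ofFinite _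
  have hK4 : Fintype.card (GaloisField 2 2) = 4 := by
    rw [← Nat.card_eq_fintype_card, GaloisField.card 2 2 (by norm_num)]
    norm_num
  have hK : Fintype.card (GaloisField 2 2) ^ m = Fintype.card F := by
    rw [hK4, hF, pow_add, ← mul_pow]
    norm_num
  obtain ⟨φ⟩ := Cfsg.Agent.S0805.exists_emb (F := F) (K := GaloisField 2 2) m hK
  obtain ⟨e1⟩ := Cfsg.Agent.S0805.range_equiv _ _ (Cfsg.Agent.S0805.ker1 φ)
  obtain ⟨e2⟩ := Cfsg.Agent.S0252.result (F := GaloisField 2 2) hK4
  obtain ⟨j, hj⟩ := exists_A4_A5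
  obtain ⟨J, hJ⟩ : ∃ J : alternatingGroup (Fin 4) →*
      Matrix.ProjectiveSpecialLinearGroup (Fin 2) F, Function.Injective J :=
    ⟨(Subgroup.subtype _).comp ((e1.symm.toMonoidHom.comp e2.symm.toMonoidHom).comp j),
      (Subgroup.subtype_injective _).comp
        ((e1.symm.injective.comp e2.symm.injective).comp hj)⟩
  exact ⟨J.range, ⟨(MonoidHom.ofInjective hJ).symm⟩⟩

theorem exists_A4_odd {F : Type*} [Field F] [Fintype F] (h2 : (2 : F) ≠ 0)
    (hodd : Odd (Fintype.card F)) :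
    ∃ H : Subgroup (Matrix.ProjectiveSpecialLinearGroup (Fin 2) F),
      Nonempty (H ≃* alternatingGroup (Fin 4)) := by
  classical
  have hK := Cfsg.Agent.S0807.result (F := F) rfl hodd
  have hNpos : 0 < Nat.card (Matrix.ProjectiveSpecialLinearGroup (Fin 2) F) := Nat.card_pos
  have hkpos : 0 < Nat.card {V : Subgroup (Matrix.ProjectiveSpecialLinearGroup (Fin 2) F) //
      IsKleinFour V} := by omega
  obtain ⟨⟨V, hV⟩⟩ := (Nat.card_pos_iff.mp hkpos).1
  obtain ⟨a, b, haV, hbV, ha1, hb1, hab, hall⟩ := Cfsg.Agent.S0808.klein_elems V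
  have hd := Cfsg.Agent.S0808.card_norm_dvd h2 V
  have ho := Cfsg.Agent.S0808.card_orbit V
  have hle : Nat.card (Set.range
        (fun g : Matrix.ProjectiveSpecialLinearGroup (Fin 2) F => Cfsg.Agent.S0808.cj g V))
      ≤ Nat.card {V : Subgroup (Matrix.ProjectiveSpecialLinearGroup (Fin 2) F) //
          IsKleinFour V} := by
    apply Nat.card_le_card_of_injective (fun o : Set.range
        (fun g : Matrix.ProjectiveSpecialLinearGroup (Fin 2) F => Cfsg.Agent.S0808.cj g V) =>
      (⟨o.1, by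
        obtain ⟨g, hg⟩ := o.2
        rw [← hg]
        exact Cfsg.Agent.S0808.cj_klein g V⟩ :
        {V : Subgroup (Matrix.ProjectiveSpecialLinearGroup (Fin 2) F) // IsKleinFour V}))
    intro o1 o2 h
    have h' : (o1 : Subgroup (Matrix.ProjectiveSpecialLinearGroup (Fin 2) F)) = o2 :=
      congrArg (fun x : {V : Subgroup (Matrix.ProjectiveSpecialLinearGroup (Fin 2) F) //
        IsKleinFour V} => x.1) h
    exact Subtype.ext h'
  obtain ⟨N, hN⟩ : ∃ N : Subgroup (Matrix.ProjectiveSpecialLinearGroup (Fin 2) F),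
      N = Subgroup.normalizer (V : Set (Matrix.ProjectiveSpecialLinearGroup (Fin 2) F)) :=
    ⟨_, rfl⟩
  rw [← hN] at hd ho
  have hVN : V ≤ N := by rw [hN]; exact Subgroup.le_normalizer
  have h12 : 12 ≤ Nat.card N := by
    by_contra hcon
    push Not at hcon
    have h1 : Nat.card (Set.range
        (fun g : Matrix.ProjectiveSpecialLinearGroup (Fin 2) F => Cfsg.Agent.S0808.cj g V))
          * Nat.card N ≤ Nat.card {V : Subgroup (Matrix.ProjectiveSpecialLinearGroup (Fin 2) F) //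
          IsKleinFour V} * 11 := Nat.mul_le_mul hle (by omega)
    omega
  haveI hnorm : (V.subgroupOf N).Normal := by
    rw [hN]
    exact Subgroup.normal_in_normalizer
  have hV4 : Nat.card (V.subgroupOf N) = 4 := by
    rw [Nat.card_congr (Subgroup.subgroupOfEquivOfLe hVN).toEquiv, IsKleinFour.card_four]
  have hQ := Subgroup.card_eq_card_quotient_mul_card_subgroup (V.subgroupOf N)
  rw [hV4] at hQ
  have h3Q : 3 ∣ Nat.card (N ⧸ V.subgroupOf N) := by
    have h24 : Nat.card N ≤ 24 := Nat.le_of_dvd (by norm_num) hd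
    obtain ⟨c, hc⟩ := hd
    have hc1 : c = 1 ∨ c = 2 := by
      rcases Nat.eq_zero_or_pos c with h | h
      · rw [h] at hc; omega
      · have : Nat.card N * c ≤ 24 := by omega
        have : 12 * c ≤ 24 := le_trans (Nat.mul_le_mul_right c h12) this
        omega
    rcases hc1 with rfl | rfl
    · exact ⟨2, by omega⟩
    · exact ⟨1, by omega⟩
  obtain ⟨xq, hxq⟩ := exists_prime_orderOf_dvd_card' 3 h3Q
  obtain ⟨S, hS⟩ : ∃ S : Subgroup (N ⧸ V.subgroupOf N), S = Subgroup.zpowers xq := ⟨_, rfl⟩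
  have hS3 : Nat.card S = 3 := by rw [hS, Nat.card_zpowers, hxq]
  obtain ⟨H', hH'⟩ : ∃ H' : Subgroup N, H' = S.comap (QuotientGroup.mk' (V.subgroupOf N)) :=
    ⟨_, rfl⟩
  have hidx : H'.index = S.index := by
    rw [hH']
    exact Subgroup.index_comap_of_surjective S (QuotientGroup.mk'_surjective _)
  have hH12 : Nat.card H' = 12 := by
    have e1 := Subgroup.card_mul_index H'
    have e2 := Subgroup.card_mul_index S
    rw [hidx] at e1
    rw [hS3] at e2
    have hpos : 0 < S.index := Nat.pos_of_ne_zero Subgroup.index_ne_zero_of_finite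
    have e3 : Nat.card H' * S.index = 12 * S.index := by
      rw [e1, hQ, ← e2]
      ring
    exact Nat.eq_of_mul_eq_mul_right hpos e3
  have hVH : ∀ v : Matrix.ProjectiveSpecialLinearGroup (Fin 2) F, ∀ hv : v ∈ V,
      (⟨v, hVN hv⟩ : N) ∈ H' := by
    intro v hv
    rw [hH', Subgroup.mem_comap]
    have : (QuotientGroup.mk' (V.subgroupOf N)) (⟨v, hVN hv⟩ : N) = 1 := by
      rw [QuotientGroup.mk'_apply, QuotientGroup.eq_one_iff, Subgroup.mem_subgroupOf]
      exact hv
    rw [this]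
    exact one_mem S
  have hz : ∀ z : H', orderOf z = 2 → z ∉ Subgroup.center H' := by
    intro z hz2 hzc
    rw [Subgroup.mem_center_iff] at hzc
    have hz1 : ((z : N) : Matrix.ProjectiveSpecialLinearGroup (Fin 2) F) ≠ 1 := by
      intro h
      have : z = 1 := Subtype.ext (Subtype.ext h)
      rw [this, orderOf_one] at hz2
      omega
    have hzz : ((z : N) : Matrix.ProjectiveSpecialLinearGroup (Fin 2) F)
        * ((z : N) : Matrix.ProjectiveSpecialLinearGroup (Fin 2) F) = 1 := by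
      have h1 : z ^ orderOf z = 1 := pow_orderOf_eq_one z
      rw [hz2, pow_two] at h1
      have := congrArg (fun y : H' => ((y : N) : Matrix.ProjectiveSpecialLinearGroup (Fin 2) F)) h1
      simpa using this
    have hcomm : ∀ v : Matrix.ProjectiveSpecialLinearGroup (Fin 2) F, v ∈ V →
        ((z : N) : Matrix.ProjectiveSpecialLinearGroup (Fin 2) F) * v
          = v * ((z : N) : Matrix.ProjectiveSpecialLinearGroup (Fin 2) F) := by
      intro v hv
      have h1 := hzc ⟨⟨v, hVN hv⟩, hVH v hv⟩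
      have := congrArg (fun y : H' => ((y : N) : Matrix.ProjectiveSpecialLinearGroup (Fin 2) F)) h1
      simpa using this.symm
    have hzV : ((z : N) : Matrix.ProjectiveSpecialLinearGroup (Fin 2) F) ∈ V := by
      rcases Cfsg.Agent.S0808.cent_psl h2 a b _ ha1 hb1 hab
        (Cfsg.Agent.S0807.klein_sq V a haV) (Cfsg.Agent.S0807.klein_sq V b hbV)
        (Cfsg.Agent.S0807.klein_comm V a b haV hbV) (hcomm a haV) (hcomm b hbV) with h | h | h | h
      · exact absurd h hz1
      · rw [h]; exact haV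
      · rw [h]; exact hbV
      · rw [h]; exact mul_mem haV hbV
    obtain ⟨x, hx⟩ := exists_prime_orderOf_dvd_card' (G := H') 3 (by rw [hH12]; norm_num)
    obtain ⟨z₀, hz₀⟩ : ∃ z₀ : Matrix.ProjectiveSpecialLinearGroup (Fin 2) F,
        z₀ = ((z : N) : Matrix.ProjectiveSpecialLinearGroup (Fin 2) F) := ⟨_, rfl⟩
    obtain ⟨x₀, hx₀⟩ : ∃ x₀ : Matrix.ProjectiveSpecialLinearGroup (Fin 2) F,
        x₀ = ((x : N) : Matrix.ProjectiveSpecialLinearGroup (Fin 2) F) := ⟨_, rfl⟩
    rw [← hz₀] at hz1 hzz hcomm hzV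
    have hx1 : x₀ ≠ 1 := by
      intro h
      rw [hx₀] at h
      have : x = 1 := Subtype.ext (Subtype.ext h)
      rw [this, orderOf_one] at hx
      omega
    have hx3 : x₀ * x₀ * x₀ = 1 := by
      have h1 : x ^ orderOf x = 1 := pow_orderOf_eq_one x
      rw [hx, pow_succ, pow_two] at h1
      have := congrArg (fun y : H' => ((y : N) : Matrix.ProjectiveSpecialLinearGroup (Fin 2) F)) h1
      rw [hx₀]
      simpa using this
    have hxN : x₀ ∈ Subgroup.normalizer
        (V : Set (Matrix.ProjectiveSpecialLinearGroup (Fin 2) F)) := by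
      rw [hx₀, ← hN]
      exact (x : N).2
    have hxz : x₀ * z₀ = z₀ * x₀ := by
      have h1 := hzc x
      have := congrArg (fun y : H' => ((y : N) : Matrix.ProjectiveSpecialLinearGroup (Fin 2) F)) h1
      rw [hx₀, hz₀]
      simpa using this
    -- choose t
    obtain ⟨t, htV, ht1, htz⟩ : ∃ t, t ∈ V ∧ t ≠ 1 ∧ t ≠ z₀ := by
      by_cases h : a = z₀
      · exact ⟨b, hbV, hb1, fun h' => hab (h.trans h'.symm)⟩
      · exact ⟨a, haV, ha1, h⟩
    have hsV : x₀ * t * x₀⁻¹ ∈ V := (Subgroup.mem_normalizer_iff.mp hxN t).mp htV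
    have hs1 : x₀ * t * x₀⁻¹ ≠ 1 := fun h => ht1 (conj_eq_one_iff.mp h)
    have hsz : x₀ * t * x₀⁻¹ ≠ z₀ := by
      intro h
      apply htz
      have h1 : t = x₀⁻¹ * z₀ * x₀ := by rw [← h]; group
      rw [h1, mul_assoc, ← hxz, inv_mul_cancel_left]
    have hxx : x₀ * x₀ ≠ 1 := by
      intro h
      rw [h, one_mul] at hx3
      exact hx1 hx3
    have hcase : x₀ * t * x₀⁻¹ = t ∨ x₀ * t * x₀⁻¹ = z₀ * t := by
      by_cases hst : x₀ * t * x₀⁻¹ = t
      · exact Or.inl hst
      · right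
        have := IsKleinFour.eq_mul_of_ne_all (G := V) (x := ⟨z₀, hzV⟩) (y := ⟨t, htV⟩)
          (z := ⟨x₀ * t * x₀⁻¹, hsV⟩) (fun h => hz1 (congrArg Subtype.val h))
          (fun h => ht1 (congrArg Subtype.val h)) (fun h => htz (congrArg Subtype.val h).symm)
          (fun h => hs1 (congrArg Subtype.val h)) (fun h => hsz (congrArg Subtype.val h))
          (fun h => hst (congrArg Subtype.val h))
        exact congrArg Subtype.val this
    have htt : t * t = 1 := Cfsg.Agent.S0807.klein_sq V t htV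
    rcases hcase with hst | hst
    · have hxt : x₀ * t = t * x₀ := mul_inv_eq_iff_eq_mul.mp hst
      have hxV : x₀ ∈ V := by
        rcases Cfsg.Agent.S0808.cent_psl h2 z₀ t x₀ hz1 ht1 (Ne.symm htz) hzz htt
          (Cfsg.Agent.S0807.klein_comm V z₀ t hzV htV) hxz hxt with h | h | h | h
        · exact absurd h hx1
        · rw [h]; exact hzV
        · rw [h]; exact htV
        · rw [h]; exact mul_mem hzV htV
      exact hxx (Cfsg.Agent.S0807.klein_sq V x₀ hxV)
    · have h5 : x₀ * (x₀ * t * x₀⁻¹) * x₀⁻¹ = t := by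
        rw [hst]
        calc x₀ * (z₀ * t) * x₀⁻¹ = (x₀ * z₀) * t * x₀⁻¹ := by group
          _ = z₀ * (x₀ * t * x₀⁻¹) := by rw [hxz]; group
          _ = t := by rw [hst, ← mul_assoc, hzz, one_mul]
      have h6 : x₀ * (x₀ * (x₀ * t * x₀⁻¹) * x₀⁻¹) * x₀⁻¹ = t := by
        calc x₀ * (x₀ * (x₀ * t * x₀⁻¹) * x₀⁻¹) * x₀⁻¹
            = (x₀ * x₀ * x₀) * t * (x₀ * x₀ * x₀)⁻¹ := by group
          _ = t := by rw [hx3]; group
      rw [h5, hst] at h6
      apply hz1
      exact mul_eq_right.mp h6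
  obtain ⟨e⟩ := Cfsg.Agent.S0228.result (G := H') hH12 hz
  exact ⟨H'.map N.subtype,
    ⟨(Subgroup.equivMapOfInjective H' N.subtype (Subgroup.subtype_injective N)).symm.trans e⟩⟩

theorem result {F : Type*} [Field F] [Fintype F] (p n : ℕ) [Fact p.Prime] [CharP F p] (hF : Fintype.card F = p ^ n) : (∃ H : Subgroup (Matrix.ProjectiveSpecialLinearGroup (Fin 2) F), Nonempty (H ≃* alternatingGroup (Fin 4))) ↔ ¬ (p = 2 ∧ Odd n) := by
  have hq1 : 1 < Fintype.card F := Fintype.one_lt_card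
  constructor
  · rintro ⟨H, ⟨e⟩⟩ ⟨rfl, hn⟩
    have h2 : (2 : F) = 0 := by
      have := CharP.cast_eq_zero F 2
      exact_mod_cast this
    exact no_A4 n hF hn h2 H e
  · intro hcon
    by_cases hp : p = 2
    · subst hp
      have hn : ¬ Odd n := fun h => hcon ⟨rfl, h⟩
      rw [Nat.not_odd_iff_even] at hn
      obtain ⟨m, rfl⟩ := hn
      exact exists_A4_even m hF
    · have hpodd : Odd p := (Fact.out : p.Prime).odd_of_ne_two hp
      have hodd : Odd (Fintype.card F) := by
        rw [hF]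
        exact hpodd.pow
      have h2 : (2 : F) ≠ 0 := by
        intro h
        have hchar : ringChar F = 2 := by
          have h3 : ringChar F ∣ 2 := by
            apply (ringChar.spec F 2).mp
            exact_mod_cast h
          rcases (Nat.dvd_prime Nat.prime_two).mp h3 with h4 | h4
          · exfalso
            exact CharP.ringChar_ne_one (R := F) h4
          · exact h4
        have := FiniteField.even_card_of_char_two hchar
        rcases hodd with ⟨r, hr⟩
        omega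
      exact exists_A4_odd h2 hodd

end Cfsg.Agent.S0802
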