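import Cfsg.Statements.S1018
import Mathlib

set_option autoImplicit false
open Pointwise
open Cfsg

namespace Cfsg.Agent.S1018

variable {G : Type*} [Group G]

/-- A subgroup of prime order is generated by each of its non-identity elements. -/
theorem le_zpowers_of_card_prime [Finite G] {p : ℕ} [Fact p.Prime] {P : Subgroup G}
    (hP : Nat.card P = p) {c : G} (hc : c ∈ P) (hc1 : c ≠ 1) : P ≤ Subgroup.zpowers c := by
  have hle : Subgroup.zpowers c ≤ P := by
    rw [Subgroup.zpowers_le]; exact hc
  have hcard : Nat.card (Subgroup.zpowers c) = orderOf c := Nat.card_zpowers c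
  have hdvd : orderOf c ∣ p := by
    rw [← hP]; exact Subgroup.orderOf_dvd_natCard P hc
  have hord : orderOf c = p := by
    rcases (Nat.dvd_prime (Fact.out : p.Prime)).mp hdvd with h | h
    · exact absurd (orderOf_eq_one_iff.mp h) hc1
    · exact h
  have : Subgroup.zpowers c = P :=
    Subgroup.eq_of_le_of_card_ge hle (by rw [hcard, hord, hP])
  rw [this]

theorem smul_coset_eq_iff (N : Subgroup G) (y g : G) :
    y • (g : G ⧸ N) = (g : G ⧸ N) ↔ g⁻¹ * y * g ∈ N := by
  rw [MulAction.Quotient.smul_mk, QuotientGroup.eq, smul_eq_mul]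
  rw [← inv_mem_iff (x := g⁻¹ * y * g)]
  simp [mul_assoc]

theorem conj_order (y g : G) : orderOf (g⁻¹ * y * g) = orderOf y := by
  have := orderOf_injective (MulAut.conj g⁻¹).toMonoidHom (MulAut.conj g⁻¹).injective y
  simpa using this

/-- An element of order `p` normalising a Sylow `p`-subgroup lies in it. -/
theorem mem_sylow_of_mem_normalizer {p : ℕ} [Fact p.Prime] (P : Sylow p G) {z : G}
    (hz : orderOf z = p) (hzN : z ∈ Subgroup.normalizer ((P : Subgroup G) : Set G)) :
    z ∈ (P : Subgroup G) := by
  have hpg : IsPGroup p (Subgroup.zpowers z) := by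
    apply IsPGroup.of_card (n := 1)
    rw [Nat.card_zpowers, hz, pow_one]
  have h1 : z ∈ Subgroup.zpowers z ⊓ Subgroup.normalizer ((P : Subgroup G) : Set G) :=
    Subgroup.mem_inf.mpr ⟨Subgroup.mem_zpowers z, hzN⟩
  rw [P.coe_coe, hpg.inf_normalizer_sylow P] at h1
  exact (Subgroup.mem_inf.mp h1).2

/-- Let P be a Sylow p-subgroup of order p of a finite group G, and consider the action of G on the left cosets of the normalizer N of P. Then every element of order p fixes exactly one coset, and an element of N that does not centralize P fixes at most as many cosets as there are orbits of P. -/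
theorem result {G : Type*} [Group G] [Finite G] (p : ℕ) [Fact p.Prime] (P : Sylow p G) (hP : Nat.card ↥(P : Subgroup G) = p) : (∀ y : G, orderOf y = p → Nat.card (MulAction.fixedBy (G ⧸ Subgroup.normalizer ((P : Subgroup G) : Set G)) y) = 1) ∧ ∀ x : G, x ∈ Subgroup.normalizer ((P : Subgroup G) : Set G) → x ∉ Subgroup.centralizer ((P : Subgroup G) : Set G) → Nat.card (MulAction.fixedBy (G ⧸ Subgroup.normalizer ((P : Subgroup G) : Set G)) x) ≤ Nat.card (MulAction.orbitRel.Quotient ↥(P : Subgroup G) (G ⧸ Subgroup.normalizer ((P : Subgroup G) : Set G))) := by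
  classical
  set N := Subgroup.normalizer ((P : Subgroup G) : Set G) with hN
  have hp : p.Prime := Fact.out
  refine ⟨?_, ?_⟩
  · intro y hy
    have hy1 : y ≠ 1 := by
      intro h
      rw [h, orderOf_one] at hy
      exact hp.one_lt.ne hy
    rw [Nat.card_eq_one_iff_unique]
    constructor
    · constructor
      rintro ⟨q, hq⟩ ⟨q', hq'⟩
      induction q using QuotientGroup.induction_on with
      | H g =>
      induction q' using QuotientGroup.induction_on with
      | H h =>
      rw [MulAction.mem_fixedBy, smul_coset_eq_iff] at hq hq'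
      have hg : g⁻¹ * y * g ∈ (P : Subgroup G) := by
        apply mem_sylow_of_mem_normalizer P _ hq
        rw [← hy]; exact conj_order y g
      have hh : h⁻¹ * y * h ∈ (P : Subgroup G) := by
        apply mem_sylow_of_mem_normalizer P _ hq'
        rw [← hy]; exact conj_order y h
      -- g • P and h • P both contain y and have order p
      have key : ∀ k : G, k⁻¹ * y * k ∈ (P : Subgroup G) →
          ((k • P : Sylow p G) : Subgroup G) = Subgroup.zpowers y := by
        intro k hk
        have hmem : y ∈ ((k • P : Sylow p G) : Subgroup G) := by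
          rw [Sylow.coe_subgroup_smul, Subgroup.mem_pointwise_smul_iff_inv_smul_mem]
          simpa [MulAut.smul_def] using hk
        have hcard : Nat.card ((k • P : Sylow p G) : Subgroup G) = p := by
          rw [Sylow.card_eq_multiplicity, ← Sylow.card_eq_multiplicity P, hP]
        exact le_antisymm (le_zpowers_of_card_prime hcard hmem hy1)
          (by rw [Subgroup.zpowers_le]; exact hmem)
      have h1 : (g • P : Sylow p G) = h • P := Sylow.ext (by rw [key g hg, key h hh])
      have h2 : (g⁻¹ * h) • P = P := by
        rw [mul_smul, ← h1, inv_smul_smul]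
      have h3 : g⁻¹ * h ∈ N := Sylow.smul_eq_iff_mem_normalizer.mp h2
      apply Subtype.ext
      exact QuotientGroup.eq.mpr h3
    · have hpg : IsPGroup p (Subgroup.zpowers y) := by
        apply IsPGroup.of_card (n := 1)
        rw [Nat.card_zpowers, hy, pow_one]
      obtain ⟨S, hS⟩ := hpg.exists_le_sylow
      obtain ⟨g, hg⟩ := MulAction.exists_smul_eq G P S
      have hmem : y ∈ ((g • P : Sylow p G) : Subgroup G) := by
        rw [hg]; exact hS (Subgroup.mem_zpowers y)
      rw [Sylow.coe_subgroup_smul, Subgroup.mem_pointwise_smul_iff_inv_smul_mem] at hmem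
      have hmem' : g⁻¹ * y * g ∈ (P : Subgroup G) := by
        simpa [MulAut.smul_def] using hmem
      refine ⟨⟨(g : G ⧸ N), ?_⟩⟩
      rw [MulAction.mem_fixedBy, smul_coset_eq_iff]
      exact Subgroup.le_normalizer hmem'
  · intro x hxN hxC
    apply Nat.card_le_card_of_injective
      (fun q : MulAction.fixedBy (G ⧸ N) x =>
        (Quotient.mk'' (q : G ⧸ N) : MulAction.orbitRel.Quotient ↥(P : Subgroup G) (G ⧸ N)))
    rintro ⟨q, hq⟩ ⟨q', hq'⟩ h
    have h' : (MulAction.orbitRel ↥(P : Subgroup G) (G ⧸ N)) q q' := Quotient.exact' h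
    rw [MulAction.orbitRel_apply] at h'
    obtain ⟨⟨y, hyP⟩, hy⟩ := h'
    have hy' : y • q' = q := hy
    apply Subtype.ext
    show q = q'
    rw [MulAction.mem_fixedBy] at hq hq'
    -- the commutator
    set c := x⁻¹ * y⁻¹ * x * y with hc
    have hcP : c ∈ (P : Subgroup G) := by
      have h1 : x⁻¹ * y⁻¹ * x ∈ (P : Subgroup G) := by
        have := (Subgroup.mem_normalizer_iff.mp (inv_mem hxN) y⁻¹).mp (inv_mem hyP)
        simpa using this
      exact mul_mem h1 hyP
    have hcq : c • q' = q' := by
      rw [hc, mul_smul, hy', mul_smul, hq, mul_smul, ← hy', inv_smul_smul]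
      have := congrArg (fun r => x⁻¹ • r) hq'
      simpa using this.symm
    by_cases hc1 : c = 1
    · by_cases hy1 : y = 1
      · rw [← hy', hy1, one_smul]
      · exfalso
        apply hxC
        have hcomm : y * x = x * y := by
          have h5 : y * x * c = x * y := by rw [hc]; group
          rw [hc1, mul_one] at h5
          exact h5
        have hle := le_zpowers_of_card_prime hP hyP hy1
        rw [Subgroup.mem_centralizer_iff]
        intro h hh
        have h1 : y ∈ Subgroup.centralizer ({x} : Set G) :=
          Subgroup.mem_centralizer_singleton_iff.mpr hcomm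
        have h2 : Subgroup.zpowers y ≤ Subgroup.centralizer ({x} : Set G) := by
          rw [Subgroup.zpowers_le]; exact h1
        exact Subgroup.mem_centralizer_singleton_iff.mp (h2 (hle hh))
    · have hle := le_zpowers_of_card_prime hP hcP hc1
      have h2 : Subgroup.zpowers c ≤ MulAction.stabilizer G q' := by
        rw [Subgroup.zpowers_le]; exact MulAction.mem_stabilizer_iff.mpr hcq
      rw [← hy']
      exact MulAction.mem_stabilizer_iff.mp (h2 (hle hyP))

end Cfsg.Agent.S1018
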