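import Cfsg.Statements.S1012
import Cfsg.Agent.S1018
import Mathlib

set_option autoImplicit false
open Pointwise
open Cfsg

namespace Cfsg.Agent.S1012

open MulAction

variable {G : Type*} [Group G]

theorem mem_zpowers_cases3 {z w : G} (hz : orderOf z = 3) (hw : w ∈ Subgroup.zpowers z) :
    w = 1 ∨ w = z ∨ w = z⁻¹ := by
  obtain ⟨k, rfl⟩ := Subgroup.mem_zpowers_iff.mp hw
  have h3 : z ^ 3 = 1 := by rw [← hz]; exact pow_orderOf_eq_one z
  rw [← zpow_mod_orderOf, hz]
  have hk : k % (3 : ℕ) = 0 ∨ k % (3 : ℕ) = 1 ∨ k % (3 : ℕ) = 2 := by omega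
  rcases hk with hk | hk | hk
  · left; rw [hk, zpow_zero]
  · right; left; rw [hk, zpow_one]
  · right; right
    rw [hk]
    have : z ^ (2 : ℤ) * z = 1 := by
      have : z ^ (2 : ℤ) = z ^ 2 := by norm_cast
      rw [this, ← pow_succ]; exact h3
    exact eq_inv_of_mul_eq_one_left this

theorem mem_zpowers_cases2 {u w : G} (hu : orderOf u = 2) (hw : w ∈ Subgroup.zpowers u) :
    w = 1 ∨ w = u := by
  obtain ⟨k, rfl⟩ := Subgroup.mem_zpowers_iff.mp hw
  rw [← zpow_mod_orderOf, hu]
  have hk : k % (2 : ℕ) = 0 ∨ k % (2 : ℕ) = 1 := by omega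
  rcases hk with hk | hk
  · left; rw [hk, zpow_zero]
  · right; rw [hk, zpow_one]

theorem no_comm (h6 : ∀ g : G, orderOf g ≠ 6) {u z : G} (hu : orderOf u = 2) (hz : orderOf z = 3)
    (hc : Commute u z) : False := by
  have := hc.orderOf_mul_eq_mul_orderOf_of_coprime (by rw [hu, hz]; decide)
  rw [hu, hz] at this
  exact h6 _ this

/-- A group of order 24 containing no element of order 6 is isomorphic to the symmetric group of degree 4. -/
theorem result {G : Type*} [Group G] [Finite G] (h : Nat.card G = 24) (h6 : ∀ g : G, orderOf g ≠ 6) : Nonempty (G ≃* Equiv.Perm (Fin 4)) := by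
  classical
  have hp3 : Fact (Nat.Prime 3) := ⟨Nat.prime_three⟩
  have hp2 : Fact (Nat.Prime 2) := ⟨Nat.prime_two⟩
  have hfac : (Nat.card G).factorization 3 = 1 := by
    have hne : Nat.card G ≠ 0 := by rw [h]; decide
    have h1 : 1 ≤ (Nat.card G).factorization 3 := by
      rw [← Nat.prime_three.pow_dvd_iff_le_factorization hne, h]; decide
    have h2 : ¬ 2 ≤ (Nat.card G).factorization 3 := by
      rw [← Nat.prime_three.pow_dvd_iff_le_factorization hne, h]; decide
    omega
  have hcardSyl : ∀ S : Sylow 3 G, Nat.card S = 3 := by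
    intro S
    rw [Sylow.card_eq_multiplicity, hfac, pow_one]
  obtain ⟨P⟩ : Nonempty (Sylow 3 G) := inferInstance
  have hindex : (P : Subgroup G).index = 8 := by
    have := (P : Subgroup G).card_mul_index
    rw [hcardSyl P, h] at this
    omega
  have hn3 : Nat.card (Sylow 3 G) = 1 ∨ Nat.card (Sylow 3 G) = 4 := by
    have h1 : Nat.card (Sylow 3 G) ≡ 1 [MOD 3] := card_sylow_modEq_one 3 G
    have h2 : Nat.card (Sylow 3 G) ∣ 8 := by rw [← hindex]; exact Sylow.card_dvd_index P
    have h3 : Nat.card (Sylow 3 G) ≤ 8 := Nat.le_of_dvd (by decide) h2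
    unfold Nat.ModEq at h1
    interval_cases (Nat.card (Sylow 3 G)) <;> simp_all
  -- an element of order 3 and one of order 2
  obtain ⟨z₀, hz₀⟩ := exists_prime_orderOf_dvd_card' (G := G) 3 (by rw [h]; decide)
  rcases hn3 with hn3 | hn3
  · -- normal Sylow 3-subgroup: contradiction
    exfalso
    have hsub : Subsingleton (Sylow 3 G) := by
      rw [← Finite.card_le_one_iff_subsingleton, hn3]
    have hfinC : Finite (ConjAct G) := Finite.of_equiv G ConjAct.toConjAct.toEquiv
    have hPn : (P : Subgroup G).Normal := Sylow.normal_of_subsingleton P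
    obtain ⟨z, hz⟩ := exists_prime_orderOf_dvd_card' (G := (P : Subgroup G)) 3
      (by rw [hcardSyl P])
    have hzG : orderOf (z : G) = 3 := by rw [Subgroup.orderOf_coe]; exact hz
    have hz1 : (z : G) ≠ 1 := by
      intro h1
      rw [h1, orderOf_one] at hzG
      exact absurd hzG (by decide)
    have hPle := Cfsg.Agent.S1018.le_zpowers_of_card_prime (hcardSyl P) z.2 hz1
    have horb : orbit (ConjAct G) (z : G) ⊆ {(z : G), (z : G)⁻¹} := by
      rintro _ ⟨g, rfl⟩
      have hmem : g • (z : G) ∈ (P : Subgroup G) := by
        rw [ConjAct.smul_def]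
        exact hPn.conj_mem _ z.2 _
      have hne1 : g • (z : G) ≠ 1 := by
        rw [ConjAct.smul_def]
        intro h1
        apply hz1
        have : (z : G) = (ConjAct.ofConjAct g)⁻¹ * (ConjAct.ofConjAct g * z * (ConjAct.ofConjAct g)⁻¹) *
            ConjAct.ofConjAct g := by group
        rw [this, h1]; group
      rcases mem_zpowers_cases3 hzG (hPle hmem) with h1 | h1 | h1
      · exact absurd h1 hne1
      · left; exact h1
      · right; exact h1
    have hidx : (stabilizer (ConjAct G) (z : G)).index ≤ 2 := by
      rw [MulAction.index_stabilizer]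
      calc (orbit (ConjAct G) (z : G)).ncard ≤ ({(z : G), (z : G)⁻¹} : Set G).ncard :=
            Set.ncard_le_ncard horb (Set.toFinite _)
        _ ≤ 2 := Set.ncard_insert_le _ _ |>.trans (by rw [Set.ncard_singleton])
    have hcard : Nat.card (stabilizer (ConjAct G) (z : G)) *
        (stabilizer (ConjAct G) (z : G)).index = 24 := by
      rw [Subgroup.card_mul_index]
      exact h
    have hidx0 : (stabilizer (ConjAct G) (z : G)).index ≠ 0 := by
      intro h0; rw [h0, mul_zero] at hcard; exact absurd hcard (by decide)
    have h2dvd : 2 ∣ Nat.card (stabilizer (ConjAct G) (z : G)) := by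
      have : (stabilizer (ConjAct G) (z : G)).index = 1 ∨
          (stabilizer (ConjAct G) (z : G)).index = 2 := by omega
      rcases this with h1 | h1 <;> rw [h1] at hcard <;> omega
    obtain ⟨u, hu⟩ := exists_prime_orderOf_dvd_card' 2 h2dvd
    have hu' : orderOf (ConjAct.ofConjAct (u : ConjAct G)) = 2 := by
      rw [← hu, ← Subgroup.orderOf_coe]
      exact MulEquiv.orderOf_eq ConjAct.ofConjAct _
    have hfix : (u : ConjAct G) • (z : G) = z := u.2
    rw [ConjAct.smul_def] at hfix
    have hcomm : Commute (ConjAct.ofConjAct (u : ConjAct G)) (z : G) := by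
      have := congrArg (fun w => w * ConjAct.ofConjAct (u : ConjAct G)) hfix
      simp only [inv_mul_cancel_right] at this
      exact this
    exact no_comm h6 hu' hzG hcomm
  · -- four Sylow 3-subgroups: the conjugation action is faithful
    have hker : (MulAction.toPermHom G (Sylow 3 G)).ker = ⊥ := by
      set K := (MulAction.toPermHom G (Sylow 3 G)).ker with hK
      have hKN : ∀ S : Sylow 3 G, K ≤ Subgroup.normalizer ((S : Subgroup G) : Set G) := by
        intro S k hk
        have h1 : MulAction.toPermHom G (Sylow 3 G) k = 1 := hk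
        have h2 : k • S = S := by
          have := congrArg (fun σ : Equiv.Perm (Sylow 3 G) => σ S) h1
          simpa using this
        rw [S.coe_coe]
        exact Sylow.smul_eq_iff_mem_normalizer.mp h2
      have hNcard : Nat.card (Subgroup.normalizer ((P : Subgroup G) : Set G)) = 6 := by
        have h1 := Sylow.card_eq_index_normalizer P
        rw [hn3, ← P.coe_coe] at h1
        have h2 := (Subgroup.normalizer ((P : Subgroup G) : Set G)).card_mul_index
        rw [← h1, h] at h2
        omega
      have hKdvd : Nat.card K ∣ 6 := by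
        rw [← hNcard]; exact Subgroup.card_dvd_of_le (hKN P)
      have h3ndvd : ¬ 3 ∣ Nat.card K := by
        intro h3
        obtain ⟨k, hk⟩ := exists_prime_orderOf_dvd_card' 3 h3
        have hkG : orderOf (k : G) = 3 := by rw [Subgroup.orderOf_coe]; exact hk
        have hk1 : (k : G) ≠ 1 := by
          intro h1
          rw [h1, orderOf_one] at hkG
          exact absurd hkG (by decide)
        have hall : ∀ S : Sylow 3 G, (S : Subgroup G) = Subgroup.zpowers (k : G) := by
          intro S
          have hmem : (k : G) ∈ (S : Subgroup G) :=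
            Cfsg.Agent.S1018.mem_sylow_of_mem_normalizer S hkG (hKN S k.2)
          exact le_antisymm (Cfsg.Agent.S1018.le_zpowers_of_card_prime (hcardSyl S) hmem hk1)
            (by rw [Subgroup.zpowers_le]; exact hmem)
        have hsub : Subsingleton (Sylow 3 G) :=
          ⟨fun S T => Sylow.ext (by rw [hall S, hall T])⟩
        have := Finite.card_le_one_iff_subsingleton.mpr hsub
        omega
      have hKcard : Nat.card K = 1 ∨ Nat.card K = 2 := by
        have h1 : Nat.card K ≤ 6 := Nat.le_of_dvd (by decide) hKdvd
        interval_cases (Nat.card K) <;> simp_all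
      rcases hKcard with hK1 | hK2
      · exact Subgroup.card_eq_one.mp hK1  
      · exfalso
        obtain ⟨u, hu⟩ := exists_prime_orderOf_dvd_card' (G := K) 2 (by rw [hK2])
        have huG : orderOf (u : G) = 2 := by rw [Subgroup.orderOf_coe]; exact hu
        have hu1 : (u : G) ≠ 1 := by
          intro h1
          rw [h1, orderOf_one] at huG
          exact absurd huG (by decide)
        have hKle := Cfsg.Agent.S1018.le_zpowers_of_card_prime hK2 u.2 hu1
        have hKn : K.Normal := MonoidHom.normal_ker _
        have hcomm : Commute (u : G) z₀ := by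
          have hmem : z₀ * (u : G) * z₀⁻¹ ∈ K := hKn.conj_mem _ u.2 _
          rcases mem_zpowers_cases2 huG (hKle hmem) with h1 | h1
          · exfalso
            apply hu1
            have : (u : G) = z₀⁻¹ * (z₀ * (u : G) * z₀⁻¹) * z₀ := by group
            rw [this, h1]; group
          · have := congrArg (fun w => w * z₀) h1
            simp only [inv_mul_cancel_right] at this
            exact this.symm
        exact no_comm h6 huG hz₀ hcomm
    have hinj : Function.Injective (MulAction.toPermHom G (Sylow 3 G)) :=
      (MonoidHom.ker_eq_bot_iff _).mp hker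
    have hbij : Function.Bijective (MulAction.toPermHom G (Sylow 3 G)) := by
      apply hinj.bijective_of_nat_card_le
      rw [Nat.card_perm, hn3, h]
      decide
    exact ⟨(MulEquiv.ofBijective _ hbij).trans
      (Equiv.permCongrHom (Finite.equivFinOfCardEq hn3))⟩

end Cfsg.Agent.S1012
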