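import Mathlib
import Cfsg.Agent.S0808
import Cfsg.Agent.S1012
import Cfsg.Agent.Lib.Helper16.PSL2Order

set_option autoImplicit false
open Cfsg

namespace Cfsg.Agent.S0803

open Cfsg.Agent.Lib.Helper15 Cfsg.Agent.Lib.Helper16

section chartwo

variable {F : Type*} [Field F]

theorem tr_invol (h2 : (2 : F) = 0) (A : Matrix.SpecialLinearGroup (Fin 2) F)
    (hA : A * A = 1) (hA1 : A ≠ 1) : (A : Matrix (Fin 2) (Fin 2) F).trace = 0 := by
  have hneg : (-1 : Matrix.SpecialLinearGroup (Fin 2) F) = 1 := sl2_neg_one_eq_one h2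
  have hAns : ¬ IsScalar2 (A : Matrix (Fin 2) (Fin 2) F) := by
    intro hs
    rcases sl2_scalar_cases A hs with h | h
    · exact hA1 h
    · exact hA1 (h.trans hneg)
  have h1 := sl2_cayley A
  rw [← Matrix.SpecialLinearGroup.coe_mul, hA, Matrix.SpecialLinearGroup.coe_one] at h1
  by_contra ht
  apply hAns
  have h4 : (A : Matrix (Fin 2) (Fin 2) F).trace • (A : Matrix (Fin 2) (Fin 2) F)
      = (2 : F) • (1 : Matrix (Fin 2) (Fin 2) F) := by
    rw [two_smul]
    exact (eq_sub_iff_add_eq.mp h1).symm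
  rw [h2, zero_smul] at h4
  have h5 : (A : Matrix (Fin 2) (Fin 2) F) = 0 := by
    rcases smul_eq_zero.mp h4 with h | h
    · exact absurd h ht
    · exact h
  refine ⟨by rw [h5]; rfl, by rw [h5]; rfl, by rw [h5]; rfl⟩

theorem sq_of_fourth (h2 : (2 : F) = 0) (g : Matrix.SpecialLinearGroup (Fin 2) F)
    (h4 : g * g * (g * g) = 1) : g * g = 1 := by
  by_contra hne
  have ht := tr_invol h2 (g * g) h4 hne
  have hc := sl2_cayley g
  rw [Matrix.SpecialLinearGroup.coe_mul, hc, Matrix.trace_sub, Matrix.trace_smul, Matrix.trace_one,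
    Fintype.card_fin, smul_eq_mul] at ht
  have ht0 : (g : Matrix (Fin 2) (Fin 2) F).trace = 0 := by
    have h5 : (g : Matrix (Fin 2) (Fin 2) F).trace * (g : Matrix (Fin 2) (Fin 2) F).trace = 0 := by
      push_cast at ht
      linear_combination ht + h2
    exact mul_self_eq_zero.mp h5
  apply hne
  apply Subtype.ext
  rw [Matrix.SpecialLinearGroup.coe_mul, hc, ht0, zero_smul, zero_sub,
    ← Matrix.SpecialLinearGroup.coe_one, ← Matrix.SpecialLinearGroup.coe_neg,
    sl2_neg_one_eq_one h2]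

end chartwo

theorem sq_mod (q : ℕ) (hodd : Odd q) : q ^ 2 % 16 = 1 ↔ (q % 8 = 1 ∨ q % 8 = 7) := by
  obtain ⟨j, r, hr, hq⟩ : ∃ j r, r < 8 ∧ q = 8 * j + r :=
    ⟨q / 8, q % 8, Nat.mod_lt _ (by norm_num), by omega⟩
  have h1 : q ^ 2 = 16 * (4 * j ^ 2 + j * r) + r ^ 2 := by rw [hq]; ring
  rw [h1, Nat.mul_add_mod]
  have hr2 : q % 8 = r := by omega
  rw [hr2]
  obtain ⟨k, hk⟩ := hodd
  interval_cases r <;> omega

theorem four_cycle : ∃ σ : Equiv.Perm (Fin 4), σ * σ * (σ * σ) = 1 ∧ σ * σ ≠ 1 :=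
  ⟨Equiv.swap 0 1 * Equiv.swap 1 2 * Equiv.swap 2 3, by decide, by decide⟩

section odd

variable {F : Type*} [Field F] [Fintype F]

theorem no_fix3 (h2 : (2 : F) ≠ 0)
    (V : Subgroup (Matrix.ProjectiveSpecialLinearGroup (Fin 2) F)) [IsKleinFour V]
    (x z : Matrix.ProjectiveSpecialLinearGroup (Fin 2) F)
    (hxN : x ∈ Subgroup.normalizer (V : Set (Matrix.ProjectiveSpecialLinearGroup (Fin 2) F)))
    (hx3 : x * x * x = 1) (hx1 : x ≠ 1) (hzV : z ∈ V) (hz1 : z ≠ 1) (hxz : x * z = z * x) :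
    False := by
  obtain ⟨a, b, haV, hbV, ha1, hb1, hab, hall⟩ := Cfsg.Agent.S0808.klein_elems V
  have hzz : z * z = 1 := Cfsg.Agent.S0807.klein_sq V z hzV
  obtain ⟨t, htV, ht1, htz⟩ : ∃ t, t ∈ V ∧ t ≠ 1 ∧ t ≠ z := by
    by_cases h : a = z
    · exact ⟨b, hbV, hb1, fun h' => hab (h.trans h'.symm)⟩
    · exact ⟨a, haV, ha1, h⟩
  have hsV : x * t * x⁻¹ ∈ V := (Subgroup.mem_normalizer_iff.mp hxN t).mp htV
  have hs1 : x * t * x⁻¹ ≠ 1 := fun h => ht1 (conj_eq_one_iff.mp h)
  have hsz : x * t * x⁻¹ ≠ z := by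
    intro h
    apply htz
    have h1 : t = x⁻¹ * z * x := by rw [← h]; group
    rw [h1, mul_assoc, ← hxz, inv_mul_cancel_left]
  have hxx : x * x ≠ 1 := by
    intro h
    rw [h, one_mul] at hx3
    exact hx1 hx3
  have hcase : x * t * x⁻¹ = t ∨ x * t * x⁻¹ = z * t := by
    by_cases hst : x * t * x⁻¹ = t
    · exact Or.inl hst
    · right
      have := IsKleinFour.eq_mul_of_ne_all (G := V) (x := ⟨z, hzV⟩) (y := ⟨t, htV⟩)
        (z := ⟨x * t * x⁻¹, hsV⟩) (fun h => hz1 (congrArg Subtype.val h))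
        (fun h => ht1 (congrArg Subtype.val h)) (fun h => htz (congrArg Subtype.val h).symm)
        (fun h => hs1 (congrArg Subtype.val h)) (fun h => hsz (congrArg Subtype.val h))
        (fun h => hst (congrArg Subtype.val h))
      exact congrArg Subtype.val this
  have htt : t * t = 1 := Cfsg.Agent.S0807.klein_sq V t htV
  rcases hcase with hst | hst
  · have hxt : x * t = t * x := mul_inv_eq_iff_eq_mul.mp hst
    have hxV : x ∈ V := by
      rcases Cfsg.Agent.S0808.cent_psl h2 z t x hz1 ht1 (Ne.symm htz) hzz htt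
        (Cfsg.Agent.S0807.klein_comm V z t hzV htV) hxz hxt with h | h | h | h
      · exact absurd h hx1
      · rw [h]; exact hzV
      · rw [h]; exact htV
      · rw [h]; exact mul_mem hzV htV
    exact hxx (Cfsg.Agent.S0807.klein_sq V x hxV)
  · have h5 : x * (x * t * x⁻¹) * x⁻¹ = t := by
      rw [hst]
      calc x * (z * t) * x⁻¹ = (x * z) * t * x⁻¹ := by group
        _ = z * (x * t * x⁻¹) := by rw [hxz]; group
        _ = t := by rw [hst, ← mul_assoc, hzz, one_mul]
    have h6 : x * (x * (x * t * x⁻¹) * x⁻¹) * x⁻¹ = t := by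
      calc x * (x * (x * t * x⁻¹) * x⁻¹) * x⁻¹
          = (x * x * x) * t * (x * x * x)⁻¹ := by group
        _ = t := by rw [hx3]; group
    rw [h5, hst] at h6
    apply hz1
    exact mul_eq_right.mp h6

theorem no_six (h2 : (2 : F) ≠ 0)
    (V : Subgroup (Matrix.ProjectiveSpecialLinearGroup (Fin 2) F)) [IsKleinFour V]
    (g : Matrix.ProjectiveSpecialLinearGroup (Fin 2) F)
    (hgN : g ∈ Subgroup.normalizer (V : Set (Matrix.ProjectiveSpecialLinearGroup (Fin 2) F)))
    (hg6 : g ^ 6 = 1) (hg2 : g ^ 2 ≠ 1) (hg3 : g ^ 3 ≠ 1) : False := by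
  obtain ⟨a, b, haV, hbV, ha1, hb1, hab, hall⟩ := Cfsg.Agent.S0808.klein_elems V
  obtain ⟨y, hy⟩ : ∃ y, y = g ^ 2 := ⟨_, rfl⟩
  obtain ⟨w, hw⟩ : ∃ w, w = g ^ 3 := ⟨_, rfl⟩
  have hyN : y ∈ Subgroup.normalizer (V : Set (Matrix.ProjectiveSpecialLinearGroup (Fin 2) F)) := by
    rw [hy]; exact pow_mem hgN 2
  have hwN : w ∈ Subgroup.normalizer (V : Set (Matrix.ProjectiveSpecialLinearGroup (Fin 2) F)) := by
    rw [hw]; exact pow_mem hgN 3
  have hy3 : y * y * y = 1 := by rw [hy, ← pow_add, ← pow_add]; exact hg6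
  have hw2 : w * w = 1 := by rw [hw, ← pow_add]; exact hg6
  have hy1 : y ≠ 1 := by rw [hy]; exact hg2
  have hw1 : w ≠ 1 := by rw [hw]; exact hg3
  have hyw : y * w = w * y := by rw [hy, hw, ← pow_add, ← pow_add]
  have hwinv : w⁻¹ = w := inv_eq_of_mul_eq_one_left hw2
  -- a point of V fixed by w
  obtain ⟨t, htV, ht1, hwt⟩ : ∃ t, t ∈ V ∧ t ≠ 1 ∧ w * t = t * w := by
    have hsV : w * a * w⁻¹ ∈ V := (Subgroup.mem_normalizer_iff.mp hwN a).mp haV
    by_cases hs : w * a * w⁻¹ = a
    · exact ⟨a, haV, ha1, mul_inv_eq_iff_eq_mul.mp hs⟩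
    · refine ⟨a * (w * a * w⁻¹), mul_mem haV hsV, ?_, ?_⟩
      · intro h
        apply hs
        have haa : a * a = 1 := Cfsg.Agent.S0807.klein_sq V a haV
        have h3 : a * (w * a * w⁻¹) = a * a := by rw [h, haa]
        exact mul_left_cancel h3
      · have hc := Cfsg.Agent.S0807.klein_comm V a (w * a * w⁻¹) haV hsV
        have h1 : w * (w * a * w⁻¹) * w⁻¹ = a := by
          calc w * (w * a * w⁻¹) * w⁻¹ = (w * w) * a * (w * w)⁻¹ := by group
            _ = a := by rw [hw2]; group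
        calc w * (a * (w * a * w⁻¹)) = (w * a * w⁻¹) * (w * (w * a * w⁻¹) * w⁻¹) * w := by group
          _ = (w * a * w⁻¹) * a * w := by rw [h1]
          _ = a * (w * a * w⁻¹) * w := by rw [hc]
  have ht2V : y * t * y⁻¹ ∈ V := (Subgroup.mem_normalizer_iff.mp hyN t).mp htV
  have ht21 : y * t * y⁻¹ ≠ 1 := fun h => ht1 (conj_eq_one_iff.mp h)
  have hne : t ≠ y * t * y⁻¹ := by
    intro h
    exact no_fix3 h2 V y t hyN hy3 hy1 htV ht1 (mul_inv_eq_iff_eq_mul.mp h.symm)
  have hwt2 : w * (y * t * y⁻¹) = (y * t * y⁻¹) * w := by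
    calc w * (y * t * y⁻¹) = (w * y) * t * y⁻¹ := by group
      _ = y * (w * t) * y⁻¹ := by rw [← hyw]; group
      _ = y * (t * w) * y⁻¹ := by rw [hwt]
      _ = y * t * (y⁻¹ * (y * w) * y⁻¹) := by group
      _ = y * t * (y⁻¹ * (w * y) * y⁻¹) := by rw [hyw]
      _ = (y * t * y⁻¹) * w := by group
  have hwV : w ∈ V := by
    rcases Cfsg.Agent.S0808.cent_psl h2 t (y * t * y⁻¹) w ht1 ht21 hne
      (Cfsg.Agent.S0807.klein_sq V t htV) (Cfsg.Agent.S0807.klein_sq V _ ht2V)
      (Cfsg.Agent.S0807.klein_comm V t _ htV ht2V) hwt hwt2 with h | h | h | h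
    · exact absurd h hw1
    · rw [h]; exact htV
    · rw [h]; exact ht2V
    · rw [h]; exact mul_mem htV ht2V
  exact no_fix3 h2 V y w hyN hy3 hy1 hwV hw1 hyw

theorem exists_S4 (h2 : (2 : F) ≠ 0) (hodd : Odd (Fintype.card F))
    (h8 : 8 ∣ Nat.card (Matrix.ProjectiveSpecialLinearGroup (Fin 2) F)) :
    ∃ H : Subgroup (Matrix.ProjectiveSpecialLinearGroup (Fin 2) F),
      Nonempty (H ≃* Equiv.Perm (Fin 4)) := by
  classical
  have hK := Cfsg.Agent.S0807.result (F := F) rfl hodd
  have hNpos : 0 < Nat.card (Matrix.ProjectiveSpecialLinearGroup (Fin 2) F) := Nat.card_pos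
  have hkpos : 0 < Nat.card {V : Subgroup (Matrix.ProjectiveSpecialLinearGroup (Fin 2) F) //
      IsKleinFour V} := by omega
  obtain ⟨⟨V, hV⟩⟩ := (Nat.card_pos_iff.mp hkpos).1
  have hd := Cfsg.Agent.S0808.card_norm_dvd h2 V
  have ho := Cfsg.Agent.S0808.card_orbit V
  have h8N := Sylow.prime_pow_dvd_card_normalizer (p := 2) (n := 2) (H := V)
    (by simpa using h8) IsKleinFour.card_four
  have hle : Nat.card (Set.range
        (fun g : Matrix.ProjectiveSpecialLinearGroup (Fin 2) F => Cfsg.Agent.S0808.cj g V))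
      ≤ Nat.card {V : Subgroup (Matrix.ProjectiveSpecialLinearGroup (Fin 2) F) //
          IsKleinFour V} := by
    apply Nat.card_le_card_of_injective (fun o : Set.range
        (fun g : Matrix.ProjectiveSpecialLinearGroup (Fin 2) F => Cfsg.Agent.S0808.cj g V) =>
      (⟨o.1, by
        obtain ⟨g, hg⟩ := o.2
        rw [← hg]
        exact Cfsg.Agent.S0808.cj_klein g V⟩ :
        {V : Subgroup (Matrix.ProjectiveSpecialLinearGroup (Fin 2) F) // IsKleinFour V}))
    intro o1 o2 h
    have h' : (o1 : Subgroup (Matrix.ProjectiveSpecialLinearGroup (Fin 2) F)) = o2 :=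
      congrArg (fun x : {V : Subgroup (Matrix.ProjectiveSpecialLinearGroup (Fin 2) F) //
        IsKleinFour V} => x.1) h
    exact Subtype.ext h'
  obtain ⟨N, hN⟩ : ∃ N : Subgroup (Matrix.ProjectiveSpecialLinearGroup (Fin 2) F),
      N = Subgroup.normalizer (V : Set (Matrix.ProjectiveSpecialLinearGroup (Fin 2) F)) :=
    ⟨_, rfl⟩
  rw [← hN] at hd ho h8N
  have h12 : 12 ≤ Nat.card N := by
    by_contra hcon
    push Not at hcon
    have h1 : Nat.card (Set.range
        (fun g : Matrix.ProjectiveSpecialLinearGroup (Fin 2) F => Cfsg.Agent.S0808.cj g V))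
          * Nat.card N ≤ Nat.card {V : Subgroup (Matrix.ProjectiveSpecialLinearGroup (Fin 2) F) //
          IsKleinFour V} * 11 := Nat.mul_le_mul hle (by omega)
    omega
  have hN24 : Nat.card N = 24 := by
    have h24 : Nat.card N ≤ 24 := Nat.le_of_dvd (by norm_num) hd
    obtain ⟨c, hc⟩ := h8N
    have hc' : Nat.card N = 8 * c := by rw [hc]; norm_num
    have hc3 : c ≤ 3 := by omega
    interval_cases c
    · omega
    · omega
    · rw [hc'] at hd
      norm_num at hd
    · exact hc'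
  have h6 : ∀ g : N, orderOf g ≠ 6 := by
    intro g hg
    have h1 : g ^ orderOf g = 1 := pow_orderOf_eq_one g
    rw [hg] at h1
    have h2' : g ^ 2 ≠ 1 := by
      intro h
      have := orderOf_dvd_of_pow_eq_one h
      rw [hg] at this
      norm_num at this
    have h3' : g ^ 3 ≠ 1 := by
      intro h
      have := orderOf_dvd_of_pow_eq_one h
      rw [hg] at this
      norm_num at this
    apply no_six h2 V (g : Matrix.ProjectiveSpecialLinearGroup (Fin 2) F)
      (by rw [← hN]; exact g.2)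
    · rw [← Subgroup.coe_pow, h1, Subgroup.coe_one]
    · intro h
      apply h2'
      apply Subtype.ext
      rw [Subgroup.coe_pow, h, Subgroup.coe_one]
    · intro h
      apply h3'
      apply Subtype.ext
      rw [Subgroup.coe_pow, h, Subgroup.coe_one]
  obtain ⟨e⟩ := Cfsg.Agent.S1012.result (G := N) hN24 h6
  exact ⟨N, ⟨e⟩⟩

end odd

theorem result {F : Type*} [Field F] [Fintype F] {q : ℕ} (hF : Fintype.card F = q) : (∃ H : Subgroup (Matrix.ProjectiveSpecialLinearGroup (Fin 2) F), Nonempty (H ≃* Equiv.Perm (Fin 4))) ↔ q ^ 2 % 16 = 1 := by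
  classical
  haveI : Fintype (Matrix.ProjectiveSpecialLinearGroup (Fin 2) F) := Fintype.ofFinite _
  have key : Odd q → (2 : F) ≠ 0 ∧ q * ((q - 1) * (q + 1))
      = 2 * Nat.card (Matrix.ProjectiveSpecialLinearGroup (Fin 2) F) := by
    intro hodd
    have h2 : (2 : F) ≠ 0 := by
      intro h
      have hchar : ringChar F = 2 := by
        have h3 : ringChar F ∣ 2 := by
          apply (ringChar.spec F 2).mp
          exact_mod_cast h
        rcases (Nat.dvd_prime Nat.prime_two).mp h3 with h4 | h4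
        · exfalso
          exact CharP.ringChar_ne_one (R := F) h4
        · exact h4
      have := FiniteField.even_card_of_char_two hchar
      rw [hF] at this
      rcases hodd with ⟨r, hr⟩
      omega
    refine ⟨h2, ?_⟩
    have e4 : Nat.card (Matrix.SpecialLinearGroup (Fin 2) F)
        = 2 * Nat.card (Matrix.ProjectiveSpecialLinearGroup (Fin 2) F) := by
      have h5 := Cfsg.Agent.S0807.card_fiber_sum' (pslMk F)
      simp only [Cfsg.Agent.S0807.card_fibre h2] at h5
      rw [h5, Finset.sum_const, Finset.card_univ, smul_eq_mul, Nat.card_eq_fintype_card, mul_comm]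
    rw [card_SL2_eq, hF] at e4
    exact e4
  constructor
  · rintro ⟨H, ⟨e⟩⟩
    by_contra hq
    have hH24 : Nat.card H = 24 := by
      rw [Nat.card_congr e.toEquiv, Nat.card_perm, Nat.card_eq_fintype_card, Fintype.card_fin]
      rfl
    by_cases hev : Even q
    · have h2 : (2 : F) = 0 := by
        have hchar : ringChar F = 2 :=
          FiniteField.even_card_iff_char_two.mpr (by rw [hF]; exact Nat.even_iff.mp hev)
        have := ringChar.Nat.cast_ringChar (R := F)
        rw [hchar] at this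
        exact_mod_cast this
      obtain ⟨σ, hσ4, hσ2⟩ := four_cycle
      have hinj := pslMk_injective_of_two (F := F) h2
      obtain ⟨g, hg⟩ := pslMk_surjective (F := F) (e.symm σ : H).1
      have e1 : g * g * (g * g) = 1 := by
        apply hinj
        simp only [map_mul, hg, map_one]
        have := congrArg (fun y : Equiv.Perm (Fin 4) => ((e.symm y : H) :
          Matrix.ProjectiveSpecialLinearGroup (Fin 2) F)) hσ4
        simpa only [map_mul, map_one, Subgroup.coe_mul, Subgroup.coe_one] using this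
      have e2 := sq_of_fourth h2 g e1
      apply hσ2
      apply e.symm.injective
      apply Subtype.ext
      rw [map_mul, Subgroup.coe_mul, ← hg, ← map_mul, e2, map_one, map_one, Subgroup.coe_one]
    · rw [Nat.not_even_iff_odd] at hev
      have hq8 : q % 8 = 3 ∨ q % 8 = 5 := by
        have h1 := sq_mod q hev
        obtain ⟨k, hk⟩ := hev
        by_contra hcon
        push Not at hcon
        apply hq
        rw [h1]
        omega
      obtain ⟨h2, e4⟩ := key hev
      have h8 := Cfsg.Agent.S0808.arith_not8 q _ e4 hq8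
      apply h8
      have h1 := Subgroup.card_subgroup_dvd_card H
      rw [hH24] at h1
      exact dvd_trans (by norm_num) h1
  · intro hq
    have hodd : Odd q := by
      by_contra h
      rw [Nat.not_odd_iff_even] at h
      obtain ⟨k, rfl⟩ := h
      have h1 : (k + k) ^ 2 = 4 * k ^ 2 := by ring
      rw [h1] at hq
      omega
    have hq8 := (sq_mod q hodd).mp hq
    obtain ⟨h2, e4⟩ := key hodd
    have h8 := Cfsg.Agent.S0808.arith_8 q _ e4 hq8
    exact exists_S4 h2 (by rw [hF]; exact hodd) h8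

end Cfsg.Agent.S0803
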