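import Mathlib
import Cfsg.Statements.S0812
import Cfsg.Agent.Lib.Helper16.SL2Torus
import Cfsg.Agent.Lib.Helper16.AutPSL2a
import Cfsg.Agent.Lib.Helper21.Dihedral

set_option autoImplicit false

open Cfsg

namespace Cfsg.Agent.S0812

open Cfsg.Agent.Lib.Helper16

section Dih

variable {G : Type*} [Group G]

theorem dih_sup (a x : G) (n : ℕ) (ha : a * a = 1) (hx : orderOf x = n)
    (hn : n ≠ 0) (hax : a * x * a⁻¹ = x⁻¹) (hna : a ∉ Subgroup.zpowers x) :
    Nonempty (↥(Subgroup.zpowers a ⊔ Subgroup.zpowers x) ≃* DihedralGroup n) := by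
  have haH : a ∈ Subgroup.zpowers a ⊔ Subgroup.zpowers x :=
    (le_sup_left : Subgroup.zpowers a ≤ _) (Subgroup.mem_zpowers a)
  have hxH : x ∈ Subgroup.zpowers a ⊔ Subgroup.zpowers x :=
    (le_sup_right : Subgroup.zpowers x ≤ _) (Subgroup.mem_zpowers x)
  have hgen : Subgroup.closure ({⟨a, haH⟩, ⟨x, hxH⟩} :
      Set ↥(Subgroup.zpowers a ⊔ Subgroup.zpowers x)) = ⊤ := by
    apply Subgroup.map_injective (Subgroup.subtype_injective _)
    rw [MonoidHom.map_closure, ← MonoidHom.range_eq_map, Subgroup.range_subtype, Set.image_pair]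
    simp only [Subgroup.coe_subtype]
    rw [show ({a, x} : Set G) = {a} ∪ {x} from Set.insert_eq a {x}, Subgroup.closure_union,
      ← Subgroup.zpowers_eq_closure, ← Subgroup.zpowers_eq_closure]
  obtain ⟨e⟩ := Cfsg.Agent.Lib.Helper21.nonempty_dihedral_mulEquiv
    (⟨a, haH⟩ : ↥(Subgroup.zpowers a ⊔ Subgroup.zpowers x)) ⟨x, hxH⟩ n (Subtype.ext ha)
    (by rw [← hx]; exact Subgroup.orderOf_mk x hxH) hn (Subtype.ext hax) hgen (by
      intro h
      apply hna
      obtain ⟨k, hk⟩ := Subgroup.mem_zpowers_iff.mp h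
      rw [Subgroup.mem_zpowers_iff]
      refine ⟨k, ?_⟩
      have := congrArg Subtype.val hk
      simpa using this)
  exact ⟨e.symm⟩

end Dih

section Mon

variable {F : Type*} [Field F]

/-- The monomial subgroup of `SL₂`. -/
def mon (F : Type*) [Field F] : Subgroup (Matrix.SpecialLinearGroup (Fin 2) F) where
  carrier := {g | (g.1 0 1 = 0 ∧ g.1 1 0 = 0) ∨ (g.1 0 0 = 0 ∧ g.1 1 1 = 0)}
  one_mem' := by left; simp
  mul_mem' := by
    rintro a b (⟨h1, h2⟩ | ⟨h1, h2⟩) (⟨h3, h4⟩ | ⟨h3, h4⟩)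
    · left; constructor <;> rw [sl2_mul_entry] <;> simp [h1, h2, h3, h4]
    · right; constructor <;> rw [sl2_mul_entry] <;> simp [h1, h2, h3, h4]
    · right; constructor <;> rw [sl2_mul_entry] <;> simp [h1, h2, h3, h4]
    · left; constructor <;> rw [sl2_mul_entry] <;> simp [h1, h2, h3, h4]
  inv_mem' := by
    rintro a (⟨h1, h2⟩ | ⟨h1, h2⟩)
    · left; rw [sl2_inv_01, sl2_inv_10, h1, h2]; simp
    · right; rw [sl2_inv_00, sl2_inv_11, h1, h2]; simp

theorem mem_mon (g : Matrix.SpecialLinearGroup (Fin 2) F) :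
    g ∈ mon F ↔ ((g.1 0 1 = 0 ∧ g.1 1 0 = 0) ∨ (g.1 0 0 = 0 ∧ g.1 1 1 = 0)) := Iff.rfl

theorem weyl_mem : weylW F ∈ mon F := by
  rw [mem_mon]; right; simp [weylW_val]

theorem diagS_mem_mon (u : Fˣ) : diagS u ∈ mon F := by
  rw [mem_mon]; left; simp [diagS_val]

theorem exists_sq_sub_sq [Finite F] (x : F) : ∃ y z : F, x = y ^ 2 - z ^ 2 := by
  by_cases h2 : (2 : F) = 0
  · haveI : CharP F 2 := CharTwo.of_one_ne_zero_of_two_eq_zero one_ne_zero h2
    have hchar : ringChar F = 2 := ringChar.eq F 2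
    obtain ⟨y, hy⟩ := FiniteField.isSquare_of_char_two hchar x
    exact ⟨y, 0, by rw [hy]; ring⟩
  · exact ⟨(x + 1) / 2, (x - 1) / 2, by field_simp; ring⟩

theorem upU_neg (t : F) : upU (-t) = (upU t)⁻¹ := by
  apply eq_inv_of_mul_eq_one_left
  rw [← upU_add, neg_add_cancel, upU_zero]

theorem top_of_upper [Finite F] (M : Subgroup (Matrix.SpecialLinearGroup (Fin 2) F))
    (hN : mon F ≤ M) (g : Matrix.SpecialLinearGroup (Fin 2) F) (hg : g ∈ M)
    (h10 : g.1 1 0 = 0) (h01 : g.1 0 1 ≠ 0) : M = ⊤ := by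
  have hdet := sl2_det_eq g
  rw [h10, mul_zero, sub_zero] at hdet
  have ha : g.1 0 0 ≠ 0 := left_ne_zero_of_mul_eq_one hdet
  have hb' : g.1 0 1 / g.1 0 0 ≠ 0 := div_ne_zero h01 ha
  have h1 : upU (g.1 0 1 / g.1 0 0) ∈ M := by
    have e : upU (g.1 0 1 / g.1 0 0) = diagS (Units.mk0 (g.1 0 0) ha)⁻¹ * g := by
      apply sl2_ext
      · rw [sl2_mul_entry]; simp [upU_val, diagS_val, ha]
      · rw [sl2_mul_entry]; simp [upU_val, diagS_val]; field_simp
      · rw [sl2_mul_entry]; simp [upU_val, diagS_val, h10]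
      · rw [sl2_mul_entry]; simp [upU_val, diagS_val, h10]; linear_combination -hdet
    rw [e]
    exact M.mul_mem (hN (diagS_mem_mon _)) hg
  have h2 : ∀ y : F, upU (y ^ 2 * (g.1 0 1 / g.1 0 0)) ∈ M := by
    intro y
    by_cases hy : y = 0
    · rw [hy]; simp only [ne_eq, OfNat.ofNat_ne_zero, not_false_eq_true, zero_pow, zero_mul]
      rw [upU_zero]; exact M.one_mem
    · have e : upU (y ^ 2 * (g.1 0 1 / g.1 0 0)) =
          diagS (Units.mk0 y hy) * upU (g.1 0 1 / g.1 0 0) * (diagS (Units.mk0 y hy))⁻¹ := by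
        apply sl2_ext
        · rw [sl2_mul_entry, sl2_mul_entry, sl2_inv_00, sl2_inv_10]; simp [upU_val, diagS_val, hy]
        · rw [sl2_mul_entry, sl2_mul_entry, sl2_inv_01, sl2_inv_11]; simp [upU_val, diagS_val]; ring
        · rw [sl2_mul_entry, sl2_mul_entry, sl2_inv_00, sl2_inv_10]; simp [upU_val, diagS_val]
        · rw [sl2_mul_entry, sl2_mul_entry, sl2_inv_01, sl2_inv_11]; simp [upU_val, diagS_val, hy]
      rw [e]
      exact M.mul_mem (M.mul_mem (hN (diagS_mem_mon _)) h1) (M.inv_mem (hN (diagS_mem_mon _)))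
  have h3 : ∀ x : F, upU x ∈ M := by
    intro x
    obtain ⟨y, z, hyz⟩ := exists_sq_sub_sq (x / (g.1 0 1 / g.1 0 0))
    have e : x = y ^ 2 * (g.1 0 1 / g.1 0 0) + -(z ^ 2 * (g.1 0 1 / g.1 0 0)) := by
      have : x = x / (g.1 0 1 / g.1 0 0) * (g.1 0 1 / g.1 0 0) := by field_simp
      rw [hyz] at this
      linear_combination this
    rw [e, upU_add, upU_neg]
    exact M.mul_mem (h2 y) (M.inv_mem (h2 z))
  have h4 : ∀ x : F, loU x ∈ M := by
    intro x
    have e : loU x = weylW F * upU (-x) * (weylW F)⁻¹ := by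
      apply sl2_ext
      · rw [sl2_mul_entry, sl2_mul_entry, sl2_inv_00, sl2_inv_10]; simp [upU_val, loU_val, weylW_val]
      · rw [sl2_mul_entry, sl2_mul_entry, sl2_inv_01, sl2_inv_11]; simp [upU_val, loU_val, weylW_val]
      · rw [sl2_mul_entry, sl2_mul_entry, sl2_inv_00, sl2_inv_10]; simp [upU_val, loU_val, weylW_val]
      · rw [sl2_mul_entry, sl2_mul_entry, sl2_inv_01, sl2_inv_11]; simp [upU_val, loU_val, weylW_val]
    rw [e]
    exact M.mul_mem (M.mul_mem (hN weyl_mem) (h3 _)) (M.inv_mem (hN weyl_mem))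
  rw [eq_top_iff]
  intro k _
  obtain ⟨e, x, c, y, hk⟩ := sl2_decomp k
  rw [hk]
  exact M.mul_mem (M.mul_mem (M.mul_mem (h4 e) (h3 x)) (h4 c)) (h3 y)

theorem upper_diag [Finite F] (M : Subgroup (Matrix.SpecialLinearGroup (Fin 2) F))
    (hN : mon F ≤ M) (hM : M ≠ ⊤) (g : Matrix.SpecialLinearGroup (Fin 2) F) (hg : g ∈ M)
    (h10 : g.1 1 0 = 0) : g.1 0 1 = 0 := by
  by_contra h
  exact hM (top_of_upper M hN g hg h10 h)

theorem lower_diag [Finite F] (M : Subgroup (Matrix.SpecialLinearGroup (Fin 2) F))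
    (hN : mon F ≤ M) (hM : M ≠ ⊤) (g : Matrix.SpecialLinearGroup (Fin 2) F) (hg : g ∈ M)
    (h01 : g.1 0 1 = 0) : g.1 1 0 = 0 := by
  have hw : weylW F ∈ M := hN weyl_mem
  have e10 : (weylW F * g * (weylW F)⁻¹).1 1 0 = -g.1 0 1 := by
    rw [sl2_mul_entry, sl2_mul_entry, sl2_mul_entry, sl2_inv_00, sl2_inv_10]; simp [weylW_val]
  have e01 : (weylW F * g * (weylW F)⁻¹).1 0 1 = -g.1 1 0 := by
    rw [sl2_mul_entry, sl2_mul_entry, sl2_mul_entry, sl2_inv_01, sl2_inv_11]; simp [weylW_val]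
  have h := upper_diag M hN hM (weylW F * g * (weylW F)⁻¹)
    (M.mul_mem (M.mul_mem hw hg) (M.inv_mem hw)) (by rw [e10, h01, neg_zero])
  rw [e01] at h
  exact neg_eq_zero.mp h

theorem all_ne [Finite F] (M : Subgroup (Matrix.SpecialLinearGroup (Fin 2) F))
    (hN : mon F ≤ M) (hM : M ≠ ⊤) (g : Matrix.SpecialLinearGroup (Fin 2) F) (hg : g ∈ M)
    (hgN : g ∉ mon F) :
    g.1 0 0 ≠ 0 ∧ g.1 0 1 ≠ 0 ∧ g.1 1 0 ≠ 0 ∧ g.1 1 1 ≠ 0 := by
  have hb : g.1 0 1 ≠ 0 := fun h => hgN (Or.inl ⟨h, lower_diag M hN hM g hg h⟩)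
  have hc : g.1 1 0 ≠ 0 := fun h => hgN (Or.inl ⟨upper_diag M hN hM g hg h, h⟩)
  have hgw : g * weylW F ∈ M := M.mul_mem hg (hN weyl_mem)
  have e01 : (g * weylW F).1 0 1 = g.1 0 0 := by rw [sl2_mul_entry]; simp [weylW_val]
  have e10 : (g * weylW F).1 1 0 = -g.1 1 1 := by rw [sl2_mul_entry]; simp [weylW_val]
  refine ⟨?_, hb, hc, ?_⟩
  · intro ha
    have h1 : (g * weylW F).1 1 0 = 0 := lower_diag M hN hM _ hgw (by rw [e01, ha])
    rw [e10, neg_eq_zero] at h1
    exact hgN (Or.inr ⟨ha, h1⟩)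
  · intro hd
    have h1 : (g * weylW F).1 0 1 = 0 := upper_diag M hN hM _ hgw (by rw [e10, hd, neg_zero])
    rw [e01] at h1
    exact hgN (Or.inr ⟨h1, hd⟩)

theorem zero_diag [Finite F] (M : Subgroup (Matrix.SpecialLinearGroup (Fin 2) F))
    (hN : mon F ≤ M) (hM : M ≠ ⊤) (h : Matrix.SpecialLinearGroup (Fin 2) F) (hh : h ∈ M)
    (h00 : h.1 0 0 = 0) : h.1 1 1 = 0 := by
  by_cases hmem : h ∈ mon F
  · rcases hmem with ⟨h1, h2⟩ | ⟨_, h2⟩
    · exfalso
      have hdet := sl2_det_eq h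
      rw [h00, h1] at hdet
      simp at hdet
    · exact h2
  · exact absurd h00 (all_ne M hN hM h hh hmem).1


theorem rule1 [Finite F] (M : Subgroup (Matrix.SpecialLinearGroup (Fin 2) F))
    (hN : mon F ≤ M) (hM : M ≠ ⊤) (g g' : Matrix.SpecialLinearGroup (Fin 2) F)
    (hg : g ∈ M) (hg' : g' ∈ M)
    (s : F) (hs : s ≠ 0) (h : g.1 0 0 * g'.1 0 0 * s ^ 2 + g.1 0 1 * g'.1 1 0 = 0) :
    g.1 0 0 * g.1 1 1 + g'.1 0 0 * g'.1 1 1 = 1 := by
  have hmem : g * diagS (Units.mk0 s hs) * g' ∈ M :=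
    M.mul_mem (M.mul_mem hg (hN (diagS_mem_mon _))) hg'
  have e00 : (g * diagS (Units.mk0 s hs) * g').1 0 0 =
      g.1 0 0 * s * g'.1 0 0 + g.1 0 1 * s⁻¹ * g'.1 1 0 := by
    rw [sl2_mul_entry, sl2_mul_entry, sl2_mul_entry]; simp [diagS_val]
  have e11 : (g * diagS (Units.mk0 s hs) * g').1 1 1 =
      g.1 1 0 * s * g'.1 0 1 + g.1 1 1 * s⁻¹ * g'.1 1 1 := by
    rw [sl2_mul_entry, sl2_mul_entry, sl2_mul_entry]; simp [diagS_val]
  have z00 : (g * diagS (Units.mk0 s hs) * g').1 0 0 = 0 := by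
    rw [e00]; field_simp; linear_combination h
  have z11 := zero_diag M hN hM _ hmem z00
  rw [e11] at z11
  have z11' : g.1 1 0 * g'.1 0 1 * s ^ 2 + g.1 1 1 * g'.1 1 1 = 0 := by
    have h3 : (g.1 1 0 * s * g'.1 0 1 + g.1 1 1 * s⁻¹ * g'.1 1 1) * s = 0 := by rw [z11, zero_mul]
    field_simp at h3
    linear_combination h3
  have hd := sl2_det_eq g
  have hd' := sl2_det_eq g'
  have key : g.1 0 0 * g.1 1 1 * (g'.1 0 0 * g'.1 1 1) = g.1 0 1 * g.1 1 0 * (g'.1 0 1 * g'.1 1 0) := by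
    linear_combination (g.1 0 0 * g'.1 0 0) * z11' - (g.1 1 0 * g'.1 0 1) * h
  linear_combination key - (g'.1 0 1 * g'.1 1 0) * hd - (g.1 0 0 * g.1 1 1 - 1) * hd'

theorem rule2 [Finite F] (M : Subgroup (Matrix.SpecialLinearGroup (Fin 2) F))
    (hN : mon F ≤ M) (hM : M ≠ ⊤) (g g' : Matrix.SpecialLinearGroup (Fin 2) F)
    (hg : g ∈ M) (hg' : g' ∈ M)
    (s : F) (hs : s ≠ 0) (h : g.1 0 0 * g'.1 0 1 * s ^ 2 + g.1 0 1 * g'.1 1 1 = 0) :
    g.1 0 0 * g.1 1 1 = g'.1 0 0 * g'.1 1 1 := by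
  have hmem : g * diagS (Units.mk0 s hs) * g' ∈ M :=
    M.mul_mem (M.mul_mem hg (hN (diagS_mem_mon _))) hg'
  have e01 : (g * diagS (Units.mk0 s hs) * g').1 0 1 =
      g.1 0 0 * s * g'.1 0 1 + g.1 0 1 * s⁻¹ * g'.1 1 1 := by
    rw [sl2_mul_entry, sl2_mul_entry, sl2_mul_entry]; simp [diagS_val]
  have e10 : (g * diagS (Units.mk0 s hs) * g').1 1 0 =
      g.1 1 0 * s * g'.1 0 0 + g.1 1 1 * s⁻¹ * g'.1 1 0 := by
    rw [sl2_mul_entry, sl2_mul_entry, sl2_mul_entry]; simp [diagS_val]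
  have z01 : (g * diagS (Units.mk0 s hs) * g').1 0 1 = 0 := by
    rw [e01]; field_simp; linear_combination h
  have z10 := lower_diag M hN hM _ hmem z01
  rw [e10] at z10
  have z10' : g.1 1 0 * g'.1 0 0 * s ^ 2 + g.1 1 1 * g'.1 1 0 = 0 := by
    have h3 : (g.1 1 0 * s * g'.1 0 0 + g.1 1 1 * s⁻¹ * g'.1 1 0) * s = 0 := by rw [z10, zero_mul]
    field_simp at h3
    linear_combination h3
  have hd := sl2_det_eq g
  have hd' := sl2_det_eq g'
  have key : g.1 0 0 * g.1 1 1 * (g'.1 0 1 * g'.1 1 0) = g.1 0 1 * g.1 1 0 * (g'.1 0 0 * g'.1 1 1) := by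
    linear_combination (g.1 0 0 * g'.1 0 1) * z10' - (g.1 1 0 * g'.1 0 0) * h
  linear_combination -key - (g.1 0 0 * g.1 1 1) * hd' + (g'.1 0 0 * g'.1 1 1) * hd


/-- For `g` in `M` outside the monomial group: if `-(bc)` is a square then `2ad = 1`. -/
theorem e1 [Finite F] (M : Subgroup (Matrix.SpecialLinearGroup (Fin 2) F))
    (hN : mon F ≤ M) (hM : M ≠ ⊤) (g : Matrix.SpecialLinearGroup (Fin 2) F)
    (hg : g ∈ M) (hgN : g ∉ mon F) (hsq : IsSquare (-(g.1 0 1 * g.1 1 0))) :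
    g.1 0 0 * g.1 1 1 + g.1 0 0 * g.1 1 1 = 1 := by
  obtain ⟨ha, hb, hc, hd⟩ := all_ne M hN hM g hg hgN
  obtain ⟨r, hr⟩ := hsq
  have hr0 : r ≠ 0 := by
    rintro rfl
    rw [mul_zero, neg_eq_zero] at hr
    exact mul_ne_zero hb hc hr
  refine rule1 M hN hM g g hg hg (r / g.1 0 0) (div_ne_zero hr0 ha) ?_
  field_simp
  linear_combination -hr

theorem mulw_not_mem (g : Matrix.SpecialLinearGroup (Fin 2) F) (hgN : g ∉ mon F) :
    g * weylW F ∉ mon F := by
  intro h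
  apply hgN
  have := (mon F).mul_mem h ((mon F).inv_mem weyl_mem)
  rwa [mul_inv_cancel_right] at this

/-- If `ad` is a square then `2ad = 1`. -/
theorem e2 [Finite F] (M : Subgroup (Matrix.SpecialLinearGroup (Fin 2) F))
    (hN : mon F ≤ M) (hM : M ≠ ⊤) (g : Matrix.SpecialLinearGroup (Fin 2) F)
    (hg : g ∈ M) (hgN : g ∉ mon F) (hsq : IsSquare (g.1 0 0 * g.1 1 1)) :
    g.1 0 0 * g.1 1 1 + g.1 0 0 * g.1 1 1 = 1 := by
  have e00 : (g * weylW F).1 0 0 = -g.1 0 1 := by rw [sl2_mul_entry]; simp [weylW_val]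
  have e01 : (g * weylW F).1 0 1 = g.1 0 0 := by rw [sl2_mul_entry]; simp [weylW_val]
  have e10 : (g * weylW F).1 1 0 = -g.1 1 1 := by rw [sl2_mul_entry]; simp [weylW_val]
  have e11 : (g * weylW F).1 1 1 = g.1 1 0 := by rw [sl2_mul_entry]; simp [weylW_val]
  have h := e1 M hN hM (g * weylW F) (M.mul_mem hg (hN weyl_mem)) (mulw_not_mem g hgN)
    (by rw [e01, e10]; simpa using hsq)
  rw [e00, e11] at h
  have hd := sl2_det_eq g
  linear_combination -h + 2 * hd

/-- If `ad(ad-1)` is a square then `2ad = 1`. -/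
theorem e3 [Finite F] (M : Subgroup (Matrix.SpecialLinearGroup (Fin 2) F))
    (hN : mon F ≤ M) (hM : M ≠ ⊤) (g : Matrix.SpecialLinearGroup (Fin 2) F)
    (hg : g ∈ M) (hgN : g ∉ mon F)
    (hsq : IsSquare (g.1 0 0 * g.1 1 1 * (g.1 0 0 * g.1 1 1 - 1))) :
    g.1 0 0 * g.1 1 1 + g.1 0 0 * g.1 1 1 = 1 := by
  obtain ⟨ha, hb, hc, hd⟩ := all_ne M hN hM g hg hgN
  have hdet := sl2_det_eq g
  obtain ⟨r, hr⟩ := hsq
  have hbc : g.1 0 0 * g.1 1 1 - 1 = g.1 0 1 * g.1 1 0 := by linear_combination hdet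
  have hr0 : r ≠ 0 := by
    rintro rfl
    rw [mul_zero, hbc] at hr
    exact mul_ne_zero (mul_ne_zero ha hd) (mul_ne_zero hb hc) hr
  have h := rule1 M hN hM g g⁻¹ hg (M.inv_mem hg) (r / (g.1 0 0 * g.1 1 1))
    (div_ne_zero hr0 (mul_ne_zero ha hd)) (by
      rw [sl2_inv_00, sl2_inv_10]
      field_simp
      linear_combination -hr + hbc * (g.1 0 0 * g.1 1 1))
  rw [sl2_inv_00, sl2_inv_11] at h
  linear_combination h


theorem sq_of_nonsq [Fintype F] (x y : F) (hx : ¬ IsSquare x) (hy : ¬ IsSquare y) :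
    IsSquare (x * y) := by
  classical
  have hx0 : x ≠ 0 := by rintro rfl; exact hx (IsSquare.zero)
  have hy0 : y ≠ 0 := by rintro rfl; exact hy (IsSquare.zero)
  have h1 : quadraticChar F x = -1 := quadraticChar_neg_one_iff_not_isSquare.mpr hx
  have h2 : quadraticChar F y = -1 := quadraticChar_neg_one_iff_not_isSquare.mpr hy
  rw [← quadraticChar_one_iff_isSquare (mul_ne_zero hx0 hy0), map_mul, h1, h2]
  norm_num

/-- If `-1` is a square, every element of `M` outside the monomial group has `2ad = 1`. -/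
theorem lemE [Fintype F] (M : Subgroup (Matrix.SpecialLinearGroup (Fin 2) F))
    (hN : mon F ≤ M) (hM : M ≠ ⊤) (hm1 : IsSquare (-1 : F))
    (g : Matrix.SpecialLinearGroup (Fin 2) F) (hg : g ∈ M) (hgN : g ∉ mon F) :
    g.1 0 0 * g.1 1 1 + g.1 0 0 * g.1 1 1 = 1 := by
  by_contra hne
  have hdet := sl2_det_eq g
  have h1 : ¬ IsSquare (g.1 0 0 * g.1 1 1) := fun h => hne (e2 M hN hM g hg hgN h)
  have h2 : ¬ IsSquare (-(g.1 0 1 * g.1 1 0)) := fun h => hne (e1 M hN hM g hg hgN h)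
  have h3 : ¬ IsSquare (g.1 0 0 * g.1 1 1 * (g.1 0 0 * g.1 1 1 - 1)) :=
    fun h => hne (e3 M hN hM g hg hgN h)
  apply h3
  have h4 := (sq_of_nonsq _ _ h1 h2).mul hm1
  have e : g.1 0 0 * g.1 1 1 * (g.1 0 0 * g.1 1 1 - 1) =
      g.1 0 0 * g.1 1 1 * -(g.1 0 1 * g.1 1 0) * -1 := by linear_combination (g.1 0 0 * g.1 1 1) * hdet
  rw [e]
  exact h4

/-- If `-1` is not a square, `ad(ad-1)` is never a square on `M` minus the monomial group. -/
theorem nonsq_uu [Fintype F] (M : Subgroup (Matrix.SpecialLinearGroup (Fin 2) F))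
    (hN : mon F ≤ M) (hM : M ≠ ⊤) (hm1 : ¬ IsSquare (-1 : F))
    (g : Matrix.SpecialLinearGroup (Fin 2) F) (hg : g ∈ M) (hgN : g ∉ mon F) :
    ¬ IsSquare (g.1 0 0 * g.1 1 1 * (g.1 0 0 * g.1 1 1 - 1)) := by
  intro hsq
  have h := e3 M hN hM g hg hgN hsq
  obtain ⟨r, hr⟩ := hsq
  apply hm1
  refine ⟨2 * r, ?_⟩
  linear_combination 4 * hr + (1 - 2 * (g.1 0 0 * g.1 1 1)) * h

/-- If `-1` is not a square, any two elements of `M` outside the monomial group have equal or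
complementary invariants. -/
theorem lemF [Fintype F] (M : Subgroup (Matrix.SpecialLinearGroup (Fin 2) F))
    (hN : mon F ≤ M) (hM : M ≠ ⊤) (hm1 : ¬ IsSquare (-1 : F))
    (g g' : Matrix.SpecialLinearGroup (Fin 2) F) (hg : g ∈ M) (hgN : g ∉ mon F)
    (hg' : g' ∈ M) (hg'N : g' ∉ mon F) :
    g.1 0 0 * g.1 1 1 = g'.1 0 0 * g'.1 1 1 ∨ g.1 0 0 * g.1 1 1 + g'.1 0 0 * g'.1 1 1 = 1 := by
  obtain ⟨ha, hb, hc, hd⟩ := all_ne M hN hM g hg hgN
  obtain ⟨ha', hb', hc', hd'⟩ := all_ne M hN hM g' hg' hg'N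
  have hdet' := sl2_det_eq g'
  have hns := nonsq_uu M hN hM hm1 g' hg' hg'N
  by_cases hx : IsSquare (-(g.1 0 0 * g'.1 0 0 * (g.1 0 1 * g'.1 1 0)))
  · right
    obtain ⟨r, hr⟩ := hx
    have hr0 : r ≠ 0 := by
      rintro rfl
      rw [mul_zero, neg_eq_zero] at hr
      exact mul_ne_zero (mul_ne_zero ha ha') (mul_ne_zero hb hc') hr
    refine rule1 M hN hM g g' hg hg' (r / (g.1 0 0 * g'.1 0 0))
      (div_ne_zero hr0 (mul_ne_zero ha ha')) ?_
    field_simp
    linear_combination -hr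
  · left
    by_cases hy : IsSquare (-(g.1 0 0 * g'.1 0 1 * (g.1 0 1 * g'.1 1 1)))
    · obtain ⟨r, hr⟩ := hy
      have hr0 : r ≠ 0 := by
        rintro rfl
        rw [mul_zero, neg_eq_zero] at hr
        exact mul_ne_zero (mul_ne_zero ha hb') (mul_ne_zero hb hd') hr
      refine rule2 M hN hM g g' hg hg' (r / (g.1 0 0 * g'.1 0 1))
        (div_ne_zero hr0 (mul_ne_zero ha hb')) ?_
      field_simp
      linear_combination -hr
    · exfalso
      have h4 := sq_of_nonsq _ _ hx hy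
      apply hns
      obtain ⟨r, hr⟩ := h4
      refine ⟨r / (g.1 0 0 * g.1 0 1), ?_⟩
      field_simp
      linear_combination hr + (g.1 0 0 ^ 2 * g.1 0 1 ^ 2 * g'.1 0 0 * g'.1 1 1) * hdet'


noncomputable def quadP (A C' : F) : Polynomial F :=
  Polynomial.C A * Polynomial.X ^ 2 + Polynomial.C C'

noncomputable def quartP (A B C' : F) : Polynomial F :=
  Polynomial.C A * Polynomial.X ^ 4 + Polynomial.C B * Polynomial.X ^ 2 + Polynomial.C C'

theorem quadP_ne (A C' : F) (hA : A ≠ 0) : quadP A C' ≠ 0 := by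
  intro h
  have h2 := congrArg (fun p => Polynomial.coeff p 2) h
  simp [quadP] at h2
  exact hA h2

theorem quartP_ne (A B C' : F) (hA : A ≠ 0) : quartP A B C' ≠ 0 := by
  intro h
  have h2 := congrArg (fun p => Polynomial.coeff p 4) h
  simp [quartP] at h2
  exact hA h2

theorem quadP_card [DecidableEq F] (A C' : F) : (quadP A C').roots.toFinset.card ≤ 2 :=
  (Multiset.toFinset_card_le _).trans ((Polynomial.card_roots' _).trans (by
    unfold quadP; compute_degree))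

theorem quartP_card [DecidableEq F] (A B C' : F) : (quartP A B C').roots.toFinset.card ≤ 4 :=
  (Multiset.toFinset_card_le _).trans ((Polynomial.card_roots' _).trans (by
    unfold quartP; compute_degree))

theorem quadP_mem [DecidableEq F] (A C' : F) (hA : A ≠ 0) (s : F) (h : A * s ^ 2 + C' = 0) :
    s ∈ (quadP A C').roots.toFinset := by
  rw [Multiset.mem_toFinset, Polynomial.mem_roots (quadP_ne A C' hA)]
  simp [quadP, h]

theorem quartP_mem [DecidableEq F] (A B C' : F) (hA : A ≠ 0) (s : F)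
    (h : A * s ^ 4 + B * s ^ 2 + C' = 0) : s ∈ (quartP A B C').roots.toFinset := by
  rw [Multiset.mem_toFinset, Polynomial.mem_roots (quartP_ne A B C' hA)]
  simp [quartP, h]

theorem card_cover [Fintype F] [DecidableEq F] (Z1 Z2 : Finset F) (V : Finset F)
    (Z : F → Finset F) (h1 : Z1.card ≤ 2) (h2 : Z2.card ≤ 2) (hZ : ∀ v, (Z v).card ≤ 4)
    (hsub : ∀ s : F, s ≠ 0 → s ∈ Z1 ∨ s ∈ Z2 ∨ ∃ v ∈ V, s ∈ Z v) :
    Fintype.card F ≤ 5 + 4 * V.card := by
  have hs : (Finset.univ : Finset F) ⊆ insert 0 ((Z1 ∪ Z2) ∪ V.biUnion Z) := by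
    intro s _
    by_cases hs : s = 0
    · rw [hs]; exact Finset.mem_insert_self _ _
    · apply Finset.mem_insert_of_mem
      rcases hsub s hs with h | h | ⟨v, hv, h⟩
      · exact Finset.mem_union_left _ (Finset.mem_union_left _ h)
      · exact Finset.mem_union_left _ (Finset.mem_union_right _ h)
      · exact Finset.mem_union_right _ (Finset.mem_biUnion.mpr ⟨v, hv, h⟩)
  have h0 := Finset.card_le_card hs
  rw [Finset.card_univ] at h0
  have h5 := Finset.card_insert_le (0 : F) ((Z1 ∪ Z2) ∪ V.biUnion Z)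
  have h6 := Finset.card_union_le (Z1 ∪ Z2) (V.biUnion Z)
  have h7 := Finset.card_union_le Z1 Z2
  have h8 : (V.biUnion Z).card ≤ 4 * V.card := by
    refine Finset.card_biUnion_le.trans ?_
    have h9 := Finset.sum_le_card_nsmul V (fun v => (Z v).card) 4 (fun v _ => hZ v)
    rw [smul_eq_mul, mul_comm] at h9
    exact h9
  omega

theorem count_bound [Fintype F] [DecidableEq F]
    (M : Subgroup (Matrix.SpecialLinearGroup (Fin 2) F))
    (hN : mon F ≤ M) (hM : M ≠ ⊤) (g : Matrix.SpecialLinearGroup (Fin 2) F) (hg : g ∈ M)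
    (hgN : g ∉ mon F) (V : Finset F)
    (hV : ∀ g' ∈ M, g' ∉ mon F → g'.1 0 0 * g'.1 1 1 ∈ V) :
    Fintype.card F ≤ 5 + 4 * V.card := by
  obtain ⟨ha, hb, hc, hd⟩ := all_ne M hN hM g hg hgN
  refine card_cover (quadP (g.1 0 0 ^ 2) (g.1 0 1 * g.1 1 0)).roots.toFinset
    (quadP (g.1 0 0) (g.1 1 1)).roots.toFinset V
    (fun v => (quartP (g.1 0 0 ^ 2 * (g.1 0 1 * g.1 1 0))
          (g.1 0 0 ^ 2 * g.1 1 1 ^ 2 + (g.1 0 1 * g.1 1 0) ^ 2 - v)
          (g.1 0 1 * g.1 1 0 * g.1 1 1 ^ 2)).roots.toFinset)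
    (quadP_card _ _) (quadP_card _ _) (fun v => quartP_card _ _ _) ?_
  intro s hs
  have hmem : g * diagS (Units.mk0 s hs) * g ∈ M :=
    M.mul_mem (M.mul_mem hg (hN (diagS_mem_mon _))) hg
  have e00 : (g * diagS (Units.mk0 s hs) * g).1 0 0 =
      g.1 0 0 * s * g.1 0 0 + g.1 0 1 * s⁻¹ * g.1 1 0 := by
    rw [sl2_mul_entry, sl2_mul_entry, sl2_mul_entry]; simp [diagS_val]
  have e01 : (g * diagS (Units.mk0 s hs) * g).1 0 1 =
      g.1 0 0 * s * g.1 0 1 + g.1 0 1 * s⁻¹ * g.1 1 1 := by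
    rw [sl2_mul_entry, sl2_mul_entry, sl2_mul_entry]; simp [diagS_val]
  have e11 : (g * diagS (Units.mk0 s hs) * g).1 1 1 =
      g.1 1 0 * s * g.1 0 1 + g.1 1 1 * s⁻¹ * g.1 1 1 := by
    rw [sl2_mul_entry, sl2_mul_entry, sl2_mul_entry]; simp [diagS_val]
  by_cases hin : g * diagS (Units.mk0 s hs) * g ∈ mon F
  · rcases hin with ⟨h1, _⟩ | ⟨h1, _⟩
    · rw [e01] at h1
      right; left
      apply quadP_mem _ _ ha
      have h3 : (g.1 0 0 * s * g.1 0 1 + g.1 0 1 * s⁻¹ * g.1 1 1) * s = 0 := by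
        rw [h1, zero_mul]
      field_simp at h3
      have h4 : g.1 0 1 * (g.1 0 0 * s ^ 2 + g.1 1 1) = 0 := by linear_combination h3
      exact (mul_eq_zero.mp h4).resolve_left hb
    · rw [e00] at h1
      left
      apply quadP_mem _ _ (pow_ne_zero 2 ha)
      have h3 : (g.1 0 0 * s * g.1 0 0 + g.1 0 1 * s⁻¹ * g.1 1 0) * s = 0 := by
        rw [h1, zero_mul]
      field_simp at h3
      linear_combination h3
  · right; right
    refine ⟨_, hV _ hmem hin, ?_⟩
    apply quartP_mem _ _ _ (mul_ne_zero (pow_ne_zero 2 ha) (mul_ne_zero hb hc))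
    rw [e00, e11]
    field_simp
    ring

/-- The monomial subgroup is maximal in `SL₂(q)` for `q` outside `{3, 5, 7, 9, 11}`. -/
theorem mon_max [Fintype F] (hq : Fintype.card F ∉ ({3, 5, 7, 9, 11} : Finset ℕ))
    (M : Subgroup (Matrix.SpecialLinearGroup (Fin 2) F)) (hN : mon F ≤ M)
    (hne : ¬ M ≤ mon F) : M = ⊤ := by
  classical
  by_contra hM
  obtain ⟨g, hg, hgN⟩ := SetLike.not_le_iff_exists.mp hne
  have hcard2 : 2 ≤ Fintype.card F := Fintype.one_lt_card
  simp only [Finset.mem_insert, Finset.mem_singleton, not_or] at hq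
  by_cases h2 : (2 : F) = 0
  · haveI : CharP F 2 := CharTwo.of_one_ne_zero_of_two_eq_zero one_ne_zero h2
    have hchar : ringChar F = 2 := ringChar.eq F 2
    have h := e1 M hN hM g hg hgN (FiniteField.isSquare_of_char_two hchar _)
    have h3 : (2 : F) * (g.1 0 0 * g.1 1 1) = 1 := by linear_combination h
    rw [h2, zero_mul] at h3
    exact zero_ne_one h3
  · have hchar : ringChar F ≠ 2 := by
      intro h
      haveI : CharP F 2 := ringChar.of_eq h
      exact h2 CharTwo.two_eq_zero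
    have hodd := FiniteField.odd_card_of_char_ne_two hchar
    by_cases hm1 : IsSquare (-1 : F)
    · have hcard := count_bound M hN hM g hg hgN {(2 : F)⁻¹} (fun g' hg' hg'N => by
        rw [Finset.mem_singleton]
        have h3 := lemE M hN hM hm1 g' hg' hg'N
        field_simp
        linear_combination h3)
      rw [Finset.card_singleton] at hcard
      omega
    · have h43 : Fintype.card F % 4 = 3 := by
        by_contra h
        exact hm1 (FiniteField.isSquare_neg_one_iff.mpr h)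
      have hcard := count_bound M hN hM g hg hgN
        {g.1 0 0 * g.1 1 1, 1 - g.1 0 0 * g.1 1 1} (fun g' hg' hg'N => by
        rw [Finset.mem_insert, Finset.mem_singleton]
        rcases lemF M hN hM hm1 g g' hg hgN hg' hg'N with h | h
        · left; exact h.symm
        · right; linear_combination h)
      have h2c : ({g.1 0 0 * g.1 1 1, 1 - g.1 0 0 * g.1 1 1} : Finset F).card ≤ 2 :=
        Finset.card_le_two
      omega

/-- The diagonal embedding as a homomorphism. -/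
def dgHom (F : Type*) [Field F] : Fˣ →* Matrix.SpecialLinearGroup (Fin 2) F where
  toFun := diagS
  map_one' := by apply sl2_ext <;> simp [diagS_val]
  map_mul' := by
    intro u v
    apply sl2_ext <;> rw [sl2_mul_entry] <;> simp [diagS_val, mul_comm]

theorem diag_mem_zpowers (ζ : Fˣ) (hζ : ∀ x : Fˣ, x ∈ Subgroup.zpowers ζ)
    (g : Matrix.SpecialLinearGroup (Fin 2) F) (h01 : g.1 0 1 = 0) (h10 : g.1 1 0 = 0) :
    g ∈ Subgroup.zpowers (diagS ζ) := by
  have hdet := sl2_det_eq g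
  rw [h01, zero_mul, sub_zero] at hdet
  have ha : g.1 0 0 ≠ 0 := left_ne_zero_of_mul_eq_one hdet
  obtain ⟨k, hk⟩ := Subgroup.mem_zpowers_iff.mp (hζ (Units.mk0 (g.1 0 0) ha))
  rw [Subgroup.mem_zpowers_iff]
  refine ⟨k, ?_⟩
  have e1 : diagS ζ ^ k = diagS (ζ ^ k) := (map_zpow (dgHom F) ζ k).symm
  rw [e1, hk]
  apply sl2_ext
  · simp [diagS_val]
  · simp [diagS_val, h01]
  · simp [diagS_val, h10]
  · simp only [diagS_val]
    simp
    exact (eq_inv_of_mul_eq_one_right hdet).symm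

theorem mon_eq (ζ : Fˣ) (hζ : ∀ x : Fˣ, x ∈ Subgroup.zpowers ζ) :
    mon F = Subgroup.zpowers (weylW F) ⊔ Subgroup.zpowers (diagS ζ) := by
  apply le_antisymm
  · intro g hg
    rcases hg with ⟨h1, h2⟩ | ⟨h1, h2⟩
    · exact (le_sup_right : Subgroup.zpowers (diagS ζ) ≤ _) (diag_mem_zpowers ζ hζ g h1 h2)
    · have e : g = g * (weylW F)⁻¹ * weylW F := by rw [inv_mul_cancel_right]
      rw [e]
      refine Subgroup.mul_mem _ ((le_sup_right : Subgroup.zpowers (diagS ζ) ≤ _)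
        (diag_mem_zpowers ζ hζ _ ?_ ?_))
        ((le_sup_left : Subgroup.zpowers (weylW F) ≤ _) (Subgroup.mem_zpowers _))
      · rw [sl2_mul_entry, sl2_inv_01, sl2_inv_11, h1]; simp [weylW_val]
      · rw [sl2_mul_entry, sl2_inv_00, sl2_inv_10, h2]; simp [weylW_val]
  · rw [sup_le_iff, Subgroup.zpowers_le, Subgroup.zpowers_le]
    exact ⟨weyl_mem, diagS_mem_mon ζ⟩

theorem dvd_lemma (m k : ℕ) (hm : 0 < m) : m ∣ 2 * k ↔ m / Nat.gcd 2 m ∣ k := by
  rcases Nat.even_or_odd m with ⟨j, hj⟩ | hodd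
  · have h2 : Nat.gcd 2 m = 2 := Nat.gcd_eq_left ⟨j, by omega⟩
    have hm2 : m = 2 * j := by omega
    rw [h2, hm2, Nat.mul_div_cancel_left j two_pos]
    exact Nat.mul_dvd_mul_iff_left two_pos
  · have hcop : Nat.Coprime m 2 := (Nat.coprime_two_left.mpr hodd).symm
    have h2 : Nat.gcd 2 m = 1 := Nat.coprime_two_left.mpr hodd
    rw [h2, Nat.div_one]
    exact hcop.dvd_mul_left

theorem order_r [Fintype F] (ζ : Fˣ) (hζ : ∀ x : Fˣ, x ∈ Subgroup.zpowers ζ) :
    orderOf (pslMk F (diagS ζ)) =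
      (Fintype.card F - 1) / Nat.gcd 2 (Fintype.card F - 1) := by
  classical
  have hord : orderOf ζ = Fintype.card F - 1 := by
    rw [orderOf_eq_card_of_forall_mem_zpowers hζ, Nat.card_eq_fintype_card, Fintype.card_units]
  have hpos : 0 < Fintype.card F - 1 := by
    have := Fintype.one_lt_card (α := F); omega
  have key : ∀ k : ℕ, pslMk F (diagS ζ) ^ k = 1 ↔
      (Fintype.card F - 1) / Nat.gcd 2 (Fintype.card F - 1) ∣ k := by
    intro k
    rw [← dvd_lemma _ _ hpos, ← hord, orderOf_dvd_iff_pow_eq_one, ← map_pow, pslMk_eq_one_iff]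
    have e1 : diagS ζ ^ k = diagS (ζ ^ k) := (map_pow (dgHom F) ζ k).symm
    rw [e1]
    have hsq : ζ ^ (2 * k) = 1 ↔ ((ζ : F) ^ k) ^ 2 = 1 := by
      rw [← pow_mul, mul_comm k 2, ← Units.val_pow_eq_pow_val]
      constructor
      · intro h; rw [h]; rfl
      · intro h; exact Units.ext h
    rw [hsq]
    constructor
    · rintro (h | h)
      · have h00 := congrArg (fun m : Matrix.SpecialLinearGroup (Fin 2) F => m.1 0 0) h
        simp [diagS_val] at h00
        rw [h00]; ring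
      · have h00 := congrArg (fun m : Matrix.SpecialLinearGroup (Fin 2) F => m.1 0 0) h
        simp [diagS_val] at h00
        rw [h00]; ring
    · intro h
      have hfac : ((ζ : F) ^ k - 1) * ((ζ : F) ^ k + 1) = 0 := by
        linear_combination h
      rcases mul_eq_zero.mp hfac with h1 | h1
      · left
        have h2 : (ζ : F) ^ k = 1 := by linear_combination h1
        have h3 : ζ ^ k = 1 := Units.ext (by rw [Units.val_pow_eq_pow_val, h2]; rfl)
        rw [h3]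
        exact map_one (dgHom F)
      · right
        have h2 : (ζ : F) ^ k = -1 := by linear_combination h1
        apply sl2_ext
        · simp [diagS_val, h2]
        · simp [diagS_val]
        · simp [diagS_val]
        · simp only [diagS_val]
          simp [h2]
  exact Nat.dvd_antisymm (orderOf_dvd_of_pow_eq_one ((key _).mpr dvd_rfl))
    ((key _).mp (pow_orderOf_eq_one _))

theorem s_sq : pslMk F (weylW F) * pslMk F (weylW F) = 1 := by
  rw [← map_mul, pslMk_eq_one_iff]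
  right
  apply sl2_ext <;> rw [sl2_mul_entry] <;> simp [weylW_val]

theorem s_conj (ζ : Fˣ) :
    pslMk F (weylW F) * pslMk F (diagS ζ) * (pslMk F (weylW F))⁻¹ = (pslMk F (diagS ζ))⁻¹ := by
  rw [← map_inv, ← map_inv, ← map_mul, ← map_mul]
  congr 1
  apply sl2_ext <;>
    simp only [sl2_mul_entry, sl2_inv_00, sl2_inv_01, sl2_inv_10, sl2_inv_11] <;>
    simp [weylW_val, diagS_val]

theorem s_not_mem (ζ : Fˣ) :
    pslMk F (weylW F) ∉ Subgroup.zpowers (pslMk F (diagS ζ)) := by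
  intro h
  obtain ⟨k, hk⟩ := Subgroup.mem_zpowers_iff.mp h
  rw [← map_zpow, pslMk_eq_iff] at hk
  have hd : (diagS ζ ^ k).1 0 1 = 0 := ((diagT F).zpow_mem (diagS_mem ζ) k).1
  rcases hk with hk | hk
  · have h01 := congrArg (fun m : Matrix.SpecialLinearGroup (Fin 2) F => m.1 0 1) hk
    simp only [hd] at h01
    simp [weylW_val] at h01
  · have h01 := congrArg (fun m : Matrix.SpecialLinearGroup (Fin 2) F => m.1 0 1) hk
    simp only [Matrix.SpecialLinearGroup.coe_neg, Matrix.neg_apply, hd] at h01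
    simp [weylW_val] at h01

theorem coatom [Fintype F] (hq : Fintype.card F ∉ ({3, 5, 7, 9, 11} : Finset ℕ)) :
    IsCoatom ((mon F).map (pslMk F)) := by
  have hker : (pslMk F).ker ≤ mon F := by
    intro g hg
    rw [MonoidHom.mem_ker, pslMk_eq_one_iff] at hg
    rcases hg with rfl | rfl
    · exact (mon F).one_mem
    · rw [mem_mon]; left; simp
  have hcomap : ((mon F).map (pslMk F)).comap (pslMk F) = mon F := by
    rw [Subgroup.comap_map_eq, sup_eq_left.mpr hker]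
  constructor
  · intro htop
    have h0 : mon F = ⊤ := by rw [← hcomap, htop, Subgroup.comap_top]
    have h1 : upU (1 : F) ∈ mon F := by rw [h0]; trivial
    rcases h1 with ⟨h, _⟩ | ⟨h, _⟩ <;> simp [upU_val] at h
  · intro K hK
    have hle : mon F ≤ K.comap (pslMk F) := by
      rw [← hcomap]; exact Subgroup.comap_mono hK.le
    have hne : ¬ K.comap (pslMk F) ≤ mon F := by
      intro h
      apply not_le_of_gt hK
      intro x hx
      obtain ⟨g, rfl⟩ := pslMk_surjective x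
      exact Subgroup.mem_map_of_mem _ (h hx)
    have htop := mon_max hq _ hle hne
    rw [eq_top_iff]
    intro x _
    obtain ⟨g, rfl⟩ := pslMk_surjective x
    have h3 : g ∈ K.comap (pslMk F) := by rw [htop]; trivial
    exact h3

end Mon

/-- For q ∉ {2, 3, 5, 7, 9, 11}, PSL_2(q) has a maximal subgroup isomorphic to the dihedral group of order 2(q − 1)/d, d = gcd(2, q − 1). -/
theorem result {F : Type*} [Field F] [Fintype F] {q : ℕ} (hF : Fintype.card F = q) (hq : q ∉ ({2, 3, 5, 7, 9, 11} : Finset ℕ)) : ∃ H : Subgroup (Matrix.ProjectiveSpecialLinearGroup (Fin 2) F), IsCoatom H ∧ Nonempty (H ≃* DihedralGroup ((q - 1) / Nat.gcd 2 (q - 1))) := by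
  classical
  subst hF
  obtain ⟨ζ, hζ⟩ := IsCyclic.exists_generator (α := Fˣ)
  have hq' : Fintype.card F ∉ ({3, 5, 7, 9, 11} : Finset ℕ) := by
    simp only [Finset.mem_insert, Finset.mem_singleton] at hq ⊢
    tauto
  have hpos : 0 < Fintype.card F - 1 := by
    have := Fintype.one_lt_card (α := F); omega
  have hn : (Fintype.card F - 1) / Nat.gcd 2 (Fintype.card F - 1) ≠ 0 := by
    have hg : 0 < Nat.gcd 2 (Fintype.card F - 1) := Nat.gcd_pos_of_pos_left _ two_pos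
    exact (Nat.div_pos (Nat.le_of_dvd hpos (Nat.gcd_dvd_right _ _)) hg).ne'
  refine ⟨Subgroup.zpowers (Cfsg.Agent.Lib.Helper16.pslMk F (Cfsg.Agent.Lib.Helper16.weylW F)) ⊔
    Subgroup.zpowers (Cfsg.Agent.Lib.Helper16.pslMk F (Cfsg.Agent.Lib.Helper16.diagS ζ)), ?_, ?_⟩
  · have e : Subgroup.zpowers (Cfsg.Agent.Lib.Helper16.pslMk F (Cfsg.Agent.Lib.Helper16.weylW F)) ⊔
        Subgroup.zpowers (Cfsg.Agent.Lib.Helper16.pslMk F (Cfsg.Agent.Lib.Helper16.diagS ζ)) =
        (mon F).map (Cfsg.Agent.Lib.Helper16.pslMk F) := by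
      rw [mon_eq ζ hζ, Subgroup.map_sup, MonoidHom.map_zpowers, MonoidHom.map_zpowers]
    rw [e]
    exact coatom hq'
  · exact dih_sup _ _ _ s_sq (order_r ζ hζ) hn (s_conj ζ) (s_not_mem ζ)

end Cfsg.Agent.S0812
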