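import Mathlib

namespace Cfsg.Agent.S0819

open Polynomial

theorem aux_cert {F : Type*} [Field F] (M : Matrix (Fin 3) (Fin 3) F) (t s : F) (T S A B P : F[X])
    (hT : T = C t) (hS : S = C s)
    (hχ : M ^ 3 + t • M ^ 2 + s • M + 1 = 0) (h45 : M ^ 45 = 1) (h2 : (2 : F) = 0)
    (key : P = A * (X ^ 3 + T * X ^ 2 + S * X + 1) + B * (X ^ 45 + 1)) :
    aeval M P = 0 := by
  have h1 : aeval M (X ^ 3 + T * X ^ 2 + S * X + 1 : F[X]) = 0 := by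
    rw [hT, hS]
    simp only [map_add, map_mul, map_pow, aeval_X, aeval_C, map_one]
    rw [← hχ]
    simp [Algebra.algebraMap_eq_smul_one]
  have h2' : aeval M (X ^ 45 + 1 : F[X]) = 0 := by
    simp only [map_add, map_pow, aeval_X, map_one, h45]
    have h2M : (2 : F) • (1 : Matrix (Fin 3) (Fin 3) F) = 0 := by rw [h2, zero_smul]
    rw [← h2M, two_smul]
  rw [key, map_add, map_mul, map_mul, h1, h2', mul_zero, mul_zero, add_zero]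

theorem cert1 {F : Type*} [Field F] (M : Matrix (Fin 3) (Fin 3) F) (t s : F) (T S A B : F[X])
    (hT : T = C t) (hS : S = C s)
    (hχ : M ^ 3 + t • M ^ 2 + s • M + 1 = 0) (h45 : M ^ 45 = 1) (h2 : (2 : F) = 0)
    (key : (1 : F[X]) = A * (X ^ 3 + T * X ^ 2 + S * X + 1) + B * (X ^ 45 + 1)) :
    ∃ e : F, M ^ 3 = e • 1 ∨ M ^ 5 = e • 1 := by
  have h := aux_cert M t s T S A B _ hT hS hχ h45 h2 key
  rw [map_one] at h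
  exact absurd h one_ne_zero

theorem cert3 {F : Type*} [Field F] (M : Matrix (Fin 3) (Fin 3) F) (t s e : F) (T S E A B : F[X])
    (hT : T = C t) (hS : S = C s) (hE : E = C e)
    (hχ : M ^ 3 + t • M ^ 2 + s • M + 1 = 0) (h45 : M ^ 45 = 1) (h2 : (2 : F) = 0)
    (key : X ^ 3 + E = A * (X ^ 3 + T * X ^ 2 + S * X + 1) + B * (X ^ 45 + 1)) :
    ∃ e : F, M ^ 3 = e • 1 ∨ M ^ 5 = e • 1 := by
  have h := aux_cert M t s T S A B _ hT hS hχ h45 h2 key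
  rw [hE] at h
  simp only [map_add, map_pow, aeval_X, aeval_C] at h
  refine ⟨-e, Or.inl ?_⟩
  rw [neg_smul, ← Algebra.algebraMap_eq_smul_one]
  exact eq_neg_of_add_eq_zero_left h

theorem cert5 {F : Type*} [Field F] (M : Matrix (Fin 3) (Fin 3) F) (t s e : F) (T S E A B : F[X])
    (hT : T = C t) (hS : S = C s) (hE : E = C e)
    (hχ : M ^ 3 + t • M ^ 2 + s • M + 1 = 0) (h45 : M ^ 45 = 1) (h2 : (2 : F) = 0)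
    (key : X ^ 5 + E = A * (X ^ 3 + T * X ^ 2 + S * X + 1) + B * (X ^ 45 + 1)) :
    ∃ e : F, M ^ 3 = e • 1 ∨ M ^ 5 = e • 1 := by
  have h := aux_cert M t s T S A B _ hT hS hχ h45 h2 key
  rw [hE] at h
  simp only [map_add, map_pow, aeval_X, aeval_C] at h
  refine ⟨-e, Or.inr ?_⟩
  rw [neg_smul, ← Algebra.algebraMap_eq_smul_one]
  exact eq_neg_of_add_eq_zero_left h

theorem F4_two {F : Type*} [Field F] [Fintype F] (hF : Fintype.card F = 4) : (2 : F) = 0 := by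
  have h14 : (14 : F) = 0 := by
    have := FiniteField.pow_card (2 : F)
    rw [hF] at this
    linear_combination this
  have h78 : (78 : F) = 0 := by
    have := FiniteField.pow_card (3 : F)
    rw [hF] at this
    linear_combination this
  linear_combination 2 * h78 - 11 * h14

theorem F4_omega {F : Type*} [Field F] [Fintype F] (hF : Fintype.card F = 4) :
    ∃ ω : F, ω ^ 2 = ω + 1 ∧ ∀ a : F, a = 0 ∨ a = 1 ∨ a = ω ∨ a = ω + 1 := by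
  classical
  have h2 := F4_two hF
  obtain ⟨ω, h0, h1⟩ : ∃ ω : F, ω ≠ 0 ∧ ω ≠ 1 := by
    by_contra hcon
    push Not at hcon
    have : Fintype.card F ≤ 2 := by
      calc Fintype.card F = (Finset.univ : Finset F).card := Finset.card_univ.symm
        _ ≤ ({0, 1} : Finset F).card := Finset.card_le_card (fun a _ => by
            by_cases ha : a = 0
            · simp [ha]
            · simp [hcon a ha])
        _ ≤ 2 := Finset.card_le_two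
    omega
  have hω4 := FiniteField.pow_card ω
  rw [hF] at hω4
  have hω : ω ^ 2 = ω + 1 := by
    have : ω * (ω - 1) * (ω ^ 2 + ω + 1) = 0 := by linear_combination hω4
    rcases mul_eq_zero.mp this with h | h
    · rcases mul_eq_zero.mp h with h | h
      · exact absurd h h0
      · exact absurd (sub_eq_zero.mp h) h1
    · linear_combination h - (ω + 1) * h2
  refine ⟨ω, hω, fun a => ?_⟩
  have ha := FiniteField.pow_card a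
  rw [hF] at ha
  have : a * (a - 1) * ((a - ω) * (a - (ω + 1))) = 0 := by
    linear_combination ha + (a ^ 2 - a) * hω + (-(ω + 1) * a ^ 3 + (2 * ω + 1) * a ^ 2 - ω * a) * h2
  rcases mul_eq_zero.mp this with h | h
  · rcases mul_eq_zero.mp h with h | h
    · exact Or.inl h
    · exact Or.inr (Or.inl (sub_eq_zero.mp h))
  · rcases mul_eq_zero.mp h with h | h
    · exact Or.inr (Or.inr (Or.inl (sub_eq_zero.mp h)))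
    · exact Or.inr (Or.inr (Or.inr (sub_eq_zero.mp h)))

theorem CH3 {R : Type*} [CommRing R] (M : Matrix (Fin 3) (Fin 3) R) :
    M ^ 3 - M.trace • M ^ 2 + (M 0 0 * M 1 1 - M 0 1 * M 1 0 + M 0 0 * M 2 2 - M 0 2 * M 2 0
      + M 1 1 * M 2 2 - M 1 2 * M 2 1) • M - M.det • (1 : Matrix (Fin 3) (Fin 3) R) = 0 := by
  ext i j
  fin_cases i <;> fin_cases j <;>
    simp [pow_succ, Matrix.mul_apply, Fin.sum_univ_three, Matrix.det_fin_three,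
      Matrix.trace_fin_three] <;> ring

theorem charpoly_form {F : Type*} [Field F] (h2 : (2 : F) = 0) (M : Matrix (Fin 3) (Fin 3) F)
    (hdet : M.det = 1) : ∃ t s : F, M ^ 3 + t • M ^ 2 + s • M + 1 = 0 := by
  have h := CH3 M
  rw [hdet, one_smul] at h
  refine ⟨-M.trace, M 0 0 * M 1 1 - M 0 1 * M 1 0 + M 0 0 * M 2 2 - M 0 2 * M 2 0
      + M 1 1 * M 2 2 - M 1 2 * M 2 1, ?_⟩
  have h2M : (1 : Matrix (Fin 3) (Fin 3) F) + 1 = 0 := by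
    rw [← two_smul F (1 : Matrix (Fin 3) (Fin 3) F), h2, zero_smul]
  rw [neg_smul]
  calc _ = (M ^ 3 - M.trace • M ^ 2 + (M 0 0 * M 1 1 - M 0 1 * M 1 0 + M 0 0 * M 2 2
        - M 0 2 * M 2 0 + M 1 1 * M 2 2 - M 1 2 * M 2 1) • M - 1) + (1 + 1) := by abel
    _ = 0 := by rw [h, h2M, add_zero]

theorem key_0_0 {R : Type*} [CommRing R] (W X : R) (hW : W ^ 2 = W + 1) (h2W : (2 : R) = 0) :
    X ^ 3 + 1 = (1) * (X ^ 3 + 0 * X ^ 2 + 0 * X + 1) + (0) * (X ^ 45 + 1) := by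
  linear_combination (exp := 1) (0) * hW + (0) * h2W

theorem key_0_1 {R : Type*} [CommRing R] (W X : R) (hW : W ^ 2 = W + 1) (h2W : (2 : R) = 0) :
    (1 : R) = (X ^ 2 + X ^ 3 + X ^ 4 + X ^ 6 + X ^ 9 + X ^ 10 + X ^ 11 + X ^ 13 + X ^ 16 + X ^ 17 + X ^ 18 + X ^ 20 + X ^ 23 + X ^ 24 + X ^ 25 + X ^ 27 + X ^ 30 + X ^ 31 + X ^ 32 + X ^ 34 + X ^ 37 + X ^ 38 + X ^ 39 + X ^ 41 + X ^ 44) * (X ^ 3 + 0 * X ^ 2 + 1 * X + 1) + (1 + X ^ 2) * (X ^ 45 + 1) := by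
  linear_combination (exp := 1) (0) * hW + ((-1) * X ^ 2 + (-1) * X ^ 3 + (-1) * X ^ 4 + (-1) * X ^ 5 + (-1) * X ^ 6 + (-1) * X ^ 7 + (-1) * X ^ 9 + (-1) * X ^ 10 + (-1) * X ^ 11 + (-1) * X ^ 12 + (-1) * X ^ 13 + (-1) * X ^ 14 + (-1) * X ^ 16 + (-1) * X ^ 17 + (-1) * X ^ 18 + (-1) * X ^ 19 + (-1) * X ^ 20 + (-1) * X ^ 21 + (-1) * X ^ 23 + (-1) * X ^ 24 + (-1) * X ^ 25 + (-1) * X ^ 26 + (-1) * X ^ 27 + (-1) * X ^ 28 + (-1) * X ^ 30 + (-1) * X ^ 31 + (-1) * X ^ 32 + (-1) * X ^ 33 + (-1) * X ^ 34 + (-1) * X ^ 35 + (-1) * X ^ 37 + (-1) * X ^ 38 + (-1) * X ^ 39 + (-1) * X ^ 40 + (-1) * X ^ 41 + (-1) * X ^ 42 + (-1) * X ^ 44 + (-1) * X ^ 45 + (-1) * X ^ 47) * h2W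

theorem key_0_2 {R : Type*} [CommRing R] (W X : R) (hW : W ^ 2 = W + 1) (h2W : (2 : R) = 0) :
    (1 : R) = ((W + 1) * X ^ 2 + X ^ 3 + W * X ^ 4 + X ^ 6 + X ^ 9 + W * X ^ 10 + (W + 1) * X ^ 11 + W * X ^ 13 + W * X ^ 16 + (W + 1) * X ^ 17 + X ^ 18 + (W + 1) * X ^ 20 + (W + 1) * X ^ 23 + X ^ 24 + W * X ^ 25 + X ^ 27 + X ^ 30 + W * X ^ 31 + (W + 1) * X ^ 32 + W * X ^ 34 + W * X ^ 37 + (W + 1) * X ^ 38 + X ^ 39 + (W + 1) * X ^ 41 + (W + 1) * X ^ 44) * (X ^ 3 + 0 * X ^ 2 + W * X + 1) + (1 + (W + 1) * X ^ 2) * (X ^ 45 + 1) := by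
  linear_combination (exp := 1) ((-1) * X ^ 3 + (-1) * X ^ 5 + (-1) * X ^ 11 + (-1) * X ^ 12 + (-1) * X ^ 14 + (-1) * X ^ 17 + (-1) * X ^ 18 + (-1) * X ^ 21 + (-1) * X ^ 24 + (-1) * X ^ 26 + (-1) * X ^ 32 + (-1) * X ^ 33 + (-1) * X ^ 35 + (-1) * X ^ 38 + (-1) * X ^ 39 + (-1) * X ^ 42 + (-1) * X ^ 45) * hW + ((-1) * X ^ 2 + (-1) * W * X ^ 2 + (-1) * X ^ 3 + (-1) * W * X ^ 3 + (-1) * W * X ^ 4 + (-1) * X ^ 5 + (-1) * W * X ^ 5 + (-1) * X ^ 6 + (-1) * W * X ^ 7 + (-1) * X ^ 9 + (-1) * W * X ^ 10 + (-1) * X ^ 11 + (-1) * W * X ^ 11 + (-1) * X ^ 12 + (-1) * W * X ^ 12 + (-1) * W * X ^ 13 + (-1) * X ^ 14 + (-1) * W * X ^ 14 + (-1) * W * X ^ 16 + (-1) * X ^ 17 + (-1) * W * X ^ 17 + (-1) * X ^ 18 + (-1) * W * X ^ 18 + (-1) * W * X ^ 19 + (-1) * X ^ 20 + (-1) * W * X ^ 20 + (-1) * X ^ 21 + (-1) * W * X ^ 21 + (-1) *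 X ^ 23 + (-1) * W * X ^ 23 + (-1) * X ^ 24 + (-1) * W * X ^ 24 + (-1) * W * X ^ 25 + (-1) * X ^ 26 + (-1) * W * X ^ 26 + (-1) * X ^ 27 + (-1) * W * X ^ 28 + (-1) * X ^ 30 + (-1) * W * X ^ 31 + (-1) * X ^ 32 + (-1) * W * X ^ 32 + (-1) * X ^ 33 + (-1) * W * X ^ 33 + (-1) * W * X ^ 34 + (-1) * X ^ 35 + (-1) * W * X ^ 35 + (-1) * W * X ^ 37 + (-1) * X ^ 38 + (-1) * W * X ^ 38 + (-1) * X ^ 39 + (-1) * W * X ^ 39 + (-1) * W * X ^ 40 + (-1) * X ^ 41 + (-1) * W * X ^ 41 + (-1) * X ^ 42 + (-1) * W * X ^ 42 + (-1) * X ^ 44 + (-1) * W * X ^ 44 + (-1) * X ^ 45 + (-1) * W * X ^ 45 + (-1) * X ^ 47 + (-1) * W * X ^ 47) * h2W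

theorem key_0_3 {R : Type*} [CommRing R] (W X : R) (hW : W ^ 2 = W + 1) (h2W : (2 : R) = 0) :
    (1 : R) = (W * X ^ 2 + X ^ 3 + (W + 1) * X ^ 4 + X ^ 6 + X ^ 9 + (W + 1) * X ^ 10 + W * X ^ 11 + (W + 1) * X ^ 13 + (W + 1) * X ^ 16 + W * X ^ 17 + X ^ 18 + W * X ^ 20 + W * X ^ 23 + X ^ 24 + (W + 1) * X ^ 25 + X ^ 27 + X ^ 30 + (W + 1) * X ^ 31 + W * X ^ 32 + (W + 1) * X ^ 34 + (W + 1) * X ^ 37 + W * X ^ 38 + X ^ 39 + W * X ^ 41 + W * X ^ 44) * (X ^ 3 + 0 * X ^ 2 + (W + 1) * X + 1) + (1 + W * X ^ 2) * (X ^ 45 + 1) := by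
  linear_combination (exp := 1) ((-1) * X ^ 3 + (-1) * X ^ 5 + (-1) * X ^ 11 + (-1) * X ^ 12 + (-1) * X ^ 14 + (-1) * X ^ 17 + (-1) * X ^ 18 + (-1) * X ^ 21 + (-1) * X ^ 24 + (-1) * X ^ 26 + (-1) * X ^ 32 + (-1) * X ^ 33 + (-1) * X ^ 35 + (-1) * X ^ 38 + (-1) * X ^ 39 + (-1) * X ^ 42 + (-1) * X ^ 45) * hW + ((-1) * W * X ^ 2 + (-1) * X ^ 3 + (-1) * W * X ^ 3 + (-1) * X ^ 4 + (-1) * W * X ^ 4 + (-1) * X ^ 5 + (-2) * W * X ^ 5 + (-1) * X ^ 6 + (-1) * X ^ 7 + (-1) * W * X ^ 7 + (-1) * X ^ 9 + (-1) * X ^ 10 + (-1) * W * X ^ 10 + (-1) * X ^ 11 + (-2) * W * X ^ 11 + (-1) * X ^ 12 + (-1) * W * X ^ 12 + (-1) * X ^ 13 + (-1) * W * X ^ 13 + (-1) * X ^ 14 + (-2) * W * X ^ 14 + (-1) * X ^ 16 + (-1) * W * X ^ 16 + (-1) * X ^ 17 + (-2) * W * X ^ 17 + (-1) * X ^ 18 + (-1) * W * X ^ 18 + (-1) * X ^ 19 + (-1) * W * X ^ 19 +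 (-1) * W * X ^ 20 + (-1) * X ^ 21 + (-1) * W * X ^ 21 + (-1) * W * X ^ 23 + (-1) * X ^ 24 + (-1) * W * X ^ 24 + (-1) * X ^ 25 + (-1) * W * X ^ 25 + (-1) * X ^ 26 + (-2) * W * X ^ 26 + (-1) * X ^ 27 + (-1) * X ^ 28 + (-1) * W * X ^ 28 + (-1) * X ^ 30 + (-1) * X ^ 31 + (-1) * W * X ^ 31 + (-1) * X ^ 32 + (-2) * W * X ^ 32 + (-1) * X ^ 33 + (-1) * W * X ^ 33 + (-1) * X ^ 34 + (-1) * W * X ^ 34 + (-1) * X ^ 35 + (-2) * W * X ^ 35 + (-1) * X ^ 37 + (-1) * W * X ^ 37 + (-1) * X ^ 38 + (-2) * W * X ^ 38 + (-1) * X ^ 39 + (-1) * W * X ^ 39 + (-1) * X ^ 40 + (-1) * W * X ^ 40 + (-1) * W * X ^ 41 + (-1) * X ^ 42 + (-1) * W * X ^ 42 + (-1) * W * X ^ 44 + (-1) * X ^ 45 + (-1) * W * X ^ 45 + (-1) * W * X ^ 47) * h2W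

theorem key_1_0 {R : Type*} [CommRing R] (W X : R) (hW : W ^ 2 = W + 1) (h2W : (2 : R) = 0) :
    (1 : R) = (X + X ^ 3 + X ^ 4 + X ^ 5 + X ^ 8 + X ^ 10 + X ^ 11 + X ^ 12 + X ^ 15 + X ^ 17 + X ^ 18 + X ^ 19 + X ^ 22 + X ^ 24 + X ^ 25 + X ^ 26 + X ^ 29 + X ^ 31 + X ^ 32 + X ^ 33 + X ^ 36 + X ^ 38 + X ^ 39 + X ^ 40 + X ^ 43) * (X ^ 3 + 1 * X ^ 2 + 0 * X + 1) + (1 + X) * (X ^ 45 + 1) := by
  linear_combination (exp := 1) (0) * hW + ((-1) * X + (-1) * X ^ 3 + (-1) * X ^ 4 + (-1) * X ^ 5 + (-1) * X ^ 6 + (-1) * X ^ 7 + (-1) * X ^ 8 + (-1) * X ^ 10 + (-1) * X ^ 11 + (-1) * X ^ 12 + (-1) * X ^ 13 + (-1) * X ^ 14 + (-1) * X ^ 15 + (-1) * X ^ 17 + (-1) * X ^ 18 + (-1) * X ^ 19 + (-1) * X ^ 20 + (-1) * X ^ 21 + (-1) * X ^ 22 + (-1) * X ^ 24 + (-1) * X ^ 25 + (-1) * X ^ 26 + (-1) * X ^ 27 + (-1) * X ^ 28 + (-1) * X ^ 29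 + (-1) * X ^ 31 + (-1) * X ^ 32 + (-1) * X ^ 33 + (-1) * X ^ 34 + (-1) * X ^ 35 + (-1) * X ^ 36 + (-1) * X ^ 38 + (-1) * X ^ 39 + (-1) * X ^ 40 + (-1) * X ^ 41 + (-1) * X ^ 42 + (-1) * X ^ 43 + (-1) * X ^ 45 + (-1) * X ^ 46) * h2W

theorem key_1_1 {R : Type*} [CommRing R] (W X : R) (hW : W ^ 2 = W + 1) (h2W : (2 : R) = 0) :
    X ^ 3 + 1 = (X + X ^ 4 + X ^ 5 + X ^ 8 + X ^ 9 + X ^ 12 + X ^ 13 + X ^ 16 + X ^ 17 + X ^ 20 + X ^ 21 + X ^ 24 + X ^ 25 + X ^ 28 + X ^ 29 + X ^ 32 + X ^ 33 + X ^ 36 + X ^ 37 + X ^ 40 + X ^ 41 + X ^ 44) * (X ^ 3 + 1 * X ^ 2 + 1 * X + 1) + (1 + X + X ^ 2) * (X ^ 45 + 1) := by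
  linear_combination (exp := 1) (0) * hW + ((-1) * X + (-1) * X ^ 2 + (-1) * X ^ 4 + (-1) * X ^ 5 + (-1) * X ^ 6 + (-1) * X ^ 7 + (-1) * X ^ 8 + (-1) * X ^ 9 + (-1) * X ^ 10 + (-1) * X ^ 11 + (-1) * X ^ 12 + (-1) * X ^ 13 + (-1) * X ^ 14 + (-1) * X ^ 15 + (-1) * X ^ 16 + (-1) * X ^ 17 + (-1) * X ^ 18 + (-1) * X ^ 19 + (-1) * X ^ 20 + (-1) * X ^ 21 + (-1) * X ^ 22 + (-1) * X ^ 23 + (-1) * X ^ 24 + (-1) * X ^ 25 + (-1) * X ^ 26 + (-1) * X ^ 27 + (-1) * X ^ 28 + (-1) * X ^ 29 + (-1) * X ^ 30 + (-1) * X ^ 31 + (-1) * X ^ 32 + (-1) * X ^ 33 + (-1) * X ^ 34 + (-1) * X ^ 35 + (-1) * X ^ 36 + (-1) * X ^ 37 + (-1) * X ^ 38 + (-1) * X ^ 39 + (-1) * X ^ 40 + (-1) * X ^ 41 + (-1) * X ^ 42 + (-1) * X ^ 43 + (-1) * X ^ 44 + (-1) * X ^ 45 + (-1) * X ^ 46 + (-1) * X ^ 47) * h2W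

theorem key_1_2 {R : Type*} [CommRing R] (W X : R) (hW : W ^ 2 = W + 1) (h2W : (2 : R) = 0) :
    X ^ 5 + (W + 1) = ((W + 1) + X + X ^ 2) * (X ^ 3 + 1 * X ^ 2 + W * X + 1) + (0) * (X ^ 45 + 1) := by
  linear_combination (exp := 1) ((-1) * X) * hW + ((-1) * X + (-1) * W * X + (-1) * X ^ 2 + (-1) * W * X ^ 2 + (-1) * X ^ 3 + (-1) * W * X ^ 3 + (-1) * X ^ 4) * h2W

theorem key_1_3 {R : Type*} [CommRing R] (W X : R) (hW : W ^ 2 = W + 1) (h2W : (2 : R) = 0) :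
    X ^ 5 + W = (W + X + X ^ 2) * (X ^ 3 + 1 * X ^ 2 + (W + 1) * X + 1) + (0) * (X ^ 45 + 1) := by
  linear_combination (exp := 1) ((-1) * X) * hW + ((-1) * X + (-1) * W * X + (-1) * X ^ 2 + (-1) * W * X ^ 2 + (-1) * X ^ 3 + (-1) * W * X ^ 3 + (-1) * X ^ 4) * h2W

theorem key_2_0 {R : Type*} [CommRing R] (W X : R) (hW : W ^ 2 = W + 1) (h2W : (2 : R) = 0) :
    (1 : R) = ((W + 1) * X + X ^ 3 + (W + 1) * X ^ 4 + W * X ^ 5 + W * X ^ 8 + (W + 1) * X ^ 10 + W * X ^ 11 + X ^ 12 + X ^ 15 + W * X ^ 17 + X ^ 18 + (W + 1) * X ^ 19 + (W + 1) * X ^ 22 + X ^ 24 + (W + 1) * X ^ 25 + W * X ^ 26 + W * X ^ 29 + (W + 1) * X ^ 31 + W * X ^ 32 + X ^ 33 + X ^ 36 + W * X ^ 38 + X ^ 39 + (W + 1) * X ^ 40 + (W + 1) * X ^ 43) * (X ^ 3 + W * X ^ 2 + 0 * X + 1) + (1 + (W + 1) * X) * (X ^ 45 + 1) := by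
  linear_combination (exp := 1) ((-1) * X ^ 3 + (-1) * X ^ 6 + (-1) * X ^ 7 + (-1) * X ^ 10 + (-1) * X ^ 12 + (-1) * X ^ 13 + (-1) * X ^ 19 + (-1) * X ^ 21 + (-1) * X ^ 24 + (-1) * X ^ 27 + (-1) * X ^ 28 + (-1) * X ^ 31 + (-1) * X ^ 33 + (-1) * X ^ 34 + (-1) * X ^ 40 + (-1) * X ^ 42 + (-1) * X ^ 45) * hW + ((-1) * X + (-1) * W * X + (-1) * X ^ 3 + (-1) * W * X ^ 3 + (-1) * X ^ 4 + (-1) * W * X ^ 4 + (-1) * W * X ^ 5 + (-1) * X ^ 6 + (-1) * W * X ^ 6 + (-1) * X ^ 7 + (-1) * W * X ^ 7 + (-1) * W * X ^ 8 + (-1) * X ^ 10 + (-1) * W * X ^ 10 + (-1) * W * X ^ 11 + (-1) * X ^ 12 + (-1) * W * X ^ 12 + (-1) * X ^ 13 + (-1) * W * X ^ 13 + (-1) * W * X ^ 14 + (-1) * X ^ 15 + (-1) * W * X ^ 17 + (-1) * X ^ 18 + (-1) * X ^ 19 + (-1) * W * X ^ 19 + (-1) * W * X ^ 20 + (-1) * X ^ 21 + (-1) * W * X ^ 21 + (-1) * X ^ 22 + (-1)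 * W * X ^ 22 + (-1) * X ^ 24 + (-1) * W * X ^ 24 + (-1) * X ^ 25 + (-1) * W * X ^ 25 + (-1) * W * X ^ 26 + (-1) * X ^ 27 + (-1) * W * X ^ 27 + (-1) * X ^ 28 + (-1) * W * X ^ 28 + (-1) * W * X ^ 29 + (-1) * X ^ 31 + (-1) * W * X ^ 31 + (-1) * W * X ^ 32 + (-1) * X ^ 33 + (-1) * W * X ^ 33 + (-1) * X ^ 34 + (-1) * W * X ^ 34 + (-1) * W * X ^ 35 + (-1) * X ^ 36 + (-1) * W * X ^ 38 + (-1) * X ^ 39 + (-1) * X ^ 40 + (-1) * W * X ^ 40 + (-1) * W * X ^ 41 + (-1) * X ^ 42 + (-1) * W * X ^ 42 + (-1) * X ^ 43 + (-1) * W * X ^ 43 + (-1) * X ^ 45 + (-1) * W * X ^ 45 + (-1) * X ^ 46 + (-1) * W * X ^ 46) * h2W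

theorem key_2_1 {R : Type*} [CommRing R] (W X : R) (hW : W ^ 2 = W + 1) (h2W : (2 : R) = 0) :
    X ^ 5 + W = (W + W * X + X ^ 2) * (X ^ 3 + W * X ^ 2 + 1 * X + 1) + (0) * (X ^ 45 + 1) := by
  linear_combination (exp := 1) ((-1) * X ^ 2 + (-1) * X ^ 3) * hW + ((-1) * W * X + (-1) * X ^ 2 + (-1) * W * X ^ 2 + (-1) * X ^ 3 + (-1) * W * X ^ 3 + (-1) * W * X ^ 4) * h2W

theorem key_2_2 {R : Type*} [CommRing R] (W X : R) (hW : W ^ 2 = W + 1) (h2W : (2 : R) = 0) :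
    X ^ 5 + 1 = (1 + W * X + X ^ 2) * (X ^ 3 + W * X ^ 2 + W * X + 1) + (0) * (X ^ 45 + 1) := by
  linear_combination (exp := 1) ((-1) * X ^ 2 + (-1) * X ^ 3) * hW + ((-1) * W * X + (-1) * X ^ 2 + (-1) * W * X ^ 2 + (-1) * X ^ 3 + (-1) * W * X ^ 3 + (-1) * W * X ^ 4) * h2W

theorem key_2_3 {R : Type*} [CommRing R] (W X : R) (hW : W ^ 2 = W + 1) (h2W : (2 : R) = 0) :
    X ^ 3 + 1 = ((W + 1) * X + (W + 1) * X ^ 4 + W * X ^ 5 + W * X ^ 8 + X ^ 9 + X ^ 12 + (W + 1) * X ^ 13 + (W + 1) * X ^ 16 + W * X ^ 17 + W * X ^ 20 + X ^ 21 + X ^ 24 + (W + 1) * X ^ 25 + (W + 1) * X ^ 28 + W * X ^ 29 + W * X ^ 32 + X ^ 33 + X ^ 36 + (W + 1) * X ^ 37 + (W + 1) * X ^ 40 + W * X ^ 41 + W * X ^ 44) * (X ^ 3 + W * X ^ 2 + (W + 1) * X + 1) + (1 + (W + 1) * X + W * X ^ 2) * (X ^ 45 + 1) := by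
  linear_combination (exp := 1) ((-1) * X ^ 2 + (-1) * X ^ 3 + (-1) * X ^ 5 + (-2) * X ^ 6 + (-1) * X ^ 7 + (-1) * X ^ 9 + (-1) * X ^ 10 + (-1) * X ^ 14 + (-1) * X ^ 15 + (-1) * X ^ 17 + (-2) * X ^ 18 + (-1) * X ^ 19 + (-1) * X ^ 21 + (-1) * X ^ 22 + (-1) * X ^ 26 + (-1) * X ^ 27 + (-1) * X ^ 29 + (-2) * X ^ 30 + (-1) * X ^ 31 + (-1) * X ^ 33 + (-1) * X ^ 34 + (-1) * X ^ 38 + (-1) * X ^ 39 + (-1) * X ^ 41 + (-2) * X ^ 42 + (-1) * X ^ 43 + (-1) * X ^ 45 + (-1) * X ^ 46) * hW + ((-1) * X + (-1) * W * X + (-1) * X ^ 2 + (-2) * W * X ^ 2 + (-1) * W * X ^ 3 + (-1) * X ^ 4 + (-1) * W * X ^ 4 + (-1) * X ^ 5 + (-2) * W * X ^ 5 + (-1) * X ^ 6 + (-2) * W * X ^ 6 + (-1) * X ^ 7 + (-1) * W * X ^ 7 + (-1) * W * X ^ 8 + (-1) * X ^ 9 + (-1) * W * X ^ 9 + (-1) * X ^ 10 + (-1) * W * X ^ 10 + (-1) * W * X ^ 11 + (-1) * X ^ 12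 + (-1) * X ^ 13 + (-1) * W * X ^ 13 + (-1) * X ^ 14 + (-2) * W * X ^ 14 + (-1) * X ^ 15 + (-1) * W * X ^ 15 + (-1) * X ^ 16 + (-1) * W * X ^ 16 + (-1) * X ^ 17 + (-2) * W * X ^ 17 + (-1) * X ^ 18 + (-2) * W * X ^ 18 + (-1) * X ^ 19 + (-1) * W * X ^ 19 + (-1) * W * X ^ 20 + (-1) * X ^ 21 + (-1) * W * X ^ 21 + (-1) * X ^ 22 + (-1) * W * X ^ 22 + (-1) * W * X ^ 23 + (-1) * X ^ 24 + (-1) * X ^ 25 + (-1) * W * X ^ 25 + (-1) * X ^ 26 + (-2) * W * X ^ 26 + (-1) * X ^ 27 + (-1) * W * X ^ 27 + (-1) * X ^ 28 + (-1) * W * X ^ 28 + (-1) * X ^ 29 + (-2) * W * X ^ 29 + (-1) * X ^ 30 + (-2) * W * X ^ 30 + (-1) * X ^ 31 + (-1) * W * X ^ 31 + (-1) * W * X ^ 32 + (-1) * X ^ 33 + (-1) * W * X ^ 33 + (-1) * X ^ 34 + (-1) * W * X ^ 34 + (-1) * W * X ^ 35 + (-1) * X ^ 36 + (-1) * X ^ 37 + (-1) * W * X ^ 37 + (-1) * X ^ 38 + (-2)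 * W * X ^ 38 + (-1) * X ^ 39 + (-1) * W * X ^ 39 + (-1) * X ^ 40 + (-1) * W * X ^ 40 + (-1) * X ^ 41 + (-2) * W * X ^ 41 + (-1) * X ^ 42 + (-2) * W * X ^ 42 + (-1) * X ^ 43 + (-1) * W * X ^ 43 + (-1) * W * X ^ 44 + (-1) * X ^ 45 + (-1) * W * X ^ 45 + (-1) * X ^ 46 + (-1) * W * X ^ 46 + (-1) * W * X ^ 47) * h2W

theorem key_3_0 {R : Type*} [CommRing R] (W X : R) (hW : W ^ 2 = W + 1) (h2W : (2 : R) = 0) :
    (1 : R) = (W * X + X ^ 3 + W * X ^ 4 + (W + 1) * X ^ 5 + (W + 1) * X ^ 8 + W * X ^ 10 + (W + 1) * X ^ 11 + X ^ 12 + X ^ 15 + (W + 1) * X ^ 17 + X ^ 18 + W * X ^ 19 + W * X ^ 22 + X ^ 24 + W * X ^ 25 + (W + 1) * X ^ 26 + (W + 1) * X ^ 29 + W * X ^ 31 + (W + 1) * X ^ 32 + X ^ 33 + X ^ 36 + (W + 1) * X ^ 38 + X ^ 39 + W * X ^ 40 + W * X ^ 43) * (X ^ 3 + (W + 1) * X ^ 2 + 0 * X + 1) + (1 + W * X) * (X ^ 45 +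 1) := by
  linear_combination (exp := 1) ((-1) * X ^ 3 + (-1) * X ^ 6 + (-1) * X ^ 7 + (-1) * X ^ 10 + (-1) * X ^ 12 + (-1) * X ^ 13 + (-1) * X ^ 19 + (-1) * X ^ 21 + (-1) * X ^ 24 + (-1) * X ^ 27 + (-1) * X ^ 28 + (-1) * X ^ 31 + (-1) * X ^ 33 + (-1) * X ^ 34 + (-1) * X ^ 40 + (-1) * X ^ 42 + (-1) * X ^ 45) * hW + ((-1) * W * X + (-1) * X ^ 3 + (-1) * W * X ^ 3 + (-1) * W * X ^ 4 + (-1) * X ^ 5 + (-1) * W * X ^ 5 + (-1) * X ^ 6 + (-1) * W * X ^ 6 + (-1) * X ^ 7 + (-2) * W * X ^ 7 + (-1) * X ^ 8 + (-1) * W * X ^ 8 + (-1) * X ^ 10 + (-2) * W * X ^ 10 + (-1) * X ^ 11 + (-1) * W * X ^ 11 + (-1) * X ^ 12 + (-1) * W * X ^ 12 + (-1) * X ^ 13 + (-2) * W * X ^ 13 + (-1) * X ^ 14 + (-1) * W * X ^ 14 + (-1) * X ^ 15 + (-1) * X ^ 17 + (-1) * W * X ^ 17 + (-1) * X ^ 18 + (-1) * X ^ 19 + (-2) * W * X ^ 19 + (-1) * X ^ 20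 + (-1) * W * X ^ 20 + (-1) * X ^ 21 + (-1) * W * X ^ 21 + (-1) * W * X ^ 22 + (-1) * X ^ 24 + (-1) * W * X ^ 24 + (-1) * W * X ^ 25 + (-1) * X ^ 26 + (-1) * W * X ^ 26 + (-1) * X ^ 27 + (-1) * W * X ^ 27 + (-1) * X ^ 28 + (-2) * W * X ^ 28 + (-1) * X ^ 29 + (-1) * W * X ^ 29 + (-1) * X ^ 31 + (-2) * W * X ^ 31 + (-1) * X ^ 32 + (-1) * W * X ^ 32 + (-1) * X ^ 33 + (-1) * W * X ^ 33 + (-1) * X ^ 34 + (-2) * W * X ^ 34 + (-1) * X ^ 35 + (-1) * W * X ^ 35 + (-1) * X ^ 36 + (-1) * X ^ 38 + (-1) * W * X ^ 38 + (-1) * X ^ 39 + (-1) * X ^ 40 + (-2) * W * X ^ 40 + (-1) * X ^ 41 + (-1) * W * X ^ 41 + (-1) * X ^ 42 + (-1) * W * X ^ 42 + (-1) * W * X ^ 43 + (-1) * X ^ 45 + (-1) * W * X ^ 45 + (-1) * W * X ^ 46) * h2W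

theorem key_3_1 {R : Type*} [CommRing R] (W X : R) (hW : W ^ 2 = W + 1) (h2W : (2 : R) = 0) :
    X ^ 5 + (W + 1) = ((W + 1) + (W + 1) * X + X ^ 2) * (X ^ 3 + (W + 1) * X ^ 2 + 1 * X + 1) + (0) * (X ^ 45 + 1) := by
  linear_combination (exp := 1) ((-1) * X ^ 2 + (-1) * X ^ 3) * hW + ((-1) * X + (-1) * W * X + (-2) * X ^ 2 + (-2) * W * X ^ 2 + (-2) * X ^ 3 + (-2) * W * X ^ 3 + (-1) * X ^ 4 + (-1) * W * X ^ 4) * h2W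

theorem key_3_2 {R : Type*} [CommRing R] (W X : R) (hW : W ^ 2 = W + 1) (h2W : (2 : R) = 0) :
    X ^ 3 + 1 = (W * X + W * X ^ 4 + (W + 1) * X ^ 5 + (W + 1) * X ^ 8 + X ^ 9 + X ^ 12 + W * X ^ 13 + W * X ^ 16 + (W + 1) * X ^ 17 + (W + 1) * X ^ 20 + X ^ 21 + X ^ 24 + W * X ^ 25 + W * X ^ 28 + (W + 1) * X ^ 29 + (W + 1) * X ^ 32 + X ^ 33 + X ^ 36 + W * X ^ 37 + W * X ^ 40 + (W + 1) * X ^ 41 + (W + 1) * X ^ 44) * (X ^ 3 + (W + 1) * X ^ 2 + W * X + 1) + (1 + W * X + (W + 1) * X ^ 2) * (X ^ 45 + 1) := by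
  linear_combination (exp := 1) ((-1) * X ^ 2 + (-1) * X ^ 3 + (-1) * X ^ 5 + (-2) * X ^ 6 + (-1) * X ^ 7 + (-1) * X ^ 9 + (-1) * X ^ 10 + (-1) * X ^ 14 + (-1) * X ^ 15 + (-1) * X ^ 17 + (-2) * X ^ 18 + (-1) * X ^ 19 + (-1) * X ^ 21 + (-1) * X ^ 22 + (-1) * X ^ 26 + (-1) * X ^ 27 + (-1) * X ^ 29 + (-2) * X ^ 30 + (-1) * X ^ 31 + (-1) * X ^ 33 + (-1) * X ^ 34 + (-1) * X ^ 38 + (-1) * X ^ 39 + (-1) * X ^ 41 + (-2) * X ^ 42 + (-1) * X ^ 43 + (-1) * X ^ 45 + (-1) * X ^ 46) * hW + ((-1) * W * X + (-1) * X ^ 2 + (-1) * W * X ^ 2 + (-1) * W * X ^ 3 + (-1) * W * X ^ 4 + (-1) * X ^ 5 + (-1) * W * X ^ 5 + (-1) * X ^ 6 + (-2) * W * X ^ 6 + (-1) * X ^ 7 + (-2) * W * X ^ 7 + (-1) * X ^ 8 + (-1) * W * X ^ 8 + (-1) * X ^ 9 + (-1) * W * X ^ 9 + (-1) * X ^ 10 + (-2) * W * X ^ 10 + (-1) * X ^ 11 + (-1) * W * X ^ 11 + (-1) * X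 ^ 12 + (-1) * W * X ^ 13 + (-1) * X ^ 14 + (-1) * W * X ^ 14 + (-1) * X ^ 15 + (-1) * W * X ^ 15 + (-1) * W * X ^ 16 + (-1) * X ^ 17 + (-1) * W * X ^ 17 + (-1) * X ^ 18 + (-2) * W * X ^ 18 + (-1) * X ^ 19 + (-2) * W * X ^ 19 + (-1) * X ^ 20 + (-1) * W * X ^ 20 + (-1) * X ^ 21 + (-1) * W * X ^ 21 + (-1) * X ^ 22 + (-2) * W * X ^ 22 + (-1) * X ^ 23 + (-1) * W * X ^ 23 + (-1) * X ^ 24 + (-1) * W * X ^ 25 + (-1) * X ^ 26 + (-1) * W * X ^ 26 + (-1) * X ^ 27 + (-1) * W * X ^ 27 + (-1) * W * X ^ 28 + (-1) * X ^ 29 + (-1) * W * X ^ 29 + (-1) * X ^ 30 + (-2) * W * X ^ 30 + (-1) * X ^ 31 + (-2) * W * X ^ 31 + (-1) * X ^ 32 + (-1) * W * X ^ 32 + (-1) * X ^ 33 + (-1) * W * X ^ 33 + (-1) * X ^ 34 + (-2) * W * X ^ 34 + (-1) * X ^ 35 + (-1) * W * X ^ 35 + (-1) * X ^ 36 + (-1) * W * X ^ 37 + (-1) * X ^ 38 + (-1) * W * X ^ 38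 + (-1) * X ^ 39 + (-1) * W * X ^ 39 + (-1) * W * X ^ 40 + (-1) * X ^ 41 + (-1) * W * X ^ 41 + (-1) * X ^ 42 + (-2) * W * X ^ 42 + (-1) * X ^ 43 + (-2) * W * X ^ 43 + (-1) * X ^ 44 + (-1) * W * X ^ 44 + (-1) * X ^ 45 + (-1) * W * X ^ 45 + (-1) * X ^ 46 + (-2) * W * X ^ 46 + (-1) * X ^ 47 + (-1) * W * X ^ 47) * h2W

theorem key_3_3 {R : Type*} [CommRing R] (W X : R) (hW : W ^ 2 = W + 1) (h2W : (2 : R) = 0) :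
    X ^ 5 + 1 = (1 + (W + 1) * X + X ^ 2) * (X ^ 3 + (W + 1) * X ^ 2 + (W + 1) * X + 1) + (0) * (X ^ 45 + 1) := by
  linear_combination (exp := 1) ((-1) * X ^ 2 + (-1) * X ^ 3) * hW + ((-1) * X + (-1) * W * X + (-2) * X ^ 2 + (-2) * W * X ^ 2 + (-2) * X ^ 3 + (-2) * W * X ^ 3 + (-1) * X ^ 4 + (-1) * W * X ^ 4) * h2W

theorem core {F : Type*} [Field F] (ω : F) (hω : ω ^ 2 = ω + 1) (h2 : (2 : F) = 0) (t s : F)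
    (ht : t = 0 ∨ t = 1 ∨ t = ω ∨ t = ω + 1) (hs : s = 0 ∨ s = 1 ∨ s = ω ∨ s = ω + 1)
    (M : Matrix (Fin 3) (Fin 3) F) (hχ : M ^ 3 + t • M ^ 2 + s • M + 1 = 0) (h45 : M ^ 45 = 1) :
    ∃ e : F, M ^ 3 = e • 1 ∨ M ^ 5 = e • 1 := by
  obtain ⟨W, hWd⟩ : ∃ W : F[X], W = C ω := ⟨_, rfl⟩
  have hW : W ^ 2 = W + 1 := by rw [hWd, ← map_pow, hω, map_add, map_one]
  have h2W : (2 : F[X]) = 0 := by
    rw [show (2 : F[X]) = C (2 : F) from (map_ofNat C 2).symm, h2, map_zero]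
  rcases ht with ht | ht | ht | ht
  · rcases hs with hs | hs | hs | hs
    · exact cert3 M t s 1 0 0 1 _ _ (by simp [hWd, ht]) (by simp [hWd, hs]) (by simp [hWd]) hχ h45 h2 (key_0_0 W X hW h2W)
    · exact cert1 M t s 0 1 _ _ (by simp [hWd, ht]) (by simp [hWd, hs]) hχ h45 h2 (key_0_1 W X hW h2W)
    · exact cert1 M t s 0 W _ _ (by simp [hWd, ht]) (by simp [hWd, hs]) hχ h45 h2 (key_0_2 W X hW h2W)
    · exact cert1 M t s 0 (W + 1) _ _ (by simp [hWd, ht]) (by simp [hWd, hs]) hχ h45 h2 (key_0_3 W X hW h2W)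
  · rcases hs with hs | hs | hs | hs
    · exact cert1 M t s 1 0 _ _ (by simp [hWd, ht]) (by simp [hWd, hs]) hχ h45 h2 (key_1_0 W X hW h2W)
    · exact cert3 M t s 1 1 1 1 _ _ (by simp [hWd, ht]) (by simp [hWd, hs]) (by simp [hWd]) hχ h45 h2 (key_1_1 W X hW h2W)
    · exact cert5 M t s (ω + 1) 1 W (W + 1) _ _ (by simp [hWd, ht]) (by simp [hWd, hs]) (by simp [hWd]) hχ h45 h2 (key_1_2 W X hW h2W)
    · exact cert5 M t s ω 1 (W + 1) W _ _ (by simp [hWd, ht]) (by simp [hWd, hs]) (by simp [hWd]) hχ h45 h2 (key_1_3 W X hW h2W)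
  · rcases hs with hs | hs | hs | hs
    · exact cert1 M t s W 0 _ _ (by simp [hWd, ht]) (by simp [hWd, hs]) hχ h45 h2 (key_2_0 W X hW h2W)
    · exact cert5 M t s ω W 1 W _ _ (by simp [hWd, ht]) (by simp [hWd, hs]) (by simp [hWd]) hχ h45 h2 (key_2_1 W X hW h2W)
    · exact cert5 M t s 1 W W 1 _ _ (by simp [hWd, ht]) (by simp [hWd, hs]) (by simp [hWd]) hχ h45 h2 (key_2_2 W X hW h2W)
    · exact cert3 M t s 1 W (W + 1) 1 _ _ (by simp [hWd, ht]) (by simp [hWd, hs]) (by simp [hWd]) hχ h45 h2 (key_2_3 W X hW h2W)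
  · rcases hs with hs | hs | hs | hs
    · exact cert1 M t s (W + 1) 0 _ _ (by simp [hWd, ht]) (by simp [hWd, hs]) hχ h45 h2 (key_3_0 W X hW h2W)
    · exact cert5 M t s (ω + 1) (W + 1) 1 (W + 1) _ _ (by simp [hWd, ht]) (by simp [hWd, hs]) (by simp [hWd]) hχ h45 h2 (key_3_1 W X hW h2W)
    · exact cert3 M t s 1 (W + 1) W 1 _ _ (by simp [hWd, ht]) (by simp [hWd, hs]) (by simp [hWd]) hχ h45 h2 (key_3_2 W X hW h2W)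
    · exact cert5 M t s 1 (W + 1) (W + 1) 1 _ _ (by simp [hWd, ht]) (by simp [hWd, hs]) (by simp [hWd]) hχ h45 h2 (key_3_3 W X hW h2W)

theorem result {F : Type*} [Field F] [Fintype F] (hF : Fintype.card F = 4) (g : Matrix.ProjectiveSpecialLinearGroup (Fin 3) F) : orderOf g ≠ 15 := by
  intro hord
  obtain ⟨A, rfl⟩ := QuotientGroup.mk_surjective g
  have h2 := F4_two hF
  obtain ⟨ω, hω, hall⟩ := F4_omega hF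
  have h15 : (A ^ 15 : Matrix.SpecialLinearGroup (Fin 3) F) ∈
      Subgroup.center (Matrix.SpecialLinearGroup (Fin 3) F) := by
    rw [← QuotientGroup.eq_one_iff, QuotientGroup.mk_pow, ← hord]
    exact pow_orderOf_eq_one _
  rw [Matrix.SpecialLinearGroup.mem_center_iff] at h15
  obtain ⟨c, hc, hcA⟩ := h15
  have h45 : (A : Matrix (Fin 3) (Fin 3) F) ^ 45 = 1 := by
    have h1 : (A : Matrix (Fin 3) (Fin 3) F) ^ 15 = Matrix.scalar (Fin 3) c := by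
      rw [hcA]
      simp
    rw [show 45 = 15 * 3 by norm_num, pow_mul, h1, ← map_pow]
    simp only [Fintype.card_fin] at hc
    rw [hc, map_one]
  obtain ⟨t, s, hχ⟩ := charpoly_form h2 A.1 A.2
  obtain ⟨e, he⟩ := core ω hω h2 t s (hall t) (hall s) A.1 hχ h45
  have key : ∀ k : ℕ, (A : Matrix (Fin 3) (Fin 3) F) ^ k = e • 1 →
      (QuotientGroup.mk A : Matrix.ProjectiveSpecialLinearGroup (Fin 3) F) ^ k = 1 := by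
    intro k hk
    rw [← QuotientGroup.mk_pow, QuotientGroup.eq_one_iff, Subgroup.mem_center_iff]
    intro B
    apply Subtype.ext
    simp only [Matrix.SpecialLinearGroup.coe_mul, Matrix.SpecialLinearGroup.coe_pow, hk,
      Matrix.mul_smul, Matrix.smul_mul, mul_one, one_mul]
  rcases he with he | he
  · have hdvd := orderOf_dvd_of_pow_eq_one (key 3 he)
    rw [hord] at hdvd
    norm_num at hdvd
  · have hdvd := orderOf_dvd_of_pow_eq_one (key 5 he)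
    rw [hord] at hdvd
    norm_num at hdvd

end Cfsg.Agent.S0819
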