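import Mathlib
import Cfsg.Statements.S0820

set_option autoImplicit false
open Cfsg

namespace Cfsg.Agent.S0820

section aux

variable {F : Type*} [Field F]

/-- the elementary nilpotent matrix -/
def E : Matrix (Fin 3) (Fin 3) F := Matrix.of ![![0, 0, 1], ![0, 0, 0], ![0, 0, 0]]

/-- the matrix with prescribed columns -/
def cols (p0 p1 p2 : Fin 3 → F) : Matrix (Fin 3) (Fin 3) F :=
  Matrix.of (fun i j => ![p0, p1, p2] j i)

theorem cols_mulVec (p0 p1 p2 c : Fin 3 → F) :
    (cols p0 p1 p2).mulVec c = c 0 • p0 + c 1 • p1 + c 2 • p2 := by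
  funext i
  simp [cols, Matrix.mulVec, dotProduct, Fin.sum_univ_three]
  ring

theorem mul_cols (N : Matrix (Fin 3) (Fin 3) F) (p0 p1 p2 : Fin 3 → F) :
    N * cols p0 p1 p2 = cols (N.mulVec p0) (N.mulVec p1) (N.mulVec p2) := by
  ext i j
  fin_cases j <;> simp [cols, Matrix.mul_apply, Matrix.mulVec, dotProduct, Fin.sum_univ_three]

theorem cols_mul_E (p0 p1 p2 : Fin 3 → F) :
    cols p0 p1 p2 * E = cols 0 0 p0 := by
  ext i j
  fin_cases j <;> simp [cols, E, Matrix.mul_apply, Fin.sum_univ_three]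

theorem normal_form (N : Matrix (Fin 3) (Fin 3) F) (hN : N * N = 0) (hN0 : N ≠ 0) :
    ∃ P : Matrix (Fin 3) (Fin 3) F, P.det = 1 ∧ N * P = P * E := by
  classical
  obtain ⟨w, hw⟩ : ∃ w : Fin 3 → F, N.mulVec w ≠ 0 := by
    by_contra h
    push Not at h
    apply hN0
    apply Matrix.mulVec_injective
    funext w
    rw [h w, Matrix.zero_mulVec]
  have hp0 : N.mulVec (N.mulVec w) = 0 := by
    rw [Matrix.mulVec_mulVec, hN, Matrix.zero_mulVec]
  have hrk : LinearMap.range N.mulVecLin ≤ LinearMap.ker N.mulVecLin := by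
    rintro _ ⟨v, rfl⟩
    rw [LinearMap.mem_ker, Matrix.mulVecLin_apply, Matrix.mulVecLin_apply, Matrix.mulVec_mulVec,
      hN, Matrix.zero_mulVec]
  have h3 := LinearMap.finrank_range_add_finrank_ker N.mulVecLin
  rw [Module.finrank_fin_fun] at h3
  have hle := Submodule.finrank_mono hrk
  have hker2 : 2 ≤ Module.finrank F (LinearMap.ker N.mulVecLin) := by omega
  have hspan : F ∙ (N.mulVec w) ≤ LinearMap.ker N.mulVecLin := by
    rw [Submodule.span_singleton_le_iff_mem, LinearMap.mem_ker, Matrix.mulVecLin_apply]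
    exact hp0
  obtain ⟨p1, hp1k, hp1s⟩ : ∃ p1, p1 ∈ LinearMap.ker N.mulVecLin ∧ p1 ∉ F ∙ (N.mulVec w) := by
    by_contra h
    push Not at h
    have heq : F ∙ (N.mulVec w) = LinearMap.ker N.mulVecLin := le_antisymm hspan h
    have h1 := finrank_span_singleton (K := F) hw
    rw [heq] at h1
    omega
  rw [LinearMap.mem_ker, Matrix.mulVecLin_apply] at hp1k
  have hinj : Function.Injective (cols (N.mulVec w) p1 w).mulVec := by
    have hlin : ∀ c : Fin 3 → F, (cols (N.mulVec w) p1 w).mulVec c = 0 → c = 0 := by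
      intro c hc
      rw [cols_mulVec] at hc
      have hc2 : c 2 = 0 := by
        have h1 := congrArg N.mulVec hc
        rw [Matrix.mulVec_add, Matrix.mulVec_add, Matrix.mulVec_smul, Matrix.mulVec_smul,
          Matrix.mulVec_smul, hp0, hp1k, smul_zero, smul_zero, zero_add, zero_add,
          Matrix.mulVec_zero] at h1
        exact (smul_eq_zero.mp h1).resolve_right hw
      rw [hc2, zero_smul, add_zero] at hc
      have hc1 : c 1 = 0 := by
        by_contra hne
        apply hp1s
        rw [Submodule.mem_span_singleton]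
        refine ⟨-(c 1)⁻¹ * c 0, ?_⟩
        have h1 : c 1 • p1 = -(c 0 • N.mulVec w) := eq_neg_of_add_eq_zero_right hc
        have h2 : p1 = (c 1)⁻¹ • (c 1 • p1) := by
          rw [smul_smul, inv_mul_cancel₀ hne, one_smul]
        rw [h2, h1, smul_neg, smul_smul, neg_mul, neg_smul]
      rw [hc1, zero_smul, add_zero] at hc
      have hc0 : c 0 = 0 := (smul_eq_zero.mp hc).resolve_right hw
      funext i
      fin_cases i
      · exact hc0
      · exact hc1
      · exact hc2
    intro c c' hcc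
    have h1 := hlin (c - c') (by rw [Matrix.mulVec_sub, hcc, sub_self])
    exact sub_eq_zero.mp h1
  have hunit : IsUnit (cols (N.mulVec w) p1 w).det := by
    rw [← Matrix.isUnit_iff_isUnit_det]
    exact Matrix.mulVec_injective_iff_isUnit.mp hinj
  have hdet : (cols (N.mulVec w) p1 w).det ≠ 0 := hunit.ne_zero
  have hNP : N * cols (N.mulVec w) p1 w = cols (N.mulVec w) p1 w * E := by
    rw [mul_cols, cols_mul_E, hp0, hp1k]
  obtain ⟨D, hD⟩ : ∃ D : Matrix (Fin 3) (Fin 3) F,
      D = Matrix.diagonal ![1, ((cols (N.mulVec w) p1 w).det)⁻¹, 1] := ⟨_, rfl⟩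
  have hDE : E * D = D * E := by
    rw [hD]
    ext i j
    fin_cases i <;> fin_cases j <;>
      simp [E, Matrix.mul_apply, Fin.sum_univ_three, Matrix.diagonal_apply]
  have hDdet : D.det = ((cols (N.mulVec w) p1 w).det)⁻¹ := by
    rw [hD, Matrix.det_diagonal, Fin.prod_univ_three]
    simp
  refine ⟨cols (N.mulVec w) p1 w * D, ?_, ?_⟩
  · rw [Matrix.det_mul, hDdet, mul_inv_cancel₀ hdet]
  · rw [← mul_assoc, hNP, mul_assoc, hDE, mul_assoc]

theorem det_t : (1 + E : Matrix (Fin 3) (Fin 3) F).det = 1 := by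
  simp [Matrix.det_fin_three, E]

/-- the standard transvection -/
def t : Matrix.SpecialLinearGroup (Fin 3) F := ⟨1 + E, det_t⟩

theorem conj_t (h2 : (2 : F) = 0) (g : Matrix.SpecialLinearGroup (Fin 3) F)
    (hg : g.1 * g.1 = 1) (hg1 : g ≠ 1) : IsConj g (t : Matrix.SpecialLinearGroup (Fin 3) F) := by
  have hNN : (g.1 - 1) * (g.1 - 1) = 0 := by
    calc (g.1 - 1) * (g.1 - 1) = g.1 * g.1 - g.1 - g.1 + 1 := by noncomm_ring
      _ = (2 : F) • (1 - g.1) := by rw [hg, two_smul]; abel
      _ = 0 := by rw [h2, zero_smul]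
  have hN0 : g.1 - 1 ≠ 0 := by
    intro h
    apply hg1
    apply Subtype.ext
    exact sub_eq_zero.mp h
  obtain ⟨P, hP1, hNP⟩ := normal_form (g.1 - 1) hNN hN0
  obtain ⟨Ps, hPs⟩ : ∃ Ps : Matrix.SpecialLinearGroup (Fin 3) F, Ps.1 = P := ⟨⟨P, hP1⟩, rfl⟩
  have h : g * Ps = Ps * t := by
    apply Subtype.ext
    change g.1 * Ps.1 = Ps.1 * (1 + E)
    rw [hPs, mul_add, mul_one, ← hNP, sub_mul, one_mul, add_sub_cancel]
  exact isConj_iff.mpr ⟨Ps⁻¹, by rw [inv_inv, mul_assoc, h, inv_mul_cancel_left]⟩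

end aux

/-- Any two elements of order 2 of PSL_3(4) are conjugate. -/
theorem result {F : Type*} [Field F] [Fintype F] (hF : Fintype.card F = 4) (x y : Matrix.ProjectiveSpecialLinearGroup (Fin 3) F) (hx : orderOf x = 2) (hy : orderOf y = 2) : IsConj x y := by
  classical
  have h2 : (2 : F) = 0 := by
    have h := FiniteField.cast_card_eq_zero F
    rw [hF] at h
    have h4 : (2 : F) * 2 = 0 := by
      have : ((4 : ℕ) : F) = 2 * 2 := by norm_num
      rw [← this]
      exact h
    exact mul_self_eq_zero.mp h4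
  have key : ∀ x : Matrix.ProjectiveSpecialLinearGroup (Fin 3) F, orderOf x = 2 →
      ∃ g : Matrix.SpecialLinearGroup (Fin 3) F, g.1 * g.1 = 1 ∧ g ≠ 1 ∧
        (QuotientGroup.mk g : Matrix.ProjectiveSpecialLinearGroup (Fin 3) F) = x := by
    intro x hx
    obtain ⟨g, rfl⟩ := QuotientGroup.mk_surjective x
    have hsq : (QuotientGroup.mk g : Matrix.ProjectiveSpecialLinearGroup (Fin 3) F) ^ 2 = 1 := by
      rw [← hx]
      exact pow_orderOf_eq_one _
    have hne : (QuotientGroup.mk g : Matrix.ProjectiveSpecialLinearGroup (Fin 3) F) ≠ 1 := by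
      intro h
      rw [h, orderOf_one] at hx
      norm_num at hx
    have hmem : g ^ 2 ∈ Subgroup.center (Matrix.SpecialLinearGroup (Fin 3) F) := by
      rwa [← QuotientGroup.mk_pow, QuotientGroup.eq_one_iff] at hsq
    rw [Matrix.SpecialLinearGroup.mem_center_iff] at hmem
    obtain ⟨c, hc, hcg⟩ := hmem
    have hc3 : c ^ 3 = 1 := by simpa using hc
    have hzdet : (Matrix.scalar (Fin 3) c).det = 1 := by
      rw [Matrix.scalar_apply, Matrix.det_diagonal, Fin.prod_univ_three]
      linear_combination hc3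
    obtain ⟨z, hz⟩ : ∃ z : Matrix.SpecialLinearGroup (Fin 3) F, z.1 = Matrix.scalar (Fin 3) c :=
      ⟨⟨Matrix.scalar (Fin 3) c, hzdet⟩, rfl⟩
    have hzc : z ∈ Subgroup.center (Matrix.SpecialLinearGroup (Fin 3) F) := by
      rw [Matrix.SpecialLinearGroup.mem_center_iff]
      exact ⟨c, hc, hz.symm⟩
    have hmk : (QuotientGroup.mk (z * g) : Matrix.ProjectiveSpecialLinearGroup (Fin 3) F)
        = QuotientGroup.mk g := by
      rw [QuotientGroup.mk_mul, (QuotientGroup.eq_one_iff _).mpr hzc, one_mul]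
    refine ⟨z * g, ?_, ?_, hmk⟩
    · change (z.1 * g.1) * (z.1 * g.1) = 1
      rw [hz]
      have hgg : g.1 * g.1 = Matrix.scalar (Fin 3) c := by
        rw [hcg, pow_two]
        rfl
      have hcomm : g.1 * Matrix.scalar (Fin 3) c = Matrix.scalar (Fin 3) c * g.1 := by
        rw [← hgg, mul_assoc]
      calc (Matrix.scalar (Fin 3) c * g.1) * (Matrix.scalar (Fin 3) c * g.1)
          = Matrix.scalar (Fin 3) c * (g.1 * Matrix.scalar (Fin 3) c) * g.1 := by
            simp only [mul_assoc]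
        _ = Matrix.scalar (Fin 3) c * Matrix.scalar (Fin 3) c * (g.1 * g.1) := by
            rw [hcomm]
            simp only [mul_assoc]
        _ = Matrix.scalar (Fin 3) (c ^ 3) := by
            rw [hgg, ← map_mul, ← map_mul]
            congr 1
            ring
        _ = 1 := by rw [hc3, map_one]
    · intro h
      apply hne
      rw [← hmk, h]
      rfl
  obtain ⟨g, hg, hg1, rfl⟩ := key x hx
  obtain ⟨g', hg', hg1', rfl⟩ := key y hy
  have h1 := conj_t h2 g hg hg1
  have h2' := conj_t h2 g' hg' hg1'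
  have h3 : IsConj g g' := h1.trans h2'.symm
  exact (QuotientGroup.mk' (Subgroup.center (Matrix.SpecialLinearGroup (Fin 3) F))).map_isConj h3

end Cfsg.Agent.S0820
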