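import Cfsg.Statements.S0821
import Cfsg.Agent.Lib.Helper16.TwoRankC
import Cfsg.Agent.Lib.Helper16.TwoRankD
import Cfsg.Agent.Lib.Helper16.OrthAutG

set_option autoImplicit false
open Cfsg

namespace Cfsg.Agent.S0821

open Cfsg.Agent.Lib.Helper16

/-- PSp_2m(q) ≇ PΩ_(2m+1)(q) for q odd and m ≥ 3 (they have the same order). -/
theorem result {F : Type*} [Field F] [Fintype F] (hodd : Odd (Fintype.card F)) (m : ℕ) (hm : 3 ≤ m) : IsEmpty (Cfsg.PSp m F ≃* Cfsg.POmega F (Cfsg.quadFormOdd m F)) := by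
  constructor
  intro e
  have h2 : (2 : F) ≠ 0 := oa_two_ne_zero hodd
  obtain ⟨m', rfl⟩ : ∃ m', m = m' + 1 := ⟨m - 1, by omega⟩
  obtain ⟨A, hA, hcard⟩ := omega_big_elem' m' F h2 (by omega) _ (qfOdd_coe (m' + 1) F)
  have hlt := psp_no_big_elem (m' + 1) h2 hm (A.map e.symm.toMonoidHom) (by
    rintro a ⟨x, hx, rfl⟩
    rw [← map_mul, hA x hx, map_one])
  rw [Subgroup.card_map_of_injective e.symm.injective] at hlt
  have : 2 * (m' + 1) - 1 = 2 * m' + 1 := by omega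
  rw [this] at hlt
  omega

end Cfsg.Agent.S0821
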