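import Mathlib
import Cfsg.Statements.S0823

set_option autoImplicit false
open Cfsg

namespace Cfsg.Agent.S0823

section aux

variable {F : Type*} [Field F]

/-- a vector given by its three coordinates -/
def mk (x y z : F) : Unit ⊕ (Fin 1 ⊕ Fin 1) → F :=
  Sum.elim (fun _ => x) (Sum.elim (fun _ => y) (fun _ => z))

theorem mk_eta (v : Unit ⊕ (Fin 1 ⊕ Fin 1) → F) :
    v = mk (v (Sum.inl ())) (v (Sum.inr (Sum.inl 0))) (v (Sum.inr (Sum.inr 0))) := by
  funext j
  rcases j with j | j | j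
  · rfl
  · fin_cases j; rfl
  · fin_cases j; rfl

theorem mk_add (x y z x' y' z' : F) :
    mk x y z + mk x' y' z' = mk (x + x') (y + y') (z + z') := by
  funext j
  rcases j with j | j | j <;> rfl

theorem mk_smul (c x y z : F) : c • mk x y z = mk (c * x) (c * y) (c * z) := by
  funext j
  rcases j with j | j | j <;> rfl

theorem mk_neg (x y z : F) : - mk x y z = mk (-x) (-y) (-z) := by
  funext j
  rcases j with j | j | j <;> rfl

theorem mk_zero : mk (0 : F) 0 0 = 0 := by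
  funext j
  rcases j with j | j | j <;> rfl

theorem Q_mk (x y z : F) : Cfsg.quadFormOdd 1 F (mk x y z) = x ^ 2 + y * z := by
  simp [Cfsg.quadFormOdd, mk]

/-- the covector of the polar form -/
def wv (v : Unit ⊕ (Fin 1 ⊕ Fin 1) → F) : Unit ⊕ (Fin 1 ⊕ Fin 1) → F :=
  mk (2 * v (Sum.inl ())) (v (Sum.inr (Sum.inr 0))) (v (Sum.inr (Sum.inl 0)))

theorem wv_mk (a b c : F) : wv (mk a b c) = mk (2 * a) c b := rfl

theorem dot_mk (a b c x y z : F) : mk a b c ⬝ᵥ mk x y z = a * x + b * y + c * z := by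
  simp [dotProduct, Fintype.sum_sum_type, mk]
  ring

theorem polar_smul (a b : F) (u v : Unit ⊕ (Fin 1 ⊕ Fin 1) → F) :
    Cfsg.quadFormOdd 1 F (a • u + b • v)
      = a ^ 2 * Cfsg.quadFormOdd 1 F u + b ^ 2 * Cfsg.quadFormOdd 1 F v
        + a * b * (wv v ⬝ᵥ u) := by
  rw [mk_eta u, mk_eta v, mk_smul, mk_smul, mk_add, wv_mk, Q_mk, Q_mk, Q_mk, dot_mk]
  generalize u (Sum.inl ()) = x
  generalize u (Sum.inr (Sum.inl 0)) = y
  generalize u (Sum.inr (Sum.inr 0)) = z
  generalize v (Sum.inl ()) = x'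
  generalize v (Sum.inr (Sum.inl 0)) = y'
  generalize v (Sum.inr (Sum.inr 0)) = z'
  ring

theorem Q_neg (u : Unit ⊕ (Fin 1 ⊕ Fin 1) → F) :
    Cfsg.quadFormOdd 1 F (-u) = Cfsg.quadFormOdd 1 F u := by
  rw [mk_eta u, mk_neg, Q_mk, Q_mk]
  ring

theorem wv_self (v : Unit ⊕ (Fin 1 ⊕ Fin 1) → F) :
    wv v ⬝ᵥ v = 2 * Cfsg.quadFormOdd 1 F v := by
  rw [mk_eta v, wv_mk, dot_mk, Q_mk]
  ring

theorem wv_sub (u v : Unit ⊕ (Fin 1 ⊕ Fin 1) → F) : wv (u - v) = wv u - wv v := by
  funext j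
  rcases j with j | j | j
  · simp [wv, mk]
    ring
  · simp [wv, mk]
  · simp [wv, mk]

/-- the reflection matrix -/
def refl (v : Unit ⊕ (Fin 1 ⊕ Fin 1) → F) :
    Matrix (Unit ⊕ (Fin 1 ⊕ Fin 1)) (Unit ⊕ (Fin 1 ⊕ Fin 1)) F :=
  1 - Matrix.vecMulVec v (wv v)

theorem refl_mulVec (v x : Unit ⊕ (Fin 1 ⊕ Fin 1) → F) :
    (refl v).mulVec x = x - (wv v ⬝ᵥ x) • v := by
  rw [refl, Matrix.sub_mulVec, Matrix.one_mulVec, Matrix.vecMulVec_mulVec, op_smul_eq_smul]

theorem refl_sq (v : Unit ⊕ (Fin 1 ⊕ Fin 1) → F) (hv : Cfsg.quadFormOdd 1 F v = 1) :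
    refl v * refl v = 1 := by
  have hN : Matrix.vecMulVec v (wv v) * Matrix.vecMulVec v (wv v)
      = (2 : F) • Matrix.vecMulVec v (wv v) := by
    rw [Matrix.vecMulVec_mul_vecMulVec, wv_self, hv, mul_one]
    ext a b
    simp [Matrix.vecMulVec_apply]
    ring
  calc refl v * refl v
      = 1 - (2 : F) • Matrix.vecMulVec v (wv v)
        + Matrix.vecMulVec v (wv v) * Matrix.vecMulVec v (wv v) := by
        rw [refl, two_smul]
        noncomm_ring
    _ = 1 := by rw [hN]; abel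

theorem refl_iso (v : Unit ⊕ (Fin 1 ⊕ Fin 1) → F)
    (hv : Cfsg.quadFormOdd 1 F v = 1) (x : Unit ⊕ (Fin 1 ⊕ Fin 1) → F) :
    Cfsg.quadFormOdd 1 F ((refl v).mulVec x) = Cfsg.quadFormOdd 1 F x := by
  have h1 : (refl v).mulVec x = (1 : F) • x + (-(wv v ⬝ᵥ x)) • v := by
    rw [refl_mulVec, one_smul, neg_smul, sub_eq_add_neg]
  rw [h1, polar_smul, hv]
  ring

theorem det_refl (v : Unit ⊕ (Fin 1 ⊕ Fin 1) → F) : (refl v).det = 1 - wv v ⬝ᵥ v := by
  rw [refl, Matrix.vecMulVec_eq Unit, Matrix.det_one_sub_mul_comm, Matrix.det_unique,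
    Matrix.sub_apply, Matrix.one_apply_eq, Matrix.replicateRow_mul_replicateCol_apply]

theorem sq_dot (u w : Unit ⊕ (Fin 1 ⊕ Fin 1) → F) :
    w ⬝ᵥ ((Matrix.vecMulVec u u).mulVec w) = (w ⬝ᵥ u) ^ 2 := by
  rw [Matrix.vecMulVec_mulVec, op_smul_eq_smul, dotProduct_smul, smul_eq_mul,
    dotProduct_comm u w, pow_two]

theorem vmv_neg (u : Unit ⊕ (Fin 1 ⊕ Fin 1) → F) :
    Matrix.vecMulVec (-u) (-u) = Matrix.vecMulVec u u := by
  ext a b
  simp [Matrix.vecMulVec_apply]

theorem conj_vmv (M : Matrix (Unit ⊕ (Fin 1 ⊕ Fin 1)) (Unit ⊕ (Fin 1 ⊕ Fin 1)) F)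
    (v : Unit ⊕ (Fin 1 ⊕ Fin 1) → F) :
    M * Matrix.vecMulVec v v * M.transpose = Matrix.vecMulVec (M.mulVec v) (M.mulVec v) := by
  rw [Matrix.mul_vecMulVec, Matrix.vecMulVec_mul, Matrix.vecMul_transpose]

end aux

/-- SO_3(3) ≅ S_4: the determinant-one isometries of the form x_0² + x_1y_1 over the field with 3 elements form a group isomorphic to the symmetric group on 4 letters. -/
theorem result {F : Type*} [Field F] [Fintype F] (hF : Fintype.card F = 3) : Nonempty (↥(Cfsg.specialIsometryGroup F (Cfsg.quadFormOdd 1 F)) ≃* Equiv.Perm (Fin 4)) := by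
  classical
  have h3 : (3 : F) = 0 := by
    have h := FiniteField.cast_card_eq_zero F
    rw [hF] at h
    exact_mod_cast h
  have h2 : (2 : F) ≠ 0 := fun h => one_ne_zero (by linear_combination h3 - h)
  have hF3 : ∀ x : F, x = 0 ∨ x = 1 ∨ x = -1 := by
    intro x
    have h := FiniteField.pow_card x
    rw [hF] at h
    have h' : x * (x - 1) * (x + 1) = 0 := by linear_combination h
    rcases mul_eq_zero.mp h' with h | h
    · rcases mul_eq_zero.mp h with h | h
      · exact Or.inl h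
      · exact Or.inr (Or.inl (sub_eq_zero.mp h))
    · exact Or.inr (Or.inr (eq_neg_of_add_eq_zero_left h))
  let X : Fin 4 → F := ![0, 0, 1, -1]
  let Y : Fin 4 → F := ![1, 0, 1, 1]
  let Z : Fin 4 → F := ![0, -1, -1, -1]
  let s : Fin 4 → (Unit ⊕ (Fin 1 ⊕ Fin 1) → F) := fun i => mk (X i) (Y i) (Z i)
  have hsdef : ∀ i, s i = mk (X i) (Y i) (Z i) := fun i => rfl
  have hsQ : ∀ i, Cfsg.quadFormOdd 1 F (s i) = 0 := by
    intro i
    rw [hsdef, Q_mk]
    fin_cases i <;> simp [X, Y, Z]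
  have Bs : ∀ a b, wv (s a) ⬝ᵥ s b = if a = b then 0 else -1 := by
    intro a b
    rw [hsdef, hsdef, wv_mk, dot_mk]
    fin_cases a <;> fin_cases b <;> simp [X, Y, Z] <;>
      first
        | ring1
        | linear_combination (-1 : F) * h3
        | linear_combination (1 : F) * h3
  have hs0 : ∀ i, s i ≠ 0 := by
    intro i h
    have h1 := congrFun h (Sum.inr (Sum.inl 0))
    have h2 := congrFun h (Sum.inr (Sum.inr 0))
    fin_cases i <;> simp [s, mk, Y, Z] at h1 h2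
  have hssurj : ∀ v : Unit ⊕ (Fin 1 ⊕ Fin 1) → F, v ≠ 0 →
      Cfsg.quadFormOdd 1 F v = 0 → ∃ i, v = s i ∨ v = - s i := by
    have key : ∀ x y z : F, mk x y z ≠ 0 → x ^ 2 + y * z = 0 →
        ∃ i, mk x y z = s i ∨ mk x y z = - s i := by
      intro x y z hne hq
      rcases hF3 x with rfl | rfl | rfl <;> rcases hF3 y with rfl | rfl | rfl <;>
        rcases hF3 z with rfl | rfl | rfl <;>
        first
          | exact absurd mk_zero hne
          | (exfalso; simp [h2] at hq; done)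
          | (exfalso; apply h2; linear_combination hq)
          | exact ⟨0, Or.inl rfl⟩
          | exact ⟨1, Or.inl rfl⟩
          | exact ⟨2, Or.inl rfl⟩
          | exact ⟨3, Or.inl rfl⟩
          | (refine ⟨0, Or.inr ?_⟩; rw [hsdef, mk_neg]; simp [X, Y, Z]; done)
          | (refine ⟨1, Or.inr ?_⟩; rw [hsdef, mk_neg]; simp [X, Y, Z]; done)
          | (refine ⟨2, Or.inr ?_⟩; rw [hsdef, mk_neg]; simp [X, Y, Z]; done)
          | (refine ⟨3, Or.inr ?_⟩; rw [hsdef, mk_neg]; simp [X, Y, Z]; done)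
    intro v hv hq
    rw [mk_eta v] at hv hq ⊢
    rw [Q_mk] at hq
    exact key _ _ _ hv hq
  let P : Fin 4 → Matrix (Unit ⊕ (Fin 1 ⊕ Fin 1)) (Unit ⊕ (Fin 1 ⊕ Fin 1)) F :=
    fun i => Matrix.vecMulVec (s i) (s i)
  have hPinj : Function.Injective P := by
    intro a b hab
    by_contra hne
    have h1 := sq_dot (s a) (wv (s a))
    have h2' := sq_dot (s b) (wv (s a))
    have hab' : Matrix.vecMulVec (s a) (s a) = Matrix.vecMulVec (s b) (s b) := hab
    rw [hab', h2', Bs a a, Bs a b, if_pos rfl, if_neg hne] at h1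
    simp at h1
  let M : ↥(Cfsg.specialIsometryGroup F (Cfsg.quadFormOdd 1 F)) →
      Matrix (Unit ⊕ (Fin 1 ⊕ Fin 1)) (Unit ⊕ (Fin 1 ⊕ Fin 1)) F :=
    fun g => ((g : ↥(Cfsg.isometryGroup F (Cfsg.quadFormOdd 1 F))) :
      Matrix.GeneralLinearGroup (Unit ⊕ (Fin 1 ⊕ Fin 1)) F).1
  have hM1 : M 1 = 1 := rfl
  have hMmul : ∀ g h, M (g * h) = M g * M h := fun g h => rfl
  have hMinv : ∀ g, M g⁻¹ * M g = 1 := by
    intro g
    rw [← hMmul, inv_mul_cancel, hM1]
  have hiso : ∀ (g : ↥(Cfsg.specialIsometryGroup F (Cfsg.quadFormOdd 1 F)))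
      (v : Unit ⊕ (Fin 1 ⊕ Fin 1) → F),
      Cfsg.quadFormOdd 1 F ((M g).mulVec v) = Cfsg.quadFormOdd 1 F v := fun g v => g.1.2 v v
  have hdet : ∀ (g : ↥(Cfsg.specialIsometryGroup F (Cfsg.quadFormOdd 1 F))), (M g).det = 1 := by
    intro g
    have h := MonoidHom.mem_ker.mp g.2
    have h' := congrArg Units.val h
    simpa using h'
  have hne0 : ∀ (g : ↥(Cfsg.specialIsometryGroup F (Cfsg.quadFormOdd 1 F)))
      (v : Unit ⊕ (Fin 1 ⊕ Fin 1) → F), v ≠ 0 → (M g).mulVec v ≠ 0 := by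
    intro g v hv h0
    apply hv
    have h1 := congrArg (M g⁻¹).mulVec h0
    rwa [Matrix.mulVec_mulVec, hMinv, Matrix.one_mulVec, Matrix.mulVec_zero] at h1
  let S := {A : Matrix (Unit ⊕ (Fin 1 ⊕ Fin 1)) (Unit ⊕ (Fin 1 ⊕ Fin 1)) F //
    ∃ v : Unit ⊕ (Fin 1 ⊕ Fin 1) → F, v ≠ 0 ∧ Cfsg.quadFormOdd 1 F v = 0 ∧
      A = Matrix.vecMulVec v v}
  let act : MulAction ↥(Cfsg.specialIsometryGroup F (Cfsg.quadFormOdd 1 F)) S :=
    { smul := fun g A => ⟨M g * A.1 * (M g).transpose, by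
        obtain ⟨v, hv, hq, hA⟩ := A.2
        refine ⟨(M g).mulVec v, hne0 g v hv, by rw [hiso]; exact hq, ?_⟩
        rw [hA, conj_vmv]⟩
      one_smul := fun A => Subtype.ext (by
        change M 1 * A.1 * (M 1).transpose = A.1
        rw [hM1, Matrix.transpose_one, one_mul, mul_one])
      mul_smul := fun g h A => Subtype.ext (by
        change M (g * h) * A.1 * (M (g * h)).transpose
          = M g * (M h * A.1 * (M h).transpose) * (M g).transpose
        rw [hMmul, Matrix.transpose_mul]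
        simp only [mul_assoc]) }
  have hsmul : ∀ (g : ↥(Cfsg.specialIsometryGroup F (Cfsg.quadFormOdd 1 F))) (A : S),
      ((g • A : S) : Matrix (Unit ⊕ (Fin 1 ⊕ Fin 1)) (Unit ⊕ (Fin 1 ⊕ Fin 1)) F)
        = M g * A.1 * (M g).transpose := fun g A => rfl
  let eS : Fin 4 ≃ S := Equiv.ofBijective (fun i => (⟨P i, s i, hs0 i, hsQ i, rfl⟩ : S))
    ⟨fun i j h => hPinj (congrArg Subtype.val h), fun A => by
      obtain ⟨v, hv, hq, hA⟩ := A.2
      obtain ⟨i, hi | hi⟩ := hssurj v hv hq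
      · exact ⟨i, Subtype.ext (by rw [hA, hi])⟩
      · exact ⟨i, Subtype.ext (by rw [hA, hi, vmv_neg])⟩⟩
  have heS : ∀ i, ((eS i : S) : Matrix (Unit ⊕ (Fin 1 ⊕ Fin 1)) (Unit ⊕ (Fin 1 ⊕ Fin 1)) F)
      = P i := fun i => rfl
  let Φ : ↥(Cfsg.specialIsometryGroup F (Cfsg.quadFormOdd 1 F)) →* Equiv.Perm (Fin 4) :=
    (eS.symm.permCongrHom).toMonoidHom.comp
      (MulAction.toPermHom ↥(Cfsg.specialIsometryGroup F (Cfsg.quadFormOdd 1 F)) S)
  have hΦ : ∀ (g : ↥(Cfsg.specialIsometryGroup F (Cfsg.quadFormOdd 1 F))) (i : Fin 4),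
      P (Φ g i) = Matrix.vecMulVec ((M g).mulVec (s i)) ((M g).mulVec (s i)) := by
    intro g i
    have h1 : eS (Φ g i) = g • eS i := by
      simp [Φ]
    rw [← heS, h1, hsmul, heS, conj_vmv]
  have hpm : ∀ e : F, e = 1 ∨ e = -1 → e * e = 1 := by
    rintro e (rfl | rfl) <;> ring
  refine ⟨MulEquiv.ofBijective Φ ⟨?_, ?_⟩⟩
  · rw [injective_iff_map_eq_one]
    intro g hg
    have hfix : ∀ i, ∃ e : F, (e = 1 ∨ e = -1) ∧ (M g).mulVec (s i) = e • s i := by
      intro i
      have h1 := hΦ g i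
      rw [hg] at h1
      obtain ⟨j, hj | hj⟩ := hssurj _ (hne0 g (s i) (hs0 i)) (by rw [hiso]; exact hsQ i)
      · rw [hj] at h1
        have hij : i = j := hPinj h1
        exact ⟨1, Or.inl rfl, by rw [hj, one_smul, hij]⟩
      · rw [hj, vmv_neg] at h1
        have hij : i = j := hPinj h1
        exact ⟨-1, Or.inr rfl, by rw [hj, neg_smul, one_smul, hij]⟩
    choose e he hge using hfix
    have huni : ∀ i j, i ≠ j → e i * e j = 1 := by
      intro i j hij
      have h1 : Cfsg.quadFormOdd 1 F (e i • s i + e j • s j)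
          = Cfsg.quadFormOdd 1 F ((1 : F) • s i + (1 : F) • s j) := by
        rw [← hge, ← hge, one_smul, one_smul, ← Matrix.mulVec_add, hiso]
      rw [polar_smul, polar_smul, hsQ, hsQ, Bs, if_neg (Ne.symm hij)] at h1
      linear_combination (-1 : F) * h1
    have hall : ∀ i, e i = e 0 := by
      intro i
      by_cases hi : i = 0
      · rw [hi]
      · have h1 := huni i 0 hi
        have h2' := hpm (e 0) (he 0)
        linear_combination (e 0) * h1 - (e i) * h2'
    have hx : ∀ x : Unit ⊕ (Fin 1 ⊕ Fin 1) → F, (M g).mulVec x = e 0 • x := by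
      intro x
      have hx : x = (x (Sum.inr (Sum.inl 0)) - x (Sum.inl ())) • s 0
          + (- x (Sum.inr (Sum.inr 0)) - x (Sum.inl ())) • s 1
          + x (Sum.inl ()) • s 2 := by
        conv_lhs => rw [mk_eta x]
        generalize x (Sum.inl ()) = a
        generalize x (Sum.inr (Sum.inl 0)) = b
        generalize x (Sum.inr (Sum.inr 0)) = c
        simp only [hsdef, mk_smul, mk_add]
        have e1 : a = (b - a) * X 0 + (-c - a) * X 1 + a * X 2 := by
          simp [X]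
        have e2 : b = (b - a) * Y 0 + (-c - a) * Y 1 + a * Y 2 := by
          simp [Y]
        have e3 : c = (b - a) * Z 0 + (-c - a) * Z 1 + a * Z 2 := by
          simp [Z]
        rw [← e1, ← e2, ← e3]
      conv_lhs => rw [hx]
      simp only [Matrix.mulVec_add, Matrix.mulVec_smul, hge, hall]
      conv_rhs => rw [hx]
      simp only [smul_add, smul_smul, mul_comm]
    have hMg : M g = e 0 • (1 : Matrix (Unit ⊕ (Fin 1 ⊕ Fin 1)) (Unit ⊕ (Fin 1 ⊕ Fin 1)) F) := by
      apply Matrix.mulVec_injective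
      funext x
      rw [hx, Matrix.smul_mulVec, Matrix.one_mulVec]
    have he1 : e 0 = 1 := by
      have h1 := hdet g
      rw [hMg, Matrix.det_smul, Matrix.det_one, mul_one] at h1
      have hc : Fintype.card (Unit ⊕ (Fin 1 ⊕ Fin 1)) = 3 := by simp
      rw [hc] at h1
      rcases he 0 with h | h
      · exact h
      · exfalso
        rw [h] at h1
        apply h2
        linear_combination (-1 : F) * h1
    rw [he1, one_smul] at hMg
    apply Subtype.ext
    apply Subtype.ext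
    apply Units.ext
    exact hMg
  · rw [← MonoidHom.range_eq_top, eq_top_iff, ← Equiv.Perm.closure_isSwap, Subgroup.closure_le]
    rintro σ ⟨i, j, hij, rfl⟩
    have hv1 : Cfsg.quadFormOdd 1 F (s i - s j) = 1 := by
      have h1 := polar_smul (1 : F) (-1) (s i) (s j)
      rw [one_smul, neg_smul, one_smul, ← sub_eq_add_neg] at h1
      rw [h1, hsQ, hsQ, Bs, if_neg (Ne.symm hij)]
      ring
    have hsq : (- refl (s i - s j)) * (- refl (s i - s j)) = 1 := by
      rw [neg_mul_neg, refl_sq _ hv1]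
    let ρ0 : ↥(Cfsg.isometryGroup F (Cfsg.quadFormOdd 1 F)) :=
      ⟨⟨- refl (s i - s j), - refl (s i - s j), hsq, hsq⟩,
        fun u _ => by
          change Cfsg.quadFormOdd 1 F ((- refl (s i - s j)).mulVec u) = Cfsg.quadFormOdd 1 F u
          rw [Matrix.neg_mulVec, Q_neg, refl_iso _ hv1]⟩
    have hρdet : ρ0 ∈ Cfsg.specialIsometryGroup F (Cfsg.quadFormOdd 1 F) := by
      refine MonoidHom.mem_ker.mpr ?_
      apply Units.ext
      change (- refl (s i - s j)).det = 1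
      rw [Matrix.det_neg, det_refl, wv_self, hv1]
      have hc : Fintype.card (Unit ⊕ (Fin 1 ⊕ Fin 1)) = 3 := by simp
      rw [hc]
      ring
    refine ⟨⟨ρ0, hρdet⟩, ?_⟩
    apply Equiv.ext
    intro k
    apply hPinj
    rw [hΦ]
    change Matrix.vecMulVec ((- refl (s i - s j)).mulVec (s k)) ((- refl (s i - s j)).mulVec (s k))
      = Matrix.vecMulVec (s (Equiv.swap i j k)) (s (Equiv.swap i j k))
    rw [Matrix.neg_mulVec, vmv_neg, refl_mulVec, wv_sub, sub_dotProduct, Bs, Bs]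
    by_cases hki : k = i
    · subst hki
      rw [if_pos rfl, if_neg (Ne.symm hij), Equiv.swap_apply_left]
      have : s k - ((0 : F) - -1) • (s k - s j) = s j := by
        rw [zero_sub, neg_neg, one_smul]
        abel
      rw [this]
    · by_cases hkj : k = j
      · subst hkj
        rw [if_neg hij, if_pos rfl, Equiv.swap_apply_right]
        have : s k - ((-1 : F) - 0) • (s i - s k) = s i := by
          rw [sub_zero, neg_smul, one_smul]
          abel
        rw [this]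
      · rw [if_neg (Ne.symm hki), if_neg (Ne.symm hkj), sub_self, zero_smul, sub_zero,
          Equiv.swap_apply_of_ne_of_ne hki hkj]

end Cfsg.Agent.S0823
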