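import Mathlib
import Cfsg.Statements.S0824

set_option autoImplicit false
open Cfsg

namespace Cfsg.Agent.S0824

section aux

variable {F : Type*} [Field F]

/-- a vector given by its four coordinates -/
def mk (x y z w : F) : (Fin 1 ⊕ Fin 1) ⊕ Fin 2 → F :=
  Sum.elim (Sum.elim (fun _ => x) (fun _ => y)) ![z, w]

theorem mk_eta (v : (Fin 1 ⊕ Fin 1) ⊕ Fin 2 → F) :
    v = mk (v (Sum.inl (Sum.inl 0))) (v (Sum.inl (Sum.inr 0))) (v (Sum.inr 0)) (v (Sum.inr 1)) := by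
  funext j
  rcases j with (j | j) | j
  · fin_cases j; rfl
  · fin_cases j; rfl
  · fin_cases j <;> rfl

theorem mk_add (x y z w x' y' z' w' : F) :
    mk x y z w + mk x' y' z' w' = mk (x + x') (y + y') (z + z') (w + w') := by
  funext j
  rcases j with (j | j) | j
  · rfl
  · rfl
  · fin_cases j <;> rfl

theorem mk_smul (c x y z w : F) : c • mk x y z w = mk (c * x) (c * y) (c * z) (c * w) := by
  funext j
  rcases j with (j | j) | j
  · rfl
  · rfl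
  · fin_cases j <;> rfl

theorem mk_zero : mk (0 : F) 0 0 0 = 0 := by
  funext j
  rcases j with (j | j) | j
  · rfl
  · rfl
  · fin_cases j <;> rfl

theorem mk_inj (x y z w x' y' z' w' : F) (h : mk x y z w = mk x' y' z' w') :
    x = x' ∧ y = y' ∧ z = z' ∧ w = w' :=
  ⟨congrFun h (Sum.inl (Sum.inl 0)), congrFun h (Sum.inl (Sum.inr 0)), congrFun h (Sum.inr 0),
    congrFun h (Sum.inr 1)⟩

theorem Q_mk (x y z w : F) :
    Cfsg.quadFormMinus 1 F 1 1 (mk x y z w) = x * y + z ^ 2 + z * w + w ^ 2 := by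
  simp [Cfsg.quadFormMinus, mk]
  ring

/-- the covector of the polar form -/
def wv (v : (Fin 1 ⊕ Fin 1) ⊕ Fin 2 → F) : (Fin 1 ⊕ Fin 1) ⊕ Fin 2 → F :=
  mk (v (Sum.inl (Sum.inr 0))) (v (Sum.inl (Sum.inl 0))) (v (Sum.inr 1)) (v (Sum.inr 0))

theorem wv_mk (a b c d : F) : wv (mk a b c d) = mk b a d c := rfl

theorem dot_mk (a b c d x y z w : F) :
    mk a b c d ⬝ᵥ mk x y z w = a * x + b * y + c * z + d * w := by
  simp [dotProduct, Fintype.sum_sum_type, mk, Fin.sum_univ_two]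
  ring

theorem polar (h11 : (1 : F) + 1 = 0) (u v : (Fin 1 ⊕ Fin 1) ⊕ Fin 2 → F) :
    Cfsg.quadFormMinus 1 F 1 1 (u + v)
      = Cfsg.quadFormMinus 1 F 1 1 u + Cfsg.quadFormMinus 1 F 1 1 v + wv v ⬝ᵥ u := by
  rw [mk_eta u, mk_eta v, mk_add, wv_mk, Q_mk, Q_mk, Q_mk, dot_mk]
  generalize u (Sum.inl (Sum.inl 0)) = x
  generalize u (Sum.inl (Sum.inr 0)) = y
  generalize u (Sum.inr 0) = z
  generalize u (Sum.inr 1) = w
  generalize v (Sum.inl (Sum.inl 0)) = a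
  generalize v (Sum.inl (Sum.inr 0)) = b
  generalize v (Sum.inr 0) = c
  generalize v (Sum.inr 1) = d
  linear_combination (z * c + w * d) * h11

/-- the orthogonal transvection matrix -/
def refl (v : (Fin 1 ⊕ Fin 1) ⊕ Fin 2 → F) :
    Matrix ((Fin 1 ⊕ Fin 1) ⊕ Fin 2) ((Fin 1 ⊕ Fin 1) ⊕ Fin 2) F :=
  1 + Matrix.vecMulVec v (wv v)

theorem refl_mulVec (v x : (Fin 1 ⊕ Fin 1) ⊕ Fin 2 → F) :
    (refl v).mulVec x = x + (wv v ⬝ᵥ x) • v := by
  rw [refl, Matrix.add_mulVec, Matrix.one_mulVec, Matrix.vecMulVec_mulVec, op_smul_eq_smul]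

theorem wv_self (h11 : (1 : F) + 1 = 0) (v : (Fin 1 ⊕ Fin 1) ⊕ Fin 2 → F) : wv v ⬝ᵥ v = 0 := by
  rw [mk_eta v, wv_mk, dot_mk]
  generalize v (Sum.inl (Sum.inl 0)) = a
  generalize v (Sum.inl (Sum.inr 0)) = b
  generalize v (Sum.inr 0) = c
  generalize v (Sum.inr 1) = d
  linear_combination (a * b + c * d) * h11

theorem refl_sq (h11 : (1 : F) + 1 = 0) (v : (Fin 1 ⊕ Fin 1) ⊕ Fin 2 → F) :
    refl v * refl v = 1 := by
  have hN : Matrix.vecMulVec v (wv v) * Matrix.vecMulVec v (wv v) = 0 := by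
    rw [Matrix.vecMulVec_mul_vecMulVec, wv_self h11, zero_smul]
    ext a b
    simp [Matrix.vecMulVec_apply]
  have h2 : Matrix.vecMulVec v (wv v) + Matrix.vecMulVec v (wv v) = 0 := by
    ext a b
    rw [Matrix.add_apply, Matrix.vecMulVec_apply, Matrix.zero_apply]
    linear_combination (v a * wv v b) * h11
  calc refl v * refl v
      = 1 + (Matrix.vecMulVec v (wv v) + Matrix.vecMulVec v (wv v))
        + Matrix.vecMulVec v (wv v) * Matrix.vecMulVec v (wv v) := by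
        rw [refl]
        noncomm_ring
    _ = 1 := by rw [hN, h2, add_zero, add_zero]

theorem refl_iso (h11 : (1 : F) + 1 = 0) (v : (Fin 1 ⊕ Fin 1) ⊕ Fin 2 → F)
    (hv : Cfsg.quadFormMinus 1 F 1 1 v = 1) (x : (Fin 1 ⊕ Fin 1) ⊕ Fin 2 → F) :
    Cfsg.quadFormMinus 1 F 1 1 ((refl v).mulVec x) = Cfsg.quadFormMinus 1 F 1 1 x := by
  rw [refl_mulVec, polar h11]
  have h1 : Cfsg.quadFormMinus 1 F 1 1 ((wv v ⬝ᵥ x) • v) = (wv v ⬝ᵥ x) ^ 2 := by
    generalize wv v ⬝ᵥ x = t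
    rw [mk_eta v, Q_mk] at hv
    rw [mk_eta v, mk_smul, Q_mk]
    linear_combination t ^ 2 * hv
  have h2 : wv ((wv v ⬝ᵥ x) • v) ⬝ᵥ x = (wv v ⬝ᵥ x) ^ 2 := by
    have : wv ((wv v ⬝ᵥ x) • v) = (wv v ⬝ᵥ x) • wv v := by
      generalize wv v ⬝ᵥ x = t
      rw [mk_eta v, mk_smul, wv_mk, wv_mk, mk_smul]
    rw [this, smul_dotProduct, smul_eq_mul, pow_two]
  rw [h1, h2]
  linear_combination ((wv v ⬝ᵥ x) ^ 2) * h11

theorem wv_add (u v : (Fin 1 ⊕ Fin 1) ⊕ Fin 2 → F) : wv (u + v) = wv u + wv v := by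
  unfold wv
  rw [mk_add]
  rfl

theorem double (h11 : (1 : F) + 1 = 0) (u : (Fin 1 ⊕ Fin 1) ⊕ Fin 2 → F) : u + u = 0 := by
  funext j
  rw [Pi.add_apply, Pi.zero_apply]
  linear_combination u j * h11

end aux

/-- O⁻_4(2) ≅ S_5: the isometry group of the form x y + z_1² + z_1 z_2 + z_2² over the field with 2 elements is isomorphic to the symmetric group on 5 letters. -/
theorem result {F : Type*} [Field F] [Fintype F] (hF : Fintype.card F = 2) : Nonempty (↥(Cfsg.isometryGroup F (Cfsg.quadFormMinus 1 F 1 1)) ≃* Equiv.Perm (Fin 5)) := by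
  classical
  have hF2 : ∀ x : F, x = 0 ∨ x = 1 := by
    intro x
    by_cases hx : x = 0
    · exact Or.inl hx
    · right
      obtain ⟨y, _, huniq⟩ := (Nat.card_eq_two_iff' (0 : F)).mp
        (by rw [Nat.card_eq_fintype_card, hF])
      rw [huniq x hx, huniq 1 one_ne_zero]
  have h11 : (1 : F) + 1 = 0 := by
    rcases hF2 (1 + 1) with h | h
    · exact h
    · exfalso
      have : (1 : F) = 0 := by linear_combination h
      exact one_ne_zero this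
  let X : Fin 5 → F := ![1, 0, 1, 1, 1]
  let Y : Fin 5 → F := ![0, 1, 1, 1, 1]
  let Z : Fin 5 → F := ![0, 0, 1, 0, 1]
  let W : Fin 5 → F := ![0, 0, 0, 1, 1]
  let s : Fin 5 → ((Fin 1 ⊕ Fin 1) ⊕ Fin 2 → F) := fun i => mk (X i) (Y i) (Z i) (W i)
  have hsdef : ∀ i, s i = mk (X i) (Y i) (Z i) (W i) := fun i => rfl
  have hsQ : ∀ i, Cfsg.quadFormMinus 1 F 1 1 (s i) = 0 := by
    intro i
    rw [hsdef, Q_mk]
    fin_cases i <;> simp [X, Y, Z, W, h11]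
  have Bs : ∀ a b, wv (s a) ⬝ᵥ s b = if a = b then 0 else 1 := by
    intro a b
    rw [hsdef, hsdef, wv_mk, dot_mk]
    fin_cases a <;> fin_cases b <;> simp [X, Y, Z, W, h11]
  have hsinj : Function.Injective s := by
    intro a b hab
    by_contra hne
    have h1 := Bs a b
    rw [← hab, Bs a a, if_pos rfl, if_neg hne] at h1
    exact zero_ne_one h1
  have hs0 : ∀ i, s i ≠ 0 := by
    intro i h
    have h1 := congrFun h (Sum.inl (Sum.inl 0))
    have h2 := congrFun h (Sum.inl (Sum.inr 0))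
    fin_cases i <;> simp [s, mk, X, Y] at h1 h2
  have hssurj : ∀ v : (Fin 1 ⊕ Fin 1) ⊕ Fin 2 → F, v ≠ 0 →
      Cfsg.quadFormMinus 1 F 1 1 v = 0 → ∃ i, v = s i := by
    have key : ∀ x y z w : F, mk x y z w ≠ 0 → x * y + z ^ 2 + z * w + w ^ 2 = 0 →
        ∃ i, mk x y z w = s i := by
      intro x y z w hne hq
      rcases hF2 x with rfl | rfl <;> rcases hF2 y with rfl | rfl <;>
        rcases hF2 z with rfl | rfl <;> rcases hF2 w with rfl | rfl <;>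
        first
          | exact absurd mk_zero hne
          | (exfalso; simp [h11] at hq; done)
          | exact ⟨0, rfl⟩
          | exact ⟨1, rfl⟩
          | exact ⟨2, rfl⟩
          | exact ⟨3, rfl⟩
          | exact ⟨4, rfl⟩
    intro v hv hq
    rw [mk_eta v] at hv hq ⊢
    rw [Q_mk] at hq
    exact key _ _ _ _ hv hq
  have hiso : ∀ (g : ↥(Cfsg.isometryGroup F (Cfsg.quadFormMinus 1 F 1 1)))
      (v : (Fin 1 ⊕ Fin 1) ⊕ Fin 2 → F),
      Cfsg.quadFormMinus 1 F 1 1 (((g : Matrix.GeneralLinearGroup ((Fin 1 ⊕ Fin 1) ⊕ Fin 2) F) :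
        Matrix ((Fin 1 ⊕ Fin 1) ⊕ Fin 2) ((Fin 1 ⊕ Fin 1) ⊕ Fin 2) F).mulVec v)
      = Cfsg.quadFormMinus 1 F 1 1 v := fun g v => g.2 v v
  have hne0 : ∀ (g : ↥(Cfsg.isometryGroup F (Cfsg.quadFormMinus 1 F 1 1)))
      (v : (Fin 1 ⊕ Fin 1) ⊕ Fin 2 → F), v ≠ 0 →
      ((g : Matrix.GeneralLinearGroup ((Fin 1 ⊕ Fin 1) ⊕ Fin 2) F) :
        Matrix ((Fin 1 ⊕ Fin 1) ⊕ Fin 2) ((Fin 1 ⊕ Fin 1) ⊕ Fin 2) F).mulVec v ≠ 0 := by
    intro g v hv h0
    apply hv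
    have h1 := congrArg (((g : Matrix.GeneralLinearGroup ((Fin 1 ⊕ Fin 1) ⊕ Fin 2) F)⁻¹ :
      Matrix.GeneralLinearGroup ((Fin 1 ⊕ Fin 1) ⊕ Fin 2) F) :
        Matrix ((Fin 1 ⊕ Fin 1) ⊕ Fin 2) ((Fin 1 ⊕ Fin 1) ⊕ Fin 2) F).mulVec h0
    rwa [Matrix.mulVec_mulVec, Units.inv_mul, Matrix.one_mulVec, Matrix.mulVec_zero] at h1
  let S := {v : (Fin 1 ⊕ Fin 1) ⊕ Fin 2 → F // v ≠ 0 ∧ Cfsg.quadFormMinus 1 F 1 1 v = 0}
  letI : MulAction ↥(Cfsg.isometryGroup F (Cfsg.quadFormMinus 1 F 1 1)) S :=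
    { smul := fun g v => ⟨((g : Matrix.GeneralLinearGroup ((Fin 1 ⊕ Fin 1) ⊕ Fin 2) F) :
        Matrix ((Fin 1 ⊕ Fin 1) ⊕ Fin 2) ((Fin 1 ⊕ Fin 1) ⊕ Fin 2) F).mulVec v.1,
          hne0 g v.1 v.2.1, by rw [hiso]; exact v.2.2⟩
      one_smul := fun v => Subtype.ext (Matrix.one_mulVec _)
      mul_smul := fun g h v => Subtype.ext (by
        change ((g * h : ↥(Cfsg.isometryGroup F (Cfsg.quadFormMinus 1 F 1 1))) :
          Matrix.GeneralLinearGroup ((Fin 1 ⊕ Fin 1) ⊕ Fin 2) F).1.mulVec v.1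
          = (g : Matrix.GeneralLinearGroup ((Fin 1 ⊕ Fin 1) ⊕ Fin 2) F).1.mulVec
            ((h : Matrix.GeneralLinearGroup ((Fin 1 ⊕ Fin 1) ⊕ Fin 2) F).1.mulVec v.1)
        rw [Matrix.mulVec_mulVec]
        rfl) }
  have hsmul : ∀ (g : ↥(Cfsg.isometryGroup F (Cfsg.quadFormMinus 1 F 1 1))) (v : S),
      ((g • v : S) : (Fin 1 ⊕ Fin 1) ⊕ Fin 2 → F)
        = ((g : Matrix.GeneralLinearGroup ((Fin 1 ⊕ Fin 1) ⊕ Fin 2) F) :
        Matrix ((Fin 1 ⊕ Fin 1) ⊕ Fin 2) ((Fin 1 ⊕ Fin 1) ⊕ Fin 2) F).mulVec v.1 := fun g v => rfl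
  let eS : Fin 5 ≃ S := Equiv.ofBijective (fun i => (⟨s i, hs0 i, hsQ i⟩ : S))
    ⟨fun i j h => hsinj (congrArg Subtype.val h), fun v => by
      obtain ⟨i, hi⟩ := hssurj v.1 v.2.1 v.2.2
      exact ⟨i, Subtype.ext hi.symm⟩⟩
  have heS : ∀ i, ((eS i : S) : (Fin 1 ⊕ Fin 1) ⊕ Fin 2 → F) = s i := fun i => rfl
  let Φ : ↥(Cfsg.isometryGroup F (Cfsg.quadFormMinus 1 F 1 1)) →* Equiv.Perm (Fin 5) :=
    (eS.symm.permCongrHom).toMonoidHom.comp
      (MulAction.toPermHom ↥(Cfsg.isometryGroup F (Cfsg.quadFormMinus 1 F 1 1)) S)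
  have hΦ : ∀ (g : ↥(Cfsg.isometryGroup F (Cfsg.quadFormMinus 1 F 1 1))) (i : Fin 5),
      s (Φ g i) = ((g : Matrix.GeneralLinearGroup ((Fin 1 ⊕ Fin 1) ⊕ Fin 2) F) :
        Matrix ((Fin 1 ⊕ Fin 1) ⊕ Fin 2) ((Fin 1 ⊕ Fin 1) ⊕ Fin 2) F).mulVec (s i) := by
    intro g i
    have h1 : eS (Φ g i) = g • eS i := by
      simp [Φ]
    rw [← heS, h1, hsmul, heS]
  refine ⟨MulEquiv.ofBijective Φ ⟨?_, ?_⟩⟩
  · rw [injective_iff_map_eq_one]
    intro g hg
    have hfix : ∀ i, ((g : Matrix.GeneralLinearGroup ((Fin 1 ⊕ Fin 1) ⊕ Fin 2) F) :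
        Matrix ((Fin 1 ⊕ Fin 1) ⊕ Fin 2) ((Fin 1 ⊕ Fin 1) ⊕ Fin 2) F).mulVec (s i) = s i := by
      intro i
      rw [← hΦ, hg]
      rfl
    have hall : ∀ x : (Fin 1 ⊕ Fin 1) ⊕ Fin 2 → F,
        ((g : Matrix.GeneralLinearGroup ((Fin 1 ⊕ Fin 1) ⊕ Fin 2) F) :
        Matrix ((Fin 1 ⊕ Fin 1) ⊕ Fin 2) ((Fin 1 ⊕ Fin 1) ⊕ Fin 2) F).mulVec x
          = (1 : Matrix ((Fin 1 ⊕ Fin 1) ⊕ Fin 2) ((Fin 1 ⊕ Fin 1) ⊕ Fin 2) F).mulVec x := by
      intro x
      have hx : x = (x (Sum.inl (Sum.inl 0)) + x (Sum.inr 0) + x (Sum.inr 1)) • s 0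
          + (x (Sum.inl (Sum.inr 0)) + x (Sum.inr 0) + x (Sum.inr 1)) • s 1
          + x (Sum.inr 0) • s 2 + x (Sum.inr 1) • s 3 := by
        conv_lhs => rw [mk_eta x]
        generalize x (Sum.inl (Sum.inl 0)) = a
        generalize x (Sum.inl (Sum.inr 0)) = b
        generalize x (Sum.inr 0) = c
        generalize x (Sum.inr 1) = d
        simp only [hsdef, mk_smul, mk_add]
        have e1 : a = (a + c + d) * X 0 + (b + c + d) * X 1 + c * X 2 + d * X 3 := by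
          simp [X]
          linear_combination (-(c + d)) * h11
        have e2 : b = (a + c + d) * Y 0 + (b + c + d) * Y 1 + c * Y 2 + d * Y 3 := by
          simp [Y]
          linear_combination (-(c + d)) * h11
        have e3 : c = (a + c + d) * Z 0 + (b + c + d) * Z 1 + c * Z 2 + d * Z 3 := by
          simp [Z]
        have e4 : d = (a + c + d) * W 0 + (b + c + d) * W 1 + c * W 2 + d * W 3 := by
          simp [W]
        rw [← e1, ← e2, ← e3, ← e4]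
      rw [Matrix.one_mulVec]
      conv_lhs => rw [hx]
      simp only [Matrix.mulVec_add, Matrix.mulVec_smul, hfix]
      exact hx.symm
    apply Subtype.ext
    apply Units.ext
    exact Matrix.mulVec_injective (funext hall)
  · rw [← MonoidHom.range_eq_top, eq_top_iff, ← Equiv.Perm.closure_isSwap, Subgroup.closure_le]
    rintro σ ⟨i, j, hij, rfl⟩
    have hv1 : Cfsg.quadFormMinus 1 F 1 1 (s i + s j) = 1 := by
      rw [polar h11, hsQ, hsQ, Bs, if_neg (Ne.symm hij)]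
      simp
    let ρ : ↥(Cfsg.isometryGroup F (Cfsg.quadFormMinus 1 F 1 1)) :=
      ⟨⟨refl (s i + s j), refl (s i + s j), refl_sq h11 _, refl_sq h11 _⟩,
        fun u _ => refl_iso h11 _ hv1 u⟩
    refine ⟨ρ, ?_⟩
    apply Equiv.ext
    intro k
    apply hsinj
    rw [hΦ]
    change (refl (s i + s j)).mulVec (s k) = _
    rw [refl_mulVec, wv_add, add_dotProduct, Bs, Bs]
    by_cases hki : k = i
    · subst hki
      rw [if_pos rfl, if_neg (Ne.symm hij), zero_add, one_smul, Equiv.swap_apply_left,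
        ← add_assoc, double h11, zero_add]
    · by_cases hkj : k = j
      · subst hkj
        rw [if_neg hij, if_pos rfl, add_zero, one_smul, Equiv.swap_apply_right,
          add_comm (s i) (s k), ← add_assoc, double h11, zero_add]
      · rw [if_neg (Ne.symm hki), if_neg (Ne.symm hkj), h11, zero_smul, add_zero,
          Equiv.swap_apply_of_ne_of_ne hki hkj]

end Cfsg.Agent.S0824
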