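import Mathlib
import Cfsg.Statements.S0825
import Cfsg.Agent.S0287
import Cfsg.Agent.Lib.Helper16.O6Two

set_option autoImplicit false

open Cfsg

namespace Cfsg.Agent.S0825

open Cfsg.Agent.Lib.Helper16

theorem quad_map {F F' : Type*} [Field F] [Field F'] (σ : F →+* F') (m : ℕ)
    (w : Fin m ⊕ Fin m → F) :
    Cfsg.quadFormPlus m F' (fun i => σ (w i)) = σ (Cfsg.quadFormPlus m F w) := by
  unfold Cfsg.quadFormPlus
  rw [map_sum]
  simp [map_mul]

theorem mem_iso_iff {F : Type*} [Field F] (m : ℕ)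
    (g : Matrix.GeneralLinearGroup (Fin m ⊕ Fin m) F) :
    g ∈ Cfsg.isometryGroup F (Cfsg.quadFormPlus m F) ↔
      ∀ u, Cfsg.quadFormPlus m F (Matrix.mulVec (g : Matrix _ _ F) u)
        = Cfsg.quadFormPlus m F u := by
  constructor
  · intro h u
    exact h u u
  · intro h u _
    exact h u

/-- Transfer of isometries along a ring isomorphism. -/
theorem map_mem {F F' : Type*} [Field F] [Field F'] (σ : F ≃+* F') (m : ℕ)
    (g : Matrix.GeneralLinearGroup (Fin m ⊕ Fin m) F)
    (hg : g ∈ Cfsg.isometryGroup F (Cfsg.quadFormPlus m F)) :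
    Matrix.GeneralLinearGroup.map (σ : F →+* F') g
      ∈ Cfsg.isometryGroup F' (Cfsg.quadFormPlus m F') := by
  rw [mem_iso_iff] at hg ⊢
  intro u'
  set u : Fin m ⊕ Fin m → F := fun i => σ.symm (u' i) with hu
  have hu' : u' = fun i => (σ : F →+* F') (u i) := by
    funext i; simp [hu]
  have h1 : Matrix.mulVec
      ((Matrix.GeneralLinearGroup.map (σ : F →+* F') g : Matrix.GeneralLinearGroup _ F') :
        Matrix _ _ F') u'
      = fun i => (σ : F →+* F') (Matrix.mulVec
          (g : Matrix (Fin m ⊕ Fin m) (Fin m ⊕ Fin m) F) u i) := by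
    funext i
    rw [RingHom.map_mulVec, hu']
    rfl
  rw [h1, quad_map, hg u, hu', quad_map]

theorem result {F : Type*} [Field F] [Fintype F] (hF : Fintype.card F = 2) : Nonempty (↥(Cfsg.isometryGroup F (Cfsg.quadFormPlus 3 F)) ≃* Equiv.Perm (Fin 8)) := by
  classical
  have hcF : Fintype.card F = Fintype.card (ZMod 2) := by rw [hF, ZMod.card]
  obtain ⟨σ⟩ : Nonempty (F ≃+* ZMod 2) := ⟨FiniteField.ringEquivOfCardEq hcF⟩
  have hcard1 : Nat.card ↥(Cfsg.isometryGroup F (Cfsg.quadFormPlus 3 F)) = 40320 := by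
    rw [Cfsg.Agent.S0287.result (F := F) (q := 2) hF 3 (by norm_num)]
    norm_num [Finset.prod_range_succ]
  have hcard2 : Nat.card ↥(Cfsg.isometryGroup (ZMod 2) (Cfsg.quadFormPlus 3 (ZMod 2))) = 40320 := by
    rw [Cfsg.Agent.S0287.result (F := ZMod 2) (q := 2) (ZMod.card 2) 3 (by norm_num)]
    norm_num [Finset.prod_range_succ]
  have hperm : Nat.card (Equiv.Perm (Fin 8)) = 40320 := by
    rw [Nat.card_perm, Nat.card_eq_fintype_card, Fintype.card_fin]
    rfl
  -- the bijection of helper16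
  have hbij : Function.Bijective phiO := by
    rw [Nat.bijective_iff_injective_and_card]
    exact ⟨phiO_injective, by rw [hperm]; exact hcard2.symm⟩
  let e2 : Equiv.Perm (Fin 8) ≃* O6 := MulEquiv.ofBijective phiO hbij
  -- transfer
  let ψ : ↥(Cfsg.isometryGroup F (Cfsg.quadFormPlus 3 F)) →* O6 :=
    ((Matrix.GeneralLinearGroup.map (σ : F →+* ZMod 2)).comp
      (Cfsg.isometryGroup F (Cfsg.quadFormPlus 3 F)).subtype).codRestrict O6
      (fun g => map_mem σ 3 g.1 g.2)
  have hψ : Function.Injective ψ := by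
    intro g h hgh
    have h1 : Matrix.GeneralLinearGroup.map (σ : F →+* ZMod 2) g.1
        = Matrix.GeneralLinearGroup.map (σ : F →+* ZMod 2) h.1 := congrArg Subtype.val hgh
    apply Subtype.ext
    apply Matrix.GeneralLinearGroup.ext
    intro i j
    have h2 := congrArg (fun M : Matrix.GeneralLinearGroup (Fin 3 ⊕ Fin 3) (ZMod 2) => M i j) h1
    simp only [Matrix.GeneralLinearGroup.map_apply] at h2
    exact σ.injective h2
  have hbij2 : Function.Bijective ψ := by
    rw [Nat.bijective_iff_injective_and_card]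
    exact ⟨hψ, by rw [hcard1]; exact hcard2.symm⟩
  exact ⟨(MulEquiv.ofBijective ψ hbij2).trans e2.symm⟩

end Cfsg.Agent.S0825
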