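import Mathlib
import Cfsg.Statements.S0830
import Cfsg.Agent.S0829

set_option autoImplicit false
open Cfsg

namespace Cfsg.Agent.S0830

open Cfsg.Agent.S0829

/-- The unitary quadrangle of PSU_5(q): with |F| = q², the number of 2-dimensional subspaces of F^5 on which the Hermitian form vanishes is (q³ + 1)(q⁵ + 1). -/
theorem result {F : Type*} [Field F] [Fintype F] {q : ℕ} (hF : Fintype.card F = q ^ 2) : Nat.card {W : Submodule F (Fin 5 → F) // Module.finrank F W = 2 ∧ ∀ u ∈ W, ∀ v ∈ W, Cfsg.hermForm 5 F q u v = 0} = (q ^ 3 + 1) * (q ^ 5 + 1) := by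
  classical
  obtain ⟨φ, hφq, hφ2⟩ := Cfsg.Agent.S0779.exists_frob hF
  have hq2 := two_le_q hF
  have a0 := a_zero (F := F) (q := q)
  have a1 := a_succ hF φ hφq hφ2 0
  have a2 := a_succ hF φ hφq hφ2 1
  have a3 := a_succ hF φ hφq hφ2 2
  have a4 := a_succ hF φ hφq hφ2 3
  have a5 := a_succ hF φ hφq hφ2 4
  have hL : ∀ v : Fin 5 → F, v ≠ 0 → Cfsg.hermForm 5 F q v v = 0 →
      Nat.card {W : Submodule F (Fin 5 → F) // Module.finrank F W = 2 ∧ v ∈ W ∧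
        ∀ u ∈ W, ∀ w ∈ W, Cfsg.hermForm 5 F q u w = 0} = q ^ 3 + 1 := by
    intro v hv hvv
    have h1 := lines_through hF φ hφq hφ2 5 v hv hvv
    rw [perp_count hF φ hφq hφ2 3 v hv hvv] at h1
    obtain ⟨t, rfl⟩ : ∃ t, q = t + 2 := ⟨q - 2, by omega⟩
    have e1 : (t + 2) ^ 4 - (t + 2) ^ 2 = (t + 2) ^ 2 * ((t + 1) * (t + 3)) :=
      Nat.sub_eq_of_eq_add (by ring)
    rw [e1] at h1
    apply Nat.eq_of_mul_eq_mul_right (show 0 < (t + 2) ^ 2 * ((t + 1) * (t + 3)) by positivity)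
    zify at h1 a0 a1 a2 a3 ⊢
    linear_combination h1 + ((t : ℤ) + 2) ^ 2 * (a3 - ((t : ℤ) + 2) * a2
      + ((t : ℤ) + 2) ^ 2 * a1 - ((t : ℤ) + 2) ^ 3 * a0)
  have ht := total hF 5 (q ^ 3 + 1) hL
  obtain ⟨t, rfl⟩ : ∃ t, q = t + 2 := ⟨q - 2, by omega⟩
  have e1 : (t + 2) ^ 4 - 1 = (t + 1) * (t + 3) * ((t + 2) ^ 2 + 1) :=
    Nat.sub_eq_of_eq_add (by ring)
  rw [e1] at ht
  apply Nat.eq_of_mul_eq_mul_right (show 0 < (t + 1) * (t + 3) * ((t + 2) ^ 2 + 1) by positivity)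
  zify at ht a0 a1 a2 a3 a4 a5 ⊢
  linear_combination ht + (((t : ℤ) + 2) ^ 3 + 1) * (a5 - ((t : ℤ) + 2) * a4
    + ((t : ℤ) + 2) ^ 2 * a3 - ((t : ℤ) + 2) ^ 3 * a2 + ((t : ℤ) + 2) ^ 4 * a1
    - ((t : ℤ) + 2) ^ 5 * a0)

end Cfsg.Agent.S0830
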