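import Mathlib
import Cfsg.Statements.S0832
import Cfsg.Agent.S0750

set_option autoImplicit false
open Cfsg

namespace Cfsg.Agent.S0832

section aux

variable {F : Type*} [Field F]

/-- the polar form of the hyperbolic quadratic form -/
def Bf (m : ℕ) : LinearMap.BilinForm F (Fin m ⊕ Fin m → F) :=
  LinearMap.mk₂ F
    (fun x y => ∑ i : Fin m, (x (Sum.inl i) * y (Sum.inr i) + x (Sum.inr i) * y (Sum.inl i)))
    (fun x x' y => by
      simp only [Pi.add_apply]
      rw [← Finset.sum_add_distrib]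
      exact Finset.sum_congr rfl (fun i _ => by ring))
    (fun c x y => by
      simp only [Pi.smul_apply, smul_eq_mul]
      rw [Finset.mul_sum]
      exact Finset.sum_congr rfl (fun i _ => by ring))
    (fun x y y' => by
      simp only [Pi.add_apply]
      rw [← Finset.sum_add_distrib]
      exact Finset.sum_congr rfl (fun i _ => by ring))
    (fun c x y => by
      simp only [Pi.smul_apply, smul_eq_mul]
      rw [Finset.mul_sum]
      exact Finset.sum_congr rfl (fun i _ => by ring))

theorem Bf_apply (m : ℕ) (x y : Fin m ⊕ Fin m → F) :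
    Bf m x y = ∑ i : Fin m, (x (Sum.inl i) * y (Sum.inr i) + x (Sum.inr i) * y (Sum.inl i)) :=
  rfl

theorem hadd (m : ℕ) (x y : Fin m ⊕ Fin m → F) :
    quadFormPlus m F (x + y) = quadFormPlus m F x + quadFormPlus m F y + Bf m x y := by
  rw [Bf_apply]
  unfold quadFormPlus
  simp only [Pi.add_apply]
  rw [← Finset.sum_add_distrib, ← Finset.sum_add_distrib]
  exact Finset.sum_congr rfl (fun i _ => by ring)

theorem hsmul (m : ℕ) (c : F) (x : Fin m ⊕ Fin m → F) :
    quadFormPlus m F (c • x) = c * c * quadFormPlus m F x := by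
  unfold quadFormPlus
  simp only [Pi.smul_apply, smul_eq_mul]
  rw [Finset.mul_sum]
  exact Finset.sum_congr rfl (fun i _ => by ring)

theorem Bf_inr (m : ℕ) (x : Fin m ⊕ Fin m → F) (i : Fin m) :
    Bf m x (Pi.single (Sum.inr i) 1) = x (Sum.inl i) := by
  classical
  rw [Bf_apply]
  simp [Pi.single_apply]

theorem Bf_inl (m : ℕ) (x : Fin m ⊕ Fin m → F) (i : Fin m) :
    Bf m x (Pi.single (Sum.inl i) 1) = x (Sum.inr i) := by
  classical
  rw [Bf_apply]
  simp [Pi.single_apply]

theorem Bf_symm (m : ℕ) (x y : Fin m ⊕ Fin m → F) : Bf m x y = Bf m y x := by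
  rw [Bf_apply, Bf_apply]
  exact Finset.sum_congr rfl (fun i _ => by ring)

theorem Bf_nondeg (m : ℕ) : (Bf (F := F) m).Nondegenerate := by
  have h : ∀ x : Fin m ⊕ Fin m → F, (∀ y, Bf m x y = 0) → x = 0 := by
    intro x hx
    funext s
    rcases s with i | i
    · rw [← Bf_inr m x i, hx]; rfl
    · rw [← Bf_inl m x i, hx]; rfl
  refine ⟨h, ?_⟩
  intro y hy
  apply h
  intro x
  rw [Bf_symm]
  exact hy x

end aux

section std

variable {F : Type*} [Field F] (k : ℕ)

/-- first standard maximal totally singular subspace: all `y` vanish -/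
def iA : (Fin (k + 1) → F) →ₗ[F] (Fin (k + 1) ⊕ Fin (k + 1) → F) where
  toFun a := Sum.elim a (fun _ => 0)
  map_add' a b := by
    funext s
    rcases s with i | i <;> simp
  map_smul' c a := by
    funext s
    rcases s with i | i <;> simp

/-- second standard maximal totally singular subspace -/
def iB : (Fin (k + 1) → F) →ₗ[F] (Fin (k + 1) ⊕ Fin (k + 1) → F) where
  toFun a := Sum.elim (Fin.snoc (fun j : Fin k => a j.castSucc) (0 : F) : Fin (k + 1) → F)
    (Fin.snoc (fun _ : Fin k => (0 : F)) (a (Fin.last k)) : Fin (k + 1) → F)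
  map_add' a b := by
    funext s
    rcases s with i | i <;> refine Fin.lastCases ?_ (fun j => ?_) i <;> simp
  map_smul' c a := by
    funext s
    rcases s with i | i <;> refine Fin.lastCases ?_ (fun j => ?_) i <;> simp

/-- the common part -/
def i0 : (Fin k → F) →ₗ[F] (Fin (k + 1) ⊕ Fin (k + 1) → F) where
  toFun a := Sum.elim (Fin.snoc a (0 : F) : Fin (k + 1) → F) (fun _ => 0)
  map_add' a b := by
    funext s
    rcases s with i | i
    · refine Fin.lastCases ?_ (fun j => ?_) i <;> simp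
    · simp
  map_smul' c a := by
    funext s
    rcases s with i | i
    · refine Fin.lastCases ?_ (fun j => ?_) i <;> simp
    · simp

theorem iA_inl (a : Fin (k + 1) → F) (i : Fin (k + 1)) : iA k a (Sum.inl i) = a i := rfl
theorem iA_inr (a : Fin (k + 1) → F) (i : Fin (k + 1)) : iA k a (Sum.inr i) = 0 := rfl

theorem iB_inl_cast (a : Fin (k + 1) → F) (j : Fin k) :
    iB k a (Sum.inl j.castSucc) = a j.castSucc := by
  simp [iB]

theorem iB_inl_last (a : Fin (k + 1) → F) : iB k a (Sum.inl (Fin.last k)) = 0 := by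
  simp [iB]

theorem iB_inr_cast (a : Fin (k + 1) → F) (j : Fin k) : iB k a (Sum.inr j.castSucc) = 0 := by
  simp [iB]

theorem iB_inr_last (a : Fin (k + 1) → F) : iB k a (Sum.inr (Fin.last k)) = a (Fin.last k) := by
  simp [iB]

theorem i0_inl_cast (a : Fin k → F) (j : Fin k) : i0 k a (Sum.inl j.castSucc) = a j := by
  simp [i0]

theorem i0_inl_last (a : Fin k → F) : i0 k a (Sum.inl (Fin.last k)) = 0 := by
  simp [i0]

theorem i0_inr (a : Fin k → F) (i : Fin (k + 1)) : i0 k a (Sum.inr i) = 0 := rfl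

theorem mem_A (w : Fin (k + 1) ⊕ Fin (k + 1) → F) :
    w ∈ LinearMap.range (iA (F := F) k) ↔ ∀ i, w (Sum.inr i) = 0 := by
  constructor
  · rintro ⟨a, rfl⟩ i
    rfl
  · intro h
    refine ⟨fun i => w (Sum.inl i), ?_⟩
    funext s
    rcases s with i | i
    · rfl
    · rw [iA_inr, h]

theorem mem_B (w : Fin (k + 1) ⊕ Fin (k + 1) → F) :
    w ∈ LinearMap.range (iB (F := F) k) ↔
      (∀ j : Fin k, w (Sum.inr j.castSucc) = 0) ∧ w (Sum.inl (Fin.last k)) = 0 := by
  constructor
  · rintro ⟨a, rfl⟩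
    exact ⟨fun j => iB_inr_cast k a j, iB_inl_last k a⟩
  · rintro ⟨h1, h2⟩
    refine ⟨(Fin.snoc (fun j : Fin k => w (Sum.inl j.castSucc)) (w (Sum.inr (Fin.last k))) :
      Fin (k + 1) → F), ?_⟩
    funext s
    rcases s with i | i
    · refine Fin.lastCases ?_ (fun j => ?_) i
      · rw [iB_inl_last, h2]
      · rw [iB_inl_cast, Fin.snoc_castSucc]
    · refine Fin.lastCases ?_ (fun j => ?_) i
      · rw [iB_inr_last, Fin.snoc_last]
      · rw [iB_inr_cast, h1]

theorem iA_inj : Function.Injective (iA (F := F) k) := by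
  intro a b h
  funext i
  have := congrFun h (Sum.inl i)
  rwa [iA_inl, iA_inl] at this

theorem iB_inj : Function.Injective (iB (F := F) k) := by
  intro a b h
  funext i
  refine Fin.lastCases ?_ (fun j => ?_) i
  · have := congrFun h (Sum.inr (Fin.last k))
    rwa [iB_inr_last, iB_inr_last] at this
  · have := congrFun h (Sum.inl j.castSucc)
    rwa [iB_inl_cast, iB_inl_cast] at this

theorem i0_inj : Function.Injective (i0 (F := F) k) := by
  intro a b h
  funext j
  have := congrFun h (Sum.inl j.castSucc)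
  rwa [i0_inl_cast, i0_inl_cast] at this

theorem finrank_A : Module.finrank F (LinearMap.range (iA (F := F) k)) = k + 1 := by
  rw [LinearMap.finrank_range_of_inj (iA_inj k), Module.finrank_fin_fun]

theorem finrank_B : Module.finrank F (LinearMap.range (iB (F := F) k)) = k + 1 := by
  rw [LinearMap.finrank_range_of_inj (iB_inj k), Module.finrank_fin_fun]

theorem A_ts (w : Fin (k + 1) ⊕ Fin (k + 1) → F) (hw : w ∈ LinearMap.range (iA (F := F) k)) :
    quadFormPlus (k + 1) F w = 0 := by
  rw [mem_A] at hw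
  unfold quadFormPlus
  exact Finset.sum_eq_zero (fun i _ => by rw [hw i, mul_zero])

theorem Q_split (w : Fin (k + 1) ⊕ Fin (k + 1) → F)
    (h : ∀ j : Fin k, w (Sum.inr j.castSucc) = 0) :
    quadFormPlus (k + 1) F w = w (Sum.inl (Fin.last k)) * w (Sum.inr (Fin.last k)) := by
  unfold quadFormPlus
  rw [Fin.sum_univ_castSucc, Finset.sum_eq_zero (fun j _ => by rw [h j, mul_zero]), zero_add]

theorem B_ts (w : Fin (k + 1) ⊕ Fin (k + 1) → F) (hw : w ∈ LinearMap.range (iB (F := F) k)) :
    quadFormPlus (k + 1) F w = 0 := by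
  rw [mem_B] at hw
  rw [Q_split k w hw.1, hw.2, zero_mul]

theorem i0_le_A : LinearMap.range (i0 (F := F) k) ≤ LinearMap.range (iA (F := F) k) := by
  rintro _ ⟨a, rfl⟩
  rw [mem_A]
  intro i
  rfl

theorem i0_le_B : LinearMap.range (i0 (F := F) k) ≤ LinearMap.range (iB (F := F) k) := by
  rintro _ ⟨a, rfl⟩
  rw [mem_B]
  exact ⟨fun j => rfl, i0_inl_last k a⟩

theorem A_ne_B : LinearMap.range (iA (F := F) k) ≠ LinearMap.range (iB (F := F) k) := by
  classical
  intro h
  have h1 : (Pi.single (Sum.inr (Fin.last k)) 1 : Fin (k + 1) ⊕ Fin (k + 1) → F)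
      ∈ LinearMap.range (iB (F := F) k) := by
    rw [mem_B]
    constructor
    · intro j
      rw [Pi.single_apply, if_neg]
      intro hj
      exact (Fin.castSucc_lt_last j).ne (Sum.inr.inj hj)
    · rw [Pi.single_apply, if_neg]
      intro hj
      cases hj
  rw [← h, mem_A] at h1
  have h2 := h1 (Fin.last k)
  rw [Pi.single_eq_same] at h2
  exact one_ne_zero h2

theorem key (W : Submodule F (Fin (k + 1) ⊕ Fin (k + 1) → F))
    (hW : ∀ w ∈ W, quadFormPlus (k + 1) F w = 0) (h0 : LinearMap.range (i0 (F := F) k) ≤ W) :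
    W ≤ LinearMap.range (iA (F := F) k) ∨ W ≤ LinearMap.range (iB (F := F) k) := by
  classical
  have h1 : ∀ w ∈ W, ∀ j : Fin k, w (Sum.inr j.castSucc) = 0 := by
    intro w hw j
    have he : i0 k (Pi.single j 1) ∈ W := h0 ⟨_, rfl⟩
    have hsum := hW _ (W.add_mem hw he)
    rw [hadd, hW w hw, hW _ he, zero_add, zero_add, Bf_apply, Fin.sum_univ_castSucc] at hsum
    simp only [i0_inr, i0_inl_cast, i0_inl_last, mul_zero, zero_add, add_zero,
      Pi.single_apply, mul_ite, mul_one, Finset.sum_ite_eq', Finset.mem_univ, if_true] at hsum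
    exact hsum
  have h2 : ∀ w ∈ W, w (Sum.inl (Fin.last k)) * w (Sum.inr (Fin.last k)) = 0 := by
    intro w hw
    rw [← Q_split k w (h1 w hw)]
    exact hW w hw
  by_contra hcon
  rw [not_or] at hcon
  obtain ⟨hA, hB⟩ := hcon
  obtain ⟨w1, hw1, hw1A⟩ := SetLike.not_le_iff_exists.mp hA
  obtain ⟨w2, hw2, hw2B⟩ := SetLike.not_le_iff_exists.mp hB
  have e1 : w1 (Sum.inr (Fin.last k)) ≠ 0 := by
    intro h
    apply hw1A
    rw [mem_A]
    intro i
    refine Fin.lastCases h (fun j => h1 w1 hw1 j) i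
  have e2 : w2 (Sum.inl (Fin.last k)) ≠ 0 := by
    intro h
    apply hw2B
    rw [mem_B]
    exact ⟨h1 w2 hw2, h⟩
  have e3 : w1 (Sum.inl (Fin.last k)) = 0 := by
    rcases mul_eq_zero.mp (h2 w1 hw1) with h | h
    · exact h
    · exact absurd h e1
  have e4 : w2 (Sum.inr (Fin.last k)) = 0 := by
    rcases mul_eq_zero.mp (h2 w2 hw2) with h | h
    · exact absurd h e2
    · exact h
  have e5 := h2 (w1 + w2) (W.add_mem hw1 hw2)
  rw [Pi.add_apply, Pi.add_apply, e3, e4, zero_add, add_zero] at e5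
  rcases mul_eq_zero.mp e5 with h | h
  · exact e2 h
  · exact e1 h

theorem count_std :
    Nat.card {W : Submodule F (Fin (k + 1) ⊕ Fin (k + 1) → F) //
      Module.finrank F W = k + 1 ∧ (∀ w ∈ W, quadFormPlus (k + 1) F w = 0) ∧
        LinearMap.range (i0 (F := F) k) ≤ W} = 2 := by
  rw [Nat.card_eq_two_iff]
  refine ⟨⟨LinearMap.range (iA (F := F) k), finrank_A k, A_ts k, i0_le_A k⟩,
    ⟨LinearMap.range (iB (F := F) k), finrank_B k, B_ts k, i0_le_B k⟩, ?_, ?_⟩
  · intro h
    exact A_ne_B k (congrArg Subtype.val h)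
  · apply Set.eq_univ_of_forall
    intro W
    rcases key k W.1 W.2.2.1 W.2.2.2 with h | h
    · left
      apply Subtype.ext
      exact Submodule.eq_of_le_of_finrank_eq h (by rw [W.2.1, finrank_A])
    · right
      apply Subtype.ext
      exact Submodule.eq_of_le_of_finrank_eq h (by rw [W.2.1, finrank_B])

end std

/-- For the form Σ x_i y_i on F^(2m) over a finite field, m ≥ 1: an (m−1)-dimensional subspace on which the form vanishes is contained in exactly two m-dimensional subspaces on which it vanishes. -/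
theorem result {F : Type*} [Field F] [Finite F] (m : ℕ) (hm : 1 ≤ m) (U : Submodule F (Fin m ⊕ Fin m → F)) (hU : Module.finrank F U + 1 = m ∧ ∀ u ∈ U, Cfsg.quadFormPlus m F u = 0) : Nat.card {W : Submodule F (Fin m ⊕ Fin m → F) // Module.finrank F W = m ∧ (∀ w ∈ W, Cfsg.quadFormPlus m F w = 0) ∧ U ≤ W} = 2 := by
  classical
  obtain ⟨k, rfl⟩ : ∃ k, m = k + 1 := ⟨m - 1, by omega⟩
  obtain ⟨hUk, hUts⟩ := hU
  have hUk' : Module.finrank F U = Module.finrank F (Fin k → F) := by
    rw [Module.finrank_fin_fun]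
    omega
  obtain ⟨e⟩ : Nonempty (U ≃ₗ[F] (Fin k → F)) := ⟨LinearEquiv.ofFinrankEq _ _ hUk'⟩
  obtain ⟨f, hf⟩ := LinearMap.exists_extend ((i0 (F := F) k).comp e.toLinearMap)
  have hfU : ∀ x (hx : x ∈ U), f x = i0 k (e ⟨x, hx⟩) := by
    intro x hx
    have := LinearMap.congr_fun hf ⟨x, hx⟩
    simpa using this
  have h1 : ∀ x ∈ U, quadFormPlus (k + 1) F (f x) = quadFormPlus (k + 1) F x := by
    intro x hx
    rw [hfU x hx, hUts x hx]
    exact A_ts k _ (i0_le_A k ⟨_, rfl⟩)
  have h2 : ∀ x ∈ U, f x = 0 → x = 0 := by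
    intro x hx h0
    rw [hfU x hx] at h0
    have h3 : e ⟨x, hx⟩ = 0 := i0_inj k (by rw [h0, map_zero])
    have h4 : (⟨x, hx⟩ : U) = 0 := e.injective (by rw [h3, map_zero])
    exact congrArg Subtype.val h4
  obtain ⟨g, hg1, hg2⟩ := Cfsg.Agent.S0750.main (quadFormPlus (k + 1) F) (Bf (k + 1))
    (hadd (k + 1)) (hsmul (k + 1)) (Bf_nondeg (k + 1)) (Module.finrank F U) U f le_rfl h1 h2
  rw [← count_std (F := F) k]
  refine Nat.card_congr
    { toFun := fun W => ⟨W.1.map g.toLinearMap, by
          rw [LinearEquiv.finrank_map_eq]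
          exact W.2.1, by
          rintro _ ⟨w, hw, rfl⟩
          exact (hg1 w).trans (W.2.2.1 w hw), by
          rintro _ ⟨a, rfl⟩
          refine ⟨(e.symm a : Fin (k + 1) ⊕ Fin (k + 1) → F), W.2.2.2 (e.symm a).2, ?_⟩
          have h3 := hg2 _ (e.symm a).2
          have h4 := hfU _ (e.symm a).2
          rw [Subtype.coe_eta, LinearEquiv.apply_symm_apply] at h4
          exact h3.trans h4⟩
      invFun := fun W => ⟨W.1.comap g.toLinearMap, by
          have h3 : (W.1.comap g.toLinearMap).map g.toLinearMap = W.1 :=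
            Submodule.map_comap_eq_of_surjective g.surjective _
          rw [← LinearEquiv.finrank_map_eq g, h3]
          exact W.2.1, by
          intro w hw
          exact (hg1 w).symm.trans (W.2.2.1 _ hw), by
          intro x hx
          rw [Submodule.mem_comap]
          apply W.2.2.2
          exact ⟨e ⟨x, hx⟩, ((hg2 x hx).trans (hfU x hx)).symm⟩⟩
      left_inv := fun W => Subtype.ext (Submodule.comap_map_eq_of_injective g.injective _)
      right_inv := fun W => Subtype.ext (Submodule.map_comap_eq_of_surjective g.surjective _) }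

end Cfsg.Agent.S0832
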