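import Mathlib
import Cfsg.Statements.S0831
import Cfsg.Agent.S0832

set_option autoImplicit false
open Cfsg

namespace Cfsg.Agent.S0831

open Cfsg.Agent.S0832

section aux

variable {F : Type*} [Field F] (m : ℕ)

/-- totally singular subspaces -/
def ts (S : Submodule F (Fin m ⊕ Fin m → F)) : Prop := ∀ w ∈ S, quadFormPlus m F w = 0

theorem ts_B {S : Submodule F (Fin m ⊕ Fin m → F)} (hS : ts m S) (x y : Fin m ⊕ Fin m → F)
    (hx : x ∈ S) (hy : y ∈ S) : Bf m x y = 0 := by
  have h := hadd m x y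
  rw [hS _ (S.add_mem hx hy), hS x hx, hS y hy, zero_add, zero_add] at h
  exact h.symm

theorem ts_le_perp {S : Submodule F (Fin m ⊕ Fin m → F)} (hS : ts m S) :
    S ≤ (Bf m).orthogonal S := by
  intro x hx
  rw [LinearMap.BilinForm.mem_orthogonal_iff]
  intro n hn
  exact ts_B m hS n x hn hx

theorem finrank_perp (S : Submodule F (Fin m ⊕ Fin m → F)) :
    Module.finrank F ((Bf m).orthogonal S) = 2 * m - Module.finrank F S := by
  rw [LinearMap.BilinForm.finrank_orthogonal (Bf_nondeg m), Module.finrank_fintype_fun_eq_card]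
  simp
  omega

theorem finrank_le_total (S : Submodule F (Fin m ⊕ Fin m → F)) :
    Module.finrank F S ≤ 2 * m := by
  have h := Submodule.finrank_le S
  rw [Module.finrank_fintype_fun_eq_card] at h
  simp at h
  omega

theorem ts_finrank_le {S : Submodule F (Fin m ⊕ Fin m → F)} (hS : ts m S) :
    Module.finrank F S ≤ m := by
  have h1 := Submodule.finrank_mono (ts_le_perp m hS)
  rw [finrank_perp] at h1
  have h2 := finrank_le_total m S
  omega

theorem perp_eq {X : Submodule F (Fin m ⊕ Fin m → F)} (hX : ts m X)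
    (hXm : Module.finrank F X = m) : (Bf m).orthogonal X = X := by
  symm
  apply Submodule.eq_of_le_of_finrank_eq (ts_le_perp m hX)
  rw [finrank_perp, hXm]
  omega

theorem ts_sup_span {D : Submodule F (Fin m ⊕ Fin m → F)} (hD : ts m D)
    (y : Fin m ⊕ Fin m → F) (hy : quadFormPlus m F y = 0) (hDy : ∀ d ∈ D, Bf m d y = 0) :
    ts m (D ⊔ Submodule.span F {y}) := by
  intro z hz
  obtain ⟨d, hd, y', hy', rfl⟩ := Submodule.mem_sup.mp hz
  obtain ⟨c, rfl⟩ := Submodule.mem_span_singleton.mp hy'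
  rw [hadd, hD d hd, hsmul, hy, map_smul, smul_eq_mul, hDy d hd]
  ring

theorem mem_of_perp {X D : Submodule F (Fin m ⊕ Fin m → F)} (hX : ts m X)
    (hXm : Module.finrank F X = m) (hDX : D ≤ X) (hDm : Module.finrank F D + 1 = m)
    (x x' : Fin m ⊕ Fin m → F) (hx : x ∈ X) (hxD : x ∉ D) (hD' : ∀ d ∈ D, Bf m d x' = 0)
    (hxx' : Bf m x x' = 0) : x' ∈ X := by
  have hsup : D ⊔ Submodule.span F {x} = X := by
    apply Submodule.eq_of_le_of_finrank_le
    · exact sup_le hDX ((Submodule.span_singleton_le_iff_mem x X).mpr hx)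
    · have hlt : D < D ⊔ Submodule.span F {x} := by
        refine lt_of_le_of_ne le_sup_left ?_
        intro h
        apply hxD
        rw [h]
        exact Submodule.mem_sup_right (Submodule.mem_span_singleton_self x)
      have := Submodule.finrank_lt_finrank_of_lt hlt
      omega
  rw [← perp_eq m hX hXm, LinearMap.BilinForm.mem_orthogonal_iff]
  intro z hz
  rw [← hsup] at hz
  obtain ⟨d, hd, y', hy', rfl⟩ := Submodule.mem_sup.mp hz
  obtain ⟨c, rfl⟩ := Submodule.mem_span_singleton.mp hy'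
  rw [map_add, LinearMap.add_apply, map_smul, LinearMap.smul_apply, hD' d hd, hxx', smul_zero,
    add_zero]

omit [Field F] in
theorem exists_not_mem {K V : Type*} [Field K] [AddCommGroup V] [Module K V]
    [FiniteDimensional K V] (S T : Submodule K V)
    (h : Module.finrank K T < Module.finrank K S) : ∃ y ∈ S, y ∉ T := by
  by_contra hcon
  push Not at hcon
  have hle : S ≤ T := hcon
  have := Submodule.finrank_mono hle
  omega

theorem hyper (S T H : Submodule F (Fin m ⊕ Fin m → F)) (hHT : H ≤ T)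
    (hfin : Module.finrank F T ≤ Module.finrank F H + 1) :
    Module.finrank F ↥(S ⊓ T) ≤ Module.finrank F ↥(S ⊓ H) + 1 := by
  have h1 := Submodule.finrank_sup_add_finrank_inf_eq (S ⊓ T) H
  have h2 : (S ⊓ T) ⊓ H = S ⊓ H := by
    rw [inf_assoc, inf_eq_right.mpr hHT]
  rw [h2] at h1
  have h3 : Module.finrank F ↥((S ⊓ T) ⊔ H) ≤ Module.finrank F T :=
    Submodule.finrank_mono (sup_le inf_le_right hHT)
  omega

theorem adjacent {X X' U : Submodule F (Fin m ⊕ Fin m → F)} (hX : ts m X)
    (hXm : Module.finrank F X = m) (hX' : ts m X') (hXm' : Module.finrank F X' = m)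
    (hadj : Module.finrank F ↥(X ⊓ X') + 1 = m) (hU : ts m U) (hUm : Module.finrank F U = m) :
    Module.finrank F ↥(U ⊓ X) + 1 = Module.finrank F ↥(U ⊓ X') ∨
      Module.finrank F ↥(U ⊓ X') + 1 = Module.finrank F ↥(U ⊓ X) := by
  have h1 : Module.finrank F ↥(U ⊓ X) ≤ Module.finrank F ↥(U ⊓ (X ⊓ X')) + 1 :=
    hyper m U X (X ⊓ X') inf_le_left (by omega)
  have h2 : Module.finrank F ↥(U ⊓ X') ≤ Module.finrank F ↥(U ⊓ (X ⊓ X')) + 1 :=
    hyper m U X' (X ⊓ X') inf_le_right (by omega)
  have hle3 : U ⊓ (X ⊓ X') ≤ U ⊓ X := inf_le_inf_left U inf_le_left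
  have hle4 : U ⊓ (X ⊓ X') ≤ U ⊓ X' := inf_le_inf_left U inf_le_right
  have h3 := Submodule.finrank_mono hle3
  have h4 := Submodule.finrank_mono hle4
  have hDts : ts m (X ⊓ X') := fun w hw => hX w hw.1
  by_contra hcon
  rw [not_or] at hcon
  have hpp : Module.finrank F ↥(U ⊓ X) = Module.finrank F ↥(U ⊓ X') := by omega
  rcases (by omega : Module.finrank F ↥(U ⊓ X) = Module.finrank F ↥(U ⊓ (X ⊓ X')) + 1 ∨
      Module.finrank F ↥(U ⊓ X) = Module.finrank F ↥(U ⊓ (X ⊓ X'))) with hc | hc
  · obtain ⟨y, hy, hyD⟩ := exists_not_mem (U ⊓ X) (U ⊓ (X ⊓ X')) (by omega)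
    obtain ⟨y', hy', hyD'⟩ := exists_not_mem (U ⊓ X') (U ⊓ (X ⊓ X')) (by omega)
    have hyX' : y ∉ X ⊓ X' := fun h => hyD ⟨hy.1, h⟩
    have hy'X : y' ∉ X := fun h => hyD' ⟨hy'.1, h, hy'.2⟩
    apply hy'X
    exact mem_of_perp m hX hXm inf_le_left hadj y y' hy.2 hyX'
      (fun d hd => ts_B m hX' d y' hd.2 hy'.2) (ts_B m hU y y' hy.1 hy'.1)
  · have hUX : U ⊓ (X ⊓ X') = U ⊓ X := Submodule.eq_of_le_of_finrank_eq hle3 hc.symm
    have hUX' : U ⊓ (X ⊓ X') = U ⊓ X' := Submodule.eq_of_le_of_finrank_eq hle4 (by omega)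
    have hsup := Submodule.finrank_sup_add_finrank_inf_eq U (X ⊓ X')
    have hT := finrank_perp m (U ⊔ (X ⊓ X'))
    have hTU : (Bf m).orthogonal (U ⊔ (X ⊓ X')) ≤ U := by
      intro z hz
      rw [← perp_eq m hU hUm]
      exact LinearMap.BilinForm.orthogonal_le le_sup_left hz
    have htot := finrank_le_total m (U ⊔ (X ⊓ X'))
    obtain ⟨y, hy, hyD⟩ := exists_not_mem ((Bf m).orthogonal (U ⊔ (X ⊓ X'))) (U ⊓ (X ⊓ X'))
      (by omega)
    have hyU : y ∈ U := hTU hy
    have hyperp : y ∈ (Bf m).orthogonal (X ⊓ X') :=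
      LinearMap.BilinForm.orthogonal_le le_sup_right hy
    have hperpD : (Bf m).orthogonal (X ⊓ X') = X ⊔ X' := by
      symm
      apply Submodule.eq_of_le_of_finrank_eq
      · apply sup_le
        · intro x hx
          rw [LinearMap.BilinForm.mem_orthogonal_iff]
          intro d hd
          exact ts_B m hX d x hd.1 hx
        · intro x hx
          rw [LinearMap.BilinForm.mem_orthogonal_iff]
          intro d hd
          exact ts_B m hX' d x hd.2 hx
      · have h5 := Submodule.finrank_sup_add_finrank_inf_eq X X'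
        rw [finrank_perp]
        omega
    rw [hperpD] at hyperp
    obtain ⟨x, hx, x', hx', rfl⟩ := Submodule.mem_sup.mp hyperp
    have hB0 : Bf m x x' = 0 := by
      have h := hadd m x x'
      rw [hU _ hyU, hX x hx, hX' x' hx', zero_add, zero_add] at h
      exact h.symm
    have hxD : x ∉ X ⊓ X' := by
      intro h
      apply hyD
      rw [hUX']
      exact ⟨hyU, X'.add_mem h.2 hx'⟩
    have hx'X : x' ∉ X := by
      intro h
      apply hyD
      rw [hUX]
      exact ⟨hyU, X.add_mem hx h⟩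
    apply hx'X
    exact mem_of_perp m hX hXm inf_le_left hadj x x' hx hxD
      (fun d hd => ts_B m hX' d x' hd.2 hx') hB0

theorem step {X W : Submodule F (Fin m ⊕ Fin m → F)} (hX : ts m X)
    (hXm : Module.finrank F X = m) (hW : ts m W) (hWm : Module.finrank F W = m)
    (w : Fin m ⊕ Fin m → F) (hw : w ∈ W) (hwX : w ∉ X) :
    ∃ X' : Submodule F (Fin m ⊕ Fin m → F), ts m X' ∧ Module.finrank F X' = m ∧
      Module.finrank F ↥(X ⊓ X') + 1 = m ∧
      Module.finrank F ↥(X' ⊓ W) = Module.finrank F ↥(X ⊓ W) + 1 := by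
  have hDX : (Bf m).orthogonal (X ⊔ Submodule.span F {w}) ≤ X := by
    intro z hz
    rw [← perp_eq m hX hXm]
    exact LinearMap.BilinForm.orthogonal_le le_sup_left hz
  have hDw : ∀ z ∈ (Bf m).orthogonal (X ⊔ Submodule.span F {w}), Bf m w z = 0 := by
    intro z hz
    exact hz w (Submodule.mem_sup_right (Submodule.mem_span_singleton_self w))
  have hw0 : w ≠ 0 := by
    rintro rfl
    exact hwX X.zero_mem
  have hsupfr : Module.finrank F ↥(X ⊔ Submodule.span F {w}) = m + 1 := by
    have hlt : X < X ⊔ Submodule.span F {w} := by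
      refine lt_of_le_of_ne le_sup_left ?_
      intro h
      apply hwX
      rw [h]
      exact Submodule.mem_sup_right (Submodule.mem_span_singleton_self w)
    have h1 := Submodule.finrank_lt_finrank_of_lt hlt
    have h2 := Submodule.finrank_add_le_finrank_add_finrank X (Submodule.span F {w})
    rw [finrank_span_singleton hw0] at h2
    omega
  have hDfr := finrank_perp m (X ⊔ Submodule.span F {w})
  have htot := finrank_le_total m (X ⊔ Submodule.span F {w})
  have hDts : ts m ((Bf m).orthogonal (X ⊔ Submodule.span F {w})) := fun z hz => hX z (hDX hz)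
  have hX'ts : ts m ((Bf m).orthogonal (X ⊔ Submodule.span F {w}) ⊔ Submodule.span F {w}) :=
    ts_sup_span m hDts w (hW w hw) (fun d hd => by rw [Bf_symm]; exact hDw d hd)
  have hwD : w ∉ (Bf m).orthogonal (X ⊔ Submodule.span F {w}) := fun h => hwX (hDX h)
  have hX'fr : Module.finrank F
      ↥((Bf m).orthogonal (X ⊔ Submodule.span F {w}) ⊔ Submodule.span F {w}) = m := by
    have hlt : (Bf m).orthogonal (X ⊔ Submodule.span F {w})
        < (Bf m).orthogonal (X ⊔ Submodule.span F {w}) ⊔ Submodule.span F {w} := by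
      refine lt_of_le_of_ne le_sup_left ?_
      intro h
      apply hwD
      rw [h]
      exact Submodule.mem_sup_right (Submodule.mem_span_singleton_self w)
    have h1 := Submodule.finrank_lt_finrank_of_lt hlt
    have h2 := ts_finrank_le m hX'ts
    omega
  have hwX' : w ∈ (Bf m).orthogonal (X ⊔ Submodule.span F {w}) ⊔ Submodule.span F {w} :=
    Submodule.mem_sup_right (Submodule.mem_span_singleton_self w)
  have hmemD : ∀ z, z ∈ X → Bf m w z = 0 →
      z ∈ (Bf m).orthogonal (X ⊔ Submodule.span F {w}) := by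
    intro z hz hwz
    rw [LinearMap.BilinForm.mem_orthogonal_iff]
    intro s hs
    obtain ⟨x, hx, y', hy', rfl⟩ := Submodule.mem_sup.mp hs
    obtain ⟨c, rfl⟩ := Submodule.mem_span_singleton.mp hy'
    rw [map_add, LinearMap.add_apply, map_smul, LinearMap.smul_apply, hwz, smul_zero, add_zero]
    exact ts_B m hX x z hx hz
  have hinf : X ⊓ ((Bf m).orthogonal (X ⊔ Submodule.span F {w}) ⊔ Submodule.span F {w})
      = (Bf m).orthogonal (X ⊔ Submodule.span F {w}) := by
    apply le_antisymm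
    · intro z hz
      exact hmemD z hz.1 (ts_B m hX'ts w z hwX' hz.2)
    · exact le_inf hDX le_sup_left
  refine ⟨(Bf m).orthogonal (X ⊔ Submodule.span F {w}) ⊔ Submodule.span F {w}, hX'ts, hX'fr,
    ?_, ?_⟩
  · rw [hinf]
    omega
  · have hadj : Module.finrank F
        ↥(X ⊓ ((Bf m).orthogonal (X ⊔ Submodule.span F {w}) ⊔ Submodule.span F {w})) + 1 = m := by
      rw [hinf]
      omega
    have hL := adjacent m hX hXm hX'ts hX'fr hadj hW hWm
    have hle : X ⊓ W
        ≤ ((Bf m).orthogonal (X ⊔ Submodule.span F {w}) ⊔ Submodule.span F {w}) ⊓ W := by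
      intro z hz
      exact ⟨Submodule.mem_sup_left (hmemD z hz.1 (ts_B m hW w z hw hz.2)), hz.2⟩
    have h1 := Submodule.finrank_mono hle
    rw [inf_comm W X, inf_comm W _] at hL
    omega

theorem parity (U W : Submodule F (Fin m ⊕ Fin m → F)) (hU : ts m U)
    (hUm : Module.finrank F U = m) (hW : ts m W) (hWm : Module.finrank F W = m) :
    ∀ (r : ℕ) (X : Submodule F (Fin m ⊕ Fin m → F)), ts m X → Module.finrank F X = m →
      m - Module.finrank F ↥(X ⊓ W) = r →
      Even (m + Module.finrank F ↥(U ⊓ X) + Module.finrank F ↥(U ⊓ W)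
        + Module.finrank F ↥(X ⊓ W)) := by
  intro r
  induction r with
  | zero =>
    intro X hX hXm hr
    have h1 : Module.finrank F ↥(X ⊓ W) ≤ m := by
      have := Submodule.finrank_mono (inf_le_left : X ⊓ W ≤ X)
      omega
    have h2 : Module.finrank F ↥(X ⊓ W) = m := by omega
    have e1 : X ⊓ W = X := Submodule.eq_of_le_of_finrank_eq inf_le_left (by omega)
    have e2 : X ⊓ W = W := Submodule.eq_of_le_of_finrank_eq inf_le_right (by omega)
    have e3 : X = W := e1.symm.trans e2
    rw [h2, e3]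
    exact ⟨m + Module.finrank F ↥(U ⊓ W), by ring⟩
  | succ r ih =>
    intro X hX hXm hr
    have hnle : ¬ W ≤ X := by
      intro h
      have e : X ⊓ W = W := inf_eq_right.mpr h
      rw [e, hWm] at hr
      omega
    obtain ⟨w, hw, hwX⟩ := SetLike.not_le_iff_exists.mp hnle
    obtain ⟨X', hX', hXm', hadj, hfr⟩ := step m hX hXm hW hWm w hw hwX
    have h1 : Module.finrank F ↥(X ⊓ W) ≤ m := by
      have := Submodule.finrank_mono (inf_le_left : X ⊓ W ≤ X)
      omega
    obtain ⟨t, ht⟩ := ih X' hX' hXm' (by omega)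
    rcases adjacent m hX hXm hX' hXm' hadj hU hUm with hL | hL
    · exact ⟨t - 1, by omega⟩
    · exact ⟨t, by omega⟩

end aux

/-- The two families of maximal totally singular subspaces of the hyperbolic quadric: for the form Σ x_i y_i on F^(2m), m ≥ 1, and m-dimensional subspaces U, W, X on which it vanishes, the parities of m − dim(U ∩ W), m − dim(W ∩ X) and m − dim(U ∩ X) sum to an even number (so 'even codimension of the intersection' is an equivalence relation), and there exist two such subspaces meeting in codimension 1 (so there are exactly two classes). -/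
theorem result {F : Type*} [Field F] (m : ℕ) (hm : 1 ≤ m) : (∀ U W X : Submodule F (Fin m ⊕ Fin m → F), (Module.finrank F U = m ∧ ∀ w ∈ U, Cfsg.quadFormPlus m F w = 0) → (Module.finrank F W = m ∧ ∀ w ∈ W, Cfsg.quadFormPlus m F w = 0) → (Module.finrank F X = m ∧ ∀ w ∈ X, Cfsg.quadFormPlus m F w = 0) → Even ((m - Module.finrank F ↥(U ⊓ W)) + (m - Module.finrank F ↥(W ⊓ X)) + (m - Module.finrank F ↥(U ⊓ X)))) ∧ ∃ U W : Submodule F (Fin m ⊕ Fin m → F), (Module.finrank F U = m ∧ ∀ w ∈ U, Cfsg.quadFormPlus m F w = 0) ∧ (Module.finrank F W = m ∧ ∀ w ∈ W, Cfsg.quadFormPlus m F w = 0) ∧ Module.finrank F ↥(U ⊓ W) + 1 = m := by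
  constructor
  · rintro U W X ⟨hUm, hU⟩ ⟨hWm, hW⟩ ⟨hXm, hX⟩
    obtain ⟨t, ht⟩ := parity m U W hU hUm hW hWm _ X hX hXm rfl
    have h1 : Module.finrank F ↥(U ⊓ W) ≤ m := by
      have := Submodule.finrank_mono (inf_le_left : U ⊓ W ≤ U)
      omega
    have h2 : Module.finrank F ↥(X ⊓ W) ≤ m := by
      have := Submodule.finrank_mono (inf_le_left : X ⊓ W ≤ X)
      omega
    have h3 : Module.finrank F ↥(U ⊓ X) ≤ m := by
      have := Submodule.finrank_mono (inf_le_left : U ⊓ X ≤ U)
      omega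
    rw [inf_comm W X]
    exact ⟨2 * m - t, by omega⟩
  · obtain ⟨k, rfl⟩ : ∃ k, m = k + 1 := ⟨m - 1, by omega⟩
    have hA : ts (k + 1) (LinearMap.range (iA (F := F) k)) := A_ts k
    have hB : ts (k + 1) (LinearMap.range (iB (F := F) k)) := B_ts k
    have hnle : ¬ LinearMap.range (iB (F := F) k) ≤ LinearMap.range (iA (F := F) k) := by
      intro h
      apply A_ne_B (F := F) k
      symm
      exact Submodule.eq_of_le_of_finrank_eq h (by rw [finrank_A, finrank_B])
    obtain ⟨w, hw, hwA⟩ := SetLike.not_le_iff_exists.mp hnle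
    obtain ⟨X', hX', hXm', hadj, -⟩ := step (k + 1) hA (finrank_A k) hB (finrank_B k) w hw hwA
    exact ⟨LinearMap.range (iA (F := F) k), X', ⟨finrank_A k, hA⟩, ⟨hXm', hX'⟩, hadj⟩

end Cfsg.Agent.S0831
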