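import Mathlib
import Cfsg.Statements.S0833
import Cfsg.Agent.S0752

set_option autoImplicit false
open Cfsg

namespace Cfsg.Agent.S0833

open TensorProduct

/-- If B₁, B₂ are non-degenerate alternating forms on U (dim 2k) and W (dim 2l), then B₁ ⊗ B₂ on U ⊗ W is symmetric, non-degenerate, and vanishes identically on some subspace of dimension 2kl (half of dim U ⊗ W). -/
theorem result {F U W : Type*} [Field F] [Fintype F] [AddCommGroup U] [Module F U] [FiniteDimensional F U] [AddCommGroup W] [Module F W] [FiniteDimensional F W] (B₁ : LinearMap.BilinForm F U) (B₂ : LinearMap.BilinForm F W) (h₁ : B₁.Nondegenerate) (h₂ : B₂.Nondegenerate) (hA₁ : B₁.IsAlt) (hA₂ : B₂.IsAlt) (k l : ℕ) (hU : Module.finrank F U = 2 * k) (hW : Module.finrank F W = 2 * l) : (B₁.tmul B₂).IsSymm ∧ (B₁.tmul B₂).Nondegenerate ∧ (∃ X : Submodule F (TensorProduct F U W), Module.finrank F X = 2 * k * l ∧ ∀ x ∈ X, ∀ y ∈ X, (B₁.tmul B₂) x y = 0) := by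
  have hskew₁ : ∀ a b, B₁ a b = - B₁ b a := fun a b => (hA₁.neg_eq b a).symm
  have hskew₂ : ∀ a b, B₂ a b = - B₂ b a := fun a b => (hA₂.neg_eq b a).symm
  have hpure : ∀ (u : U) (w : W) (u' : U) (w' : W),
      (B₁.tmul B₂) (u ⊗ₜ[F] w) (u' ⊗ₜ[F] w') = B₂ w w' • B₁ u u' := fun _ _ _ _ => rfl
  have hsymm : (B₁.tmul B₂).IsSymm := by
    rw [LinearMap.isSymm_iff_eq_flip]
    apply TensorProduct.ext'
    intro u w
    apply TensorProduct.ext'
    intro u' w'
    rw [LinearMap.flip_apply, hpure, hpure, hskew₁ u u', hskew₂ w w']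
    simp
  refine ⟨hsymm, ?_, ?_⟩
  · rw [hsymm.isRefl.nondegenerate_iff_separatingLeft, LinearMap.separatingLeft_iff_ker_eq_bot,
      LinearMap.ker_eq_bot]
    have hfac : (B₁.tmul B₂ : U ⊗[F] W →ₗ[F] Module.Dual F (U ⊗[F] W))
        = (TensorProduct.dualDistrib F U W) ∘ₗ (TensorProduct.map B₁ B₂) := by
      apply TensorProduct.ext'
      intro u w
      apply TensorProduct.ext'
      intro u' w'
      rw [hpure]
      simp [mul_comm]
    rw [hfac]
    have hinj₁ : Function.Injective B₁ :=
      LinearMap.ker_eq_bot.mp (LinearMap.separatingLeft_iff_ker_eq_bot.mp h₁.1)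
    have hinj₂ : Function.Injective B₂ :=
      LinearMap.ker_eq_bot.mp (LinearMap.separatingLeft_iff_ker_eq_bot.mp h₂.1)
    have hmap := TensorProduct.map_injective_of_flat_flat B₁ B₂ hinj₁ hinj₂
    have hdd : Function.Injective (TensorProduct.dualDistrib F U W) :=
      (TensorProduct.dualDistribEquiv F U W).injective
    rw [LinearMap.coe_comp]
    exact hdd.comp hmap
  · obtain ⟨m, kr, b, hef, hee, hff, hrad⟩ := Cfsg.Agent.S0752.result B₁ hA₁
    have hkr : kr = 0 := by
      by_contra hne
      have j : Fin kr := ⟨0, Nat.pos_of_ne_zero hne⟩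
      exact b.ne_zero (Sum.inr j) (h₁.1 _ (hrad j))
    have hcardU : Module.finrank F U = m + m + kr := by
      rw [Module.finrank_eq_card_basis b]
      simp
    have hmk : m = k := by omega
    subst hmk
    set c : Module.Basis (Fin (2 * l)) F W := Module.finBasisOfFinrankEq F W hW with hc
    set v : Fin m × Fin (2 * l) → U ⊗[F] W :=
      fun p => b (Sum.inl (Sum.inl p.1)) ⊗ₜ[F] c p.2 with hv
    have hli : LinearIndependent F v := by
      have h1 := (b.tensorProduct c).linearIndependent
      have h2 : Function.Injective (fun p : Fin m × Fin (2 * l) =>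
          ((Sum.inl (Sum.inl p.1) : (Fin m ⊕ Fin m) ⊕ Fin kr), p.2)) := by
        rintro ⟨p1, p2⟩ ⟨q1, q2⟩ h
        simp only [Prod.mk.injEq, Sum.inl.injEq] at h
        exact Prod.ext h.1 h.2
      have h3 := h1.comp _ h2
      have h4 : v = (⇑(b.tensorProduct c) ∘ fun p : Fin m × Fin (2 * l) =>
          ((Sum.inl (Sum.inl p.1) : (Fin m ⊕ Fin m) ⊕ Fin kr), p.2)) := by
        ext p
        simp [hv, Module.Basis.tensorProduct_apply]
      rw [h4]
      exact h3
    have hgen : ∀ p q, (B₁.tmul B₂) (v p) (v q) = 0 := by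
      intro p q
      rw [hv, hpure, hee]
      simp
    refine ⟨Submodule.span F (Set.range v), ?_, ?_⟩
    · rw [finrank_span_eq_card hli]
      simp
      ring
    · have h1 : ∀ x ∈ Submodule.span F (Set.range v), ∀ q, (B₁.tmul B₂) x (v q) = 0 := by
        intro x hx q
        induction hx using Submodule.span_induction with
        | mem x hx =>
          obtain ⟨p, rfl⟩ := hx
          exact hgen p q
        | zero => simp
        | add x y _ _ hx hy => rw [map_add, LinearMap.add_apply, hx, hy, add_zero]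
        | smul a x _ hx => rw [map_smul, LinearMap.smul_apply, hx, smul_zero]
      intro x hx y hy
      induction hy using Submodule.span_induction with
      | mem y hy =>
        obtain ⟨q, rfl⟩ := hy
        exact h1 x hx q
      | zero => simp
      | add y z _ _ hy hz => rw [map_add, hy, hz, add_zero]
      | smul a y _ hy => rw [map_smul, hy, smul_zero]

end Cfsg.Agent.S0833
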