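import Mathlib
import Cfsg.Statements.S0838
import Cfsg.Agent.S0756

set_option autoImplicit false
open Cfsg

namespace Cfsg.Agent.S0838

theorem diag_formula {F V ι : Type*} [Field F] [AddCommGroup V] [Module F V] [Fintype ι]
    [DecidableEq ι] (B : LinearMap.BilinForm F V) (b : Module.Basis ι F V)
    (hortho : ∀ i j, i ≠ j → B (b i) (b j) = 0) (x : V) :
    B x x = ∑ i, (b.repr x i) ^ 2 * B (b i) (b i) := by
  have hx := b.sum_repr x
  calc B x x = B (∑ i, b.repr x i • b i) (∑ j, b.repr x j • b j) := by rw [hx]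
    _ = ∑ i, ∑ j, b.repr x i * (b.repr x j * B (b i) (b j)) := by
      simp only [map_sum, map_smul, LinearMap.sum_apply, LinearMap.smul_apply, smul_eq_mul,
        Finset.mul_sum]
      rw [Finset.sum_comm]
      apply Finset.sum_congr rfl
      intro i _
      apply Finset.sum_congr rfl
      intro j _
      ring
    _ = ∑ i, (b.repr x i) ^ 2 * B (b i) (b i) := by
      apply Finset.sum_congr rfl
      intro i _
      rw [Finset.sum_eq_single i]
      · ring
      · intro j _ hj
        rw [hortho i j (Ne.symm hj)]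
        ring
      · intro h
        exact absurd (Finset.mem_univ i) h

theorem disc {F V : Type*} [Field F] [AddCommGroup V] [Module F V] {n : ℕ}
    (B : LinearMap.BilinForm F V) (b b' : Module.Basis (Fin n) F V)
    (h : ∀ i j, i ≠ j → B (b i) (b j) = 0) (h' : ∀ i j, i ≠ j → B (b' i) (b' j) = 0) :
    ∃ s : F, ∏ i, B (b' i) (b' i) = s ^ 2 * ∏ i, B (b i) (b i) := by
  have e := LinearMap.BilinForm.toMatrix_mul_basis_toMatrix b b' B
  have d : LinearMap.BilinForm.toMatrix b B = Matrix.diagonal (fun i => B (b i) (b i)) := by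
    ext i j
    rw [LinearMap.BilinForm.toMatrix_apply]
    by_cases hij : i = j
    · subst hij; simp
    · rw [Matrix.diagonal_apply_ne _ hij, h i j hij]
  have d' : LinearMap.BilinForm.toMatrix b' B = Matrix.diagonal (fun i => B (b' i) (b' i)) := by
    ext i j
    rw [LinearMap.BilinForm.toMatrix_apply]
    by_cases hij : i = j
    · subst hij; simp
    · rw [Matrix.diagonal_apply_ne _ hij, h' i j hij]
  have e2 := congrArg Matrix.det e
  rw [Matrix.det_mul, Matrix.det_mul, Matrix.det_transpose, d, d', Matrix.det_diagonal,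
    Matrix.det_diagonal] at e2
  exact ⟨(b.toMatrix b').det, by rw [← e2]; ring⟩

theorem sq_of {F : Type*} [Field F] (α w : F) (h : 1 = w ^ 2 * α) : IsSquare α := by
  have hw : w ≠ 0 := by
    rintro rfl
    simp at h
  refine ⟨w⁻¹, ?_⟩
  calc α = (w ^ 2 * α) * (w⁻¹ * w⁻¹) := by field_simp
    _ = w⁻¹ * w⁻¹ := by rw [← h, one_mul]

/-- Over a finite field with 2 ≠ 0 and n odd: two quadratic forms Q₁, Q₂ on F^n with non-degenerate polar forms are similar — there are an invertible linear map g and a scalar c ≠ 0 with Q₂ (g v) = c · Q₁ v for all v. -/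
theorem result {F : Type*} [Field F] [Fintype F] (h2 : (2 : F) ≠ 0) {n : ℕ} (hn : Odd n) (Q₁ Q₂ : QuadraticForm F (Fin n → F)) (h₁ : (QuadraticMap.polarBilin Q₁).Nondegenerate) (h₂ : (QuadraticMap.polarBilin Q₂).Nondegenerate) : ∃ (g : (Fin n → F) ≃ₗ[F] (Fin n → F)) (c : F), c ≠ 0 ∧ ∀ v, Q₂ (g v) = c * Q₁ v := by
  classical
  obtain ⟨t, ht⟩ := hn
  obtain ⟨n', rfl⟩ : ∃ n', n = n' + 1 := ⟨2 * t, ht⟩
  have hn't : n' = 2 * t := by omega
  have hchar : ringChar F ≠ 2 := by
    intro h
    apply h2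
    have h3 := CharP.cast_eq_zero F (ringChar F)
    rw [h] at h3
    exact_mod_cast h3
  obtain ⟨α, hα⟩ := FiniteField.exists_nonsquare hchar
  have hα0 : α ≠ 0 := by
    rintro rfl
    exact hα (IsSquare.zero)
  have hS₁ : LinearMap.BilinForm.IsSymm (QuadraticMap.polarBilin Q₁) :=
    LinearMap.BilinForm.isSymm_def.mpr (fun x y => QuadraticMap.polar_comm Q₁ x y)
  have hS₂ : LinearMap.BilinForm.IsSymm (QuadraticMap.polarBilin Q₂) :=
    LinearMap.BilinForm.isSymm_def.mpr (fun x y => QuadraticMap.polar_comm Q₂ x y)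
  have hdiag₁ : ∀ x, QuadraticMap.polarBilin Q₁ x x = 2 * Q₁ x := by
    intro x
    show QuadraticMap.polar Q₁ x x = _
    rw [QuadraticMap.polar_self, two_smul, two_mul]
  have hdiag₂ : ∀ x, QuadraticMap.polarBilin Q₂ x x = 2 * Q₂ x := by
    intro x
    show QuadraticMap.polar Q₂ x x = _
    rw [QuadraticMap.polar_self, two_smul, two_mul]
  have hfin : Module.finrank F (Fin (n' + 1) → F) = n' + 1 := Module.finrank_fin_fun F
  obtain ⟨b₁, ho₁, hn₁, hl₁⟩ :=
    Cfsg.Agent.S0756.result h2 (QuadraticMap.polarBilin Q₁) hS₁ h₁ hfin α hα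
  obtain ⟨b₂, ho₂, hn₂, hl₂⟩ :=
    Cfsg.Agent.S0756.result h2 (QuadraticMap.polarBilin Q₂) hS₂ h₂ hfin α hα
  have hmain : ∀ (c : F) (_ : c ≠ 0) (b₃ : Module.Basis (Fin (n' + 1)) F (Fin (n' + 1) → F)),
      (∀ i j, i ≠ j → QuadraticMap.polarBilin Q₁ (b₃ i) (b₃ j) = 0) →
      (∀ i, c * QuadraticMap.polarBilin Q₁ (b₃ i) (b₃ i)
        = QuadraticMap.polarBilin Q₂ (b₂ i) (b₂ i)) →
      ∃ (g : (Fin (n' + 1) → F) ≃ₗ[F] (Fin (n' + 1) → F)) (c : F),
        c ≠ 0 ∧ ∀ v, Q₂ (g v) = c * Q₁ v := by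
    intro c hc b₃ ho₃ hnorm
    refine ⟨b₃.repr.trans b₂.repr.symm, c, hc, ?_⟩
    intro v
    have e1 := diag_formula (QuadraticMap.polarBilin Q₂) b₂ ho₂ ((b₃.repr.trans b₂.repr.symm) v)
    have e2 := diag_formula (QuadraticMap.polarBilin Q₁) b₃ ho₃ v
    have e3 : ∀ i, b₂.repr ((b₃.repr.trans b₂.repr.symm) v) i = b₃.repr v i := by
      intro i
      simp
    rw [hdiag₂] at e1
    rw [hdiag₁] at e2
    simp only [e3] at e1
    have e4 : 2 * Q₂ ((b₃.repr.trans b₂.repr.symm) v) = 2 * (c * Q₁ v) := by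
      rw [e1]
      calc ∑ i, (b₃.repr v i) ^ 2 * QuadraticMap.polarBilin Q₂ (b₂ i) (b₂ i)
          = ∑ i, c * ((b₃.repr v i) ^ 2 * QuadraticMap.polarBilin Q₁ (b₃ i) (b₃ i)) := by
            apply Finset.sum_congr rfl
            intro i _
            rw [← hnorm i]
            ring
        _ = c * (2 * Q₁ v) := by rw [← Finset.mul_sum, ← e2]
        _ = 2 * (c * Q₁ v) := by ring
    exact mul_left_cancel₀ h2 e4
  by_cases hd : QuadraticMap.polarBilin Q₁ (b₁ (Fin.last n')) (b₁ (Fin.last n'))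
      = QuadraticMap.polarBilin Q₂ (b₂ (Fin.last n')) (b₂ (Fin.last n'))
  · apply hmain 1 one_ne_zero b₁ ho₁
    intro i
    rw [one_mul]
    by_cases hi : i = Fin.last n'
    · rw [hi]; exact hd
    · rw [hn₁ i hi, hn₂ i hi]
  · -- rescale by α
    have hS₃ : LinearMap.BilinForm.IsSymm (α • QuadraticMap.polarBilin Q₁) := by
      apply LinearMap.BilinForm.isSymm_def.mpr
      intro x y
      simp only [LinearMap.smul_apply, smul_eq_mul]
      rw [LinearMap.BilinForm.isSymm_def.mp hS₁ x y]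
    have hnd₃ : (α • QuadraticMap.polarBilin Q₁).Nondegenerate := by
      refine ⟨fun x hx => h₁.1 x (fun y => ?_), fun y hy => h₁.2 y (fun x => ?_)⟩
      · have h5 := hx y
        simp only [LinearMap.smul_apply, smul_eq_mul] at h5
        exact (mul_eq_zero.mp h5).resolve_left hα0
      · have h5 := hy x
        simp only [LinearMap.smul_apply, smul_eq_mul] at h5
        exact (mul_eq_zero.mp h5).resolve_left hα0
    obtain ⟨b₃, ho₃, hn₃, hl₃⟩ :=
      Cfsg.Agent.S0756.result h2 (α • QuadraticMap.polarBilin Q₁) hS₃ hnd₃ hfin α hα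
    simp only [LinearMap.smul_apply, smul_eq_mul] at ho₃ hn₃ hl₃
    have ho₃' : ∀ i j, i ≠ j → QuadraticMap.polarBilin Q₁ (b₃ i) (b₃ j) = 0 :=
      fun i j hij => (mul_eq_zero.mp (ho₃ i j hij)).resolve_left hα0
    obtain ⟨s, hs⟩ := disc (QuadraticMap.polarBilin Q₁) b₁ b₃ ho₁ ho₃'
    rw [Fin.prod_univ_castSucc, Fin.prod_univ_castSucc] at hs
    have hp1 : ∏ i : Fin n', QuadraticMap.polarBilin Q₁ (b₁ (Fin.castSucc i)) (b₁ (Fin.castSucc i))
        = 1 := by
      apply Finset.prod_eq_one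
      intro i _
      exact hn₁ _ (Fin.castSucc_lt_last i).ne
    have hp3 : ∏ i : Fin n', QuadraticMap.polarBilin Q₁ (b₃ (Fin.castSucc i)) (b₃ (Fin.castSucc i))
        = (α⁻¹) ^ n' := by
      rw [Finset.prod_eq_pow_card (b := α⁻¹)]
      · simp
      · intro i _
        have h6 := hn₃ _ (Fin.castSucc_lt_last i).ne
        field_simp
        linear_combination h6
    have hpow : (α⁻¹) ^ n' = ((α⁻¹) ^ t) ^ 2 := by rw [hn't, pow_mul']
    rw [hp1, hp3, one_mul, hpow] at hs
    set d₁ := QuadraticMap.polarBilin Q₁ (b₁ (Fin.last n')) (b₁ (Fin.last n')) with hd₁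
    set d₂ := QuadraticMap.polarBilin Q₂ (b₂ (Fin.last n')) (b₂ (Fin.last n')) with hd₂
    set e₃ := QuadraticMap.polarBilin Q₁ (b₃ (Fin.last n')) (b₃ (Fin.last n')) with he₃
    -- hs : (α⁻¹)^(2t) * e₃ = s^2 * d₁ ; hl₃ : α * e₃ = 1 ∨ α * e₃ = α
    have hαt : α ^ t ≠ 0 := pow_ne_zero t hα0
    rw [inv_pow] at hs
    have hkey : α * e₃ = (s * α ^ t) ^ 2 * α * d₁ := by
      have h7 : e₃ = (α ^ t) ^ 2 * (s ^ 2 * d₁) := by
        rw [← hs]
        field_simp
      rw [h7]
      ring
    have hlast : α * e₃ = d₂ := by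
      rcases hl₁ with h8 | h8
      · -- d₁ = 1, so d₂ = α
        have hd₂α : d₂ = α := by
          rcases hl₂ with h9 | h9
          · exact absurd (h8.trans h9.symm) hd
          · exact h9
        rw [hd₂α]
        rcases hl₃ with h10 | h10
        · exfalso
          rw [h8, mul_one, h10] at hkey
          exact hα (sq_of α _ hkey)
        · exact h10
      · -- d₁ = α, so d₂ = 1
        have hd₂1 : d₂ = 1 := by
          rcases hl₂ with h9 | h9
          · exact h9
          · exact absurd (h8.trans h9.symm) hd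
        rw [hd₂1]
        rcases hl₃ with h10 | h10
        · exact h10
        · exfalso
          rw [h8, h10] at hkey
          have hkey' : (1 : F) = (s * α ^ t) ^ 2 * α := by
            have h11 : α * 1 = α * ((s * α ^ t) ^ 2 * α) := by
              rw [mul_one]
              linear_combination hkey
            exact mul_left_cancel₀ hα0 h11
          exact hα (sq_of α _ hkey')
    apply hmain α hα0 b₃ ho₃'
    intro i
    by_cases hi : i = Fin.last n'
    · rw [hi]; exact hlast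
    · rw [hn₃ i hi, hn₂ i hi]

end Cfsg.Agent.S0838
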