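import Mathlib
import Cfsg.Statements.S0834
import Cfsg.Agent.S0756
import Cfsg.Agent.S0838
import Cfsg.Agent.S0759

set_option autoImplicit false
open Cfsg

namespace Cfsg.Agent.S0834

theorem pairing {F V : Type*} [Field F] [AddCommGroup V] [Module F V]
    (B : LinearMap.BilinForm F V) {κ : Type*} [Fintype κ] (x y : κ → V)
    (hxx : ∀ i j, i ≠ j → B (x i) (x j) = 0) (hyy : ∀ i j, i ≠ j → B (y i) (y j) = 0)
    (hxy : ∀ i j, B (x i) (y j) = 0) (hyx : ∀ i j, B (y i) (x j) = 0)
    (hd : ∀ i, B (x i) (x i) + B (y i) (y i) = 0) (hx0 : ∀ i, B (x i) (x i) ≠ 0) :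
    ∃ X : Submodule F V, Module.finrank F X = Fintype.card κ ∧ ∀ u ∈ X, ∀ v ∈ X, B u v = 0 := by
  classical
  set z : κ → V := fun i => x i + y i with hz
  have hzz : ∀ i j, B (z i) (z j) = 0 := by
    intro i j
    simp only [hz, map_add, LinearMap.add_apply, hxy, hyx, add_zero, zero_add]
    by_cases hij : i = j
    · subst hij
      exact hd i
    · rw [hxx i j hij, hyy i j hij, add_zero]
  have hzx : ∀ i j, B (z i) (x j) = if i = j then B (x i) (x i) else 0 := by
    intro i j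
    simp only [hz, map_add, LinearMap.add_apply, hyx, add_zero]
    by_cases hij : i = j
    · subst hij
      rw [if_pos rfl]
    · rw [if_neg hij, hxx i j hij]
  have hli : LinearIndependent F z := by
    rw [Fintype.linearIndependent_iff]
    intro g hg i
    have h1 := congrArg (fun w => B w (x i)) hg
    simp only [map_sum, map_smul, LinearMap.sum_apply, LinearMap.smul_apply, hzx, smul_eq_mul,
      mul_ite, mul_zero, Finset.sum_ite_eq', Finset.mem_univ, if_true, map_zero,
      LinearMap.zero_apply] at h1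
    exact (mul_eq_zero.mp h1).resolve_right (hx0 i)
  refine ⟨Submodule.span F (Set.range z), ?_, ?_⟩
  · rw [finrank_span_eq_card hli]
  · intro u hu v hv
    obtain ⟨g, rfl⟩ := (Submodule.mem_span_range_iff_exists_fun F).mp hu
    obtain ⟨h, rfl⟩ := (Submodule.mem_span_range_iff_exists_fun F).mp hv
    simp only [map_sum, map_smul, LinearMap.sum_apply, LinearMap.smul_apply, hzz, smul_zero,
      Finset.sum_const_zero]

theorem rot {F V : Type*} [Field F] [AddCommGroup V] [Module F V] (B : LinearMap.BilinForm F V)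
    (t e : ℕ) (a b : F) (hab : a ^ 2 + b ^ 2 = -1)
    (f : ((Fin t ⊕ Fin t) ⊕ (Fin t ⊕ Fin t)) ⊕ (Fin e ⊕ Fin e) → V)
    (hf : ∀ j j', j ≠ j' → B (f j) (f j') = 0)
    (hf1 : ∀ s, B (f (Sum.inl s)) (f (Sum.inl s)) = 1)
    (hf2 : ∀ i, B (f (Sum.inr (Sum.inl i))) (f (Sum.inr (Sum.inl i))) = 1)
    (hf3 : ∀ i, B (f (Sum.inr (Sum.inr i))) (f (Sum.inr (Sum.inr i))) = -1) :
    ∃ X : Submodule F V, Module.finrank F X = 2 * t + e ∧ ∀ u ∈ X, ∀ v ∈ X, B u v = 0 := by
  classical
  let d : ((Fin t ⊕ Fin t) ⊕ (Fin t ⊕ Fin t)) ⊕ (Fin e ⊕ Fin e) → F :=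
    Sum.elim (fun _ => 1) (Sum.elim (fun _ => 1) (fun _ => -1))
  have hB : ∀ j j', B (f j) (f j') = if j = j' then d j else 0 := by
    intro j j'
    by_cases hjj : j = j'
    · subst hjj
      rw [if_pos rfl]
      rcases j with s | i | i
      · exact hf1 s
      · exact hf2 i
      · exact hf3 i
    · rw [if_neg hjj, hf j j' hjj]
  let x : (Fin t ⊕ Fin t) ⊕ Fin e → V :=
    Sum.elim (fun s => f (Sum.inl (Sum.inl s))) (fun i => f (Sum.inr (Sum.inl i)))
  let y : (Fin t ⊕ Fin t) ⊕ Fin e → V :=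
    Sum.elim (Sum.elim
      (fun i => a • f (Sum.inl (Sum.inr (Sum.inl i))) + b • f (Sum.inl (Sum.inr (Sum.inr i))))
      (fun i => (-b) • f (Sum.inl (Sum.inr (Sum.inl i))) + a • f (Sum.inl (Sum.inr (Sum.inr i)))))
      (fun i => f (Sum.inr (Sum.inr i)))
  obtain ⟨X, hX1, hX2⟩ := pairing B x y
    (by
      rintro (s | i) (s' | i') hne <;>
        simp only [x, y, d, Sum.elim_inl, Sum.elim_inr, hB, Sum.inl.injEq, Sum.inr.injEq,
          reduceCtorEq, if_false] <;>
        simp_all)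
    (by
      rintro ((i | i) | i) ((i' | i') | i') hne <;>
        simp only [x, y, d, Sum.elim_inl, Sum.elim_inr, map_add, map_smul, LinearMap.add_apply,
          LinearMap.smul_apply, smul_eq_mul, hB, Sum.inl.injEq, Sum.inr.injEq,
          reduceCtorEq, if_false, mul_zero, add_zero, zero_add] <;>
        first
          | (split_ifs <;> first | ring1 | (exfalso; simp_all))
          | simp_all)
    (by
      rintro (s | i) ((i' | i') | i') <;>
        simp only [x, y, d, Sum.elim_inl, Sum.elim_inr, map_add, map_smul, LinearMap.add_apply,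
          LinearMap.smul_apply, smul_eq_mul, hB, Sum.inl.injEq, Sum.inr.injEq,
          reduceCtorEq, if_false, mul_zero, add_zero, zero_add])
    (by
      rintro ((i | i) | i) (s' | i') <;>
        simp only [x, y, d, Sum.elim_inl, Sum.elim_inr, map_add, map_smul, LinearMap.add_apply,
          LinearMap.smul_apply, smul_eq_mul, hB, Sum.inl.injEq, Sum.inr.injEq,
          reduceCtorEq, if_false, mul_zero, add_zero, zero_add])
    (by
      rintro ((i | i) | i) <;>
        simp only [x, y, d, Sum.elim_inl, Sum.elim_inr, map_add, map_smul, LinearMap.add_apply,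
          LinearMap.smul_apply, smul_eq_mul, hB, Sum.inl.injEq, Sum.inr.injEq,
          reduceCtorEq, if_false, if_true, mul_zero, add_zero, zero_add, mul_one] <;>
        first
          | linear_combination hab
          | ring1)
    (by
      rintro (s | i) <;>
        simp only [x, y, d, Sum.elim_inl, Sum.elim_inr, hB, if_true] <;>
        exact one_ne_zero)
  refine ⟨X, ?_, hX2⟩
  rw [hX1]
  simp only [Fintype.card_sum, Fintype.card_fin]
  ring

theorem apply_rot {F V : Type*} [Field F] [AddCommGroup V] [Module F V]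
    (B : LinearMap.BilinForm F V) (n : ℕ) (c : Fin (n + 1) → V)
    (hc1 : ∀ i j, i ≠ j → B (c i) (c j) = 0) (t e : ℕ) (a b : F) (hab : a ^ 2 + b ^ 2 = -1)
    (eJ : ((Fin t ⊕ Fin t) ⊕ (Fin t ⊕ Fin t)) ⊕ (Fin e ⊕ Fin e) ≃ Fin (n + 1)) (sc : Fin e → F)
    (h1 : ∀ s, B (c (eJ (Sum.inl s))) (c (eJ (Sum.inl s))) = 1)
    (h2 : ∀ i, B (c (eJ (Sum.inr (Sum.inl i)))) (c (eJ (Sum.inr (Sum.inl i)))) = 1)
    (h3 : ∀ i, sc i * sc i * B (c (eJ (Sum.inr (Sum.inr i)))) (c (eJ (Sum.inr (Sum.inr i)))) = -1) :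
    ∃ X : Submodule F V, Module.finrank F X = 2 * t + e ∧ ∀ u ∈ X, ∀ v ∈ X, B u v = 0 := by
  have key : ∀ j j', j ≠ j' → B (c (eJ j)) (c (eJ j')) = 0 :=
    fun j j' h => hc1 _ _ (fun h' => h (eJ.injective h'))
  apply rot B t e a b hab
    (Sum.elim (fun s => c (eJ (Sum.inl s)))
      (Sum.elim (fun i => c (eJ (Sum.inr (Sum.inl i))))
        (fun i => sc i • c (eJ (Sum.inr (Sum.inr i))))))
  · intro j j' hjj
    rcases j with s | i | i <;> rcases j' with s' | i' | i' <;>
      simp only [Sum.elim_inl, Sum.elim_inr, map_smul, LinearMap.smul_apply, smul_eq_mul,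
        key _ _ hjj, mul_zero]
  · intro s
    simp only [Sum.elim_inl]
    exact h1 s
  · intro i
    simp only [Sum.elim_inl, Sum.elim_inr]
    exact h2 i
  · intro i
    simp only [Sum.elim_inr, map_smul, LinearMap.smul_apply, smul_eq_mul]
    rw [← mul_assoc]
    exact h3 i

theorem type_of_sq {F V : Type*} [Field F] [Fintype F] [AddCommGroup V] [Module F V]
    [FiniteDimensional F V] (h2 : (2 : F) ≠ 0) (B : LinearMap.BilinForm F V) (hS : B.IsSymm)
    {ι : Type*} [Fintype ι] (b : Module.Basis ι F V)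
    (hb : ∀ i j, i ≠ j → B (b i) (b j) = 0) (hb0 : ∀ i, B (b i) (b i) ≠ 0)
    (m : ℕ) (hm : Fintype.card ι = 2 * m)
    (hsq : IsSquare ((-1 : F) ^ m * ∏ i, B (b i) (b i))) :
    ∃ X : Submodule F V, Module.finrank F X = m ∧ ∀ u ∈ X, ∀ v ∈ X, B u v = 0 := by
  classical
  rcases Nat.eq_zero_or_pos m with hm0 | hmpos
  · subst hm0
    refine ⟨⊥, finrank_bot F V, ?_⟩
    intro u hu v _
    rw [(Submodule.mem_bot F).mp hu, map_zero, LinearMap.zero_apply]
  obtain ⟨n, hn⟩ : ∃ n, 2 * m = n + 1 := ⟨2 * m - 1, by omega⟩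
  have hfr : Module.finrank F V = n + 1 := by
    rw [Module.finrank_eq_card_basis b, hm, hn]
  have hBnd : B.Nondegenerate :=
    (LinearMap.BilinForm.iIsOrtho.nondegenerate_iff_not_isOrtho_basis_self B b
      (LinearMap.BilinForm.iIsOrtho_def.mpr hb)).mpr hb0
  have hchar : ringChar F ≠ 2 := by
    intro h
    apply h2
    have h3 := CharP.cast_eq_zero F (ringChar F)
    rw [h] at h3
    exact_mod_cast h3
  obtain ⟨α, hα⟩ := FiniteField.exists_nonsquare hchar
  have hα0 : α ≠ 0 := by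
    rintro rfl
    exact hα IsSquare.zero
  obtain ⟨c, hc1, hc2, hc3⟩ := Cfsg.Agent.S0756.result h2 B hS hBnd hfr α hα
  obtain ⟨δ, hδ⟩ : ∃ δ, δ = B (c (Fin.last n)) (c (Fin.last n)) := ⟨_, rfl⟩
  rw [← hδ] at hc3
  have hval : ∀ i, B (c i) (c i) = if i = Fin.last n then δ else 1 := by
    intro i
    by_cases hi : i = Fin.last n
    · rw [if_pos hi, hi, hδ]
    · rw [if_neg hi, hc2 i hi]
  have hprodc : ∏ i, B (c i) (c i) = δ := by
    rw [Fin.prod_univ_castSucc, Finset.prod_eq_one (fun i _ => hc2 _ (Fin.castSucc_lt_last i).ne),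
      one_mul, hδ]
  let e₀ : ι ≃ Fin (n + 1) := Fintype.equivFinOfCardEq (by rw [hm, hn])
  obtain ⟨s, hs⟩ := Cfsg.Agent.S0838.disc B (b.reindex e₀) c (by
      intro i j hij
      rw [Module.Basis.reindex_apply, Module.Basis.reindex_apply]
      exact hb _ _ (fun h => hij (e₀.symm.injective h))) hc1
  have hprodb : ∏ i, B ((b.reindex e₀) i) ((b.reindex e₀) i) = ∏ i, B (b i) (b i) := by
    simp only [Module.Basis.reindex_apply]
    exact Equiv.prod_comp e₀.symm (fun i => B (b i) (b i))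
  rw [hprodc, hprodb] at hs
  have hδsq : IsSquare ((-1 : F) ^ m * δ) := by
    obtain ⟨w, hw⟩ := hsq
    refine ⟨s * w, ?_⟩
    rw [hs]
    linear_combination s ^ 2 * hw
  obtain ⟨a', b', hab'⟩ := Cfsg.Agent.S0756.solve h2 (-1 : F) (-1 : F)
    (neg_ne_zero.mpr one_ne_zero) (neg_ne_zero.mpr one_ne_zero)
  have hab : a' ^ 2 + b' ^ 2 = -1 := by linear_combination -hab'
  rcases hc3 with hδ1 | hδα
  · have hall1 : ∀ i, B (c i) (c i) = 1 := by
      intro i
      rw [hval]
      split_ifs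
      · exact hδ1
      · rfl
    by_cases hneg : IsSquare (-1 : F)
    · obtain ⟨r, hr⟩ := hneg
      have hcard : Fintype.card (((Fin 0 ⊕ Fin 0) ⊕ (Fin 0 ⊕ Fin 0)) ⊕ (Fin m ⊕ Fin m)) = n + 1 := by
        simp only [Fintype.card_sum, Fintype.card_fin]
        omega
      obtain ⟨X, hX1, hX2⟩ := apply_rot B n c hc1 0 m a' b' hab
        (Fintype.equivFinOfCardEq hcard) (fun _ => r) (fun s => hall1 _) (fun i => hall1 _)
        (fun i => by rw [hall1, mul_one, ← hr])
      exact ⟨X, by rw [hX1]; omega, hX2⟩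
    · have hev : Even m := by
        rcases Nat.even_or_odd m with he | ho
        · exact he
        · exfalso
          rw [ho.neg_one_pow, hδ1, mul_one] at hδsq
          exact hneg hδsq
      obtain ⟨t, ht⟩ := hev
      have hcard : Fintype.card (((Fin t ⊕ Fin t) ⊕ (Fin t ⊕ Fin t)) ⊕ (Fin 0 ⊕ Fin 0)) = n + 1 := by
        simp only [Fintype.card_sum, Fintype.card_fin]
        omega
      obtain ⟨X, hX1, hX2⟩ := apply_rot B n c hc1 t 0 a' b' hab
        (Fintype.equivFinOfCardEq hcard) (fun _ => 1) (fun s => hall1 _) (fun i => hall1 _)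
        (fun i => i.elim0)
      exact ⟨X, by rw [hX1]; omega, hX2⟩
  · by_cases hneg : IsSquare (-1 : F)
    · exfalso
      obtain ⟨r, hr⟩ := hneg
      obtain ⟨w, hw⟩ := hδsq
      have hr0 : r ≠ 0 := by
        rintro rfl
        rw [mul_zero] at hr
        exact (neg_ne_zero.mpr one_ne_zero) hr
      have h5 : (r ^ m * r ^ m) * α = w * w := by
        rw [← mul_pow, ← hr, ← hδα, hw]
      apply hα
      refine ⟨w / r ^ m, ?_⟩
      field_simp
      linear_combination h5
    · have hodd : Odd m := by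
        rcases Nat.even_or_odd m with he | ho
        · exfalso
          rw [he.neg_one_pow, one_mul, hδα] at hδsq
          exact hα hδsq
        · exact ho
      rw [hodd.neg_one_pow] at hδsq
      obtain ⟨t, ht⟩ := hodd
      obtain ⟨w, hw⟩ := hδsq
      have hw0 : w ≠ 0 := by
        rintro rfl
        rw [mul_zero, hδα] at hw
        have : α = 0 := by linear_combination -hw
        exact hα0 this
      have hcard : Fintype.card (((Fin t ⊕ Fin t) ⊕ (Fin t ⊕ Fin t)) ⊕ (Fin 1 ⊕ Fin 1)) = n + 1 := by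
        simp only [Fintype.card_sum, Fintype.card_fin]
        omega
      let e₁ := Fintype.equivFinOfCardEq hcard
      let eJ := e₁.trans (Equiv.swap (e₁ (Sum.inr (Sum.inr 0))) (Fin.last n))
      have heJ : eJ (Sum.inr (Sum.inr 0)) = Fin.last n := by
        simp only [eJ, Equiv.trans_apply, Equiv.swap_apply_left]
      have hne : ∀ j, j ≠ Sum.inr (Sum.inr 0) → B (c (eJ j)) (c (eJ j)) = 1 := by
        intro j hj
        rw [hval, if_neg]
        intro h
        rw [← heJ] at h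
        exact hj (eJ.injective h)
      obtain ⟨X, hX1, hX2⟩ := apply_rot B n c hc1 t 1 a' b' hab eJ (fun _ => w⁻¹)
        (fun s => hne _ (by simp)) (fun i => hne _ (by simp))
        (fun i => by
          have hi : i = 0 := Subsingleton.elim _ _
          rw [hi, heJ, hval, if_pos rfl]
          field_simp
          linear_combination -hw)
      exact ⟨X, by rw [hX1]; omega, hX2⟩

theorem sq_of_type {F V : Type*} [Field F] [AddCommGroup V] [Module F V] [FiniteDimensional F V]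
    (B : LinearMap.BilinForm F V) (hS : B.IsSymm)
    {ι : Type*} [Fintype ι] (b : Module.Basis ι F V)
    (hb : ∀ i j, i ≠ j → B (b i) (b j) = 0)
    (m : ℕ) (hm : Fintype.card ι = 2 * m)
    (X : Submodule F V) (hX : Module.finrank F X = m) (hXi : ∀ u ∈ X, ∀ v ∈ X, B u v = 0) :
    IsSquare ((-1 : F) ^ m * ∏ i, B (b i) (b i)) := by
  classical
  obtain ⟨X', hX'⟩ := Submodule.exists_isCompl X
  have hfrV : Module.finrank F V = 2 * m := by rw [Module.finrank_eq_card_basis b, hm]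
  have hfr : Module.finrank F X' = m := by
    have := Submodule.finrank_add_eq_of_isCompl hX'
    omega
  let bX : Module.Basis (Fin m) F X := Module.finBasisOfFinrankEq F X hX
  let bX' : Module.Basis (Fin m) F X' := Module.finBasisOfFinrankEq F X' hfr
  let b' : Module.Basis (Fin m ⊕ Fin m) F V :=
    (bX.prod bX').map (Submodule.prodEquivOfIsCompl X X' hX')
  have hb'l : ∀ i, b' (Sum.inl i) = (bX i : V) := by
    intro i
    simp [b']
  let e : ι ≃ Fin m ⊕ Fin m := Fintype.equivOfCardEq (by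
    rw [hm, Fintype.card_sum, Fintype.card_fin, two_mul])
  obtain ⟨b₁, hb₁def⟩ : ∃ b₁ : Module.Basis (Fin m ⊕ Fin m) F V, b₁ = b.reindex e := ⟨_, rfl⟩
  have hb₁a : ∀ i, b₁ i = b (e.symm i) := by
    intro i
    rw [hb₁def, Module.Basis.reindex_apply]
  have hb₁ : ∀ i j, i ≠ j → B (b₁ i) (b₁ j) = 0 := by
    intro i j hij
    rw [hb₁a, hb₁a]
    exact hb _ _ (fun h => hij (e.symm.injective h))
  have hmat := LinearMap.BilinForm.toMatrix_mul_basis_toMatrix b₁ b' B
  have d : LinearMap.BilinForm.toMatrix b₁ B = Matrix.diagonal (fun i => B (b₁ i) (b₁ i)) := by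
    ext i j
    rw [LinearMap.BilinForm.toMatrix_apply]
    by_cases hij : i = j
    · subst hij
      simp
    · rw [Matrix.diagonal_apply_ne _ hij, hb₁ i j hij]
  obtain ⟨G', hG'⟩ : ∃ G', G' = LinearMap.BilinForm.toMatrix b' B := ⟨_, rfl⟩
  have hG'a : ∀ i j, G' i j = B (b' i) (b' j) := by
    intro i j
    rw [hG', LinearMap.BilinForm.toMatrix_apply]
  rw [← hG'] at hmat
  obtain ⟨A, C, hGb⟩ : ∃ A C : Matrix (Fin m) (Fin m) F,
      G' = Matrix.fromBlocks 0 A A.transpose C := by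
    refine ⟨G'.toBlocks₁₂, G'.toBlocks₂₂, ?_⟩
    have h11 : G'.toBlocks₁₁ = 0 := by
      ext i j
      simp only [Matrix.toBlocks₁₁, Matrix.of_apply, Matrix.zero_apply]
      rw [hG'a, hb'l, hb'l]
      exact hXi _ (bX i).2 _ (bX j).2
    have h21 : G'.toBlocks₂₁ = G'.toBlocks₁₂.transpose := by
      ext i j
      simp only [Matrix.toBlocks₂₁, Matrix.toBlocks₁₂, Matrix.of_apply, Matrix.transpose_apply]
      rw [hG'a, hG'a]
      exact hS.eq _ _
    rw [← h11, ← h21, Matrix.fromBlocks_toBlocks]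
  have hJ := Cfsg.Agent.S0759.det_swap (F := F) m
  have hprod : G' * Matrix.fromBlocks (0 : Matrix (Fin m) (Fin m) F)
        (1 : Matrix (Fin m) (Fin m) F) (1 : Matrix (Fin m) (Fin m) F)
        (0 : Matrix (Fin m) (Fin m) F)
      = Matrix.fromBlocks A 0 C A.transpose := by
    rw [hGb, Matrix.fromBlocks_multiply]
    simp
  have h3 := congrArg Matrix.det hprod
  rw [Matrix.det_mul, hJ, Matrix.det_fromBlocks_zero₁₂, Matrix.det_transpose] at h3
  have h4 := congrArg Matrix.det hmat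
  rw [Matrix.det_mul, Matrix.det_mul, Matrix.det_transpose, d, Matrix.det_diagonal] at h4
  have hP : (b₁.toMatrix b').det ≠ 0 := by
    have h5 := congrArg Matrix.det (b₁.toMatrix_mul_toMatrix_flip b')
    rw [Matrix.det_mul, Matrix.det_one] at h5
    intro h0
    rw [h0, zero_mul] at h5
    exact zero_ne_one h5
  have hprodb : ∏ i, B (b₁ i) (b₁ i) = ∏ i, B (b i) (b i) := by
    simp only [hb₁a]
    exact Equiv.prod_comp e.symm (fun i => B (b i) (b i))
  rw [hprodb] at h4
  refine ⟨A.det / (b₁.toMatrix b').det, ?_⟩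
  field_simp
  linear_combination h3 + (-1) ^ m * h4

theorem tensor_basis {F U W : Type*} [Field F] [AddCommGroup U] [Module F U]
    [AddCommGroup W] [Module F W] (B₁ : LinearMap.BilinForm F U) (B₂ : LinearMap.BilinForm F W)
    {ι₁ ι₂ : Type*} [Fintype ι₁] [Fintype ι₂] (bU : Module.Basis ι₁ F U) (bW : Module.Basis ι₂ F W)
    (h1 : ∀ i j, i ≠ j → B₁ (bU i) (bU j) = 0) (h2 : ∀ i j, i ≠ j → B₂ (bW i) (bW j) = 0) :
    (∀ p p', p ≠ p' →
      (B₁.tmul B₂) ((bU.tensorProduct bW) p) ((bU.tensorProduct bW) p') = 0) ∧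
    (∀ p, (B₁.tmul B₂) ((bU.tensorProduct bW) p) ((bU.tensorProduct bW) p)
      = B₁ (bU p.1) (bU p.1) * B₂ (bW p.2) (bW p.2)) ∧
    ∏ p, (B₁.tmul B₂) ((bU.tensorProduct bW) p) ((bU.tensorProduct bW) p)
      = (∏ i, B₁ (bU i) (bU i)) ^ Fintype.card ι₂ * (∏ j, B₂ (bW j) (bW j)) ^ Fintype.card ι₁ := by
  classical
  have hval : ∀ p p', (B₁.tmul B₂) ((bU.tensorProduct bW) p) ((bU.tensorProduct bW) p')
      = B₁ (bU p.1) (bU p'.1) * B₂ (bW p.2) (bW p'.2) := by
    rintro ⟨i, j⟩ ⟨i', j'⟩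
    rw [Module.Basis.tensorProduct_apply, Module.Basis.tensorProduct_apply,
      LinearMap.BilinForm.tensorDistrib_tmul, smul_eq_mul, mul_comm]
  refine ⟨?_, fun p => hval p p, ?_⟩
  · rintro ⟨i, j⟩ ⟨i', j'⟩ hne
    rw [hval]
    by_cases hi : i = i'
    · have hj : j ≠ j' := by
        intro hj
        exact hne (by rw [hi, hj])
      rw [h2 j j' hj, mul_zero]
    · rw [h1 i i' hi, zero_mul]
  · simp only [hval]
    rw [Fintype.prod_prod_type]
    simp only [Finset.prod_mul_distrib, Finset.prod_const, Finset.card_univ, Finset.prod_pow]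

/-- Over a finite field with 2 ≠ 0: if B₁ on U (dim 2k, k ≥ 1) and B₂ on W (dim 2l, l ≥ 1) are non-degenerate symmetric forms admitting no totally isotropic subspaces of dimensions k, resp. l (minus type), then B₁ ⊗ B₂ admits a totally isotropic subspace of dimension 2kl (plus type). -/
theorem result {F U W : Type*} [Field F] [Fintype F] [AddCommGroup U] [Module F U] [FiniteDimensional F U] [AddCommGroup W] [Module F W] [FiniteDimensional F W] (h2 : (2 : F) ≠ 0) (B₁ : LinearMap.BilinForm F U) (B₂ : LinearMap.BilinForm F W) (h₁ : B₁.Nondegenerate) (h₂ : B₂.Nondegenerate) (hS₁ : B₁.IsSymm) (hS₂ : B₂.IsSymm) (k l : ℕ) (hk : 1 ≤ k) (hl : 1 ≤ l) (hU : Module.finrank F U = 2 * k) (hW : Module.finrank F W = 2 * l) (hm₁ : ¬ (∃ X : Submodule F (U), Module.finrank F X = k ∧ ∀ x ∈ X, ∀ y ∈ X, (B₁) x y = 0)) (hm₂ : ¬ (∃ X : Submodule F (W), Module.finrank F X = l ∧ ∀ x ∈ X, ∀ y ∈ X, (B₂) x y = 0)) : (∃ X : Submodule F (TensorProduct F U W), Module.finrank F X = 2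 * k * l ∧ ∀ x ∈ X, ∀ y ∈ X, (B₁.tmul B₂) x y = 0) := by
  classical
  haveI : Invertible (2 : F) := invertibleOfNonzero h2
  have hS₁' := LinearMap.BilinForm.isSymm_iff.mp hS₁
  have hS₂' := LinearMap.BilinForm.isSymm_iff.mp hS₂
  obtain ⟨bU, hbU⟩ := LinearMap.BilinForm.exists_orthogonal_basis hS₁'
  obtain ⟨bW, hbW⟩ := LinearMap.BilinForm.exists_orthogonal_basis hS₂'
  have hbU' : ∀ i j, i ≠ j → B₁ (bU i) (bU j) = 0 := LinearMap.BilinForm.iIsOrtho_def.mp hbU
  have hbW' : ∀ i j, i ≠ j → B₂ (bW i) (bW j) = 0 := LinearMap.BilinForm.iIsOrtho_def.mp hbW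
  have hU0 : ∀ i, B₁ (bU i) (bU i) ≠ 0 :=
    fun i => LinearMap.BilinForm.iIsOrtho.not_isOrtho_basis_self_of_nondegenerate hbU h₁ i
  have hW0 : ∀ i, B₂ (bW i) (bW i) ≠ 0 :=
    fun i => LinearMap.BilinForm.iIsOrtho.not_isOrtho_basis_self_of_nondegenerate hbW h₂ i
  obtain ⟨ho, hv, hp⟩ := tensor_basis B₁ B₂ bU bW hbU' hbW'
  have hcard : Fintype.card (Fin (Module.finrank F U) × Fin (Module.finrank F W))
      = 2 * (2 * k * l) := by
    rw [Fintype.card_prod, Fintype.card_fin, Fintype.card_fin, hU, hW]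
    ring
  apply type_of_sq h2 (B₁.tmul B₂) (LinearMap.BilinForm.isSymm_iff.mpr (hS₁'.tmul hS₂'))
    (bU.tensorProduct bW) ho
    (fun p => by rw [hv]; exact mul_ne_zero (hU0 _) (hW0 _)) (2 * k * l) hcard
  rw [hp]
  simp only [Fintype.card_fin, hU, hW]
  refine ⟨(∏ i, B₁ (bU i) (bU i)) ^ l * (∏ j, B₂ (bW j) (bW j)) ^ k, ?_⟩
  have h1 : (-1 : F) ^ (2 * k * l) = 1 := by
    rw [mul_assoc, pow_mul]
    simp
  rw [h1]
  ring

end Cfsg.Agent.S0834
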