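import Mathlib
import Cfsg.Statements.S0835
import Cfsg.Agent.S0834

set_option autoImplicit false
open Cfsg

namespace Cfsg.Agent.S0835

open Cfsg.Agent.S0834 (type_of_sq sq_of_type tensor_basis)

/-- Over a finite field with 2 ≠ 0: if B₁ on U (dim 2k, k ≥ 1) is non-degenerate symmetric of minus type (no totally isotropic k-subspace) and B₂ on W (dim 2l + 1) is non-degenerate symmetric, then B₁ ⊗ B₂ (dimension 2k(2l+1)) admits no totally isotropic subspace of dimension k(2l+1) (minus type). -/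
theorem result {F U W : Type*} [Field F] [Fintype F] [AddCommGroup U] [Module F U] [FiniteDimensional F U] [AddCommGroup W] [Module F W] [FiniteDimensional F W] (h2 : (2 : F) ≠ 0) (B₁ : LinearMap.BilinForm F U) (B₂ : LinearMap.BilinForm F W) (h₁ : B₁.Nondegenerate) (h₂ : B₂.Nondegenerate) (hS₁ : B₁.IsSymm) (hS₂ : B₂.IsSymm) (k l : ℕ) (hk : 1 ≤ k) (hU : Module.finrank F U = 2 * k) (hW : Module.finrank F W = 2 * l + 1) (hm₁ : ¬ (∃ X : Submodule F (U), Module.finrank F X = k ∧ ∀ x ∈ X, ∀ y ∈ X, (B₁) x y = 0)) : ¬ (∃ X : Submodule F (TensorProduct F U W), Module.finrank F X = k * (2 * l + 1) ∧ ∀ x ∈ X, ∀ y ∈ X, (B₁.tmul B₂) x y = 0) := by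
  classical
  rintro ⟨X, hX, hXi⟩
  apply hm₁
  haveI : Invertible (2 : F) := invertibleOfNonzero h2
  have hS₁' := LinearMap.BilinForm.isSymm_iff.mp hS₁
  have hS₂' := LinearMap.BilinForm.isSymm_iff.mp hS₂
  obtain ⟨bU, hbU⟩ := LinearMap.BilinForm.exists_orthogonal_basis hS₁'
  obtain ⟨bW, hbW⟩ := LinearMap.BilinForm.exists_orthogonal_basis hS₂'
  have hbU' : ∀ i j, i ≠ j → B₁ (bU i) (bU j) = 0 := LinearMap.BilinForm.iIsOrtho_def.mp hbU
  have hbW' : ∀ i j, i ≠ j → B₂ (bW i) (bW j) = 0 := LinearMap.BilinForm.iIsOrtho_def.mp hbW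
  have hU0 : ∀ i, B₁ (bU i) (bU i) ≠ 0 :=
    fun i => LinearMap.BilinForm.iIsOrtho.not_isOrtho_basis_self_of_nondegenerate hbU h₁ i
  have hW0 : ∀ i, B₂ (bW i) (bW i) ≠ 0 :=
    fun i => LinearMap.BilinForm.iIsOrtho.not_isOrtho_basis_self_of_nondegenerate hbW h₂ i
  obtain ⟨ho, hv, hp⟩ := tensor_basis B₁ B₂ bU bW hbU' hbW'
  have hcard : Fintype.card (Fin (Module.finrank F U) × Fin (Module.finrank F W))
      = 2 * (k * (2 * l + 1)) := by
    rw [Fintype.card_prod, Fintype.card_fin, Fintype.card_fin, hU, hW]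
    ring
  have hsq := sq_of_type (B₁.tmul B₂) (LinearMap.BilinForm.isSymm_iff.mpr (hS₁'.tmul hS₂'))
    (bU.tensorProduct bW) ho (k * (2 * l + 1)) hcard X hX hXi
  rw [hp] at hsq
  simp only [Fintype.card_fin, hU, hW] at hsq
  set D₁ := ∏ i, B₁ (bU i) (bU i) with hD₁
  set D₂ := ∏ j, B₂ (bW j) (bW j) with hD₂
  have hD₁0 : D₁ ≠ 0 := Finset.prod_ne_zero_iff.mpr (fun i _ => hU0 i)
  have hD₂0 : D₂ ≠ 0 := Finset.prod_ne_zero_iff.mpr (fun i _ => hW0 i)
  have hcardU : Fintype.card (Fin (Module.finrank F U)) = 2 * k := by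
    rw [Fintype.card_fin, hU]
  apply type_of_sq h2 B₁ hS₁ bU hbU' hU0 k hcardU
  obtain ⟨w, hw⟩ := hsq
  have e1 : (-1 : F) ^ (k * (2 * l + 1)) = (-1) ^ k := by
    rw [pow_mul]
    rcases Nat.even_or_odd k with he | ho
    · rw [he.neg_one_pow, one_pow]
    · rw [ho.neg_one_pow, Odd.neg_one_pow ⟨l, rfl⟩]
  rw [e1] at hw
  refine ⟨w / (D₁ ^ l * D₂ ^ k), ?_⟩
  field_simp
  linear_combination hw

end Cfsg.Agent.S0835
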