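import Mathlib
import Cfsg.Statements.S0836

set_option autoImplicit false
open Cfsg
open scoped commutatorElement

namespace Cfsg.Agent.S0836

theorem comm_of_mul_eq {G : Type*} [Group G] (a b t : G) (h : a * b = t * b * a) :
    t ∈ commutatorSet G := by
  refine ⟨a, b, ?_⟩
  rw [commutatorElement_def, h]
  group

theorem case_ge_three {F : Type*} [Field F] (n : ℕ) (hn : 3 ≤ n) (i j : Fin n) (hij : i ≠ j) (c : F)
    (t : Matrix.SpecialLinearGroup (Fin n) F)
    (ht : (t : Matrix (Fin n) (Fin n) F) = Matrix.transvection i j c) :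
    t ∈ commutatorSet (Matrix.SpecialLinearGroup (Fin n) F) := by
  obtain ⟨k, hk⟩ : ∃ k : Fin n, k ∉ ({i, j} : Finset (Fin n)) := by
    by_contra h
    push Not at h
    have h1 : (Finset.univ : Finset (Fin n)) ⊆ {i, j} := fun k _ => h k
    have h2 := Finset.card_le_card h1
    have h3 : ({i, j} : Finset (Fin n)).card ≤ 2 := Finset.card_le_two
    rw [Finset.card_univ, Fintype.card_fin] at h2
    omega
  simp only [Finset.mem_insert, Finset.mem_singleton, not_or] at hk
  obtain ⟨hki, hkj⟩ := hk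
  have hik : i ≠ k := fun h => hki h.symm
  apply comm_of_mul_eq
    ⟨Matrix.transvection i k c, Matrix.det_transvection_of_ne _ _ hik c⟩
    ⟨Matrix.transvection k j 1, Matrix.det_transvection_of_ne _ _ hkj 1⟩ t
  apply Subtype.ext
  change (Matrix.transvection i k c * Matrix.transvection k j 1 : Matrix (Fin n) (Fin n) F) =
    (t : Matrix (Fin n) (Fin n) F) * Matrix.transvection k j 1 * Matrix.transvection i k c
  rw [ht]
  have hjk : j ≠ k := fun h => hkj h.symm
  have hji : j ≠ i := hij.symm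
  simp only [Matrix.transvection, add_mul, mul_add, one_mul, mul_one,
    Matrix.single_mul_single_same, Matrix.single_mul_single_of_ne _ _ _ _ hjk,
    Matrix.single_mul_single_of_ne _ _ _ _ hji, add_zero, mul_one, zero_mul]
  abel

theorem case_two {F : Type*} [Field F] (x : F) (hx0 : x ≠ 0) (hx1 : x ^ 2 ≠ 1)
    (i j : Fin 2) (hij : i ≠ j) (c : F)
    (t : Matrix.SpecialLinearGroup (Fin 2) F)
    (ht : (t : Matrix (Fin 2) (Fin 2) F) = Matrix.transvection i j c) :
    t ∈ commutatorSet (Matrix.SpecialLinearGroup (Fin 2) F) := by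
  have hx2 : x ^ 2 - 1 ≠ 0 := sub_ne_zero.mpr hx1
  have hdet : (Matrix.diagonal (fun a : Fin 2 => if a = i then x else x⁻¹)).det = 1 := by
    rw [Matrix.det_diagonal, Fin.prod_univ_two]
    fin_cases i <;> fin_cases j <;> simp_all
  apply comm_of_mul_eq
    ⟨Matrix.diagonal (fun a : Fin 2 => if a = i then x else x⁻¹), hdet⟩
    ⟨Matrix.transvection i j (c / (x ^ 2 - 1)), Matrix.det_transvection_of_ne _ _ hij _⟩ t
  apply Subtype.ext
  change (Matrix.diagonal (fun a : Fin 2 => if a = i then x else x⁻¹) *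
      Matrix.transvection i j (c / (x ^ 2 - 1)) : Matrix (Fin 2) (Fin 2) F) =
    (t : Matrix (Fin 2) (Fin 2) F) * Matrix.transvection i j (c / (x ^ 2 - 1)) *
      Matrix.diagonal (fun a : Fin 2 => if a = i then x else x⁻¹)
  rw [ht]
  ext a b
  fin_cases i <;> fin_cases j <;> fin_cases a <;> fin_cases b <;>
    simp [Matrix.transvection, Matrix.mul_apply, Matrix.single_apply, Matrix.diagonal_apply,
      Matrix.one_apply] at hij ⊢ <;> field_simp <;> ring

/-- For i ≠ j and any scalar c, the elementary transvection 1 + c E_ij is a commutator ⁅g, h⁆ of two elements of SL_n(F) provided n ≥ 3, or n = 2 and F contains x ≠ 0 with x² ≠ 1. -/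
theorem result {F : Type*} [Field F] (n : ℕ) (hn : 3 ≤ n ∨ (n = 2 ∧ ∃ x : F, x ≠ 0 ∧ x ^ 2 ≠ 1)) (i j : Fin n) (hij : i ≠ j) (c : F) (t : Matrix.SpecialLinearGroup (Fin n) F) (ht : (t : Matrix (Fin n) (Fin n) F) = Matrix.transvection i j c) : t ∈ commutatorSet (Matrix.SpecialLinearGroup (Fin n) F) := by
  rcases hn with hn | ⟨rfl, x, hx0, hx1⟩
  · exact case_ge_three n hn i j hij c t ht
  · exact case_two x hx0 hx1 i j hij c t ht

end Cfsg.Agent.S0836
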