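import Mathlib
import Cfsg.Statements.S0839
import Cfsg.Agent.Lib.Helper7.QuadMat

set_option autoImplicit false
open Cfsg

namespace Cfsg.Agent.S0839

open Matrix

theorem rank_one_eq_vecMulVec {F : Type*} [Field F] {m : ℕ} (N : Matrix (Fin m) (Fin m) F)
    (h : N.rank = 1) : ∃ u w : Fin m → F, N = Matrix.vecMulVec u w := by
  have hN : N ≠ 0 := by
    rintro rfl
    simp at h
  obtain ⟨i, j, hij⟩ : ∃ i j, N i j ≠ 0 := by
    by_contra hcon
    push Not at hcon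
    apply hN
    ext i j
    exact hcon i j
  set u : Fin m → F := N *ᵥ Pi.single j 1 with hu
  have hu0 : u ≠ 0 := by
    intro h0
    apply hij
    have := congrFun h0 i
    simpa [hu, Matrix.mulVec_single_one] using this
  have hmem : ∀ k, N *ᵥ Pi.single k 1 ∈ LinearMap.range N.mulVecLin :=
    fun k => ⟨Pi.single k 1, rfl⟩
  have hfin : Module.finrank F (LinearMap.range N.mulVecLin) = 1 := h
  have hu' : (⟨u, hmem j⟩ : LinearMap.range N.mulVecLin) ≠ 0 := by
    intro h0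
    apply hu0
    exact congrArg Subtype.val h0
  have key := (finrank_eq_one_iff_of_nonzero' _ hu').mp hfin
  choose c hc using fun k => key ⟨N *ᵥ Pi.single k 1, hmem k⟩
  refine ⟨u, c, ?_⟩
  ext a b
  have h1 := congrArg Subtype.val (hc b)
  have h2 := congrFun h1 a
  simp only [SetLike.val_smul, Pi.smul_apply, smul_eq_mul, Matrix.mulVec_single_one,
    Matrix.col_apply] at h2
  rw [Matrix.vecMulVec_apply, ← h2, mul_comm]

theorem exists_sl_of_ne_zero {F : Type*} [Field F] (n : ℕ) (w : Fin (n + 2) → F)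
    (hw0 : w 0 ≠ 0) :
    ∃ (g : Matrix.SpecialLinearGroup (Fin (n + 2)) F),
      w ᵥ* (g : Matrix (Fin (n + 2)) (Fin (n + 2)) F) = w 0 • Pi.single 0 1 := by
  set z : Fin (n + 2) → F := fun j => if j = 0 then 0 else - w j / w 0 with hz
  have hdet : (1 + Matrix.vecMulVec (Pi.single 0 1) z).det = 1 := by
    rw [Cfsg.Agent.Lib.Helper7.det_one_add_vecMulVec]
    simp [hz]
  refine ⟨⟨_, hdet⟩, ?_⟩
  simp only [Matrix.vecMul_add, Matrix.vecMul_one, Matrix.vecMul_vecMulVec]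
  ext j
  by_cases hj : j = 0
  · subst hj; simp [hz]
  · simp [hz, hj]; field_simp; ring

theorem exists_sl {F : Type*} [Field F] (n : ℕ) (w : Fin (n + 2) → F)
    (hw : w ≠ 0) :
    ∃ (g : Matrix.SpecialLinearGroup (Fin (n + 2)) F) (c : F),
      w ᵥ* (g : Matrix (Fin (n + 2)) (Fin (n + 2)) F) = c • Pi.single 0 1 := by
  by_cases hw0 : w 0 = 0
  · obtain ⟨k, hk⟩ : ∃ k, w k ≠ 0 := by
      by_contra hcon
      push Not at hcon
      exact hw (funext hcon)
    have hk0 : k ≠ 0 := by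
      rintro rfl
      exact hk hw0
    have hdet : (1 + Matrix.vecMulVec (Pi.single k (1 : F)) (Pi.single (0 : Fin (n + 2)) (1 : F))).det = 1 := by
      rw [Cfsg.Agent.Lib.Helper7.det_one_add_vecMulVec]
      simp [hk0]
    set g₁ : Matrix.SpecialLinearGroup (Fin (n + 2)) F := ⟨_, hdet⟩ with hg₁
    have hw' : (w ᵥ* (g₁ : Matrix (Fin (n + 2)) (Fin (n + 2)) F)) 0 ≠ 0 := by
      simp [hg₁, Matrix.vecMul_add, Matrix.vecMul_vecMulVec, hw0, hk]
    obtain ⟨g₂, hg₂⟩ := exists_sl_of_ne_zero n _ hw'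
    refine ⟨g₁ * g₂, (w ᵥ* (g₁ : Matrix (Fin (n + 2)) (Fin (n + 2)) F)) 0, ?_⟩
    rw [Matrix.SpecialLinearGroup.coe_mul, ← Matrix.vecMul_vecMul, hg₂]
  · obtain ⟨g, hg⟩ := exists_sl_of_ne_zero n w hw0
    exact ⟨g, _, hg⟩

/-- Every transvection t ∈ SL_(n+2)(F) (rank(t − 1) = 1, (t − 1)² = 0) is conjugate in SL_(n+2)(F) to 1 + v·e_0ᵀ for some column vector v with v_0 = 0 (the group A of matrices that are the identity except in the first column below the diagonal); the dimension is written n + 2 ≥ 2. -/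
theorem result {F : Type*} [Field F] (n : ℕ) (t : Matrix.SpecialLinearGroup (Fin (n + 2)) F) (ht : Cfsg.IsTransvection (t : Matrix (Fin (n + 2)) (Fin (n + 2)) F)) : ∃ (g : Matrix.SpecialLinearGroup (Fin (n + 2)) F) (v : Fin (n + 2) → F), v 0 = 0 ∧ ((g⁻¹ * t * g : Matrix.SpecialLinearGroup (Fin (n + 2)) F) : Matrix (Fin (n + 2)) (Fin (n + 2)) F) = 1 + Matrix.vecMulVec v (Pi.single 0 1) := by
  obtain ⟨hrank, hsq⟩ := ht
  obtain ⟨u, w, huw⟩ := rank_one_eq_vecMulVec _ hrank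
  have hN : Matrix.vecMulVec u w ≠ 0 := by
    intro h0
    rw [huw, h0] at hrank
    simp at hrank
  have hw : w ≠ 0 := by
    rintro rfl
    apply hN
    ext i j
    simp [Matrix.vecMulVec_apply]
  have hwu : w ⬝ᵥ u = 0 := by
    rw [huw, Matrix.vecMulVec_mul_vecMulVec, Matrix.vecMulVec_smul] at hsq
    rcases smul_eq_zero.mp hsq with h | h
    · exact h
    · exact absurd h hN
  have hT : (t : Matrix (Fin (n + 2)) (Fin (n + 2)) F) = 1 + Matrix.vecMulVec u w := by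
    rw [← huw]; abel
  obtain ⟨g, c, hg⟩ := exists_sl n w hw
  have hinv : ((g⁻¹ : Matrix.SpecialLinearGroup (Fin (n + 2)) F) : Matrix (Fin (n + 2)) (Fin (n + 2)) F) * (g : Matrix (Fin (n + 2)) (Fin (n + 2)) F) = 1 := by
    rw [← Matrix.SpecialLinearGroup.coe_mul, inv_mul_cancel, Matrix.SpecialLinearGroup.coe_one]
  have hinv' : (g : Matrix (Fin (n + 2)) (Fin (n + 2)) F) * ((g⁻¹ : Matrix.SpecialLinearGroup (Fin (n + 2)) F) : Matrix (Fin (n + 2)) (Fin (n + 2)) F) = 1 := by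
    rw [← Matrix.SpecialLinearGroup.coe_mul, mul_inv_cancel, Matrix.SpecialLinearGroup.coe_one]
  refine ⟨g, c • (((g⁻¹ : Matrix.SpecialLinearGroup (Fin (n + 2)) F) : Matrix (Fin (n + 2)) (Fin (n + 2)) F) *ᵥ u), ?_, ?_⟩
  · have h1 : (c • (((g⁻¹ : Matrix.SpecialLinearGroup (Fin (n + 2)) F) : Matrix (Fin (n + 2)) (Fin (n + 2)) F) *ᵥ u)) 0
        = (c • (Pi.single 0 1 : Fin (n + 2) → F)) ⬝ᵥ (((g⁻¹ : Matrix.SpecialLinearGroup (Fin (n + 2)) F) : Matrix (Fin (n + 2)) (Fin (n + 2)) F) *ᵥ u) := by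
      simp
    rw [h1, ← hg, ← Matrix.dotProduct_mulVec, Matrix.mulVec_mulVec, hinv', Matrix.one_mulVec, hwu]
  · rw [Matrix.SpecialLinearGroup.coe_mul, Matrix.SpecialLinearGroup.coe_mul, hT, Matrix.mul_add,
      Matrix.add_mul, Matrix.mul_one, hinv, Matrix.mul_vecMulVec, Matrix.vecMulVec_mul, hg]
    simp
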