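import Mathlib
import Cfsg.Statements.S0840
import Cfsg.Agent.Lib.Helper2.CharOrtho
import Cfsg.Agent.Lib.Helper2.CharLinear

set_option autoImplicit false
open scoped ComplexConjugate
open Cfsg

namespace Cfsg.Agent.S0840

open Cfsg.Agent.Lib.Helper2

section aux

variable {G : Type*} [Group G] [Fintype G]

open Classical in
noncomputable def ind (a : G) (g : G) : ℂ := if IsConj a g then 1 else 0

theorem ind_class (a : G) : Cfsg.IsClassFunction G (ind a) := by
  classical
  intro g h
  unfold ind
  have : IsConj a (h * g * h⁻¹) ↔ IsConj a g := by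
    constructor
    · intro h1
      exact h1.trans (isConj_iff.mpr ⟨h⁻¹, by group⟩)
    · intro h1
      exact h1.trans (isConj_iff.mpr ⟨h, rfl⟩)
  exact if_congr this rfl rfl

theorem ind_conj (a : G) (g : G) : conj (ind a g) = ind a g := by
  unfold ind
  split_ifs <;> simp

theorem key {n : ℕ} (ρ : Representation ℂ G (Fin n → ℂ)) [ρ.IsIrreducible] (a b : G) :
    ∑ x : G, ∑ y : G, ind a x * ind b y * ρ.character (x * y)
      = (∑ g : G, ind a g * ρ.character g) * (∑ g : G, ind b g * ρ.character g) / (n : ℂ) := by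
  have h1 := classOp_eq ρ (ind a) (ind_class a)
  have h2 := classOp_eq ρ (ind b) (ind_class b)
  have h3 : classOp ρ (ind a) * classOp ρ (ind b)
      = ∑ x : G, ∑ y : G, (ind a x * ind b y) • ρ (x * y) := by
    unfold classOp
    rw [Finset.sum_mul]
    apply Finset.sum_congr rfl
    intro x _
    rw [Finset.mul_sum]
    apply Finset.sum_congr rfl
    intro y _
    rw [smul_mul_smul_comm, map_mul]
  have h4 := congrArg (LinearMap.trace ℂ (Fin n → ℂ)) h3
  rw [h1, h2, smul_mul_smul_comm] at h4
  have hid : (LinearMap.id : (Fin n → ℂ) →ₗ[ℂ] (Fin n → ℂ)) * LinearMap.id = LinearMap.id := rfl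
  rw [hid] at h4
  simp only [map_sum, map_smul, smul_eq_mul, LinearMap.trace_id, Module.finrank_fin_fun] at h4
  have hn : (n : ℂ) ≠ 0 := by
    have := irr_finrank_pos ρ
    rw [Module.finrank_fin_fun] at this
    exact_mod_cast this.ne'
  have h5 : ∀ x y : G, ind a x * ind b y * ρ.character (x * y)
      = ind a x * ind b y * LinearMap.trace ℂ (Fin n → ℂ) (ρ (x * y)) := fun x y => rfl
  simp only [h5]
  rw [← h4]
  field_simp

theorem sum_ind (a : G) (χ : G → ℂ) (hχ : Cfsg.IsClassFunction G χ) :
    ∑ g : G, ind a g * χ g = (Nat.card {x : G // IsConj a x} : ℂ) * χ a := by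
  classical
  unfold ind
  simp only [ite_mul, one_mul, zero_mul]
  rw [← Finset.sum_filter]
  have h1 : ∀ g ∈ Finset.univ.filter (fun g => IsConj a g), χ g = χ a := by
    intro g hg
    rw [Finset.mem_filter] at hg
    exact (IsClassFunction.of_isConj hχ hg.2).symm
  rw [Finset.sum_congr rfl h1, Finset.sum_const, nsmul_eq_mul]
  congr 2
  rw [Nat.card_eq_fintype_card, Fintype.card_subtype]

open Classical in
noncomputable def cnt (a b : G) (g : G) : ℂ :=
  ∑ x : G, ∑ y : G, ind a x * ind b y * (if x * y = g then 1 else 0)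

theorem cnt_class (a b : G) : Cfsg.IsClassFunction G (cnt a b) := by
  classical
  intro g h
  unfold cnt
  apply Fintype.sum_equiv (MulAut.conj h⁻¹).toEquiv
  intro x
  apply Fintype.sum_equiv (MulAut.conj h⁻¹).toEquiv
  intro y
  simp only [MulEquiv.toEquiv_eq_coe, MulEquiv.coe_toEquiv, MulAut.conj_apply, inv_inv]
  have e1 : ind a (h⁻¹ * x * h) = ind a x := by
    have := ind_class a x h⁻¹
    rwa [inv_inv] at this
  have e2 : ind b (h⁻¹ * y * h) = ind b y := by
    have := ind_class b y h⁻¹
    rwa [inv_inv] at this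
  rw [e1, e2]
  congr 1
  have h3 : (h⁻¹ * x * h * (h⁻¹ * y * h) = g) ↔ (x * y = h * g * h⁻¹) := by
    constructor
    · intro hh
      rw [← hh]
      group
    · intro hh
      have h4 : h⁻¹ * x * h * (h⁻¹ * y * h) = h⁻¹ * (x * y) * h := by group
      rw [h4, hh]
      group
  simp only [h3]

theorem cnt_eq (a b c : G) : cnt a b c
    = (Nat.card {p : G × G // IsConj a p.1 ∧ IsConj b p.2 ∧ p.1 * p.2 = c} : ℂ) := by
  classical
  unfold cnt ind
  rw [Nat.card_eq_fintype_card, Fintype.card_subtype, Finset.card_filter]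
  push_cast
  rw [Fintype.sum_prod_type]
  apply Finset.sum_congr rfl
  intro x _
  apply Finset.sum_congr rfl
  intro y _
  by_cases h1 : IsConj a x <;> by_cases h2 : IsConj b y <;> by_cases h3 : x * y = c <;>
    simp only [h1, h2, h3, and_true, and_false, if_true, if_false,
      mul_one, mul_zero, and_self]

theorem inner_cnt (a b : G) (χ : G → ℂ) :
    Cfsg.classInner (cnt a b) χ
      = (Nat.card G : ℂ)⁻¹ * ∑ x : G, ∑ y : G, ind a x * ind b y * conj (χ (x * y)) := by
  classical
  rw [classInner_def]
  congr 1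
  unfold cnt
  simp only [Finset.sum_mul]
  rw [Finset.sum_comm]
  apply Finset.sum_congr rfl
  intro x _
  rw [Finset.sum_comm]
  apply Finset.sum_congr rfl
  intro y _
  rw [Finset.sum_eq_single (x * y)]
  · simp
  · intro g _ hg
    simp [Ne.symm hg]
  · intro h
    exact absurd (Finset.mem_univ _) h

end aux

/-- Class multiplication coefficients from the character table: for elements a, b, c of a finite group G, the number of ordered pairs (x, y) with x conjugate to a, y conjugate to b and x * y = c equals the product of the sizes of the conjugacy classes of a and b, divided by the order of G, times the sum over the irreducible characters χ of χ a * χ b * conj (χ c) / χ 1. -/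
theorem result {G : Type*} [Group G] [Finite G] (a b c : G) : (Nat.card {p : G × G // IsConj a p.1 ∧ IsConj b p.2 ∧ p.1 * p.2 = c} : ℂ) = (Nat.card {x : G // IsConj a x} : ℂ) * (Nat.card {x : G // IsConj b x} : ℂ) / (Nat.card G : ℂ) * ∑ᶠ χ : Cfsg.IrrCharacter G, (χ : G → ℂ) a * (χ : G → ℂ) b * conj ((χ : G → ℂ) c) / (χ : G → ℂ) 1 := by
  classical
  have := Fintype.ofFinite G
  have := Fintype.ofFinite (Cfsg.IrrCharacter G)
  rw [finsum_eq_sum_of_fintype]
  have hN := cnt_eq a b c
  have hexp := congrFun (class_fun_expand (cnt a b) (cnt_class a b)) c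
  rw [Finset.sum_apply] at hexp
  simp only [Pi.smul_apply, smul_eq_mul] at hexp
  have hterm : ∀ χ : Cfsg.IrrCharacter G, Cfsg.classInner (cnt a b) χ
      = (Nat.card G : ℂ)⁻¹ * conj ((Nat.card {x : G // IsConj a x} : ℂ) * (χ : G → ℂ) a
          * ((Nat.card {x : G // IsConj b x} : ℂ) * (χ : G → ℂ) b) / (χ : G → ℂ) 1) := by
    intro χ
    obtain ⟨n, ρ, hρ, hχ⟩ := χ.2
    have := hρ
    rw [inner_cnt]
    congr 1
    have hk := key ρ a b
    have hcl : Cfsg.IsClassFunction G ρ.character := by
      rw [hχ]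
      exact isClassFunction_of_isIrrCharacter χ.2
    rw [sum_ind a _ hcl, sum_ind b _ hcl] at hk
    have h1 : (χ : G → ℂ) 1 = n := by
      rw [← hχ, Representation.char_one]
      simp
    rw [h1, ← hχ, ← hk, map_sum]
    apply Finset.sum_congr rfl
    intro x _
    rw [map_sum]
    apply Finset.sum_congr rfl
    intro y _
    rw [map_mul, map_mul, ind_conj, ind_conj]
  have hconj : conj (Nat.card {p : G × G // IsConj a p.1 ∧ IsConj b p.2 ∧ p.1 * p.2 = c} : ℂ)
      = Nat.card {p : G × G // IsConj a p.1 ∧ IsConj b p.2 ∧ p.1 * p.2 = c} :=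
    Complex.conj_natCast _
  rw [← hconj, ← hN, hexp, map_sum, Finset.mul_sum]
  apply Finset.sum_congr rfl
  intro χ _
  rw [hterm χ]
  obtain ⟨n, hn, h1⟩ := irr_apply_one χ.2
  simp only [map_mul, map_div₀, map_inv₀, Complex.conj_conj, Complex.conj_natCast, h1]
  ring

end Cfsg.Agent.S0840
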