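import Mathlib
import Cfsg.Statements.S0849

set_option autoImplicit false
open Cfsg

namespace Cfsg.Agent.S0849

theorem ext_mem {G : Type*} [Group G] (H : Subgroup G) (φ : H → ℂ) (g : G) (hg : g ∈ H) :
    Cfsg.extendByZero H φ g = φ ⟨g, hg⟩ := by
  unfold Cfsg.extendByZero
  exact Subtype.val_injective.extend_apply φ 0 ⟨g, hg⟩

theorem ext_not_mem {G : Type*} [Group G] (H : Subgroup G) (φ : H → ℂ) (g : G) (hg : g ∉ H) :
    Cfsg.extendByZero H φ g = 0 := by
  unfold Cfsg.extendByZero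
  rw [Function.extend_apply']
  · rfl
  · rintro ⟨a, rfl⟩
    exact hg a.2

theorem sq_of_conj {G : Type*} [Group G] (u a : G) (hu : orderOf u = 2) (h : IsConj u a) :
    a * a = 1 := by
  obtain ⟨c, rfl⟩ := isConj_iff.1 h
  have : u * u = 1 := by
    have := pow_orderOf_eq_one u
    rw [hu, pow_two] at this
    exact this
  calc c * u * c⁻¹ * (c * u * c⁻¹) = c * (u * u) * c⁻¹ := by group
    _ = 1 := by rw [this]; group

theorem result {G : Type*} [Group G] [Fintype G] (H : Subgroup G) (S : Set G) (hSH : S ⊆ H) (hHS : ∀ h ∈ H, ∀ s ∈ S, h * s * h⁻¹ ∈ S) (hTI : ∀ g : G, g ∉ H → ∀ s ∈ S, g * s * g⁻¹ ∉ S) (hinv : ∀ s ∈ S, s⁻¹ ∈ S) (φ : H → ℂ) (hφ : Cfsg.IsClassFunction H φ) (hφS : ∀ x : H, (x : G) ∉ S → φ x = 0) (u v : G) (hu : orderOf u = 2) (hv : orderOf v = 2) : ∑ᶠ p ∈ {p : G × G | IsConj u p.1 ∧ IsConj v p.2}, Cfsg.indFun H φ (p.1 * p.2) = (H.index : ℂ) * ∑ᶠ p ∈ {p : H × H | IsConj u (p.1 : G) ∧ IsConj v (p.2 : G)}, φ (p.1 * p.2) := by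
  classical
  haveI : Fintype H := Fintype.ofFinite H
  rw [finsum_mem_def, finsum_mem_def, finsum_eq_sum_of_fintype, finsum_eq_sum_of_fintype]
  set A : Set (G × G) := {p : G × G | IsConj u p.1 ∧ IsConj v p.2} with hA
  set AH : Set (H × H) := {p : H × H | IsConj u (p.1 : G) ∧ IsConj v (p.2 : G)} with hAH
  -- step 2 : the sum of the extension over A is the sum over AH
  have step2 : ∑ p : G × G, A.indicator (fun p => Cfsg.extendByZero H φ (p.1 * p.2)) p
      = ∑ q : H × H, AH.indicator (fun p => φ (p.1 * p.2)) q := by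
    symm
    apply Fintype.sum_of_injective (fun q : H × H => ((q.1 : G), (q.2 : G)))
    · intro q q' hqq
      have h1 := congrArg Prod.fst hqq
      have h2 := congrArg Prod.snd hqq
      exact Prod.ext (Subtype.ext h1) (Subtype.ext h2)
    · intro p hp
      by_cases hpA : p ∈ A
      · rw [Set.indicator_of_mem hpA]
        by_contra hne
        apply hp
        have hmem : p.1 * p.2 ∈ H := by
          by_contra hnot
          exact hne (ext_not_mem H φ _ hnot)
        rw [ext_mem H φ _ hmem] at hne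
        have hS : p.1 * p.2 ∈ S := by
          by_contra hnot
          exact hne (hφS ⟨p.1 * p.2, hmem⟩ hnot)
        have ha2 := sq_of_conj u p.1 hu hpA.1
        have hb2 := sq_of_conj v p.2 hv hpA.2
        have hainv : p.1⁻¹ = p.1 := inv_eq_of_mul_eq_one_left ha2
        have hbinv : p.2⁻¹ = p.2 := inv_eq_of_mul_eq_one_left hb2
        have h1 : p.1 * (p.1 * p.2) * p.1⁻¹ = (p.1 * p.2)⁻¹ := by
          rw [mul_inv_rev, hainv, hbinv, ← mul_assoc, ha2, one_mul]
        have haH : p.1 ∈ H := by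
          by_contra hnot
          apply hTI p.1 hnot (p.1 * p.2) hS
          rw [h1]
          exact hinv _ hS
        have hbH : p.2 ∈ H := by
          have : p.2 = p.1⁻¹ * (p.1 * p.2) := by group
          rw [this]
          exact H.mul_mem (H.inv_mem haH) hmem
        exact ⟨(⟨p.1, haH⟩, ⟨p.2, hbH⟩), rfl⟩
      · rw [Set.indicator_of_notMem hpA]
    · intro q
      by_cases hq : q ∈ AH
      · have hq' : ((q.1 : G), (q.2 : G)) ∈ A := hq
        rw [Set.indicator_of_mem hq, Set.indicator_of_mem hq']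
        exact (ext_mem H φ _ (H.mul_mem q.1.2 q.2.2)).symm
      · have hq' : ((q.1 : G), (q.2 : G)) ∉ A := hq
        rw [Set.indicator_of_notMem hq, Set.indicator_of_notMem hq']
  -- step 1
  have step1 : ∀ x : G, ∑ p : G × G, A.indicator (fun p => Cfsg.extendByZero H φ (x⁻¹ * (p.1 * p.2) * x)) p
      = ∑ p : G × G, A.indicator (fun p => Cfsg.extendByZero H φ (p.1 * p.2)) p := by
    intro x
    let σ : G × G ≃ G × G :=
      { toFun := fun p => (x⁻¹ * p.1 * x, x⁻¹ * p.2 * x)
        invFun := fun p => (x * p.1 * x⁻¹, x * p.2 * x⁻¹)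
        left_inv := fun p => by ext <;> simp [mul_assoc]
        right_inv := fun p => by ext <;> simp [mul_assoc] }
    apply Fintype.sum_equiv σ
    intro p
    have hmem : p ∈ A ↔ σ p ∈ A := by
      have e1 : IsConj p.1 (x⁻¹ * p.1 * x) := isConj_iff.2 ⟨x⁻¹, by simp⟩
      have e2 : IsConj p.2 (x⁻¹ * p.2 * x) := isConj_iff.2 ⟨x⁻¹, by simp⟩
      constructor
      · rintro ⟨h1, h2⟩
        exact ⟨h1.trans e1, h2.trans e2⟩
      · rintro ⟨h1, h2⟩
        exact ⟨h1.trans e1.symm, h2.trans e2.symm⟩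
    by_cases hp : p ∈ A
    · rw [Set.indicator_of_mem hp, Set.indicator_of_mem (hmem.1 hp)]
      congr 1
      change x⁻¹ * (p.1 * p.2) * x = x⁻¹ * p.1 * x * (x⁻¹ * p.2 * x)
      group
    · rw [Set.indicator_of_notMem hp, Set.indicator_of_notMem (fun h => hp (hmem.2 h))]
  have hcard : (H.index : ℂ) = (Nat.card H : ℂ)⁻¹ * (Fintype.card G : ℂ) := by
    have h1 := Subgroup.index_mul_card H
    rw [Nat.card_eq_fintype_card (α := G)] at h1
    have h2 : (Nat.card H : ℂ) ≠ 0 := by
      exact_mod_cast (Nat.card_pos (α := H)).ne'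
    rw [← h1]
    push_cast
    field_simp
  calc ∑ p : G × G, A.indicator (fun p => Cfsg.indFun H φ (p.1 * p.2)) p
      = ∑ p : G × G, (Nat.card H : ℂ)⁻¹ * ∑ x : G, A.indicator (fun p => Cfsg.extendByZero H φ (x⁻¹ * (p.1 * p.2) * x)) p := by
        apply Finset.sum_congr rfl
        intro p _
        by_cases hp : p ∈ A
        · simp only [Set.indicator_of_mem hp]
          rfl
        · simp only [Set.indicator_of_notMem hp]
          simp
    _ = (Nat.card H : ℂ)⁻¹ * ∑ x : G, ∑ p : G × G, A.indicator (fun p => Cfsg.extendByZero H φ (x⁻¹ * (p.1 * p.2) * x)) p := by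
        rw [← Finset.mul_sum, Finset.sum_comm]
    _ = (Nat.card H : ℂ)⁻¹ * ∑ x : G, ∑ q : H × H, AH.indicator (fun p => φ (p.1 * p.2)) q := by
        congr 1
        apply Finset.sum_congr rfl
        intro x _
        rw [step1 x, step2]
    _ = (H.index : ℂ) * ∑ q : H × H, AH.indicator (fun p => φ (p.1 * p.2)) q := by
        rw [Finset.sum_const, Finset.card_univ, hcard, nsmul_eq_mul, mul_assoc]

end Cfsg.Agent.S0849
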