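import Mathlib
import Cfsg.Statements.S0860
import Cfsg.Agent.Lib.Helper2.CharPerm

set_option autoImplicit false
open Cfsg

namespace Cfsg.Agent.S0860

open Cfsg.Agent.Lib.Helper2

/-- Let a group A act on the set of irreducible characters and on the set of conjugacy classes of a finite group G in such a way that (a • χ) evaluated on the class a • C equals χ evaluated on C, for all a, χ and C. Then every element of A fixes exactly as many irreducible characters as it fixes conjugacy classes. -/
theorem result {G : Type*} [Group G] [Finite G] {A : Type*} [Group A] [MulAction A (Cfsg.IrrCharacter G)] [MulAction A (ConjClasses G)] (hcompat : ∀ (a : A) (χ : Cfsg.IrrCharacter G) (g g' : G), ConjClasses.mk g' = a • ConjClasses.mk g → ((a • χ : Cfsg.IrrCharacter G) : G → ℂ) g' = (χ : G → ℂ) g) (a : A) : Nat.card {χ : Cfsg.IrrCharacter G // a • χ = χ} = Nat.card {C : ConjClasses G // a • C = C} := by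
  classical
  have := Fintype.ofFinite G
  -- choose representatives of `a⁻¹ • mk g`
  have hex : ∀ g : G, ∃ g' : G, ConjClasses.mk g' = a⁻¹ • ConjClasses.mk g := fun g =>
    ConjClasses.exists_rep _
  choose t ht using hex
  have key : ∀ (χ : Cfsg.IrrCharacter G), ((a • χ : Cfsg.IrrCharacter G) : G → ℂ) = (χ : G → ℂ) ∘ t := by
    intro χ
    funext g
    have h1 : ConjClasses.mk g = a • ConjClasses.mk (t g) := by
      rw [ht g, smul_inv_smul]
    exact hcompat a χ (t g) g h1
  have h1 : ∀ χ : G → ℂ, Cfsg.IsIrrCharacter G χ → Cfsg.IsIrrCharacter G (χ ∘ t) := by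
    intro χ hχ
    have := key ⟨χ, hχ⟩
    rw [← this]
    exact (a • (⟨χ, hχ⟩ : Cfsg.IrrCharacter G)).2
  have h2 : ∀ g h : G, IsConj g h → IsConj (t g) (t h) := by
    intro g h hgh
    rw [← ConjClasses.mk_eq_mk_iff_isConj, ht g, ht h, ConjClasses.mk_eq_mk_iff_isConj.mpr hgh]
  have h3 := card_fixed_irr_eq_card_fixed_classes t h1 h2
  have e1 : Nat.card {χ : Cfsg.IrrCharacter G // a • χ = χ}
      = Nat.card {χ : Cfsg.IrrCharacter G // (χ : G → ℂ) ∘ t = (χ : G → ℂ)} := by
    apply Nat.card_congr
    apply Equiv.subtypeEquivRight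
    intro χ
    rw [← key χ]
    exact Subtype.ext_iff
  have e2 : Nat.card {C : ConjClasses G // a • C = C}
      = Nat.card {C : ConjClasses G // ∀ g : G, ConjClasses.mk g = C → IsConj (t g) g} := by
    apply Nat.card_congr
    apply Equiv.subtypeEquivRight
    intro C
    constructor
    · intro hC g hg
      rw [← ConjClasses.mk_eq_mk_iff_isConj, ht g, hg]
      rw [inv_smul_eq_iff, hC]
    · intro hC
      obtain ⟨g, rfl⟩ := ConjClasses.exists_rep C
      have := hC g rfl
      rw [← ConjClasses.mk_eq_mk_iff_isConj, ht g, inv_smul_eq_iff] at this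
      exact this.symm
  rw [e1, e2, h3]

end Cfsg.Agent.S0860
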