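import Mathlib
import Cfsg.Statements.S0864
import Cfsg.Agent.Lib.Helper2.LinExt

set_option autoImplicit false
open Cfsg

namespace Cfsg.Agent.S0864

open Cfsg.Agent.Lib.Helper2

/-- A G-invariant linear character λ of a normal subgroup N extends to G provided that, for each prime p dividing the order of λ, it extends to some subgroup H ⊇ N with H/N a Sylow p-subgroup of G/N. -/
theorem result {G : Type*} [Group G] [Finite G] (N : Subgroup G) [hN : N.Normal] (lam : N → ℂ) (hlam : Cfsg.IsCharacter N lam ∧ lam 1 = 1) (hinv : ∀ (g : G) (n : N), lam ⟨g * n * g⁻¹, hN.conj_mem (n : G) n.2 g⟩ = lam n) (hsyl : ∀ p : ℕ, p.Prime → p ∣ orderOf lam → ∃ (H : Subgroup G) (hNH : N ≤ H) (ν : H → ℂ), Nat.Coprime H.index p ∧ (∃ k : ℕ, N.relIndex H = p ^ k) ∧ Cfsg.IsCharacter H ν ∧ ν 1 = 1 ∧ ∀ n : N, ν ⟨(n : G), hNH n.2⟩ = lam n) : ∃ μ : G → ℂ, Cfsg.IsCharacter G μ ∧ μ 1 = 1 ∧ ∀ n : N,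 μ n = lam n := by
  obtain ⟨lam₀, rfl⟩ := hom_of_char_deg_one hlam.1 hlam.2
  have hinv' : ∀ (g : G) (n : N), lam₀ ⟨g * n * g⁻¹, hN.conj_mem (n : G) n.2 g⟩ = lam₀ n :=
    fun g n => Units.ext (hinv g n)
  have hsyl' : ∀ p : ℕ, p.Prime → p ∣ orderOf lam₀ → ∃ (H : Subgroup G) (hNH : N ≤ H)
      (ν : H →* ℂˣ), Nat.Coprime H.index p ∧ ∀ n : N, ν ⟨(n : G), hNH n.2⟩ = lam₀ n := by
    intro p hp hpm
    rw [← orderOf_coe_hom] at hpm
    obtain ⟨H, hNH, ν, hcop, -, hν, hν1, hνN⟩ := hsyl p hp hpm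
    obtain ⟨ν₀, rfl⟩ := hom_of_char_deg_one hν hν1
    exact ⟨H, hNH, ν₀, hcop, fun n => Units.ext (hνN n)⟩
  obtain ⟨μ, hμ⟩ := hom_extends_of_sylow N lam₀ hinv' hsyl'
  refine ⟨fun g => (μ g : ℂ), isCharacter_of_hom μ, by simp, fun n => ?_⟩
  exact congrArg Units.val (hμ n)

end Cfsg.Agent.S0864
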