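import Mathlib
import Cfsg.Statements.S0865
import Cfsg.Agent.Lib.Helper2.LinExt

set_option autoImplicit false
open Cfsg

namespace Cfsg.Agent.S0865

open Cfsg.Agent.Lib.Helper2

/-- A G-invariant linear character λ of a normal subgroup N whose order is coprime to [G:N] has exactly one extension μ to G of order coprime to [G:N], and that μ has the same order as λ. -/
theorem result {G : Type*} [Group G] [Finite G] (N : Subgroup G) [hN : N.Normal] (lam : N → ℂ) (hlam : Cfsg.IsCharacter N lam ∧ lam 1 = 1) (hinv : ∀ (g : G) (n : N), lam ⟨g * n * g⁻¹, hN.conj_mem (n : G) n.2 g⟩ = lam n) (hcop : Nat.Coprime N.index (orderOf lam)) : ∃ μ : G → ℂ, (Cfsg.IsCharacter G μ ∧ μ 1 = 1 ∧ (∀ n : N, μ n = lam n) ∧ orderOf μ = orderOf lam) ∧ ∀ μ' : G → ℂ, Cfsg.IsCharacter G μ' ∧ μ' 1 = 1 → (∀ n : N, μ' n = lam n) → Nat.Coprime N.index (orderOf μ') → μ' = μ := by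
  obtain ⟨lam₀, rfl⟩ := hom_of_char_deg_one hlam.1 hlam.2
  have hinv' : ∀ (g : G) (n : N), lam₀ ⟨g * n * g⁻¹, hN.conj_mem (n : G) n.2 g⟩ = lam₀ n :=
    fun g n => Units.ext (hinv g n)
  rw [orderOf_coe_hom] at hcop
  obtain ⟨μ, hμN, hord, huniq⟩ := hom_unique_ext N lam₀ hinv' hcop
  refine ⟨fun g => (μ g : ℂ), ⟨isCharacter_of_hom μ, by simp, fun n => congrArg Units.val (hμN n),
    by rw [orderOf_coe_hom, orderOf_coe_hom, hord]⟩, ?_⟩
  rintro μ' ⟨hμ', hμ'1⟩ hμ'N hcop'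
  obtain ⟨μ'₀, rfl⟩ := hom_of_char_deg_one hμ' hμ'1
  rw [orderOf_coe_hom] at hcop'
  have := huniq μ'₀ (fun n => Units.ext (hμ'N n)) hcop'
  rw [this]

end Cfsg.Agent.S0865
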