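import Mathlib
import Cfsg.Statements.S0869

set_option autoImplicit false
open Cfsg

namespace Cfsg.Agent.S0869

theorem one_sub_prod_mem {S : Type*} (R : AddSubgroup (S → ℤ))
    (hmul : ∀ f ∈ R, ∀ g ∈ R, f * g ∈ R) (F : S → (S → ℤ)) (hF : ∀ x, F x ∈ R)
    (s : Finset S) : 1 - ∏ x ∈ s, (1 - F x) ∈ R := by
  classical
  induction s using Finset.induction_on with
  | empty => simp
  | insert a s ha ih =>
    rw [Finset.prod_insert ha]
    have h1 : 1 - (1 - F a) * ∏ x ∈ s, (1 - F x)
        = (1 - ∏ x ∈ s, (1 - F x)) + F a - F a * (1 - ∏ x ∈ s, (1 - F x)) := by ring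
    rw [h1]
    exact R.sub_mem (R.add_mem ih (hF a)) (hmul _ (hF a) _ ih)

/-- Let S be a nonempty finite type and R an additive subgroup of the integer-valued functions on S that is closed under pointwise multiplication. If the constant function 1 is not in R, then there exist a point x of S and a prime p such that p divides f x for every f in R. -/
theorem result {S : Type*} [Finite S] [Nonempty S] (R : AddSubgroup (S → ℤ)) (hmul : ∀ f ∈ R, ∀ g ∈ R, f * g ∈ R) (h1 : (1 : S → ℤ) ∉ R) : ∃ (x : S) (p : ℕ), p.Prime ∧ ∀ f ∈ R, (p : ℤ) ∣ f x := by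
  classical
  haveI := Fintype.ofFinite S
  by_contra hcon
  push_neg at hcon
  have key : ∀ x : S, ∃ f ∈ R, f x = 1 := by
    intro x
    let I : AddSubgroup ℤ := R.map (Pi.evalAddMonoidHom (fun _ : S => ℤ) x)
    obtain ⟨n, hn⟩ : ∃ n : ℤ, I = AddSubgroup.zmultiples n := by
      have := AddSubgroup.isAddCyclic I
      obtain ⟨g, hg⟩ := (AddSubgroup.isAddCyclic_iff_exists_zmultiples_eq_top (H := I)).1 this
      exact ⟨g, hg.symm⟩
    have hmem : ∀ f ∈ R, n ∣ f x := by
      intro f hf
      have : f x ∈ I := ⟨f, hf, rfl⟩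
      rw [hn] at this
      exact Int.mem_zmultiples_iff.1 this
    by_cases hu : n.natAbs = 1
    · have h1I : (1 : ℤ) ∈ I := by
        rw [hn, Int.mem_zmultiples_iff]
        exact Int.natAbs_dvd_natAbs.1 (by simp [hu])
      obtain ⟨f, hf, hfx⟩ := h1I
      exact ⟨f, hf, hfx⟩
    · exfalso
      obtain ⟨p, hp, hpn⟩ := Nat.exists_prime_and_dvd hu
      obtain ⟨f, hf, hfx⟩ := hcon x p hp
      apply hfx
      have : (p : ℤ) ∣ n := by
        rw [← Int.natAbs_dvd_natAbs]; simpa using hpn
      exact this.trans (hmem f hf)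
  choose F hFR hF1 using key
  have h := one_sub_prod_mem R hmul F hFR Finset.univ
  have hz : ∏ x : S, (1 - F x) = 0 := by
    funext y
    rw [Finset.prod_apply]
    apply Finset.prod_eq_zero (Finset.mem_univ y)
    simp [hF1 y]
  rw [hz, sub_zero] at h
  exact h1 h

end Cfsg.Agent.S0869
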