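import Mathlib
import Cfsg.Statements.S0870
import Cfsg.Agent.Lib.Helper8.IndAux

set_option autoImplicit false
open Cfsg

namespace Cfsg.Agent.S0870

open Cfsg.Agent.Lib.Helper8

theorem ext_one {G : Type*} [Group G] (U : Subgroup G) [DecidablePred (· ∈ U)] (z : G) :
    Cfsg.extendByZero U (fun _ => (1 : ℂ)) z = if z ∈ U then 1 else 0 := by
  split_ifs with h
  · rw [extendByZero_mem U _ _ h]
  · rw [extendByZero_not_mem U _ _ h]

/-- conjugate subgroups have the same permutation character -/
theorem indFun_conj {G : Type*} [Group G] [Fintype G] (U : Subgroup G) (c : G) :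
    Cfsg.indFun (U.map (MulAut.conj c).toMonoidHom) (fun _ => (1 : ℂ))
      = Cfsg.indFun U (fun _ => (1 : ℂ)) := by
  classical
  funext g
  unfold Cfsg.indFun
  rw [Subgroup.card_map_of_injective (MulAut.conj c).injective]
  congr 1
  apply Fintype.sum_equiv (Equiv.mulRight c)
  intro y
  rw [ext_one, ext_one]
  have : y⁻¹ * g * y ∈ U.map (MulAut.conj c).toMonoidHom
      ↔ (Equiv.mulRight c y)⁻¹ * g * (Equiv.mulRight c y) ∈ U := by
    rw [Equiv.coe_mulRight]
    constructor
    · rintro ⟨u, hu, hueq⟩
      have : (y * c)⁻¹ * g * (y * c) = u := by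
        have h2 : c * u * c⁻¹ = y⁻¹ * g * y := hueq
        have h3 : (y * c)⁻¹ * g * (y * c) = c⁻¹ * (y⁻¹ * g * y) * c := by group
        rw [h3, ← h2]; group
      rw [this]; exact hu
    · intro h
      refine ⟨_, h, ?_⟩
      change c * ((y * c)⁻¹ * g * (y * c)) * c⁻¹ = y⁻¹ * g * y
      group
  simp only [this]

/-- the permutation character counts fixed cosets -/
theorem indFun_eq_fixed {G : Type*} [Group G] [Fintype G] (H : Subgroup G) (g : G)
    [Fintype (G ⧸ H)] [DecidableEq (G ⧸ H)] :
    Cfsg.indFun H (fun _ => (1 : ℂ)) g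
      = ((Finset.univ.filter (fun c : G ⧸ H => g • c = c)).card : ℂ) := by
  classical
  unfold Cfsg.indFun
  simp only [ext_one]
  rw [← Finset.sum_filter, Finset.sum_const, nsmul_eq_mul, mul_one]
  have h1 : (Finset.univ.filter (fun y : G => y⁻¹ * g * y ∈ H)).card
      = Nat.card H * (Finset.univ.filter (fun c : G ⧸ H => g • c = c)).card := by
    have h2 := QuotientGroup.card_preimage_mk H {c : G ⧸ H | g • c = c}
    have h3 : Nat.card ((QuotientGroup.mk : G → G ⧸ H) ⁻¹' {c : G ⧸ H | g • c = c})
        = (Finset.univ.filter (fun y : G => y⁻¹ * g * y ∈ H)).card := by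
      rw [Nat.card_eq_fintype_card, ← Fintype.card_subtype]
      apply Fintype.card_congr
      apply Equiv.subtypeEquivRight
      intro y
      rw [Set.mem_preimage, Set.mem_ofPred_eq, MulAction.Quotient.smul_mk, smul_eq_mul,
        QuotientGroup.eq]
      constructor
      · intro h
        have := Subgroup.inv_mem _ h
        convert this using 1; group
      · intro h
        have := Subgroup.inv_mem _ h
        convert this using 1; group
    have h4 : Nat.card {c : G ⧸ H | g • c = c}
        = (Finset.univ.filter (fun c : G ⧸ H => g • c = c)).card := by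
      rw [Nat.card_eq_fintype_card, ← Fintype.card_subtype]
      rfl
    rw [← h3, h2, h4]
  rw [h1]
  have hH0 : (Nat.card H : ℂ) ≠ 0 := by exact_mod_cast Nat.card_pos.ne'
  push_cast
  field_simp

/-- the permutation character of a finite `Γ`-set is the sum of the permutation characters
on the stabilizers of orbit representatives -/
theorem perm_char_orbits {Γ X : Type*} [Group Γ] [Fintype Γ] [MulAction Γ X] [Fintype X]
    [DecidableEq X] [Fintype (MulAction.orbitRel.Quotient Γ X)] (g : Γ) :
    ((Finset.univ.filter (fun x : X => g • x = x)).card : ℂ)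
      = ∑ ω : MulAction.orbitRel.Quotient Γ X,
          Cfsg.indFun (MulAction.stabilizer Γ ω.out) (fun _ => (1 : ℂ)) g := by
  classical
  have hind : ∀ x₀ : X, Cfsg.indFun (MulAction.stabilizer Γ x₀) (fun _ => (1 : ℂ)) g
      = (Nat.card (MulAction.stabilizer Γ x₀) : ℂ)⁻¹
        * ∑ u : Γ, (if g • (u • x₀) = u • x₀ then (1 : ℂ) else 0) := by
    intro x₀
    unfold Cfsg.indFun
    congr 1
    apply Finset.sum_congr rfl
    intro u _
    rw [ext_one]
    have : u⁻¹ * g * u ∈ MulAction.stabilizer Γ x₀ ↔ g • (u • x₀) = u • x₀ := by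
      rw [MulAction.mem_stabilizer_iff, mul_smul, mul_smul, inv_smul_eq_iff]
    simp only [this]
  have hcnt : ∀ x₀ x : X, (Finset.univ.filter (fun u : Γ => u • x₀ = x)).card
      = if (Quotient.mk'' x : MulAction.orbitRel.Quotient Γ X) = Quotient.mk'' x₀
        then Nat.card (MulAction.stabilizer Γ x₀) else 0 := by
    intro x₀ x
    split_ifs with h
    · rw [Quotient.eq''] at h
      obtain ⟨v, rfl⟩ := h
      rw [Nat.card_eq_fintype_card, ← Fintype.card_subtype]
      apply Fintype.card_congr
      exact (Equiv.mulLeft v⁻¹).subtypeEquiv (fun u => by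
        simp only [Equiv.coe_mulLeft, MulAction.mem_stabilizer_iff, mul_smul, inv_smul_eq_iff])
    · rw [Finset.card_eq_zero, Finset.filter_eq_empty_iff]
      intro u _ hu
      apply h
      rw [Quotient.eq'']
      exact ⟨u, hu⟩
  have hS0 : ∀ x₀ : X, (Nat.card (MulAction.stabilizer Γ x₀) : ℂ) ≠ 0 := by
    intro x₀; exact_mod_cast Nat.card_pos.ne'
  have horb : ∀ ω : MulAction.orbitRel.Quotient Γ X,
      Cfsg.indFun (MulAction.stabilizer Γ ω.out) (fun _ => (1 : ℂ)) g
        = ∑ x : X, (if (Quotient.mk'' x : MulAction.orbitRel.Quotient Γ X) = ω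
            then (if g • x = x then (1 : ℂ) else 0) else 0) := by
    intro ω
    rw [hind]
    have h1 : ∀ u : Γ, (if g • (u • ω.out) = u • ω.out then (1 : ℂ) else 0)
        = ∑ x : X, (if u • ω.out = x then (if g • x = x then (1 : ℂ) else 0) else 0) := by
      intro u
      rw [Finset.sum_ite_eq Finset.univ (u • ω.out), if_pos (Finset.mem_univ _)]
    simp only [h1]
    rw [Finset.sum_comm, Finset.mul_sum]
    apply Finset.sum_congr rfl
    intro x _
    rw [← Finset.sum_filter, Finset.sum_const, hcnt, nsmul_eq_mul, Quotient.out_eq']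
    split_ifs with h1 h2
    · rw [mul_one, inv_mul_cancel₀ (hS0 _)]
    · rw [mul_zero, mul_zero]
    · simp
    · simp
  simp only [horb]
  rw [Finset.sum_comm]
  simp only [Finset.sum_ite_eq, Finset.mem_univ, if_true]
  rw [← Finset.sum_filter, Finset.sum_const, nsmul_eq_mul, mul_one]

/-- The product of the permutation characters on the cosets of subgroups H and K is a non-negative integer combination of permutation characters on cosets of subgroups of H. -/
theorem result {G : Type*} [Group G] [Fintype G] (H K : Subgroup G) : ∃ a : Subgroup G → ℕ, (∀ U, a U ≠ 0 → U ≤ H) ∧ Cfsg.indFun H (fun _ => 1) * Cfsg.indFun K (fun _ => 1) = ∑ U : Subgroup G, (a U : ℂ) • Cfsg.indFun U (fun _ => 1) := by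
  classical
  have := Fintype.ofFinite (G ⧸ H)
  have := Fintype.ofFinite (G ⧸ K)
  have := Fintype.ofFinite (MulAction.orbitRel.Quotient G ((G ⧸ H) × (G ⧸ K)))
  -- the subgroup attached to an orbit
  let V : MulAction.orbitRel.Quotient G ((G ⧸ H) × (G ⧸ K)) → Subgroup G := fun ω =>
    (MulAction.stabilizer G ω.out).map (MulAut.conj (ω.out.1.out)⁻¹).toMonoidHom
  have hV : ∀ ω, V ω ≤ H := by
    intro ω
    rintro _ ⟨u, hu, rfl⟩
    have h1 : u ∈ MulAction.stabilizer G ω.out.1 := by
      have hu' : u • ω.out = ω.out := hu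
      rw [MulAction.mem_stabilizer_iff]
      exact congrArg Prod.fst hu'
    have h2 : ω.out.1 = (ω.out.1.out) • ((1 : G) : G ⧸ H) := by
      rw [MulAction.Quotient.smul_mk, smul_eq_mul, mul_one]
      exact (QuotientGroup.out_eq' _).symm
    rw [h2, MulAction.stabilizer_smul_eq_stabilizer_map_conj, MulAction.stabilizer_quotient] at h1
    obtain ⟨h, hh, rfl⟩ := h1
    simp only [MulEquiv.coe_toMonoidHom, MulAut.conj_apply, inv_inv]
    have : (ω.out.1.out)⁻¹ * (ω.out.1.out * h * (ω.out.1.out)⁻¹) * ω.out.1.out = h := by group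
    rw [this]; exact hh
  refine ⟨fun U => (Finset.univ.filter (fun ω => V ω = U)).card, ?_, ?_⟩
  · intro U hU
    obtain ⟨ω, hω⟩ := Finset.card_pos.1 (Nat.pos_of_ne_zero hU)
    rw [← (Finset.mem_filter.1 hω).2]
    exact hV ω
  · funext g
    rw [Pi.mul_apply, Finset.sum_apply]
    simp only [Pi.smul_apply, smul_eq_mul]
    have h1 : ∀ U : Subgroup G,
        ((Finset.univ.filter (fun ω => V ω = U)).card : ℂ) * Cfsg.indFun U (fun _ => (1 : ℂ)) g
          = ∑ ω, (if V ω = U then Cfsg.indFun U (fun _ => (1 : ℂ)) g else 0) := by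
      intro U
      rw [← Finset.sum_filter, Finset.sum_const, nsmul_eq_mul]
    simp only [h1]
    rw [Finset.sum_comm]
    simp only [Finset.sum_ite_eq, Finset.mem_univ, if_true]
    have h2 : ∀ ω, Cfsg.indFun (V ω) (fun _ => (1 : ℂ)) g
        = Cfsg.indFun (MulAction.stabilizer G ω.out) (fun _ => (1 : ℂ)) g := by
      intro ω
      exact congrFun (indFun_conj _ _) g
    simp only [h2]
    rw [← perm_char_orbits, indFun_eq_fixed, indFun_eq_fixed, ← Nat.cast_mul,
      ← Finset.card_product]
    congr 1
    apply Finset.card_bij (fun x _ => x)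
    · intro x hx
      rw [Finset.mem_product, Finset.mem_filter, Finset.mem_filter] at hx
      rw [Finset.mem_filter]
      exact ⟨Finset.mem_univ _, Prod.ext hx.1.2 hx.2.2⟩
    · intro x _ y _ h; exact h
    · intro x hx
      rw [Finset.mem_filter] at hx
      refine ⟨x, ?_, rfl⟩
      rw [Finset.mem_product, Finset.mem_filter, Finset.mem_filter]
      exact ⟨⟨Finset.mem_univ _, congrArg Prod.fst hx.2⟩, ⟨Finset.mem_univ _, congrArg Prod.snd hx.2⟩⟩

end Cfsg.Agent.S0870
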