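import Mathlib
import Cfsg.Statements.S0871
import Cfsg.Agent.Lib.Helper8.IndAux
import Cfsg.Agent.Lib.Helper8.PermSylow
import Cfsg.Agent.Lib.Helper8.SylowAux

set_option autoImplicit false
open Cfsg

namespace Cfsg.Agent.S0871

open Cfsg.Agent.Lib.Helper8

/-- fixed-point count for a `p`-element acting on the cosets of `C ⊔ P` -/
theorem lemmaA {N : Type*} [Group N] [Finite N] (p : ℕ) [Fact p.Prime] (C : Subgroup N)
    [C.Normal] (P : Sylow p N) (g c : N) (hg : g ∈ (P : Subgroup N)) (hc : c ∈ C) :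
    ∃ n : ℕ, ¬ p ∣ n ∧ Nat.card {y : N // y⁻¹ * (g * c) * y ∈ C ⊔ (P : Subgroup N)}
      = Nat.card (C ⊔ (P : Subgroup N) : Subgroup N) * n := by
  classical
  have hQ : IsPGroup p (Subgroup.zpowers g) := P.2.to_le ((Subgroup.zpowers_le).2 hg)
  have hmod := hQ.card_modEq_card_fixedPoints (N ⧸ (C ⊔ (P : Subgroup N)))
  refine ⟨Nat.card (MulAction.fixedPoints (Subgroup.zpowers g) (N ⧸ (C ⊔ (P : Subgroup N)))),
    ?_, ?_⟩
  · intro hdvd
    have h1 : p ∣ Nat.card (N ⧸ (C ⊔ (P : Subgroup N))) :=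
      (Nat.modEq_zero_iff_dvd).1 (hmod.trans ((Nat.modEq_zero_iff_dvd).2 hdvd))
    have h2 : (C ⊔ (P : Subgroup N)).index ∣ (P : Subgroup N).index :=
      Subgroup.index_dvd_of_le le_sup_right
    exact P.not_dvd_index (dvd_trans h1 h2)
  · rw [← QuotientGroup.card_preimage_mk]
    apply Nat.card_congr
    apply Equiv.subtypeEquivRight
    intro y
    rw [Set.mem_preimage, MulAction.mem_fixedPoints]
    have hcy : y⁻¹ * c * y ∈ C ⊔ (P : Subgroup N) := by
      apply Subgroup.mem_sup_left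
      have := (inferInstance : C.Normal).conj_mem c hc y⁻¹
      rwa [inv_inv] at this
    have e : y⁻¹ * (g * c) * y = (y⁻¹ * g * y) * (y⁻¹ * c * y) := by group
    have key : y⁻¹ * (g * c) * y ∈ C ⊔ (P : Subgroup N)
        ↔ y⁻¹ * g * y ∈ C ⊔ (P : Subgroup N) := by
      rw [e]
      exact Subgroup.mul_mem_cancel_right _ hcy
    rw [key]
    have hstab : y⁻¹ * g * y ∈ C ⊔ (P : Subgroup N) ↔
        g ∈ MulAction.stabilizer N (QuotientGroup.mk y : N ⧸ (C ⊔ (P : Subgroup N))) := by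
      rw [MulAction.mem_stabilizer_iff, MulAction.Quotient.smul_mk, smul_eq_mul, QuotientGroup.eq]
      constructor
      · intro h
        have := Subgroup.inv_mem _ h
        convert this using 1; group
      · intro h
        have := Subgroup.inv_mem _ h
        convert this using 1; group
    rw [hstab]
    constructor
    · intro h q
      have : (q : N) ∈ MulAction.stabilizer N
          (QuotientGroup.mk y : N ⧸ (C ⊔ (P : Subgroup N))) :=
        (Subgroup.zpowers_le).2 h q.2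
      exact this
    · intro h
      exact h ⟨g, Subgroup.mem_zpowers g⟩

theorem mem_of_coprime_order {G : Type*} [Group G] [Finite G] (p k : ℕ) (C H : Subgroup G)
    (hHN : H ≤ Subgroup.normalizer (C : Set G)) (hrel : C.relIndex H = p ^ k)
    (h : G) (hh : h ∈ H) (hcop : Nat.Coprime (orderOf h) p) : h ∈ C := by
  have hn : (C.subgroupOf H).Normal := Subgroup.normal_subgroupOf_of_le_normalizer hHN
  have h1 : (⟨h, hh⟩ : H) ^ (C.subgroupOf H).index ∈ C.subgroupOf H :=
    Subgroup.pow_index_mem _ _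
  have h2 : h ^ (p ^ k) ∈ C := by
    rw [Subgroup.mem_subgroupOf] at h1
    rw [← hrel]; exact h1
  obtain ⟨t, ht⟩ := exists_pow_eq_self_of_coprime (x := h) (n := p ^ k)
    (Nat.Coprime.pow_left k hcop.symm)
  rw [← ht]
  exact C.pow_mem h2 t

theorem mem_normalizer_of_conj_mem_H {G : Type*} [Group G] [Finite G] (p k a : ℕ) (x : G)
    (H : Subgroup G)
    (hHN : H ≤ Subgroup.normalizer ((Subgroup.zpowers (x ^ (p ^ a)) : Subgroup G) : Set G))
    (hrel : (Subgroup.zpowers (x ^ (p ^ a))).relIndex H = p ^ k)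
    (hcop : Nat.Coprime (orderOf (x ^ (p ^ a))) p) (y : G) (hy : y⁻¹ * x * y ∈ H) :
    y ∈ Subgroup.normalizer ((Subgroup.zpowers (x ^ (p ^ a)) : Subgroup G) : Set G) := by
  have h1 : y⁻¹ * x ^ (p ^ a) * y ∈ Subgroup.zpowers (x ^ (p ^ a)) := by
    apply mem_of_coprime_order p k _ H hHN hrel
    · have : y⁻¹ * x ^ (p ^ a) * y = (y⁻¹ * x * y) ^ (p ^ a) := by
        have h := @conj_pow G _ (p ^ a) y⁻¹ x
        rw [inv_inv] at h
        exact h.symm
      rw [this]; exact H.pow_mem hy _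
    · have : orderOf (y⁻¹ * x ^ (p ^ a) * y) = orderOf (x ^ (p ^ a)) := by
        have := MulEquiv.orderOf_eq (MulAut.conj y⁻¹) (x ^ (p ^ a))
        rwa [MulAut.conj_apply, inv_inv] at this
      rw [this]; exact hcop
  have h2 : y⁻¹ ∈ Subgroup.normalizer
      ((Subgroup.zpowers (x ^ (p ^ a)) : Subgroup G) : Set G) := by
    apply mem_normalizer_of_conj_mem
    intro c hc
    obtain ⟨j, rfl⟩ := Subgroup.mem_zpowers_iff.1 hc
    rw [inv_inv]
    have : y⁻¹ * (x ^ (p ^ a)) ^ j * y = (y⁻¹ * x ^ (p ^ a) * y) ^ j := by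
      have h := @conj_zpow G _ j y⁻¹ (x ^ (p ^ a))
      rw [inv_inv] at h
      exact h.symm
    rw [this]; exact Subgroup.zpow_mem _ h1 j
  have := Subgroup.inv_mem _ h2
  rwa [inv_inv] at this

theorem core {G : Type*} [Group G] [Fintype G] (x : G) (p : ℕ) [Fact p.Prime] (a m' : ℕ)
    (hmm : p ^ a * m' = orderOf x) (hcop : Nat.Coprime p m') :
    ∃ H : Subgroup G, Subgroup.zpowers (x ^ (p ^ a)) ≤ H ∧
      H ≤ Subgroup.normalizer ((Subgroup.zpowers (x ^ (p ^ a)) : Subgroup G) : Set G) ∧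
      (∃ k : ℕ, (Subgroup.zpowers (x ^ (p ^ a))).relIndex H = p ^ k) ∧
      ∃ n : ℕ, ¬ p ∣ n ∧ Nat.card {y : G // y⁻¹ * x * y ∈ H} = Nat.card H * n := by
  classical
  have hp := (Fact.out : p.Prime)
  have hc₀ : orderOf (x ^ (p ^ a)) = m' := by
    rw [orderOf_pow, ← hmm, Nat.gcd_eq_right (Dvd.intro _ rfl)]
    exact Nat.mul_div_cancel_left m' (pow_pos hp.pos a)
  have hcop' : Nat.Coprime (orderOf (x ^ (p ^ a))) p := by rw [hc₀]; exact hcop.symm
  obtain ⟨C, hC⟩ : ∃ C : Subgroup G, C = Subgroup.zpowers (x ^ (p ^ a)) := ⟨_, rfl⟩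
  rw [← hC]
  have hxN : x ∈ Subgroup.normalizer (C : Set G) := by
    apply Subgroup.centralizer_le_normalizer
    rw [Subgroup.mem_centralizer_iff]
    intro h hh
    rw [hC] at hh
    obtain ⟨j, rfl⟩ := Subgroup.mem_zpowers_iff.1 hh
    exact (((Commute.refl x).pow_left (p ^ a)).zpow_left j).eq
  have hCn : (C.subgroupOf (Subgroup.normalizer (C : Set G))).Normal :=
    Subgroup.normal_in_normalizer
  have hx'ord : (⟨x, hxN⟩ : Subgroup.normalizer (C : Set G)) ^ (p ^ a * m') = 1 := by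
    apply Subtype.ext
    rw [Subgroup.coe_pow, Subgroup.coe_one, hmm]
    exact pow_orderOf_eq_one x
  have hgp : IsPGroup p (Subgroup.zpowers
      ((⟨x, hxN⟩ : Subgroup.normalizer (C : Set G)) ^ m')) := by
    rintro ⟨q, hq⟩
    obtain ⟨j, rfl⟩ := Subgroup.mem_zpowers_iff.1 hq
    refine ⟨a, Subtype.ext ?_⟩
    rw [Subgroup.coe_pow, Subgroup.coe_one]
    change (((⟨x, hxN⟩ : Subgroup.normalizer (C : Set G)) ^ m') ^ j) ^ (p ^ a) = 1
    rw [← zpow_natCast, ← zpow_mul, mul_comm, zpow_mul, zpow_natCast, ← pow_mul, mul_comm m',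
      hx'ord, one_zpow]
  obtain ⟨P, hP⟩ := hgp.exists_le_sylow
  -- Bezout
  obtain ⟨u, v, huv⟩ : ∃ u v : ℤ, (m' : ℤ) * u + ((p ^ a : ℕ) : ℤ) * v = 1 := by
    have hc : Nat.Coprime m' (p ^ a) := (Nat.Coprime.pow_left a hcop).symm
    have := Nat.gcd_eq_gcd_ab m' (p ^ a)
    rw [hc.gcd_eq_one] at this
    exact ⟨Nat.gcdA m' (p ^ a), Nat.gcdB m' (p ^ a), by rw [← this]; simp⟩
  have hxdecomp : (⟨x, hxN⟩ : Subgroup.normalizer (C : Set G))
      = (((⟨x, hxN⟩ : Subgroup.normalizer (C : Set G)) ^ m') ^ u)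
        * (((⟨x, hxN⟩ : Subgroup.normalizer (C : Set G)) ^ (p ^ a)) ^ v) := by
    rw [← zpow_natCast, ← zpow_mul, ← zpow_natCast, ← zpow_mul, ← zpow_add, huv, zpow_one]
  have hgP : (((⟨x, hxN⟩ : Subgroup.normalizer (C : Set G)) ^ m') ^ u) ∈ (P : Subgroup _) :=
    Subgroup.zpow_mem _ (hP (Subgroup.mem_zpowers _)) u
  have hcC : (((⟨x, hxN⟩ : Subgroup.normalizer (C : Set G)) ^ (p ^ a)) ^ v)
      ∈ C.subgroupOf (Subgroup.normalizer (C : Set G)) := by
    apply Subgroup.zpow_mem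
    rw [Subgroup.mem_subgroupOf, Subgroup.coe_pow]
    have : x ^ (p ^ a) ∈ C := by rw [hC]; exact Subgroup.mem_zpowers _
    exact this
  obtain ⟨n, hn, hcount⟩ := lemmaA p (C.subgroupOf (Subgroup.normalizer (C : Set G))) P _ _ hgP hcC
  rw [← hxdecomp] at hcount
  have hCle : C ≤ ((C.subgroupOf (Subgroup.normalizer (C : Set G))) ⊔ (P : Subgroup _)).map
      (Subgroup.normalizer (C : Set G)).subtype := by
    intro c hc
    refine ⟨⟨c, Subgroup.le_normalizer hc⟩, ?_, rfl⟩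
    exact Subgroup.mem_sup_left (Subgroup.mem_subgroupOf.2 hc)
  have hHN : ((C.subgroupOf (Subgroup.normalizer (C : Set G))) ⊔ (P : Subgroup _)).map
      (Subgroup.normalizer (C : Set G)).subtype ≤ Subgroup.normalizer (C : Set G) :=
    Subgroup.map_subtype_le _
  have hcardC : Nat.card (C.subgroupOf (Subgroup.normalizer (C : Set G))) = m' := by
    rw [Nat.card_congr (Subgroup.subgroupOfEquivOfLe (Subgroup.le_normalizer (H := C))).toEquiv,
      hC, Nat.card_zpowers, hc₀]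
  obtain ⟨k, hk⟩ := IsPGroup.iff_card.1 P.2
  have hrel : C.relIndex (((C.subgroupOf (Subgroup.normalizer (C : Set G)))
      ⊔ (P : Subgroup _)).map (Subgroup.normalizer (C : Set G)).subtype) = p ^ k := by
    have h2 := Subgroup.relIndex_map_map_of_injective
      (C.subgroupOf (Subgroup.normalizer (C : Set G)))
      ((C.subgroupOf (Subgroup.normalizer (C : Set G))) ⊔ (P : Subgroup _))
      (Subgroup.subtype_injective (Subgroup.normalizer (C : Set G)))
    rw [Subgroup.map_subgroupOf_eq_of_le Subgroup.le_normalizer] at h2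
    rw [h2, Subgroup.relIndex_sup_left, ← Subgroup.inf_relIndex_right]
    have hbot : (C.subgroupOf (Subgroup.normalizer (C : Set G))) ⊓ (P : Subgroup _) = ⊥ := by
      apply Disjoint.eq_bot
      apply Subgroup.disjoint_of_coprime_natCard
      rw [hcardC, hk]
      exact (Nat.Coprime.pow_left k hcop).symm
    rw [hbot, Subgroup.relIndex_bot_left, hk]
  refine ⟨_, hCle, hHN, ⟨k, hrel⟩, n, hn, ?_⟩
  rw [card_map_subtype, ← hcount]
  symm
  refine Nat.card_congr (Equiv.ofBijective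
    (fun y => ⟨(y.1 : G), ⟨y.1⁻¹ * ⟨x, hxN⟩ * y.1, y.2, rfl⟩⟩) ⟨?_, ?_⟩)
  · intro y₁ y₂ h
    apply Subtype.ext
    apply Subtype.ext
    have h' := congrArg Subtype.val h
    exact h'
  · rintro ⟨y, hy⟩
    have hyN : y ∈ Subgroup.normalizer (C : Set G) := by
      subst hC
      exact mem_normalizer_of_conj_mem_H p k a x _ hHN hrel hcop' y hy
    obtain ⟨z, hz, hzeq⟩ := hy
    refine ⟨⟨⟨y, hyN⟩, ?_⟩, rfl⟩
    have : (⟨y, hyN⟩ : Subgroup.normalizer (C : Set G))⁻¹ * ⟨x, hxN⟩ * ⟨y, hyN⟩ = z :=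
      Subtype.ext hzeq.symm
    rw [this]; exact hz

/-- For every element x of a finite group and every prime p there is a p-quasi-elementary subgroup H (one with a cyclic normal p-complement) such that the permutation character on the cosets of H takes at x a value not divisible by p. -/
theorem result {G : Type*} [Group G] [Fintype G] (x : G) (p : ℕ) (hp : p.Prime) : ∃ H : Subgroup G, (∃ C : Subgroup G, C ≤ H ∧ H ≤ Subgroup.normalizer (C : Set G) ∧ IsCyclic C ∧ Nat.Coprime (Nat.card C) p ∧ ∃ k : ℕ, C.relIndex H = p ^ k) ∧ ∃ n : ℕ, Cfsg.indFun H (fun _ => 1) x = (n : ℂ) ∧ ¬ p ∣ n := by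
  classical
  have : Fact p.Prime := ⟨hp⟩
  have hm0 : orderOf x ≠ 0 := (orderOf_pos x).ne'
  obtain ⟨a, m', hmm, hcop⟩ : ∃ a m' : ℕ, p ^ a * m' = orderOf x ∧ Nat.Coprime p m' :=
    ⟨(orderOf x).factorization p, orderOf x / p ^ (orderOf x).factorization p,
      Nat.ordProj_mul_ordCompl_eq_self _ p, Nat.coprime_ordCompl hp hm0⟩
  have hc₀ : orderOf (x ^ (p ^ a)) = m' := by
    rw [orderOf_pow, ← hmm, Nat.gcd_eq_right (Dvd.intro _ rfl)]
    exact Nat.mul_div_cancel_left m' (pow_pos hp.pos a)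
  obtain ⟨H, hCH, hHN, hk, n, hn, hcount⟩ := core x p a m' hmm hcop
  refine ⟨H, ⟨Subgroup.zpowers (x ^ (p ^ a)), hCH, hHN, inferInstance, ?_, hk⟩, n, ?_, hn⟩
  · rw [Nat.card_zpowers, hc₀]; exact hcop.symm
  · unfold Cfsg.indFun
    have h1 : ∀ y : G, Cfsg.extendByZero H (fun _ => (1 : ℂ)) (y⁻¹ * x * y)
        = if y⁻¹ * x * y ∈ H then 1 else 0 := by
      intro y
      split_ifs with h
      · rw [extendByZero_mem H _ _ h]
      · rw [extendByZero_not_mem H _ _ h]
    simp only [h1]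
    rw [← Finset.sum_filter, Finset.sum_const, nsmul_eq_mul, mul_one]
    have h2 : (Finset.univ.filter (fun y : G => y⁻¹ * x * y ∈ H)).card = Nat.card H * n := by
      rw [← hcount, Nat.card_eq_fintype_card, Fintype.card_subtype]
    rw [h2]
    have hH0 : (Nat.card H : ℂ) ≠ 0 := by
      exact_mod_cast Nat.card_pos.ne'
    push_cast
    field_simp

end Cfsg.Agent.S0871
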