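import Mathlib
import Cfsg.Statements.S0872
import Cfsg.Agent.S0869
import Cfsg.Agent.S0870
import Cfsg.Agent.S0871

set_option autoImplicit false
open Cfsg

namespace Cfsg.Agent.S0872

/-- the quasi-elementary predicate of the statement -/
def QE {G : Type*} [Group G] (p : ℕ) (H : Subgroup G) : Prop :=
  ∃ C : Subgroup G, C ≤ H ∧ H ≤ Subgroup.normalizer (C : Set G) ∧ IsCyclic C ∧
    Nat.Coprime (Nat.card C) p ∧ ∃ k : ℕ, C.relIndex H = p ^ k

theorem QE_of_le {G : Type*} [Group G] [Finite G] (p : ℕ) (hp : p.Prime) (H U : Subgroup G)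
    (hH : QE p H) (hU : U ≤ H) : QE p U := by
  obtain ⟨C, hCH, hHN, hcyc, hcop, k, hk⟩ := hH
  refine ⟨C ⊓ U, inf_le_right, ?_, ?_, ?_, ?_⟩
  · intro u hu
    have hu1 : u ∈ Subgroup.normalizer (C : Set G) := hHN (hU hu)
    rw [Subgroup.mem_normalizer_iff] at hu1 ⊢
    intro h
    rw [Subgroup.mem_inf, Subgroup.mem_inf, ← hu1 h]
    constructor
    · rintro ⟨h1, h2⟩
      exact ⟨h1, U.mul_mem (U.mul_mem hu h2) (U.inv_mem hu)⟩
    · rintro ⟨h1, h2⟩
      refine ⟨h1, ?_⟩
      have := U.mul_mem (U.mul_mem (U.inv_mem hu) h2) hu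
      convert this using 1; group
  · exact Subgroup.isCyclic_of_le (inf_le_left : C ⊓ U ≤ C)
  · exact Nat.Coprime.coprime_dvd_left (Subgroup.card_dvd_of_le inf_le_left) hcop
  · rw [Subgroup.inf_relIndex_right]
    have hn : (C.subgroupOf H).Normal := Subgroup.normal_subgroupOf_of_le_normalizer hHN
    have h1 := Subgroup.relIndex_dvd_index_of_normal (C.subgroupOf H) (U.subgroupOf H)
    rw [Subgroup.relIndex_subgroupOf hU] at h1
    have h2 : C.relIndex U ∣ p ^ k := by rw [← hk]; exact h1
    obtain ⟨j, _, hj⟩ := (Nat.dvd_prime_pow hp).1 h2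
    exact ⟨j, hj⟩

/-- integer-valued permutation character -/
noncomputable def piZ {G : Type*} [Group G] (H : Subgroup G) : G → ℤ :=
  fun g => (Nat.card {c : G ⧸ H // g • c = c} : ℤ)

theorem piZ_cast {G : Type*} [Group G] [Fintype G] (H : Subgroup G) (g : G) :
    ((piZ H g : ℤ) : ℂ) = Cfsg.indFun H (fun _ => (1 : ℂ)) g := by
  classical
  have := Fintype.ofFinite (G ⧸ H)
  unfold piZ
  rw [Cfsg.Agent.S0870.indFun_eq_fixed, Int.cast_natCast, Nat.card_eq_fintype_card,
    Fintype.card_of_subtype (Finset.univ.filter (fun c : G ⧸ H => g • c = c))]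
  intro c
  rw [Finset.mem_filter]
  exact ⟨fun h => h.2, fun h => ⟨Finset.mem_univ _, h⟩⟩

/-- generators of the ring -/
def gens {G : Type*} [Group G] [Fintype G] (p : ℕ) : Set (G → ℤ) :=
  {f | (∃ H : Subgroup G, QE p H ∧ f = piZ H) ∨ f = fun _ => (p : ℤ)}

theorem piZ_mul {G : Type*} [Group G] [Fintype G] (p : ℕ) (hp : p.Prime) (H K : Subgroup G)
    (hH : QE p H) : piZ H * piZ K ∈ AddSubgroup.closure (gens (G := G) p) := by
  classical
  obtain ⟨a, ha, heq⟩ := Cfsg.Agent.S0870.result H K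
  have h1 : piZ H * piZ K = ∑ U : Subgroup G, (a U : ℤ) • piZ U := by
    funext g
    have h2 := congrFun heq g
    rw [Pi.mul_apply, Finset.sum_apply] at h2
    simp only [Pi.smul_apply, smul_eq_mul] at h2
    rw [Pi.mul_apply, Finset.sum_apply]
    simp only [Pi.smul_apply, smul_eq_mul]
    have h3 : ((piZ H g * piZ K g : ℤ) : ℂ) = ((∑ U : Subgroup G, (a U : ℤ) * piZ U g : ℤ) : ℂ) := by
      push_cast
      rw [piZ_cast, piZ_cast, h2]
      apply Finset.sum_congr rfl
      intro U _
      rw [piZ_cast]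
    exact_mod_cast h3
  rw [h1]
  apply AddSubgroup.sum_mem
  intro U _
  by_cases hU : a U = 0
  · rw [hU]; simp
  · apply AddSubgroup.zsmul_mem
    apply AddSubgroup.subset_closure
    left
    exact ⟨U, QE_of_le p hp H U hH (ha U hU), rfl⟩

theorem closure_mul {G : Type*} [Group G] [Fintype G] (p : ℕ) (hp : p.Prime) :
    ∀ f ∈ AddSubgroup.closure (gens (G := G) p), ∀ g ∈ AddSubgroup.closure (gens (G := G) p),
      f * g ∈ AddSubgroup.closure (gens (G := G) p) := by
  intro f hf g hg
  induction hf, hg using AddSubgroup.closure_induction₂ with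
  | mem x y hx hy =>
    rcases hx with ⟨H, hH, rfl⟩ | rfl
    · rcases hy with ⟨K, hK, rfl⟩ | rfl
      · exact piZ_mul p hp H K hH
      · have : piZ H * (fun _ => (p : ℤ)) = (p : ℤ) • piZ H := by
          funext g; simp [mul_comm]
        rw [this]
        apply AddSubgroup.zsmul_mem
        exact AddSubgroup.subset_closure (Or.inl ⟨H, hH, rfl⟩)
    · rcases hy with ⟨K, hK, rfl⟩ | rfl
      · have : (fun _ => (p : ℤ)) * piZ K = (p : ℤ) • piZ K := by
          funext g; simp
        rw [this]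
        apply AddSubgroup.zsmul_mem
        exact AddSubgroup.subset_closure (Or.inl ⟨K, hK, rfl⟩)
      · have : (fun _ : G => (p : ℤ)) * (fun _ => (p : ℤ)) = (p : ℤ) • (fun _ : G => (p : ℤ)) := by
          funext g; simp
        rw [this]
        apply AddSubgroup.zsmul_mem
        exact AddSubgroup.subset_closure (Or.inr rfl)
  | zero_left x hx => rw [zero_mul]; exact AddSubgroup.zero_mem _
  | zero_right x hx => rw [mul_zero]; exact AddSubgroup.zero_mem _
  | add_left x y z hx hy hz h1 h2 => rw [add_mul]; exact AddSubgroup.add_mem _ h1 h2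
  | add_right y z x hy hz hx h1 h2 => rw [mul_add]; exact AddSubgroup.add_mem _ h1 h2
  | neg_left x y hx hy h => rw [neg_mul]; exact AddSubgroup.neg_mem _ h
  | neg_right x y hx hy h => rw [mul_neg]; exact AddSubgroup.neg_mem _ h

theorem closure_form {G : Type*} [Group G] [Fintype G] (p : ℕ) :
    ∀ f ∈ AddSubgroup.closure (gens (G := G) p),
      ∃ (a : Subgroup G → ℤ) (k : ℤ), (∀ H, a H ≠ 0 → QE p H) ∧
        f = ∑ H : Subgroup G, a H • piZ H + k • (fun _ : G => (p : ℤ)) := by
  classical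
  intro f hf
  induction hf using AddSubgroup.closure_induction with
  | mem x hx =>
    rcases hx with ⟨H, hH, rfl⟩ | rfl
    · refine ⟨Pi.single H 1, 0, ?_, ?_⟩
      · intro K hK
        by_cases h : K = H
        · rw [h]; exact hH
        · rw [Pi.single_eq_of_ne h] at hK; exact absurd rfl hK
      · rw [zero_smul, add_zero, Finset.sum_eq_single H]
        · rw [Pi.single_eq_same, one_smul]
        · intro K _ hK
          rw [Pi.single_eq_of_ne hK, zero_smul]
        · intro h; exact absurd (Finset.mem_univ H) h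
    · refine ⟨0, 1, ?_, ?_⟩
      · intro K hK; exact absurd rfl hK
      · simp
  | zero =>
    refine ⟨0, 0, ?_, ?_⟩
    · intro K hK; exact absurd rfl hK
    · simp
  | add x y hx hy h1 h2 =>
    obtain ⟨a, k, ha, rfl⟩ := h1
    obtain ⟨b, l, hb, rfl⟩ := h2
    refine ⟨a + b, k + l, ?_, ?_⟩
    · intro K hK
      by_cases h : a K = 0
      · apply hb
        intro h'
        apply hK
        rw [Pi.add_apply, h, h', add_zero]
      · exact ha K h
    · simp only [Pi.add_apply, add_smul, Finset.sum_add_distrib]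
      abel
  | neg x hx h =>
    obtain ⟨a, k, ha, rfl⟩ := h
    refine ⟨-a, -k, ?_, ?_⟩
    · intro K hK
      apply ha
      intro h'
      apply hK
      rw [Pi.neg_apply, h', neg_zero]
    · simp only [Pi.neg_apply, neg_smul, Finset.sum_neg_distrib]
      abel

/-- Solomon's theorem, local form: for each prime p, some multiple m·1_G with p ∤ m is an integer combination of permutation characters on the cosets of p-quasi-elementary subgroups (subgroups with a cyclic normal p-complement). -/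
theorem result {G : Type*} [Group G] [Fintype G] (p : ℕ) (hp : p.Prime) : ∃ (m : ℤ) (a : Subgroup G → ℤ), ¬ (p : ℤ) ∣ m ∧ (∀ H, a H ≠ 0 → (∃ C : Subgroup G, C ≤ H ∧ H ≤ Subgroup.normalizer (C : Set G) ∧ IsCyclic C ∧ Nat.Coprime (Nat.card C) p ∧ ∃ k : ℕ, C.relIndex H = p ^ k)) ∧ (fun _ : G => (m : ℂ)) = ∑ H : Subgroup G, (a H : ℂ) • Cfsg.indFun H (fun _ => 1) := by
  classical
  have hone : (1 : G → ℤ) ∈ AddSubgroup.closure (gens (G := G) p) := by
    by_contra h1
    obtain ⟨x, q, hq, hall⟩ := Cfsg.Agent.S0869.result (AddSubgroup.closure (gens (G := G) p))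
      (closure_mul p hp) h1
    have hqp : q = p := by
      have h2 := hall (fun _ => (p : ℤ)) (AddSubgroup.subset_closure (Or.inr rfl))
      have h3 : q ∣ p := by exact_mod_cast h2
      exact (Nat.prime_dvd_prime_iff_eq hq hp).1 h3
    subst hqp
    obtain ⟨H, hH, n, hn, hpn⟩ := Cfsg.Agent.S0871.result x q hp
    have h2 := hall (piZ H) (AddSubgroup.subset_closure (Or.inl ⟨H, hH, rfl⟩))
    have h3 : ((piZ H x : ℤ) : ℂ) = ((n : ℤ) : ℂ) := by
      rw [piZ_cast, hn]; push_cast; rfl
    have h4 : piZ H x = (n : ℤ) := by exact_mod_cast h3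
    rw [h4] at h2
    exact hpn (by exact_mod_cast h2)
  obtain ⟨a, k, ha, heq⟩ := closure_form p 1 hone
  refine ⟨1 - k * p, a, ?_, ha, ?_⟩
  · intro hdvd
    have h1 : (p : ℤ) ∣ 1 := by
      have h2 : (p : ℤ) ∣ k * p := Dvd.intro_left k rfl
      have h3 := dvd_add hdvd h2
      rwa [sub_add_cancel] at h3
    have h4 : p ∣ 1 := by exact_mod_cast h1
    exact hp.one_lt.ne' (Nat.dvd_one.1 h4)
  · funext g
    have h1 := congrFun heq g
    rw [Pi.one_apply, Pi.add_apply, Finset.sum_apply] at h1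
    simp only [Pi.smul_apply, smul_eq_mul] at h1
    rw [Finset.sum_apply]
    simp only [Pi.smul_apply, smul_eq_mul]
    have h2 : ((1 - k * p : ℤ) : ℂ) = ((∑ H : Subgroup G, a H * piZ H g : ℤ) : ℂ) := by
      congr 1
      linarith
    rw [h2]
    push_cast
    apply Finset.sum_congr rfl
    intro H _
    rw [piZ_cast]

end Cfsg.Agent.S0872
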