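import Mathlib
import Cfsg.Statements.S0873
import Cfsg.Agent.Lib.Helper8.LinCharAux

set_option autoImplicit false
open Cfsg

namespace Cfsg.Agent.S0873

open Cfsg.Agent.Lib.Helper8

/-- conjugation action of `P` on a fibre of an invariant function on a normal subgroup -/
@[instance_reducible]
def fibAct {G : Type*} [Group G] (C P : Subgroup G) [hC : C.Normal] (lam : C → ℂ)
    (hinv : ∀ (g : G) (c : C), lam ⟨g * c * g⁻¹, hC.conj_mem (c : G) c.2 g⟩ = lam c) (v : ℂ) :
    MulAction P {y : C // lam y = v} where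
  smul u y := ⟨⟨(u : G) * y.1 * (u : G)⁻¹, hC.conj_mem _ y.1.2 u⟩, by rw [hinv]; exact y.2⟩
  one_smul y := by
    apply Subtype.ext
    apply Subtype.ext
    simp [HSMul.hSMul]
  mul_smul u v y := by
    apply Subtype.ext
    apply Subtype.ext
    simp [HSMul.hSMul, mul_assoc]

theorem result {G : Type*} [Group G] [Finite G] (p : ℕ) [Fact p.Prime] (C P : Subgroup G) [hC : C.Normal] (hP : IsPGroup p P) (hcop : Nat.Coprime (Nat.card C) p) (hCP : C ⊔ P = ⊤) (lam : C → ℂ) (hlam : Cfsg.IsCharacter C lam ∧ lam 1 = 1) (hinv : ∀ (g : G) (c : C), lam ⟨g * c * g⁻¹, hC.conj_mem (c : G) c.2 g⟩ = lam c) (hker : ∀ c : C, (c : G) ∈ Subgroup.centralizer (P : Set G) → lam c = 1) : lam = fun _ => 1 := by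
  classical
  have hp : p.Prime := Fact.out
  have hmul := linChar_mul lam hlam.1 hlam.2
  funext c
  let _ := fibAct C P lam hinv (lam c)
  have h1 := hP.card_modEq_card_fixedPoints {y : C // lam y = lam c}
  have hY : Nat.card {y : C // lam y = lam c} = Nat.card (linKer lam hlam.1 hlam.2) := by
    apply Nat.card_congr
    refine
      { toFun := fun y => ⟨c⁻¹ * y.1, ?_⟩
        invFun := fun k => ⟨c * k.1, ?_⟩
        left_inv := fun y => by apply Subtype.ext; simp
        right_inv := fun k => by apply Subtype.ext; simp }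
    · rw [mem_linKer, hmul, y.2, ← hmul, inv_mul_cancel, hlam.2]
    · have := (mem_linKer lam hlam.1 hlam.2 k.1).1 k.2
      rw [hmul, this, mul_one]
  have hnd : ¬ p ∣ Nat.card {y : C // lam y = lam c} := by
    rw [hY]
    intro hdvd
    have h2 : p ∣ Nat.card C := hdvd.trans (Subgroup.card_subgroup_dvd_card _)
    have h3 := Nat.Coprime.eq_one_of_dvd hcop.symm h2
    exact hp.one_lt.ne' h3
  have hne : Nat.card (MulAction.fixedPoints P {y : C // lam y = lam c}) ≠ 0 := by
    intro h0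
    rw [h0] at h1
    exact hnd ((Nat.modEq_zero_iff_dvd).1 h1)
  obtain ⟨⟨y, hy⟩⟩ := (Nat.card_ne_zero.1 hne).1
  rw [← y.2]
  apply hker
  rw [Subgroup.mem_centralizer_iff]
  intro u hu
  have h4 := hy ⟨u, hu⟩
  have h5 : u * (y.1 : G) * u⁻¹ = (y.1 : G) := congrArg (fun z : {y : C // lam y = lam c} => ((z.1 : C) : G)) h4
  exact (mul_inv_eq_iff_eq_mul.1 h5)

end Cfsg.Agent.S0873
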