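import Cfsg.Statements.S0878
import Mathlib

set_option autoImplicit false
open Cfsg

namespace Cfsg.Agent.S0878

/-- Let G be a Zassenhaus group on the finite set Ω, a a point, and let H be the subgroup of the stabilizer of a consisting of the identity and the elements fixing no point other than a (given here as a subgroup of the stabilizer of order one less than the number of points whose non-identity elements fix only a; it is the Frobenius kernel of the stabilizer). Then an element outside the stabilizer of a conjugates no non-identity element of H into H, and the normalizer of H is exactly the stabilizer of a. -/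
theorem result {G Ω : Type*} [Group G] [Finite G] [MulAction G Ω] [Fintype Ω] (hZ : Cfsg.IsZassenhausGroup G Ω) (a : Ω) (H : Subgroup G) (hHa : H ≤ MulAction.stabilizer G a) (hHcard : Nat.card H + 1 = Fintype.card Ω) (hHfix : ∀ u ∈ H, u ≠ 1 → ∀ c : Ω, u • c = c → c = a) : (∀ g : G, g ∉ MulAction.stabilizer G a → ∀ u ∈ H, g * u * g⁻¹ ∈ H → u = 1) ∧ Subgroup.normalizer (H : Set G) = MulAction.stabilizer G a := by
  classical
  obtain ⟨hfaith, h2t, h3, ⟨g0, hg01, a0, b0, hab0, hg0a, hg0b⟩, -⟩ := hZ
  have hHa' : ∀ u ∈ H, u • a = a := fun u hu => hHa hu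
  have hp1 : ∀ g : G, g ∉ MulAction.stabilizer G a → ∀ u ∈ H, g * u * g⁻¹ ∈ H → u = 1 := by
    intro g hg u hu hgu
    by_contra hu1
    have hy1 : g * u * g⁻¹ ≠ 1 := by
      intro e
      apply hu1
      have e2 : u = g⁻¹ * (g * u * g⁻¹) * g := by group
      rw [e2, e]
      group
    have h9 := hHfix _ hgu hy1 (g • a) (by rw [mul_smul, mul_smul, inv_smul_smul, hHa' u hu])
    exact hg h9
  refine ⟨hp1, ?_⟩
  have hcardΩ : 3 ≤ Fintype.card Ω := by
    by_contra hlt
    push Not at hlt
    apply hg01
    have hall : ∀ c : Ω, g0 • c = c := by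
      intro c
      by_contra hc
      have hca : c ≠ a0 := fun e => hc (e ▸ hg0a)
      have hcb : c ≠ b0 := fun e => hc (e ▸ hg0b)
      have h3c : ({a0, b0, c} : Finset Ω).card = 3 := by
        rw [Finset.card_insert_of_notMem, Finset.card_insert_of_notMem, Finset.card_singleton]
        · simpa using Ne.symm hcb
        · simp [hab0, Ne.symm hca]
      have h4 := Finset.card_le_univ ({a0, b0, c} : Finset Ω)
      omega
    exact hfaith.eq_of_smul_eq_smul (fun c => by rw [hall c, one_smul])
  have hHcard' : Nat.card H = Fintype.card Ω - 1 := by omega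
  have hHtr : ∀ b c : Ω, b ≠ a → c ≠ a → ∃ v ∈ H, v • b = c := by
    intro b c hb hc
    have hstab : MulAction.stabilizer H b = ⊥ := by
      rw [eq_bot_iff]
      intro v hv
      rw [Subgroup.mem_bot]
      by_contra hv1
      have h4 : (v : G) • b = b := hv
      exact hb (hHfix v v.2 (fun e => hv1 (Subtype.ext e)) b h4)
    have h1 : (MulAction.orbit H b).ncard = Nat.card H := by
      rw [← MulAction.index_stabilizer, hstab, Subgroup.index_bot]
    have hsub : MulAction.orbit H b ⊆ ({a}ᶜ : Set Ω) := by
      rintro _ ⟨v, rfl⟩ e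
      apply hb
      have e' : (v : G) • b = a := e
      have h4 : (v : G) • b = (v : G) • a := by rw [hHa' v v.2]; exact e'
      exact MulAction.injective (v : G) h4
    have h2 : ({a}ᶜ : Set Ω).ncard = Fintype.card Ω - 1 := by
      rw [Set.ncard_compl, Set.ncard_singleton, Nat.card_eq_fintype_card]
    have heq : MulAction.orbit H b = ({a}ᶜ : Set Ω) :=
      Set.eq_of_subset_of_ncard_le hsub (by rw [h1, h2, hHcard'])
    have hc' : c ∈ MulAction.orbit H b := by
      rw [heq]
      exact hc
    obtain ⟨v, hv⟩ := hc'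
    exact ⟨v, v.2, hv⟩
  have hconj : ∀ g : G, g • a = a → ∀ u ∈ H, g * u * g⁻¹ ∈ H := by
    intro g hg u hu
    by_cases hu1 : u = 1
    · rw [hu1, mul_one, mul_inv_cancel]
      exact H.one_mem
    by_contra hw
    have hginv : g⁻¹ • a = a := by rw [inv_smul_eq_iff, hg]
    have hwa : (g * u * g⁻¹) • a = a := by rw [mul_smul, mul_smul, hginv, hHa' u hu, hg]
    have hwfix : ∀ c, (g * u * g⁻¹) • c = c → c = a := by
      intro c hc
      rw [mul_smul, mul_smul, smul_eq_iff_eq_inv_smul] at hc
      have h4 := hHfix u hu hu1 _ hc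
      rw [inv_smul_eq_iff, hg] at h4
      exact h4
    have hex : ∀ b : {b : Ω // b ≠ a}, ∃ v : H, (v : G) • (b : Ω) = (g * u * g⁻¹) • (b : Ω) := by
      intro b
      have hwb : (g * u * g⁻¹) • (b : Ω) ≠ a := by
        intro e
        apply b.2
        exact MulAction.injective (g * u * g⁻¹) (e.trans hwa.symm)
      obtain ⟨v, hv, hvb⟩ := hHtr b _ b.2 hwb
      exact ⟨⟨v, hv⟩, hvb⟩
    choose f hf using hex
    have hfinj : Function.Injective f := by
      intro b c hbc
      by_contra hne
      have hne' : (b : Ω) ≠ (c : Ω) := fun e => hne (Subtype.ext e)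
      apply hw
      have ht : ((f b : G))⁻¹ * (g * u * g⁻¹) = 1 := by
        apply h3 _ a b c (Ne.symm b.2) hne' (Ne.symm c.2)
        · rw [mul_smul, hwa, inv_smul_eq_iff, hHa' _ (f b).2]
        · rw [mul_smul, ← hf b, inv_smul_smul]
        · rw [mul_smul, hbc, ← hf c, inv_smul_smul]
      rw [inv_mul_eq_one] at ht
      rw [← ht]
      exact (f b).2
    have hcard : Nat.card H ≤ Nat.card {b : Ω // b ≠ a} := by
      rw [hHcard']
      have h4 : Nat.card {b : Ω // b ≠ a} = ({a}ᶜ : Set Ω).ncard :=
        Nat.card_coe_set_eq ({a}ᶜ : Set Ω)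
      rw [h4, Set.ncard_compl, Set.ncard_singleton, Nat.card_eq_fintype_card]
    have hbij := hfinj.bijective_of_nat_card_le hcard
    obtain ⟨b, hb⟩ := hbij.2 1
    have h9 := hf b
    rw [hb, Subgroup.coe_one, one_smul] at h9
    exact b.2 (hwfix _ h9.symm)
  apply le_antisymm
  · intro g hg
    by_contra hga
    have hHbot : ∀ u ∈ H, u = 1 :=
      fun u hu => hp1 g hga u hu ((Subgroup.mem_normalizer_iff.mp hg u).mp hu)
    have hbot : H = ⊥ := (Subgroup.eq_bot_iff_forall H).mpr hHbot
    have h1 : Nat.card H = 1 := by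
      rw [hbot]
      exact Subgroup.card_bot
    omega
  · intro g hg
    have hg' : g • a = a := hg
    rw [Subgroup.mem_normalizer_iff]
    intro u
    constructor
    · exact hconj g hg' u
    · intro hu
      have hginv : g⁻¹ • a = a := by rw [inv_smul_eq_iff, hg']
      have h9 := hconj g⁻¹ hginv _ hu
      have e2 : g⁻¹ * (g * u * g⁻¹) * g⁻¹⁻¹ = u := by group
      rwa [e2] at h9

end Cfsg.Agent.S0878
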