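import Cfsg.Statements.S0879
import Mathlib

set_option autoImplicit false
open Cfsg

namespace Cfsg.Agent.S0879

/-- Let G be a Zassenhaus group on the finite set Ω and E the stabilizer of two distinct points a, b. Then an element outside the normalizer of E conjugates no non-identity element of E into E, and E has index 2 in its normalizer. -/
theorem result {G Ω : Type*} [Group G] [Finite G] [MulAction G Ω] [Fintype Ω] (hZ : Cfsg.IsZassenhausGroup G Ω) {a b : Ω} (hab : a ≠ b) : (∀ g : G, g ∉ Subgroup.normalizer ((MulAction.stabilizer G a ⊓ MulAction.stabilizer G b : Subgroup G) : Set G) → ∀ x ∈ (MulAction.stabilizer G a ⊓ MulAction.stabilizer G b : Subgroup G), g * x * g⁻¹ ∈ (MulAction.stabilizer G a ⊓ MulAction.stabilizer G b : Subgroup G) → x = 1) ∧ ((MulAction.stabilizer G a ⊓ MulAction.stabilizer G b : Subgroup G).subgroupOf (Subgroup.normalizer ((MulAction.stabilizer G a ⊓ MulAction.stabilizer G b : Subgroup G) : Set G))).index = 2 := by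
  classical
  obtain ⟨hfaith, h2t, h3, ⟨g0, hg01, a0, b0, hab0, hg0a, hg0b⟩, -⟩ := hZ
  have h2t' : ∀ a b c d : Ω, a ≠ b → c ≠ d → ∃ g : G, g • a = c ∧ g • b = d :=
    fun a b c d h h' => MulAction.is_two_pretransitive_iff.mp h2t h h'
  obtain ⟨E, hE⟩ : ∃ E : Subgroup G, E = MulAction.stabilizer G a ⊓ MulAction.stabilizer G b :=
    ⟨_, rfl⟩
  rw [← hE]
  have hEmem : ∀ x : G, x ∈ E ↔ x • a = a ∧ x • b = b := by
    intro x
    rw [hE]
    exact Iff.rfl
  obtain ⟨e0, he0E, he01⟩ : ∃ e ∈ E, e ≠ 1 := by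
    obtain ⟨t, hta, htb⟩ := h2t' _ _ _ _ hab0 hab
    refine ⟨t * g0 * t⁻¹, ?_, ?_⟩
    · rw [hEmem]
      constructor
      · rw [mul_smul, mul_smul, ← hta, inv_smul_smul, hg0a]
      · rw [mul_smul, mul_smul, ← htb, inv_smul_smul, hg0b]
    · intro e
      apply hg01
      have e2 : g0 = t⁻¹ * (t * g0 * t⁻¹) * t := by group
      rw [e2, e]
      group
  have key : ∀ g x : G, x ∈ E → x ≠ 1 → g * x * g⁻¹ ∈ E →
      (g • a = a ∧ g • b = b) ∨ (g • a = b ∧ g • b = a) := by
    intro g x hx hx1 hgx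
    rw [hEmem] at hx hgx
    have hy1 : g * x * g⁻¹ ≠ 1 := by
      intro e
      apply hx1
      have e2 : x = g⁻¹ * (g * x * g⁻¹) * g := by group
      rw [e2, e]
      group
    have hya : (g * x * g⁻¹) • (g • a) = g • a := by
      rw [mul_smul, mul_smul, inv_smul_smul, hx.1]
    have hyb : (g * x * g⁻¹) • (g • b) = g • b := by
      rw [mul_smul, mul_smul, inv_smul_smul, hx.2]
    have hgab : g • a ≠ g • b := fun e => hab (MulAction.injective g e)
    have hga : g • a = a ∨ g • a = b := by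
      by_contra hcon
      push Not at hcon
      exact hy1 (h3 _ a b (g • a) hab (Ne.symm hcon.2) (Ne.symm hcon.1) hgx.1 hgx.2 hya)
    have hgb : g • b = a ∨ g • b = b := by
      by_contra hcon
      push Not at hcon
      exact hy1 (h3 _ a b (g • b) hab (Ne.symm hcon.2) (Ne.symm hcon.1) hgx.1 hgx.2 hyb)
    rcases hga with h | h <;> rcases hgb with h' | h'
    · exact absurd (h.trans h'.symm) hgab
    · left
      exact ⟨h, h'⟩
    · right
      exact ⟨h, h'⟩
    · exact absurd (h.trans h'.symm) hgab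
  have hconj : ∀ g : G, ((g • a = a ∧ g • b = b) ∨ (g • a = b ∧ g • b = a)) →
      ∀ x ∈ E, g * x * g⁻¹ ∈ E := by
    intro g hg x hx
    rw [hEmem] at hx ⊢
    rcases hg with ⟨h1, h2⟩ | ⟨h1, h2⟩
    · have h1' : g⁻¹ • a = a := by rw [inv_smul_eq_iff, h1]
      have h2' : g⁻¹ • b = b := by rw [inv_smul_eq_iff, h2]
      constructor
      · rw [mul_smul, mul_smul, h1', hx.1, h1]
      · rw [mul_smul, mul_smul, h2', hx.2, h2]
    · have h1' : g⁻¹ • a = b := by rw [inv_smul_eq_iff, h2]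
      have h2' : g⁻¹ • b = a := by rw [inv_smul_eq_iff, h1]
      constructor
      · rw [mul_smul, mul_smul, h1', hx.2, h2]
      · rw [mul_smul, mul_smul, h2', hx.1, h1]
  have hinv : ∀ g : G, ((g • a = a ∧ g • b = b) ∨ (g • a = b ∧ g • b = a)) →
      ((g⁻¹ • a = a ∧ g⁻¹ • b = b) ∨ (g⁻¹ • a = b ∧ g⁻¹ • b = a)) := by
    intro g hg
    rcases hg with ⟨h1, h2⟩ | ⟨h1, h2⟩
    · left
      exact ⟨by rw [inv_smul_eq_iff, h1], by rw [inv_smul_eq_iff, h2]⟩
    · right
      exact ⟨by rw [inv_smul_eq_iff, h2], by rw [inv_smul_eq_iff, h1]⟩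
  have hnorm : ∀ g : G, ((g • a = a ∧ g • b = b) ∨ (g • a = b ∧ g • b = a)) →
      g ∈ Subgroup.normalizer (E : Set G) := by
    intro g hg
    rw [Subgroup.mem_normalizer_iff]
    intro x
    constructor
    · exact hconj g hg x
    · intro hx
      have h9 := hconj g⁻¹ (hinv g hg) _ hx
      have e2 : g⁻¹ * (g * x * g⁻¹) * g⁻¹⁻¹ = x := by group
      rwa [e2] at h9
  have hnorm' : ∀ g : G, g ∈ Subgroup.normalizer (E : Set G) →
      ((g • a = a ∧ g • b = b) ∨ (g • a = b ∧ g • b = a)) := by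
    intro g hg
    exact key g e0 he0E he01 ((Subgroup.mem_normalizer_iff.mp hg e0).mp he0E)
  refine ⟨?_, ?_⟩
  · intro g hg x hx hgx
    by_contra hx1
    exact hg (hnorm g (key g x hx hx1 hgx))
  · rw [Subgroup.index_eq_two_iff]
    obtain ⟨t, hta, htb⟩ := h2t' _ _ _ _ hab (Ne.symm hab)
    refine ⟨⟨t, hnorm t (Or.inr ⟨hta, htb⟩)⟩, fun n => ?_⟩
    rw [Subgroup.mem_subgroupOf, Subgroup.mem_subgroupOf, hEmem, hEmem]
    show Xor (((n : G) * t) • a = a ∧ ((n : G) * t) • b = b) ((n : G) • a = a ∧ (n : G) • b = b)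
    rw [mul_smul, mul_smul, hta, htb]
    rcases hnorm' n n.2 with ⟨h1, h2⟩ | ⟨h1, h2⟩
    · right
      refine ⟨⟨h1, h2⟩, ?_⟩
      rintro ⟨h9, -⟩
      exact hab (h9.symm.trans h2)
    · left
      refine ⟨⟨h2, h1⟩, ?_⟩
      rintro ⟨h9, -⟩
      exact hab (h9.symm.trans h1)

end Cfsg.Agent.S0879
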