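import Mathlib
import Cfsg.Statements.S0893
import Cfsg.Agent.S0148
import Cfsg.Agent.Lib.Helper2.CharDecomp
import Cfsg.Agent.Lib.Helper8.LinCharAux
import Cfsg.Agent.Lib.Helper8.IndAux
import Cfsg.Agent.Lib.Helper8.ActionAux
import Cfsg.Agent.Lib.Helper8.Extraspecial

set_option autoImplicit false
open Cfsg

namespace Cfsg.Agent.S0893

open Cfsg.Agent.Lib.Helper2 Cfsg.Agent.Lib.Helper8
open scoped ComplexConjugate

/-- In an extraspecial p-group of order p^(2n+1), inducing a linear character of an abelian subgroup of order p^(n+1) that is nontrivial on the centre gives an irreducible character (of degree p^n) vanishing outside the centre. -/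
theorem result {P : Type*} [Group P] [Fintype P] (p n : ℕ) [Fact p.Prime] (hP : Cfsg.IsExtraspecial p P) (hcard : Nat.card P = p ^ (2 * n + 1)) (A : Subgroup P) (hab : ∀ a ∈ A, ∀ b ∈ A, a * b = b * a) (hA : Nat.card A = p ^ (n + 1)) (lam : A → ℂ) (hlam : Cfsg.IsCharacter A lam ∧ lam 1 = 1) (hZ : ∃ a : A, (a : P) ∈ Subgroup.center P ∧ lam a ≠ 1) : Cfsg.IsIrrCharacter P (Cfsg.indFun A lam) ∧ ∀ x : P, x ∉ Subgroup.center P → Cfsg.indFun A lam x = 0 := by
  classical
  obtain ⟨hlamc, hlam1⟩ := hlam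
  obtain ⟨a, haZ, hla⟩ := hZ
  have hp := (Fact.out : p.Prime)
  have hZcard : Nat.card (Subgroup.center P) = p := hP.2
  have hmul := linChar_mul lam hlamc hlam1
  have hpow : ∀ (b : A) (k : ℕ), lam (b ^ k) = lam b ^ k := by
    intro b k
    induction k with
    | zero => rw [pow_zero, pow_zero, hlam1]
    | succ k ih => rw [pow_succ, pow_succ, hmul, ih]
  have ha1 : (a : P) ≠ 1 := by
    intro h
    apply hla
    have : a = 1 := Subtype.ext h
    rw [this, hlam1]
  have hZA : Subgroup.center P ≤ A := by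
    intro z hz
    obtain ⟨k, hk⟩ := gen_of_prime_card _ p hp hZcard (a : P) haZ ha1 z hz
    rw [hk]
    exact A.pow_mem a.2 k
  -- nontrivial central elements are not in the kernel of lam
  have hlamZ : ∀ z : A, (z : P) ∈ Subgroup.center P → (z : P) ≠ 1 → lam z ≠ 1 := by
    intro z hz hz1 h
    obtain ⟨k, hk⟩ := gen_of_prime_card _ p hp hZcard (z : P) hz hz1 (a : P) haZ
    apply hla
    have : a = z ^ k := Subtype.ext (by rw [hk]; rfl)
    rw [this, hpow, h, one_pow]
  -- vanishing off the centre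
  have hvan : ∀ x : P, x ∉ Subgroup.center P → Cfsg.indFun A lam x = 0 := by
    intro x hx
    obtain ⟨w, z, hz, hz1, hwz⟩ := exists_conj_mul_center p hP x hx
    have hzA : z ∈ A := hZA hz
    have hS : ∑ y : P, Cfsg.extendByZero A lam (y⁻¹ * x * y)
        = (∑ y : P, Cfsg.extendByZero A lam (y⁻¹ * x * y)) * lam ⟨z, hzA⟩ := by
      rw [Finset.sum_mul]
      refine (Fintype.sum_equiv (Equiv.mulLeft w) _ _ ?_).symm
      intro y
      have e1 : (Equiv.mulLeft w y)⁻¹ * x * (Equiv.mulLeft w y) = (y⁻¹ * x * y) * z := by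
        rw [Equiv.coe_mulLeft]
        have : (w * y)⁻¹ * x * (w * y) = y⁻¹ * (w⁻¹ * x * w) * y := by group
        rw [this, hwz]
        have hzc := Subgroup.mem_center_iff.1 hz y
        rw [mul_assoc y⁻¹, mul_assoc x, ← hzc, ← mul_assoc, ← mul_assoc]
      rw [e1]
      by_cases hg : y⁻¹ * x * y ∈ A
      · rw [extendByZero_mem A lam _ hg, extendByZero_mem A lam _ (A.mul_mem hg hzA), ← hmul]
        rfl
      · rw [extendByZero_not_mem A lam _ hg, zero_mul]
        symm
        apply extendByZero_not_mem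
        intro h
        apply hg
        have := A.mul_mem h (A.inv_mem hzA)
        rwa [mul_inv_cancel_right] at this
    have hne : lam ⟨z, hzA⟩ ≠ 1 := hlamZ ⟨z, hzA⟩ hz hz1
    have hS0 : ∑ y : P, Cfsg.extendByZero A lam (y⁻¹ * x * y) = 0 := by
      have h3 : (∑ y : P, Cfsg.extendByZero A lam (y⁻¹ * x * y)) * (1 - lam ⟨z, hzA⟩) = 0 := by
        rw [mul_sub, mul_one, ← hS, sub_self]
      rcases mul_eq_zero.1 h3 with h | h
      · exact h
      · exact absurd (sub_eq_zero.1 h).symm hne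
    unfold Cfsg.indFun
    rw [hS0, mul_zero]
  -- values on the centre
  have hcardA : (Nat.card A : ℂ) = (p : ℂ) ^ (n + 1) := by rw [hA]; push_cast; rfl
  have hcardP : (Nat.card P : ℂ) = (p : ℂ) ^ (2 * n + 1) := by rw [hcard]; push_cast; rfl
  have hp0 : (p : ℂ) ≠ 0 := by exact_mod_cast hp.ne_zero
  have hval : ∀ (z : P) (hz : z ∈ Subgroup.center P),
      Cfsg.indFun A lam z = (p : ℂ) ^ n * lam ⟨z, hZA hz⟩ := by
    intro z hz
    unfold Cfsg.indFun
    have h1 : ∀ y : P, Cfsg.extendByZero A lam (y⁻¹ * z * y) = lam ⟨z, hZA hz⟩ := by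
      intro y
      have hzc := Subgroup.mem_center_iff.1 hz y
      have : y⁻¹ * z * y = z := by rw [mul_assoc, ← hzc, ← mul_assoc, inv_mul_cancel, one_mul]
      rw [this, extendByZero_mem A lam _ (hZA hz)]
    simp only [h1]
    rw [Finset.sum_const, Finset.card_univ, nsmul_eq_mul, ← Nat.card_eq_fintype_card, hcardA,
      hcardP, ← mul_assoc]
    congr 1
    rw [show 2 * n + 1 = n + (n + 1) by ring, pow_add (p : ℂ) n (n + 1)]
    field_simp
  have hnorm : ∀ b : A, lam b * conj (lam b) = 1 := by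
    intro b
    have h1 : lam b ^ orderOf b = 1 := by rw [← hpow, pow_orderOf_eq_one, hlam1]
    have h2 : ‖lam b‖ = 1 := norm_eq_one_of_pow_eq_one (orderOf_pos b) h1
    rw [Complex.mul_conj, Complex.normSq_eq_norm_sq, h2]
    norm_num
  refine ⟨?_, hvan⟩
  apply isIrrCharacter_of_norm_one (Cfsg.Agent.S0148.result A lam hlamc)
  rw [classInner_def]
  have h1 : ∀ g : P, Cfsg.indFun A lam g * conj (Cfsg.indFun A lam g)
      = if g ∈ Subgroup.center P then (p : ℂ) ^ (2 * n) else 0 := by
    intro g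
    split_ifs with hg
    · rw [hval g hg, map_mul, map_pow, Complex.conj_natCast]
      rw [mul_mul_mul_comm, hnorm, mul_one, ← pow_add, two_mul]
    · rw [hvan g hg, zero_mul]
  simp only [h1]
  rw [sum_ite_mem_subgroup, hZcard, hcardP, pow_succ]
  field_simp

end Cfsg.Agent.S0893
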