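import Mathlib
import Cfsg.Statements.S0894
import Cfsg.Agent.S0895
import Cfsg.Agent.Lib.Helper2.CharOrtho
import Cfsg.Agent.Lib.Helper2.CharLinear
import Cfsg.Agent.Lib.Helper25.Central
import Cfsg.Agent.Lib.Helper8.Extraspecial
import Cfsg.Agent.Lib.Helper8.ActionAux

set_option autoImplicit false
open Cfsg

namespace Cfsg.Agent.S0894

open Cfsg.Agent.Lib.Helper2 Cfsg.Agent.Lib.Helper8 Cfsg.Agent.Lib.Helper25
open scoped ComplexConjugate

/-- if all operators are scalars, an irreducible representation is one-dimensional -/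
theorem finrank_one_of_scalar {G V : Type*} [Group G] [AddCommGroup V] [Module ℂ V]
    [FiniteDimensional ℂ V] (ρ : Representation ℂ G V) (hρ : ρ.IsIrreducible)
    (h : ∀ g, ∃ a : ℂ, ρ g = a • 1) : Module.finrank ℂ V = 1 := by
  have := hρ
  have hnt := irr_nontrivial ρ
  obtain ⟨v, hv⟩ := exists_ne (0 : V)
  have hU : ∀ g : G, ∀ u ∈ Submodule.span ℂ {v}, ρ g u ∈ Submodule.span ℂ {v} := by
    intro g u hu
    obtain ⟨a, ha⟩ := h g
    rw [ha]
    simp only [LinearMap.smul_apply, Module.End.one_apply]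
    exact Submodule.smul_mem _ a hu
  rcases Cfsg.Agent.S0895.invariant_bot_or_top ρ hρ _ hU with hb | ht
  · exfalso
    have : v ∈ Submodule.span ℂ {v} := Submodule.mem_span_singleton_self v
    rw [hb] at this
    exact hv ((Submodule.mem_bot ℂ).1 this)
  · have := finrank_span_singleton (K := ℂ) hv
    rw [ht, finrank_top] at this
    exact this

theorem orderOf_of_prime_card {G : Type*} [Group G] (Z : Subgroup G) (p : ℕ) (hp : p.Prime)
    (hZ : Nat.card Z = p) (z : G) (hz : z ∈ Z) (hz1 : z ≠ 1) : orderOf z = p := by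
  have hdvd : orderOf z ∣ p := by
    rw [← hZ]
    have := orderOf_dvd_natCard (⟨z, hz⟩ : Z)
    rwa [Subgroup.orderOf_mk] at this
  rcases (Nat.dvd_prime hp).1 hdvd with h | h
  · exact absurd (orderOf_eq_one_iff.1 h) hz1
  · exact h

theorem nonlinear_facts {P : Type*} [Group P] [Fintype P] (p n : ℕ) (hp : p.Prime)
    (hP : Cfsg.IsExtraspecial p P) (hcard : Nat.card P = p ^ (2 * n + 1))
    (χ : P → ℂ) (hχ : Cfsg.IsIrrCharacter P χ) (h1 : χ 1 ≠ 1) :
    χ 1 = (p : ℂ) ^ n ∧ ∀ z₀ ∈ Subgroup.center P, z₀ ≠ 1 →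
      ∑ k ∈ Finset.range p, χ (z₀ ^ k) = 0 := by
  classical
  have hinner := classInner_irr_self hχ
  obtain ⟨m, ρ, hρ, rfl⟩ := hχ
  have := hρ
  have hnt : Nontrivial (Fin m → ℂ) := irr_nontrivial ρ
  have hZcard : Nat.card (Subgroup.center P) = p := hP.2
  have hcomm : commutator P = Subgroup.center P := hP.1.2.2
  have hm : ρ.character 1 = m := by rw [Representation.char_one]; simp
  -- Step 1
  have hstep1 : ∀ z ∈ Subgroup.center P, z ≠ 1 → ρ z ≠ 1 := by
    intro z hz hz1 hρz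
    apply h1
    have hcen : ∀ c ∈ Subgroup.center P, ρ c = 1 := by
      intro c hc
      obtain ⟨k, hk⟩ := gen_of_prime_card _ p hp hZcard z hz hz1 c hc
      rw [hk, map_pow, hρz, one_pow]
    have hcomm2 : ∀ g h : P, ρ g * ρ h = ρ h * ρ g := by
      intro g h
      have hmem : g⁻¹ * h⁻¹ * g * h ∈ Subgroup.center P := by
        rw [← hcomm, commutator_def]
        have := Subgroup.commutator_mem_commutator (Subgroup.mem_top g⁻¹) (Subgroup.mem_top h⁻¹)
        rw [commutatorElement_def, inv_inv, inv_inv] at this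
        exact this
      have h2 := hcen _ hmem
      have e : g * h = h * g * (g⁻¹ * h⁻¹ * g * h) := by group
      rw [← map_mul, e, map_mul, h2, mul_one, map_mul]
    have hsc : ∀ g : P, ∃ a : ℂ, ρ g = a • 1 := fun g =>
      schur_scalar ρ hρ (ρ g) (fun h => hcomm2 g h)
    have hfr := finrank_one_of_scalar ρ hρ hsc
    rw [hm]
    simp only [Module.finrank_fintype_fun_eq_card, Fintype.card_fin] at hfr
    rw [hfr]; norm_num
  have hscal : ∀ z ∈ Subgroup.center P, ∃ ω : ℂ, ρ z = ω • 1 :=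
    fun z hz => central_scalar ρ hρ z hz
  -- Step 2
  have hvan : ∀ x : P, x ∉ Subgroup.center P → ρ.character x = 0 := by
    intro x hx
    obtain ⟨w, z, hz, hz1, hwz⟩ := exists_conj_mul_center p hP x hx
    obtain ⟨ω, hω⟩ := hscal z hz
    have hω1 : ω ≠ 1 := by
      intro h; apply hstep1 z hz hz1; rw [hω, h, one_smul]
    have e1 : ρ.character (w⁻¹ * x * w) = ρ.character x := by
      have := ρ.char_conj x w⁻¹
      rwa [inv_inv] at this
    rw [hwz, char_mul_scalar ρ hω] at e1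
    have h3 : ρ.character x * (ω - 1) = 0 := by rw [mul_sub, mul_one, e1, sub_self]
    rcases mul_eq_zero.1 h3 with h | h
    · exact h
    · exact absurd (sub_eq_zero.1 h) hω1
  -- Step 3
  have hcen : ∀ z ∈ Subgroup.center P,
      ρ.character z * conj (ρ.character z) = (m : ℂ) * m := by
    intro z hz
    obtain ⟨ω, hω⟩ := hscal z hz
    have hn := scalar_norm ρ hω
    have e : ρ.character z = ω * m := by
      have := char_scalar_mul ρ hω 1
      rw [mul_one, hm] at this
      exact this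
    rw [e, map_mul, Complex.conj_natCast, mul_mul_mul_comm, Complex.mul_conj,
      Complex.normSq_eq_norm_sq, hn]
    norm_num
  -- Step 4
  have hm2 : m = p ^ n := by
    rw [classInner_def] at hinner
    have h1' : ∀ g : P, ρ.character g * conj (ρ.character g)
        = if g ∈ Subgroup.center P then (m : ℂ) * m else 0 := by
      intro g
      split_ifs with hg
      · exact hcen g hg
      · rw [hvan g hg, zero_mul]
    simp only [h1'] at hinner
    rw [sum_ite_mem_subgroup, hZcard, hcard] at hinner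
    have hp0 : (p : ℂ) ≠ 0 := by exact_mod_cast hp.ne_zero
    have h5 : (p : ℂ) * ((m : ℂ) * m) = (p : ℂ) ^ (2 * n + 1) := by
      push_cast at hinner
      have hpp : (p : ℂ) ^ (2 * n + 1) ≠ 0 := pow_ne_zero _ hp0
      rw [inv_mul_eq_iff_eq_mul₀ hpp, mul_one] at hinner
      exact hinner
    have h6 : ((m * m : ℕ) : ℂ) = ((p ^ n * p ^ n : ℕ) : ℂ) := by
      push_cast
      have : (p : ℂ) * ((m : ℂ) * m) = (p : ℂ) * ((p : ℂ) ^ n * (p : ℂ) ^ n) := by
        rw [h5]; ring
      exact mul_left_cancel₀ hp0 this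
    have h7 : m * m = p ^ n * p ^ n := by exact_mod_cast h6
    exact Nat.mul_self_inj.1 h7
  refine ⟨by rw [hm, hm2]; push_cast; rfl, ?_⟩
  -- Step 5
  intro z₀ hz₀ hz₀1
  obtain ⟨ω, hω⟩ := hscal z₀ hz₀
  have hω1 : ω ≠ 1 := by
    intro h; apply hstep1 z₀ hz₀ hz₀1; rw [hω, h, one_smul]
  have hord : orderOf z₀ = p := orderOf_of_prime_card _ p hp hZcard z₀ hz₀ hz₀1
  have hωp : ω ^ p = 1 := by rw [← hord]; exact scalar_pow_orderOf ρ hω
  have hk : ∀ k : ℕ, ρ.character (z₀ ^ k) = ω ^ k * m := by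
    intro k
    have hωk : ρ (z₀ ^ k) = (ω ^ k) • 1 := by rw [map_pow, hω, smul_pow, one_pow]
    have := char_scalar_mul ρ hωk 1
    rw [mul_one, hm] at this
    exact this
  simp only [hk]
  rw [← Finset.sum_mul, geom_sum_eq hω1, hωp, sub_self, zero_div, zero_mul]

/-- An extraspecial p-group of order p^(2n+1) has exactly p − 1 irreducible characters of degree p^n, and every irreducible character has degree 1 or p^n. -/
theorem result {P : Type*} [Group P] [Finite P] (p n : ℕ) [Fact p.Prime] (hP : Cfsg.IsExtraspecial p P) (hcard : Nat.card P = p ^ (2 * n + 1)) : (∀ χ : Cfsg.IrrCharacter P, (χ : P → ℂ) 1 = 1 ∨ (χ : P → ℂ) 1 = (p : ℂ) ^ n) ∧ Nat.card {χ : Cfsg.IrrCharacter P // (χ : P → ℂ) 1 = (p : ℂ) ^ n} = p - 1 := by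
  classical
  have := Fintype.ofFinite P
  have hp := (Fact.out : p.Prime)
  have := Fintype.ofFinite (Cfsg.IrrCharacter P)
  have hZcard : Nat.card (Subgroup.center P) = p := hP.2
  have hcomm : commutator P = Subgroup.center P := hP.1.2.2
  obtain ⟨z₀, hz₀, hz₀1⟩ : ∃ z₀ ∈ Subgroup.center P, z₀ ≠ 1 := by
    have : Nontrivial (Subgroup.center P) := by
      rw [← Finite.one_lt_card_iff_nontrivial, hZcard]; exact hp.one_lt
    obtain ⟨⟨z, hz⟩, hne⟩ := exists_ne (1 : Subgroup.center P)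
    exact ⟨z, hz, fun h => hne (Subtype.ext h)⟩
  have hord : orderOf z₀ = p := orderOf_of_prime_card _ p hp hZcard z₀ hz₀ hz₀1
  have hdeg : ∀ χ : Cfsg.IrrCharacter P,
      (χ : P → ℂ) 1 = 1 ∨ (χ : P → ℂ) 1 = (p : ℂ) ^ n := by
    intro χ
    by_cases h : (χ : P → ℂ) 1 = 1
    · left; exact h
    · right; exact (nonlinear_facts p n hp hP hcard χ.1 χ.2 h).1
  have hlin : ∀ χ : Cfsg.IrrCharacter P, (χ : P → ℂ) 1 = 1 →
      ∀ z ∈ Subgroup.center P, (χ : P → ℂ) z = 1 := by
    intro χ h z hz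
    obtain ⟨lam, hl⟩ := hom_of_irr_deg_one χ.2 h
    rw [hl]
    have : z ∈ lam.ker := Abelianization.commutator_subset_ker lam (by rw [hcomm]; exact hz)
    rw [MonoidHom.mem_ker] at this
    simp [this]
  have hcol1 : colFun (1 : P) 1 = (Nat.card P : ℂ) := by
    unfold colFun; simp [Nat.card_eq_fintype_card]
  have hp0 : (p : ℂ) ≠ 0 := by exact_mod_cast hp.ne_zero
  have hcardP : (Nat.card P : ℂ) = (p : ℂ) ^ (2 * n + 1) := by rw [hcard]; push_cast; rfl
  -- Equation A
  have hA : ((Finset.univ.filter (fun χ : Cfsg.IrrCharacter P => (χ : P → ℂ) 1 = 1)).card : ℂ)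
      + ((Finset.univ.filter (fun χ : Cfsg.IrrCharacter P => ¬ (χ : P → ℂ) 1 = 1)).card : ℂ)
        * (p : ℂ) ^ (2 * n) = (p : ℂ) ^ (2 * n + 1) := by
    have h := column_orthogonality (G := P) 1 1
    rw [hcol1, hcardP] at h
    rw [← h]
    have h2 : ∀ χ : Cfsg.IrrCharacter P, (χ : P → ℂ) 1 * conj ((χ : P → ℂ) 1)
        = if (χ : P → ℂ) 1 = 1 then 1 else (p : ℂ) ^ (2 * n) := by
      intro χ
      split_ifs with h1
      · rw [h1, map_one, mul_one]
      · rw [(nonlinear_facts p n hp hP hcard χ.1 χ.2 h1).1, map_pow, Complex.conj_natCast,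
          ← pow_add, two_mul]
    simp only [h2]
    rw [Finset.sum_ite, Finset.sum_const, Finset.sum_const, nsmul_eq_mul, nsmul_eq_mul, mul_one]
  -- Equation B
  have hB : ((Finset.univ.filter (fun χ : Cfsg.IrrCharacter P => (χ : P → ℂ) 1 = 1)).card : ℂ)
      * (p : ℂ) = (p : ℂ) ^ (2 * n + 1) := by
    have hk : ∀ k ∈ Finset.range p,
        ∑ χ : Cfsg.IrrCharacter P, (χ : P → ℂ) (z₀ ^ k) * conj ((χ : P → ℂ) 1)
          = if k = 0 then (Nat.card P : ℂ) else 0 := by
      intro k hk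
      rw [column_orthogonality]
      split_ifs with h0
      · rw [h0, pow_zero, hcol1]
      · apply colFun_of_not_isConj
        intro hc
        have h1 : z₀ ^ k = 1 := isConj_one_left.1 hc
        have h2 := orderOf_dvd_of_pow_eq_one h1
        rw [hord] at h2
        exact h0 (Nat.eq_zero_of_dvd_of_lt h2 (Finset.mem_range.1 hk))
    have hsum := Finset.sum_congr rfl hk
    rw [Finset.sum_ite_eq' (Finset.range p) 0, if_pos (Finset.mem_range.2 hp.pos),
      Finset.sum_comm, hcardP] at hsum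
    rw [← hsum]
    have h2 : ∀ χ : Cfsg.IrrCharacter P,
        ∑ k ∈ Finset.range p, (χ : P → ℂ) (z₀ ^ k) * conj ((χ : P → ℂ) 1)
        = if (χ : P → ℂ) 1 = 1 then (p : ℂ) else 0 := by
      intro χ
      split_ifs with h1
      · rw [h1, map_one]
        have : ∀ k ∈ Finset.range p, (χ : P → ℂ) (z₀ ^ k) * 1 = 1 := by
          intro k _
          rw [mul_one]
          exact hlin χ h1 _ (Subgroup.pow_mem _ hz₀ k)
        rw [Finset.sum_congr rfl this, Finset.sum_const, Finset.card_range, nsmul_eq_mul, mul_one]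
      · rw [← Finset.sum_mul, (nonlinear_facts p n hp hP hcard χ.1 χ.2 h1).2 z₀ hz₀ hz₀1,
          zero_mul]
    simp only [h2]
    rw [Finset.sum_ite, Finset.sum_const, Finset.sum_const_zero, add_zero, nsmul_eq_mul]
  have hpn : (p : ℂ) ^ (2 * n) ≠ 0 := pow_ne_zero _ hp0
  have hL : ((Finset.univ.filter (fun χ : Cfsg.IrrCharacter P => (χ : P → ℂ) 1 = 1)).card : ℂ)
      = (p : ℂ) ^ (2 * n) := by
    have : ((Finset.univ.filter (fun χ : Cfsg.IrrCharacter P => (χ : P → ℂ) 1 = 1)).card : ℂ)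
        * (p : ℂ) = (p : ℂ) ^ (2 * n) * (p : ℂ) := by rw [hB, pow_succ]
    exact mul_right_cancel₀ hp0 this
  have hN : ((Finset.univ.filter (fun χ : Cfsg.IrrCharacter P => ¬ (χ : P → ℂ) 1 = 1)).card : ℂ)
      + 1 = (p : ℂ) := by
    rw [hL] at hA
    have : (((Finset.univ.filter (fun χ : Cfsg.IrrCharacter P => ¬ (χ : P → ℂ) 1 = 1)).card : ℂ)
        + 1) * (p : ℂ) ^ (2 * n) = (p : ℂ) * (p : ℂ) ^ (2 * n) := by
      rw [add_mul, one_mul, add_comm, hA, pow_succ, mul_comm]
    exact mul_right_cancel₀ hpn this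
  have hN' : (Finset.univ.filter (fun χ : Cfsg.IrrCharacter P => ¬ (χ : P → ℂ) 1 = 1)).card + 1
      = p := by exact_mod_cast hN
  -- n ≠ 0
  have hn : n ≠ 0 := by
    rintro rfl
    have hall : ∀ χ : Cfsg.IrrCharacter P, (χ : P → ℂ) 1 = 1 := by
      intro χ
      rcases hdeg χ with h | h
      · exact h
      · rw [h, pow_zero]
    have h0 : (Finset.univ.filter (fun χ : Cfsg.IrrCharacter P => ¬ (χ : P → ℂ) 1 = 1)).card
        = 0 := by
      rw [Finset.card_eq_zero, Finset.filter_eq_empty_iff]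
      intro χ _ h; exact h (hall χ)
    rw [h0] at hN'
    exact hp.one_lt.ne' hN'.symm
  have hpn1 : (p : ℂ) ^ n ≠ 1 := by
    have h1 : 1 < p ^ n := Nat.one_lt_pow hn hp.one_lt
    intro h
    have h2 : ((p ^ n : ℕ) : ℂ) = ((1 : ℕ) : ℂ) := by push_cast; exact h
    have h3 : p ^ n = 1 := by exact_mod_cast h2
    omega
  refine ⟨hdeg, ?_⟩
  rw [Nat.card_eq_fintype_card, Fintype.card_subtype]
  have hfilt : Finset.univ.filter (fun χ : Cfsg.IrrCharacter P => (χ : P → ℂ) 1 = (p : ℂ) ^ n)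
      = Finset.univ.filter (fun χ : Cfsg.IrrCharacter P => ¬ (χ : P → ℂ) 1 = 1) := by
    apply Finset.filter_congr
    intro χ _
    constructor
    · intro h h1; rw [h1] at h; exact hpn1 h.symm
    · intro h
      rcases hdeg χ with h1 | h1
      · exact absurd h1 h
      · exact h1
  rw [hfilt]
  omega

end Cfsg.Agent.S0894
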