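import Mathlib
import Cfsg.Statements.S0900
import Cfsg.Agent.S0174
import Cfsg.Agent.S0193
import Cfsg.Agent.Lib.Helper2.CharDecomp
import Cfsg.Agent.Lib.Helper2.IndFun

set_option autoImplicit false
open Cfsg

namespace Cfsg.Agent.S0900

open Cfsg.Agent.Lib.Helper2
open scoped ComplexConjugate

/-- splitting the norm of a character along a subgroup -/
theorem norm_split {G : Type*} [Group G] [Fintype G] (N : Subgroup G) [Fintype N]
    [DecidablePred (· ∈ N)] (χ : G → ℂ) :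
    (Nat.card G : ℂ) * Cfsg.classInner χ χ
      = (Nat.card N : ℂ) * Cfsg.classInner (fun n : N => χ n) (fun n : N => χ n)
        + ∑ g ∈ Finset.univ.filter (fun g : G => g ∉ N), χ g * conj (χ g) := by
  rw [classInner_def, classInner_def, ← mul_assoc, ← mul_assoc,
    mul_inv_cancel₀ (card_ne_zero_complex G), mul_inv_cancel₀ (card_ne_zero_complex N), one_mul,
    one_mul, ← Finset.sum_filter_add_sum_filter_not Finset.univ (fun g : G => g ∈ N)]
  congr 1
  rw [← Finset.sum_subtype (Finset.univ.filter (fun g : G => g ∈ N))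
    (fun x => by simp) (fun g => χ g * conj (χ g))]

theorem vanish_iff {G : Type*} [Group G] [Fintype G] (N : Subgroup G) [Fintype N]
    (χ : G → ℂ) (hχ : Cfsg.classInner χ χ = 1) :
    (∀ g : G, g ∉ N → χ g = 0)
      ↔ Cfsg.classInner (fun n : N => χ n) (fun n : N => χ n) = (N.index : ℂ) := by
  classical
  have h1 := norm_split N χ
  rw [hχ, mul_one] at h1
  have hcard : (Nat.card G : ℂ) = (Nat.card N : ℂ) * (N.index : ℂ) := by
    rw [← Subgroup.card_mul_index N]; push_cast; rfl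
  have hN0 : (Nat.card N : ℂ) ≠ 0 := card_ne_zero_complex N
  constructor
  · intro hv
    have h2 : ∑ g ∈ Finset.univ.filter (fun g : G => g ∉ N), χ g * conj (χ g) = 0 := by
      apply Finset.sum_eq_zero
      intro g hg
      rw [hv g (Finset.mem_filter.1 hg).2, zero_mul]
    rw [h2, add_zero, hcard] at h1
    exact (mul_left_cancel₀ hN0 h1).symm
  · intro hv g hg
    rw [hv, hcard] at h1
    have h2 : ∑ g ∈ Finset.univ.filter (fun g : G => g ∉ N), χ g * conj (χ g) = 0 := by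
      have := h1
      rw [left_eq_add] at this
      exact this
    have h3 : ∀ g : G, χ g * conj (χ g) = ((Complex.normSq (χ g) : ℝ) : ℂ) :=
      fun g => Complex.mul_conj (χ g)
    simp only [h3] at h2
    rw [← Complex.ofReal_sum] at h2
    have h4 : ∑ g ∈ Finset.univ.filter (fun g : G => g ∉ N), Complex.normSq (χ g) = 0 := by
      exact_mod_cast h2
    have h5 := (Finset.sum_eq_zero_iff_of_nonneg (fun g _ => Complex.normSq_nonneg (χ g))).1 h4 g
      (Finset.mem_filter.2 ⟨Finset.mem_univ _, hg⟩)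
    exact Complex.normSq_eq_zero.1 h5

/-- For χ ∈ Irr(G) lying over ϑ ∈ Irr(N), N normal: χ_N = eϑ with e² = [G:N] holds exactly when χ vanishes off N and ϑ is G-invariant, and exactly when ϑ is G-invariant with χ the only irreducible constituent of ϑ induced to G. -/
theorem result {G : Type*} [Group G] [Fintype G] (N : Subgroup G) [hN : N.Normal] [Fintype N] (χ : G → ℂ) (hχ : Cfsg.IsIrrCharacter G χ) (ϑ : N → ℂ) (hϑ : Cfsg.IsIrrCharacter N ϑ) (hcon : Cfsg.classInner (fun n : N => χ n) ϑ ≠ 0) : ((∃ e : ℕ, (fun n : N => χ n) = (e : ℂ) • ϑ ∧ e ^ 2 = N.index) ↔ ((∀ g : G, g ∉ N → χ g = 0) ∧ ∀ (g : G) (n : N), ϑ ⟨g * n * g⁻¹, hN.conj_mem (n : G) n.2 g⟩ = ϑ n)) ∧ ((∃ e : ℕ, (fun n : N => χ n) = (e : ℂ) • ϑ ∧ e ^ 2 = N.index) ↔ (∀ (g : G) (n : N), ϑ ⟨g * n * g⁻¹, hN.conj_mem (n : G) n.2 g⟩ = ϑ n ∧ ∀ ψ : G → ℂ, Cfsg.IsIrrCharacter G ψ → Cfsg.classInner (Cfsg.indFun N ϑ) ψ ≠ 0 → ψ = χ)) := by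
  classical
  have := Fintype.ofFinite (Cfsg.IrrCharacter G)
  have hχχ : Cfsg.classInner χ χ = 1 := classInner_irr_self hχ
  have hϑϑ : Cfsg.classInner ϑ ϑ = 1 := classInner_irr_self hϑ
  have hχcf : Cfsg.IsClassFunction G χ := isClassFunction_of_isIrrCharacter hχ
  have hvan := vanish_iff N χ hχχ
  have hindex0 : N.index ≠ 0 := Subgroup.index_ne_zero_of_finite
  -- norm of e • ϑ
  have hnorm : ∀ e : ℕ, Cfsg.classInner ((e : ℂ) • ϑ) ((e : ℂ) • ϑ) = (e : ℂ) * e := by
    intro e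
    rw [classInner_smul_left, classInner_smul_right, hϑϑ, Complex.conj_natCast, mul_one]
  -- P implies invariance
  have hPinv : (∃ e : ℕ, (fun n : N => χ n) = (e : ℂ) • ϑ ∧ e ^ 2 = N.index) →
      ∀ (g : G) (n : N), ϑ ⟨g * n * g⁻¹, hN.conj_mem (n : G) n.2 g⟩ = ϑ n := by
    rintro ⟨e, he, he2⟩ g n
    have he0 : (e : ℂ) ≠ 0 := by
      have : e ≠ 0 := by
        rintro rfl
        exact hindex0 (by rw [← he2]; norm_num)
      exact_mod_cast this
    have h1 := congrFun he ⟨g * n * g⁻¹, hN.conj_mem (n : G) n.2 g⟩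
    have h2 := congrFun he n
    simp only [Pi.smul_apply, smul_eq_mul] at h1 h2
    have h3 : χ (g * n * g⁻¹) = χ n := hχcf n g
    rw [h3, h2] at h1
    exact (mul_left_cancel₀ he0 h1).symm
  -- invariance implies Clifford with one conjugate
  have hclif : (∀ (g : G) (n : N), ϑ ⟨g * n * g⁻¹, hN.conj_mem (n : G) n.2 g⟩ = ϑ n) →
      ∃ e : ℕ, Cfsg.classInner (fun n : N => χ n) ϑ = (e : ℂ)
        ∧ (fun n : N => χ n) = (e : ℂ) • ϑ := by
    intro hinv
    obtain ⟨e, he⟩ := classInner_isCharacter_nat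
      (IsCharacter.restrict (isCharacter_of_isIrrCharacter hχ) N) (isCharacter_of_isIrrCharacter hϑ)
    refine ⟨e, he, ?_⟩
    have h1 := Cfsg.Agent.S0174.result N hN χ hχ ϑ hϑ hcon
    have hset : {ψ : N → ℂ | ∃ g : G, ψ = fun n : N => ϑ ⟨g * n * g⁻¹, hN.conj_mem n n.2 g⟩}
        = {ϑ} := by
      ext ψ
      simp only [Set.mem_ofPred_eq, Set.mem_singleton_iff]
      constructor
      · rintro ⟨g, rfl⟩
        funext n
        exact hinv g n
      · rintro rfl
        exact ⟨1, by funext n; exact (hinv 1 n).symm⟩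
    rw [hset, finsum_mem_singleton, he] at h1
    exact h1
  -- norm of the induced character when ϑ is invariant
  have hindnorm : (∀ (g : G) (n : N), ϑ ⟨g * n * g⁻¹, hN.conj_mem (n : G) n.2 g⟩ = ϑ n) →
      Cfsg.classInner (Cfsg.indFun N ϑ) (Cfsg.indFun N ϑ) = (N.index : ℂ) := by
    intro hinv
    have h1 := Cfsg.Agent.S0193.result N ϑ hϑ
    have h2 : Nat.card {g : G // ∀ h : N, ϑ ⟨g * h * g⁻¹, hN.conj_mem h h.2 g⟩ = ϑ h}
        = Nat.card G := Nat.card_congr (Equiv.subtypeUnivEquiv (fun g => hinv g))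
    rw [h2, ← Subgroup.card_mul_index N] at h1
    push_cast at h1
    exact mul_left_cancel₀ (card_ne_zero_complex N) h1
  have hfrob : ∀ ψ : G → ℂ, Cfsg.IsClassFunction G ψ →
      Cfsg.classInner (Cfsg.indFun N ϑ) ψ = Cfsg.classInner ϑ (fun n : N => ψ n) :=
    fun ψ hψ => frobenius_reciprocity N ϑ ψ hψ
  have hpars := classInner_eq_sum (Cfsg.indFun N ϑ) (Cfsg.indFun N ϑ) (indFun_isClassFunction N ϑ)
  refine ⟨⟨?_, ?_⟩, ⟨?_, ?_⟩⟩
  · intro hP
    refine ⟨?_, hPinv hP⟩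
    obtain ⟨e, he, he2⟩ := hP
    rw [hvan, he, hnorm, ← he2]
    push_cast; ring
  · rintro ⟨hv, hinv⟩
    obtain ⟨e, he, heq⟩ := hclif hinv
    refine ⟨e, heq, ?_⟩
    have h1 := hvan.1 hv
    rw [heq, hnorm] at h1
    have h2 : ((e ^ 2 : ℕ) : ℂ) = ((N.index : ℕ) : ℂ) := by rw [← h1]; push_cast; ring
    exact_mod_cast h2
  · intro hP
    have hinv := hPinv hP
    intro g n
    refine ⟨hinv g n, ?_⟩
    intro ψ hψ hne
    by_contra hψχ
    obtain ⟨e, he, he2⟩ := hP
    have h1 := hindnorm hinv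
    rw [hpars] at h1
    have hχterm : Cfsg.classInner (Cfsg.indFun N ϑ) χ = (e : ℂ) := by
      rw [hfrob χ hχcf, he, classInner_smul_right, hϑϑ, Complex.conj_natCast, mul_one]
    have h3 : ∀ φ : Cfsg.IrrCharacter G, Cfsg.classInner (Cfsg.indFun N ϑ) φ
        * conj (Cfsg.classInner (Cfsg.indFun N ϑ) φ)
        = ((Complex.normSq (Cfsg.classInner (Cfsg.indFun N ϑ) φ) : ℝ) : ℂ) :=
      fun φ => Complex.mul_conj _
    simp only [h3] at h1
    rw [← Complex.ofReal_sum] at h1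
    have h4 : ∑ φ : Cfsg.IrrCharacter G, Complex.normSq (Cfsg.classInner (Cfsg.indFun N ϑ) φ)
        = (N.index : ℝ) := by exact_mod_cast h1
    have h5 : Complex.normSq (Cfsg.classInner (Cfsg.indFun N ϑ) (⟨χ, hχ⟩ : Cfsg.IrrCharacter G))
        = (N.index : ℝ) := by
      change Complex.normSq (Cfsg.classInner (Cfsg.indFun N ϑ) χ) = _
      rw [hχterm, Complex.normSq_natCast, ← he2]
      push_cast; ring
    have h6 : (⟨ψ, hψ⟩ : Cfsg.IrrCharacter G) ≠ ⟨χ, hχ⟩ := by
      intro h; exact hψχ (congrArg Subtype.val h)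
    have h7 : Complex.normSq (Cfsg.classInner (Cfsg.indFun N ϑ) (⟨χ, hχ⟩ : Cfsg.IrrCharacter G))
        + Complex.normSq (Cfsg.classInner (Cfsg.indFun N ϑ) (⟨ψ, hψ⟩ : Cfsg.IrrCharacter G))
        ≤ ∑ φ : Cfsg.IrrCharacter G, Complex.normSq (Cfsg.classInner (Cfsg.indFun N ϑ) φ) := by
      have h8 := Finset.sum_le_sum_of_subset_of_nonneg
        (f := fun φ : Cfsg.IrrCharacter G => Complex.normSq (Cfsg.classInner (Cfsg.indFun N ϑ) φ))
        (Finset.subset_univ ({⟨χ, hχ⟩, ⟨ψ, hψ⟩} : Finset (Cfsg.IrrCharacter G)))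
        (fun φ _ _ => Complex.normSq_nonneg _)
      rw [Finset.sum_pair h6.symm] at h8
      exact h8
    rw [h4, h5] at h7
    have h9 : Complex.normSq (Cfsg.classInner (Cfsg.indFun N ϑ) ψ) ≤ 0 := by
      have : Complex.normSq (Cfsg.classInner (Cfsg.indFun N ϑ) (⟨ψ, hψ⟩ : Cfsg.IrrCharacter G))
          = Complex.normSq (Cfsg.classInner (Cfsg.indFun N ϑ) ψ) := rfl
      linarith
    have h10 : Complex.normSq (Cfsg.classInner (Cfsg.indFun N ϑ) ψ) = 0 :=
      le_antisymm h9 (Complex.normSq_nonneg _)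
    exact hne (Complex.normSq_eq_zero.1 h10)
  · intro hQ
    have hinv : ∀ (g : G) (n : N), ϑ ⟨g * n * g⁻¹, hN.conj_mem (n : G) n.2 g⟩ = ϑ n :=
      fun g n => (hQ g n).1
    have hQ' := (hQ 1 1).2
    obtain ⟨e, he, heq⟩ := hclif hinv
    refine ⟨e, heq, ?_⟩
    have h1 := hindnorm hinv
    rw [hpars] at h1
    have hχterm : Cfsg.classInner (Cfsg.indFun N ϑ) χ = (e : ℂ) := by
      rw [hfrob χ hχcf, heq, classInner_smul_right, hϑϑ, Complex.conj_natCast, mul_one]
    rw [Finset.sum_eq_single (⟨χ, hχ⟩ : Cfsg.IrrCharacter G)] at h1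
    · change Cfsg.classInner (Cfsg.indFun N ϑ) χ * conj (Cfsg.classInner (Cfsg.indFun N ϑ) χ)
        = _ at h1
      rw [hχterm, Complex.conj_natCast] at h1
      have h2 : ((e ^ 2 : ℕ) : ℂ) = ((N.index : ℕ) : ℂ) := by rw [← h1]; push_cast; ring
      exact_mod_cast h2
    · intro φ _ hφ
      by_contra hne
      apply hφ
      have h3 : Cfsg.classInner (Cfsg.indFun N ϑ) (φ : G → ℂ) ≠ 0 := by
        intro h0
        apply hne
        rw [h0, zero_mul]
      exact Subtype.ext (hQ' φ.1 φ.2 h3)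
    · intro h; exact absurd (Finset.mem_univ _) h

end Cfsg.Agent.S0900
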