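import Mathlib
import Cfsg.Statements.S0901

set_option autoImplicit false
open Cfsg

namespace Cfsg.Agent.S0901

/-- Let M be a maximal ideal of the ring of algebraic integers containing the prime p, and let U be the set of complex roots of unity of order prime to p. Then reduction modulo M is injective on U, and every algebraic integer not in M is congruent modulo M to an element of U (so U maps bijectively onto the nonzero residues). -/
theorem result (p : ℕ) [Fact p.Prime] (M : Ideal Cfsg.AlgInt) (hM : Cfsg.IsPModular p M) : (∀ ε₁ ε₂ : Cfsg.AlgInt, (∃ m : ℕ, ¬ p ∣ m ∧ (ε₁ : ℂ) ^ m = 1) → (∃ m : ℕ, ¬ p ∣ m ∧ (ε₂ : ℂ) ^ m = 1) → ε₁ - ε₂ ∈ M → ε₁ = ε₂) ∧ (∀ a : Cfsg.AlgInt, a ∉ M → ∃ ε : Cfsg.AlgInt, (∃ m : ℕ, ¬ p ∣ m ∧ (ε : ℂ) ^ m = 1) ∧ a - ε ∈ M) := by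
  have hp : p.Prime := hM.1
  have hmax : M.IsMaximal := hM.2.1
  have hpM : (p : AlgInt) ∈ M := hM.2.2
  have hpr : M.IsPrime := hmax.isPrime
  have key : ∀ (ζ : AlgInt) (m : ℕ), ¬ p ∣ m → ζ ^ m = 1 → ζ - 1 ∈ M → ζ = 1 := by
    intro ζ m hm hζ hmem
    by_contra hne
    have hsum : ∑ i ∈ Finset.range m, ζ ^ i = 0 := by
      have h0 := mul_geom_sum ζ m
      rw [hζ, sub_self] at h0
      rcases mul_eq_zero.mp h0 with h | h
      · exact absurd (sub_eq_zero.mp h) hne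
      · exact h
    have h2 : (m : AlgInt) ∈ M := by
      have h3 : ∑ i ∈ Finset.range m, (ζ ^ i - 1) ∈ M := by
        apply Ideal.sum_mem
        intro i _
        rw [← mul_geom_sum]
        exact Ideal.mul_mem_right _ _ hmem
      rw [Finset.sum_sub_distrib, hsum, zero_sub, Finset.sum_const, Finset.card_range,
        nsmul_eq_mul, mul_one] at h3
      exact (Ideal.neg_mem_iff M).mp h3
    have hcop : Nat.Coprime p m := (Nat.Prime.coprime_iff_not_dvd hp).mpr hm
    have h1 : (1 : AlgInt) ∈ M := by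
      have hb := Nat.gcd_eq_gcd_ab p m
      rw [hcop.gcd_eq_one] at hb
      have e : (1 : AlgInt) = (p : AlgInt) * ((Nat.gcdA p m : ℤ) : AlgInt)
          + (m : AlgInt) * ((Nat.gcdB p m : ℤ) : AlgInt) := by
        have := congrArg (Int.cast : ℤ → AlgInt) hb
        push_cast at this
        exact this
      rw [e]
      exact M.add_mem (M.mul_mem_right _ hpM) (M.mul_mem_right _ h2)
    exact hpr.ne_top ((Ideal.eq_top_iff_one M).mpr h1)
  refine ⟨?_, ?_⟩
  · rintro ε₁ ε₂ ⟨m₁, hm₁, h₁⟩ ⟨m₂, hm₂, h₂⟩ hmem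
    have e₁ : ε₁ ^ m₁ = 1 := Subtype.ext (by push_cast; exact h₁)
    have e₂ : ε₂ ^ m₂ = 1 := Subtype.ext (by push_cast; exact h₂)
    set m := m₁ * m₂ with hmdef
    have hm : ¬ p ∣ m := fun h => (hp.dvd_mul.mp h).elim hm₁ hm₂
    have hm0 : m ≠ 0 := fun h => hm (h ▸ dvd_zero p)
    have f₁ : ε₁ ^ m = 1 := by rw [hmdef, pow_mul, e₁, one_pow]
    have f₂ : ε₂ ^ m = 1 := by rw [hmdef, mul_comm, pow_mul, e₂, one_pow]
    obtain ⟨k, hk⟩ : ∃ k, m = k + 1 := ⟨m - 1, by omega⟩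
    have g₂ : ε₂ ^ k * ε₂ = 1 := by rw [← pow_succ, ← hk, f₂]
    have hζ : ε₁ * ε₂ ^ k = 1 := by
      apply key (ε₁ * ε₂ ^ k) m hm
      · rw [mul_pow, f₁, one_mul, ← pow_mul, mul_comm, pow_mul, f₂, one_pow]
      · have : ε₁ * ε₂ ^ k - 1 = (ε₁ - ε₂) * ε₂ ^ k := by
          rw [sub_mul, mul_comm ε₂, g₂]
        rw [this]
        exact Ideal.mul_mem_right _ _ hmem
    calc ε₁ = ε₁ * (ε₂ ^ k * ε₂) := by rw [g₂, mul_one]
      _ = (ε₁ * ε₂ ^ k) * ε₂ := by rw [mul_assoc]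
      _ = ε₂ := by rw [hζ, one_mul]
  · intro a ha
    let _ : Field (AlgInt ⧸ M) := Ideal.Quotient.field M
    have hp0 : ((p : ℕ) : AlgInt ⧸ M) = 0 := by
      have h0 : (Ideal.Quotient.mk M (p : AlgInt)) = 0 := Ideal.Quotient.eq_zero_iff_mem.mpr hpM
      simpa using h0
    have : CharP (AlgInt ⧸ M) p := (CharP.charP_iff_prime_eq_zero hp).mpr hp0
    let _ : Algebra (ZMod p) (AlgInt ⧸ M) := ZMod.algebra (AlgInt ⧸ M) p
    set ā : AlgInt ⧸ M := Ideal.Quotient.mk M a with hādef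
    have hā0 : ā ≠ 0 := fun h => ha (Ideal.Quotient.eq_zero_iff_mem.mp h)
    have hint : IsIntegral ℤ ā := by
      have h1 : IsIntegral ℤ a := integralClosure.isIntegral a
      exact h1.map (Ideal.Quotient.mkₐ ℤ M)
    have hint' : IsIntegral (ZMod p) ā := hint.tower_top
    have hfg := hint'.fg_adjoin_singleton
    have : Module.Finite (ZMod p) (Algebra.adjoin (ZMod p) {ā}) :=
      Module.Finite.iff_fg.mpr hfg
    have : Finite (Algebra.adjoin (ZMod p) {ā}) := Module.finite_of_finite (ZMod p)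
    obtain ⟨i, j, hij, hpow⟩ := Finite.exists_ne_map_eq_of_infinite
      (fun k : ℕ => (⟨ā ^ k, pow_mem (Algebra.self_mem_adjoin_singleton _ ā) k⟩ :
        Algebra.adjoin (ZMod p) {ā}))
    have hpow' : ā ^ i = ā ^ j := congrArg Subtype.val hpow
    have hfin : ∃ n, 0 < n ∧ ā ^ n = 1 := by
      rcases lt_or_gt_of_ne hij with h | h
      · refine ⟨j - i, by omega, ?_⟩
        have e : ā ^ i * ā ^ (j - i) = ā ^ i * 1 := by
          rw [← pow_add, mul_one, hpow']; congr 1; omega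
        exact mul_left_cancel₀ (pow_ne_zero i hā0) e
      · refine ⟨i - j, by omega, ?_⟩
        have e : ā ^ j * ā ^ (i - j) = ā ^ j * 1 := by
          rw [← pow_add, mul_one, ← hpow']; congr 1; omega
        exact mul_left_cancel₀ (pow_ne_zero j hā0) e
    have hof : IsOfFinOrder ā := isOfFinOrder_iff_pow_eq_one.mpr hfin
    set n := orderOf ā with hn
    have hnpos : 0 < n := hof.orderOf_pos
    have hān : ā ^ n = 1 := pow_orderOf_eq_one ā
    have hpn : ¬ p ∣ n := by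
      rintro ⟨k, hk⟩
      have hy : (ā ^ k - 1) ^ p = 0 := by
        rw [sub_pow_char, one_pow, ← pow_mul, mul_comm, ← hk, hān, sub_self]
      have hy1 : ā ^ k = 1 := sub_eq_zero.mp (pow_eq_zero_iff (hp.ne_zero) |>.mp hy)
      have hdvd : n ∣ k := orderOf_dvd_of_pow_eq_one hy1
      have hk0 : 0 < k := by
        rcases Nat.eq_zero_or_pos k with h | h
        · rw [h, mul_zero] at hk; omega
        · exact h
      have hle := Nat.le_of_dvd hk0 hdvd
      have h2 := hp.two_le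
      nlinarith
    have hn0 : n ≠ 0 := hnpos.ne'
    obtain ⟨ζc, hζc⟩ : ∃ ζc : ℂ, IsPrimitiveRoot ζc n := ⟨_, Complex.isPrimitiveRoot_exp n hn0⟩
    obtain ⟨ζ, hζdef⟩ : ∃ ζ : AlgInt, (ζ : ℂ) = ζc := ⟨⟨ζc, hζc.isIntegral hnpos⟩, rfl⟩
    have hζn : ζ ^ n = 1 := Subtype.ext (by push_cast; rw [hζdef]; exact hζc.pow_eq_one)
    have hprim : IsPrimitiveRoot (Ideal.Quotient.mk M ζ) n := by
      refine IsPrimitiveRoot.mk_of_lt _ hnpos (by rw [← map_pow, hζn, map_one]) ?_
      intro l hl hln h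
      have hmem : ζ ^ l - 1 ∈ M := by
        rw [← Ideal.Quotient.eq_zero_iff_mem, map_sub, map_pow, h, map_one, sub_self]
      have h1 := key (ζ ^ l) n hpn (by rw [← pow_mul, mul_comm, pow_mul, hζn, one_pow]) hmem
      have h2 : ζc ^ l = 1 := by
        have := congrArg (Subtype.val) h1
        rw [← hζdef]
        simpa using this
      have h3 := (hζc.pow_eq_one_iff_dvd l).mp h2
      exact absurd (Nat.le_of_dvd hl h3) (by omega)
    have : NeZero n := ⟨hn0⟩
    obtain ⟨i, hi, hpi⟩ := hprim.eq_pow_of_pow_eq_one hān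
    refine ⟨ζ ^ i, ⟨n, hpn, ?_⟩, ?_⟩
    · have : (ζ ^ i) ^ n = 1 := by rw [← pow_mul, mul_comm, pow_mul, hζn, one_pow]
      have h2 := congrArg (Subtype.val) this
      simpa using h2
    · rw [← Ideal.Quotient.eq, map_pow, hpi]

end Cfsg.Agent.S0901
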