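import Mathlib
import Cfsg.Statements.S0902
import Cfsg.Agent.Lib.Helper8.WeakClosed

set_option autoImplicit false
open Cfsg

namespace Cfsg.Agent.S0902

open Cfsg.Agent.Lib.Helper8 Cfsg.Agent.Lib.Helper25

/-- If two irreducible characters of a finite group lie in the same block relative to one maximal ideal M of the algebraic integers containing the prime p, then at every element the difference of their central characters is an algebraic integer lying in every maximal ideal containing p; in particular they lie in the same block relative to any such ideal. -/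
theorem result {G : Type*} [Group G] [Finite G] (p : ℕ) [Fact p.Prime] (M : Ideal Cfsg.AlgInt) (hM : Cfsg.IsPModular p M) (χ ψ : Cfsg.IrrCharacter G) (h : Cfsg.SameBlock M (χ : G → ℂ) (ψ : G → ℂ)) (M' : Ideal Cfsg.AlgInt) (hM' : Cfsg.IsPModular p M') (g : G) : ∃ r : Cfsg.AlgInt, r ∈ M' ∧ (r : ℂ) = Cfsg.centralChar (χ : G → ℂ) g - Cfsg.centralChar (ψ : G → ℂ) g := by
  classical
  have hpr' := isPrime_of_isPModular hM'
  have h1 := sameBlock_of_sameBlock hM hM' χ ψ h g
  obtain ⟨a, ha⟩ : ∃ a : AlgInt, (a : ℂ) = Cfsg.centralChar (χ : G → ℂ) g := by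
    have : Fintype G := Fintype.ofFinite G
    exact ⟨⟨_, centralChar_isIntegral χ g⟩, rfl⟩
  obtain ⟨b, hb⟩ : ∃ b : AlgInt, (b : ℂ) = Cfsg.centralChar (ψ : G → ℂ) g := by
    have : Fintype G := Fintype.ofFinite G
    exact ⟨⟨_, centralChar_isIntegral ψ g⟩, rfl⟩
  refine ⟨a - b, ?_, ?_⟩
  · rw [← memLocalIdeal_algInt_iff M' (a - b)]
    have e : ((a - b : AlgInt) : ℂ) = (a : ℂ) - (b : ℂ) := by push_cast; rfl
    rw [e, ha, hb]
    exact h1
  · have e : ((a - b : AlgInt) : ℂ) = (a : ℂ) - (b : ℂ) := by push_cast; rfl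
    rw [e, ha, hb]

end Cfsg.Agent.S0902
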