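import Mathlib
import Cfsg.Statements.S0903

set_option autoImplicit false
open Cfsg

namespace Cfsg.Agent.S0903

/-- the conjugation action of `P` on the pairs -/
@[instance_reducible]
def act {G : Type*} [Group G] (P : Subgroup G) (c g h : G)
    (hc : c ∈ Subgroup.centralizer (P : Set G)) :
    MulAction P {xy : G × G // IsConj g xy.1 ∧ IsConj h xy.2 ∧ xy.1 * xy.2 = c} where
  smul u xy := ⟨((u : G) * xy.1.1 * (u : G)⁻¹, (u : G) * xy.1.2 * (u : G)⁻¹),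
    xy.2.1.trans (isConj_iff.2 ⟨u, rfl⟩), xy.2.2.1.trans (isConj_iff.2 ⟨u, rfl⟩), by
      have h3 := xy.2.2.2
      have hu := (Subgroup.mem_centralizer_iff.1 hc) (u : G) u.2
      calc (u : G) * xy.1.1 * (u : G)⁻¹ * ((u : G) * xy.1.2 * (u : G)⁻¹)
          = (u : G) * (xy.1.1 * xy.1.2) * (u : G)⁻¹ := by group
        _ = c := by rw [h3, hu]; group⟩
  one_smul xy := by
    apply Subtype.ext
    apply Prod.ext <;> simp [HSMul.hSMul]
  mul_smul u v xy := by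
    apply Subtype.ext
    apply Prod.ext <;> simp [HSMul.hSMul, mul_assoc]

theorem result {G : Type*} [Group G] [Finite G] (p : ℕ) [Fact p.Prime] (P : Subgroup G) (hP : IsPGroup p P) (c : G) (hc : c ∈ Subgroup.centralizer (P : Set G)) (g h : G) : Nat.card {xy : G × G // IsConj g xy.1 ∧ IsConj h xy.2 ∧ xy.1 * xy.2 = c} ≡ Nat.card {xy : G × G // IsConj g xy.1 ∧ IsConj h xy.2 ∧ xy.1 * xy.2 = c ∧ xy.1 ∈ Subgroup.centralizer (P : Set G) ∧ xy.2 ∈ Subgroup.centralizer (P : Set G)} [MOD p] := by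
  classical
  let _ := act P c g h hc
  have h1 := hP.card_modEq_card_fixedPoints
    {xy : G × G // IsConj g xy.1 ∧ IsConj h xy.2 ∧ xy.1 * xy.2 = c}
  refine h1.trans ?_
  have key : ∀ (u : P) (xy : {xy : G × G // IsConj g xy.1 ∧ IsConj h xy.2 ∧ xy.1 * xy.2 = c}),
      u • xy = xy ↔ ((u : G) * xy.1.1 = xy.1.1 * (u : G) ∧ (u : G) * xy.1.2 = xy.1.2 * (u : G)) := by
    intro u xy
    constructor
    · intro hfix
      have h2 := congrArg Subtype.val hfix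
      have h3 : (u : G) * xy.1.1 * (u : G)⁻¹ = xy.1.1 := congrArg Prod.fst h2
      have h4 : (u : G) * xy.1.2 * (u : G)⁻¹ = xy.1.2 := congrArg Prod.snd h2
      exact ⟨mul_inv_eq_iff_eq_mul.1 h3, mul_inv_eq_iff_eq_mul.1 h4⟩
    · rintro ⟨h3, h4⟩
      apply Subtype.ext
      apply Prod.ext
      · change (u : G) * xy.1.1 * (u : G)⁻¹ = xy.1.1
        rw [h3]; group
      · change (u : G) * xy.1.2 * (u : G)⁻¹ = xy.1.2
        rw [h4]; group
  have e : MulAction.fixedPoints P {xy : G × G // IsConj g xy.1 ∧ IsConj h xy.2 ∧ xy.1 * xy.2 = c}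
      ≃ {xy : G × G // IsConj g xy.1 ∧ IsConj h xy.2 ∧ xy.1 * xy.2 = c ∧ xy.1 ∈ Subgroup.centralizer (P : Set G) ∧ xy.2 ∈ Subgroup.centralizer (P : Set G)} :=
    { toFun := fun z => ⟨z.1.1, z.1.2.1, z.1.2.2.1, z.1.2.2.2,
        Subgroup.mem_centralizer_iff.2 (fun u hu => ((key ⟨u, hu⟩ z.1).1 (z.2 ⟨u, hu⟩)).1),
        Subgroup.mem_centralizer_iff.2 (fun u hu => ((key ⟨u, hu⟩ z.1).1 (z.2 ⟨u, hu⟩)).2)⟩
      invFun := fun z => ⟨⟨z.1, z.2.1, z.2.2.1, z.2.2.2.1⟩, fun u => (key u _).2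
        ⟨Subgroup.mem_centralizer_iff.1 z.2.2.2.2.1 u u.2,
         Subgroup.mem_centralizer_iff.1 z.2.2.2.2.2 u u.2⟩⟩
      left_inv := fun z => rfl
      right_inv := fun z => rfl }
  rw [Nat.card_congr e]

end Cfsg.Agent.S0903
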