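import Mathlib
import Cfsg.Statements.S0910
import Cfsg.Agent.Lib.Helper2.CharBurnside
import Cfsg.Agent.Lib.Helper25.BlockOrth

set_option autoImplicit false
open Cfsg

namespace Cfsg.Agent.S0910

open Cfsg.Agent.Lib.Helper2 Cfsg.Agent.Lib.Helper25 Module

theorem result {G : Type*} [Group G] [Finite G] (p : ℕ) [Fact p.Prime] (M : Ideal Cfsg.AlgInt) (hM : Cfsg.IsPModular p M) [IsSimpleGroup G] (hna : ∃ a b : G, a * b ≠ b * a) (χ : Cfsg.IrrCharacter G) (hχ : χ ∈ Cfsg.principalBlock M G) (k : ℕ) (hdeg : (χ : G → ℂ) 1 = (p : ℂ) ^ k) : (χ : G → ℂ) = fun _ => 1 := by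
  classical
  have : Fintype G := Fintype.ofFinite G
  have hpr := isPrime_of_isPModular hM
  have hp : p.Prime := Fact.out
  have hnc : ¬ ∀ a b : G, a * b = b * a := by
    obtain ⟨a, b, hab⟩ := hna
    intro h; exact hab (h a b)
  obtain ⟨n, ρ, hρ, hχρ⟩ := χ.2
  have hn : n = p ^ k := by
    have h1 : (χ : G → ℂ) 1 = n := by
      rw [← hχρ, Representation.char_one, Module.finrank_fin_fun]
    rw [h1] at hdeg
    exact_mod_cast hdeg
  have hdvd : n ∣ Nat.card G := by
    have := irr_degree_dvd_card ρ
    rwa [Module.finrank_fin_fun] at this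
  -- choose a non-identity element with class size prime to the degree
  have hex : ∃ g : G, g ≠ 1 ∧ (k ≠ 0 → ¬ p ∣ (Subgroup.centralizer ({g} : Set G)).index) := by
    by_cases hk : k = 0
    · obtain ⟨a, b, hab⟩ := hna
      refine ⟨a, ?_, fun h => absurd hk h⟩
      rintro rfl
      simp at hab
    · obtain ⟨P⟩ : Nonempty (Sylow p G) := inferInstance
      have hPcard : p ∣ Nat.card P := by
        rw [P.card_eq_multiplicity]
        apply dvd_pow_self
        have hpG : p ∣ Nat.card G := dvd_trans (by rw [hn]; exact dvd_pow_self p hk) hdvd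
        exact (Nat.Prime.factorization_pos_of_dvd hp Nat.card_pos.ne' hpG).ne'
      have hPnt : Nontrivial P := by
        rw [← Finite.one_lt_card_iff_nontrivial]
        exact lt_of_lt_of_le hp.one_lt (Nat.le_of_dvd Nat.card_pos hPcard)
      have hcnt := IsPGroup.center_nontrivial P.isPGroup'
      obtain ⟨z, hz⟩ := exists_ne (1 : Subgroup.center P)
      refine ⟨((z : P) : G), ?_, fun _ => ?_⟩
      · intro h
        apply hz
        apply Subtype.ext
        apply Subtype.ext
        exact h
      · have hle : (P : Subgroup G) ≤ Subgroup.centralizer ({((z : P) : G)} : Set G) := by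
          intro x hx
          rw [Subgroup.mem_centralizer_iff]
          intro y hy
          rw [Set.mem_singleton_iff.mp hy]
          have h1 := Subgroup.mem_center_iff.mp z.2 ⟨x, hx⟩
          have h2 := congrArg (fun t : P => (t : G)) h1
          simpa using h2.symm
        intro hdv
        exact P.not_dvd_index (dvd_trans hdv (Subgroup.index_dvd_of_le hle))
  obtain ⟨g, hg1, hgp⟩ := hex
  have hcop : Nat.Coprime (finrank ℂ (Fin n → ℂ)) (Subgroup.centralizer ({g} : Set G)).index := by
    rw [Module.finrank_fin_fun, hn]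
    by_cases hk : k = 0
    · rw [hk, pow_zero]; exact Nat.coprime_one_left _
    · exact Nat.Coprime.pow_left k ((Nat.Prime.coprime_iff_not_dvd hp).mpr (hgp hk))
  rcases char_zero_or_norm_of_coprime ρ g hcop with h | h
  · exfalso
    have hsame : MemLocalIdeal M (centralChar (fun _ : G => (1 : ℂ)) g
        - centralChar (χ : G → ℂ) g) := hχ g
    have hz : centralChar (χ : G → ℂ) g = 0 := by
      unfold centralChar
      rw [← hχρ, h]; simp
    have h1 : centralChar (fun _ : G => (1 : ℂ)) g
        = ((Subgroup.centralizer ({g} : Set G)).index : ℂ) := by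
      unfold centralChar; simp
    rw [hz, h1, sub_zero, memLocalIdeal_natCast_iff hM] at hsame
    by_cases hk : k = 0
    · have hχ1 : (χ : G → ℂ) 1 = 1 := by rw [hdeg, hk, pow_zero]
      obtain ⟨lam, hlam⟩ := hom_of_irr_deg_one χ.2 hχ1
      have : (χ : G → ℂ) g = 0 := by rw [← hχρ]; exact h
      rw [hlam] at this
      exact (lam g).ne_zero this
    · exact hgp hk hsame
  · obtain ⟨ω, hω⟩ := (norm_char_eq_iff ρ g).mp h
    rw [← hχρ]
    exact irr_trivial_of_scalar_of_simple hnc ρ g hg1 ω hω

end Cfsg.Agent.S0910
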