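import Mathlib
import Cfsg.Statements.S0913
import Cfsg.Agent.Lib.Helper25.BlockOrth

set_option autoImplicit false

open Cfsg

namespace Cfsg.Agent.S0913

open scoped ComplexConjugate

theorem result {G : Type*} [Group G] [Finite G] (p : ℕ) [Fact p.Prime] (M : Ideal Cfsg.AlgInt) (hM : Cfsg.IsPModular p M) (B : Set (Cfsg.IrrCharacter G)) (hB : Cfsg.IsPBlock M B) (g : G) : Cfsg.MemLocalRing M (Cfsg.blockCoeff B g) := by
  classical
  have : Fintype G := Fintype.ofFinite G
  have hpr := Cfsg.Agent.Lib.Helper25.isPrime_of_isPModular hM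
  exact Cfsg.Agent.Lib.Helper25.blockCoeff_memLocalRing hM B
    (Cfsg.Agent.Lib.Helper25.blockClosed_of_isPBlock M hB) g

end Cfsg.Agent.S0913
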