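import Mathlib
import Cfsg.Statements.S0916
import Cfsg.Agent.Lib.Helper8.SylowAux

set_option autoImplicit false
open Cfsg

namespace Cfsg.Agent.S0916

open Cfsg.Agent.Lib.Helper8

theorem part2 {G : Type*} [Group G] [Finite G] (p : ℕ) [Fact p.Prime] (P C : Subgroup G)
    (hP : IsPGroup p P) (hPC : P ≤ C)
    (S : Sylow p (C ⊓ Subgroup.normalizer (P : Set G) : Subgroup G))
    (hS : (S : Subgroup ↥(C ⊓ Subgroup.normalizer (P : Set G))).map
      (C ⊓ Subgroup.normalizer (P : Set G)).subtype = P) :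
    ∃ S' : Sylow p C, (S' : Subgroup C).map C.subtype = P := by
  classical
  obtain ⟨Q, hQ⟩ := (hP.comap_subtype (K := C)).exists_le_sylow
  refine ⟨Q, ?_⟩
  set Q' := (Q : Subgroup C).map C.subtype with hQ'
  have hPQ' : P ≤ Q' := by
    intro x hx
    exact ⟨⟨x, hPC hx⟩, hQ (Subgroup.mem_subgroupOf.2 hx), rfl⟩
  have hQ'C : Q' ≤ C := Subgroup.map_subtype_le _
  have hQ'p : IsPGroup p Q' := Q.isPGroup'.map C.subtype
  by_contra hne
  have hne' : ¬ Q' ≤ P := fun h => hne (le_antisymm h hPQ')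
  haveI : Group.IsNilpotent Q' := hQ'p.isNilpotent
  have hlt : P.subgroupOf Q' < ⊤ := by
    rw [lt_top_iff_ne_top]
    intro h
    apply hne'
    intro x hx
    have : (⟨x, hx⟩ : Q') ∈ P.subgroupOf Q' := by rw [h]; trivial
    exact Subgroup.mem_subgroupOf.1 this
  have hnc := Group.normalizerCondition_of_isNilpotent (G := Q') (P.subgroupOf Q') hlt
  obtain ⟨y, hyN, hyP⟩ := SetLike.exists_of_lt hnc
  have hyP' : (y : G) ∉ P := fun h => hyP (Subgroup.mem_subgroupOf.2 h)
  have hyN' : (y : G) ∈ Subgroup.normalizer (P : Set G) := by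
    rw [Subgroup.mem_normalizer_iff]
    rw [Subgroup.mem_normalizer_iff] at hyN
    intro x
    constructor
    · intro hx
      have := (hyN ⟨x, hPQ' hx⟩).1 (Subgroup.mem_subgroupOf.2 hx)
      exact Subgroup.mem_subgroupOf.1 this
    · intro hx
      have hxQ : x ∈ Q' := by
        have h5 : (y : G) * x * (y : G)⁻¹ ∈ Q' := hPQ' hx
        have : x = (y : G)⁻¹ * ((y : G) * x * (y : G)⁻¹) * (y : G) := by group
        rw [this]
        exact Q'.mul_mem (Q'.mul_mem (Q'.inv_mem y.2) h5) y.2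
      have := (hyN ⟨x, hxQ⟩).2 (Subgroup.mem_subgroupOf.2 hx)
      exact Subgroup.mem_subgroupOf.1 this
  have hyK : (y : G) ∈ C ⊓ Subgroup.normalizer (P : Set G) := ⟨hQ'C y.2, hyN'⟩
  set R := P ⊔ Subgroup.zpowers (y : G) with hR
  have hRQ : R ≤ Q' := sup_le hPQ' (by rw [Subgroup.zpowers_le]; exact y.2)
  have hRp : IsPGroup p R := hQ'p.to_le hRQ
  have hSR : (S : Subgroup ↥(C ⊓ Subgroup.normalizer (P : Set G)))
      ≤ R.subgroupOf (C ⊓ Subgroup.normalizer (P : Set G)) := by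
    intro s hs
    rw [Subgroup.mem_subgroupOf]
    have h := Subgroup.mem_map_of_mem (C ⊓ Subgroup.normalizer (P : Set G)).subtype hs
    rw [hS] at h
    exact (le_sup_left : P ≤ R) h
  have hmax := S.is_maximal' (hRp.comap_subtype (K := C ⊓ Subgroup.normalizer (P : Set G))) hSR
  have hy1 : (⟨(y : G), hyK⟩ : ↥(C ⊓ Subgroup.normalizer (P : Set G)))
      ∈ R.subgroupOf (C ⊓ Subgroup.normalizer (P : Set G)) := by
    rw [Subgroup.mem_subgroupOf]
    exact (le_sup_right : Subgroup.zpowers (y : G) ≤ R) (Subgroup.mem_zpowers _)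
  have hy2 : (⟨(y : G), hyK⟩ : ↥(C ⊓ Subgroup.normalizer (P : Set G)))
      ∈ (S : Subgroup ↥(C ⊓ Subgroup.normalizer (P : Set G))) := by
    rw [← hmax]; exact hy1
  have h := Subgroup.mem_map_of_mem (C ⊓ Subgroup.normalizer (P : Set G)).subtype hy2
  rw [hS] at h
  exact hyP' h

theorem result {G : Type*} [Group G] [Finite G] (p : ℕ) [Fact p.Prime] (P : Subgroup G) (hP : IsPGroup p P) : (∀ g : G, (∃ S : Sylow p (Subgroup.centralizer ({g} : Set G)), (S : Subgroup (Subgroup.centralizer ({g} : Set G))).map (Subgroup.centralizer ({g} : Set G)).subtype = P) → (∃ c : G, IsConj g c ∧ c ∈ Subgroup.centralizer (P : Set G)) ∧ (∀ c₁ c₂ : G, IsConj g c₁ → IsConj g c₂ → c₁ ∈ Subgroup.centralizer (P : Set G) → c₂ ∈ Subgroup.centralizer (P : Set G) → ∃ n ∈ Subgroup.normalizer (P : Set G), n * c₁ * n⁻¹ = c₂)) ∧ (∀ c : G, c ∈ Subgroup.centralizer (P : Set G) → (∃ S : Sylow p (Subgroup.centralizer ({c} : Set G) ⊓ Subgroup.normalizer (P : Set G) : Subgroup G),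 (S : Subgroup ↥(Subgroup.centralizer ({c} : Set G) ⊓ Subgroup.normalizer (P : Set G))).map (Subgroup.centralizer ({c} : Set G) ⊓ Subgroup.normalizer (P : Set G)).subtype = P) → ∃ S : Sylow p (Subgroup.centralizer ({c} : Set G)), (S : Subgroup (Subgroup.centralizer ({c} : Set G))).map (Subgroup.centralizer ({c} : Set G)).subtype = P) := by
  classical
  have hcomm : ∀ c : G, c ∈ Subgroup.centralizer (P : Set G) → P ≤ Subgroup.centralizer ({c} : Set G) := by
    intro c hc x hx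
    rw [Subgroup.mem_centralizer_singleton_iff]
    exact ((Subgroup.mem_centralizer_iff.1 hc) x hx)
  constructor
  · rintro g ⟨S, hS⟩
    have hPle : P ≤ Subgroup.centralizer ({g} : Set G) := by
      rw [← hS]; exact Subgroup.map_subtype_le _
    have hPcard : Nat.card P = p ^ (Nat.card (Subgroup.centralizer ({g} : Set G))).factorization p := by
      rw [← hS]; exact sylow_map_card _ S
    have hgC : g ∈ Subgroup.centralizer (P : Set G) := by
      rw [Subgroup.mem_centralizer_iff]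
      intro x hx
      have := hPle hx
      rw [Subgroup.mem_centralizer_singleton_iff] at this
      exact this
    refine ⟨⟨g, IsConj.refl g, hgC⟩, ?_⟩
    intro c₁ c₂ h1 h2 hc1 hc2
    obtain ⟨a, rfl⟩ := isConj_iff.1 h1
    obtain ⟨b, rfl⟩ := isConj_iff.1 h2
    have hPK : P ≤ Subgroup.centralizer ({b * g * b⁻¹} : Set G) := hcomm _ hc2
    have hP1 : P ≤ Subgroup.centralizer ({a * g * a⁻¹} : Set G) := hcomm _ hc1
    have hQK : P.map (MulAut.conj (b * a⁻¹)).toMonoidHom ≤ Subgroup.centralizer ({b * g * b⁻¹} : Set G) := by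
      rintro y ⟨x, hx, rfl⟩
      have hx1 := hP1 hx
      rw [Subgroup.mem_centralizer_singleton_iff] at hx1
      rw [Subgroup.mem_centralizer_singleton_iff]
      simp only [MulEquiv.coe_toMonoidHom, MulAut.conj_apply]
      have e1 : b * g * b⁻¹ = (b * a⁻¹) * (a * g * a⁻¹) * (b * a⁻¹)⁻¹ := by group
      rw [e1]
      calc (b * a⁻¹) * x * (b * a⁻¹)⁻¹ * ((b * a⁻¹) * (a * g * a⁻¹) * (b * a⁻¹)⁻¹)
          = (b * a⁻¹) * (x * (a * g * a⁻¹)) * (b * a⁻¹)⁻¹ := by group
        _ = (b * a⁻¹) * ((a * g * a⁻¹) * x) * (b * a⁻¹)⁻¹ := by rw [hx1]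
        _ = (b * a⁻¹) * (a * g * a⁻¹) * (b * a⁻¹)⁻¹ * ((b * a⁻¹) * x * (b * a⁻¹)⁻¹) := by group
    have hKcard : Nat.card (Subgroup.centralizer ({b * g * b⁻¹} : Set G))
        = Nat.card (Subgroup.centralizer ({g} : Set G)) :=
      card_centralizer_conj g b
    have hQcard : Nat.card (P.map (MulAut.conj (b * a⁻¹)).toMonoidHom) = Nat.card P :=
      Subgroup.card_map_of_injective (MulAut.conj (b * a⁻¹)).injective
    obtain ⟨z, hzK, hz⟩ := exists_conj_of_card (p := p) _ _ P hQK hPK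
      (by rw [hQcard, hPcard, hKcard]) (by rw [hPcard, hKcard])
    refine ⟨z * (b * a⁻¹), ?_, ?_⟩
    · rw [Subgroup.mem_normalizer_iff]
      intro x
      have e2 : z * (b * a⁻¹) * x * (z * (b * a⁻¹))⁻¹ = z * ((b * a⁻¹) * x * (b * a⁻¹)⁻¹) * z⁻¹ := by group
      rw [e2, ← hz]
      constructor
      · intro hx
        exact ⟨x, hx, rfl⟩
      · rintro ⟨x', hx', hxx⟩
        have : x' = x := by
          have h3 : (b * a⁻¹) * x' * (b * a⁻¹)⁻¹ = (b * a⁻¹) * x * (b * a⁻¹)⁻¹ := hxx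
          have h4 := mul_right_cancel h3
          exact mul_left_cancel h4
        rw [← this]; exact hx'
    · rw [Subgroup.mem_centralizer_singleton_iff] at hzK
      calc z * (b * a⁻¹) * (a * g * a⁻¹) * (z * (b * a⁻¹))⁻¹ = (z * (b * g * b⁻¹)) * z⁻¹ := by group
        _ = ((b * g * b⁻¹) * z) * z⁻¹ := by rw [hzK]
        _ = b * g * b⁻¹ := by group
  · rintro c hc ⟨S, hS⟩
    exact part2 p P _ hP (hcomm c hc) S hS

end Cfsg.Agent.S0916
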