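import Mathlib
import Cfsg.Statements.S0921
import Cfsg.Agent.Lib.Helper25.BlockOrth
import Cfsg.Agent.Lib.Helper8.BlockNormal
import Cfsg.Agent.Lib.Helper1.Cores

set_option autoImplicit false

open Cfsg

namespace Cfsg.Agent.S0921

open Cfsg.Agent.Lib.Helper2 Cfsg.Agent.Lib.Helper25 Cfsg.Agent.Lib.Helper8

theorem result {G : Type*} [Group G] [Finite G] (p : ℕ) [Fact p.Prime] (M : Ideal Cfsg.AlgInt) (hM : Cfsg.IsPModular p M) [Fintype G] (χ ψ : Cfsg.IrrCharacter G) (h : Cfsg.SameBlock M (χ : G → ℂ) (ψ : G → ℂ)) (θ : Cfsg.IrrCharacter (Cfsg.pPrimeCore p G)) [Fintype (Cfsg.pPrimeCore p G)] : Cfsg.classInner (fun n : Cfsg.pPrimeCore p G => (χ : G → ℂ) n) (θ : Cfsg.pPrimeCore p G → ℂ) ≠ 0 ↔ Cfsg.classInner (fun n : Cfsg.pPrimeCore p G => (ψ : G → ℂ) n) (θ : Cfsg.pPrimeCore p G → ℂ) ≠ 0 := by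
  have hn : (pPrimeCore p G).Normal := Cfsg.Agent.Lib.Helper1.pPrimeCore_normal p
  have hc : ¬ p ∣ Nat.card (pPrimeCore p G) := by
    have h1 := Cfsg.Agent.Lib.Helper1.pPrimeCore_coprime (G := G) p
    intro hdvd
    have h2 := Nat.Coprime.eq_one_of_dvd h1.symm hdvd
    exact (Fact.out : p.Prime).one_lt.ne' h2
  have hpr := isPrime_of_isPModular hM
  constructor
  · exact same_block_constituent hM (pPrimeCore p G) hc χ ψ h θ
  · exact same_block_constituent hM (pPrimeCore p G) hc ψ χ (sameBlock_symm M h) θ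

end Cfsg.Agent.S0921
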