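import Mathlib
import Cfsg.Statements.S0927
import Cfsg.Agent.Lib.Helper8.DefectNum

set_option autoImplicit false
open Cfsg

namespace Cfsg.Agent.S0927

open Cfsg.Agent.Lib.Helper2 Cfsg.Agent.Lib.Helper25 Cfsg.Agent.Lib.Helper8

theorem result {G : Type*} [Group G] [Finite G] (p : ℕ) [Fact p.Prime] (M : Ideal Cfsg.AlgInt) (hM : Cfsg.IsPModular p M) (B : Set (Cfsg.IrrCharacter G)) (hB : Cfsg.IsPBlock M B) (y : G) (hy : Cfsg.IsDefectClass M B y) (P : Sylow p (Subgroup.centralizer ({y} : Set G))) (x : Subgroup.centralizer ({y} : Set G)) (hx : x ∈ (P : Subgroup (Subgroup.centralizer ({y} : Set G)))) : (∀ χ ∈ B, Cfsg.blockHeight p B (χ : G → ℂ) = 0 → ¬ Cfsg.MemLocalIdeal M ((χ : G → ℂ) ((x : G) * y))) ∧ ((∀ w ∈ (P : Subgroup (Subgroup.centralizer ({y} : Set G))), x * w = w * x) → ∀ χ ∈ B, ¬ Cfsg.MemLocalIdeal M (Cfsg.centralChar (χ : G → ℂ) ((x : G) * y))) := by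
  classical
  have hpr := isPrime_of_isPModular hM
  have hp : p.Prime := Fact.out
  obtain ⟨m, hmle, ⟨χ₁, hχ₁B, hχ₁m⟩, hdef, hheight⟩ := block_min_data hM hB
  have hδ := defectClass_factorization hM hB hy
  have hidx := index_factorization (p := p) y
  have hidxm : ((Subgroup.centralizer ({y} : Set G)).index).factorization p = m := by omega
  have hidxne : (Subgroup.centralizer ({y} : Set G)).index ≠ 0 := by
    intro h0
    have := Subgroup.card_mul_index (Subgroup.centralizer ({y} : Set G))
    rw [h0, mul_zero] at this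
    exact Nat.card_pos.ne' this.symm
  obtain ⟨k, hk⟩ := P.isPGroup' ⟨x, hx⟩
  have hxk : (x : G) ^ (p ^ k) = 1 := by
    have := congrArg (fun t : (P : Subgroup (Subgroup.centralizer ({y} : Set G))) =>
      ((t : Subgroup.centralizer ({y} : Set G)) : G)) hk
    simpa using this
  have hxy : (x : G) * y = y * (x : G) :=
    (Subgroup.mem_centralizer_iff.mp x.2 y (Set.mem_singleton y)).symm
  have key : ∀ χ ∈ B, (charDegree (χ : G → ℂ)).factorization p = m →
      ¬ MemLocalIdeal M ((χ : G → ℂ) ((x : G) * y)) := by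
    intro χ hχ hχm hmem
    have h1 := char_mul_sub_mem hM χ (x : G) y k hxk hxy
    have h2 : MemLocalIdeal M ((χ : G → ℂ) y) := by
      have := MemLocalIdeal.sub M hmem h1
      rwa [sub_sub_cancel] at this
    apply hy.2.2 χ hχ
    rw [centralChar_eq_div]
    apply MemLocalIdeal.mul_left M _ h2
    obtain ⟨d, hd, hdeg, hdpos, -, -⟩ := Cfsg.Agent.S0914.irr_degree_data χ
    rw [hd]
    exact rat_memLocalRing hM _ d hidxne hdpos.ne' (by rw [← hdeg, hχm, hidxm])
  constructor
  · intro χ hχ hh
    apply key χ hχ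
    have h1 := hheight χ
    rw [hh] at h1
    have h2 := hmle χ hχ
    omega
  · intro hcent χ hχ hmem
    have hsame := isPBlock_sameBlock' hM hB hχ hχ₁B ((x : G) * y)
    have h1 : MemLocalIdeal M (centralChar (χ₁ : G → ℂ) ((x : G) * y)) := by
      have := MemLocalIdeal.sub M hmem hsame
      rwa [sub_sub_cancel] at this
    apply key χ₁ hχ₁B hχ₁m
    apply char_mem_of_centralChar_mem hM χ₁ _ _ h1
    rw [hχ₁m]
    have hle : (P : Subgroup (Subgroup.centralizer ({y} : Set G))).map
        (Subgroup.centralizer ({y} : Set G)).subtype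
        ≤ Subgroup.centralizer ({(x : G) * y} : Set G) := by
      intro s hs
      obtain ⟨w, hw, rfl⟩ := Subgroup.mem_map.mp hs
      rw [Subgroup.mem_centralizer_iff]
      intro z hz
      rw [Set.mem_singleton_iff.mp hz]
      have h2 := Subgroup.mem_centralizer_iff.mp w.2 y (Set.mem_singleton y)
      have h3 := congrArg (fun t : Subgroup.centralizer ({y} : Set G) => (t : G)) (hcent w hw)
      have h3' : (x : G) * (w : G) = (w : G) * (x : G) := by simpa using h3
      change (x : G) * y * (w : G) = (w : G) * ((x : G) * y)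
      rw [mul_assoc, h2, ← mul_assoc, h3', mul_assoc]
    have hcard := Cfsg.Agent.S0908.result p M hM B hB _ ⟨y, hy, P, rfl⟩
    have hdvd : p ^ blockDefect p B
        ∣ Nat.card (Subgroup.centralizer ({(x : G) * y} : Set G)) := by
      rw [← hcard]
      exact Subgroup.card_dvd_of_le hle
    have h2 : blockDefect p B
        ≤ (Nat.card (Subgroup.centralizer ({(x : G) * y} : Set G))).factorization p :=
      (hp.pow_dvd_iff_le_factorization Nat.card_pos.ne').mp hdvd
    have h3 := index_factorization (p := p) ((x : G) * y)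
    omega

end Cfsg.Agent.S0927
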