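import Mathlib
import Cfsg.Statements.S0930
import Cfsg.Agent.Lib.Helper8.DefectCentral
import Cfsg.Agent.S0927

set_option autoImplicit false
open Cfsg

namespace Cfsg.Agent.S0930

open Cfsg.Agent.Lib.Helper2 Cfsg.Agent.Lib.Helper25 Cfsg.Agent.Lib.Helper8

theorem result {G : Type*} [Group G] [Finite G] (p : ℕ) [Fact p.Prime] (M : Ideal Cfsg.AlgInt) (hM : Cfsg.IsPModular p M) (H : Subgroup G) (b : Set (Cfsg.IrrCharacter H)) (B : Set (Cfsg.IrrCharacter G)) (hind : Cfsg.IsInducedBlock M H b B) (D : Subgroup H) (hD : Cfsg.IsDefectGroup p M b D) (P : Subgroup G) (hP : Cfsg.IsDefectGroup p M B P) (x : G) (hx : x ∈ P) (hxc : ∀ w ∈ P, x * w = w * x) : ∃ g : G, g * x * g⁻¹ ∈ D.map H.subtype ∧ ∀ w ∈ D.map H.subtype, (g * x * g⁻¹) * w = w * (g * x * g⁻¹) := by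
  classical
  have : Fintype G := Fintype.ofFinite G
  have hpr := isPrime_of_isPModular hM
  have hp : p.Prime := Fact.out
  have hb := hind.1
  have hB := hind.2.1
  have hBc : BlockClosed M B := blockClosed_of_isPBlock M hB
  obtain ⟨y, hy, P₁, hPeq⟩ := hP
  subst hPeq
  obtain ⟨x₀, hx₀, rfl⟩ := Subgroup.mem_map.mp hx
  have hcent : ∀ w ∈ (P₁ : Subgroup (Subgroup.centralizer ({y} : Set G))), x₀ * w = w * x₀ := by
    intro w hw
    apply Subtype.ext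
    have := hxc (w : G) (Subgroup.mem_map.mpr ⟨w, hw, rfl⟩)
    simpa using this
  obtain ⟨χ, hχ⟩ := isPBlock_nonempty' hM hB
  have hne := (Cfsg.Agent.S0927.result p M hM B hB y hy P₁ x₀ hx₀).2 hcent χ hχ
  obtain ⟨h', hconj, hh'⟩ := exists_conj_mem_of_induced hM H hind ((x₀ : G) * y) hχ hne
  obtain ⟨ξ, hξ⟩ := isPBlock_nonempty' hM hb
  obtain ⟨x', hconj', hx'c, hx'p⟩ := exists_conj_centralizing hM b hb D hD h' hξ (hh' ξ hξ)
  -- the element x' of H is conjugate in G to x₀ * y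
  have hconjG : IsConj ((x₀ : G) * y) (x' : G) := by
    obtain ⟨c, hc⟩ := isConj_iff.mp hconj'
    have h1 : IsConj (h' : G) (x' : G) := isConj_iff.mpr ⟨(c : G), by
      rw [← hc]; simp⟩
    exact hconj.trans h1
  obtain ⟨c, hc⟩ := isConj_iff.mp hconjG
  -- y is p-regular and x₀ is a p-element
  have hreg : ¬ p ∣ orderOf y := by
    intro hsing
    apply hy.2.1
    rw [blockCoeff_eq_zero_of_singular hM B hBc y hsing]
    exact memLocalIdeal_zero M
  obtain ⟨k, hk⟩ := (IsPGroup.iff_orderOf.mp P₁.isPGroup') ⟨x₀, hx₀⟩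
  have hordx : orderOf (x₀ : G) = p ^ k := by
    rw [Subgroup.orderOf_coe, ← hk]
    exact Subgroup.orderOf_coe (⟨x₀, hx₀⟩ : (P₁ : Subgroup (Subgroup.centralizer ({y} : Set G))))
  have hxy : (x₀ : G) * y = y * (x₀ : G) :=
    (Subgroup.mem_centralizer_iff.mp x₀.2 y (Set.mem_singleton y)).symm
  have hordc : ∀ t : G, orderOf (c * t * c⁻¹) = orderOf t := fun t =>
    orderOf_injective (MulAut.conj c).toMonoidHom (MulAut.conj c).injective t
  have hppG : IsPPart p (x' : G) (c * (x₀ : G) * c⁻¹) := by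
    refine ⟨c * y * c⁻¹, ?_, ?_, ⟨k, by rw [hordc, hordx]⟩, by rw [hordc]; exact hreg⟩
    · rw [← hc]; group
    · change (c * (x₀ : G) * c⁻¹) * (c * y * c⁻¹) = (c * y * c⁻¹) * (c * (x₀ : G) * c⁻¹)
      have e1 : (c * (x₀ : G) * c⁻¹) * (c * y * c⁻¹) = c * ((x₀ : G) * y) * c⁻¹ := by group
      have e2 : (c * y * c⁻¹) * (c * (x₀ : G) * c⁻¹) = c * (y * (x₀ : G)) * c⁻¹ := by group
      rw [e1, e2, hxy]
  obtain ⟨n, hn⟩ := pPart_eq_pow hppG
  -- the p-part inside H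
  have hzH : c * (x₀ : G) * c⁻¹ = ((x' ^ n : H) : G) := by rw [hn]; simp
  have hppH : IsPPart p x' (x' ^ n) := by
    refine ⟨(x' ^ n)⁻¹ * x', by group, ?_, ⟨k, ?_⟩, ?_⟩
    · change x' ^ n * ((x' ^ n)⁻¹ * x') = (x' ^ n)⁻¹ * x' * x' ^ n
      have e1 : x' ^ n * ((x' ^ n)⁻¹ * x') = x' := by group
      have e2 : (x' ^ n)⁻¹ * x' * x' ^ n = (x' ^ n)⁻¹ * (x' * x' ^ n) := by group
      rw [e1, e2, ← pow_succ', pow_succ, ← mul_assoc, inv_mul_cancel, one_mul]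
    · rw [← Subgroup.orderOf_coe, ← hzH, hordc, hordx]
    · have e : (((x' ^ n)⁻¹ * x' : H) : G) = c * y * c⁻¹ := by
        push_cast
        rw [← hn, ← hc]
        group
      rw [← Subgroup.orderOf_coe, e, hordc]
      exact hreg
  obtain ⟨hzD, hzc⟩ := hx'p (x' ^ n) hppH
  refine ⟨c, ?_, ?_⟩
  · change c * (x₀ : G) * c⁻¹ ∈ _
    rw [hzH]
    exact Subgroup.mem_map.mpr ⟨x' ^ n, hzD, rfl⟩
  · intro w hw
    obtain ⟨w₀, hw₀, rfl⟩ := Subgroup.mem_map.mp hw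
    change c * (x₀ : G) * c⁻¹ * _ = _ * (c * (x₀ : G) * c⁻¹)
    rw [hzH]
    have := hzc w₀ hw₀
    exact congrArg (fun t : H => (t : G)) this

end Cfsg.Agent.S0930
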