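import Mathlib
import Cfsg.Statements.S0931
import Cfsg.Agent.Lib.Helper8.DefectCentral
import Cfsg.Agent.S0930

set_option autoImplicit false
open Cfsg

namespace Cfsg.Agent.S0931

open Cfsg.Agent.Lib.Helper2 Cfsg.Agent.Lib.Helper25 Cfsg.Agent.Lib.Helper8

theorem exists_defectGroup {G : Type*} [Group G] [Finite G] (p : ℕ) [Fact p.Prime]
    (M : Ideal Cfsg.AlgInt) (hM : Cfsg.IsPModular p M) (B : Set (Cfsg.IrrCharacter G))
    (hB : Cfsg.IsPBlock M B) : ∃ D : Subgroup G, IsDefectGroup p M B D := by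
  obtain ⟨g, hg⟩ := Cfsg.Agent.S0906.result p M hM B hB
  obtain ⟨Q⟩ : Nonempty (Sylow p (Subgroup.centralizer ({g} : Set G))) := inferInstance
  exact ⟨_, g, hg, Q, rfl⟩

theorem result {G : Type*} [Group G] [Finite G] (p : ℕ) [Fact p.Prime] (M : Ideal Cfsg.AlgInt) (hM : Cfsg.IsPModular p M) (H : Subgroup G) (b : Set (Cfsg.IrrCharacter H)) (B : Set (Cfsg.IrrCharacter G)) (hind : Cfsg.IsInducedBlock M H b B) : Cfsg.blockDefect p b = 0 ↔ Cfsg.blockDefect p B = 0 := by
  classical
  have hp : p.Prime := Fact.out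
  have hb := hind.1
  have hB := hind.2.1
  obtain ⟨D, hD⟩ := exists_defectGroup p M hM b hb
  obtain ⟨P, hP⟩ := exists_defectGroup p M hM B hB
  have hcD := Cfsg.Agent.S0908.result p M hM b hb D hD
  have hcP := Cfsg.Agent.S0908.result p M hM B hB P hP
  have hzero : ∀ (n : ℕ), p ^ n = 1 ↔ n = 0 := by
    intro n
    constructor
    · intro h
      by_contra hn
      have := Nat.one_lt_pow hn hp.one_lt
      omega
    · rintro rfl; rfl
  constructor
  · intro h0
    rw [h0, pow_zero] at hcD
    have hDbot : D = ⊥ := Subgroup.card_eq_one.mp hcD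
    have hPp : IsPGroup p P := by
      obtain ⟨g₁, hg₁, D₁, rfl⟩ := hP
      exact D₁.isPGroup'.map _
    by_contra hne
    have hne' : ¬ p ^ blockDefect p B = 1 := fun h => hne ((hzero _).mp h)
    rw [← hcP] at hne'
    have hPnt : Nontrivial P := by
      rw [← Finite.one_lt_card_iff_nontrivial]
      have : 0 < Nat.card P := Nat.card_pos
      omega
    have hcnt := IsPGroup.center_nontrivial hPp
    obtain ⟨z, hz⟩ := exists_ne (1 : Subgroup.center P)
    have hzc : ∀ w ∈ P, ((z : P) : G) * w = w * ((z : P) : G) := by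
      intro w hw
      have h1 := Subgroup.mem_center_iff.mp z.2 ⟨w, hw⟩
      have h2 := congrArg (fun t : P => (t : G)) h1
      simpa using h2.symm
    obtain ⟨g, hg, -⟩ := Cfsg.Agent.S0930.result p M hM H b B hind D hD P hP ((z : P) : G)
      (z : P).2 hzc
    rw [hDbot] at hg
    have hg1 : g * ((z : P) : G) * g⁻¹ = 1 := by
      obtain ⟨d, hd, hd'⟩ := Subgroup.mem_map.mp hg
      rw [Subgroup.mem_bot] at hd
      rw [← hd', hd]; rfl
    have hz1 : ((z : P) : G) = 1 := by
      have : ((z : P) : G) = g⁻¹ * (g * ((z : P) : G) * g⁻¹) * g := by group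
      rw [this, hg1]; group
    apply hz
    apply Subtype.ext
    apply Subtype.ext
    exact hz1
  · intro h0
    rw [h0, pow_zero] at hcP
    obtain ⟨E, hE, hDE⟩ := defectGroup_le_of_induced hM H hind D hD
    have hcE := Cfsg.Agent.S0908.result p M hM B hB E hE
    rw [h0, pow_zero] at hcE
    have hEbot : E = ⊥ := Subgroup.card_eq_one.mp hcE
    rw [hEbot] at hDE
    have hDbot : D = ⊥ := by
      rw [eq_bot_iff]
      intro d hd
      have := hDE (Subgroup.mem_map.mpr ⟨d, hd, rfl⟩)
      rw [Subgroup.mem_bot] at this ⊢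
      exact Subtype.ext this
    rw [hDbot, Subgroup.card_bot] at hcD
    exact (hzero _).mp hcD.symm

end Cfsg.Agent.S0931
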