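import Mathlib
import Cfsg.Statements.S0932
import Cfsg.Agent.Lib.Helper8.IndAux

set_option autoImplicit false
open Cfsg

namespace Cfsg.Agent.S0932

open Cfsg.Agent.Lib.Helper8

theorem result {G : Type*} [Group G] [Fintype G] (H : Subgroup G) (ξ : H → ℂ) (hξ : Cfsg.IsCharacter H ξ) (g : G) : Cfsg.inducedCentralChar H ξ g = Cfsg.centralChar (Cfsg.indFun H ξ) g := by
  classical
  haveI : Fintype H := Fintype.ofFinite H
  unfold Cfsg.inducedCentralChar Cfsg.centralChar
  rw [finsum_mem_def, finsum_eq_sum_of_fintype, indFun_eq, indFun_one]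
  have key : ∑ h : H, Set.indicator {h : H | IsConj g (h : G)} (fun h => ξ h / ξ 1) h
      = (∑ c : G, Set.indicator {c : G | IsConj g c} (Cfsg.extendByZero H ξ) c) / ξ 1 := by
    rw [Finset.sum_div]
    apply Fintype.sum_of_injective (Subtype.val : H → G) Subtype.val_injective
    · intro c hc
      have hcH : c ∉ H := fun h => hc ⟨⟨c, h⟩, rfl⟩
      by_cases hcc : IsConj g c
      · rw [Set.indicator_of_mem (show c ∈ {c : G | IsConj g c} from hcc),
          extendByZero_not_mem H ξ c hcH, zero_div]
      · rw [Set.indicator_of_notMem (show c ∉ {c : G | IsConj g c} from hcc), zero_div]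
    · intro h
      by_cases hcc : IsConj g (h : G)
      · rw [Set.indicator_of_mem (show h ∈ {h : H | IsConj g (h : G)} from hcc),
          Set.indicator_of_mem (show (h : G) ∈ {c : G | IsConj g c} from hcc),
          extendByZero_mem H ξ h h.2]
      · rw [Set.indicator_of_notMem (show h ∉ {h : H | IsConj g (h : G)} from hcc),
          Set.indicator_of_notMem (show (h : G) ∉ {c : G | IsConj g c} from hcc), zero_div]
  rw [key]
  set T := ∑ c : G, Set.indicator {c : G | IsConj g c} (Cfsg.extendByZero H ξ) c with hT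
  have h3 : (Nat.card H : ℂ) ≠ 0 := by
    exact_mod_cast (Nat.card_pos (α := H)).ne'
  have h4 : ((Subgroup.centralizer ({g} : Set G)).index : ℂ)
      * (Nat.card (Subgroup.centralizer ({g} : Set G)) : ℂ) = (H.index : ℂ) * (Nat.card H : ℂ) := by
    have e1 := Subgroup.index_mul_card (Subgroup.centralizer ({g} : Set G))
    have e2 := Subgroup.index_mul_card H
    exact_mod_cast e1.trans e2.symm
  have h5 : (H.index : ℂ) ≠ 0 := by
    have : H.index ≠ 0 := Subgroup.index_ne_zero_of_finite
    exact_mod_cast this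
  by_cases h1 : ξ 1 = 0
  · rw [h1]; simp
  · have h6 : ((Subgroup.centralizer ({g} : Set G)).index : ℂ) *
        ((Nat.card H : ℂ)⁻¹ * ((Nat.card (Subgroup.centralizer ({g} : Set G)) : ℂ) * T))
        = (H.index : ℂ) * T := by
      calc ((Subgroup.centralizer ({g} : Set G)).index : ℂ) *
          ((Nat.card H : ℂ)⁻¹ * ((Nat.card (Subgroup.centralizer ({g} : Set G)) : ℂ) * T))
          = (((Subgroup.centralizer ({g} : Set G)).index : ℂ)
              * (Nat.card (Subgroup.centralizer ({g} : Set G)) : ℂ)) * (Nat.card H : ℂ)⁻¹ * T := by ring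
        _ = (H.index : ℂ) * T := by rw [h4]; field_simp
    rw [h6]
    field_simp

end Cfsg.Agent.S0932
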