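import Mathlib
import Cfsg.Statements.S0934
import Cfsg.Agent.Lib.Helper8.InducedBlock

set_option autoImplicit false

open Cfsg

namespace Cfsg.Agent.S0934

open Cfsg.Agent.Lib.Helper2 Cfsg.Agent.Lib.Helper25 Cfsg.Agent.Lib.Helper8

theorem result {G : Type*} [Group G] [Fintype G] (p : ℕ) [Fact p.Prime] (M : Ideal Cfsg.AlgInt) (hM : Cfsg.IsPModular p M) (H : Subgroup G) [Fintype H] (b : Set (Cfsg.IrrCharacter H)) (B : Set (Cfsg.IrrCharacter G)) (hind : Cfsg.IsInducedBlock M H b B) (ξ : Cfsg.IrrCharacter H) (hξ : ξ ∈ b) : ∃ χ ∈ B, Cfsg.classInner (fun h : H => (χ : G → ℂ) h) (ξ : H → ℂ) ≠ 0 := by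
  classical
  have hpr := isPrime_of_isPModular hM
  obtain ⟨hb, ⟨χ₀, rfl⟩, hcc⟩ := hind
  have hχ₀ : χ₀ ∈ blockOf M (χ₀ : G → ℂ) := sameBlock_refl M _
  apply exists_over_of_induced hM H ξ χ₀
  intro g
  have := hcc ξ hξ χ₀ hχ₀ g
  rwa [inducedCentralChar_eq H _ (irr_one_ne_zero ξ.2)] at this

end Cfsg.Agent.S0934
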