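import Mathlib
import Cfsg.Statements.S0938
import Cfsg.Agent.Lib.Helper25.BlockOrth
import Cfsg.Agent.Lib.Helper25.Codegree
import Cfsg.Agent.Lib.Helper8.BlockReg

set_option autoImplicit false

open Cfsg

namespace Cfsg.Agent.S0938

open Cfsg.Agent.Lib.Helper2 Cfsg.Agent.Lib.Helper25 Cfsg.Agent.Lib.Helper8

open scoped ComplexConjugate

theorem exists_ker {G : Type*} [Group G] [Finite G] (χ : IrrCharacter G) :
    ∃ K : Subgroup G, K.Normal ∧ ∀ g : G, g ∈ K ↔ (χ : G → ℂ) g = (χ : G → ℂ) 1 := by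
  obtain ⟨K, hK, _, _, h, _⟩ := codegree_data χ
  exact ⟨K, hK, h⟩

theorem result {G : Type*} [Group G] [Finite G] (p : ℕ) [Fact p.Prime] (M : Ideal Cfsg.AlgInt) (hM : Cfsg.IsPModular p M) (B : Set (Cfsg.IrrCharacter G)) (hB : Cfsg.IsPBlock M B) (χ : Cfsg.IrrCharacter G) (hχ : χ ∈ B) : ∃ K : Subgroup G, K.Normal ∧ (K : Set G) = Cfsg.blockKer B ∧ ¬ p ∣ Nat.card K ∧ (∀ g ∈ K, (χ : G → ℂ) g = (χ : G → ℂ) 1) ∧ ∀ N : Subgroup G, N.Normal → ¬ p ∣ Nat.card N → (∀ g ∈ N, (χ : G → ℂ) g = (χ : G → ℂ) 1) → N ≤ K := by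
  classical
  have : Fintype G := Fintype.ofFinite G
  have : Fintype (IrrCharacter G) := Fintype.ofFinite _
  have hpr := isPrime_of_isPModular hM
  have hcl := blockClosed_of_isPBlock M hB
  have hne := card_ne_zero_complex G
  choose Kf hKn hKmem using fun χ' : IrrCharacter G => exists_ker χ'
  let K : Subgroup G := ⨅ χ' : IrrCharacter G, ⨅ _ : χ' ∈ B, Kf χ'
  have hKiff : ∀ g : G, g ∈ K ↔ ∀ χ' ∈ B, (χ' : G → ℂ) g = (χ' : G → ℂ) 1 := by
    intro g
    simp only [K, Subgroup.mem_iInf, hKmem]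
  have hKnormal : K.Normal := by
    apply Subgroup.normal_iInf_normal
    intro χ'
    apply Subgroup.normal_iInf_normal
    intro _
    exact hKn χ'
  refine ⟨K, hKnormal, ?_, ?_, ?_, ?_⟩
  · ext g
    rw [SetLike.mem_coe, hKiff]
    rfl
  · intro hdvd
    obtain ⟨g, hg⟩ := exists_prime_orderOf_dvd_card' (G := K) p hdvd
    have hgK : (g : G) ∈ K := g.2
    have hord : p ∣ orderOf (g : G) := by
      rw [Subgroup.orderOf_coe, hg]
    have h0 := blockCoeff_eq_zero_of_singular hM B hcl (g : G) hord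
    rw [blockCoeff_eq_sum] at h0
    have h1 : ∀ χ' : IrrCharacter G, (if χ' ∈ B then (1 : ℂ) else 0) *
        ((χ' : G → ℂ) 1 * conj ((χ' : G → ℂ) (g : G)))
        = ((if χ' ∈ B then Complex.normSq ((χ' : G → ℂ) 1) else 0 : ℝ) : ℂ) := by
      intro χ'
      split_ifs with h
      · rw [(hKiff g).mp hgK χ' h, Complex.mul_conj, one_mul]
      · simp
    simp only [h1] at h0
    rcases mul_eq_zero.mp h0 with h2 | h2
    · exact inv_ne_zero hne h2
    · have h3 : ∑ χ' : IrrCharacter G,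
          (if χ' ∈ B then Complex.normSq ((χ' : G → ℂ) 1) else 0 : ℝ) = 0 := by
        exact_mod_cast h2
      have hnn : ∀ χ' ∈ (Finset.univ : Finset (IrrCharacter G)), (0 : ℝ) ≤
          (if χ' ∈ B then Complex.normSq ((χ' : G → ℂ) 1) else 0) := by
        intro χ' _
        split_ifs
        · exact Complex.normSq_nonneg _
        · exact le_refl _
      have h4 := (Finset.sum_eq_zero_iff_of_nonneg hnn).mp h3 χ (Finset.mem_univ _)
      rw [if_pos hχ] at h4
      exact irr_one_ne_zero χ.2 (Complex.normSq_eq_zero.mp h4)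
  · intro g hg
    exact (hKiff g).mp hg χ hχ
  · intro N hN hNp hNχ g hg
    have : Fintype N := Fintype.ofFinite N
    rw [hKiff]
    intro χ' hχ'
    obtain ⟨χ₀, rfl⟩ := hB
    have hs : SameBlock M (χ : G → ℂ) (χ' : G → ℂ) :=
      sameBlock_trans M (sameBlock_symm M hχ) hχ'
    have h1 := same_block_constituent hM N hNp χ χ' hs ⟨fun _ => 1, isIrrCharacter_one⟩
      (trivial_constituent_of_kernel N χ hNχ)
    exact kernel_of_trivial_constituent N χ' h1 g hg

end Cfsg.Agent.S0938
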