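import Cfsg.Statements.S0946
-- import your own Cfsg.Agent.* helpers here
import Mathlib

set_option autoImplicit false
open Cfsg

namespace Cfsg.Agent.S0946


open scoped Pointwise

theorem klein_aux {M : Type*} [AddGroup M] (h : M) (hh : h + h = 0)
    (a1 a2 b1 b2 x1 x2 : M)
    (ha1 : a1 = 0 ∨ a1 = h) (ha2 : a2 = 0 ∨ a2 = h) (hb1 : b1 = 0 ∨ b1 = h) (hb2 : b2 = 0 ∨ b2 = h)
    (hx1 : x1 = 0 ∨ x1 = h) (hx2 : x2 = 0 ∨ x2 = h)
    (ha : (a1, a2) ≠ (0, 0)) (hb : (b1, b2) ≠ (0, 0)) (hab : (a1, a2) ≠ (b1, b2)) :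
    (x1, x2) = (0, 0) ∨ (x1, x2) = (a1, a2) ∨ (x1, x2) = (b1, b2) ∨
      (x1, x2) = (a1 + b1, a2 + b2) := by
  rcases ha1 with rfl | rfl <;> rcases ha2 with rfl | rfl <;> rcases hb1 with rfl | rfl <;>
    rcases hb2 with rfl | rfl <;> rcases hx1 with rfl | rfl <;> rcases hx2 with rfl | rfl <;>
    simp_all

theorem zmod_two_tor (m : ℕ) (hm : 1 ≤ m) (y : ZMod (2 ^ m)) (hy : y + y = 0) :
    y = 0 ∨ y = ((2 ^ (m - 1) : ℕ) : ZMod (2 ^ m)) := by
  have : NeZero (2 ^ m) := ⟨by positivity⟩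
  have h1 : ((y.val : ℕ) : ZMod (2 ^ m)) = y := ZMod.natCast_zmod_val y
  have h2 : (((y.val + y.val : ℕ)) : ZMod (2 ^ m)) = 0 := by
    push_cast; rw [h1]; exact hy
  rw [ZMod.natCast_eq_zero_iff] at h2
  have h3 : y.val < 2 ^ m := ZMod.val_lt y
  obtain ⟨k, rfl⟩ : ∃ k, m = k + 1 := ⟨m - 1, by omega⟩
  simp only [Nat.add_sub_cancel]
  have hpos : 0 < 2 ^ k := by positivity
  have h2' : 2 ^ k * 2 ∣ y.val + y.val := by rw [← pow_succ]; exact h2
  have h3' : y.val < 2 ^ k * 2 := by rw [← pow_succ]; exact h3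
  obtain ⟨c, hc⟩ := h2'
  have hv : y.val = 2 ^ k * c := by nlinarith
  have hc2 : c < 2 := by
    by_contra hcon
    have hcon' : 2 ≤ c := Nat.le_of_not_lt hcon
    nlinarith
  interval_cases c
  · left; rw [← h1, hv]; simp
  · right; rw [← h1, hv]; simp

theorem zmod_h_add (m : ℕ) (hm : 1 ≤ m) :
    (((2 ^ (m - 1) : ℕ) : ZMod (2 ^ m)) + ((2 ^ (m - 1) : ℕ) : ZMod (2 ^ m))) = 0 := by
  obtain ⟨k, rfl⟩ : ∃ k, m = k + 1 := ⟨m - 1, by omega⟩
  simp only [Nat.add_sub_cancel]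
  rw [← Nat.cast_add, ZMod.natCast_eq_zero_iff]
  exact ⟨1, by ring⟩

section core
variable {G : Type*} [Group G] (P : Subgroup G)

theorem conj_pow_succ (g x : G) (j : ℕ) :
    g ^ (j + 1) * x * (g ^ (j + 1))⁻¹ = g * (g ^ j * x * (g ^ j)⁻¹) * g⁻¹ := by
  rw [pow_succ']; group

theorem eq_one_of_sq_of_odd (y : G) (r : ℕ) (hr : ¬ 2 ∣ r) (h2 : y ^ 2 = 1) (hy : y ^ r = 1) :
    y = 1 := by
  obtain ⟨i, rfl⟩ : ∃ i, r = 2 * i + 1 := ⟨r / 2, by omega⟩
  rw [pow_succ, pow_mul, h2, one_pow, one_mul] at hy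
  exact hy

theorem conj_pow_fix (hPc : ∀ x ∈ P, ∀ y ∈ P, x * y = y * x) (g : G) (r : ℕ) (hgr : g ^ r ∈ P)
    (x : G) (hx : x ∈ P) : g ^ r * x * (g ^ r)⁻¹ = x := by
  rw [hPc _ hgr _ hx]; group

/-- an odd-order automorphism fixing the involutions fixes everything -/
theorem lemB (hPc : ∀ x ∈ P, ∀ y ∈ P, x * y = y * x) (hP2 : ∀ x ∈ P, ∃ k : ℕ, x ^ 2 ^ k = 1)
    (g : G) (hgN : ∀ x ∈ P, g * x * g⁻¹ ∈ P) (r : ℕ) (hr : ¬ 2 ∣ r) (hgr : g ^ r ∈ P)
    (hinv : ∀ x ∈ P, x ^ 2 = 1 → g * x * g⁻¹ = x) : ∀ x ∈ P, g * x * g⁻¹ = x := by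
  have key : ∀ k : ℕ, ∀ x ∈ P, x ^ 2 ^ k = 1 → g * x * g⁻¹ = x := by
    intro k
    induction k with
    | zero =>
      intro x _ hx1
      rw [pow_zero, pow_one] at hx1
      rw [hx1]; group
    | succ k ih =>
      intro x hx hxk
      have hx2 : g * x ^ 2 * g⁻¹ = x ^ 2 := by
        apply ih _ (P.pow_mem hx 2)
        rw [← pow_mul, ← pow_succ']; exact hxk
      have hgx : g * x * g⁻¹ ∈ P := hgN x hx
      obtain ⟨y, hy⟩ : ∃ y, y = g * x * g⁻¹ * x⁻¹ := ⟨_, rfl⟩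
      have hgxy : g * x * g⁻¹ = y * x := by rw [hy]; group
      have hyP : y ∈ P := by rw [hy]; exact P.mul_mem hgx (P.inv_mem hx)
      have hy2 : y ^ 2 = 1 := by
        have e1 : y ^ 2 = (g * x * g⁻¹) * (x⁻¹ * (g * x * g⁻¹)) * x⁻¹ := by
          rw [hy, pow_two]; group
        rw [e1, hPc _ (P.inv_mem hx) _ hgx]
        have e2 : g * x * g⁻¹ * (g * x * g⁻¹ * x⁻¹) * x⁻¹ = (g * x ^ 2 * g⁻¹) * (x ^ 2)⁻¹ := by
          rw [pow_two]; group
        rw [e2, hx2]; group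
      have hyfix : g * y * g⁻¹ = y := hinv _ hyP hy2
      have hj : ∀ j : ℕ, g ^ j * x * (g ^ j)⁻¹ = x * y ^ j := by
        intro j
        induction j with
        | zero => simp
        | succ j ihj =>
          rw [conj_pow_succ, ihj]
          have e3 : g * (x * y ^ j) * g⁻¹ = (g * x * g⁻¹) * (g * y * g⁻¹) ^ j := by
            rw [conj_pow]; group
          rw [e3, hyfix, hgxy, hPc _ hyP _ hx, pow_succ, mul_assoc]
          congr 1
          exact ((Commute.refl y).pow_right j).eq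
      have hyr : y ^ r = 1 := by
        have h1 := hj r
        rw [conj_pow_fix P hPc g r hgr x hx] at h1
        exact (mul_eq_left.mp h1.symm)
      have hy1 := eq_one_of_sq_of_odd _ r hr hy2 hyr
      rw [hgxy, hy1, one_mul]
  intro x hx
  obtain ⟨k, hk⟩ := hP2 x hx
  exact key k x hx hk

/-- an odd-order automorphism fixing one involution of a four-group fixes all of them -/
theorem lemA (hPc : ∀ x ∈ P, ∀ y ∈ P, x * y = y * x)
    (hK : ∀ a ∈ P, ∀ b ∈ P, ∀ x ∈ P, a ^ 2 = 1 → b ^ 2 = 1 → x ^ 2 = 1 → a ≠ 1 → b ≠ 1 → a ≠ b →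
      x = 1 ∨ x = a ∨ x = b ∨ x = a * b)
    (g : G) (hgN : ∀ x ∈ P, g * x * g⁻¹ ∈ P) (r : ℕ) (hr : ¬ 2 ∣ r) (hgr : g ^ r ∈ P)
    (a : G) (ha : a ∈ P) (ha1 : a ≠ 1) (ha2 : a ^ 2 = 1) (hga : g * a * g⁻¹ = a) :
    ∀ b ∈ P, b ^ 2 = 1 → g * b * g⁻¹ = b := by
  intro b hb hb2
  by_cases hb1 : b = 1
  · rw [hb1]; group
  by_cases hba : a = b
  · rw [← hba]; exact hga
  have hb' : g * b * g⁻¹ ∈ P := hgN b hb
  have hb'2 : (g * b * g⁻¹) ^ 2 = 1 := by
    rw [conj_pow, hb2]; group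
  rcases hK a ha b hb _ hb' ha2 hb2 hb'2 ha1 hb1 hba with h | h | h | h
  · exfalso; apply hb1
    have : b = g⁻¹ * (g * b * g⁻¹) * g := by group
    rw [this, h]; group
  · exfalso; apply hba
    have e1 : g * b * g⁻¹ = g * a * g⁻¹ := by rw [h, hga]
    exact (mul_left_cancel (mul_right_cancel e1)).symm
  · exact h
  · exfalso
    have hj : ∀ j : ℕ, g ^ j * b * (g ^ j)⁻¹ = a ^ j * b := by
      intro j
      induction j with
      | zero => simp
      | succ j ihj =>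
        rw [conj_pow_succ, ihj]
        have e3 : g * (a ^ j * b) * g⁻¹ = (g * a * g⁻¹) ^ j * (g * b * g⁻¹) := by
          rw [conj_pow]; group
        rw [e3, hga, h, pow_succ, mul_assoc]
    have h1 := hj r
    rw [conj_pow_fix P hPc g r hgr b hb] at h1
    have har : a ^ r = 1 := mul_eq_right.mp h1.symm
    exact ha1 (eq_one_of_sq_of_odd a r hr ha2 har)

theorem core_conj (hPc : ∀ x ∈ P, ∀ y ∈ P, x * y = y * x)
    (hP2 : ∀ x ∈ P, ∃ k : ℕ, x ^ 2 ^ k = 1)
    (hK : ∀ a ∈ P, ∀ b ∈ P, ∀ x ∈ P, a ^ 2 = 1 → b ^ 2 = 1 → x ^ 2 = 1 → a ≠ 1 → b ≠ 1 → a ≠ b →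
      x = 1 ∨ x = a ∨ x = b ∨ x = a * b)
    (g : G) (hgN : ∀ x ∈ P, g * x * g⁻¹ ∈ P) (r : ℕ) (hr : ¬ 2 ∣ r) (hgr : g ^ r ∈ P)
    (hne : ∃ x ∈ P, g * x * g⁻¹ ≠ x) :
    ∃ u : G, ∀ x ∈ P, x ^ 2 = 1 → x ≠ 1 → IsConj u x := by
  have h1 : ∃ u ∈ P, u ^ 2 = 1 ∧ g * u * g⁻¹ ≠ u := by
    by_contra hcon
    obtain ⟨x, hx, hxne⟩ := hne
    apply hxne
    apply lemB P hPc hP2 g hgN r hr hgr _ x hx
    intro u hu hu2
    by_contra hne'
    exact hcon ⟨u, hu, hu2, hne'⟩
  obtain ⟨u, hu, hu2, hgu⟩ := h1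
  have hu1 : u ≠ 1 := by
    rintro rfl
    apply hgu; group
  obtain ⟨v, hv⟩ : ∃ v, v = g * u * g⁻¹ := ⟨_, rfl⟩
  have hvP : v ∈ P := by rw [hv]; exact hgN u hu
  have hv2 : v ^ 2 = 1 := by rw [hv, conj_pow, hu2]; group
  have hv1 : v ≠ 1 := by
    intro h
    apply hu1
    have : u = g⁻¹ * v * g := by rw [hv]; group
    rw [this, h]; group
  have huv : u ≠ v := fun h => hgu (by rw [← hv]; exact h.symm)
  obtain ⟨w, hw⟩ : ∃ w, w = g * v * g⁻¹ := ⟨_, rfl⟩
  have hwP : w ∈ P := by rw [hw]; exact hgN v hvP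
  have hw2 : w ^ 2 = 1 := by rw [hw, conj_pow, hv2]; group
  have hw' : w = u * v := by
    rcases hK u hu v hvP w hwP hu2 hv2 hw2 hu1 hv1 huv with h | h | h | h
    · exfalso; apply hv1
      have : v = g⁻¹ * w * g := by rw [hw]; group
      rw [this, h]; group
    · exfalso
      -- g swaps u and v
      have hj : ∀ i : ℕ, g ^ (2 * i) * u * (g ^ (2 * i))⁻¹ = u ∧
          g ^ (2 * i + 1) * u * (g ^ (2 * i + 1))⁻¹ = v := by
        intro i
        induction i with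
        | zero => simp [hv]
        | succ i ihi =>
          have e1 : g ^ (2 * (i + 1)) * u * (g ^ (2 * (i + 1)))⁻¹ = u := by
            have : 2 * (i + 1) = (2 * i + 1) + 1 := by ring
            rw [this, conj_pow_succ, ihi.2, ← hw, h]
          refine ⟨e1, ?_⟩
          rw [conj_pow_succ, e1, hv]
      obtain ⟨i, rfl⟩ : ∃ i, r = 2 * i + 1 := ⟨r / 2, by omega⟩
      have h1 := (hj i).2
      rw [conj_pow_fix P hPc g _ hgr u hu] at h1
      exact huv h1
    · exfalso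
      apply hgu
      apply lemA P hPc hK g hgN r hr hgr v hvP hv1 hv2 (by rw [← hw]; exact h) u hu hu2
    · exact h
  refine ⟨u, ?_⟩
  intro x hx hx2 hx1
  rcases hK u hu v hvP x hx hu2 hv2 hx2 hu1 hv1 huv with h | h | h | h
  · exact absurd h hx1
  · rw [h]
  · rw [h, hv]
    exact isConj_iff.mpr ⟨g, rfl⟩
  · rw [h, ← hw', hw, hv]
    exact isConj_iff.mpr ⟨g * g, by group⟩

end core


/-- Let P be a Sylow 2-subgroup of the finite group G isomorphic to Z/2^m × Z/2^m with m ≥ 1. Then either P has a normal complement in G, or all involutions of G are conjugate. -/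
theorem result {G : Type*} [Group G] [Finite G] (P : Sylow 2 G) (m : ℕ) (hm : 1 ≤ m) (e : (P : Subgroup G) ≃* Multiplicative (ZMod (2 ^ m) × ZMod (2 ^ m))) : (∃ N : Subgroup G, N.Normal ∧ Subgroup.IsComplement' N (P : Subgroup G)) ∨ ∀ s t : G, orderOf s = 2 → orderOf t = 2 → IsConj s t := by
  classical
  have : Fact (Nat.Prime 2) := ⟨Nat.prime_two⟩
  -- abelian
  have hPc : ∀ x ∈ (P : Subgroup G), ∀ y ∈ (P : Subgroup G), x * y = y * x := by
    intro x hx y hy
    have h1 : e (⟨x, hx⟩ * ⟨y, hy⟩) = e (⟨y, hy⟩ * ⟨x, hx⟩) := by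
      rw [map_mul, map_mul, mul_comm]
    have h2 := e.injective h1
    exact congrArg Subtype.val h2
  have hP2 : ∀ x ∈ (P : Subgroup G), ∃ k : ℕ, x ^ 2 ^ k = 1 := by
    intro x hx
    obtain ⟨k, hk⟩ := P.isPGroup' ⟨x, hx⟩
    exact ⟨k, by simpa using congrArg Subtype.val hk⟩
  -- the involutions
  have hcomp : ∀ x : (P : Subgroup G), (x : G) ^ 2 = 1 →
      ((Multiplicative.toAdd (e x)).1 = 0 ∨
        (Multiplicative.toAdd (e x)).1 = ((2 ^ (m - 1) : ℕ) : ZMod (2 ^ m))) ∧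
      ((Multiplicative.toAdd (e x)).2 = 0 ∨
        (Multiplicative.toAdd (e x)).2 = ((2 ^ (m - 1) : ℕ) : ZMod (2 ^ m))) := by
    intro x hx
    have h1 : x ^ 2 = 1 := Subtype.ext (by simpa using hx)
    have h2 : (e x) ^ 2 = 1 := by rw [← map_pow, h1, map_one]
    have h3 : Multiplicative.toAdd (e x) + Multiplicative.toAdd (e x) = 0 := by
      have := congrArg Multiplicative.toAdd h2
      rw [pow_two] at this
      simpa using this
    have h4 := congrArg Prod.fst h3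
    have h5 := congrArg Prod.snd h3
    simp only [Prod.fst_add, Prod.snd_add, Prod.fst_zero, Prod.snd_zero] at h4 h5
    exact ⟨zmod_two_tor m hm _ h4, zmod_two_tor m hm _ h5⟩
  have hK : ∀ a ∈ (P : Subgroup G), ∀ b ∈ (P : Subgroup G), ∀ x ∈ (P : Subgroup G),
      a ^ 2 = 1 → b ^ 2 = 1 → x ^ 2 = 1 → a ≠ 1 → b ≠ 1 → a ≠ b →
      x = 1 ∨ x = a ∨ x = b ∨ x = a * b := by
    intro a ha b hb x hx ha2 hb2 hx2 ha1 hb1 hab
    obtain ⟨A1, A2⟩ := hcomp ⟨a, ha⟩ ha2
    obtain ⟨B1, B2⟩ := hcomp ⟨b, hb⟩ hb2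
    obtain ⟨X1, X2⟩ := hcomp ⟨x, hx⟩ hx2
    have hinj : ∀ y z : (P : Subgroup G),
        ((Multiplicative.toAdd (e y)).1, (Multiplicative.toAdd (e y)).2) =
          ((Multiplicative.toAdd (e z)).1, (Multiplicative.toAdd (e z)).2) → y = z := by
      intro y z h
      apply e.injective
      apply Multiplicative.toAdd.injective
      exact h
    have hA0 : ((Multiplicative.toAdd (e ⟨a, ha⟩)).1, (Multiplicative.toAdd (e ⟨a, ha⟩)).2)
        ≠ (0, 0) := by
      intro h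
      apply ha1
      have h1 : (⟨a, ha⟩ : (P : Subgroup G)) = 1 := by
        apply hinj
        rw [h, map_one]; rfl
      exact congrArg Subtype.val h1
    have hB0 : ((Multiplicative.toAdd (e ⟨b, hb⟩)).1, (Multiplicative.toAdd (e ⟨b, hb⟩)).2)
        ≠ (0, 0) := by
      intro h
      apply hb1
      have h1 : (⟨b, hb⟩ : (P : Subgroup G)) = 1 := by
        apply hinj
        rw [h, map_one]; rfl
      exact congrArg Subtype.val h1
    have hAB : ((Multiplicative.toAdd (e ⟨a, ha⟩)).1, (Multiplicative.toAdd (e ⟨a, ha⟩)).2)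
        ≠ ((Multiplicative.toAdd (e ⟨b, hb⟩)).1, (Multiplicative.toAdd (e ⟨b, hb⟩)).2) := by
      intro h
      apply hab
      exact congrArg Subtype.val (hinj _ _ h)
    rcases klein_aux _ (zmod_h_add m hm) _ _ _ _ _ _ A1 A2 B1 B2 X1 X2 hA0 hB0 hAB
      with h | h | h | h
    · left
      have h1 : (⟨x, hx⟩ : (P : Subgroup G)) = 1 := by
        apply hinj
        rw [h, map_one]; rfl
      exact congrArg Subtype.val h1
    · right; left
      exact congrArg Subtype.val (hinj _ _ h)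
    · right; right; left
      exact congrArg Subtype.val (hinj _ ⟨b, hb⟩ h)
    · right; right; right
      have h1 : (⟨x, hx⟩ : (P : Subgroup G)) = ⟨a, ha⟩ * ⟨b, hb⟩ := by
        apply hinj
        rw [h, map_mul]; rfl
      exact congrArg Subtype.val h1
  by_cases hNC : Subgroup.normalizer ((P : Subgroup G) : Set G) ≤ Subgroup.centralizer ((P : Subgroup G) : Set G)
  · left
    exact ⟨(MonoidHom.transferSylow P hNC).ker, inferInstance,
      MonoidHom.ker_transferSylow_isComplement' P hNC⟩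
  · right
    obtain ⟨g, hgN, hgC⟩ := Set.not_subset.mp hNC
    have hgN' : ∀ x ∈ (P : Subgroup G), g * x * g⁻¹ ∈ (P : Subgroup G) := by
      intro x hx
      exact (Subgroup.mem_normalizer_iff.mp hgN x).mp hx
    have hne : ∃ x ∈ (P : Subgroup G), g * x * g⁻¹ ≠ x := by
      by_contra hcon
      apply hgC
      rw [SetLike.mem_coe, Subgroup.mem_centralizer_iff]
      intro x hx
      have h1 : g * x * g⁻¹ = x := by
        by_contra h
        exact hcon ⟨x, hx, h⟩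
      have h2 : g * x = x * g := by
        have : g * x = (g * x * g⁻¹) * g := by group
        rw [this, h1]
      exact h2.symm
    -- the odd exponent
    obtain ⟨r, hr, hgr⟩ : ∃ r : ℕ, ¬ 2 ∣ r ∧ g ^ r ∈ (P : Subgroup G) := by
      refine ⟨(P : Subgroup G).relIndex (Subgroup.normalizer ((P : Subgroup G) : Set G)), ?_, ?_⟩
      · intro h
        exact P.not_dvd_index (h.trans (Subgroup.relIndex_dvd_index_of_le Subgroup.le_normalizer))
      · have : ((P : Subgroup G).subgroupOf (Subgroup.normalizer ((P : Subgroup G) : Set G))).Normal :=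
          Subgroup.normal_in_normalizer
        have h1 := Subgroup.pow_index_mem ((P : Subgroup G).subgroupOf (Subgroup.normalizer ((P : Subgroup G) : Set G)))
          (⟨g, hgN⟩ : ↥(Subgroup.normalizer ((P : Subgroup G) : Set G)))
        rw [Subgroup.mem_subgroupOf] at h1
        exact h1
    obtain ⟨u, hu⟩ := core_conj (P : Subgroup G) hPc hP2 hK g hgN' r hr hgr hne
    have hall : ∀ s : G, orderOf s = 2 → IsConj u s := by
      intro s hs
      have hs2 : s ^ 2 = 1 := by rw [← hs]; exact pow_orderOf_eq_one s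
      have hs1 : s ≠ 1 := by
        rintro rfl
        rw [orderOf_one] at hs
        omega
      have hpg : IsPGroup 2 (Subgroup.zpowers s) := by
        rintro ⟨x, hx⟩
        obtain ⟨i, rfl⟩ := Subgroup.mem_zpowers_iff.mp hx
        refine ⟨1, ?_⟩
        apply Subtype.ext
        show (s ^ i) ^ 2 ^ 1 = 1
        rw [pow_one, ← zpow_natCast, ← zpow_mul, mul_comm, zpow_mul, zpow_natCast, hs2, one_zpow]
      obtain ⟨Q, hQ⟩ := hpg.exists_le_sylow
      obtain ⟨h, hh⟩ := MulAction.exists_smul_eq G Q P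
      have hsQ : s ∈ (Q : Subgroup G) := hQ (Subgroup.mem_zpowers s)
      have hsP : h * s * h⁻¹ ∈ (P : Subgroup G) := by
        rw [← hh]
        show h * s * h⁻¹ ∈ MulAut.conj h • (Q : Subgroup G)
        rw [Subgroup.mem_pointwise_smul_iff_inv_smul_mem]
        have e1 : (MulAut.conj h)⁻¹ • (h * s * h⁻¹) = s := by
          rw [MulAut.smul_def, ← map_inv, MulAut.conj_apply]
          group
        rw [e1]
        exact hsQ
      have h2 : (h * s * h⁻¹) ^ 2 = 1 := by rw [conj_pow, hs2]; group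
      have h1 : h * s * h⁻¹ ≠ 1 := by
        intro hcon
        apply hs1
        have : s = h⁻¹ * (h * s * h⁻¹) * h := by group
        rw [this, hcon]; group
      have h3 := hu _ hsP h2 h1
      exact h3.trans (isConj_iff.mpr ⟨h⁻¹, by group⟩)
    intro s t hs ht
    exact (hall s hs).symm.trans (hall t ht)

end Cfsg.Agent.S0946
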