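import Cfsg.Statements.S0945
import Cfsg.Agent.S0946

set_option autoImplicit false
open Cfsg

namespace Cfsg.Agent.S0945

/-- Let P be a Sylow 2-subgroup of the finite group G isomorphic to Z/2^m × Z/2^m with m ≥ 1. Then (i) the index of C_G(P) in N_G(P) is 1 or 3, and (ii) if it is not 1, then for every z ≠ 1 in P, C_G(z) ∩ N_G(P) = C_G(P). -/
theorem result {G : Type*} [Group G] [Finite G] (P : Sylow 2 G) (m : ℕ) (hm : 1 ≤ m) (e : (P : Subgroup G) ≃* Multiplicative (ZMod (2 ^ m) × ZMod (2 ^ m))) : ((Subgroup.centralizer (P : Set G)).relIndex (Subgroup.normalizer (P : Set G)) = 1 ∨ (Subgroup.centralizer (P : Set G)).relIndex (Subgroup.normalizer (P : Set G)) = 3) ∧ ((Subgroup.centralizer (P : Set G)).relIndex (Subgroup.normalizer (P : Set G)) ≠ 1 → ∀ z ∈ (P : Subgroup G), z ≠ 1 → Subgroup.centralizer ({z} : Set G) ⊓ Subgroup.normalizer (P : Set G) = Subgroup.centralizer (P : Set G)) := by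
  classical
  have : Fact (Nat.Prime 2) := ⟨Nat.prime_two⟩
  have hPc : ∀ x ∈ (P : Subgroup G), ∀ y ∈ (P : Subgroup G), x * y = y * x := by
    intro x hx y hy
    have h1 : e (⟨x, hx⟩ * ⟨y, hy⟩) = e (⟨y, hy⟩ * ⟨x, hx⟩) := by
      rw [map_mul, map_mul, mul_comm]
    have h2 := e.injective h1
    exact congrArg Subtype.val h2
  have hP2 : ∀ x ∈ (P : Subgroup G), ∃ k : ℕ, x ^ 2 ^ k = 1 := by
    intro x hx
    obtain ⟨k, hk⟩ := P.isPGroup' ⟨x, hx⟩
    exact ⟨k, by simpa using congrArg Subtype.val hk⟩
  have hcomp : ∀ x : (P : Subgroup G), (x : G) ^ 2 = 1 →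
      ((Multiplicative.toAdd (e x)).1 = 0 ∨
        (Multiplicative.toAdd (e x)).1 = ((2 ^ (m - 1) : ℕ) : ZMod (2 ^ m))) ∧
      ((Multiplicative.toAdd (e x)).2 = 0 ∨
        (Multiplicative.toAdd (e x)).2 = ((2 ^ (m - 1) : ℕ) : ZMod (2 ^ m))) := by
    intro x hx
    have h1 : x ^ 2 = 1 := Subtype.ext (by simpa using hx)
    have h2 : (e x) ^ 2 = 1 := by rw [← map_pow, h1, map_one]
    have h3 : Multiplicative.toAdd (e x) + Multiplicative.toAdd (e x) = 0 := by
      have := congrArg Multiplicative.toAdd h2
      rw [pow_two] at this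
      simpa using this
    have h4 := congrArg Prod.fst h3
    have h5 := congrArg Prod.snd h3
    simp only [Prod.fst_add, Prod.snd_add, Prod.fst_zero, Prod.snd_zero] at h4 h5
    exact ⟨Cfsg.Agent.S0946.zmod_two_tor m hm _ h4, Cfsg.Agent.S0946.zmod_two_tor m hm _ h5⟩
  have hK : ∀ a ∈ (P : Subgroup G), ∀ b ∈ (P : Subgroup G), ∀ x ∈ (P : Subgroup G),
      a ^ 2 = 1 → b ^ 2 = 1 → x ^ 2 = 1 → a ≠ 1 → b ≠ 1 → a ≠ b →
      x = 1 ∨ x = a ∨ x = b ∨ x = a * b := by
    intro a ha b hb x hx ha2 hb2 hx2 ha1 hb1 hab
    obtain ⟨A1, A2⟩ := hcomp ⟨a, ha⟩ ha2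
    obtain ⟨B1, B2⟩ := hcomp ⟨b, hb⟩ hb2
    obtain ⟨X1, X2⟩ := hcomp ⟨x, hx⟩ hx2
    have hinj : ∀ y z : (P : Subgroup G),
        ((Multiplicative.toAdd (e y)).1, (Multiplicative.toAdd (e y)).2) =
          ((Multiplicative.toAdd (e z)).1, (Multiplicative.toAdd (e z)).2) → y = z := by
      intro y z h
      apply e.injective
      apply Multiplicative.toAdd.injective
      exact h
    have hA0 : ((Multiplicative.toAdd (e ⟨a, ha⟩)).1, (Multiplicative.toAdd (e ⟨a, ha⟩)).2)
        ≠ (0, 0) := by
      intro h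
      apply ha1
      have h1 : (⟨a, ha⟩ : (P : Subgroup G)) = 1 := by
        apply hinj
        rw [h, map_one]; rfl
      exact congrArg Subtype.val h1
    have hB0 : ((Multiplicative.toAdd (e ⟨b, hb⟩)).1, (Multiplicative.toAdd (e ⟨b, hb⟩)).2)
        ≠ (0, 0) := by
      intro h
      apply hb1
      have h1 : (⟨b, hb⟩ : (P : Subgroup G)) = 1 := by
        apply hinj
        rw [h, map_one]; rfl
      exact congrArg Subtype.val h1
    have hAB : ((Multiplicative.toAdd (e ⟨a, ha⟩)).1, (Multiplicative.toAdd (e ⟨a, ha⟩)).2)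
        ≠ ((Multiplicative.toAdd (e ⟨b, hb⟩)).1, (Multiplicative.toAdd (e ⟨b, hb⟩)).2) := by
      intro h
      apply hab
      exact congrArg Subtype.val (hinj _ _ h)
    rcases Cfsg.Agent.S0946.klein_aux _ (Cfsg.Agent.S0946.zmod_h_add m hm) _ _ _ _ _ _
      A1 A2 B1 B2 X1 X2 hA0 hB0 hAB with h | h | h | h
    · left
      have h1 : (⟨x, hx⟩ : (P : Subgroup G)) = 1 := by
        apply hinj
        rw [h, map_one]; rfl
      exact congrArg Subtype.val h1
    · right; left
      exact congrArg Subtype.val (hinj _ _ h)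
    · right; right; left
      exact congrArg Subtype.val (hinj _ ⟨b, hb⟩ h)
    · right; right; right
      have h1 : (⟨x, hx⟩ : (P : Subgroup G)) = ⟨a, ha⟩ * ⟨b, hb⟩ := by
        apply hinj
        rw [h, map_mul]; rfl
      exact congrArg Subtype.val h1
  -- abbreviations
  have hPC : (P : Subgroup G) ≤ Subgroup.centralizer ((P : Subgroup G) : Set G) := by
    intro x hx
    rw [Subgroup.mem_centralizer_iff]
    intro y hy
    exact hPc y hy x hx
  have hCN : Subgroup.centralizer ((P : Subgroup G) : Set G) ≤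
      Subgroup.normalizer ((P : Subgroup G) : Set G) := Subgroup.centralizer_le_normalizer _
  -- the odd exponent
  have hodd : ∀ g ∈ Subgroup.normalizer ((P : Subgroup G) : Set G),
      ∃ r : ℕ, ¬ 2 ∣ r ∧ g ^ r ∈ (P : Subgroup G) := by
    intro g hgN
    refine ⟨(P : Subgroup G).relIndex (Subgroup.normalizer ((P : Subgroup G) : Set G)), ?_, ?_⟩
    · intro h
      exact P.not_dvd_index (h.trans (Subgroup.relIndex_dvd_index_of_le Subgroup.le_normalizer))
    · have : ((P : Subgroup G).subgroupOf (Subgroup.normalizer ((P : Subgroup G) : Set G))).Normal :=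
        Subgroup.normal_in_normalizer
      have h1 := Subgroup.pow_index_mem ((P : Subgroup G).subgroupOf (Subgroup.normalizer ((P : Subgroup G) : Set G)))
        (⟨g, hgN⟩ : ↥(Subgroup.normalizer ((P : Subgroup G) : Set G)))
      rw [Subgroup.mem_subgroupOf] at h1
      exact h1
  have hnorm : ∀ g ∈ Subgroup.normalizer ((P : Subgroup G) : Set G),
      ∀ x ∈ (P : Subgroup G), g * x * g⁻¹ ∈ (P : Subgroup G) := by
    intro g hgN x hx
    exact (Subgroup.mem_normalizer_iff.mp hgN x).mp hx
  -- fixing one involution forces centralizing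
  have hfix : ∀ g ∈ Subgroup.normalizer ((P : Subgroup G) : Set G),
      ∀ a ∈ (P : Subgroup G), a ≠ 1 → a ^ 2 = 1 → g * a * g⁻¹ = a →
      g ∈ Subgroup.centralizer ((P : Subgroup G) : Set G) := by
    intro g hgN a ha ha1 ha2 hga
    obtain ⟨r, hr, hgr⟩ := hodd g hgN
    have h1 := Cfsg.Agent.S0946.lemA (P : Subgroup G) hPc hK g (hnorm g hgN) r hr hgr a ha ha1 ha2 hga
    have h2 := Cfsg.Agent.S0946.lemB (P : Subgroup G) hPc hP2 g (hnorm g hgN) r hr hgr h1
    rw [Subgroup.mem_centralizer_iff]
    intro x hx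
    have h3 := h2 x hx
    have : g * x = (g * x * g⁻¹) * g := by group
    rw [this, h3]
  have hrel_odd : ¬ 2 ∣ (Subgroup.centralizer ((P : Subgroup G) : Set G)).relIndex
      (Subgroup.normalizer ((P : Subgroup G) : Set G)) := by
    intro h
    have h1 : (Subgroup.centralizer ((P : Subgroup G) : Set G)).relIndex
        (Subgroup.normalizer ((P : Subgroup G) : Set G)) ∣
        (P : Subgroup G).relIndex (Subgroup.normalizer ((P : Subgroup G) : Set G)) :=
      Subgroup.relIndex_dvd_of_le_left _ hPC
    exact P.not_dvd_index ((h.trans h1).trans (Subgroup.relIndex_dvd_index_of_le Subgroup.le_normalizer))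
  have hrel_pos : (Subgroup.centralizer ((P : Subgroup G) : Set G)).relIndex
      (Subgroup.normalizer ((P : Subgroup G) : Set G)) ≠ 0 := Subgroup.index_ne_zero_of_finite
  refine ⟨?_, ?_⟩
  · by_cases hNC : Subgroup.normalizer ((P : Subgroup G) : Set G) ≤
        Subgroup.centralizer ((P : Subgroup G) : Set G)
    · left
      exact Subgroup.relIndex_eq_one.mpr hNC
    · right
      obtain ⟨g, hgN, hgC⟩ := Set.not_subset.mp hNC
      obtain ⟨r, hr, hgr⟩ := hodd g hgN
      have h1 : ∃ u ∈ (P : Subgroup G), u ^ 2 = 1 ∧ g * u * g⁻¹ ≠ u := by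
        by_contra hcon
        apply hgC
        rw [SetLike.mem_coe, Subgroup.mem_centralizer_iff]
        intro x hx
        have h2 := Cfsg.Agent.S0946.lemB (P : Subgroup G) hPc hP2 g (hnorm g hgN) r hr hgr (by
          intro u hu hu2
          by_contra hne'
          exact hcon ⟨u, hu, hu2, hne'⟩) x hx
        have : g * x = (g * x * g⁻¹) * g := by group
        rw [this, h2]
      obtain ⟨u, hu, hu2, hgu⟩ := h1
      have hu1 : u ≠ 1 := by
        rintro rfl
        apply hgu; group
      obtain ⟨v, hv⟩ : ∃ v, v = g * u * g⁻¹ := ⟨_, rfl⟩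
      have hvP : v ∈ (P : Subgroup G) := by rw [hv]; exact hnorm g hgN u hu
      have hv2 : v ^ 2 = 1 := by rw [hv, conj_pow, hu2]; group
      have hv1 : v ≠ 1 := by
        intro h
        apply hu1
        have : u = g⁻¹ * v * g := by rw [hv]; group
        rw [this, h]; group
      have huv : u ≠ v := fun h => hgu (by rw [← hv]; exact h.symm)
      -- the orbit map
      have hval : ∀ n ∈ Subgroup.normalizer ((P : Subgroup G) : Set G),
          n * u * n⁻¹ ∈ ({u, v, u * v} : Finset G) := by
        intro n hn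
        have hx : n * u * n⁻¹ ∈ (P : Subgroup G) := hnorm n hn u hu
        have hx2 : (n * u * n⁻¹) ^ 2 = 1 := by rw [conj_pow, hu2]; group
        rcases hK u hu v hvP _ hx hu2 hv2 hx2 hu1 hv1 huv with h | h | h | h
        · exfalso; apply hu1
          have : u = n⁻¹ * (n * u * n⁻¹) * n := by group
          rw [this, h]; group
        · rw [h]; simp
        · rw [h]; simp
        · rw [h]; simp
      have hle : (Subgroup.centralizer ((P : Subgroup G) : Set G)).relIndex
          (Subgroup.normalizer ((P : Subgroup G) : Set G)) ≤ 3 := by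
        have hwd : ∀ a b : ↥(Subgroup.normalizer ((P : Subgroup G) : Set G)),
            (QuotientGroup.leftRel ((Subgroup.centralizer ((P : Subgroup G) : Set G)).subgroupOf
              (Subgroup.normalizer ((P : Subgroup G) : Set G)))) a b →
            (a : G) * u * (a : G)⁻¹ = (b : G) * u * (b : G)⁻¹ := by
          intro a b hab
          rw [QuotientGroup.leftRel_apply, Subgroup.mem_subgroupOf] at hab
          have h3 : ((a : G)⁻¹ * (b : G)) * u = u * ((a : G)⁻¹ * (b : G)) := by
            have := (Subgroup.mem_centralizer_iff.mp hab) u hu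
            simpa using this.symm
          have h4 : (b : G) * u * (b : G)⁻¹ =
              (a : G) * (((a : G)⁻¹ * (b : G)) * u) * (b : G)⁻¹ := by group
          rw [h4, h3]; group
        let f : (↥(Subgroup.normalizer ((P : Subgroup G) : Set G)) ⧸
            ((Subgroup.centralizer ((P : Subgroup G) : Set G)).subgroupOf
              (Subgroup.normalizer ((P : Subgroup G) : Set G)))) → ↥({u, v, u * v} : Finset G) :=
          fun q => Quotient.liftOn q (fun n => (⟨(n : G) * u * (n : G)⁻¹, hval n n.2⟩ :
            ↥({u, v, u * v} : Finset G))) (by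
              intro a b hab
              exact Subtype.ext (hwd a b hab))
        have hf : Function.Injective f := by
          intro q1 q2
          refine Quotient.inductionOn₂ q1 q2 ?_
          intro a b hab
          have h3 : (a : G) * u * (a : G)⁻¹ = (b : G) * u * (b : G)⁻¹ := congrArg Subtype.val hab
          apply Quotient.sound
          show (QuotientGroup.leftRel _) a b
          rw [QuotientGroup.leftRel_apply, Subgroup.mem_subgroupOf]
          have hmem : (a : G)⁻¹ * (b : G) ∈ Subgroup.normalizer ((P : Subgroup G) : Set G) :=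
            Subgroup.mul_mem _ (Subgroup.inv_mem _ a.2) b.2
          apply hfix _ hmem u hu hu1 hu2
          have h4 : (a : G)⁻¹ * (b : G) * u * ((a : G)⁻¹ * (b : G))⁻¹ =
              (a : G)⁻¹ * ((b : G) * u * (b : G)⁻¹) * (a : G) := by group
          rw [h4, ← h3]; group
        have h5 := Nat.card_le_card_of_injective f hf
        have h6 : Nat.card ↥({u, v, u * v} : Finset G) ≤ 3 := by
          rw [Nat.card_eq_fintype_card, Fintype.card_coe]
          exact Finset.card_le_three
        exact h5.trans h6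
      have h7 : (Subgroup.centralizer ((P : Subgroup G) : Set G)).relIndex
          (Subgroup.normalizer ((P : Subgroup G) : Set G)) ≠ 1 := by
        intro h
        exact hNC (Subgroup.relIndex_eq_one.mp h)
      generalize (Subgroup.centralizer ((P : Subgroup G) : Set G)).relIndex
          (Subgroup.normalizer ((P : Subgroup G) : Set G)) = c at hle h7 hrel_odd hrel_pos ⊢
      interval_cases c
      · exact absurd rfl hrel_pos
      · exact absurd rfl h7
      · exact absurd (dvd_refl 2) hrel_odd
      · rfl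
  · intro _ z hz hz1
    apply le_antisymm
    · intro g hg
      obtain ⟨hgz, hgN⟩ := Subgroup.mem_inf.mp hg
      -- an involution among the powers of z
      have hex : ∃ a ∈ (P : Subgroup G), a ≠ 1 ∧ a ^ 2 = 1 ∧ g * a * g⁻¹ = a := by
        obtain ⟨k, hk⟩ := hP2 z hz
        have hgz' : g * z = z * g := by
          have := (Subgroup.mem_centralizer_iff.mp hgz) z (Set.mem_singleton z)
          exact this.symm
        induction k with
        | zero =>
          exfalso; apply hz1
          simpa using hk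
        | succ k ih =>
          by_cases hk' : z ^ 2 ^ k = 1
          · exact ih hk'
          · refine ⟨z ^ 2 ^ k, Subgroup.pow_mem _ hz _, hk', ?_, ?_⟩
            · rw [← pow_mul, ← pow_succ]; exact hk
            · have hc : Commute g (z ^ 2 ^ k) := (show Commute g z from hgz').pow_right _
              rw [hc.eq]; group
      obtain ⟨a, ha, ha1, ha2, hga⟩ := hex
      exact hfix g hgN a ha ha1 ha2 hga
    · intro g hg
      refine Subgroup.mem_inf.mpr ⟨?_, hCN hg⟩
      rw [Subgroup.mem_centralizer_iff]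
      intro y hy
      rw [Set.mem_singleton_iff] at hy
      rw [hy]
      exact (Subgroup.mem_centralizer_iff.mp hg) z hz

end Cfsg.Agent.S0945
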