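import Mathlib
import Cfsg.Statements.S0952
import Cfsg.Agent.Lib.Helper25.BlockOrth
import Cfsg.Agent.Lib.Helper8.BlockWeak

set_option autoImplicit false

open Cfsg

namespace Cfsg.Agent.S0952

open Cfsg.Agent.Lib.Helper2 Cfsg.Agent.Lib.Helper25 Cfsg.Agent.Lib.Helper8

open scoped ComplexConjugate

/-- the sum over the `p`-regular elements of `α * conj β`, with an indicator -/
noncomputable def regInner {G : Type*} [Group G] [Fintype G] (p : ℕ) (α β : G → ℂ) : ℂ :=
  ∑ x : G, (if p ∣ orderOf x then (0 : ℂ) else 1) * (α x * conj (β x))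

theorem regInner_eq_zero {G : Type*} [Group G] [Fintype G] [Fintype (IrrCharacter G)]
    (p : ℕ) [Fact p.Prime] (M : Ideal Cfsg.AlgInt)
    (hM : Cfsg.IsPModular p M) (B : Set (IrrCharacter G)) (hB : BlockClosed M B)
    (χ ψ : IrrCharacter G) (hχ : χ ∈ B) (hψ : ψ ∉ B) :
    regInner p (χ : G → ℂ) (ψ : G → ℂ) = 0 := by
  classical
  have hne := card_ne_zero_complex G
  let r : G → ℂ := fun x => if p ∣ orderOf x then (0 : ℂ) else 1
  have hr : ∀ x, conj (r x) = r x := by
    intro x
    change conj (if p ∣ orderOf x then (0 : ℂ) else 1) = if p ∣ orderOf x then (0 : ℂ) else 1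
    split_ifs <;> simp
  let W : G → G → ℂ := fun x y => ∑ χ' : IrrCharacter G,
    (if χ' ∈ B then (1 : ℂ) else 0) * ((χ' : G → ℂ) x * conj ((χ' : G → ℂ) y))
  -- orthogonality against `ψ`
  have horth : ∀ x : G, ∑ y : G, (ψ : G → ℂ) y * W x y = 0 := by
    intro x
    change ∑ y : G, (ψ : G → ℂ) y * ∑ χ' : IrrCharacter G,
      (if χ' ∈ B then (1 : ℂ) else 0) * ((χ' : G → ℂ) x * conj ((χ' : G → ℂ) y)) = 0
    simp only [Finset.mul_sum]
    rw [Finset.sum_comm]
    apply Finset.sum_eq_zero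
    intro χ' _
    have h1 := classInner_irr ψ.2 χ'.2
    rw [classInner_def] at h1
    have h3 : ((ψ : G → ℂ) = (χ' : G → ℂ)) ↔ ψ = χ' := Subtype.ext_iff.symm
    rw [if_congr h3 rfl rfl] at h1
    have h4 : ∑ y : G, (ψ : G → ℂ) y * ((if χ' ∈ B then (1 : ℂ) else 0) *
          ((χ' : G → ℂ) x * conj ((χ' : G → ℂ) y)))
        = (if χ' ∈ B then (1 : ℂ) else 0) * (χ' : G → ℂ) x *
          ∑ y : G, (ψ : G → ℂ) y * conj ((χ' : G → ℂ) y) := by
      rw [Finset.mul_sum]
      apply Finset.sum_congr rfl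
      intro y _
      ring
    rw [h4]
    by_cases hχ' : χ' ∈ B
    · have hne' : ψ ≠ χ' := by
        intro h; rw [h] at hψ; exact hψ hχ'
      rw [if_neg hne'] at h1
      rcases mul_eq_zero.mp h1 with h5 | h5
      · exact absurd h5 (inv_ne_zero hne)
      · rw [h5, mul_zero]
    · rw [if_neg hχ', zero_mul, zero_mul]
  -- weak block orthogonality removes the singular `y`
  have hkey : ∀ x : G, r x * ∑ y : G, r y * ((ψ : G → ℂ) y * W x y) = 0 := by
    intro x
    by_cases hx : p ∣ orderOf x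
    · have : r x = 0 := if_pos hx
      rw [this, zero_mul]
    · have h1 : ∀ y : G, r y * ((ψ : G → ℂ) y * W x y) = (ψ : G → ℂ) y * W x y := by
        intro y
        by_cases hy : p ∣ orderOf y
        · have h2 : W x y = 0 := weak_block_orth_sum hM B hB x y hx hy
          rw [h2, mul_zero, mul_zero]
        · have : r y = 1 := if_neg hy
          rw [this, one_mul]
      simp only [h1]
      rw [horth, mul_zero]
  -- the sum of squares
  have hsq : ∑ χ' : IrrCharacter G, (if χ' ∈ B then (1 : ℂ) else 0) *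
      (regInner p (χ' : G → ℂ) (ψ : G → ℂ) * conj (regInner p (χ' : G → ℂ) (ψ : G → ℂ))) = 0 := by
    have h1 : ∀ χ' : IrrCharacter G, (if χ' ∈ B then (1 : ℂ) else 0) *
        (regInner p (χ' : G → ℂ) (ψ : G → ℂ) * conj (regInner p (χ' : G → ℂ) (ψ : G → ℂ)))
        = ∑ x : G, ∑ y : G, (r x * conj ((ψ : G → ℂ) x)) * (r y * ((ψ : G → ℂ) y *
            ((if χ' ∈ B then (1 : ℂ) else 0) * ((χ' : G → ℂ) x * conj ((χ' : G → ℂ) y))))) := by
      intro χ'
      unfold regInner
      rw [map_sum, Finset.sum_mul_sum, Finset.mul_sum]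
      apply Finset.sum_congr rfl
      intro x _
      rw [Finset.mul_sum]
      apply Finset.sum_congr rfl
      intro y _
      rw [map_mul, map_mul, Complex.conj_conj]
      have := hr y
      change conj (if p ∣ orderOf y then (0 : ℂ) else 1) = if p ∣ orderOf y then (0 : ℂ) else 1
        at this
      rw [this]
      change _ = (r x * conj ((ψ : G → ℂ) x)) * (r y * ((ψ : G → ℂ) y *
            ((if χ' ∈ B then (1 : ℂ) else 0) * ((χ' : G → ℂ) x * conj ((χ' : G → ℂ) y)))))
      change (if χ' ∈ B then (1 : ℂ) else 0) * (r x * ((χ' : G → ℂ) x * conj ((ψ : G → ℂ) x)) *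
        (r y * (conj ((χ' : G → ℂ) y) * (ψ : G → ℂ) y))) = _
      ring
    simp only [h1]
    rw [Finset.sum_comm]
    apply Finset.sum_eq_zero
    intro x _
    rw [Finset.sum_comm]
    have h2 : ∀ y : G, ∑ χ' : IrrCharacter G, (r x * conj ((ψ : G → ℂ) x)) *
          (r y * ((ψ : G → ℂ) y *
            ((if χ' ∈ B then (1 : ℂ) else 0) * ((χ' : G → ℂ) x * conj ((χ' : G → ℂ) y)))))
        = conj ((ψ : G → ℂ) x) * (r x * (r y * ((ψ : G → ℂ) y * W x y))) := by
      intro y
      change _ = conj ((ψ : G → ℂ) x) * (r x * (r y * ((ψ : G → ℂ) y * ∑ χ' : IrrCharacter G,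
        (if χ' ∈ B then (1 : ℂ) else 0) * ((χ' : G → ℂ) x * conj ((χ' : G → ℂ) y)))))
      simp only [Finset.mul_sum]
      apply Finset.sum_congr rfl
      intro χ' _
      ring
    simp only [h2]
    rw [← Finset.mul_sum, ← Finset.mul_sum, hkey, mul_zero]
  -- each square vanishes
  have hreal : ∑ χ' : IrrCharacter G, (if χ' ∈ B then
      Complex.normSq (regInner p (χ' : G → ℂ) (ψ : G → ℂ)) else 0) = 0 := by
    have h1 : ((∑ χ' : IrrCharacter G, (if χ' ∈ B then
        Complex.normSq (regInner p (χ' : G → ℂ) (ψ : G → ℂ)) else 0) : ℝ) : ℂ) = 0 := by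
      rw [← hsq]
      push_cast
      apply Finset.sum_congr rfl
      intro χ' _
      rw [Complex.mul_conj]
      split_ifs <;> simp
    exact_mod_cast h1
  have hnn : ∀ χ' ∈ (Finset.univ : Finset (IrrCharacter G)), (0 : ℝ) ≤ (if χ' ∈ B then
      Complex.normSq (regInner p (χ' : G → ℂ) (ψ : G → ℂ)) else 0) := by
    intro χ' _
    split_ifs
    · exact Complex.normSq_nonneg _
    · exact le_refl _
  have h0 := (Finset.sum_eq_zero_iff_of_nonneg hnn).mp hreal χ (Finset.mem_univ _)
  rw [if_pos hχ] at h0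
  exact Complex.normSq_eq_zero.mp h0

theorem result {G : Type*} [Group G] [Finite G] (p : ℕ) [Fact p.Prime] (M : Ideal Cfsg.AlgInt) (hM : Cfsg.IsPModular p M) (χ ψ : Cfsg.IrrCharacter G) (h : ¬ Cfsg.SameBlock M (χ : G → ℂ) (ψ : G → ℂ)) : ∑ᶠ x ∈ {x : G | ¬ p ∣ orderOf x}, (χ : G → ℂ) x * conj ((ψ : G → ℂ) x) = 0 := by
  classical
  have : Fintype G := Fintype.ofFinite G
  have : Fintype (IrrCharacter G) := Fintype.ofFinite _
  have hpr := isPrime_of_isPModular hM
  have h1 := regInner_eq_zero p M hM (blockOf M (χ : G → ℂ)) (blockClosed_blockOf M _) χ ψ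
    (sameBlock_refl M _) h
  rw [finsum_mem_eq_sum_indicator]
  rw [← h1]
  unfold regInner
  apply Finset.sum_congr rfl
  intro x _
  rw [Set.indicator_apply]
  by_cases hx : p ∣ orderOf x
  · rw [if_neg (by simpa using hx), if_pos hx, zero_mul]
  · rw [if_pos (by simpa using hx), if_neg hx, one_mul]

end Cfsg.Agent.S0952
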