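import Cfsg.Statements.S0953
import Mathlib
import Cfsg.Agent.Lib.Helper24.SylowBlocks

set_option autoImplicit false
open Cfsg

namespace Cfsg.Agent.S0953

open Cfsg.Agent.Lib.Helper24 in
/-- Let P be a Sylow p-subgroup of the finite group G with normalizer N, and fix a maximal ideal M of the algebraic integers containing p. The number of blocks of G having P as a defect group equals the number of conjugacy classes of N consisting of elements of order prime to p that centralize P. -/
theorem result {G : Type*} [Group G] [Finite G] (p : ℕ) [Fact p.Prime] (M : Ideal Cfsg.AlgInt) (hM : Cfsg.IsPModular p M) (P : Sylow p G) : Nat.card {B : Set (Cfsg.IrrCharacter G) // Cfsg.IsPBlock M B ∧ Cfsg.IsDefectGroup p M B (P : Subgroup G)} = Nat.card {C : ConjClasses (Subgroup.normalizer ((P : Subgroup G) : Set G)) // ∀ n : Subgroup.normalizer ((P : Subgroup G) : Set G), ConjClasses.mk n = C → ¬ p ∣ orderOf n ∧ (n : G) ∈ Subgroup.centralizer ((P : Subgroup G) : Set G)} := by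
  classical
  have hPN : (P : Subgroup G) ≤ Subgroup.normalizer ((P : Subgroup G) : Set G) :=
    Subgroup.le_normalizer
  have hQcoe : ((P.subtype hPN : Sylow p (Subgroup.normalizer ((P : Subgroup G) : Set G))) :
      Subgroup (Subgroup.normalizer ((P : Subgroup G) : Set G)))
      = (P : Subgroup G).subgroupOf (Subgroup.normalizer ((P : Subgroup G) : Set G)) :=
    Sylow.coe_subtype P hPN
  have hQn : ((P.subtype hPN : Sylow p (Subgroup.normalizer ((P : Subgroup G) : Set G))) :
      Subgroup (Subgroup.normalizer ((P : Subgroup G) : Set G))).Normal := by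
    rw [hQcoe]
    exact Subgroup.normal_in_normalizer
  rw [card_blocks_defect_eq p M hM (P : Subgroup G) P.isPGroup']
  have e1 : Nat.card {b : Set (IrrCharacter (Subgroup.normalizer ((P : Subgroup G) : Set G))) //
      IsPBlock M b ∧ IsDefectGroup p M b
        ((P : Subgroup G).subgroupOf (Subgroup.normalizer ((P : Subgroup G) : Set G)))}
      = Nat.card {b : Set (IrrCharacter (Subgroup.normalizer ((P : Subgroup G) : Set G))) //
          IsPBlock M b} := by
    apply Nat.card_congr
    refine Equiv.subtypeEquivRight (fun b => ⟨fun h => h.1, fun hb => ⟨hb, ?_⟩⟩)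
    rw [← hQcoe]
    exact defectGroup_of_normal_sylow p M hM _ hQn b hb
  rw [e1]
  obtain ⟨K, hKn, hKp, hKmem⟩ := exists_regular_centralizer p (P.subtype hPN) hQn
  have hcen : ∀ n : Subgroup.normalizer ((P : Subgroup G) : Set G),
      n ∈ Subgroup.centralizer (((P.subtype hPN :
        Sylow p (Subgroup.normalizer ((P : Subgroup G) : Set G))) :
        Subgroup (Subgroup.normalizer ((P : Subgroup G) : Set G))) :
        Set (Subgroup.normalizer ((P : Subgroup G) : Set G)))
      ↔ (n : G) ∈ Subgroup.centralizer ((P : Subgroup G) : Set G) := by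
    intro n
    rw [Subgroup.mem_centralizer_iff, Subgroup.mem_centralizer_iff]
    constructor
    · intro h g hg
      have h1 := h ⟨g, hPN hg⟩ (by
        rw [SetLike.mem_coe, hQcoe, Subgroup.mem_subgroupOf]
        exact hg)
      exact congrArg Subtype.val h1
    · intro h q hq
      rw [SetLike.mem_coe, hQcoe, Subgroup.mem_subgroupOf] at hq
      exact Subtype.ext (h q hq)
  have e2 : Nat.card {C : ConjClasses (Subgroup.normalizer ((P : Subgroup G) : Set G)) //
      ∀ n : Subgroup.normalizer ((P : Subgroup G) : Set G), ConjClasses.mk n = C →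
        ¬ p ∣ orderOf n ∧ (n : G) ∈ Subgroup.centralizer ((P : Subgroup G) : Set G)}
      = Nat.card {C : ConjClasses (Subgroup.normalizer ((P : Subgroup G) : Set G)) //
        ∀ n : Subgroup.normalizer ((P : Subgroup G) : Set G), ConjClasses.mk n = C →
          (¬ p ∣ orderOf n ∧ n ∈ Subgroup.centralizer (((P.subtype hPN :
            Sylow p (Subgroup.normalizer ((P : Subgroup G) : Set G))) :
            Subgroup (Subgroup.normalizer ((P : Subgroup G) : Set G))) :
            Set (Subgroup.normalizer ((P : Subgroup G) : Set G))))} := by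
    apply Nat.card_congr
    exact Equiv.subtypeEquivRight (fun C => forall_congr' fun n =>
      imp_congr Iff.rfl (and_congr Iff.rfl (hcen n).symm))
  have e3 : Nat.card {C : ConjClasses (Subgroup.normalizer ((P : Subgroup G) : Set G)) //
        ∀ n : Subgroup.normalizer ((P : Subgroup G) : Set G), ConjClasses.mk n = C →
          (¬ p ∣ orderOf n ∧ n ∈ Subgroup.centralizer (((P.subtype hPN :
            Sylow p (Subgroup.normalizer ((P : Subgroup G) : Set G))) :
            Subgroup (Subgroup.normalizer ((P : Subgroup G) : Set G))) :
            Set (Subgroup.normalizer ((P : Subgroup G) : Set G))))}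
      = Nat.card {C : ConjClasses (Subgroup.normalizer ((P : Subgroup G) : Set G)) //
        ∀ n : Subgroup.normalizer ((P : Subgroup G) : Set G), ConjClasses.mk n = C → n ∈ K} := by
    apply Nat.card_congr
    exact Equiv.subtypeEquivRight (fun C => forall_congr' fun n =>
      imp_congr Iff.rfl (hKmem n).symm)
  rw [e2]
  apply le_antisymm
  · exact card_blocks_le_card_classes p M hM (P.subtype hPN) hQn
  · rw [e3]
    exact card_classes_le_card_blocks hM K hKp

end Cfsg.Agent.S0953
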