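import Mathlib
import Cfsg.Statements.S0954
import Cfsg.Agent.Lib.Helper8.InducedCC
import Cfsg.Agent.Lib.Helper8.BlockReg
import Cfsg.Agent.Lib.Helper2.CharMore

set_option autoImplicit false

open Cfsg

namespace Cfsg.Agent.S0954

open Cfsg.Agent.Lib.Helper2 Cfsg.Agent.Lib.Helper25 Cfsg.Agent.Lib.Helper8

theorem result {G : Type*} [Group G] [Fintype G] (p : ℕ) [Fact p.Prime] (M : Ideal Cfsg.AlgInt) (hM : Cfsg.IsPModular p M) (N : Subgroup G) [N.Normal] [Fintype N] (hN : ¬ p ∣ Nat.card N) (hidx : ∃ k : ℕ, N.index = p ^ k) (χ ψ : Cfsg.IrrCharacter G) : Cfsg.SameBlock M (χ : G → ℂ) (ψ : G → ℂ) ↔ ∃ θ : Cfsg.IrrCharacter N, Cfsg.classInner (fun n : N => (χ : G → ℂ) n) (θ : N → ℂ) ≠ 0 ∧ Cfsg.classInner (fun n : N => (ψ : G → ℂ) n) (θ : N → ℂ) ≠ 0 := by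
  classical
  have hpr := isPrime_of_isPModular hM
  constructor
  · intro h
    have hchar : IsCharacter N (fun n : N => (χ : G → ℂ) n) :=
      IsCharacter.restrict (isCharacter_of_isIrrCharacter χ.2) N
    have hne : (fun n : N => (χ : G → ℂ) n) ≠ 0 := by
      intro h0
      have := congrFun h0 1
      exact irr_one_ne_zero χ.2 this
    obtain ⟨θ, hθ, hθne⟩ := exists_irr_constituent hchar hne
    exact ⟨⟨θ, hθ⟩, hθne, same_block_constituent hM N hN χ ψ h ⟨θ, hθ⟩ hθne⟩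
  · rintro ⟨θ, h1, h2⟩
    apply sameBlock_of_regular hM
    intro g hg
    have hgN := mem_of_regular_of_index N hidx g hg
    have e1 := centralChar_of_constituent N χ θ h1 ⟨g, hgN⟩
    have e2 := centralChar_of_constituent N ψ θ h2 ⟨g, hgN⟩
    have e3 : centralChar (χ : G → ℂ) g - centralChar (ψ : G → ℂ) g = 0 := by
      change centralChar (χ : G → ℂ) g = _ at e1
      change centralChar (ψ : G → ℂ) g = _ at e2
      rw [e1, e2, sub_self]
    rw [e3]
    exact memLocalIdeal_zero M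

end Cfsg.Agent.S0954
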