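import Mathlib
import Cfsg.Statements.S0957

set_option autoImplicit false
open Cfsg

namespace Cfsg.Agent.S0957

/-- the conjugation action of `P` on the pairs -/
@[instance_reducible]
def act {G : Type*} [Group G] (P : Subgroup G) (g h : G) :
    MulAction P {yz : G × G // IsConj g yz.1 ∧ IsConj h yz.2 ∧ yz.2 * yz.1⁻¹ ∈ P} where
  smul u xy := ⟨((u : G) * xy.1.1 * (u : G)⁻¹, (u : G) * xy.1.2 * (u : G)⁻¹),
    xy.2.1.trans (isConj_iff.2 ⟨u, rfl⟩), xy.2.2.1.trans (isConj_iff.2 ⟨u, rfl⟩), by
      have h3 := xy.2.2.2
      have : (u : G) * xy.1.2 * (u : G)⁻¹ * ((u : G) * xy.1.1 * (u : G)⁻¹)⁻¹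
          = (u : G) * (xy.1.2 * xy.1.1⁻¹) * (u : G)⁻¹ := by group
      rw [this]
      exact P.mul_mem (P.mul_mem u.2 h3) (P.inv_mem u.2)⟩
  one_smul xy := by
    apply Subtype.ext
    apply Prod.ext <;> simp [HSMul.hSMul]
  mul_smul u v xy := by
    apply Subtype.ext
    apply Prod.ext <;> simp [HSMul.hSMul, mul_assoc]

theorem card_centralizer_conj {G : Type*} [Group G] [Finite G] (g t : G) :
    Nat.card (Subgroup.centralizer ({t * g * t⁻¹} : Set G)) =
      Nat.card (Subgroup.centralizer ({g} : Set G)) := by
  apply Nat.card_congr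
  refine
    { toFun := fun c => ⟨t⁻¹ * c.1 * t, ?_⟩
      invFun := fun c => ⟨t * c.1 * t⁻¹, ?_⟩
      left_inv := fun c => by apply Subtype.ext; simp [mul_assoc]
      right_inv := fun c => by apply Subtype.ext; simp [mul_assoc] }
  · have hc := c.2
    rw [Subgroup.mem_centralizer_singleton_iff] at hc ⊢
    have : t⁻¹ * c.1 * t * g = t⁻¹ * (c.1 * (t * g * t⁻¹)) * t := by group
    rw [this, hc]; group
  · have hc := c.2
    rw [Subgroup.mem_centralizer_singleton_iff] at hc ⊢
    have : t * c.1 * t⁻¹ * (t * g * t⁻¹) = t * (c.1 * g) * t⁻¹ := by group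
    rw [this, hc]; group

theorem result {G : Type*} [Group G] [Finite G] (p : ℕ) [Fact p.Prime] (P : Sylow p G) (g h : G) (S : Sylow p (Subgroup.centralizer ({g} : Set G))) : Nat.card P / Nat.card S ∣ Nat.card {yz : G × G // IsConj g yz.1 ∧ IsConj h yz.2 ∧ yz.2 * yz.1⁻¹ ∈ (P : Subgroup G)} := by
  classical
  have hp : p.Prime := Fact.out
  let _ := act (P : Subgroup G) g h
  let X := {yz : G × G // IsConj g yz.1 ∧ IsConj h yz.2 ∧ yz.2 * yz.1⁻¹ ∈ (P : Subgroup G)}
  letI : Fintype (MulAction.orbitRel.Quotient (P : Subgroup G) X) := Fintype.ofFinite _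
  have hX : Nat.card X = ∑ ω : MulAction.orbitRel.Quotient (P : Subgroup G) X, Nat.card ω.orbit := by
    rw [Nat.card_congr (MulAction.selfEquivSigmaOrbits' (P : Subgroup G) X), Nat.card_sigma]
  change _ ∣ Nat.card X
  rw [hX]
  apply Finset.dvd_sum
  intro ω _
  induction ω using Quotient.inductionOn' with
  | h x =>
    rw [MulAction.orbitRel.Quotient.orbit_mk]
    have hidx : Nat.card (MulAction.orbit (P : Subgroup G) x)
        = (MulAction.stabilizer (P : Subgroup G) x).index := by
      rw [MulAction.index_stabilizer, Nat.card_coe_set_eq]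
    rw [hidx]
    -- cardinalities as powers of p
    have hPcard : Nat.card P = p ^ (Nat.card G).factorization p := Sylow.card_eq_multiplicity P
    have hScard : Nat.card S = p ^ (Nat.card (Subgroup.centralizer ({g} : Set G))).factorization p :=
      Sylow.card_eq_multiplicity S
    obtain ⟨e, he⟩ := (IsPGroup.iff_card).1
      (P.isPGroup'.to_subgroup (MulAction.stabilizer (P : Subgroup G) x))
    -- the stabilizer embeds in the centralizer of y
    obtain ⟨t, ht⟩ := isConj_iff.1 x.2.1
    have hinj : Nat.card (MulAction.stabilizer (P : Subgroup G) x)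
        ∣ Nat.card (Subgroup.centralizer ({x.1.1} : Set G)) := by
      let f : MulAction.stabilizer (P : Subgroup G) x →* Subgroup.centralizer ({x.1.1} : Set G) :=
        { toFun := fun u => ⟨((u : P) : G), by
            rw [Subgroup.mem_centralizer_singleton_iff]
            have h2 := congrArg (fun q => q.1.1) (MulAction.mem_stabilizer_iff.1 u.2)
            have h3 : ((u : P) : G) * x.1.1 * ((u : P) : G)⁻¹ = x.1.1 := h2
            exact mul_inv_eq_iff_eq_mul.1 h3⟩
          map_one' := rfl
          map_mul' := fun a b => rfl }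
      apply Subgroup.card_dvd_of_injective f
      intro a b hab
      apply Subtype.ext; apply Subtype.ext
      have h5 : (f a : G) = (f b : G) := by rw [hab]
      exact h5
    rw [← ht, card_centralizer_conj, he] at hinj
    have hG0 : Nat.card G ≠ 0 := Nat.card_pos.ne'
    have hC0 : Nat.card (Subgroup.centralizer ({g} : Set G)) ≠ 0 := Nat.card_pos.ne'
    have hed : e ≤ (Nat.card (Subgroup.centralizer ({g} : Set G))).factorization p :=
      (hp.pow_dvd_iff_le_factorization hC0).1 hinj
    have hda : (Nat.card (Subgroup.centralizer ({g} : Set G))).factorization p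
        ≤ (Nat.card G).factorization p := by
      have hdvd : Nat.card (Subgroup.centralizer ({g} : Set G)) ∣ Nat.card G :=
        Subgroup.card_subgroup_dvd_card _
      exact (Nat.factorization_le_iff_dvd hC0 hG0).2 hdvd p
    have hidx2 : (MulAction.stabilizer (P : Subgroup G) x).index * p ^ e
        = p ^ (Nat.card G).factorization p := by
      rw [← he, ← hPcard]
      exact Subgroup.index_mul_card _
    have hidx3 : (MulAction.stabilizer (P : Subgroup G) x).index
        = p ^ ((Nat.card G).factorization p - e) := by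
      have hpe : 0 < p ^ e := pow_pos hp.pos e
      apply Nat.eq_of_mul_eq_mul_right hpe
      rw [hidx2, ← pow_add, Nat.sub_add_cancel (hed.trans hda)]
    rw [hidx3, hPcard, hScard, Nat.pow_div hda hp.pos]
    exact pow_dvd_pow p (by omega)

end Cfsg.Agent.S0957
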