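import Mathlib
import Cfsg.Statements.S0958
import Cfsg.Agent.Lib.Helper8.BlockInd
import Cfsg.Agent.S0912

set_option autoImplicit false
open Cfsg

namespace Cfsg.Agent.S0958

open Cfsg.Agent.Lib.Helper2 Cfsg.Agent.Lib.Helper25 Cfsg.Agent.Lib.Helper8

theorem result {G : Type*} [Group G] [Finite G] (p : ℕ) [Fact p.Prime] (M : Ideal Cfsg.AlgInt) (hM : Cfsg.IsPModular p M) (P H : Subgroup G) (hP : IsPGroup p P) (hPH : P ⊔ Subgroup.centralizer (P : Set G) ≤ H) (hHN : H ≤ Subgroup.normalizer (P : Set G)) (B : Set (Cfsg.IrrCharacter G)) (hB : Cfsg.IsPBlock M B) : (∃ b : Set (Cfsg.IrrCharacter H), Cfsg.IsInducedBlock M H b B) ↔ ∃ D : Subgroup G, Cfsg.IsDefectGroup p M B D ∧ ∃ x : G, P.map (MulAut.conj x).toMonoidHom ≤ D := by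
  classical
  have : Fintype G := Fintype.ofFinite G
  have : Fintype H := Fintype.ofFinite H
  have hpr := isPrime_of_isPModular hM
  have hPH' : P ≤ H := le_trans le_sup_left hPH
  have hCH : Subgroup.centralizer (P : Set G) ≤ H := le_trans le_sup_right hPH
  constructor
  · rintro ⟨b, hind⟩
    obtain ⟨g_b, hg_b⟩ := Cfsg.Agent.S0906.result p M hM b hind.1
    obtain ⟨Q⟩ : Nonempty (Sylow p (Subgroup.centralizer ({g_b} : Set H))) := inferInstance
    have hD_b : IsDefectGroup p M b ((Q : Subgroup (Subgroup.centralizer ({g_b} : Set H))).map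
        (Subgroup.centralizer ({g_b} : Set H)).subtype) := ⟨g_b, hg_b, Q, rfl⟩
    have hN : (P.subgroupOf H).Normal :=
      (Subgroup.normal_subgroupOf_iff_le_normalizer hPH').mpr hHN
    have hle := Cfsg.Agent.S0912.normal_le_defect p M hM b hind.1 _ hD_b (P.subgroupOf H)
      hP.comap_subtype
    obtain ⟨E, hE, hDE⟩ := defectGroup_le_of_induced hM H hind _ hD_b
    refine ⟨E, hE, 1, ?_⟩
    intro s hs
    rw [mem_map_conj] at hs
    have hs' : s ∈ P := by simpa using hs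
    apply hDE
    exact Subgroup.mem_map.mpr ⟨⟨s, hPH' hs'⟩, hle (Subgroup.mem_subgroupOf.mpr hs'), rfl⟩
  · rintro ⟨D, hD, x, hx⟩
    obtain ⟨g₁, hg₁, hD₁⟩ := hD
    generalize hC : Subgroup.centralizer ({g₁} : Set G) = C at hD₁
    obtain ⟨D₁, rfl⟩ := hD₁
    have hg₂ : x⁻¹ * g₁ * x ∈ Subgroup.centralizer (P : Set G) := by
      rw [Subgroup.mem_centralizer_iff]
      intro u hu
      have h1 : x * u * x⁻¹ ∈ (P.map (MulAut.conj x).toMonoidHom) := by
        rw [mem_map_conj]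
        have e : x⁻¹ * (x * u * x⁻¹) * x = u := by group
        rw [e]; exact hu
      have h2 := hx h1
      obtain ⟨v, -, hv⟩ := Subgroup.mem_map.mp h2
      have hv2 : (v : G) ∈ Subgroup.centralizer ({g₁} : Set G) := by rw [hC]; exact v.2
      have h3 := Subgroup.mem_centralizer_iff.mp hv2 g₁ (Set.mem_singleton g₁)
      have hv' : (v : G) = x * u * x⁻¹ := hv
      rw [hv'] at h3
      calc u * (x⁻¹ * g₁ * x) = x⁻¹ * ((x * u * x⁻¹) * g₁) * x := by group
        _ = x⁻¹ * (g₁ * (x * u * x⁻¹)) * x := by rw [h3]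
        _ = x⁻¹ * g₁ * x * u := by group
    have hdef₂ : IsDefectClass M B (x⁻¹ * g₁ * x) :=
      isDefectClass_of_isConj hM (isConj_iff.mpr ⟨x⁻¹, by group⟩) hg₁
    obtain ⟨ξ, hξ, -⟩ := exists_induced_of_blockCoeff hM P H hP hPH' hCH hHN B hB _ hg₂
      hdef₂.2.1
    exact ⟨_, hξ⟩

end Cfsg.Agent.S0958
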