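import Mathlib
import Cfsg.Statements.S0959
import Cfsg.Agent.Lib.Helper8.BlockRing

set_option autoImplicit false
open Cfsg

namespace Cfsg.Agent.S0959

open Cfsg.Agent.Lib.Helper2 Cfsg.Agent.Lib.Helper25 Cfsg.Agent.Lib.Helper8

theorem result {G : Type*} [Group G] [Finite G] (p : ℕ) [Fact p.Prime] (M : Ideal Cfsg.AlgInt) (hM : Cfsg.IsPModular p M) (B : Set (Cfsg.IrrCharacter G)) (hB : Cfsg.IsPBlock M B) (D : Subgroup G) (hD : Cfsg.IsDefectGroup p M B D) (P : Subgroup G) (hP : IsPGroup p P) : (∃ g : G, Cfsg.MemLocalRing M (Cfsg.blockCoeff B g) ∧ ¬ Cfsg.MemLocalIdeal M (Cfsg.blockCoeff B g) ∧ ∃ c : G, IsConj g c ∧ c ∈ Subgroup.centralizer (P : Set G)) ↔ ∃ x : G, P.map (MulAut.conj x).toMonoidHom ≤ D := by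
  classical
  have : Fintype G := Fintype.ofFinite G
  have : Fintype (IrrCharacter G) := Fintype.ofFinite _
  have hpr := isPrime_of_isPModular hM
  obtain ⟨g₁, ⟨hloc, hnot, hcc⟩, hD₁⟩ := hD
  generalize hC : Subgroup.centralizer ({g₁} : Set G) = C at hD₁
  obtain ⟨D₁, rfl⟩ := hD₁
  constructor
  · rintro ⟨g, -, hne, c, hgc, hcP⟩
    obtain ⟨χ₀, hχ₀⟩ := hB
    have hχ₀B : χ₀ ∈ B := by rw [hχ₀]; exact sameBlock_refl M _
    have hnec : ¬ MemLocalIdeal M (blockCoeff B c) := by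
      obtain ⟨y, rfl⟩ := isConj_iff.mp hgc
      rw [blockCoeff_isClassFunction B g y]
      exact hne
    subst hC
    have hd := lowDefect_of_centralChar hM B ⟨χ₀, hχ₀⟩ g₁ χ₀ hχ₀B (hcc χ₀ hχ₀B) D₁ c hnec
    have hle : P ≤ Subgroup.centralizer ({c} : Set G) := by
      intro u hu
      rw [Subgroup.mem_centralizer_iff]
      intro y hy
      rw [Set.mem_singleton_iff.mp hy]
      exact (Subgroup.mem_centralizer_iff.mp hcP u hu).symm
    obtain ⟨x, hx⟩ := conj_le_of_defLE hd P hP hle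
    refine ⟨x⁻¹, ?_⟩
    intro s hs
    rw [mem_map_conj] at hs
    have h2 := hx hs
    rw [mem_map_conj] at h2
    have e : x⁻¹ * (x⁻¹⁻¹ * s * x⁻¹) * x = s := by group
    rw [e] at h2
    exact h2
  · rintro ⟨x, hx⟩
    refine ⟨g₁, hloc, hnot, x⁻¹ * g₁ * x, isConj_iff.mpr ⟨x⁻¹, by group⟩, ?_⟩
    rw [Subgroup.mem_centralizer_iff]
    intro u hu
    have h1 : x * u * x⁻¹ ∈ (P.map (MulAut.conj x).toMonoidHom) := by
      rw [mem_map_conj]
      have e : x⁻¹ * (x * u * x⁻¹) * x = u := by group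
      rw [e]; exact hu
    have h2 := hx h1
    obtain ⟨v, -, hv⟩ := Subgroup.mem_map.mp h2
    have hv2 : (v : G) ∈ Subgroup.centralizer ({g₁} : Set G) := by rw [hC]; exact v.2
    have h3 := Subgroup.mem_centralizer_iff.mp hv2 g₁ (Set.mem_singleton g₁)
    have hv' : (v : G) = x * u * x⁻¹ := hv
    rw [hv'] at h3
    calc u * (x⁻¹ * g₁ * x) = x⁻¹ * ((x * u * x⁻¹) * g₁) * x := by group
      _ = x⁻¹ * (g₁ * (x * u * x⁻¹)) * x := by rw [h3]
      _ = x⁻¹ * g₁ * x * u := by group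

end Cfsg.Agent.S0959
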