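import Mathlib
import Cfsg.Statements.S0963
import Cfsg.Agent.Lib.Helper8.InducedCC

set_option autoImplicit false

open Cfsg

namespace Cfsg.Agent.S0963

open Cfsg.Agent.Lib.Helper2 Cfsg.Agent.Lib.Helper25 Cfsg.Agent.Lib.Helper8

theorem result {G : Type*} [Group G] [Fintype G] (N : Subgroup G) [N.Normal] [Fintype N] (χ : Cfsg.IrrCharacter G) (θ : Cfsg.IrrCharacter N) : Cfsg.classInner (fun n : N => (χ : G → ℂ) n) (θ : N → ℂ) ≠ 0 ↔ ∀ n : N, Cfsg.centralChar (χ : G → ℂ) (n : G) = Cfsg.inducedCentralChar N (θ : N → ℂ) (n : G) := by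
  have hθ1 := irr_one_ne_zero θ.2
  constructor
  · intro h n
    rw [inducedCentralChar_eq N (θ : N → ℂ) hθ1]
    exact centralChar_of_constituent N χ θ h n
  · intro h
    apply constituent_of_centralChar N χ θ
    intro n
    rw [← inducedCentralChar_eq N (θ : N → ℂ) hθ1]
    exact h n

end Cfsg.Agent.S0963
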