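import Mathlib
import Cfsg.Statements.S0965
import Cfsg.Agent.Lib.Helper8.Covering
import Cfsg.Agent.Lib.Helper8.DefectClass
import Cfsg.Agent.S0963

set_option autoImplicit false
open Cfsg

namespace Cfsg.Agent.S0965

open Cfsg.Agent.Lib.Helper2 Cfsg.Agent.Lib.Helper25 Cfsg.Agent.Lib.Helper8 in
/-- Let N be a normal subgroup of the finite group G and let B, b be blocks of G and of N relative to a maximal ideal M of the algebraic integers containing the prime p. Then some χ ∈ B has a constituent in b on restriction to N if and only if, for all χ ∈ B, θ ∈ b and n ∈ N, the central character of χ at n is congruent modulo the local ideal at M to the sum of θ m / θ 1 over the elements m ∈ N conjugate in G to n. -/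
theorem result {G : Type*} [Group G] [Fintype G] (p : ℕ) [Fact p.Prime] (M : Ideal Cfsg.AlgInt) (hM : Cfsg.IsPModular p M) (N : Subgroup G) [N.Normal] [Fintype N] (B : Set (Cfsg.IrrCharacter G)) (hB : Cfsg.IsPBlock M B) (b : Set (Cfsg.IrrCharacter N)) (hb : Cfsg.IsPBlock M b) : (∃ χ ∈ B, ∃ θ ∈ b, Cfsg.classInner (fun n : N => (χ : G → ℂ) n) (θ : N → ℂ) ≠ 0) ↔ ∀ χ ∈ B, ∀ θ ∈ b, ∀ n : N, Cfsg.MemLocalIdeal M (Cfsg.centralChar (χ : G → ℂ) (n : G) - Cfsg.inducedCentralChar N (θ : N → ℂ) (n : G)) := by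
  classical
  have hpr := isPrime_of_isPModular hM
  constructor
  · rintro ⟨χ₀, hχ₀, θ₀, hθ₀, he⟩ χ hχ θ hθ n
    have e := (Cfsg.Agent.S0963.result N χ₀ θ₀).mp he n
    have s1 := isPBlock_sameBlock' hM hB hχ hχ₀ (n : G)
    have s2 := inducedCentralChar_sub_mem hM N θ₀ θ (isPBlock_sameBlock' hM hb hθ₀ hθ) (n : G)
    rw [e] at s1
    have := MemLocalIdeal.add M s1 s2
    rwa [sub_add_sub_cancel] at this
  · intro h
    obtain ⟨χ, hχ⟩ := isPBlock_nonempty' hM hB
    obtain ⟨θ, hθ⟩ := isPBlock_nonempty' hM hb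
    have hne : (fun n : N => (χ : G → ℂ) n) ≠ 0 := by
      intro h0
      have := congrFun h0 1
      exact irr_one_ne_zero χ.2 this
    obtain ⟨ψ, hψirr, hψ⟩ := exists_irr_constituent
      (IsCharacter.restrict (isCharacter_of_isIrrCharacter χ.2) N) hne
    obtain ⟨g, hg⟩ := mem_conjOrbit_of_centralChar N hM hb χ θ hθ (h χ hχ θ hθ) ⟨ψ, hψirr⟩ hψ
    refine ⟨χ, hχ, conjIrr N ⟨ψ, hψirr⟩ g, hg, ?_⟩
    have := classInner_restrict_conjFun N (isClassFunction_of_isIrrCharacter χ.2) ψ g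
    change classInner (fun n : N => (χ : G → ℂ) n) (Cfsg.Agent.Lib.Helper2.conjFun N ψ g) ≠ 0
    rw [this]
    exact hψ

end Cfsg.Agent.S0965
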