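import Mathlib
import Cfsg.Statements.S0966
import Cfsg.Agent.Lib.Helper8.Covering
import Cfsg.Agent.Lib.Helper8.DefectClass
import Cfsg.Agent.S0963

set_option autoImplicit false
open Cfsg

namespace Cfsg.Agent.S0966

open Cfsg.Agent.Lib.Helper2 Cfsg.Agent.Lib.Helper25 Cfsg.Agent.Lib.Helper8 in
/-- Let N be a normal subgroup of p-power index in the finite group G and b a block of N relative to a maximal ideal M of the algebraic integers containing p. Then there is exactly one block B of G containing a character whose restriction to N has a constituent in b. -/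
theorem result {G : Type*} [Group G] [Fintype G] (p : ℕ) [Fact p.Prime] (M : Ideal Cfsg.AlgInt) (hM : Cfsg.IsPModular p M) (N : Subgroup G) [N.Normal] [Fintype N] (hidx : ∃ k : ℕ, N.index = p ^ k) (b : Set (Cfsg.IrrCharacter N)) (hb : Cfsg.IsPBlock M b) : ∃! B : Set (Cfsg.IrrCharacter G), Cfsg.IsPBlock M B ∧ ∃ χ ∈ B, ∃ θ ∈ b, Cfsg.classInner (fun n : N => (χ : G → ℂ) n) (θ : N → ℂ) ≠ 0 := by
  classical
  have hpr := isPrime_of_isPModular hM
  obtain ⟨θ, hθ⟩ := isPBlock_nonempty' hM hb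
  have hne : indFun N (θ : N → ℂ) ≠ 0 := by
    intro h0
    have h1 := congrFun h0 1
    rw [indFun_one] at h1
    have hidx0 : (N.index : ℂ) ≠ 0 := by
      have : N.index ≠ 0 := by
        obtain ⟨k, hk⟩ := hidx
        rw [hk]
        exact pow_ne_zero _ (Fact.out : p.Prime).ne_zero
      exact_mod_cast this
    exact (mul_ne_zero hidx0 (irr_one_ne_zero θ.2)) h1
  obtain ⟨χf, hχirr, hχ⟩ := exists_irr_constituent
    (indFun_isCharacter N (isCharacter_of_isIrrCharacter θ.2)) hne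
  rw [frobenius_reciprocity N _ χf (isClassFunction_of_isIrrCharacter hχirr)] at hχ
  have hcon : classInner (fun n : N => χf n) (θ : N → ℂ) ≠ 0 := by
    rw [← classInner_conj_symm]
    intro h0
    apply hχ
    have := congrArg (starRingEnd ℂ) h0
    simpa using this
  refine ⟨blockOf M χf, ⟨⟨⟨χf, hχirr⟩, rfl⟩, ⟨χf, hχirr⟩, sameBlock_refl M _, θ, hθ, hcon⟩, ?_⟩
  rintro B' ⟨hB', χ', hχ', θ', hθ', hcon'⟩
  obtain ⟨χ'', rfl⟩ := hB'
  rw [blockOf_eq_of_mem hM hχ']
  symm
  apply blockOf_eq_of_mem (χ := ⟨χf, hχirr⟩) hM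
  apply sameBlock_of_regular hM ⟨χf, hχirr⟩ χ'
  intro g hg
  have hgN : g ∈ N := mem_of_regular_of_index N hidx g hg
  have e1 := (Cfsg.Agent.S0963.result N ⟨χf, hχirr⟩ θ).mp hcon ⟨g, hgN⟩
  have e2 := (Cfsg.Agent.S0963.result N χ' θ').mp hcon' ⟨g, hgN⟩
  change MemLocalIdeal M (centralChar χf g - centralChar (χ' : G → ℂ) g)
  have e1' : centralChar χf g = inducedCentralChar N (θ : N → ℂ) g := e1
  have e2' : centralChar (χ' : G → ℂ) g = inducedCentralChar N (θ' : N → ℂ) g := e2
  rw [e1', e2']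
  exact inducedCentralChar_sub_mem hM N θ θ' (isPBlock_sameBlock' hM hb hθ hθ') g

end Cfsg.Agent.S0966
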