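import Mathlib
import Cfsg.Statements.S0967
import Cfsg.Agent.Lib.Helper25.Quot
import Cfsg.Agent.Lib.Helper8.BlockReg

set_option autoImplicit false

open Cfsg

namespace Cfsg.Agent.S0967

open Cfsg.Agent.Lib.Helper2 Cfsg.Agent.Lib.Helper25 Cfsg.Agent.Lib.Helper8

open scoped ComplexConjugate

/-- the central character of a class function of the quotient, as a central character of the
inflated function at a class function of the group -/
theorem centralChar_quot {G : Type*} [Group G] [Fintype G] (N : Subgroup G) [N.Normal]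
    [Fintype (G ⧸ N)] [DecidableRel (IsConj : G ⧸ N → G ⧸ N → Prop)]
    (φ : G ⧸ N → ℂ) (hφ : IsClassFunction (G ⧸ N) φ) (q : G ⧸ N) :
    centralChar φ q = omegaFun (fun g : G => φ (g : G ⧸ N))
      (fun x : G => if IsConj q (x : G ⧸ N) then (Nat.card N : ℂ)⁻¹ else 0) := by
  classical
  have hN : (Nat.card N : ℂ) ≠ 0 := card_ne_zero_complex N
  unfold omegaFun centralChar
  have h1 := sum_comp_mk N (fun y : G ⧸ N =>
    (if IsConj q y then (Nat.card N : ℂ)⁻¹ else 0) * φ y)
  rw [h1]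
  have h2 : ∀ y : G ⧸ N, (if IsConj q y then (Nat.card N : ℂ)⁻¹ else 0) * φ y
      = if IsConj q y then (Nat.card N : ℂ)⁻¹ * φ q else 0 := by
    intro y
    split_ifs with hc
    · rw [IsClassFunction.of_isConj hφ hc]
    · rw [zero_mul]
  simp only [h2]
  rw [← Finset.sum_filter, Finset.sum_const, nsmul_eq_mul]
  have h3 := card_isConj_eq_index q
  have h4 : (Finset.univ.filter (fun y : G ⧸ N => IsConj q y)).card
      = (Subgroup.centralizer ({q} : Set (G ⧸ N))).index := by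
    rw [← h3]
    congr 1
    ext a
    simp
  rw [h4]
  have h5 : ((1 : G) : G ⧸ N) = 1 := rfl
  rw [h5]
  congr 1
  field_simp

theorem result {G : Type*} [Group G] [Finite G] (p : ℕ) [Fact p.Prime] (M : Ideal Cfsg.AlgInt) (hM : Cfsg.IsPModular p M) (N : Subgroup G) [N.Normal] (hN : ¬ p ∣ Nat.card N) (χ : Cfsg.IrrCharacter (G ⧸ N)) (ψ : Cfsg.IrrCharacter G) (hψ : ψ ∈ Cfsg.blockOf M ((χ : G ⧸ N → ℂ) ∘ QuotientGroup.mk)) : ∃ ψ' : Cfsg.IrrCharacter (G ⧸ N), (ψ : G → ℂ) = (ψ' : G ⧸ N → ℂ) ∘ QuotientGroup.mk ∧ Cfsg.SameBlock M (χ : G ⧸ N → ℂ) (ψ' : G ⧸ N → ℂ) := by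
  classical
  have : Fintype G := Fintype.ofFinite G
  have : Fintype N := Fintype.ofFinite N
  have : Fintype (G ⧸ N) := Fintype.ofFinite _
  have hpr := isPrime_of_isPModular hM
  let χI : IrrCharacter G := ⟨fun g : G => (χ : G ⧸ N → ℂ) (g : G ⧸ N), inflate_irr N χ.2⟩
  have hs : SameBlock M (χI : G → ℂ) (ψ : G → ℂ) := hψ
  have hker : ∀ n ∈ N, (χI : G → ℂ) n = (χI : G → ℂ) 1 := by
    intro n hn
    change (χ : G ⧸ N → ℂ) (n : G ⧸ N) = (χ : G ⧸ N → ℂ) ((1 : G) : G ⧸ N)
    rw [(QuotientGroup.eq_one_iff n).mpr hn, QuotientGroup.mk_one]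
  have h1 := same_block_constituent hM N hN χI ψ hs ⟨fun _ => 1, isIrrCharacter_one⟩
    (trivial_constituent_of_kernel N χI hker)
  have hkerψ := kernel_of_trivial_constituent N ψ h1
  obtain ⟨ψ', hψ'irr, hψ'⟩ := deflate_irr N ψ.2 hkerψ
  refine ⟨⟨ψ', hψ'irr⟩, ?_, ?_⟩
  · funext g
    exact (hψ' g).symm
  · intro q
    rw [centralChar_quot N (χ : G ⧸ N → ℂ) (isClassFunction_of_isIrrCharacter χ.2) q,
      centralChar_quot N ψ' (isClassFunction_of_isIrrCharacter hψ'irr) q]
    have e : (fun g : G => ψ' (g : G ⧸ N)) = (ψ : G → ℂ) := funext hψ'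
    rw [e]
    apply omegaFun_sub_mem hM χI ψ hs
    · intro x y
      have hiff : IsConj q ((y * x * y⁻¹ : G) : G ⧸ N) ↔ IsConj q (x : G ⧸ N) := by
        constructor
        · intro hc
          exact hc.trans (isConj_iff.mpr ⟨((y : G ⧸ N))⁻¹, by
            simp only [QuotientGroup.mk_mul, QuotientGroup.mk_inv]; group⟩)
        · intro hc
          exact hc.trans (isConj_iff.mpr ⟨(y : G ⧸ N), by
            simp only [QuotientGroup.mk_mul, QuotientGroup.mk_inv]⟩)
      simp only [hiff]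
    · intro x
      by_cases hc : IsConj q (x : G ⧸ N)
      · simp only [if_pos hc]
        exact memLocalRing_inv_natCast hM hN
      · simp only [if_neg hc]
        exact memLocalRing_zero M

end Cfsg.Agent.S0967
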