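import Cfsg.Statements.S0972
import Cfsg.Agent.Lib.Helper8.DefectNum
import Cfsg.Agent.Lib.Helper8.DefectLocal
import Cfsg.Agent.Lib.Helper25.BlockOrth
import Cfsg.Agent.Lib.Helper25.BlockIdem
import Cfsg.Agent.Lib.Helper25.Central
import Cfsg.Agent.Lib.Helper25.CharTools
import Cfsg.Agent.Lib.Helper2.CharIto
import Cfsg.Agent.Lib.Helper2.CharClifford
import Cfsg.Agent.Lib.Helper2.CharOrtho
import Cfsg.Agent.Lib.Helper2.CharComplete
import Cfsg.Agent.S0908
import Cfsg.Agent.S0914

set_option autoImplicit false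
open Cfsg

namespace Cfsg.Agent.S0972

open Cfsg Cfsg.Agent.Lib.Helper2 Cfsg.Agent.Lib.Helper25 Cfsg.Agent.Lib.Helper8

open scoped ComplexConjugate


/-- a nonabelian finite group has a nonlinear irreducible character -/
theorem exists_nonlinear {P : Type*} [Group P] [Fintype P] (h : ¬ ∀ a c : P, a * c = c * a) :
    ∃ μ : IrrCharacter P, (μ : P → ℂ) 1 ≠ 1 := by
  classical
  have : Fintype (IrrCharacter P) := Fintype.ofFinite _
  by_contra hall
  push Not at hall
  apply h
  intro a c
  by_contra hac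
  set g : P := a * c * a⁻¹ * c⁻¹ with hg
  have hg1 : g ≠ 1 := by
    intro h1
    apply hac
    have : a * c = g * (c * a) := by rw [hg]; group
    rw [this, h1, one_mul]
  have hgc : g ∈ commutator P := by
    rw [commutator_eq_closure]
    exact Subgroup.subset_closure ⟨a, c, by rw [hg, commutatorElement_def]⟩
  have hcol := column_orthogonality g (1 : P)
  have hnc : ¬ IsConj g (1 : P) := by
    intro hc
    exact hg1 (isConj_one_left.mp hc)
  rw [colFun_of_not_isConj hnc] at hcol
  have hsum : ∑ χ : IrrCharacter P, (χ : P → ℂ) g * conj ((χ : P → ℂ) 1)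
      = (Fintype.card (IrrCharacter P) : ℂ) := by
    rw [Finset.sum_congr rfl (fun χ _ => by
      rw [linear_commutator χ.2 (hall χ) hgc, hall χ, map_one, one_mul])]
    simp
  rw [hsum] at hcol
  have hne : Nonempty (IrrCharacter P) := ⟨⟨fun _ => 1, isIrrCharacter_one⟩⟩
  have : Fintype.card (IrrCharacter P) ≠ 0 := Fintype.card_ne_zero
  exact this (by exact_mod_cast hcol)

/-- every block contains a character lying over a given irreducible character of a normal
`p`-subgroup -/
theorem exists_over {G : Type*} [Group G] [Fintype G] (p : ℕ) [Fact p.Prime]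
    (M : Ideal AlgInt) (hM : IsPModular p M) (B : Set (IrrCharacter G)) (hB : IsPBlock M B)
    (P : Subgroup G) [Fintype P] (hPp : IsPGroup p P) (μ : IrrCharacter P) :
    ∃ χ ∈ B, classInner (fun u : P => (χ : G → ℂ) u) (μ : P → ℂ) ≠ 0 := by
  classical
  have hpr := isPrime_of_isPModular hM
  have hp : p.Prime := Fact.out
  have : Fintype (IrrCharacter G) := Fintype.ofFinite _
  have hBc : BlockClosed M B := blockClosed_of_isPBlock M hB
  have hG := card_ne_zero_complex G
  by_contra hall
  push Not at hall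
  -- the sum of `μ u * |G| * blockCoeff B u` over `P`, computed in two ways
  have h1 : ∀ u : P, u ≠ 1 → blockCoeff B (u : G) = 0 := by
    intro u hu
    apply blockCoeff_eq_zero_of_singular hM B hBc
    obtain ⟨k, hk⟩ := (IsPGroup.iff_orderOf.mp hPp) u
    rw [Subgroup.orderOf_coe, hk]
    have hk0 : k ≠ 0 := by
      rintro rfl
      rw [pow_zero, orderOf_eq_one_iff] at hk
      exact hu hk
    exact dvd_pow_self p hk0
  have hS1 : ∑ u : P, (μ : P → ℂ) u * blockCoeff B (u : G)
      = (μ : P → ℂ) 1 * blockCoeff B (1 : G) := by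
    rw [Finset.sum_eq_single (1 : P)]
    · rfl
    · intro u _ hu
      rw [h1 u hu, mul_zero]
    · intro h
      exact absurd (Finset.mem_univ _) h
  have hS2 : ∑ u : P, (μ : P → ℂ) u * blockCoeff B (u : G) = 0 := by
    have e : ∀ u : P, (μ : P → ℂ) u * blockCoeff B (u : G)
        = (Nat.card G : ℂ)⁻¹ * ∑ χ : IrrCharacter G,
          (if χ ∈ B then (1 : ℂ) else 0) * ((χ : G → ℂ) 1
            * ((μ : P → ℂ) u * conj ((χ : G → ℂ) (u : G)))) := by
      intro u
      rw [blockCoeff_eq_sum, mul_left_comm, Finset.mul_sum]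
      congr 1
      apply Finset.sum_congr rfl
      intro χ _
      ring
    rw [Finset.sum_congr rfl (fun u _ => e u), ← Finset.mul_sum, Finset.sum_comm]
    rw [Finset.sum_eq_zero, mul_zero]
    intro χ _
    rw [← Finset.mul_sum, ← Finset.mul_sum]
    by_cases hχ : χ ∈ B
    · have h3 := hall χ hχ
      have h4 : classInner (μ : P → ℂ) (fun u : P => (χ : G → ℂ) u) = 0 := by
        rw [← classInner_conj_symm, h3, map_zero]
      rw [classInner_def] at h4
      have hPne : (Nat.card P : ℂ)⁻¹ ≠ 0 := inv_ne_zero (card_ne_zero_complex P)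
      have h5 := (mul_eq_zero.mp h4).resolve_left hPne
      rw [h5, mul_zero, mul_zero]
    · rw [if_neg hχ, zero_mul]
  rw [hS1] at hS2
  have hμ1 := irr_one_ne_zero μ.2
  have hb1 : blockCoeff B (1 : G) ≠ 0 := by
    rw [blockCoeff_eq_sum]
    apply mul_ne_zero (inv_ne_zero hG)
    obtain ⟨χ₀, hχ₀⟩ := isPBlock_nonempty' hM hB
    have hterm : ∀ χ : IrrCharacter G, ∃ r : ℝ, 0 ≤ r ∧
        (if χ ∈ B then (1 : ℂ) else 0) * ((χ : G → ℂ) 1 * conj ((χ : G → ℂ) 1)) = (r : ℂ)
        ∧ (χ ∈ B → 0 < r) := by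
      intro χ
      obtain ⟨d, hd, -, hdpos, -, -⟩ := Cfsg.Agent.S0914.irr_degree_data χ
      by_cases hχ : χ ∈ B
      · refine ⟨(d : ℝ) * d, by positivity, ?_, fun _ => by positivity⟩
        rw [if_pos hχ, hd]
        simp
      · refine ⟨0, le_refl _, ?_, fun h => absurd h hχ⟩
        rw [if_neg hχ]
        simp
    choose r hr0 hr hrpos using hterm
    rw [Finset.sum_congr rfl (fun χ _ => hr χ), ← Complex.ofReal_sum]
    have hpos : 0 < ∑ χ : IrrCharacter G, r χ :=
      Finset.sum_pos' (fun χ _ => hr0 χ) ⟨χ₀, Finset.mem_univ _, hrpos χ₀ hχ₀⟩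
    exact_mod_cast hpos.ne'
  exact (mul_ne_zero hμ1 hb1) hS2

/-- an irreducible character lying over a nonlinear character of a normal `p`-subgroup `P`
takes values in the local ideal on the centralizer of `P` -/
theorem value_mem {G : Type*} [Group G] [Fintype G] (p : ℕ) [Fact p.Prime]
    (M : Ideal AlgInt) (hM : IsPModular p M) (P : Subgroup G) [hPn : P.Normal] [Fintype P]
    (hPp : IsPGroup p P) (χ : IrrCharacter G) (μ : IrrCharacter P)
    (hover : classInner (fun u : P => (χ : G → ℂ) u) (μ : P → ℂ) ≠ 0)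
    (hμ : (μ : P → ℂ) 1 ≠ 1) (g : G) (hg : ∀ u ∈ P, u * g = g * u) :
    MemLocalIdeal M ((χ : G → ℂ) g) := by
  classical
  have hpr := isPrime_of_isPModular hM
  have hp : p.Prime := Fact.out
  set K : Subgroup G := Subgroup.centralizer ({g} : Set G) with hK
  have : Fintype K := Fintype.ofFinite K
  have : Fintype (IrrCharacter K) := Fintype.ofFinite _
  have : Fintype (IrrCharacter P) := Fintype.ofFinite _
  have hPK : P ≤ K := by
    intro u hu
    rw [hK, Subgroup.mem_centralizer_singleton_iff]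
    exact hg u hu
  have hgK : g ∈ K := by
    rw [hK, Subgroup.mem_centralizer_singleton_iff]
  have hgc : (⟨g, hgK⟩ : K) ∈ Subgroup.center K := by
    rw [Subgroup.mem_center_iff]
    intro k
    apply Subtype.ext
    simp only [Subgroup.coe_mul]
    exact Subgroup.mem_centralizer_singleton_iff.mp k.2
  have hχK : IsCharacter K (fun k : K => (χ : G → ℂ) k) :=
    IsCharacter.restrict (isCharacter_of_isIrrCharacter χ.2) K
  have hexp := class_fun_expand (fun k : K => (χ : G → ℂ) k) (isClassFunction_of_isCharacter hχK)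
  have hval : (χ : G → ℂ) g = ∑ ψ : IrrCharacter K,
      classInner (fun k : K => (χ : G → ℂ) k) (ψ : K → ℂ) * (ψ : K → ℂ) ⟨g, hgK⟩ := by
    have := congrFun hexp ⟨g, hgK⟩
    rw [Finset.sum_apply] at this
    simp only [Pi.smul_apply, smul_eq_mul] at this
    exact this
  rw [hval]
  apply memLocalIdeal_sum
  intro ψ _
  obtain ⟨n, hn⟩ := classInner_isCharacter_nat hχK (isCharacter_of_isIrrCharacter ψ.2)
  by_cases hn0 : classInner (fun k : K => (χ : G → ℂ) k) (ψ : K → ℂ) = 0
  · rw [hn0, zero_mul]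
    exact memLocalIdeal_zero M
  rw [hn]
  apply MemLocalIdeal.mul_left M (memLocalRing_natCast M n)
  -- the value of `ψ` at the central element `g`
  obtain ⟨m, ρ, hρ, hψρ⟩ := ψ.2
  obtain ⟨ω, hω⟩ := central_scalar ρ hρ (⟨g, hgK⟩ : K) hgc
  have : Nontrivial (Fin m → ℂ) := irr_nontrivial ρ
  have hωint : IsIntegral ℤ ω := by
    have hpow := scalar_pow_orderOf ρ hω
    refine ⟨Polynomial.X ^ orderOf (⟨g, hgK⟩ : K) - 1,
      Polynomial.monic_X_pow_sub_C 1 (orderOf_pos _).ne', ?_⟩
    rw [Polynomial.eval₂_sub, Polynomial.eval₂_pow, Polynomial.eval₂_X, Polynomial.eval₂_one,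
      hpow, sub_self]
  have hψg : (ψ : K → ℂ) ⟨g, hgK⟩ = ω * (ψ : K → ℂ) 1 := by
    rw [← hψρ]
    have := char_scalar_mul ρ hω 1
    rwa [mul_one] at this
  rw [hψg]
  apply MemLocalIdeal.mul_left M (memLocalRing_of_isIntegral M hωint)
  -- the degree of `ψ` is divisible by `p`
  have hψP : IsCharacter P (fun u : P => (ψ : K → ℂ) (Subgroup.inclusion hPK u)) := by
    obtain ⟨m', ρ', hρ'⟩ := isCharacter_of_isIrrCharacter ψ.2
    exact ⟨m', MonoidHom.comp ρ' (Subgroup.inclusion hPK), by rw [← hρ']; rfl⟩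
  have hexpP := class_fun_expand (fun u : P => (ψ : K → ℂ) (Subgroup.inclusion hPK u))
    (isClassFunction_of_isCharacter hψP)
  have hval1 : (ψ : K → ℂ) 1 = ∑ ν : IrrCharacter P,
      classInner (fun u : P => (ψ : K → ℂ) (Subgroup.inclusion hPK u)) (ν : P → ℂ)
        * (ν : P → ℂ) 1 := by
    have := congrFun hexpP 1
    rw [Finset.sum_apply] at this
    simp only [Pi.smul_apply, smul_eq_mul] at this
    rw [← this]
    rfl
  rw [hval1]
  apply memLocalIdeal_sum
  intro ν _
  obtain ⟨c, hc⟩ := classInner_isCharacter_nat hψP (isCharacter_of_isIrrCharacter ν.2)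
  by_cases hc0 : classInner (fun u : P => (ψ : K → ℂ) (Subgroup.inclusion hPK u)) (ν : P → ℂ) = 0
  · rw [hc0, zero_mul]
    exact memLocalIdeal_zero M
  rw [hc]
  apply MemLocalIdeal.mul_left M (memLocalRing_natCast M c)
  obtain ⟨d, hd, -, hdpos, hdvd, -⟩ := Cfsg.Agent.S0914.irr_degree_data ν
  rw [hd, memLocalIdeal_natCast_iff hM]
  obtain ⟨k, hk⟩ := IsPGroup.exists_card_eq hPp
  rw [hk] at hdvd
  obtain ⟨j, -, rfl⟩ := (Nat.dvd_prime_pow hp).mp hdvd
  by_cases hj : j = 0
  · exfalso
    rw [hj, pow_zero, Nat.cast_one] at hd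
    -- `ν` is a linear constituent of the restriction of `χ` to `P`
    have hsub : IsCharacter K ((fun k : K => (χ : G → ℂ) k) - (ψ : K → ℂ)) :=
      Cfsg.Agent.Lib.Helper2.IsCharacter.sub_irr hχK ψ.2 hn0
    have hsubP : IsCharacter P (fun u : P =>
        ((fun k : K => (χ : G → ℂ) k) - (ψ : K → ℂ)) (Subgroup.inclusion hPK u)) := by
      obtain ⟨m', ρ', hρ'⟩ := hsub
      exact ⟨m', MonoidHom.comp ρ' (Subgroup.inclusion hPK), by rw [← hρ']; rfl⟩
    obtain ⟨c', hc'⟩ := classInner_isCharacter_nat hsubP (isCharacter_of_isIrrCharacter ν.2)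
    have hdecomp : (fun u : P => (χ : G → ℂ) u)
        = (fun u : P => ((fun k : K => (χ : G → ℂ) k) - (ψ : K → ℂ)) (Subgroup.inclusion hPK u))
          + (fun u : P => (ψ : K → ℂ) (Subgroup.inclusion hPK u)) := by
      funext u
      simp only [Pi.add_apply, Pi.sub_apply]
      have : ((Subgroup.inclusion hPK u : K) : G) = (u : G) := rfl
      rw [this]
      ring
    have hne : classInner (fun u : P => (χ : G → ℂ) u) (ν : P → ℂ) ≠ 0 := by
      rw [hdecomp, classInner_add_left, hc', hc]
      have hcne : c ≠ 0 := by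
        rintro rfl
        exact hc0 (by rw [hc]; simp)
      have : c' + c ≠ 0 := by omega
      exact_mod_cast this
    have hconj : ∃ x : G, (μ : P → ℂ) = Cfsg.Agent.Lib.Helper2.conjFun P (ν : P → ℂ) x := by
      by_contra hno
      push Not at hno
      exact hover (clifford_conj P χ.2 ν.2 hne μ.2 hno)
    obtain ⟨x, hx⟩ := hconj
    apply hμ
    rw [hx, Cfsg.Agent.Lib.Helper2.conjFun_apply]
    have : (⟨x * ((1 : P) : G) * x⁻¹, hPn.conj_mem (1 : P) (1 : P).2 x⟩ : P) = 1 := by
      apply Subtype.ext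
      simp
    rw [this, hd]
  · exact dvd_pow_self p hj

/-- Let B be a block of the finite group G (relative to a maximal ideal M of the algebraic integers containing the prime p) with a defect group P that is normal in G. Then P is commutative if and only if every member of B has height zero. -/
theorem result {G : Type*} [Group G] [Finite G] (p : ℕ) [Fact p.Prime] (M : Ideal Cfsg.AlgInt) (hM : Cfsg.IsPModular p M) (B : Set (Cfsg.IrrCharacter G)) (hB : Cfsg.IsPBlock M B) (P : Subgroup G) [P.Normal] (hP : Cfsg.IsDefectGroup p M B P) : (∀ a ∈ P, ∀ c ∈ P, a * c = c * a) ↔ ∀ χ ∈ B, Cfsg.blockHeight p B (χ : G → ℂ) = 0 := by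
  classical
  have hp : p.Prime := Fact.out
  have : Fintype G := Fintype.ofFinite G
  have : Fintype P := Fintype.ofFinite P
  have hpr := isPrime_of_isPModular hM
  have hcardP := Cfsg.Agent.S0908.result p M hM B hB P hP
  obtain ⟨m, hm1, -, hm3, hm4⟩ := block_min_data hM hB
  have hPp : IsPGroup p P := isPGroup_of_isDefectGroup hP
  constructor
  · -- abelian: Ito
    intro hab χ hχ
    rw [hm4]
    obtain ⟨n, ρ, hρ, hχρ⟩ := χ.2
    have hito := ito_degree_dvd_index ρ P hab
    obtain ⟨d, hd, hdeg, hdpos, hdvd, -⟩ := Cfsg.Agent.S0914.irr_degree_data χ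
    have hdn : d = Module.finrank ℂ (Fin n → ℂ) := by
      have h1 : (χ : G → ℂ) 1 = (Module.finrank ℂ (Fin n → ℂ) : ℂ) := by
        rw [← hχρ, Representation.char_one]
      rw [hd] at h1
      exact_mod_cast h1
    rw [← hdn] at hito
    have hidx : P.index ≠ 0 := by
      intro h0
      have := Subgroup.card_mul_index P
      rw [h0, mul_zero] at this
      exact Nat.card_pos.ne' this.symm
    have h1 : d.factorization p ≤ P.index.factorization p :=
      (Nat.factorization_le_iff_dvd hdpos.ne' hidx).mpr hito p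
    have h2 : (Nat.card G).factorization p = blockDefect p B + P.index.factorization p := by
      rw [← Subgroup.card_mul_index P, Nat.factorization_mul Nat.card_pos.ne' hidx, hcardP,
        Nat.factorization_pow]
      simp [hp.factorization_self]
    rw [hdeg]
    omega
  · intro hall
    by_contra hab
    push Not at hab
    obtain ⟨a, ha, c, hc, hac⟩ := hab
    have hnc : ¬ ∀ a c : P, a * c = c * a := by
      intro h
      apply hac
      have := h ⟨a, ha⟩ ⟨c, hc⟩
      exact congrArg Subtype.val this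
    obtain ⟨μ, hμ⟩ := exists_nonlinear hnc
    obtain ⟨χ, hχ, hover⟩ := exists_over p M hM B hB P hPp μ
    obtain ⟨g, hg, Q, hQ⟩ := hP
    have hgP : ∀ u ∈ P, u * g = g * u := by
      intro u hu
      rw [hQ] at hu
      obtain ⟨q, -, rfl⟩ := Subgroup.mem_map.mp hu
      exact Subgroup.mem_centralizer_singleton_iff.mp q.2
    have hval := value_mem p M hM P hPp χ μ hover hμ g hgP
    apply hg.2.2 χ hχ
    rw [centralChar_eq_div]
    apply MemLocalIdeal.mul_left M _ hval
    obtain ⟨d, hd, hdeg, hdpos, hdvd, -⟩ := Cfsg.Agent.S0914.irr_degree_data χ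
    rw [hd]
    have hidx : (Subgroup.centralizer ({g} : Set G)).index ≠ 0 := by
      intro h0
      have := Subgroup.card_mul_index (Subgroup.centralizer ({g} : Set G))
      rw [h0, mul_zero] at this
      exact Nat.card_pos.ne' this.symm
    apply rat_memLocalRing hM _ _ hidx hdpos.ne'
    have h1 := defectClass_factorization hM hB hg
    have h2 := index_factorization (p := p) g
    have h3 := hall χ hχ
    rw [hm4, hdeg] at h3
    have h4 := hm1 χ hχ
    rw [hdeg] at h4
    omega

end Cfsg.Agent.S0972
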