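import Mathlib
import Cfsg.Statements.S0985
import Cfsg.Agent.Lib.Helper8.ActionAux

set_option autoImplicit false
open Cfsg

namespace Cfsg.Agent.S0985

open Cfsg.Agent.Lib.Helper8

/-- conjugation action of a Sylow subgroup on the other Sylow subgroups -/
@[instance_reducible]
def sylAct {G : Type*} [Group G] (p : ℕ) (P : Sylow p G) :
    MulAction (P : Subgroup G) {R : Sylow p G // R ≠ P} where
  smul u R := ⟨(u : G) • R.1, fun h => R.2 (by
    have h1 : (u : G)⁻¹ • ((u : G) • R.1) = (u : G)⁻¹ • P := by rw [h]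
    rw [inv_smul_smul] at h1
    rw [h1]
    exact Sylow.smul_eq_iff_mem_normalizer.2 (Subgroup.le_normalizer ((P : Subgroup G).inv_mem u.2)))⟩
  one_smul R := by
    apply Subtype.ext
    exact one_smul G R.1
  mul_smul u v R := by
    apply Subtype.ext
    exact mul_smul (u : G) (v : G) R.1

theorem result {G : Type*} [Group G] [Finite G] (p k : ℕ) [Fact p.Prime] (h : ¬ Nat.card (Sylow p G) ≡ 1 [MOD p ^ k]) : ∃ P R : Sylow p G, P ≠ R ∧ ((R : Subgroup G).subgroupOf (P : Subgroup G)).index ≤ p ^ (k - 1) := by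
  classical
  have hp : p.Prime := Fact.out
  obtain ⟨P⟩ : Nonempty (Sylow p G) := inferInstance
  by_contra hcon
  push Not at hcon
  apply h
  rcases Nat.eq_zero_or_pos k with hk | hk
  · subst hk
    simpa using Nat.modEq_one
  let _ := sylAct p P
  have hstab : ∀ a : {R : Sylow p G // R ≠ P},
      MulAction.stabilizer (P : Subgroup G) a = (a.1 : Subgroup G).subgroupOf (P : Subgroup G) := by
    intro a
    ext u
    rw [MulAction.mem_stabilizer_iff, Subgroup.mem_subgroupOf]
    have e1 : u • a = a ↔ (u : G) • a.1 = a.1 := by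
      constructor
      · intro h1; exact congrArg Subtype.val h1
      · intro h1; exact Subtype.ext h1
    rw [e1, Sylow.smul_eq_iff_mem_normalizer]
    have e2 := P.isPGroup'.inf_normalizer_sylow a.1
    constructor
    · intro h1
      have : (u : G) ∈ (P : Subgroup G) ⊓ Subgroup.normalizer ((a.1 : Subgroup G) : Set G) := ⟨u.2, h1⟩
      exact (e2.le this).2
    · intro h1
      exact Subgroup.le_normalizer h1
  have hdvd : p ^ k ∣ Nat.card {R : Sylow p G // R ≠ P} := by
    apply dvd_card_of_dvd_index_stabilizer (Z := (P : Subgroup G))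
    intro a
    rw [hstab a]
    obtain ⟨n, hn⟩ := P.isPGroup'.index ((a.1 : Subgroup G).subgroupOf (P : Subgroup G))
    have h2 := hcon P a.1 (Ne.symm a.2)
    rw [hn] at h2 ⊢
    have h3 : k - 1 < n := (Nat.pow_lt_pow_iff_right hp.one_lt).1 h2
    exact pow_dvd_pow p (by omega)
  have hX : Nat.card {R : Sylow p G // R ≠ P} = Nat.card (Sylow p G) - 1 := by
    have e1 : Nat.card {R : Sylow p G // R ≠ P} = ((Set.univ : Set (Sylow p G)) \ {P}).ncard := by
      rw [← Nat.card_coe_set_eq]
      apply Nat.card_congr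
      exact Equiv.subtypeEquivRight (fun R => by simp)
    rw [e1, Set.ncard_sdiff_singleton_of_mem (Set.mem_univ P), Set.ncard_univ]
  rw [hX] at hdvd
  have hpos : 1 ≤ Nat.card (Sylow p G) := Nat.card_pos
  exact ((Nat.modEq_iff_dvd' hpos).2 hdvd).symm

end Cfsg.Agent.S0985
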