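import Cfsg.Statements.S0986
import Mathlib
import Cfsg.Agent.Lib.Helper21.SylowInt

set_option autoImplicit false
open Cfsg

namespace Cfsg.Agent.S0986

open Cfsg.Agent.Lib.Helper21

/-- Let P and Q be distinct Sylow p-subgroups of a finite group G chosen so that the order of P ∩ Q is as large as possible among intersections of two distinct Sylow p-subgroups, and let N be the normalizer of P ∩ Q. Then N has more than one Sylow p-subgroup, any two distinct Sylow p-subgroups of N intersect exactly in P ∩ Q, and each Sylow p-subgroup of N lies in exactly one Sylow p-subgroup of G. -/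
theorem result {G : Type*} [Group G] [Finite G] (p : ℕ) [Fact p.Prime] (P Q : Sylow p G) (hPQ : P ≠ Q) (hmax : ∀ P' Q' : Sylow p G, P' ≠ Q' → Nat.card ↥((P' : Subgroup G) ⊓ (Q' : Subgroup G)) ≤ Nat.card ↥((P : Subgroup G) ⊓ (Q : Subgroup G))) : 1 < Nat.card (Sylow p ↥(Subgroup.normalizer (((P : Subgroup G) ⊓ (Q : Subgroup G) : Subgroup G) : Set G))) ∧ (∀ S T : Sylow p ↥(Subgroup.normalizer (((P : Subgroup G) ⊓ (Q : Subgroup G) : Subgroup G) : Set G)), S ≠ T → (S : Subgroup _) ⊓ (T : Subgroup _) = ((P : Subgroup G) ⊓ (Q : Subgroup G)).subgroupOf (Subgroup.normalizer (((P : Subgroup G) ⊓ (Q : Subgroup G) : Subgroup G) : Set G))) ∧ ∀ S : Sylow p ↥(Subgroup.normalizer (((P : Subgroup G) ⊓ (Q : Subgroup G) : Subgroup G) : Set G)), ∃! T : Sylow p G, (S : Subgroup _).map (Subgroup.normalizer (((P : Subgroup G) ⊓ (Q : Subgroup G) : Subgroup G) : Set G)).subtype ≤ (T : Subgroup G) := by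
  have h : MaxInt P Q := ⟨hPQ, hmax⟩
  refine ⟨h.one_lt_card, ?_, ?_⟩
  · intro S T hST
    apply le_antisymm
    · intro x hx
      obtain ⟨T₁, hT₁⟩ := ((S.isPGroup').map (NInt P Q).subtype).exists_le_sylow
      obtain ⟨T₂, hT₂⟩ := ((T.isPGroup').map (NInt P Q).subtype).exists_le_sylow
      obtain ⟨_, hD⟩ := h.over_ne S T hST T₁ T₂ hT₁ hT₂
      rw [Subgroup.mem_subgroupOf]
      have hx' : (x : G) ∈ DInt T₁ T₂ := ⟨hT₁ ⟨x, hx.1, rfl⟩, hT₂ ⟨x, hx.2, rfl⟩⟩
      rw [hD] at hx'; exact hx'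
    · exact le_inf (h.le_sylow S) (h.le_sylow T)
  · intro S
    obtain ⟨T₁, hT₁⟩ := ((S.isPGroup').map (NInt P Q).subtype).exists_le_sylow
    exact ⟨T₁, hT₁, fun T₂ hT₂ => h.unique_over S T₂ T₁ hT₂ hT₁⟩

end Cfsg.Agent.S0986
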