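import Cfsg.Statements.S0988
-- import your own Cfsg.Agent.* helpers here
import Mathlib
import Cfsg.Agent.Lib.Lead.SimpleSyl

set_option autoImplicit false
open Cfsg

namespace Cfsg.Agent.S0988

set_option linter.style.haveILetI false
set_option linter.unusedVariables false

open Cfsg.Agent.Lib.Lead.SimpleSyl Cfsg.Agent.Lib.Helper8

section aux
variable {G : Type*} [Group G] [Finite G] [IsSimpleGroup G]

theorem prime_dvd_sq_mul (p m s : ℕ) (hp : p.Prime) (hs : s.Prime) (h : s ∣ p ^ 2 * m) :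
    s = p ∨ s ∣ m := by
  rcases (Nat.Prime.dvd_mul hs).mp h with h1 | h1
  · left; exact (Nat.prime_dvd_prime_iff_eq hs hp).mp (hs.dvd_of_dvd_pow h1)
  · right; exact h1

theorem consec_primes (p q : ℕ) (hp : p.Prime) (hq : q.Prime) (h : q = p + 1) : p = 2 ∧ q = 3 := by
  rcases hp.eq_two_or_odd with h2 | h2
  · omega
  · exfalso
    have h3 : 2 ∣ q := by omega
    have h4 := (Nat.prime_dvd_prime_iff_eq Nat.prime_two hq).mp h3
    have := hp.two_le
    omega

theorem sq_sub_one (ℓ : ℕ) (h : 1 ≤ ℓ) : ℓ ^ 2 - 1 = (ℓ - 1) * (ℓ + 1) := by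
  obtain ⟨j, rfl⟩ : ∃ j, ℓ = j + 1 := ⟨ℓ - 1, by omega⟩
  have h1 : (j + 1) ^ 2 = (j + 1 - 1) * (j + 1 + 1) + 1 := by
    simp only [Nat.add_sub_cancel]; ring
  rw [h1]
  simp

/-- Sylow subgroup of prime order: another prime divisor `s` of `m` (with `s * n_ℓ ∣ m`) divides
`ℓ - 1`. -/
theorem key_one (ℓ m : ℕ) [Fact ℓ.Prime] (hm : ¬ ℓ ∣ m) (hm1 : m ≠ 1)
    (hG : Nat.card G = ℓ * m) :
    ∃ s : ℕ, s.Prime ∧ s * Nat.card (Sylow ℓ G) ∣ m ∧ s ∣ ℓ - 1 := by
  obtain ⟨s, c, h1, h2, h3, h4, h5, h6⟩ :=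
    simple_key (G := G) ℓ 1 m le_rfl (by norm_num) hm hm1 (by rw [pow_one]; exact hG)
  rw [pow_one] at h4 h5 h6
  have hℓ : ℓ.Prime := Fact.out
  have hc : c = 1 := by
    rcases (Nat.dvd_prime hℓ).mp h4 with h | h
    · exact h
    · omega
  subst hc
  exact ⟨s, h1, h3, (Nat.modEq_iff_dvd' hℓ.one_le).mp h6.symm⟩

/-- Sylow subgroup of order `ℓ²`: another prime divisor `s` of `m` divides `ℓ - 1` or `ℓ + 1`. -/
theorem key_two (ℓ m : ℕ) [Fact ℓ.Prime] (hm : ¬ ℓ ∣ m) (hm1 : m ≠ 1)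
    (hG : Nat.card G = ℓ ^ 2 * m) :
    ∃ s : ℕ, s.Prime ∧ s ≠ ℓ ∧ s * Nat.card (Sylow ℓ G) ∣ m ∧ (s ∣ ℓ - 1 ∨ s ∣ ℓ + 1) := by
  obtain ⟨s, c, h1, h2, h3, h4, h5, h6⟩ :=
    simple_key (G := G) ℓ 2 m (by norm_num) le_rfl hm hm1 hG
  have hℓ : ℓ.Prime := Fact.out
  have hℓ2 := hℓ.two_le
  refine ⟨s, h1, h2, h3, ?_⟩
  obtain ⟨k, hk, rfl⟩ := (Nat.dvd_prime_pow hℓ).mp h4
  have hk' : k = 0 ∨ k = 1 := by
    rcases Nat.lt_or_ge k 2 with h | h
    · omega
    · exfalso
      have : k = 2 := by omega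
      subst this
      exact lt_irrefl _ h5
  rcases hk' with rfl | rfl
  · rw [pow_zero] at h6
    have hd : s ∣ ℓ ^ 2 - 1 := (Nat.modEq_iff_dvd' (by nlinarith)).mp h6.symm
    rw [sq_sub_one ℓ (by omega)] at hd
    exact (Nat.Prime.dvd_mul h1).mp hd
  · rw [pow_one] at h6
    have hd : s ∣ ℓ ^ 2 - ℓ := (Nat.modEq_iff_dvd' (by nlinarith)).mp h6.symm
    have he : ℓ ^ 2 - ℓ = ℓ * (ℓ - 1) := by
      rw [Nat.mul_sub_one, pow_two]
    rw [he] at hd
    rcases (Nat.Prime.dvd_mul h1).mp hd with h | h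
    · exact absurd ((Nat.prime_dvd_prime_iff_eq h1 hℓ).mp h) h2
    · left; exact h

theorem dvd_sub_one_lt (s ℓ : ℕ) (hs : s.Prime) (hℓ : 2 ≤ ℓ) (h : s ∣ ℓ - 1) : s < ℓ := by
  have := Nat.le_of_dvd (by omega) h
  omega

/-- order `12 t`, `t ≥ 5` prime -/
theorem case12 (t : ℕ) (ht : t.Prime) (ht2 : t ≠ 2) (ht3 : t ≠ 3)
    (hG : Nat.card G = 12 * t) : Nat.card G = 60 := by
  haveI : Fact t.Prime := ⟨ht⟩
  have ht5 : 5 ≤ t := by
    have := ht.two_le
    by_contra h
    have h4 : t = 4 := by omega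
    subst h4
    exact absurd ht (by norm_num)
  have hnd : ¬ t ∣ 12 := by
    intro h
    have := Nat.le_of_dvd (by norm_num) h
    interval_cases t <;> simp_all (config := {decide := true})
  have hG' : Nat.card G = t ^ 1 * 12 := by rw [hG]; ring
  obtain ⟨hd, hmod, hne⟩ := sylow_facts (G := G) t 1 12 le_rfl hnd (by norm_num) hG'
  obtain ⟨s, hs, hsn, -⟩ := key_one (G := G) t 12 hnd (by norm_num) (by rw [hG]; ring)
  have hle : Nat.card (Sylow t G) ≤ 12 := Nat.le_of_dvd (by norm_num) hd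
  have hs2 := hs.two_le
  have hne12 : Nat.card (Sylow t G) ≠ 12 := by
    intro h
    rw [h] at hsn
    have := Nat.le_of_dvd (by norm_num) hsn
    omega
  generalize Nat.card (Sylow t G) = n at *
  have hn0 : n ≠ 0 := by rintro rfl; simp at hd
  have hn6 : n = 6 := by
    have h1 : n = 2 ∨ n = 3 ∨ n = 4 ∨ n = 6 := by
      interval_cases n <;> simp_all (config := {decide := true})
    rcases h1 with rfl | rfl | rfl | rfl
    · rw [Nat.mod_eq_of_lt (by omega)] at hmod; omega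
    · rw [Nat.mod_eq_of_lt (by omega)] at hmod; omega
    · rw [Nat.mod_eq_of_lt (by omega)] at hmod; omega
    · rfl
  subst hn6
  have ht5' : t = 5 := by
    by_contra h
    have h7 : 7 ≤ t := by
      have h6 : t ≠ 6 := by rintro rfl; exact absurd ht (by norm_num)
      omega
    rw [Nat.mod_eq_of_lt (by omega)] at hmod
    omega
  rw [hG, ht5']

theorem caseA (p q r : ℕ) (hp : p.Prime) (hq : q.Prime) (hr : r.Prime)
    (hpq : p ≠ q) (hpr : p ≠ r) (hqr : q ≠ r)
    (hG : Nat.card G = p ^ 2 * q * r) : Nat.card G = 60 := by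
  haveI : Fact p.Prime := ⟨hp⟩
  haveI : Fact q.Prime := ⟨hq⟩
  haveI : Fact r.Prime := ⟨hr⟩
  have hp2 := hp.two_le
  have hq2 := hq.two_le
  have hr2 := hr.two_le
  have hpp : 4 ≤ p ^ 2 := by nlinarith
  -- q is not the least prime
  have h1 : p < q ∨ r < q := by
    have hnd : ¬ q ∣ p ^ 2 * r := by
      intro h
      rcases prime_dvd_sq_mul p r q hp hq h with h | h
      · exact hpq h.symm
      · exact hqr ((Nat.prime_dvd_prime_iff_eq hq hr).mp h)
    obtain ⟨s, hs, hsn, hsd⟩ := key_one (G := G) q (p ^ 2 * r) hnd (by nlinarith)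
      (by rw [hG]; ring)
    have hlt := dvd_sub_one_lt s q hs hq2 hsd
    have hsm : s ∣ p ^ 2 * r := (Dvd.intro _ rfl : s ∣ s * Nat.card (Sylow q G)).trans hsn
    rcases prime_dvd_sq_mul p r s hp hs hsm with h | h
    · left; rw [← h]; exact hlt
    · right; rw [← (Nat.prime_dvd_prime_iff_eq hs hr).mp h]; exact hlt
  have h2 : p < r ∨ q < r := by
    have hnd : ¬ r ∣ p ^ 2 * q := by
      intro h
      rcases prime_dvd_sq_mul p q r hp hr h with h | h
      · exact hpr h.symm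
      · exact hqr ((Nat.prime_dvd_prime_iff_eq hr hq).mp h).symm
    obtain ⟨s, hs, hsn, hsd⟩ := key_one (G := G) r (p ^ 2 * q) hnd (by nlinarith)
      (by rw [hG]; ring)
    have hlt := dvd_sub_one_lt s r hs hr2 hsd
    have hsm : s ∣ p ^ 2 * q := (Dvd.intro _ rfl : s ∣ s * Nat.card (Sylow r G)).trans hsn
    rcases prime_dvd_sq_mul p q s hp hs hsm with h | h
    · left; rw [← h]; exact hlt
    · right; rw [← (Nat.prime_dvd_prime_iff_eq hs hq).mp h]; exact hlt
  have hpq' : p < q := by omega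
  have hpr' : p < r := by omega
  -- the Sylow p-subgroup
  have hnd : ¬ p ∣ q * r := by
    intro h
    rcases (Nat.Prime.dvd_mul hp).mp h with h | h
    · exact hpq ((Nat.prime_dvd_prime_iff_eq hp hq).mp h)
    · exact hpr ((Nat.prime_dvd_prime_iff_eq hp hr).mp h)
  obtain ⟨s, hs, hsp, hsn, hsd⟩ := key_two (G := G) p (q * r) hnd (by nlinarith)
    (by rw [hG]; ring)
  have hsm : s ∣ q * r := (Dvd.intro _ rfl : s ∣ s * Nat.card (Sylow p G)).trans hsn
  have hsqr : s = q ∨ s = r := by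
    rcases (Nat.Prime.dvd_mul hs).mp hsm with h | h
    · left; exact (Nat.prime_dvd_prime_iff_eq hs hq).mp h
    · right; exact (Nat.prime_dvd_prime_iff_eq hs hr).mp h
  have hsgt : p < s := by rcases hsqr with h | h <;> rw [h] <;> assumption
  have hs1 : s = p + 1 := by
    rcases hsd with h | h
    · have := dvd_sub_one_lt s p hs hp2 h
      omega
    · have := Nat.le_of_dvd (by omega) h
      omega
  obtain ⟨hp2', hs3⟩ := consec_primes p s hp hs hs1
  subst hp2'
  rcases hsqr with h | h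
  · -- q = 3
    have hq3 : q = 3 := by rw [← h]; exact hs3
    subst hq3
    exact case12 r hr (Ne.symm hpr) (Ne.symm hqr) (by rw [hG]; ring)
  · have hr3 : r = 3 := by rw [← h]; exact hs3
    subst hr3
    exact case12 q hq (Ne.symm hpq) hqr (by rw [hG]; ring)

theorem caseB (hnc : ¬ IsMulCommutative G) (p q : ℕ) (hp : p.Prime) (hq : q.Prime) (hpq : p ≠ q)
    (hG : Nat.card G = p ^ 2 * q ^ 2) : False := by
  haveI : Fact p.Prime := ⟨hp⟩
  haveI : Fact q.Prime := ⟨hq⟩
  have hp2 := hp.two_le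
  have hq2 := hq.two_le
  have hpp : 4 ≤ p ^ 2 := by nlinarith
  have hqq : 4 ≤ q ^ 2 := by nlinarith
  have aux : ∀ (a b : ℕ) (ha : a.Prime) (hb : b.Prime), a ≠ b → 4 ≤ b ^ 2 →
      Nat.card G = a ^ 2 * b ^ 2 → b ≤ a + 1 := by
    intro a b ha hb hab hbb hGab
    haveI : Fact a.Prime := ⟨ha⟩
    have ha2 := ha.two_le
    have hnd : ¬ a ∣ b ^ 2 := by
      intro h
      exact hab ((Nat.prime_dvd_prime_iff_eq ha hb).mp (ha.dvd_of_dvd_pow h))
    obtain ⟨s, hs, hsa, hsn, hsd⟩ := key_two (G := G) a (b ^ 2) hnd (by omega) hGab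
    have hsm : s ∣ b ^ 2 := (Dvd.intro _ rfl : s ∣ s * Nat.card (Sylow a G)).trans hsn
    have hsb : s = b := (Nat.prime_dvd_prime_iff_eq hs hb).mp (hs.dvd_of_dvd_pow hsm)
    subst hsb
    rcases hsd with h | h
    · have := dvd_sub_one_lt s a hs ha2 h
      omega
    · exact Nat.le_of_dvd (by omega) h
  have h1 := aux p q hp hq hpq hqq hG
  have h2 := aux q p hq hp (Ne.symm hpq) hpp (by rw [hG]; ring)
  have h36 : Nat.card G = 36 := by
    rcases Nat.lt_or_gt_of_ne hpq with h | h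
    · obtain ⟨rfl, rfl⟩ := consec_primes p q hp hq (by omega)
      rw [hG]; norm_num
    · obtain ⟨rfl, rfl⟩ := consec_primes q p hq hp (by omega)
      rw [hG]; norm_num
  haveI : Fact (Nat.Prime 3) := ⟨by norm_num⟩
  obtain ⟨hd, hmod, hne⟩ := sylow_facts (G := G) 3 2 4 (by norm_num) (by norm_num) (by norm_num)
    (by rw [h36]; norm_num)
  have hfd := fact_dvd hnc 3 hne
  have hle : Nat.card (Sylow 3 G) ≤ 4 := Nat.le_of_dvd (by norm_num) hd
  rw [h36] at hfd
  generalize Nat.card (Sylow 3 G) = n at *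
  interval_cases n <;> simp_all (config := {decide := true})

theorem caseC (hnc : ¬ IsMulCommutative G) (p s : ℕ) (hp : p.Prime) (hs : s.Prime) (hps : p ≠ s)
    (hG : Nat.card G = p ^ 3 * s) : False := by
  haveI : Fact p.Prime := ⟨hp⟩
  haveI : Fact s.Prime := ⟨hs⟩
  have hp2 := hp.two_le
  have hs2 := hs.two_le
  have hp3 : 8 ≤ p ^ 3 := by
    calc 8 = 2 ^ 3 := by norm_num
      _ ≤ p ^ 3 := Nat.pow_le_pow_left hp2 3
  have hnd : ¬ s ∣ p ^ 3 := by
    intro h
    exact hps ((Nat.prime_dvd_prime_iff_eq hs hp).mp (hs.dvd_of_dvd_pow h)).symm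
  obtain ⟨s', hs', hsn, hsd⟩ := key_one (G := G) s (p ^ 3) hnd (by omega) (by rw [hG]; ring)
  have hsm : s' ∣ p ^ 3 := (Dvd.intro _ rfl : s' ∣ s' * Nat.card (Sylow s G)).trans hsn
  have hs'p : p = s' := ((Nat.prime_dvd_prime_iff_eq hs' hp).mp (hs'.dvd_of_dvd_pow hsm)).symm
  subst hs'p
  have hlt : p < s := dvd_sub_one_lt p s hp hs2 hsd
  obtain ⟨hd, hmod, hne⟩ := sylow_facts (G := G) s 1 (p ^ 3) le_rfl hnd (by omega)
    (by rw [hG]; ring)
  have hn2 : Nat.card (Sylow s G) ∣ p ^ 2 := by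
    have h1 : p * Nat.card (Sylow s G) ∣ p * p ^ 2 := by
      have : p * p ^ 2 = p ^ 3 := by ring
      rw [this]; exact hsn
    exact (Nat.mul_dvd_mul_iff_left (by omega)).mp h1
  obtain ⟨k, hk, hnk⟩ := (Nat.dvd_prime_pow hp).mp hn2
  rw [hnk] at hmod hne
  have hk' : k = 1 ∨ k = 2 := by
    rcases Nat.eq_zero_or_pos k with h | h
    · subst h; simp at hne
    · omega
  rcases hk' with rfl | rfl
  · rw [pow_one, Nat.mod_eq_of_lt hlt] at hmod
    omega
  · have h1 : s ∣ p ^ 2 - 1 := by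
      apply (Nat.modEq_iff_dvd' (by nlinarith)).mp
      show 1 % s = p ^ 2 % s
      rw [hmod, Nat.mod_eq_of_lt (by omega)]
    rw [sq_sub_one p (by omega)] at h1
    have hs1 : s = p + 1 := by
      rcases (Nat.Prime.dvd_mul hs).mp h1 with h | h
      · have := Nat.le_of_dvd (by omega) h
        omega
      · have := Nat.le_of_dvd (by omega) h
        omega
    obtain ⟨rfl, rfl⟩ := consec_primes p s hp hs hs1
    have h24 : Nat.card G = 24 := by rw [hG]; norm_num
    obtain ⟨hd2, hmod2, hne2⟩ := sylow_facts (G := G) 2 3 3 (by norm_num) (by norm_num)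
      (by norm_num) (by rw [h24]; norm_num)
    have hfd := fact_dvd hnc 2 hne2
    have hle : Nat.card (Sylow 2 G) ≤ 3 := Nat.le_of_dvd (by norm_num) hd2
    rw [h24] at hfd
    generalize Nat.card (Sylow 2 G) = n at *
    interval_cases n <;> simp_all (config := {decide := true})

theorem caseD (hcomm : ¬ ∀ a b : G, a * b = b * a) (p : ℕ) (hp : p.Prime) (n : ℕ)
    (hG : Nat.card G = p ^ n) : False := by
  haveI : Fact p.Prime := ⟨hp⟩
  have hpg : IsPGroup p G := IsPGroup.of_card hG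
  haveI : Nontrivial G := IsSimpleGroup.toNontrivial
  have hc : Nontrivial (Subgroup.center G) := hpg.center_nontrivial
  rcases (inferInstance : (Subgroup.center G).Normal).eq_bot_or_eq_top with h | h
  · exact (Subgroup.nontrivial_iff_ne_bot _).mp hc h
  · apply hcomm
    intro a b
    have hb : b ∈ Subgroup.center G := by rw [h]; exact Subgroup.mem_top b
    exact Subgroup.mem_center_iff.mp hb a

end aux


/-- If a finite simple group has order p^2 * q * r with p, q and r prime, then its order is 60. -/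
theorem result {G : Type*} [Group G] [Finite G] [IsSimpleGroup G] (p q r : ℕ) (hp : p.Prime) (hq : q.Prime) (hr : r.Prime) (hG : Nat.card G = p ^ 2 * q * r) : Nat.card G = 60 := by
  classical
  by_cases hcomm : ∀ a b : G, a * b = b * a
  · exfalso
    letI : CommGroup G := { (inferInstance : Group G) with mul_comm := hcomm }
    have hprime : (Nat.card G).Prime := IsSimpleGroup.prime_card
    rw [hG] at hprime
    have h1 : p ^ 2 * q * r = p * (p * q * r) := by ring
    rw [h1] at hprime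
    refine Nat.not_prime_mul hp.ne_one ?_ hprime
    have := hp.two_le
    have := hq.two_le
    have := hr.two_le
    have h4 : 2 * 2 ≤ p * q := Nat.mul_le_mul hp.two_le hq.two_le
    have h8 : 2 * 2 * 2 ≤ p * q * r := Nat.mul_le_mul h4 hr.two_le
    omega
  · have hnc : ¬ IsMulCommutative G := fun h => hcomm (isMulCommutative_iff.mp h)
    by_cases hqp : q = p
    · by_cases hrp : r = p
      · exfalso
        exact caseD hcomm p hp 4 (by rw [hG, hqp, hrp]; ring)
      · exfalso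
        exact caseC hnc p r hp hr (Ne.symm hrp) (by rw [hG, hqp]; ring)
    · by_cases hrp : r = p
      · exfalso
        exact caseC hnc p q hp hq (Ne.symm hqp) (by rw [hG, hrp]; ring)
      · by_cases hqr : q = r
        · exfalso
          exact caseB hnc p q hp hq (Ne.symm hqp) (by rw [hG, hqr]; ring)
        · exact caseA p q r hp hq hr (Ne.symm hqp) (Ne.symm hrp) hqr hG

end Cfsg.Agent.S0988
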