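import Mathlib
import Cfsg.Statements.S0992
import Cfsg.Agent.Lib.Helper8.SimpleAux
import Cfsg.Agent.Lib.Helper8.AutAux

set_option autoImplicit false
open Cfsg

namespace Cfsg.Agent.S0992

open Cfsg.Agent.Lib.Helper8 Subgroup

theorem result {G : Type*} [Group G] [Finite G] [IsSimpleGroup G] (hG : ¬ IsMulCommutative G) (h2 : Even (Nat.card G)) (h8 : ¬ 8 ∣ Nat.card G) (T : Sylow 2 G) : IsKleinFour ↥(T : Subgroup G) ∧ (Subgroup.centralizer ((T : Subgroup G) : Set G)).relIndex (Subgroup.normalizer ((T : Subgroup G) : Set G)) = 3 := by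
  classical
  haveI : Fact (Nat.Prime 2) := ⟨Nat.prime_two⟩
  have h2' : 2 ∣ Nat.card G := h2.two_dvd
  have hmin : (Nat.card G).minFac = 2 := (Nat.minFac_eq_two_iff _).2 h2'
  have hG0 : Nat.card G ≠ 0 := Nat.card_pos.ne'
  have hTne1 : Nat.card (T : Subgroup G) ≠ 1 := by
    intro h
    exact T.ne_bot_of_dvd_card h2' (Subgroup.card_eq_one.1 h)
  -- if T is commutative then T is not all of G
  have hTneG : (∀ a b : (T : Subgroup G), a * b = b * a) → Nat.card (T : Subgroup G) ≠ Nat.card G := by
    intro hcomm h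
    have hT : (T : Subgroup G) = ⊤ := Subgroup.eq_top_of_card_eq _ h
    apply hG
    refine ⟨⟨fun a b => ?_⟩⟩
    have ha : a ∈ (T : Subgroup G) := by rw [hT]; trivial
    have hb : b ∈ (T : Subgroup G) := by rw [hT]; trivial
    exact congrArg Subtype.val (hcomm ⟨a, ha⟩ ⟨b, hb⟩)
  have hnc : ¬ IsCyclic (T : Subgroup G) := by
    intro hcyc
    have hc := IsCyclic.isComplement' hmin hcyc
    have hcard := hc.card_mul_card
    letI := hcyc.commGroup
    rcases (MonoidHom.normal_ker (MonoidHom.transferSylow T (hcyc.normalizer_le_centralizer hmin))).eq_bot_or_eq_top with hb | ht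
    · rw [hb, Subgroup.card_bot, one_mul] at hcard
      exact hTneG (fun a b => mul_comm a b) hcard
    · rw [ht, Subgroup.card_top] at hcard
      have hpos : 0 < Nat.card G := Nat.card_pos
      have h3 : Nat.card G * Nat.card (T : Subgroup G) = Nat.card G * 1 := by rw [hcard, mul_one]
      exact hTne1 (Nat.eq_of_mul_eq_mul_left hpos h3)
  have hk : Nat.card (T : Subgroup G) = 2 ^ (Nat.card G).factorization 2 := Sylow.card_eq_multiplicity T
  have hk2 : (Nat.card G).factorization 2 ≤ 2 := by
    by_contra hlt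
    push Not at hlt
    apply h8
    have : 2 ^ 3 ∣ Nat.card G := (Nat.prime_two.pow_dvd_iff_le_factorization hG0).2 hlt
    simpa using this
  have hcard4 : Nat.card (T : Subgroup G) = 2 ^ 2 := by
    rw [hk]
    have h1 : (Nat.card G).factorization 2 ≠ 0 := by
      intro h0
      rw [h0] at hk
      exact hTne1 (by simpa using hk)
    have h1' : (Nat.card G).factorization 2 ≠ 1 := by
      intro h0
      rw [h0] at hk
      apply hnc
      exact isCyclic_of_prime_card (p := 2) (by simpa using hk)
    have : (Nat.card G).factorization 2 = 2 := by omega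
    rw [this]
  have hexp : Monoid.exponent (T : Subgroup G) = 2 :=
    (not_isCyclic_iff_exponent_eq_prime Nat.prime_two hcard4).1 hnc
  have hK : IsKleinFour (T : Subgroup G) := ⟨by rw [hcard4]; norm_num, hexp⟩
  refine ⟨hK, ?_⟩
  have hcomm : ∀ a b : (T : Subgroup G), a * b = b * a := by
    intro a b
    haveI := hK
    have := IsKleinFour.isMulCommutative (G := (T : Subgroup G))
    exact this.is_comm.comm a b
  have hTC : (T : Subgroup G) ≤ centralizer ((T : Subgroup G) : Set G) := by
    intro x hx
    rw [Subgroup.mem_centralizer_iff]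
    intro y hy
    exact congrArg Subtype.val (hcomm ⟨y, hy⟩ ⟨x, hx⟩)
  have harith : ∀ r : ℕ, r ∣ 6 → ¬ 2 ∣ r → r ≠ 1 → r = 3 := by
    intro r h6 hodd h1
    have hle : r ≤ 6 := Nat.le_of_dvd (by norm_num) h6
    interval_cases r <;> simp_all
  apply harith
  · show (centralizer ((T : Subgroup G) : Set G)).relIndex (normalizer ((T : Subgroup G) : Set G)) ∣ 6
    have h1 := relIndex_centralizer_normalizer_dvd_card_mulAut (T : Subgroup G)
    have h2 := card_mulAut_dvd_factorial (T : Subgroup G)
    rw [hcard4] at h2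
    exact h1.trans (by simpa [Nat.factorial] using h2)
  · intro hdvd
    have h1 : (centralizer ((T : Subgroup G) : Set G)).relIndex (normalizer ((T : Subgroup G) : Set G)) ∣ (T : Subgroup G).relIndex (normalizer ((T : Subgroup G) : Set G)) :=
      Subgroup.relIndex_dvd_of_le_left _ hTC
    have h2 : (T : Subgroup G).relIndex (normalizer ((T : Subgroup G) : Set G)) ∣ (T : Subgroup G).index :=
      Subgroup.relIndex_dvd_index_of_le Subgroup.le_normalizer
    exact T.not_dvd_index (hdvd.trans (h1.trans h2))
  · intro h1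
    exact not_normalizer_le_centralizer_of_simple T hTne1 (hTneG hcomm) (Subgroup.relIndex_eq_one.1 h1)

end Cfsg.Agent.S0992
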