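import Cfsg.Statements.S1007
import Cfsg.Agent.S1006
import Cfsg.Agent.S0808
import Cfsg.Agent.S1012
import Cfsg.Agent.Lib.Helper8.SylowAux

set_option autoImplicit false
open Cfsg

namespace Cfsg.Agent.S1007

open Subgroup Cfsg.Agent.Lib.Helper8 Cfsg.Agent.S1002 Cfsg.Agent.S1003 Cfsg.Agent.S1005
  Cfsg.Agent.S1004 Cfsg.Agent.S1006
open Cfsg.Agent.S0807 (VV mem_VV VV_klein klein_sq klein_comm)
open Cfsg.Agent.S0808 (klein_elems)
open scoped Pointwise

section aux
set_option linter.unusedSectionVars false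
variable {G : Type*} [Group G] [Finite G]

theorem card24 (c : ℕ) (h8 : 8 ∣ c) (h168 : c ∣ 168) (hne8 : c ≠ 8) (h7 : ¬ 7 ∣ c) : c = 24 := by
  obtain ⟨k, rfl⟩ := h8
  have hk21 : k ∣ 21 := by
    have h1 : 8 * k ∣ 8 * 21 := by simpa using h168
    exact (Nat.mul_dvd_mul_iff_left (by norm_num : 0 < 8)).mp h1
  have hle : k ≤ 21 := Nat.le_of_dvd (by norm_num) hk21
  interval_cases k <;> simp_all

theorem index_two_of_card (U T : Subgroup G) (hUT : U ≤ T)
    (h : Nat.card T = 2 * Nat.card U) : (U.subgroupOf T).index = 2 := by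
  have h1 := Subgroup.card_mul_index (U.subgroupOf T)
  rw [Nat.card_congr (Subgroup.subgroupOfEquivOfLe hUT).toEquiv, h] at h1
  have hpos : 0 < Nat.card U := Nat.card_pos
  have h2 : Nat.card U * (U.subgroupOf T).index = Nat.card U * 2 := by rw [h1, mul_comm]
  exact Nat.eq_of_mul_eq_mul_left hpos h2

theorem le_normalizer_of_index_two (U T : Subgroup G) (hUT : U ≤ T)
    (h : Nat.card T = 2 * Nat.card U) : T ≤ normalizer (U : Set G) := by
  have hn : (U.subgroupOf T).Normal :=
    Subgroup.normal_of_index_eq_two (index_two_of_card U T hUT h)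
  exact (Subgroup.normal_subgroupOf_iff_le_normalizer hUT).mp hn

theorem mul_mem_of_index_two (U T : Subgroup G) (hUT : U ≤ T)
    (h : Nat.card T = 2 * Nat.card U) (a b : G) (ha : a ∈ T) (hb : b ∈ T) (ha' : a ∉ U)
    (hb' : b ∉ U) : a * b ∈ U := by
  have hidx := index_two_of_card U T hUT h
  have := (Subgroup.mul_mem_iff_of_index_two hidx (a := ⟨a, ha⟩) (b := ⟨b, hb⟩)).mpr
    (by simp [mem_subgroupOf, ha', hb'])
  simpa [mem_subgroupOf] using this

theorem zp_cases (u x : G) (ho : orderOf u = 4) (hx : x ∈ zpowers u) :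
    x = 1 ∨ x = u ∨ x = u ^ 2 ∨ x = u⁻¹ := by
  obtain ⟨k, rfl⟩ := Subgroup.mem_zpowers_iff.mp hx
  have h4 : u ^ 4 = 1 := by rw [← ho]; exact pow_orderOf_eq_one u
  rw [← zpow_mod_orderOf, ho]
  have hk : k % (4 : ℕ) = 0 ∨ k % (4 : ℕ) = 1 ∨ k % (4 : ℕ) = 2 ∨ k % (4 : ℕ) = 3 := by omega
  rcases hk with hk | hk | hk | hk
  · left; rw [hk, zpow_zero]
  · right; left; rw [hk, zpow_one]
  · right; right; left
    rw [hk]
    norm_cast
  · right; right; right
    rw [hk]
    have : u ^ (3 : ℤ) * u = 1 := by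
      have : u ^ (3 : ℤ) = u ^ 3 := by norm_cast
      rw [this, ← pow_succ]; exact h4
    exact eq_inv_of_mul_eq_one_left this

theorem sq_one_in_zp (u x : G) (ho : orderOf u = 4) (hx : x ∈ zpowers u) (hx2 : x * x = 1) :
    x = 1 ∨ x = u ^ 2 := by
  have hu2 : u ^ 2 ≠ 1 := pow_ne_one_of_lt_orderOf (by norm_num) (by rw [ho]; norm_num)
  rcases zp_cases u x ho hx with rfl | rfl | rfl | rfl
  · left; rfl
  · exfalso; exact hu2 (by rw [sq]; exact hx2)
  · right; rfl
  · exfalso
    apply hu2
    have h1 : (u * u)⁻¹ = 1 := by rw [mul_inv_rev]; exact hx2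
    rw [sq]
    exact inv_eq_one.mp h1

theorem klein_mem_iff' (U : Subgroup G) (hK : IsKleinFour U) {a b : G} (ha : a ∈ U)
    (hb : b ∈ U) (ha1 : a ≠ 1) (hb1 : b ≠ 1) (hab : a ≠ b) (g : G) :
    g ∈ U ↔ g = 1 ∨ g = a ∨ g = b ∨ g = a * b := by
  constructor
  · intro hg
    by_contra hcon
    push Not at hcon
    obtain ⟨h1, h2, h3, h4⟩ := hcon
    apply h4
    have h := IsKleinFour.eq_mul_of_ne_all (G := U) (x := ⟨a, ha⟩) (y := ⟨b, hb⟩) (z := ⟨g, hg⟩)
      (fun h => ha1 (congrArg Subtype.val h)) (fun h => hb1 (congrArg Subtype.val h))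
      (fun h => hab (congrArg Subtype.val h)) (fun h => h1 (congrArg Subtype.val h))
      (fun h => h2 (congrArg Subtype.val h)) (fun h => h3 (congrArg Subtype.val h))
    exact congrArg Subtype.val h
  · rintro (rfl | rfl | rfl | rfl)
    · exact U.one_mem
    · exact ha
    · exact hb
    · exact U.mul_mem ha hb

theorem not_comm_outside [IsSimpleGroup G] (hG : Nat.card G = 168) [Fact (Nat.Prime 2)]
    [Fact (Nat.Prime 3)] [Fact (Nat.Prime 7)] (T : Sylow 2 G) (u : G)
    (hu : u ∈ (T : Subgroup G)) (ho : orderOf u = 4) (a : G) (ha : a ∈ (T : Subgroup G))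
    (hau : a ∉ zpowers u) : a * u ≠ u * a := by
  intro hcomm
  have hu2 : u ^ 2 ≠ 1 := pow_ne_one_of_lt_orderOf (by norm_num) (by rw [ho]; norm_num)
  have ha2 := order2_outside hG T u hu ho a ha hau
  have hau2 := order2_outside hG T u hu ho (a * u) (mul_mem ha hu) (fun hmem => hau (by
    have := mul_mem hmem (inv_mem (mem_zpowers u))
    simpa using this))
  have haa : a * a = 1 := by
    rw [← sq, ← ha2]; exact pow_orderOf_eq_one a
  have h1 : (a * u) * (a * u) = 1 := by
    rw [← sq, ← hau2]; exact pow_orderOf_eq_one (a * u)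
  apply hu2
  calc u ^ 2 = (a * a) * (u * u) := by rw [haa, one_mul, sq]
    _ = a * (a * u) * u := by group
    _ = a * (u * a) * u := by rw [hcomm]
    _ = (a * u) * (a * u) := by simp only [mul_assoc]
    _ = 1 := h1

theorem klein_in_T [IsSimpleGroup G] (hG : Nat.card G = 168) [Fact (Nat.Prime 2)]
    [Fact (Nat.Prime 3)] [Fact (Nat.Prime 7)] (T : Sylow 2 G) (u : G)
    (hu : u ∈ (T : Subgroup G)) (ho : orderOf u = 4) (U : Subgroup G)
    (hUT : U ≤ (T : Subgroup G)) (hK : IsKleinFour U) :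
    u ^ 2 ∈ U ∧ ∃ w ∈ U, w ∉ zpowers u := by
  obtain ⟨hc7, hc3, hc2, hn7, hn3, hn2, hN7, hN3, hN2, hnc⟩ := facts168 hG
  obtain ⟨a, b, ha, hb, ha1, hb1, hab, hall⟩ := klein_elems U
  have hsq : ∀ x ∈ U, x * x = 1 := fun x hx => klein_sq U x hx
  by_cases haz : a ∈ zpowers u
  · have h1 : a = u ^ 2 := (sq_one_in_zp u a ho haz (hsq a ha)).resolve_left ha1
    have hbz : b ∉ zpowers u := fun hbz => hab (by
      rw [h1, (sq_one_in_zp u b ho hbz (hsq b hb)).resolve_left hb1])
    exact ⟨h1 ▸ ha, b, hb, hbz⟩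
  · by_cases hbz : b ∈ zpowers u
    · have h1 : b = u ^ 2 := (sq_one_in_zp u b ho hbz (hsq b hb)).resolve_left hb1
      exact ⟨h1 ▸ hb, a, ha, haz⟩
    · have habz : a * b ∈ zpowers u :=
        mul_mem_of_index_two (zpowers u) T (by rw [zpowers_le]; exact hu)
          (by rw [hc2 T, Nat.card_zpowers, ho]) a b (hUT ha) (hUT hb) haz hbz
      have hab1 : a * b ≠ 1 := by
        intro h
        apply hab
        have h2 : b⁻¹ = b := inv_eq_of_mul_eq_one_left (hsq b hb)
        rw [eq_inv_of_mul_eq_one_left h, h2]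
      have h1 : a * b = u ^ 2 :=
        (sq_one_in_zp u (a * b) ho habz (hsq _ (mul_mem ha hb))).resolve_left hab1
      exact ⟨h1 ▸ mul_mem ha hb, a, ha, haz⟩

theorem klein_two [IsSimpleGroup G] (hG : Nat.card G = 168) [Fact (Nat.Prime 2)]
    [Fact (Nat.Prime 3)] [Fact (Nat.Prime 7)] (T : Sylow 2 G) :
    ∃ K1 K2 : Subgroup G, K1 ≠ K2 ∧
      {U : Subgroup G | U ≤ (T : Subgroup G) ∧ IsKleinFour ↥U} = {K1, K2} := by
  obtain ⟨hc7, hc3, hc2, hn7, hn3, hn2, hN7, hN3, hN2, hnc⟩ := facts168 hG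
  obtain ⟨u, hu, ho⟩ := exists_order4 hG T
  have hlt : zpowers u < (T : Subgroup G) := by
    apply lt_of_le_of_ne (by rw [zpowers_le]; exact hu)
    intro heq'
    have h8 : Nat.card (zpowers u) = 8 := by rw [heq']; exact hc2 T
    rw [Nat.card_zpowers, ho] at h8
    norm_num at h8
  obtain ⟨s, hsT, hsu⟩ := SetLike.exists_of_lt hlt
  have hu4 : u ^ 4 = 1 := by rw [← ho]; exact pow_orderOf_eq_one u
  have hu2 : u ^ 2 ≠ 1 := pow_ne_one_of_lt_orderOf (by norm_num) (by rw [ho]; norm_num)
  have hu1 : u ≠ 1 := by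
    rintro rfl
    rw [orderOf_one] at ho
    norm_num at ho
  have hz : u ^ 2 * u ^ 2 = 1 := by rw [← pow_add]; exact hu4
  have hzT : u ^ 2 ∈ (T : Subgroup G) := pow_mem hu 2
  have hzu : u ^ 2 ∈ zpowers u := pow_mem (mem_zpowers u) 2
  have hcen := sq_central T (hc2 T) u hu ho
  have hs2 := order2_outside hG T u hu ho s hsT hsu
  have hsuT : s * u ∈ (T : Subgroup G) := mul_mem hsT hu
  have hsu' : s * u ∉ zpowers u := fun hmem => hsu (by
    have := mul_mem hmem (inv_mem (mem_zpowers u))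
    simpa using this)
  have hsu2 := order2_outside hG T u hu ho (s * u) hsuT hsu'
  have hss : s * s = 1 := by
    rw [← sq, ← hs2]; exact pow_orderOf_eq_one s
  have hsusu : (s * u) * (s * u) = 1 := by
    rw [← sq, ← hsu2]; exact pow_orderOf_eq_one (s * u)
  have hzs : u ^ 2 * s = s * u ^ 2 := (hcen s hsT).symm
  have hzsu : u ^ 2 * (s * u) = (s * u) * u ^ 2 := (hcen (s * u) hsuT).symm
  have hs1 : s ≠ 1 := fun h => hsu (h ▸ one_mem _)
  have hsu1 : s * u ≠ 1 := fun h => hsu' (h ▸ one_mem _)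
  have hzs' : u ^ 2 ≠ s := fun h => hsu (h ▸ hzu)
  have hzsu' : u ^ 2 ≠ s * u := fun h => hsu' (h ▸ hzu)
  have hK1 : IsKleinFour (VV (u ^ 2) s hz hss hzs) := VV_klein _ _ hz hss hzs hu2 hs1 hzs'
  have hK2 : IsKleinFour (VV (u ^ 2) (s * u) hz hsusu hzsu) :=
    VV_klein _ _ hz hsusu hzsu hu2 hsu1 hzsu'
  have hK1T : VV (u ^ 2) s hz hss hzs ≤ (T : Subgroup G) := by
    intro x hx
    rw [mem_VV] at hx
    rcases hx with rfl | rfl | rfl | rfl
    · exact one_mem _
    · exact hzT
    · exact hsT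
    · exact mul_mem hzT hsT
  have hK2T : VV (u ^ 2) (s * u) hz hsusu hzsu ≤ (T : Subgroup G) := by
    intro x hx
    rw [mem_VV] at hx
    rcases hx with rfl | rfl | rfl | rfl
    · exact one_mem _
    · exact hzT
    · exact hsuT
    · exact mul_mem hzT hsuT
  have hsinv : s⁻¹ = s := inv_eq_of_mul_eq_one_left hss
  refine ⟨VV (u ^ 2) s hz hss hzs, VV (u ^ 2) (s * u) hz hsusu hzsu, ?_, ?_⟩
  · intro heq
    have h1 : s * u ∈ VV (u ^ 2) s hz hss hzs := by
      rw [heq, mem_VV]; right; right; left; rfl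
    rw [mem_VV] at h1
    rcases h1 with h1 | h1 | h1 | h1
    · exact hsu1 h1
    · exact hzsu' h1.symm
    · apply hu1
      have := congrArg (fun y => s⁻¹ * y) h1
      simpa using this
    · apply hu1
      rw [hzs] at h1
      have h2 : u = u ^ 2 := by
        have := congrArg (fun y => s⁻¹ * y) h1
        simpa using this
      have h3 : u * 1 = u * u := by rw [mul_one, ← sq]; exact h2
      exact (mul_left_cancel h3).symm
  · ext U
    constructor
    · rintro ⟨hUT, hK⟩
      obtain ⟨hzU, w, hwU, hwu⟩ := klein_in_T hG T u hu ho U hUT hK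
      have hsw : s * w ∈ zpowers u :=
        mul_mem_of_index_two (zpowers u) T (by rw [zpowers_le]; exact hu)
          (by rw [hc2 T, Nat.card_zpowers, ho]) s w hsT (hUT hwU) hsu hwu
      have hsU_or : s ∈ U ∨ s * u ∈ U := by
        rcases zp_cases u (s * w) ho hsw with h1 | h1 | h1 | h1
        · left
          have : w = s := by
            have := congrArg (fun y => s⁻¹ * y) h1
            simp only [inv_mul_cancel_left, mul_one] at this
            rw [this, hsinv]
          rw [← this]; exact hwU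
        · right
          have : w = s * u := by
            have := congrArg (fun y => s⁻¹ * y) h1
            simp only [inv_mul_cancel_left] at this
            rw [this, hsinv]
          rw [← this]; exact hwU
        · left
          have hw : w = s * u ^ 2 := by
            have := congrArg (fun y => s⁻¹ * y) h1
            simp only [inv_mul_cancel_left] at this
            rw [this, hsinv]
          have : s = w * u ^ 2 := by
            rw [hw, mul_assoc, hz, mul_one]
          rw [this]; exact mul_mem hwU hzU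
        · right
          have hw : w = s * u⁻¹ := by
            have := congrArg (fun y => s⁻¹ * y) h1
            simp only [inv_mul_cancel_left] at this
            rw [this, hsinv]
          have : s * u = w * u ^ 2 := by
            rw [hw, mul_assoc, sq, inv_mul_cancel_left]
          rw [this]; exact mul_mem hwU hzU
      rcases hsU_or with hsU | hsuU
      · left
        ext x
        rw [klein_mem_iff' U hK hzU hsU hu2 hs1 hzs' x, mem_VV]
      · right
        show U = VV (u ^ 2) (s * u) hz hsusu hzsu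
        ext x
        rw [klein_mem_iff' U hK hzU hsuU hu2 hsu1 hzsu' x, mem_VV]
    · rintro (rfl | rfl)
      · exact ⟨hK1T, hK1⟩
      · exact ⟨hK2T, hK2⟩

theorem klein_not_conj [IsSimpleGroup G] (hG : Nat.card G = 168) [Fact (Nat.Prime 2)]
    [Fact (Nat.Prime 3)] [Fact (Nat.Prime 7)] (T : Sylow 2 G) (U W : Subgroup G)
    (hU : U ≤ (T : Subgroup G)) (hW : W ≤ (T : Subgroup G)) (hKU : IsKleinFour U)
    (hKW : IsKleinFour W) (hne : U ≠ W) (g : G) :
    U.map (MulAut.conj g).toMonoidHom ≠ W := by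
  obtain ⟨hc7, hc3, hc2, hn7, hn3, hn2, hN7, hN3, hN2, hnc⟩ := facts168 hG
  intro hmap
  have hTU : (T : Subgroup G) ≤ normalizer (U : Set G) :=
    le_normalizer_of_index_two U T hU (by rw [hc2 T, IsKleinFour.card_four])
  have hTW : (T : Subgroup G) ≤ normalizer (W : Set G) :=
    le_normalizer_of_index_two W T hW (by rw [hc2 T, IsKleinFour.card_four])
  have hTgW : (T : Subgroup G).map (MulAut.conj g).toMonoidHom ≤ normalizer (W : Set G) := by
    rintro x ⟨t, ht, rfl⟩
    have hfin : Finite W := IsKleinFour.instFinite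
    apply mem_normalizer_of_conj_mem
    intro y hy
    rw [← hmap] at hy ⊢
    obtain ⟨v, hv, rfl⟩ := hy
    refine ⟨t * v * t⁻¹, (Subgroup.mem_normalizer_iff.mp (hTU ht) v).mp hv, ?_⟩
    simp [mul_assoc]
  have hcardN : (Nat.card (normalizer (W : Set G))).factorization 2 = 3 := by
    have h1 : 2 ^ 3 ∣ Nat.card (normalizer (W : Set G)) := by
      have := Subgroup.card_dvd_of_le hTW
      rwa [hc2 T] at this
    have h2 : Nat.card (normalizer (W : Set G)) ∣ 168 := hG ▸ Subgroup.card_subgroup_dvd_card _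
    have hne0 : Nat.card (normalizer (W : Set G)) ≠ 0 := Nat.card_pos.ne'
    have h3 : 3 ≤ (Nat.card (normalizer (W : Set G))).factorization 2 :=
      (Nat.prime_two.pow_dvd_iff_le_factorization hne0).mp h1
    have h4 : ¬ 4 ≤ (Nat.card (normalizer (W : Set G))).factorization 2 := by
      intro h
      have h5 := (Nat.prime_two.pow_dvd_iff_le_factorization hne0).mpr h
      have h6 : 2 ^ 4 ∣ 168 := h5.trans h2
      norm_num at h6
    omega
  have hcardTg : Nat.card ((T : Subgroup G).map (MulAut.conj g).toMonoidHom) = 8 := by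
    rw [Subgroup.card_map_of_injective (MulAut.conj g).injective, hc2 T]
  obtain ⟨n, hn, hconj⟩ := exists_conj_of_card (p := 2) (normalizer (W : Set G))
    ((T : Subgroup G).map (MulAut.conj g).toMonoidHom) T hTgW hTW
    (by rw [hcardN, hcardTg]; norm_num) (by rw [hcardN, hc2 T]; norm_num)
  have hTN : normalizer ((T : Subgroup G) : Set G) = T :=
    (Subgroup.eq_of_le_of_card_ge le_normalizer (by rw [hN2 T, hc2 T])).symm
  have hngT : n * g ∈ (T : Subgroup G) := by
    have h1 : n * g ∈ normalizer ((T : Subgroup G) : Set G) := by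
      apply mem_normalizer_of_conj_mem
      intro t ht
      have h2 : (MulAut.conj g).toMonoidHom t ∈
          (T : Subgroup G).map (MulAut.conj g).toMonoidHom := ⟨t, ht, rfl⟩
      have h3 := (hconj _).mp h2
      have e : n * g * t * (n * g)⁻¹ = n * ((MulAut.conj g).toMonoidHom t) * n⁻¹ := by
        simp [mul_assoc]
      rw [e]; exact h3
    rwa [hTN] at h1
  apply hne
  have hUW : U ≤ W := by
    intro y hy
    have h1 : (n * g)⁻¹ ∈ normalizer (U : Set G) := inv_mem (hTU hngT)
    have hx : (n * g)⁻¹ * y * ((n * g)⁻¹)⁻¹ ∈ U := (Subgroup.mem_normalizer_iff.mp h1 y).mp hy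
    have h2 : (MulAut.conj g).toMonoidHom ((n * g)⁻¹ * y * ((n * g)⁻¹)⁻¹) ∈ W := by
      rw [← hmap]; exact ⟨_, hx, rfl⟩
    have h3 := (Subgroup.mem_normalizer_iff.mp hn _).mp h2
    have e : n * (MulAut.conj g).toMonoidHom ((n * g)⁻¹ * y * ((n * g)⁻¹)⁻¹) * n⁻¹ = y := by
      simp [mul_assoc]
    rwa [e] at h3
  exact Subgroup.eq_of_le_of_card_ge hUW (by rw [IsKleinFour.card_four, IsKleinFour.card_four])

theorem klein_normalizer [IsSimpleGroup G] (hG : Nat.card G = 168) [Fact (Nat.Prime 2)]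
    [Fact (Nat.Prime 3)] [Fact (Nat.Prime 7)] (U : Subgroup G) (hK : IsKleinFour U) :
    Nonempty (↥(normalizer (U : Set G)) ≃* Equiv.Perm (Fin 4)) := by
  obtain ⟨hc7, hc3, hc2, hn7, hn3, hn2, hN7, hN3, hN2, hnc⟩ := facts168 hG
  have hpg : IsPGroup 2 U :=
    IsPGroup.of_card (n := 2) (by rw [IsKleinFour.card_four]; norm_num)
  obtain ⟨T, hUT⟩ := hpg.exists_le_sylow
  have hTN : (T : Subgroup G) ≤ normalizer (U : Set G) :=
    le_normalizer_of_index_two U T hUT (by rw [hc2 T, IsKleinFour.card_four])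
  obtain ⟨u, hu, ho⟩ := exists_order4 hG T
  obtain ⟨hzU, a, haU, hau⟩ := klein_in_T hG T u hu ho U hUT hK
  have ha2 : orderOf a = 2 := order2_outside hG T u hu ho a (hUT haU) hau
  have hz2 : orderOf (u ^ 2) = 2 := by
    rw [orderOf_pow' _ (by norm_num), ho]
    norm_num
  have ha1 : a ≠ 1 := by
    rintro rfl
    rw [orderOf_one] at ha2
    norm_num at ha2
  obtain ⟨c, hc⟩ := isConj_iff.mp (invol_conj hG (u ^ 2) a hz2 ha2)
  have hcoe : ((c • T : Sylow 2 G) : Subgroup G) = MulAut.conj c • (T : Subgroup G) :=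
    Sylow.coe_subgroup_smul
  have haT' : a ∈ ((c • T : Sylow 2 G) : Subgroup G) := by
    rw [hcoe, ← hc]
    exact Subgroup.smul_mem_pointwise_smul (u ^ 2) (MulAut.conj c) (T : Subgroup G)
      (pow_mem hu 2)
  have hacen : ∀ t' ∈ ((c • T : Sylow 2 G) : Subgroup G), t' * a = a * t' := by
    intro t' ht'
    rw [hcoe, Subgroup.mem_pointwise_smul_iff_inv_smul_mem] at ht'
    have ht0 : c⁻¹ * t' * c ∈ (T : Subgroup G) := by
      have e : (MulAut.conj c)⁻¹ • t' = c⁻¹ * t' * c := by
        simp [MulAut.smul_def]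
      rw [e] at ht'
      exact ht'
    have hc' := sq_central T (hc2 T) u hu ho _ ht0
    rw [← hc]
    calc t' * (c * u ^ 2 * c⁻¹) = c * ((c⁻¹ * t' * c) * u ^ 2) * c⁻¹ := by group
      _ = c * (u ^ 2 * (c⁻¹ * t' * c)) * c⁻¹ := by rw [hc']
      _ = (c * u ^ 2 * c⁻¹) * t' := by group
  have hCa := centralizer_central hG (c • T) a haT' ha1 hacen
  have hUT' : U ≤ ((c • T : Sylow 2 G) : Subgroup G) := by
    rw [← hCa]
    intro x hx
    rw [Subgroup.mem_centralizer_iff]
    intro h hh
    rw [Set.mem_singleton_iff] at hh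
    subst hh
    exact klein_comm U h x haU hx
  have hT'N : ((c • T : Sylow 2 G) : Subgroup G) ≤ normalizer (U : Set G) :=
    le_normalizer_of_index_two U _ hUT' (by rw [hc2, IsKleinFour.card_four])
  have hne : (c • T : Sylow 2 G) ≠ T := by
    intro h
    rw [h] at hCa
    have h1 : u ∈ centralizer ({a} : Set G) := by rw [hCa]; exact hu
    rw [Subgroup.mem_centralizer_iff] at h1
    exact not_comm_outside hG T u hu ho a (hUT haU) hau (h1 a rfl)
  have h8 : 8 ∣ Nat.card (normalizer (U : Set G)) := by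
    have := Subgroup.card_dvd_of_le hTN
    rwa [hc2 T] at this
  have h168 : Nat.card (normalizer (U : Set G)) ∣ 168 := hG ▸ Subgroup.card_subgroup_dvd_card _
  have hne8 : Nat.card (normalizer (U : Set G)) ≠ 8 := by
    intro h
    have e1 : (T : Subgroup G) = normalizer (U : Set G) :=
      Subgroup.eq_of_le_of_card_ge hTN (by rw [h, hc2 T])
    have e2 : ((c • T : Sylow 2 G) : Subgroup G) = normalizer (U : Set G) :=
      Subgroup.eq_of_le_of_card_ge hT'N (by rw [h, hc2])
    exact hne (Sylow.ext (e2.trans e1.symm))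
  have h7 : ¬ 7 ∣ Nat.card (normalizer (U : Set G)) := by
    intro h
    obtain ⟨y, hy⟩ := exists_prime_orderOf_dvd_card' (G := ↥(normalizer (U : Set G))) 7 h
    have hKy : IsPGroup 7 (zpowers y) :=
      IsPGroup.of_card (n := 1) (by rw [Nat.card_zpowers, hy, pow_one])
    have hfin : Finite U := IsKleinFour.instFinite
    have hmod := hKy.card_modEq_card_fixedPoints (α := ↥U)
    rw [IsKleinFour.card_four] at hmod
    have hfp : ∃ x : ↥U, x ∈ MulAction.fixedPoints (zpowers y) ↥U ∧ x ≠ 1 := by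
      by_contra hno
      push Not at hno
      have hsub : MulAction.fixedPoints (zpowers y) ↥U ⊆ {1} := fun x hx => hno x hx
      have hle : Nat.card (MulAction.fixedPoints (zpowers y) ↥U) ≤ 1 := by
        rw [Nat.card_coe_set_eq]
        exact (Set.ncard_le_ncard hsub).trans (by simp)
      unfold Nat.ModEq at hmod
      omega
    obtain ⟨x, hx, hx1⟩ := hfp
    have hfix : y • x = x := hx ⟨y, mem_zpowers y⟩
    have hcomm : (y : G) * (x : G) * (y : G)⁻¹ = x := congrArg Subtype.val hfix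
    have hcm : Commute (y : G) (x : G) := by
      show (y : G) * x = x * y
      calc (y : G) * x = (y : G) * x * (y : G)⁻¹ * y := by group
        _ = x * y := by rw [hcomm]
    have hy7 : orderOf (y : G) = 7 := by
      rw [Subgroup.orderOf_coe]; exact hy
    have hmem := commute_mem_zpowers (p := 7) (q := 3) Nat.prime_three hc7
      (by rw [hG]; norm_num) (fun Q => by rw [hN7 Q]) _ _ hy7 hcm
    have hd7 : orderOf (x : G) ∣ 7 := by
      have := Subgroup.orderOf_dvd_natCard _ hmem
      rwa [Nat.card_zpowers, hy7] at this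
    have hd2 : orderOf (x : G) ∣ 2 := by
      apply orderOf_dvd_of_pow_eq_one
      rw [sq]; exact klein_sq U x x.2
    have h1 : orderOf (x : G) = 1 := by
      have := Nat.dvd_gcd hd7 hd2
      simpa using this
    rw [orderOf_eq_one_iff] at h1
    exact hx1 (Subtype.ext h1)
  have h24 : Nat.card (normalizer (U : Set G)) = 24 := card24 _ h8 h168 hne8 h7
  apply Cfsg.Agent.S1012.result h24
  intro g hg6
  have := orders168 hG (g : G)
  rw [Subgroup.orderOf_coe, hg6] at this
  norm_num at this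

end aux

/-- Let G be a simple group of order 168 and T a Sylow 2-subgroup. Then T contains exactly two subgroups that are Klein four-groups; they are not conjugate in G; and the normalizer of every Klein four-subgroup of G is isomorphic to the symmetric group of degree 4. -/
theorem result {G : Type*} [Group G] [Finite G] [IsSimpleGroup G] (h : Nat.card G = 168) (T : Sylow 2 G) : Nat.card {U : Subgroup G // U ≤ (T : Subgroup G) ∧ IsKleinFour ↥U} = 2 ∧ (∀ U W : Subgroup G, U ≤ (T : Subgroup G) → W ≤ (T : Subgroup G) → IsKleinFour ↥U → IsKleinFour ↥W → U ≠ W → ∀ g : G, U.map (MulAut.conj g).toMonoidHom ≠ W) ∧ ∀ U : Subgroup G, IsKleinFour ↥U → Nonempty (↥(Subgroup.normalizer (U : Set G)) ≃* Equiv.Perm (Fin 4)) := by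
  have p2 : Fact (Nat.Prime 2) := ⟨Nat.prime_two⟩
  have p3 : Fact (Nat.Prime 3) := ⟨Nat.prime_three⟩
  have p7 : Fact (Nat.Prime 7) := ⟨by norm_num⟩
  refine ⟨?_, ?_, ?_⟩
  · obtain ⟨K1, K2, hne, hset⟩ := klein_two h T
    have e : Nat.card {U : Subgroup G // U ≤ (T : Subgroup G) ∧ IsKleinFour ↥U} =
        ({U : Subgroup G | U ≤ (T : Subgroup G) ∧ IsKleinFour ↥U}).ncard :=
      Nat.card_coe_set_eq _
    rw [e, hset, Set.ncard_pair hne]
  · intro U W hU hW hKU hKW hne g
    exact klein_not_conj h T U W hU hW hKU hKW hne g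
  · intro U hKU
    exact klein_normalizer h U hKU

end Cfsg.Agent.S1007
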