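import Cfsg.Statements.S1008
import Cfsg.Agent.S1007

set_option autoImplicit false
open Cfsg

namespace Cfsg.Agent.S1008

open Subgroup Cfsg.Agent.Lib.Helper8 Cfsg.Agent.S1002 Cfsg.Agent.S1003 Cfsg.Agent.S1005
  Cfsg.Agent.S1004 Cfsg.Agent.S1006 Cfsg.Agent.S1007
open scoped Pointwise

section aux
set_option linter.unusedSectionVars false
variable {G : Type*} [Group G] [Finite G]

theorem cj_card (H : Subgroup G) (g : G) :
    Nat.card (H.map (MulAut.conj g).toMonoidHom) = Nat.card H :=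
  Subgroup.card_map_of_injective (MulAut.conj g).injective

theorem cj_equiv (H : Subgroup G) (g : G) :
    Nonempty (↥(H.map (MulAut.conj g).toMonoidHom) ≃* ↥H) :=
  ⟨(H.equivMapOfInjective (MulAut.conj g).toMonoidHom (MulAut.conj g).injective).symm⟩

theorem cj_normalizer (H : Subgroup G) (g : G) :
    (normalizer (H : Set G)).map (MulAut.conj g).toMonoidHom =
      normalizer ((H.map (MulAut.conj g).toMonoidHom : Subgroup G) : Set G) :=
  Subgroup.map_equiv_normalizer_eq H (MulAut.conj g)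

theorem cj_klein (U : Subgroup G) (g : G) (hK : IsKleinFour U) :
    IsKleinFour ↥(U.map (MulAut.conj g).toMonoidHom) := by
  obtain ⟨e⟩ := cj_equiv U g
  exact ⟨by rw [Nat.card_congr e.toEquiv, IsKleinFour.card_four],
    by rw [Monoid.exponent_eq_of_mulEquiv e, IsKleinFour.exponent_two]⟩

theorem cj_cj (H : Subgroup G) (g : G) :
    (H.map (MulAut.conj g).toMonoidHom).map (MulAut.conj g⁻¹).toMonoidHom = H := by
  rw [Subgroup.map_map]
  have : (MulAut.conj g⁻¹).toMonoidHom.comp (MulAut.conj g).toMonoidHom = MonoidHom.id G := by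
    ext x; simp [mul_assoc]
  rw [this, Subgroup.map_id]

theorem cj_cj' (H : Subgroup G) (g : G) :
    (H.map (MulAut.conj g⁻¹).toMonoidHom).map (MulAut.conj g).toMonoidHom = H := by
  have := cj_cj H g⁻¹
  rwa [inv_inv] at this

theorem sylow_cj {p : ℕ} [Fact p.Prime] (P Q : Sylow p G) :
    ∃ g : G, (Q : Subgroup G) = (P : Subgroup G).map (MulAut.conj g).toMonoidHom := by
  obtain ⟨g, hg⟩ := MulAction.exists_smul_eq G P Q
  refine ⟨g, ?_⟩
  rw [← hg]
  rfl

theorem card_le24 [IsSimpleGroup G] (hG : Nat.card G = 168) [Fact (Nat.Prime 2)]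
    [Fact (Nat.Prime 3)] [Fact (Nat.Prime 7)] (H : Subgroup G) (hH : H ≠ ⊤) :
    Nat.card H ≤ 24 := by
  obtain ⟨hc7, hc3, hc2, hn7, hn3, hn2, hN7, hN3, hN2, hnc⟩ := facts168 hG
  have h2 := two_mul_card_dvd_factorial_of_simple hnc H hH
  have h3 := Subgroup.card_mul_index H
  rw [hG] at h2 h3
  by_contra hcon
  push Not at hcon
  have hi : H.index ≤ 6 := by
    by_contra h
    push Not at h
    nlinarith
  obtain ⟨k, hk⟩ : ∃ k, k = H.index := ⟨_, rfl⟩
  rw [← hk] at h2 hi
  clear hk h3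
  interval_cases k <;> exact absurd h2 (by decide)

theorem le_normalizer_map_subtype (M : Subgroup G) (Q : Subgroup M) (hn : Q.Normal) :
    M ≤ normalizer ((Q.map M.subtype : Subgroup G) : Set G) := by
  intro x hx
  have h2 := Subgroup.le_normalizer_map (H := Q) M.subtype
  have : (⟨x, hx⟩ : M) ∈ normalizer (Q : Set M) := by
    rw [Subgroup.normalizer_eq_top_iff.mpr hn]; exact Subgroup.mem_top _
  exact h2 (Subgroup.mem_map.mpr ⟨⟨x, hx⟩, this, rfl⟩)

theorem sylow_normal_in {p : ℕ} [Fact p.Prime] (M : Subgroup G) (a m : ℕ) (hm : ¬ p ∣ m)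
    (hM : Nat.card M = p ^ a * m) (hcnt : ∀ n, n ∣ m → n % p = 1 → n = 1) :
    ∃ Q : Subgroup G, Q ≤ M ∧ Nat.card Q = p ^ a ∧ M ≤ normalizer (Q : Set G) := by
  obtain ⟨Q₀⟩ : Nonempty (Sylow p M) := inferInstance
  have h1 : Nat.card (Sylow p M) = 1 :=
    hcnt _ (card_sylow_dvd_of_card_eq a m hm hM) card_sylow_mod
  have hn : (Q₀ : Subgroup M).Normal := sylow_normal_of_card_eq_one Q₀ h1
  refine ⟨(Q₀ : Subgroup M).map M.subtype, Subgroup.map_subtype_le _, ?_, ?_⟩
  · rw [card_map_subtype]; exact sylow_card_of_card_eq a m hm hM Q₀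
  · exact le_normalizer_map_subtype M _ hn

theorem eq_of_card_two (O : Subgroup G) (h : Nat.card O = 2) {a b : G} (ha : a ∈ O) (hb : b ∈ O)
    (ha1 : a ≠ 1) (hb1 : b ≠ 1) : a = b := by
  obtain ⟨y, -, hy⟩ := (Nat.card_eq_two_iff' (1 : O)).mp h
  have h1 := hy ⟨a, ha⟩ (fun e => ha1 (congrArg Subtype.val e))
  have h2 := hy ⟨b, hb⟩ (fun e => hb1 (congrArg Subtype.val e))
  exact congrArg Subtype.val (h1.trans h2.symm)

theorem no_central [IsSimpleGroup G] (hG : Nat.card G = 168) [Fact (Nat.Prime 2)]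
    [Fact (Nat.Prime 3)] [Fact (Nat.Prime 7)] (M : Subgroup G) (h3 : 3 ∣ Nat.card M)
    (z : G) (hz1 : z ≠ 1) (hz8 : z ^ 8 = 1) (hc : ∀ m ∈ M, m * z * m⁻¹ = z) : False := by
  have hle : M ≤ centralizer ({z} : Set G) := by
    intro m hm
    rw [Subgroup.mem_centralizer_singleton_iff]
    exact mul_inv_eq_iff_eq_mul.mp (hc m hm)
  have h1 := Subgroup.card_dvd_of_le hle
  have h2 := centralizer_two hG z hz1 hz8
  have : 3 ∣ 8 := h3.trans (h1.trans h2)
  omega

theorem klein_norm_card [IsSimpleGroup G] (hG : Nat.card G = 168) [Fact (Nat.Prime 2)]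
    [Fact (Nat.Prime 3)] [Fact (Nat.Prime 7)] (U : Subgroup G) (hU : IsKleinFour U) :
    Nat.card (normalizer (U : Set G)) = 24 := by
  obtain ⟨e⟩ := klein_normalizer hG U hU
  rw [Nat.card_congr e.toEquiv, Nat.card_perm, Nat.card_fin]
  rfl

theorem klein_of_normal_two [IsSimpleGroup G] (hG : Nat.card G = 168) [Fact (Nat.Prime 2)]
    [Fact (Nat.Prime 3)] [Fact (Nat.Prime 7)] (M O : Subgroup G) (h3 : 3 ∣ Nat.card M)
    (hO : IsPGroup 2 O) (hO1 : O ≠ ⊥) (hMO : M ≤ normalizer (O : Set G)) :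
    ∃ U : Subgroup G, IsKleinFour U ∧ M ≤ normalizer (U : Set G) := by
  obtain ⟨hc7, hc3, hc2, hn7, hn3, hn2, hN7, hN3, hN2, hnc⟩ := facts168 hG
  obtain ⟨T, hOT⟩ := hO.exists_le_sylow
  have hdvd : Nat.card O ∣ 8 := hc2 T ▸ Subgroup.card_dvd_of_le hOT
  have hne1 : Nat.card O ≠ 1 := fun h => hO1 (Subgroup.card_eq_one.mp h)
  have hz8 : ∀ z ∈ O, z ^ 8 = 1 := by
    intro z hz
    have := Subgroup.orderOf_dvd_natCard (T : Subgroup G) (hOT hz)
    rw [hc2 T] at this
    exact orderOf_dvd_iff_pow_eq_one.mp this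
  have hconj : ∀ m ∈ M, ∀ z ∈ O, m * z * m⁻¹ ∈ O := by
    intro m hm z hz
    exact (Subgroup.mem_normalizer_iff.mp (hMO hm) z).mp hz
  have hcases : Nat.card O = 2 ∨ Nat.card O = 4 ∨ Nat.card O = 8 := by
    have hle := Nat.le_of_dvd (by norm_num) hdvd
    have hpos : 0 < Nat.card O := Nat.card_pos
    obtain ⟨c, hc⟩ : ∃ c, c = Nat.card O := ⟨_, rfl⟩
    rw [← hc] at hdvd hne1 hle hpos ⊢
    clear hc
    interval_cases c <;> revert hdvd hne1 <;> decide
  rcases hcases with h | h | h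
  · exfalso
    obtain ⟨z, hz, hz1⟩ : ∃ z ∈ O, z ≠ 1 := by
      by_contra hcon
      push Not at hcon
      exact hO1 ((Subgroup.eq_bot_iff_forall O).mpr hcon)
    refine no_central hG M h3 z hz1 (hz8 z hz) (fun m hm => ?_)
    refine eq_of_card_two O h (hconj m hm z hz) hz ?_ hz1
    intro e
    apply hz1
    have : z = m⁻¹ * (m * z * m⁻¹) * m := by group
    rw [this, e]; group
  · by_cases hex : ∃ u ∈ O, orderOf u = 4
    · exfalso
      obtain ⟨u, hu, ho⟩ := hex
      have hOu : zpowers u = O := by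
        apply Subgroup.eq_of_le_of_card_ge (by rw [zpowers_le]; exact hu)
        rw [Nat.card_zpowers, ho, h]
      have hu2 : u ^ 2 ≠ 1 := pow_ne_one_of_lt_orderOf (by norm_num) (by rw [ho]; norm_num)
      have hu4 : u ^ 4 = 1 := by rw [← ho]; exact pow_orderOf_eq_one u
      refine no_central hG M h3 (u ^ 2) hu2 (hz8 _ (pow_mem hu 2)) (fun m hm => ?_)
      have hmem : m * u ^ 2 * m⁻¹ ∈ zpowers u := by
        rw [hOu]; exact hconj m hm _ (pow_mem hu 2)
      have hsq : (m * u ^ 2 * m⁻¹) * (m * u ^ 2 * m⁻¹) = 1 := by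
        have : (m * u ^ 2 * m⁻¹) * (m * u ^ 2 * m⁻¹) = m * u ^ 4 * m⁻¹ := by group
        rw [this, hu4]; group
      rcases sq_one_in_zp u _ ho hmem hsq with e | e
      · exfalso
        apply hu2
        have : u ^ 2 = m⁻¹ * (m * u ^ 2 * m⁻¹) * m := by group
        rw [this, e]; group
      · exact e
    · push Not at hex
      have hsq : ∀ x ∈ O, x ^ 2 = 1 := by
        intro x hx
        have hd : orderOf x ∣ 4 := h ▸ Subgroup.orderOf_dvd_natCard O hx
        have hne : orderOf x ≠ 4 := hex x hx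
        have hle := Nat.le_of_dvd (by norm_num) hd
        have hpos := orderOf_pos x
        have h12 : orderOf x ∣ 2 := by
          obtain ⟨c, hc⟩ : ∃ c, c = orderOf x := ⟨_, rfl⟩
          rw [← hc] at hd hne hle hpos ⊢
          clear hc
          interval_cases c <;> revert hd hne <;> decide
        exact orderOf_dvd_iff_pow_eq_one.mp h12
      have hK : IsKleinFour O := by
        refine ⟨h, ?_⟩
        have hnt : Nontrivial O := by rw [← Finite.one_lt_card_iff_nontrivial, h]; norm_num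
        rw [Monoid.exponent_eq_prime_iff Nat.prime_two]
        intro g hg1
        apply orderOf_eq_prime
        · exact Subtype.ext (by simpa using hsq g.1 g.2)
        · exact hg1
      exact ⟨O, hK, hMO⟩
  · exfalso
    have hOT' : O = (T : Subgroup G) := Subgroup.eq_of_le_of_card_ge hOT (by rw [h, hc2 T])
    have h1 := Subgroup.card_dvd_of_le hMO
    rw [hOT', hN2 T] at h1
    have : 3 ∣ 8 := h3.trans h1
    omega

theorem s3_in_s4 [IsSimpleGroup G] (hG : Nat.card G = 168) [Fact (Nat.Prime 2)]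
    [Fact (Nat.Prime 3)] [Fact (Nat.Prime 7)] (P : Sylow 3 G) :
    ∃ U : Subgroup G, IsKleinFour U ∧
      normalizer ((P : Subgroup G) : Set G) ≤ normalizer (U : Set G) := by
  obtain ⟨hc7, hc3, hc2, hn7, hn3, hn2, hN7, hN3, hN2, hnc⟩ := facts168 hG
  obtain ⟨T⟩ : Nonempty (Sylow 2 G) := inferInstance
  obtain ⟨K1, K2, hne, hset⟩ := klein_two hG T
  have hK1 : K1 ≤ (T : Subgroup G) ∧ IsKleinFour ↥K1 := by
    have : K1 ∈ ({K1, K2} : Set (Subgroup G)) := Set.mem_insert _ _
    rw [← hset] at this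
    exact this
  obtain ⟨-, hK⟩ := hK1
  obtain ⟨e⟩ := klein_normalizer hG K1 hK
  obtain ⟨c, hc⟩ : ∃ c, c = e.symm (Equiv.swap 0 1 * Equiv.swap 1 2) := ⟨_, rfl⟩
  obtain ⟨s, hs⟩ : ∃ s, s = e.symm (Equiv.swap 0 1) := ⟨_, rfl⟩
  have hc3' : c ^ 3 = 1 := by
    rw [hc, ← map_pow]
    have : (Equiv.swap (0 : Fin 4) 1 * Equiv.swap 1 2) ^ 3 = 1 := by decide
    rw [this, map_one]
  have hc1 : c ≠ 1 := by
    rw [hc]
    intro h
    have h0 : (Equiv.swap (0 : Fin 4) 1 * Equiv.swap 1 2) ≠ 1 := by decide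
    exact h0 ((MulEquiv.map_eq_one_iff e.symm).mp h)
  have hs2 : s ^ 2 = 1 := by
    rw [hs, ← map_pow]
    have : (Equiv.swap (0 : Fin 4) 1) ^ 2 = 1 := by decide
    rw [this, map_one]
  have hs1 : s ≠ 1 := by
    rw [hs]
    intro h
    have h0 : (Equiv.swap (0 : Fin 4) 1) ≠ 1 := by decide
    exact h0 ((MulEquiv.map_eq_one_iff e.symm).mp h)
  have hsc : s * c * s⁻¹ = c⁻¹ := by
    rw [hc, hs, ← map_inv, ← map_mul, ← map_mul, ← map_inv]
    congr 1
    decide
  obtain ⟨x, hx⟩ : ∃ x : G, x = (c : G) := ⟨_, rfl⟩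
  obtain ⟨y, hy⟩ : ∃ y : G, y = (s : G) := ⟨_, rfl⟩
  have hxN : x ∈ normalizer (K1 : Set G) := hx ▸ c.2
  have hyN : y ∈ normalizer (K1 : Set G) := hy ▸ s.2
  have hx3 : x ^ 3 = 1 := by
    rw [hx]; exact_mod_cast congrArg Subtype.val hc3'
  have hx1 : x ≠ 1 := by
    rw [hx]; intro h; exact hc1 (Subtype.ext h)
  have hy2 : y ^ 2 = 1 := by
    rw [hy]; exact_mod_cast congrArg Subtype.val hs2
  have hy1 : y ≠ 1 := by
    rw [hy]; intro h; exact hs1 (Subtype.ext h)
  have hyx : y * x * y⁻¹ = x⁻¹ := by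
    rw [hx, hy]; exact_mod_cast congrArg Subtype.val hsc
  have hox : orderOf x = 3 := orderOf_eq_prime hx3 hx1
  have hoy : orderOf y = 2 := orderOf_eq_prime hy2 hy1
  have hyy : y * y = 1 := by rw [← sq]; exact hy2
  have hyinv : y⁻¹ = y := inv_eq_of_mul_eq_one_left hyy
  have hpg : IsPGroup 3 (zpowers x) :=
    IsPGroup.of_card (n := 1) (by rw [Nat.card_zpowers, hox, pow_one])
  obtain ⟨Q, hQ⟩ := hpg.exists_le_sylow
  have hQx : zpowers x = (Q : Subgroup G) :=
    Subgroup.eq_of_le_of_card_ge hQ (by rw [hc3 Q, Nat.card_zpowers, hox])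
  have hmap : ∀ h ∈ zpowers x, y * h * y⁻¹ ∈ zpowers x := by
    intro h hh
    obtain ⟨k, rfl⟩ := Subgroup.mem_zpowers_iff.mp hh
    rw [← conj_zpow, hyx]
    exact zpow_mem (inv_mem (mem_zpowers x)) k
  have hyQ : y ∈ normalizer ((Q : Subgroup G) : Set G) := by
    rw [← hQx, Subgroup.mem_normalizer_iff]
    intro h
    refine ⟨hmap h, fun hh => ?_⟩
    have h1 := hmap _ hh
    have e1 : y * (y * h * y⁻¹) * y⁻¹ = h := by
      rw [hyinv]
      have : y * (y * h * y) * y = (y * y) * h * (y * y) := by group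
      rw [this, hyy, one_mul, mul_one]
    rwa [e1] at h1
  have hxQ : x ∈ normalizer ((Q : Subgroup G) : Set G) :=
    le_normalizer (hQ (mem_zpowers x))
  have hxD : x ∈ normalizer (K1 : Set G) ⊓ normalizer ((Q : Subgroup G) : Set G) := ⟨hxN, hxQ⟩
  have hyD : y ∈ normalizer (K1 : Set G) ⊓ normalizer ((Q : Subgroup G) : Set G) := ⟨hyN, hyQ⟩
  have h3D := Subgroup.orderOf_dvd_natCard _ hxD
  have h2D := Subgroup.orderOf_dvd_natCard _ hyD
  rw [hox] at h3D
  rw [hoy] at h2D
  have h6D : 2 * 3 ∣ Nat.card ↥(normalizer (K1 : Set G) ⊓ normalizer ((Q : Subgroup G) : Set G)) :=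
    Nat.Coprime.mul_dvd_of_dvd_of_dvd (by norm_num) h2D h3D
  have hDeq : normalizer (K1 : Set G) ⊓ normalizer ((Q : Subgroup G) : Set G) =
      normalizer ((Q : Subgroup G) : Set G) := by
    apply Subgroup.eq_of_le_of_card_ge inf_le_right
    rw [hN3 Q]
    exact Nat.le_of_dvd Nat.card_pos h6D
  have hNQ : normalizer ((Q : Subgroup G) : Set G) ≤ normalizer (K1 : Set G) := by
    rw [← hDeq]; exact inf_le_left
  obtain ⟨g, hg⟩ := sylow_cj Q P
  refine ⟨K1.map (MulAut.conj g).toMonoidHom, cj_klein K1 g hK, ?_⟩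
  rw [hg, ← cj_normalizer, ← cj_normalizer]
  exact Subgroup.map_mono hNQ

theorem le_klein_normalizer [IsSimpleGroup G] (hG : Nat.card G = 168) [Fact (Nat.Prime 2)]
    [Fact (Nat.Prime 3)] [Fact (Nat.Prime 7)] (M : Subgroup G) (h7 : ¬ 7 ∣ Nat.card M) :
    ∃ U : Subgroup G, IsKleinFour U ∧ M ≤ normalizer (U : Set G) := by
  obtain ⟨hc7, hc3, hc2, hn7, hn3, hn2, hN7, hN3, hN2, hnc⟩ := facts168 hG
  have hdvd : Nat.card M ∣ 7 * 24 := by
    have := Subgroup.card_subgroup_dvd_card M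
    rwa [hG] at this
  have hcop : Nat.Coprime (Nat.card M) 7 :=
    Nat.Coprime.symm ((Nat.Prime.coprime_iff_not_dvd (by norm_num)).mpr h7)
  have h24 : Nat.card M ∣ 24 := hcop.dvd_of_dvd_mul_left hdvd
  have hle := Nat.le_of_dvd (by norm_num) h24
  have hpos : 0 < Nat.card M := Nat.card_pos
  have hcases : (Nat.card M = 2 ^ 0 ∨ Nat.card M = 2 ^ 1 ∨ Nat.card M = 2 ^ 2 ∨
      Nat.card M = 2 ^ 3) ∨ (Nat.card M = 3 ^ 1 * 1 ∨ Nat.card M = 3 ^ 1 * 2) ∨
      (Nat.card M = 2 ^ 2 * 3 ∨ Nat.card M = 2 ^ 3 * 3) := by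
    obtain ⟨c, hc⟩ : ∃ c, c = Nat.card M := ⟨_, rfl⟩
    rw [← hc] at h24 hle hpos ⊢
    clear hc hcop hdvd h7
    interval_cases c <;> revert h24 <;> decide
  rcases hcases with h2 | h36 | h1224
  · -- a 2-group
    have hpg : IsPGroup 2 M := by
      rcases h2 with h | h | h | h
      · exact IsPGroup.of_card (n := 0) h
      · exact IsPGroup.of_card (n := 1) h
      · exact IsPGroup.of_card (n := 2) h
      · exact IsPGroup.of_card (n := 3) h
    obtain ⟨T, hMT⟩ := hpg.exists_le_sylow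
    obtain ⟨K1, K2, hne, hset⟩ := klein_two hG T
    have hK1 : K1 ≤ (T : Subgroup G) ∧ IsKleinFour ↥K1 := by
      have : K1 ∈ ({K1, K2} : Set (Subgroup G)) := Set.mem_insert _ _
      rw [← hset] at this
      exact this
    obtain ⟨hK1T, hK⟩ := hK1
    exact ⟨K1, hK, hMT.trans (le_normalizer_of_index_two K1 T hK1T
      (by rw [hc2 T, IsKleinFour.card_four]))⟩
  · -- order 3 or 6
    have hex : ∃ Q : Subgroup G, Q ≤ M ∧ Nat.card Q = 3 ^ 1 ∧ M ≤ normalizer (Q : Set G) := by
      rcases h36 with h | h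
      · exact sylow_normal_in (p := 3) M 1 1 (by norm_num) h (by
          intro n hn _; exact Nat.dvd_one.mp hn)
      · exact sylow_normal_in (p := 3) M 1 2 (by norm_num) h (by
          intro n hn hmod
          have := Nat.le_of_dvd (by norm_num) hn
          interval_cases n <;> simp_all)
    obtain ⟨Q, hQM, hQc, hMQ⟩ := hex
    have hpg : IsPGroup 3 Q := IsPGroup.of_card (n := 1) hQc
    obtain ⟨P, hQP⟩ := hpg.exists_le_sylow
    have hQP' : Q = (P : Subgroup G) :=
      Subgroup.eq_of_le_of_card_ge hQP (by rw [hc3 P, hQc]; norm_num)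
    obtain ⟨U, hU, hPU⟩ := s3_in_s4 hG P
    rw [hQP'] at hMQ
    exact ⟨U, hU, hMQ.trans hPU⟩
  · -- order 12 or 24
    have h3 : 3 ∣ Nat.card M := by
      rcases h1224 with h | h <;> rw [h] <;> norm_num
    have h12 : 12 ≤ Nat.card M := by
      rcases h1224 with h | h <;> rw [h] <;> norm_num
    obtain ⟨V⟩ : Nonempty (Sylow 2 M) := inferInstance
    have hidx : (V : Subgroup M).index = 3 := by
      rcases h1224 with h | h
      · exact sylow_index_of_card_eq 2 3 (by norm_num) h V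
      · exact sylow_index_of_card_eq 3 3 (by norm_num) h V
    have hcore : (V : Subgroup M).normalCore.index ∣ 6 := by
      have h6 : (V : Subgroup M).normalCore.index ∣ ((V : Subgroup M).index).factorial := by
        rw [Subgroup.normalCore_eq_ker, Subgroup.index_ker, Subgroup.index_eq_card,
          ← Nat.card_perm]
        exact Subgroup.card_subgroup_dvd_card _
      rw [hidx] at h6
      exact h6
    have hO1 : (V : Subgroup M).normalCore ≠ ⊥ := by
      intro hbot
      rw [hbot, Subgroup.index_bot] at hcore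
      have := Nat.le_of_dvd (by norm_num) hcore
      omega
    have hpO : IsPGroup 2 ((V : Subgroup M).normalCore) :=
      V.isPGroup'.to_le (Subgroup.normalCore_le _)
    have hpO' : IsPGroup 2 (((V : Subgroup M).normalCore).map M.subtype) := hpO.map M.subtype
    have hO1' : ((V : Subgroup M).normalCore).map M.subtype ≠ ⊥ := by
      intro hbot
      exact hO1 ((Subgroup.map_eq_bot_iff_of_injective _ M.subtype_injective).mp hbot)
    exact klein_of_normal_two hG M _ h3 hpO' hO1'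
      (le_normalizer_map_subtype M _ (Subgroup.normalCore_normal _))

theorem klein_norm_ne_top [IsSimpleGroup G] (hG : Nat.card G = 168) [Fact (Nat.Prime 2)]
    [Fact (Nat.Prime 3)] [Fact (Nat.Prime 7)] (U : Subgroup G) (hU : IsKleinFour U) :
    normalizer (U : Set G) ≠ ⊤ := by
  intro h
  have := klein_norm_card hG U hU
  rw [h, Subgroup.card_top, hG] at this
  norm_num at this

theorem coatom_cases [IsSimpleGroup G] (hG : Nat.card G = 168) [Fact (Nat.Prime 2)]
    [Fact (Nat.Prime 3)] [Fact (Nat.Prime 7)] (M : Subgroup G) (hM : IsCoatom M) :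
    (∃ P : Sylow 7 G, M = normalizer ((P : Subgroup G) : Set G)) ∨
    (∃ U : Subgroup G, IsKleinFour U ∧ M = normalizer (U : Set G)) := by
  obtain ⟨hc7, hc3, hc2, hn7, hn3, hn2, hN7, hN3, hN2, hnc⟩ := facts168 hG
  by_cases h7 : 7 ∣ Nat.card M
  · left
    have hle := card_le24 hG M hM.1
    obtain ⟨m, hm⟩ := h7
    have hm3 : m ≤ 3 := by omega
    have hpos : 0 < Nat.card M := Nat.card_pos
    have hm0 : 0 < m := by omega
    obtain ⟨Q, hQM, hQc, hMQ⟩ := sylow_normal_in (p := 7) M 1 m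
      (by intro h; have := Nat.le_of_dvd hm0 h; omega) (by rw [hm, pow_one])
      (by intro n hn hmod; have := Nat.le_of_dvd hm0 hn; omega)
    have hpg : IsPGroup 7 Q := IsPGroup.of_card (n := 1) hQc
    obtain ⟨P, hQP⟩ := hpg.exists_le_sylow
    have hQP' : Q = (P : Subgroup G) :=
      Subgroup.eq_of_le_of_card_ge hQP (by rw [hc7 P, hQc]; norm_num)
    refine ⟨P, ?_⟩
    rw [hQP'] at hMQ
    have hne : normalizer ((P : Subgroup G) : Set G) ≠ ⊤ := by
      intro h
      have := hN7 P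
      rw [h, Subgroup.card_top, hG] at this
      norm_num at this
    exact ((hM.le_iff_eq hne).mp hMQ).symm
  · right
    obtain ⟨U, hU, hMU⟩ := le_klein_normalizer hG M h7
    exact ⟨U, hU, ((hM.le_iff_eq (klein_norm_ne_top hG U hU)).mp hMU).symm⟩

theorem coatom_of_card24 [IsSimpleGroup G] (hG : Nat.card G = 168) [Fact (Nat.Prime 2)]
    [Fact (Nat.Prime 3)] [Fact (Nat.Prime 7)] (N : Subgroup G) (hN : Nat.card N = 24) :
    IsCoatom N := by
  have hne : N ≠ ⊤ := by
    intro h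
    rw [h, Subgroup.card_top, hG] at hN
    norm_num at hN
  refine ⟨hne, fun H hlt => ?_⟩
  by_contra hH
  have h1 := card_le24 hG H hH
  have h3 : N = H := Subgroup.eq_of_le_of_card_ge hlt.le (by rw [hN]; exact h1)
  exact hlt.ne h3

theorem klein_eq_of_normalizer_eq [IsSimpleGroup G] (hG : Nat.card G = 168)
    [Fact (Nat.Prime 2)] [Fact (Nat.Prime 3)] [Fact (Nat.Prime 7)] (U W : Subgroup G)
    (hU : IsKleinFour U) (hW : IsKleinFour W)
    (h : normalizer (U : Set G) = normalizer (W : Set G)) : U = W := by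
  obtain ⟨hc7, hc3, hc2, hn7, hn3, hn2, hN7, hN3, hN2, hnc⟩ := facts168 hG
  by_contra hne
  have hpU : IsPGroup 2 U := IsPGroup.of_card (n := 2) (by rw [IsKleinFour.card_four]; norm_num)
  have hpW : IsPGroup 2 W := IsPGroup.of_card (n := 2) (by rw [IsKleinFour.card_four]; norm_num)
  have hUW : U ≤ normalizer (W : Set G) := h ▸ le_normalizer
  have hp : IsPGroup 2 (U ⊔ W : Subgroup G) := IsPGroup.to_sup_of_normal_right' hpU hpW hUW
  obtain ⟨T, hT⟩ := hp.exists_le_sylow
  have hd : Nat.card (U ⊔ W : Subgroup G) ∣ 8 := hc2 T ▸ Subgroup.card_dvd_of_le hT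
  have h4 : 4 ∣ Nat.card (U ⊔ W : Subgroup G) := by
    have := Subgroup.card_dvd_of_le (le_sup_left : U ≤ U ⊔ W)
    rwa [IsKleinFour.card_four] at this
  have hne4 : Nat.card (U ⊔ W : Subgroup G) ≠ 4 := by
    intro h4'
    have e1 : U = U ⊔ W :=
      Subgroup.eq_of_le_of_card_ge le_sup_left (by rw [h4', IsKleinFour.card_four])
    have e2 : W = U ⊔ W :=
      Subgroup.eq_of_le_of_card_ge le_sup_right (by rw [h4', IsKleinFour.card_four])
    exact hne (e1.trans e2.symm)
  have h8 : Nat.card (U ⊔ W : Subgroup G) = 8 := by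
    have hle := Nat.le_of_dvd (by norm_num) hd
    have hpos : 0 < Nat.card (U ⊔ W : Subgroup G) := Nat.card_pos
    obtain ⟨k, hk⟩ := h4
    omega
  have hST : (U ⊔ W : Subgroup G) = (T : Subgroup G) :=
    Subgroup.eq_of_le_of_card_ge hT (by rw [h8, hc2 T])
  have hN : normalizer (U : Set G) ≤ normalizer (((U ⊔ W : Subgroup G)) : Set G) := by
    intro n hn
    have hn' : n ∈ normalizer (W : Set G) := h ▸ hn
    rw [Subgroup.mem_normalizer_iff_map_conj_eq] at hn hn' ⊢
    rw [Subgroup.map_sup, hn, hn']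
  have hcard := Subgroup.card_le_of_le hN
  rw [klein_norm_card hG U hU, hST, hN2 T] at hcard
  omega

theorem normalizer7_not_comm [IsSimpleGroup G] (hG : Nat.card G = 168) [Fact (Nat.Prime 2)]
    [Fact (Nat.Prime 3)] [Fact (Nat.Prime 7)] (P : Sylow 7 G) :
    ¬ IsMulCommutative ↥(normalizer ((P : Subgroup G) : Set G)) := by
  obtain ⟨hc7, hc3, hc2, hn7, hn3, hn2, hN7, hN3, hN2, hnc⟩ := facts168 hG
  intro hcomm
  have h3 : 3 ∣ Nat.card (normalizer ((P : Subgroup G) : Set G)) := by rw [hN7 P]; norm_num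
  have h7 : 7 ∣ Nat.card (normalizer ((P : Subgroup G) : Set G)) := by rw [hN7 P]; norm_num
  obtain ⟨x, hx⟩ :=
    exists_prime_orderOf_dvd_card' (G := ↥(normalizer ((P : Subgroup G) : Set G))) 3 h3
  obtain ⟨t, ht⟩ :=
    exists_prime_orderOf_dvd_card' (G := ↥(normalizer ((P : Subgroup G) : Set G))) 7 h7
  have hcm : (t : G) * (x : G) = (x : G) * (t : G) :=
    congrArg Subtype.val (hcomm.is_comm.comm t x)
  have hx3 : orderOf (x : G) = 3 := by rw [Subgroup.orderOf_coe]; exact hx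
  have ht7 : orderOf (t : G) = 7 := by rw [Subgroup.orderOf_coe]; exact ht
  have hmem := commute_mem_zpowers (p := 7) (q := 3) Nat.prime_three hc7
    (by rw [hG]; norm_num) (fun P => by rw [hN7 P]) (t : G) (x : G) ht7 hcm
  have hd : orderOf (x : G) ∣ 7 := by
    have := Subgroup.orderOf_dvd_natCard (zpowers (t : G)) hmem
    rwa [Nat.card_zpowers, ht7] at this
  rw [hx3] at hd
  norm_num at hd

end aux


/-- In a simple group of order 168 every maximal subgroup is either isomorphic to the symmetric group of degree 4 or non-abelian of order 21; the maximal subgroups of order 21 form one conjugacy class and those isomorphic to the symmetric group of degree 4 form exactly two conjugacy classes. -/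
theorem result {G : Type*} [Group G] [Finite G] [IsSimpleGroup G] (h : Nat.card G = 168) : (∀ M : Subgroup G, IsCoatom M → Nonempty (↥M ≃* Equiv.Perm (Fin 4)) ∨ (Nat.card ↥M = 21 ∧ ¬ IsMulCommutative ↥M)) ∧ (∀ M M' : Subgroup G, IsCoatom M → IsCoatom M' → Nat.card ↥M = 21 → Nat.card ↥M' = 21 → ∃ g : G, M' = M.map (MulAut.conj g).toMonoidHom) ∧ ∃ M₁ M₂ : Subgroup G, IsCoatom M₁ ∧ IsCoatom M₂ ∧ Nonempty (↥M₁ ≃* Equiv.Perm (Fin 4)) ∧ Nonempty (↥M₂ ≃* Equiv.Perm (Fin 4)) ∧ (∀ g : G, M₂ ≠ M₁.map (MulAut.conj g).toMonoidHom) ∧ ∀ M : Subgroup G, IsCoatom M → Nonempty (↥M ≃* Equiv.Perm (Fin 4)) → ∃ g : G, M = M₁.map (MulAut.conj g).toMonoidHom ∨ M = M₂.map (MulAut.conj g).toMonoidHom := by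
  have p2 : Fact (Nat.Prime 2) := ⟨Nat.prime_two⟩
  have p3 : Fact (Nat.Prime 3) := ⟨Nat.prime_three⟩
  have p7 : Fact (Nat.Prime 7) := ⟨by norm_num⟩
  obtain ⟨hc7, hc3, hc2, hn7, hn3, hn2, hN7, hN3, hN2, hnc⟩ := facts168 h
  refine ⟨?_, ?_, ?_⟩
  · intro M hM
    rcases coatom_cases h M hM with ⟨P, rfl⟩ | ⟨U, hU, rfl⟩
    · right
      exact ⟨hN7 P, normalizer7_not_comm h P⟩
    · left
      exact klein_normalizer h U hU
  · intro M M' hM hM' hc hc'
    rcases coatom_cases h M hM with ⟨P, rfl⟩ | ⟨U, hU, rfl⟩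
    · rcases coatom_cases h M' hM' with ⟨P', rfl⟩ | ⟨U', hU', rfl⟩
      · obtain ⟨g, hg⟩ := sylow_cj P P'
        exact ⟨g, by rw [hg, cj_normalizer]⟩
      · rw [klein_norm_card h U' hU'] at hc'
        norm_num at hc'
    · rw [klein_norm_card h U hU] at hc
      norm_num at hc
  · obtain ⟨T⟩ : Nonempty (Sylow 2 G) := inferInstance
    obtain ⟨K1, K2, hne, hset⟩ := klein_two h T
    have hK1 : K1 ≤ (T : Subgroup G) ∧ IsKleinFour ↥K1 := by
      have : K1 ∈ ({K1, K2} : Set (Subgroup G)) := Set.mem_insert _ _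
      rw [← hset] at this
      exact this
    have hK2 : K2 ≤ (T : Subgroup G) ∧ IsKleinFour ↥K2 := by
      have : K2 ∈ ({K1, K2} : Set (Subgroup G)) := Set.mem_insert_of_mem _ rfl
      rw [← hset] at this
      exact this
    refine ⟨normalizer (K1 : Set G), normalizer (K2 : Set G),
      coatom_of_card24 h _ (klein_norm_card h K1 hK1.2),
      coatom_of_card24 h _ (klein_norm_card h K2 hK2.2),
      klein_normalizer h K1 hK1.2, klein_normalizer h K2 hK2.2, ?_, ?_⟩
    · intro g hg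
      rw [cj_normalizer] at hg
      have heq := klein_eq_of_normalizer_eq h K2 (K1.map (MulAut.conj g).toMonoidHom) hK2.2
        (cj_klein K1 g hK1.2) hg
      exact klein_not_conj h T K1 K2 hK1.1 hK2.1 hK1.2 hK2.2 hne g heq.symm
    · rintro M hM ⟨e⟩
      rcases coatom_cases h M hM with ⟨P, rfl⟩ | ⟨U, hU, rfl⟩
      · exfalso
        have hcard := Nat.card_congr e.toEquiv
        rw [hN7 P, Nat.card_perm, Nat.card_fin] at hcard
        revert hcard
        decide
      · have hpU : IsPGroup 2 U :=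
          IsPGroup.of_card (n := 2) (by rw [IsKleinFour.card_four]; norm_num)
        obtain ⟨T', hT'⟩ := hpU.exists_le_sylow
        obtain ⟨g, hg⟩ := sylow_cj T T'
        have hU' : U.map (MulAut.conj g⁻¹).toMonoidHom ≤ (T : Subgroup G) := by
          have := Subgroup.map_mono (f := (MulAut.conj g⁻¹).toMonoidHom) hT'
          rwa [hg, cj_cj] at this
        have hmem : U.map (MulAut.conj g⁻¹).toMonoidHom ∈ ({K1, K2} : Set (Subgroup G)) := by
          rw [← hset]; exact ⟨hU', cj_klein U g⁻¹ hU⟩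
        have hUeq := cj_cj' U g
        refine ⟨g, ?_⟩
        rcases hmem with e1 | e1
        · left
          rw [cj_normalizer, ← e1, hUeq]
        · right
          rw [Set.mem_singleton_iff] at e1
          rw [cj_normalizer, ← e1, hUeq]

end Cfsg.Agent.S1008
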