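import Cfsg.Statements.S1009
import Mathlib.Data.Fintype.Lattice

set_option autoImplicit false
open Pointwise
open Cfsg

namespace Cfsg.Agent.S1009

theorem comm_le_normalizer {G : Type*} [Group G] {P D : Subgroup G}
    (hP : IsMulCommutative ↥P) (hD : D ≤ P) : P ≤ Subgroup.normalizer (D : Set G) := by
  have hc : ∀ x ∈ P, ∀ y ∈ P, x * y = y * x := by
    intro x hx y hy
    have := (isMulCommutative_iff.mp hP) ⟨x, hx⟩ ⟨y, hy⟩
    exact congrArg Subtype.val this
  intro x hx
  rw [Subgroup.mem_normalizer_iff]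
  intro d
  constructor
  · intro hd
    rw [hc x hx d (hD hd), mul_inv_cancel_right]
    exact hd
  · intro hd
    have h1 := hc x⁻¹ (inv_mem hx) _ (hD hd)
    have h2 : d = x⁻¹ * (x * d * x⁻¹) * x := by group
    rw [h2, h1, mul_assoc, inv_mul_cancel, mul_one]
    exact hd

/-- Brodkey's Theorem: if a finite group has abelian Sylow p-subgroups, then there are two Sylow p-subgroups whose intersection equals the intersection of all Sylow p-subgroups. -/
theorem result {G : Type*} [Group G] [Finite G] (p : ℕ) [Fact p.Prime] (hab : ∀ P : Sylow p G, IsMulCommutative ↥(P : Subgroup G)) : ∃ P Q : Sylow p G, (P : Subgroup G) ⊓ (Q : Subgroup G) = ⨅ R : Sylow p G, (R : Subgroup G) := by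
  classical
  obtain ⟨⟨P, Q⟩, hmin⟩ := Finite.exists_min
    (fun pq : Sylow p G × Sylow p G => Nat.card ↥((pq.1 : Subgroup G) ⊓ (pq.2 : Subgroup G)))
  refine ⟨P, Q, le_antisymm ?_ (le_inf (iInf_le _ P) (iInf_le _ Q))⟩
  rw [le_iInf_iff]
  intro R
  set D := (P : Subgroup G) ⊓ (Q : Subgroup G) with hD
  set N := Subgroup.normalizer (D : Set G) with hN
  have hPN : (P : Subgroup G) ≤ N := comm_le_normalizer (hab P) inf_le_left
  have hQN : (Q : Subgroup G) ≤ N := comm_le_normalizer (hab Q) inf_le_right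
  have hH : IsPGroup p ↥(((R : Subgroup G) ⊓ N).subgroupOf N) :=
    (R.isPGroup'.to_le inf_le_left).comap_subtype
  obtain ⟨S, hS⟩ := hH.exists_le_sylow
  obtain ⟨n, hn⟩ := MulAction.exists_smul_eq N S (P.subtype hPN)
  have key : ∀ x ∈ (R : Subgroup G), x ∈ N → (n : G) * x * (n : G)⁻¹ ∈ (P : Subgroup G) := by
    intro x hxR hxN
    have h1 : (⟨x, hxN⟩ : N) ∈ (S : Subgroup N) :=
      hS (Subgroup.mem_subgroupOf.mpr (Subgroup.mem_inf.mpr ⟨hxR, hxN⟩))
    have h2 : MulAut.conj n • (⟨x, hxN⟩ : N) ∈ MulAut.conj n • (S : Subgroup N) :=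
      Subgroup.smul_mem_pointwise_smul _ _ _ h1
    have h3 : (MulAut.conj n • (S : Subgroup N)) = ((P.subtype hPN : Sylow p N) : Subgroup N) := by
      rw [← hn]; rfl
    rw [h3, Sylow.coe_subtype, Subgroup.mem_subgroupOf] at h2
    simpa using h2
  have hle : (((n : G) • R : Sylow p G) : Subgroup G) ⊓ (Q : Subgroup G) ≤ D := by
    intro y hy
    obtain ⟨hy1, hy2⟩ := Subgroup.mem_inf.mp hy
    rw [Sylow.coe_subgroup_smul, Subgroup.mem_pointwise_smul_iff_inv_smul_mem] at hy1
    have hx : (n : G)⁻¹ * y * (n : G) ∈ (R : Subgroup G) := by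
      simpa [MulAut.smul_def] using hy1
    have hxN : (n : G)⁻¹ * y * (n : G) ∈ N := mul_mem (mul_mem (inv_mem n.2) (hQN hy2)) n.2
    have := key _ hx hxN
    refine Subgroup.mem_inf.mpr ⟨?_, hy2⟩
    simpa [mul_assoc] using this
  have heq : (((n : G) • R : Sylow p G) : Subgroup G) ⊓ (Q : Subgroup G) = D :=
    Subgroup.eq_of_le_of_card_ge hle (hmin ((n : G) • R, Q))
  intro d hd
  have hd' : (n : G) * d * (n : G)⁻¹ ∈ D := (Subgroup.mem_normalizer_iff.mp n.2 d).mp hd
  rw [← heq] at hd'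
  have h5 := (Subgroup.mem_inf.mp hd').1
  rw [Sylow.coe_subgroup_smul, Subgroup.mem_pointwise_smul_iff_inv_smul_mem] at h5
  simpa [MulAut.smul_def, mul_assoc] using h5

end Cfsg.Agent.S1009
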