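import Cfsg.Statements.S1010
-- import your own Cfsg.Agent.* helpers here
import Mathlib
import Cfsg.Agent.Lib.Lead.Syl21C

set_option autoImplicit false
open Cfsg

namespace Cfsg.Agent.S1010


open Cfsg.Agent.Lib.Lead.SylowTwoP

universe u

local instance fact5 : Fact (Nat.Prime 5) := ⟨by norm_num⟩

theorem main_aux : ∀ (n : ℕ) (G : Type u) [Group G] [Finite G], Nat.card G = n →
    Nat.card (Sylow 5 G) ≠ 21 := by
  intro n
  induction n using Nat.strong_induction_on with
  | _ n ih =>
    intro G _ _ hn h21
    obtain ⟨hF1, hF⟩ := minimal_facts (p := 5) 21 n ih hn h21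
    exact Cfsg.Agent.Lib.Lead.Syl21.Min21.contra ⟨h21, hF1, hF⟩



/-- No finite group has exactly twenty-one Sylow 5-subgroups. -/
theorem result {G : Type*} [Group G] [Finite G] : Nat.card (Sylow 5 G) ≠ 21 := by
  exact main_aux _ G rfl

end Cfsg.Agent.S1010
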