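import Cfsg.Statements.S1014
-- import your own Cfsg.Agent.* helpers here
import Mathlib
import Cfsg.Agent.Lib.Lead.SimpleSylB

set_option autoImplicit false
open Cfsg

namespace Cfsg.Agent.S1014

set_option linter.style.haveILetI false
set_option linter.unusedVariables false

open Cfsg.Agent.Lib.Lead.SimpleSyl Cfsg.Agent.Lib.Helper8


/-- No finite simple group has order 1104 = 2^4 * 3 * 23. -/
theorem result {G : Type*} [Group G] [Finite G] [IsSimpleGroup G] : Nat.card G ≠ 1104 := by
  intro hG
  classical
  haveI : Fact (Nat.Prime 23) := ⟨by norm_num⟩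
  have hnc : ¬ IsMulCommutative G := not_comm_of_not_prime (by rw [hG]; norm_num)
  have hG' : Nat.card G = 23 ^ 1 * 48 := by rw [hG]; norm_num
  obtain ⟨hd, hmod, hne⟩ := sylow_facts (G := G) 23 1 48 le_rfl (by norm_num) (by norm_num) hG'
  have hle : Nat.card (Sylow 23 G) ≤ 48 := Nat.le_of_dvd (by norm_num) hd
  have h24 : Nat.card (Sylow 23 G) = 24 := by
    generalize Nat.card (Sylow 23 G) = n at *
    interval_cases n <;> simp_all (config := {decide := true})
  obtain ⟨P⟩ : Nonempty (Sylow 23 G) := inferInstance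
  have hPc : Nat.card ↥(P : Subgroup G) = 23 := by
    have := sylow_card_of_card_eq 1 48 (by norm_num) hG' P
    simpa using this
  have hNc : Nat.card ↥(Subgroup.normalizer ((P : Subgroup G) : Set G)) = 46 := by
    have := card_sylow_mul_card_normalizer P
    rw [h24, hG] at this
    omega
  have hab := sylow_le_centralizer 23 1 (Or.inl rfl) P (by rw [hPc, pow_one])
  have hN := not_normalizer_le_centralizer_of_simple P (by rw [hPc]; norm_num)
    (by rw [hPc, hG]; norm_num)
  obtain ⟨g, s, e, hs, hs23, he, hgN, hgC, hgo⟩ := exists_elt_of_not_le 23 P hab hN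
  have hdiv : s ^ e ∣ 46 := by
    rw [← hgo, ← hNc]
    have h1 : orderOf (⟨g, hgN⟩ : ↥(Subgroup.normalizer ((P : Subgroup G) : Set G))) =
        orderOf g := Subgroup.orderOf_mk g hgN
    rw [← h1]
    exact orderOf_dvd_natCard _
  have hs2 : s = 2 := by
    have h1 : s ∣ 46 := (dvd_pow_self s he).trans hdiv
    have h2 : s ≤ 46 := Nat.le_of_dvd (by norm_num) h1
    interval_cases s <;> simp_all (config := {decide := true})
  subst hs2
  have he1 : e = 1 := by
    by_contra h
    have h2 : 2 ≤ e := by omega
    have h4 : 2 ^ 2 ∣ 46 := (pow_dvd_pow 2 h2).trans hdiv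
    norm_num at h4
  subst he1
  have ht2 : g ^ 2 = 1 := by
    have := pow_orderOf_eq_one g
    rw [hgo, pow_one] at this
    exact this
  have := invol_normalizer_mod_four hnc 23 (by norm_num) (by rw [h24]) P hPc g ht2 hgN hgC
  norm_num at this

end Cfsg.Agent.S1014
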