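import Cfsg.Statements.S1015
-- import your own Cfsg.Agent.* helpers here
import Mathlib
import Cfsg.Agent.Lib.Lead.SimpleSyl
import Cfsg.Agent.S0985

set_option autoImplicit false
open Cfsg

namespace Cfsg.Agent.S1015

set_option linter.style.haveILetI false
set_option linter.unusedVariables false

open Cfsg.Agent.Lib.Lead.SimpleSyl Cfsg.Agent.Lib.Helper8


/-- No finite simple group has order 1200 = 2^4 * 3 * 5^2. -/
theorem result {G : Type*} [Group G] [Finite G] [IsSimpleGroup G] : Nat.card G ≠ 1200 := by
  intro hG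
  classical
  haveI : Fact (Nat.Prime 5) := ⟨by norm_num⟩
  have hnc : ¬ IsMulCommutative G := not_comm_of_not_prime (by rw [hG]; norm_num)
  have hG' : Nat.card G = 5 ^ 2 * 48 := by rw [hG]; norm_num
  obtain ⟨hd, hmod, hne⟩ := sylow_facts (G := G) 5 2 48 (by norm_num) (by norm_num) (by norm_num) hG'
  have hfd := fact_dvd hnc 5 hne
  have hle : Nat.card (Sylow 5 G) ≤ 48 := Nat.le_of_dvd (by norm_num) hd
  rw [hG] at hfd
  have h16 : Nat.card (Sylow 5 G) = 16 := by
    generalize Nat.card (Sylow 5 G) = n at *
    interval_cases n <;> simp_all (config := {decide := true})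
  obtain ⟨P, R, hPR, hidx⟩ := Cfsg.Agent.S0985.result (G := G) 5 2 (by rw [h16]; decide)
  have hPc : Nat.card ↥(P : Subgroup G) = 5 ^ 2 := sylow_card_of_card_eq 2 48 (by norm_num) hG' P
  have hRc : Nat.card ↥(R : Subgroup G) = 5 ^ 2 := sylow_card_of_card_eq 2 48 (by norm_num) hG' R
  have hRi : (R : Subgroup G).index = 48 := sylow_index_of_card_eq 2 48 (by norm_num) hG' R
  have hi : (R : Subgroup G).relIndex (P : Subgroup G) = 5 := by
    have h1 : (R : Subgroup G).relIndex (P : Subgroup G) ≤ 5 := hidx
    have h2 : (R : Subgroup G).relIndex (P : Subgroup G) ∣ 25 := by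
      have := Subgroup.relIndex_dvd_card (R : Subgroup G) (P : Subgroup G)
      rw [hPc] at this
      exact this
    have h3 : (R : Subgroup G).relIndex (P : Subgroup G) ≠ 1 := by
      intro h
      have hle : (P : Subgroup G) ≤ R := Subgroup.relIndex_eq_one.mp h
      apply hPR
      apply Sylow.ext
      exact Subgroup.eq_of_le_of_card_ge hle (by rw [hPc, hRc])
    generalize (R : Subgroup G).relIndex (P : Subgroup G) = i at *
    have hi0 : i ≠ 0 := by rintro rfl; simp at h2
    interval_cases i <;> simp_all (config := {decide := true})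
  -- D = P ⊓ R
  have hDbot : (P : Subgroup G) ⊓ R ≠ ⊥ := by
    intro h
    have h1 : ((R : Subgroup G) ⊓ P).relIndex (P : Subgroup G) = (R : Subgroup G).relIndex P :=
      Subgroup.inf_relIndex_right _ _
    rw [inf_comm, h, Subgroup.relIndex_bot_left, hPc, hi] at h1
    norm_num at h1
  have hPcen := sylow_le_centralizer 5 2 (Or.inr rfl) P hPc
  have hRcen := sylow_le_centralizer 5 2 (Or.inr rfl) R hRc
  have hPN : (P : Subgroup G) ≤ Subgroup.normalizer ((((P : Subgroup G) ⊓ R : Subgroup G)) : Set G) := by
    refine le_trans ?_ (Subgroup.centralizer_le_normalizer _)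
    exact hPcen.trans (Subgroup.centralizer_le (by
      intro x hx
      exact hx.1))
  have hRN : (R : Subgroup G) ≤ Subgroup.normalizer ((((P : Subgroup G) ⊓ R : Subgroup G)) : Set G) := by
    refine le_trans ?_ (Subgroup.centralizer_le_normalizer _)
    exact hRcen.trans (Subgroup.centralizer_le (by
      intro x hx
      exact hx.2))
  have hKtop : Subgroup.normalizer ((((P : Subgroup G) ⊓ R : Subgroup G)) : Set G) ≠ ⊤ := by
    intro htop
    have hnorm : ((P : Subgroup G) ⊓ R).Normal := Subgroup.normalizer_eq_top_iff.mp htop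
    rcases hnorm.eq_bot_or_eq_top with h | h
    · exact hDbot h
    · have h1 : Nat.card ↥((P : Subgroup G) ⊓ R) ≤ Nat.card ↥(P : Subgroup G) :=
        Subgroup.card_le_of_le inf_le_left
      rw [h, Subgroup.card_top, hG, hPc] at h1
      norm_num at h1
  have hF := two_mul_card_dvd_factorial_of_simple hnc _ hKtop
  have h1 : (R : Subgroup G).relIndex (P : Subgroup G) ≤
      (R : Subgroup G).relIndex (Subgroup.normalizer ((((P : Subgroup G) ⊓ R : Subgroup G)) : Set G)) :=
    Subgroup.relIndex_le_of_le_right hPN (by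
      unfold Subgroup.relIndex; exact Subgroup.index_ne_zero_of_finite)
  have h2 := Subgroup.relIndex_mul_index hRN
  rw [hRi] at h2
  rw [hi] at h1
  rw [hG] at hF
  generalize (Subgroup.normalizer ((((P : Subgroup G) ⊓ R : Subgroup G)) : Set G)).index = k at *
  generalize (R : Subgroup G).relIndex
    (Subgroup.normalizer ((((P : Subgroup G) ⊓ R : Subgroup G)) : Set G)) = r at *
  have hk : k ≤ 9 := by
    by_contra hk
    have : 5 * 10 ≤ r * k := Nat.mul_le_mul h1 (by omega)
    omega
  interval_cases k <;> simp_all (config := {decide := true})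

end Cfsg.Agent.S1015
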