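import Cfsg.Statements.S1016
-- import your own Cfsg.Agent.* helpers here
import Mathlib
import Cfsg.Agent.Lib.Lead.SimpleSylD

set_option autoImplicit false
open Cfsg

namespace Cfsg.Agent.S1016


set_option linter.style.haveILetI false
set_option linter.unusedVariables false
set_option maxHeartbeats 1000000

open Cfsg.Agent.Lib.Lead.SimpleSyl Cfsg.Agent.Lib.Helper8 Cfsg.Agent.Lib.Lead.SylowTwoP



/-- No finite simple group has order 1440 = 2^5 * 3^2 * 5. -/
theorem result {G : Type*} [Group G] [Finite G] [IsSimpleGroup G] : Nat.card G ≠ 1440 := by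
  intro hG
  classical
  haveI : Fact (Nat.Prime 5) := ⟨by norm_num⟩
  haveI : Fact (Nat.Prime 3) := ⟨by norm_num⟩
  haveI : Fact (Nat.Prime 2) := ⟨by norm_num⟩
  have hnc : ¬ IsMulCommutative G := not_comm_of_not_prime (by rw [hG]; norm_num)
  have hG' : Nat.card G = 5 ^ 1 * 288 := by rw [hG]; norm_num
  obtain ⟨hd, hmod, hne⟩ := sylow_facts (G := G) 5 1 288 le_rfl (by norm_num) (by norm_num) hG'
  have hn : Nat.card (Sylow 5 G) = 6 ∨ Nat.card (Sylow 5 G) = 16 ∨
      Nat.card (Sylow 5 G) = 36 ∨ Nat.card (Sylow 5 G) = 96 := by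
    have hmem : Nat.card (Sylow 5 G) ∈ Nat.divisors 288 := Nat.mem_divisors.mpr ⟨hd, by norm_num⟩
    generalize Nat.card (Sylow 5 G) = n at *
    simp only [Nat.divisors_ofNat, Finset.mem_insert, Finset.mem_singleton] at hmem
    omega
  obtain ⟨P⟩ : Nonempty (Sylow 5 G) := inferInstance
  have hPc : ∀ R : Sylow 5 G, Nat.card ↥(R : Subgroup G) = 5 := by
    intro R
    have := sylow_card_of_card_eq 1 288 (by norm_num) hG' R
    simpa using this
  have hNmul : ∀ R : Sylow 5 G, Nat.card (Sylow 5 G) *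
      Nat.card ↥(Subgroup.normalizer ((R : Subgroup G) : Set G)) = 1440 := by
    intro R
    have := card_sylow_mul_card_normalizer R
    rw [hG] at this
    exact this
  have hab : ∀ R : Sylow 5 G,
      (R : Subgroup G) ≤ Subgroup.centralizer ((R : Subgroup G) : Set G) :=
    fun R => sylow_le_centralizer 5 1 (Or.inl rfl) R (by rw [hPc R, pow_one])
  have hCN : ∀ R : Sylow 5 G, Subgroup.centralizer ((R : Subgroup G) : Set G) ≤
      Subgroup.normalizer ((R : Subgroup G) : Set G) :=
    fun R => Subgroup.centralizer_le_normalizer _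
  have hrel : ∀ R : Sylow 5 G, (Subgroup.centralizer ((R : Subgroup G) : Set G)).relIndex
      (Subgroup.normalizer ((R : Subgroup G) : Set G)) *
      Nat.card ↥(Subgroup.centralizer ((R : Subgroup G) : Set G)) =
      Nat.card ↥(Subgroup.normalizer ((R : Subgroup G) : Set G)) :=
    fun R => relIndex_mul_card_of_le (hCN R)
  have hrel4 : ∀ R : Sylow 5 G, (Subgroup.centralizer ((R : Subgroup G) : Set G)).relIndex
      (Subgroup.normalizer ((R : Subgroup G) : Set G)) ∣ 4 := by
    intro R
    haveI : IsCyclic ↥(R : Subgroup G) := isCyclic_of_prime_card (hPc R)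
    have h1 := relIndex_centralizer_normalizer_dvd_totient (R : Subgroup G)
    rw [hPc R] at h1
    have h6 : Nat.totient 5 = 4 := by decide
    rw [h6] at h1
    exact h1
  have hrel1 : ∀ R : Sylow 5 G, (Subgroup.centralizer ((R : Subgroup G) : Set G)).relIndex
      (Subgroup.normalizer ((R : Subgroup G) : Set G)) ≠ 1 := by
    intro R h
    apply not_normalizer_le_centralizer_of_simple R (by rw [hPc R]; norm_num)
      (by rw [hPc R, hG]; norm_num)
    exact Subgroup.relIndex_eq_one.mp h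
  have h6 : Nat.card (Sylow 5 G) ≠ 6 := by
    intro h
    have h1 := fact_dvd hnc 5 hne
    rw [h, hG] at h1
    have h2 : Nat.factorial 6 = 720 := by decide
    rw [h2] at h1
    omega
  have h96 : Nat.card (Sylow 5 G) ≠ 96 := by
    intro h
    have hN := hNmul P
    rw [h] at hN
    have hNc : Nat.card ↥(Subgroup.normalizer ((P : Subgroup G) : Set G)) = 15 := by omega
    have h1 := hrel P
    rw [hNc] at h1
    have h2 := hrel4 P
    have h3 := hrel1 P
    generalize (Subgroup.centralizer ((P : Subgroup G) : Set G)).relIndex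
      (Subgroup.normalizer ((P : Subgroup G) : Set G)) = k at h1 h2 h3
    have hk : k ≤ 4 := Nat.le_of_dvd (by norm_num) h2
    interval_cases k <;> omega
  have h16 : Nat.card (Sylow 5 G) ≠ 16 := by
    intro h
    have hN := hNmul P
    rw [h] at hN
    have hNc : Nat.card ↥(Subgroup.normalizer ((P : Subgroup G) : Set G)) = 90 := by omega
    have h1 := hrel P
    rw [hNc] at h1
    have h2 := hrel4 P
    have h3 := hrel1 P
    have hC45 : Nat.card ↥(Subgroup.centralizer ((P : Subgroup G) : Set G)) = 45 := by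
      generalize (Subgroup.centralizer ((P : Subgroup G) : Set G)).relIndex
        (Subgroup.normalizer ((P : Subgroup G) : Set G)) = k at h1 h2 h3
      have hk : k ≤ 4 := Nat.le_of_dvd (by norm_num) h2
      interval_cases k <;> omega
    obtain ⟨Q0, hQ0⟩ := Sylow.exists_subgroup_card_pow_prime
      (G := ↥(Subgroup.centralizer ((P : Subgroup G) : Set G))) 3 (n := 2)
      (by rw [hC45]; norm_num)
    obtain ⟨Q, hQ⟩ : ∃ Q : Subgroup G,
        Q = Q0.map (Subgroup.centralizer ((P : Subgroup G) : Set G)).subtype := ⟨_, rfl⟩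
    have hQC : Q ≤ Subgroup.centralizer ((P : Subgroup G) : Set G) := by
      rw [hQ]
      exact Subgroup.map_subtype_le Q0
    have hQc : Nat.card ↥Q = 9 := by
      rw [hQ, Subgroup.card_map_of_injective (Subgroup.subtype_injective _), hQ0]
      norm_num
    have hdvd := cent_free_dvd 5 P Q (hQC.trans (hCN P)) (by
      intro x hx hx1 R hxR
      have hx9 : x ^ 3 ^ 2 = 1 := by
        have h7 : (⟨x, hx⟩ : ↥Q) ^ Nat.card ↥Q = 1 := pow_card_eq_one'
        rw [hQc] at h7
        have h8 : x ^ 9 = 1 := congrArg Subtype.val h7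
        have h9 : (3 : ℕ) ^ 2 = 9 := by norm_num
        rw [h9]
        exact h8
      have e1 := fx_cent_mod 5 P x (hQC hx)
      have e2 := fx_lt 5 hne x hx1
      have e3 : (Fx 5 x).ncard % 3 = Nat.card (Sylow 5 G) % 3 := fx_prime_modEq 5 3 x 2 hx9
      rw [h] at e2 e3
      have e4 : (Fx 5 x).ncard = 1 := by omega
      obtain ⟨R0, hR0⟩ := Set.ncard_eq_one.mp e4
      have m1 : P ∈ Fx 5 x := Sylow.smul_eq_iff_mem_normalizer.mpr (hCN P (hQC hx))
      have m2 : R ∈ Fx 5 x := hxR
      rw [hR0, Set.mem_singleton_iff] at m1 m2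
      exact m2.trans m1.symm)
    rw [hQc, h] at hdvd
    omega
  have h36 : Nat.card (Sylow 5 G) = 36 := by
    rcases hn with h | h | h | h
    · exact absurd h h6
    · exact absurd h h16
    · exact h
    · exact absurd h h96
  have hNc : ∀ R : Sylow 5 G,
      Nat.card ↥(Subgroup.normalizer ((R : Subgroup G) : Set G)) = 40 := by
    intro R
    have := hNmul R
    rw [h36] at this
    omega
  have hCc : ∀ R : Sylow 5 G,
      Nat.card ↥(Subgroup.centralizer ((R : Subgroup G) : Set G)) = 20 ∨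
      Nat.card ↥(Subgroup.centralizer ((R : Subgroup G) : Set G)) = 10 := by
    intro R
    have h1 := hrel R
    rw [hNc R] at h1
    have h2 := hrel4 R
    have h3 := hrel1 R
    generalize (Subgroup.centralizer ((R : Subgroup G) : Set G)).relIndex
      (Subgroup.normalizer ((R : Subgroup G) : Set G)) = k at h1 h2 h3
    have hk : k ≤ 4 := Nat.le_of_dvd (by norm_num) h2
    interval_cases k <;> omega
  -- the data of an involution centralizing a Sylow 5-subgroup
  have key : ∀ (R : Sylow 5 G) (z : G), z ≠ 1 → z ^ 2 = 1 →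
      z ∈ Subgroup.centralizer ((R : Subgroup G) : Set G) →
      (Cn 5 z).ncard = 1 ∧
      {t | t ∈ conjSet z ∧ t ∈ Subgroup.centralizer ((R : Subgroup G) : Set G)}.ncard = 1 ∧
      Nat.card ↥(Subgroup.centralizer ((R : Subgroup G) : Set G)) = 20 ∧
      {t | t ∈ conjSet z ∧ t ∈ Subgroup.normalizer ((R : Subgroup G) : Set G) ∧
        t ∉ Subgroup.centralizer ((R : Subgroup G) : Set G)}.ncard = 15 := by
    intro R z hz1 hz2 hzC
    obtain ⟨d1, d2, d3, d4, d5, d6, d7, d8, d9, d10, d11, d12⟩ :=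
      invol_cent_data hnc 5 (by norm_num) hne R (hab R) z hz1 hz2 hzC
    obtain ⟨m, hm1, hm2, hm3, hm4⟩ := cent_orbit 5 R z hzC
    rw [h36] at d2 d3 d6 d7
    rw [hG] at d9
    rw [hPc R] at d10
    rw [hNc R] at d12
    have hcz : Nat.card ↥(Subgroup.centralizer ({z} : Set G)) ≤ 40 ∨ m ≠ 1 := by
      by_cases hm : m = 1
      · left
        have := Subgroup.card_le_of_le (hm4 hm)
        rw [hNc R] at this
        exact this
      · right
        exact hm
    have hCR := hCc R
    have hIle := invol_coset_card_le 5 R (hPc R)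
      {t | t ∈ conjSet z ∧ t ∈ Subgroup.normalizer ((R : Subgroup G) : Set G) ∧
        t ∉ Subgroup.centralizer ((R : Subgroup G) : Set G)} (by
        rintro s ⟨⟨g, rfl⟩, hsN, hsC⟩
        refine ⟨?_, hsN, hsC⟩
        rw [pow_two]
        calc g * z * g⁻¹ * (g * z * g⁻¹) = g * (z * z) * g⁻¹ := by group
          _ = 1 := by rw [← pow_two, hz2]; group)
    have hI : {t | t ∈ conjSet z ∧ t ∈ Subgroup.normalizer ((R : Subgroup G) : Set G) ∧
        t ∉ Subgroup.centralizer ((R : Subgroup G) : Set G)}.ncard +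
        {t | t ∈ conjSet z ∧ t ∈ Subgroup.centralizer ((R : Subgroup G) : Set G)}.ncard =
        {t | t ∈ conjSet z ∧ t ∈ Subgroup.normalizer ((R : Subgroup G) : Set G)}.ncard := by
      have hsub : {t | t ∈ conjSet z ∧ t ∈ Subgroup.centralizer ((R : Subgroup G) : Set G)} ⊆
          {t | t ∈ conjSet z ∧ t ∈ Subgroup.normalizer ((R : Subgroup G) : Set G)} :=
        fun t ht => ⟨ht.1, hCN R ht.2⟩
      have hdiff : {t | t ∈ conjSet z ∧ t ∈ Subgroup.normalizer ((R : Subgroup G) : Set G)} \
          {t | t ∈ conjSet z ∧ t ∈ Subgroup.centralizer ((R : Subgroup G) : Set G)} =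
          {t | t ∈ conjSet z ∧ t ∈ Subgroup.normalizer ((R : Subgroup G) : Set G) ∧
            t ∉ Subgroup.centralizer ((R : Subgroup G) : Set G)} := by
        ext t
        constructor
        · rintro ⟨⟨h1, h2⟩, h3⟩
          exact ⟨h1, h2, fun h => h3 ⟨h1, h⟩⟩
        · rintro ⟨h1, h2, h3⟩
          exact ⟨⟨h1, h2⟩, fun h => h3 h.2⟩
      rw [← hdiff]
      exact Set.ncard_sdiff_add_ncard_of_subset hsub (Set.toFinite _)
    generalize (Fx 5 z).ncard = f at *
    generalize (Cn 5 z).ncard = c at *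
    generalize (conjSet z).ncard = T at *
    generalize {t | t ∈ conjSet z ∧
      t ∈ Subgroup.centralizer ((R : Subgroup G) : Set G)}.ncard = a at *
    generalize {t | t ∈ conjSet z ∧
      t ∈ Subgroup.normalizer ((R : Subgroup G) : Set G)}.ncard = b at *
    generalize {t | t ∈ conjSet z ∧ t ∈ Subgroup.normalizer ((R : Subgroup G) : Set G) ∧
        t ∉ Subgroup.centralizer ((R : Subgroup G) : Set G)}.ncard = i at *
    generalize Nat.card ↥(Subgroup.centralizer ({z} : Set G)) = Cz at *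
    generalize Nat.card ↥(Subgroup.centralizer ((R : Subgroup G) : Set G)) = cR at *
    have hf : f = 16 := by omega
    subst hf
    have h9 : T % 9 = 0 := by omega
    obtain ⟨k, rfl⟩ : 9 ∣ T := Nat.dvd_of_mod_eq_zero h9
    have hk8 : k ≤ 8 := by omega
    have hk : k = 4 := by
      by_contra hk4
      have hk2 : k = 2 := by
        interval_cases k <;> omega
      subst hk2
      have hc6 : c = 6 := by omega
      have hCz : Cz = 80 := by omega
      have hm16 : m = 1 ∨ m = 6 := by omega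
      rcases hm16 with rfl | rfl
      · rcases hcz with h | h
        · omega
        · exact h rfl
      · omega
    subst hk
    refine ⟨by omega, by omega, by omega, by omega⟩
  -- a centralizer of a Sylow 5-subgroup has at most one involution
  have uniq : ∀ (R : Sylow 5 G) (z w : G), z ≠ 1 → z ^ 2 = 1 →
      z ∈ Subgroup.centralizer ((R : Subgroup G) : Set G) → w ≠ 1 → w ^ 2 = 1 →
      w ∈ Subgroup.centralizer ((R : Subgroup G) : Set G) → w = z := by
    intro R z w hz1 hz2 hzC hw1 hw2 hwC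
    by_contra hne2
    obtain ⟨-, ka, kc, ki⟩ := key R z hz1 hz2 hzC
    obtain ⟨-, -, -, ki2⟩ := key R w hw1 hw2 hwC
    have hnot : w ∉ conjSet z := by
      intro h
      obtain ⟨t0, ht0⟩ := Set.ncard_eq_one.mp ka
      have e1 : z ∈ {t | t ∈ conjSet z ∧
          t ∈ Subgroup.centralizer ((R : Subgroup G) : Set G)} := ⟨mem_conjSet_self z, hzC⟩
      have e2 : w ∈ {t | t ∈ conjSet z ∧
          t ∈ Subgroup.centralizer ((R : Subgroup G) : Set G)} := ⟨h, hwC⟩
      rw [ht0, Set.mem_singleton_iff] at e1 e2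
      exact hne2 (e2.trans e1.symm)
    have hdisj : Disjoint
        {t | t ∈ conjSet z ∧ t ∈ Subgroup.normalizer ((R : Subgroup G) : Set G) ∧
          t ∉ Subgroup.centralizer ((R : Subgroup G) : Set G)}
        {t | t ∈ conjSet w ∧ t ∈ Subgroup.normalizer ((R : Subgroup G) : Set G) ∧
          t ∉ Subgroup.centralizer ((R : Subgroup G) : Set G)} := by
      rw [Set.disjoint_left]
      rintro t ⟨⟨g, hg⟩, -, -⟩ ⟨⟨h, hh⟩, -, -⟩
      apply hnot
      refine ⟨h⁻¹ * g, ?_⟩
      have e : h⁻¹ * g * z * (h⁻¹ * g)⁻¹ = h⁻¹ * (g * z * g⁻¹) * h := by group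
      rw [e, hg, ← hh]
      group
    have hunion := Set.ncard_union_eq hdisj (Set.toFinite _) (Set.toFinite _)
    rw [ki, ki2] at hunion
    have hsub : {t | t ∈ conjSet z ∧ t ∈ Subgroup.normalizer ((R : Subgroup G) : Set G) ∧
          t ∉ Subgroup.centralizer ((R : Subgroup G) : Set G)} ∪
        {t | t ∈ conjSet w ∧ t ∈ Subgroup.normalizer ((R : Subgroup G) : Set G) ∧
          t ∉ Subgroup.centralizer ((R : Subgroup G) : Set G)} ⊆
        ((Subgroup.normalizer ((R : Subgroup G) : Set G) : Subgroup G) : Set G) \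
        ((Subgroup.centralizer ((R : Subgroup G) : Set G) : Subgroup G) : Set G) := by
      rintro t (⟨-, h1, h2⟩ | ⟨-, h1, h2⟩)
      · exact ⟨h1, h2⟩
      · exact ⟨h1, h2⟩
    have hle := Set.ncard_le_ncard hsub (Set.toFinite _)
    have hCN' : ((Subgroup.centralizer ((R : Subgroup G) : Set G) : Subgroup G) : Set G) ⊆
        ((Subgroup.normalizer ((R : Subgroup G) : Set G) : Subgroup G) : Set G) :=
      fun t ht => hCN R ht
    have hdiff := Set.ncard_sdiff_add_ncard_of_subset hCN' (Set.toFinite _)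
    have e2 : Nat.card ↥(Subgroup.centralizer ((R : Subgroup G) : Set G)) =
        ((Subgroup.centralizer ((R : Subgroup G) : Set G) : Subgroup G) : Set G).ncard := rfl
    have e3 : Nat.card ↥(Subgroup.normalizer ((R : Subgroup G) : Set G)) =
        ((Subgroup.normalizer ((R : Subgroup G) : Set G) : Subgroup G) : Set G).ncard := rfl
    rw [← e2, ← e3, kc, hNc R] at hdiff
    omega
  -- an involution `z` of `C(P)` and an element `k` of order 4 with `k ^ 2 = z`
  obtain ⟨z0, hz0⟩ := exists_prime_orderOf_dvd_card'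
    (G := ↥(Subgroup.centralizer ((P : Subgroup G) : Set G))) 2
    (by rcases hCc P with h | h <;> rw [h] <;> norm_num)
  obtain ⟨z, hzdef⟩ : ∃ z : G, z = (z0 : G) := ⟨_, rfl⟩
  have hzC : z ∈ Subgroup.centralizer ((P : Subgroup G) : Set G) := by
    rw [hzdef]
    exact z0.2
  have hzo : orderOf z = 2 := by rw [hzdef, Subgroup.orderOf_coe]; exact hz0
  have hz1 : z ≠ 1 := by
    intro h
    rw [h, orderOf_one] at hzo
    norm_num at hzo
  have hz2 : z ^ 2 = 1 := by
    have h := pow_orderOf_eq_one z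
    rw [hzo] at h
    exact h
  obtain ⟨kc1, ka1, kC20, kI⟩ := key P z hz1 hz2 hzC
  obtain ⟨K0, hK0⟩ := Sylow.exists_subgroup_card_pow_prime
    (G := ↥(Subgroup.centralizer ((P : Subgroup G) : Set G))) 2 (n := 2)
    (by rw [kC20]; norm_num)
  obtain ⟨k0, hk0K, hk01, hk0z⟩ : ∃ k0 : ↥(Subgroup.centralizer ((P : Subgroup G) : Set G)),
      k0 ∈ K0 ∧ k0 ≠ 1 ∧ k0 ≠ z0 := by
    by_contra hcon
    push Not at hcon
    have hsub : (K0 : Set ↥(Subgroup.centralizer ((P : Subgroup G) : Set G))) ⊆ {1, z0} := by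
      intro k hk
      by_cases h1 : k = 1
      · left
        exact h1
      · right
        exact hcon k hk h1
    have hle := Set.ncard_le_ncard hsub (Set.toFinite _)
    have h2 : ({1, z0} : Set ↥(Subgroup.centralizer ((P : Subgroup G) : Set G))).ncard ≤ 2 :=
      (Set.ncard_insert_le _ _).trans (by rw [Set.ncard_singleton])
    have h3 : Nat.card ↥K0 =
        (K0 : Set ↥(Subgroup.centralizer ((P : Subgroup G) : Set G))).ncard := rfl
    rw [h3] at hK0
    omega
  obtain ⟨k, hkdef⟩ : ∃ k : G, k = (k0 : G) := ⟨_, rfl⟩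
  have hkC : k ∈ Subgroup.centralizer ((P : Subgroup G) : Set G) := by
    rw [hkdef]
    exact k0.2
  have hk4 : k ^ 2 ^ 2 = 1 := by
    have h7 : (⟨k0, hk0K⟩ : ↥K0) ^ Nat.card ↥K0 = 1 := pow_card_eq_one'
    rw [hK0] at h7
    have h8 : k0 ^ 2 ^ 2 = 1 := congrArg Subtype.val h7
    have h9 : (k0 : G) ^ 2 ^ 2 = 1 := congrArg Subtype.val h8
    rw [hkdef]
    exact h9
  have hk1 : k ≠ 1 := by
    intro h
    apply hk01
    apply Subtype.ext
    rw [← hkdef, h]
    rfl
  have hk2ne : k ^ 2 ≠ 1 := by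
    intro h
    have h1 := uniq P z k hz1 hz2 hzC hk1 h hkC
    apply hk0z
    apply Subtype.ext
    rw [← hkdef, ← hzdef]
    exact h1
  have hkz : k ^ 2 = z := by
    apply uniq P z (k ^ 2) hz1 hz2 hzC hk2ne _ (Subgroup.pow_mem _ hkC 2)
    rw [← pow_mul]
    exact hk4
  obtain ⟨I, hI⟩ : ∃ I : Set G, I = {t | t ∈ conjSet z ∧
      t ∈ Subgroup.normalizer ((P : Subgroup G) : Set G) ∧
      t ∉ Subgroup.centralizer ((P : Subgroup G) : Set G)} := ⟨_, rfl⟩
  have hIc : I.ncard = 15 := by rw [hI]; exact kI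
  have hkN : k ∈ Subgroup.normalizer ((P : Subgroup G) : Set G) := hCN P hkC
  have hIinv : ∀ t ∈ I, k * t * k⁻¹ ∈ I := by
    intro t ht
    rw [hI] at ht ⊢
    obtain ⟨h1, h2, h3⟩ := ht
    refine ⟨conjSet_conj z k t h1,
      Subgroup.mul_mem _ (Subgroup.mul_mem _ hkN h2) (Subgroup.inv_mem _ hkN), ?_⟩
    intro h
    apply h3
    have e : t = k⁻¹ * (k * t * k⁻¹) * k := by group
    rw [e]
    exact Subgroup.mul_mem _ (Subgroup.mul_mem _ (Subgroup.inv_mem _ hkC) h) hkC
  have hmodI := conj_modEq_elt 2 k 2 hk4 I hIinv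
  obtain ⟨s, hsI, hsk⟩ : ∃ s, s ∈ I ∧ k * s * k⁻¹ = s := by
    by_contra hcon
    push Not at hcon
    have hempty : {a | a ∈ I ∧ k * a * k⁻¹ = a} = ∅ := by
      ext a
      simp only [Set.mem_ofPred_eq, Set.mem_empty_iff_false, iff_false, not_and]
      exact hcon a
    rw [hempty, Set.ncard_empty, hIc] at hmodI
    have h15 : 15 % 2 = 0 % 2 := hmodI
    norm_num at h15
  rw [hI] at hsI
  obtain ⟨⟨g, hg⟩, hsN, hsC⟩ := hsI
  have hs1 : s ≠ 1 := by
    intro h
    apply hsC
    rw [h]
    exact Subgroup.one_mem _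
  have hs2 : s ^ 2 = 1 := by
    rw [← hg, pow_two]
    calc g * z * g⁻¹ * (g * z * g⁻¹) = g * (z * z) * g⁻¹ := by group
      _ = 1 := by rw [← pow_two, hz2]; group
  obtain ⟨P', hP'⟩ : ∃ P' : Sylow 5 G, P' = g • P := ⟨_, rfl⟩
  have hsC' : s ∈ Subgroup.centralizer ((P' : Subgroup G) : Set G) := by
    rw [hP', ← hg]
    exact cent_equivariant 5 g P z hzC
  obtain ⟨kc1', ka1', kC20', kI'⟩ := key P' s hs1 hs2 hsC'
  have hkN' : k ∈ Subgroup.normalizer ((P' : Subgroup G) : Set G) := by
    apply Sylow.smul_eq_iff_mem_normalizer.mp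
    obtain ⟨R0, hR0⟩ := Set.ncard_eq_one.mp kc1'
    have e1 : P' ∈ Cn 5 s := hsC'
    have e2 : k • P' ∈ Cn 5 s := by
      have h1 := cent_equivariant 5 k P' s hsC'
      rw [hsk] at h1
      exact h1
    rw [hR0, Set.mem_singleton_iff] at e1 e2
    exact e2.trans e1.symm
  have hidx : (Subgroup.centralizer ((P' : Subgroup G) : Set G)).relIndex
      (Subgroup.normalizer ((P' : Subgroup G) : Set G)) = 2 := by
    have h1 := hrel P'
    rw [kC20', hNc P'] at h1
    omega
  have hsq := Subgroup.sq_mem_of_index_two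
    (H := (Subgroup.centralizer ((P' : Subgroup G) : Set G)).subgroupOf
      (Subgroup.normalizer ((P' : Subgroup G) : Set G))) hidx
    (⟨k, hkN'⟩ : ↥(Subgroup.normalizer ((P' : Subgroup G) : Set G)))
  rw [Subgroup.mem_subgroupOf] at hsq
  have hzC' : z ∈ Subgroup.centralizer ((P' : Subgroup G) : Set G) := by
    rw [← hkz]
    exact hsq
  have hfin := uniq P' s z hs1 hs2 hsC' hz1 hz2 hzC'
  apply hsC
  rw [← hfin]
  exact hzC

end Cfsg.Agent.S1016
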