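import Cfsg.Statements.S1017
-- import your own Cfsg.Agent.* helpers here
import Mathlib
import Cfsg.Agent.Lib.Lead.SimpleSylC

set_option autoImplicit false
open Cfsg

namespace Cfsg.Agent.S1017


set_option linter.style.haveILetI false
set_option linter.unusedVariables false
set_option maxHeartbeats 1000000

open Cfsg.Agent.Lib.Lead.SimpleSyl Cfsg.Agent.Lib.Helper8 Cfsg.Agent.Lib.Lead.SylowTwoP



/-- No finite simple group has order 2016 = 2^5 * 3^2 * 7. -/
theorem result {G : Type*} [Group G] [Finite G] [IsSimpleGroup G] : Nat.card G ≠ 2016 := by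
  intro hG
  classical
  haveI : Fact (Nat.Prime 7) := ⟨by norm_num⟩
  haveI : Fact (Nat.Prime 3) := ⟨by norm_num⟩
  haveI : Fact (Nat.Prime 2) := ⟨by norm_num⟩
  have hnc : ¬ IsMulCommutative G := not_comm_of_not_prime (by rw [hG]; norm_num)
  have hG' : Nat.card G = 7 ^ 1 * 288 := by rw [hG]; norm_num
  obtain ⟨hd, hmod, hne⟩ := sylow_facts (G := G) 7 1 288 le_rfl (by norm_num) (by norm_num) hG'
  have hn : Nat.card (Sylow 7 G) = 8 ∨ Nat.card (Sylow 7 G) = 36 ∨
      Nat.card (Sylow 7 G) = 288 := by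
    have hmem : Nat.card (Sylow 7 G) ∈ Nat.divisors 288 := Nat.mem_divisors.mpr ⟨hd, by norm_num⟩
    generalize Nat.card (Sylow 7 G) = n at *
    simp only [Nat.divisors_ofNat, Finset.mem_insert, Finset.mem_singleton] at hmem
    omega
  obtain ⟨P⟩ : Nonempty (Sylow 7 G) := inferInstance
  have hPc : ∀ R : Sylow 7 G, Nat.card ↥(R : Subgroup G) = 7 := by
    intro R
    have := sylow_card_of_card_eq 1 288 (by norm_num) hG' R
    simpa using this
  have hNmul : ∀ R : Sylow 7 G, Nat.card (Sylow 7 G) *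
      Nat.card ↥(Subgroup.normalizer ((R : Subgroup G) : Set G)) = 2016 := by
    intro R
    have := card_sylow_mul_card_normalizer R
    rw [hG] at this
    exact this
  have hab : ∀ R : Sylow 7 G,
      (R : Subgroup G) ≤ Subgroup.centralizer ((R : Subgroup G) : Set G) :=
    fun R => sylow_le_centralizer 7 1 (Or.inl rfl) R (by rw [hPc R, pow_one])
  have hCN : ∀ R : Sylow 7 G, Subgroup.centralizer ((R : Subgroup G) : Set G) ≤
      Subgroup.normalizer ((R : Subgroup G) : Set G) :=
    fun R => Subgroup.centralizer_le_normalizer _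
  have hrel : ∀ R : Sylow 7 G, (Subgroup.centralizer ((R : Subgroup G) : Set G)).relIndex
      (Subgroup.normalizer ((R : Subgroup G) : Set G)) *
      Nat.card ↥(Subgroup.centralizer ((R : Subgroup G) : Set G)) =
      Nat.card ↥(Subgroup.normalizer ((R : Subgroup G) : Set G)) :=
    fun R => relIndex_mul_card_of_le (hCN R)
  have hrel6 : ∀ R : Sylow 7 G, (Subgroup.centralizer ((R : Subgroup G) : Set G)).relIndex
      (Subgroup.normalizer ((R : Subgroup G) : Set G)) ∣ 6 := by
    intro R
    haveI : IsCyclic ↥(R : Subgroup G) := isCyclic_of_prime_card (hPc R)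
    have h1 := relIndex_centralizer_normalizer_dvd_totient (R : Subgroup G)
    rw [hPc R] at h1
    have h6 : Nat.totient 7 = 6 := by decide
    rw [h6] at h1
    exact h1
  have h288 : Nat.card (Sylow 7 G) ≠ 288 := by
    intro h
    obtain ⟨s, c, hs, hs7, hdvd, -⟩ := simple_key (G := G) 7 1 288 le_rfl (by norm_num)
      (by norm_num) (by norm_num) hG'
    rw [h] at hdvd
    have h1 := Nat.le_of_dvd (by norm_num) hdvd
    have h2 := hs.two_le
    omega
  have h8 : Nat.card (Sylow 7 G) ≠ 8 := by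
    intro h
    have hN := hNmul P
    rw [h] at hN
    have hNc : Nat.card ↥(Subgroup.normalizer ((P : Subgroup G) : Set G)) = 252 := by omega
    have h1 := hrel P
    rw [hNc] at h1
    have h2 := hrel6 P
    have h3 : 3 ∣ Nat.card ↥(Subgroup.centralizer ((P : Subgroup G) : Set G)) := by
      generalize (Subgroup.centralizer ((P : Subgroup G) : Set G)).relIndex
        (Subgroup.normalizer ((P : Subgroup G) : Set G)) = k at h1 h2
      have hk : k ≤ 6 := Nat.le_of_dvd (by norm_num) h2
      interval_cases k <;> omega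
    obtain ⟨c, hc⟩ := exists_prime_orderOf_dvd_card'
      (G := ↥(Subgroup.centralizer ((P : Subgroup G) : Set G))) 3 h3
    have hco : orderOf (c : G) = 3 := by rw [Subgroup.orderOf_coe]; exact hc
    have hc1 : (c : G) ≠ 1 := by
      intro h
      rw [h, orderOf_one] at hco
      norm_num at hco
    have hc3 : (c : G) ^ 3 ^ 1 = 1 := by
      have h := pow_orderOf_eq_one (c : G)
      rw [hco] at h
      rw [pow_one]
      exact h
    have e1 := fx_cent_mod 7 P (c : G) c.2
    have e2 := fx_lt 7 hne (c : G) hc1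
    have e3 : (Fx 7 (c : G)).ncard % 3 = Nat.card (Sylow 7 G) % 3 :=
      fx_prime_modEq 7 3 (c : G) 1 hc3
    rw [h] at e2 e3
    omega
  have h36 : Nat.card (Sylow 7 G) = 36 := by
    rcases hn with h | h | h
    · exact absurd h h8
    · exact h
    · exact absurd h h288
  have hNc : ∀ R : Sylow 7 G,
      Nat.card ↥(Subgroup.normalizer ((R : Subgroup G) : Set G)) = 56 := by
    intro R
    have := hNmul R
    rw [h36] at this
    omega
  have hCc : ∀ R : Sylow 7 G,
      Nat.card ↥(Subgroup.centralizer ((R : Subgroup G) : Set G)) = 28 ∧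
      (Subgroup.centralizer ((R : Subgroup G) : Set G)).relIndex
        (Subgroup.normalizer ((R : Subgroup G) : Set G)) = 2 := by
    intro R
    have h1 := hrel R
    rw [hNc R] at h1
    have h2 := hrel6 R
    have h3 : (Subgroup.centralizer ((R : Subgroup G) : Set G)).relIndex
        (Subgroup.normalizer ((R : Subgroup G) : Set G)) ≠ 1 := by
      intro h
      apply not_normalizer_le_centralizer_of_simple R (by rw [hPc R]; norm_num)
        (by rw [hPc R, hG]; norm_num)
      exact Subgroup.relIndex_eq_one.mp h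
    generalize (Subgroup.centralizer ((R : Subgroup G) : Set G)).relIndex
      (Subgroup.normalizer ((R : Subgroup G) : Set G)) = k at h1 h2 h3 ⊢
    have hk : k ≤ 6 := Nat.le_of_dvd (by norm_num) h2
    interval_cases k <;> omega
  -- an involution centralizes at most one Sylow 7-subgroup
  have hFc : ∀ (R : Sylow 7 G) (z : G), z ≠ 1 → z ^ 2 = 1 →
      z ∈ Subgroup.centralizer ((R : Subgroup G) : Set G) → (Cn 7 z).ncard = 1 := by
    intro R z hz1 hz2 hzC
    have hf1 := fx_cent_mod 7 R z hzC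
    have hf2 := fx_invol hnc 7 z hz2
    have hf3 := fx_lt 7 hne z hz1
    rw [h36] at hf2 hf3
    have hf : (Fx 7 z).ncard = 8 := by omega
    have hc1 := cn_mod 7 R z hzC
    have hc2 : (Cn 7 z).ncard ≤ 8 := by
      rw [← hf]
      exact Set.ncard_le_ncard (cn_subset_fx 7 z) (Set.toFinite _)
    by_contra hne1
    have hc8 : (Cn 7 z).ncard = 8 := by omega
    have hcf := class_formula 7
      (fun (R : Sylow 7 G) (a : G) => a ∈ Subgroup.centralizer ((R : Subgroup G) : Set G)) (by
        intro g R a ha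
        rw [Subgroup.mem_centralizer_iff] at ha ⊢
        intro y hy
        have hy' : g⁻¹ * y * g ∈ (R : Subgroup G) := (mem_smul_sylow g y R).mp hy
        have h1 := ha _ hy'
        calc y * (g * a * g⁻¹) = g * ((g⁻¹ * y * g) * a) * g⁻¹ := by group
          _ = g * (a * (g⁻¹ * y * g)) * g⁻¹ := by rw [h1]
          _ = g * a * g⁻¹ * y := by group) z R
    have hcn : {R' : Sylow 7 G | z ∈ Subgroup.centralizer ((R' : Subgroup G) : Set G)} =
        Cn 7 z := rfl
    rw [hcn, hc8, h36] at hcf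
    have hinv := card_invol_cent_mul_le 7 (by norm_num) R (hab R)
    rw [hPc R, (hCc R).1] at hinv
    have hsub : insert 1 {t | t ∈ conjSet z ∧
        t ∈ Subgroup.centralizer ((R : Subgroup G) : Set G)} ⊆
        {t : G | t ∈ Subgroup.centralizer ((R : Subgroup G) : Set G) ∧ t ^ 2 = 1} := by
      intro t ht
      rcases ht with rfl | ⟨⟨g, rfl⟩, htC⟩
      · exact ⟨Subgroup.one_mem _, one_pow 2⟩
      · refine ⟨htC, ?_⟩
        rw [pow_two]
        calc g * z * g⁻¹ * (g * z * g⁻¹) = g * (z * z) * g⁻¹ := by group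
          _ = 1 := by rw [← pow_two, hz2]; group
    have h1notin : (1 : G) ∉ {t | t ∈ conjSet z ∧
        t ∈ Subgroup.centralizer ((R : Subgroup G) : Set G)} := by
      rintro ⟨⟨g, hg⟩, -⟩
      apply hz1
      have : z = g⁻¹ * (g * z * g⁻¹) * g := by group
      rw [this, hg]
      group
    have hcard := Set.ncard_le_ncard hsub (Set.toFinite _)
    rw [Set.ncard_insert_of_notMem h1notin (Set.toFinite _)] at hcard
    have hmem : z ∈ {t | t ∈ conjSet z ∧
        t ∈ Subgroup.centralizer ((R : Subgroup G) : Set G)} := ⟨mem_conjSet_self z, hzC⟩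
    have hapos : 1 ≤ {t | t ∈ conjSet z ∧
        t ∈ Subgroup.centralizer ((R : Subgroup G) : Set G)}.ncard := by
      rw [Nat.succ_le_iff, Set.ncard_pos (Set.toFinite _)]
      exact ⟨z, hmem⟩
    have hT : (conjSet z).ncard = 7 + 2 := by omega
    obtain ⟨x, hx⟩ := exists_prime_orderOf_dvd_card' (G := ↥(R : Subgroup G)) 7
      (by rw [hPc R])
    have hxo : orderOf (x : G) = 7 := by rw [Subgroup.orderOf_coe]; exact hx
    have hx1 : (x : G) ≠ 1 := by
      intro h
      rw [h, orderOf_one] at hxo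
      norm_num at hxo
    have hx7 : (x : G) ^ 7 = 1 := by
      have h := pow_orderOf_eq_one (x : G)
      rw [hxo] at h
      exact h
    have hxz : (x : G) * z = z * (x : G) := Subgroup.mem_centralizer_iff.mp hzC _ x.2
    exact class_card_contra hnc 7 (by norm_num) z (x : G) hz1 hz2 hx1 hx7 hxz hT
  -- a Sylow 2-subgroup of the normalizer of `P`
  obtain ⟨S0, hS0⟩ := Sylow.exists_subgroup_card_pow_prime
    (G := ↥(Subgroup.normalizer ((P : Subgroup G) : Set G))) 2 (n := 3)
    (by rw [hNc P]; norm_num)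
  obtain ⟨S2, hS2⟩ : ∃ S2 : Subgroup G,
      S2 = S0.map (Subgroup.normalizer ((P : Subgroup G) : Set G)).subtype := ⟨_, rfl⟩
  have hS2N : S2 ≤ Subgroup.normalizer ((P : Subgroup G) : Set G) := by
    rw [hS2]
    exact Subgroup.map_subtype_le S0
  have hS2c : Nat.card ↥S2 = 8 := by
    rw [hS2, Subgroup.card_map_of_injective (Subgroup.subtype_injective _), hS0]
    norm_num
  obtain ⟨K, hKc, hS2K⟩ := Sylow.exists_subgroup_card_pow_succ (p := 2) (n := 3)
    (by rw [hG]; norm_num) (H := S2) (by rw [hS2c]; norm_num)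
  have hKc' : Nat.card ↥K = 16 := by rw [hKc]; norm_num
  have hidx : S2.relIndex K = 2 := by
    have := relIndex_mul_card_of_le hS2K
    rw [hS2c, hKc'] at this
    omega
  haveI hnorm : (S2.subgroupOf K).Normal := Subgroup.normal_of_index_eq_two hidx
  obtain ⟨g, hgK, hgS⟩ : ∃ g, g ∈ K ∧ g ∉ S2 := by
    by_contra hcon
    push Not at hcon
    have hKS : K ≤ S2 := hcon
    have := Subgroup.card_le_of_le hKS
    omega
  have hgnorm : ∀ s ∈ S2, g⁻¹ * s * g ∈ S2 := by
    intro s hs
    have h1 : (⟨s, hS2K hs⟩ : ↥K) ∈ S2.subgroupOf K := Subgroup.mem_subgroupOf.mpr hs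
    have h2 := hnorm.conj_mem _ h1 ((⟨g, hgK⟩ : ↥K)⁻¹)
    rw [Subgroup.mem_subgroupOf] at h2
    simpa using h2
  have hgN : g ∉ Subgroup.normalizer ((P : Subgroup G) : Set G) := by
    intro hgN
    apply hgS
    have hL1 : Nat.card ↥(K ⊓ Subgroup.normalizer ((P : Subgroup G) : Set G)) ∣ 16 :=
      (Subgroup.card_dvd_of_le inf_le_left).trans (dvd_of_eq hKc')
    have hL2 : Nat.card ↥(K ⊓ Subgroup.normalizer ((P : Subgroup G) : Set G)) ∣ 56 :=
      (Subgroup.card_dvd_of_le inf_le_right).trans (dvd_of_eq (hNc P))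
    have hL3 : Nat.card ↥(K ⊓ Subgroup.normalizer ((P : Subgroup G) : Set G)) ∣ 8 := by
      have := Nat.dvd_gcd hL1 hL2
      norm_num at this
      exact this
    have hL4 : S2 ≤ K ⊓ Subgroup.normalizer ((P : Subgroup G) : Set G) := le_inf hS2K hS2N
    have hL5 : S2 = K ⊓ Subgroup.normalizer ((P : Subgroup G) : Set G) :=
      Subgroup.eq_of_le_of_card_ge hL4 (by rw [hS2c]; exact Nat.le_of_dvd (by norm_num) hL3)
    rw [hL5]
    exact ⟨hgK, hgN⟩
  obtain ⟨P', hP'⟩ : ∃ P' : Sylow 7 G, P' = g • P := ⟨_, rfl⟩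
  have hP'ne : P' ≠ P := by
    rw [hP']
    intro h
    exact hgN (Sylow.smul_eq_iff_mem_normalizer.mp h)
  have hS2N' : S2 ≤ Subgroup.normalizer ((P' : Subgroup G) : Set G) := by
    intro s hs
    apply Sylow.smul_eq_iff_mem_normalizer.mp
    have h1 : (g⁻¹ * s * g) • P = P :=
      Sylow.smul_eq_iff_mem_normalizer.mpr (hS2N (hgnorm s hs))
    rw [hP']
    calc s • g • P = g • ((g⁻¹ * s * g) • P) := by
          rw [← mul_smul, ← mul_smul]
          congr 1
          group
      _ = g • P := by rw [h1]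
  have hri : ∀ R : Sylow 7 G, S2 ≤ Subgroup.normalizer ((R : Subgroup G) : Set G) →
      (Subgroup.centralizer ((R : Subgroup G) : Set G)).relIndex S2 ≤ 2 := by
    intro R hR
    have := Subgroup.relIndex_le_of_le_right
      (H := Subgroup.centralizer ((R : Subgroup G) : Set G)) hR (by rw [(hCc R).2]; norm_num)
    rw [(hCc R).2] at this
    exact this
  have hM := Subgroup.relIndex_inf_le (H := Subgroup.centralizer ((P : Subgroup G) : Set G))
    (K := Subgroup.centralizer ((P' : Subgroup G) : Set G)) (L := S2)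
  have hM4 : (Subgroup.centralizer ((P : Subgroup G) : Set G) ⊓
      Subgroup.centralizer ((P' : Subgroup G) : Set G)).relIndex S2 ≤ 4 :=
    hM.trans (Nat.mul_le_mul (hri P hS2N) (hri P' hS2N'))
  obtain ⟨M, hMdef⟩ : ∃ M : Subgroup G, M = (Subgroup.centralizer ((P : Subgroup G) : Set G) ⊓
      Subgroup.centralizer ((P' : Subgroup G) : Set G)) ⊓ S2 := ⟨_, rfl⟩
  have hMle : M ≤ S2 := by rw [hMdef]; exact inf_le_right
  have hMrel : M.relIndex S2 ≤ 4 := by
    rw [hMdef, Subgroup.inf_relIndex_right]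
    exact hM4
  have hMc := relIndex_mul_card_of_le hMle
  rw [hS2c] at hMc
  have h2M : 2 ∣ Nat.card ↥M := by
    have hMdvd : Nat.card ↥M ∣ 8 := ⟨M.relIndex S2, by rw [← hMc, mul_comm]⟩
    have hle8 : Nat.card ↥M ≤ 8 := Nat.le_of_dvd (by norm_num) hMdvd
    generalize Nat.card ↥M = m at hMc hMdvd hle8 ⊢
    generalize M.relIndex S2 = r at hMc hMrel
    interval_cases m <;> interval_cases r <;> omega
  obtain ⟨z, hz⟩ := exists_prime_orderOf_dvd_card' (G := ↥M) 2 h2M
  have hzo : orderOf (z : G) = 2 := by rw [Subgroup.orderOf_coe]; exact hz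
  have hz1 : (z : G) ≠ 1 := by
    intro h
    rw [h, orderOf_one] at hzo
    norm_num at hzo
  have hz2 : (z : G) ^ 2 = 1 := by
    have h := pow_orderOf_eq_one (z : G)
    rw [hzo] at h
    exact h
  have hzM : (z : G) ∈ (Subgroup.centralizer ((P : Subgroup G) : Set G) ⊓
      Subgroup.centralizer ((P' : Subgroup G) : Set G)) ⊓ S2 := by
    rw [← hMdef]
    exact z.2
  have hzP : (z : G) ∈ Subgroup.centralizer ((P : Subgroup G) : Set G) := hzM.1.1
  have hzP' : (z : G) ∈ Subgroup.centralizer ((P' : Subgroup G) : Set G) := hzM.1.2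
  have h1 := hFc P (z : G) hz1 hz2 hzP
  obtain ⟨R0, hR0⟩ := Set.ncard_eq_one.mp h1
  have e1 : P ∈ Cn 7 (z : G) := hzP
  have e2 : P' ∈ Cn 7 (z : G) := hzP'
  rw [hR0, Set.mem_singleton_iff] at e1 e2
  exact hP'ne (e2.trans e1.symm)

end Cfsg.Agent.S1017
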