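import Cfsg.Statements.S1019
import Mathlib

set_option autoImplicit false
open Pointwise
open Cfsg

namespace Cfsg.Agent.S1019

/-- Let H be a subgroup of a finite group G and x an element of H. In the action of G on the left cosets of H, the number of cosets fixed by x, multiplied by the size of the conjugacy class of x, equals the index of H multiplied by the number of conjugates of x that lie in H. -/
theorem result {G : Type*} [Group G] [Finite G] (H : Subgroup G) (x : G) (hx : x ∈ H) : Nat.card (MulAction.fixedBy (G ⧸ H) x) * Nat.card {g : G // IsConj x g} = H.index * Nat.card {g : G // IsConj x g ∧ g ∈ H} := by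
  classical
  have : Fintype G := Fintype.ofFinite G
  have : Fintype (G ⧸ H) := Fintype.ofFinite _
  let p : G → G ⧸ H → Prop := fun y q => IsConj x y ∧ y • q = q
  have h1 : Nat.card {z : G × (G ⧸ H) // p z.1 z.2} =
      Nat.card (MulAction.fixedBy (G ⧸ H) x) * Nat.card {g : G // IsConj x g} := by
    rw [Nat.card_congr (Equiv.subtypeProdEquivSigmaSubtype p), Nat.card_sigma]
    have hfib : ∀ y : G, Nat.card {q : G ⧸ H // p y q} =
        if IsConj x y then Nat.card (MulAction.fixedBy (G ⧸ H) x) else 0 := by
      intro y
      split_ifs with hy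
      · obtain ⟨c, hc⟩ := isConj_iff.mp hy
        apply Nat.card_congr
        refine Equiv.subtypeEquiv (MulAction.toPerm c⁻¹) ?_
        intro q
        simp only [p, hy, true_and, MulAction.mem_fixedBy, MulAction.toPerm_apply]
        rw [← hc]
        constructor
        · intro h
          have := congrArg (fun r => c⁻¹ • r) h
          simpa [smul_smul, mul_assoc] using this
        · intro h
          have := congrArg (fun r => c • r) h
          simpa [smul_smul, mul_assoc] using this
      · rw [Nat.card_eq_zero]
        left
        exact ⟨fun ⟨q, hq⟩ => hy hq.1⟩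
    simp_rw [hfib]
    rw [Finset.sum_ite, Finset.sum_const_zero, add_zero, Finset.sum_const, smul_eq_mul, mul_comm]
    congr 1
    rw [Nat.card_eq_fintype_card, Fintype.card_subtype]
  have h2 : Nat.card {z : G × (G ⧸ H) // p z.1 z.2} =
      H.index * Nat.card {g : G // IsConj x g ∧ g ∈ H} := by
    let p' : G ⧸ H → G → Prop := fun q y => p y q
    have e : {z : G × (G ⧸ H) // p z.1 z.2} ≃ {z : (G ⧸ H) × G // p' z.1 z.2} :=
      Equiv.subtypeEquiv (Equiv.prodComm _ _) (fun _ => Iff.rfl)
    rw [Nat.card_congr e, Nat.card_congr (Equiv.subtypeProdEquivSigmaSubtype p'), Nat.card_sigma]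
    have hfib : ∀ q : G ⧸ H, Nat.card {y : G // p' q y} =
        Nat.card {g : G // IsConj x g ∧ g ∈ H} := by
      intro q
      induction q using QuotientGroup.induction_on with
      | H g =>
        apply Nat.card_congr
        refine Equiv.subtypeEquiv (MulAut.conj g⁻¹).toEquiv ?_
        intro y
        simp only [p', p, MulEquiv.toEquiv_eq_coe, EquivLike.coe_coe, MulAut.conj_apply, inv_inv]
        have hc : IsConj x y ↔ IsConj x (g⁻¹ * y * g) := by
          constructor
          · intro h
            exact h.trans (isConj_iff.mpr ⟨g⁻¹, by simp⟩)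
          · intro h
            exact h.trans (isConj_iff.mpr ⟨g, by group⟩)
        have hm : y • (g : G ⧸ H) = (g : G ⧸ H) ↔ g⁻¹ * y * g ∈ H := by
          rw [MulAction.Quotient.smul_mk, QuotientGroup.eq, smul_eq_mul]
          rw [← inv_mem_iff (x := g⁻¹ * y * g)]
          simp [mul_assoc]
        rw [hc, hm]
    simp_rw [hfib]
    rw [Finset.sum_const, Finset.card_univ, smul_eq_mul, Subgroup.index_eq_card,
      Nat.card_eq_fintype_card (α := G ⧸ H)]
  rw [← h1, h2]

end Cfsg.Agent.S1019
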