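import Cfsg.Statements.S1033
import Cfsg.Agent.Lib.Helper9.TabOkG2
import Cfsg.Agent.Lib.Helper9.TabOkB2
import Cfsg.Agent.Lib.Helper9.TabOkD4
import Cfsg.Agent.Lib.Helper9.TabOkF4
import Cfsg.Agent.Lib.Helper9.TabOkE6
import Cfsg.Agent.Lib.Helper9.TabOkE7
import Cfsg.Agent.Lib.Helper9.TabOkE8
import Cfsg.Agent.Lib.Helper9.HDiagG2
import Cfsg.Agent.Lib.Helper9.HDiagB2
import Cfsg.Agent.Lib.Helper9.HDiagD4
import Cfsg.Agent.Lib.Helper9.HDiagF4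
import Cfsg.Agent.Lib.Helper9.HDiagE6
import Cfsg.Agent.Lib.Helper9.HDiagE7
import Cfsg.Agent.Lib.Helper9.HDiagE8

set_option autoImplicit false
open Cfsg

namespace Cfsg.Agent.S1033

open Cfsg.Agent.Lib.Helper9 in
theorem result {F : Type*} [Field F] (D : Cfsg.Lie.ChevalleyDatum) (hD : D ∈ [Cfsg.Lie.chevG2, Cfsg.Lie.chevB2, Cfsg.Lie.chevD4, Cfsg.Lie.chevF4, Cfsg.Lie.chevE6, Cfsg.Lie.chevE7, Cfsg.Lie.chevE8]) (i : ℕ) (hi : i < D.rank) (c : F) (hc : c ≠ 0) :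
    D.hMat F (D.simple i) c = Matrix.diagonal (Sum.elim (fun _ => (1 : F)) (fun s : Fin D.nroots => c ^ (D.cartan i s))) := by
  simp only [List.mem_cons, List.mem_nil_iff, or_false] at hD
  rcases hD with rfl | rfl | rfl | rfl | rfl | rfl | rfl
  · have hs := simple_lt _ simpleOK_G2 hi
    exact hMat_simple _ (by decide) xLitG2 i hs.1 hs.2 (xLitG2_ok _ hs.1) (xLitG2_ok _ hs.2)
      (allB_spec cartanOK_G2 hi) (hdiagG2_ok i hi) c hc
  · have hs := simple_lt _ simpleOK_B2 hi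
    exact hMat_simple _ (by decide) xLitB2 i hs.1 hs.2 (xLitB2_ok _ hs.1) (xLitB2_ok _ hs.2)
      (allB_spec cartanOK_B2 hi) (hdiagB2_ok i hi) c hc
  · have hs := simple_lt _ simpleOK_D4 hi
    exact hMat_simple _ (by decide) xLitD4 i hs.1 hs.2 (xLitD4_ok _ hs.1) (xLitD4_ok _ hs.2)
      (allB_spec cartanOK_D4 hi) (hdiagD4_ok i hi) c hc
  · have hs := simple_lt _ simpleOK_F4 hi
    exact hMat_simple _ (by decide) xLitF4 i hs.1 hs.2 (xLitF4_ok _ hs.1) (xLitF4_ok _ hs.2)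
      (allB_spec cartanOK_F4 hi) (hdiagF4_ok i hi) c hc
  · have hs := simple_lt _ simpleOK_E6 hi
    exact hMat_simple _ (by decide) xLitE6 i hs.1 hs.2 (xLitE6_ok _ hs.1) (xLitE6_ok _ hs.2)
      (allB_spec cartanOK_E6 hi) (hdiagE6_ok i hi) c hc
  · have hs := simple_lt _ simpleOK_E7 hi
    exact hMat_simple _ (by decide) xLitE7 i hs.1 hs.2 (xLitE7_ok _ hs.1) (xLitE7_ok _ hs.2)
      (allB_spec cartanOK_E7 hi) (hdiagE7_ok i hi) c hc
  · have hs := simple_lt _ simpleOK_E8 hi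
    exact hMat_simple _ (by decide) xLitE8 i hs.1 hs.2 (xLitE8_ok _ hs.1) (xLitE8_ok _ hs.2)
      (allB_spec cartanOK_E8 hi) (hdiagE8_ok i hi) c hc

end Cfsg.Agent.S1033
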