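import Cfsg.Statements.S1035
import Cfsg.Agent.Lib.Helper9.ThmHCard
import Cfsg.Agent.Lib.Helper9.CertComm
import Cfsg.Agent.Lib.Helper9.CertU
import Cfsg.Agent.Lib.Helper9.CertHA
import Cfsg.Agent.Lib.Helper9.CertOrb

set_option autoImplicit false
open Cfsg

namespace Cfsg.Agent.S1035

open Cfsg.Agent.Lib.Helper9

/-- `d · |H| = (q - 1)^rank` over a field with `q` elements, with `d = 1` (G₂, F₄, E₈), `gcd(3, q-1)` (E₆), `gcd(2, q-1)` (E₇, B₂), `gcd(2, q-1)²` (D₄). -/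
theorem result {F : Type*} [Field F] [Fintype F] {q : ℕ} (hq : Fintype.card F = q)
    (p : Cfsg.Lie.ChevalleyDatum × ℕ)
    (hp : p ∈ [(Cfsg.Lie.chevG2, 1), (Cfsg.Lie.chevF4, 1), (Cfsg.Lie.chevE8, 1), (Cfsg.Lie.chevE6, Nat.gcd 3 (q - 1)),
      (Cfsg.Lie.chevE7, Nat.gcd 2 (q - 1)), (Cfsg.Lie.chevB2, Nat.gcd 2 (q - 1)), (Cfsg.Lie.chevD4, Nat.gcd 2 (q - 1) ^ 2)]) :
    p.2 * Nat.card (p.1.diagonalSubgroup F) = (q - 1) ^ p.1.rank := by
  have key : ∀ (D : Cfsg.Lie.ChevalleyDatum)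
      (_ : D ∈ [Cfsg.Lie.chevG2, Cfsg.Lie.chevB2, Cfsg.Lie.chevD4, Cfsg.Lie.chevF4,
        Cfsg.Lie.chevE6, Cfsg.Lie.chevE7, Cfsg.Lie.chevE8]) (n : ℕ) (_ : D.rank = n)
      (P P' Q Q' : Matrix (Fin n) (Fin n) ℤ) (d : Fin n → ℕ) (_ : P' * P = 1) (_ : Q * Q' = 1)
      (_ : P * (Matrix.of fun i j : Fin n =>
        cartanExp D i (Nat.add D.rank (D.simple j))) * Q =
          Matrix.diagonal (fun j => (d j : ℤ))),
      (∏ j, (Fintype.card F - 1).gcd (d j)) * Nat.card (D.diagonalSubgroup F) =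
        (Fintype.card F - 1) ^ D.rank :=
    fun D hD n hn P P' Q Q' d hP hQ hS =>
      card_diag (hok_all D hD) (nok_all D hD) (nxok_all D hD) (haok_all D hD) (orbok_all D hD)
        (uok_all D hD) hn P P' Q Q' d hP hQ hS
  simp only [List.mem_cons, List.not_mem_nil, or_false] at hp
  subst hq
  rcases hp with rfl | rfl | rfl | rfl | rfl | rfl | rfl
  · have h := key Cfsg.Lie.chevG2 (by simp only [List.mem_cons, true_or, or_true]) 2 rfl _ _ _ _ smithDG2 smithG2_P smithG2_Q smithG2_S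
    have e : (∏ j, (Fintype.card F - 1).gcd (smithDG2 j)) = 1 := by
      simp [Fin.prod_univ_succ, smithDG2]
    rw [e] at h
    exact h
  · have h := key Cfsg.Lie.chevF4 (by simp only [List.mem_cons, true_or, or_true]) 4 rfl _ _ _ _ smithDF4 smithF4_P smithF4_Q smithF4_S
    have e : (∏ j, (Fintype.card F - 1).gcd (smithDF4 j)) = 1 := by
      simp [Fin.prod_univ_succ, smithDF4]
    rw [e] at h
    exact h
  · have h := key Cfsg.Lie.chevE8 (by simp only [List.mem_cons, true_or, or_true]) 8 rfl _ _ _ _ smithDE8 smithE8_P smithE8_Q smithE8_S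
    have e : (∏ j, (Fintype.card F - 1).gcd (smithDE8 j)) = 1 := by
      simp [Fin.prod_univ_succ, smithDE8]
    rw [e] at h
    exact h
  · have h := key Cfsg.Lie.chevE6 (by simp only [List.mem_cons, true_or, or_true]) 6 rfl _ _ _ _ smithDE6 smithE6_P smithE6_Q smithE6_S
    have e : (∏ j, (Fintype.card F - 1).gcd (smithDE6 j)) = Nat.gcd 3 (Fintype.card F - 1) := by
      simp [Fin.prod_univ_succ, smithDE6, Nat.gcd_comm]
    rw [e] at h
    exact h
  · have h := key Cfsg.Lie.chevE7 (by simp only [List.mem_cons, true_or, or_true]) 7 rfl _ _ _ _ smithDE7 smithE7_P smithE7_Q smithE7_S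
    have e : (∏ j, (Fintype.card F - 1).gcd (smithDE7 j)) = Nat.gcd 2 (Fintype.card F - 1) := by
      simp [Fin.prod_univ_succ, smithDE7, Nat.gcd_comm]
    rw [e] at h
    exact h
  · have h := key Cfsg.Lie.chevB2 (by simp only [List.mem_cons, true_or, or_true]) 2 rfl _ _ _ _ smithDB2 smithB2_P smithB2_Q smithB2_S
    have e : (∏ j, (Fintype.card F - 1).gcd (smithDB2 j)) = Nat.gcd 2 (Fintype.card F - 1) := by
      simp [Fin.prod_univ_succ, smithDB2, Nat.gcd_comm]
    rw [e] at h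
    exact h
  · have h := key Cfsg.Lie.chevD4 (by simp only [List.mem_cons, true_or, or_true]) 4 rfl _ _ _ _ smithDD4 smithD4_P smithD4_Q smithD4_S
    have e : (∏ j, (Fintype.card F - 1).gcd (smithDD4 j)) =
        Nat.gcd 2 (Fintype.card F - 1) ^ 2 := by
      simp [Fin.prod_univ_succ, smithDD4, Nat.gcd_comm, pow_two]
    rw [e] at h
    exact h

end Cfsg.Agent.S1035
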