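import Cfsg.Statements.S1037
import Cfsg.Agent.Lib.Helper9.ThmB

set_option autoImplicit false
open Cfsg

namespace Cfsg.Agent.S1037

open Cfsg.Agent.Lib.Helper9

/-- `UH ∩ V = 1` and `UH ∩ VH = H`. -/
theorem result {F : Type*} [Field F] (D : Cfsg.Lie.ChevalleyDatum) (hD : D ∈ [Cfsg.Lie.chevG2, Cfsg.Lie.chevB2, Cfsg.Lie.chevD4, Cfsg.Lie.chevF4, Cfsg.Lie.chevE6, Cfsg.Lie.chevE7, Cfsg.Lie.chevE8]) :
    D.borelSubgroup F ⊓ D.negUnipotent F = ⊥ ∧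
      D.borelSubgroup F ⊓ (D.negUnipotent F ⊔ D.diagonalSubgroup F) = D.diagonalSubgroup F := by
  exact borel_inf_neg (hok_all D hD) (wok_all D hD) (lok_all D hD) (haok_all D hD)

end Cfsg.Agent.S1037
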