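import Cfsg.Statements.S1039
import Cfsg.Agent.Lib.Helper9.ThmCox
import Cfsg.Agent.Lib.Helper9.CertComm
import Cfsg.Agent.Lib.Helper9.CertBN
import Cfsg.Agent.Lib.Helper9.CertW0

set_option autoImplicit false
open Cfsg

namespace Cfsg.Agent.S1039

open Cfsg.Agent.Lib.Helper9

/-- `N/H ≅ W`: there is a surjective homomorphism from `N` onto the Coxeter group of the type (Mathlib's Coxeter matrix G₂, B₂, F₄, E₆, E₇, E₈, nodes numbered as the fundamental roots) with kernel `H`, mapping each `n_{p_i}` to the `i`-th simple reflection. -/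
theorem result {F : Type*} [Field F]
    (p : Cfsg.Lie.ChevalleyDatum × (Σ n : ℕ, CoxeterMatrix (Fin n)))
    (hp : p ∈ [(Cfsg.Lie.chevG2, ⟨2, CoxeterMatrix.G₂⟩), (Cfsg.Lie.chevB2, ⟨2, CoxeterMatrix.B 2⟩), (Cfsg.Lie.chevD4, ⟨4, Cfsg.Lie.coxeterD4⟩), (Cfsg.Lie.chevF4, ⟨4, CoxeterMatrix.F₄⟩),
      (Cfsg.Lie.chevE6, ⟨6, CoxeterMatrix.E₆⟩), (Cfsg.Lie.chevE7, ⟨7, CoxeterMatrix.E₇⟩), (Cfsg.Lie.chevE8, ⟨8, CoxeterMatrix.E₈⟩)]) :
    ∃ φ : ↥(p.1.monomialSubgroup F) →* p.2.2.Group, Function.Surjective φ ∧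
      φ.ker = (p.1.diagonalSubgroup F).subgroupOf (p.1.monomialSubgroup F) ∧
      ∀ (i : Fin p.2.1) (g : ↥(p.1.monomialSubgroup F)),
        ((g : GL p.1.Idx F) : Matrix p.1.Idx p.1.Idx F) = p.1.nMat F (p.1.simple i) 1 → φ g = p.2.2.simple i := by
  simp only [List.mem_cons, List.not_mem_nil, or_false] at hp
  rcases hp with rfl | rfl | rfl | rfl | rfl | rfl | rfl
  · exact weyl_iso (hok_all _ (by simp)) (nok_all _ (by simp)) (nxok_all _ (by simp))
      (wok_all _ (by simp)) (lok_all _ (by simp)) (haok_all _ (by simp)) (w0ok_all _ (by simp))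
      (commok_all _ (by simp)) (posok_all _ (by simp)) (orbok_all _ (by simp))
      (bnok_all _ (by simp)) (coxok_all _ (by simp)) (D := Cfsg.Lie.chevG2) (n := 2) rfl
      CoxeterMatrix.G₂ (by intro i j; fin_cases i <;> fin_cases j <;> rfl)
  · exact weyl_iso (hok_all _ (by simp)) (nok_all _ (by simp)) (nxok_all _ (by simp))
      (wok_all _ (by simp)) (lok_all _ (by simp)) (haok_all _ (by simp)) (w0ok_all _ (by simp))
      (commok_all _ (by simp)) (posok_all _ (by simp)) (orbok_all _ (by simp))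
      (bnok_all _ (by simp)) (coxok_all _ (by simp)) (D := Cfsg.Lie.chevB2) (n := 2) rfl
      (CoxeterMatrix.B 2) (by intro i j; fin_cases i <;> fin_cases j <;> rfl)
  · exact weyl_iso (hok_all _ (by simp)) (nok_all _ (by simp)) (nxok_all _ (by simp))
      (wok_all _ (by simp)) (lok_all _ (by simp)) (haok_all _ (by simp)) (w0ok_all _ (by simp))
      (commok_all _ (by simp)) (posok_all _ (by simp)) (orbok_all _ (by simp))
      (bnok_all _ (by simp)) (coxok_all _ (by simp)) (D := Cfsg.Lie.chevD4) (n := 4) rfl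
      Cfsg.Lie.coxeterD4 (by intro i j; fin_cases i <;> fin_cases j <;> rfl)
  · exact weyl_iso (hok_all _ (by simp)) (nok_all _ (by simp)) (nxok_all _ (by simp))
      (wok_all _ (by simp)) (lok_all _ (by simp)) (haok_all _ (by simp)) (w0ok_all _ (by simp))
      (commok_all _ (by simp)) (posok_all _ (by simp)) (orbok_all _ (by simp))
      (bnok_all _ (by simp)) (coxok_all _ (by simp)) (D := Cfsg.Lie.chevF4) (n := 4) rfl
      CoxeterMatrix.F₄ (by intro i j; fin_cases i <;> fin_cases j <;> rfl)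
  · exact weyl_iso (hok_all _ (by simp)) (nok_all _ (by simp)) (nxok_all _ (by simp))
      (wok_all _ (by simp)) (lok_all _ (by simp)) (haok_all _ (by simp)) (w0ok_all _ (by simp))
      (commok_all _ (by simp)) (posok_all _ (by simp)) (orbok_all _ (by simp))
      (bnok_all _ (by simp)) (coxok_all _ (by simp)) (D := Cfsg.Lie.chevE6) (n := 6) rfl
      CoxeterMatrix.E₆ (by intro i j; fin_cases i <;> fin_cases j <;> rfl)
  · exact weyl_iso (hok_all _ (by simp)) (nok_all _ (by simp)) (nxok_all _ (by simp))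
      (wok_all _ (by simp)) (lok_all _ (by simp)) (haok_all _ (by simp)) (w0ok_all _ (by simp))
      (commok_all _ (by simp)) (posok_all _ (by simp)) (orbok_all _ (by simp))
      (bnok_all _ (by simp)) (coxok_all _ (by simp)) (D := Cfsg.Lie.chevE7) (n := 7) rfl
      CoxeterMatrix.E₇ (by intro i j; fin_cases i <;> fin_cases j <;> rfl)
  · exact weyl_iso (hok_all _ (by simp)) (nok_all _ (by simp)) (nxok_all _ (by simp))
      (wok_all _ (by simp)) (lok_all _ (by simp)) (haok_all _ (by simp)) (w0ok_all _ (by simp))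
      (commok_all _ (by simp)) (posok_all _ (by simp)) (orbok_all _ (by simp))
      (bnok_all _ (by simp)) (coxok_all _ (by simp)) (D := Cfsg.Lie.chevE8) (n := 8) rfl
      CoxeterMatrix.E₈ (by intro i j; fin_cases i <;> fin_cases j <;> rfl)

end Cfsg.Agent.S1039
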