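import Cfsg.Statements.S1041
import Cfsg.Agent.Lib.Helper9.ChevBasic

set_option autoImplicit false
open Pointwise
open Cfsg

namespace Cfsg.Agent.S1041

/-- `U` and `V` generate the whole Chevalley group. -/
theorem result {F : Type*} [Field F] (D : Cfsg.Lie.ChevalleyDatum) (hD : D ∈ [Cfsg.Lie.chevG2, Cfsg.Lie.chevB2, Cfsg.Lie.chevD4, Cfsg.Lie.chevF4, Cfsg.Lie.chevE6, Cfsg.Lie.chevE7, Cfsg.Lie.chevE8]) : D.posUnipotent F ⊔ D.negUnipotent F = D.group F := by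
  have hpn := Cfsg.Agent.Lib.Helper9.posneg D hD
  unfold Cfsg.Lie.ChevalleyDatum.posUnipotent Cfsg.Lie.ChevalleyDatum.negUnipotent
    Cfsg.Lie.ChevalleyDatum.group
  rw [← Subgroup.closure_union]
  congr 1
  ext g
  simp only [Set.mem_union, Set.mem_setOf_eq]
  constructor
  · rintro (⟨r, t, hr, hg⟩ | ⟨r, t, hr, hg⟩)
    · refine ⟨⟨r, hr.1⟩, t, ?_⟩
      rw [hg]; unfold Cfsg.Lie.ChevalleyDatum.x; rw [dif_pos hr.1]
    · refine ⟨⟨r, hr.1⟩, t, ?_⟩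
      rw [hg]; unfold Cfsg.Lie.ChevalleyDatum.x; rw [dif_pos hr.1]
  · rintro ⟨r, t, hg⟩
    have hx : D.x F r.val t = D.xMat F r t := by
      unfold Cfsg.Lie.ChevalleyDatum.x; rw [dif_pos r.2]
    rcases hpn r.val r.2 with h | h
    · left; exact ⟨r.val, t, h, by rw [hg, hx]⟩
    · right; exact ⟨r.val, t, h, by rw [hg, hx]⟩

end Cfsg.Agent.S1041
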