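import Cfsg.Statements.S1044
import Cfsg.Agent.Lib.Helper9.ThmRk1
import Cfsg.Agent.Lib.Helper9.CertComm

set_option autoImplicit false
open Cfsg

namespace Cfsg.Agent.S1044

open Cfsg.Agent.Lib.Helper9

/-- For a fundamental root `p` the set `B ∪ B n_p B` is (the carrier of) a subgroup of the general linear group. -/
theorem result {F : Type*} [Field F] (D : Cfsg.Lie.ChevalleyDatum) (hD : D ∈ [Cfsg.Lie.chevG2, Cfsg.Lie.chevB2, Cfsg.Lie.chevD4, Cfsg.Lie.chevF4, Cfsg.Lie.chevE6, Cfsg.Lie.chevE7, Cfsg.Lie.chevE8]) (i : ℕ) (hi : i < D.rank) (n : GL D.Idx F)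
    (hn : (n : Matrix D.Idx D.Idx F) = D.nMat F (D.simple i) 1) :
    ∃ P : Subgroup (GL D.Idx F), (P : Set (GL D.Idx F)) =
      (D.borelSubgroup F : Set (GL D.Idx F)) ∪ DoubleCoset.doubleCoset n (D.borelSubgroup F : Set (GL D.Idx F)) (D.borelSubgroup F) := by
  have hk := hok_all D hD
  have e : n = nU hk F i := by
    apply Units.ext
    rw [hn, nU_val]
  rw [e]
  exact ⟨rk1Sub hk (nok_all D hD) (nxok_all D hD) (wok_all D hD) (haok_all D hD) (commok_all D hD)
    (posok_all D hD) (orbok_all D hD) F hi, rk1Sub_coe hk (nok_all D hD) (nxok_all D hD)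
    (wok_all D hD) (haok_all D hD) (commok_all D hD) (posok_all D hD) (orbok_all D hD) hi⟩

end Cfsg.Agent.S1044
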