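import Cfsg.Statements.S1054
import Cfsg.Agent.Lib.Helper9.CertSimple

set_option autoImplicit false
open Cfsg

namespace Cfsg.Agent.S1054

open Cfsg.Agent.Lib.Helper9

/-- The Chevalley groups of types D₄, F₄, E₆, E₇, E₈ are simple over every field. -/
theorem result {F : Type*} [Field F] (D : Cfsg.Lie.ChevalleyDatum)
    (hD : D ∈ [Cfsg.Lie.chevD4, Cfsg.Lie.chevF4, Cfsg.Lie.chevE6, Cfsg.Lie.chevE7, Cfsg.Lie.chevE8]) :
    IsSimpleGroup ↥(D.group F) ∧ ¬ IsMulCommutative ↥(D.group F) := by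
  exact simple_all D (mem_seven hD) (fun h => absurd h (not_g2_b2 hD))

end Cfsg.Agent.S1054
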