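import Cfsg.Statements.S1080
import Cfsg.Agent.Lib.Helper9.ChevMap

set_option autoImplicit false
open Pointwise
open Cfsg

namespace Cfsg.Agent.S1080

open Cfsg.Lie Cfsg.Agent.Lib.Helper9

/-- The automorphism of the general linear group induced by a field automorphism. -/
noncomputable def glEquiv {F : Type*} [Field F] (D : ChevalleyDatum) (f : F ≃+* F) :
    GL D.Idx F ≃* GL D.Idx F :=
  Units.mapEquiv (RingEquiv.mapMatrix f).toMulEquiv

theorem glEquiv_coe {F : Type*} [Field F] (D : ChevalleyDatum) (f : F ≃+* F) (g : GL D.Idx F) :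
    ((glEquiv D f g : GL D.Idx F) : Matrix D.Idx D.Idx F) =
      (g : Matrix D.Idx D.Idx F).map (f : F →+* F) := rfl

theorem glEquiv_image_subset {F : Type*} [Field F] (D : ChevalleyDatum) (f : F ≃+* F) :
    (glEquiv D f) '' {g | ∃ (r : Fin D.nroots) (t : F), (g : Matrix D.Idx D.Idx F) = D.xMat F r t} ⊆
      {g | ∃ (r : Fin D.nroots) (t : F), (g : Matrix D.Idx D.Idx F) = D.xMat F r t} := by
  rintro _ ⟨g, ⟨r, t, hg⟩, rfl⟩
  refine ⟨r, f t, ?_⟩
  rw [glEquiv_coe, hg, xMat_map]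
  rfl

theorem map_group {F : Type*} [Field F] (D : ChevalleyDatum) (f : F ≃+* F) :
    (D.group F).map (glEquiv D f : GL D.Idx F →* GL D.Idx F) = D.group F := by
  unfold ChevalleyDatum.group
  rw [MonoidHom.map_closure]
  congr 1
  apply Set.Subset.antisymm
  · exact glEquiv_image_subset D f
  · intro g hg
    refine ⟨glEquiv D f.symm g, glEquiv_image_subset D f.symm ⟨g, hg, rfl⟩, ?_⟩
    apply Units.ext
    show ((glEquiv D f (glEquiv D f.symm g) : GL D.Idx F) : Matrix D.Idx D.Idx F) = _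
    rw [glEquiv_coe, glEquiv_coe]
    ext i j
    simp

/-- Field automorphisms: for every field automorphism `f` there is a group automorphism sending each `x_r(t)` to `x_r(f t)`. -/
theorem result {F : Type*} [Field F] (D : Cfsg.Lie.ChevalleyDatum) (hD : D ∈ [Cfsg.Lie.chevG2, Cfsg.Lie.chevB2, Cfsg.Lie.chevD4, Cfsg.Lie.chevF4, Cfsg.Lie.chevE6, Cfsg.Lie.chevE7, Cfsg.Lie.chevE8]) (f : F ≃+* F) :
    ∃ α : ↥(D.group F) ≃* ↥(D.group F), ∀ (g : ↥(D.group F)) (r : ℕ) (t : F), r < D.nroots →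
      ((g : GL D.Idx F) : Matrix D.Idx D.Idx F) = D.x F r t → ((α g : GL D.Idx F) : Matrix D.Idx D.Idx F) = D.x F r (f t) := by
  refine ⟨((glEquiv D f).subgroupMap (D.group F)).trans (MulEquiv.subgroupCongr (map_group D f)),
    ?_⟩
  intro g r t _ hg
  show ((glEquiv D f (g : GL D.Idx F) : GL D.Idx F) : Matrix D.Idx D.Idx F) = _
  rw [glEquiv_coe, hg, x_map]
  rfl

end Cfsg.Agent.S1080
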