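import Cfsg.Statements.S1092
import Cfsg.Agent.Lib.Helper13.CoxB2A
import Cfsg.Agent.Lib.Helper13.CoxG2A
import Cfsg.Agent.Lib.Helper13.CoxD4A
import Cfsg.Agent.Lib.Helper13.CoxF4A

set_option autoImplicit false
open Cfsg

namespace Cfsg.Agent.S1092

open Cfsg.Agent.Lib.Helper13 Cfsg.Agent.Lib.Helper13.CE

theorem cardB2 : Nat.card (CoxeterMatrix.B 2).Group = 8 := by
  obtain ⟨X, f, -, -, -⟩ := coxmat_main (CoxeterMatrix.B 2) 8 3 CoxB2.par (by decide)
    Fin.val_injective (by decide) CoxB2.hstat 2 CoxB2.tree CoxB2.stepsA CoxB2.parB CoxB2.stepsB 1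
    CoxB2.hA rfl CoxB2.hB
  exact card_of_equiv_bot _ (closure_subs_nil _) f

theorem cardG2 : Nat.card (CoxeterMatrix.G₂).Group = 12 := by
  obtain ⟨X, f, -, -, -⟩ := coxmat_main (CoxeterMatrix.G₂) 12 4 CoxG2.par (by decide)
    Fin.val_injective (by decide) CoxG2.hstat 2 CoxG2.tree CoxG2.stepsA CoxG2.parB CoxG2.stepsB 1
    CoxG2.hA rfl CoxG2.hB
  exact card_of_equiv_bot _ (closure_subs_nil _) f

theorem cardD4 : Nat.card (Cfsg.Lie.coxeterD4).Group = 192 := by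
  obtain ⟨X, f, -, -, -⟩ := coxmat_main (Cfsg.Lie.coxeterD4) 192 8 CoxD4.par (by decide)
    Fin.val_injective (by decide) CoxD4.hstat 4 CoxD4.tree CoxD4.stepsA CoxD4.parB CoxD4.stepsB 1
    CoxD4.hA rfl CoxD4.hB
  exact card_of_equiv_bot _ (closure_subs_nil _) f

theorem cardF4 : Nat.card (CoxeterMatrix.F₄).Group = 1152 := by
  obtain ⟨X, f, -, -, -⟩ := coxmat_main (CoxeterMatrix.F₄) 1152 11 CoxF4.par (by decide)
    Fin.val_injective (by decide) CoxF4.hstat 4 CoxF4.tree CoxF4.stepsA CoxF4.parB CoxF4.stepsB 1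
    CoxF4.hA rfl CoxF4.hB
  exact card_of_equiv_bot _ (closure_subs_nil _) f

/-- `|W(B₂)| = 8`, `|W(G₂)| = 12`, `|W(D₄)| = 192`, `|W(F₄)| = 1152` for the groups presented by the Coxeter matrices (the product of the degrees of the basic invariants). -/
theorem result (p : (Σ n : ℕ, CoxeterMatrix (Fin n)) × ℕ)
    (hp : p ∈ [(⟨2, CoxeterMatrix.B 2⟩, 8), (⟨2, CoxeterMatrix.G₂⟩, 12), (⟨4, Cfsg.Lie.coxeterD4⟩, 192), (⟨4, CoxeterMatrix.F₄⟩, 1152)]) :
    Nat.card p.1.2.Group = p.2 := by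
  simp only [List.mem_cons, List.mem_nil_iff, or_false] at hp
  rcases hp with rfl | rfl | rfl | rfl
  · exact cardB2
  · exact cardG2
  · exact cardD4
  · exact cardF4

end Cfsg.Agent.S1092
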