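import Cfsg.Statements.S1094
import Cfsg.Agent.Lib.Helper13.CoxOrders
import Cfsg.Agent.Lib.Helper13.CoxB2A
import Cfsg.Agent.Lib.Helper13.CoxG2A
import Cfsg.Agent.Lib.Helper13.CoxD4A
import Cfsg.Agent.Lib.Helper13.CoxF4A

set_option autoImplicit false
open Cfsg

namespace Cfsg.Agent.S1094

open Cfsg.Agent.Lib.Helper13 Cfsg.Agent.Lib.Helper13.CE

theorem ordB2 : orderOf ((List.finRange 2).map (CoxeterMatrix.B 2).simple).prod = 4 := by
  obtain ⟨X, f, hnets, hs, hf⟩ := coxmat_main (CoxeterMatrix.B 2) 8 3 CoxB2.par (by decide)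
    Fin.val_injective (by decide) CoxB2.hstat 2 CoxB2.tree CoxB2.stepsA CoxB2.parB CoxB2.stepsB 1
    CoxB2.hA rfl CoxB2.hB
  have hinj := X.injective_of_bot _ (closure_subs_nil _) f hf
  refine orderOf_cox_direct _ X hs hinj (List.finRange 2) 4 (by norm_num) ?_ 0 ?_
  · rw [hnets]; decide +kernel
  · rw [hnets]; decide +kernel

theorem ordG2 : orderOf ((List.finRange 2).map (CoxeterMatrix.G₂).simple).prod = 6 := by
  obtain ⟨X, f, hnets, hs, hf⟩ := coxmat_main (CoxeterMatrix.G₂) 12 4 CoxG2.par (by decide)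
    Fin.val_injective (by decide) CoxG2.hstat 2 CoxG2.tree CoxG2.stepsA CoxG2.parB CoxG2.stepsB 1
    CoxG2.hA rfl CoxG2.hB
  have hinj := X.injective_of_bot _ (closure_subs_nil _) f hf
  refine orderOf_cox_direct _ X hs hinj (List.finRange 2) 6 (by norm_num) ?_ 0 ?_
  · rw [hnets]; decide +kernel
  · rw [hnets]; decide +kernel

theorem ordD4 : orderOf ((List.finRange 4).map (Cfsg.Lie.coxeterD4).simple).prod = 6 := by
  obtain ⟨X, f, hnets, hs, hf⟩ := coxmat_main (Cfsg.Lie.coxeterD4) 192 8 CoxD4.par (by decide)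
    Fin.val_injective (by decide) CoxD4.hstat 4 CoxD4.tree CoxD4.stepsA CoxD4.parB CoxD4.stepsB 1
    CoxD4.hA rfl CoxD4.hB
  have hinj := X.injective_of_bot _ (closure_subs_nil _) f hf
  refine orderOf_cox_direct _ X hs hinj (List.finRange 4) 6 (by norm_num) ?_ 0 ?_
  · rw [hnets]; decide +kernel
  · rw [hnets]; decide +kernel

theorem ordF4 : orderOf ((List.finRange 4).map (CoxeterMatrix.F₄).simple).prod = 12 := by
  obtain ⟨X, f, hnets, hs, hf⟩ := coxmat_main (CoxeterMatrix.F₄) 1152 11 CoxF4.par (by decide)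
    Fin.val_injective (by decide) CoxF4.hstat 4 CoxF4.tree CoxF4.stepsA CoxF4.parB CoxF4.stepsB 1
    CoxF4.hA rfl CoxF4.hB
  have hinj := X.injective_of_bot _ (closure_subs_nil _) f hf
  refine orderOf_cox_direct _ X hs hinj (List.finRange 4) 12 (by norm_num) ?_ 0 ?_
  · rw [hnets]; decide +kernel
  · rw [hnets]; decide +kernel

theorem ordE6 : orderOf ((List.finRange 6).map (CoxeterMatrix.E₆).simple).prod = 12 := by
  obtain ⟨X, hnets, hs, -, -, h⟩ := e8_faithful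
  refine orderOf_cox_sub _ _ _ _ X hs h.1 (List.finRange 6) [0, 1, 2, 3, 4, 5] (by decide) 12
    (by norm_num) ?_ 3 ?_
  · rw [hnets]; decide +kernel
  · rw [hnets]; decide +kernel

theorem ordE7 : orderOf ((List.finRange 7).map (CoxeterMatrix.E₇).simple).prod = 18 := by
  obtain ⟨X, hnets, hs, -, h, -⟩ := e8_faithful
  refine orderOf_cox_sub _ _ _ _ X hs h.1 (List.finRange 7) [0, 1, 2, 3, 4, 5, 6] (by decide) 18
    (by norm_num) ?_ 2 ?_
  · rw [hnets]; decide +kernel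
  · rw [hnets]; decide +kernel

theorem ordE8 : orderOf ((List.finRange 8).map (CoxeterMatrix.E₈).simple).prod = 30 := by
  obtain ⟨X, hnets, hs, h, -, -⟩ := e8_faithful
  refine orderOf_cox_sub _ _ _ _ X hs h.1 (List.finRange 8) [0, 1, 2, 3, 4, 5, 6, 7] (by decide) 30
    (by norm_num) ?_ 0 ?_
  · rw [hnets]; decide +kernel
  · rw [hnets]; decide +kernel

/-- The Coxeter element `s₁ s₂ ⋯ s_l` of the Coxeter group of type B₂, G₂, D₄, F₄, E₆, E₇, E₈ has order `h = 2N/l` = 4, 6, 6, 12, 12, 18, 30. -/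
theorem result (p : (Σ n : ℕ, CoxeterMatrix (Fin n)) × ℕ)
    (hp : p ∈ [(⟨2, CoxeterMatrix.B 2⟩, 4), (⟨2, CoxeterMatrix.G₂⟩, 6), (⟨4, Cfsg.Lie.coxeterD4⟩, 6), (⟨4, CoxeterMatrix.F₄⟩, 12),
      (⟨6, CoxeterMatrix.E₆⟩, 12), (⟨7, CoxeterMatrix.E₇⟩, 18), (⟨8, CoxeterMatrix.E₈⟩, 30)]) :
    orderOf ((List.finRange p.1.1).map p.1.2.simple).prod = p.2 := by
  simp only [List.mem_cons, List.mem_nil_iff, or_false] at hp
  rcases hp with rfl | rfl | rfl | rfl | rfl | rfl | rfl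
  · exact ordB2
  · exact ordG2
  · exact ordD4
  · exact ordF4
  · exact ordE6
  · exact ordE7
  · exact ordE8

end Cfsg.Agent.S1094
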