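import Cfsg.Statements.S1095
import Cfsg.Agent.Lib.Helper9.NOkG2
import Cfsg.Agent.Lib.Helper9.NOkB2
import Cfsg.Agent.Lib.Helper9.NOkD4
import Cfsg.Agent.Lib.Helper9.NOkF4
import Cfsg.Agent.Lib.Helper9.NOkE6
import Cfsg.Agent.Lib.Helper9.NOkE7
import Cfsg.Agent.Lib.Helper9.NOkE8
import Cfsg.Agent.Lib.Helper9.TabOkG2
import Cfsg.Agent.Lib.Helper9.TabOkB2
import Cfsg.Agent.Lib.Helper9.TabOkD4
import Cfsg.Agent.Lib.Helper9.TabOkF4
import Cfsg.Agent.Lib.Helper9.TabOkE6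
import Cfsg.Agent.Lib.Helper9.TabOkE7
import Cfsg.Agent.Lib.Helper9.TabOkE8
import Cfsg.Agent.Lib.Helper9.HDiagG2
import Cfsg.Agent.Lib.Helper9.HDiagB2
import Cfsg.Agent.Lib.Helper9.HDiagD4
import Cfsg.Agent.Lib.Helper9.HDiagF4
import Cfsg.Agent.Lib.Helper9.HDiagE6
import Cfsg.Agent.Lib.Helper9.HDiagE7
import Cfsg.Agent.Lib.Helper9.HDiagE8

set_option autoImplicit false
open Cfsg

namespace Cfsg.Agent.S1095

open Cfsg.Agent.Lib.Helper9 in
/-- `n_p` (p = p_{i+1} fundamental) is the signed monomial matrix `h_{p_j} ↦ h_{p_j} - A_{p_j,p} h_p`, `e_s ↦ η_s e_{w_p(s)}`, with `η_s = ±1`, `η_p = η_{-p} = -1`, `η_s η_{w_p(s)} = (-1)^{A_{p,s}}`, `η_s η_{-s} = 1`. -/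
theorem result {F : Type*} [Field F] (D : Cfsg.Lie.ChevalleyDatum) (hD : D ∈ [Cfsg.Lie.chevG2, Cfsg.Lie.chevB2, Cfsg.Lie.chevD4, Cfsg.Lie.chevF4, Cfsg.Lie.chevE6, Cfsg.Lie.chevE7, Cfsg.Lie.chevE8]) (i : ℕ) (hi : i < D.rank) :
    ∃ η : ℕ → ℤ, (∀ s < D.nroots, η s = 1 ∨ η s = -1) ∧ η (D.simple i) = -1 ∧ η (D.neg (D.simple i)) = -1 ∧
      (∀ s < D.nroots, η s * η (D.reflectRoot i s) = (-1) ^ (D.cartan i s).natAbs ∧ η s * η (D.neg s) = 1) ∧
      D.nMat F (D.simple i) 1 = Matrix.of (fun (row col : D.Idx) =>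
        Sum.elim
          (fun j' : Fin D.rank => Sum.elim
            (fun j : Fin D.rank => (if j' = j then (1 : F) else 0) - (if (j' : ℕ) = i then ((D.cartan j (D.simple i) : ℤ) : F) else 0))
            (fun _ => (0 : F)) col)
          (fun s' : Fin D.nroots => Sum.elim
            (fun _ => (0 : F))
            (fun s : Fin D.nroots => if (s' : ℕ) = D.reflectRoot i s then ((η s : ℤ) : F) else 0) col)
          row) := by
  simp only [List.mem_cons, List.not_mem_nil, or_false] at hD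
  rcases hD with rfl | rfl | rfl | rfl | rfl | rfl | rfl
  · have hs := simple_lt _ simpleOK_G2 hi
    exact nMat_explicit _ (by decide) xLitG2 (getN etaLitG2 i) i hi hs.1 hs.2
      (xLitG2_ok _ hs.1) (xLitG2_ok _ hs.2) (allB_spec cartanOK_G2 hi) (nG2_ok i hi)
  · have hs := simple_lt _ simpleOK_B2 hi
    exact nMat_explicit _ (by decide) xLitB2 (getN etaLitB2 i) i hi hs.1 hs.2
      (xLitB2_ok _ hs.1) (xLitB2_ok _ hs.2) (allB_spec cartanOK_B2 hi) (nB2_ok i hi)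
  · have hs := simple_lt _ simpleOK_D4 hi
    exact nMat_explicit _ (by decide) xLitD4 (getN etaLitD4 i) i hi hs.1 hs.2
      (xLitD4_ok _ hs.1) (xLitD4_ok _ hs.2) (allB_spec cartanOK_D4 hi) (nD4_ok i hi)
  · have hs := simple_lt _ simpleOK_F4 hi
    exact nMat_explicit _ (by decide) xLitF4 (getN etaLitF4 i) i hi hs.1 hs.2
      (xLitF4_ok _ hs.1) (xLitF4_ok _ hs.2) (allB_spec cartanOK_F4 hi) (nF4_ok i hi)
  · have hs := simple_lt _ simpleOK_E6 hi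
    exact nMat_explicit _ (by decide) xLitE6 (getN etaLitE6 i) i hi hs.1 hs.2
      (xLitE6_ok _ hs.1) (xLitE6_ok _ hs.2) (allB_spec cartanOK_E6 hi) (nE6_ok i hi)
  · have hs := simple_lt _ simpleOK_E7 hi
    exact nMat_explicit _ (by decide) xLitE7 (getN etaLitE7 i) i hi hs.1 hs.2
      (xLitE7_ok _ hs.1) (xLitE7_ok _ hs.2) (allB_spec cartanOK_E7 hi) (nE7_ok i hi)
  · have hs := simple_lt _ simpleOK_E8 hi
    exact nMat_explicit _ (by decide) xLitE8 (getN etaLitE8 i) i hi hs.1 hs.2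
      (xLitE8_ok _ hs.1) (xLitE8_ok _ hs.2) (allB_spec cartanOK_E8 hi) (nE8_ok i hi)

end Cfsg.Agent.S1095
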