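import Cfsg.Statements.S1104
import Cfsg.Agent.Lib.Helper9.TwE6Perf

set_option autoImplicit false
open Cfsg

namespace Cfsg.Agent.S1104

open Cfsg.Agent.Lib.Helper9

/-- ²E₆(q) equals its derived subgroup. -/
theorem result {K : Type*} [Field K] [Fintype K] {q : ℕ} (hq : IsPrimePow q) (hK : Fintype.card K = q ^ 2) : commutator ↥(Cfsg.Lie.twistedE6 K q) = ⊤ := by
  exact twE6_perfect hq hK

end Cfsg.Agent.S1104
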