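import Cfsg.Statements.S1113
import Cfsg.Agent.Lib.Helper9.TwF4

set_option autoImplicit false
open Cfsg

namespace Cfsg.Agent.S1113

open Cfsg.Agent.Lib.Helper9

/-- The normal core of `B¹ = G¹ ∩ B` in ²F₄(2^(2m+1)) is trivial. -/
theorem result {K : Type*} [Field K] [Fintype K] {m : ℕ} (hK : Fintype.card K = 2 ^ (2 * m + 1)) :
    ((Cfsg.Lie.chevF4.borelSubgroup K ⊓ Cfsg.Lie.twistedF4 K (2 ^ m)).subgroupOf (Cfsg.Lie.twistedF4 K (2 ^ m))).normalCore = ⊥ := by
  have h2 : (2 : K) = 0 := by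
    have h := FiniteField.cast_card_eq_zero K
    rw [hK] at h
    push_cast at h
    exact pow_eq_zero_iff (by omega) |>.mp h
  exact twF4_core h2 (pow_ne_zero m (by norm_num))

end Cfsg.Agent.S1113
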