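import Cfsg.Statements.S1118
import Cfsg.Agent.Lib.Helper9.RankOne

set_option autoImplicit false
open Pointwise
open Cfsg

namespace Cfsg.Agent.S1118

open Cfsg.Agent.Lib.Helper9 MulAction

/-- In the rank-one set-up (`G` finite and doubly transitive on `Ω`, `t` an involution moving `a`, `Q` normal in `G_a` with `G_a = Q D`, `Q ⊓ D = 1` for the two-point stabiliser `D = G_a ⊓ G_{t • a}`, `|Q|` even, `|D|` odd), the normaliser of a subset of `Q` containing a non-identity element lies in `G_a`; consequently `N_G(Q) = N_G(G_a) = G_a`. -/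
theorem result {G Ω : Type*} [Group G] [Finite G] [MulAction G Ω] {a : Ω} {t : G} {Q : Subgroup G}
    (hS : Cfsg.IsRankOneSetup G Ω a t Q) :
    (∀ X : Set G, X ⊆ (Q : Set G) → (∃ x ∈ X, x ≠ 1) → Subgroup.normalizer X ≤ MulAction.stabilizer G a) ∧
      Subgroup.normalizer (Q : Set G) = MulAction.stabilizer G a ∧
      Subgroup.normalizer (MulAction.stabilizer G a : Set G) = MulAction.stabilizer G a := by
  have part1 : ∀ X : Set G, X ⊆ (Q : Set G) → (∃ x ∈ X, x ≠ 1) →
      Subgroup.normalizer X ≤ MulAction.stabilizer G a := by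
    intro X hXQ ⟨x, hxX, hx1⟩ g hg
    rw [Subgroup.mem_set_normalizer_iff] at hg
    have h1 : g * x * g⁻¹ ∈ X := (hg x).mp hxX
    have hxa : x • a = a := MulAction.mem_stabilizer_iff.mp (hS.le (hXQ hxX))
    rw [MulAction.mem_stabilizer_iff]
    by_contra hga
    have h2 : (g * x * g⁻¹) • (g • a) = g • a := by
      rw [smul_smul, inv_mul_cancel_right, mul_smul, hxa]
    have h3 := ro_free hS (hXQ h1) hga h2
    apply hx1
    have : x = g⁻¹ * (g * x * g⁻¹) * g := by group
    rw [this, h3]; group
  refine ⟨part1, ?_, ?_⟩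
  · apply le_antisymm
    · exact part1 _ (le_refl _) (ro_exists_ne_one hS)
    · exact ro_D_le_normalizer hS
  · apply le_antisymm
    · intro g hg
      rw [Subgroup.mem_normalizer_iff] at hg
      obtain ⟨x, hxQ, hx1⟩ := ro_exists_ne_one hS
      have h1 : g * x * g⁻¹ ∈ (MulAction.stabilizer G a : Set G) := (hg x).mp (hS.le hxQ)
      have h1' : (g * x * g⁻¹) • a = a := MulAction.mem_stabilizer_iff.mp h1
      have h2 : x • (g⁻¹ • a) = g⁻¹ • a := by
        have := congrArg (fun b => g⁻¹ • b) h1'
        simpa [smul_smul, mul_assoc] using this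
      have h3 : g⁻¹ • a = a := by
        by_contra hne
        exact hx1 (ro_free hS hxQ hne h2)
      rw [MulAction.mem_stabilizer_iff]
      have := congrArg (fun b => g • b) h3
      simpa [smul_smul] using this.symm
    · exact Subgroup.le_normalizer

end Cfsg.Agent.S1118
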