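import Cfsg.Statements.S1124

set_option autoImplicit false
open Pointwise
open Cfsg

namespace Cfsg.Agent.S1124

variable {M : Type*} [Group M]

theorem pow_card_mem {X : Subgroup M} {x : M} (hx : x ∈ X) : x ^ Nat.card X = 1 :=
  orderOf_dvd_iff_pow_eq_one.mp (Subgroup.orderOf_dvd_natCard X hx)

/-- Squaring is injective on a subgroup of odd order. -/
theorem sq_inj {X : Subgroup M} (hodd : Odd (Nat.card X)) {u v : M} (hu : u ∈ X) (hv : v ∈ X)
    (h : u * u = v * v) : u = v := by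
  obtain ⟨m, hm⟩ := hodd
  have hu' : u = (u * u) ^ (m + 1) := by
    rw [← pow_two, ← pow_mul, show 2 * (m + 1) = (2 * m + 1) + 1 by ring, ← hm, pow_succ,
      pow_card_mem hu, one_mul]
  have hv' : v = (v * v) ^ (m + 1) := by
    rw [← pow_two, ← pow_mul, show 2 * (m + 1) = (2 * m + 1) + 1 by ring, ← hm, pow_succ,
      pow_card_mem hv, one_mul]
  rw [hu', hv', h]

theorem exists_decomp (t : M) (ht2 : t * t = 1) (X : Subgroup M) (hodd : Odd (Nat.card X))
    (hnorm : ∀ x ∈ X, t * x * t⁻¹ ∈ X) (x : M) (hx : x ∈ X) :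
    ∃ y z : M, y ∈ X ⊓ Subgroup.centralizer {t} ∧ z ∈ Cfsg.invertedBy X t ∧ x = y * z := by
  have hti : t⁻¹ = t := inv_eq_of_mul_eq_one_right ht2
  obtain ⟨m, hm⟩ := hodd
  set w := x⁻¹ * (t * x * t⁻¹) with hw
  have hwX : w ∈ X := mul_mem (inv_mem hx) (hnorm x hx)
  have htt : ∀ z : M, t * (t * z) = z := fun z => by rw [← mul_assoc, ht2, one_mul]
  have hwinv : t * w * t⁻¹ = w⁻¹ := by
    rw [hw]
    simp [mul_assoc, hti, htt, ht2]
  have hconjpow : ∀ k : ℕ, t * w ^ k * t⁻¹ = (w⁻¹) ^ k := by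
    intro k
    have := map_pow (MulAut.conj t) w k
    simp only [MulAut.conj_apply] at this
    rw [this, hwinv]
  have hwpow : w ^ (2 * (m + 1)) = w := by
    rw [show 2 * (m + 1) = (2 * m + 1) + 1 by ring, ← hm, pow_succ, pow_card_mem hwX, one_mul]
  refine ⟨x * w ^ (m + 1), (w ^ (m + 1))⁻¹, ?_, ?_, ?_⟩
  · refine Subgroup.mem_inf.mpr ⟨mul_mem hx (pow_mem hwX _), ?_⟩
    rw [Subgroup.mem_centralizer_singleton_iff]
    have h1 : t * x = x * w * t := by
      rw [hw]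
      simp [mul_assoc, hti, htt, ht2]
    have h2 : t * w ^ (m + 1) = (w⁻¹) ^ (m + 1) * t := by
      have := hconjpow (m + 1)
      rw [← this]; group
    calc x * w ^ (m + 1) * t = x * (w * (w⁻¹) ^ (m + 1)) * t := by
          congr 2
          have : w * w⁻¹ ^ (m + 1) * w ^ (m + 1) = w := by
            rw [inv_pow, inv_mul_cancel_right]
          have h3 : w ^ (m + 1) * w ^ (m + 1) = w := by rw [← pow_add, ← two_mul, hwpow]
          calc w ^ (m + 1) = w ^ (m + 1) * w ^ (m + 1) * (w ^ (m + 1))⁻¹ := by group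
            _ = w * (w⁻¹) ^ (m + 1) := by rw [h3, inv_pow]
      _ = x * w * ((w⁻¹) ^ (m + 1) * t) := by group
      _ = x * w * (t * w ^ (m + 1)) := by rw [h2]
      _ = (x * w * t) * w ^ (m + 1) := by group
      _ = t * (x * w ^ (m + 1)) := by rw [← h1]; group
  · refine ⟨inv_mem (pow_mem hwX _), ?_⟩
    rw [inv_inv]
    have := hconjpow (m + 1)
    have h4 : t * (w ^ (m + 1))⁻¹ * t⁻¹ = (t * w ^ (m + 1) * t⁻¹)⁻¹ := by group
    rw [h4, this, inv_pow, inv_inv]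
  · group

theorem unique_decomp (t : M) (ht2 : t * t = 1) (X : Subgroup M) (hodd : Odd (Nat.card X))
    {y z y' z' : M} (hy : y ∈ X ⊓ Subgroup.centralizer {t}) (hz : z ∈ Cfsg.invertedBy X t)
    (hy' : y' ∈ X ⊓ Subgroup.centralizer {t}) (hz' : z' ∈ Cfsg.invertedBy X t)
    (h : y * z = y' * z') : y = y' ∧ z = z' := by
  have hti : t⁻¹ = t := inv_eq_of_mul_eq_one_right ht2
  have key : ∀ {y z : M}, y ∈ X ⊓ Subgroup.centralizer {t} → z ∈ Cfsg.invertedBy X t →
      (y * z)⁻¹ * (t * (y * z) * t⁻¹) = z⁻¹ * z⁻¹ := by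
    intro y z hy hz
    have h1 : y * t = t * y := Subgroup.mem_centralizer_singleton_iff.mp (Subgroup.mem_inf.mp hy).2
    have h2 : t * z * t⁻¹ = z⁻¹ := hz.2
    have : t * (y * z) * t⁻¹ = (t * y) * t⁻¹ * (t * z * t⁻¹) := by group
    rw [this, ← h1, h2]; group
  have h1 : z⁻¹ * z⁻¹ = z'⁻¹ * z'⁻¹ := by rw [← key hy hz, ← key hy' hz', h]
  have h2 : z⁻¹ = z'⁻¹ := sq_inj hodd (inv_mem hz.1) (inv_mem hz'.1) h1
  have h3 : z = z' := inv_injective h2
  subst h3
  exact ⟨mul_right_cancel h, rfl⟩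

/-- Let `t` be an element of order 2 of a finite group normalising a subgroup `X` of odd order, `Y = C_X(t)` and `Z` the set of elements of `X` inverted by `t`. Then `(y, z) ↦ y z` is a bijection `Y × Z → X`, so `|X| = |Y| |Z|`, and the subgroup generated by `Z` is normal in `X`. -/
theorem result {M : Type*} [Group M] [Finite M]
    (t : M) (ht : orderOf t = 2) (X : Subgroup M) (hodd : Odd (Nat.card X))
    (hnorm : ∀ x ∈ X, t * x * t⁻¹ ∈ X) :
    (∀ x ∈ X, ∃! p : M × M, p.1 ∈ X ⊓ Subgroup.centralizer {t} ∧ p.2 ∈ Cfsg.invertedBy X t ∧ x = p.1 * p.2) ∧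
      Nat.card X = Nat.card ↥(X ⊓ Subgroup.centralizer {t}) * Nat.card (Cfsg.invertedBy X t) ∧
      ∀ x ∈ X, MulAut.conj x • Subgroup.closure (Cfsg.invertedBy X t) = Subgroup.closure (Cfsg.invertedBy X t) := by
  have ht2 : t * t = 1 := by
    have := pow_orderOf_eq_one t
    rw [ht, pow_two] at this
    exact this
  have hti : t⁻¹ = t := inv_eq_of_mul_eq_one_right ht2
  have part1 : ∀ x ∈ X, ∃! p : M × M, p.1 ∈ X ⊓ Subgroup.centralizer {t} ∧
      p.2 ∈ Cfsg.invertedBy X t ∧ x = p.1 * p.2 := by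
    intro x hx
    obtain ⟨y, z, hy, hz, rfl⟩ := exists_decomp t ht2 X hodd hnorm x hx
    refine ⟨(y, z), ⟨hy, hz, rfl⟩, ?_⟩
    rintro ⟨y', z'⟩ ⟨hy', hz', e⟩
    obtain ⟨h1, h2⟩ := unique_decomp t ht2 X hodd hy hz hy' hz' e
    rw [h1, h2]
  refine ⟨part1, ?_, ?_⟩
  · rw [← Nat.card_prod]
    symm
    apply Nat.card_congr
    refine Equiv.ofBijective (fun p : ↥(X ⊓ Subgroup.centralizer {t}) × ↥(Cfsg.invertedBy X t) =>
      (⟨(p.1 : M) * (p.2 : M), mul_mem (Subgroup.mem_inf.mp p.1.2).1 p.2.2.1⟩ : X)) ⟨?_, ?_⟩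
    · rintro ⟨⟨y, hy⟩, ⟨z, hz⟩⟩ ⟨⟨y', hy'⟩, ⟨z', hz'⟩⟩ h
      have e : y * z = y' * z' := congrArg Subtype.val h
      obtain ⟨h1, h2⟩ := unique_decomp t ht2 X hodd hy hz hy' hz' e
      subst h1; subst h2; rfl
    · rintro ⟨x, hx⟩
      obtain ⟨y, z, hy, hz, rfl⟩ := exists_decomp t ht2 X hodd hnorm x hx
      exact ⟨(⟨y, hy⟩, ⟨z, hz⟩), rfl⟩
  · have hle : ∀ x ∈ X, MulAut.conj x • Subgroup.closure (Cfsg.invertedBy X t) ≤
        Subgroup.closure (Cfsg.invertedBy X t) := by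
      intro x hx
      obtain ⟨y, z, hy, hz, rfl⟩ := exists_decomp t ht2 X hodd hnorm x hx
      rw [map_mul, mul_smul, Subgroup.conj_smul_eq_self_of_mem (Subgroup.subset_closure hz),
        Subgroup.smul_closure, Subgroup.closure_le]
      rintro _ ⟨u, hu, rfl⟩
      apply Subgroup.subset_closure
      have hyX : y ∈ X := (Subgroup.mem_inf.mp hy).1
      have hyt : y * t = t * y := Subgroup.mem_centralizer_singleton_iff.mp (Subgroup.mem_inf.mp hy).2
      refine ⟨?_, ?_⟩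
      · simp only [MulAut.smul_def, MulAut.conj_apply]
        exact mul_mem (mul_mem hyX hu.1) (inv_mem hyX)
      · simp only [MulAut.smul_def, MulAut.conj_apply]
        have h2 : t * u * t⁻¹ = u⁻¹ := hu.2
        have : t * (y * u * y⁻¹) * t⁻¹ = (t * y) * (t⁻¹ * (t * u * t⁻¹) * t) * (t * y)⁻¹ := by group
        rw [this, ← hyt, h2, hti]
        have hyt' : y * t = t * y := hyt
        calc y * t * (t * u⁻¹ * t) * (y * t)⁻¹ = y * (t * t) * u⁻¹ * (t * t⁻¹) * y⁻¹ := by group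
          _ = (y * u * y⁻¹)⁻¹ := by rw [ht2]; group
    intro x hx
    apply le_antisymm (hle x hx)
    rw [Subgroup.subset_pointwise_smul_iff, ← map_inv]
    exact hle x⁻¹ (inv_mem hx)

end Cfsg.Agent.S1124
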