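import Cfsg.Statements.S1120
import Cfsg.Agent.Lib.Helper9.Invol
import Cfsg.Agent.S1124

set_option autoImplicit false
open Cfsg

namespace Cfsg.Agent.S1120

open MulAction Cfsg.Agent.Lib.Helper9

/-- An odd-order subgroup normalised by two commuting involutions `x`, `y` lies in any subgroup
containing its centralisers of `x`, `y` and `x y`. -/
theorem gen_le {G : Type*} [Group G] {N : Subgroup G} (hodd : Odd (Nat.card N)) {x y : G}
    (hx2 : x * x = 1) (hy2 : y * y = 1) (hxy : x * y = y * x)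
    (hNx : ∀ n ∈ N, x * n * x⁻¹ ∈ N) (hNy : ∀ n ∈ N, y * n * y⁻¹ ∈ N)
    (P : Subgroup G) (hPx : ∀ n ∈ N, n * x = x * n → n ∈ P) (hPy : ∀ n ∈ N, n * y = y * n → n ∈ P)
    (hPxy : ∀ n ∈ N, n * (x * y) = (x * y) * n → n ∈ P) : N ≤ P := by
  have hxi : x⁻¹ = x := invol_inv hx2
  have hyi : y⁻¹ = y := invol_inv hy2
  intro n hn
  obtain ⟨c₁, i, hc₁, hi, rfl⟩ := Cfsg.Agent.S1124.exists_decomp x hx2 N hodd hNx n hn
  have hc₁P : c₁ ∈ P := hPx c₁ (Subgroup.mem_inf.mp hc₁).1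
    (Subgroup.mem_centralizer_singleton_iff.mp (Subgroup.mem_inf.mp hc₁).2)
  refine mul_mem hc₁P ?_
  obtain ⟨hiN, hix⟩ := hi
  obtain ⟨c₂, j, hc₂, hj, hij⟩ := Cfsg.Agent.S1124.exists_decomp y hy2 N hodd hNy i hiN
  obtain ⟨hc₂N, hc₂y'⟩ := Subgroup.mem_inf.mp hc₂
  have hc₂y : c₂ * y = y * c₂ := Subgroup.mem_centralizer_singleton_iff.mp hc₂y'
  obtain ⟨hjN, hjy⟩ := hj
  -- the conjugate decomposition
  have h1 : x * c₂ * x⁻¹ ∈ N ⊓ Subgroup.centralizer {y} := by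
    refine Subgroup.mem_inf.mpr ⟨hNx c₂ hc₂N, ?_⟩
    rw [Subgroup.mem_centralizer_singleton_iff, hxi]
    calc x * c₂ * x * y = x * c₂ * (x * y) := by group
      _ = x * (c₂ * y) * x := by rw [hxy]; group
      _ = x * (y * c₂) * x := by rw [hc₂y]
      _ = (x * y) * c₂ * x := by group
      _ = y * (x * c₂ * x) := by rw [hxy]; group
  have h2 : x * j * x⁻¹ ∈ Cfsg.invertedBy N y := by
    refine ⟨hNx j hjN, ?_⟩
    calc y * (x * j * x⁻¹) * y⁻¹ = (y * x) * j * (y * x)⁻¹ := by group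
      _ = (x * y) * j * (x * y)⁻¹ := by rw [hxy]
      _ = x * (y * j * y⁻¹) * x⁻¹ := by group
      _ = x * j⁻¹ * x⁻¹ := by rw [hjy]
      _ = (x * j * x⁻¹)⁻¹ := by group
  have h3 : c₂⁻¹ ∈ N ⊓ Subgroup.centralizer {y} := inv_mem hc₂
  have h4 : c₂ * j⁻¹ * c₂⁻¹ ∈ Cfsg.invertedBy N y := by
    refine ⟨mul_mem (mul_mem hc₂N (inv_mem hjN)) (inv_mem hc₂N), ?_⟩
    have hyc : y * c₂ * y⁻¹ = c₂ := by rw [← hc₂y]; group
    calc y * (c₂ * j⁻¹ * c₂⁻¹) * y⁻¹ = (y * c₂ * y⁻¹) * (y * j * y⁻¹)⁻¹ * (y * c₂ * y⁻¹)⁻¹ := by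
          group
      _ = (c₂ * j⁻¹ * c₂⁻¹)⁻¹ := by rw [hyc, hjy]; group
  have h5 : x * c₂ * x⁻¹ * (x * j * x⁻¹) = c₂⁻¹ * (c₂ * j⁻¹ * c₂⁻¹) := by
    calc x * c₂ * x⁻¹ * (x * j * x⁻¹) = x * (c₂ * j) * x⁻¹ := by group
      _ = (c₂ * j)⁻¹ := by rw [← hij, hix]
      _ = c₂⁻¹ * (c₂ * j⁻¹ * c₂⁻¹) := by group
  obtain ⟨h6, h7⟩ := Cfsg.Agent.S1124.unique_decomp y hy2 N hodd h1 h2 h3 h4 h5
  -- the square root of `c₂`
  obtain ⟨m, hm⟩ := hodd
  have hdd : c₂ ^ (m + 1) * c₂ ^ (m + 1) = c₂ := by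
    rw [← pow_add, show m + 1 + (m + 1) = (2 * m + 1) + 1 by ring, ← hm, pow_succ,
      Cfsg.Agent.S1124.pow_card_mem hc₂N, one_mul]
  have hdN : c₂ ^ (m + 1) ∈ N := pow_mem hc₂N _
  have hdy : c₂ ^ (m + 1) * y = y * c₂ ^ (m + 1) :=
    ((show Commute c₂ y from hc₂y).pow_left (m + 1)).eq
  have hdx : x * c₂ ^ (m + 1) * x⁻¹ = (c₂ ^ (m + 1))⁻¹ := by
    have := map_pow (MulAut.conj x) c₂ (m + 1)
    simp only [MulAut.conj_apply] at this
    rw [this, h6, inv_pow]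
  have hdP : c₂ ^ (m + 1) ∈ P := hPy _ hdN hdy
  -- the corrected element
  have hj₂N : c₂ ^ (m + 1) * j * (c₂ ^ (m + 1))⁻¹ ∈ N := mul_mem (mul_mem hdN hjN) (inv_mem hdN)
  have hj₂x : x * (c₂ ^ (m + 1) * j * (c₂ ^ (m + 1))⁻¹) * x⁻¹ =
      (c₂ ^ (m + 1) * j * (c₂ ^ (m + 1))⁻¹)⁻¹ := by
    generalize c₂ ^ (m + 1) = d at hdd hdx
    calc x * (d * j * d⁻¹) * x⁻¹ = (x * d * x⁻¹) * (x * j * x⁻¹) * (x * d * x⁻¹)⁻¹ := by group
      _ = d⁻¹ * (c₂ * j⁻¹ * c₂⁻¹) * d := by rw [hdx, h7, inv_inv]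
      _ = d⁻¹ * ((d * d) * j⁻¹ * (d * d)⁻¹) * d := by rw [hdd]
      _ = (d * j * d⁻¹)⁻¹ := by group
  have hj₂y : y * (c₂ ^ (m + 1) * j * (c₂ ^ (m + 1))⁻¹) * y⁻¹ =
      (c₂ ^ (m + 1) * j * (c₂ ^ (m + 1))⁻¹)⁻¹ := by
    have hyd : y * c₂ ^ (m + 1) * y⁻¹ = c₂ ^ (m + 1) := by rw [← hdy]; group
    generalize c₂ ^ (m + 1) = d at hyd
    calc y * (d * j * d⁻¹) * y⁻¹ = (y * d * y⁻¹) * (y * j * y⁻¹) * (y * d * y⁻¹)⁻¹ := by group
      _ = (d * j * d⁻¹)⁻¹ := by rw [hyd, hjy]; group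
  have hj₂P : c₂ ^ (m + 1) * j * (c₂ ^ (m + 1))⁻¹ ∈ P := by
    apply hPxy _ hj₂N
    generalize c₂ ^ (m + 1) * j * (c₂ ^ (m + 1))⁻¹ = j₂ at hj₂x hj₂y
    have e1 : x * y * j₂ * (x * y)⁻¹ = j₂ := by
      calc x * y * j₂ * (x * y)⁻¹ = x * (y * j₂ * y⁻¹) * x⁻¹ := by group
        _ = (x * j₂ * x⁻¹)⁻¹ := by rw [hj₂y]; group
        _ = j₂ := by rw [hj₂x, inv_inv]
    conv_lhs => rw [← e1]
    group
  have hi_eq : i = c₂ ^ (m + 1) * (c₂ ^ (m + 1) * j * (c₂ ^ (m + 1))⁻¹) * c₂ ^ (m + 1) := by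
    rw [hij]
    conv_lhs => rw [← hdd]
    group
  rw [hi_eq]
  exact mul_mem (mul_mem hdP hj₂P) hdP

/-- In the rank-one set-up (`G` finite and doubly transitive on `Ω`, `t` an involution moving `a`, `Q` normal in `G_a` with `G_a = Q D`, `Q ⊓ D = 1` for the two-point stabiliser `D = G_a ⊓ G_{t • a}`, `|Q|` even, `|D|` odd), if `G` has 2-rank at least 2 then `O_{2'}(G)` equals the normal core of `G_a`. -/
theorem result {G Ω : Type*} [Group G] [Finite G] [MulAction G Ω] {a : Ω} {t : G} {Q : Subgroup G}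
    (hS : Cfsg.IsRankOneSetup G Ω a t Q)
    (h2 : ∃ x y : G, x ≠ 1 ∧ y ≠ 1 ∧ x ≠ y ∧ x * x = 1 ∧ y * y = 1 ∧ x * y = y * x) :
    Cfsg.pPrimeCore 2 G = (MulAction.stabilizer G a).normalCore := by
  obtain ⟨x, y, hx1, hy1, hxy_ne, hx2, hy2, hxy⟩ := h2
  have hpre : IsPretransitive G Ω := Cfsg.Agent.S1119.pretransitive hS
  apply le_antisymm
  · apply sSup_le
    rintro N ⟨hNn, hNc⟩
    rw [Subgroup.normal_le_normalCore]
    have hodd : Odd (Nat.card N) := Nat.coprime_two_right.mp hNc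
    obtain ⟨c, hxc, hcuniq⟩ := ro_invol_exists_fix hS hx1 hx2
    have hyc : y • c = c := ro_comm_invol_fix hS hx1 hx2 hxy.symm hxc
    have hxyc : (x * y) • c = c := by rw [mul_smul, hyc, hxc]
    have hxy1 : x * y ≠ 1 := by
      intro h
      apply hxy_ne
      have := eq_inv_of_mul_eq_one_left h
      rw [this, invol_inv hy2]
    have hxy2 : (x * y) * (x * y) = 1 := by
      calc x * y * (x * y) = x * (y * x) * y := by group
        _ = x * (x * y) * y := by rw [hxy]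
        _ = (x * x) * (y * y) := by group
        _ = 1 := by rw [hx2, hy2, one_mul]
    have hNc' : N ≤ stabilizer G c := by
      apply gen_le hodd hx2 hy2 hxy (fun n hn => hNn.conj_mem n hn x)
        (fun n hn => hNn.conj_mem n hn y) (stabilizer G c)
      · intro n _ hnx
        exact mem_stabilizer_iff.mpr (ro_comm_invol_fix hS hx1 hx2 hnx hxc)
      · intro n _ hny
        exact mem_stabilizer_iff.mpr (ro_comm_invol_fix hS hy1 hy2 hny hyc)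
      · intro n _ hnxy
        exact mem_stabilizer_iff.mpr (ro_comm_invol_fix hS hxy1 hxy2 hnxy hxyc)
    obtain ⟨g, hg⟩ := MulAction.exists_smul_eq G c a
    intro n hn
    have h1 : g⁻¹ * n * g ∈ N := by
      have := hNn.conj_mem n hn g⁻¹
      simpa using this
    have h2 := mem_stabilizer_iff.mp (hNc' h1)
    rw [mem_stabilizer_iff, ← hg]
    have := congrArg (fun b => g • b) h2
    simpa [mul_smul] using this
  · apply le_sSup
    refine ⟨Subgroup.normalCore_normal _, ?_⟩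
    have hle : (stabilizer G a).normalCore ≤ stabilizer G a ⊓ stabilizer G (t • a) := by
      intro n hn
      refine Subgroup.mem_inf.mpr ⟨Subgroup.normalCore_le _ hn, ?_⟩
      have h1 : t⁻¹ * n * t⁻¹⁻¹ ∈ stabilizer G a := hn t⁻¹
      rw [mem_stabilizer_iff] at h1 ⊢
      have := congrArg (fun b => t • b) h1
      simpa [mul_smul] using this
    have hdvd : Nat.card ↥(stabilizer G a).normalCore ∣
        Nat.card ↥(stabilizer G a ⊓ stabilizer G (t • a)) := Subgroup.card_dvd_of_le hle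
    exact Nat.coprime_two_right.mpr (hS.odd_card.of_dvd_nat hdvd)

end Cfsg.Agent.S1120
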