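import Cfsg.Statements.S1122
import Cfsg.Agent.Lib.Helper9.Invol

set_option autoImplicit false
open Cfsg

namespace Cfsg.Agent.S1122

open MulAction Cfsg.Agent.Lib.Helper9

variable {G Ω : Type*} [Group G] [MulAction G Ω] {a : Ω} {t : G} {Q : Subgroup G}

/-- For involutions `s`, `s'` of the point stabiliser there is an involution `u` swapping `a` and
`t • a` with `u s u = t s' t`. -/
theorem exists_swap [Finite G] (hS : Cfsg.IsRankOneSetup G Ω a t Q) {s s' : G}
    (hs : s ∈ Cfsg.involutionsIn (stabilizer G a : Set G))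
    (hs' : s' ∈ Cfsg.involutionsIn (stabilizer G a : Set G)) :
    ∃ u : G, u * u = 1 ∧ u * s * u = t * s' * t ∧ u • a = t • a ∧ u • (t • a) = a := by
  obtain ⟨hsa, hs1, hs2⟩ := hs
  obtain ⟨hs'a, hs'1, hs'2⟩ := hs'
  have hsa' : s • a = a := mem_stabilizer_iff.mp hsa
  have hs'a' : s' • a = a := mem_stabilizer_iff.mp hs'a
  have htt := hS.mul_self
  have hw2 : t * s' * t * (t * s' * t) = 1 := by
    simp only [mul_assoc, invol_mul_cancel htt, invol_mul_cancel hs'2, htt]
  have hwfix : (t * s' * t) • (t • a) = t • a := by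
    simp only [mul_smul]; rw [ro_tta hS, hs'a']
  have hwa : t * s' * t ∉ stabilizer G a := fun h =>
    ro_tst_not_mem hS hs'a hs'1 hs'2 (mem_stabilizer_iff.mp h)
  have hw1 : t * s' * t ≠ 1 := fun h => hwa (h ▸ one_mem _)
  have hodd := (Cfsg.Agent.S1121.result hS).1 s (t * s' * t) hsa hs1 hs2 hwa hw1 hw2
  obtain ⟨u, hu2, husu⟩ := invol_conj_of_odd hs2 hw2 hodd
  obtain ⟨c, hc, hcuniq⟩ := ro_invol_exists_fix hS hw1 hw2
  have hua : u • a = t • a := by
    rw [hcuniq _ hwfix]
    apply hcuniq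
    rw [← husu]; simp only [mul_smul]; rw [invol_smul_cancel hu2, hsa']
  have huta : u • (t • a) = a := by rw [← hua, invol_smul_cancel hu2]
  exact ⟨u, hu2, husu, hua, huta⟩

theorem conj_K [Finite G] (hS : Cfsg.IsRankOneSetup G Ω a t Q) {s s' : G}
    (hs : s ∈ Cfsg.involutionsIn (stabilizer G a : Set G))
    (hs' : s' ∈ Cfsg.involutionsIn (stabilizer G a : Set G)) :
    ∃ k ∈ Cfsg.invertedBy (stabilizer G a ⊓ stabilizer G (t • a)) t, k⁻¹ * s * k = s' := by
  obtain ⟨u, hu2, husu, hua, huta⟩ := exists_swap hS hs hs'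
  have hti := ro_t_inv hS
  have htt := hS.mul_self
  have hui : u⁻¹ = u := invol_inv hu2
  refine ⟨u * t, ⟨Subgroup.mem_inf.mpr ⟨?_, ?_⟩, ?_⟩, ?_⟩
  · rw [mem_stabilizer_iff, mul_smul, huta]
  · rw [mem_stabilizer_iff, mul_smul, ro_tta hS, hua]
  · rw [hti, mul_inv_rev, hti, hui, mul_assoc, mul_assoc, htt, mul_one]
  · rw [mul_inv_rev, hti, hui]
    have : t * u * s * (u * t) = t * (u * s * u) * t := by group
    rw [this, husu]
    exact invol_conj_cancel htt s'

theorem card_K [Finite G] (hS : Cfsg.IsRankOneSetup G Ω a t Q) :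
    Nat.card (Cfsg.invertedBy (stabilizer G a ⊓ stabilizer G (t • a)) t) =
      Nat.card (Cfsg.involutionsIn (stabilizer G a : Set G)) := by
  have hti := ro_t_inv hS
  have htt := hS.mul_self
  let A : Set G := {u | u * u = 1 ∧ u • a ≠ a}
  have hf1 : ∀ k ∈ Cfsg.invertedBy (stabilizer G a ⊓ stabilizer G (t • a)) t, ∀ q ∈ Q,
      q * (t * k) * q⁻¹ ∈ A := by
    intro k hk q hq
    obtain ⟨hkD, hkt⟩ := hk
    rw [hti] at hkt
    have hka : k • a = a := mem_stabilizer_iff.mp (Subgroup.mem_inf.mp hkD).1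
    have hqa : q⁻¹ • a = a := mem_stabilizer_iff.mp (inv_mem (hS.le hq))
    constructor
    · have : q * (t * k) * q⁻¹ * (q * (t * k) * q⁻¹) = q * (t * k * t * k) * q⁻¹ := by group
      rw [this, hkt, inv_mul_cancel]; group
    · simp only [mul_smul]
      rw [hqa, hka]
      exact ro_Q_smul_ne hS hq (ro_ta_ne hS)
  have hf2 : ∀ s ∈ Cfsg.involutionsIn (stabilizer G a : Set G), ∀ q ∈ Q,
      q * (t * s * t) * q⁻¹ ∈ A := by
    intro s hs q hq
    obtain ⟨hsa, hs1, hs2⟩ := hs
    have hqa : q⁻¹ • a = a := mem_stabilizer_iff.mp (inv_mem (hS.le hq))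
    constructor
    · apply invol_conj_sq
      simp only [mul_assoc, invol_mul_cancel htt, invol_mul_cancel hs2, htt]
    · intro h
      simp only [mul_smul] at h
      rw [hqa] at h
      have h1 : (t * s * t) • a = a := by
        have := congrArg (fun b => q⁻¹ • b) h
        simp only [inv_smul_smul, hqa] at this
        simpa only [mul_smul] using this
      exact ro_tst_not_mem hS hsa hs1 hs2 h1
  let f1 : ↥(Cfsg.invertedBy (stabilizer G a ⊓ stabilizer G (t • a)) t) × ↥Q → ↥A :=
    fun p => ⟨(p.2 : G) * (t * (p.1 : G)) * (p.2 : G)⁻¹, hf1 _ p.1.2 _ p.2.2⟩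
  let f2 : ↥(Cfsg.involutionsIn (stabilizer G a : Set G)) × ↥Q → ↥A :=
    fun p => ⟨(p.2 : G) * (t * (p.1 : G) * t) * (p.2 : G)⁻¹, hf2 _ p.1.2 _ p.2.2⟩
  have hb1 : Function.Bijective f1 := by
    constructor
    · rintro ⟨⟨k, hk⟩, ⟨q, hq⟩⟩ ⟨⟨k', hk'⟩, ⟨q', hq'⟩⟩ h
      have h' : q * (t * k) * q⁻¹ = q' * (t * k') * q'⁻¹ := congrArg Subtype.val h
      have hka : k • a = a := mem_stabilizer_iff.mp (Subgroup.mem_inf.mp hk.1).1
      have hk'a : k' • a = a := mem_stabilizer_iff.mp (Subgroup.mem_inf.mp hk'.1).1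
      have hqa : q⁻¹ • a = a := mem_stabilizer_iff.mp (inv_mem (hS.le hq))
      have hq'a : q'⁻¹ • a = a := mem_stabilizer_iff.mp (inv_mem (hS.le hq'))
      have h1 : q • (t • a) = q' • (t • a) := by
        have := congrArg (fun g : G => g • a) h'
        simp only [mul_smul] at this
        rwa [hqa, hq'a, hka, hk'a] at this
      have hqq := ro_Q_inj hS hq hq' (ro_ta_ne hS) h1
      subst hqq
      have hkk : k = k' := by
        have h2 : t * k = t * k' := by
          have := congrArg (fun g : G => q⁻¹ * g * q) h'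
          simpa [mul_assoc] using this
        exact mul_left_cancel h2
      subst hkk
      rfl
    · rintro ⟨u, hu2, hua⟩
      obtain ⟨q, hq, hqb⟩ := ro_exists_Q hS hua
      have hqa : q • a = a := mem_stabilizer_iff.mp (hS.le hq)
      have hqa' : q⁻¹ • a = a := mem_stabilizer_iff.mp (inv_mem (hS.le hq))
      have hqinv : q⁻¹ • (u • a) = t • a := by rw [← hqb, inv_smul_smul]
      have hui : u⁻¹ = u := invol_inv hu2
      have hkK : t * q⁻¹ * u * q ∈ Cfsg.invertedBy (stabilizer G a ⊓ stabilizer G (t • a)) t := by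
        refine ⟨Subgroup.mem_inf.mpr ⟨?_, ?_⟩, ?_⟩
        · rw [mem_stabilizer_iff]; simp only [mul_smul]; rw [hqa, hqinv, ro_tta hS]
        · rw [mem_stabilizer_iff]; simp only [mul_smul]
          rw [hqb, invol_smul_cancel hu2, hqa']
        · rw [hti]
          simp only [mul_inv_rev, hti, hui, inv_inv, mul_assoc, invol_mul_cancel htt]
      refine ⟨(⟨t * q⁻¹ * u * q, hkK⟩, ⟨q, hq⟩), ?_⟩
      apply Subtype.ext
      show q * (t * (t * q⁻¹ * u * q)) * q⁻¹ = u
      simp only [mul_assoc, invol_mul_cancel htt]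
      simp
  have hb2 : Function.Bijective f2 := by
    constructor
    · rintro ⟨⟨s, hs⟩, ⟨q, hq⟩⟩ ⟨⟨s', hs'⟩, ⟨q', hq'⟩⟩ h
      have h' : q * (t * s * t) * q⁻¹ = q' * (t * s' * t) * q'⁻¹ := congrArg Subtype.val h
      have hsa : s • a = a := mem_stabilizer_iff.mp hs.1
      have hs'a : s' • a = a := mem_stabilizer_iff.mp hs'.1
      have hmem := hf2 s hs q hq
      have hne1 : q * (t * s * t) * q⁻¹ ≠ 1 := by
        intro h1
        apply hmem.2
        rw [h1, one_smul]
      obtain ⟨c, hc, hcuniq⟩ := ro_invol_exists_fix hS hne1 hmem.1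
      have h1 : q • (t • a) = q' • (t • a) := by
        rw [hcuniq (q • (t • a)), hcuniq (q' • (t • a))]
        · rw [h']; simp only [mul_smul]
          rw [inv_smul_smul, ro_tta hS, hs'a]
        · simp only [mul_smul]
          rw [inv_smul_smul, ro_tta hS, hsa]
      have hqq := ro_Q_inj hS hq hq' (ro_ta_ne hS) h1
      subst hqq
      have hss : s = s' := by
        have h2 : t * s * t = t * s' * t := by
          have := congrArg (fun g : G => q⁻¹ * g * q) h'
          simpa [mul_assoc] using this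
        exact mul_left_cancel (mul_right_cancel h2)
      subst hss
      rfl
    · rintro ⟨u, hu2, hua⟩
      have hu1 : u ≠ 1 := by
        intro h; apply hua; rw [h, one_smul]
      obtain ⟨c, hc, hcuniq⟩ := ro_invol_exists_fix hS hu1 hu2
      have hca : c ≠ a := by
        intro h; apply hua; rw [← h]; exact hc
      obtain ⟨q, hq, hqc⟩ := ro_exists_Q hS hca
      have hqinv : q⁻¹ • c = t • a := by rw [← hqc, inv_smul_smul]
      have hsI : t * q⁻¹ * u * q * t ∈ Cfsg.involutionsIn (stabilizer G a : Set G) := by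
        have hsq : t * q⁻¹ * u * q * t * (t * q⁻¹ * u * q * t) = 1 := by
          simp only [mul_assoc, invol_mul_cancel htt, mul_inv_cancel_left, invol_mul_cancel hu2,
            inv_mul_cancel_left, htt]
        refine ⟨?_, ?_, hsq⟩
        · rw [SetLike.mem_coe, mem_stabilizer_iff]; simp only [mul_smul]
          rw [hqc, hc, hqinv, ro_tta hS]
        · intro h
          apply hu1
          have : u = q * (t * (t * q⁻¹ * u * q * t) * t) * q⁻¹ := by
            simp only [mul_assoc, invol_mul_cancel htt, htt, mul_one]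
            simp
          rw [this, h]
          simp [htt]
      refine ⟨(⟨t * q⁻¹ * u * q * t, hsI⟩, ⟨q, hq⟩), ?_⟩
      apply Subtype.ext
      show q * (t * (t * q⁻¹ * u * q * t) * t) * q⁻¹ = u
      simp only [mul_assoc, invol_mul_cancel htt, htt, mul_one]
      simp
  have e1 := Nat.card_congr (Equiv.ofBijective f1 hb1)
  have e2 := Nat.card_congr (Equiv.ofBijective f2 hb2)
  rw [Nat.card_prod] at e1 e2
  have hQpos : 0 < Nat.card Q := Nat.card_pos
  exact Nat.eq_of_mul_eq_mul_right hQpos (e1.trans e2.symm)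

/-- In the rank-one set-up (`G` finite and doubly transitive on `Ω`, `t` an involution moving `a`, `Q` normal in `G_a` with `G_a = Q D`, `Q ⊓ D = 1` for the two-point stabiliser `D = G_a ⊓ G_{t • a}`, `|Q|` even, `|D|` odd), with `K` the set of elements of `D` inverted by `t`: `|K|` is the number of involutions of `G_a`, and for each involution `s` of `G_a` the `K`-conjugates of `s` are all the involutions of `G_a`. -/
theorem result {G Ω : Type*} [Group G] [Finite G] [MulAction G Ω] {a : Ω} {t : G} {Q : Subgroup G}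
    (hS : Cfsg.IsRankOneSetup G Ω a t Q) :
    Nat.card (Cfsg.invertedBy (MulAction.stabilizer G a ⊓ MulAction.stabilizer G (t • a)) t) = Nat.card (Cfsg.involutionsIn (MulAction.stabilizer G a : Set G)) ∧
      ∀ s ∈ Cfsg.involutionsIn (MulAction.stabilizer G a : Set G), ∀ s' ∈ Cfsg.involutionsIn (MulAction.stabilizer G a : Set G),
        ∃ k ∈ Cfsg.invertedBy (MulAction.stabilizer G a ⊓ MulAction.stabilizer G (t • a)) t, k⁻¹ * s * k = s' :=
  ⟨card_K hS, fun _ hs _ hs' => conj_K hS hs hs'⟩

end Cfsg.Agent.S1122
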