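import Cfsg.Statements.S1123
import Cfsg.Agent.Lib.Helper9.RankOne2

set_option autoImplicit false
open Cfsg

namespace Cfsg.Agent.S1123

open MulAction Cfsg.Agent.Lib.Helper9

theorem tt_cancel {G : Type*} [Group G] {t : G} (ht : t * t = 1) (z : G) :
    t * (t * z * t) * t = z := by
  calc t * (t * z * t) * t = (t * t) * z * (t * t) := by group
    _ = z := by rw [ht]; group

/-- In the rank-one set-up (`G` finite and doubly transitive on `Ω`, `t` an involution moving `a`, `Q` normal in `G_a` with `G_a = Q D`, `Q ⊓ D = 1` for the two-point stabiliser `D = G_a ⊓ G_{t • a}`, `|Q|` even, `|D|` odd), there is a unique pair `(s, r)` with `s` an involution of `G_a`, `r ∈ Q` and `t s t = r⁻¹ t r`. -/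
theorem result {G Ω : Type*} [Group G] [Finite G] [MulAction G Ω] {a : Ω} {t : G} {Q : Subgroup G}
    (hS : Cfsg.IsRankOneSetup G Ω a t Q) :
    ∃! p : G × G, p.1 ∈ Cfsg.involutionsIn (MulAction.stabilizer G a : Set G) ∧ p.2 ∈ Q ∧
      t * p.1 * t = p.2⁻¹ * t * p.2 := by
  obtain ⟨c, htc, hcuniq⟩ := ro_invol_exists_fix hS hS.ne_one hS.mul_self
  have hca : c ≠ a := fun h => ro_ta_ne hS (by rw [← h]; exact htc)
  obtain ⟨⟨r, hr⟩, hrc, hruniq⟩ := ro_existsUnique_Q hS (ro_ta_ne hS) hca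
  have hrc' : r • (t • a) = c := hrc
  have hrinv : r⁻¹ • c = t • a := by rw [← hrc', inv_smul_smul]
  refine ⟨(t * (r⁻¹ * t * r) * t, r), ⟨⟨?_, ?_, ?_⟩, hr, ?_⟩, ?_⟩
  · show t * (r⁻¹ * t * r) * t ∈ (stabilizer G a : Set G)
    rw [SetLike.mem_coe, mem_stabilizer_iff]
    simp only [mul_smul]
    rw [hrc', htc, hrinv, ro_tta hS]
  · intro h
    change t * (r⁻¹ * t * r) * t = 1 at h
    apply hS.ne_one
    have h1 : r⁻¹ * t * r = 1 := by
      have := tt_cancel hS.mul_self (r⁻¹ * t * r)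
      rw [← this, h, mul_one, hS.mul_self]
    have : t = r * (r⁻¹ * t * r) * r⁻¹ := by group
    rw [this, h1]; group
  · show t * (r⁻¹ * t * r) * t * (t * (r⁻¹ * t * r) * t) = 1
    have : t * (r⁻¹ * t * r) * t * (t * (r⁻¹ * t * r) * t)
        = t * r⁻¹ * t * r * (t * t) * r⁻¹ * t * r * t := by group
    rw [this, hS.mul_self]
    have : t * r⁻¹ * t * r * 1 * r⁻¹ * t * r * t = t * r⁻¹ * (t * t) * r * t := by group
    rw [this, hS.mul_self]
    have : t * r⁻¹ * 1 * r * t = t * t := by group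
    rw [this, hS.mul_self]
  · exact tt_cancel hS.mul_self _
  · rintro ⟨s', r'⟩ ⟨⟨hs'a, hs'1, hs'2⟩, hr', he⟩
    simp only at hs'a hs'1 hs'2 hr' he
    have hs'a' : s' • a = a := mem_stabilizer_iff.mp hs'a
    have h1 : (t * s' * t) • (t • a) = t • a := by
      simp only [mul_smul]
      rw [ro_tta hS, hs'a']
    rw [he] at h1
    have h2 : t • (r' • (t • a)) = r' • (t • a) := by
      have := congrArg (fun b => r' • b) h1
      simpa [mul_smul] using this
    have h3 : r' • (t • a) = c := hcuniq _ h2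
    have h4 := hruniq ⟨r', hr'⟩ h3
    have h5 : r' = r := congrArg Subtype.val h4
    subst h5
    have h6 : s' = t * (r'⁻¹ * t * r') * t := by
      rw [← he]; exact (tt_cancel hS.mul_self s').symm
    rw [h6]

end Cfsg.Agent.S1123
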