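import Cfsg.Statements.S1125
import Cfsg.Agent.Lib.Helper9.Invol

set_option autoImplicit false
open Cfsg

namespace Cfsg.Agent.S1125

open MulAction Cfsg.Agent.Lib.Helper9

variable {G Ω : Type*} [Group G] [MulAction G Ω] {a : Ω} {t : G} {Q : Subgroup G}

/-- The centraliser of `X` contains elements fixing a fixed point and moving any other fixed
point to any other. -/
theorem exists_fixing (hS : Cfsg.IsRankOneSetup G Ω a t Q) {X : Set G} {p₀ p p' : Ω}
    (h0 : ∀ x ∈ X, x • p₀ = p₀) (hp : ∀ x ∈ X, x • p = p) (hp' : ∀ x ∈ X, x • p' = p')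
    (hne : p ≠ p₀) (hne' : p' ≠ p₀) :
    ∃ g ∈ Subgroup.centralizer X, g • p₀ = p₀ ∧ g • p = p' := by
  have : IsPretransitive G Ω := Cfsg.Agent.S1119.pretransitive hS
  obtain ⟨h, rfl⟩ := MulAction.exists_smul_eq G a p₀
  have hS' := ro_conj hS h
  obtain ⟨q, hq, hqc, hqp⟩ := ro_exists_centralizing hS' h0 hne hne' hp hp'
  exact ⟨q, hqc, mem_stabilizer_iff.mp (hS'.le hq), hqp⟩

theorem centralizer_fix {X : Set G} {g : G} (hg : g ∈ Subgroup.centralizer X) {p : Ω}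
    (hp : ∀ x ∈ X, x • p = p) : ∀ x ∈ X, x • (g • p) = g • p := by
  intro x hx
  have := Subgroup.mem_centralizer_iff.mp hg x hx
  rw [smul_smul, this, mul_smul, hp x hx]

/-- The centraliser of `X` is doubly transitive on the fixed points of `X`. -/
theorem two_trans (hS : Cfsg.IsRankOneSetup G Ω a t Q) {X : Set G}
    (h3 : ∃ b c d : Ω, b ≠ c ∧ b ≠ d ∧ c ≠ d ∧ ∀ x ∈ X, x • b = b ∧ x • c = c ∧ x • d = d)
    {b₁ b₂ c₁ c₂ : Ω} (hb₁ : ∀ x ∈ X, x • b₁ = b₁) (hb₂ : ∀ x ∈ X, x • b₂ = b₂)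
    (hc₁ : ∀ x ∈ X, x • c₁ = c₁) (hc₂ : ∀ x ∈ X, x • c₂ = c₂) (hb : b₁ ≠ b₂) (hc : c₁ ≠ c₂) :
    ∃ g ∈ Subgroup.centralizer X, g • b₁ = c₁ ∧ g • b₂ = c₂ := by
  -- step 1
  have step1 : ∃ g ∈ Subgroup.centralizer X, g • b₁ = c₁ := by
    by_cases h : b₁ = c₁
    · exact ⟨1, one_mem _, by rw [one_smul, h]⟩
    · obtain ⟨b, c, d, hbc, hbd, hcd, hfix⟩ := h3
      have hex : ∃ e : Ω, (∀ x ∈ X, x • e = e) ∧ b₁ ≠ e ∧ c₁ ≠ e := by
        by_cases h1 : b₁ = b
        · by_cases h2 : c₁ = c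
          · exact ⟨d, fun x hx => (hfix x hx).2.2, by rw [h1]; exact hbd, by rw [h2]; exact hcd⟩
          · exact ⟨c, fun x hx => (hfix x hx).2.1, by rw [h1]; exact hbc, h2⟩
        · by_cases h2 : c₁ = b
          · by_cases h4 : b₁ = c
            · exact ⟨d, fun x hx => (hfix x hx).2.2, by rw [h4]; exact hcd, by rw [h2]; exact hbd⟩
            · exact ⟨c, fun x hx => (hfix x hx).2.1, h4, by rw [h2]; exact hbc⟩
          · exact ⟨b, fun x hx => (hfix x hx).1, h1, h2⟩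
      obtain ⟨e, he, hbe, hce⟩ := hex
      obtain ⟨g, hg, -, hgb⟩ := exists_fixing hS he hb₁ hc₁ hbe hce
      exact ⟨g, hg, hgb⟩
  obtain ⟨g₁, hg₁, hg₁b⟩ := step1
  have hne : g₁ • b₂ ≠ c₁ := by
    intro h
    rw [← hg₁b] at h
    exact hb (MulAction.injective g₁ h).symm
  obtain ⟨g₂, hg₂, hg₂c, hg₂b⟩ := exists_fixing hS hc₁ (centralizer_fix hg₁ hb₂) hc₂ hne hc.symm
  exact ⟨g₂ * g₁, mul_mem hg₂ hg₁, by rw [mul_smul, hg₁b, hg₂c], by rw [mul_smul, hg₂b]⟩

/-- There is an involution centralising `X` and swapping `a` and `t • a`. -/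
theorem exists_swap_centralizing [Finite G] (hS : Cfsg.IsRankOneSetup G Ω a t Q) {X : Set G}
    (hX : X ⊆ ((stabilizer G a ⊓ stabilizer G (t • a) : Subgroup G) : Set G))
    (h3 : ∃ b c d : Ω, b ≠ c ∧ b ≠ d ∧ c ≠ d ∧ ∀ x ∈ X, x • b = b ∧ x • c = c ∧ x • d = d) :
    ∃ u ∈ Subgroup.centralizer X, u * u = 1 ∧ u • a = t • a ∧ u • (t • a) = a := by
  have hXa : ∀ x ∈ X, x • a = a := fun x hx =>
    mem_stabilizer_iff.mp (Subgroup.mem_inf.mp (hX hx)).1
  have hXb : ∀ x ∈ X, x • (t • a) = t • a := fun x hx =>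
    mem_stabilizer_iff.mp (Subgroup.mem_inf.mp (hX hx)).2
  obtain ⟨y, hy, hya, hyb⟩ := two_trans hS h3 hXa hXb hXb hXa (ro_ta_ne hS).symm (ro_ta_ne hS)
  have hyyD : y * y ∈ stabilizer G a ⊓ stabilizer G (t • a) := by
    refine Subgroup.mem_inf.mpr ⟨?_, ?_⟩
    · rw [mem_stabilizer_iff, mul_smul, hya, hyb]
    · rw [mem_stabilizer_iff, mul_smul, hyb, hya]
  have hodd : Odd (orderOf (y * y)) :=
    hS.odd_card.of_dvd_nat (Subgroup.orderOf_dvd_natCard _ hyyD)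
  obtain ⟨m, hm⟩ := hodd
  have hpow : ∀ k : ℕ, (y * y) ^ k • a = a ∧ (y * y) ^ k • (t • a) = t • a := by
    intro k
    have := pow_mem hyyD k
    exact ⟨mem_stabilizer_iff.mp (Subgroup.mem_inf.mp this).1,
      mem_stabilizer_iff.mp (Subgroup.mem_inf.mp this).2⟩
  refine ⟨y * (y * y) ^ m, mul_mem hy (pow_mem (mul_mem hy hy) m), ?_, ?_, ?_⟩
  · have hc : Commute y ((y * y) ^ m) :=
      ((Commute.refl y).mul_right (Commute.refl y)).pow_right m
    calc y * (y * y) ^ m * (y * (y * y) ^ m) = y * ((y * y) ^ m * y) * (y * y) ^ m := by group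
      _ = y * (y * (y * y) ^ m) * (y * y) ^ m := by rw [hc.eq]
      _ = (y * y) ^ (2 * m + 1) := by
        rw [pow_succ, two_mul, pow_add]
        have hc2 : Commute (y * y) ((y * y) ^ m) := (Commute.refl (y * y)).pow_right m
        calc y * (y * (y * y) ^ m) * (y * y) ^ m = (y * y) * (y * y) ^ m * (y * y) ^ m := by group
          _ = (y * y) ^ m * (y * y) * (y * y) ^ m := by rw [hc2.eq]
          _ = (y * y) ^ m * (y * y) ^ m * (y * y) := by
            rw [mul_assoc, hc2.eq, ← mul_assoc]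
      _ = 1 := by rw [← hm]; exact pow_orderOf_eq_one _
  · rw [mul_smul, (hpow m).1, hya]
  · rw [mul_smul, (hpow m).2, hyb]

/-- In the rank-one set-up (`G` finite and doubly transitive on `Ω`, `t` an involution moving `a`, `Q` normal in `G_a` with `G_a = Q D`, `Q ⊓ D = 1` for the two-point stabiliser `D = G_a ⊓ G_{t • a}`, `|Q|` even, `|D|` odd), let `X ⊆ D` fix at least three points of `Ω`. Then `C_G(X)` is doubly transitive on the fixed-point set of `X`, `|C_Q(X)|` is even, and `C_{G_a}(X) = C_Q(X) C_D(X)`. -/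
theorem result {G Ω : Type*} [Group G] [Finite G] [MulAction G Ω] {a : Ω} {t : G} {Q : Subgroup G}
    (hS : Cfsg.IsRankOneSetup G Ω a t Q)
    (X : Set G) (hX : X ⊆ ((MulAction.stabilizer G a ⊓ MulAction.stabilizer G (t • a)) : Set G))
    (h3 : ∃ b c d : Ω, b ≠ c ∧ b ≠ d ∧ c ≠ d ∧ ∀ x ∈ X, x • b = b ∧ x • c = c ∧ x • d = d) :
    (∀ b₁ b₂ c₁ c₂ : Ω, (∀ x ∈ X, x • b₁ = b₁ ∧ x • b₂ = b₂ ∧ x • c₁ = c₁ ∧ x • c₂ = c₂) →
        b₁ ≠ b₂ → c₁ ≠ c₂ → ∃ g ∈ Subgroup.centralizer X, g • b₁ = c₁ ∧ g • b₂ = c₂) ∧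
      Even (Nat.card ↥(Subgroup.centralizer X ⊓ Q)) ∧
      (Subgroup.centralizer X ⊓ Q) ⊔ (Subgroup.centralizer X ⊓ (MulAction.stabilizer G a ⊓ MulAction.stabilizer G (t • a))) = Subgroup.centralizer X ⊓ MulAction.stabilizer G a := by
  have hXa : ∀ x ∈ X, x • a = a := fun x hx =>
    mem_stabilizer_iff.mp (Subgroup.mem_inf.mp (hX hx)).1
  have hXb : ∀ x ∈ X, x • (t • a) = t • a := fun x hx =>
    mem_stabilizer_iff.mp (Subgroup.mem_inf.mp (hX hx)).2
  refine ⟨?_, ?_, ?_⟩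
  · intro b₁ b₂ c₁ c₂ hfix hb hc
    exact two_trans hS h3 (fun x hx => (hfix x hx).1) (fun x hx => (hfix x hx).2.1)
      (fun x hx => (hfix x hx).2.2.1) (fun x hx => (hfix x hx).2.2.2) hb hc
  · obtain ⟨u, huc, hu2, hua, hub⟩ := exists_swap_centralizing hS hX h3
    have hu1 : u ≠ 1 := by
      intro h
      rw [h, one_smul] at hua
      exact ro_ta_ne hS hua.symm
    obtain ⟨c, hc, hcuniq⟩ := ro_invol_exists_fix hS hu1 hu2
    have hca : c ≠ a := by
      intro h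
      rw [h, hua] at hc
      exact ro_ta_ne hS hc
    have hXc : ∀ x ∈ X, x • c = c := fun x hx =>
      ro_comm_invol_fix hS hu1 hu2 (Subgroup.mem_centralizer_iff.mp huc x hx) hc
    obtain ⟨h, hh, hhc, -⟩ := two_trans hS h3 hXc hXa hXa hXc hca hca.symm
    have hs2 : h * u * h⁻¹ * (h * u * h⁻¹) = 1 := invol_conj_sq hu2 h
    have hsa : h * u * h⁻¹ ∈ stabilizer G a := by
      rw [mem_stabilizer_iff]; simp only [mul_smul]
      rw [← hhc, inv_smul_smul, hc]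
    have hsQ : h * u * h⁻¹ ∈ Q := Cfsg.Agent.S1121.invol_mem_Q hS hsa hs2
    have hsC : h * u * h⁻¹ ∈ Subgroup.centralizer X := mul_mem (mul_mem hh huc) (inv_mem hh)
    have hs1 : h * u * h⁻¹ ≠ 1 := by
      intro h1
      apply hu1
      have : u = h⁻¹ * (h * u * h⁻¹) * h := by group
      rw [this, h1]; group
    have hord : orderOf (h * u * h⁻¹) = 2 := by
      apply orderOf_eq_prime
      · rw [pow_two]; exact hs2
      · exact hs1
    have hdvd : 2 ∣ Nat.card ↥(Subgroup.centralizer X ⊓ Q) := by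
      rw [← hord]
      exact Subgroup.orderOf_dvd_natCard _ (Subgroup.mem_inf.mpr ⟨hsC, hsQ⟩)
    exact even_iff_two_dvd.mpr hdvd
  · apply le_antisymm
    · exact sup_le (inf_le_inf_left _ hS.le) (inf_le_inf_left _ inf_le_left)
    · intro g hg
      obtain ⟨hgC, hga⟩ := Subgroup.mem_inf.mp hg
      have hga' : g • a = a := mem_stabilizer_iff.mp hga
      have hne : g • (t • a) ≠ a := by
        intro h
        have : g • (t • a) = g • a := by rw [h, hga']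
        exact ro_ta_ne hS (MulAction.injective g this)
      obtain ⟨q, hq, hqC, hqb⟩ := ro_exists_centralizing hS hXa (ro_ta_ne hS) hne hXb
        (centralizer_fix hgC hXb)
      have hmem : q⁻¹ * g ∈ Subgroup.centralizer X ⊓ (stabilizer G a ⊓ stabilizer G (t • a)) := by
        refine Subgroup.mem_inf.mpr ⟨mul_mem (inv_mem hqC) hgC, Subgroup.mem_inf.mpr ⟨?_, ?_⟩⟩
        · exact mul_mem (inv_mem (hS.le hq)) hga
        · rw [mem_stabilizer_iff, mul_smul, ← hqb, inv_smul_smul]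
      have : g = q * (q⁻¹ * g) := by group
      rw [this]
      exact Subgroup.mul_mem_sup (Subgroup.mem_inf.mpr ⟨hqC, hq⟩) hmem

end Cfsg.Agent.S1125
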