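import Cfsg.Statements.S1126
import Cfsg.Agent.S1125

set_option autoImplicit false
open Cfsg

namespace Cfsg.Agent.S1126

open MulAction Cfsg.Agent.Lib.Helper9

theorem conj_comm_of {G : Type*} [Group G] {e u t x : G} (h : e * u = t * e)
    (hxu : x * u = u * x) : (e * x * e⁻¹) * t = t * (e * x * e⁻¹) := by
  have ht : t = e * u * e⁻¹ := by rw [h]; group
  subst ht
  calc e * x * e⁻¹ * (e * u * e⁻¹) = e * (x * u) * e⁻¹ := by group
    _ = e * (u * x) * e⁻¹ := by rw [hxu]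
    _ = e * u * e⁻¹ * (e * x * e⁻¹) := by group

/-- In the rank-one set-up (`G` finite and doubly transitive on `Ω`, `t` an involution moving `a`, `Q` normal in `G_a` with `G_a = Q D`, `Q ⊓ D = 1` for the two-point stabiliser `D = G_a ⊓ G_{t • a}`, `|Q|` even, `|D|` odd), a subset `X ⊆ D` fixing at least three points of `Ω` is conjugate by an element of `D` into `V = C_D(t)`. -/
theorem result {G Ω : Type*} [Group G] [Finite G] [MulAction G Ω] {a : Ω} {t : G} {Q : Subgroup G}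
    (hS : Cfsg.IsRankOneSetup G Ω a t Q)
    (X : Set G) (hX : X ⊆ ((MulAction.stabilizer G a ⊓ MulAction.stabilizer G (t • a)) : Set G))
    (h3 : ∃ b c d : Ω, b ≠ c ∧ b ≠ d ∧ c ≠ d ∧ ∀ x ∈ X, x • b = b ∧ x • c = c ∧ x • d = d) :
    ∃ k ∈ (MulAction.stabilizer G a ⊓ MulAction.stabilizer G (t • a)), ∀ x ∈ X, (k * x * k⁻¹) * t = t * (k * x * k⁻¹) := by
  obtain ⟨u, huc, hu2, hua, hub⟩ := Cfsg.Agent.S1125.exists_swap_centralizing hS hX h3
  have htt := hS.mul_self
  have hti := ro_t_inv hS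
  have hui := invol_inv hu2
  have hkD : t * u ∈ stabilizer G a ⊓ stabilizer G (t • a) := by
    refine Subgroup.mem_inf.mpr ⟨?_, ?_⟩
    · rw [mem_stabilizer_iff, mul_smul, hua, ro_tta hS]
    · rw [mem_stabilizer_iff, mul_smul, hub]
  have hodd : Odd (orderOf (t * u)) :=
    hS.odd_card.of_dvd_nat (Subgroup.orderOf_dvd_natCard _ hkD)
  obtain ⟨m, hm⟩ := hodd
  have hkinv : (t * u)⁻¹ = u * t := by rw [mul_inv_rev, hti, hui]
  have hsemi : SemiconjBy t (t * u) (t * u)⁻¹ := by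
    show t * (t * u) = (t * u)⁻¹ * t
    rw [hkinv, invol_mul_cancel htt, mul_assoc, htt, mul_one]
  have hsemik : t * (t * u) ^ (m + 1) = ((t * u)⁻¹) ^ (m + 1) * t := hsemi.pow_right (m + 1)
  have hpow : (t * u) ^ m * (t * u) ^ (m + 1) = 1 := by
    rw [← pow_add, show m + (m + 1) = 2 * m + 1 by ring, ← hm]; exact pow_orderOf_eq_one _
  have hu_eq : u = (t * u)⁻¹ * t := by rw [hkinv, mul_assoc, htt, mul_one]
  have heu' : ∀ k : G, u = k⁻¹ * t → t * k ^ (m + 1) = (k⁻¹) ^ (m + 1) * t →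
      k ^ m * k ^ (m + 1) = 1 → k ^ (m + 1) * u = t * k ^ (m + 1) := by
    intro k h1 h2 h3
    rw [h2, inv_pow, ← eq_inv_of_mul_eq_one_left h3, h1, pow_succ, mul_assoc,
      mul_inv_cancel_left]
  have heu : (t * u) ^ (m + 1) * u = t * (t * u) ^ (m + 1) := heu' _ hu_eq hsemik hpow
  refine ⟨(t * u) ^ (m + 1), pow_mem hkD _, ?_⟩
  intro x hx
  exact conj_comm_of heu (Subgroup.mem_centralizer_iff.mp huc x hx)

end Cfsg.Agent.S1126
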