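import Cfsg.Statements.S1127
import Cfsg.Agent.S1122
import Cfsg.Agent.S1123

set_option autoImplicit false
open Cfsg

namespace Cfsg.Agent.S1127

open MulAction Cfsg.Agent.Lib.Helper9

variable {G Ω : Type*} [Group G] [MulAction G Ω] {a : Ω} {t : G} {Q : Subgroup G}

/-- The structure relation `u s u = r⁻¹ u r` for some `r ∈ Q`. -/
def Rel (Q : Subgroup G) (u s : G) : Prop := ∃ r ∈ Q, u * s * u = r⁻¹ * u * r

/-- The involutions swapping `a` and `t • a`. -/
def T (a : Ω) (t : G) : Set G := {u | u * u = 1 ∧ u • a = t • a}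

theorem t_mem_T (hS : Cfsg.IsRankOneSetup G Ω a t Q) : t ∈ T a t := ⟨hS.mul_self, rfl⟩

theorem setup_of_T (hS : Cfsg.IsRankOneSetup G Ω a t Q) {u : G} (hu : u ∈ T a t) :
    Cfsg.IsRankOneSetup G Ω a u Q :=
  ro_change_t hS hu.1 (by rw [hu.2]; exact ro_ta_ne hS)

theorem rel_exists [Finite G] (hS : Cfsg.IsRankOneSetup G Ω a t Q) {u : G} (hu : u ∈ T a t) :
    ∃ s ∈ Cfsg.involutionsIn (stabilizer G a : Set G), Rel Q u s := by
  obtain ⟨p, ⟨hp1, hp2, hp3⟩, -⟩ := Cfsg.Agent.S1123.result (setup_of_T hS hu)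
  exact ⟨p.1, hp1, p.2, hp2, hp3⟩

theorem rel_unique [Finite G] (hS : Cfsg.IsRankOneSetup G Ω a t Q) {u : G} (hu : u ∈ T a t)
    {s s' : G} (hs : s ∈ Cfsg.involutionsIn (stabilizer G a : Set G))
    (hs' : s' ∈ Cfsg.involutionsIn (stabilizer G a : Set G)) (h : Rel Q u s) (h' : Rel Q u s') :
    s = s' := by
  obtain ⟨p, -, huniq⟩ := Cfsg.Agent.S1123.result (setup_of_T hS hu)
  obtain ⟨r, hr, e⟩ := h
  obtain ⟨r', hr', e'⟩ := h'
  have h1 := huniq (s, r) ⟨hs, hr, e⟩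
  have h2 := huniq (s', r') ⟨hs', hr', e'⟩
  have := h1.trans h2.symm
  exact congrArg Prod.fst this

theorem rel_conj (hS : Cfsg.IsRankOneSetup G Ω a t Q) {d : G} (hd : d ∈ stabilizer G a)
    {u s : G} (h : Rel Q u s) : Rel Q (d * u * d⁻¹) (d * s * d⁻¹) := by
  obtain ⟨r, hr, e⟩ := h
  refine ⟨d * r * d⁻¹, hS.conj_mem d hd r hr, ?_⟩
  have : d * u * d⁻¹ * (d * s * d⁻¹) * (d * u * d⁻¹) = d * (u * s * u) * d⁻¹ := by group
  rw [this, e]; group

theorem conj_T {d : G} (hd : d ∈ stabilizer G a ⊓ stabilizer G (t • a)) {u : G}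
    (hu : u ∈ T a t) : d * u * d⁻¹ ∈ T a t := by
  obtain ⟨hd1, hd2⟩ := Subgroup.mem_inf.mp hd
  refine ⟨invol_conj_sq hu.1 d, ?_⟩
  simp only [mul_smul]
  rw [mem_stabilizer_iff.mp (inv_mem hd1), hu.2, mem_stabilizer_iff.mp hd2]

theorem conj_invol {d : G} (hd : d ∈ stabilizer G a) {s : G}
    (hs : s ∈ Cfsg.involutionsIn (stabilizer G a : Set G)) :
    d * s * d⁻¹ ∈ Cfsg.involutionsIn (stabilizer G a : Set G) := by
  obtain ⟨hsa, hs1, hs2⟩ := hs
  refine ⟨mul_mem (mul_mem hd hsa) (inv_mem hd), ?_, invol_conj_sq hs2 d⟩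
  intro h
  apply hs1
  have : s = d⁻¹ * (d * s * d⁻¹) * d := by group
  rw [this, h]; group

theorem K_mul_mem_T (hS : Cfsg.IsRankOneSetup G Ω a t Q) {k : G}
    (hk : k ∈ Cfsg.invertedBy (stabilizer G a ⊓ stabilizer G (t • a)) t) : t * k ∈ T a t := by
  obtain ⟨hkD, hkt⟩ := hk
  rw [ro_t_inv hS] at hkt
  refine ⟨?_, ?_⟩
  · have : t * k * (t * k) = t * k * t * k := by group
    rw [this, hkt, inv_mul_cancel]
  · rw [mul_smul, mem_stabilizer_iff.mp (Subgroup.mem_inf.mp hkD).1]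

theorem T_mul_mem_K (hS : Cfsg.IsRankOneSetup G Ω a t Q) {u : G} (hu : u ∈ T a t) :
    t * u ∈ Cfsg.invertedBy (stabilizer G a ⊓ stabilizer G (t • a)) t := by
  obtain ⟨hu2, hua⟩ := hu
  have htt := hS.mul_self
  have hti := ro_t_inv hS
  have hui := invol_inv hu2
  refine ⟨Subgroup.mem_inf.mpr ⟨?_, ?_⟩, ?_⟩
  · rw [mem_stabilizer_iff, mul_smul, hua, ro_tta hS]
  · rw [mem_stabilizer_iff, mul_smul, ← hua, invol_smul_cancel hu2, hua]
  · rw [mul_inv_rev, hti, hui, invol_mul_cancel htt]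

theorem card_T (hS : Cfsg.IsRankOneSetup G Ω a t Q) :
    Nat.card (T a t) = Nat.card (Cfsg.invertedBy (stabilizer G a ⊓ stabilizer G (t • a)) t) := by
  have htt := hS.mul_self
  apply Nat.card_congr
  exact
    { toFun := fun u => ⟨t * (u : G), T_mul_mem_K hS u.2⟩
      invFun := fun k => ⟨t * (k : G), K_mul_mem_T hS k.2⟩
      left_inv := fun u => Subtype.ext (invol_mul_cancel htt _)
      right_inv := fun k => Subtype.ext (invol_mul_cancel htt _) }

theorem rel_inj [Finite G] (hS : Cfsg.IsRankOneSetup G Ω a t Q) {u u' : G} (hu : u ∈ T a t)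
    (hu' : u' ∈ T a t) {s : G} (hs : s ∈ Cfsg.involutionsIn (stabilizer G a : Set G))
    (h : Rel Q u s) (h' : Rel Q u' s) : u = u' := by
  classical
  let F : ↥(T a t) → ↥(Cfsg.involutionsIn (stabilizer G a : Set G)) :=
    fun v => ⟨(rel_exists hS v.2).choose, (rel_exists hS v.2).choose_spec.1⟩
  have hF : ∀ v : ↥(T a t), Rel Q (v : G) (F v : G) :=
    fun v => (rel_exists hS v.2).choose_spec.2
  have hFeq : ∀ (v : ↥(T a t)) (s' : G)
      (hs' : s' ∈ Cfsg.involutionsIn (stabilizer G a : Set G)), Rel Q (v : G) s' →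
      F v = ⟨s', hs'⟩ := by
    intro v s' hs' hR
    apply Subtype.ext
    exact rel_unique hS v.2 (F v).2 hs' (hF v) hR
  have hsurj : Function.Surjective F := by
    rintro ⟨s', hs'⟩
    obtain ⟨s₀, hs₀, hR₀⟩ := rel_exists hS (t_mem_T hS)
    obtain ⟨k, hk, hks⟩ := Cfsg.Agent.S1122.conj_K hS hs₀ hs'
    have hkD : k⁻¹ ∈ stabilizer G a ⊓ stabilizer G (t • a) := inv_mem hk.1
    have hR := rel_conj hS (Subgroup.mem_inf.mp hkD).1 hR₀
    rw [inv_inv, hks] at hR
    have hT := conj_T hkD (t_mem_T hS)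
    rw [inv_inv] at hT
    exact ⟨⟨k⁻¹ * t * k, hT⟩, hFeq _ s' hs' hR⟩
  have hcard : Nat.card ↥(T a t) ≤ Nat.card ↥(Cfsg.involutionsIn (stabilizer G a : Set G)) := by
    rw [card_T hS, Cfsg.Agent.S1122.card_K hS]
  have hinj := (hsurj.bijective_of_nat_card_le hcard).1
  have h1 := hFeq ⟨u, hu⟩ s hs h
  have h2 := hFeq ⟨u', hu'⟩ s hs h'
  have := hinj (h1.trans h2.symm)
  exact congrArg Subtype.val this

theorem comm_iff [Finite G] (hS : Cfsg.IsRankOneSetup G Ω a t Q) {u : G} (hu : u ∈ T a t)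
    {s : G} (hs : s ∈ Cfsg.involutionsIn (stabilizer G a : Set G)) (hR : Rel Q u s) {d : G}
    (hd : d ∈ stabilizer G a ⊓ stabilizer G (t • a)) : d * u = u * d ↔ d * s = s * d := by
  have hda := (Subgroup.mem_inf.mp hd).1
  have hR' := rel_conj hS hda hR
  constructor
  · intro h
    have h1 : d * u * d⁻¹ = u := by rw [h]; group
    rw [h1] at hR'
    have h2 := rel_unique hS hu (conj_invol hda hs) hs hR' hR
    have := congrArg (fun z => z * d) h2
    simpa using this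
  · intro h
    have h1 : d * s * d⁻¹ = s := by rw [h]; group
    rw [h1] at hR'
    have h2 := rel_inj hS (conj_T hd hu) hu hs hR' hR
    have := congrArg (fun z => z * d) h2
    simpa using this

/-- In the rank-one set-up (`G` finite and doubly transitive on `Ω`, `t` an involution moving `a`, `Q` normal in `G_a` with `G_a = Q D`, `Q ⊓ D = 1` for the two-point stabiliser `D = G_a ⊓ G_{t • a}`, `|Q|` even, `|D|` odd): if `s` is an involution of `G_a` and `r ∈ Q` satisfy `t s t = r⁻¹ t r`, then `C_D(t) = C_D(s)`; moreover `C_D(t) ⊓ C_D(K) = C_D(I ∩ G_a)`, where `K` is the set of elements of `D` inverted by `t` and `I ∩ G_a` the set of involutions of `G_a`. -/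
theorem result {G Ω : Type*} [Group G] [Finite G] [MulAction G Ω] {a : Ω} {t : G} {Q : Subgroup G}
    (hS : Cfsg.IsRankOneSetup G Ω a t Q) :
    (∀ s r : G, s ∈ Cfsg.involutionsIn (MulAction.stabilizer G a : Set G) → r ∈ Q → t * s * t = r⁻¹ * t * r →
        (MulAction.stabilizer G a ⊓ MulAction.stabilizer G (t • a)) ⊓ Subgroup.centralizer {t} = (MulAction.stabilizer G a ⊓ MulAction.stabilizer G (t • a)) ⊓ Subgroup.centralizer {s}) ∧
      (MulAction.stabilizer G a ⊓ MulAction.stabilizer G (t • a)) ⊓ Subgroup.centralizer {t} ⊓ Subgroup.centralizer (Cfsg.invertedBy (MulAction.stabilizer G a ⊓ MulAction.stabilizer G (t • a)) t) =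
        (MulAction.stabilizer G a ⊓ MulAction.stabilizer G (t • a)) ⊓ Subgroup.centralizer (Cfsg.involutionsIn (MulAction.stabilizer G a : Set G)) := by
  have hT := t_mem_T hS
  constructor
  · intro s r hs hr e
    have hR : Rel Q t s := ⟨r, hr, e⟩
    ext d
    simp only [Subgroup.mem_inf, Subgroup.mem_centralizer_singleton_iff]
    constructor
    · rintro ⟨hd, hc⟩
      exact ⟨hd, (comm_iff hS hT hs hR (Subgroup.mem_inf.mpr hd)).mp hc⟩
    · rintro ⟨hd, hc⟩
      exact ⟨hd, (comm_iff hS hT hs hR (Subgroup.mem_inf.mpr hd)).mpr hc⟩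
  · obtain ⟨s₀, hs₀, hR₀⟩ := rel_exists hS hT
    ext d
    simp only [Subgroup.mem_inf, Subgroup.mem_centralizer_iff, Set.mem_singleton_iff, forall_eq]
    constructor
    · rintro ⟨⟨hd, hc⟩, hK⟩
      refine ⟨hd, ?_⟩
      intro s' hs'
      have hds₀ := (comm_iff hS hT hs₀ hR₀ (Subgroup.mem_inf.mpr hd)).mp hc.symm
      obtain ⟨k, hk, hks⟩ := Cfsg.Agent.S1122.conj_K hS hs₀ hs'
      have hkd := hK k hk
      rw [← hks]
      have hkd' : k⁻¹ * d = d * k⁻¹ := by
        have := congrArg (fun z => k⁻¹ * z * k⁻¹) hkd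
        simpa [mul_assoc] using this.symm
      calc k⁻¹ * s₀ * k * d = k⁻¹ * s₀ * (k * d) := by group
        _ = k⁻¹ * s₀ * (d * k) := by rw [hkd]
        _ = k⁻¹ * (s₀ * d) * k := by group
        _ = k⁻¹ * (d * s₀) * k := by rw [hds₀]
        _ = (k⁻¹ * d) * s₀ * k := by group
        _ = d * k⁻¹ * s₀ * k := by rw [hkd']
        _ = d * (k⁻¹ * s₀ * k) := by group
    · rintro ⟨hd, hI⟩
      have hdD := Subgroup.mem_inf.mpr hd
      have hc : d * t = t * d := (comm_iff hS hT hs₀ hR₀ hdD).mpr (hI s₀ hs₀).symm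
      refine ⟨⟨hd, hc.symm⟩, ?_⟩
      intro k hk
      have hu : t * k ∈ T a t := K_mul_mem_T hS hk
      obtain ⟨s₁, hs₁, hR₁⟩ := rel_exists hS hu
      have h1 : d * (t * k) = t * k * d := (comm_iff hS hu hs₁ hR₁ hdD).mpr (hI s₁ hs₁).symm
      have h2 : t * (d * k) = t * (k * d) := by
        rw [← mul_assoc, ← hc, mul_assoc, h1, mul_assoc]
      exact (mul_left_cancel h2).symm

end Cfsg.Agent.S1127
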