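import Cfsg.Statements.S1128
import Cfsg.Agent.S1125

set_option autoImplicit false
open Cfsg

namespace Cfsg.Agent.S1128

open MulAction Cfsg.Agent.Lib.Helper9

/-- In the rank-one set-up (`G` finite and doubly transitive on `Ω`, `t` an involution moving `a`, `Q` normal in `G_a` with `G_a = Q D`, `Q ⊓ D = 1` for the two-point stabiliser `D = G_a ⊓ G_{t • a}`, `|Q|` even, `|D|` odd), with the action faithful and `G` containing two distinct commuting involutions: every non-identity element of `D` inverted by `t` acts fixed-point-freely on `Q`. -/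
theorem result {G Ω : Type*} [Group G] [Finite G] [MulAction G Ω] [FaithfulSMul G Ω] {a : Ω} {t : G} {Q : Subgroup G}
    (hS : Cfsg.IsRankOneSetup G Ω a t Q)
    (h2 : ∃ x y : G, x ≠ 1 ∧ y ≠ 1 ∧ x ≠ y ∧ x * x = 1 ∧ y * y = 1 ∧ x * y = y * x)
    (x : G) (hx : x ∈ Cfsg.invertedBy (MulAction.stabilizer G a ⊓ MulAction.stabilizer G (t • a)) t) (hx1 : x ≠ 1) :
    Q ⊓ Subgroup.centralizer {x} = ⊥ := by
  rw [eq_bot_iff]
  intro q hq
  obtain ⟨hqQ, hqC⟩ := Subgroup.mem_inf.mp hq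
  rw [Subgroup.mem_bot]
  by_contra hq1
  obtain ⟨hxD, hxt⟩ := hx
  have htt := hS.mul_self
  have hti := ro_t_inv hS
  rw [hti] at hxt
  have hxa : x • a = a := mem_stabilizer_iff.mp (Subgroup.mem_inf.mp hxD).1
  have hxb : x • (t • a) = t • a := mem_stabilizer_iff.mp (Subgroup.mem_inf.mp hxD).2
  have hqx : x * q = q * x := (Subgroup.mem_centralizer_singleton_iff.mp hqC).symm
  have hqb_ne : q • (t • a) ≠ t • a := fun h => hq1 (ro_free hS hqQ (ro_ta_ne hS) h)
  have hqb_ne' : q • (t • a) ≠ a := ro_Q_smul_ne hS hqQ (ro_ta_ne hS)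
  have h3 : ∃ b c d : Ω, b ≠ c ∧ b ≠ d ∧ c ≠ d ∧
      ∀ y ∈ ({x} : Set G), y • b = b ∧ y • c = c ∧ y • d = d := by
    refine ⟨a, t • a, q • (t • a), (ro_ta_ne hS).symm, hqb_ne'.symm, hqb_ne.symm, ?_⟩
    intro y hy
    rw [Set.mem_singleton_iff] at hy
    subst hy
    refine ⟨hxa, hxb, ?_⟩
    rw [smul_smul, hqx, mul_smul, hxb]
  have hX : ({x} : Set G) ⊆ ((stabilizer G a ⊓ stabilizer G (t • a) : Subgroup G) : Set G) := by
    intro y hy; rw [Set.mem_singleton_iff] at hy; subst hy; exact hxD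
  obtain ⟨u, huc, hu2, hua, hub⟩ := Cfsg.Agent.S1125.exists_swap_centralizing hS hX h3
  have hxu : x * u = u * x := Subgroup.mem_centralizer_iff.mp huc x (Set.mem_singleton x)
  have hkD : t * u ∈ stabilizer G a ⊓ stabilizer G (t • a) := by
    refine Subgroup.mem_inf.mpr ⟨?_, ?_⟩
    · rw [mem_stabilizer_iff, mul_smul, hua, ro_tta hS]
    · rw [mem_stabilizer_iff, mul_smul, hub]
  have hodd : Odd (orderOf (t * u)) :=
    hS.odd_card.of_dvd_nat (Subgroup.orderOf_dvd_natCard _ hkD)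
  obtain ⟨m, hm⟩ := hodd
  have htx : t * x = x⁻¹ * t := by
    rw [← hxt]; simp only [mul_assoc, htt, mul_one]
  have h1 : SemiconjBy (t * u) x x⁻¹ := by
    show t * u * x = x⁻¹ * (t * u)
    rw [mul_assoc, ← hxu, ← mul_assoc, htx, mul_assoc]
  have h2' : SemiconjBy (t * u) x⁻¹ x := by simpa using h1.inv_right
  have h3' : Commute ((t * u) * (t * u)) x := h2'.mul_left h1
  have h4 : Commute (((t * u) * (t * u)) ^ m) x := h3'.pow_left m
  have h5 : SemiconjBy (((t * u) * (t * u)) ^ m * (t * u)) x x⁻¹ :=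
    SemiconjBy.mul_left h4.inv_right h1
  have h6 : ((t * u) * (t * u)) ^ m * (t * u) = 1 := by
    rw [← pow_two, ← pow_mul, ← pow_succ, ← hm]; exact pow_orderOf_eq_one _
  rw [h6] at h5
  have h7 : x = x⁻¹ := by
    have := h5.eq
    simpa using this
  have h8 : x * x = 1 := mul_eq_one_iff_eq_inv.mpr h7
  have h9 : orderOf x ∣ 2 := orderOf_dvd_of_pow_eq_one (by rw [pow_two]; exact h8)
  have h10 : Odd (orderOf x) := hS.odd_card.of_dvd_nat (Subgroup.orderOf_dvd_natCard _ hxD)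
  have h11 : orderOf x = 1 := by
    rcases (Nat.dvd_prime Nat.prime_two).mp h9 with h | h
    · exact h
    · rw [h] at h10; exact absurd h10 (by decide)
  exact hx1 (orderOf_eq_one_iff.mp h11)

end Cfsg.Agent.S1128
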