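import Cfsg.Statements.S1134
import Cfsg.Agent.S1125

set_option autoImplicit false
open Cfsg

namespace Cfsg.Agent.S1134

open MulAction Cfsg.Agent.Lib.Helper9

/-- Two involutions whose product has odd order are conjugate by a power of the product. -/
theorem exists_pow_conj {G : Type*} [Group G] {t u : G} (ht : t * t = 1) (hu : u * u = 1)
    (hodd : Odd (orderOf (t * u))) : ∃ m : ℕ, (t * u) ^ m * u = t * (t * u) ^ m := by
  obtain ⟨m, hm⟩ := hodd
  have hti := invol_inv ht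
  have hui := invol_inv hu
  have hkinv : (t * u)⁻¹ = u * t := by rw [mul_inv_rev, hti, hui]
  have hsemi : SemiconjBy t (t * u) (t * u)⁻¹ := by
    show t * (t * u) = (t * u)⁻¹ * t
    rw [hkinv, invol_mul_cancel ht, mul_assoc, ht, mul_one]
  have hsemik : t * (t * u) ^ (m + 1) = ((t * u)⁻¹) ^ (m + 1) * t := hsemi.pow_right (m + 1)
  have hpow : (t * u) ^ m * (t * u) ^ (m + 1) = 1 := by
    rw [← pow_add, show m + (m + 1) = 2 * m + 1 by ring, ← hm]; exact pow_orderOf_eq_one _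
  have hu_eq : u = (t * u)⁻¹ * t := by rw [hkinv, mul_assoc, ht, mul_one]
  have heu' : ∀ k : G, u = k⁻¹ * t → t * k ^ (m + 1) = (k⁻¹) ^ (m + 1) * t →
      k ^ m * k ^ (m + 1) = 1 → k ^ (m + 1) * u = t * k ^ (m + 1) := by
    intro k h1 h2 h3
    rw [h2, inv_pow, ← eq_inv_of_mul_eq_one_left h3, h1, pow_succ, mul_assoc,
      mul_inv_cancel_left]
  exact ⟨m + 1, heu' _ hu_eq hsemik hpow⟩

/-- In the rank-one set-up (`G` finite and doubly transitive on `Ω`, `t` an involution moving `a`, `Q` normal in `G_a` with `G_a = Q D`, `Q ⊓ D = 1` for the two-point stabiliser `D = G_a ⊓ G_{t • a}`, `|Q|` even, `|D|` odd), with the action faithful and `G` containing two distinct commuting involutions, with `V = C_D(t)`: subsets of `V` conjugate in `G` are conjugate in `V`. -/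
theorem result {G Ω : Type*} [Group G] [Finite G] [MulAction G Ω] [FaithfulSMul G Ω] {a : Ω} {t : G} {Q : Subgroup G}
    (hS : Cfsg.IsRankOneSetup G Ω a t Q)
    (h2 : ∃ x y : G, x ≠ 1 ∧ y ≠ 1 ∧ x ≠ y ∧ x * x = 1 ∧ y * y = 1 ∧ x * y = y * x)
    (X : Set G) (hX : X ⊆ (((MulAction.stabilizer G a ⊓ MulAction.stabilizer G (t • a)) ⊓ Subgroup.centralizer {t} : Subgroup G) : Set G)) (g : G)
    (hY : (fun x => g * x * g⁻¹) '' X ⊆ (((MulAction.stabilizer G a ⊓ MulAction.stabilizer G (t • a)) ⊓ Subgroup.centralizer {t} : Subgroup G) : Set G)) :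
    ∃ v ∈ (MulAction.stabilizer G a ⊓ MulAction.stabilizer G (t • a)) ⊓ Subgroup.centralizer {t}, (fun x => v * x * v⁻¹) '' X = (fun x => g * x * g⁻¹) '' X := by
  have htt := hS.mul_self
  have hti := ro_t_inv hS
  have hXD : ∀ x ∈ X, x ∈ stabilizer G a ⊓ stabilizer G (t • a) := fun x hx =>
    (Subgroup.mem_inf.mp (hX hx)).1
  have hXt : ∀ x ∈ X, x * t = t * x := fun x hx =>
    Subgroup.mem_centralizer_singleton_iff.mp (Subgroup.mem_inf.mp (hX hx)).2
  have hXa : ∀ x ∈ X, x • a = a := fun x hx =>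
    mem_stabilizer_iff.mp (Subgroup.mem_inf.mp (hXD x hx)).1
  have hXb : ∀ x ∈ X, x • (t • a) = t • a := fun x hx =>
    mem_stabilizer_iff.mp (Subgroup.mem_inf.mp (hXD x hx)).2
  have hYV : ∀ x ∈ X, g * x * g⁻¹ ∈
      (stabilizer G a ⊓ stabilizer G (t • a)) ⊓ Subgroup.centralizer {t} := fun x hx =>
    hY ⟨x, hx, rfl⟩
  obtain ⟨c₀, htc, hcuniq⟩ := ro_invol_exists_fix hS hS.ne_one htt
  have hca : c₀ ≠ a := fun h => ro_ta_ne hS (by rw [← h]; exact htc)
  have hcb : c₀ ≠ t • a := by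
    intro h
    rw [h, ro_tta hS] at htc
    exact ro_ta_ne hS htc.symm
  have hXc : ∀ x ∈ X, x • c₀ = c₀ := fun x hx =>
    ro_comm_invol_fix hS hS.ne_one htt (hXt x hx) htc
  have h3 : ∃ b c d : Ω, b ≠ c ∧ b ≠ d ∧ c ≠ d ∧ ∀ x ∈ X, x • b = b ∧ x • c = c ∧ x • d = d :=
    ⟨a, t • a, c₀, (ro_ta_ne hS).symm, hca.symm, hcb.symm,
      fun x hx => ⟨hXa x hx, hXb x hx, hXc x hx⟩⟩
  have hXga : ∀ x ∈ X, x • (g⁻¹ • a) = g⁻¹ • a := by
    intro x hx
    have h1 := mem_stabilizer_iff.mp (Subgroup.mem_inf.mp (Subgroup.mem_inf.mp (hYV x hx)).1).1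
    have := congrArg (fun b => g⁻¹ • b) h1
    simpa [mul_smul] using this
  have hXgb : ∀ x ∈ X, x • (g⁻¹ • (t • a)) = g⁻¹ • (t • a) := by
    intro x hx
    have h1 := mem_stabilizer_iff.mp (Subgroup.mem_inf.mp (Subgroup.mem_inf.mp (hYV x hx)).1).2
    have := congrArg (fun b => g⁻¹ • b) h1
    simpa [mul_smul] using this
  have hne : g⁻¹ • a ≠ g⁻¹ • (t • a) := fun h =>
    ro_ta_ne hS (MulAction.injective g⁻¹ h).symm
  obtain ⟨c, hc, hca', hcb'⟩ := Cfsg.Agent.S1125.two_trans hS h3 hXa hXb hXga hXgb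
    (ro_ta_ne hS).symm hne
  -- `d = g * c` lies in `D` and conjugates `X` like `g`
  have hdD : g * c ∈ stabilizer G a ⊓ stabilizer G (t • a) := by
    refine Subgroup.mem_inf.mpr ⟨?_, ?_⟩
    · rw [mem_stabilizer_iff, mul_smul, hca', smul_inv_smul]
    · rw [mem_stabilizer_iff, mul_smul, hcb', smul_inv_smul]
  have hdx : ∀ x ∈ X, g * c * x * (g * c)⁻¹ = g * x * g⁻¹ := by
    intro x hx
    have h1 : x * c = c * x := Subgroup.mem_centralizer_iff.mp hc x hx
    calc g * c * x * (g * c)⁻¹ = g * (c * x) * c⁻¹ * g⁻¹ := by group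
      _ = g * (x * c) * c⁻¹ * g⁻¹ := by rw [h1]
      _ = g * x * g⁻¹ := by group
  obtain ⟨hda, hdb⟩ := Subgroup.mem_inf.mp hdD
  have hda' : (g * c) • a = a := mem_stabilizer_iff.mp hda
  have hdb' : (g * c) • (t • a) = t • a := mem_stabilizer_iff.mp hdb
  have hdia : (g * c)⁻¹ • a = a := mem_stabilizer_iff.mp (inv_mem hda)
  have hdib : (g * c)⁻¹ • (t • a) = t • a := mem_stabilizer_iff.mp (inv_mem hdb)
  -- the involution `t' = d t d⁻¹`
  have hu2 : (g * c) * t * (g * c)⁻¹ * ((g * c) * t * (g * c)⁻¹) = 1 := invol_conj_sq htt _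
  have hkD : t * ((g * c) * t * (g * c)⁻¹) ∈ stabilizer G a ⊓ stabilizer G (t • a) := by
    refine Subgroup.mem_inf.mpr ⟨?_, ?_⟩
    · rw [mem_stabilizer_iff]; simp only [mul_smul]
      rw [hdia, ← mul_smul g c, hdb', ro_tta hS]
    · rw [mem_stabilizer_iff]; simp only [mul_smul]
      rw [hdib, ro_tta hS, ← mul_smul g c, hda']
  have hodd : Odd (orderOf (t * ((g * c) * t * (g * c)⁻¹))) :=
    hS.odd_card.of_dvd_nat (Subgroup.orderOf_dvd_natCard _ hkD)
  obtain ⟨m, hm⟩ := exists_pow_conj htt hu2 hodd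
  refine ⟨(t * ((g * c) * t * (g * c)⁻¹)) ^ m * (g * c),
    Subgroup.mem_inf.mpr ⟨mul_mem (pow_mem hkD m) hdD, ?_⟩, ?_⟩
  · rw [Subgroup.mem_centralizer_singleton_iff]
    generalize (t * ((g * c) * t * (g * c)⁻¹)) ^ m = e at hm
    generalize g * c = d at hm
    calc e * d * t = e * (d * t * d⁻¹) * d := by group
      _ = t * e * d := by rw [hm]
      _ = t * (e * d) := by group
  · apply Set.image_congr
    intro x hx
    have hy := hYV x hx
    have hyt : g * x * g⁻¹ * t = t * (g * x * g⁻¹) :=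
      Subgroup.mem_centralizer_singleton_iff.mp (Subgroup.mem_inf.mp hy).2
    have hyt' : g * x * g⁻¹ * ((g * c) * t * (g * c)⁻¹) =
        (g * c) * t * (g * c)⁻¹ * (g * x * g⁻¹) := by
      rw [← hdx x hx]
      have := hXt x hx
      generalize g * c = d
      calc d * x * d⁻¹ * (d * t * d⁻¹) = d * (x * t) * d⁻¹ := by group
        _ = d * (t * x) * d⁻¹ := by rw [this]
        _ = d * t * d⁻¹ * (d * x * d⁻¹) := by group
    have hcomm : Commute (g * x * g⁻¹) ((t * ((g * c) * t * (g * c)⁻¹)) ^ m) :=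
      ((show Commute (g * x * g⁻¹) t from hyt).mul_right
        (show Commute (g * x * g⁻¹) ((g * c) * t * (g * c)⁻¹) from hyt')).pow_right m
    have hdx' := hdx x hx
    generalize (t * ((g * c) * t * (g * c)⁻¹)) ^ m = e at hcomm
    generalize g * c = d at hdx'
    calc e * d * x * (e * d)⁻¹ = e * (d * x * d⁻¹) * e⁻¹ := by group
      _ = e * (g * x * g⁻¹) * e⁻¹ := by rw [hdx']
      _ = (g * x * g⁻¹) * e * e⁻¹ := by rw [hcomm.eq]
      _ = g * x * g⁻¹ := by group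

end Cfsg.Agent.S1134
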