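import Cfsg.Statements.S1137
import Cfsg.Agent.Lib.Helper18.Suzuki2

set_option autoImplicit false
open Cfsg

namespace Cfsg.Agent.S1137

open Cfsg.Agent.Lib.Helper18.Suzuki2 in
/-- extraction of a single automorphism whose powers are transitive on involutions. -/
theorem gen_of_suzuki {P : Type*} [Group P] (hP : Cfsg.IsSuzukiTwoGroup P) :
    ∃ ξ : MulAut P, ∀ x y : P, x ≠ 1 → x * x = 1 → y ≠ 1 → y * y = 1 → ∃ m : ℕ, (ξ ^ m) x = y := by
  obtain ⟨hfin, hp, hna, h2, K, hKc, hK⟩ := hP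
  have : Finite (MulAut P) :=
    Finite.of_injective (fun e : MulAut P => (e : P → P)) DFunLike.coe_injective
  obtain ⟨g, hg⟩ := hKc.exists_generator
  refine ⟨(g : MulAut P), ?_⟩
  intro x y hx1 hxx hy1 hyy
  obtain ⟨k, hk, -⟩ := hK x y hx1 hxx hy1 hyy
  have hmem : k ∈ Subgroup.zpowers g := hg k
  have hmem2 : (k : MulAut P) ∈ Subgroup.zpowers (g : MulAut P) := by
    obtain ⟨i, hi⟩ := Subgroup.mem_zpowers_iff.mp hmem
    exact Subgroup.mem_zpowers_iff.mpr ⟨i, by rw [← hi]; simp⟩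
  have hmem3 : (k : MulAut P) ∈ Submonoid.powers (g : MulAut P) :=
    (isOfFinOrder_of_finite (g : MulAut P)).mem_powers_iff_mem_zpowers.mpr hmem2
  obtain ⟨m, hm⟩ := (Submonoid.mem_powers_iff _ _).mp hmem3
  exact ⟨m, by rw [hm]; exact hk⟩

/-- In a Suzuki 2-group `P` (a finite non-abelian 2-group with more than one involution admitting a cyclic group of automorphisms regular on its involutions) the involutions are exactly the non-identity central elements, and `Z(P)` is elementary abelian. -/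
theorem result {P : Type*} [Group P] (hP : Cfsg.IsSuzukiTwoGroup P) :
    (∀ x : P, (x ≠ 1 ∧ x * x = 1) ↔ (x ∈ Subgroup.center P ∧ x ≠ 1)) ∧
      ∀ z ∈ Subgroup.center P, z * z = 1 := by
  obtain ⟨ξ, htr⟩ := gen_of_suzuki hP
  obtain ⟨hfin, hp, hna, h2, K, hKc, hK⟩ := hP
  have hc := Cfsg.Agent.Lib.Helper18.Suzuki2.inv_central hp ξ htr
  have hT : ∀ z ∈ Subgroup.center P, z * z = 1 := by
    intro z hz
    exact Cfsg.Agent.Lib.Helper18.Suzuki2.center_sq (Nat.card P) P le_rfl hp ξ htr h2 hna z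
      (fun g => (Subgroup.mem_center_iff.mp hz g).symm)
  refine ⟨?_, hT⟩
  intro x
  constructor
  · rintro ⟨hx1, hxx⟩
    exact ⟨Subgroup.mem_center_iff.mpr (fun g => (hc x hxx g).symm), hx1⟩
  · rintro ⟨hxc, hx1⟩
    exact ⟨hx1, hT x hxc⟩

end Cfsg.Agent.S1137
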