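import Cfsg.Statements.S1140
import Cfsg.Agent.Lib.Helper21.FieldAut

set_option autoImplicit false
open Cfsg

namespace Cfsg.Agent.S1140

open Cfsg.Agent.Lib.Helper21

/-- For a finite field `F` of characteristic 2, the automorphisms of `F`, viewed as additive maps `F → F`, are linearly independent over `F` (acting on values) every additive endomorphism of `F` is an `F`-linear combination of them, and every biadditive map `F → F → F` is an `F`-combination of the maps `(x, y) ↦ σ(x) τ(y)`. -/
theorem result {F : Type*} [Field F] [Fintype F] [CharP F 2] :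
    LinearIndependent F (fun σ : F ≃+* F => ((σ : F →+* F) : F → F)) ∧
      (∀ f : F →+ F, ∃ (s : Finset (F ≃+* F)) (c : (F ≃+* F) → F), ∀ x : F, f x = ∑ σ ∈ s, c σ * σ x) ∧
      ∀ B : F →+ F →+ F, ∃ (s : Finset ((F ≃+* F) × (F ≃+* F))) (c : (F ≃+* F) × (F ≃+* F) → F),
        ∀ x y : F, B x y = ∑ p ∈ s, c p * (p.1 x * p.2 y) := by
  classical
  haveI : Fact (Nat.Prime 2) := ⟨Nat.prime_two⟩
  obtain ⟨b, hb⟩ := exists_aut_basis F 2
  haveI : Finite (F ≃+* F) :=
    Finite.of_injective (fun σ : F ≃+* F => (σ : F → F)) (fun σ τ h => RingEquiv.ext (congrFun h))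
  letI : Fintype (F ≃+* F) := Fintype.ofFinite _
  have key : ∀ (f : F →+ F) (x : F), f x = ∑ σ : F ≃+* F, b.repr f σ * σ x := by
    intro f x
    have h := b.sum_repr f
    have h2 := congrArg (fun g : F →+ F => g x) h
    simp only [AddMonoidHom.finsetSum_apply] at h2
    rw [← h2]
    refine Finset.sum_congr rfl (fun σ _ => ?_)
    show (b.repr f σ • b σ) x = _
    rw [AddMonoidHom.smul_apply, hb, smul_eq_mul]
  refine ⟨li_ringEquiv F, fun f => ⟨Finset.univ, fun σ => b.repr f σ, key f⟩, fun B => ?_⟩
  -- coefficient maps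
  let g : (F ≃+* F) → (F →+ F) := fun τ =>
    { toFun := fun x => b.repr (B x) τ
      map_zero' := by simp
      map_add' := fun x y => by simp }
  refine ⟨Finset.univ, fun q => b.repr (g q.2) q.1, fun x y => ?_⟩
  rw [key (B x) y, ← Finset.univ_product_univ, Finset.sum_product_right]
  refine Finset.sum_congr rfl (fun τ _ => ?_)
  have h1 : b.repr (B x) τ = g τ x := rfl
  rw [h1, key (g τ) x, Finset.sum_mul]
  refine Finset.sum_congr rfl (fun σ _ => ?_)
  ring

end Cfsg.Agent.S1140
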