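import Mathlib
import Cfsg.Statements.S1141
import Cfsg.Agent.S0779
import Cfsg.Agent.S0829
import Cfsg.Agent.Lib.Helper7.SU3Unip

set_option autoImplicit false
set_option linter.unusedVariables false
open Cfsg

namespace Cfsg.Agent.S1141

open Cfsg.Agent.Lib.Helper7.SU3Unip
open Cfsg.Agent.S0829 (phi_ne_id)

/-- Let `q = 2^n ≥ 4` and `|F| = q²`. A Sylow 2-subgroup `S` of `PSU₃(q)` has order `q³`, its centre has order `q`, and `S` is a Suzuki 2-group. -/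
theorem result {F : Type*} [Field F] [Fintype F] {n : ℕ} (hn : 2 ≤ n)
    (hF : Fintype.card F = (2 ^ n) ^ 2) (S : Sylow 2 (Cfsg.PSU 3 F (2 ^ n))) :
    Nat.card S = (2 ^ n) ^ 3 ∧ Nat.card (Subgroup.center ↥(S : Subgroup (Cfsg.PSU 3 F (2 ^ n)))) = 2 ^ n ∧
      Cfsg.IsSuzukiTwoGroup ↥(S : Subgroup (Cfsg.PSU 3 F (2 ^ n))) := by
  obtain ⟨φ, hφq, hφ2⟩ := Cfsg.Agent.S0779.exists_frob hF
  have hφne := phi_ne_id hF φ hφq
  have h2 : (2 : F) = 0 := two_eq_zero_of hF n (by omega) rfl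
  obtain ⟨e⟩ := exists_equiv φ hφq hφ2 hφne hF n (by omega) rfl S
  have hq3 : 3 ≤ 2 ^ n := by
    have h4 : 2 ^ 2 ≤ 2 ^ n := Nat.pow_le_pow_right (by norm_num) hn
    omega
  refine ⟨(Nat.card_congr e.toEquiv).trans (card_UG φ hφ2 hφne hF h2),
    card_center φ hφ2 hφne hF h2 e, suzuki φ hφ2 hφne hF h2 e hq3 S.isPGroup'⟩
end Cfsg.Agent.S1141
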