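import Cfsg.Statements.S1162
import Cfsg.Agent.Lib.Helper15.SzBridge

set_option autoImplicit false
open Cfsg

namespace Cfsg.Agent.S1162

/-- For the Suzuki group Sz(q), q = 2^(2m+1) ≥ 8, realised as the elements g of Sp₄(F) with g* = g^θ (θ the 2^(m+1)-th power map, so that θ² is squaring): `Sz(q)` is a simple group. -/
theorem result {F : Type*} [Field F] [Fintype F] {m : ℕ} (hm : 1 ≤ m) (hF : Fintype.card F = 2 ^ (2 * m + 1)) :
    IsSimpleGroup ↥(Cfsg.Lie.Sz F (2 ^ (m + 1))) := by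
  obtain ⟨k0, hk0, hk1⟩ := Cfsg.Agent.Lib.Helper4.Suz.exists_ne01 hm hF
  have hs : IsSimpleGroup ↥(Cfsg.Agent.Lib.Helper4.Suz.dat hF).G :=
    (Cfsg.Agent.Lib.Helper4.Suz.dat hF).simple (Cfsg.Agent.Lib.Helper4.Suz.dat_indep hm hF)
      k0 hk0 hk1
  exact (Cfsg.Agent.Lib.Helper15.SzBridge.equiv hm hF).symm.isSimpleGroup

end Cfsg.Agent.S1162
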