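import Cfsg.Statements.S1165
import Cfsg.Agent.Lib.Helper9.RankOne

set_option autoImplicit false
open Pointwise
open Cfsg

namespace Cfsg.Agent.S1165

open Cfsg.Agent.Lib.Helper9 MulAction

/-- In the rank-one set-up (`G` finite and doubly transitive on `Ω`, `t` an involution moving `a`, `Q` normal in `G_a` with `G_a = Q D`, `Q ⊓ D = 1` for the two-point stabiliser `D = G_a ⊓ G_{t • a}`, `|Q|` even, `|D|` odd): every `x ∈ Q`, `x ≠ 1`, determines unique `g, f ∈ Q`, `h ∈ D` with `t x t = g h t f` (a consequence of the canonical form). For these: (H1) the `f`-part of `x⁻¹` is `g⁻¹`; (H2) the `f`-part of `f` is `x`; (H3) for `a ∈ D` the `f`-part of `a⁻¹ x a` is `(t a t)⁻¹ f (t a t)`; (H4) the `h`-part of `a⁻¹ x a` is `(t a t)⁻¹ h a`, that of `x⁻¹` is `t h⁻¹ t`, and that of `f` is `h⁻¹`. -/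
theorem result {G Ω : Type*} [Group G] [Finite G] [MulAction G Ω] {a : Ω} {t : G} {Q : Subgroup G}
    (hS : Cfsg.IsRankOneSetup G Ω a t Q)
    (x g h f : G) (hx : x ∈ Q) (hx1 : x ≠ 1) (hg : g ∈ Q) (hh : h ∈ (MulAction.stabilizer G a ⊓ MulAction.stabilizer G (t • a))) (hf : f ∈ Q)
    (heq : t * x * t = g * h * t * f) :
    (∀ g₁ h₁ f₁ : G, g₁ ∈ Q → h₁ ∈ (MulAction.stabilizer G a ⊓ MulAction.stabilizer G (t • a)) → f₁ ∈ Q → t * x⁻¹ * t = g₁ * h₁ * t * f₁ →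
        f₁ = g⁻¹ ∧ h₁ = t * h⁻¹ * t) ∧
      (∀ g₂ h₂ f₂ : G, g₂ ∈ Q → h₂ ∈ (MulAction.stabilizer G a ⊓ MulAction.stabilizer G (t • a)) → f₂ ∈ Q → t * f * t = g₂ * h₂ * t * f₂ →
        f₂ = x ∧ h₂ = h⁻¹) ∧
      ∀ c ∈ (MulAction.stabilizer G a ⊓ MulAction.stabilizer G (t • a)), ∀ g₃ h₃ f₃ : G, g₃ ∈ Q → h₃ ∈ (MulAction.stabilizer G a ⊓ MulAction.stabilizer G (t • a)) → f₃ ∈ Q →
        t * (c⁻¹ * x * c) * t = g₃ * h₃ * t * f₃ →
          f₃ = (t * c * t)⁻¹ * f * (t * c * t) ∧ h₃ = (t * c * t)⁻¹ * h * c := by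
  have hti := ro_t_inv hS
  have htt := ro_tt_mul hS
  have htt' : t * t = 1 := hS.mul_self
  have hQconj : ∀ {d q : G}, d ∈ stabilizer G a → q ∈ Q → d⁻¹ * q * d ∈ Q := by
    intro d q hd hq
    have := hS.conj_mem d⁻¹ (inv_mem hd) q hq
    simpa using this
  refine ⟨?_, ?_, ?_⟩
  · intro g₁ h₁ f₁ hg₁ hh₁ hf₁ e
    have e' : g₁ * h₁ * t * f₁ = f⁻¹ * (t * h⁻¹ * t) * t * g⁻¹ := by
      rw [← e]
      have : t * x⁻¹ * t = (t * x * t)⁻¹ := by simp [mul_assoc, hti]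
      rw [this, heq]
      simp [mul_assoc, hti, htt]
    obtain ⟨-, h2, h3⟩ := ro_canon_unique hS hg₁ hh₁ hf₁ (inv_mem hf)
      (ro_t_conj_D hS (inv_mem hh)) (inv_mem hg) e'
    exact ⟨h3, h2⟩
  · intro g₂ h₂ f₂ hg₂ hh₂ hf₂ e
    have hf_eq : f = t * h⁻¹ * g⁻¹ * t * x * t := by
      have : f = (g * h * t)⁻¹ * (g * h * t * f) := by group
      rw [this, ← heq]
      simp [mul_assoc, hti]
    have e' : g₂ * h₂ * t * f₂ = (h⁻¹ * g⁻¹ * h) * h⁻¹ * t * x := by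
      rw [← e, hf_eq]
      simp [mul_assoc, htt, htt']
    obtain ⟨-, h2, h3⟩ := ro_canon_unique hS hg₂ hh₂ hf₂
      (hQconj (Subgroup.mem_inf.mp hh).1 (inv_mem hg)) (inv_mem hh) hx e'
    exact ⟨h3, h2⟩
  · intro c hc g₃ h₃ f₃ hg₃ hh₃ hf₃ e
    have hd := ro_t_conj_D hS hc
    have e' : g₃ * h₃ * t * f₃ =
        ((t * c * t)⁻¹ * g * (t * c * t)) * ((t * c * t)⁻¹ * h * c) * t *
          ((t * c * t)⁻¹ * f * (t * c * t)) := by
      rw [← e]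
      have h1 : t * (c⁻¹ * x * c) * t = (t * c * t)⁻¹ * (t * x * t) * (t * c * t) := by
        simp [mul_assoc, hti, htt]
      rw [h1, heq]
      simp [mul_assoc, hti, htt, htt']
    obtain ⟨-, h2, h3⟩ := ro_canon_unique hS hg₃ hh₃ hf₃
      (hQconj (Subgroup.mem_inf.mp hd).1 hg) (mul_mem (mul_mem (inv_mem hd) hh) hc)
      (hQconj (Subgroup.mem_inf.mp hd).1 hf) e'
    exact ⟨h3, h2⟩

end Cfsg.Agent.S1165
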