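import Cfsg.Statements.S1168
import Cfsg.Agent.Lib.Helper21.FieldAut

set_option autoImplicit false
open Cfsg

namespace Cfsg.Agent.S1168

open Cfsg.Agent.Lib.Helper21

theorem sym_split {ι F : Type*} [Fintype ι] [DecidableEq ι] [AddCommMonoid F] (r : ι → ℕ)
    (hr : Function.Injective r) (e : ι → ι → F) :
    ∑ σ, ∑ τ, e σ τ = ∑ σ, e σ σ + (∑ σ, ∑ τ, if r σ < r τ then e σ τ else 0) +
      (∑ σ, ∑ τ, if r σ < r τ then e τ σ else 0) := by
  have h1 : ∀ σ τ, e σ τ = (if σ = τ then e σ σ else 0) + (if r σ < r τ then e σ τ else 0) +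
      (if r τ < r σ then e σ τ else 0) := by
    intro σ τ
    rcases lt_trichotomy (r σ) (r τ) with h | h | h
    · have hne : σ ≠ τ := fun hh => by rw [hh] at h; exact lt_irrefl _ h
      simp [h, hne, not_lt.mpr h.le]
    · have := hr h; subst this; simp
    · have hne : σ ≠ τ := fun hh => by rw [hh] at h; exact lt_irrefl _ h
      simp [h, hne, not_lt.mpr h.le]
  calc ∑ σ, ∑ τ, e σ τ = ∑ σ, ∑ τ, ((if σ = τ then e σ σ else 0) +
        (if r σ < r τ then e σ τ else 0) + (if r τ < r σ then e σ τ else 0)) := by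
        refine Finset.sum_congr rfl (fun σ _ => Finset.sum_congr rfl (fun τ _ => h1 σ τ))
    _ = ∑ σ, e σ σ + (∑ σ, ∑ τ, if r σ < r τ then e σ τ else 0) +
        ∑ σ, ∑ τ, (if r τ < r σ then e σ τ else 0) := by
        simp only [Finset.sum_add_distrib, Finset.sum_ite_eq, Finset.mem_univ, if_true]
    _ = _ := by
        congr 1
        rw [Finset.sum_comm]

/-- For a finite field `F` of characteristic 2: if `q : F → F` is quadratic over the prime field, i.e. `(x, y) ↦ q (x + y) + q x + q y` is additive in each variable, then `q x = Σ c_{σ,τ} σ(x) τ(x)` for some coefficients indexed by pairs of field automorphisms. -/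
theorem result {F : Type*} [Field F] [Fintype F] [CharP F 2]
    (q : F → F)
    (hq : ∀ x y z : F, q (x + y + z) + q (x + y) + q (x + z) + q (y + z) + q x + q y + q z = 0) :
    ∃ (s : Finset ((F ≃+* F) × (F ≃+* F))) (c : (F ≃+* F) × (F ≃+* F) → F),
      ∀ x : F, q x = ∑ p ∈ s, c p * (p.1 x * p.2 x) := by
  classical
  haveI : Fact (Nat.Prime 2) := ⟨Nat.prime_two⟩
  obtain ⟨b, hb⟩ := exists_aut_basis F 2
  haveI : Finite (F ≃+* F) :=
    Finite.of_injective (fun σ : F ≃+* F => (σ : F → F)) (fun σ τ h => RingEquiv.ext (congrFun h))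
  letI : Fintype (F ≃+* F) := Fintype.ofFinite _
  have key : ∀ (f : F →+ F) (x : F), f x = ∑ σ : F ≃+* F, b.repr f σ * σ x := by
    intro f x
    have h := b.sum_repr f
    have h2 := congrArg (fun g : F →+ F => g x) h
    simp only [AddMonoidHom.finsetSum_apply] at h2
    rw [← h2]
    refine Finset.sum_congr rfl (fun σ _ => ?_)
    show (b.repr f σ • b σ) x = _
    rw [AddMonoidHom.smul_apply, hb, smul_eq_mul]
  have hLI := li_ringEquiv F
  have hLI' : ∀ a : (F ≃+* F) → F, (∀ x, ∑ σ, a σ * σ x = 0) → ∀ σ, a σ = 0 := by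
    intro a ha
    refine Fintype.linearIndependent_iff.mp hLI a ?_
    funext x
    simp only [Finset.sum_apply, Pi.smul_apply, smul_eq_mul, Pi.zero_apply]
    exact ha x
  have h2 : ∀ a : F, a + a = 0 := CharTwo.add_self_eq_zero
  have ceq : ∀ a c : F, a + c = 0 → a = c := fun a c h => by linear_combination h - h2 c
  have hq0 : q 0 = 0 := by
    have h := hq 0 0 0
    simp only [add_zero] at h
    have e : q 0 + q 0 + q 0 + q 0 + q 0 + q 0 + q 0 = q 0 := by
      linear_combination (3 : F) * h2 (q 0)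
    rw [e] at h; exact h
  have hBadd : ∀ x y z, q (x + (y + z)) + q x + q (y + z) =
      (q (x + y) + q x + q y) + (q (x + z) + q x + q z) := by
    intro x y z
    have h := hq x y z
    rw [← add_assoc]
    linear_combination h - h2 (q (x+y)) - h2 (q (x+z)) - h2 (q x) - h2 (q y) - h2 (q z)
  let B : F →+ F →+ F :=
    { toFun := fun x =>
        { toFun := fun y => q (x + y) + q x + q y
          map_zero' := by
            show q (x + 0) + q x + q 0 = 0
            rw [add_zero, hq0, add_zero]; exact h2 _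
          map_add' := fun y z => hBadd x y z }
      map_zero' := by
        ext y
        show q (0 + y) + q 0 + q y = 0
        rw [zero_add, hq0, add_zero]; exact h2 _
      map_add' := fun x x' => by
        ext y
        show q (x + x' + y) + q (x + x') + q y =
          (q (x + y) + q x + q y) + (q (x' + y) + q x' + q y)
        have h := hBadd y x x'
        rw [add_comm y (x + x'), add_comm y x, add_comm y x'] at h
        linear_combination h }
  have hBdef : ∀ x y, B x y = q (x + y) + q x + q y := fun _ _ => rfl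
  have hBsymm : ∀ x y, B x y = B y x := by
    intro x y
    rw [hBdef, hBdef, add_comm x y]; ring
  have hBxx : ∀ x, B x x = 0 := by
    intro x
    rw [hBdef, h2 x, hq0, zero_add]; exact h2 _
  let g : (F ≃+* F) → (F →+ F) := fun τ =>
    { toFun := fun x => b.repr (B x) τ
      map_zero' := by simp
      map_add' := fun x y => by simp }
  obtain ⟨d, hd⟩ : ∃ d : (F ≃+* F) → (F ≃+* F) → F, ∀ σ τ, d σ τ = b.repr (g τ) σ :=
    ⟨_, fun _ _ => rfl⟩
  have hB : ∀ x y, B x y = ∑ σ, ∑ τ, d σ τ * (σ x * τ y) := by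
    intro x y
    rw [key (B x) y, Finset.sum_comm]
    refine Finset.sum_congr rfl (fun τ _ => ?_)
    have h1 : b.repr (B x) τ = g τ x := rfl
    rw [h1, key (g τ) x, Finset.sum_mul]
    refine Finset.sum_congr rfl (fun σ _ => ?_)
    rw [hd]; ring
  have hU : ∀ a : (F ≃+* F) → (F ≃+* F) → F,
      (∀ x y, ∑ σ, ∑ τ, a σ τ * (σ x * τ y) = 0) → ∀ σ τ, a σ τ = 0 := by
    intro a ha σ τ
    have step1 : ∀ x τ, ∑ σ, a σ τ * σ x = 0 := by
      intro x
      apply hLI' (fun τ => ∑ σ, a σ τ * σ x)
      intro y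
      have h := ha x y
      rw [Finset.sum_comm] at h
      rw [← h]
      refine Finset.sum_congr rfl (fun τ _ => ?_)
      rw [Finset.sum_mul]
      refine Finset.sum_congr rfl (fun σ _ => ?_)
      ring
    exact hLI' (fun σ => a σ τ) (fun x => step1 x τ) σ
  have hdsymm : ∀ σ τ, d σ τ = d τ σ := by
    intro σ τ
    apply ceq
    refine hU (fun σ τ => d σ τ + d τ σ) ?_ σ τ
    intro x y
    have e1 : ∑ σ, ∑ τ, (d σ τ + d τ σ) * (σ x * τ y) =
        (∑ σ, ∑ τ, d σ τ * (σ x * τ y)) + ∑ σ, ∑ τ, d τ σ * (τ y * σ x) := by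
      rw [← Finset.sum_add_distrib]
      refine Finset.sum_congr rfl (fun σ _ => ?_)
      rw [← Finset.sum_add_distrib]
      refine Finset.sum_congr rfl (fun τ _ => ?_)
      ring
    have e2 : ∑ σ : F ≃+* F, ∑ τ : F ≃+* F, d τ σ * (τ y * σ x) = B y x := by
      rw [hB y x, Finset.sum_comm]
    rw [e1, e2, ← hB, hBsymm y x]; exact h2 _
  obtain ⟨r, hr⟩ : ∃ r : (F ≃+* F) → ℕ, Function.Injective r :=
    ⟨fun σ => ((Fintype.equivFin (F ≃+* F)) σ : ℕ),
      fun σ τ h => (Fintype.equivFin _).injective (Fin.ext h)⟩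
  obtain ⟨E, hE⟩ : ∃ E : F → F → F, ∀ x y, E x y =
      ∑ σ, ∑ τ, if r σ < r τ then d σ τ * (σ x * τ y) else 0 := ⟨_, fun _ _ => rfl⟩
  have hsplit : ∀ x y, B x y = ∑ σ, d σ σ * (σ x * σ y) + E x y + E y x := by
    intro x y
    rw [hB, sym_split r hr (fun σ τ => d σ τ * (σ x * τ y)), hE, hE]
    congr 1
    refine Finset.sum_congr rfl (fun σ _ => Finset.sum_congr rfl (fun τ _ => ?_))
    rw [hdsymm τ σ, mul_comm (τ x) (σ y)]
  have hdiag : ∀ σ, d σ σ = 0 := by
    apply hLI' (fun σ => d σ σ)
    intro y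
    obtain ⟨x, rfl⟩ : ∃ x, x * x = y := by
      have hinj : Function.Injective (fun x : F => x * x) := by
        intro u v huv
        have h3 : (u + v) * (u + v) = 0 := by
          have huv' : u * u = v * v := huv
          linear_combination huv' + u * h2 v + h2 (v * v)
        have h4 : u + v = 0 := mul_self_eq_zero.mp h3
        exact ceq u v h4
      exact (Finite.injective_iff_surjective.mp hinj) y
    have h := hsplit x x
    rw [hBxx] at h
    have h5 : ∑ σ, d σ σ * (σ x * σ x) = 0 := by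
      linear_combination -h - h2 (E x x)
    rw [← h5]
    refine Finset.sum_congr rfl (fun σ _ => ?_)
    rw [map_mul]
  have hsplit' : ∀ x y, B x y = E x y + E y x := by
    intro x y
    rw [hsplit x y]
    have : ∑ σ, d σ σ * (σ x * σ y) = 0 := by
      apply Finset.sum_eq_zero; intro σ _; rw [hdiag, zero_mul]
    rw [this, zero_add]
  have hEadd : ∀ x y, E (x + y) (x + y) = E x x + E x y + E y x + E y y := by
    intro x y
    simp only [hE, ← Finset.sum_add_distrib]
    refine Finset.sum_congr rfl (fun σ _ => Finset.sum_congr rfl (fun τ _ => ?_))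
    by_cases hlt : r σ < r τ
    · simp only [hlt, if_true, map_add]; ring
    · simp only [hlt, if_false, add_zero]
  have hh : ∀ x y, q (x + y) + E (x + y) (x + y) = (q x + E x x) + (q y + E y y) := by
    intro x y
    have e1 := hBdef x y
    have e2 := hsplit' x y
    rw [hEadd]
    linear_combination -e1 + e2 + h2 (E x y) + h2 (E y x) - h2 (q x) - h2 (q y)
  let hA : F →+ F := AddMonoidHom.mk' (fun x => q x + E x x) hh
  obtain ⟨a, ha⟩ : ∃ a : (F ≃+* F) → F, ∀ σ, a σ = b.repr hA σ := ⟨_, fun _ => rfl⟩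
  have hkey : ∀ x, q x + E x x = ∑ σ, a σ * σ x := by
    intro x
    have := key hA x
    simp only [← ha] at this
    exact this
  let φ : F ≃+* F := frobeniusEquiv F 2
  have hφ : ∀ y : F, φ y = y * y := by
    intro y
    show frobeniusEquiv F 2 y = y * y
    rw [frobeniusEquiv_def]; ring
  let sh : (F ≃+* F) ≃ (F ≃+* F) :=
    { toFun := fun σ => σ.trans φ
      invFun := fun ρ => ρ.trans φ.symm
      left_inv := fun σ => by ext x; simp
      right_inv := fun ρ => by ext x; simp }
  refine ⟨Finset.univ, fun p => (if r p.1 < r p.2 then d p.1 p.2 else 0) +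
    (if p.1 = p.2 then a (p.1.trans φ) else 0), fun x => ?_⟩
  rw [Fintype.sum_prod_type]
  have e1 : ∑ σ : F ≃+* F, ∑ τ : F ≃+* F,
      ((if r σ < r τ then d σ τ else 0) + (if σ = τ then a (σ.trans φ) else 0)) * (σ x * τ x) =
      E x x + ∑ σ : F ≃+* F, a (σ.trans φ) * (σ x * σ x) := by
    rw [hE, ← Finset.sum_add_distrib]
    refine Finset.sum_congr rfl (fun σ _ => ?_)
    have : ∑ τ : F ≃+* F, ((if r σ < r τ then d σ τ else 0) +
        (if σ = τ then a (σ.trans φ) else 0)) * (σ x * τ x) =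
        (∑ τ : F ≃+* F, if r σ < r τ then d σ τ * (σ x * τ x) else 0) +
        ∑ τ : F ≃+* F, if σ = τ then a (σ.trans φ) * (σ x * τ x) else 0 := by
      rw [← Finset.sum_add_distrib]
      refine Finset.sum_congr rfl (fun τ _ => ?_)
      rw [add_mul, ite_mul, ite_mul, zero_mul]
    rw [this, Finset.sum_ite_eq, if_pos (Finset.mem_univ _)]
  rw [e1]
  have e2 : ∑ σ : F ≃+* F, a (σ.trans φ) * (σ x * σ x) = ∑ ρ : F ≃+* F, a ρ * ρ x := by
    rw [← Equiv.sum_comp sh (fun ρ => a ρ * ρ x)]
    refine Finset.sum_congr rfl (fun σ _ => ?_)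
    show a (σ.trans φ) * (σ x * σ x) = a (σ.trans φ) * (σ.trans φ) x
    rw [RingEquiv.trans_apply, hφ]
  rw [e2, ← hkey]
  linear_combination -h2 (E x x)

end Cfsg.Agent.S1168
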