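import Cfsg.Statements.S1176
import Cfsg.Agent.Lib.Helper10.Invol

set_option autoImplicit false
open Cfsg

namespace Cfsg.Agent.S1176

open Cfsg.Agent.Lib.Helper10 in
open scoped commutatorElement in
/-- Let x₀ be an involution of the finite group G and D its conjugacy class. Assume (a) for each x ∈ D the subgroup W(x) generated by the members of D commuting with x is a 2-group of nilpotency class at most 2, and (b) the product of two distinct commuting members of D again lies in D. Then for all x, y ∈ D, if xy has even order greater than 2, its order is 4. -/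
theorem result {G : Type*} [Group G] [Finite G] (x₀ : G) (hx₀ : orderOf x₀ = 2) (ha : ∀ x : G, IsConj x₀ x → IsPGroup 2 ↥(Subgroup.closure {y : G | IsConj x₀ y ∧ Commute y x}) ∧ ⁅⁅Subgroup.closure {y : G | IsConj x₀ y ∧ Commute y x}, Subgroup.closure {y : G | IsConj x₀ y ∧ Commute y x}⁆, Subgroup.closure {y : G | IsConj x₀ y ∧ Commute y x}⁆ = ⊥) (hb : ∀ x y : G, IsConj x₀ x → IsConj x₀ y → x ≠ y → Commute x y → IsConj x₀ (x * y)) (x y : G) (hx : IsConj x₀ x) (hy : IsConj x₀ y) (heven : Even (orderOf (x * y))) (hgt : 2 < orderOf (x * y)) : orderOf (x * y) = 4 := by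
  classical
  have hxx : x * x = 1 := by
    obtain ⟨c, hc⟩ := isConj_iff.1 hx
    rw [← hc]; exact conj_mul_self (orderOf_two_mul_self hx₀) c
  have hyy : y * y = 1 := by
    obtain ⟨c, hc⟩ := isConj_iff.1 hy
    rw [← hc]; exact conj_mul_self (orderOf_two_mul_self hx₀) c
  obtain ⟨m, hm⟩ := heven
  set t := x * y with ht
  have hm2 : 2 ≤ m := by omega
  set u := t ^ m with hu
  have hu1 : u ≠ 1 := by
    apply pow_ne_one_of_lt_orderOf (by omega) (by omega)
  have huu : u * u = 1 := by
    rw [hu, ← pow_add, ← hm]; exact pow_orderOf_eq_one _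
  have hui : u⁻¹ = u := inv_eq_of_mul_eq_one_left huu
  have hxu : x * u = u * x := by
    have h1 := invol_pow_semiconj hxx hyy m
    rw [← ht, ← hu] at h1
    rw [h1, hui]
  have hyu : y * u = u * y := by
    have h1 := invol_pow_semiconj' hxx hyy m
    rw [← ht, ← hu] at h1
    rw [h1, hui]
  -- x * u is a conjugate of x₀
  have hconj : IsConj x₀ (x * u) := by
    rcases Nat.even_or_odd' m with ⟨i, hi | hi⟩
    · have h1 : x * u = ((x * y) ^ i)⁻¹ * x * (((x * y) ^ i)⁻¹)⁻¹ := by
        rw [hu, hi, ht]; exact invol_mul_pow_even hxx hyy i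
      rw [h1]
      exact hx.trans (isConj_iff.2 ⟨_, rfl⟩)
    · have h1 : x * u = ((x * y) ^ i)⁻¹ * y * (((x * y) ^ i)⁻¹)⁻¹ := by
        rw [hu, hi, ht]; exact invol_mul_pow_odd hxx hyy i
      rw [h1]
      exact hy.trans (isConj_iff.2 ⟨_, rfl⟩)
  have hne : x ≠ x * u := by
    intro h
    apply hu1
    have : x * 1 = x * u := by rw [mul_one]; exact h
    exact (mul_left_cancel this).symm
  have hcomm : Commute x (x * u) := by
    show x * (x * u) = (x * u) * x
    rw [mul_assoc, hxu]
  have huD : IsConj x₀ u := by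
    have := hb x (x * u) hx hconj hne hcomm
    rwa [← mul_assoc, hxx, one_mul] at this
  obtain ⟨-, hcl⟩ := ha u huD
  set W := Subgroup.closure {y : G | IsConj x₀ y ∧ Commute y u} with hW
  have hxW : x ∈ W := Subgroup.subset_closure ⟨hx, hxu⟩
  have hyW : y ∈ W := Subgroup.subset_closure ⟨hy, hyu⟩
  have h1 : ⁅⁅x, y⁆, y⁆ ∈ ⁅⁅W, W⁆, W⁆ :=
    Subgroup.commutator_mem_commutator (Subgroup.commutator_mem_commutator hxW hyW) hyW
  rw [hcl, Subgroup.mem_bot] at h1
  have hxi : x⁻¹ = x := inv_eq_of_mul_eq_one_left hxx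
  have hyi : y⁻¹ = y := inv_eq_of_mul_eq_one_left hyy
  have hyy' : ∀ z : G, y * (y * z) = z := fun z => by rw [← mul_assoc, hyy, one_mul]
  have h2 : ⁅⁅x, y⁆, y⁆ = t ^ 4 := by
    rw [commutatorElement_def, commutatorElement_def, hxi, hyi, mul_inv_rev, mul_inv_rev, mul_inv_rev, hxi, hyi, ht]
    simp only [pow_succ, pow_zero, one_mul, mul_assoc, hyy']
  rw [h2] at h1
  have h3 : orderOf t ∣ 4 := orderOf_dvd_of_pow_eq_one h1
  have h4 : orderOf t ≤ 4 := Nat.le_of_dvd (by norm_num) h3
  interval_cases h5 : orderOf t <;> first | rfl | omega | (exfalso; revert h3; norm_num)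

end Cfsg.Agent.S1176
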