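import Cfsg.Statements.S1177
import Cfsg.Agent.Lib.Helper10.Basic

set_option autoImplicit false
open Cfsg

namespace Cfsg.Agent.S1177

open Cfsg.Agent.Lib.Helper10 in
/-- Let A be a nontrivial elementary abelian 2-subgroup of a finite group G which is a T.I. set (each conjugate of A meets A trivially or equals A) and which does not commute elementwise with any conjugate of A other than A itself. Then for every a ∈ A, a ≠ 1, every conjugate of A contained in C_G(a) is equal to A (A is weakly closed in C_G(a)). -/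
theorem result {G : Type*} [Group G] [Finite G] (A : Subgroup G) (hA : Cfsg.IsElementaryAbelian 2 A) (hA1 : A ≠ ⊥) (hTI : ∀ g : G, A.map (MulAut.conj g).toMonoidHom ⊓ A = ⊥ ∨ A.map (MulAut.conj g).toMonoidHom = A) (hb : ∀ g : G, (∀ a ∈ A, ∀ b ∈ A.map (MulAut.conj g).toMonoidHom, a * b = b * a) → A.map (MulAut.conj g).toMonoidHom = A) (a : G) (ha : a ∈ A) (ha1 : a ≠ 1) (g : G) (hg : A.map (MulAut.conj g).toMonoidHom ≤ Subgroup.centralizer ({a} : Set G)) : A.map (MulAut.conj g).toMonoidHom = A := by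
  classical
  set B := A.map (MulAut.conj g).toMonoidHom with hB
  rcases hTI g with hdisj | heq
  swap
  · exact heq
  -- Step 1: B normalizes A
  have N1 : ∀ b ∈ B, ∀ x ∈ A, b * x * b⁻¹ ∈ A := by
    intro b hb' x hx
    have hba : a * b = b * a := by
      have := hg hb'
      rw [Subgroup.mem_centralizer_iff] at this
      exact this a (Set.mem_singleton a)
    rcases hTI b with h | h
    · exfalso
      have h1 : a ∈ A.map (MulAut.conj b).toMonoidHom := by
        rw [mem_map_conj_iff]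
        have : b⁻¹ * a * b = a := by rw [mul_assoc, hba]; group
        rw [this]; exact ha
      have h2 : a ∈ A.map (MulAut.conj b).toMonoidHom ⊓ A := ⟨h1, ha⟩
      rw [h, Subgroup.mem_bot] at h2
      exact ha1 h2
    · have := conj_mem_map_conj A b x hx
      rw [h] at this; exact this
  have hcard : Nat.card B = Nat.card A :=
    Subgroup.card_map_of_injective (MulAut.conj g).injective
  -- Step 2
  have S2 : ∀ a' ∈ A, a' ≠ 1 → ∃ b ∈ B, b ≠ 1 ∧ b * a' = a' * b := by
    intro a' ha' ha'1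
    by_contra hcon
    push Not at hcon
    let f : B → A := fun b => ⟨b.1 * a' * b.1⁻¹, N1 b.1 b.2 a' ha'⟩
    have hf : Function.Injective f := by
      intro b b' hbb
      have h1 : b.1 * a' * b.1⁻¹ = b'.1 * a' * b'.1⁻¹ := congrArg Subtype.val hbb
      have h2 : (b'.1⁻¹ * b.1) * a' = a' * (b'.1⁻¹ * b.1) := by
        calc (b'.1⁻¹ * b.1) * a' = b'.1⁻¹ * (b.1 * a' * b.1⁻¹) * b.1 := by group
          _ = b'.1⁻¹ * (b'.1 * a' * b'.1⁻¹) * b.1 := by rw [h1]
          _ = a' * (b'.1⁻¹ * b.1) := by group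
      have h3 : b'.1⁻¹ * b.1 = 1 := by
        by_contra h4
        exact hcon _ (B.mul_mem (B.inv_mem b'.2) b.2) h4 h2
      apply Subtype.ext
      have : b.1 = b'.1 * (b'.1⁻¹ * b.1) := by group
      rw [this, h3, mul_one]
    have hbij := hf.bijective_of_nat_card_le (le_of_eq hcard.symm)
    obtain ⟨b, hb1⟩ := hbij.2 ⟨1, A.one_mem⟩
    have h5 : b.1 * a' * b.1⁻¹ = 1 := congrArg Subtype.val hb1
    apply ha'1
    have : a' = b.1⁻¹ * (b.1 * a' * b.1⁻¹) * b.1 := by group
    rw [this, h5]; group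
  -- Step 3: A normalizes B
  have S3 : ∀ a' ∈ A, ∀ y ∈ B, a' * y * a'⁻¹ ∈ B := by
    intro a' ha' y hy
    by_cases ha'1 : a' = 1
    · subst ha'1; simpa using hy
    obtain ⟨b, hbB, hb1, hbc⟩ := S2 a' ha' ha'1
    set c := g⁻¹ * a' * g with hc
    have heA : g⁻¹ * b * g ∈ A := (mem_map_conj_iff A g b).1 hbB
    have hcA : A.map (MulAut.conj c).toMonoidHom = A := by
      rcases hTI c with h | h
      · exfalso
        have h1 : g⁻¹ * b * g ∈ A.map (MulAut.conj c).toMonoidHom := by
          rw [mem_map_conj_iff]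
          have : c⁻¹ * (g⁻¹ * b * g) * c = g⁻¹ * (a'⁻¹ * (b * a')) * g := by rw [hc]; group
          rw [this, hbc]
          have : g⁻¹ * (a'⁻¹ * (a' * b)) * g = g⁻¹ * b * g := by group
          rw [this]; exact heA
        have h2 : g⁻¹ * b * g ∈ A.map (MulAut.conj c).toMonoidHom ⊓ A := ⟨h1, heA⟩
        rw [h, Subgroup.mem_bot] at h2
        apply hb1
        have : b = g * (g⁻¹ * b * g) * g⁻¹ := by group
        rw [this, h2]; group
      · exact h
    rw [hB, mem_map_conj_iff]
    have hyA : g⁻¹ * y * g ∈ A := (mem_map_conj_iff A g y).1 hy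
    have := conj_mem_map_conj A c _ hyA
    rw [hcA] at this
    have e : g⁻¹ * (a' * y * a'⁻¹) * g = c * (g⁻¹ * y * g) * c⁻¹ := by rw [hc]; group
    rw [e]; exact this
  -- Step 4: A and B commute elementwise
  apply hb g
  intro a' ha' y hy
  have hk : a' * y * a'⁻¹ * y⁻¹ ∈ B ⊓ A := by
    refine ⟨B.mul_mem (S3 a' ha' y hy) (B.inv_mem hy), ?_⟩
    have h1 : y * a'⁻¹ * y⁻¹ ∈ A := N1 y hy _ (A.inv_mem ha')
    have : a' * y * a'⁻¹ * y⁻¹ = a' * (y * a'⁻¹ * y⁻¹) := by group
    rw [this]; exact A.mul_mem ha' h1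
  rw [hdisj, Subgroup.mem_bot] at hk
  have : a' * y = (a' * y * a'⁻¹ * y⁻¹) * (y * a') := by group
  rw [this, hk, one_mul]

end Cfsg.Agent.S1177
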