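import Cfsg.Statements.S1178
import Cfsg.Agent.Lib.Helper10.Basic

set_option autoImplicit false
open Cfsg

namespace Cfsg.Agent.S1178

open Cfsg.Agent.Lib.Helper10 in
/-- Let A be a subgroup of a Sylow 2-subgroup S of the finite group G which is weakly closed in S. If a conjugate g A g⁻¹ commutes elementwise with A, then g A g⁻¹ = A. -/
theorem result {G : Type*} [Group G] [Finite G] (S : Sylow 2 G) (A : Subgroup G) (hW : Cfsg.IsWeaklyClosed A (S : Subgroup G)) (g : G) (hc : ∀ a ∈ A, ∀ b ∈ A.map (MulAut.conj g).toMonoidHom, a * b = b * a) : A.map (MulAut.conj g).toMonoidHom = A := by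
  obtain ⟨hAS, hcl⟩ := hW
  have : Fact (Nat.Prime 2) := ⟨Nat.prime_two⟩
  set B := A.map (MulAut.conj g).toMonoidHom with hB
  have hA2 : IsPGroup 2 A := S.2.to_le hAS
  have hB2 : IsPGroup 2 B := hA2.map _
  have hBN : B ≤ Subgroup.normalizer (A : Set G) := by
    intro b hb
    rw [Subgroup.mem_normalizer_iff]
    intro a
    constructor
    · intro ha
      have : b * a * b⁻¹ = a := by
        have := hc a ha b hb
        rw [← this]; group
      rw [this]; exact ha
    · intro ha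
      have h1 := hc _ ha b hb
      have : a = b * a * b⁻¹ := by
        have h2 : b * a * b⁻¹ * b = b * (b * a * b⁻¹) := h1
        have h3 : b * a = b * (b * a * b⁻¹) := by
          rw [← h2]; group
        exact mul_left_cancel h3
      rw [this]; exact ha
  have hsup : IsPGroup 2 (A ⊔ B : Subgroup G) := hA2.to_sup_of_normal_left' hB2 hBN
  obtain ⟨Q, hQ⟩ := hsup.exists_le_sylow
  obtain ⟨h, rfl⟩ := MulAction.exists_smul_eq G S Q
  have key : ∀ x : G, x ∈ (h • S : Sylow 2 G) ↔ h⁻¹ * x * h ∈ (S : Subgroup G) := mem_smul_sylow_iff S h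
  have hAQ : A ≤ ((h • S : Sylow 2 G) : Subgroup G) := le_trans le_sup_left hQ
  have hBQ : B ≤ ((h • S : Sylow 2 G) : Subgroup G) := le_trans le_sup_right hQ
  have e1 : A.map (MulAut.conj h⁻¹).toMonoidHom = A := by
    apply hcl
    intro x hx
    rw [mem_map_conj_iff, inv_inv] at hx
    have := (key _).1 (hAQ hx)
    have e : h⁻¹ * (h * x * h⁻¹) * h = x := by group
    rw [e] at this; exact this
  have e2 : A.map (MulAut.conj (h⁻¹ * g)).toMonoidHom = A := by
    apply hcl
    intro x hx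
    rw [mem_map_conj_iff] at hx
    have hy : h * x * h⁻¹ ∈ B := by
      rw [hB, mem_map_conj_iff]
      have e : g⁻¹ * (h * x * h⁻¹) * g = (h⁻¹ * g)⁻¹ * x * (h⁻¹ * g) := by group
      rw [e]; exact hx
    have := (key _).1 (hBQ hy)
    have e : h⁻¹ * (h * x * h⁻¹) * h = x := by group
    rw [e] at this; exact this
  have E1 : ∀ x, h * x * h⁻¹ ∈ A ↔ x ∈ A := by
    intro x
    have := mem_map_conj_iff A h⁻¹ x
    rw [e1, inv_inv] at this
    exact this.symm
  have E2 : ∀ x, (h⁻¹ * g)⁻¹ * x * (h⁻¹ * g) ∈ A ↔ x ∈ A := by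
    intro x
    have := mem_map_conj_iff A (h⁻¹ * g) x
    rw [e2] at this
    exact this.symm
  ext x
  rw [hB, mem_map_conj_iff]
  have a1 := E2 (h⁻¹ * x * h)
  have a2 := E1 (h⁻¹ * x * h)
  have e3 : (h⁻¹ * g)⁻¹ * (h⁻¹ * x * h) * (h⁻¹ * g) = g⁻¹ * x * g := by group
  have e4 : h * (h⁻¹ * x * h) * h⁻¹ = x := by group
  rw [e3] at a1
  rw [e4] at a2
  exact a1.trans a2.symm

end Cfsg.Agent.S1178
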