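import Cfsg.Statements.S1226
import Cfsg.Agent.Lib.Helper10.Invol
import Cfsg.Agent.Lib.Helper10.Basic

set_option autoImplicit false
open Cfsg

namespace Cfsg.Agent.S1226

/-- Centralizers of involutions are 2-groups under the hypothesis. -/
theorem cent_isPGroup {G : Type*} [Group G] (hC : ∀ t : G, orderOf t = 2 → IsMulCommutative (Subgroup.centralizer ({t} : Set G)) ∧ ∀ c ∈ Subgroup.centralizer ({t} : Set G), c ^ 2 = 1)
    (t : G) (ht : orderOf t = 2) : IsPGroup 2 (Subgroup.centralizer ({t} : Set G)) := by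
  intro c
  refine ⟨1, ?_⟩
  apply Subtype.ext
  have := (hC t ht).2 c.1 c.2
  simpa using this

/-- An involution normalizing the Sylow 2-subgroup lies in it. -/
theorem invol_mem {G : Type*} [Group G] (T : Sylow 2 G) (hC : ∀ t : G, orderOf t = 2 → IsMulCommutative (Subgroup.centralizer ({t} : Set G)) ∧ ∀ c ∈ Subgroup.centralizer ({t} : Set G), c ^ 2 = 1)
    (t : G) (ht : orderOf t = 2) (htN : t ∈ Subgroup.normalizer ((T : Subgroup G) : Set G)) : t ∈ (T : Subgroup G) := by
  have h1 : Subgroup.zpowers t ≤ Subgroup.centralizer ({t} : Set G) := by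
    rw [Subgroup.zpowers_le, Subgroup.mem_centralizer_iff]
    intro y hy
    rw [Set.mem_singleton_iff] at hy
    rw [hy]
  have h2 : IsPGroup 2 (Subgroup.zpowers t) := (cent_isPGroup hC t ht).to_le h1
  have h3 : IsPGroup 2 ((T : Subgroup G) ⊔ Subgroup.zpowers t : Subgroup G) :=
    T.isPGroup'.to_sup_of_normal_left' h2 ((Subgroup.zpowers_le).2 htN)
  have h4 := T.is_maximal' h3 le_sup_left
  have h5 : t ∈ (T : Subgroup G) ⊔ Subgroup.zpowers t := Subgroup.mem_sup_right (Subgroup.mem_zpowers t)
  rw [h4] at h5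
  exact h5

/-- Structure of the Sylow 2-subgroup: it is commutative of exponent 2 and equals the centralizer of each of its involutions. -/
theorem sylow_structure {G : Type*} [Group G] [Finite G] (T : Sylow 2 G) (hnc : ¬ IsCyclic (T : Subgroup G)) (hC : ∀ t : G, orderOf t = 2 → IsMulCommutative (Subgroup.centralizer ({t} : Set G)) ∧ ∀ c ∈ Subgroup.centralizer ({t} : Set G), c ^ 2 = 1) :
    (∀ x ∈ (T : Subgroup G), ∀ y ∈ (T : Subgroup G), x * y = y * x) ∧ (∀ x ∈ (T : Subgroup G), x ^ 2 = 1) ∧
    (∀ t ∈ (T : Subgroup G), orderOf t = 2 → Subgroup.centralizer ({t} : Set G) = (T : Subgroup G)) := by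
  have h2 : Fact (Nat.Prime 2) := ⟨Nat.prime_two⟩
  have hTp : IsPGroup 2 (T : Subgroup G) := T.isPGroup'
  have hTnt : Nontrivial (T : Subgroup G) := by
    by_contra h
    rw [not_nontrivial_iff_subsingleton] at h
    exact hnc isCyclic_of_subsingleton
  have hZnt : Nontrivial (Subgroup.center (T : Subgroup G)) := hTp.center_nontrivial
  have hZp : IsPGroup 2 (Subgroup.center (T : Subgroup G)) := hTp.to_subgroup _
  have hdvd : 2 ∣ Nat.card (Subgroup.center (T : Subgroup G)) := by
    rcases hZp.card_eq_or_dvd with h | h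
    · exfalso
      have := Finite.one_lt_card_iff_nontrivial.2 hZnt
      omega
    · exact h
  obtain ⟨z', hz'⟩ := exists_prime_orderOf_dvd_card' 2 hdvd
  set z : G := ((z' : (T : Subgroup G)) : G) with hzdef
  have hz : orderOf z = 2 := by
    rw [hzdef, Subgroup.orderOf_coe, Subgroup.orderOf_coe]; exact hz'
  have hzc : ∀ x ∈ (T : Subgroup G), x * z = z * x := by
    intro x hx
    have := Subgroup.mem_center_iff.1 z'.2 ⟨x, hx⟩
    exact congrArg Subtype.val this
  have hTle : (T : Subgroup G) ≤ Subgroup.centralizer ({z} : Set G) := by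
    intro x hx
    rw [Subgroup.mem_centralizer_iff]
    intro y hy
    rw [Set.mem_singleton_iff] at hy
    subst hy
    exact (hzc x hx).symm
  have hCz : Subgroup.centralizer ({z} : Set G) = (T : Subgroup G) :=
    T.is_maximal' (cent_isPGroup hC z hz) hTle
  have hcomm : ∀ x ∈ (T : Subgroup G), ∀ y ∈ (T : Subgroup G), x * y = y * x := by
    intro x hx y hy
    have hc := (hC z hz).1
    rw [isMulCommutative_iff] at hc
    have := hc ⟨x, hTle hx⟩ ⟨y, hTle hy⟩
    exact congrArg Subtype.val this
  refine ⟨hcomm, fun x hx => (hC z hz).2 x (hTle hx), ?_⟩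
  intro t ht hto
  apply T.is_maximal' (cent_isPGroup hC t hto)
  intro x hx
  rw [Subgroup.mem_centralizer_iff]
  intro y hy
  rw [Set.mem_singleton_iff] at hy
  subst hy
  exact hcomm y ht x hx

open Cfsg.Agent.Lib.Helper10 in
/-- Let G be a finite group with a Sylow 2-subgroup T that is neither cyclic nor normal, such that the centralizer of every involution is an elementary abelian 2-group. Then N_G(T) is a strongly embedded subgroup of G. -/
theorem result {G : Type*} [Group G] [Finite G] (T : Sylow 2 G) (hnc : ¬ IsCyclic (T : Subgroup G)) (hnn : ¬ (T : Subgroup G).Normal) (hC : ∀ t : G, orderOf t = 2 → IsMulCommutative (Subgroup.centralizer ({t} : Set G)) ∧ ∀ c ∈ Subgroup.centralizer ({t} : Set G), c ^ 2 = 1) : Cfsg.IsStronglyEmbedded (Subgroup.normalizer ((T : Subgroup G) : Set G)) := by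
  have h2 : Fact (Nat.Prime 2) := ⟨Nat.prime_two⟩
  obtain ⟨hcomm, hexp, hcent⟩ := sylow_structure T hnc hC
  have hTp : IsPGroup 2 (T : Subgroup G) := T.isPGroup'
  have hTnt : Nontrivial (T : Subgroup G) := by
    by_contra h
    rw [not_nontrivial_iff_subsingleton] at h
    exact hnc isCyclic_of_subsingleton
  refine ⟨?_, ?_, ?_⟩
  · intro h
    exact hnn (Subgroup.normalizer_eq_top_iff.1 h)
  · have h1 : 2 ∣ Nat.card (T : Subgroup G) := by
      rcases hTp.card_eq_or_dvd with h | h
      · exfalso
        have := Finite.one_lt_card_iff_nontrivial.2 hTnt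
        omega
      · exact h
    have h3 : Nat.card (T : Subgroup G) ∣ Nat.card (Subgroup.normalizer ((T : Subgroup G) : Set G)) :=
      Subgroup.card_dvd_of_le Subgroup.le_normalizer
    exact even_iff_two_dvd.2 (h1.trans h3)
  · intro g hg
    by_contra hodd
    rw [Nat.not_odd_iff_even, even_iff_two_dvd] at hodd
    obtain ⟨x, hx⟩ := exists_prime_orderOf_dvd_card' 2 hodd
    set t : G := (x : G) with ht
    have hto : orderOf t = 2 := by rw [ht, Subgroup.orderOf_coe]; exact hx
    have htH : t ∈ Subgroup.normalizer ((T : Subgroup G) : Set G) := x.2.1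
    have htHg : g⁻¹ * t * g ∈ Subgroup.normalizer ((T : Subgroup G) : Set G) :=
      (mem_map_conj_iff _ g t).1 x.2.2
    have htT : t ∈ (T : Subgroup G) := invol_mem T hC t hto htH
    have hso : orderOf (g⁻¹ * t * g) = 2 := by
      have : g⁻¹ * t * g = MulAut.conj g⁻¹ t := by simp
      rw [this, MulEquiv.orderOf_eq]; exact hto
    have hsT : g⁻¹ * t * g ∈ (T : Subgroup G) := invol_mem T hC _ hso htHg
    have hc1 := hcent t htT hto
    have hc2 := hcent _ hsT hso
    apply hg
    rw [Subgroup.mem_normalizer_iff]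
    intro y
    have e1 : (y ∈ (T : Subgroup G)) ↔ y ∈ Subgroup.centralizer ({g⁻¹ * t * g} : Set G) := by rw [hc2]
    have e2 : (g * y * g⁻¹ ∈ (T : Subgroup G)) ↔ g * y * g⁻¹ ∈ Subgroup.centralizer ({t} : Set G) := by rw [hc1]
    rw [e1, e2, Subgroup.mem_centralizer_iff, Subgroup.mem_centralizer_iff]
    constructor
    · intro h w hw
      rw [Set.mem_singleton_iff] at hw
      rw [hw]
      have := h _ (Set.mem_singleton _)
      calc t * (g * y * g⁻¹) = g * ((g⁻¹ * t * g) * y) * g⁻¹ := by group
        _ = g * (y * (g⁻¹ * t * g)) * g⁻¹ := by rw [this]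
        _ = g * y * g⁻¹ * t := by group
    · intro h w hw
      rw [Set.mem_singleton_iff] at hw
      rw [hw]
      have := h _ (Set.mem_singleton _)
      calc g⁻¹ * t * g * y = g⁻¹ * (t * (g * y * g⁻¹)) * g := by group
        _ = g⁻¹ * ((g * y * g⁻¹) * t) * g := by rw [this]
        _ = y * (g⁻¹ * t * g) := by group

end Cfsg.Agent.S1226
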