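import Cfsg.Statements.S1227
import Cfsg.Agent.Lib.Helper10.StrEmb
import Cfsg.Agent.S1226

set_option autoImplicit false
open Cfsg

namespace Cfsg.Agent.S1227

open Cfsg.Agent.Lib.Helper10 in
/-- Let G be a finite group with a Sylow 2-subgroup T that is neither cyclic nor normal, such that the centralizer of every involution is an elementary abelian 2-group; put H = N_G(T), let u be an involution outside H and D = H ∩ uHu⁻¹. Then u inverts every element of D, |H| = |T|·(|T| − 1), and D is a complement to T in H. -/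
theorem result {G : Type*} [Group G] [Finite G] (T : Sylow 2 G) (hnc : ¬ IsCyclic (T : Subgroup G)) (hnn : ¬ (T : Subgroup G).Normal) (hC : ∀ t : G, orderOf t = 2 → IsMulCommutative (Subgroup.centralizer ({t} : Set G)) ∧ ∀ c ∈ Subgroup.centralizer ({t} : Set G), c ^ 2 = 1) (u : G) (hu : orderOf u = 2) (huH : u ∉ Subgroup.normalizer ((T : Subgroup G) : Set G)) : (∀ d ∈ Subgroup.normalizer ((T : Subgroup G) : Set G) ⊓ (Subgroup.normalizer ((T : Subgroup G) : Set G)).map (MulAut.conj u).toMonoidHom, u * d * u⁻¹ = d⁻¹) ∧ Nat.card (Subgroup.normalizer ((T : Subgroup G) : Set G)) = Nat.card T * (Nat.card T - 1) ∧ Subgroup.IsComplement' ((Subgroup.normalizer ((T : Subgroup G) : Set G) ⊓ (Subgroup.normalizer ((T : Subgroup G) : Set G)).map (MulAut.conj u).toMonoidHom).subgroupOf (Subgroup.normalizer ((T : Subgroup G) : Set G))) ((T : Subgroup G).subgroupOf (Subgroup.normalizer ((T : Subgroup G) : Set G))) := by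
  classical
  have h2 : Fact (Nat.Prime 2) := ⟨Nat.prime_two⟩
  obtain ⟨hcomm, hexp, hcent⟩ := Cfsg.Agent.S1226.sylow_structure T hnc hC
  have hH : Cfsg.IsStronglyEmbedded (Subgroup.normalizer ((T : Subgroup G) : Set G)) :=
    Cfsg.Agent.S1226.result T hnc hnn hC
  set H := Subgroup.normalizer ((T : Subgroup G) : Set G) with hHdef
  set D := H ⊓ H.map (MulAut.conj u).toMonoidHom with hDdef
  have hTH : (T : Subgroup G) ≤ H := Subgroup.le_normalizer
  have hDH : D ≤ H := inf_le_left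
  have hinv : ∀ t : G, (orderOf t = 2 ∧ t ∈ H) ↔ (t ∈ (T : Subgroup G) ∧ t ≠ 1) := by
    intro t
    constructor
    · rintro ⟨ht, htH⟩
      exact ⟨Cfsg.Agent.S1226.invol_mem T hC t ht htH, orderOf_two_ne_one ht⟩
    · rintro ⟨htT, ht1⟩
      exact ⟨orderOf_eq_two_of (by rw [← pow_two]; exact hexp t htT) ht1, hTH htT⟩
  obtain ⟨t₀, ht₀H, ht₀⟩ := se_exists_invol hH
  have ht₀T : t₀ ∈ (T : Subgroup G) := ((hinv t₀).1 ⟨ht₀, ht₀H⟩).1
  have hCt₀ := hcent t₀ ht₀T ht₀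
  have hDT : ∀ x ∈ D, x ∈ (T : Subgroup G) → x = 1 := by
    intro x hxD hxT
    have hodd : Odd (Nat.card D) := hH.2.2 u huH
    have h1 : orderOf x ∣ Nat.card D := Subgroup.orderOf_dvd_natCard _ hxD
    have h2 : orderOf x ∣ 2 := orderOf_dvd_of_pow_eq_one (hexp x hxT)
    have h3 : orderOf x = 1 := by
      rcases (Nat.dvd_prime Nat.prime_two).1 h2 with h | h
      · exact h
      · rw [h] at h1; rw [Nat.odd_iff] at hodd; omega
    exact orderOf_eq_one_iff.1 h3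
  have hmap : ∀ d : D, orderOf (d.1 * t₀ * d.1⁻¹) = 2 ∧ d.1 * t₀ * d.1⁻¹ ∈ H := fun d =>
    ⟨orderOf_conj_two ht₀ d.1, H.mul_mem (H.mul_mem (hDH d.2) ht₀H) (H.inv_mem (hDH d.2))⟩
  have hinj : Function.Injective (fun d : D => (⟨d.1 * t₀ * d.1⁻¹, hmap d⟩ : {t : G // orderOf t = 2 ∧ t ∈ H})) := by
    intro d d' h
    have h1 : d.1 * t₀ * d.1⁻¹ = d'.1 * t₀ * d'.1⁻¹ := congrArg Subtype.val h
    have h2 : d'.1⁻¹ * d.1 ∈ Subgroup.centralizer ({t₀} : Set G) := by
      rw [Subgroup.mem_centralizer_iff]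
      intro y hy
      rw [Set.mem_singleton_iff] at hy
      rw [hy]
      calc t₀ * (d'.1⁻¹ * d.1) = d'.1⁻¹ * (d'.1 * t₀ * d'.1⁻¹) * d.1 := by group
        _ = d'.1⁻¹ * (d.1 * t₀ * d.1⁻¹) * d.1 := by rw [h1]
        _ = d'.1⁻¹ * d.1 * t₀ := by group
    rw [hCt₀] at h2
    have h3 := hDT _ (D.mul_mem (D.inv_mem d'.2) d.2) h2
    apply Subtype.ext
    have : d.1 = d'.1 * (d'.1⁻¹ * d.1) := by group
    rw [this, h3, mul_one]
  have hsurj : Function.Surjective (fun d : D => (⟨d.1 * t₀ * d.1⁻¹, hmap d⟩ : {t : G // orderOf t = 2 ∧ t ∈ H})) := by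
    intro t
    obtain ⟨d, hd, hdt⟩ := se_conj_D hH hu huH ht₀ ht₀H t.2.1 t.2.2
    exact ⟨⟨d, hd⟩, Subtype.ext hdt⟩
  have hcardD : Nat.card D = Nat.card {t : G // orderOf t = 2 ∧ t ∈ H} :=
    Nat.card_eq_of_bijective _ ⟨hinj, hsurj⟩
  have hN : Nat.card {t : G // orderOf t = 2 ∧ t ∈ H} = Nat.card (T : Subgroup G) - 1 := by
    have e : {t : G | orderOf t = 2 ∧ t ∈ H} = ((T : Subgroup G) : Set G) \ {1} := by
      ext t
      simp only [Set.mem_setOf_eq, Set.mem_diff, Set.mem_singleton_iff, SetLike.mem_coe]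
      exact hinv t
    have h1 : Nat.card {t : G // orderOf t = 2 ∧ t ∈ H} = Set.ncard {t : G | orderOf t = 2 ∧ t ∈ H} := rfl
    rw [h1, e, Set.ncard_diff_singleton_of_mem (Subgroup.one_mem _)]
    rfl
  have hcompl : Subgroup.IsComplement' (D.subgroupOf H) ((T : Subgroup G).subgroupOf H) := by
    apply Subgroup.isComplement'_of_disjoint_and_mul_eq_univ
    · rw [Subgroup.disjoint_def]
      intro x hx1 hx2
      apply Subtype.ext
      exact hDT x.1 (Subgroup.mem_subgroupOf.1 hx1) (Subgroup.mem_subgroupOf.1 hx2)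
    · rw [Set.eq_univ_iff_forall]
      intro h
      have h1 : orderOf (h.1 * t₀ * h.1⁻¹) = 2 := orderOf_conj_two ht₀ h.1
      have h2 : h.1 * t₀ * h.1⁻¹ ∈ H := H.mul_mem (H.mul_mem h.2 ht₀H) (H.inv_mem h.2)
      obtain ⟨d, hd, hdt⟩ := se_conj_D hH hu huH ht₀ ht₀H h1 h2
      have h3 : d⁻¹ * h.1 ∈ Subgroup.centralizer ({t₀} : Set G) := by
        rw [Subgroup.mem_centralizer_iff]
        intro y hy
        rw [Set.mem_singleton_iff] at hy
        rw [hy]
        calc t₀ * (d⁻¹ * h.1) = d⁻¹ * (d * t₀ * d⁻¹) * h.1 := by group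
          _ = d⁻¹ * (h.1 * t₀ * h.1⁻¹) * h.1 := by rw [hdt]
          _ = d⁻¹ * h.1 * t₀ := by group
      rw [hCt₀] at h3
      refine Set.mem_mul.2 ⟨⟨d, hDH hd⟩, Subgroup.mem_subgroupOf.2 hd, ⟨d⁻¹ * h.1, hTH h3⟩,
        Subgroup.mem_subgroupOf.2 h3, ?_⟩
      apply Subtype.ext
      simp
  refine ⟨?_, ?_, hcompl⟩
  · exact se_inverts hH hu huH (le_of_eq hcardD)
  · have h1 := hcompl.card_mul
    rw [Nat.card_congr (Subgroup.subgroupOfEquivOfLe hDH).toEquiv,
      Nat.card_congr (Subgroup.subgroupOfEquivOfLe hTH).toEquiv, hcardD, hN] at h1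
    rw [← h1, mul_comm]

end Cfsg.Agent.S1227
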