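import Cfsg.Statements.S1228
import Cfsg.Agent.Lib.Helper10.StrEmb
import Cfsg.Agent.Lib.Helper10.Signalizer
import Cfsg.Agent.S1226
import Cfsg.Agent.S1227

set_option autoImplicit false
open Cfsg

namespace Cfsg.Agent.S1228

open Cfsg.Agent.Lib.Helper10 in
/-- Every coset of a strongly embedded subgroup other than the subgroup itself contains an involution. -/
theorem se_exists_invol_coset {G : Type*} [Group G] [Finite G] {H : Subgroup G} (hH : Cfsg.IsStronglyEmbedded H) {g : G} (hg : g ∉ H) :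
    ∃ w : G, orderOf w = 2 ∧ w⁻¹ * g ∈ H := by
  obtain ⟨t, htH, ht⟩ := se_exists_invol hH
  have hv : orderOf (g * t * g⁻¹) = 2 := orderOf_conj_two ht g
  have hvH : g * t * g⁻¹ ∉ H := fun h => hg (se_mem_of_conj hH ht htH h)
  obtain ⟨w, hw, hwv⟩ := se_exists_swap hH hv hvH ht htH
  refine ⟨w, hw, ?_⟩
  rw [orderOf_two_inv hw]
  apply se_mem_of_conj hH ht htH
  have : w * g * t * (w * g)⁻¹ = w * (g * t * g⁻¹) * w⁻¹ := by group
  rw [this, orderOf_two_inv hw, hwv]; exact htH

open Cfsg.Agent.Lib.Helper10 in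
/-- Let G be a finite group with a Sylow 2-subgroup T that is neither cyclic nor normal, such that the centralizer of every involution is an elementary abelian 2-group; put H = N_G(T), let u be an involution outside H and D = H ∩ uHu⁻¹. Then N_G(D) = D ⊔ ⟨u⟩, and a coset gH is fixed by every element of D exactly when gH = H or gH = uH. -/
theorem result {G : Type*} [Group G] [Finite G] (T : Sylow 2 G) (hnc : ¬ IsCyclic (T : Subgroup G)) (hnn : ¬ (T : Subgroup G).Normal) (hC : ∀ t : G, orderOf t = 2 → IsMulCommutative (Subgroup.centralizer ({t} : Set G)) ∧ ∀ c ∈ Subgroup.centralizer ({t} : Set G), c ^ 2 = 1) (u : G) (hu : orderOf u = 2) (huH : u ∉ Subgroup.normalizer ((T : Subgroup G) : Set G)) : Subgroup.normalizer ((Subgroup.normalizer ((T : Subgroup G) : Set G) ⊓ (Subgroup.normalizer ((T : Subgroup G) : Set G)).map (MulAut.conj u).toMonoidHom : Subgroup G) : Set G) = (Subgroup.normalizer ((T : Subgroup G) : Set G) ⊓ (Subgroup.normalizer ((T : Subgroup G) :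 Set G)).map (MulAut.conj u).toMonoidHom) ⊔ Subgroup.zpowers u ∧ ∀ g : G, ((∀ d ∈ Subgroup.normalizer ((T : Subgroup G) : Set G) ⊓ (Subgroup.normalizer ((T : Subgroup G) : Set G)).map (MulAut.conj u).toMonoidHom, d • (QuotientGroup.mk g : G ⧸ Subgroup.normalizer ((T : Subgroup G) : Set G)) = QuotientGroup.mk g) ↔ (QuotientGroup.mk g : G ⧸ Subgroup.normalizer ((T : Subgroup G) : Set G)) = QuotientGroup.mk 1 ∨ (QuotientGroup.mk g : G ⧸ Subgroup.normalizer ((T : Subgroup G) : Set G)) = QuotientGroup.mk u) := by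
  classical
  have h2 : Fact (Nat.Prime 2) := ⟨Nat.prime_two⟩
  obtain ⟨hcomm, hexp, hcent⟩ := Cfsg.Agent.S1226.sylow_structure T hnc hC
  have hH : Cfsg.IsStronglyEmbedded (Subgroup.normalizer ((T : Subgroup G) : Set G)) :=
    Cfsg.Agent.S1226.result T hnc hnn hC
  have key := fun (z : G) (hz : orderOf z = 2) (hzH : z ∉ Subgroup.normalizer ((T : Subgroup G) : Set G)) =>
    Cfsg.Agent.S1227.result T hnc hnn hC z hz hzH
  set H := Subgroup.normalizer ((T : Subgroup G) : Set G) with hHdef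
  have hTH : (T : Subgroup G) ≤ H := Subgroup.le_normalizer
  have hT3 : 3 ≤ Nat.card (T : Subgroup G) := by
    by_contra hlt
    push Not at hlt
    have hpos : 0 < Nat.card (T : Subgroup G) := Nat.card_pos
    apply hnc
    interval_cases h : Nat.card (T : Subgroup G)
    · haveI : Subsingleton (T : Subgroup G) := (Nat.card_eq_one_iff_unique.1 h).1
      exact isCyclic_of_subsingleton
    · exact isCyclic_of_prime_card h
  obtain ⟨hinvD, hcardH, hcomplD⟩ := key u hu huH
  set D := H ⊓ H.map (MulAut.conj u).toMonoidHom with hDdef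
  have hDH : D ≤ H := inf_le_left
  have hDcard : Nat.card D = Nat.card (T : Subgroup G) - 1 := by
    have h1 := hcomplD.card_mul
    rw [Nat.card_congr (Subgroup.subgroupOfEquivOfLe hDH).toEquiv,
      Nat.card_congr (Subgroup.subgroupOfEquivOfLe hTH).toEquiv] at h1
    have hcardH' : Nat.card H = Nat.card (T : Subgroup G) * (Nat.card (T : Subgroup G) - 1) := hcardH
    rw [hcardH'] at h1
    have hTpos : 0 < Nat.card (T : Subgroup G) := Nat.card_pos
    exact Nat.eq_of_mul_eq_mul_right hTpos (by rw [h1, mul_comm])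
  have hDodd : Odd (Nat.card D) := hH.2.2 u huH
  have hDT : ∀ x ∈ D, x ∈ (T : Subgroup G) → x = 1 := by
    intro x hxD hxT
    have h1 : orderOf x ∣ Nat.card D := Subgroup.orderOf_dvd_natCard _ hxD
    have h2 : orderOf x ∣ 2 := orderOf_dvd_of_pow_eq_one (hexp x hxT)
    have h3 : orderOf x = 1 := by
      rcases (Nat.dvd_prime Nat.prime_two).1 h2 with h | h
      · exact h
      · rw [h] at h1; rw [Nat.odd_iff] at hDodd; omega
    exact orderOf_eq_one_iff.1 h3
  have hDne : ∃ d ∈ D, d ≠ 1 := by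
    by_contra h
    push Not at h
    have : D = ⊥ := (Subgroup.eq_bot_iff_forall D).2 h
    rw [this, Subgroup.card_bot] at hDcard
    omega
  have hDninv : ∀ z ∈ D, orderOf z ≠ 2 := by
    intro z hzD hz
    have := Subgroup.orderOf_dvd_natCard _ hzD
    rw [hz] at this; rw [Nat.odd_iff] at hDodd; omega
  obtain ⟨t₀, ht₀H, ht₀⟩ := se_exists_invol hH
  have ht₀T : t₀ ∈ (T : Subgroup G) := Cfsg.Agent.S1226.invol_mem T hC t₀ ht₀ ht₀H
  have hCt₀ := hcent t₀ ht₀T ht₀
  have hdecomp : ∀ h ∈ H, ∃ d ∈ D, d⁻¹ * h ∈ (T : Subgroup G) := by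
    intro h hh
    have h1 : orderOf (h * t₀ * h⁻¹) = 2 := orderOf_conj_two ht₀ h
    have h2 : h * t₀ * h⁻¹ ∈ H := H.mul_mem (H.mul_mem hh ht₀H) (H.inv_mem hh)
    obtain ⟨d, hd, hdt⟩ := se_conj_D hH hu huH ht₀ ht₀H h1 h2
    refine ⟨d, hd, ?_⟩
    rw [← hCt₀, Subgroup.mem_centralizer_iff]
    intro y hy
    rw [Set.mem_singleton_iff] at hy
    rw [hy]
    calc t₀ * (d⁻¹ * h) = d⁻¹ * (d * t₀ * d⁻¹) * h := by group
      _ = d⁻¹ * (h * t₀ * h⁻¹) * h := by rw [hdt]
      _ = d⁻¹ * h * t₀ := by group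
  -- Claim 1
  have hNH : ∀ n ∈ Subgroup.normalizer (D : Set G), n ∈ H → n ∈ D := by
    intro n hnN hnH
    obtain ⟨d, hd, ht⟩ := hdecomp n hnH
    have htN : d⁻¹ * n ∈ Subgroup.normalizer (D : Set G) :=
      Subgroup.mul_mem _ (Subgroup.inv_mem _ (Subgroup.le_normalizer hd)) hnN
    have ht1 : d⁻¹ * n = 1 := by
      by_contra hne
      have hto : orderOf (d⁻¹ * n) = 2 := orderOf_eq_two_of (by rw [← pow_two]; exact hexp _ ht) hne
      obtain ⟨d', hd', hd'1⟩ := hDne
      have h1 : (d⁻¹ * n) * d' * (d⁻¹ * n)⁻¹ ∈ D := conj_mem_of_mem_normalizer htN hd'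
      have h2 : (d⁻¹ * n) * d' * (d⁻¹ * n)⁻¹ * d'⁻¹ ∈ D := D.mul_mem h1 (D.inv_mem hd')
      have h3 : (d⁻¹ * n) * d' * (d⁻¹ * n)⁻¹ * d'⁻¹ ∈ (T : Subgroup G) := by
        have h4 : d' * (d⁻¹ * n)⁻¹ * d'⁻¹ ∈ (T : Subgroup G) :=
          conj_mem_of_mem_normalizer (hDH hd') (Subgroup.inv_mem _ ht)
        have : (d⁻¹ * n) * d' * (d⁻¹ * n)⁻¹ * d'⁻¹ = (d⁻¹ * n) * (d' * (d⁻¹ * n)⁻¹ * d'⁻¹) := by group
        rw [this]; exact Subgroup.mul_mem _ ht h4
      have h5 := hDT _ h2 h3
      have h6 : d' ∈ Subgroup.centralizer ({d⁻¹ * n} : Set G) := by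
        rw [Subgroup.mem_centralizer_iff]
        intro y hy
        rw [Set.mem_singleton_iff] at hy
        rw [hy]
        calc (d⁻¹ * n) * d' = ((d⁻¹ * n) * d' * (d⁻¹ * n)⁻¹ * d'⁻¹) * d' * (d⁻¹ * n) := by group
          _ = d' * (d⁻¹ * n) := by rw [h5, one_mul]
      rw [hcent _ ht hto] at h6
      exact hd'1 (hDT d' hd' h6)
    have : n = d * (d⁻¹ * n) := by group
    rw [this, ht1, mul_one]; exact hd
  have hinv_of_le : ∀ z : G, orderOf z = 2 → z ∉ H → D ≤ H ⊓ H.map (MulAut.conj z).toMonoidHom →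
      ∀ d ∈ D, z * d * z⁻¹ = d⁻¹ := by
    intro z hz hzH hle
    obtain ⟨hinvz, -, -⟩ := key z hz hzH
    intro d hd
    exact hinvz d (hle hd)
  have hN_of_inv : ∀ z : G, orderOf z = 2 → (∀ d ∈ D, z * d * z⁻¹ = d⁻¹) →
      z ∈ Subgroup.normalizer (D : Set G) := by
    intro z hzo hz
    have hzi := orderOf_two_inv hzo
    rw [Subgroup.mem_normalizer_iff]
    intro d
    constructor
    · intro hd; rw [hz d hd]; exact D.inv_mem hd
    · intro hd
      have h1 := hz _ hd
      have e1 : d = (z * z)⁻¹ * (z * (z * d * z⁻¹) * z⁻¹) * (z * z) := by group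
      rw [e1, h1, orderOf_two_mul_self hzo, inv_one, one_mul, mul_one]
      exact D.inv_mem hd
  -- Claim 2
  have hinvN : ∀ z ∈ Subgroup.normalizer (D : Set G), orderOf z = 2 → ∀ d ∈ D, z * d * z⁻¹ = d⁻¹ := by
    intro z hzN hz
    have hzH : z ∉ H := fun h => hDninv z (hNH z hzN h) hz
    apply hinv_of_le z hz hzH
    intro d hd
    refine Subgroup.mem_inf.2 ⟨hDH hd, ?_⟩
    rw [mem_map_conj_iff]
    have := conj_mem_of_mem_normalizer (Subgroup.inv_mem _ hzN) hd
    rw [inv_inv] at this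
    exact hDH this
  -- Claim 3
  have hinvol : ∀ n ∈ Subgroup.normalizer (D : Set G), n ∉ D → orderOf n = 2 := by
    intro n hnN hnD
    have hnH : n ∉ H := fun h => hnD (hNH n hnN h)
    obtain ⟨z, hz, hzn⟩ := se_exists_invol_coset hH hnH
    have hzH : z ∉ H := by
      intro h; apply hnH
      have : n = z * (z⁻¹ * n) := by group
      rw [this]; exact H.mul_mem h hzn
    have hle : D ≤ H ⊓ H.map (MulAut.conj z).toMonoidHom := by
      intro d hd
      refine Subgroup.mem_inf.2 ⟨hDH hd, ?_⟩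
      rw [mem_map_conj_iff]
      have h1 : n⁻¹ * d * n ∈ D := by
        have := conj_mem_of_mem_normalizer (Subgroup.inv_mem _ hnN) hd
        rwa [inv_inv] at this
      have : z⁻¹ * d * z = (z⁻¹ * n) * (n⁻¹ * d * n) * (z⁻¹ * n)⁻¹ := by group
      rw [this]; exact H.mul_mem (H.mul_mem hzn (hDH h1)) (H.inv_mem hzn)
    have hzinv := hinv_of_le z hz hzH hle
    have hzN := hN_of_inv z hz hzinv
    have hhD : z⁻¹ * n ∈ D := hNH _ (Subgroup.mul_mem _ (Subgroup.inv_mem _ hzN) hnN) hzn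
    have hnn : n * n = 1 := by
      have h1 := hzinv _ hhD
      calc n * n = (z * (z⁻¹ * n) * z⁻¹) * (z * z) * (z⁻¹ * n) := by group
        _ = 1 := by rw [h1, orderOf_two_mul_self hz]; group
    refine orderOf_eq_two_of hnn ?_
    intro h1; rw [h1] at hnD; exact hnD D.one_mem
  -- Claim 4
  have hprod : ∀ a ∈ Subgroup.normalizer (D : Set G), ∀ b ∈ Subgroup.normalizer (D : Set G),
      a ∉ D → b ∉ D → a * b ∈ D := by
    intro a haN b hbN haD hbD
    by_contra habD
    have habN := Subgroup.mul_mem _ haN hbN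
    have h1 := hinvN a haN (hinvol a haN haD)
    have h2 := hinvN b hbN (hinvol b hbN hbD)
    have h3 := hinvN (a * b) habN (hinvol (a * b) habN habD)
    obtain ⟨d, hd, hd1⟩ := hDne
    have h4 : d⁻¹ = d := by
      rw [← h3 d hd]
      have : a * b * d * (a * b)⁻¹ = a * (b * d * b⁻¹) * a⁻¹ := by group
      rw [this, h2 d hd, h1 _ (D.inv_mem hd), inv_inv]
    have h5 : d * d = 1 := by nth_rewrite 1 [← h4]; exact inv_mul_cancel d
    exact hDninv d hd (orderOf_eq_two_of h5 hd1)
  have huN : u ∈ Subgroup.normalizer (D : Set G) := hN_of_inv u hu hinvD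
  have huD : u ∉ D := fun h => huH (hDH h)
  refine ⟨?_, ?_⟩
  · apply le_antisymm
    · intro n hn
      by_cases hnD : n ∈ D
      · exact Subgroup.mem_sup_left hnD
      · have h1 := hprod u huN n hn huD hnD
        have e : n = u⁻¹ * (u * n) := by group
        rw [e]
        exact Subgroup.mul_mem _ (Subgroup.mem_sup_right (Subgroup.inv_mem _ (Subgroup.mem_zpowers u)))
          (Subgroup.mem_sup_left h1)
    · exact sup_le Subgroup.le_normalizer ((Subgroup.zpowers_le).2 huN)
  · intro g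
    constructor
    · intro hfix
      by_cases hgH : g ∈ H
      · left
        rw [QuotientGroup.eq]
        simpa using hgH
      · right
        obtain ⟨z, hz, hzg⟩ := se_exists_invol_coset hH hgH
        have hzH : z ∉ H := by
          intro h; apply hgH
          have : g = z * (z⁻¹ * g) := by group
          rw [this]; exact H.mul_mem h hzg
        have hle : D ≤ H ⊓ H.map (MulAut.conj z).toMonoidHom := by
          intro d hd
          refine Subgroup.mem_inf.2 ⟨hDH hd, ?_⟩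
          rw [mem_map_conj_iff]
          have h1 := hfix d hd
          rw [smul_mk_eq_iff] at h1
          have : z⁻¹ * d * z = (z⁻¹ * g) * ((d * g)⁻¹ * g)⁻¹ * (z⁻¹ * g)⁻¹ := by group
          rw [this]; exact H.mul_mem (H.mul_mem hzg (H.inv_mem h1)) (H.inv_mem hzg)
        have hzinv := hinv_of_le z hz hzH hle
        have hzN := hN_of_inv z hz hzinv
        have hzD : z ∉ D := fun h => hzH (hDH h)
        have h1 := hprod u huN z hzN huD hzD
        rw [QuotientGroup.eq]
        have hui := orderOf_two_inv hu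
        have : g⁻¹ * u = (z⁻¹ * g)⁻¹ * (u⁻¹ * z)⁻¹ := by group
        rw [this, hui]; exact H.mul_mem (H.inv_mem hzg) (H.inv_mem (hDH h1))
    · rintro (h | h) d hd
      · rw [QuotientGroup.eq] at h
        have hgH : g ∈ H := by simpa using h
        rw [smul_mk_eq_iff]
        have : (d * g)⁻¹ * g = g⁻¹ * d⁻¹ * g := by group
        rw [this]; exact H.mul_mem (H.mul_mem (H.inv_mem hgH) (H.inv_mem (hDH hd))) hgH
      · rw [QuotientGroup.eq] at h
        rw [smul_mk_eq_iff]
        have hdu : u⁻¹ * d * u ∈ H := (mem_map_conj_iff _ u d).1 (Subgroup.mem_inf.1 hd).2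
        have : (d * g)⁻¹ * g = (g⁻¹ * u) * (u⁻¹ * d * u)⁻¹ * (g⁻¹ * u)⁻¹ := by group
        rw [this]; exact H.mul_mem (H.mul_mem h (H.inv_mem hdu)) (H.inv_mem h)

end Cfsg.Agent.S1228
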