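import Cfsg.Statements.S1229
import Cfsg.Agent.Lib.Helper10.StrEmb
import Cfsg.Agent.Lib.Helper10.Signalizer
import Cfsg.Agent.Lib.Helper1.SZ
import Cfsg.Agent.S1226
import Cfsg.Agent.S1227
import Cfsg.Agent.S1228

set_option autoImplicit false
open Cfsg

namespace Cfsg.Agent.S1229

open Cfsg.Agent.Lib.Helper10 in
/-- Let G be a finite group with a Sylow 2-subgroup T that is neither cyclic nor normal, such that the centralizer of every involution is an elementary abelian 2-group; put H = N_G(T) and X = G/H. Then G is triply transitive on X, an element fixing three distinct points of X is the identity, and T acts regularly on X minus the point H. -/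
theorem result {G : Type*} [Group G] [Finite G] (T : Sylow 2 G) (hnc : ¬ IsCyclic (T : Subgroup G)) (hnn : ¬ (T : Subgroup G).Normal) (hC : ∀ t : G, orderOf t = 2 → IsMulCommutative (Subgroup.centralizer ({t} : Set G)) ∧ ∀ c ∈ Subgroup.centralizer ({t} : Set G), c ^ 2 = 1) : (∀ x₁ x₂ x₃ y₁ y₂ y₃ : G ⧸ Subgroup.normalizer ((T : Subgroup G) : Set G), x₁ ≠ x₂ → x₁ ≠ x₃ → x₂ ≠ x₃ → y₁ ≠ y₂ → y₁ ≠ y₃ → y₂ ≠ y₃ → ∃ g : G, g • x₁ = y₁ ∧ g • x₂ = y₂ ∧ g • x₃ = y₃) ∧ (∀ g : G, ∀ x₁ x₂ x₃ : G ⧸ Subgroup.normalizer ((T : Subgroup G) : Set G), x₁ ≠ x₂ → x₁ ≠ x₃ → x₂ ≠ x₃ → g • x₁ = x₁ → g • x₂ = x₂ → g • x₃ = x₃ → g = 1) ∧ (∀ x y : G ⧸ Subgroup.normalizer ((T : Subgroup G) : Set G), x ≠ QuotientGroup.mk 1 → y ≠ QuotientGroup.mk 1 → ∃! t : G, t ∈ T ∧ t • x = y) := by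
  classical
  have h2 : Fact (Nat.Prime 2) := ⟨Nat.prime_two⟩
  obtain ⟨hcomm, hexp, hcent⟩ := Cfsg.Agent.S1226.sylow_structure T hnc hC
  have hH : Cfsg.IsStronglyEmbedded (Subgroup.normalizer ((T : Subgroup G) : Set G)) :=
    Cfsg.Agent.S1226.result T hnc hnn hC
  have key := fun (z : G) (hz : orderOf z = 2) (hzH : z ∉ Subgroup.normalizer ((T : Subgroup G) : Set G)) =>
    Cfsg.Agent.S1227.result T hnc hnn hC z hz hzH
  have key2 := fun (z : G) (hz : orderOf z = 2) (hzH : z ∉ Subgroup.normalizer ((T : Subgroup G) : Set G)) =>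
    (Cfsg.Agent.S1228.result T hnc hnn hC z hz hzH).2
  set H := Subgroup.normalizer ((T : Subgroup G) : Set G) with hHdef
  have hTH : (T : Subgroup G) ≤ H := Subgroup.le_normalizer
  have hTsolv : Group.IsSolvable (T : Subgroup G) := by
    apply isSolvable_of_comm
    intro a b
    exact Subtype.ext (hcomm a.1 a.2 b.1 b.2)
  -- card of D_z
  have hDcard : ∀ z : G, orderOf z = 2 → z ∉ H →
      Nat.card ↥(H ⊓ H.map (MulAut.conj z).toMonoidHom) = Nat.card (T : Subgroup G) - 1 := by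
    intro z hz hzH
    obtain ⟨-, hcardH, hcomplD⟩ := key z hz hzH
    have h1 := hcomplD.card_mul
    rw [Nat.card_congr (Subgroup.subgroupOfEquivOfLe (inf_le_left : H ⊓ H.map (MulAut.conj z).toMonoidHom ≤ H)).toEquiv,
      Nat.card_congr (Subgroup.subgroupOfEquivOfLe hTH).toEquiv] at h1
    have hcardH' : Nat.card H = Nat.card (T : Subgroup G) * (Nat.card (T : Subgroup G) - 1) := hcardH
    rw [hcardH'] at h1
    have hTpos : 0 < Nat.card (T : Subgroup G) := Nat.card_pos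
    exact Nat.eq_of_mul_eq_mul_right hTpos (by rw [h1, mul_comm])
  have hDT : ∀ z : G, z ∉ H → ∀ x ∈ H ⊓ H.map (MulAut.conj z).toMonoidHom, x ∈ (T : Subgroup G) → x = 1 := by
    intro z hzH x hxD hxT
    have hDodd := hH.2.2 z hzH
    have h1 : orderOf x ∣ Nat.card ↥(H ⊓ H.map (MulAut.conj z).toMonoidHom) := Subgroup.orderOf_dvd_natCard _ hxD
    have h2 : orderOf x ∣ 2 := orderOf_dvd_of_pow_eq_one (hexp x hxT)
    have h3 : orderOf x = 1 := by
      rcases (Nat.dvd_prime Nat.prime_two).1 h2 with h | h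
      · exact h
      · rw [h] at h1; rw [Nat.odd_iff] at hDodd; omega
    exact orderOf_eq_one_iff.1 h3
  obtain ⟨t₀, ht₀H, ht₀⟩ := se_exists_invol hH
  have ht₀T : t₀ ∈ (T : Subgroup G) := Cfsg.Agent.S1226.invol_mem T hC t₀ ht₀ ht₀H
  have hCt₀ := hcent t₀ ht₀T ht₀
  have hdecomp : ∀ z : G, orderOf z = 2 → z ∉ H → ∀ h ∈ H,
      ∃ d ∈ H ⊓ H.map (MulAut.conj z).toMonoidHom, d⁻¹ * h ∈ (T : Subgroup G) := by
    intro z hz hzH h hh
    have h1 : orderOf (h * t₀ * h⁻¹) = 2 := orderOf_conj_two ht₀ h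
    have h2 : h * t₀ * h⁻¹ ∈ H := H.mul_mem (H.mul_mem hh ht₀H) (H.inv_mem hh)
    obtain ⟨d, hd, hdt⟩ := se_conj_D hH hz hzH ht₀ ht₀H h1 h2
    refine ⟨d, hd, ?_⟩
    rw [← hCt₀, Subgroup.mem_centralizer_iff]
    intro y hy
    rw [Set.mem_singleton_iff] at hy
    rw [hy]
    calc t₀ * (d⁻¹ * h) = d⁻¹ * (d * t₀ * d⁻¹) * h := by group
      _ = d⁻¹ * (h * t₀ * h⁻¹) * h := by rw [hdt]
      _ = d⁻¹ * h * t₀ := by group
  -- basic facts on the base point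
  have F1 : ∀ h ∈ H, h • (QuotientGroup.mk 1 : G ⧸ H) = QuotientGroup.mk 1 := by
    intro h hh
    rw [smul_mk_eq_iff]
    simpa using hh
  have F1' : ∀ g : G, g • (QuotientGroup.mk 1 : G ⧸ H) = QuotientGroup.mk 1 → g ∈ H := by
    intro g hg
    rw [smul_mk_eq_iff] at hg
    simpa using hg
  have hmk : ∀ a : G, (QuotientGroup.mk a : G ⧸ H) = QuotientGroup.mk 1 ↔ a ∈ H := by
    intro a
    rw [QuotientGroup.eq]
    simp
  have hTinv : ∀ t ∈ (T : Subgroup G), t ≠ 1 → orderOf t = 2 := fun t ht ht1 =>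
    orderOf_eq_two_of (by rw [← pow_two]; exact hexp t ht) ht1
  have F2 : ∀ t ∈ (T : Subgroup G), t ≠ 1 → ∀ x : G ⧸ H, t • x = x → x = QuotientGroup.mk 1 := by
    intro t ht ht1 x hx
    exact se_fix_unique hH (hTinv t ht ht1) hx (F1 t (hTH ht))
  -- existence
  have F3 : ∀ x y : G ⧸ H, x ≠ QuotientGroup.mk 1 → y ≠ QuotientGroup.mk 1 →
      ∃ t ∈ (T : Subgroup G), t • x = y := by
    intro x y hx hy
    obtain ⟨a, rfl⟩ := QuotientGroup.mk_surjective x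
    obtain ⟨b, rfl⟩ := QuotientGroup.mk_surjective y
    have haH : a ∉ H := fun h => hx ((hmk a).2 h)
    have hbH : b ∉ H := fun h => hy ((hmk b).2 h)
    obtain ⟨z₁, hz₁, hz₁a⟩ := Cfsg.Agent.S1228.se_exists_invol_coset hH haH
    obtain ⟨z₂, hz₂, hz₂b⟩ := Cfsg.Agent.S1228.se_exists_invol_coset hH hbH
    have hz₁H : z₁ ∉ H := by
      intro h; apply haH
      have : a = z₁ * (z₁⁻¹ * a) := by group
      rw [this]; exact H.mul_mem h hz₁a
    have hz₂H : z₂ ∉ H := by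
      intro h; apply hbH
      have : b = z₂ * (z₂⁻¹ * b) := by group
      rw [this]; exact H.mul_mem h hz₂b
    have ha1 : (QuotientGroup.mk a : G ⧸ H) = QuotientGroup.mk z₁ := by
      rw [QuotientGroup.eq]
      have : a⁻¹ * z₁ = (z₁⁻¹ * a)⁻¹ := by group
      rw [this]; exact H.inv_mem hz₁a
    have hb1 : (QuotientGroup.mk b : G ⧸ H) = QuotientGroup.mk z₂ := by
      rw [QuotientGroup.eq]
      have : b⁻¹ * z₂ = (z₂⁻¹ * b)⁻¹ := by group
      rw [this]; exact H.inv_mem hz₂b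
    have hcop : (Nat.card ↥(H ⊓ H.map (MulAut.conj z₁).toMonoidHom)).Coprime (Nat.card (T : Subgroup G)) := by
      obtain ⟨n, hn⟩ := (T.isPGroup').exists_card_eq
      rw [hn]
      exact Nat.Coprime.pow_right n (Nat.coprime_two_right.2 (hH.2.2 z₁ hz₁H))
    have hB : H ⊓ H.map (MulAut.conj z₂).toMonoidHom ≤ (T : Subgroup G) ⊔ (H ⊓ H.map (MulAut.conj z₁).toMonoidHom) := by
      intro h hh
      obtain ⟨d, hd, hdt⟩ := hdecomp z₁ hz₁ hz₁H h hh.1
      have : h = d * (d⁻¹ * h) := by group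
      rw [this]
      exact Subgroup.mul_mem _ (Subgroup.mem_sup_right hd) (Subgroup.mem_sup_left hdt)
    obtain ⟨k, hk, hkD⟩ := Cfsg.Agent.Lib.Helper1.sz_conj_rel (H ⊓ H.map (MulAut.conj z₁).toMonoidHom) (T : Subgroup G)
      inf_le_left hcop (Or.inr hTsolv) (H ⊓ H.map (MulAut.conj z₂).toMonoidHom) hB
      (by rw [hDcard z₁ hz₁ hz₁H, hDcard z₂ hz₂ hz₂H])
    refine ⟨k, hk, ?_⟩
    have hfix : ∀ d ∈ H ⊓ H.map (MulAut.conj z₂).toMonoidHom,
        d • (QuotientGroup.mk (k * a) : G ⧸ H) = QuotientGroup.mk (k * a) := by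
      intro d hd
      rw [← hkD, Cfsg.Agent.Lib.Helper1.mem_conj_smul_iff] at hd
      have h1 := (key2 z₁ hz₁ hz₁H a).2 (Or.inr ha1) _ hd
      show d • (k • (QuotientGroup.mk a : G ⧸ H)) = k • (QuotientGroup.mk a : G ⧸ H)
      rw [← mul_smul]
      have : d * k = k * (k⁻¹ * d * k) := by group
      rw [this, mul_smul, h1]
    rcases (key2 z₂ hz₂ hz₂H (k * a)).1 hfix with h | h
    · exfalso
      apply haH
      have h3 := (hmk (k * a)).1 h
      have : a = k⁻¹ * (k * a) := by group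
      rw [this]; exact H.mul_mem (H.inv_mem (hTH hk)) h3
    · rw [hb1]; exact h
  have F4 : ∀ t ∈ (T : Subgroup G), ∀ t' ∈ (T : Subgroup G), ∀ x : G ⧸ H, x ≠ QuotientGroup.mk 1 →
      t • x = t' • x → t = t' := by
    intro t ht t' ht' x hx hxx
    by_contra hne
    have h1 : (t⁻¹ * t') • x = x := by
      rw [mul_smul, ← hxx, inv_smul_smul]
    have h3 : t⁻¹ * t' ≠ 1 := by
      intro h; apply hne
      have : t' = t * (t⁻¹ * t') := by group
      rw [this, h, mul_one]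
    exact hx (F2 _ (Subgroup.mul_mem _ (Subgroup.inv_mem _ ht) ht') h3 x h1)
  -- two-transitivity
  have hB2 : ∀ x₁ x₂ y₁ y₂ : G ⧸ H, x₁ ≠ x₂ → y₁ ≠ y₂ → ∃ g : G, g • x₁ = y₁ ∧ g • x₂ = y₂ := by
    intro x₁ x₂ y₁ y₂ hx hy
    obtain ⟨a, ha⟩ := MulAction.exists_smul_eq G x₁ (QuotientGroup.mk 1 : G ⧸ H)
    obtain ⟨b, hb⟩ := MulAction.exists_smul_eq G y₁ (QuotientGroup.mk 1 : G ⧸ H)
    have h1 : a • x₂ ≠ QuotientGroup.mk 1 := by
      intro h; apply hx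
      rw [← ha] at h
      exact (smul_left_cancel a h).symm
    have h2 : b • y₂ ≠ QuotientGroup.mk 1 := by
      intro h; apply hy
      rw [← hb] at h
      exact (smul_left_cancel b h).symm
    obtain ⟨t, ht, htx⟩ := F3 _ _ h1 h2
    refine ⟨b⁻¹ * t * a, ?_, ?_⟩
    · rw [mul_smul, mul_smul, ha, F1 t (hTH ht), ← hb, inv_smul_smul]
    · rw [mul_smul, mul_smul, htx, inv_smul_smul]
  -- elements fixing three points
  have hthree : ∀ g : G, ∀ x₁ x₂ x₃ : G ⧸ H, x₁ ≠ x₂ → x₁ ≠ x₃ → x₂ ≠ x₃ → g • x₁ = x₁ → g • x₂ = x₂ →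
      g • x₃ = x₃ → g = 1 := by
    intro g x₁ x₂ x₃ h12 h13 h23 hg1 hg2 hg3
    obtain ⟨a, ha⟩ := MulAction.exists_smul_eq G x₁ (QuotientGroup.mk 1 : G ⧸ H)
    have hy2 : a • x₂ ≠ QuotientGroup.mk 1 := by
      intro h; apply h12
      rw [← ha] at h
      exact (smul_left_cancel a h).symm
    have hy3 : a • x₃ ≠ QuotientGroup.mk 1 := by
      intro h; apply h13
      rw [← ha] at h
      exact (smul_left_cancel a h).symm
    have hy23 : a • x₂ ≠ a • x₃ := fun h => h23 (smul_left_cancel a h)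
    have hg'1 : (a * g * a⁻¹) • (QuotientGroup.mk 1 : G ⧸ H) = QuotientGroup.mk 1 := by
      rw [← ha, mul_smul, mul_smul, inv_smul_smul, hg1]
    have hg'2 : (a * g * a⁻¹) • (a • x₂) = a • x₂ := by
      rw [mul_smul, mul_smul, inv_smul_smul, hg2]
    have hg'3 : (a * g * a⁻¹) • (a • x₃) = a • x₃ := by
      rw [mul_smul, mul_smul, inv_smul_smul, hg3]
    have hg'H : a * g * a⁻¹ ∈ H := F1' _ hg'1
    obtain ⟨t, ht, htx⟩ := F3 _ _ hy2 hy3
    have ht1 : t ≠ 1 := by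
      intro h; rw [h, one_smul] at htx; exact hy23 htx
    have hconjT : (a * g * a⁻¹) * t * (a * g * a⁻¹)⁻¹ ∈ (T : Subgroup G) :=
      conj_mem_of_mem_normalizer hg'H ht
    have hconj : ((a * g * a⁻¹) * t * (a * g * a⁻¹)⁻¹) • (a • x₂) = t • (a • x₂) := by
      have h5 : (a * g * a⁻¹)⁻¹ • (a • x₂) = a • x₂ := by
        rw [inv_smul_eq_iff, hg'2]
      rw [mul_smul, mul_smul, h5, htx, hg'3]
    have h6 := F4 _ hconjT t ht _ hy2 hconj
    have h7 : a * g * a⁻¹ ∈ Subgroup.centralizer ({t} : Set G) := by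
      rw [Subgroup.mem_centralizer_iff]
      intro y hy
      rw [Set.mem_singleton_iff] at hy
      rw [hy]
      calc t * (a * g * a⁻¹) = ((a * g * a⁻¹) * t * (a * g * a⁻¹)⁻¹) * (a * g * a⁻¹) := by rw [h6]
        _ = (a * g * a⁻¹) * t := by group
    rw [hcent t ht (hTinv t ht ht1)] at h7
    have h8 : a * g * a⁻¹ = 1 := by
      by_contra hne
      exact hy2 (F2 _ h7 hne _ hg'2)
    have : g = a⁻¹ * (a * g * a⁻¹) * a := by group
    rw [this, h8]; group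
  -- transitivity of the two-point stabilizer
  obtain ⟨u₀, hu₀, hu₀H⟩ := se_exists_invol_not_mem hH
  have hw : (QuotientGroup.mk u₀ : G ⧸ H) ≠ QuotientGroup.mk 1 := fun h => hu₀H ((hmk u₀).1 h)
  have hDw : ∀ d ∈ H ⊓ H.map (MulAut.conj u₀).toMonoidHom,
      d • (QuotientGroup.mk u₀ : G ⧸ H) = QuotientGroup.mk u₀ :=
    (key2 u₀ hu₀ hu₀H u₀).2 (Or.inr rfl)
  have hC3 : ∀ x y : G ⧸ H, x ≠ QuotientGroup.mk 1 → x ≠ QuotientGroup.mk u₀ → y ≠ QuotientGroup.mk 1 →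
      y ≠ QuotientGroup.mk u₀ → ∃ d ∈ H ⊓ H.map (MulAut.conj u₀).toMonoidHom, d • x = y := by
    intro x y hx1 hxw hy1 hyw
    obtain ⟨tx, htx, htxw⟩ := F3 _ _ hw hx1
    obtain ⟨ty, hty, htyw⟩ := F3 _ _ hw hy1
    have htx1 : tx ≠ 1 := by
      intro h; rw [h, one_smul] at htxw; exact hxw htxw.symm
    have hty1 : ty ≠ 1 := by
      intro h; rw [h, one_smul] at htyw; exact hyw htyw.symm
    obtain ⟨d, hd, hdt⟩ := se_conj_D hH hu₀ hu₀H (hTinv tx htx htx1) (hTH htx) (hTinv ty hty hty1) (hTH hty)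
    refine ⟨d, hd, ?_⟩
    rw [← htxw, ← mul_smul]
    have : d * tx = (d * tx * d⁻¹) * d := by group
    rw [this, mul_smul, hDw d hd, hdt, htyw]
  refine ⟨?_, hthree, ?_⟩
  · intro x₁ x₂ x₃ y₁ y₂ y₃ hx12 hx13 hx23 hy12 hy13 hy23
    obtain ⟨g₁, hg₁1, hg₁2⟩ := hB2 x₁ x₂ (QuotientGroup.mk 1) (QuotientGroup.mk u₀) hx12 hw.symm
    obtain ⟨g₂, hg₂1, hg₂2⟩ := hB2 y₁ y₂ (QuotientGroup.mk 1) (QuotientGroup.mk u₀) hy12 hw.symm
    have hx3a : g₁ • x₃ ≠ QuotientGroup.mk 1 := by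
      intro h; rw [← hg₁1] at h; exact hx13 (smul_left_cancel g₁ h).symm
    have hx3b : g₁ • x₃ ≠ QuotientGroup.mk u₀ := by
      intro h; rw [← hg₁2] at h; exact hx23 (smul_left_cancel g₁ h).symm
    have hy3a : g₂ • y₃ ≠ QuotientGroup.mk 1 := by
      intro h; rw [← hg₂1] at h; exact hy13 (smul_left_cancel g₂ h).symm
    have hy3b : g₂ • y₃ ≠ QuotientGroup.mk u₀ := by
      intro h; rw [← hg₂2] at h; exact hy23 (smul_left_cancel g₂ h).symm
    obtain ⟨d, hd, hdx⟩ := hC3 _ _ hx3a hx3b hy3a hy3b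
    refine ⟨g₂⁻¹ * d * g₁, ?_, ?_, ?_⟩
    · rw [mul_smul, mul_smul, hg₁1, F1 d hd.1, ← hg₂1, inv_smul_smul]
    · rw [mul_smul, mul_smul, hg₁2, hDw d hd, ← hg₂2, inv_smul_smul]
    · rw [mul_smul, mul_smul, hdx, inv_smul_smul]
  · intro x y hx hy
    obtain ⟨t, ht, htx⟩ := F3 x y hx hy
    refine ⟨t, ⟨ht, htx⟩, ?_⟩
    rintro t' ⟨ht', ht'x⟩
    exact F4 t' ht' t ht x hx (by rw [ht'x, htx])

end Cfsg.Agent.S1229
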