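import Cfsg.Statements.S1230
import Mathlib
import Cfsg.Agent.S1229
import Cfsg.Agent.S0727

set_option autoImplicit false
open Cfsg

namespace Cfsg.Agent.S1230


theorem pgl_psl {F : Type} [Field F] [Fintype F] (f : ℕ) (hf : 1 ≤ f) (hF : Fintype.card F = 2 ^ f) :
    Nonempty (Matrix.ProjGenLinGroup (Fin 2) F ≃* Matrix.ProjectiveSpecialLinearGroup (Fin 2) F) := by
  classical
  refine ⟨(MulEquiv.ofBijective Matrix.ProjectiveSpecialLinearGroup.toPGL
    ⟨Matrix.ProjectiveSpecialLinearGroup.toPGL_injective,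
     Matrix.ProjectiveSpecialLinearGroup.toPGL_surj_of_roots ?_⟩).symm⟩
  intro r
  refine ⟨r ^ (2 ^ (f - 1)), ?_⟩
  rw [Fintype.card_fin, ← pow_mul]
  have h1 : 2 ^ (f - 1) * 2 = (2 ^ f - 1) + 1 := by
    have h0 : 2 ^ (f - 1) * 2 = 2 ^ f := by
      rw [← pow_succ]
      congr 1
      omega
    have : 1 ≤ 2 ^ f := Nat.one_le_two_pow
    omega
  rw [h1]
  have h2 : r ^ (Fintype.card Fˣ) = 1 := pow_card_eq_one
  rw [Fintype.card_units, hF] at h2
  rw [pow_succ, h2, one_mul]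

theorem main {G : Type*} [Group G] [Finite G] (H : Subgroup G) (T : Subgroup G) (hTH : T ≤ H)
    (hHne : H ≠ ⊤) (f : ℕ) (hf : 1 ≤ f) (hT : Nat.card T = 2 ^ f)
    (h3 : ∀ x₁ x₂ x₃ y₁ y₂ y₃ : G ⧸ H, x₁ ≠ x₂ → x₁ ≠ x₃ → x₂ ≠ x₃ → y₁ ≠ y₂ → y₁ ≠ y₃ → y₂ ≠ y₃ →
      ∃ g : G, g • x₁ = y₁ ∧ g • x₂ = y₂ ∧ g • x₃ = y₃)
    (hsh : ∀ g : G, ∀ x₁ x₂ x₃ : G ⧸ H, x₁ ≠ x₂ → x₁ ≠ x₃ → x₂ ≠ x₃ → g • x₁ = x₁ → g • x₂ = x₂ →
      g • x₃ = x₃ → g = 1)
    (hreg : ∀ x y : G ⧸ H, x ≠ QuotientGroup.mk 1 → y ≠ QuotientGroup.mk 1 →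
      ∃! t : G, t ∈ T ∧ t • x = y) :
    ∃ (F : Type) (_ : Field F) (_ : Fintype F), Fintype.card F = 2 ^ f ∧
      Nonempty (G ≃* Matrix.ProjectiveSpecialLinearGroup (Fin 2) F) := by
  classical
  have : Fintype (G ⧸ H) := Fintype.ofFinite _
  -- a point different from the base point
  obtain ⟨g₀, hg₀⟩ : ∃ g₀ : G, g₀ ∉ H := by
    by_contra hcon
    push Not at hcon
    exact hHne (eq_top_iff.mpr fun g _ => hcon g)
  obtain ⟨x₀, hx₀⟩ : ∃ x₀ : G ⧸ H, x₀ = QuotientGroup.mk g₀ := ⟨_, rfl⟩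
  have hx₀ne : x₀ ≠ QuotientGroup.mk 1 := by
    intro h
    rw [hx₀, QuotientGroup.eq] at h
    apply hg₀
    have h' : g₀⁻¹ ∈ H := by simpa using h
    simpa using H.inv_mem h'
  have hfix : ∀ t ∈ T, t • (QuotientGroup.mk 1 : G ⧸ H) = QuotientGroup.mk 1 := by
    intro t ht
    rw [MulAction.Quotient.smul_mk, QuotientGroup.eq, smul_eq_mul]
    simpa using H.inv_mem (hTH ht)
  have hmove : ∀ t ∈ T, t • x₀ ≠ QuotientGroup.mk 1 := by
    intro t ht h
    apply hx₀ne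
    have h1 : t⁻¹ • (t • x₀) = t⁻¹ • (QuotientGroup.mk 1 : G ⧸ H) := by rw [h]
    rw [inv_smul_smul, hfix _ (T.inv_mem ht)] at h1
    exact h1
  -- the cardinality of the set of cosets
  have hcardX : Fintype.card (G ⧸ H) = 2 ^ f + 1 := by
    have hbij : Function.Bijective
        (fun t : T => (⟨(t : G) • x₀, hmove _ t.2⟩ : {y : G ⧸ H // y ≠ QuotientGroup.mk 1})) := by
      constructor
      · intro t t' htt
        have h1 : (t : G) • x₀ = (t' : G) • x₀ := congrArg Subtype.val htt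
        obtain ⟨s, _, hs⟩ := hreg x₀ ((t' : G) • x₀) hx₀ne (hmove _ t'.2)
        have e1 := hs t ⟨t.2, h1⟩
        have e2 := hs t' ⟨t'.2, rfl⟩
        exact Subtype.ext (e1.trans e2.symm)
      · rintro ⟨y, hy⟩
        obtain ⟨s, ⟨hsT, hsy⟩, _⟩ := hreg x₀ y hx₀ne hy
        exact ⟨⟨s, hsT⟩, Subtype.ext hsy⟩
    have h1 : Nat.card T = Nat.card {y : G ⧸ H // y ≠ QuotientGroup.mk 1} :=
      Nat.card_congr (Equiv.ofBijective _ hbij)
    have h2 : Nat.card {y : G ⧸ H // y ≠ QuotientGroup.mk 1} = Fintype.card (G ⧸ H) - 1 := by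
      rw [Nat.card_eq_fintype_card, Fintype.card_subtype_compl, Fintype.card_subtype_eq]
    have h3' : 0 < Fintype.card (G ⧸ H) := Fintype.card_pos
    omega
  -- three distinct points
  have h4 : 2 ≤ 2 ^ f := by
    calc 2 = 2 ^ 1 := (pow_one 2).symm
      _ ≤ 2 ^ f := Nat.pow_le_pow_right (by norm_num) hf
  obtain ⟨e3⟩ : Nonempty (Fin 3 ↪ (G ⧸ H)) := by
    rw [Function.Embedding.nonempty_iff_card_le, Fintype.card_fin, hcardX]
    omega
  have hd01 : e3 0 ≠ e3 1 := fun h => by simpa using e3.injective h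
  have hd02 : e3 0 ≠ e3 2 := fun h => by simpa using e3.injective h
  have hd12 : e3 1 ≠ e3 2 := fun h => by simpa using e3.injective h
  -- the permutation representation
  obtain ⟨φ, hφ⟩ : ∃ φ : G →* Equiv.Perm (G ⧸ H), φ = MulAction.toPermHom G (G ⧸ H) := ⟨_, rfl⟩
  have hφa : ∀ (g : G) (x : G ⧸ H), φ g x = g • x := by
    intro g x
    rw [hφ]
    rfl
  have hinj : Function.Injective φ := by
    rw [injective_iff_map_eq_one]
    intro g hg
    apply hsh g (e3 0) (e3 1) (e3 2) hd01 hd02 hd12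
    · rw [← hφa, hg]; rfl
    · rw [← hφa, hg]; rfl
    · rw [← hφa, hg]; rfl
  have hsm : ∀ (g : G) (x : Fin 3 ↪ (G ⧸ H)) (i : Fin 3),
      ((⟨φ g, ⟨g, rfl⟩⟩ : φ.range) • x) i = g • x i := by
    intro g x i
    rw [Function.Embedding.smul_apply]
    exact hφa g (x i)
  have h3p : MulAction.IsMultiplyPretransitive φ.range (G ⧸ H) 3 := by
    rw [MulAction.isMultiplyPretransitive_iff]
    intro x y
    have hx01 : x 0 ≠ x 1 := fun h => by simpa using x.injective h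
    have hx02 : x 0 ≠ x 2 := fun h => by simpa using x.injective h
    have hx12 : x 1 ≠ x 2 := fun h => by simpa using x.injective h
    have hy01 : y 0 ≠ y 1 := fun h => by simpa using y.injective h
    have hy02 : y 0 ≠ y 2 := fun h => by simpa using y.injective h
    have hy12 : y 1 ≠ y 2 := fun h => by simpa using y.injective h
    obtain ⟨g, hg0, hg1, hg2⟩ := h3 (x 0) (x 1) (x 2) (y 0) (y 1) (y 2) hx01 hx02 hx12 hy01 hy02 hy12
    refine ⟨⟨φ g, ⟨g, rfl⟩⟩, ?_⟩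
    ext i
    rw [hsm]
    fin_cases i
    · exact hg0
    · exact hg1
    · exact hg2
  have hsharp : ∀ x : Fin 3 ↪ (G ⧸ H), MulAction.stabilizer φ.range x = ⊥ := by
    intro x
    rw [eq_bot_iff]
    rintro ⟨_, ⟨g, rfl⟩⟩ hg
    rw [MulAction.mem_stabilizer_iff] at hg
    have hx01 : x 0 ≠ x 1 := fun h => by simpa using x.injective h
    have hx02 : x 0 ≠ x 2 := fun h => by simpa using x.injective h
    have hx12 : x 1 ≠ x 2 := fun h => by simpa using x.injective h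
    have hgi : ∀ i, g • x i = x i := by
      intro i
      calc g • x i = ((⟨φ g, ⟨g, rfl⟩⟩ : φ.range) • x) i := (hsm g x i).symm
        _ = x i := congrArg (fun e : Fin 3 ↪ (G ⧸ H) => e i) hg
    have hg1 : g = 1 := hsh g (x 0) (x 1) (x 2) hx01 hx02 hx12 (hgi 0) (hgi 1) (hgi 2)
    rw [Subgroup.mem_bot]
    apply Subtype.ext
    show φ g = 1
    rw [hg1, map_one]
  obtain ⟨F, iF, iFt, hFc, ⟨e⟩⟩ := Cfsg.Agent.S0727.result hf hcardX φ.range h3p hsharp
  obtain ⟨e'⟩ := pgl_psl f hf hFc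
  exact ⟨F, iF, iFt, hFc, ⟨((MonoidHom.ofInjective hinj).trans e).trans e'⟩⟩

/-- Let G be a finite group with a Sylow 2-subgroup T that is neither cyclic nor normal, such that the centralizer of every involution is an elementary abelian 2-group. Then G ≅ PSL(2,F) for a finite field F with |F| = |T|. -/
theorem result {G : Type*} [Group G] [Finite G] (T : Sylow 2 G) (hnc : ¬ IsCyclic (T : Subgroup G)) (hnn : ¬ (T : Subgroup G).Normal) (hC : ∀ t : G, orderOf t = 2 → IsMulCommutative (Subgroup.centralizer ({t} : Set G)) ∧ ∀ c ∈ Subgroup.centralizer ({t} : Set G), c ^ 2 = 1) : ∃ (F : Type) (_ : Field F) (_ : Fintype F), Fintype.card F = Nat.card T ∧ Nonempty (G ≃* Matrix.ProjectiveSpecialLinearGroup (Fin 2) F) := by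

  classical
  have h2 : Fact (Nat.Prime 2) := ⟨Nat.prime_two⟩
  obtain ⟨h3, hsh, hreg⟩ := Cfsg.Agent.S1229.result T hnc hnn hC
  have hHne : Subgroup.normalizer ((T : Subgroup G) : Set G) ≠ ⊤ := by
    intro h
    exact hnn (Subgroup.normalizer_eq_top_iff.mp h)
  obtain ⟨f, hf⟩ : ∃ f : ℕ, Nat.card (T : Subgroup G) = 2 ^ f := IsPGroup.iff_card.mp T.2
  have hf1 : 1 ≤ f := by
    by_contra hcon
    have hf0 : f = 0 := by omega
    rw [hf0, pow_zero] at hf
    apply hnc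
    have : Subsingleton (T : Subgroup G) := (Nat.card_eq_one_iff_unique.mp hf).1
    infer_instance
  obtain ⟨F, iF, iFt, hFc, hne⟩ := main (Subgroup.normalizer ((T : Subgroup G) : Set G))
    (T : Subgroup G) Subgroup.le_normalizer hHne f hf1 hf h3 hsh hreg
  exact ⟨F, iF, iFt, hFc.trans hf.symm, hne⟩

end Cfsg.Agent.S1230
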