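import Cfsg.Statements.S1231
import Mathlib
import Cfsg.Agent.Lib.Helper11.Stab
import Cfsg.Agent.Lib.Helper11.Misc
import Cfsg.Agent.Lib.Helper21.Basic

set_option autoImplicit false
open Cfsg

namespace Cfsg.Agent.S1231

/-- High rank witness inside a subgroup of `G`. -/
def HighRank {G : Type*} [Group G] (p r : ℕ) (X : Subgroup G) : Prop :=
  ∃ A : Subgroup G, A ≤ X ∧ IsMulCommutative A ∧ (∀ a ∈ A, a ^ p = 1) ∧ p ^ r < Nat.card A

theorem not_pRankLE_iff {G : Type*} [Group G] (p r : ℕ) (X : Subgroup G) :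
    ¬ Cfsg.PRankLE p r ↥X ↔ HighRank p r X := by
  constructor
  · intro h
    unfold Cfsg.PRankLE at h
    push Not at h
    obtain ⟨A, hA1, hA2, hA3⟩ := h
    refine ⟨A.map X.subtype, Subgroup.map_subtype_le A, inferInstance, ?_, ?_⟩
    · rintro _ ⟨a, ha, rfl⟩
      have := hA2 a ha
      rw [← map_pow, this, map_one]
    · rw [Subgroup.card_map_of_injective X.subtype_injective]; exact hA3
  · rintro ⟨A, hAX, hA1, hA2, hA3⟩ h
    have := h (A.subgroupOf X) inferInstance (by
      intro a ha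
      apply Subtype.ext
      rw [Subgroup.mem_subgroupOf] at ha
      simpa using hA2 _ ha)
    rw [Nat.card_congr (Subgroup.subgroupOfEquivOfLe hAX).toEquiv] at this
    omega

theorem HighRank.mono {G : Type*} [Group G] {p r : ℕ} {X Y : Subgroup G} (h : HighRank p r X) (hXY : X ≤ Y) :
    HighRank p r Y := by
  obtain ⟨A, hAX, hA1, hA2, hA3⟩ := h
  exact ⟨A, hAX.trans hXY, hA1, hA2, hA3⟩

theorem HighRank.conj {G : Type*} [Group G] {p r : ℕ} {X : Subgroup G} (h : HighRank p r X) (g : G) :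
    HighRank p r (X.map (MulAut.conj g).toMonoidHom) := by
  obtain ⟨A, hAX, hA1, hA2, hA3⟩ := h
  refine ⟨A.map (MulAut.conj g).toMonoidHom, Subgroup.map_mono hAX, inferInstance, ?_, ?_⟩
  · rintro _ ⟨a, ha, rfl⟩
    rw [← map_pow, hA2 a ha, map_one]
  · rw [Cfsg.Agent.Lib.Helper21.card_map_conj]; exact hA3

open Cfsg.Agent.Lib.Helper21 in
theorem norm_le_of_le {G : Type*} [Group G] [Finite G] {p r : ℕ} [Fact p.Prime] {H P₀ : Subgroup G} (hP0H : P₀ ≤ H) (hP0p : IsPGroup p P₀)
    (hidx : ¬ p ∣ P₀.relIndex H)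
    (hN : ∀ X : Subgroup G, X ≤ P₀ → HighRank p r X → Subgroup.normalizer (X : Set G) ≤ H)
    (X : Subgroup G) (hXH : X ≤ H) (hXp : IsPGroup p X) (hX : HighRank p r X) :
    Subgroup.normalizer (X : Set G) ≤ H := by
  obtain ⟨h, hh, hle⟩ := exists_conj_le_of_relIndex hP0H hXH hP0p hXp hidx
  have h1 : X.map (MulAut.conj h⁻¹).toMonoidHom ≤ P₀ := by
    rw [map_conj_le_iff]; simpa using hle
  have h2 := hN _ h1 (hX.conj h⁻¹)
  intro n hn
  have h3 : h⁻¹ * n * h ∈ Subgroup.normalizer ((X.map (MulAut.conj h⁻¹).toMonoidHom : Subgroup G) : Set G) := by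
    rw [mem_normalizer_iff_map, ← map_conj_mul]
    have : h⁻¹ * n * h * h⁻¹ = h⁻¹ * n := by group
    rw [this, map_conj_mul, (mem_normalizer_iff_map X n).1 hn]
  have h4 := h2 h3
  have : n = h * (h⁻¹ * n * h) * h⁻¹ := by group
  rw [this]; exact H.mul_mem (H.mul_mem hh h4) (H.inv_mem hh)

/-- `U` is a maximal `p`-subgroup of `D`. -/
def IsMaxP {G : Type*} [Group G] (p : ℕ) (U D : Subgroup G) : Prop :=
  U ≤ D ∧ IsPGroup p U ∧ ∀ V : Subgroup G, IsPGroup p V → U ≤ V → V ≤ D → V = U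

theorem exists_isMaxP {G : Type*} [Group G] [Finite G] {p : ℕ} [Fact p.Prime] {A D : Subgroup G} (hAD : A ≤ D) (hA : IsPGroup p A) :
    ∃ U, A ≤ U ∧ IsMaxP p U D := by
  obtain ⟨Q, hQ⟩ := (hA.comap_subtype (K := D)).exists_le_sylow
  refine ⟨(Q : Subgroup D).map D.subtype, ?_, Subgroup.map_subtype_le _, Q.isPGroup'.map _, ?_⟩
  · intro a ha
    exact ⟨⟨a, hAD ha⟩, hQ (Subgroup.mem_subgroupOf.2 ha), rfl⟩
  · intro V hV hUV hVD
    have h1 : (Q : Subgroup D) ≤ V.subgroupOf D := by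
      intro y hy
      exact Subgroup.mem_subgroupOf.2 (hUV ⟨y, hy, rfl⟩)
    have h2 := Q.is_maximal' hV.comap_subtype h1
    rw [← h2]
    exact (Subgroup.map_subgroupOf_eq_of_le hVD).symm

theorem isMaxP_of_normalizer {G : Type*} [Group G] [Finite G] {p : ℕ} [Fact p.Prime] {U D M : Subgroup G} (hU : IsMaxP p U D) (hDM : D ≤ M)
    (hN : Subgroup.normalizer (U : Set G) ⊓ M ≤ D) : IsMaxP p U M := by
  refine ⟨hU.1.trans hDM, hU.2.1, ?_⟩
  intro V hV hUV hVM
  by_contra hne
  have hVnil : Group.IsNilpotent V := hV.isNilpotent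
  obtain ⟨x, hxV, hxN, hxU⟩ := Cfsg.Agent.Lib.Helper11.exists_mem_normalizer_not_mem hVnil hUV (fun h => hne h.symm)
  have hxD : x ∈ D := hN ⟨hxN, hVM hxV⟩
  have h1 : U ⊔ Subgroup.zpowers x ≤ V := sup_le hUV (by rw [Subgroup.zpowers_le]; exact hxV)
  have h2 : U ⊔ Subgroup.zpowers x ≤ D := sup_le hU.1 (by rw [Subgroup.zpowers_le]; exact hxD)
  have h3 := hU.2.2 _ (hV.to_le h1) le_sup_left h2
  apply hxU
  rw [← h3]
  exact Subgroup.mem_sup_right (Subgroup.mem_zpowers x)

open Cfsg.Agent.Lib.Helper21 in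
/-- Let H be a subgroup of the finite group G, p a prime, k ≥ 1, and P a Sylow p-subgroup of H whose p-rank is at least k. Then N_G(X) ≤ H for every subgroup X of P of p-rank at least k if and only if H ∩ gHg⁻¹ has p-rank less than k for every g ∉ H. -/
theorem result {G : Type*} [Group G] [Finite G] {p : ℕ} [Fact p.Prime] (k : ℕ) (hk : 1 ≤ k) (H : Subgroup G) (P : Sylow p ↥H) (hP : ¬ Cfsg.PRankLE p (k - 1) ↥(P : Subgroup ↥H)) : (∀ X : Subgroup G, X ≤ (P : Subgroup ↥H).map H.subtype → ¬ Cfsg.PRankLE p (k - 1) ↥X → Subgroup.normalizer (X : Set G) ≤ H) ↔ (∀ g : G, g ∉ H → Cfsg.PRankLE p (k - 1) ↥(H ⊓ H.map (MulAut.conj g).toMonoidHom)) := by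
  classical
  have hP0H : (P : Subgroup H).map H.subtype ≤ H := Subgroup.map_subtype_le _
  have hP0p : IsPGroup p ((P : Subgroup H).map H.subtype) := P.isPGroup'.map _
  have hidx : ¬ p ∣ ((P : Subgroup H).map H.subtype).relIndex H := by
    have he : ((P : Subgroup H).map H.subtype).subgroupOf H = (P : Subgroup H) :=
      Subgroup.comap_map_eq_self_of_injective H.subtype_injective _
    rw [Subgroup.relIndex, he]
    exact P.not_dvd_index
  have hP0r : HighRank p (k - 1) ((P : Subgroup H).map H.subtype) := by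
    rw [← not_pRankLE_iff]
    intro h
    exact hP (Cfsg.Agent.Lib.Helper11.pRankLE_of_mulEquiv p (k - 1) ((P : Subgroup H).equivMapOfInjective H.subtype H.subtype_injective).symm h)
  constructor
  · intro hN g hg
    by_contra hD
    rw [not_pRankLE_iff] at hD
    have hN' : ∀ X : Subgroup G, X ≤ (P : Subgroup H).map H.subtype → HighRank p (k - 1) X → Subgroup.normalizer (X : Set G) ≤ H :=
      fun X hX hXr => hN X hX ((not_pRankLE_iff p (k - 1) X).2 hXr)
    obtain ⟨A, hAD, hA1, hA2, hA3⟩ := hD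
    have hAp : IsPGroup p A := by
      intro a
      refine ⟨1, ?_⟩
      apply Subtype.ext
      simpa using hA2 a a.2
    obtain ⟨U, hAU, hUmax⟩ := exists_isMaxP hAD hAp
    have hUr : HighRank p (k - 1) U := ⟨A, hAU, hA1, hA2, hA3⟩
    have hUH : U ≤ H := hUmax.1.trans inf_le_left
    have hUHg : U ≤ H.map (MulAut.conj g).toMonoidHom := hUmax.1.trans inf_le_right
    have hUp := hUmax.2.1
    have hNU : Subgroup.normalizer (U : Set G) ≤ H := norm_le_of_le hP0H hP0p hidx hN' U hUH hUp hUr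
    have hUg : U.map (MulAut.conj g⁻¹).toMonoidHom ≤ H := by
      rw [map_conj_le_iff]; simpa using hUHg
    have hNUg : Subgroup.normalizer (U : Set G) ≤ H.map (MulAut.conj g).toMonoidHom := by
      have h1 := norm_le_of_le hP0H hP0p hidx hN' _ hUg (isPGroup_map_conj hUp g⁻¹) (hUr.conj g⁻¹)
      intro n hn
      rw [mem_map_conj]
      apply h1
      rw [mem_normalizer_iff_map, ← map_conj_mul]
      have : g⁻¹ * n * g * g⁻¹ = g⁻¹ * n := by group
      rw [this, map_conj_mul, (mem_normalizer_iff_map U n).1 hn]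
    have hmax1 : IsMaxP p U H := isMaxP_of_normalizer hUmax inf_le_left (by
      intro x hx; exact ⟨hx.2, hNUg hx.1⟩)
    have hmax2 : IsMaxP p U (H.map (MulAut.conj g).toMonoidHom) := isMaxP_of_normalizer hUmax inf_le_right (by
      intro x hx; exact ⟨hNU hx.1, hx.2⟩)
    obtain ⟨h, hh, hle⟩ := exists_conj_le_of_relIndex hP0H hUH hP0p hUp hidx
    have hU1 : ((P : Subgroup H).map H.subtype).map (MulAut.conj h).toMonoidHom = U :=
      hmax1.2.2 _ (isPGroup_map_conj hP0p h) hle (by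
        intro x hx
        rw [mem_map_conj] at hx
        have : x = h * (h⁻¹ * x * h) * h⁻¹ := by group
        rw [this]; exact H.mul_mem (H.mul_mem hh (hP0H hx)) (H.inv_mem hh))
    obtain ⟨h', hh', hle'⟩ := exists_conj_le_of_relIndex hP0H hUg hP0p (isPGroup_map_conj hUp g⁻¹) hidx
    have hle'' : U ≤ ((P : Subgroup H).map H.subtype).map (MulAut.conj (g * h')).toMonoidHom := by
      have := (map_conj_le_iff U _ g⁻¹).1 hle'
      rw [inv_inv] at this
      rw [map_conj_mul]; exact this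
    have hU2 : ((P : Subgroup H).map H.subtype).map (MulAut.conj (g * h')).toMonoidHom = U :=
      hmax2.2.2 _ (isPGroup_map_conj hP0p _) hle'' (by
        intro x hx
        rw [mem_map_conj] at hx ⊢
        have : g⁻¹ * x * g = h' * ((g * h')⁻¹ * x * (g * h')) * h'⁻¹ := by group
        rw [this]; exact H.mul_mem (H.mul_mem hh' (hP0H hx)) (H.inv_mem hh'))
    have hn : h⁻¹ * (g * h') ∈ Subgroup.normalizer ((((P : Subgroup H).map H.subtype : Subgroup G)) : Set G) := by
      rw [mem_normalizer_iff_map, map_conj_mul, hU2, ← hU1, ← map_conj_mul, inv_mul_cancel, map_conj_one]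
    have hnH := hN' _ le_rfl hP0r hn
    apply hg
    have : g = h * (h⁻¹ * (g * h')) * h'⁻¹ := by group
    rw [this]; exact H.mul_mem (H.mul_mem hh hnH) (H.inv_mem hh')
  · intro hD X hXP hXr n hn
    by_contra hnH
    have h1 := hD n hnH
    apply hXr
    have hXle : X ≤ H ⊓ H.map (MulAut.conj n).toMonoidHom := by
      refine le_inf (hXP.trans hP0H) ?_
      have h2 : X.map (MulAut.conj n).toMonoidHom = X := (mem_normalizer_iff_map X n).1 hn
      rw [← h2]
      exact Subgroup.map_mono (hXP.trans hP0H)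
    by_contra hXr'
    rw [not_pRankLE_iff] at hXr'
    exact (not_pRankLE_iff p (k - 1) _).2 (hXr'.mono hXle) h1

end Cfsg.Agent.S1231
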