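import Cfsg.Statements.S1236
import Cfsg.Agent.Lib.Helper10.QD

set_option autoImplicit false
open Cfsg

namespace Cfsg.Agent.S1236

theorem zmod_two_tors (m : ℕ) (i j : ZMod m) (hi : i + i = 0) (hj : j + j = 0)
    (hj0 : j ≠ 0) : i = 0 ∨ i = j := by
  rcases Nat.eq_zero_or_pos m with rfl | hm
  · left
    have h : ∀ z : ℤ, z + z = 0 → z = 0 := fun z hz => by omega
    exact h i hi
  · have : NeZero m := ⟨by omega⟩
    have key : ∀ k : ZMod m, k + k = 0 → k ≠ 0 → 2 * k.val = m := by
      intro k hk hk0
      have h1 : ((2 * k.val : ℕ) : ZMod m) = 0 := by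
        rw [Nat.cast_mul, ZMod.natCast_zmod_val, Nat.cast_ofNat, two_mul]; exact hk
      rw [ZMod.natCast_eq_zero_iff] at h1
      have h2 : k.val < m := ZMod.val_lt k
      have h3 : k.val ≠ 0 := by rwa [Ne, ZMod.val_eq_zero]
      obtain ⟨c, hc⟩ := h1
      have hc1 : c = 1 := by
        rcases c with _ | _ | c
        · rw [Nat.mul_zero] at hc; omega
        · rfl
        · exfalso
          have : m * (c + 1 + 1) ≥ m * 2 := Nat.mul_le_mul_left m (by omega)
          omega
      subst hc1; omega
    by_cases hi0 : i = 0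
    · left; exact hi0
    · right
      have h1 := key i hi hi0
      have h2 := key j hj hj0
      exact ZMod.val_injective m (by omega)

theorem dih_key (m : ℕ) (u v c : DihedralGroup m) (hu : u ≠ 1) (hv : v ≠ 1) (huv : u ≠ v)
    (hu2 : u * u = 1) (hv2 : v * v = 1) (hc : u * v = v * u) (hcu : c * u = u * c)
    (hcv : c * v = v * c) : c = 1 ∨ c = u ∨ c = v ∨ c = u * v := by
  have T := zmod_two_tors m
  rcases u with i | i <;> rcases v with j | j <;> rcases c with k | k <;>
    simp only [DihedralGroup.r_mul_r, DihedralGroup.r_mul_sr, DihedralGroup.sr_mul_r,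
      DihedralGroup.sr_mul_sr, DihedralGroup.one_def, ne_eq, DihedralGroup.r.injEq,
      DihedralGroup.sr.injEq, reduceCtorEq, not_false_eq_true, or_false, false_or] at *
  · exact absurd ((T i j hu2 hv2 hv).resolve_left hu) huv
  · exact absurd ((T i j hu2 hv2 hv).resolve_left hu) huv
  · exact T k i (by linear_combination -hcv) hu2 hu
  · have h1 := T (j - k) i (by linear_combination hcv) hu2 hu
    rcases h1 with h | h
    · left; linear_combination -h
    · right; linear_combination -h
  · exact T k j (by linear_combination -hcu) hv2 hv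
  · have h1 := T (i - k) j (by linear_combination hcu) hv2 hv
    rcases h1 with h | h
    · left; linear_combination -h
    · right; linear_combination -h - hv2
  · have hd : j - i ≠ 0 := fun h => huv (by linear_combination -h)
    exact T k (j - i) (by linear_combination -hcu) (by linear_combination hc) hd
  · have hd : j - i ≠ 0 := fun h => huv (by linear_combination -h)
    have h1 := T (k - i) (j - i) (by linear_combination -hcu) (by linear_combination hc) hd
    rcases h1 with h | h
    · left; linear_combination h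
    · right; linear_combination h

open Cfsg.Agent.Lib.Helper10 in
theorem two_sub_mu_mul {n : ℕ} (hn : 3 ≤ n) (e : ZMod (2 ^ n)) (h : (2 - QD.mu n) * e = 0) :
    e = 0 ∨ e = QD.mu n := by
  rcases QD.even_or_odd n e with ⟨b, rfl⟩ | ⟨b, rfl⟩
  · have h1 : 2 * (2 * b) = 0 := by
      have h2 := QD.mu_mul_two n (by omega) b
      linear_combination h + h2
    exact (QD.two_mul_eq_zero_iff n (by omega) _).mp h1
  · exfalso
    have h2 := QD.mu_mul_odd n (by omega) b
    have h3 : 2 * (2 * b + 1) = QD.mu n := by linear_combination h + h2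
    have h4 := QD.nu_add_nu n (by omega)
    have h5 := QD.mu_mul_nu n hn
    have h6 : QD.mu n = 0 := by
      linear_combination -h2 - (2 * b + 1) * h4 + QD.nu n * h3 + h5
    exact QD.mu_ne_zero n (by omega) h6

open Cfsg.Agent.Lib.Helper10 in
theorem qd_key1 {S : Type*} [Group S] {n : ℕ} {x y : S} (d : QD.Data S n x y)
    (j : ZMod (2 ^ n)) (c : S)
    (hcv : c * (QD.xp n x j * y) = (QD.xp n x j * y) * c) :
    c = 1 ∨ c = QD.xp n x (QD.mu n) ∨ c = QD.xp n x j * y ∨
      c = QD.xp n x (QD.mu n) * (QD.xp n x j * y) := by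
  rcases QD.cases d c with ⟨k, rfl⟩ | ⟨k, rfl⟩
  · rw [QD.xp_mul_xpy d, QD.xpy_mul_xp d, QD.xpy_inj d] at hcv
    have h1 : (2 - QD.mu n) * k = 0 := by unfold QD.rho at hcv; linear_combination hcv
    rcases two_sub_mu_mul d.hn k h1 with rfl | rfl
    · left; exact QD.xp_zero
    · right; left; rfl
  · rw [QD.xpy_mul_xpy d, QD.xpy_mul_xpy d, QD.xp_inj d] at hcv
    have h1 : (2 - QD.mu n) * (k - j) = 0 := by unfold QD.rho at hcv; linear_combination hcv
    rcases two_sub_mu_mul d.hn _ h1 with h | h
    · right; right; left; rw [sub_eq_zero] at h; rw [h]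
    · right; right; right
      rw [QD.xp_mul_xpy d]
      congr 2
      linear_combination h

open Cfsg.Agent.Lib.Helper10 in
theorem qd_invol {S : Type*} [Group S] {n : ℕ} {x y : S} (d : QD.Data S n x y)
    (i : ZMod (2 ^ n)) (h1 : QD.xp n x i ≠ 1) (h2 : QD.xp n x i * QD.xp n x i = 1) :
    i = QD.mu n := by
  rw [QD.xp_sq d, QD.xp_eq_one d, QD.two_mul_eq_zero_iff n (by have := d.hn; omega)] at h2
  rcases h2 with h | h
  · exact absurd (by rw [h]; exact QD.xp_zero) h1
  · exact h

open Cfsg.Agent.Lib.Helper10 in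
theorem qd_key {S : Type*} [Group S] {n : ℕ} {x y : S} (d : QD.Data S n x y) (u v c : S)
    (hu : u ≠ 1) (hv : v ≠ 1) (huv : u ≠ v) (hu2 : u * u = 1) (hv2 : v * v = 1)
    (hc : u * v = v * u) (hcu : c * u = u * c) (hcv : c * v = v * c) :
    c = 1 ∨ c = u ∨ c = v ∨ c = u * v := by
  rcases QD.cases d u with ⟨i, hi⟩ | ⟨i, hi⟩
  · have hi' : i = QD.mu n := qd_invol d i (hi ▸ hu) (hi ▸ hu2)
    subst hi'
    rcases QD.cases d v with ⟨j, hj⟩ | ⟨j, hj⟩
    · exfalso
      have hj' : j = QD.mu n := qd_invol d j (hj ▸ hv) (hj ▸ hv2)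
      exact huv (by rw [hi, hj, hj'])
    · rw [hj] at hcv
      rw [hi, hj]
      exact qd_key1 d j c hcv
  · rcases QD.cases d v with ⟨j, hj⟩ | ⟨j, hj⟩
    · have hj' : j = QD.mu n := qd_invol d j (hj ▸ hv) (hj ▸ hv2)
      subst hj'
      rw [hi] at hcu
      rcases qd_key1 d i c hcu with h | h | h | h
      · left; exact h
      · right; right; left; rw [hj]; exact h
      · right; left; rw [hi]; exact h
      · right; right; right; rw [hc, hj, hi]; exact h
    · have h1 : (u * v) * (u * v) = 1 := by
        calc u * v * (u * v) = u * (v * u) * v := by group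
          _ = u * (u * v) * v := by rw [hc]
          _ = (u * u) * (v * v) := by group
          _ = 1 := by rw [hu2, hv2, one_mul]
      have h2 : u * v ≠ 1 := by
        intro h
        apply huv
        calc u = u * (v * v) := by rw [hv2, mul_one]
          _ = (u * v) * v := by group
          _ = v := by rw [h, one_mul]
      have h3 : u * v = QD.xp n x (i + QD.rho n * j) := by
        rw [hi, hj, QD.xpy_mul_xpy d]
      have h4 : i + QD.rho n * j = QD.mu n := qd_invol d _ (h3 ▸ h2) (h3 ▸ h1)
      rw [h4] at h3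
      have hcv' := hcv
      rw [hj] at hcv'
      rcases qd_key1 d j c hcv' with h | h | h | h
      · left; exact h
      · right; right; right; rw [h3]; exact h
      · right; right; left; rw [hj]; exact h
      · right; left
        rw [h, ← hj, ← h3, mul_assoc, hv2, mul_one]

theorem card_le_of_subset_finset {R : Type*} [Group R] (A : Subgroup R) (s : Finset R)
    (h : ∀ a ∈ A, a ∈ s) : Nat.card A ≤ s.card := by
  have h1 : (A : Set R).ncard ≤ (s : Set R).ncard :=
    Set.ncard_le_ncard (fun a ha => h a ha) (Finset.finite_toSet s)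
  rw [Set.ncard_coe_finset] at h1
  exact h1

theorem main_aux {R : Type*} [Group R] (t : R) (ht : orderOf t = 2)
    [(Subgroup.zpowers t).Normal]
    (hkey : ∀ u v c : R ⧸ Subgroup.zpowers t, u ≠ 1 → v ≠ 1 → u ≠ v → u * u = 1 → v * v = 1 →
      u * v = v * u → c * u = u * c → c * v = v * c → c = 1 ∨ c = u ∨ c = v ∨ c = u * v)
    (A : Subgroup R) (hA : Cfsg.IsElementaryAbelian 2 A) (hA8 : Nat.card A = 8) (htA : t ∈ A) :
    Subgroup.centralizer (A : Set R) = A := by
  classical
  have hcomm : ∀ a ∈ A, ∀ b ∈ A, a * b = b * a := by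
    intro a ha b hb
    have h := hA.1.is_comm.comm (⟨a, ha⟩ : A) ⟨b, hb⟩
    exact congrArg Subtype.val h
  have hsq : ∀ a ∈ A, a * a = 1 := fun a ha => by rw [← pow_two]; exact hA.2 a ha
  have htt : t * t = 1 := by rw [← pow_two, ← ht]; exact pow_orderOf_eq_one t
  have hmem : ∀ g : R, g ∈ Subgroup.zpowers t ↔ g = 1 ∨ g = t := by
    intro g
    constructor
    · intro hg
      obtain ⟨k, rfl⟩ := (Subgroup.mem_zpowers_iff).mp hg
      rcases Int.even_or_odd' k with ⟨q, rfl | rfl⟩
      · left
        rw [zpow_mul, zpow_ofNat, pow_two, htt, one_zpow]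
      · right
        rw [zpow_add, zpow_mul, zpow_ofNat, pow_two, htt, one_zpow, one_mul, zpow_one]
    · rintro (h | h)
      · rw [h]; exact one_mem _
      · rw [h]; exact Subgroup.mem_zpowers t
  obtain ⟨a, haA, ha1, hat⟩ : ∃ a ∈ A, a ≠ 1 ∧ a ≠ t := by
    by_contra hcon
    push Not at hcon
    have h1 : Nat.card A ≤ ({1, t} : Finset R).card := by
      apply card_le_of_subset_finset
      intro a ha
      by_cases h : a = 1
      · simp [h]
      · simp [hcon a ha h]
    have h2 : ({1, t} : Finset R).card ≤ 2 := Finset.card_le_two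
    omega
  obtain ⟨b, hbA, hb1, hbt, hba, hbat⟩ : ∃ b ∈ A, b ≠ 1 ∧ b ≠ t ∧ b ≠ a ∧ b ≠ a * t := by
    by_contra hcon
    push Not at hcon
    have h1 : Nat.card A ≤ ({1, t, a, a * t} : Finset R).card := by
      apply card_le_of_subset_finset
      intro b hb
      by_cases h1 : b = 1
      · simp [h1]
      by_cases h2 : b = t
      · simp [h2]
      by_cases h3 : b = a
      · simp [h3]
      simp [hcon b hb h1 h2 h3]
    have h2 : ({1, t, a, a * t} : Finset R).card ≤ 4 := Finset.card_le_four
    omega
  have hπ1 : ∀ g : R, (QuotientGroup.mk' (Subgroup.zpowers t)) g = 1 ↔ g = 1 ∨ g = t := by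
    intro g
    rw [QuotientGroup.mk'_apply, QuotientGroup.eq_one_iff]
    exact hmem g
  have hlift : ∀ g c : R, g ∈ A → (QuotientGroup.mk' (Subgroup.zpowers t)) c =
      (QuotientGroup.mk' (Subgroup.zpowers t)) g → c ∈ A := by
    intro g c hg h
    have h1 : (QuotientGroup.mk' (Subgroup.zpowers t)) (g⁻¹ * c) = 1 := by
      rw [map_mul, map_inv, h, inv_mul_cancel]
    have h2 : g⁻¹ * c ∈ A := by
      rcases (hπ1 _).mp h1 with h3 | h3
      · rw [h3]; exact one_mem _
      · rw [h3]; exact htA
    have h3 := A.mul_mem hg h2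
    simpa using h3
  apply le_antisymm
  · intro c hc
    rw [Subgroup.mem_centralizer_iff] at hc
    have h := hkey ((QuotientGroup.mk' (Subgroup.zpowers t)) a)
      ((QuotientGroup.mk' (Subgroup.zpowers t)) b)
      ((QuotientGroup.mk' (Subgroup.zpowers t)) c) ?_ ?_ ?_ ?_ ?_ ?_ ?_ ?_
    · rcases h with h | h | h | h
      · exact hlift 1 c (one_mem _) (by rw [h, map_one])
      · exact hlift a c haA h
      · exact hlift b c hbA h
      · exact hlift (a * b) c (A.mul_mem haA hbA) (by rw [h, map_mul])
    · intro h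
      rcases (hπ1 a).mp h with h | h
      · exact ha1 h
      · exact hat h
    · intro h
      rcases (hπ1 b).mp h with h | h
      · exact hb1 h
      · exact hbt h
    · intro h
      have h1 : (QuotientGroup.mk' (Subgroup.zpowers t)) (a⁻¹ * b) = 1 := by
        rw [map_mul, map_inv, h, inv_mul_cancel]
      rcases (hπ1 _).mp h1 with h3 | h3
      · exact hba (by rw [inv_mul_eq_one] at h3; exact h3.symm)
      · exact hbat (by rw [inv_mul_eq_iff_eq_mul] at h3; exact h3)
    · rw [← map_mul, hsq a haA, map_one]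
    · rw [← map_mul, hsq b hbA, map_one]
    · rw [← map_mul, ← map_mul, hcomm a haA b hbA]
    · rw [← map_mul, ← map_mul, hc a haA]
    · rw [← map_mul, ← map_mul, hc b hbA]
  · intro a' ha'
    rw [Subgroup.mem_centralizer_iff]
    intro h hh
    exact hcomm h hh a' ha'

/-- Let R be a finite group, t a central involution of R such that R ⧸ ⟨t⟩ is dihedral (of order ≥ 4) or quasi-dihedral, and A ≤ R an elementary abelian subgroup of order 8 containing t. Then C_R(A) = A. -/
theorem result {R : Type*} [Group R] [Finite R] (t : R) (ht : orderOf t = 2) (htz : t ∈ Subgroup.center R) [(Subgroup.zpowers t).Normal] (hq : (∃ m : ℕ, 2 ≤ m ∧ Nonempty (R ⧸ Subgroup.zpowers t ≃* DihedralGroup m)) ∨ Cfsg.IsQuasiDihedral (R ⧸ Subgroup.zpowers t)) (A : Subgroup R) (hA : Cfsg.IsElementaryAbelian 2 A) (hA8 : Nat.card A = 8) (htA : t ∈ A) : Subgroup.centralizer (A : Set R) = A := by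
  rcases hq with ⟨m, hm, ⟨e⟩⟩ | hq
  · apply main_aux t ht _ A hA hA8 htA
    intro u v c hu hv huv hu2 hv2 hc hcu hcv
    have h := dih_key m (e u) (e v) (e c) (by simpa using hu) (by simpa using hv)
      (by simpa using huv) (by rw [← map_mul, hu2, map_one]) (by rw [← map_mul, hv2, map_one])
      (by rw [← map_mul, ← map_mul, hc]) (by rw [← map_mul, ← map_mul, hcu])
      (by rw [← map_mul, ← map_mul, hcv])
    rcases h with h | h | h | h
    · left; exact e.injective (by rw [h, map_one])
    · right; left; exact e.injective h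
    · right; right; left; exact e.injective h
    · right; right; right; exact e.injective (by rw [h, map_mul])
  · obtain ⟨n, x, y, d⟩ := Cfsg.Agent.Lib.Helper10.QD.exists_data hq
    apply main_aux t ht _ A hA hA8 htA
    intro u v c
    exact qd_key d u v c

end Cfsg.Agent.S1236
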