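import Cfsg.Statements.S1241
import Mathlib

set_option autoImplicit false
open Cfsg

namespace Cfsg.Agent.S1241

/-- Transfer of an element whose relevant conjugate powers all map to the same value. -/
theorem transfer_eq_pow_index {G A : Type*} [Group G] [CommGroup A] (H : Subgroup G) [H.FiniteIndex] (φ : H →* A) (g : G) (a : A)
    (key : ∀ (k : ℕ) (g₀ : G) (h : g₀⁻¹ * g ^ k * g₀ ∈ H), φ ⟨g₀⁻¹ * g ^ k * g₀, h⟩ = a ^ k) :
    MonoidHom.transfer φ g = a ^ H.index := by
  classical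
  letI := H.fintypeQuotientOfFiniteIndex
  rw [MonoidHom.transfer_eq_prod_quotient_orbitRel_zpowers_quot]
  have h1 : ∀ q : Quotient (MulAction.orbitRel (Subgroup.zpowers g) (G ⧸ H)),
      φ ⟨q.out.out⁻¹ * g ^ Function.minimalPeriod (g • ·) q.out * q.out.out,
        QuotientGroup.out_conj_pow_minimalPeriod_mem H g q.out⟩ = a ^ Function.minimalPeriod (g • ·) q.out :=
    fun q => key _ _ _
  rw [Finset.prod_congr rfl (fun q _ => h1 q), Finset.prod_pow_eq_pow_sum, Subgroup.index_eq_sum_minimalPeriod H g]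

/-- Let G be a finite group, p a prime, H a subgroup of index prime to p, K a subgroup of H normal in H with H/K commutative, and g ∈ H ∖ K an element of p-power order such that for all integers m and all a ∈ G with a g^m a⁻¹ ∈ H one has a g^m a⁻¹ ∈ g^m K. Then g ∉ G'. -/
theorem result {G : Type*} [Group G] [Finite G] {p : ℕ} [Fact p.Prime] (H K : Subgroup G) (hHK : K ≤ H) (hKn : (K.subgroupOf H).Normal) (hab : ∀ x ∈ H, ∀ y ∈ H, x * y * x⁻¹ * y⁻¹ ∈ K) (hidx : Nat.Coprime p H.index) (g : G) (hgH : g ∈ H) (hgK : g ∉ K) (hgp : ∃ k : ℕ, orderOf g = p ^ k) (hctrl : ∀ (m : ℤ) (a : G), a * g ^ m * a⁻¹ ∈ H → (a * g ^ m * a⁻¹) * (g ^ m)⁻¹ ∈ K) : g ∉ commutator G := by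
  classical
  intro hgc
  haveI : Fact p.Prime := inferInstance
  haveI hKn' : (K.subgroupOf H).Normal := hKn
  letI instC : CommGroup (H ⧸ K.subgroupOf H) :=
    { (QuotientGroup.Quotient.group (K.subgroupOf H)) with
      mul_comm := by
        intro a b
        induction a using QuotientGroup.induction_on with
        | H x =>
          induction b using QuotientGroup.induction_on with
          | H y =>
            rw [← QuotientGroup.mk_mul, ← QuotientGroup.mk_mul, QuotientGroup.eq, Subgroup.mem_subgroupOf]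
            have := hab _ (H.inv_mem y.2) _ (H.inv_mem x.2)
            simpa [mul_assoc] using this }
  let φ : H →* H ⧸ K.subgroupOf H := QuotientGroup.mk' (K.subgroupOf H)
  let a : H ⧸ K.subgroupOf H := φ ⟨g, hgH⟩
  have key : ∀ (k : ℕ) (g₀ : G) (h : g₀⁻¹ * g ^ k * g₀ ∈ H), φ ⟨g₀⁻¹ * g ^ k * g₀, h⟩ = a ^ k := by
    intro k g₀ h
    have h1 := hctrl (k : ℤ) g₀⁻¹ (by simpa using h)
    have h2 : a ^ k = φ ⟨g ^ k, H.pow_mem hgH k⟩ := by
      rw [← map_pow]; rfl
    rw [h2]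
    symm
    change ((⟨g ^ k, H.pow_mem hgH k⟩ : H) : H ⧸ K.subgroupOf H) = ((⟨g₀⁻¹ * g ^ k * g₀, h⟩ : H) : H ⧸ K.subgroupOf H)
    rw [QuotientGroup.eq, Subgroup.mem_subgroupOf]
    have h3 : ((g₀⁻¹)⁻¹⁻¹ * g ^ k * (g₀⁻¹)⁻¹) * (g ^ k)⁻¹ ∈ K := by simpa using h1
    have h4 := K.inv_mem h3
    have h5 : (g ^ k)⁻¹ * (g₀⁻¹ * g ^ k * g₀) ∈ K := by
      -- conjugate h4 by g^k inside H (K normal in H)
      have hk : (⟨(g₀⁻¹ * g ^ k * g₀) * (g ^ k)⁻¹, H.mul_mem h (H.inv_mem (H.pow_mem hgH k))⟩ : H) ∈ K.subgroupOf H := by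
        rw [Subgroup.mem_subgroupOf]; simpa using h3
      have := hKn'.conj_mem _ hk (⟨g ^ k, H.pow_mem hgH k⟩⁻¹ : H)
      rw [Subgroup.mem_subgroupOf] at this
      simpa [mul_assoc] using this
    simpa using h5
  have hV := transfer_eq_pow_index H φ g a key
  have hker : MonoidHom.transfer φ g = 1 := by
    have := Abelianization.commutator_subset_ker (MonoidHom.transfer φ)
    exact this hgc
  rw [hker] at hV
  -- a has p-power order, a ≠ 1, index coprime to p
  have ha1 : a ≠ 1 := by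
    intro h
    have : (⟨g, hgH⟩ : H) ∈ K.subgroupOf H := (QuotientGroup.eq_one_iff _).1 h
    rw [Subgroup.mem_subgroupOf] at this
    exact hgK this
  obtain ⟨k, hk⟩ := hgp
  have ha2 : a ^ (p ^ k) = 1 := by
    have : (⟨g, hgH⟩ : H) ^ (p ^ k) = 1 := by
      apply Subtype.ext
      rw [Subgroup.coe_pow, Subgroup.coe_one]
      change g ^ (p ^ k) = 1
      rw [← hk]; exact pow_orderOf_eq_one g
    change φ ⟨g, hgH⟩ ^ (p ^ k) = 1
    rw [← map_pow, this, map_one]
  have hd1 : orderOf a ∣ p ^ k := orderOf_dvd_of_pow_eq_one ha2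
  have hd2 : orderOf a ∣ H.index := orderOf_dvd_of_pow_eq_one hV.symm
  have hcop : Nat.Coprime (p ^ k) H.index := Nat.Coprime.pow_left k hidx
  have : orderOf a = 1 := Nat.eq_one_of_dvd_coprimes hcop hd1 hd2
  exact ha1 (orderOf_eq_one_iff.1 this)

end Cfsg.Agent.S1241
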