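import Cfsg.Statements.S1243
import Cfsg.Agent.Lib.Helper10.Basic

set_option autoImplicit false
open Cfsg

namespace Cfsg.Agent.S1243

open Cfsg.Agent.Lib.Helper10 in
/-- Let T be a Sylow p-subgroup of the finite group G and W ≤ T a subgroup weakly closed in T. If d and g d g⁻¹ both centralize W, then g d g⁻¹ = h d h⁻¹ for some h ∈ N_G(W). -/
theorem result {G : Type*} [Group G] [Finite G] {p : ℕ} [Fact p.Prime] (T : Sylow p G) (W : Subgroup G) (hW : Cfsg.IsWeaklyClosed W (T : Subgroup G)) (d g : G) (hd : d ∈ Subgroup.centralizer (W : Set G)) (hgd : g * d * g⁻¹ ∈ Subgroup.centralizer (W : Set G)) : ∃ h ∈ Subgroup.normalizer (W : Set G), h * d * h⁻¹ = g * d * g⁻¹ := by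
  obtain ⟨hWT, hcl⟩ := hW
  set C := Subgroup.centralizer ({d} : Set G) with hC
  have hWp : IsPGroup p W := T.2.to_le hWT
  rw [Subgroup.mem_centralizer_iff] at hd hgd
  have hWC : W ≤ C := by
    intro w hw
    rw [hC, Subgroup.mem_centralizer_iff]
    intro y hy
    rw [Set.mem_singleton_iff] at hy
    subst hy
    exact (hd w hw).symm
  set W' := W.map (MulAut.conj g⁻¹).toMonoidHom with hW'
  have hW'C : W' ≤ C := by
    intro x hx
    rw [hW', mem_map_conj_iff, inv_inv] at hx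
    rw [hC, Subgroup.mem_centralizer_iff]
    intro y hy
    rw [Set.mem_singleton_iff] at hy
    subst hy
    have h1 := hgd _ hx
    have h2 : g * (x * y) * g⁻¹ = g * (y * x) * g⁻¹ := by
      have e1 : g * (x * y) * g⁻¹ = g * x * g⁻¹ * (g * y * g⁻¹) := by group
      have e2 : g * (y * x) * g⁻¹ = g * y * g⁻¹ * (g * x * g⁻¹) := by group
      rw [e1, e2]; exact h1
    have h3 := mul_left_cancel (mul_right_cancel h2)
    exact h3.symm
  have hW'p : IsPGroup p W' := hWp.map _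
  obtain ⟨R, hR⟩ := (hWp.comap_subtype (K := C)).exists_le_sylow
  obtain ⟨R', hR'⟩ := (hW'p.comap_subtype (K := C)).exists_le_sylow
  obtain ⟨c, rfl⟩ := MulAction.exists_smul_eq C R R'
  have hRp : IsPGroup p ((R : Subgroup C).map C.subtype) := R.2.map _
  obtain ⟨Q, hQ⟩ := hRp.exists_le_sylow
  obtain ⟨x, rfl⟩ := MulAction.exists_smul_eq G T Q
  have key : ∀ y : G, y ∈ (x • T : Sylow p G) ↔ x⁻¹ * y * x ∈ (T : Subgroup G) := mem_smul_sylow_iff T x
  -- W ≤ x • T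
  have e1 : W.map (MulAut.conj x⁻¹).toMonoidHom = W := by
    apply hcl
    intro y hy
    rw [mem_map_conj_iff, inv_inv] at hy
    have hyR : x * y * x⁻¹ ∈ (R : Subgroup C).map C.subtype := by
      refine ⟨⟨x * y * x⁻¹, hWC hy⟩, hR ?_, rfl⟩
      exact hy
    have := (key _).1 (hQ hyR)
    have e : x⁻¹ * (x * y * x⁻¹) * x = y := by group
    rw [e] at this; exact this
  have e2 : W.map (MulAut.conj (x⁻¹ * (c : G)⁻¹ * g⁻¹)).toMonoidHom = W := by
    apply hcl
    intro y hy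
    rw [mem_map_conj_iff] at hy
    -- z = g⁻¹-conjugate of an element of W
    set w := (x⁻¹ * (c : G)⁻¹ * g⁻¹)⁻¹ * y * (x⁻¹ * (c : G)⁻¹ * g⁻¹) with hw
    have hz : g⁻¹ * w * g ∈ W' := by
      rw [hW', mem_map_conj_iff, inv_inv]
      have e : g * (g⁻¹ * w * g) * g⁻¹ = w := by group
      rw [e]; exact hy
    have hzC : g⁻¹ * w * g ∈ C := hW'C hz
    have hzR : (⟨g⁻¹ * w * g, hzC⟩ : C) ∈ (c • R : Sylow p C) := hR' hz
    rw [mem_smul_sylow_iff] at hzR
    have hyR : (c : G)⁻¹ * (g⁻¹ * w * g) * (c : G) ∈ (R : Subgroup C).map C.subtype := by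
      refine ⟨_, hzR, ?_⟩
      simp
    have := (key _).1 (hQ hyR)
    have e : x⁻¹ * ((c : G)⁻¹ * (g⁻¹ * w * g) * (c : G)) * x = y := by
      rw [hw]; group
    rw [e] at this; exact this
  have E1 : ∀ y, x * y * x⁻¹ ∈ W ↔ y ∈ W := by
    intro y
    have := mem_map_conj_iff W x⁻¹ y
    rw [e1, inv_inv] at this
    exact this.symm
  have E2 : ∀ y, (x⁻¹ * (c : G)⁻¹ * g⁻¹)⁻¹ * y * (x⁻¹ * (c : G)⁻¹ * g⁻¹) ∈ W ↔ y ∈ W := by
    intro y
    have := mem_map_conj_iff W (x⁻¹ * (c : G)⁻¹ * g⁻¹) y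
    rw [e2] at this
    exact this.symm
  refine ⟨g * (c : G), ?_, ?_⟩
  · rw [Subgroup.mem_normalizer_iff]
    intro y
    have a1 := E2 (x⁻¹ * y * x)
    have a2 := E1 (x⁻¹ * y * x)
    have e3 : (x⁻¹ * (c : G)⁻¹ * g⁻¹)⁻¹ * (x⁻¹ * y * x) * (x⁻¹ * (c : G)⁻¹ * g⁻¹) = g * (c : G) * y * (g * (c : G))⁻¹ := by group
    have e4 : x * (x⁻¹ * y * x) * x⁻¹ = y := by group
    rw [e3] at a1
    rw [e4] at a2
    exact a2.trans a1.symm
  · have hc : (c : G) ∈ Subgroup.centralizer ({d} : Set G) := c.2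
    rw [Subgroup.mem_centralizer_iff] at hc
    have h1 : d * (c : G) = (c : G) * d := hc d (Set.mem_singleton d)
    calc g * (c : G) * d * (g * (c : G))⁻¹ = g * ((c : G) * d) * (c : G)⁻¹ * g⁻¹ := by group
      _ = g * (d * (c : G)) * (c : G)⁻¹ * g⁻¹ := by rw [h1]
      _ = g * d * g⁻¹ := by group

end Cfsg.Agent.S1243
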