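import Cfsg.Statements.S1244
import Cfsg.Agent.Lib.Helper3.IndexTwo

set_option autoImplicit false
open Cfsg

namespace Cfsg.Agent.S1244

def omega {G : Type*} [Group G] (X : Subgroup G) (hX : ∀ a ∈ X, ∀ b ∈ X, a * b = b * a) :
    Subgroup G where
  carrier := {x | x ∈ X ∧ x ^ 2 = 1}
  mul_mem' := by
    rintro a b ⟨ha, ha2⟩ ⟨hb, hb2⟩
    refine ⟨X.mul_mem ha hb, ?_⟩
    have hab := hX a ha b hb
    have : (a * b) ^ 2 = a ^ 2 * b ^ 2 := by
      rw [pow_two, pow_two, pow_two]
      calc a * b * (a * b) = a * (b * a) * b := by group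
        _ = a * (a * b) * b := by rw [← hab]
        _ = a * a * (b * b) := by group
    rw [this, ha2, hb2, one_mul]
  one_mem' := ⟨X.one_mem, one_pow 2⟩
  inv_mem' := by
    rintro a ⟨ha, ha2⟩
    exact ⟨X.inv_mem ha, by rw [inv_pow, ha2, inv_one]⟩

theorem omega_le {G : Type*} [Group G] (X : Subgroup G) (hX : ∀ a ∈ X, ∀ b ∈ X, a * b = b * a) :
    omega X hX ≤ X := fun _ hx => hx.1

theorem omega_card {G : Type*} [Group G] [Finite G] (X : Subgroup G)
    (hX : ∀ a ∈ X, ∀ b ∈ X, a * b = b * a) (k : ℕ) (h1 : Cfsg.PRankLE 2 k ↥X)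
    (h2 : k = 0 ∨ ¬ Cfsg.PRankLE 2 (k - 1) ↥X) : Nat.card (omega X hX) = 2 ^ k := by
  have : Fact (Nat.Prime 2) := ⟨Nat.prime_two⟩
  have hle : omega X hX ≤ X := omega_le X hX
  have hub : Nat.card (omega X hX) ≤ 2 ^ k := by
    have hA := h1 ((omega X hX).subgroupOf X)
      (isMulCommutative_iff.mpr (fun a b => Subtype.ext (Subtype.ext (hX a.1.1 a.1.2 b.1.1 b.1.2))))
      (fun a ha => Subtype.ext (by
        rw [Subgroup.coe_pow, Subgroup.coe_one]
        exact (Subgroup.mem_subgroupOf.mp ha).2))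
    rwa [Nat.card_congr (Subgroup.subgroupOfEquivOfLe hle).toEquiv] at hA
  have hp : IsPGroup 2 (omega X hX) := by
    intro g
    refine ⟨1, ?_⟩
    apply Subtype.ext
    rw [pow_one, Subgroup.coe_pow, Subgroup.coe_one]
    exact g.2.2
  obtain ⟨j, hj⟩ := IsPGroup.iff_card.mp hp
  rw [hj] at hub ⊢
  have hjk : j ≤ k := (Nat.pow_le_pow_iff_right (by norm_num)).mp hub
  rcases h2 with h2 | h2
  · have : j = k := by omega
    rw [this]
  · unfold Cfsg.PRankLE at h2
    push Not at h2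
    obtain ⟨B, hBc, hB2, hBcard⟩ := h2
    have hBle : B.map X.subtype ≤ omega X hX := by
      rintro _ ⟨b, hb, rfl⟩
      refine ⟨b.2, ?_⟩
      have h3 := congrArg Subtype.val (hB2 b hb)
      rw [Subgroup.coe_pow, Subgroup.coe_one] at h3
      exact h3
    have hc1 : Nat.card (B.map X.subtype) = Nat.card B :=
      Subgroup.card_map_of_injective X.subtype_injective
    have hc2 : Nat.card (B.map X.subtype) ≤ Nat.card (omega X hX) := Subgroup.card_le_of_le hBle
    rw [hc1, hj] at hc2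
    have h4 : 2 ^ (k - 1) < 2 ^ j := lt_of_lt_of_le hBcard hc2
    have hkj : k - 1 < j := (Nat.pow_lt_pow_iff_right (by norm_num)).mp h4
    have : j = k := by omega
    rw [this]

theorem parity {C : Type*} [CommGroup C] (E E0 : Subgroup C) (h2 : E0.relIndex E = 2)
    {ι : Type*} (s : Finset ι) (f : ι → C) (hf : ∀ i ∈ s, f i ∈ E ∧ f i ∉ E0) :
    (∏ i ∈ s, f i) ∈ E ∧ ((∏ i ∈ s, f i) ∈ E0 ↔ Even s.card) := by
  classical
  induction s using Finset.induction_on with
  | empty => simp [E.one_mem, E0.one_mem]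
  | insert a s ha ih =>
    have hfa := hf a (Finset.mem_insert_self a s)
    have ih' := ih (fun i hi => hf i (Finset.mem_insert_of_mem hi))
    rw [Finset.prod_insert ha, Finset.card_insert_of_notMem ha]
    refine ⟨E.mul_mem hfa.1 ih'.1, ?_⟩
    have key := Subgroup.mul_mem_iff_of_index_two (H := E0.subgroupOf E) h2
      (a := ⟨f a, hfa.1⟩) (b := ⟨∏ i ∈ s, f i, ih'.1⟩)
    simp only [Subgroup.mem_subgroupOf, Subgroup.coe_mul] at key
    rw [key, Nat.even_add_one, ← ih'.2]
    constructor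
    · intro h hP
      exact hfa.2 (h.mpr hP)
    · intro h
      exact ⟨fun h' => absurd h' hfa.2, fun h' => absurd h' h⟩

/-- Let G be a finite group with no subgroup of index 2 whose Sylow 2-subgroup S is commutative, and let R ≤ S be a subgroup whose 2-rank is exactly one less than the 2-rank r of S. Then every involution of S is conjugate, by an element of N_G(S), to an element of R. -/
theorem result {G : Type*} [Group G] [Finite G] (hG : ∀ H : Subgroup G, H.index ≠ 2) (S : Sylow 2 G) (hS : IsMulCommutative (S : Subgroup G)) (r : ℕ) (hr1 : 1 ≤ r) (hSr : Cfsg.PRankLE 2 r (S : Subgroup G) ∧ ¬ Cfsg.PRankLE 2 (r - 1) (S : Subgroup G)) (R : Subgroup G) (hRS : R ≤ S) (hRr : Cfsg.PRankLE 2 (r - 1) R ∧ (r = 1 ∨ ¬ Cfsg.PRankLE 2 (r - 2) R)) (t : G) (ht : orderOf t = 2) (htS : t ∈ S) : ∃ n ∈ Subgroup.normalizer ((S : Subgroup G) : Set G), n * t * n⁻¹ ∈ R := by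
  classical
  have hF2 : Fact (Nat.Prime 2) := ⟨Nat.prime_two⟩
  by_contra hcon
  push Not at hcon
  have hcomm : ∀ a ∈ (S : Subgroup G), ∀ b ∈ (S : Subgroup G), a * b = b * a := by
    intro a ha b hb
    have := mul_comm' (⟨a, ha⟩ : (S : Subgroup G)) ⟨b, hb⟩
    exact congrArg Subtype.val this
  have hcommR : ∀ a ∈ R, ∀ b ∈ R, a * b = b * a :=
    fun a ha b hb => hcomm a (hRS ha) b (hRS hb)
  have hE : Nat.card (omega (S : Subgroup G) hcomm) = 2 ^ r :=
    omega_card _ hcomm r hSr.1 (Or.inr hSr.2)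
  have hE0 : Nat.card (omega R hcommR) = 2 ^ (r - 1) := by
    apply omega_card _ hcommR (r - 1) hRr.1
    rcases hRr.2 with h | h
    · left; omega
    · right; rwa [Nat.sub_sub]
  have hE0E : omega R hcommR ≤ omega (S : Subgroup G) hcomm := fun x hx => ⟨hRS hx.1, hx.2⟩
  have hrel : (omega R hcommR).relIndex (omega (S : Subgroup G) hcomm) = 2 := by
    have h1 := (Subgroup.subgroupOf (omega R hcommR) (omega (S : Subgroup G) hcomm)).card_mul_index
    rw [Nat.card_congr (Subgroup.subgroupOfEquivOfLe hE0E).toEquiv, hE0, hE] at h1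
    have h2 : 2 ^ r = 2 ^ (r - 1) * 2 := by
      rw [← pow_succ]; congr 1; omega
    rw [h2] at h1
    exact Nat.eq_of_mul_eq_mul_left (by positivity) h1
  have hSN : (S : Subgroup G) ≤ Subgroup.normalizer ((S : Subgroup G) : Set G) :=
    Subgroup.le_normalizer
  letI : CommGroup ↥(S : Subgroup G) :=
    { (inferInstance : Group ↥(S : Subgroup G)) with
      mul_comm := fun a b => Subtype.ext (hcomm a a.2 b b.2) }
  have hconjS : ∀ n ∈ Subgroup.normalizer ((S : Subgroup G) : Set G), ∀ s ∈ (S : Subgroup G),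
      n * s * n⁻¹ ∈ (S : Subgroup G) := by
    intro n hn s hs
    exact (Subgroup.mem_normalizer_iff.mp hn s).mp hs
  letI : Fintype (↥(Subgroup.normalizer ((S : Subgroup G) : Set G)) ⧸
      (S : Subgroup G).subgroupOf (Subgroup.normalizer ((S : Subgroup G) : Set G))) :=
    Fintype.ofFinite _
  let F : (↥(Subgroup.normalizer ((S : Subgroup G) : Set G)) ⧸
      (S : Subgroup G).subgroupOf (Subgroup.normalizer ((S : Subgroup G) : Set G))) →
      ↥(S : Subgroup G) := fun q =>
    ⟨(q.out : G) * t * (q.out : G)⁻¹, hconjS _ q.out.2 t htS⟩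
  have hFsmul : ∀ (m : ↥(Subgroup.normalizer ((S : Subgroup G) : Set G)))
      (q : ↥(Subgroup.normalizer ((S : Subgroup G) : Set G)) ⧸
        (S : Subgroup G).subgroupOf (Subgroup.normalizer ((S : Subgroup G) : Set G))),
      ((F (m • q) : ↥(S : Subgroup G)) : G) = (m : G) * (F q : G) * (m : G)⁻¹ := by
    intro m q
    obtain ⟨s, hs⟩ := QuotientGroup.mk_out_eq_mul
      ((S : Subgroup G).subgroupOf (Subgroup.normalizer ((S : Subgroup G) : Set G))) (m * q.out)
    have hq : m • q = (QuotientGroup.mk (m * q.out) :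
        ↥(Subgroup.normalizer ((S : Subgroup G) : Set G)) ⧸
        (S : Subgroup G).subgroupOf (Subgroup.normalizer ((S : Subgroup G) : Set G))) := by
      nth_rewrite 1 [← QuotientGroup.out_eq' q]
      rfl
    show ((m • q).out : G) * t * ((m • q).out : G)⁻¹ =
      (m : G) * ((q.out : G) * t * (q.out : G)⁻¹) * (m : G)⁻¹
    rw [hq, hs]
    have hsS : ((s : ↥(Subgroup.normalizer ((S : Subgroup G) : Set G))) : G) ∈ (S : Subgroup G) :=
      s.2
    have hst := hcomm _ hsS t htS
    have hst2 : ((s : ↥(Subgroup.normalizer ((S : Subgroup G) : Set G))) : G) * t *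
        ((s : ↥(Subgroup.normalizer ((S : Subgroup G) : Set G))) : G)⁻¹ = t := by
      rw [hst, mul_inv_cancel_right]
    simp only [Subgroup.coe_mul]
    have h5 : (m : G) * (q.out : G) * ((s : ↥(Subgroup.normalizer ((S : Subgroup G) : Set G))) : G) * t *
        ((m : G) * (q.out : G) * ((s : ↥(Subgroup.normalizer ((S : Subgroup G) : Set G))) : G))⁻¹ =
        (m : G) * ((q.out : G) * (((s : ↥(Subgroup.normalizer ((S : Subgroup G) : Set G))) : G) * t *
        ((s : ↥(Subgroup.normalizer ((S : Subgroup G) : Set G))) : G)⁻¹) * (q.out : G)⁻¹) * (m : G)⁻¹ := by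
      group
    rw [h5, hst2]
  have hw_inv : ∀ m ∈ Subgroup.normalizer ((S : Subgroup G) : Set G),
      m * ((∏ q, F q : ↥(S : Subgroup G)) : G) * m⁻¹ = ((∏ q, F q : ↥(S : Subgroup G)) : G) := by
    intro m hm
    let c : ↥(S : Subgroup G) →* ↥(S : Subgroup G) :=
      { toFun := fun s => ⟨m * s * m⁻¹, hconjS m hm s s.2⟩
        map_one' := Subtype.ext (by simp)
        map_mul' := fun a b => Subtype.ext (by simp only [Subgroup.coe_mul]; group) }
    have h1 : c (∏ q, F q) = ∏ q, c (F q) := map_prod c F Finset.univ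
    have h2 : ∀ q, c (F q) = F ((⟨m, hm⟩ : ↥(Subgroup.normalizer ((S : Subgroup G) : Set G))) • q) := by
      intro q
      apply Subtype.ext
      exact (hFsmul ⟨m, hm⟩ q).symm
    have h3 : ∏ q, F ((⟨m, hm⟩ : ↥(Subgroup.normalizer ((S : Subgroup G) : Set G))) • q) = ∏ q, F q :=
      Fintype.prod_equiv (MulAction.toPerm (⟨m, hm⟩ : ↥(Subgroup.normalizer ((S : Subgroup G) : Set G))))
        _ _ (fun q => rfl)
    have h4 : c (∏ q, F q) = ∏ q, F q := by
      rw [h1]; simp_rw [h2]; exact h3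
    exact congrArg Subtype.val h4
  have ht2 : t ^ 2 = 1 := by
    rw [← ht]; exact pow_orderOf_eq_one t
  have hpar := parity ((omega (S : Subgroup G) hcomm).subgroupOf (S : Subgroup G))
    ((omega R hcommR).subgroupOf (S : Subgroup G))
    (by rw [Subgroup.relIndex_subgroupOf (omega_le _ hcomm)]; exact hrel) Finset.univ F
    (by
      intro q _
      constructor
      · refine ⟨(F q).2, ?_⟩
        show ((q.out : G) * t * (q.out : G)⁻¹) ^ 2 = 1
        rw [conj_pow, ht2, mul_one, mul_inv_cancel]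
      · intro h
        exact hcon _ q.out.2 h.1)
  have hodd : ¬ Even (Finset.univ : Finset (↥(Subgroup.normalizer ((S : Subgroup G) : Set G)) ⧸
      (S : Subgroup G).subgroupOf (Subgroup.normalizer ((S : Subgroup G) : Set G)))).card := by
    rw [Finset.card_univ, ← Nat.card_eq_fintype_card]
    intro hev
    have h1 : (S : Subgroup G).relIndex (Subgroup.normalizer ((S : Subgroup G) : Set G)) *
        (Subgroup.normalizer ((S : Subgroup G) : Set G)).index = (S : Subgroup G).index :=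
      Subgroup.relIndex_mul_index hSN
    have h2 : ¬ 2 ∣ (S : Subgroup G).index := S.not_dvd_index
    apply h2
    rw [← h1]
    exact Dvd.dvd.mul_right (even_iff_two_dvd.mp hev) _
  have hw0 : (∏ q, F q) ∉ (omega R hcommR).subgroupOf (S : Subgroup G) :=
    fun h => hodd (hpar.2.mp h)
  have hw2 : ((∏ q, F q : ↥(S : Subgroup G)) : G) ^ 2 = 1 := hpar.1.2
  have hidx : (S : Subgroup G).index % 2 = 1 := by
    have h2 : ¬ 2 ∣ (S : Subgroup G).index := S.not_dvd_index
    omega
  have key : ∀ (k : ℕ) (g₀ : G),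
      g₀⁻¹ * ((∏ q, F q : ↥(S : Subgroup G)) : G) ^ k * g₀ ∈ (S : Subgroup G) →
      g₀⁻¹ * ((∏ q, F q : ↥(S : Subgroup G)) : G) ^ k * g₀ =
        ((∏ q, F q : ↥(S : Subgroup G)) : G) ^ k := by
    intro k g₀ hg
    obtain ⟨n, hn, hn2⟩ := S.conj_eq_normalizer_conj_of_mem
      (((∏ q, F q : ↥(S : Subgroup G)) : G) ^ k) g₀
      (Subgroup.pow_mem _ (∏ q, F q : ↥(S : Subgroup G)).2 k) hg
    rw [hn2]
    have h1 := hw_inv n⁻¹ (Subgroup.inv_mem _ hn)
    rw [inv_inv] at h1
    have h3 := conj_pow (a := n⁻¹) (b := ((∏ q, F q : ↥(S : Subgroup G)) : G)) (i := k)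
    rw [inv_inv] at h3
    rw [← h3, h1]
  have htr := MonoidHom.transfer_eq_pow (MonoidHom.id ↥(S : Subgroup G))
    ((∏ q, F q : ↥(S : Subgroup G)) : G) key
  have hwpow : ((∏ q, F q : ↥(S : Subgroup G)) : G) ^ (S : Subgroup G).index =
      ((∏ q, F q : ↥(S : Subgroup G)) : G) := by
    rw [← Nat.div_add_mod (S : Subgroup G).index 2, hidx, pow_add, pow_mul, hw2, one_pow,
      one_mul, pow_one]
  have htr2 : MonoidHom.transfer (MonoidHom.id ↥(S : Subgroup G))
      ((∏ q, F q : ↥(S : Subgroup G)) : G) = ∏ q, F q := by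
    rw [htr]
    apply Subtype.ext
    exact hwpow
  have hw1 : (∏ q, F q) ≠ 1 := by
    intro h
    apply hw0
    rw [h]
    exact Subgroup.one_mem _
  have hrange_ne : (MonoidHom.transfer (MonoidHom.id ↥(S : Subgroup G)) : G →* ↥(S : Subgroup G)).range ≠ ⊥ := by
    intro h
    have h1 : (∏ q, F q) ∈ (MonoidHom.transfer (MonoidHom.id ↥(S : Subgroup G)) : G →* ↥(S : Subgroup G)).range :=
      ⟨_, htr2⟩
    rw [h, Subgroup.mem_bot] at h1
    exact hw1 h1
  have hpS : IsPGroup 2 ↥(S : Subgroup G) := S.isPGroup'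
  have hpQ : IsPGroup 2 (MonoidHom.transfer (MonoidHom.id ↥(S : Subgroup G)) : G →* ↥(S : Subgroup G)).range :=
    hpS.to_subgroup _
  obtain ⟨k, hk⟩ := IsPGroup.iff_card.mp hpQ
  have hk1 : 1 ≤ k := by
    by_contra h0
    have hk0 : k = 0 := by omega
    rw [hk0, pow_zero] at hk
    exact hrange_ne (Subgroup.card_eq_one.mp hk)
  obtain ⟨K, hK⟩ := Sylow.exists_subgroup_card_pow_prime
    (G := (MonoidHom.transfer (MonoidHom.id ↥(S : Subgroup G)) : G →* ↥(S : Subgroup G)).range) 2
    (n := k - 1) (by rw [hk]; exact pow_dvd_pow 2 (by omega))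
  have hKidx : K.index = 2 := by
    have h1 := K.card_mul_index
    rw [hK, hk] at h1
    have h2 : 2 ^ k = 2 ^ (k - 1) * 2 := by
      rw [← pow_succ]; congr 1; omega
    rw [h2] at h1
    exact Nat.eq_of_mul_eq_mul_left (by positivity) h1
  obtain ⟨H, hH⟩ := Cfsg.Agent.Lib.Helper3.exists_index_two_of_surjective
    (MonoidHom.transfer (MonoidHom.id ↥(S : Subgroup G)) : G →* ↥(S : Subgroup G)).rangeRestrict
    (MonoidHom.rangeRestrict_surjective _) ⟨K, hKidx⟩
  exact hG H hH

end Cfsg.Agent.S1244
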