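import Cfsg.Statements.S1246
import Cfsg.Agent.Lib.Helper18.FStarP
import Cfsg.Agent.Lib.Helper1.Cores

set_option autoImplicit false
open Cfsg

namespace Cfsg.Agent.S1246

theorem isPGroup_genFitting_iff {X : Type*} [Group X] [Finite X] (p : ℕ) [Fact p.Prime] :
    IsPGroup p ↥(Cfsg.generalizedFittingSubgroup X) ↔
      Cfsg.generalizedFittingSubgroup X = Cfsg.pCore p X := by
  constructor
  · intro h
    apply le_antisymm
    · exact Cfsg.Agent.Lib.Helper1.le_pCore p Cfsg.Agent.Lib.Helper11.genFitting_normal h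
    · exact (Cfsg.Agent.Lib.Helper11.pCore_le_fitting p).trans le_sup_right
  · intro h
    rw [h]
    exact Cfsg.Agent.Lib.Helper1.pCore_isPGroup p

theorem step {G : Type*} [Group G] [Finite G] {p : ℕ} [Fact p.Prime] (U V : Subgroup G)
    (hVU : V ≤ U) (hU : IsPGroup p U) (hn : U ≤ Subgroup.normalizer (V : Set G))
    (hV : Cfsg.Agent.Lib.Helper18.CharP p (Subgroup.centralizer (V : Set G))) :
    Cfsg.Agent.Lib.Helper18.CharP p (Subgroup.centralizer (U : Set G)) := by
  have hVp : IsPGroup p V := hU.to_le hVU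
  have hK : Cfsg.Agent.Lib.Helper18.CharP p (Subgroup.centralizer (V : Set G) ⊔ U) := by
    apply Cfsg.Agent.Lib.Helper18.charP_of_inf_centralizer (B := V) hVp (hVU.trans le_sup_right)
      (sup_le (Subgroup.centralizer_le_normalizer _) hn)
    rw [inf_eq_right.mpr le_sup_left]
    exact hV
  have h2 := Cfsg.Agent.Lib.Helper18.charP_inf_centralizer hK hU le_sup_right
  have h3 : (Subgroup.centralizer (V : Set G) ⊔ U) ⊓ Subgroup.centralizer (U : Set G)
      = Subgroup.centralizer (U : Set G) :=
    inf_eq_right.mpr ((Subgroup.centralizer_le (SetLike.coe_subset_coe.mpr hVU)).trans le_sup_left)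
  rw [h3] at h2
  exact h2

theorem lt_normalizer_inf {G : Type*} [Group G] [Finite G] {p : ℕ} [Fact p.Prime]
    (U V : Subgroup G) (hVU : V < U) (hU : IsPGroup p U) :
    V < Subgroup.normalizer (V : Set G) ⊓ U := by
  have hnil : Group.IsNilpotent U := hU.isNilpotent
  have hnc := normalizerCondition_of_isNilpotent (G := U)
  have h1 : V.subgroupOf U < ⊤ := by
    rw [lt_top_iff_ne_top]
    intro h
    rw [Subgroup.subgroupOf_eq_top] at h
    exact absurd (le_antisymm hVU.le h) hVU.ne
  have h2 := hnc _ h1
  rw [← Subgroup.subgroupOf_normalizer_eq hVU.le] at h2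
  refine lt_of_le_of_ne (le_inf Subgroup.le_normalizer hVU.le) ?_
  intro h
  have : (Subgroup.normalizer (V : Set G)).subgroupOf U = V.subgroupOf U := by
    ext x
    simp only [Subgroup.mem_subgroupOf]
    constructor
    · intro hx
      have : (x : G) ∈ Subgroup.normalizer (V : Set G) ⊓ U := ⟨hx, x.2⟩
      rw [← h] at this
      exact this
    · intro hx
      exact Subgroup.le_normalizer hx
  rw [this] at h2
  exact lt_irrefl _ h2

theorem chain {G : Type*} [Group G] [Finite G] {p : ℕ} [Fact p.Prime] (U : Subgroup G)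
    (hU : IsPGroup p U) :
    ∀ n : ℕ, ∀ V : Subgroup G, V ≤ U → Nat.card U - Nat.card V ≤ n →
      Cfsg.Agent.Lib.Helper18.CharP p (Subgroup.centralizer (V : Set G)) →
      Cfsg.Agent.Lib.Helper18.CharP p (Subgroup.centralizer (U : Set G)) := by
  intro n
  induction n with
  | zero =>
    intro V hVU hn hV
    have hcard : Nat.card U ≤ Nat.card V := by omega
    have : V = U := Subgroup.eq_of_le_of_card_ge hVU hcard
    rw [← this]; exact hV
  | succ n ih =>
    intro V hVU hn hV
    by_cases hEq : V = U
    · rw [← hEq]; exact hV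
    · have hlt : V < U := lt_of_le_of_ne hVU hEq
      have h1 := lt_normalizer_inf U V hlt hU
      have hV1 : Cfsg.Agent.Lib.Helper18.CharP p
          (Subgroup.centralizer ((Subgroup.normalizer (V : Set G) ⊓ U : Subgroup G) : Set G)) :=
        step (Subgroup.normalizer (V : Set G) ⊓ U) V h1.le (hU.to_le inf_le_right) inf_le_left hV
      apply ih (Subgroup.normalizer (V : Set G) ⊓ U) inf_le_right _ hV1
      have hc : Nat.card V < Nat.card ↥(Subgroup.normalizer (V : Set G) ⊓ U) := by
        by_contra hcon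
        push Not at hcon
        exact h1.ne (Subgroup.eq_of_le_of_card_ge h1.le hcon)
      have hc2 : Nat.card ↥(Subgroup.normalizer (V : Set G) ⊓ U) ≤ Nat.card U :=
        Subgroup.card_le_of_le inf_le_right
      omega

/-- Let V ≤ U be p-subgroups of the finite group G. If the generalized Fitting subgroup of C_G(V) is a p-group, then so is that of C_G(U). -/
theorem result {G : Type*} [Group G] [Finite G] {p : ℕ} [Fact p.Prime] (U V : Subgroup G) (hVU : V ≤ U) (hU : IsPGroup p U) (hV : IsPGroup p ↥(Cfsg.generalizedFittingSubgroup ↥(Subgroup.centralizer (V : Set G)))) : IsPGroup p ↥(Cfsg.generalizedFittingSubgroup ↥(Subgroup.centralizer (U : Set G))) := by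
  rw [isPGroup_genFitting_iff, Cfsg.Agent.Lib.Helper18.genFitting_eq_pCore_iff_charP] at hV ⊢
  exact chain U hU _ V hVU le_rfl hV

end Cfsg.Agent.S1246
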