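import Mathlib
import Cfsg.Statements.S1248
import Cfsg.Agent.S0779
import Cfsg.Agent.S0829
import Cfsg.Agent.Lib.Helper7.SU3Unip

set_option autoImplicit false
set_option linter.unusedVariables false
open Cfsg

namespace Cfsg.Agent.S1248

open Cfsg.Agent.Lib.Helper7.SU3Unip
open Cfsg.Agent.S0829 (phi_ne_id)

/-- Let F be a field with 16 elements and S a Sylow 2-subgroup of PSU(3) over F (the unitary group U₃(4)). Then |S| = 64; the centre Z(S) is a Klein four-group and coincides with the subgroup generated by the involutions of S and with the derived subgroup; and every element of S ⧸ Z(S) squares to the identity, S ⧸ Z(S) having order 16. -/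
theorem result {F : Type*} [Field F] [Fintype F] (hF : Fintype.card F = 16) (S : Sylow 2 (Cfsg.PSU 3 F 4)) : Nat.card S = 64 ∧ IsKleinFour (Subgroup.center (S : Subgroup (Cfsg.PSU 3 F 4))) ∧ Subgroup.center (S : Subgroup (Cfsg.PSU 3 F 4)) = Subgroup.closure {x : (S : Subgroup (Cfsg.PSU 3 F 4)) | orderOf x = 2} ∧ Subgroup.center (S : Subgroup (Cfsg.PSU 3 F 4)) = commutator (S : Subgroup (Cfsg.PSU 3 F 4)) ∧ Nat.card ((S : Subgroup (Cfsg.PSU 3 F 4)) ⧸ Subgroup.center (S : Subgroup (Cfsg.PSU 3 F 4))) = 16 ∧ ∀ x : (S : Subgroup (Cfsg.PSU 3 F 4)) ⧸ Subgroup.center (S : Subgroup (Cfsg.PSU 3 F 4)), x ^ 2 = 1 := by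
  have hF' : Fintype.card F = 4 ^ 2 := by rw [hF]; norm_num
  obtain ⟨φ, hφq, hφ2⟩ := Cfsg.Agent.S0779.exists_frob hF'
  have hφne := phi_ne_id hF' φ hφq
  have h2 : (2 : F) = 0 := two_eq_zero_of hF' 2 (by omega) (by norm_num)
  obtain ⟨e⟩ := exists_equiv φ hφq hφ2 hφne hF' 2 (by omega) (by norm_num) S
  have hcard : Nat.card ↥(S : Subgroup (Cfsg.PSU 3 F 4)) = 64 := by
    rw [Nat.card_congr e.toEquiv, card_UG φ hφ2 hφne hF' h2]
    norm_num
  have hc := card_center φ hφ2 hφne hF' h2 e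
  refine ⟨hcard, kleinFour_center φ hφ2 hφne hF' h2 e rfl, center_eq_closure φ hφ2 hφne h2 e,
    (commutator_eq_center φ hφ2 hφne h2 e).symm, ?_, quot_sq φ hφ2 hφne h2 e⟩
  have h5 := Subgroup.card_eq_card_quotient_mul_card_subgroup
    (Subgroup.center ↥(S : Subgroup (Cfsg.PSU 3 F 4)))
  rw [hcard, hc] at h5
  omega
end Cfsg.Agent.S1248
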