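import Cfsg.Statements.S1254
import Cfsg.Agent.S0071
import Cfsg.Agent.Lib.Helper10.DihSyl

set_option autoImplicit false
open Cfsg

namespace Cfsg.Agent.S1254

theorem normalizer_eq_of_complement {X : Type*} [Group X] [Finite X] (S : Sylow 2 X)
    (hc : Cfsg.HasNormalPComplement 2 X) (U : Subgroup X) (hUS : U ≤ S) :
    Subgroup.normalizer (U : Set X) = Subgroup.centralizer (U : Set X) ⊔
      ((S : Subgroup X) ⊓ Subgroup.normalizer (U : Set X)) := by
  have hF2 : Fact (Nat.Prime 2) := ⟨Nat.prime_two⟩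
  obtain ⟨P, N, hNn, hNP⟩ := hc
  have hcardN : Nat.card N = (P : Subgroup X).index := hNP.index_eq_card.symm
  have hNodd : ¬ 2 ∣ Nat.card N := by
    rw [hcardN]
    exact P.not_dvd_index
  have hPS : Nat.card (P : Subgroup X) = Nat.card (S : Subgroup X) := by
    rw [Sylow.card_eq_multiplicity, Sylow.card_eq_multiplicity]
  have hmul : Nat.card N * Nat.card (S : Subgroup X) = Nat.card X := by
    rw [← hPS]
    exact hNP.card_mul_card
  have hcop : (Nat.card N).Coprime (Nat.card (S : Subgroup X)) := by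
    obtain ⟨k, hk⟩ := IsPGroup.iff_card.mp S.isPGroup'
    rw [hk]
    exact Nat.Coprime.pow_right k ((Nat.Prime.coprime_iff_not_dvd Nat.prime_two).mpr hNodd).symm
  have hNS : N.IsComplement' (S : Subgroup X) := Subgroup.isComplement'_of_coprime hmul hcop
  have hdisj : ∀ k : X, k ∈ N → k ∈ (S : Subgroup X) → k = 1 := by
    intro k hkN hkS
    have h1 : k ∈ N ⊓ (S : Subgroup X) := ⟨hkN, hkS⟩
    rw [hNS.disjoint.eq_bot] at h1
    exact Subgroup.mem_bot.mp h1
  apply le_antisymm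
  · intro g hg
    obtain ⟨⟨n, s⟩, hns, -⟩ := Subgroup.isComplement_iff_existsUnique.mp hNS g
    simp only at hns
    have hkey : ∀ u ∈ U, (n : X) * ((s : X) * u * (s : X)⁻¹) * (n : X)⁻¹ = (s : X) * u * (s : X)⁻¹ ∧
        (s : X) * u * (s : X)⁻¹ ∈ U := by
      intro u hu
      have hu' : (s : X) * u * (s : X)⁻¹ ∈ (S : Subgroup X) :=
        Subgroup.mul_mem _ (Subgroup.mul_mem _ s.2 (hUS hu)) (Subgroup.inv_mem _ s.2)
      have hgu : g * u * g⁻¹ ∈ U := (Subgroup.mem_normalizer_iff.mp hg u).mp hu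
      have hgu2 : g * u * g⁻¹ = (n : X) * ((s : X) * u * (s : X)⁻¹) * (n : X)⁻¹ := by
        rw [← hns]; group
      have h1 : (n : X) * ((s : X) * u * (s : X)⁻¹) * (n : X)⁻¹ * ((s : X) * u * (s : X)⁻¹)⁻¹ ∈ N := by
        have h2 : ((s : X) * u * (s : X)⁻¹) * (n : X)⁻¹ * ((s : X) * u * (s : X)⁻¹)⁻¹ ∈ N :=
          hNn.conj_mem _ (N.inv_mem n.2) _
        have h3 := N.mul_mem n.2 h2
        have h4 : (n : X) * (((s : X) * u * (s : X)⁻¹) * (n : X)⁻¹ * ((s : X) * u * (s : X)⁻¹)⁻¹) =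
            (n : X) * ((s : X) * u * (s : X)⁻¹) * (n : X)⁻¹ * ((s : X) * u * (s : X)⁻¹)⁻¹ := by
          group
        rw [h4] at h3
        exact h3
      have h5 : (n : X) * ((s : X) * u * (s : X)⁻¹) * (n : X)⁻¹ * ((s : X) * u * (s : X)⁻¹)⁻¹ ∈
          (S : Subgroup X) := by
        apply Subgroup.mul_mem _ _ (Subgroup.inv_mem _ hu')
        rw [← hgu2]
        exact hUS hgu
      have h6 := hdisj _ h1 h5
      have h7 : (n : X) * ((s : X) * u * (s : X)⁻¹) * (n : X)⁻¹ = (s : X) * u * (s : X)⁻¹ :=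
        mul_inv_eq_one.mp h6
      refine ⟨h7, ?_⟩
      rw [← h7, ← hgu2]
      exact hgu
    have hsN : (s : X) ∈ Subgroup.normalizer (U : Set X) :=
      Cfsg.Agent.Lib.Helper10.mem_normalizer_of_conj_mem_finite (fun u hu => (hkey u hu).2)
    have hnC : (n : X) ∈ Subgroup.centralizer (U : Set X) := by
      rw [Subgroup.mem_centralizer_iff]
      intro u hu
      have hu0 : (s : X)⁻¹ * u * ((s : X)⁻¹)⁻¹ ∈ U :=
        (Subgroup.mem_normalizer_iff.mp (Subgroup.inv_mem _ hsN) u).mp hu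
      have h1 := (hkey _ hu0).1
      have h2 : (s : X) * ((s : X)⁻¹ * u * ((s : X)⁻¹)⁻¹) * (s : X)⁻¹ = u := by group
      rw [h2] at h1
      -- h1 : n * u * n⁻¹ = u
      have h3 : (n : X) * u = u * (n : X) := by
        calc (n : X) * u = (n : X) * u * (n : X)⁻¹ * (n : X) := by group
          _ = u * (n : X) := by rw [h1]
      exact h3.symm
    rw [← hns]
    exact Subgroup.mul_mem _ (Subgroup.mem_sup_left hnC) (Subgroup.mem_sup_right ⟨s.2, hsN⟩)
  · exact sup_le (Subgroup.centralizer_le_normalizer _) inf_le_right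

theorem frob_of_four {X : Type*} [Group X] [Finite X] (S : Sylow 2 X) (m : ℕ)
    (e : (S : Subgroup X) ≃* DihedralGroup m)
    (h : ∀ U : Subgroup X, U ≤ S → IsKleinFour U → Subgroup.normalizer (U : Set X) =
      Subgroup.centralizer (U : Set X) ⊔ ((S : Subgroup X) ⊓ Subgroup.normalizer (U : Set X)))
    (Q : Subgroup X) (hQS : Q ≤ (S : Subgroup X)) (g : X)
    (hg : g ∈ Subgroup.normalizer (Q : Set X)) (hodd : (orderOf g).Coprime 2) :
    g ∈ Subgroup.centralizer (Q : Set X) := by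
  have hF2 : Fact (Nat.Prime 2) := ⟨Nat.prime_two⟩
  have hS2 : IsPGroup 2 (S : Subgroup X) := S.isPGroup'
  have hconj : ∀ q ∈ Q, g * q * g⁻¹ ∈ Q := fun q hq => (Subgroup.mem_normalizer_iff.mp hg q).mp hq
  have hord : ∀ q : X, orderOf (g * q * g⁻¹) = orderOf q := by
    intro q
    have h1 : g * q * g⁻¹ = MulAut.conj g q := by simp [MulAut.conj_apply]
    rw [h1, MulEquiv.orderOf_eq]
  have hQ1c : IsCyclic ↥(Q ⊓ Cfsg.Agent.Lib.Helper10.rotSub (S : Subgroup X) e) :=
    Cfsg.Agent.Lib.Helper10.isCyclic_of_le_rotSub (S : Subgroup X) e inf_le_right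
  have hQ1p : IsPGroup 2 ↥(Q ⊓ Cfsg.Agent.Lib.Helper10.rotSub (S : Subgroup X) e) :=
    hS2.to_le (inf_le_left.trans hQS)
  -- key: g normalizes Q ⊓ C
  have hkey : g ∈ Subgroup.normalizer
      ((Q ⊓ Cfsg.Agent.Lib.Helper10.rotSub (S : Subgroup X) e : Subgroup X) : Set X) := by
    by_contra hnot
    have hex : ∃ q ∈ Q ⊓ Cfsg.Agent.Lib.Helper10.rotSub (S : Subgroup X) e,
        g * q * g⁻¹ ∉ Q ⊓ Cfsg.Agent.Lib.Helper10.rotSub (S : Subgroup X) e := by
      by_contra hall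
      push Not at hall
      exact hnot (Cfsg.Agent.Lib.Helper10.mem_normalizer_of_conj_mem_finite hall)
    obtain ⟨q, hq, hqn⟩ := hex
    have htQ : g * q * g⁻¹ ∈ Q := hconj q hq.1
    have htC : g * q * g⁻¹ ∉ Cfsg.Agent.Lib.Helper10.rotSub (S : Subgroup X) e :=
      fun hC => hqn ⟨htQ, hC⟩
    have ht2 : orderOf (g * q * g⁻¹) = 2 :=
      Cfsg.Agent.Lib.Helper10.orderOf_of_not_mem_rotSub (S : Subgroup X) e (hQS htQ) htC
    have hq2 : orderOf q = 2 := by rw [← hord q]; exact ht2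
    -- a generator of Q ⊓ C
    obtain ⟨q0, hq0⟩ := hQ1c.exists_generator
    have hq0Q : g * (q0 : X) * g⁻¹ ∈ Q := hconj _ q0.2.1
    have hq0C : g * (q0 : X) * g⁻¹ ∉ Cfsg.Agent.Lib.Helper10.rotSub (S : Subgroup X) e := by
      intro hC
      apply hqn
      obtain ⟨k, hk⟩ := Subgroup.mem_zpowers_iff.mp (hq0 ⟨q, hq⟩)
      have hk' : (q0 : X) ^ k = q := by
        have := congrArg Subtype.val hk
        rwa [Subgroup.coe_zpow] at this
      have h1 : g * q * g⁻¹ = (g * (q0 : X) * g⁻¹) ^ k := by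
        rw [← hk']
        have h2 : g * (q0 : X) ^ k * g⁻¹ = MulAut.conj g ((q0 : X) ^ k) := by
          simp [MulAut.conj_apply]
        have h3 : g * (q0 : X) * g⁻¹ = MulAut.conj g (q0 : X) := by simp [MulAut.conj_apply]
        rw [h2, h3, map_zpow]
      rw [h1]
      exact zpow_mem (Subgroup.mem_inf.mpr ⟨hq0Q, hC⟩) k
    have hq02 : orderOf (q0 : X) = 2 := by
      rw [← hord (q0 : X)]
      exact Cfsg.Agent.Lib.Helper10.orderOf_of_not_mem_rotSub (S : Subgroup X) e (hQS hq0Q) hq0C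
    -- Q ⊓ C = zpowers q0 has order 2
    have hQ1eq : Q ⊓ Cfsg.Agent.Lib.Helper10.rotSub (S : Subgroup X) e = Subgroup.zpowers (q0 : X) := by
      apply le_antisymm
      · intro x hx
        obtain ⟨k, hk⟩ := Subgroup.mem_zpowers_iff.mp (hq0 ⟨x, hx⟩)
        have hk' : (q0 : X) ^ k = x := by
          have := congrArg Subtype.val hk
          rwa [Subgroup.coe_zpow] at this
        rw [← hk']
        exact Subgroup.zpow_mem_zpowers _ _
      · rw [Subgroup.zpowers_le]
        exact q0.2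
    have hQ1card : Nat.card ↥(Q ⊓ Cfsg.Agent.Lib.Helper10.rotSub (S : Subgroup X) e) = 2 := by
      rw [hQ1eq, Nat.card_zpowers, hq02]
    have hrel := Cfsg.Agent.Lib.Helper10.relIndex_inf_rotSub (S : Subgroup X) e hQS htQ htC
    have hQcard : Nat.card Q = 4 := by
      have h1 := (Subgroup.subgroupOf (Q ⊓ Cfsg.Agent.Lib.Helper10.rotSub (S : Subgroup X) e) Q).card_mul_index
      rw [Nat.card_congr (Subgroup.subgroupOfEquivOfLe (inf_le_left : Q ⊓ Cfsg.Agent.Lib.Helper10.rotSub (S : Subgroup X) e ≤ Q)).toEquiv,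
        hQ1card] at h1
      have h2 : (Subgroup.subgroupOf (Q ⊓ Cfsg.Agent.Lib.Helper10.rotSub (S : Subgroup X) e) Q).index = 2 := hrel
      rw [h2] at h1
      omega
    have hsq : ∀ x : Q, x ^ 2 = 1 := by
      intro x
      apply Subtype.ext
      rw [Subgroup.coe_pow, Subgroup.coe_one]
      by_cases hxC : (x : X) ∈ Cfsg.Agent.Lib.Helper10.rotSub (S : Subgroup X) e
      · have h1 : (⟨(x : X), ⟨x.2, hxC⟩⟩ : ↥(Q ⊓ Cfsg.Agent.Lib.Helper10.rotSub (S : Subgroup X) e)) ^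
            Nat.card ↥(Q ⊓ Cfsg.Agent.Lib.Helper10.rotSub (S : Subgroup X) e) = 1 := pow_card_eq_one'
        rw [hQ1card] at h1
        have h2 := congrArg Subtype.val h1
        rwa [Subgroup.coe_pow, Subgroup.coe_one] at h2
      · have h1 := Cfsg.Agent.Lib.Helper10.orderOf_of_not_mem_rotSub (S : Subgroup X) e (hQS x.2) hxC
        rw [← h1]
        exact pow_orderOf_eq_one _
    have hK : IsKleinFour Q := by
      refine ⟨hQcard, ?_⟩
      have h1 : Monoid.exponent Q ∣ 2 := Monoid.exponent_dvd_of_forall_pow_eq_one hsq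
      have h2 : Monoid.exponent Q ≠ 1 := by
        intro h3
        have h4 : Subsingleton Q := Monoid.exp_eq_one_iff.mp h3
        have h5 : Nat.card Q = 1 := Nat.card_of_subsingleton 1
        omega
      rcases (Nat.dvd_prime Nat.prime_two).mp h1 with h3 | h3
      · exact absurd h3 h2
      · exact h3
    have hgC := Cfsg.Agent.Lib.Helper10.mem_centralizer_of_normalizer_eq Q (S : Subgroup X) hS2
      (h Q hQS hK) g hg hodd
    have h8 := Subgroup.mem_centralizer_iff.mp hgC q hq.1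
    -- h8 : q * g = g * q
    apply hqn
    have h9 : g * q * g⁻¹ = q := by rw [← h8]; group
    rw [h9]
    exact hq
  have hcent1 := Cfsg.Agent.Lib.Helper10.mem_centralizer_of_isCyclic _ hQ1c hQ1p g hkey hodd
  rw [Subgroup.mem_centralizer_iff]
  intro x hx
  by_cases hxC : x ∈ Cfsg.Agent.Lib.Helper10.rotSub (S : Subgroup X) e
  · exact Subgroup.mem_centralizer_iff.mp hcent1 x ⟨hx, hxC⟩
  · have hyQ : g * x * g⁻¹ ∈ Q := hconj x hx
    have hyC : g * x * g⁻¹ ∉ Cfsg.Agent.Lib.Helper10.rotSub (S : Subgroup X) e := by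
      intro hC
      have h1 : g⁻¹ * (g * x * g⁻¹) * (g⁻¹)⁻¹ ∈
          Q ⊓ Cfsg.Agent.Lib.Helper10.rotSub (S : Subgroup X) e :=
        (Subgroup.mem_normalizer_iff.mp (Subgroup.inv_mem _ hkey) _).mp ⟨hyQ, hC⟩
      have h2 : g⁻¹ * (g * x * g⁻¹) * (g⁻¹)⁻¹ = x := by group
      rw [h2] at h1
      exact hxC h1.2
    have hx2 : orderOf x = 2 :=
      Cfsg.Agent.Lib.Helper10.orderOf_of_not_mem_rotSub (S : Subgroup X) e (hQS hx) hxC
    have hxinv : x⁻¹ = x := by
      have h1 : x ^ 2 = 1 := by rw [← hx2]; exact pow_orderOf_eq_one x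
      rw [inv_eq_iff_mul_eq_one, ← pow_two]; exact h1
    -- c = x * (g x g⁻¹) ∈ Q ⊓ C
    have hcC : x * (g * x * g⁻¹) ∈ Cfsg.Agent.Lib.Helper10.rotSub (S : Subgroup X) e :=
      Cfsg.Agent.Lib.Helper10.mul_mem_rotSub (S : Subgroup X) e (hQS hx) (hQS hyQ) hxC hyC
    have hcQ : x * (g * x * g⁻¹) ∈ Q := Q.mul_mem hx hyQ
    have hgc := Subgroup.mem_centralizer_iff.mp hcent1 _ ⟨hcQ, hcC⟩
    -- hgc : c * g = g * c
    have hy : g * x * g⁻¹ = x * (x * (g * x * g⁻¹)) := by
      rw [← mul_assoc x x, ← pow_two, ← hx2, pow_orderOf_eq_one, one_mul]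
    have hpow : ∀ k : ℕ, g ^ k * x * (g ^ k)⁻¹ = x * (x * (g * x * g⁻¹)) ^ k := by
      intro k
      induction k with
      | zero => simp
      | succ k ih =>
        have h1 : g ^ (k + 1) * x * (g ^ (k + 1))⁻¹ = g * (g ^ k * x * (g ^ k)⁻¹) * g⁻¹ := by
          rw [pow_succ']; group
        rw [h1, ih]
        have h2 : g * (x * (x * (g * x * g⁻¹)) ^ k) * g⁻¹ =
            (g * x * g⁻¹) * (g * (x * (g * x * g⁻¹)) ^ k * g⁻¹) := by group
        have h3 : g * (x * (g * x * g⁻¹)) ^ k * g⁻¹ = (x * (g * x * g⁻¹)) ^ k := by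
          have h4 : Commute g ((x * (g * x * g⁻¹)) ^ k) := (Commute.pow_right hgc.symm k)
          rw [h4.eq, mul_inv_cancel_right]
        rw [h2, h3]
        nth_rewrite 1 [hy]
        rw [mul_assoc, ← pow_succ']
    have h5 := hpow (orderOf g)
    rw [pow_orderOf_eq_one, inv_one, one_mul, mul_one] at h5
    have h6 : (x * (g * x * g⁻¹)) ^ orderOf g = 1 := by
      have h7 : x * 1 = x * (x * (g * x * g⁻¹)) ^ orderOf g := by rw [mul_one]; exact h5
      exact (mul_left_cancel h7).symm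
    have h7 : orderOf (x * (g * x * g⁻¹)) ∣ orderOf g := orderOf_dvd_of_pow_eq_one h6
    obtain ⟨j, hj⟩ := hS2 ⟨x * (g * x * g⁻¹), hQS hcQ⟩
    have hj' : (x * (g * x * g⁻¹)) ^ 2 ^ j = 1 := by
      have := congrArg Subtype.val hj
      rwa [Subgroup.coe_pow, Subgroup.coe_one] at this
    have h8 : orderOf (x * (g * x * g⁻¹)) ∣ 2 ^ j := orderOf_dvd_of_pow_eq_one hj'
    have h9 : orderOf (x * (g * x * g⁻¹)) = 1 :=
      Nat.Coprime.eq_one_of_dvd (Nat.Coprime.coprime_dvd_left h7 (Nat.Coprime.pow_right j hodd)) h8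
    have h10 : x * (g * x * g⁻¹) = 1 := orderOf_eq_one_iff.mp h9
    have h11 : g * x * g⁻¹ = x := by
      have := eq_inv_of_mul_eq_one_right h10
      rw [this, hxinv]
    calc x * g = g * x * g⁻¹ * g := by rw [h11]
      _ = g * x := by group

/-- Let X be a finite group whose Sylow 2-subgroup S is dihedral (of order at least 4). Then X has a normal 2-complement if and only if, for every Klein four-subgroup U ≤ S, the normalizer N_X(U) is generated by C_X(U) and N_S(U). -/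
theorem result {X : Type*} [Group X] [Finite X] (S : Sylow 2 X) (m : ℕ) (hm : 2 ≤ m) (eS : (S : Subgroup X) ≃* DihedralGroup m) : Cfsg.HasNormalPComplement 2 X ↔ ∀ U : Subgroup X, U ≤ S → IsKleinFour U → Subgroup.normalizer (U : Set X) = Subgroup.centralizer (U : Set X) ⊔ ((S : Subgroup X) ⊓ Subgroup.normalizer (U : Set X)) := by
  constructor
  · intro hc U hUS _
    exact normalizer_eq_of_complement S hc U hUS
  · intro h
    have hF2 : Fact (Nat.Prime 2) := ⟨Nat.prime_two⟩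
    obtain ⟨N, hN1, hN2⟩ := (Cfsg.Agent.S0071.result S).mpr
      (fun Q hQS g hg hodd => frob_of_four S m eS h Q hQS g hg hodd)
    exact ⟨S, N, hN1, hN2⟩

end Cfsg.Agent.S1254
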