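import Cfsg.Statements.S1256
import Cfsg.Agent.Lib.Helper10.DihFour

set_option autoImplicit false
open Cfsg

namespace Cfsg.Agent.S1256

open Cfsg.Agent.Lib.Helper10 in
/-- Let X be a finite group whose Sylow 2-subgroup S is dihedral of order 2m ≥ 4. If |S| = 4, any two Klein four-subgroups of X are conjugate; if |S| > 4, there are Klein four-subgroups U₁, U₂ of X that are not conjugate, and every Klein four-subgroup of X is conjugate to U₁ or to U₂. -/
theorem result {X : Type*} [Group X] [Finite X] (S : Sylow 2 X) (m : ℕ) (hm : 2 ≤ m) (eS : (S : Subgroup X) ≃* DihedralGroup m) : (Nat.card S = 4 → ∀ U V : Subgroup X, IsKleinFour U → IsKleinFour V → (∃ x : X, U.map (MulAut.conj x).toMonoidHom = V)) ∧ (4 < Nat.card S → ∃ U₁ U₂ : Subgroup X, IsKleinFour U₁ ∧ IsKleinFour U₂ ∧ ¬ (∃ x : X, U₁.map (MulAut.conj x).toMonoidHom = U₂) ∧ ∀ V : Subgroup X, IsKleinFour V → (∃ x : X, V.map (MulAut.conj x).toMonoidHom = U₁) ∨ (∃ x : X, V.map (MulAut.conj x).toMonoidHom = U₂)) := by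
  have : Fact (Nat.Prime 2) := ⟨Nat.prime_two⟩
  constructor
  · intro h4 U V hU hV
    have key : ∀ W : Subgroup X, IsKleinFour W →
        ∃ g : X, W.map (MulAut.conj g).toMonoidHom = (S : Subgroup X) := by
      intro W hW
      have hW2 : IsPGroup 2 W := IsPGroup.of_card (n := 2) (by rw [hW.card_four]; norm_num)
      obtain ⟨g, hg⟩ := exists_conj_mem_sylow S W hW2
      exact ⟨g⁻¹, DihFour.conj_eq_of_card W _ g⁻¹
        (by intro u hu; rw [inv_inv]; exact hg u hu) (by rw [h4, hW.card_four])⟩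
    obtain ⟨a, ha⟩ := key U hU
    obtain ⟨b, hb⟩ := key V hV
    refine ⟨b⁻¹ * a, ?_⟩
    rw [← DihFour.map_conj_mul, ha, ← hb, DihFour.map_conj_mul, inv_mul_cancel]
    ext k
    rw [DihFour.mem_map_conj]
    simp
  · intro h4
    have hcard : Nat.card (S : Subgroup X) = 2 * m := by
      rw [Nat.card_congr eS.toEquiv, DihedralGroup.nat_card]
    obtain ⟨k, hk⟩ := S.isPGroup'.exists_card_eq
    have hq : ∃ q, m = 4 * q ∧ 1 ≤ q := by
      rw [hcard] at hk h4
      have hk3 : 3 ≤ k := by
        by_contra hlt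
        push Not at hlt
        have h5 : 2 ^ k ≤ 2 ^ 2 := Nat.pow_le_pow_right (by norm_num) (by omega)
        omega
      refine ⟨2 ^ (k - 3), ?_, Nat.one_le_two_pow⟩
      have e : 2 ^ k = 8 * 2 ^ (k - 3) := by
        rw [show (8 : ℕ) = 2 ^ 3 by norm_num, ← pow_add]; congr 1; omega
      omega
    obtain ⟨q, hmq, hq⟩ := hq
    have hne : NeZero m := ⟨by omega⟩
    obtain ⟨μ, ν, hz⟩ := DihFour.exists_zd m q hmq hq
    obtain ⟨ι, hι⟩ := DihFour.exists_emb (S : Subgroup X) m eS
    obtain ⟨U₁, hK₁, hU₁⟩ := DihFour.exists_U hι hz 0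
    obtain ⟨U₂, hK₂, hU₂⟩ := DihFour.exists_U hι hz 1
    refine ⟨U₁, U₂, hK₁, hK₂, ?_, ?_⟩
    · rintro ⟨x, hx⟩
      obtain ⟨x', hx', hρ⟩ := DihFour.sylow_step S hι hz hU₁ hK₂ hU₂ x hx
      have hs₀ : x' * ι (DihedralGroup.sr 0) * x'⁻¹ ∈ U₂ := by
        rw [← hx', DihFour.mem_map_conj]
        have e : x'⁻¹ * (x' * ι (DihedralGroup.sr 0) * x'⁻¹) * x' = ι (DihedralGroup.sr 0) := by
          group
        rw [e]; exact (hU₁ _).mpr (Or.inr (Or.inr (Or.inl rfl)))
      have hzinv : (ι (DihedralGroup.r μ))⁻¹ = ι (DihedralGroup.r μ) := by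
        rw [← map_inv, DihedralGroup.inv_r, hz.neg_mu]
      have hz₀ : x' * ι (DihedralGroup.r μ) * x'⁻¹ = ι (DihedralGroup.r μ) := by
        have e : ι (DihedralGroup.r μ) = ι (DihedralGroup.r ν) * ι (DihedralGroup.r ν) := by
          rw [← map_mul, DihedralGroup.r_mul_r, hz.nn]
        have e2 : x' * (ι (DihedralGroup.r ν) * ι (DihedralGroup.r ν)) * x'⁻¹ =
            (x' * ι (DihedralGroup.r ν) * x'⁻¹) * (x' * ι (DihedralGroup.r ν) * x'⁻¹) := by
          group
        rcases hρ with h | h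
        · calc x' * ι (DihedralGroup.r μ) * x'⁻¹
              = (x' * ι (DihedralGroup.r ν) * x'⁻¹) * (x' * ι (DihedralGroup.r ν) * x'⁻¹) := by
                rw [e, e2]
            _ = ι (DihedralGroup.r μ) := by rw [h, ← e]
        · calc x' * ι (DihedralGroup.r μ) * x'⁻¹
              = (x' * ι (DihedralGroup.r ν) * x'⁻¹) * (x' * ι (DihedralGroup.r ν) * x'⁻¹) := by
                rw [e, e2]
            _ = (ι (DihedralGroup.r ν) * ι (DihedralGroup.r ν))⁻¹ := by rw [h, mul_inv_rev]
            _ = ι (DihedralGroup.r μ) := by rw [← e, hzinv]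
      have hcases : x' * ι (DihedralGroup.sr 0) * x'⁻¹ = ι (DihedralGroup.sr 1) ∨
          x' * ι (DihedralGroup.sr 0) * x'⁻¹ = ι (DihedralGroup.sr (1 - μ)) := by
        rcases (hU₂ _).mp hs₀ with h | h | h | h
        · exfalso
          have h1 : ι (DihedralGroup.sr 0) = 1 := by
            have e : ι (DihedralGroup.sr 0) =
                x'⁻¹ * (x' * ι (DihedralGroup.sr 0) * x'⁻¹) * x' := by group
            rw [e, h]; group
          exact hι.sr_ne_one 0 h1
        · exfalso
          rw [← hz₀] at h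
          have h1 : ι (DihedralGroup.sr 0) = ι (DihedralGroup.r μ) :=
            mul_left_cancel (mul_right_cancel h)
          exact hι.sr_ne_r 0 μ h1
        · left; exact h
        · right; exact h
      rcases hρ with h | h
      · exact DihFour.no_conj S hι hz x' h hcases
      · apply DihFour.no_conj S hι hz (x' * ι (DihedralGroup.sr 0))
        · have hinv : ι (DihedralGroup.sr 0) * ι (DihedralGroup.r ν) *
              (ι (DihedralGroup.sr 0))⁻¹ = (ι (DihedralGroup.r ν))⁻¹ := by
            rw [← map_inv, ← map_inv, DihedralGroup.inv_sr, DihedralGroup.inv_r, ← map_mul,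
              ← map_mul, DihedralGroup.sr_mul_r, DihedralGroup.sr_mul_sr]
            congr 2; ring
          have e : x' * ι (DihedralGroup.sr 0) * ι (DihedralGroup.r ν) *
              (x' * ι (DihedralGroup.sr 0))⁻¹ =
              x' * (ι (DihedralGroup.sr 0) * ι (DihedralGroup.r ν) *
                (ι (DihedralGroup.sr 0))⁻¹) * x'⁻¹ := by group
          rw [e, hinv]
          have e2 : x' * (ι (DihedralGroup.r ν))⁻¹ * x'⁻¹ =
              (x' * ι (DihedralGroup.r ν) * x'⁻¹)⁻¹ := by group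
          rw [e2, h, inv_inv]
        · have e : x' * ι (DihedralGroup.sr 0) * ι (DihedralGroup.sr 0) *
              (x' * ι (DihedralGroup.sr 0))⁻¹ = x' * ι (DihedralGroup.sr 0) * x'⁻¹ := by group
          rw [e]; exact hcases
    · intro V hV
      have hV2 : IsPGroup 2 V := IsPGroup.of_card (n := 2) (by rw [hV.card_four]; norm_num)
      obtain ⟨g, hg⟩ := exists_conj_mem_sylow S V hV2
      obtain ⟨i, U, hK, hU, hmap⟩ := DihFour.klein_in_S hι hz V hV g⁻¹
        (by intro v hv; rw [inv_inv]; exact hg v hv)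
      obtain ⟨j, hj | hj⟩ := hz.par i
      · left
        have hU0 : DihFour.IsU ι μ (i - j - j) U₁ := by
          have e : i - j - j = 0 := by linear_combination hj
          rw [e]; exact hU₁
        refine ⟨ι (DihedralGroup.r j) * g⁻¹, ?_⟩
        rw [← DihFour.map_conj_mul, hmap]
        exact DihFour.conj_rot hz hU hU0 hK hK₁
      · right
        have hU1 : DihFour.IsU ι μ (i - j - j) U₂ := by
          have e : i - j - j = 1 := by linear_combination hj
          rw [e]; exact hU₂
        refine ⟨ι (DihedralGroup.r j) * g⁻¹, ?_⟩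
        rw [← DihFour.map_conj_mul, hmap]
        exact DihFour.conj_rot hz hU hU1 hK hK₂

end Cfsg.Agent.S1256
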