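import Cfsg.Statements.S1258
import Cfsg.Agent.Lib.Helper11.Bender

set_option autoImplicit false
open Cfsg

namespace Cfsg.Agent.S1258

open scoped commutatorElement in
theorem comm_le_of_sup_center {X : Type*} [Group X] (A : Subgroup X)
    (h : A ⊔ Subgroup.center X = ⊤) : commutator X ≤ ⁅A, A⁆ := by
  rw [commutator_def, Subgroup.commutator_le]
  intro g _ k _
  have hg : g ∈ ((A ⊔ Subgroup.center X : Subgroup X) : Set X) := by rw [h]; trivial
  have hk : k ∈ ((A ⊔ Subgroup.center X : Subgroup X) : Set X) := by rw [h]; trivial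
  rw [Subgroup.mul_normal] at hg hk
  obtain ⟨a, ha, z, hz, rfl⟩ := hg
  obtain ⟨b, hb, z', hz', rfl⟩ := hk
  have hz1 : ∀ y : X, y * z = z * y := fun y => Subgroup.mem_center_iff.1 hz y
  have hz2 : ∀ y : X, y * z' = z' * y := fun y => Subgroup.mem_center_iff.1 hz' y
  have e : ⁅a * z, b * z'⁆ = ⁅a, b⁆ := by
    rw [Cfsg.Agent.Lib.Helper11.commElem_mul_central a z (b * z') hz1]
    rw [commutatorElement_def, commutatorElement_def]
    have : z' * a⁻¹ * z'⁻¹ = a⁻¹ := by rw [← hz2 a⁻¹, mul_inv_cancel_right]
    calc a * (b * z') * a⁻¹ * (b * z')⁻¹ = a * b * (z' * a⁻¹ * z'⁻¹) * b⁻¹ := by group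
      _ = a * b * a⁻¹ * b⁻¹ := by rw [this]
  rw [e]
  exact Subgroup.commutator_mem_commutator ha hb

/-- If the central quotient of a finite group X is non-abelian simple, then X = X' Z(X) and the commutator subgroup X' is quasisimple. -/
theorem result {X : Type*} [Group X] [Finite X] (hs : IsSimpleGroup (X ⧸ Subgroup.center X)) (hna : ¬ IsMulCommutative (X ⧸ Subgroup.center X)) : commutator X ⊔ Subgroup.center X = ⊤ ∧ Cfsg.IsQuasisimple ↥(commutator X) := by
  have hπ := QuotientGroup.mk'_surjective (Subgroup.center X)
  -- commutator of the quotient is top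
  have hcq : commutator (X ⧸ Subgroup.center X) = ⊤ := by
    have hn : (commutator (X ⧸ Subgroup.center X)).Normal := inferInstance
    rcases hn.eq_bot_or_eq_top with h | h
    · exfalso
      apply hna
      rw [commutator_eq_bot_iff_center_eq_top] at h
      refine ⟨⟨fun a b => ?_⟩⟩
      have ha : a ∈ Subgroup.center (X ⧸ Subgroup.center X) := by rw [h]; trivial
      exact (Subgroup.mem_center_iff.1 ha b).symm
    · exact h
  have h1 : commutator X ⊔ Subgroup.center X = ⊤ := by
    have hm : (commutator X).map (QuotientGroup.mk' (Subgroup.center X)) = ⊤ := by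
      rw [commutator_def, Subgroup.map_commutator, Subgroup.map_top_of_surjective _ hπ, ← commutator_def, hcq]
    have := Subgroup.comap_map_eq (QuotientGroup.mk' (Subgroup.center X)) (commutator X)
    rw [hm, Subgroup.comap_top, QuotientGroup.ker_mk'] at this
    exact this.symm
  refine ⟨h1, ?_⟩
  have hperf : ⁅commutator X, commutator X⁆ = commutator X :=
    le_antisymm (Subgroup.commutator_le_left _ _) (comm_le_of_sup_center _ h1)
  apply Cfsg.Agent.Lib.Helper11.qs_of_normal_central
  · exact (Subgroup.isPerfect_iff.mpr hperf).commutator_eq_top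
  · rw [Subgroup.nontrivial_iff_ne_bot]
    intro hbot
    rw [hbot, bot_sup_eq] at h1
    have : Nontrivial (X ⧸ Subgroup.center X) := hs.toNontrivial
    rw [QuotientGroup.nontrivial_iff] at this
    exact this h1
  · intro N hN hne
    set N₀ := N.map (commutator X).subtype with hN₀
    have hN₀le : N₀ ≤ commutator X := Subgroup.map_subtype_le N
    have hsub : N₀.subgroupOf (commutator X) = N :=
      Subgroup.comap_map_eq_self_of_injective (commutator X).subtype_injective N
    -- N₀ is normal in X
    have hN₀n : N₀.Normal := by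
      have h2 : commutator X ≤ Subgroup.normalizer (N₀ : Set X) := by
        rw [← Subgroup.normal_subgroupOf_iff_le_normalizer hN₀le, hsub]; exact hN
      have h3 : Subgroup.center X ≤ Subgroup.normalizer (N₀ : Set X) :=
        (Subgroup.center_le_centralizer _).trans (Subgroup.centralizer_le_normalizer _)
      have h4 : Subgroup.normalizer (N₀ : Set X) = ⊤ := by
        rw [eq_top_iff, ← h1]; exact sup_le h2 h3
      exact Subgroup.normalizer_eq_top_iff.1 h4
    have himg : (N₀.map (QuotientGroup.mk' (Subgroup.center X))).Normal := hN₀n.map _ hπ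
    rcases himg.eq_bot_or_eq_top with h | h
    · rw [Subgroup.map_eq_bot_iff, QuotientGroup.ker_mk'] at h
      intro x hx
      rw [Subgroup.mem_center_iff]
      intro g
      have hx' : (x : X) ∈ Subgroup.center X := h ⟨x, hx, rfl⟩
      exact Subtype.ext (Subgroup.mem_center_iff.1 hx' g)
    · exfalso
      apply hne
      have h5 : N₀ ⊔ Subgroup.center X = ⊤ := by
        have := Subgroup.comap_map_eq (QuotientGroup.mk' (Subgroup.center X)) N₀
        rw [h, Subgroup.comap_top, QuotientGroup.ker_mk'] at this
        exact this.symm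
      have h6 : commutator X ≤ N₀ :=
        (comm_le_of_sup_center _ h5).trans (Subgroup.commutator_le_left _ _)
      rw [← hsub, Subgroup.subgroupOf_eq_top]
      exact h6

end Cfsg.Agent.S1258
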