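import Cfsg.Statements.S1263
import Cfsg.Agent.Lib.Helper11.Bender

set_option autoImplicit false
open Cfsg

namespace Cfsg.Agent.S1263

open Cfsg.Agent.Lib.Helper11 in
theorem key {G : Type*} [Group G] [Finite G] (T : Finset (Subgroup G)) :
    (∀ K ∈ T, Cfsg.IsComponent K) → ∀ z : G, z ∈ T.sup id →
      (∀ K ∈ T, K ≤ Subgroup.centralizer ({z} : Set G)) →
      z ∈ T.sup (fun K => K ⊓ Subgroup.centralizer (K : Set G)) := by
  classical
  induction T using Finset.induction_on with
  | empty =>
    intro _ z hz _
    simpa using hz
  | insert L T hL ih =>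
    intro hcomp z hz hcent
    rw [Finset.sup_insert] at hz ⊢
    have hLc : Cfsg.IsComponent L := hcomp L (Finset.mem_insert_self L T)
    have hTc : ∀ K ∈ T, Cfsg.IsComponent K := fun K hK => hcomp K (Finset.mem_insert_of_mem hK)
    -- the join of T centralizes L
    have hcomm : ∀ K ∈ T, K ≤ Subgroup.centralizer (L : Set G) := by
      intro K hK
      have hne : K ≠ L := by rintro rfl; exact hL hK
      have := components_comm (hTc K hK) hLc hne
      rwa [Subgroup.commutator_eq_bot_iff_le_centralizer] at this
    have hTL : T.sup id ≤ Subgroup.centralizer (L : Set G) := Finset.sup_le hcomm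
    have hmem : z ∈ ((T.sup id ⊔ L : Subgroup G) : Set G) := by
      have : id L ⊔ T.sup id = T.sup id ⊔ L := sup_comm _ _
      rw [← this]; exact hz
    rw [Subgroup.coe_mul_of_left_le_normalizer_right _ _
      (hTL.trans (Subgroup.centralizer_le_normalizer _))] at hmem
    obtain ⟨e, he, l, hl, rfl⟩ := hmem
    have he' : e ∈ T.sup id := he
    have hl' : l ∈ L := hl
    -- e commutes with L
    have heL : ∀ x ∈ L, x * e = e * x := fun x hx => Subgroup.mem_centralizer_iff.1 (hTL he') x hx
    -- l centralizes L
    have hlc : l ∈ Subgroup.centralizer (L : Set G) := by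
      rw [Subgroup.mem_centralizer_iff]
      intro x hx
      have h1 : x ∈ Subgroup.centralizer ({e * l} : Set G) := hcent L (Finset.mem_insert_self L T) hx
      have h2 : (e * l) * x = x * (e * l) := Subgroup.mem_centralizer_iff.1 h1 _ (Set.mem_singleton _)
      have h3 := heL x hx
      have : e * (l * x) = e * (x * l) := by
        calc e * (l * x) = (e * l) * x := by group
          _ = x * (e * l) := h2
          _ = (x * e) * l := by group
          _ = (e * x) * l := by rw [h3]
          _ = e * (x * l) := by group
      exact (mul_left_cancel this).symm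
    -- e centralizes every K in T
    have hec : ∀ K ∈ T, K ≤ Subgroup.centralizer ({e} : Set G) := by
      intro K hK y hy
      rw [Subgroup.mem_centralizer_iff]
      intro w hw
      rw [Set.mem_singleton_iff] at hw
      subst hw
      have h1 : y ∈ Subgroup.centralizer ({w * l} : Set G) := hcent K (Finset.mem_insert_of_mem hK) hy
      have h2 : (w * l) * y = y * (w * l) := Subgroup.mem_centralizer_iff.1 h1 _ (Set.mem_singleton _)
      have h3 : y * l = l * y := by
        have := hcomm K hK hy
        exact (Subgroup.mem_centralizer_iff.1 this l hl').symm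
      have : (w * y) * l = (y * w) * l := by
        calc (w * y) * l = w * (y * l) := by group
          _ = w * (l * y) := by rw [h3]
          _ = (w * l) * y := by group
          _ = y * (w * l) := h2
          _ = (y * w) * l := by group
      exact mul_right_cancel this
    have h4 := ih hTc e he' hec
    exact Subgroup.mul_mem _ (Subgroup.mem_sup_right h4) (Subgroup.mem_sup_left ⟨hl', hlc⟩)

/-- For a finite group G, Z(E(G)) is the subgroup generated by the centres Z(L) of the components L of G (all viewed as subgroups of G). -/
theorem result {G : Type*} [Group G] [Finite G] : (Subgroup.center ↥(Cfsg.layer G)).map (Cfsg.layer G).subtype = ⨆ L : {K : Subgroup G // Cfsg.IsComponent K}, (Subgroup.center ↥(L : Subgroup G)).map (L : Subgroup G).subtype := by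
  classical
  rw [Cfsg.Agent.Lib.Helper11.map_center_subtype]
  have hfin : Set.Finite {K : Subgroup G | Cfsg.IsComponent K} := Set.toFinite _
  set T := hfin.toFinset with hT
  have hTmem : ∀ K, K ∈ T ↔ Cfsg.IsComponent K := by
    intro K; rw [hT, Set.Finite.mem_toFinset]; rfl
  have hE : Cfsg.layer G = T.sup id := by
    rw [Finset.sup_id_eq_sSup, hT, Set.Finite.coe_toFinset]; rfl
  apply le_antisymm
  · intro z hz
    obtain ⟨hzE, hzC⟩ := hz
    have h1 : z ∈ T.sup id := by rw [← hE]; exact hzE
    have h2 : ∀ K ∈ T, K ≤ Subgroup.centralizer ({z} : Set G) := by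
      intro K hK y hy
      rw [Subgroup.mem_centralizer_iff]
      intro w hw
      rw [Set.mem_singleton_iff] at hw
      subst hw
      have hyE : y ∈ Cfsg.layer G := Cfsg.Agent.Lib.Helper11.component_le_layer ((hTmem K).1 hK) hy
      exact (Subgroup.mem_centralizer_iff.1 hzC y hyE).symm
    have h3 := key T (fun K hK => (hTmem K).1 hK) z h1 h2
    have h4 : T.sup (fun K => K ⊓ Subgroup.centralizer (K : Set G)) ≤
        ⨆ L : {K : Subgroup G // Cfsg.IsComponent K}, (Subgroup.center ↥(L : Subgroup G)).map (L : Subgroup G).subtype := by
      apply Finset.sup_le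
      intro K hK
      have := le_iSup (fun L : {K : Subgroup G // Cfsg.IsComponent K} => (Subgroup.center ↥(L : Subgroup G)).map (L : Subgroup G).subtype) ⟨K, (hTmem K).1 hK⟩
      rw [Cfsg.Agent.Lib.Helper11.map_center_subtype] at this
      exact this
    exact h4 h3
  · apply iSup_le
    rintro ⟨L, hL⟩
    rw [Cfsg.Agent.Lib.Helper11.map_center_subtype]
    intro z hz
    obtain ⟨hzL, hzC⟩ := hz
    have hzL' : z ∈ L := hzL
    have hzC' : z ∈ Subgroup.centralizer (L : Set G) := hzC
    -- the layer centralizes z
    have h1 : Cfsg.layer G ≤ Subgroup.centralizer ({z} : Set G) := by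
      apply sSup_le
      intro K hK
      by_cases hKL : K = L
      · subst hKL
        intro y hy
        rw [Subgroup.mem_centralizer_iff]
        intro w hw
        rw [Set.mem_singleton_iff] at hw
        subst hw
        exact (Subgroup.mem_centralizer_iff.1 hzC' y hy).symm
      · have hc := Cfsg.Agent.Lib.Helper11.components_comm hK hL hKL
        rw [Subgroup.commutator_eq_bot_iff_le_centralizer] at hc
        intro y hy
        rw [Subgroup.mem_centralizer_iff]
        intro w hw
        rw [Set.mem_singleton_iff] at hw
        subst hw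
        exact Subgroup.mem_centralizer_iff.1 (hc hy) w hzL'
    have h2 : z ∈ Subgroup.centralizer ((Cfsg.layer G : Subgroup G) : Set G) := by
      rw [Subgroup.mem_centralizer_iff]
      intro e he
      have := h1 he
      exact (Subgroup.mem_centralizer_iff.1 this z (Set.mem_singleton z)).symm
    exact ⟨Cfsg.Agent.Lib.Helper11.component_le_layer hL hzL', h2⟩

end Cfsg.Agent.S1263
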