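import Cfsg.Statements.S1267
import Cfsg.Agent.Lib.Helper10.LBal

set_option autoImplicit false
open Cfsg

namespace Cfsg.Agent.S1267

/-- Let G be finite and P ≤ O_p(G). Then E(N_G(P)) = E(G). -/
theorem result {G : Type*} [Group G] [Finite G] (p : ℕ) [Fact p.Prime] (P : Subgroup G) (hP : P ≤ Cfsg.pCore p G) : (Cfsg.layer ↥(Subgroup.normalizer ((P : Subgroup G) : Set G))).map (Subgroup.normalizer ((P : Subgroup G) : Set G)).subtype = Cfsg.layer G := by
  haveI hUn := Cfsg.Agent.Lib.Helper1.pCore_normal (G := G) p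
  have hUp : IsPGroup p (Cfsg.pCore p G) := Cfsg.Agent.Lib.Helper1.pCore_isPGroup p
  have hPp : IsPGroup p P := hUp.to_le hP
  have hN : Subgroup.normalizer (P : Set G) ≤ Subgroup.normalizer ((Cfsg.pCore p G : Subgroup G) : Set G) := by
    rw [Subgroup.normalizer_eq_top (Cfsg.pCore p G)]
    exact le_top
  have hY := Cfsg.Agent.Lib.Helper10.comap_layer_normalizer_le_centralizer p P hPp hN hUp
  have hCN : Subgroup.centralizer ((Cfsg.pCore p G : Subgroup G) : Set G) ≤ Subgroup.normalizer (P : Set G) :=
    (Subgroup.centralizer_le (SetLike.coe_subset_coe.2 hP)).trans (Subgroup.centralizer_le_normalizer _)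
  have hCn : (Subgroup.centralizer ((Cfsg.pCore p G : Subgroup G) : Set G)).Normal :=
    Subgroup.normal_centralizer
  apply le_antisymm
  · rw [Subgroup.map_le_iff_le_comap]
    unfold Cfsg.layer
    apply sSup_le
    intro J hJ
    rw [← Subgroup.map_le_iff_le_comap]
    apply le_sSup
    have hle : J ≤
        (Cfsg.layer (↥(Subgroup.normalizer (P : Set G)) ⧸
          Cfsg.pPrimeCore p ↥(Subgroup.normalizer (P : Set G)))).comap
        (QuotientGroup.mk' (Cfsg.pPrimeCore p ↥(Subgroup.normalizer (P : Set G)))) :=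
      Subgroup.map_le_iff_le_comap.1 (Cfsg.Agent.Lib.Helper10.map_component_le_layer p hJ)
    have hJC : J.map (Subgroup.normalizer (P : Set G)).subtype ≤
        Subgroup.centralizer ((Cfsg.pCore p G : Subgroup G) : Set G) := (Subgroup.map_mono hle).trans hY
    refine ⟨?_, Cfsg.Agent.Lib.Helper11.qs_of_mulEquiv
      (J.equivMapOfInjective _ (Subgroup.subtype_injective _)) hJ.2⟩
    have h1 : (J.comap (Subgroup.inclusion hCN)).IsSubnormal := hJ.1.comap _
    have h2 := h1.trans' hCn.isSubnormal
    have h3 : (J.comap (Subgroup.inclusion hCN)).map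
        (Subgroup.centralizer ((Cfsg.pCore p G : Subgroup G) : Set G)).subtype =
        J.map (Subgroup.normalizer (P : Set G)).subtype := by
      ext x
      constructor
      · rintro ⟨y, hy, rfl⟩
        exact ⟨Subgroup.inclusion hCN y, hy, rfl⟩
      · intro hx
        have hxC := hJC hx
        obtain ⟨y, hy, rfl⟩ := hx
        refine ⟨⟨(y : G), hxC⟩, ?_, rfl⟩
        show Subgroup.inclusion hCN ⟨(y : G), hxC⟩ ∈ J
        have : Subgroup.inclusion hCN ⟨(y : G), hxC⟩ = y := Subtype.ext rfl
        rw [this]; exact hy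
    rw [h3] at h2
    exact h2
  · unfold Cfsg.layer
    apply sSup_le
    intro L hL
    have : Group.IsNilpotent (Cfsg.pCore p G) := hUp.isNilpotent
    have hcomm := Cfsg.Agent.Lib.Helper11.component_comm_solvable_subnormal hL hUn.isSubnormal inferInstance
    rw [Subgroup.commutator_eq_bot_iff_le_centralizer] at hcomm
    have hLN : L ≤ Subgroup.normalizer (P : Set G) := hcomm.trans hCN
    have h1 := Cfsg.Agent.Lib.Helper11.component_subgroupOf hL hLN
    have h2 : (L.subgroupOf (Subgroup.normalizer (P : Set G))).map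
        (Subgroup.normalizer (P : Set G)).subtype = L := by
      rw [Subgroup.subgroupOf_map_subtype, inf_eq_left.2 hLN]
    rw [← h2]
    exact Subgroup.map_mono (le_sSup h1)

end Cfsg.Agent.S1267
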