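import Cfsg.Statements.S1268
import Cfsg.Agent.Lib.Helper10.LBal
import Cfsg.Agent.Lib.Helper11.PConstrained

set_option autoImplicit false
open Cfsg

namespace Cfsg.Agent.S1268

/-- Let G be finite with F*(G) = O_p(G). Then F*(N) = O_p(N) for N the normalizer of any p-subgroup P of G. -/
theorem result {G : Type*} [Group G] [Finite G] (p : ℕ) [Fact p.Prime] (h : Cfsg.generalizedFittingSubgroup G = Cfsg.pCore p G) (P : Subgroup G) (hP : IsPGroup p ↥P) : Cfsg.generalizedFittingSubgroup ↥(Subgroup.normalizer ((P : Subgroup G) : Set G)) = Cfsg.pCore p ↥(Subgroup.normalizer ((P : Subgroup G) : Set G)) := by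
  haveI := Cfsg.Agent.Lib.Helper1.pCore_normal (G := G) p
  have hUp : IsPGroup p (Cfsg.pCore p G) := Cfsg.Agent.Lib.Helper1.pCore_isPGroup p
  have hN : Subgroup.normalizer (P : Set G) ≤ Subgroup.normalizer ((Cfsg.pCore p G : Subgroup G) : Set G) := by
    rw [Subgroup.normalizer_eq_top (Cfsg.pCore p G)]
    exact le_top
  have hY := Cfsg.Agent.Lib.Helper10.comap_layer_normalizer_le_centralizer p P hP hN hUp
  have hCU : Subgroup.centralizer ((Cfsg.pCore p G : Subgroup G) : Set G) ≤ Cfsg.pCore p G := by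
    have := Cfsg.Agent.Lib.Helper11.centralizer_genFitting_le (G := G)
    rw [h] at this
    exact this
  have hY2 := hY.trans hCU
  -- the core is trivial
  have hO : Cfsg.pPrimeCore p ↥(Subgroup.normalizer (P : Set G)) = ⊥ := by
    have hle : Cfsg.pPrimeCore p ↥(Subgroup.normalizer (P : Set G)) ≤
        (Cfsg.layer (↥(Subgroup.normalizer (P : Set G)) ⧸
          Cfsg.pPrimeCore p ↥(Subgroup.normalizer (P : Set G)))).comap
        (QuotientGroup.mk' (Cfsg.pPrimeCore p ↥(Subgroup.normalizer (P : Set G)))) := by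
      intro x hx
      rw [Subgroup.mem_comap]
      have : QuotientGroup.mk' (Cfsg.pPrimeCore p ↥(Subgroup.normalizer (P : Set G))) x = 1 :=
        (QuotientGroup.eq_one_iff x).2 hx
      rw [this]; exact Subgroup.one_mem _
    have hp1 : IsPGroup p ((Cfsg.pPrimeCore p ↥(Subgroup.normalizer (P : Set G))).map
        (Subgroup.normalizer (P : Set G)).subtype) :=
      hUp.to_le ((Subgroup.map_mono hle).trans hY2)
    have hp2 : IsPGroup p (Cfsg.pPrimeCore p ↥(Subgroup.normalizer (P : Set G))) :=
      hp1.of_equiv ((Cfsg.pPrimeCore p ↥(Subgroup.normalizer (P : Set G))).equivMapOfInjective _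
        (Subgroup.subtype_injective _)).symm
    obtain ⟨k, hk⟩ := IsPGroup.iff_card.mp hp2
    have hcop := Cfsg.Agent.Lib.Helper14.pPrimeCore_coprime (G := ↥(Subgroup.normalizer (P : Set G))) p
    rw [hk] at hcop
    apply Subgroup.eq_bot_of_card_eq
    rw [hk]
    rcases Nat.eq_zero_or_pos k with h0 | h0
    · rw [h0, pow_zero]
    · exfalso
      have h1 : p ∣ p ^ k := dvd_pow_self p h0.ne'
      have h2 := Nat.Coprime.eq_one_of_dvd hcop.symm h1
      exact (Fact.out : p.Prime).one_lt.ne' h2
  -- no components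
  have hE : Cfsg.layer ↥(Subgroup.normalizer (P : Set G)) = ⊥ := by
    unfold Cfsg.layer
    rw [sSup_eq_bot]
    intro J hJ
    exfalso
    have hle : J ≤
        (Cfsg.layer (↥(Subgroup.normalizer (P : Set G)) ⧸
          Cfsg.pPrimeCore p ↥(Subgroup.normalizer (P : Set G)))).comap
        (QuotientGroup.mk' (Cfsg.pPrimeCore p ↥(Subgroup.normalizer (P : Set G)))) :=
      Subgroup.map_le_iff_le_comap.1 (Cfsg.Agent.Lib.Helper10.map_component_le_layer p hJ)
    have hp1 : IsPGroup p (J.map (Subgroup.normalizer (P : Set G)).subtype) :=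
      hUp.to_le ((Subgroup.map_mono hle).trans hY2)
    have hp2 : IsPGroup p J :=
      hp1.of_equiv (J.equivMapOfInjective _ (Subgroup.subtype_injective _)).symm
    haveI : Group.IsNilpotent J := hp2.isNilpotent
    exact Cfsg.Agent.Lib.Helper11.qs_not_solvable hJ.2 inferInstance
  unfold Cfsg.generalizedFittingSubgroup
  rw [hE, bot_sup_eq]
  exact Cfsg.Agent.Lib.Helper11.fitting_eq_pCore_of_pPrimeCore_eq_bot p hO

end Cfsg.Agent.S1268
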