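import Cfsg.Statements.S1273
import Cfsg.Agent.Lib.Helper10.PComp

set_option autoImplicit false
open Cfsg

namespace Cfsg.Agent.S1273

open Cfsg.Agent.Lib.Helper10 in
/-- Let K be a p-component of the finite group X and N a normal subgroup of K whose index in K is prime to p. Then N = K. -/
theorem result {X : Type*} [Group X] [Finite X] (p : ℕ) [Fact p.Prime] (K : Subgroup X) (hK : Cfsg.IsPComponent p K) (N : Subgroup ↥K) [N.Normal] (hidx : (N.index).Coprime p) : N = ⊤ := by
  rw [eq_top_iff]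
  have hgen := pcomp_pGen p hK
  have hle : pGen p K ≤ N.map K.subtype := by
    unfold pGen
    rw [Subgroup.closure_le]
    rintro k ⟨hkK, j, hj⟩
    refine ⟨⟨k, hkK⟩, ?_, rfl⟩
    rw [SetLike.mem_coe, ← QuotientGroup.eq_one_iff]
    have h1 : ((⟨k, hkK⟩ : K) : K ⧸ N) ^ (p ^ j) = 1 := by
      rw [← QuotientGroup.mk_pow, QuotientGroup.eq_one_iff]
      have : (⟨k, hkK⟩ : K) ^ (p ^ j) = 1 := by
        apply Subtype.ext
        simp [← hj, pow_orderOf_eq_one]
      rw [this]; exact N.one_mem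
    have h2 : ((⟨k, hkK⟩ : K) : K ⧸ N) ^ N.index = 1 := by
      rw [Subgroup.index_eq_card]; exact pow_card_eq_one'
    have h3 := orderOf_dvd_of_pow_eq_one h1
    have h4 := orderOf_dvd_of_pow_eq_one h2
    have h5 : orderOf ((⟨k, hkK⟩ : K) : K ⧸ N) = 1 :=
      Nat.eq_one_of_dvd_coprimes (Nat.Coprime.pow_left j hidx.symm) h3 h4
    exact orderOf_eq_one_iff.1 h5
  rw [hgen] at hle
  intro x _
  obtain ⟨y, hy, hyx⟩ := hle x.2
  have : y = x := Subtype.ext hyx
  rw [← this]; exact hy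

end Cfsg.Agent.S1273
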