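import Cfsg.Statements.S1276
import Cfsg.Agent.Lib.Helper10.PComp
import Cfsg.Agent.Lib.Helper11.Bender
import Cfsg.Agent.Lib.Helper14.Cores

set_option autoImplicit false
open Cfsg

namespace Cfsg.Agent.S1276

theorem qs_iff_aux {X : Type*} [Group X] [Finite X] (K : Subgroup X) (hK : Cfsg.IsPComponent 2 K) :
    Cfsg.IsQuasisimple ↥K ↔ ⁅K, ((Cfsg.pPrimeCore 2 ↥K).map K.subtype)⁆ = ⊥ := by
  haveI : Fact (Nat.Prime 2) := ⟨Nat.prime_two⟩
  have hdvd : 2 ∣ Nat.card K := Cfsg.Agent.Lib.Helper10.pcomp_dvd 2 hK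
  constructor
  · intro hqs
    have hne : Cfsg.pPrimeCore 2 ↥K ≠ ⊤ := by
      intro htop
      have hcop : (Nat.card (Cfsg.pPrimeCore 2 ↥K)).Coprime 2 := Cfsg.Agent.Lib.Helper14.pPrimeCore_coprime 2
      rw [htop, Subgroup.card_top] at hcop
      have := Nat.Coprime.eq_one_of_dvd (Nat.coprime_comm.1 hcop) hdvd
      omega
    have hcen := Cfsg.Agent.Lib.Helper11.qs_normal_le_center hqs (Cfsg.pPrimeCore 2 ↥K) inferInstance hne
    rw [Subgroup.commutator_eq_bot_iff_le_centralizer]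
    intro k hk
    rw [Subgroup.mem_centralizer_iff]
    rintro c ⟨c', hc', rfl⟩
    have h1 := Subgroup.mem_center_iff.1 (hcen hc') ⟨k, hk⟩
    have h2 := congrArg (Subtype.val) h1
    simpa using h2.symm
  · intro hcomm
    obtain ⟨hsn, hcomp, hmin⟩ := hK
    have hK' : Cfsg.IsPComponent 2 K := ⟨hsn, hcomp, hmin⟩
    have hperfK : ⁅K, K⁆ = K := Cfsg.Agent.Lib.Helper10.pcomp_perfect 2 hK'
    have hperf : Group.IsPerfect ↥K := Subgroup.isPerfect_iff.mpr hperfK
    have hnt : Nontrivial ↥K := by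
      rw [← Finite.one_lt_card_iff_nontrivial]
      have : Nat.card K ≠ 0 := Nat.card_pos.ne'
      have := Nat.le_of_dvd (Nat.pos_of_ne_zero this) hdvd
      omega
    apply Cfsg.Agent.Lib.Helper11.qs_of_normal_central hperf.commutator_eq_top hnt
    intro N hN hNne
    have hN'sn : (N.map K.subtype).IsSubnormal := (Subgroup.Normal.isSubnormal hN).trans' hsn
    have hN'le : N.map K.subtype ≤ K := by
      rintro _ ⟨n, _, rfl⟩; exact n.2
    have hN'ne : N.map K.subtype ≠ K := by
      intro h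
      apply hNne
      rw [eq_top_iff]
      intro x _
      have hx : (x : X) ∈ N.map K.subtype := by rw [h]; exact x.2
      obtain ⟨n, hn, hnx⟩ := hx
      have : n = x := Subtype.ext hnx
      rw [← this]; exact hn
    have hmapne : (N.map K.subtype).map (QuotientGroup.mk' (Cfsg.pPrimeCore 2 X)) ≠
        K.map (QuotientGroup.mk' (Cfsg.pPrimeCore 2 X)) := fun h => hN'ne (hmin _ hN'sn hN'le h)
    have hbar : ⁅K.map (QuotientGroup.mk' (Cfsg.pPrimeCore 2 X)),
        (N.map K.subtype).map (QuotientGroup.mk' (Cfsg.pPrimeCore 2 X))⁆ = ⊥ := by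
      rcases Cfsg.Agent.Lib.Helper11.component_le_or_comm hcomp
          (hN'sn.map (QuotientGroup.mk'_surjective (Cfsg.pPrimeCore 2 X))) with h | h
      · exact absurd (le_antisymm (Subgroup.map_mono hN'le) h) hmapne
      · exact h
    rw [← Subgroup.map_commutator, Subgroup.map_eq_bot_iff, QuotientGroup.ker_mk'] at hbar
    have hle : ⁅K, N.map K.subtype⁆ ≤ (Cfsg.pPrimeCore 2 ↥K).map K.subtype := by
      rw [Cfsg.Agent.Lib.Helper10.pPrimeCore_map_subtype 2 hsn]
      refine le_inf hbar ?_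
      calc ⁅K, N.map K.subtype⁆ ≤ ⁅K, K⁆ := Subgroup.commutator_mono le_rfl hN'le
        _ = K := hperfK
    have htriple : ⁅⁅N.map K.subtype, K⁆, K⁆ = ⊥ := by
      rw [eq_bot_iff, ← hcomm, Subgroup.commutator_comm K ((Cfsg.pPrimeCore 2 ↥K).map K.subtype)]
      apply Subgroup.commutator_mono _ le_rfl
      rw [Subgroup.commutator_comm]; exact hle
    have hfin := Cfsg.Agent.Lib.Helper11.perfect_comm_of_triple hperfK htriple
    rw [Subgroup.commutator_eq_bot_iff_le_centralizer] at hfin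
    intro n hn
    rw [Subgroup.mem_center_iff]
    intro k
    have h1 := hfin k.2
    rw [Subgroup.mem_centralizer_iff] at h1
    have h2 := h1 (n : X) ⟨n, hn, rfl⟩
    apply Subtype.ext
    simpa using h2.symm

/-- Let K be a 2-component of the finite group X. Then K is quasisimple if and only if ⁅K, O(K)⁆ = 1. -/
theorem result {X : Type*} [Group X] [Finite X] (K : Subgroup X) (hK : Cfsg.IsPComponent 2 K) : Cfsg.IsQuasisimple ↥K ↔ ⁅K, ((Cfsg.oddCore ↥K).map K.subtype)⁆ = ⊥ := by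
  exact qs_iff_aux K hK

end Cfsg.Agent.S1276
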