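import Cfsg.Statements.S1277
import Cfsg.Agent.Lib.Helper10.QS

set_option autoImplicit false
open Cfsg

namespace Cfsg.Agent.S1277

/-- For a finite group X with core O(X): the image of E(X) in X / O(X) is all of E(X / O(X)) if and only if every 2-component of X is a component, i.e. L_{2'}(X) ≤ E(X). -/
theorem result {X : Type*} [Group X] [Finite X] : (Cfsg.layer X).map (QuotientGroup.mk' (Cfsg.oddCore X)) = Cfsg.layer (X ⧸ Cfsg.oddCore X) ↔ Cfsg.pLayer 2 X ≤ Cfsg.layer X := by
  haveI : Fact (Nat.Prime 2) := ⟨Nat.prime_two⟩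
  show (Cfsg.layer X).map (QuotientGroup.mk' (Cfsg.pPrimeCore 2 X)) = Cfsg.layer (X ⧸ Cfsg.pPrimeCore 2 X) ↔ _
  constructor
  · intro h
    unfold Cfsg.pLayer
    apply sSup_le
    intro K hK
    have hpg := Cfsg.Agent.Lib.Helper10.pcomp_pGen 2 hK
    have hsn : (Cfsg.layer X).IsSubnormal :=
      (Cfsg.Agent.Lib.Helper11.layer_normal (G := X)).isSubnormal
    apply Cfsg.Agent.Lib.Helper10.le_of_le_sup_core 2 hpg (O := Cfsg.pPrimeCore 2 X)
      (Cfsg.Agent.Lib.Helper14.pPrimeCore_coprime 2) hsn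
    have h1 : K.map (QuotientGroup.mk' (Cfsg.pPrimeCore 2 X)) ≤ Cfsg.layer (X ⧸ Cfsg.pPrimeCore 2 X) :=
      Cfsg.Agent.Lib.Helper11.component_le_layer hK.2.1
    rw [← h] at h1
    have h2 := Subgroup.map_le_iff_le_comap.1 h1
    rw [Subgroup.comap_map_eq, QuotientGroup.ker_mk'] at h2
    exact h2
  · intro h
    apply le_antisymm
    · have key : ∀ J : Subgroup X, Cfsg.IsComponent J →
          J.map (QuotientGroup.mk' (Cfsg.pPrimeCore 2 X)) ≤ Cfsg.layer (X ⧸ Cfsg.pPrimeCore 2 X) := by
        intro J hJ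
        by_cases hJO : J ≤ Cfsg.pPrimeCore 2 X
        · have : J.map (QuotientGroup.mk' (Cfsg.pPrimeCore 2 X)) = ⊥ := by
            rw [Subgroup.map_eq_bot_iff, QuotientGroup.ker_mk']; exact hJO
          rw [this]; exact bot_le
        · apply Cfsg.Agent.Lib.Helper11.component_le_layer
          refine ⟨hJ.1.map (QuotientGroup.mk'_surjective _), ?_⟩
          apply Cfsg.Agent.Lib.Helper10.qs_of_surjective
            ((QuotientGroup.mk' (Cfsg.pPrimeCore 2 X)).subgroupMap J)
            (MonoidHom.subgroupMap_surjective _ J) hJ.2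
          intro hker
          apply hJO
          intro x hx
          have hmem : (⟨x, hx⟩ : J) ∈ ((QuotientGroup.mk' (Cfsg.pPrimeCore 2 X)).subgroupMap J).ker := by
            rw [hker]; trivial
          rw [MonoidHom.mem_ker] at hmem
          have h3 := congrArg Subtype.val hmem
          simp only [MonoidHom.subgroupMap_apply_coe, Subgroup.coe_one, QuotientGroup.mk'_apply] at h3
          exact (QuotientGroup.eq_one_iff x).1 h3
      have : (Cfsg.layer X).map (QuotientGroup.mk' (Cfsg.pPrimeCore 2 X)) =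
          ⨆ J ∈ {J : Subgroup X | Cfsg.IsComponent J}, J.map (QuotientGroup.mk' (Cfsg.pPrimeCore 2 X)) := by
        unfold Cfsg.layer
        rw [(Subgroup.gc_map_comap _).l_sSup]
      rw [this]
      exact iSup₂_le key
    · rw [← Cfsg.Agent.Lib.Helper10.map_pLayer 2]
      exact Subgroup.map_mono h

end Cfsg.Agent.S1277
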