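import Cfsg.Statements.S1278
import Cfsg.Agent.S1276

set_option autoImplicit false
open Cfsg

namespace Cfsg.Agent.S1278

open scoped commutatorElement in
/-- Let K ≠ L be 2-components of the finite group X. Then ⁅K, L⁆ ≤ O(K) ⊓ O(L), and if K is quasisimple then ⁅K, L⁆ = 1. -/
theorem result {X : Type*} [Group X] [Finite X] (K L : Subgroup X) (hK : Cfsg.IsPComponent 2 K) (hL : Cfsg.IsPComponent 2 L) (hne : K ≠ L) : ⁅K, L⁆ ≤ ((Cfsg.oddCore ↥K).map K.subtype) ⊓ ((Cfsg.oddCore ↥L).map L.subtype) ∧ (Cfsg.IsQuasisimple ↥K → ⁅K, L⁆ = ⊥) := by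
  haveI : Fact (Nat.Prime 2) := ⟨Nat.prime_two⟩
  have hmapne : K.map (QuotientGroup.mk' (Cfsg.pPrimeCore 2 X)) ≠
      L.map (QuotientGroup.mk' (Cfsg.pPrimeCore 2 X)) :=
    fun h => hne (Cfsg.Agent.Lib.Helper10.pcomp_unique 2 hK hL h)
  have hbar := Cfsg.Agent.Lib.Helper11.components_comm hK.2.1 hL.2.1 hmapne
  rw [← Subgroup.map_commutator, Subgroup.map_eq_bot_iff, QuotientGroup.ker_mk'] at hbar
  have hLK : L ≤ Subgroup.normalizer (K : Set X) := Cfsg.Agent.Lib.Helper10.pcomp_le_normalizer 2 hK hL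
  have hKL : K ≤ Subgroup.normalizer (L : Set X) := Cfsg.Agent.Lib.Helper10.pcomp_le_normalizer 2 hL hK
  have hleK : ⁅K, L⁆ ≤ K := by
    rw [Subgroup.commutator_le]
    intro k hk l hl
    have h1 : l * k⁻¹ * l⁻¹ ∈ K :=
      Cfsg.Agent.Lib.Helper10.conj_mem_of_mem_normalizer (hLK hl) (K.inv_mem hk)
    have : ⁅k, l⁆ = k * (l * k⁻¹ * l⁻¹) := by rw [commutatorElement_def]; group
    rw [this]; exact K.mul_mem hk h1
  have hleL : ⁅K, L⁆ ≤ L := by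
    rw [Subgroup.commutator_le]
    intro k hk l hl
    have h1 : k * l * k⁻¹ ∈ L :=
      Cfsg.Agent.Lib.Helper10.conj_mem_of_mem_normalizer (hKL hk) hl
    have : ⁅k, l⁆ = (k * l * k⁻¹) * l⁻¹ := by rw [commutatorElement_def]
    rw [this]; exact L.mul_mem h1 (L.inv_mem hl)
  have h1 : ⁅K, L⁆ ≤ (Cfsg.pPrimeCore 2 ↥K).map K.subtype := by
    rw [Cfsg.Agent.Lib.Helper10.pPrimeCore_map_subtype 2 hK.1]
    exact le_inf hbar hleK
  have h2 : ⁅K, L⁆ ≤ (Cfsg.pPrimeCore 2 ↥L).map L.subtype := by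
    rw [Cfsg.Agent.Lib.Helper10.pPrimeCore_map_subtype 2 hL.1]
    exact le_inf hbar hleL
  refine ⟨le_inf h1 h2, ?_⟩
  intro hqs
  have hcomm := (Cfsg.Agent.S1276.qs_iff_aux K hK).1 hqs
  have hperfK : ⁅K, K⁆ = K := Cfsg.Agent.Lib.Helper10.pcomp_perfect 2 hK
  have htriple : ⁅⁅L, K⁆, K⁆ = ⊥ := by
    rw [eq_bot_iff, ← hcomm, Subgroup.commutator_comm K ((Cfsg.pPrimeCore 2 ↥K).map K.subtype)]
    apply Subgroup.commutator_mono _ le_rfl
    rw [Subgroup.commutator_comm]; exact h1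
  exact Cfsg.Agent.Lib.Helper11.perfect_comm_of_triple hperfK htriple

end Cfsg.Agent.S1278
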