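import Cfsg.Statements.S1279
import Cfsg.Agent.Lib.Helper10.SolvBal

set_option autoImplicit false
open Cfsg

namespace Cfsg.Agent.S1279

/-- Let A be a noncyclic elementary abelian p-subgroup of the finite group G such that C_G(a) is solvable for every non-identity a ∈ A. Then a ↦ O_{p'}(C_G(a)) is a solvable A-signalizer functor on G. -/
theorem result {G : Type*} [Group G] [Finite G] (p : ℕ) [Fact p.Prime] (A : Subgroup G) (hA : Cfsg.IsElementaryAbelian p A) (hA2 : p ^ 2 ≤ Nat.card ↥A) (hsolv : ∀ a ∈ A, a ≠ 1 → Group.IsSolvable ↥(Subgroup.centralizer ({a} : Set G))) : Cfsg.IsSolvableSignalizerFunctor p A (fun a => Cfsg.centralizerPPrimeCore p a) := by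
  have hord : ∀ a ∈ A, a ≠ 1 → orderOf a = p := fun a ha ha1 => orderOf_eq_prime (hA.2 a ha) ha1
  refine ⟨⟨?_, ?_, ?_, ?_⟩, ?_⟩
  · intro a _ _
    exact Cfsg.Agent.Lib.Helper10.cpc_le_centralizer p a
  · intro a _ _ hdvd
    exact (Fact.out : p.Prime).one_lt.ne'
      (Nat.Coprime.eq_one_of_dvd (Cfsg.Agent.Lib.Helper10.cpc_coprime p a).symm hdvd)
  · intro a ha _ b hb x hx
    apply Cfsg.Agent.Lib.Helper10.core_conj_mem p hx
    rw [Subgroup.mem_centralizer_iff]
    intro z hz
    rw [Set.mem_singleton_iff] at hz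
    rw [hz]
    exact Cfsg.Agent.Lib.Helper10.elemAb_comm hA ha hb
  · intro a ha ha1 b hb hb1
    exact Cfsg.Agent.Lib.Helper10.solvable_balance p (hsolv b hb hb1) (hord a ha ha1)
      (Cfsg.Agent.Lib.Helper10.elemAb_comm hA ha hb)
  · intro a ha ha1
    haveI := hsolv a ha ha1
    exact Group.isSolvable_of_surjective
      (MonoidHom.subgroupMap_surjective (Subgroup.centralizer ({a} : Set G)).subtype
        (Cfsg.pPrimeCore p ↥(Subgroup.centralizer ({a} : Set G))))

end Cfsg.Agent.S1279
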