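import Cfsg.Statements.S1281
import Cfsg.Agent.Lib.Helper10.Signalizer

set_option autoImplicit false
open Cfsg

namespace Cfsg.Agent.S1281

open Cfsg.Agent.Lib.Helper10 in
/-- Let θ be a solvable A-signalizer functor on the finite group G (A a noncyclic elementary abelian p-subgroup) and N a normal subgroup of order prime to p. Then for all non-identity a, b ∈ A, the image of θ a in G / N meets the centralizer of the image of b inside the image of θ b. -/
theorem result {G : Type*} [Group G] [Finite G] (p : ℕ) [Fact p.Prime] (A : Subgroup G) (hA : Cfsg.IsElementaryAbelian p A) (hA2 : p ^ 2 ≤ Nat.card ↥A) (θ : G → Subgroup G) (hθ : Cfsg.IsSolvableSignalizerFunctor p A θ) (N : Subgroup G) [N.Normal] (hN : ¬ p ∣ Nat.card ↥N) (a b : G) (ha : a ∈ A) (ha1 : a ≠ 1) (hb : b ∈ A) (hb1 : b ≠ 1) : (θ a).map (QuotientGroup.mk' N) ⊓ Subgroup.centralizer {QuotientGroup.mk' N b} ≤ (θ b).map (QuotientGroup.mk' N) := by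
  obtain ⟨⟨h1, h2, h3, h4⟩, hsol⟩ := hθ
  rintro _ ⟨⟨g, hg, rfl⟩, hcent⟩
  have hzA : Subgroup.zpowers b ≤ A := (Subgroup.zpowers_le).2 hb
  have hzK : Subgroup.zpowers b ≤ Subgroup.normalizer ((θ a : Subgroup G) : Set G) :=
    le_normalizer_of_conj_mem (fun c hc u hu => h3 a ha ha1 c (hzA hc) u hu)
  have hcard : Nat.card (Subgroup.zpowers b) = p := card_zpowers_eq_prime hb1 (hA.2 b hb)
  have hcop : (Nat.card (Subgroup.zpowers b)).Coprime (Nat.card (θ a)) := by
    rw [hcard]; exact (Nat.Prime.coprime_iff_not_dvd Fact.out).2 (h2 a ha ha1)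
  have hNn : θ a ≤ Subgroup.normalizer ((θ a ⊓ N : Subgroup G) : Set G) :=
    le_normalizer_of_conj_mem (fun c hc u hu =>
      ⟨(θ a).mul_mem ((θ a).mul_mem hc hu.1) ((θ a).inv_mem hc), Subgroup.Normal.conj_mem inferInstance u hu.2 c⟩)
  have hNA : Subgroup.zpowers b ≤ Subgroup.normalizer ((θ a ⊓ N : Subgroup G) : Set G) :=
    le_normalizer_of_conj_mem (fun c hc u hu =>
      ⟨h3 a ha ha1 c (hzA hc) u hu.1, Subgroup.Normal.conj_mem inferInstance u hu.2 c⟩)
  have hbg : QuotientGroup.mk' N b * QuotientGroup.mk' N g = QuotientGroup.mk' N g * QuotientGroup.mk' N b :=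
    (Subgroup.mem_centralizer_iff.1 hcent) _ (Set.mem_singleton _)
  have hfix : ∀ c ∈ Subgroup.zpowers b, c * g * c⁻¹ * g⁻¹ ∈ θ a ⊓ N := by
    intro c hc
    refine ⟨(θ a).mul_mem (h3 a ha ha1 c (hzA hc) g hg) ((θ a).inv_mem hg), ?_⟩
    have hcg : QuotientGroup.mk' N c * QuotientGroup.mk' N g = QuotientGroup.mk' N g * QuotientGroup.mk' N c := by
      obtain ⟨i, rfl⟩ := Subgroup.mem_zpowers_iff.1 hc
      rw [map_zpow]
      exact ((Commute.zpow_left (show Commute (QuotientGroup.mk' N b) (QuotientGroup.mk' N g) from hbg) i)).eq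
    have : QuotientGroup.mk' N (c * g * c⁻¹ * g⁻¹) = 1 := by
      rw [map_mul, map_mul, map_mul, map_inv, map_inv, hcg, mul_inv_cancel_right, mul_inv_cancel]
    exact (QuotientGroup.eq_one_iff _).1 this
  obtain ⟨c', hc', hgc⟩ := Cfsg.Agent.Lib.Helper1.coprime_fixed_quotient (Subgroup.zpowers b) (θ a) hzK hcop
      (Or.inl (isSolvable_zpowers b)) (θ a ⊓ N) inf_le_left hNn hNA g hg hfix
  have hc'b : c' ∈ Subgroup.centralizer ({b} : Set G) := by
    rw [Subgroup.mem_centralizer_iff]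
    intro z hz
    rw [Set.mem_singleton_iff] at hz
    rw [hz]
    exact (Subgroup.mem_centralizer_iff.1 hc'.2) b (Subgroup.mem_zpowers b)
  refine ⟨c', h4 a ha ha1 b hb hb1 ⟨hc'.1, hc'b⟩, ?_⟩
  symm
  show (QuotientGroup.mk g : G ⧸ N) = QuotientGroup.mk c'
  rw [QuotientGroup.eq]
  exact hgc.2

end Cfsg.Agent.S1281
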