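import Cfsg.Statements.S1284
import Cfsg.Agent.Lib.Helper10.SigFam

set_option autoImplicit false
open Cfsg

namespace Cfsg.Agent.S1284

theorem partA {G : Type*} [Group G] [Finite G] (p : ℕ) [Fact p.Prime] (A : Subgroup G)
    (hA : Cfsg.IsElementaryAbelian p A) (hA3 : p ^ 3 ≤ Nat.card ↥A) (θ : G → Subgroup G)
    (hθ : Cfsg.IsSolvableSignalizerFunctor p A θ) (q : ℕ) [Fact q.Prime] (Q : Subgroup G)
    (hQ : Cfsg.Agent.Lib.Helper10.MaxQ p A θ q Q) (H : Subgroup G)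
    (hH : H ∈ Cfsg.signalizerFamily p A θ) :
    ∃ c ∈ Cfsg.signalizerInf A θ, ∃ S : Sylow q ↥H,
      (S : Subgroup ↥H).map H.subtype = Q.map (MulAut.conj c).toMonoidHom ⊓ H := by
  have hAH := Cfsg.Agent.Lib.Helper10.fam_le_normalizer hH
  have hcop := Cfsg.Agent.Lib.Helper10.fam_coprime hA hH
  obtain ⟨P, hAP⟩ := Cfsg.Agent.Lib.Helper1.exists_invariant_sylow A H hAH hcop (Or.inr hH.1) q
  have hR : (P : Subgroup ↥H).map H.subtype ∈ Cfsg.signalizerFamily p A θ :=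
    Cfsg.Agent.Lib.Helper10.fam_of_le hH (Subgroup.map_subtype_le _)
      (fun b hb u hu => Cfsg.Agent.Lib.Helper10.conj_mem_of_mem_normalizer (hAP hb) hu)
  obtain ⟨Q', hQ', hle⟩ := Cfsg.Agent.Lib.Helper10.exists_maxQ_ge (q := q) hR (P.2.map _)
  obtain ⟨c, hc, hcQ⟩ := Cfsg.Agent.Lib.Helper10.transitivity p A hA hA3 θ hθ q hQ hQ'
  refine ⟨c, hc, P, ?_⟩
  rw [hcQ]
  apply le_antisymm (le_inf hle (Subgroup.map_subtype_le _))
  have h1 : IsPGroup q ((Q' ⊓ H).subgroupOf H) := (hQ'.2.1.to_le inf_le_left).comap_subtype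
  have h2 : (P : Subgroup ↥H) ≤ (Q' ⊓ H).subgroupOf H := by
    intro x hx
    rw [Subgroup.mem_subgroupOf]
    exact ⟨hle ⟨x, hx, rfl⟩, x.2⟩
  have h3 := P.is_maximal' h1 h2
  intro x hx
  have hmem : (⟨x, hx.2⟩ : ↥H) ∈ (Q' ⊓ H).subgroupOf H := by
    rw [Subgroup.mem_subgroupOf]; exact hx
  rw [h3] at hmem
  exact ⟨⟨x, hx.2⟩, hmem, rfl⟩

/-- Let θ be a solvable A-signalizer functor on the finite group G, A elementary abelian of rank at least 3, q a prime dividing some |θ a|, and Q maximal among the q-subgroups in the family of θ. Then (a) for every member H of the family, some c in the intersection of the θ a (a ∈ A non-identity) makes c Q c⁻¹ ∩ H a Sylow q-subgroup of H; and (b) for every nontrivial subgroup B ≤ A, C_Q(B) is a Sylow q-subgroup of the intersection of the θ b over the non-identity b ∈ B. -/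
theorem result {G : Type*} [Group G] [Finite G] (p : ℕ) [Fact p.Prime] (A : Subgroup G) (hA : Cfsg.IsElementaryAbelian p A) (hA3 : p ^ 3 ≤ Nat.card ↥A) (θ : G → Subgroup G) (hθ : Cfsg.IsSolvableSignalizerFunctor p A θ) (q : ℕ) [Fact q.Prime] (hq : ∃ a ∈ A, a ≠ 1 ∧ q ∣ Nat.card ↥(θ a)) (Q : Subgroup G) (hQW : Q ∈ Cfsg.signalizerFamily p A θ) (hQq : IsPGroup q ↥Q) (hQmax : ∀ R ∈ Cfsg.signalizerFamily p A θ, IsPGroup q ↥R → Q ≤ R → R = Q) : (∀ H : Subgroup G, H ∈ Cfsg.signalizerFamily p A θ → ∃ c ∈ Cfsg.signalizerInf A θ, ∃ S : Sylow q ↥H, (S : Subgroup ↥H).map H.subtype = Q.map (MulAut.conj c).toMonoidHom ⊓ H) ∧ (∀ B : Subgroup G, B ≤ A → B ≠ ⊥ → ∃ S : Sylow q ↥(Cfsg.signalizerInf B θ), (S : Subgroup ↥(Cfsg.signalizerInf B θ)).map (Cfsg.signalizerInf B θ).subtype = Q ⊓ Subgroup.centralizer (B : Set G)) := by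
  have hQ : Cfsg.Agent.Lib.Helper10.MaxQ p A θ q Q := ⟨hQW, hQq, hQmax⟩
  refine ⟨fun H hH => partA p A hA hA3 θ hθ q Q hQ H hH, ?_⟩
  intro B hBA hBne
  obtain ⟨⟨b₀, hb₀⟩, hb₀1⟩ := (Subgroup.ne_bot_iff_exists_ne_one).1 hBne
  have hb₀1' : b₀ ≠ 1 := fun h => hb₀1 (Subtype.ext h)
  have hHfam : Cfsg.signalizerInf B θ ∈ Cfsg.signalizerFamily p A θ := by
    apply Cfsg.Agent.Lib.Helper10.fam_of_le
      (Cfsg.Agent.Lib.Helper10.theta_mem_fam hθ (hBA hb₀) hb₀1')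
    · intro x hx
      exact Cfsg.Agent.Lib.Helper10.mem_sigInf.1 hx b₀ hb₀ hb₀1'
    · intro b hb u hu
      rw [Cfsg.Agent.Lib.Helper10.mem_sigInf] at hu ⊢
      intro b' hb' hb'1
      exact hθ.1.2.2.1 b' (hBA hb') hb'1 b hb u (hu b' hb' hb'1)
  obtain ⟨c, hc, S, hS⟩ := partA p A hA hA3 θ hθ q Q hQ _ hHfam
  have hcH : c ∈ Cfsg.signalizerInf B θ :=
    Cfsg.Agent.Lib.Helper10.mem_sigInf.2
      (fun b hb hb1 => Cfsg.Agent.Lib.Helper10.mem_sigInf.1 hc b (hBA hb) hb1)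
  have hHC : Cfsg.signalizerInf B θ ≤ Subgroup.centralizer (B : Set G) := by
    intro x hx
    rw [Subgroup.mem_centralizer_iff]
    intro b hb
    by_cases hb1 : b = 1
    · rw [hb1, one_mul, mul_one]
    · have h1 := hθ.1.1 b (hBA hb) hb1 (Cfsg.Agent.Lib.Helper10.mem_sigInf.1 hx b hb hb1)
      exact (Subgroup.mem_centralizer_iff.1 h1) b (Set.mem_singleton b)
  refine ⟨(⟨c, hcH⟩ : ↥(Cfsg.signalizerInf B θ))⁻¹ • S, ?_⟩
  rw [Cfsg.Agent.Lib.Helper1.sylow_smul_map, hS]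
  ext x
  show x ∈ (Q.map (MulAut.conj c).toMonoidHom ⊓ Cfsg.signalizerInf B θ).map
    (MulAut.conj (((⟨c, hcH⟩ : ↥(Cfsg.signalizerInf B θ))⁻¹ : ↥(Cfsg.signalizerInf B θ)) : G)).toMonoidHom ↔ _
  rw [Cfsg.Agent.Lib.Helper21.mem_map_conj]
  have e1 : (((⟨c, hcH⟩ : ↥(Cfsg.signalizerInf B θ))⁻¹ : ↥(Cfsg.signalizerInf B θ)) : G) = c⁻¹ := rfl
  rw [e1]
  constructor
  · rintro ⟨h1, h2⟩
    have h1' : c⁻¹⁻¹ * x * c⁻¹ ∈ Q.map (MulAut.conj c).toMonoidHom := h1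
    have h2' : c⁻¹⁻¹ * x * c⁻¹ ∈ Cfsg.signalizerInf B θ := h2
    rw [Cfsg.Agent.Lib.Helper21.mem_map_conj] at h1'
    have e2 : c⁻¹ * (c⁻¹⁻¹ * x * c⁻¹) * c = x := by group
    rw [e2] at h1'
    have hxH : x ∈ Cfsg.signalizerInf B θ := by
      have := Subgroup.mul_mem _ (Subgroup.mul_mem _ (Subgroup.inv_mem _ hcH) h2') hcH
      rw [e2] at this
      exact this
    exact ⟨h1', hHC hxH⟩
  · rintro ⟨h1, h2⟩
    have hxH : x ∈ Cfsg.signalizerInf B θ := by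
      rw [Cfsg.Agent.Lib.Helper10.mem_sigInf]
      intro b hb hb1
      apply hQW.2.2.2 b (hBA hb) hb1
      refine ⟨h1, ?_⟩
      show x ∈ Subgroup.centralizer ({b} : Set G)
      rw [Subgroup.mem_centralizer_iff]
      intro y hy
      rw [Set.mem_singleton_iff] at hy
      rw [hy]
      exact (Subgroup.mem_centralizer_iff.1 h2) b hb
    refine ⟨?_, ?_⟩
    · show c⁻¹⁻¹ * x * c⁻¹ ∈ Q.map (MulAut.conj c).toMonoidHom
      rw [Cfsg.Agent.Lib.Helper21.mem_map_conj]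
      have e2 : c⁻¹ * (c⁻¹⁻¹ * x * c⁻¹) * c = x := by group
      rw [e2]; exact h1
    · show c⁻¹⁻¹ * x * c⁻¹ ∈ Cfsg.signalizerInf B θ
      exact Subgroup.mul_mem _ (Subgroup.mul_mem _ (Subgroup.inv_mem _ (Subgroup.inv_mem _ hcH)) hxH)
        (Subgroup.inv_mem _ hcH)

end Cfsg.Agent.S1284
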