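import Cfsg.Statements.S1285
import Cfsg.Agent.Lib.Helper10.SigFam

set_option autoImplicit false
open Cfsg

namespace Cfsg.Agent.S1285

/-- Let θ be a solvable A-signalizer functor on the finite group G with A elementary abelian of rank at least 3, and suppose that for some prime q every θ a (a ∈ A non-identity) is a q-group. Then θ is complete. -/
theorem result {G : Type*} [Group G] [Finite G] (p : ℕ) [Fact p.Prime] (A : Subgroup G) (hA : Cfsg.IsElementaryAbelian p A) (hA3 : p ^ 3 ≤ Nat.card ↥A) (θ : G → Subgroup G) (hθ : Cfsg.IsSolvableSignalizerFunctor p A θ) (q : ℕ) [Fact q.Prime] (hq : ∀ a ∈ A, a ≠ 1 → IsPGroup q ↥(θ a)) : Cfsg.IsCompleteSignalizerFunctor p A θ := by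
  have hbot : (⊥ : Subgroup G) ∈ Cfsg.signalizerFamily p A θ := by
    refine ⟨inferInstance, ?_, ?_, ?_⟩
    · rw [Subgroup.card_bot]
      exact (Fact.out : p.Prime).one_lt.ne' ∘ Nat.dvd_one.1
    · intro b hb u hu
      rw [Subgroup.mem_bot] at hu ⊢
      rw [hu]; group
    · intro a ha ha1
      exact inf_le_left.trans bot_le
  obtain ⟨Q, hQ, -⟩ := Cfsg.Agent.Lib.Helper10.exists_maxQ_ge (q := q) hbot IsPGroup.of_bot
  refine ⟨hθ.1, Q, hQ.1.2.2.1, hQ.1.2.1, ?_⟩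
  intro a ha ha1
  apply le_antisymm (hQ.1.2.2.2 a ha ha1)
  refine le_inf ?_ (hθ.1.1 a ha ha1)
  obtain ⟨Q', hQ', hle⟩ := Cfsg.Agent.Lib.Helper10.exists_maxQ_ge (q := q)
    (Cfsg.Agent.Lib.Helper10.theta_mem_fam hθ ha ha1) (hq a ha ha1)
  obtain ⟨c, hc, hcQ⟩ := Cfsg.Agent.Lib.Helper10.transitivity p A hA hA3 θ hθ q hQ' hQ
  intro x hx
  rw [← hcQ, Cfsg.Agent.Lib.Helper21.mem_map_conj]
  apply hle
  have hca : c ∈ θ a := Cfsg.Agent.Lib.Helper10.mem_sigInf.1 hc a ha ha1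
  exact Subgroup.mul_mem _ (Subgroup.mul_mem _ (Subgroup.inv_mem _ hca) hx) hca

end Cfsg.Agent.S1285
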