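import Cfsg.Statements.S1286
import Mathlib
import Cfsg.Agent.Lib.Helper10.Signalizer
import Cfsg.Agent.Lib.Helper10.StrEmb

set_option autoImplicit false
open Cfsg

namespace Cfsg.Agent.S1286

/-- The transposition `(0 1)`. -/
def sA : Equiv.Perm (Fin 5) := Equiv.swap 0 1
/-- The transposition `(2 3)`. -/
def tA : Equiv.Perm (Fin 5) := Equiv.swap 2 3
/-- The 3-cycle `(2 3 4)`. -/
def uA : Equiv.Perm (Fin 5) := Equiv.swap 2 3 * Equiv.swap 3 4
/-- The 3-cycle `(0 1 4)`. -/
def vA : Equiv.Perm (Fin 5) := Equiv.swap 0 1 * Equiv.swap 1 4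

/-- The four-group generated by `(0 1)` and `(2 3)`. -/
def AA : Subgroup (Equiv.Perm (Fin 5)) where
  carrier := {x | x = 1 ∨ x = sA ∨ x = tA ∨ x = sA * tA}
  mul_mem' := by
    rintro a b (rfl | rfl | rfl | rfl) (rfl | rfl | rfl | rfl) <;> simp only [Set.mem_setOf_eq] <;> decide
  one_mem' := Or.inl rfl
  inv_mem' := by
    rintro a (rfl | rfl | rfl | rfl) <;> simp only [Set.mem_setOf_eq] <;> decide

/-- The functor. -/
noncomputable def θA : Equiv.Perm (Fin 5) → Subgroup (Equiv.Perm (Fin 5)) := fun g =>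
  if g = sA then Subgroup.zpowers uA else if g = tA then Subgroup.zpowers vA else ⊥

theorem θA_s : θA sA = Subgroup.zpowers uA := by
  unfold θA; rw [if_pos rfl]

theorem θA_t : θA tA = Subgroup.zpowers vA := by
  unfold θA; rw [if_neg (by decide), if_pos rfl]

theorem θA_st : θA (sA * tA) = ⊥ := by
  unfold θA; rw [if_neg (by decide), if_neg (by decide)]

theorem mem_AA {a : Equiv.Perm (Fin 5)} : a ∈ AA ↔ a = 1 ∨ a = sA ∨ a = tA ∨ a = sA * tA := Iff.rfl

theorem conj_zpowers_mem {G : Type*} [Group G] {b u : G} (h : b * u * b⁻¹ ∈ Subgroup.zpowers u) :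
    ∀ x ∈ Subgroup.zpowers u, b * x * b⁻¹ ∈ Subgroup.zpowers u := by
  intro x hx
  obtain ⟨k, rfl⟩ := Subgroup.mem_zpowers_iff.1 hx
  rw [← conj_zpow]
  exact Subgroup.zpow_mem _ h k

theorem eq_one_of_inverted {G : Type*} [Group G] {b u : G} (h : b * u * b⁻¹ = u⁻¹) (h3 : u ^ 3 = 1)
    {x : G} (hx : x ∈ Subgroup.zpowers u) (hxb : x ∈ Subgroup.centralizer ({b} : Set G)) : x = 1 := by
  obtain ⟨k, rfl⟩ := Subgroup.mem_zpowers_iff.1 hx
  have h1 : b * u ^ k = u ^ k * b := (Subgroup.mem_centralizer_iff.1 hxb) b (Set.mem_singleton b)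
  have h2 : b * u ^ k * b⁻¹ = (u ^ k)⁻¹ := by rw [← conj_zpow, h, inv_zpow]
  have h4 : u ^ k = (u ^ k)⁻¹ := by rw [← h2, h1, mul_inv_cancel_right]
  have h5 : (u ^ k) ^ 3 = 1 := by
    rw [← zpow_natCast, ← zpow_mul, mul_comm, zpow_mul, zpow_natCast, h3, one_zpow]
  have h6 : u ^ k * u ^ k = 1 := by
    nth_rewrite 1 [h4]; exact inv_mul_cancel _
  calc u ^ k = (u ^ k) ^ 3 * (u ^ k * u ^ k)⁻¹ := by group
    _ = 1 := by rw [h5, h6]; simp

theorem card_zpowers_three {G : Type*} [Group G] {u : G} (h3 : u ^ 3 = 1) (h1 : u ≠ 1) :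
    Nat.card (Subgroup.zpowers u) = 3 := by
  haveI : Fact (Nat.Prime 3) := ⟨by norm_num⟩
  rw [Nat.card_zpowers]
  exact orderOf_eq_prime h3 h1

/-- There exist a finite group X, an elementary abelian subgroup A of order 4 and a solvable A-signalizer functor θ on X for the prime 2 which is not complete. -/
theorem result : ∃ (X : Type) (_ : Group X) (_ : Finite X) (A : Subgroup X) (θ : X → Subgroup X), Cfsg.IsElementaryAbelian 2 A ∧ Nat.card ↥A = 4 ∧ Cfsg.IsSolvableSignalizerFunctor 2 A θ ∧ ¬ Cfsg.IsCompleteSignalizerFunctor 2 A θ := by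
  refine ⟨Equiv.Perm (Fin 5), inferInstance, inferInstance, AA, θA, ?_, ?_, ?_, ?_⟩
  · refine ⟨⟨⟨?_⟩⟩, ?_⟩
    · rintro ⟨a, ha⟩ ⟨b, hb⟩
      apply Subtype.ext
      show a * b = b * a
      rcases mem_AA.1 ha with rfl | rfl | rfl | rfl <;> rcases mem_AA.1 hb with rfl | rfl | rfl | rfl <;> decide
    · intro a ha
      rcases mem_AA.1 ha with rfl | rfl | rfl | rfl <;> decide
  · have h1 : ((AA : Subgroup (Equiv.Perm (Fin 5))) : Set (Equiv.Perm (Fin 5))) = {1, sA, tA, sA * tA} := by
      ext x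
      simp only [SetLike.mem_coe, Set.mem_insert_iff, Set.mem_singleton_iff]
      exact mem_AA
    show Nat.card ↥((AA : Subgroup (Equiv.Perm (Fin 5))) : Set (Equiv.Perm (Fin 5))) = 4
    rw [Nat.card_coe_set_eq, h1, Set.ncard_eq_toFinset_card']
    decide
  · have hu3 : uA ^ 3 = 1 := by decide
    have hv3 : vA ^ 3 = 1 := by decide
    have hu1 : uA ≠ 1 := by decide
    have hv1 : vA ≠ 1 := by decide
    refine ⟨⟨?_, ?_, ?_, ?_⟩, ?_⟩
    · intro a ha ha1
      rcases mem_AA.1 ha with rfl | rfl | rfl | rfl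
      · exact absurd rfl ha1
      · rw [θA_s, Subgroup.zpowers_le, Subgroup.mem_centralizer_iff]
        intro y hy; rw [Set.mem_singleton_iff] at hy; rw [hy]; decide
      · rw [θA_t, Subgroup.zpowers_le, Subgroup.mem_centralizer_iff]
        intro y hy; rw [Set.mem_singleton_iff] at hy; rw [hy]; decide
      · rw [θA_st]; exact bot_le
    · intro a ha ha1
      rcases mem_AA.1 ha with rfl | rfl | rfl | rfl
      · exact absurd rfl ha1
      · rw [θA_s, card_zpowers_three hu3 hu1]; decide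
      · rw [θA_t, card_zpowers_three hv3 hv1]; decide
      · rw [θA_st, Subgroup.card_bot]; decide
    · intro a ha ha1 b hb
      rcases mem_AA.1 ha with rfl | rfl | rfl | rfl
      · exact absurd rfl ha1
      · rw [θA_s]
        apply conj_zpowers_mem
        rcases mem_AA.1 hb with rfl | rfl | rfl | rfl
        · have : (1 : Equiv.Perm (Fin 5)) * uA * 1⁻¹ = uA := by decide
          rw [this]; exact Subgroup.mem_zpowers _
        · have : sA * uA * sA⁻¹ = uA := by decide
          rw [this]; exact Subgroup.mem_zpowers _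
        · have : tA * uA * tA⁻¹ = uA⁻¹ := by decide
          rw [this]; exact Subgroup.inv_mem _ (Subgroup.mem_zpowers _)
        · have : (sA * tA) * uA * (sA * tA)⁻¹ = uA⁻¹ := by decide
          rw [this]; exact Subgroup.inv_mem _ (Subgroup.mem_zpowers _)
      · rw [θA_t]
        apply conj_zpowers_mem
        rcases mem_AA.1 hb with rfl | rfl | rfl | rfl
        · have : (1 : Equiv.Perm (Fin 5)) * vA * 1⁻¹ = vA := by decide
          rw [this]; exact Subgroup.mem_zpowers _
        · have : sA * vA * sA⁻¹ = vA⁻¹ := by decide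
          rw [this]; exact Subgroup.inv_mem _ (Subgroup.mem_zpowers _)
        · have : tA * vA * tA⁻¹ = vA := by decide
          rw [this]; exact Subgroup.mem_zpowers _
        · have : (sA * tA) * vA * (sA * tA)⁻¹ = vA⁻¹ := by decide
          rw [this]; exact Subgroup.inv_mem _ (Subgroup.mem_zpowers _)
      · rw [θA_st]
        intro x hx
        rw [Subgroup.mem_bot] at hx ⊢
        rw [hx]; group
    · intro a ha ha1 b hb hb1
      rcases mem_AA.1 ha with rfl | rfl | rfl | rfl
      · exact absurd rfl ha1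
      · rcases mem_AA.1 hb with rfl | rfl | rfl | rfl
        · exact absurd rfl hb1
        · exact inf_le_left
        · rw [θA_s]
          rintro x ⟨hx1, hx2⟩
          rw [eq_one_of_inverted (by decide : tA * uA * tA⁻¹ = uA⁻¹) hu3 hx1 hx2]
          exact Subgroup.one_mem _
        · rw [θA_s]
          rintro x ⟨hx1, hx2⟩
          rw [eq_one_of_inverted (by decide : (sA * tA) * uA * (sA * tA)⁻¹ = uA⁻¹) hu3 hx1 hx2]
          exact Subgroup.one_mem _
      · rcases mem_AA.1 hb with rfl | rfl | rfl | rfl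
        · exact absurd rfl hb1
        · rw [θA_t]
          rintro x ⟨hx1, hx2⟩
          rw [eq_one_of_inverted (by decide : sA * vA * sA⁻¹ = vA⁻¹) hv3 hx1 hx2]
          exact Subgroup.one_mem _
        · exact inf_le_left
        · rw [θA_t]
          rintro x ⟨hx1, hx2⟩
          rw [eq_one_of_inverted (by decide : (sA * tA) * vA * (sA * tA)⁻¹ = vA⁻¹) hv3 hx1 hx2]
          exact Subgroup.one_mem _
      · rw [θA_st]
        exact inf_le_left.trans bot_le
    · intro a ha ha1
      rcases mem_AA.1 ha with rfl | rfl | rfl | rfl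
      · exact absurd rfl ha1
      · rw [θA_s]; exact Cfsg.Agent.Lib.Helper10.isSolvable_zpowers _
      · rw [θA_t]; exact Cfsg.Agent.Lib.Helper10.isSolvable_zpowers _
      · rw [θA_st]; infer_instance
  · rintro ⟨-, X₀, -, hodd, hX⟩
    have hs : sA ∈ AA := mem_AA.2 (Or.inr (Or.inl rfl))
    have ht : tA ∈ AA := mem_AA.2 (Or.inr (Or.inr (Or.inl rfl)))
    have hu : uA ∈ X₀ := by
      have h1 := hX sA hs (by decide)
      have h2 : uA ∈ θA sA := by rw [θA_s]; exact Subgroup.mem_zpowers _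
      rw [← h1] at h2
      exact h2.1
    have hv : vA ∈ X₀ := by
      have h1 := hX tA ht (by decide)
      have h2 : vA ∈ θA tA := by rw [θA_t]; exact Subgroup.mem_zpowers _
      rw [← h1] at h2
      exact h2.1
    have hw : uA * vA * uA * vA⁻¹ ∈ X₀ := X₀.mul_mem (X₀.mul_mem (X₀.mul_mem hu hv) hu) (X₀.inv_mem hv)
    have hw2 : orderOf (uA * vA * uA * vA⁻¹) = 2 :=
      Cfsg.Agent.Lib.Helper10.orderOf_eq_two_of (by decide) (by decide)
    have := Subgroup.orderOf_dvd_natCard _ hw
    rw [hw2] at this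
    exact hodd this

end Cfsg.Agent.S1286
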