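import Cfsg.Statements.S1287
import Cfsg.Agent.Lib.Helper19.WOrder
import Cfsg.Agent.Lib.Helper18.Coprime

set_option autoImplicit false
open scoped Pointwise
open Cfsg

namespace Cfsg.Agent.S1287

open Subgroup
open Cfsg.Agent.Lib.Helper19.WOrder

/-- A fixed point of `A` on a product of `A`-invariant `p'`-subgroups factorizes into fixed
points. -/
theorem fixed_factor {H : Type*} [Group H] [Finite H] {p : ℕ} [Fact p.Prime] (A X Y : Subgroup H)
    (hAp : IsPGroup p A) (hcomm : ∀ a ∈ A, ∀ b ∈ A, a * b = b * a)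
    (hXp : ¬ p ∣ Nat.card X) (hAX : A ≤ normalizer (X : Set H))
    (hAY : A ≤ normalizer (Y : Set H))
    (c : H) (hc : c ∈ A) (x : H) (hxA : x ∈ centralizer (A : Set H))
    (s t : H) (hs : s ∈ X ⊓ centralizer {c}) (ht : t ∈ Y ⊓ centralizer {c}) (hx : x = s * t) :
    ∃ s' ∈ X ⊓ centralizer (A : Set H), ∃ t' ∈ Y ⊓ centralizer (A : Set H), x = s' * t' := by
  obtain ⟨D, hDdef⟩ : ∃ D : Subgroup H,
      D = (X ⊓ centralizer {c}) ⊓ (Y ⊓ centralizer {c}) := ⟨_, rfl⟩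
  have hAC : A ≤ normalizer ((centralizer {c} : Subgroup H) : Set H) := by
    intro a ha
    apply le_normalizer
    rw [mem_centralizer_iff]
    intro g hg
    rw [Set.mem_singleton_iff] at hg
    subst hg
    exact hcomm g hc a ha
  have hAS : A ≤ normalizer ((X ⊓ centralizer {c} : Subgroup H) : Set H) :=
    Cfsg.Agent.Lib.Helper21.le_normalizer_inf_of_le hAX hAC
  have hAT : A ≤ normalizer ((Y ⊓ centralizer {c} : Subgroup H) : Set H) :=
    Cfsg.Agent.Lib.Helper21.le_normalizer_inf_of_le hAY hAC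
  have hAD : A ≤ normalizer (D : Set H) := by
    rw [hDdef]
    exact Cfsg.Agent.Lib.Helper21.le_normalizer_inf_of_le hAS hAT
  have hDX : D ≤ X := hDdef ▸ (inf_le_left.trans inf_le_left)
  have hDY : D ≤ Y := hDdef ▸ (inf_le_right.trans inf_le_left)
  have hDp : ¬ p ∣ Nat.card D := fun h => hXp (h.trans (Subgroup.card_dvd_of_le hDX))
  have hxa : ∀ a ∈ A, a * x = x * a := fun a ha => (mem_centralizer_iff.mp hxA) a ha
  have hw : ∀ a ∈ A, s⁻¹ * a * s * a⁻¹ ∈ D := by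
    intro a ha
    rw [hDdef]
    refine mem_inf.mpr ⟨?_, ?_⟩
    · have h1 : a * s * a⁻¹ ∈ X ⊓ centralizer {c} :=
        (mem_normalizer_iff.mp (hAS ha) s).mp hs
      have e : s⁻¹ * a * s * a⁻¹ = s⁻¹ * (a * s * a⁻¹) := by group
      rw [e]
      exact Subgroup.mul_mem _ (Subgroup.inv_mem _ hs) h1
    · have h1 : a * t * a⁻¹ ∈ Y ⊓ centralizer {c} :=
        (mem_normalizer_iff.mp (hAT ha) t).mp ht
      have h2 : a * (s * t) = (s * t) * a := hx ▸ hxa a ha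
      have e : s⁻¹ * a * s * a⁻¹ = t * (a * t * a⁻¹)⁻¹ := by
        calc s⁻¹ * a * s * a⁻¹ = s⁻¹ * (a * (s * t)) * t⁻¹ * a⁻¹ := by group
          _ = s⁻¹ * ((s * t) * a) * t⁻¹ * a⁻¹ := by rw [h2]
          _ = t * (a * t * a⁻¹)⁻¹ := by group
      rw [e]
      exact Subgroup.mul_mem _ ht (Subgroup.inv_mem _ h1)
  obtain ⟨m, hm, hfix⟩ := Cfsg.Agent.Lib.Helper18.exists_fixed_in_coset hAp hDp hAD hw
  refine ⟨s * m, mem_inf.mpr ⟨X.mul_mem (mem_inf.mp hs).1 (hDX hm), ?_⟩, m⁻¹ * t,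
    mem_inf.mpr ⟨Y.mul_mem (Y.inv_mem (hDY hm)) (mem_inf.mp ht).1, ?_⟩, ?_⟩
  · rw [mem_centralizer_iff]
    exact fun a ha => hfix a ha
  · rw [mem_centralizer_iff]
    intro a ha
    have h1 : Commute a (s * m) := hfix a ha
    have h2 : Commute a x := hxa a ha
    have h3 : Commute a ((s * m)⁻¹ * x) := h1.inv_right.mul_right h2
    have e : (s * m)⁻¹ * x = m⁻¹ * t := by rw [hx]; group
    rw [e] at h3
    exact h3.eq
  · rw [hx]; group

/-- Let A be a noncyclic elementary abelian p-subgroup of a finite group H normalizing a subgroup K of order prime to p, and X, Y ≤ K subgroups normalized by A with C_K(a) = C_X(a) C_Y(a) (as sets) for every non-identity a ∈ A, where X is also normalized by C_K(A). Then K = XY as sets. -/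
theorem result {H : Type*} [Group H] [Finite H] (p : ℕ) [Fact p.Prime] (A K X Y : Subgroup H) (hA : Cfsg.IsElementaryAbelian p A) (hA2 : p ^ 2 ≤ Nat.card ↥A) (hK : ¬ p ∣ Nat.card ↥K) (hAK : A ≤ Subgroup.normalizer (K : Set H)) (hX : X ≤ K) (hY : Y ≤ K) (hAX : A ≤ Subgroup.normalizer (X : Set H)) (hAY : A ≤ Subgroup.normalizer (Y : Set H)) (hCX : K ⊓ Subgroup.centralizer (A : Set H) ≤ Subgroup.normalizer (X : Set H)) (hfac : ∀ a ∈ A, a ≠ 1 → ((K ⊓ Subgroup.centralizer {a} : Subgroup H) : Set H) = ((X ⊓ Subgroup.centralizer {a} : Subgroup H) : Set H) * ((Y ⊓ Subgroup.centralizer {a} : Subgroup H) : Set H)) : (K : Set H) = (X : Set H) * (Y : Set H) := by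
  classical
  have hp := (Fact.out : p.Prime)
  have hApow : IsPGroup p A := fun a => ⟨1, by rw [pow_one]; exact Subtype.ext (hA.2 a a.2)⟩
  obtain ⟨n, hn⟩ := (IsPGroup.iff_card).mp hApow
  have hn2 : 2 ≤ n := by
    by_contra h
    push Not at h
    rw [hn] at hA2
    have h1 : p ^ n ≤ p ^ 1 := Nat.pow_le_pow_right hp.pos (Nat.lt_succ_iff.mp h)
    have h2 : p ^ 1 < p ^ 2 := Nat.pow_lt_pow_right hp.one_lt (by norm_num)
    omega
  have hdvd : p ^ 2 ∣ Nat.card A := hn ▸ pow_dvd_pow p hn2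
  obtain ⟨B, hB⟩ := Sylow.exists_subgroup_card_pow_prime p hdvd
  obtain ⟨A₀, hA₀def⟩ : ∃ A₀ : Subgroup H, A₀ = B.map A.subtype := ⟨_, rfl⟩
  have hA₀A : A₀ ≤ A := hA₀def ▸ Subgroup.map_subtype_le B
  have hA₀card : Nat.card A₀ = p ^ 2 := by
    rw [hA₀def, Subgroup.card_map_of_injective A.subtype_injective, hB]
  have hA_comm : IsMulCommutative A := hA.1
  have hcomm : ∀ a ∈ A₀, ∀ b ∈ A₀, a * b = b * a := by
    intro a ha b hb
    have := mul_comm' (⟨a, hA₀A ha⟩ : A) ⟨b, hA₀A hb⟩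
    exact congrArg Subtype.val this
  have hexp : ∀ a ∈ A₀, a ^ p = 1 := fun a ha => hA.2 a (hA₀A ha)
  have hA₀p : IsPGroup p A₀ := IsPGroup.of_card hA₀card
  have hA₀K := hA₀A.trans hAK
  have hA₀X := hA₀A.trans hAX
  have hA₀Y := hA₀A.trans hAY
  have hA₀XY : A₀ ≤ normalizer ((X ⊓ Y : Subgroup H) : Set H) :=
    Cfsg.Agent.Lib.Helper21.le_normalizer_inf_of_le hA₀X hA₀Y
  have hXp : ¬ p ∣ Nat.card X := fun h => hK (h.trans (Subgroup.card_dvd_of_le hX))
  have hYp : ¬ p ∣ Nat.card Y := fun h => hK (h.trans (Subgroup.card_dvd_of_le hY))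
  have hXYp : ¬ p ∣ Nat.card ↥(X ⊓ Y) :=
    fun h => hK (h.trans (Subgroup.card_dvd_of_le (inf_le_left.trans hX)))
  have : Fintype A₀ := Fintype.ofFinite A₀
  have fK := amb_formula A₀ K hcomm hexp hA₀card hK hA₀K
  have fX := amb_formula A₀ X hcomm hexp hA₀card hXp hA₀X
  have fY := amb_formula A₀ Y hcomm hexp hA₀card hYp hA₀Y
  have fXY := amb_formula A₀ (X ⊓ Y) hcomm hexp hA₀card hXYp hA₀XY
  have hel : ∀ c : A₀, c ≠ 1 →
      Nat.card ↥(X ⊓ centralizer ({(c : H)} : Set H)) *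
        Nat.card ↥(Y ⊓ centralizer ({(c : H)} : Set H)) =
      Nat.card ↥(K ⊓ centralizer ({(c : H)} : Set H)) *
        Nat.card ↥((X ⊓ Y) ⊓ centralizer ({(c : H)} : Set H)) := by
    intro c hc
    have hc1 : (c : H) ≠ 1 := fun h => hc (Subtype.ext h)
    have hf := hfac c (hA₀A c.2) hc1
    have hsup : X ⊓ centralizer {(c : H)} ⊔ Y ⊓ centralizer {(c : H)} =
        K ⊓ centralizer {(c : H)} := by
      apply le_antisymm
      · exact sup_le (inf_le_inf_right _ hX) (inf_le_inf_right _ hY)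
      · intro x hx
        have hx' : x ∈ ((K ⊓ centralizer {(c : H)} : Subgroup H) : Set H) := hx
        rw [hf] at hx'
        obtain ⟨a, ha, b, hb, rfl⟩ := Set.mem_mul.mp hx'
        exact Subgroup.mul_mem_sup ha hb
    have h1 := card_mul_of_forall_mul (X ⊓ centralizer {(c : H)}) (Y ⊓ centralizer {(c : H)}) (by
      intro x hx
      rw [hsup] at hx
      have hx' : x ∈ ((K ⊓ centralizer {(c : H)} : Subgroup H) : Set H) := hx
      rw [hf] at hx'
      obtain ⟨a, ha, b, hb, rfl⟩ := Set.mem_mul.mp hx'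
      exact ⟨a, ha, b, hb, rfl⟩)
    rw [hsup, ← inf_inf_distrib_right] at h1
    exact h1
  obtain ⟨c₀, hc₀⟩ : ∃ c₀ : A₀, c₀ ≠ 1 := by
    have : Nontrivial A₀ := (Finite.one_lt_card_iff_nontrivial).mp (by
      rw [hA₀card]; nlinarith [hp.one_lt])
    exact exists_ne 1
  have hA₀fac : ∀ x ∈ K ⊓ centralizer (A₀ : Set H), ∃ s ∈ X ⊓ centralizer (A₀ : Set H),
      ∃ t ∈ Y ⊓ centralizer (A₀ : Set H), x = s * t := by
    intro x hx
    rw [mem_inf] at hx
    have hxc : x ∈ ((K ⊓ centralizer {(c₀ : H)} : Subgroup H) : Set H) := by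
      refine mem_inf.mpr ⟨hx.1, ?_⟩
      exact (Subgroup.centralizer_le (Set.singleton_subset_iff.mpr c₀.2)) hx.2
    rw [hfac c₀ (hA₀A c₀.2) (fun h => hc₀ (Subtype.ext h))] at hxc
    obtain ⟨s, hs, t, ht, hst⟩ := Set.mem_mul.mp hxc
    exact fixed_factor A₀ X Y hA₀p hcomm hXp hA₀X hA₀Y c₀ c₀.2 x hx.2 s t hs ht hst.symm
  have hA₀sup : X ⊓ centralizer (A₀ : Set H) ⊔ Y ⊓ centralizer (A₀ : Set H) =
      K ⊓ centralizer (A₀ : Set H) := by
    apply le_antisymm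
    · exact sup_le (inf_le_inf_right _ hX) (inf_le_inf_right _ hY)
    · intro x hx
      obtain ⟨s, hs, t, ht, rfl⟩ := hA₀fac x hx
      exact Subgroup.mul_mem_sup hs ht
  have hcA := card_mul_of_forall_mul (X ⊓ centralizer (A₀ : Set H))
    (Y ⊓ centralizer (A₀ : Set H)) (by
      intro x hx; rw [hA₀sup] at hx; exact hA₀fac x hx)
  rw [hA₀sup, ← inf_inf_distrib_right] at hcA
  have hprod : (∏ c ∈ Finset.univ.erase (1 : A₀),
        Nat.card ↥(X ⊓ centralizer ({(c : H)} : Set H))) *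
      (∏ c ∈ Finset.univ.erase (1 : A₀), Nat.card ↥(Y ⊓ centralizer ({(c : H)} : Set H))) =
      (∏ c ∈ Finset.univ.erase (1 : A₀), Nat.card ↥(K ⊓ centralizer ({(c : H)} : Set H))) *
      (∏ c ∈ Finset.univ.erase (1 : A₀),
        Nat.card ↥((X ⊓ Y) ⊓ centralizer ({(c : H)} : Set H))) := by
    rw [← Finset.prod_mul_distrib, ← Finset.prod_mul_distrib]
    apply Finset.prod_congr rfl
    intro c hc
    exact hel c (Finset.ne_of_mem_erase hc)
  rw [← fX, ← fY, ← fK, ← fXY] at hprod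
  have hkey : (Nat.card X * Nat.card Y) ^ (p - 1) =
      (Nat.card K * Nat.card ↥(X ⊓ Y)) ^ (p - 1) := by
    have hpos : 0 < (Nat.card ↥(X ⊓ centralizer (A₀ : Set H)) *
        Nat.card ↥(Y ⊓ centralizer (A₀ : Set H))) ^ (p * (p - 1)) :=
      pow_pos (Nat.mul_pos Nat.card_pos Nat.card_pos) _
    apply Nat.eq_of_mul_eq_mul_right hpos
    calc (Nat.card X * Nat.card Y) ^ (p - 1) *
          (Nat.card ↥(X ⊓ centralizer (A₀ : Set H)) *
            Nat.card ↥(Y ⊓ centralizer (A₀ : Set H))) ^ (p * (p - 1))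
        = Nat.card X ^ (p - 1) * Nat.card ↥(X ⊓ centralizer (A₀ : Set H)) ^ (p * (p - 1)) *
          (Nat.card Y ^ (p - 1) * Nat.card ↥(Y ⊓ centralizer (A₀ : Set H)) ^ (p * (p - 1))) := by
          ring
      _ = Nat.card K ^ (p - 1) * Nat.card ↥(K ⊓ centralizer (A₀ : Set H)) ^ (p * (p - 1)) *
          (Nat.card ↥(X ⊓ Y) ^ (p - 1) *
            Nat.card ↥((X ⊓ Y) ⊓ centralizer (A₀ : Set H)) ^ (p * (p - 1))) := hprod
      _ = (Nat.card K * Nat.card ↥(X ⊓ Y)) ^ (p - 1) *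
          (Nat.card ↥(K ⊓ centralizer (A₀ : Set H)) *
            Nat.card ↥((X ⊓ Y) ⊓ centralizer (A₀ : Set H))) ^ (p * (p - 1)) := by ring
      _ = (Nat.card K * Nat.card ↥(X ⊓ Y)) ^ (p - 1) *
          (Nat.card ↥(X ⊓ centralizer (A₀ : Set H)) *
            Nat.card ↥(Y ⊓ centralizer (A₀ : Set H))) ^ (p * (p - 1)) := by rw [hcA]
  have hp1 : p - 1 ≠ 0 := by have := hp.two_le; omega
  have hcardeq : Nat.card X * Nat.card Y = Nat.card K * Nat.card ↥(X ⊓ Y) :=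
    Nat.pow_left_injective hp1 hkey
  have hXYK : X ⊔ Y ≤ K := sup_le hX hY
  have h1 := Cfsg.Agent.Lib.Helper21.card_mul_card_le_sup_inf X Y
  have h2 : Nat.card ↥(X ⊔ Y) ≤ Nat.card K := Subgroup.card_le_of_le hXYK
  have h3 : Nat.card ↥(X ⊔ Y) = Nat.card K := by
    apply le_antisymm h2
    have hpos : 0 < Nat.card ↥(X ⊓ Y) := Nat.card_pos
    by_contra hcon
    push Not at hcon
    nlinarith
  have hsupK : X ⊔ Y = K := Subgroup.eq_of_le_of_card_ge hXYK h3.ge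
  have h4 : Nat.card X * Nat.card Y = Nat.card ↥(X ⊔ Y) * Nat.card ↥(X ⊓ Y) := by
    rw [h3]; exact hcardeq
  have h5 := Cfsg.Agent.Lib.Helper21.exists_mul_of_card_eq X Y h4
  ext k
  constructor
  · intro hk
    have hk' : k ∈ X ⊔ Y := hsupK ▸ hk
    obtain ⟨a, ha, b, hb, rfl⟩ := h5 k hk'
    exact Set.mul_mem_mul ha hb
  · intro hk
    obtain ⟨a, ha, b, hb, rfl⟩ := Set.mem_mul.mp hk
    exact K.mul_mem (hX ha) (hY hb)

end Cfsg.Agent.S1287
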