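import Cfsg.Statements.S1289
import Cfsg.Agent.Lib.Helper10.PComp

set_option autoImplicit false
open Cfsg

namespace Cfsg.Agent.S1289

open Cfsg.Agent.Lib.Helper10 in
/-- A p-component K of the finite group X is subnormal, perfect, of order divisible by p, and minimal among the subnormal perfect subgroups of X of order divisible by p. -/
theorem result {X : Type*} [Group X] [Finite X] (p : ℕ) [Fact p.Prime] (K : Subgroup X) (hK : Cfsg.IsPComponent p K) : K.IsSubnormal ∧ ⁅K, K⁆ = K ∧ p ∣ Nat.card ↥K ∧ ∀ H : Subgroup X, H ≤ K → H.IsSubnormal → ⁅H, H⁆ = H → p ∣ Nat.card ↥H → H = K := by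
  refine ⟨hK.1, pcomp_perfect p hK, pcomp_dvd p hK, ?_⟩
  intro H hHK hH hperf hdvd
  apply hK.2.2 H hH hHK
  by_contra hne
  have hsub : ((H.map (QuotientGroup.mk' (Cfsg.pPrimeCore p X))).subgroupOf
      (K.map (QuotientGroup.mk' (Cfsg.pPrimeCore p X)))).IsSubnormal :=
    (hH.map (QuotientGroup.mk'_surjective _)).subgroupOf
  have hnt : (H.map (QuotientGroup.mk' (Cfsg.pPrimeCore p X))).subgroupOf
      (K.map (QuotientGroup.mk' (Cfsg.pPrimeCore p X))) ≠ ⊤ := by
    intro h
    rw [Subgroup.subgroupOf_eq_top] at h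
    exact hne (le_antisymm (Subgroup.map_mono hHK) h)
  have hcen := Cfsg.Agent.Lib.Helper11.qs_subnormal_le_center hK.2.1.2 _ hsub hnt
  have hcomm : ⁅H.map (QuotientGroup.mk' (Cfsg.pPrimeCore p X)),
      H.map (QuotientGroup.mk' (Cfsg.pPrimeCore p X))⁆ = ⊥ := by
    rw [Subgroup.commutator_eq_bot_iff_le_centralizer]
    intro a ha
    rw [Subgroup.mem_centralizer_iff]
    intro b hb
    have haK : a ∈ K.map (QuotientGroup.mk' (Cfsg.pPrimeCore p X)) := Subgroup.map_mono hHK ha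
    have hbK : b ∈ K.map (QuotientGroup.mk' (Cfsg.pPrimeCore p X)) := Subgroup.map_mono hHK hb
    have h1 : (⟨a, haK⟩ : K.map (QuotientGroup.mk' (Cfsg.pPrimeCore p X))) ∈
        Subgroup.center (K.map (QuotientGroup.mk' (Cfsg.pPrimeCore p X))) :=
      hcen (Subgroup.mem_subgroupOf.2 ha)
    have h2 := Subgroup.mem_center_iff.1 h1 ⟨b, hbK⟩
    exact congrArg Subtype.val h2
  rw [← Subgroup.map_commutator, hperf, Subgroup.map_eq_bot_iff, QuotientGroup.ker_mk'] at hcomm
  have h3 : Nat.card H ∣ Nat.card (Cfsg.pPrimeCore p X) := Subgroup.card_dvd_of_le hcomm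
  have h4 := Nat.Coprime.coprime_dvd_left h3 (Cfsg.Agent.Lib.Helper14.pPrimeCore_coprime p)
  exact (Nat.Prime.coprime_iff_not_dvd Fact.out).1 h4.symm hdvd

end Cfsg.Agent.S1289
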