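import Mathlib
import Cfsg.Statements.S1297
import Cfsg.Agent.Lib.Helper11.Balance

set_option autoImplicit false
open Cfsg

namespace Cfsg.Agent.S1297

open Cfsg.Agent.Lib.Helper11 in
/-- Let G be finite. Suppose that for every involution x, writing C = C_G(x), every component K of C / O(C) has K / Z(K) locally balanced. Then G is balanced. -/
theorem result {G : Type*} [Group G] [Finite G] (h : ∀ x : G, orderOf x = 2 → ∀ K : Subgroup (↥(Subgroup.centralizer ({x} : Set G)) ⧸ Cfsg.oddCore ↥(Subgroup.centralizer ({x} : Set G))), Cfsg.IsComponent K → Cfsg.IsLocallyBalanced (↥K ⧸ Subgroup.center ↥K)) : Cfsg.IsBalanced G := by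
  have key : ∀ x y : G, orderOf x = 2 → orderOf y = 2 → x * y = y * x →
      Cfsg.centralizerPPrimeCore 2 x ⊓ Subgroup.centralizer {y} ≤
        Cfsg.centralizerPPrimeCore 2 y := by
    intro x y hx hy hxy
    have hbal : Cfsg.IsBalancedFor 2 ↥(Subgroup.centralizer ({y} : Set G)) :=
      isBalancedFor_two_of_locallyBalanced (h y hy)
    have hxC : x ∈ Subgroup.centralizer ({y} : Set G) := by
      rw [Subgroup.mem_centralizer_iff]
      intro z hz
      rw [Set.mem_singleton_iff] at hz
      rw [hz]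
      exact hxy.symm
    have hxh : orderOf (⟨x, hxC⟩ : ↥(Subgroup.centralizer ({y} : Set G))) = 2 :=
      (Subgroup.orderOf_mk x hxC).trans hx
    have h1 := hbal ⟨x, hxC⟩ hxh
    intro d hd
    have hd1 : d ∈ coreOf 2 (Subgroup.centralizer ({x} : Set G)) ⊓
        Subgroup.centralizer ({y} : Set G) := hd
    have hd2 := coreOf_inf_le 2 _ _ hd1
    have hdy : d ∈ Subgroup.centralizer ({y} : Set G) := hd.2
    have hd3 : (⟨d, hdy⟩ : ↥(Subgroup.centralizer ({y} : Set G))) ∈
        Cfsg.centralizerPPrimeCore 2 (⟨x, hxC⟩ : ↥(Subgroup.centralizer ({y} : Set G))) := by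
      rw [cpc_subtype, Subgroup.mem_subgroupOf, inf_comm]
      exact hd2
    exact ⟨⟨d, hdy⟩, h1 hd3, rfl⟩
  intro x y hx hy hxy
  apply le_antisymm
  · exact le_inf (key x y hx hy hxy) (inf_le_left.trans (coreOf_le 2 _))
  · exact le_inf (key y x hy hx hxy.symm) (inf_le_left.trans (coreOf_le 2 _))

end Cfsg.Agent.S1297
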