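import Mathlib
import Cfsg.Statements.S1298
import Cfsg.Agent.Lib.Helper11.KBalance

set_option autoImplicit false
open Cfsg

namespace Cfsg.Agent.S1298

open Cfsg.Agent.Lib.Helper11 in
/-- Let G be finite and k ≥ 1. Suppose that for every x of order p, writing C = C_G(x), every component K of C / O_{p'}(C) has K / Z(K) locally k-balanced for p. Then G is k-balanced for p. -/
theorem result {G : Type*} [Group G] [Finite G] (p k : ℕ) [Fact p.Prime] (hk : 1 ≤ k) (h : ∀ x : G, orderOf x = p → ∀ K : Subgroup (↥(Subgroup.centralizer ({x} : Set G)) ⧸ Cfsg.pPrimeCore p ↥(Subgroup.centralizer ({x} : Set G))), Cfsg.IsComponent K → Cfsg.IsLocallyKBalanced p k (↥K ⧸ Subgroup.center ↥K)) : Cfsg.IsKBalanced p k G := by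
  intro A hA hAk b hb hAb
  have hAC : A ≤ Subgroup.centralizer ({b} : Set G) := by
    intro a ha
    rw [Subgroup.mem_centralizer_iff]
    intro z hz
    rw [Set.mem_singleton_iff] at hz
    rw [hz]
    exact (hAb a ha).symm
  have hA'el : Cfsg.IsElementaryAbelian p (A.subgroupOf (Subgroup.centralizer ({b} : Set G))) := by
    refine ⟨IsMulCommutative.of_setLike_mul_comm ?_, ?_⟩
    · intro s hs t ht
      apply Subtype.ext
      exact elemAb_comm hA (Subgroup.mem_subgroupOf.1 hs) (Subgroup.mem_subgroupOf.1 ht)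
    · intro s hs
      apply Subtype.ext
      rw [Subgroup.coe_pow, Subgroup.coe_one]
      exact hA.2 _ (Subgroup.mem_subgroupOf.1 hs)
  have hA'card : Nat.card (A.subgroupOf (Subgroup.centralizer ({b} : Set G))) = p ^ k :=
    (Nat.card_congr (Subgroup.subgroupOfEquivOfLe hAC).toEquiv).trans hAk
  have hK := signalizerDelta_le_pPrimeCore p hk (h b hb) _ hA'el hA'card
  intro d hd
  have hdC : d ∈ Subgroup.centralizer ({b} : Set G) := hd.2
  have hdΔ : (⟨d, hdC⟩ : ↥(Subgroup.centralizer ({b} : Set G))) ∈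
      Cfsg.signalizerDelta p (A.subgroupOf (Subgroup.centralizer ({b} : Set G))) := by
    unfold Cfsg.signalizerDelta
    rw [Subgroup.mem_iInf]
    rintro ⟨a, haA, ha1⟩
    have haA' : (a : G) ∈ A := Subgroup.mem_subgroupOf.1 haA
    have ha1' : (a : G) ≠ 1 := fun h => ha1 (Subtype.ext h)
    show (⟨d, hdC⟩ : ↥(Subgroup.centralizer ({b} : Set G))) ∈
      Cfsg.centralizerPPrimeCore p (⟨(a : G), a.2⟩ : ↥(Subgroup.centralizer ({b} : Set G)))
    rw [cpc_subtype, Subgroup.mem_subgroupOf]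
    have hda : d ∈ Cfsg.centralizerPPrimeCore p (a : G) :=
      (Subgroup.mem_iInf.1 hd.1) ⟨(a : G), haA', ha1'⟩
    rw [inf_comm]
    exact coreOf_inf_le p _ _ ⟨hda, hdC⟩
  exact ⟨⟨d, hdC⟩, hK hdΔ, rfl⟩

end Cfsg.Agent.S1298
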