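import Cfsg.Statements.S1299
import Cfsg.Agent.Lib.Helper7.KBal2

set_option autoImplicit false
open Cfsg

namespace Cfsg.Agent.S1299

open Cfsg.Agent.Lib.Helper11 Cfsg.Agent.Lib.Helper1 Cfsg.Agent.Lib.Helper7.KBal
  Cfsg.Agent.Lib.Helper7.KBal2

section aux

variable {G : Type*} [Group G]

theorem exists_sub [Finite G] {p k : ℕ} [Fact p.Prime] {A B : Subgroup G}
    (hA : Cfsg.IsElementaryAbelian p A) (hB : B ≤ A) (hBk : p ^ k ≤ Nat.card B) :
    ∃ B0 : Subgroup G, B0 ≤ B ∧ Nat.card B0 = p ^ k := by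
  have hp := (Fact.out : p.Prime)
  obtain ⟨H', hH'⟩ := Sylow.exists_subgroup_card_pow_prime_of_le_card hp
    (elemAb_isPGroup hA hB) hBk
  refine ⟨H'.map B.subtype, Subgroup.map_subtype_le _, ?_⟩
  rw [Subgroup.card_map_of_injective B.subtype_injective]
  exact hH'

/-- `k`-balance for subgroups of rank at least `k`. -/
theorem bal_ge [Finite G] {p k : ℕ} [Fact p.Prime] (hbal : Cfsg.IsKBalanced p k G)
    {A : Subgroup G} (hA : Cfsg.IsElementaryAbelian p A) {B : Subgroup G} (hB : B ≤ A)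
    (hBk : p ^ k ≤ Nat.card B) {b : G} (hb : b ∈ A) (hb1 : b ≠ 1) :
    Cfsg.signalizerDelta p B ⊓ Subgroup.centralizer {b} ≤ Cfsg.centralizerPPrimeCore p b := by
  have hp := (Fact.out : p.Prime)
  obtain ⟨B0, hB0B, hB0card⟩ := exists_sub hA hB hBk
  have hB0e : Cfsg.IsElementaryAbelian p B0 := elemAb_of_le hA (hB0B.trans hB)
  have hord : orderOf b = p := orderOf_eq_prime (hA.2 b hb) hb1
  refine le_trans (inf_le_inf_right _ (delta_mono p hB0B)) (hbal B0 hB0e hB0card b hord ?_)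
  intro a ha
  exact elemAb_comm hA (hB (hB0B ha)) hb

theorem delta_inf_cent [Finite G] {p k : ℕ} [Fact p.Prime] (hbal : Cfsg.IsKBalanced p k G)
    {A : Subgroup G} (hA : Cfsg.IsElementaryAbelian p A) {B D : Subgroup G} (hB : B ≤ A)
    (hBk : p ^ k ≤ Nat.card B) (hD : D ≤ A) :
    Cfsg.signalizerDelta p B ⊓ Subgroup.centralizer (D : Set G) ≤ Cfsg.signalizerDelta p D := by
  refine le_iInf fun d => ?_
  have hsub : ({(d : G)} : Set G) ⊆ (D : Set G) := by
    intro y hy
    rw [Set.mem_singleton_iff] at hy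
    subst hy
    exact d.2.1
  exact le_trans (inf_le_inf_left _ (Subgroup.centralizer_le hsub))
    (bal_ge hbal hA hB hBk (hD d.2.1) d.2.2)

theorem le_theta [Finite G] {p k : ℕ} [Fact p.Prime] {A : Subgroup G}
    (hA : Cfsg.IsElementaryAbelian p A) {B : Subgroup G} (hB : B ≤ A)
    (hBk : p ^ k ≤ Nat.card B) (a : G) :
    Cfsg.signalizerDelta p B ⊓ Subgroup.centralizer {a} ≤
      ⨆ D : {D : Subgroup G // D ≤ A ∧ Nat.card ↥D = p ^ k},
        Cfsg.signalizerDelta p (D : Subgroup G) ⊓ Subgroup.centralizer {a} := by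
  obtain ⟨B0, hB0B, hB0card⟩ := exists_sub hA hB hBk
  exact le_trans (inf_le_inf_right _ (delta_mono p hB0B))
    (le_iSup (fun D : {D : Subgroup G // D ≤ A ∧ Nat.card ↥D = p ^ k} =>
      Cfsg.signalizerDelta p (D : Subgroup G) ⊓ Subgroup.centralizer {a})
      ⟨B0, hB0B.trans hB, hB0card⟩)

theorem cent_normalizer {p : ℕ} {A : Subgroup G} (hA : Cfsg.IsElementaryAbelian p A) {a : G}
    (ha : a ∈ A) : A ≤ Subgroup.normalizer ((Subgroup.centralizer {a} : Subgroup G) : Set G) := by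
  intro c hc
  apply Subgroup.le_normalizer
  rw [Subgroup.mem_centralizer_iff]
  intro y hy
  rw [Set.mem_singleton_iff] at hy
  subst hy
  exact elemAb_comm hA ha hc

theorem norm_term {p : ℕ} {A : Subgroup G} (hA : Cfsg.IsElementaryAbelian p A) {B : Subgroup G}
    (hB : B ≤ A) {a : G} (ha : a ∈ A) :
    A ≤ Subgroup.normalizer
      ((Cfsg.signalizerDelta p B ⊓ Subgroup.centralizer {a} : Subgroup G) : Set G) :=
  (le_inf (delta_normalizer hA hB) (cent_normalizer hA ha)).trans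
    Subgroup.inf_normalizer_le_normalizer_inf

theorem card_inf_ge [Finite G] {p k : ℕ} [Fact p.Prime] {A D D' : Subgroup G}
    (hAk : p ^ (k + 2) ≤ Nat.card A) (hD : Hyp p A D) (hD' : Hyp p A D') :
    p ^ k ≤ Nat.card (D ⊓ D' : Subgroup G) := by
  have h1 : p ^ (k + 1) ≤ Nat.card D := pow_le_of_hyp hD.1 hD.2 hAk
  have h2 : (D ⊓ D').relIndex D ≤ p := by
    rw [Subgroup.inf_relIndex_left]
    have h3 : D'.relIndex A ≠ 0 :=
      (Nat.pos_of_dvd_of_pos (Subgroup.relIndex_dvd_card D' A) Nat.card_pos).ne'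
    exact (Subgroup.relIndex_le_of_le_right hD.1 h3).trans hD'.2
  exact pow_le_of_hyp inf_le_left h2 h1

theorem fam [Finite G] {p k : ℕ} [Fact p.Prime] (hk : 1 ≤ k) (hbal : Cfsg.IsKBalanced p k G)
    {A : Subgroup G} (hA : Cfsg.IsElementaryAbelian p A) (hAk : p ^ (k + 2) ≤ Nat.card A)
    {a : G} (ha : a ∈ A) :
    Fam p A (⨆ D : {D : Subgroup G // D ≤ A ∧ Nat.card ↥D = p ^ k},
        Cfsg.signalizerDelta p (D : Subgroup G) ⊓ Subgroup.centralizer {a})
      (fun B => Cfsg.signalizerDelta p B ⊓ Subgroup.centralizer {a}) where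
  le := fun D D' hD hD' => le_theta hA (inf_le_left.trans hD.1) (card_inf_ge hAk hD hD') a
  norm := fun D D' hD hD' => norm_term hA (inf_le_left.trans hD.1) ha
  mono := fun D D' hD hD' => inf_le_inf_right _ (delta_mono p inf_le_left)
  cent := fun D D' D'' hD hD' hD'' => by
    refine le_inf ?_ (inf_le_left.trans inf_le_right)
    exact (inf_le_inf_right _ inf_le_left).trans
      (delta_inf_cent hbal hA (inf_le_left.trans hD.1) (card_inf_ge hAk hD hD') hD''.1)
  le_cent := fun D hD => inf_le_left.trans (delta_le_centralizer p D)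
  gen := by
    refine iSup_le fun B => ?_
    obtain ⟨B, hBA, hBcard⟩ := B
    obtain ⟨b, hb, hb1⟩ := exists_ne_one hk (le_of_eq hBcard.symm)
    have hYp : ¬ p ∣ Nat.card
        (Cfsg.signalizerDelta p B ⊓ Subgroup.centralizer {a} : Subgroup G) :=
      fun hd => delta_not_dvd hb hb1 (hd.trans (Subgroup.card_dvd_of_le inf_le_left))
    have hgen := hypGen_main p _ G A _ hA hYp (norm_term hA hBA ha) le_rfl
    refine hgen.trans ?_
    unfold hypGen
    refine iSup_le fun D'' => ?_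
    obtain ⟨D'', hD''⟩ := D''
    refine le_trans ?_ (le_iSup (fun D : {D : Subgroup G // Hyp p A D} =>
      Cfsg.signalizerDelta p (D : Subgroup G) ⊓ Subgroup.centralizer {a}) ⟨D'', hD''⟩)
    refine le_inf ?_ (inf_le_left.trans inf_le_right)
    exact (inf_le_inf_right _ inf_le_left).trans
      (delta_inf_cent hbal hA hBA (le_of_eq hBcard.symm) hD''.1)

end aux

/-- Let G be finite and k-balanced for the prime p (k ≥ 1), A an elementary abelian p-subgroup of order at least p^(k+2) such that O_{p'}(C_G(a)) is solvable for every non-identity a ∈ A. For a ∈ A put θ a = the subgroup generated by the Δ_G(D) ∩ C_G(a) over the subgroups D ≤ A of order p^k. Then θ is an A-signalizer functor. -/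
theorem result {G : Type*} [Group G] [Finite G] (p k : ℕ) [Fact p.Prime] (hk : 1 ≤ k) (hbal : Cfsg.IsKBalanced p k G) (A : Subgroup G) (hA : Cfsg.IsElementaryAbelian p A) (hAk : p ^ (k + 2) ≤ Nat.card ↥A) (hsolv : ∀ a ∈ A, a ≠ 1 → Group.IsSolvable ↥(Cfsg.centralizerPPrimeCore p a)) : Cfsg.IsSignalizerFunctor p A (fun a => ⨆ D : {D : Subgroup G // D ≤ A ∧ Nat.card ↥D = p ^ k}, Cfsg.signalizerDelta p (D : Subgroup G) ⊓ Subgroup.centralizer {a}) := by
  have hp := (Fact.out : p.Prime)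
  have hθle : ∀ a ∈ A, a ≠ 1 →
      (⨆ D : {D : Subgroup G // D ≤ A ∧ Nat.card ↥D = p ^ k},
        Cfsg.signalizerDelta p (D : Subgroup G) ⊓ Subgroup.centralizer {a}) ≤
      Cfsg.centralizerPPrimeCore p a := fun a ha ha1 =>
    iSup_le fun D => bal_ge hbal hA D.2.1 (le_of_eq D.2.2.symm) ha ha1
  have hθp : ∀ a ∈ A, a ≠ 1 → ¬ p ∣ Nat.card
      (⨆ D : {D : Subgroup G // D ≤ A ∧ Nat.card ↥D = p ^ k},
        Cfsg.signalizerDelta p (D : Subgroup G) ⊓ Subgroup.centralizer {a} : Subgroup G) := by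
    intro a ha ha1 hdvd
    have h1 := hdvd.trans (Subgroup.card_dvd_of_le (hθle a ha ha1))
    exact (Nat.Prime.coprime_iff_not_dvd hp).mp (cpc_coprime p a).symm h1
  have hAθ : ∀ a ∈ A, A ≤ Subgroup.normalizer
      ((⨆ D : {D : Subgroup G // D ≤ A ∧ Nat.card ↥D = p ^ k},
        Cfsg.signalizerDelta p (D : Subgroup G) ⊓ Subgroup.centralizer {a} : Subgroup G) : Set G) :=
    fun a ha => le_trans (le_iInf fun D => norm_term hA D.2.1 ha)
      (Subgroup.iInf_normalizer_le_normalizer_iSup _)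
  refine ⟨?_, ?_, ?_, ?_⟩
  · intro a ha ha1
    exact iSup_le fun D => inf_le_right
  · intro a ha ha1
    exact hθp a ha ha1
  · intro a ha ha1 b hb x hx
    exact (Subgroup.mem_normalizer_iff.mp (hAθ a ha hb) x).mp hx
  · intro a ha ha1 b hb hb1
    have hθsol : Group.IsSolvable
        (⨆ D : {D : Subgroup G // D ≤ A ∧ Nat.card ↥D = p ^ k},
          Cfsg.signalizerDelta p (D : Subgroup G) ⊓ Subgroup.centralizer {a} : Subgroup G) := by
      have := hsolv a ha ha1
      exact isSolvable_of_le (hθle a ha ha1)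
    have hmain := main hA _ _ _ le_rfl hθsol (hθp a ha ha1) (hAθ a ha) (fam hk hbal hA hAk ha)
    have hAY : A ≤ Subgroup.normalizer
        (((⨆ D : {D : Subgroup G // D ≤ A ∧ Nat.card ↥D = p ^ k},
          Cfsg.signalizerDelta p (D : Subgroup G) ⊓ Subgroup.centralizer {a}) ⊓
            Subgroup.centralizer {b} : Subgroup G) : Set G) :=
      (le_inf (hAθ a ha) (cent_normalizer hA hb)).trans Subgroup.inf_normalizer_le_normalizer_inf
    have hYp : ¬ p ∣ Nat.card
        ((⨆ D : {D : Subgroup G // D ≤ A ∧ Nat.card ↥D = p ^ k},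
          Cfsg.signalizerDelta p (D : Subgroup G) ⊓ Subgroup.centralizer {a}) ⊓
            Subgroup.centralizer {b} : Subgroup G) :=
      fun hd => hθp a ha ha1 (hd.trans (Subgroup.card_dvd_of_le inf_le_left))
    have hgen := hypGen_main p _ G A _ hA hYp hAY le_rfl
    refine hgen.trans ?_
    unfold hypGen
    refine iSup_le fun D => ?_
    obtain ⟨D, hD⟩ := D
    have h1 := hmain D hD
    have hDcard : p ^ k ≤ Nat.card D :=
      le_trans (Nat.pow_le_pow_right hp.pos (Nat.le_succ k)) (pow_le_of_hyp (k := k + 1) hD.1 hD.2 hAk)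
    refine le_trans ?_ (le_theta hA hD.1 hDcard b)
    refine le_inf ?_ (inf_le_left.trans inf_le_right)
    exact (inf_le_inf_right _ inf_le_left).trans (h1.trans inf_le_left)

end Cfsg.Agent.S1299
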