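import Mathlib
import Cfsg.Statements.S1300

set_option autoImplicit false
open Cfsg

namespace Cfsg.Agent.S1300

theorem core_le_centralizer {G : Type*} [Group G] (p : ℕ) (x : G) :
    Cfsg.centralizerPPrimeCore p x ≤ Subgroup.centralizer ({x} : Set G) := by
  unfold Cfsg.centralizerPPrimeCore
  intro g hg
  obtain ⟨y, _, rfl⟩ := Subgroup.mem_map.mp hg
  exact y.2

theorem mem_zpowers_two {G : Type*} [Group G] (x : G) (hx : orderOf x = 2) (a : G)
    (ha : a ∈ Subgroup.zpowers x) : a = 1 ∨ a = x := by
  obtain ⟨k, rfl⟩ := Subgroup.mem_zpowers_iff.mp ha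
  rw [← zpow_mod_orderOf, hx]
  have h2 : (k % ((2 : ℕ) : ℤ)) = 0 ∨ (k % ((2 : ℕ) : ℤ)) = 1 := by
    have := Int.emod_two_eq_zero_or_one k
    simpa using this
  rcases h2 with h | h
  · left; rw [h]; simp
  · right; rw [h]; simp

/-- A finite group is balanced (for pairs of commuting involutions) if and only if it is 1-balanced for the prime 2. -/
theorem result {G : Type*} [Group G] [Finite G] : Cfsg.IsBalanced G ↔ Cfsg.IsKBalanced 2 1 G := by
  constructor
  · intro hbal A hA hcard b hb hcomm
    have hnt : Nontrivial A := by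
      rw [← Finite.one_lt_card_iff_nontrivial, hcard]; norm_num
    obtain ⟨⟨a, haA⟩, ha1⟩ := exists_ne (1 : A)
    have ha1' : a ≠ 1 := fun h => ha1 (Subtype.ext h)
    have ha2 : a ^ 2 = 1 := hA.2 a haA
    have hoa : orderOf a = 2 := orderOf_eq_prime ha2 ha1'
    have hle : Cfsg.signalizerDelta 2 A ≤ Cfsg.centralizerPPrimeCore 2 a := by
      unfold Cfsg.signalizerDelta
      exact iInf_le (fun a : {a : G // a ∈ A ∧ a ≠ 1} => Cfsg.centralizerPPrimeCore 2 (a : G)) ⟨a, haA, ha1'⟩
    have hb' := hbal a b hoa hb (hcomm a haA)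
    calc Cfsg.signalizerDelta 2 A ⊓ Subgroup.centralizer {b}
        ≤ Cfsg.centralizerPPrimeCore 2 a ⊓ Subgroup.centralizer {b} := inf_le_inf_right _ hle
      _ = Cfsg.centralizerPPrimeCore 2 b ⊓ Subgroup.centralizer {a} := hb'
      _ ≤ Cfsg.centralizerPPrimeCore 2 b := inf_le_left
  · intro hk
    have key : ∀ x y : G, orderOf x = 2 → orderOf y = 2 → x * y = y * x →
        Cfsg.centralizerPPrimeCore 2 x ⊓ Subgroup.centralizer {y} ≤
          Cfsg.centralizerPPrimeCore 2 y ⊓ Subgroup.centralizer {x} := by
      intro x y hx hy hxy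
      have hA : Cfsg.IsElementaryAbelian 2 (Subgroup.zpowers x) := by
        refine ⟨inferInstance, ?_⟩
        intro a ha
        rcases mem_zpowers_two x hx a ha with rfl | rfl
        · simp
        · rw [← hx]; exact pow_orderOf_eq_one a
      have hcard : Nat.card (Subgroup.zpowers x) = 2 ^ 1 := by
        rw [Nat.card_zpowers, hx]; norm_num
      have hcomm : ∀ a ∈ Subgroup.zpowers x, a * y = y * a := by
        intro a ha
        rcases mem_zpowers_two x hx a ha with rfl | rfl
        · simp
        · exact hxy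
      have h1 := hk (Subgroup.zpowers x) hA hcard y hy hcomm
      have h2 : Cfsg.centralizerPPrimeCore 2 x ≤ Cfsg.signalizerDelta 2 (Subgroup.zpowers x) := by
        unfold Cfsg.signalizerDelta
        refine le_iInf ?_
        rintro ⟨a, ha, ha1⟩
        rcases mem_zpowers_two x hx a ha with rfl | rfl
        · exact absurd rfl ha1
        · exact le_rfl
      refine le_inf ?_ ?_
      · exact le_trans (inf_le_inf_right _ h2) h1
      · exact le_trans inf_le_left (core_le_centralizer 2 x)
    intro x y hx hy hxy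
    exact le_antisymm (key x y hx hy hxy) (key y x hy hx hxy.symm)

end Cfsg.Agent.S1300
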