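import Mathlib
import Cfsg.Statements.S1303
import Cfsg.Agent.Lib.Helper11.SL23

set_option autoImplicit false
open Cfsg

namespace Cfsg.Agent.S1303

open Cfsg.Agent.Lib.Helper11 in
/-- The group X = SL(2, 3): it is 2-constrained, O_{2'}(X) = 1, its centre A = Z(X) contains every involution of X = C_X(A), and X has a subgroup of order 3 (normalized by A) not contained in O_{2'}(X). -/
theorem result : Cfsg.IsPConstrained 2 (Matrix.SpecialLinearGroup (Fin 2) (ZMod 3)) ∧ Cfsg.pPrimeCore 2 (Matrix.SpecialLinearGroup (Fin 2) (ZMod 3)) = ⊥ ∧ (∀ t : Matrix.SpecialLinearGroup (Fin 2) (ZMod 3), orderOf t = 2 → t ∈ Subgroup.center (Matrix.SpecialLinearGroup (Fin 2) (ZMod 3))) ∧ ∃ Q : Subgroup (Matrix.SpecialLinearGroup (Fin 2) (ZMod 3)), Nat.card ↥Q = 3 ∧ ¬ (Q ≤ Cfsg.pPrimeCore 2 (Matrix.SpecialLinearGroup (Fin 2) (ZMod 3))) := by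
  refine ⟨sl23_constrained, sl23_pPrimeCore, sl23_involution_central, ?_⟩
  obtain ⟨u, hu⟩ := sl23_exists_order_three
  refine ⟨Subgroup.zpowers u, ?_, ?_⟩
  · rw [Nat.card_zpowers, hu]
  · rw [sl23_pPrimeCore, le_bot_iff, Subgroup.zpowers_eq_bot]
    intro h
    rw [h, orderOf_one] at hu
    exact absurd hu (by norm_num)

end Cfsg.Agent.S1303
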