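import Mathlib
import Cfsg.Statements.S1304

set_option autoImplicit false
open Cfsg
open scoped commutatorElement

namespace Cfsg.Agent.S1304

/-- Let X be a perfect group and α an automorphism of X with α(x) x⁻¹ central for every x. Then α is the identity. -/
theorem result {X : Type*} [Group X] (hperf : commutator X = ⊤) (α : X ≃* X) (h : ∀ x : X, α x * x⁻¹ ∈ Subgroup.center X) : ∀ x : X, α x = x := by
  have key : (⊤ : Subgroup X) ≤ MonoidHom.eqLocus α.toMonoidHom (MonoidHom.id X) := by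
    rw [← hperf, commutator_def, Subgroup.commutator_le]
    intro x _ y _
    change α ⁅x, y⁆ = ⁅x, y⁆
    have hx := h x
    have hy := h y
    rw [Subgroup.mem_center_iff] at hx hy
    have ex : α x = (α x * x⁻¹) * x := by group
    have ey : α y = (α y * y⁻¹) * y := by group
    set z := α x * x⁻¹ with hz
    set w := α y * y⁻¹ with hw
    rw [commutatorElement_def, map_mul, map_mul, map_mul, map_inv, map_inv, ex, ey]
    have h1 : z * x * (w * y) * (z * x)⁻¹ * (w * y)⁻¹ = x * y * x⁻¹ * y⁻¹ := by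
      have hzc : ∀ g, g * z = z * g := hx
      have hwc : ∀ g, g * w = w * g := hy
      calc z * x * (w * y) * (z * x)⁻¹ * (w * y)⁻¹
          = z * (x * w) * y * x⁻¹ * z⁻¹ * y⁻¹ * w⁻¹ := by group
        _ = z * (w * x) * y * x⁻¹ * z⁻¹ * y⁻¹ * w⁻¹ := by rw [hwc x]
        _ = (z * w) * (x * y * x⁻¹) * z⁻¹ * y⁻¹ * w⁻¹ := by group
        _ = (x * y * x⁻¹) * (z * w) * z⁻¹ * y⁻¹ * w⁻¹ := by
              rw [← mul_assoc (x * y * x⁻¹) z w, hzc (x * y * x⁻¹), mul_assoc z _ w, hwc (x * y * x⁻¹)]; group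
        _ = (x * y * x⁻¹) * z * (w * z⁻¹) * y⁻¹ * w⁻¹ := by group
        _ = (x * y * x⁻¹) * z * (z⁻¹ * w) * y⁻¹ * w⁻¹ := by rw [← hwc z⁻¹]
        _ = (x * y * x⁻¹) * (w * y⁻¹) * w⁻¹ := by group
        _ = (x * y * x⁻¹) * (y⁻¹ * w) * w⁻¹ := by rw [← hwc y⁻¹]
        _ = x * y * x⁻¹ * y⁻¹ := by group
    exact h1
  intro x
  exact key (Subgroup.mem_top x)

end Cfsg.Agent.S1304
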