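import Mathlib
import Cfsg.Statements.S1306
import Cfsg.Agent.Lib.Helper11.Components

set_option autoImplicit false
open Cfsg

namespace Cfsg.Agent.S1306

open Cfsg.Agent.Lib.Helper11

theorem key {G : Type*} [Group G] [Finite G] (L : Subgroup G)
    (hne : ∀ y : G, orderOf y = 2 → y ∈ Subgroup.centralizer (L : Set G) → L ≤ Subgroup.centralizer ({y} : Set G) ∧ Cfsg.IsComponent (L.subgroupOf (Subgroup.centralizer ({y} : Set G))))
    (hnc : ∀ g : G, L.map (MulAut.conj g).toMonoidHom ≠ L → ⁅L, L.map (MulAut.conj g).toMonoidHom⁆ ≠ ⊥)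
    (g y : G) (hy : orderOf y = 2) (hyK : y ∈ Subgroup.centralizer (L : Set G))
    (hyKg : y ∈ (Subgroup.centralizer (L : Set G)).map (MulAut.conj g).toMonoidHom) :
    L.map (MulAut.conj g).toMonoidHom = L := by
  obtain ⟨h1, h2⟩ := hne y hy hyK
  obtain ⟨k, hk, hky⟩ := hyKg
  have hk2 : orderOf k = 2 := by
    rw [← hy, ← hky]
    exact ((MulAut.conj g).orderOf_eq k).symm
  obtain ⟨h3, h4⟩ := hne k hk2 hk
  have hky' : g * k * g⁻¹ = y := by rw [← hky]; rfl
  have h5 := component_subgroupOf_map_equiv h4 (MulAut.conj g)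
  rw [map_conj_centralizer_singleton, hky'] at h5
  have h6 : L.map (MulAut.conj g).toMonoidHom ≤ Subgroup.centralizer ({y} : Set G) := by
    rw [← hky', ← map_conj_centralizer_singleton]
    exact Subgroup.map_mono h3
  by_contra hcon
  apply hnc g hcon
  by_cases heq : L.subgroupOf (Subgroup.centralizer ({y} : Set G)) =
      (L.map (MulAut.conj g).toMonoidHom).subgroupOf (Subgroup.centralizer ({y} : Set G))
  · exfalso
    apply hcon
    have := congrArg (Subgroup.map (Subgroup.centralizer ({y} : Set G)).subtype) heq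
    rw [Subgroup.map_subgroupOf_eq_of_le h1, Subgroup.map_subgroupOf_eq_of_le h6] at this
    exact this.symm
  · have := comm_of_subgroupOf_comm (components_comm h2 h5 heq)
    rwa [inf_of_le_left h1, inf_of_le_left h6] at this

/-- If a component L of some involution centralizer is a component of C_G(y) for every involution y centralizing L, and L commutes elementwise with none of its other conjugates, then L is a standard subgroup of G. -/
theorem result {G : Type*} [Group G] [Finite G] (x : G) (hx : orderOf x = 2) (L : Subgroup G) (hLx : L ≤ Subgroup.centralizer ({x} : Set G)) (hL : Cfsg.IsComponent (L.subgroupOf (Subgroup.centralizer ({x} : Set G)))) (hne : ∀ y : G, orderOf y = 2 → y ∈ Subgroup.centralizer (L : Set G) → L ≤ Subgroup.centralizer ({y} : Set G) ∧ Cfsg.IsComponent (L.subgroupOf (Subgroup.centralizer ({y} : Set G)))) (hnc : ∀ g : G, L.map (MulAut.conj g).toMonoidHom ≠ L → ⁅L, L.map (MulAut.conj g).toMonoidHom⁆ ≠ ⊥) : Cfsg.IsStandardSubgroup L := by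
  have hxK : x ∈ Subgroup.centralizer (L : Set G) := by
    rw [Subgroup.mem_centralizer_iff]
    intro l hl
    exact (Subgroup.mem_centralizer_iff.mp (hLx hl) x rfl).symm
  have hnorm1 : ∀ g : G, L.map (MulAut.conj g).toMonoidHom = L →
      g ∈ Subgroup.normalizer ((Subgroup.centralizer (L : Set G) : Subgroup G) : Set G) := by
    intro g hg
    apply mem_normalizer_of_map_conj_eq
    rw [map_conj_centralizer_subgroup, hg]
  refine ⟨qs_of_mulEquiv (Subgroup.subgroupOfEquivOfLe hLx) hL.2, ⟨?_, ?_⟩, hnc, ?_⟩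
  · rw [even_iff_two_dvd, ← hx, ← Subgroup.orderOf_mk x hxK]
    exact orderOf_dvd_natCard _
  · intro g hg
    by_contra hodd
    rw [Nat.not_odd_iff_even, even_iff_two_dvd] at hodd
    have : Fact (Nat.Prime 2) := ⟨Nat.prime_two⟩
    obtain ⟨y, hy⟩ := exists_prime_orderOf_dvd_card' 2 hodd
    have hy2 : orderOf (y : G) = 2 := by rw [Subgroup.orderOf_coe]; exact hy
    exact hg (hnorm1 g (key L hne hnc g y hy2 y.2.1 y.2.2))
  · apply le_antisymm
    · intro g hg
      exact hnorm1 g (map_conj_eq_of_mem_normalizer hg)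
    · intro g hg
      apply mem_normalizer_of_map_conj_eq
      apply key L hne hnc g x hx hxK
      rw [map_conj_eq_of_mem_normalizer hg]
      exact hxK

end Cfsg.Agent.S1306
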