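import Mathlib
import Cfsg.Statements.S1314
import Cfsg.Agent.Lib.Helper11.Misc

set_option autoImplicit false
open Cfsg

namespace Cfsg.Agent.S1314

open scoped commutatorElement

open Cfsg.Agent.Lib.Helper11 in
/-- The diagonal map of a perfect subgroup commuting with its conjugate under an involution. -/
theorem result {G : Type*} [Group G] [Finite G] (x : G) (hx : orderOf x = 2) (L : Subgroup G) (hperf : ⁅L, L⁆ = L) (hcomm : ⁅L, L.map (MulAut.conj x).toMonoidHom⁆ = ⊥) : ∃ π : ↥L →* G, (∀ l : ↥L, π l = (l : G) * (x * (l : G) * x⁻¹)) ∧ π.ker ≤ Subgroup.center ↥L ∧ π.range ≤ Subgroup.centralizer ({x} : Set G) ∧ ⁅(L ⊔ L.map (MulAut.conj x).toMonoidHom) ⊓ Subgroup.centralizer ({x} : Set G), (L ⊔ L.map (MulAut.conj x).toMonoidHom) ⊓ Subgroup.centralizer ({x} : Set G)⁆ = π.range := by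
  have hx2 : x * x = 1 := by
    have := pow_orderOf_eq_one x
    rw [hx, pow_two] at this
    exact this
  have hxinv : x⁻¹ = x := inv_eq_of_mul_eq_one_left hx2
  have hmemLx : ∀ b ∈ L, x * b * x⁻¹ ∈ L.map (MulAut.conj x).toMonoidHom :=
    fun b hb => ⟨b, hb, rfl⟩
  have hcen : L ≤ Subgroup.centralizer ((L.map (MulAut.conj x).toMonoidHom : Subgroup G) : Set G) :=
    Subgroup.commutator_eq_bot_iff_le_centralizer.mp hcomm
  -- a commutes with every element of L^x
  have hc' : ∀ a ∈ L, ∀ h ∈ L.map (MulAut.conj x).toMonoidHom, h * a = a * h :=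
    fun a ha h hh => Subgroup.mem_centralizer_iff.mp (hcen ha) h hh
  have hc : ∀ a ∈ L, ∀ b ∈ L, (x * b * x⁻¹) * a = a * (x * b * x⁻¹) :=
    fun a ha b hb => hc' a ha _ (hmemLx b hb)
  let π : ↥L →* G := MonoidHom.mk' (fun l => (l : G) * (x * (l : G) * x⁻¹)) (by
    intro a b
    have h1 := hc b b.2 a a.2
    calc ((a * b : L) : G) * (x * ((a * b : L) : G) * x⁻¹)
        = (a : G) * ((b : G) * (x * a * x⁻¹)) * (x * b * x⁻¹) := by
          simp only [Subgroup.coe_mul]; group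
      _ = (a : G) * ((x * a * x⁻¹) * b) * (x * b * x⁻¹) := by rw [h1]
      _ = (a : G) * (x * a * x⁻¹) * ((b : G) * (x * b * x⁻¹)) := by group)
  have hπ : ∀ l : ↥L, π l = (l : G) * (x * (l : G) * x⁻¹) := fun l => rfl
  have hrange : π.range ≤ Subgroup.centralizer ({x} : Set G) := by
    rintro _ ⟨l, rfl⟩
    rw [Subgroup.mem_centralizer_iff]
    intro h hh
    rw [Set.mem_singleton_iff] at hh
    subst hh
    rw [hπ]
    have h1 := hc l l.2 l l.2
    rw [hxinv] at h1 ⊢
    calc h * ((l : G) * (h * l * h)) = (h * l * h * l) * h := by group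
      _ = ((l : G) * (h * l * h)) * h := by rw [h1]
  have hrM : π.range ≤ (L ⊔ L.map (MulAut.conj x).toMonoidHom) ⊓ Subgroup.centralizer ({x} : Set G) := by
    refine le_inf ?_ hrange
    rintro _ ⟨l, rfl⟩
    rw [hπ]
    exact Subgroup.mul_mem_sup l.2 (hmemLx l l.2)
  have hnorm : L.map (MulAut.conj x).toMonoidHom ≤ Subgroup.normalizer (L : Set G) := by
    have : L.map (MulAut.conj x).toMonoidHom ≤ Subgroup.centralizer (L : Set G) :=
      Subgroup.le_centralizer_iff.mp hcen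
    exact this.trans (Subgroup.centralizer_le_normalizer _)
  -- decomposition of elements of M
  have hdec : ∀ m ∈ (L ⊔ L.map (MulAut.conj x).toMonoidHom) ⊓ Subgroup.centralizer ({x} : Set G),
      ∃ a : ↥L, ∃ z : G, m = π a * z ∧
        ∀ g ∈ L ⊔ L.map (MulAut.conj x).toMonoidHom, g * z = z * g := by
    intro m hm
    obtain ⟨hm1, hm2⟩ := Subgroup.mem_inf.mp hm
    obtain ⟨a, ha, b', hb', rfl⟩ := mem_sup_of_le_normalizer hnorm hm1
    obtain ⟨b, hb, rfl⟩ := hb'
    have hb'' : (MulAut.conj x).toMonoidHom b = x * b * x⁻¹ := rfl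
    rw [hb''] at hm2 ⊢
    have hm3 : x * (a * (x * b * x⁻¹)) = (a * (x * b * x⁻¹)) * x :=
      Subgroup.mem_centralizer_iff.mp hm2 x rfl
    rw [hxinv] at hm3 hc
    -- z := a⁻¹ * b ∈ L and z = x (b a⁻¹) x
    have hz1 : a⁻¹ * b ∈ L := L.mul_mem (L.inv_mem ha) hb
    have hba : (x * a * x) * b = b * (x * a * x) := hc b hb a ha
    have hz2 : a⁻¹ * b = x * (b * a⁻¹) * x := by
      have e1 : x * a * x * b = a * (x * b * x) := by
        calc x * a * x * b = x * (a * (x * b * x)) * x := by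
              rw [show x * (a * (x * b * x)) * x = x * a * x * b * (x * x) by group, hx2, mul_one]
          _ = (a * (x * b * x)) * x * x := by rw [hm3]
          _ = a * (x * b * x) := by rw [mul_assoc, hx2, mul_one]
      have e2 : b * (x * a * x) = a * (x * b * x) := by rw [← hba, e1]
      have e3 : a⁻¹ * b = (x * b * x) * (x * a * x)⁻¹ := by
        rw [eq_mul_inv_iff_mul_eq, mul_assoc, e2]; group
      have e4 : (x * a * x)⁻¹ = x * a⁻¹ * x := by
        rw [mul_inv_rev, mul_inv_rev, hxinv, mul_assoc]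
      rw [e3, e4]
      calc x * b * x * (x * a⁻¹ * x) = x * b * (x * x) * a⁻¹ * x := by group
        _ = x * (b * a⁻¹) * x := by rw [hx2]; group
    have hz3 : a⁻¹ * b ∈ L.map (MulAut.conj x).toMonoidHom := by
      rw [hz2]
      have := hmemLx (b * a⁻¹) (L.mul_mem hb (L.inv_mem ha))
      rwa [hxinv] at this
    -- z' := x * z * x ∈ L ∩ L^x
    have hz'1 : x * (a⁻¹ * b) * x ∈ L.map (MulAut.conj x).toMonoidHom := by
      have := hmemLx _ hz1
      rwa [hxinv] at this
    have hz'2 : x * (a⁻¹ * b) * x ∈ L := by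
      rw [hz2]
      have : x * (x * (b * a⁻¹) * x) * x = (x * x) * (b * a⁻¹) * (x * x) := by group
      rw [this, hx2, one_mul, mul_one]
      exact L.mul_mem hb (L.inv_mem ha)
    refine ⟨⟨a, ha⟩, x * (a⁻¹ * b) * x, ?_, ?_⟩
    · rw [hπ, hxinv]
      show a * (x * b * x) = a * (x * a * x) * (x * (a⁻¹ * b) * x)
      rw [show a * (x * a * x) * (x * (a⁻¹ * b) * x) = a * (x * a * (x * x) * (a⁻¹ * b) * x) by group,
        hx2]
      group
    · intro g hg
      obtain ⟨u, hu, v, hv, rfl⟩ := mem_sup_of_le_normalizer hnorm hg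
      have h1 : (x * (a⁻¹ * b) * x) * u = u * (x * (a⁻¹ * b) * x) := hc' u hu _ hz'1
      have h2 : v * (x * (a⁻¹ * b) * x) = (x * (a⁻¹ * b) * x) * v := hc' _ hz'2 v hv
      calc u * v * (x * (a⁻¹ * b) * x) = u * (v * (x * (a⁻¹ * b) * x)) := by group
        _ = u * ((x * (a⁻¹ * b) * x) * v) := by rw [h2]
        _ = (u * (x * (a⁻¹ * b) * x)) * v := by group
        _ = ((x * (a⁻¹ * b) * x) * u) * v := by rw [h1]
        _ = x * (a⁻¹ * b) * x * (u * v) := by group
  refine ⟨π, hπ, ?_, hrange, ?_⟩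
  · intro l hl
    rw [MonoidHom.mem_ker, hπ] at hl
    rw [Subgroup.mem_center_iff]
    intro g
    have h1 : x * (l : G) * x⁻¹ = (l : G)⁻¹ := (inv_eq_of_mul_eq_one_right hl).symm
    have h2 := hc g g.2 l l.2
    rw [h1] at h2
    apply Subtype.ext
    show (g : G) * l = l * g
    calc (g : G) * l = l * ((l : G)⁻¹ * g) * l := by group
      _ = l * ((g : G) * (l : G)⁻¹) * l := by rw [h2]
      _ = l * g := by group
  · apply le_antisymm
    · rw [Subgroup.commutator_le]
      intro m₁ hm₁ m₂ hm₂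
      obtain ⟨a₁, z₁, rfl, hz₁⟩ := hdec m₁ hm₁
      obtain ⟨a₂, z₂, rfl, hz₂⟩ := hdec m₂ hm₂
      have hπ1 : π a₁ ∈ L ⊔ L.map (MulAut.conj x).toMonoidHom := (hrM ⟨a₁, rfl⟩).1
      rw [commElem_mul_left_comm (π a₁) z₁ (π a₂ * z₂) (hz₁ _ (Subgroup.mem_inf.mp hm₂).1),
        commElem_mul_right_comm (π a₁) (π a₂) z₂ (hz₂ _ hπ1).symm, ← map_commutatorElement]
      exact ⟨_, rfl⟩
    · have htop : (⊤ : Subgroup L) = ⁅(⊤ : Subgroup L), ⊤⁆ := by
        have h1 : Group.IsPerfect L := Subgroup.isPerfect_iff.mpr hperf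
        rw [← commutator_def]
        exact h1.commutator_eq_top.symm
      calc π.range = (⊤ : Subgroup L).map π := MonoidHom.range_eq_map π
        _ = Subgroup.map π ⁅(⊤ : Subgroup L), ⊤⁆ := by rw [← htop]
        _ = ⁅(⊤ : Subgroup L).map π, (⊤ : Subgroup L).map π⁆ := Subgroup.map_commutator _ _ π
        _ = ⁅π.range, π.range⁆ := by rw [← MonoidHom.range_eq_map]
        _ ≤ _ := Subgroup.commutator_mono hrM hrM

end Cfsg.Agent.S1314
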