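import Mathlib
import Cfsg.Statements.S1316
import Cfsg.Agent.Lib.Helper11.GenFit

set_option autoImplicit false
open Cfsg

namespace Cfsg.Agent.S1316

open scoped commutatorElement

/-- commutators of a product with a normal factor -/
theorem commutator_sup_le {G : Type*} [Group G] (E K : Subgroup G) [hE : E.Normal] :
    ⁅E ⊔ K, E ⊔ K⁆ ≤ E ⊔ ⁅K, K⁆ := by
  have hnorm : K ≤ Subgroup.normalizer (E : Set G) := by
    rw [Subgroup.normalizer_eq_top_iff.mpr hE]; exact le_top
  rw [Subgroup.commutator_le]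
  intro a ha b hb
  obtain ⟨e, he, f, hf, rfl⟩ := Cfsg.Agent.Lib.Helper11.mem_sup_of_le_normalizer hnorm ha
  obtain ⟨e', he', f', hf', rfl⟩ := Cfsg.Agent.Lib.Helper11.mem_sup_of_le_normalizer hnorm hb
  have key : ⁅e * f, e' * f'⁆ = e * (f * e' * f⁻¹) * ⁅f, f'⁆ * (f' * e⁻¹ * f'⁻¹) * e'⁻¹ := by
    simp only [commutatorElement_def]; group
  rw [key]
  have m1 : e ∈ E ⊔ ⁅K, K⁆ := (le_sup_left : E ≤ _) he
  have m2 : f * e' * f⁻¹ ∈ E ⊔ ⁅K, K⁆ := (le_sup_left : E ≤ _) (hE.conj_mem e' he' f)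
  have m3 : ⁅f, f'⁆ ∈ E ⊔ ⁅K, K⁆ := (le_sup_right : ⁅K, K⁆ ≤ _) (Subgroup.commutator_mem_commutator hf hf')
  have m4 : f' * e⁻¹ * f'⁻¹ ∈ E ⊔ ⁅K, K⁆ :=
    (le_sup_left : E ≤ _) (hE.conj_mem e⁻¹ (E.inv_mem he) f')
  have m5 : e'⁻¹ ∈ E ⊔ ⁅K, K⁆ := (le_sup_left : E ≤ _) (E.inv_mem he')
  exact Subgroup.mul_mem _ (Subgroup.mul_mem _ (Subgroup.mul_mem _ (Subgroup.mul_mem _ m1 m2) m3) m4) m5

open Cfsg.Agent.Lib.Helper11 in
/-- For a finite group X, E(X) equals the intersection of the derived series of F*(X) (its last term). -/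
theorem result {X : Type*} [Group X] [Finite X] : (⨅ n : ℕ, (derivedSeries ↥(Cfsg.generalizedFittingSubgroup X) n).map (Cfsg.generalizedFittingSubgroup X).subtype) = Cfsg.layer X := by
  have hEn := layer_normal (G := X)
  have hnil : Group.IsNilpotent (Cfsg.fittingSubgroup X) := Cfsg.Agent.S0008.result
  have hsol : Group.IsSolvable (Cfsg.fittingSubgroup X) := inferInstance
  have ha : ∀ n : ℕ, Cfsg.layer X ≤
      (derivedSeries ↥(Cfsg.generalizedFittingSubgroup X) n).map (Cfsg.generalizedFittingSubgroup X).subtype := by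
    intro n
    induction n with
    | zero =>
      rw [derivedSeries_zero, ← MonoidHom.range_eq_map, Subgroup.range_subtype]
      exact le_sup_left
    | succ n ih =>
      rw [derivedSeries_succ, Subgroup.map_commutator, ← layer_perfect (G := X)]
      exact Subgroup.commutator_mono ih ih
  have hb : ∀ n : ℕ,
      (derivedSeries ↥(Cfsg.generalizedFittingSubgroup X) n).map (Cfsg.generalizedFittingSubgroup X).subtype ≤
        Cfsg.layer X ⊔ (derivedSeries ↥(Cfsg.fittingSubgroup X) n).map (Cfsg.fittingSubgroup X).subtype := by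
    intro n
    induction n with
    | zero =>
      rw [derivedSeries_zero, derivedSeries_zero, ← MonoidHom.range_eq_map, ← MonoidHom.range_eq_map,
        Subgroup.range_subtype, Subgroup.range_subtype]
      exact le_rfl
    | succ n ih =>
      rw [derivedSeries_succ, derivedSeries_succ, Subgroup.map_commutator, Subgroup.map_commutator]
      exact (Subgroup.commutator_mono ih ih).trans (commutator_sup_le _ _)
  obtain ⟨n, hn⟩ := (Group.isSolvable_def _).mp hsol
  apply le_antisymm
  · refine (iInf_le _ n).trans ((hb n).trans ?_)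
    rw [hn, Subgroup.map_bot, sup_bot_eq]
  · exact le_iInf ha

end Cfsg.Agent.S1316
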