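import Mathlib
import Cfsg.Statements.S1318
import Cfsg.Agent.Lib.Helper11.GenFit

set_option autoImplicit false
open Cfsg

namespace Cfsg.Agent.S1318

open Cfsg.Agent.Lib.Helper11 in
/-- Let X be finite and S ≤ F*(X) a subgroup subnormal in F*(X). Then F(S) = F(X) ∩ S (inside X) and S = F(S)E(S). -/
theorem result {X : Type*} [Group X] [Finite X] (S : Subgroup X) (hS : S ≤ Cfsg.generalizedFittingSubgroup X) (hsn : (S.subgroupOf (Cfsg.generalizedFittingSubgroup X)).IsSubnormal) : (Cfsg.fittingSubgroup ↥S).map S.subtype = Cfsg.fittingSubgroup X ⊓ S ∧ Cfsg.fittingSubgroup ↥S ⊔ Cfsg.layer ↥S = ⊤ := by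
  have hSsn : S.IsSubnormal := Subgroup.IsSubnormal.trans hS hsn (genFitting_normal.isSubnormal)
  have h1 : fitOf S = Cfsg.fittingSubgroup X ⊓ S := fitOf_eq_of_subnormal hSsn
  refine ⟨h1, ?_⟩
  rw [eq_top_iff]
  intro x _
  have hx := genFitting_subnormal_le hSsn hS x.2
  rw [← h1] at hx
  have h2 : fitOf S ⊔ layOf S = (Cfsg.fittingSubgroup ↥S ⊔ Cfsg.layer ↥S).map S.subtype :=
    (Subgroup.map_sup _ _ _).symm
  rw [h2] at hx
  obtain ⟨y, hy, hyx⟩ := hx
  have h3 : y = x := Subtype.ext hyx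
  rw [← h3]; exact hy

end Cfsg.Agent.S1318
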