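import Mathlib
import Cfsg.Statements.S1319
import Cfsg.Agent.Lib.Helper11.Components

set_option autoImplicit false
open Cfsg

namespace Cfsg.Agent.S1319

open Cfsg.Agent.Lib.Helper11 in
/-- A subnormal subgroup A of a finite group X that equals its own layer is contained in E(X) as a normal subgroup. -/
theorem result {X : Type*} [Group X] [Finite X] (A : Subgroup X) (hsn : A.IsSubnormal) (hA : Cfsg.layer ↥A = ⊤) : A ≤ Cfsg.layer X ∧ (A.subgroupOf (Cfsg.layer X)).Normal := by
  have hle : A ≤ Cfsg.layer X := by
    have h := layer_map_subtype_le hsn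
    rw [hA, ← MonoidHom.range_eq_map, Subgroup.range_subtype] at h
    exact h
  refine ⟨hle, ?_⟩
  rw [Subgroup.normal_subgroupOf_iff_le_normalizer hle]
  exact layer_le_normalizer_subnormal hsn

end Cfsg.Agent.S1319
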