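import Mathlib
import Cfsg.Statements.S1320
import Cfsg.Agent.Lib.Helper11.GenFit

set_option autoImplicit false
open Cfsg

namespace Cfsg.Agent.S1320

open Cfsg.Agent.Lib.Helper11 in
/-- Let B be a normal subgroup of the finite group A. Then F*(A) ∩ B = F*(B). -/
theorem result {A : Type*} [Group A] [Finite A] (B : Subgroup A) [B.Normal] : Cfsg.generalizedFittingSubgroup A ⊓ B = (Cfsg.generalizedFittingSubgroup ↥B).map B.subtype := by
  have hBn : B.Normal := inferInstance
  have hBsn : B.IsSubnormal := hBn.isSubnormal
  have hmap : (Cfsg.generalizedFittingSubgroup ↥B).map B.subtype = layOf B ⊔ fitOf B :=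
    Subgroup.map_sup _ _ _
  rw [hmap]
  apply le_antisymm
  · have hYn := genFitting_normal (G := A)
    have hSn : (Cfsg.generalizedFittingSubgroup A ⊓ B).Normal := inferInstance
    have hSsn : (Cfsg.generalizedFittingSubgroup A ⊓ B).IsSubnormal := hSn.isSubnormal
    have h1 := genFitting_subnormal_le hSsn inf_le_left
    refine h1.trans (sup_le ?_ ?_)
    · exact (le_trans (inf_le_inf_left _ inf_le_right) (fitting_inf_le_fitOf B)).trans le_sup_right
    · exact (layOf_le_of_subnormal hSsn inf_le_right).trans le_sup_left
  · apply le_inf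
    · exact sup_le ((layer_map_subtype_le hBsn).trans le_sup_left)
        ((fitOf_le_fitting_of_subnormal hBsn).trans le_sup_right)
    · exact sup_le (layOf_le B) (fitOf_le B)

end Cfsg.Agent.S1320
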