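import Mathlib
import Cfsg.Statements.S1321
import Cfsg.Agent.Lib.Helper11.Components

set_option autoImplicit false
open Cfsg

namespace Cfsg.Agent.S1321

open Cfsg.Agent.Lib.Helper11 in
/-- For any subgroup U of a finite group X, E(X) = C_{E(X)}(U) · [E(X), U]. -/
theorem result {X : Type*} [Group X] [Finite X] (U : Subgroup X) : Cfsg.layer X = (Cfsg.layer X ⊓ Subgroup.centralizer (U : Set X)) ⊔ ⁅Cfsg.layer X, U⁆ ∧ ⁅Cfsg.layer X, U⁆ ≤ Cfsg.layer X := by
  have hEn : (Cfsg.layer X).Normal := layer_normal
  have hD : ⁅Cfsg.layer X, U⁆ ≤ Cfsg.layer X := Subgroup.commutator_le_left _ _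
  refine ⟨?_, hD⟩
  apply le_antisymm
  · have hDsn : (⁅Cfsg.layer X, U⁆ : Subgroup X).IsSubnormal :=
      Subgroup.IsSubnormal.step _ (Cfsg.layer X) hD hEn.isSubnormal
        ((Subgroup.normal_subgroupOf_iff_le_normalizer hD).mpr
          (le_normalizer_commutator_left (Cfsg.layer X) U))
    refine sSup_le ?_
    intro L hL
    rcases component_le_or_comm hL hDsn with h | h
    · exact h.trans le_sup_right
    · refine le_trans ?_ le_sup_left
      refine le_inf (component_le_layer hL) ?_
      rw [← Subgroup.commutator_eq_bot_iff_le_centralizer]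
      apply perfect_comm_of_triple (component_perfect hL)
      rw [eq_bot_iff, ← h, Subgroup.commutator_comm L]
      refine Subgroup.commutator_mono ?_ le_rfl
      rw [Subgroup.commutator_comm]
      exact Subgroup.commutator_mono (component_le_layer hL) le_rfl
  · exact sup_le inf_le_left hD

end Cfsg.Agent.S1321
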