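import Mathlib
import Cfsg.Statements.S1328
import Cfsg.Agent.Lib.Helper11.InvolComp

set_option autoImplicit false
open Cfsg

namespace Cfsg.Agent.S1328

open scoped commutatorElement

open Cfsg.Agent.Lib.Helper11 in
/-- Let G be finite, H ≤ G with O(H) = 1, t an involution of G normalizing H, and Y a nontrivial subgroup of O(C_H(t)). Then some component E of H is normalized by t and by Y and centralized by neither t nor Y. -/
theorem result {G : Type*} [Group G] [Finite G] (H : Subgroup G) (hO : Cfsg.oddCore ↥H = ⊥) (t : G) (ht : orderOf t = 2) (htH : t ∈ Subgroup.normalizer (H : Set G)) (Y : Subgroup G) (hY1 : Y ≠ ⊥) (hY : Y ≤ (Cfsg.oddCore ↥(H ⊓ Subgroup.centralizer ({t} : Set G))).map (H ⊓ Subgroup.centralizer ({t} : Set G)).subtype) : ∃ E : Subgroup ↥H, Cfsg.IsComponent E ∧ (E.map H.subtype).map (MulAut.conj t).toMonoidHom = E.map H.subtype ∧ Y ≤ Subgroup.normalizer ((E.map H.subtype : Subgroup G) : Set G) ∧ ¬ (t ∈ Subgroup.centralizer ((E.map H.subtype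 : Subgroup G) : Set G)) ∧ ¬ (Y ≤ Subgroup.centralizer ((E.map H.subtype : Subgroup G) : Set G)) := by
  have htt : t * t = 1 := by
    have := pow_orderOf_eq_one t
    rw [ht, pow_two] at this
    exact this
  obtain ⟨N, hNdef⟩ : ∃ N : Subgroup G, N = H ⊔ Subgroup.zpowers t := ⟨_, rfl⟩
  have hHN : H ≤ N := by rw [hNdef]; exact le_sup_left
  have htN : t ∈ N := by
    rw [hNdef]
    exact (le_sup_right : Subgroup.zpowers t ≤ H ⊔ Subgroup.zpowers t) (Subgroup.mem_zpowers t)
  have hsq : ∀ g ∈ N, g * g ∈ H := fun g hg =>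
    sq_mem_of_mem_sup_zpowers htt htH (by rw [← hNdef]; exact hg)
  have hON : Cfsg.pPrimeCore 2 ↥N = ⊥ := pPrimeCore_two_eq_bot_of_sq hHN hsq hO
  have hth : orderOf (⟨t, htN⟩ : ↥N) = 2 := (Subgroup.orderOf_mk t htN).trans ht
  have hNnorm : N ≤ Subgroup.normalizer (H : Set G) := by
    rw [hNdef]
    exact sup_le Subgroup.le_normalizer (Subgroup.zpowers_le.2 htH)
  have hY' : Y ≤ coreOf 2 (H ⊓ Subgroup.centralizer ({t} : Set G)) := hY
  have hYN : Y ≤ N := hY'.trans ((coreOf_le 2 _).trans (inf_le_left.trans hHN))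
  have hcore : coreOf 2 (H ⊓ Subgroup.centralizer ({t} : Set G)) ≤
      coreOf 2 (N ⊓ Subgroup.centralizer ({t} : Set G)) := by
    apply coreOf_le_coreOf 2 (inf_le_inf_right _ hHN)
    refine le_trans ?_ (inf_normalizer_le_normalizer_inf H (Subgroup.centralizer ({t} : Set G)))
    exact le_inf (inf_le_left.trans hNnorm) (inf_le_right.trans Subgroup.le_normalizer)
  have hcent : Subgroup.centralizer ({(⟨t, htN⟩ : ↥N)} : Set ↥N) =
      (N ⊓ Subgroup.centralizer ({t} : Set G)).subgroupOf N := by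
    ext x
    rw [Subgroup.mem_subgroupOf, Subgroup.mem_centralizer_iff, Subgroup.mem_inf,
      Subgroup.mem_centralizer_iff]
    constructor
    · intro h
      refine ⟨x.2, ?_⟩
      intro y hy
      rw [Set.mem_singleton_iff] at hy
      rw [hy]
      exact congrArg Subtype.val (h ⟨t, htN⟩ (Set.mem_singleton _))
    · rintro ⟨-, h⟩ y hy
      rw [Set.mem_singleton_iff] at hy
      rw [hy]
      apply Subtype.ext
      exact h t (Set.mem_singleton t)
  have hYh : Y.subgroupOf N ≤ Cfsg.centralizerPPrimeCore 2 (⟨t, htN⟩ : ↥N) := by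
    show Y.subgroupOf N ≤ coreOf 2 (Subgroup.centralizer ({(⟨t, htN⟩ : ↥N)} : Set ↥N))
    rw [hcent, coreOf_subgroupOf 2 inf_le_left]
    intro y hy
    rw [Subgroup.mem_subgroupOf] at hy ⊢
    exact hcore (hY' hy)
  have hYh1 : Y.subgroupOf N ≠ ⊥ := by
    intro h
    apply hY1
    rw [eq_bot_iff]
    intro y hy
    have h1 : (⟨y, hYN hy⟩ : ↥N) ∈ Y.subgroupOf N := Subgroup.mem_subgroupOf.2 hy
    rw [h, Subgroup.mem_bot] at h1
    rw [Subgroup.mem_bot]
    exact congrArg Subtype.val h1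
  obtain ⟨L, hL, hxL, hYL, hLx, hLY⟩ := exists_component_not_comm_cpc hON hth hYh1 hYh
  have hLH : L ≤ H.subgroupOf N := by
    rw [← component_perfect hL, Subgroup.commutator_le]
    intro a ha b hb
    rw [Subgroup.mem_subgroupOf]
    exact commutator_mem_of_sq_mem hsq a.2 b.2
  refine ⟨(L.subgroupOf (H.subgroupOf N)).map (Subgroup.subgroupOfEquivOfLe hHN).toMonoidHom,
    component_map_mulEquiv (component_subgroupOf hL hLH) (Subgroup.subgroupOfEquivOfLe hHN), ?_⟩
  have hmap : ((L.subgroupOf (H.subgroupOf N)).map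
      (Subgroup.subgroupOfEquivOfLe hHN).toMonoidHom).map H.subtype = L.map N.subtype := by
    ext g
    constructor
    · rintro ⟨h, ⟨z, hz, rfl⟩, rfl⟩
      exact ⟨z.1, Subgroup.mem_subgroupOf.1 hz, rfl⟩
    · rintro ⟨l, hl, rfl⟩
      exact ⟨(Subgroup.subgroupOfEquivOfLe hHN) ⟨l, hLH hl⟩,
        ⟨⟨l, hLH hl⟩, Subgroup.mem_subgroupOf.2 hl, rfl⟩, rfl⟩
  rw [hmap]
  have hconj : ∀ (g : G) (hg : g ∈ N), (⟨g, hg⟩ : ↥N) ∈ Subgroup.normalizer (L : Set ↥N) →
      (L.map N.subtype).map (MulAut.conj g).toMonoidHom = L.map N.subtype := by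
    intro g hg hgn
    rw [Cfsg.Agent.Lib.Helper21.mem_normalizer_iff_map] at hgn
    conv_rhs => rw [← hgn]
    rw [Subgroup.map_map, Subgroup.map_map]
    congr 1
  refine ⟨hconj t htN hxL, ?_, ?_, ?_⟩
  · intro y hy
    rw [Cfsg.Agent.Lib.Helper21.mem_normalizer_iff_map]
    exact hconj y (hYN hy) (hYL (Subgroup.mem_subgroupOf.2 hy))
  · intro htc
    have h1 : ⁅L, Subgroup.zpowers (⟨t, htN⟩ : ↥N)⁆ = ⊥ := by
      rw [Subgroup.commutator_eq_bot_iff_le_centralizer]
      intro l hl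
      rw [Subgroup.mem_centralizer_iff]
      intro s hs
      have hlc : l ∈ Subgroup.centralizer ({(⟨t, htN⟩ : ↥N)} : Set ↥N) := by
        rw [Subgroup.mem_centralizer_iff]
        intro y hy
        rw [Set.mem_singleton_iff] at hy
        rw [hy]
        apply Subtype.ext
        exact ((Subgroup.mem_centralizer_iff.1 htc) l.1 ⟨l, hl, rfl⟩).symm
      exact Cfsg.Agent.Lib.Helper10.mem_centralizer_zpowers hlc s hs
    rw [hLx] at h1
    exact Cfsg.Agent.Lib.Helper10.component_ne_bot hL h1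
  · intro hYc
    apply hLY
    rw [Subgroup.commutator_eq_bot_iff_le_centralizer]
    intro l hl
    rw [Subgroup.mem_centralizer_iff]
    intro y hy
    apply Subtype.ext
    exact ((Subgroup.mem_centralizer_iff.1 (hYc (Subgroup.mem_subgroupOf.1 hy))) l.1
      ⟨l, hl, rfl⟩).symm

end Cfsg.Agent.S1328
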