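import Mathlib
import Cfsg.Statements.S1331
import Cfsg.Agent.Lib.Helper11.HypGen

set_option autoImplicit false
open Cfsg

namespace Cfsg.Agent.S1331

open Cfsg.Agent.Lib.Helper11 in
/-- Let θ be a solvable A-signalizer functor on the finite group G for the prime p, A elementary abelian of rank at least 3, X a member of the family of θ, and B ≤ A with |B| ≥ p². Then X is generated by the subgroups X ∩ ⋂_{d ∈ D, d ≠ 1} θ d, D ranging over the subgroups of index p in B. -/
theorem result {G : Type*} [Group G] [Finite G] (p : ℕ) [Fact p.Prime] (A : Subgroup G) (hA : Cfsg.IsElementaryAbelian p A) (hA3 : p ^ 3 ≤ Nat.card ↥A) (θ : G → Subgroup G) (hθ : Cfsg.IsSolvableSignalizerFunctor p A θ) (X : Subgroup G) (hX : X ∈ Cfsg.signalizerFamily p A θ) (B : Subgroup G) (hB : B ≤ A) (hB2 : p ^ 2 ≤ Nat.card ↥B) : X = ⨆ D : {D : Subgroup G // D ≤ B ∧ D.relIndex B = p}, X ⊓ Cfsg.signalizerInf (D : Subgroup G) θ := by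
  have hp : p.Prime := Fact.out
  obtain ⟨hXsol, hXp, hXinv, hXθ⟩ := hX
  have hBel : Cfsg.IsElementaryAbelian p B := elemAb_of_le hA hB
  have hBX : B ≤ Subgroup.normalizer (X : Set G) := by
    apply le_normalizer_of_map_conj_le
    rintro g hg _ ⟨x, hx, rfl⟩
    exact hXinv g (hB hg) x hx
  have hgen := hypGen_main p _ G B X hBel hXp hBX le_rfl
  -- a subgroup of index `p` in `B`
  obtain ⟨k, hk⟩ := IsPGroup.iff_card.mp (elemAb_isPGroup hA hB)
  have hk2 : 2 ≤ k := by
    by_contra hcon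
    have hk1 : k ≤ 1 := by omega
    have h1 : p ^ k ≤ p ^ 1 := Nat.pow_le_pow_right hp.pos hk1
    have h2 : p ^ 1 < p ^ 2 := Nat.pow_lt_pow_right hp.one_lt (by norm_num)
    omega
  obtain ⟨D₀, hD₀B, hD₀p⟩ : ∃ D₀ : Subgroup G, D₀ ≤ B ∧ D₀.relIndex B = p := by
    have hdvd : p ^ (k - 1) ∣ Nat.card B := by
      rw [hk]; exact pow_dvd_pow p (by omega)
    obtain ⟨K, hK⟩ := Sylow.exists_subgroup_card_pow_prime p hdvd
    refine ⟨K.map B.subtype, Subgroup.map_subtype_le _, ?_⟩
    have h1 := relIndex_mul_card_of_le (Subgroup.map_subtype_le K)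
    rw [Subgroup.card_map_of_injective B.subtype_injective, hK, hk] at h1
    have h2 : p ^ k = p * p ^ (k - 1) := by
      rw [← pow_succ']; congr 1; omega
    rw [h2] at h1
    exact Nat.eq_of_mul_eq_mul_right (pow_pos hp.pos _) h1
  have key : ∀ D : Subgroup G, D ≤ B → D.relIndex B = p →
      X ⊓ Subgroup.centralizer (D : Set G) ≤
        ⨆ D : {D : Subgroup G // D ≤ B ∧ D.relIndex B = p},
          X ⊓ Cfsg.signalizerInf (D : Subgroup G) θ := by
    intro D hDB hDp
    refine le_trans ?_ (le_iSup (fun D : {D : Subgroup G // D ≤ B ∧ D.relIndex B = p} =>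
      X ⊓ Cfsg.signalizerInf (D : Subgroup G) θ) ⟨D, hDB, hDp⟩)
    intro x hx
    obtain ⟨hxX, hxC⟩ := Subgroup.mem_inf.mp hx
    refine Subgroup.mem_inf.mpr ⟨hxX, ?_⟩
    unfold Cfsg.signalizerInf
    rw [Subgroup.mem_iInf]
    rintro ⟨d, hdD, hd1⟩
    apply hXθ d (hB (hDB hdD)) hd1
    refine Subgroup.mem_inf.mpr ⟨hxX, ?_⟩
    rw [Subgroup.mem_centralizer_iff]
    intro h hh
    rw [Set.mem_singleton_iff.mp hh]
    exact (Subgroup.mem_centralizer_iff.mp hxC) d hdD
  apply le_antisymm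
  · refine hgen.trans ?_
    apply iSup_le
    rintro ⟨B', hB'B, hB'p⟩
    have hdvd : B'.relIndex B ∣ p ^ k := hk ▸ Subgroup.relIndex_dvd_card B' B
    obtain ⟨j, hjk, hj⟩ := (Nat.dvd_prime_pow hp).mp hdvd
    have hj1 : j ≤ 1 := by
      by_contra hcon
      have h1 : p ^ 2 ≤ p ^ j := Nat.pow_le_pow_right hp.pos (by omega)
      have h2 : p ^ 1 < p ^ 2 := Nat.pow_lt_pow_right hp.one_lt (by norm_num)
      rw [hj] at hB'p
      rw [pow_one] at h2
      omega
    rcases Nat.le_one_iff_eq_zero_or_eq_one.mp hj1 with rfl | rfl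
    · rw [pow_zero, Subgroup.relIndex_eq_one] at hj
      refine le_trans ?_ (key D₀ hD₀B hD₀p)
      exact inf_le_inf_left _ (Subgroup.centralizer_le (hD₀B.trans hj))
    · rw [pow_one] at hj
      exact key B' hB'B hj
  · exact iSup_le fun _ => inf_le_left

end Cfsg.Agent.S1331
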