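import Mathlib
import Cfsg.Statements.S1335
import Cfsg.Agent.Lib.Helper11.Stab
import Cfsg.Agent.Lib.Helper11.Misc

set_option autoImplicit false
open Cfsg

namespace Cfsg.Agent.S1335

open Cfsg.Agent.Lib.Helper11 in
/-- Sylow criterion from normalizers of subgroups of large rank. -/
theorem result {G : Type*} [Group G] [Finite G] {p : ℕ} [Fact p.Prime] (k : ℕ) (hk : 1 ≤ k) (H : Subgroup G) (P : Sylow p ↥H) (hP : ¬ Cfsg.PRankLE p (k - 1) ↥(P : Subgroup ↥H)) (hΓ : (∀ X : Subgroup G, X ≤ (P : Subgroup ↥H).map H.subtype → ¬ Cfsg.PRankLE p (k - 1) ↥X → Subgroup.normalizer (X : Set G) ≤ H)) : ∃ Q : Sylow p G, (Q : Subgroup G) = (P : Subgroup ↥H).map H.subtype := by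
  have hPP : IsPGroup p ((P : Subgroup ↥H).map H.subtype) := P.isPGroup'.map _
  have hrk : ¬ Cfsg.PRankLE p (k - 1) ↥((P : Subgroup ↥H).map H.subtype) := fun h =>
    hP (pRankLE_of_mulEquiv p (k - 1)
      ((P : Subgroup H).equivMapOfInjective H.subtype H.subtype_injective).symm h)
  have hN : Subgroup.normalizer (((P : Subgroup ↥H).map H.subtype : Subgroup G) : Set G) ≤ H :=
    hΓ _ le_rfl hrk
  obtain ⟨Q, hQ⟩ := hPP.exists_le_sylow
  refine ⟨Q, ?_⟩
  by_contra hne
  have hne' : (P : Subgroup ↥H).map H.subtype ≠ (Q : Subgroup G) := fun h => hne h.symm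
  have hQnil : Group.IsNilpotent (Q : Subgroup G) := Q.isPGroup'.isNilpotent
  obtain ⟨n, hnQ, hnN, hnP⟩ := exists_mem_normalizer_not_mem hQnil hQ hne'
  have hRp : IsPGroup p ((Q : Subgroup G) ⊓
      Subgroup.normalizer (((P : Subgroup ↥H).map H.subtype : Subgroup G) : Set G) : Subgroup G) :=
    Q.isPGroup'.to_le inf_le_left
  have hRH : (Q : Subgroup G) ⊓
      Subgroup.normalizer (((P : Subgroup ↥H).map H.subtype : Subgroup G) : Set G) ≤ H :=
    inf_le_right.trans hN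
  have hPR : (P : Subgroup ↥H).map H.subtype ≤ (Q : Subgroup G) ⊓
      Subgroup.normalizer (((P : Subgroup ↥H).map H.subtype : Subgroup G) : Set G) :=
    le_inf hQ Subgroup.le_normalizer
  have h1 : IsPGroup p (((Q : Subgroup G) ⊓
      Subgroup.normalizer (((P : Subgroup ↥H).map H.subtype : Subgroup G) : Set G)).subgroupOf H) :=
    hRp.comap_subtype
  have h2 : (P : Subgroup H) ≤ ((Q : Subgroup G) ⊓
      Subgroup.normalizer (((P : Subgroup ↥H).map H.subtype : Subgroup G) : Set G)).subgroupOf H := by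
    intro y hy
    exact Subgroup.mem_subgroupOf.mpr (hPR ⟨y, hy, rfl⟩)
  have h3 := P.is_maximal' h1 h2
  apply hnP
  have hnR : n ∈ (Q : Subgroup G) ⊓
      Subgroup.normalizer (((P : Subgroup ↥H).map H.subtype : Subgroup G) : Set G) :=
    Subgroup.mem_inf.mpr ⟨hnQ, hnN⟩
  have h4 : (⟨n, hRH hnR⟩ : H) ∈ ((Q : Subgroup G) ⊓
      Subgroup.normalizer (((P : Subgroup ↥H).map H.subtype : Subgroup G) : Set G)).subgroupOf H :=
    Subgroup.mem_subgroupOf.mpr hnR
  rw [h3] at h4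
  exact ⟨_, h4, rfl⟩

end Cfsg.Agent.S1335
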