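import Mathlib
import Cfsg.Statements.S1336
import Cfsg.Agent.Lib.Helper11.ExtLayer

set_option autoImplicit false
open Cfsg

namespace Cfsg.Agent.S1336

open Cfsg.Agent.Lib.Helper11

section aux

variable {G : Type*} [Group G]

/-- the adjacency relation of the commuting graph -/
def Adj (p : ℕ) (A B : Subgroup G) : Prop :=
  Cfsg.IsElementaryAbelian p A ∧ p ^ 1 ≤ Nat.card ↥A ∧ Cfsg.IsElementaryAbelian p B ∧
    p ^ 1 ≤ Nat.card ↥B ∧ ∀ a ∈ A, ∀ b ∈ B, a * b = b * a

theorem map_conj_one (A : Subgroup G) : A.map (MulAut.conj (1 : G)).toMonoidHom = A := by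
  ext x; simp

theorem ea_map_conj {p : ℕ} {A : Subgroup G} (g : G) (h : Cfsg.IsElementaryAbelian p A) :
    Cfsg.IsElementaryAbelian p (A.map (MulAut.conj g).toMonoidHom) := by
  obtain ⟨h1, h2⟩ := h
  refine ⟨inferInstance, ?_⟩
  rintro _ ⟨a, ha, rfl⟩
  rw [← map_pow, h2 a ha, map_one]

theorem card_map_conj (A : Subgroup G) (g : G) :
    Nat.card (A.map (MulAut.conj g).toMonoidHom) = Nat.card A :=
  Subgroup.card_map_of_injective (MulAut.conj g).injective

theorem adj_map_conj {p : ℕ} {A B : Subgroup G} (g : G) (h : Adj p A B) :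
    Adj p (A.map (MulAut.conj g).toMonoidHom) (B.map (MulAut.conj g).toMonoidHom) := by
  obtain ⟨h1, h2, h3, h4, h5⟩ := h
  refine ⟨ea_map_conj g h1, by rw [card_map_conj]; exact h2, ea_map_conj g h3,
    by rw [card_map_conj]; exact h4, ?_⟩
  rintro _ ⟨a, ha, rfl⟩ _ ⟨b, hb, rfl⟩
  rw [← map_mul, ← map_mul, h5 a ha b hb]

theorem adj_symm {p : ℕ} {A B : Subgroup G} (h : Adj p A B) : Adj p B A :=
  ⟨h.2.2.1, h.2.2.2.1, h.1, h.2.1, fun b hb a ha => (h.2.2.2.2 a ha b hb).symm⟩

theorem conn_map_conj {p : ℕ} {A B : Subgroup G} (g : G) (h : Relation.ReflTransGen (Adj p) A B) :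
    Relation.ReflTransGen (Adj p) (A.map (MulAut.conj g).toMonoidHom)
      (B.map (MulAut.conj g).toMonoidHom) :=
 by
  induction h with
  | refl => exact Relation.ReflTransGen.refl
  | tail _ hbc ih => exact Relation.ReflTransGen.tail ih (adj_map_conj g hbc)

theorem conn_symm {p : ℕ} {A B : Subgroup G} (h : Relation.ReflTransGen (Adj p) A B) :
    Relation.ReflTransGen (Adj p) B A :=
 by
  induction h with
  | refl => exact Relation.ReflTransGen.refl
  | tail _ hbc ih => exact Relation.ReflTransGen.head (adj_symm hbc) ih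

theorem vertex_isPGroup {p : ℕ} {A : Subgroup G} (h : Cfsg.IsElementaryAbelian p A) :
    IsPGroup p A := by
  intro a
  refine ⟨1, ?_⟩
  rw [pow_one]
  exact Subtype.ext (h.2 a a.2)

theorem vertex_dvd_card [Finite G] {p : ℕ} [hp : Fact p.Prime] {A : Subgroup G}
    (h : Cfsg.IsElementaryAbelian p A) (hc : p ^ 1 ≤ Nat.card A) : p ∣ Nat.card A := by
  obtain ⟨k, hk⟩ := IsPGroup.iff_card.mp (vertex_isPGroup h)
  rw [hk] at hc ⊢
  rcases Nat.eq_zero_or_pos k with h0 | hpos
  · rw [h0, pow_zero, pow_one] at hc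
    exact absurd hc (by have := hp.out.one_lt; omega)
  · exact dvd_pow_self p hpos.ne'

/-- a cyclic subgroup generated by an element of order p is a vertex -/
theorem zpowers_vertex {p : ℕ} [hp : Fact p.Prime] (x : G) (hx : orderOf x = p) :
    Cfsg.IsElementaryAbelian p (Subgroup.zpowers x) ∧ p ^ 1 ≤ Nat.card (Subgroup.zpowers x) := by
  refine ⟨⟨inferInstance, ?_⟩, ?_⟩
  · intro a ha
    obtain ⟨k, rfl⟩ := Subgroup.mem_zpowers_iff.mp ha
    rw [← zpow_natCast, ← zpow_mul, mul_comm, zpow_mul, zpow_natCast, ← hx, pow_orderOf_eq_one,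
      one_zpow]
  · rw [Nat.card_zpowers, hx, pow_one]

/-- two vertices in a common p-subgroup are connected -/
theorem conn_of_le_pGroup [Finite G] {p : ℕ} [hp : Fact p.Prime] {A B Q : Subgroup G}
    (hQ : IsPGroup p Q)
    (hA : Cfsg.IsElementaryAbelian p A) (hAc : p ^ 1 ≤ Nat.card A) (hAQ : A ≤ Q)
    (hB : Cfsg.IsElementaryAbelian p B) (hBc : p ^ 1 ≤ Nat.card B) (hBQ : B ≤ Q) :
    Relation.ReflTransGen (Adj p) A B := by
  have hQnt : Nontrivial Q := by
    have h1 : p ∣ Nat.card A := vertex_dvd_card hA hAc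
    have h2 : Nat.card A ∣ Nat.card Q := Subgroup.card_dvd_of_le hAQ
    have h3 : 1 < Nat.card Q :=
      lt_of_lt_of_le hp.out.one_lt (Nat.le_of_dvd Nat.card_pos (h1.trans h2))
    exact Finite.one_lt_card_iff_nontrivial.mp h3
  have hZ : Nontrivial (Subgroup.center Q) := hQ.center_nontrivial
  have hZp : IsPGroup p (Subgroup.center Q) := hQ.to_subgroup _
  have hdvd : p ∣ Nat.card (Subgroup.center Q) := by
    obtain ⟨k, hk⟩ := IsPGroup.iff_card.mp hZp
    rw [hk]
    rcases Nat.eq_zero_or_pos k with h0 | hpos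
    · exfalso
      rw [h0, pow_zero] at hk
      exact (Finite.one_lt_card_iff_nontrivial.mpr hZ).ne' hk
    · exact dvd_pow_self p hpos.ne'
  obtain ⟨z, hz⟩ := exists_prime_orderOf_dvd_card' p hdvd
  have hz'o : orderOf ((z : Q) : G) = p := by
    rw [Subgroup.orderOf_coe, Subgroup.orderOf_coe]; exact hz
  have hzc : ∀ q ∈ Q, q * ((z : Q) : G) = ((z : Q) : G) * q := by
    intro q hq
    have := Subgroup.mem_center_iff.mp z.2 ⟨q, hq⟩
    exact congrArg Subtype.val this
  obtain ⟨hV1, hV2⟩ := zpowers_vertex ((z : Q) : G) hz'o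
  have hcomm : ∀ q ∈ Q, ∀ c ∈ Subgroup.zpowers ((z : Q) : G), q * c = c * q := by
    intro q hq c hc
    obtain ⟨k, rfl⟩ := Subgroup.mem_zpowers_iff.mp hc
    exact (Commute.zpow_right (hzc q hq) k)
  have e1 : Adj p A (Subgroup.zpowers ((z : Q) : G)) :=
    ⟨hA, hAc, hV1, hV2, fun a ha c hc => hcomm a (hAQ ha) c hc⟩
  have e2 : Adj p (Subgroup.zpowers ((z : Q) : G)) B :=
    ⟨hV1, hV2, hB, hBc, fun c hc b hb => (hcomm b (hBQ hb) c hc).symm⟩
  exact Relation.ReflTransGen.trans (Relation.ReflTransGen.single e1)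
    (Relation.ReflTransGen.single e2)

end aux

/-- Let G be finite and p prime. Then G has a proper subgroup H with p ∣ |H| and p ∤ |H ∩ gHg⁻¹| for every g ∉ H (a strongly p-embedded subgroup) if and only if G is not 1-connected for p. -/
theorem result {G : Type*} [Group G] [Finite G] (p : ℕ) [Fact p.Prime] : (∃ H : Subgroup G, H ≠ ⊤ ∧ p ∣ Nat.card ↥H ∧ ∀ g : G, g ∉ H → ¬ p ∣ Nat.card ↥(H ⊓ H.map (MulAut.conj g).toMonoidHom)) ↔ ¬ Cfsg.IsKConnected p 1 G := by
  constructor
  · rintro ⟨H, hHtop, hpH, hstr⟩ hconn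
    obtain ⟨x, hx⟩ := exists_prime_orderOf_dvd_card' p hpH
    have hxo : orderOf (x : G) = p := by rw [Subgroup.orderOf_coe]; exact hx
    obtain ⟨hE1, hE2⟩ := zpowers_vertex (x : G) hxo
    have hEH : Subgroup.zpowers (x : G) ≤ H := by
      rw [Subgroup.zpowers_le]; exact x.2
    have key : ∀ A : Subgroup G,
        Relation.ReflTransGen (Adj p) (Subgroup.zpowers (x : G)) A → A ≤ H := by
      intro A hA
      induction hA with
      | refl => exact hEH
      | tail _ hBC ih =>
        obtain ⟨hB1, hB2, hC1, hC2, hcomm⟩ := hBC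
        intro c hc
        by_contra hcH
        apply hstr c hcH
        refine (vertex_dvd_card hB1 hB2).trans (Subgroup.card_dvd_of_le ?_)
        intro b hb
        refine ⟨ih hb, b, ih hb, ?_⟩
        show c * b * c⁻¹ = b
        rw [← hcomm b hb c hc]; group
    obtain ⟨g, hg⟩ : ∃ g : G, g ∉ H := by
      by_contra hall
      push_neg at hall
      exact hHtop (eq_top_iff.mpr (fun g _ => hall g))
    have hE' := hconn (Subgroup.zpowers (x : G))
      ((Subgroup.zpowers (x : G)).map (MulAut.conj g).toMonoidHom) hE1 hE2 (ea_map_conj g hE1)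
      (by rw [card_map_conj]; exact hE2)
    have h2 := key _ hE'
    apply hstr g hg
    have h3 : (Subgroup.zpowers (x : G)).map (MulAut.conj g).toMonoidHom ≤
        H ⊓ H.map (MulAut.conj g).toMonoidHom :=
      le_inf h2 (Subgroup.map_mono hEH)
    exact (vertex_dvd_card (ea_map_conj g hE1) (by rw [card_map_conj]; exact hE2)).trans
      (Subgroup.card_dvd_of_le h3)
  · intro hnc
    unfold Cfsg.IsKConnected at hnc
    push_neg at hnc
    obtain ⟨E, E', hE1, hE2, hE'1, hE'2, hnot⟩ := hnc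
    have hnot' : ¬ Relation.ReflTransGen (Adj p) E E' := hnot
    let H : Subgroup G :=
      { carrier := {g | Relation.ReflTransGen (Adj p) E (E.map (MulAut.conj g).toMonoidHom)}
        one_mem' := by
          show Relation.ReflTransGen (Adj p) E (E.map (MulAut.conj (1:G)).toMonoidHom)
          rw [map_conj_one]
        mul_mem' := by
          intro a b ha hb
          show Relation.ReflTransGen (Adj p) E (E.map (MulAut.conj (a * b)).toMonoidHom)
          rw [map_conj_mul]
          exact Relation.ReflTransGen.trans ha (conn_map_conj a hb)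
        inv_mem' := by
          intro a ha
          show Relation.ReflTransGen (Adj p) E (E.map (MulAut.conj a⁻¹).toMonoidHom)
          have h1 := conn_map_conj a⁻¹ ha
          rw [← map_conj_mul, inv_mul_cancel, map_conj_one] at h1
          exact conn_symm h1 }
    have hmemH : ∀ g, g ∈ H ↔
        Relation.ReflTransGen (Adj p) E (E.map (MulAut.conj g).toMonoidHom) := fun g => Iff.rfl
    have hEH : E ≤ H := by
      intro e he
      rw [hmemH, map_conj_eq_of_mem_normalizer (Subgroup.le_normalizer he)]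
    have hF7 : ∀ A : Subgroup G, Cfsg.IsElementaryAbelian p A → p ^ 1 ≤ Nat.card A → A ≤ H →
        Relation.ReflTransGen (Adj p) E A := by
      intro A hA1 hA2 hAH
      have hAp : IsPGroup p (A.subgroupOf H) :=
        (vertex_isPGroup hA1).comap_of_injective _ (Subgroup.subtype_injective _)
      have hEp : IsPGroup p (E.subgroupOf H) :=
        (vertex_isPGroup hE1).comap_of_injective _ (Subgroup.subtype_injective _)
      obtain ⟨QA, hQA⟩ := hAp.exists_le_sylow
      obtain ⟨QE, hQE⟩ := hEp.exists_le_sylow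
      obtain ⟨h, hh⟩ := MulAction.exists_smul_eq H QE QA
      have hQp : IsPGroup p ((QA : Subgroup H).map H.subtype) := QA.isPGroup'.map _
      have hAQ : A ≤ (QA : Subgroup H).map H.subtype := by
        intro a ha
        exact ⟨⟨a, hAH ha⟩, hQA (show (⟨a, hAH ha⟩ : H) ∈ A.subgroupOf H from ha), rfl⟩
      have hEQ : E.map (MulAut.conj (h : G)).toMonoidHom ≤ (QA : Subgroup H).map H.subtype := by
        rintro _ ⟨e, he, rfl⟩
        refine ⟨h * ⟨e, hEH he⟩ * h⁻¹, ?_, rfl⟩
        rw [← hh]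
        have he' : (⟨e, hEH he⟩ : H) ∈ (QE : Subgroup H) :=
          hQE (show (⟨e, hEH he⟩ : H) ∈ E.subgroupOf H from he)
        show h * ⟨e, hEH he⟩ * h⁻¹ ∈ ((h • QE : Sylow p H) : Subgroup H)
        rw [Sylow.coe_subgroup_smul]
        exact (Subgroup.mem_smul_pointwise_iff_exists _ _ _).mpr ⟨_, he', rfl⟩
      have h1 : Relation.ReflTransGen (Adj p) (E.map (MulAut.conj (h : G)).toMonoidHom) A :=
        conn_of_le_pGroup hQp (ea_map_conj _ hE1) (by rw [card_map_conj]; exact hE2) hEQ hA1 hA2 hAQ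
      exact Relation.ReflTransGen.trans ((hmemH _).mp h.2) h1
    refine ⟨H, ?_, ?_, ?_⟩
    · intro htop
      obtain ⟨P, hP⟩ := (vertex_isPGroup hE1).exists_le_sylow
      obtain ⟨P', hP'⟩ := (vertex_isPGroup hE'1).exists_le_sylow
      obtain ⟨g, hg⟩ := MulAction.exists_smul_eq G P P'
      have hgH : g ∈ H := by rw [htop]; trivial
      have h1 : E.map (MulAut.conj g).toMonoidHom ≤ (P' : Subgroup G) := by
        rintro _ ⟨e, he, rfl⟩
        rw [← hg]
        show (MulAut.conj g) e ∈ ((g • P : Sylow p G) : Subgroup G)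
        rw [Sylow.coe_subgroup_smul]
        exact (Subgroup.mem_smul_pointwise_iff_exists _ _ _).mpr ⟨e, hP he, rfl⟩
      have h2 := conn_of_le_pGroup P'.isPGroup' (ea_map_conj g hE1)
        (by rw [card_map_conj]; exact hE2) h1 hE'1 hE'2 hP'
      exact hnot' (Relation.ReflTransGen.trans ((hmemH g).mp hgH) h2)
    · exact (vertex_dvd_card hE1 hE2).trans (Subgroup.card_dvd_of_le hEH)
    · intro g hg hdvd
      apply hg
      obtain ⟨x, hx⟩ := exists_prime_orderOf_dvd_card' p hdvd
      have hxo : orderOf (x : G) = p := by rw [Subgroup.orderOf_coe]; exact hx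
      obtain ⟨hA1, hA2⟩ := zpowers_vertex (x : G) hxo
      have hxH : (x : G) ∈ H := x.2.1
      have hxHg : (x : G) ∈ H.map (MulAut.conj g).toMonoidHom := x.2.2
      have hAH : Subgroup.zpowers (x : G) ≤ H := by rw [Subgroup.zpowers_le]; exact hxH
      have c1 := hF7 _ hA1 hA2 hAH
      have hA'H : (Subgroup.zpowers (x : G)).map (MulAut.conj g⁻¹).toMonoidHom ≤ H := by
        rw [MonoidHom.map_zpowers, Subgroup.zpowers_le]
        obtain ⟨y, hy, hyx⟩ := hxHg
        have : (MulAut.conj g⁻¹).toMonoidHom (x : G) = y := by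
          rw [← hyx]
          simp [MulAut.conj_apply, mul_assoc]
        rw [this]; exact hy
      have c2 := hF7 _ (ea_map_conj g⁻¹ hA1) (by rw [card_map_conj]; exact hA2) hA'H
      have c3 := conn_map_conj g c2
      rw [← map_conj_mul, mul_inv_cancel, map_conj_one] at c3
      rw [hmemH]
      exact Relation.ReflTransGen.trans c1 (conn_symm c3)

end Cfsg.Agent.S1336
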