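import Cfsg.Statements.S1338
import Cfsg.Agent.Lib.Helper19.NormalElAb

set_option autoImplicit false
open Cfsg

namespace Cfsg.Agent.S1338

/-- A finite 3-group of 3-rank at least 4 is 2-connected for the prime 3: its commuting graph on elementary abelian subgroups of order ≥ 9 is connected. -/
theorem result {P : Type*} [Group P] [Finite P] (hP : IsPGroup 3 P) (hrk : ¬ Cfsg.PRankLE 3 3 P) : Cfsg.IsKConnected 3 2 P := by
  unfold Cfsg.PRankLE at hrk
  push Not at hrk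
  obtain ⟨A, hAc, hA3, hAcard⟩ := hrk
  have hA : Cfsg.Agent.Lib.Helper19.NormalElAb.EA 3 A :=
    Cfsg.Agent.Lib.Helper19.NormalElAb.EA_iff.mpr ⟨hAc, hA3⟩
  have hp3 : Fact (Nat.Prime 3) := ⟨Nat.prime_three⟩
  have hA4 : 3 ^ 4 ≤ Nat.card A := by
    obtain ⟨n, hn⟩ := IsPGroup.iff_card.mp (hP.to_subgroup A)
    rw [hn] at hAcard ⊢
    have h1 : 3 < n := (Nat.pow_lt_pow_iff_right (by norm_num)).mp hAcard
    exact Nat.pow_le_pow_right (by norm_num) h1
  intro E E' hE hE2 hE' hE'2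
  have h2 := Cfsg.Agent.Lib.Helper19.NormalElAb.three_connected hP hA hA4 E E'
    (Cfsg.Agent.Lib.Helper19.NormalElAb.EA_iff.mpr hE) hE2
    (Cfsg.Agent.Lib.Helper19.NormalElAb.EA_iff.mpr hE') hE'2
  refine Relation.ReflTransGen.mono ?_ _ _ h2
  rintro X Y ⟨h3, h4, h5, h6, h7⟩
  exact ⟨Cfsg.Agent.Lib.Helper19.NormalElAb.EA_iff.mp h3, h4,
    Cfsg.Agent.Lib.Helper19.NormalElAb.EA_iff.mp h5, h6, h7⟩

end Cfsg.Agent.S1338
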