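import Mathlib
import Cfsg.Statements.S1343
import Cfsg.Agent.Lib.Helper11.ExtLayer

set_option autoImplicit false
open Cfsg

namespace Cfsg.Agent.S1343

open Cfsg.Agent.Lib.Helper11 in
/-- Let X be finite. Then L*_{2'}(X) = L_{2'}(X) ⊔ F for some subgroup F of odd order normalized by a Sylow 2-subgroup of X. -/
theorem result {X : Type*} [Group X] [Finite X] : ∃ F : Subgroup X, Odd (Nat.card ↥F) ∧ (∃ S : Sylow 2 X, (S : Subgroup X) ≤ Subgroup.normalizer (F : Set X)) ∧ Cfsg.extendedTwoLayer X = Cfsg.pLayer 2 X ⊔ F := by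
  have : Fact (Nat.Prime 2) := ⟨Nat.prime_two⟩
  have hNn := layerN_normal (X := X) 2
  obtain ⟨T⟩ : Nonempty (Sylow 2 ↥(Cfsg.pLayer 2 X ⊔ Cfsg.pPrimePCore 2 X)) := inferInstance
  have hE := extendedTwoLayer_eq_of_sylow T
  have hTN := sylow_map_subtype_le T
  have hTp := sylow_map_subtype_isPGroup T
  have hTmax : ∀ Q : Subgroup X, IsPGroup 2 Q → Q ≤ Cfsg.pLayer 2 X ⊔ Cfsg.pPrimePCore 2 X →
      (T : Subgroup ↥(Cfsg.pLayer 2 X ⊔ Cfsg.pPrimePCore 2 X)).map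
        (Cfsg.pLayer 2 X ⊔ Cfsg.pPrimePCore 2 X).subtype ≤ Q →
      Q = (T : Subgroup ↥(Cfsg.pLayer 2 X ⊔ Cfsg.pPrimePCore 2 X)).map
        (Cfsg.pLayer 2 X ⊔ Cfsg.pPrimePCore 2 X).subtype := by
    intro Q hQ hQN hTQ
    have h1 : IsPGroup 2 (Q.subgroupOf (Cfsg.pLayer 2 X ⊔ Cfsg.pPrimePCore 2 X)) :=
      hQ.comap_of_injective _ (Subgroup.subtype_injective _)
    have h2 : (T : Subgroup ↥(Cfsg.pLayer 2 X ⊔ Cfsg.pPrimePCore 2 X)) ≤
        Q.subgroupOf (Cfsg.pLayer 2 X ⊔ Cfsg.pPrimePCore 2 X) := by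
      intro x hx
      exact hTQ ⟨x, hx, rfl⟩
    have h3 := T.is_maximal' h1 h2
    rw [← h3, Subgroup.subgroupOf_map_subtype, inf_eq_left.mpr hQN]
  generalize (T : Subgroup ↥(Cfsg.pLayer 2 X ⊔ Cfsg.pPrimePCore 2 X)).map
        (Cfsg.pLayer 2 X ⊔ Cfsg.pPrimePCore 2 X).subtype = T' at hE hTN hTp hTmax
  obtain ⟨S, hS⟩ := hTp.exists_le_sylow
  refine ⟨Cfsg.pPrimeCore 2 X ⊔ coreOf 2 (Subgroup.centralizer (T' : Set X)), ?_, ⟨S, ?_⟩, ?_⟩
  · have h1 := card_sup_dvd_of_normal (Cfsg.pPrimeCore 2 X) (coreOf 2 (Subgroup.centralizer (T' : Set X)))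
    have h2 : (Nat.card ↥(Cfsg.pPrimeCore 2 X ⊔ coreOf 2 (Subgroup.centralizer (T' : Set X)))).Coprime 2 :=
      Nat.Coprime.coprime_dvd_left h1
        (Nat.Coprime.mul_left (pPrimeCore_card_coprime 2) (coreOf_card_coprime 2 _))
    exact Nat.Coprime.odd_of_right h2
  · -- S normalizes T'
    have hSN : (S : Subgroup X) ⊓ (Cfsg.pLayer 2 X ⊔ Cfsg.pPrimePCore 2 X) = T' :=
      hTmax _ (S.isPGroup'.to_le inf_le_left) inf_le_right (le_inf hS hTN)
    have hST : (S : Subgroup X) ≤ Subgroup.normalizer (T' : Set X) := by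
      apply le_normalizer_of_map_conj_le
      intro g hg
      rw [← hSN]
      rintro _ ⟨t, ht, rfl⟩
      exact ⟨Subgroup.mul_mem _ (Subgroup.mul_mem _ hg ht.1) (Subgroup.inv_mem _ hg),
        hNn.conj_mem t ht.2 g⟩
    apply le_normalizer_of_map_conj_le
    intro g hg
    rw [Subgroup.map_sup, map_conj_eq_of_normal (Cfsg.pPrimeCore_normal 2 X)]
    apply sup_le_sup_left
    rw [← coreOf_centralizer_map_conj, map_conj_eq_of_mem_normalizer (hST hg)]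
  · rw [hE, sup_assoc]

end Cfsg.Agent.S1343
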