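import Mathlib
import Cfsg.Statements.S1344
import Cfsg.Agent.Lib.Helper11.TwoComp

set_option autoImplicit false
open Cfsg

namespace Cfsg.Agent.S1344

/-- Let K be a 2-component of the finite group X. Then K ≤ L*_{2'}(X) and K is normal in L*_{2'}(X). -/
theorem result {X : Type*} [Group X] [Finite X] (K : Subgroup X) (hK : Cfsg.IsPComponent 2 K) : K ≤ Cfsg.extendedTwoLayer X ∧ (K.subgroupOf (Cfsg.extendedTwoLayer X)).Normal := by
  have : Fact (Nat.Prime 2) := ⟨Nat.prime_two⟩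
  have hKL : K ≤ Cfsg.pLayer 2 X := le_sSup hK
  have hle : K ≤ Cfsg.extendedTwoLayer X := hKL.trans (le_sup_left.trans le_sup_left)
  refine ⟨hle, ?_⟩
  rw [Subgroup.normal_subgroupOf_iff_le_normalizer hle]
  unfold Cfsg.extendedTwoLayer
  refine sup_le (sup_le ?_ ?_) (iSup_le fun T => ?_)
  · exact sSup_le fun K₂ hK₂ => Cfsg.Agent.Lib.Helper10.pcomp_le_normalizer 2 hK hK₂
  · exact Cfsg.Agent.Lib.Helper11.pPrimeCore_le_normalizer_pcomp 2 hK
  · have h1 := Cfsg.Agent.Lib.Helper11.sylow_map_inf_subnormal_relIndex 2 T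
      (hKL.trans le_sup_left) hK.1
    have hTp : IsPGroup 2 ↥((T : Subgroup ↥(pLayer 2 X ⊔ pPrimePCore 2 X)).map
        (pLayer 2 X ⊔ pPrimePCore 2 X).subtype) := T.2.map _
    have h2 := Cfsg.Agent.Lib.Helper11.centralizer_le_normalizer_pcomp 2 hK
      (hTp.to_le inf_le_left) inf_le_right h1
    have h3 : Subgroup.centralizer ((((T : Subgroup ↥(pLayer 2 X ⊔ pPrimePCore 2 X)).map
        (pLayer 2 X ⊔ pPrimePCore 2 X).subtype : Subgroup X)) : Set X) ≤
        Subgroup.centralizer ((((T : Subgroup ↥(pLayer 2 X ⊔ pPrimePCore 2 X)).map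
        (pLayer 2 X ⊔ pPrimePCore 2 X).subtype ⊓ K : Subgroup X)) : Set X) :=
      Subgroup.centralizer_le (fun s hs => hs.1)
    refine le_trans ?_ (h3.trans h2)
    rintro _ ⟨x, -, rfl⟩
    exact x.2

end Cfsg.Agent.S1344
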