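import Mathlib
import Cfsg.Statements.S1386
import Cfsg.Agent.Lib.Helper11.Misc
import Cfsg.Agent.Lib.Helper11.Stab

set_option autoImplicit false
open Cfsg

namespace Cfsg.Agent.S1386

open scoped commutatorElement

open Cfsg.Agent.Lib.Helper11 in
/-- Let G be a finite group, W₁, W₂ subgroups forming a self-normalizing cyclic pair, S a subgroup with W₂ ≤ S and W₁ a complement to S' in S, and (W₁, U, W₂') type-P data for S. Then W₂' = W₂ (that is, C_{S'}(W₁) = W₂). -/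
theorem result {G : Type*} [Group G] [Finite G] (W₁ W₂ S U W₂' : Subgroup G) (hW : Cfsg.IsSelfNormalizingCyclic W₁ W₂)
    (hSW : Cfsg.IsComplIn ⁅S, S⁆ W₁ S) (hW₂S : W₂ ≤ S) (hP : Cfsg.IsTypePWith S W₁ U W₂') :
    W₂' = W₂ := by
  obtain ⟨hW1ne, hW2ne, hW12, hWcomm, hWcyc, hWnorm⟩ := hW
  obtain ⟨hS'S, hW1S, hS'W1, hSdec⟩ := hSW
  obtain ⟨-, hW2'ne, hW12', hWcomm', hWcyc', -⟩ := hP.selfNormalizing
  -- coprime orders
  have hcop : (Nat.card W₁).Coprime (Nat.card W₂) := by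
    let φ : W₁ × W₂ →* ↥(W₁ ⊔ W₂) := MonoidHom.mk'
      (fun ab => ⟨(ab.1 : G) * ab.2, Subgroup.mul_mem_sup ab.1.2 ab.2.2⟩) (by
      rintro ⟨a, b⟩ ⟨a', b'⟩
      apply Subtype.ext
      have h := hWcomm a' a'.2 b b.2
      show (a : G) * a' * (b * b') = a * b * (a' * b')
      calc (a : G) * a' * (b * b') = a * (a' * b) * b' := by group
        _ = a * (b * a') * b' := by rw [h]
        _ = a * b * (a' * b') := by group)
    have hφ : Function.Injective φ := by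
      rintro ⟨a, b⟩ ⟨a', b'⟩ h
      have h1 : (a : G) * b = a' * b' := congrArg Subtype.val h
      have h2 : (a' : G)⁻¹ * a = b' * (b : G)⁻¹ := by
        rw [inv_mul_eq_iff_eq_mul, ← mul_assoc, ← h1]; group
      have h3 : (a' : G)⁻¹ * a ∈ W₁ ⊓ W₂ :=
        ⟨W₁.mul_mem (W₁.inv_mem a'.2) a.2, by rw [h2]; exact W₂.mul_mem b'.2 (W₂.inv_mem b.2)⟩
      rw [hW12, Subgroup.mem_bot] at h3
      have h4 : (a : G) = a' := by rw [inv_mul_eq_one] at h3; exact h3.symm
      have h5 : (b : G) = b' := by rw [h4] at h1; exact mul_left_cancel h1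
      exact Prod.ext (Subtype.ext h4) (Subtype.ext h5)
    have : IsCyclic (W₁ × W₂) := isCyclic_of_injective φ hφ
    exact coprime_card_of_isCyclic_prod W₁ W₂
  have hS'norm : ∀ s ∈ S, ∀ a ∈ ⁅S, S⁆, s * a * s⁻¹ ∈ ⁅S, S⁆ := by
    intro s hs a ha
    have : s * a * s⁻¹ = ⁅s, a⁆ * a := by simp [commutatorElement_def]
    rw [this]
    exact Subgroup.mul_mem _ (Subgroup.commutator_mem_commutator hs (hS'S ha)) ha
  have hW2S' : W₂ ≤ ⁅S, S⁆ := by
    intro w hw
    obtain ⟨a, ha, b, hb, rfl⟩ := hSdec w (hW₂S hw)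
    have key : ∀ k : ℕ, ∃ c ∈ ⁅S, S⁆, (a * b) ^ k = c * b ^ k := by
      intro k
      induction k with
      | zero => exact ⟨1, Subgroup.one_mem _, by simp⟩
      | succ k ih =>
        obtain ⟨c, hc, hck⟩ := ih
        refine ⟨c * (b ^ k * a * (b ^ k)⁻¹),
          Subgroup.mul_mem _ hc (hS'norm _ (S.pow_mem (hW1S hb) k) a ha), ?_⟩
        rw [pow_succ, hck, pow_succ]; group
    obtain ⟨c, hc, hck⟩ := key (Nat.card W₂)
    have h1 : (a * b) ^ Nat.card W₂ = 1 := pow_card_subgroup_eq_one hw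
    have h2 : b ^ Nat.card W₂ ∈ ⁅S, S⁆ ⊓ W₁ := by
      refine ⟨?_, W₁.pow_mem hb _⟩
      have : b ^ Nat.card W₂ = c⁻¹ := by
        rw [h1] at hck
        exact eq_inv_of_mul_eq_one_right hck.symm
      rw [this]
      exact Subgroup.inv_mem _ hc
    rw [hS'W1, Subgroup.mem_bot] at h2
    have h3 : b ^ Nat.card W₁ = 1 := pow_card_subgroup_eq_one hb
    have h4 : b = 1 := by
      have d1 : orderOf b ∣ Nat.card W₂ := orderOf_dvd_of_pow_eq_one h2
      have d2 : orderOf b ∣ Nat.card W₁ := orderOf_dvd_of_pow_eq_one h3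
      have d3 := Nat.dvd_gcd d2 d1
      rw [hcop.gcd_eq_one] at d3
      exact orderOf_eq_one_iff.mp (Nat.dvd_one.mp d3)
    rw [h4, mul_one]; exact ha
  -- a nontrivial element of W₁
  obtain ⟨x, hx⟩ := (Subgroup.ne_bot_iff_exists_ne_one.mp hW1ne)
  have hxW : (x : G) ∈ W₁ := x.2
  have hx1' : (x : G) ≠ 1 := fun h => hx (Subtype.ext h)
  have hcentr := hP.W₂_centralizer x hxW hx1'
  have hW2W2' : W₂ ≤ W₂' := by
    rw [← hcentr]
    refine le_inf hW2S' ?_
    intro w hw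
    rw [Subgroup.mem_centralizer_iff]
    intro y hy
    rw [Set.mem_singleton_iff] at hy
    subst hy
    exact (hWcomm _ hxW w hw)
  apply le_antisymm _ hW2W2'
  intro w' hw'
  obtain ⟨w₂, hw₂⟩ := (Subgroup.ne_bot_iff_exists_ne_one.mp hW2ne)
  have hw₂W : (w₂ : G) ∈ W₂ := w₂.2
  have hw₂1' : (w₂ : G) ≠ 1 := fun h => hw₂ (Subtype.ext h)
  have hX : ({(x : G) * w₂} : Set G) ⊆ (↑(W₁ ⊔ W₂) : Set G) \ (↑W₁ ∪ ↑W₂) := by
    intro y hy
    rw [Set.mem_singleton_iff] at hy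
    subst hy
    refine ⟨Subgroup.mul_mem_sup hxW hw₂W, ?_⟩
    rintro (h | h)
    · have : (w₂ : G) ∈ W₁ ⊓ W₂ := ⟨by
        have := W₁.mul_mem (W₁.inv_mem hxW) h
        simpa using this, hw₂W⟩
      rw [hW12, Subgroup.mem_bot] at this
      exact hw₂1' this
    · have : (x : G) ∈ W₁ ⊓ W₂ := ⟨hxW, by
        have := W₂.mul_mem h (W₂.inv_mem hw₂W)
        simpa using this⟩
      rw [hW12, Subgroup.mem_bot] at this
      exact hx1' this
  have hN := hWnorm _ hX (Set.singleton_nonempty _)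
  -- w' commutes with x and w₂
  have c1 : (x : G) * w' = w' * x := hWcomm' _ hxW w' hw'
  have c2 : (w₂ : G) * w' = w' * w₂ := by
    have h1 : (w₂ : G) ∈ W₁ ⊔ W₂' := (le_sup_right : W₂' ≤ W₁ ⊔ W₂') (hW2W2' hw₂W)
    have h2 : w' ∈ W₁ ⊔ W₂' := (le_sup_right : W₂' ≤ W₁ ⊔ W₂') hw'
    have := (IsCyclic.commGroup (α := ↥(W₁ ⊔ W₂'))).mul_comm ⟨(w₂ : G), h1⟩ ⟨w', h2⟩
    exact congrArg Subtype.val this
  have hw'N : w' ∈ Subgroup.normalizer ({(x : G) * w₂} : Set G) := by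
    have hc : w' * ((x : G) * w₂) = (x : G) * w₂ * w' := by
      rw [← mul_assoc, ← c1, mul_assoc, ← c2, mul_assoc]
    rw [Subgroup.mem_set_normalizer_iff]
    intro n
    simp only [Set.mem_singleton_iff]
    constructor
    · rintro rfl
      rw [hc]; group
    · intro h
      have : n = w'⁻¹ * ((x : G) * w₂ * w') := by rw [← h]; group
      rw [this, ← hc]; group
  rw [hN] at hw'N
  have hnorm : W₂ ≤ Subgroup.normalizer (W₁ : Set G) := by
    intro b hb
    rw [Subgroup.mem_normalizer_iff]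
    intro n
    constructor
    · intro hn
      rw [← hWcomm n hn b hb]
      simpa using hn
    · intro hn
      have h := hWcomm _ hn b hb
      have : n = b * n * b⁻¹ := by
        calc n = b⁻¹ * (b * n * b⁻¹ * b) := by group
          _ = b⁻¹ * (b * (b * n * b⁻¹)) := by rw [h]
          _ = b * n * b⁻¹ := by group
      rw [this]; exact hn
  obtain ⟨u, hu, v, hv, rfl⟩ := mem_sup_of_le_normalizer hnorm hw'N
  have hu1 : u ∈ W₁ ⊓ W₂' := ⟨hu, by
    have := W₂'.mul_mem hw' (W₂'.inv_mem (hW2W2' hv))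
    simpa using this⟩
  rw [hW12', Subgroup.mem_bot] at hu1
  rw [hu1, one_mul]; exact hv

end Cfsg.Agent.S1386
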