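import Mathlib
import Cfsg.Statements.S1387
import Cfsg.Agent.Lib.Helper11.Misc
import Cfsg.Agent.Lib.Helper11.Stab
import Cfsg.Agent.Lib.Helper11.Hall

set_option autoImplicit false
open Cfsg

namespace Cfsg.Agent.S1387

open scoped commutatorElement

open Cfsg.Agent.Lib.Helper11 in
/-- Let M be a subgroup of a finite group G with type-P data (W₁, U, W₂) and H = M_F. Then the Fitting subgroup F(M) is generated by H and the centralizer of H in U. -/
theorem result {G : Type*} [Group G] [Finite G] (M W₁ U W₂ : Subgroup G) (hP : Cfsg.IsTypePWith M W₁ U W₂) :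
    Cfsg.fittingOf M = Cfsg.fittingHallOf M ⊔ (U ⊓ Subgroup.centralizer (Cfsg.fittingHallOf M : Set G)) := by
  obtain ⟨hHM', hUM', hHU, hdec⟩ := hP.U_compl
  have hM'M : ⁅M, M⁆ ≤ M := hP.W₁_compl.1
  rw [← hP.fitting_eq]
  apply le_antisymm
  · apply sup_le le_sup_left
    intro y hy
    have hyM : y ∈ M := hy.1
    have hyC : y ∈ Subgroup.centralizer (Cfsg.fittingHallOf M : Set G) := hy.2
    have hyF : y ∈ Cfsg.fittingOf M := by
      rw [← hP.fitting_eq]; exact (le_sup_right : _ ≤ Cfsg.fittingHallOf M ⊔ _) hy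
    obtain ⟨a, ha, b, hb, hab⟩ := hdec y (hP.fitting_le hyF)
    -- a and b commute
    have hya : a * y = y * a := Subgroup.mem_centralizer_iff.mp hyC a ha
    have hcomm : Commute a b := by
      show a * b = b * a
      rw [hab] at hya
      have : a * (a * b) = a * (b * a) := by rw [hya, mul_assoc]
      exact mul_left_cancel this
    set h := Nat.card (Cfsg.fittingHallOf M) with hh
    set n := (Cfsg.fittingHall M).index with hn
    have hcop : h.Coprime n := fittingHallOf_hall M
    have hyh : y ^ h ∈ U ⊓ Subgroup.centralizer (Cfsg.fittingHallOf M : Set G) := by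
      refine ⟨?_, Subgroup.pow_mem _ hyC _⟩
      rw [hab, hcomm.mul_pow, pow_card_subgroup_eq_one ha, one_mul]
      exact U.pow_mem hb _
    have hyn : y ^ n ∈ Cfsg.fittingHallOf M := pow_index_mem_fittingHallOf M hyM
    have hbez := Nat.gcd_eq_gcd_ab h n
    rw [hcop.gcd_eq_one] at hbez
    have hy1 : y = (y ^ h) ^ (Nat.gcdA h n) * (y ^ n) ^ (Nat.gcdB h n) := by
      rw [← zpow_natCast y h, ← zpow_natCast y n, ← zpow_mul, ← zpow_mul, ← zpow_add, ← hbez]
      simp
    rw [hy1]
    exact Subgroup.mul_mem _ ((le_sup_right : _ ≤ Cfsg.fittingHallOf M ⊔ _) (Subgroup.zpow_mem _ hyh _))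
      ((le_sup_left : Cfsg.fittingHallOf M ≤ _) (Subgroup.zpow_mem _ hyn _))
  · apply sup_le_sup_left
    exact inf_le_inf_right _ (hUM'.trans hM'M)

end Cfsg.Agent.S1387
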