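import Mathlib
import Cfsg.Statements.S1388
import Cfsg.Agent.Lib.Helper11.Misc
import Cfsg.Agent.Lib.Helper11.Stab
import Cfsg.Agent.Lib.Helper11.Hall
import Cfsg.Agent.S1387

set_option autoImplicit false
open Cfsg

namespace Cfsg.Agent.S1388

open scoped commutatorElement

open Cfsg.Agent.Lib.Helper11 in
/-- Let M be a subgroup of a finite group G with type-P data (W₁, U, W₂) and H = M_F. Then the derived subgroup of U centralizes H, and if U ≠ 1 then U does not centralize H. -/
theorem result {G : Type*} [Group G] [Finite G] (M W₁ U W₂ : Subgroup G) (hP : Cfsg.IsTypePWith M W₁ U W₂) :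
    ⁅U, U⁆ ≤ Subgroup.centralizer (Cfsg.fittingHallOf M : Set G) ∧ (U ≠ ⊥ → ¬ U ≤ Subgroup.centralizer (Cfsg.fittingHallOf M : Set G)) := by
  obtain ⟨hHM', hUM', hHU, hdec⟩ := hP.U_compl
  have hM'M : ⁅M, M⁆ ≤ M := hP.W₁_compl.1
  have hHn := fittingHallOf_normal M
  constructor
  · intro u hu
    have huU : u ∈ U := (Subgroup.commutator_le.mpr (fun a ha b hb =>
      U.mul_mem (U.mul_mem (U.mul_mem ha hb) (U.inv_mem ha)) (U.inv_mem hb))) hu
    have h1 : u ∈ Cfsg.fittingOf M := by
      rw [← hP.fitting_eq]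
      exact hP.derived_two_le (Subgroup.commutator_mono hUM' hUM' hu)
    rw [Cfsg.Agent.S1387.result M W₁ U W₂ hP] at h1
    have hnorm : U ⊓ Subgroup.centralizer (Cfsg.fittingHallOf M : Set G) ≤
        Subgroup.normalizer (Cfsg.fittingHallOf M : Set G) :=
      inf_le_left.trans (hUM'.trans (hM'M.trans hHn))
    obtain ⟨a, ha, c, hc, rfl⟩ := mem_sup_of_le_normalizer hnorm h1
    have ha1 : a ∈ Cfsg.fittingHallOf M ⊓ U := ⟨ha, by
      have := U.mul_mem huU (U.inv_mem hc.1)
      simpa using this⟩
    rw [hHU, Subgroup.mem_bot] at ha1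
    rw [ha1, one_mul]; exact hc.2
  · intro hU hUC
    have c1 := isComplIn_card hP.W₁_compl
    have c2 := isComplIn_card hP.U_compl
    have c3 := fittingHall_index_mul_card M
    have c4 := relIndex_mul_card_of_le hP.W₁_compl.2.1
    have c5 := relIndex_mul_card_of_le (hUM'.trans hM'M)
    have k1' := fittingHallOf_hall M
    have k2' := hP.W₁_hall
    have hpos : 0 < Nat.card (Cfsg.fittingHallOf M) := Nat.card_pos
    have upos : 0 < Nat.card U := Nat.card_pos
    have wpos : 0 < Nat.card W₁ := Nat.card_pos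
    have hpowH : ∀ a ∈ Cfsg.fittingHallOf M, a ^ Nat.card (Cfsg.fittingHallOf M) = 1 :=
      fun a ha => pow_card_subgroup_eq_one ha
    have hpowU : ∀ a ∈ U, a ^ Nat.card U = 1 :=
      fun a ha => pow_card_subgroup_eq_one ha
    generalize Nat.card (Cfsg.fittingHallOf M) = h at *
    generalize hu_def : Nat.card U = u at *
    generalize Nat.card W₁ = w at *
    have e3 : (Cfsg.fittingHall M).index = u * w := by
      have : (Cfsg.fittingHall M).index * h = (u * w) * h := by rw [c3, c1, c2]; ring
      exact Nat.eq_of_mul_eq_mul_right hpos this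
    have e4 : W₁.relIndex M = h * u := by
      have : W₁.relIndex M * w = (h * u) * w := by rw [c4, c1, c2]
      exact Nat.eq_of_mul_eq_mul_right wpos this
    have e5 : U.relIndex M = h * w := by
      have : U.relIndex M * u = (h * w) * u := by rw [c5, c1, c2]; ring
      exact Nat.eq_of_mul_eq_mul_right upos this
    have k1 : h.Coprime (u * w) := e3 ▸ k1'
    have k2 : w.Coprime (h * u) := e4 ▸ k2'
    have khu : h.Coprime u := Nat.Coprime.coprime_mul_right_right k1
    have k3 : u.Coprime (h * w) :=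
      Nat.Coprime.mul_right khu.symm (Nat.Coprime.coprime_mul_left_right k2).symm
    have hUn : M ≤ Subgroup.normalizer (U : Set G) := by
      apply le_normalizer_of_map_conj_le
      rintro g hg _ ⟨x, hx, rfl⟩
      show g * x * g⁻¹ ∈ U
      have hxM' : g * x * g⁻¹ ∈ ⁅M, M⁆ :=
        (Subgroup.mem_normalizer_iff.mp (le_normalizer_commutator_left M M hg) x).mp (hUM' hx)
      obtain ⟨a, ha, b, hb, hab⟩ := hdec _ hxM'
      have hcomm : Commute a b := Subgroup.mem_centralizer_iff.mp (hUC hb) a ha
      have hpow : (g * x * g⁻¹) ^ u = 1 := by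
        rw [conj_pow, hpowU x hx]; simp
      rw [hab, hcomm.mul_pow, hpowU b hb, mul_one] at hpow
      have ha1 : a = 1 := by
        have d1 : orderOf a ∣ u := orderOf_dvd_of_pow_eq_one hpow
        have d2 : orderOf a ∣ h := orderOf_dvd_of_pow_eq_one (hpowH a ha)
        have d3 := Nat.dvd_gcd d2 d1
        rw [khu.gcd_eq_one] at d3
        exact orderOf_eq_one_iff.mp (Nat.dvd_one.mp d3)
      rw [hab, ha1, one_mul]; exact hb
    have hUH : U ≤ Cfsg.fittingHallOf M := by
      refine le_fittingHallOf (hUM'.trans hM'M) hUn hP.U_nilpotent ?_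
      rw [e5, hu_def]
      exact k3
    apply hU
    rw [eq_bot_iff, ← hHU]
    exact le_inf hUH le_rfl

end Cfsg.Agent.S1388
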