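import Mathlib
import Cfsg.Statements.S1441
import Cfsg.Agent.Lib.Helper11.Stab

set_option autoImplicit false
open Cfsg

namespace Cfsg.Agent.S1441

open scoped commutatorElement

open Cfsg.Agent.Lib.Helper11 in
/-- Stability-group lemma. -/
theorem result {G : Type*} [Group G] [Finite G] (H A : Subgroup G) (hH : Group.IsSolvable H) (hA : (A ≤ Subgroup.normalizer (H : Set G)))
    (n : ℕ) (c : Fin (n + 1) → Subgroup G) (hc0 : c 0 = H) (hcn : c (Fin.last n) = ⊥) (hanti : Antitone c)
    (hcN : ∀ i, H ≤ Subgroup.normalizer ((c i : Subgroup G) : Set G)) (hcA : ∀ i, A ≤ Subgroup.normalizer ((c i : Subgroup G) : Set G))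
    (htriv : ∀ i : Fin n, ⁅c i.castSucc, A⁆ ≤ c i.succ) :
    ∀ p : ℕ, p.Prime → p ∣ (A ⊓ Subgroup.centralizer (H : Set G)).relIndex A → p ∣ Nat.card H := by
  intro p hp hdvd
  by_contra hpH
  have : Fact p.Prime := ⟨hp⟩
  have hle : ∀ i, c i ≤ H := fun i => hc0 ▸ hanti (Fin.zero_le i)
  -- every p-element of A centralizes H
  have key : ∀ x ∈ A, ∀ e : ℕ, x ^ (p ^ e) = 1 → ∀ i, ∀ h ∈ c i, x * h = h * x := by
    intro x hxA e hxe i
    induction i using Fin.reverseInduction with
    | last =>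
      intro h hh
      rw [hcn, Subgroup.mem_bot] at hh
      rw [hh]; simp
    | cast i ih =>
      apply stab_step x (c i.castSucc) (c i.succ) ih ?_ (p ^ e) (Nat.card H) hxe
        (fun k hk => pow_card_subgroup_eq_one (hle _ hk))
        (Nat.Coprime.pow_left e ((Nat.Prime.coprime_iff_not_dvd hp).mpr hpH))
      intro h hh
      have h1 : ⁅h⁻¹, x⁆ ∈ c i.succ :=
        htriv i (Subgroup.commutator_mem_commutator ((c i.castSucc).inv_mem hh) hxA)
      have h2 : ⁅h⁻¹, x⁆ = h⁻¹ * (x * h * x⁻¹) := by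
        rw [commutatorElement_def]; group
      rw [h2] at h1
      exact h1
  obtain ⟨P⟩ := (inferInstance : Nonempty (Sylow p A))
  have hPle : (P : Subgroup A) ≤ (A ⊓ Subgroup.centralizer (H : Set G)).subgroupOf A := by
    intro y hy
    rw [Subgroup.mem_subgroupOf]
    refine Subgroup.mem_inf.mpr ⟨y.2, Subgroup.mem_centralizer_iff.mpr ?_⟩
    obtain ⟨e, he⟩ := P.isPGroup' ⟨y, hy⟩
    have he' : (y : G) ^ (p ^ e) = 1 := by
      have := congrArg (fun z : (P : Subgroup A) => ((z : A) : G)) he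
      simpa using this
    intro h hh
    exact (key y y.2 e he' 0 h (hc0 ▸ hh)).symm
  have h1 : ((A ⊓ Subgroup.centralizer (H : Set G)).subgroupOf A).index ∣ (P : Subgroup A).index :=
    Subgroup.index_dvd_of_le hPle
  exact P.not_dvd_index (hdvd.trans h1)

end Cfsg.Agent.S1441
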