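import Mathlib
import Cfsg.Statements.S1442
import Cfsg.Agent.Lib.Helper11.Stab

set_option autoImplicit false
open Cfsg

namespace Cfsg.Agent.S1442

open Cfsg.Agent.Lib.Helper11 in
/-- Coprime action on a nilpotent group with self-centralizing fixed points is trivial. -/
theorem result {G : Type*} [Group G] [Finite G] (H A : Subgroup G) (hH : Group.IsNilpotent H) (hA : (A ≤ Subgroup.normalizer (H : Set G))) (hcop : (Nat.card A).Coprime (Nat.card H))
    (hC : H ⊓ Subgroup.centralizer (((H ⊓ Subgroup.centralizer (A : Set G)) : Subgroup G) : Set G) ≤ (H ⊓ Subgroup.centralizer (A : Set G))) :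
    A ≤ Subgroup.centralizer (H : Set G) := by
  rw [Subgroup.le_centralizer_iff]
  by_contra hcon
  have hne : H ⊓ Subgroup.centralizer (A : Set G) ≠ H := fun h => hcon (h ▸ inf_le_right)
  obtain ⟨n, hnH, hnN, hnC⟩ := exists_mem_normalizer_not_mem hH inf_le_left hne
  apply hnC
  refine Subgroup.mem_inf.mpr ⟨hnH, Subgroup.mem_centralizer_iff.mpr ?_⟩
  intro a ha
  -- k := n⁻¹ * (a * n * a⁻¹)
  have hanH : a * n * a⁻¹ ∈ H := (Subgroup.mem_normalizer_iff.mp (hA ha) n).mp hnH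
  have hk : n⁻¹ * (a * n * a⁻¹) ∈ H ⊓ Subgroup.centralizer (A : Set G) := by
    apply hC
    refine Subgroup.mem_inf.mpr ⟨H.mul_mem (H.inv_mem hnH) hanH, Subgroup.mem_centralizer_iff.mpr ?_⟩
    intro c hc
    have hc := Subgroup.mem_inf.mp hc
    have hc1 : a * c = c * a := (Subgroup.mem_centralizer_iff.mp hc.2 a ha)
    have hc2 : n * c * n⁻¹ ∈ H ⊓ Subgroup.centralizer (A : Set G) :=
      (Subgroup.mem_normalizer_iff.mp hnN c).mp (Subgroup.mem_inf.mpr hc)
    have hc2 := Subgroup.mem_inf.mp hc2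
    have hc3 : a * (n * c * n⁻¹) = (n * c * n⁻¹) * a :=
      (Subgroup.mem_centralizer_iff.mp hc2.2 a ha)
    have hc1' : a⁻¹ * c * a = c := by rw [mul_assoc, hc1.symm, inv_mul_cancel_left]
    have e1 : (a * n * a⁻¹) * c * (a * n * a⁻¹)⁻¹ = n * c * n⁻¹ := by
      calc (a * n * a⁻¹) * c * (a * n * a⁻¹)⁻¹ = a * n * (a⁻¹ * c * a) * n⁻¹ * a⁻¹ := by group
        _ = a * (n * c * n⁻¹) * a⁻¹ := by rw [hc1']; group
        _ = (n * c * n⁻¹) * a * a⁻¹ := by rw [hc3]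
        _ = n * c * n⁻¹ := by group
    calc c * (n⁻¹ * (a * n * a⁻¹)) = n⁻¹ * (n * c * n⁻¹) * (a * n * a⁻¹) := by group
      _ = n⁻¹ * ((a * n * a⁻¹) * c * (a * n * a⁻¹)⁻¹) * (a * n * a⁻¹) := by rw [e1]
      _ = n⁻¹ * (a * n * a⁻¹) * c := by group
  have hk := Subgroup.mem_inf.mp hk
  have hk1 : a * n * a⁻¹ = n * (n⁻¹ * (a * n * a⁻¹)) := by group
  have hak : a * (n⁻¹ * (a * n * a⁻¹)) = (n⁻¹ * (a * n * a⁻¹)) * a :=
    (Subgroup.mem_centralizer_iff.mp hk.2 a ha)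
  have h1 := stab_core a n _ hk1 hak (Nat.card A) (Nat.card H) (pow_card_subgroup_eq_one ha)
    (pow_card_subgroup_eq_one hk.1) hcop
  have h2 : a * n * a⁻¹ = n := by rw [hk1, h1, mul_one]
  calc a * n = (a * n * a⁻¹) * a := by group
    _ = n * a := by rw [h2]

end Cfsg.Agent.S1442
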