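import Mathlib
import Cfsg.Statements.S1443
import Cfsg.Agent.Lib.Helper11.OmegaOne
import Cfsg.Agent.S1442

set_option autoImplicit false
open Cfsg

namespace Cfsg.Agent.S1443

open Cfsg.Agent.Lib.Helper11 in
/-- Let G be a finite group, p an odd prime, H a p-subgroup, E an elementary abelian subgroup of H, and A a subgroup of order coprime to p normalizing H. If A centralizes every element of order p in H ∩ C_G(E), then A centralizes H. -/
theorem result {G : Type*} [Group G] [Finite G] (p : ℕ) [Fact p.Prime] (hp : p ≠ 2) (H E A : Subgroup G) (hH : IsPGroup p H) (hE : E ≤ H) (hEe : Cfsg.IsElementaryAbelian p E)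
    (hA : (A ≤ Subgroup.normalizer (H : Set G))) (hcop : (Nat.card A).Coprime p)
    (hfix : ∀ x ∈ (H ⊓ Subgroup.centralizer (E : Set G)), orderOf x = p → A ≤ Subgroup.centralizer ({x} : Set G)) :
    A ≤ Subgroup.centralizer (H : Set G) := by
  have hfix' : ∀ x ∈ H ⊓ Subgroup.centralizer (E : Set G), x ^ p = 1 →
      A ≤ Subgroup.centralizer ({x} : Set G) := by
    intro x hx hxp
    by_cases h1 : x = 1
    · intro a _
      rw [Subgroup.mem_centralizer_iff]
      intro y hy
      rw [Set.mem_singleton_iff.mp hy, h1]; simp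
    · exact hfix x hx (orderOf_eq_prime hxp h1)
  have hEmem : E ≤ H ⊓ Subgroup.centralizer (E : Set G) := by
    refine le_inf hE ?_
    intro e he
    rw [Subgroup.mem_centralizer_iff]
    intro y hy
    have := hEe.1
    exact setLike_mul_comm hy he
  have hAE : A ≤ Subgroup.centralizer (E : Set G) := by
    intro a ha
    rw [Subgroup.mem_centralizer_iff]
    intro e he
    have h1 := hfix' e (hEmem he) (hEe.2 e he) ha
    exact Subgroup.mem_centralizer_iff.mp h1 e rfl
  have hAH₁ : A ≤ Subgroup.normalizer ((H ⊓ Subgroup.centralizer (E : Set G) : Subgroup G) : Set G) := by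
    apply le_normalizer_of_map_conj_le
    intro a ha
    rintro _ ⟨x, ⟨hxH, hxC⟩, rfl⟩
    refine ⟨(Subgroup.mem_normalizer_iff.mp (hA ha) x).mp hxH, ?_⟩
    show (MulAut.conj a) x ∈ Subgroup.centralizer (E : Set G)
    rw [Subgroup.mem_centralizer_iff]
    intro e he
    have h1 : e * a = a * e := Subgroup.mem_centralizer_iff.mp (hAE ha) e he
    have h2 : e * x = x * e := Subgroup.mem_centralizer_iff.mp hxC e he
    have h1' : e * a⁻¹ = a⁻¹ * e := by
      rw [eq_inv_mul_iff_mul_eq, ← mul_assoc, ← h1, mul_inv_cancel_right]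
    show e * (a * x * a⁻¹) = a * x * a⁻¹ * e
    calc e * (a * x * a⁻¹) = (e * a) * x * a⁻¹ := by simp only [mul_assoc]
      _ = (a * e) * x * a⁻¹ := by rw [h1]
      _ = a * (e * x) * a⁻¹ := by simp only [mul_assoc]
      _ = a * (x * e) * a⁻¹ := by rw [h2]
      _ = a * x * (e * a⁻¹) := by simp only [mul_assoc]
      _ = a * x * (a⁻¹ * e) := by rw [h1']
      _ = a * x * a⁻¹ * e := by simp only [mul_assoc]
  have hH₁p : IsPGroup p ↥(H ⊓ Subgroup.centralizer (E : Set G)) := hH.to_le inf_le_left
  have hcent₁ : A ≤ Subgroup.centralizer ((H ⊓ Subgroup.centralizer (E : Set G) : Subgroup G) : Set G) :=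
    omega_one p hp _ A hH₁p hAH₁ hcop hfix'
  have hcopH : (Nat.card A).Coprime (Nat.card H) := by
    obtain ⟨k, hk⟩ := IsPGroup.iff_card.mp hH
    rw [hk]; exact Nat.Coprime.pow_right k hcop
  apply Cfsg.Agent.S1442.result H A hH.isNilpotent hA hcopH
  intro x hx
  refine ⟨hx.1, ?_⟩
  have hxE : x ∈ H ⊓ Subgroup.centralizer (E : Set G) := by
    refine ⟨hx.1, ?_⟩
    have hEA : E ≤ H ⊓ Subgroup.centralizer (A : Set G) :=
      le_inf hE (Subgroup.le_centralizer_iff.mp hAE)
    exact Subgroup.centralizer_le hEA hx.2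
  exact (Subgroup.le_centralizer_iff.mp hcent₁) hxE

end Cfsg.Agent.S1443
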