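import Mathlib
import Cfsg.Statements.S1450
import Cfsg.Agent.Lib.Helper12.Rk2Solv
import Cfsg.Agent.Lib.Helper26.NpcExt

set_option autoImplicit false
open Cfsg

namespace Cfsg.Agent.S1450
open scoped commutatorElement
/-- a subgroup containing the derived subgroup is normal -/
theorem normal_of_commutator_le {X : Type*} [Group X] (H : Subgroup X) (h : commutator X ≤ H) :
    H.Normal := by
  constructor
  intro n hn g
  have e : g * n * g⁻¹ = ⁅g, n⁆ * n := by rw [commutatorElement_def]; group
  rw [e]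
  exact H.mul_mem (h (Subgroup.commutator_mem_commutator (Subgroup.mem_top g)
    (Subgroup.mem_top n))) hn

/-- the common conclusion: structure of a group whose derived subgroup is a `p`-group modulo
the `p'`-core -/
theorem struct_of_comm {G : Type*} [Group G] [Finite G] (hodd : Odd (Nat.card G)) (p : ℕ)
    [Fact p.Prime]
    (hcomm : IsPGroup p ↥(commutator (G ⧸ Cfsg.pPrimeCore p G)))
    (h1 : ∀ q : ℕ, q.Prime → q ∣ (Cfsg.pPrimeCore p G).index → q ≤ p) :
    ((p = 3 ∨ ∀ q : ℕ, q.Prime → q ∣ Nat.card G → p ≤ q) → Cfsg.HasNormalPComplement p G) ∧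
      Cfsg.HasNormalPComplement p ↥(commutator G) ∧
      (∀ L : Subgroup ↥(commutator G), (Nat.card L).Coprime p →
        L ≤ Cfsg.pPrimeCore p ↥(commutator G)) ∧
      commutator G ≤ Cfsg.pPrimePCore p G ∧ ((Cfsg.pPrimePCore p G).index).Coprime p := by
  classical
  have hp : p.Prime := Fact.out
  have hK := Cfsg.Agent.Lib.Helper1.pPrimeCore_coprime (G := G) p
  have hmapc : ∀ x ∈ commutator G, QuotientGroup.mk' (Cfsg.pPrimeCore p G) x ∈
      commutator (G ⧸ Cfsg.pPrimeCore p G) := by
    intro x hx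
    have hle : (commutator G).map (QuotientGroup.mk' (Cfsg.pPrimeCore p G)) ≤
        commutator (G ⧸ Cfsg.pPrimeCore p G) := by
      rw [commutator_def, commutator_def, Subgroup.map_commutator]
      exact Subgroup.commutator_mono le_top le_top
    exact hle ⟨x, hx, rfl⟩
  have hpow : ∀ x ∈ commutator G, ∃ k : ℕ, x ^ p ^ k ∈ Cfsg.pPrimeCore p G := by
    intro x hx
    obtain ⟨k, hk⟩ := hcomm ⟨_, hmapc x hx⟩
    refine ⟨k, ?_⟩
    have hk' : (QuotientGroup.mk' (Cfsg.pPrimeCore p G) x) ^ p ^ k = 1 :=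
      congrArg Subtype.val hk
    rw [← map_pow] at hk'
    exact (QuotientGroup.eq_one_iff _).mp hk'
  obtain ⟨N, hNdef⟩ : ∃ N : Subgroup ↥(commutator G),
      N = (Cfsg.pPrimeCore p G).subgroupOf (commutator G) := ⟨_, rfl⟩
  have hNn : N.Normal := by rw [hNdef]; infer_instance
  have hNc : (Nat.card N).Coprime p := by
    have e : N.map (commutator G).subtype = Cfsg.pPrimeCore p G ⊓ commutator G := by
      rw [hNdef]; exact Subgroup.subgroupOf_map_subtype _ _
    have e2 : Nat.card N = Nat.card ↥(Cfsg.pPrimeCore p G ⊓ commutator G) := by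
      rw [← e, Subgroup.card_map_of_injective (Subgroup.subtype_injective _)]
    rw [e2]
    exact Nat.Coprime.coprime_dvd_left (Subgroup.card_dvd_of_le inf_le_left) hK
  have hNpow : ∀ d : ↥(commutator G), ∃ k : ℕ, d ^ p ^ k ∈ N := by
    intro d
    obtain ⟨k, hk⟩ := hpow d d.2
    refine ⟨k, ?_⟩
    rw [hNdef, Subgroup.mem_subgroupOf, Subgroup.coe_pow]
    exact hk
  have hNidx : ∃ k : ℕ, N.index = p ^ k := by
    have hQ : IsPGroup p (↥(commutator G) ⧸ N) := by
      intro y
      obtain ⟨d, rfl⟩ := QuotientGroup.mk'_surjective N y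
      obtain ⟨k, hk⟩ := hNpow d
      refine ⟨k, ?_⟩
      rw [← map_pow]
      exact (QuotientGroup.eq_one_iff _).mpr hk
    obtain ⟨k, hk⟩ := IsPGroup.iff_card.mp hQ
    exact ⟨k, by rw [Subgroup.index_eq_card]; exact hk⟩
  refine ⟨?_, ?_, ?_, ?_, ?_⟩
  · intro hcase
    have hall : ∀ q : ℕ, q.Prime → q ∣ (Cfsg.pPrimeCore p G).index → q = p := by
      intro q hq hdvd
      have hle := h1 q hq hdvd
      have hqG : q ∣ Nat.card G := hdvd.trans (Subgroup.index_dvd_card _)
      rcases hcase with h3 | hmin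
      · have hq2 : q ≠ 2 := by
          rintro rfl
          exact (Nat.not_even_iff_odd.mpr hodd) (even_iff_two_dvd.mpr hqG)
        have := hq.two_le
        omega
      · exact le_antisymm hle (hmin q hq hqG)
    have hidx : (Cfsg.pPrimeCore p G).index =
        p ^ ((Cfsg.pPrimeCore p G).index.primeFactorsList.length) :=
      Nat.eq_prime_pow_of_unique_prime_dvd Subgroup.index_ne_zero_of_finite
        (fun {d} hd hdv => hall d hd hdv)
    exact Cfsg.Agent.Lib.Helper26.hasNormalPComplement_of_normal p _ inferInstance hK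
      ⟨_, hidx⟩
  · exact Cfsg.Agent.Lib.Helper26.hasNormalPComplement_of_normal p N hNn hNc hNidx
  · intro L hL
    have hLN : L ≤ N := by
      intro l hl
      obtain ⟨k, hk⟩ := hNpow l
      have ho : orderOf l ∣ Nat.card L := by
        have := orderOf_dvd_natCard (⟨l, hl⟩ : ↥L)
        rwa [Subgroup.orderOf_mk] at this
      have hc : (p ^ k).Coprime (orderOf l) :=
        (Nat.Coprime.pow_right k (Nat.Coprime.coprime_dvd_left ho hL)).symm
      obtain ⟨m, hm⟩ := exists_pow_eq_self_of_coprime hc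
      rw [← hm]
      exact N.pow_mem hk m
    exact hLN.trans (Cfsg.Agent.Lib.Helper1.le_pPrimeCore p hNn hNc)
  · intro x hx
    unfold Cfsg.pPrimePCore
    rw [Subgroup.mem_comap]
    exact Cfsg.Agent.Lib.Helper1.le_pCore p inferInstance hcomm (hmapc x hx)
  · obtain ⟨Sb⟩ : Nonempty (Sylow p (G ⧸ Cfsg.pPrimeCore p G)) := inferInstance
    have hle1 : Cfsg.pCore p (G ⧸ Cfsg.pPrimeCore p G) ≤ (Sb : Subgroup _) :=
      Cfsg.Agent.Lib.Helper1.pCore_le_sylow Sb
    have hcle : commutator (G ⧸ Cfsg.pPrimeCore p G) ≤ (Sb : Subgroup _) :=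
      (Cfsg.Agent.Lib.Helper1.le_pCore p inferInstance hcomm).trans hle1
    have hSn : (Sb : Subgroup (G ⧸ Cfsg.pPrimeCore p G)).Normal :=
      normal_of_commutator_le _ hcle
    have heq : Cfsg.pCore p (G ⧸ Cfsg.pPrimeCore p G) = (Sb : Subgroup _) :=
      le_antisymm hle1 (Cfsg.Agent.Lib.Helper1.le_pCore p hSn Sb.isPGroup')
    unfold Cfsg.pPrimePCore
    rw [Subgroup.index_comap_of_surjective _ (QuotientGroup.mk'_surjective _), heq]
    exact ((Nat.Prime.coprime_iff_not_dvd hp).mpr Sb.not_dvd_index).symm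


/-- Let G be a solvable group of odd order, p a prime dividing its order with G having no elementary abelian subgroup of order p ^ 3. Then every prime dividing the index of O_{p'}(G) is at most p; if p = 3 or p is the smallest prime divisor of #G then G has a normal p-complement; the derived subgroup G' has a normal p-complement; every subgroup of G' of order coprime to p lies in O_{p'}(G'); and G/O_{p',p}(G) is abelian of order coprime to p. -/
theorem result {G : Type*} [Group G] [Finite G] [Group.IsSolvable G] (hodd : Odd (Nat.card G)) (p : ℕ) [Fact p.Prime] (hpG : p ∣ Nat.card G) (hr : Cfsg.PRankLE p 2 G) :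
    (∀ q : ℕ, q.Prime → q ∣ (Cfsg.pPrimeCore p G).index → q ≤ p) ∧
      ((p = 3 ∨ ∀ q : ℕ, q.Prime → q ∣ Nat.card G → p ≤ q) → Cfsg.HasNormalPComplement p G) ∧
      Cfsg.HasNormalPComplement p ↥(commutator G) ∧
      (∀ L : Subgroup ↥(commutator G), (Nat.card L).Coprime p → L ≤ Cfsg.pPrimeCore p ↥(commutator G)) ∧
      commutator G ≤ Cfsg.pPrimePCore p G ∧ ((Cfsg.pPrimePCore p G).index).Coprime p := by
  classical
  have hp : p.Prime := Fact.out
  have hp2 : p ≠ 2 := by
    rintro rfl
    exact (Nat.not_even_iff_odd.mpr hodd) (even_iff_two_dvd.mpr hpG)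
  have hcomm := Cfsg.Agent.Lib.Helper12.Rk2Solv.solv_rk2_comm hodd p hp2 hr
  have hprimes := Cfsg.Agent.Lib.Helper12.Rk2Solv.solv_rk2_primes p hp2 hr
  have h1 : ∀ q : ℕ, q.Prime → q ∣ (Cfsg.pPrimeCore p G).index → q ≤ p := by
    intro q hq hdvd
    by_cases hqp : q = p
    · exact hqp.le
    · rw [Subgroup.index_eq_card] at hdvd
      exact (hprimes q hq hqp hdvd).2.le
  exact ⟨h1, struct_of_comm hodd p hcomm h1⟩

end Cfsg.Agent.S1450
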