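import Mathlib
import Cfsg.Statements.S1465
import Cfsg.Agent.Lib.Helper12.PStab
import Cfsg.Agent.Lib.Helper11.ThompsonAB
import Cfsg.Agent.Lib.Helper11.PConstrained
import Cfsg.Agent.S0044

set_option autoImplicit false
open Cfsg

namespace Cfsg.Agent.S1465

open Cfsg.Agent.Lib.Helper12

/-- in a solvable group with `O_{p'}(G) = 1`, the centralizer of a normal `p`-subgroup `P`
with `O_p(G) ∩ C_G(P) ≤ P` is a `p`-group -/
theorem centralizer_isPGroup {G : Type*} [Group G] [Finite G] [Group.IsSolvable G] (p : ℕ)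
    [hp : Fact p.Prime] (P : Subgroup G) [hPn : P.Normal] (hP : IsPGroup p P)
    (hO : Cfsg.pPrimeCore p G = ⊥)
    (hcp : Cfsg.pCore p G ⊓ Subgroup.centralizer (P : Set G) ≤ P) :
    IsPGroup p (Subgroup.centralizer (P : Set G)) := by
  classical
  have hpp : p.Prime := hp.1
  have hcent : Subgroup.centralizer (Cfsg.pCore p G : Set G) ≤ Cfsg.pCore p G := by
    rw [← Cfsg.Agent.Lib.Helper11.fitting_eq_pCore_of_pPrimeCore_eq_bot p hO]
    exact Cfsg.Agent.S0044.result
  have hRn : (Cfsg.pCore p G).Normal := inferInstance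
  have hRp : IsPGroup p (Cfsg.pCore p G) := Cfsg.Agent.Lib.Helper1.pCore_isPGroup p
  have key : ∀ c ∈ Subgroup.centralizer (P : Set G), (orderOf c).Coprime p → c = 1 := by
    intro c hc hco
    have hA : ¬ p ∣ Nat.card (Subgroup.zpowers c) := by
      rw [Nat.card_zpowers]
      intro h
      exact hpp.one_lt.ne' (Nat.dvd_one.mp (hco ▸ Nat.dvd_gcd h (dvd_refl p)))
    have hAP : Subgroup.zpowers c ≤ Subgroup.centralizer (P : Set G) := by
      rw [Subgroup.zpowers_le]; exact hc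
    have hAB : ⁅Subgroup.zpowers c, P⁆ = ⊥ :=
      Subgroup.commutator_eq_bot_iff_le_centralizer.mpr hAP
    have h1 := Cfsg.Agent.Lib.Helper11.thompson_AxB p (Subgroup.zpowers c) P hA hP hAB
      (Nat.card (Cfsg.pCore p G)) (Cfsg.pCore p G) hRp
      (by rw [Subgroup.normalizer_eq_top]; exact le_top)
      (by rw [Subgroup.normalizer_eq_top]; exact le_top)
      (hcp.trans (Subgroup.le_centralizer_iff.mp hAP)) le_rfl
    have h2 : c ∈ Subgroup.centralizer (Cfsg.pCore p G : Set G) :=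
      (Subgroup.le_centralizer_iff.mp h1) (Subgroup.mem_zpowers c)
    obtain ⟨j, hj⟩ := hRp ⟨c, hcent h2⟩
    have hj' : c ^ p ^ j = 1 := by
      simpa only [Subgroup.coe_pow, Subgroup.coe_one] using congrArg Subtype.val hj
    have hd : orderOf c ∣ p ^ j := orderOf_dvd_of_pow_eq_one hj'
    have hcop : (orderOf c).Coprime (p ^ j) := Nat.Coprime.pow_right j hco
    exact orderOf_eq_one_iff.mp (Nat.Coprime.eq_one_of_dvd hcop hd)
  rintro ⟨c, hc⟩
  obtain ⟨k, m, hm, hkm⟩ := Nat.exists_eq_pow_mul_and_not_dvd (orderOf_pos c).ne' p hpp.ne_one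
  have hwo : (orderOf (c ^ p ^ k)).Coprime p := by
    have h2 : (c ^ p ^ k) ^ m = 1 := by rw [← pow_mul, ← hkm, pow_orderOf_eq_one]
    exact Nat.Coprime.coprime_dvd_left (orderOf_dvd_of_pow_eq_one h2)
      ((Nat.Prime.coprime_iff_not_dvd hpp).mpr hm).symm
  have h3 := key (c ^ p ^ k) (Subgroup.pow_mem _ hc _) hwo
  exact ⟨k, Subtype.ext (by simpa only [Subgroup.coe_pow, Subgroup.coe_one] using h3)⟩

theorem main {G : Type*} [Group G] [Finite G] [Group.IsSolvable G] (hodd : Odd (Nat.card G))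
    (p : ℕ) [Fact p.Prime] (P : Subgroup G) [P.Normal] (hP : IsPGroup p P)
    (S : Set (Subgroup G))
    (hS : ∀ B ∈ S, IsMulCommutative B ∧ IsPGroup p B ∧ P ≤ Subgroup.normalizer (B : Set G)) :
    (sSup S).map (QuotientGroup.mk' (Subgroup.centralizer (P : Set G))) ≤
        Cfsg.pCore p (G ⧸ Subgroup.centralizer (P : Set G)) ∧
      (Cfsg.pPrimeCore p G = ⊥ → Cfsg.pCore p G ⊓ Subgroup.centralizer (P : Set G) ≤ P →
        sSup S ≤ Cfsg.pCore p G) := by
  classical
  have hpart1 : (sSup S).map (QuotientGroup.mk' (Subgroup.centralizer (P : Set G))) ≤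
      Cfsg.pCore p (G ⧸ Subgroup.centralizer (P : Set G)) := by
    rw [Subgroup.map_le_iff_le_comap]
    apply sSup_le
    intro B hB b hb
    obtain ⟨hBc, hBp, hBN⟩ := hS B hB
    rw [Subgroup.mem_comap]
    refine quad_mem_pCore G hodd P hP (Subgroup.centralizer (P : Set G)) rfl b ?_
    intro v hv
    have h1 : v * b⁻¹ * v⁻¹ ∈ B :=
      (Subgroup.mem_normalizer_iff.mp (hBN hv) b⁻¹).mp (B.inv_mem hb)
    have h2 : b * v * b⁻¹ * v⁻¹ ∈ B := by
      have e : b * v * b⁻¹ * v⁻¹ = b * (v * b⁻¹ * v⁻¹) := by group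
      rw [e]; exact B.mul_mem hb h1
    exact congrArg Subtype.val (hBc.is_comm.comm ⟨b, hb⟩ ⟨_, h2⟩)
  refine ⟨hpart1, fun hO hcp => ?_⟩
  have hCp := centralizer_isPGroup p P hP hO hcp
  have hKp : IsPGroup p ((Cfsg.pCore p (G ⧸ Subgroup.centralizer (P : Set G))).comap
      (QuotientGroup.mk' (Subgroup.centralizer (P : Set G)))) := by
    apply IsPGroup.comap_of_ker_isPGroup (Cfsg.Agent.Lib.Helper1.pCore_isPGroup p)
    rw [QuotientGroup.ker_mk']
    exact hCp
  have hKn : ((Cfsg.pCore p (G ⧸ Subgroup.centralizer (P : Set G))).comap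
      (QuotientGroup.mk' (Subgroup.centralizer (P : Set G)))).Normal :=
    Subgroup.Normal.comap inferInstance _
  exact (Subgroup.map_le_iff_le_comap.mp hpart1).trans (Cfsg.Agent.Lib.Helper1.le_pCore p hKn hKp)


/-- Let p be an odd prime, G a solvable group of odd order, P a normal p-subgroup of G, and X the subgroup generated by a family of abelian p-subgroups of G each normalized by P. Then the image of X in G/C_G(P) lies in O_p(G/C_G(P)); and if O_{p'}(G) = 1 and O_p(G) ∩ C_G(P) ≤ P then X ≤ O_p(G). -/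
theorem result {G : Type*} [Group G] [Finite G] [Group.IsSolvable G] (hodd : Odd (Nat.card G)) (p : ℕ) [Fact p.Prime] (hp : p ≠ 2) (P : Subgroup G) [P.Normal] (hP : IsPGroup p P)
    (S : Set (Subgroup G)) (hS : ∀ B ∈ S, IsMulCommutative B ∧ IsPGroup p B ∧ P ≤ Subgroup.normalizer (B : Set G)) :
    (sSup S).map (QuotientGroup.mk' (Subgroup.centralizer (P : Set G))) ≤ Cfsg.pCore p (G ⧸ Subgroup.centralizer (P : Set G)) ∧
      (Cfsg.pPrimeCore p G = ⊥ → Cfsg.pCore p G ⊓ Subgroup.centralizer (P : Set G) ≤ P → sSup S ≤ Cfsg.pCore p G) := by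
  exact main hodd p P hP S hS

end Cfsg.Agent.S1465
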