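import Mathlib
import Cfsg.Statements.S1457
import Cfsg.Agent.S1465

set_option autoImplicit false
open Cfsg

namespace Cfsg.Agent.S1457

/-- Let G be a solvable group of odd order, p a prime, S a Sylow p-subgroup of G and A an abelian subgroup of S normal in S. Then A ≤ O_{p',p}(G). -/
theorem result {G : Type*} [Group G] [Finite G] [Group.IsSolvable G] (hodd : Odd (Nat.card G)) (p : ℕ) [Fact p.Prime] (S : Sylow p G) (A : Subgroup G) (hA : A ≤ (S : Subgroup G)) (hAc : IsMulCommutative A)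
    (hAn : (S : Subgroup G) ≤ Subgroup.normalizer (A : Set G)) :
    A ≤ Cfsg.pPrimePCore p G := by
  classical
  unfold Cfsg.pPrimePCore
  rw [← Subgroup.map_le_iff_le_comap]
  obtain ⟨π, hπ⟩ : ∃ π : G →* G ⧸ Cfsg.pPrimeCore p G, π = QuotientGroup.mk' (Cfsg.pPrimeCore p G) :=
    ⟨_, rfl⟩
  rw [← hπ]
  have hπs : Function.Surjective π := by rw [hπ]; exact QuotientGroup.mk'_surjective _
  have hoddQ : Odd (Nat.card (G ⧸ Cfsg.pPrimeCore p G)) :=
    Odd.of_dvd_nat hodd (Subgroup.card_quotient_dvd_card _)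
  have hPp : IsPGroup p (Cfsg.pCore p (G ⧸ Cfsg.pPrimeCore p G)) :=
    Cfsg.Agent.Lib.Helper1.pCore_isPGroup p
  have hPS : Cfsg.pCore p (G ⧸ Cfsg.pPrimeCore p G) ≤ (S : Subgroup G).map π := by
    have h := Cfsg.Agent.Lib.Helper1.pCore_le_sylow (S.mapSurjective hπs)
    rwa [Sylow.coe_mapSurjective] at h
  have hSN : (S : Subgroup G).map π ≤ Subgroup.normalizer ((A.map π : Subgroup _) : Set _) :=
    (Subgroup.map_mono hAn).trans (Subgroup.le_normalizer_map π)
  have hAbc : IsMulCommutative (A.map π) := by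
    refine ⟨⟨?_⟩⟩
    rintro ⟨_, ⟨a, ha, rfl⟩⟩ ⟨_, ⟨b, hb, rfl⟩⟩
    apply Subtype.ext
    show π a * π b = π b * π a
    rw [← map_mul, ← map_mul]
    exact congrArg π (congrArg Subtype.val (hAc.is_comm.comm ⟨a, ha⟩ ⟨b, hb⟩))
  have hmain := Cfsg.Agent.S1465.main hoddQ p (Cfsg.pCore p (G ⧸ Cfsg.pPrimeCore p G)) hPp
    {A.map π} (by
      intro B hB
      rw [Set.mem_singleton_iff] at hB
      subst hB
      exact ⟨hAbc, (S.isPGroup'.to_le hA).map π, hPS.trans hSN⟩)
  have h2 := hmain.2 (Cfsg.Agent.Lib.Helper11.pPrimeCore_quotient_eq_bot p) inf_le_left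
  rwa [sSup_singleton] at h2

end Cfsg.Agent.S1457
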