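import Mathlib
import Cfsg.Statements.S1459
import Cfsg.Agent.Lib.Helper12.CN
import Cfsg.Agent.Lib.Helper12.CNMax
import Cfsg.Agent.Lib.Helper1.SZ
import Cfsg.Agent.Lib.Helper1.Cores
import Cfsg.Agent.Lib.Helper1.Coprime
import Cfsg.Agent.Lib.Helper1.Averaging
import Cfsg.Agent.Lib.Helper5.MinNormal
import Cfsg.Agent.S1476

set_option autoImplicit false
open Cfsg

namespace Cfsg.Agent.S1459

open Cfsg.Agent.Lib.Helper12
open scoped commutatorElement

set_option linter.unusedSimpArgs false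
set_option linter.style.haveILetI false

theorem compl_decomp {G : Type*} [Group G] {H K : Subgroup G} (hc : Subgroup.IsComplement' H K)
    (g : G) : ∃ h ∈ H, ∃ k ∈ K, g = h * k := by
  obtain ⟨⟨⟨h, hh⟩, ⟨k, hk⟩⟩, hg⟩ := hc.2 g
  have hg' : h * k = g := hg
  exact ⟨h, hh, k, hk, hg'.symm⟩

theorem partA {G : Type*} [Group G] [Finite G] [Group.IsSolvable G] (H K : Subgroup G)
    [hHn : H.Normal] (hcop : (Nat.card H).Coprime H.index)
    (hc : Subgroup.IsComplement' H K) (hHG : H ≤ commutator G) :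
    H = ⁅H, K⁆ ∧ H ⊓ Subgroup.centralizer (K : Set G) ≤ ⁅H, H⁆ := by
  classical
  have hKH : K ≤ Subgroup.normalizer (H : Set G) := by
    rw [Subgroup.normalizer_eq_top]; exact le_top
  have hH0le : ⁅H, K⁆ ≤ H := Cfsg.Agent.Lib.Helper1.commutator_le_of_le_normalizer hKH
  have hdisj : H ⊓ K = ⊥ := hc.disjoint.eq_bot
  haveI hH0n : (⁅H, K⁆ : Subgroup G).Normal := by
    rw [← Subgroup.normalizer_eq_top_iff]
    have h := Cfsg.Agent.Lib.Helper1.commutator_normalizer hKH
    rw [hc.sup_eq_top] at h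
    exact top_le_iff.mp h
  haveI hH'n : (⁅H, H⁆ : Subgroup G).Normal := inferInstance
  obtain ⟨L, hL⟩ : ∃ L : Subgroup G, L = ⁅H, K⁆ ⊔ ⁅H, H⁆ := ⟨_, rfl⟩
  haveI hLn : L.Normal := hL ▸ inferInstance
  have hLH : L ≤ H := hL ▸ sup_le hH0le (Subgroup.commutator_le_left H H)
  have hTn : (L ⊔ K).Normal := by
    constructor
    intro x hx g
    obtain ⟨l, hl, k, hk, rfl⟩ := Subgroup.mem_sup_of_normal_left.mp hx
    obtain ⟨h, hh, k', hk', rfl⟩ := compl_decomp hc g
    have e : h * k' * (l * k) * (h * k')⁻¹ =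
        (h * k' * l * (h * k')⁻¹) * ⁅h, k' * k * k'⁻¹⁆ * (k' * k * k'⁻¹) := by
      rw [commutatorElement_def]; group
    rw [e]
    have hk'' : k' * k * k'⁻¹ ∈ K := K.mul_mem (K.mul_mem hk' hk) (K.inv_mem hk')
    refine Subgroup.mul_mem _ (Subgroup.mem_sup_left (L.mul_mem (hLn.conj_mem l hl _) ?_))
      (Subgroup.mem_sup_right hk'')
    rw [hL]
    exact Subgroup.mem_sup_left (Subgroup.commutator_mem_commutator hh hk'')
  haveI := hTn
  have hGT : commutator G ≤ L ⊔ K := by
    rw [commutator_def, Subgroup.commutator_le]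
    intro a _ b _
    obtain ⟨h₁, hh₁, k₁, hk₁, rfl⟩ := compl_decomp hc a
    obtain ⟨h₂, hh₂, k₂, hk₂, rfl⟩ := compl_decomp hc b
    have e1 : (QuotientGroup.mk' (L ⊔ K)) (h₁ * k₁) = (QuotientGroup.mk' (L ⊔ K)) h₁ := by
      rw [map_mul, QuotientGroup.mk'_apply, QuotientGroup.mk'_apply,
        (QuotientGroup.eq_one_iff k₁).mpr (Subgroup.mem_sup_right hk₁), mul_one]
    have e2 : (QuotientGroup.mk' (L ⊔ K)) (h₂ * k₂) = (QuotientGroup.mk' (L ⊔ K)) h₂ := by
      rw [map_mul, QuotientGroup.mk'_apply, QuotientGroup.mk'_apply,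
        (QuotientGroup.eq_one_iff k₂).mpr (Subgroup.mem_sup_right hk₂), mul_one]
    have e3 : (QuotientGroup.mk' (L ⊔ K)) ⁅h₁ * k₁, h₂ * k₂⁆ =
        (QuotientGroup.mk' (L ⊔ K)) ⁅h₁, h₂⁆ := by
      rw [map_commutatorElement, map_commutatorElement, e1, e2]
    have h4 : (QuotientGroup.mk' (L ⊔ K)) ⁅h₁, h₂⁆ = 1 := by
      rw [QuotientGroup.mk'_apply, QuotientGroup.eq_one_iff]
      refine Subgroup.mem_sup_left ?_
      rw [hL]
      exact Subgroup.mem_sup_right (Subgroup.commutator_mem_commutator hh₁ hh₂)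
    rw [h4, QuotientGroup.mk'_apply, QuotientGroup.eq_one_iff] at e3
    exact e3
  have hHL : H ≤ L := by
    intro x hx
    have h1 := hGT (hHG hx)
    obtain ⟨l, hl, k, hk, hlk⟩ := Subgroup.mem_sup_of_normal_left.mp h1
    have hkH : k ∈ H ⊓ K := by
      refine Subgroup.mem_inf.mpr ⟨?_, hk⟩
      have e : k = l⁻¹ * x := by rw [← hlk]; group
      rw [e]; exact H.mul_mem (H.inv_mem (hLH hl)) hx
    rw [hdisj, Subgroup.mem_bot] at hkH
    rw [← hlk, hkH, mul_one]; exact hl
  have hHeq : H = ⁅H, K⁆ := by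
    apply le_antisymm _ hH0le
    by_contra hnot
    obtain ⟨f, hf⟩ : ∃ f : G →* G ⧸ (⁅H, K⁆ : Subgroup G), f = QuotientGroup.mk' ⁅H, K⁆ :=
      ⟨_, rfl⟩
    have hker : f.ker = ⁅H, K⁆ := by rw [hf]; exact QuotientGroup.ker_mk' _
    have hmapne : H.map f ≠ ⊥ := by
      intro h
      apply hnot
      intro x hx
      have h1 : f x ∈ H.map f := Subgroup.mem_map_of_mem f hx
      rw [h, Subgroup.mem_bot] at h1
      rw [← hker]; exact MonoidHom.mem_ker.mpr h1
    have hperf : ⁅H.map f, H.map f⁆ = H.map f := by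
      rw [← Subgroup.map_commutator]
      apply le_antisymm (Subgroup.map_mono (Subgroup.commutator_le_left H H))
      rintro _ ⟨x, hx, rfl⟩
      have h1 := hHL hx
      rw [hL] at h1
      obtain ⟨a, ha, b, hb, rfl⟩ := Subgroup.mem_sup_of_normal_left.mp h1
      have ha' : f a = 1 := MonoidHom.mem_ker.mp (by rw [hker]; exact ha)
      rw [map_mul, ha', one_mul]
      exact Subgroup.mem_map_of_mem f hb
    have hlt := Cfsg.Agent.Lib.Helper1.commutator_lt_of_solvable hmapne
    exact hlt.ne hperf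
  refine ⟨hHeq, ?_⟩
  intro c hc'
  obtain ⟨hcH, hcK⟩ := Subgroup.mem_inf.mp hc'
  obtain ⟨f, hf⟩ : ∃ f : G →* G ⧸ (⁅H, H⁆ : Subgroup G), f = QuotientGroup.mk' ⁅H, H⁆ :=
    ⟨_, rfl⟩
  have hker : f.ker = ⁅H, H⁆ := by rw [hf]; exact QuotientGroup.ker_mk' _
  have hfs : Function.Surjective f := by rw [hf]; exact QuotientGroup.mk'_surjective _
  obtain ⟨V, hV⟩ : ∃ V, V = H.map f := ⟨_, rfl⟩
  obtain ⟨A, hA⟩ : ∃ A, A = K.map f := ⟨_, rfl⟩
  haveI hVn : V.Normal := hV ▸ Subgroup.Normal.map hHn f hfs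
  have hVV : ⁅V, V⁆ = ⊥ := by
    rw [hV, ← Subgroup.map_commutator]
    exact (Subgroup.map_eq_bot_iff _).mpr hker.symm.le
  haveI hVc : IsMulCommutative V := by
    refine ⟨⟨fun x y => ?_⟩⟩
    have h2 := Subgroup.commutator_mem_commutator x.2 y.2
    rw [hVV, Subgroup.mem_bot, commutatorElement_eq_one_iff_mul_comm] at h2
    exact Subtype.ext h2
  have hAV : A ≤ Subgroup.normalizer (V : Set (G ⧸ (⁅H, H⁆ : Subgroup G))) := by
    rw [Subgroup.normalizer_eq_top]; exact le_top
  have hcardK : Nat.card K = H.index := by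
    have h1 := hc.card_mul_card
    have h2 := H.card_mul_index
    exact Nat.eq_of_mul_eq_mul_left Nat.card_pos (h1.trans h2.symm)
  have hcop' : (Nat.card A).Coprime (Nat.card V) := by
    have h1 : Nat.card A ∣ Nat.card K := hA ▸ Subgroup.card_map_dvd K f
    have h2 : Nat.card V ∣ Nat.card H := hV ▸ Subgroup.card_map_dvd H f
    rw [hcardK] at h1
    exact Nat.Coprime.coprime_dvd_left h1 (Nat.Coprime.coprime_dvd_right h2 hcop.symm)
  have h55 := Cfsg.Agent.Lib.Helper1.coprime_abelian_inf_commutator A V hAV hcop'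
  have hVA : ⁅V, A⁆ = V := by rw [hV, hA, ← Subgroup.map_commutator, ← hHeq]
  rw [hVA] at h55
  have hfcV : f c ∈ V := hV ▸ Subgroup.mem_map_of_mem f hcH
  have h1 : f c ∈ (V ⊓ Subgroup.centralizer (A : Set (G ⧸ (⁅H, H⁆ : Subgroup G)))) ⊓ V := by
    refine Subgroup.mem_inf.mpr ⟨Subgroup.mem_inf.mpr ⟨hfcV, ?_⟩, hfcV⟩
    rw [Subgroup.mem_centralizer_iff]
    intro a ha
    rw [hA] at ha
    obtain ⟨k, hk, rfl⟩ := ha
    rw [← map_mul, ← map_mul, Subgroup.mem_centralizer_iff.mp hcK k hk]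
  rw [h55, Subgroup.mem_bot] at h1
  rw [← hker]; exact MonoidHom.mem_ker.mpr h1

theorem partB {G : Type*} [Group G] [Finite G] (D : Subgroup G) (hD : D = commutator G)
    (hnil : Group.IsNilpotent D) (q : ℕ) (hqdef : q = D.index) (hq : q.Prime) :
    (Nat.card D).Coprime q := by
  classical
  haveI hDn : D.Normal := hD ▸ inferInstance
  haveI := Fact.mk hq
  have hstep1 : D ≤ ⁅D, (⊤ : Subgroup G)⁆ := by
    obtain ⟨E, hE⟩ : ∃ E : Subgroup G, E = ⁅D, (⊤ : Subgroup G)⁆ := ⟨_, rfl⟩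
    haveI hEn : E.Normal := hE ▸ inferInstance
    have hED : E ≤ D := hE ▸ Subgroup.commutator_le_left D ⊤
    rw [← hE]
    haveI hcyc : IsCyclic (G ⧸ D) := by
      apply isCyclic_of_prime_card (p := q)
      rw [← Subgroup.index_eq_card]; exact hqdef.symm
    obtain ⟨φ, hφ⟩ : ∃ φ : G ⧸ E →* G ⧸ D,
        φ = QuotientGroup.lift E (QuotientGroup.mk' D)
          (fun x hx => by rw [QuotientGroup.ker_mk']; exact hED hx) := ⟨_, rfl⟩
    have hφker : φ.ker ≤ Subgroup.center (G ⧸ E) := by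
      intro c hc
      obtain ⟨d, rfl⟩ := QuotientGroup.mk_surjective c
      have hdD : d ∈ D := by
        have h1 := MonoidHom.mem_ker.mp hc
        rw [hφ, QuotientGroup.lift_mk, QuotientGroup.mk'_apply] at h1
        exact (QuotientGroup.eq_one_iff d).mp h1
      rw [Subgroup.mem_center_iff]
      intro c'
      obtain ⟨g, rfl⟩ := QuotientGroup.mk_surjective c'
      rw [← QuotientGroup.mk_mul, ← QuotientGroup.mk_mul, QuotientGroup.eq]
      have e : (g * d)⁻¹ * (d * g) = ⁅d⁻¹, g⁻¹⁆ := by rw [commutatorElement_def]; group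
      rw [e, hE]
      exact Subgroup.commutator_mem_commutator (D.inv_mem hdD) (Subgroup.mem_top _)
    have hcomm := (MonoidHom.isMulCommutative_of_isCyclic_of_ker_le_center φ hφker).is_comm.comm
    rw [hD, commutator_def, Subgroup.commutator_le]
    intro a _ b _
    rw [← QuotientGroup.eq_one_iff]
    have h1 := map_commutatorElement (QuotientGroup.mk' E) a b
    rw [QuotientGroup.mk'_apply] at h1
    rw [h1, commutatorElement_eq_one_iff_mul_comm]
    exact hcomm _ _
  obtain ⟨R, hR⟩ : ∃ R : Subgroup G, R = Cfsg.pPrimeCore q G := ⟨_, rfl⟩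
  haveI hRn : R.Normal := hR ▸ Cfsg.Agent.Lib.Helper1.pPrimeCore_normal q
  have hRcop : (Nat.card R).Coprime q := hR ▸ Cfsg.Agent.Lib.Helper1.pPrimeCore_coprime q
  have hDc : ∀ c : G, ∀ d ∈ D, c * d * c⁻¹ ∈ D := fun c d hd => hDn.conj_mem d hd c
  have hsyl : ∀ (s : ℕ) [Fact s.Prime], s ≠ q → sylP D s ≤ R := by
    intro s hs hsq
    rw [hR]
    apply Cfsg.Agent.Lib.Helper1.le_pPrimeCore q
    · constructor
      intro n hn g
      exact conj_sylP hnil s g (hDc g) n hn
    · obtain ⟨k, hk⟩ := IsPGroup.iff_card.mp (sylP_isPGroup D s)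
      rw [hk]; exact Nat.Coprime.pow_left k ((Nat.coprime_primes hs.out hq).mpr hsq)
  have hqel : ∀ d ∈ D, ∀ m : ℕ, d ^ m = 1 → m.Coprime q → d ∈ R := by
    intro d hd m hdm hm
    apply Cfsg.Agent.S1476.mem_of_prime_parts R (orderOf d) d rfl
    intro s hs j k hjk
    by_cases hsq : s = q
    · have h1 : orderOf (d ^ j) ∣ q ^ k := by
        rw [← hsq]; exact orderOf_dvd_of_pow_eq_one hjk
      have h2 : orderOf (d ^ j) ∣ m :=
        orderOf_dvd_of_pow_eq_one (by rw [← pow_mul, mul_comm, pow_mul, hdm, one_pow])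
      have h3 : orderOf (d ^ j) = 1 :=
        Nat.eq_one_of_dvd_coprimes (Nat.Coprime.pow_left k hm.symm) h1 h2
      rw [orderOf_eq_one_iff.mp h3]; exact R.one_mem
    · haveI := Fact.mk hs
      exact hsyl s hsq (mem_sylP hnil s (D.pow_mem hd j) ⟨k, hjk⟩)
  have hQq : IsPGroup q (G ⧸ R) := by
    intro c
    obtain ⟨g, rfl⟩ := QuotientGroup.mk_surjective c
    have hgD : g ^ q ∈ D := by rw [hqdef]; exact Subgroup.pow_index_mem D g
    obtain ⟨j, m, hqm, hnm⟩ :=
      Nat.exists_eq_pow_mul_and_not_dvd (orderOf_pos (g ^ q)).ne' q hq.ne_one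
    refine ⟨j + 1, ?_⟩
    rw [← QuotientGroup.mk_pow, QuotientGroup.eq_one_iff]
    have e : g ^ q ^ (j + 1) = (g ^ q) ^ q ^ j := by rw [← pow_mul, pow_succ']
    rw [e]
    apply hqel _ (D.pow_mem hgD _) m
    · rw [← pow_mul, ← hnm]; exact pow_orderOf_eq_one _
    · exact ((Nat.Prime.coprime_iff_not_dvd hq).mpr hqm).symm
  haveI hQnil : Group.IsNilpotent (G ⧸ R) := hQq.isNilpotent
  have hDR : D ≤ R := by
    obtain ⟨f, hf⟩ : ∃ f : G →* G ⧸ R, f = QuotientGroup.mk' R := ⟨_, rfl⟩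
    have hker : f.ker = R := by rw [hf]; exact QuotientGroup.ker_mk' _
    have hfs : Function.Surjective f := by rw [hf]; exact QuotientGroup.mk'_surjective _
    haveI hDmn : (D.map f).Normal := Subgroup.Normal.map hDn f hfs
    have h1 : ⁅D.map f, (⊤ : Subgroup (G ⧸ R))⁆ = D.map f := by
      apply le_antisymm (Subgroup.commutator_le_left _ _)
      have h2 : D.map f ≤ (⁅D, (⊤ : Subgroup G)⁆).map f := Subgroup.map_mono hstep1
      rw [Subgroup.map_commutator, Subgroup.map_top_of_surjective f hfs] at h2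
      exact h2
    have hnilT : Group.IsNilpotent (⊤ : Subgroup (G ⧸ R)) :=
      (Group.isNilpotent_congr Subgroup.topEquiv).mpr hQnil
    have h3 := Cfsg.Agent.Lib.Helper5.eq_bot_of_commutator_eq_self hnilT le_top h1
    intro d hd
    rw [← hker]
    apply MonoidHom.mem_ker.mpr
    have h4 : f d ∈ D.map f := Subgroup.mem_map_of_mem f hd
    rw [h3, Subgroup.mem_bot] at h4
    exact h4
  exact Nat.Coprime.coprime_dvd_left (Subgroup.card_dvd_of_le hDR) hRcop


/-- Let G be a finite solvable group. (a) If H is a normal subgroup of order coprime to its index, K is a complement to H, and H ≤ G', then H = [H, K] and H ∩ C_G(K) ≤ [H, H]. (b) If G' is nilpotent and has prime index in G, then the order of G' is coprime to its index and G' = [G, K] (the subgroup generated by commutators of elements of G with elements of K) for every complement K of G'. -/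
theorem result {G : Type*} [Group G] [Finite G] [Group.IsSolvable G] :
    (∀ (H K : Subgroup G), H.Normal → (Nat.card H).Coprime H.index → Subgroup.IsComplement' H K → H ≤ commutator G →
        H = ⁅H, K⁆ ∧ H ⊓ Subgroup.centralizer (K : Set G) ≤ ⁅H, H⁆) ∧
      (Group.IsNilpotent ↥(commutator G) → (commutator G).index.Prime →
        (Nat.card ↥(commutator G)).Coprime (commutator G).index ∧
        ∀ K : Subgroup G, Subgroup.IsComplement' (commutator G) K → commutator G = ⁅(⊤ : Subgroup G), K⁆) := by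
  refine ⟨?_, ?_⟩
  · intro H K hHn hcop hc hHG
    haveI := hHn
    exact partA H K hcop hc hHG
  · intro hnil hq
    have hcop := partB (commutator G) rfl hnil _ rfl hq
    refine ⟨hcop, ?_⟩
    intro K hK
    have h := (partA (commutator G) K hcop hK le_rfl).1
    apply le_antisymm
    · calc commutator G = ⁅commutator G, K⁆ := h
        _ ≤ ⁅(⊤ : Subgroup G), K⁆ := Subgroup.commutator_mono le_top le_rfl
    · rw [commutator_def]; exact Subgroup.commutator_mono le_rfl le_top

end Cfsg.Agent.S1459
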