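import Mathlib
import Cfsg.Statements.S1460
import Cfsg.Agent.Lib.Helper1.SZ

set_option autoImplicit false
open Cfsg

namespace Cfsg.Agent.S1460

open scoped Pointwise commutatorElement

/-- Let G be a finite solvable group, K a normal subgroup and U a subgroup with G = KU, and H ≤ U a subgroup whose order is coprime to that of K. Then H ∩ G' = H ∩ U'; N_G(H) is generated by K ∩ C_G(H) and U ∩ N_G(H); and if gHg⁻¹ ≤ U for some g ∈ G then g = u c with u ∈ U and c ∈ K ∩ C_G(H). -/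
theorem result {G : Type*} [Group G] [Finite G] [Group.IsSolvable G] (K U H : Subgroup G) [K.Normal] (hKU : K ⊔ U = ⊤) (hH : H ≤ U) (hcop : (Nat.card H).Coprime (Nat.card K)) :
    H ⊓ commutator G = H ⊓ ⁅U, U⁆ ∧
      Subgroup.normalizer (H : Set G) = (K ⊓ Subgroup.centralizer (H : Set G)) ⊔ (U ⊓ Subgroup.normalizer (H : Set G)) ∧
      ∀ g : G, H.map (MulAut.conj g).toMonoidHom ≤ U → ∃ u ∈ U, ∃ c ∈ K ⊓ Subgroup.centralizer (H : Set G), g = u * c := by
  classical
  have hKH : K ⊓ H = ⊥ := disjoint_iff.mp (Subgroup.disjoint_of_coprime_natCard hcop.symm)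
  -- normalizing elements of K centralize H
  have hNC : ∀ c ∈ K, (∀ h ∈ H, c * h * c⁻¹ ∈ H) → c ∈ K ⊓ Subgroup.centralizer (H : Set G) := by
    intro c hc hcn
    refine Subgroup.mem_inf.2 ⟨hc, ?_⟩
    rw [Subgroup.mem_centralizer_iff]
    intro h hh
    have h1 : c * h * c⁻¹ * h⁻¹ ∈ K := by
      have h2 : h * c⁻¹ * h⁻¹ ∈ K := ‹K.Normal›.conj_mem _ (K.inv_mem hc) h
      have h3 := K.mul_mem hc h2
      have e : c * (h * c⁻¹ * h⁻¹) = c * h * c⁻¹ * h⁻¹ := by group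
      rwa [e] at h3
    have h4 : c * h * c⁻¹ * h⁻¹ ∈ H := H.mul_mem (hcn h hh) (H.inv_mem hh)
    have h5 : c * h * c⁻¹ * h⁻¹ ∈ K ⊓ H := Subgroup.mem_inf.2 ⟨h1, h4⟩
    rw [hKH, Subgroup.mem_bot] at h5
    have h6 : c * h = h * c := by
      have e : c * h = (c * h * c⁻¹ * h⁻¹) * (h * c) := by group
      rw [e, h5, one_mul]
    exact h6.symm
  have key : ∀ g : G, H.map (MulAut.conj g).toMonoidHom ≤ U →
      ∃ u ∈ U, ∃ c ∈ K ⊓ Subgroup.centralizer (H : Set G), g = u * c := by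
    intro g hg
    have hgU : ∀ h ∈ H, g * h * g⁻¹ ∈ U := fun h hh => hg ⟨h, hh, rfl⟩
    have hgmem : g ∈ ((U ⊔ K : Subgroup G) : Set G) := by
      rw [sup_comm, hKU]; exact Set.mem_univ g
    rw [Subgroup.mul_normal] at hgmem
    obtain ⟨u0, hu0, k0, hk0, rfl⟩ := Set.mem_mul.1 hgmem
    have hu0' : u0 ∈ U := hu0
    have hk0' : k0 ∈ K := hk0
    have hkU : ∀ h ∈ H, k0 * h * k0⁻¹ ∈ U := by
      intro h hh
      have h1 := hgU h hh
      have h2 := U.mul_mem (U.mul_mem (U.inv_mem hu0') h1) hu0'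
      have e : u0⁻¹ * (u0 * k0 * h * (u0 * k0)⁻¹) * u0 = k0 * h * k0⁻¹ := by group
      rwa [e] at h2
    have hAK : H ≤ Subgroup.normalizer ((K ⊓ U : Subgroup G) : Set G) := by
      intro h hh
      rw [Subgroup.mem_normalizer_iff]
      intro x
      constructor
      · intro hx
        exact Subgroup.mem_inf.2 ⟨‹K.Normal›.conj_mem _ (Subgroup.mem_inf.1 hx).1 h,
          U.mul_mem (U.mul_mem (hH hh) (Subgroup.mem_inf.1 hx).2) (U.inv_mem (hH hh))⟩
      · intro hx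
        have h1 : h⁻¹ * (h * x * h⁻¹) * h⁻¹⁻¹ ∈ K :=
          ‹K.Normal›.conj_mem _ (Subgroup.mem_inf.1 hx).1 h⁻¹
        have h2 : h⁻¹ * (h * x * h⁻¹) * h ∈ U :=
          U.mul_mem (U.mul_mem (U.inv_mem (hH hh)) (Subgroup.mem_inf.1 hx).2) (hH hh)
        have e1 : h⁻¹ * (h * x * h⁻¹) * h⁻¹⁻¹ = x := by group
        have e2 : h⁻¹ * (h * x * h⁻¹) * h = x := by group
        rw [e1] at h1
        rw [e2] at h2
        exact Subgroup.mem_inf.2 ⟨h1, h2⟩
    have hcop' : (Nat.card H).Coprime (Nat.card ↥(K ⊓ U)) :=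
      Nat.Coprime.coprime_dvd_right (Subgroup.card_dvd_of_le inf_le_left) hcop
    have hB : MulAut.conj k0 • H ≤ (K ⊓ U) ⊔ H := by
      intro x hx
      rw [Cfsg.Agent.Lib.Helper1.mem_conj_smul_iff] at hx
      have e : x = (k0 * (k0⁻¹ * x * k0) * k0⁻¹ * (k0⁻¹ * x * k0)⁻¹) * (k0⁻¹ * x * k0) := by group
      rw [e]
      apply Subgroup.mul_mem_sup _ hx
      refine Subgroup.mem_inf.2 ⟨?_, ?_⟩
      · have h2 : (k0⁻¹ * x * k0) * k0⁻¹ * (k0⁻¹ * x * k0)⁻¹ ∈ K :=
          ‹K.Normal›.conj_mem _ (K.inv_mem hk0') _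
        have h3 := K.mul_mem hk0' h2
        have e' : k0 * ((k0⁻¹ * x * k0) * k0⁻¹ * (k0⁻¹ * x * k0)⁻¹) =
            k0 * (k0⁻¹ * x * k0) * k0⁻¹ * (k0⁻¹ * x * k0)⁻¹ := by group
        rwa [e'] at h3
      · exact U.mul_mem (hkU _ hx) (U.inv_mem (hH hx))
    have hBcard : Nat.card ↥(MulAut.conj k0 • H) = Nat.card H :=
      Nat.card_congr (Subgroup.equivSMul (MulAut.conj k0) H).toEquiv.symm
    obtain ⟨k, hk, hkeq⟩ := Cfsg.Agent.Lib.Helper1.sz_conj_rel H (K ⊓ U) hAK hcop'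
      (Or.inl inferInstance) (MulAut.conj k0 • H) hB hBcard
    have hkK := (Subgroup.mem_inf.1 hk).1
    have hkU' := (Subgroup.mem_inf.1 hk).2
    have hcn : ∀ h ∈ H, (k⁻¹ * k0) * h * (k⁻¹ * k0)⁻¹ ∈ H := by
      intro h hh
      have h1 : k0 * h * k0⁻¹ ∈ MulAut.conj k0 • H :=
        Cfsg.Agent.Lib.Helper1.conj_mem_conj_smul k0 h H hh
      rw [← hkeq, Cfsg.Agent.Lib.Helper1.mem_conj_smul_iff] at h1
      have e : k⁻¹ * (k0 * h * k0⁻¹) * k = (k⁻¹ * k0) * h * (k⁻¹ * k0)⁻¹ := by group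
      rwa [e] at h1
    refine ⟨u0 * k, U.mul_mem hu0' hkU', k⁻¹ * k0,
      hNC _ (K.mul_mem (K.inv_mem hkK) hk0') hcn, by group⟩
  refine ⟨?_, ?_, key⟩
  · apply le_antisymm
    · intro h hh
      obtain ⟨hhH, hhG⟩ := Subgroup.mem_inf.1 hh
      refine Subgroup.mem_inf.2 ⟨hhH, ?_⟩
      -- commutator G ≤ K ⊔ ⁅U, U⁆
      have hle : commutator G ≤ K ⊔ ⁅U, U⁆ := by
        rw [commutator_def, Subgroup.commutator_le]
        intro a _ b _
        have ha : a ∈ ((U ⊔ K : Subgroup G) : Set G) := by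
          rw [sup_comm, hKU]; exact Set.mem_univ a
        have hb : b ∈ ((U ⊔ K : Subgroup G) : Set G) := by
          rw [sup_comm, hKU]; exact Set.mem_univ b
        rw [Subgroup.mul_normal] at ha hb
        obtain ⟨u1, hu1, k1, hk1, rfl⟩ := Set.mem_mul.1 ha
        obtain ⟨u2, hu2, k2, hk2, rfl⟩ := Set.mem_mul.1 hb
        -- work modulo K
        have hq : (QuotientGroup.mk' K) (⁅u1 * k1, u2 * k2⁆ * ⁅u1, u2⁆⁻¹) = 1 := by
          have e1 : (QuotientGroup.mk' K) k1 = 1 := (QuotientGroup.eq_one_iff k1).2 hk1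
          have e2 : (QuotientGroup.mk' K) k2 = 1 := (QuotientGroup.eq_one_iff k2).2 hk2
          rw [map_mul, map_inv, map_commutatorElement, map_commutatorElement, map_mul, map_mul,
            e1, e2, mul_one, mul_one, mul_inv_cancel]
        have hq' : ⁅u1 * k1, u2 * k2⁆ * ⁅u1, u2⁆⁻¹ ∈ K := by
          rw [← QuotientGroup.ker_mk' K]
          exact hq
        have hcomm : ⁅u1, u2⁆ ∈ ⁅U, U⁆ := Subgroup.commutator_mem_commutator hu1 hu2
        have e : ⁅u1 * k1, u2 * k2⁆ = (⁅u1 * k1, u2 * k2⁆ * ⁅u1, u2⁆⁻¹) * ⁅u1, u2⁆ := by group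
        rw [e]
        exact Subgroup.mul_mem_sup hq' hcomm
      have hmem : h ∈ ((K ⊔ ⁅U, U⁆ : Subgroup G) : Set G) := hle hhG
      rw [Subgroup.normal_mul] at hmem
      obtain ⟨k, hk, u', hu', rfl⟩ := Set.mem_mul.1 hmem
      have hk' : k ∈ K := hk
      have hu'' : u' ∈ ⁅U, U⁆ := hu'
      have hUU : ⁅U, U⁆ ≤ U := by
        rw [Subgroup.commutator_le]
        intro a ha b hb
        rw [commutatorElement_def]
        exact U.mul_mem (U.mul_mem (U.mul_mem ha hb) (U.inv_mem ha)) (U.inv_mem hb)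
      have hu'U : u' ∈ U := hUU hu''
      have hkU : k ∈ U := by
        have h1 := U.mul_mem (hH hhH) (U.inv_mem hu'U)
        rwa [mul_inv_cancel_right] at h1
      -- abelianization of U
      let π : ↥U →* Abelianization ↥U := Abelianization.of
      have hu'c : (⟨u', hu'U⟩ : ↥U) ∈ commutator ↥U := by
        have h1 : u' ∈ (commutator ↥U).map U.subtype := by
          rw [Subgroup.map_subtype_commutator]; exact hu''
        obtain ⟨y, hy, hyu⟩ := h1
        have : y = ⟨u', hu'U⟩ := Subtype.ext hyu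
        rw [← this]; exact hy
      have hπu : π ⟨u', hu'U⟩ = 1 := by
        rw [← MonoidHom.mem_ker, Abelianization.ker_of]; exact hu'c
      have hπ : π ⟨k * u', hH hhH⟩ = π ⟨k, hkU⟩ := by
        have e : (⟨k * u', hH hhH⟩ : ↥U) = ⟨k, hkU⟩ * ⟨u', hu'U⟩ := rfl
        rw [e, map_mul, hπu, mul_one]
      have ho1 : orderOf (π ⟨k * u', hH hhH⟩) ∣ Nat.card H := by
        have h1 : orderOf (π ⟨k * u', hH hhH⟩) ∣ orderOf (⟨k * u', hH hhH⟩ : ↥U) :=
          orderOf_map_dvd π _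
        have h2 : orderOf (⟨k * u', hH hhH⟩ : ↥U) = orderOf (k * u') := Subgroup.orderOf_mk _ _
        have h3 : orderOf (k * u') = orderOf (⟨k * u', hhH⟩ : ↥H) := (Subgroup.orderOf_mk _ _).symm
        rw [h2, h3] at h1
        exact h1.trans (orderOf_dvd_natCard _)
      have ho2 : orderOf (π ⟨k * u', hH hhH⟩) ∣ Nat.card K := by
        rw [hπ]
        have h1 : orderOf (π ⟨k, hkU⟩) ∣ orderOf (⟨k, hkU⟩ : ↥U) := orderOf_map_dvd π _
        have h2 : orderOf (⟨k, hkU⟩ : ↥U) = orderOf k := Subgroup.orderOf_mk _ _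
        have h3 : orderOf k = orderOf (⟨k, hk'⟩ : ↥K) := (Subgroup.orderOf_mk _ _).symm
        rw [h2, h3] at h1
        exact h1.trans (orderOf_dvd_natCard _)
      have ho : orderOf (π ⟨k * u', hH hhH⟩) = 1 :=
        Nat.eq_one_of_dvd_coprimes hcop ho1 ho2
      rw [orderOf_eq_one_iff] at ho
      have hker : (⟨k * u', hH hhH⟩ : ↥U) ∈ commutator ↥U := by
        rw [← Abelianization.ker_of, MonoidHom.mem_ker]; exact ho
      rw [← Subgroup.map_subtype_commutator]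
      exact ⟨⟨k * u', hH hhH⟩, hker, rfl⟩
    · apply inf_le_inf_left
      rw [commutator_def]
      exact Subgroup.commutator_mono le_top le_top
  · apply le_antisymm
    · intro g hg
      have hgn : ∀ h ∈ H, g * h * g⁻¹ ∈ H := by
        intro h hh
        exact (Subgroup.mem_normalizer_iff.1 hg h).1 hh
      have hmap : H.map (MulAut.conj g).toMonoidHom ≤ U := by
        rintro _ ⟨h, hh, rfl⟩
        exact hH (hgn h hh)
      obtain ⟨u, hu, c, hc, rfl⟩ := key g hmap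
      have hcN : c ∈ Subgroup.normalizer (H : Set G) :=
        Subgroup.centralizer_le_normalizer _ (Subgroup.mem_inf.1 hc).2
      have huN : u ∈ Subgroup.normalizer (H : Set G) := by
        have h1 := (Subgroup.normalizer (H : Set G)).mul_mem hg
          ((Subgroup.normalizer (H : Set G)).inv_mem hcN)
        rwa [mul_inv_cancel_right] at h1
      rw [sup_comm]
      exact Subgroup.mul_mem_sup (Subgroup.mem_inf.2 ⟨hu, huN⟩) hc
    · apply sup_le
      · exact inf_le_right.trans (Subgroup.centralizer_le_normalizer _)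
      · exact inf_le_right

end Cfsg.Agent.S1460
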