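import Mathlib
import Cfsg.Statements.S1461
import Cfsg.Agent.Lib.Helper12.PLen1
import Cfsg.Agent.S1460
import Cfsg.Agent.Lib.Helper1.Basic

set_option autoImplicit false
open Cfsg

namespace Cfsg.Agent.S1461

open scoped Pointwise

/-- Let G be a finite solvable group, p a prime with G = O_{p',p,p'}(G), and S a Sylow p-subgroup. Then: if S ≤ G' then S ≤ [N_G(S), N_G(S)]; if Y ⊆ S and xYx⁻¹ ⊆ S then x = g c for some g ∈ N_G(S) and c centralizing Y; and for every p-subgroup Q there is x ∈ C_G(Q ∩ S) with xQx⁻¹ ≤ S. -/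
theorem result {G : Type*} [Group G] [Finite G] [Group.IsSolvable G] (p : ℕ) [Fact p.Prime] (hpl : Cfsg.PLengthLE p 1 G) (S : Sylow p G) :
    ((S : Subgroup G) ≤ commutator G → (S : Subgroup G) ≤ ⁅Subgroup.normalizer ((S : Subgroup G) : Set G), Subgroup.normalizer ((S : Subgroup G) : Set G)⁆) ∧
      (∀ (Y : Set G) (x : G), Y ⊆ (S : Subgroup G) → (fun y => x * y * x⁻¹) '' Y ⊆ (S : Subgroup G) →
        ∃ g ∈ Subgroup.normalizer ((S : Subgroup G) : Set G), ∃ c ∈ Subgroup.centralizer Y, g * c = x) ∧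
      ∀ Q : Subgroup G, IsPGroup p Q → ∃ x ∈ Subgroup.centralizer ((Q ⊓ (S : Subgroup G) : Subgroup G) : Set G), Q.map (MulAut.conj x).toMonoidHom ≤ (S : Subgroup G) := by
  classical
  obtain ⟨V, hV, hVc, hVQ, hVN⟩ := Cfsg.Agent.Lib.Helper12.plen1 hpl S
  have := hV
  have hcopS : ∀ H : Subgroup G, H ≤ (S : Subgroup G) → (Nat.card H).Coprime (Nat.card V) := by
    intro H hH
    obtain ⟨n, hn⟩ := IsPGroup.iff_card.1 (S.2.to_le hH)
    rw [hn]
    exact Nat.Coprime.pow_left n hVc.symm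
  have hVS : V ⊓ (S : Subgroup G) = ⊥ :=
    disjoint_iff.mp (Subgroup.disjoint_of_coprime_natCard (hcopS _ le_rfl).symm)
  have hSN : (S : Subgroup G) ≤ Subgroup.normalizer ((S : Subgroup G) : Set G) :=
    Subgroup.le_normalizer
  refine ⟨?_, ?_, ?_⟩
  · intro hS
    have h1 := (Cfsg.Agent.S1460.result V (Subgroup.normalizer ((S : Subgroup G) : Set G))
      (S : Subgroup G) hVN hSN (hcopS _ le_rfl)).1
    have h2 : (S : Subgroup G) ⊓ commutator G = (S : Subgroup G) := inf_eq_left.2 hS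
    rw [h2] at h1
    exact (le_of_eq h1).trans inf_le_right
  · intro Y x hY hYx
    have hH : Subgroup.closure Y ≤ (S : Subgroup G) := (Subgroup.closure_le _).2 hY
    have hmap : (Subgroup.closure Y).map (MulAut.conj x).toMonoidHom ≤
        Subgroup.normalizer ((S : Subgroup G) : Set G) := by
      rw [MonoidHom.map_closure]
      refine ((Subgroup.closure_le _).2 ?_).trans hSN
      rintro _ ⟨y, hy, rfl⟩
      exact hYx ⟨y, hy, rfl⟩
    obtain ⟨u, hu, c, hc, hxe⟩ := (Cfsg.Agent.S1460.result V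
      (Subgroup.normalizer ((S : Subgroup G) : Set G)) (Subgroup.closure Y) hVN (hH.trans hSN)
      (hcopS _ hH)).2.2 x hmap
    refine ⟨u, hu, c, ?_, hxe.symm⟩
    exact Subgroup.centralizer_le Subgroup.subset_closure (Subgroup.mem_inf.1 hc).2
  · intro Q hQ
    obtain ⟨S', hS'⟩ := hQ.exists_le_sylow
    obtain ⟨g, hg⟩ := MulAction.exists_smul_eq G S S'
    have hgmem : g ∈ ((V ⊔ Subgroup.normalizer ((S : Subgroup G) : Set G) : Subgroup G) : Set G) := by
      rw [hVN]; exact Set.mem_univ g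
    rw [Subgroup.normal_mul] at hgmem
    obtain ⟨v, hv, n, hn, rfl⟩ := Set.mem_mul.1 hgmem
    have hv' : v ∈ V := hv
    have hn' : n ∈ Subgroup.normalizer ((S : Subgroup G) : Set G) := hn
    -- every element of Q is of the form v s v⁻¹
    have hQS : ∀ q ∈ Q, v⁻¹ * q * v ∈ (S : Subgroup G) := by
      intro q hq
      have h1 : q ∈ (S' : Subgroup G) := hS' hq
      rw [← hg, Sylow.coe_subgroup_smul, Cfsg.Agent.Lib.Helper1.mem_conj_smul_iff] at h1
      have h2 := (Subgroup.mem_normalizer_iff.1 hn' ((v * n)⁻¹ * q * (v * n))).1 h1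
      have e : n * ((v * n)⁻¹ * q * (v * n)) * n⁻¹ = v⁻¹ * q * v := by group
      rwa [e] at h2
    refine ⟨v⁻¹, ?_, ?_⟩
    · rw [Subgroup.mem_centralizer_iff]
      intro r hr
      have hrQ : r ∈ Q := (Subgroup.mem_inf.1 hr).1
      have hrS : r ∈ (S : Subgroup G) := (Subgroup.mem_inf.1 hr).2
      have h1 : v⁻¹ * r * v * r⁻¹ ∈ (S : Subgroup G) :=
        (S : Subgroup G).mul_mem (hQS r hrQ) ((S : Subgroup G).inv_mem hrS)
      have h2 : v⁻¹ * r * v * r⁻¹ ∈ V := by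
        have h3 : r * v * r⁻¹ ∈ V := hV.conj_mem _ hv' r
        have h4 := V.mul_mem (V.inv_mem hv') h3
        have e : v⁻¹ * (r * v * r⁻¹) = v⁻¹ * r * v * r⁻¹ := by group
        rwa [e] at h4
      have h5 : v⁻¹ * r * v * r⁻¹ ∈ V ⊓ (S : Subgroup G) := Subgroup.mem_inf.2 ⟨h2, h1⟩
      rw [hVS, Subgroup.mem_bot] at h5
      have e : r * v⁻¹ = (v⁻¹ * r * v * r⁻¹)⁻¹ * (v⁻¹ * r) := by group
      rw [e, h5, inv_one, one_mul]
    · rintro _ ⟨q, hq, rfl⟩
      have h1 := hQS q hq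
      simpa using h1

end Cfsg.Agent.S1461
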