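import Cfsg.Statements.S1463
import Cfsg.Agent.Lib.Helper21.Mat2
import Cfsg.Agent.Lib.Lead.Frobenius

set_option autoImplicit false
open scoped MatrixGroups
open Cfsg

namespace Cfsg.Agent.S1463

open Cfsg.Agent.Lib.Helper21

section aux

variable {F : Type*} [Field F] (p : ℕ) [Fact p.Prime] [CharP F p]

theorem two_ne_zero_of_char (hp : p ≠ 2) : (2 : F) ≠ 0 := by
  intro h
  have h2 : ((2 : ℕ) : F) = 0 := by exact_mod_cast h
  rw [CharP.cast_eq_zero_iff F p 2] at h2
  have hpp : p.Prime := Fact.out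
  exact hp ((Nat.prime_dvd_prime_iff_eq hpp Nat.prime_two).mp h2)

omit [Fact p.Prime] [CharP F p] in
theorem orderOf_odd {K : Subgroup (GL (Fin 2) F)} [Finite K] (hodd : Odd (Nat.card K))
    {g : GL (Fin 2) F} (hg : g ∈ K) : Odd (orderOf g) := by
  have h1 : orderOf g ∣ Nat.card K := by
    have := orderOf_dvd_natCard (⟨g, hg⟩ : K)
    rwa [Subgroup.orderOf_mk] at this
  exact Odd.of_dvd_nat hodd h1

omit [Fact p.Prime] [CharP F p] in
theorem mat_one_ne_neg_one (h2 : (2 : F) ≠ 0) : (1 : Matrix (Fin 2) (Fin 2) F) ≠ -1 := by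
  intro h
  have := congrFun (congrFun h 0) 0
  simp at this
  apply h2
  linear_combination this

theorem pow_p_of_trace (hp : p ≠ 2) {K : Subgroup (GL (Fin 2) F)} [Finite K]
    (hodd : Odd (Nat.card K))
    (hdet : ∀ g ∈ K, (g : Matrix (Fin 2) (Fin 2) F).det = 1) {g : GL (Fin 2) F} (hg : g ∈ K)
    (ht : (g : Matrix (Fin 2) (Fin 2) F).trace ^ 2 = 4) : g ^ p = 1 := by
  rcases mat2_pow_char_of_trace p (g : Matrix (Fin 2) (Fin 2) F) (hdet g hg) ht with h | h
  · apply Units.ext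
    rw [Units.val_pow_eq_pow_val]; exact h
  · exfalso
    have h2p : g ^ (2 * p) = 1 := by
      apply Units.ext
      rw [Units.val_pow_eq_pow_val, mul_comm, pow_mul, h]; simp
    have hd : orderOf g ∣ 2 * p := orderOf_dvd_of_pow_eq_one h2p
    have hodd' := orderOf_odd hodd hg
    have hd' : orderOf g ∣ p := (Nat.Coprime.dvd_mul_left (Nat.coprime_two_right.mpr hodd')).mp hd
    have hgp : g ^ p = 1 := orderOf_dvd_iff_pow_eq_one.mp hd'
    have h3 : (g : Matrix (Fin 2) (Fin 2) F) ^ p = 1 := by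
      rw [← Units.val_pow_eq_pow_val, hgp]; rfl
    rw [h] at h3
    exact mat_one_ne_neg_one (two_ne_zero_of_char p hp) h3.symm

omit [Fact p.Prime] [CharP F p] in
theorem ne_scalar {K : Subgroup (GL (Fin 2) F)} [Finite K]
    (hodd : Odd (Nat.card K))
    (hdet : ∀ g ∈ K, (g : Matrix (Fin 2) (Fin 2) F).det = 1) {g : GL (Fin 2) F} (hg : g ∈ K)
    (hg1 : g ≠ 1) : ∀ c : F, (g : Matrix (Fin 2) (Fin 2) F) ≠ c • (1 : Matrix (Fin 2) (Fin 2) F) := by
  intro c hc
  have hd := hdet g hg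
  rw [hc] at hd
  have hc2 : c ^ 2 = 1 := by simpa [Matrix.det_smul] using hd
  have hgg : g ^ 2 = 1 := by
    apply Units.ext
    rw [Units.val_pow_eq_pow_val, hc, pow_two, Matrix.smul_mul, Matrix.one_mul, smul_smul,
      ← pow_two, hc2, one_smul]
    rfl
  have hd2 : orderOf g ∣ 2 := orderOf_dvd_of_pow_eq_one hgg
  have hodd' := orderOf_odd hodd hg
  have h1 : orderOf g = 1 := by
    rcases (Nat.dvd_prime Nat.prime_two).mp hd2 with h | h
    · exact h
    · rw [h] at hodd'; exact absurd hodd' (by decide)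
  exact hg1 (orderOf_eq_one_iff.mp h1)

theorem comm_trans (hp : p ≠ 2) {K : Subgroup (GL (Fin 2) F)} [Finite K]
    (hodd : Odd (Nat.card K))
    (hdet : ∀ g ∈ K, (g : Matrix (Fin 2) (Fin 2) F).det = 1) {a b c : GL (Fin 2) F} (hb : b ∈ K)
    (hb1 : b ≠ 1) (hab : a * b = b * a) (hbc : b * c = c * b) : a * c = c * a := by
  have hns := ne_scalar hodd hdet hb hb1
  have h1 : (b : Matrix (Fin 2) (Fin 2) F) * (a : Matrix (Fin 2) (Fin 2) F) = a * b := by
    rw [← Units.val_mul, ← Units.val_mul, hab]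
  have h2 : (b : Matrix (Fin 2) (Fin 2) F) * (c : Matrix (Fin 2) (Fin 2) F) = c * b := by
    rw [← Units.val_mul, ← Units.val_mul, hbc]
  obtain ⟨α, β, hA⟩ := mat2_comm_form _ _ hns h1
  obtain ⟨γ, δ, hC⟩ := mat2_comm_form _ _ hns h2
  apply Units.ext
  rw [Units.val_mul, Units.val_mul, hA, hC]
  exact mat2_poly_comm _ α β γ δ

theorem pow_p_of_comm (hp : p ≠ 2) {K : Subgroup (GL (Fin 2) F)} [Finite K]
    (hodd : Odd (Nat.card K))
    (hdet : ∀ g ∈ K, (g : Matrix (Fin 2) (Fin 2) F).det = 1) {w g : GL (Fin 2) F} (hw : w ∈ K)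
    (hw1 : w ≠ 1) (hwp : w ^ p = 1) (hg : g ∈ K) (hgw : w * g = g * w) : g ^ p = 1 := by
  have hns := ne_scalar hodd hdet hw hw1
  have h1 : (w : Matrix (Fin 2) (Fin 2) F) * (g : Matrix (Fin 2) (Fin 2) F) = g * w := by
    rw [← Units.val_mul, ← Units.val_mul, hgw]
  obtain ⟨α, β, hG⟩ := mat2_comm_form _ _ hns h1
  have htw : (w : Matrix (Fin 2) (Fin 2) F).trace = 2 := by
    apply mat2_trace_of_pow_char p
    rw [← Units.val_pow_eq_pow_val, hwp]; rfl
  have hdg := hdet g hg
  rw [hG, mat2_det_add, htw, hdet w hw] at hdg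
  apply pow_p_of_trace p hp hodd hdet hg
  rw [hG, mat2_trace_add, htw]
  linear_combination (4 : F) * hdg

theorem comm_of_conj_comm (hp : p ≠ 2) {K : Subgroup (GL (Fin 2) F)} [Finite K]
    (hodd : Odd (Nat.card K))
    (hdet : ∀ g ∈ K, (g : Matrix (Fin 2) (Fin 2) F).det = 1) {a g : GL (Fin 2) F} (ha : a ∈ K)
    (ha1 : a ≠ 1) (hap : ¬ p ∣ orderOf a) (hg : g ∈ K)
    (h : (g * a * g⁻¹) * a = a * (g * a * g⁻¹)) : g * a = a * g := by
  have hpp : p.Prime := Fact.out
  have hns := ne_scalar hodd hdet ha ha1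
  have h1 : (a : Matrix (Fin 2) (Fin 2) F) *
      ((g * a * g⁻¹ : GL (Fin 2) F) : Matrix (Fin 2) (Fin 2) F) =
      ((g * a * g⁻¹ : GL (Fin 2) F) : Matrix (Fin 2) (Fin 2) F) * a := by
    rw [← Units.val_mul, ← Units.val_mul, h]
  obtain ⟨α, β, hA⟩ := mat2_comm_form _ _ hns h1
  have hconjK : g * a * g⁻¹ ∈ K := K.mul_mem (K.mul_mem hg ha) (K.inv_mem hg)
  have hdet' := hdet _ hconjK
  have htr' : ((g * a * g⁻¹ : GL (Fin 2) F) : Matrix (Fin 2) (Fin 2) F).trace =
      (a : Matrix (Fin 2) (Fin 2) F).trace := by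
    rw [Units.val_mul, Matrix.trace_mul_comm, ← Units.val_mul]
    congr 2
    group
  have ht : (a : Matrix (Fin 2) (Fin 2) F).trace ^ 2 ≠ 4 := by
    intro ht
    have h3 := pow_p_of_trace p hp hodd hdet ha ht
    have hd := orderOf_dvd_of_pow_eq_one h3
    rcases (Nat.dvd_prime hpp).mp hd with h4 | h4
    · exact ha1 (orderOf_eq_one_iff.mp h4)
    · exact hap (h4 ▸ dvd_rfl)
  rw [hA] at hdet' htr'
  rcases mat2_conj_in_poly _ (two_ne_zero_of_char p hp) (hdet a ha) ht α β hdet' htr' with h3 | h3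
  · rw [← hA] at h3
    have h4 : g * a * g⁻¹ = a := Units.ext h3
    calc g * a = g * a * g⁻¹ * g := by group
      _ = a * g := by rw [h4]
  · rw [← hA] at h3
    have h4 : g * a * g⁻¹ * a = 1 := by
      apply Units.ext
      rw [Units.val_mul]
      exact h3
    have h5 : g * a * g⁻¹ = a⁻¹ := eq_inv_of_mul_eq_one_left h4
    have h6 : g ^ 2 * a = a * g ^ 2 := by
      have h7 : g ^ 2 * a * (g ^ 2)⁻¹ = a := by
        have e : g ^ 2 * a * (g ^ 2)⁻¹ = g * (g * a * g⁻¹) * g⁻¹ := by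
          simp only [pow_two, mul_inv_rev, mul_assoc]
        rw [e, h5]
        have e2 : g * a⁻¹ * g⁻¹ = (g * a * g⁻¹)⁻¹ := by group
        rw [e2, h5, inv_inv]
      calc g ^ 2 * a = g ^ 2 * a * (g ^ 2)⁻¹ * g ^ 2 := (inv_mul_cancel_right _ _).symm
        _ = a * g ^ 2 := by rw [h7]
    obtain ⟨m, hm⟩ := orderOf_odd hodd hg
    have hgm : g = (g ^ 2) ^ (m + 1) := by
      rw [← pow_mul, show 2 * (m + 1) = orderOf g + 1 by omega, pow_succ, pow_orderOf_eq_one,
        one_mul]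
    have hc : Commute (g ^ 2) a := h6
    have h8 := hc.pow_left (m + 1)
    rw [← hgm] at h8
    exact h8

theorem order_p_commute (hp : p ≠ 2) : ∀ (n : ℕ) (K : Subgroup (GL (Fin 2) F)) [Finite K],
    Nat.card K = n → Odd (Nat.card K) →
    (∀ g ∈ K, (g : Matrix (Fin 2) (Fin 2) F).det = 1) → ∀ x ∈ K, ∀ y ∈ K, x ≠ 1 → x ^ p = 1 →
    y ≠ 1 → y ^ p = 1 → x * y = y * x := by
  have hpp : p.Prime := Fact.out
  intro n
  induction n using Nat.strong_induction_on with
  | _ n ih =>
    intro K hfin hcard hodd hdet x hx y hy hx1 hxp hy1 hyp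
    by_cases hPG : ∃ a ∈ K, a ≠ 1 ∧ ¬ p ∣ orderOf a
    · obtain ⟨a, haK, ha1, hap⟩ := hPG
      by_cases hcent : ∀ g ∈ K, g * a = a * g
      · exact comm_trans p hp hodd hdet haK ha1 (hcent x hx) (hcent y hy).symm
      · push Not at hcent
        obtain ⟨g₀, hg₀K, hg₀⟩ := hcent
        obtain ⟨A, hAdef⟩ : ∃ A : Subgroup ↥K,
            A = Subgroup.centralizer {(⟨a, haK⟩ : ↥K)} := ⟨_, rfl⟩
        have hAmem : ∀ b : ↥K, b ∈ A ↔ (b : GL (Fin 2) F) * a = a * b := by
          intro b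
          rw [hAdef, Subgroup.mem_centralizer_iff]
          constructor
          · intro h
            have h1 := h ⟨a, haK⟩ rfl
            exact (congrArg Subtype.val h1).symm
          · intro h c hc
            rw [Set.mem_singleton_iff] at hc
            subst hc
            exact Subtype.ext h.symm
        have hA : Cfsg.IsFrobeniusComplement A := by
          refine ⟨?_, ?_, ?_⟩
          · intro hbot
            have h1 : (⟨a, haK⟩ : ↥K) ∈ A := (hAmem _).mpr rfl
            rw [hbot, Subgroup.mem_bot] at h1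
            exact ha1 (congrArg Subtype.val h1)
          · intro htop
            have h1 : (⟨g₀, hg₀K⟩ : ↥K) ∈ A := htop ▸ Subgroup.mem_top _
            exact hg₀ ((hAmem _).mp h1)
          · intro g hg
            rw [eq_bot_iff]
            intro b hb
            rw [Subgroup.mem_bot]
            by_contra hb1
            obtain ⟨hbA, hbAg⟩ := Subgroup.mem_inf.mp hb
            rw [Cfsg.Agent.Lib.Lead.mem_conj_smul] at hbAg
            have e1 := (hAmem _).mp hbA
            have e2 := (hAmem _).mp hbAg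
            apply hg
            rw [hAmem]
            apply comm_of_conj_comm p hp hodd hdet haK ha1 hap g.2
            have hbK : (b : GL (Fin 2) F) ∈ K := b.2
            have hb1' : (b : GL (Fin 2) F) ≠ 1 := fun h => hb1 (Subtype.ext h)
            have e2' : (g : GL (Fin 2) F)⁻¹ * b * g * a = a * ((g : GL (Fin 2) F)⁻¹ * b * g) := e2
            have e3 : ((g : GL (Fin 2) F) * a * (g : GL (Fin 2) F)⁻¹) * b =
                b * ((g : GL (Fin 2) F) * a * (g : GL (Fin 2) F)⁻¹) := by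
              calc (g : GL (Fin 2) F) * a * (g : GL (Fin 2) F)⁻¹ * b
                  = g * (a * ((g : GL (Fin 2) F)⁻¹ * b * g)) * (g : GL (Fin 2) F)⁻¹ := by group
                _ = g * ((g : GL (Fin 2) F)⁻¹ * b * g * a) * (g : GL (Fin 2) F)⁻¹ := by rw [e2']
                _ = b * ((g : GL (Fin 2) F) * a * (g : GL (Fin 2) F)⁻¹) := by group
            exact comm_trans p hp hodd hdet hbK hb1' e3 e1
        obtain ⟨N, hNset, hNn, hNc⟩ := Cfsg.Agent.Lib.Lead.frobenius_theorem A hA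
        have hNmem : ∀ z : ↥K, (z : GL (Fin 2) F) ≠ 1 → (z : GL (Fin 2) F) ^ p = 1 → z ∈ N := by
          intro z hz1 hzp
          have h1 : z ∈ (N : Set ↥K) := by
            rw [hNset]
            refine Or.inr ?_
            intro g hmem
            rw [Cfsg.Agent.Lib.Lead.mem_conj_smul] at hmem
            have e2 : (g : GL (Fin 2) F)⁻¹ * z * g * a = a * ((g : GL (Fin 2) F)⁻¹ * z * g) :=
              (hAmem _).mp hmem
            have hwK : (g : GL (Fin 2) F)⁻¹ * z * g ∈ K :=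
              K.mul_mem (K.mul_mem (K.inv_mem g.2) z.2) g.2
            have hw1 : (g : GL (Fin 2) F)⁻¹ * z * g ≠ 1 := by
              intro h
              apply hz1
              have e : (z : GL (Fin 2) F) =
                  g * ((g : GL (Fin 2) F)⁻¹ * z * g) * (g : GL (Fin 2) F)⁻¹ := by group
              rw [e, h]; group
            have hwp : ((g : GL (Fin 2) F)⁻¹ * z * g) ^ p = 1 := by
              have e := conj_pow (a := (g : GL (Fin 2) F)⁻¹) (b := (z : GL (Fin 2) F)) (i := p)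
              rw [inv_inv] at e
              rw [e, hzp]; group
            have h3 := pow_p_of_comm p hp hodd hdet hwK hw1 hwp haK e2
            have hd := orderOf_dvd_of_pow_eq_one h3
            rcases (Nat.dvd_prime hpp).mp hd with h4 | h4
            · exact ha1 (orderOf_eq_one_iff.mp h4)
            · exact hap (h4 ▸ dvd_rfl)
          exact h1
        obtain ⟨K₁, hK₁def⟩ : ∃ K₁ : Subgroup (GL (Fin 2) F), K₁ = N.map K.subtype := ⟨_, rfl⟩
        have hK₁K : K₁ ≤ K := hK₁def ▸ Subgroup.map_subtype_le N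
        haveI : Finite ↥K₁ :=
          Finite.of_injective (Subgroup.inclusion hK₁K) (Subgroup.inclusion_injective hK₁K)
        have hcard₁ : Nat.card K₁ = Nat.card N := by
          rw [hK₁def]; exact Subgroup.card_map_of_injective K.subtype_injective
        have hlt : Nat.card K₁ < n := by
          have h1 := hNc.card_mul_card
          have h2 : 1 < Nat.card A := (Subgroup.one_lt_card_iff_ne_bot A).mpr hA.1
          have h3 : 0 < Nat.card N := Nat.card_pos
          rw [hcard₁, ← hcard, ← h1]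
          nlinarith
        have hodd₁ : Odd (Nat.card K₁) := Odd.of_dvd_nat hodd (Subgroup.card_dvd_of_le hK₁K)
        have hx₁ : x ∈ K₁ := by
          rw [hK₁def]
          exact ⟨⟨x, hx⟩, hNmem ⟨x, hx⟩ hx1 hxp, rfl⟩
        have hy₁ : y ∈ K₁ := by
          rw [hK₁def]
          exact ⟨⟨y, hy⟩, hNmem ⟨y, hy⟩ hy1 hyp, rfl⟩
        exact ih (Nat.card K₁) hlt K₁ rfl hodd₁ (fun g hg => hdet g (hK₁K hg)) x hx₁ y hy₁ hx1 hxp
          hy1 hyp
    · push Not at hPG
      have hcardp : ∀ q : ℕ, q.Prime → q ∣ Nat.card K → q = p := by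
        intro q hq hqd
        haveI : Fact q.Prime := ⟨hq⟩
        obtain ⟨z, hz⟩ := exists_prime_orderOf_dvd_card' q hqd
        have hz1 : (z : GL (Fin 2) F) ≠ 1 := by
          intro h
          have h1 : z = 1 := Subtype.ext h
          rw [h1, orderOf_one] at hz
          exact hq.one_lt.ne hz
        have h2 := hPG z z.2 hz1
        rw [Subgroup.orderOf_coe, hz] at h2
        exact ((Nat.prime_dvd_prime_iff_eq hpp hq).mp h2).symm
      have hPK : IsPGroup p K := by
        have h1 := Nat.eq_prime_pow_of_unique_prime_dvd (Nat.card_pos (α := K)).ne'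
          (fun {d} hd hdd => hcardp d hd hdd)
        exact IsPGroup.of_card h1
      haveI : Nontrivial K := ⟨⟨⟨x, hx⟩, 1, fun h => hx1 (congrArg Subtype.val h)⟩⟩
      haveI := hPK.center_nontrivial
      obtain ⟨z, hz⟩ := exists_ne (1 : Subgroup.center K)
      have hz1 : ((z : K) : GL (Fin 2) F) ≠ 1 := fun h => hz (Subtype.ext (Subtype.ext h))
      have hzc := Subgroup.mem_center_iff.mp z.2
      have e1 : x * ((z : K) : GL (Fin 2) F) = ((z : K) : GL (Fin 2) F) * x :=
        congrArg Subtype.val (hzc ⟨x, hx⟩)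
      have e2 : ((z : K) : GL (Fin 2) F) * y = y * ((z : K) : GL (Fin 2) F) :=
        (congrArg Subtype.val (hzc ⟨y, hy⟩)).symm
      exact comm_trans p hp hodd hdet (z : K).2 hz1 e1 e2

end aux

/-- Let F be a field of odd characteristic p and H a finite subgroup of odd order of GL(2, F) that leaves no 1-dimensional subspace of F² invariant. Then p does not divide the order of H. -/
theorem result {F : Type*} [Field F] (p : ℕ) [Fact p.Prime] [CharP F p] (hp : p ≠ 2)
    (H : Subgroup (GL (Fin 2) F)) [Finite H] (hodd : Odd (Nat.card H))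
    (hirr : ∀ v : Fin 2 → F, v ≠ 0 → ∃ g ∈ H, (g : Matrix (Fin 2) (Fin 2) F).mulVec v ∉ Submodule.span F {v}) :
    ¬ p ∣ Nat.card H := by
  classical
  have hpp : p.Prime := Fact.out
  intro hdiv
  have h2 := two_ne_zero_of_char (F := F) p hp
  obtain ⟨x₀, hx₀⟩ := exists_prime_orderOf_dvd_card' p hdiv
  obtain ⟨x, hxdef⟩ : ∃ x : GL (Fin 2) F, x = (x₀ : GL (Fin 2) F) := ⟨_, rfl⟩
  have hxH : x ∈ H := hxdef ▸ x₀.2
  have hxo : orderOf x = p := by rw [hxdef, Subgroup.orderOf_coe]; exact hx₀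
  have hxp : x ^ p = 1 := by rw [← hxo]; exact pow_orderOf_eq_one x
  have hx1 : x ≠ 1 := by
    intro h; rw [h, orderOf_one] at hxo; exact hpp.one_lt.ne hxo
  obtain ⟨K, hKdef⟩ : ∃ K : Subgroup (GL (Fin 2) F),
      K = H ⊓ (Matrix.GeneralLinearGroup.det (n := Fin 2) (R := F)).ker := ⟨_, rfl⟩
  have hKH : K ≤ H := hKdef ▸ inf_le_left
  have hKmem : ∀ g : GL (Fin 2) F, g ∈ K ↔ g ∈ H ∧ (g : Matrix (Fin 2) (Fin 2) F).det = 1 := by
    intro g
    rw [hKdef, Subgroup.mem_inf, MonoidHom.mem_ker]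
    constructor
    · rintro ⟨h1, h3⟩
      refine ⟨h1, ?_⟩
      have h4 := congrArg Units.val h3
      rw [Matrix.GeneralLinearGroup.val_det_apply] at h4
      exact h4
    · rintro ⟨h1, h3⟩
      refine ⟨h1, Units.ext ?_⟩
      rw [Matrix.GeneralLinearGroup.val_det_apply]
      exact h3
  haveI : Finite K :=
    Finite.of_injective (Subgroup.inclusion hKH) (Subgroup.inclusion_injective hKH)
  have hKodd : Odd (Nat.card K) := Odd.of_dvd_nat hodd (Subgroup.card_dvd_of_le hKH)
  have hKdet : ∀ g ∈ K, (g : Matrix (Fin 2) (Fin 2) F).det = 1 := fun g hg => ((hKmem g).mp hg).2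
  have hdet_p : ∀ g : GL (Fin 2) F, g ^ p = 1 → (g : Matrix (Fin 2) (Fin 2) F).det = 1 := by
    intro g hg
    have h1 : (g : Matrix (Fin 2) (Fin 2) F).det ^ p = 1 := by
      rw [← Matrix.det_pow, ← Units.val_pow_eq_pow_val, hg]; simp
    have h3 := sub_pow_char_of_commute
      (Commute.one_right ((g : Matrix (Fin 2) (Fin 2) F).det)) (p := p)
    rw [h1, one_pow, sub_self] at h3
    have h4 := (pow_eq_zero_iff hpp.ne_zero).mp h3
    exact sub_eq_zero.mp h4
  have hxK : x ∈ K := (hKmem x).mpr ⟨hxH, hdet_p x hxp⟩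
  have htx : (x : Matrix (Fin 2) (Fin 2) F).trace = 2 := by
    apply mat2_trace_of_pow_char p
    rw [← Units.val_pow_eq_pow_val, hxp]; rfl
  have hNsq := mat2_sub_one_sq (x : Matrix (Fin 2) (Fin 2) F) (hKdet x hxK) htx
  have hN0 : (x : Matrix (Fin 2) (Fin 2) F) - 1 ≠ 0 := by
    intro h
    apply hx1
    apply Units.ext
    rw [sub_eq_zero] at h
    exact h
  obtain ⟨v, hv, hNv⟩ := mat2_exists_ker _ hN0 hNsq
  have hxv : ∀ w : Fin 2 → F, ((x : Matrix (Fin 2) (Fin 2) F) - 1).mulVec w = 0 ↔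
      (x : Matrix (Fin 2) (Fin 2) F).mulVec w = w := by
    intro w
    rw [Matrix.sub_mulVec, Matrix.one_mulVec, sub_eq_zero]
  obtain ⟨g, hgH, hgv⟩ := hirr v hv
  apply hgv
  have hyp : (g⁻¹ * x * g) ^ p = 1 := by
    have e := conj_pow (a := g⁻¹) (b := x) (i := p)
    rw [inv_inv] at e
    rw [e, hxp]; group
  have hyK : g⁻¹ * x * g ∈ K := by
    rw [hKmem]
    exact ⟨H.mul_mem (H.mul_mem (H.inv_mem hgH) hxH) hgH, hdet_p _ hyp⟩
  have hy1 : g⁻¹ * x * g ≠ 1 := by
    intro h
    apply hx1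
    have e : x = g * (g⁻¹ * x * g) * g⁻¹ := by group
    rw [e, h]; group
  have hcomm := order_p_commute p hp (Nat.card K) K rfl hKodd hKdet x hxK _ hyK hx1 hxp hy1 hyp
  have hns := ne_scalar hKodd hKdet hxK hx1
  have h1 : (x : Matrix (Fin 2) (Fin 2) F) *
      ((g⁻¹ * x * g : GL (Fin 2) F) : Matrix (Fin 2) (Fin 2) F) =
      ((g⁻¹ * x * g : GL (Fin 2) F) : Matrix (Fin 2) (Fin 2) F) * x := by
    rw [← Units.val_mul, ← Units.val_mul, hcomm]
  obtain ⟨α, β, hY⟩ := mat2_comm_form _ _ hns h1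
  have hty : ((g⁻¹ * x * g : GL (Fin 2) F) : Matrix (Fin 2) (Fin 2) F).trace = 2 := by
    apply mat2_trace_of_pow_char p
    rw [← Units.val_pow_eq_pow_val, hyp]; rfl
  rw [hY, mat2_trace_add, htx] at hty
  have hαβ : α + β = 1 := by
    have h3 : 2 * (α + β - 1) = 0 := by linear_combination hty
    rcases mul_eq_zero.mp h3 with h | h
    · exact absurd h h2
    · linear_combination h
  have hxv' : (x : Matrix (Fin 2) (Fin 2) F).mulVec v = v := (hxv v).mp hNv
  have hYv : ((g⁻¹ * x * g : GL (Fin 2) F) : Matrix (Fin 2) (Fin 2) F).mulVec v = v := by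
    rw [hY, Matrix.add_mulVec, Matrix.smul_mulVec, Matrix.smul_mulVec, Matrix.one_mulVec, hxv',
      ← add_smul, hαβ, one_smul]
  have hxgv : (x : Matrix (Fin 2) (Fin 2) F).mulVec ((g : Matrix (Fin 2) (Fin 2) F).mulVec v) =
      (g : Matrix (Fin 2) (Fin 2) F).mulVec v := by
    have e : (x : Matrix (Fin 2) (Fin 2) F) * (g : Matrix (Fin 2) (Fin 2) F) =
        (g : Matrix (Fin 2) (Fin 2) F) *
          ((g⁻¹ * x * g : GL (Fin 2) F) : Matrix (Fin 2) (Fin 2) F) := by
      rw [← Units.val_mul, ← Units.val_mul]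
      congr 1
      group
    rw [Matrix.mulVec_mulVec, e, ← Matrix.mulVec_mulVec, hYv]
  obtain ⟨c, hc⟩ := mat2_ker_line _ hN0 v _ hv hNv ((hxv _).mpr hxgv)
  rw [hc]
  exact Submodule.smul_mem _ c (Submodule.mem_span_singleton_self v)

end Cfsg.Agent.S1463
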