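import Mathlib
import Cfsg.Statements.S1464
import Cfsg.Agent.Lib.Helper12.PStab

set_option autoImplicit false
open Cfsg

namespace Cfsg.Agent.S1464
open scoped commutatorElement

/-- Let p be an odd prime and G a solvable group of odd order, P a p-subgroup with O_{p'}(G)P normal in G, and A a p-subgroup of N_G(P) with [[P, A], A] = 1. Then the image of A in the quotient N_G(P)/C_G(P) is contained in the p-core of that quotient. -/
theorem result {G : Type*} [Group G] [Finite G] [Group.IsSolvable G] (hodd : Odd (Nat.card G)) (p : ℕ) [Fact p.Prime] (hp : p ≠ 2) (P A : Subgroup G) (hP : IsPGroup p P) (hPn : (Cfsg.pPrimeCore p G ⊔ P).Normal)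
    (hA : IsPGroup p A) (hAN : A ≤ Subgroup.normalizer (P : Set G)) (hquad : ⁅⁅P, A⁆, A⁆ = ⊥) :
    (A.subgroupOf (Subgroup.normalizer (P : Set G))).map
        (QuotientGroup.mk' ((Subgroup.centralizer (P : Set G)).subgroupOf (Subgroup.normalizer (P : Set G))))
      ≤ Cfsg.pCore p _ := by
  classical
  rintro _ ⟨a, ha, rfl⟩
  refine Cfsg.Agent.Lib.Helper12.quad_mem_pCore ↥(Subgroup.normalizer (P : Set G))
    (Odd.of_dvd_nat hodd (Subgroup.card_subgroup_dvd_card _))
    (P.subgroupOf (Subgroup.normalizer (P : Set G))) (hP.comap_subtype)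
    ((Subgroup.centralizer (P : Set G)).subgroupOf (Subgroup.normalizer (P : Set G))) ?_ a ?_
  · ext z
    rw [Subgroup.mem_subgroupOf, Subgroup.mem_centralizer_iff, Subgroup.mem_centralizer_iff]
    constructor
    · intro h t ht
      apply Subtype.ext
      exact h t.1 (Subgroup.mem_subgroupOf.mp ht)
    · intro h t ht
      have := h ⟨t, Subgroup.le_normalizer ht⟩ (Subgroup.mem_subgroupOf.mpr ht)
      exact congrArg Subtype.val this
  · intro v hv
    apply Subtype.ext
    have haA : (a : G) ∈ A := Subgroup.mem_subgroupOf.mp ha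
    have hvP : (v : G) ∈ P := Subgroup.mem_subgroupOf.mp hv
    have h1 : ⁅⁅(v : G), (a : G)⁆, (a : G)⁆ ∈ ⁅⁅P, A⁆, A⁆ :=
      Subgroup.commutator_mem_commutator (Subgroup.commutator_mem_commutator hvP haA) haA
    rw [hquad, Subgroup.mem_bot, commutatorElement_eq_one_iff_mul_comm] at h1
    obtain ⟨c, hc⟩ : ∃ c : G, c = ⁅(v : G), (a : G)⁆ := ⟨_, rfl⟩
    rw [← hc] at h1
    have e : (a : G) * v * (a : G)⁻¹ * (v : G)⁻¹ = c⁻¹ := by
      rw [hc, commutatorElement_def]; group
    simp only [Subgroup.coe_mul, Subgroup.coe_inv]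
    rw [e]
    exact (Commute.inv_right (show Commute (a : G) c from h1.symm)).eq

end Cfsg.Agent.S1464
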