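import Mathlib
import Cfsg.Statements.S1470

set_option autoImplicit false
open Cfsg

namespace Cfsg.Agent.S1470

/-- Let p and q be odd primes with (p^q − 1)/(p − 1) coprime to p − 1, and let E be the set of elements a of the field with p ^ q elements whose norm to the prime field is 1 and for which 2 − a also has norm 1. If a⁻¹ ∈ E for every a ∈ E and E has at least two elements, then p ≤ q. -/
theorem result (p q : ℕ) [Fact p.Prime] [Fact q.Prime] (hp : p ≠ 2) (hq : q ≠ 2) (hA : Nat.Coprime ((p ^ q - 1) / (p - 1)) (p - 1))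
    (hinv : ∀ a ∈ {a : GaloisField p q | Algebra.norm (ZMod p) a = 1 ∧ Algebra.norm (ZMod p) (2 - a) = 1}, a⁻¹ ∈ {a : GaloisField p q | Algebra.norm (ZMod p) a = 1 ∧ Algebra.norm (ZMod p) (2 - a) = 1})
    (h2 : 2 ≤ Set.ncard {a : GaloisField p q | Algebra.norm (ZMod p) a = 1 ∧ Algebra.norm (ZMod p) (2 - a) = 1}) :
    p ≤ q := by
  classical
  have hq0 : q ≠ 0 := (Fact.out : q.Prime).ne_zero
  have : Finite (GaloisField p q) := Nat.finite_of_card_ne_zero (by
    rw [GaloisField.card p q hq0]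
    exact pow_ne_zero _ (Fact.out : p.Prime).ne_zero)
  set E : Set (GaloisField p q) :=
    {a : GaloisField p q | Algebra.norm (ZMod p) a = 1 ∧ Algebra.norm (ZMod p) (2 - a) = 1} with hE
  have hfin : E.Finite := Set.toFinite E
  obtain ⟨a₁, b₁, ha₁, hb₁, hab⟩ := (Set.one_lt_ncard_iff hfin).1 h2
  obtain ⟨a, ha, ha1⟩ : ∃ a ∈ E, a ≠ 1 := by
    by_cases h : a₁ = 1
    · exact ⟨b₁, hb₁, fun h' => hab (h.trans h'.symm)⟩
    · exact ⟨a₁, ha₁, h⟩
  let Y : Set (GaloisField p q) := {y | y ≠ 0 ∧ 1 + y⁻¹ ∈ E}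
  have hneg : ∀ y ∈ Y, -y ∈ Y := by
    rintro y ⟨hy0, hyE⟩
    refine ⟨neg_ne_zero.2 hy0, ?_⟩
    have e : 1 + (-y)⁻¹ = 2 - (1 + y⁻¹) := by rw [inv_neg]; ring
    rw [e]
    refine ⟨hyE.2, ?_⟩
    have e2 : (2 : GaloisField p q) - (2 - (1 + y⁻¹)) = 1 + y⁻¹ := by ring
    rw [e2]
    exact hyE.1
  have hstep : ∀ y ∈ Y, -y - 1 ∈ Y := by
    rintro y ⟨hy0, hyE⟩
    have hne : 1 + y⁻¹ ≠ 0 := by
      intro h
      have := hyE.1
      rw [h, Algebra.norm_zero] at this
      exact zero_ne_one this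
    have hy1 : y + 1 ≠ 0 := by
      intro h
      apply hne
      have : 1 + y⁻¹ = (y + 1) * y⁻¹ := by field_simp
      rw [this, h, zero_mul]
    have hy1' : -y - 1 ≠ 0 := by
      intro h
      apply hy1
      linear_combination -h
    refine ⟨hy1', ?_⟩
    have e : 1 + (-y - 1)⁻¹ = (1 + y⁻¹)⁻¹ := by
      field_simp
      ring
    rw [e]
    exact hinv _ hyE
  have hsucc : ∀ y ∈ Y, y + 1 ∈ Y := by
    intro y hy
    have := hneg _ (hstep y hy)
    have e : -(-y - 1) = y + 1 := by ring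
    rwa [e] at this
  have hy₀ : (a - 1)⁻¹ ∈ Y := by
    refine ⟨inv_ne_zero (sub_ne_zero.2 ha1), ?_⟩
    rw [inv_inv]
    have e : 1 + (a - 1) = a := by ring
    rw [e]
    exact ha
  have hall : ∀ k : ℕ, (a - 1)⁻¹ + (k : GaloisField p q) ∈ Y := by
    intro k
    induction k with
    | zero => simpa using hy₀
    | succ k ih =>
      have := hsucc _ ih
      push_cast
      rwa [add_assoc] at this
  have hnorm : ∀ k : ℕ, Algebra.norm (ZMod p) ((a - 1)⁻¹ + (k : GaloisField p q))
      = Algebra.norm (ZMod p) ((a - 1)⁻¹) := by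
    intro k
    induction k with
    | zero => simp
    | succ k ih =>
      obtain ⟨h0, hE1⟩ := hall k
      have e : (a - 1)⁻¹ + ((k + 1 : ℕ) : GaloisField p q)
          = ((a - 1)⁻¹ + (k : GaloisField p q)) * (1 + ((a - 1)⁻¹ + (k : GaloisField p q))⁻¹) := by
        rw [mul_add, mul_one, mul_inv_cancel₀ h0]
        push_cast
        ring
      rw [e, map_mul, hE1.1, mul_one, ih]
  set y := (a - 1)⁻¹ with hy
  let P : Polynomial (ZMod p) := (LinearMap.charpoly (Algebra.lmul (ZMod p) (GaloisField p q) (-y)))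
    - Polynomial.C (Algebra.norm (ZMod p) y)
  have hroot : ∀ t : ZMod p, P.eval t = 0 := by
    intro t
    obtain ⟨k, rfl⟩ : ∃ k : ℕ, (k : ZMod p) = t := ⟨t.val, ZMod.natCast_zmod_val t⟩
    simp only [P, Polynomial.eval_sub, Polynomial.eval_C, LinearMap.eval_charpoly]
    rw [sub_eq_zero, ← hnorm k, Algebra.norm_apply]
    congr 1
    apply LinearMap.ext
    intro x
    simp only [LinearMap.sub_apply, Module.algebraMap_end_apply, Algebra.coe_lmul_eq_mul,
      LinearMap.mul_apply', Algebra.smul_def]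
    rw [map_natCast]
    ring
  by_contra hlt
  push Not at hlt
  have hdeg : P.natDegree = q := by
    simp only [P]
    rw [Polynomial.natDegree_sub_C, LinearMap.charpoly_natDegree, GaloisField.finrank p hq0]
  have hP0 : P = 0 := by
    apply Polynomial.eq_zero_of_natDegree_lt_card_of_eval_eq_zero P (f := id)
      Function.injective_id hroot
    rw [hdeg, ZMod.card]
    exact hlt
  rw [hP0, Polynomial.natDegree_zero] at hdeg
  exact hq0 hdeg.symm

end Cfsg.Agent.S1470
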