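import Mathlib
import Cfsg.Statements.S1471
import Cfsg.Agent.Lib.Helper12.NormJac
import Cfsg.Agent.Lib.Helper12.NormCubic

set_option autoImplicit false
open Cfsg

namespace Cfsg.Agent.S1471

/-- Let p and q be odd primes with (p^q − 1)/(p − 1) coprime to p − 1. Then there are at least two elements a of the field with p ^ q elements such that both a and 2 − a have norm 1 to the prime field. -/
theorem result (p q : ℕ) [Fact p.Prime] [Fact q.Prime] (hp : p ≠ 2) (hq : q ≠ 2) (hA : Nat.Coprime ((p ^ q - 1) / (p - 1)) (p - 1)) :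
    2 ≤ Set.ncard {a : GaloisField p q | Algebra.norm (ZMod p) a = 1 ∧ Algebra.norm (ZMod p) (2 - a) = 1} := by
  classical
  have hqp : q.Prime := Fact.out
  by_cases h3 : q = 3
  · subst h3
    obtain ⟨a, ha1, haN, haN2⟩ := Cfsg.Agent.Lib.Helper12.NormCubic.exists_elt p
    have hsub : ({1, a} : Set (GaloisField p 3)) ⊆
        {a : GaloisField p 3 | Algebra.norm (ZMod p) a = 1 ∧ Algebra.norm (ZMod p) (2 - a) = 1} := by
      intro x hx
      rcases hx with rfl | rfl
      · refine ⟨map_one _, ?_⟩
        have e : (2 : GaloisField p 3) - 1 = 1 := by norm_num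
        rw [e, map_one]
      · exact ⟨haN, haN2⟩
    have hfin : Set.Finite
        {a : GaloisField p 3 | Algebra.norm (ZMod p) a = 1 ∧ Algebra.norm (ZMod p) (2 - a) = 1} :=
      Set.toFinite _
    calc 2 = Set.ncard ({1, a} : Set (GaloisField p 3)) := (Set.ncard_pair (Ne.symm ha1)).symm
      _ ≤ _ := Set.ncard_le_ncard hsub hfin
  · have hq5 : 5 ≤ q := by
      have h2 := hqp.two_le
      have h4 : q ≠ 4 := by
        intro h
        rw [h] at hqp
        norm_num at hqp
      omega
    haveI : Fintype (GaloisField p q) := Fintype.ofFinite _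
    have hF : Fintype.card (GaloisField p q) = p ^ q := by
      rw [← Nat.card_eq_fintype_card, GaloisField.card p q (by omega)]
    have h := Cfsg.Agent.Lib.Helper12.NormJac.two_le_card (F := GaloisField p q) p q hq5 hp hF
    have hset : {a : GaloisField p q | Algebra.norm (ZMod p) a = 1 ∧
        Algebra.norm (ZMod p) (2 - a) = 1}
        = ↑(Cfsg.Agent.Lib.Helper12.NormJac.pairSet (F := GaloisField p q) p) := by
      ext a
      simp [Cfsg.Agent.Lib.Helper12.NormJac.pairSet]
    rw [hset, Set.ncard_coe_finset]
    exact h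

end Cfsg.Agent.S1471
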