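import Cfsg.Statements.S1475
-- import your own Cfsg.Agent.* helpers here
import Mathlib
import Cfsg.Agent.Lib.Lead.FpfAbelian
import Cfsg.Agent.Lib.Helper1.Hall
import Cfsg.Agent.Lib.Helper24.Solvable

set_option autoImplicit false
open Cfsg

namespace Cfsg.Agent.S1475

open Cfsg.Agent.Lib.Lead Cfsg.Agent.Lib.Helper1 Cfsg.Agent.Lib.Helper24

theorem exists_na {G : Type*} [Group G] [Finite G] [Nontrivial G] (hG : Group.IsSolvable G) :
    ∃ q : ℕ, q.Prime ∧ ∃ T : Subgroup G, T.Normal ∧ T ≠ ⊥ ∧ (∀ x ∈ T, x ^ q = 1) ∧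
      (∀ a ∈ T, ∀ b ∈ T, a * b = b * a) := by
  obtain ⟨A, hAn, hAne, hAc⟩ := exists_normal_abelian_of_solvable hG
  obtain ⟨q, hq, hqdvd⟩ := Nat.exists_prime_and_dvd (A.one_lt_card_iff_ne_bot.mpr hAne).ne'
  haveI : Fact q.Prime := ⟨hq⟩
  haveI := hAn
  obtain ⟨T, hTn, hTA, hTne, hTq⟩ := exists_normal_exponent_subgroup A hAc q hqdvd
  exact ⟨q, hq, T, hTn, hTne, hTq, fun a ha b hb => hAc a (hTA ha) b (hTA hb)⟩

theorem eppo_contra {G : Type*} [Group G] [Finite G]
    (h : ∀ g : G, IsPrimePow (orderOf g) ∨ g = 1)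
    (x y : G) (hc : Commute x y) (hcop : (orderOf x).Coprime (orderOf y)) (hx : x ≠ 1)
    (hy : y ≠ 1) : False := by
  have ho := hc.orderOf_mul_eq_mul_orderOf_of_coprime hcop
  have hx1 : orderOf x ≠ 1 := fun h1 => hx (orderOf_eq_one_iff.mp h1)
  have hy1 : orderOf y ≠ 1 := fun h1 => hy (orderOf_eq_one_iff.mp h1)
  have hxpos : 0 < orderOf x := orderOf_pos x
  have hypos : 0 < orderOf y := orderOf_pos y
  rcases h (x * y) with hp | h1
  · rw [ho] at hp
    rcases (hcop.isPrimePow_dvd_mul hp).mp dvd_rfl with hd | hd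
    · have : orderOf x * orderOf y ∣ orderOf x * 1 := by rwa [mul_one]
      exact hy1 (Nat.dvd_one.mp (Nat.dvd_of_mul_dvd_mul_left hxpos this))
    · have : orderOf x * orderOf y ∣ 1 * orderOf y := by rwa [one_mul]
      exact hx1 (Nat.dvd_one.mp (Nat.dvd_of_mul_dvd_mul_right hypos this))
  · rw [h1, orderOf_one] at ho
    exact hx1 (Nat.eq_one_of_mul_eq_one_right ho.symm)


/-- Let G be a finite solvable group such that the order of every element is a prime power (1 included). Then at most two distinct primes divide the order of G. -/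
theorem result {G : Type*} [Group G] [Finite G] [Group.IsSolvable G] (h : ∀ g : G, IsPrimePow (orderOf g) ∨ g = 1) :
    (Nat.card G).primeFactors.card ≤ 2 := by
  classical
  by_contra hcon
  push Not at hcon
  have hnt : Nontrivial G := by
    by_contra hn
    rw [not_nontrivial_iff_subsingleton] at hn
    have h1 : Nat.card G = 1 := Nat.card_eq_one_iff_unique.mpr ⟨hn, ⟨1⟩⟩
    rw [h1] at hcon
    simp at hcon
  obtain ⟨p, hp, V, hVn, hVne, hVp, hVc⟩ := exists_na (inferInstance : Group.IsSolvable G)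
  haveI : Fact p.Prime := ⟨hp⟩
  have hG0 : Nat.card G ≠ 0 := Nat.card_pos.ne'
  obtain ⟨a, ha⟩ : ∃ a, a = (Nat.card G).factorization p := ⟨_, rfl⟩
  have hmn : Nat.card G = (Nat.card G / p ^ a) * p ^ a := by
    rw [ha]; exact (Nat.div_mul_cancel (Nat.ordProj_dvd _ _)).symm
  have hcop1 : p.Coprime (Nat.card G / p ^ a) := by
    rw [ha]; exact Nat.coprime_ordCompl hp hG0
  have hcop : (Nat.card G / p ^ a).Coprime (p ^ a) := (Nat.Coprime.pow_left a hcop1).symm
  obtain ⟨⟨H, hH⟩, -, -⟩ := hall_aux (Nat.card G) G le_rfl _ _ hmn hcop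
  have hHp : (Nat.card H).Coprime p := by rw [hH]; exact hcop1.symm
  have hdvdH : ∀ t : ℕ, t.Prime → t ∣ Nat.card G → t ≠ p → t ∣ Nat.card H := by
    intro t ht htG htp
    rw [hmn] at htG
    rcases (Nat.Prime.dvd_mul ht).mp htG with h1 | h1
    · rw [hH]; exact h1
    · exact absurd ((Nat.prime_dvd_prime_iff_eq ht hp).mp (ht.dvd_of_dvd_pow h1)) htp
  obtain ⟨t0, ht0, ht0p⟩ : ∃ t ∈ (Nat.card G).primeFactors, t ≠ p := by
    by_contra hc2
    push Not at hc2
    have h1 : (Nat.card G).primeFactors ⊆ {p} := fun t ht => Finset.mem_singleton.mpr (hc2 t ht)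
    have h2 := Finset.card_le_card h1
    rw [Finset.card_singleton] at h2
    omega
  have hHnt : Nontrivial H := by
    have h1 := hdvdH t0 (Nat.prime_of_mem_primeFactors ht0) (Nat.dvd_of_mem_primeFactors ht0) ht0p
    rw [← Finite.one_lt_card_iff_nontrivial]
    have h2 := Nat.le_of_dvd Nat.card_pos h1
    have h3 := (Nat.prime_of_mem_primeFactors ht0).two_le
    omega
  obtain ⟨s, hs, M, hMn, hMne, hMs, hMc⟩ := exists_na (G := H) inferInstance
  haveI : Fact s.Prime := ⟨hs⟩
  obtain ⟨c, hcM, hc1⟩ : ∃ c ∈ M, c ≠ 1 := by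
    by_contra hc2
    push Not at hc2
    exact hMne (by rw [eq_bot_iff]; intro x hx; exact Subgroup.mem_bot.mpr (hc2 x hx))
  have hco : orderOf c = s := orderOf_eq_prime (hMs c hcM) hc1
  have hsp : s ≠ p := by
    rintro rfl
    have h1 : s ∣ Nat.card H := hco ▸ orderOf_dvd_natCard c
    exact (Nat.Prime.coprime_iff_not_dvd hs).mp hHp.symm h1
  obtain ⟨t, ht, htp, hts⟩ : ∃ t ∈ (Nat.card G).primeFactors, t ≠ p ∧ t ≠ s := by
    by_contra hc2
    push Not at hc2
    have h1 : (Nat.card G).primeFactors ⊆ {p, s} := fun t ht => by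
      by_cases h1 : t = p
      · simp [h1]
      · simp [hc2 t ht h1]
    have h2 := Finset.card_le_card h1
    have h3 : ({p, s} : Finset ℕ).card ≤ 2 := Finset.card_le_two
    omega
  have htprime := Nat.prime_of_mem_primeFactors ht
  haveI : Fact t.Prime := ⟨htprime⟩
  obtain ⟨y, hy⟩ := exists_prime_orderOf_dvd_card' (G := H) t
    (hdvdH t htprime (Nat.dvd_of_mem_primeFactors ht) htp)
  let _ : CommGroup V :=
    { (inferInstance : Group V) with mul_comm := fun a b => Subtype.ext (hVc a a.2 b b.2) }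
  have hHV : H ≤ Subgroup.normalizer (V : Set G) := by
    rw [Subgroup.normalizer_eq_top]; exact le_top
  let _ : MulDistribMulAction H V :=
    MulDistribMulAction.compHom V (V.normalizerMonoidHom.comp (Subgroup.inclusion hHV))
  have hsmul : ∀ (a : H) (v : V), ((a • v : V) : G) = a * v * (a : G)⁻¹ := fun a v => rfl
  have hfpf : FpfAct H V := by
    intro a ha v hv
    by_contra hv1
    have h2 := congrArg Subtype.val hv
    rw [hsmul] at h2
    have hcomm : Commute (a : G) (v : G) := by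
      show (a : G) * v = v * a
      calc (a : G) * (v : G) = (a : G) * v * (a : G)⁻¹ * a := by group
        _ = (v : G) * a := by rw [h2]
    have hvo : orderOf (v : G) = p :=
      orderOf_eq_prime (hVp v v.2) (fun h => hv1 (Subtype.ext h))
    have hao : (orderOf (a : G)).Coprime p := by
      apply Nat.Coprime.coprime_dvd_left _ hHp
      rw [Subgroup.orderOf_coe]; exact orderOf_dvd_natCard a
    exact eppo_contra h (a : G) (v : G) hcomm (hvo ▸ hao) (fun h => ha (Subtype.ext h))
      (fun h => hv1 (Subtype.ext h))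
  have hVnt : Nontrivial V := (Subgroup.nontrivial_iff_ne_bot V).mpr hVne
  have hyc := fpf_centralizes_of_normalizes hfpf M hMc y t htprime
    (by rw [← hy]; exact pow_orderOf_eq_one y) (fun c hc => hMn.conj_mem c hc y) c hcM
  have hcomm : Commute (y : G) (c : G) := by
    show (y : G) * (c : G) = (c : G) * (y : G)
    exact congrArg Subtype.val hyc
  have hy1 : y ≠ 1 := by
    intro h1; rw [h1, orderOf_one] at hy; exact htprime.ne_one hy.symm
  exact eppo_contra h (y : G) (c : G) hcomm
    (by rw [Subgroup.orderOf_coe, Subgroup.orderOf_coe, hy, hco]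
        exact (Nat.coprime_primes htprime hs).mpr hts)
    (fun h1 => hy1 (Subtype.ext h1)) (fun h1 => hc1 (Subtype.ext h1))

end Cfsg.Agent.S1475
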