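import Cfsg.Statements.S1480
import Cfsg.Agent.Lib.Helper5.SigFamNS
import Cfsg.Agent.Lib.Helper5.PConInv
import Cfsg.Agent.Lib.Helper11.BG7d
import Cfsg.Agent.S0058
import Cfsg.Agent.S0025
import Cfsg.Agent.Lib.Helper18.SylowRel
import Cfsg.Agent.S0522

set_option autoImplicit false
open Cfsg

namespace Cfsg.Agent.S1480

/-- Let G be a finite group and p a prime such that the normalizer of every nontrivial p-subgroup of G is p-constrained; if p = 2 assume also that the Sylow 2-subgroups of G have nilpotency class at most 2. Let E be an abelian p-subgroup containing an elementary abelian subgroup of order p ^ 3 and containing every element of p-power order of C_G(E). Then for every prime q ≠ p, any two maximal E-invariant q-subgroups of G are conjugate by an element of O_{p'}(C_G(E)). -/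
theorem result {G : Type*} [Group G] [Finite G] (p : ℕ) [Fact p.Prime]
    (hloc : ∀ T : Subgroup G, IsPGroup p T → T ≠ ⊥ → Cfsg.IsPConstrained p ↥(Subgroup.normalizer (T : Set G)))
    (h2 : p = 2 → ∀ S : Sylow p G, Group.IsNilpotent (S : Subgroup G) ∧ Group.nilpotencyClass (S : Subgroup G) ≤ 2)
    (E : Subgroup G) (hEp : IsPGroup p E) (hEc : IsMulCommutative E) (hE3 : ¬ Cfsg.PRankLE p 2 E)
    (hEfull : ∀ x ∈ Subgroup.centralizer (E : Set G), IsPGroup p (Subgroup.zpowers x) → x ∈ E)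
    (q : ℕ) [Fact q.Prime] (hqp : q ≠ p) :
    ∀ Q₁ ∈ Cfsg.maxInvSubgroups ⊤ E {q}, ∀ Q₂ ∈ Cfsg.maxInvSubgroups ⊤ E {q},
        ∃ k ∈ Cfsg.piCoreOf (Cfsg.primesNotDvd p) (Subgroup.centralizer (E : Set G)), Q₂ = Q₁.map (MulAut.conj k).toMonoidHom := by
  classical
  intro Q₁ hQ₁ Q₂ hQ₂
  have hp : p.Prime := Fact.out
  have hq : q.Prime := Fact.out
  obtain ⟨E₀, hE₀E, hE₀p, hE₀3⟩ : ∃ E₀ : Subgroup G, E₀ ≤ E ∧ (∀ e ∈ E₀, e ^ p = 1) ∧
      p ^ 3 ≤ Nat.card E₀ := by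
    unfold Cfsg.PRankLE at hE3
    push Not at hE3
    obtain ⟨A₀, hA₀c, hA₀p, hA₀card⟩ := hE3
    refine ⟨A₀.map E.subtype, Subgroup.map_subtype_le _, ?_, ?_⟩
    · rintro e ⟨a, ha, rfl⟩
      have h1 := hA₀p a ha
      simpa using congrArg Subtype.val h1
    · rw [Subgroup.card_map_of_injective E.subtype_injective]
      have hA₀pg : IsPGroup p A₀ := hEp.to_subgroup A₀
      obtain ⟨n, hn⟩ := IsPGroup.iff_card.mp hA₀pg
      rw [hn] at hA₀card ⊢
      have h2 : 2 < n := (Nat.pow_lt_pow_iff_right hp.one_lt).mp hA₀card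
      exact Nat.pow_le_pow_right hp.pos h2
  have hBcomm : ∀ a ∈ E, ∀ b ∈ E, a * b = b * a :=
    fun a ha b hb => Cfsg.Agent.Lib.Helper11.sub_comm_of_imc hEc a ha b hb
  have hE₀a : IsMulCommutative E₀ :=
    Cfsg.Agent.Lib.Helper11.imc_of_sub_comm (fun a ha b hb => hBcomm a (hE₀E ha) b (hE₀E hb))
  have hE₀el : Cfsg.IsElementaryAbelian p E₀ := ⟨hE₀a, hE₀p⟩
  have hE₀pg : IsPGroup p E₀ := hEp.to_le hE₀E
  have hE₀card : 1 < Nat.card E₀ := lt_of_lt_of_le (Nat.one_lt_pow (by norm_num) hp.one_lt) hE₀3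
  have hE₀ne : E₀ ≠ ⊥ := by
    rintro rfl
    simp at hE₀card
  obtain ⟨e₀, he₀E, he₀1⟩ := (E₀.bot_or_exists_ne_one).resolve_left hE₀ne
  have hE₀nc : ¬ IsCyclic E₀ := by
    intro hc
    obtain ⟨g, hg⟩ := hc.exists_generator
    have h1 : Nat.card E₀ = orderOf g := (orderOf_eq_card_of_forall_mem_zpowers hg).symm
    have h2 : orderOf g ∣ p := orderOf_dvd_of_pow_eq_one (Subtype.ext (by simpa using hE₀p g g.2))
    have h3 : Nat.card E₀ ≤ p := h1 ▸ Nat.le_of_dvd hp.pos h2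
    have h4 : p < p ^ 3 := by
      calc p = p ^ 1 := (pow_one p).symm
        _ < p ^ 3 := Nat.pow_lt_pow_right hp.one_lt (by norm_num)
    omega
  have hBsolv : Group.IsSolvable E := by
    have := hEp.isNilpotent
    infer_instance
  have hBC : ∀ a ∈ E, E ≤ Subgroup.centralizer ({a} : Set G) := by
    intro a ha b hb
    rw [Subgroup.mem_centralizer_iff]
    intro h hh
    rw [Set.mem_singleton_iff] at hh
    subst hh
    exact hBcomm h ha b hb
  have hNa : ∀ a ∈ E₀, a ≠ 1 → Cfsg.IsPConstrained p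
      ↥(Subgroup.normalizer ((Subgroup.zpowers a : Subgroup G) : Set G)) := by
    intro a ha ha1
    have h1 : IsPGroup p (Subgroup.zpowers a) :=
      hE₀pg.to_le (by rw [Subgroup.zpowers_le]; exact ha)
    have h2 : Subgroup.zpowers a ≠ ⊥ := by
      rw [Ne, Subgroup.zpowers_eq_bot]; exact ha1
    exact hloc _ h1 h2
  have hCN : ∀ a : G, Subgroup.centralizer ({a} : Set G) ≤
      Subgroup.normalizer ((Subgroup.zpowers a : Subgroup G) : Set G) := by
    intro a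
    apply Cfsg.Agent.S0522.le_norm_of_conj
    intro x hx y hy
    have hxa : a * x = x * a := (Subgroup.mem_centralizer_iff.mp hx) a rfl
    obtain ⟨k, rfl⟩ := Subgroup.mem_zpowers_iff.mp hy
    have hc : Commute x (a ^ k) := Commute.zpow_right (show Commute x a from hxa.symm) k
    rw [hc.eq, mul_inv_cancel_right]
    exact hy
  have hcl : p = 2 → ∀ S : Sylow p G, Cfsg.Agent.Lib.Helper5.PConInv.Cl2 (S : Subgroup G) := by
    intro hp2 S
    obtain ⟨hnil, hcls⟩ := h2 hp2 S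
    have htop : Subgroup.upperCentralSeries ↥(S : Subgroup G) 2 = ⊤ :=
      Subgroup.upperCentralSeries_eq_top_iff_nilpotencyClass_le.mpr hcls
    intro s hs t ht u hu
    have h1 : (⟨s, hs⟩ : ↥(S : Subgroup G)) ∈ Subgroup.upperCentralSeries ↥(S : Subgroup G) (1 + 1) := by
      show (⟨s, hs⟩ : ↥(S : Subgroup G)) ∈ Subgroup.upperCentralSeries ↥(S : Subgroup G) 2
      rw [htop]; trivial
    rw [Subgroup.mem_upperCentralSeries_succ_iff] at h1
    have h3 := h1 ⟨t, ht⟩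
    rw [Subgroup.upperCentralSeries_one, Subgroup.mem_center_iff] at h3
    have h4 := h3 ⟨u, hu⟩
    have h5 := congrArg Subtype.val h4
    simp only [Subgroup.coe_mul, commutatorElement_def, Subgroup.coe_inv] at h5
    exact h5.symm
  have Kgen : ∀ X : Subgroup G, Cfsg.IsPConstrained p ↥X → E ≤ X → ∀ Y : Subgroup G, Y ≤ X →
      ¬ p ∣ Nat.card Y → E ≤ Subgroup.normalizer (Y : Set G) →
      Y ≤ Cfsg.Agent.Lib.Helper11.ppc p X := by
    intro X hX hEX Y hYX hY hEY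
    by_cases hp2 : p = 2
    · exact Cfsg.Agent.Lib.Helper5.PConInv.inv_le_ppc_cl2 p hX (hcl hp2) hEX hEp
        (fun x hx _ hz => hEfull x hx hz) hYX hY hEY
    · refine Cfsg.Agent.Lib.Helper5.PConInv.inv_le_ppc_pcon p hp2 hX hEX hEc hEp
        (fun x hx _ hxo => hEfull x hx ?_) hYX hY hEY
      exact IsPGroup.of_card (n := 1) (by rw [Nat.card_zpowers, hxo, pow_one])
  obtain ⟨θ, hθdef⟩ : ∃ θ : G → Subgroup G,
      θ = fun a => Cfsg.Agent.Lib.Helper11.ppc p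
        (Subgroup.normalizer ((Subgroup.zpowers a : Subgroup G) : Set G)) ⊓
          Subgroup.centralizer ({a} : Set G) := ⟨_, rfl⟩
  have hθa : ∀ a, θ a = Cfsg.Agent.Lib.Helper11.ppc p
        (Subgroup.normalizer ((Subgroup.zpowers a : Subgroup G) : Set G)) ⊓
          Subgroup.centralizer ({a} : Set G) := fun a => by rw [hθdef]
  have hθle : ∀ a, θ a ≤ Subgroup.centralizer ({a} : Set G) := fun a => by
    rw [hθa]; exact inf_le_right
  have hθp : ∀ a, ¬ p ∣ Nat.card (θ a) := fun a => by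
    rw [hθa]
    intro hd
    exact (Nat.Prime.coprime_iff_not_dvd hp).mp (Cfsg.Agent.Lib.Helper11.ppc_coprime p _).symm
      (hd.trans (Subgroup.card_dvd_of_le inf_le_left))
  have hθN : ∀ a : G, Subgroup.centralizer ({a} : Set G) ≤
      Subgroup.normalizer ((θ a : Subgroup G) : Set G) := fun a => by
    rw [hθa]
    refine le_trans (le_inf ?_ ?_) (Cfsg.Agent.S0522.norm_inf_le _ _)
    · exact (hCN a).trans (Cfsg.Agent.Lib.Helper11.ppc_normalizer p _)
    · exact Subgroup.le_normalizer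
  have hθB : ∀ a ∈ E, E ≤ Subgroup.normalizer ((θ a : Subgroup G) : Set G) :=
    fun a ha => (hBC a ha).trans (hθN a)
  have K1 : ∀ a ∈ E₀, a ≠ 1 → ∀ Y : Subgroup G, ¬ p ∣ Nat.card Y →
      E ≤ Subgroup.normalizer (Y : Set G) →
      Y ⊓ Subgroup.centralizer ({a} : Set G) ≤ θ a := by
    intro a ha ha1 Y hY hBY
    rw [hθa]
    have hEX : E ≤ Subgroup.normalizer ((Subgroup.zpowers a : Subgroup G) : Set G) :=
      (hBC a (hE₀E ha)).trans (hCN a)
    have h1 := Kgen _ (hNa a ha ha1) hEX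
      (Y ⊓ Subgroup.normalizer ((Subgroup.zpowers a : Subgroup G) : Set G)) inf_le_right
      (fun hd => hY (hd.trans (Subgroup.card_dvd_of_le inf_le_left)))
      (le_trans (le_inf hBY (hEX.trans Subgroup.le_normalizer)) (Cfsg.Agent.S0522.norm_inf_le _ _))
    exact le_inf ((le_inf inf_le_left (inf_le_right.trans (hCN a))).trans h1) inf_le_right
  have hθ : Cfsg.IsSignalizerFunctor p E₀ θ := by
    refine ⟨fun a _ _ => hθle a, fun a _ _ => hθp a, ?_, ?_⟩
    · intro a ha ha1 b hb x hx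
      exact (Subgroup.mem_normalizer_iff.mp (hθB a (hE₀E ha) (hE₀E hb)) x).mp hx
    · intro a ha ha1 b hb hb1
      exact K1 b hb hb1 (θ a) (hθp a) (hθB a (hE₀E ha))
  have hfam : ∀ Q : Subgroup G, IsPGroup q Q → E ≤ Subgroup.normalizer (Q : Set G) →
      Q ∈ Cfsg.Agent.Lib.Helper5.SigFamNS.nfam p E₀ θ := by
    intro Q hQq hBQ
    have hQp : ¬ p ∣ Nat.card Q := by
      obtain ⟨n, hn⟩ := IsPGroup.iff_card.mp hQq
      rw [hn]
      intro hd
      exact hqp ((Nat.prime_dvd_prime_iff_eq hp hq).mp (hp.dvd_of_dvd_pow hd)).symm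
    refine ⟨hQp, ?_, ?_⟩
    · intro b hb u hu
      exact (Subgroup.mem_normalizer_iff.mp (hBQ (hE₀E hb)) u).mp hu
    · intro a ha ha1
      exact K1 a ha ha1 Q hQp hBQ
  have hmax : ∀ Q : Subgroup G, IsPGroup q Q → E ≤ Subgroup.normalizer (Q : Set G) →
      (∀ R : Subgroup G, IsPGroup q R → E ≤ Subgroup.normalizer (R : Set G) → Q ≤ R → R = Q) →
      ∀ R ∈ Cfsg.Agent.Lib.Helper5.SigFamNS.nfam p E₀ θ, IsPGroup q R → Q ≤ R → R = Q := by
    intro Q hQq hBQ hQmax R hRW hRq hQR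
    by_contra hne
    have hlt : Q < R := lt_of_le_of_ne hQR (fun h => hne h.symm)
    obtain ⟨hRp, hRE, hRθ⟩ := hRW
    obtain ⟨K, hKdef⟩ : ∃ K : Subgroup G, K = R ⊓ Subgroup.normalizer (Q : Set G) := ⟨_, rfl⟩
    have hER : E₀ ≤ Subgroup.normalizer (R : Set G) := Cfsg.Agent.S0522.le_norm_of_conj hRE
    have hEK : E₀ ≤ Subgroup.normalizer (K : Set G) := by
      rw [hKdef]
      exact le_trans (le_inf hER ((hE₀E.trans hBQ).trans Subgroup.le_normalizer))
        (Cfsg.Agent.S0522.norm_inf_le _ _)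
    have hKq : IsPGroup q K := hRq.to_le (hKdef ▸ inf_le_left)
    have hcop : (Nat.card E₀).Coprime (Nat.card K) := by
      obtain ⟨n, hn⟩ := IsPGroup.iff_card.mp hE₀pg
      obtain ⟨m, hm⟩ := IsPGroup.iff_card.mp hKq
      rw [hn, hm]
      exact Nat.Coprime.pow _ _ ((Nat.coprime_primes hp hq).mpr (Ne.symm hqp))
    have hgen := @Cfsg.Agent.S0058.result G _ _ E₀ K hE₀a hE₀nc hEK hcop
    have hex : ∃ a ∈ E₀, a ≠ 1 ∧ ∃ y ∈ K ⊓ Subgroup.centralizer ({a} : Set G), y ∉ Q := by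
      by_contra hcon
      push Not at hcon
      have hKQ : K ≤ Q := by
        rw [← hgen]
        refine iSup₂_le ?_
        intro a ha y hy
        exact hcon a ha.1 ha.2 y hy
      obtain ⟨x, hxR, hxN, hxQ⟩ := Cfsg.Agent.Lib.Helper18.exists_mem_normalizer_not_mem hRq hlt
      exact hxQ (hKQ (hKdef ▸ Subgroup.mem_inf.mpr ⟨hxR, hxN⟩))
    obtain ⟨a, ha, ha1, y, hy, hyQ⟩ := hex
    obtain ⟨hyK, hyC⟩ := Subgroup.mem_inf.mp hy
    rw [hKdef] at hyK
    obtain ⟨hyR, hyN⟩ := Subgroup.mem_inf.mp hyK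
    have hyθ : y ∈ θ a := hRθ a ha ha1 (Subgroup.mem_inf.mpr ⟨hyR, hyC⟩)
    obtain ⟨T, hTdef⟩ : ∃ T : Subgroup G, T = θ a ⊓ Subgroup.normalizer (Q : Set G) := ⟨_, rfl⟩
    have hyT : y ∈ T := hTdef ▸ Subgroup.mem_inf.mpr ⟨hyθ, hyN⟩
    have hBT : E ≤ Subgroup.normalizer (T : Set G) := by
      rw [hTdef]
      exact le_trans (le_inf (hθB a (hE₀E ha)) (hBQ.trans Subgroup.le_normalizer))
        (Cfsg.Agent.S0522.norm_inf_le _ _)
    have hTp : ¬ p ∣ Nat.card T :=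
      fun hd => hθp a (hd.trans (Subgroup.card_dvd_of_le (hTdef ▸ inf_le_left)))
    have hTN : T ≤ Subgroup.normalizer (Q : Set G) := hTdef ▸ inf_le_right
    have hcopT : (Nat.card E).Coprime (Nat.card T) := by
      obtain ⟨n, hn⟩ := IsPGroup.iff_card.mp hEp
      rw [hn]
      exact Nat.Coprime.pow_left _ ((Nat.Prime.coprime_iff_not_dvd hp).mpr hTp)
    have hBbot : E ≤ Subgroup.normalizer (((⊥ : Subgroup G) : Subgroup G) : Set G) := by
      intro b _
      rw [Subgroup.mem_normalizer_iff]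
      intro x
      simp [Subgroup.mem_bot]
    obtain ⟨S, -, hBS⟩ := Cfsg.Agent.S0025.result E T hBT hcopT (Or.inl hBsolv) q ⊥ bot_le
      IsPGroup.of_bot hBbot
    obtain ⟨S', hS'def⟩ : ∃ S' : Subgroup G, S' = (S : Subgroup T).map T.subtype := ⟨_, rfl⟩
    rw [← hS'def] at hBS
    have hS'q : IsPGroup q S' := by
      rw [hS'def]
      exact S.2.map _
    have hS'T : S' ≤ T := by rw [hS'def]; exact Subgroup.map_subtype_le _
    have hS'Q : S' ≤ Q := by
      have h1 : IsPGroup q (S' ⊔ Q : Subgroup G) :=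
        IsPGroup.to_sup_of_normal_right' hS'q hQq (hS'T.trans hTN)
      have h2 : E ≤ Subgroup.normalizer ((S' ⊔ Q : Subgroup G) : Set G) :=
        le_trans (le_inf hBS hBQ) (Cfsg.Agent.S0522.norm_sup_le _ _)
      have h3 := hQmax _ h1 h2 le_sup_right
      rw [← h3]; exact le_sup_left
    have hyq : IsPGroup q (Subgroup.zpowers (⟨y, hyT⟩ : T)) := by
      obtain ⟨k, hk⟩ := hRq ⟨y, hyR⟩
      have hk' : y ^ q ^ k = 1 := by simpa using congrArg Subtype.val hk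
      have hy' : (⟨y, hyT⟩ : T) ^ q ^ k = 1 := Subtype.ext (by simpa using hk')
      obtain ⟨m, -, hm⟩ := (Nat.dvd_prime_pow hq).mp (orderOf_dvd_of_pow_eq_one hy')
      exact IsPGroup.of_card (n := m) (by rw [Nat.card_zpowers, hm])
    obtain ⟨S₂, hS₂⟩ := hyq.exists_le_sylow
    obtain ⟨g, hg⟩ := MulAction.exists_smul_eq T S S₂
    have h1 : (⟨y, hyT⟩ : T) ∈ ((g • S : Sylow q T) : Subgroup T) := by
      rw [hg]; exact hS₂ (Subgroup.mem_zpowers _)
    rw [Sylow.coe_subgroup_smul, Subgroup.mem_pointwise_smul_iff_inv_smul_mem] at h1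
    have h2 : (g : G)⁻¹ * y * (g : G) ∈ S' := by
      rw [hS'def, Subgroup.mem_map]
      exact ⟨_, h1, by simp [MulAut.smul_def]⟩
    have h3 := hS'Q h2
    have hgN : (g : G) ∈ Subgroup.normalizer (Q : Set G) := hTN g.2
    have h4 := (Subgroup.mem_normalizer_iff.mp hgN _).mp h3
    have e : (g : G) * ((g : G)⁻¹ * y * (g : G)) * (g : G)⁻¹ = y := by group
    rw [e] at h4
    exact hyQ h4
  -- unpack the maximal invariant q-subgroups
  have hconv : ∀ Q : Subgroup G, Q ∈ Cfsg.maxInvSubgroups ⊤ E {q} →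
      IsPGroup q Q ∧ E ≤ Subgroup.normalizer (Q : Set G) ∧
      ∀ R : Subgroup G, IsPGroup q R → E ≤ Subgroup.normalizer (R : Set G) → Q ≤ R → R = Q := by
    intro Q hQ
    obtain ⟨⟨-, hQπ, hQE⟩, hQmax⟩ := hQ
    refine ⟨?_, hQE, ?_⟩
    · have h1 : Nat.card Q = q ^ (Nat.card Q).primeFactorsList.length :=
        Nat.eq_prime_pow_of_unique_prime_dvd Nat.card_pos.ne'
          (fun {d} hd hdd => Set.mem_singleton_iff.mp (hQπ d hd hdd))
      exact IsPGroup.of_card h1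
    · intro R hRq hRE hQR
      refine hQmax R ⟨le_top, ?_, hRE⟩ hQR
      intro r hr hd
      obtain ⟨n, hn⟩ := IsPGroup.iff_card.mp hRq
      rw [hn] at hd
      exact Set.mem_singleton_iff.mpr ((Nat.prime_dvd_prime_iff_eq hr hq).mp (hr.dvd_of_dvd_pow hd))
  obtain ⟨hQ₁q, hBQ₁, hQ₁max⟩ := hconv Q₁ hQ₁
  obtain ⟨hQ₂q, hBQ₂, hQ₂max⟩ := hconv Q₂ hQ₂
  obtain ⟨c₀, hc₀, hc₀e⟩ := Cfsg.Agent.Lib.Helper5.SigFamNS.ntransitivity p E₀ hE₀el hE₀3 θ hθ q
    ⟨hfam Q₁ hQ₁q hBQ₁, hQ₁q, hmax Q₁ hQ₁q hBQ₁ hQ₁max⟩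
    ⟨hfam Q₂ hQ₂q hBQ₂, hQ₂q, hmax Q₂ hQ₂q hBQ₂ hQ₂max⟩
  have hnormK : ∀ H : Subgroup G, (∀ a ∈ E₀, H ≤ Subgroup.normalizer ((θ a : Subgroup G) : Set G)) →
      H ≤ Subgroup.normalizer ((Cfsg.signalizerInf E₀ θ : Subgroup G) : Set G) := by
    intro H hH b hb
    rw [Subgroup.mem_normalizer_iff]
    intro x
    unfold Cfsg.signalizerInf
    rw [Subgroup.mem_iInf, Subgroup.mem_iInf]
    constructor
    · intro h a
      exact (Subgroup.mem_normalizer_iff.mp (hH a.1 a.2.1 hb) x).mp (h a)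
    · intro h a
      exact (Subgroup.mem_normalizer_iff.mp (hH a.1 a.2.1 hb) x).mpr (h a)
  have hBK : E ≤ Subgroup.normalizer ((Cfsg.signalizerInf E₀ θ : Subgroup G) : Set G) :=
    hnormK E (fun a ha => hθB a (hE₀E ha))
  have hCK : Subgroup.centralizer (E : Set G) ≤
      Subgroup.normalizer ((Cfsg.signalizerInf E₀ θ : Subgroup G) : Set G) :=
    hnormK _ (fun a ha => (Subgroup.centralizer_le
      (Set.singleton_subset_iff.mpr (hE₀E ha))).trans (hθN a))
  have hKle : Cfsg.signalizerInf E₀ θ ≤ θ e₀ :=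
    iInf_le (fun a : {a : G // a ∈ E₀ ∧ a ≠ 1} => θ (a : G)) ⟨e₀, he₀E, he₀1⟩
  have hcopK : (Nat.card E).Coprime (Nat.card (Cfsg.signalizerInf E₀ θ)) := by
    obtain ⟨n, hn⟩ := IsPGroup.iff_card.mp hEp
    rw [hn]
    exact Nat.Coprime.pow_left _ ((Nat.Prime.coprime_iff_not_dvd hp).mpr
      (fun hd => hθp e₀ (hd.trans (Subgroup.card_dvd_of_le hKle))))
  obtain ⟨c, hc, hce⟩ := Cfsg.Agent.Lib.Helper11.glauberman_trans E (Cfsg.signalizerInf E₀ θ) hBK
    hcopK (Or.inl hBsolv) Q₁ Q₂ hBQ₁ hBQ₂ c₀ hc₀ hc₀e.symm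
  have hN : Cfsg.signalizerInf E₀ θ ⊓ Subgroup.centralizer (E : Set G) ≤
      Cfsg.piCoreOf (Cfsg.primesNotDvd p) (Subgroup.centralizer (E : Set G)) := by
    apply Cfsg.Agent.Lib.Helper11.le_piCoreOf _ inf_le_right
    · exact le_trans (le_inf hCK Subgroup.le_normalizer) (Cfsg.Agent.S0522.norm_inf_le _ _)
    · intro r hr hd
      refine ⟨hr, fun hrp => ?_⟩
      have hrp' : r = p := (Nat.prime_dvd_prime_iff_eq hr hp).mp hrp
      rw [hrp'] at hd
      exact hθp e₀ (hd.trans ((Subgroup.card_dvd_of_le inf_le_left).trans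
        (Subgroup.card_dvd_of_le hKle)))
  exact ⟨c, hN hc, hce⟩

end Cfsg.Agent.S1480
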