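import Mathlib
import Cfsg.Statements.S1483
import Cfsg.Agent.Lib.Helper12.CNMax
import Cfsg.Agent.Lib.Helper28.SylowAux

set_option autoImplicit false
open Cfsg

namespace Cfsg.Agent.S1483

open Cfsg.Agent.Lib.Helper12


/-- Let G be a minimal simple group of odd order in which every non-identity element has nilpotent centralizer. Then any two nilpotent subgroups each contained in no larger nilpotent subgroup are either conjugate or of coprime orders; and for primes p, q, r: if some elements x, y ≠ 1 of p-power and q-power order commute, and some elements y', z ≠ 1 of q-power and r-power order commute, then some elements of p-power and r-power order, both ≠ 1, commute. -/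
theorem result {G : Type*} [Group G] [Finite G] (hG : Cfsg.IsMinSimpleOddOrder G) (hCN : Cfsg.IsCNGroup G) :
    (∀ H₁ H₂ : Subgroup G, (Group.IsNilpotent ↥H₁ ∧ ∀ L : Subgroup G, Group.IsNilpotent L → H₁ ≤ L → L = H₁) → (Group.IsNilpotent ↥H₂ ∧ ∀ L : Subgroup G, Group.IsNilpotent L → H₂ ≤ L → L = H₂) → (∃ g : G, H₂ = H₁.map (MulAut.conj g).toMonoidHom) ∨ (Nat.card H₁).Coprime (Nat.card H₂)) ∧
      ∀ (p q r : ℕ), p.Prime → q.Prime → r.Prime → ∀ (x y y' z : G), x ≠ 1 → y ≠ 1 → y' ≠ 1 → z ≠ 1 →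
        IsPGroup p (Subgroup.zpowers x) → IsPGroup q (Subgroup.zpowers y) → IsPGroup q (Subgroup.zpowers y') → IsPGroup r (Subgroup.zpowers z) →
        x * y = y * x → y' * z = z * y' →
        ∃ x' z' : G, x' ≠ 1 ∧ z' ≠ 1 ∧ IsPGroup p (Subgroup.zpowers x') ∧ IsPGroup r (Subgroup.zpowers z') ∧ x' * z' = z' * x' := by
  classical
  have hA : ∀ H₁ H₂ : Subgroup G,
      (Group.IsNilpotent ↥H₁ ∧ ∀ L : Subgroup G, Group.IsNilpotent L → H₁ ≤ L → L = H₁) →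
      (Group.IsNilpotent ↥H₂ ∧ ∀ L : Subgroup G, Group.IsNilpotent L → H₂ ≤ L → L = H₂) →
      (∃ g : G, H₂ = H₁.map (MulAut.conj g).toMonoidHom) ∨
        (Nat.card H₁).Coprime (Nat.card H₂) := by
    rintro H₁ H₂ ⟨hH₁, hmax₁⟩ ⟨hH₂, hmax₂⟩
    by_cases hcop : (Nat.card H₁).Coprime (Nat.card H₂)
    · exact Or.inr hcop
    left
    obtain ⟨p, hp, hp1, hp2⟩ : ∃ p, p.Prime ∧ p ∣ Nat.card H₁ ∧ p ∣ Nat.card H₂ := by
      by_contra hcon
      push Not at hcon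
      exact hcop (Nat.coprime_of_dvd (fun k hk h1 h2 => hcon k hk h1 h2))
    haveI := Fact.mk hp
    have hP₁ := sylP_ne_bot hH₁ p hp1
    have hP₂ := sylP_ne_bot hH₂ p hp2
    obtain ⟨S₁, hS₁⟩ := (sylP_isPGroup H₁ p).exists_le_sylow
    obtain ⟨S₂, hS₂⟩ := (sylP_isPGroup H₂ p).exists_le_sylow
    have hS₁' := cn_lemK hCN hH₁ hmax₁ p hP₁ S₁ S₁.isPGroup' hS₁
    have hS₂' := cn_lemK hCN hH₂ hmax₂ p hP₂ S₂ S₂.isPGroup' hS₂
    obtain ⟨g, hg⟩ := MulAction.exists_smul_eq G S₁ S₂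
    refine ⟨g, ?_⟩
    obtain ⟨z, hz, hz1, -, hzc⟩ := exists_central_fixed p (sylP H₂ p) (sylP_isPGroup H₂ p) hP₂ 1
      ⟨0, by simp⟩ (by intro w hw; simpa using hw)
    have hc2 := cn_cent_eq hCN hH₂ hmax₂ p hz hz1 hzc
    have hconj1 : ∀ w ∈ sylP H₂ p, g⁻¹ * w * g ∈ sylP H₁ p := by
      intro w hw
      apply hS₁'
      have h1 := Cfsg.Agent.Lib.Helper28.conj_mem_smul_sylow S₂ g⁻¹ w (hS₂ hw)
      rw [← hg, inv_smul_smul, inv_inv] at h1
      exact h1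
    have hconj2 : ∀ w ∈ sylP H₁ p, g * w * g⁻¹ ∈ sylP H₂ p := by
      intro w hw
      apply hS₂'
      have h1 := Cfsg.Agent.Lib.Helper28.conj_mem_smul_sylow S₁ g w (hS₁ hw)
      rw [hg] at h1
      exact h1
    have hz₁ : g⁻¹ * z * g ∈ sylP H₁ p := hconj1 z hz
    have hz₁1 : g⁻¹ * z * g ≠ 1 := by
      intro h
      apply hz1
      calc z = g * (g⁻¹ * z * g) * g⁻¹ := by group
        _ = 1 := by rw [h]; group
    have hz₁c : ∀ w ∈ sylP H₁ p, w * (g⁻¹ * z * g) = (g⁻¹ * z * g) * w := by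
      intro w hw
      have h1 := hzc (g * w * g⁻¹) (hconj2 w hw)
      calc w * (g⁻¹ * z * g) = g⁻¹ * ((g * w * g⁻¹) * z) * g := by group
        _ = g⁻¹ * (z * (g * w * g⁻¹)) * g := by rw [h1]
        _ = (g⁻¹ * z * g) * w := by group
    have hc1 := cn_cent_eq hCN hH₁ hmax₁ p hz₁ hz₁1 hz₁c
    ext c
    rw [Subgroup.mem_map]
    constructor
    · intro hcH
      refine ⟨g⁻¹ * c * g, ?_, ?_⟩
      · rw [← hc1, Subgroup.mem_centralizer_singleton_iff]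
        have h2 : c * z = z * c := by
          have : c ∈ Subgroup.centralizer ({z} : Set G) := by rw [hc2]; exact hcH
          exact Subgroup.mem_centralizer_singleton_iff.mp this
        calc g⁻¹ * c * g * (g⁻¹ * z * g) = g⁻¹ * (c * z) * g := by group
          _ = g⁻¹ * (z * c) * g := by rw [h2]
          _ = g⁻¹ * z * g * (g⁻¹ * c * g) := by group
      · change g * (g⁻¹ * c * g) * g⁻¹ = c
        group
    · rintro ⟨d, hd, rfl⟩
      rw [← hc2, Subgroup.mem_centralizer_singleton_iff]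
      have h2 : d * (g⁻¹ * z * g) = (g⁻¹ * z * g) * d := by
        have : d ∈ Subgroup.centralizer ({g⁻¹ * z * g} : Set G) := by rw [hc1]; exact hd
        exact Subgroup.mem_centralizer_singleton_iff.mp this
      change g * d * g⁻¹ * z = z * (g * d * g⁻¹)
      calc g * d * g⁻¹ * z = g * (d * (g⁻¹ * z * g)) * g⁻¹ := by group
        _ = g * ((g⁻¹ * z * g) * d) * g⁻¹ := by rw [h2]
        _ = z * (g * d * g⁻¹) := by group
  refine ⟨hA, ?_⟩
  intro p q r hp hq hr x y y' z hx1 hy1 hy'1 hz1 hxp hyq hy'q hzr hxy hy'z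
  by_cases hpr : p = r
  · subst hpr
    exact ⟨x, x, hx1, hx1, hxp, hxp, rfl⟩
  have hex : ∀ C : Subgroup G, Group.IsNilpotent C → ∃ H : Subgroup G, C ≤ H ∧
      Group.IsNilpotent H ∧ ∀ L : Subgroup G, Group.IsNilpotent L → H ≤ L → L = H := by
    intro C hC
    haveI : Nonempty {L : Subgroup G // Group.IsNilpotent L ∧ C ≤ L} := ⟨⟨C, hC, le_rfl⟩⟩
    obtain ⟨⟨H, hHn, hCH⟩, hmax⟩ := Finite.exists_max
      (fun L : {L : Subgroup G // Group.IsNilpotent L ∧ C ≤ L} => Nat.card L.1)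
    refine ⟨H, hCH, hHn, ?_⟩
    intro L hL hHL
    exact (Subgroup.eq_of_le_of_card_ge hHL (hmax ⟨L, hL, hCH.trans hHL⟩)).symm
  obtain ⟨H₁, hC₁, hH₁, hmax₁⟩ := hex _ (hCN y hy1)
  obtain ⟨H₂, hC₂, hH₂, hmax₂⟩ := hex _ (hCN y' hy'1)
  have hxH₁ : x ∈ H₁ := hC₁ (Subgroup.mem_centralizer_singleton_iff.mpr hxy)
  have hyH₁ : y ∈ H₁ := hC₁ (Subgroup.mem_centralizer_singleton_iff.mpr rfl)
  have hy'H₂ : y' ∈ H₂ := hC₂ (Subgroup.mem_centralizer_singleton_iff.mpr rfl)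
  have hzH₂ : z ∈ H₂ := hC₂ (Subgroup.mem_centralizer_singleton_iff.mpr hy'z.symm)
  have hqdvd : ∀ (H : Subgroup G) (w : G), w ∈ H → w ≠ 1 → IsPGroup q (Subgroup.zpowers w) →
      q ∣ Nat.card H := by
    intro H w hw hw1 hwq
    obtain ⟨k, hk⟩ := hwq ⟨w, Subgroup.mem_zpowers w⟩
    have hk' : w ^ q ^ k = 1 := congrArg Subtype.val hk
    obtain ⟨j, -, hj⟩ := (Nat.dvd_prime_pow hq).mp (orderOf_dvd_of_pow_eq_one hk')
    have hj0 : j ≠ 0 := by
      rintro rfl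
      rw [pow_zero, orderOf_eq_one_iff] at hj
      exact hw1 hj
    have h1 : orderOf w ∣ Nat.card H := by
      have := orderOf_dvd_natCard (⟨w, hw⟩ : ↥H)
      rwa [Subgroup.orderOf_mk] at this
    exact (dvd_pow_self q hj0).trans (hj ▸ h1)
  have hncop : ¬ (Nat.card H₁).Coprime (Nat.card H₂) := by
    intro hc
    exact hq.one_lt.ne' (Nat.eq_one_of_dvd_coprimes hc (hqdvd H₁ y hyH₁ hy1 hyq)
      (hqdvd H₂ y' hy'H₂ hy'1 hy'q))
  rcases hA H₁ H₂ ⟨hH₁, hmax₁⟩ ⟨hH₂, hmax₂⟩ with ⟨g, hg⟩ | hc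
  · have hx' : g * x * g⁻¹ ∈ H₂ := by
      rw [hg]
      exact ⟨x, hxH₁, rfl⟩
    have hxk : ∃ k : ℕ, x ^ p ^ k = 1 := by
      obtain ⟨k, hk⟩ := hxp ⟨x, Subgroup.mem_zpowers x⟩
      exact ⟨k, congrArg Subtype.val hk⟩
    have hx'k : ∃ k : ℕ, (g * x * g⁻¹) ^ p ^ k = 1 := by
      obtain ⟨k, hk⟩ := hxk
      exact ⟨k, by rw [conj_pow, hk, mul_one, mul_inv_cancel]⟩
    have hzk : ∃ k : ℕ, z ^ r ^ k = 1 := by
      obtain ⟨k, hk⟩ := hzr ⟨z, Subgroup.mem_zpowers z⟩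
      exact ⟨k, congrArg Subtype.val hk⟩
    refine ⟨g * x * g⁻¹, z, ?_, hz1, isPGroup_zpowers_of_pow hp _ hx'k, hzr,
      nilp_comm_sub hH₂ hp hr hpr _ _ hx' hzH₂ hx'k hzk⟩
    intro h
    apply hx1
    calc x = g⁻¹ * (g * x * g⁻¹) * g := by group
      _ = 1 := by rw [h]; group
  · exact absurd hc hncop

end Cfsg.Agent.S1483
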