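import Mathlib
import Cfsg.Statements.S1485

set_option autoImplicit false
open Cfsg

namespace Cfsg.Agent.S1485

theorem ext_mem {G : Type*} [Group G] (H : Subgroup G) (θ : H → ℂ) {g : G} (hg : g ∈ H) :
    Cfsg.extendByZero H θ g = θ ⟨g, hg⟩ := by
  unfold Cfsg.extendByZero
  exact Subtype.val_injective.extend_apply θ 0 ⟨g, hg⟩

/-- Let H be a normal subgroup of the finite group G and θ an irreducible character of H. On H, the function induced from θ equals r times the sum of the distinct G-conjugates of θ, where r is the number of elements of G fixing θ under conjugation divided by the order of H (the index of H in the inertia group). -/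
theorem result {G : Type*} [Group G] [Fintype G] (H : Subgroup G) [hN : H.Normal] (θ : H → ℂ) (hθ : Cfsg.IsIrrCharacter H θ) : (fun h : H => Cfsg.indFun H θ h) = ((Nat.card {g : G // ∀ h : H, θ ⟨g * h * g⁻¹, hN.conj_mem h h.2 g⟩ = θ h} : ℂ) / (Nat.card H : ℂ)) • ∑ᶠ ψ ∈ {ψ : H → ℂ | ∃ g : G, ψ = fun h : H => θ ⟨g * h * g⁻¹, hN.conj_mem h h.2 g⟩}, ψ := by
  classical
  set F : G → (H → ℂ) := fun g => fun h : H => θ ⟨g * h * g⁻¹, hN.conj_mem h h.2 g⟩ with hF
  have hS : {ψ : H → ℂ | ∃ g : G, ψ = fun h : H => θ ⟨g * h * g⁻¹, hN.conj_mem h h.2 g⟩}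
      = ((Finset.univ.image F : Finset (H → ℂ)) : Set (H → ℂ)) := by
    ext ψ
    simp only [Set.mem_setOf_eq, Finset.coe_image, Finset.coe_univ, Set.image_univ, Set.mem_range]
    constructor
    · rintro ⟨g, rfl⟩; exact ⟨g, rfl⟩
    · rintro ⟨g, rfl⟩; exact ⟨g, rfl⟩
  rw [hS, finsum_mem_coe_finset]
  have hfib : ∀ ψ ∈ Finset.univ.image F, (Finset.univ.filter (fun g => F g = ψ)).card
      = Nat.card {g : G // ∀ h : H, θ ⟨g * h * g⁻¹, hN.conj_mem h h.2 g⟩ = θ h} := by
    intro ψ hψ
    obtain ⟨g₀, -, rfl⟩ := Finset.mem_image.1 hψ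
    rw [Nat.card_eq_fintype_card, Fintype.card_subtype]
    apply Finset.card_bij (fun g _ => g * g₀⁻¹)
    · intro g hg
      simp only [Finset.mem_filter, Finset.mem_univ, true_and] at hg ⊢
      intro h
      have h1 := congrFun hg ⟨g₀⁻¹ * h * g₀, by
        have := hN.conj_mem h h.2 g₀⁻¹
        simpa using this⟩
      simp only [hF] at h1
      have e1 : (⟨g * g₀⁻¹ * ↑h * (g * g₀⁻¹)⁻¹, hN.conj_mem h h.2 (g * g₀⁻¹)⟩ : H)
          = ⟨g * (g₀⁻¹ * h * g₀) * g⁻¹, hN.conj_mem _ (by
              have := hN.conj_mem h h.2 g₀⁻¹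
              simpa using this) g⟩ := by
        apply Subtype.ext
        simp only [mul_inv_rev, inv_inv]
        group
      have e2 : (⟨g₀ * (g₀⁻¹ * h * g₀) * g₀⁻¹, hN.conj_mem _ (by
              have := hN.conj_mem h h.2 g₀⁻¹
              simpa using this) g₀⟩ : H) = h := by
        apply Subtype.ext
        simp only
        group
      rw [e1, h1, e2]
    · intro a _ b _ hab; exact mul_right_cancel hab
    · intro t ht
      simp only [Finset.mem_filter, Finset.mem_univ, true_and] at ht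
      refine ⟨t * g₀, ?_, by group⟩
      simp only [Finset.mem_filter, Finset.mem_univ, true_and]
      funext h
      simp only [hF]
      have h1 := ht ⟨g₀ * h * g₀⁻¹, hN.conj_mem h h.2 g₀⟩
      rw [← h1]
      congr 1
      apply Subtype.ext
      simp only [mul_inv_rev]
      group
  have hsum : ∑ g : G, F g = ∑ ψ ∈ Finset.univ.image F,
      (Nat.card {g : G // ∀ h : H, θ ⟨g * h * g⁻¹, hN.conj_mem h h.2 g⟩ = θ h}) • ψ := by
    rw [Finset.sum_comp (fun ψ => ψ) F]
    exact Finset.sum_congr rfl (fun ψ hψ => by rw [hfib ψ hψ])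
  funext h
  have hL : Cfsg.indFun H θ h = (Nat.card H : ℂ)⁻¹ * (∑ g : G, F g) h := by
    unfold Cfsg.indFun
    congr 1
    rw [Finset.sum_apply]
    apply Fintype.sum_equiv (Equiv.inv G)
    intro x
    simp only [Equiv.inv_apply, hF]
    have hm : x⁻¹ * (h : G) * x ∈ H := by
      have := hN.conj_mem h h.2 x⁻¹
      simpa using this
    rw [ext_mem H θ hm]
    congr 1
    apply Subtype.ext
    simp
  rw [hL, hsum, ← Finset.smul_sum]
  simp only [Pi.smul_apply, smul_eq_mul, nsmul_eq_mul]
  ring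

end Cfsg.Agent.S1485
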