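import Mathlib
import Cfsg.Statements.S1486
import Cfsg.Agent.Lib.Helper2.CharMore

set_option autoImplicit false
open Cfsg
open Cfsg.Agent.Lib.Helper2

namespace Cfsg.Agent.S1486

/-- conjugation endomorphism of a normal subgroup -/
def conjHom {G : Type*} [Group G] (H : Subgroup G) [hN : H.Normal] (g : G) : H →* H where
  toFun h := ⟨g * h * g⁻¹, hN.conj_mem h h.2 g⟩
  map_one' := by ext; simp
  map_mul' a b := by ext; simp

theorem conjHom_bijective {G : Type*} [Group G] [Finite G] (H : Subgroup G) [hN : H.Normal]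
    (g : G) : Function.Bijective (conjHom H g) := by
  rw [← Finite.injective_iff_bijective]
  intro a b hab
  have := congrArg Subtype.val hab
  simp only [conjHom, MonoidHom.coe_mk, OneHom.coe_mk] at this
  apply Subtype.ext
  simpa using this

theorem conj_irr {G : Type*} [Group G] [Fintype G] (H : Subgroup G) [hN : H.Normal] [Fintype H]
    (θ : H → ℂ) (hθ : Cfsg.IsIrrCharacter H θ) (g : G) :
    Cfsg.IsIrrCharacter H (fun h : H => θ ⟨g * h * g⁻¹, hN.conj_mem h h.2 g⟩) := by
  classical
  apply isIrrCharacter_of_norm_one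
  · obtain ⟨n, ρ, hρ, rfl⟩ := hθ
    exact ⟨n, ρ.comp (conjHom H g), rfl⟩
  · have h1 := classInner_irr_self hθ
    rw [classInner_def] at h1 ⊢
    rw [← h1]
    congr 1
    exact (conjHom_bijective H g).sum_comp (fun h => θ h * (starRingEnd ℂ) (θ h))

theorem ind_restrict {G : Type*} [Group G] [Fintype G] (H : Subgroup G) [hN : H.Normal]
    (θ : H → ℂ) :
    (fun h : H => Cfsg.indFun H θ h)
      = ∑ g : G, (Nat.card H : ℂ)⁻¹ • (fun h : H => θ ⟨g * h * g⁻¹, hN.conj_mem h h.2 g⟩) := by
  funext h
  rw [indFun_apply, Finset.sum_apply]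
  simp only [Pi.smul_apply, smul_eq_mul]
  rw [← Finset.mul_sum]
  congr 1
  apply Fintype.sum_equiv (Equiv.inv G)
  intro x
  simp only [Equiv.inv_apply]
  have hm : x⁻¹ * (h : G) * x ∈ H := by
    have := hN.conj_mem h h.2 x⁻¹
    simpa using this
  rw [extendByZero_of_mem H θ hm]
  congr 1
  apply Subtype.ext
  simp

/-- Let H be a normal subgroup of the finite group G and θ, φ irreducible characters of H. If φ is a G-conjugate of θ then the functions induced from θ and φ coincide; if φ is not a G-conjugate of θ then the induced functions are orthogonal. -/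
theorem result {G : Type*} [Group G] [Fintype G] (H : Subgroup G) [hN : H.Normal] (θ φ : H → ℂ) (hθ : Cfsg.IsIrrCharacter H θ) (hφ : Cfsg.IsIrrCharacter H φ) : ((∃ g : G, φ = fun h : H => θ ⟨g * h * g⁻¹, hN.conj_mem h h.2 g⟩) → Cfsg.indFun H φ = Cfsg.indFun H θ) ∧ ((¬ ∃ g : G, φ = fun h : H => θ ⟨g * h * g⁻¹, hN.conj_mem h h.2 g⟩) → Cfsg.classInner (Cfsg.indFun H φ) (Cfsg.indFun H θ) = 0) := by
  classical
  refine ⟨?_, ?_⟩
  · rintro ⟨g, rfl⟩
    funext y
    rw [indFun_apply, indFun_apply]
    congr 1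
    have hext : ∀ z : G, Cfsg.extendByZero H (fun h : H => θ ⟨g * h * g⁻¹, hN.conj_mem h h.2 g⟩) z
        = Cfsg.extendByZero H θ (g * z * g⁻¹) := by
      intro z
      by_cases hz : z ∈ H
      · rw [extendByZero_of_mem H _ hz, extendByZero_of_mem H θ (hN.conj_mem z hz g)]
      · rw [extendByZero_of_not_mem H _ hz, extendByZero_of_not_mem H θ]
        intro hz'
        apply hz
        have := hN.conj_mem _ hz' g⁻¹
        simpa [mul_assoc] using this
    simp only [hext]
    apply Fintype.sum_equiv (Equiv.mulRight g⁻¹)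
    intro x
    simp only [Equiv.coe_mulRight]
    congr 1
    group
  · intro hne
    rw [frobenius_reciprocity H φ (Cfsg.indFun H θ) (indFun_isClassFunction H θ)]
    rw [ind_restrict H θ, classInner_sum_right]
    apply Finset.sum_eq_zero
    intro g _
    rw [classInner_smul_right]
    rw [classInner_irr_ne hφ (conj_irr H θ hθ g) (fun h => hne ⟨g, h⟩), mul_zero]

end Cfsg.Agent.S1486
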