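import Mathlib
import Cfsg.Statements.S1487
import Cfsg.Agent.Lib.Helper2.CharMore

set_option autoImplicit false
open Cfsg
open Cfsg.Agent.Lib.Helper2

namespace Cfsg.Agent.S1487

theorem eq_of_re_eq_of_norm_le (z : ℂ) (n : ℝ) (h1 : z.re = n) (h2 : ‖z‖ ≤ n) : z = (n : ℂ) := by
  have hn : 0 ≤ n := le_trans (norm_nonneg z) h2
  have h3 : ‖z‖ ^ 2 ≤ n ^ 2 := by
    apply pow_le_pow_left₀ (norm_nonneg z) h2
  rw [Complex.sq_norm, Complex.normSq_apply, h1] at h3
  have h4 : z.im = 0 := by nlinarith
  apply Complex.ext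
  · simpa using h1
  · simpa using h4

/-- Let A ≤ H be normal subgroups of the finite group G and θ an irreducible character of H. Then θ takes the value θ 1 on all of A if and only if the function induced from θ to G takes its value at 1 on all of A. -/
theorem result {G : Type*} [Group G] [Fintype G] (A H : Subgroup G) [A.Normal] [H.Normal] (hAH : A ≤ H) (θ : H → ℂ) (hθ : Cfsg.IsIrrCharacter H θ) : (∀ a : H, (a : G) ∈ A → θ a = θ 1) ↔ (∀ a : G, a ∈ A → Cfsg.indFun H θ a = Cfsg.indFun H θ 1) := by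
  classical
  obtain ⟨n, ρ, hρ, rfl⟩ := hθ
  have h1 : ρ.character 1 = (n : ℂ) := by rw [Representation.char_one]; simp
  have hle : ∀ h : H, ‖ρ.character h‖ ≤ (n : ℝ) := by
    intro h; have := norm_char_le ρ h; simpa using this
  have hconj : ∀ (a : G), a ∈ A → ∀ x : G, x⁻¹ * a * x ∈ A := by
    intro a ha x
    have := ‹A.Normal›.conj_mem a ha x⁻¹
    simpa using this
  have hone : ∀ x : G, Cfsg.extendByZero H ρ.character (x⁻¹ * 1 * x) = ρ.character 1 := by
    intro x
    have h1' : x⁻¹ * 1 * x = ((1 : H) : G) := by simp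
    rw [h1', extendByZero_coe]
  constructor
  · intro hA a ha
    rw [indFun_apply, indFun_apply]
    congr 1
    apply Finset.sum_congr rfl
    intro x _
    have hm := hconj a ha x
    rw [extendByZero_of_mem H _ (hAH hm), hone]
    exact hA ⟨_, hAH hm⟩ hm
  · intro hA a ha
    have key := hA a ha
    rw [indFun_apply, indFun_apply] at key
    have hH : (Nat.card H : ℂ)⁻¹ ≠ 0 := inv_ne_zero (card_ne_zero_complex H)
    have key2 := mul_left_cancel₀ hH key
    simp only [hone, h1] at key2
    have e1 : ∀ x : G, Cfsg.extendByZero H ρ.character (x⁻¹ * (a : G) * x)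
        = ρ.character (⟨x⁻¹ * (a : G) * x, hAH (hconj a ha x)⟩ : H) := by
      intro x
      rw [extendByZero_of_mem H _ (hAH (hconj a ha x))]
    simp only [e1] at key2
    have key3 : ∑ x : G, ((n : ℝ) - (ρ.character (⟨x⁻¹ * (a : G) * x, hAH (hconj a ha x)⟩ : H)).re) = 0 := by
      rw [Finset.sum_sub_distrib]
      have := congrArg Complex.re key2
      rw [Complex.re_sum, Complex.re_sum] at this
      rw [this]
      simp
    have hnn : ∀ x ∈ (Finset.univ : Finset G), 0 ≤ ((n : ℝ) - (ρ.character (⟨x⁻¹ * (a : G) * x, hAH (hconj a ha x)⟩ : H)).re) := by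
      intro x _
      have := hle ⟨x⁻¹ * (a : G) * x, hAH (hconj a ha x)⟩
      have h2 := Complex.re_le_norm (ρ.character (⟨x⁻¹ * (a : G) * x, hAH (hconj a ha x)⟩ : H))
      linarith
    have hz := (Finset.sum_eq_zero_iff_of_nonneg hnn).1 key3 1 (Finset.mem_univ _)
    have e2 : (⟨(1 : G)⁻¹ * (a : G) * 1, hAH (hconj a ha 1)⟩ : H) = a := by
      apply Subtype.ext; simp
    rw [e2] at hz
    rw [h1]
    have := eq_of_re_eq_of_norm_le (ρ.character a) n (by linarith) (hle a)
    simpa using this

end Cfsg.Agent.S1487
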