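import Mathlib
import Cfsg.Statements.S1488

set_option autoImplicit false
open Cfsg

namespace Cfsg.Agent.S1488

theorem ext_mem {G : Type*} [Group G] (H : Subgroup G) (θ : H → ℂ) {g : G} (hg : g ∈ H) :
    Cfsg.extendByZero H θ g = θ ⟨g, hg⟩ := by
  unfold Cfsg.extendByZero
  exact Subtype.val_injective.extend_apply θ 0 ⟨g, hg⟩

theorem ext_not_mem {G : Type*} [Group G] (H : Subgroup G) (θ : H → ℂ) {g : G} (hg : g ∉ H) :
    Cfsg.extendByZero H θ g = 0 := by
  unfold Cfsg.extendByZero
  rw [Function.extend_apply']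
  · rfl
  · rintro ⟨h, rfl⟩
    exact hg h.2

/-- Let A be a normal subgroup of the finite group G contained in the subgroup H, let θ be a function on H and θ₁ a function on the image of H in G ⧸ A whose composite with the projection is θ. Then the function induced from θ₁ to G ⧸ A, composed with the projection G → G ⧸ A, equals the function induced from θ to G. -/
theorem result {G : Type*} [Group G] [Fintype G] (A H : Subgroup G) [A.Normal] (hAH : A ≤ H) [Fintype (G ⧸ A)] [Fintype ↥(H.map (QuotientGroup.mk' A))] (θ : H → ℂ) (θ₁ : ↥(H.map (QuotientGroup.mk' A)) → ℂ) (hθ : ∀ x : H, θ₁ ⟨QuotientGroup.mk' A x, Subgroup.mem_map_of_mem _ x.2⟩ = θ x) (g : G) : Cfsg.indFun (H.map (QuotientGroup.mk' A)) θ₁ (QuotientGroup.mk' A g) = Cfsg.indFun H θ g := by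
  classical
  have hmem : ∀ x : G, (QuotientGroup.mk' A x ∈ H.map (QuotientGroup.mk' A)) ↔ x ∈ H := by
    intro x
    constructor
    · rintro ⟨h, hh, hx⟩
      have h1 : h⁻¹ * x ∈ A := by
        rw [← QuotientGroup.eq]; exact hx
      have := H.mul_mem hh (hAH h1)
      simpa using this
    · intro hx; exact Subgroup.mem_map_of_mem _ hx
  have hext : ∀ x : G, Cfsg.extendByZero (H.map (QuotientGroup.mk' A)) θ₁ (QuotientGroup.mk' A x)
      = Cfsg.extendByZero H θ x := by
    intro x
    by_cases hx : x ∈ H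
    · rw [ext_mem _ _ hx, ext_mem _ _ (Subgroup.mem_map_of_mem _ hx)]
      exact hθ ⟨x, hx⟩
    · rw [ext_not_mem _ _ hx, ext_not_mem _ _ (fun h => hx ((hmem x).1 h))]
  have hfib : ∀ y : G ⧸ A, (Finset.univ.filter (fun x : G => QuotientGroup.mk' A x = y)).card
      = Nat.card A := by
    intro y
    obtain ⟨g₀, rfl⟩ := QuotientGroup.mk'_surjective A y
    rw [Nat.card_eq_fintype_card, ← Finset.card_univ]
    symm
    apply Finset.card_bij (fun (a : A) _ => g₀ * (a : G))
    · intro a _
      simp only [Finset.mem_filter, Finset.mem_univ, true_and]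
      rw [eq_comm]
      show ((g₀ : G) : G ⧸ A) = ((g₀ * a : G) : G ⧸ A)
      rw [QuotientGroup.eq]
      simp
    · intro a _ b _ hab
      exact Subtype.ext (mul_left_cancel hab)
    · intro x hx
      simp only [Finset.mem_filter, Finset.mem_univ, true_and] at hx
      have h1 : g₀⁻¹ * x ∈ A := by
        rw [← QuotientGroup.eq]; exact hx.symm
      exact ⟨⟨g₀⁻¹ * x, h1⟩, Finset.mem_univ _, by simp⟩
  have hsum : ∑ x : G, Cfsg.extendByZero H θ (x⁻¹ * g * x)
      = (Nat.card A : ℂ) * ∑ y : G ⧸ A,
        Cfsg.extendByZero (H.map (QuotientGroup.mk' A)) θ₁ (y⁻¹ * QuotientGroup.mk' A g * y) := by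
    have h1 : ∀ x : G, Cfsg.extendByZero H θ (x⁻¹ * g * x)
        = (fun y : G ⧸ A => Cfsg.extendByZero (H.map (QuotientGroup.mk' A)) θ₁
            (y⁻¹ * QuotientGroup.mk' A g * y)) (QuotientGroup.mk' A x) := by
      intro x
      rw [← hext]
      simp
    simp only [h1]
    rw [Finset.sum_comp (fun y : G ⧸ A => Cfsg.extendByZero (H.map (QuotientGroup.mk' A)) θ₁
            (y⁻¹ * QuotientGroup.mk' A g * y)) (QuotientGroup.mk' A)]
    rw [Finset.image_univ_of_surjective (QuotientGroup.mk'_surjective A), Finset.mul_sum]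
    apply Finset.sum_congr rfl
    intro y _
    rw [hfib y, nsmul_eq_mul]
  have hcard : Nat.card (H.map (QuotientGroup.mk' A)) * Nat.card A = Nat.card H := by
    have h1 : (H.map (QuotientGroup.mk' A)).index = H.index := by
      apply Subgroup.index_map_eq _ (QuotientGroup.mk'_surjective A)
      rw [QuotientGroup.ker_mk']; exact hAH
    have h2 := Subgroup.card_mul_index (H.map (QuotientGroup.mk' A))
    have h3 := Subgroup.card_mul_index H
    have h4 := Subgroup.card_eq_card_quotient_mul_card_subgroup A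
    have hpos : 0 < H.index := Nat.pos_of_ne_zero (Subgroup.index_ne_zero_of_finite)
    rw [h1] at h2
    have : Nat.card (H.map (QuotientGroup.mk' A)) * Nat.card A * H.index = Nat.card H * H.index := by
      rw [h3, h4, ← h2]; ring
    exact Nat.eq_of_mul_eq_mul_right hpos this
  unfold Cfsg.indFun
  rw [hsum, ← hcard]
  have hA : (Nat.card A : ℂ) ≠ 0 := by
    exact_mod_cast (Nat.card_pos (α := A)).ne'
  have hM : (Nat.card (H.map (QuotientGroup.mk' A)) : ℂ) ≠ 0 := by
    exact_mod_cast (Nat.card_pos (α := (H.map (QuotientGroup.mk' A)))).ne'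
  push_cast
  field_simp

end Cfsg.Agent.S1488
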