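import Mathlib
import Cfsg.Statements.S1491
import Cfsg.Agent.S1490
import Cfsg.Agent.Lib.Helper12.CharCoprime

set_option autoImplicit false
open Cfsg

namespace Cfsg.Agent.S1491

open Cfsg.Agent.Lib.Helper2 Cfsg.Agent.Lib.Helper12
open scoped ComplexConjugate


/-- Let H be a normal subgroup of the finite group G and θ an irreducible character of H with inertia group T, where T/H is abelian (commutators of T lie in H) and the index of H in T is coprime to the order of H. Then the function induced from θ is the sum of a set of exactly [T:H] irreducible characters of G, each of degree [G:T] * θ(1). -/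
theorem result {G : Type*} [Group G] [Fintype G] (H T : Subgroup G) [hN : H.Normal] (θ : H → ℂ) (hθ : Cfsg.IsIrrCharacter H θ) (hT : ∀ g : G, g ∈ T ↔ ∀ h : H, θ ⟨g * h * g⁻¹, hN.conj_mem h h.2 g⟩ = θ h) (hab : ∀ x ∈ T, ∀ y ∈ T, x * y * x⁻¹ * y⁻¹ ∈ H) (hcop : Nat.Coprime (Nat.card H) (H.relIndex T)) : ∃ C : Finset (G → ℂ), (∀ χ ∈ C, Cfsg.IsIrrCharacter G χ) ∧ C.card = H.relIndex T ∧ Cfsg.indFun H θ = ∑ χ ∈ C, χ ∧ ∀ χ ∈ C, χ 1 = (T.index : ℂ) * θ 1 := by
  classical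
  have := Fintype.ofFinite T
  have := Fintype.ofFinite H
  have hθcl := isClassFunction_of_isIrrCharacter hθ
  have hHT : H ≤ T := by
    intro g hg
    rw [hT]
    intro h
    exact hθcl h ⟨g, hg⟩
  have := Fintype.ofFinite (H.subgroupOf T)
  have hθ'irr : Cfsg.IsIrrCharacter (H.subgroupOf T)
      (fun x => θ ⟨(x : T), Subgroup.mem_subgroupOf.mp x.2⟩) :=
    S1489.isIrrCharacter_comp_iso hθ (Subgroup.subgroupOfEquivOfLe hHT)
  have hinv : ∀ t : T, Lib.Helper2.conjFun (H.subgroupOf T)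
      (fun x => θ ⟨(x : T), Subgroup.mem_subgroupOf.mp x.2⟩) t
        = (fun x : H.subgroupOf T => θ ⟨(x : T), Subgroup.mem_subgroupOf.mp x.2⟩) := by
    intro t
    funext n
    rw [conjFun_apply]
    exact (hT t).mp t.2 ⟨((n : T) : G), Subgroup.mem_subgroupOf.mp n.2⟩
  have hab' : ∀ x y : T, x * y * x⁻¹ * y⁻¹ ∈ H.subgroupOf T := by
    intro x y
    exact Subgroup.mem_subgroupOf.mpr (hab x x.2 y y.2)
  obtain ⟨e, C₀, he0, hC₀irr, hcard, hind, hdeg, hcons⟩ :=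
    S1490.abelian_quotient (H.subgroupOf T) _ hθ'irr hinv hab'
  have hcop' : Nat.Coprime (Nat.card (H.subgroupOf T)) (H.subgroupOf T).index := by
    have h1 : Nat.card (H.subgroupOf T) = Nat.card H :=
      Nat.card_congr (Subgroup.subgroupOfEquivOfLe hHT).toEquiv
    rw [h1]
    exact hcop
  have he1 : e = 1 :=
    Cfsg.Agent.Lib.Helper12.ramification_eq_one (H.subgroupOf T) _ hθ'irr e C₀ hC₀irr hcard hind
      hcop'
  subst he1
  have hclif := fun ψ hψ ψ' hψ' => S1489.result H T θ hθ hT hHT ψ ψ' (hC₀irr ψ hψ)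
    (hC₀irr ψ' hψ') (hcons ψ hψ) (hcons ψ' hψ')
  have hinj : ∀ ψ ∈ C₀, ∀ ψ' ∈ C₀, Cfsg.indFun T ψ = Cfsg.indFun T ψ' → ψ = ψ' := by
    intro ψ hψ ψ' hψ' heq
    exact (hclif ψ hψ ψ' hψ').2 heq
  refine ⟨C₀.image (Cfsg.indFun T), ?_, ?_, ?_, ?_⟩
  · intro χ hχ
    obtain ⟨ψ, hψ, rfl⟩ := Finset.mem_image.mp hχ
    exact (hclif ψ hψ ψ hψ).1
  · rw [Finset.card_image_of_injOn (fun ψ hψ ψ' hψ' h => hinj ψ hψ ψ' hψ' h)]
    have : C₀.card = (H.subgroupOf T).index := by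
      rw [← hcard]; simp
    rw [this]
    rfl
  · rw [← S1490.indFun_trans H T hHT θ, hind, S1490.indFun_smul_sum, Finset.sum_image hinj]
    simp
  · intro χ hχ
    obtain ⟨ψ, hψ, rfl⟩ := Finset.mem_image.mp hχ
    rw [indFun_apply_one, hdeg ψ hψ]
    show (T.index : ℂ) * (((1 : ℕ) : ℂ) * θ 1) = _
    simp

end Cfsg.Agent.S1491
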