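import Mathlib
import Cfsg.Statements.S1492
import Cfsg.Agent.Lib.Helper2.CharMore
import Cfsg.Agent.Lib.Helper2.CharClifford
import Cfsg.Agent.Lib.Helper2.CharComplete

set_option autoImplicit false
open Cfsg

namespace Cfsg.Agent.S1492

open Cfsg.Agent.Lib.Helper2
open scoped ComplexConjugate

theorem char_norm_le {G : Type*} [Group G] [Finite G] {χ : G → ℂ} (hχ : Cfsg.IsCharacter G χ)
    (g : G) : ∃ n : ℕ, χ 1 = (n : ℂ) ∧ ‖χ g‖ ≤ (n : ℝ) := by
  obtain ⟨n, ρ, rfl⟩ := hχ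
  refine ⟨n, ?_, ?_⟩
  · rw [Representation.char_one]; simp
  · have := norm_char_le ρ g
    simpa using this

/-- if a sum of two characters takes at `b` its value at `1`, so does each of them -/
theorem const_of_sum {G : Type*} [Group G] [Finite G] {φ η : G → ℂ} (hφ : Cfsg.IsCharacter G φ)
    (hη : Cfsg.IsCharacter G η) (b : G) (h : φ b + η b = φ 1 + η 1) : φ b = φ 1 := by
  obtain ⟨n, hn, hnb⟩ := char_norm_le hφ b
  obtain ⟨m, hm, hmb⟩ := char_norm_le hη b
  rw [hn, hm] at h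
  have hre : (φ b).re + (η b).re = n + m := by
    have := congrArg Complex.re h
    simpa using this
  have h1 : (φ b).re ≤ ‖φ b‖ := Complex.re_le_norm _
  have h2 : (η b).re ≤ ‖η b‖ := Complex.re_le_norm _
  have hre1 : (φ b).re = n := by linarith
  have hnorm : ‖φ b‖ = n := by linarith
  have him : (φ b).im = 0 := by
    have h3 : ‖φ b‖ ^ 2 = (φ b).re ^ 2 + (φ b).im ^ 2 := by
      rw [← Complex.normSq_eq_norm_sq, Complex.normSq_apply]; ring
    rw [hnorm, hre1] at h3
    nlinarith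
  rw [hn]
  apply Complex.ext
  · simpa using hre1
  · simpa using him

/-- Let ψ be an irreducible character of the finite group G and B ≤ D ≤ C subgroups with B normal in C, every commutator of an element of D with an element of C lying in B (so D/B is central in C/B), and ψ constant equal to ψ 1 on B. Then ψ(1) ^ 2 * |C| * |D| ≤ |G| ^ 2. -/
theorem result {G : Type*} [Group G] [Finite G] (ψ : G → ℂ) (hψ : Cfsg.IsIrrCharacter G ψ) (B C D : Subgroup G) (hBD : B ≤ D) (hDC : D ≤ C) (hBn : ∀ c ∈ C, ∀ b ∈ B, c * b * c⁻¹ ∈ B) (hcent : ∀ d ∈ D, ∀ c ∈ C, d * c * d⁻¹ * c⁻¹ ∈ B) (hker : ∀ b ∈ B, ψ b = ψ 1) : ‖ψ 1‖ ^ 2 * (Nat.card C : ℝ) * (Nat.card D : ℝ) ≤ (Nat.card G : ℝ) ^ 2 := by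
  classical
  have := Fintype.ofFinite G
  have hψc := isCharacter_of_isIrrCharacter hψ
  obtain ⟨d, hd0, hd⟩ := irr_apply_one hψ
  set Θ : C → ℂ := fun c => ψ c with hΘ
  have hΘc : Cfsg.IsCharacter C Θ := IsCharacter.restrict hψc C
  have hΘ1 : Θ 1 = ψ 1 := rfl
  have hΘ0 : Θ ≠ 0 := by
    intro h
    have h1 := congrFun h 1
    rw [hΘ1, hd] at h1
    have : (d : ℂ) = 0 := h1
    have : d = 0 := by exact_mod_cast this
    omega
  obtain ⟨φ, hφ, hne⟩ := exists_irr_constituent hΘc hΘ0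
  have hφc := isCharacter_of_isIrrCharacter hφ
  have hfr := frobenius_reciprocity C φ ψ (isClassFunction_of_isIrrCharacter hψ)
  have hne2 : Cfsg.classInner (Cfsg.indFun C φ) ψ ≠ 0 := by
    rw [hfr]
    intro h0
    apply hne
    have h1 := classInner_conj_symm φ Θ
    have h0' : Cfsg.classInner φ Θ = 0 := h0
    rw [h0', map_zero] at h1
    exact h1.symm
  obtain ⟨N, d', hN, hd', hle⟩ :=
    irr_deg_le_of_inner_ne_zero (indFun_isCharacter C hφc) hψ hne2
  obtain ⟨n, hn0, hn⟩ := irr_apply_one hφ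
  rw [indFun_apply_one, hn] at hN
  have hdd : d' = d := by
    rw [hd] at hd'
    exact_mod_cast hd'.symm
  have hN' : C.index * n = N := by exact_mod_cast hN
  have hη : Cfsg.IsCharacter C (Θ - φ) := IsCharacter.sub_irr hΘc hφ hne
  have hφB : ∀ b : C, (b : G) ∈ B → φ b = φ 1 := by
    intro b hb
    apply const_of_sum hφc hη b
    show φ b + (Θ b - φ b) = φ 1 + (Θ 1 - φ 1)
    have : Θ b = Θ 1 := by
      show ψ b = ψ ((1 : C) : G)
      rw [hker b hb]
      rfl
    rw [this]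
    ring
  have hφD : ∀ x : C, (x : G) ∈ D → ‖φ x‖ = (n : ℝ) := by
    obtain ⟨k, ρ, hρ, rfl⟩ := hφ
    intro x hx
    have hk : (Module.finrank ℂ (Fin k → ℂ) : ℂ) = (n : ℂ) := by
      rw [← hn, Representation.char_one]
    have hk' : Module.finrank ℂ (Fin k → ℂ) = n := by exact_mod_cast hk
    have hid : ∀ b : C, (b : G) ∈ B → ρ b = LinearMap.id := by
      intro b hb
      apply (char_eq_finrank_iff ρ b).mp
      rw [hφB b hb, Representation.char_one]
    have hcomm : ∀ c : C, ρ x ∘ₗ ρ c = ρ c ∘ₗ ρ x := by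
      intro c
      have hb : ((x * c * x⁻¹ * c⁻¹ : C) : G) ∈ B := hcent x hx c c.2
      have h1 := hid _ hb
      have h2 : ρ (x * c) = ρ (c * x) := by
        have e : x * c = (x * c * x⁻¹ * c⁻¹) * (c * x) := by group
        rw [e, map_mul, h1]
        rfl
      rw [map_mul, map_mul] at h2
      exact h2
    obtain ⟨ω, hω⟩ := schur_scalar ρ (ρ x) hcomm
    have h3 := (norm_char_eq_iff ρ x).mpr ⟨ω, hω⟩
    rw [h3, hk']
  have hsum : (Nat.card D : ℝ) * (n : ℝ) ^ 2 ≤ (Nat.card C : ℝ) := by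
    have h1 := classInner_irr_self hφ
    rw [classInner_def] at h1
    have hC : (Nat.card C : ℂ) ≠ 0 := by exact_mod_cast (Nat.card_pos (α := C)).ne'
    have h3 : ∑ c : C, φ c * conj (φ c) = (Nat.card C : ℂ) := by
      field_simp at h1
      exact h1
    have h2 : ∑ c : C, ‖φ c‖ ^ 2 = (Nat.card C : ℝ) := by
      apply Complex.ofReal_injective
      push_cast
      rw [← h3]
      apply Finset.sum_congr rfl
      intro c _
      rw [Complex.mul_conj, Complex.normSq_eq_norm_sq]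
      push_cast
      rfl
    have h4 : ∑ c ∈ Finset.univ.filter (fun c : C => (c : G) ∈ D), ‖φ c‖ ^ 2
        ≤ ∑ c : C, ‖φ c‖ ^ 2 :=
      Finset.sum_le_sum_of_subset_of_nonneg (Finset.filter_subset _ _)
        (fun _ _ _ => by positivity)
    have hcard : (Finset.univ.filter (fun c : C => (c : G) ∈ D)).card = Nat.card D := by
      rw [← Fintype.card_subtype, ← Nat.card_eq_fintype_card]
      exact Nat.card_congr (Subgroup.subgroupOfEquivOfLe hDC).toEquiv
    have h5 : ∑ c ∈ Finset.univ.filter (fun c : C => (c : G) ∈ D), ‖φ c‖ ^ 2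
        = (Nat.card D : ℝ) * (n : ℝ) ^ 2 := by
      rw [Finset.sum_congr rfl (fun c hc => by rw [hφD c (Finset.mem_filter.mp hc).2]),
        Finset.sum_const, nsmul_eq_mul, hcard]
    linarith
  have hnorm : ‖ψ 1‖ = (d : ℝ) := by rw [hd, Complex.norm_natCast]
  have hd_le : (d : ℝ) ≤ (C.index : ℝ) * (n : ℝ) := by
    have : d ≤ C.index * n := by rw [hN', ← hdd]; exact hle
    exact_mod_cast this
  have hG : (C.index : ℝ) * (Nat.card C : ℝ) = (Nat.card G : ℝ) := by
    exact_mod_cast Subgroup.index_mul_card C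
  rw [hnorm]
  calc (d : ℝ) ^ 2 * (Nat.card C : ℝ) * (Nat.card D : ℝ)
      ≤ ((C.index : ℝ) * (n : ℝ)) ^ 2 * (Nat.card C : ℝ) * (Nat.card D : ℝ) := by gcongr
    _ = (C.index : ℝ) ^ 2 * (Nat.card C : ℝ) * ((Nat.card D : ℝ) * (n : ℝ) ^ 2) := by ring
    _ ≤ (C.index : ℝ) ^ 2 * (Nat.card C : ℝ) * (Nat.card C : ℝ) :=
        mul_le_mul_of_nonneg_left hsum (by positivity)
    _ = ((C.index : ℝ) * (Nat.card C : ℝ)) ^ 2 := by ring
    _ = (Nat.card G : ℝ) ^ 2 := by rw [hG]

end Cfsg.Agent.S1492
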