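import Mathlib
import Cfsg.Statements.S1493
import Cfsg.Agent.Lib.Helper12.GaloisTwist

set_option autoImplicit false
open Cfsg

namespace Cfsg.Agent.S1493

open Cfsg.Agent.Lib.Helper2 Cfsg.Agent.Lib.Helper12

/-- Let G be a finite group of order a * b with a and b coprime, let k be coprime to a, and let χ be a character of G. Then there is a character χ' of G such that χ'(g) = χ(g ^ k) whenever the order of g divides a and χ'(g) = χ(g) whenever the order of g is coprime to a; moreover χ' is irreducible if χ is. -/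
theorem result {G : Type*} [Group G] [Finite G] (a b k : ℕ) (hab : Nat.card G = a * b) (hcop : Nat.Coprime a b) (hk : Nat.Coprime k a) (χ : G → ℂ) (hχ : Cfsg.IsCharacter G χ) : ∃ χ' : G → ℂ, Cfsg.IsCharacter G χ' ∧ (Cfsg.IsIrrCharacter G χ → Cfsg.IsIrrCharacter G χ') ∧ (∀ g : G, orderOf g ∣ a → χ' g = χ (g ^ k)) ∧ (∀ g : G, Nat.Coprime (orderOf g) a → χ' g = χ g) := by
  obtain ⟨m, hma, hmb⟩ : ∃ m : ℕ, m ≡ k [MOD a] ∧ m ≡ 1 [MOD b] :=
    ⟨Nat.chineseRemainder hcop k 1, (Nat.chineseRemainder hcop k 1).2.1,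
      (Nat.chineseRemainder hcop k 1).2.2⟩
  have hmn : m.Coprime (Nat.card G) := by
    rw [hab]
    apply Nat.Coprime.mul_right
    · have h1 := hma.gcd_eq
      unfold Nat.Coprime
      rw [h1]
      exact hk
    · have h1 := hmb.gcd_eq
      unfold Nat.Coprime
      rw [h1]
      exact Nat.gcd_one_left b
  refine ⟨fun g => χ (g ^ m), isCharacter_pow_coprime m hmn hχ,
    fun hirr => isIrrCharacter_pow_coprime m hmn hirr, ?_, ?_⟩
  · intro g hg
    show χ (g ^ m) = χ (g ^ k)
    congr 1
    exact pow_eq_pow_iff_modEq.mpr (hma.of_dvd hg)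
  · intro g hg
    show χ (g ^ m) = χ g
    congr 1
    have hdvd : orderOf g ∣ b := by
      have h1 : orderOf g ∣ a * b := hab ▸ orderOf_dvd_natCard g
      exact (Nat.Coprime.dvd_mul_left hg).mp h1
    have := pow_eq_pow_iff_modEq.mpr (hmb.of_dvd hdvd)
    simpa using this

end Cfsg.Agent.S1493
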