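import Mathlib
import Cfsg.Statements.S1495

set_option autoImplicit false
open Cfsg

namespace Cfsg.Agent.S1495

/-- A rational number that is integral over the integers (as a complex number) is an integer. -/
theorem int_of_isIntegral_rat (q : ℚ) (h : IsIntegral ℤ (q : ℂ)) : ∃ m : ℤ, (m : ℚ) = q := by
  have h1 : IsIntegral ℤ q := by
    have h2 : (q : ℂ) = algebraMap ℚ ℂ q := rfl
    rw [h2] at h
    exact (isIntegral_algebraMap_iff (algebraMap ℚ ℂ).injective).mp h
  obtain ⟨m, hm⟩ := IsIntegrallyClosed.isIntegral_iff.mp h1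
  exact ⟨m, by simpa using hm⟩

/-- Let p be a prime, ε = exp(2πi/p), and n an integer such that n = (1 − ε) * ω for some algebraic integer ω. Then p divides n. -/
theorem result (p : ℕ) (hp : p.Prime) (n : ℤ) (ω : ℂ) (hω : IsIntegral ℤ ω) (h : (n : ℂ) = (1 - Complex.exp (2 * Real.pi * Complex.I / p)) * ω) : (p : ℤ) ∣ n := by
  set ε := Complex.exp (2 * Real.pi * Complex.I / p) with hε
  have hprim : IsPrimitiveRoot ε p := Complex.isPrimitiveRoot_exp p hp.ne_zero
  have hεint : IsIntegral ℤ ε := hprim.isIntegral hp.pos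
  by_contra hnd
  have hcop : IsCoprime (p : ℤ) n := (Nat.prime_iff_prime_int.mp hp).coprime_iff_not_dvd.mpr hnd
  obtain ⟨b, a, hab⟩ := hcop
  obtain ⟨M, hM⟩ : ∃ M, p = M + 1 + 1 := ⟨p - 2, by have := hp.two_le; omega⟩
  have hprim' : IsPrimitiveRoot ε (M + 1 + 1) := hM ▸ hprim
  have hprod0 : ∏ k ∈ Finset.range (M + 1), (1 - ε ^ (k + 1)) = ((M + 1 : ℕ) : ℂ) + 1 :=
    IsPrimitiveRoot.prod_one_sub_pow_eq_order hprim'
  have hprod : (∏ k ∈ Finset.range M, (1 - ε ^ (k + 1 + 1))) * (1 - ε) = (p : ℂ) := by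
    have := hprod0
    rw [Finset.prod_range_succ'] at this
    rw [hM]
    simpa using this
  set P := ∏ k ∈ Finset.range M, (1 - ε ^ (k + 1 + 1)) with hP
  have hPint : IsIntegral ℤ P := by
    apply IsIntegral.prod
    intro k _
    exact isIntegral_one.sub (hεint.pow _)
  set v := (a : ℂ) * ω + (b : ℂ) * P with hv
  have hvint : IsIntegral ℤ v :=
    (isIntegral_algebraMap.mul hω).add (isIntegral_algebraMap.mul hPint)
  have h1 : (1 - ε) * v = 1 := by
    have h2 : ((b * (p : ℤ) + a * n : ℤ) : ℂ) = 1 := by rw [hab]; simp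
    push_cast at h2
    rw [h, ← hprod] at h2
    rw [hv]
    linear_combination h2
  have hord : orderOf ε = p := hprim.eq_orderOf.symm
  have hinv : ∀ k ∈ Finset.range (M + 1), IsIntegral ℤ (1 - ε ^ (k + 1))⁻¹ := by
    intro k hk
    rw [Finset.mem_range] at hk
    have hKpos : 0 < k + 1 := Nat.succ_pos k
    have hKlt : k + 1 < p := by omega
    have hcopK : Nat.Coprime (k + 1) p :=
      ((Nat.Prime.coprime_iff_not_dvd hp).mpr (Nat.not_dvd_of_pos_of_lt hKpos hKlt)).symm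
    obtain ⟨j, -, hj⟩ := Nat.exists_mul_mod_eq_one_of_coprime hcopK hp.one_lt
    have hpow : (ε ^ (k + 1)) ^ j = ε := by
      rw [← pow_mul]
      have h3 : (k + 1) * j = p * ((k + 1) * j / p) + 1 := by
        have := Nat.div_add_mod ((k + 1) * j) p
        rw [hj] at this
        exact this.symm
      rw [h3, pow_add, pow_mul, hprim.pow_eq_one, one_pow, one_mul, pow_one]
    have hgeo := geom_sum_mul_neg (ε ^ (k + 1)) j
    rw [hpow] at hgeo
    have h4 : (1 - ε ^ (k + 1)) * ((∑ i ∈ Finset.range j, (ε ^ (k + 1)) ^ i) * v) = 1 := by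
      calc (1 - ε ^ (k + 1)) * ((∑ i ∈ Finset.range j, (ε ^ (k + 1)) ^ i) * v)
          = ((∑ i ∈ Finset.range j, (ε ^ (k + 1)) ^ i) * (1 - ε ^ (k + 1))) * v := by ring
        _ = (1 - ε) * v := by rw [hgeo]
        _ = 1 := h1
    rw [inv_eq_of_mul_eq_one_right h4]
    apply IsIntegral.mul _ hvint
    apply IsIntegral.sum
    intro i _
    exact (hεint.pow _).pow _
  have hpinv : IsIntegral ℤ (((M + 1 : ℕ) : ℂ) + 1)⁻¹ := by
    rw [← hprod0, ← Finset.prod_inv_distrib]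
    exact IsIntegral.prod _ hinv
  have hq : (((M + 1 : ℕ) : ℂ) + 1)⁻¹ = (((((M + 1 : ℕ) : ℚ) + 1)⁻¹ : ℚ) : ℂ) := by
    push_cast; rfl
  rw [hq] at hpinv
  obtain ⟨m, hm⟩ := int_of_isIntegral_rat _ hpinv
  have hm2 : (m : ℚ) * (((M + 1 : ℕ) : ℚ) + 1) = 1 := by
    rw [hm]
    apply inv_mul_cancel₀
    positivity
  have hm3 : m * ((M : ℤ) + 1 + 1) = 1 := by
    have : ((m * ((M : ℤ) + 1 + 1) : ℤ) : ℚ) = ((1 : ℤ) : ℚ) := by
      push_cast
      push_cast at hm2
      exact hm2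
    exact_mod_cast this
  have hm4 : ((M : ℤ) + 1 + 1) ∣ 1 := Dvd.intro_left m hm3
  have hm5 := Int.le_of_dvd one_pos hm4
  omega

end Cfsg.Agent.S1495
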