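import Mathlib
import Cfsg.Statements.S1497

set_option autoImplicit false
open Cfsg

namespace Cfsg.Agent.S1497

/-- Let A be a nonempty subset of the finite group G not containing 1 and L a subgroup. Then A is a TI-subset whose normaliser is L if and only if the Dade hypothesis holds for A, L and the constant choice H(a) = ⊥. -/
theorem result {G : Type*} [Group G] [Finite G] (A : Set G) (hA : A.Nonempty) (h1 : (1 : G) ∉ A) (L : Subgroup G) : (Cfsg.IsTISubset A ∧ Subgroup.normalizer A = L) ↔ Cfsg.DadeHypothesis A L (fun _ => ⊥) := by
  constructor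
  · rintro ⟨hTI, hN⟩
    -- centralizers of elements of A lie in L
    have hcent : ∀ a ∈ A, Subgroup.centralizer ({a} : Set G) ≤ L := by
      intro a ha c hc
      rw [← hN]
      by_contra hcn
      have hca : c * a * c⁻¹ = a := by
        have := (Subgroup.mem_centralizer_iff.mp hc) a (Set.mem_singleton a)
        rw [← this]; group
      have := hTI c hcn a ha (by rw [hca]; exact ha)
      exact h1 (this ▸ ha)
    refine
      { one_not_mem := h1
        subset := ?_
        conj_mem := ?_
        fusion := ?_
        le_centralizer := fun a _ => bot_le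
        conj_mem_H := ?_
        inf_eq_bot := fun a _ => bot_inf_eq _
        sup_eq := ?_
        coprime := ?_ }
    · intro a ha
      exact hcent a ha (Subgroup.mem_centralizer_iff.mpr (fun y hy => by
        rw [Set.mem_singleton_iff] at hy; rw [hy]))
    · intro x hx a ha
      rw [← hN] at hx
      exact (Subgroup.mem_set_normalizer_iff.mp hx a).mp ha
    · intro a ha g hg
      refine ⟨g, ?_, rfl⟩
      rw [← hN]
      by_contra hgn
      have := hTI g hgn a ha hg
      exact h1 (this ▸ ha)
    · intro a _ c _ u hu
      rw [Subgroup.mem_bot] at hu ⊢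
      rw [hu]; group
    · intro a ha
      rw [bot_sup_eq]
      exact inf_eq_right.mpr (hcent a ha)
    · intro a _ b _
      simp
  · intro hD
    have hLN : L ≤ Subgroup.normalizer A := by
      intro x hx
      rw [Subgroup.mem_set_normalizer_iff]
      intro a
      constructor
      · intro ha; exact hD.conj_mem x hx a ha
      · intro ha
        have := hD.conj_mem x⁻¹ (L.inv_mem hx) _ ha
        have h2 : x⁻¹ * (x * a * x⁻¹) * x⁻¹⁻¹ = a := by group
        rwa [h2] at this
    have hcent : ∀ a ∈ A, Subgroup.centralizer ({a} : Set G) ≤ L := by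
      intro a ha
      have := hD.sup_eq a ha
      rw [bot_sup_eq] at this
      rw [← this]
      exact inf_le_left
    have hkey : ∀ a ∈ A, ∀ g : G, g * a * g⁻¹ ∈ A → g ∈ L := by
      intro a ha g hg
      obtain ⟨x, hx, hxa⟩ := hD.fusion a ha g hg
      have hc : x⁻¹ * g ∈ Subgroup.centralizer ({a} : Set G) := by
        rw [Subgroup.mem_centralizer_iff]
        intro y hy
        rw [Set.mem_singleton_iff] at hy
        subst hy
        have h3 : g * y = x * y * x⁻¹ * g := by
          rw [hxa]; group
        calc y * (x⁻¹ * g) = x⁻¹ * (x * y * x⁻¹ * g) := by group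
          _ = x⁻¹ * (g * y) := by rw [h3]
          _ = x⁻¹ * g * y := by group
      have h4 : x⁻¹ * g ∈ L := hcent a ha hc
      have h5 : g = x * (x⁻¹ * g) := by group
      rw [h5]
      exact L.mul_mem hx h4
    refine ⟨?_, ?_⟩
    · intro g hg x hx hgx
      exfalso
      exact hg (hLN (hkey x hx g hgx))
    · apply le_antisymm
      · intro g hg
        obtain ⟨a, ha⟩ := hA
        exact hkey a ha g ((Subgroup.mem_set_normalizer_iff.mp hg a).mp ha)
      · exact hLN

end Cfsg.Agent.S1497
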