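import Mathlib
import Cfsg.Statements.S1498

set_option autoImplicit false
open Cfsg
open scoped Pointwise

namespace Cfsg.Agent.S1498

theorem key {G : Type*} [Group G] [Finite G] (A : Set G) (L : Subgroup G) (H : G → Subgroup G)
    (hD : Cfsg.DadeHypothesis A L H) (a b : G) (ha : a ∈ A) (hb : b ∈ A) (x : G)
    (hxa : x * a * x⁻¹ = b) (u : G) (hu : u ∈ H a) : x * u * x⁻¹ ∈ H b := by
  set K := L ⊓ Subgroup.centralizer ({b} : Set G) with hK
  have hau : a * u = u * a := by
    have := hD.le_centralizer a ha hu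
    rw [Subgroup.mem_centralizer_iff] at this
    exact this a (Set.mem_singleton a)
  have hhC : x * u * x⁻¹ ∈ Subgroup.centralizer ({b} : Set G) := by
    rw [Subgroup.mem_centralizer_iff]
    intro y hy
    rw [Set.mem_singleton_iff] at hy
    subst hy
    rw [← hxa]
    calc x * a * x⁻¹ * (x * u * x⁻¹) = x * (a * u) * x⁻¹ := by group
      _ = x * (u * a) * x⁻¹ := by rw [hau]
      _ = x * u * x⁻¹ * (x * a * x⁻¹) := by group
  have hKn : K ≤ Subgroup.normalizer ((H b : Subgroup G) : Set G) := by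
    intro k hk
    have hkC : k ∈ Subgroup.centralizer ({b} : Set G) := hk.2
    rw [Subgroup.mem_set_normalizer_iff]
    intro w
    constructor
    · intro hw; exact hD.conj_mem_H b hb k hkC w hw
    · intro hw
      have := hD.conj_mem_H b hb k⁻¹ (inv_mem hkC) _ hw
      have h2 : k⁻¹ * (k * w * k⁻¹) * k⁻¹⁻¹ = w := by group
      rwa [h2] at this
  have hmem : x * u * x⁻¹ ∈ ((H b ⊔ K : Subgroup G) : Set G) := by
    rw [hK, hD.sup_eq b hb]
    exact hhC
  rw [Subgroup.coe_mul_of_right_le_normalizer_left (H b) K hKn] at hmem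
  obtain ⟨n, hn, l, hl, hnl⟩ := hmem
  have hn' : n ∈ H b := hn
  have hl' : l ∈ K := hl
  -- powers of n * l
  have hpow : ∀ j : ℕ, ∃ n' ∈ H b, (n * l) ^ j = n' * l ^ j := by
    intro j
    induction j with
    | zero => exact ⟨1, (H b).one_mem, by simp⟩
    | succ j ih =>
      obtain ⟨n', hn'', he⟩ := ih
      have hlj : l ^ j ∈ Subgroup.centralizer ({b} : Set G) := (pow_mem hl' j).2
      refine ⟨n' * (l ^ j * n * (l ^ j)⁻¹), (H b).mul_mem hn'' (hD.conj_mem_H b hb _ hlj n hn'), ?_⟩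
      rw [pow_succ, he, pow_succ]
      group
  set k := orderOf u with hk
  have hhk : (x * u * x⁻¹) ^ k = 1 := by
    rw [conj_pow, hk, pow_orderOf_eq_one]; group
  obtain ⟨n', hn'', he⟩ := hpow k
  have hlk : l ^ k = 1 := by
    have h1 : n' * l ^ k = 1 := by
      have h2 : n * l = x * u * x⁻¹ := hnl
      rw [← he, h2, hhk]
    have h2 : l ^ k = n'⁻¹ := eq_inv_of_mul_eq_one_right h1
    have h3 : l ^ k ∈ H b ⊓ K := ⟨by rw [h2]; exact (H b).inv_mem hn'', pow_mem hl' k⟩
    rw [hK, hD.inf_eq_bot b hb] at h3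
    exact (Subgroup.mem_bot).mp h3
  have hol1 : orderOf l ∣ Nat.card (H a) := by
    have h1 : orderOf l ∣ k := orderOf_dvd_of_pow_eq_one hlk
    have h2 : k ∣ Nat.card (H a) := by
      have := orderOf_dvd_natCard (⟨u, hu⟩ : H a)
      rwa [← Subgroup.orderOf_coe] at this
    exact h1.trans h2
  have hol2 : orderOf l ∣ Nat.card K := by
    have := orderOf_dvd_natCard (⟨l, hl'⟩ : K)
    rwa [← Subgroup.orderOf_coe] at this
  have hcop : Nat.Coprime (Nat.card (H a)) (Nat.card K) := hD.coprime a ha b hb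
  have hl1 : l = 1 := by
    have : orderOf l = 1 := Nat.eq_one_of_dvd_coprimes hcop hol1 hol2
    exact orderOf_eq_one_iff.mp this
  have : x * u * x⁻¹ = n := by
    have h2 : n * l = x * u * x⁻¹ := hnl
    rw [← h2, hl1, mul_one]
  rw [this]
  exact hn'

/-- Under the Dade hypothesis for (A, L, H): for a ∈ A and x ∈ L, the subgroup attached to x * a * x⁻¹ is the conjugate of H a by x. -/
theorem result {G : Type*} [Group G] [Finite G] (A : Set G) (L : Subgroup G) (H : G → Subgroup G) (hD : Cfsg.DadeHypothesis A L H) (a : G) (ha : a ∈ A) (x : G) (hx : x ∈ L) : H (x * a * x⁻¹) = (H a).map (MulAut.conj x).toMonoidHom := by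
  have hb : x * a * x⁻¹ ∈ A := hD.conj_mem x hx a ha
  apply le_antisymm
  · intro v hv
    have h1 : x⁻¹ * (x * a * x⁻¹) * x⁻¹⁻¹ = a := by group
    have h2 := key A L H hD (x * a * x⁻¹) a hb ha x⁻¹ h1 v hv
    refine ⟨x⁻¹ * v * x⁻¹⁻¹, h2, ?_⟩
    simp only [MulEquiv.coe_toMonoidHom, MulAut.conj_apply]
    group
  · rintro _ ⟨u, hu, rfl⟩
    simp only [MulEquiv.coe_toMonoidHom, MulAut.conj_apply]
    exact key A L H hD a (x * a * x⁻¹) ha hb x rfl u hu

end Cfsg.Agent.S1498
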