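import Mathlib
import Cfsg.Statements.S1499

set_option autoImplicit false
open Cfsg

namespace Cfsg.Agent.S1499

theorem key {G : Type*} [Group G] [Finite G] (A : Set G) (L : Subgroup G) (H : G → Subgroup G)
    (hD : Cfsg.DadeHypothesis A L H) (a b : G) (ha : a ∈ A) (hb : b ∈ A)
    (u v g : G) (hu : u ∈ H a) (hv : v ∈ H b) (hg : g * (a * u) * g⁻¹ = b * v) :
    g * a * g⁻¹ = b := by
  have hau : a * u = u * a := by
    have := hD.le_centralizer a ha hu
    rw [Subgroup.mem_centralizer_iff] at this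
    exact this a (Set.mem_singleton a)
  have hbv : b * v = v * b := by
    have := hD.le_centralizer b hb hv
    rw [Subgroup.mem_centralizer_iff] at this
    exact this b (Set.mem_singleton b)
  have haL : a ∈ L ⊓ Subgroup.centralizer ({a} : Set G) :=
    ⟨hD.subset ha, Subgroup.mem_centralizer_iff.mpr (fun y hy => by
      rw [Set.mem_singleton_iff] at hy; rw [hy])⟩
  have hbL : b ∈ L ⊓ Subgroup.centralizer ({b} : Set G) :=
    ⟨hD.subset hb, Subgroup.mem_centralizer_iff.mpr (fun y hy => by
      rw [Set.mem_singleton_iff] at hy; rw [hy])⟩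
  have hoa : orderOf a ∣ Nat.card ↥(L ⊓ Subgroup.centralizer ({a} : Set G)) := by
    have := orderOf_dvd_natCard (⟨a, haL⟩ : ↥(L ⊓ Subgroup.centralizer ({a} : Set G)))
    rwa [← Subgroup.orderOf_coe] at this
  have hob : orderOf b ∣ Nat.card ↥(L ⊓ Subgroup.centralizer ({b} : Set G)) := by
    have := orderOf_dvd_natCard (⟨b, hbL⟩ : ↥(L ⊓ Subgroup.centralizer ({b} : Set G)))
    rwa [← Subgroup.orderOf_coe] at this
  have hou : orderOf u ∣ Nat.card (H a) := by
    have := orderOf_dvd_natCard (⟨u, hu⟩ : H a)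
    rwa [← Subgroup.orderOf_coe] at this
  have hov : orderOf v ∣ Nat.card (H b) := by
    have := orderOf_dvd_natCard (⟨v, hv⟩ : H b)
    rwa [← Subgroup.orderOf_coe] at this
  set N₁ := Nat.card ↥(L ⊓ Subgroup.centralizer ({a} : Set G)) *
    Nat.card ↥(L ⊓ Subgroup.centralizer ({b} : Set G)) with hN₁
  set N₂ := Nat.card (H a) * Nat.card (H b) with hN₂
  have hcop : Nat.Coprime N₁ N₂ := by
    apply Nat.Coprime.mul_left
    · apply Nat.Coprime.mul_right
      · exact (hD.coprime a ha a ha).symm
      · exact (hD.coprime b hb a ha).symm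
    · apply Nat.Coprime.mul_right
      · exact (hD.coprime a ha b hb).symm
      · exact (hD.coprime b hb b hb).symm
  obtain ⟨k, hk1, hk0⟩ := Nat.chineseRemainder hcop 1 0
  have hka : a ^ k = a := by
    have : k ≡ 1 [MOD orderOf a] := hk1.of_dvd (hoa.trans (Dvd.intro _ rfl))
    have h := pow_eq_pow_iff_modEq.mpr this
    rwa [pow_one] at h
  have hkb : b ^ k = b := by
    have : k ≡ 1 [MOD orderOf b] := hk1.of_dvd (hob.trans (Dvd.intro_left _ rfl))
    have h := pow_eq_pow_iff_modEq.mpr this
    rwa [pow_one] at h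
  have hku : u ^ k = 1 := by
    have : k ≡ 0 [MOD orderOf u] := hk0.of_dvd (hou.trans (Dvd.intro _ rfl))
    have h := pow_eq_pow_iff_modEq.mpr this
    rwa [pow_zero] at h
  have hkv : v ^ k = 1 := by
    have : k ≡ 0 [MOD orderOf v] := hk0.of_dvd (hov.trans (Dvd.intro_left _ rfl))
    have h := pow_eq_pow_iff_modEq.mpr this
    rwa [pow_zero] at h
  have h1 : (a * u) ^ k = a := by
    rw [(show Commute a u from hau).mul_pow, hka, hku, mul_one]
  have h2 : (b * v) ^ k = b := by
    rw [(show Commute b v from hbv).mul_pow, hkb, hkv, mul_one]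
  calc g * a * g⁻¹ = g * (a * u) ^ k * g⁻¹ := by rw [h1]
    _ = (g * (a * u) * g⁻¹) ^ k := by rw [conj_pow]
    _ = (b * v) ^ k := by rw [hg]
    _ = b := h2

/-- Under the Dade hypothesis for (A, L, H), let a, b ∈ A. If an element of the coset a·H(a) is conjugate in G to an element of b·H(b), then a and b are conjugate by an element of L. Moreover the set normaliser of the coset a·H(a) is the centraliser of a. -/
theorem result {G : Type*} [Group G] [Finite G] (A : Set G) (L : Subgroup G) (H : G → Subgroup G) (hD : Cfsg.DadeHypothesis A L H) (a b : G) (ha : a ∈ A) (hb : b ∈ A) : ((∃ u ∈ H a, ∃ v ∈ H b, ∃ g : G, g * (a * u) * g⁻¹ = b * v) → ∃ x ∈ L, x * a * x⁻¹ = b) ∧ Subgroup.normalizer ((fun u : G => a * u) '' (H a : Set G)) = Subgroup.centralizer ({a} : Set G) := by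
  constructor
  · rintro ⟨u, hu, v, hv, g, hg⟩
    have hk := key A L H hD a b ha hb u v g hu hv hg
    obtain ⟨x, hx, hxa⟩ := hD.fusion a ha g (by rw [hk]; exact hb)
    exact ⟨x, hx, hxa.trans hk⟩
  · apply le_antisymm
    · intro g hg
      rw [Subgroup.mem_set_normalizer_iff] at hg
      have h1 : a ∈ (fun u : G => a * u) '' (H a : Set G) := ⟨1, (H a).one_mem, mul_one a⟩
      obtain ⟨v, hv, hv2⟩ := (hg a).mp h1
      have hk := key A L H hD a a ha ha 1 v g (H a).one_mem hv (by rw [mul_one]; exact hv2.symm)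
      rw [Subgroup.mem_centralizer_iff]
      intro y hy
      rw [Set.mem_singleton_iff] at hy
      subst hy
      calc y * g = (g * y * g⁻¹) * g := by rw [hk]
        _ = g * y := by group
    · intro c hc
      have hca : a * c = c * a := by
        rw [Subgroup.mem_centralizer_iff] at hc
        exact hc a (Set.mem_singleton a)
      have hcinv : c⁻¹ ∈ Subgroup.centralizer ({a} : Set G) := inv_mem hc
      have hca' : a * c⁻¹ = c⁻¹ * a := by
        rw [Subgroup.mem_centralizer_iff] at hcinv
        exact hcinv a (Set.mem_singleton a)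
      rw [Subgroup.mem_set_normalizer_iff]
      intro n
      constructor
      · rintro ⟨u, hu, rfl⟩
        refine ⟨c * u * c⁻¹, hD.conj_mem_H a ha c hc u hu, ?_⟩
        show a * (c * u * c⁻¹) = c * (a * u) * c⁻¹
        calc a * (c * u * c⁻¹) = (a * c) * u * c⁻¹ := by group
          _ = (c * a) * u * c⁻¹ := by rw [hca]
          _ = c * (a * u) * c⁻¹ := by group
      · rintro ⟨u, hu, hu2⟩
        refine ⟨c⁻¹ * u * c⁻¹⁻¹, hD.conj_mem_H a ha c⁻¹ hcinv u hu, ?_⟩
        show a * (c⁻¹ * u * c⁻¹⁻¹) = n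
        have hu3 : a * u = c * n * c⁻¹ := hu2
        calc a * (c⁻¹ * u * c⁻¹⁻¹) = (a * c⁻¹) * u * c := by group
          _ = (c⁻¹ * a) * u * c := by rw [hca']
          _ = c⁻¹ * (a * u) * c := by group
          _ = c⁻¹ * (c * n * c⁻¹) * c := by rw [hu3]
          _ = n := by group

end Cfsg.Agent.S1499
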