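import Mathlib
import Cfsg.Statements.S1500
import Cfsg.Agent.S1498
import Cfsg.Agent.S1499
import Cfsg.Agent.Lib.Helper2.CharBridge

set_option autoImplicit false
open Cfsg
open scoped Pointwise

namespace Cfsg.Agent.S1500

open Cfsg.Agent.Lib.Helper2
open scoped ComplexConjugate

section

variable {G : Type*} [Group G] [Fintype G] (A : Set G) (L : Subgroup G) (H : G → Subgroup G)
  (hD : Cfsg.DadeHypothesis A L H)

include hD

/-- the value of the Dade map does not depend on the chosen element -/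
theorem dade_apply (α : L → ℂ) (hα : Cfsg.IsClassFunction L α) (g : G) (a : L)
    (ha : (a : G) ∈ A) (x u : G) (hu : u ∈ H a) (hx : x * g * x⁻¹ = a * u) :
    Cfsg.dadeIsometry A L H α g = α a := by
  classical
  have h : ∃ a : L, (a : G) ∈ A ∧ ∃ x : G, ∃ u ∈ H (a : G), x * g * x⁻¹ = (a : G) * u :=
    ⟨a, ha, x, u, hu, hx⟩
  unfold Cfsg.dadeIsometry
  rw [dif_pos h]
  obtain ⟨ha', x', u', hu', hx'⟩ := h.choose_spec
  have e : (x * x'⁻¹) * ((h.choose : G) * u') * (x * x'⁻¹)⁻¹ = (a : G) * u := by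
    rw [← hx', ← hx]; group
  have hk := S1499.key A L H hD (h.choose : G) (a : G) ha' ha u' u (x * x'⁻¹) hu' hu e
  obtain ⟨l, hl, hla⟩ := hD.fusion (h.choose : G) ha' (x * x'⁻¹) (by rw [hk]; exact ha)
  have e2 : a = ⟨l, hl⟩ * h.choose * ⟨l, hl⟩⁻¹ := by
    apply Subtype.ext
    show (a : G) = l * (h.choose : G) * l⁻¹
    rw [hla, hk]
  rw [e2]
  exact (hα h.choose ⟨l, hl⟩).symm

theorem dade_classFunction (α : L → ℂ) (hα : Cfsg.IsClassFunction L α) :
    Cfsg.IsClassFunction G (Cfsg.dadeIsometry A L H α) := by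
  classical
  intro g h
  by_cases hg : ∃ a : L, (a : G) ∈ A ∧ ∃ x : G, ∃ u ∈ H (a : G), x * g * x⁻¹ = (a : G) * u
  · obtain ⟨a, ha, x, u, hu, hx⟩ := hg
    rw [dade_apply A L H hD α hα g a ha x u hu hx,
      dade_apply A L H hD α hα (h * g * h⁻¹) a ha (x * h⁻¹) u hu (by rw [← hx]; group)]
  · have hg' : ¬ ∃ a : L, (a : G) ∈ A ∧ ∃ x : G, ∃ u ∈ H (a : G),
        x * (h * g * h⁻¹) * x⁻¹ = (a : G) * u := by
      rintro ⟨a, ha, x, u, hu, hx⟩
      exact hg ⟨a, ha, x * h, u, hu, by rw [← hx]; group⟩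
    unfold Cfsg.dadeIsometry
    rw [dif_neg hg, dif_neg hg']

theorem dade_zero (α : L → ℂ) (g : G)
    (hg : ¬ ∃ a : L, (a : G) ∈ A ∧ ∃ x : G, ∃ u ∈ H (a : G), x * g * x⁻¹ = (a : G) * u) :
    Cfsg.dadeIsometry A L H α g = 0 := by
  classical
  unfold Cfsg.dadeIsometry
  rw [dif_neg hg]

/-- the elements conjugating `a₀` into `A` are parametrized by `L × H a₀` -/
theorem card_conj_mem (a₀ : G) (ha₀ : a₀ ∈ A) :
    Nat.card {y : G // y * a₀ * y⁻¹ ∈ A} = Nat.card L * Nat.card (H a₀) := by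
  rw [← Nat.card_prod]
  symm
  apply Nat.card_congr
  have hcomm : ∀ h ∈ H a₀, h * a₀ = a₀ * h := by
    intro h hh
    have := hD.le_centralizer a₀ ha₀ hh
    rw [Subgroup.mem_centralizer_iff] at this
    exact (this a₀ (Set.mem_singleton a₀)).symm
  have hmem : ∀ p : L × H a₀, (p.1 : G) * (p.2 : G) * a₀ * ((p.1 : G) * (p.2 : G))⁻¹ ∈ A := by
    intro p
    have e : (p.1 : G) * p.2 * a₀ * ((p.1 : G) * p.2)⁻¹ = p.1 * a₀ * (p.1 : G)⁻¹ := by
      calc (p.1 : G) * p.2 * a₀ * ((p.1 : G) * p.2)⁻¹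
          = (p.1 : G) * ((p.2 : G) * a₀) * (p.2 : G)⁻¹ * (p.1 : G)⁻¹ := by group
        _ = (p.1 : G) * (a₀ * (p.2 : G)) * (p.2 : G)⁻¹ * (p.1 : G)⁻¹ := by rw [hcomm _ p.2.2]
        _ = p.1 * a₀ * (p.1 : G)⁻¹ := by group
    rw [e]
    exact hD.conj_mem p.1 p.1.2 a₀ ha₀
  refine Equiv.ofBijective (fun p : L × H a₀ => ⟨(p.1 : G) * (p.2 : G), hmem p⟩) ⟨?_, ?_⟩
  · rintro ⟨l, h⟩ ⟨l', h'⟩ heq
    have heq' : (l : G) * h = l' * h' := congrArg Subtype.val heq
    have hz : (l' : G)⁻¹ * l = h' * (h : G)⁻¹ := by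
      calc (l' : G)⁻¹ * l = (l' : G)⁻¹ * ((l : G) * h) * (h : G)⁻¹ := by group
        _ = (l' : G)⁻¹ * ((l' : G) * h') * (h : G)⁻¹ := by rw [heq']
        _ = h' * (h : G)⁻¹ := by group
    have hzL : (l' : G)⁻¹ * l ∈ L := L.mul_mem (L.inv_mem l'.2) l.2
    have hzH : (l' : G)⁻¹ * l ∈ H a₀ := by
      rw [hz]; exact (H a₀).mul_mem h'.2 ((H a₀).inv_mem h.2)
    have hz1 : (l' : G)⁻¹ * l = 1 := by
      have hmem' : (l' : G)⁻¹ * l ∈ H a₀ ⊓ (L ⊓ Subgroup.centralizer ({a₀} : Set G)) :=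
        ⟨hzH, hzL, hD.le_centralizer a₀ ha₀ hzH⟩
      rw [hD.inf_eq_bot a₀ ha₀] at hmem'
      exact Subgroup.mem_bot.mp hmem'
    have hl : l = l' := by
      apply Subtype.ext
      exact (inv_mul_eq_one.mp hz1).symm
    have hh : h = h' := by
      apply Subtype.ext
      rw [hz1] at hz
      have : (h' : G) * (h : G)⁻¹ = 1 := hz.symm
      exact (mul_inv_eq_one.mp this).symm
    rw [hl, hh]
  · rintro ⟨y, hy⟩
    obtain ⟨l, hl, hla⟩ := hD.fusion a₀ ha₀ y hy
    have hc : l⁻¹ * y ∈ Subgroup.centralizer ({a₀} : Set G) := by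
      rw [Subgroup.mem_centralizer_iff]
      intro z hz
      rw [Set.mem_singleton_iff] at hz
      subst hz
      calc z * (l⁻¹ * y) = l⁻¹ * (l * z * l⁻¹) * y := by group
        _ = l⁻¹ * (y * z * y⁻¹) * y := by rw [hla]
        _ = l⁻¹ * y * z := by group
    rw [← hD.sup_eq a₀ ha₀, sup_comm] at hc
    have hLE : L ⊓ Subgroup.centralizer ({a₀} : Set G) ≤ Subgroup.normalizer (H a₀ : Set G) := by
      intro k hk
      rw [Subgroup.mem_normalizer_iff]
      intro h
      constructor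
      · intro hh
        exact hD.conj_mem_H a₀ ha₀ k hk.2 h hh
      · intro hh
        have := hD.conj_mem_H a₀ ha₀ k⁻¹ (inv_mem hk.2) _ hh
        have e : k⁻¹ * (k * h * k⁻¹) * k⁻¹⁻¹ = h := by group
        rwa [e] at this
    have hcoe := Subgroup.coe_mul_of_left_le_normalizer_right
      (L ⊓ Subgroup.centralizer ({a₀} : Set G)) (H a₀) hLE
    have hc' : l⁻¹ * y ∈ ((L ⊓ Subgroup.centralizer ({a₀} : Set G) ⊔ H a₀ : Subgroup G) : Set G) :=
      hc
    rw [hcoe] at hc'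
    obtain ⟨k, hk, h, hh, hkh⟩ := Set.mem_mul.mp hc'
    refine ⟨(⟨l * k, L.mul_mem hl hk.1⟩, ⟨h, hh⟩), ?_⟩
    apply Subtype.ext
    show l * k * h = y
    rw [mul_assoc, hkh]
    group

/-- conjugate elements of `A` have attached subgroups of the same order -/
theorem card_H_conj (a₀ : G) (ha₀ : a₀ ∈ A) (y : G) (hy : y * a₀ * y⁻¹ ∈ A) :
    Nat.card (H (y * a₀ * y⁻¹)) = Nat.card (H a₀) := by
  apply Nat.card_congr
  refine ⟨fun v => ⟨y⁻¹ * v * y, ?_⟩, fun u => ⟨y * u * y⁻¹, ?_⟩, ?_, ?_⟩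
  · have := S1498.key A L H hD (y * a₀ * y⁻¹) a₀ hy ha₀ y⁻¹ (by group) v v.2
    simpa using this
  · exact S1498.key A L H hD a₀ (y * a₀ * y⁻¹) ha₀ hy y rfl u u.2
  · intro v
    apply Subtype.ext
    show y * (y⁻¹ * v * y) * y⁻¹ = v
    group
  · intro u
    apply Subtype.ext
    show y⁻¹ * (y * u * y⁻¹) * y = u
    group

end

open Classical in
theorem finsum_mem_subgroup {G : Type*} [Group G] [Fintype G] (K : Subgroup G) (f : G → ℂ) :
    ∑ᶠ u ∈ (K : Set G), f u = ∑ u : G, if u ∈ K then f u else 0 := by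
  have : (K : Set G) = ↑(Finset.univ.filter (fun u => u ∈ K)) := by
    ext u; simp
  rw [this, finsum_mem_coe_finset, Finset.sum_filter]

section main

variable {G : Type*} [Group G] [Fintype G] (A : Set G) (L : Subgroup G) [Fintype L]
  (H : G → Subgroup G) (hD : Cfsg.DadeHypothesis A L H)

include hD

open Classical in
/-- the weight function -/
noncomputable def wt (w : G) : ℂ :=
  ∑ a : L, if (a : G) ∈ A ∧ (a : G)⁻¹ * w ∈ H a then
    ((Nat.card L : ℂ) * (Nat.card (H a) : ℂ))⁻¹ else 0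

open Classical in
omit hD in
theorem sum_wt_mul (Φ : G → ℂ) :
    ∑ g : G, wt A L H g * Φ g = ∑ a : L, if (a : G) ∈ A then
      ((Nat.card L : ℂ) * (Nat.card (H a) : ℂ))⁻¹ * ∑ u : G, (if u ∈ H a then Φ (a * u) else 0)
      else 0 := by
  unfold wt
  simp only [Finset.sum_mul]
  rw [Finset.sum_comm]
  apply Finset.sum_congr rfl
  intro a _
  by_cases ha : (a : G) ∈ A
  · rw [if_pos ha, Finset.mul_sum]
    apply Fintype.sum_equiv (Equiv.mulLeft (a : G)⁻¹)
    intro g
    simp only [Equiv.coe_mulLeft, ha, true_and]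
    by_cases hg : (a : G)⁻¹ * g ∈ H a
    · simp [hg]
    · simp [hg]
  · rw [if_neg ha]
    apply Finset.sum_eq_zero
    intro g _
    rw [if_neg (fun h => ha h.1), zero_mul]

open Classical in
theorem sum_wt_conj (a₀ u₀ : G) (ha₀ : a₀ ∈ A) (hu₀ : u₀ ∈ H a₀) :
    ∑ y : G, wt A L H (y * (a₀ * u₀) * y⁻¹) = 1 := by
  have hval : ∀ y : G, wt A L H (y * (a₀ * u₀) * y⁻¹)
      = if y * a₀ * y⁻¹ ∈ A then ((Nat.card L : ℂ) * (Nat.card (H a₀) : ℂ))⁻¹ else 0 := by
    intro y
    unfold wt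
    by_cases hy : y * a₀ * y⁻¹ ∈ A
    · rw [if_pos hy]
      have hbL : y * a₀ * y⁻¹ ∈ L := hD.subset hy
      rw [Finset.sum_eq_single (⟨y * a₀ * y⁻¹, hbL⟩ : L)]
      · have hcond : (y * a₀ * y⁻¹)⁻¹ * (y * (a₀ * u₀) * y⁻¹) ∈ H (y * a₀ * y⁻¹) := by
          have e : (y * a₀ * y⁻¹)⁻¹ * (y * (a₀ * u₀) * y⁻¹) = y * u₀ * y⁻¹ := by group
          rw [e]
          exact S1498.key A L H hD a₀ (y * a₀ * y⁻¹) ha₀ hy y rfl u₀ hu₀
        rw [if_pos ⟨hy, hcond⟩, card_H_conj A L H hD a₀ ha₀ y hy]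
      · intro a _ hne
        rw [if_neg]
        rintro ⟨haA, hv⟩
        apply hne
        apply Subtype.ext
        show (a : G) = y * a₀ * y⁻¹
        have e : y * (a₀ * u₀) * y⁻¹ = (a : G) * ((a : G)⁻¹ * (y * (a₀ * u₀) * y⁻¹)) := by group
        exact (S1499.key A L H hD a₀ (a : G) ha₀ haA u₀ _ y hu₀ hv e).symm
      · intro h
        exact absurd (Finset.mem_univ _) h
    · rw [if_neg hy]
      apply Finset.sum_eq_zero
      intro a _
      rw [if_neg]
      rintro ⟨haA, hv⟩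
      apply hy
      have e : y * (a₀ * u₀) * y⁻¹ = (a : G) * ((a : G)⁻¹ * (y * (a₀ * u₀) * y⁻¹)) := by group
      rw [S1499.key A L H hD a₀ (a : G) ha₀ haA u₀ _ y hu₀ hv e]
      exact haA
  simp only [hval]
  rw [← Finset.sum_filter, Finset.sum_const, nsmul_eq_mul]
  have hcard : (Finset.univ.filter (fun y : G => y * a₀ * y⁻¹ ∈ A)).card
      = Nat.card L * Nat.card (H a₀) := by
    rw [← card_conj_mem A L H hD a₀ ha₀, Nat.card_eq_fintype_card, Fintype.card_subtype]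
  rw [hcard]
  push_cast
  have h1 : (Nat.card L : ℂ) ≠ 0 := by
    exact_mod_cast (Nat.card_pos (α := L)).ne'
  have h2 : (Nat.card (H a₀) : ℂ) ≠ 0 := by
    exact_mod_cast (Nat.card_pos (α := H a₀)).ne'
  field_simp

open Classical in
/-- the averaging formula for class functions supported on the Dade support -/
theorem sum_eq (Φ : G → ℂ) (hΦ : Cfsg.IsClassFunction G Φ)
    (hsupp : ∀ g : G, (¬ ∃ a : L, (a : G) ∈ A ∧ ∃ x : G, ∃ u ∈ H (a : G),
      x * g * x⁻¹ = (a : G) * u) → Φ g = 0) :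
    ∑ g : G, Φ g = (Nat.card G : ℂ) * ∑ a : L, if (a : G) ∈ A then
      ((Nat.card L : ℂ) * (Nat.card (H a) : ℂ))⁻¹ * ∑ u : G, (if u ∈ H a then Φ (a * u) else 0)
      else 0 := by
  rw [← sum_wt_mul A L H Φ]
  have h1 : ∀ g : G, Φ g = ∑ x : G, wt A L H (x * g * x⁻¹) * Φ (x * g * x⁻¹) := by
    intro g
    have hΦx : ∀ x : G, Φ (x * g * x⁻¹) = Φ g := fun x => hΦ g x
    simp only [hΦx]
    rw [← Finset.sum_mul]
    by_cases hg : ∃ a : L, (a : G) ∈ A ∧ ∃ x : G, ∃ u ∈ H (a : G), x * g * x⁻¹ = (a : G) * u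
    · obtain ⟨a, ha, x₀, u, hu, hx₀⟩ := hg
      have e : ∑ x : G, wt A L H (x * g * x⁻¹) = ∑ y : G, wt A L H (y * ((a : G) * u) * y⁻¹) := by
        apply Fintype.sum_equiv (Equiv.mulRight x₀⁻¹)
        intro x
        simp only [Equiv.coe_mulRight]
        rw [← hx₀]
        congr 1
        group
      rw [e, sum_wt_conj A L H hD (a : G) u ha hu, one_mul]
    · rw [hsupp g hg, mul_zero]
  calc ∑ g : G, Φ g = ∑ g : G, ∑ x : G, wt A L H (x * g * x⁻¹) * Φ (x * g * x⁻¹) :=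
        Finset.sum_congr rfl (fun g _ => h1 g)
    _ = ∑ x : G, ∑ g : G, wt A L H (x * g * x⁻¹) * Φ (x * g * x⁻¹) := Finset.sum_comm
    _ = ∑ x : G, ∑ g : G, wt A L H g * Φ g := by
        apply Finset.sum_congr rfl
        intro x _
        exact Fintype.sum_equiv (MulAut.conj x).toEquiv _ _ (fun g => rfl)
    _ = (Nat.card G : ℂ) * ∑ g : G, wt A L H g * Φ g := by
        rw [Finset.sum_const, Finset.card_univ, nsmul_eq_mul, Nat.card_eq_fintype_card]

end main

/-- Under the Dade hypothesis for (A, L, H), let α be a class function of L vanishing outside A. Then (i) for every class function β of L vanishing outside A, the inner product over G of the Dade images of α and β equals the inner product of α and β over L; and (ii) for every class function χ of G and every function ψ on L whose value at each a ∈ A is the average of χ over the coset a·H(a), the inner product over G of the Dade image of α with χ equals the inner product over L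 of α with ψ. -/
theorem result {G : Type*} [Group G] [Fintype G] (A : Set G) (L : Subgroup G) [Fintype L] (H : G → Subgroup G) (hD : Cfsg.DadeHypothesis A L H) (α : L → ℂ) (hα : Cfsg.IsClassFunction L α) (hαA : ∀ x : L, (x : G) ∉ A → α x = 0) : (∀ β : L → ℂ, Cfsg.IsClassFunction L β → (∀ x : L, (x : G) ∉ A → β x = 0) → Cfsg.classInner (Cfsg.dadeIsometry A L H α) (Cfsg.dadeIsometry A L H β) = Cfsg.classInner α β) ∧ (∀ (χ : G → ℂ) (ψ : L → ℂ), Cfsg.IsClassFunction G χ → (∀ a : L, (a : G) ∈ A → ψ a = (Nat.card (H a) : ℂ)⁻¹ * ∑ᶠ u ∈ (H a : Set G), χ (a * u)) → Cfsg.classInner (Cfsg.dadeIsometry A L H α) χ = Cfsg.classInner α ψ) := by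
  classical
  have part2 : ∀ (χ : G → ℂ) (ψ : L → ℂ), Cfsg.IsClassFunction G χ →
      (∀ a : L, (a : G) ∈ A → ψ a = (Nat.card (H a) : ℂ)⁻¹ * ∑ᶠ u ∈ (H a : Set G), χ (a * u)) →
      Cfsg.classInner (Cfsg.dadeIsometry A L H α) χ = Cfsg.classInner α ψ := by
    intro χ ψ hχ hψ
    have hcf := dade_classFunction A L H hD α hα
    have hΦ : Cfsg.IsClassFunction G (fun g => Cfsg.dadeIsometry A L H α g * conj (χ g)) := by
      intro g h
      show Cfsg.dadeIsometry A L H α (h * g * h⁻¹) * conj (χ (h * g * h⁻¹)) = _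
      rw [hcf g h, hχ g h]
    have hsupp : ∀ g : G, (¬ ∃ a : L, (a : G) ∈ A ∧ ∃ x : G, ∃ u ∈ H (a : G),
        x * g * x⁻¹ = (a : G) * u) → (fun g => Cfsg.dadeIsometry A L H α g * conj (χ g)) g = 0 := by
      intro g hg
      show Cfsg.dadeIsometry A L H α g * conj (χ g) = 0
      rw [dade_zero A L H hD α g hg, zero_mul]
    have hsum := sum_eq A L H hD _ hΦ hsupp
    rw [classInner_def, classInner_def, hsum]
    have hG : (Nat.card G : ℂ) ≠ 0 := by exact_mod_cast (Nat.card_pos (α := G)).ne'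
    rw [← mul_assoc, inv_mul_cancel₀ hG, one_mul, Finset.mul_sum]
    apply Finset.sum_congr rfl
    intro a _
    by_cases ha : (a : G) ∈ A
    · rw [if_pos ha, hψ a ha, finsum_mem_subgroup]
      have hL : (Nat.card L : ℂ) ≠ 0 := by exact_mod_cast (Nat.card_pos (α := L)).ne'
      have hterm : ∀ u : G, (if u ∈ H a then Cfsg.dadeIsometry A L H α ((a : G) * u)
          * conj (χ ((a : G) * u)) else 0) = α a * conj (if u ∈ H a then χ ((a : G) * u) else 0) := by
        intro u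
        by_cases hu : u ∈ H a
        · rw [if_pos hu, if_pos hu,
            dade_apply A L H hD α hα ((a : G) * u) a ha 1 u hu (by group)]
        · rw [if_neg hu, if_neg hu, map_zero, mul_zero]
      simp only [hterm]
      rw [← Finset.mul_sum, map_mul, map_inv₀, Complex.conj_natCast, map_sum]
      have hHa : (Nat.card (H a) : ℂ) ≠ 0 := by exact_mod_cast (Nat.card_pos (α := H a)).ne'
      field_simp
    · rw [if_neg ha, hαA a ha, zero_mul, mul_zero]
  refine ⟨?_, part2⟩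
  intro β hβ hβA
  apply part2 _ β (dade_classFunction A L H hD β hβ)
  intro a ha
  rw [finsum_mem_subgroup]
  have hterm : ∀ u : G, (if u ∈ H a then Cfsg.dadeIsometry A L H β ((a : G) * u) else 0)
      = if u ∈ H a then β a else 0 := by
    intro u
    by_cases hu : u ∈ H a
    · rw [if_pos hu, if_pos hu, dade_apply A L H hD β hβ ((a : G) * u) a ha 1 u hu (by group)]
    · rw [if_neg hu, if_neg hu]
  simp only [hterm]
  rw [← Finset.sum_filter, Finset.sum_const, nsmul_eq_mul]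
  have hcard : (Finset.univ.filter (fun u : G => u ∈ H a)).card = Nat.card (H a) := by
    rw [Nat.card_eq_fintype_card, Fintype.card_subtype]
  rw [hcard]
  have hHa : (Nat.card (H a) : ℂ) ≠ 0 := by exact_mod_cast (Nat.card_pos (α := H a)).ne'
  field_simp

end Cfsg.Agent.S1500
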