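import Mathlib
import Cfsg.Statements.S1503
import Cfsg.Agent.Lib.Helper12.CharAux
import Cfsg.Agent.Lib.Helper12.DualAux

set_option autoImplicit false
open Cfsg
open Cfsg.Agent.Lib.Helper2
open Cfsg.Agent.Lib.Helper12

namespace Cfsg.Agent.S1503

/-- the linear characters trivial on a given subset, as a subgroup of the dual group -/
def trivOn {A : Type*} [Group A] (S : Set A) : Subgroup (A →* ℂˣ) where
  carrier := {φ | ∀ a ∈ S, φ a = 1}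
  mul_mem' := by
    intro φ ψ hφ hψ a ha
    simp only [Set.mem_setOf_eq] at hφ hψ
    rw [MonoidHom.mul_apply, hφ a ha, hψ a ha, one_mul]
  one_mem' := by
    intro a _
    rfl
  inv_mem' := by
    intro φ hφ a ha
    simp only [Set.mem_setOf_eq] at hφ
    rw [MonoidHom.inv_apply, hφ a ha, inv_one]

theorem mem_trivOn {A : Type*} [Group A] (S : Set A) (φ : A →* ℂˣ) :
    φ ∈ trivOn S ↔ ∀ a ∈ S, φ a = 1 := Iff.rfl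

/-- Let W₁, W₂ ≤ G with W = W₁ ⊔ W₂ and let χ an orthonormal family of irreducible characters of G up to sign, indexed by the linear characters ω of W, with χ_1 = 1, χ_ω = ω on W outside W₁ ∪ W₂, and the induction identity for (1 − φ)(1 − ψ). If θ is an irreducible character of G orthogonal to χ ω for every linear character ω of W, then θ vanishes at every element of W lying outside W₁ ∪ W₂. -/
theorem result {G : Type*} [Group G] [Fintype G] (W₁ W₂ : Subgroup G) (hW : Cfsg.IsSelfNormalizingCyclic W₁ W₂) (χ : (↥(W₁ ⊔ W₂) →* ℂˣ) → (G → ℂ)) (hχ : Cfsg.IsCyclicTIFamily W₁ W₂ χ) (θ : G → ℂ) (hθ : Cfsg.IsIrrCharacter G θ) (horth : ∀ ω, Cfsg.classInner θ (χ ω) = 0) (w : ↥(W₁ ⊔ W₂)) (hw₁ : (w : G) ∉ W₁) (hw₂ : (w : G) ∉ W₂) : θ w = 0 := by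
  classical
  obtain ⟨-, -, hdisj, -, hcyc, -⟩ := hW
  have hWcomm : ∀ a b : ↥(W₁ ⊔ W₂), a * b = b * a := by
    intro a b
    exact (IsCyclic.commGroup (α := ↥(W₁ ⊔ W₂))).mul_comm a b
  have hθc : Cfsg.IsClassFunction G θ := isClassFunction_of_isIrrCharacter hθ
  -- the two subgroups of the dual group
  let Φ : Subgroup (↥(W₁ ⊔ W₂) →* ℂˣ) := trivOn {a : ↥(W₁ ⊔ W₂) | (a : G) ∈ W₂}
  let Ψ : Subgroup (↥(W₁ ⊔ W₂) →* ℂˣ) := trivOn {a : ↥(W₁ ⊔ W₂) | (a : G) ∈ W₁}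
  have : Fintype (↥(W₁ ⊔ W₂) →* ℂˣ) := Fintype.ofFinite _
  -- step 1: orthogonality of θ restricted to W with all the functions (1 - φ)(1 - ψ)
  have S1 : ∀ φ ∈ Φ, ∀ ψ ∈ Ψ, ∑ x : ↥(W₁ ⊔ W₂),
      (1 - (φ x : ℂ) - (ψ x : ℂ) + (φ x : ℂ) * (ψ x : ℂ)) * (starRingEnd ℂ) (θ x) = 0 := by
    intro φ hφ ψ hψ
    by_cases h1 : φ = 1
    · subst h1
      apply Finset.sum_eq_zero
      intro x _
      simp
    by_cases h2 : ψ = 1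
    · subst h2
      apply Finset.sum_eq_zero
      intro x _
      simp
    have hind := hχ.induced_eq φ ψ h1 h2 (fun x hx => hφ x hx) (fun x hx => hψ x hx)
    have hfr := frobenius_reciprocity (W₁ ⊔ W₂)
      (fun w => 1 - (φ w : ℂ) - (ψ w : ℂ) + (φ w : ℂ) * (ψ w : ℂ)) θ hθc
    have hfun : (fun g => 1 - χ φ g - χ ψ g + χ (φ * ψ) g) = χ 1 - χ φ - χ ψ + χ (φ * ψ) := by
      funext g; simp [hχ.map_one]
    rw [hind, hfun] at hfr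
    have h3 := classInner_conj_symm θ (χ 1 - χ φ - χ ψ + χ (φ * ψ))
    rw [classInner_add_right, classInner_sub_right, classInner_sub_right, horth, horth, horth,
      horth] at h3
    simp only [sub_zero, add_zero, map_zero] at h3
    rw [← h3, classInner_def] at hfr
    have hne : (Nat.card ↥(W₁ ⊔ W₂) : ℂ)⁻¹ ≠ 0 := inv_ne_zero (card_ne_zero_complex _)
    exact (mul_eq_zero.1 hfr.symm).resolve_left hne
  -- step 2: vanishing of the dual sums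
  have hΦ0 : ∀ y : ↥(W₁ ⊔ W₂), (y : G) ∉ W₂ → ∑ φ : Φ, (((φ : ↥(W₁ ⊔ W₂) →* ℂˣ) y : ℂˣ) : ℂ) = 0 := by
    intro y hy
    apply dual_sum_eq_zero
    obtain ⟨φ₀, h1, h2⟩ := exists_hom_trivial_on hWcomm (W₂.subgroupOf (W₁ ⊔ W₂)) (y := y)
      (by rw [Subgroup.mem_subgroupOf]; exact hy)
    exact ⟨φ₀, fun a ha => h1 a (by rw [Subgroup.mem_subgroupOf]; exact ha), h2⟩
  have hΨ0 : ∀ y : ↥(W₁ ⊔ W₂), (y : G) ∉ W₁ → ∑ ψ : Ψ, (((ψ : ↥(W₁ ⊔ W₂) →* ℂˣ) y : ℂˣ) : ℂ) = 0 := by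
    intro y hy
    apply dual_sum_eq_zero
    obtain ⟨φ₀, h1, h2⟩ := exists_hom_trivial_on hWcomm (W₁.subgroupOf (W₁ ⊔ W₂)) (y := y)
      (by rw [Subgroup.mem_subgroupOf]; exact hy)
    exact ⟨φ₀, fun a ha => h1 a (by rw [Subgroup.mem_subgroupOf]; exact ha), h2⟩
  -- step 3: the double sum
  have S2 : ∑ x : ↥(W₁ ⊔ W₂), (∑ φ : Φ, ∑ ψ : Ψ,
      ((((φ : ↥(W₁ ⊔ W₂) →* ℂˣ) w⁻¹ : ℂˣ) : ℂ) * (((ψ : ↥(W₁ ⊔ W₂) →* ℂˣ) w⁻¹ : ℂˣ) : ℂ)) *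
        ((1 - ((φ : ↥(W₁ ⊔ W₂) →* ℂˣ) x : ℂ) - ((ψ : ↥(W₁ ⊔ W₂) →* ℂˣ) x : ℂ)
          + ((φ : ↥(W₁ ⊔ W₂) →* ℂˣ) x : ℂ) * ((ψ : ↥(W₁ ⊔ W₂) →* ℂˣ) x : ℂ)))) * (starRingEnd ℂ) (θ x) = 0 := by
    simp only [Finset.sum_mul]
    rw [Finset.sum_comm]
    apply Finset.sum_eq_zero
    intro φ _
    rw [Finset.sum_comm]
    apply Finset.sum_eq_zero
    intro ψ _
    simp only [mul_assoc]
    rw [← Finset.mul_sum, ← Finset.mul_sum, S1 φ φ.2 ψ ψ.2, mul_zero, mul_zero]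
  have hT : ∀ x : ↥(W₁ ⊔ W₂), (∑ φ : Φ, ∑ ψ : Ψ,
      ((((φ : ↥(W₁ ⊔ W₂) →* ℂˣ) w⁻¹ : ℂˣ) : ℂ) * (((ψ : ↥(W₁ ⊔ W₂) →* ℂˣ) w⁻¹ : ℂˣ) : ℂ)) *
        ((1 - ((φ : ↥(W₁ ⊔ W₂) →* ℂˣ) x : ℂ) - ((ψ : ↥(W₁ ⊔ W₂) →* ℂˣ) x : ℂ)
          + ((φ : ↥(W₁ ⊔ W₂) →* ℂˣ) x : ℂ) * ((ψ : ↥(W₁ ⊔ W₂) →* ℂˣ) x : ℂ))))
      = (∑ φ : Φ, (((φ : ↥(W₁ ⊔ W₂) →* ℂˣ) (w⁻¹ * x) : ℂˣ) : ℂ)) *
        (∑ ψ : Ψ, (((ψ : ↥(W₁ ⊔ W₂) →* ℂˣ) (w⁻¹ * x) : ℂˣ) : ℂ)) := by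
    intro x
    have hwi1 : ((w⁻¹ : ↥(W₁ ⊔ W₂)) : G) ∉ W₁ := by
      intro h; apply hw₁
      have := W₁.inv_mem h
      simpa using this
    have hwi2 : ((w⁻¹ : ↥(W₁ ⊔ W₂)) : G) ∉ W₂ := by
      intro h; apply hw₂
      have := W₂.inv_mem h
      simpa using this
    have e : ∀ (φ : Φ) (ψ : Ψ),
        ((((φ : ↥(W₁ ⊔ W₂) →* ℂˣ) w⁻¹ : ℂˣ) : ℂ) * (((ψ : ↥(W₁ ⊔ W₂) →* ℂˣ) w⁻¹ : ℂˣ) : ℂ)) *
        ((1 - ((φ : ↥(W₁ ⊔ W₂) →* ℂˣ) x : ℂ) - ((ψ : ↥(W₁ ⊔ W₂) →* ℂˣ) x : ℂ)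
          + ((φ : ↥(W₁ ⊔ W₂) →* ℂˣ) x : ℂ) * ((ψ : ↥(W₁ ⊔ W₂) →* ℂˣ) x : ℂ)))
        = ((((φ : ↥(W₁ ⊔ W₂) →* ℂˣ) w⁻¹ : ℂˣ) : ℂ) - (((φ : ↥(W₁ ⊔ W₂) →* ℂˣ) (w⁻¹ * x) : ℂˣ) : ℂ))
          * ((((ψ : ↥(W₁ ⊔ W₂) →* ℂˣ) w⁻¹ : ℂˣ) : ℂ) - (((ψ : ↥(W₁ ⊔ W₂) →* ℂˣ) (w⁻¹ * x) : ℂˣ) : ℂ)) := by
      intro φ ψ
      simp only [map_mul, Units.val_mul]
      ring
    simp only [e]
    rw [← Finset.sum_mul_sum]
    rw [Finset.sum_sub_distrib, Finset.sum_sub_distrib, hΦ0 _ hwi2, hΨ0 _ hwi1]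
    ring
  simp only [hT] at S2
  rw [Finset.sum_eq_single w] at S2
  · simp only [inv_mul_cancel, map_one, Units.val_one, Finset.sum_const, Finset.card_univ,
      nsmul_eq_mul, mul_one] at S2
    have hΦc : (Fintype.card Φ : ℂ) ≠ 0 := by
      exact_mod_cast Fintype.card_ne_zero
    have hΨc : (Fintype.card Ψ : ℂ) ≠ 0 := by
      exact_mod_cast Fintype.card_ne_zero
    have := (mul_eq_zero.1 S2).resolve_left (mul_ne_zero hΦc hΨc)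
    simpa using this
  · intro x _ hx
    have hy : w⁻¹ * x ≠ 1 := by
      intro h
      apply hx
      have := inv_mul_eq_one.1 h
      exact this.symm
    have hy' : ((w⁻¹ * x : ↥(W₁ ⊔ W₂)) : G) ∉ W₁ ∨ ((w⁻¹ * x : ↥(W₁ ⊔ W₂)) : G) ∉ W₂ := by
      by_contra hcon
      push Not at hcon
      have hmem : ((w⁻¹ * x : ↥(W₁ ⊔ W₂)) : G) ∈ W₁ ⊓ W₂ := ⟨hcon.1, hcon.2⟩
      rw [hdisj, Subgroup.mem_bot] at hmem
      exact hy (Subtype.ext hmem)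
    rcases hy' with h | h
    · rw [hΨ0 _ h, mul_zero, zero_mul]
    · rw [hΦ0 _ h, zero_mul, zero_mul]
  · intro h
    exact absurd (Finset.mem_univ w) h

end Cfsg.Agent.S1503
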