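import Mathlib
import Cfsg.Statements.S1504

set_option autoImplicit false
open Cfsg

namespace Cfsg.Agent.S1504

theorem hom_ext_sup {G : Type*} [Group G] (W₁ W₂ : Subgroup G) (χ χ' : ↥(W₁ ⊔ W₂) →* ℂˣ)
    (h1 : ∀ w : ↥(W₁ ⊔ W₂), (w : G) ∈ W₁ → χ w = χ' w)
    (h2 : ∀ w : ↥(W₁ ⊔ W₂), (w : G) ∈ W₂ → χ w = χ' w) : χ = χ' := by
  let K : Subgroup G := (MonoidHom.eqLocus χ χ').map (W₁ ⊔ W₂).subtype
  have hK : W₁ ⊔ W₂ ≤ K := by
    apply sup_le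
    · intro a ha
      exact ⟨⟨a, (le_sup_left : W₁ ≤ W₁ ⊔ W₂) ha⟩, h1 _ ha, rfl⟩
    · intro a ha
      exact ⟨⟨a, (le_sup_right : W₂ ≤ W₁ ⊔ W₂) ha⟩, h2 _ ha, rfl⟩
  ext w
  obtain ⟨w', hw', hww⟩ := hK w.2
  have : w' = w := Subtype.ext hww
  subst this
  exact congrArg Units.val hw'

theorem sum_units_hom {W : Type*} [Group W] [Fintype W] (χ : W →* ℂˣ) (hχ : χ ≠ 1) :
    ∑ w : W, ((χ w : ℂˣ) : ℂ) = 0 := by
  have := sum_hom_units_eq_zero ((Units.coeHom ℂ).comp χ) (by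
    intro h; apply hχ; ext w
    have := DFunLike.congr_fun h w
    simpa using this)
  simpa using this

/-- Let W₁, W₂ be subgroups of a finite group with W₁ ⊓ W₂ = ⊥ whose elements commute, and W = W₁ ⊔ W₂. For linear characters φ, ψ of W with φ trivial on W₂ and ψ trivial on W₁, the function (1 − φ)(1 − ψ) vanishes on W₁ ∪ W₂; and the family of these functions, indexed by pairs (φ, ψ) with φ ≠ 1 ≠ ψ, is linearly independent over ℂ. -/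
theorem result {G : Type*} [Group G] [Finite G] (W₁ W₂ : Subgroup G) (hdisj : W₁ ⊓ W₂ = ⊥) (hcomm : ∀ a ∈ W₁, ∀ b ∈ W₂, a * b = b * a) : (∀ φ ψ : ↥(W₁ ⊔ W₂) →* ℂˣ, (∀ w : ↥(W₁ ⊔ W₂), (w : G) ∈ W₂ → φ w = 1) → (∀ w : ↥(W₁ ⊔ W₂), (w : G) ∈ W₁ → ψ w = 1) → ∀ w : ↥(W₁ ⊔ W₂), ((w : G) ∈ W₁ ∨ (w : G) ∈ W₂) → (1 - (φ w : ℂ) - (ψ w : ℂ) + (φ w : ℂ) * (ψ w : ℂ)) = 0) ∧ LinearIndependent ℂ (fun p : {p : (↥(W₁ ⊔ W₂) →* ℂˣ) × (↥(W₁ ⊔ W₂) →* ℂˣ) // p.1 ≠ 1 ∧ p.2 ≠ 1 ∧ (∀ w : ↥(W₁ ⊔ W₂), (w : G) ∈ W₂ → p.1 w = 1) ∧ (∀ w : ↥(W₁ ⊔ W₂), (w : G) ∈ W₁ → p.2 w = 1)} => fun w : ↥(W₁ ⊔ W₂) => 1 - (p.1.1 w : ℂ) - (p.1.2 w : ℂ) + (p.1.1 w : ℂ) * (p.1.2 w : ℂ)) := by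
  classical
  refine ⟨?_, ?_⟩
  · intro φ ψ hφ hψ w hw
    rcases hw with hw | hw
    · rw [hψ w hw]; simp
    · rw [hφ w hw]; simp
  · have : Fintype ↥(W₁ ⊔ W₂) := Fintype.ofFinite _
    rw [linearIndependent_iff']
    intro s c hc i₀ hi₀
    obtain ⟨⟨φ₀, ψ₀⟩, hφ₀, hψ₀, hφ₀2, hψ₀1⟩ := i₀
    simp only at hφ₀ hψ₀ hφ₀2 hψ₀1
    have key : ∀ i : {p : (↥(W₁ ⊔ W₂) →* ℂˣ) × (↥(W₁ ⊔ W₂) →* ℂˣ) // p.1 ≠ 1 ∧ p.2 ≠ 1 ∧ (∀ w : ↥(W₁ ⊔ W₂), (w : G) ∈ W₂ → p.1 w = 1) ∧ (∀ w : ↥(W₁ ⊔ W₂), (w : G) ∈ W₁ → p.2 w = 1)},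
        ∑ w : ↥(W₁ ⊔ W₂), (1 - (i.1.1 w : ℂ) - (i.1.2 w : ℂ) + (i.1.1 w : ℂ) * (i.1.2 w : ℂ))
          * ((((φ₀ * ψ₀)⁻¹ w : ℂˣ)) : ℂ)
        = if i = ⟨⟨φ₀, ψ₀⟩, hφ₀, hψ₀, hφ₀2, hψ₀1⟩ then (Nat.card ↥(W₁ ⊔ W₂) : ℂ) else 0 := by
      rintro ⟨⟨φ, ψ⟩, hφ, hψ, hφ2, hψ1⟩
      simp only at hφ hψ hφ2 hψ1
      have e : ∀ w : ↥(W₁ ⊔ W₂), (1 - (φ w : ℂ) - (ψ w : ℂ) + (φ w : ℂ) * (ψ w : ℂ))
          * ((((φ₀ * ψ₀)⁻¹ w : ℂˣ)) : ℂ)
          = ((((φ₀ * ψ₀)⁻¹ w : ℂˣ)) : ℂ) - (((φ * (φ₀ * ψ₀)⁻¹) w : ℂˣ) : ℂ)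
            - (((ψ * (φ₀ * ψ₀)⁻¹) w : ℂˣ) : ℂ) + (((φ * ψ * (φ₀ * ψ₀)⁻¹) w : ℂˣ) : ℂ) := by
        intro w; simp only [MonoidHom.mul_apply, Units.val_mul]; ring
      simp only [e, Finset.sum_add_distrib, Finset.sum_sub_distrib]
      have h1 : (φ₀ * ψ₀)⁻¹ ≠ 1 := by
        intro h
        have h' : ∀ w, φ₀ w * ψ₀ w = 1 := fun w => by
          have := DFunLike.congr_fun h w
          simp only [MonoidHom.mul_apply, MonoidHom.inv_apply, MonoidHom.one_apply] at this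
          exact inv_eq_one.1 this
        apply hφ₀
        apply hom_ext_sup
        · intro w hw
          have := h' w
          simp only [hψ₀1 w hw, mul_one] at this
          exact this
        · intro w hw
          rw [hφ₀2 w hw]; rfl
      have h2 : φ * (φ₀ * ψ₀)⁻¹ ≠ 1 := by
        intro h
        have h' : ∀ w, φ w = φ₀ w * ψ₀ w := fun w => by
          have := DFunLike.congr_fun h w
          simp only [MonoidHom.mul_apply, MonoidHom.inv_apply, MonoidHom.one_apply] at this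
          exact mul_inv_eq_one.1 this
        apply hψ₀
        apply hom_ext_sup
        · intro w hw
          rw [hψ₀1 w hw]; rfl
        · intro w hw
          have := h' w
          simp only [hφ₀2 w hw, one_mul, hφ2 w hw] at this
          exact this.symm
      have h3 : ψ * (φ₀ * ψ₀)⁻¹ ≠ 1 := by
        intro h
        have h' : ∀ w, ψ w = φ₀ w * ψ₀ w := fun w => by
          have := DFunLike.congr_fun h w
          simp only [MonoidHom.mul_apply, MonoidHom.inv_apply, MonoidHom.one_apply] at this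
          exact mul_inv_eq_one.1 this
        apply hφ₀
        apply hom_ext_sup
        · intro w hw
          have := h' w
          simp only [hψ₀1 w hw, mul_one, hψ1 w hw] at this
          exact this.symm
        · intro w hw
          rw [hφ₀2 w hw]; rfl
      rw [sum_units_hom _ h1, sum_units_hom _ h2, sum_units_hom _ h3]
      by_cases hii : (⟨⟨φ, ψ⟩, hφ, hψ, hφ2, hψ1⟩ : {p : (↥(W₁ ⊔ W₂) →* ℂˣ) × (↥(W₁ ⊔ W₂) →* ℂˣ) // p.1 ≠ 1 ∧ p.2 ≠ 1 ∧ (∀ w : ↥(W₁ ⊔ W₂), (w : G) ∈ W₂ → p.1 w = 1) ∧ (∀ w : ↥(W₁ ⊔ W₂), (w : G) ∈ W₁ → p.2 w = 1)}) = ⟨⟨φ₀, ψ₀⟩, hφ₀, hψ₀, hφ₀2, hψ₀1⟩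
      · rw [if_pos hii]
        have hh := congrArg Subtype.val hii
        simp only [Prod.mk.injEq] at hh
        obtain ⟨rfl, rfl⟩ := hh
        simp [Nat.card_eq_fintype_card]
      · rw [if_neg hii]
        have h4 : φ * ψ * (φ₀ * ψ₀)⁻¹ ≠ 1 := by
          intro h
          have h' : ∀ w, φ w * ψ w = φ₀ w * ψ₀ w := fun w => by
            have := DFunLike.congr_fun h w
            simp only [MonoidHom.mul_apply, MonoidHom.inv_apply, MonoidHom.one_apply] at this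
            exact mul_inv_eq_one.1 this
          apply hii
          apply Subtype.ext
          simp only [Prod.mk.injEq]
          constructor
          · apply hom_ext_sup
            · intro w hw
              have := h' w
              simp only [hψ₀1 w hw, mul_one, hψ1 w hw] at this
              exact this
            · intro w hw
              rw [hφ₀2 w hw, hφ2 w hw]
          · apply hom_ext_sup
            · intro w hw
              rw [hψ₀1 w hw, hψ1 w hw]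
            · intro w hw
              have := h' w
              simp only [hφ₀2 w hw, one_mul, hφ2 w hw] at this
              exact this
        rw [sum_units_hom _ h4]; simp
    have hc' : ∀ w : ↥(W₁ ⊔ W₂), ∑ i ∈ s, c i * (1 - (i.1.1 w : ℂ) - (i.1.2 w : ℂ) + (i.1.1 w : ℂ) * (i.1.2 w : ℂ)) = 0 := by
      intro w
      have := congrFun hc w
      simpa [Finset.sum_apply] using this
    have hfin : ∑ w : ↥(W₁ ⊔ W₂), (∑ i ∈ s, c i * (1 - (i.1.1 w : ℂ) - (i.1.2 w : ℂ) + (i.1.1 w : ℂ) * (i.1.2 w : ℂ))) * ((((φ₀ * ψ₀)⁻¹ w : ℂˣ)) : ℂ) = 0 := by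
      apply Finset.sum_eq_zero
      intro w _
      rw [hc' w, zero_mul]
    simp only [Finset.sum_mul] at hfin
    rw [Finset.sum_comm] at hfin
    simp only [mul_assoc, ← Finset.mul_sum] at hfin
    simp only [key] at hfin
    simp only [mul_ite, mul_zero] at hfin
    rw [Finset.sum_ite_eq' s _ _, if_pos hi₀] at hfin
    have hW : (Nat.card ↥(W₁ ⊔ W₂) : ℂ) ≠ 0 := by
      exact_mod_cast (Nat.card_pos (α := ↥(W₁ ⊔ W₂))).ne'
    exact (mul_eq_zero.1 hfin).resolve_right hW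

end Cfsg.Agent.S1504
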