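import Mathlib
import Cfsg.Statements.S1505
import Cfsg.Agent.Lib.Helper12.CyclicTI

set_option autoImplicit false
open Cfsg
open Cfsg.Agent.Lib.Helper2
open Cfsg.Agent.Lib.Helper12

namespace Cfsg.Agent.S1505

/-- the function attached to a pair of linear characters -/
noncomputable def dfun {A : Type*} [Group A] (φ ψ : A →* ℂˣ) : A → ℂ :=
  fun w => (φ w : ℂ) * (ψ w : ℂ)

open Classical in
theorem inner_dfun {G : Type*} [Group G] (W₁ W₂ : Subgroup G) [Fintype ↥(W₁ ⊔ W₂)]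
    (φ φ' ψ ψ' : ↥(W₁ ⊔ W₂) →* ℂˣ)
    (hφ : ∀ w : ↥(W₁ ⊔ W₂), (w : G) ∈ W₂ → φ w = 1)
    (hφ' : ∀ w : ↥(W₁ ⊔ W₂), (w : G) ∈ W₂ → φ' w = 1)
    (hψ : ∀ w : ↥(W₁ ⊔ W₂), (w : G) ∈ W₁ → ψ w = 1)
    (hψ' : ∀ w : ↥(W₁ ⊔ W₂), (w : G) ∈ W₁ → ψ' w = 1) :
    Cfsg.classInner (dfun φ ψ) (dfun φ' ψ') = if φ = φ' ∧ ψ = ψ' then 1 else 0 := by
  have e1 : dfun φ ψ = fun w => (((φ * ψ) w : ℂˣ) : ℂ) := by
    funext w; simp [dfun]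
  have e2 : dfun φ' ψ' = fun w => (((φ' * ψ') w : ℂˣ) : ℂ) := by
    funext w; simp [dfun]
  rw [e1, e2, classInner_irr (isIrrCharacter_of_hom (φ * ψ)) (isIrrCharacter_of_hom (φ' * ψ'))]
  by_cases h : φ = φ' ∧ ψ = ψ'
  · obtain ⟨rfl, rfl⟩ := h
    simp
  · rw [if_neg h, if_neg]
    intro heq
    apply h
    have hpt : ∀ w : ↥(W₁ ⊔ W₂), φ w * ψ w = φ' w * ψ' w := by
      intro w
      have := congrFun heq w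
      simp only [MonoidHom.mul_apply] at this
      exact Units.ext this
    constructor
    · apply hom_ext_sup
      · intro w hw
        have := hpt w
        rw [hψ w hw, hψ' w hw, mul_one, mul_one] at this
        exact this
      · intro w hw
        rw [hφ w hw, hφ' w hw]
    · apply hom_ext_sup
      · intro w hw
        rw [hψ w hw, hψ' w hw]
      · intro w hw
        have := hpt w
        rw [hφ w hw, hφ' w hw, one_mul, one_mul] at this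
        exact this

open Classical in
/-- Let W₁, W₂ ≤ G form a self-normalising cyclic subgroup W = W₁ ⊔ W₂. For nontrivial linear characters φ, φ' of W trivial on W₂ and ψ, ψ' trivial on W₁, put α = (1 − φ)(1 − ψ) and α' = (1 − φ')(1 − ψ'). Then the function induced from α to G has inner product 1 with the principal character, and the inner product of the functions induced from α and α' is 1 + a + b + ab where a = 1 if φ = φ' (else 0) and b = 1 if ψ = ψ' (else 0). -/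
theorem result {G : Type*} [Group G] [Fintype G] (W₁ W₂ : Subgroup G) (hW : Cfsg.IsSelfNormalizingCyclic W₁ W₂) (φ φ' ψ ψ' : ↥(W₁ ⊔ W₂) →* ℂˣ) (hφ : φ ≠ 1) (hφ' : φ' ≠ 1) (hψ : ψ ≠ 1) (hψ' : ψ' ≠ 1) (hφ₂ : ∀ w : ↥(W₁ ⊔ W₂), (w : G) ∈ W₂ → φ w = 1 ∧ φ' w = 1) (hψ₁ : ∀ w : ↥(W₁ ⊔ W₂), (w : G) ∈ W₁ → ψ w = 1 ∧ ψ' w = 1) : Cfsg.classInner (Cfsg.indFun (W₁ ⊔ W₂) (fun w => 1 - (φ w : ℂ) - (ψ w : ℂ) + (φ w : ℂ) * (ψ w : ℂ))) (fun _ => 1) = 1 ∧ Cfsg.classInner (Cfsg.indFun (W₁ ⊔ W₂) (fun w => 1 - (φ w : ℂ) - (ψ w : ℂ) + (φ w : ℂ) * (ψ w : ℂ))) (Cfsg.indFun (W₁ ⊔ W₂) (fun w => 1 - (φ' w : ℂ) - (ψ' w : ℂ) + (φ' w : ℂ) * (ψ' w : ℂ))) = 1 + (if φ = φ' then 1 else 0) + (if ψ = ψ' then 1 else 0) + (if φ = φ' then 1 else 0) * (if ψ = ψ' then 1 else 0) := by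
  have h1Φ : ∀ w : ↥(W₁ ⊔ W₂), (w : G) ∈ W₂ → (1 : ↥(W₁ ⊔ W₂) →* ℂˣ) w = 1 := fun _ _ => rfl
  have h1Ψ : ∀ w : ↥(W₁ ⊔ W₂), (w : G) ∈ W₁ → (1 : ↥(W₁ ⊔ W₂) →* ℂˣ) w = 1 := fun _ _ => rfl
  have hφW : ∀ w : ↥(W₁ ⊔ W₂), (w : G) ∈ W₂ → φ w = 1 := fun w hw => (hφ₂ w hw).1
  have hφW' : ∀ w : ↥(W₁ ⊔ W₂), (w : G) ∈ W₂ → φ' w = 1 := fun w hw => (hφ₂ w hw).2
  have hψW : ∀ w : ↥(W₁ ⊔ W₂), (w : G) ∈ W₁ → ψ w = 1 := fun w hw => (hψ₁ w hw).1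
  have hψW' : ∀ w : ↥(W₁ ⊔ W₂), (w : G) ∈ W₁ → ψ' w = 1 := fun w hw => (hψ₁ w hw).2
  have I := inner_dfun W₁ W₂
  have eα : ∀ (φ ψ : ↥(W₁ ⊔ W₂) →* ℂˣ),
      (fun w : ↥(W₁ ⊔ W₂) => 1 - (φ w : ℂ) - (ψ w : ℂ) + (φ w : ℂ) * (ψ w : ℂ))
      = dfun 1 1 - dfun φ 1 - dfun 1 ψ + dfun φ ψ := by
    intro φ ψ
    funext w
    simp [dfun]
  have e1 : (fun _ : ↥(W₁ ⊔ W₂) => (1 : ℂ)) = dfun 1 1 := by
    funext w; simp [dfun]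
  have hvan : ∀ (φ ψ : ↥(W₁ ⊔ W₂) →* ℂˣ), (∀ w : ↥(W₁ ⊔ W₂), (w : G) ∈ W₂ → φ w = 1) →
      (∀ w : ↥(W₁ ⊔ W₂), (w : G) ∈ W₁ → ψ w = 1) → ∀ v : ↥(W₁ ⊔ W₂),
      ((v : G) ∈ W₁ ∨ (v : G) ∈ W₂) → 1 - (φ v : ℂ) - (ψ v : ℂ) + (φ v : ℂ) * (ψ v : ℂ) = 0 := by
    intro φ ψ h1 h2 v hv
    rcases hv with hv | hv
    · rw [h2 v hv]; simp
    · rw [h1 v hv]; simp
  have n1 : ¬ ((1 : ↥(W₁ ⊔ W₂) →* ℂˣ) = φ') := fun h => hφ' h.symm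
  have n2 : ¬ ((1 : ↥(W₁ ⊔ W₂) →* ℂˣ) = ψ') := fun h => hψ' h.symm
  have n3 : ¬ ((1 : ↥(W₁ ⊔ W₂) →* ℂˣ) = φ) := fun h => hφ h.symm
  have n4 : ¬ ((1 : ↥(W₁ ⊔ W₂) →* ℂˣ) = ψ) := fun h => hψ h.symm
  constructor
  · rw [frobenius_reciprocity (W₁ ⊔ W₂) _ _ (fun _ _ => rfl), eα, e1]
    simp only [classInner_sub_left, classInner_add_left]
    rw [I 1 1 1 1 h1Φ h1Φ h1Ψ h1Ψ, I φ 1 1 1 hφW h1Φ h1Ψ h1Ψ, I 1 1 ψ 1 h1Φ h1Φ hψW h1Ψ,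
      I φ 1 ψ 1 hφW h1Φ hψW h1Ψ]
    simp [hφ, hψ]
  · rw [frobenius_reciprocity (W₁ ⊔ W₂) _ _ (indFun_isClassFunction _ _)]
    have hrestr : Cfsg.classInner
        (fun w : ↥(W₁ ⊔ W₂) => 1 - (φ w : ℂ) - (ψ w : ℂ) + (φ w : ℂ) * (ψ w : ℂ))
        (fun h : ↥(W₁ ⊔ W₂) => Cfsg.indFun (W₁ ⊔ W₂)
          (fun w => 1 - (φ' w : ℂ) - (ψ' w : ℂ) + (φ' w : ℂ) * (ψ' w : ℂ)) h)
        = Cfsg.classInner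
        (fun w : ↥(W₁ ⊔ W₂) => 1 - (φ w : ℂ) - (ψ w : ℂ) + (φ w : ℂ) * (ψ w : ℂ))
        (fun w : ↥(W₁ ⊔ W₂) => 1 - (φ' w : ℂ) - (ψ' w : ℂ) + (φ' w : ℂ) * (ψ' w : ℂ)) := by
      rw [classInner_def, classInner_def]
      congr 1
      apply Finset.sum_congr rfl
      intro w _
      by_cases hw : (w : G) ∈ W₁ ∨ (w : G) ∈ W₂
      · rw [hvan φ ψ hφW hψW w hw, zero_mul, zero_mul]
      · push Not at hw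
        rw [indFun_eq_of_selfNormalizingCyclic W₁ W₂ hW _ (hvan φ' ψ' hφW' hψW') w hw.1 hw.2]
    rw [hrestr, eα, eα]
    simp only [classInner_sub_left, classInner_add_left, classInner_sub_right,
      classInner_add_right]
    rw [I 1 1 1 1 h1Φ h1Φ h1Ψ h1Ψ, I 1 φ' 1 1 h1Φ hφW' h1Ψ h1Ψ, I 1 1 1 ψ' h1Φ h1Φ h1Ψ hψW',
      I 1 φ' 1 ψ' h1Φ hφW' h1Ψ hψW',
      I φ 1 1 1 hφW h1Φ h1Ψ h1Ψ, I φ φ' 1 1 hφW hφW' h1Ψ h1Ψ, I φ 1 1 ψ' hφW h1Φ h1Ψ hψW',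
      I φ φ' 1 ψ' hφW hφW' h1Ψ hψW',
      I 1 1 ψ 1 h1Φ h1Φ hψW h1Ψ, I 1 φ' ψ 1 h1Φ hφW' hψW h1Ψ, I 1 1 ψ ψ' h1Φ h1Φ hψW hψW',
      I 1 φ' ψ ψ' h1Φ hφW' hψW hψW',
      I φ 1 ψ 1 hφW h1Φ hψW h1Ψ, I φ φ' ψ 1 hφW hφW' hψW h1Ψ, I φ 1 ψ ψ' hφW h1Φ hψW hψW',
      I φ φ' ψ ψ' hφW hφW' hψW hψW']
    by_cases ha : φ = φ' <;> by_cases hb : ψ = ψ' <;>
      simp [ha, hb, hφ, hψ, hφ', hψ', n1, n2, n3, n4]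

end Cfsg.Agent.S1505
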