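import Mathlib
import Cfsg.Statements.S1508
import Cfsg.Agent.Lib.Helper12.CycTIRat

set_option autoImplicit false
open Cfsg

namespace Cfsg.Agent.S1508

open Cfsg.Agent.Lib.Helper12 Cfsg.Agent.Lib.Helper2


/-- Let W₁, W₂ ≤ G form a self-normalising cyclic subgroup W = W₁ ⊔ W₂ of odd order and χ an orthonormal family of irreducible characters of G up to sign, indexed by the linear characters ω of W, with χ_1 = 1, χ_ω = ω on W outside W₁ ∪ W₂, and the induction identity for (1 − φ)(1 − ψ). Let ω be a linear character of W and g an element of G whose order is coprime to the order of ω. Then χ ω g is an integer. -/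
theorem result {G : Type*} [Group G] [Fintype G] (W₁ W₂ : Subgroup G) (hW : Cfsg.IsSelfNormalizingCyclic W₁ W₂) (hodd : Odd (Nat.card ↥(W₁ ⊔ W₂))) (χ : (↥(W₁ ⊔ W₂) →* ℂˣ) → (G → ℂ)) (hχ : Cfsg.IsCyclicTIFamily W₁ W₂ χ) (ω : ↥(W₁ ⊔ W₂) →* ℂˣ) (g : G) (hg : Nat.Coprime (orderOf g) (orderOf ω)) : ∃ n : ℤ, χ ω g = n := by
  have key : ∀ m₀ : ℕ, m₀.Coprime (Nat.card G) → χ ω (g ^ m₀) = χ ω g := by
    intro m₀ hm₀
    have hωN : orderOf ω ∣ Nat.card G := by
      apply orderOf_dvd_of_pow_eq_one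
      ext w
      rw [MonoidHom.pow_apply, ← map_pow]
      have : w ^ Nat.card G = 1 := by apply Subtype.ext; simp
      rw [this]; simp
    obtain ⟨m, hm, hm1, hm2⟩ := exists_coprime_crt (Nat.card G) (orderOf g) (orderOf ω) m₀
      Nat.card_pos (orderOf_dvd_natCard g) hωN hg hm₀
    have e1 : g ^ m = g ^ m₀ := pow_eq_pow_iff_modEq.2 hm1
    have e2 : ω ^ m = ω := ((pow_eq_pow_iff_modEq (x := ω)).2 hm2).trans (pow_one ω)
    rw [← e1, family_pow W₁ W₂ hW hodd χ hχ m hm ω g, e2]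
  rcases hχ.irr_or_neg ω with h | h
  · obtain ⟨n, ρ, hρ, hρχ⟩ := h
    obtain ⟨k, hk⟩ := char_int_of_pow ρ g (fun m hm => by rw [hρχ]; exact key m hm)
    exact ⟨k, by rw [← hk, hρχ]⟩
  · obtain ⟨n, ρ, hρ, hρχ⟩ := h
    obtain ⟨k, hk⟩ := char_int_of_pow ρ g (fun m hm => by
      rw [hρχ, Pi.neg_apply, Pi.neg_apply, key m hm])
    refine ⟨-k, ?_⟩
    have : χ ω g = - ρ.character g := by rw [hρχ, Pi.neg_apply, neg_neg]
    rw [this, hk]; push_cast; ring

end Cfsg.Agent.S1508
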