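import Mathlib
import Cfsg.Statements.S1509
import Cfsg.Agent.Lib.Helper2.CharMore

set_option autoImplicit false
open Cfsg
open Cfsg.Agent.Lib.Helper2
open scoped ComplexConjugate

namespace Cfsg.Agent.S1509

theorem signed {X : Type*} [Group X] (α : X → ℂ)
    (hα : Cfsg.IsIrrCharacter X α ∨ Cfsg.IsIrrCharacter X (-α)) :
    ∃ (e : ℝ) (a : X → ℂ), (e = 1 ∨ e = -1) ∧ Cfsg.IsIrrCharacter X a ∧ α = (e : ℂ) • a := by
  rcases hα with h | h
  · exact ⟨1, α, Or.inl rfl, h, by simp⟩
  · exact ⟨-1, -α, Or.inr rfl, h, by simp⟩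

theorem inner_expand {X : Type*} [Group X] [Fintype X] (a b c d : X → ℂ) (p q r s : ℂ) :
    Cfsg.classInner (p • a - q • b) (r • c - s • d)
      = p * conj r * Cfsg.classInner a c - p * conj s * Cfsg.classInner a d
        - q * conj r * Cfsg.classInner b c + q * conj s * Cfsg.classInner b d := by
  have h : r • c - s • d = r • c + (-s) • d := by rw [neg_smul, sub_eq_add_neg]
  rw [h]
  simp only [classInner_sub_left, classInner_add_right, classInner_smul_left,
    classInner_smul_right, map_neg]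
  ring

theorem sign_ne_zero {e : ℝ} (h : e = 1 ∨ e = -1) : e ≠ 0 := by
  rcases h with rfl | rfl <;> norm_num

/-- Let α, β, γ, δ be functions on a finite group X each of which is an irreducible character or the negative of one, and u, v nonzero real numbers. Suppose ⟨α, β⟩ = ⟨γ, δ⟩ = 0, ⟨α − β, uγ − vδ⟩ = 0, α 1 = β 1 and u γ 1 = v δ 1. Then also ⟨α, γ⟩ = ⟨α, δ⟩ = ⟨β, γ⟩ = ⟨β, δ⟩ = 0. -/
theorem result {X : Type*} [Group X] [Fintype X] (α β γ δ : X → ℂ) (hα : Cfsg.IsIrrCharacter X α ∨ Cfsg.IsIrrCharacter X (-α)) (hβ : Cfsg.IsIrrCharacter X β ∨ Cfsg.IsIrrCharacter X (-β)) (hγ : Cfsg.IsIrrCharacter X γ ∨ Cfsg.IsIrrCharacter X (-γ)) (hδ : Cfsg.IsIrrCharacter X δ ∨ Cfsg.IsIrrCharacter X (-δ)) (u v : ℝ) (hu : u ≠ 0) (hv : v ≠ 0) (hab : Cfsg.classInner α β = 0) (hcd : Cfsg.classInner γ δ = 0) (hmix : Cfsg.classInner (α - β) ((u : ℂ) • γ - (v : ℂ) • δ) = 0) (h1 : α 1 = β 1) (h2 : (u : ℂ) * γ 1 = (v : ℂ) * δ 1) : Cfsg.classInner α γ = 0 ∧ Cfsg.classInner α δ = 0 ∧ Cfsg.classInner β γ = 0 ∧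 Cfsg.classInner β δ = 0 := by
  classical
  obtain ⟨ea, a, hea, ha, rfl⟩ := signed α hα
  obtain ⟨eb, b, heb, hb, rfl⟩ := signed β hβ
  obtain ⟨ec, c, hec, hc, rfl⟩ := signed γ hγ
  obtain ⟨ed, d, hed, hd, rfl⟩ := signed δ hδ
  have nea := sign_ne_zero hea
  have neb := sign_ne_zero heb
  have nec := sign_ne_zero hec
  have ned := sign_ne_zero hed
  have hab' : a ≠ b := by
    intro h; subst h
    rw [classInner_smul_left, classInner_smul_right, classInner_irr_self ha] at hab
    simp [nea, neb] at hab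
  have hcd' : c ≠ d := by
    intro h; subst h
    rw [classInner_smul_left, classInner_smul_right, classInner_irr_self hc] at hcd
    simp [nec, ned] at hcd
  simp only [smul_smul] at hmix
  rw [inner_expand] at hmix
  rw [classInner_irr ha hc, classInner_irr ha hd, classInner_irr hb hc, classInner_irr hb hd] at hmix
  simp only [map_mul, Complex.conj_ofReal] at hmix
  obtain ⟨na, hna, hna'⟩ := irr_apply_one ha
  obtain ⟨nb, hnb, hnb'⟩ := irr_apply_one hb
  simp only [Pi.smul_apply, smul_eq_mul] at h1 h2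
  have h1' : ea * (na : ℝ) = eb * (nb : ℝ) := by
    rw [hna', hnb'] at h1
    exact_mod_cast h1
  have hna0 : (0 : ℝ) < na := by exact_mod_cast hna
  have hnb0 : (0 : ℝ) < nb := by exact_mod_cast hnb
  have hsign : ea = eb ∧ (na : ℝ) = nb := by
    rcases hea with rfl | rfl <;> rcases heb with rfl | rfl
    · exact ⟨rfl, by linarith⟩
    · exfalso; linarith
    · exfalso; linarith
    · exact ⟨rfl, by linarith⟩
  obtain ⟨hs, hn⟩ := hsign
  subst hs
  have hdeg : a 1 = b 1 := by
    rw [hna', hnb']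
    exact_mod_cast hn
  -- the two impossible full configurations
  have full1 : ¬ (a = c ∧ b = d) := by
    rintro ⟨rfl, rfl⟩
    rw [if_pos rfl, if_neg hab', if_neg (Ne.symm hab'), if_pos rfl] at hmix
    rw [← hdeg, hna'] at h2
    have hm : ea * (u * ec) + ea * (v * ed) = 0 := by
      have : ((ea * (u * ec) + ea * (v * ed) : ℝ) : ℂ) = 0 := by
        push_cast
        linear_combination hmix
      exact_mod_cast this
    have h2' : u * (ec * (na : ℝ)) = v * (ed * (na : ℝ)) := by exact_mod_cast h2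
    have e1 : (u * ec - v * ed) * (na : ℝ) = 0 := by linear_combination h2'
    have e2 : ea * (u * ec + v * ed) = 0 := by linear_combination hm
    have e3 : u * ec - v * ed = 0 := (mul_eq_zero.1 e1).resolve_right hna0.ne'
    have e4 : u * ec + v * ed = 0 := (mul_eq_zero.1 e2).resolve_left nea
    have e5 : u * ec = 0 := by linarith
    rcases mul_eq_zero.1 e5 with h | h
    · exact hu h
    · exact nec h
  have full2 : ¬ (a = d ∧ b = c) := by
    rintro ⟨rfl, rfl⟩
    rw [if_neg hab', if_pos rfl, if_pos rfl, if_neg (Ne.symm hab')] at hmix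
    rw [hdeg, hnb'] at h2
    have hm : ea * (v * ed) + ea * (u * ec) = 0 := by
      have : ((ea * (v * ed) + ea * (u * ec) : ℝ) : ℂ) = 0 := by
        push_cast
        linear_combination (-1 : ℂ) * hmix
      exact_mod_cast this
    have h2' : u * (ec * (nb : ℝ)) = v * (ed * (nb : ℝ)) := by exact_mod_cast h2
    have e1 : (u * ec - v * ed) * (nb : ℝ) = 0 := by linear_combination h2'
    have e2 : ea * (u * ec + v * ed) = 0 := by linear_combination hm
    have e3 : u * ec - v * ed = 0 := (mul_eq_zero.1 e1).resolve_right hnb0.ne'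
    have e4 : u * ec + v * ed = 0 := (mul_eq_zero.1 e2).resolve_left nea
    have e5 : u * ec = 0 := by linarith
    rcases mul_eq_zero.1 e5 with h | h
    · exact hu h
    · exact nec h
  have nz : ∀ (x y : ℝ), x ≠ 0 → y ≠ 0 → ((x : ℂ) * ((y : ℂ))) ≠ 0 := by
    intro x y hx hy
    exact mul_ne_zero (by exact_mod_cast hx) (by exact_mod_cast hy)
  have k1 : a ≠ c := by
    intro h
    have hbd : b ≠ d := fun h' => full1 ⟨h, h'⟩
    have had : a ≠ d := fun h' => hcd' (h.symm.trans h')
    have hbc : b ≠ c := fun h' => hab' (h.trans h'.symm)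
    rw [if_pos h, if_neg had, if_neg hbc, if_neg hbd] at hmix
    simp only [mul_one, mul_zero, sub_zero, add_zero] at hmix
    exact (mul_ne_zero (by exact_mod_cast nea) (nz u ec hu nec)) hmix
  have k2 : a ≠ d := by
    intro h
    have hbc : b ≠ c := fun h' => full2 ⟨h, h'⟩
    have hac : a ≠ c := fun h' => hcd' (h'.symm.trans h)
    have hbd : b ≠ d := fun h' => hab' (h.trans h'.symm)
    rw [if_neg hac, if_pos h, if_neg hbc, if_neg hbd] at hmix
    simp only [mul_one, mul_zero, sub_zero, add_zero, zero_sub, neg_eq_zero] at hmix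
    exact (mul_ne_zero (by exact_mod_cast nea) (nz v ed hv ned)) hmix
  have k3 : b ≠ c := by
    intro h
    have had : a ≠ d := fun h' => full2 ⟨h', h⟩
    have hbd : b ≠ d := fun h' => hcd' (h.symm.trans h')
    rw [if_neg k1, if_neg had, if_pos h, if_neg hbd] at hmix
    simp only [mul_one, mul_zero, sub_zero, add_zero, zero_sub, neg_eq_zero] at hmix
    exact (mul_ne_zero (by exact_mod_cast nea) (nz u ec hu nec)) hmix
  have k4 : b ≠ d := by
    intro h
    rw [if_neg k1, if_neg k2, if_neg k3, if_pos h] at hmix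
    simp only [mul_one, mul_zero, sub_zero, add_zero, zero_add] at hmix
    exact (mul_ne_zero (by exact_mod_cast nea) (nz v ed hv ned)) hmix
  simp only [classInner_smul_left, classInner_smul_right, classInner_irr_ne ha hc k1,
    classInner_irr_ne ha hd k2, classInner_irr_ne hb hc k3, classInner_irr_ne hb hd k4, mul_zero,
    and_self]

end Cfsg.Agent.S1509
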