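import Mathlib
import Cfsg.Statements.S1510

set_option autoImplicit false
open Cfsg
open scoped Pointwise

namespace Cfsg.Agent.S1510

/-- Let L be a finite group with a normal subgroup K and a nontrivial cyclic subgroup W₁ of order coprime to its index, K ⊓ W₁ = ⊥ and K ⊔ W₁ = ⊤; let W₂ ≠ ⊥ be a cyclic subgroup of K with K ⊓ C_L(x) = W₂ for every non-identity x ∈ W₁, and suppose W₁ ⊔ W₂ has odd order. Then (W₁, W₂) is a self-normalising cyclic pair in L. -/
theorem result {L : Type*} [Group L] [Fintype L] (K W₁ W₂ : Subgroup L) [hK : K.Normal] (hKW₁ : K ⊓ W₁ = ⊥) (hKW₁' : K ⊔ W₁ = ⊤) (hW₁ : W₁ ≠ ⊥) (hW₁c : IsCyclic W₁) (hHall : Nat.Coprime (Nat.card W₁) W₁.index) (hW₂ : W₂ ≠ ⊥) (hW₂c : IsCyclic W₂) (hW₂K : W₂ ≤ K) (hC : ∀ x ∈ W₁, x ≠ 1 → K ⊓ Subgroup.centralizer ({x} : Set L) = W₂) (hodd : Odd (Nat.card ↥(W₁ ⊔ W₂))) : Cfsg.IsSelfNormalizingCyclic W₁ W₂ := by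
  -- W₁ and W₂ commute elementwise
  have hcomm : ∀ a ∈ W₁, ∀ b ∈ W₂, a * b = b * a := by
    intro a ha b hb
    by_cases ha1 : a = 1
    · rw [ha1]; simp
    · have hb' : b ∈ K ⊓ Subgroup.centralizer ({a} : Set L) := by rw [hC a ha ha1]; exact hb
      exact (Subgroup.mem_centralizer_iff.mp hb'.2) a (Set.mem_singleton a)
  have hdisj : W₁ ⊓ W₂ = ⊥ := by
    rw [eq_bot_iff, ← hKW₁]
    exact le_inf (inf_le_right.trans hW₂K) inf_le_left
  -- cardinalities
  have hKcard : Nat.card K = W₁.index := by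
    have hcompl : Subgroup.IsComplement' K W₁ := by
      apply Subgroup.isComplement'_of_disjoint_and_mul_eq_univ (disjoint_iff.mpr hKW₁)
      rw [← Subgroup.normal_mul, hKW₁']
      rfl
    have h1 := hcompl.card_mul_card
    have h2 := W₁.card_mul_index
    have h3 : 0 < Nat.card W₁ := Nat.card_pos
    have h4 : Nat.card W₁ * Nat.card K = Nat.card W₁ * W₁.index := by
      rw [h2, ← h1, mul_comm]
    exact Nat.eq_of_mul_eq_mul_left h3 h4
  have hcop1 : Nat.Coprime (Nat.card W₁) (Nat.card K) := by rw [hKcard]; exact hHall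
  have hcop2 : Nat.Coprime (Nat.card W₁) (Nat.card W₂) :=
    Nat.Coprime.coprime_dvd_right (Subgroup.card_dvd_of_le hW₂K) hcop1
  -- commutativity of W₁ ⊔ W₂
  have hW₁comm : W₁ ≤ Subgroup.centralizer (W₁ : Set L) :=
    Subgroup.le_centralizer_iff_isMulCommutative.mpr inferInstance
  have hW₂comm : W₂ ≤ Subgroup.centralizer (W₂ : Set L) :=
    Subgroup.le_centralizer_iff_isMulCommutative.mpr inferInstance
  have hW₁₂ : W₁ ≤ Subgroup.centralizer (W₂ : Set L) := by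
    intro a ha
    rw [Subgroup.mem_centralizer_iff]
    intro b hb
    exact (hcomm a ha b hb).symm
  have hW₂₁ : W₂ ≤ Subgroup.centralizer (W₁ : Set L) := Subgroup.le_centralizer_iff.mp hW₁₂
  have hWW : W₁ ⊔ W₂ ≤ Subgroup.centralizer ((W₁ ⊔ W₂ : Subgroup L) : Set L) := by
    apply sup_le
    · exact Subgroup.le_centralizer_iff.mp (sup_le hW₁comm hW₂₁)
    · exact Subgroup.le_centralizer_iff.mp (sup_le hW₁₂ hW₂comm)
  have hWcomm : ∀ a ∈ W₁ ⊔ W₂, ∀ b ∈ W₁ ⊔ W₂, a * b = b * a := by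
    intro a ha b hb
    exact ((Subgroup.mem_centralizer_iff.mp (hWW hb)) a ha)
  -- product decomposition of W₁ ⊔ W₂
  have hWmul : ((W₁ ⊔ W₂ : Subgroup L) : Set L) = (W₁ : Set L) * (W₂ : Set L) := by
    apply Subgroup.coe_mul_of_right_le_normalizer_left
    intro b hb
    rw [Subgroup.mem_set_normalizer_iff]
    intro a
    have hkey : ∀ c ∈ W₁, b * c * b⁻¹ = c := by
      intro c hc
      rw [← hcomm c hc b hb]; group
    constructor
    · intro ha
      show b * a * b⁻¹ ∈ W₁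
      rw [hkey a ha]; exact ha
    · intro ha
      have ha' : b * a * b⁻¹ ∈ W₁ := ha
      have h2 : b⁻¹ * (b * a * b⁻¹) * b = a := by group
      have h3 : b * (b * a * b⁻¹) = (b * a * b⁻¹) * b := (hcomm _ ha' b hb).symm
      have h4 : a = b * a * b⁻¹ := by
        calc a = b⁻¹ * (b * a * b⁻¹) * b := h2.symm
          _ = b⁻¹ * (b * (b * a * b⁻¹)) := by rw [h3]; group
          _ = b * a * b⁻¹ := by group
      show a ∈ W₁
      rw [h4]; exact ha'
  -- cyclicity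
  have hcyc : IsCyclic ↥(W₁ ⊔ W₂) := by
    obtain ⟨g₁, hg₁⟩ := (Subgroup.isCyclic_iff_exists_zpowers_eq_top W₁).mp hW₁c
    obtain ⟨g₂, hg₂⟩ := (Subgroup.isCyclic_iff_exists_zpowers_eq_top W₂).mp hW₂c
    have hg₁m : g₁ ∈ W₁ := by rw [← hg₁]; exact Subgroup.mem_zpowers g₁
    have hg₂m : g₂ ∈ W₂ := by rw [← hg₂]; exact Subgroup.mem_zpowers g₂
    have ho₁ : orderOf g₁ = Nat.card W₁ := by rw [← hg₁, Nat.card_zpowers]
    have ho₂ : orderOf g₂ = Nat.card W₂ := by rw [← hg₂, Nat.card_zpowers]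
    have hc : Commute g₁ g₂ := hcomm g₁ hg₁m g₂ hg₂m
    have heq : W₁ ⊔ W₂ = Subgroup.zpowers (g₁ * g₂) := by
      apply le_antisymm
      · obtain ⟨m, hm1, hm0⟩ := Nat.chineseRemainder hcop2 1 0
        obtain ⟨m', hm1', hm0'⟩ := Nat.chineseRemainder hcop2 0 1
        apply sup_le
        · rw [← hg₁, Subgroup.zpowers_le]
          have : (g₁ * g₂) ^ m = g₁ := by
            rw [hc.mul_pow]
            have h1 : g₁ ^ m = g₁ ^ 1 := pow_eq_pow_iff_modEq.mpr (by rw [ho₁]; exact hm1)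
            have h2 : g₂ ^ m = g₂ ^ 0 := pow_eq_pow_iff_modEq.mpr (by rw [ho₂]; exact hm0)
            rw [h1, h2]; simp
          have hmem : (g₁ * g₂) ^ m ∈ Subgroup.zpowers (g₁ * g₂) :=
            Subgroup.pow_mem _ (Subgroup.mem_zpowers _) m
          rwa [this] at hmem
        · rw [← hg₂, Subgroup.zpowers_le]
          have : (g₁ * g₂) ^ m' = g₂ := by
            rw [hc.mul_pow]
            have h1 : g₁ ^ m' = g₁ ^ 0 := pow_eq_pow_iff_modEq.mpr (by rw [ho₁]; exact hm1')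
            have h2 : g₂ ^ m' = g₂ ^ 1 := pow_eq_pow_iff_modEq.mpr (by rw [ho₂]; exact hm0')
            rw [h1, h2]; simp
          have hmem : (g₁ * g₂) ^ m' ∈ Subgroup.zpowers (g₁ * g₂) :=
            Subgroup.pow_mem _ (Subgroup.mem_zpowers _) m'
          rwa [this] at hmem
      · rw [Subgroup.zpowers_le]
        exact Subgroup.mul_mem _ ((le_sup_left : W₁ ≤ W₁ ⊔ W₂) hg₁m) ((le_sup_right : W₂ ≤ W₁ ⊔ W₂) hg₂m)
    rw [heq]
    infer_instance
  refine ⟨hW₁, hW₂, hdisj, hcomm, hcyc, ?_⟩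
  intro X hX hXne
  apply le_antisymm
  · intro g hg
    obtain ⟨x, hx⟩ := hXne
    have hxW := (hX hx).1
    have hxn := (hX hx).2
    have hy : g * x * g⁻¹ ∈ X := (Subgroup.mem_set_normalizer_iff.mp hg x).mp hx
    have hyW := (hX hy).1
    -- decompositions
    have hxW' : x ∈ (W₁ : Set L) * (W₂ : Set L) := by rw [← hWmul]; exact hxW
    obtain ⟨w₁, hw₁, w₂, hw₂, hxeq⟩ := hxW'
    have hyW' : g * x * g⁻¹ ∈ (W₁ : Set L) * (W₂ : Set L) := by rw [← hWmul]; exact hyW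
    obtain ⟨v₁, hv₁, v₂, hv₂, hyeq⟩ := hyW'
    have hw₁' : w₁ ∈ W₁ := hw₁
    have hw₂' : w₂ ∈ W₂ := hw₂
    have hv₁' : v₁ ∈ W₁ := hv₁
    have hv₂' : v₂ ∈ W₂ := hv₂
    simp only at hxeq hyeq
    have hw₁ne : w₁ ≠ 1 := by
      intro h
      apply hxn
      right
      rw [← hxeq, h, one_mul]
      exact hw₂
    have hgL : g ∈ (K : Set L) * (W₁ : Set L) := by
      rw [← Subgroup.normal_mul, hKW₁']
      exact Subgroup.mem_top g
    obtain ⟨k, hk, w, hw, hgeq⟩ := hgL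
    have hk' : k ∈ K := hk
    have hw' : w ∈ W₁ := hw
    simp only at hgeq
    have hwx : w * x * w⁻¹ = x := by
      have := hWcomm w ((le_sup_left : W₁ ≤ W₁ ⊔ W₂) hw') x hxW
      rw [this]; group
    have hkx : g * x * g⁻¹ = k * x * k⁻¹ := by
      rw [← hgeq]
      calc k * w * x * (k * w)⁻¹ = k * (w * x * w⁻¹) * k⁻¹ := by group
        _ = k * x * k⁻¹ := by rw [hwx]
    obtain ⟨m, hm1, hm0⟩ := Nat.chineseRemainder hcop1 1 0
    have hpow₁ : ∀ c ∈ W₁, c ^ m = c := by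
      intro c hc
      have h1 : orderOf c ∣ Nat.card W₁ := by
        have := orderOf_dvd_natCard (⟨c, hc⟩ : W₁)
        rwa [← Subgroup.orderOf_coe] at this
      have h2 : c ^ m = c ^ 1 := pow_eq_pow_iff_modEq.mpr (hm1.of_dvd h1)
      rwa [pow_one] at h2
    have hpow₂ : ∀ c ∈ W₂, c ^ m = 1 := by
      intro c hc
      have h1 : orderOf c ∣ Nat.card K := by
        have := orderOf_dvd_natCard (⟨c, hW₂K hc⟩ : K)
        rwa [← Subgroup.orderOf_coe] at this
      have h2 : c ^ m = c ^ 0 := pow_eq_pow_iff_modEq.mpr (hm0.of_dvd h1)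
      rwa [pow_zero] at h2
    have hxm : x ^ m = w₁ := by
      rw [← hxeq, (show Commute w₁ w₂ from hcomm w₁ hw₁' w₂ hw₂').mul_pow, hpow₁ w₁ hw₁', hpow₂ w₂ hw₂', mul_one]
    have hym : (g * x * g⁻¹) ^ m = v₁ := by
      rw [← hyeq, (show Commute v₁ v₂ from hcomm v₁ hv₁' v₂ hv₂').mul_pow, hpow₁ v₁ hv₁', hpow₂ v₂ hv₂', mul_one]
    have hkw : k * w₁ * k⁻¹ = v₁ := by
      rw [← hym, hkx, conj_pow, hxm]
    have hmem : v₁ * w₁⁻¹ ∈ K ⊓ W₁ := by
      refine ⟨?_, W₁.mul_mem hv₁' (W₁.inv_mem hw₁')⟩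
      rw [← hkw]
      have : k * w₁ * k⁻¹ * w₁⁻¹ = k * (w₁ * k⁻¹ * w₁⁻¹) := by group
      rw [this]
      exact K.mul_mem hk' (hK.conj_mem _ (K.inv_mem hk') w₁)
    rw [hKW₁, Subgroup.mem_bot] at hmem
    have hv₁eq : v₁ = w₁ := by
      calc v₁ = v₁ * w₁⁻¹ * w₁ := by group
        _ = w₁ := by rw [hmem, one_mul]
    have hkc : k ∈ K ⊓ Subgroup.centralizer ({w₁} : Set L) := by
      refine ⟨hk', ?_⟩
      show k ∈ Subgroup.centralizer ({w₁} : Set L)
      rw [Subgroup.mem_centralizer_iff]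
      intro y hy
      rw [Set.mem_singleton_iff] at hy
      subst hy
      rw [hv₁eq] at hkw
      calc y * k = (k * y * k⁻¹) * k := by rw [hkw]
        _ = k * y := by group
    rw [hC w₁ hw₁' hw₁ne] at hkc
    rw [← hgeq]
    exact Subgroup.mul_mem _ ((le_sup_right : W₂ ≤ W₁ ⊔ W₂) hkc) ((le_sup_left : W₁ ≤ W₁ ⊔ W₂) hw')
  · intro w hw
    rw [Subgroup.mem_set_normalizer_iff]
    intro n
    constructor
    · intro hn
      have hnW := (hX hn).1
      have : w * n * w⁻¹ = n := by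
        rw [hWcomm w hw n hnW]; group
      rw [this]; exact hn
    · intro hn
      have hnW := (hX hn).1
      have h1 : n = w⁻¹ * (w * n * w⁻¹) * w := by group
      have hnW' : n ∈ W₁ ⊔ W₂ := by
        rw [h1]
        exact Subgroup.mul_mem _ (Subgroup.mul_mem _ (Subgroup.inv_mem _ hw) hnW) hw
      have : w * n * w⁻¹ = n := by
        rw [hWcomm w hw n hnW']; group
      rw [this] at hn; exact hn

end Cfsg.Agent.S1510
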