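import Mathlib
import Cfsg.Statements.S1512

set_option autoImplicit false
open Cfsg

namespace Cfsg.Agent.S1512

/-- Let K be a normal subgroup of the finite group L and x a non-identity element whose order is coprime to the order of K, such that K ⊓ C_L(y) = W₂ for every non-identity element y of the cyclic group generated by x. Then the number of conjugacy classes of K mapped to themselves by conjugation by x is at most Nat.card W₂. -/
theorem result {L : Type*} [Group L] [Finite L] (K W₂ : Subgroup L) [hK : K.Normal] (x : L) (hx1 : x ≠ 1) (hx : Nat.Coprime (orderOf x) (Nat.card K)) (hC : ∀ y ∈ Subgroup.zpowers x, y ≠ 1 → K ⊓ Subgroup.centralizer ({y} : Set L) = W₂) : Nat.card {C : ConjClasses K // ConjClasses.map (MulEquiv.toMonoidHom ((MulAut.conjNormal x : MulAut K))) C = C} ≤ Nat.card W₂ := by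
  classical
  -- a prime `q` dividing the order of `x`
  have hox : orderOf x ≠ 1 := fun h => hx1 (orderOf_eq_one_iff.mp h)
  obtain ⟨q, hq, hqx⟩ := Nat.exists_prime_and_dvd hox
  have : Fact q.Prime := ⟨hq⟩
  have hox0 : orderOf x ≠ 0 := (orderOf_pos x).ne'
  set m := orderOf x / q with hm
  set y := x ^ m with hy
  have hoy : orderOf y = q := orderOf_pow_orderOf_div hox0 hqx
  have hy1 : y ≠ 1 := fun h => hq.one_lt.ne' (by rw [← hoy, h, orderOf_one])
  have hyx : y ∈ Subgroup.zpowers x := ⟨m, by simp [hy]⟩
  have hW : K ⊓ Subgroup.centralizer ({y} : Set L) = W₂ := hC y hyx hy1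
  have hqK : ¬ q ∣ Nat.card K := fun h =>
    hq.one_lt.ne' (Nat.eq_one_of_dvd_coprimes hx hqx h)
  -- key claim: every fixed class contains an element of `W₂`
  have key : ∀ C : ConjClasses K,
      ConjClasses.map (MulEquiv.toMonoidHom ((MulAut.conjNormal x : MulAut K))) C = C →
      ∃ c : K, ConjClasses.mk c = C ∧ (c : L) ∈ W₂ := by
    intro C hCfix
    have hstep : ∀ k : K, ConjClasses.mk k = C →
        ConjClasses.mk ((MulAut.conjNormal x : MulAut K) k) = C := by
      intro k hk
      rw [← hk] at hCfix ⊢
      exact hCfix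
    have hpow : ∀ (j : ℕ) (k : K), ConjClasses.mk k = C →
        ConjClasses.mk ((MulAut.conjNormal (x ^ j) : MulAut K) k) = C := by
      intro j
      induction j with
      | zero => intro k hk; simpa using hk
      | succ j ih =>
        intro k hk
        have : (MulAut.conjNormal (x ^ (j + 1)) : MulAut K) k
            = (MulAut.conjNormal x : MulAut K) ((MulAut.conjNormal (x ^ j) : MulAut K) k) := by
          rw [pow_succ', map_mul, MulAut.mul_apply]
        rw [this]
        exact hstep _ (ih k hk)
    let Ω := {k : K // ConjClasses.mk k = C}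
    have : Fintype Ω := Fintype.ofFinite Ω
    let f : Function.End Ω := fun k => ⟨(MulAut.conjNormal y : MulAut K) k.1, hpow m k.1 k.2⟩
    have hfpow : ∀ (j : ℕ) (k : Ω), ((f ^ j) k).1 = (MulAut.conjNormal (y ^ j) : MulAut K) k.1 := by
      intro j
      induction j with
      | zero => intro k; rw [pow_zero, pow_zero, map_one]; rfl
      | succ j ih =>
        intro k
        rw [pow_succ' f]
        show (MulAut.conjNormal y : MulAut K) ((f ^ j) k).1 = _
        rw [ih k, pow_succ' y, map_mul, MulAut.mul_apply]
    have hf : f ^ q ^ 1 = 1 := by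
      funext k
      apply Subtype.ext
      rw [pow_one, hfpow q k, ← hoy, pow_orderOf_eq_one, map_one]
      rfl
    have hmod := Equiv.Perm.card_fixedPoints_modEq (f := f) (p := q) (n := 1) hf
    have hcard : Fintype.card Ω ∣ Nat.card K := by
      obtain ⟨c, hc⟩ := ConjClasses.exists_rep C
      have h1 : Fintype.card Ω = (C.carrier).ncard := by
        rw [← Nat.card_eq_fintype_card, ← Nat.card_coe_set_eq]
        apply Nat.card_congr
        exact Equiv.subtypeEquivRight (fun k => by rw [ConjClasses.mem_carrier_iff_mk_eq])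
      rw [h1, ← hc, ← ConjAct.orbit_eq_carrier_conjClasses, ← MulAction.index_stabilizer]
      have := Subgroup.index_dvd_card (MulAction.stabilizer (ConjAct K) c)
      rwa [Nat.card_congr (ConjAct.toConjAct (G := K)).toEquiv.symm] at this
    have hfix : 0 < Fintype.card (Function.fixedPoints f) := by
      by_contra h0
      have h0' : Fintype.card (Function.fixedPoints f) = 0 := by omega
      rw [h0'] at hmod
      have : q ∣ Fintype.card Ω := (Nat.modEq_zero_iff_dvd).mp hmod
      exact hqK (this.trans hcard)
    obtain ⟨⟨c, hcfix⟩⟩ := Fintype.card_pos_iff.mp hfix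
    refine ⟨c.1, c.2, ?_⟩
    rw [← hW]
    refine ⟨c.1.2, ?_⟩
    show (c.1 : L) ∈ Subgroup.centralizer ({y} : Set L)
    rw [Subgroup.mem_centralizer_iff]
    intro z hz
    rw [Set.mem_singleton_iff] at hz
    subst hz
    have h2 : ((MulAut.conjNormal y : MulAut K) c.1 : L) = (c.1 : L) := by
      have := congrArg (fun t : Ω => ((t.1 : K) : L)) hcfix
      simpa [f] using this
    rw [MulAut.conjNormal_apply] at h2
    -- y * c * y⁻¹ = c
    have h3 : y * (c.1 : L) = (c.1 : L) * y := by
      calc y * (c.1 : L) = (y * (c.1 : L) * y⁻¹) * y := by group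
        _ = (c.1 : L) * y := by rw [h2]
    exact h3
  -- build an injection from the fixed classes into `W₂`
  choose! rep hrep1 hrep2 using key
  let g : {C : ConjClasses K // ConjClasses.map (MulEquiv.toMonoidHom ((MulAut.conjNormal x : MulAut K))) C = C} → W₂ :=
    fun C => ⟨(rep C.1 : L), hrep2 C.1 C.2⟩
  have hg : Function.Injective g := by
    intro C D hCD
    apply Subtype.ext
    have h1 : (rep C.1 : L) = (rep D.1 : L) := congrArg (fun t : W₂ => (t : L)) hCD
    have h2 : rep C.1 = rep D.1 := Subtype.ext h1
    rw [← hrep1 C.1 C.2, ← hrep1 D.1 D.2, h2]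
  exact Nat.card_le_card_of_injective g hg

end Cfsg.Agent.S1512
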