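import Mathlib
import Cfsg.Statements.S1514
import Cfsg.Agent.Lib.Helper12.ConjAux

set_option autoImplicit false
open Cfsg
open Cfsg.Agent.Lib.Helper2
open Cfsg.Agent.Lib.Helper12

namespace Cfsg.Agent.S1514

/-- Let S be a nonempty set of irreducible characters of the finite group L, closed under complex conjugation and containing no real-valued member, and τ a linear isometry on the integer combinations of S vanishing at 1, with values virtual characters of G vanishing at 1. Then there is a choice R making (S, τ, R) a coherence system. -/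
theorem result {L : Type*} [Group L] [Fintype L] {G : Type*} [Group G] [Fintype G] (S : Set (L → ℂ)) (hS : S.Nonempty) (hirr : ∀ χ ∈ S, Cfsg.IsIrrCharacter L χ) (hconj : ∀ χ ∈ S, Cfsg.conjFun χ ∈ S ∧ Cfsg.conjFun χ ≠ χ) (τ : (L → ℂ) → (G → ℂ)) (hτ : Cfsg.IsLinearIsometryOn (Cfsg.zspanOn S {1}ᶜ) τ) (hτ1 : ∀ α ∈ Cfsg.zspanOn S {1}ᶜ, τ α 1 = 0) : ∃ R : (L → ℂ) → Finset (G → ℂ), Cfsg.IsCoherenceSystem S τ R := by
  classical
  obtain ⟨hadd, hsmul, hinner, hgen⟩ := hτ
  have mem : ∀ χ ∈ S, χ - Cfsg.conjFun χ ∈ Cfsg.zspanOn S {1}ᶜ := by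
    intro χ hχ
    refine ⟨Submodule.sub_mem _ (Submodule.subset_span hχ) (Submodule.subset_span (hconj χ hχ).1),
      ?_⟩
    intro x hx
    have hx1 : x = 1 := by
      by_contra h
      exact hx h
    subst hx1
    rw [Pi.sub_apply, irr_conj_apply_one (hirr χ hχ), sub_self]
  have horth : ∀ χ ∈ S, Cfsg.classInner χ (Cfsg.conjFun χ) = 0 := fun χ hχ =>
    classInner_irr_ne (hirr χ hχ) (hirr _ (hconj χ hχ).1) (hconj χ hχ).2.symm
  have horth' : ∀ χ ∈ S, Cfsg.classInner (Cfsg.conjFun χ) χ = 0 := fun χ hχ =>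
    classInner_irr_ne (hirr _ (hconj χ hχ).1) (hirr χ hχ) (hconj χ hχ).2
  have norm2 : ∀ χ ∈ S, Cfsg.classInner (χ - Cfsg.conjFun χ) (χ - Cfsg.conjFun χ) = 2 := by
    intro χ hχ
    rw [classInner_sub_left, classInner_sub_right, classInner_sub_right,
      classInner_irr_self (hirr χ hχ), classInner_irr_self (hirr _ (hconj χ hχ).1),
      horth χ hχ, horth' χ hχ]
    ring
  have ex : ∀ χ : L → ℂ, ∃ μ ν : G → ℂ, χ ∈ S → (Cfsg.IsIrrCharacter G μ ∧
      Cfsg.IsIrrCharacter G ν ∧ μ ≠ ν ∧ τ (χ - Cfsg.conjFun χ) = μ - ν) := by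
    intro χ
    by_cases hχ : χ ∈ S
    · obtain ⟨μ, ν, h1, h2, h3, h4⟩ := genChar_norm_two (hgen _ (mem χ hχ))
        (by rw [hinner _ (mem χ hχ) _ (mem χ hχ)]; exact norm2 χ hχ) (hτ1 _ (mem χ hχ))
      exact ⟨μ, ν, fun _ => ⟨h1, h2, h3, h4⟩⟩
    · exact ⟨0, 0, fun h => absurd h hχ⟩
  choose μ ν hμν using ex
  refine ⟨fun χ => {μ χ, -ν χ}, ?_⟩
  have hne : ∀ χ ∈ S, μ χ ≠ -ν χ := fun χ hχ =>
    irr_ne_neg_irr (hμν χ hχ).1 (hμν χ hχ).2.1
  refine
    { nonempty := hS
      isCharacter := fun χ hχ => isCharacter_of_isIrrCharacter (hirr χ hχ)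
      conj_mem := fun χ hχ => (hconj χ hχ).1
      conj_ne := fun χ hχ => (hconj χ hχ).2
      isometry := ⟨hadd, hsmul, hinner, hgen⟩
      map_one := hτ1
      orthogonal := fun χ hχ φ hφ hne => classInner_irr_ne (hirr χ hχ) (hirr φ hφ) hne
      orthonormal := ?_
      virtual := ?_
      sum_eq := ?_
      disjoint := ?_ }
  · intro χ hχ α hα β hβ
    obtain ⟨h1, h2, h3, h4⟩ := hμν χ hχ
    simp only [Finset.mem_insert, Finset.mem_singleton] at hα hβ
    rcases hα with rfl | rfl <;> rcases hβ with rfl | rfl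
    · rw [if_pos rfl, classInner_irr_self h1]
    · rw [if_neg (hne χ hχ), classInner_neg_right, classInner_irr_ne h1 h2 h3, neg_zero]
    · rw [if_neg (hne χ hχ).symm, classInner_neg_left, classInner_irr_ne h2 h1 h3.symm, neg_zero]
    · rw [if_pos rfl, classInner_neg_left, classInner_neg_right, classInner_irr_self h2, neg_neg]
  · intro χ hχ α hα
    obtain ⟨h1, h2, h3, h4⟩ := hμν χ hχ
    simp only [Finset.mem_insert, Finset.mem_singleton] at hα
    rcases hα with rfl | rfl
    · exact isGeneralizedCharacter_of_isCharacter (isCharacter_of_isIrrCharacter h1)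
    · exact isGeneralizedCharacter_neg_of_isCharacter (isCharacter_of_isIrrCharacter h2)
  · intro χ hχ
    obtain ⟨h1, h2, h3, h4⟩ := hμν χ hχ
    rw [Finset.sum_pair (hne χ hχ), h4, sub_eq_add_neg]
  · intro χ hχ φ hφ hφχ hφχ' α hα β hβ
    obtain ⟨h1, h2, h3, h4⟩ := hμν χ hχ
    obtain ⟨g1, g2, g3, g4⟩ := hμν φ hφ
    have e1 : Cfsg.classInner (Cfsg.conjFun φ) (Cfsg.conjFun χ) = 0 := by
      rw [classInner_conjFun_conjFun, hφχ, map_zero]
    have e2 : Cfsg.classInner (Cfsg.conjFun φ) χ = 0 := by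
      rw [classInner_conjFun_left, hφχ', map_zero]
    have key := hinner _ (mem φ hφ) _ (mem χ hχ)
    rw [g4, h4] at key
    simp only [classInner_sub_left, classInner_sub_right] at key
    rw [hφχ, hφχ', e1, e2, classInner_irr g1 h1, classInner_irr g1 h2, classInner_irr g2 h1,
      classInner_irr g2 h2] at key
    have k1 : μ φ ≠ μ χ := by
      intro h
      have a1 : μ φ ≠ ν χ := fun h' => h3 (h.symm.trans h')
      have a2 : ν φ ≠ μ χ := fun h' => g3 (h.trans h'.symm)
      rw [if_pos h, if_neg a1, if_neg a2] at key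
      by_cases a3 : ν φ = ν χ
      · rw [if_pos a3] at key; norm_num at key
      · rw [if_neg a3] at key; norm_num at key
    have k4 : ν φ ≠ ν χ := by
      intro h
      have a1 : μ φ ≠ ν χ := fun h' => g3 (h'.trans h.symm)
      have a2 : ν φ ≠ μ χ := fun h' => h3 (h'.symm.trans h)
      rw [if_neg k1, if_neg a1, if_neg a2, if_pos h] at key
      norm_num at key
    have k2 : μ φ ≠ ν χ := by
      intro h
      rw [if_neg k1, if_pos h, if_neg k4] at key
      by_cases a3 : ν φ = μ χ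
      · rw [if_pos a3] at key; norm_num at key
      · rw [if_neg a3] at key; norm_num at key
    have k3 : ν φ ≠ μ χ := by
      intro h
      rw [if_neg k1, if_neg k2, if_pos h, if_neg k4] at key
      norm_num at key
    simp only [Finset.mem_insert, Finset.mem_singleton] at hα hβ
    rcases hα with rfl | rfl <;> rcases hβ with rfl | rfl
    · exact classInner_irr_ne g1 h1 k1
    · rw [classInner_neg_right, classInner_irr_ne g1 h2 k2, neg_zero]
    · rw [classInner_neg_left, classInner_irr_ne g2 h1 k3, neg_zero]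
    · rw [classInner_neg_left, classInner_neg_right, classInner_irr_ne g2 h2 k4, neg_zero, neg_zero]

end Cfsg.Agent.S1514
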