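import Mathlib
import Cfsg.Statements.S1515
import Cfsg.Agent.Lib.Helper12.GenChar

set_option autoImplicit false
open Cfsg
open Cfsg.Agent.Lib.Helper2
open Cfsg.Agent.Lib.Helper12

namespace Cfsg.Agent.S1515

/-- Let (S, τ, R) be a coherence system from L to G, χ ∈ S, and ψ an integer combination of S with ⟨χ, ψ⟩ = ⟨conj χ, ψ⟩ = 0. Let τ₁ be a linear isometry on the integer combinations of χ − ψ and χ − conj χ, with virtual-character values, agreeing with τ on integer multiples of χ − conj χ. Then the sum over α ∈ R χ of the squared absolute values of ⟨τ₁(χ − ψ), α⟩ is at least ⟨χ, χ⟩; and if ⟨τ₁(χ − ψ), τ₁(χ − ψ)⟩ minus that sum is at least ⟨ψ, ψ⟩, then the sum equals ⟨χ, χ⟩ and every ⟨τ₁(χ − ψ), α⟩ with α ∈ R χ is 0 or 1. -/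
theorem result {L : Type*} [Group L] [Fintype L] {G : Type*} [Group G] [Fintype G] (S : Set (L → ℂ)) (τ : (L → ℂ) → (G → ℂ)) (R : (L → ℂ) → Finset (G → ℂ)) (hS : Cfsg.IsCoherenceSystem S τ R) (χ : L → ℂ) (hχ : χ ∈ S) (ψ : L → ℂ) (hψ : ψ ∈ Cfsg.zspan S) (h1 : Cfsg.classInner χ ψ = 0) (h2 : Cfsg.classInner (Cfsg.conjFun χ) ψ = 0) (τ₁ : (L → ℂ) → (G → ℂ)) (hτ₁ : Cfsg.IsLinearIsometryOn (Cfsg.zspan {χ - ψ, χ - Cfsg.conjFun χ}) τ₁) (hagree : ∀ n : ℤ, τ₁ (n • (χ - Cfsg.conjFun χ)) = τ (n • (χ - Cfsg.conjFun χ))) : (Cfsg.classInner χ χ).re ≤ ∑ α ∈ R χ, ‖Cfsg.classInner (τ₁ (χ - ψ)) α‖ ^ 2 ∧ ((Cfsg.classInner ψ ψ).re ≤ (Cfsg.classInner (τ₁ (χ - ψ)) (τ₁ (χ - ψ))).re - ∑ α ∈ R χ, ‖Cfsg.classInner (τ₁ (χ - ψ)) α‖ ^ 2 → (∑ α ∈ R χ, ‖Cfsg.classInner (τ₁ (χ - ψ)) α‖ ^ 2 = (Cfsg.classInner χ χ).re ∧ ∀ α ∈ R χ, Cfsg.classInner (τ₁ (χ - ψ)) α = 0 ∨ Cfsg.classInner (τ₁ (χ - ψ)) α = 1)) := by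
  classical
  obtain ⟨hadd, hsmul, hinner, hgen⟩ := hτ₁
  have m1 : χ - ψ ∈ Cfsg.zspan {χ - ψ, χ - Cfsg.conjFun χ} :=
    Submodule.subset_span (by simp)
  have m2 : χ - Cfsg.conjFun χ ∈ Cfsg.zspan {χ - ψ, χ - Cfsg.conjFun χ} :=
    Submodule.subset_span (by simp)
  have hXg : Cfsg.IsGeneralizedCharacter G (τ₁ (χ - ψ)) := hgen _ m1
  have hz : ∀ α ∈ R χ, ∃ z : ℤ, Cfsg.classInner (τ₁ (χ - ψ)) α = (z : ℂ) :=
    fun α hα => genChar_inner_int hXg (hS.virtual χ hχ α hα)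
  choose! zf hzf using hz
  have hτeq : τ₁ (χ - Cfsg.conjFun χ) = ∑ α ∈ R χ, α := by
    have := hagree 1
    rw [one_smul] at this
    rw [this, hS.sum_eq χ hχ]
  have e1 : Cfsg.classInner χ (Cfsg.conjFun χ) = 0 :=
    hS.orthogonal χ hχ _ (hS.conj_mem χ hχ) (hS.conj_ne χ hχ).symm
  have e2 : Cfsg.classInner ψ χ = 0 := by rw [← classInner_conj_symm, h1, map_zero]
  have e3 : Cfsg.classInner ψ (Cfsg.conjFun χ) = 0 := by
    rw [← classInner_conj_symm, h2, map_zero]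
  have hsum : ∑ α ∈ R χ, Cfsg.classInner (τ₁ (χ - ψ)) α = Cfsg.classInner χ χ := by
    rw [← classInner_sum_right, ← hτeq, hinner _ m1 _ m2]
    rw [classInner_sub_left, classInner_sub_right, classInner_sub_right, e1, e2, e3]
    ring
  have hXX : Cfsg.classInner (τ₁ (χ - ψ)) (τ₁ (χ - ψ))
      = Cfsg.classInner χ χ + Cfsg.classInner ψ ψ := by
    rw [hinner _ m1 _ m1, classInner_sub_left, classInner_sub_right, classInner_sub_right, h1, e2]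
    ring
  obtain ⟨n, hn⟩ := classInner_isCharacter_nat (hS.isCharacter χ hχ) (hS.isCharacter χ hχ)
  have hsumZ : ∑ α ∈ R χ, zf α = (n : ℤ) := by
    have : ((∑ α ∈ R χ, zf α : ℤ) : ℂ) = ((n : ℤ) : ℂ) := by
      push_cast
      rw [← hn, ← hsum]
      exact Finset.sum_congr rfl (fun α hα => (hzf α hα).symm)
    exact_mod_cast this
  have hsq : ∑ α ∈ R χ, ‖Cfsg.classInner (τ₁ (χ - ψ)) α‖ ^ 2
      = ((∑ α ∈ R χ, zf α ^ 2 : ℤ) : ℝ) := by
    push_cast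
    apply Finset.sum_congr rfl
    intro α hα
    rw [hzf α hα, Complex.norm_intCast, sq_abs]
  have hle : (n : ℤ) ≤ ∑ α ∈ R χ, zf α ^ 2 := by
    rw [← hsumZ]
    apply Finset.sum_le_sum
    intro α _
    exact Int.le_self_sq (zf α)
  have hre : (Cfsg.classInner χ χ).re = ((n : ℤ) : ℝ) := by
    rw [hn]; simp
  constructor
  · rw [hsq, hre]
    exact_mod_cast hle
  · intro hB
    rw [hXX, Complex.add_re, hsq, hre] at hB
    have hge : ((∑ α ∈ R χ, zf α ^ 2 : ℤ) : ℝ) ≤ ((n : ℤ) : ℝ) := by linarith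
    have hge' : ∑ α ∈ R χ, zf α ^ 2 ≤ (n : ℤ) := by exact_mod_cast hge
    have heq : ∑ α ∈ R χ, zf α ^ 2 = (n : ℤ) := le_antisymm hge' hle
    constructor
    · rw [hsq, hre, heq]
    · intro α hα
      have hdiff : ∑ α ∈ R χ, (zf α ^ 2 - zf α) = 0 := by
        rw [Finset.sum_sub_distrib, heq, hsumZ, sub_self]
      have hnn : ∀ α ∈ R χ, 0 ≤ zf α ^ 2 - zf α := fun α _ => by
        have := Int.le_self_sq (zf α)
        omega
      have h0 := (Finset.sum_eq_zero_iff_of_nonneg hnn).1 hdiff α hα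
      have h3 : zf α * (zf α - 1) = 0 := by ring_nf; ring_nf at h0; omega
      rw [hzf α hα]
      rcases mul_eq_zero.1 h3 with h | h
      · left; rw [h]; simp
      · right
        have : zf α = 1 := by omega
        rw [this]; simp

end Cfsg.Agent.S1515
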