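import Mathlib
import Cfsg.Statements.S1516
import Cfsg.Agent.Lib.Helper12.ZSpan

set_option autoImplicit false
open Cfsg

namespace Cfsg.Agent.S1516

open Cfsg.Agent.Lib.Helper2 Cfsg.Agent.Lib.Helper12
open scoped ComplexConjugate

theorem int_sq_sub_nonneg (c : ℤ) : 0 ≤ c ^ 2 - c := by nlinarith [sq_nonneg (2 * c - 1)]

/-- Bessel inequality for an orthogonal family with real coefficients -/
theorem bessel_orth {G : Type*} [Group G] [Fintype G] {ι : Type*} [DecidableEq ι] (s : Finset ι)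
    (e : ι → G → ℂ) (w : ι → ℝ) (hw : ∀ i ∈ s, 0 < w i)
    (horth : ∀ i ∈ s, ∀ j ∈ s, Cfsg.classInner (e i) (e j) = if i = j then (w i : ℂ) else 0)
    (Y : G → ℂ) (y : ι → ℝ) (hy : ∀ i ∈ s, Cfsg.classInner Y (e i) = (y i : ℂ)) :
    ∑ i ∈ s, y i ^ 2 / w i ≤ (Cfsg.classInner Y Y).re := by
  have h0 := classInner_self_re_nonneg (Y - ∑ i ∈ s, ((y i / w i : ℝ) : ℂ) • e i)
  have h1 : Cfsg.classInner Y (∑ i ∈ s, ((y i / w i : ℝ) : ℂ) • e i)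
      = ((∑ i ∈ s, y i ^ 2 / w i : ℝ) : ℂ) := by
    rw [classInner_sum_right]
    push_cast
    apply Finset.sum_congr rfl
    intro i hi
    rw [classInner_smul_right, hy i hi]
    simp only [map_div₀, Complex.conj_ofReal]
    ring
  have h2 : Cfsg.classInner (∑ i ∈ s, ((y i / w i : ℝ) : ℂ) • e i) Y
      = ((∑ i ∈ s, y i ^ 2 / w i : ℝ) : ℂ) := by
    rw [← classInner_conj_symm, h1, Complex.conj_ofReal]
  have h3 : Cfsg.classInner (∑ i ∈ s, ((y i / w i : ℝ) : ℂ) • e i)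
      (∑ i ∈ s, ((y i / w i : ℝ) : ℂ) • e i) = ((∑ i ∈ s, y i ^ 2 / w i : ℝ) : ℂ) := by
    rw [classInner_sum_left]
    push_cast
    apply Finset.sum_congr rfl
    intro i hi
    rw [classInner_sum_right, Finset.sum_eq_single i]
    · rw [classInner_smul_left, classInner_smul_right, horth i hi i hi, if_pos rfl]
      have hwi : (w i : ℂ) ≠ 0 := by
        have := (hw i hi).ne'
        exact_mod_cast this
      simp only [map_div₀, Complex.conj_ofReal]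
      field_simp
    · intro j hj hji
      rw [classInner_smul_left, classInner_smul_right, horth i hi j hj, if_neg (Ne.symm hji)]
      ring
    · intro hi'
      exact absurd hi hi'
  rw [classInner_sub_left, classInner_sub_right, classInner_sub_right, h1, h2, h3] at h0
  simp only [Complex.sub_re, Complex.ofReal_re] at h0
  linarith

/-- inner product of sums over an orthonormal family -/
theorem sum_inner_sum {G : Type*} [Group G] [Fintype G] (F F' : Finset (G → ℂ))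
    (ho : ∀ α ∈ F, ∀ γ ∈ F, Cfsg.classInner α γ = if α = γ then 1 else 0) (hsub : F' ⊆ F) :
    Cfsg.classInner (∑ α ∈ F, α) (∑ γ ∈ F', γ) = (F'.card : ℂ) := by
  classical
  rw [classInner_sum_right]
  have : ∀ γ ∈ F', Cfsg.classInner (∑ α ∈ F, α) γ = 1 := by
    intro γ hγ
    rw [classInner_sum_left, Finset.sum_eq_single γ]
    · rw [ho γ (hsub hγ) γ (hsub hγ), if_pos rfl]
    · intro α hα hne
      rw [ho α hα γ (hsub hγ), if_neg hne]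
    · intro h
      exact absurd (hsub hγ) h
  rw [Finset.sum_congr rfl this, Finset.sum_const, nsmul_eq_mul, mul_one]

/-- Let (S, τ, R) be a coherence system from L to G with degrees φ 1 = d φ and squared norms ⟨φ, φ⟩ = n φ for φ ∈ S. Let S₁ ⊆ S be a finite subset closed under complex conjugation such that (S₁, L minus 1, τ) is coherent, let χ ∈ S with χ ∉ S₁ and conj χ ∉ S₁, and let χ₁ ∈ S₁ with d χ₁ dividing d χ and 2 d χ d χ₁ < Σ_{φ ∈ S₁} (d φ)² / n φ. Then S₁ together with χ and conj χ is coherent. -/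
theorem result {L : Type*} [Group L] [Fintype L] {G : Type*} [Group G] [Fintype G] (S : Set (L → ℂ)) (τ : (L → ℂ) → (G → ℂ)) (R : (L → ℂ) → Finset (G → ℂ)) (hS : Cfsg.IsCoherenceSystem S τ R) (d n : (L → ℂ) → ℕ) (hd : ∀ φ ∈ S, φ 1 = (d φ : ℂ)) (hn : ∀ φ ∈ S, Cfsg.classInner φ φ = (n φ : ℂ)) (S₁ : Finset (L → ℂ)) (hS₁ : ↑S₁ ⊆ S) (hS₁c : ∀ φ ∈ S₁, Cfsg.conjFun φ ∈ S₁) (hcoh : Cfsg.IsCoherent (↑S₁ : Set (L → ℂ)) {1}ᶜ τ) (χ : L → ℂ) (hχ : χ ∈ S) (hχ₁ : χ ∉ S₁) (hχ₂ : Cfsg.conjFun χ ∉ S₁) (χ₁ : L → ℂ) (hχ₁S : χ₁ ∈ S₁) (hdvd : d χ₁ ∣ d χ) (hineq : (2 * d χ * d χ₁ : ℝ) < ∑ φ ∈ S₁, ((d φ : ℝ) ^ 2 / (n φ : ℝ))) : Cfsg.IsCoherent (↑S₁ ∪ {χ, Cfsg.conjFun χ} : Set (L → ℂ)) {1}ᶜ τ := by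
  classical
  obtain ⟨-, τ₁, hτ₁, hτ₁τ⟩ := hcoh
  set S1 : Set (L → ℂ) := (↑S₁ : Set (L → ℂ)) with hS1def
  have hτ := hS.isometry
  have hcl := zclosed_zspanOn S ({1}ᶜ : Set L)
  have hconj_conj : ∀ φ : L → ℂ, Cfsg.conjFun (Cfsg.conjFun φ) = φ := fun φ => by
    funext x; simp [Cfsg.conjFun]
  have hχc : Cfsg.conjFun χ ∈ S := hS.conj_mem χ hχ
  have hχcne : Cfsg.conjFun χ ≠ χ := hS.conj_ne χ hχ
  have hin : ∀ φ ∈ S, ∀ φ' ∈ S, Cfsg.classInner φ φ' = if φ = φ' then (n φ : ℂ) else 0 := by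
    intro φ hφ φ' hφ'
    by_cases h : φ = φ'
    · rw [if_pos h, ← h, hn φ hφ]
    · rw [if_neg h, hS.orthogonal φ hφ φ' hφ' h]
  have hnpos : ∀ φ ∈ S, 0 < n φ := by
    intro φ hφ
    rcases Nat.eq_zero_or_pos (n φ) with h | h
    · exfalso
      have h0 : Cfsg.classInner φ φ = 0 := by rw [hn φ hφ, h]; simp
      have h1 := eq_zero_of_classInner_self h0
      apply hS.conj_ne φ hφ
      rw [h1]; funext x; simp [Cfsg.conjFun]
    · exact h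
  have hdconj : ∀ φ ∈ S, d (Cfsg.conjFun φ) = d φ := by
    intro φ hφ
    have h1 := hd _ (hS.conj_mem φ hφ)
    have h2 : Cfsg.conjFun φ 1 = (d φ : ℂ) := by simp [Cfsg.conjFun, hd φ hφ]
    rw [h2] at h1
    exact_mod_cast h1.symm
  have hS1S : ∀ ξ ∈ S₁, ξ ∈ S := fun ξ hξ => hS₁ (Finset.mem_coe.mpr hξ)
  have hmem1 : ∀ ξ ∈ S₁, ξ ∈ Cfsg.zspan S1 := fun ξ hξ => zspan_of_mem (Finset.mem_coe.mpr hξ)
  have hS1sub : S1 ⊆ S := hS₁
  have hne_χ : ∀ ξ ∈ S₁, ξ ≠ χ := fun ξ hξ h => hχ₁ (h ▸ hξ)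
  have hne_χc : ∀ ξ ∈ S₁, ξ ≠ Cfsg.conjFun χ := fun ξ hξ h => hχ₂ (h ▸ hξ)
  have hRR : ∀ ξ ∈ S, ∀ ξ' ∈ S, ξ ≠ ξ' → ξ ≠ Cfsg.conjFun ξ' →
      ∀ α ∈ R ξ, ∀ γ ∈ R ξ', Cfsg.classInner α γ = 0 := by
    intro ξ hξ ξ' hξ' h1 h2 α hα γ hγ
    refine hS.disjoint ξ' hξ' ξ hξ ?_ ?_ α hα γ hγ
    · rw [hin ξ hξ ξ' hξ', if_neg h1]
    · rw [hin ξ hξ _ (hS.conj_mem ξ' hξ'), if_neg h2]
  have hχ₁Smem : χ₁ ∈ S := hS1S χ₁ hχ₁S
  have hcdiff : ∀ φ ∈ S, φ - Cfsg.conjFun φ ∈ Cfsg.zspanOn S {1}ᶜ := by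
    intro φ hφ
    rw [mem_zspanOn_one]
    refine ⟨zspan_sub (zspan_of_mem hφ) (zspan_of_mem (hS.conj_mem φ hφ)), ?_⟩
    rw [Pi.sub_apply, hd φ hφ, hd _ (hS.conj_mem φ hφ), hdconj φ hφ, sub_self]
  have hcdiff1 : ∀ ξ ∈ S₁, ξ - Cfsg.conjFun ξ ∈ Cfsg.zspanOn S1 {1}ᶜ := by
    intro ξ hξ
    rw [mem_zspanOn_one]
    refine ⟨zspan_sub (hmem1 ξ hξ) (hmem1 _ (hS₁c ξ hξ)), ?_⟩
    rw [Pi.sub_apply, hd ξ (hS1S ξ hξ), hd _ (hS.conj_mem ξ (hS1S ξ hξ)), hdconj ξ (hS1S ξ hξ),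
      sub_self]
  -- structure of τ₁ ξ
  have hSL : ∀ ξ ∈ S₁, ∃ u : (G → ℂ) → ℤ, τ₁ ξ = ∑ α ∈ R ξ, u α • α := by
    intro ξ hξ
    have hξS := hS1S ξ hξ
    have hgc : Cfsg.IsGeneralizedCharacter G (τ₁ ξ) := lio_genChar hτ₁ (hmem1 ξ hξ)
    have huex : ∀ α : G → ℂ, ∃ k : ℤ, α ∈ R ξ → Cfsg.classInner (τ₁ ξ) α = k := by
      intro α
      by_cases hα : α ∈ R ξ
      · obtain ⟨k, hk⟩ := genChar_inner_int hgc (hS.virtual ξ hξS α hα)
        exact ⟨k, fun _ => hk⟩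
      · exact ⟨0, fun h => absurd h hα⟩
    choose u hu using huex
    refine ⟨u, ?_⟩
    have hb := bessel_int (R ξ) (fun α => α) (hS.orthonormal ξ hξS) (τ₁ ξ) u hu
    have hnorm : Cfsg.classInner (τ₁ ξ) (τ₁ ξ) = (n ξ : ℂ) := by
      rw [lio_inner hτ₁ (hmem1 ξ hξ) (hmem1 ξ hξ), hn ξ hξS]
    have hcξ := hS₁c ξ hξ
    have horth0 : Cfsg.classInner (τ₁ ξ) (τ₁ (Cfsg.conjFun ξ)) = 0 := by
      rw [lio_inner hτ₁ (hmem1 ξ hξ) (hmem1 _ hcξ), hin ξ hξS _ (hS.conj_mem ξ hξS),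
        if_neg (Ne.symm (hS.conj_ne ξ hξS))]
    have hτ₁c : τ₁ (Cfsg.conjFun ξ) = τ₁ ξ - ∑ α ∈ R ξ, α := by
      have h1 := hτ₁τ _ (hcdiff1 ξ hξ)
      rw [lio_sub (zclosed_zspan S1) hτ₁ (hmem1 ξ hξ) (hmem1 _ hcξ), hS.sum_eq ξ hξS] at h1
      rw [← h1]; abel
    rw [hτ₁c, classInner_sub_right, hnorm, classInner_sum_right] at horth0
    have hsumu : ∑ α ∈ R ξ, u α = (n ξ : ℤ) := by
      have : ((∑ α ∈ R ξ, u α : ℤ) : ℂ) = (((n ξ : ℤ)) : ℂ) := by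
        push_cast
        rw [← Finset.sum_congr rfl (fun α hα => hu α hα)]
        linear_combination -horth0
      exact_mod_cast this
    have hW : Cfsg.classInner (τ₁ ξ - ∑ α ∈ R ξ, u α • α) (τ₁ ξ - ∑ α ∈ R ξ, u α • α)
        = ((-(∑ α ∈ R ξ, (u α ^ 2 - u α)) : ℤ) : ℂ) := by
      rw [hb, hnorm, Finset.sum_sub_distrib, hsumu]; push_cast; ring
    have hnn : 0 ≤ ∑ α ∈ R ξ, (u α ^ 2 - u α) :=
      Finset.sum_nonneg (fun α _ => int_sq_sub_nonneg _)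
    have hre := classInner_self_re_nonneg (τ₁ ξ - ∑ α ∈ R ξ, u α • α)
    rw [hW] at hre
    have hz : ∑ α ∈ R ξ, (u α ^ 2 - u α) = 0 := by
      have h1 : (0 : ℝ) ≤ ((-(∑ α ∈ R ξ, (u α ^ 2 - u α)) : ℤ) : ℝ) := by
        rw [Complex.intCast_re] at hre
        exact hre
      have h2 : (0 : ℤ) ≤ -(∑ α ∈ R ξ, (u α ^ 2 - u α)) := by exact_mod_cast h1
      linarith
    rw [hz] at hW
    have := eq_zero_of_classInner_self (by rw [hW]; simp)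
    exact sub_eq_zero.mp this
  have hτ₁R : ∀ α' ∈ R χ, ∀ γ ∈ Cfsg.zspan S1, Cfsg.classInner (τ₁ γ) α' = 0 := by
    intro α' hα'
    apply lio_span_inner_zero hτ₁ α'
    intro ξ hξ
    have hξ' : ξ ∈ S₁ := Finset.mem_coe.mp hξ
    obtain ⟨u, hu⟩ := hSL ξ hξ'
    rw [hu, classInner_sum_left]
    apply Finset.sum_eq_zero
    intro α hα
    rw [classInner_zsmul_left,
      hRR ξ (hS1S ξ hξ') χ hχ (hne_χ ξ hξ') (hne_χc ξ hξ') α hα α' hα', mul_zero]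
  -- degrees
  have hdpos : ∀ φ ∈ S, 0 < d φ := by
    intro φ hφ
    rcases Nat.eq_zero_or_pos (d φ) with h | h
    · exfalso
      have h0 : φ 1 = 0 := by rw [hd φ hφ, h]; simp
      obtain ⟨m, ρ, rfl⟩ := hS.isCharacter φ hφ
      rw [Representation.char_one] at h0
      have hm : m = 0 := by simpa using h0
      subst hm
      apply hS.conj_ne _ hφ
      have hzero : ρ.character = 0 := by
        funext g
        unfold Representation.character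
        have : Subsingleton ((Fin 0 → ℂ) →ₗ[ℂ] (Fin 0 → ℂ)) :=
          ⟨fun a b => by ext x i; exact i.elim0⟩
        rw [Subsingleton.elim (ρ g) 0, map_zero]
        rfl
      rw [hzero]; funext x; simp [Cfsg.conjFun]
    · exact h
  obtain ⟨a, ha⟩ := hdvd
  have hdχpos := hdpos χ hχ
  have hdχ₁pos := hdpos χ₁ hχ₁Smem
  have ha1 : 1 ≤ a := by
    rcases Nat.eq_zero_or_pos a with h | h
    · rw [h, mul_zero] at ha; omega
    · exact h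
  have hα₁ : χ - (a : ℤ) • χ₁ ∈ Cfsg.zspanOn S {1}ᶜ := by
    rw [mem_zspanOn_one]
    refine ⟨zspan_sub (zspan_of_mem hχ) (zspan_zsmul (zspan_of_mem hχ₁Smem) _), ?_⟩
    show χ 1 - (a : ℤ) • χ₁ 1 = 0
    rw [hd χ hχ, hd χ₁ hχ₁Smem, ha, zsmul_eq_mul]
    push_cast
    ring
  set β : G → ℂ := τ (χ - (a : ℤ) • χ₁) with hβ
  have hβgc : Cfsg.IsGeneralizedCharacter G β := lio_genChar hτ hα₁
  have hββ : Cfsg.classInner β β = (n χ : ℂ) + (a : ℂ) ^ 2 * n χ₁ := by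
    rw [hβ, lio_inner hτ hα₁ hα₁, classInner_sub_left, classInner_sub_right, classInner_sub_right,
      classInner_zsmul_left, classInner_zsmul_right, classInner_zsmul_left, classInner_zsmul_right,
      hin χ hχ χ hχ, if_pos rfl, hin χ hχ χ₁ hχ₁Smem, if_neg (Ne.symm (hne_χ χ₁ hχ₁S)),
      hin χ₁ hχ₁Smem χ hχ, if_neg (hne_χ χ₁ hχ₁S), hin χ₁ hχ₁Smem χ₁ hχ₁Smem, if_pos rfl]
    push_cast
    ring
  have hcex : ∀ α : G → ℂ, ∃ k : ℤ, α ∈ R χ → Cfsg.classInner β α = k := by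
    intro α
    by_cases hα : α ∈ R χ
    · obtain ⟨k, hk⟩ := genChar_inner_int hβgc (hS.virtual χ hχ α hα)
      exact ⟨k, fun _ => hk⟩
    · exact ⟨0, fun h => absurd h hα⟩
  choose c hc using hcex
  set X : G → ℂ := ∑ α ∈ R χ, c α • α with hX
  have hXgc : Cfsg.IsGeneralizedCharacter G X :=
    genChar_sum _ (fun α hα => genChar_zsmul _ (hS.virtual χ hχ α hα))
  have hXα : ∀ α ∈ R χ, Cfsg.classInner X α = c α := by
    intro α hα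
    rw [hX, classInner_sum_left, Finset.sum_eq_single α]
    · rw [classInner_zsmul_left, hS.orthonormal χ hχ α hα α hα, if_pos rfl, mul_one]
    · intro α' hα' hne
      rw [classInner_zsmul_left, hS.orthonormal χ hχ α' hα' α hα, if_neg hne, mul_zero]
    · intro h
      exact absurd hα h
  have hXX : Cfsg.classInner X X = ((∑ α ∈ R χ, c α ^ 2 : ℤ) : ℂ) := by
    conv_lhs => rw [hX]
    rw [classInner_sum_left]
    push_cast
    apply Finset.sum_congr rfl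
    intro α hα
    rw [classInner_zsmul_left, ← classInner_conj_symm, hXα α hα, map_intCast]
    ring
  have hsumc : ∑ α ∈ R χ, c α = (n χ : ℤ) := by
    have h1 := lio_inner hτ hα₁ (hcdiff χ hχ)
    rw [hS.sum_eq χ hχ, classInner_sum_right, classInner_sub_left, classInner_sub_right,
      classInner_sub_right, classInner_zsmul_left, classInner_zsmul_left, hin χ hχ χ hχ,
      if_pos rfl, hin χ hχ _ hχc, if_neg (Ne.symm hχcne), hin χ₁ hχ₁Smem χ hχ,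
      if_neg (hne_χ χ₁ hχ₁S), hin χ₁ hχ₁Smem _ hχc, if_neg (hne_χc χ₁ hχ₁S)] at h1
    have : ((∑ α ∈ R χ, c α : ℤ) : ℂ) = ((n χ : ℤ) : ℂ) := by
      push_cast
      rw [← Finset.sum_congr rfl (fun α hα => hc α hα), h1]
      ring
    exact_mod_cast this
  have hτ₁χ₁gc : Cfsg.IsGeneralizedCharacter G (τ₁ χ₁) := lio_genChar hτ₁ (hmem1 χ₁ hχ₁S)
  set Y : G → ℂ := β - X + (a : ℤ) • τ₁ χ₁ with hY
  have hYgc : Cfsg.IsGeneralizedCharacter G Y :=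
    genChar_add (genChar_sub hβgc hXgc) (genChar_zsmul _ hτ₁χ₁gc)
  have hYα : ∀ α ∈ R χ, Cfsg.classInner Y α = 0 := by
    intro α hα
    rw [hY, classInner_add_left, classInner_sub_left, classInner_zsmul_left, hc α hα, hXα α hα,
      hτ₁R α hα χ₁ (hmem1 χ₁ hχ₁S)]
    ring
  have hXY : Cfsg.classInner X Y = 0 := by
    rw [hX, classInner_sum_left]
    apply Finset.sum_eq_zero
    intro α hα
    rw [classInner_zsmul_left, ← classInner_conj_symm, hYα α hα, map_zero, mul_zero]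
  have hYX : Cfsg.classInner Y X = 0 := by rw [← classInner_conj_symm, hXY, map_zero]
  have hXτ₁ : ∀ γ ∈ Cfsg.zspan S1, Cfsg.classInner X (τ₁ γ) = 0 := by
    intro γ hγ
    rw [hX, classInner_sum_left]
    apply Finset.sum_eq_zero
    intro α hα
    rw [classInner_zsmul_left, ← classInner_conj_symm, hτ₁R α hα γ hγ, map_zero, mul_zero]
  have hτ₁X : ∀ γ ∈ Cfsg.zspan S1, Cfsg.classInner (τ₁ γ) X = 0 := by
    intro γ hγ
    rw [← classInner_conj_symm, hXτ₁ γ hγ, map_zero]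
  obtain ⟨s, hs⟩ := genChar_inner_int hYgc hτ₁χ₁gc
  have hs' : Cfsg.classInner (τ₁ χ₁) Y = s := by rw [← classInner_conj_symm, hs, map_intCast]
  have hT1T1 : Cfsg.classInner (τ₁ χ₁) (τ₁ χ₁) = (n χ₁ : ℂ) := by
    rw [lio_inner hτ₁ (hmem1 χ₁ hχ₁S) (hmem1 χ₁ hχ₁S), hn χ₁ hχ₁Smem]
  have hrel : ∀ ξ ∈ S₁, (d χ₁ : ℂ) * Cfsg.classInner Y (τ₁ ξ) = (d ξ : ℂ) * s := by
    intro ξ hξ
    by_cases hξ1 : ξ = χ₁
    · rw [hξ1, hs]
    · have hξS := hS1S ξ hξ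
      have hα₂ : (d χ₁ : ℤ) • ξ - (d ξ : ℤ) • χ₁ ∈ Cfsg.zspanOn S1 {1}ᶜ := by
        rw [mem_zspanOn_one]
        refine ⟨zspan_sub (zspan_zsmul (hmem1 ξ hξ) _) (zspan_zsmul (hmem1 χ₁ hχ₁S) _), ?_⟩
        show (d χ₁ : ℤ) • ξ 1 - (d ξ : ℤ) • χ₁ 1 = 0
        rw [hd ξ hξS, hd χ₁ hχ₁Smem, zsmul_eq_mul, zsmul_eq_mul]
        push_cast
        ring
      have h1 := lio_inner hτ hα₁ (zspanOn_mono hS1sub _ hα₂)
      rw [← hτ₁τ _ hα₂, lio_sub (zclosed_zspan S1) hτ₁ (zspan_zsmul (hmem1 ξ hξ) _)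
        (zspan_zsmul (hmem1 χ₁ hχ₁S) _), lio_zsmul hτ₁ (hmem1 ξ hξ),
        lio_zsmul hτ₁ (hmem1 χ₁ hχ₁S)] at h1
      rw [classInner_sub_right, classInner_zsmul_right, classInner_zsmul_right,
        classInner_sub_left, classInner_sub_right, classInner_sub_right, classInner_zsmul_right,
        classInner_zsmul_right, classInner_zsmul_left, classInner_zsmul_left,
        classInner_zsmul_right, classInner_zsmul_right,
        hin χ hχ ξ hξS, if_neg (Ne.symm (hne_χ ξ hξ)), hin χ hχ χ₁ hχ₁Smem,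
        if_neg (Ne.symm (hne_χ χ₁ hχ₁S)), hin χ₁ hχ₁Smem ξ hξS, if_neg (Ne.symm hξ1),
        hin χ₁ hχ₁Smem χ₁ hχ₁Smem, if_pos rfl] at h1
      have e1 : Cfsg.classInner Y (τ₁ ξ) = Cfsg.classInner β (τ₁ ξ) := by
        rw [hY, classInner_add_left, classInner_sub_left, classInner_zsmul_left,
          hXτ₁ ξ (hmem1 ξ hξ), lio_inner hτ₁ (hmem1 χ₁ hχ₁S) (hmem1 ξ hξ),
          hin χ₁ hχ₁Smem ξ hξS, if_neg (Ne.symm hξ1)]
        ring
      have e2 : (s : ℂ) = Cfsg.classInner β (τ₁ χ₁) + (a : ℂ) * n χ₁ := by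
        rw [← hs, hY, classInner_add_left, classInner_sub_left, classInner_zsmul_left,
          hXτ₁ χ₁ (hmem1 χ₁ hχ₁S), hT1T1]
        push_cast
        ring
      rw [e1, e2]
      push_cast at h1
      linear_combination h1
  have hβdecomp : β = X + Y - (a : ℤ) • τ₁ χ₁ := by rw [hY]; abel
  obtain ⟨NY, hNY⟩ := genChar_inner_int hYgc hYgc
  have hnormeq : ((∑ α ∈ R χ, c α ^ 2 : ℤ) : ℂ) + NY - 2 * a * s = (n χ : ℂ) := by
    have h1 := hββ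
    conv_lhs at h1 => rw [hβdecomp]
    simp only [classInner_sub_left, classInner_sub_right, classInner_add_left,
      classInner_add_right, classInner_zsmul_left, classInner_zsmul_right, hXX, hXY, hYX, hNY,
      hXτ₁ χ₁ (hmem1 χ₁ hχ₁S), hτ₁X χ₁ (hmem1 χ₁ hχ₁S), hs, hs', hT1T1] at h1
    push_cast at h1 ⊢
    linear_combination h1
  have hNX : (n χ : ℤ) ≤ ∑ α ∈ R χ, c α ^ 2 := by
    have h1 : 0 ≤ ∑ α ∈ R χ, (c α ^ 2 - c α) :=
      Finset.sum_nonneg (fun α _ => int_sq_sub_nonneg _)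
    rw [Finset.sum_sub_distrib, hsumc] at h1
    linarith
  have hint : (∑ α ∈ R χ, c α ^ 2) + NY - 2 * (a : ℤ) * s = (n χ : ℤ) := by
    exact_mod_cast hnormeq
  have hNY0 : 0 ≤ NY := by
    have h1 := classInner_self_re_nonneg Y
    rw [hNY, Complex.intCast_re] at h1
    exact_mod_cast h1
  have hNYle : NY ≤ 2 * (a : ℤ) * s := by linarith
  -- Bessel
  have horthτ₁ : ∀ ξ ∈ S₁, ∀ ξ' ∈ S₁,
      Cfsg.classInner (τ₁ ξ) (τ₁ ξ') = if ξ = ξ' then (((n ξ : ℝ)) : ℂ) else 0 := by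
    intro ξ hξ ξ' hξ'
    rw [lio_inner hτ₁ (hmem1 ξ hξ) (hmem1 ξ' hξ'), hin ξ (hS1S ξ hξ) ξ' (hS1S ξ' hξ')]
    push_cast
    rfl
  have hdχ₁ne : (d χ₁ : ℂ) ≠ 0 := by exact_mod_cast hdχ₁pos.ne'
  have hdχ₁ne' : (d χ₁ : ℝ) ≠ 0 := by exact_mod_cast hdχ₁pos.ne'
  have hy : ∀ ξ ∈ S₁, Cfsg.classInner Y (τ₁ ξ) = (((d ξ : ℝ) * s / d χ₁ : ℝ) : ℂ) := by
    intro ξ hξ
    have h1 := hrel ξ hξ
    push_cast
    field_simp
    linear_combination h1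
  have hbess := bessel_orth S₁ (fun ξ => τ₁ ξ) (fun ξ => (n ξ : ℝ))
    (fun ξ hξ => by exact_mod_cast hnpos ξ (hS1S ξ hξ)) horthτ₁ Y
    (fun ξ => (d ξ : ℝ) * s / d χ₁) hy
  rw [hNY, Complex.intCast_re] at hbess
  have hsumeq : ∑ ξ ∈ S₁, ((d ξ : ℝ) * s / d χ₁) ^ 2 / (n ξ : ℝ)
      = ((s : ℝ) ^ 2 / (d χ₁ : ℝ) ^ 2) * ∑ ξ ∈ S₁, ((d ξ : ℝ) ^ 2 / (n ξ : ℝ)) := by
    rw [Finset.mul_sum]
    apply Finset.sum_congr rfl
    intro ξ hξ
    have hnξ : (n ξ : ℝ) ≠ 0 := by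
      have := hnpos ξ (hS1S ξ hξ)
      exact_mod_cast this.ne'
    field_simp
  rw [hsumeq] at hbess
  have hs0 : s = 0 := by
    by_contra hsne
    have hs2 : (0 : ℝ) < (s : ℝ) ^ 2 := by
      have : (s : ℝ) ≠ 0 := by exact_mod_cast hsne
      positivity
    have hd2 : (0 : ℝ) < (d χ₁ : ℝ) ^ 2 := by positivity
    have hineq' : 2 * (a : ℝ) * (d χ₁ : ℝ) ^ 2 < ∑ φ ∈ S₁, ((d φ : ℝ) ^ 2 / (n φ : ℝ)) := by
      have e : (2 * (d χ : ℝ) * (d χ₁ : ℝ)) = 2 * (a : ℝ) * (d χ₁ : ℝ) ^ 2 := by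
        rw [ha]; push_cast; ring
      rw [← e]
      exact hineq
    have h1 : (s : ℝ) ^ 2 / (d χ₁ : ℝ) ^ 2 * (2 * (a : ℝ) * (d χ₁ : ℝ) ^ 2)
        < (s : ℝ) ^ 2 / (d χ₁ : ℝ) ^ 2 * ∑ φ ∈ S₁, ((d φ : ℝ) ^ 2 / (n φ : ℝ)) :=
      mul_lt_mul_of_pos_left hineq' (div_pos hs2 hd2)
    have h2 : (s : ℝ) ^ 2 / (d χ₁ : ℝ) ^ 2 * (2 * (a : ℝ) * (d χ₁ : ℝ) ^ 2)
        = 2 * (a : ℝ) * (s : ℝ) ^ 2 := by
      field_simp
    rw [h2] at h1
    have h3 : (NY : ℝ) ≤ 2 * (a : ℝ) * (s : ℝ) := by exact_mod_cast hNYle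
    have h4 : (s : ℝ) ≤ (s : ℝ) ^ 2 := by exact_mod_cast Int.le_self_sq s
    have ha0 : (0 : ℝ) < (a : ℝ) := by exact_mod_cast ha1
    nlinarith
  rw [hs0] at hNYle hint
  have hNYz : NY = 0 := by linarith
  have hY0 : Y = 0 := by
    apply eq_zero_of_classInner_self
    rw [hNY, hNYz]; simp
  have hXX' : Cfsg.classInner X X = (n χ : ℂ) := by
    rw [hXX]
    have : ∑ α ∈ R χ, c α ^ 2 = (n χ : ℤ) := by linarith
    rw [this]; simp
  have hβeq : β = X - (a : ℤ) • τ₁ χ₁ := by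
    rw [hβdecomp, hY0, add_zero]
  -- the conjugate image
  set sumR : G → ℂ := ∑ α ∈ R χ, α with hsumR
  have hsumRgc : Cfsg.IsGeneralizedCharacter G sumR := genChar_sum _ (hS.virtual χ hχ)
  have hXsum : Cfsg.classInner X sumR = (n χ : ℂ) := by
    rw [hsumR, classInner_sum_right, Finset.sum_congr rfl hXα]
    have : ((∑ α ∈ R χ, c α : ℤ) : ℂ) = ((n χ : ℤ) : ℂ) := by rw [hsumc]
    push_cast at this
    exact this
  have hsumX : Cfsg.classInner sumR X = (n χ : ℂ) := by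
    rw [← classInner_conj_symm, hXsum, Complex.conj_natCast]
  have hsumsum : Cfsg.classInner sumR sumR = (n χ : ℂ) + n (Cfsg.conjFun χ) := by
    rw [hsumR, ← hS.sum_eq χ hχ, lio_inner hτ (hcdiff χ hχ) (hcdiff χ hχ), classInner_sub_left,
      classInner_sub_right, classInner_sub_right, hin χ hχ χ hχ, if_pos rfl, hin χ hχ _ hχc,
      if_neg (Ne.symm hχcne), hin _ hχc χ hχ, if_neg hχcne, hin _ hχc _ hχc, if_pos rfl]
    ring
  set Xc : G → ℂ := X - sumR with hXc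
  have hXcgc : Cfsg.IsGeneralizedCharacter G Xc := genChar_sub hXgc hsumRgc
  have hXcXc : Cfsg.classInner Xc Xc = (n (Cfsg.conjFun χ) : ℂ) := by
    rw [hXc, classInner_sub_left, classInner_sub_right, classInner_sub_right, hXX', hXsum, hsumX, hsumsum]
    ring
  have hXXc : Cfsg.classInner X Xc = 0 := by
    rw [hXc, classInner_sub_right, hXX', hXsum, sub_self]
  have hXcX : Cfsg.classInner Xc X = 0 := by rw [← classInner_conj_symm, hXXc, map_zero]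
  have hsumτ₁ : ∀ γ ∈ Cfsg.zspan S1, Cfsg.classInner sumR (τ₁ γ) = 0 := by
    intro γ hγ
    rw [hsumR, classInner_sum_left]
    apply Finset.sum_eq_zero
    intro α hα
    rw [← classInner_conj_symm, hτ₁R α hα γ hγ, map_zero]
  have hXcτ₁ : ∀ γ ∈ Cfsg.zspan S1, Cfsg.classInner Xc (τ₁ γ) = 0 := by
    intro γ hγ
    rw [hXc, classInner_sub_left, hXτ₁ γ hγ, hsumτ₁ γ hγ, sub_zero]
  have hτ₁Xc : ∀ γ ∈ Cfsg.zspan S1, Cfsg.classInner (τ₁ γ) Xc = 0 := by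
    intro γ hγ
    rw [← classInner_conj_symm, hXcτ₁ γ hγ, map_zero]
  -- the new map
  set χc : L → ℂ := Cfsg.conjFun χ with hχcdef
  have hS2S : S1 ∪ {χ, χc} ⊆ S := by
    intro f hf
    rcases hf with hf | hf
    · exact hS1sub hf
    · rcases hf with hf | hf
      · rw [hf]; exact hχ
      · rw [Set.mem_singleton_iff] at hf
        rw [hf]; exact hχc
  have hdec : ∀ θ ∈ Cfsg.zspan (S1 ∪ {χ, χc}), ∃ γ ∈ Cfsg.zspan S1, ∃ k k' : ℤ,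
      θ = γ + k • χ + k' • χc := by
    intro θ hθ
    have hθ' : θ ∈ Submodule.span ℤ (S1 ∪ {χ, χc}) := hθ
    rw [Submodule.span_union, Submodule.mem_sup] at hθ'
    obtain ⟨y, hy, z, hz, rfl⟩ := hθ'
    rw [Submodule.mem_span_pair] at hz
    obtain ⟨k, k', rfl⟩ := hz
    exact ⟨y, hy, k, k', by abel⟩
  have hγχ : ∀ γ ∈ Cfsg.zspan S1, Cfsg.classInner γ χ = 0 :=
    span_inner_zero χ (fun ξ hξ => by
      have hξ' : ξ ∈ S₁ := Finset.mem_coe.mp hξ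
      rw [hin ξ (hS1S ξ hξ') χ hχ, if_neg (hne_χ ξ hξ')])
  have hγχc : ∀ γ ∈ Cfsg.zspan S1, Cfsg.classInner γ χc = 0 :=
    span_inner_zero χc (fun ξ hξ => by
      have hξ' : ξ ∈ S₁ := Finset.mem_coe.mp hξ
      rw [hin ξ (hS1S ξ hξ') χc hχc, if_neg (hne_χc ξ hξ')])
  have hχγ : ∀ γ ∈ Cfsg.zspan S1, Cfsg.classInner χ γ = 0 := fun γ hγ => by
    rw [← classInner_conj_symm, hγχ γ hγ, map_zero]
  have hχcγ : ∀ γ ∈ Cfsg.zspan S1, Cfsg.classInner χc γ = 0 := fun γ hγ => by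
    rw [← classInner_conj_symm, hγχc γ hγ, map_zero]
  have hnχ : (n χ : ℂ) ≠ 0 := by exact_mod_cast (hnpos χ hχ).ne'
  have hnχc : (n χc : ℂ) ≠ 0 := by exact_mod_cast (hnpos χc hχc).ne'
  let kf : (L → ℂ) → ℤ := fun θ => ⌊(Cfsg.classInner θ χ / n χ).re⌋
  let kf' : (L → ℂ) → ℤ := fun θ => ⌊(Cfsg.classInner θ χc / n χc).re⌋
  have hkf : ∀ (γ : L → ℂ), γ ∈ Cfsg.zspan S1 → ∀ k k' : ℤ, kf (γ + k • χ + k' • χc) = k := by
    intro γ hγ k k'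
    simp only [kf]
    have e : Cfsg.classInner (γ + k • χ + k' • χc) χ / n χ = (k : ℂ) := by
      rw [classInner_add_left, classInner_add_left, classInner_zsmul_left, classInner_zsmul_left,
        hγχ γ hγ, hin χ hχ χ hχ, if_pos rfl, hin χc hχc χ hχ, if_neg hχcne]
      field_simp
      ring
    rw [e]
    simp
  have hkf' : ∀ (γ : L → ℂ), γ ∈ Cfsg.zspan S1 → ∀ k k' : ℤ, kf' (γ + k • χ + k' • χc) = k' := by
    intro γ hγ k k'
    simp only [kf']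
    have e : Cfsg.classInner (γ + k • χ + k' • χc) χc / n χc = (k' : ℂ) := by
      rw [classInner_add_left, classInner_add_left, classInner_zsmul_left, classInner_zsmul_left,
        hγχc γ hγ, hin χ hχ χc hχc, if_neg (Ne.symm hχcne), hin χc hχc χc hχc, if_pos rfl]
      field_simp
      ring
    rw [e]
    simp
  let τ₂ : (L → ℂ) → (G → ℂ) := fun θ =>
    τ₁ (θ - kf θ • χ - kf' θ • χc) + kf θ • X + kf' θ • Xc
  have hτ₂ : ∀ (γ : L → ℂ), γ ∈ Cfsg.zspan S1 → ∀ k k' : ℤ,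
      τ₂ (γ + k • χ + k' • χc) = τ₁ γ + k • X + k' • Xc := by
    intro γ hγ k k'
    simp only [τ₂]
    rw [hkf γ hγ k k', hkf' γ hγ k k']
    congr 3
    abel
  have hχ1 : χ 1 = (d χ : ℂ) := hd χ hχ
  have hχc1 : χc 1 = (d χ : ℂ) := by rw [hd χc hχc, hχcdef, hdconj χ hχ]
  refine ⟨⟨χ - χc, ?_, sub_ne_zero.mpr (Ne.symm hχcne)⟩, τ₂,
    ⟨?_, ?_, ?_, ?_⟩, ?_⟩
  · rw [mem_zspanOn_one]
    refine ⟨zspan_sub (zspan_of_mem (Or.inr (Or.inl rfl)))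
      (zspan_of_mem (Or.inr (Or.inr rfl))), ?_⟩
    rw [Pi.sub_apply, hχ1, hχc1, sub_self]
  · intro θ hθ θ' hθ'
    obtain ⟨γ, hγ, k, k', rfl⟩ := hdec θ hθ
    obtain ⟨γ₂, hγ₂, k₂, k₂', rfl⟩ := hdec θ' hθ'
    have e1 : γ + k • χ + k' • χc + (γ₂ + k₂ • χ + k₂' • χc)
        = (γ + γ₂) + (k + k₂) • χ + (k' + k₂') • χc := by
      rw [add_smul, add_smul]; abel
    rw [e1, hτ₂ _ (zspan_add hγ hγ₂), hτ₂ _ hγ, hτ₂ _ hγ₂, lio_add hτ₁ hγ hγ₂, add_smul, add_smul]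
    abel
  · intro θ hθ m
    obtain ⟨γ, hγ, k, k', rfl⟩ := hdec θ hθ
    have e1 : m • (γ + k • χ + k' • χc) = m • γ + (m * k) • χ + (m * k') • χc := by
      rw [smul_add, smul_add, mul_smul, mul_smul]
    rw [e1, hτ₂ _ (zspan_zsmul hγ m), hτ₂ _ hγ, lio_zsmul hτ₁ hγ]
    have hgen2 : ∀ (u v w : G → ℂ), m • u + (m * k) • v + (m * k') • w
        = m • (u + k • v + k' • w) := fun u v w => by
      rw [smul_add, smul_add, mul_smul, mul_smul]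
    exact hgen2 _ _ _
  · intro θ hθ θ' hθ'
    obtain ⟨γ, hγ, k, k', rfl⟩ := hdec θ hθ
    obtain ⟨γ₂, hγ₂, k₂, k₂', rfl⟩ := hdec θ' hθ'
    rw [hτ₂ _ hγ, hτ₂ _ hγ₂]
    simp only [classInner_add_left, classInner_add_right, classInner_zsmul_left,
      classInner_zsmul_right, lio_inner hτ₁ hγ hγ₂, hXτ₁ γ₂ hγ₂, hτ₁X γ hγ, hXcτ₁ γ₂ hγ₂,
      hτ₁Xc γ hγ, hXX', hXcXc, hXXc, hXcX, hγχ γ hγ, hγχc γ hγ, hχγ γ₂ hγ₂, hχcγ γ₂ hγ₂,
      hin χ hχ χ hχ, hin χc hχc χc hχc, hin χ hχ χc hχc, hin χc hχc χ hχ, if_pos,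
      if_neg hχcne, if_neg (Ne.symm hχcne)]
  · intro θ hθ
    obtain ⟨γ, hγ, k, k', rfl⟩ := hdec θ hθ
    rw [hτ₂ _ hγ]
    exact genChar_add (genChar_add (lio_genChar hτ₁ hγ) (genChar_zsmul k hXgc))
      (genChar_zsmul k' hXcgc)
  · intro θ hθ
    have hθS := zspanOn_mono hS2S _ hθ
    rw [mem_zspanOn_one] at hθ
    obtain ⟨hθ1, hθ2⟩ := hθ
    obtain ⟨γ, hγ, k, k', rfl⟩ := hdec θ hθ1
    rw [hτ₂ _ hγ]
    have hθ2' : γ 1 + k • χ 1 + k' • χc 1 = 0 := hθ2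
    rw [hχ1, hχc1, zsmul_eq_mul, zsmul_eq_mul] at hθ2'
    have hγ' : γ + ((k + k') * (a : ℤ)) • χ₁ ∈ Cfsg.zspanOn S1 {1}ᶜ := by
      rw [mem_zspanOn_one]
      refine ⟨zspan_add hγ (zspan_zsmul (hmem1 χ₁ hχ₁S) _), ?_⟩
      show γ 1 + ((k + k') * (a : ℤ)) • χ₁ 1 = 0
      rw [hd χ₁ hχ₁Smem, zsmul_eq_mul]
      rw [ha] at hθ2'
      push_cast at hθ2' ⊢
      linear_combination hθ2'
    have e1 : γ + k • χ + k' • χc = (γ + ((k + k') * (a : ℤ)) • χ₁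
        + (k + k') • (χ - (a : ℤ) • χ₁)) - k' • (χ - χc) := by
      module
    have hγ'S := zspanOn_mono hS1sub _ hγ'
    rw [e1, lio_sub hcl hτ (zspanOn_add hγ'S (zspanOn_zsmul hα₁ _)) (zspanOn_zsmul (hcdiff χ hχ) _),
      lio_add hτ hγ'S (zspanOn_zsmul hα₁ _), lio_zsmul hτ hα₁, lio_zsmul hτ (hcdiff χ hχ),
      ← hτ₁τ _ hγ', lio_add hτ₁ hγ (zspan_zsmul (hmem1 χ₁ hχ₁S) _),
      lio_zsmul hτ₁ (hmem1 χ₁ hχ₁S), hS.sum_eq χ hχ, ← hβ, hβeq, hXc, ← hsumR]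
    module

end Cfsg.Agent.S1516
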