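import Mathlib
import Cfsg.Statements.S1517
import Cfsg.Agent.Lib.Helper12.ZSpan

set_option autoImplicit false
open Cfsg

namespace Cfsg.Agent.S1517

open Cfsg.Agent.Lib.Helper2 Cfsg.Agent.Lib.Helper12
open scoped ComplexConjugate

theorem int_sq_add_nonneg (c : ℤ) : 0 ≤ c ^ 2 + c := by nlinarith [sq_nonneg (2 * c + 1)]

theorem int_sq_sub_nonneg (c : ℤ) : 0 ≤ c ^ 2 - c := by nlinarith [sq_nonneg (2 * c - 1)]

theorem int_sq_add_eq_zero {c : ℤ} (h : c ^ 2 + c = 0) : c = 0 ∨ c = -1 := by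
  have : c * (c + 1) = 0 := by ring_nf; ring_nf at h; linarith
  rcases mul_eq_zero.mp this with h1 | h1
  · left; exact h1
  · right; linarith

theorem int_sq_sub_eq_zero {c : ℤ} (h : c ^ 2 - c = 0) : c = 0 ∨ c = 1 := by
  have : c * (c - 1) = 0 := by ring_nf; ring_nf at h; linarith
  rcases mul_eq_zero.mp this with h1 | h1
  · left; exact h1
  · right; linarith

theorem decomp {G : Type*} [Group G] [Fintype G] (β : G → ℂ)
    (hβ : Cfsg.IsGeneralizedCharacter G β) (F₁ F₂ : Finset (G → ℂ))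
    (hF₁ : ∀ α ∈ F₁, Cfsg.IsGeneralizedCharacter G α)
    (hF₂ : ∀ α ∈ F₂, Cfsg.IsGeneralizedCharacter G α)
    (ho₁ : ∀ α ∈ F₁, ∀ γ ∈ F₁, Cfsg.classInner α γ = if α = γ then 1 else 0)
    (ho₂ : ∀ α ∈ F₂, ∀ γ ∈ F₂, Cfsg.classInner α γ = if α = γ then 1 else 0)
    (ho₁₂ : ∀ α ∈ F₁, ∀ γ ∈ F₂, Cfsg.classInner α γ = 0)
    (n₁ n₂ : ℕ) (hββ : Cfsg.classInner β β = (n₁ : ℂ) + n₂)
    (h₁ : Cfsg.classInner β (∑ α ∈ F₁, α) = -(n₁ : ℂ))
    (h₂ : Cfsg.classInner β (∑ α ∈ F₂, α) = (n₂ : ℂ)) :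
    ∃ c : (G → ℂ) → ℤ, (∀ α ∈ F₁, Cfsg.classInner β α = c α ∧ (c α = 0 ∨ c α = -1)) ∧
      (∀ α ∈ F₂, Cfsg.classInner β α = c α ∧ (c α = 0 ∨ c α = 1)) ∧
      β = ∑ α ∈ F₁, c α • α + ∑ α ∈ F₂, c α • α ∧ ∑ α ∈ F₁, c α = -(n₁ : ℤ) := by
  classical
  have hcex : ∀ α : G → ℂ, ∃ k : ℤ, α ∈ F₁ ∪ F₂ → Cfsg.classInner β α = k := by
    intro α
    by_cases hα : α ∈ F₁ ∪ F₂
    · have hgc : Cfsg.IsGeneralizedCharacter G α := by
        rcases Finset.mem_union.mp hα with h | h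
        · exact hF₁ α h
        · exact hF₂ α h
      obtain ⟨k, hk⟩ := genChar_inner_int hβ hgc
      exact ⟨k, fun _ => hk⟩
    · exact ⟨0, fun h => absurd h hα⟩
  choose c hc using hcex
  have hdisj : Disjoint F₁ F₂ := by
    rw [Finset.disjoint_left]
    intro α h1 h2
    have e1 := ho₁₂ α h1 α h2
    have e2 := ho₁ α h1 α h1
    rw [if_pos rfl] at e2
    rw [e1] at e2
    exact zero_ne_one e2
  have hoF : ∀ α ∈ F₁ ∪ F₂, ∀ γ ∈ F₁ ∪ F₂, Cfsg.classInner α γ = if α = γ then 1 else 0 := by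
    intro α hα γ hγ
    rcases Finset.mem_union.mp hα with h | h <;> rcases Finset.mem_union.mp hγ with h' | h'
    · exact ho₁ α h γ h'
    · rw [ho₁₂ α h γ h', if_neg]
      rintro rfl
      exact Finset.disjoint_left.mp hdisj h h'
    · rw [← classInner_conj_symm, ho₁₂ γ h' α h, map_zero, if_neg]
      rintro rfl
      exact Finset.disjoint_left.mp hdisj h' h
    · exact ho₂ α h γ h'
  have hbess := bessel_int (F₁ ∪ F₂) (fun α => α) hoF β c (fun α hα => hc α hα)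
  have hs1 : ∑ α ∈ F₁, c α = -(n₁ : ℤ) := by
    rw [classInner_sum_right] at h₁
    have : ((∑ α ∈ F₁, c α : ℤ) : ℂ) = ((-(n₁ : ℤ) : ℤ) : ℂ) := by
      push_cast
      rw [← h₁]
      exact Finset.sum_congr rfl (fun α hα => (hc α (Finset.mem_union_left _ hα)).symm)
    exact_mod_cast this
  have hs2 : ∑ α ∈ F₂, c α = (n₂ : ℤ) := by
    rw [classInner_sum_right] at h₂
    have : ((∑ α ∈ F₂, c α : ℤ) : ℂ) = (((n₂ : ℤ) : ℤ) : ℂ) := by
      push_cast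
      rw [← h₂]
      exact Finset.sum_congr rfl (fun α hα => (hc α (Finset.mem_union_right _ hα)).symm)
    exact_mod_cast this
  have hle : ∑ α ∈ F₁ ∪ F₂, c α ^ 2 ≤ (n₁ : ℤ) + n₂ := by
    have h0 := classInner_self_re_nonneg (β - ∑ α ∈ F₁ ∪ F₂, c α • α)
    rw [hbess, hββ] at h0
    have h1 : ((n₁ : ℂ) + n₂ - ((∑ α ∈ F₁ ∪ F₂, c α ^ 2 : ℤ) : ℂ)).re
        = (n₁ : ℝ) + n₂ - ((∑ α ∈ F₁ ∪ F₂, c α ^ 2 : ℤ) : ℝ) := by
      have : ((n₁ : ℂ) + n₂ - ((∑ α ∈ F₁ ∪ F₂, c α ^ 2 : ℤ) : ℂ))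
          = (((n₁ : ℝ) + n₂ - ((∑ α ∈ F₁ ∪ F₂, c α ^ 2 : ℤ) : ℝ) : ℝ) : ℂ) := by
        push_cast; ring
      rw [this, Complex.ofReal_re]
    rw [h1] at h0
    have h2 : ((∑ α ∈ F₁ ∪ F₂, c α ^ 2 : ℤ) : ℝ) ≤ (((n₁ : ℤ) + n₂ : ℤ) : ℝ) := by
      push_cast
      push_cast at h0
      linarith
    exact_mod_cast h2
  rw [Finset.sum_union hdisj] at hle
  have hA : ∑ α ∈ F₁, (c α ^ 2 + c α) + ∑ α ∈ F₂, (c α ^ 2 - c α) ≤ 0 := by
    rw [Finset.sum_add_distrib, Finset.sum_sub_distrib, hs1, hs2]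
    linarith
  have hA1 : 0 ≤ ∑ α ∈ F₁, (c α ^ 2 + c α) := Finset.sum_nonneg (fun α _ => int_sq_add_nonneg _)
  have hA2 : 0 ≤ ∑ α ∈ F₂, (c α ^ 2 - c α) := Finset.sum_nonneg (fun α _ => int_sq_sub_nonneg _)
  have hB1 : ∑ α ∈ F₁, (c α ^ 2 + c α) = 0 := by linarith
  have hB2 : ∑ α ∈ F₂, (c α ^ 2 - c α) = 0 := by linarith
  have hC1 := (Finset.sum_eq_zero_iff_of_nonneg (fun α _ => int_sq_add_nonneg (c α))).mp hB1
  have hC2 := (Finset.sum_eq_zero_iff_of_nonneg (fun α _ => int_sq_sub_nonneg (c α))).mp hB2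
  refine ⟨c, fun α hα => ⟨hc α (Finset.mem_union_left _ hα), int_sq_add_eq_zero (hC1 α hα)⟩,
    fun α hα => ⟨hc α (Finset.mem_union_right _ hα), int_sq_sub_eq_zero (hC2 α hα)⟩, ?_, hs1⟩
  have hsq : ∑ α ∈ F₁ ∪ F₂, c α ^ 2 = (n₁ : ℤ) + n₂ := by
    rw [Finset.sum_union hdisj]
    rw [Finset.sum_add_distrib, hs1] at hB1
    rw [Finset.sum_sub_distrib, hs2] at hB2
    linarith
  have hΔ : β - ∑ α ∈ F₁ ∪ F₂, c α • α = 0 := by
    apply eq_zero_of_classInner_self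
    rw [hbess, hββ, hsq]
    push_cast
    ring
  rw [← Finset.sum_union hdisj]
  exact sub_eq_zero.mp hΔ

theorem char_eq_zero_of_apply_one {G : Type*} [Group G] {Θ : G → ℂ} (hΘ : Cfsg.IsCharacter G Θ)
    (h : Θ 1 = 0) : Θ = 0 := by
  obtain ⟨n, ρ, rfl⟩ := hΘ
  rw [Representation.char_one] at h
  have hn : n = 0 := by simpa using h
  subst hn
  funext g
  unfold Representation.character
  have : Subsingleton ((Fin 0 → ℂ) →ₗ[ℂ] (Fin 0 → ℂ)) := ⟨fun a b => by ext x i; exact i.elim0⟩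
  rw [Subsingleton.elim (ρ g) 0, map_zero]
  rfl

/-- inner product of sums over an orthonormal family -/
theorem sum_inner_sum {G : Type*} [Group G] [Fintype G] (F F' : Finset (G → ℂ))
    (ho : ∀ α ∈ F, ∀ γ ∈ F, Cfsg.classInner α γ = if α = γ then 1 else 0) (hsub : F' ⊆ F) :
    Cfsg.classInner (∑ α ∈ F, α) (∑ γ ∈ F', γ) = (F'.card : ℂ) := by
  classical
  rw [classInner_sum_right]
  have : ∀ γ ∈ F', Cfsg.classInner (∑ α ∈ F, α) γ = 1 := by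
    intro γ hγ
    rw [classInner_sum_left, Finset.sum_eq_single γ]
    · rw [ho γ (hsub hγ) γ (hsub hγ), if_pos rfl]
    · intro α hα hne
      rw [ho α hα γ (hsub hγ), if_neg hne]
    · intro h
      exact absurd (hsub hγ) h
  rw [Finset.sum_congr rfl this, Finset.sum_const, nsmul_eq_mul, mul_one]

/-- Let (S, τ, R) be a coherence system from L to G such that φ 1 = ψ 1 for all φ, ψ ∈ S. Then (S, L minus 1, τ) is coherent. -/
theorem result {L : Type*} [Group L] [Fintype L] {G : Type*} [Group G] [Fintype G] (S : Set (L → ℂ)) (τ : (L → ℂ) → (G → ℂ)) (R : (L → ℂ) → Finset (G → ℂ)) (hS : Cfsg.IsCoherenceSystem S τ R) (hdeg : ∀ φ ∈ S, ∀ ψ ∈ S, φ 1 = ψ 1) : Cfsg.IsCoherent S {1}ᶜ τ := by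
  classical
  obtain ⟨χ₁, hχ₁⟩ := hS.nonempty
  have hτ := hS.isometry
  have hcl := zclosed_zspanOn S ({1}ᶜ : Set L)
  have hconj_conj : ∀ χ : L → ℂ, Cfsg.conjFun (Cfsg.conjFun χ) = χ := fun χ => by
    funext x; simp [Cfsg.conjFun]
  have hd0 : χ₁ 1 ≠ 0 := by
    intro h0
    have h1 := char_eq_zero_of_apply_one (hS.isCharacter χ₁ hχ₁) h0
    apply hS.conj_ne χ₁ hχ₁
    rw [h1]; funext x; simp [Cfsg.conjFun]
  have hnat : ∀ χ : L → ℂ, ∃ n : ℕ, χ ∈ S → Cfsg.classInner χ χ = n := by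
    intro χ
    by_cases hχ : χ ∈ S
    · obtain ⟨n, hn⟩ := classInner_isCharacter_nat (hS.isCharacter χ hχ) (hS.isCharacter χ hχ)
      exact ⟨n, fun _ => hn⟩
    · exact ⟨0, fun h => absurd h hχ⟩
  choose nn hnn using hnat
  have hin : ∀ χ ∈ S, ∀ φ ∈ S, Cfsg.classInner χ φ = if χ = φ then (nn χ : ℂ) else 0 := by
    intro χ hχ φ hφ
    by_cases h : χ = φ
    · rw [if_pos h, ← h, hnn χ hχ]
    · rw [if_neg h, hS.orthogonal χ hχ φ hφ h]
  have hmem : ∀ ξ ∈ S, ξ ∈ Cfsg.zspan S := fun ξ hξ => zspan_of_mem hξ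
  have hdiff : ∀ ξ ∈ S, ∀ ξ' ∈ S, ξ - ξ' ∈ Cfsg.zspanOn S {1}ᶜ := by
    intro ξ hξ ξ' hξ'
    rw [mem_zspanOn_one]
    exact ⟨zspan_sub (hmem ξ hξ) (hmem ξ' hξ'), by rw [Pi.sub_apply, hdeg ξ hξ ξ' hξ', sub_self]⟩
  have hc₁ : Cfsg.conjFun χ₁ ∈ S := hS.conj_mem χ₁ hχ₁
  have hc₁ne : Cfsg.conjFun χ₁ ≠ χ₁ := hS.conj_ne χ₁ hχ₁
  -- orthogonality between the R-sets
  have hRR : ∀ ξ ∈ S, ∀ ξ' ∈ S, ξ ≠ ξ' → ξ ≠ Cfsg.conjFun ξ' →
      ∀ α ∈ R ξ, ∀ γ ∈ R ξ', Cfsg.classInner α γ = 0 := by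
    intro ξ hξ ξ' hξ' h1 h2 α hα γ hγ
    refine hS.disjoint ξ' hξ' ξ hξ ?_ ?_ α hα γ hγ
    · rw [hin ξ hξ ξ' hξ', if_neg h1]
    · rw [hin ξ hξ _ (hS.conj_mem ξ' hξ'), if_neg h2]
  -- decomposition of τ (ξ - χ₁)
  have hA : ∀ ξ ∈ S, ξ ≠ χ₁ → ξ ≠ Cfsg.conjFun χ₁ → ∃ c : (G → ℂ) → ℤ,
      (∀ α ∈ R χ₁, Cfsg.classInner (τ (ξ - χ₁)) α = c α ∧ (c α = 0 ∨ c α = -1)) ∧
      (∀ α ∈ R ξ, Cfsg.classInner (τ (ξ - χ₁)) α = c α ∧ (c α = 0 ∨ c α = 1)) ∧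
      τ (ξ - χ₁) = ∑ α ∈ R χ₁, c α • α + ∑ α ∈ R ξ, c α • α ∧
      ∑ α ∈ R χ₁, c α = -(nn χ₁ : ℤ) := by
    intro ξ hξ hne1 hne2
    have hcξ : Cfsg.conjFun ξ ∈ S := hS.conj_mem ξ hξ
    have hne3 : χ₁ ≠ Cfsg.conjFun ξ := by
      intro h
      apply hne2
      rw [h, hconj_conj]
    apply decomp (τ (ξ - χ₁)) (lio_genChar hτ (hdiff ξ hξ χ₁ hχ₁)) (R χ₁) (R ξ)
      (hS.virtual χ₁ hχ₁) (hS.virtual ξ hξ) (hS.orthonormal χ₁ hχ₁) (hS.orthonormal ξ hξ)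
      (hRR χ₁ hχ₁ ξ hξ (Ne.symm hne1) hne3) (nn χ₁) (nn ξ)
    · rw [lio_inner hτ (hdiff ξ hξ χ₁ hχ₁) (hdiff ξ hξ χ₁ hχ₁), classInner_sub_left,
        classInner_sub_right, classInner_sub_right, hin ξ hξ ξ hξ, if_pos rfl,
        hin ξ hξ χ₁ hχ₁, if_neg hne1, hin χ₁ hχ₁ ξ hξ, if_neg (Ne.symm hne1),
        hin χ₁ hχ₁ χ₁ hχ₁, if_pos rfl]
      ring
    · rw [← hS.sum_eq χ₁ hχ₁, lio_inner hτ (hdiff ξ hξ χ₁ hχ₁) (hdiff χ₁ hχ₁ _ hc₁),
        classInner_sub_left, classInner_sub_right, classInner_sub_right,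
        hin ξ hξ χ₁ hχ₁, if_neg hne1, hin ξ hξ _ hc₁, if_neg hne2,
        hin χ₁ hχ₁ χ₁ hχ₁, if_pos rfl, hin χ₁ hχ₁ _ hc₁, if_neg (Ne.symm hc₁ne)]
      ring
    · rw [← hS.sum_eq ξ hξ, lio_inner hτ (hdiff ξ hξ χ₁ hχ₁) (hdiff ξ hξ _ hcξ),
        classInner_sub_left, classInner_sub_right, classInner_sub_right,
        hin ξ hξ ξ hξ, if_pos rfl, hin ξ hξ _ hcξ, if_neg (Ne.symm (hS.conj_ne ξ hξ)),
        hin χ₁ hχ₁ ξ hξ, if_neg (Ne.symm hne1), hin χ₁ hχ₁ _ hcξ, if_neg hne3]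
      ring
  -- the distinguished half of R χ₁
  have hR1 : ∃ R1 : Finset (G → ℂ), R1 ⊆ R χ₁ ∧ R1.card = nn χ₁ ∧
      ∀ ξ ∈ S, ξ ≠ χ₁ → ξ ≠ Cfsg.conjFun χ₁ → ∀ α ∈ R1,
        Cfsg.classInner (τ (ξ - χ₁)) α = -1 := by
    by_cases hex : ∃ ξ₀ ∈ S, ξ₀ ≠ χ₁ ∧ ξ₀ ≠ Cfsg.conjFun χ₁
    · obtain ⟨ξ₀, hξ₀, hne1, hne2⟩ := hex
      obtain ⟨c0, h01, h02, h03, h04⟩ := hA ξ₀ hξ₀ hne1 hne2
      refine ⟨(R χ₁).filter (fun α => c0 α = -1), Finset.filter_subset _ _, ?_, ?_⟩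
      · have e1 : ∑ α ∈ R χ₁, c0 α = ∑ α ∈ R χ₁, (if c0 α = -1 then (-1 : ℤ) else 0) :=
          Finset.sum_congr rfl (fun α hα => by rcases (h01 α hα).2 with h | h <;> simp [h])
        rw [e1, Finset.sum_ite, Finset.sum_const, Finset.sum_const_zero, add_zero] at h04
        have e2 : (((R χ₁).filter (fun α => c0 α = -1)).card : ℤ) = (nn χ₁ : ℤ) := by
          simp only [nsmul_eq_mul, mul_neg, mul_one] at h04
          linarith
        exact_mod_cast e2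
      · intro ξ hξ hξ1 hξ2 α hα
        rw [Finset.mem_filter] at hα
        obtain ⟨hαR, hα1⟩ := hα
        by_cases e1 : ξ = ξ₀
        · rw [e1, (h01 α hαR).1, hα1]
          norm_num
        by_cases e2 : ξ = Cfsg.conjFun ξ₀
        · have hsplit : Cfsg.conjFun ξ₀ - χ₁ = (ξ₀ - χ₁) - (ξ₀ - Cfsg.conjFun ξ₀) := by abel
          rw [e2, hsplit, lio_sub hcl hτ (hdiff ξ₀ hξ₀ χ₁ hχ₁) (hdiff ξ₀ hξ₀ _ (hS.conj_mem ξ₀ hξ₀)),
            hS.sum_eq ξ₀ hξ₀, classInner_sub_left, (h01 α hαR).1, hα1, classInner_sum_left]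
          have hz : ∑ γ ∈ R ξ₀, Cfsg.classInner γ α = 0 := by
            apply Finset.sum_eq_zero
            intro γ hγ
            have hne3 : χ₁ ≠ Cfsg.conjFun ξ₀ := by
              intro h
              apply hne2
              rw [h, hconj_conj]
            rw [← classInner_conj_symm, hRR χ₁ hχ₁ ξ₀ hξ₀ (Ne.symm hne1) hne3 α hαR γ hγ, map_zero]
          rw [hz]
          norm_num
        · obtain ⟨c, h11, h12, h13, h14⟩ := hA ξ hξ hξ1 hξ2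
          rw [(h11 α hαR).1]
          -- inner product of the two images
          have hne3 : χ₁ ≠ Cfsg.conjFun ξ₀ := by
            intro h
            apply hne2
            rw [h, hconj_conj]
          have hne4 : ξ ≠ Cfsg.conjFun ξ₀ := e2
          have hzero : ∀ γ ∈ R ξ₀, Cfsg.classInner γ (τ (ξ - χ₁)) = 0 := by
            intro γ hγ
            rw [h13, classInner_add_right, classInner_sum_right, classInner_sum_right]
            have z1 : ∑ δ ∈ R χ₁, Cfsg.classInner γ (c δ • δ) = 0 := by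
              apply Finset.sum_eq_zero
              intro δ hδ
              rw [classInner_zsmul_right, ← classInner_conj_symm,
                hRR χ₁ hχ₁ ξ₀ hξ₀ (Ne.symm hne1) hne3 δ hδ γ hγ, map_zero, mul_zero]
            have z2 : ∑ δ ∈ R ξ, Cfsg.classInner γ (c δ • δ) = 0 := by
              apply Finset.sum_eq_zero
              intro δ hδ
              rw [classInner_zsmul_right, ← classInner_conj_symm,
                hRR ξ hξ ξ₀ hξ₀ e1 hne4 δ hδ γ hγ, map_zero, mul_zero]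
            rw [z1, z2, add_zero]
          have hprod : ∑ δ ∈ R χ₁, c0 δ * c δ = (nn χ₁ : ℤ) := by
            have h1 := lio_inner hτ (hdiff ξ₀ hξ₀ χ₁ hχ₁) (hdiff ξ hξ χ₁ hχ₁)
            rw [classInner_sub_left, classInner_sub_right, classInner_sub_right,
              hin ξ₀ hξ₀ ξ hξ, if_neg (Ne.symm e1), hin ξ₀ hξ₀ χ₁ hχ₁, if_neg hne1,
              hin χ₁ hχ₁ ξ hξ, if_neg (Ne.symm hξ1), hin χ₁ hχ₁ χ₁ hχ₁, if_pos rfl] at h1
            conv_lhs at h1 => rw [h03]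
            rw [classInner_add_left, classInner_sum_left, classInner_sum_left] at h1
            have z3 : ∑ δ ∈ R ξ₀, Cfsg.classInner (c0 δ • δ) (τ (ξ - χ₁)) = 0 := by
              apply Finset.sum_eq_zero
              intro δ hδ
              rw [classInner_zsmul_left, hzero δ hδ, mul_zero]
            rw [z3, add_zero] at h1
            have e3 : ∑ δ ∈ R χ₁, Cfsg.classInner (c0 δ • δ) (τ (ξ - χ₁))
                = ((∑ δ ∈ R χ₁, c0 δ * c δ : ℤ) : ℂ) := by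
              push_cast
              apply Finset.sum_congr rfl
              intro δ hδ
              rw [classInner_zsmul_left, ← classInner_conj_symm, (h11 δ hδ).1, map_intCast]
            rw [e3] at h1
            have e4 : ((∑ δ ∈ R χ₁, c0 δ * c δ : ℤ) : ℂ) = (((nn χ₁ : ℤ) : ℤ) : ℂ) := by
              rw [h1]; push_cast; ring
            exact_mod_cast e4
          have hterm : ∀ δ ∈ R χ₁, 0 ≤ c0 δ * (c0 δ - c δ) := by
            intro δ hδ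
            rcases (h01 δ hδ).2 with h | h <;> rcases (h11 δ hδ).2 with h' | h' <;>
              rw [h, h'] <;> norm_num
          have hsumz : ∑ δ ∈ R χ₁, c0 δ * (c0 δ - c δ) = 0 := by
            have e5 : ∑ δ ∈ R χ₁, c0 δ * (c0 δ - c δ)
                = ∑ δ ∈ R χ₁, (-(c0 δ)) - ∑ δ ∈ R χ₁, c0 δ * c δ := by
              rw [← Finset.sum_sub_distrib]
              apply Finset.sum_congr rfl
              intro δ hδ
              rcases (h01 δ hδ).2 with h | h <;> rw [h] <;> ring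
            rw [e5, Finset.sum_neg_distrib, h04, hprod]
            ring
          have hα0 := (Finset.sum_eq_zero_iff_of_nonneg hterm).mp hsumz α hαR
          rw [hα1] at hα0
          have : c α = -1 := by linarith
          rw [this]
          norm_num
    · push Not at hex
      have hcard : nn χ₁ ≤ (R χ₁).card := by
        have h1 := sum_inner_sum (R χ₁) (R χ₁) (hS.orthonormal χ₁ hχ₁) (Finset.Subset.refl _)
        rw [← hS.sum_eq χ₁ hχ₁, lio_inner hτ (hdiff χ₁ hχ₁ _ hc₁) (hdiff χ₁ hχ₁ _ hc₁),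
          classInner_sub_left, classInner_sub_right, classInner_sub_right,
          hin χ₁ hχ₁ χ₁ hχ₁, if_pos rfl, hin χ₁ hχ₁ _ hc₁, if_neg (Ne.symm hc₁ne),
          hin _ hc₁ χ₁ hχ₁, if_neg hc₁ne, hin _ hc₁ _ hc₁, if_pos rfl] at h1
        have h2 : ((nn χ₁ + nn (Cfsg.conjFun χ₁) : ℕ) : ℂ) = (((R χ₁).card : ℕ) : ℂ) := by
          rw [← h1]; push_cast; ring
        have h3 : nn χ₁ + nn (Cfsg.conjFun χ₁) = (R χ₁).card := by exact_mod_cast h2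
        omega
      obtain ⟨R1, hR1sub, hR1card⟩ := Finset.exists_subset_card_eq hcard
      refine ⟨R1, hR1sub, hR1card, ?_⟩
      intro ξ hξ h1 h2
      exact absurd h2 (not_not.mpr (hex ξ hξ h1))
  obtain ⟨R1, hR1sub, hR1card, hR1P⟩ := hR1
  set T : G → ℂ := ∑ α ∈ R1, α with hT
  have hTgc : Cfsg.IsGeneralizedCharacter G T :=
    genChar_sum R1 (fun α hα => hS.virtual χ₁ hχ₁ α (hR1sub hα))
  have hTT : Cfsg.classInner T T = (nn χ₁ : ℂ) := by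
    rw [hT, sum_inner_sum R1 R1 (fun α hα γ hγ => hS.orthonormal χ₁ hχ₁ α (hR1sub hα) γ (hR1sub hγ))
      (Finset.Subset.refl _), hR1card]
  have hT3 : ∀ ξ ∈ S, ξ ≠ χ₁ → ξ ≠ Cfsg.conjFun χ₁ →
      Cfsg.classInner (τ (ξ - χ₁)) T = -(nn χ₁ : ℂ) := by
    intro ξ hξ h1 h2
    rw [hT, classInner_sum_right, Finset.sum_congr rfl (hR1P ξ hξ h1 h2), Finset.sum_const,
      hR1card]
    simp
  have hT4 : Cfsg.classInner (τ (Cfsg.conjFun χ₁ - χ₁)) T = -(nn χ₁ : ℂ) := by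
    have e1 : Cfsg.conjFun χ₁ - χ₁ = -(χ₁ - Cfsg.conjFun χ₁) := by abel
    rw [e1, lio_neg hτ (hdiff χ₁ hχ₁ _ hc₁), hS.sum_eq χ₁ hχ₁, classInner_neg_left, hT,
      sum_inner_sum (R χ₁) R1 (hS.orthonormal χ₁ hχ₁) hR1sub, hR1card]
  -- generators
  have hgen : ∀ ξ ∈ S, Cfsg.classInner (τ (ξ - χ₁)) T = Cfsg.classInner (ξ - χ₁) χ₁ := by
    intro ξ hξ
    by_cases e1 : ξ = χ₁
    · rw [e1, sub_self, lio_zero hcl hτ]
      simp [classInner_def]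
    by_cases e2 : ξ = Cfsg.conjFun χ₁
    · rw [e2, hT4, classInner_sub_left, hin _ hc₁ χ₁ hχ₁, if_neg hc₁ne, hin χ₁ hχ₁ χ₁ hχ₁,
        if_pos rfl]
      ring
    · rw [hT3 ξ hξ e1 e2, classInner_sub_left, hin ξ hξ χ₁ hχ₁, if_neg e1, hin χ₁ hχ₁ χ₁ hχ₁,
        if_pos rfl]
      ring
  let D : Set (L → ℂ) := {f | ∃ ξ ∈ S, f = ξ - χ₁}
  have hD1 : ∀ θ ∈ Cfsg.zspan S, ∃ m : ℤ, θ - m • χ₁ ∈ Cfsg.zspan D ∧ θ 1 = (m : ℂ) * χ₁ 1 := by
    intro θ hθ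
    have hθ' : θ ∈ Submodule.span ℤ S := hθ
    induction hθ' using Submodule.span_induction with
    | mem x hx =>
      refine ⟨1, ?_, ?_⟩
      · rw [one_smul]
        exact zspan_of_mem ⟨x, hx, rfl⟩
      · rw [hdeg x hx χ₁ hχ₁]; simp
    | zero => exact ⟨0, by rw [zero_smul, sub_zero]; exact zspan_zero D, by simp⟩
    | add x y hx hy ihx ihy =>
      obtain ⟨a, ha1, ha2⟩ := ihx hx
      obtain ⟨b, hb1, hb2⟩ := ihy hy
      refine ⟨a + b, ?_, ?_⟩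
      · have e : x + y - (a + b) • χ₁ = (x - a • χ₁) + (y - b • χ₁) := by
          rw [add_smul]; abel
        rw [e]
        exact zspan_add ha1 hb1
      · rw [Pi.add_apply, ha2, hb2]; push_cast; ring
    | smul n x hx ihx =>
      obtain ⟨a, ha1, ha2⟩ := ihx hx
      refine ⟨n * a, ?_, ?_⟩
      · have e : n • x - (n * a) • χ₁ = n • (x - a • χ₁) := by
          rw [smul_sub, mul_smul]
        rw [e]
        exact zspan_zsmul ha1 n
      · rw [Pi.smul_apply, ha2, zsmul_eq_mul]; push_cast; ring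
  have hD2 : ∀ γ ∈ Cfsg.zspan D, γ ∈ Cfsg.zspanOn S {1}ᶜ ∧
      Cfsg.classInner (τ γ) T = Cfsg.classInner γ χ₁ := by
    intro γ hγ
    have hγ' : γ ∈ Submodule.span ℤ D := hγ
    induction hγ' using Submodule.span_induction with
    | mem x hx =>
      obtain ⟨ξ, hξ, rfl⟩ := hx
      exact ⟨hdiff ξ hξ χ₁ hχ₁, hgen ξ hξ⟩
    | zero =>
      refine ⟨zspanOn_zero S _, ?_⟩
      rw [lio_zero hcl hτ]
      simp [classInner_def]
    | add x y hx hy ihx ihy =>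
      obtain ⟨a1, a2⟩ := ihx hx
      obtain ⟨b1, b2⟩ := ihy hy
      refine ⟨zspanOn_add a1 b1, ?_⟩
      rw [lio_add hτ a1 b1, classInner_add_left, classInner_add_left, a2, b2]
    | smul n x hx ihx =>
      obtain ⟨a1, a2⟩ := ihx hx
      refine ⟨zspanOn_zsmul a1 n, ?_⟩
      rw [lio_zsmul hτ a1, classInner_zsmul_left, classInner_zsmul_left, a2]
  have hC : ∀ γ ∈ Cfsg.zspanOn S {1}ᶜ, Cfsg.classInner (τ γ) T = Cfsg.classInner γ χ₁ := by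
    intro γ hγ
    rw [mem_zspanOn_one] at hγ
    obtain ⟨m, hm1, hm2⟩ := hD1 γ hγ.1
    rw [hγ.2] at hm2
    have hm0 : m = 0 := by
      rcases mul_eq_zero.mp hm2.symm with h | h
      · exact_mod_cast h
      · exact absurd h hd0
    rw [hm0, zero_smul, sub_zero] at hm1
    exact (hD2 γ hm1).2
  have hC' : ∀ γ ∈ Cfsg.zspanOn S {1}ᶜ, Cfsg.classInner T (τ γ) = Cfsg.classInner χ₁ γ := by
    intro γ hγ
    rw [← classInner_conj_symm, hC γ hγ, classInner_conj_symm]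
  -- representation of elements of the span
  have hrep : ∀ θ ∈ Cfsg.zspan S, ∃ m : ℤ, ∃ γ ∈ Cfsg.zspanOn S {1}ᶜ, θ = γ + m • χ₁ := by
    intro θ hθ
    obtain ⟨m, hm1, hm2⟩ := hD1 θ hθ
    exact ⟨m, θ - m • χ₁, (hD2 _ hm1).1, by abel⟩
  let mm : (L → ℂ) → ℤ := fun θ => ⌊(θ 1 / χ₁ 1).re⌋
  have hmm : ∀ (m : ℤ) (γ : L → ℂ), γ ∈ Cfsg.zspanOn S {1}ᶜ → mm (γ + m • χ₁) = m := by
    intro m γ hγ
    rw [mem_zspanOn_one] at hγ
    simp only [mm]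
    have e : (γ + m • χ₁) 1 / χ₁ 1 = (m : ℂ) := by
      rw [Pi.add_apply, hγ.2, zero_add, Pi.smul_apply, zsmul_eq_mul, mul_div_assoc, div_self hd0,
        mul_one]
    rw [e]
    simp
  let τ₁ : (L → ℂ) → (G → ℂ) := fun θ => τ (θ - mm θ • χ₁) + mm θ • T
  have hτ₁ : ∀ (m : ℤ) (γ : L → ℂ), γ ∈ Cfsg.zspanOn S {1}ᶜ → τ₁ (γ + m • χ₁) = τ γ + m • T := by
    intro m γ hγ
    simp only [τ₁]
    rw [hmm m γ hγ, add_sub_cancel_right]
  refine ⟨⟨χ₁ - Cfsg.conjFun χ₁, hdiff χ₁ hχ₁ _ hc₁, sub_ne_zero.mpr (Ne.symm hc₁ne)⟩, τ₁,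
    ⟨?_, ?_, ?_, ?_⟩, ?_⟩
  · intro θ hθ θ' hθ'
    obtain ⟨m, γ, hγ, rfl⟩ := hrep θ hθ
    obtain ⟨m', γ', hγ', rfl⟩ := hrep θ' hθ'
    have e1 : γ + m • χ₁ + (γ' + m' • χ₁) = (γ + γ') + (m + m') • χ₁ := by
      rw [add_smul]; abel
    rw [e1, hτ₁ _ _ (zspanOn_add hγ hγ'), hτ₁ _ _ hγ, hτ₁ _ _ hγ', lio_add hτ hγ hγ', add_smul]
    abel
  · intro θ hθ n
    obtain ⟨m, γ, hγ, rfl⟩ := hrep θ hθ
    have e1 : n • (γ + m • χ₁) = n • γ + (n * m) • χ₁ := by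
      rw [smul_add, mul_smul]
    rw [e1, hτ₁ _ _ (zspanOn_zsmul hγ n), hτ₁ _ _ hγ, lio_zsmul hτ hγ]
    have hgen2 : ∀ (u v : G → ℂ), n • u + (n * m) • v = n • (u + m • v) := fun u v => by
      rw [smul_add, mul_smul]
    exact hgen2 _ _
  · intro θ hθ θ' hθ'
    obtain ⟨m, γ, hγ, rfl⟩ := hrep θ hθ
    obtain ⟨m', γ', hγ', rfl⟩ := hrep θ' hθ'
    rw [hτ₁ _ _ hγ, hτ₁ _ _ hγ', classInner_add_left, classInner_add_right, classInner_add_right,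
      classInner_zsmul_right, classInner_zsmul_left, classInner_zsmul_left, classInner_zsmul_right,
      lio_inner hτ hγ hγ', hC γ hγ, hC' γ' hγ', hTT,
      classInner_add_left, classInner_add_right, classInner_add_right,
      classInner_zsmul_right, classInner_zsmul_left, classInner_zsmul_left, classInner_zsmul_right,
      hin χ₁ hχ₁ χ₁ hχ₁, if_pos rfl]
  · intro θ hθ
    obtain ⟨m, γ, hγ, rfl⟩ := hrep θ hθ
    rw [hτ₁ _ _ hγ]
    exact genChar_add (lio_genChar hτ hγ) (genChar_zsmul m hTgc)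
  · intro θ hθ
    have := hτ₁ 0 θ hθ
    rw [zero_smul, add_zero, zero_smul, add_zero] at this
    exact this

end Cfsg.Agent.S1517
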