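import Mathlib
import Cfsg.Statements.S1525
import Cfsg.Agent.S1500

set_option autoImplicit false
open Cfsg

namespace Cfsg.Agent.S1525

open Cfsg.Agent.Lib.Helper2
open scoped ComplexConjugate

theorem finsum_mem_set {α M : Type*} [Fintype α] [AddCommMonoid M] (S : Set α) (f : α → M) :
    ∑ᶠ u ∈ S, f u = ∑ u : α, S.indicator f u := by
  rw [finsum_mem_def, finsum_eq_sum_of_fintype]

open Classical in
/-- Cauchy-Schwarz for the average over a subgroup -/
theorem avg_le {G : Type*} [Group G] [Fintype G] (K : Subgroup G) (f : G → ℂ) :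
    ‖(Nat.card K : ℂ)⁻¹ * ∑ u : G, (if u ∈ K then f u else 0)‖ ^ 2
      ≤ (Nat.card K : ℝ)⁻¹ * ∑ u : G, (if u ∈ K then ‖f u‖ ^ 2 else 0) := by
  have hK : (0 : ℝ) < (Nat.card K : ℝ) := by exact_mod_cast Nat.card_pos (α := K)
  have hcard : (Finset.univ.filter (fun u : G => u ∈ K)).card = Nat.card K := by
    rw [Nat.card_eq_fintype_card, Fintype.card_subtype]
  rw [← Finset.sum_filter, ← Finset.sum_filter, norm_mul, norm_inv, Complex.norm_natCast, mul_pow]
  have h1 : ‖∑ u ∈ Finset.univ.filter (fun u : G => u ∈ K), f u‖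
      ≤ ∑ u ∈ Finset.univ.filter (fun u : G => u ∈ K), ‖f u‖ := norm_sum_le _ _
  have h2 : (∑ u ∈ Finset.univ.filter (fun u : G => u ∈ K), ‖f u‖) ^ 2
      ≤ (Nat.card K : ℝ) * ∑ u ∈ Finset.univ.filter (fun u : G => u ∈ K), ‖f u‖ ^ 2 := by
    have := sq_sum_le_card_mul_sum_sq (s := Finset.univ.filter (fun u : G => u ∈ K))
      (f := fun u => ‖f u‖)
    rw [hcard] at this
    exact this
  have h3 : ‖∑ u ∈ Finset.univ.filter (fun u : G => u ∈ K), f u‖ ^ 2
      ≤ (Nat.card K : ℝ) * ∑ u ∈ Finset.univ.filter (fun u : G => u ∈ K), ‖f u‖ ^ 2 :=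
    le_trans (pow_le_pow_left₀ (norm_nonneg _) h1 2) h2
  calc ((Nat.card K : ℝ)⁻¹) ^ 2 * ‖∑ u ∈ Finset.univ.filter (fun u : G => u ∈ K), f u‖ ^ 2
      ≤ ((Nat.card K : ℝ)⁻¹) ^ 2 * ((Nat.card K : ℝ)
          * ∑ u ∈ Finset.univ.filter (fun u : G => u ∈ K), ‖f u‖ ^ 2) :=
        mul_le_mul_of_nonneg_left h3 (by positivity)
    _ = (Nat.card K : ℝ)⁻¹ * ∑ u ∈ Finset.univ.filter (fun u : G => u ∈ K), ‖f u‖ ^ 2 := by
        field_simp

/-- Under the Dade hypothesis for (A, L, H), let χ be a class function of G and let ψ be a function on L whose value at each a ∈ A is the average of χ over the coset a·H(a). Then (1/|G|) Σ |χ g|² over the elements g of G conjugate into some coset a·H(a) with a ∈ A is at least (1/|L|) Σ_{a ∈ A ∩ L} |ψ a|². -/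
theorem result {G : Type*} [Group G] [Fintype G] (A : Set G) (L : Subgroup G) [Fintype L] (H : G → Subgroup G) (hD : Cfsg.DadeHypothesis A L H) (χ : G → ℂ) (hχ : Cfsg.IsClassFunction G χ) (ψ : L → ℂ) (hψ : ∀ a : L, (a : G) ∈ A → ψ a = (Nat.card (H a) : ℂ)⁻¹ * ∑ᶠ u ∈ (H a : Set G), χ (a * u)) : (Nat.card L : ℝ)⁻¹ * ∑ᶠ a ∈ {a : L | (a : G) ∈ A}, ‖ψ a‖ ^ 2 ≤ (Nat.card G : ℝ)⁻¹ * ∑ᶠ g ∈ {g : G | ∃ a ∈ A, ∃ u ∈ H a, ∃ x : G, x * g * x⁻¹ = a * u}, ‖χ g‖ ^ 2 := by
  classical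
  set S : Set G := {g : G | ∃ a ∈ A, ∃ u ∈ H a, ∃ x : G, x * g * x⁻¹ = a * u} with hS
  have hSconj : ∀ (g h : G), g ∈ S → h * g * h⁻¹ ∈ S := by
    rintro g h ⟨a, ha, u, hu, x, hx⟩
    exact ⟨a, ha, u, hu, x * h⁻¹, by rw [← hx]; group⟩
  have hSconj' : ∀ (g h : G), h * g * h⁻¹ ∈ S ↔ g ∈ S := by
    intro g h
    constructor
    · intro hg
      have := hSconj _ h⁻¹ hg
      have e : h⁻¹ * (h * g * h⁻¹) * h⁻¹⁻¹ = g := by group
      rwa [e] at this
    · exact hSconj g h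
  set Φr : G → ℝ := S.indicator (fun g => ‖χ g‖ ^ 2) with hΦr
  set Φ : G → ℂ := fun g => ((Φr g : ℝ) : ℂ) with hΦdef
  have hΦ : Cfsg.IsClassFunction G Φ := by
    intro g h
    show ((Φr (h * g * h⁻¹) : ℝ) : ℂ) = ((Φr g : ℝ) : ℂ)
    congr 1
    by_cases hg : g ∈ S
    · rw [hΦr, Set.indicator_of_mem hg, Set.indicator_of_mem ((hSconj' g h).mpr hg), hχ g h]
    · rw [hΦr, Set.indicator_of_notMem hg,
        Set.indicator_of_notMem (fun hh => hg ((hSconj' g h).mp hh))]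
  have hsupp : ∀ g : G, (¬ ∃ a : L, (a : G) ∈ A ∧ ∃ x : G, ∃ u ∈ H (a : G),
      x * g * x⁻¹ = (a : G) * u) → Φ g = 0 := by
    intro g hg
    have hgS : g ∉ S := by
      rintro ⟨a, ha, u, hu, x, hx⟩
      exact hg ⟨⟨a, hD.subset ha⟩, ha, x, u, hu, hx⟩
    show ((Φr g : ℝ) : ℂ) = 0
    have : Φr g = 0 := Set.indicator_of_notMem hgS _
    rw [this, Complex.ofReal_zero]
  have hsum := S1500.sum_eq A L H hD Φ hΦ hsupp
  -- real version of the averaging formula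
  have hreal : ∑ g : G, Φr g = (Nat.card G : ℝ) * ∑ a : L, if (a : G) ∈ A then
      ((Nat.card L : ℝ) * (Nat.card (H a) : ℝ))⁻¹ * ∑ u : G, (if u ∈ H a then Φr (a * u) else 0)
      else 0 := by
    apply Complex.ofReal_injective
    rw [Complex.ofReal_sum, hsum]
    push_cast
    congr 1
    apply Finset.sum_congr rfl
    intro a _
    by_cases ha : (a : G) ∈ A
    · rw [if_pos ha, if_pos ha, Complex.ofReal_mul, Complex.ofReal_sum]
      push_cast
      congr 1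
      apply Finset.sum_congr rfl
      intro u _
      by_cases hu : u ∈ H a
      · rw [if_pos hu, if_pos hu]
      · rw [if_neg hu, if_neg hu, Complex.ofReal_zero]
    · rw [if_neg ha, if_neg ha, Complex.ofReal_zero]
  have hG : (0 : ℝ) < (Nat.card G : ℝ) := by exact_mod_cast Nat.card_pos (α := G)
  have hL : (0 : ℝ) < (Nat.card L : ℝ) := by exact_mod_cast Nat.card_pos (α := L)
  rw [finsum_mem_set, finsum_mem_set]
  rw [hreal, ← mul_assoc, inv_mul_cancel₀ hG.ne', one_mul, Finset.mul_sum]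
  apply Finset.sum_le_sum
  intro a _
  by_cases ha : (a : G) ∈ A
  · have haS : a ∈ {a : L | (a : G) ∈ A} := ha
    rw [Set.indicator_of_mem haS, if_pos ha, hψ a ha, S1500.finsum_mem_subgroup]
    have hHa : (0 : ℝ) < (Nat.card (H a) : ℝ) := by exact_mod_cast Nat.card_pos (α := H a)
    have hterm : ∀ u : G, (if u ∈ H a then Φr ((a : G) * u) else 0)
        = if u ∈ H a then ‖χ ((a : G) * u)‖ ^ 2 else 0 := by
      intro u
      by_cases hu : u ∈ H a
      · rw [if_pos hu, if_pos hu]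
        have : (a : G) * u ∈ S := ⟨a, ha, u, hu, 1, by group⟩
        exact Set.indicator_of_mem this _
      · rw [if_neg hu, if_neg hu]
    simp only [hterm]
    have hav := avg_le (H a) (fun u => χ ((a : G) * u))
    calc (Nat.card L : ℝ)⁻¹ * ‖(Nat.card (H a) : ℂ)⁻¹
          * ∑ u : G, (if u ∈ H a then χ ((a : G) * u) else 0)‖ ^ 2
        ≤ (Nat.card L : ℝ)⁻¹ * ((Nat.card (H a) : ℝ)⁻¹
          * ∑ u : G, (if u ∈ H a then ‖χ ((a : G) * u)‖ ^ 2 else 0)) :=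
          mul_le_mul_of_nonneg_left hav (by positivity)
      _ = ((Nat.card L : ℝ) * (Nat.card (H a) : ℝ))⁻¹
          * ∑ u : G, (if u ∈ H a then ‖χ ((a : G) * u)‖ ^ 2 else 0) := by
          rw [mul_inv, mul_assoc]
  · have haS : a ∉ {a : L | (a : G) ∈ A} := ha
    rw [Set.indicator_of_notMem haS, if_neg ha, mul_zero]

end Cfsg.Agent.S1525
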