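import Mathlib
import Cfsg.Statements.S1527

set_option autoImplicit false
open Cfsg
open scoped Classical

namespace Cfsg.Agent.S1527

/-- The non-identity elements conjugate into `H`. -/
noncomputable def conjSet {G : Type*} [Group G] [Fintype G] (H : Subgroup G) : Finset G :=
  Finset.univ.filter (fun g => g ≠ 1 ∧ ∃ x : G, x * g * x⁻¹ ∈ H)

theorem card_conjSet {G : Type*} [Group G] [Fintype G] (H : Subgroup G)
    (hTI : Cfsg.IsTISubset (H : Set G)) :
    (conjSet H).card = (Subgroup.normalizer (H : Set G)).index * (Nat.card H - 1) := by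
  set N := Subgroup.normalizer (H : Set G) with hN
  have key := Finset.sum_card_bipartiteAbove_eq_sum_card_bipartiteBelow (s := conjSet H)
    (t := (Finset.univ : Finset G)) (r := fun g x => x * g * x⁻¹ ∈ H)
  have hL : ∀ g ∈ conjSet H,
      ((Finset.univ : Finset G).bipartiteAbove (fun g x => x * g * x⁻¹ ∈ H) g).card = Nat.card N := by
    intro g hg
    rw [conjSet, Finset.mem_filter] at hg
    obtain ⟨-, hg1, x₀, hx₀⟩ := hg
    have hh1 : x₀ * g * x₀⁻¹ ≠ 1 := by
      intro h
      apply hg1
      have : g = x₀⁻¹ * (x₀ * g * x₀⁻¹) * x₀ := by group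
      rw [this, h]; group
    have hiff : ∀ x : G, x * g * x⁻¹ ∈ H ↔ x * x₀⁻¹ ∈ N := by
      intro x
      have hx : x * g * x⁻¹ = (x * x₀⁻¹) * (x₀ * g * x₀⁻¹) * (x * x₀⁻¹)⁻¹ := by group
      constructor
      · intro h
        by_contra hn
        rw [hx] at h
        exact hh1 (hTI (x * x₀⁻¹) hn (x₀ * g * x₀⁻¹) hx₀ h)
      · intro h
        rw [hx]
        exact (Subgroup.mem_set_normalizer_iff.mp h _).mp hx₀
    unfold Finset.bipartiteAbove
    rw [← Fintype.card_subtype, ← Nat.card_eq_fintype_card]
    exact Nat.card_congr ((Equiv.mulRight x₀⁻¹).subtypeEquiv (fun x => by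
      simp only [Equiv.coe_mulRight]
      exact hiff x))
  have hR : ∀ x ∈ (Finset.univ : Finset G),
      ((conjSet H).bipartiteBelow (fun g x => x * g * x⁻¹ ∈ H) x).card = Nat.card H - 1 := by
    intro x _
    have hset : (conjSet H).bipartiteBelow (fun g x => x * g * x⁻¹ ∈ H) x =
        (((Finset.univ : Finset G).filter (· ∈ H)).erase 1).image (fun h => x⁻¹ * h * x) := by
      ext g
      simp only [Finset.bipartiteBelow, conjSet, Finset.mem_filter, Finset.mem_univ, true_and,
        Finset.mem_image, Finset.mem_erase]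
      constructor
      · rintro ⟨⟨hg1, -⟩, hgx⟩
        refine ⟨x * g * x⁻¹, ⟨?_, hgx⟩, by group⟩
        intro h
        apply hg1
        have : g = x⁻¹ * (x * g * x⁻¹) * x := by group
        rw [this, h]; group
      · rintro ⟨h, ⟨hh1, hhH⟩, rfl⟩
        have hc : x * (x⁻¹ * h * x) * x⁻¹ = h := by group
        refine ⟨⟨?_, x, by rw [hc]; exact hhH⟩, by rw [hc]; exact hhH⟩
        intro h2
        apply hh1
        have : h = x * (x⁻¹ * h * x) * x⁻¹ := by group
        rw [this, h2]; group
    rw [hset, Finset.card_image_of_injective]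
    · rw [Finset.card_erase_of_mem (by simp [H.one_mem]), ← Fintype.card_subtype,
        ← Nat.card_eq_fintype_card]
    · intro a b hab
      have hab' : x⁻¹ * a * x = x⁻¹ * b * x := hab
      have ha : a = x * (x⁻¹ * a * x) * x⁻¹ := by group
      rw [ha, hab']; group
  rw [Finset.sum_congr rfl hL, Finset.sum_congr rfl hR, Finset.sum_const, Finset.sum_const,
    smul_eq_mul, smul_eq_mul, Finset.card_univ] at key
  have hidx := N.card_mul_index
  rw [Nat.card_eq_fintype_card (α := G)] at hidx
  have hNpos : 0 < Nat.card N := Nat.card_pos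
  have : Nat.card N * (conjSet H).card = Nat.card N * (N.index * (Nat.card H - 1)) := by
    rw [← mul_assoc, hidx, mul_comm, key]
  exact Nat.eq_of_mul_eq_mul_left hNpos this

/-- Let G be a finite group and H i (i in a finite index type) subgroups of pairwise coprime orders, each of whose underlying sets is a TI-subset of G, such that every non-identity element of G is conjugate to an element of some H i. Then Nat.card G − 1 = Σ_i [G : N_G(H i)] · (Nat.card (H i) − 1). -/
theorem result {G : Type*} [Group G] [Finite G] {ι : Type*} [Fintype ι] (H : ι → Subgroup G) (hcop : ∀ i j, i ≠ j → Nat.Coprime (Nat.card (H i)) (Nat.card (H j))) (hTI : ∀ i, Cfsg.IsTISubset (H i : Set G)) (hcover : ∀ g : G, g ≠ 1 → ∃ i, ∃ x : G, x * g * x⁻¹ ∈ H i) : Nat.card G - 1 = ∑ i, (Subgroup.normalizer (H i : Set G)).index * (Nat.card (H i) - 1) := by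
  have : Fintype G := Fintype.ofFinite G
  have hunion : (Finset.univ : Finset G).erase 1 = (Finset.univ : Finset ι).biUnion (fun i => conjSet (H i)) := by
    ext g
    simp only [Finset.mem_erase, Finset.mem_univ, and_true, Finset.mem_biUnion, true_and, conjSet,
      Finset.mem_filter]
    constructor
    · intro hg
      obtain ⟨i, x, hx⟩ := hcover g hg
      exact ⟨i, hg, x, hx⟩
    · rintro ⟨i, hg, -⟩
      exact hg
  have hdisj : ∀ i ∈ (Finset.univ : Finset ι), ∀ j ∈ (Finset.univ : Finset ι), i ≠ j →
      Disjoint (conjSet (H i)) (conjSet (H j)) := by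
    intro i _ j _ hij
    rw [Finset.disjoint_left]
    intro g hgi hgj
    rw [conjSet, Finset.mem_filter] at hgi hgj
    obtain ⟨-, hg1, x, hx⟩ := hgi
    obtain ⟨-, -, y, hy⟩ := hgj
    have ho1 : orderOf g ∣ Nat.card (H i) := by
      have := orderOf_dvd_natCard (⟨x * g * x⁻¹, hx⟩ : H i)
      rw [← Subgroup.orderOf_coe] at this
      simp only at this
      rwa [← SemiconjBy.orderOf_eq x (show SemiconjBy x g (x * g * x⁻¹) by unfold SemiconjBy; group)] at this
    have ho2 : orderOf g ∣ Nat.card (H j) := by
      have := orderOf_dvd_natCard (⟨y * g * y⁻¹, hy⟩ : H j)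
      rw [← Subgroup.orderOf_coe] at this
      simp only at this
      rwa [← SemiconjBy.orderOf_eq y (show SemiconjBy y g (y * g * y⁻¹) by unfold SemiconjBy; group)] at this
    have : orderOf g = 1 := Nat.eq_one_of_dvd_coprimes (hcop i j hij) ho1 ho2
    exact hg1 (orderOf_eq_one_iff.mp this)
  have hcard : ((Finset.univ : Finset G).erase 1).card = Nat.card G - 1 := by
    rw [Finset.card_erase_of_mem (Finset.mem_univ 1), Finset.card_univ, Nat.card_eq_fintype_card]
  rw [← hcard, hunion, Finset.card_biUnion hdisj]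
  apply Finset.sum_congr rfl
  intro i _
  exact card_conjSet (H i) (hTI i)

end Cfsg.Agent.S1527
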