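import Mathlib
import Cfsg.Statements.S1528
import Cfsg.Agent.Lib.Helper2.CharClifford
import Cfsg.Agent.Lib.Helper2.CharPerm
import Cfsg.Agent.S1486

set_option autoImplicit false
open Cfsg
open Cfsg.Agent.Lib.Helper2

namespace Cfsg.Agent.S1528

/-- Let N be a normal subgroup of the finite group G such that every element of G commuting with a non-identity element of N lies in N. If χ is an irreducible character of G with χ n ≠ χ 1 for some n ∈ N, then χ is the function induced from some irreducible character of N. -/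
theorem result {G : Type*} [Group G] [Fintype G] (N : Subgroup G) [N.Normal] (hC : ∀ n ∈ N, n ≠ 1 → Subgroup.centralizer ({n} : Set G) ≤ N) (χ : G → ℂ) (hχ : Cfsg.IsIrrCharacter G χ) (hker : ∃ n ∈ N, χ n ≠ χ 1) : ∃ φ : N → ℂ, Cfsg.IsIrrCharacter N φ ∧ χ = Cfsg.indFun N φ := by
  classical
  have hN : N.Normal := inferInstance
  have hres : Cfsg.IsCharacter N (fun n : N => χ n) :=
    IsCharacter.restrict (isCharacter_of_isIrrCharacter hχ) N
  -- a non-principal irreducible constituent of the restriction
  have hex : ∃ φ : N → ℂ, Cfsg.IsIrrCharacter N φ ∧ φ ≠ (fun _ => 1) ∧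
      Cfsg.classInner (fun n : N => χ n) φ ≠ 0 := by
    by_contra hno
    push Not at hno
    have := Fintype.ofFinite (Cfsg.IrrCharacter N)
    have hexp := class_fun_expand (fun n : N => χ n) (isClassFunction_of_isCharacter hres)
    have hsingle : ∑ ψ : Cfsg.IrrCharacter N, Cfsg.classInner (fun n : N => χ n) ψ • (ψ : N → ℂ)
        = Cfsg.classInner (fun n : N => χ n) (fun _ => 1) • (fun _ : N => (1 : ℂ)) := by
      apply Finset.sum_eq_single (⟨fun _ => 1, isIrrCharacter_one⟩ : Cfsg.IrrCharacter N)
      · intro ψ _ hne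
        rw [hno ψ ψ.2 (fun h => hne (Subtype.ext h)), zero_smul]
      · intro h
        exact absurd (Finset.mem_univ _) h
    rw [hsingle] at hexp
    obtain ⟨n, hn, hne⟩ := hker
    apply hne
    have h1 := congrFun hexp ⟨n, hn⟩
    have h2 := congrFun hexp 1
    simp only [Pi.smul_apply, smul_eq_mul, mul_one, Subgroup.coe_one] at h1 h2
    rw [h1, ← h2]
  obtain ⟨φ, hφ, hφ1, hφc⟩ := hex
  -- the inertia group of φ is N
  have hT : ∀ g : G, (fun h : N => φ ⟨g * h * g⁻¹, hN.conj_mem h h.2 g⟩) = φ → g ∈ N := by
    intro g hg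
    by_contra hgN
    let α : N ≃* N := MulAut.conjNormal g
    have hαapp : ∀ h : N, ((α h : N) : G) = g * h * g⁻¹ := fun h => MulAut.conjNormal_apply g h
    have hB := card_fixed_irr_eq_card_fixed_classes (⇑α)
      (fun χ hχ => isIrrCharacter_comp_mulEquiv hχ α)
      (fun a b hab => α.toMonoidHom.map_isConj hab)
    have h2 : 1 < Nat.card {χ : Cfsg.IrrCharacter N // (χ : N → ℂ) ∘ α = (χ : N → ℂ)} := by
      apply Finite.one_lt_card_iff_nontrivial.2
      refine ⟨⟨⟨⟨fun _ => 1, isIrrCharacter_one⟩, rfl⟩, ⟨⟨φ, hφ⟩, hg⟩, ?_⟩⟩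
      intro h
      apply hφ1
      have := congrArg (fun z => (z.1 : N → ℂ)) h
      exact this.symm
    rw [hB] at h2
    obtain ⟨C₁, C₂, hne⟩ := Finite.one_lt_card_iff_nontrivial.1 h2
    have hall : ∀ C : {C : ConjClasses N // ∀ k : N, ConjClasses.mk k = C → IsConj (α k) k},
        C.1 = ConjClasses.mk 1 := by
      intro C
      obtain ⟨k, hk⟩ := ConjClasses.mk_surjective C.1
      have hconj := C.2 k hk
      obtain ⟨m, hm⟩ := isConj_iff.1 hconj
      by_contra hC1
      have hk1 : (k : G) ≠ 1 := by
        intro h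
        apply hC1
        rw [← hk]
        congr 1
        exact Subtype.ext h
      have hm' : (m : G) * (g * (k : G) * g⁻¹) * (m : G)⁻¹ = (k : G) := by
        have := congrArg Subtype.val hm
        simpa only [Subgroup.coe_mul, Subgroup.coe_inv, hαapp] using this
      have hmem : (m : G) * g ∈ Subgroup.centralizer ({(k : G)} : Set G) := by
        rw [Subgroup.mem_centralizer_iff]
        intro y hy
        rw [Set.mem_singleton_iff] at hy
        subst hy
        calc (k : G) * ((m : G) * g) = (m : G) * (g * (k : G) * g⁻¹) * (m : G)⁻¹ * ((m : G) * g) := by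
              rw [hm']
          _ = (m : G) * g * (k : G) := by group
      have h3 := hC k k.2 hk1 hmem
      apply hgN
      have h4 := N.mul_mem (N.inv_mem m.2) h3
      simpa using h4
    exact hne (Subtype.ext ((hall C₁).trans (hall C₂).symm))
  -- the induced function has norm one
  have hinn : ∀ g : G, Cfsg.classInner φ (fun h : N => φ ⟨g * h * g⁻¹, hN.conj_mem h h.2 g⟩)
      = if g ∈ N then 1 else 0 := by
    intro g
    rw [classInner_irr hφ (Cfsg.Agent.S1486.conj_irr N φ hφ g)]
    by_cases hg : g ∈ N
    · rw [if_pos hg, if_pos]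
      funext h
      have := isClassFunction_of_isIrrCharacter hφ h ⟨g, hg⟩
      rw [← this]
      rfl
    · rw [if_neg hg, if_neg]
      intro h
      exact hg (hT g h.symm)
  have hnorm : Cfsg.classInner (Cfsg.indFun N φ) (Cfsg.indFun N φ) = 1 := by
    rw [frobenius_reciprocity N φ _ (indFun_isClassFunction N φ),
      Cfsg.Agent.S1486.ind_restrict N φ, classInner_sum_right]
    simp only [classInner_smul_right, hinn]
    rw [← Finset.mul_sum, Finset.sum_boole]
    have hc : (Finset.univ.filter (fun x : G => x ∈ N)).card = Nat.card N := by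
      rw [Nat.card_eq_fintype_card, Fintype.card_subtype]
    rw [hc, map_inv₀, Complex.conj_natCast, inv_mul_cancel₀ (card_ne_zero_complex N)]
  have hind_irr : Cfsg.IsIrrCharacter G (Cfsg.indFun N φ) :=
    isIrrCharacter_of_norm_one (indFun_isCharacter N (isCharacter_of_isIrrCharacter hφ)) hnorm
  have hinner : Cfsg.classInner (Cfsg.indFun N φ) χ ≠ 0 := by
    rw [frobenius_reciprocity N φ χ (isClassFunction_of_isIrrCharacter hχ)]
    intro h0
    apply hφc
    rw [← classInner_conj_symm, h0, map_zero]
  refine ⟨φ, hφ, ?_⟩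
  by_contra hne
  exact hinner (classInner_irr_ne hind_irr hχ (fun h => hne h.symm))

end Cfsg.Agent.S1528
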