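import Mathlib
import Cfsg.Statements.S1529
import Cfsg.Agent.Lib.Helper12.GenChar

set_option autoImplicit false
open Cfsg
open Cfsg.Agent.Lib.Helper2
open Cfsg.Agent.Lib.Helper12

namespace Cfsg.Agent.S1529

/-- Let N be a subgroup of the finite group G, S a set of irreducible characters of N with at least two members, and τ₁ a linear isometry on the integer combinations of S with virtual-character values such that τ₁ α vanishes at 1 whenever α ∈ ℤ[S] does. Then there is ε ∈ {1, −1} such that ε • τ₁ χ is an irreducible character of G for every χ ∈ S, and distinct members of S give distinct characters. -/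
theorem result {G : Type*} [Group G] [Fintype G] (N : Subgroup G) [Fintype N] (S : Set (N → ℂ)) (hirr : ∀ χ ∈ S, Cfsg.IsIrrCharacter N χ) (htwo : ∃ χ ∈ S, ∃ ψ ∈ S, χ ≠ ψ) (τ₁ : (N → ℂ) → (G → ℂ)) (hτ₁ : Cfsg.IsLinearIsometryOn (Cfsg.zspan S) τ₁) (h0 : ∀ α ∈ Cfsg.zspan S, α 1 = 0 → τ₁ α 1 = 0) : ∃ ε : ℂ, (ε = 1 ∨ ε = -1) ∧ (∀ χ ∈ S, Cfsg.IsIrrCharacter G (ε • τ₁ χ)) ∧ (∀ χ ∈ S, ∀ ψ ∈ S, τ₁ χ = τ₁ ψ → χ = ψ) := by
  classical
  obtain ⟨hadd, hsmul, hinner, hgen⟩ := hτ₁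
  have mem : ∀ χ ∈ S, χ ∈ Cfsg.zspan S := fun χ hχ => Submodule.subset_span hχ
  have hpm : ∀ χ ∈ S, Cfsg.IsIrrCharacter G (τ₁ χ) ∨ Cfsg.IsIrrCharacter G (-τ₁ χ) := by
    intro χ hχ
    apply genChar_norm_one (hgen χ (mem χ hχ))
    rw [hinner χ (mem χ hχ) χ (mem χ hχ)]
    exact classInner_irr_self (hirr χ hχ)
  have hsign : ∀ χ ∈ S, ∀ ψ ∈ S, Cfsg.IsIrrCharacter G (τ₁ χ) → Cfsg.IsIrrCharacter G (-τ₁ ψ)
      → False := by
    intro χ hχ ψ hψ h1 h2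
    obtain ⟨n, hn, hn'⟩ := irr_apply_one (hirr χ hχ)
    obtain ⟨m, hm, hm'⟩ := irr_apply_one (hirr ψ hψ)
    obtain ⟨a, ha, ha'⟩ := irr_apply_one h1
    obtain ⟨b, hb, hb'⟩ := irr_apply_one h2
    have hmem1 : (m : ℤ) • χ ∈ Cfsg.zspan S :=
      Submodule.smul_mem (Submodule.span ℤ S) (m : ℤ) (mem χ hχ)
    have hmem2 : (-(n : ℤ)) • ψ ∈ Cfsg.zspan S :=
      Submodule.smul_mem (Submodule.span ℤ S) (-(n : ℤ)) (mem ψ hψ)
    have hmem : (m : ℤ) • χ + (-(n : ℤ)) • ψ ∈ Cfsg.zspan S :=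
      Submodule.add_mem (Submodule.span ℤ S) hmem1 hmem2
    have hval : ((m : ℤ) • χ + (-(n : ℤ)) • ψ) 1 = 0 := by
      simp only [Pi.add_apply, Pi.smul_apply, hn', hm']
      simp
      ring
    have h3 := h0 _ hmem hval
    rw [hadd _ hmem1 _ hmem2, hsmul χ (mem χ hχ), hsmul ψ (mem ψ hψ)] at h3
    simp only [Pi.add_apply, Pi.smul_apply, Pi.neg_apply] at h3 hb'
    rw [ha'] at h3
    have hb2 : τ₁ ψ 1 = -(b : ℂ) := by
      rw [← hb']; ring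
    rw [hb2] at h3
    have h4 : ((m : ℤ) * (a : ℤ) + (n : ℤ) * (b : ℤ) : ℂ) = 0 := by
      simp only [zsmul_eq_mul, Int.cast_natCast, Int.cast_neg] at h3
      push_cast
      linear_combination h3
    have h5 : (m : ℤ) * (a : ℤ) + (n : ℤ) * (b : ℤ) = 0 := by exact_mod_cast h4
    have : (0 : ℤ) < (m : ℤ) * (a : ℤ) + (n : ℤ) * (b : ℤ) := by positivity
    omega
  obtain ⟨χ₀, hχ₀, -⟩ := htwo
  have hinj : ∀ χ ∈ S, ∀ ψ ∈ S, τ₁ χ = τ₁ ψ → χ = ψ := by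
    intro χ hχ ψ hψ heq
    have h1 := hinner χ (mem χ hχ) ψ (mem ψ hψ)
    rw [← heq, hinner χ (mem χ hχ) χ (mem χ hχ), classInner_irr_self (hirr χ hχ),
      classInner_irr (hirr χ hχ) (hirr ψ hψ)] at h1
    by_contra hne
    rw [if_neg hne] at h1
    exact one_ne_zero h1
  by_cases hpos : Cfsg.IsIrrCharacter G (τ₁ χ₀)
  · refine ⟨1, Or.inl rfl, ?_, hinj⟩
    intro χ hχ
    rw [one_smul]
    rcases hpm χ hχ with h | h
    · exact h
    · exact (hsign χ₀ hχ₀ χ hχ hpos h).elim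
  · have hneg : Cfsg.IsIrrCharacter G (-τ₁ χ₀) := (hpm χ₀ hχ₀).resolve_left hpos
    refine ⟨-1, Or.inr rfl, ?_, hinj⟩
    intro χ hχ
    rw [neg_one_smul]
    rcases hpm χ hχ with h | h
    · exact (hsign χ hχ χ₀ hχ₀ h hneg).elim
    · exact h

end Cfsg.Agent.S1529
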