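import Mathlib
import Cfsg.Statements.S1530
import Cfsg.Agent.Lib.Helper12.ZSpan

set_option autoImplicit false
open Cfsg

namespace Cfsg.Agent.S1530

open Cfsg.Agent.Lib.Helper2 Cfsg.Agent.Lib.Helper12
open scoped ComplexConjugate


theorem arith {ι : Type*} [DecidableEq ι] (S₀ : Finset ι) (ψ : ι) (hψ : ψ ∈ S₀) (d b : ι → ℤ)
    (a s : ℤ) (dψpos : 0 < d ψ) (ha : 1 ≤ a) (hs : s = a + b ψ)
    (hb : ∀ ξ ∈ S₀, ξ ≠ ψ → d ψ * b ξ = d ξ * s)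
    (hbess : ∑ ξ ∈ S₀, b ξ ^ 2 ≤ 1 + a ^ 2)
    (hlt : 2 * a * d ψ ^ 2 < ∑ ξ ∈ S₀, d ξ ^ 2) :
    s = 0 ∨ (s = 1 ∧ ∑ ξ ∈ S₀, b ξ ^ 2 = 1 + a ^ 2 ∧ ∑ ξ ∈ S₀.erase ψ, b ξ ^ 2 = 2 * a ∧
      ∀ ξ ∈ S₀, ξ ≠ ψ → d ξ = d ψ * b ξ) := by
  set B := ∑ ξ ∈ S₀.erase ψ, b ξ ^ 2 with hB
  set E := ∑ ξ ∈ S₀.erase ψ, d ξ ^ 2 with hE
  have hB0 : 0 ≤ B := Finset.sum_nonneg (fun ξ _ => sq_nonneg _)
  have hE0 : 0 ≤ E := Finset.sum_nonneg (fun ξ _ => sq_nonneg _)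
  have hsumb : ∑ ξ ∈ S₀, b ξ ^ 2 = b ψ ^ 2 + B := (Finset.add_sum_erase S₀ _ hψ).symm
  have hsumd : ∑ ξ ∈ S₀, d ξ ^ 2 = d ψ ^ 2 + E := (Finset.add_sum_erase S₀ _ hψ).symm
  have hBE : d ψ ^ 2 * B = s ^ 2 * E := by
    rw [hB, hE, Finset.mul_sum, Finset.mul_sum]
    apply Finset.sum_congr rfl
    intro ξ hξ
    have h1 := hb ξ (Finset.mem_of_mem_erase hξ) (Finset.ne_of_mem_erase hξ)
    calc d ψ ^ 2 * b ξ ^ 2 = (d ψ * b ξ) ^ 2 := by ring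
      _ = (d ξ * s) ^ 2 := by rw [h1]
      _ = s ^ 2 * d ξ ^ 2 := by ring
  rw [hsumb] at hbess
  rw [hsumd] at hlt
  have hbψ : b ψ = s - a := by linarith
  rw [hbψ] at hbess
  have hd2 : 0 < d ψ ^ 2 := by positivity
  -- main inequality: s^2 * E ≤ dψ^2 * (1 + 2 a s - s^2)
  have hmain : s ^ 2 * E ≤ d ψ ^ 2 * (1 + 2 * a * s - s ^ 2) := by
    have := mul_le_mul_of_nonneg_left hbess hd2.le
    nlinarith
  rcases lt_trichotomy s 0 with hneg | hzero | hpos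
  · exfalso
    have h1 : 1 + 2 * a * s - s ^ 2 < 0 := by nlinarith
    have h2 : d ψ ^ 2 * (1 + 2 * a * s - s ^ 2) < 0 := mul_neg_of_pos_of_neg hd2 h1
    have h3 : 0 ≤ s ^ 2 * E := by positivity
    linarith
  · left; exact hzero
  · right
    have hs1 : s = 1 := by
      by_contra hne
      have hs2 : 2 ≤ s := by omega
      have h1 : (2 * a - 1) * d ψ ^ 2 + 1 ≤ E := by linarith
      have h2 : s ^ 2 * ((2 * a - 1) * d ψ ^ 2 + 1) ≤ s ^ 2 * E :=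
        mul_le_mul_of_nonneg_left h1 (sq_nonneg s)
      have h3 : 1 + 2 * a * s - s ^ 2 ≤ s ^ 2 * (2 * a - 1) := by nlinarith
      have h4 : d ψ ^ 2 * (1 + 2 * a * s - s ^ 2) ≤ d ψ ^ 2 * (s ^ 2 * (2 * a - 1)) :=
        mul_le_mul_of_nonneg_left h3 hd2.le
      have h5 : 0 < s ^ 2 := by positivity
      nlinarith
    subst hs1
    have hEB : E = d ψ ^ 2 * B := by rw [hBE]; ring
    have hB2 : B = 2 * a := by
      have h1 : d ψ ^ 2 * B ≤ d ψ ^ 2 * (2 * a) := by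
        rw [← hEB]; nlinarith
      have h2 : B ≤ 2 * a := le_of_mul_le_mul_left h1 hd2
      have h3 : d ψ ^ 2 * (2 * a - 1) < d ψ ^ 2 * B := by
        rw [← hEB]; nlinarith
      have h4 : 2 * a - 1 < B := lt_of_mul_lt_mul_left h3 hd2.le
      omega
    refine ⟨rfl, ?_, hB2, ?_⟩
    · rw [hsumb, hbψ, hB2]; ring
    · intro ξ hξ hne
      have := hb ξ hξ hne
      linarith

/-- Let N be a subgroup of the finite group G and S₀ a finite set of irreducible characters of N, χ an irreducible character of N not in S₀, with degrees ξ 1 = d ξ. Let τ be a linear isometry on the integer combinations of S₀ ∪ {χ} vanishing at 1, with values virtual characters of G vanishing at 1, such that (S₀, N minus 1, τ) is coherent. If some ψ ∈ S₀ has d ψ dividing d χ and 2 · d ψ · d χ < Σ_{ξ ∈ S₀} (d ξ)², then (S₀ ∪ {χ}, N minus 1, τ) is coherent. -/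
theorem result {G : Type*} [Group G] [Fintype G] (N : Subgroup G) [Fintype N] (S₀ : Finset (N → ℂ)) (χ : N → ℂ) (hirr : ∀ ξ ∈ S₀, Cfsg.IsIrrCharacter N ξ) (hχ : Cfsg.IsIrrCharacter N χ) (hχS : χ ∉ S₀) (d : (N → ℂ) → ℕ) (hd : ∀ ξ ∈ insert χ S₀, ξ 1 = (d ξ : ℂ)) (τ : (N → ℂ) → (G → ℂ)) (hτ : Cfsg.IsLinearIsometryOn (Cfsg.zspanOn (↑(insert χ S₀) : Set (N → ℂ)) {1}ᶜ) τ) (hτ1 : ∀ α ∈ Cfsg.zspanOn (↑(insert χ S₀) : Set (N → ℂ)) {1}ᶜ, τ α 1 = 0) (hcoh : Cfsg.IsCoherent (↑S₀ : Set (N → ℂ)) {1}ᶜ τ) (ψ : N → ℂ) (hψ : ψ ∈ S₀) (hdvd : d ψ ∣ d χ) (hlt : 2 * d ψ * d χ < ∑ ξ ∈ S₀, d ξ ^ 2) : Cfsg.IsCoherent (↑(insert χ S₀) : Set (N → ℂ)) {1}ᶜ τ := by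
  classical
  rw [Finset.coe_insert] at hτ hτ1 ⊢
  obtain ⟨⟨α₀, hα₀, hα₀ne⟩, τ₁, hτ₁, hτ₁τ⟩ := hcoh
  set S : Set (N → ℂ) := (↑S₀ : Set (N → ℂ)) with hS
  have hSS' : S ⊆ insert χ S := Set.subset_insert χ S
  -- degrees
  have hdχ : χ 1 = (d χ : ℂ) := hd χ (Finset.mem_insert_self χ S₀)
  have hdξ : ∀ ξ ∈ S₀, ξ 1 = (d ξ : ℂ) := fun ξ hξ => hd ξ (Finset.mem_insert_of_mem hξ)
  have hdpos : ∀ ξ ∈ S₀, 0 < d ξ := by
    intro ξ hξ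
    obtain ⟨n, hn0, hn⟩ := irr_apply_one (hirr ξ hξ)
    have h1 : (d ξ : ℂ) = n := by rw [← hdξ ξ hξ, hn]
    have h2 : d ξ = n := by exact_mod_cast h1
    omega
  have hdχpos : 0 < d χ := by
    obtain ⟨n, hn0, hn⟩ := irr_apply_one hχ
    have h1 : (d χ : ℂ) = n := by rw [← hdχ, hn]
    have h2 : d χ = n := by exact_mod_cast h1
    omega
  obtain ⟨a, ha⟩ := hdvd
  have ha1 : 1 ≤ a := by
    rcases Nat.eq_zero_or_pos a with h | h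
    · rw [h, mul_zero] at ha; omega
    · exact h
  -- orthogonality facts
  have hortho : ∀ ξ ∈ S₀, ∀ ξ' ∈ S₀, Cfsg.classInner ξ ξ' = if ξ = ξ' then 1 else 0 :=
    fun ξ hξ ξ' hξ' => classInner_irr (hirr ξ hξ) (hirr ξ' hξ')
  have hχξ : ∀ ξ ∈ S₀, Cfsg.classInner χ ξ = 0 := fun ξ hξ =>
    classInner_irr_ne hχ (hirr ξ hξ) (fun h => hχS (h ▸ hξ))
  have hξχ : ∀ ξ ∈ S, Cfsg.classInner ξ χ = 0 := fun ξ hξ =>
    classInner_irr_ne (hirr ξ (Finset.mem_coe.mp hξ)) hχ (fun h => hχS (h ▸ (Finset.mem_coe.mp hξ)))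
  have hχχ : Cfsg.classInner χ χ = 1 := classInner_irr_self hχ
  have hmemS : ∀ ξ ∈ S₀, ξ ∈ Cfsg.zspan S := fun ξ hξ => zspan_of_mem (Finset.mem_coe.mpr hξ)
  have hχmem : χ ∈ Cfsg.zspan (insert χ S) := zspan_of_mem (Set.mem_insert χ S)
  -- β
  have hα₁ : χ - (a : ℤ) • ψ ∈ Cfsg.zspanOn (insert χ S) {1}ᶜ := by
    rw [mem_zspanOn_one]
    refine ⟨zspan_sub hχmem (zspan_zsmul (zspan_mono hSS' (hmemS ψ hψ)) _), ?_⟩
    show χ 1 - (a : ℤ) • ψ 1 = 0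
    rw [hdχ, hdξ ψ hψ, ha, zsmul_eq_mul]
    push_cast
    ring
  set β : G → ℂ := τ (χ - (a : ℤ) • ψ) with hβ
  have hβgc : Cfsg.IsGeneralizedCharacter G β := lio_genChar hτ hα₁
  have hββ : Cfsg.classInner β β = 1 + (a : ℂ) ^ 2 := by
    rw [hβ, lio_inner hτ hα₁ hα₁, classInner_sub_left, classInner_sub_right, classInner_sub_right,
      classInner_zsmul_left, classInner_zsmul_right, classInner_zsmul_left, classInner_zsmul_right,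
      hχχ, hχξ ψ hψ, hξχ ψ (Finset.mem_coe.mpr hψ), hortho ψ hψ ψ hψ, if_pos rfl]
    push_cast
    ring
  have hβ1 : β 1 = 0 := hτ1 _ hα₁
  -- the family τ₁ ξ
  have hτ₁gc : ∀ ξ ∈ S₀, Cfsg.IsGeneralizedCharacter G (τ₁ ξ) := fun ξ hξ =>
    lio_genChar hτ₁ (hmemS ξ hξ)
  have hτ₁orth : ∀ ξ ∈ S₀, ∀ ξ' ∈ S₀,
      Cfsg.classInner (τ₁ ξ) (τ₁ ξ') = if ξ = ξ' then 1 else 0 := fun ξ hξ ξ' hξ' => by
    rw [lio_inner hτ₁ (hmemS ξ hξ) (hmemS ξ' hξ'), hortho ξ hξ ξ' hξ']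
  have hbex : ∀ ξ : N → ℂ, ∃ k : ℤ, ξ ∈ S₀ → Cfsg.classInner β (τ₁ ξ) = k := by
    intro ξ
    by_cases hξ : ξ ∈ S₀
    · obtain ⟨k, hk⟩ := genChar_inner_int hβgc (hτ₁gc ξ hξ)
      exact ⟨k, fun _ => hk⟩
    · exact ⟨0, fun h => absurd h hξ⟩
  choose b hb using hbex
  -- the auxiliary elements dψ ξ - dξ ψ
  have hα₂ : ∀ ξ ∈ S₀, (d ψ : ℤ) • ξ - (d ξ : ℤ) • ψ ∈ Cfsg.zspanOn S {1}ᶜ := by
    intro ξ hξ
    rw [mem_zspanOn_one]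
    refine ⟨zspan_sub (zspan_zsmul (hmemS ξ hξ) _) (zspan_zsmul (hmemS ψ hψ) _), ?_⟩
    show (d ψ : ℤ) • ξ 1 - (d ξ : ℤ) • ψ 1 = 0
    rw [hdξ ξ hξ, hdξ ψ hψ, zsmul_eq_mul, zsmul_eq_mul]
    push_cast
    ring
  have hτ₁α₂ : ∀ ξ ∈ S₀, τ ((d ψ : ℤ) • ξ - (d ξ : ℤ) • ψ)
      = (d ψ : ℤ) • τ₁ ξ - (d ξ : ℤ) • τ₁ ψ := by
    intro ξ hξ
    rw [← hτ₁τ _ (hα₂ ξ hξ), lio_sub (zclosed_zspan S) hτ₁ (zspan_zsmul (hmemS ξ hξ) _)
      (zspan_zsmul (hmemS ψ hψ) _), lio_zsmul hτ₁ (hmemS ξ hξ), lio_zsmul hτ₁ (hmemS ψ hψ)]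
  have hrel : ∀ ξ ∈ S₀, ξ ≠ ψ → (d ψ : ℤ) * b ξ = (d ξ : ℤ) * ((a : ℤ) + b ψ) := by
    intro ξ hξ hne
    have h1 := lio_inner hτ hα₁ (zspanOn_mono hSS' _ (hα₂ ξ hξ))
    rw [hτ₁α₂ ξ hξ] at h1
    rw [classInner_sub_right, classInner_zsmul_right, classInner_zsmul_right, hb ξ hξ, hb ψ hψ,
      classInner_sub_left, classInner_sub_right, classInner_sub_right, classInner_zsmul_right,
      classInner_zsmul_right, classInner_zsmul_left, classInner_zsmul_left, classInner_zsmul_right,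
      classInner_zsmul_right, hχξ ξ hξ, hχξ ψ hψ, hortho ψ hψ ξ hξ, if_neg (Ne.symm hne),
      hortho ψ hψ ψ hψ, if_pos rfl] at h1
    have h2 : (((d ψ : ℤ) * b ξ : ℤ) : ℂ) = (((d ξ : ℤ) * ((a : ℤ) + b ψ) : ℤ) : ℂ) := by
      push_cast
      linear_combination h1
    exact_mod_cast h2
  -- Bessel
  have hbess := bessel_int S₀ (fun ξ => τ₁ ξ) hτ₁orth β b (fun ξ hξ => hb ξ hξ)
  have hbess_le : ∑ ξ ∈ S₀, b ξ ^ 2 ≤ 1 + (a : ℤ) ^ 2 := by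
    have h0 := classInner_self_re_nonneg (β - ∑ ξ ∈ S₀, b ξ • τ₁ ξ)
    rw [hbess, hββ] at h0
    have h1 : (1 + (a : ℂ) ^ 2 - ((∑ ξ ∈ S₀, b ξ ^ 2 : ℤ) : ℂ)).re
        = 1 + (a : ℝ) ^ 2 - ((∑ ξ ∈ S₀, b ξ ^ 2 : ℤ) : ℝ) := by
      have : (1 + (a : ℂ) ^ 2 - ((∑ ξ ∈ S₀, b ξ ^ 2 : ℤ) : ℂ))
          = ((1 + (a : ℝ) ^ 2 - ((∑ ξ ∈ S₀, b ξ ^ 2 : ℤ) : ℝ) : ℝ) : ℂ) := by
        push_cast; ring
      rw [this, Complex.ofReal_re]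
    rw [h1] at h0
    have h2 : ((∑ ξ ∈ S₀, b ξ ^ 2 : ℤ) : ℝ) ≤ ((1 + (a : ℤ) ^ 2 : ℤ) : ℝ) := by
      push_cast
      push_cast at h0
      linarith
    exact_mod_cast h2
  have hlt' : 2 * (a : ℤ) * (d ψ : ℤ) ^ 2 < ∑ ξ ∈ S₀, (d ξ : ℤ) ^ 2 := by
    have h1 : 2 * a * d ψ ^ 2 < ∑ ξ ∈ S₀, d ξ ^ 2 := by
      calc 2 * a * d ψ ^ 2 = 2 * d ψ * d χ := by rw [ha]; ring
        _ < ∑ ξ ∈ S₀, d ξ ^ 2 := hlt
    exact_mod_cast h1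
  have htψ : τ₁ ψ 1 ≠ 0 := genChar_norm_one_apply_one_ne (hτ₁gc ψ hψ)
    (by rw [hτ₁orth ψ hψ ψ hψ, if_pos rfl])
  rcases arith S₀ ψ hψ (fun ξ => (d ξ : ℤ)) b a ((a : ℤ) + b ψ)
    (by exact_mod_cast hdpos ψ hψ) (by exact_mod_cast ha1) rfl hrel hbess_le hlt'
    with hs | ⟨hs, heq, hB, hdb⟩
  swap
  · -- the case s = 1 is contradictory
    exfalso
    have hΔ0 : β - ∑ ξ ∈ S₀, b ξ • τ₁ ξ = 0 := by
      apply eq_zero_of_classInner_self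
      rw [hbess, hββ, heq]
      push_cast
      ring
    have hβsum : β 1 = ∑ ξ ∈ S₀, (b ξ : ℂ) * τ₁ ξ 1 := by
      have := congrFun (sub_eq_zero.mp hΔ0) 1
      rw [this, Finset.sum_apply]
      apply Finset.sum_congr rfl
      intro ξ _
      simp
    have ht : ∀ ξ ∈ S₀, ξ ≠ ψ → τ₁ ξ 1 = (b ξ : ℂ) * τ₁ ψ 1 := by
      intro ξ hξ hne
      have h1 := hτ1 _ (zspanOn_mono hSS' _ (hα₂ ξ hξ))
      rw [hτ₁α₂ ξ hξ] at h1
      have h1' : (d ψ : ℤ) • τ₁ ξ 1 - (d ξ : ℤ) • τ₁ ψ 1 = 0 := h1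
      rw [zsmul_eq_mul, zsmul_eq_mul] at h1'
      have h2 := hdb ξ hξ hne
      have h3 : ((d ξ : ℤ) : ℂ) = ((d ψ : ℤ) : ℂ) * (b ξ : ℂ) := by exact_mod_cast h2
      rw [h3] at h1'
      have hdψ : ((d ψ : ℤ) : ℂ) ≠ 0 := by
        have := hdpos ψ hψ
        exact_mod_cast this.ne'
      have h4 : ((d ψ : ℤ) : ℂ) * (τ₁ ξ 1 - (b ξ : ℂ) * τ₁ ψ 1) = 0 := by
        linear_combination h1'
      rcases mul_eq_zero.mp h4 with h5 | h5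
      · exact absurd h5 hdψ
      · exact sub_eq_zero.mp h5
    rw [hβ1, ← Finset.add_sum_erase S₀ _ hψ] at hβsum
    have h6 : ∑ ξ ∈ S₀.erase ψ, (b ξ : ℂ) * τ₁ ξ 1
        = ((∑ ξ ∈ S₀.erase ψ, b ξ ^ 2 : ℤ) : ℂ) * τ₁ ψ 1 := by
      push_cast
      rw [Finset.sum_mul]
      apply Finset.sum_congr rfl
      intro ξ hξ
      rw [ht ξ (Finset.mem_of_mem_erase hξ) (Finset.ne_of_mem_erase hξ)]
      ring
    rw [h6, hB] at hβsum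
    have hbψ : b ψ = 1 - (a : ℤ) := by linarith
    rw [hbψ] at hβsum
    have h7 : ((1 + a : ℕ) : ℂ) * τ₁ ψ 1 = 0 := by
      push_cast
      push_cast at hβsum
      linear_combination -hβsum
    rcases mul_eq_zero.mp h7 with h8 | h8
    · have : (1 + a : ℕ) = 0 := by exact_mod_cast h8
      omega
    · exact htψ h8
  -- now s = 0
  have hbψ : b ψ = -(a : ℤ) := by linarith
  have hbξ : ∀ ξ ∈ S₀, ξ ≠ ψ → b ξ = 0 := by
    intro ξ hξ hne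
    have h1 := hrel ξ hξ hne
    rw [hs, mul_zero] at h1
    rcases mul_eq_zero.mp h1 with h2 | h2
    · have := hdpos ψ hψ
      omega
    · exact h2
  set μ : G → ℂ := β + (a : ℤ) • τ₁ ψ with hμ
  have hμgc : Cfsg.IsGeneralizedCharacter G μ := genChar_add hβgc (genChar_zsmul a (hτ₁gc ψ hψ))
  have hτ₁β : ∀ ξ ∈ S₀, Cfsg.classInner (τ₁ ξ) β = (b ξ : ℂ) := by
    intro ξ hξ
    rw [← classInner_conj_symm, hb ξ hξ, map_intCast]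
  have hμξ : ∀ ξ ∈ S, Cfsg.classInner (τ₁ ξ) μ = 0 := by
    intro ξ hξ
    have hξ' : ξ ∈ S₀ := Finset.mem_coe.mp hξ
    rw [hμ, classInner_add_right, classInner_zsmul_right, hτ₁β ξ hξ', hτ₁orth ξ hξ' ψ hψ]
    by_cases hne : ξ = ψ
    · rw [if_pos hne, hne, hbψ]
      push_cast
      ring
    · rw [if_neg hne, hbξ ξ hξ' hne]
      push_cast
      ring
  have hμμ : Cfsg.classInner μ μ = 1 := by
    rw [hμ, classInner_add_left, classInner_add_right, classInner_add_right,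
      classInner_zsmul_left, classInner_zsmul_right, classInner_zsmul_left, classInner_zsmul_right,
      hββ, hb ψ hψ, hτ₁β ψ hψ, hτ₁orth ψ hψ ψ hψ, if_pos rfl, hbψ]
    push_cast
    ring
  -- the extension
  let k : (N → ℂ) → ℤ := fun θ => ⌊(Cfsg.classInner θ χ).re⌋
  let τ₂ : (N → ℂ) → (G → ℂ) := fun θ => τ₁ (θ - k θ • χ) + k θ • μ
  have hdec : ∀ θ ∈ Cfsg.zspan (insert χ S), ∃ m : ℤ, ∃ x ∈ Cfsg.zspan S, θ = m • χ + x := by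
    intro θ hθ
    exact Submodule.mem_span_insert.mp hθ
  have hxχ : ∀ x ∈ Cfsg.zspan S, Cfsg.classInner x χ = 0 := span_inner_zero χ hξχ
  have hχx : ∀ x ∈ Cfsg.zspan S, Cfsg.classInner χ x = 0 := by
    intro x hx
    rw [← classInner_conj_symm, hxχ x hx, map_zero]
  have hk : ∀ (m : ℤ) (x : N → ℂ), x ∈ Cfsg.zspan S → k (m • χ + x) = m := by
    intro m x hx
    simp only [k]
    rw [classInner_add_left, classInner_zsmul_left, hχχ, hxχ x hx]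
    simp
  have hτ₂ : ∀ (m : ℤ) (x : N → ℂ), x ∈ Cfsg.zspan S → τ₂ (m • χ + x) = τ₁ x + m • μ := by
    intro m x hx
    simp only [τ₂]
    rw [hk m x hx]
    congr 2
    abel
  have hτ₁xμ : ∀ x ∈ Cfsg.zspan S, Cfsg.classInner (τ₁ x) μ = 0 :=
    lio_span_inner_zero hτ₁ μ hμξ
  have hμτ₁x : ∀ x ∈ Cfsg.zspan S, Cfsg.classInner μ (τ₁ x) = 0 := by
    intro x hx
    rw [← classInner_conj_symm, hτ₁xμ x hx, map_zero]
  refine ⟨⟨α₀, zspanOn_mono hSS' _ hα₀, hα₀ne⟩, τ₂, ⟨?_, ?_, ?_, ?_⟩, ?_⟩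
  · intro θ hθ θ' hθ'
    obtain ⟨m, x, hx, rfl⟩ := hdec θ hθ
    obtain ⟨m', x', hx', rfl⟩ := hdec θ' hθ'
    have e1 : m • χ + x + (m' • χ + x') = (m + m') • χ + (x + x') := by
      rw [add_smul]; abel
    rw [e1, hτ₂ _ _ (zspan_add hx hx'), hτ₂ _ _ hx, hτ₂ _ _ hx', lio_add hτ₁ hx hx', add_smul]
    abel
  · intro θ hθ n
    obtain ⟨m, x, hx, rfl⟩ := hdec θ hθ
    have e1 : n • (m • χ + x) = (n * m) • χ + n • x := by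
      rw [smul_add, smul_smul]
    rw [e1, hτ₂ _ _ (zspan_zsmul hx n), hτ₂ _ _ hx, lio_zsmul hτ₁ hx]
    have hgen : ∀ (u v : G → ℂ), n • u + (n * m) • v = n • (u + m • v) := fun u v => by
      rw [smul_add, mul_smul]
    exact hgen _ _
  · intro θ hθ θ' hθ'
    obtain ⟨m, x, hx, rfl⟩ := hdec θ hθ
    obtain ⟨m', x', hx', rfl⟩ := hdec θ' hθ'
    rw [hτ₂ _ _ hx, hτ₂ _ _ hx', classInner_add_left, classInner_add_right, classInner_add_right,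
      classInner_zsmul_right, classInner_zsmul_left, classInner_zsmul_left, classInner_zsmul_right,
      lio_inner hτ₁ hx hx', hτ₁xμ x hx, hμτ₁x x' hx', hμμ,
      classInner_add_left, classInner_add_right, classInner_add_right,
      classInner_zsmul_right, classInner_zsmul_left, classInner_zsmul_left, classInner_zsmul_right,
      hχχ, hχx x' hx', hxχ x hx]
    ring
  · intro θ hθ
    obtain ⟨m, x, hx, rfl⟩ := hdec θ hθ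
    rw [hτ₂ _ _ hx]
    exact genChar_add (lio_genChar hτ₁ hx) (genChar_zsmul m hμgc)
  · intro θ hθ
    rw [mem_zspanOn_one] at hθ
    obtain ⟨hθ1, hθ2⟩ := hθ
    obtain ⟨m, x, hx, rfl⟩ := hdec θ hθ1
    rw [hτ₂ _ _ hx]
    have hw : x + (m * (a : ℤ)) • ψ ∈ Cfsg.zspanOn S {1}ᶜ := by
      rw [mem_zspanOn_one]
      refine ⟨zspan_add hx (zspan_zsmul (hmemS ψ hψ) _), ?_⟩
      have hθ2' : m • χ 1 + x 1 = 0 := hθ2
      show x 1 + (m * (a : ℤ)) • ψ 1 = 0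
      rw [hdχ, ha, zsmul_eq_mul] at hθ2'
      rw [hdξ ψ hψ, zsmul_eq_mul]
      push_cast at hθ2' ⊢
      linear_combination hθ2'
    have e1 : m • χ + x = m • (χ - (a : ℤ) • ψ) + (x + (m * (a : ℤ)) • ψ) := by
      rw [smul_sub, smul_smul]; abel
    rw [e1, lio_add hτ (zspanOn_zsmul hα₁ m) (zspanOn_mono hSS' _ hw), lio_zsmul hτ hα₁,
      ← hτ₁τ _ hw, lio_add hτ₁ hx (zspan_zsmul (hmemS ψ hψ) _), lio_zsmul hτ₁ (hmemS ψ hψ),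
      hμ, smul_add, smul_smul]
    abel

end Cfsg.Agent.S1530
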