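import Mathlib
import Cfsg.Statements.S1531
import Cfsg.Agent.Lib.Helper12.ZSpan

set_option autoImplicit false
open Cfsg

namespace Cfsg.Agent.S1531

open Cfsg.Agent.Lib.Helper2 Cfsg.Agent.Lib.Helper12
open scoped ComplexConjugate

theorem part1_core {G : Type*} [Group G] [Fintype G] (u u' v v' : G → ℂ)
    (hu : Cfsg.IsGeneralizedCharacter G u) (hu' : Cfsg.IsGeneralizedCharacter G u')
    (hv : Cfsg.IsGeneralizedCharacter G v) (hv' : Cfsg.IsGeneralizedCharacter G v')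
    (huu : Cfsg.classInner u u = 1) (hu'u' : Cfsg.classInner u' u' = 1)
    (huu' : Cfsg.classInner u u' = 0)
    (hvv : Cfsg.classInner v v = 1) (hv'v' : Cfsg.classInner v' v' = 1)
    (hvv' : Cfsg.classInner v v' = 0)
    (c c' e e' : ℕ) (hc : 0 < c) (hc' : 0 < c') (he : 0 < e) (he' : 0 < e')
    (h4 : ((c' : ℂ) * e') * Cfsg.classInner u v - ((c' : ℂ) * e) * Cfsg.classInner u v'
      - ((c : ℂ) * e') * Cfsg.classInner u' v + ((c : ℂ) * e) * Cfsg.classInner u' v' = 0)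
    (hσ1 : (c' : ℂ) * u 1 = (c : ℂ) * u' 1) (hτ1 : (e' : ℂ) * v 1 = (e : ℂ) * v' 1) :
    Cfsg.classInner u v = 0 := by
  by_contra hne
  obtain ⟨ε, hε, huv⟩ : ∃ ε : ℤ, (ε = 1 ∨ ε = -1) ∧ u = ε • v := by
    rcases genChar_norm_one_eq_or_neg hu hv huu hvv hne with h | h
    · exact ⟨1, Or.inl rfl, by rw [h, one_smul]⟩
    · exact ⟨-1, Or.inr rfl, by rw [h, neg_smul, one_smul]⟩
  have hε2 : ε * ε = 1 := by rcases hε with h | h <;> simp [h]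
  have hvu : v = ε • u := by rw [huv, smul_smul, hε2, one_smul]
  have h1 : Cfsg.classInner u v = ε := by rw [huv, classInner_zsmul_left, hvv, mul_one]
  have h2 : Cfsg.classInner u v' = 0 := by rw [huv, classInner_zsmul_left, hvv', mul_zero]
  have hu'u : Cfsg.classInner u' u = 0 := by rw [← classInner_conj_symm, huu', map_zero]
  have h3 : Cfsg.classInner u' v = 0 := by rw [hvu, classInner_zsmul_right, hu'u, mul_zero]
  rw [h1, h2, h3] at h4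
  have hc'e' : 0 < c' * e' := Nat.mul_pos hc' he'
  have hce : 0 < c * e := Nat.mul_pos hc he
  have hne' : Cfsg.classInner u' v' ≠ 0 := by
    intro h0
    rw [h0] at h4
    have h5 : (((c' * e' : ℕ) : ℤ) * ε : ℂ) = 0 := by push_cast; linear_combination h4
    have h6 : ((c' * e' : ℕ) : ℤ) * ε = 0 := by exact_mod_cast h5
    rcases hε with h | h
    · rw [h, mul_one] at h6
      have : c' * e' = 0 := by exact_mod_cast h6
      omega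
    · rw [h, mul_neg, mul_one, neg_eq_zero] at h6
      have : c' * e' = 0 := by exact_mod_cast h6
      omega
  obtain ⟨ε', hε', hu'v'⟩ : ∃ ε' : ℤ, (ε' = 1 ∨ ε' = -1) ∧ u' = ε' • v' := by
    rcases genChar_norm_one_eq_or_neg hu' hv' hu'u' hv'v' hne' with h | h
    · exact ⟨1, Or.inl rfl, by rw [h, one_smul]⟩
    · exact ⟨-1, Or.inr rfl, by rw [h, neg_smul, one_smul]⟩
  have h5 : Cfsg.classInner u' v' = ε' := by rw [hu'v', classInner_zsmul_left, hv'v', mul_one]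
  rw [h5] at h4
  have h6 : ((c' * e' : ℕ) : ℤ) * ε + ((c * e : ℕ) : ℤ) * ε' = 0 := by
    have : ((((c' * e' : ℕ) : ℤ) * ε + ((c * e : ℕ) : ℤ) * ε' : ℤ) : ℂ) = 0 := by
      push_cast; linear_combination h4
    exact_mod_cast this
  have hc'e'z : (0 : ℤ) < ((c' * e' : ℕ) : ℤ) := by exact_mod_cast hc'e'
  have hcez : (0 : ℤ) < ((c * e : ℕ) : ℤ) := by exact_mod_cast hce
  have hεε' : ε' = -ε := by
    rcases hε with h | h <;> rcases hε' with h' | h'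
    · rw [h, h'] at h6; linarith
    · rw [h, h']
    · rw [h, h']; simp
    · rw [h, h'] at h6; linarith
  have hu1 : u 1 = (ε : ℂ) * v 1 := by rw [huv]; simp
  have hu'1 : u' 1 = (ε' : ℂ) * v' 1 := by rw [hu'v']; simp
  rw [hu1, hu'1, hεε'] at hσ1
  have hεne : (ε : ℂ) ≠ 0 := by
    rcases hε with h | h <;> rw [h] <;> norm_num
  have h7 : (c' : ℂ) * v 1 = -(c : ℂ) * v' 1 := by
    have : (ε : ℂ) * ((c' : ℂ) * v 1 + (c : ℂ) * v' 1) = 0 := by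
      push_cast at hσ1
      linear_combination hσ1
    rcases mul_eq_zero.mp this with h | h
    · exact absurd h hεne
    · linear_combination h
  have h8 : ((c * e' + e * c' : ℕ) : ℂ) * v 1 = 0 := by
    push_cast
    linear_combination (c : ℂ) * hτ1 + (e : ℂ) * h7
  rcases mul_eq_zero.mp h8 with h | h
  · have h9 : c * e' + e * c' = 0 := by exact_mod_cast h
    have := Nat.mul_pos hc he'
    omega
  · exact genChar_norm_one_apply_one_ne hv hvv h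

/-- Let N be a subgroup of the finite group G, S a set of irreducible characters of N, and α a linear isometry on the integer combinations of S vanishing at 1 with values virtual characters of G vanishing at 1. Let X, Y ⊆ S be disjoint, each with at least two members, and σ, τ linear isometries on ℤ[X], ℤ[Y] into virtual characters agreeing with α on the members vanishing at 1. Then ⟨σ χ, τ η⟩ = 0 for χ ∈ X, η ∈ Y; and if for some χ₀ ∈ X, η₀ ∈ Y with degrees c = χ₀ 1, e = η₀ 1 one has α (c • η₀ − e • χ₀) = c • τ η₀ − e • σ χ₀, then (X ∪ Y, N minus 1, α) is coherent. -/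
theorem result {G : Type*} [Group G] [Fintype G] (N : Subgroup G) [Fintype N] (S X Y : Set (N → ℂ)) (hirr : ∀ ξ ∈ S, Cfsg.IsIrrCharacter N ξ) (hXS : X ⊆ S) (hYS : Y ⊆ S) (hXY : Disjoint X Y) (hX2 : ∃ a ∈ X, ∃ b ∈ X, a ≠ b) (hY2 : ∃ a ∈ Y, ∃ b ∈ Y, a ≠ b) (α : (N → ℂ) → (G → ℂ)) (hα : Cfsg.IsLinearIsometryOn (Cfsg.zspanOn S {1}ᶜ) α) (hα1 : ∀ θ ∈ Cfsg.zspanOn S {1}ᶜ, α θ 1 = 0) (σ τ : (N → ℂ) → (G → ℂ)) (hσ : Cfsg.IsLinearIsometryOn (Cfsg.zspan X) σ) (hσα : ∀ θ ∈ Cfsg.zspanOn X {1}ᶜ, σ θ = α θ) (hτ : Cfsg.IsLinearIsometryOn (Cfsg.zspan Y) τ) (hτα : ∀ θ ∈ Cfsg.zspanOn Y {1}ᶜ, τ θ = α θ) : (∀ χ ∈ X, ∀ η ∈ Y, Cfsg.classInner (σ χ) (τ η) = 0) ∧ ((∃ χ₀ ∈ X, ∃ η₀ ∈ Y, α (χ₀ 1 • η₀ - η₀ 1 • χ₀) = χ₀ 1 • τ η₀ - η₀ 1 • σ χ₀) → Cfsg.IsCoherent (X ∪ Y) {1}ᶜ α) := by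
  classical
  -- degrees
  have hdegex : ∀ ξ : N → ℂ, ∃ n : ℕ, ξ ∈ S → 0 < n ∧ ξ 1 = n := by
    intro ξ
    by_cases hξ : ξ ∈ S
    · obtain ⟨n, hn0, hn⟩ := irr_apply_one (hirr ξ hξ)
      exact ⟨n, fun _ => ⟨hn0, hn⟩⟩
    · exact ⟨0, fun h => absurd h hξ⟩
  choose dg hdg using hdegex
  have hdgX : ∀ ξ ∈ X, 0 < dg ξ ∧ ξ 1 = dg ξ := fun ξ hξ => hdg ξ (hXS hξ)
  have hdgY : ∀ ξ ∈ Y, 0 < dg ξ ∧ ξ 1 = dg ξ := fun ξ hξ => hdg ξ (hYS hξ)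
  have hXirr : ∀ ξ ∈ X, Cfsg.IsIrrCharacter N ξ := fun ξ hξ => hirr ξ (hXS hξ)
  have hYirr : ∀ ξ ∈ Y, Cfsg.IsIrrCharacter N ξ := fun ξ hξ => hirr ξ (hYS hξ)
  have horthX : ∀ ξ ∈ X, ∀ ξ' ∈ X, Cfsg.classInner ξ ξ' = if ξ = ξ' then 1 else 0 :=
    fun ξ hξ ξ' hξ' => classInner_irr (hXirr ξ hξ) (hXirr ξ' hξ')
  have horthY : ∀ ξ ∈ Y, ∀ ξ' ∈ Y, Cfsg.classInner ξ ξ' = if ξ = ξ' then 1 else 0 :=
    fun ξ hξ ξ' hξ' => classInner_irr (hYirr ξ hξ) (hYirr ξ' hξ')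
  have hcross : ∀ ξ ∈ X, ∀ η ∈ Y, Cfsg.classInner ξ η = 0 := fun ξ hξ η hη =>
    classInner_irr_ne (hXirr ξ hξ) (hYirr η hη) (fun h => Set.disjoint_left.mp hXY hξ (h ▸ hη))
  have hcross' : ∀ η ∈ Y, ∀ ξ ∈ X, Cfsg.classInner η ξ = 0 := fun η hη ξ hξ => by
    rw [← classInner_conj_symm, hcross ξ hξ η hη, map_zero]
  have hmemX : ∀ ξ ∈ X, ξ ∈ Cfsg.zspan X := fun ξ hξ => zspan_of_mem hξ
  have hmemY : ∀ ξ ∈ Y, ξ ∈ Cfsg.zspan Y := fun ξ hξ => zspan_of_mem hξ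
  have hσgc : ∀ ξ ∈ X, Cfsg.IsGeneralizedCharacter G (σ ξ) := fun ξ hξ =>
    lio_genChar hσ (hmemX ξ hξ)
  have hτgc : ∀ ξ ∈ Y, Cfsg.IsGeneralizedCharacter G (τ ξ) := fun ξ hξ =>
    lio_genChar hτ (hmemY ξ hξ)
  have hσorth : ∀ ξ ∈ X, ∀ ξ' ∈ X, Cfsg.classInner (σ ξ) (σ ξ') = if ξ = ξ' then 1 else 0 :=
    fun ξ hξ ξ' hξ' => by rw [lio_inner hσ (hmemX ξ hξ) (hmemX ξ' hξ'), horthX ξ hξ ξ' hξ']
  have hτorth : ∀ ξ ∈ Y, ∀ ξ' ∈ Y, Cfsg.classInner (τ ξ) (τ ξ') = if ξ = ξ' then 1 else 0 :=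
    fun ξ hξ ξ' hξ' => by rw [lio_inner hτ (hmemY ξ hξ) (hmemY ξ' hξ'), horthY ξ hξ ξ' hξ']
  -- difference elements
  have hdiffX : ∀ ξ ∈ X, ∀ ξ' ∈ X, (dg ξ' : ℤ) • ξ - (dg ξ : ℤ) • ξ' ∈ Cfsg.zspanOn X {1}ᶜ := by
    intro ξ hξ ξ' hξ'
    rw [mem_zspanOn_one]
    refine ⟨zspan_sub (zspan_zsmul (hmemX ξ hξ) _) (zspan_zsmul (hmemX ξ' hξ') _), ?_⟩
    show (dg ξ' : ℤ) • ξ 1 - (dg ξ : ℤ) • ξ' 1 = 0
    rw [(hdgX ξ hξ).2, (hdgX ξ' hξ').2, zsmul_eq_mul, zsmul_eq_mul]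
    push_cast
    ring
  have hdiffY : ∀ ξ ∈ Y, ∀ ξ' ∈ Y, (dg ξ' : ℤ) • ξ - (dg ξ : ℤ) • ξ' ∈ Cfsg.zspanOn Y {1}ᶜ := by
    intro ξ hξ ξ' hξ'
    rw [mem_zspanOn_one]
    refine ⟨zspan_sub (zspan_zsmul (hmemY ξ hξ) _) (zspan_zsmul (hmemY ξ' hξ') _), ?_⟩
    show (dg ξ' : ℤ) • ξ 1 - (dg ξ : ℤ) • ξ' 1 = 0
    rw [(hdgY ξ hξ).2, (hdgY ξ' hξ').2, zsmul_eq_mul, zsmul_eq_mul]
    push_cast
    ring
  have hσdiff : ∀ ξ ∈ X, ∀ ξ' ∈ X, α ((dg ξ' : ℤ) • ξ - (dg ξ : ℤ) • ξ')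
      = (dg ξ' : ℤ) • σ ξ - (dg ξ : ℤ) • σ ξ' := by
    intro ξ hξ ξ' hξ'
    rw [← hσα _ (hdiffX ξ hξ ξ' hξ'), lio_sub (zclosed_zspan X) hσ (zspan_zsmul (hmemX ξ hξ) _)
      (zspan_zsmul (hmemX ξ' hξ') _), lio_zsmul hσ (hmemX ξ hξ), lio_zsmul hσ (hmemX ξ' hξ')]
  have hτdiff : ∀ ξ ∈ Y, ∀ ξ' ∈ Y, α ((dg ξ' : ℤ) • ξ - (dg ξ : ℤ) • ξ')
      = (dg ξ' : ℤ) • τ ξ - (dg ξ : ℤ) • τ ξ' := by
    intro ξ hξ ξ' hξ'
    rw [← hτα _ (hdiffY ξ hξ ξ' hξ'), lio_sub (zclosed_zspan Y) hτ (zspan_zsmul (hmemY ξ hξ) _)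
      (zspan_zsmul (hmemY ξ' hξ') _), lio_zsmul hτ (hmemY ξ hξ), lio_zsmul hτ (hmemY ξ' hξ')]
  -- part 1
  have part1 : ∀ χ ∈ X, ∀ η ∈ Y, Cfsg.classInner (σ χ) (τ η) = 0 := by
    intro χ hχ η hη
    obtain ⟨χ', hχ', hne⟩ : ∃ χ' ∈ X, χ' ≠ χ := by
      obtain ⟨a, ha, b, hb, hab⟩ := hX2
      by_cases h : a = χ
      · exact ⟨b, hb, fun h' => hab (h.trans h'.symm)⟩
      · exact ⟨a, ha, h⟩
    obtain ⟨η', hη', hne'⟩ : ∃ η' ∈ Y, η' ≠ η := by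
      obtain ⟨a, ha, b, hb, hab⟩ := hY2
      by_cases h : a = η
      · exact ⟨b, hb, fun h' => hab (h.trans h'.symm)⟩
      · exact ⟨a, ha, h⟩
    have hA := zspanOn_mono hXS {1}ᶜ (hdiffX χ hχ χ' hχ')
    have hB := zspanOn_mono hYS {1}ᶜ (hdiffY η hη η' hη')
    have h4 := lio_inner hα hA hB
    rw [hσdiff χ hχ χ' hχ', hτdiff η hη η' hη'] at h4
    rw [classInner_sub_left, classInner_sub_right, classInner_sub_right,
      classInner_zsmul_left, classInner_zsmul_right, classInner_zsmul_left, classInner_zsmul_right,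
      classInner_zsmul_left, classInner_zsmul_right, classInner_zsmul_left, classInner_zsmul_right,
      classInner_sub_left, classInner_sub_right, classInner_sub_right,
      classInner_zsmul_left, classInner_zsmul_right, classInner_zsmul_left, classInner_zsmul_right,
      classInner_zsmul_left, classInner_zsmul_right, classInner_zsmul_left, classInner_zsmul_right,
      hcross χ hχ η hη, hcross χ hχ η' hη', hcross χ' hχ' η hη, hcross χ' hχ' η' hη'] at h4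
    have h1A := hα1 _ hA
    rw [hσdiff χ hχ χ' hχ'] at h1A
    have h1A' : (dg χ' : ℤ) • σ χ 1 - (dg χ : ℤ) • σ χ' 1 = 0 := h1A
    rw [zsmul_eq_mul, zsmul_eq_mul] at h1A'
    have h1B := hα1 _ hB
    rw [hτdiff η hη η' hη'] at h1B
    have h1B' : (dg η' : ℤ) • τ η 1 - (dg η : ℤ) • τ η' 1 = 0 := h1B
    rw [zsmul_eq_mul, zsmul_eq_mul] at h1B'
    apply part1_core (σ χ) (σ χ') (τ η) (τ η') (hσgc χ hχ) (hσgc χ' hχ') (hτgc η hη) (hτgc η' hη')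
      (by rw [hσorth χ hχ χ hχ, if_pos rfl]) (by rw [hσorth χ' hχ' χ' hχ', if_pos rfl])
      (by rw [hσorth χ hχ χ' hχ', if_neg (Ne.symm hne)])
      (by rw [hτorth η hη η hη, if_pos rfl]) (by rw [hτorth η' hη' η' hη', if_pos rfl])
      (by rw [hτorth η hη η' hη', if_neg (Ne.symm hne')])
      (dg χ) (dg χ') (dg η) (dg η') (hdgX χ hχ).1 (hdgX χ' hχ').1 (hdgY η hη).1 (hdgY η' hη').1
    · push_cast at h4
      linear_combination h4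
    · push_cast at h1A'
      linear_combination h1A'
    · push_cast at h1B'
      linear_combination h1B'
  refine ⟨part1, ?_⟩
  rintro ⟨χ₀, hχ₀, η₀, hη₀, hex⟩
  -- orthogonality of the two spans
  have hsp1 : ∀ η ∈ Y, ∀ x ∈ Cfsg.zspan X, Cfsg.classInner x η = 0 := fun η hη =>
    span_inner_zero η (fun ξ hξ => hcross ξ hξ η hη)
  have hsp2 : ∀ x ∈ Cfsg.zspan X, ∀ y ∈ Cfsg.zspan Y, Cfsg.classInner y x = 0 := fun x hx =>
    span_inner_zero x (fun η hη => by rw [← classInner_conj_symm, hsp1 η hη x hx, map_zero])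
  have hsp3 : ∀ x ∈ Cfsg.zspan X, ∀ y ∈ Cfsg.zspan Y, Cfsg.classInner x y = 0 := fun x hx y hy => by
    rw [← classInner_conj_symm, hsp2 x hx y hy, map_zero]
  have himg1 : ∀ η ∈ Y, ∀ x ∈ Cfsg.zspan X, Cfsg.classInner (σ x) (τ η) = 0 := fun η hη =>
    lio_span_inner_zero hσ (τ η) (fun ξ hξ => part1 ξ hξ η hη)
  have himg2 : ∀ x ∈ Cfsg.zspan X, ∀ y ∈ Cfsg.zspan Y, Cfsg.classInner (τ y) (σ x) = 0 :=
    fun x hx => lio_span_inner_zero hτ (σ x)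
      (fun η hη => by rw [← classInner_conj_symm, himg1 η hη x hx, map_zero])
  have himg3 : ∀ x ∈ Cfsg.zspan X, ∀ y ∈ Cfsg.zspan Y, Cfsg.classInner (σ x) (τ y) = 0 :=
    fun x hx y hy => by rw [← classInner_conj_symm, himg2 x hx y hy, map_zero]
  -- uniqueness of the decomposition
  have huniq : ∀ x ∈ Cfsg.zspan X, ∀ y ∈ Cfsg.zspan Y, ∀ x' ∈ Cfsg.zspan X, ∀ y' ∈ Cfsg.zspan Y,
      x + y = x' + y' → x = x' := by
    intro x hx y hy x' hx' y' hy' heq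
    have hδ : x - x' = y' - y := by
      rw [sub_eq_sub_iff_add_eq_add, heq, add_comm]
    have h0 : Cfsg.classInner (x - x') (x - x') = 0 := by
      have := hsp2 (x - x') (zspan_sub hx hx') (y' - y) (zspan_sub hy' hy)
      rw [← hδ] at this
      exact this
    exact sub_eq_zero.mp (eq_zero_of_classInner_self h0)
  have hdec : ∀ θ ∈ Cfsg.zspan (X ∪ Y), ∃ x ∈ Cfsg.zspan X, ∃ y ∈ Cfsg.zspan Y, θ = x + y := by
    intro θ hθ
    have hθ' : θ ∈ Submodule.span ℤ (X ∪ Y) := hθ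
    rw [Submodule.span_union, Submodule.mem_sup] at hθ'
    obtain ⟨x, hx, y, hy, rfl⟩ := hθ'
    exact ⟨x, hx, y, hy, rfl⟩
  let pX : (N → ℂ) → (N → ℂ) := fun θ =>
    if h : ∃ x ∈ Cfsg.zspan X, ∃ y ∈ Cfsg.zspan Y, θ = x + y then h.choose else 0
  have hpX : ∀ x ∈ Cfsg.zspan X, ∀ y ∈ Cfsg.zspan Y, pX (x + y) = x := by
    intro x hx y hy
    have h : ∃ x' ∈ Cfsg.zspan X, ∃ y' ∈ Cfsg.zspan Y, x + y = x' + y' := ⟨x, hx, y, hy, rfl⟩
    simp only [pX]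
    rw [dif_pos h]
    obtain ⟨hx', y', hy', heq⟩ := h.choose_spec
    exact (huniq x hx y hy _ hx' y' hy' heq).symm
  let τ₁ : (N → ℂ) → (G → ℂ) := fun θ => σ (pX θ) + τ (θ - pX θ)
  have hτ₁ : ∀ x ∈ Cfsg.zspan X, ∀ y ∈ Cfsg.zspan Y, τ₁ (x + y) = σ x + τ y := by
    intro x hx y hy
    simp only [τ₁]
    rw [hpX x hx y hy, add_sub_cancel_left]
  have hXYS : X ∪ Y ⊆ S := Set.union_subset hXS hYS
  -- a nonzero element
  have hnz : ∃ θ ∈ Cfsg.zspanOn (X ∪ Y) {1}ᶜ, θ ≠ 0 := by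
    obtain ⟨a, ha, b, hb, hab⟩ := hX2
    refine ⟨(dg b : ℤ) • a - (dg a : ℤ) • b,
      zspanOn_mono Set.subset_union_left {1}ᶜ (hdiffX a ha b hb), ?_⟩
    intro h0
    have h1 : Cfsg.classInner ((dg b : ℤ) • a - (dg a : ℤ) • b) a = 0 := by
      rw [h0]; simp [classInner_def]
    rw [classInner_sub_left, classInner_zsmul_left, classInner_zsmul_left, horthX a ha a ha,
      if_pos rfl, horthX b hb a ha, if_neg (Ne.symm hab)] at h1
    have h2 : ((dg b : ℤ) : ℂ) = 0 := by linear_combination h1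
    have h3 : dg b = 0 := by exact_mod_cast h2
    have := (hdgX b hb).1
    omega
  refine ⟨hnz, τ₁, ⟨?_, ?_, ?_, ?_⟩, ?_⟩
  · intro θ hθ θ' hθ'
    obtain ⟨x, hx, y, hy, rfl⟩ := hdec θ hθ
    obtain ⟨x', hx', y', hy', rfl⟩ := hdec θ' hθ'
    have e1 : x + y + (x' + y') = (x + x') + (y + y') := by abel
    rw [e1, hτ₁ _ (zspan_add hx hx') _ (zspan_add hy hy'), hτ₁ _ hx _ hy, hτ₁ _ hx' _ hy',
      lio_add hσ hx hx', lio_add hτ hy hy']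
    abel
  · intro θ hθ n
    obtain ⟨x, hx, y, hy, rfl⟩ := hdec θ hθ
    rw [smul_add, hτ₁ _ (zspan_zsmul hx n) _ (zspan_zsmul hy n), hτ₁ _ hx _ hy,
      lio_zsmul hσ hx, lio_zsmul hτ hy, smul_add]
  · intro θ hθ θ' hθ'
    obtain ⟨x, hx, y, hy, rfl⟩ := hdec θ hθ
    obtain ⟨x', hx', y', hy', rfl⟩ := hdec θ' hθ'
    rw [hτ₁ _ hx _ hy, hτ₁ _ hx' _ hy', classInner_add_left, classInner_add_right,
      classInner_add_right, lio_inner hσ hx hx', lio_inner hτ hy hy', himg3 x hx y' hy',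
      himg2 x' hx' y hy, classInner_add_left, classInner_add_right, classInner_add_right,
      hsp3 x hx y' hy', hsp2 x' hx' y hy]
  · intro θ hθ
    obtain ⟨x, hx, y, hy, rfl⟩ := hdec θ hθ
    rw [hτ₁ _ hx _ hy]
    exact genChar_add (lio_genChar hσ hx) (lio_genChar hτ hy)
  · intro θ hθ
    have hθS := zspanOn_mono hXYS {1}ᶜ hθ
    rw [mem_zspanOn_one] at hθ
    obtain ⟨hθ1, hθ2⟩ := hθ
    obtain ⟨x, hx, y, hy, rfl⟩ := hdec θ hθ1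
    rw [hτ₁ _ hx _ hy]
    set c := dg χ₀ with hc
    set e := dg η₀ with he
    have hc0 := (hdgX χ₀ hχ₀).1
    have he0 := (hdgY η₀ hη₀).1
    have hc1 := (hdgX χ₀ hχ₀).2
    have he1 := (hdgY η₀ hη₀).2
    -- rewrite the hypothesis with integer scalars
    have hsm : ∀ (n : ℕ) (f : N → ℂ), (n : ℂ) • f = (n : ℤ) • f := by
      intro n f
      funext g
      simp
    have hsm' : ∀ (n : ℕ) (f : G → ℂ), (n : ℂ) • f = (n : ℤ) • f := by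
      intro n f
      funext g
      simp
    rw [hc1, he1, hsm, hsm, hsm', hsm'] at hex
    obtain ⟨m, hm⟩ := span_apply_one_int (S := X)
      (fun ξ hξ => ⟨(dg ξ : ℤ), by rw [(hdgX ξ hξ).2]; simp⟩) x hx
    have hy1 : y 1 = -(m : ℂ) := by
      have h1 : x 1 + y 1 = 0 := hθ2
      rw [hm] at h1
      linear_combination h1
    have hx' : (c : ℤ) • x - m • χ₀ ∈ Cfsg.zspanOn X {1}ᶜ := by
      rw [mem_zspanOn_one]
      refine ⟨zspan_sub (zspan_zsmul hx _) (zspan_zsmul (hmemX χ₀ hχ₀) _), ?_⟩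
      show (c : ℤ) • x 1 - m • χ₀ 1 = 0
      rw [hm, hc1, zsmul_eq_mul, zsmul_eq_mul]
      push_cast
      ring
    have hy' : (e : ℤ) • y + m • η₀ ∈ Cfsg.zspanOn Y {1}ᶜ := by
      rw [mem_zspanOn_one]
      refine ⟨zspan_add (zspan_zsmul hy _) (zspan_zsmul (hmemY η₀ hη₀) _), ?_⟩
      show (e : ℤ) • y 1 + m • η₀ 1 = 0
      rw [hy1, he1, zsmul_eq_mul, zsmul_eq_mul]
      push_cast
      ring
    have hw : (c : ℤ) • η₀ - (e : ℤ) • χ₀ ∈ Cfsg.zspanOn S {1}ᶜ := by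
      rw [mem_zspanOn_one]
      refine ⟨zspan_sub (zspan_zsmul (zspan_of_mem (hYS hη₀)) _)
        (zspan_zsmul (zspan_of_mem (hXS hχ₀)) _), ?_⟩
      show (c : ℤ) • η₀ 1 - (e : ℤ) • χ₀ 1 = 0
      rw [hc1, he1, zsmul_eq_mul, zsmul_eq_mul]
      push_cast
      ring
    have hx'S := zspanOn_mono hXS {1}ᶜ hx'
    have hy'S := zspanOn_mono hYS {1}ᶜ hy'
    have hcl := zclosed_zspanOn S ({1}ᶜ : Set N)
    have hid : ((e : ℤ) * (c : ℤ)) • (x + y)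
        = ((e : ℤ) • ((c : ℤ) • x - m • χ₀) + (c : ℤ) • ((e : ℤ) • y + m • η₀))
          - m • ((c : ℤ) • η₀ - (e : ℤ) • χ₀) := by
      funext g
      simp only [Pi.smul_apply, Pi.add_apply, Pi.sub_apply]
      simp only [zsmul_eq_mul]
      push_cast
      ring
    have h1 : α (((e : ℤ) * (c : ℤ)) • (x + y)) = ((e : ℤ) * (c : ℤ)) • α (x + y) :=
      lio_zsmul hα hθS _
    rw [hid, lio_sub hcl hα (zspanOn_add (zspanOn_zsmul hx'S _) (zspanOn_zsmul hy'S _))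
      (zspanOn_zsmul hw _), lio_add hα (zspanOn_zsmul hx'S _) (zspanOn_zsmul hy'S _),
      lio_zsmul hα hx'S, lio_zsmul hα hy'S, lio_zsmul hα hw, hex, ← hσα _ hx', ← hτα _ hy',
      lio_sub (zclosed_zspan X) hσ (zspan_zsmul hx _) (zspan_zsmul (hmemX χ₀ hχ₀) _),
      lio_zsmul hσ hx, lio_zsmul hσ (hmemX χ₀ hχ₀),
      lio_add hτ (zspan_zsmul hy _) (zspan_zsmul (hmemY η₀ hη₀) _),
      lio_zsmul hτ hy, lio_zsmul hτ (hmemY η₀ hη₀)] at h1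
    funext g
    have h2 := congrFun h1 g
    simp only [Pi.smul_apply, Pi.add_apply, Pi.sub_apply] at h2
    simp only [zsmul_eq_mul] at h2
    have hec : ((e : ℤ) : ℂ) * ((c : ℤ) : ℂ) ≠ 0 := by
      apply mul_ne_zero
      · exact_mod_cast he0.ne'
      · exact_mod_cast hc0.ne'
    have h3 : (((e : ℤ) : ℂ) * ((c : ℤ) : ℂ)) * ((σ x + τ y) g - α (x + y) g) = 0 := by
      push_cast at h2 ⊢
      rw [Pi.add_apply]
      linear_combination h2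
    rcases mul_eq_zero.mp h3 with h4 | h4
    · exact absurd h4 hec
    · exact sub_eq_zero.mp h4

end Cfsg.Agent.S1531
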