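import Mathlib
import Cfsg.Statements.S1536
import Cfsg.Agent.Lib.Helper2.CharPerm
import Cfsg.Agent.S1496

set_option autoImplicit false
open Cfsg
open Cfsg.Agent.Lib.Helper2

namespace Cfsg.Agent.S1536

/-- Let H be a normal subgroup of the finite group M whose order is coprime to its index. For x ∈ M: some non-principal irreducible character of H is unchanged under h ↦ θ(x h x⁻¹) if and only if some non-identity element of H commutes with x. -/
theorem result {M : Type*} [Group M] [Finite M] (H : Subgroup M) [hN : H.Normal] (hHall : Nat.Coprime (Nat.card H) H.index) (x : M) : (∃ θ : H → ℂ, Cfsg.IsIrrCharacter H θ ∧ θ ≠ (fun _ => 1) ∧ (fun h : H => θ ⟨x * h * x⁻¹, hN.conj_mem h h.2 x⟩) = θ) ↔ ∃ h ∈ H, h ≠ 1 ∧ x * h = h * x := by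
  classical
  have : Fintype H := Fintype.ofFinite H
  let α : H ≃* H := MulAut.conjNormal x
  have hαapp : ∀ h : H, ((α h : H) : M) = x * h * x⁻¹ := fun h => MulAut.conjNormal_apply x h
  have hfun : ∀ θ : H → ℂ, (fun h : H => θ ⟨x * h * x⁻¹, hN.conj_mem h h.2 x⟩) = θ ∘ α := by
    intro θ
    funext h
    rfl
  have ht : ∀ χ : H → ℂ, Cfsg.IsIrrCharacter H χ → Cfsg.IsIrrCharacter H (χ ∘ α) :=
    fun χ hχ => isIrrCharacter_comp_mulEquiv hχ α
  have ht' : ∀ g h : H, IsConj g h → IsConj (α g) (α h) := fun g h hgh => α.toMonoidHom.map_isConj hgh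
  have hB := card_fixed_irr_eq_card_fixed_classes (⇑α) ht ht'
  constructor
  · rintro ⟨θ, hθ, hθ1, hfix⟩
    rw [hfun] at hfix
    have hcard : 1 < Nat.card {χ : Cfsg.IrrCharacter H // (χ : H → ℂ) ∘ α = (χ : H → ℂ)} := by
      apply Finite.one_lt_card_iff_nontrivial.2
      refine ⟨⟨⟨⟨fun _ => 1, isIrrCharacter_one⟩, rfl⟩, ⟨⟨θ, hθ⟩, hfix⟩, ?_⟩⟩
      intro h
      apply hθ1
      have := congrArg (fun z => (z.1 : H → ℂ)) h
      exact this.symm
    rw [hB] at hcard
    have hnt := Finite.one_lt_card_iff_nontrivial.1 hcard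
    obtain ⟨C₁, C₂, hne⟩ := hnt
    have hexC : ∃ C : {C : ConjClasses H // ∀ g : H, ConjClasses.mk g = C → IsConj (α g) g},
        C.1 ≠ ConjClasses.mk 1 := by
      by_cases h1 : C₁.1 = ConjClasses.mk 1
      · refine ⟨C₂, fun h2 => hne (Subtype.ext (h1.trans h2.symm))⟩
      · exact ⟨C₁, h1⟩
    obtain ⟨C, hC⟩ := hexC
    obtain ⟨k₀, hk₀⟩ := ConjClasses.mk_surjective C.1
    have hk₀1 : k₀ ≠ 1 := by
      intro h
      apply hC
      rw [← hk₀, h]
    have hconj := C.2 k₀ hk₀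
    obtain ⟨c, hc⟩ := isConj_iff.1 hconj
    have hc' : (c : M) * x * (k₀ : M) * ((c : M) * x)⁻¹ = (k₀ : M) := by
      have := congrArg Subtype.val hc
      simp only [Subgroup.coe_mul, Subgroup.coe_inv, hαapp] at this
      calc (c : M) * x * (k₀ : M) * ((c : M) * x)⁻¹ = (c : M) * (x * (k₀ : M) * x⁻¹) * (c : M)⁻¹ := by
            group
        _ = (k₀ : M) := this
    by_cases hxb : x ^ H.index = 1
    · have hcop : Nat.Coprime (orderOf x) (Nat.card H) :=
        Nat.Coprime.coprime_dvd_left (orderOf_dvd_of_pow_eq_one hxb) hHall.symm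
      have hxn : x ∈ Subgroup.normalizer (H : Set M) := by
        rw [Subgroup.normalizer_eq_top]
        exact Subgroup.mem_top x
      obtain ⟨u, hu, c', hc'H, hcomm, hconj'⟩ := Cfsg.Agent.S1496.result H x hxn hcop (c : M) c.2
      by_cases hc1 : c' = 1
      · rw [hc1, one_mul] at hconj'
        refine ⟨u * k₀ * u⁻¹, H.mul_mem (H.mul_mem hu k₀.2) (H.inv_mem hu), ?_, ?_⟩
        · intro h
          apply hk₀1
          apply Subtype.ext
          have : (k₀ : M) = u⁻¹ * (u * k₀ * u⁻¹) * u := by group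
          rw [this, h]
          simp
        · have e : x * (u * (k₀ : M) * u⁻¹) * x⁻¹ = u * (k₀ : M) * u⁻¹ := by
            rw [← hconj']
            calc u * ((c : M) * x) * u⁻¹ * (u * (k₀ : M) * u⁻¹) * (u * ((c : M) * x) * u⁻¹)⁻¹
                = u * ((c : M) * x * (k₀ : M) * ((c : M) * x)⁻¹) * u⁻¹ := by group
              _ = u * (k₀ : M) * u⁻¹ := by rw [hc']
          calc x * (u * (k₀ : M) * u⁻¹) = x * (u * (k₀ : M) * u⁻¹) * x⁻¹ * x := by group
            _ = u * (k₀ : M) * u⁻¹ * x := by rw [e]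
      · exact ⟨c', hc'H, hc1, hcomm.symm⟩
    · refine ⟨x ^ H.index, H.pow_index_mem x, hxb, ?_⟩
      rw [← pow_succ', ← pow_succ]
  · rintro ⟨h, hh, hh1, hcomm⟩
    have hαh : α ⟨h, hh⟩ = ⟨h, hh⟩ := by
      apply Subtype.ext
      rw [hαapp]
      simp only
      rw [hcomm]
      group
    have hcard : 1 < Nat.card {C : ConjClasses H // ∀ g : H, ConjClasses.mk g = C → IsConj (α g) g} := by
      apply Finite.one_lt_card_iff_nontrivial.2
      refine ⟨⟨⟨ConjClasses.mk 1, ?_⟩, ⟨ConjClasses.mk ⟨h, hh⟩, ?_⟩, ?_⟩⟩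
      · intro g hg
        rw [ConjClasses.mk_eq_mk_iff_isConj] at hg
        have hg1 : g = 1 := isConj_one_right.1 hg.symm
        rw [hg1, map_one]
      · intro g hg
        rw [ConjClasses.mk_eq_mk_iff_isConj] at hg
        have h1 := ht' g ⟨h, hh⟩ hg
        rw [hαh] at h1
        exact h1.trans hg.symm
      · intro heq
        have h2 := congrArg Subtype.val heq
        simp only at h2
        rw [ConjClasses.mk_eq_mk_iff_isConj] at h2
        have h3 : (⟨h, hh⟩ : H) = 1 := isConj_one_right.1 h2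
        apply hh1
        exact congrArg Subtype.val h3
    rw [← hB] at hcard
    have hnt := Finite.one_lt_card_iff_nontrivial.1 hcard
    obtain ⟨χ₁, χ₂, hne⟩ := hnt
    have hex : ∃ χ : {χ : Cfsg.IrrCharacter H // (χ : H → ℂ) ∘ α = (χ : H → ℂ)},
        (χ.1 : H → ℂ) ≠ fun _ => 1 := by
      by_cases h1 : (χ₁.1 : H → ℂ) = fun _ => 1
      · refine ⟨χ₂, fun h2 => hne (Subtype.ext (Subtype.ext (h1.trans h2.symm)))⟩
      · exact ⟨χ₁, h1⟩
    obtain ⟨χ, hχ⟩ := hex
    refine ⟨χ.1, χ.1.2, hχ, ?_⟩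
    rw [hfun]
    exact χ.2

end Cfsg.Agent.S1536
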