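import Mathlib
import Cfsg.Statements.S1546

set_option autoImplicit false
open Cfsg

namespace Cfsg.Agent.S1546

theorem geo_modEq (p m : ℕ) (h : p ≡ 1 [MOD m]) (q : ℕ) :
    ∑ i ∈ Finset.range q, p ^ i ≡ q [MOD m] := by
  induction q with
  | zero => simp [Nat.ModEq]
  | succ q ih =>
    rw [Finset.sum_range_succ]
    have h1 : p ^ q ≡ 1 [MOD m] := by
      have := h.pow q
      rwa [one_pow] at this
    exact ih.add h1

/-- Let p and q be odd primes and N = (p ^ q − 1) / (p − 1) = 1 + p + ⋯ + p^(q−1). Then N is odd; if p ≡ 1 (mod q) then q ∣ N; and if p is not ≡ 1 (mod q) then N is coprime to p − 1 and every divisor of N is ≡ 1 (mod q). -/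
theorem result (p q : ℕ) (hp : p.Prime) (hq : q.Prime) (hp2 : p ≠ 2) (hq2 : q ≠ 2) : Odd ((p ^ q - 1) / (p - 1)) ∧ (p % q = 1 → q ∣ (p ^ q - 1) / (p - 1)) ∧ (p % q ≠ 1 → Nat.Coprime ((p ^ q - 1) / (p - 1)) (p - 1) ∧ ∀ x : ℕ, x ∣ (p ^ q - 1) / (p - 1) → x % q = 1) := by
  have hp2' : 2 ≤ p := hp.two_le
  have hq2' : 2 ≤ q := hq.two_le
  have hN : (p ^ q - 1) / (p - 1) = ∑ i ∈ Finset.range q, p ^ i := (Nat.geomSum_eq hp2' q).symm
  rw [hN]
  set N := ∑ i ∈ Finset.range q, p ^ i with hNdef
  have hpodd : p % 2 = 1 := by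
    rcases hp.eq_two_or_odd with h | h
    · exact absurd h hp2
    · exact h
  have hqodd : q % 2 = 1 := by
    rcases hq.eq_two_or_odd with h | h
    · exact absurd h hq2
    · exact h
  have hNodd : Odd N := by
    rw [Nat.odd_iff]
    have h1 : p ≡ 1 [MOD 2] := hpodd
    have h2 := geo_modEq p 2 h1 q
    rw [Nat.ModEq] at h2
    rw [h2, hqodd]
  have hNmul : N * (p - 1) = p ^ q - 1 := by
    rw [← hN]
    apply Nat.div_mul_cancel
    exact Nat.sub_one_dvd_pow_sub_one p q
  refine ⟨hNodd, ?_, ?_⟩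
  · intro hpq
    have h1 : p ≡ 1 [MOD q] := by
      rw [Nat.ModEq, hpq, Nat.mod_eq_of_lt hq.one_lt]
    have h2 := geo_modEq p q h1 q
    exact (Nat.modEq_zero_iff_dvd).mp (h2.trans (by simp [Nat.ModEq]))
  · intro hpq
    have hcop : Nat.Coprime N (p - 1) := by
      apply Nat.coprime_of_dvd
      intro r hr hrN hrp
      have h1 : p ≡ 1 [MOD r] := by
        have : 1 ≡ p [MOD r] := (Nat.modEq_iff_dvd' hp.one_lt.le).mpr hrp
        exact this.symm
      have h2 := geo_modEq p r h1 q
      have h3 : r ∣ q := by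
        have : q ≡ 0 [MOD r] := h2.symm.trans ((Nat.modEq_zero_iff_dvd).mpr hrN)
        exact (Nat.modEq_zero_iff_dvd).mp this
      have h4 : r = q := (Nat.prime_dvd_prime_iff_eq hr hq).mp h3
      subst h4
      apply hpq
      have : p % r = 1 % r := h1
      rw [this, Nat.mod_eq_of_lt hq.one_lt]
    refine ⟨hcop, ?_⟩
    -- prime divisors
    have hprime : ∀ r : ℕ, r.Prime → r ∣ N → r % q = 1 := by
      intro r hr hrN
      have : Fact r.Prime := ⟨hr⟩
      have hrpq : r ∣ p ^ q - 1 := hrN.trans (Dvd.intro _ hNmul)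
      have hpq1 : ((p : ZMod r)) ^ q = 1 := by
        have h1 : ((p ^ q - 1 : ℕ) : ZMod r) = 0 := (ZMod.natCast_eq_zero_iff _ _).mpr hrpq
        have h2 : 1 ≤ p ^ q := Nat.one_le_pow _ _ hp.pos
        rw [Nat.cast_sub h2, Nat.cast_pow, Nat.cast_one, sub_eq_zero] at h1
        exact h1
      have hp0 : (p : ZMod r) ≠ 0 := by
        intro h0
        rw [h0, zero_pow hq.ne_zero] at hpq1
        exact zero_ne_one hpq1
      have hp1 : (p : ZMod r) ≠ 1 := by
        intro h1
        have h2 : ((p - 1 : ℕ) : ZMod r) = 0 := by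
          rw [Nat.cast_sub hp.one_lt.le, h1]; simp
        have h3 : r ∣ p - 1 := (ZMod.natCast_eq_zero_iff _ _).mp h2
        have h4 : r ∣ Nat.gcd N (p - 1) := Nat.dvd_gcd hrN h3
        rw [hcop] at h4
        exact hr.one_lt.ne' (Nat.dvd_one.mp h4)
      have hord : orderOf (p : ZMod r) = q := by
        have h1 : orderOf (p : ZMod r) ∣ q := orderOf_dvd_of_pow_eq_one hpq1
        rcases (Nat.dvd_prime hq).mp h1 with h | h
        · exact absurd (orderOf_eq_one_iff.mp h) hp1
        · exact h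
      have hfer : (p : ZMod r) ^ (r - 1) = 1 := ZMod.pow_card_sub_one_eq_one hp0
      have hdvd : q ∣ r - 1 := by
        rw [← hord]; exact orderOf_dvd_of_pow_eq_one hfer
      obtain ⟨t, ht⟩ := hdvd
      have hr1 : r = q * t + 1 := by
        have := hr.one_lt
        omega
      rw [hr1, Nat.add_mod, Nat.mul_mod_right, zero_add, Nat.mod_mod, Nat.mod_eq_of_lt hq.one_lt]
    have hN0 : N ≠ 0 := by
      intro h0
      rw [h0] at hNodd
      exact absurd hNodd (by decide)
    intro x
    induction x using Nat.strong_induction_on with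
    | _ x ih =>
      intro hx
      by_cases hx1 : x = 1
      · rw [hx1, Nat.mod_eq_of_lt hq.one_lt]
      · have hx0 : x ≠ 0 := by
          rintro rfl
          exact hN0 (zero_dvd_iff.mp hx)
        obtain ⟨r, hr, hrx⟩ := Nat.exists_prime_and_dvd hx1
        obtain ⟨y, hy⟩ := hrx
        have hy0 : y ≠ 0 := by
          rintro rfl
          simp at hy
          exact hx0 hy
        have hylt : y < x := by
          rw [hy]
          have := hr.one_lt
          nlinarith [Nat.pos_of_ne_zero hy0]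
        have hyN : y ∣ N := (Dvd.intro_left r hy.symm).trans hx
        have hrN : r ∣ N := (Dvd.intro y hy.symm).trans hx
        have h1 := ih y hylt hyN
        have h2 := hprime r hr hrN
        rw [hy, Nat.mul_mod, h1, h2, one_mul, Nat.mod_eq_of_lt hq.one_lt]

end Cfsg.Agent.S1546
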