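import Mathlib
import Cfsg.Statements.S1554
import Cfsg.Agent.Lib.Helper12.OctadSplit

set_option autoImplicit false
open scoped Pointwise
open Cfsg

namespace Cfsg.Agent.S1554

open Cfsg.Agent.Lib.Helper12 Cfsg.Agent.Lib.Helper4 Cfsg.Agent.Lib.Helper4.Golay

/-- An octad stabiliser is a split extension: the joint stabiliser of the octad and a point outside it is a complement to the pointwise stabiliser of the octad, and is isomorphic to the alternating group of degree 8. -/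
theorem result (o : Finset Cfsg.GolayPt) (ho : o ∈ Cfsg.octads) (p : Cfsg.GolayPt) (hp : p ∉ o) : (Cfsg.M24 ⊓ fixingSubgroup (Equiv.Perm Cfsg.GolayPt) (o : Set Cfsg.GolayPt)) ⊓ (Cfsg.M24 ⊓ MulAction.stabilizer (Equiv.Perm Cfsg.GolayPt) o ⊓ MulAction.stabilizer (Equiv.Perm Cfsg.GolayPt) p) = ⊥ ∧ (Cfsg.M24 ⊓ fixingSubgroup (Equiv.Perm Cfsg.GolayPt) (o : Set Cfsg.GolayPt)) ⊔ (Cfsg.M24 ⊓ MulAction.stabilizer (Equiv.Perm Cfsg.GolayPt) o ⊓ MulAction.stabilizer (Equiv.Perm Cfsg.GolayPt) p) = (Cfsg.M24 ⊓ MulAction.stabilizer (Equiv.Perm Cfsg.GolayPt) o) ∧ Nonempty (↥(Cfsg.M24 ⊓ MulAction.stabilizer (Equiv.Perm Cfsg.GolayPt) o ⊓ MulAction.stabilizer (Equiv.Perm Cfsg.GolayPt) p) ≃* alternatingGroup (Fin 8)) := by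
  have h1 : (Cfsg.M24 ⊓ fixingSubgroup (Equiv.Perm Cfsg.GolayPt) (o : Set Cfsg.GolayPt)) ⊓ (Cfsg.M24 ⊓ MulAction.stabilizer (Equiv.Perm Cfsg.GolayPt) o ⊓ MulAction.stabilizer (Equiv.Perm Cfsg.GolayPt) p) = ⊥ := by
    rw [eq_bot_iff]
    intro g hg
    rw [Subgroup.mem_inf] at hg
    have hgp : g p = p := MulAction.mem_stabilizer_iff.1 (Subgroup.mem_inf.1 hg.2).2
    rw [Subgroup.mem_bot]
    exact fix_free ho hg.1 hp hgp
  have h2 : (Cfsg.M24 ⊓ fixingSubgroup (Equiv.Perm Cfsg.GolayPt) (o : Set Cfsg.GolayPt)) ⊔ (Cfsg.M24 ⊓ MulAction.stabilizer (Equiv.Perm Cfsg.GolayPt) o ⊓ MulAction.stabilizer (Equiv.Perm Cfsg.GolayPt) p) = (Cfsg.M24 ⊓ MulAction.stabilizer (Equiv.Perm Cfsg.GolayPt) o) := by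
    apply le_antisymm
    · apply sup_le
      · exact inf_le_inf_left _ (fix_le_stab o)
      · exact inf_le_left
    · intro s hs
      rw [Subgroup.mem_inf] at hs
      obtain ⟨k, hk, hl⟩ := stab_factor ho hp hs.1 (MulAction.mem_stabilizer_iff.1 hs.2)
      have hsk : s = k * (k⁻¹ * s) := by group
      rw [hsk]
      exact Subgroup.mul_mem_sup hk hl
  refine ⟨h1, h2, ?_⟩
  have hL : ∀ g : ↥(Cfsg.M24 ⊓ MulAction.stabilizer (Equiv.Perm Cfsg.GolayPt) o ⊓ MulAction.stabilizer (Equiv.Perm Cfsg.GolayPt) p), (g : Equiv.Perm GolayPt) • o = o := fun g =>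
    MulAction.mem_stabilizer_iff.1 (Subgroup.mem_inf.1 (Subgroup.mem_inf.1 g.2).1).2
  let φ : ↥(Cfsg.M24 ⊓ MulAction.stabilizer (Equiv.Perm Cfsg.GolayPt) o ⊓ MulAction.stabilizer (Equiv.Perm Cfsg.GolayPt) p) →* Equiv.Perm ↥o :=
    MonoidHom.mk' (fun g => (g : Equiv.Perm GolayPt).subtypePerm (mem_iff_of_smul (hL g)))
      (fun a b => by apply Equiv.ext; intro x; rfl)
  have hinj : Function.Injective φ := by
    rw [injective_iff_map_eq_one]
    intro g hg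
    have hfix : (g : Equiv.Perm GolayPt) ∈ fixingSubgroup (Equiv.Perm Cfsg.GolayPt) (o : Set Cfsg.GolayPt) := by
      rw [mem_fixingSubgroup_iff]
      intro y hy
      have h3 := congrArg (fun e : Equiv.Perm ↥o => (e ⟨y, Finset.mem_coe.1 hy⟩ : GolayPt)) hg
      exact h3
    have h4 : (g : Equiv.Perm GolayPt) ∈ (Cfsg.M24 ⊓ fixingSubgroup (Equiv.Perm Cfsg.GolayPt) (o : Set Cfsg.GolayPt)) ⊓ (Cfsg.M24 ⊓ MulAction.stabilizer (Equiv.Perm Cfsg.GolayPt) o ⊓ MulAction.stabilizer (Equiv.Perm Cfsg.GolayPt) p) :=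
      Subgroup.mem_inf.2 ⟨Subgroup.mem_inf.2 ⟨(Subgroup.mem_inf.1 (Subgroup.mem_inf.1 g.2).1).1, hfix⟩, g.2⟩
    rw [h1, Subgroup.mem_bot] at h4
    exact Subtype.ext h4
  have hrange : φ.range = alternatingGroup ↥o := by
    rw [← range_resHom ho]
    ext e
    constructor
    · rintro ⟨g, rfl⟩
      exact ⟨⟨⟨g.1, (Subgroup.mem_inf.1 (Subgroup.mem_inf.1 g.2).1).1⟩, hL g⟩, rfl⟩
    · rintro ⟨s, rfl⟩
      obtain ⟨k, hk, hl⟩ := stab_factor ho hp s.1.2 s.2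
      refine ⟨⟨k⁻¹ * s.1.1, hl⟩, ?_⟩
      apply Equiv.ext
      rintro ⟨x, hx⟩
      apply Subtype.ext
      show k⁻¹ (s.1.1 x) = s.1.1 x
      have hsx : s.1.1 x ∈ o := (mem_iff_of_smul s.2 x).2 hx
      have hk2 := (Subgroup.mem_inf.1 hk).2
      rw [mem_fixingSubgroup_iff] at hk2
      have h5 : k (s.1.1 x) = s.1.1 x := hk2 _ (Finset.mem_coe.2 hsx)
      rw [Equiv.Perm.inv_eq_iff_eq]
      exact h5.symm
  have e1 := MonoidHom.ofInjective hinj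
  have e2 : ↥φ.range ≃* alternatingGroup ↥o := MulEquiv.subgroupCongr hrange
  have e3 : ↥o ≃ Fin 8 := Fintype.equivFinOfCardEq (by rw [Fintype.card_coe]; exact ho.2)
  exact ⟨(e1.trans e2).trans (Equiv.altCongrHom e3)⟩

end Cfsg.Agent.S1554
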