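import Mathlib
import Cfsg.Statements.S1555
import Cfsg.Agent.Lib.Helper4.Steiner
import Cfsg.Agent.Lib.Helper4.Golay2
import Cfsg.Agent.S0352
import Cfsg.Agent.S0363

set_option autoImplicit false
open Cfsg

namespace Cfsg.Agent.S1555

open Cfsg.Agent.Lib.Helper4

/-- Bottom row of the Leech triangle: an octad is met in a prescribed pair of its points by exactly 16 octads and in a prescribed 4-subset by exactly 4 octads. -/
theorem result (o : Finset Cfsg.GolayPt) (ho : o ∈ Cfsg.octads) (s : Finset Cfsg.GolayPt) (hs : s ⊆ o) : (s.card = 2 → {o' : Finset Cfsg.GolayPt | o' ∈ Cfsg.octads ∧ o ∩ o' = s}.ncard = 16) ∧ (s.card = 4 → {o' : Finset Cfsg.GolayPt | o' ∈ Cfsg.octads ∧ o ∩ o' = s}.ncard = 4) := by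
  classical
  have hB := Cfsg.Agent.S0363.result
  have hα := Cfsg.Agent.Lib.Helper4.Golay.card_pts
  have hoc : o.card = 8 := ho.2
  have hdeg := fun T => Steiner.s5824_deg hα hB T
  have hdisj : Disjoint s (o \ s) := Finset.disjoint_sdiff
  have hXcard : (o \ s).card = 8 - s.card := by
    rw [Finset.card_sdiff_of_subset hs, hoc]
  -- the set in the statement as a count
  have hset : {o' : Finset Cfsg.GolayPt | o' ∈ Cfsg.octads ∧ o ∩ o' = s}.ncard
      = Steiner.cnt Cfsg.octads s (o \ s) 0 := by
    rw [Steiner.ncard_setOf, Steiner.cnt]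
    congr 1
    ext o'
    simp only [Finset.mem_filter, Finset.card_eq_zero]
    constructor
    · rintro ⟨h1, h2⟩
      refine ⟨h1, ?_, ?_⟩
      · rw [← h2]; exact Finset.inter_subset_right
      · ext p
        simp only [Finset.mem_inter, Finset.mem_sdiff, Finset.notMem_empty, iff_false]
        rintro ⟨hp1, hp2, hp3⟩
        apply hp3
        rw [← h2]
        exact Finset.mem_inter.mpr ⟨hp2, hp1⟩
    · rintro ⟨h1, h2, h3⟩
      refine ⟨h1, ?_⟩
      ext p
      simp only [Finset.mem_inter]
      constructor
      · rintro ⟨hp1, hp2⟩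
        by_contra hps
        have : p ∈ o' ∩ (o \ s) := Finset.mem_inter.mpr ⟨hp2, Finset.mem_sdiff.mpr ⟨hp1, hps⟩⟩
        rw [h3] at this
        exact absurd this (Finset.notMem_empty _)
      · intro hp
        exact ⟨hs hp, h2 hp⟩
  rw [hset]
  -- size of the intersection with o of a block containing s
  have hinter : ∀ d ∈ Cfsg.octads, s ⊆ d → (d ∩ o).card = s.card + (d ∩ (o \ s)).card := by
    intro d _ hsd
    have e : d ∩ o = s ∪ (d ∩ (o \ s)) := by
      ext p
      simp only [Finset.mem_inter, Finset.mem_union, Finset.mem_sdiff]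
      constructor
      · rintro ⟨h1, h2⟩
        by_cases hp : p ∈ s
        · exact Or.inl hp
        · exact Or.inr ⟨h1, h2, hp⟩
      · rintro (h | ⟨h1, h2, _⟩)
        · exact ⟨hsd h, hs h⟩
        · exact ⟨h1, h2⟩
    rw [e, Finset.card_union_of_disjoint]
    exact Finset.disjoint_of_subset_right Finset.inter_subset_right hdisj
  have hvals : ∀ d ∈ Cfsg.octads, d ≠ o → (d ∩ o).card = 0 ∨ (d ∩ o).card = 2 ∨ (d ∩ o).card = 4 :=
    fun d hd hne => Cfsg.Agent.S0352.result hα hB hd ho hne
  -- the block o itself is the only one meeting o \ s fully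
  have hfull : Steiner.cnt Cfsg.octads s (o \ s) (8 - s.card) = 1 := by
    rw [Steiner.cnt, Finset.card_eq_one]
    refine ⟨o, ?_⟩
    ext d
    simp only [Finset.mem_filter, Steiner.mem_blocks, Finset.mem_singleton]
    constructor
    · rintro ⟨hd, hsd, hj⟩
      by_contra hne
      have h1 := hinter d hd hsd
      have h2 := hvals d hd hne
      have h3 : s.card ≤ 8 := by rw [← hoc]; exact Finset.card_le_card hs
      omega
    · rintro rfl
      refine ⟨ho, hs, ?_⟩
      rw [Finset.inter_eq_right.mpr Finset.sdiff_subset, hXcard]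
  constructor
  · intro hs2
    rw [hs2] at hXcard hfull
    have z : ∀ j, j ≠ 0 → j ≠ 2 → j ≠ 6 → Steiner.cnt Cfsg.octads s (o \ s) j = 0 := by
      intro j h0 h2 h6
      apply Steiner.cnt_eq_zero
      intro d hd hsd hj
      have h1 := hinter d hd hsd
      by_cases hne : d = o
      · subst hne
        rw [Finset.inter_self, hoc, hs2] at h1
        omega
      · have := hvals d hd hne
        omega
    have e0 := Steiner.sum_choose_cnt Cfsg.octads s (o \ s) hdisj 0 77 7
      (fun T hT => (hdeg T).2.2.1 (by rw [hT, hs2])) (by omega)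
    have e1 := Steiner.sum_choose_cnt Cfsg.octads s (o \ s) hdisj 1 21 7
      (fun T hT => (hdeg T).2.2.2.1 (by rw [hT, hs2])) (by omega)
    have z1 := z 1 (by norm_num) (by norm_num) (by norm_num)
    have z3 := z 3 (by norm_num) (by norm_num) (by norm_num)
    have z4 := z 4 (by norm_num) (by norm_num) (by norm_num)
    have z5 := z 5 (by norm_num) (by norm_num) (by norm_num)
    have hfull' : Steiner.cnt Cfsg.octads s (o \ s) 6 = 1 := hfull
    simp only [Finset.sum_range_succ, Finset.sum_range_zero, hXcard, z1, z3, z4, z5, hfull']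
      at e0 e1
    norm_num [Nat.choose] at e0 e1
    omega
  · intro hs4
    rw [hs4] at hXcard hfull
    have z : ∀ j, j ≠ 0 → j ≠ 4 → Steiner.cnt Cfsg.octads s (o \ s) j = 0 := by
      intro j h0 h4
      apply Steiner.cnt_eq_zero
      intro d hd hsd hj
      have h1 := hinter d hd hsd
      by_cases hne : d = o
      · subst hne
        rw [Finset.inter_self, hoc, hs4] at h1
        omega
      · have := hvals d hd hne
        omega
    have e0 := Steiner.sum_choose_cnt Cfsg.octads s (o \ s) hdisj 0 5 5
      (fun T hT => (hdeg T).2.2.2.2.1 (by rw [hT, hs4])) (by omega)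
    have z1 := z 1 (by norm_num) (by norm_num)
    have z2 := z 2 (by norm_num) (by norm_num)
    have z3 := z 3 (by norm_num) (by norm_num)
    have hfull' : Steiner.cnt Cfsg.octads s (o \ s) 4 = 1 := hfull
    simp only [Finset.sum_range_succ, Finset.sum_range_zero, hXcard, z1, z2, z3, hfull'] at e0
    norm_num [Nat.choose] at e0
    omega

end Cfsg.Agent.S1555
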