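-- Statement S1558: structure of a trio stabiliser.
import Cfsg.Statements.S1558
import Cfsg.Agent.Lib.Helper20.TrioData
import Cfsg.Agent.Lib.Helper20.Simple168
import Cfsg.Agent.Lib.Helper4.GolayDod2
import Cfsg.Agent.S1554
import Cfsg.Agent.S0495

set_option autoImplicit false
open scoped Pointwise
open Cfsg

namespace Cfsg.Agent.S1558

open Cfsg.Agent.Lib.Helper4 Cfsg.Agent.Lib.Helper4.Golay Cfsg.Agent.Lib.Helper4.Sx
  Cfsg.Agent.Lib.Helper28 Cfsg.Agent.Lib.Helper20.TrioData Cfsg.Agent.Lib.Helper20.Simple168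

theorem mkPerm_mul_apply (l1 l1' l2 l2' : List ℕ) (h1 : chk l1 l1' = true)
    (h2 : chk l2 l2' = true) (p : GolayPt) :
    (mkPerm l1 l1' h1 * mkPerm l2 l2' h2) p = pt (nth (compL l1 l2) (code p)) := by
  rw [Equiv.Perm.mul_apply, mkPerm_apply, mkPerm_apply, nth_compL _ _ _ (code_lt p),
    code_pt _ ((chk_spec h2).2 _ (code_lt p)).1]

/-- Conjugate points have isomorphic stabilisers. -/
theorem conj_stab1 {G : Type*} [Group G] {α : Type*} [MulAction G α] (k : G) (a : α) :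
    Nonempty (↥(MulAction.stabilizer G a) ≃* ↥(MulAction.stabilizer G (k • a))) := by
  rw [MulAction.stabilizer_smul_eq_stabilizer_map_conj k a]
  exact ⟨(MulAut.conj k).subgroupMap _⟩

/-! ### The standard trio and its seven refining sextets -/

/-- The standard trio. -/
def T0 : Finset (Finset GolayPt) := trioDec c0

theorem T0_trio : T0 ∈ trios := trioDec_mem c0_ok

theorem mem_T0 {o : Finset GolayPt} : o ∈ T0 ↔ ∃ a ∈ [o1, o2, o3], support₂ (word a) = o := by
  show o ∈ ({support₂ (word o1), support₂ (word o2), support₂ (word o3)} :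
    Finset (Finset GolayPt)) ↔ _
  simp only [Finset.mem_insert, Finset.mem_singleton, List.mem_cons, List.not_mem_nil, or_false]
  constructor
  · rintro (rfl | rfl | rfl)
    · exact ⟨o1, Or.inl rfl, rfl⟩
    · exact ⟨o2, Or.inr (Or.inl rfl), rfl⟩
    · exact ⟨o3, Or.inr (Or.inr rfl), rfl⟩
  · rintro ⟨a, rfl | rfl | rfl, rfl⟩
    · exact Or.inl rfl
    · exact Or.inr (Or.inl rfl)
    · exact Or.inr (Or.inr rfl)

theorem d12 : Disjoint (support₂ (word o1)) (support₂ (word o2)) :=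
  (trioChk_spec c0_ok).2.2.2.1

theorem d13 : Disjoint (support₂ (word o1)) (support₂ (word o3)) :=
  (trioChk_spec c0_ok).2.2.2.2.1

theorem d23 : Disjoint (support₂ (word o2)) (support₂ (word o3)) :=
  (trioChk_spec c0_ok).2.2.2.2.2.1

theorem oct1 : support₂ (word o1) ∈ octads := (trioChk_spec c0_ok).1.1

theorem oct2 : support₂ (word o2) ∈ octads := (trioChk_spec c0_ok).2.1.1

/-- The sextets refining a set of octads. -/
def Rset (T : Finset (Finset GolayPt)) : Set (Finset (Finset GolayPt)) :=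
  {X | X ∈ sextets ∧ ∀ o ∈ T, ∃ t ∈ X, ∃ u ∈ X, t ∪ u = o}

theorem Rset_smul {g : Equiv.Perm GolayPt} (hg : g ∈ M24) {T : Finset (Finset GolayPt)}
    (hT : g • T = T) {X : Finset (Finset GolayPt)} (hX : X ∈ Rset T) : g • X ∈ Rset T := by
  refine ⟨Sx.smul_sextet hg hX.1, ?_⟩
  intro o ho
  have ho' : g⁻¹ • o ∈ T := by
    have ho2 : o ∈ g • T := by rw [hT]; exact ho
    obtain ⟨o', ho', rfl⟩ := Finset.mem_smul_finset.1 ho2
    rw [inv_smul_smul]
    exact ho'
  obtain ⟨t, ht, u, hu, e⟩ := hX.2 _ ho'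
  refine ⟨g • t, Finset.smul_mem_smul_finset ht, g • u, Finset.smul_mem_smul_finset hu, ?_⟩
  rw [← Finset.smul_finset_union, e, smul_inv_smul]

/-- The seven sextets refining the standard trio. -/
def R0 : Finset (Finset (Finset GolayPt)) := (r7.map mkSys).toFinset

theorem mem_R0 {X : Finset (Finset GolayPt)} : X ∈ R0 ↔ ∃ L ∈ r7, mkSys L = X := by
  rw [R0, List.mem_toFinset, List.mem_map]

theorem r7_spec {L : List ℕ} (hL : L ∈ r7) :
    sextChk L = true ∧ refB L = true ∧ nth L 0 ∈ L := by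
  have h := r7_ok
  rw [List.all_eq_true] at h
  have h1 := h L hL
  simp only [Bool.and_eq_true, List.any_eq_true, Nat.beq_eq] at h1
  obtain ⟨⟨h2, h3⟩, b, hb, e⟩ := h1
  exact ⟨h2, h3, by rw [← e]; exact hb⟩

theorem sext_lt {L : List ℕ} (h : sextChk L = true) {a : ℕ} (ha : a ∈ L) : a < 16777216 := by
  simp only [sextChk, Bool.and_eq_true, Nat.beq_eq, decide_eq_true_eq, List.all_eq_true,
    Nat.blt_eq, Bool.or_eq_true] at h
  exact (h.1.2 a ha).1

theorem R0_sub {X : Finset (Finset GolayPt)} (hX : X ∈ R0) : X ∈ Rset T0 := by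
  obtain ⟨L, hL, rfl⟩ := mem_R0.1 hX
  obtain ⟨h1, h2, -⟩ := r7_spec hL
  refine ⟨mkSys_sextet h1, ?_⟩
  intro o ho
  obtain ⟨a, ha, rfl⟩ := mem_T0.1 ho
  simp only [refB, List.all_eq_true, List.any_eq_true, Nat.beq_eq] at h2
  obtain ⟨x, hx, y, hy, e⟩ := h2 a ha
  refine ⟨_, mem_mkSys.2 ⟨x, hx, rfl⟩, _, mem_mkSys.2 ⟨y, hy, rfl⟩, ?_⟩
  rw [← support_or, e]

theorem pt0_o1 : pt 0 ∈ support₂ (word o1) := by
  rw [mem_support_word, code_pt 0 (by norm_num)]
  decide

theorem Rset_sub {X : Finset (Finset GolayPt)} (hX : X ∈ Rset T0) : X ∈ R0 := by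
  obtain ⟨hS, href⟩ := hX
  obtain ⟨t1, ht1, u1, hu1, e1⟩ := href _ (mem_T0.2 ⟨o1, by simp, rfl⟩)
  obtain ⟨t2, ht2, u2, hu2, e2⟩ := href _ (mem_T0.2 ⟨o2, by simp, rfl⟩)
  have hsub2 : t2 ⊆ support₂ (word o2) := by rw [← e2]; exact Finset.subset_union_left
  have key : ∀ t ∈ X, t ⊆ support₂ (word o1) → pt 0 ∈ t → X ∈ R0 := by
    intro t ht hsub hpt
    have hne : t ≠ t2 := by
      intro e
      rw [e] at hpt
      exact Finset.disjoint_left.1 d12 pt0_o1 (hsub2 hpt)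
    obtain ⟨⟨v, hv, hvs⟩, h8⟩ := hS.2.2 t ht t2 ht2 hne
    obtain ⟨a, ha, rfl⟩ := exists_word hv clsChk cls_ok
    have f1 : Nat.beq (pc a) 8 = true := by
      rw [Nat.beq_eq, ← supp_card, hvs]
      exact h8
    have f2 : Nat.beq (pc (a &&& o3)) 0 = true := by
      rw [Nat.beq_eq, ← inter_card', hvs, Finset.union_inter_distrib_right,
        Finset.disjoint_iff_inter_eq_empty.1 (d13.mono_left hsub),
        Finset.disjoint_iff_inter_eq_empty.1 (d23.mono_left hsub2), Finset.union_empty,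
        Finset.card_empty]
    have f3 : a.testBit 0 = true := by
      have h1 : pt 0 ∈ support₂ (word a) := by
        rw [hvs]
        exact Finset.mem_union_left _ hpt
      rwa [mem_support_word, code_pt 0 (by norm_num)] at h1
    have hint : support₂ (word (a &&& o1)) = t := by
      rw [supp_land', hvs, Finset.union_inter_distrib_right, Finset.inter_eq_left.2 hsub,
        Finset.disjoint_iff_inter_eq_empty.1 (d12.symm.mono_left hsub2), Finset.union_empty]
    have f4 : Nat.beq (pc (a &&& o1)) 4 = true := by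
      rw [Nat.beq_eq, ← supp_card, hint]
      exact hS.2.1 t ht
    have hcl : clsChk a = true := ha
    unfold clsChk at hcl
    rw [f1, f2, f3, f4] at hcl
    simp only [Bool.and_self, Bool.not_true, Bool.false_or, List.any_eq_true,
      Nat.beq_eq] at hcl
    obtain ⟨L, hL, eL⟩ := hcl
    obtain ⟨h1, -, h3⟩ := r7_spec hL
    have hmem : t ∈ mkSys L := mem_mkSys.2 ⟨nth L 0, h3, by rw [eL, hint]⟩
    exact mem_R0.2 ⟨L, hL, (sextet_unique hS (mkSys_sextet h1) ht hmem).symm⟩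
  have h0 : pt 0 ∈ t1 ∪ u1 := by rw [e1]; exact pt0_o1
  rcases Finset.mem_union.1 h0 with h | h
  · exact key t1 ht1 (by rw [← e1]; exact Finset.subset_union_left) h
  · exact key u1 hu1 (by rw [← e1]; exact Finset.subset_union_right) h

theorem mkSys_inj {L L' : List ℕ} (hL : L ∈ r7) (hL' : L' ∈ r7) (h : mkSys L = mkSys L') :
    L = L' := by
  have hd := r7_dist
  rw [List.all_eq_true] at hd
  have h1 := hd L hL
  rw [List.all_eq_true] at h1
  have h2 := h1 L' hL'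
  rw [Bool.or_eq_true] at h2
  rcases h2 with h2 | h2
  · exact listBeq_eq _ _ h2
  · exfalso
    obtain ⟨s1, -, m1⟩ := r7_spec hL
    obtain ⟨s2, -, -⟩ := r7_spec hL'
    have hm : support₂ (word (nth L 0)) ∈ mkSys L' := by
      rw [← h]
      exact mem_mkSys.2 ⟨_, m1, rfl⟩
    obtain ⟨b, hb, e⟩ := mem_mkSys.1 hm
    have e' := word_inj (sext_lt s2 hb) (sext_lt s1 m1) e
    have h3 : L'.any (fun b => Nat.beq b (nth L 0)) = true := by
      rw [List.any_eq_true]
      exact ⟨b, hb, by rw [e']; exact Nat.beq_refl _⟩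
    rw [h3] at h2
    exact absurd h2 (by decide)

theorem card_R0 : R0.card = 7 := by
  rw [R0, List.toFinset_card_of_nodup, List.length_map, r7_length]
  exact List.Nodup.map_on (fun L hL L' hL' h => mkSys_inj hL hL' h) r7_nodup

/-! ### The actions of the stabiliser -/

theorem M_smul (g : ↥(MulAction.stabilizer ↥M24 T0)) :
    ((g : ↥M24) : Equiv.Perm GolayPt) • T0 = T0 := g.2

/-- The action of a subgroup on an invariant finite set. -/
@[reducible] def invAction {β : Type*} [MulAction (Equiv.Perm GolayPt) β] (K : Subgroup ↥M24)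
    (A : Finset β) (hA : ∀ g : ↥K, ∀ x ∈ A, ((g : ↥M24) : Equiv.Perm GolayPt) • x ∈ A) :
    MulAction ↥K ↥A where
  smul g x := ⟨((g : ↥M24) : Equiv.Perm GolayPt) • (x : β), hA g x.1 x.2⟩
  one_smul _ := Subtype.ext (one_smul _ _)
  mul_smul _ _ _ := Subtype.ext (mul_smul _ _ _)

/-- The permutation representation of a subgroup on an invariant finite set. -/
def invHom {β : Type*} [MulAction (Equiv.Perm GolayPt) β] (K : Subgroup ↥M24)
    (A : Finset β) (hA : ∀ g : ↥K, ∀ x ∈ A, ((g : ↥M24) : Equiv.Perm GolayPt) • x ∈ A) :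
    ↥K →* Equiv.Perm ↥A :=
  @MulAction.toPermHom _ _ _ (invAction K A hA)

theorem invHom_apply {β : Type*} [MulAction (Equiv.Perm GolayPt) β] (K : Subgroup ↥M24)
    (A : Finset β) (hA : ∀ g : ↥K, ∀ x ∈ A, ((g : ↥M24) : Equiv.Perm GolayPt) • x ∈ A)
    (g : ↥K) (x : ↥A) :
    ((invHom K A hA g x : ↥A) : β) = ((g : ↥M24) : Equiv.Perm GolayPt) • (x : β) := rfl

theorem invHom_eq_one {β : Type*} [MulAction (Equiv.Perm GolayPt) β] (K : Subgroup ↥M24)
    (A : Finset β) (hA : ∀ g : ↥K, ∀ x ∈ A, ((g : ↥M24) : Equiv.Perm GolayPt) • x ∈ A)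
    (g : ↥K) :
    invHom K A hA g = 1 ↔ ∀ x ∈ A, ((g : ↥M24) : Equiv.Perm GolayPt) • x = x := by
  constructor
  · intro h x hx
    have h2 := congrArg (fun e : Equiv.Perm ↥A => ((e ⟨x, hx⟩ : ↥A) : β)) h
    exact h2
  · intro h
    apply Equiv.ext
    intro x
    apply Subtype.ext
    rw [invHom_apply]
    exact h x.1 x.2

theorem hT0 (g : ↥(MulAction.stabilizer ↥M24 T0)) (x : Finset GolayPt) (hx : x ∈ T0) :
    ((g : ↥M24) : Equiv.Perm GolayPt) • x ∈ T0 := by
  have h := Finset.smul_mem_smul_finset (a := ((g : ↥M24) : Equiv.Perm GolayPt)) hx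
  rwa [M_smul g] at h

theorem hR0 (g : ↥(MulAction.stabilizer ↥M24 T0)) (X : Finset (Finset GolayPt)) (hX : X ∈ R0) :
    ((g : ↥M24) : Equiv.Perm GolayPt) • X ∈ R0 :=
  Rset_sub (Rset_smul (g : ↥M24).2 (M_smul g) (R0_sub hX))

/-- The action on the three octads. -/
def phiT : ↥(MulAction.stabilizer ↥M24 T0) →* Equiv.Perm ↥T0 := invHom _ T0 hT0

/-- The action on the seven refining sextets. -/
def phiR : ↥(MulAction.stabilizer ↥M24 T0) →* Equiv.Perm ↥R0 := invHom _ R0 hR0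

/-- The product of the two actions. -/
def Phi : ↥(MulAction.stabilizer ↥M24 T0) →* Equiv.Perm ↥R0 × Equiv.Perm ↥T0 :=
  phiR.prod phiT

theorem mem_ker_Phi (g : ↥(MulAction.stabilizer ↥M24 T0)) : g ∈ Phi.ker ↔
    (∀ X ∈ R0, ((g : ↥M24) : Equiv.Perm GolayPt) • X = X) ∧
      ∀ o ∈ T0, ((g : ↥M24) : Equiv.Perm GolayPt) • o = o := by
  rw [MonoidHom.mem_ker, Phi, MonoidHom.prod_apply, Prod.mk_eq_one, phiR, phiT, invHom_eq_one,
    invHom_eq_one]

/-! ### Elements given by lists -/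

theorem smul_mkSys {l l' : List ℕ} (h : chk l l' = true) {L : List ℕ}
    (hL : ∀ x ∈ L, pmL l x ∈ L) : mkPerm l l' h • mkSys L = mkSys L := by
  symm
  apply Finset.eq_of_subset_of_card_le
  · intro t ht
    obtain ⟨a, ha, rfl⟩ := mem_mkSys.1 ht
    rw [← smul_support_word h (rfl : pmL l a = pmL l a)]
    exact Finset.smul_mem_smul_finset (mem_mkSys.2 ⟨_, hL a ha, rfl⟩)
  · rw [Finset.card_smul_finset]

theorem nchk (i : Fin 64) : chk (nE i).1 (nE i).2 = true ∧ memChk (nE i).1 = true ∧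
    (∀ b ∈ [o1, o2, o3], pmL (nE i).1 b = b) ∧ ∀ L ∈ r7, ∀ a ∈ L, pmL (nE i).1 a ∈ L := by
  have h := nTab_ok
  rw [List.all_eq_true] at h
  have h1 := h i.1 (List.mem_range.2 i.2)
  simp only [Bool.and_eq_true, List.all_eq_true, List.any_eq_true, Nat.beq_eq] at h1
  refine ⟨h1.1.1, h1.1.2, h1.2.1, ?_⟩
  intro L hL a ha
  obtain ⟨b, hb, e⟩ := h1.2.2 L hL a ha
  rw [e]
  exact hb

/-- The permutation of an entry of the table. -/
def nP (i : Fin 64) : Equiv.Perm GolayPt := mkPerm (nE i).1 (nE i).2 (nchk i).1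

theorem nP_mem (i : Fin 64) : nP i ∈ M24 := mkPerm_mem _ _ _ (nchk i).2.1

theorem nP_fixT (i : Fin 64) {o : Finset GolayPt} (ho : o ∈ T0) : nP i • o = o := by
  obtain ⟨b, hb, rfl⟩ := mem_T0.1 ho
  exact smul_support_word (nchk i).1 ((nchk i).2.2.1 b hb)

theorem nP_fixR (i : Fin 64) {X : Finset (Finset GolayPt)} (hX : X ∈ R0) : nP i • X = X := by
  obtain ⟨L, hL, rfl⟩ := mem_R0.1 hX
  exact smul_mkSys (nchk i).1 ((nchk i).2.2.2 L hL)

theorem nP_stab (i : Fin 64) : nP i • T0 = T0 := by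
  ext t
  constructor
  · intro h
    obtain ⟨v, hv, rfl⟩ := Finset.mem_smul_finset.1 h
    rw [nP_fixT i hv]
    exact hv
  · intro h
    exact Finset.mem_smul_finset.2 ⟨t, h, nP_fixT i h⟩

theorem nP_inj {i j : Fin 64} (h : nP i = nP j) : i = j := by
  by_contra hne
  have hd := nTab_diff
  rw [List.all_eq_true] at hd
  have h1 := hd i.1 (List.mem_range.2 i.2)
  rw [List.all_eq_true] at h1
  have h2 := h1 j.1 (List.mem_range.2 j.2)
  rw [Bool.or_eq_true] at h2
  rcases h2 with h2 | h2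
  · exact hne (Fin.ext (Nat.eq_of_beq_eq_true h2))
  · rw [diffB, List.any_eq_true] at h2
    obtain ⟨x, hx, hx2⟩ := h2
    rw [List.mem_range] at hx
    have h3 : nP i (pt x) = nP j (pt x) := by rw [h]
    rw [nP, nP, mkPerm_pt _ _ _ x hx, mkPerm_pt _ _ _ x hx] at h3
    have h4 := pt_inj ((chk_spec (nchk i).1).2 x hx).1 ((chk_spec (nchk j).1).2 x hx).1 h3
    rw [h4, Nat.beq_refl] at hx2
    exact absurd hx2 (by decide)

theorem nP_sq (i : Fin 64) : nP i * nP i = 1 := by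
  have h := nTab_sq
  rw [List.all_eq_true] at h
  have h1 := h i.1 (List.mem_range.2 i.2)
  apply Equiv.ext
  intro p
  rw [nP, mkPerm_mul_apply, Equiv.Perm.one_apply, nth_compL _ _ _ (code_lt p)]
  rw [Cfsg.Agent.Lib.Helper20.TrioData.sqB, List.all_eq_true] at h1
  rw [Nat.eq_of_beq_eq_true (h1 (code p) (List.mem_range.2 (code_lt p))), pt_code]

/-- The table entries as elements of the kernel. -/
def nF (i : Fin 64) : ↥Phi.ker :=
  ⟨⟨⟨nP i, nP_mem i⟩, nP_stab i⟩,
    (mem_ker_Phi _).2 ⟨fun _ hX => nP_fixR i hX, fun _ ho => nP_fixT i ho⟩⟩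

theorem nF_val (i : Fin 64) :
    ((((nF i : ↥Phi.ker) : ↥(MulAction.stabilizer ↥M24 T0)) : ↥M24) : Equiv.Perm GolayPt)
      = nP i := rfl

theorem nF_inj : Function.Injective nF := by
  intro i j h
  apply nP_inj
  rw [← nF_val i, ← nF_val j, h]

/-! ### The kernel has at most 64 elements -/

theorem bits1 : ∀ c ∈ [1, 2, 3, 4, 7, 10, 12], (c < 24 ∧ pt c ≠ pt 0) ∧
    ∀ p : GolayPt, (1 + 2 ^ c).testBit (code p) = true → p = pt 0 ∨ p = pt c := by
  decide

theorem bits2 : ∀ c ∈ [1, 2, 3, 4, 7, 10, 12],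
    (1 + 2 ^ c).testBit 0 = true ∧ (1 + 2 ^ c).testBit c = true := by
  decide

theorem bits3 : ∀ p : GolayPt, o1.testBit (code p) = true →
    p = pt 0 ∨ ∃ c ∈ [1, 2, 3, 4, 7, 10, 12], p = pt c := by
  decide

theorem pt8_o1 : pt 8 ∉ support₂ (word o1) := by
  rw [mem_support_word, code_pt 8 (by norm_num)]
  decide

theorem pt8_o2 : pt 8 ∈ support₂ (word o2) := by
  rw [mem_support_word, code_pt 8 (by norm_num)]
  decide

theorem fix_tet {k : Equiv.Perm GolayPt} (hR : ∀ X ∈ R0, k • X = X) (h0 : k (pt 0) = pt 0)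
    {L : List ℕ} (hL : L ∈ r7) (hb : (nth L 0).testBit 0 = true) :
    k • support₂ (word (nth L 0)) = support₂ (word (nth L 0)) := by
  obtain ⟨h1, -, h3⟩ := r7_spec hL
  have hS := mkSys_sextet h1
  have ht : support₂ (word (nth L 0)) ∈ mkSys L := mem_mkSys.2 ⟨_, h3, rfl⟩
  have hkt : k • support₂ (word (nth L 0)) ∈ mkSys L := by
    have := Finset.smul_mem_smul_finset (a := k) ht
    rwa [hR _ (mem_R0.2 ⟨L, hL, rfl⟩)] at this
  have hp : pt 0 ∈ support₂ (word (nth L 0)) := by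
    rw [mem_support_word, code_pt 0 (by norm_num)]
    exact hb
  have hp' : pt 0 ∈ k • support₂ (word (nth L 0)) := by
    have := Finset.smul_mem_smul_finset (a := k) hp
    rwa [Equiv.Perm.smul_def, h0] at this
  by_contra hne
  exact Finset.disjoint_left.1 (tet_disjoint hS hkt ht hne) hp' hp

theorem ker_fix {k : Equiv.Perm GolayPt} (hk : k ∈ M24) (hR : ∀ X ∈ R0, k • X = X)
    (hT : ∀ o ∈ T0, k • o = o) (h0 : k (pt 0) = pt 0) (h8 : k (pt 8) = pt 8) : k = 1 := by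
  have hfix : ∀ c ∈ [1, 2, 3, 4, 7, 10, 12], k (pt c) = pt c := by
    intro c hc
    obtain ⟨L, hL, L', hL', e⟩ := pair_ok c hc
    obtain ⟨⟨hc24, hcne⟩, hb1⟩ := bits1 c hc
    obtain ⟨hb2, hb3⟩ := bits2 c hc
    rw [← e, Nat.testBit_land, Bool.and_eq_true] at hb2
    have e1 := fix_tet hR h0 hL hb2.1
    have e2 := fix_tet hR h0 hL' hb2.2
    have e3 : k • support₂ (word (1 + 2 ^ c)) = support₂ (word (1 + 2 ^ c)) := by
      rw [← e, supp_land', Finset.smul_finset_inter, e1, e2]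
    have hm : pt c ∈ support₂ (word (1 + 2 ^ c)) := by
      rw [mem_support_word, code_pt c hc24]
      exact hb3
    have hm' : k (pt c) ∈ support₂ (word (1 + 2 ^ c)) := by
      have := Finset.smul_mem_smul_finset (a := k) hm
      rwa [e3, Equiv.Perm.smul_def] at this
    rw [mem_support_word] at hm'
    rcases hb1 _ hm' with h | h
    · exfalso
      rw [← h0] at h
      exact hcne (k.injective h)
    · exact h
  have hall : ∀ p ∈ support₂ (word o1), k p = p := by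
    intro p hp
    rw [mem_support_word] at hp
    rcases bits3 p hp with rfl | ⟨c, hc, rfl⟩
    · exact h0
    · exact hfix c hc
  have hbot := (Cfsg.Agent.S1554.result (support₂ (word o1)) oct1 (pt 8) pt8_o1).1
  have hmem : k ∈ (M24 ⊓ fixingSubgroup (Equiv.Perm GolayPt)
      ((support₂ (word o1) : Finset GolayPt) : Set GolayPt)) ⊓
      (M24 ⊓ MulAction.stabilizer (Equiv.Perm GolayPt) (support₂ (word o1)) ⊓
        MulAction.stabilizer (Equiv.Perm GolayPt) (pt 8)) := by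
    refine Subgroup.mem_inf.2 ⟨Subgroup.mem_inf.2 ⟨hk, ?_⟩,
      Subgroup.mem_inf.2 ⟨Subgroup.mem_inf.2 ⟨hk, ?_⟩, ?_⟩⟩
    · rw [mem_fixingSubgroup_iff]
      intro y hy
      exact hall y (Finset.mem_coe.1 hy)
    · exact hT _ (mem_T0.2 ⟨o1, by simp, rfl⟩)
    · exact h8
  rw [hbot] at hmem
  exact Subgroup.mem_bot.1 hmem

theorem card_ker_le : Nat.card ↥Phi.ker ≤ 64 := by
  have hmem1 : ∀ g : ↥Phi.ker, (((g : ↥(MulAction.stabilizer ↥M24 T0)) : ↥M24) :
      Equiv.Perm GolayPt) (pt 0) ∈ support₂ (word o1) := by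
    intro g
    have h1 := ((mem_ker_Phi g.1).1 g.2).2 _ (mem_T0.2 ⟨o1, by simp, rfl⟩)
    have h2 := Finset.smul_mem_smul_finset (a := (((g : ↥(MulAction.stabilizer ↥M24 T0)) : ↥M24) :
      Equiv.Perm GolayPt)) pt0_o1
    rwa [h1] at h2
  have hmem2 : ∀ g : ↥Phi.ker, (((g : ↥(MulAction.stabilizer ↥M24 T0)) : ↥M24) :
      Equiv.Perm GolayPt) (pt 8) ∈ support₂ (word o2) := by
    intro g
    have h1 := ((mem_ker_Phi g.1).1 g.2).2 _ (mem_T0.2 ⟨o2, by simp, rfl⟩)
    have h2 := Finset.smul_mem_smul_finset (a := (((g : ↥(MulAction.stabilizer ↥M24 T0)) : ↥M24) :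
      Equiv.Perm GolayPt)) pt8_o2
    rwa [h1] at h2
  let ι : ↥Phi.ker → ↥(support₂ (word o1)) × ↥(support₂ (word o2)) :=
    fun g => (⟨_, hmem1 g⟩, ⟨_, hmem2 g⟩)
  have hι : Function.Injective ι := by
    intro g h e
    have e1 : (((g : ↥(MulAction.stabilizer ↥M24 T0)) : ↥M24) : Equiv.Perm GolayPt) (pt 0)
        = (((h : ↥(MulAction.stabilizer ↥M24 T0)) : ↥M24) : Equiv.Perm GolayPt) (pt 0) :=
      congrArg (fun z : ↥(support₂ (word o1)) × ↥(support₂ (word o2)) => (z.1 : GolayPt)) e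
    have e2 : (((g : ↥(MulAction.stabilizer ↥M24 T0)) : ↥M24) : Equiv.Perm GolayPt) (pt 8)
        = (((h : ↥(MulAction.stabilizer ↥M24 T0)) : ↥M24) : Equiv.Perm GolayPt) (pt 8) :=
      congrArg (fun z : ↥(support₂ (word o1)) × ↥(support₂ (word o2)) => (z.2 : GolayPt)) e
    have hk := (mem_ker_Phi (g⁻¹ * h : ↥Phi.ker).1).1 (g⁻¹ * h : ↥Phi.ker).2
    have h1 : ((((g⁻¹ * h : ↥Phi.ker) : ↥(MulAction.stabilizer ↥M24 T0)) : ↥M24) :
        Equiv.Perm GolayPt) = 1 := by
      apply ker_fix (((g⁻¹ * h : ↥Phi.ker) : ↥(MulAction.stabilizer ↥M24 T0)) : ↥M24).2 hk.1 hk.2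
      · show ((((g : ↥(MulAction.stabilizer ↥M24 T0)) : ↥M24) : Equiv.Perm GolayPt))⁻¹
          ((((h : ↥(MulAction.stabilizer ↥M24 T0)) : ↥M24) : Equiv.Perm GolayPt) (pt 0)) = pt 0
        rw [← e1]
        exact Equiv.symm_apply_apply _ _
      · show ((((g : ↥(MulAction.stabilizer ↥M24 T0)) : ↥M24) : Equiv.Perm GolayPt))⁻¹
          ((((h : ↥(MulAction.stabilizer ↥M24 T0)) : ↥M24) : Equiv.Perm GolayPt) (pt 8)) = pt 8
        rw [← e2]
        exact Equiv.symm_apply_apply _ _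
    have h2 : g⁻¹ * h = 1 := by
      apply Subtype.ext
      apply Subtype.ext
      apply Subtype.ext
      exact h1
    exact (inv_mul_eq_one.1 h2)
  have h3 := Nat.card_le_card_of_injective ι hι
  rw [Nat.card_prod, Nat.card_eq_fintype_card (α := ↥(support₂ (word o1))),
    Nat.card_eq_fintype_card (α := ↥(support₂ (word o2))), Fintype.card_coe,
    Fintype.card_coe, oct1.2, oct2.2] at h3
  exact h3

theorem card_ker : Nat.card ↥Phi.ker = 64 := by
  apply le_antisymm card_ker_le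
  have h3 := Nat.card_le_card_of_injective nF nF_inj
  rw [Nat.card_eq_fintype_card, Fintype.card_fin] at h3
  exact h3

theorem nF_surj : Function.Surjective nF :=
  (nF_inj.bijective_of_nat_card_le (by
    rw [card_ker, Nat.card_eq_fintype_card, Fintype.card_fin])).2

theorem ker_sq (x : ↥(MulAction.stabilizer ↥M24 T0)) (hx : x ∈ Phi.ker) : x * x = 1 := by
  obtain ⟨i, hi⟩ := nF_surj ⟨x, hx⟩
  apply Subtype.ext
  apply Subtype.ext
  have e : ((x : ↥M24) : Equiv.Perm GolayPt) = nP i := by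
    rw [← nF_val i, hi]
  show ((x : ↥M24) : Equiv.Perm GolayPt) * ((x : ↥M24) : Equiv.Perm GolayPt) = 1
  rw [e]
  exact nP_sq i

/-! ### Swaps -/

theorem swap_std {t u : Finset GolayPt} (ht : t ∈ T0) (hu : u ∈ T0) (hne : t ≠ u) :
    ∃ g ∈ M24, g • t = u ∧ g • u = t ∧ (∀ v ∈ T0, v ≠ t → v ≠ u → g • v = v) ∧
      ∀ X ∈ R0, g • X = X := by
  obtain ⟨a, ha, rfl⟩ := mem_T0.1 ht
  obtain ⟨b, hb, rfl⟩ := mem_T0.1 hu
  have hab : a ≠ b := fun e => hne (by rw [e])
  obtain ⟨e, -, hc, hm, e1, e2, e3, e4⟩ := swTab_ok a ha b hb hab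
  refine ⟨mkPerm e.1 e.2 hc, mkPerm_mem _ _ _ hm, ?_, ?_, ?_, ?_⟩
  · exact smul_support_word hc e2
  · exact smul_support_word hc e1
  · intro v hv hvt hvu
    obtain ⟨c, hcL, rfl⟩ := mem_T0.1 hv
    exact smul_support_word hc
      (e3 c hcL (fun e => hvt (by rw [e])) (fun e => hvu (by rw [e])))
  · intro X hX
    obtain ⟨L, hL, rfl⟩ := mem_R0.1 hX
    exact smul_mkSys hc (e4 L hL)

theorem stab_of_swap {T : Finset (Finset GolayPt)} {g : Equiv.Perm GolayPt}
    {t u : Finset GolayPt} (ht : t ∈ T) (hu : u ∈ T) (A : g • t = u) (B : g • u = t)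
    (C : ∀ v ∈ T, v ≠ t → v ≠ u → g • v = v) : g • T = T := by
  apply Finset.eq_of_subset_of_card_le
  · intro x hx
    obtain ⟨v, hv, rfl⟩ := Finset.mem_smul_finset.1 hx
    by_cases h1 : v = t
    · rw [h1, A]; exact hu
    · by_cases h2 : v = u
      · rw [h2, B]; exact ht
      · rw [C v hv h1 h2]; exact hv
  · rw [Finset.card_smul_finset]

/-- Swaps of two octads of any trio. -/
theorem swap_gen {T : Finset (Finset GolayPt)} (hT : T ∈ trios) {t u : Finset GolayPt}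
    (ht : t ∈ T) (hu : u ∈ T) (hne : t ≠ u) :
    ∃ g ∈ M24, g • T = T ∧ g • t = u ∧ g • u = t ∧ ∀ v ∈ T, v ≠ t → v ≠ u → g • v = v := by
  obtain ⟨k, hk, hkT⟩ := trio_trans hT c0_ok
  have hh : k⁻¹ ∈ M24 := M24.inv_mem hk
  have hS0 : k⁻¹ • T = T0 := by
    rw [← hkT, inv_smul_smul]
    rfl
  have ht' : k⁻¹ • t ∈ T0 := by rw [← hS0]; exact Finset.smul_mem_smul_finset ht
  have hu' : k⁻¹ • u ∈ T0 := by rw [← hS0]; exact Finset.smul_mem_smul_finset hu
  have hne' : k⁻¹ • t ≠ k⁻¹ • u := fun e => hne (smul_left_cancel _ e)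
  obtain ⟨g0, hg0, e1, e2, e3, -⟩ := swap_std ht' hu' hne'
  have A : (k * g0 * k⁻¹) • t = u := by rw [mul_smul, mul_smul, e1, smul_inv_smul]
  have B : (k * g0 * k⁻¹) • u = t := by rw [mul_smul, mul_smul, e2, smul_inv_smul]
  have C : ∀ v ∈ T, v ≠ t → v ≠ u → (k * g0 * k⁻¹) • v = v := by
    intro v hv hvt hvu
    rw [mul_smul, mul_smul, e3 (k⁻¹ • v) (by rw [← hS0]; exact Finset.smul_mem_smul_finset hv)
      (fun e => hvt (smul_left_cancel _ e)) (fun e => hvu (smul_left_cancel _ e)),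
      smul_inv_smul]
  exact ⟨k * g0 * k⁻¹, M24.mul_mem (M24.mul_mem hk hg0) hh, stab_of_swap ht hu A B C, A, B, C⟩

/-- Every permutation of the octads is induced. -/
theorem part1 {T : Finset (Finset GolayPt)} (hT : T ∈ trios) (e : Equiv.Perm ↥T) :
    ∃ g ∈ MulAction.stabilizer M24 T, ∀ o : ↥T,
      (g : Equiv.Perm GolayPt) • (o : Finset GolayPt) = ((e o : ↥T) : Finset GolayPt) := by
  induction e using Equiv.Perm.swap_induction_on with
  | one => exact ⟨1, Subgroup.one_mem _, fun t => one_smul _ _⟩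
  | swap_mul f x y hxy ih =>
    obtain ⟨g, hg, hgf⟩ := ih
    obtain ⟨s, hs, hsS, e1, e2, e3⟩ := swap_gen hT x.2 y.2 (fun h => hxy (Subtype.ext h))
    refine ⟨⟨s, hs⟩ * g, Subgroup.mul_mem _
      (show (⟨s, hs⟩ : ↥M24) ∈ MulAction.stabilizer M24 T from hsS) hg, ?_⟩
    intro t
    show (s * (g : Equiv.Perm GolayPt)) • (t : Finset GolayPt) = _
    rw [mul_smul, hgf t, Equiv.Perm.mul_apply]
    by_cases h1 : f t = x
    · rw [h1, Equiv.swap_apply_left]; exact e1
    · by_cases h2 : f t = y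
      · rw [h2, Equiv.swap_apply_right]; exact e2
      · rw [Equiv.swap_apply_of_ne_of_ne h1 h2]
        exact e3 _ (f t).2 (fun h => h1 (Subtype.ext h)) (fun h => h2 (Subtype.ext h))

theorem swap_M {x y : ↥T0} (hxy : x ≠ y) :
    ∃ s : ↥(MulAction.stabilizer ↥M24 T0), phiR s = 1 ∧ phiT s = Equiv.swap x y := by
  obtain ⟨g, hg, e1, e2, e3, e4⟩ := swap_std x.2 y.2 (fun h => hxy (Subtype.ext h))
  have hst : g • T0 = T0 := stab_of_swap x.2 y.2 e1 e2 e3
  refine ⟨⟨⟨g, hg⟩, hst⟩, (invHom_eq_one _ _ _ _).2 e4, ?_⟩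
  apply Equiv.ext
  intro z
  apply Subtype.ext
  rw [phiT, invHom_apply]
  show g • (z : Finset GolayPt) = _
  by_cases h1 : z = x
  · rw [h1, Equiv.swap_apply_left]; exact e1
  · by_cases h2 : z = y
    · rw [h2, Equiv.swap_apply_right]; exact e2
    · rw [Equiv.swap_apply_of_ne_of_ne h1 h2]
      exact e3 _ z.2 (fun h => h1 (Subtype.ext h)) (fun h => h2 (Subtype.ext h))

theorem surj_T (e : Equiv.Perm ↥T0) :
    ∃ g : ↥(MulAction.stabilizer ↥M24 T0), phiR g = 1 ∧ phiT g = e := by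
  induction e using Equiv.Perm.swap_induction_on with
  | one => exact ⟨1, map_one _, map_one _⟩
  | swap_mul f x y hxy ih =>
    obtain ⟨g, hg1, hg2⟩ := ih
    obtain ⟨s, hs1, hs2⟩ := swap_M hxy
    exact ⟨s * g, by rw [map_mul, hs1, hg1, one_mul], by rw [map_mul, hs2, hg2]⟩

/-! ### The quotient -/

theorem range_Phi : Phi.range = phiR.range.prod ⊤ := by
  ext ⟨a, e⟩
  constructor
  · rintro ⟨g, hg⟩
    have h1 : phiR g = a := congrArg Prod.fst hg
    exact Subgroup.mem_prod.2 ⟨⟨g, h1⟩, Subgroup.mem_top _⟩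
  · intro h
    obtain ⟨⟨g0, hg0⟩, -⟩ := Subgroup.mem_prod.1 h
    obtain ⟨g1, h1, h2⟩ := surj_T (e * (phiT g0)⁻¹)
    refine ⟨g1 * g0, ?_⟩
    have hg0' : phiR g0 = a := hg0
    show (phiR (g1 * g0), phiT (g1 * g0)) = (a, e)
    rw [map_mul, map_mul, h1, h2, one_mul, inv_mul_cancel_right, hg0']

theorem card_stab : Nat.card ↥(MulAction.stabilizer ↥M24 T0) = 64512 := by
  have h := card_orbit_mul_stab (G := ↥M24) T0
  have horb : MulAction.orbit ↥M24 T0 = trios := by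
    ext X
    constructor
    · rintro ⟨g, rfl⟩
      exact smul_trio g.2 T0_trio
    · intro hX
      obtain ⟨k, hk, e⟩ := trio_trans hX c0_ok
      exact ⟨⟨k, hk⟩, e⟩
  rw [horb, Cfsg.Agent.S1557.result.2, card_M24] at h
  omega

theorem card_T0 : Fintype.card ↥T0 = 3 := by
  rw [Fintype.card_coe]
  exact T0_trio.1

theorem card_R0' : Fintype.card ↥R0 = 7 := by
  rw [Fintype.card_coe]
  exact card_R0

theorem card_range : Nat.card ↥phiR.range = 168 := by
  have h1 := Subgroup.card_eq_card_quotient_mul_card_subgroup Phi.ker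
  rw [Nat.card_congr (QuotientGroup.quotientKerEquivRange Phi).toEquiv, range_Phi,
    Nat.card_congr (Subgroup.prodEquiv _ _).toEquiv, Nat.card_prod, Subgroup.card_top,
    Nat.card_perm, Nat.card_eq_fintype_card (α := ↥T0), card_T0, card_ker, card_stab] at h1
  have h6 : (3 : ℕ).factorial = 6 := by decide
  rw [h6] at h1
  omega

theorem iso0 : Nonempty (↥(MulAction.stabilizer ↥M24 T0) ⧸ Phi.ker ≃*
    GL (Fin 3) (ZMod 2) × Equiv.Perm (Fin 3)) := by
  have hs : IsSimpleGroup ↥phiR.range := simple_of_card card_R0' phiR.range card_range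
  have hs' := gl32_simple
  obtain ⟨e1⟩ := Cfsg.Agent.S0495.simple168_equiv card_range
  obtain ⟨e2⟩ := Cfsg.Agent.S0495.simple168_equiv card_gl32
  have e3 : ↥T0 ≃ Fin 3 := Fintype.equivFinOfCardEq card_T0
  exact ⟨(QuotientGroup.quotientKerEquivRange Phi).trans
    ((MulEquiv.subgroupCongr range_Phi).trans
      ((Subgroup.prodEquiv _ _).trans
        (MulEquiv.prodCongr (e1.trans e2.symm) (Subgroup.topEquiv.trans e3.permCongrHom))))⟩

/-- Structure of a trio stabiliser: every permutation of the three octads is induced, and there is a normal subgroup of order 64 of elements squaring to the identity whose quotient is isomorphic to the product of GL(3, 2) with the symmetric group of degree 3. -/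
theorem result (T : Finset (Finset Cfsg.GolayPt)) (hT : T ∈ Cfsg.trios) : (∀ e : Equiv.Perm ↥T, ∃ g ∈ MulAction.stabilizer Cfsg.M24 T, ∀ o : ↥T, (g : Equiv.Perm Cfsg.GolayPt) • (o : Finset Cfsg.GolayPt) = ((e o : ↥T) : Finset Cfsg.GolayPt)) ∧ ∃ (N : Subgroup ↥(MulAction.stabilizer Cfsg.M24 T)) (_ : N.Normal), Nat.card N = 64 ∧ (∀ x ∈ N, x * x = 1) ∧ Nonempty (↥(MulAction.stabilizer Cfsg.M24 T) ⧸ N ≃* GL (Fin 3) (ZMod 2) × Equiv.Perm (Fin 3)) := by
  refine ⟨part1 hT, ?_⟩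
  obtain ⟨k, hk, hkT⟩ := trio_trans hT c0_ok
  obtain ⟨c⟩ := conj_stab1 (G := ↥M24) ⟨k, hk⟩ T0
  have h1 : (⟨k, hk⟩ : ↥M24) • T0 = T := hkT
  rw [h1] at c
  obtain ⟨e0⟩ := iso0
  have hn : (Phi.ker.map c.toMonoidHom).Normal :=
    (MonoidHom.normal_ker Phi).map _ c.surjective
  refine ⟨Phi.ker.map c.toMonoidHom, hn, ?_, ?_, ?_⟩
  · rw [Subgroup.card_map_of_injective c.injective, card_ker]
  · rintro x ⟨y, hy, rfl⟩
    show c y * c y = 1
    rw [← map_mul, ker_sq y hy, map_one]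
  · exact ⟨(QuotientGroup.congr Phi.ker (Phi.ker.map c.toMonoidHom) c rfl).symm.trans e0⟩

end Cfsg.Agent.S1558
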