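import Cfsg.Statements.S1559
import Cfsg.Agent.Lib.Helper4.Tr4

set_option autoImplicit false
open scoped Pointwise
open Cfsg

namespace Cfsg.Agent.S1559

open Cfsg.Agent.Lib.Helper4 Cfsg.Agent.Lib.Helper4.Golay Cfsg.Agent.Lib.Helper4.Tr in

/-- A trio stabiliser has five orbits on the 3795 trios, of sizes 1, 42, 56, 1008, 2688; and the stabiliser is a maximal proper subgroup. -/
theorem result (T : Finset (Finset Cfsg.GolayPt)) (hT : T ∈ Cfsg.trios) : ∃ X₁ ∈ Cfsg.trios, ∃ X₂ ∈ Cfsg.trios, ∃ X₃ ∈ Cfsg.trios, ∃ X₄ ∈ Cfsg.trios, (MulAction.orbit ↥(MulAction.stabilizer Cfsg.M24 T) X₁).ncard = 42 ∧ (MulAction.orbit ↥(MulAction.stabilizer Cfsg.M24 T) X₂).ncard = 56 ∧ (MulAction.orbit ↥(MulAction.stabilizer Cfsg.M24 T) X₃).ncard = 1008 ∧ (MulAction.orbit ↥(MulAction.stabilizer Cfsg.M24 T) X₄).ncard = 2688 ∧ Cfsg.trios = {T} ∪ MulAction.orbit ↥(MulAction.stabilizer Cfsg.M24 T) X₁ ∪ MulAction.orbit ↥(MulAction.stabilizer Cfsg.M24 T) X₂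 ∪ MulAction.orbit ↥(MulAction.stabilizer Cfsg.M24 T) X₃ ∪ MulAction.orbit ↥(MulAction.stabilizer Cfsg.M24 T) X₄ ∧ IsCoatom (MulAction.stabilizer Cfsg.M24 T) := by
  classical
  obtain ⟨X, hX, n1, n2, n3, n4, hcov, hne, w12, w24, w43, w31⟩ := Tr.main hT
  have orbEq : ∀ R : Finset (Finset GolayPt),
      MulAction.orbit ↥(MulAction.stabilizer M24 T) R = {Z | Orb T R Z} := by
    intro R
    ext Z
    exact mem_orbit_iff T R Z
  refine ⟨X 1, hX 1, X 2, hX 2, X 3, hX 3, X 4, hX 4, ?_, ?_, ?_, ?_, ?_, ?_⟩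
  · rw [orbEq]
    exact n1
  · rw [orbEq]
    exact n2
  · rw [orbEq]
    exact n3
  · rw [orbEq]
    exact n4
  · rw [orbEq, orbEq, orbEq, orbEq]
    ext Z
    simp only [Set.mem_union, Set.mem_singleton_iff, Set.mem_ofPred_eq]
    constructor
    · intro hZ
      rcases hcov Z hZ with h | h | h | h | h
      · exact Or.inl (Or.inl (Or.inl (Or.inl h)))
      · exact Or.inl (Or.inl (Or.inl (Or.inr h)))
      · exact Or.inl (Or.inl (Or.inr h))
      · exact Or.inl (Or.inr h)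
      · exact Or.inr h
    · rintro ((((h | h) | h) | h) | h)
      · rw [h]
        exact hT
      · exact orb_trio (hX 1) h
      · exact orb_trio (hX 2) h
      · exact orb_trio (hX 3) h
      · exact orb_trio (hX 4) h
  · have memK : ∀ g : ↥M24, g ∈ MulAction.stabilizer M24 T ↔
        (g : Equiv.Perm GolayPt) • T = T := by
      intro g
      rw [MulAction.mem_stabilizer_iff]
      rfl
    refine ⟨?_, fun H hH => ?_⟩
    · intro htop
      obtain ⟨k, hk, o1, -⟩ := w12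
      have hmem : (⟨k, hk⟩ : ↥M24) ∈ MulAction.stabilizer M24 T := by
        rw [htop]
        exact Subgroup.mem_top _
      have e : k • T = T := (memK _).1 hmem
      rw [e] at o1
      exact hne o1
    · obtain ⟨hKH, x, hxH, hxK⟩ := SetLike.lt_iff_le_and_exists.1 hH
      have A : ∀ R Z : Finset (Finset GolayPt), Orb T R Z →
          (∃ y : ↥M24, y ∈ H ∧ (y : Equiv.Perm GolayPt) • T = R) →
          ∃ y : ↥M24, y ∈ H ∧ (y : Equiv.Perm GolayPt) • T = Z := by
        rintro R Z ⟨g, hg, gS, rfl⟩ ⟨y, hy, rfl⟩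
        refine ⟨⟨g, hg⟩ * y, H.mul_mem (hKH ((memK _).2 gS)) hy, ?_⟩
        rw [Subgroup.coe_mul, mul_smul]
      have C2 : ∀ (d : Finset (Finset GolayPt)) (k : Equiv.Perm GolayPt), k ∈ M24 →
          (∃ y : ↥M24, y ∈ H ∧ (y : Equiv.Perm GolayPt) • T = d) →
          (∃ y : ↥M24, y ∈ H ∧ (y : Equiv.Perm GolayPt) • T = k • T) →
          ∃ y : ↥M24, y ∈ H ∧ (y : Equiv.Perm GolayPt) • T = k • d := by
        rintro d k hk ⟨y1, hy1, rfl⟩ ⟨y2, hy2, e2⟩
        have hK : (y2⁻¹ * ⟨k, hk⟩ : ↥M24) ∈ H := by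
          apply hKH
          rw [memK, Subgroup.coe_mul, mul_smul]
          show ((y2⁻¹ : ↥M24) : Equiv.Perm GolayPt) • k • T = T
          rw [← e2, Subgroup.coe_inv, inv_smul_smul]
        have hkH : (⟨k, hk⟩ : ↥M24) ∈ H := by
          have := H.mul_mem hy2 hK
          rwa [mul_inv_cancel_left] at this
        refine ⟨⟨k, hk⟩ * y1, H.mul_mem hkH hy1, ?_⟩
        rw [Subgroup.coe_mul, mul_smul]
      have hxS : (x : Equiv.Perm GolayPt) • T ∈ trios := smul_trio x.2 hT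
      have hxne : (x : Equiv.Perm GolayPt) • T ≠ T := fun e => hxK ((memK x).2 e)
      have Ωx : ∃ y : ↥M24, y ∈ H ∧ (y : Equiv.Perm GolayPt) • T
          = (x : Equiv.Perm GolayPt) • T := ⟨x, hxH, rfl⟩
      have ΩS : ∃ y : ↥M24, y ∈ H ∧ (y : Equiv.Perm GolayPt) • T = T :=
        ⟨1, H.one_mem, one_smul _ _⟩
      have step : ∀ c c' : ℕ, (∃ k ∈ M24, Orb T (X c) (k • T) ∧ Orb T (X c') (k • X c)) →
          (∃ y : ↥M24, y ∈ H ∧ (y : Equiv.Perm GolayPt) • T = X c) →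
          ∃ y : ↥M24, y ∈ H ∧ (y : Equiv.Perm GolayPt) • T = X c' := by
        rintro c c' ⟨k, hk, o1, o2⟩ hΩ
        have h1 := A _ _ o1 hΩ
        have h2 := C2 (X c) k hk hΩ h1
        exact A _ _ (orb_symm o2) h2
      have s12 := step 1 2 w12
      have s24 := step 2 4 w24
      have s43 := step 4 3 w43
      have s31 := step 3 1 w31
      have all : (∃ y : ↥M24, y ∈ H ∧ (y : Equiv.Perm GolayPt) • T = X 1) ∧
          (∃ y : ↥M24, y ∈ H ∧ (y : Equiv.Perm GolayPt) • T = X 2) ∧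
          (∃ y : ↥M24, y ∈ H ∧ (y : Equiv.Perm GolayPt) • T = X 3) ∧
          (∃ y : ↥M24, y ∈ H ∧ (y : Equiv.Perm GolayPt) • T = X 4) := by
        rcases hcov _ hxS with h | h | h | h | h
        · exact absurd h hxne
        · have a1 := A _ _ (orb_symm h) Ωx
          exact ⟨a1, s12 a1, s43 (s24 (s12 a1)), s24 (s12 a1)⟩
        · have a2 := A _ _ (orb_symm h) Ωx
          exact ⟨s31 (s43 (s24 a2)), a2, s43 (s24 a2), s24 a2⟩
        · have a3 := A _ _ (orb_symm h) Ωx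
          exact ⟨s31 a3, s12 (s31 a3), a3, s24 (s12 (s31 a3))⟩
        · have a4 := A _ _ (orb_symm h) Ωx
          exact ⟨s31 (s43 a4), s12 (s31 (s43 a4)), s43 a4, a4⟩
      have allΩ : ∀ Z ∈ trios, ∃ y : ↥M24, y ∈ H ∧ (y : Equiv.Perm GolayPt) • T = Z := by
        intro Z hZ
        rcases hcov Z hZ with h | h | h | h | h
        · rw [h]
          exact ΩS
        · exact A _ _ h all.1
        · exact A _ _ h all.2.1
        · exact A _ _ h all.2.2.1
        · exact A _ _ h all.2.2.2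
      rw [eq_top_iff]
      intro g _
      obtain ⟨y, hy, e⟩ := allΩ _ (smul_trio g.2 hT)
      have h1 : y⁻¹ * g ∈ H := by
        apply hKH
        rw [memK, Subgroup.coe_mul, mul_smul, ← e, Subgroup.coe_inv, inv_smul_smul]
      have h2 := H.mul_mem hy h1
      rwa [mul_inv_cancel_left] at h2

end Cfsg.Agent.S1559
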