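import Mathlib
import Cfsg.Statements.S1560
import Cfsg.Agent.Lib.Helper12.CodeSupp
import Cfsg.Agent.Lib.Helper4.Steiner
import Cfsg.Agent.S0386
import Cfsg.Agent.S0361

set_option autoImplicit false
open Cfsg

namespace Cfsg.Agent.S1560

open Cfsg.Agent.Lib.Helper12

/-- the involution `x ↦ (d Δ x)ᶜ` -/
theorem compl_symmDiff_invol (d x : Finset GolayPt) :
    (symmDiff d (symmDiff d x)ᶜ)ᶜ = x := by
  ext p
  simp only [Finset.mem_compl, Finset.mem_symmDiff]
  tauto

theorem symmDiff_invol (d x : Finset GolayPt) : symmDiff d (symmDiff d x) = x := by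
  ext p
  simp only [Finset.mem_symmDiff]
  tauto

theorem inter_compl_symmDiff (d x : Finset GolayPt) : (symmDiff d x)ᶜ ∩ d = x ∩ d := by
  ext p
  simp only [Finset.mem_inter, Finset.mem_compl, Finset.mem_symmDiff]
  tauto

theorem inter_compl_symmDiff' (d x : Finset GolayPt) : d ∩ (symmDiff d x)ᶜ = d ∩ x := by
  ext p
  simp only [Finset.mem_inter, Finset.mem_compl, Finset.mem_symmDiff]
  tauto

theorem card_symmDiff_inter (d x : Finset GolayPt) :
    (symmDiff d x ∩ d).card + (d ∩ x).card = d.card := by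
  have e : symmDiff d x ∩ d = d \ x := by
    ext p
    simp only [Finset.mem_inter, Finset.mem_sdiff, Finset.mem_symmDiff]
    tauto
  rw [e]
  exact Finset.card_sdiff_add_card_inter d x

/-- Intersection numbers of dodecads: a dodecad meets every other dodecad in 0, 4, 6 or 8 points, meeting 495 of them in 4 points, 1584 in 6 points and 495 in 8 points. -/
theorem result (d : Finset Cfsg.GolayPt) (hd : d ∈ Cfsg.dodecads) : (∀ d' ∈ Cfsg.dodecads, d' ≠ d → (d ∩ d').card = 0 ∨ (d ∩ d').card = 4 ∨ (d ∩ d').card = 6 ∨ (d ∩ d').card = 8) ∧ {d' : Finset Cfsg.GolayPt | d' ∈ Cfsg.dodecads ∧ (d ∩ d').card = 4}.ncard = 495 ∧ {d' : Finset Cfsg.GolayPt | d' ∈ Cfsg.dodecads ∧ (d ∩ d').card = 6}.ncard = 1584 ∧ {d' : Finset Cfsg.GolayPt | d' ∈ Cfsg.dodecads ∧ (d ∩ d').card = 8}.ncard = 495 := by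
  classical
  have hdS : d ∈ GS := hd.1
  have hdc : d.card = 12 := hd.2
  -- basic arithmetic for a dodecad d'
  have harith : ∀ d' ∈ Cfsg.dodecads, (symmDiff d d').card + 2 * (d ∩ d').card = 24 := by
    intro d' hd'
    have := card_symmDiff_add d d'
    rw [hdc, hd'.2] at this
    omega
  have hinter_le : ∀ x : Finset GolayPt, (d ∩ x).card ≤ 12 := by
    intro x
    rw [← hdc]
    exact Finset.card_le_card Finset.inter_subset_left
  -- (i)
  have part1 : ∀ d' ∈ Cfsg.dodecads, d' ≠ d → (d ∩ d').card = 0 ∨ (d ∩ d').card = 4 ∨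
      (d ∩ d').card = 6 ∨ (d ∩ d').card = 8 := by
    intro d' hd' hne
    have h1 := harith d' hd'
    have h2 := gs_card (gs_symmDiff hdS hd'.1)
    have h3 : (d ∩ d').card ≠ 12 := by
      intro h12
      apply hne
      have hsub : d ∩ d' = d := Finset.eq_of_subset_of_card_le Finset.inter_subset_left (by omega)
      have hsub' : d ⊆ d' := by
        rw [← hsub]; exact Finset.inter_subset_right
      exact (Finset.eq_of_subset_of_card_le hsub' (by rw [hd'.2, hdc])).symm
    rcases h2 with h | h | h | h | h <;> omega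
  -- the sets
  set B₄ : Set (Finset GolayPt) := {o | o ∈ Cfsg.octads ∧ (o ∩ d).card = 4} with hB₄
  have hB₄card : B₄.ncard = 495 := (Cfsg.Agent.S0386.result d hd).2.2
  -- (ii)
  have part2 : {d' : Finset Cfsg.GolayPt | d' ∈ Cfsg.dodecads ∧ (d ∩ d').card = 4}.ncard = 495 := by
    rw [← hB₄card]
    have hinj : Function.Injective (fun x : Finset GolayPt => (symmDiff d x)ᶜ) := by
      intro x y hxy
      have h1 : symmDiff d x = symmDiff d y := compl_injective hxy
      rw [← symmDiff_invol d x, h1, symmDiff_invol]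
    rw [← Set.ncard_image_of_injective _ hinj]
    congr 1
    ext o
    simp only [Set.mem_image, Set.mem_ofPred_eq]
    constructor
    · rintro ⟨d', ⟨hd', h4⟩, rfl⟩
      have h1 := harith d' hd'
      refine ⟨⟨gs_compl (gs_symmDiff hdS hd'.1), ?_⟩, ?_⟩
      · rw [card_compl_pt]; omega
      · rw [inter_compl_symmDiff, Finset.inter_comm]; exact h4
    · rintro ⟨ho, h4⟩
      refine ⟨(symmDiff d o)ᶜ, ⟨⟨gs_compl (gs_symmDiff hdS ho.1), ?_⟩, ?_⟩,
        compl_symmDiff_invol d o⟩
      · rw [card_compl_pt]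
        have := card_symmDiff_add d o
        rw [hdc, ho.2, Finset.inter_comm, h4] at this
        omega
      · rw [inter_compl_symmDiff', Finset.inter_comm]; exact h4
  -- (iv)
  have part4 : {d' : Finset Cfsg.GolayPt | d' ∈ Cfsg.dodecads ∧ (d ∩ d').card = 8}.ncard = 495 := by
    rw [← hB₄card]
    have hinj : Function.Injective (fun x : Finset GolayPt => symmDiff d x) := by
      intro x y hxy
      have h1 : symmDiff d x = symmDiff d y := hxy
      rw [← symmDiff_invol d x, h1, symmDiff_invol]
    rw [← Set.ncard_image_of_injective _ hinj]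
    congr 1
    ext o
    simp only [Set.mem_image, Set.mem_ofPred_eq]
    constructor
    · rintro ⟨d', ⟨hd', h8⟩, rfl⟩
      have h1 := harith d' hd'
      refine ⟨⟨gs_symmDiff hdS hd'.1, ?_⟩, ?_⟩
      · omega
      · have := card_symmDiff_inter d d'
        omega
    · rintro ⟨ho, h4⟩
      refine ⟨symmDiff d o, ⟨⟨gs_symmDiff hdS ho.1, ?_⟩, ?_⟩, symmDiff_invol d o⟩
      · have := card_symmDiff_add d o
        rw [hdc, ho.2, Finset.inter_comm, h4] at this
        omega
      · have h5 := card_symmDiff_inter d o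
        have h6 : d ∩ symmDiff d o = symmDiff d o ∩ d := Finset.inter_comm _ _
        rw [h6]
        rw [Finset.inter_comm] at h4
        omega
  refine ⟨part1, part2, ?_, part4⟩
  -- (iii): count everything
  have hcnt : ∀ j, {d' : Finset Cfsg.GolayPt | d' ∈ Cfsg.dodecads ∧ (d ∩ d').card = j}.ncard
      = ((Cfsg.Agent.Lib.Helper4.Steiner.blocks Cfsg.dodecads).filter
          (fun d' => (d ∩ d').card = j)).card := fun j =>
    Cfsg.Agent.Lib.Helper4.Steiner.ncard_setOf Cfsg.dodecads (fun d' => (d ∩ d').card = j)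
  rw [hcnt] at part2 part4 ⊢
  have htot : (Cfsg.Agent.Lib.Helper4.Steiner.blocks Cfsg.dodecads).card = 2576 := by
    rw [← Cfsg.Agent.Lib.Helper4.Steiner.ncard_eq]
    exact Cfsg.Agent.S0361.result
  have hfib := Finset.card_eq_sum_card_fiberwise
    (s := Cfsg.Agent.Lib.Helper4.Steiner.blocks Cfsg.dodecads) (t := ({0, 4, 6, 8, 12} : Finset ℕ))
    (f := fun d' => (d ∩ d').card) (by
      intro d' hd'
      have hd'' : d' ∈ Cfsg.dodecads := Cfsg.Agent.Lib.Helper4.Steiner.mem_blocks.mp hd'
      by_cases hne : d' = d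
      · subst hne
        simp [hdc]
      · rcases part1 d' hd'' hne with h | h | h | h <;> simp [h])
  have h12 : ((Cfsg.Agent.Lib.Helper4.Steiner.blocks Cfsg.dodecads).filter
      (fun d' => (d ∩ d').card = 12)).card = 1 := by
    rw [Finset.card_eq_one]
    refine ⟨d, ?_⟩
    ext d'
    simp only [Finset.mem_filter, Finset.mem_singleton,
      Cfsg.Agent.Lib.Helper4.Steiner.mem_blocks]
    constructor
    · rintro ⟨hd', h12⟩
      by_contra hne
      rcases part1 d' hd' hne with h | h | h | h <;> omega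
    · rintro rfl
      exact ⟨hd, by simp [hdc]⟩
  have hdcompl : dᶜ ∈ Cfsg.dodecads := ⟨gs_compl hdS, by rw [card_compl_pt]; omega⟩
  have h0 : ((Cfsg.Agent.Lib.Helper4.Steiner.blocks Cfsg.dodecads).filter
      (fun d' => (d ∩ d').card = 0)).card = 1 := by
    rw [Finset.card_eq_one]
    refine ⟨dᶜ, ?_⟩
    ext d'
    simp only [Finset.mem_filter, Finset.mem_singleton,
      Cfsg.Agent.Lib.Helper4.Steiner.mem_blocks]
    constructor
    · rintro ⟨hd', h0⟩
      have hdisj : d ∩ d' = ∅ := Finset.card_eq_zero.mp h0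
      have hsub : d' ⊆ dᶜ := by
        intro p hp
        rw [Finset.mem_compl]
        intro hpd
        have : p ∈ d ∩ d' := Finset.mem_inter.mpr ⟨hpd, hp⟩
        rw [hdisj] at this
        exact absurd this (Finset.notMem_empty _)
      exact Finset.eq_of_subset_of_card_le hsub (by rw [hdcompl.2, hd'.2])
    · rintro rfl
      refine ⟨hdcompl, ?_⟩
      simp
  rw [htot] at hfib
  have hexp : ∑ b ∈ ({0, 4, 6, 8, 12} : Finset ℕ),
      ((Cfsg.Agent.Lib.Helper4.Steiner.blocks Cfsg.dodecads).filter
        (fun d' => (d ∩ d').card = b)).card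
      = ((Cfsg.Agent.Lib.Helper4.Steiner.blocks Cfsg.dodecads).filter
          (fun d' => (d ∩ d').card = 0)).card
        + (((Cfsg.Agent.Lib.Helper4.Steiner.blocks Cfsg.dodecads).filter
          (fun d' => (d ∩ d').card = 4)).card
        + (((Cfsg.Agent.Lib.Helper4.Steiner.blocks Cfsg.dodecads).filter
          (fun d' => (d ∩ d').card = 6)).card
        + (((Cfsg.Agent.Lib.Helper4.Steiner.blocks Cfsg.dodecads).filter
          (fun d' => (d ∩ d').card = 8)).card
        + ((Cfsg.Agent.Lib.Helper4.Steiner.blocks Cfsg.dodecads).filter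
          (fun d' => (d ∩ d').card = 12)).card))) := by
    rw [Finset.sum_insert (by decide), Finset.sum_insert (by decide), Finset.sum_insert (by decide),
      Finset.sum_insert (by decide), Finset.sum_singleton]
  rw [hexp, h0, h12, part2, part4] at hfib
  omega

end Cfsg.Agent.S1560
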