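import Cfsg.Statements.S1561
import Cfsg.Agent.Lib.Helper4.RkF
import Cfsg.Agent.Lib.Helper4.GolayM12

set_option autoImplicit false
open scoped Pointwise
open Cfsg

namespace Cfsg.Agent.S1561

open Cfsg.Agent.Lib.Helper4 Cfsg.Agent.Lib.Helper4.Golay in

/-- Two dodecads meeting a fixed dodecad in equally many points lie in one orbit of its stabiliser. -/
theorem result (d d' d'' : Finset Cfsg.GolayPt) (hd : d ∈ Cfsg.dodecads) (hd' : d' ∈ Cfsg.dodecads) (hd'' : d'' ∈ Cfsg.dodecads) (h : (d ∩ d').card = (d ∩ d'').card) : ∃ g : Equiv.Perm Cfsg.GolayPt, g ∈ Cfsg.M24 ∧ g • d = d ∧ g • d' = d'' := by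
  have hk := h
  clear h
  obtain ⟨h, hh, e1⟩ := dod_trans hd D0_dod
  have hO : h • d = D0s := e1
  have hsel : ∀ t : Finset GolayPt, ∀ a, pc a = 12 → h • t = support₂ (word a) →
      Rk.selF a = true := by
    intro t a h8 ea
    simp [Rk.selF, h8]
  obtain ⟨g0, hg0, f0, eO, e'⟩ := Rk.rk_transW 12 165759 [] (by simp) Rk.repF Rk.selF Rk.tblF
    Rk.tblF_ok Rk.tblF_complete (h • d') (h • d'') (smul_mem_weight hh hd')
    (smul_mem_weight hh hd'') (hsel d') (hsel d'') (by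
      show (D0s ∩ h • d').card = (D0s ∩ h • d'').card
      rw [← hO, Rk.card_inter_smul, Rk.card_inter_smul]; exact hk)
  exact ⟨h⁻¹ * g0 * h, M24.mul_mem (M24.mul_mem (M24.inv_mem hh) hg0) hh,
    Rk.conj_smul (by rw [hO]; exact eO), Rk.conj_smul e'⟩

end Cfsg.Agent.S1561
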