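import Mathlib
import Cfsg.Statements.S1562
import Cfsg.Agent.Lib.Helper12.M24Triads
import Cfsg.Agent.Lib.Helper4.Steiner

set_option autoImplicit false
open scoped Pointwise
open Cfsg

namespace Cfsg.Agent.S1562

open Cfsg.Agent.Lib.Helper12 Cfsg.Agent.Lib.Helper4 Cfsg.Agent.Lib.Helper4.Golay

/-- Orbits of a triad stabiliser on the triads disjoint from it: the 210 triads inside a common octad with it form one orbit and the remaining 1120 another. -/
theorem result (T : Finset Cfsg.GolayPt) (hT : T.card = 3) : {U : Finset Cfsg.GolayPt | U.card = 3 ∧ Disjoint T U ∧ (∃ o ∈ Cfsg.octads, T ∪ U ⊆ o)}.ncard = 210 ∧ {U : Finset Cfsg.GolayPt | U.card = 3 ∧ Disjoint T U ∧ ¬ (∃ o ∈ Cfsg.octads, T ∪ U ⊆ o)}.ncard = 1120 ∧ ∀ U U' : Finset Cfsg.GolayPt, U.card = 3 → U'.card = 3 → Disjoint T U → Disjoint T U' → ((∃ o ∈ Cfsg.octads, T ∪ U ⊆ o) ↔ (∃ o ∈ Cfsg.octads, T ∪ U' ⊆ o)) → ∃ g : Equiv.Perm Cfsg.GolayPt, g ∈ Cfsg.M24 ∧ g • T = T ∧ g • U = U' := by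
  classical
  have hB := Cfsg.Agent.S0363.result
  have hα := card_pts
  set F := (Steiner.blocks octads).filter (fun o => T ⊆ o) with hF
  have hFcard : F.card = 21 := (Steiner.s5824_deg hα hB T).2.2.2.1 hT
  have hFmem : ∀ o, o ∈ F ↔ o ∈ octads ∧ T ⊆ o := by
    intro o
    rw [hF, Finset.mem_filter, Steiner.mem_blocks]
  set F1 : Finset (Finset GolayPt) := F.biUnion (fun o => (o \ T).powersetCard 3) with hF1
  have hF1card : F1.card = 210 := by
    rw [hF1, Finset.card_biUnion]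
    · rw [Finset.sum_const_nat (m := 10), hFcard]
      intro o ho
      obtain ⟨ho1, ho2⟩ := (hFmem o).1 ho
      rw [Finset.card_powersetCard, Finset.card_sdiff_of_subset ho2, ho1.2, hT]
      rfl
    · intro o ho o' ho' hne
      obtain ⟨ho1, ho2⟩ := (hFmem o).1 ho
      obtain ⟨ho1', ho2'⟩ := (hFmem o').1 ho'
      show Disjoint (Finset.powersetCard 3 (o \ T)) (Finset.powersetCard 3 (o' \ T))
      rw [Finset.disjoint_left]
      intro U hU hU'
      rw [Finset.mem_powersetCard] at hU hU'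
      apply hne
      apply octad_eq_of_five ho1 ho1'
      have hsub : T ∪ U ⊆ o ∩ o' := by
        apply Finset.union_subset
        · exact Finset.subset_inter ho2 ho2'
        · exact Finset.subset_inter (hU.1.trans Finset.sdiff_subset)
            (hU'.1.trans Finset.sdiff_subset)
      have hdTU : Disjoint T U := by
        rw [Finset.disjoint_left]
        intro x hx hx'
        exact (Finset.mem_sdiff.1 (hU.1 hx')).2 hx
      have h6 := Finset.card_le_card hsub
      rw [Finset.card_union_of_disjoint hdTU, hT, hU.2] at h6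
      omega
  have hset1 : {U : Finset Cfsg.GolayPt | U.card = 3 ∧ Disjoint T U ∧ (∃ o ∈ Cfsg.octads, T ∪ U ⊆ o)} = ↑F1 := by
    ext U
    simp only [Set.mem_ofPred_eq, Finset.mem_coe, hF1, Finset.mem_biUnion,
      Finset.mem_powersetCard, hFmem]
    constructor
    · rintro ⟨hU, hd, o, ho, hsub⟩
      refine ⟨o, ⟨ho, Finset.union_subset_left hsub⟩, ?_, hU⟩
      intro x hx
      rw [Finset.mem_sdiff]
      exact ⟨hsub (Finset.mem_union_right _ hx), fun h => Finset.disjoint_left.1 hd h hx⟩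
    · rintro ⟨o, ⟨ho, hTo⟩, hUo, hU⟩
      refine ⟨hU, ?_, o, ho, Finset.union_subset hTo (hUo.trans Finset.sdiff_subset)⟩
      rw [Finset.disjoint_left]
      intro x hx hx'
      exact (Finset.mem_sdiff.1 (hUo hx')).2 hx
  have hsubF1 : F1 ⊆ Finset.powersetCard 3 Tᶜ := by
    intro U hU
    have hU' : U ∈ (↑F1 : Set (Finset GolayPt)) := Finset.mem_coe.2 hU
    rw [← hset1] at hU'
    rw [Finset.mem_powersetCard, Finset.subset_compl_iff_disjoint_left]
    exact ⟨hU'.2.1, hU'.1⟩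
  have hset2 : {U : Finset Cfsg.GolayPt | U.card = 3 ∧ Disjoint T U ∧ ¬ (∃ o ∈ Cfsg.octads, T ∪ U ⊆ o)} = ↑(Finset.powersetCard 3 Tᶜ \ F1) := by
    ext U
    rw [Finset.coe_sdiff, Set.mem_sdiff, ← hset1]
    simp only [Set.mem_ofPred_eq, Finset.mem_coe, Finset.mem_powersetCard,
      Finset.subset_compl_iff_disjoint_left]
    constructor
    · rintro ⟨h1, h2, h3⟩
      exact ⟨⟨h2, h1⟩, fun h => h3 h.2.2⟩
    · rintro ⟨⟨h2, h1⟩, h3⟩
      exact ⟨h1, h2, fun h => h3 ⟨h1, h2, h⟩⟩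
  refine ⟨?_, ?_, ?_⟩
  · rw [hset1, Set.ncard_coe_finset, hF1card]
  · rw [hset2, Set.ncard_coe_finset, Finset.card_sdiff_of_subset hsubF1, Finset.card_powersetCard,
      Finset.card_compl, hα, hT, hF1card]
    decide
  · intro U U' hU hU' hd hd' hiff
    exact six_trans T U T U' hT hU hT hU' hd hd' hiff

end Cfsg.Agent.S1562
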