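import Mathlib
import Cfsg.Statements.S1563
import Cfsg.Agent.Lib.Helper12.M24Trans
import Cfsg.Agent.Lib.Helper12.OrbMax

set_option autoImplicit false
open scoped Pointwise
open Cfsg

namespace Cfsg.Agent.S1563

open Cfsg.Agent.Lib.Helper12 Cfsg.Agent.Lib.Helper4 Cfsg.Agent.Lib.Helper4.Golay

/-- The stabiliser of a pair of points (setwise) is a maximal proper subgroup of the group of the length-24 code. -/
theorem result (s : Finset Cfsg.GolayPt) (hs : s.card = 2) : IsCoatom (MulAction.stabilizer Cfsg.M24 s) := by
  apply isCoatom_stabilizer_of_orbital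
  · obtain ⟨γ, hγ, hdis⟩ := exists_disjoint_card s 2 (by omega)
    obtain ⟨g, hg, h1, -⟩ := pairs_trans s s γ γ (by rw [Finset.union_self]; omega) (by omega)
      (by omega) (by rw [Finset.inter_self, Finset.inter_self]; omega)
    refine ⟨⟨g, hg⟩, ?_⟩
    show g • s ≠ s
    rw [h1]
    intro h
    rw [h] at hdis
    have h0 := (Finset.disjoint_self_iff_empty s).mp hdis
    rw [h0] at hs
    simp at hs
  · intro ω' hω' hne
    obtain ⟨g, rfl⟩ := hω'
    have hc : (g • s).card = 2 := by
      show ((g : Equiv.Perm GolayPt) • s).card = 2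
      rw [Finset.card_smul_finset]; exact hs
    have hk : (s ∩ g • s).card ≤ 1 := by
      by_contra hcon
      push Not at hcon
      have hle : (s ∩ g • s).card ≤ 2 := (Finset.card_le_card Finset.inter_subset_left).trans hs.le
      have h2 : s ∩ g • s = s :=
        Finset.eq_of_subset_of_card_le Finset.inter_subset_left (by omega)
      have h3 : s ⊆ g • s := Finset.inter_eq_left.1 h2
      have h4 : s = g • s := Finset.eq_of_subset_of_card_le h3 (by omega)
      exact hne h4.symm
    refine ⟨fun α β => α.card = 2 ∧ β.card = 2 ∧ (α ∩ β).card = (s ∩ g • s).card, ?_, ?_⟩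
    · rintro α β ⟨hα, hβ, hαβ⟩
      have hu : (s ∪ g • s).card ≤ 5 := by
        have := Finset.card_union_le s (g • s)
        omega
      obtain ⟨h, hh, e1, e2⟩ := pairs_trans s (g • s) α β hu (by omega) (by omega) hαβ.symm
      exact ⟨⟨h, hh⟩, e1, e2⟩
    · rintro β ⟨h, rfl⟩
      have hβ : (h • s).card = 2 := by
        show ((h : Equiv.Perm GolayPt) • s).card = 2
        rw [Finset.card_smul_finset]; exact hs
      rcases Nat.eq_zero_or_pos (s ∩ g • s).card with hk0 | hk0
      · rw [hk0]
        have hu : (s ∪ h • s).card + 2 ≤ 24 := by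
          have := Finset.card_union_le s (h • s)
          omega
        obtain ⟨γ, hγ, hdis⟩ := exists_disjoint_card (s ∪ h • s) 2 hu
        rw [Finset.disjoint_union_left] at hdis
        refine Relation.ReflTransGen.head (b := γ) ⟨hs, hγ, ?_⟩
          (Relation.ReflTransGen.single ⟨hγ, hβ, ?_⟩)
        · rw [Finset.card_eq_zero, ← Finset.disjoint_iff_inter_eq_empty]
          exact hdis.1
        · rw [Finset.card_eq_zero, ← Finset.disjoint_iff_inter_eq_empty]
          exact hdis.2.symm
      · have hk1 : (s ∩ g • s).card = 1 := by omega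
        rw [hk1]
        exact johnson_conn 2 s (h • s) hs hβ

end Cfsg.Agent.S1563
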