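import Mathlib
import Cfsg.Statements.S1564
import Cfsg.Agent.Lib.Helper12.M24Triads
import Cfsg.Agent.Lib.Helper12.OrbMax

set_option autoImplicit false
open scoped Pointwise
open Cfsg

namespace Cfsg.Agent.S1564

open Cfsg.Agent.Lib.Helper12 Cfsg.Agent.Lib.Helper4 Cfsg.Agent.Lib.Helper4.Golay

/-- The stabiliser of a set of three points (setwise) is a maximal proper subgroup of the group of the length-24 code. -/
theorem result (s : Finset Cfsg.GolayPt) (hs : s.card = 3) : IsCoatom (MulAction.stabilizer Cfsg.M24 s) := by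
  apply isCoatom_stabilizer_of_orbital
  · obtain ⟨γ, hγ, hdis⟩ := exists_disjoint_card s 3 (by omega)
    obtain ⟨g, hg, h1, -⟩ := pairs_trans s s γ γ (by rw [Finset.union_self]; omega) (by omega)
      (by omega) (by rw [Finset.inter_self, Finset.inter_self]; omega)
    refine ⟨⟨g, hg⟩, ?_⟩
    show g • s ≠ s
    rw [h1]
    intro h
    rw [h] at hdis
    have h0 := (Finset.disjoint_self_iff_empty s).mp hdis
    rw [h0] at hs
    simp at hs
  · intro ω' hω' hne
    obtain ⟨g, rfl⟩ := hω'
    have hc : (g • s).card = 3 := by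
      show ((g : Equiv.Perm GolayPt) • s).card = 3
      rw [Finset.card_smul_finset]; exact hs
    have hcard : ∀ h : ↥Cfsg.M24, (h • s).card = 3 := by
      intro h
      show ((h : Equiv.Perm GolayPt) • s).card = 3
      rw [Finset.card_smul_finset]; exact hs
    have hk : (s ∩ g • s).card ≤ 2 := by
      by_contra hcon
      push Not at hcon
      have hle : (s ∩ g • s).card ≤ 3 := (Finset.card_le_card Finset.inter_subset_left).trans hs.le
      have h2 : s ∩ g • s = s :=
        Finset.eq_of_subset_of_card_le Finset.inter_subset_left (by omega)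
      have h3 : s ⊆ g • s := Finset.inter_eq_left.1 h2
      have h4 : s = g • s := Finset.eq_of_subset_of_card_le h3 (by omega)
      exact hne h4.symm
    by_cases hd : Disjoint s (g • s)
    · by_cases hoct : ∃ o ∈ octads, s ∪ g • s ⊆ o
      · refine ⟨triR1, ?_, ?_⟩
        · rintro α β ⟨hα, hβ, hαβ, ho⟩
          obtain ⟨h, hh, e1, e2⟩ := six_trans s (g • s) α β hs hc hα hβ hd hαβ
            ⟨fun _ => ho, fun _ => hoct⟩
          exact ⟨⟨h, hh⟩, e1, e2⟩
        · rintro β ⟨h, rfl⟩
          exact triR1_conn s _ hs (hcard h)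
      · refine ⟨triR2, ?_, ?_⟩
        · rintro α β ⟨hα, hβ, hαβ, ho⟩
          obtain ⟨h, hh, e1, e2⟩ := six_trans s (g • s) α β hs hc hα hβ hd hαβ
            ⟨fun h => absurd h hoct, fun h => absurd h ho⟩
          exact ⟨⟨h, hh⟩, e1, e2⟩
        · rintro β ⟨h, rfl⟩
          exact triR2_conn s _ hs (hcard h)
    · have hk1 : 1 ≤ (s ∩ g • s).card := by
        rw [Nat.succ_le_iff, Finset.card_pos]
        rw [Finset.not_disjoint_iff] at hd
        obtain ⟨x, hx1, hx2⟩ := hd
        exact ⟨x, Finset.mem_inter.2 ⟨hx1, hx2⟩⟩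
      refine ⟨fun α β => α.card = 3 ∧ β.card = 3 ∧ (α ∩ β).card = (s ∩ g • s).card, ?_, ?_⟩
      · rintro α β ⟨hα, hβ, hαβ⟩
        have hu : (s ∪ g • s).card ≤ 5 := by
          have := Finset.card_union_add_card_inter s (g • s)
          omega
        obtain ⟨h, hh, e1, e2⟩ := pairs_trans s (g • s) α β hu (by omega) (by omega) hαβ.symm
        exact ⟨⟨h, hh⟩, e1, e2⟩
      · rintro β ⟨h, rfl⟩
        rcases Nat.lt_or_ge (s ∩ g • s).card 2 with hlt | hge
        · have hk1' : (s ∩ g • s).card = 1 := by omega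
          rw [hk1']
          exact tri1_conn s _ hs (hcard h)
        · have hk2 : (s ∩ g • s).card = 2 := by omega
          rw [hk2]
          exact johnson_conn 3 s (h • s) hs (hcard h)

end Cfsg.Agent.S1564
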