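import Mathlib
import Cfsg.Statements.S1565
import Cfsg.Agent.Lib.Helper12.OctadOrb4
import Cfsg.Agent.Lib.Helper12.OrbCount

set_option autoImplicit false
open scoped Pointwise
open Cfsg

namespace Cfsg.Agent.S1565

open Cfsg.Agent.Lib.Helper12 Cfsg.Agent.Lib.Helper4 Cfsg.Agent.Lib.Helper4.Golay

/-- The stabiliser of an octad is a maximal proper subgroup of the group of the length-24 code. -/
theorem result (o : Finset Cfsg.GolayPt) (ho : o ∈ Cfsg.octads) : IsCoatom (MulAction.stabilizer Cfsg.M24 o) := by
  classical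
  have hB := Cfsg.Agent.S0363.result
  have hα := card_pts
  apply isCoatom_stabilizer_of_card o 759 (by rw [orbit_oct ho, ncard_octads]) (by norm_num)
  intro S hS1 hS2 hS3 hS4
  rw [orbit_oct ho] at hS1 ⊢
  set S' : Finset (Finset GolayPt) := (Steiner.blocks octads).filter (· ∈ S) with hS'
  have hS'mem : ∀ q, q ∈ S' ↔ q ∈ S := by
    intro q
    rw [hS', Finset.mem_filter, Steiner.mem_blocks]
    exact ⟨fun h => h.2, fun h => ⟨hS1 h, h⟩⟩
  have hScoe : S = ↑S' := by
    ext q
    rw [Finset.mem_coe, hS'mem]
  have hcard : S.ncard = S'.card := by rw [hScoe, Set.ncard_coe_finset]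
  have hcls : ∀ j, (∃ q ∈ S, (q ∩ o).card = j) → ∀ q ∈ octads, (q ∩ o).card = j → q ∈ S := by
    rintro j ⟨q0, hq0, hj0⟩ q hq hj
    obtain ⟨g, hg, e1, e2⟩ := octad_orbits o q0 q ho (hS1 hq0) hq
      (by rw [Finset.inter_comm, hj0, Finset.inter_comm, hj])
    have h3 := hS3 ⟨g, hg⟩ (MulAction.mem_stabilizer_iff.2 e1) q0 hq0
    rw [← e2]
    exact h3
  have hfib := Finset.card_eq_sum_card_fiberwise (f := fun q : Finset GolayPt => (q ∩ o).card)
    (s := S') (t := Finset.range 9) (fun q hq => by
      show (q ∩ o).card ∈ ((Finset.range 9 : Finset ℕ) : Set ℕ)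
      rw [Finset.mem_coe, Finset.mem_range]
      have := Finset.card_le_card (Finset.inter_subset_right : q ∩ o ⊆ o)
      rw [ho.2] at this
      omega)
  simp only [Finset.sum_range_succ, Finset.sum_range_zero] at hfib
  have hempty : ∀ j, j ≠ 0 → j ≠ 2 → j ≠ 4 → j ≠ 8 →
      (S'.filter (fun q => (q ∩ o).card = j)).card = 0 := by
    intro j h0 h2 h4 h8
    rw [Finset.card_eq_zero, Finset.filter_eq_empty_iff]
    intro q hq hj
    have hqo := hS1 ((hS'mem q).1 hq)
    by_cases hqo' : q = o
    · rw [hqo', Finset.inter_self, ho.2] at hj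
      exact h8 hj.symm
    · have := Cfsg.Agent.S0352.result hα hB hqo ho hqo'
      omega
  have h8 : (S'.filter (fun q => (q ∩ o).card = 8)).card = 1 := by
    rw [Finset.card_eq_one]
    refine ⟨o, ?_⟩
    ext q
    rw [Finset.mem_filter, Finset.mem_singleton, hS'mem]
    constructor
    · rintro ⟨hq, hj⟩
      exact octad_eq_of_five (hS1 hq) ho (by omega)
    · rintro rfl
      exact ⟨hS2, by rw [Finset.inter_self, ho.2]⟩
  have hfull : ∀ j c, Steiner.cnt octads ∅ o j = c →
      (S'.filter (fun q => (q ∩ o).card = j)).card = 0 ∨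
      ((S'.filter (fun q => (q ∩ o).card = j)).card = c ∧
        (∀ q ∈ octads, (q ∩ o).card = j → q ∈ S)) := by
    intro j c hc
    by_cases hex : ∃ q ∈ S, (q ∩ o).card = j
    · right
      have hall := hcls j hex
      refine ⟨?_, hall⟩
      rw [← hc]
      unfold Steiner.cnt
      congr 1
      ext q
      rw [Finset.mem_filter, hS'mem, Finset.mem_filter, Steiner.mem_blocks]
      constructor
      · rintro ⟨hq, hj⟩
        exact ⟨hS1 hq, Finset.empty_subset _, hj⟩
      · rintro ⟨hq, -, hj⟩
        exact ⟨hall q hq hj, hj⟩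
    · left
      rw [Finset.card_eq_zero, Finset.filter_eq_empty_iff]
      intro q hq hj
      exact hex ⟨q, (hS'mem q).1 hq, hj⟩
  have c := Steiner.s5824 hα hB ho
  have f0 := hfull 0 30 c.1
  have f2 := hfull 2 448 c.2.2.1
  have f4 := hfull 4 280 c.2.2.2.2
  rw [hempty 1 (by norm_num) (by norm_num) (by norm_num) (by norm_num),
    hempty 3 (by norm_num) (by norm_num) (by norm_num) (by norm_num),
    hempty 5 (by norm_num) (by norm_num) (by norm_num) (by norm_num),
    hempty 6 (by norm_num) (by norm_num) (by norm_num) (by norm_num),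
    hempty 7 (by norm_num) (by norm_num) (by norm_num) (by norm_num), h8] at hfib
  rw [hcard, hfib] at hS4
  rcases f0 with a0 | ⟨a0, b0⟩
  · rcases f2 with a2 | ⟨a2, b2⟩
    · rcases f4 with a4 | ⟨a4, b4⟩
      · left
        rw [a0, a2, a4] at hfib
        have h1 : S'.card = 1 := by omega
        obtain ⟨w, hw⟩ := Finset.card_eq_one.1 h1
        have how : o ∈ S' := (hS'mem o).2 hS2
        rw [hw, Finset.mem_singleton] at how
        rw [hScoe, hw, how]
        simp
      · exfalso
        rw [a0, a2, a4] at hS4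
        norm_num at hS4
    · rcases f4 with a4 | ⟨a4, b4⟩
      · exfalso
        rw [a0, a2, a4] at hS4
        norm_num at hS4
      · exfalso
        rw [a0, a2, a4] at hS4
        norm_num at hS4
  · rcases f2 with a2 | ⟨a2, b2⟩
    · rcases f4 with a4 | ⟨a4, b4⟩
      · exfalso
        rw [a0, a2, a4] at hS4
        norm_num at hS4
      · exfalso
        rw [a0, a2, a4] at hS4
        norm_num at hS4
    · rcases f4 with a4 | ⟨a4, b4⟩
      · exfalso
        rw [a0, a2, a4] at hS4
        norm_num at hS4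
      · right
        apply Set.Subset.antisymm hS1
        intro q hq
        by_cases hqo : q = o
        · rw [hqo]; exact hS2
        · rcases Cfsg.Agent.S0352.result hα hB hq ho hqo with h | h | h
          · exact b0 q hq h
          · exact b2 q hq h
          · exact b4 q hq h

end Cfsg.Agent.S1565
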