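import Cfsg.Statements.S1566
import Cfsg.Agent.Lib.Helper4.Rk6
import Cfsg.Agent.S1561

set_option autoImplicit false
open scoped Pointwise
open Cfsg

namespace Cfsg.Agent.S1566

open Cfsg.Agent.Lib.Helper4 Cfsg.Agent.Lib.Helper4.Golay in

/-- The setwise stabiliser of a dodecad together with its complement is a maximal proper subgroup of the group of the length-24 code. -/
theorem result (d : Finset Cfsg.GolayPt) (hd : d ∈ Cfsg.dodecads) : IsCoatom (MulAction.stabilizer Cfsg.M24 ({d, dᶜ} : Finset (Finset Cfsg.GolayPt))) := by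
  classical
  have hdc : dᶜ ∈ dodecads := Rk.compl_dod hd
  have memK : ∀ g : ↥M24, g ∈ MulAction.stabilizer M24 ({d, dᶜ} : Finset (Finset GolayPt)) ↔
      ((g : Equiv.Perm GolayPt) • d = d ∨ (g : Equiv.Perm GolayPt) • d = dᶜ) := by
    intro g
    rw [MulAction.mem_stabilizer_iff]
    have e : g • ({d, dᶜ} : Finset (Finset GolayPt))
        = {(g : Equiv.Perm GolayPt) • d, ((g : Equiv.Perm GolayPt) • d)ᶜ} := by
      show (g : Equiv.Perm GolayPt) • ({d, dᶜ} : Finset (Finset GolayPt)) = _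
      rw [Finset.smul_finset_insert, Finset.smul_finset_singleton, Rk.smul_compl]
    rw [e]
    constructor
    · intro h
      have : (g : Equiv.Perm GolayPt) • d ∈ ({d, dᶜ} : Finset (Finset GolayPt)) := by
        rw [← h]
        exact Finset.mem_insert_self _ _
      rw [Finset.mem_insert, Finset.mem_singleton] at this
      exact this
    · rintro (h | h)
      · rw [h]
      · rw [h, compl_compl, Finset.pair_comm]
  refine ⟨?_, fun H hH => ?_⟩
  · -- the stabiliser is proper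
    obtain ⟨d1, hd1, y, hy, e1, e2, e3⟩ := Rk.dod_wit46 hd
    obtain ⟨g, hg, eg⟩ := dod_trans hd hd1
    intro htop
    have hmem : (⟨g, hg⟩ : ↥M24) ∈ MulAction.stabilizer M24 ({d, dᶜ} : Finset (Finset GolayPt)) := by
      rw [htop]
      exact Subgroup.mem_top _
    rcases (memK _).1 hmem with h | h
    · have h' : d1 = d := by rw [← eg]; exact h
      rw [h', Finset.inter_self, hd.2] at e1
      omega
    · have h' : d1 = dᶜ := by rw [← eg]; exact h
      rw [h'] at e1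
      simp at e1
  · obtain ⟨hKH, h, hhH, hhK⟩ := SetLike.lt_iff_le_and_exists.1 hH
    have hd' : (h : Equiv.Perm GolayPt) • d ∈ dodecads := smul_mem_weight h.2 hd
    have hne1 : (h : Equiv.Perm GolayPt) • d ≠ d := fun e => hhK ((memK h).2 (Or.inl e))
    have hne2 : (h : Equiv.Perm GolayPt) • d ≠ dᶜ := fun e => hhK ((memK h).2 (Or.inr e))
    obtain ⟨c, hc, ec⟩ := dod_trans hd hdc
    have hcH : (⟨c, hc⟩ : ↥M24) ∈ H := hKH ((memK _).2 (Or.inr ec))
    have P1 : ∃ g : ↥M24, g ∈ H ∧ (g : Equiv.Perm GolayPt) • d = d :=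
      ⟨1, H.one_mem, one_smul _ _⟩
    have P4 : ∀ x : Finset GolayPt, (∃ g : ↥M24, g ∈ H ∧ (g : Equiv.Perm GolayPt) • d = x) →
        ∀ g : ↥M24, g ∈ H → ∃ g' : ↥M24, g' ∈ H ∧ (g' : Equiv.Perm GolayPt) • d
          = (g : Equiv.Perm GolayPt) • x := by
      rintro x ⟨g1, hg1, rfl⟩ g hg
      exact ⟨g * g1, H.mul_mem hg hg1, by rw [Subgroup.coe_mul, mul_smul]⟩
    have P3 : ∀ x : Finset GolayPt, (∃ g : ↥M24, g ∈ H ∧ (g : Equiv.Perm GolayPt) • d = x) →
        ∃ g : ↥M24, g ∈ H ∧ (g : Equiv.Perm GolayPt) • d = xᶜ := by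
      rintro x ⟨g1, hg1, rfl⟩
      refine ⟨g1 * ⟨c, hc⟩, H.mul_mem hg1 hcH, ?_⟩
      rw [Subgroup.coe_mul, mul_smul]
      show (g1 : Equiv.Perm GolayPt) • c • d = _
      rw [ec, Rk.smul_compl]
    have Ktr : ∀ y ∈ dodecads, ∀ y' ∈ dodecads, (d ∩ y).card = (d ∩ y').card →
        (∃ g : ↥M24, g ∈ H ∧ (g : Equiv.Perm GolayPt) • d = y) →
        ∃ g : ↥M24, g ∈ H ∧ (g : Equiv.Perm GolayPt) • d = y' := by
      intro y hy y' hy' e hyΩ
      obtain ⟨g, hg, gd, gy⟩ := Cfsg.Agent.S1561.result d y y' hd hy hy' e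
      have hgH : (⟨g, hg⟩ : ↥M24) ∈ H := hKH ((memK _).2 (Or.inl gd))
      obtain ⟨g', hg', e'⟩ := P4 y hyΩ ⟨g, hg⟩ hgH
      exact ⟨g', hg', e'.trans gy⟩
    have P2 : ∀ x : Finset GolayPt, (∃ g : ↥M24, g ∈ H ∧ (g : Equiv.Perm GolayPt) • d = x) →
        ∀ y ∈ dodecads, (x ∩ y).card = (d ∩ (h : Equiv.Perm GolayPt) • d).card →
        ∃ g : ↥M24, g ∈ H ∧ (g : Equiv.Perm GolayPt) • d = y := by
      rintro x ⟨g1, hg1, rfl⟩ y hy e
      have hy1 : (g1 : Equiv.Perm GolayPt)⁻¹ • y ∈ dodecads :=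
        smul_mem_weight (M24.inv_mem g1.2) hy
      have e1 : (d ∩ (g1 : Equiv.Perm GolayPt)⁻¹ • y).card
          = (d ∩ (h : Equiv.Perm GolayPt) • d).card := by
        rw [← e, ← Rk.card_inter_smul (g1 : Equiv.Perm GolayPt) d, smul_inv_smul]
      obtain ⟨g2, hg2, e2⟩ := Ktr _ hd' _ hy1 e1.symm ⟨h, hhH, rfl⟩
      obtain ⟨g3, hg3, e3⟩ := P4 _ ⟨g2, hg2, e2⟩ g1 hg1
      exact ⟨g3, hg3, by rw [e3, smul_inv_smul]⟩
    have Ck : ∀ y ∈ dodecads, (d ∩ y).card = (d ∩ (h : Equiv.Perm GolayPt) • d).card →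
        ∃ g : ↥M24, g ∈ H ∧ (g : Equiv.Perm GolayPt) • d = y := fun y hy e => P2 d P1 y hy e
    have Wstep : ∀ b, (∃ d1 ∈ dodecads, ∃ y ∈ dodecads,
        (d ∩ d1).card = (d ∩ (h : Equiv.Perm GolayPt) • d).card ∧
        (d1 ∩ y).card = (d ∩ (h : Equiv.Perm GolayPt) • d).card ∧ (d ∩ y).card = b) →
        ∀ y' ∈ dodecads, (d ∩ y').card = b →
        ∃ g : ↥M24, g ∈ H ∧ (g : Equiv.Perm GolayPt) • d = y' := by
      rintro b ⟨d1, hd1, y, hy, e1, e2, e3⟩ y' hy' e'
      exact Ktr y hy y' hy' (e3.trans e'.symm) (P2 d1 (Ck d1 hd1 e1) y hy e2)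
    have k0 : (d ∩ (h : Equiv.Perm GolayPt) • d).card ≠ 0 :=
      fun e => hne2 (Rk.eq_compl_of_inter_zero hd hd' e)
    have k12 : (d ∩ (h : Equiv.Perm GolayPt) • d).card ≠ 12 :=
      fun e => hne1 (Rk.eq_of_inter_twelve hd hd' e)
    have C4 : ∀ y ∈ dodecads, (d ∩ y).card = 4 →
        ∃ g : ↥M24, g ∈ H ∧ (g : Equiv.Perm GolayPt) • d = y := by
      intro y hy e
      rcases Rk.dod_inter hd hd' with k | k | k | k | k
      · exact absurd k k0
      · exact Ck y hy (e.trans k.symm)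
      · exact Wstep 4 (by rw [k]; exact Rk.dod_wit64 hd) y hy e
      · have h1 : (d ∩ yᶜ).card = (d ∩ (h : Equiv.Perm GolayPt) • d).card := by
          have := Rk.card_inter_compl (y := y) hd
          omega
        have := P3 _ (Ck yᶜ (Rk.compl_dod hy) h1)
        rwa [compl_compl] at this
      · exact absurd k k12
    have C6 : ∀ y ∈ dodecads, (d ∩ y).card = 6 →
        ∃ g : ↥M24, g ∈ H ∧ (g : Equiv.Perm GolayPt) • d = y := by
      intro y hy e
      rcases Rk.dod_inter hd hd' with k | k | k | k | k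
      · exact absurd k k0
      · exact Wstep 6 (by rw [k]; exact Rk.dod_wit46 hd) y hy e
      · exact Ck y hy (e.trans k.symm)
      · exact Wstep 6 (by rw [k]; exact Rk.dod_wit86 hd) y hy e
      · exact absurd k k12
    have hall : ∀ y ∈ dodecads, ∃ g : ↥M24, g ∈ H ∧ (g : Equiv.Perm GolayPt) • d = y := by
      intro y hy
      rcases Rk.dod_inter hd hy with e | e | e | e | e
      · rw [Rk.eq_compl_of_inter_zero hd hy e]
        exact P3 d P1
      · exact C4 y hy e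
      · exact C6 y hy e
      · have h1 : (d ∩ yᶜ).card = 4 := by
          have := Rk.card_inter_compl (y := y) hd
          omega
        have := P3 _ (C4 yᶜ (Rk.compl_dod hy) h1)
        rwa [compl_compl] at this
      · rw [Rk.eq_of_inter_twelve hd hy e]
        exact P1
    rw [eq_top_iff]
    intro g _
    obtain ⟨g', hg', e'⟩ := hall _ (smul_mem_weight g.2 hd)
    have h1 : g'⁻¹ * g ∈ H := by
      apply hKH
      rw [memK]
      left
      rw [Subgroup.coe_mul, Subgroup.coe_inv, mul_smul, ← e', inv_smul_smul]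
    have := H.mul_mem hg' h1
    rwa [mul_inv_cancel_left] at this

end Cfsg.Agent.S1566
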