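import Cfsg.Statements.S1581
import Cfsg.Agent.S0403
import Cfsg.Agent.Lib.Helper28.OctStab2

set_option autoImplicit false
open Cfsg

namespace Cfsg.Agent.S1581

open Cfsg.Agent.Lib.Helper28 Cfsg.Agent.Lib.Helper4
open Cfsg.Agent.Lib.Helper4.Stv
open Cfsg.Agent.S1584 Cfsg.Agent.S1571 Cfsg.Agent.S1634 Cfsg.Agent.S1580 Cfsg.Agent.S0403
open scoped Pointwise

/-- Octads through three points are permuted transitively by the stabiliser of the three
points. -/
theorem octad_in3 (o o' : Finset GolayPt) (ho : o ∈ octads) (ho' : o' ∈ octads)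
    (p q r : GolayPt) (hpq : p ≠ q) (hpr : p ≠ r) (hqr : q ≠ r)
    (hp : p ∈ o) (hq : q ∈ o) (hr : r ∈ o) (hp' : p ∈ o') (hq' : q ∈ o') (hr' : r ∈ o') :
    ∃ g ∈ M24, g p = p ∧ g q = q ∧ g r = r ∧ g • o = o' := by
  classical
  have hS : (((o.erase p).erase q).erase r).card = 5 := by
    rw [Finset.card_erase_of_mem (Finset.mem_erase.2 ⟨Ne.symm hqr,
        Finset.mem_erase.2 ⟨Ne.symm hpr, hr⟩⟩),
      Finset.card_erase_of_mem (Finset.mem_erase.2 ⟨Ne.symm hpq, hq⟩),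
      Finset.card_erase_of_mem hp, ho.2]
  have hS2 : (((o'.erase p).erase q).erase r).card = 5 := by
    rw [Finset.card_erase_of_mem (Finset.mem_erase.2 ⟨Ne.symm hqr,
        Finset.mem_erase.2 ⟨Ne.symm hpr, hr'⟩⟩),
      Finset.card_erase_of_mem (Finset.mem_erase.2 ⟨Ne.symm hpq, hq'⟩),
      Finset.card_erase_of_mem hp', ho'.2]
  obtain ⟨d1, hd1, d2, hd2, hd⟩ := pick2 _ (by rw [hS]; norm_num)
  obtain ⟨e1, he1, e2, he2, he⟩ := pick2 _ (by rw [hS2]; norm_num)
  simp only [Finset.mem_erase] at hd1 hd2 he1 he2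
  have nd : [p, q, r, d1, d2].Nodup :=
    nodup5 p q r d1 d2 hpq hpr (Ne.symm hd1.2.2.1) (Ne.symm hd2.2.2.1) hqr (Ne.symm hd1.2.1)
      (Ne.symm hd2.2.1) (Ne.symm hd1.1) (Ne.symm hd2.1) hd
  have ne : [p, q, r, e1, e2].Nodup :=
    nodup5 p q r e1 e2 hpq hpr (Ne.symm he1.2.2.1) (Ne.symm he2.2.2.1) hqr (Ne.symm he1.2.1)
      (Ne.symm he2.2.1) (Ne.symm he1.1) (Ne.symm he2.1) he
  obtain ⟨g, hg, gp, gq, gr, gd1, gd2⟩ := map5 p q r d1 d2 p q r e1 e2 nd ne
  refine ⟨g, hg, gp, gq, gr, ?_⟩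
  apply octad_of_five hg ho ho' [p, q, r, d1, d2].toFinset (list5_card _ _ _ _ _ nd)
  · intro x hx
    simp only [List.mem_toFinset, List.mem_cons, List.not_mem_nil, or_false] at hx
    rcases hx with h | h | h | h | h
    · rw [h]; exact hp
    · rw [h]; exact hq
    · rw [h]; exact hr
    · rw [h]; exact hd1.2.2.2
    · rw [h]; exact hd2.2.2.2
  · intro x hx
    simp only [List.mem_toFinset, List.mem_cons, List.not_mem_nil, or_false] at hx
    rcases hx with h | h | h | h | h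
    · rw [h, gp]; exact hp'
    · rw [h, gq]; exact hq'
    · rw [h, gr]; exact hr'
    · rw [h, gd1]; exact he1.2.2.2
    · rw [h, gd2]; exact he2.2.2.2

/-- Octads through two points and avoiding a third are permuted transitively by the stabiliser
of the three points. -/
theorem octad_in2_out1 (o o' : Finset GolayPt) (ho : o ∈ octads) (ho' : o' ∈ octads)
    (p q r : GolayPt) (hpq : p ≠ q)
    (hp : p ∈ o) (hq : q ∈ o) (hr : r ∉ o) (hp' : p ∈ o') (hq' : q ∈ o') (hr' : r ∉ o') :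
    ∃ g ∈ M24, g p = p ∧ g q = q ∧ g r = r ∧ g • o = o' := by
  obtain ⟨g1, hg1, g1p, g1q, e1⟩ := octad_pq o o' ho ho' p q hpq hp hq hp' hq'
  have h1 : g1 r ∉ o' := by
    rw [← e1]
    exact OctStab.not_mem_smul hr
  obtain ⟨s, hs, sfix, sr⟩ := oct_fix_trans o' ho' (g1 r) r h1 hr'
  refine ⟨s * g1, Subgroup.mul_mem _ hs hg1, ?_, ?_, ?_, ?_⟩
  · rw [Equiv.Perm.mul_apply, g1p, sfix p hp']
  · rw [Equiv.Perm.mul_apply, g1q, sfix q hq']
  · rw [Equiv.Perm.mul_apply, sr]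
  · rw [mul_smul, e1]
    exact OctStab.smul_eq_of_maps (fun x hx => by rw [sfix x hx]; exact hx)

/-- Octads through one point and avoiding two others are permuted transitively by the
stabiliser of the three points. -/
theorem octad_in1_out2 (o o' : Finset GolayPt) (ho : o ∈ octads) (ho' : o' ∈ octads)
    (p q r : GolayPt) (hqr : q ≠ r)
    (hp : p ∈ o) (hq : q ∉ o) (hr : r ∉ o) (hp' : p ∈ o') (hq' : q ∉ o') (hr' : r ∉ o') :
    ∃ g ∈ M24, g p = p ∧ g q = q ∧ g r = r ∧ g • o = o' := by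
  obtain ⟨g1, hg1, g1p, g1q, e1⟩ := octad_p_notq o o' ho ho' p q hp hp' hq hq'
  have h1 : g1 r ∉ o' := by
    rw [← e1]
    exact OctStab.not_mem_smul hr
  have h2 : g1 r ≠ q := by
    intro h
    have h' : g1 r = g1 q := by rw [h, g1q]
    exact hqr (g1.injective h').symm
  obtain ⟨s, hs, so, sp, sq, sr⟩ := OctStab2.oct_in_out_trans o' ho' p q (g1 r) r hp' hq' h1 hr'
    h2 (Ne.symm hqr)
  refine ⟨s * g1, Subgroup.mul_mem _ hs hg1, ?_, ?_, ?_, ?_⟩
  · rw [Equiv.Perm.mul_apply, g1p, sp]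
  · rw [Equiv.Perm.mul_apply, g1q, sq]
  · rw [Equiv.Perm.mul_apply, sr]
  · rw [mul_smul, e1, so]

theorem exists_O56 (p q r : GolayPt) (hpq : p ≠ q) (hpr : p ≠ r) (hqr : q ≠ r) :
    ∃ F : Finset (Finset GolayPt), F.card = 56 ∧
    ∀ o, o ∈ F ↔ (o ∈ octads ∧ p ∈ o ∧ q ∈ o ∧ r ∉ o) := by
  have h77 := (Steiner.s5824_deg card_golayPt Cfsg.Agent.S0363.result
    ({p, q} : Finset GolayPt)).2.2.1 (Finset.card_pair hpq)
  have h21 := (Steiner.s5824_deg card_golayPt Cfsg.Agent.S0363.result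
    ({p, q, r} : Finset GolayPt)).2.2.2.1 (by
      rw [Finset.card_insert_of_notMem (by simp [hpq, hpr]), Finset.card_pair hqr])
  unfold Steiner.deg at h77 h21
  refine ⟨((Steiner.blocks octads).filter (({p, q} : Finset GolayPt) ⊆ ·)).filter
    (fun o => ¬ r ∈ o), ?_, ?_⟩
  · have h := Finset.card_filter_add_card_filter_not
      (s := (Steiner.blocks octads).filter (({p, q} : Finset GolayPt) ⊆ ·)) (fun o => r ∈ o)
    have e : ((Steiner.blocks octads).filter (({p, q} : Finset GolayPt) ⊆ ·)).filter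
        (fun o => r ∈ o) = (Steiner.blocks octads).filter (({p, q, r} : Finset GolayPt) ⊆ ·) := by
      ext o
      simp only [Finset.mem_filter, Finset.insert_subset_iff, Finset.singleton_subset_iff]
      tauto
    rw [e, h21, h77] at h
    omega
  · intro o
    rw [Finset.mem_filter, Finset.mem_filter, Steiner.mem_blocks, Finset.insert_subset_iff,
      Finset.singleton_subset_iff]
    tauto

/-- Same orbit under the joint stabiliser of the two standard vectors and a third one. -/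
def RelM3 (c : GolayPt) (y y' : ↥leechLattice) : Prop :=
  ∃ g : ↥Co0, g • v0 = v0 ∧ g • vStar = vStar ∧ g • pA c = pA c ∧ g • y = y'

theorem RelM3.symm {c : GolayPt} {y y' : ↥leechLattice} (h : RelM3 c y y') : RelM3 c y' y := by
  obtain ⟨g, h1, h2, h3, h4⟩ := h
  refine ⟨g⁻¹, ?_, ?_, ?_, ?_⟩
  · rw [inv_smul_eq_iff, h1]
  · rw [inv_smul_eq_iff, h2]
  · rw [inv_smul_eq_iff, h3]
  · rw [inv_smul_eq_iff, h4]

theorem RelM3.trans {c : GolayPt} {y y' y'' : ↥leechLattice} (h : RelM3 c y y')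
    (h' : RelM3 c y' y'') : RelM3 c y y'' := by
  obtain ⟨g, h1, h2, h3, h4⟩ := h
  obtain ⟨g', h1', h2', h3', h4'⟩ := h'
  exact ⟨g' * g, by rw [mul_smul, h1, h1'], by rw [mul_smul, h2, h2'],
    by rw [mul_smul, h3, h3'], by rw [mul_smul, h4, h4']⟩

theorem relM3_prm (c : GolayPt) (π : Equiv.Perm GolayPt) (hπ : π ∈ M24) (πa : π a = a)
    (πb : π b = b) (πc : π c = c) (y y' : ↥leechLattice)
    (h : ∀ k, (y' : GolayPt → ℤ) k = (y : GolayPt → ℤ) (π k)) : RelM3 c y y' := by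
  refine ⟨⟨CoA.prmP π hπ, CoA.prmP_mem π hπ⟩, prm_v0 π hπ πa, prm_vStar π hπ πa πb, ?_, ?_⟩
  · apply Subtype.ext
    funext k
    show ((CoA.prmP π hπ (pA c) : leechLattice) : GolayPt → ℤ) k =
      ((pA c : leechLattice) : GolayPt → ℤ) k
    rw [CoA.prmP_apply]
    show LeechGen.pp a c 4 (π k) = LeechGen.pp a c 4 k
    unfold LeechGen.pp
    have e1 : (π k = a) ↔ (k = a) := by
      constructor
      · intro h
        apply π.injective
        rw [h, πa]
      · intro h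
        rw [h, πa]
    have e2 : (π k = c) ↔ (k = c) := by
      constructor
      · intro h
        apply π.injective
        rw [h, πc]
      · intro h
        rw [h, πc]
    simp only [e1, e2]
  · apply Subtype.ext
    funext k
    show ((CoA.prmP π hπ y : leechLattice) : GolayPt → ℤ) k = (y' : GolayPt → ℤ) k
    rw [CoA.prmP_apply]
    exact (h k).symm

theorem dot_pA (c : GolayPt) (t : GolayPt → ℤ) :
    dotInt ((pA c : ↥leechLattice) : GolayPt → ℤ) t = 4 * t a + 4 * t c := by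
  rw [LeechCross.dot_comm]
  exact dot_pp t c

theorem ne_pA (c : GolayPt) (hca : c ≠ a) (y : ↥leechLattice)
    (h : (y : GolayPt → ℤ) c ≠ 4) : y ≠ pA c := by
  intro e
  apply h
  rw [e]
  exact pp_c c hca

/-- Two vectors of the standard set with the same coordinates at the first standard point and
at the third point are in the same orbit. -/
theorem rel_same3 (c : GolayPt) (hca : c ≠ a) (hcb : c ≠ b) (y y' : ↥leechLattice)
    (hy : InA (y : GolayPt → ℤ)) (hy' : InA (y' : GolayPt → ℤ))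
    (h : (y : GolayPt → ℤ) a = (y' : GolayPt → ℤ) a)
    (hc : (y : GolayPt → ℤ) c = (y' : GolayPt → ℤ) c)
    (hne : y ≠ pA c) (hne' : y' ≠ pA c) : RelM3 c y y' := by
  rcases std275 _ y.2 hy with ⟨i, hia, hib, hi⟩ | ⟨o, ho, hoa, hob, hxo⟩ | ⟨o, ho, hoa, hob, hxo⟩
  · have ea : (y : GolayPt → ℤ) a = 4 := by rw [← hi]; exact (pp_vals i hia hib).1
    rcases std275 _ y'.2 hy' with ⟨j, hja, hjb, hj⟩ | ⟨o', ho', hoa', hob', hxo'⟩ |
      ⟨o', ho', hoa', hob', hxo'⟩
    · have hic : i ≠ c := by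
        intro e
        apply hne
        apply Subtype.ext
        rw [← hi, e]
        rfl
      have hjc : j ≠ c := by
        intro e
        apply hne'
        apply Subtype.ext
        rw [← hj, e]
        rfl
      obtain ⟨π, hπ, πa, πb, πc, πj⟩ := map4 a b c j a b c i
        (by simp [ab, Ne.symm hca, Ne.symm hcb, Ne.symm hja, Ne.symm hjb, Ne.symm hjc])
        (by simp [ab, Ne.symm hca, Ne.symm hcb, Ne.symm hia, Ne.symm hib, Ne.symm hic])
      apply relM3_prm c π hπ πa πb πc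
      intro k
      rw [← hi, ← hj]
      unfold LeechGen.pp
      have e1 : (π k = a) ↔ (k = a) := by
        constructor
        · intro h
          apply π.injective
          rw [h, πa]
        · intro h
          rw [h, πa]
      have e2 : (π k = i) ↔ (k = j) := by
        constructor
        · intro h
          apply π.injective
          rw [h, πj]
        · intro h
          rw [h, πj]
      simp only [e1, e2]
    · exfalso
      have e2 := (inA_oct o' ho' hoa' hob').2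
      rw [hxo'] at e2
      omega
    · exfalso
      have e2 := qF_a o' hoa'
      rw [hxo'] at e2
      omega
  · have ea : (y : GolayPt → ℤ) a = 2 := by rw [← hxo]; exact (inA_oct o ho hoa hob).2
    rcases std275 _ y'.2 hy' with ⟨j, hja, hjb, hj⟩ | ⟨o', ho', hoa', hob', hxo'⟩ |
      ⟨o', ho', hoa', hob', hxo'⟩
    · exfalso
      have e2 := (pp_vals j hja hjb).1
      rw [hj] at e2
      omega
    · have e1 : (y : GolayPt → ℤ) c = if c ∈ o then 2 else 0 := (congrFun hxo c).symm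
      have e2 : (y' : GolayPt → ℤ) c = if c ∈ o' then 2 else 0 := (congrFun hxo' c).symm
      have hcc : c ∈ o ↔ c ∈ o' := by
        constructor
        · intro hin
          by_contra hnin
          rw [if_pos hin] at e1
          rw [if_neg hnin] at e2
          omega
        · intro hin
          by_contra hnin
          rw [if_neg hnin] at e1
          rw [if_pos hin] at e2
          omega
      have key : ∃ π ∈ M24, π a = a ∧ π b = b ∧ π c = c ∧ π • o' = o := by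
        by_cases hin : c ∈ o
        · exact octad_in3 o' o ho' ho a b c ab (Ne.symm hca) (Ne.symm hcb) hoa' hob'
            (hcc.1 hin) hoa hob hin
        · exact octad_in2_out1 o' o ho' ho a b c ab hoa' hob' (fun h => hin (hcc.2 h)) hoa hob
            hin
      obtain ⟨π, hπ, πa, πb, πc, πo⟩ := key
      apply relM3_prm c π hπ πa πb πc
      intro k
      rw [← hxo, ← hxo']
      unfold octF
      have e3 : (π k ∈ o) ↔ (k ∈ o') := by
        rw [← πo, ← Equiv.Perm.smul_def, Finset.smul_mem_smul_finset_iff]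
      simp only [e3]
    · exfalso
      have e2 := qF_a o' hoa'
      rw [hxo'] at e2
      omega
  · have ea : (y : GolayPt → ℤ) a = 3 := by rw [← hxo]; exact qF_a o hoa
    rcases std275 _ y'.2 hy' with ⟨j, hja, hjb, hj⟩ | ⟨o', ho', hoa', hob', hxo'⟩ |
      ⟨o', ho', hoa', hob', hxo'⟩
    · exfalso
      have e2 := (pp_vals j hja hjb).1
      rw [hj] at e2
      omega
    · exfalso
      have e2 := (inA_oct o' ho' hoa' hob').2
      rw [hxo'] at e2
      omega
    · have e1 : (y : GolayPt → ℤ) c = 1 - (if c ∈ o then 2 else 0) + (if c = a then 4 else 0) :=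
        (congrFun hxo c).symm
      have e2 : (y' : GolayPt → ℤ) c = 1 - (if c ∈ o' then 2 else 0) + (if c = a then 4 else 0) :=
        (congrFun hxo' c).symm
      have hcc : c ∈ o ↔ c ∈ o' := by
        constructor
        · intro hin
          by_contra hnin
          rw [if_pos hin] at e1
          rw [if_neg hnin] at e2
          omega
        · intro hin
          by_contra hnin
          rw [if_neg hnin] at e1
          rw [if_pos hin] at e2
          omega
      have key : ∃ π ∈ M24, π a = a ∧ π b = b ∧ π c = c ∧ π • o' = o := by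
        by_cases hin : c ∈ o
        · obtain ⟨π, hπ, πa, πc, πb, πo⟩ := octad_in2_out1 o' o ho' ho a c b (Ne.symm hca) hoa'
            (hcc.1 hin) hob' hoa hin hob
          exact ⟨π, hπ, πa, πb, πc, πo⟩
        · exact octad_in1_out2 o' o ho' ho a b c (Ne.symm hcb) hoa' hob'
            (fun h => hin (hcc.2 h)) hoa hob hin
      obtain ⟨π, hπ, πa, πb, πc, πo⟩ := key
      apply relM3_prm c π hπ πa πb πc
      intro k
      rw [← hxo, ← hxo']
      unfold qF octF
      have e3 : (π k ∈ o) ↔ (k ∈ o') := by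
        rw [← πo, ← Equiv.Perm.smul_def, Finset.smul_mem_smul_finset_iff]
      have e4 : (π k = a) ↔ (k = a) := by
        constructor
        · intro h
          apply π.injective
          rw [h, πa]
        · intro h
          rw [h, πa]
      simp only [e3, e4]

/-- Two vectors of the standard set with equal products with the third vector and with an
auxiliary vector of the set of 2025 are in the same orbit. -/
theorem lnk3 (c : GolayPt) (hca : c ≠ a) (hcb : c ≠ b) (z : ↥leechLattice)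
    (hz : InB (z : GolayPt → ℤ))
    (hzc : dotInt (z : GolayPt → ℤ) ((pA c : ↥leechLattice) : GolayPt → ℤ) = 16)
    (y y' : ↥leechLattice) (hy : InA (y : GolayPt → ℤ)) (hy' : InA (y' : GolayPt → ℤ))
    (hne : y ≠ pA c) (hne' : y' ≠ pA c)
    (hzy : dotInt (z : GolayPt → ℤ) (y : GolayPt → ℤ) =
      dotInt (z : GolayPt → ℤ) (y' : GolayPt → ℤ))
    (hcy : dotInt ((pA c : ↥leechLattice) : GolayPt → ℤ) (y : GolayPt → ℤ) =
      dotInt ((pA c : ↥leechLattice) : GolayPt → ℤ) (y' : GolayPt → ℤ)) : RelM3 c y y' := by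
  obtain ⟨z1, z2, z3⟩ := (inB_iff _).2 hz
  obtain ⟨G, G1, G2, G3⟩ := frame vStar wM z vStar_norm Cfsg.Agent.S0404.wM_norm
    Cfsg.Agent.S0404.vStar_wM z1 z2 z3
  have G0 : G • v0 = v0 := by
    rw [← vStar_add_wM, co_add, G1, G2]
  have tA : ∀ t : ↥leechLattice, InA (t : GolayPt → ℤ) →
      InA ((G • t : ↥leechLattice) : GolayPt → ℤ) := by
    intro t ht
    obtain ⟨t1, t2, t3⟩ := (inA_iff _).2 ht
    rw [← inA_iff]
    refine ⟨by rw [Cfsg.Agent.S1640.hnorm]; exact t1, ?_, ?_⟩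
    · have e := Cfsg.Agent.S1640.hdotp G v0 t
      rw [G0] at e
      rw [e]
      exact t2
    · have e := Cfsg.Agent.S1640.hdotp G vStar t
      rw [G1] at e
      rw [e]
      exact t3
  have ta : ∀ t : ↥leechLattice, InA (t : GolayPt → ℤ) →
      8 * ((G • t : ↥leechLattice) : GolayPt → ℤ) a =
        dotInt (z : GolayPt → ℤ) (t : GolayPt → ℤ) + 16 := by
    intro t ht
    have e := Cfsg.Agent.S1640.hdotp G z t
    rw [G3, Tri.dot_wA1] at e
    have h3 := (tA t ht).2.2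
    omega
  have hx0 : InA ((pA c : ↥leechLattice) : GolayPt → ℤ) := inA_pp c hca hcb
  have hGx : InA ((G • pA c : ↥leechLattice) : GolayPt → ℤ) := tA _ hx0
  have hGxa : ((G • pA c : ↥leechLattice) : GolayPt → ℤ) a = 4 := by
    have e := ta _ hx0
    rw [hzc] at e
    omega
  obtain ⟨c', hca', hcb', hc'⟩ : ∃ c', c' ≠ a ∧ c' ≠ b ∧ G • pA c = pA c' := by
    rcases std275 _ (G • pA c).2 hGx with ⟨i, hia, hib, hi⟩ | ⟨o, ho, hoa, hob, hxo⟩ |
      ⟨o, ho, hoa, hob, hxo⟩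
    · exact ⟨i, hia, hib, Subtype.ext hi.symm⟩
    · exfalso
      have e2 := (inA_oct o ho hoa hob).2
      rw [hxo] at e2
      omega
    · exfalso
      have e2 := qF_a o hoa
      rw [hxo] at e2
      omega
  have hGy := tA y hy
  have hGy' := tA y' hy'
  have e_a : ((G • y : ↥leechLattice) : GolayPt → ℤ) a =
      ((G • y' : ↥leechLattice) : GolayPt → ℤ) a := by
    have e1 := ta y hy
    have e2 := ta y' hy'
    omega
  have e_c : ((G • y : ↥leechLattice) : GolayPt → ℤ) c' =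
      ((G • y' : ↥leechLattice) : GolayPt → ℤ) c' := by
    have e1 := Cfsg.Agent.S1640.hdotp G (pA c) y
    have e2 := Cfsg.Agent.S1640.hdotp G (pA c) y'
    rw [hc'] at e1 e2
    have f1 := dot_pA c' ((G • y : ↥leechLattice) : GolayPt → ℤ)
    have f2 := dot_pA c' ((G • y' : ↥leechLattice) : GolayPt → ℤ)
    omega
  have hn : G • y ≠ pA c' := by
    intro e
    apply hne
    rw [← hc'] at e
    exact MulAction.injective G e
  have hn' : G • y' ≠ pA c' := by
    intro e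
    apply hne'
    rw [← hc'] at e
    exact MulAction.injective G e
  obtain ⟨g', g1, g2, g3, g4⟩ := rel_same3 c' hca' hcb' (G • y) (G • y') hGy hGy' e_a e_c hn hn'
  refine ⟨G⁻¹ * g' * G, ?_, ?_, ?_, ?_⟩
  · rw [mul_smul, mul_smul, G0, g1, inv_smul_eq_iff, G0]
  · rw [mul_smul, mul_smul, G1, g2, inv_smul_eq_iff, G1]
  · rw [mul_smul, mul_smul, hc', g3, inv_smul_eq_iff, hc']
  · rw [mul_smul, mul_smul, g4, inv_smul_smul]

/-- The third standard point. -/
def c0 : GolayPt := Golay.pt 0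

theorem c0a : c0 ≠ a := by decide

theorem c0b : c0 ≠ b := by decide

def zL : List ℤ := [2, -2, 0, 0, 0, 2, 2, 2, 0, 2, 2, 0, 0, 0, -2, 0, 0, 0, 0, 0, 0, 0, 0, 0]

def yB8L : List ℤ := [0, 0, 2, 2, 2, 2, 2, 0, 0, 2, 0, 0, 2, 0, 2, 0, 0, 0, 0, 0, 0, 0, 0, 0]

def yC8L : List ℤ := [-1, -1, -1, 1, 1, 3, -1, 1, 1, 1, 1, 1, -1, -1, 1, -1, 1, 1, 1, 1, 1, 1, 1,
  1]

def yA16L : List ℤ := [0, 0, 4, 0, 0, 4, 0, 0, 0, 0, 0, 0, 0, 0, 0, 0, 0, 0, 0, 0, 0, 0, 0, 0]

def yB16L : List ℤ := [2, 0, 2, 0, 0, 2, 0, 0, 2, 2, 0, 2, 0, 0, 2, 2, 0, 0, 0, 0, 0, 0, 0, 0]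

def yC16L : List ℤ := [1, -1, 1, 1, -1, 3, 1, -1, 1, -1, 1, 1, -1, -1, 1, 1, -1, 1, 1, 1, 1, 1, 1,
  1]

set_option maxRecDepth 100000 in
theorem z_chk : Xi.inD (fun k => 2 * Orb.vecL zL k) 0 18147 := by decide +kernel

set_option maxRecDepth 100000 in
theorem yB8_chk : Xi.inD (fun k => 2 * Orb.vecL yB8L k) 0 21116 := by decide +kernel

set_option maxRecDepth 100000 in
theorem yC8_chk : Xi.inD (fun k => 2 * Orb.vecL yC8L k) 1 45159 := by decide +kernel

set_option maxRecDepth 100000 in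
theorem yA16_chk : Xi.inD (fun k => 2 * Orb.vecL yA16L k) 0 0 := by decide +kernel

set_option maxRecDepth 100000 in
theorem yB16_chk : Xi.inD (fun k => 2 * Orb.vecL yB16L k) 0 52005 := by decide +kernel

set_option maxRecDepth 100000 in
theorem yC16_chk : Xi.inD (fun k => 2 * Orb.vecL yC16L k) 1 78514 := by decide +kernel

def zV : leechLattice := ⟨Orb.vecL zL, Orb.mem_of_double _ 0 18147 z_chk⟩

def yB8 : leechLattice := ⟨Orb.vecL yB8L, Orb.mem_of_double _ 0 21116 yB8_chk⟩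

def yC8 : leechLattice := ⟨Orb.vecL yC8L, Orb.mem_of_double _ 1 45159 yC8_chk⟩

def yA16 : leechLattice := ⟨Orb.vecL yA16L, Orb.mem_of_double _ 0 0 yA16_chk⟩

def yB16 : leechLattice := ⟨Orb.vecL yB16L, Orb.mem_of_double _ 0 52005 yB16_chk⟩

def yC16 : leechLattice := ⟨Orb.vecL yC16L, Orb.mem_of_double _ 1 78514 yC16_chk⟩

set_option maxRecDepth 100000 in
theorem z_props : (sqNorm (Orb.vecL zL) = 32 ∧ Orb.vecL zL a + Orb.vecL zL b = 0 ∧
    (∑ i, Orb.vecL zL i) + 4 * Orb.vecL zL a = 16) ∧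
    4 * Orb.vecL zL a + 4 * Orb.vecL zL c0 = 16 := by decide +kernel

set_option maxRecDepth 100000 in
theorem yB8_props : (sqNorm (Orb.vecL yB8L) = 32 ∧
    (∑ i, Orb.vecL yB8L i) + 4 * Orb.vecL yB8L a = 24 ∧
    Orb.vecL yB8L a + Orb.vecL yB8L b = 4) ∧ dotInt (Orb.vecL zL) (Orb.vecL yB8L) = 8 ∧
    Orb.vecL yB8L a = 2 ∧ Orb.vecL yB8L c0 = 0 := by decide +kernel

set_option maxRecDepth 100000 in
theorem yC8_props : (sqNorm (Orb.vecL yC8L) = 32 ∧
    (∑ i, Orb.vecL yC8L i) + 4 * Orb.vecL yC8L a = 24 ∧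
    Orb.vecL yC8L a + Orb.vecL yC8L b = 4) ∧ dotInt (Orb.vecL zL) (Orb.vecL yC8L) = 8 ∧
    Orb.vecL yC8L a = 3 ∧ Orb.vecL yC8L c0 = -1 := by decide +kernel

set_option maxRecDepth 100000 in
theorem yA16_props : (sqNorm (Orb.vecL yA16L) = 32 ∧
    (∑ i, Orb.vecL yA16L i) + 4 * Orb.vecL yA16L a = 24 ∧
    Orb.vecL yA16L a + Orb.vecL yA16L b = 4) ∧ dotInt (Orb.vecL zL) (Orb.vecL yA16L) = 8 ∧
    Orb.vecL yA16L a = 4 ∧ Orb.vecL yA16L c0 = 0 := by decide +kernel

set_option maxRecDepth 100000 in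
theorem yB16_props : (sqNorm (Orb.vecL yB16L) = 32 ∧
    (∑ i, Orb.vecL yB16L i) + 4 * Orb.vecL yB16L a = 24 ∧
    Orb.vecL yB16L a + Orb.vecL yB16L b = 4) ∧ dotInt (Orb.vecL zL) (Orb.vecL yB16L) = 8 ∧
    Orb.vecL yB16L a = 2 ∧ Orb.vecL yB16L c0 = 2 := by decide +kernel

set_option maxRecDepth 100000 in
theorem yC16_props : (sqNorm (Orb.vecL yC16L) = 32 ∧
    (∑ i, Orb.vecL yC16L i) + 4 * Orb.vecL yC16L a = 24 ∧
    Orb.vecL yC16L a + Orb.vecL yC16L b = 4) ∧ dotInt (Orb.vecL zL) (Orb.vecL yC16L) = 8 ∧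
    Orb.vecL yC16L a = 3 ∧ Orb.vecL yC16L c0 = 1 := by decide +kernel

theorem zV_inB : InB ((zV : ↥leechLattice) : GolayPt → ℤ) := z_props.1

theorem zV_pA : dotInt ((zV : ↥leechLattice) : GolayPt → ℤ)
    ((pA c0 : ↥leechLattice) : GolayPt → ℤ) = 16 := by
  have e : dotInt ((zV : ↥leechLattice) : GolayPt → ℤ) (LeechGen.pp a c0 4) =
      4 * ((zV : ↥leechLattice) : GolayPt → ℤ) a + 4 * ((zV : ↥leechLattice) : GolayPt → ℤ) c0 :=
    dot_pp _ c0
  exact e.trans z_props.2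

/-- A vector of the standard set in the orbit of one of the two representatives. -/
theorem std3 (y : ↥leechLattice) (hy : InA (y : GolayPt → ℤ)) (hne : y ≠ pA c0) :
    (dotInt ((pA c0 : ↥leechLattice) : GolayPt → ℤ) (y : GolayPt → ℤ) = 8 ∧ RelM3 c0 y yB8) ∨
    (dotInt ((pA c0 : ↥leechLattice) : GolayPt → ℤ) (y : GolayPt → ℤ) = 16 ∧
      RelM3 c0 y yA16) := by
  have iB8 : InA ((yB8 : ↥leechLattice) : GolayPt → ℤ) := yB8_props.1
  have iC8 : InA ((yC8 : ↥leechLattice) : GolayPt → ℤ) := yC8_props.1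
  have iA16 : InA ((yA16 : ↥leechLattice) : GolayPt → ℤ) := yA16_props.1
  have iB16 : InA ((yB16 : ↥leechLattice) : GolayPt → ℤ) := yB16_props.1
  have iC16 : InA ((yC16 : ↥leechLattice) : GolayPt → ℤ) := yC16_props.1
  have aB8 : ((yB8 : ↥leechLattice) : GolayPt → ℤ) a = 2 := yB8_props.2.2.1
  have aC8 : ((yC8 : ↥leechLattice) : GolayPt → ℤ) a = 3 := yC8_props.2.2.1
  have aA16 : ((yA16 : ↥leechLattice) : GolayPt → ℤ) a = 4 := yA16_props.2.2.1
  have aB16 : ((yB16 : ↥leechLattice) : GolayPt → ℤ) a = 2 := yB16_props.2.2.1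
  have aC16 : ((yC16 : ↥leechLattice) : GolayPt → ℤ) a = 3 := yC16_props.2.2.1
  have cB8 : ((yB8 : ↥leechLattice) : GolayPt → ℤ) c0 = 0 := yB8_props.2.2.2
  have cC8 : ((yC8 : ↥leechLattice) : GolayPt → ℤ) c0 = -1 := yC8_props.2.2.2
  have cA16 : ((yA16 : ↥leechLattice) : GolayPt → ℤ) c0 = 0 := yA16_props.2.2.2
  have cB16 : ((yB16 : ↥leechLattice) : GolayPt → ℤ) c0 = 2 := yB16_props.2.2.2
  have cC16 : ((yC16 : ↥leechLattice) : GolayPt → ℤ) c0 = 1 := yC16_props.2.2.2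
  have zB8 : dotInt ((zV : ↥leechLattice) : GolayPt → ℤ) ((yB8 : ↥leechLattice) : GolayPt → ℤ)
      = 8 := yB8_props.2.1
  have zC8 : dotInt ((zV : ↥leechLattice) : GolayPt → ℤ) ((yC8 : ↥leechLattice) : GolayPt → ℤ)
      = 8 := yC8_props.2.1
  have zA16 : dotInt ((zV : ↥leechLattice) : GolayPt → ℤ) ((yA16 : ↥leechLattice) : GolayPt → ℤ)
      = 8 := yA16_props.2.1
  have zB16 : dotInt ((zV : ↥leechLattice) : GolayPt → ℤ) ((yB16 : ↥leechLattice) : GolayPt → ℤ)
      = 8 := yB16_props.2.1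
  have zC16 : dotInt ((zV : ↥leechLattice) : GolayPt → ℤ) ((yC16 : ↥leechLattice) : GolayPt → ℤ)
      = 8 := yC16_props.2.1
  have nB8 : yB8 ≠ pA c0 := ne_pA c0 c0a yB8 (by rw [cB8]; norm_num)
  have nC8 : yC8 ≠ pA c0 := ne_pA c0 c0a yC8 (by rw [cC8]; norm_num)
  have nA16 : yA16 ≠ pA c0 := ne_pA c0 c0a yA16 (by rw [cA16]; norm_num)
  have nB16 : yB16 ≠ pA c0 := ne_pA c0 c0a yB16 (by rw [cB16]; norm_num)
  have nC16 : yC16 ≠ pA c0 := ne_pA c0 c0a yC16 (by rw [cC16]; norm_num)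
  have lC8 : RelM3 c0 yC8 yB8 := lnk3 c0 c0a c0b zV zV_inB zV_pA yC8 yB8 iC8 iB8 nC8 nB8
    (by rw [zC8, zB8]) (by
      have f1 := dot_pA c0 ((yC8 : ↥leechLattice) : GolayPt → ℤ)
      have f2 := dot_pA c0 ((yB8 : ↥leechLattice) : GolayPt → ℤ)
      omega)
  have lB16 : RelM3 c0 yB16 yA16 := lnk3 c0 c0a c0b zV zV_inB zV_pA yB16 yA16 iB16 iA16 nB16
    nA16 (by rw [zB16, zA16]) (by
      have f1 := dot_pA c0 ((yB16 : ↥leechLattice) : GolayPt → ℤ)
      have f2 := dot_pA c0 ((yA16 : ↥leechLattice) : GolayPt → ℤ)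
      omega)
  have lC16 : RelM3 c0 yC16 yA16 := lnk3 c0 c0a c0b zV zV_inB zV_pA yC16 yA16 iC16 iA16 nC16
    nA16 (by rw [zC16, zA16]) (by
      have f1 := dot_pA c0 ((yC16 : ↥leechLattice) : GolayPt → ℤ)
      have f2 := dot_pA c0 ((yA16 : ↥leechLattice) : GolayPt → ℤ)
      omega)
  rw [dot_pA]
  rcases std275 _ y.2 hy with ⟨i, hia, hib, hi⟩ | ⟨o, ho, hoa, hob, hxo⟩ | ⟨o, ho, hoa, hob, hxo⟩
  · have hic : i ≠ c0 := by
      intro e
      apply hne
      apply Subtype.ext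
      rw [← hi, e]
      rfl
    have ea : (y : GolayPt → ℤ) a = 4 := by rw [← hi]; exact (pp_vals i hia hib).1
    have ec : (y : GolayPt → ℤ) c0 = 0 := by rw [← hi]; exact pp_k i c0 c0a (Ne.symm hic)
    right
    exact ⟨by omega, rel_same3 c0 c0a c0b y yA16 hy iA16 (ea.trans aA16.symm)
      (ec.trans cA16.symm) hne nA16⟩
  · have ea : (y : GolayPt → ℤ) a = 2 := by rw [← hxo]; exact (inA_oct o ho hoa hob).2
    have e1 : (y : GolayPt → ℤ) c0 = if c0 ∈ o then 2 else 0 := (congrFun hxo c0).symm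
    by_cases hin : c0 ∈ o
    · rw [if_pos hin] at e1
      right
      exact ⟨by omega, (rel_same3 c0 c0a c0b y yB16 hy iB16 (ea.trans aB16.symm)
        (e1.trans cB16.symm) hne nB16).trans lB16⟩
    · rw [if_neg hin] at e1
      left
      exact ⟨by omega, rel_same3 c0 c0a c0b y yB8 hy iB8 (ea.trans aB8.symm)
        (e1.trans cB8.symm) hne nB8⟩
  · have ea : (y : GolayPt → ℤ) a = 3 := by rw [← hxo]; exact qF_a o hoa
    have e1 : (y : GolayPt → ℤ) c0 = 1 - (if c0 ∈ o then 2 else 0) + (if c0 = a then 4 else 0) :=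
      (congrFun hxo c0).symm
    rw [if_neg c0a] at e1
    by_cases hin : c0 ∈ o
    · rw [if_pos hin] at e1
      have e1' : (y : GolayPt → ℤ) c0 = -1 := by omega
      left
      exact ⟨by omega, (rel_same3 c0 c0a c0b y yC8 hy iC8 (ea.trans aC8.symm)
        (e1'.trans cC8.symm) hne nC8).trans lC8⟩
    · rw [if_neg hin] at e1
      have e1' : (y : GolayPt → ℤ) c0 = 1 := by omega
      right
      exact ⟨by omega, (rel_same3 c0 c0a c0b y yC16 hy iC16 (ea.trans aC16.symm)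
        (e1'.trans cC16.symm) hne nC16).trans lC16⟩

/-- The first suborbit in the standard frame. -/
def S8 : Set ↥leechLattice := {y | InA (y : GolayPt → ℤ) ∧
  dotInt ((pA c0 : ↥leechLattice) : GolayPt → ℤ) (y : GolayPt → ℤ) = 8}

/-- The second suborbit in the standard frame. -/
def S16 : Set ↥leechLattice := {y | InA (y : GolayPt → ℤ) ∧ y ≠ pA c0 ∧
  dotInt ((pA c0 : ↥leechLattice) : GolayPt → ℤ) (y : GolayPt → ℤ) = 16}

theorem cnt8 : S8.ncard = 112 := by
  classical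
  obtain ⟨F1, hF1c, hF1⟩ := exists_O56 a b c0 ab (Ne.symm c0a) (Ne.symm c0b)
  obtain ⟨F2, hF2c, hF2⟩ := exists_O56 a c0 b (Ne.symm c0a) ab c0b
  have hinj : Set.InjOn (Sum.elim octF qF)
      ((F1.disjSum F2 : Finset (Finset GolayPt ⊕ Finset GolayPt)) :
        Set (Finset GolayPt ⊕ Finset GolayPt)) := by
    intro s hs t ht hst
    rw [Finset.mem_coe] at hs ht
    rcases s with o | o <;> rcases t with o' | o'
    · exact congrArg Sum.inl (octF_inj hst)
    · exfalso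
      rw [Finset.inl_mem_disjSum] at hs
      rw [Finset.inr_mem_disjSum] at ht
      have e1 := (inA_oct o ((hF1 o).1 hs).1 ((hF1 o).1 hs).2.1 ((hF1 o).1 hs).2.2.1).2
      have e2 := qF_a o' ((hF2 o').1 ht).2.1
      have e3 : octF o a = qF o' a := congrFun hst a
      omega
    · exfalso
      rw [Finset.inr_mem_disjSum] at hs
      rw [Finset.inl_mem_disjSum] at ht
      have e1 := (inA_oct o' ((hF1 o').1 ht).1 ((hF1 o').1 ht).2.1 ((hF1 o').1 ht).2.2.1).2
      have e2 := qF_a o ((hF2 o).1 hs).2.1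
      have e3 : qF o a = octF o' a := congrFun hst a
      omega
    · exact congrArg Sum.inr (qF_inj hst)
  have hmemb : ∀ z : ↥leechLattice, z ∈ S8 ↔
      ∃ t ∈ F1.disjSum F2, Sum.elim octF qF t = (z : GolayPt → ℤ) := by
    intro z
    constructor
    · rintro ⟨hz, hd⟩
      rw [dot_pA] at hd
      rcases std275 _ z.2 hz with ⟨i, hia, hib, hi⟩ | ⟨o, ho, hoa, hob, hxo⟩ |
        ⟨o, ho, hoa, hob, hxo⟩
      · exfalso
        have ea : (z : GolayPt → ℤ) a = 4 := by rw [← hi]; exact (pp_vals i hia hib).1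
        have ec : (z : GolayPt → ℤ) c0 = (if c0 = a then 4 else 0) + (if c0 = i then 4 else 0) :=
          (congrFun hi c0).symm
        split_ifs at ec <;> omega
      · have ea : (z : GolayPt → ℤ) a = 2 := by rw [← hxo]; exact (inA_oct o ho hoa hob).2
        have e1 : (z : GolayPt → ℤ) c0 = if c0 ∈ o then 2 else 0 := (congrFun hxo c0).symm
        have hin : c0 ∉ o := by
          intro hin
          rw [if_pos hin] at e1
          omega
        exact ⟨Sum.inl o, Finset.inl_mem_disjSum.2 ((hF1 o).2 ⟨ho, hoa, hob, hin⟩), hxo⟩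
      · have ea : (z : GolayPt → ℤ) a = 3 := by rw [← hxo]; exact qF_a o hoa
        have e1 : (z : GolayPt → ℤ) c0 =
            1 - (if c0 ∈ o then 2 else 0) + (if c0 = a then 4 else 0) := (congrFun hxo c0).symm
        rw [if_neg c0a] at e1
        have hin : c0 ∈ o := by
          by_contra hin
          rw [if_neg hin] at e1
          omega
        exact ⟨Sum.inr o, Finset.inr_mem_disjSum.2 ((hF2 o).2 ⟨ho, hoa, hin, hob⟩), hxo⟩
    · rintro ⟨t, ht, e⟩
      rcases t with o | o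
      · rw [Finset.inl_mem_disjSum] at ht
        obtain ⟨ho, hoa, hob, hin⟩ := (hF1 o).1 ht
        have e' : octF o = (z : GolayPt → ℤ) := e
        have ea := (inA_oct o ho hoa hob).2
        have e1 : octF o c0 = if c0 ∈ o then 2 else 0 := rfl
        rw [if_neg hin] at e1
        have hA := (inA_oct o ho hoa hob).1
        rw [e'] at ea e1 hA
        refine ⟨hA, ?_⟩
        rw [dot_pA]
        omega
      · rw [Finset.inr_mem_disjSum] at ht
        obtain ⟨ho, hoa, hin, hob⟩ := (hF2 o).1 ht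
        have e' : qF o = (z : GolayPt → ℤ) := e
        have ea := qF_a o hoa
        have e1 : qF o c0 = 1 - (if c0 ∈ o then 2 else 0) + (if c0 = a then 4 else 0) := rfl
        rw [if_pos hin, if_neg c0a] at e1
        have hA := inA_q o ho hoa hob
        rw [e'] at ea e1 hA
        refine ⟨hA, ?_⟩
        rw [dot_pA]
        omega
  have hlat : ∀ t ∈ F1.disjSum F2, Sum.elim octF qF t ∈ leechLattice := by
    intro t ht
    rcases t with o | o
    · rw [Finset.inl_mem_disjSum] at ht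
      exact octF_mem o ((hF1 o).1 ht).1
    · rw [Finset.inr_mem_disjSum] at ht
      exact qF_mem o ((hF2 o).1 ht).1
  have key := ncard_of_image S8 (F1.disjSum F2) (Sum.elim octF qF) hinj hmemb hlat
  have hc := Finset.card_disjSum F1 F2
  rw [key]
  omega

theorem cnt16 : S16.ncard = 162 := by
  have h275 := card_InA
  have hfin : {y : ↥leechLattice | InA (y : GolayPt → ℤ)}.Finite :=
    Set.finite_of_ncard_ne_zero (by rw [h275]; norm_num)
  have h8 : S8 ⊆ {y : ↥leechLattice | InA (y : GolayPt → ℤ)} := fun y hy => hy.1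
  have h16 : S16 ⊆ {y : ↥leechLattice | InA (y : GolayPt → ℤ)} := fun y hy => hy.1
  have hdec : {y : ↥leechLattice | InA (y : GolayPt → ℤ)} = insert (pA c0) (S8 ∪ S16) := by
    ext y
    constructor
    · intro hy
      by_cases h1 : y = pA c0
      · exact Or.inl h1
      · rcases std3 y hy h1 with ⟨h2, -⟩ | ⟨h2, -⟩
        · exact Or.inr (Or.inl ⟨hy, h2⟩)
        · exact Or.inr (Or.inr ⟨hy, h1, h2⟩)
    · rintro (h | h | h)
      · rw [h]
        exact inA_pp c0 c0a c0b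
      · exact h.1
      · exact h.1
  have hdisj : Disjoint S8 S16 := by
    rw [Set.disjoint_left]
    intro y h1 h2
    have e1 := h1.2
    have e2 := h2.2.2
    omega
  have hn : pA c0 ∉ S8 ∪ S16 := by
    rintro (h | h)
    · have e := h.2
      rw [dot_pA] at e
      have e1' : ((pA c0 : ↥leechLattice) : GolayPt → ℤ) a = 4 := pp_a c0 c0a
      have e2' : ((pA c0 : ↥leechLattice) : GolayPt → ℤ) c0 = 4 := pp_c c0 c0a
      omega
    · exact h.2.1 rfl
  have hfinU : (S8 ∪ S16).Finite := (hfin.subset h8).union (hfin.subset h16)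
  rw [hdec, Set.ncard_insert_of_notMem hn hfinU,
    Set.ncard_union_eq hdisj (hfin.subset h8) (hfin.subset h16), cnt8] at h275
  omega

theorem ncard_transport (G : ↥Co0) (A S : Set ↥leechLattice) (h : ∀ y, y ∈ A ↔ G • y ∈ S) :
    A.ncard = S.ncard := by
  rw [← Set.ncard_image_of_injective A (MulAction.injective G)]
  congr 1
  ext w
  constructor
  · rintro ⟨y, hy, rfl⟩
    exact (h y).1 hy
  · intro hw
    exact ⟨G⁻¹ • w, (h _).2 (by rw [smul_inv_smul]; exact hw), smul_inv_smul G w⟩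

/-- The McLaughlin group acts with rank 3 and subdegrees 1, 112, 162 on its 275 points: the point stabiliser has two orbits on the remaining points, distinguished by customary inner product 1 or 2 with the fixed point. -/
theorem result (u v x : ↥Cfsg.leechLattice) (hu : Cfsg.sqNorm (u : Cfsg.GolayPt → ℤ) = 48) (hv : Cfsg.sqNorm (v : Cfsg.GolayPt → ℤ) = 32 ∧ Cfsg.sqNorm ((u - v) : Cfsg.GolayPt → ℤ) = 32) (hx : x ∈ {x : ↥Cfsg.leechLattice | Cfsg.sqNorm (x : Cfsg.GolayPt → ℤ) = 32 ∧ Cfsg.sqNorm ((u - x) : Cfsg.GolayPt → ℤ) = 32 ∧ Cfsg.dotInt (v : Cfsg.GolayPt → ℤ) (x : Cfsg.GolayPt → ℤ) = 16}) : {y : ↥Cfsg.leechLattice | y ∈ {x : ↥Cfsg.leechLattice | Cfsg.sqNorm (x : Cfsg.GolayPt → ℤ) = 32 ∧ Cfsg.sqNorm ((u - x) : Cfsg.GolayPt → ℤ) = 32 ∧ Cfsg.dotInt (v : Cfsg.GolayPt → ℤ) (x : Cfsg.GolayPt → ℤ) = 16} ∧ Cfsg.dotInt (x : Cfsg.GolayPt → ℤ) (y : Cfsg.GolayPt → ℤ) = 8}.ncard = 112 ∧ {y : ↥Cfsg.leechLattice | y ∈ {x : ↥Cfsg.leechLattice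 | Cfsg.sqNorm (x : Cfsg.GolayPt → ℤ) = 32 ∧ Cfsg.sqNorm ((u - x) : Cfsg.GolayPt → ℤ) = 32 ∧ Cfsg.dotInt (v : Cfsg.GolayPt → ℤ) (x : Cfsg.GolayPt → ℤ) = 16} ∧ y ≠ x ∧ Cfsg.dotInt (x : Cfsg.GolayPt → ℤ) (y : Cfsg.GolayPt → ℤ) = 16}.ncard = 162 ∧ ∀ y ∈ {x : ↥Cfsg.leechLattice | Cfsg.sqNorm (x : Cfsg.GolayPt → ℤ) = 32 ∧ Cfsg.sqNorm ((u - x) : Cfsg.GolayPt → ℤ) = 32 ∧ Cfsg.dotInt (v : Cfsg.GolayPt → ℤ) (x : Cfsg.GolayPt → ℤ) = 16}, ∀ y' ∈ {x : ↥Cfsg.leechLattice | Cfsg.sqNorm (x : Cfsg.GolayPt → ℤ) = 32 ∧ Cfsg.sqNorm ((u - x) : Cfsg.GolayPt → ℤ) = 32 ∧ Cfsg.dotInt (v : Cfsg.GolayPt → ℤ) (x : Cfsg.GolayPt → ℤ) = 16}, y ≠ x → y' ≠ x → Cfsg.dotInt (x : Cfsg.GolayPt → ℤ) (y : Cfsg.GolayPt → ℤ) = Cfsg.dotInt (x : Cfsg.GolayPt → ℤ) (y' : Cfsg.GolayPt → ℤ) → ∃ g : ↥Cfsg.Co0, g • u = u ∧ g • v = v ∧ g • x = x ∧ g • y = y' := by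
  have huv : dotInt (u : GolayPt → ℤ) (v : GolayPt → ℤ) = 24 := (sub_norm u v hu hv.1).1 hv.2
  obtain ⟨hx1, hx2, hx3⟩ := hx
  obtain ⟨G1, hG1⟩ := Cfsg.Agent.S0401.result u v0 hu v0_norm
  have hd1 : dotInt ((v0 : leechLattice) : GolayPt → ℤ)
      ((G1 • v : ↥leechLattice) : GolayPt → ℤ) = 24 := by
    rw [← hG1, Cfsg.Agent.S1640.hdotp]
    exact huv
  have hn1 : sqNorm ((G1 • v : ↥leechLattice) : GolayPt → ℤ) = 32 := by
    rw [Cfsg.Agent.S1640.hnorm]
    exact hv.1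
  obtain ⟨G2, hG2u, hG2v⟩ := Cfsg.Agent.S1579.result v0 (G1 • v) Stv.vStar v0_norm
    ⟨hn1, (sub_norm v0 (G1 • v) v0_norm hn1).2 hd1⟩
    ⟨Stv.vStar_norm, (sub_norm v0 Stv.vStar v0_norm Stv.vStar_norm).2 v0_vStar⟩
  obtain ⟨G12, hG12⟩ : ∃ G : ↥Co0, G = G2 * G1 := ⟨_, rfl⟩
  have h12u : G12 • u = v0 := by
    rw [hG12, mul_smul, hG1, hG2u]
  have h12v : G12 • v = Stv.vStar := by
    rw [hG12, mul_smul, hG2v]
  have tx : InA ((G12 • x : ↥leechLattice) : GolayPt → ℤ) := by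
    rw [← inA_iff]
    exact ⟨by rw [Cfsg.Agent.S1640.hnorm]; exact hx1,
      by rw [← h12u, Cfsg.Agent.S1640.hdotp]; exact (sub_norm u x hu hx1).1 hx2,
      by rw [← h12v, Cfsg.Agent.S1640.hdotp]; exact hx3⟩
  obtain ⟨g0, g0u, g0v, g0x⟩ := std_trans (G12 • x) (pA c0) tx (inA_pp c0 c0a c0b)
  obtain ⟨G, hG⟩ : ∃ G : ↥Co0, G = g0 * G12 := ⟨_, rfl⟩
  have hGu : G • u = v0 := by
    rw [hG, mul_smul, h12u, g0u]
  have hGv : G • v = Stv.vStar := by
    rw [hG, mul_smul, h12v, g0v]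
  have hGx : G • x = pA c0 := by
    rw [hG, mul_smul, g0x]
  have hmem : ∀ y : ↥leechLattice, y ∈ {x : ↥leechLattice | sqNorm (x : GolayPt → ℤ) = 32 ∧
      sqNorm ((u : GolayPt → ℤ) - (x : GolayPt → ℤ)) = 32 ∧
      dotInt (v : GolayPt → ℤ) (x : GolayPt → ℤ) = 16} ↔
      InA ((G • y : ↥leechLattice) : GolayPt → ℤ) := by
    intro y
    have e0 := Cfsg.Agent.S1640.hnorm G y
    have e1 := Cfsg.Agent.S1640.hdotp G u y
    have e2 := Cfsg.Agent.S1640.hdotp G v y
    rw [hGu] at e1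
    rw [hGv] at e2
    rw [← inA_iff, e0, e1, e2]
    constructor
    · rintro ⟨h1, h2, h3⟩
      exact ⟨h1, (sub_norm u y hu h1).1 h2, h3⟩
    · rintro ⟨h1, h2, h3⟩
      exact ⟨h1, (sub_norm u y hu h1).2 h2, h3⟩
  have hdot : ∀ y : ↥leechLattice, dotInt (x : GolayPt → ℤ) (y : GolayPt → ℤ) =
      dotInt ((pA c0 : ↥leechLattice) : GolayPt → ℤ) ((G • y : ↥leechLattice) : GolayPt → ℤ) := by
    intro y
    have e := Cfsg.Agent.S1640.hdotp G x y
    rw [hGx] at e
    exact e.symm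
  refine ⟨?_, ?_, ?_⟩
  · rw [← cnt8]
    apply ncard_transport G
    intro y
    constructor
    · rintro ⟨h1, h2⟩
      exact ⟨(hmem y).1 h1, (hdot y).symm.trans h2⟩
    · rintro ⟨h1, h2⟩
      exact ⟨(hmem y).2 h1, (hdot y).trans h2⟩
  · rw [← cnt16]
    apply ncard_transport G
    intro y
    constructor
    · rintro ⟨h1, h2, h3⟩
      exact ⟨(hmem y).1 h1, fun e => h2 (MulAction.injective G (e.trans hGx.symm)),
        (hdot y).symm.trans h3⟩
    · rintro ⟨h1, h2, h3⟩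
      exact ⟨(hmem y).2 h1, fun e => h2 (by rw [e, hGx]), (hdot y).trans h3⟩
  · intro y hy y' hy' hyx hyx' hd
    have t1 := (hmem y).1 hy
    have t1' := (hmem y').1 hy'
    have n1 : G • y ≠ pA c0 := fun e => hyx (MulAction.injective G (e.trans hGx.symm))
    have n1' : G • y' ≠ pA c0 := fun e => hyx' (MulAction.injective G (e.trans hGx.symm))
    have hd' : dotInt ((pA c0 : ↥leechLattice) : GolayPt → ℤ)
        ((G • y : ↥leechLattice) : GolayPt → ℤ) =
        dotInt ((pA c0 : ↥leechLattice) : GolayPt → ℤ)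
        ((G • y' : ↥leechLattice) : GolayPt → ℤ) := (hdot y).symm.trans (hd.trans (hdot y'))
    have key : RelM3 c0 (G • y) (G • y') := by
      rcases std3 (G • y) t1 n1 with ⟨d1, r1⟩ | ⟨d1, r1⟩ <;>
        rcases std3 (G • y') t1' n1' with ⟨d2, r2⟩ | ⟨d2, r2⟩
      · exact r1.trans r2.symm
      · exfalso
        omega
      · exfalso
        omega
      · exact r1.trans r2.symm
    obtain ⟨g, g1, g2, g3, g4⟩ := key
    refine ⟨G⁻¹ * g * G, ?_, ?_, ?_, ?_⟩
    · rw [mul_smul, mul_smul, hGu, g1, ← hGu, inv_smul_smul]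
    · rw [mul_smul, mul_smul, hGv, g2, ← hGv, inv_smul_smul]
    · rw [mul_smul, mul_smul, hGx, g3, ← hGx, inv_smul_smul]
    · rw [mul_smul, mul_smul, g4, inv_smul_smul]
end Cfsg.Agent.S1581
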