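import Cfsg.Statements.S1585
import Cfsg.Agent.Lib.Helper28.Tri3

set_option autoImplicit false
open Cfsg

namespace Cfsg.Agent.S1585

/-- Two vectors of customary norm 6 with inner product −4 are exchanged by some automorphism of the lattice. -/
theorem result (v w : ↥Cfsg.leechLattice) (hv : Cfsg.sqNorm (v : Cfsg.GolayPt → ℤ) = 48) (hw : Cfsg.sqNorm (w : Cfsg.GolayPt → ℤ) = 48) (hvw : Cfsg.dotInt (v : Cfsg.GolayPt → ℤ) (w : Cfsg.GolayPt → ℤ) = -32) : ∃ g : ↥Cfsg.Co0, g • v = w ∧ g • w = v := by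
  have hz : sqNorm ((v + w : ↥leechLattice) : GolayPt → ℤ) = 32 := by
    rw [AddSubgroup.coe_add, Cfsg.Agent.Lib.Helper28.sqNorm_add, hv, hw, hvw]
    norm_num
  have hd1 : dotInt ((v + w : ↥leechLattice) : GolayPt → ℤ) (v : GolayPt → ℤ) = 16 := by
    have h := Cfsg.Agent.Lib.Helper28.sqNorm_sub ((v + w : ↥leechLattice) : GolayPt → ℤ)
      (v : GolayPt → ℤ)
    have e : ((v + w : ↥leechLattice) : GolayPt → ℤ) - (v : GolayPt → ℤ) = (w : GolayPt → ℤ) := by
      rw [AddSubgroup.coe_add]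
      abel
    rw [e, hz, hv, hw] at h
    omega
  have hd2 : dotInt ((v + w : ↥leechLattice) : GolayPt → ℤ) (w : GolayPt → ℤ) = 16 := by
    have h := Cfsg.Agent.Lib.Helper28.sqNorm_sub ((v + w : ↥leechLattice) : GolayPt → ℤ)
      (w : GolayPt → ℤ)
    have e : ((v + w : ↥leechLattice) : GolayPt → ℤ) - (w : GolayPt → ℤ) = (v : GolayPt → ℤ) := by
      rw [AddSubgroup.coe_add]
      abel
    rw [e, hz, hv, hw] at h
    omega
  obtain ⟨g, hg, hgz, hgv⟩ := Cfsg.Agent.Lib.Helper28.Tri.pair_trans (v + w) v w hz hv hw hd1 hd2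
  refine ⟨⟨g, hg⟩, hgv, ?_⟩
  show g w = v
  have hadd := hg.1 v w
  rw [hgz, hgv] at hadd
  have h3 : w + g w = w + v := by
    rw [← hadd]
    abel
  exact add_left_cancel h3
end Cfsg.Agent.S1585
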