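import Cfsg.Statements.S1588
-- import your own Cfsg.Agent.* helpers here

set_option autoImplicit false
open Matrix
open Matrix
open Cfsg

namespace Cfsg.Agent.S1588

theorem sym (B : Matrix (Fin 24) (Fin 24) ℤ) (hsymm : B.IsSymm) (u v : Fin 24 → ℤ) :
    u ⬝ᵥ (B *ᵥ v) = v ⬝ᵥ (B *ᵥ u) := by
  rw [Matrix.dotProduct_mulVec, ← Matrix.mulVec_transpose, hsymm.eq, dotProduct_comm]

/-- Short vectors congruent modulo 2 are equal, opposite, or both of norm 8 and orthogonal. -/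
theorem tri (B : Matrix (Fin 24) (Fin 24) ℤ) (hsymm : B.IsSymm)
    (hpos : ∀ x : Fin 24 → ℤ, x ≠ 0 → 0 < x ⬝ᵥ (B *ᵥ x))
    (heven : ∀ x : Fin 24 → ℤ, (2 : ℤ) ∣ x ⬝ᵥ (B *ᵥ x))
    (h2 : ∀ x : Fin 24 → ℤ, x ⬝ᵥ (B *ᵥ x) ≠ 2) (x y : Fin 24 → ℤ)
    (hx : x ⬝ᵥ (B *ᵥ x) ≤ 8) (hy : y ⬝ᵥ (B *ᵥ y) ≤ 8) (hc : ∀ i, (2 : ℤ) ∣ (x - y) i) :
    y = x ∨ y = -x ∨ (x ⬝ᵥ (B *ᵥ x) = 8 ∧ y ⬝ᵥ (B *ᵥ y) = 8 ∧ x ⬝ᵥ (B *ᵥ y) = 0) := by
  choose z hz using hc
  have hxy : x - y = (2 : ℤ) • z := by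
    funext i
    simp [hz i]
  obtain ⟨w, hw⟩ : ∃ w : Fin 24 → ℤ, w = x - z := ⟨_, rfl⟩
  have hxy' : x + y = (2 : ℤ) • w := by
    have : y = x - (2 : ℤ) • z := by rw [← hxy]; abel
    rw [this, hw]
    funext i
    simp
    ring
  have e1 : (x - y) ⬝ᵥ (B *ᵥ (x - y)) =
      x ⬝ᵥ (B *ᵥ x) + y ⬝ᵥ (B *ᵥ y) - 2 * (x ⬝ᵥ (B *ᵥ y)) := by
    simp only [Matrix.mulVec_sub, sub_dotProduct, dotProduct_sub, sym B hsymm y x]
    ring
  have e2 : (x + y) ⬝ᵥ (B *ᵥ (x + y)) =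
      x ⬝ᵥ (B *ᵥ x) + y ⬝ᵥ (B *ᵥ y) + 2 * (x ⬝ᵥ (B *ᵥ y)) := by
    simp only [Matrix.mulVec_add, add_dotProduct, dotProduct_add, sym B hsymm y x]
    ring
  have e3 : ((2 : ℤ) • z) ⬝ᵥ (B *ᵥ ((2 : ℤ) • z)) = 4 * (z ⬝ᵥ (B *ᵥ z)) := by
    simp only [Matrix.mulVec_smul, smul_dotProduct, dotProduct_smul, smul_eq_mul]
    ring
  have e4 : ((2 : ℤ) • w) ⬝ᵥ (B *ᵥ ((2 : ℤ) • w)) = 4 * (w ⬝ᵥ (B *ᵥ w)) := by
    simp only [Matrix.mulVec_smul, smul_dotProduct, dotProduct_smul, smul_eq_mul]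
    ring
  rw [hxy, e3] at e1
  rw [hxy', e4] at e2
  by_cases hz0 : z = 0
  · left
    have : x - y = 0 := by rw [hxy, hz0, smul_zero]
    exact (sub_eq_zero.mp this).symm
  by_cases hw0 : w = 0
  · right; left
    have : x + y = 0 := by rw [hxy', hw0, smul_zero]
    exact eq_neg_of_add_eq_zero_right this
  right; right
  have p1 := hpos z hz0
  have p2 := hpos w hw0
  obtain ⟨a, ha⟩ := heven z
  obtain ⟨b, hb⟩ := heven w
  have n1 := h2 z
  have n2 := h2 w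
  omega

/-- Pairwise orthogonal vectors of norm 8 number at most 24. -/
theorem orth_card_le (B : Matrix (Fin 24) (Fin 24) ℤ) (Ψ : Finset (Fin 24 → ℤ))
    (h8 : ∀ u ∈ Ψ, u ⬝ᵥ (B *ᵥ u) = 8)
    (horth : ∀ a ∈ Ψ, ∀ b ∈ Ψ, a ≠ b → a ⬝ᵥ (B *ᵥ b) = 0) : Ψ.card ≤ 24 := by
  have hli : LinearIndependent ℤ (fun u : ↥Ψ => (u : Fin 24 → ℤ)) := by
    rw [linearIndependent_iff']
    intro s g hg j hj
    have h1 : (j : Fin 24 → ℤ) ⬝ᵥ (B *ᵥ (∑ i ∈ s, g i • (i : Fin 24 → ℤ))) = 0 := by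
      rw [hg]; simp
    rw [Matrix.mulVec_sum, dotProduct_sum] at h1
    rw [Finset.sum_eq_single j] at h1
    · rw [Matrix.mulVec_smul, dotProduct_smul, h8 j j.2, smul_eq_mul] at h1
      omega
    · intro i _ hij
      rw [Matrix.mulVec_smul, dotProduct_smul, horth j j.2 i i.2 (fun h => hij (Subtype.ext h.symm)),
        smul_zero]
    · intro h; exact absurd hj h
  have := hli.fintype_card_le_finrank
  rw [Fintype.card_coe, Module.finrank_fin_fun] at this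
  exact this

/-- A set of norm-8 vectors which are pairwise equal, opposite or orthogonal has at most 48
elements. -/
theorem frame_card_le (B : Matrix (Fin 24) (Fin 24) ℤ) (hsymm : B.IsSymm)
    (Φ : Finset (Fin 24 → ℤ)) (h8 : ∀ u ∈ Φ, u ⬝ᵥ (B *ᵥ u) = 8)
    (htri : ∀ u ∈ Φ, ∀ u' ∈ Φ, u' = u ∨ u' = -u ∨ u ⬝ᵥ (B *ᵥ u') = 0) : Φ.card ≤ 48 := by
  classical
  have hne : (Φ.powerset.filter (fun Ψ : Finset (Fin 24 → ℤ) =>
      ∀ a ∈ Ψ, ∀ b ∈ Ψ, a ≠ b → a ⬝ᵥ (B *ᵥ b) = 0)).Nonempty :=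
    ⟨∅, by simp⟩
  obtain ⟨Ψ, hΨ, hmax⟩ := Finset.exists_max_image _ Finset.card hne
  rw [Finset.mem_filter, Finset.mem_powerset] at hΨ
  obtain ⟨hsub, hP⟩ := hΨ
  have h24 : Ψ.card ≤ 24 := orth_card_le B Ψ (fun u hu => h8 u (hsub hu)) hP
  have hcover : Φ ⊆ Ψ ∪ Ψ.image (fun u => -u) := by
    intro u hu
    by_contra hnot
    rw [Finset.mem_union, not_or] at hnot
    obtain ⟨hu1, hu2⟩ := hnot
    have hP' : ∀ a ∈ insert u Ψ, ∀ b ∈ insert u Ψ, a ≠ b → a ⬝ᵥ (B *ᵥ b) = 0 := by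
      intro a ha b hb hab
      rcases Finset.mem_insert.1 ha with ha' | ha'
      · rcases Finset.mem_insert.1 hb with hb' | hb'
        · exact absurd (ha'.trans hb'.symm) hab
        · rw [ha']
          rcases htri u hu b (hsub hb') with h | h | h
          · exact absurd (ha'.trans h.symm) hab
          · exfalso
            apply hu2
            rw [Finset.mem_image]
            exact ⟨b, hb', by rw [h, neg_neg]⟩
          · exact h
      · rcases Finset.mem_insert.1 hb with hb' | hb'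
        · rw [hb']
          rcases htri u hu a (hsub ha') with h | h | h
          · exact absurd (h.trans hb'.symm) hab
          · exfalso
            apply hu2
            rw [Finset.mem_image]
            exact ⟨a, ha', by rw [h, neg_neg]⟩
          · rw [sym B hsymm]; exact h
        · exact hP a ha' b hb' hab
    have h1 := hmax (insert u Ψ) (by
      rw [Finset.mem_filter, Finset.mem_powerset]
      exact ⟨Finset.insert_subset hu hsub, hP'⟩)
    rw [Finset.card_insert_of_notMem hu1] at h1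
    omega
  have h2 : (Ψ.image (fun u => -u)).card ≤ Ψ.card := Finset.card_image_le
  have h3 := Finset.card_le_card hcover
  have h4 := Finset.card_union_le Ψ (Ψ.image (fun u => -u))
  omega


/-- Second step of the characterisation: under the vector counts of the rank-24 lattice, the norm-8 vectors fall into congruence classes of exactly 48 modulo twice the lattice. -/
theorem result (B : Matrix (Fin 24) (Fin 24) ℤ) (hsymm : B.IsSymm) (hpos : ∀ x : Fin 24 → ℤ, x ≠ 0 → 0 < x ⬝ᵥ (B *ᵥ x)) (heven : ∀ x : Fin 24 → ℤ, (2 : ℤ) ∣ x ⬝ᵥ (B *ᵥ x)) (h2 : ∀ x : Fin 24 → ℤ, x ⬝ᵥ (B *ᵥ x) ≠ 2) (h4 : {x : Fin 24 → ℤ | x ⬝ᵥ (B *ᵥ x) = 4}.ncard = 196560) (h6 : {x : Fin 24 → ℤ | x ⬝ᵥ (B *ᵥ x) = 6}.ncard = 16773120) (h8 : {x : Fin 24 → ℤ | x ⬝ᵥ (B *ᵥ x) = 8}.ncard = 398034000) (x : Fin 24 → ℤ) (hx : x ⬝ᵥ (B *ᵥ x) = 8) : {y : Fin 24 → ℤ | y ⬝ᵥ (B *ᵥ y) = 8 ∧ ∀ i, (2 : ℤ) ∣ (x - y) i}.ncard = 48 := by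
  classical
  have fin4 : {x : Fin 24 → ℤ | x ⬝ᵥ (B *ᵥ x) = 4}.Finite :=
    Set.finite_of_ncard_ne_zero (by rw [h4]; norm_num)
  have fin6 : {x : Fin 24 → ℤ | x ⬝ᵥ (B *ᵥ x) = 6}.Finite :=
    Set.finite_of_ncard_ne_zero (by rw [h6]; norm_num)
  have fin8 : {x : Fin 24 → ℤ | x ⬝ᵥ (B *ᵥ x) = 8}.Finite :=
    Set.finite_of_ncard_ne_zero (by rw [h8]; norm_num)
  have c4 : fin4.toFinset.card = 196560 := by rw [← Set.ncard_eq_toFinset_card _ fin4, h4]
  have c6 : fin6.toFinset.card = 16773120 := by rw [← Set.ncard_eq_toFinset_card _ fin6, h6]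
  have c8 : fin8.toFinset.card = 398034000 := by rw [← Set.ncard_eq_toFinset_card _ fin8, h8]
  have m4 : ∀ v : Fin 24 → ℤ, v ∈ fin4.toFinset ↔ v ⬝ᵥ (B *ᵥ v) = 4 := fun v => by
    rw [Set.Finite.mem_toFinset]; rfl
  have m6 : ∀ v : Fin 24 → ℤ, v ∈ fin6.toFinset ↔ v ⬝ᵥ (B *ᵥ v) = 6 := fun v => by
    rw [Set.Finite.mem_toFinset]; rfl
  have m8 : ∀ v : Fin 24 → ℤ, v ∈ fin8.toFinset ↔ v ⬝ᵥ (B *ᵥ v) = 8 := fun v => by
    rw [Set.Finite.mem_toFinset]; rfl
  have N0 : (0 : Fin 24 → ℤ) ⬝ᵥ (B *ᵥ 0) = 0 := by simp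
  have Nneg : ∀ v : Fin 24 → ℤ, (-v) ⬝ᵥ (B *ᵥ (-v)) = v ⬝ᵥ (B *ᵥ v) := by
    intro v
    simp [Matrix.mulVec_neg]
  have Nz : ∀ v : Fin 24 → ℤ, v ⬝ᵥ (B *ᵥ v) = 0 → v = 0 := by
    intro v hv
    by_contra h
    have := hpos v h
    omega
  -- reduction modulo 2
  obtain ⟨ρ, hρ⟩ : ∃ ρ : (Fin 24 → ℤ) → (Fin 24 → ZMod 2),
      ∀ u v : Fin 24 → ℤ, ρ u = ρ v ↔ ∀ i, (2 : ℤ) ∣ (u - v) i := by
    refine ⟨fun v i => ((v i : ℤ) : ZMod 2), fun u v => ?_⟩
    constructor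
    · intro h i
      have h' : ((u i : ℤ) : ZMod 2) = ((v i : ℤ) : ZMod 2) := congrFun h i
      rw [ZMod.intCast_eq_intCast_iff_dvd_sub] at h'
      have e : (u - v) i = -(v i - u i) := by simp
      rw [e]
      exact (dvd_neg).2 (by exact_mod_cast h')
    · intro h
      funext i
      show ((u i : ℤ) : ZMod 2) = ((v i : ℤ) : ZMod 2)
      rw [ZMod.intCast_eq_intCast_iff_dvd_sub]
      have e : v i - u i = -((u - v) i) := by simp
      rw [e]
      exact_mod_cast (dvd_neg).2 (h i)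
  -- the weight function
  obtain ⟨W, hW0, hW8, hW46⟩ : ∃ W : (Fin 24 → ℤ) → ℕ,
      (∀ v, v ⬝ᵥ (B *ᵥ v) = 0 → W v = 48) ∧ (∀ v, v ⬝ᵥ (B *ᵥ v) = 8 → W v = 1) ∧
        (∀ v, v ⬝ᵥ (B *ᵥ v) = 4 ∨ v ⬝ᵥ (B *ᵥ v) = 6 → W v = 24) := by
    refine ⟨fun v => if v ⬝ᵥ (B *ᵥ v) = 0 then 48 else if v ⬝ᵥ (B *ᵥ v) = 8 then 1 else 24,
      fun v hv => by simp [hv], fun v hv => by simp [hv], fun v hv => ?_⟩
    rcases hv with hv | hv <;> simp [hv]
  -- the short vectors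
  obtain ⟨F, hF⟩ : ∃ F : Finset (Fin 24 → ℤ),
      F = ({0} ∪ fin4.toFinset) ∪ (fin6.toFinset ∪ fin8.toFinset) := ⟨_, rfl⟩
  have memF : ∀ v : Fin 24 → ℤ, v ∈ F ↔ (v ⬝ᵥ (B *ᵥ v) = 0 ∨ v ⬝ᵥ (B *ᵥ v) = 4 ∨
      v ⬝ᵥ (B *ᵥ v) = 6 ∨ v ⬝ᵥ (B *ᵥ v) = 8) := by
    intro v
    rw [hF, Finset.mem_union, Finset.mem_union, Finset.mem_union, Finset.mem_singleton, m4, m6, m8]
    constructor
    · rintro ((h | h) | (h | h))
      · left; rw [h]; exact N0
      · right; left; exact h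
      · right; right; left; exact h
      · right; right; right; exact h
    · rintro (h | h | h | h)
      · left; left; exact Nz v h
      · left; right; exact h
      · right; left; exact h
      · right; right; exact h
  have total : ∑ v ∈ F, W v = 48 * 2 ^ 24 := by
    rw [hF, Finset.sum_union, Finset.sum_union, Finset.sum_union, Finset.sum_singleton,
      hW0 0 N0, Finset.sum_congr rfl (fun v hv => hW46 v (Or.inl ((m4 v).1 hv))),
      Finset.sum_congr rfl (fun v hv => hW46 v (Or.inr ((m6 v).1 hv))),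
      Finset.sum_congr rfl (fun v hv => hW8 v ((m8 v).1 hv)),
      Finset.sum_const, Finset.sum_const, Finset.sum_const, c4, c6, c8]
    · norm_num
    · rw [Finset.disjoint_left]
      intro v hv hv'
      rw [m6] at hv; rw [m8] at hv'; omega
    · rw [Finset.disjoint_left]
      intro v hv hv'
      rw [Finset.mem_singleton] at hv; rw [m4, hv, N0] at hv'; omega
    · rw [Finset.disjoint_left]
      intro v hv hv'
      rw [Finset.mem_union, Finset.mem_singleton, m4] at hv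
      rw [Finset.mem_union, m6, m8] at hv'
      rcases hv with hv | hv
      · rw [hv, N0] at hv'; omega
      · omega
  -- each fibre has weight at most 48
  have fib : ∀ κ : Fin 24 → ZMod 2, ∑ v ∈ F with ρ v = κ, W v ≤ 48 := by
    intro κ
    by_cases hex : ∃ v ∈ F.filter (fun v => ρ v = κ), v ⬝ᵥ (B *ᵥ v) ≠ 8
    · obtain ⟨v, hv, hv8⟩ := hex
      rw [Finset.mem_filter] at hv
      have hsub : F.filter (fun v => ρ v = κ) ⊆ {v, -v} := by
        intro u hu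
        rw [Finset.mem_filter] at hu
        have hc := (hρ v u).1 (hv.2.trans hu.2.symm)
        have hvn := (memF v).1 hv.1
        have hun := (memF u).1 hu.1
        rcases tri B hsymm hpos heven h2 v u (by omega) (by omega) hc with h | h | h
        · rw [h]; simp
        · rw [h]; simp
        · exact absurd h.1 hv8
      rcases (memF v).1 hv.1 with h0 | h46
      · have hv0 := Nz v h0
        rw [hv0, neg_zero, Finset.pair_eq_singleton] at hsub
        calc ∑ v ∈ F with ρ v = κ, W v ≤ ∑ v ∈ ({0} : Finset (Fin 24 → ℤ)), W v :=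
              Finset.sum_le_sum_of_subset hsub
          _ = 48 := by rw [Finset.sum_singleton, hW0 0 N0]
      · have h46' : v ⬝ᵥ (B *ᵥ v) = 4 ∨ v ⬝ᵥ (B *ᵥ v) = 6 := by omega
        have hw : ∀ u ∈ ({v, -v} : Finset (Fin 24 → ℤ)), W u = 24 := by
          intro u hu
          rw [Finset.mem_insert, Finset.mem_singleton] at hu
          rcases hu with hu | hu
          · rw [hu]; exact hW46 v h46'
          · rw [hu]; exact hW46 (-v) (by rw [Nneg]; exact h46')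
        calc ∑ v ∈ F with ρ v = κ, W v ≤ ∑ u ∈ ({v, -v} : Finset (Fin 24 → ℤ)), W u :=
              Finset.sum_le_sum_of_subset hsub
          _ = ∑ u ∈ ({v, -v} : Finset (Fin 24 → ℤ)), 24 := Finset.sum_congr rfl hw
          _ ≤ 48 := by
            rw [Finset.sum_const, smul_eq_mul]
            have := Finset.card_le_two (a := v) (b := -v)
            omega
    · push Not at hex
      rw [Finset.sum_congr rfl (fun v hv => hW8 v (hex v hv)), Finset.sum_const, smul_eq_mul,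
        mul_one]
      apply frame_card_le B hsymm _ hex
      intro u hu u' hu'
      rw [Finset.mem_filter] at hu hu'
      have hc := (hρ u u').1 (hu.2.trans hu'.2.symm)
      have h8u := hex u (Finset.mem_filter.2 hu)
      have h8u' := hex u' (Finset.mem_filter.2 hu')
      rcases tri B hsymm hpos heven h2 u u' (by omega) (by omega) hc with h | h | h
      · exact Or.inl h
      · exact Or.inr (Or.inl h)
      · exact Or.inr (Or.inr h.2.2)
  -- hence each fibre has weight exactly 48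
  have fibeq : ∀ κ : Fin 24 → ZMod 2, ∑ v ∈ F with ρ v = κ, W v = 48 := by
    intro κ
    by_contra hne
    have hlt : ∑ v ∈ F with ρ v = κ, W v < 48 := lt_of_le_of_ne (fib κ) hne
    have h1 : ∑ κ : Fin 24 → ZMod 2, ∑ v ∈ F with ρ v = κ, W v <
        ∑ _κ : Fin 24 → ZMod 2, 48 :=
      Finset.sum_lt_sum (fun κ _ => fib κ) ⟨κ, Finset.mem_univ _, hlt⟩
    rw [Finset.sum_fiberwise, total, Finset.sum_const, Finset.card_univ, Fintype.card_fun,
      ZMod.card, Fintype.card_fin, smul_eq_mul] at h1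
    omega
  -- the fibre of x
  have hxF : x ∈ F := (memF x).2 (Or.inr (Or.inr (Or.inr hx)))
  have hall : ∀ v ∈ F.filter (fun v => ρ v = ρ x), v ⬝ᵥ (B *ᵥ v) = 8 := by
    intro v hv
    rw [Finset.mem_filter] at hv
    have hc := (hρ x v).1 hv.2.symm
    have hvn := (memF v).1 hv.1
    rcases tri B hsymm hpos heven h2 x v (by omega) (by omega) hc with h | h | h
    · rw [h]; exact hx
    · rw [h, Nneg]; exact hx
    · exact h.2.1
  have hcard : (F.filter (fun v => ρ v = ρ x)).card = 48 := by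
    have := fibeq (ρ x)
    rw [Finset.sum_congr rfl (fun v hv => hW8 v (hall v hv)), Finset.sum_const, smul_eq_mul,
      mul_one] at this
    exact this
  have hset : {y : Fin 24 → ℤ | y ⬝ᵥ (B *ᵥ y) = 8 ∧ ∀ i, (2 : ℤ) ∣ (x - y) i} =
      ↑(F.filter (fun v => ρ v = ρ x)) := by
    ext y
    simp only [Set.mem_ofPred_eq, Finset.coe_filter]
    constructor
    · rintro ⟨h1, h2'⟩
      exact ⟨(memF y).2 (Or.inr (Or.inr (Or.inr h1))), ((hρ x y).2 h2').symm⟩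
    · rintro ⟨h1, h2'⟩
      exact ⟨hall y (Finset.mem_filter.2 ⟨h1, h2'⟩), (hρ x y).1 h2'.symm⟩
  rw [hset, Set.ncard_coe_finset, hcard]

end Cfsg.Agent.S1588
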