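import Cfsg.Statements.S1589
import Cfsg.Agent.Lib.Helper4.AuC
import Cfsg.Agent.S1551

set_option autoImplicit false
open scoped Pointwise
open Cfsg

namespace Cfsg.Agent.S1589

/-- Subgroups of the group of the length-24 code of index 759, 276 and 1771 are exactly the octad, duad and sextet stabilisers, and no subgroup has index 253. -/
theorem result : (∀ H : Subgroup ↥Cfsg.M24, H.index = 759 → ∃ o ∈ Cfsg.octads, H = MulAction.stabilizer Cfsg.M24 o) ∧ (∀ H : Subgroup ↥Cfsg.M24, H.index = 276 → ∃ s : Finset Cfsg.GolayPt, s.card = 2 ∧ H = MulAction.stabilizer Cfsg.M24 s) ∧ (∀ H : Subgroup ↥Cfsg.M24, H.index = 1771 → ∃ S ∈ Cfsg.sextets, H = MulAction.stabilizer Cfsg.M24 S) ∧ ∀ H : Subgroup ↥Cfsg.M24, H.index ≠ 253 := by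
  classical
  have hM := Cfsg.Agent.Lib.Helper4.Golay.card_M24
  have hinj : Function.Injective (Cfsg.M24.subtype) := Subgroup.subtype_injective _
  have hmapM : ∀ H : Subgroup ↥Cfsg.M24, H.map Cfsg.M24.subtype ≤ Cfsg.M24 := by
    intro H
    rintro _ ⟨k, -, rfl⟩
    exact k.2
  have hcard : ∀ (H : Subgroup ↥Cfsg.M24) (n c : ℕ), H.index = n → n * c = 244823040 → 0 < n →
      Nat.card ↥(H.map Cfsg.M24.subtype) = c := by
    intro H n c hn hnc hpos
    rw [Subgroup.card_map_of_injective hinj]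
    have h := Subgroup.index_mul_card H
    rw [hM, hn] at h
    exact Nat.eq_of_mul_eq_mul_left hpos (h.trans hnc.symm)
  have key : ∀ (H : Subgroup ↥Cfsg.M24) (o : Finset Cfsg.GolayPt) (c : ℕ),
      Nat.card ↥(H.map Cfsg.M24.subtype) = c →
      (∀ k ∈ H.map Cfsg.M24.subtype, k • o = o) →
      (∀ J : Subgroup (Equiv.Perm Cfsg.GolayPt), J ≤ Cfsg.M24 → (∀ k ∈ J, k • o = o) →
        Nat.card J ≤ c) → H = MulAction.stabilizer Cfsg.M24 o := by
    intro H o c hc hinv hbound
    have hle : H ≤ MulAction.stabilizer Cfsg.M24 o := by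
      intro h hh
      rw [MulAction.mem_stabilizer_iff]
      exact hinv _ (Subgroup.mem_map_of_mem _ hh)
    have hJ := hbound ((MulAction.stabilizer Cfsg.M24 o).map Cfsg.M24.subtype) (hmapM _) (by
      rintro _ ⟨k, hk, rfl⟩
      rw [SetLike.mem_coe, MulAction.mem_stabilizer_iff] at hk
      exact hk)
    rw [Subgroup.card_map_of_injective hinj] at hJ
    rw [Subgroup.card_map_of_injective hinj] at hc
    exact Subgroup.eq_of_le_of_card_ge hle (by rw [hc]; exact hJ)
  refine ⟨?_, ?_, ?_, ?_⟩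
  · intro H hH
    have hc := hcard H 759 322560 hH (by norm_num) (by norm_num)
    obtain ⟨O, hO, hinv⟩ := Cfsg.Agent.Lib.Helper4.AutA.idx759 _ (hmapM H) hc
    exact ⟨O, hO, key H O 322560 hc hinv (fun J hJ hJs =>
      Cfsg.Agent.Lib.Helper4.AutA.oct_stab_le J hJ hO hJs)⟩
  · intro H hH
    have hc := hcard H 276 887040 hH (by norm_num) (by norm_num)
    obtain ⟨p, q, hpq, hinv⟩ := Cfsg.Agent.Lib.Helper4.AutA.idx276 _ (hmapM H) hc
    exact ⟨{p, q}, Finset.card_pair hpq, key H {p, q} 887040 hc hinv (fun J hJ hJs =>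
      Cfsg.Agent.Lib.Helper4.AutA.duad_stab_le J hJ hpq hJs)⟩
  · intro H hH
    have hc := hcard H 1771 138240 hH (by norm_num) (by norm_num)
    obtain ⟨S, hS, hinv⟩ := Cfsg.Agent.Lib.Helper4.AutA.idx1771 _ (hmapM H) hc
    refine ⟨S, hS, ?_⟩
    have hle : H ≤ MulAction.stabilizer Cfsg.M24 S := by
      intro h hh
      rw [MulAction.mem_stabilizer_iff]
      exact hinv _ (Subgroup.mem_map_of_mem _ hh)
    apply Subgroup.eq_of_le_of_card_ge hle
    rw [Cfsg.Agent.S1551.card_stab hS]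
    rw [Subgroup.card_map_of_injective hinj] at hc
    rw [hc]
  · intro H hH
    have hc := hcard H 253 967680 hH (by norm_num) (by norm_num)
    exact Cfsg.Agent.Lib.Helper4.AutA.no253 _ (hmapM H) hc

end Cfsg.Agent.S1589
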