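import Cfsg.Statements.S1592
import Cfsg.Agent.Lib.Helper13.TernaryGolay

set_option autoImplicit false
open Cfsg

namespace Cfsg.Agent.S1592

open Cfsg.Agent.Lib.Helper13

/-- The parameters of the weight-6 words. -/
def par6 : Finset TgPar := Finset.univ.filter (fun c : TgPar => tgWt c = 6)

/-- The hexads as a finset. -/
def hexFin : Finset (Finset Cfsg.ArrayPt) := par6.image (fun c => Cfsg.ternarySupport (tgGen' c))

theorem coe_hexFin : (↑hexFin : Set (Finset Cfsg.ArrayPt)) =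
    {h : Finset Cfsg.ArrayPt | ∃ x ∈ Cfsg.ternaryGolayCode, Cfsg.ternarySupport x = h ∧ h.card = 6} := by
  ext h
  simp only [hexFin, par6, Finset.coe_image, Set.mem_image, Finset.coe_filter, Finset.mem_univ,
    true_and, Set.mem_ofPred_eq]
  constructor
  · rintro ⟨c, hc, rfl⟩
    exact ⟨tgGen' c, tgGen'_mem c, rfl, hc⟩
  · rintro ⟨x, hx, rfl, h6⟩
    obtain ⟨c, rfl⟩ := (tg_mem_iff_gen' x).1 hx
    exact ⟨c, h6, rfl⟩

theorem mem_hexFin {h : Finset Cfsg.ArrayPt} : h ∈ hexFin ↔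
    ∃ x ∈ Cfsg.ternaryGolayCode, Cfsg.ternarySupport x = h ∧ h.card = 6 := by
  have := congrArg (fun S => h ∈ S) coe_hexFin
  simpa using this

/-- Two hexads sharing five points coincide. -/
theorem hex_unique {h1 h2 : Finset Cfsg.ArrayPt} (m1 : h1 ∈ hexFin) (m2 : h2 ∈ hexFin)
    {s : Finset Cfsg.ArrayPt} (hs : s.card = 5) (s1 : s ⊆ h1) (s2 : s ⊆ h2) : h1 = h2 := by
  obtain ⟨x, hx, rfl, h6x⟩ := mem_hexFin.1 m1
  obtain ⟨y, hy, rfl, h6y⟩ := mem_hexFin.1 m2
  have h5 : 5 ≤ (Cfsg.ternarySupport x ∩ Cfsg.ternarySupport y).card := by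
    rw [← hs]
    exact Finset.card_le_card (Finset.subset_inter s1 s2)
  rcases tg_pm hx hy h6x h6y h5 with rfl | rfl
  · rfl
  · rw [tg_supp_neg]

theorem card_par6_le : par6.card ≤ 2 * hexFin.card := by
  unfold hexFin
  apply Finset.card_le_mul_card_image
  intro h hh
  obtain ⟨c0, hc0, rfl⟩ := Finset.mem_image.1 hh
  have hc0' : tgWt c0 = 6 := (Finset.mem_filter.1 hc0).2
  calc (par6.filter (fun c => Cfsg.ternarySupport (tgGen' c) =
          Cfsg.ternarySupport (tgGen' c0))).card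
      ≤ ({tgGen' c0, -tgGen' c0} : Finset (Cfsg.ArrayPt → ZMod 3)).card := by
        apply Finset.card_le_card_of_injOn tgGen'
        · intro c hc
          have hc1 := Finset.mem_filter.1 (Finset.mem_coe.1 hc)
          have hc' : tgWt c = 6 := (Finset.mem_filter.1 hc1.1).2
          have h5 : 5 ≤ (Cfsg.ternarySupport (tgGen' c0) ∩
              Cfsg.ternarySupport (tgGen' c)).card := by
            rw [hc1.2, Finset.inter_self]
            have : (Cfsg.ternarySupport (tgGen' c0)).card = 6 := hc0'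
            omega
          have := tg_pm (tgGen'_mem c0) (tgGen'_mem c) hc0' hc' h5
          simpa using this
        · exact fun a _ b _ hab => tgGen'_injective hab
    _ ≤ 2 := Finset.card_le_two

theorem card_arrayPt : Fintype.card Cfsg.ArrayPt = 12 := by
  simp [ZMod.card]

/-- Counting five-subsets of blocks. -/
theorem steiner_count (H : Finset (Finset Cfsg.ArrayPt)) (h6 : ∀ h ∈ H, h.card = 6)
    (huniq : ∀ h1 ∈ H, ∀ h2 ∈ H, ∀ s : Finset Cfsg.ArrayPt, s.card = 5 → s ⊆ h1 → s ⊆ h2 →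
      h1 = h2) :
    6 * H.card ≤ 792 ∧
      (6 * H.card = 792 → ∀ s : Finset Cfsg.ArrayPt, s.card = 5 → ∃ h ∈ H, s ⊆ h) := by
  have hsub : H.biUnion (fun h => h.powersetCard 5) ⊆
      (Finset.univ : Finset Cfsg.ArrayPt).powersetCard 5 := by
    intro s hs
    obtain ⟨h, _, hs⟩ := Finset.mem_biUnion.1 hs
    rw [Finset.mem_powersetCard] at hs ⊢
    exact ⟨Finset.subset_univ _, hs.2⟩
  have hcard : (H.biUnion (fun h => h.powersetCard 5)).card = 6 * H.card := by
    rw [Finset.card_biUnion]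
    · rw [Finset.sum_const_nat (m := 6), mul_comm]
      intro h hh
      rw [Finset.card_powersetCard, h6 h hh]
      rfl
    · intro h1 m1 h2 m2 hne
      show Disjoint _ _
      rw [Finset.disjoint_left]
      intro s hs1 hs2
      rw [Finset.mem_powersetCard] at hs1 hs2
      exact hne (huniq h1 m1 h2 m2 s hs1.2 hs1.1 hs2.1)
  have h792 : ((Finset.univ : Finset Cfsg.ArrayPt).powersetCard 5).card = 792 := by
    rw [Finset.card_powersetCard, Finset.card_univ, card_arrayPt]
    rfl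
  refine ⟨?_, fun h s hs => ?_⟩
  · rw [← hcard, ← h792]
    exact Finset.card_le_card hsub
  · have h1 : H.biUnion (fun h => h.powersetCard 5) =
        (Finset.univ : Finset Cfsg.ArrayPt).powersetCard 5 := by
      apply Finset.eq_of_subset_of_card_le hsub
      rw [hcard, h792, h]
    have h2 : s ∈ (Finset.univ : Finset Cfsg.ArrayPt).powersetCard 5 :=
      Finset.mem_powersetCard.2 ⟨Finset.subset_univ _, hs⟩
    rw [← h1] at h2
    obtain ⟨h, hh, hsh⟩ := Finset.mem_biUnion.1 h2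
    exact ⟨h, hh, (Finset.mem_powersetCard.1 hsh).1⟩

theorem hexFin_six {h : Finset Cfsg.ArrayPt} (hh : h ∈ hexFin) : h.card = 6 := by
  obtain ⟨x, hx, rfl, h6⟩ := mem_hexFin.1 hh
  exact h6

theorem hexFin_count : 6 * hexFin.card ≤ 792 ∧
    (6 * hexFin.card = 792 → ∀ s : Finset Cfsg.ArrayPt, s.card = 5 → ∃ h ∈ hexFin, s ⊆ h) :=
  steiner_count hexFin (fun _ hh => hexFin_six hh)
    (fun _ m1 _ m2 _ hs s1 s2 => hex_unique m1 m2 hs s1 s2)

theorem card_hexFin : hexFin.card = 132 := by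
  have h1 := card_par6_le
  have h2 := hexFin_count.1
  have h3 : par6.card = 264 := tg_count6
  omega

/-- Every five points lie in a hexad. -/
theorem hex_exists {s : Finset Cfsg.ArrayPt} (hs : s.card = 5) : ∃ h ∈ hexFin, s ⊆ h :=
  hexFin_count.2 (by rw [card_hexFin]) s hs

/-- The supports of the weight-6 words of the length-12 ternary code form a Steiner system S(5, 6, 12) with 132 blocks. -/
theorem result : Cfsg.IsSteinerSystem 5 6 {h : Finset Cfsg.ArrayPt | ∃ x ∈ Cfsg.ternaryGolayCode, Cfsg.ternarySupport x = h ∧ h.card = 6} ∧ {h : Finset Cfsg.ArrayPt | ∃ x ∈ Cfsg.ternaryGolayCode, Cfsg.ternarySupport x = h ∧ h.card = 6}.ncard = 132 := by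
  rw [← coe_hexFin]
  refine ⟨⟨fun b hb => ?_, fun s hs => ?_⟩, ?_⟩
  · obtain ⟨x, hx, rfl, h6⟩ := mem_hexFin.1 (Finset.mem_coe.1 hb)
    exact h6
  · obtain ⟨h, hh, hsh⟩ := hex_exists hs
    refine ⟨h, ⟨Finset.mem_coe.2 hh, hsh⟩, fun h' hh' => ?_⟩
    exact hex_unique (Finset.mem_coe.1 hh'.1) hh hs hh'.2 hsh
  · rw [Set.ncard_coe_finset, card_hexFin]

end Cfsg.Agent.S1592
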