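import Cfsg.Statements.S1593
import Cfsg.Agent.S1592

set_option autoImplicit false
open Cfsg

namespace Cfsg.Agent.S1593

open Cfsg.Agent.Lib.Helper13

theorem units3 : ∀ u : (ZMod 3)ˣ, u = 1 ∨ u = -1 := by decide

theorem supp_mono (c : Cfsg.ArrayPt → (ZMod 3)ˣ) (x : Cfsg.ArrayPt → ZMod 3) :
    Cfsg.ternarySupport (Cfsg.monomialMap 1 c x) = Cfsg.ternarySupport x := by
  show Finset.univ.filter (fun a => Cfsg.monomialMap 1 c x a ≠ 0) =
    Finset.univ.filter (fun a => x a ≠ 0)
  apply Finset.filter_congr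
  intro p _
  show (c p : ZMod 3) * x p ≠ 0 ↔ x p ≠ 0
  simp

/-- A sign change preserving the code is constant on every hexad. -/
theorem const_on_hex (c : Cfsg.ArrayPt → (ZMod 3)ˣ)
    (h : ∀ x ∈ Cfsg.ternaryGolayCode, Cfsg.monomialMap 1 c x ∈ Cfsg.ternaryGolayCode)
    {b : Finset Cfsg.ArrayPt} (hb : b ∈ Cfsg.Agent.S1592.hexFin) :
    ∀ p ∈ b, ∀ q ∈ b, c p = c q := by
  obtain ⟨x, hx, rfl, h6⟩ := Cfsg.Agent.S1592.mem_hexFin.1 hb
  have hy := h x hx
  have hsupp := supp_mono c x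
  have h5 : 5 ≤ (Cfsg.ternarySupport x ∩
      Cfsg.ternarySupport (Cfsg.monomialMap 1 c x)).card := by
    rw [hsupp, Finset.inter_self]; omega
  have key : ∀ p ∈ Cfsg.ternarySupport x, ∀ ε : ZMod 3,
      Cfsg.monomialMap 1 c x p = ε * x p → (c p : ZMod 3) = ε := by
    intro p hp ε he
    have hxp : x p ≠ 0 := by simpa [Cfsg.ternarySupport] using hp
    have he' : (c p : ZMod 3) * x p = ε * x p := he
    exact mul_right_cancel₀ hxp he'
  rcases tg_pm hx hy h6 (by rw [hsupp]; exact h6) h5 with e | e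
  · intro p hp q hq
    apply Units.ext
    rw [key p hp 1 (by rw [e, one_mul]), key q hq 1 (by rw [e, one_mul])]
  · intro p hp q hq
    apply Units.ext
    rw [key p hp (-1) (by rw [e]; simp), key q hq (-1) (by rw [e]; simp)]

/-- The only sign changes preserving the length-12 ternary code are the identity and negation of all coordinates. -/
theorem result (c : Cfsg.ArrayPt → (ZMod 3)ˣ) (h : (∀ x ∈ Cfsg.ternaryGolayCode, Cfsg.monomialMap 1 c x ∈ Cfsg.ternaryGolayCode)) : (∀ p, c p = 1) ∨ (∀ p, c p = -1) := by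
  have hconst : ∀ p q : Cfsg.ArrayPt, c p = c q := by
    intro p q
    have h2 : ({p, q} : Finset Cfsg.ArrayPt).card ≤ 5 :=
      le_trans Finset.card_le_two (by norm_num)
    have h12 : 5 ≤ (Finset.univ : Finset Cfsg.ArrayPt).card := by
      rw [Finset.card_univ, Cfsg.Agent.S1592.card_arrayPt]; norm_num
    obtain ⟨s, hs1, _, hs⟩ := Finset.exists_subsuperset_card_eq (Finset.subset_univ _) h2 h12
    obtain ⟨b, hb, hsb⟩ := Cfsg.Agent.S1592.hex_exists hs
    exact const_on_hex c h hb p (hsb (hs1 (by simp))) q (hsb (hs1 (by simp)))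
  rcases units3 (c (0, 0)) with h0 | h0
  · exact Or.inl (fun p => (hconst p (0, 0)).trans h0)
  · exact Or.inr (fun p => (hconst p (0, 0)).trans h0)

end Cfsg.Agent.S1593
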