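import Cfsg.Statements.S1595
import Cfsg.Agent.Lib.Helper4.Steiner

set_option autoImplicit false
open Cfsg

namespace Cfsg.Agent.S1595

open Cfsg.Agent.Lib.Helper4 Cfsg.Agent.Lib.Helper4.Steiner Finset

section aux
variable {α : Type*} [Fintype α] [DecidableEq α]

/-- Blocks meeting `b` exactly in `s` are counted by the blocks through `s` missing `b \ s`. -/
theorem ncard_exact (B : Set (Finset α)) (b s : Finset α) (hs : s ⊆ b) :
    {c : Finset α | c ∈ B ∧ b ∩ c = s}.ncard = cnt B s (b \ s) 0 := by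
  rw [ncard_setOf, cnt]
  congr 1
  apply Finset.filter_congr
  intro d _
  rw [Finset.card_eq_zero]
  constructor
  · intro h
    refine ⟨?_, ?_⟩
    · rw [← h]
      exact inter_subset_right
    · rw [Finset.eq_empty_iff_forall_notMem]
      intro x hx
      rw [mem_inter, mem_sdiff] at hx
      apply hx.2.2
      rw [← h, mem_inter]
      exact ⟨hx.2.1, hx.1⟩
  · rintro ⟨h1, h2⟩
    ext x
    rw [mem_inter]
    constructor
    · rintro ⟨hxb, hxd⟩
      by_contra hxs
      have : x ∈ d ∩ (b \ s) := mem_inter.2 ⟨hxd, mem_sdiff.2 ⟨hxb, hxs⟩⟩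
      rw [h2] at this
      exact absurd this (Finset.notMem_empty x)
    · intro hxs
      exact ⟨hs hxs, h1 hxs⟩

theorem cnt_top {B : Set (Finset α)} (hB : IsSteinerSystem 5 6 B) {b : Finset α} (hb : b ∈ B)
    {s : Finset α} (hs : s ⊆ b) : cnt B s (b \ s) (b \ s).card = 1 := by
  rw [cnt, card_eq_one]
  refine ⟨b, ?_⟩
  ext d
  simp only [mem_filter, mem_blocks, mem_singleton]
  constructor
  · rintro ⟨hd, hsd, hj⟩
    have h1 : d ∩ (b \ s) = b \ s :=
      Finset.eq_of_subset_of_card_le inter_subset_right (by rw [hj])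
    have h2 : b \ s ⊆ d := by
      rw [← h1]
      exact inter_subset_left
    have h3 : b ⊆ d := by
      intro x hx
      by_cases hxs : x ∈ s
      · exact hsd hxs
      · exact h2 (mem_sdiff.2 ⟨hx, hxs⟩)
    apply eq_of_le_inter hB hd hb
    rw [Finset.inter_eq_right.2 h3, hB.1 b hb]
    norm_num
  · rintro rfl
    exact ⟨hb, hs, by rw [Finset.inter_eq_right.2 sdiff_subset]⟩

end aux

/-- Leech triangle of S(5, 6, 12): blocks meet in 0, 2, 3 or 4 points, and a block is met exactly in a given 2-, 3- or 4-subset by 3, 2, 3 blocks respectively. -/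
theorem result {α : Type*} [Fintype α] [DecidableEq α] (hα : Fintype.card α = 12) {B : Set (Finset α)} (hB : Cfsg.IsSteinerSystem 5 6 B) (b : Finset α) (hb : b ∈ B) : (∀ c ∈ B, c ≠ b → (b ∩ c).card = 0 ∨ (b ∩ c).card = 2 ∨ (b ∩ c).card = 3 ∨ (b ∩ c).card = 4) ∧ ∀ s ⊆ b, (s.card = 2 → {c : Finset α | c ∈ B ∧ b ∩ c = s}.ncard = 3) ∧ (s.card = 3 → {c : Finset α | c ∈ B ∧ b ∩ c = s}.ncard = 2) ∧ (s.card = 4 → {c : Finset α | c ∈ B ∧ b ∩ c = s}.ncard = 3) := by
  have hbc : b.card = 6 := hB.1 b hb
  have hd := fun T => s5612_deg hα hB T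
  refine ⟨?_, ?_⟩
  · intro c hc hne
    have h1 := (s5612 hα hB hb).2.1
    have h2 : (c ∩ b).card ≠ 1 := by
      intro h
      have := cnt_pos (B := B) (s := ∅) (X := b) hc (empty_subset c) h
      omega
    have h3 : (c ∩ b).card < 5 := by
      by_contra hge
      exact hne (eq_of_le_inter hB hc hb (by omega))
    rw [inter_comm] at h2 h3
    omega
  · intro s hs
    have hdisj : Disjoint s (b \ s) := disjoint_sdiff
    have hXc : (b \ s).card = 6 - s.card := by
      rw [card_sdiff_of_subset hs, hbc]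
    have htop := cnt_top hB hb hs
    rw [ncard_exact B b s hs]
    refine ⟨?_, ?_, ?_⟩
    · intro h2
      rw [h2] at hXc
      rw [hXc] at htop
      have e0 := sum_choose_cnt B s (b \ s) hdisj 0 30 5
        (fun T hT => (hd T).2.2.1 (by rw [hT, h2])) (by omega)
      have e1 := sum_choose_cnt B s (b \ s) hdisj 1 12 5
        (fun T hT => (hd T).2.2.2.1 (by rw [hT, h2])) (by omega)
      have e2 := sum_choose_cnt B s (b \ s) hdisj 2 4 5
        (fun T hT => (hd T).2.2.2.2.1 (by rw [hT, h2])) (by omega)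
      have e3 := sum_choose_cnt B s (b \ s) hdisj 3 1 5
        (fun T hT => (hd T).2.2.2.2.2 (by rw [hT, h2])) (by omega)
      simp only [sum_range_succ, sum_range_zero, hXc, htop] at e0 e1 e2 e3
      norm_num [Nat.choose] at e0 e1 e2 e3
      omega
    · intro h3
      rw [h3] at hXc
      rw [hXc] at htop
      have e0 := sum_choose_cnt B s (b \ s) hdisj 0 12 4
        (fun T hT => (hd T).2.2.2.1 (by rw [hT, h3])) (by omega)
      have e1 := sum_choose_cnt B s (b \ s) hdisj 1 4 4
        (fun T hT => (hd T).2.2.2.2.1 (by rw [hT, h3])) (by omega)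
      have e2 := sum_choose_cnt B s (b \ s) hdisj 2 1 4
        (fun T hT => (hd T).2.2.2.2.2 (by rw [hT, h3])) (by omega)
      simp only [sum_range_succ, sum_range_zero, hXc, htop] at e0 e1 e2
      norm_num [Nat.choose] at e0 e1 e2
      omega
    · intro h4
      rw [h4] at hXc
      rw [hXc] at htop
      have e0 := sum_choose_cnt B s (b \ s) hdisj 0 4 3
        (fun T hT => (hd T).2.2.2.2.1 (by rw [hT, h4])) (by omega)
      have e1 := sum_choose_cnt B s (b \ s) hdisj 1 1 3
        (fun T hT => (hd T).2.2.2.2.2 (by rw [hT, h4])) (by omega)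
      simp only [sum_range_succ, sum_range_zero, hXc, htop] at e0 e1
      norm_num [Nat.choose] at e0 e1
      omega
end Cfsg.Agent.S1595
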