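import Cfsg.Statements.S1599
import Cfsg.Agent.Lib.Helper4.Qt4

set_option autoImplicit false
open scoped Pointwise
open Cfsg

namespace Cfsg.Agent.S1599

open Cfsg.Agent.Lib.Helper4 Cfsg.Agent.Lib.Helper4.Golay Cfsg.Agent.Lib.Helper4.Qt in

/-- A quartet stabiliser has five orbits on the quartets of its dodecad, of sizes 1, 12, 27, 72, 108. -/
theorem result (d : Finset Cfsg.GolayPt) (hd : d ∈ Cfsg.dodecads) (Q : Finset (Finset Cfsg.GolayPt)) (hQ : Q ∈ Cfsg.quartets d) : ∃ X₁ ∈ Cfsg.quartets d, ∃ X₂ ∈ Cfsg.quartets d, ∃ X₃ ∈ Cfsg.quartets d, ∃ X₄ ∈ Cfsg.quartets d, (MulAction.orbit ↥(MulAction.stabilizer Cfsg.M24 d ⊓ MulAction.stabilizer Cfsg.M24 Q) X₁).ncard = 12 ∧ (MulAction.orbit ↥(MulAction.stabilizer Cfsg.M24 d ⊓ MulAction.stabilizer Cfsg.M24 Q) X₂).ncard = 27 ∧ (MulAction.orbit ↥(MulAction.stabilizer Cfsg.M24 d ⊓ MulAction.stabilizer Cfsg.M24 Q) X₃).ncard = 72 ∧ (MulAction.orbit ↥(MulAction.stabilizer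 Cfsg.M24 d ⊓ MulAction.stabilizer Cfsg.M24 Q) X₄).ncard = 108 ∧ Cfsg.quartets d = {Q} ∪ MulAction.orbit ↥(MulAction.stabilizer Cfsg.M24 d ⊓ MulAction.stabilizer Cfsg.M24 Q) X₁ ∪ MulAction.orbit ↥(MulAction.stabilizer Cfsg.M24 d ⊓ MulAction.stabilizer Cfsg.M24 Q) X₂ ∪ MulAction.orbit ↥(MulAction.stabilizer Cfsg.M24 d ⊓ MulAction.stabilizer Cfsg.M24 Q) X₃ ∪ MulAction.orbit ↥(MulAction.stabilizer Cfsg.M24 d ⊓ MulAction.stabilizer Cfsg.M24 Q) X₄ := by
  classical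
  obtain ⟨X, hX, n1, n2, n3, n4, hcov⟩ := Qt.mainQ hd hQ
  have orbEq : ∀ R : Finset (Finset GolayPt),
      MulAction.orbit ↥(MulAction.stabilizer M24 d ⊓ MulAction.stabilizer M24 Q) R
        = {Z | Orb2 d Q R Z} := by
    intro R
    ext Z
    exact mem_orbit_iff2 d Q R Z
  refine ⟨X 1, hX 1, X 2, hX 2, X 3, hX 3, X 4, hX 4, ?_, ?_, ?_, ?_, ?_⟩
  · rw [orbEq]
    exact n1
  · rw [orbEq]
    exact n2
  · rw [orbEq]
    exact n3
  · rw [orbEq]
    exact n4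
  · rw [orbEq, orbEq, orbEq, orbEq]
    ext Z
    simp only [Set.mem_union, Set.mem_singleton_iff, Set.mem_ofPred_eq]
    constructor
    · intro hZ
      rcases hcov Z hZ with h | h | h | h | h
      · exact Or.inl (Or.inl (Or.inl (Or.inl h)))
      · exact Or.inl (Or.inl (Or.inl (Or.inr h)))
      · exact Or.inl (Or.inl (Or.inr h))
      · exact Or.inl (Or.inr h)
      · exact Or.inr h
    · rintro ((((h | h) | h) | h) | h)
      · rw [h]
        exact hQ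
      · exact orb2_quartet (hX 1) h
      · exact orb2_quartet (hX 2) h
      · exact orb2_quartet (hX 3) h
      · exact orb2_quartet (hX 4) h

end Cfsg.Agent.S1599
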