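import Cfsg.Statements.S1600
import Cfsg.Agent.Lib.Helper4.Rk3

set_option autoImplicit false
open scoped Pointwise
open Cfsg

namespace Cfsg.Agent.S1600

open Cfsg.Agent.Lib.Helper4 Cfsg.Agent.Lib.Helper4.Golay in

/-- The pointwise stabiliser of three points of a dodecad inside the dodecad stabiliser (order 72) is transitive on the complementary dodecad. -/
theorem result (d : Finset Cfsg.GolayPt) (hd : d ∈ Cfsg.dodecads) (p q r : Cfsg.GolayPt) (hp : p ∈ d) (hq : q ∈ d) (hr : r ∈ d) (hpq : p ≠ q) (hpr : p ≠ r) (hqr : q ≠ r) : Nat.card ↥(MulAction.stabilizer Cfsg.M24 d ⊓ MulAction.stabilizer Cfsg.M24 p ⊓ MulAction.stabilizer Cfsg.M24 q ⊓ MulAction.stabilizer Cfsg.M24 r) = 72 ∧ ∀ x ∉ d, ∀ y ∉ d, ∃ g ∈ (MulAction.stabilizer Cfsg.M24 d ⊓ MulAction.stabilizer Cfsg.M24 p ⊓ MulAction.stabilizer Cfsg.M24 q ⊓ MulAction.stabilizer Cfsg.M24 r), ((g : ↥Cfsg.M24) : Equiv.Perm Cfsg.GolayPt) x = y := by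
  have mem_d : ∀ (g : Equiv.Perm GolayPt), g • d = d → ∀ z ∈ d, g z ∈ d := by
    intro g hg z hz
    have h2 : g z ∈ g • d := Finset.smul_mem_smul_finset hz
    rwa [hg] at h2
  refine ⟨?_, ?_⟩
  · have h1 := card_orbit_mul_stab
      (G := ↥(MulAction.stabilizer M24 d ⊓ MulAction.stabilizer M24 p)) q
    rw [Nat.card_congr (stabEquivG (MulAction.stabilizer M24 d ⊓ MulAction.stabilizer M24 p) q),
      card_stab_dod_pt hd hp] at h1
    have horb1 : MulAction.orbit ↥(MulAction.stabilizer M24 d ⊓ MulAction.stabilizer M24 p) q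
        = ((d.erase p : Finset GolayPt) : Set GolayPt) := by
      ext s
      constructor
      · rintro ⟨g, rfl⟩
        have hgd : (g.1.1 : Equiv.Perm GolayPt) • d = d := g.2.1
        have hgp : (g.1.1 : Equiv.Perm GolayPt) p = p := g.2.2
        show (g.1.1 : Equiv.Perm GolayPt) q ∈ ((d.erase p : Finset GolayPt) : Set GolayPt)
        rw [Finset.mem_coe, Finset.mem_erase]
        refine ⟨fun h => hpq ?_, mem_d _ hgd q hq⟩
        exact ((g.1.1 : Equiv.Perm GolayPt).injective (h.trans hgp.symm)).symm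
      · intro hs
        rw [Finset.mem_coe, Finset.mem_erase] at hs
        obtain ⟨g, hg, hgd, e1, e2⟩ := dod_map2 hd hp hq hp hs.2 hpq (Ne.symm hs.1)
        exact ⟨⟨⟨g, hg⟩, ⟨hgd, e1⟩⟩, e2⟩
    rw [horb1, Set.ncard_coe_finset, Finset.card_erase_of_mem hp, hd.2] at h1
    have h2 := card_orbit_mul_stab
      (G := ↥(MulAction.stabilizer M24 d ⊓ MulAction.stabilizer M24 p
        ⊓ MulAction.stabilizer M24 q)) r
    rw [Nat.card_congr (stabEquivG (MulAction.stabilizer M24 d ⊓ MulAction.stabilizer M24 p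
        ⊓ MulAction.stabilizer M24 q) r)] at h2
    have horb2 : MulAction.orbit ↥(MulAction.stabilizer M24 d ⊓ MulAction.stabilizer M24 p
        ⊓ MulAction.stabilizer M24 q) r
        = (((d.erase p).erase q : Finset GolayPt) : Set GolayPt) := by
      ext s
      constructor
      · rintro ⟨g, rfl⟩
        have hgd : (g.1.1 : Equiv.Perm GolayPt) • d = d := g.2.1.1
        have hgp : (g.1.1 : Equiv.Perm GolayPt) p = p := g.2.1.2
        have hgq : (g.1.1 : Equiv.Perm GolayPt) q = q := g.2.2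
        show (g.1.1 : Equiv.Perm GolayPt) r ∈ (((d.erase p).erase q : Finset GolayPt) : Set GolayPt)
        rw [Finset.mem_coe, Finset.mem_erase, Finset.mem_erase]
        refine ⟨fun h => hqr ?_, fun h => hpr ?_, mem_d _ hgd r hr⟩
        · exact ((g.1.1 : Equiv.Perm GolayPt).injective (h.trans hgq.symm)).symm
        · exact ((g.1.1 : Equiv.Perm GolayPt).injective (h.trans hgp.symm)).symm
      · intro hs
        rw [Finset.mem_coe, Finset.mem_erase, Finset.mem_erase] at hs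
        obtain ⟨g, hg, hgd, e1, e2, e3⟩ := dod_map3 hd hp hq hr hp hq hs.2.2 hpq hpr hqr hpq
          (Ne.symm hs.2.1) (Ne.symm hs.1)
        exact ⟨⟨⟨g, hg⟩, ⟨⟨hgd, e1⟩, e2⟩⟩, e3⟩
    rw [horb2, Set.ncard_coe_finset, Finset.card_erase_of_mem
      (Finset.mem_erase.2 ⟨Ne.symm hpq, hq⟩), Finset.card_erase_of_mem hp, hd.2] at h2
    omega
  · intro x hx y hy
    obtain ⟨h1, hh1, e1⟩ := dod_trans hd D0_dod
    have e1' : h1 • d = D0s := e1
    have m1 : ∀ z ∈ d, h1 z ∈ D0s := by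
      intro z hz
      rw [← e1', Rk.mem_smul_iff]
      exact hz
    obtain ⟨h2, hh2, e2, f0, f1, f2⟩ := dod_map3 (d := D0s) D0_dod (m1 p hp) (m1 q hq) (m1 r hr)
      (pt_mem_D0s 0 (by norm_num)) (pt_mem_D0s 1 (by norm_num)) (pt_mem_D0s 2 (by norm_num))
      (fun h => hpq (h1.injective h)) (fun h => hpr (h1.injective h))
      (fun h => hqr (h1.injective h)) (by decide) (by decide) (by decide)
    have hh : h2 * h1 ∈ M24 := M24.mul_mem hh2 hh1
    have hO : (h2 * h1) • d = D0s := by rw [mul_smul, e1', e2]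
    have hp0 : (h2 * h1) p = pt 0 := by rw [Equiv.Perm.mul_apply, f0]
    have hq0 : (h2 * h1) q = pt 1 := by rw [Equiv.Perm.mul_apply, f1]
    have hr0 : (h2 * h1) r = pt 2 := by rw [Equiv.Perm.mul_apply, f2]
    generalize h2 * h1 = h at hh hO hp0 hq0 hr0
    have out : ∀ z, z ∉ d → h z ∉ D0s := by
      intro z hz
      rw [← hO, Rk.mem_smul_iff]
      exact hz
    obtain ⟨g0, hg0, gd, g0p, g0q, g0r, gxy⟩ := Rk.std_trans3 (h x) (h y) (out x hx) (out y hy)
    have hg : h⁻¹ * g0 * h ∈ M24 := M24.mul_mem (M24.mul_mem (M24.inv_mem hh) hg0) hh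
    refine ⟨⟨h⁻¹ * g0 * h, hg⟩, ⟨⟨⟨?_, ?_⟩, ?_⟩, ?_⟩, ?_⟩
    · show (h⁻¹ * g0 * h) • d = d
      exact Rk.conj_smul (by rw [hO]; exact gd)
    · show (h⁻¹ * g0 * h) p = p
      exact Rk.conj_pt (by rw [hp0]; exact g0p)
    · show (h⁻¹ * g0 * h) q = q
      exact Rk.conj_pt (by rw [hq0]; exact g0q)
    · show (h⁻¹ * g0 * h) r = r
      exact Rk.conj_pt (by rw [hr0]; exact g0r)
    · show (h⁻¹ * g0 * h) x = y
      rw [Equiv.Perm.mul_apply, Equiv.Perm.mul_apply, gxy]
      exact h.symm_apply_apply y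

end Cfsg.Agent.S1600
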