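import Cfsg.Statements.S1604
import Cfsg.Agent.Lib.Helper4.RkC
import Cfsg.Agent.Lib.Helper4.Rk2

set_option autoImplicit false
open scoped Pointwise
open Cfsg

namespace Cfsg.Agent.S1604

open Cfsg.Agent.Lib.Helper4 Cfsg.Agent.Lib.Helper4.Golay in
set_option maxRecDepth 100000 in
theorem cnt2 : countComb (fun a => and (and (Nat.beq (pc a) 8) (and (a.testBit 0) (a.testBit 1)))
    (Nat.beq (pc (5279 &&& a)) 2)) basis 0 = 16 := by decide +kernel

open Cfsg.Agent.Lib.Helper4 Cfsg.Agent.Lib.Helper4.Golay in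
set_option maxRecDepth 100000 in
theorem cnt4 : countComb (fun a => and (and (Nat.beq (pc a) 8) (and (a.testBit 0) (a.testBit 1)))
    (Nat.beq (pc (5279 &&& a)) 4)) basis 0 = 60 := by decide +kernel

open Cfsg.Agent.Lib.Helper4 Cfsg.Agent.Lib.Helper4.Golay in

/-- A hexad stabiliser in the two-point stabiliser has orbits of sizes 1, 16, 60 on the 77 hexads: the 16 hexads disjoint from it and the 60 meeting it in two points. -/
theorem result (p q : Cfsg.GolayPt) (hpq : p ≠ q) (o o' o'' : Finset Cfsg.GolayPt) (ho : o ∈ Cfsg.octads) (ho' : o' ∈ Cfsg.octads) (ho'' : o'' ∈ Cfsg.octads) (hp : p ∈ o ∧ p ∈ o' ∧ p ∈ o'') (hq : q ∈ o ∧ q ∈ o' ∧ q ∈ o'') (h : (o ∩ o').card = (o ∩ o'').card) : {x : Finset Cfsg.GolayPt | x ∈ Cfsg.octads ∧ p ∈ x ∧ q ∈ x ∧ (o ∩ x).card = 2}.ncard = 16 ∧ {x : Finset Cfsg.GolayPt | x ∈ Cfsg.octads ∧ p ∈ x ∧ q ∈ x ∧ (o ∩ x).card = 4}.ncard = 60 ∧ ∃ g : Equiv.Perm Cfsg.GolayPt,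 g ∈ Cfsg.M24 ∧ g p = p ∧ g q = q ∧ g • o = o ∧ g • o' = o'' := by
  have hk := h
  clear h
  have h01 : pt 0 ≠ pt 1 := by decide
  obtain ⟨h1, hh1, e1p, e1q⟩ := Orb.m24_two p q (pt 0) (pt 1) hpq h01
  have hp0 : pt 0 ∈ O0s := by rw [mem_O0s]; decide
  have hp1 : pt 1 ∈ O0s := by rw [mem_O0s]; decide
  obtain ⟨h2, hh2, e2p, e2q, e3⟩ := Stv.octad_pq (h1 • o) O0s (smul_mem_weight hh1 ho) O0s_octad
    (pt 0) (pt 1) h01 (by rw [← e1p, Rk.mem_smul_iff]; exact hp.1)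
    (by rw [← e1q, Rk.mem_smul_iff]; exact hq.1) hp0 hp1
  have hh : h2 * h1 ∈ M24 := M24.mul_mem hh2 hh1
  have hx0 : (h2 * h1) p = pt 0 := by rw [Equiv.Perm.mul_apply, e1p, e2p]
  have hx1 : (h2 * h1) q = pt 1 := by rw [Equiv.Perm.mul_apply, e1q, e2q]
  have hO : (h2 * h1) • o = O0s := by rw [mul_smul, e3]
  generalize h2 * h1 = h at hh hx0 hx1 hO
  have key : ∀ k, {x : Finset GolayPt | x ∈ octads ∧ p ∈ x ∧ q ∈ x ∧ (o ∩ x).card = k}.ncard
      = countComb (fun a => and (and (Nat.beq (pc a) 8) (and (a.testBit 0) (a.testBit 1)))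
        (Nat.beq (pc (5279 &&& a)) k)) basis 0 := by
    intro k
    rw [Rk.ncard_transport hh (fun s => p ∈ s ∧ q ∈ s ∧ (o ∩ s).card = k)
      (fun s => pt 0 ∈ s ∧ pt 1 ∈ s ∧ (O0s ∩ s).card = k) ?_]
    · refine Rk.ncard_octads_pred _ _ (fun a => ?_)
      rw [O0s, Rk.card_inter_word, mem_support_word, mem_support_word, code_pt 0 (by norm_num),
        code_pt 1 (by norm_num), Bool.and_eq_true, Bool.and_eq_true, Bool.and_eq_true,
        Nat.beq_eq, Nat.beq_eq, and_assoc, and_assoc]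
    · intro s
      rw [← hx0, ← hx1, ← hO, Rk.card_inter_smul, Rk.mem_smul_iff, Rk.mem_smul_iff]
  refine ⟨by rw [key]; exact cnt2, by rw [key]; exact cnt4, ?_⟩
  have hsel : ∀ t : Finset GolayPt, p ∈ t → q ∈ t → ∀ a, pc a = 8 → h • t = support₂ (word a) →
      Rk.selC a = true := by
    intro t ht ht' a h8 ea
    have t0 : pt 0 ∈ h • t := by rw [← hx0, Rk.mem_smul_iff]; exact ht
    have t1 : pt 1 ∈ h • t := by rw [← hx1, Rk.mem_smul_iff]; exact ht'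
    rw [ea, mem_support_word, code_pt 0 (by norm_num)] at t0
    rw [ea, mem_support_word, code_pt 1 (by norm_num)] at t1
    simp [Rk.selC, h8, t0, t1]
  obtain ⟨g0, hg0, f0, eO, e'⟩ := Rk.rk_trans 5279 [0, 1] (by decide) Rk.repC Rk.selC Rk.tblC
    Rk.tblC_ok Rk.tblC_complete (h • o') (h • o'') (smul_mem_weight hh ho')
    (smul_mem_weight hh ho'') (hsel o' hp.2.1 hq.2.1) (hsel o'' hp.2.2 hq.2.2) (by
      show (O0s ∩ h • o').card = (O0s ∩ h • o'').card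
      rw [← hO, Rk.card_inter_smul, Rk.card_inter_smul]; exact hk)
  exact ⟨h⁻¹ * g0 * h, M24.mul_mem (M24.mul_mem (M24.inv_mem hh) hg0) hh,
    Rk.conj_pt (by rw [hx0]; exact f0 0 (by simp)),
    Rk.conj_pt (by rw [hx1]; exact f0 1 (by simp)),
    Rk.conj_smul (by rw [hO]; exact eO), Rk.conj_smul e'⟩

end Cfsg.Agent.S1604
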