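import Cfsg.Statements.S1605
import Cfsg.Agent.Lib.Helper4.RkD
import Cfsg.Agent.Lib.Helper4.Rk2

set_option autoImplicit false
open scoped Pointwise
open Cfsg

namespace Cfsg.Agent.S1605

open Cfsg.Agent.Lib.Helper4 Cfsg.Agent.Lib.Helper4.Golay in
set_option maxRecDepth 100000 in
theorem cntAll : countComb (fun a => and (Nat.beq (pc a) 8) (and (a.testBit 0) (not (a.testBit 5))))
    basis 0 = 176 := by decide +kernel

open Cfsg.Agent.Lib.Helper4 Cfsg.Agent.Lib.Helper4.Golay in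
set_option maxRecDepth 100000 in
theorem cnt2 : countComb (fun a => and (and (Nat.beq (pc a) 8) (and (a.testBit 0) (not (a.testBit 5))))
    (Nat.beq (pc (5279 &&& a)) 2)) basis 0 = 70 := by decide +kernel

open Cfsg.Agent.Lib.Helper4 Cfsg.Agent.Lib.Helper4.Golay in
set_option maxRecDepth 100000 in
theorem cnt4 : countComb (fun a => and (and (Nat.beq (pc a) 8) (and (a.testBit 0) (not (a.testBit 5))))
    (Nat.beq (pc (5279 &&& a)) 4)) basis 0 = 105 := by decide +kernel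

open Cfsg.Agent.Lib.Helper4 Cfsg.Agent.Lib.Helper4.Golay in

/-- The two-point stabiliser acts on the 176 octads through the first point avoiding the second with rank 3 and subdegrees 1, 70, 105 (intersections 8, 2, 4). -/
theorem result (p q : Cfsg.GolayPt) (hpq : p ≠ q) : {x : Finset Cfsg.GolayPt | (x ∈ Cfsg.octads ∧ p ∈ x ∧ q ∉ x)}.ncard = 176 ∧ (∀ o o' : Finset Cfsg.GolayPt, (o ∈ Cfsg.octads ∧ p ∈ o ∧ q ∉ o) → (o' ∈ Cfsg.octads ∧ p ∈ o' ∧ q ∉ o') → ∃ g : Equiv.Perm Cfsg.GolayPt, g ∈ Cfsg.M24 ∧ g p = p ∧ g q = q ∧ g • o = o') ∧ ∀ o : Finset Cfsg.GolayPt, (o ∈ Cfsg.octads ∧ p ∈ o ∧ q ∉ o) → {x : Finset Cfsg.GolayPt | (x ∈ Cfsg.octads ∧ p ∈ x ∧ q ∉ x) ∧ (o ∩ x).card = 2}.ncard = 70 ∧ {x : Finset Cfsg.GolayPt | (x ∈ Cfsg.octads ∧ p ∈ x ∧ q ∉ x) ∧ (o ∩ x).card = 4}.ncard = 105 ∧ ∀ o' o'' : Finset Cfsg.GolayPt, (o' ∈ Cfsg.octads ∧ p ∈ o' ∧ q ∉ o') → (o'' ∈ Cfsg.octads ∧ p ∈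 o'' ∧ q ∉ o'') → (o ∩ o').card = (o ∩ o'').card → ∃ g : Equiv.Perm Cfsg.GolayPt, g ∈ Cfsg.M24 ∧ g p = p ∧ g q = q ∧ g • o = o ∧ g • o' = o'' := by
  have h05 : pt 0 ≠ pt 5 := by decide
  obtain ⟨h1, hh1, e1p, e1q⟩ := Orb.m24_two p q (pt 0) (pt 5) hpq h05
  have hp0 : pt 0 ∈ O0s := by rw [mem_O0s]; decide
  have hp5 : pt 5 ∉ O0s := by rw [mem_O0s]; decide
  refine ⟨?_, ?_, ?_⟩
  · rw [Rk.ncard_transport hh1 (fun s => p ∈ s ∧ q ∉ s) (fun s => pt 0 ∈ s ∧ pt 5 ∉ s) ?_]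
    · rw [Rk.ncard_octads_pred _ _ (fun a => ?_)]
      · exact cntAll
      · rw [mem_support_word, mem_support_word, code_pt 0 (by norm_num),
          code_pt 5 (by norm_num), Bool.and_eq_true, Bool.and_eq_true,
          Nat.beq_eq, Bool.not_eq_true', Bool.not_eq_true]
    · intro s
      rw [← e1p, ← e1q, Rk.mem_smul_iff, Rk.mem_smul_iff]
  · intro o o' ho ho'
    obtain ⟨g, hg, e1, e2, e3⟩ := Stv.octad_p_notq o o' ho.1 ho'.1 p q ho.2.1 ho'.2.1 ho.2.2 ho'.2.2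
    exact ⟨g, hg, e1, e2, e3⟩
  intro o ho
  obtain ⟨h2, hh2, e2p, e2q, e3⟩ := Stv.octad_p_notq (h1 • o) O0s (smul_mem_weight hh1 ho.1)
    O0s_octad (pt 0) (pt 5) (by rw [← e1p, Rk.mem_smul_iff]; exact ho.2.1) hp0
    (by rw [← e1q, Rk.mem_smul_iff]; exact ho.2.2) hp5
  have hh : h2 * h1 ∈ M24 := M24.mul_mem hh2 hh1
  have hx0 : (h2 * h1) p = pt 0 := by rw [Equiv.Perm.mul_apply, e1p, e2p]
  have hx1 : (h2 * h1) q = pt 5 := by rw [Equiv.Perm.mul_apply, e1q, e2q]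
  have hO : (h2 * h1) • o = O0s := by rw [mul_smul, e3]
  generalize h2 * h1 = h at hh hx0 hx1 hO
  have key : ∀ k, {x : Finset GolayPt | (x ∈ octads ∧ p ∈ x ∧ q ∉ x) ∧ (o ∩ x).card = k}.ncard
      = countComb (fun a => and (and (Nat.beq (pc a) 8) (and (a.testBit 0) (not (a.testBit 5))))
        (Nat.beq (pc (5279 &&& a)) k)) basis 0 := by
    intro k
    have hset : {x : Finset GolayPt | (x ∈ octads ∧ p ∈ x ∧ q ∉ x) ∧ (o ∩ x).card = k}
        = {x : Finset GolayPt | x ∈ octads ∧ p ∈ x ∧ q ∉ x ∧ (o ∩ x).card = k} :=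
      Set.ext fun s => ⟨fun hs => ⟨hs.1.1, hs.1.2.1, hs.1.2.2, hs.2⟩,
        fun hs => ⟨⟨hs.1, hs.2.1, hs.2.2.1⟩, hs.2.2.2⟩⟩
    rw [hset, Rk.ncard_transport hh (fun s => p ∈ s ∧ q ∉ s ∧ (o ∩ s).card = k)
      (fun s => pt 0 ∈ s ∧ pt 5 ∉ s ∧ (O0s ∩ s).card = k) ?_]
    · refine Rk.ncard_octads_pred _ _ (fun a => ?_)
      rw [O0s, Rk.card_inter_word, mem_support_word, mem_support_word, code_pt 0 (by norm_num),
        code_pt 5 (by norm_num), Bool.and_eq_true, Bool.and_eq_true, Bool.and_eq_true,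
        Nat.beq_eq, Nat.beq_eq, and_assoc, and_assoc, Bool.not_eq_true', Bool.not_eq_true]
    · intro s
      rw [← hx0, ← hx1, ← hO, Rk.card_inter_smul, Rk.mem_smul_iff, Rk.mem_smul_iff]
  refine ⟨by rw [key]; exact cnt2, by rw [key]; exact cnt4, ?_⟩
  have hsel : ∀ t : Finset GolayPt, p ∈ t → q ∉ t → ∀ a, pc a = 8 → h • t = support₂ (word a) →
      Rk.selD a = true := by
    intro t ht ht' a h8 ea
    have t0 : pt 0 ∈ h • t := by rw [← hx0, Rk.mem_smul_iff]; exact ht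
    have t1 : pt 5 ∉ h • t := by rw [← hx1, Rk.mem_smul_iff]; exact ht'
    rw [ea, mem_support_word, code_pt 0 (by norm_num)] at t0
    rw [ea, mem_support_word, code_pt 5 (by norm_num), Bool.not_eq_true] at t1
    simp [Rk.selD, h8, t0, t1]
  intro o' o'' ho' ho'' hk
  obtain ⟨g0, hg0, f0, eO, e'⟩ := Rk.rk_trans 5279 [0, 5] (by decide) Rk.repD Rk.selD Rk.tblD
    Rk.tblD_ok Rk.tblD_complete (h • o') (h • o'') (smul_mem_weight hh ho'.1)
    (smul_mem_weight hh ho''.1) (hsel o' ho'.2.1 ho'.2.2) (hsel o'' ho''.2.1 ho''.2.2) (by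
      show (O0s ∩ h • o').card = (O0s ∩ h • o'').card
      rw [← hO, Rk.card_inter_smul, Rk.card_inter_smul]; exact hk)
  exact ⟨h⁻¹ * g0 * h, M24.mul_mem (M24.mul_mem (M24.inv_mem hh) hg0) hh,
    Rk.conj_pt (by rw [hx0]; exact f0 0 (by simp)),
    Rk.conj_pt (by rw [hx1]; exact f0 5 (by simp)),
    Rk.conj_smul (by rw [hO]; exact eO), Rk.conj_smul e'⟩

end Cfsg.Agent.S1605
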