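import Cfsg.Statements.S1606
import Cfsg.Agent.Lib.Helper4.AutV

set_option autoImplicit false
open scoped Pointwise
open Cfsg

namespace Cfsg.Agent.S1606

/-- The stabiliser of two points in the group of the length-24 code has no subgroups of index 56 or 210. -/
theorem result (p q : Cfsg.GolayPt) (hpq : p ≠ q) (H : Subgroup ↥(MulAction.stabilizer Cfsg.M24 p ⊓ MulAction.stabilizer Cfsg.M24 q)) : H.index ≠ 56 ∧ H.index ≠ 210 := by
  classical
  have hcard := Cfsg.Agent.Lib.Helper4.Golay.card_stab_two p q hpq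
  have hidx := Subgroup.index_mul_card H
  rw [hcard] at hidx
  obtain ⟨φ, hφdef⟩ : ∃ φ : ↥(MulAction.stabilizer Cfsg.M24 p ⊓ MulAction.stabilizer Cfsg.M24 q) →*
      Equiv.Perm Cfsg.GolayPt, φ = Cfsg.M24.subtype.comp (Subgroup.subtype _) := ⟨_, rfl⟩
  have hφ : Function.Injective φ := by
    rw [hφdef]
    exact (Subgroup.subtype_injective _).comp (Subgroup.subtype_injective _)
  have hKc : Nat.card (H.map φ) = Nat.card H := Subgroup.card_map_of_injective hφ
  have hKM : H.map φ ≤ Cfsg.M24 := by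
    rintro _ ⟨k, -, rfl⟩
    rw [hφdef]
    exact k.1.2
  have hKp : ∀ k ∈ H.map φ, k p = p := by
    rintro _ ⟨k, -, rfl⟩
    rw [hφdef]
    exact k.2.1
  have hKq : ∀ k ∈ H.map φ, k q = q := by
    rintro _ ⟨k, -, rfl⟩
    rw [hφdef]
    exact k.2.2
  constructor
  · intro h56
    rw [h56] at hidx
    exact Cfsg.Agent.Lib.Helper4.AutA.no7920 (H.map φ) hKM hpq hKp hKq (by rw [hKc]; omega)
  · intro h210
    rw [h210] at hidx
    exact Cfsg.Agent.Lib.Helper4.AutA.no2112 (H.map φ) hKM hpq hKp hKq (by rw [hKc]; omega)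

end Cfsg.Agent.S1606
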