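import Cfsg.Statements.S1608
import Cfsg.Agent.Lib.Helper4.RkB
import Cfsg.Agent.Lib.Helper4.Rk2

set_option autoImplicit false
open scoped Pointwise
open Cfsg

namespace Cfsg.Agent.S1608

open Cfsg.Agent.Lib.Helper4 Cfsg.Agent.Lib.Helper4.Golay in
set_option maxRecDepth 100000 in
theorem cnt0 : countComb (fun a => and (and (Nat.beq (pc a) 8) (not (a.testBit 5)))
    (Nat.beq (pc (5279 &&& a)) 0)) basis 0 = 15 := by decide +kernel

open Cfsg.Agent.Lib.Helper4 Cfsg.Agent.Lib.Helper4.Golay in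
set_option maxRecDepth 100000 in
theorem cnt4 : countComb (fun a => and (and (Nat.beq (pc a) 8) (not (a.testBit 5)))
    (Nat.beq (pc (5279 &&& a)) 4)) basis 0 = 210 := by decide +kernel

open Cfsg.Agent.Lib.Helper4 Cfsg.Agent.Lib.Helper4.Golay in
set_option maxRecDepth 100000 in
theorem cnt2 : countComb (fun a => and (and (Nat.beq (pc a) 8) (not (a.testBit 5)))
    (Nat.beq (pc (5279 &&& a)) 2)) basis 0 = 280 := by decide +kernel

open Cfsg.Agent.Lib.Helper4 Cfsg.Agent.Lib.Helper4.Golay in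

/-- The point stabiliser acts on the 506 octads avoiding the point with rank 4 and subdegrees 1, 15, 210, 280, the suborbits being given by intersection size with the fixed octad. -/
theorem result (x : Cfsg.GolayPt) (o : Finset Cfsg.GolayPt) (ho : o ∈ Cfsg.octads) (hx : x ∉ o) : {o' : Finset Cfsg.GolayPt | o' ∈ Cfsg.octads ∧ x ∉ o' ∧ (o ∩ o').card = 0}.ncard = 15 ∧ {o' : Finset Cfsg.GolayPt | o' ∈ Cfsg.octads ∧ x ∉ o' ∧ (o ∩ o').card = 4}.ncard = 210 ∧ {o' : Finset Cfsg.GolayPt | o' ∈ Cfsg.octads ∧ x ∉ o' ∧ (o ∩ o').card = 2}.ncard = 280 ∧ ∀ o' o'' : Finset Cfsg.GolayPt, o' ∈ Cfsg.octads → o'' ∈ Cfsg.octads → x ∉ o' → x ∉ o'' → (o ∩ o').card = (o ∩ o'').card → ∃ g : Equiv.Perm Cfsg.GolayPt, g ∈ Cfsg.M24 ∧ g x = x ∧ g • o = o ∧ g • o' = o'' := by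
  obtain ⟨h1, hh1, e1⟩ := octad_trans o O0s ho O0s_octad
  have hp5 : pt 5 ∉ O0s := by rw [mem_O0s]; decide
  have hx1 : h1 x ∉ O0s := by
    rw [← e1, Rk.mem_smul_iff]
    exact hx
  obtain ⟨h2, hh2, e2, e3⟩ := Stv.oct_fix_trans O0s O0s_octad (h1 x) (pt 5) hx1 hp5
  have hh : h2 * h1 ∈ M24 := M24.mul_mem hh2 hh1
  have hx0 : (h2 * h1) x = pt 5 := by rw [Equiv.Perm.mul_apply, e3]
  have hO : (h2 * h1) • o = O0s := by rw [mul_smul, e1, Rk.smul_eq_of_fix e2]
  generalize h2 * h1 = h at hh hx0 hO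
  have key : ∀ k, {o' : Finset GolayPt | o' ∈ octads ∧ x ∉ o' ∧ (o ∩ o').card = k}.ncard
      = countComb (fun a => and (and (Nat.beq (pc a) 8) (not (a.testBit 5)))
        (Nat.beq (pc (5279 &&& a)) k)) basis 0 := by
    intro k
    rw [Rk.ncard_transport hh (fun s => x ∉ s ∧ (o ∩ s).card = k)
      (fun s => pt 5 ∉ s ∧ (O0s ∩ s).card = k) ?_]
    · refine Rk.ncard_octads_pred _ _ (fun a => ?_)
      rw [O0s, Rk.card_inter_word, mem_support_word, code_pt 5 (by norm_num), Bool.and_eq_true,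
        Bool.and_eq_true, Nat.beq_eq, Nat.beq_eq, and_assoc, Bool.not_eq_true', Bool.not_eq_true]
    · intro s
      rw [← hx0, ← hO, Rk.card_inter_smul, Rk.mem_smul_iff]
  refine ⟨by rw [key]; exact cnt0, by rw [key]; exact cnt4, by rw [key]; exact cnt2, ?_⟩
  intro o' o'' ho' ho'' hx' hx'' hk
  have hsel : ∀ t : Finset GolayPt, x ∉ t → ∀ a, pc a = 8 → h • t = support₂ (word a) →
      Rk.selB a = true := by
    intro t ht a h8 ea
    have : pt 5 ∉ h • t := by rw [← hx0, Rk.mem_smul_iff]; exact ht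
    rw [ea, mem_support_word, code_pt 5 (by norm_num), Bool.not_eq_true] at this
    simp [Rk.selB, h8, this]
  obtain ⟨g0, hg0, f0, eO, e'⟩ := Rk.rk_trans 5279 [5] (by decide) Rk.repB Rk.selB Rk.tblB
    Rk.tblB_ok Rk.tblB_complete (h • o') (h • o'') (smul_mem_weight hh ho')
    (smul_mem_weight hh ho'') (hsel o' hx') (hsel o'' hx'') (by
      show (O0s ∩ h • o').card = (O0s ∩ h • o'').card
      rw [← hO, Rk.card_inter_smul, Rk.card_inter_smul]; exact hk)
  exact ⟨h⁻¹ * g0 * h, M24.mul_mem (M24.mul_mem (M24.inv_mem hh) hg0) hh,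
    Rk.conj_pt (by rw [hx0]; exact f0 5 (by simp)),
    Rk.conj_smul (by rw [hO]; exact eO), Rk.conj_smul e'⟩

end Cfsg.Agent.S1608
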