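import Cfsg.Statements.S1609
import Cfsg.Agent.Lib.Helper4.AutX

set_option autoImplicit false
open scoped Pointwise
open Cfsg

namespace Cfsg.Agent.S1609

/-- Subgroups of index 253 in the Mathieu group of degree 23 are exactly the duad stabilisers and the heptad stabilisers. -/
theorem result (x : Cfsg.GolayPt) (H : Subgroup ↥(MulAction.stabilizer Cfsg.M24 x)) (hH : H.index = 253) : (∃ s : Finset Cfsg.GolayPt, s.card = 2 ∧ x ∉ s ∧ H = (MulAction.stabilizer Cfsg.M24 s).subgroupOf (MulAction.stabilizer Cfsg.M24 x)) ∨ ∃ o ∈ Cfsg.octads, x ∈ o ∧ H = (MulAction.stabilizer Cfsg.M24 o).subgroupOf (MulAction.stabilizer Cfsg.M24 x) := by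
  classical
  have hcard := Cfsg.Agent.Lib.Helper4.Golay.card_stab_pt x
  have hidx := Subgroup.index_mul_card H
  rw [hcard, hH] at hidx
  have hHc : Nat.card H = 40320 := by omega
  obtain ⟨φ, hφdef⟩ : ∃ φ : ↥(MulAction.stabilizer Cfsg.M24 x) →* Equiv.Perm Cfsg.GolayPt,
      φ = Cfsg.M24.subtype.comp (Subgroup.subtype _) := ⟨_, rfl⟩
  have hφ : Function.Injective φ := by
    rw [hφdef]
    exact (Subgroup.subtype_injective _).comp (Subgroup.subtype_injective _)
  have hφM : ∀ h, φ h ∈ Cfsg.M24 := by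
    intro h
    rw [hφdef]
    exact h.1.2
  have hφx : ∀ h, φ h x = x := by
    intro h
    rw [hφdef]
    exact h.2
  have hKM : H.map φ ≤ Cfsg.M24 := by
    rintro _ ⟨k, -, rfl⟩
    exact hφM k
  have hKx : ∀ k ∈ H.map φ, k x = x := by
    rintro _ ⟨k, -, rfl⟩
    exact hφx k
  have key : ∀ (s : Finset Cfsg.GolayPt), (∀ k ∈ H.map φ, k • s = s) →
      (∀ J : Subgroup (Equiv.Perm Cfsg.GolayPt), J ≤ Cfsg.M24 → (∀ k ∈ J, k x = x) →
        (∀ k ∈ J, k • s = s) → Nat.card J ≤ 40320) →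
      H = (MulAction.stabilizer Cfsg.M24 s).subgroupOf (MulAction.stabilizer Cfsg.M24 x) := by
    intro s hinv hbound
    have hle : H ≤ (MulAction.stabilizer Cfsg.M24 s).subgroupOf
        (MulAction.stabilizer Cfsg.M24 x) := by
      intro h hh
      rw [Subgroup.mem_subgroupOf, MulAction.mem_stabilizer_iff]
      have h1 := hinv (φ h) (Subgroup.mem_map_of_mem φ hh)
      rw [hφdef] at h1
      exact h1
    have hJ := hbound (((MulAction.stabilizer Cfsg.M24 s).subgroupOf
        (MulAction.stabilizer Cfsg.M24 x)).map φ)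
      (by
        rintro _ ⟨k, -, rfl⟩
        exact hφM k)
      (by
        rintro _ ⟨k, -, rfl⟩
        exact hφx k)
      (by
        rintro _ ⟨k, hk, rfl⟩
        rw [SetLike.mem_coe, Subgroup.mem_subgroupOf, MulAction.mem_stabilizer_iff] at hk
        rw [hφdef]
        exact hk)
    rw [Subgroup.card_map_of_injective hφ] at hJ
    exact Subgroup.eq_of_le_of_card_ge hle (by rw [hHc]; exact hJ)
  rcases Cfsg.Agent.Lib.Helper4.AutA.idx253 (H.map φ) hKM hKx
      (by rw [Subgroup.card_map_of_injective hφ, hHc]) with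
    ⟨a, b, hab, hax, hbx, hinv⟩ | ⟨O, hO, hxO, hinv⟩
  · left
    refine ⟨{a, b}, Finset.card_pair hab, ?_, key _ hinv (fun J hJ hJx hJs =>
      Cfsg.Agent.Lib.Helper4.AutA.duad_bound J hJ hab hax hbx hJx hJs)⟩
    rw [Finset.mem_insert, Finset.mem_singleton]
    rintro (h | h)
    · exact hax h.symm
    · exact hbx h.symm
  · right
    exact ⟨O, hO, hxO, key _ hinv (fun J hJ hJx hJs =>
      Cfsg.Agent.Lib.Helper4.AutA.oct_in_bound J hJ hO hxO hJx hJs)⟩

end Cfsg.Agent.S1609
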