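import Cfsg.Statements.S1611
import Cfsg.Agent.Lib.Helper13.Hexacode

set_option autoImplicit false
open Cfsg

namespace Cfsg.Agent.S1611

open Cfsg.Agent.Lib.Helper13

def h4one : H4 := (1, 0)

/-- Decoding from the first three coordinates. -/
def h4Dec (y : Fin 6 → H4) : H4Par :=
  (h4mul h4w (y 0) + h4mul h4w2 (y 1),
    h4mul h4w2 (y 0) + h4mul h4w2 (y 1) + y 2,
    y 1 + y 2)

set_option maxRecDepth 100000 in
theorem h4Dec_word : ∀ t : H4Par, h4Dec (h4Word t) = t := by decide +kernel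

/-- Decidable membership in the concrete hexacode. -/
def h4Mem (y : Fin 6 → H4) : Prop := y = h4Word (h4Dec y)

instance (y : Fin 6 → H4) : Decidable (h4Mem y) := by unfold h4Mem; infer_instance

theorem h4Mem_word (t : H4Par) : h4Mem (h4Word t) := by
  unfold h4Mem; rw [h4Dec_word]

/-- The concrete monomial map. -/
def h4Mono (σ : Equiv.Perm (Fin 6)) (c : Fin 6 → H4) (x : Fin 6 → H4) : Fin 6 → H4 :=
  fun i => h4mul (c i) (x (σ.symm i))

def h4E : Fin 3 → H4Par := ![(h4one, 0, 0), (0, h4one, 0), (0, 0, h4one)]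

/-- The concrete monomial map preserves the concrete hexacode. -/
def h4Pres (σ : Equiv.Perm (Fin 6)) (c : Fin 6 → H4) : Prop :=
  ∀ k : Fin 3, h4Mem (h4Mono σ c (h4Word (h4E k)))

instance (σ : Equiv.Perm (Fin 6)) (c : Fin 6 → H4) : Decidable (h4Pres σ c) := by
  unfold h4Pres; infer_instance

/-- The nonzero elements. -/
def h4nz : Fin 3 → H4 := ![h4one, h4w, h4w2]

theorem h4nz_surj : ∀ p : H4, p ≠ 0 → ∃ a : Fin 3, p = h4nz a := by decide

set_option maxRecDepth 100000 in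
theorem h4_diag : ∀ a0 a1 a2 a3 a4 a5 : Fin 3,
    h4Pres 1 ![h4nz a0, h4nz a1, h4nz a2, h4nz a3, h4nz a4, h4nz a5] →
      a0 = a1 ∧ a0 = a2 ∧ a0 = a3 ∧ a0 = a4 ∧ a0 = a5 := by
  decide +kernel

set_option maxRecDepth 100000 in
theorem h4_swap : ∀ a0 a1 a2 a3 a4 a5 : Fin 3,
    ¬ h4Pres (Equiv.swap 0 1) ![h4nz a0, h4nz a1, h4nz a2, h4nz a3, h4nz a4, h4nz a5] := by
  decide +kernel

def hxU : Fin 6 → Equiv.Perm (Fin 6) :=
  ![1,
    Equiv.swap 0 1 * Equiv.swap 1 2,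
    Equiv.swap 0 2 * Equiv.swap 2 1,
    Equiv.swap 0 3 * Equiv.swap 3 1,
    Equiv.swap 0 4 * Equiv.swap 4 1,
    Equiv.swap 0 5 * Equiv.swap 5 1]

def hxUc : Fin 6 → Fin 6 → H4 :=
  ![![h4one, h4one, h4one, h4one, h4one, h4one],
    ![h4one, h4one, h4one, h4one, h4w2, h4w],
    ![h4one, h4one, h4one, h4one, h4w, h4w2],
    ![h4one, h4one, h4one, h4one, h4w2, h4w],
    ![h4one, h4one, h4w, h4w2, h4one, h4one],
    ![h4one, h4one, h4w2, h4w, h4one, h4one]]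

def hxV : Fin 6 → Equiv.Perm (Fin 6) :=
  ![1,
    1,
    Equiv.swap 1 2 * Equiv.swap 2 3,
    Equiv.swap 1 3 * Equiv.swap 3 2,
    Equiv.swap 1 4 * Equiv.swap 4 2,
    Equiv.swap 1 5 * Equiv.swap 5 2]

def hxVc : Fin 6 → Fin 6 → H4 :=
  ![![h4one, h4one, h4one, h4one, h4one, h4one],
    ![h4one, h4one, h4one, h4one, h4one, h4one],
    ![h4one, h4one, h4one, h4one, h4w, h4w2],
    ![h4one, h4one, h4one, h4one, h4w2, h4w],
    ![h4one, h4w2, h4one, h4w, h4w, h4w2],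
    ![h4one, h4w, h4one, h4w2, h4w, h4w2]]

def hxW : Fin 6 → Equiv.Perm (Fin 6) :=
  ![1,
    1,
    1,
    Equiv.swap 2 3 * Equiv.swap 3 4,
    Equiv.swap 2 4 * Equiv.swap 4 3,
    Equiv.swap 2 5 * Equiv.swap 5 3]

def hxWc : Fin 6 → Fin 6 → H4 :=
  ![![h4one, h4one, h4one, h4one, h4one, h4one],
    ![h4one, h4one, h4one, h4one, h4one, h4one],
    ![h4one, h4one, h4one, h4one, h4one, h4one],
    ![h4one, h4w2, h4w, h4w, h4w, h4w],
    ![h4one, h4w, h4w2, h4w2, h4w2, h4w2],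
    ![h4one, h4w2, h4w, h4w, h4w, h4w]]

def hxZ : Equiv.Perm (Fin 6) := Equiv.swap 3 4 * Equiv.swap 4 5

def hxZc : Fin 6 → H4 := ![h4one, h4w, h4w2, h4w2, h4w2, h4w2]

set_option maxRecDepth 100000 in
theorem hxU_pres : ∀ j : Fin 6, h4Pres (hxU j) (hxUc j) ∧ (∀ i, hxUc j i ≠ 0) ∧ hxU j 0 = j ∧
    Equiv.Perm.sign (hxU j) = 1 := by
  decide +kernel

set_option maxRecDepth 100000 in
theorem hxV_pres : ∀ k : Fin 6, h4Pres (hxV k) (hxVc k) ∧ (∀ i, hxVc k i ≠ 0) ∧ hxV k 0 = 0 ∧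
    (k ≠ 0 → hxV k 1 = k) ∧ Equiv.Perm.sign (hxV k) = 1 := by
  decide +kernel

set_option maxRecDepth 100000 in
theorem hxW_pres : ∀ l : Fin 6, h4Pres (hxW l) (hxWc l) ∧ (∀ i, hxWc l i ≠ 0) ∧ hxW l 0 = 0 ∧
    hxW l 1 = 1 ∧ (l ≠ 0 → l ≠ 1 → hxW l 2 = l) ∧ Equiv.Perm.sign (hxW l) = 1 := by
  decide +kernel

set_option maxRecDepth 100000 in
theorem hxZ_pres : h4Pres hxZ hxZc ∧ (∀ i, hxZc i ≠ 0) := by
  decide +kernel

set_option maxRecDepth 100000 in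
theorem fix3 : ∀ ρ : Equiv.Perm (Fin 6),
    (ρ 0 = 0 ∧ ρ 1 = 1 ∧ ρ 2 = 2 ∧ Equiv.Perm.sign ρ = 1) →
      ρ = 1 ∨ ρ = hxZ ∨ ρ = hxZ * hxZ := by
  decide +kernel

/-- Generation of the even permutations by a strong generating set. -/
theorem alt_of_gens (P : Equiv.Perm (Fin 6) → Prop) (hmul : ∀ a b, P a → P b → P (a * b))
    (hU : ∀ j, P (hxU j)) (hV : ∀ k, P (hxV k)) (hW : ∀ l, P (hxW l)) (hZ : P hxZ) (h1 : P 1) :
    ∀ τ : Equiv.Perm (Fin 6), Equiv.Perm.sign τ = 1 → P τ := by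
  intro τ hτ
  obtain ⟨τ1, hτ1⟩ : ∃ τ1, τ1 = (hxU (τ 0))⁻¹ * τ := ⟨_, rfl⟩
  have h10 : τ1 0 = 0 := by
    rw [hτ1, Equiv.Perm.mul_apply, Equiv.Perm.inv_eq_iff_eq]
    exact ((hxU_pres (τ 0)).2.2.1).symm
  have hs1 : Equiv.Perm.sign τ1 = 1 := by
    rw [hτ1, Equiv.Perm.sign_mul, Equiv.Perm.sign_inv, hτ, (hxU_pres (τ 0)).2.2.2, mul_one]
  obtain ⟨τ2, hτ2⟩ : ∃ τ2, τ2 = (hxV (τ1 1))⁻¹ * τ1 := ⟨_, rfl⟩
  have hk : τ1 1 ≠ 0 := by
    intro h
    have := τ1.injective (h.trans h10.symm)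
    exact absurd this (by decide)
  have h20 : τ2 0 = 0 := by
    rw [hτ2, Equiv.Perm.mul_apply, h10, Equiv.Perm.inv_eq_iff_eq]
    exact ((hxV_pres (τ1 1)).2.2.1).symm
  have h21 : τ2 1 = 1 := by
    rw [hτ2, Equiv.Perm.mul_apply, Equiv.Perm.inv_eq_iff_eq]
    exact ((hxV_pres (τ1 1)).2.2.2.1 hk).symm
  have hs2 : Equiv.Perm.sign τ2 = 1 := by
    rw [hτ2, Equiv.Perm.sign_mul, Equiv.Perm.sign_inv, hs1, (hxV_pres (τ1 1)).2.2.2.2, mul_one]
  obtain ⟨τ3, hτ3⟩ : ∃ τ3, τ3 = (hxW (τ2 2))⁻¹ * τ2 := ⟨_, rfl⟩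
  have hl0 : τ2 2 ≠ 0 := by
    intro h
    have := τ2.injective (h.trans h20.symm)
    exact absurd this (by decide)
  have hl1 : τ2 2 ≠ 1 := by
    intro h
    have := τ2.injective (h.trans h21.symm)
    exact absurd this (by decide)
  have h30 : τ3 0 = 0 := by
    rw [hτ3, Equiv.Perm.mul_apply, h20, Equiv.Perm.inv_eq_iff_eq]
    exact ((hxW_pres (τ2 2)).2.2.1).symm
  have h31 : τ3 1 = 1 := by
    rw [hτ3, Equiv.Perm.mul_apply, h21, Equiv.Perm.inv_eq_iff_eq]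
    exact ((hxW_pres (τ2 2)).2.2.2.1).symm
  have h32 : τ3 2 = 2 := by
    rw [hτ3, Equiv.Perm.mul_apply, Equiv.Perm.inv_eq_iff_eq]
    exact ((hxW_pres (τ2 2)).2.2.2.2.1 hl0 hl1).symm
  have hs3 : Equiv.Perm.sign τ3 = 1 := by
    rw [hτ3, Equiv.Perm.sign_mul, Equiv.Perm.sign_inv, hs2, (hxW_pres (τ2 2)).2.2.2.2.2, mul_one]
  have hP3 : P τ3 := by
    rcases fix3 τ3 ⟨h30, h31, h32, hs3⟩ with e | e | e
    · rw [e]; exact h1
    · rw [e]; exact hZ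
    · rw [e]; exact hmul _ _ hZ hZ
  have hτe : τ = hxU (τ 0) * (hxV (τ1 1) * (hxW (τ2 2) * τ3)) := by
    rw [hτ3, hτ2, hτ1]
    group
  rw [hτe]
  exact hmul _ _ (hU _) (hmul _ _ (hV _) (hmul _ _ (hW _) hP3))

section field

variable {F : Type*} [Field F]

/-- The property of a monomial map to preserve the hexacode. -/
def hexPres (ω : F) (σ : Equiv.Perm (Fin 6)) (c : Fin 6 → Fˣ) : Prop :=
  ∀ x ∈ Cfsg.hexacode F ω, Cfsg.monomialMap σ c x ∈ Cfsg.hexacode F ω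

theorem mono_add (σ : Equiv.Perm (Fin 6)) (c : Fin 6 → Fˣ) (x y : Fin 6 → F) :
    Cfsg.monomialMap σ c (x + y) = Cfsg.monomialMap σ c x + Cfsg.monomialMap σ c y := by
  funext i
  simp [Cfsg.monomialMap, mul_add]

theorem mono_smul (σ : Equiv.Perm (Fin 6)) (c : Fin 6 → Fˣ) (a : F) (x : Fin 6 → F) :
    Cfsg.monomialMap σ c (a • x) = a • Cfsg.monomialMap σ c x := by
  funext i
  simp [Cfsg.monomialMap, mul_left_comm]

theorem mono_injective (σ : Equiv.Perm (Fin 6)) (c : Fin 6 → Fˣ) :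
    Function.Injective (Cfsg.monomialMap (F := F) σ c) := by
  intro x y h
  funext j
  have h1 := congrFun h (σ j)
  simp only [Cfsg.monomialMap, Equiv.symm_apply_apply] at h1
  exact mul_left_cancel₀ (c (σ j)).ne_zero h1

theorem hexPres_one (ω : F) : hexPres ω 1 1 := by
  intro x hx
  have : Cfsg.monomialMap (1 : Equiv.Perm (Fin 6)) (1 : Fin 6 → Fˣ) x = x := by
    funext i
    show ((1 : Fˣ) : F) * x i = x i
    simp
  rw [this]; exact hx

theorem hexPres_mul {ω : F} {σ τ : Equiv.Perm (Fin 6)} {c d : Fin 6 → Fˣ}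
    (h1 : hexPres ω σ c) (h2 : hexPres ω τ d) :
    hexPres ω (σ * τ) (fun i => c i * d (σ.symm i)) := by
  intro x hx
  have : Cfsg.monomialMap (σ * τ) (fun i => c i * d (σ.symm i)) x =
      Cfsg.monomialMap σ c (Cfsg.monomialMap τ d x) := by
    funext i
    show ((c i * d (σ.symm i) : Fˣ) : F) * x (τ.symm (σ.symm i)) =
      (c i : F) * ((d (σ.symm i) : F) * x (τ.symm (σ.symm i)))
    rw [Units.val_mul, mul_assoc]
  rw [this]
  exact h1 _ (h2 x hx)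

theorem hexPres_smul {ω : F} {σ : Equiv.Perm (Fin 6)} {c : Fin 6 → Fˣ} (h1 : hexPres ω σ c)
    (u : Fˣ) : hexPres ω σ (fun i => u * c i) := by
  intro x hx
  have : Cfsg.monomialMap σ (fun i => u * c i) x = (u : F) • Cfsg.monomialMap σ c x := by
    funext i
    show ((u * c i : Fˣ) : F) * x (σ.symm i) = (u : F) * ((c i : F) * x (σ.symm i))
    rw [Units.val_mul, mul_assoc]
  rw [this]
  exact Submodule.smul_mem _ _ (h1 x hx)

/-- A monomial map preserving the (finite) hexacode is onto it. -/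
theorem hexPres_surj [Finite F] {ω : F} {σ : Equiv.Perm (Fin 6)} {d : Fin 6 → Fˣ}
    (h : hexPres ω σ d) {y : Fin 6 → F} (hy : y ∈ Cfsg.hexacode F ω) :
    ∃ x ∈ Cfsg.hexacode F ω, Cfsg.monomialMap σ d x = y := by
  have hfin : ((Cfsg.hexacode F ω : Submodule F (Fin 6 → F)) : Set (Fin 6 → F)).Finite :=
    Set.toFinite _
  have hm : Set.MapsTo (Cfsg.monomialMap σ d)
      ((Cfsg.hexacode F ω : Submodule F (Fin 6 → F)) : Set (Fin 6 → F))
      ((Cfsg.hexacode F ω : Submodule F (Fin 6 → F)) : Set (Fin 6 → F)) := fun x hx => h x hx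
  have hb := (hfin.injOn_iff_bijOn_of_mapsTo hm).1 (mono_injective σ d).injOn
  obtain ⟨x, hx, hxy⟩ := hb.surjOn hy
  exact ⟨x, hx, hxy⟩

theorem hexPres_div [Finite F] {ω : F} {σ : Equiv.Perm (Fin 6)} {c d : Fin 6 → Fˣ}
    (h1 : hexPres ω σ c) (h2 : hexPres ω σ d) : hexPres ω 1 (fun i => c i * (d i)⁻¹) := by
  intro y hy
  obtain ⟨x, hx, rfl⟩ := hexPres_surj h2 hy
  have : Cfsg.monomialMap (1 : Equiv.Perm (Fin 6)) (fun i => c i * (d i)⁻¹)
      (Cfsg.monomialMap σ d x) = Cfsg.monomialMap σ c x := by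
    funext i
    show ((c i * (d i)⁻¹ : Fˣ) : F) * ((d i : F) * x (σ.symm i)) = (c i : F) * x (σ.symm i)
    rw [Units.val_mul, mul_assoc, ← mul_assoc (((d i)⁻¹ : Fˣ) : F), Units.inv_mul, one_mul]
  rw [this]
  exact h1 x hx

variable [CharP F 2]

theorem h4φ_one (ω : F) : h4φ ω h4one = 1 := by
  simp [h4φ, h4one]

theorem gen0 {ω : F} (hω : ω ^ 2 + ω + 1 = 0) :
    h4Φ ω (h4E 0) = ![ω, ω ^ 2, ω ^ 2, ω, ω ^ 2, ω] := by
  rw [h4Φ_eq hω]
  simp [h4E, h4φ_one, h4φ_zero]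

theorem gen1 {ω : F} (hω : ω ^ 2 + ω + 1 = 0) :
    h4Φ ω (h4E 1) = ![ω ^ 2, ω, ω, ω ^ 2, ω ^ 2, ω] := by
  rw [h4Φ_eq hω]
  simp [h4E, h4φ_one, h4φ_zero]

theorem gen2 {ω : F} (hω : ω ^ 2 + ω + 1 = 0) :
    h4Φ ω (h4E 2) = ![ω ^ 2, ω, ω ^ 2, ω, ω, ω ^ 2] := by
  rw [h4Φ_eq hω]
  simp [h4E, h4φ_one, h4φ_zero]

theorem mono_Φ {ω : F} (hω : ω ^ 2 + ω + 1 = 0) {σ : Equiv.Perm (Fin 6)} {c : Fin 6 → Fˣ}
    {c' : Fin 6 → H4} (hc : ∀ i, (c i : F) = h4φ ω (c' i)) (t : H4Par) :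
    Cfsg.monomialMap σ c (h4Φ ω t) = fun i => h4φ ω (h4Mono σ c' (h4Word t) i) := by
  funext i
  show (c i : F) * h4φ ω (h4Word t (σ.symm i)) = h4φ ω (h4mul (c' i) (h4Word t (σ.symm i)))
  rw [hc i, h4φ_mul hω]

theorem hexPres_of [Fintype F] (hF : Fintype.card F = 4) {ω : F} (hω : ω ^ 2 + ω + 1 = 0)
    {σ : Equiv.Perm (Fin 6)} {c : Fin 6 → Fˣ} {c' : Fin 6 → H4}
    (hc : ∀ i, (c i : F) = h4φ ω (c' i)) (hp : h4Pres σ c') : hexPres ω σ c := by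
  intro x hx
  obtain ⟨t, rfl⟩ := (h4_mem_iff hF hω x).1 hx
  have hk : ∀ k, Cfsg.monomialMap σ c (h4Φ ω (h4E k)) ∈ Cfsg.hexacode F ω := by
    intro k
    rw [mono_Φ hω hc]
    refine (h4_mem_iff hF hω _).2 ⟨h4Dec (h4Mono σ c' (h4Word (h4E k))), ?_⟩
    have e : h4Mono σ c' (h4Word (h4E k)) =
        h4Word (h4Dec (h4Mono σ c' (h4Word (h4E k)))) := hp k
    funext i
    exact congrArg (fun y => h4φ ω (y i)) e
  rw [h4Φ_eq hω t, ← gen0 hω, ← gen1 hω, ← gen2 hω, mono_add, mono_add, mono_smul, mono_smul,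
    mono_smul]
  exact Submodule.add_mem _ (Submodule.add_mem _ (Submodule.smul_mem _ _ (hk 0))
    (Submodule.smul_mem _ _ (hk 1))) (Submodule.smul_mem _ _ (hk 2))

theorem hexPres_to [Fintype F] (hF : Fintype.card F = 4) {ω : F} (hω : ω ^ 2 + ω + 1 = 0)
    {σ : Equiv.Perm (Fin 6)} {c : Fin 6 → Fˣ} {c' : Fin 6 → H4}
    (hc : ∀ i, (c i : F) = h4φ ω (c' i)) (hp : hexPres ω σ c) : h4Pres σ c' := by
  intro k
  have h1 := hp _ ((h4_mem_iff hF hω _).2 ⟨h4E k, rfl⟩)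
  obtain ⟨t, ht⟩ := (h4_mem_iff hF hω _).1 h1
  rw [mono_Φ hω hc] at ht
  have e : h4Mono σ c' (h4Word (h4E k)) = h4Word t := by
    funext i
    exact h4φ_injective hω (congrFun ht i)
  rw [e]
  exact h4Mem_word t

theorem lift_units [Fintype F] (hF : Fintype.card F = 4) {ω : F} (hω : ω ^ 2 + ω + 1 = 0)
    (c : Fin 6 → Fˣ) : ∃ a : Fin 6 → Fin 3, ∀ i, (c i : F) = h4φ ω (h4nz (a i)) := by
  have : ∀ i, ∃ a : Fin 3, (c i : F) = h4φ ω (h4nz a) := by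
    intro i
    obtain ⟨p, hp⟩ := (h4φ_bijective hF hω).2 (c i : F)
    have hp0 : p ≠ 0 := by
      rintro rfl
      rw [h4φ_zero] at hp
      exact (c i).ne_zero hp.symm
    obtain ⟨a, rfl⟩ := h4nz_surj p hp0
    exact ⟨a, hp.symm⟩
  choose a ha using this
  exact ⟨a, ha⟩

theorem units_of {ω : F} (hω : ω ^ 2 + ω + 1 = 0) (c' : Fin 6 → H4) (h : ∀ i, c' i ≠ 0) :
    ∃ c : Fin 6 → Fˣ, ∀ i, (c i : F) = h4φ ω (c' i) :=
  ⟨fun i => Units.mk0 (h4φ ω (c' i)) (fun h0 => h i (h4φ_eq_zero hω h0)), fun _ => rfl⟩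

theorem vec6 (c' : Fin 6 → H4) : c' = ![c' 0, c' 1, c' 2, c' 3, c' 4, c' 5] := by
  funext i
  fin_cases i <;> rfl

/-- Diagonal automorphisms are scalar. -/
theorem diag_const [Fintype F] (hF : Fintype.card F = 4) {ω : F} (hω : ω ^ 2 + ω + 1 = 0)
    {c : Fin 6 → Fˣ} (h : hexPres ω 1 c) : ∀ i j, c i = c j := by
  obtain ⟨a, ha⟩ := lift_units hF hω c
  have hp := hexPres_to hF hω ha h
  rw [vec6 (fun i => h4nz (a i))] at hp
  obtain ⟨e1, e2, e3, e4, e5⟩ := h4_diag _ _ _ _ _ _ hp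
  have h0 : ∀ i, a i = a 0 := by
    intro i
    fin_cases i
    · rfl
    · exact e1.symm
    · exact e2.symm
    · exact e3.symm
    · exact e4.symm
    · exact e5.symm
  intro i j
  apply Units.ext
  rw [ha i, ha j, h0 i, h0 j]

theorem not_swap [Fintype F] (hF : Fintype.card F = 4) {ω : F} (hω : ω ^ 2 + ω + 1 = 0)
    (c : Fin 6 → Fˣ) : ¬ hexPres ω (Equiv.swap 0 1) c := by
  intro h
  obtain ⟨a, ha⟩ := lift_units hF hω c
  have hp := hexPres_to hF hω ha h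
  rw [vec6 (fun i => h4nz (a i))] at hp
  exact h4_swap _ _ _ _ _ _ hp

theorem exists_of_pres [Fintype F] (hF : Fintype.card F = 4) {ω : F} (hω : ω ^ 2 + ω + 1 = 0)
    {σ : Equiv.Perm (Fin 6)} {c' : Fin 6 → H4} (hp : h4Pres σ c') (h : ∀ i, c' i ≠ 0) :
    ∃ c : Fin 6 → Fˣ, hexPres ω σ c := by
  obtain ⟨c, hc⟩ := units_of hω c' h
  exact ⟨c, hexPres_of hF hω hc hp⟩

/-- Every even permutation extends to a monomial automorphism. -/
theorem exists_of_even [Fintype F] (hF : Fintype.card F = 4) {ω : F} (hω : ω ^ 2 + ω + 1 = 0)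
    (τ : Equiv.Perm (Fin 6)) (hτ : Equiv.Perm.sign τ = 1) : ∃ c : Fin 6 → Fˣ, hexPres ω τ c := by
  refine alt_of_gens (fun σ => ∃ c : Fin 6 → Fˣ, hexPres ω σ c) ?_ ?_ ?_ ?_ ?_ ?_ τ hτ
  · rintro a b ⟨c, hc⟩ ⟨d, hd⟩
    exact ⟨_, hexPres_mul hc hd⟩
  · intro j
    exact exists_of_pres hF hω (hxU_pres j).1 (hxU_pres j).2.1
  · intro k
    exact exists_of_pres hF hω (hxV_pres k).1 (hxV_pres k).2.1
  · intro l
    exact exists_of_pres hF hω (hxW_pres l).1 (hxW_pres l).2.1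
  · exact exists_of_pres hF hω hxZ_pres.1 hxZ_pres.2
  · exact ⟨1, hexPres_one ω⟩

/-- Only even permutations extend. -/
theorem even_of_exists [Fintype F] (hF : Fintype.card F = 4) {ω : F} (hω : ω ^ 2 + ω + 1 = 0)
    {σ : Equiv.Perm (Fin 6)} {c : Fin 6 → Fˣ} (h : hexPres ω σ c) : Equiv.Perm.sign σ = 1 := by
  rcases Int.units_eq_one_or (Equiv.Perm.sign σ) with h1 | h1
  · exact h1
  · exfalso
    have h2 : Equiv.Perm.sign (σ⁻¹ * Equiv.swap 0 1) = 1 := by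
      rw [Equiv.Perm.sign_mul, Equiv.Perm.sign_inv, h1, Equiv.Perm.sign_swap (by decide)]
      rfl
    obtain ⟨d, hd⟩ := exists_of_even hF hω _ h2
    have h3 := hexPres_mul h hd
    rw [mul_inv_cancel_left] at h3
    exact not_swap hF hω _ h3

end field

/-- The monomial automorphism group of the hexacode has order 1080: its diagonal part is the scalars and its permutation parts form the alternating group of degree 6. -/
theorem result (F : Type*) [Field F] [Fintype F] [DecidableEq F] (hF : Fintype.card F = 4) (ω : F) (hω : ω ^ 2 + ω + 1 = 0) : Nat.card {f : Equiv.Perm (Fin 6) × (Fin 6 → Fˣ) // (∀ x ∈ Cfsg.hexacode F ω, Cfsg.monomialMap f.1 f.2 x ∈ Cfsg.hexacode F ω)} = 1080 ∧ (∀ c : Fin 6 → Fˣ, (∀ x ∈ Cfsg.hexacode F ω, Cfsg.monomialMap 1 c x ∈ Cfsg.hexacode F ω) → ∀ i j, c i = c j) ∧ {σ : Equiv.Perm (Fin 6) | ∃ c : Fin 6 → Fˣ, (∀ x ∈ Cfsg.hexacode F ω, Cfsg.monomialMap σ c x ∈ Cfsg.hexacode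 F ω)} = (alternatingGroup (Fin 6) : Set (Equiv.Perm (Fin 6))) := by
  have hchar := h4_charP hF
  refine ⟨?_, fun c hc => diag_const hF hω hc, ?_⟩
  · have hbij : Function.Bijective
        (fun f : {f : Equiv.Perm (Fin 6) × (Fin 6 → Fˣ) //
            (∀ x ∈ Cfsg.hexacode F ω, Cfsg.monomialMap f.1 f.2 x ∈ Cfsg.hexacode F ω)} =>
          ((⟨f.1.1, Equiv.Perm.mem_alternatingGroup.2 (even_of_exists hF hω f.2)⟩ :
            alternatingGroup (Fin 6)), f.1.2 0)) := by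
      constructor
      · rintro ⟨⟨σ, c⟩, hf⟩ ⟨⟨τ, d⟩, hg⟩ h
        have h1 : σ = τ := congrArg (fun z => (z.1 : Equiv.Perm (Fin 6))) h
        have h2 : c 0 = d 0 := congrArg (fun z => z.2) h
        subst h1
        have h3 := diag_const hF hω (hexPres_div (ω := ω) hf hg)
        have h4 : c = d := by
          funext i
          have h5 := h3 i 0
          simp only [h2, mul_inv_cancel] at h5
          exact mul_inv_eq_one.1 h5
        subst h4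
        rfl
      · rintro ⟨⟨σ, hσ⟩, u⟩
        obtain ⟨c0, hc0⟩ := exists_of_even hF hω σ (Equiv.Perm.mem_alternatingGroup.1 hσ)
        refine ⟨⟨(σ, fun i => (u * (c0 0)⁻¹) * c0 i), hexPres_smul hc0 _⟩, ?_⟩
        simp
    rw [Nat.card_eq_of_bijective _ hbij, Nat.card_prod, Nat.card_units, Nat.card_eq_fintype_card (α := F),
      hF]
    have h2 := two_mul_nat_card_alternatingGroup (α := Fin 6)
    rw [Nat.card_eq_fintype_card (α := Equiv.Perm (Fin 6)), Fintype.card_perm, Fintype.card_fin] at h2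
    have h6 : Nat.factorial 6 = 720 := by decide
    omega
  · ext σ
    simp only [Set.mem_ofPred_eq, SetLike.mem_coe, Equiv.Perm.mem_alternatingGroup]
    constructor
    · rintro ⟨c, hc⟩
      exact even_of_exists hF hω hc
    · intro h
      exact exists_of_even hF hω σ h

end Cfsg.Agent.S1611
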