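import Cfsg.Statements.S1631
import Mathlib
import Cfsg.Agent.Lib.Helper3.UnitaryTv

set_option autoImplicit false
open scoped MatrixGroups
open Cfsg

namespace Cfsg.Agent.S1631

open Cfsg.Agent.Lib.Helper3 Matrix
open Cfsg.Agent.S0837 (Bh Bh_apply hf Bh_symm Bh_nondeg)
open scoped LinearAlgebra.Projectivization

theorem two_eq_zero4 {F : Type*} [Field F] [Fintype F] (hF : Fintype.card F = 4) :
    (2 : F) = 0 := by
  obtain ⟨m, hp, hcard⟩ := FiniteField.card F (ringChar F)
  have h1 : ringChar F ∣ 2 ^ 2 := by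
    have h0 : ringChar F ∣ 4 := by
      rw [← hF, hcard]
      exact dvd_pow_self _ m.ne_zero
    exact h0
  have h2 : ringChar F = 2 :=
    (Nat.prime_dvd_prime_iff_eq hp Nat.prime_two).mp (hp.dvd_of_dvd_pow h1)
  have h4 := CharP.cast_eq_zero F (ringChar F)
  rw [h2] at h4
  exact_mod_cast h4

theorem cube_eq_one {F : Type*} [Field F] [Fintype F] (hF : Fintype.card F = 4) (a : F)
    (ha : a ≠ 0) : a * a ^ 2 = 1 := by
  have h := FiniteField.pow_card_sub_one_eq_one a ha
  rw [hF] at h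
  calc a * a ^ 2 = a ^ 3 := by ring
    _ = 1 := h

theorem braid_cube {G : Type*} [Group G] (d e : G) (hd : d * d = 1) (he : e * e = 1)
    (hb : d * e * d = e * d * e) : (d * e) ^ 3 = 1 := by
  have h1 : (d * e) ^ 3 = (d * e * d) * (e * d * e) := by
    simp [pow_succ, mul_assoc]
  rw [h1, hb]
  calc e * d * e * (e * d * e) = e * d * (e * e) * d * e := by simp [mul_assoc]
    _ = e * (d * d) * e := by rw [he]; simp [mul_assoc]
    _ = 1 := by rw [hd, mul_one, he]

section main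

variable {F : Type} [Field F] [Fintype F] (hF : Fintype.card F = 4) (n : ℕ)
  (φ : F →+* F) (hφq : ∀ a : F, φ a = a ^ 2) (hφ2 : ∀ a : F, φ (φ a) = a)

include hF hφq hφ2 in
theorem mem_iff (g : ↥(Cfsg.SU n F 2)) :
    (suMat g - 1).rank = 1 ↔ ∃ w : Fin n → F, w ≠ 0 ∧ Cfsg.hermForm n F 2 w w = 0 ∧
      suMat g = Cfsg.unitaryTransvection n 2 w 1 := by
  constructor
  · intro hg
    obtain ⟨w, hw0, hww, κ, hκ0, hκ⟩ := su_rank_one_tv φ hφq hφ2 g hg
    refine ⟨w, hw0, hww, ?_⟩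
    have h1 := (Cfsg.Agent.S0779.result (by rw [hF]; norm_num : Fintype.card F = 2 ^ 2) n w hw0 hww κ).mp
      (fun x y => by rw [← hκ]; exact su_pres g x y)
    rcases h1 with h1 | h1
    · exact absurd h1 hκ0
    · have h2 := two_eq_zero4 hF
      have h3 : κ = 1 := by
        have h4 : κ = -1 := by simpa using h1
        rw [h4]
        linear_combination -h2
      rw [hκ, h3]
  · rintro ⟨w, hw0, hww, h⟩
    rw [h]
    exact tv_rank_one φ hφq w hw0 1 one_ne_zero

include hF in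
theorem tv_sq (d : ↥(Cfsg.SU n F 2)) (w : Fin n → F) (hww : Cfsg.hermForm n F 2 w w = 0)
    (hd : suMat d = Cfsg.unitaryTransvection n 2 w 1) : d * d = 1 := by
  apply suMat_ext
  rw [suMat_mul, hd, tv_mul w hww, suMat_one]
  have h2 : (1 : F) + 1 = 0 := by
    have := two_eq_zero4 hF
    linear_combination this
  rw [h2, tv_zero]

include hF hφq hφ2 in
theorem prod_order (d e : ↥(Cfsg.SU n F 2)) (v w : Fin n → F) (hv0 : v ≠ 0) (hw0 : w ≠ 0)
    (hvv : Cfsg.hermForm n F 2 v v = 0) (hww : Cfsg.hermForm n F 2 w w = 0)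
    (hd : suMat d = Cfsg.unitaryTransvection n 2 v 1)
    (he : suMat e = Cfsg.unitaryTransvection n 2 w 1) :
    (d * e) ^ 2 = 1 ∨ (d * e) ^ 3 = 1 := by
  have hdd := tv_sq hF n d v hvv hd
  have hee := tv_sq hF n e w hww he
  have hdw : suMat d *ᵥ w = w + Cfsg.hermForm n F 2 w v • v := by
    rw [hd, Cfsg.Agent.S0779.mulVec_eq, one_mul]
  have hev : suMat e *ᵥ v = v + Cfsg.hermForm n F 2 v w • w := by
    rw [he, Cfsg.Agent.S0779.mulVec_eq, one_mul]
  by_cases hβ : Cfsg.hermForm n F 2 w v = 0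
  · left
    have hcomm : d * e = e * d := by
      apply suMat_ext
      rw [suMat_mul, suMat_mul, he, tv_conj, hdw, hβ, zero_smul, add_zero]
    rw [pow_two]
    calc d * e * (d * e) = d * (e * d) * e := by simp [mul_assoc]
      _ = (d * d) * (e * e) := by rw [← hcomm]; simp [mul_assoc]
      _ = 1 := by rw [hdd, hee, mul_one]
  · right
    apply braid_cube d e hdd hee
    have hγ : Cfsg.hermForm n F 2 v w = (Cfsg.hermForm n F 2 w v) ^ 2 := by
      rw [herm_bh φ hφq, herm_bh φ hφq, bh_swap φ hφ2 v w, hφq]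
    have h1 : suMat (d * e * d) = Cfsg.unitaryTransvection n 2 (suMat d *ᵥ w) 1 := by
      have h2 := conj_tv d e w 1 he
      have h3 : d⁻¹ = d := inv_eq_of_mul_eq_one_right hdd
      rw [h3] at h2
      exact h2
    have h2 : suMat (e * d * e) = Cfsg.unitaryTransvection n 2 (suMat e *ᵥ v) 1 := by
      have h2 := conj_tv e d v 1 hd
      have h3 : e⁻¹ = e := inv_eq_of_mul_eq_one_right hee
      rw [h3] at h2
      exact h2
    apply suMat_ext
    rw [h1, h2]
    have h3 : suMat d *ᵥ w = Cfsg.hermForm n F 2 w v • (suMat e *ᵥ v) := by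
      rw [hdw, hev, hγ, smul_add, smul_smul, cube_eq_one hF _ hβ, one_smul, add_comm]
    rw [h3, tv_smul, one_mul, cube_eq_one hF _ hβ]

end main

/-- The unitary transvections of SU(n, 2), n ≥ 4, form a generating conjugacy class of 3-transpositions. -/
theorem result (F : Type) [Field F] [Fintype F] [DecidableEq F] (hF : Fintype.card F = 4) (n : ℕ) (hn : 4 ≤ n) : Cfsg.IsThreeTranspositionClass {g : ↥(Cfsg.SU n F 2) | (((g : Matrix.SpecialLinearGroup (Fin n) F) : Matrix (Fin n) (Fin n) F) - 1).rank = 1} := by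
  classical
  have hF' : Fintype.card F = 2 ^ 2 := by rw [hF]; norm_num
  obtain ⟨φ, hφq, hφ2⟩ := Cfsg.Agent.S0779.exists_frob hF'
  have hφ := Cfsg.Agent.S0829.phi_ne_id hF' φ hφq
  have h2 := two_eq_zero4 hF
  have hD : ∀ g : ↥(Cfsg.SU n F 2),
      g ∈ {g : ↥(Cfsg.SU n F 2) | (((g : Matrix.SpecialLinearGroup (Fin n) F) :
        Matrix (Fin n) (Fin n) F) - 1).rank = 1} ↔ ∃ w : Fin n → F, w ≠ 0 ∧
        Cfsg.hermForm n F 2 w w = 0 ∧ suMat g = Cfsg.unitaryTransvection n 2 w 1 :=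
    fun g => mem_iff hF n φ hφq hφ2 g
  refine ⟨⟨?_, ?_⟩, ?_, ?_⟩
  · intro d hd
    obtain ⟨w, hw0, hww, hdw⟩ := (hD d).1 hd
    have hdd := tv_sq hF n d w hww hdw
    apply orderOf_eq_prime
    · rw [pow_two]; exact hdd
    · rintro rfl
      have h3 : (suMat (1 : ↥(Cfsg.SU n F 2)) - 1).rank = 1 := hd
      rw [suMat_one, sub_self, Matrix.rank_zero] at h3
      exact zero_ne_one h3
  · intro d hd e he
    obtain ⟨v, hv0, hvv, hdv⟩ := (hD d).1 hd
    obtain ⟨w, hw0, hww, hew⟩ := (hD e).1 he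
    exact prod_order hF n φ hφq hφ2 d e v w hv0 hw0 hvv hww hdv hew
  · obtain ⟨u, hu0, huu⟩ := exists_iso_vec φ hφq hφ2 hφ (n := n) (by omega)
    have hφ1 : φ (1 : F) = -1 := by
      rw [map_one]
      linear_combination h2
    obtain ⟨d₀, hd₀⟩ := tv_elt φ hφq hφ2 u 1 huu hφ1
    refine ⟨d₀, (hD d₀).2 ⟨u, hu0, huu, hd₀⟩, ?_⟩
    ext e
    show e ∈ _ ↔ IsConj d₀ e
    rw [isConj_iff, hD e]
    constructor
    · rintro ⟨w, hw0, hww, hew⟩
      have hpt := su_pretransitive φ hφq hφ2 hφ (n := n)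
      obtain ⟨g, hg⟩ := MulAction.exists_smul_eq ↥(Cfsg.SU n F 2) (mkIso u hu0 huu)
        (mkIso w hw0 hww)
      obtain ⟨a, ha0, ha⟩ := iso_smul_mk g u w hu0 hw0 huu hww hg
      refine ⟨g, ?_⟩
      apply suMat_ext
      rw [conj_tv g d₀ u 1 hd₀, ha, tv_smul, one_mul, cube_eq_one hF a ha0, hew]
    · rintro ⟨g, rfl⟩
      refine ⟨suMat g *ᵥ u, su_mulVec_ne_zero g u hu0, ?_, conj_tv g d₀ u 1 hd₀⟩
      rw [su_pres]
      exact huu
  · have hgen := Cfsg.Agent.S0780.result hF' n (by omega) (by omega)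
    rw [eq_top_iff, ← hgen, Subgroup.closure_le]
    rintro A ⟨v, c, hv, hA⟩
    have hA' : suMat A = Cfsg.unitaryTransvection n 2 v c := hA
    by_cases hv0 : v = 0
    · have e : A = 1 := suMat_ext _ _ (by
        show suMat A = suMat 1
        rw [hA', hv0, tv_zero_vec, suMat_one])
      rw [e]
      exact one_mem _
    by_cases hc0 : c = 0
    · have e : A = 1 := suMat_ext _ _ (by
        show suMat A = suMat 1
        rw [hA', hc0, tv_zero, suMat_one])
      rw [e]
      exact one_mem _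
    apply Subgroup.subset_closure
    show (suMat A - 1).rank = 1
    rw [hA']
    exact tv_rank_one φ hφq v hv0 c hc0

end Cfsg.Agent.S1631
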