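import Cfsg.Statements.S1636
import Cfsg.Agent.Lib.Helper4.Punct

set_option autoImplicit false
open Cfsg

namespace Cfsg.Agent.S1636

open Cfsg.Agent.Lib.Helper4 Cfsg.Agent.Lib.Helper4.Golay in
set_option maxRecDepth 100000 in
theorem cnt (k n : ℕ) (h : (k, n) ∈ [(7, 253), (8, 506), (11, 1288), (12, 1288), (15, 506), (16, 253)]) :
    countComb (fun a => Nat.beq (pc a - cond (a.testBit 23) 1 0) k) basis 0 = n := by
  have : ∀ x ∈ [(7, 253), (8, 506), (11, 1288), (12, 1288), (15, 506), (16, 253)],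
      countComb (fun a => Nat.beq (pc a - cond (a.testBit 23) 1 0) x.1) basis 0 = x.2 := by
    decide +kernel
  exact this (k, n) h

open Cfsg.Agent.Lib.Helper4 Cfsg.Agent.Lib.Helper4.Golay in

/-- The punctured length-23 code has weight distribution 0^1 7^253 8^506 11^1288 12^1288 15^506 16^253 23^1. -/
theorem result : {u : ZMod 23 → ZMod 2 | ∃ w ∈ Cfsg.golayCode, ∀ x : ZMod 23, u x = w (some x)}.ncard = 4096 ∧ {u : ZMod 23 → ZMod 2 | u ∈ {u : ZMod 23 → ZMod 2 | ∃ w ∈ Cfsg.golayCode, ∀ x : ZMod 23, u x = w (some x)} ∧ hammingNorm u = 7}.ncard = 253 ∧ {u : ZMod 23 → ZMod 2 | u ∈ {u : ZMod 23 → ZMod 2 | ∃ w ∈ Cfsg.golayCode, ∀ x : ZMod 23, u x = w (some x)} ∧ hammingNorm u = 8}.ncard = 506 ∧ {u : ZMod 23 → ZMod 2 | u ∈ {u : ZMod 23 → ZMod 2 | ∃ w ∈ Cfsg.golayCode, ∀ x : ZMod 23, u x = w (some x)} ∧ hammingNorm u = 11}.ncard = 1288 ∧ {u : ZMod 23 → ZMod 2 | u ∈ {u : ZMod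 23 → ZMod 2 | ∃ w ∈ Cfsg.golayCode, ∀ x : ZMod 23, u x = w (some x)} ∧ hammingNorm u = 12}.ncard = 1288 ∧ {u : ZMod 23 → ZMod 2 | u ∈ {u : ZMod 23 → ZMod 2 | ∃ w ∈ Cfsg.golayCode, ∀ x : ZMod 23, u x = w (some x)} ∧ hammingNorm u = 15}.ncard = 506 ∧ {u : ZMod 23 → ZMod 2 | u ∈ {u : ZMod 23 → ZMod 2 | ∃ w ∈ Cfsg.golayCode, ∀ x : ZMod 23, u x = w (some x)} ∧ hammingNorm u = 16}.ncard = 253 ∧ ∀ u ∈ {u : ZMod 23 → ZMod 2 | ∃ w ∈ Cfsg.golayCode, ∀ x : ZMod 23, u x = w (some x)}, u ≠ 0 → 7 ≤ hammingNorm u := by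
  refine ⟨Punct.ncard_P, ?_, ?_, ?_, ?_, ?_, ?_, fun u hu h0 => Punct.min_weight u hu h0⟩
  · exact (Punct.ncard_P_weight 7).trans (cnt 7 253 (by simp))
  · exact (Punct.ncard_P_weight 8).trans (cnt 8 506 (by simp))
  · exact (Punct.ncard_P_weight 11).trans (cnt 11 1288 (by simp))
  · exact (Punct.ncard_P_weight 12).trans (cnt 12 1288 (by simp))
  · exact (Punct.ncard_P_weight 15).trans (cnt 15 506 (by simp))
  · exact (Punct.ncard_P_weight 16).trans (cnt 16 253 (by simp))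

end Cfsg.Agent.S1636
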