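import Cfsg.Statements.S1638
import Cfsg.Agent.Lib.Helper4.Rk8

set_option autoImplicit false
open scoped Pointwise
open Cfsg

namespace Cfsg.Agent.S1638

open Cfsg.Agent.Lib.Helper4 Cfsg.Agent.Lib.Helper4.Golay in

/-- Fix two points p ≠ q and a pair s of two further points. Among the pairs avoiding p, q and disjoint from s, exactly 30 lie in an octad together with p, q and s and exactly 160 do not; and any two pairs other than s that meet s in equally many points and agree on that octad property are carried to one another by an element of the group of the length-24 code fixing p, q and s. -/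
theorem result (p q : Cfsg.GolayPt) (hpq : p ≠ q) (s : Finset Cfsg.GolayPt) (hs : (s.card = 2 ∧ p ∉ s ∧ q ∉ s)) : {t : Finset Cfsg.GolayPt | (t.card = 2 ∧ p ∉ t ∧ q ∉ t) ∧ Disjoint s t ∧ (∃ o ∈ Cfsg.octads, p ∈ o ∧ q ∈ o ∧ s ∪ t ⊆ o)}.ncard = 30 ∧ {t : Finset Cfsg.GolayPt | (t.card = 2 ∧ p ∉ t ∧ q ∉ t) ∧ Disjoint s t ∧ ¬ (∃ o ∈ Cfsg.octads, p ∈ o ∧ q ∈ o ∧ s ∪ t ⊆ o)}.ncard = 160 ∧ ∀ t t' : Finset Cfsg.GolayPt, (t.card = 2 ∧ p ∉ t ∧ q ∉ t) → (t'.card = 2 ∧ p ∉ t' ∧ q ∉ t') → t ≠ s → t' ≠ s → (s ∩ t).card = (s ∩ t').card → ((∃ o ∈ Cfsg.octads, p ∈ o ∧ q ∈ o ∧ s ∪ t ⊆ o) ↔ (∃ o ∈ Cfsg.octads, p ∈ o ∧ q ∈ o ∧ s ∪ t' ⊆ o)) → ∃ g : Equiv.Perm Cfsg.GolayPt, g ∈ Cfsg.M24 ∧ g p = p ∧ g q = q ∧ g • s = s ∧ g • t = t' := by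
  obtain ⟨a, b, hab, rfl⟩ := Finset.card_eq_two.1 hs.1
  have hpa : p ≠ a := fun e => hs.2.1 (by rw [e]; simp)
  have hpb : p ≠ b := fun e => hs.2.1 (by rw [e]; simp)
  have hqa : q ≠ a := fun e => hs.2.2 (by rw [e]; simp)
  have hqb : q ≠ b := fun e => hs.2.2 (by rw [e]; simp)
  obtain ⟨h, hh, hp0, hq0, ha0, hb0⟩ := Stv.map4 p q a b (pt 0) (pt 1) (pt 3) (pt 2)
    (by simp [hpq, hpa, hpb, hqa, hqb, hab]) (by decide)
  have hs0 : h • ({a, b} : Finset GolayPt) = support₂ (word 12) := by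
    rw [Rk.s0_eq, Finset.smul_finset_insert, Finset.smul_finset_singleton]
    show ({h a, h b} : Finset GolayPt) = _
    rw [ha0, hb0]
  have key : ∀ oc : Bool, {t : Finset GolayPt | (t.card = 2 ∧ p ∉ t ∧ q ∉ t) ∧
      Disjoint ({a, b} : Finset GolayPt) t ∧
      ((∃ o ∈ octads, p ∈ o ∧ q ∈ o ∧ ({a, b} : Finset GolayPt) ∪ t ⊆ o) ↔ oc = true)}.ncard
      = (Rk.pairMasks.filter (Rk.selP oc)).length := by
    intro oc
    rw [← Rk.std_count oc]
    apply Rk.ncard_transport_gen h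
    intro t
    rw [← hs0, ← hp0, ← hq0, Rk.mem_smul_iff, Rk.mem_smul_iff, Rk.disjoint_smul_iff,
      Rk.oct_transport hh, Finset.card_smul_finset]
  refine ⟨?_, ?_, ?_⟩
  · rw [← Rk.cnt30, ← key true]
    congr 1
    ext t
    simp
  · rw [← Rk.cnt160, ← key false]
    congr 1
    ext t
    simp
  · intro t t' ht ht' hne hne' hk ho
    have hcard : ∀ u : Finset GolayPt, (u.card = 2 ∧ p ∉ u ∧ q ∉ u) →
        ((h • u).card = 2 ∧ pt 0 ∉ h • u ∧ pt 1 ∉ h • u) := by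
      intro u hu
      rw [← hp0, ← hq0, Rk.mem_smul_iff, Rk.mem_smul_iff, Finset.card_smul_finset]
      exact hu
    have hne0 : ∀ u : Finset GolayPt, u ≠ {a, b} → h • u ≠ support₂ (word 12) := by
      intro u hu e
      rw [← hs0] at e
      exact hu (MulAction.injective h e)
    obtain ⟨g0, hg0, g0p, g0q, g0s, g0t⟩ := Rk.std_trans (h • t) (h • t') (hcard t ht)
      (hcard t' ht') (hne0 t hne) (hne0 t' hne')
      (by rw [← hs0, Rk.card_inter_smul, Rk.card_inter_smul]; exact hk)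
      (by rw [← hs0, ← hp0, ← hq0, Rk.oct_transport hh, Rk.oct_transport hh]; exact ho)
    exact ⟨h⁻¹ * g0 * h, M24.mul_mem (M24.mul_mem (M24.inv_mem hh) hg0) hh,
      Rk.conj_pt (by rw [hp0]; exact g0p), Rk.conj_pt (by rw [hq0]; exact g0q),
      Rk.conj_smul (by rw [hs0]; exact g0s), Rk.conj_smul g0t⟩

end Cfsg.Agent.S1638
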