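import Cfsg.Statements.S1639
import Cfsg.Agent.Lib.Helper4.RkE
import Cfsg.Agent.Lib.Helper4.GolayM12

set_option autoImplicit false
open scoped Pointwise
open Cfsg

namespace Cfsg.Agent.S1639

open Cfsg.Agent.Lib.Helper4 Cfsg.Agent.Lib.Helper4.Golay in
set_option maxRecDepth 100000 in
theorem cnt4 : countComb (fun a => and (and (Nat.beq (pc a) 12) (a.testBit 0))
    (Nat.beq (pc (165759 &&& a)) 4)) basis 0 = 165 := by decide +kernel

open Cfsg.Agent.Lib.Helper4 Cfsg.Agent.Lib.Helper4.Golay in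
set_option maxRecDepth 100000 in
theorem cnt8 : countComb (fun a => and (and (Nat.beq (pc a) 12) (a.testBit 0))
    (Nat.beq (pc (165759 &&& a)) 8)) basis 0 = 330 := by decide +kernel

open Cfsg.Agent.Lib.Helper4 Cfsg.Agent.Lib.Helper4.Golay in
set_option maxRecDepth 100000 in
theorem cnt6 : countComb (fun a => and (and (Nat.beq (pc a) 12) (a.testBit 0))
    (Nat.beq (pc (165759 &&& a)) 6)) basis 0 = 792 := by decide +kernel

open Cfsg.Agent.Lib.Helper4 Cfsg.Agent.Lib.Helper4.Golay in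

/-- The point stabiliser acts on the 1288 dodecads through the point with rank 4 and subdegrees 1, 165, 330, 792, distinguished by intersection 4, 8, 6 with the fixed dodecad. -/
theorem result (x : Cfsg.GolayPt) (d : Finset Cfsg.GolayPt) (hd : d ∈ Cfsg.dodecads) (hx : x ∈ d) : {d' : Finset Cfsg.GolayPt | d' ∈ Cfsg.dodecads ∧ x ∈ d' ∧ (d ∩ d').card = 4}.ncard = 165 ∧ {d' : Finset Cfsg.GolayPt | d' ∈ Cfsg.dodecads ∧ x ∈ d' ∧ (d ∩ d').card = 8}.ncard = 330 ∧ {d' : Finset Cfsg.GolayPt | d' ∈ Cfsg.dodecads ∧ x ∈ d' ∧ (d ∩ d').card = 6}.ncard = 792 ∧ ∀ d' d'' : Finset Cfsg.GolayPt, d' ∈ Cfsg.dodecads → d'' ∈ Cfsg.dodecads → x ∈ d' → x ∈ d'' → (d ∩ d').card = (d ∩ d'').card → ∃ g : Equiv.Perm Cfsg.GolayPt, g ∈ Cfsg.M24 ∧ g x = x ∧ g • d = d ∧ g • d' = d'' := by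
  obtain ⟨h1, hh1, e1⟩ := dod_trans hd D0_dod
  have e1' : h1 • d = D0s := e1
  have hx1 : h1 x ∈ D0s := by
    rw [← e1', Rk.mem_smul_iff]
    exact hx
  obtain ⟨h2, hh2, e2, e3⟩ := dod_map1 (d := D0s) D0_dod hx1 (pt_mem_D0s 0 (by norm_num))
  have hh : h2 * h1 ∈ M24 := M24.mul_mem hh2 hh1
  have hx0 : (h2 * h1) x = pt 0 := by rw [Equiv.Perm.mul_apply, e3]
  have hO : (h2 * h1) • d = D0s := by rw [mul_smul, e1', e2]
  generalize h2 * h1 = h at hh hx0 hO
  have key : ∀ k, {d' : Finset GolayPt | d' ∈ dodecads ∧ x ∈ d' ∧ (d ∩ d').card = k}.ncard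
      = countComb (fun a => and (and (Nat.beq (pc a) 12) (a.testBit 0))
        (Nat.beq (pc (165759 &&& a)) k)) basis 0 := by
    intro k
    show {d' : Finset GolayPt | d' ∈ wordsOfWeight (golayCode : Set (GolayPt → ZMod 2)) 12
      ∧ x ∈ d' ∧ (d ∩ d').card = k}.ncard = _
    rw [Rk.ncard_transportW 12 hh (fun s => x ∈ s ∧ (d ∩ s).card = k)
      (fun s => pt 0 ∈ s ∧ (D0s ∩ s).card = k) ?_]
    · refine Rk.ncard_weight_pred 12 _ _ (fun a => ?_)
      rw [D0s, D0, Rk.card_inter_word, mem_support_word, code_pt 0 (by norm_num),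
        Bool.and_eq_true, Bool.and_eq_true, Nat.beq_eq, Nat.beq_eq, and_assoc]
    · intro s
      rw [← hx0, ← hO, Rk.card_inter_smul, Rk.mem_smul_iff]
  refine ⟨by rw [key]; exact cnt4, by rw [key]; exact cnt8, by rw [key]; exact cnt6, ?_⟩
  intro d' d'' hd' hd'' hx' hx'' hk
  have hsel : ∀ t : Finset GolayPt, x ∈ t → ∀ a, pc a = 12 → h • t = support₂ (word a) →
      Rk.selE a = true := by
    intro t ht a h8 ea
    have : pt 0 ∈ h • t := by rw [← hx0]; exact Finset.smul_mem_smul_finset ht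
    rw [ea, mem_support_word, code_pt 0 (by norm_num)] at this
    simp [Rk.selE, h8, this]
  obtain ⟨g0, hg0, f0, eO, e'⟩ := Rk.rk_transW 12 165759 [0] (by decide) Rk.repE Rk.selE Rk.tblE
    Rk.tblE_ok Rk.tblE_complete (h • d') (h • d'') (smul_mem_weight hh hd')
    (smul_mem_weight hh hd'') (hsel d' hx') (hsel d'' hx'') (by
      show (D0s ∩ h • d').card = (D0s ∩ h • d'').card
      rw [← hO, Rk.card_inter_smul, Rk.card_inter_smul]; exact hk)
  exact ⟨h⁻¹ * g0 * h, M24.mul_mem (M24.mul_mem (M24.inv_mem hh) hg0) hh,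
    Rk.conj_pt (by rw [hx0]; exact f0 0 (by simp)),
    Rk.conj_smul (by rw [hO]; exact eO), Rk.conj_smul e'⟩

end Cfsg.Agent.S1639
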