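import Cfsg.Statements.S1642
import Cfsg.Agent.S1583
import Cfsg.Agent.Lib.Helper4.Leech

set_option autoImplicit false
open Cfsg

namespace Cfsg.Agent.S1642

open Cfsg.Agent.Lib.Helper28 Cfsg.Agent.Lib.Helper4 Cfsg.Agent.Lib.Helper4.Golay
open Cfsg.Agent.Lib.Helper4.Stv Cfsg.Agent.Lib.Helper28.Tri

set_option maxRecDepth 100000 in
theorem d1_mem : word D1m ∈ golayCode := Xi.word_mem_of_red (by decide +kernel)

/-- The word of the complement of the standard dodecad. -/
def cD : GolayPt → ZMod 2 := word D1m + 1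

theorem cD_mem : cD ∈ golayCode := Submodule.add_mem _ d1_mem one_mem_golay

theorem cD_iff (k : GolayPt) : cD k = 1 ↔ word D1m k ≠ 1 := by
  show word D1m k + 1 = 1 ↔ word D1m k ≠ 1
  generalize word D1m k = t
  revert t
  decide

theorem d1_card : (support₂ (word D1m)).card = 12 := D1s_dod.2

theorem ge48 (x : GolayPt → ℤ) (h : ∀ k, word D1m k = 1 → x k % 4 = 2) : 48 ≤ sqNorm x := by
  unfold sqNorm
  have h1 : ∑ k ∈ support₂ (word D1m), (4 : ℤ) ≤ ∑ k ∈ support₂ (word D1m), x k ^ 2 := by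
    apply Finset.sum_le_sum
    intro k hk
    rw [mem_support₂] at hk
    have h2 := h k hk
    have h3 : x k ≥ 2 ∨ x k ≤ -2 := by omega
    rcases h3 with h3 | h3 <;> nlinarith
  have h2 : ∑ k ∈ support₂ (word D1m), x k ^ 2 ≤ ∑ k, x k ^ 2 :=
    Finset.sum_le_sum_of_subset_of_nonneg (Finset.subset_univ _) (fun k _ _ => sq_nonneg _)
  rw [Finset.sum_const, d1_card] at h1
  norm_num at h1
  linarith

theorem tD_norm : sqNorm ((tD : leechLattice) : GolayPt → ℤ) = 48 := by
  show sqNorm (Orb.vecL tDL) = 48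
  decide +kernel

theorem vStar_tD : dotInt ((vStar : leechLattice) : GolayPt → ℤ)
    ((tD : leechLattice) : GolayPt → ℤ) = 16 := by
  rw [dot_vStar]
  show 4 * (Orb.vecL tDL a + Orb.vecL tDL b) = 16
  rw [(tD_vals a).1 D1_pts.1, (tD_vals b).1 D1_pts.2.1]
  norm_num

/-- A shortest vector vanishing off the standard dodecad cannot have product 24 with twice
the indicator of the dodecad. -/
theorem no_fix (y : leechLattice) (hn : sqNorm (y : GolayPt → ℤ) = 32)
    (h0 : ∀ k, word D1m k ≠ 1 → (y : GolayPt → ℤ) k = 0)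
    (hd : dotInt ((tD : leechLattice) : GolayPt → ℤ) (y : GolayPt → ℤ) = 24) : False := by
  obtain ⟨k0, hk0⟩ : ∃ k0 : GolayPt, word D1m k0 ≠ 1 := by decide +kernel
  have he : ∀ k, (2 : ℤ) ∣ (y : GolayPt → ℤ) k := by
    intro k
    have h1 := parity_all (y : GolayPt → ℤ) y.2 k k0
    rw [h0 k0 hk0] at h1
    omega
  have hc : zword (fun k => (y : GolayPt → ℤ) k / 2) ∈ golayCode :=
    half_word (y : GolayPt → ℤ) y.2 he
  have hsub : support₂ (zword (fun k => (y : GolayPt → ℤ) k / 2)) ⊆ support₂ (word D1m) := by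
    intro k hk
    rw [mem_support₂] at hk ⊢
    by_contra hne
    rw [Leech.zword_eq_one, h0 k hne] at hk
    norm_num at hk
  have w1 := golay_weight _ hc
  have w2 := golay_weight _ (Submodule.add_mem _ hc d1_mem)
  have hsd : support₂ (zword (fun k => (y : GolayPt → ℤ) k / 2) + word D1m) =
      support₂ (word D1m) \ support₂ (zword (fun k => (y : GolayPt → ℤ) k / 2)) := by
    ext k
    have hk := @hsub k
    rw [mem_support₂, mem_support₂] at hk
    rw [Finset.mem_sdiff, mem_support₂, mem_support₂, mem_support₂, Pi.add_apply]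
    revert hk
    generalize zword (fun k => (y : GolayPt → ℤ) k / 2) k = p
    generalize word D1m k = q
    revert p q
    decide
  rw [hsd, Finset.card_sdiff_of_subset hsub, d1_card] at w2
  have hle := Finset.card_le_card hsub
  rw [d1_card] at hle
  have hcases : (support₂ (zword (fun k => (y : GolayPt → ℤ) k / 2))).card = 0 ∨
      (support₂ (zword (fun k => (y : GolayPt → ℤ) k / 2))).card = 12 := by omega
  rcases hcases with hz | hz
  · -- all coordinates divisible by 4
    have h4 : ∀ k, (y : GolayPt → ℤ) k % 4 = 0 := by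
      intro k
      have h1 : k ∉ support₂ (zword (fun k => (y : GolayPt → ℤ) k / 2)) := by
        rw [Finset.card_eq_zero] at hz
        rw [hz]
        exact Finset.notMem_empty k
      rw [mem_support₂, Leech.zword_eq_one] at h1
      push Not at h1
      have h2 := he k
      omega
    have h48 := ge48 (((tD : leechLattice) : GolayPt → ℤ) - (y : GolayPt → ℤ)) (by
      intro k hk
      show (Orb.vecL tDL k - (y : GolayPt → ℤ) k) % 4 = 2
      rw [(tD_vals k).1 hk]
      have := h4 k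
      omega)
    rw [sqNorm_sub, tD_norm, hn, hd] at h48
    norm_num at h48
  · -- all coordinates on the dodecad are 2 modulo 4
    have heq : support₂ (zword (fun k => (y : GolayPt → ℤ) k / 2)) = support₂ (word D1m) :=
      Finset.eq_of_subset_of_card_le hsub (by rw [hz, d1_card])
    have h48 := ge48 (y : GolayPt → ℤ) (by
      intro k hk
      rw [← mem_support₂, ← heq, mem_support₂, Leech.zword_eq_one] at hk
      have h2 := he k
      omega)
    rw [hn] at h48
    norm_num at h48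

/-- The sign change on the complement of the standard dodecad. -/
def sD : ↥Co0 := ⟨CoA.sgnP cD cD_mem, CoA.sgnP_mem cD cD_mem⟩

theorem sD_apply (y : ↥leechLattice) (k : GolayPt) :
    ((sD • y : ↥leechLattice) : GolayPt → ℤ) k =
      if cD k = 1 then -(y : GolayPt → ℤ) k else (y : GolayPt → ℤ) k := rfl

theorem sD_vStar : sD • vStar = vStar :=
  sgn_vStar cD cD_mem
    (by
      show word D1m a + 1 = 0
      rw [D1_pts.1]
      decide)
    (by
      show word D1m b + 1 = 0
      rw [D1_pts.2.1]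
      decide)

theorem sD_tD : sD • tD = tD := by
  apply Subtype.ext
  funext k
  rw [sD_apply]
  by_cases hk : cD k = 1
  · rw [if_pos hk]
    rw [cD_iff] at hk
    show -(Orb.vecL tDL k) = Orb.vecL tDL k
    rw [(tD_vals k).2 hk]
    norm_num
  · rw [if_neg hk]

theorem sD_sq : sD * sD = 1 := by
  apply Subtype.ext
  apply Equiv.ext
  intro y
  apply Subtype.ext
  exact CoA.sgn_sgn cD (y : GolayPt → ℤ)

theorem sD_ne : sD ≠ 1 := by
  obtain ⟨k0, hk0⟩ : ∃ k0 : GolayPt, word D1m k0 ≠ 1 := by decide +kernel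
  intro h
  have h1 : ((sD • CoA.bv k0 : ↥leechLattice) : GolayPt → ℤ) k0 =
      ((CoA.bv k0 : ↥leechLattice) : GolayPt → ℤ) k0 := by
    rw [h, one_smul]
  rw [sD_apply, if_pos ((cD_iff k0).2 hk0), CoA.bv_apply, if_pos rfl] at h1
  norm_num at h1

/-- Some involution of the Higman–Sims group acts without fixed points on its 100 points. -/
theorem result (v w : ↥Cfsg.leechLattice) (hv : Cfsg.sqNorm (v : Cfsg.GolayPt → ℤ) = 48) (hw : Cfsg.sqNorm (w : Cfsg.GolayPt → ℤ) = 48) (hvw : Cfsg.dotInt (v : Cfsg.GolayPt → ℤ) (w : Cfsg.GolayPt → ℤ) = -32) : ∃ g : ↥Cfsg.Co0, g • v = v ∧ g • w = w ∧ orderOf g = 2 ∧ ∀ x ∈ {x : ↥Cfsg.leechLattice | Cfsg.sqNorm (x : Cfsg.GolayPt → ℤ) = 32 ∧ Cfsg.dotInt (v : Cfsg.GolayPt → ℤ) (x : Cfsg.GolayPt → ℤ) = 24 ∧ Cfsg.dotInt (w : Cfsg.GolayPt → ℤ) (x : Cfsg.GolayPt → ℤ) = -24}, g • x ≠ x := by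
  have hz : sqNorm ((v + w : ↥leechLattice) : GolayPt → ℤ) = 32 := by
    rw [AddSubgroup.coe_add, Cfsg.Agent.Lib.Helper28.sqNorm_add, hv, hw, hvw]
    norm_num
  have hzv : dotInt ((v + w : ↥leechLattice) : GolayPt → ℤ) (v : GolayPt → ℤ) = 16 := by
    have h := Cfsg.Agent.Lib.Helper28.sqNorm_sub ((v + w : ↥leechLattice) : GolayPt → ℤ)
      (v : GolayPt → ℤ)
    have e : ((v + w : ↥leechLattice) : GolayPt → ℤ) - (v : GolayPt → ℤ) = (w : GolayPt → ℤ) := by
      rw [AddSubgroup.coe_add]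
      abel
    rw [e, hz, hv, hw] at h
    omega
  obtain ⟨G, hGz, hGv⟩ := Cfsg.Agent.S1583.pair_full (v + w) Stv.vStar v Tri.tD hz Stv.vStar_norm
    hv tD_norm hzv vStar_tD
  obtain ⟨g, hg⟩ : ∃ g : ↥Co0, g = G⁻¹ * sD * G := ⟨_, rfl⟩
  have e1 : g • (v + w) = v + w := by
    rw [hg, mul_smul, mul_smul, hGz, sD_vStar, ← hGz, inv_smul_smul]
  have e2 : g • v = v := by
    rw [hg, mul_smul, mul_smul, hGv, sD_tD, ← hGv, inv_smul_smul]
  have e3 : g • w = w := by
    have hadd : g • (v + w) = g • v + g • w := g.2.1 v w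
    rw [e1, e2] at hadd
    exact (add_left_cancel hadd).symm
  have hsq : g ^ 2 = 1 := by
    have h1 : g ^ 2 = G⁻¹ * (sD * sD) * G := by
      rw [hg, pow_two]
      simp only [mul_assoc, mul_inv_cancel_left]
    rw [h1, sD_sq, mul_one, inv_mul_cancel]
  have hne : g ≠ 1 := by
    intro h
    apply sD_ne
    have h1 : sD = G * g * G⁻¹ := by
      rw [hg]
      simp only [mul_assoc, mul_inv_cancel_left, mul_inv_cancel, mul_one]
    rw [h1, h, mul_one, mul_inv_cancel]
  refine ⟨g, e2, e3, orderOf_eq_prime hsq hne, ?_⟩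
  rintro x ⟨hx1, hx2, hx3⟩ hfix
  have h1 : sD • (G • x) = G • x := by
    rw [hg, mul_smul, mul_smul, inv_smul_eq_iff] at hfix
    exact hfix
  apply no_fix (G • x) (by rw [Cfsg.Agent.S1640.hnorm]; exact hx1)
  · intro k hk
    have h2 := congrFun (congrArg Subtype.val h1) k
    have h3 : ((sD • (G • x) : ↥leechLattice) : GolayPt → ℤ) k =
        ((G • x : ↥leechLattice) : GolayPt → ℤ) k := h2
    rw [sD_apply, if_pos ((cD_iff k).2 hk)] at h3
    omega
  · rw [← hGv, Cfsg.Agent.S1640.hdotp]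
    exact hx2
end Cfsg.Agent.S1642
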