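import Cfsg.Statements.S1680
import Cfsg.Agent.Lib.Helper13.Suz1782A
import Cfsg.Agent.Lib.Helper13.Suz1782B

set_option autoImplicit false
open Cfsg

namespace Cfsg.Agent.S1680

open Cfsg.Agent.Lib.Helper13.CE Cfsg.Agent.Lib.Helper13.Suz1782 Cfsg.Spor

theorem hnodes : ∀ x : Suz.Gen, x ∈ coxNodes Suz.edges := by
  intro x; cases x <;> decide

theorem hletters : ∀ x : Suz.Gen, x ∈ par.letters := by
  intro x; cases x <;> decide

theorem hidx : Function.Injective par.idx := by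
  intro x y h
  cases x <;> cases y <;> first | rfl | exact absurd h (by decide)

theorem hextra : List.Forall₂ (fun r W => ∀ (K : Type) [Group K] (s : Suz.Gen → K),
    (∀ x, s x * s x = 1) → FreeGroup.lift s r = (W.map s).prod) Suz.extra extraW := by
  have hinv : ∀ (K : Type) [Group K] (s : Suz.Gen → K), (∀ x, s x * s x = 1) → ∀ x, (s x)⁻¹ = s x :=
    fun K _ s hs x => inv_eq_of_mul_eq_one_right (hs x)
  refine List.Forall₂.cons ?_ (List.Forall₂.cons ?_ (List.Forall₂.cons ?_ (List.Forall₂.cons ?_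
    (List.Forall₂.cons ?_ List.Forall₂.nil))))
  all_goals
    intro K _ s hs
    have hi := hinv K s hs
    simp only [Suz.a, Suz.b, Suz.c, Suz.d, Suz.e, Suz.f, Suz.g, map_mul, map_inv,
      FreeGroup.lift_apply_of, List.map_cons, List.map_nil, List.prod_cons, List.prod_nil,
      pow_succ, pow_zero, one_mul, mul_one, mul_inv_rev, hi, mul_assoc]

theorem hS1 : ∀ r ∈ ({Suz.a, Suz.b, Suz.c, Suz.d, Suz.e, Suz.f} : Set (FreeGroup Suz.Gen)),
    ∃ W ∈ par.subs, r = (W.map FreeGroup.of).prod := by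
  intro r hr
  simp only [Set.mem_insert_iff, Set.mem_singleton_iff] at hr
  rcases hr with rfl | rfl | rfl | rfl | rfl | rfl
  · exact ⟨[.a], by decide, by simp⟩
  · exact ⟨[.b], by decide, by simp⟩
  · exact ⟨[.c], by decide, by simp⟩
  · exact ⟨[.d], by decide, by simp⟩
  · exact ⟨[.e], by decide, by simp⟩
  · exact ⟨[.f], by decide, by simp⟩

theorem hS2 : ∀ W ∈ par.subs, (W.map FreeGroup.of).prod ∈
    ({Suz.a, Suz.b, Suz.c, Suz.d, Suz.e, Suz.f} : Set (FreeGroup Suz.Gen)) := by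
  intro W hW
  have hW' : W ∈ subsW := hW
  simp only [subsW, List.mem_cons, List.mem_nil_iff, or_false] at hW'
  rcases hW' with rfl | rfl | rfl | rfl | rfl | rfl <;> simp

/-- In the presented sporadic Suzuki group, let H be the subgroup generated by the images of a, …, f. Then H has index 1782, H has orbits of sizes 416 and 1365 on the cosets of H other than H itself (with the index 1782 this makes the action rank 3). -/
theorem result : (((Subgroup.closure ({Cfsg.Spor.Suz.a, Cfsg.Spor.Suz.b, Cfsg.Spor.Suz.c, Cfsg.Spor.Suz.d, Cfsg.Spor.Suz.e, Cfsg.Spor.Suz.f} : Set (FreeGroup Cfsg.Spor.Suz.Gen))).map (PresentedGroup.mk (Cfsg.Spor.coxRelators Cfsg.Spor.Suz.edges ∪ {r | r ∈ Cfsg.Spor.Suz.extra})))).index = 1782 ∧ ∃ q₁ q₂ : Cfsg.Spor.Suz ⧸ (((Subgroup.closure ({Cfsg.Spor.Suz.a, Cfsg.Spor.Suz.b, Cfsg.Spor.Suz.c, Cfsg.Spor.Suz.d, Cfsg.Spor.Suz.e, Cfsg.Spor.Suz.f} : Set (FreeGroup Cfsg.Spor.Suz.Gen))).map (PresentedGroup.mk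 (Cfsg.Spor.coxRelators Cfsg.Spor.Suz.edges ∪ {r | r ∈ Cfsg.Spor.Suz.extra})))), (MulAction.orbit (((Subgroup.closure ({Cfsg.Spor.Suz.a, Cfsg.Spor.Suz.b, Cfsg.Spor.Suz.c, Cfsg.Spor.Suz.d, Cfsg.Spor.Suz.e, Cfsg.Spor.Suz.f} : Set (FreeGroup Cfsg.Spor.Suz.Gen))).map (PresentedGroup.mk (Cfsg.Spor.coxRelators Cfsg.Spor.Suz.edges ∪ {r | r ∈ Cfsg.Spor.Suz.extra})))) q₁).ncard = 416 ∧ (MulAction.orbit (((Subgroup.closure ({Cfsg.Spor.Suz.a, Cfsg.Spor.Suz.b, Cfsg.Spor.Suz.c, Cfsg.Spor.Suz.d, Cfsg.Spor.Suz.e, Cfsg.Spor.Suz.f} : Set (FreeGroup Cfsg.Spor.Suz.Gen))).map (PresentedGroup.mk (Cfsg.Spor.coxRelators Cfsg.Spor.Suz.edges ∪ {r | r ∈ Cfsg.Spor.Suz.extra})))) q₂).ncard = 1365 := by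
  obtain ⟨X, f, hnets, hf, hH⟩ := cox_main Suz.edges Suz.extra 1782 11 par extraW
    ({Suz.a, Suz.b, Suz.c, Suz.d, Suz.e, Suz.f} : Set (FreeGroup Suz.Gen))
    hnodes hletters hidx hextra hS1 hS2 rfl hstat 7 tree stepsA parB stepsB 296 hA rfl hB
  refine ⟨Act.index_eq _ f, f.symm ⟨1, by norm_num⟩, f.symm ⟨417, by norm_num⟩, ?_, ?_⟩
  · exact (X.orbit_eq _ f hf par.subs hH orb1 1 416 (by rw [hnets]; exact horb1) _ (by simp)).2
  · exact (X.orbit_eq _ f hf par.subs hH orb417 417 1365 (by rw [hnets]; exact horb417) _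
      (by simp)).2

end Cfsg.Agent.S1680
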