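import Cfsg.Statements.S1681
import Cfsg.Agent.Lib.Helper13.SuzO
import Cfsg.Agent.Lib.Helper13.SuzL6P
import Cfsg.Agent.Lib.Helper13.SuzHChk

set_option autoImplicit false
open Cfsg

namespace Cfsg.Agent.S1681

open Cfsg.Spor Cfsg.Agent.Lib.Helper13 Cfsg.Agent.Lib.Helper13.CE

/-- the sub-diagram on `a, b, c, d, f, g`. -/
def esub : Fin 6 → Suz.Gen := ![.a, .b, .c, .d, .f, .g]

theorem hsubNodes : ∀ x ∈ coxNodes SuzL6.edges, esub x ∈ coxNodes Suz.edges := by decide

theorem hsubLab : ∀ x ∈ coxNodes SuzL6.edges, ∀ y ∈ coxNodes SuzL6.edges,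
    coxLabel SuzL6.edges x y = coxLabel Suz.edges (esub x) (esub y) := by decide

theorem hsubExtra : ∀ r ∈ SuzL6.extra, PresentedGroup.mk SuzO.Rel (FreeGroup.map esub r) = 1 := by
  intro r hr
  apply PresentedGroup.one_of_mem
  right
  show _ ∈ Suz.extra
  simp only [SuzL6.extra, List.mem_cons, List.mem_nil_iff, or_false] at hr
  rcases hr with rfl | rfl | rfl | rfl
  all_goals simp [Suz.extra, esub, Suz.a, Suz.b, Suz.c, Suz.d, Suz.e, Suz.f, Suz.g]

/-- the subgroup generated by `a, b, c, d, f, g`. -/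
def Hsub : Subgroup Suz :=
  Subgroup.closure {y | ∃ x ∈ SuzH.lettersH, y = PresentedGroup.of x}

theorem hmemL (x : Suz.Gen) (hx : x ∈ SuzH.lettersH) : ∃ i, esub i = x := by
  simp only [SuzH.lettersH, List.mem_cons, List.mem_nil_iff, or_false] at hx
  rcases hx with rfl | rfl | rfl | rfl | rfl | rfl
  exacts [⟨0, rfl⟩, ⟨1, rfl⟩, ⟨2, rfl⟩, ⟨3, rfl⟩, ⟨4, rfl⟩, ⟨5, rfl⟩]

theorem card_H : Nat.card Hsub = 19595520 := by
  obtain ⟨X, f, hnets, hev, hf, hinj, hcard⟩ := SuzO.faithful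
  have hs : ∀ x, X.s x = PresentedGroup.of x := by
    intro x
    have := hev [x]
    simp only [Act.ev, List.map_cons, List.map_nil, List.prod_cons, List.prod_nil,
      mul_one] at this
    exact this
  have hsub : X.sub SuzH.lettersH = Hsub := by
    unfold Act.sub Hsub
    congr 1
    ext y
    constructor
    · rintro ⟨x, hx, rfl⟩; exact ⟨x, hx, hs x⟩
    · rintro ⟨x, hx, rfl⟩; exact ⟨x, hx, (hs x).symm⟩
  have hge : 19595520 ≤ Nat.card Hsub := by
    rw [← hsub, ← SuzH.hprodH]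
    exact X.le_card_sub_of_chainWK SuzH.lettersH SuzH.levelsH (by rw [hnets]; exact SuzH.hchainH)
  let ι := presHom Suz.edges Suz.extra SuzL6.edges SuzL6.extra esub hsubNodes hsubLab hsubExtra
  have hle : Hsub ≤ ι.range := by
    unfold Hsub
    rw [Subgroup.closure_le]
    rintro y ⟨x, hx, rfl⟩
    obtain ⟨i, rfl⟩ := hmemL x hx
    exact ⟨PresentedGroup.of i, presHom_of _ _ _ _ _ _ _ _ i⟩
  have hfin : Finite SuzL6.Grp := SuzL6.card_le.1
  have h1 : Nat.card ι.range ≤ Nat.card SuzL6.Grp :=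
    Nat.card_le_card_of_surjective _ ι.rangeRestrict_surjective
  have h2 : Nat.card Hsub ≤ Nat.card ι.range :=
    Nat.card_le_card_of_injective _ (Subgroup.inclusion_injective hle)
  have h3 : Nat.card SuzL6.Grp ≤ 19595520 := le_trans SuzL6.card_le.2 (by norm_num)
  omega

theorem hs_eq : ((Subgroup.closure ({Suz.a, Suz.b, Suz.c, Suz.d, Suz.f, Suz.g} :
    Set (FreeGroup Suz.Gen))).map
    (PresentedGroup.mk (coxRelators Suz.edges ∪ {r | r ∈ Suz.extra}))) = Hsub := by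
  rw [MonoidHom.map_closure]
  unfold Hsub
  congr 1
  ext y
  constructor
  · rintro ⟨r, hr, rfl⟩
    simp only [Set.mem_insert_iff, Set.mem_singleton_iff] at hr
    rcases hr with rfl | rfl | rfl | rfl | rfl | rfl
    · exact ⟨.a, by decide, rfl⟩
    · exact ⟨.b, by decide, rfl⟩
    · exact ⟨.c, by decide, rfl⟩
    · exact ⟨.d, by decide, rfl⟩
    · exact ⟨.f, by decide, rfl⟩
    · exact ⟨.g, by decide, rfl⟩
  · rintro ⟨x, hx, rfl⟩
    simp only [SuzH.lettersH, List.mem_cons, List.mem_nil_iff, or_false] at hx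
    rcases hx with rfl | rfl | rfl | rfl | rfl | rfl
    · exact ⟨Suz.a, by simp, rfl⟩
    · exact ⟨Suz.b, by simp, rfl⟩
    · exact ⟨Suz.c, by simp, rfl⟩
    · exact ⟨Suz.d, by simp, rfl⟩
    · exact ⟨Suz.f, by simp, rfl⟩
    · exact ⟨Suz.g, by simp, rfl⟩

/-- In the presented sporadic Suzuki group (generators a, …, g), the subgroup generated by the images of a, b, c, d, f, g has index 22880. -/
theorem result : (((Subgroup.closure ({Cfsg.Spor.Suz.a, Cfsg.Spor.Suz.b, Cfsg.Spor.Suz.c, Cfsg.Spor.Suz.d, Cfsg.Spor.Suz.f, Cfsg.Spor.Suz.g} : Set (FreeGroup Cfsg.Spor.Suz.Gen))).map (PresentedGroup.mk (Cfsg.Spor.coxRelators Cfsg.Spor.Suz.edges ∪ {r | r ∈ Cfsg.Spor.Suz.extra})))).index = 22880 := by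
  rw [hs_eq]
  have h1 := Subgroup.card_mul_index Hsub
  rw [card_H, SuzO.card] at h1
  omega

end Cfsg.Agent.S1681
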