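import Cfsg.Statements.S1683
import Cfsg.Agent.Lib.Helper13.He2058A
import Cfsg.Agent.Lib.Helper13.He2058B

set_option autoImplicit false
open Cfsg

namespace Cfsg.Agent.S1683

open Cfsg.Agent.Lib.Helper13.CE Cfsg.Agent.Lib.Helper13.He2058 Cfsg.Spor

theorem hnodes : ∀ x : He.Gen, x ∈ coxNodes He.edges := by
  intro x; cases x <;> decide

theorem hletters : ∀ x : He.Gen, x ∈ par.letters := by
  intro x; cases x <;> decide

theorem hidx : Function.Injective par.idx := by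
  intro x y h
  cases x <;> cases y <;> first | rfl | exact absurd h (by decide)

theorem hextra : List.Forall₂ (fun r W => ∀ (K : Type) [Group K] (s : He.Gen → K),
    (∀ x, s x * s x = 1) → FreeGroup.lift s r = (W.map s).prod) He.extra extraW := by
  have hinv : ∀ (K : Type) [Group K] (s : He.Gen → K), (∀ x, s x * s x = 1) → ∀ x, (s x)⁻¹ = s x :=
    fun K _ s hs x => inv_eq_of_mul_eq_one_right (hs x)
  refine List.Forall₂.cons ?_ (List.Forall₂.cons ?_ (List.Forall₂.cons ?_ (List.Forall₂.cons ?_ (List.Forall₂.nil))))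
  all_goals
    intro K _ s hs
    have hi := hinv K s hs
    simp only [He.a, He.b, He.c, He.d, He.e, He.f, He.g, map_mul, map_inv, map_pow,
      FreeGroup.lift_apply_of, List.map_cons, List.map_nil, List.prod_cons, List.prod_nil,
      pow_succ, pow_zero, one_mul, mul_one, mul_inv_rev, hi, mul_assoc]

theorem hS1 : ∀ r ∈ ({He.a, He.c, He.d, He.e, He.f, (He.a * He.b) ^ 2, (He.b * He.c * He.d * He.e) ^ 7} : Set (FreeGroup He.Gen)),
    ∃ W ∈ par.subs, r = (W.map FreeGroup.of).prod := by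
  intro r hr
  simp only [Set.mem_insert_iff, Set.mem_singleton_iff] at hr
  rcases hr with rfl | rfl | rfl | rfl | rfl | rfl | rfl
  · exact ⟨[.a], by decide, by simp [pow_succ, mul_assoc]⟩
  · exact ⟨[.c], by decide, by simp [pow_succ, mul_assoc]⟩
  · exact ⟨[.d], by decide, by simp [pow_succ, mul_assoc]⟩
  · exact ⟨[.e], by decide, by simp [pow_succ, mul_assoc]⟩
  · exact ⟨[.f], by decide, by simp [pow_succ, mul_assoc]⟩
  · exact ⟨[.a, .b, .a, .b], by decide, by simp [pow_succ, mul_assoc]⟩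
  · exact ⟨[.b, .c, .d, .e, .b, .c, .d, .e, .b, .c, .d, .e, .b, .c, .d, .e, .b, .c, .d, .e, .b, .c, .d, .e, .b, .c, .d, .e], by decide, by simp [pow_succ, mul_assoc]⟩

theorem hS2 : ∀ W ∈ par.subs, (W.map FreeGroup.of).prod ∈
    ({He.a, He.c, He.d, He.e, He.f, (He.a * He.b) ^ 2, (He.b * He.c * He.d * He.e) ^ 7} : Set (FreeGroup He.Gen)) := by
  intro W hW
  have hW' : W ∈ subsW := hW
  simp only [subsW, List.mem_cons, List.mem_nil_iff, or_false] at hW'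
  simp only [Set.mem_insert_iff, Set.mem_singleton_iff]
  rcases hW' with rfl | rfl | rfl | rfl | rfl | rfl | rfl
  · left; simp [pow_succ, mul_assoc]
  · right; left; simp [pow_succ, mul_assoc]
  · right; right; left; simp [pow_succ, mul_assoc]
  · right; right; right; left; simp [pow_succ, mul_assoc]
  · right; right; right; right; left; simp [pow_succ, mul_assoc]
  · right; right; right; right; right; left; simp [pow_succ, mul_assoc]
  · right; right; right; right; right; right; simp [pow_succ, mul_assoc]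

/-- In the presented Held group, let H be the subgroup generated by the images of a, c, d, e, f, (ab)^2 and (bcde)^7. Then H has index 2058, there are four distinct H-orbits on the cosets of H other than H itself, of sizes 136, 136, 425 and 1360. -/
theorem result : (((Subgroup.closure ({Cfsg.Spor.He.a, Cfsg.Spor.He.c, Cfsg.Spor.He.d, Cfsg.Spor.He.e, Cfsg.Spor.He.f, (Cfsg.Spor.He.a * Cfsg.Spor.He.b) ^ 2, (Cfsg.Spor.He.b * Cfsg.Spor.He.c * Cfsg.Spor.He.d * Cfsg.Spor.He.e) ^ 7} : Set (FreeGroup Cfsg.Spor.He.Gen))).map (PresentedGroup.mk (Cfsg.Spor.coxRelators Cfsg.Spor.He.edges ∪ {r | r ∈ Cfsg.Spor.He.extra})))).index = 2058 ∧ ∃ q₁ q₂ q₃ q₄ : Cfsg.Spor.He ⧸ (((Subgroup.closure ({Cfsg.Spor.He.a, Cfsg.Spor.He.c, Cfsg.Spor.He.d, Cfsg.Spor.He.e, Cfsg.Spor.He.f, (Cfsg.Spor.He.a * Cfsg.Spor.He.b) ^ 2, (Cfsg.Spor.He.b * Cfsg.Spor.He.c * Cfsg.Spor.He.d * Cfsg.Spor.He.e) ^ 7} : Set (FreeGroup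 Cfsg.Spor.He.Gen))).map (PresentedGroup.mk (Cfsg.Spor.coxRelators Cfsg.Spor.He.edges ∪ {r | r ∈ Cfsg.Spor.He.extra})))), MulAction.orbit (((Subgroup.closure ({Cfsg.Spor.He.a, Cfsg.Spor.He.c, Cfsg.Spor.He.d, Cfsg.Spor.He.e, Cfsg.Spor.He.f, (Cfsg.Spor.He.a * Cfsg.Spor.He.b) ^ 2, (Cfsg.Spor.He.b * Cfsg.Spor.He.c * Cfsg.Spor.He.d * Cfsg.Spor.He.e) ^ 7} : Set (FreeGroup Cfsg.Spor.He.Gen))).map (PresentedGroup.mk (Cfsg.Spor.coxRelators Cfsg.Spor.He.edges ∪ {r | r ∈ Cfsg.Spor.He.extra})))) q₁ ≠ MulAction.orbit (((Subgroup.closure ({Cfsg.Spor.He.a, Cfsg.Spor.He.c, Cfsg.Spor.He.d, Cfsg.Spor.He.e, Cfsg.Spor.He.f, (Cfsg.Spor.He.a * Cfsg.Spor.He.b) ^ 2, (Cfsg.Spor.He.b * Cfsg.Spor.He.c * Cfsg.Spor.He.d * Cfsg.Spor.He.e) ^ 7} : Set (FreeGroup Cfsg.Spor.He.Gen))).map (PresentedGroup.mk (Cfsg.Spor.coxRelators Cfsg.Spor.He.edges ∪ {r | r ∈ Cfsg.Spor.He.extra})))) q₂ ∧ (MulAction.orbit (((Subgroup.closure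 ({Cfsg.Spor.He.a, Cfsg.Spor.He.c, Cfsg.Spor.He.d, Cfsg.Spor.He.e, Cfsg.Spor.He.f, (Cfsg.Spor.He.a * Cfsg.Spor.He.b) ^ 2, (Cfsg.Spor.He.b * Cfsg.Spor.He.c * Cfsg.Spor.He.d * Cfsg.Spor.He.e) ^ 7} : Set (FreeGroup Cfsg.Spor.He.Gen))).map (PresentedGroup.mk (Cfsg.Spor.coxRelators Cfsg.Spor.He.edges ∪ {r | r ∈ Cfsg.Spor.He.extra})))) q₁).ncard = 136 ∧ (MulAction.orbit (((Subgroup.closure ({Cfsg.Spor.He.a, Cfsg.Spor.He.c, Cfsg.Spor.He.d, Cfsg.Spor.He.e, Cfsg.Spor.He.f, (Cfsg.Spor.He.a * Cfsg.Spor.He.b) ^ 2, (Cfsg.Spor.He.b * Cfsg.Spor.He.c * Cfsg.Spor.He.d * Cfsg.Spor.He.e) ^ 7} : Set (FreeGroup Cfsg.Spor.He.Gen))).map (PresentedGroup.mk (Cfsg.Spor.coxRelators Cfsg.Spor.He.edges ∪ {r | r ∈ Cfsg.Spor.He.extra})))) q₂).ncard = 136 ∧ (MulAction.orbit (((Subgroup.closure ({Cfsg.Spor.He.a, Cfsg.Spor.He.c, Cfsg.Spor.He.d, Cfsg.Spor.He.e, Cfsg.Spor.He.f, (Cfsg.Spor.He.a * Cfsg.Spor.He.b) ^ 2, (Cfsg.Spor.He.b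 * Cfsg.Spor.He.c * Cfsg.Spor.He.d * Cfsg.Spor.He.e) ^ 7} : Set (FreeGroup Cfsg.Spor.He.Gen))).map (PresentedGroup.mk (Cfsg.Spor.coxRelators Cfsg.Spor.He.edges ∪ {r | r ∈ Cfsg.Spor.He.extra})))) q₃).ncard = 425 ∧ (MulAction.orbit (((Subgroup.closure ({Cfsg.Spor.He.a, Cfsg.Spor.He.c, Cfsg.Spor.He.d, Cfsg.Spor.He.e, Cfsg.Spor.He.f, (Cfsg.Spor.He.a * Cfsg.Spor.He.b) ^ 2, (Cfsg.Spor.He.b * Cfsg.Spor.He.c * Cfsg.Spor.He.d * Cfsg.Spor.He.e) ^ 7} : Set (FreeGroup Cfsg.Spor.He.Gen))).map (PresentedGroup.mk (Cfsg.Spor.coxRelators Cfsg.Spor.He.edges ∪ {r | r ∈ Cfsg.Spor.He.extra})))) q₄).ncard = 1360 := by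
  obtain ⟨X, f, hnets, hf, hH⟩ := cox_main He.edges He.extra 2058 12 par extraW
    ({He.a, He.c, He.d, He.e, He.f, (He.a * He.b) ^ 2, (He.b * He.c * He.d * He.e) ^ 7} : Set (FreeGroup He.Gen))
    hnodes hletters hidx hextra hS1 hS2 rfl hstat 7 tree stepsA parB stepsB 536 hA rfl hB
  have o1 := X.orbit_eq _ f hf par.subs hH orb1 1 136 (by rw [hnets]; exact horb1)
    (f.symm ⟨1, by norm_num⟩) (by simp)
  have o2 := X.orbit_eq _ f hf par.subs hH orb137 137 136 (by rw [hnets]; exact horb137)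
    (f.symm ⟨137, by norm_num⟩) (by simp)
  have o3 := X.orbit_eq _ f hf par.subs hH orb273 273 425 (by rw [hnets]; exact horb273)
    (f.symm ⟨273, by norm_num⟩) (by simp)
  have o4 := X.orbit_eq _ f hf par.subs hH orb698 698 1360 (by rw [hnets]; exact horb698)
    (f.symm ⟨698, by norm_num⟩) (by simp)
  refine ⟨Act.index_eq _ f, f.symm ⟨1, by norm_num⟩, f.symm ⟨137, by norm_num⟩, f.symm ⟨273, by norm_num⟩, f.symm ⟨698, by norm_num⟩, ?_, o1.2, o2.2, o3.2, o4.2⟩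
  intro heq
  have h1 := (o2.1 (f.symm ⟨1, by norm_num⟩)).mp (by rw [← heq]; exact MulAction.mem_orbit_self _)
  simp at h1

end Cfsg.Agent.S1683
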