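import Cfsg.Statements.S1682
import Cfsg.Agent.S1683
import Cfsg.Agent.Lib.Helper13.HeSp
import Cfsg.Agent.Lib.Helper13.Sp44F

set_option autoImplicit false
open Cfsg

namespace Cfsg.Agent.S1682

open Cfsg.Agent.Lib.Helper13.CE Cfsg.Agent.Lib.Helper13.He2058 Cfsg.Spor
open Cfsg.Agent.Lib.Helper13

theorem hs_eq : ((Subgroup.closure ({He.a, He.c, He.d, He.e, He.f, (He.a * He.b) ^ 2, (He.b * He.c * He.d * He.e) ^ 7} : Set (FreeGroup He.Gen))).map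
    (PresentedGroup.mk (coxRelators He.edges ∪ {r | r ∈ He.extra}))) = HeO.HB := by
  rw [MonoidHom.map_closure]
  unfold HeO.HB
  congr 1
  ext g
  constructor
  · rintro ⟨r, hr, rfl⟩
    obtain ⟨W, hW, rfl⟩ := Cfsg.Agent.S1683.hS1 r hr
    exact ⟨W, hW, rfl⟩
  · rintro ⟨W, hW, rfl⟩
    exact ⟨_, Cfsg.Agent.S1683.hS2 W hW, rfl⟩

/-- In the presented Held group, the subgroup H generated by the images of a, c, d, e, f, (ab)^2 and (bcde)^7 has a normal subgroup of index 2 isomorphic to the 4-dimensional symplectic group over a field with four elements. -/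
theorem result : ∃ (N : Subgroup (((Subgroup.closure ({Cfsg.Spor.He.a, Cfsg.Spor.He.c, Cfsg.Spor.He.d, Cfsg.Spor.He.e, Cfsg.Spor.He.f, (Cfsg.Spor.He.a * Cfsg.Spor.He.b) ^ 2, (Cfsg.Spor.He.b * Cfsg.Spor.He.c * Cfsg.Spor.He.d * Cfsg.Spor.He.e) ^ 7} : Set (FreeGroup Cfsg.Spor.He.Gen))).map (PresentedGroup.mk (Cfsg.Spor.coxRelators Cfsg.Spor.He.edges ∪ {r | r ∈ Cfsg.Spor.He.extra}))))) (K : Type) (_ : Field K) (_ : Fintype K), N.Normal ∧ N.index = 2 ∧ Fintype.card K = 4 ∧ Nonempty (N ≃* Matrix.symplecticGroup (Fin 2) K) := by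
  rw [hs_eq]
  obtain ⟨K, hK1, hK2, hK, ⟨eK⟩⟩ := Sp44.exists_field
  exact ⟨HeSp.N, K, hK1, hK2, HeSp.N_normal, HeSp.index_N, hK, ⟨HeSp.equivN.symm.trans eK⟩⟩

end Cfsg.Agent.S1682
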