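import Cfsg.Statements.S1684
import Cfsg.Agent.Lib.Helper13.U6Fi
import Cfsg.Agent.Lib.Helper13.U6SU

set_option autoImplicit false
open Cfsg

namespace Cfsg.Agent.S1684

open Cfsg.Agent.Lib.Helper13.CE Cfsg.Agent.Lib.Helper13.Fi22x3510 Cfsg.Spor
open Cfsg.Agent.Lib.Helper13

theorem hS1 : ∀ r ∈ ({Fi22.a, Fi22.c, Fi22.d, Fi22.e, Fi22.f, Fi22.g, Fi22.h, Fi22.i, (Fi22.a * Fi22.b * Fi22.c * Fi22.d * Fi22.e * Fi22.h) ^ 5} : Set (FreeGroup Fi22.Gen)),
    ∃ W ∈ par.subs, r = (W.map FreeGroup.of).prod := by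
  intro r hr
  simp only [Set.mem_insert_iff, Set.mem_singleton_iff] at hr
  rcases hr with rfl | rfl | rfl | rfl | rfl | rfl | rfl | rfl | rfl
  · exact ⟨[.a], by decide, by simp [pow_succ, mul_assoc]⟩
  · exact ⟨[.c], by decide, by simp [pow_succ, mul_assoc]⟩
  · exact ⟨[.d], by decide, by simp [pow_succ, mul_assoc]⟩
  · exact ⟨[.e], by decide, by simp [pow_succ, mul_assoc]⟩
  · exact ⟨[.f], by decide, by simp [pow_succ, mul_assoc]⟩
  · exact ⟨[.g], by decide, by simp [pow_succ, mul_assoc]⟩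
  · exact ⟨[.h], by decide, by simp [pow_succ, mul_assoc]⟩
  · exact ⟨[.i], by decide, by simp [pow_succ, mul_assoc]⟩
  · exact ⟨[.a, .b, .c, .d, .e, .h, .a, .b, .c, .d, .e, .h, .a, .b, .c, .d, .e, .h, .a, .b, .c, .d, .e, .h, .a, .b, .c, .d, .e, .h], by decide, by simp [pow_succ, mul_assoc]⟩

theorem hS2 : ∀ W ∈ par.subs, (W.map FreeGroup.of).prod ∈
    ({Fi22.a, Fi22.c, Fi22.d, Fi22.e, Fi22.f, Fi22.g, Fi22.h, Fi22.i, (Fi22.a * Fi22.b * Fi22.c * Fi22.d * Fi22.e * Fi22.h) ^ 5} : Set (FreeGroup Fi22.Gen)) := by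
  intro W hW
  have hW' : W ∈ subsW := hW
  simp only [subsW, List.mem_cons, List.mem_nil_iff, or_false] at hW'
  simp only [Set.mem_insert_iff, Set.mem_singleton_iff]
  rcases hW' with rfl | rfl | rfl | rfl | rfl | rfl | rfl | rfl | rfl
  · left; simp [pow_succ, mul_assoc]
  · right; left; simp [pow_succ, mul_assoc]
  · right; right; left; simp [pow_succ, mul_assoc]
  · right; right; right; left; simp [pow_succ, mul_assoc]
  · right; right; right; right; left; simp [pow_succ, mul_assoc]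
  · right; right; right; right; right; left; simp [pow_succ, mul_assoc]
  · right; right; right; right; right; right; left; simp [pow_succ, mul_assoc]
  · right; right; right; right; right; right; right; left; simp [pow_succ, mul_assoc]
  · right; right; right; right; right; right; right; right; simp [pow_succ, mul_assoc]

theorem hs_eq : ((Subgroup.closure ({Fi22.a, Fi22.c, Fi22.d, Fi22.e, Fi22.f, Fi22.g, Fi22.h, Fi22.i, (Fi22.a * Fi22.b * Fi22.c * Fi22.d * Fi22.e * Fi22.h) ^ 5} : Set (FreeGroup Fi22.Gen))).map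
    (PresentedGroup.mk (coxRelators Fi22.edges ∪ {r | r ∈ Fi22.extra}))) = Fi22O.HB := by
  rw [MonoidHom.map_closure]
  unfold Fi22O.HB
  congr 1
  ext g
  constructor
  · rintro ⟨r, hr, rfl⟩
    obtain ⟨W, hW, rfl⟩ := hS1 r hr
    exact ⟨W, hW, rfl⟩
  · rintro ⟨W, hW, rfl⟩
    exact ⟨_, hS2 W hW, rfl⟩

theorem exists_omega (F : Type) [Field F] [Fintype F] (hcard : Fintype.card F = 4) :
    ∃ ω : F, ω ^ 2 + ω + 1 = 0 := by
  classical
  have hx : ∃ x : F, x ≠ 0 ∧ x ≠ 1 := by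
    by_contra hne
    have hne' : ∀ x : F, x ≠ 0 → x = 1 := by
      intro x hx0
      by_contra hx1
      exact hne ⟨x, hx0, hx1⟩
    have hle : Fintype.card F ≤ 2 := by
      calc Fintype.card F = (Finset.univ : Finset F).card := rfl
        _ ≤ ({0, 1} : Finset F).card := Finset.card_le_card (by
            intro x _
            by_cases h : x = 0
            · simp [h]
            · simp [hne' x h])
        _ ≤ 2 := Finset.card_le_two
    omega
  obtain ⟨x, hx0, hx1⟩ := hx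
  refine ⟨x, ?_⟩
  have h3 : x ^ 3 = 1 := by
    have := FiniteField.pow_card_sub_one_eq_one x hx0
    rw [hcard] at this
    exact this
  have h4 : (x - 1) * (x ^ 2 + x + 1) = 0 := by linear_combination h3
  rcases mul_eq_zero.mp h4 with h | h
  · exact absurd (sub_eq_zero.mp h) hx1
  · exact h

/-- In the presented Fischer group Fi₂₂, the subgroup generated by the images of a, c, d, e, f, g, h, i and (abcdeh)^5 is a non-split double cover of PSU(6, 2) (realised over a field with four elements). -/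
theorem result : ∃ (K : Type) (_ : Field K) (_ : Fintype K), Fintype.card K = 4 ∧ Cfsg.IsNonsplitDoubleCover (((Subgroup.closure ({Cfsg.Spor.Fi22.a, Cfsg.Spor.Fi22.c, Cfsg.Spor.Fi22.d, Cfsg.Spor.Fi22.e, Cfsg.Spor.Fi22.f, Cfsg.Spor.Fi22.g, Cfsg.Spor.Fi22.h, Cfsg.Spor.Fi22.i, (Cfsg.Spor.Fi22.a * Cfsg.Spor.Fi22.b * Cfsg.Spor.Fi22.c * Cfsg.Spor.Fi22.d * Cfsg.Spor.Fi22.e * Cfsg.Spor.Fi22.h) ^ 5} : Set (FreeGroup Cfsg.Spor.Fi22.Gen))).map (PresentedGroup.mk (Cfsg.Spor.coxRelators Cfsg.Spor.Fi22.edges ∪ {r | r ∈ Cfsg.Spor.Fi22.extra})))) (Cfsg.PSU 6 K 2) := by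
  classical
  letI : Fintype (GaloisField 2 2) := Fintype.ofFinite (GaloisField 2 2)
  have hcard : Fintype.card (GaloisField 2 2) = 4 := by
    have h := GaloisField.card 2 2 (by norm_num)
    rw [Nat.card_eq_fintype_card] at h
    rw [h]; norm_num
  obtain ⟨ω, hω⟩ := exists_omega (GaloisField 2 2) hcard
  refine ⟨GaloisField 2 2, inferInstance, inferInstance, hcard, ?_⟩
  rw [hs_eq]
  exact U6Fi.nonsplit_right (U6SU.equivPSU hcard ω hω) U6Fi.cover

end Cfsg.Agent.S1684
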