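import Cfsg.Statements.S1685
import Cfsg.Agent.Lib.Helper13.Fi22x14080A
import Cfsg.Agent.Lib.Helper13.Fi22x14080B

set_option autoImplicit false
open Cfsg

namespace Cfsg.Agent.S1685

open Cfsg.Agent.Lib.Helper13.CE Cfsg.Agent.Lib.Helper13.Fi22x14080 Cfsg.Spor

theorem hnodes : ∀ x : Fi22.Gen, x ∈ coxNodes Fi22.edges := by
  intro x; cases x <;> decide

theorem hletters : ∀ x : Fi22.Gen, x ∈ par.letters := by
  intro x; cases x <;> decide

theorem hidx : Function.Injective par.idx := by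
  intro x y h
  cases x <;> cases y <;> first | rfl | exact absurd h (by decide)

theorem hextra : List.Forall₂ (fun r W => ∀ (K : Type) [Group K] (s : Fi22.Gen → K),
    (∀ x, s x * s x = 1) → FreeGroup.lift s r = (W.map s).prod) Fi22.extra extraW := by
  have hinv : ∀ (K : Type) [Group K] (s : Fi22.Gen → K), (∀ x, s x * s x = 1) → ∀ x, (s x)⁻¹ = s x :=
    fun K _ s hs x => inv_eq_of_mul_eq_one_right (hs x)
  refine List.Forall₂.cons ?_ (List.Forall₂.cons ?_ (List.Forall₂.cons ?_ (List.Forall₂.nil)))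
  all_goals
    intro K _ s hs
    have hi := hinv K s hs
    simp only [Fi22.a, Fi22.b, Fi22.c, Fi22.d, Fi22.e, Fi22.f, Fi22.g, Fi22.h, Fi22.i, map_mul, map_inv, map_pow,
      FreeGroup.lift_apply_of, List.map_cons, List.map_nil, List.prod_cons, List.prod_nil,
      pow_succ, pow_zero, one_mul, mul_one, mul_inv_rev, hi, mul_assoc]

theorem hS1 : ∀ r ∈ ({Fi22.b, Fi22.c, Fi22.d, Fi22.e, Fi22.f, Fi22.g, Fi22.h, Fi22.i} : Set (FreeGroup Fi22.Gen)),
    ∃ W ∈ par.subs, r = (W.map FreeGroup.of).prod := by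
  intro r hr
  simp only [Set.mem_insert_iff, Set.mem_singleton_iff] at hr
  rcases hr with rfl | rfl | rfl | rfl | rfl | rfl | rfl | rfl
  · exact ⟨[.b], by decide, by simp [pow_succ, mul_assoc]⟩
  · exact ⟨[.c], by decide, by simp [pow_succ, mul_assoc]⟩
  · exact ⟨[.d], by decide, by simp [pow_succ, mul_assoc]⟩
  · exact ⟨[.e], by decide, by simp [pow_succ, mul_assoc]⟩
  · exact ⟨[.f], by decide, by simp [pow_succ, mul_assoc]⟩
  · exact ⟨[.g], by decide, by simp [pow_succ, mul_assoc]⟩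
  · exact ⟨[.h], by decide, by simp [pow_succ, mul_assoc]⟩
  · exact ⟨[.i], by decide, by simp [pow_succ, mul_assoc]⟩

theorem hS2 : ∀ W ∈ par.subs, (W.map FreeGroup.of).prod ∈
    ({Fi22.b, Fi22.c, Fi22.d, Fi22.e, Fi22.f, Fi22.g, Fi22.h, Fi22.i} : Set (FreeGroup Fi22.Gen)) := by
  intro W hW
  have hW' : W ∈ subsW := hW
  simp only [subsW, List.mem_cons, List.mem_nil_iff, or_false] at hW'
  simp only [Set.mem_insert_iff, Set.mem_singleton_iff]
  rcases hW' with rfl | rfl | rfl | rfl | rfl | rfl | rfl | rfl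
  · left; simp [pow_succ, mul_assoc]
  · right; left; simp [pow_succ, mul_assoc]
  · right; right; left; simp [pow_succ, mul_assoc]
  · right; right; right; left; simp [pow_succ, mul_assoc]
  · right; right; right; right; left; simp [pow_succ, mul_assoc]
  · right; right; right; right; right; left; simp [pow_succ, mul_assoc]
  · right; right; right; right; right; right; left; simp [pow_succ, mul_assoc]
  · right; right; right; right; right; right; right; simp [pow_succ, mul_assoc]

/-- In the presented Fischer group Fi₂₂ (generators a, …, i), the subgroup generated by the images of b, c, d, e, f, g, h, i has index 14080. -/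
theorem result : (((Subgroup.closure ({Cfsg.Spor.Fi22.b, Cfsg.Spor.Fi22.c, Cfsg.Spor.Fi22.d, Cfsg.Spor.Fi22.e, Cfsg.Spor.Fi22.f, Cfsg.Spor.Fi22.g, Cfsg.Spor.Fi22.h, Cfsg.Spor.Fi22.i} : Set (FreeGroup Cfsg.Spor.Fi22.Gen))).map (PresentedGroup.mk (Cfsg.Spor.coxRelators Cfsg.Spor.Fi22.edges ∪ {r | r ∈ Cfsg.Spor.Fi22.extra})))).index = 14080 := by
  obtain ⟨X, f, hnets, hf, hH⟩ := cox_main Fi22.edges Fi22.extra 14080 14 par extraW
    ({Fi22.b, Fi22.c, Fi22.d, Fi22.e, Fi22.f, Fi22.g, Fi22.h, Fi22.i} : Set (FreeGroup Fi22.Gen))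
    hnodes hletters hidx hextra hS1 hS2 rfl hstat 9 tree stepsA parB stepsB 63 hA rfl hB
  exact Act.index_eq _ f

end Cfsg.Agent.S1685
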