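import Cfsg.Statements.S1686
import Cfsg.Agent.S1685
import Cfsg.Agent.Lib.Helper13.O7M
import Cfsg.Agent.Lib.Helper13.O7Fi

set_option autoImplicit false
open Cfsg

namespace Cfsg.Agent.S1686

open Cfsg.Agent.Lib.Helper13.CE Cfsg.Spor
open Cfsg.Agent.Lib.Helper13

theorem hs_eq : ((Subgroup.closure ({Fi22.b, Fi22.c, Fi22.d, Fi22.e, Fi22.f, Fi22.g, Fi22.h, Fi22.i} : Set (FreeGroup Fi22.Gen))).map
    (PresentedGroup.mk (coxRelators Fi22.edges ∪ {r | r ∈ Fi22.extra}))) = Fi22O.HA := by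
  rw [MonoidHom.map_closure]
  unfold Fi22O.HA
  congr 1
  ext g
  constructor
  · rintro ⟨r, hr, rfl⟩
    obtain ⟨W, hW, rfl⟩ := Cfsg.Agent.S1685.hS1 r hr
    exact ⟨W, hW, rfl⟩
  · rintro ⟨W, hW, rfl⟩
    exact ⟨_, Cfsg.Agent.S1685.hS2 W hW, rfl⟩

/-- In the presented Fischer group Fi₂₂, the subgroup generated by the images of b, …, i is isomorphic to PΩ(7, 3), the commutator subgroup of the isometry group of the quadratic form x₀² + x₁y₁ + x₂y₂ + x₃y₃ over the integers mod 3, modulo its centre. -/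
theorem result : Nonempty ((((Subgroup.closure ({Cfsg.Spor.Fi22.b, Cfsg.Spor.Fi22.c, Cfsg.Spor.Fi22.d, Cfsg.Spor.Fi22.e, Cfsg.Spor.Fi22.f, Cfsg.Spor.Fi22.g, Cfsg.Spor.Fi22.h, Cfsg.Spor.Fi22.i} : Set (FreeGroup Cfsg.Spor.Fi22.Gen))).map (PresentedGroup.mk (Cfsg.Spor.coxRelators Cfsg.Spor.Fi22.edges ∪ {r | r ∈ Cfsg.Spor.Fi22.extra})))) ≃* Cfsg.POmega (ZMod 3) (Cfsg.quadFormOdd 3 (ZMod 3))) := by
  rw [hs_eq]
  exact ⟨O7Fi.equivHA.symm.trans O7M.equivPOmega⟩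

end Cfsg.Agent.S1686
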