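import Cfsg.Statements.S1688
import Cfsg.Agent.Lib.Helper13.Fi23Cover

set_option autoImplicit false
open Cfsg

namespace Cfsg.Agent.S1688

open Cfsg.Agent.Lib.Helper13.CE Cfsg.Agent.Lib.Helper13.Fi23x31671 Cfsg.Spor

theorem hS1 : ∀ r ∈ ({Fi23.a, Fi23.b, Fi23.c, Fi23.d, Fi23.e, Fi23.f, Fi23.g, Fi23.h, Fi23.i} : Set (FreeGroup Fi23.Gen)),
    ∃ W ∈ par.subs, r = (W.map FreeGroup.of).prod := by
  intro r hr
  simp only [Set.mem_insert_iff, Set.mem_singleton_iff] at hr
  rcases hr with rfl | rfl | rfl | rfl | rfl | rfl | rfl | rfl | rfl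
  · exact ⟨[.a], by decide, by simp [pow_succ, mul_assoc]⟩
  · exact ⟨[.b], by decide, by simp [pow_succ, mul_assoc]⟩
  · exact ⟨[.c], by decide, by simp [pow_succ, mul_assoc]⟩
  · exact ⟨[.d], by decide, by simp [pow_succ, mul_assoc]⟩
  · exact ⟨[.e], by decide, by simp [pow_succ, mul_assoc]⟩
  · exact ⟨[.f], by decide, by simp [pow_succ, mul_assoc]⟩
  · exact ⟨[.g], by decide, by simp [pow_succ, mul_assoc]⟩
  · exact ⟨[.h], by decide, by simp [pow_succ, mul_assoc]⟩
  · exact ⟨[.i], by decide, by simp [pow_succ, mul_assoc]⟩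

theorem hS2 : ∀ W ∈ par.subs, (W.map FreeGroup.of).prod ∈
    ({Fi23.a, Fi23.b, Fi23.c, Fi23.d, Fi23.e, Fi23.f, Fi23.g, Fi23.h, Fi23.i} : Set (FreeGroup Fi23.Gen)) := by
  intro W hW
  have hW' : W ∈ subsW := hW
  simp only [subsW, List.mem_cons, List.mem_nil_iff, or_false] at hW'
  simp only [Set.mem_insert_iff, Set.mem_singleton_iff]
  rcases hW' with rfl | rfl | rfl | rfl | rfl | rfl | rfl | rfl | rfl
  · left; simp [pow_succ, mul_assoc]
  · right; left; simp [pow_succ, mul_assoc]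
  · right; right; left; simp [pow_succ, mul_assoc]
  · right; right; right; left; simp [pow_succ, mul_assoc]
  · right; right; right; right; left; simp [pow_succ, mul_assoc]
  · right; right; right; right; right; left; simp [pow_succ, mul_assoc]
  · right; right; right; right; right; right; left; simp [pow_succ, mul_assoc]
  · right; right; right; right; right; right; right; left; simp [pow_succ, mul_assoc]
  · right; right; right; right; right; right; right; right; simp [pow_succ, mul_assoc]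

theorem hs_eq : ((Subgroup.closure ({Fi23.a, Fi23.b, Fi23.c, Fi23.d, Fi23.e, Fi23.f, Fi23.g, Fi23.h, Fi23.i} : Set (FreeGroup Fi23.Gen))).map
    (PresentedGroup.mk (coxRelators Fi23.edges ∪ {r | r ∈ Fi23.extra}))) =
    Cfsg.Agent.Lib.Helper13.Fi23O.Hs := by
  rw [MonoidHom.map_closure]
  unfold Cfsg.Agent.Lib.Helper13.Fi23O.Hs
  congr 1
  ext g
  constructor
  · rintro ⟨r, hr, rfl⟩
    obtain ⟨W, hW, rfl⟩ := hS1 r hr
    exact ⟨W, hW, rfl⟩
  · rintro ⟨W, hW, rfl⟩
    exact ⟨_, hS2 W hW, rfl⟩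

/-- In the presented Fischer group Fi₂₃, the subgroup generated by the images of a, …, i is a non-split double cover of the presented Fischer group Fi₂₂. -/
theorem result : Cfsg.IsNonsplitDoubleCover (((Subgroup.closure ({Cfsg.Spor.Fi23.a, Cfsg.Spor.Fi23.b, Cfsg.Spor.Fi23.c, Cfsg.Spor.Fi23.d, Cfsg.Spor.Fi23.e, Cfsg.Spor.Fi23.f, Cfsg.Spor.Fi23.g, Cfsg.Spor.Fi23.h, Cfsg.Spor.Fi23.i} : Set (FreeGroup Cfsg.Spor.Fi23.Gen))).map (PresentedGroup.mk (Cfsg.Spor.coxRelators Cfsg.Spor.Fi23.edges ∪ {r | r ∈ Cfsg.Spor.Fi23.extra})))) Cfsg.Spor.Fi22 := by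
  rw [hs_eq]
  exact Cfsg.Agent.Lib.Helper13.Fi23C.cover

end Cfsg.Agent.S1688
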