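import Cfsg.Statements.S1689
import Cfsg.Agent.Lib.Helper13.Fi23x31671A
import Cfsg.Agent.Lib.Helper13.Fi23x31671B

set_option autoImplicit false
open Cfsg

namespace Cfsg.Agent.S1689

open Cfsg.Agent.Lib.Helper13.CE Cfsg.Agent.Lib.Helper13.Fi23x31671 Cfsg.Spor

theorem hnodes : ∀ x : Fi23.Gen, x ∈ coxNodes Fi23.edges := by
  intro x; cases x <;> decide

theorem hletters : ∀ x : Fi23.Gen, x ∈ par.letters := by
  intro x; cases x <;> decide

theorem hidx : Function.Injective par.idx := by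
  intro x y h
  cases x <;> cases y <;> first | rfl | exact absurd h (by decide)

theorem hextra : List.Forall₂ (fun r W => ∀ (K : Type) [Group K] (s : Fi23.Gen → K),
    (∀ x, s x * s x = 1) → FreeGroup.lift s r = (W.map s).prod) Fi23.extra extraW := by
  have hinv : ∀ (K : Type) [Group K] (s : Fi23.Gen → K), (∀ x, s x * s x = 1) → ∀ x, (s x)⁻¹ = s x :=
    fun K _ s hs x => inv_eq_of_mul_eq_one_right (hs x)
  refine List.Forall₂.cons ?_ (List.Forall₂.cons ?_ (List.Forall₂.nil))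
  all_goals
    intro K _ s hs
    have hi := hinv K s hs
    simp only [Fi23.a, Fi23.b, Fi23.c, Fi23.d, Fi23.e, Fi23.f, Fi23.g, Fi23.j, Fi23.h, Fi23.i, map_mul, map_inv, map_pow,
      FreeGroup.lift_apply_of, List.map_cons, List.map_nil, List.prod_cons, List.prod_nil,
      pow_succ, pow_zero, one_mul, mul_one, mul_inv_rev, hi, mul_assoc]

theorem hS1 : ∀ r ∈ ({Fi23.a, Fi23.b, Fi23.c, Fi23.d, Fi23.e, Fi23.f, Fi23.g, Fi23.h, Fi23.i} : Set (FreeGroup Fi23.Gen)),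
    ∃ W ∈ par.subs, r = (W.map FreeGroup.of).prod := by
  intro r hr
  simp only [Set.mem_insert_iff, Set.mem_singleton_iff] at hr
  rcases hr with rfl | rfl | rfl | rfl | rfl | rfl | rfl | rfl | rfl
  · exact ⟨[.a], by decide, by simp [pow_succ, mul_assoc]⟩
  · exact ⟨[.b], by decide, by simp [pow_succ, mul_assoc]⟩
  · exact ⟨[.c], by decide, by simp [pow_succ, mul_assoc]⟩
  · exact ⟨[.d], by decide, by simp [pow_succ, mul_assoc]⟩
  · exact ⟨[.e], by decide, by simp [pow_succ, mul_assoc]⟩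
  · exact ⟨[.f], by decide, by simp [pow_succ, mul_assoc]⟩
  · exact ⟨[.g], by decide, by simp [pow_succ, mul_assoc]⟩
  · exact ⟨[.h], by decide, by simp [pow_succ, mul_assoc]⟩
  · exact ⟨[.i], by decide, by simp [pow_succ, mul_assoc]⟩

theorem hS2 : ∀ W ∈ par.subs, (W.map FreeGroup.of).prod ∈
    ({Fi23.a, Fi23.b, Fi23.c, Fi23.d, Fi23.e, Fi23.f, Fi23.g, Fi23.h, Fi23.i} : Set (FreeGroup Fi23.Gen)) := by
  intro W hW
  have hW' : W ∈ subsW := hW
  simp only [subsW, List.mem_cons, List.mem_nil_iff, or_false] at hW'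
  simp only [Set.mem_insert_iff, Set.mem_singleton_iff]
  rcases hW' with rfl | rfl | rfl | rfl | rfl | rfl | rfl | rfl | rfl
  · left; simp [pow_succ, mul_assoc]
  · right; left; simp [pow_succ, mul_assoc]
  · right; right; left; simp [pow_succ, mul_assoc]
  · right; right; right; left; simp [pow_succ, mul_assoc]
  · right; right; right; right; left; simp [pow_succ, mul_assoc]
  · right; right; right; right; right; left; simp [pow_succ, mul_assoc]
  · right; right; right; right; right; right; left; simp [pow_succ, mul_assoc]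
  · right; right; right; right; right; right; right; left; simp [pow_succ, mul_assoc]
  · right; right; right; right; right; right; right; right; simp [pow_succ, mul_assoc]

/-- In the presented Fischer group Fi₂₃, let H be the subgroup generated by the images of a, …, i. Then H has index 31671, H has orbits of sizes 3510 and 28160 on the cosets of H other than H itself. -/
theorem result : (((Subgroup.closure ({Cfsg.Spor.Fi23.a, Cfsg.Spor.Fi23.b, Cfsg.Spor.Fi23.c, Cfsg.Spor.Fi23.d, Cfsg.Spor.Fi23.e, Cfsg.Spor.Fi23.f, Cfsg.Spor.Fi23.g, Cfsg.Spor.Fi23.h, Cfsg.Spor.Fi23.i} : Set (FreeGroup Cfsg.Spor.Fi23.Gen))).map (PresentedGroup.mk (Cfsg.Spor.coxRelators Cfsg.Spor.Fi23.edges ∪ {r | r ∈ Cfsg.Spor.Fi23.extra})))).index = 31671 ∧ ∃ q₁ q₂ : Cfsg.Spor.Fi23 ⧸ (((Subgroup.closure ({Cfsg.Spor.Fi23.a, Cfsg.Spor.Fi23.b, Cfsg.Spor.Fi23.c, Cfsg.Spor.Fi23.d, Cfsg.Spor.Fi23.e, Cfsg.Spor.Fi23.f, Cfsg.Spor.Fi23.g, Cfsg.Spor.Fi23.h,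 Cfsg.Spor.Fi23.i} : Set (FreeGroup Cfsg.Spor.Fi23.Gen))).map (PresentedGroup.mk (Cfsg.Spor.coxRelators Cfsg.Spor.Fi23.edges ∪ {r | r ∈ Cfsg.Spor.Fi23.extra})))), (MulAction.orbit (((Subgroup.closure ({Cfsg.Spor.Fi23.a, Cfsg.Spor.Fi23.b, Cfsg.Spor.Fi23.c, Cfsg.Spor.Fi23.d, Cfsg.Spor.Fi23.e, Cfsg.Spor.Fi23.f, Cfsg.Spor.Fi23.g, Cfsg.Spor.Fi23.h, Cfsg.Spor.Fi23.i} : Set (FreeGroup Cfsg.Spor.Fi23.Gen))).map (PresentedGroup.mk (Cfsg.Spor.coxRelators Cfsg.Spor.Fi23.edges ∪ {r | r ∈ Cfsg.Spor.Fi23.extra})))) q₁).ncard = 3510 ∧ (MulAction.orbit (((Subgroup.closure ({Cfsg.Spor.Fi23.a, Cfsg.Spor.Fi23.b, Cfsg.Spor.Fi23.c, Cfsg.Spor.Fi23.d, Cfsg.Spor.Fi23.e, Cfsg.Spor.Fi23.f, Cfsg.Spor.Fi23.g, Cfsg.Spor.Fi23.h, Cfsg.Spor.Fi23.i} : Set (FreeGroup Cfsg.Spor.Fi23.Gen))).map (PresentedGroup.mk (Cfsg.Spor.coxRelators Cfsg.Spor.Fi23.edges ∪ {r | r ∈ Cfsg.Spor.Fi23.extra})))) q₂).ncard = 28160 := by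
  obtain ⟨X, f, hnets, hf, hH⟩ := cox_main Fi23.edges Fi23.extra 31671 15 par extraW
    ({Fi23.a, Fi23.b, Fi23.c, Fi23.d, Fi23.e, Fi23.f, Fi23.g, Fi23.h, Fi23.i} : Set (FreeGroup Fi23.Gen))
    hnodes hletters hidx hextra hS1 hS2 rfl hstat 10 tree stepsA parB stepsB 77 hA rfl hB
  have o1 := X.orbit_eq _ f hf par.subs hH orb1 1 3510 (by rw [hnets]; exact horb1)
    (f.symm ⟨1, by norm_num⟩) (by simp)
  have o2 := X.orbit_eq _ f hf par.subs hH orb3511 3511 28160 (by rw [hnets]; exact horb3511)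
    (f.symm ⟨3511, by norm_num⟩) (by simp)
  exact ⟨Act.index_eq _ f, f.symm ⟨1, by norm_num⟩, f.symm ⟨3511, by norm_num⟩, o1.2, o2.2⟩

end Cfsg.Agent.S1689
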