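import Cfsg.Statements.S1691

set_option autoImplicit false
open Cfsg

namespace Cfsg.Agent.S1691

open Cfsg.Spor

/-- image of a generator in the abelianization -/
noncomputable def ab (x : Fi24.Gen) : Abelianization Fi24 :=
  Abelianization.of (PresentedGroup.of x)

theorem node (x : Fi24.Gen) : x ∈ coxNodes Fi24.edges := by
  cases x <;> decide

theorem sq (x : Fi24.Gen) : ab x * ab x = 1 := by
  have hr : (FreeGroup.of x * FreeGroup.of x) ^ coxLabel Fi24.edges x x ∈
      coxRelators Fi24.edges ∪ {r | r ∈ Fi24.extra} :=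
    Or.inl ⟨x, node x, x, node x, rfl⟩
  have h1 := PresentedGroup.one_of_mem hr
  have h2 : coxLabel Fi24.edges x x = 1 := by simp [coxLabel]
  rw [h2, pow_one, map_mul] at h1
  have h3 := congrArg (Abelianization.of (G := Fi24)) h1
  rw [map_mul, map_one] at h3
  exact h3

theorem edge (x y : Fi24.Gen) (h : coxLabel Fi24.edges x y = 3) : ab x = ab y := by
  have hr : (FreeGroup.of x * FreeGroup.of y) ^ coxLabel Fi24.edges x y ∈
      coxRelators Fi24.edges ∪ {r | r ∈ Fi24.extra} :=
    Or.inl ⟨x, node x, y, node y, rfl⟩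
  have h1 := PresentedGroup.one_of_mem hr
  rw [h, map_pow, map_mul] at h1
  have h3 := congrArg (Abelianization.of (G := Fi24)) h1
  rw [map_pow, map_mul, map_one] at h3
  have h4 : ab x * ab y = 1 := by
    have e : (ab x * ab y) ^ 3 = (ab x * ab x) * (ab y * ab y) * (ab x * ab y) := by
      rw [pow_succ, pow_two]
      simp only [mul_comm, mul_left_comm, mul_assoc]
    have h5 : (ab x * ab y) ^ 3 = 1 := h3
    rw [e, sq, sq, one_mul, one_mul] at h5
    exact h5
  have h6 := sq y
  exact mul_right_cancel (h4.trans h6.symm)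

theorem all_eq (x : Fi24.Gen) : ab x = ab Fi24.Gen.l := by
  have hk : ab Fi24.Gen.k = ab Fi24.Gen.l := (edge _ _ (by decide)).symm
  have ha : ab Fi24.Gen.a = ab Fi24.Gen.l := (edge Fi24.Gen.k _ (by decide)).symm.trans hk
  have hb : ab Fi24.Gen.b = ab Fi24.Gen.l := (edge Fi24.Gen.a _ (by decide)).symm.trans ha
  have hc : ab Fi24.Gen.c = ab Fi24.Gen.l := (edge Fi24.Gen.b _ (by decide)).symm.trans hb
  have hd : ab Fi24.Gen.d = ab Fi24.Gen.l := (edge Fi24.Gen.c _ (by decide)).symm.trans hc
  have he : ab Fi24.Gen.e = ab Fi24.Gen.l := (edge Fi24.Gen.d _ (by decide)).symm.trans hd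
  have hf : ab Fi24.Gen.f = ab Fi24.Gen.l := (edge Fi24.Gen.e _ (by decide)).symm.trans he
  have hg : ab Fi24.Gen.g = ab Fi24.Gen.l := (edge Fi24.Gen.f _ (by decide)).symm.trans hf
  have hj : ab Fi24.Gen.j = ab Fi24.Gen.l := (edge Fi24.Gen.g _ (by decide)).symm.trans hg
  have hh : ab Fi24.Gen.h = ab Fi24.Gen.l := (edge Fi24.Gen.d _ (by decide)).symm.trans hd
  have hi : ab Fi24.Gen.i = ab Fi24.Gen.l := (edge Fi24.Gen.h _ (by decide)).symm.trans hh
  cases x <;> first | rfl | assumption

/-- the sign homomorphism -/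
noncomputable def sgn : Fi24 →* Multiplicative (ZMod 2) :=
  PresentedGroup.toGroup (f := fun _ => Multiplicative.ofAdd (1 : ZMod 2)) (by
    intro r hr
    have hs : (Multiplicative.ofAdd (1 : ZMod 2)) * Multiplicative.ofAdd (1 : ZMod 2) = 1 := by
      decide
    rcases hr with ⟨x, -, y, -, rfl⟩ | hr
    · rw [map_pow, map_mul, FreeGroup.lift_apply_of, FreeGroup.lift_apply_of, hs, one_pow]
    · have hr' : r ∈ Fi24.extra := hr
      simp only [Fi24.extra, List.mem_cons, List.mem_nil_iff, or_false] at hr'
      rcases hr' with rfl | rfl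
      · simp only [map_mul, map_pow, map_inv, FreeGroup.lift_apply_of]
        decide
      · simp only [map_mul, map_pow, FreeGroup.lift_apply_of]
        decide)

theorem result : (commutator Cfsg.Spor.Fi24).index = 2 := by
  have hall : ∀ g : Fi24, Abelianization.of g ∈ Subgroup.zpowers (ab Fi24.Gen.l) := by
    intro g
    have hg : g ∈ Subgroup.closure (Set.range (PresentedGroup.of :
        Fi24.Gen → Fi24)) := by
      rw [PresentedGroup.closure_range_of]; trivial
    induction hg using Subgroup.closure_induction with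
    | mem x hx =>
      obtain ⟨z, rfl⟩ := hx
      have := all_eq z
      unfold ab at this
      rw [this]
      exact Subgroup.mem_zpowers _
    | one => rw [map_one]; exact one_mem _
    | mul u v _ _ iha ihb => rw [map_mul]; exact mul_mem iha ihb
    | inv u _ iha => rw [map_inv]; exact inv_mem iha
  have htop : Subgroup.zpowers (ab Fi24.Gen.l) = ⊤ := by
    rw [eq_top_iff]
    intro y _
    obtain ⟨g, rfl⟩ := QuotientGroup.mk_surjective y
    exact hall g
  have hne : ab Fi24.Gen.l ≠ 1 := by
    intro h
    have h1 := congrArg (Abelianization.lift sgn) h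
    rw [map_one] at h1
    unfold ab at h1
    rw [Abelianization.lift_apply_of] at h1
    unfold sgn at h1
    rw [PresentedGroup.toGroup.of] at h1
    revert h1
    decide
  have ho : orderOf (ab Fi24.Gen.l) = 2 :=
    orderOf_eq_prime (by rw [pow_two]; exact sq _) hne
  have hcard : Nat.card (Abelianization Fi24) = 2 := by
    rw [← ho, ← Nat.card_zpowers, htop]
    exact (Nat.card_congr (Equiv.Set.univ _)).symm
  exact hcard

end Cfsg.Agent.S1691
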