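import Cfsg.Statements.S1717

set_option autoImplicit false
open Cfsg

namespace Cfsg.Agent.S1717

open scoped Pointwise

/-- `SL(5,2)` -/
abbrev L := Matrix.SpecialLinearGroup (Fin 5) (ZMod 2)

/-- elementary transvections in `SL(5,2)` -/
def tv (i j : Fin 5) (h : i ≠ j) : L :=
  ⟨Matrix.transvection i j 1, Matrix.det_transvection_of_ne i j h 1⟩

/-- generators of the first elementary abelian subgroup -/
def SA : Set L := {tv 0 1 (by decide), tv 0 2 (by decide), tv 0 3 (by decide), tv 0 4 (by decide)}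

/-- generators of the second elementary abelian subgroup -/
def SB : Set L := {tv 2 1 (by decide), tv 3 1 (by decide), tv 4 1 (by decide)}

theorem SA_comm : ∀ x ∈ SA, ∀ y ∈ SA, x * y = y * x := by
  rintro x (rfl | rfl | rfl | rfl) y (rfl | rfl | rfl | rfl) <;> exact Subtype.ext (by decide)

theorem SA_sq : ∀ x ∈ SA, x * x = 1 := by
  rintro x (rfl | rfl | rfl | rfl) <;> exact Subtype.ext (by decide)

theorem SB_comm : ∀ x ∈ SB, ∀ y ∈ SB, x * y = y * x := by
  rintro x (rfl | rfl | rfl) y (rfl | rfl | rfl) <;> exact Subtype.ext (by decide)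

theorem SB_sq : ∀ x ∈ SB, x * x = 1 := by
  rintro x (rfl | rfl | rfl) <;> exact Subtype.ext (by decide)

theorem SB_SA : ∀ b ∈ SB, ∀ a ∈ SA, b * a * b = a ∨ b * a * b = a * tv 0 1 (by decide) := by
  rintro b (rfl | rfl | rfl) a (rfl | rfl | rfl | rfl) <;>
    first
      | exact Or.inl (Subtype.ext (by decide))
      | exact Or.inr (Subtype.ext (by decide))

theorem SB_comm_s : ∀ b ∈ SB, tv 0 1 (by decide) * b = b * tv 0 1 (by decide) := by
  rintro b (rfl | rfl | rfl) <;> exact Subtype.ext (by decide)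

theorem s_mem_SA : tv 0 1 (by decide) ∈ SA := Or.inl rfl

theorem closure_sq {H : Type*} [Group H] (S : Set H) (hc : ∀ x ∈ S, ∀ y ∈ S, x * y = y * x)
    (hs : ∀ x ∈ S, x * x = 1) : ∀ x ∈ Subgroup.closure S, x * x = 1 := by
  have hcomm := Subgroup.isMulCommutative_closure hc
  intro x hx
  induction hx using Subgroup.closure_induction with
  | mem x hx => exact hs x hx
  | one => simp
  | mul x y hx hy ihx ihy =>
    have h1 : x * y = y * x := congrArg Subtype.val (hcomm.is_comm.comm ⟨x, hx⟩ ⟨y, hy⟩)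
    calc x * y * (x * y) = x * y * (y * x) := by rw [h1]
      _ = x * (y * y) * x := by group
      _ = 1 := by rw [ihy, mul_one, ihx]
  | inv x hx ihx =>
    rw [← mul_inv_rev, ihx, inv_one]

theorem closure_isPGroup {H : Type*} [Group H] (S : Set H)
    (hc : ∀ x ∈ S, ∀ y ∈ S, x * y = y * x)
    (hs : ∀ x ∈ S, x * x = 1) : IsPGroup 2 ↥(Subgroup.closure S) := by
  intro g
  refine ⟨1, ?_⟩
  rw [pow_one, pow_two]
  exact Subtype.ext (closure_sq S hc hs g g.2)

theorem B_le_normalizer :
    Subgroup.closure SB ≤ Subgroup.normalizer (Subgroup.closure SA : Set L) := by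
  rw [Subgroup.closure_le]
  intro b hb
  have hbb : b * b = 1 := SB_sq b hb
  have hbinv : b⁻¹ = b := inv_eq_of_mul_eq_one_left hbb
  have key : ∀ a ∈ Subgroup.closure SA, b * a * b ∈ Subgroup.closure SA := by
    intro a ha
    induction ha using Subgroup.closure_induction with
    | mem a ha =>
      rcases SB_SA b hb a ha with h | h
      · rw [h]; exact Subgroup.subset_closure ha
      · rw [h]; exact mul_mem (Subgroup.subset_closure ha) (Subgroup.subset_closure s_mem_SA)
    | one => rw [mul_one, hbb]; exact one_mem _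
    | mul x y _ _ ihx ihy =>
      have e : b * (x * y) * b = (b * x * b) * (b * y * b) := by
        calc b * (x * y) * b = b * x * 1 * y * b := by group
          _ = b * x * (b * b) * y * b := by rw [hbb]
          _ = (b * x * b) * (b * y * b) := by group
      rw [e]; exact mul_mem ihx ihy
    | inv x _ ihx =>
      have e : b * x⁻¹ * b = (b * x * b)⁻¹ := by
        rw [mul_inv_rev, mul_inv_rev, hbinv, mul_assoc]
      rw [e]; exact inv_mem ihx
  rw [SetLike.mem_coe, Subgroup.mem_normalizer_iff]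
  intro h
  rw [hbinv]
  constructor
  · exact key h
  · intro hh
    have h1 := key _ hh
    have e : b * (b * h * b) * b = h := by
      calc b * (b * h * b) * b = (b * b) * h * (b * b) := by group
        _ = h := by rw [hbb, one_mul, mul_one]
    rwa [e] at h1

/-- the 2-subgroup `V = O_2(C)` generated by the seven transvections -/
def V : Subgroup L := Subgroup.closure SB ⊔ Subgroup.closure SA

theorem V_isPGroup : IsPGroup 2 ↥V :=
  IsPGroup.to_sup_of_normal_right' (closure_isPGroup SB SB_comm SB_sq)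
    (closure_isPGroup SA SA_comm SA_sq) B_le_normalizer

theorem SA_le_V : SA ⊆ V := fun _ hx =>
  (le_sup_right : Subgroup.closure SA ≤ V) (Subgroup.subset_closure hx)

theorem SB_le_V : SB ⊆ V := fun _ hx =>
  (le_sup_left : Subgroup.closure SB ≤ V) (Subgroup.subset_closure hx)

theorem comm_entries (M : Matrix (Fin 5) (Fin 5) (ZMod 2)) (i j : Fin 5)
    (h : M * Matrix.transvection i j 1 = Matrix.transvection i j 1 * M) :
    (∀ k, k ≠ i → M k i = 0) ∧ (∀ l, l ≠ j → M j l = 0) ∧ M i i = M j j := by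
  have h1 : M * Matrix.single i j (1 : ZMod 2) = Matrix.single i j (1 : ZMod 2) * M := by
    unfold Matrix.transvection at h
    rw [mul_add, add_mul, mul_one, one_mul] at h
    exact add_left_cancel h
  refine ⟨?_, ?_, ?_⟩
  · intro k hk
    have h2 := congrFun (congrFun h1 k) j
    rw [Matrix.mul_single_apply_same, Matrix.single_mul_apply_of_ne _ _ _ _ _ hk, mul_one] at h2
    exact h2
  · intro l hl
    have h2 := congrFun (congrFun h1 i) l
    rw [Matrix.mul_single_apply_of_ne _ _ _ _ _ hl, Matrix.single_mul_apply_same, one_mul] at h2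
    exact h2.symm
  · have h2 := congrFun (congrFun h1 i) j
    rw [Matrix.mul_single_apply_same, Matrix.single_mul_apply_same, mul_one, one_mul] at h2
    exact h2

theorem central_cases (g : L) (hA : ∀ t ∈ SA, g * t = t * g) (hB : ∀ t ∈ SB, g * t = t * g) :
    g = 1 ∨ g = tv 0 1 (by decide) := by
  have e02 := comm_entries g.val 0 2
    (congrArg Subtype.val (hA (tv 0 2 (by decide)) (Or.inr (Or.inl rfl))))
  have e03 := comm_entries g.val 0 3
    (congrArg Subtype.val (hA (tv 0 3 (by decide)) (Or.inr (Or.inr (Or.inl rfl)))))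
  have e04 := comm_entries g.val 0 4
    (congrArg Subtype.val (hA (tv 0 4 (by decide)) (Or.inr (Or.inr (Or.inr rfl)))))
  have e21 := comm_entries g.val 2 1
    (congrArg Subtype.val (hB (tv 2 1 (by decide)) (Or.inl rfl)))
  have e31 := comm_entries g.val 3 1
    (congrArg Subtype.val (hB (tv 3 1 (by decide)) (Or.inr (Or.inl rfl))))
  have e41 := comm_entries g.val 4 1
    (congrArg Subtype.val (hB (tv 4 1 (by decide)) (Or.inr (Or.inr rfl))))
  have hd : g.val 0 0 = 1 := by
    by_contra hne
    have h0 : g.val 0 0 = 0 := by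
      have hx : ∀ x : ZMod 2, x ≠ 1 → x = 0 := by decide
      exact hx _ hne
    have hdet := g.2
    rw [Matrix.det_eq_zero_of_row_eq_zero 1 (fun l => ?_)] at hdet
    · exact zero_ne_one hdet
    · by_cases hl : l = 1
      · subst hl; rw [← e21.2.2, ← e02.2.2]; exact h0
      · exact e21.2.1 l hl
  have h11 : g.val 1 1 = 1 := by rw [← e21.2.2, ← e02.2.2]; exact hd
  have h22 : g.val 2 2 = 1 := by rw [← e02.2.2]; exact hd
  have h33 : g.val 3 3 = 1 := by rw [← e03.2.2]; exact hd
  have h44 : g.val 4 4 = 1 := by rw [← e04.2.2]; exact hd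
  have h02 : g.val 0 2 = 0 := e21.1 0 (by decide)
  have h03 : g.val 0 3 = 0 := e31.1 0 (by decide)
  have h04 : g.val 0 4 = 0 := e41.1 0 (by decide)
  have h10 : g.val 1 0 = 0 := e21.2.1 0 (by decide)
  have h12 : g.val 1 2 = 0 := e21.2.1 2 (by decide)
  have h13 : g.val 1 3 = 0 := e21.2.1 3 (by decide)
  have h14 : g.val 1 4 = 0 := e21.2.1 4 (by decide)
  have h20 : g.val 2 0 = 0 := e02.2.1 0 (by decide)
  have h21 : g.val 2 1 = 0 := e02.2.1 1 (by decide)
  have h23 : g.val 2 3 = 0 := e02.2.1 3 (by decide)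
  have h24 : g.val 2 4 = 0 := e02.2.1 4 (by decide)
  have h30 : g.val 3 0 = 0 := e03.2.1 0 (by decide)
  have h31 : g.val 3 1 = 0 := e03.2.1 1 (by decide)
  have h32 : g.val 3 2 = 0 := e03.2.1 2 (by decide)
  have h34 : g.val 3 4 = 0 := e03.2.1 4 (by decide)
  have h40 : g.val 4 0 = 0 := e04.2.1 0 (by decide)
  have h41 : g.val 4 1 = 0 := e04.2.1 1 (by decide)
  have h42 : g.val 4 2 = 0 := e04.2.1 2 (by decide)
  have h43 : g.val 4 3 = 0 := e04.2.1 3 (by decide)
  rcases (by decide : ∀ x : ZMod 2, x = 0 ∨ x = 1) (g.val 0 1) with h01 | h01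
  · left
    apply Subtype.ext
    ext k l
    fin_cases k <;> fin_cases l <;>
      simp [hd, h11, h22, h33, h44, h01, h02, h03, h04, h10, h12, h13, h14,
        h20, h21, h23, h24, h30, h31, h32, h34, h40, h41, h42, h43]
  · right
    apply Subtype.ext
    ext k l
    fin_cases k <;> fin_cases l <;>
      simp [tv, Matrix.transvection, hd, h11, h22, h33,
        h44, h01, h02, h03, h04, h10, h12, h13, h14,
        h20, h21, h23, h24, h30, h31, h32, h34, h40, h41, h42, h43]

/-- Sylow part: if a 2-subgroup `V` of a finite group `C` has centralizer inside `{1, z0}`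
with `z0 ∈ V` central, then `z0` lies in every Sylow 2-subgroup `T` and `Z(T) ⊆ {1, z0}`. -/
theorem sylow_center {C : Type*} [Group C] [Finite C] (V : Subgroup C) (hV : IsPGroup 2 ↥V)
    (z0 : C) (hz0V : z0 ∈ V) (hz0c : ∀ c : C, c * z0 = z0 * c)
    (hcent : ∀ w : C, (∀ v ∈ V, w * v = v * w) → w = 1 ∨ w = z0)
    (T : Sylow 2 C) :
    z0 ∈ T ∧ ∀ w ∈ T, (∀ t ∈ T, w * t = t * w) → w = 1 ∨ w = z0 := by
  have : Fact (Nat.Prime 2) := ⟨Nat.prime_two⟩
  obtain ⟨Q, hQ⟩ := hV.exists_le_sylow
  obtain ⟨c, hc⟩ := MulAction.exists_smul_eq C Q T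
  have hconj : ∀ v ∈ V, c * v * c⁻¹ ∈ T := by
    intro v hv
    rw [← hc]
    have h3 : ((c • Q : Sylow 2 C) : Subgroup C) = MulAut.conj c • (Q : Subgroup C) :=
      Sylow.coe_subgroup_smul
    have h4 : c * v * c⁻¹ ∈ MulAut.conj c • (Q : Subgroup C) :=
      Subgroup.smul_mem_pointwise_smul _ _ _ (hQ hv)
    rw [← h3] at h4
    exact h4
  refine ⟨?_, ?_⟩
  · have h1 := hconj z0 hz0V
    rwa [hz0c c, mul_assoc, mul_inv_cancel, mul_one] at h1
  · intro w hw hwT
    have h1 : ∀ v ∈ V, (c⁻¹ * w * c) * v = v * (c⁻¹ * w * c) := by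
      intro v hv
      have h2 := hwT _ (hconj v hv)
      calc c⁻¹ * w * c * v = c⁻¹ * (w * (c * v * c⁻¹)) * c := by group
        _ = c⁻¹ * ((c * v * c⁻¹) * w) * c := by rw [h2]
        _ = v * (c⁻¹ * w * c) := by group
    have e : w = c * (c⁻¹ * w * c) * c⁻¹ := by group
    rcases hcent _ h1 with h | h
    · left
      rw [e, h]; group
    · right
      rw [e, h, hz0c c, mul_assoc, mul_inv_cancel, mul_one]

theorem sylow_of_center {G : Type*} [Group G] [Finite G] (z : G) (hz : orderOf z = 2)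
    (T : Sylow 2 (Subgroup.centralizer ({z} : Set G)))
    (hzT : ∃ hm : z ∈ Subgroup.centralizer ({z} : Set G),
      (⟨z, hm⟩ : Subgroup.centralizer ({z} : Set G)) ∈ T)
    (hZ : ∀ w ∈ T, (∀ t ∈ T, w * t = t * w) → w = 1 ∨ (w : G) = z) :
    ¬ 2 ∣ ((T : Subgroup (Subgroup.centralizer ({z} : Set G))).map
      (Subgroup.subtype (Subgroup.centralizer ({z} : Set G)))).index := by
  have : Fact (Nat.Prime 2) := ⟨Nat.prime_two⟩
  obtain ⟨hm, hzT⟩ := hzT
  have hT' : IsPGroup 2 ↥((T : Subgroup (Subgroup.centralizer ({z} : Set G))).map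
      (Subgroup.subtype (Subgroup.centralizer ({z} : Set G)))) := T.isPGroup'.map _
  obtain ⟨S, hS⟩ := hT'.exists_le_sylow
  have hzS : z ∈ (S : Subgroup G) := hS ⟨⟨z, hm⟩, hzT, rfl⟩
  have hQ : (S : Subgroup G).subgroupOf (Subgroup.centralizer ({z} : Set G)) =
      (T : Subgroup (Subgroup.centralizer ({z} : Set G))) := by
    apply T.is_maximal' (S.isPGroup'.comap_subtype)
    intro t ht
    show (t : G) ∈ (S : Subgroup G)
    exact hS ⟨t, ht, rfl⟩
  have hSnt : Nontrivial ↥(S : Subgroup G) := ⟨⟨⟨z, hzS⟩, 1, fun h => by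
      have h1 : z = 1 := congrArg Subtype.val h
      rw [h1, orderOf_one] at hz; exact absurd hz (by norm_num)⟩⟩
  have hcn := IsPGroup.center_nontrivial (S.isPGroup')
  obtain ⟨y, hy⟩ := exists_ne (1 : ↥(Subgroup.center ↥(S : Subgroup G)))
  have hyc : ∀ x ∈ (S : Subgroup G), x * ((y : ↥(S : Subgroup G)) : G) =
      ((y : ↥(S : Subgroup G)) : G) * x := by
    intro x hx
    have h1 := Subgroup.mem_center_iff.mp y.2 ⟨x, hx⟩
    exact congrArg Subtype.val h1
  have hyC : ((y : ↥(S : Subgroup G)) : G) ∈ Subgroup.centralizer ({z} : Set G) := by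
    rw [Subgroup.mem_centralizer_singleton_iff]
    exact (hyc z hzS).symm
  have hyT : (⟨((y : ↥(S : Subgroup G)) : G), hyC⟩ : Subgroup.centralizer ({z} : Set G)) ∈
      (T : Subgroup (Subgroup.centralizer ({z} : Set G))) := by
    rw [← hQ, Subgroup.mem_subgroupOf]
    exact (y : ↥(S : Subgroup G)).2
  have hyz : ((y : ↥(S : Subgroup G)) : G) = z := by
    rcases hZ ⟨_, hyC⟩ hyT (fun t ht => by
        apply Subtype.ext
        have h1 := hyc (t : G) (hS ⟨t, ht, rfl⟩)
        exact h1.symm) with h | h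
    · exfalso; apply hy
      have h1 : ((y : ↥(S : Subgroup G)) : G) = 1 := congrArg Subtype.val h
      exact Subtype.ext (Subtype.ext h1)
    · exact h
  have hSC : (S : Subgroup G) ≤ Subgroup.centralizer ({z} : Set G) := by
    intro x hx
    rw [Subgroup.mem_centralizer_singleton_iff]
    have h1 := hyc x hx
    rw [hyz] at h1
    exact h1
  have hTS : (T : Subgroup (Subgroup.centralizer ({z} : Set G))).map
      (Subgroup.subtype (Subgroup.centralizer ({z} : Set G))) = (S : Subgroup G) := by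
    apply le_antisymm hS
    intro x hx
    refine ⟨⟨x, hSC hx⟩, ?_, rfl⟩
    rw [SetLike.mem_coe, ← hQ, Subgroup.mem_subgroupOf]
    exact hx
  rw [hTS]
  exact S.not_dvd_index

theorem result {G : Type*} [Group G] [Finite G] (s : Matrix.SpecialLinearGroup (Fin 5) (ZMod 2)) (hs : (s : Matrix (Fin 5) (Fin 5) (ZMod 2)) = Matrix.transvection 0 1 1) (z : G) (hz : orderOf z = 2) (e : (Subgroup.centralizer ({z} : Set G)) ≃* Subgroup.centralizer ({s} : Set (Matrix.SpecialLinearGroup (Fin 5) (ZMod 2)))) (T : Sylow 2 (Subgroup.centralizer ({z} : Set G))) : ¬ 2 ∣ ((T : Subgroup (Subgroup.centralizer ({z} : Set G))).map (Subgroup.subtype (Subgroup.centralizer ({z} : Set G)))).index := by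
  have hs' : s = tv 0 1 (by decide) := Subtype.ext hs
  subst hs'
  have hgA : ∀ t ∈ SA, t ∈ Subgroup.centralizer ({tv 0 1 (by decide)} : Set L) := by
    intro t ht
    rw [Subgroup.mem_centralizer_singleton_iff]
    exact (SA_comm _ s_mem_SA _ ht).symm
  have hgB : ∀ t ∈ SB, t ∈ Subgroup.centralizer ({tv 0 1 (by decide)} : Set L) := by
    intro t ht
    rw [Subgroup.mem_centralizer_singleton_iff]
    exact (SB_comm_s t ht).symm
  have hzm : z ∈ Subgroup.centralizer ({z} : Set G) :=
    Subgroup.mem_centralizer_singleton_iff.mpr rfl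
  have hz0c : ∀ c : Subgroup.centralizer ({z} : Set G),
      c * (⟨z, hzm⟩ : Subgroup.centralizer ({z} : Set G)) = ⟨z, hzm⟩ * c := by
    intro c
    apply Subtype.ext
    exact Subgroup.mem_centralizer_singleton_iff.mp c.2
  have hz01 : (⟨z, hzm⟩ : Subgroup.centralizer ({z} : Set G)) ≠ 1 := by
    intro h
    have h1 : z = 1 := congrArg Subtype.val h
    rw [h1, orderOf_one] at hz; exact absurd hz (by norm_num)
  have hcase : ∀ w : Subgroup.centralizer ({z} : Set G),
      (∀ t (ht : t ∈ Subgroup.centralizer ({tv 0 1 (by decide)} : Set L)), (t ∈ SA ∨ t ∈ SB) →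
        e w * ⟨t, ht⟩ = ⟨t, ht⟩ * e w) → w = 1 ∨ ((e w : L) = tv 0 1 (by decide)) := by
    intro w hw
    rcases central_cases (e w : L)
      (fun t ht => congrArg Subtype.val (hw t (hgA t ht) (Or.inl ht)))
      (fun t ht => congrArg Subtype.val (hw t (hgB t ht) (Or.inr ht))) with h | h
    · left
      have h1 : e w = 1 := Subtype.ext h
      exact (map_eq_one_iff e e.injective).mp h1
    · right; exact h
  have hez0 : ((e ⟨z, hzm⟩ : Subgroup.centralizer ({tv 0 1 (by decide)} : Set L)) : L) =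
      tv 0 1 (by decide) := by
    rcases hcase ⟨z, hzm⟩ (fun t ht _ => by
      have h1 := hz0c (e.symm ⟨t, ht⟩)
      have h2 := congrArg e h1
      rw [map_mul, map_mul, e.apply_symm_apply] at h2
      exact h2.symm) with h | h
    · exact absurd h hz01
    · exact h
  have hV1 : IsPGroup 2 ↥((V.subgroupOf (Subgroup.centralizer
      ({tv 0 1 (by decide)} : Set L))).comap e.toMonoidHom) :=
    (V_isPGroup.comap_subtype).comap_of_injective _ e.injective
  have hz0V : (⟨z, hzm⟩ : Subgroup.centralizer ({z} : Set G)) ∈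
      (V.subgroupOf (Subgroup.centralizer ({tv 0 1 (by decide)} : Set L))).comap
        e.toMonoidHom := by
    show e ⟨z, hzm⟩ ∈ V.subgroupOf _
    rw [Subgroup.mem_subgroupOf, hez0]
    exact SA_le_V s_mem_SA
  have hcent : ∀ w : Subgroup.centralizer ({z} : Set G),
      (∀ v ∈ (V.subgroupOf (Subgroup.centralizer ({tv 0 1 (by decide)} : Set L))).comap
        e.toMonoidHom, w * v = v * w) → w = 1 ∨ w = ⟨z, hzm⟩ := by
    intro w hw
    rcases hcase w (fun t ht htS => by
      have hv : e.symm ⟨t, ht⟩ ∈ (V.subgroupOf (Subgroup.centralizer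
          ({tv 0 1 (by decide)} : Set L))).comap e.toMonoidHom := by
        show e (e.symm ⟨t, ht⟩) ∈ V.subgroupOf _
        rw [e.apply_symm_apply, Subgroup.mem_subgroupOf]
        rcases htS with h | h
        · exact SA_le_V h
        · exact SB_le_V h
      have h2 := congrArg e (hw _ hv)
      rw [map_mul, map_mul, e.apply_symm_apply] at h2
      exact h2) with h | h
    · exact Or.inl h
    · right
      apply e.injective
      apply Subtype.ext
      rw [h, hez0]
  obtain ⟨hzT, hZ⟩ := sylow_center _ hV1 ⟨z, hzm⟩ hz0V hz0c hcent T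
  exact sylow_of_center z hz T ⟨hzm, hzT⟩
    (fun w hw hwT => (hZ w hw hwT).imp id (fun h => congrArg Subtype.val h))

end Cfsg.Agent.S1717
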