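import Cfsg.Statements.S1753

set_option autoImplicit false
universe u
open Cfsg

namespace Cfsg.Agent.S1753

theorem card_section_lt {G : Type u} [Group G] [Finite G] (H : Subgroup G) (hH : H ≠ ⊤)
    (H' : Subgroup H) (N : Subgroup H') [N.Normal] : Nat.card (H' ⧸ N) < Nat.card G := by
  have h1 : Nat.card (H' ⧸ N) ≤ Nat.card H' := Nat.card_le_card_of_surjective _ (QuotientGroup.mk_surjective)
  have h2 : Nat.card H' ≤ Nat.card H := Nat.card_le_card_of_injective _ (Subtype.val_injective)
  have h3 : Nat.card H < Nat.card G := by
    by_contra hcon
    exact hH (Subgroup.eq_top_of_le_card H (not_lt.mp hcon))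
  omega

/-- Let K be any property of groups. (1) If G is a minimal counterexample relative to K — a finite non-abelian simple group not satisfying K such that every finite non-abelian simple group of smaller order satisfies K — then every proper subgroup of G is a K-group (all its non-abelian simple sections satisfy K), since such sections have smaller order than G. (2) Consequently (induction on the order), if every finite non-abelian simple group all of whose proper subgroups are K-groups satisfies K, then every finite non-abelian simple group satisfies K. -/
theorem result (K : ∀ (X : Type u) [Group X], Prop) :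
    (∀ (G : Type u) [Group G], Cfsg.IsMinCounterexampleWith K G → Cfsg.IsKProperWith K G) ∧
      ((∀ (X : Type u) [Group X] [Finite X], IsSimpleGroup X → ¬ IsMulCommutative X → Cfsg.IsKProperWith K X → K X) →
        ∀ (G : Type u) [Group G] [Finite G], IsSimpleGroup G → ¬ IsMulCommutative G → K G) := by
  refine ⟨?_, ?_⟩
  · intro G _ hmin
    obtain ⟨hfin, hsimp, hna, hnK, hsmall⟩ := hmin
    intro H hH H' N _ hS hA
    have : Finite G := hfin
    exact hsmall (H' ⧸ N) hS hA (card_section_lt H hH H' N)
  · intro h
    have main : ∀ n : ℕ, ∀ (G : Type u) [Group G] [Finite G], Nat.card G = n →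
        IsSimpleGroup G → ¬ IsMulCommutative G → K G := by
      intro n
      induction n using Nat.strong_induction_on with
      | _ n ih =>
        intro G _ _ hn hS hA
        apply h G hS hA
        intro H hH H' N _ hS' hA'
        exact ih (Nat.card (H' ⧸ N)) (hn ▸ card_section_lt H hH H' N) (H' ⧸ N) rfl hS' hA'
    intro G _ _ hS hA
    exact main _ G rfl hS hA

end Cfsg.Agent.S1753
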