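import Cfsg.Statements.S1755
import Cfsg.Agent.Lib.Helper11.Components
import Cfsg.Agent.Lib.Helper13.TI

set_option autoImplicit false
open Cfsg

namespace Cfsg.Agent.S1755

theorem cyclic_invol_unique {H : Type*} [Group H] [Finite H] [IsCyclic H] (u v : H)
    (hu : orderOf u = 2) (hv : orderOf v = 2) : u = v := by
  classical
  haveI := Fintype.ofFinite H
  by_contra hne
  have h := IsCyclic.card_pow_eq_one_le (α := H) (n := 2) (by norm_num)
  have hu1 : u ≠ 1 := by rintro rfl; simp at hu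
  have hv1 : v ≠ 1 := by rintro rfl; simp at hv
  have hsub : ({1, u, v} : Finset H) ⊆ Finset.univ.filter (fun a => a ^ 2 = 1) := by
    intro a ha
    simp only [Finset.mem_insert, Finset.mem_singleton] at ha
    simp only [Finset.mem_filter, Finset.mem_univ, true_and]
    rcases ha with rfl | rfl | rfl
    · simp
    · rw [← hu]; exact pow_orderOf_eq_one _
    · rw [← hv]; exact pow_orderOf_eq_one _
  have hc : ({1, u, v} : Finset H).card = 3 := by
    rw [Finset.card_insert_of_notMem, Finset.card_insert_of_notMem, Finset.card_singleton]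
    · simpa using hne
    · simp [hu1.symm, hv1.symm]
  have := Finset.card_le_card hsub
  omega

theorem exists_invol {H : Type*} [Group H] (K : Subgroup H) :
    ∀ k : ℕ, ∀ b ∈ K, b ≠ 1 → b ^ (2 ^ k) = 1 → ∃ u ∈ K, u ≠ 1 ∧ u ^ 2 = 1 := by
  intro k
  induction k with
  | zero => intro b _ h1 h2; simp at h2; exact absurd h2 h1
  | succ k ih =>
    intro b hb h1 h2
    by_cases h : b ^ 2 = 1
    · exact ⟨b, hb, h1, h⟩
    · exact ih (b ^ 2) (K.pow_mem hb 2) h (by rw [← pow_mul, ← pow_succ']; exact h2)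

theorem general {G : Type*} [Group G] [Finite G] (z : G) (hz : orderOf z = 2)
    (C : Subgroup G) (hC : ∀ c : G, c ∈ C ↔ c * z = z * c)
    (Q : Subgroup ↥C) (hQn : Q.Normal) (hzQ : ∀ hzC : z ∈ C, (⟨z, hzC⟩ : ↥C) ∈ Q)
    (hQ : Cfsg.IsOfSymplecticType ↥Q) (B : Subgroup ↥Q) (hBc : B.Characteristic)
    (hBa : IsMulCommutative ↥B) (g : G) :
    ((B.map Q.subtype).map C.subtype).map (MulAut.conj g).toMonoidHom = (B.map Q.subtype).map C.subtype ∨
      ((B.map Q.subtype).map C.subtype).map (MulAut.conj g).toMonoidHom ⊓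
        (B.map Q.subtype).map C.subtype = ⊥ := by
  classical
  have hzC : z ∈ C := (hC z).mpr rfl
  have hmemBG : ∀ x : G, x ∈ (B.map Q.subtype).map C.subtype ↔
      ∃ (hx : x ∈ C) (hxQ : (⟨x, hx⟩ : ↥C) ∈ Q), (⟨⟨x, hx⟩, hxQ⟩ : ↥Q) ∈ B := by
    intro x
    constructor
    · rintro ⟨c, ⟨q, hq, rfl⟩, rfl⟩
      exact ⟨q.1.2, q.2, hq⟩
    · rintro ⟨hx, hxQ, hb⟩
      exact ⟨⟨x, hx⟩, ⟨⟨⟨x, hx⟩, hxQ⟩, hb, rfl⟩, rfl⟩
  generalize hBG : (B.map Q.subtype).map C.subtype = BG at hmemBG ⊢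
  obtain ⟨hQ2, hsym⟩ := hQ
  have hBcyc : IsCyclic ↥B := hsym B hBc hBa
  have hZcyc : IsCyclic ↥(Subgroup.center ↥Q) := hsym _ inferInstance inferInstance
  have hzQord : orderOf (⟨⟨z, hzC⟩, hzQ hzC⟩ : ↥Q) = 2 := by
    apply orderOf_eq_prime
    · apply Subtype.ext; apply Subtype.ext
      show z ^ 2 = 1
      rw [← hz]; exact pow_orderOf_eq_one z
    · intro h
      have h1 : z = 1 := congrArg (fun q : ↥Q => ((q : ↥C) : G)) h
      rw [h1] at hz; simp at hz
  have hzQcen : (⟨⟨z, hzC⟩, hzQ hzC⟩ : ↥Q) ∈ Subgroup.center ↥Q := by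
    rw [Subgroup.mem_center_iff]
    intro q
    apply Subtype.ext; apply Subtype.ext
    show ((q : ↥C) : G) * z = z * ((q : ↥C) : G)
    exact (hC _).mp q.1.2
  have hBn : B.Normal := Subgroup.normal_of_characteristic B
  have hzB : B ≠ ⊥ → (⟨⟨z, hzC⟩, hzQ hzC⟩ : ↥Q) ∈ B := by
    intro hne
    obtain ⟨b, hb⟩ := (Subgroup.ne_bot_iff_exists_ne_one).mp hne
    obtain ⟨k, hk⟩ := hQ2 (b : ↥Q)
    obtain ⟨u, hu, hu1, hu2⟩ := exists_invol B k (b : ↥Q) b.2 (fun h => hb (Subtype.ext h)) hk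
    have huord : orderOf (⟨u, hu⟩ : ↥B) = 2 := by
      rw [Subgroup.orderOf_mk]; exact orderOf_eq_prime hu2 hu1
    have hucen : u ∈ Subgroup.center ↥Q := by
      rw [Subgroup.mem_center_iff]
      intro q
      have hq : q * u * q⁻¹ ∈ B := hBn.conj_mem u hu q
      have hqord : orderOf (⟨q * u * q⁻¹, hq⟩ : ↥B) = 2 := by
        rw [Subgroup.orderOf_mk]
        apply orderOf_eq_prime
        · rw [conj_pow, hu2]; group
        · intro h; exact hu1 (conj_eq_one_iff.mp h)
      have h1 := cyclic_invol_unique _ _ hqord huord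
      have h2 : q * u * q⁻¹ = u := congrArg Subtype.val h1
      exact (mul_inv_eq_iff_eq_mul.mp h2)
    have h1 : orderOf (⟨u, hucen⟩ : ↥(Subgroup.center ↥Q)) = 2 := by
      rw [Subgroup.orderOf_mk]; exact orderOf_eq_prime hu2 hu1
    have h2 : orderOf (⟨_, hzQcen⟩ : ↥(Subgroup.center ↥Q)) = 2 := by
      rw [Subgroup.orderOf_mk]; exact hzQord
    have h3 := cyclic_invol_unique _ _ h1 h2
    have h4 : u = (⟨⟨z, hzC⟩, hzQ hzC⟩ : ↥Q) := congrArg Subtype.val h3
    rw [← h4]; exact hu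
  have hconj : ∀ c ∈ C, ∀ x ∈ BG, c * x * c⁻¹ ∈ BG := by
    intro c hc x hx
    obtain ⟨hxC, hxQ, hxB⟩ := (hmemBG x).mp hx
    haveI := hQn
    have h1 : B.map (MulAut.conjNormal (⟨c, hc⟩ : ↥C) : MulAut ↥Q).toMonoidHom = B :=
      Subgroup.characteristic_iff_map_eq.mp hBc _
    have h2 : (MulAut.conjNormal (⟨c, hc⟩ : ↥C) : MulAut ↥Q) ⟨⟨x, hxC⟩, hxQ⟩ ∈ B := by
      rw [← h1]; exact ⟨_, hxB, rfl⟩
    rw [hmemBG]
    have h3 : ((((MulAut.conjNormal (⟨c, hc⟩ : ↥C) : MulAut ↥Q) ⟨⟨x, hxC⟩, hxQ⟩ : ↥Q) : ↥C) : G)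
        = c * x * c⁻¹ := by
      rw [MulAut.conjNormal_apply]; rfl
    refine ⟨h3 ▸ Subtype.prop _, ?_, ?_⟩
    · have := (((MulAut.conjNormal (⟨c, hc⟩ : ↥C) : MulAut ↥Q) ⟨⟨x, hxC⟩, hxQ⟩ : ↥Q)).2
      convert this using 1
      exact Subtype.ext h3.symm
    · convert h2 using 1
      exact Subtype.ext (Subtype.ext h3.symm)
  have hnorm : ∀ c ∈ C, c ∈ Subgroup.normalizer (BG : Set G) := by
    intro c hc
    rw [Subgroup.mem_normalizer_iff]
    intro x
    constructor
    · exact hconj c hc x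
    · intro h
      have h1 := hconj c⁻¹ (C.inv_mem hc) _ h
      have e : c⁻¹ * (c * x * c⁻¹) * c⁻¹⁻¹ = x := by group
      rw [e] at h1; exact h1
  by_cases hbot : BG.map (MulAut.conj g).toMonoidHom ⊓ BG = ⊥
  · right; exact hbot
  · left
    obtain ⟨x, hx1⟩ := (Subgroup.ne_bot_iff_exists_ne_one).mp hbot
    have hx2 : ∃ k : ℕ, (x : G) ^ (2 ^ k) = 1 := by
      obtain ⟨hxC, hxQ, hxB⟩ := (hmemBG x).mp x.2.2
      obtain ⟨k, hk⟩ := hQ2 ⟨⟨x, hxC⟩, hxQ⟩
      exact ⟨k, congrArg (fun q : ↥Q => ((q : ↥C) : G)) hk⟩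
    obtain ⟨k, hk⟩ := hx2
    obtain ⟨v, hv, hv1, hv2⟩ := exists_invol _ k (x : G) x.2 (fun h => hx1 (Subtype.ext h)) hk
    have hinvz : ∀ w ∈ BG, w ≠ 1 → w ^ 2 = 1 → w = z := by
      intro w hw hw1 hw2
      obtain ⟨hwC, hwQ, hwB⟩ := (hmemBG w).mp hw
      have hBne : B ≠ ⊥ := by
        intro h
        rw [h, Subgroup.mem_bot] at hwB
        exact hw1 (congrArg (fun q : ↥Q => ((q : ↥C) : G)) hwB)
      have hzB' := hzB hBne
      have h1 : orderOf (⟨⟨⟨w, hwC⟩, hwQ⟩, hwB⟩ : ↥B) = 2 := by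
        apply orderOf_eq_prime
        · apply Subtype.ext; apply Subtype.ext; apply Subtype.ext
          exact hw2
        · intro h
          exact hw1 (congrArg (fun b : ↥B => (((b : ↥Q) : ↥C) : G)) h)
      have h2 : orderOf (⟨_, hzB'⟩ : ↥B) = 2 := by
        rw [Subgroup.orderOf_mk]; exact hzQord
      have h3 := cyclic_invol_unique _ _ h1 h2
      exact congrArg (fun b : ↥B => (((b : ↥Q) : ↥C) : G)) h3
    have hvz : v = z := hinvz v hv.2 hv1 hv2
    obtain ⟨w, hw, hwv⟩ := hv.1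
    have hwv' : g * w * g⁻¹ = v := hwv
    have hwz : w = z := by
      apply hinvz w hw
      · rintro rfl
        apply hv1; rw [← hwv']; group
      · have h1 : (g * w * g⁻¹) ^ 2 = 1 := by rw [hwv']; exact hv2
        rw [conj_pow] at h1
        exact conj_eq_one_iff.mp h1
    have hgz : g * z * g⁻¹ = z := by rw [hwz, hvz] at hwv'; exact hwv'
    have hgC : g ∈ C := (hC g).mpr (mul_inv_eq_iff_eq_mul.mp hgz)
    exact Cfsg.Agent.Lib.Helper13.map_conj_eq_of_mem_normalizer BG g (hnorm g hgC)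

/-- Let G be a finite group and let z be an involution of G such that Q, the generalized Fitting subgroup of the centralizer C of z, is a 2-group of symplectic type (every characteristic abelian subgroup of Q is cyclic). Let B be a characteristic abelian subgroup of Q, viewed as a subgroup of G. Then for every g in G, the conjugate of B by g either equals B or meets B trivially. -/
theorem result {G : Type*} [Group G] [Finite G] (z : G) (hz : orderOf z = 2) (hQ : Cfsg.IsOfSymplecticType ↥(Cfsg.generalizedFittingSubgroup ↥(Subgroup.centralizer ({z} : Set G))))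
    (B : Subgroup ↥(Cfsg.generalizedFittingSubgroup ↥(Subgroup.centralizer ({z} : Set G)))) (hBc : B.Characteristic) (hBa : IsMulCommutative ↥B) (g : G) :
    ((B.map (Cfsg.generalizedFittingSubgroup ↥(Subgroup.centralizer ({z} : Set G))).subtype).map (Subgroup.centralizer ({z} : Set G)).subtype).map (MulAut.conj g).toMonoidHom =
        (B.map (Cfsg.generalizedFittingSubgroup ↥(Subgroup.centralizer ({z} : Set G))).subtype).map (Subgroup.centralizer ({z} : Set G)).subtype ∨
      ((B.map (Cfsg.generalizedFittingSubgroup ↥(Subgroup.centralizer ({z} : Set G))).subtype).map (Subgroup.centralizer ({z} : Set G)).subtype).map (MulAut.conj g).toMonoidHom ⊓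
        (B.map (Cfsg.generalizedFittingSubgroup ↥(Subgroup.centralizer ({z} : Set G))).subtype).map (Subgroup.centralizer ({z} : Set G)).subtype = ⊥ := by
  have hCiff : ∀ c : G, c ∈ Subgroup.centralizer ({z} : Set G) ↔ c * z = z * c := by
    intro c
    rw [Subgroup.mem_centralizer_iff]
    constructor
    · intro h; exact (h z rfl).symm
    · rintro h _ rfl; exact h.symm
  refine general z hz (Subgroup.centralizer ({z} : Set G)) hCiff _
    Cfsg.Agent.Lib.Helper11.genFitting_normal ?_ hQ B hBc hBa g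
  intro hzC
  have hcen : (⟨z, hzC⟩ : ↥(Subgroup.centralizer ({z} : Set G))) ∈
      Subgroup.center ↥(Subgroup.centralizer ({z} : Set G)) := by
    rw [Subgroup.mem_center_iff]
    intro c
    apply Subtype.ext
    exact (hCiff _).mp c.2
  have hle : Subgroup.zpowers (⟨z, hzC⟩ : ↥(Subgroup.centralizer ({z} : Set G))) ≤
      Subgroup.center ↥(Subgroup.centralizer ({z} : Set G)) := Subgroup.zpowers_le.mpr hcen
  have hn : (Subgroup.zpowers (⟨z, hzC⟩ : ↥(Subgroup.centralizer ({z} : Set G)))).Normal := by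
    constructor
    intro n hn c
    have h1 := Subgroup.mem_center_iff.mp (hle hn) c
    have h2 : c * n * c⁻¹ = n := by rw [h1]; group
    rw [h2]; exact hn
  have hord : orderOf (⟨z, hzC⟩ : ↥(Subgroup.centralizer ({z} : Set G))) = 2 := by
    rw [Subgroup.orderOf_mk]; exact hz
  have h2 : IsPGroup 2 ↥(Subgroup.zpowers (⟨z, hzC⟩ : ↥(Subgroup.centralizer ({z} : Set G)))) :=
    IsPGroup.of_card (n := 1) (by rw [Nat.card_zpowers, hord]; rfl)
  have h3 := Cfsg.Agent.Lib.Helper11.subnormal_pGroup_le_pCore 2 hn.isSubnormal h2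
  have h4 : Cfsg.fittingSubgroup ↥(Subgroup.centralizer ({z} : Set G)) ≤
      Cfsg.generalizedFittingSubgroup ↥(Subgroup.centralizer ({z} : Set G)) := le_sup_right
  exact h4 (Cfsg.Agent.Lib.Helper11.pCore_le_fitting 2 (h3 (Subgroup.mem_zpowers _)))

end Cfsg.Agent.S1755
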