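import Cfsg.Statements.S1756
import Mathlib

set_option autoImplicit false
open Cfsg

namespace Cfsg.Agent.S1756

theorem center_two {P : Type*} [Group P] (hZ : Nat.card (Subgroup.center P) = 2) :
    ∃ z : P, z ∈ Subgroup.center P ∧ z ≠ 1 ∧ z * z = 1 ∧
      ∀ c ∈ Subgroup.center P, c = 1 ∨ c = z := by
  obtain ⟨z, hz1, hzu⟩ := (Nat.card_eq_two_iff' (1 : ↥(Subgroup.center P))).mp hZ
  have hall : ∀ c ∈ Subgroup.center P, c = 1 ∨ c = (z : P) := by
    intro c hc
    by_cases h : c = 1
    · exact Or.inl h
    · right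
      have h2 := hzu ⟨c, hc⟩ (fun h' => h (congrArg Subtype.val h'))
      exact congrArg Subtype.val h2
  refine ⟨z, z.2, fun h => hz1 (Subtype.ext h), ?_, hall⟩
  rcases hall (z * z) (mul_mem z.2 z.2) with h | h
  · exact h
  · exfalso
    apply hz1
    apply Subtype.ext
    have h' : (z : P) * (z : P) = (z : P) * 1 := by rw [h, mul_one]
    exact mul_left_cancel h'

theorem card_comm_half {P : Type*} [Group P] [Fintype P] [DecidableEq P]
    (hcomm : ∀ a b : P, a * b * a⁻¹ * b⁻¹ ∈ Subgroup.center P)
    (z : P) (hzc : z ∈ Subgroup.center P) (hz1 : z ≠ 1) (hzz : z * z = 1)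
    (hall : ∀ c ∈ Subgroup.center P, c = 1 ∨ c = z)
    (g : P) (H : Subgroup P) [DecidablePred (· ∈ H)] (h0 : P) (hh0 : h0 ∈ H)
    (hg : g * h0 ≠ h0 * g) :
    2 * (Finset.univ.filter (fun h => h ∈ H ∧ g * h = h * g)).card =
      (Finset.univ.filter (fun h => h ∈ H)).card := by
  have hzcomm : ∀ q : P, q * z = z * q := fun q => Subgroup.mem_center_iff.mp hzc q
  have key : ∀ h : P, g * h = h * g ∨ g * h = z * (h * g) := by
    intro h
    have e : g * h = (g * h * g⁻¹ * h⁻¹) * (h * g) := by group
    rcases hall _ (hcomm g h) with h1 | h1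
    · left
      rw [e, h1, one_mul]
    · right
      rw [e, h1]
  have hg0 : g * h0 = z * (h0 * g) := (key h0).resolve_left hg
  have swap : ∀ h : P, (g * (h * h0) = (h * h0) * g) ↔ ¬ (g * h = h * g) := by
    intro h
    rcases key h with h1 | h1
    · constructor
      · intro h2
        exfalso
        have e : g * (h * h0) = z * (h * h0 * g) := by
          calc g * (h * h0) = (g * h) * h0 := by group
            _ = h * (g * h0) := by rw [h1]; group
            _ = h * (z * (h0 * g)) := by rw [hg0]
            _ = (h * z) * (h0 * g) := by group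
            _ = z * (h * h0 * g) := by rw [hzcomm h]; group
        rw [e] at h2
        exact hz1 (mul_eq_right.mp h2)
      · intro h2; exact absurd h1 h2
    · constructor
      · intro _ h2
        rw [h2] at h1
        exact hz1 (mul_eq_right.mp h1.symm)
      · intro _
        calc g * (h * h0) = (g * h) * h0 := by group
          _ = z * (h * g) * h0 := by rw [h1]
          _ = z * h * (g * h0) := by group
          _ = z * h * (z * (h0 * g)) := by rw [hg0]
          _ = z * (h * z) * (h0 * g) := by group
          _ = z * (z * h) * (h0 * g) := by rw [hzcomm h]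
          _ = (z * z) * (h * h0 * g) := by group
          _ = h * h0 * g := by rw [hzz, one_mul]
  have hsplit := Finset.card_filter_add_card_filter_not
    (s := Finset.univ.filter (fun h => h ∈ H)) (fun h => g * h = h * g)
  rw [Finset.filter_filter, Finset.filter_filter] at hsplit
  have hle1 : (Finset.univ.filter (fun h => h ∈ H ∧ g * h = h * g)).card ≤
      (Finset.univ.filter (fun h => h ∈ H ∧ ¬ g * h = h * g)).card := by
    apply Finset.card_le_card_of_injOn (fun h => h * h0)
    · intro h hh
      simp only [Finset.coe_filter, Finset.mem_univ, true_and, Set.mem_ofPred_eq] at hh ⊢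
      exact ⟨H.mul_mem hh.1 hh0, fun h2 => ((swap h).mp h2) hh.2⟩
    · intro a _ b _ hab
      exact mul_right_cancel hab
  have hle2 : (Finset.univ.filter (fun h => h ∈ H ∧ ¬ g * h = h * g)).card ≤
      (Finset.univ.filter (fun h => h ∈ H ∧ g * h = h * g)).card := by
    apply Finset.card_le_card_of_injOn (fun h => h * h0)
    · intro h hh
      simp only [Finset.coe_filter, Finset.mem_univ, true_and, Set.mem_ofPred_eq] at hh ⊢
      exact ⟨H.mul_mem hh.1 hh0, (swap h).mpr hh.2⟩
    · intro a _ b _ hab
      exact mul_right_cancel hab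
  omega

theorem exists_noncentral_centralizing {P : Type*} [Group P] [Finite P]
    (hcomm : ∀ a b : P, a * b * a⁻¹ * b⁻¹ ∈ Subgroup.center P)
    (z : P) (hzc : z ∈ Subgroup.center P) (hz1 : z ≠ 1) (hzz : z * z = 1)
    (hall : ∀ c ∈ Subgroup.center P, c = 1 ∨ c = z)
    (R : Subgroup P) (hR : R.index = 2) (hZR : Subgroup.center P ≤ R) :
    ∃ u : P, (∀ r ∈ R, u * r = r * u) ∧ u ∉ Subgroup.center P := by
  classical
  have := Fintype.ofFinite P
  by_contra hcon
  push Not at hcon
  have hcardR : Nat.card ↥R = (Finset.univ.filter (fun h : P => h ∈ R)).card := by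
    rw [Nat.card_eq_fintype_card, Fintype.card_subtype]
  generalize hm : (Finset.univ.filter (fun h : P => h ∈ R)).card = m at hcardR
  have hcardP : (Finset.univ : Finset P).card = 2 * m := by
    have h1 := R.card_mul_index
    rw [hR, hcardR] at h1
    rw [Finset.card_univ, ← Nat.card_eq_fintype_card, ← h1, mul_comm]
  have hFZ : Finset.univ.filter (fun h : P => h ∈ Subgroup.center P) = {1, z} := by
    ext c
    simp only [Finset.mem_filter, Finset.mem_univ, true_and, Finset.mem_insert,
      Finset.mem_singleton]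
    constructor
    · exact hall c
    · rintro (rfl | rfl)
      · exact one_mem _
      · exact hzc
  have hFZcard : (Finset.univ.filter (fun h : P => h ∈ Subgroup.center P)).card = 2 := by
    rw [hFZ, Finset.card_pair (Ne.symm hz1)]
  have hFZR : (Finset.univ.filter (fun h : P => h ∈ R)).filter (fun h : P => h ∈ Subgroup.center P)
      = Finset.univ.filter (fun h : P => h ∈ Subgroup.center P) := by
    ext c
    simp only [Finset.mem_filter, Finset.mem_univ, true_and]
    exact ⟨fun h => h.2, fun h => ⟨hZR h, h⟩⟩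
  have hdc := Finset.sum_card_bipartiteAbove_eq_sum_card_bipartiteBelow
    (r := fun (q r : P) => q * r = r * q) (s := Finset.univ)
    (t := Finset.univ.filter (fun h : P => h ∈ R))
  -- left side
  have hL : ∀ q : P, 2 * ((Finset.univ.filter (fun h : P => h ∈ R)).bipartiteAbove
      (fun (q r : P) => q * r = r * q) q).card = if q ∈ Subgroup.center P then 2 * m else m := by
    intro q
    unfold Finset.bipartiteAbove
    split_ifs with hq
    · congr 1
      rw [← hm]
      congr 1
      apply Finset.filter_true_of_mem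
      intro r _
      exact (Subgroup.mem_center_iff.mp hq r).symm
    · have h1 : ¬ ∀ r ∈ R, q * r = r * q := fun h => hq (hcon q h)
      push Not at h1
      obtain ⟨r0, hr0, hqr0⟩ := h1
      rw [Finset.filter_filter, ← hm]
      exact card_comm_half hcomm z hzc hz1 hzz hall q R r0 hr0 hqr0
  have hR' : ∀ r : P, 2 * ((Finset.univ : Finset P).bipartiteBelow
      (fun (q r : P) => q * r = r * q) r).card = if r ∈ Subgroup.center P then 4 * m else 2 * m := by
    intro r
    unfold Finset.bipartiteBelow
    split_ifs with hr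
    · have h1 : Finset.univ.filter (fun q : P => q * r = r * q) = Finset.univ := by
        apply Finset.filter_true_of_mem
        intro q _
        exact Subgroup.mem_center_iff.mp hr q
      rw [h1, hcardP]; ring
    · have h1 : ¬ ∀ q : P, q * r = r * q := fun h => hr (Subgroup.mem_center_iff.mpr h)
      push Not at h1
      obtain ⟨q0, hq0⟩ := h1
      have h2 := card_comm_half hcomm z hzc hz1 hzz hall r ⊤ q0 (Subgroup.mem_top q0)
        (fun h => hq0 h.symm)
      have h3 : Finset.univ.filter (fun h : P => h ∈ (⊤ : Subgroup P) ∧ r * h = h * r) =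
          Finset.univ.filter (fun q : P => q * r = r * q) := by
        apply Finset.filter_congr
        intro q _
        simp only [Subgroup.mem_top, true_and]
        exact eq_comm
      have h4 : Finset.univ.filter (fun h : P => h ∈ (⊤ : Subgroup P)) = Finset.univ := by
        apply Finset.filter_true_of_mem
        intro q _
        exact Subgroup.mem_top q
      rw [h3, h4, hcardP] at h2
      exact h2
  have hLsum : 2 * ∑ q : P, ((Finset.univ.filter (fun h : P => h ∈ R)).bipartiteAbove
      (fun (q r : P) => q * r = r * q) q).card =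
      2 * (2 * m) + ((Finset.univ.filter (fun h : P => ¬ h ∈ Subgroup.center P)).card) * m := by
    rw [Finset.mul_sum]
    rw [Finset.sum_congr rfl (fun q _ => hL q)]
    rw [Finset.sum_ite, Finset.sum_const, Finset.sum_const, hFZcard]
    simp only [smul_eq_mul]
  have hRsum : 2 * ∑ r ∈ Finset.univ.filter (fun h : P => h ∈ R), ((Finset.univ : Finset P).bipartiteBelow
      (fun (q r : P) => q * r = r * q) r).card =
      2 * (4 * m) + (((Finset.univ.filter (fun h : P => h ∈ R)).filter
        (fun h : P => ¬ h ∈ Subgroup.center P)).card) * (2 * m) := by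
    rw [Finset.mul_sum]
    rw [Finset.sum_congr rfl (fun r _ => hR' r)]
    rw [Finset.sum_ite, Finset.sum_const, Finset.sum_const, hFZR, hFZcard]
    simp only [smul_eq_mul]
  have hc1 := Finset.card_filter_add_card_filter_not (s := (Finset.univ : Finset P))
    (fun h : P => h ∈ Subgroup.center P)
  have hc2 := Finset.card_filter_add_card_filter_not (s := Finset.univ.filter (fun h : P => h ∈ R))
    (fun h : P => h ∈ Subgroup.center P)
  rw [hFZcard, hcardP] at hc1
  rw [hFZR, hFZcard, hm] at hc2
  rw [hdc] at hLsum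
  rw [hLsum] at hRsum
  generalize (Finset.univ.filter (fun h : P => ¬ h ∈ Subgroup.center P)).card = a at hc1 hRsum
  generalize ((Finset.univ.filter (fun h : P => h ∈ R)).filter
        (fun h : P => ¬ h ∈ Subgroup.center P)).card = b at hc2 hRsum
  have ha : a = 2 * b + 2 := by omega
  subst ha
  subst hc2
  ring_nf at hRsum
  omega

theorem inner_of_index_two {P : Type*} [Group P] [Finite P]
    (hcomm : ∀ a b : P, a * b * a⁻¹ * b⁻¹ ∈ Subgroup.center P)
    (hZ : Nat.card (Subgroup.center P) = 2)
    (τ : P ≃* P) (hτ2 : ∀ q, τ (τ q) = q)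
    (R : Subgroup P) (hRτ : ∀ q, q ∈ R ↔ τ q = q) (hR : R.index = 2) :
    ∃ u : P, ∀ q : P, τ q = u * q * u⁻¹ := by
  obtain ⟨z, hzc, hz1, hzz, hall⟩ := center_two hZ
  have hzcomm : ∀ q : P, q * z = z * q := fun q => Subgroup.mem_center_iff.mp hzc q
  have hτc : ∀ c ∈ Subgroup.center P, τ c ∈ Subgroup.center P := by
    intro c hc
    rw [Subgroup.mem_center_iff]
    intro q
    obtain ⟨q', rfl⟩ := τ.surjective q
    rw [← map_mul, ← map_mul, Subgroup.mem_center_iff.mp hc q']
  have hτz : τ z = z := by
    rcases hall _ (hτc z hzc) with h | h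
    · exfalso; apply hz1; exact τ.injective (by rw [h, map_one])
    · exact h
  have hZR : Subgroup.center P ≤ R := by
    intro c hc
    rw [hRτ]
    rcases hall c hc with rfl | rfl
    · exact map_one τ
    · exact hτz
  have hRne : R ≠ ⊤ := by
    intro h; rw [← Subgroup.index_eq_one] at h; omega
  obtain ⟨x, hx⟩ : ∃ x, x ∉ R := by
    by_contra hcon
    push Not at hcon
    exact hRne (eq_top_iff.mpr (fun q _ => hcon q))
  generalize hc : x⁻¹ * τ x = c
  have hτx : τ x = x * c := by rw [← hc]; group
  have h2a : ∀ r ∈ R, c * r = r * c := by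
    intro r hr
    have hζ : τ (x * r * x⁻¹ * r⁻¹) = x * r * x⁻¹ * r⁻¹ := (hRτ _).mp (hZR (hcomm x r))
    rw [map_mul, map_mul, map_mul, map_inv, map_inv, (hRτ r).mp hr, hτx] at hζ
    have h1 : c * r * c⁻¹ = r := by
      have e : c * r * c⁻¹ = x⁻¹ * (x * c * r * (x * c)⁻¹ * r⁻¹) * r * x := by group
      rw [e, hζ]; group
    exact mul_inv_eq_iff_eq_mul.mp h1
  have h2b : c ∈ R := by
    by_contra hcR
    have h1 : x * c ∈ R := (Subgroup.mul_mem_iff_of_index_two hR).mpr (iff_of_false hx hcR)
    rw [← hτx, hRτ, hτ2] at h1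
    exact hx ((hRτ x).mpr h1.symm)
  have hτc' : τ c = c := (hRτ c).mp h2b
  have hcc : c * c = 1 := by
    have h1 := hτ2 x
    rw [hτx, map_mul, hτx, hτc'] at h1
    have h2 : x * (c * c) = x * 1 := by rw [mul_one, ← mul_assoc]; exact h1
    exact mul_left_cancel h2
  have h2c : c * x = x * c := by
    have e' : c * x = (c * x * c⁻¹ * x⁻¹) * (x * c) := by group
    rcases hall _ (hcomm c x) with h | h
    · rw [e', h, one_mul]
    · exfalso
      have e : c * x = z * (x * c) := by rw [e', h]
      have hxx : τ (x * x) = x * x := (hRτ _).mp (Subgroup.mul_self_mem_of_index_two hR x)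
      rw [map_mul, hτx] at hxx
      have e2 : x * c * (x * c) = z * (x * x) := by
        calc x * c * (x * c) = x * (c * x) * c := by group
          _ = x * (z * (x * c)) * c := by rw [e]
          _ = (x * z) * x * (c * c) := by group
          _ = z * (x * x) := by rw [hcc, mul_one, hzcomm x]; group
      rw [e2] at hxx
      exact hz1 (mul_eq_right.mp hxx)
  have hxinv : x⁻¹ ∉ R := fun h => hx (by simpa using R.inv_mem h)
  have hdecomp : ∀ q, q ∉ R → x⁻¹ * q ∈ R := fun q hq =>
    (Subgroup.mul_mem_iff_of_index_two hR).mpr (iff_of_false hxinv hq)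
  have hccen : c ∈ Subgroup.center P := by
    rw [Subgroup.mem_center_iff]
    intro q
    by_cases hq : q ∈ R
    · exact (h2a q hq).symm
    · have h1 := h2a _ (hdecomp q hq)
      calc q * c = x * ((x⁻¹ * q) * c) := by group
        _ = x * (c * (x⁻¹ * q)) := by rw [h1]
        _ = (x * c) * (x⁻¹ * q) := by group
        _ = (c * x) * (x⁻¹ * q) := by rw [h2c]
        _ = c * q := by group
  have hcz : c = z := by
    rcases hall c hccen with h | h
    · exfalso; apply hx; rw [hRτ, hτx, h, mul_one]
    · exact h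
  obtain ⟨u, hu, hunc⟩ := exists_noncentral_centralizing hcomm z hzc hz1 hzz hall R hR hZR
  have hux : u * x * u⁻¹ = x * z := by
    rcases hall _ (hcomm u x) with h | h
    · exfalso
      apply hunc
      have hux' : u * x = x * u := by
        have e : u * x = (u * x * u⁻¹ * x⁻¹) * (x * u) := by group
        rw [e, h, one_mul]
      rw [Subgroup.mem_center_iff]
      intro q
      by_cases hq : q ∈ R
      · exact (hu q hq).symm
      · have h1 := hu _ (hdecomp q hq)
        calc q * u = x * ((x⁻¹ * q) * u) := by group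
          _ = x * (u * (x⁻¹ * q)) := by rw [h1]
          _ = (x * u) * (x⁻¹ * q) := by group
          _ = (u * x) * (x⁻¹ * q) := by rw [hux']
          _ = u * q := by group
    · have e : u * x * u⁻¹ = (u * x * u⁻¹ * x⁻¹) * x := by group
      rw [e, h, hzcomm x]
  refine ⟨u, fun q => ?_⟩
  by_cases hq : q ∈ R
  · rw [(hRτ q).mp hq, hu q hq]; group
  · have hr := hdecomp q hq
    have e : q = x * (x⁻¹ * q) := by group
    have h1 : τ q = x * z * (x⁻¹ * q) := by
      conv_lhs => rw [e]
      rw [map_mul, (hRτ _).mp hr, hτx, hcz]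
    have h2 : u * q * u⁻¹ = (u * x * u⁻¹) * (u * (x⁻¹ * q) * u⁻¹) := by group
    rw [h1, h2, hux, hu _ hr]; group

/-- Let Q be an extraspecial 2-subgroup of the finite group G (special with centre of order 2) and t an involution of G normalizing Q such that the centralizer of t in Q has index at most 2 in Q. Then t lies in the product of Q with the centralizer of Q. -/
theorem result {G : Type*} [Group G] [Finite G] (Q : Subgroup G)
    (hQ : Cfsg.IsExtraspecial 2 ↥Q) (t : G) (ht : orderOf t = 2) (htN : t ∈ Subgroup.normalizer (Q : Set G))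
    (hi : (Subgroup.centralizer ({t} : Set G) ⊓ Q).relIndex Q ≤ 2) :
    t ∈ Q ⊔ Subgroup.centralizer (Q : Set G) := by
  obtain ⟨⟨_, _, hcomm⟩, hZ⟩ := hQ
  have htt : t * t = 1 := by rw [← pow_two, ← ht]; exact pow_orderOf_eq_one t
  have htinv : t⁻¹ = t := inv_eq_of_mul_eq_one_left htt
  have hconj : ∀ q ∈ Q, t * q * t⁻¹ ∈ Q := fun q hq =>
    (Subgroup.mem_normalizer_iff.mp htN q).mp hq
  have hidx : ((Subgroup.centralizer ({t} : Set G) ⊓ Q).subgroupOf Q).index ≤ 2 := hi
  have hidx0 : ((Subgroup.centralizer ({t} : Set G) ⊓ Q).subgroupOf Q).index ≠ 0 :=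
    Subgroup.index_ne_zero_of_finite
  have hmemR : ∀ q : ↥Q, q ∈ (Subgroup.centralizer ({t} : Set G) ⊓ Q).subgroupOf Q ↔
      t * (q : G) * t⁻¹ = q := by
    intro q
    rw [Subgroup.mem_subgroupOf, Subgroup.mem_inf, Subgroup.mem_centralizer_iff]
    constructor
    · rintro ⟨h, _⟩
      have h1 := h t rfl
      rw [h1]; group
    · intro h
      refine ⟨?_, q.2⟩
      rintro _ rfl
      exact mul_inv_eq_iff_eq_mul.mp h
  have h12 : ((Subgroup.centralizer ({t} : Set G) ⊓ Q).subgroupOf Q).index = 1 ∨
      ((Subgroup.centralizer ({t} : Set G) ⊓ Q).subgroupOf Q).index = 2 := by omega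
  rcases h12 with h1 | h2
  · rw [Subgroup.index_eq_one] at h1
    apply Subgroup.mem_sup_right
    rw [Subgroup.mem_centralizer_iff]
    intro q hq
    have h3 := (hmemR ⟨q, hq⟩).mp (by rw [h1]; trivial)
    exact (mul_inv_eq_iff_eq_mul.mp h3).symm
  · have hcomm' : ∀ a b : ↥Q, a * b * a⁻¹ * b⁻¹ ∈ Subgroup.center ↥Q := by
      intro a b
      rw [← hcomm]
      exact Subgroup.commutator_mem_commutator (Subgroup.mem_top a) (Subgroup.mem_top b)
    have hinvol : ∀ q : G, t * (t * q * t⁻¹) * t⁻¹ = q := by
      intro q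
      rw [htinv]
      calc t * (t * q * t) * t = (t * t) * q * (t * t) := by group
        _ = q := by rw [htt, one_mul, mul_one]
    let τ : ↥Q ≃* ↥Q :=
      { toFun := fun q => ⟨t * q * t⁻¹, hconj q q.2⟩
        invFun := fun q => ⟨t * q * t⁻¹, hconj q q.2⟩
        left_inv := fun q => Subtype.ext (hinvol q)
        right_inv := fun q => Subtype.ext (hinvol q)
        map_mul' := fun a b => Subtype.ext (by
          show t * ((a : G) * (b : G)) * t⁻¹ = (t * (a : G) * t⁻¹) * (t * (b : G) * t⁻¹)
          group) }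
    have hτval : ∀ q : ↥Q, ((τ q : ↥Q) : G) = t * (q : G) * t⁻¹ := fun q => rfl
    obtain ⟨u, hu⟩ := inner_of_index_two hcomm' hZ τ (fun q => Subtype.ext (hinvol q))
      ((Subgroup.centralizer ({t} : Set G) ⊓ Q).subgroupOf Q)
      (fun q => (hmemR q).trans ⟨fun h => Subtype.ext h, fun h => congrArg Subtype.val h⟩) h2
    have hcen : (u : G)⁻¹ * t ∈ Subgroup.centralizer (Q : Set G) := by
      rw [Subgroup.mem_centralizer_iff]
      intro q hq
      have h3 : t * q * t⁻¹ = (u : G) * q * (u : G)⁻¹ := congrArg Subtype.val (hu ⟨q, hq⟩)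
      calc q * ((u : G)⁻¹ * t) = (u : G)⁻¹ * ((u : G) * q * (u : G)⁻¹) * t := by group
        _ = (u : G)⁻¹ * (t * q * t⁻¹) * t := by rw [h3]
        _ = (u : G)⁻¹ * t * q := by group
    have e : t = (u : G) * ((u : G)⁻¹ * t) := by group
    rw [e]
    exact Subgroup.mul_mem_sup u.2 hcen

end Cfsg.Agent.S1756
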