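import Cfsg.Statements.S1757

set_option autoImplicit false
open Cfsg

namespace Cfsg.Agent.S1757

open scoped commutatorElement

theorem key {G : Type*} [Group G] [Finite G] (p : ℕ) [Fact p.Prime] (A B : Subgroup G)
    (hA : IsPGroup p ↥A) (hB : IsPGroup p ↥B)
    (hBti : ∀ g : G, B.map (MulAut.conj g).toMonoidHom = B ∨ B.map (MulAut.conj g).toMonoidHom ⊓ B = ⊥)
    (hle : Nat.card ↥A ≤ Nat.card ↥B) (hN : B ≤ Subgroup.normalizer (A : Set G)) :
    A ≤ Subgroup.normalizer (B : Set G) := by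
  classical
  by_contra hnot
  set H : Subgroup G := A ⊔ B with hH
  have hHp : IsPGroup p ↥H := by
    have := IsPGroup.to_sup_of_normal_right' hB hA hN
    rwa [sup_comm] at this
  have hnil : Group.IsNilpotent ↥H := hHp.isNilpotent
  have hAH : A ≤ H := le_sup_left
  have hBH : B ≤ H := le_sup_right
  set NB : Subgroup G := Subgroup.normalizer (B : Set G) with hNB
  have hBNB : B ≤ NB := Subgroup.le_normalizer
  -- N' = N_H(B) as a subgroup of H
  set N' : Subgroup ↥H := NB.subgroupOf H with hN'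
  have hN'lt : N' < ⊤ := by
    rw [lt_top_iff_ne_top]
    intro htop
    apply hnot
    intro a ha
    have : (⟨a, hAH ha⟩ : ↥H) ∈ N' := by rw [htop]; trivial
    exact this
  have hnc := (Group.normalizerCondition_of_isNilpotent (G := ↥H)) N' hN'lt
  obtain ⟨g, hgN, hgnot⟩ := SetLike.exists_of_lt hnc
  have hgNB : (g : G) ∉ NB := hgnot
  -- B^g
  set Bg : Subgroup G := B.map (MulAut.conj (g : G)).toMonoidHom with hBg
  have hBgNB : Bg ≤ NB := by
    intro x hx
    obtain ⟨b, hb, rfl⟩ := hx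
    have h1 : (⟨b, hBH hb⟩ : ↥H) ∈ N' := hBNB hb
    have h2 := (Subgroup.mem_normalizer_iff.mp hgN ⟨b, hBH hb⟩).mp h1
    exact h2
  have hBgH : Bg ≤ H := by
    intro x hx
    obtain ⟨b, hb, rfl⟩ := hx
    exact H.mul_mem (H.mul_mem g.2 (hBH hb)) (H.inv_mem g.2)
  have hBgne : Bg ≠ B := by
    intro heq
    apply hgNB
    rw [hNB, Subgroup.mem_normalizer_iff]
    intro h
    constructor
    · intro hh
      rw [← heq]
      exact ⟨h, hh, rfl⟩
    · intro hh
      have : (g : G) * h * (g : G)⁻¹ ∈ Bg := by rw [heq]; exact hh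
      obtain ⟨b, hb, hbe⟩ := this
      have : b = h := by
        simp only [MulEquiv.coe_toMonoidHom, MulAut.conj_apply] at hbe
        exact mul_left_cancel (mul_right_cancel hbe)
      rw [← this]; exact hb
  have hdisj : Disjoint Bg B := by
    rw [disjoint_iff]
    rcases hBti (g : G) with h | h
    · exact absurd h hBgne
    · exact h
  -- counting
  set M : Subgroup G := NB ⊓ H with hM
  set A0 : Subgroup G := A ⊓ NB with hA0
  have hcard1 : Nat.card ↥Bg * Nat.card ↥B ≤ Nat.card ↥M := by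
    rw [← Nat.card_prod]
    let f : ↥Bg × ↥B → ↥M := fun q => ⟨(q.1 : G) * (q.2 : G),
      ⟨NB.mul_mem (hBgNB q.1.2) (hBNB q.2.2), H.mul_mem (hBgH q.1.2) (hBH q.2.2)⟩⟩
    apply Nat.card_le_card_of_injective f
    intro q q' hqq
    apply Subgroup.mul_injective_of_disjoint hdisj
    exact congrArg Subtype.val hqq
  have hcardBg : Nat.card ↥Bg = Nat.card ↥B := by
    rw [hBg]
    exact Subgroup.card_map_of_injective (MulAut.conj (g : G)).injective
  have hdec : ∀ m : ↥M, ∃ q : ↥A0 × ↥B, (q.1 : G) * (q.2 : G) = (m : G) := by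
    intro m
    have hmH : (m : G) ∈ ((A ⊔ B : Subgroup G) : Set G) := m.2.2
    rw [Subgroup.coe_mul_of_right_le_normalizer_left A B hN] at hmH
    obtain ⟨a, ha, b, hb, hab⟩ := hmH
    have haNB : a ∈ NB := by
      have : a = (m : G) * b⁻¹ := by rw [← hab]; group
      rw [this]
      exact NB.mul_mem m.2.1 (NB.inv_mem (hBNB hb))
    exact ⟨(⟨a, ⟨ha, haNB⟩⟩, ⟨b, hb⟩), hab⟩
  choose f hf using hdec
  have finj : Function.Injective f := fun m m' h => Subtype.ext (by rw [← hf m, ← hf m', h])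
  have hcard2 : Nat.card ↥M ≤ Nat.card ↥A0 * Nat.card ↥B := by
    rw [← Nat.card_prod]
    exact Nat.card_le_card_of_injective f finj
  have hBpos : 0 < Nat.card ↥B := Nat.card_pos
  have h3 : Nat.card ↥B ≤ Nat.card ↥A0 := by
    rw [hcardBg] at hcard1
    exact Nat.le_of_mul_le_mul_right (hcard1.trans hcard2) hBpos
  have hA0A : A0 = A := Subgroup.eq_of_le_of_card_ge inf_le_left (hle.trans h3)
  apply hnot
  rw [← hA0A]
  exact inf_le_right

/-- Let p be a prime and A, B p-subgroups of the finite group G, each of which meets every conjugate of itself other than itself trivially. Suppose the order of A is at most that of B, A and B intersect trivially, and B normalizes A. Then A and B commute elementwise. -/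
theorem result {G : Type*} [Group G] [Finite G] (p : ℕ) [Fact p.Prime] (A B : Subgroup G)
    (hA : IsPGroup p ↥A) (hB : IsPGroup p ↥B)
    (hAti : ∀ g : G, A.map (MulAut.conj g).toMonoidHom = A ∨ A.map (MulAut.conj g).toMonoidHom ⊓ A = ⊥)
    (hBti : ∀ g : G, B.map (MulAut.conj g).toMonoidHom = B ∨ B.map (MulAut.conj g).toMonoidHom ⊓ B = ⊥)
    (hle : Nat.card ↥A ≤ Nat.card ↥B) (hAB : A ⊓ B = ⊥) (hN : B ≤ Subgroup.normalizer (A : Set G)) : ⁅A, B⁆ = ⊥ := by
  have hk := key p A B hA hB hBti hle hN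
  rw [eq_bot_iff, ← hAB, Subgroup.commutator_le]
  intro a ha b hb
  refine ⟨?_, ?_⟩
  · have h1 : b * a⁻¹ * b⁻¹ ∈ A := (Subgroup.mem_normalizer_iff.mp (hN hb) a⁻¹).mp (A.inv_mem ha)
    have : ⁅a, b⁆ = a * (b * a⁻¹ * b⁻¹) := by rw [commutatorElement_def]; group
    rw [this]; exact A.mul_mem ha h1
  · have h1 : a * b * a⁻¹ ∈ B := (Subgroup.mem_normalizer_iff.mp (hk ha) b).mp hb
    have : ⁅a, b⁆ = (a * b * a⁻¹) * b⁻¹ := by rw [commutatorElement_def]
    rw [this]; exact B.mul_mem h1 (B.inv_mem hb)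

end Cfsg.Agent.S1757
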