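import Cfsg.Statements.S1780

set_option autoImplicit false
open Cfsg

namespace Cfsg.Agent.S1780

/-- the commutator map of an automorphism -/
def comm {A : Type*} [CommGroup A] (s : MulAut A) (b : A) : A := s b * b⁻¹

theorem comm_sq {A : Type*} [CommGroup A] (s : MulAut A) (b : A) (hb : b ^ 2 = 1) :
    comm s b ^ 2 = 1 := by
  unfold comm
  rw [mul_pow, ← map_pow, hb, map_one, one_mul, inv_pow, hb, inv_one]

theorem iter_sq {A : Type*} [CommGroup A] (s : MulAut A) (m : ℕ) (b : A) (hb : b ^ 2 = 1) :
    ((comm s)^[m] b) ^ 2 = 1 := by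
  induction m with
  | zero => simpa using hb
  | succ m ih =>
    rw [Function.iterate_succ_apply']
    exact comm_sq s _ ih

theorem comm_comm {A : Type*} [CommGroup A] (s : MulAut A) (b : A) (hb : b ^ 2 = 1) :
    comm s (comm s b) = comm (s * s) b := by
  unfold comm
  have h1 : (s b) ^ 2 = 1 := by rw [← map_pow, hb, map_one]
  have h2 : b⁻¹ = b := by
    rw [inv_eq_iff_mul_eq_one, ← sq, hb]
  have h3 : (s b)⁻¹ = s b := by
    rw [inv_eq_iff_mul_eq_one, ← sq, h1]
  rw [map_mul, map_inv, MulAut.mul_apply, mul_inv, inv_inv, h3]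
  calc s (s b) * s b * (s b * b) = s (s b) * (s b * s b) * b := by
        simp only [mul_assoc]
    _ = s (s b) * b⁻¹ := by rw [← sq, h1, mul_one, h2]

theorem iter_pow {A : Type*} [CommGroup A] (t : MulAut A) (j : ℕ) :
    ∀ b : A, b ^ 2 = 1 → (comm t)^[2 ^ j] b = comm (t ^ (2 ^ j)) b := by
  induction j with
  | zero => intro b _; simp
  | succ j ih =>
    intro b hb
    have e : 2 ^ (j + 1) = 2 ^ j + 2 ^ j := by ring
    rw [e, Function.iterate_add_apply, ih b hb, ih _ (comm_sq _ b hb), comm_comm _ b hb, ← pow_add]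

/-- Let A be a finite abelian 2-group and t an automorphism of A whose order is a power of 2. If every element of A fixed by t² is fixed by t, then t fixes every element of A. -/
theorem result {A : Type*} [CommGroup A] [Finite A]
    (hA : IsPGroup 2 A) (t : MulAut A) (ht : ∃ k : ℕ, orderOf t = 2 ^ k) (hC : ∀ a : A, t (t a) = a → t a = a) :
    ∀ a : A, t a = a := by
  obtain ⟨k, hk⟩ := ht
  have htk : t ^ (2 ^ k) = 1 := by rw [← hk]; exact pow_orderOf_eq_one t
  -- step on involutions
  have c3 : ∀ b : A, b ^ 2 = 1 → comm t (comm t b) = 1 → comm t b = 1 := by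
    intro b hb h
    rw [comm_comm t b hb] at h
    unfold comm at h ⊢
    rw [MulAut.mul_apply, mul_inv_eq_one] at h
    rw [hC b h, mul_inv_cancel]
  have c4 : ∀ m : ℕ, ∀ b : A, b ^ 2 = 1 → (comm t)^[m + 1] b = 1 → comm t b = 1 := by
    intro m
    induction m with
    | zero => intro b _ h; simpa using h
    | succ m ih =>
      intro b hb h
      rw [Function.iterate_succ_apply', Function.iterate_succ_apply'] at h
      have := c3 _ (iter_sq t m b hb) h
      have h' : (comm t)^[m + 1] b = 1 := by
        rw [Function.iterate_succ_apply']; exact this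
      exact ih b hb h'
  have hB : ∀ b : A, b ^ 2 = 1 → t b = b := by
    intro b hb
    have h1 : (comm t)^[2 ^ k] b = 1 := by
      rw [iter_pow t k b hb, htk]
      simp [comm]
    obtain ⟨m, hm⟩ : ∃ m, 2 ^ k = m + 1 := ⟨2 ^ k - 1, by have := Nat.one_le_two_pow (n := k); omega⟩
    rw [hm] at h1
    have := c4 m b hb h1
    unfold comm at this
    exact mul_inv_eq_one.mp this
  have main : ∀ n : ℕ, ∀ a : A, a ^ (2 ^ n) = 1 → t a = a := by
    intro n
    induction n with
    | zero => intro a ha; simp at ha; rw [ha, map_one]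
    | succ n ih =>
      intro a ha
      have h2 : (a ^ 2) ^ (2 ^ n) = 1 := by rw [← pow_mul, ← pow_succ']; exact ha
      have h3 : t (a ^ 2) = a ^ 2 := ih _ h2
      have hc : (t a * a⁻¹) ^ 2 = 1 := by
        rw [mul_pow, ← map_pow, h3, inv_pow, mul_inv_cancel]
      have hc' := hB _ hc
      apply hC
      have e : t a = (t a * a⁻¹) * a := by simp
      calc t (t a) = t ((t a * a⁻¹) * a) := by rw [← e]
        _ = (t a * a⁻¹) * t a := by rw [map_mul, hc']
        _ = (t a * a⁻¹) * ((t a * a⁻¹) * a) := by rw [← e]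
        _ = (t a * a⁻¹) ^ 2 * a := by rw [sq, mul_assoc (t a * a⁻¹) (t a * a⁻¹) a]
        _ = a := by rw [hc, one_mul]
  intro a
  obtain ⟨n, hn⟩ := hA a
  exact main n a hn

end Cfsg.Agent.S1780
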