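import Cfsg.Statements.S1781
import Cfsg.Agent.S1757
import Cfsg.Agent.Lib.Helper13.TI

set_option autoImplicit false
open Cfsg

namespace Cfsg.Agent.S1781

theorem core {G : Type*} [Group G] (B N A0 : Subgroup G)
    (hBcomm : ∀ x ∈ B, ∀ y ∈ B, x * y = y * x)
    (hB2 : ∀ b ∈ B, ∃ k : ℕ, b ^ (2 ^ k) = 1)
    (hA0 : ∀ x ∈ A0, ∀ b ∈ B, x * b * x⁻¹ ∈ B)
    (hF : ∀ x ∈ A0, x ≠ 1 → ∀ b ∈ B, (x * b * x⁻¹ = b ↔ b ∈ N))
    (σ : G) (hσ : σ ∈ A0) (hσ2 : σ ^ 2 ≠ 1) (hσ4 : σ ^ 4 = 1) : B ≤ N := by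
  have hτA0 : σ ^ 2 ∈ A0 := A0.pow_mem hσ 2
  have hτ2 : σ ^ 2 * σ ^ 2 = 1 := by rw [← pow_add]; exact hσ4
  have hτinv : (σ ^ 2)⁻¹ = σ ^ 2 := inv_eq_of_mul_eq_one_left hτ2
  have hσ1 : σ ≠ 1 := by rintro rfl; simp at hσ2
  generalize hτ : σ ^ 2 = τ at hτA0 hτ2 hτinv hσ2
  have h1 : ∀ b ∈ B, b * (τ * b * τ⁻¹) ∈ N := by
    intro b hb
    have hb' := hA0 τ hτA0 b hb
    rw [← hF τ hτA0 hσ2 _ (B.mul_mem hb hb')]
    have e : τ * (b * (τ * b * τ⁻¹)) * τ⁻¹ = (τ * b * τ⁻¹) * b := by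
      rw [hτinv]
      calc τ * (b * (τ * b * τ)) * τ = (τ * b * τ) * b * (τ * τ) := by group
        _ = (τ * b * τ) * b := by rw [hτ2, mul_one]
    rw [e]; exact hBcomm _ hb' _ hb
  have h2 : ∀ b ∈ B, b * (σ * b * σ⁻¹) ∈ N → b ∈ N := by
    intro b hb hc
    have hb' := hA0 σ hσ b hb
    have hcomm := (hF σ hσ hσ1 _ (B.mul_mem hb hb')).mpr hc
    have e : σ * (b * (σ * b * σ⁻¹)) * σ⁻¹ = (σ * b * σ⁻¹) * (τ * b * τ⁻¹) := by rw [← hτ]; group
    rw [e, hBcomm b hb _ hb'] at hcomm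
    exact (hF τ hτA0 hσ2 b hb).mp (mul_left_cancel hcomm)
  have h3 : ∀ b ∈ B, b ^ 2 ∈ N → b ∈ N := by
    intro b hb hb2
    have hb' := hA0 σ hσ b hb
    have hb'' := hA0 τ hτA0 b hb
    apply h2 b hb
    apply h2 _ (B.mul_mem hb hb')
    have hb2B : b ^ 2 ∈ B := B.pow_mem hb 2
    have hs : σ * b ^ 2 * σ⁻¹ = b ^ 2 := (hF σ hσ hσ1 _ hb2B).mpr hb2
    have e1 : σ * (b * (σ * b * σ⁻¹)) * σ⁻¹ = (σ * b * σ⁻¹) * (τ * b * τ⁻¹) := by rw [← hτ]; group
    have e2 : (σ * b * σ⁻¹) * (σ * b * σ⁻¹) = b ^ 2 := by rw [← hs, pow_two]; group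
    have e : b * (σ * b * σ⁻¹) * (σ * (b * (σ * b * σ⁻¹)) * σ⁻¹) = (b * (τ * b * τ⁻¹)) * b ^ 2 := by
      rw [e1]
      calc b * (σ * b * σ⁻¹) * ((σ * b * σ⁻¹) * (τ * b * τ⁻¹))
          = b * ((σ * b * σ⁻¹) * (σ * b * σ⁻¹)) * (τ * b * τ⁻¹) := by group
        _ = b * (b ^ 2 * (τ * b * τ⁻¹)) := by rw [e2, mul_assoc]
        _ = b * ((τ * b * τ⁻¹) * b ^ 2) := by rw [hBcomm _ hb2B _ hb'']
        _ = (b * (τ * b * τ⁻¹)) * b ^ 2 := (mul_assoc _ _ _).symm
    rw [e]; exact N.mul_mem (h1 b hb) hb2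
  have h4 : ∀ k : ℕ, ∀ b ∈ B, b ^ (2 ^ k) = 1 → b ∈ N := by
    intro k
    induction k with
    | zero => intro b hb h; simp at h; rw [h]; exact N.one_mem
    | succ k ih =>
      intro b hb h
      apply h3 b hb
      apply ih _ (B.pow_mem hb 2)
      rw [← pow_mul, ← pow_succ']; exact h
  intro b hb
  obtain ⟨k, hk⟩ := hB2 b hb
  exact h4 k b hb hk

theorem exists_order_four {G : Type*} [Group G] (A0 : Subgroup G) :
    ∀ k : ℕ, ∀ a ∈ A0, a ^ (2 ^ k) = 1 → a ^ 2 ≠ 1 → ∃ σ ∈ A0, σ ^ 2 ≠ 1 ∧ σ ^ 4 = 1 := by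
  intro k
  induction k with
  | zero => intro a _ h h2; simp at h; rw [h] at h2; simp at h2
  | succ k ih =>
    intro a ha h h2
    by_cases h4 : a ^ 4 = 1
    · exact ⟨a, ha, h2, h4⟩
    · apply ih (a ^ 2) (A0.pow_mem ha 2)
      · rw [← pow_mul, ← pow_succ']; exact h
      · rw [← pow_mul]; exact h4

/-- Let A be an abelian 2-subgroup of the finite group G such that every conjugate of A equals A or meets A trivially, and let g ∈ G with g A g⁻¹ ≠ A. Then either the subgroup of those elements of A that normalize g A g⁻¹ is an elementary abelian 2-group, or A and g A g⁻¹ commute elementwise. -/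
theorem result {G : Type*} [Group G] [Finite G] (A : Subgroup G)
    (hA2 : IsPGroup 2 ↥A) (hAa : IsMulCommutative ↥A)
    (hti : ∀ h : G, A.map (MulAut.conj h).toMonoidHom = A ∨ A.map (MulAut.conj h).toMonoidHom ⊓ A = ⊥)
    (g : G) (hg : A.map (MulAut.conj g).toMonoidHom ≠ A) :
    Cfsg.IsElementaryAbelian 2 (A ⊓ Subgroup.normalizer ((A.map (MulAut.conj g).toMonoidHom : Subgroup G) : Set G)) ∨
      ⁅A, A.map (MulAut.conj g).toMonoidHom⁆ = ⊥ := by
  classical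
  generalize hB : A.map (MulAut.conj g).toMonoidHom = B at hg ⊢
  have hAcomm : ∀ x ∈ A, ∀ y ∈ A, x * y = y * x := fun x hx y hy =>
    setLike_mul_comm hx hy
  by_cases hel : ∀ a ∈ A ⊓ Subgroup.normalizer (B : Set G), a ^ 2 = 1
  · left
    refine ⟨?_, hel⟩
    exact IsMulCommutative.of_setLike_mul_comm fun a ha b hb => hAcomm a ha.1 b hb.1
  · right
    push Not at hel
    obtain ⟨a, ha, ha2⟩ := hel
    have hAB : A ⊓ B = ⊥ := by
      rcases hti g with h | h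
      · rw [hB] at h; exact absurd h hg
      · rw [hB, inf_comm] at h; exact h
    have hBti : ∀ h : G, B.map (MulAut.conj h).toMonoidHom = B ∨ B.map (MulAut.conj h).toMonoidHom ⊓ B = ⊥ := by
      intro h; rw [← hB]; exact Cfsg.Agent.Lib.Helper13.ti_map_conj A hti g h
    have hB2 : IsPGroup 2 ↥B := by
      rw [← hB]; exact hA2.map _
    have hBcomm : ∀ x ∈ B, ∀ y ∈ B, x * y = y * x := by
      rw [← hB]
      rintro x ⟨a1, ha1, rfl⟩ y ⟨a2, ha2, rfl⟩
      rw [← map_mul, ← map_mul, hAcomm a1 ha1 a2 ha2]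
    have hcard : Nat.card ↥B = Nat.card ↥A := by
      rw [← hB]; exact Subgroup.card_map_of_injective (MulAut.conj g).injective
    obtain ⟨k, hk⟩ := hA2 ⟨a, ha.1⟩
    have hk' : a ^ (2 ^ k) = 1 := by
      have := congrArg Subtype.val hk
      simpa using this
    obtain ⟨σ, hσ, hσ2, hσ4⟩ := exists_order_four _ k a ha hk' ha2
    have hBN : B ≤ Subgroup.normalizer (A : Set G) := by
      apply core B (Subgroup.normalizer (A : Set G)) (A ⊓ Subgroup.normalizer (B : Set G)) hBcomm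
        _ _ _ σ hσ hσ2 hσ4
      · intro b hb
        obtain ⟨k, hk⟩ := hB2 ⟨b, hb⟩
        exact ⟨k, by simpa using congrArg Subtype.val hk⟩
      · intro x hx b hb
        exact (Subgroup.mem_normalizer_iff.mp hx.2 b).mp hb
      · intro x hx hx1 b hb
        constructor
        · intro hc
          by_contra hbN
          have hx' : b * x * b⁻¹ ∈ A := by
            have hxb : x * b = b * x := mul_inv_eq_iff_eq_mul.mp hc
            have : b * x * b⁻¹ = x := by rw [← hxb]; group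
            rw [this]; exact hx.1
          exact hx1 (Cfsg.Agent.Lib.Helper13.ti_elem A hti b hbN x hx.1 hx')
        · intro hbN
          have h1 : x * b * x⁻¹ * b⁻¹ ∈ A ⊓ B := by
            constructor
            · have : b * x⁻¹ * b⁻¹ ∈ A :=
                (Subgroup.mem_normalizer_iff.mp hbN x⁻¹).mp (A.inv_mem hx.1)
              have e : x * b * x⁻¹ * b⁻¹ = x * (b * x⁻¹ * b⁻¹) := by group
              rw [e]; exact A.mul_mem hx.1 this
            · have : x * b * x⁻¹ ∈ B := (Subgroup.mem_normalizer_iff.mp hx.2 b).mp hb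
              exact B.mul_mem this (B.inv_mem hb)
          rw [hAB, Subgroup.mem_bot] at h1
          exact mul_inv_eq_one.mp h1
    exact Cfsg.Agent.S1757.result 2 A B hA2 hB2 hti hBti (le_of_eq hcard.symm) hAB hBN

end Cfsg.Agent.S1781
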