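import Cfsg.Statements.S1782
import Cfsg.Agent.S1757
import Cfsg.Agent.Lib.Helper13.TI

set_option autoImplicit false
open Cfsg

namespace Cfsg.Agent.S1782

theorem exists_sq_mem {G : Type*} [Group G] (T NR : Subgroup G) :
    ∀ k : ℕ, ∀ t ∈ T, t ∉ NR → t ^ (2 ^ k) ∈ NR → ∃ t' ∈ T, t' ∉ NR ∧ t' ^ 2 ∈ NR := by
  intro k
  induction k with
  | zero => intro t _ h1 h2; simp at h2; exact absurd h2 h1
  | succ k ih =>
    intro t ht h1 h2
    by_cases h4 : t ^ 2 ∈ NR
    · exact ⟨t, ht, h1, h4⟩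
    · apply ih (t ^ 2) (T.pow_mem ht 2) h4
      rw [← pow_mul, ← pow_succ']; exact h2

theorem core {G : Type*} [Group G] (R T NR NT : Subgroup G)
    (hRT : ∀ g, g ∈ R → g ∈ T → g = 1)
    (hNR : ∀ g ∈ NR, ∀ r ∈ R, g * r * g⁻¹ ∈ R)
    (hNT : ∀ g ∈ NT, ∀ t ∈ T, g * t * g⁻¹ ∈ T)
    (hR1 : ∀ g, g ∉ NR → ∀ r ∈ R, g * r * g⁻¹ ∈ R → r = 1)
    (hT1 : ∀ g, g ∉ NT → ∀ t ∈ T, g * t * g⁻¹ ∈ T → t = 1)
    (hRc : ∀ t ∈ T, t ∉ NR → ∀ r ∈ R, ∀ r' ∈ R, (t * r * t⁻¹) * r' = r' * (t * r * t⁻¹))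
    (hTc : ∀ x ∈ R, x ∉ NT → ∀ t ∈ T, ∀ t' ∈ T, (x * t * x⁻¹) * t' = t' * (x * t * x⁻¹))
    (hR2 : ∀ r ∈ R, ∃ k : ℕ, r ^ (2 ^ k) = 1) (hT2 : ∀ t ∈ T, ∃ k : ℕ, t ^ (2 ^ k) = 1)
    (x : G) (hx : x ∈ R) (hxN : x ∉ NT) (t : G) (ht : t ∈ T) (htN : t ∉ NR)
    (y : G) (hy : y ∈ R) (hy2 : y ^ 2 ≠ 1) : False := by
  have htinvN : t⁻¹ ∉ NR := fun h => htN (by simpa using NR.inv_mem h)
  -- step A
  have hA : ∀ x ∈ R, x ∉ NT → ∀ t ∈ T, t ∉ NR → (t⁻¹ * x * t) * (t * x * t⁻¹) = x * x := by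
    intro x hx hxN t ht htN
    have c1 := hTc x hx hxN t ht t⁻¹ (T.inv_mem ht)
    have c2 := hRc t ht htN x hx x hx
    calc (t⁻¹ * x * t) * (t * x * t⁻¹) = (t⁻¹ * (x * t * x⁻¹)) * x * (t * x * t⁻¹) := by group
      _ = (x * t * x⁻¹ * t⁻¹) * x * (t * x * t⁻¹) := by rw [c1]
      _ = x * (t * x * t⁻¹)⁻¹ * (x * (t * x * t⁻¹)) := by group
      _ = x * (t * x * t⁻¹)⁻¹ * ((t * x * t⁻¹) * x) := by rw [c2]
      _ = x * x := by group
  -- step B
  have hB : ∀ x ∈ R, x ∉ NT → x * x = 1 := by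
    intro x hx hxN
    obtain ⟨k, hk⟩ := hT2 t ht
    obtain ⟨t', ht', ht'N, ht'2⟩ := exists_sq_mem T NR k t ht htN (by rw [hk]; exact NR.one_mem)
    have e := hA x hx hxN t' ht' ht'N
    have e2 : t' * (x * x) * t'⁻¹ = x * (t' ^ 2 * x * (t' ^ 2)⁻¹) := by
      rw [← e, pow_two]; group
    exact hR1 t' ht'N (x * x) (R.mul_mem hx hx) (by rw [e2]; exact R.mul_mem hx (hNR _ ht'2 x hx))
  -- step C
  have hyN : y ∈ NT := by
    by_contra h
    exact hy2 (by rw [pow_two]; exact hB y hy h)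
  -- step D
  have hD : x * y * x⁻¹ = y⁻¹ := by
    have hx2 := hB x hx hxN
    have hxy : x * y * (x * y) = 1 := by
      apply hB (x * y) (R.mul_mem hx hy)
      intro h
      apply hxN
      have : x = (x * y) * y⁻¹ := by group
      rw [this]; exact NT.mul_mem h (NT.inv_mem hyN)
    have hxinv : x⁻¹ = x := inv_eq_of_mul_eq_one_left hx2
    rw [hxinv]
    exact eq_inv_of_mul_eq_one_left (by rw [← hxy]; group)
  -- step E
  have hu : t⁻¹ * (y * t * y⁻¹) ∈ T := T.mul_mem (T.inv_mem ht) (hNT y hyN t ht)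
  generalize hudef : t⁻¹ * (y * t * y⁻¹) = u at hu
  have hw : t⁻¹ * y * t = u * y := by rw [← hudef]; group
  have cw : x * (t⁻¹ * y * t) = (t⁻¹ * y * t) * x := by
    have h := hRc t ht htN x hx y hy
    calc x * (t⁻¹ * y * t) = t⁻¹ * ((t * x * t⁻¹) * y) * t := by group
      _ = t⁻¹ * (y * (t * x * t⁻¹)) * t := by rw [h]
      _ = (t⁻¹ * y * t) * x := by group
  have e3 : x * u * x⁻¹ = u * (y * y) := by
    have h1 : x * (u * y) * x⁻¹ = u * y := by
      rw [← hw, cw]; group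
    calc x * u * x⁻¹ = (x * (u * y) * x⁻¹) * (x * y * x⁻¹)⁻¹ := by group
      _ = (u * y) * (y⁻¹)⁻¹ := by rw [h1, hD]
      _ = u * (y * y) := by group
  have e5 : (y * y) * u = u * (y * y) := by
    have h := hTc x hx hxN u hu u hu
    rw [e3, mul_assoc] at h
    exact mul_left_cancel h
  have huN : u ∈ NR := by
    by_contra huN
    have h1 : u * (y * y) * u⁻¹ = y * y := by rw [← e5]; group
    have := hR1 u huN (y * y) (R.mul_mem hy hy) (by rw [h1]; exact R.mul_mem hy hy)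
    exact hy2 (by rw [pow_two]; exact this)
  have e6 : y * u = u * y := by
    have h1 : y * u * y⁻¹ * u⁻¹ = 1 := by
      apply hRT
      · have := R.mul_mem hy (hNR u huN y⁻¹ (R.inv_mem hy))
        have e : y * u * y⁻¹ * u⁻¹ = y * (u * y⁻¹ * u⁻¹) := by group
        rw [e]; exact this
      · exact T.mul_mem (hNT y hyN u hu) (T.inv_mem hu)
    calc y * u = (y * u * y⁻¹ * u⁻¹) * (u * y) := by group
      _ = u * y := by rw [h1, one_mul]
  have e7 : ∀ k : ℕ, u ^ k = 1 → y ^ k = 1 := by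
    intro k hk
    have hcm : Commute u y := e6.symm
    have h1 : t⁻¹ * y ^ k * (t⁻¹)⁻¹ = y ^ k := by
      have h2 : (t⁻¹ * y * (t⁻¹)⁻¹) ^ k = (u * y) ^ k := by rw [inv_inv, hw]
      rw [conj_pow, hcm.mul_pow, hk, one_mul] at h2
      exact h2
    exact hR1 t⁻¹ htinvN (y ^ k) (R.pow_mem hy k) (by rw [h1]; exact R.pow_mem hy k)
  have e8 : ∀ k : ℕ, (y * y) ^ k = 1 → u ^ k = 1 := by
    intro k hk
    have hcm : Commute u (y * y) := e5.symm
    have h1 : x * u ^ k * x⁻¹ = u ^ k := by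
      have h2 : (x * u * x⁻¹) ^ k = (u * (y * y)) ^ k := by rw [e3]
      rw [conj_pow, hcm.mul_pow, hk, mul_one] at h2
      exact h2
    exact hT1 x hxN (u ^ k) (T.pow_mem hu k) (by rw [h1]; exact T.pow_mem hu k)
  have e9 : ∀ m : ℕ, y ^ (2 ^ m) = 1 → y = 1 := by
    intro m
    induction m with
    | zero => intro h; simpa using h
    | succ m ih =>
      intro h
      apply ih
      apply e7
      apply e8
      rw [← pow_two, ← pow_mul, ← pow_succ']; exact h
  obtain ⟨m, hm⟩ := hR2 y hy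
  have := e9 m hm
  rw [this] at hy2
  simp at hy2

theorem frattini_eq_bot_of_sq {R : Type*} [Group R] [Finite R] (h : ∀ r : R, r * r = 1) :
    frattini R = ⊥ := by
  classical
  have hinv : ∀ a : R, a⁻¹ = a := fun a => inv_eq_of_mul_eq_one_left (h a)
  have hcomm : ∀ a b : R, a * b = b * a := by
    intro a b
    have h1 := hinv (a * b)
    rw [mul_inv_rev, hinv a, hinv b] at h1
    exact h1.symm
  rw [eq_bot_iff]
  intro r hr
  rw [Subgroup.mem_bot]
  by_contra hr1
  obtain ⟨M, -, hM⟩ := (Set.toFinite {M : Subgroup R | r ∉ M}).exists_le_maximal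
    (a := ⊥) (by simpa [Subgroup.mem_bot] using hr1)
  have hrM : r ∉ M := hM.prop
  have hco : IsCoatom M := by
    refine ⟨fun htop => hrM (by rw [htop]; trivial), ?_⟩
    intro b hb
    have hrb : r ∈ b := by
      by_contra hrb
      exact absurd (hM.le_of_ge hrb hb.le) (not_le_of_gt hb)
    rw [eq_top_iff]
    intro g _
    by_cases hgM : g ∈ M
    · exact hb.le hgM
    · let M' : Subgroup R :=
        { carrier := {x | x ∈ M ∨ x * g ∈ M}
          mul_mem' := by
            rintro a b (ha | ha) (hb | hb)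
            · exact Or.inl (M.mul_mem ha hb)
            · right
              have : a * b * g = a * (b * g) := by group
              rw [this]; exact M.mul_mem ha hb
            · right
              have : a * b * g = (a * g) * b := by rw [mul_assoc, hcomm b g, ← mul_assoc]
              rw [this]; exact M.mul_mem ha hb
            · left
              have : a * b = (a * g) * (b * g) := by
                rw [hcomm b g, mul_assoc, ← mul_assoc g g b, h g, one_mul]
              rw [this]; exact M.mul_mem ha hb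
          one_mem' := Or.inl M.one_mem
          inv_mem' := by
            intro a ha
            rw [hinv a]; exact ha }
      have hMM' : M ≤ M' := fun a ha => Or.inl ha
      have hgM' : g ∈ M' := Or.inr (by rw [h g]; exact M.one_mem)
      have hrM' : r ∈ M' := by
        by_contra hrM'
        exact hgM (hM.le_of_ge hrM' hMM' hgM')
      rcases hrM' with h1 | h1
      · exact absurd h1 hrM
      · have : g = r⁻¹ * (r * g) := by group
        rw [this]
        exact b.mul_mem (b.inv_mem hrb) (hb.le h1)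
  exact hrM (frattini_le_coatom hco hr)

theorem exists_sq_ne_one {R : Type*} [Group R] [Finite R] (h : frattini R ≠ ⊥) :
    ∃ r : R, r ^ 2 ≠ 1 := by
  by_contra hcon
  push Not at hcon
  exact h (frattini_eq_bot_of_sq (fun r => by rw [← pow_two]; exact hcon r))

theorem main {S : Type*} [Group S] [Finite S] (hS : IsPGroup 2 S)
    (Δ : Set (Subgroup S)) (hinv : ∀ s : S, ∀ R ∈ Δ, R.map (MulAut.conj s).toMonoidHom ∈ Δ)
    (hΦ : ∀ R ∈ Δ, frattini ↥R ≠ ⊥) (hord : ∀ R ∈ Δ, ∀ T ∈ Δ, Nat.card ↥R = Nat.card ↥T)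
    (hti : ∀ R ∈ Δ, ∀ T ∈ Δ, R = T ∨ R ⊓ T = ⊥) :
    ∀ n : ℕ, ∀ H : Subgroup S, Nat.card ↥H ≤ n → ∀ R ∈ Δ, ∀ T ∈ Δ, R ≤ H → T ≤ H → R ≠ T →
      ⁅R, T⁆ = ⊥ := by
  classical
  have hTI : ∀ R ∈ Δ, ∀ h : S, R.map (MulAut.conj h).toMonoidHom = R ∨
      R.map (MulAut.conj h).toMonoidHom ⊓ R = ⊥ :=
    fun R hR h => hti _ (hinv h R hR) R hR
  intro n
  induction n with
  | zero =>
    intro H hH
    have := Nat.card_pos (α := ↥H)
    omega
  | succ n ih =>
    intro H hH R hR T hT hRH hTH hne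
    by_contra hcomm
    have hRT : R ⊓ T = ⊥ := (hti R hR T hT).resolve_left hne
    have hR2 : IsPGroup 2 ↥R := hS.to_subgroup R
    have hT2 : IsPGroup 2 ↥T := hS.to_subgroup T
    have hTN : ¬ T ≤ Subgroup.normalizer (R : Set S) := fun h =>
      hcomm (Cfsg.Agent.S1757.result 2 R T hR2 hT2 (hTI R hR) (hTI T hT) (hord R hR T hT).le hRT h)
    have hRN : ¬ R ≤ Subgroup.normalizer (T : Set S) := fun h =>
      hcomm (by
        rw [Subgroup.commutator_comm]
        exact Cfsg.Agent.S1757.result 2 T R hT2 hR2 (hTI T hT) (hTI R hR) (hord T hT R hR).le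
          (by rw [inf_comm]; exact hRT) h)
    have ha : ∀ X ∈ Δ, X ≤ H → X ≠ H → ∀ h ∈ H, X.map (MulAut.conj h).toMonoidHom ≠ X →
        ⁅X, X.map (MulAut.conj h).toMonoidHom⁆ = ⊥ := by
      intro X hX hXH hXne h hh hXh
      have hnil : Group.IsNilpotent ↥H := (hS.to_subgroup H).isNilpotent
      have hX' : X.subgroupOf H ≠ ⊤ := by
        rw [Ne, Subgroup.subgroupOf_eq_top]
        intro hle
        exact hXne (le_antisymm hXH hle)
      obtain ⟨M, hMco, hXM⟩ := (eq_top_or_exists_le_coatom (X.subgroupOf H)).resolve_left hX'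
      have hMn : M.Normal :=
        Subgroup.NormalizerCondition.normal_of_coatom M (Group.normalizerCondition_of_isNilpotent (G := ↥H)) hMco
      have hM'H : M.map H.subtype ≤ H := Subgroup.map_subtype_le M
      have hM'ne : M.map H.subtype ≠ H := by
        intro heq
        apply hMco.1
        rw [eq_top_iff]
        intro y _
        have hy : (y : S) ∈ M.map H.subtype := by rw [heq]; exact y.2
        obtain ⟨m, hm, hmy⟩ := hy
        have hmy' : m = y := Subtype.ext hmy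
        rw [← hmy']; exact hm
      have hcard : Nat.card ↥(M.map H.subtype) ≤ n := by
        by_contra hc
        push Not at hc
        exact hM'ne (Subgroup.eq_of_le_of_card_ge hM'H (by omega))
      have hXM' : X ≤ M.map H.subtype := by
        intro x hx
        have h1 : (⟨x, hXH hx⟩ : ↥H) ∈ M := hXM (by exact hx)
        exact ⟨⟨x, hXH hx⟩, h1, rfl⟩
      have hXhM' : X.map (MulAut.conj h).toMonoidHom ≤ M.map H.subtype := by
        rintro _ ⟨x, hx, rfl⟩
        have h1 : (⟨x, hXH hx⟩ : ↥H) ∈ M := hXM (by exact hx)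
        have h2 := hMn.conj_mem _ h1 ⟨h, hh⟩
        exact ⟨_, h2, rfl⟩
      exact ih (M.map H.subtype) hcard X hX _ (hinv h X hX) hXM' hXhM' (Ne.symm hXh)
    have hRneH : R ≠ H := by
      intro h
      apply hTN
      have h1 : T ≤ R := h ▸ hTH
      have h2 : T = ⊥ := by
        rw [eq_bot_iff, ← hRT]; exact le_inf h1 le_rfl
      rw [h2]; exact bot_le
    have hTneH : T ≠ H := by
      intro h
      apply hRN
      have h1 : R ≤ T := h ▸ hRH
      have h2 : R = ⊥ := by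
        rw [eq_bot_iff, ← hRT]; exact le_inf le_rfl h1
      rw [h2]; exact bot_le
    obtain ⟨x, hxR, hxN⟩ := SetLike.not_le_iff_exists.mp hRN
    obtain ⟨t, htT, htN⟩ := SetLike.not_le_iff_exists.mp hTN
    obtain ⟨y', hy'⟩ := exists_sq_ne_one (hΦ R hR)
    refine core R T (Subgroup.normalizer (R : Set S)) (Subgroup.normalizer (T : Set S))
      ?_ ?_ ?_ ?_ ?_ ?_ ?_ ?_ ?_ x hxR hxN t htT htN (y' : S) y'.2 ?_
    · intro g hgR hgT
      have h1 : g ∈ R ⊓ T := ⟨hgR, hgT⟩
      rw [hRT] at h1; exact h1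
    · intro g hg r hr; exact (Subgroup.mem_normalizer_iff.mp hg r).mp hr
    · intro g hg r hr; exact (Subgroup.mem_normalizer_iff.mp hg r).mp hr
    · intro g hg r hr hgr; exact Cfsg.Agent.Lib.Helper13.ti_elem R (hTI R hR) g hg r hr hgr
    · intro g hg r hr hgr; exact Cfsg.Agent.Lib.Helper13.ti_elem T (hTI T hT) g hg r hr hgr
    · intro t ht htN r hr r' hr'
      have hne' : R.map (MulAut.conj t).toMonoidHom ≠ R := fun h =>
        htN (Cfsg.Agent.Lib.Helper13.mem_normalizer_of_map_conj_eq R t h)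
      have hc := ha R hR hRH hRneH t (hTH ht) hne'
      rw [Subgroup.commutator_eq_bot_iff_le_centralizer] at hc
      exact Subgroup.mem_centralizer_iff.mp (hc hr') (t * r * t⁻¹)
        (Cfsg.Agent.Lib.Helper13.conj_mem_map_conj R t r hr)
    · intro x hx hxN t ht t' ht'
      have hne' : T.map (MulAut.conj x).toMonoidHom ≠ T := fun h =>
        hxN (Cfsg.Agent.Lib.Helper13.mem_normalizer_of_map_conj_eq T x h)
      have hc := ha T hT hTH hTneH x (hRH hx) hne'
      rw [Subgroup.commutator_eq_bot_iff_le_centralizer] at hc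
      exact Subgroup.mem_centralizer_iff.mp (hc ht') (x * t * x⁻¹)
        (Cfsg.Agent.Lib.Helper13.conj_mem_map_conj T x t ht)
    · intro r _; exact hS r
    · intro t _; exact hS t
    · intro h
      apply hy'
      exact Subtype.ext (by simpa using h)

/-- Let S be a finite 2-group and Δ a set of subgroups of S closed under conjugation by S, all of the same order, each with nontrivial Frattini subgroup, and such that two distinct members of Δ meet trivially. Then any two distinct members of Δ commute elementwise. -/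
theorem result {S : Type*} [Group S] [Finite S] (hS : IsPGroup 2 S)
    (Δ : Set (Subgroup S)) (hinv : ∀ s : S, ∀ R ∈ Δ, R.map (MulAut.conj s).toMonoidHom ∈ Δ)
    (hΦ : ∀ R ∈ Δ, frattini ↥R ≠ ⊥) (hord : ∀ R ∈ Δ, ∀ T ∈ Δ, Nat.card ↥R = Nat.card ↥T)
    (hti : ∀ R ∈ Δ, ∀ T ∈ Δ, R = T ∨ R ⊓ T = ⊥) :
    ∀ R ∈ Δ, ∀ T ∈ Δ, R ≠ T → ⁅R, T⁆ = ⊥ := by
  intro R hR T hT hne
  exact main hS Δ hinv hΦ hord hti (Nat.card S) ⊤ (Subgroup.card_le_card_group ⊤) R hR T hT le_top le_top hne

end Cfsg.Agent.S1782
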