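import Cfsg.Statements.S1783
import Cfsg.Agent.S1782
import Cfsg.Agent.Lib.Helper11.Bender

set_option autoImplicit false
open Cfsg

namespace Cfsg.Agent.S1783

open scoped commutatorElement

/-- generalisation of the main induction of S1782 to 2-subgroups of an arbitrary finite group -/
theorem main' {G : Type*} [Group G] [Finite G]
    (Δ : Set (Subgroup G)) (hinv : ∀ s : G, ∀ R ∈ Δ, R.map (MulAut.conj s).toMonoidHom ∈ Δ)
    (hsq : ∀ R ∈ Δ, ∃ r ∈ R, r ^ 2 ≠ 1) (hord : ∀ R ∈ Δ, ∀ T ∈ Δ, Nat.card ↥R = Nat.card ↥T)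
    (hti : ∀ R ∈ Δ, ∀ T ∈ Δ, R = T ∨ R ⊓ T = ⊥) :
    ∀ n : ℕ, ∀ H : Subgroup G, IsPGroup 2 ↥H → Nat.card ↥H ≤ n → ∀ R ∈ Δ, ∀ T ∈ Δ, R ≤ H → T ≤ H →
      R ≠ T → ⁅R, T⁆ = ⊥ := by
  classical
  have hTI : ∀ R ∈ Δ, ∀ h : G, R.map (MulAut.conj h).toMonoidHom = R ∨
      R.map (MulAut.conj h).toMonoidHom ⊓ R = ⊥ :=
    fun R hR h => hti _ (hinv h R hR) R hR
  intro n
  induction n with
  | zero =>
    intro H _ hH
    have := Nat.card_pos (α := ↥H)
    omega
  | succ n ih =>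
    intro H hH2 hH R hR T hT hRH hTH hne
    by_contra hcomm
    have hRT : R ⊓ T = ⊥ := (hti R hR T hT).resolve_left hne
    have hR2 : IsPGroup 2 ↥R := hH2.to_le hRH
    have hT2 : IsPGroup 2 ↥T := hH2.to_le hTH
    have hTN : ¬ T ≤ Subgroup.normalizer (R : Set G) := fun h =>
      hcomm (Cfsg.Agent.S1757.result 2 R T hR2 hT2 (hTI R hR) (hTI T hT) (hord R hR T hT).le hRT h)
    have hRN : ¬ R ≤ Subgroup.normalizer (T : Set G) := fun h =>
      hcomm (by
        rw [Subgroup.commutator_comm]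
        exact Cfsg.Agent.S1757.result 2 T R hT2 hR2 (hTI T hT) (hTI R hR) (hord T hT R hR).le
          (by rw [inf_comm]; exact hRT) h)
    have ha : ∀ X ∈ Δ, X ≤ H → X ≠ H → ∀ h ∈ H, X.map (MulAut.conj h).toMonoidHom ≠ X →
        ⁅X, X.map (MulAut.conj h).toMonoidHom⁆ = ⊥ := by
      intro X hX hXH hXne h hh hXh
      have hnil : Group.IsNilpotent ↥H := hH2.isNilpotent
      have hX' : X.subgroupOf H ≠ ⊤ := by
        rw [Ne, Subgroup.subgroupOf_eq_top]
        intro hle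
        exact hXne (le_antisymm hXH hle)
      obtain ⟨M, hMco, hXM⟩ := (eq_top_or_exists_le_coatom (X.subgroupOf H)).resolve_left hX'
      have hMn : M.Normal :=
        Subgroup.NormalizerCondition.normal_of_coatom M (Group.normalizerCondition_of_isNilpotent (G := ↥H)) hMco
      have hM'H : M.map H.subtype ≤ H := Subgroup.map_subtype_le M
      have hM'ne : M.map H.subtype ≠ H := by
        intro heq
        apply hMco.1
        rw [eq_top_iff]
        intro y _
        have hy : (y : G) ∈ M.map H.subtype := by rw [heq]; exact y.2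
        obtain ⟨m, hm, hmy⟩ := hy
        have hmy' : m = y := Subtype.ext hmy
        rw [← hmy']; exact hm
      have hcard : Nat.card ↥(M.map H.subtype) ≤ n := by
        by_contra hc
        push Not at hc
        exact hM'ne (Subgroup.eq_of_le_of_card_ge hM'H (by omega))
      have hXM' : X ≤ M.map H.subtype := by
        intro x hx
        have h1 : (⟨x, hXH hx⟩ : ↥H) ∈ M := hXM (by exact hx)
        exact ⟨⟨x, hXH hx⟩, h1, rfl⟩
      have hXhM' : X.map (MulAut.conj h).toMonoidHom ≤ M.map H.subtype := by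
        rintro _ ⟨x, hx, rfl⟩
        have h1 : (⟨x, hXH hx⟩ : ↥H) ∈ M := hXM (by exact hx)
        have h2 := hMn.conj_mem _ h1 ⟨h, hh⟩
        exact ⟨_, h2, rfl⟩
      exact ih (M.map H.subtype) (hH2.to_le hM'H) hcard X hX _ (hinv h X hX) hXM' hXhM' (Ne.symm hXh)
    have hRneH : R ≠ H := by
      intro h
      apply hTN
      have h1 : T ≤ R := h ▸ hTH
      have h2 : T = ⊥ := by
        rw [eq_bot_iff, ← hRT]; exact le_inf h1 le_rfl
      rw [h2]; exact bot_le
    have hTneH : T ≠ H := by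
      intro h
      apply hRN
      have h1 : R ≤ T := h ▸ hRH
      have h2 : R = ⊥ := by
        rw [eq_bot_iff, ← hRT]; exact le_inf le_rfl h1
      rw [h2]; exact bot_le
    obtain ⟨x, hxR, hxN⟩ := SetLike.not_le_iff_exists.mp hRN
    obtain ⟨t, htT, htN⟩ := SetLike.not_le_iff_exists.mp hTN
    obtain ⟨y, hyR, hy2⟩ := hsq R hR
    have hel : ∀ K : Subgroup G, K ≤ H → ∀ r ∈ K, ∃ k : ℕ, r ^ (2 ^ k) = 1 := by
      intro K hK r hr
      obtain ⟨k, hk⟩ := hH2 ⟨r, hK hr⟩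
      exact ⟨k, by simpa using congrArg Subtype.val hk⟩
    refine Cfsg.Agent.S1782.core R T (Subgroup.normalizer (R : Set G)) (Subgroup.normalizer (T : Set G))
      ?_ ?_ ?_ ?_ ?_ ?_ ?_ (hel R hRH) (hel T hTH) x hxR hxN t htT htN y hyR hy2
    · intro g hgR hgT
      have h1 : g ∈ R ⊓ T := ⟨hgR, hgT⟩
      rw [hRT] at h1; exact h1
    · intro g hg r hr; exact (Subgroup.mem_normalizer_iff.mp hg r).mp hr
    · intro g hg r hr; exact (Subgroup.mem_normalizer_iff.mp hg r).mp hr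
    · intro g hg r hr hgr; exact Cfsg.Agent.Lib.Helper13.ti_elem R (hTI R hR) g hg r hr hgr
    · intro g hg r hr hgr; exact Cfsg.Agent.Lib.Helper13.ti_elem T (hTI T hT) g hg r hr hgr
    · intro t ht htN r hr r' hr'
      have hne' : R.map (MulAut.conj t).toMonoidHom ≠ R := fun h =>
        htN (Cfsg.Agent.Lib.Helper13.mem_normalizer_of_map_conj_eq R t h)
      have hc := ha R hR hRH hRneH t (hTH ht) hne'
      rw [Subgroup.commutator_eq_bot_iff_le_centralizer] at hc
      exact Subgroup.mem_centralizer_iff.mp (hc hr') (t * r * t⁻¹)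
        (Cfsg.Agent.Lib.Helper13.conj_mem_map_conj R t r hr)
    · intro x hx hxN t ht t' ht'
      have hne' : T.map (MulAut.conj x).toMonoidHom ≠ T := fun h =>
        hxN (Cfsg.Agent.Lib.Helper13.mem_normalizer_of_map_conj_eq T x h)
      have hc := ha T hT hTH hTneH x (hRH hx) hne'
      rw [Subgroup.commutator_eq_bot_iff_le_centralizer] at hc
      exact Subgroup.mem_centralizer_iff.mp (hc ht') (x * t * x⁻¹)
        (Cfsg.Agent.Lib.Helper13.conj_mem_map_conj T x t ht)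

/-- closure of the squares of a subgroup -/
def sqc {X : Type*} [Group X] (P : Subgroup X) : Subgroup X :=
  Subgroup.closure ((fun x : X => x ^ 2) '' (P : Set X))

theorem sqc_le {X : Type*} [Group X] (P : Subgroup X) : sqc P ≤ P := by
  rw [sqc, Subgroup.closure_le]
  rintro _ ⟨x, hx, rfl⟩
  exact P.pow_mem hx 2

theorem sq_mem_sqc {X : Type*} [Group X] (P : Subgroup X) {x : X} (hx : x ∈ P) : x ^ 2 ∈ sqc P :=
  Subgroup.subset_closure ⟨x, hx, rfl⟩

theorem sqc_normal {X : Type*} [Group X] (P : Subgroup X) (hP : P.Normal) : (sqc P).Normal := by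
  constructor
  intro n hn g
  unfold sqc at hn ⊢
  induction hn using Subgroup.closure_induction with
  | mem x hx =>
    obtain ⟨y, hy, rfl⟩ := hx
    apply Subgroup.subset_closure
    exact ⟨g * y * g⁻¹, hP.conj_mem y hy g, by simp [conj_pow]⟩
  | one => simp
  | mul a b _ _ iha ihb =>
    have e : g * (a * b) * g⁻¹ = (g * a * g⁻¹) * (g * b * g⁻¹) := by group
    rw [e]; exact mul_mem iha ihb
  | inv a _ iha =>
    have e : g * a⁻¹ * g⁻¹ = (g * a * g⁻¹)⁻¹ := by group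
    rw [e]; exact inv_mem iha

theorem sqc_card_lt {X : Type*} [Group X] [Finite X] (P : Subgroup X) (hP2 : IsPGroup 2 ↥P)
    (hne : P ≠ ⊥) : Nat.card ↥(sqc P) < Nat.card ↥P := by
  obtain ⟨n, hn⟩ := IsPGroup.iff_card.mp hP2
  have hn0 : n ≠ 0 := by
    rintro rfl
    apply hne
    exact Subgroup.eq_bot_of_card_eq P (by simpa using hn)
  obtain ⟨M0, hM0⟩ := Sylow.exists_subgroup_card_pow_prime (G := ↥P) 2 (n := n - 1)
    (by rw [hn]; exact pow_dvd_pow 2 (Nat.sub_le n 1))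
  have hidx : M0.index = 2 := by
    have h := M0.card_mul_index
    rw [hM0, hn] at h
    have e : 2 ^ n = 2 ^ (n - 1) * 2 := by
      rw [← pow_succ]; congr 1; omega
    rw [e] at h
    exact Nat.eq_of_mul_eq_mul_left (by positivity) h
  have hle : sqc P ≤ M0.map P.subtype := by
    rw [sqc, Subgroup.closure_le]
    rintro _ ⟨x, hx, rfl⟩
    exact ⟨⟨x, hx⟩ ^ 2, Subgroup.sq_mem_of_index_two hidx _, rfl⟩
  calc Nat.card ↥(sqc P) ≤ Nat.card ↥(M0.map P.subtype) := Subgroup.card_le_of_le hle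
    _ = Nat.card ↥M0 := Subgroup.card_map_of_injective P.subtype_injective
    _ = 2 ^ (n - 1) := hM0
    _ < 2 ^ n := Nat.pow_lt_pow_right (by norm_num) (by omega)
    _ = Nat.card ↥P := hn.symm

/-- `x` acts trivially on `P / sqc P` for every normal subgroup `P` inside `Q` -/
def Stab {X : Type*} [Group X] (Q : Subgroup X) (x : X) : Prop :=
  ∀ P : Subgroup X, P.Normal → P ≤ Q → ∀ q ∈ P, x * q * x⁻¹ * q⁻¹ ∈ sqc P

def stabSubgroup {X : Type*} [Group X] (Q : Subgroup X) : Subgroup X where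
  carrier := {x | Stab Q x}
  one_mem' := by
    intro P hP hPQ q hq
    simp
  mul_mem' := by
    intro x y hx hy P hP hPQ q hq
    have hN := sqc_normal P hP
    have e : x * y * q * (x * y)⁻¹ * q⁻¹ =
        (x * (y * q * y⁻¹ * q⁻¹) * x⁻¹) * (x * q * x⁻¹ * q⁻¹) := by group
    rw [e]
    exact (sqc P).mul_mem (hN.conj_mem _ (hy P hP hPQ q hq) x) (hx P hP hPQ q hq)
  inv_mem' := by
    intro x hx P hP hPQ q hq
    have h1 := hx P hP hPQ (x⁻¹ * q * x) (by have := hP.conj_mem q hq x⁻¹; simpa using this)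
    have e : x⁻¹ * q * x⁻¹⁻¹ * q⁻¹ = (x * (x⁻¹ * q * x) * x⁻¹ * (x⁻¹ * q * x)⁻¹)⁻¹ := by group
    rw [e]; exact (sqc P).inv_mem h1

theorem mem_stabSubgroup {X : Type*} [Group X] (Q : Subgroup X) (x : X) :
    x ∈ stabSubgroup Q ↔ Stab Q x := Iff.rfl

theorem stabSubgroup_normal {X : Type*} [Group X] (Q : Subgroup X) : (stabSubgroup Q).Normal := by
  constructor
  intro x hx g P hP hPQ q hq
  have hN := sqc_normal P hP
  have h1 := hx P hP hPQ (g⁻¹ * q * g) (by have := hP.conj_mem q hq g⁻¹; simpa using this)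
  have e : g * x * g⁻¹ * q * (g * x * g⁻¹)⁻¹ * q⁻¹ =
      g * (x * (g⁻¹ * q * g) * x⁻¹ * (g⁻¹ * q * g)⁻¹) * g⁻¹ := by group
  rw [e]; exact hN.conj_mem _ h1 g

theorem stab_odd_centralizes {X : Type*} [Group X] [Finite X] (Q : Subgroup X) (hQ2 : IsPGroup 2 ↥Q)
    (x : X) (hx : Stab Q x) (m : ℕ) (hm : Odd m) (hxm : x ^ m = 1) :
    ∀ n : ℕ, ∀ P : Subgroup X, P.Normal → P ≤ Q → Nat.card ↥P ≤ n → ∀ q ∈ P, x * q * x⁻¹ = q := by
  intro n
  induction n with
  | zero =>
    intro P _ _ hc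
    have := Nat.card_pos (α := ↥P)
    omega
  | succ n ih =>
    intro P hP hPQ hc q hq
    by_cases hbot : P = ⊥
    · rw [hbot, Subgroup.mem_bot] at hq
      rw [hq]; group
    · have hlt := sqc_card_lt P (hQ2.to_le hPQ) hbot
      have hcen := ih (sqc P) (sqc_normal P hP) ((sqc_le P).trans hPQ) (by omega)
      have hcS : x * q * x⁻¹ * q⁻¹ ∈ sqc P := hx P hP hPQ q hq
      generalize hc_def : x * q * x⁻¹ * q⁻¹ = c at hcS
      have hxc : x * c * x⁻¹ = c := hcen c hcS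
      have hpow : ∀ j : ℕ, x ^ j * q * (x ^ j)⁻¹ = c ^ j * q := by
        intro j
        induction j with
        | zero => simp
        | succ j ihj =>
          calc x ^ (j + 1) * q * (x ^ (j + 1))⁻¹ = x * (x ^ j * q * (x ^ j)⁻¹) * x⁻¹ := by
                rw [pow_succ']; group
            _ = x * (c ^ j * q) * x⁻¹ := by rw [ihj]
            _ = (x * c * x⁻¹) ^ j * (x * q * x⁻¹ * q⁻¹) * q := by rw [conj_pow]; group
            _ = c ^ (j + 1) * q := by rw [hxc, hc_def, pow_succ]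
      have hcm : c ^ m = 1 := by
        have h1 := hpow m
        rw [hxm] at h1
        have h2 : c ^ m * q = q := by simpa using h1.symm
        exact mul_eq_right.mp h2
      have hcQ : c ∈ Q := hPQ (sqc_le P hcS)
      obtain ⟨k, hk⟩ := hQ2 ⟨c, hcQ⟩
      have hk' : c ^ (2 ^ k) = 1 := by simpa using congrArg Subtype.val hk
      have hc1 : c = 1 := by
        have hcop : Nat.Coprime (2 ^ k) m := Nat.Coprime.pow_left k (Nat.coprime_two_left.mpr hm)
        have h3 : c ^ (Nat.gcd (2 ^ k) m) = 1 := pow_gcd_eq_one.mpr ⟨hk', hcm⟩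
        rw [hcop, pow_one] at h3
        exact h3
      calc x * q * x⁻¹ = c * q := by rw [← hc_def]; group
        _ = q := by rw [hc1, one_mul]

theorem stab_le {X : Type*} [Group X] [Finite X] (Q : Subgroup X) (hQn : Q.Normal)
    (hQ2 : IsPGroup 2 ↥Q) (hQc : Subgroup.centralizer (Q : Set X) ≤ Q)
    (hQmax : ∀ K : Subgroup X, K.Normal → IsPGroup 2 ↥K → K ≤ Q) : stabSubgroup Q ≤ Q := by
  apply hQmax _ (stabSubgroup_normal Q)
  have hodd : ∀ x, Stab Q x → ∀ m, Odd m → x ^ m = 1 → x = 1 := by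
    intro x hx m hm hxm
    have hcen : x ∈ Subgroup.centralizer (Q : Set X) := by
      rw [Subgroup.mem_centralizer_iff]
      intro q hq
      have hxq := stab_odd_centralizes Q hQ2 x hx m hm hxm (Nat.card ↥Q) Q hQn le_rfl le_rfl q hq
      calc q * x = (x * q * x⁻¹) * x := by rw [hxq]
        _ = x * q := by group
    have hxQ := hQc hcen
    obtain ⟨k, hk⟩ := hQ2 ⟨x, hxQ⟩
    have hk' : x ^ (2 ^ k) = 1 := by simpa using congrArg Subtype.val hk
    have hcop : Nat.Coprime (2 ^ k) m := Nat.Coprime.pow_left k (Nat.coprime_two_left.mpr hm)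
    have h3 : x ^ (Nat.gcd (2 ^ k) m) = 1 := pow_gcd_eq_one.mpr ⟨hk', hxm⟩
    rw [hcop, pow_one] at h3
    exact h3
  rintro ⟨x, hx⟩
  have hn : orderOf x ≠ 0 := (orderOf_pos x).ne'
  obtain ⟨k, m, hm, hkm⟩ := Nat.exists_eq_two_pow_mul_odd hn
  refine ⟨k, Subtype.ext ?_⟩
  have h1 : (x ^ (2 ^ k)) ^ m = 1 := by rw [← pow_mul, ← hkm, pow_orderOf_eq_one]
  exact hodd (x ^ 2 ^ k) ((stabSubgroup Q).pow_mem hx _) m hm h1

theorem conj_comp {X : Type*} [Group X] (A : Subgroup X) (s g : X) :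
    (A.map (MulAut.conj g).toMonoidHom).map (MulAut.conj s).toMonoidHom =
      A.map (MulAut.conj (s * g)).toMonoidHom := by
  rw [Subgroup.map_map]
  congr 1
  ext x
  simp [mul_assoc]

theorem conj_comm {X : Type*} [Group X] [Finite X] (A : Subgroup X)
    (hti : ∀ h : X, A.map (MulAut.conj h).toMonoidHom = A ∨ A.map (MulAut.conj h).toMonoidHom ⊓ A = ⊥)
    (a0 : X) (ha0 : a0 ∈ A) (ha02 : a0 ^ 2 ≠ 1)
    (H : Subgroup X) (hH : IsPGroup 2 ↥H) (g h : X)
    (hg : A.map (MulAut.conj g).toMonoidHom ≤ H) (hh : A.map (MulAut.conj h).toMonoidHom ≤ H)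
    (hne : A.map (MulAut.conj g).toMonoidHom ≠ A.map (MulAut.conj h).toMonoidHom) :
    ⁅A.map (MulAut.conj g).toMonoidHom, A.map (MulAut.conj h).toMonoidHom⁆ = ⊥ := by
  refine main' {R | ∃ g : X, R = A.map (MulAut.conj g).toMonoidHom} ?_ ?_ ?_ ?_ (Nat.card ↥H) H hH le_rfl
    _ ⟨g, rfl⟩ _ ⟨h, rfl⟩ hg hh hne
  · rintro s R ⟨g, rfl⟩
    exact ⟨s * g, conj_comp A s g⟩
  · rintro R ⟨g, rfl⟩
    refine ⟨g * a0 * g⁻¹, Cfsg.Agent.Lib.Helper13.conj_mem_map_conj A g a0 ha0, ?_⟩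
    rw [conj_pow]
    intro h1
    exact ha02 (conj_eq_one_iff.mp h1)
  · rintro R ⟨g, rfl⟩ T ⟨h, rfl⟩
    rw [Subgroup.card_map_of_injective (MulAut.conj g).injective,
      Subgroup.card_map_of_injective (MulAut.conj h).injective]
  · rintro R ⟨g, rfl⟩ T ⟨h, rfl⟩
    have e : A.map (MulAut.conj g).toMonoidHom =
        (A.map (MulAut.conj (h⁻¹ * g)).toMonoidHom).map (MulAut.conj h).toMonoidHom := by
      rw [conj_comp]
      have e1 : h * (h⁻¹ * g) = g := by group
      rw [e1]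
    rcases hti (h⁻¹ * g) with h1 | h1
    · left; rw [e, h1]
    · right
      rw [e, ← Subgroup.map_inf _ _ _ (MulAut.conj h).injective, h1, Subgroup.map_bot]

theorem sqc_map_conj_of_mem_normalizer {X : Type*} [Group X] (A : Subgroup X) (n : X)
    (hn : n ∈ Subgroup.normalizer (A : Set X)) :
    (sqc A).map (MulAut.conj n).toMonoidHom = sqc A := by
  unfold sqc
  rw [MonoidHom.map_closure]
  congr 1
  ext z
  constructor
  · rintro ⟨_, ⟨a, ha, rfl⟩, rfl⟩
    refine ⟨n * a * n⁻¹, (Subgroup.mem_normalizer_iff.mp hn a).mp ha, ?_⟩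
    simp [conj_pow]
  · rintro ⟨a, ha, rfl⟩
    refine ⟨(n⁻¹ * a * n) ^ 2, ⟨n⁻¹ * a * n, ?_, rfl⟩, ?_⟩
    · have h1 := (Subgroup.mem_normalizer_iff.mp (inv_mem hn) a).mp ha
      simpa using h1
    · show n * (n⁻¹ * a * n) ^ 2 * n⁻¹ = a ^ 2
      rw [← conj_pow]
      congr 1
      group

theorem sqc_ti {X : Type*} [Group X] (A : Subgroup X)
    (hti : ∀ h : X, A.map (MulAut.conj h).toMonoidHom = A ∨ A.map (MulAut.conj h).toMonoidHom ⊓ A = ⊥) :
    ∀ h : X, (sqc A).map (MulAut.conj h).toMonoidHom = sqc A ∨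
      (sqc A).map (MulAut.conj h).toMonoidHom ⊓ sqc A = ⊥ := by
  intro h
  rcases hti h with h1 | h1
  · left
    exact sqc_map_conj_of_mem_normalizer A h
      (Cfsg.Agent.Lib.Helper13.mem_normalizer_of_map_conj_eq A h h1)
  · right
    rw [eq_bot_iff, ← h1]
    exact inf_le_inf (Subgroup.map_mono (sqc_le A)) (sqc_le A)

/-- Let X be a finite group whose generalized Fitting subgroup equals its largest normal 2-subgroup Q, and let A be an abelian 2-subgroup of X such that every conjugate of A equals A or meets A trivially. Let B be the subgroup generated by the squares of the elements of A. Then B lies in Q, and if B is not an elementary abelian 2-group then the normal closure of B in X is commutative. -/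
theorem result {X : Type*} [Group X] [Finite X]
    (hX : Cfsg.generalizedFittingSubgroup X = Cfsg.pCore 2 X) (A : Subgroup X) (hA2 : IsPGroup 2 ↥A) (hAa : IsMulCommutative ↥A)
    (hti : ∀ h : X, A.map (MulAut.conj h).toMonoidHom = A ∨ A.map (MulAut.conj h).toMonoidHom ⊓ A = ⊥) :
    Subgroup.closure ((fun a : X => a ^ 2) '' (A : Set X)) ≤ Cfsg.pCore 2 X ∧
      (¬ Cfsg.IsElementaryAbelian 2 (Subgroup.closure ((fun a : X => a ^ 2) '' (A : Set X))) →
        IsMulCommutative ↥(Subgroup.normalClosure ((fun a : X => a ^ 2) '' (A : Set X)))) := by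
  classical
  have hQn : (Cfsg.pCore 2 X).Normal := Subgroup.sSup_normal _ (fun _ h => h.1)
  have hQ2 : IsPGroup 2 ↥(Cfsg.pCore 2 X) := Cfsg.Agent.Lib.Helper11.pCore_isPGroup 2
  have hQc : Subgroup.centralizer (Cfsg.pCore 2 X : Set X) ≤ Cfsg.pCore 2 X := by
    have h := Cfsg.Agent.Lib.Helper11.centralizer_genFitting_le (G := X)
    rwa [hX] at h
  have hQmax : ∀ K : Subgroup X, K.Normal → IsPGroup 2 ↥K → K ≤ Cfsg.pCore 2 X := fun K hK hK2 =>
    Cfsg.Agent.Lib.Helper11.subnormal_pGroup_le_pCore 2 hK.isSubnormal hK2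
  generalize Cfsg.pCore 2 X = Q at hQn hQ2 hQc hQmax ⊢
  have hAcomm : ∀ x ∈ A, ∀ y ∈ A, x * y = y * x := fun x hx y hy => setLike_mul_comm hx hy
  change sqc A ≤ Q ∧ (¬ Cfsg.IsElementaryAbelian 2 (sqc A) →
    IsMulCommutative ↥(Subgroup.normalClosure ((fun a : X => a ^ 2) '' (A : Set X))))
  have part1 : sqc A ≤ Q := by
    unfold sqc
    rw [Subgroup.closure_le]
    rintro _ ⟨a, ha, rfl⟩
    show a ^ 2 ∈ Q
    by_cases hsq : ∀ a ∈ A, a ^ 2 = 1
    · rw [hsq a ha]; exact Q.one_mem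
    · push Not at hsq
      obtain ⟨a0, ha0, ha02⟩ := hsq
      have hH2 : IsPGroup 2 ↥(A ⊔ Q) := by
        have := hQn
        exact IsPGroup.to_sup_of_normal_right hA2 hQ2
      have hquad : ∀ q ∈ Q, ∀ a ∈ A, ∀ a' ∈ A, a' * (q * a * q⁻¹) = (q * a * q⁻¹) * a' := by
        intro q hq a ha a' ha'
        by_cases hAq : A.map (MulAut.conj q).toMonoidHom = A
        · have h1 : q * a * q⁻¹ ∈ A := by
            rw [← hAq]; exact Cfsg.Agent.Lib.Helper13.conj_mem_map_conj A q a ha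
          exact hAcomm _ ha' _ h1
        · have h1 : A.map (MulAut.conj 1).toMonoidHom = A := by ext z; simp
          have hAqH : A.map (MulAut.conj q).toMonoidHom ≤ A ⊔ Q := by
            rintro _ ⟨z, hz, rfl⟩
            exact mul_mem (mul_mem (le_sup_right (a := A) hq) (le_sup_left (b := Q) hz))
              (inv_mem (le_sup_right (a := A) hq))
          have hc := conj_comm A hti a0 ha0 ha02 (A ⊔ Q) hH2 1 q (by rw [h1]; exact le_sup_left) hAqH
            (by rw [h1]; exact Ne.symm hAq)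
          rw [h1, Subgroup.commutator_eq_bot_iff_le_centralizer] at hc
          exact (Subgroup.mem_centralizer_iff.mp (hc ha') (q * a * q⁻¹)
            (Cfsg.Agent.Lib.Helper13.conj_mem_map_conj A q a ha)).symm
      apply stab_le Q hQn hQ2 hQc hQmax
      intro P hP hPQ q hq
      have hcP : a * q * a⁻¹ * q⁻¹ ∈ P := P.mul_mem (hP.conj_mem q hq a) (P.inv_mem hq)
      have hac : a * (a * q * a⁻¹ * q⁻¹) = (a * q * a⁻¹ * q⁻¹) * a := by
        have h1 := hquad q (hPQ hq) a⁻¹ (A.inv_mem ha) a ha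
        calc a * (a * q * a⁻¹ * q⁻¹) = a * (a * (q * a⁻¹ * q⁻¹)) := by group
          _ = a * ((q * a⁻¹ * q⁻¹) * a) := by rw [h1]
          _ = (a * q * a⁻¹ * q⁻¹) * a := by group
      have e : a ^ 2 * q * (a ^ 2)⁻¹ * q⁻¹ = (a * q * a⁻¹ * q⁻¹) ^ 2 := by
        rw [pow_two, pow_two]
        calc a * a * q * (a * a)⁻¹ * q⁻¹
            = a * (a * q * a⁻¹ * q⁻¹) * a⁻¹ * (a * q * a⁻¹ * q⁻¹) := by group
          _ = (a * q * a⁻¹ * q⁻¹) * a * a⁻¹ * (a * q * a⁻¹ * q⁻¹) := by rw [hac]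
          _ = (a * q * a⁻¹ * q⁻¹) * (a * q * a⁻¹ * q⁻¹) := by group
      rw [e]
      exact sq_mem_sqc P hcP
  refine ⟨part1, ?_⟩
  intro hnel
  have hBcomm : IsMulCommutative ↥(sqc A) := IsMulCommutative.of_setLike_mul_comm
    fun x hx y hy => hAcomm x (sqc_le A hx) y (sqc_le A hy)
  have hb0 : ∃ b0 ∈ sqc A, b0 ^ 2 ≠ 1 := by
    by_contra hcon
    push Not at hcon
    exact hnel ⟨hBcomm, hcon⟩
  obtain ⟨b0, hb0, hb02⟩ := hb0
  have hBQ : ∀ g : X, (sqc A).map (MulAut.conj g).toMonoidHom ≤ Q := by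
    rintro g _ ⟨z, hz, rfl⟩
    exact hQn.conj_mem z (part1 hz) g
  apply Subgroup.isMulCommutative_closure
  intro u hu v hv
  rw [Group.mem_conjugatesOfSet_iff] at hu hv
  obtain ⟨s, hs, hsu⟩ := hu
  obtain ⟨s', hs', hsv⟩ := hv
  rw [isConj_iff] at hsu hsv
  obtain ⟨g, rfl⟩ := hsu
  obtain ⟨h, rfl⟩ := hsv
  have hsB : s ∈ sqc A := Subgroup.subset_closure hs
  have hs'B : s' ∈ sqc A := Subgroup.subset_closure hs'
  by_cases heq : (sqc A).map (MulAut.conj g).toMonoidHom = (sqc A).map (MulAut.conj h).toMonoidHom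
  · have h1 : h * s' * h⁻¹ ∈ (sqc A).map (MulAut.conj g).toMonoidHom := by
      rw [heq]; exact Cfsg.Agent.Lib.Helper13.conj_mem_map_conj _ h s' hs'B
    obtain ⟨s'', hs'', hs''e⟩ := h1
    have h2 : h * s' * h⁻¹ = g * s'' * g⁻¹ := hs''e.symm
    rw [h2]
    have hc := hAcomm s (sqc_le A hsB) s'' (sqc_le A hs'')
    calc g * s * g⁻¹ * (g * s'' * g⁻¹) = g * (s * s'') * g⁻¹ := by group
      _ = g * (s'' * s) * g⁻¹ := by rw [hc]
      _ = g * s'' * g⁻¹ * (g * s * g⁻¹) := by group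
  · have hc := conj_comm (sqc A) (sqc_ti A hti) b0 hb0 hb02 Q hQ2 g h (hBQ g) (hBQ h) heq
    rw [Subgroup.commutator_eq_bot_iff_le_centralizer] at hc
    exact (Subgroup.mem_centralizer_iff.mp
      (hc (Cfsg.Agent.Lib.Helper13.conj_mem_map_conj _ g s hsB)) (h * s' * h⁻¹)
      (Cfsg.Agent.Lib.Helper13.conj_mem_map_conj _ h s' hs'B)).symm

end Cfsg.Agent.S1783
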