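import Mathlib
import Cfsg.Statements.S1784
import Cfsg.Agent.Lib.Helper2.ExtraIso
import Cfsg.Agent.Lib.Helper11.Bender

set_option autoImplicit false
open Cfsg

namespace Cfsg.Agent.S1784

/-- abstract setting: `H` behaves like an extraspecial 2-group with centre `{1,z}`, and `α` is an
involution normalizing `H`, centralizing `z` but not `H` -/
structure Es {G : Type*} [Group G] (H : Subgroup G) (z α : G) : Prop where
  zH : z ∈ H
  z1 : z ≠ 1
  z2 : z * z = 1
  zc : ∀ h ∈ H, h * z = z * h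
  comm : ∀ a ∈ H, ∀ b ∈ H, a * b * a⁻¹ * b⁻¹ = 1 ∨ a * b * a⁻¹ * b⁻¹ = z
  cent : ∀ a ∈ H, (∀ b ∈ H, a * b = b * a) → a = 1 ∨ a = z
  sq : ∀ a ∈ H, a * a = 1 ∨ a * a = z
  αn : ∀ h ∈ H, α * h * α⁻¹ ∈ H
  αz : α * z = z * α
  α2 : α * α = 1
  αnc : ¬ ∀ h ∈ H, α * h = h * α

/-- membership in `{1, z}` -/
def InZ {G : Type*} [Group G] (z x : G) : Prop := x = 1 ∨ x = z

section
variable {G : Type*} [Group G] {H : Subgroup G} {z α : G}

theorem inz_mul (s : Es H z α) {x y : G} (hx : InZ z x) (hy : InZ z y) : InZ z (x * y) := by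
  rcases hx with rfl | rfl <;> rcases hy with rfl | rfl
  · left; simp
  · right; simp
  · right; simp
  · left; exact s.z2

theorem inz_inv (s : Es H z α) {x : G} (hx : InZ z x) : InZ z x⁻¹ := by
  rcases hx with rfl | rfl
  · left; simp
  · right; exact inv_eq_of_mul_eq_one_left s.z2

theorem inz_mem (s : Es H z α) {x : G} (hx : InZ z x) : x ∈ H := by
  rcases hx with rfl | rfl
  · exact H.one_mem
  · exact s.zH

theorem inz_commH (s : Es H z α) {x : G} (hx : InZ z x) {h : G} (hh : h ∈ H) : h * x = x * h := by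
  rcases hx with rfl | rfl
  · simp
  · exact s.zc h hh

theorem inz_conjH (s : Es H z α) {x : G} (hx : InZ z x) {h : G} (hh : h ∈ H) :
    h * x * h⁻¹ = x := by
  rw [inz_commH s hx hh]; simp

theorem inz_conjα (s : Es H z α) {x : G} (hx : InZ z x) : α * x * α⁻¹ = x := by
  rcases hx with rfl | rfl
  · simp
  · rw [s.αz]; simp

theorem α_inv (s : Es H z α) : α⁻¹ = α := inv_eq_of_mul_eq_one_left s.α2

theorem cmH (a d : G) (ha : a ∈ H) (hd : d ∈ H) : a * d * a⁻¹ * d⁻¹ ∈ H :=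
  H.mul_mem (H.mul_mem (H.mul_mem ha hd) (H.inv_mem ha)) (H.inv_mem hd)

theorem cm_mul (s : Es H z α) {a b d : G} (ha : a ∈ H) (hb : b ∈ H) (hd : d ∈ H) :
    (a * b) * d * (a * b)⁻¹ * d⁻¹ = (a * d * a⁻¹ * d⁻¹) * (b * d * b⁻¹ * d⁻¹) := by
  have e : (a * b) * d * (a * b)⁻¹ * d⁻¹
      = (a * (b * d * b⁻¹ * d⁻¹) * a⁻¹) * (a * d * a⁻¹ * d⁻¹) := by group
  have hz := s.comm b hb d hd
  rw [e, inz_conjH s hz ha]
  exact (inz_commH s hz (cmH a d ha hd)).symm

theorem cm_mul' (s : Es H z α) {a d e : G} (ha : a ∈ H) (hd : d ∈ H) (he : e ∈ H) :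
    a * (d * e) * a⁻¹ * (d * e)⁻¹ = (a * d * a⁻¹ * d⁻¹) * (a * e * a⁻¹ * e⁻¹) := by
  have e1 : a * (d * e) * a⁻¹ * (d * e)⁻¹
      = (a * d * a⁻¹ * d⁻¹) * (d * (a * e * a⁻¹ * e⁻¹) * d⁻¹) := by group
  rw [e1, inz_conjH s (s.comm a ha e he) hd]

theorem cm_inv (s : Es H z α) {a d : G} (ha : a ∈ H) (hd : d ∈ H) :
    a⁻¹ * d * a⁻¹⁻¹ * d⁻¹ = (a * d * a⁻¹ * d⁻¹)⁻¹ := by
  have h1 := cm_mul s ha (H.inv_mem ha) hd
  have h2 : (a * a⁻¹) * d * (a * a⁻¹)⁻¹ * d⁻¹ = 1 := by group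
  rw [h2] at h1
  exact eq_inv_of_mul_eq_one_right h1.symm

theorem cm_inv' (s : Es H z α) {a d : G} (ha : a ∈ H) (hd : d ∈ H) :
    a * d⁻¹ * a⁻¹ * d⁻¹⁻¹ = (a * d * a⁻¹ * d⁻¹)⁻¹ := by
  have h1 := cm_mul' s ha hd (H.inv_mem hd)
  have h2 : a * (d * d⁻¹) * a⁻¹ * (d * d⁻¹)⁻¹ = 1 := by group
  rw [h2] at h1
  exact eq_inv_of_mul_eq_one_right h1.symm

theorem kappa_mem (s : Es H z α) {h : G} (hh : h ∈ H) : α * h * α⁻¹ * h⁻¹ ∈ H :=
  H.mul_mem (s.αn h hh) (H.inv_mem hh)

theorem kappa_mul (a b : G) : α * (a * b) * α⁻¹ * (a * b)⁻¹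
    = (α * a * α⁻¹ * a⁻¹) * (a * (α * b * α⁻¹ * b⁻¹) * a⁻¹) := by group

theorem kappa_conj (s : Es H z α) (h : G) :
    α * (α * h * α⁻¹ * h⁻¹) * α⁻¹ = (α * h * α⁻¹ * h⁻¹)⁻¹ := by
  have e0 : α * (α * h * α⁻¹ * h⁻¹) * α⁻¹ * (α * h * α⁻¹ * h⁻¹)
      = (α * α) * h * (α * α)⁻¹ * h⁻¹ := by group
  exact eq_inv_of_mul_eq_one_left (e0.trans (by rw [s.α2]; group))

theorem kappa_kappa (s : Es H z α) {h : G} (hh : h ∈ H) :
    InZ z (α * (α * h * α⁻¹ * h⁻¹) * α⁻¹ * (α * h * α⁻¹ * h⁻¹)⁻¹) := by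
  rw [kappa_conj s h]
  have e2 : (α * h * α⁻¹ * h⁻¹)⁻¹ * (α * h * α⁻¹ * h⁻¹)⁻¹
      = ((α * h * α⁻¹ * h⁻¹) * (α * h * α⁻¹ * h⁻¹))⁻¹ := by group
  rw [e2]
  exact inz_inv s (s.sq _ (kappa_mem s hh))

/-- `[α,h]` commutes with every `d ∈ H` with `[α,d] ∈ {1,z}` -/
theorem kappa_comm (s : Es H z α) {h d : G} (hh : h ∈ H) (hd : d ∈ H)
    (hdz : InZ z (α * d * α⁻¹ * d⁻¹)) :
    (α * h * α⁻¹ * h⁻¹) * d = d * (α * h * α⁻¹ * h⁻¹) := by
  have hah : α * h * α⁻¹ ∈ H := s.αn h hh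
  have h1 := cm_mul s hah (H.inv_mem hh) hd
  have h2 := cm_inv s hh hd
  have e3 : (α * h * α⁻¹) * d * (α * h * α⁻¹)⁻¹ * d⁻¹
      = α * (h * (α⁻¹ * d * α) * h⁻¹ * (α⁻¹ * d * α)⁻¹) * α⁻¹ := by group
  have e4 : α⁻¹ * d * α = (α * d * α⁻¹ * d⁻¹) * d := by rw [α_inv s]; group
  have e5 : h * ((α * d * α⁻¹ * d⁻¹) * d) * h⁻¹ * ((α * d * α⁻¹ * d⁻¹) * d)⁻¹
      = h * d * h⁻¹ * d⁻¹ := by
    rw [cm_mul' s hh (inz_mem s hdz) hd, inz_conjH s hdz hh]; group
  rw [h2, e3, e4, e5, inz_conjα s (s.comm h hh d hd), mul_inv_cancel] at h1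
  exact mul_inv_eq_iff_eq_mul.1 (mul_inv_eq_one.1 h1)

theorem card_mul_relIndex' (K L : Subgroup G) (h : K ≤ L) :
    Nat.card K * K.relIndex L = Nat.card L := by
  have := Subgroup.relIndex_mul_relIndex (⊥ : Subgroup G) K L bot_le h
  rwa [Subgroup.relIndex_bot_left, Subgroup.relIndex_bot_left] at this

/-- centralizers of elements of `H` have index at most 2 in any subgroup `U ≤ H` -/
theorem idx2 [Finite G] (s : Es H z α) (U : Subgroup G) (hU : U ≤ H) {a : G} (ha : a ∈ H) :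
    Nat.card U ≤ 2 * Nat.card ↥(U ⊓ Subgroup.centralizer ({a} : Set G)) := by
  classical
  by_cases hall : ∀ b ∈ U, b * a = a * b
  · have hEq : U ⊓ Subgroup.centralizer ({a} : Set G) = U := by
      apply le_antisymm inf_le_left
      intro b hb
      exact ⟨hb, Subgroup.mem_centralizer_singleton_iff.2 (hall b hb)⟩
    rw [hEq]; omega
  · push Not at hall
    obtain ⟨b₀, hb₀, hne₀⟩ := hall
    have hcz : ∀ b ∈ U, b * a ≠ a * b → a * b * a⁻¹ * b⁻¹ = z := by
      intro b hb hne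
      rcases s.comm a ha b (hU hb) with h1 | h1
      · exfalso
        apply hne
        exact (mul_inv_eq_iff_eq_mul.1 (mul_inv_eq_one.1 h1)).symm
      · exact h1
    have hmem : ∀ b ∈ U, b * a ≠ a * b →
        b₀⁻¹ * b ∈ U ⊓ Subgroup.centralizer ({a} : Set G) := by
      intro b hb hne
      refine ⟨U.mul_mem (U.inv_mem hb₀) hb, ?_⟩
      show b₀⁻¹ * b ∈ Subgroup.centralizer ({a} : Set G)
      rw [Subgroup.mem_centralizer_singleton_iff]
      have h1 := cm_mul' s ha (H.inv_mem (hU hb₀)) (hU hb)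
      rw [cm_inv' s ha (hU hb₀), hcz b₀ hb₀ hne₀, hcz b hb hne,
        inv_eq_of_mul_eq_one_left s.z2, s.z2] at h1
      exact (mul_inv_eq_iff_eq_mul.1 (mul_inv_eq_one.1 h1)).symm
    have hinj : Function.Injective (fun b : U =>
        (if hb : (b : G) * a = a * b
          then ((⟨b, b.2, Subgroup.mem_centralizer_singleton_iff.2 hb⟩ :
            ↥(U ⊓ Subgroup.centralizer ({a} : Set G))), false)
          else ((⟨b₀⁻¹ * b, hmem b b.2 hb⟩ :
            ↥(U ⊓ Subgroup.centralizer ({a} : Set G))), true))) := by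
      intro b b' hbb
      by_cases h1 : (b : G) * a = a * b <;> by_cases h2 : (b' : G) * a = a * b'
      · simp only [dif_pos h1, dif_pos h2] at hbb
        exact Subtype.ext (congrArg (fun p : ↥(U ⊓ Subgroup.centralizer ({a} : Set G)) × Bool =>
          (p.1 : G)) hbb)
      · simp only [dif_pos h1, dif_neg h2] at hbb
        exact absurd (congrArg Prod.snd hbb) (by simp)
      · simp only [dif_neg h1, dif_pos h2] at hbb
        exact absurd (congrArg Prod.snd hbb) (by simp)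
      · simp only [dif_neg h1, dif_neg h2] at hbb
        have h3 : b₀⁻¹ * (b : G) = b₀⁻¹ * b' :=
          congrArg (fun p : ↥(U ⊓ Subgroup.centralizer ({a} : Set G)) × Bool => (p.1 : G)) hbb
        exact Subtype.ext (mul_left_cancel h3)
    have h3 := Nat.card_le_card_of_injective _ hinj
    rw [Nat.card_prod] at h3
    simp only [Nat.card_eq_fintype_card, Fintype.card_bool] at h3 ⊢
    omega

/-- centralizers of non-central elements of `H` are proper -/
theorem prop2 [Finite G] (s : Es H z α) {b : G} (hb : b ∈ H) (hbz : ¬ InZ z b) :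
    2 * Nat.card ↥(H ⊓ Subgroup.centralizer ({b} : Set G)) ≤ Nat.card H := by
  have hex : ∃ a ∈ H, b * a ≠ a * b := by
    by_contra hne
    push Not at hne
    exact hbz (s.cent b hb hne)
  obtain ⟨a, ha, hne⟩ := hex
  have h1 := card_mul_relIndex' (H ⊓ Subgroup.centralizer ({b} : Set G)) H inf_le_left
  have h2 : (H ⊓ Subgroup.centralizer ({b} : Set G)).relIndex H ≠ 1 := by
    intro h
    rw [Subgroup.relIndex_eq_one] at h
    have h3 : a ∈ Subgroup.centralizer ({b} : Set G) := (h ha).2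
    rw [Subgroup.mem_centralizer_singleton_iff] at h3
    exact hne h3.symm
  have h4 : (H ⊓ Subgroup.centralizer ({b} : Set G)).relIndex H ≠ 0 := by
    intro h
    rw [h, mul_zero] at h1
    exact (Nat.card_pos (α := H)).ne' h1.symm
  have h5 : 2 ≤ (H ⊓ Subgroup.centralizer ({b} : Set G)).relIndex H := by omega
  calc 2 * Nat.card ↥(H ⊓ Subgroup.centralizer ({b} : Set G))
      = Nat.card ↥(H ⊓ Subgroup.centralizer ({b} : Set G)) * 2 := by ring
    _ ≤ Nat.card ↥(H ⊓ Subgroup.centralizer ({b} : Set G))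
        * (H ⊓ Subgroup.centralizer ({b} : Set G)).relIndex H := Nat.mul_le_mul_left _ h5
    _ = Nat.card H := h1

end

section
variable {G : Type*} [Group G] {H : Subgroup G} {z α : G}

/-- double counting of commuting pairs: `|C_H(U)| |U| ≤ 2 |H|` for `z ∈ U ≤ H` -/
theorem card_cent_bound [Finite G] (s : Es H z α) (U : Subgroup G) (hU : U ≤ H) :
    Nat.card ↥(H ⊓ Subgroup.centralizer (U : Set G)) * Nat.card U ≤ 2 * Nat.card H := by
  classical
  have hfinG : Fintype G := Fintype.ofFinite G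
  have fcard : ∀ K : Subgroup G, (Finset.univ.filter (fun x : G => x ∈ K)).card = Nat.card K := by
    intro K
    rw [Nat.card_eq_fintype_card, Fintype.card_subtype]
  have hdc := Finset.sum_card_bipartiteAbove_eq_sum_card_bipartiteBelow
    (s := Finset.univ.filter (fun x : G => x ∈ H)) (t := Finset.univ.filter (fun x : G => x ∈ U))
    (r := fun a b : G => a * b = b * a)
  have hA : ∀ a ∈ Finset.univ.filter (fun x : G => x ∈ H),
      Nat.card U + (if a ∈ H ⊓ Subgroup.centralizer (U : Set G) then Nat.card U else 0)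
        ≤ 2 * ((Finset.univ.filter (fun x : G => x ∈ U)).bipartiteAbove
          (fun a b : G => a * b = b * a) a).card := by
    intro a ha
    have haH : a ∈ H := (Finset.mem_filter.1 ha).2
    have e : (Finset.univ.filter (fun x : G => x ∈ U)).bipartiteAbove
        (fun a b : G => a * b = b * a) a
        = Finset.univ.filter (fun x : G => x ∈ U ⊓ Subgroup.centralizer ({a} : Set G)) := by
      ext x
      simp only [Finset.bipartiteAbove, Finset.mem_filter, Finset.mem_univ, true_and,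
        Subgroup.mem_inf, Subgroup.mem_centralizer_singleton_iff]
      constructor
      · rintro ⟨h1, h2⟩; exact ⟨h1, h2.symm⟩
      · rintro ⟨h1, h2⟩; exact ⟨h1, h2.symm⟩
    rw [e, fcard]
    by_cases haR : a ∈ H ⊓ Subgroup.centralizer (U : Set G)
    · rw [if_pos haR]
      have hEq : U ⊓ Subgroup.centralizer ({a} : Set G) = U := by
        apply le_antisymm inf_le_left
        intro b hb
        exact ⟨hb, Subgroup.mem_centralizer_singleton_iff.2
          ((Subgroup.mem_centralizer_iff.1 haR.2 b hb))⟩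
      rw [hEq]; omega
    · rw [if_neg haR]
      have := idx2 s U hU haH
      omega
  have hB : ∀ b ∈ Finset.univ.filter (fun x : G => x ∈ U),
      2 * ((Finset.univ.filter (fun x : G => x ∈ H)).bipartiteBelow
          (fun a b : G => a * b = b * a) b).card
        ≤ Nat.card H + (if InZ z b then Nat.card H else 0) := by
    intro b hb
    have hbU : b ∈ U := (Finset.mem_filter.1 hb).2
    have e : (Finset.univ.filter (fun x : G => x ∈ H)).bipartiteBelow
        (fun a b : G => a * b = b * a) b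
        = Finset.univ.filter (fun x : G => x ∈ H ⊓ Subgroup.centralizer ({b} : Set G)) := by
      ext x
      simp only [Finset.bipartiteBelow, Finset.mem_filter, Finset.mem_univ, true_and,
        Subgroup.mem_inf, Subgroup.mem_centralizer_singleton_iff]
    rw [e, fcard]
    by_cases hbz : InZ z b
    · rw [if_pos hbz]
      have := Subgroup.card_le_of_le (inf_le_left : H ⊓ Subgroup.centralizer ({b} : Set G) ≤ H)
      omega
    · rw [if_neg hbz]
      have := prop2 s (hU hbU) hbz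
      omega
  have h1 := Finset.sum_le_sum hA
  have h2 := Finset.sum_le_sum hB
  rw [← Finset.mul_sum] at h1 h2
  rw [hdc] at h1
  have e1 : ∑ a ∈ Finset.univ.filter (fun x : G => x ∈ H),
      (Nat.card U + (if a ∈ H ⊓ Subgroup.centralizer (U : Set G) then Nat.card U else 0))
      = Nat.card H * Nat.card U
        + Nat.card ↥(H ⊓ Subgroup.centralizer (U : Set G)) * Nat.card U := by
    rw [Finset.sum_add_distrib, Finset.sum_const, smul_eq_mul, ← Finset.sum_filter,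
      Finset.sum_const, smul_eq_mul, fcard H]
    congr 2
    rw [← fcard]
    congr 1
    ext x
    simp only [Finset.mem_filter, Finset.mem_univ, true_and, Subgroup.mem_inf]
    tauto
  have e2 : ∑ b ∈ Finset.univ.filter (fun x : G => x ∈ U),
      (Nat.card H + (if InZ z b then Nat.card H else 0))
      ≤ Nat.card U * Nat.card H + 2 * Nat.card H := by
    rw [Finset.sum_add_distrib, Finset.sum_const, smul_eq_mul, ← Finset.sum_filter,
      Finset.sum_const, smul_eq_mul, fcard U]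
    have h3 : ((Finset.univ.filter (fun x : G => x ∈ U)).filter (fun b => InZ z b)).card ≤ 2 := by
      refine le_trans (Finset.card_le_card (?_ : _ ⊆ ({1, z} : Finset G))) Finset.card_le_two
      intro b hb
      rcases (Finset.mem_filter.1 hb).2 with rfl | rfl <;> simp
    exact Nat.add_le_add_left (Nat.mul_le_mul_right _ h3) _
  rw [e1] at h1
  nlinarith [h1, h2, e2]

/-- fibre counting for `h ↦ [α,h]` modulo `{1,z}` -/
theorem card_fiber_bound [Finite G] (s : Es H z α) (K Q₀ : Subgroup G)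
    (hK : ∀ h ∈ H, α * h * α⁻¹ * h⁻¹ ∈ K) (hzK : z ∈ K)
    (hQ₀ : ∀ q, q ∈ Q₀ ↔ q ∈ H ∧ InZ z (α * q * α⁻¹ * q⁻¹)) :
    2 * Nat.card H ≤ Nat.card K * Nat.card Q₀ := by
  classical
  have hzz : ∀ i : Bool, InZ z (if i then z else 1) := by
    intro i
    cases i
    · exact Or.inl rfl
    · exact Or.inr rfl
  let Ψ : ↥H × Bool → ↥K := fun x =>
    ⟨(α * x.1.1 * α⁻¹ * x.1.1⁻¹) * (if x.2 then z else 1),
      K.mul_mem (hK _ x.1.2) (by rcases hzz x.2 with h | h <;> rw [h]; exact K.one_mem; exact hzK)⟩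
  let rep : ↥K → ↥H × Bool := fun k =>
    if hk : ∃ y, Ψ y = k then Classical.choose hk else (1, false)
  have hrep : ∀ x, Ψ (rep (Ψ x)) = Ψ x := by
    intro x
    have hk : ∃ y, Ψ y = Ψ x := ⟨x, rfl⟩
    show Ψ (if hk : ∃ y, Ψ y = Ψ x then Classical.choose hk else (1, false)) = Ψ x
    rw [dif_pos hk]
    exact Classical.choose_spec hk
  have hkey : ∀ x y : ↥H × Bool, Ψ x = Ψ y → (y.1.1)⁻¹ * x.1.1 ∈ Q₀ := by
    intro x y hxy
    have h1 : (α * x.1.1 * α⁻¹ * x.1.1⁻¹) * (if x.2 then z else 1)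
        = (α * y.1.1 * α⁻¹ * y.1.1⁻¹) * (if y.2 then z else 1) := congrArg Subtype.val hxy
    rw [hQ₀]
    refine ⟨H.mul_mem (H.inv_mem y.1.2) x.1.2, ?_⟩
    have e : α * (y.1.1⁻¹ * x.1.1) * α⁻¹ * (y.1.1⁻¹ * x.1.1)⁻¹
        = y.1.1⁻¹ * ((α * y.1.1 * α⁻¹ * y.1.1⁻¹)⁻¹ * (α * x.1.1 * α⁻¹ * x.1.1⁻¹)) * y.1.1⁻¹⁻¹ := by
      group
    have e2 : (α * y.1.1 * α⁻¹ * y.1.1⁻¹)⁻¹ * (α * x.1.1 * α⁻¹ * x.1.1⁻¹)
        = (if y.2 then z else 1) * (if x.2 then z else 1)⁻¹ := by
      have h3 : α * x.1.1 * α⁻¹ * x.1.1⁻¹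
          = (α * y.1.1 * α⁻¹ * y.1.1⁻¹) * (if y.2 then z else 1) * (if x.2 then z else 1)⁻¹ :=
        eq_mul_inv_of_mul_eq h1
      rw [h3]; group
    have hz' := inz_mul s (hzz y.2) (inz_inv s (hzz x.2))
    rw [e, e2, inz_conjH s hz' (H.inv_mem y.1.2)]
    exact hz'
  have hinj : Function.Injective (fun x : ↥H × Bool =>
      ((Ψ x, (⟨(rep (Ψ x)).1.1⁻¹ * x.1.1, hkey x (rep (Ψ x)) (hrep x).symm⟩ : ↥Q₀)) : ↥K × ↥Q₀)) := by
    intro x y hxy
    have h1 : Ψ x = Ψ y := congrArg Prod.fst hxy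
    have h2 : (rep (Ψ x)).1.1⁻¹ * x.1.1 = (rep (Ψ y)).1.1⁻¹ * y.1.1 :=
      congrArg (fun p : ↥K × ↥Q₀ => (p.2 : G)) hxy
    rw [h1] at h2
    have h3 : x.1.1 = y.1.1 := mul_left_cancel h2
    have h4 : (α * x.1.1 * α⁻¹ * x.1.1⁻¹) * (if x.2 then z else 1)
        = (α * y.1.1 * α⁻¹ * y.1.1⁻¹) * (if y.2 then z else 1) := congrArg Subtype.val h1
    rw [h3] at h4
    have h5 := mul_left_cancel h4
    have h6 : x.2 = y.2 := by
      rcases hx2 : x.2 with _ | _ <;> rcases hy2 : y.2 with _ | _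
      · rfl
      · rw [hx2, hy2] at h5
        exact absurd h5.symm (by simpa using s.z1)
      · rw [hx2, hy2] at h5
        exact absurd h5 (by simpa using s.z1)
      · rfl
    exact Prod.ext (Subtype.ext h3) h6
  have h7 := Nat.card_le_card_of_injective _ hinj
  rw [Nat.card_prod, Nat.card_prod] at h7
  simp only [Nat.card_eq_fintype_card, Fintype.card_bool] at h7 ⊢
  omega

end

section
variable {G : Type*} [Group G] {H : Subgroup G} {z α : G}

theorem main_abs [Finite G] (s : Es H z α) (Q₀ : Subgroup G)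
    (hQ₀ : ∀ q, q ∈ Q₀ ↔ q ∈ H ∧ InZ z (α * q * α⁻¹ * q⁻¹)) :
    Subgroup.closure ((fun q : G => α * q * α⁻¹ * q⁻¹) '' (H : Set G))
      = (Subgroup.center ↥Q₀).map Q₀.subtype := by
  have hQ₀H : Q₀ ≤ H := fun q hq => ((hQ₀ q).1 hq).1
  have hK : ∀ h ∈ H, α * h * α⁻¹ * h⁻¹
      ∈ Subgroup.closure ((fun q : G => α * q * α⁻¹ * q⁻¹) '' (H : Set G)) :=
    fun h hh => Subgroup.subset_closure ⟨h, hh, rfl⟩
  have hKZ : Subgroup.closure ((fun q : G => α * q * α⁻¹ * q⁻¹) '' (H : Set G))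
      ≤ (Subgroup.center ↥Q₀).map Q₀.subtype := by
    rw [Subgroup.closure_le]
    rintro _ ⟨h, hh, rfl⟩
    have hmem : α * h * α⁻¹ * h⁻¹ ∈ Q₀ := (hQ₀ _).2 ⟨kappa_mem s hh, kappa_kappa s hh⟩
    refine ⟨⟨_, hmem⟩, ?_, rfl⟩
    rw [SetLike.mem_coe, Subgroup.mem_center_iff]
    intro d
    apply Subtype.ext
    show (d : G) * (α * h * α⁻¹ * h⁻¹) = (α * h * α⁻¹ * h⁻¹) * (d : G)
    exact (kappa_comm s hh (hQ₀H d.2) ((hQ₀ _).1 d.2).2).symm
  have hzK : z ∈ Subgroup.closure ((fun q : G => α * q * α⁻¹ * q⁻¹) '' (H : Set G)) := by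
    have hex : ∃ h ∈ H, α * h * α⁻¹ * h⁻¹ ≠ 1 := by
      by_contra hne
      push Not at hne
      apply s.αnc
      intro h hh
      exact mul_inv_eq_iff_eq_mul.1 (mul_inv_eq_one.1 (hne h hh))
    obtain ⟨h, hh, hne⟩ := hex
    by_cases hkz : α * h * α⁻¹ * h⁻¹ = z
    · rw [← hkz]; exact hK h hh
    · have hkH := kappa_mem s hh
      have hex2 : ∃ b ∈ H, (α * h * α⁻¹ * h⁻¹) * b ≠ b * (α * h * α⁻¹ * h⁻¹) := by
        by_contra hne2
        push Not at hne2
        rcases s.cent _ hkH hne2 with h1 | h1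
        · exact hne h1
        · exact hkz h1
      obtain ⟨b, hb, hbne⟩ := hex2
      have h1 : b * (α * h * α⁻¹ * h⁻¹) * b⁻¹ * (α * h * α⁻¹ * h⁻¹)⁻¹ = z := by
        rcases s.comm b hb _ hkH with h2 | h2
        · exfalso
          apply hbne
          exact (mul_inv_eq_iff_eq_mul.1 (mul_inv_eq_one.1 h2)).symm
        · exact h2
      have h3 : b * (α * h * α⁻¹ * h⁻¹) * b⁻¹
          ∈ Subgroup.closure ((fun q : G => α * q * α⁻¹ * q⁻¹) '' (H : Set G)) := by
        have e' : b * (α * h * α⁻¹ * h⁻¹) * b⁻¹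
            = (α * b * α⁻¹ * b⁻¹)⁻¹ * (α * (b * h) * α⁻¹ * (b * h)⁻¹) := by
          rw [kappa_mul (α := α) b h]; group
        rw [e']
        exact Subgroup.mul_mem _ (Subgroup.inv_mem _ (hK b hb)) (hK (b * h) (H.mul_mem hb hh))
      rw [← h1]
      exact Subgroup.mul_mem _ h3 (Subgroup.inv_mem _ (hK h hh))
  have hc1 := card_fiber_bound s _ Q₀ hK hzK hQ₀
  have hc2 := card_cent_bound s Q₀ hQ₀H
  have hZR : (Subgroup.center ↥Q₀).map Q₀.subtype ≤ H ⊓ Subgroup.centralizer (Q₀ : Set G) := by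
    rintro _ ⟨x, hx, rfl⟩
    refine ⟨hQ₀H x.2, ?_⟩
    show (x : G) ∈ Subgroup.centralizer (Q₀ : Set G)
    rw [Subgroup.mem_centralizer_iff]
    intro d hd
    have h1 := Subgroup.mem_center_iff.1 hx ⟨d, hd⟩
    exact congrArg Subtype.val h1
  have hpos : 0 < Nat.card Q₀ := Nat.card_pos
  have hle : Nat.card ↥(H ⊓ Subgroup.centralizer (Q₀ : Set G))
      ≤ Nat.card ↥(Subgroup.closure ((fun q : G => α * q * α⁻¹ * q⁻¹) '' (H : Set G))) := by
    by_contra hcon
    push Not at hcon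
    nlinarith
  exact Subgroup.eq_of_le_of_card_ge hKZ ((Subgroup.card_le_of_le hZR).trans hle)

theorem part_b (s : Es H z α) (Q₀ : Subgroup G)
    (hQ₀ : ∀ q, q ∈ Q₀ ↔ q ∈ H ∧ InZ z (α * q * α⁻¹ * q⁻¹))
    (hnot : ¬ Q₀ ≤ (H ⊓ Subgroup.centralizer ({α} : Set G)) ⊔ Subgroup.zpowers z) :
    ∃ q ∈ H, q * α * q⁻¹ = α * z := by
  rw [SetLike.not_le_iff_exists] at hnot
  obtain ⟨q, hq, hqn⟩ := hnot
  obtain ⟨hqH, hqz⟩ := (hQ₀ q).1 hq
  refine ⟨q, hqH, ?_⟩
  have hne : α * q * α⁻¹ * q⁻¹ ≠ 1 := by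
    intro h1
    apply hqn
    apply (le_sup_left : H ⊓ Subgroup.centralizer ({α} : Set G) ≤ _)
    refine ⟨hqH, ?_⟩
    show q ∈ Subgroup.centralizer ({α} : Set G)
    rw [Subgroup.mem_centralizer_singleton_iff]
    exact (mul_inv_eq_iff_eq_mul.1 (mul_inv_eq_one.1 h1)).symm
  have h2 : α * q * α⁻¹ * q⁻¹ = z := by
    rcases hqz with h | h
    · exact absurd h hne
    · exact h
  have e : q * α * q⁻¹ = (α * q * α⁻¹ * q⁻¹)⁻¹ * α := by group
  rw [e, h2, inv_eq_of_mul_eq_one_left s.z2]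
  exact s.αz.symm

end

theorem result {G : Type*} [Group G] [Finite G] (z : G) (hz : orderOf z = 2) (hQ : Cfsg.IsOfSymplecticType ↥(Cfsg.generalizedFittingSubgroup ↥(Subgroup.centralizer ({z} : Set G)))) (hE : Cfsg.IsExtraspecial 2 ↥(Cfsg.generalizedFittingSubgroup ↥(Subgroup.centralizer ({z} : Set G))))
    (α : G) (hα : orderOf α = 2) (hαC : α ∈ Subgroup.centralizer ({z} : Set G)) (hαQ : α ∉ (Cfsg.generalizedFittingSubgroup ↥(Subgroup.centralizer ({z} : Set G))).map (Subgroup.centralizer ({z} : Set G)).subtype)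
    (Q₀ : Subgroup G) (hQ₀ : ∀ q : G, q ∈ Q₀ ↔ (q ∈ (Cfsg.generalizedFittingSubgroup ↥(Subgroup.centralizer ({z} : Set G))).map (Subgroup.centralizer ({z} : Set G)).subtype ∧ α * q * α⁻¹ * q⁻¹ ∈ Subgroup.zpowers z)) :
    Subgroup.closure ((fun q : G => α * q * α⁻¹ * q⁻¹) '' ((Cfsg.generalizedFittingSubgroup ↥(Subgroup.centralizer ({z} : Set G))).map (Subgroup.centralizer ({z} : Set G)).subtype : Set G)) = (Subgroup.center ↥Q₀).map Q₀.subtype ∧
      (¬ Q₀ ≤ ((Cfsg.generalizedFittingSubgroup ↥(Subgroup.centralizer ({z} : Set G))).map (Subgroup.centralizer ({z} : Set G)).subtype ⊓ Subgroup.centralizer ({α} : Set G)) ⊔ Subgroup.zpowers z →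
        ∃ q ∈ (Cfsg.generalizedFittingSubgroup ↥(Subgroup.centralizer ({z} : Set G))).map (Subgroup.centralizer ({z} : Set G)).subtype, q * α * q⁻¹ = α * z) := by
  have hp2 : Fact (Nat.Prime 2) := ⟨Nat.prime_two⟩
  obtain ⟨z₀, hw⟩ := Cfsg.Agent.Lib.Helper2.wg_of_extraspecial hE
  have hz1 : z ≠ 1 := by
    intro h
    rw [h, orderOf_one] at hz
    norm_num at hz
  have hz2 : z * z = 1 := by rw [← pow_two, ← hz]; exact pow_orderOf_eq_one z
  have hα2 : α * α = 1 := by rw [← pow_two, ← hα]; exact pow_orderOf_eq_one α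
  have hFn : (Cfsg.generalizedFittingSubgroup ↥(Subgroup.centralizer ({z} : Set G))).Normal :=
    Cfsg.Agent.Lib.Helper11.genFitting_normal
  have hzC : z ∈ Subgroup.centralizer ({z} : Set G) := Subgroup.mem_centralizer_singleton_iff.2 rfl
  have hzcen : ∀ c : ↥(Subgroup.centralizer ({z} : Set G)), c * ⟨z, hzC⟩ = ⟨z, hzC⟩ * c := by
    intro c
    apply Subtype.ext
    exact Subgroup.mem_centralizer_singleton_iff.1 c.2
  have hzF : (⟨z, hzC⟩ : ↥(Subgroup.centralizer ({z} : Set G)))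
      ∈ Cfsg.generalizedFittingSubgroup ↥(Subgroup.centralizer ({z} : Set G)) := by
    have hN : (Subgroup.zpowers (⟨z, hzC⟩ : ↥(Subgroup.centralizer ({z} : Set G)))).Normal := by
      constructor
      intro x hx c
      obtain ⟨k, rfl⟩ := Subgroup.mem_zpowers_iff.1 hx
      have h1 : c * (⟨z, hzC⟩ : ↥(Subgroup.centralizer ({z} : Set G))) * c⁻¹ = ⟨z, hzC⟩ := by
        rw [hzcen c]; simp
      rw [← conj_zpow, h1]
      exact Subgroup.zpow_mem _ (Subgroup.mem_zpowers _) k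
    have hnil : Group.IsNilpotent
        (Subgroup.zpowers (⟨z, hzC⟩ : ↥(Subgroup.centralizer ({z} : Set G)))) := by
      have hp : IsPGroup 2 (Subgroup.zpowers (⟨z, hzC⟩ : ↥(Subgroup.centralizer ({z} : Set G)))) :=
        IsPGroup.of_card (n := 1) (by
          rw [Nat.card_zpowers, pow_one, ← hz]
          exact Subgroup.orderOf_mk z hzC)
      exact hp.isNilpotent
    have h1 : Subgroup.zpowers (⟨z, hzC⟩ : ↥(Subgroup.centralizer ({z} : Set G)))
        ≤ Cfsg.fittingSubgroup ↥(Subgroup.centralizer ({z} : Set G)) := le_sSup ⟨hN, hnil⟩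
    have h0 : Cfsg.fittingSubgroup ↥(Subgroup.centralizer ({z} : Set G))
        ≤ Cfsg.generalizedFittingSubgroup ↥(Subgroup.centralizer ({z} : Set G)) := by
      unfold Cfsg.generalizedFittingSubgroup
      exact le_sup_right
    exact h0 (h1 (Subgroup.mem_zpowers _))
  have hz₀ : ((z₀ : ↥(Subgroup.centralizer ({z} : Set G))) : G) = z := by
    have hcen : ∀ h : ↥(Cfsg.generalizedFittingSubgroup ↥(Subgroup.centralizer ({z} : Set G))),
        Commute (⟨⟨z, hzC⟩, hzF⟩ :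
          ↥(Cfsg.generalizedFittingSubgroup ↥(Subgroup.centralizer ({z} : Set G)))) h := by
      intro h
      apply Subtype.ext
      exact (hzcen h.1).symm
    obtain ⟨k, hk⟩ := hw.cent _ hcen
    rcases Nat.even_or_odd k with ⟨m, rfl⟩ | ⟨m, rfl⟩
    · exfalso
      rw [← two_mul, pow_mul, hw.zp, one_pow] at hk
      exact hz1 (congrArg (fun x :
        ↥(Cfsg.generalizedFittingSubgroup ↥(Subgroup.centralizer ({z} : Set G))) =>
          ((x : ↥(Subgroup.centralizer ({z} : Set G))) : G)) hk)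
    · rw [pow_succ, pow_mul, hw.zp, one_pow, one_mul] at hk
      exact (congrArg (fun x :
        ↥(Cfsg.generalizedFittingSubgroup ↥(Subgroup.centralizer ({z} : Set G))) =>
          ((x : ↥(Subgroup.centralizer ({z} : Set G))) : G)) hk).symm
  have hpow : ∀ k : ℕ,
      (((z₀ ^ k : ↥(Cfsg.generalizedFittingSubgroup ↥(Subgroup.centralizer ({z} : Set G))))
        : ↥(Subgroup.centralizer ({z} : Set G))) : G) = 1 ∨
      (((z₀ ^ k : ↥(Cfsg.generalizedFittingSubgroup ↥(Subgroup.centralizer ({z} : Set G))))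
        : ↥(Subgroup.centralizer ({z} : Set G))) : G) = z := by
    intro k
    rcases Nat.even_or_odd k with ⟨m, rfl⟩ | ⟨m, rfl⟩
    · left; rw [← two_mul, pow_mul, hw.zp, one_pow]; rfl
    · right; rw [pow_succ, pow_mul, hw.zp, one_pow, one_mul]; exact hz₀
  have s : Es ((Cfsg.generalizedFittingSubgroup ↥(Subgroup.centralizer ({z} : Set G))).map
      (Subgroup.centralizer ({z} : Set G)).subtype) z α :=
    { zH := ⟨⟨z, hzC⟩, hzF, rfl⟩
      z1 := hz1
      z2 := hz2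
      zc := by
        rintro _ ⟨y, -, rfl⟩
        exact Subgroup.mem_centralizer_singleton_iff.1 y.2
      comm := by
        rintro _ ⟨a, ha, rfl⟩ _ ⟨b, hb, rfl⟩
        obtain ⟨k, hk⟩ := hw.comm ⟨a, ha⟩ ⟨b, hb⟩
        have hk' : (a : G) * b * (a : G)⁻¹ * (b : G)⁻¹
            = (((z₀ ^ k : ↥(Cfsg.generalizedFittingSubgroup ↥(Subgroup.centralizer ({z} : Set G))))
              : ↥(Subgroup.centralizer ({z} : Set G))) : G) :=
          congrArg (fun x :
            ↥(Cfsg.generalizedFittingSubgroup ↥(Subgroup.centralizer ({z} : Set G))) =>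
              ((x : ↥(Subgroup.centralizer ({z} : Set G))) : G)) hk
        show (a : G) * b * (a : G)⁻¹ * (b : G)⁻¹ = 1 ∨ (a : G) * b * (a : G)⁻¹ * (b : G)⁻¹ = z
        rw [hk']; exact hpow k
      cent := by
        rintro _ ⟨a, ha, rfl⟩ hab
        obtain ⟨k, hk⟩ := hw.cent ⟨a, ha⟩
          (fun b => Subtype.ext (Subtype.ext (hab b.1.1 ⟨b.1, b.2, rfl⟩)))
        have hk' : (a : G)
            = (((z₀ ^ k : ↥(Cfsg.generalizedFittingSubgroup ↥(Subgroup.centralizer ({z} : Set G))))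
              : ↥(Subgroup.centralizer ({z} : Set G))) : G) :=
          congrArg (fun x :
            ↥(Cfsg.generalizedFittingSubgroup ↥(Subgroup.centralizer ({z} : Set G))) =>
              ((x : ↥(Subgroup.centralizer ({z} : Set G))) : G)) hk
        show (a : G) = 1 ∨ (a : G) = z
        rw [hk']; exact hpow k
      sq := by
        rintro _ ⟨a, ha, rfl⟩
        obtain ⟨k, hk⟩ := hw.pow ⟨a, ha⟩
        rw [pow_two] at hk
        have hk' : (a : G) * a
            = (((z₀ ^ k : ↥(Cfsg.generalizedFittingSubgroup ↥(Subgroup.centralizer ({z} : Set G))))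
              : ↥(Subgroup.centralizer ({z} : Set G))) : G) :=
          congrArg (fun x :
            ↥(Cfsg.generalizedFittingSubgroup ↥(Subgroup.centralizer ({z} : Set G))) =>
              ((x : ↥(Subgroup.centralizer ({z} : Set G))) : G)) hk
        show (a : G) * a = 1 ∨ (a : G) * a = z
        rw [hk']; exact hpow k
      αn := by
        rintro _ ⟨a, ha, rfl⟩
        exact ⟨⟨α, hαC⟩ * a * ⟨α, hαC⟩⁻¹, hFn.conj_mem a ha ⟨α, hαC⟩, rfl⟩
      αz := Subgroup.mem_centralizer_singleton_iff.1 hαC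
      α2 := hα2
      αnc := by
        intro hall
        apply hαQ
        have h1 : (⟨α, hαC⟩ : ↥(Subgroup.centralizer ({z} : Set G)))
            ∈ Subgroup.centralizer
              ((Cfsg.generalizedFittingSubgroup ↥(Subgroup.centralizer ({z} : Set G)))
                : Set ↥(Subgroup.centralizer ({z} : Set G))) := by
          rw [Subgroup.mem_centralizer_iff]
          intro h hh
          apply Subtype.ext
          exact (hall h.1 ⟨h, hh, rfl⟩).symm
        exact ⟨⟨α, hαC⟩, Cfsg.Agent.Lib.Helper11.centralizer_genFitting_le h1, rfl⟩ }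
  have hzp : ∀ x : G, x ∈ Subgroup.zpowers z ↔ InZ z x := by
    intro x
    constructor
    · intro hx
      have h2 : Nat.card (Subgroup.zpowers z) = 2 := by rw [Nat.card_zpowers, hz]
      obtain ⟨y, -, hu⟩ := (Nat.card_eq_two_iff' (1 : Subgroup.zpowers z)).1 h2
      by_cases h1 : x = 1
      · left; exact h1
      · right
        have a := hu ⟨z, Subgroup.mem_zpowers z⟩ (fun e => hz1 (congrArg Subtype.val e))
        have b := hu ⟨x, hx⟩ (fun e => h1 (congrArg Subtype.val e))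
        exact congrArg Subtype.val (b.trans a.symm)
    · rintro (rfl | rfl)
      · exact Subgroup.one_mem _
      · exact Subgroup.mem_zpowers _
  have hQ₀' : ∀ q, q ∈ Q₀ ↔ q ∈ (Cfsg.generalizedFittingSubgroup
      ↥(Subgroup.centralizer ({z} : Set G))).map (Subgroup.centralizer ({z} : Set G)).subtype
      ∧ InZ z (α * q * α⁻¹ * q⁻¹) := by
    intro q
    rw [hQ₀ q, hzp]
  exact ⟨main_abs s Q₀ hQ₀', fun hnot => part_b s Q₀ hQ₀' hnot⟩

end Cfsg.Agent.S1784
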