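import Cfsg.Statements.S1785

set_option autoImplicit false
open Cfsg

namespace Cfsg.Agent.S1785

variable {X : Type*} [Group X]

theorem ea_comm {A : Subgroup X} (hA : Cfsg.IsElementaryAbelian 2 A) :
    ∀ a ∈ A, ∀ b ∈ A, a * b = b * a := by
  intro a ha b hb
  have := hA.1
  exact setLike_mul_comm ha hb

theorem ea_sq {A : Subgroup X} (hA : Cfsg.IsElementaryAbelian 2 A) : ∀ a ∈ A, a * a = 1 := by
  intro a ha
  have h := hA.2 a ha
  rwa [pow_two] at h

theorem ea_mk {A : Subgroup X} (hc : ∀ a ∈ A, ∀ b ∈ A, a * b = b * a)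
    (hs : ∀ a ∈ A, a * a = 1) : Cfsg.IsElementaryAbelian 2 A :=
  ⟨IsMulCommutative.of_setLike_mul_comm hc, fun a ha => by rw [pow_two]; exact hs a ha⟩

theorem ea_mono {A B : Subgroup X} (hA : Cfsg.IsElementaryAbelian 2 A) (hBA : B ≤ A) :
    Cfsg.IsElementaryAbelian 2 B :=
  ea_mk (fun a ha b hb => ea_comm hA a (hBA ha) b (hBA hb)) (fun a ha => ea_sq hA a (hBA ha))

theorem closure_sq (S : Set X) (hc : ∀ x ∈ S, ∀ y ∈ S, x * y = y * x)
    (hs : ∀ x ∈ S, x * x = 1) : ∀ x ∈ Subgroup.closure S, x * x = 1 := by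
  have hcomm := Subgroup.isMulCommutative_closure hc
  intro x hx
  induction hx using Subgroup.closure_induction with
  | mem x hx => exact hs x hx
  | one => simp
  | mul x y hx hy ihx ihy =>
    have h1 : x * y = y * x := congrArg Subtype.val (hcomm.is_comm.comm ⟨x, hx⟩ ⟨y, hy⟩)
    calc x * y * (x * y) = x * y * (y * x) := by rw [h1]
      _ = x * (y * y) * x := by group
      _ = 1 := by rw [ihy, mul_one, ihx]
  | inv x hx ihx =>
    rw [← mul_inv_rev, ihx, inv_one]

theorem sup_zpowers_eq_closure (D : Subgroup X) (a : X) :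
    D ⊔ Subgroup.zpowers a = Subgroup.closure ((D : Set X) ∪ {a}) := by
  rw [Subgroup.closure_union, Subgroup.closure_eq, Subgroup.zpowers_eq_closure]

/-- adjoining a commuting involution keeps a subgroup elementary abelian -/
theorem ea_sup_zpowers {D : Subgroup X} (hD : Cfsg.IsElementaryAbelian 2 D) {a : X}
    (ha : a * a = 1) (hc : ∀ d ∈ D, a * d = d * a) :
    Cfsg.IsElementaryAbelian 2 (D ⊔ Subgroup.zpowers a) := by
  rw [sup_zpowers_eq_closure]
  have hcS : ∀ x ∈ (D : Set X) ∪ {a}, ∀ y ∈ (D : Set X) ∪ {a}, x * y = y * x := by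
    rintro x (hx | hx) y (hy | hy)
    · exact ea_comm hD x hx y hy
    · rw [Set.mem_singleton_iff] at hy; subst hy; exact (hc x hx).symm
    · rw [Set.mem_singleton_iff] at hx; subst hx; exact hc y hy
    · rw [Set.mem_singleton_iff] at hx hy; subst hx; subst hy; rfl
  have hsS : ∀ x ∈ (D : Set X) ∪ {a}, x * x = 1 := by
    rintro x (hx | hx)
    · exact ea_sq hD x hx
    · rw [Set.mem_singleton_iff] at hx; subst hx; exact ha
  exact ⟨Subgroup.isMulCommutative_closure hcS,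
    fun x hx => by rw [pow_two]; exact closure_sq _ hcS hsS x hx⟩

/-- elements of `D ⊔ zpowers a` -/
theorem mem_sup_zpowers {D : Subgroup X} {a : X} (ha : a * a = 1)
    (hc : ∀ d ∈ D, a * d = d * a) : ∀ b ∈ D ⊔ Subgroup.zpowers a, b ∈ D ∨ b * a ∈ D := by
  intro b hb
  rw [sup_zpowers_eq_closure] at hb
  induction hb using Subgroup.closure_induction with
  | mem x hx =>
    rcases hx with hx | hx
    · exact Or.inl hx
    · rw [Set.mem_singleton_iff] at hx; subst hx; right; rw [ha]; exact D.one_mem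
  | one => exact Or.inl D.one_mem
  | mul x y _ _ ihx ihy =>
    rcases ihx with hx | hx <;> rcases ihy with hy | hy
    · exact Or.inl (D.mul_mem hx hy)
    · right; rw [mul_assoc]; exact D.mul_mem hx hy
    · right
      have e : x * y * a = (x * a) * y := by
        rw [mul_assoc, mul_assoc, hc y hy]
      rw [e]; exact D.mul_mem hx hy
    · left
      have e : x * y = (x * a) * (y * a) := by
        rw [mul_assoc x a, hc (y * a) hy, mul_assoc y a a, ha, mul_one]
      rw [e]; exact D.mul_mem hx hy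
  | inv x _ ihx =>
    rcases ihx with hx | hx
    · exact Or.inl (D.inv_mem hx)
    · right
      have h1 : a * (x * a) = x := by rw [hc (x * a) hx, mul_assoc, ha, mul_one]
      have e : x⁻¹ * a = (x * a)⁻¹ := by
        have e2 : x⁻¹ * a = (a * (x * a))⁻¹ * a := by rw [h1]
        rw [e2]; group
      rw [e]; exact D.inv_mem hx

theorem card_sup_zpowers [Finite X] {D : Subgroup X} {a : X} (ha : a * a = 1) (haD : a ∉ D)
    (hc : ∀ d ∈ D, a * d = d * a) :
    Nat.card ↥(D ⊔ Subgroup.zpowers a) = 2 * Nat.card ↥D := by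
  have hle : D ≤ D ⊔ Subgroup.zpowers a := le_sup_left
  have haW : a ∈ D ⊔ Subgroup.zpowers a :=
    (le_sup_right : Subgroup.zpowers a ≤ _) (Subgroup.mem_zpowers a)
  have h2 : D.relIndex (D ⊔ Subgroup.zpowers a) = 2 := by
    rw [Subgroup.relIndex_eq_two_iff]
    refine ⟨a, haW, fun b hb => ?_⟩
    have e : a = b⁻¹ * (b * a) := by group
    rcases mem_sup_zpowers ha hc b hb with h | h
    · refine Or.inr ⟨h, fun h' => haD ?_⟩
      rw [e]; exact D.mul_mem (D.inv_mem h) h'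
    · refine Or.inl ⟨h, fun h' => haD ?_⟩
      rw [e]; exact D.mul_mem (D.inv_mem h') h
  have h3 := Subgroup.relIndex_mul_relIndex ⊥ D (D ⊔ Subgroup.zpowers a) bot_le hle
  rw [Subgroup.relIndex_bot_left, Subgroup.relIndex_bot_left, h2] at h3
  omega

/-- an involution normalizing an elementary abelian 2-group `F` has `|C_F(v)|² ≥ |F|` -/
theorem card_le_sq [Finite X] (F : Subgroup X) (hF : Cfsg.IsElementaryAbelian 2 F) (v : X)
    (hv : v * v = 1) (hn : ∀ f ∈ F, v * f * v⁻¹ ∈ F) :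
    Nat.card ↥F ≤ Nat.card ↥(F ⊓ Subgroup.centralizer ({v} : Set X)) ^ 2 := by
  have hvinv : v⁻¹ = v := inv_eq_of_mul_eq_one_left hv
  let φ : ↥F →* ↥F :=
    { toFun := fun f => ⟨(f : X) * (v * f * v⁻¹), F.mul_mem f.2 (hn f f.2)⟩
      map_one' := by apply Subtype.ext; simp
      map_mul' := by
        intro f g
        apply Subtype.ext
        show ((f : X) * (g : X)) * (v * ((f : X) * (g : X)) * v⁻¹) =
          ((f : X) * (v * (f : X) * v⁻¹)) * ((g : X) * (v * (g : X) * v⁻¹))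
        have h1 : (g : X) * (v * f * v⁻¹) = (v * f * v⁻¹) * g :=
          ea_comm hF _ g.2 _ (hn f f.2)
        calc ((f : X) * (g : X)) * (v * ((f : X) * (g : X)) * v⁻¹)
            = f * (g * (v * f * v⁻¹)) * (v * g * v⁻¹) := by group
          _ = f * ((v * f * v⁻¹) * g) * (v * g * v⁻¹) := by rw [h1]
          _ = _ := by group }
  have hφ : ∀ f : ↥F, ((φ f : ↥F) : X) = (f : X) * (v * f * v⁻¹) := fun f => rfl
  have hker : φ.ker.map F.subtype ≤ F ⊓ Subgroup.centralizer ({v} : Set X) := by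
    rintro _ ⟨f, hf, rfl⟩
    refine Subgroup.mem_inf.mpr ⟨f.2, ?_⟩
    rw [Subgroup.mem_centralizer_singleton_iff]
    have h1 : (f : X) * (v * f * v⁻¹) = 1 := by
      rw [← hφ]; exact congrArg Subtype.val (MonoidHom.mem_ker.mp hf)
    have h2 : (f : X) * f = 1 := ea_sq hF _ f.2
    have h3 : v * f * v⁻¹ = f := mul_left_cancel (h1.trans h2.symm)
    show (f : X) * v = v * (f : X)
    calc (f : X) * v = (v * f * v⁻¹) * v := by rw [h3]
      _ = v * f := by group
  have hrange : φ.range.map F.subtype ≤ F ⊓ Subgroup.centralizer ({v} : Set X) := by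
    rintro _ ⟨_, ⟨f, rfl⟩, rfl⟩
    refine Subgroup.mem_inf.mpr ⟨(φ f).2, ?_⟩
    rw [Subgroup.mem_centralizer_singleton_iff]
    show ((φ f : ↥F) : X) * v = v * ((φ f : ↥F) : X)
    rw [hφ]
    have h1 : (f : X) * (v * f * v⁻¹) = (v * f * v⁻¹) * f := ea_comm hF _ f.2 _ (hn f f.2)
    rw [hvinv] at h1 ⊢
    calc (f : X) * (v * f * v) * v = f * v * f * (v * v) := by group
      _ = f * v * f := by rw [hv, mul_one]
      _ = (v * v) * f * v * f := by rw [hv, one_mul]
      _ = v * ((v * f * v) * f) := by group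
      _ = v * (f * (v * f * v)) := by rw [h1]
  have hcard : Nat.card ↥F = Nat.card ↥φ.ker * Nat.card ↥φ.range := by
    rw [← Subgroup.index_ker, Subgroup.card_mul_index]
  have h1 : Nat.card ↥φ.ker ≤ Nat.card ↥(F ⊓ Subgroup.centralizer ({v} : Set X)) := by
    rw [← Subgroup.card_map_of_injective (K := φ.ker) F.subtype_injective]
    exact Subgroup.card_le_of_le hker
  have h2 : Nat.card ↥φ.range ≤ Nat.card ↥(F ⊓ Subgroup.centralizer ({v} : Set X)) := by
    rw [← Subgroup.card_map_of_injective (K := φ.range) F.subtype_injective]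
    exact Subgroup.card_le_of_le hrange
  rw [hcard, pow_two]
  exact Nat.mul_le_mul h1 h2

/-- index-two step for centralizers in `E` -/
theorem idx [Finite X] (E : Subgroup X) [hEn : E.Normal] (hE : Cfsg.IsElementaryAbelian 2 E)
    {K H : Subgroup X} (hH : Cfsg.IsElementaryAbelian 2 H) (hKH : K ≤ H)
    (hcard : Nat.card ↥H = 2 * Nat.card ↥K) :
    Nat.card ↥(E ⊓ Subgroup.centralizer (K : Set X)) ≤
      Nat.card ↥(E ⊓ Subgroup.centralizer (H : Set X)) ^ 2 := by
  have hne : ¬ H ≤ K := by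
    intro hle
    have h1 : Nat.card ↥H ≤ Nat.card ↥K := Subgroup.card_le_of_le hle
    have hpos : 0 < Nat.card ↥K := Nat.card_pos
    omega
  obtain ⟨h, hhH, hhK⟩ := SetLike.not_le_iff_exists.mp hne
  have hsup : H ≤ K ⊔ Subgroup.zpowers h := by
    have hc : Nat.card ↥(K ⊔ Subgroup.zpowers h) = 2 * Nat.card ↥K :=
      card_sup_zpowers (ea_sq hH h hhH) hhK (fun d hd => ea_comm hH h hhH d (hKH hd))
    have hle : K ⊔ Subgroup.zpowers h ≤ H :=
      sup_le hKH (by rw [Subgroup.zpowers_le]; exact hhH)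
    exact (Subgroup.eq_of_le_of_card_ge hle (by rw [hc, hcard])).ge
  have hFE : Cfsg.IsElementaryAbelian 2 (E ⊓ Subgroup.centralizer (K : Set X)) :=
    ea_mono hE inf_le_left
  have hn : ∀ f ∈ E ⊓ Subgroup.centralizer (K : Set X),
      h * f * h⁻¹ ∈ E ⊓ Subgroup.centralizer (K : Set X) := by
    intro f hf
    refine Subgroup.mem_inf.mpr ⟨hEn.conj_mem f hf.1 h, ?_⟩
    rw [Subgroup.mem_centralizer_iff]
    intro k hk
    have h1 : k * f = f * k := Subgroup.mem_centralizer_iff.mp hf.2 k hk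
    have h2 : h * k = k * h := ea_comm hH h hhH k (hKH hk)
    calc k * (h * f * h⁻¹) = (k * h) * f * h⁻¹ := by group
      _ = (h * k) * f * h⁻¹ := by rw [h2]
      _ = h * (k * f) * h⁻¹ := by group
      _ = h * (f * k) * h⁻¹ := by rw [h1]
      _ = h * f * h⁻¹ * (h * k) * h⁻¹ := by group
      _ = h * f * h⁻¹ * (k * h) * h⁻¹ := by rw [h2]
      _ = h * f * h⁻¹ * k := by group
  have h3 := card_le_sq _ hFE h (ea_sq hH h hhH) hn
  have hle : E ⊓ Subgroup.centralizer (K : Set X) ⊓ Subgroup.centralizer ({h} : Set X) ≤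
      E ⊓ Subgroup.centralizer (H : Set X) := by
    rintro x ⟨⟨hxE, hxK⟩, hxh⟩
    refine Subgroup.mem_inf.mpr ⟨hxE, ?_⟩
    rw [Subgroup.mem_centralizer_iff]
    intro y hy
    have hK' : K ≤ Subgroup.centralizer ({x} : Set X) := by
      intro k hk
      rw [Subgroup.mem_centralizer_singleton_iff]
      exact Subgroup.mem_centralizer_iff.mp hxK k hk
    have hh' : Subgroup.zpowers h ≤ Subgroup.centralizer ({x} : Set X) := by
      rw [Subgroup.zpowers_le, Subgroup.mem_centralizer_singleton_iff]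
      exact (Subgroup.mem_centralizer_singleton_iff.mp hxh).symm
    exact Subgroup.mem_centralizer_singleton_iff.mp ((sup_le hK' hh') (hsup hy))
  exact h3.trans (Nat.pow_le_pow_left (Subgroup.card_le_of_le hle) 2)

theorem exists_sub_card [Finite X] (hX : IsPGroup 2 X) (D : Subgroup X) (k : ℕ)
    (hk : 2 ^ k ≤ Nat.card ↥D) : ∃ K : Subgroup X, K ≤ D ∧ Nat.card ↥K = 2 ^ k := by
  have : Fact (Nat.Prime 2) := ⟨Nat.prime_two⟩
  obtain ⟨n, hn⟩ := (hX.to_subgroup D).exists_card_eq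
  have hkn : k ≤ n := by
    rw [hn] at hk
    exact (Nat.pow_le_pow_iff_right (by norm_num)).mp hk
  obtain ⟨K, hK⟩ := Sylow.exists_subgroup_card_pow_prime 2 (n := k) (G := ↥D)
    (by rw [hn]; exact pow_dvd_pow 2 hkn)
  refine ⟨K.map D.subtype, ?_, ?_⟩
  · rintro _ ⟨x, -, rfl⟩; exact x.2
  · rw [Subgroup.card_map_of_injective D.subtype_injective]; exact hK

theorem exists_between [Finite X] (hX : IsPGroup 2 X) (K H : Subgroup X) (hKH : K ≤ H)
    (n m : ℕ) (hK : Nat.card ↥K = 2 ^ n) (hnm : n ≤ m) (hm : 2 ^ m ≤ Nat.card ↥H) :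
    ∃ M : Subgroup X, K ≤ M ∧ M ≤ H ∧ Nat.card ↥M = 2 ^ m := by
  have : Fact (Nat.Prime 2) := ⟨Nat.prime_two⟩
  obtain ⟨j, hj⟩ := (hX.to_subgroup H).exists_card_eq
  have hmj : m ≤ j := by
    rw [hj] at hm
    exact (Nat.pow_le_pow_iff_right (by norm_num)).mp hm
  have hK' : Nat.card ↥(K.subgroupOf H) = 2 ^ n := by
    rw [← hK]; exact Nat.card_congr (Subgroup.subgroupOfEquivOfLe hKH).toEquiv
  obtain ⟨M, hM, hKM⟩ := Sylow.exists_subgroup_card_pow_prime_le 2
    (by rw [hj]; exact pow_dvd_pow 2 hmj) (K.subgroupOf H) hK' hnm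
  refine ⟨M.map H.subtype, ?_, ?_, ?_⟩
  · intro x hx
    exact ⟨⟨x, hKH hx⟩, hKM (by rw [Subgroup.mem_subgroupOf]; exact hx), rfl⟩
  · rintro _ ⟨x, -, rfl⟩; exact x.2
  · rw [Subgroup.card_map_of_injective H.subtype_injective]; exact hM

theorem bound8 [Finite X] (hX : IsPGroup 2 X) (D : Subgroup X) (h : 32 ≤ Nat.card ↥D ^ 2) :
    8 ≤ Nat.card ↥D := by
  have : Fact (Nat.Prime 2) := ⟨Nat.prime_two⟩
  obtain ⟨n, hn⟩ := (hX.to_subgroup D).exists_card_eq
  rw [hn] at h ⊢
  by_contra hlt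
  push Not at hlt
  have hn3 : n < 3 := by
    by_contra h3
    push Not at h3
    have h4 := Nat.pow_le_pow_right (by norm_num : 0 < 2) h3
    omega
  interval_cases n <;> norm_num at h

theorem bound4 [Finite X] (hX : IsPGroup 2 X) (D : Subgroup X) (h : 8 ≤ Nat.card ↥D ^ 2) :
    4 ≤ Nat.card ↥D := by
  have : Fact (Nat.Prime 2) := ⟨Nat.prime_two⟩
  obtain ⟨n, hn⟩ := (hX.to_subgroup D).exists_card_eq
  rw [hn] at h ⊢
  by_contra hlt
  push Not at hlt
  have hn3 : n < 2 := by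
    by_contra h3
    push Not at h3
    have h4 := Nat.pow_le_pow_right (by norm_num : 0 < 2) h3
    omega
  interval_cases n <;> norm_num at h

theorem chain2 [Finite X] (hX : IsPGroup 2 X) (E : Subgroup X) [E.Normal]
    (hE : Cfsg.IsElementaryAbelian 2 E) {K H : Subgroup X}
    (hH : Cfsg.IsElementaryAbelian 2 H) (hKH : K ≤ H) (n : ℕ) (hK : Nat.card ↥K = 2 ^ n)
    (hHc : Nat.card ↥H = 2 ^ (n + 2))
    (h32 : 32 ≤ Nat.card ↥(E ⊓ Subgroup.centralizer (K : Set X))) :
    4 ≤ Nat.card ↥(E ⊓ Subgroup.centralizer (H : Set X)) := by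
  obtain ⟨M, hKM, hMH, hM⟩ := exists_between hX K H hKH n (n + 1) hK (by omega)
    (by rw [hHc]; exact Nat.pow_le_pow_right (by norm_num) (by omega))
  have hMe : Cfsg.IsElementaryAbelian 2 M := ea_mono hH hMH
  have h1 := idx E hE hMe hKM (by rw [hM, hK, pow_succ]; ring)
  have h2 := idx E hE hH hMH (by rw [hHc, hM, pow_succ 2 (n + 1)]; ring)
  have h8 : 8 ≤ Nat.card ↥(E ⊓ Subgroup.centralizer (M : Set X)) :=
    bound8 hX _ (le_trans h32 h1)
  exact bound4 hX _ (le_trans h8 h2)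

/-- A nontrivial normal subgroup of a finite 2-group contains a nontrivial central element. -/
theorem exists_central [Finite X] (hS : IsPGroup 2 X)
    (N : Subgroup X) [N.Normal] (hN : N ≠ ⊥) :
    ∃ z ∈ N, z ∈ Subgroup.center X ∧ z ≠ 1 := by
  have : Fact (Nat.Prime 2) := ⟨Nat.prime_two⟩
  let _ : MulAction X N := MulAction.compHom N (MulAut.conjNormal : X →* MulAut N)
  have hcard : 2 ∣ Nat.card N := by
    obtain ⟨k, hk⟩ := IsPGroup.iff_card.mp (hS.to_subgroup N)
    have hk0 : k ≠ 0 := by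
      rintro rfl
      rw [pow_zero] at hk
      exact hN (Subgroup.card_eq_one.mp hk)
    rw [hk]; exact dvd_pow_self 2 hk0
  have h1 : (1 : N) ∈ MulAction.fixedPoints X N := by
    intro g
    apply Subtype.ext
    show g * 1 * g⁻¹ = 1
    group
  obtain ⟨b, hb, hne⟩ := hS.exists_fixed_point_of_prime_dvd_card_of_fixed_point (α := N) hcard h1
  refine ⟨b, b.2, ?_, fun h => hne (Subtype.ext h.symm)⟩
  rw [Subgroup.mem_center_iff]
  intro g
  have h2 : g * (b : X) * g⁻¹ = b := congrArg Subtype.val (hb g)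
  exact mul_inv_eq_iff_eq_mul.mp h2

/-- the adjacency relation of the statement -/
abbrev R (C D : Subgroup X) : Prop :=
  Cfsg.IsElementaryAbelian 2 C ∧ Nat.card ↥C = 8 ∧ Cfsg.IsElementaryAbelian 2 D ∧
    Nat.card ↥D = 8 ∧ ⁅C, D⁆ = ⊥

theorem comm_bot_of_le {C D : Subgroup X} (h : D ≤ Subgroup.centralizer (C : Set X)) :
    ⁅C, D⁆ = ⊥ := by
  rw [Subgroup.commutator_comm, Subgroup.commutator_eq_bot_iff_le_centralizer]
  exact h

theorem step12 [Finite X] (hX : IsPGroup 2 X) (E : Subgroup X) [E.Normal]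
    (hE : Cfsg.IsElementaryAbelian 2 E) (hE32 : 32 ≤ Nat.card ↥E)
    (A1 : Subgroup X) (hA1 : Cfsg.IsElementaryAbelian 2 A1) (hA18 : Nat.card ↥A1 = 8)
    (h4 : 4 ≤ Nat.card ↥(E ⊓ Subgroup.centralizer (A1 : Set X))) :
    ∃ B : Subgroup X, B ≤ E ∧ Cfsg.IsElementaryAbelian 2 B ∧ Nat.card ↥B = 8 ∧
      Relation.ReflTransGen R A1 B := by
  by_cases hA1E : A1 ≤ E
  · exact ⟨A1, hA1E, hA1, hA18, Relation.ReflTransGen.refl⟩
  obtain ⟨a, haA, haE⟩ := SetLike.not_le_iff_exists.mp hA1E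
  obtain ⟨D0, hD0, hD0c⟩ := exists_sub_card hX _ 2 (by norm_num; exact h4)
  have haa : a * a = 1 := ea_sq hA1 a haA
  have haD0 : a ∉ D0 := fun h => haE (hD0 h).1
  have hcD0 : ∀ d ∈ D0, a * d = d * a := by
    intro d hd
    exact Subgroup.mem_centralizer_iff.mp (hD0 hd).2 a haA
  have hD0e : Cfsg.IsElementaryAbelian 2 D0 := ea_mono hE (hD0.trans inf_le_left)
  have hA2 : Cfsg.IsElementaryAbelian 2 (D0 ⊔ Subgroup.zpowers a) :=
    ea_sup_zpowers hD0e haa hcD0
  have hA28 : Nat.card ↥(D0 ⊔ Subgroup.zpowers a) = 8 := by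
    rw [card_sup_zpowers haa haD0 hcD0, hD0c]; norm_num
  have hA2c : D0 ⊔ Subgroup.zpowers a ≤ Subgroup.centralizer (A1 : Set X) := by
    apply sup_le (hD0.trans inf_le_right)
    rw [Subgroup.zpowers_le, Subgroup.mem_centralizer_iff]
    intro y hy
    exact ea_comm hA1 y hy a haA
  have hR1 : R A1 (D0 ⊔ Subgroup.zpowers a) := ⟨hA1, hA18, hA2, hA28, comm_bot_of_le hA2c⟩
  -- second step
  have hKc : Nat.card ↥((D0 ⊔ Subgroup.zpowers a) ⊓ E) = 4 := by
    have hdvd : Nat.card ↥((D0 ⊔ Subgroup.zpowers a) ⊓ E) ∣ 8 := by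
      rw [← hA28]; exact Subgroup.card_dvd_of_le inf_le_left
    have hge : 4 ≤ Nat.card ↥((D0 ⊔ Subgroup.zpowers a) ⊓ E) := by
      rw [show (4 : ℕ) = 2 ^ 2 by norm_num, ← hD0c]
      exact Subgroup.card_le_of_le (le_inf le_sup_left (hD0.trans inf_le_left))
    have hne : Nat.card ↥((D0 ⊔ Subgroup.zpowers a) ⊓ E) ≠ 8 := by
      intro h8
      have heq := Subgroup.eq_of_le_of_card_ge
        (inf_le_left : (D0 ⊔ Subgroup.zpowers a) ⊓ E ≤ D0 ⊔ Subgroup.zpowers a)
        (by rw [h8, hA28])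
      apply haE
      have haW : a ∈ D0 ⊔ Subgroup.zpowers a :=
        (le_sup_right : Subgroup.zpowers a ≤ _) (Subgroup.mem_zpowers a)
      rw [← heq] at haW
      exact haW.2
    have hle := Nat.le_of_dvd (by norm_num) hdvd
    interval_cases h : Nat.card ↥((D0 ⊔ Subgroup.zpowers a) ⊓ E) <;> simp_all
  have h5 := idx E hE hA2 (inf_le_left : (D0 ⊔ Subgroup.zpowers a) ⊓ E ≤ _)
    (by rw [hA28, hKc])
  have hEle : E ≤ E ⊓ Subgroup.centralizer (((D0 ⊔ Subgroup.zpowers a) ⊓ E : Subgroup X) : Set X) := by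
    intro e he
    refine Subgroup.mem_inf.mpr ⟨he, ?_⟩
    rw [Subgroup.mem_centralizer_iff]
    intro k hk
    exact ea_comm hE k hk.2 e he
  have h6 : 8 ≤ Nat.card ↥(E ⊓ Subgroup.centralizer ((D0 ⊔ Subgroup.zpowers a : Subgroup X) : Set X)) :=
    bound8 hX _ (le_trans (le_trans hE32 (Subgroup.card_le_of_le hEle)) h5)
  obtain ⟨B, hB, hBc⟩ := exists_sub_card hX _ 3 (by norm_num; exact h6)
  have hB8 : Nat.card ↥B = 8 := by rw [hBc]; norm_num
  have hBe : Cfsg.IsElementaryAbelian 2 B := ea_mono hE (hB.trans inf_le_left)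
  have hR2 : R (D0 ⊔ Subgroup.zpowers a) B :=
    ⟨hA2, hA28, hBe, hB8, comm_bot_of_le (hB.trans inf_le_right)⟩
  exact ⟨B, hB.trans inf_le_left, hBe, hB8,
    Relation.ReflTransGen.head hR1 (Relation.ReflTransGen.single hR2)⟩

theorem step0 [Finite X] (hX : IsPGroup 2 X) (E : Subgroup X) [E.Normal]
    (hE : Cfsg.IsElementaryAbelian 2 E) (hE32 : 32 ≤ Nat.card ↥E)
    (A : Subgroup X) (hA : Cfsg.IsElementaryAbelian 2 A) (hA8 : Nat.card ↥A = 8) :
    ∃ A1 : Subgroup X, Cfsg.IsElementaryAbelian 2 A1 ∧ Nat.card ↥A1 = 8 ∧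
      4 ≤ Nat.card ↥(E ⊓ Subgroup.centralizer (A1 : Set X)) ∧
      Relation.ReflTransGen R A A1 := by
  have hEne : E ≠ ⊥ := by
    intro h
    rw [h, Subgroup.card_bot] at hE32
    omega
  obtain ⟨z, hzE, hzc, hz1⟩ := exists_central hX E hEne
  have hzz : z * z = 1 := ea_sq hE z hzE
  have hzle : Subgroup.zpowers z ≤ Subgroup.center X := by
    rw [Subgroup.zpowers_le]; exact hzc
  by_cases hzA : z ∈ A
  · refine ⟨A, hA, hA8, ?_, Relation.ReflTransGen.refl⟩
    have hK : Nat.card ↥(Subgroup.zpowers z) = 2 ^ 1 := by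
      rw [Nat.card_zpowers, pow_one]
      exact orderOf_eq_prime (by rw [pow_two]; exact hzz) hz1
    have hle : E ≤ E ⊓ Subgroup.centralizer ((Subgroup.zpowers z : Subgroup X) : Set X) := by
      intro e he
      refine Subgroup.mem_inf.mpr ⟨he, ?_⟩
      rw [Subgroup.mem_centralizer_iff]
      intro y hy
      exact (Subgroup.mem_center_iff.mp (hzle hy) e).symm
    exact chain2 hX E hE hA (by rw [Subgroup.zpowers_le]; exact hzA) 1 hK
      (by rw [hA8]; norm_num) (le_trans hE32 (Subgroup.card_le_of_le hle))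
  · obtain ⟨V, hVA, hVc⟩ := exists_sub_card hX A 2 (by rw [hA8]; norm_num)
    have hVe : Cfsg.IsElementaryAbelian 2 V := ea_mono hA hVA
    have hzV : z ∉ V := fun h => hzA (hVA h)
    have hcV : ∀ d ∈ V, z * d = d * z := fun d _ => (Subgroup.mem_center_iff.mp hzc d).symm
    have hA1 : Cfsg.IsElementaryAbelian 2 (V ⊔ Subgroup.zpowers z) :=
      ea_sup_zpowers hVe hzz hcV
    have hA18 : Nat.card ↥(V ⊔ Subgroup.zpowers z) = 8 := by
      rw [card_sup_zpowers hzz hzV hcV, hVc]; norm_num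
    have hA1c : V ⊔ Subgroup.zpowers z ≤ Subgroup.centralizer (A : Set X) := by
      apply sup_le
      · intro v hv
        rw [Subgroup.mem_centralizer_iff]
        intro y hy
        exact ea_comm hA y hy v (hVA hv)
      · exact hzle.trans (Subgroup.center_le_centralizer _)
    refine ⟨V ⊔ Subgroup.zpowers z, hA1, hA18, ?_,
      Relation.ReflTransGen.single ⟨hA, hA8, hA1, hA18, comm_bot_of_le hA1c⟩⟩
    have h4 : 4 ≤ Nat.card ↥(E ⊓ Subgroup.centralizer (V : Set X)) := by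
      have hle : E ≤ E ⊓ Subgroup.centralizer (((⊥ : Subgroup X) : Subgroup X) : Set X) := by
        intro e he
        refine Subgroup.mem_inf.mpr ⟨he, ?_⟩
        rw [Subgroup.mem_centralizer_iff]
        intro y hy
        rw [SetLike.mem_coe, Subgroup.mem_bot] at hy
        rw [hy, one_mul, mul_one]
      exact chain2 hX E hE hVe bot_le 0 (by rw [Subgroup.card_bot, pow_zero])
        (by rw [hVc]) (le_trans hE32 (Subgroup.card_le_of_le hle))
    have hle2 : E ⊓ Subgroup.centralizer (V : Set X) ≤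
        E ⊓ Subgroup.centralizer ((V ⊔ Subgroup.zpowers z : Subgroup X) : Set X) := by
      rintro x ⟨hxE, hxV⟩
      refine Subgroup.mem_inf.mpr ⟨hxE, ?_⟩
      rw [Subgroup.mem_centralizer_iff]
      intro y hy
      have hV' : V ≤ Subgroup.centralizer ({x} : Set X) := by
        intro k hk
        rw [Subgroup.mem_centralizer_singleton_iff]
        exact Subgroup.mem_centralizer_iff.mp hxV k hk
      have hz' : Subgroup.zpowers z ≤ Subgroup.centralizer ({x} : Set X) :=
        hzle.trans (Subgroup.center_le_centralizer _)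
      exact Subgroup.mem_centralizer_singleton_iff.mp ((sup_le hV' hz') hy)
    exact le_trans h4 (Subgroup.card_le_of_le hle2)

theorem R_symm {C D : Subgroup X} (h : R C D) : R D C :=
  ⟨h.2.2.1, h.2.2.2.1, h.1, h.2.1, by rw [Subgroup.commutator_comm]; exact h.2.2.2.2⟩

theorem result {X : Type*} [Group X] [Finite X]
    (hX : IsPGroup 2 X) (E : Subgroup X) [E.Normal] (hE : Cfsg.IsElementaryAbelian 2 E) (hE32 : 32 ≤ Nat.card ↥E) :
    (∀ A B : Subgroup X, Cfsg.IsElementaryAbelian 2 A → Nat.card ↥A = 8 → Cfsg.IsElementaryAbelian 2 B → Nat.card ↥B = 8 →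
        Relation.ReflTransGen
          (fun C D : Subgroup X => Cfsg.IsElementaryAbelian 2 C ∧ Nat.card ↥C = 8 ∧ Cfsg.IsElementaryAbelian 2 D ∧ Nat.card ↥D = 8 ∧ ⁅C, D⁆ = ⊥)
          A B) ∧
      (∀ V : Subgroup X, Cfsg.IsElementaryAbelian 2 V → Nat.card ↥V = 4 →
        ∃ A : Subgroup X, V ≤ A ∧ Cfsg.IsElementaryAbelian 2 A ∧ Nat.card ↥A = 8) := by
  have conn : ∀ A : Subgroup X, Cfsg.IsElementaryAbelian 2 A → Nat.card ↥A = 8 →
      ∃ B : Subgroup X, B ≤ E ∧ Cfsg.IsElementaryAbelian 2 B ∧ Nat.card ↥B = 8 ∧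
        Relation.ReflTransGen R A B := by
    intro A hA hA8
    obtain ⟨A1, hA1, hA18, h4, hc1⟩ := step0 hX E hE hE32 A hA hA8
    obtain ⟨B, hBE, hB, hB8, hc2⟩ := step12 hX E hE hE32 A1 hA1 hA18 h4
    exact ⟨B, hBE, hB, hB8, hc1.trans hc2⟩
  refine ⟨?_, ?_⟩
  · intro A B hA hA8 hB hB8
    obtain ⟨A', hA'E, hA', hA'8, hcA⟩ := conn A hA hA8
    obtain ⟨B', hB'E, hB', hB'8, hcB⟩ := conn B hB hB8
    have hmid : R A' B' := by
      refine ⟨hA', hA'8, hB', hB'8, comm_bot_of_le ?_⟩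
      intro b hb
      rw [Subgroup.mem_centralizer_iff]
      intro a ha
      exact ea_comm hE a (hA'E ha) b (hB'E hb)
    have hback : Relation.ReflTransGen R B' B := by
      have h1 := Relation.reflTransGen_swap.mpr hcB
      exact Relation.ReflTransGen.mono (fun a b h => R_symm h) _ _ h1
    exact (hcA.trans (Relation.ReflTransGen.single hmid)).trans hback
  · intro V hV hV4
    have hle : E ≤ E ⊓ Subgroup.centralizer (((⊥ : Subgroup X) : Subgroup X) : Set X) := by
      intro e he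
      refine Subgroup.mem_inf.mpr ⟨he, ?_⟩
      rw [Subgroup.mem_centralizer_iff]
      intro y hy
      rw [SetLike.mem_coe, Subgroup.mem_bot] at hy
      rw [hy, one_mul, mul_one]
    have h4 : 4 ≤ Nat.card ↥(E ⊓ Subgroup.centralizer (V : Set X)) :=
      chain2 hX E hE hV bot_le 0 (by rw [Subgroup.card_bot, pow_zero])
        (by rw [hV4]; norm_num) (le_trans hE32 (Subgroup.card_le_of_le hle))
    have hnle : ¬ E ⊓ Subgroup.centralizer (V : Set X) ≤ V := by
      intro hDV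
      have heq := Subgroup.eq_of_le_of_card_ge hDV (by rw [hV4]; exact h4)
      have hVE : V ≤ E := by rw [← heq]; exact inf_le_left
      have hEV : E ≤ E ⊓ Subgroup.centralizer (V : Set X) := by
        intro e he
        refine Subgroup.mem_inf.mpr ⟨he, ?_⟩
        rw [Subgroup.mem_centralizer_iff]
        intro y hy
        exact ea_comm hE y (hVE hy) e he
      have h1 := Subgroup.card_le_of_le (hEV.trans hDV)
      omega
    obtain ⟨d, hdD, hdV⟩ := SetLike.not_le_iff_exists.mp hnle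
    have hdd : d * d = 1 := ea_sq hE d hdD.1
    have hcd : ∀ v ∈ V, d * v = v * d := fun v hv =>
      (Subgroup.mem_centralizer_iff.mp hdD.2 v hv).symm
    refine ⟨V ⊔ Subgroup.zpowers d, le_sup_left, ea_sup_zpowers hV hdd hcd, ?_⟩
    rw [card_sup_zpowers hdd hdV hcd, hV4]

end Cfsg.Agent.S1785
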