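import Cfsg.Statements.S1961
import Cfsg.Agent.Lib.Helper14.FusionCtl

set_option autoImplicit false
open Cfsg

namespace Cfsg.Agent.S1961

/-- Local-to-global control of strong fusion through well-placed subgroups. Let p be a prime, G a finite group with Sylow p-subgroup S, and W a conjugacy functor for p on G. If W controls strong fusion in N_G(T) for every nonidentity subgroup T of S that is well placed in S with respect to W, then W controls strong fusion in G. -/
theorem result {G : Type*} [Group G] [Finite G] {p : ℕ} [Fact p.Prime] (S : Sylow p G) (W : Subgroup G → Subgroup G) (hW : Cfsg.IsConjugacyFunctor p W) (hloc : ∀ T : Subgroup G, T ≠ ⊥ → Cfsg.IsWellPlaced p W (S : Subgroup G) T → Cfsg.ControlsStrongFusionIn p W (Subgroup.normalizer ((T : Subgroup G) : Set G))) : Cfsg.ControlsStrongFusionIn p W ⊤ := by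
  refine ⟨S, le_top, S.isPGroup', ?_, ?_⟩
  · rw [Subgroup.relIndex_top_right]; exact S.not_dvd_index
  · intro A h _ hA hAh
    have h𝓕 : ∀ U ∈ {T : Subgroup G | Cfsg.IsWellPlaced p W (S : Subgroup G) T},
        U ≤ (S : Subgroup G) := fun U hU => hU.1
    have hchain : Cfsg.Agent.Lib.Helper14.FChain
        {T : Subgroup G | Cfsg.IsWellPlaced p W (S : Subgroup G) T} A h⁻¹ := by
      refine Cfsg.Agent.Lib.Helper14.fchain_of_fullyNormalized_set S _ h𝓕 ?_ A h⁻¹ hA ?_
      · intro T hT
        obtain ⟨g', hg'⟩ := Cfsg.Agent.Lib.Helper14.exists_isWellPlaced_conj hW S hT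
        refine ⟨_, hg', ⟨g', rfl⟩, ?_⟩
        have := hg'.2 0
        rwa [Cfsg.Agent.Lib.Helper14.functorTower_zero] at this
      · rintro _ ⟨a, ha, rfl⟩
        have := hAh ⟨a, ha, rfl⟩
        simpa using this
    obtain ⟨x, hx, hxeq⟩ := Cfsg.Agent.Lib.Helper14.fchain_wellPlaced_control hW S hloc hchain
    refine ⟨x⁻¹, Subgroup.mem_inf.mpr ⟨Subgroup.mem_top _, inv_mem hx⟩, fun a ha => ?_⟩
    have := hxeq a ha
    simpa using this

end Cfsg.Agent.S1961
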