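import Cfsg.Statements.S1962
import Cfsg.Agent.Lib.Helper14.TransferCtl

set_option autoImplicit false
open Cfsg

namespace Cfsg.Agent.S1962

/-- Local-to-global control of transfer through well-placed subgroups. Let p be a prime, G a finite group with Sylow p-subgroup S, and W a conjugacy functor for p on G. If W controls transfer in N_G(T) for every nonidentity subgroup T of S that is well placed in S with respect to W, then W controls transfer in G: S ∩ G' = S ∩ (N_G(W(S)))'. -/
theorem result {G : Type*} [Group G] [Finite G] {p : ℕ} [Fact p.Prime] (S : Sylow p G) (W : Subgroup G → Subgroup G) (hW : Cfsg.IsConjugacyFunctor p W) (hloc : ∀ T : Subgroup G, T ≠ ⊥ → Cfsg.IsWellPlaced p W (S : Subgroup G) T → Cfsg.ControlsTransferIn p W (Subgroup.normalizer ((T : Subgroup G) : Set G))) : Cfsg.ControlsTransferIn p W ⊤ := by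
  refine ⟨S, le_top, S.isPGroup', ?_, ?_⟩
  · rw [Subgroup.relIndex_top_right]; exact S.not_dvd_index
  · apply le_antisymm
    · apply le_inf inf_le_left
      rw [top_inf_eq]
      apply Cfsg.Agent.Lib.Helper14.sylow_inf_commutator_le S
      intro x hxS u hux
      have h𝓕 : ∀ U ∈ {T : Subgroup G | Cfsg.IsWellPlaced p W (S : Subgroup G) T},
          U ≤ (S : Subgroup G) := fun U hU => hU.1
      have hchain : Cfsg.Agent.Lib.Helper14.FChain
          {T : Subgroup G | Cfsg.IsWellPlaced p W (S : Subgroup G) T} {x} u⁻¹ := by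
        refine Cfsg.Agent.Lib.Helper14.fchain_of_fullyNormalized_set S _ h𝓕 ?_ {x} u⁻¹ ?_ ?_
        · intro T hT
          obtain ⟨g', hg'⟩ := Cfsg.Agent.Lib.Helper14.exists_isWellPlaced_conj hW S hT
          refine ⟨_, hg', ⟨g', rfl⟩, ?_⟩
          have := hg'.2 0
          rwa [Cfsg.Agent.Lib.Helper14.functorTower_zero] at this
        · rintro _ rfl
          exact hxS
        · rintro _ ⟨a, rfl, rfl⟩
          have e : u⁻¹⁻¹ * a * u⁻¹ = u * a * u⁻¹ := by group
          show u⁻¹⁻¹ * a * u⁻¹ ∈ (S : Subgroup G)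
          rw [e]; exact hux
      have h3 := Cfsg.Agent.Lib.Helper14.fchain_wellPlaced_transfer hW S hloc hchain x rfl
      have h4 : x * (u⁻¹⁻¹ * x * u⁻¹)⁻¹ = x * (u * x * u⁻¹)⁻¹ := by group
      rw [h4] at h3
      exact h3
    · exact inf_le_inf_left _ (Subgroup.commutator_mono inf_le_left inf_le_left)

end Cfsg.Agent.S1962
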