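import Cfsg.Statements.S1966

set_option autoImplicit false
open Cfsg

namespace Cfsg.Agent.S1966

/-- Let p be a prime, G a finite group with Sylow p-subgroup S and 𝓕 a conjugation family for S in G. Then the members of 𝓕 containing O_p(G) still form a conjugation family for S in G. -/
theorem result {G : Type*} [Group G] [Finite G] {p : ℕ} [Fact p.Prime] (S : Sylow p G) (𝓕 : Set (Subgroup G)) (h : Cfsg.IsConjugationFamily 𝓕 (S : Subgroup G)) : Cfsg.IsConjugationFamily {T : Subgroup G | T ∈ 𝓕 ∧ Cfsg.pCore p G ≤ T} (S : Subgroup G) := by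
  have hnorm : (Cfsg.pCore p G).Normal := Subgroup.sSup_normal _ (fun _ h => h.1)
  have hcore : Cfsg.pCore p G ≤ (S : Subgroup G) := by
    unfold Cfsg.pCore
    refine sSup_le fun N hN => ?_
    have := hN.1
    exact hN.2.le_sylow_of_normal S
  refine ⟨fun T hT => h.1 T hT.1, fun A g hne hAS hAg => ?_⟩
  have hA' : A ∪ (Cfsg.pCore p G : Set G) ⊆ (S : Subgroup G) := Set.union_subset hAS hcore
  have hA'g : (fun a => g⁻¹ * a * g) '' (A ∪ (Cfsg.pCore p G : Set G)) ⊆ (S : Subgroup G) := by
    rintro _ ⟨a, ha | ha, rfl⟩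
    · exact hAg ⟨a, ha, rfl⟩
    · apply hcore
      have := hnorm.conj_mem a ha g⁻¹
      simpa using this
  obtain ⟨n, T, x, hprod, hT, hx, h0, hstep⟩ :=
    h.2 (A ∪ (Cfsg.pCore p G : Set G)) g (hne.mono Set.subset_union_left) hA' hA'g
  refine ⟨n, T, x, hprod, fun i => ⟨hT i, ?_⟩, hx,
    fun h => Set.subset_union_left.trans (h0 h),
    fun i h => (Set.image_mono Set.subset_union_left).trans (hstep i h)⟩
  rcases i with ⟨i, hi⟩
  cases i with
  | zero => exact fun a ha => h0 hi (Or.inr ha)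
  | succ j =>
    intro a ha
    apply hstep ⟨j, by omega⟩ hi
    refine ⟨((List.ofFn x).take (j + 1)).prod * a * (((List.ofFn x).take (j + 1)).prod)⁻¹,
      Or.inr (hnorm.conj_mem a ha _), ?_⟩
    simp only
    group

end Cfsg.Agent.S1966
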