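import Cfsg.Statements.S1967
import Cfsg.Agent.Lib.Helper14.ConjAux

set_option autoImplicit false
open Cfsg

namespace Cfsg.Agent.S1967

/-- Let p be a prime, G a finite group with Sylow p-subgroup S and W a conjugacy functor for p on G. Then W controls strong fusion in G if and only if, whenever T ≤ S and g ∈ G satisfy gTg⁻¹ ≤ S, one can write g = n c with n ∈ N_G(W(S)) and c ∈ C_G(T). -/
theorem result {G : Type*} [Group G] [Finite G] {p : ℕ} [Fact p.Prime] (S : Sylow p G) (W : Subgroup G → Subgroup G) (hW : Cfsg.IsConjugacyFunctor p W) : Cfsg.ControlsStrongFusionIn p W ⊤ ↔ ∀ (T : Subgroup G) (g : G), T ≤ (S : Subgroup G) → T.map (MulAut.conj g).toMonoidHom ≤ (S : Subgroup G) → ∃ n ∈ Subgroup.normalizer ((W (S : Subgroup G) : Subgroup G) : Set G), ∃ c ∈ Subgroup.centralizer (T : Set G), g = n * c := by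
  constructor
  · rintro ⟨T₀, -, hT₀p, hT₀idx, hctl⟩ T g hTS hTg
    rw [Subgroup.relIndex_top_right] at hT₀idx
    obtain ⟨u, rfl⟩ := Cfsg.Agent.Lib.Helper14.exists_eq_map_conj_sylow S hT₀p hT₀idx
    have hA : ((fun t => u * t * u⁻¹) '' (T : Set G)) ⊆
        (((S : Subgroup G).map (MulAut.conj u).toMonoidHom : Subgroup G) : Set G) := by
      rintro _ ⟨t, ht, rfl⟩
      exact Cfsg.Agent.Lib.Helper14.conj_mem_map_conj (hTS ht)
    have hAh : (fun a => (u * g * u⁻¹) * a * (u * g * u⁻¹)⁻¹) '' ((fun t => u * t * u⁻¹) '' (T : Set G)) ⊆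
        (((S : Subgroup G).map (MulAut.conj u).toMonoidHom : Subgroup G) : Set G) := by
      rintro _ ⟨_, ⟨t, ht, rfl⟩, rfl⟩
      have h1 : g * t * g⁻¹ ∈ (S : Subgroup G) := hTg (Cfsg.Agent.Lib.Helper14.conj_mem_map_conj ht)
      have h2 := Cfsg.Agent.Lib.Helper14.conj_mem_map_conj (g := u) h1
      have e : (u * g * u⁻¹) * (u * t * u⁻¹) * (u * g * u⁻¹)⁻¹ = u * (g * t * g⁻¹) * u⁻¹ := by group
      simp only
      rw [e]; exact h2
    obtain ⟨x, hx, hxa⟩ := hctl _ (u * g * u⁻¹) (Subgroup.mem_top _) hA hAh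
    have hxN : x ∈ Subgroup.normalizer
        ((W ((S : Subgroup G).map (MulAut.conj u).toMonoidHom) : Subgroup G) : Set G) := hx.2
    rw [(hW (S : Subgroup G) S.isPGroup').2.2 u, Cfsg.Agent.Lib.Helper14.mem_normalizer_map_conj_iff] at hxN
    refine ⟨u⁻¹ * x * u, hxN, (u⁻¹ * x * u)⁻¹ * g, ?_, by group⟩
    rw [Subgroup.mem_centralizer_iff]
    intro t ht
    have h3 := hxa (u * t * u⁻¹) ⟨t, ht, rfl⟩
    have h4 : (u⁻¹ * x * u) * t * (u⁻¹ * x * u)⁻¹ = g * t * g⁻¹ := by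
      calc (u⁻¹ * x * u) * t * (u⁻¹ * x * u)⁻¹ = u⁻¹ * (x * (u * t * u⁻¹) * x⁻¹) * u := by group
        _ = u⁻¹ * ((u * g * u⁻¹) * (u * t * u⁻¹) * (u * g * u⁻¹)⁻¹) * u := by rw [h3]
        _ = g * t * g⁻¹ := by group
    calc t * ((u⁻¹ * x * u)⁻¹ * g) = (u⁻¹ * x * u)⁻¹ * ((u⁻¹ * x * u) * t * (u⁻¹ * x * u)⁻¹) * (u⁻¹ * x * u) * ((u⁻¹ * x * u)⁻¹ * g) := by group
      _ = (u⁻¹ * x * u)⁻¹ * (g * t * g⁻¹) * (u⁻¹ * x * u) * ((u⁻¹ * x * u)⁻¹ * g) := by rw [h4]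
      _ = (u⁻¹ * x * u)⁻¹ * g * t := by group
  · intro h
    refine ⟨(S : Subgroup G), le_top, S.isPGroup', ?_, ?_⟩
    · rw [Subgroup.relIndex_top_right]; exact S.not_dvd_index
    · intro A g _ hA hAg
      have hT : Subgroup.closure A ≤ (S : Subgroup G) := (Subgroup.closure_le _).mpr hA
      have hTg : (Subgroup.closure A).map (MulAut.conj g).toMonoidHom ≤ (S : Subgroup G) := by
        rw [MonoidHom.map_closure, Subgroup.closure_le]
        rintro _ ⟨a, ha, rfl⟩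
        exact hAg ⟨a, ha, by simp [MulAut.conj_apply]⟩
      obtain ⟨n, hn, c, hc, rfl⟩ := h (Subgroup.closure A) g hT hTg
      refine ⟨n, ⟨Subgroup.mem_top _, hn⟩, fun a ha => ?_⟩
      have hca : a * c = c * a := Subgroup.mem_centralizer_iff.mp hc a (Subgroup.subset_closure ha)
      calc n * a * n⁻¹ = n * (a * c) * c⁻¹ * n⁻¹ := by group
        _ = n * (c * a) * c⁻¹ * n⁻¹ := by rw [hca]
        _ = n * c * a * (n * c)⁻¹ := by group

end Cfsg.Agent.S1967
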