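import Cfsg.Statements.S1968
import Cfsg.Agent.Lib.Helper14.FusionCtl

set_option autoImplicit false
open Cfsg

namespace Cfsg.Agent.S1968

open Cfsg.Agent.Lib.Helper14 in
/-- A chain that moves `A` contains a step that moves `A`. -/
theorem exists_moving_step {G : Type*} [Group G] {𝓕 : Set (Subgroup G)} {A : Set G} {g : G}
    (h : FChain 𝓕 A g) : conjR g A ≠ A →
    ∃ T ∈ 𝓕, ∃ x ∈ Subgroup.normalizer (T : Set G), A ⊆ (T : Set G) ∧ conjR x A ≠ A := by
  induction h with
  | nil A => intro hne; exact absurd (conjR_one A) hne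
  | cons A T x g hT hx hA _ ih =>
    intro hne
    by_cases hxA : conjR x A = A
    · rw [conjR_mul, hxA] at hne
      rw [hxA] at ih
      exact ih hne
    · exact ⟨T, hT, x, hx, hA, hxA⟩

/-- Let p be a prime, G a finite group with Sylow p-subgroup S and W a conjugacy functor for p on G with Z(P) ≤ W(P) for every p-subgroup P. Let A be a subgroup of Z(S) normalized by N_G(W(S)) that is not weakly closed in S with respect to G. Then there is a subgroup T of S, well placed in S with respect to W, such that: A ≤ T; N_G(W(N_S(T))) normalizes A; N_S(T) is a Sylow p-subgroup of N_G(T); A ≤ Z(N_S(T)); and A is not weakly closed in N_S(T) with respect to N_G(T), that is, some N_G(T)-conjugate of A other than A lies in N_S(T). -/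
theorem result {G : Type*} [Group G] [Finite G] {p : ℕ} [Fact p.Prime] (S : Sylow p G) (W : Subgroup G → Subgroup G) (hW : Cfsg.IsConjugacyFunctor p W) (hWZ : ∀ P : Subgroup G, IsPGroup p ↥P → P ⊓ Subgroup.centralizer (P : Set G) ≤ W P) (A : Subgroup G) (hAZ : A ≤ (S : Subgroup G) ⊓ Subgroup.centralizer ((S : Subgroup G) : Set G)) (hAN : Subgroup.normalizer ((W (S : Subgroup G) : Subgroup G) : Set G) ≤ Subgroup.normalizer ((A : Subgroup G) : Set G)) (hnwc : ¬ Cfsg.IsWeaklyClosed A (S : Subgroup G)) : ∃ T : Subgroup G, Cfsg.IsWellPlaced p W (S : Subgroup G) T ∧ A ≤ T ∧ Subgroup.normalizer ((W ((S : Subgroup G) ⊓ Subgroup.normalizer ((T : Subgroup G) : Set G)) : Subgroup G) : Set G) ≤ Subgroup.normalizer ((A : Subgroup G) : Set G) ∧ ¬ p ∣ ((S : Subgroup G) ⊓ Subgroup.normalizer ((T : Subgroup G) : Set G)).relIndex (Subgroup.normalizer ((T : Subgroup G) : Set G)) ∧ A ≤ Subgroup.centralizer (((S : Subgroup G) ⊓ Subgroup.normalizer ((T : Subgroup G) : Set G) : Subgroup G) : Set G) ∧ ∃ g ∈ Subgroup.normalizer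 ((T : Subgroup G) : Set G), A.map (MulAut.conj g).toMonoidHom ≤ (S : Subgroup G) ⊓ Subgroup.normalizer ((T : Subgroup G) : Set G) ∧ A.map (MulAut.conj g).toMonoidHom ≠ A := by
  classical
  have hSp : IsPGroup p (S : Subgroup G) := S.isPGroup'
  have hAS : A ≤ (S : Subgroup G) := hAZ.trans inf_le_left
  have hAC : A ≤ Subgroup.centralizer (((S : Subgroup G) : Subgroup G) : Set G) := hAZ.trans inf_le_right
  -- candidates
  have key : ∀ (d : ℕ) (T : Subgroup G), Cfsg.IsWellPlaced p W (S : Subgroup G) T → A ≤ T →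
      (∃ g ∈ Subgroup.normalizer ((T : Subgroup G) : Set G),
        A.map (MulAut.conj g).toMonoidHom ≤ (S : Subgroup G) ⊓ Subgroup.normalizer ((T : Subgroup G) : Set G) ∧
        A.map (MulAut.conj g).toMonoidHom ≠ A) →
      Nat.card (S : Subgroup G) - Nat.card ↥((S : Subgroup G) ⊓ Subgroup.normalizer ((T : Subgroup G) : Set G)) = d →
      ∃ T : Subgroup G, Cfsg.IsWellPlaced p W (S : Subgroup G) T ∧ A ≤ T ∧ Subgroup.normalizer ((W ((S : Subgroup G) ⊓ Subgroup.normalizer ((T : Subgroup G) : Set G)) : Subgroup G) : Set G) ≤ Subgroup.normalizer ((A : Subgroup G) : Set G) ∧ ¬ p ∣ ((S : Subgroup G) ⊓ Subgroup.normalizer ((T : Subgroup G) : Set G)).relIndex (Subgroup.normalizer ((T : Subgroup G) : Set G)) ∧ A ≤ Subgroup.centralizer (((S : Subgroup G) ⊓ Subgroup.normalizer ((T : Subgroup G) : Set G) : Subgroup G) : Set G) ∧ ∃ g ∈ Subgroup.normalizer ((T : Subgroup G) : Set G), A.map (MulAut.conj g).toMonoidHom ≤ (S : Subgroup G) ⊓ Subgroup.normalizer ((T : Subgroup G) : Set G) ∧ A.map (MulAut.conj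 g).toMonoidHom ≠ A := by
    intro d
    induction d using Nat.strong_induction_on with
    | _ d ih =>
      intro T hwp hAT hg hd
      set R := (S : Subgroup G) ⊓ Subgroup.normalizer ((T : Subgroup G) : Set G) with hR
      have hRp : IsPGroup p R := hSp.to_le inf_le_left
      have hACR : A ≤ Subgroup.centralizer ((R : Subgroup G) : Set G) :=
        hAC.trans (Subgroup.centralizer_le (SetLike.coe_subset_coe.mpr inf_le_left))
      by_cases hN : Subgroup.normalizer ((W R : Subgroup G) : Set G) ≤ Subgroup.normalizer ((A : Subgroup G) : Set G)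
      · refine ⟨T, hwp, hAT, hN, ?_, hACR, hg⟩
        have := hwp.2 0
        rwa [Cfsg.Agent.Lib.Helper14.functorTower_zero] at this
      · have hRS : R ≠ (S : Subgroup G) := by
          intro h
          rw [h] at hN
          exact hN hAN
        have hT1 : Cfsg.functorTower W (S : Subgroup G) T 1 = W R := by
          rw [Cfsg.Agent.Lib.Helper14.functorTower_succ]
          show W ((S : Subgroup G) ⊓ Subgroup.normalizer
            ((Cfsg.functorTower W (S : Subgroup G) T 0 : Subgroup G) : Set G)) = W R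
          rw [Cfsg.Agent.Lib.Helper14.functorTower_zero]
        have hwp1 := Cfsg.Agent.Lib.Helper14.isWellPlaced_shift hW hSp hwp
        rw [hT1] at hwp1
        have hAR : A ≤ R := hAT.trans (le_inf hwp.1 Subgroup.le_normalizer)
        have hAWR : A ≤ W R := (le_inf hAR hACR).trans (hWZ R hRp)
        have hWRR : W R ≤ R := (hW R hRp).1
        have hWRle : W R ≤ (S : Subgroup G) ⊓ Subgroup.normalizer ((W R : Subgroup G) : Set G) :=
          le_inf (hWRR.trans inf_le_left) Subgroup.le_normalizer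
        obtain ⟨y, hyN, hyA⟩ := SetLike.not_le_iff_exists.mp hN
        have hRR1 : (S : Subgroup G) ⊓ Subgroup.normalizer (R : Set G) ≤
            (S : Subgroup G) ⊓ Subgroup.normalizer ((W R : Subgroup G) : Set G) :=
          inf_le_inf_left _ (Cfsg.Agent.Lib.Helper14.normalizer_le_normalizer_functor hW hRp)
        have hlt : Nat.card R <
            Nat.card ↥((S : Subgroup G) ⊓ Subgroup.normalizer ((W R : Subgroup G) : Set G)) :=
          lt_of_lt_of_le (Cfsg.Agent.Lib.Helper14.card_lt_card_normalizer hSp inf_le_left hRS)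
            (Subgroup.card_le_of_le hRR1)
        have hle1 : Nat.card ↥((S : Subgroup G) ⊓ Subgroup.normalizer ((W R : Subgroup G) : Set G))
            ≤ Nat.card (S : Subgroup G) := Subgroup.card_le_of_le inf_le_left
        refine ih _ (by omega) (W R) hwp1 hAWR ⟨y, hyN, ?_, ?_⟩ rfl
        · refine le_trans ?_ hWRle
          have := Subgroup.map_mono (f := (MulAut.conj y).toMonoidHom) hAWR
          rwa [Cfsg.Agent.Lib.Helper14.map_conj_eq_self_of_mem_normalizer hyN] at this
        · intro h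
          exact hyA (Cfsg.Agent.Lib.Helper14.mem_normalizer_of_map_conj_eq h)
  -- a first candidate from the conjugation family of well-placed subgroups
  have hnwc' : ∃ g : G, A.map (MulAut.conj g).toMonoidHom ≤ (S : Subgroup G) ∧
      A.map (MulAut.conj g).toMonoidHom ≠ A := by
    by_contra hcon
    push Not at hcon
    exact hnwc ⟨hAS, hcon⟩
  obtain ⟨g, hgS, hgA⟩ := hnwc'
  have h𝓕 : ∀ U ∈ {T : Subgroup G | Cfsg.IsWellPlaced p W (S : Subgroup G) T},
      U ≤ (S : Subgroup G) := fun U hU => hU.1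
  have hconj : Cfsg.Agent.Lib.Helper14.conjR g⁻¹ (A : Set G) =
      ((A.map (MulAut.conj g).toMonoidHom : Subgroup G) : Set G) := by
    rw [Cfsg.Agent.Lib.Helper14.conjR_coe, inv_inv]
  have hchain : Cfsg.Agent.Lib.Helper14.FChain
      {T : Subgroup G | Cfsg.IsWellPlaced p W (S : Subgroup G) T} (A : Set G) g⁻¹ := by
    refine Cfsg.Agent.Lib.Helper14.fchain_of_fullyNormalized_set S _ h𝓕 ?_ (A : Set G) g⁻¹
      (SetLike.coe_subset_coe.mpr hAS) (by rw [hconj]; exact SetLike.coe_subset_coe.mpr hgS)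
    intro T hT
    obtain ⟨g', hg'⟩ := Cfsg.Agent.Lib.Helper14.exists_isWellPlaced_conj hW S hT
    refine ⟨_, hg', ⟨g', rfl⟩, ?_⟩
    have := hg'.2 0
    rwa [Cfsg.Agent.Lib.Helper14.functorTower_zero] at this
  obtain ⟨T, hT, x, hx, hAT, hxA⟩ := exists_moving_step hchain (by
    rw [hconj]
    intro h
    exact hgA (SetLike.coe_injective h))
  have hAT' : A ≤ T := SetLike.coe_subset_coe.mp hAT
  have hxconj : Cfsg.Agent.Lib.Helper14.conjR x (A : Set G) =
      ((A.map (MulAut.conj x⁻¹).toMonoidHom : Subgroup G) : Set G) :=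
    Cfsg.Agent.Lib.Helper14.conjR_coe x A
  refine key _ T hT hAT' ⟨x⁻¹, inv_mem hx, ?_, ?_⟩ rfl
  · refine le_trans ?_ (le_inf hT.1 Subgroup.le_normalizer)
    have := Subgroup.map_mono (f := (MulAut.conj x⁻¹).toMonoidHom) hAT'
    rwa [Cfsg.Agent.Lib.Helper14.map_conj_eq_self_of_mem_normalizer (inv_mem hx)] at this
  · intro h
    apply hxA
    rw [hxconj, h]

end Cfsg.Agent.S1968
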