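import Cfsg.Statements.S1970
import Cfsg.Agent.Lib.Helper14.SecT

set_option autoImplicit false
universe u
open Cfsg

namespace Cfsg.Agent.S1970

open Cfsg.Agent.Lib.Helper14 Cfsg in
theorem tf_of_pCore_focal {p : ℕ} [hp : Fact p.Prime]
    {𝓦 : Set (∀ (Q : Type u) [Group Q], Subgroup Q)} (h𝓦 : ∀ W ∈ 𝓦, IsCharPFunctor.{u} p W)
    {X : Type u} [Group X] [Finite X]
    (hsub : ∀ H : Subgroup X, H ≠ ⊤ → TF p 𝓦 ↥H)
    (hquot : pCore p X ≠ ⊥ → TF p 𝓦 (X ⧸ pCore p X))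
    (hQD : ∀ S : Sylow p X, pCore p X ⊓ ⁅(⊤ : Subgroup X), ⊤⁆ ≤
      ⨆ W ∈ fam 𝓦 X, (S : Subgroup X) ⊓
        ⁅Subgroup.normalizer ((W (S : Subgroup X) : Subgroup X) : Set X),
          Subgroup.normalizer ((W (S : Subgroup X) : Subgroup X) : Set X)⁆) : TF p 𝓦 X := by
  by_cases hQ : pCore p X = ⊥
  · exact tf_of_pCore_eq_bot h𝓦 hQ hsub
  · intro S
    have hQS : pCore p X ≤ (S : Subgroup X) := (pCore_isPGroup p).le_sylow_of_normal S
    by_cases hSQ : (S : Subgroup X) = pCore p X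
    · exact (inf_le_inf_right _ hSQ.le).trans (hQD S)
    · have hL : ∀ W ∈ 𝓦, TF p 𝓦 ↥((Subgroup.normalizer ((inducedFunctor W
          ((S : Subgroup X).map (QuotientGroup.mk' (pCore p X))) : Subgroup (X ⧸ pCore p X)) :
            Set (X ⧸ pCore p X))).comap (QuotientGroup.mk' (pCore p X))) := fun W hW =>
        hsub _ (comap_normalizer_inducedFunctor_ne_top (h𝓦 W hW) S hSQ)
      exact (focal_mod_normal h𝓦 S (pCore p X) hQS (hquot hQ) hL).trans (sup_le le_rfl (hQD S))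

/-- Let p be a prime, G a finite group and W an isomorphism-invariant p-group functor (W assigns to every group Q a subgroup W(Q), nontrivial whenever Q is a nontrivial finite p-group, and every isomorphism from a finite p-group Q onto a group R carries W(Q) onto W(R)). Suppose that for every section G* = K/R of G with C_{G*}(O_p(G*)) ≤ O_p(G*) and every Sylow p-subgroup S* of G*, one has O_p(G*) ∩ (G*)' = O_p(G*) ∩ (N_{G*}(W(S*)))'. Then W controls transfer in every section G* of G: S* ∩ (G*)' = S* ∩ (N_{G*}(W(S*)))' for a Sylow p-subgroup S* of G*. -/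
theorem result {G : Type u} [Group G] [Finite G] {p : ℕ} [Fact p.Prime] (W : ∀ (Q : Type u) [Group Q], Subgroup Q) (hW : Cfsg.IsCharPFunctor.{u} p W) (hloc : ∀ (K R : Subgroup G) [hR : (R.subgroupOf K).Normal], Subgroup.centralizer ((Cfsg.pCore p (↥K ⧸ R.subgroupOf K) : Subgroup (↥K ⧸ R.subgroupOf K)) : Set (↥K ⧸ R.subgroupOf K)) ≤ Cfsg.pCore p (↥K ⧸ R.subgroupOf K) → ∀ T : Sylow p (↥K ⧸ R.subgroupOf K), Cfsg.pCore p (↥K ⧸ R.subgroupOf K) ⊓ commutator (↥K ⧸ R.subgroupOf K) = Cfsg.pCore p (↥K ⧸ R.subgroupOf K) ⊓ ⁅Subgroup.normalizer ((Cfsg.inducedFunctor (G := (↥K ⧸ R.subgroupOf K)) W ((T : Subgroup (↥K ⧸ R.subgroupOf K))) : Subgroup (↥K ⧸ R.subgroupOf K)) : Set (↥K ⧸ R.subgroupOf K)), Subgroup.normalizer ((Cfsg.inducedFunctor (G := (↥K ⧸ R.subgroupOf K)) W ((T : Subgroup (↥K ⧸ R.subgroupOf K))) : Subgroup (↥K ⧸ R.subgroupOf K)) : Set (↥K ⧸ R.subgroupOf K))⁆) : ∀ (K R : Subgroup G) [hR : (R.subgroupOf K).Normal],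 Cfsg.ControlsTransferIn p (Cfsg.inducedFunctor (G := (↥K ⧸ R.subgroupOf K)) W) ⊤ := by
  open Cfsg.Agent.Lib.Helper14 in
  have h𝓦 : ∀ W' ∈ ({W} : Set (∀ (Q : Type u) [Group Q], Subgroup Q)),
      Cfsg.IsCharPFunctor.{u} p W' := by
    intro W' hW'
    rw [Set.mem_singleton_iff] at hW'
    exact hW' ▸ hW
  open Cfsg.Agent.Lib.Helper14 in
  have htf := tf_sections (G := G) h𝓦 (fun X _ _ hX hC IH => by
    obtain ⟨K, R, hR, ⟨e⟩⟩ := hX
    have hC' := constrained_of_equiv e hC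
    have hcard : Nat.card (↥K ⧸ R.subgroupOf K) = Nat.card X := (Nat.card_congr e.toEquiv).symm
    refine tf_of_equiv h𝓦 e.symm (tf_of_pCore_focal h𝓦 ?_ ?_ ?_)
    · intro H hH
      exact IH ↥H ((isSection_literal K R).subgroup H)
        (hcard ▸ card_subgroup_lt_of_ne_top H hH)
    · intro hQ
      exact IH _ ((isSection_literal K R).quotient _)
        (hcard ▸ card_quotient_lt_of_ne_bot _ hQ)
    · intro S
      have h := hloc K R hC' S
      have hQS : Cfsg.pCore p (↥K ⧸ R.subgroupOf K) ≤ (S : Subgroup (↥K ⧸ R.subgroupOf K)) :=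
        (pCore_isPGroup p).le_sylow_of_normal S
      have h' : Cfsg.pCore p (↥K ⧸ R.subgroupOf K) ⊓ ⁅(⊤ : Subgroup (↥K ⧸ R.subgroupOf K)), ⊤⁆ =
          Cfsg.pCore p (↥K ⧸ R.subgroupOf K) ⊓
            ⁅Subgroup.normalizer ((Cfsg.inducedFunctor W (S : Subgroup (↥K ⧸ R.subgroupOf K)) :
              Subgroup (↥K ⧸ R.subgroupOf K)) : Set (↥K ⧸ R.subgroupOf K)),
            Subgroup.normalizer ((Cfsg.inducedFunctor W (S : Subgroup (↥K ⧸ R.subgroupOf K)) :
              Subgroup (↥K ⧸ R.subgroupOf K)) : Set (↥K ⧸ R.subgroupOf K))⁆ := h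
      rw [h']
      exact (inf_le_inf_right _ hQS).trans
        (le_iSup₂_of_le (Cfsg.inducedFunctor (G := (↥K ⧸ R.subgroupOf K)) W) ⟨W, rfl, rfl⟩ le_rfl))
  intro K R hR
  obtain ⟨T⟩ : Nonempty (Sylow p (↥K ⧸ R.subgroupOf K)) := inferInstance
  open Cfsg.Agent.Lib.Helper14 in
  have h1 := htf _ (isSection_literal K R) T
  refine ⟨T, le_top, T.isPGroup', ?_, le_antisymm ?_ ?_⟩
  · rw [Subgroup.relIndex_top_right]; exact T.not_dvd_index
  · simp only [top_inf_eq]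
    refine h1.trans (iSup₂_le ?_)
    rintro _ ⟨W', hW', rfl⟩
    rw [Set.mem_singleton_iff] at hW'
    rw [hW']
  · exact inf_le_inf_left _ (Subgroup.commutator_mono le_top le_top)

end Cfsg.Agent.S1970
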