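import Cfsg.Statements.S1992
import Cfsg.Agent.S1991
import Cfsg.Agent.S0144
import Cfsg.Agent.Lib.Helper14.IndexP

set_option autoImplicit false
open Cfsg

namespace Cfsg.Agent.S1992

theorem sylow_le_of_index {G : Type*} [Group G] [Finite G] {p q : ℕ} (hp : p.Prime)
    [hq : Fact q.Prime] (hne : q ≠ p) (N : Subgroup G) [N.Normal] (hidx : N.index = p)
    (Q : Sylow q G) : (Q : Subgroup G) ≤ N := by
  intro g hg
  rw [← QuotientGroup.eq_one_iff (N := N)]
  have h1 : orderOf (g : G ⧸ N) ∣ p := by
    have h0 := orderOf_dvd_natCard (g : G ⧸ N)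
    rwa [← Subgroup.index_eq_card, hidx] at h0
  obtain ⟨k, hk⟩ := IsPGroup.iff_orderOf.mp Q.isPGroup' ⟨g, hg⟩
  rw [Subgroup.orderOf_mk] at hk
  have h3 : orderOf (g : G ⧸ N) ∣ orderOf g := orderOf_map_dvd (QuotientGroup.mk' N) g
  rw [hk] at h3
  have hcop : Nat.Coprime (q ^ k) p :=
    Nat.Coprime.pow_left k ((Nat.coprime_primes hq.out hp).mpr hne)
  exact orderOf_eq_one_iff.mp (Nat.eq_one_of_dvd_coprimes hcop h3 h1)

theorem pgroup_of_index {G : Type*} [Group G] [Finite G]
    (h : ∀ q : ℕ, q.Prime → q ∣ Nat.card G → ∀ Q : Sylow q G,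
      Subgroup.normalizer ((Q : Subgroup G) : Set G) = Q)
    (p : ℕ) (hp : p.Prime) (N : Subgroup G) (hN : N.Normal) (hidx : N.index = p) :
    IsPGroup p G := by
  have key : ∀ q : ℕ, q.Prime → q ∣ Nat.card G → q = p := by
    intro q hq hqd
    by_contra hne
    have : Fact q.Prime := ⟨hq⟩
    obtain ⟨Q⟩ : Nonempty (Sylow q G) := inferInstance
    have hQN := sylow_le_of_index hp hne N hidx Q
    have hfr : Subgroup.normalizer ((Q : Subgroup G) : Set G) ⊔ N = ⊤ :=
      Sylow.normalizer_sup_eq_top' Q hQN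
    rw [h q hq hqd Q, sup_eq_right.mpr hQN] at hfr
    rw [hfr, Subgroup.index_top] at hidx
    exact hp.one_lt.ne hidx
  have hcard := Nat.eq_prime_pow_of_unique_prime_dvd (Nat.card_pos.ne' : Nat.card G ≠ 0)
    (fun {d} hd hdd => key d hd hdd)
  exact IsPGroup.of_card hcard

theorem exists_index_of_solvable {G : Type*} [Group G] [Finite G] [Nontrivial G]
    (hsolv : Group.IsSolvable G) :
    ∃ (p : ℕ) (_ : p.Prime) (N : Subgroup G), N.Normal ∧ N.index = p := by
  have hlt := Group.IsSolvable.commutator_lt_top_of_nontrivial G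
  obtain ⟨x, -, hx⟩ := SetLike.exists_of_lt hlt
  have hy : Abelianization.of x ≠ 1 := by
    intro h1
    apply hx
    rw [← Abelianization.ker_of G]
    exact h1
  have hord : orderOf (Abelianization.of x) ≠ 1 := fun h1 => hy (orderOf_eq_one_iff.mp h1)
  obtain ⟨p, hp, hpd⟩ := Nat.exists_prime_and_dvd hord
  have : Fact p.Prime := ⟨hp⟩
  obtain ⟨a, m, hm, hc⟩ := Nat.exists_eq_pow_mul_and_not_dvd
    (Nat.card_pos.ne' : Nat.card G ≠ 0) p hp.ne_one
  have htj : (x ^ m) ^ (p ^ a) = 1 := by
    rw [← pow_mul, mul_comm, ← hc]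
    exact pow_card_eq_one'
  have ht : x ^ m ∉ commutator G := by
    intro hmem
    rw [← Abelianization.ker_of G, MonoidHom.mem_ker, map_pow] at hmem
    exact hm (hpd.trans (orderOf_dvd_of_pow_eq_one hmem))
  obtain ⟨N, hNn, hidx⟩ :=
    Cfsg.Agent.Lib.Helper14.exists_normal_index_p_of_not_mem_commutator (x ^ m) a htj ht
  exact ⟨p, hp, N, hNn, hidx⟩

/-- Let G be a finite group in which, for every prime q dividing the order of G, every Sylow q-subgroup is its own normalizer. Then the order of G is a power of a single prime (G is a q-group for some prime q; for G trivial any prime works). -/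
theorem result {G : Type*} [Group G] [Finite G] (h : ∀ q : ℕ, q.Prime → q ∣ Nat.card G → ∀ Q : Sylow q G, Subgroup.normalizer ((Q : Subgroup G) : Set G) = Q) : ∃ q : ℕ, q.Prime ∧ IsPGroup q G := by
  classical
  by_cases htriv : Nat.card G = 1
  · exact ⟨2, Nat.prime_two, IsPGroup.of_card (n := 0) (by rw [htriv, pow_zero])⟩
  by_cases h5 : ∃ p : ℕ, p.Prime ∧ 5 ≤ p ∧ p ∣ Nat.card G
  · obtain ⟨p, hp, hp5, hpd⟩ := h5
    have : Fact p.Prime := ⟨hp⟩
    obtain ⟨S⟩ : Nonempty (Sylow p G) := inferInstance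
    have hS : (S : Subgroup G) ≠ ⊥ := Sylow.ne_bot_of_dvd_card S hpd
    have hN : ∀ g ∈ Subgroup.normalizer (((S : Subgroup G) : Subgroup G) : Set G),
        (orderOf g).Coprime p →
        g ∈ Subgroup.centralizer (((S : Subgroup G) : Subgroup G) : Set G) := by
      intro g hg hcop
      rw [h p hp hpd S] at hg
      obtain ⟨k, hk⟩ := IsPGroup.iff_orderOf.mp S.isPGroup' ⟨g, hg⟩
      rw [Subgroup.orderOf_mk] at hk
      have hg1 : g = 1 := by
        rw [hk] at hcop
        cases k with
        | zero => rwa [pow_zero, orderOf_eq_one_iff] at hk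
        | succ k =>
          exfalso
          have h1 := Nat.Coprime.coprime_dvd_left (dvd_pow_self p (Nat.succ_ne_zero k)) hcop
          rw [Nat.coprime_self] at h1
          exact hp.ne_one h1
      rw [hg1]
      exact one_mem _
    obtain ⟨N, hNn, hidx⟩ := Cfsg.Agent.S1991.result hp5 S hS hN
    exact ⟨p, hp, pgroup_of_index h p hp N hNn hidx⟩
  · push Not at h5
    obtain ⟨a, m, hm, hcard⟩ := Nat.exists_eq_two_pow_mul_odd (Nat.card_pos.ne' : Nat.card G ≠ 0)
    have hm0 : m ≠ 0 := by
      rintro rfl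
      simp at hm
    have hm3 : ∀ {d : ℕ}, d.Prime → d ∣ m → d = 3 := by
      intro d hd hdm
      have hdG : d ∣ Nat.card G := by
        rw [hcard]
        exact Dvd.dvd.mul_left hdm _
      have hlt : d < 5 := by
        by_contra hge
        exact h5 d hd (not_lt.mp hge) hdG
      have hd2 : d ≠ 2 := by
        rintro rfl
        exact (Nat.not_even_iff_odd.mpr hm) (even_iff_two_dvd.mpr hdm)
      have h2le := hd.two_le
      interval_cases d
      · exact absurd rfl hd2
      · rfl
      · exact absurd hd (by decide)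
    have hmpow := Nat.eq_prime_pow_of_unique_prime_dvd hm0 hm3
    have hsolv : Group.IsSolvable G :=
      Cfsg.Agent.S0144.result 2 3 a m.primeFactorsList.length Nat.prime_two Nat.prime_three
        (by rw [← hmpow]; exact hcard)
    have : Nontrivial G := by
      rw [← Finite.one_lt_card_iff_nontrivial]
      have := Nat.card_pos (α := G)
      omega
    obtain ⟨p, hp, N, hNn, hidx⟩ := exists_index_of_solvable hsolv
    exact ⟨p, hp, pgroup_of_index h p hp N hNn hidx⟩

end Cfsg.Agent.S1992
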