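import Cfsg.Statements.S1993
import Cfsg.Agent.S1987
import Cfsg.Agent.S1972
import Cfsg.Agent.Lib.Helper14.KInfCubic
import Cfsg.Agent.Lib.Helper14.Sections
import Cfsg.Agent.Lib.Helper14.TransferCtl
import Cfsg.Agent.Lib.Helper14.KInfSubForm

set_option autoImplicit false
universe u
open Cfsg

namespace Cfsg.Agent.S1993

/-- Let p be a prime, G a finite group with Sylow p-subgroup S, and K the upper K-infinity subgroup of S. If p ≥ 5 then S ∩ G' = S ∩ (N_G(K))'; and if p is odd and every section of G is p-stable in the normalizer form, then K controls strong fusion in G. -/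
theorem result {G : Type u} [Group G] [Finite G] {p : ℕ} [Fact p.Prime] (S : Sylow p G) : (5 ≤ p → (S : Subgroup G) ⊓ commutator G = (S : Subgroup G) ⊓ ⁅Subgroup.normalizer ((Cfsg.inducedFunctor Cfsg.kInfUpper (S : Subgroup G) : Subgroup G) : Set G), Subgroup.normalizer ((Cfsg.inducedFunctor Cfsg.kInfUpper (S : Subgroup G) : Subgroup G) : Set G)⁆) ∧ (p ≠ 2 → (∀ (K R : Subgroup G) [hR : (R.subgroupOf K).Normal], Cfsg.IsNormalizerPStable p (↥K ⧸ R.subgroupOf K)) → Cfsg.ControlsStrongFusion p (Cfsg.inducedFunctor Cfsg.kInfUpper (S : Subgroup G))) := by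
  have hW := Cfsg.Agent.Lib.Helper14.isCharPFunctor_kInfUpper.{u} p
  refine ⟨fun hp => ?_, fun _ hst => ?_⟩
  · have hctl0 := Cfsg.Agent.S1972.result (G := G) (p := p) Cfsg.kInfUpper hW (by
      intro K R hR _ T hWn
      obtain ⟨g, hgT, hgO, hq⟩ :=
        Cfsg.Agent.Lib.Helper14.kinf_exists_quartic_element T (Or.inr hWn)
      refine ⟨g, hgT, hgO, fun U V hUV hUT => ?_⟩
      have hVn : V.Normal := hUV.2.2.1
      have h4 := Cfsg.Agent.Lib.Helper14.iterCommutator_le_add U (Subgroup.zpowers g) V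
        (Cfsg.Agent.Lib.Helper14.le_normalizer_of_normal' V _) 4 (hq U V hUV hUT) (p - 1 - 4)
      have e : 4 + (p - 1 - 4) = p - 1 := by omega
      rw [e] at h4
      exact h4)
    obtain ⟨K, R, hR, ⟨e⟩⟩ := Cfsg.Agent.Lib.Helper14.isSection_self G
    have hctl : Cfsg.ControlsTransferIn p (Cfsg.inducedFunctor (G := G) Cfsg.kInfUpper) ⊤ :=
      Cfsg.Agent.Lib.Helper14.controlsTransferIn_top_of_equiv hW e.symm (hctl0 K R)
    have hidx : ¬ p ∣ (S : Subgroup G).relIndex ⊤ := by
      rw [Subgroup.relIndex_top_right]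
      exact S.not_dvd_index
    have h1 := Cfsg.Agent.Lib.Helper14.controlsTransferIn_at
      (Cfsg.Agent.Lib.Helper14.isConjugacyFunctor_inducedFunctor hW) hctl le_top S.isPGroup' hidx
    rw [top_inf_eq] at h1
    rw [commutator_def]
    apply le_antisymm
    · exact le_inf inf_le_left h1
    · exact inf_le_inf le_rfl (Subgroup.commutator_mono le_top le_top)
  · exact Cfsg.Agent.S1987.kinf_sf hst Cfsg.kInfUpper hW (Or.inr rfl) S

end Cfsg.Agent.S1993
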