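import Cfsg.Statements.S1996
import Cfsg.Agent.Lib.Helper14.SecMain

set_option autoImplicit false
universe u
open Cfsg

namespace Cfsg.Agent.S1996

/-- Let p be a prime, G a finite group and W₁, W₂ two isomorphism-invariant p-group functors (W assigns to every group Q a subgroup W(Q), nontrivial whenever Q is a nontrivial finite p-group, and every isomorphism from a finite p-group Q onto a group R carries W(Q) onto W(R)). Suppose that G* = N_{G*}(W₁(S*)) N_{G*}(W₂(S*)) whenever G* = K/R is a section of G with C_{G*}(O_p(G*)) ≤ O_p(G*) and S* is a Sylow p-subgroup of G*. Then the pair {W₁, W₂} controls strong fusion in G. -/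
theorem result {G : Type u} [Group G] [Finite G] {p : ℕ} [Fact p.Prime] (W₁ W₂ : ∀ (Q : Type u) [Group Q], Subgroup Q) (hW₁ : Cfsg.IsCharPFunctor.{u} p W₁) (hW₂ : Cfsg.IsCharPFunctor.{u} p W₂) (hfac : ∀ (K R : Subgroup G) [hR : (R.subgroupOf K).Normal], Subgroup.centralizer ((Cfsg.pCore p (↥K ⧸ R.subgroupOf K) : Subgroup (↥K ⧸ R.subgroupOf K)) : Set (↥K ⧸ R.subgroupOf K)) ≤ Cfsg.pCore p (↥K ⧸ R.subgroupOf K) → ∀ T : Sylow p (↥K ⧸ R.subgroupOf K), ∀ x : (↥K ⧸ R.subgroupOf K), ∃ a ∈ Subgroup.normalizer ((Cfsg.inducedFunctor (G := (↥K ⧸ R.subgroupOf K)) W₁ (T : Subgroup (↥K ⧸ R.subgroupOf K)) : Subgroup (↥K ⧸ R.subgroupOf K)) : Set (↥K ⧸ R.subgroupOf K)), ∃ b ∈ Subgroup.normalizer ((Cfsg.inducedFunctor (G := (↥K ⧸ R.subgroupOf K)) W₂ (T : Subgroup (↥K ⧸ R.subgroupOf K)) : Subgroup (↥K ⧸ R.subgroupOf K)) : Set (↥K ⧸ R.subgroupOf K)), x = a * b) : Cfsg.FamilyControlsStrongFusionIn p {Cfsg.inducedFunctor (G := G) W₁, Cfsg.inducedFunctor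 (G := G) W₂} ⊤ := by
  open Cfsg.Agent.Lib.Helper14 in
  have h𝓦 : ∀ W' ∈ ({W₁, W₂} : Set (∀ (Q : Type u) [Group Q], Subgroup Q)),
      Cfsg.IsCharPFunctor.{u} p W' := by
    intro W' hW'
    rcases hW' with h | h
    · exact h ▸ hW₁
    · rw [Set.mem_singleton_iff] at h
      exact h ▸ hW₂
  open Cfsg.Agent.Lib.Helper14 in
  have hsf := sf_sections (G := G) h𝓦 (fun X _ _ hX hC _ => by
    obtain ⟨K, R, hR, ⟨e⟩⟩ := hX
    have hC' := constrained_of_equiv e hC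
    refine sf_of_equiv h𝓦 e.symm ?_
    intro T B y hB hBy
    obtain ⟨a, ha, b, hb, rfl⟩ := hfac K R hC' T y
    have hTp := T.isPGroup'
    have hT1 := Subgroup.le_normalizer.trans
      (sylow_le_normalizer_inducedFunctor hW₁ (T : Subgroup (↥K ⧸ R.subgroupOf K)) hTp)
    have hT2 := Subgroup.le_normalizer.trans
      (sylow_le_normalizer_inducedFunctor hW₂ (T : Subgroup (↥K ⧸ R.subgroupOf K)) hTp)
    have hP₁T : Subgroup.closure (conjL b B) ≤
        (T : Subgroup (↥K ⧸ R.subgroupOf K)).map (MulAut.conj b).toMonoidHom := by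
      rw [Subgroup.closure_le]
      rintro _ ⟨x, hx, rfl⟩
      exact conj_mem_map_conj (hB hx)
    have hP₁p : IsPGroup p (Subgroup.closure (conjL b B)) := (hTp.map _).to_le hP₁T
    have hP₁le : Subgroup.closure (conjL b B) ≤
        Subgroup.normalizer ((Cfsg.inducedFunctor W₁ (T : Subgroup (↥K ⧸ R.subgroupOf K)) :
          Subgroup (↥K ⧸ R.subgroupOf K)) : Set (↥K ⧸ R.subgroupOf K)) ⊓
        Subgroup.normalizer ((Cfsg.inducedFunctor W₂ (T : Subgroup (↥K ⧸ R.subgroupOf K)) :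
          Subgroup (↥K ⧸ R.subgroupOf K)) : Set (↥K ⧸ R.subgroupOf K)) := by
      rw [Subgroup.closure_le]
      rintro _ ⟨x, hx, rfl⟩
      refine Subgroup.mem_inf.mpr ⟨?_, mul_mem (mul_mem hb (hT2 (hB hx))) (inv_mem hb)⟩
      have h1 : a * b * x * (a * b)⁻¹ ∈ (T : Subgroup (↥K ⧸ R.subgroupOf K)) :=
        hBy (mem_conjL_of_mem hx)
      have e : b * x * b⁻¹ = a⁻¹ * (a * b * x * (a * b)⁻¹) * a := by group
      show b * x * b⁻¹ ∈ _
      rw [e]
      exact mul_mem (mul_mem (inv_mem ha) (hT1 h1)) ha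
    obtain ⟨c, hc, hconj⟩ := Sylow.exists_conj_mem_of_le T (le_inf hT1 hT2) hP₁p hP₁le
    obtain ⟨hc1, hc2⟩ := Subgroup.mem_inf.mp hc
    have himg1 : conjL (c * b) B ⊆ ((T : Subgroup (↥K ⧸ R.subgroupOf K)) : Set _) := by
      rintro _ ⟨x, hx, rfl⟩
      have h1 := hconj (b * x * b⁻¹) (Subgroup.subset_closure (mem_conjL_of_mem hx))
      have e : c * b * x * (c * b)⁻¹ = c * (b * x * b⁻¹) * c⁻¹ := by group
      show c * b * x * (c * b)⁻¹ ∈ _
      rw [e]; exact h1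
    have e0 : a * c⁻¹ * (c * b) = a * b := by group
    have h1 : Reach (fam ({W₁, W₂} : Set (∀ (Q : Type u) [Group Q], Subgroup Q))
        (↥K ⧸ R.subgroupOf K)) (T : Subgroup (↥K ⧸ R.subgroupOf K)) B (c * b) :=
      Reach.step hB ⟨W₂, Or.inr rfl, rfl⟩ (mul_mem hc2 hb) himg1
    have h2 : Reach (fam ({W₁, W₂} : Set (∀ (Q : Type u) [Group Q], Subgroup Q))
        (↥K ⧸ R.subgroupOf K)) (T : Subgroup (↥K ⧸ R.subgroupOf K)) (conjL (c * b) B)
        (a * c⁻¹) :=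
      Reach.step himg1 ⟨W₁, Or.inl rfl, rfl⟩ (mul_mem ha (inv_mem hc1))
        (by rw [← conjL_mul, e0]; exact hBy)
    have h3 := h1.trans h2
    rwa [e0] at h3)
  open Cfsg.Agent.Lib.Helper14 in
  have h := ctl_of_sf (hsf G (isSection_self G))
  open Cfsg.Agent.Lib.Helper14 in
  have e : fam ({W₁, W₂} : Set (∀ (Q : Type u) [Group Q], Subgroup Q)) G =
      {Cfsg.inducedFunctor (G := G) W₁, Cfsg.inducedFunctor (G := G) W₂} :=
    Set.image_pair _ _ _
  rw [e] at h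
  exact h

end Cfsg.Agent.S1996
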