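import Cfsg.Statements.S1997
import Cfsg.Agent.Lib.Helper14.SecMain

set_option autoImplicit false
universe u
open Cfsg

namespace Cfsg.Agent.S1997

open Cfsg.Agent.Lib.Helper14

/-- The subgroup generated by the elements of order dividing `p` of the centre of `T`. -/
def zOm {X : Type u} [Group X] (p : ℕ) (T : Subgroup X) : Subgroup X :=
  omegaOne p (T ⊓ Subgroup.centralizer (T : Set X))

theorem zOm_le {X : Type u} [Group X] (p : ℕ) (T : Subgroup X) :
    zOm p T ≤ T ⊓ Subgroup.centralizer (T : Set X) := by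
  unfold zOm omegaOne
  rw [Subgroup.closure_le]
  intro x hx
  exact hx.1

theorem zOm_pow {X : Type u} [Group X] (p : ℕ) (T : Subgroup X) {z : X} (hz : z ∈ zOm p T) :
    z ^ p = 1 := by
  have hle := zOm_le p T
  unfold zOm omegaOne at hz
  induction hz using Subgroup.closure_induction with
  | mem x hx => exact hx.2
  | one => exact one_pow p
  | mul x y hx hy ihx ihy =>
    have hx' : x ∈ T := (Subgroup.mem_inf.mp (hle hx)).1
    have hy' : y ∈ Subgroup.centralizer (T : Set X) := (Subgroup.mem_inf.mp (hle hy)).2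
    have hc : Commute x y := Subgroup.mem_centralizer_iff.mp hy' x hx'
    rw [hc.mul_pow, ihx, ihy, one_mul]
  | inv x hx ih => rw [inv_pow, ih, inv_one]

theorem zOm_map_mem {X Y : Type u} [Group X] [Group Y] {p : ℕ} (f : X →* Y) {T : Subgroup X}
    {z : X} (hz : z ∈ zOm p T) : f z ∈ zOm p (T.map f) := by
  have h1 : (zOm p T).map f ≤ zOm p (T.map f) := by
    unfold zOm omegaOne
    rw [MonoidHom.map_closure]
    apply Subgroup.closure_mono
    rintro _ ⟨x, ⟨hx, hxp⟩, rfl⟩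
    obtain ⟨hxT, hxC⟩ := Subgroup.mem_inf.mp hx
    refine ⟨Subgroup.mem_inf.mpr ⟨Subgroup.mem_map_of_mem _ hxT, ?_⟩, by
      rw [← map_pow, hxp, map_one]⟩
    rw [Subgroup.mem_centralizer_iff]
    rintro _ ⟨t, ht, rfl⟩
    rw [← map_mul, ← map_mul, Subgroup.mem_centralizer_iff.mp hxC t ht]
  exact h1 (Subgroup.mem_map_of_mem f hz)

theorem zOm_map_subtype {G : Type u} [Group G] (p : ℕ) (H : Subgroup G) (T' : Subgroup ↥H) :
    (zOm p T').map H.subtype = zOm p (T'.map H.subtype) := by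
  unfold zOm omegaOne
  rw [MonoidHom.map_closure]
  congr 1
  ext y
  constructor
  · rintro ⟨x, ⟨hx, hxp⟩, rfl⟩
    obtain ⟨hxT, hxC⟩ := Subgroup.mem_inf.mp hx
    refine ⟨Subgroup.mem_inf.mpr ⟨Subgroup.mem_map_of_mem _ hxT, ?_⟩, ?_⟩
    · rw [Subgroup.mem_centralizer_iff]
      rintro _ ⟨t, ht, rfl⟩
      have h2 := congrArg Subtype.val (Subgroup.mem_centralizer_iff.mp hxC t ht)
      simpa using h2
    · have h2 := congrArg Subtype.val hxp
      simpa using h2
  · rintro ⟨hy, hyp⟩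
    obtain ⟨hyT, hyC⟩ := Subgroup.mem_inf.mp hy
    obtain ⟨x, hxT, rfl⟩ := hyT
    refine ⟨x, ⟨Subgroup.mem_inf.mpr ⟨hxT, ?_⟩, ?_⟩, rfl⟩
    · rw [Subgroup.mem_centralizer_iff]
      intro t ht
      have h2 := Subgroup.mem_centralizer_iff.mp hyC (H.subtype t) (Subgroup.mem_map_of_mem _ ht)
      apply Subtype.ext
      simpa using h2
    · apply Subtype.ext
      simpa using hyp

/-- The subgroup generated by the conjugates of `Z` under `H ∩ N(Wv)`. -/
def AH {X : Type u} [Group X] (Z Wv H : Subgroup X) : Subgroup X :=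
  Subgroup.closure {x | ∃ n ∈ H ⊓ Subgroup.normalizer (Wv : Set X), ∃ z ∈ Z, x = n * z * n⁻¹}

theorem AH_gen {X : Type u} [Group X] {Z Wv H : Subgroup X} {n z : X}
    (hn : n ∈ H ⊓ Subgroup.normalizer (Wv : Set X)) (hz : z ∈ Z) : n * z * n⁻¹ ∈ AH Z Wv H :=
  Subgroup.subset_closure ⟨n, hn, z, hz, rfl⟩

theorem AH_mono {X : Type u} [Group X] {Z Wv H H' : Subgroup X} (h : H ≤ H') :
    AH Z Wv H ≤ AH Z Wv H' := by
  unfold AH
  apply Subgroup.closure_mono
  rintro _ ⟨n, hn, z, hz, rfl⟩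
  exact ⟨n, inf_le_inf_right _ h hn, z, hz, rfl⟩

theorem AH_congr {X : Type u} [Group X] {Z Wv Wv' H H' : Subgroup X}
    (h : H ⊓ Subgroup.normalizer (Wv : Set X) = H' ⊓ Subgroup.normalizer (Wv' : Set X)) :
    AH Z Wv H = AH Z Wv' H' := by
  unfold AH
  rw [h]

theorem AH_le_of_forall {X : Type u} [Group X] {Z Wv Wv' H H' : Subgroup X}
    (h : ∀ n ∈ H ⊓ Subgroup.normalizer (Wv : Set X), ∀ z ∈ Z, n * z * n⁻¹ ∈ AH Z Wv' H') :
    AH Z Wv H ≤ AH Z Wv' H' := by
  have h1 : Subgroup.closure {x | ∃ n ∈ H ⊓ Subgroup.normalizer (Wv : Set X), ∃ z ∈ Z,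
      x = n * z * n⁻¹} ≤ AH Z Wv' H' := by
    rw [Subgroup.closure_le]
    rintro _ ⟨n, hn, z, hz, rfl⟩
    exact h n hn z hz
  exact h1

theorem AH_conj_mem {X : Type u} [Group X] {Z Wv H : Subgroup X} {m y : X}
    (hm : m ∈ H ⊓ Subgroup.normalizer (Wv : Set X)) (hy : y ∈ AH Z Wv H) :
    m * y * m⁻¹ ∈ AH Z Wv H := by
  unfold AH at hy
  induction hy using Subgroup.closure_induction with
  | mem x hx =>
    obtain ⟨n, hn, z, hz, rfl⟩ := hx
    have e : m * (n * z * n⁻¹) * m⁻¹ = (m * n) * z * (m * n)⁻¹ := by group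
    rw [e]
    exact AH_gen (mul_mem hm hn) hz
  | one =>
    have e : m * 1 * m⁻¹ = 1 := by group
    rw [e]
    exact one_mem _
  | mul x y _ _ ihx ihy =>
    have e : m * (x * y) * m⁻¹ = (m * x * m⁻¹) * (m * y * m⁻¹) := by group
    rw [e]
    exact mul_mem ihx ihy
  | inv x _ ih =>
    have e : m * x⁻¹ * m⁻¹ = (m * x * m⁻¹)⁻¹ := by group
    rw [e]
    exact inv_mem ih

theorem AH_le_normalizer {X : Type u} [Group X] {Z Wv H : Subgroup X} :
    H ⊓ Subgroup.normalizer (Wv : Set X) ≤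
      Subgroup.normalizer ((AH Z Wv H : Subgroup X) : Set X) := by
  intro m hm
  rw [Subgroup.mem_normalizer_iff]
  intro y
  constructor
  · exact fun hy => AH_conj_mem hm hy
  · intro hy
    have h1 := AH_conj_mem (inv_mem hm) hy
    have e : m⁻¹ * (m * y * m⁻¹) * m⁻¹⁻¹ = y := by group
    rwa [e] at h1

theorem AH_le {X : Type u} [Group X] {Z Wv H : Subgroup X} (hZ : Z ≤ Wv) : AH Z Wv H ≤ Wv := by
  unfold AH
  rw [Subgroup.closure_le]
  rintro _ ⟨n, hn, z, hz, rfl⟩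
  exact (Subgroup.mem_normalizer_iff.mp (Subgroup.mem_inf.mp hn).2 z).mp (hZ hz)

theorem AH_map_subtype {G : Type u} [Group G] (H : Subgroup G) (Z' Wv' X₀ : Subgroup ↥H) :
    (AH Z' Wv' X₀).map H.subtype =
      AH (Z'.map H.subtype) (Wv'.map H.subtype) (X₀.map H.subtype) := by
  unfold AH
  rw [MonoidHom.map_closure]
  congr 1
  ext y
  constructor
  · rintro ⟨_, ⟨n, hn, z, hz, rfl⟩, rfl⟩
    obtain ⟨hn1, hn2⟩ := Subgroup.mem_inf.mp hn
    refine ⟨H.subtype n, Subgroup.mem_inf.mpr ⟨Subgroup.mem_map_of_mem _ hn1,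
      Subgroup.le_normalizer_map H.subtype ⟨n, hn2, rfl⟩⟩, H.subtype z,
      Subgroup.mem_map_of_mem _ hz, ?_⟩
    simp
  · rintro ⟨m, hm, _, ⟨z, hz, rfl⟩, rfl⟩
    obtain ⟨hm1, hm2⟩ := Subgroup.mem_inf.mp hm
    obtain ⟨n, hn, rfl⟩ := hm1
    refine ⟨n * z * n⁻¹, ⟨n, Subgroup.mem_inf.mpr ⟨hn, ?_⟩, z, hz, rfl⟩, by simp⟩
    rw [Subgroup.mem_normalizer_iff]
    intro w
    have h1 := Subgroup.mem_normalizer_iff.mp hm2 (H.subtype w)
    have e : H.subtype n * H.subtype w * (H.subtype n)⁻¹ = H.subtype (n * w * n⁻¹) := by simp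
    rw [e, Subgroup.mem_map_iff_mem (Subgroup.subtype_injective H),
      Subgroup.mem_map_iff_mem (Subgroup.subtype_injective H)] at h1
    exact h1

theorem AH_comm {G : Type u} [Group G] {p : ℕ} (S Wv H : Subgroup G) (hWS : Wv ≤ S)
    (hZW : zOm p S ≤ Wv) :
    ∀ a ∈ AH (zOm p S) Wv H, ∀ b ∈ AH (zOm p S) Wv H, a * b = b * a := by
  obtain ⟨s, hs⟩ : ∃ s : Set G, s = {x | ∃ n ∈ H ⊓ Subgroup.normalizer (Wv : Set G),
      ∃ z ∈ zOm p S, x = n * z * n⁻¹} := ⟨_, rfl⟩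
  have hAH : AH (zOm p S) Wv H = Subgroup.closure s := by rw [hs]; rfl
  have hgen : ∀ a ∈ s, ∀ b ∈ s, a * b = b * a := by
    rw [hs]
    rintro _ ⟨n, hn, z, hz, rfl⟩ _ ⟨n', hn', z', hz', rfl⟩
    have hm : n'⁻¹ * n ∈ Subgroup.normalizer (Wv : Set G) :=
      mul_mem (inv_mem (Subgroup.mem_inf.mp hn').2) (Subgroup.mem_inf.mp hn).2
    have hw : (n'⁻¹ * n) * z * (n'⁻¹ * n)⁻¹ ∈ S :=
      hWS ((Subgroup.mem_normalizer_iff.mp hm z).mp (hZW hz))
    have hz'c : z' ∈ Subgroup.centralizer (S : Set G) := (Subgroup.mem_inf.mp (zOm_le p S hz')).2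
    have hc := Subgroup.mem_centralizer_iff.mp hz'c _ hw
    calc n * z * n⁻¹ * (n' * z' * n'⁻¹)
        = n' * ((n'⁻¹ * n) * z * (n'⁻¹ * n)⁻¹ * z') * n'⁻¹ := by group
      _ = n' * (z' * ((n'⁻¹ * n) * z * (n'⁻¹ * n)⁻¹)) * n'⁻¹ := by rw [hc]
      _ = n' * z' * n'⁻¹ * (n * z * n⁻¹) := by group
  have h1 : Subgroup.closure s ≤ Subgroup.centralizer s :=
    (Subgroup.closure_le _).mpr (fun a ha =>
      Subgroup.mem_centralizer_iff.mpr (fun b hb => hgen b hb a ha))
  have h2 : Subgroup.closure s ≤ Subgroup.centralizer (Subgroup.closure s : Set G) :=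
    (Subgroup.closure_le _).mpr (fun a ha =>
      Subgroup.mem_centralizer_iff.mpr (fun b hb =>
        (Subgroup.mem_centralizer_iff.mp (h1 hb) a ha).symm))
  intro a ha b hb
  rw [hAH] at ha hb
  exact Subgroup.mem_centralizer_iff.mp (h2 hb) a ha

theorem AH_pow {G : Type u} [Group G] {p : ℕ} (S Wv H : Subgroup G) (hWS : Wv ≤ S)
    (hZW : zOm p S ≤ Wv) : ∀ a ∈ AH (zOm p S) Wv H, a ^ p = 1 := by
  have hcomm := AH_comm S Wv H hWS hZW
  intro a ha
  unfold AH at ha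
  induction ha using Subgroup.closure_induction with
  | mem x hx =>
    obtain ⟨n, hn, z, hz, rfl⟩ := hx
    rw [conj_pow, zOm_pow p S hz, mul_one, mul_inv_cancel]
  | one => exact one_pow p
  | mul x y hx hy ihx ihy =>
    have hc : Commute x y := hcomm x hx y hy
    rw [hc.mul_pow, ihx, ihy, one_mul]
  | inv x hx ih => rw [inv_pow, ih, inv_one]

/-- The factorization `Y = C_Y(Ω₁Z(T)) N_Y(W(T))` for a group `Y` with `C_Y(O_p(Y)) ≤ O_p(Y)`. -/
def FacAt (p : ℕ) (W : ∀ (Q : Type u) [Group Q], Subgroup Q) (Y : Type u) [Group Y] : Prop :=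
  Subgroup.centralizer ((pCore p Y : Subgroup Y) : Set Y) ≤ pCore p Y →
    ∀ T' : Sylow p Y, ∀ x : Y,
      ∃ a ∈ Subgroup.centralizer ((zOm p (T' : Subgroup Y) : Subgroup Y) : Set Y),
      ∃ b ∈ Subgroup.normalizer ((inducedFunctor W (T' : Subgroup Y) : Subgroup Y) : Set Y),
        x = a * b

theorem fac_congr {Y : Type u} [Group Y] (P : ∀ (E : Subgroup Y) [E.Normal], Prop)
    {D D' : Subgroup Y} [hD : D.Normal] [hD' : D'.Normal] (e : D' = D) (h : P D') : P D := by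
  subst e
  exact h

theorem cent_le_sup {p : ℕ} [hp : Fact p.Prime] {X : Type u} [Group X] [Finite X] (T : Sylow p X)
    (hN : Subgroup.normalizer (((T : Subgroup X) ⊓
      Subgroup.centralizer ((pCore p X : Subgroup X) : Set X) : Subgroup X) : Set X) = ⊤) :
    Subgroup.centralizer ((pCore p X : Subgroup X) : Set X) ≤ pCore p X ⊔ pPrimeCore p X := by
  obtain ⟨Q, hQ⟩ : ∃ Q : Subgroup X, Q = pCore p X := ⟨_, rfl⟩
  have hQn : Q.Normal := hQ ▸ pCore_normal p X
  rw [← hQ] at hN ⊢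
  obtain ⟨C, hCdef⟩ : ∃ C : Subgroup X, C = Subgroup.centralizer (Q : Set X) := ⟨_, rfl⟩
  have hCn : C.Normal := hCdef ▸ Subgroup.normal_centralizer
  rw [← hCdef] at hN ⊢
  have hn : ((T : Subgroup X) ⊓ C).Normal := Subgroup.normalizer_eq_top_iff.mp hN
  have hSCQ : (T : Subgroup X) ⊓ C ≤ Q := hQ ▸ le_pCore p hn (T.isPGroup'.to_le inf_le_left)
  obtain ⟨P₀⟩ : Nonempty (Sylow p ↥C) := inferInstance
  have hP₀Q : ∀ x : ↥C, x ∈ (P₀ : Subgroup ↥C) → (x : X) ∈ Q := by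
    intro x hx
    have hxp : IsPGroup p ((P₀ : Subgroup ↥C).map C.subtype) := P₀.isPGroup'.map _
    obtain ⟨h, hh⟩ := exists_map_conj_le_sylow T hxp
    have h1 : h * (x : X) * h⁻¹ ∈ (T : Subgroup X) := hh (conj_mem_map_conj ⟨x, hx, rfl⟩)
    have h2 : h * (x : X) * h⁻¹ ∈ C := hCn.conj_mem _ x.2 h
    have h3 : h * (x : X) * h⁻¹ ∈ Q := hSCQ (Subgroup.mem_inf.mpr ⟨h1, h2⟩)
    have h4 := hQn.conj_mem _ h3 h⁻¹
    have e : h⁻¹ * (h * (x : X) * h⁻¹) * h⁻¹⁻¹ = x := by group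
    rwa [e] at h4
  have hP₀ : (P₀ : Subgroup ↥C) ≤ Subgroup.center ↥C := by
    intro x hx
    have h4 := hP₀Q x hx
    rw [Subgroup.mem_center_iff]
    intro c
    apply Subtype.ext
    have hc : (c : X) ∈ Subgroup.centralizer (Q : Set X) := hCdef ▸ c.2
    have h5 := Subgroup.mem_centralizer_iff.mp hc (x : X) h4
    simp only [Subgroup.coe_mul]
    exact h5.symm
  obtain ⟨M, hMn, hMp, hMsup, hMmem⟩ := exists_normal_compl_of_central_sylow' P₀ hP₀
  have hM'n : (M.map C.subtype).Normal := by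
    constructor
    rintro _ ⟨m, hm, rfl⟩ g
    have hgC : g * (m : X) * g⁻¹ ∈ C := hCn.conj_mem _ m.2 g
    refine ⟨⟨_, hgC⟩, ?_, rfl⟩
    apply (hMmem _).mpr
    have h6 : orderOf (⟨g * (m : X) * g⁻¹, hgC⟩ : ↥C) = orderOf m := by
      rw [Subgroup.orderOf_mk, ← Subgroup.orderOf_coe m]
      exact MulEquiv.orderOf_eq (MulAut.conj g) (m : X)
    rw [h6]
    exact (hMmem m).mp hm
  have hM'c : (Nat.card (M.map C.subtype)).Coprime p := by
    rw [Nat.card_congr (M.equivMapOfInjective C.subtype (Subgroup.subtype_injective C)).symm.toEquiv]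
    exact Nat.Coprime.symm ((Nat.Prime.coprime_iff_not_dvd hp.out).mpr hMp)
  have hMD : M.map C.subtype ≤ pPrimeCore p X := le_pPrimeCore p hM'n hM'c
  intro c hc
  have hctop : (⟨c, hc⟩ : ↥C) ∈ (P₀ : Subgroup ↥C) ⊔ M := by
    rw [sup_comm, hMsup]
    exact Subgroup.mem_top _
  haveI := hMn
  obtain ⟨q₀, hq₀, m, hm, hcm⟩ := exists_mul_of_mem_sup_normal (P₀ : Subgroup ↥C) M hctop
  have hc' : c = (q₀ : X) * (m : X) := by
    have h7 := congrArg Subtype.val hcm
    simpa using h7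
  rw [hc']
  exact mul_mem (Subgroup.mem_sup_left (hP₀Q q₀ hq₀)) (Subgroup.mem_sup_right (hMD ⟨m, hm, rfl⟩))

theorem constrained_quot {p : ℕ} [hp : Fact p.Prime] {X : Type u} [Group X] [Finite X]
    (hK : Subgroup.centralizer ((pCore p X : Subgroup X) : Set X) ≤ pCore p X ⊔ pPrimeCore p X) :
    Subgroup.centralizer ((pCore p (X ⧸ pPrimeCore p X) : Subgroup (X ⧸ pPrimeCore p X)) :
      Set (X ⧸ pPrimeCore p X)) ≤ pCore p (X ⧸ pPrimeCore p X) := by
  intro y hy
  obtain ⟨x, rfl⟩ := QuotientGroup.mk'_surjective (pPrimeCore p X) y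
  have hQim : (pCore p X).map (QuotientGroup.mk' (pPrimeCore p X)) ≤
      pCore p (X ⧸ pPrimeCore p X) :=
    le_pCore p (Subgroup.Normal.map inferInstance _ (QuotientGroup.mk'_surjective _))
      ((pCore_isPGroup p).map _)
  have hx : x ∈ Subgroup.centralizer ((pCore p X : Subgroup X) : Set X) := by
    rw [Subgroup.mem_centralizer_iff]
    intro q hq
    have h1 := Subgroup.mem_centralizer_iff.mp hy _ (hQim (Subgroup.mem_map_of_mem _ hq))
    have h2 : (x * q)⁻¹ * (q * x) ∈ pPrimeCore p X := by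
      rw [← QuotientGroup.eq_one_iff, ← QuotientGroup.mk'_apply]
      simp only [map_mul, map_inv]
      rw [h1, inv_mul_cancel]
    have h3 : (x * q)⁻¹ * (q * x) ∈ pCore p X := by
      have e : (x * q)⁻¹ * (q * x) = q⁻¹ * (x⁻¹ * q * x⁻¹⁻¹) := by group
      rw [e]
      exact mul_mem (inv_mem hq) ((pCore_normal p X).conj_mem q hq x⁻¹)
    have h4 := eq_one_of_mem_of_coprime (pCore_isPGroup p) (pPrimeCore_coprime p) h3 h2
    exact (inv_mul_eq_one.mp h4).symm
  obtain ⟨q, hq, d, hd, rfl⟩ := exists_mul_of_mem_sup_normal (pCore p X) (pPrimeCore p X) (hK hx)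
  rw [map_mul]
  have h5 : QuotientGroup.mk' (pPrimeCore p X) d = 1 := (QuotientGroup.eq_one_iff d).mpr hd
  rw [h5, mul_one]
  exact hQim (Subgroup.mem_map_of_mem _ hq)

theorem quotStep {p : ℕ} [hp : Fact p.Prime] {W : ∀ (Q : Type u) [Group Q], Subgroup Q}
    (hW : IsCharPFunctor.{u} p W) {X : Type u} [Group X] [Finite X] (T : Sylow p X)
    (D : Subgroup X) [D.Normal] (hD : (Nat.card D).Coprime p)
    (Q : Subgroup X) (hQn : Q.Normal) (hQp : IsPGroup p Q)
    (hfac : FacAt p W (X ⧸ D))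
    (hcon : Subgroup.centralizer ((pCore p (X ⧸ D) : Subgroup (X ⧸ D)) : Set (X ⧸ D)) ≤
      pCore p (X ⧸ D))
    (x z : X) (hz : z ∈ zOm p (T : Subgroup X)) (hzQ : z ∈ Q) :
    ∃ n ∈ Subgroup.normalizer ((inducedFunctor W (T : Subgroup X) : Subgroup X) : Set X),
      x * z * x⁻¹ = n * z * n⁻¹ := by
  have hπs : Function.Surjective (QuotientGroup.mk' D) := QuotientGroup.mk'_surjective D
  obtain ⟨a, ha, b, hb, hab⟩ := hfac hcon (T.mapSurjective hπs) (QuotientGroup.mk' D x⁻¹)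
  have hcoe : ((T.mapSurjective hπs : Sylow p (X ⧸ D)) : Subgroup (X ⧸ D)) =
      (T : Subgroup X).map (QuotientGroup.mk' D) := rfl
  rw [hcoe] at ha hb
  have hinj : ∀ t ∈ (T : Subgroup X), QuotientGroup.mk' D t = 1 → t = 1 :=
    fun t ht h1 => eq_one_of_mem_of_coprime T.isPGroup' hD ht ((QuotientGroup.eq_one_iff t).mp h1)
  rw [inducedFunctor_map_injOn hW (QuotientGroup.mk' D) (T : Subgroup X) T.isPGroup' hinj] at hb
  obtain ⟨n, hn, hnb⟩ := exists_mem_normalizer_lift D hD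
    (T.isPGroup'.to_le (inducedFunctor_le (W := W) (T : Subgroup X))) (inv_mem hb)
  refine ⟨n, hn, ?_⟩
  have hxq : QuotientGroup.mk' D x = QuotientGroup.mk' D n * a⁻¹ := by
    rw [hnb]
    have h1 : (QuotientGroup.mk' D x)⁻¹ = a * b := by rw [← map_inv]; exact hab
    rw [← inv_inv (QuotientGroup.mk' D x), h1, mul_inv_rev]
  have hzbar := zOm_map_mem (p := p) (QuotientGroup.mk' D) hz
  have hcomm := Subgroup.mem_centralizer_iff.mp ha _ hzbar
  have hpi : QuotientGroup.mk' D (x * z * x⁻¹) = QuotientGroup.mk' D (n * z * n⁻¹) := by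
    have h2 : a⁻¹ * QuotientGroup.mk' D z * a = QuotientGroup.mk' D z := by
      rw [mul_assoc, hcomm, ← mul_assoc, inv_mul_cancel, one_mul]
    have e3 : QuotientGroup.mk' D n * a⁻¹ * QuotientGroup.mk' D z *
        (QuotientGroup.mk' D n * a⁻¹)⁻¹ =
        QuotientGroup.mk' D n * (a⁻¹ * QuotientGroup.mk' D z * a) *
          (QuotientGroup.mk' D n)⁻¹ := by group
    simp only [map_mul, map_inv]
    rw [hxq, e3, h2]
  have hd : (n * z * n⁻¹)⁻¹ * (x * z * x⁻¹) ∈ D := by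
    rw [← QuotientGroup.eq_one_iff, ← QuotientGroup.mk'_apply, map_mul, map_inv, hpi,
      inv_mul_cancel]
  have hq : (n * z * n⁻¹)⁻¹ * (x * z * x⁻¹) ∈ Q :=
    mul_mem (inv_mem (hQn.conj_mem z hzQ n)) (hQn.conj_mem z hzQ x)
  have h1 := eq_one_of_mem_of_coprime hQp hD hq hd
  exact (inv_mul_eq_one.mp h1).symm

theorem caseC {p : ℕ} [hp : Fact p.Prime] {W : ∀ (Q : Type u) [Group Q], Subgroup Q}
    (hW : IsCharPFunctor.{u} p W) {X : Type u} [Group X] [Finite X] (T : Sylow p X)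
    (V : Subgroup X) (hVn : V.Normal) (hVT : V ≤ (T : Subgroup X))
    (hZV : zOm p (T : Subgroup X) ≤ V)
    (hfacX : ∀ (D : Subgroup X) [D.Normal], FacAt p W (X ⧸ D))
    (IH : ∀ X₀ : Subgroup X, X₀ ≠ ⊤ → (T : Subgroup X) ≤ X₀ → ∀ x ∈ X₀,
      ∀ z ∈ zOm p (T : Subgroup X),
        x * z * x⁻¹ ∈ AH (zOm p (T : Subgroup X)) (inducedFunctor W (T : Subgroup X)) X₀) :
    ∀ x : X, ∀ z ∈ zOm p (T : Subgroup X),
      x * z * x⁻¹ ∈ AH (zOm p (T : Subgroup X)) (inducedFunctor W (T : Subgroup X)) ⊤ := by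
  intro x z hz
  have hQn : (pCore p X).Normal := pCore_normal p X
  have hVQ : V ≤ pCore p X := le_pCore p hVn (T.isPGroup'.to_le hVT)
  have hzQ : z ∈ pCore p X := hVQ (hZV hz)
  haveI hKn : (Subgroup.centralizer ((pCore p X : Subgroup X) : Set X)).Normal :=
    Subgroup.normal_centralizer
  by_cases hN : Subgroup.normalizer (((T : Subgroup X) ⊓
      Subgroup.centralizer ((pCore p X : Subgroup X) : Set X) : Subgroup X) : Set X) = ⊤
  · obtain ⟨n, hn, hxn⟩ := quotStep hW T (pPrimeCore p X) (pPrimeCore_coprime p) (pCore p X) hQn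
      (pCore_isPGroup p) (hfacX (pPrimeCore p X)) (constrained_quot (cent_le_sup T hN)) x z hz hzQ
    rw [hxn]
    exact AH_gen (Subgroup.mem_inf.mpr ⟨Subgroup.mem_top _, hn⟩) hz
  · obtain ⟨k, hk, hkn, -⟩ := exists_mul_mem_normalizer_inf T
      (Subgroup.centralizer ((pCore p X : Subgroup X) : Set X)) (P := ⊥) bot_le x
      (by rw [Subgroup.map_bot]; exact bot_le)
    have e1 : x * z * x⁻¹ = (k * x) * z * (k * x)⁻¹ := by
      have h1 : x * z * x⁻¹ ∈ pCore p X := hQn.conj_mem z hzQ x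
      have h2 := Subgroup.mem_centralizer_iff.mp hk _ h1
      calc x * z * x⁻¹ = (x * z * x⁻¹) * k * k⁻¹ := by group
        _ = k * (x * z * x⁻¹) * k⁻¹ := by rw [h2]
        _ = (k * x) * z * (k * x)⁻¹ := by group
    rw [e1]
    exact AH_mono le_top (IH _ hN (le_normalizer_inf_normal (T : Subgroup X) _) (k * x) hkn z hz)

theorem caseC_sub {G : Type u} [Group G] [Finite G] {p : ℕ} [hp : Fact p.Prime] (S : Sylow p G)
    {W : ∀ (Q : Type u) [Group Q], Subgroup Q} (hW : IsCharPFunctor.{u} p W)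
    (hfacW : ∀ (K R : Subgroup G) [hR : (R.subgroupOf K).Normal],
      FacAt p W (↥K ⧸ R.subgroupOf K))
    (H V : Subgroup G) (hSH : (S : Subgroup G) ≤ H) (hVS : V ≤ (S : Subgroup G))
    (hHV : H ≤ Subgroup.normalizer (V : Set G)) (hZV : zOm p (S : Subgroup G) ≤ V)
    (IH : ∀ H₀ : Subgroup G, Nat.card H₀ < Nat.card H → (S : Subgroup G) ≤ H₀ → H₀ ≤ H →
      ∀ x ∈ H₀, ∀ z ∈ zOm p (S : Subgroup G),
        x * z * x⁻¹ ∈ AH (zOm p (S : Subgroup G)) (inducedFunctor W (S : Subgroup G)) H₀) :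
    ∀ h ∈ H, ∀ z ∈ zOm p (S : Subgroup G),
      h * z * h⁻¹ ∈ AH (zOm p (S : Subgroup G)) (inducedFunctor W (S : Subgroup G)) H := by
  intro h hh z hz
  obtain ⟨T, hT⟩ : ∃ T : Sylow p ↥H, (T : Subgroup ↥H) = (S : Subgroup G).subgroupOf H :=
    ⟨S.subtype hSH, Sylow.coe_subtype S hSH⟩
  have hTmap : (T : Subgroup ↥H).map H.subtype = (S : Subgroup G) := by
    rw [hT]
    exact Subgroup.map_subgroupOf_eq_of_le hSH
  have hZmap : (zOm p (T : Subgroup ↥H)).map H.subtype = zOm p (S : Subgroup G) := by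
    rw [zOm_map_subtype, hTmap]
  have hWmap : (inducedFunctor W (T : Subgroup ↥H)).map H.subtype =
      inducedFunctor W (S : Subgroup G) := by
    rw [← inducedFunctor_map hW H.subtype (Subgroup.subtype_injective H) (T : Subgroup ↥H)
      T.isPGroup', hTmap]
  have hVn : (V.subgroupOf H).Normal := Subgroup.normal_subgroupOf_of_le_normalizer hHV
  have hVT : V.subgroupOf H ≤ (T : Subgroup ↥H) := by
    rw [hT]
    intro y hy
    exact hVS hy
  have hZV' : zOm p (T : Subgroup ↥H) ≤ V.subgroupOf H := by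
    intro y hy
    have h1 : (y : G) ∈ zOm p (S : Subgroup G) := by
      rw [← hZmap]
      exact Subgroup.mem_map_of_mem H.subtype hy
    exact hZV h1
  have hfacX : ∀ (D : Subgroup ↥H) [D.Normal], FacAt p W (↥H ⧸ D) := by
    intro D hD
    have e : (D.map H.subtype).subgroupOf H = D :=
      Subgroup.comap_map_eq_self_of_injective (Subgroup.subtype_injective H) D
    haveI : ((D.map H.subtype).subgroupOf H).Normal := by rw [e]; exact hD
    exact fac_congr (fun E _ => FacAt p W (↥H ⧸ E)) e (hfacW H (D.map H.subtype))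
  have IH' : ∀ X₀ : Subgroup ↥H, X₀ ≠ ⊤ → (T : Subgroup ↥H) ≤ X₀ → ∀ x ∈ X₀,
      ∀ z ∈ zOm p (T : Subgroup ↥H),
        x * z * x⁻¹ ∈ AH (zOm p (T : Subgroup ↥H)) (inducedFunctor W (T : Subgroup ↥H)) X₀ := by
    intro X₀ hX₀ hTX₀ x hx z' hz'
    have hcard : Nat.card (X₀.map H.subtype) < Nat.card H := by
      rw [Nat.card_congr
        (X₀.equivMapOfInjective H.subtype (Subgroup.subtype_injective H)).symm.toEquiv]
      exact card_subgroup_lt_of_ne_top X₀ hX₀
    have hS₀ : (S : Subgroup G) ≤ X₀.map H.subtype := by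
      rw [← hTmap]
      exact Subgroup.map_mono hTX₀
    have hle : X₀.map H.subtype ≤ H := by
      rintro _ ⟨y, -, rfl⟩
      exact y.2
    have hz'' : H.subtype z' ∈ zOm p (S : Subgroup G) := by
      rw [← hZmap]
      exact Subgroup.mem_map_of_mem H.subtype hz'
    have h1 := IH (X₀.map H.subtype) hcard hS₀ hle (H.subtype x)
      (Subgroup.mem_map_of_mem H.subtype hx) (H.subtype z') hz''
    rw [← hZmap, ← hWmap, ← AH_map_subtype] at h1
    obtain ⟨y, hy, hyeq⟩ := h1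
    have h2 : y = x * z' * x⁻¹ := Subtype.ext (by simpa using hyeq)
    rw [← h2]
    exact hy
  have hmain := caseC hW T (V.subgroupOf H) hVn hVT hZV' hfacX IH'
  obtain ⟨z', hz', rfl⟩ : ∃ z' ∈ zOm p (T : Subgroup ↥H), H.subtype z' = z := by
    have h1 : z ∈ (zOm p (T : Subgroup ↥H)).map H.subtype := by rw [hZmap]; exact hz
    exact h1
  have h2 := hmain ⟨h, hh⟩ z' hz'
  have h3 := Subgroup.mem_map_of_mem H.subtype h2
  rw [AH_map_subtype, hZmap, hWmap] at h3
  have htop : (⊤ : Subgroup ↥H).map H.subtype = H := by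
    ext g
    constructor
    · rintro ⟨y, -, rfl⟩
      exact y.2
    · intro hg
      exact ⟨⟨g, hg⟩, Subgroup.mem_top _, rfl⟩
  rw [htop] at h3
  simpa using h3

theorem card_lt_of_lt'' {G : Type u} [Group G] [Finite G] {H K : Subgroup G} (h : H < K) :
    Nat.card H < Nat.card K :=
  lt_of_not_ge (fun hge => h.ne (Subgroup.eq_of_le_of_card_ge h.le hge))

theorem phi {G : Type u} [Group G] [Finite G] {p : ℕ} [hp : Fact p.Prime] (S : Sylow p G)
    {W₁ W₂ : ∀ (Q : Type u) [Group Q], Subgroup Q} (hW₁ : IsCharPFunctor.{u} p W₁)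
    (hW₂ : IsCharPFunctor.{u} p W₂)
    (hfac₁ : ∀ (K R : Subgroup G) [hR : (R.subgroupOf K).Normal],
      FacAt p W₁ (↥K ⧸ R.subgroupOf K))
    (hfac₂ : ∀ (K R : Subgroup G) [hR : (R.subgroupOf K).Normal],
      FacAt p W₂ (↥K ⧸ R.subgroupOf K))
    (hZ₁ : zOm p (S : Subgroup G) ≤ inducedFunctor W₁ (S : Subgroup G))
    (hZ₂ : zOm p (S : Subgroup G) ≤ inducedFunctor W₂ (S : Subgroup G)) :
    ∀ (n : ℕ) (H : Subgroup G), Nat.card H = n → (S : Subgroup G) ≤ H →
      AH (zOm p (S : Subgroup G)) (inducedFunctor W₁ (S : Subgroup G)) H =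
        AH (zOm p (S : Subgroup G)) (inducedFunctor W₂ (S : Subgroup G)) H := by
  intro n
  induction n using Nat.strong_induction_on with
  | _ n ih =>
    intro H hn hSH
    have IH : ∀ H₀ : Subgroup G, Nat.card H₀ < Nat.card H → (S : Subgroup G) ≤ H₀ →
        AH (zOm p (S : Subgroup G)) (inducedFunctor W₁ (S : Subgroup G)) H₀ =
          AH (zOm p (S : Subgroup G)) (inducedFunctor W₂ (S : Subgroup G)) H₀ :=
      fun H₀ hlt hS₀ => ih (Nat.card H₀) (hn ▸ hlt) H₀ rfl hS₀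
    have hSN₁ : (S : Subgroup G) ≤ Subgroup.normalizer
        ((inducedFunctor W₁ (S : Subgroup G) : Subgroup G) : Set G) :=
      Subgroup.le_normalizer.trans
        (sylow_le_normalizer_inducedFunctor hW₁ (S : Subgroup G) S.isPGroup')
    have hSN₂ : (S : Subgroup G) ≤ Subgroup.normalizer
        ((inducedFunctor W₂ (S : Subgroup G) : Subgroup G) : Set G) :=
      Subgroup.le_normalizer.trans
        (sylow_le_normalizer_inducedFunctor hW₂ (S : Subgroup G) S.isPGroup')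
    by_cases h1 : H ≤ Subgroup.normalizer
        ((inducedFunctor W₁ (S : Subgroup G) : Subgroup G) : Set G)
    · by_cases h2 : H ≤ Subgroup.normalizer
          ((inducedFunctor W₂ (S : Subgroup G) : Subgroup G) : Set G)
      · exact AH_congr (by rw [inf_eq_left.mpr h1, inf_eq_left.mpr h2])
      · apply le_antisymm
        · refine AH_le_of_forall (fun n hn z hz => ?_)
          refine caseC_sub S hW₂ hfac₂ H _ hSH (inducedFunctor_le _) h1 hZ₁ ?_ n
            (Subgroup.mem_inf.mp hn).1 z hz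
          intro H₀ hlt hS₀ hle x hx z' hz'
          rw [← IH H₀ hlt hS₀]
          exact AH_gen (Subgroup.mem_inf.mpr ⟨hx, h1 (hle hx)⟩) hz'
        · exact AH_le_of_forall (fun n hn z hz =>
            AH_gen (Subgroup.mem_inf.mpr ⟨(Subgroup.mem_inf.mp hn).1,
              h1 (Subgroup.mem_inf.mp hn).1⟩) hz)
    · by_cases h2 : H ≤ Subgroup.normalizer
          ((inducedFunctor W₂ (S : Subgroup G) : Subgroup G) : Set G)
      · apply le_antisymm
        · exact AH_le_of_forall (fun n hn z hz =>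
            AH_gen (Subgroup.mem_inf.mpr ⟨(Subgroup.mem_inf.mp hn).1,
              h2 (Subgroup.mem_inf.mp hn).1⟩) hz)
        · refine AH_le_of_forall (fun n hn z hz => ?_)
          refine caseC_sub S hW₁ hfac₁ H _ hSH (inducedFunctor_le _) h2 hZ₂ ?_ n
            (Subgroup.mem_inf.mp hn).1 z hz
          intro H₀ hlt hS₀ hle x hx z' hz'
          rw [IH H₀ hlt hS₀]
          exact AH_gen (Subgroup.mem_inf.mpr ⟨hx, h2 (hle hx)⟩) hz'
      · have hlt1 : Nat.card ↥(H ⊓ Subgroup.normalizer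
            ((inducedFunctor W₁ (S : Subgroup G) : Subgroup G) : Set G)) < Nat.card H :=
          card_lt_of_lt'' (lt_of_le_of_ne inf_le_left (fun e => h1 (inf_eq_left.mp e)))
        have hlt2 : Nat.card ↥(H ⊓ Subgroup.normalizer
            ((inducedFunctor W₂ (S : Subgroup G) : Subgroup G) : Set G)) < Nat.card H :=
          card_lt_of_lt'' (lt_of_le_of_ne inf_le_left (fun e => h2 (inf_eq_left.mp e)))
        have e1 : AH (zOm p (S : Subgroup G)) (inducedFunctor W₁ (S : Subgroup G)) H =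
            AH (zOm p (S : Subgroup G)) (inducedFunctor W₁ (S : Subgroup G))
              (H ⊓ Subgroup.normalizer
                ((inducedFunctor W₁ (S : Subgroup G) : Subgroup G) : Set G)) :=
          AH_congr (by rw [inf_assoc, inf_idem])
        have e2 : AH (zOm p (S : Subgroup G)) (inducedFunctor W₂ (S : Subgroup G))
              (H ⊓ Subgroup.normalizer
                ((inducedFunctor W₁ (S : Subgroup G) : Subgroup G) : Set G)) =
            AH (zOm p (S : Subgroup G)) (inducedFunctor W₁ (S : Subgroup G))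
              (H ⊓ Subgroup.normalizer
                ((inducedFunctor W₂ (S : Subgroup G) : Subgroup G) : Set G)) :=
          AH_congr (by rw [inf_right_comm])
        have e3 : AH (zOm p (S : Subgroup G)) (inducedFunctor W₂ (S : Subgroup G))
              (H ⊓ Subgroup.normalizer
                ((inducedFunctor W₂ (S : Subgroup G) : Subgroup G) : Set G)) =
            AH (zOm p (S : Subgroup G)) (inducedFunctor W₂ (S : Subgroup G)) H :=
          AH_congr (by rw [inf_assoc, inf_idem])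
        rw [e1, IH _ hlt1 (le_inf hSH hSN₁), e2, IH _ hlt2 (le_inf hSH hSN₂), e3]

/-- Let p be a prime, G a finite group with Sylow p-subgroup S, and W₁, W₂ two isomorphism-invariant p-group functors (W assigns to every group Q a subgroup W(Q), nontrivial whenever Q is a nontrivial finite p-group, and every isomorphism from a finite p-group Q onto a group R carries W(Q) onto W(R)). Suppose that G* = C_{G*}(Ω₁Z(S*)) N_{G*}(W₁(S*)) = C_{G*}(Ω₁Z(S*)) N_{G*}(W₂(S*)) = N_{G*}(W₁(S*)) N_{G*}(W₂(S*)) whenever G* = K/R is a section of G with C_{G*}(O_p(G*)) ≤ O_p(G*) and S* is a Sylow p-subgroup of G*, where Ω₁Z denotes the subgroup generated by the elements of order dividing p in the centre. Suppose also Ω₁Z(S) ≤ W₁(S) ∩ W₂(S), and let A be the normal closure of Ω₁Z(S) in N_G(W₁(S)). Then A is an elementary abelian subgroup of S, strongly closed in S with respect to G, and A controls strong fusion in G. -/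
theorem result {G : Type u} [Group G] [Finite G] {p : ℕ} [Fact p.Prime] (S : Sylow p G) (W₁ W₂ : ∀ (Q : Type u) [Group Q], Subgroup Q) (hW₁ : Cfsg.IsCharPFunctor.{u} p W₁) (hW₂ : Cfsg.IsCharPFunctor.{u} p W₂) (hfac : ∀ (K R : Subgroup G) [hR : (R.subgroupOf K).Normal], Subgroup.centralizer ((Cfsg.pCore p (↥K ⧸ R.subgroupOf K) : Subgroup (↥K ⧸ R.subgroupOf K)) : Set (↥K ⧸ R.subgroupOf K)) ≤ Cfsg.pCore p (↥K ⧸ R.subgroupOf K) → ∀ T : Sylow p (↥K ⧸ R.subgroupOf K), (∀ x : (↥K ⧸ R.subgroupOf K), ∃ a ∈ Subgroup.centralizer ((Cfsg.omegaOne p ((T : Subgroup (↥K ⧸ R.subgroupOf K)) ⊓ Subgroup.centralizer (((T : Subgroup (↥K ⧸ R.subgroupOf K)) : Subgroup (↥K ⧸ R.subgroupOf K)) : Set (↥K ⧸ R.subgroupOf K))) : Subgroup (↥K ⧸ R.subgroupOf K)) : Set (↥K ⧸ R.subgroupOf K)), ∃ b ∈ Subgroup.normalizer ((Cfsg.inducedFunctor (G := (↥K ⧸ R.subgroupOf K)) W₁ (T : Subgroup (↥K ⧸ R.subgroupOf K)) : Subgroup (↥K ⧸ R.subgroupOf K)) : Set (↥K ⧸ R.subgroupOf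 K)), x = a * b) ∧ (∀ x : (↥K ⧸ R.subgroupOf K), ∃ a ∈ Subgroup.centralizer ((Cfsg.omegaOne p ((T : Subgroup (↥K ⧸ R.subgroupOf K)) ⊓ Subgroup.centralizer (((T : Subgroup (↥K ⧸ R.subgroupOf K)) : Subgroup (↥K ⧸ R.subgroupOf K)) : Set (↥K ⧸ R.subgroupOf K))) : Subgroup (↥K ⧸ R.subgroupOf K)) : Set (↥K ⧸ R.subgroupOf K)), ∃ b ∈ Subgroup.normalizer ((Cfsg.inducedFunctor (G := (↥K ⧸ R.subgroupOf K)) W₂ (T : Subgroup (↥K ⧸ R.subgroupOf K)) : Subgroup (↥K ⧸ R.subgroupOf K)) : Set (↥K ⧸ R.subgroupOf K)), x = a * b) ∧ (∀ x : (↥K ⧸ R.subgroupOf K), ∃ a ∈ Subgroup.normalizer ((Cfsg.inducedFunctor (G := (↥K ⧸ R.subgroupOf K)) W₁ (T : Subgroup (↥K ⧸ R.subgroupOf K)) : Subgroup (↥K ⧸ R.subgroupOf K)) : Set (↥K ⧸ R.subgroupOf K)), ∃ b ∈ Subgroup.normalizer ((Cfsg.inducedFunctor (G := (↥K ⧸ R.subgroupOf K)) W₂ (T : Subgroup (↥K ⧸ R.subgroupOf K)) : Subgroup (↥K ⧸ R.subgroupOf K)) : Set (↥K ⧸ R.subgroupOf K)), x = a * b)) (hZ : Cfsg.omegaOne p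 ((S : Subgroup G) ⊓ Subgroup.centralizer (((S : Subgroup G) : Subgroup G) : Set G)) ≤ Cfsg.inducedFunctor (G := G) W₁ (S : Subgroup G) ⊓ Cfsg.inducedFunctor (G := G) W₂ (S : Subgroup G)) (N₁ : Subgroup G) (hN₁ : N₁ = Subgroup.normalizer ((Cfsg.inducedFunctor (G := G) W₁ (S : Subgroup G) : Subgroup G) : Set G)) (A : Subgroup G) (hA : A = (Subgroup.normalClosure (((Cfsg.omegaOne p ((S : Subgroup G) ⊓ Subgroup.centralizer (((S : Subgroup G) : Subgroup G) : Set G))).subgroupOf N₁ : Subgroup ↥N₁) : Set ↥N₁)).map N₁.subtype) : A ≤ (S : Subgroup G) ∧ Cfsg.IsElementaryAbelian p A ∧ Cfsg.IsStronglyClosed A (S : Subgroup G) ∧ Cfsg.ControlsStrongFusion p A := by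
  subst hN₁
  have h𝓦 : ∀ W' ∈ ({W₁, W₂} : Set (∀ (Q : Type u) [Group Q], Subgroup Q)),
      Cfsg.IsCharPFunctor.{u} p W' := by
    intro W' hW'
    rcases hW' with h | h
    · exact h ▸ hW₁
    · rw [Set.mem_singleton_iff] at h
      exact h ▸ hW₂
  have hsf := sf_sections (G := G) h𝓦 (fun X _ _ hX hC _ => by
    obtain ⟨K, R, hR, ⟨e⟩⟩ := hX
    have hC' := constrained_of_equiv e hC
    refine sf_of_equiv h𝓦 e.symm ?_
    intro T B y hB hBy
    obtain ⟨a, ha, b, hb, rfl⟩ := (hfac K R hC' T).2.2 y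
    have hTp := T.isPGroup'
    have hT1 := Subgroup.le_normalizer.trans
      (sylow_le_normalizer_inducedFunctor hW₁ (T : Subgroup (↥K ⧸ R.subgroupOf K)) hTp)
    have hT2 := Subgroup.le_normalizer.trans
      (sylow_le_normalizer_inducedFunctor hW₂ (T : Subgroup (↥K ⧸ R.subgroupOf K)) hTp)
    have hP₁T : Subgroup.closure (conjL b B) ≤
        (T : Subgroup (↥K ⧸ R.subgroupOf K)).map (MulAut.conj b).toMonoidHom := by
      rw [Subgroup.closure_le]
      rintro _ ⟨x, hx, rfl⟩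
      exact conj_mem_map_conj (hB hx)
    have hP₁p : IsPGroup p (Subgroup.closure (conjL b B)) := (hTp.map _).to_le hP₁T
    have hP₁le : Subgroup.closure (conjL b B) ≤
        Subgroup.normalizer ((Cfsg.inducedFunctor W₁ (T : Subgroup (↥K ⧸ R.subgroupOf K)) :
          Subgroup (↥K ⧸ R.subgroupOf K)) : Set (↥K ⧸ R.subgroupOf K)) ⊓
        Subgroup.normalizer ((Cfsg.inducedFunctor W₂ (T : Subgroup (↥K ⧸ R.subgroupOf K)) :
          Subgroup (↥K ⧸ R.subgroupOf K)) : Set (↥K ⧸ R.subgroupOf K)) := by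
      rw [Subgroup.closure_le]
      rintro _ ⟨x, hx, rfl⟩
      refine Subgroup.mem_inf.mpr ⟨?_, mul_mem (mul_mem hb (hT2 (hB hx))) (inv_mem hb)⟩
      have h1 : a * b * x * (a * b)⁻¹ ∈ (T : Subgroup (↥K ⧸ R.subgroupOf K)) :=
        hBy (mem_conjL_of_mem hx)
      have e : b * x * b⁻¹ = a⁻¹ * (a * b * x * (a * b)⁻¹) * a := by group
      show b * x * b⁻¹ ∈ _
      rw [e]
      exact mul_mem (mul_mem (inv_mem ha) (hT1 h1)) ha
    obtain ⟨c, hc, hconj⟩ := Sylow.exists_conj_mem_of_le T (le_inf hT1 hT2) hP₁p hP₁le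
    obtain ⟨hc1, hc2⟩ := Subgroup.mem_inf.mp hc
    have himg1 : conjL (c * b) B ⊆ ((T : Subgroup (↥K ⧸ R.subgroupOf K)) : Set _) := by
      rintro _ ⟨x, hx, rfl⟩
      have h1 := hconj (b * x * b⁻¹) (Subgroup.subset_closure (mem_conjL_of_mem hx))
      have e : c * b * x * (c * b)⁻¹ = c * (b * x * b⁻¹) * c⁻¹ := by group
      show c * b * x * (c * b)⁻¹ ∈ _
      rw [e]; exact h1
    have e0 : a * c⁻¹ * (c * b) = a * b := by group
    have h1 : Reach (fam ({W₁, W₂} : Set (∀ (Q : Type u) [Group Q], Subgroup Q))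
        (↥K ⧸ R.subgroupOf K)) (T : Subgroup (↥K ⧸ R.subgroupOf K)) B (c * b) :=
      Reach.step hB ⟨W₂, Or.inr rfl, rfl⟩ (mul_mem hc2 hb) himg1
    have h2 : Reach (fam ({W₁, W₂} : Set (∀ (Q : Type u) [Group Q], Subgroup Q))
        (↥K ⧸ R.subgroupOf K)) (T : Subgroup (↥K ⧸ R.subgroupOf K)) (conjL (c * b) B)
        (a * c⁻¹) :=
      Reach.step himg1 ⟨W₁, Or.inl rfl, rfl⟩ (mul_mem ha (inv_mem hc1))
        (by rw [← conjL_mul, e0]; exact hBy)
    have h3 := h1.trans h2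
    rwa [e0] at h3)
  have hSF := hsf G (isSection_self G)
  have hfac₁ : ∀ (K R : Subgroup G) [hR : (R.subgroupOf K).Normal],
      FacAt p W₁ (↥K ⧸ R.subgroupOf K) := fun K R hR hC T => (hfac K R hC T).1
  have hfac₂ : ∀ (K R : Subgroup G) [hR : (R.subgroupOf K).Normal],
      FacAt p W₂ (↥K ⧸ R.subgroupOf K) := fun K R hR hC T => (hfac K R hC T).2.1
  have hZ₁ : zOm p (S : Subgroup G) ≤ Cfsg.inducedFunctor W₁ (S : Subgroup G) :=
    hZ.trans inf_le_left
  have hZ₂ : zOm p (S : Subgroup G) ≤ Cfsg.inducedFunctor W₂ (S : Subgroup G) :=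
    hZ.trans inf_le_right
  have hΦ := phi S hW₁ hW₂ hfac₁ hfac₂ hZ₁ hZ₂ (Nat.card (⊤ : Subgroup G)) ⊤ rfl le_top
  have hAeq : A = AH (zOm p (S : Subgroup G)) (Cfsg.inducedFunctor W₁ (S : Subgroup G)) ⊤ := by
    rw [hA]
    apply le_antisymm
    · rw [Subgroup.map_le_iff_le_comap]
      haveI : ((AH (zOm p (S : Subgroup G)) (Cfsg.inducedFunctor W₁ (S : Subgroup G)) ⊤).comap
          (Subgroup.normalizer ((Cfsg.inducedFunctor (G := G) W₁ (S : Subgroup G) :
            Subgroup G) : Set G)).subtype).Normal := by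
        constructor
        intro y hy g
        rw [Subgroup.mem_comap] at hy ⊢
        have e : (Subgroup.normalizer ((Cfsg.inducedFunctor (G := G) W₁ (S : Subgroup G) :
            Subgroup G) : Set G)).subtype (g * y * g⁻¹) = (g : G) * (y : G) * (g : G)⁻¹ := by
          simp
        rw [e]
        exact AH_conj_mem (Subgroup.mem_inf.mpr ⟨Subgroup.mem_top _, g.2⟩) hy
      apply Subgroup.normalClosure_le_normal
      intro y hy
      have hy' : (y : G) ∈ zOm p (S : Subgroup G) := hy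
      have h1 := AH_gen (Wv := Cfsg.inducedFunctor W₁ (S : Subgroup G)) (H := ⊤) (n := 1)
        (one_mem _) hy'
      rw [SetLike.mem_coe, Subgroup.mem_comap]
      simpa using h1
    · refine AH_le_of_forall (Wv' := Cfsg.inducedFunctor W₁ (S : Subgroup G)) (H' := ⊤) ?_ |>.trans ?_
      · exact fun n hn z hz => AH_gen hn hz
      · unfold AH
        rw [Subgroup.closure_le]
        rintro _ ⟨n, hn, z, hz, rfl⟩
        have hn2 := (Subgroup.mem_inf.mp hn).2
        have hzN : z ∈ Subgroup.normalizer ((Cfsg.inducedFunctor (G := G) W₁ (S : Subgroup G) :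
            Subgroup G) : Set G) := Subgroup.le_normalizer (hZ₁ hz)
        refine ⟨⟨n, hn2⟩ * ⟨z, hzN⟩ * ⟨n, hn2⟩⁻¹, ?_, rfl⟩
        exact (Subgroup.normalClosure_normal).conj_mem _
          (Subgroup.subset_normalClosure (Subgroup.mem_subgroupOf.mpr hz)) _
  have hWS₁ : Cfsg.inducedFunctor W₁ (S : Subgroup G) ≤ (S : Subgroup G) := inducedFunctor_le _
  have hN₁A : Subgroup.normalizer ((Cfsg.inducedFunctor (G := G) W₁ (S : Subgroup G) :
      Subgroup G) : Set G) ≤ Subgroup.normalizer ((A : Subgroup G) : Set G) := by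
    rw [hAeq]
    intro m hm
    exact AH_le_normalizer (Subgroup.mem_inf.mpr ⟨Subgroup.mem_top _, hm⟩)
  have hN₂A : Subgroup.normalizer ((Cfsg.inducedFunctor (G := G) W₂ (S : Subgroup G) :
      Subgroup G) : Set G) ≤ Subgroup.normalizer ((A : Subgroup G) : Set G) := by
    rw [hAeq, hΦ]
    intro m hm
    exact AH_le_normalizer (Subgroup.mem_inf.mpr ⟨Subgroup.mem_top _, hm⟩)
  have hAS : A ≤ (S : Subgroup G) := by
    rw [hAeq]
    exact (AH_le hZ₁).trans hWS₁
  have hchain : ∀ (B : Set G) (c : G),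
      LChain (fam ({W₁, W₂} : Set (∀ (Q : Type u) [Group Q], Subgroup Q)) G) ⊤ (S : Subgroup G) B c →
        c ∈ Subgroup.normalizer ((A : Subgroup G) : Set G) := by
    intro B c hc
    induction hc with
    | nil _ => exact one_mem _
    | snoc c₀ y W' _ hW' hy _ ih =>
      refine mul_mem ?_ ih
      obtain ⟨W, hW, rfl⟩ := hW'
      have hy2 := (Subgroup.mem_inf.mp hy).2
      rcases hW with h | h
      · subst h
        exact hN₁A hy2
      · rw [Set.mem_singleton_iff] at h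
        subst h
        exact hN₂A hy2
  have hctl : ∀ (B : Set G) (g : G), B ⊆ ((S : Subgroup G) : Set G) →
      (fun a => g * a * g⁻¹) '' B ⊆ ((S : Subgroup G) : Set G) →
      ∃ x ∈ Subgroup.normalizer ((A : Subgroup G) : Set G), ∀ a ∈ B, g * a * g⁻¹ = x * a * x⁻¹ := by
    intro B g hB hBg
    obtain ⟨c, hc, hceq⟩ := hSF S B g hB hBg
    exact ⟨c, hchain B c hc, fun a ha => (hceq a ha).symm⟩
  refine ⟨hAS, ⟨?_, ?_⟩, ⟨hAS, ?_⟩, ⟨S, hAS, fun B hB => ⟨hB, fun g hg => hctl B g hB hg⟩⟩⟩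
  · rw [hAeq]
    exact IsMulCommutative.of_setLike_mul_comm (AH_comm (S : Subgroup G) _ ⊤ hWS₁ hZ₁)
  · rw [hAeq]
    exact AH_pow (S : Subgroup G) _ ⊤ hWS₁ hZ₁
  · intro x hx g hg
    obtain ⟨c, hc, hceq⟩ := hctl {x} g (by
      intro a ha
      rw [Set.mem_singleton_iff] at ha
      rw [ha]
      exact hAS hx) (by
      rintro _ ⟨a, ha, rfl⟩
      rw [Set.mem_singleton_iff] at ha
      rw [ha]
      exact hg)
    rw [hceq x rfl]
    exact (Subgroup.mem_normalizer_iff.mp hc x).mp hx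

end Cfsg.Agent.S1997
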