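import Cfsg.Statements.S1998
import Cfsg.Agent.Lib.Helper14.SecY3

set_option autoImplicit false
universe u
open Cfsg

namespace Cfsg.Agent.S1998

/-- Let p be a prime, G a finite group with Sylow p-subgroup S, and 𝓦 a nonempty set of isomorphism-invariant p-group functors (W assigns to every group Q a subgroup W(Q), nontrivial whenever Q is a nontrivial finite p-group, and every isomorphism from a finite p-group Q onto a group R carries W(Q) onto W(R)). Suppose the induced conjugacy functors control transfer in every section of G other than G itself, but not in G. Let T be the subgroup generated by the S ∩ (N_G(W(S)))', W ∈ 𝓦, and M = N_G(T ∩ O_p(G)). Then: C_G(O_p(G)) ≤ O_p(G); M is a proper subgroup of G containing every proper subgroup of G that contains S (the unique maximal subgroup over S); [O_p(G), M] ≤ O_p(G) ∩ M' ≤ O_p(G) ∩ T; and every element u of S outside O_p(G) satisfies [X, u, …, u] ≰ Y with p − 1 entries u, for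 some chief factor X/Y of G with X ≤ O_p(G). -/
theorem result {G : Type u} [Group G] [Finite G] {p : ℕ} [Fact p.Prime] (S : Sylow p G) (𝓦 : Set (∀ (Q : Type u) [Group Q], Subgroup Q)) (h𝓦 : ∀ W ∈ 𝓦, Cfsg.IsCharPFunctor.{u} p W) (hne : 𝓦.Nonempty) (hsec : ∀ (K R : Subgroup G) [hR : (R.subgroupOf K).Normal], (K = ⊤ → R ≠ ⊥) → Cfsg.FamilyControlsTransferIn p ((fun W => Cfsg.inducedFunctor (G := (↥K ⧸ R.subgroupOf K)) W) '' 𝓦) ⊤) (hG : ¬ Cfsg.FamilyControlsTransferIn p ((fun W => Cfsg.inducedFunctor (G := G) W) '' 𝓦) ⊤) (T M : Subgroup G) (hT : T = (⨆ W ∈ 𝓦, (S : Subgroup G) ⊓ ⁅Subgroup.normalizer ((Cfsg.inducedFunctor (G := G) W (S : Subgroup G) : Subgroup G) : Set G), Subgroup.normalizer ((Cfsg.inducedFunctor (G := G) W (S : Subgroup G) : Subgroup G) : Set G)⁆)) (hM : M = Subgroup.normalizer ((T ⊓ Cfsg.pCore p G : Subgroup G) : Set G)) : Subgroup.centralizer ((Cfsg.pCore p G : Subgroup G) : Set G) ≤ Cfsg.pCore p G ∧ (M ≠ ⊤ ∧ ∀ H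 : Subgroup G, (S : Subgroup G) ≤ H → H ≠ ⊤ → H ≤ M) ∧ (⁅Cfsg.pCore p G, M⁆ ≤ Cfsg.pCore p G ⊓ ⁅M, M⁆ ∧ Cfsg.pCore p G ⊓ ⁅M, M⁆ ≤ Cfsg.pCore p G ⊓ T) ∧ ∀ u : G, u ∈ (S : Subgroup G) → u ∉ Cfsg.pCore p G → ∃ U V : Subgroup G, Cfsg.IsChiefFactor U V ∧ U ≤ Cfsg.pCore p G ∧ ¬ Cfsg.iterCommutator U (Subgroup.zpowers u) (p - 1) ≤ V := by
  open Cfsg.Agent.Lib.Helper14 in
  have hsecTF : ∀ (Y : Type u) [Group Y] [Finite Y], IsSection G Y →
      Nat.card Y < Nat.card G → TF p 𝓦 Y := by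
    intro Y _ _ hY hlt
    obtain ⟨K, R, hR, ⟨e⟩⟩ := hY
    have hKR : K = ⊤ → R ≠ ⊥ := by
      intro hK hRb
      subst hK
      subst hRb
      have hcard : Nat.card (↥(⊤ : Subgroup G) ⧸ (⊥ : Subgroup G).subgroupOf ⊤) = Nat.card G := by
        rw [← Subgroup.index_eq_card, Subgroup.bot_subgroupOf, Subgroup.index_bot,
          Subgroup.card_top]
      rw [Nat.card_congr e.toEquiv, hcard] at hlt
      exact lt_irrefl _ hlt
    exact tf_of_equiv h𝓦 e.symm (tf_of_ctl h𝓦 (hsec K R hKR))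
  open Cfsg.Agent.Lib.Helper14 in
  have hsub : ∀ H : Subgroup G, H ≠ ⊤ → TF p 𝓦 ↥H := fun H hH =>
    hsecTF ↥H ((isSection_self G).subgroup H) (card_subgroup_lt_of_ne_top H hH)
  open Cfsg.Agent.Lib.Helper14 in
  have hquot : ∀ (N : Subgroup G) [N.Normal], N ≠ ⊥ → TF p 𝓦 (G ⧸ N) := fun N _ hN =>
    hsecTF _ ((isSection_self G).quotient N) (card_quotient_lt_of_ne_bot N hN)
  open Cfsg.Agent.Lib.Helper14 in
  have hTD : T = ⨆ W' ∈ fam 𝓦 G, (S : Subgroup G) ⊓
      ⁅Subgroup.normalizer ((W' (S : Subgroup G) : Subgroup G) : Set G),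
        Subgroup.normalizer ((W' (S : Subgroup G) : Subgroup G) : Set G)⁆ := by
    rw [hT]
    show _ = ⨆ W' ∈ (fun W => Cfsg.inducedFunctor (G := G) W) '' 𝓦, (S : Subgroup G) ⊓
      ⁅Subgroup.normalizer ((W' (S : Subgroup G) : Subgroup G) : Set G),
        Subgroup.normalizer ((W' (S : Subgroup G) : Subgroup G) : Set G)⁆
    rw [iSup_image]
  have hfail : ¬ (S : Subgroup G) ⊓ ⁅(⊤ : Subgroup G), ⊤⁆ ≤ T := by
    intro h
    apply hG
    refine ⟨S, le_top, S.isPGroup', ?_, le_antisymm ?_ ?_⟩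
    · rw [Subgroup.relIndex_top_right]
      exact S.not_dvd_index
    · simp only [top_inf_eq]
      rw [hTD] at h
      exact h
    · exact iSup₂_le fun W _ => inf_le_inf_left _ (Subgroup.commutator_mono le_top le_top)
  open Cfsg.Agent.Lib.Helper14 in
  obtain ⟨hSQ, hstab, hnorm, hMtop, hSM, hfocM⟩ :=
    minfail_structure h𝓦 hne hsub hquot S T hTD hfail
  rw [← hM] at hnorm hMtop hSM hfocM
  open Cfsg.Agent.Lib.Helper14 in
  have hQS : Cfsg.pCore p G ≤ (S : Subgroup G) := (pCore_isPGroup p).le_sylow_of_normal S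
  refine ⟨?_, ⟨hMtop, hnorm⟩, ⟨?_, ?_⟩, ?_⟩
  · by_contra hC
    apply hfail
    rw [hTD]
    open Cfsg.Agent.Lib.Helper14 in
    exact tf_of_not_constrained h𝓦 hsub hquot hC S
  · exact le_inf (Subgroup.commutator_le_left _ _)
      (Subgroup.commutator_mono (hQS.trans hSM) le_rfl)
  · exact le_inf inf_le_left ((inf_le_inf_right _ hQS).trans hfocM)
  · intro v hvS hvQ
    by_contra hcon
    apply hfail
    rw [hTD]
    open Cfsg.Agent.Lib.Helper14 in
    refine focal_of_engel h𝓦 hne hsub hquot S v hvS hvQ ?_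
    intro U V hUV hUQ
    by_contra hn
    exact hcon ⟨U, V, hUV, hUQ, hn⟩

end Cfsg.Agent.S1998
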