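import Cfsg.Statements.S2003
import Cfsg.Agent.Lib.Helper14.KInfChiefA
import Cfsg.Agent.Lib.Helper14.Cores

set_option autoImplicit false
open Cfsg

namespace Cfsg.Agent.S2003

open Cfsg Cfsg.Agent.Lib.Helper14

open scoped commutatorElement

universe u

section aux

variable {G : Type u} [Group G]

theorem iter_mono {N N' : Subgroup G} (H : Subgroup G) (h : N ≤ N') :
    ∀ n, iterCommutator N H n ≤ iterCommutator N' H n
  | 0 => h
  | n + 1 => Subgroup.commutator_mono (iter_mono H h n) le_rfl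

theorem iter_le_self (N H : Subgroup G) [N.Normal] : ∀ n, iterCommutator N H n ≤ N
  | 0 => le_rfl
  | n + 1 => (Subgroup.commutator_mono (iter_le_self N H n) le_rfl).trans
      (Subgroup.commutator_le_left N H)

theorem iter_succ_le (N H : Subgroup G) [N.Normal] :
    ∀ n, iterCommutator N H (n + 1) ≤ iterCommutator N H n
  | 0 => Subgroup.commutator_le_left N H
  | n + 1 => Subgroup.commutator_mono (iter_succ_le N H n) le_rfl

theorem iter_anti (N H : Subgroup G) [N.Normal] {a b : ℕ} (h : a ≤ b) :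
    iterCommutator N H b ≤ iterCommutator N H a := by
  induction h with
  | refl => exact le_rfl
  | step _ ih => exact (iter_succ_le N H _).trans ih

theorem iter_sup (K V T : Subgroup G) [V.Normal] :
    ∀ n, iterCommutator (K ⊔ V) T n ≤ iterCommutator K T n ⊔ V
  | 0 => le_rfl
  | n + 1 => (Subgroup.commutator_mono (iter_sup K V T n) le_rfl).trans
      (comm_sup_normal_le _ _ _)

theorem iter_chain (U : ℕ → Subgroup G) (H : Subgroup G) (h : ∀ r, ⁅U r, H⁆ ≤ U (r + 1)) :
    ∀ r, iterCommutator (U 0) H r ≤ U r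
  | 0 => le_rfl
  | r + 1 => (Subgroup.commutator_mono (iter_chain U H h r) le_rfl).trans (h r)

theorem conj_mem_iter (N H : Subgroup G) [N.Normal] (b : ℕ) {h t : G} (hh : h ∈ H)
    (ht : t ∈ iterCommutator N H b) : h * t * h⁻¹ ∈ iterCommutator N H b := by
  have e : h * t * h⁻¹ = ⁅t, h⁆⁻¹ * t := by
    simp only [commutatorElement_def]; group
  rw [e]
  exact mul_mem (inv_mem (iter_succ_le N H b (Subgroup.commutator_mem_commutator ht hh))) ht

theorem comm_mul_right (a b c : G) : ⁅a, b * c⁆ = ⁅a, b⁆ * (b * ⁅a, c⁆ * b⁻¹) := by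
  simp only [commutatorElement_def]; group

theorem comm_inv_right (a b : G) : ⁅a, b⁻¹⁆ = b⁻¹ * ⁅a, b⁆⁻¹ * b⁻¹⁻¹ := by
  simp only [commutatorElement_def]; group

theorem comm_conj (a b u : G) : ⁅a, u * b * u⁻¹⁆ = u * ⁅u⁻¹ * a * u⁻¹⁻¹, b⁆ * u⁻¹ := by
  simp only [commutatorElement_def]; group

theorem comm_swap (a b : G) : ⁅a, b⁆ = ⁅b, a⁆⁻¹ := by
  simp only [commutatorElement_def]; group

theorem three_sub (v w h : G) : ⁅v, ⁅w, h⁆⁆ =
    w * (v * ⁅h, ⁅v⁻¹, w⁻¹⁆⁆⁻¹ * v⁻¹) * w⁻¹ * (w * (h * ⁅w⁻¹, ⁅h⁻¹, v⁆⁆⁻¹ * h⁻¹) * w⁻¹) := by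
  simp only [commutatorElement_def]; group

theorem exists_series [Finite G] : ∀ (n : ℕ) (B T : Subgroup G), B.Normal → T.Normal → B ≤ T →
    Nat.card T ≤ n →
    ∃ (N : ℕ) (C : ℕ → Subgroup G), C 0 = B ∧ C N = T ∧
      ∀ k < N, IsChiefFactor (C (k + 1)) (C k) := by
  intro n
  induction n with
  | zero =>
    intro B T _ _ _ hcard
    exfalso
    have := Nat.card_pos (α := T)
    omega
  | succ n ih =>
    intro B T hB hT hBT hcard
    by_cases hEq : B = T
    · exact ⟨0, fun _ => B, rfl, hEq, fun k hk => absurd hk (Nat.not_lt_zero k)⟩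
    · have hlt : B < T := lt_of_le_of_ne hBT hEq
      obtain ⟨T₁, hBT₁, hch⟩ := exists_chief_below B T hlt
      have hT₁n : T₁.Normal := hch.2.2.1
      have hc : Nat.card T₁ ≤ n := by
        have := card_lt_of_lt' hch.1
        omega
      obtain ⟨N, C, hC0, hCN, hC⟩ := ih B T₁ hB hT₁n hBT₁ hc
      refine ⟨N + 1, fun k => if k ≤ N then C k else T, ?_, ?_, ?_⟩
      · simp [hC0]
      · simp
      · intro k hk
        by_cases hkN : k < N
        · have h1 : k + 1 ≤ N := hkN
          have h2 : k ≤ N := hkN.le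
          simp only [h1, h2, if_true]
          exact hC k hkN
        · have hkeq : k = N := by omega
          subst hkeq
          show IsChiefFactor (if k + 1 ≤ k then C (k + 1) else T) (if k ≤ k then C k else T)
          rw [if_neg (by omega), if_pos le_rfl, hCN]
          exact hch

theorem exists_series_through [Finite G] (Z Q : Subgroup G) [hZ : Z.Normal] [hQ : Q.Normal]
    (hZQ : Z ≤ Q) :
    ∃ (m N : ℕ) (C : ℕ → Subgroup G), m ≤ N ∧ C 0 = ⊥ ∧ C m = Z ∧ C N = Q ∧
      (∀ k < N, IsChiefFactor (C (k + 1)) (C k)) ∧ (∀ k, (C k).Normal) ∧ Monotone C := by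
  obtain ⟨m, C₁, h10, h1m, h1⟩ :=
    exists_series (Nat.card Z) ⊥ Z inferInstance hZ bot_le le_rfl
  obtain ⟨N₂, C₂, h20, h2N, h2⟩ := exists_series (Nat.card Q) Z Q hZ hQ hZQ le_rfl
  -- the concatenated series, made constant beyond its end
  let D : ℕ → Subgroup G := fun k => if k ≤ m then C₁ k else C₂ (k - m)
  have hD0 : D 0 = ⊥ := by simp [D, h10]
  have hDm : D m = Z := by simp [D, h1m]
  have hDhi : ∀ k, m ≤ k → D k = C₂ (k - m) := by
    intro k hk
    by_cases hkm : k ≤ m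
    · have : k = m := le_antisymm hkm hk
      subst this
      simp [D, h1m, h20]
    · simp [D, hkm]
  have hDN : D (m + N₂) = Q := by
    rw [hDhi _ (Nat.le_add_right _ _), Nat.add_sub_cancel_left, h2N]
  have hDch : ∀ k < m + N₂, IsChiefFactor (D (k + 1)) (D k) := by
    intro k hk
    by_cases hkm : k < m
    · have h1' : k + 1 ≤ m := hkm
      have h2' : k ≤ m := hkm.le
      simp only [D, h1', h2', if_true]
      exact h1 k hkm
    · rw [hDhi k (by omega), hDhi (k + 1) (by omega)]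
      have : k + 1 - m = (k - m) + 1 := by omega
      rw [this]
      exact h2 (k - m) (by omega)
  refine ⟨m, m + N₂, fun k => D (min k (m + N₂)), Nat.le_add_right _ _, ?_, ?_, ?_, ?_, ?_, ?_⟩
  · simp [hD0]
  · simp [hDm]
  · simp [hDN]
  · intro k hk
    have e1 : min (k + 1) (m + N₂) = k + 1 := min_eq_left hk
    have e2 : min k (m + N₂) = k := min_eq_left hk.le
    simp only [e1, e2]
    exact hDch k hk
  · intro k
    show (D (min k (m + N₂))).Normal
    by_cases hk : min k (m + N₂) < m + N₂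
    · exact (hDch _ hk).2.2.1
    · have : min k (m + N₂) = m + N₂ := le_antisymm (min_le_right _ _) (not_lt.mp hk)
      rw [this, hDN]; exact hQ
  · apply monotone_nat_of_le_succ
    intro k
    show D (min k (m + N₂)) ≤ D (min (k + 1) (m + N₂))
    by_cases hk : k < m + N₂
    · have e1 : min (k + 1) (m + N₂) = k + 1 := min_eq_left hk
      have e2 : min k (m + N₂) = k := min_eq_left hk.le
      rw [e1, e2]
      exact (hDch k hk).1.le
    · have e1 : min (k + 1) (m + N₂) = m + N₂ := min_eq_right (by omega)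
      have e2 : min k (m + N₂) = m + N₂ := min_eq_right (by omega)
      rw [e1, e2]

end aux

section filt

variable {G : Type u} [Group G]

/-- The elements of `P` pushing each term of the series down `d` steps. -/
def Pd (P : Subgroup G) (C : ℕ → Subgroup G) (hCn : ∀ k, (C k).Normal) (N d : ℕ) :
    Subgroup G where
  carrier := {x | x ∈ P ∧ ∀ k ≤ N, ∀ v ∈ C k, ⁅v, x⁆ ∈ C (k - d)}
  one_mem' := ⟨P.one_mem, fun k _ v _ => by
    rw [commutatorElement_one_right]; exact (C (k - d)).one_mem⟩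
  mul_mem' := by
    rintro x y ⟨hx, hx'⟩ ⟨hy, hy'⟩
    refine ⟨P.mul_mem hx hy, fun k hk v hv => ?_⟩
    rw [comm_mul_right]
    exact (C (k - d)).mul_mem (hx' k hk v hv) ((hCn (k - d)).conj_mem _ (hy' k hk v hv) x)
  inv_mem' := by
    rintro x ⟨hx, hx'⟩
    refine ⟨P.inv_mem hx, fun k hk v hv => ?_⟩
    rw [comm_inv_right]
    exact (hCn (k - d)).conj_mem _ ((C (k - d)).inv_mem (hx' k hk v hv)) x⁻¹

theorem Pd_le (P : Subgroup G) (C : ℕ → Subgroup G) (hCn : ∀ k, (C k).Normal) (N d : ℕ) :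
    Pd P C hCn N d ≤ P := fun _ hx => hx.1

theorem Pd_normal (P : Subgroup G) [hP : P.Normal] (C : ℕ → Subgroup G)
    (hCn : ∀ k, (C k).Normal) (N d : ℕ) : (Pd P C hCn N d).Normal := by
  constructor
  rintro x ⟨hx, hx'⟩ u
  refine ⟨hP.conj_mem x hx u, fun k hk v hv => ?_⟩
  rw [comm_conj]
  exact (hCn (k - d)).conj_mem _ (hx' k hk _ ((hCn k).conj_mem v hv u⁻¹)) u

theorem T_conj_P (P : Subgroup G) (C : ℕ → Subgroup G) (hCn : ∀ k, (C k).Normal)
    (hmono : Monotone C) (N : ℕ) (hcent : ∀ l ≤ N, ⁅C l, P⁆ ≤ C (l - 1)) (g : G) (l b : ℕ)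
    (hl : l ≤ N) {x t : G} (hx : x ∈ P)
    (ht : t ∈ iterCommutator (C l) (Subgroup.zpowers g) b ⊔ C (l - 1)) :
    x * t * x⁻¹ ∈ iterCommutator (C l) (Subgroup.zpowers g) b ⊔ C (l - 1) := by
  have := hCn l
  have htC : t ∈ C l := (sup_le (iter_le_self (C l) _ b) (hmono (Nat.sub_le l 1))) ht
  have e : x * t * x⁻¹ = ⁅t, x⁆⁻¹ * t := by
    simp only [commutatorElement_def]; group
  rw [e]
  refine mul_mem (inv_mem ?_) ht
  exact (le_sup_right : C (l - 1) ≤ iterCommutator (C l) (Subgroup.zpowers g) b ⊔ C (l - 1))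
    (hcent l hl (Subgroup.commutator_mem_commutator htC hx))

theorem T_conj_g (C : ℕ → Subgroup G) (hCn : ∀ k, (C k).Normal) (g : G) (l b : ℕ) {h t : G}
    (hh : h ∈ Subgroup.zpowers g)
    (ht : t ∈ iterCommutator (C l) (Subgroup.zpowers g) b ⊔ C (l - 1)) :
    h * t * h⁻¹ ∈ iterCommutator (C l) (Subgroup.zpowers g) b ⊔ C (l - 1) := by
  have := hCn l
  have key : iterCommutator (C l) (Subgroup.zpowers g) b ⊔ C (l - 1) ≤
      (iterCommutator (C l) (Subgroup.zpowers g) b ⊔ C (l - 1)).comap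
        (MulAut.conj h).toMonoidHom := by
    refine sup_le (fun a ha => ?_) (fun a ha => ?_)
    · rw [Subgroup.mem_comap, MulEquiv.coe_toMonoidHom, MulAut.conj_apply]
      exact (le_sup_left : _ ≤ iterCommutator (C l) (Subgroup.zpowers g) b ⊔ C (l - 1))
        (conj_mem_iter (C l) _ b hh ha)
    · rw [Subgroup.mem_comap, MulEquiv.coe_toMonoidHom, MulAut.conj_apply]
      exact (le_sup_right : C (l - 1) ≤ iterCommutator (C l) (Subgroup.zpowers g) b ⊔ C (l - 1))
        ((hCn (l - 1)).conj_mem a ha h)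
  have h5 := key ht
  rw [Subgroup.mem_comap, MulEquiv.coe_toMonoidHom, MulAut.conj_apply] at h5
  exact h5

/-- The refined filtration between two consecutive depths. -/
def Ud (P : Subgroup G) (C : ℕ → Subgroup G) (hCn : ∀ k, (C k).Normal)
    (hmono : Monotone C) (N : ℕ) (hcent : ∀ l ≤ N, ⁅C l, P⁆ ≤ C (l - 1)) (g : G) (i d r : ℕ) :
    Subgroup G where
  carrier := {w | w ∈ Pd P C hCn N d ∧ ∀ k ≤ N, ∀ a, ∀ v ∈ iterCommutator (C k) (Subgroup.zpowers g) a,
      ⁅v, w⁆ ∈ iterCommutator (C (k - d)) (Subgroup.zpowers g) (a + r - (i - 1)) ⊔ C (k - d - 1)}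
  one_mem' := ⟨one_mem _, fun k _ a v _ => by
    rw [commutatorElement_one_right]; exact one_mem _⟩
  mul_mem' := by
    rintro x y ⟨hx, hx'⟩ ⟨hy, hy'⟩
    refine ⟨mul_mem hx hy, fun k hk a v hv => ?_⟩
    rw [comm_mul_right]
    exact mul_mem (hx' k hk a v hv)
      (T_conj_P P C hCn hmono N hcent g _ _ ((Nat.sub_le k d).trans hk) (Pd_le P C hCn N d hx)
        (hy' k hk a v hv))
  inv_mem' := by
    rintro x ⟨hx, hx'⟩
    refine ⟨inv_mem hx, fun k hk a v hv => ?_⟩
    rw [comm_inv_right]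
    exact T_conj_P P C hCn hmono N hcent g _ _ ((Nat.sub_le k d).trans hk)
      (P.inv_mem (Pd_le P C hCn N d hx)) (inv_mem (hx' k hk a v hv))

theorem U_step (P : Subgroup G) [hP : P.Normal] (C : ℕ → Subgroup G) (hCn : ∀ k, (C k).Normal)
    (hmono : Monotone C) (N : ℕ) (hcent : ∀ l ≤ N, ⁅C l, P⁆ ≤ C (l - 1)) (g : G) (i d r : ℕ)
    (hCP : ∀ k ≤ N, C k ≤ P) :
    ⁅Ud P C hCn hmono N hcent g i d r, Subgroup.zpowers g⁆ ≤
      Ud P C hCn hmono N hcent g i d (r + 1) := by
  rw [Subgroup.commutator_le]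
  intro w hw h hh
  have hwinv := inv_mem hw
  obtain ⟨hwP, hwU⟩ := hw
  obtain ⟨-, hwU'⟩ := hwinv
  refine ⟨?_, fun k hk a v hv => ?_⟩
  · have e : ⁅w, h⁆ = w * (h * w⁻¹ * h⁻¹) := by
      simp only [commutatorElement_def]; group
    rw [e]
    exact mul_mem hwP ((Pd_normal P C hCn N d).conj_mem _ (inv_mem hwP) h)
  · have := hCn (k - d)
    have := hCn (k - d - 1)
    have := hCn k
    have hkd : k - d ≤ N := (Nat.sub_le k d).trans hk
    have hvP : v ∈ P := hCP k hk (iter_le_self (C k) _ a hv)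
    have hwP' : w ∈ P := Pd_le P C hCn N d hwP
    have hE1 : ⁅h, ⁅v⁻¹, w⁻¹⁆⁆ ∈ iterCommutator (C (k - d)) (Subgroup.zpowers g)
        (a + (r + 1) - (i - 1)) ⊔ C (k - d - 1) := by
      have ht := hwU' k hk a v⁻¹ (inv_mem hv)
      rw [comm_swap]
      refine inv_mem ?_
      have h1 : ⁅⁅v⁻¹, w⁻¹⁆, h⁆ ∈ ⁅iterCommutator (C (k - d)) (Subgroup.zpowers g)
          (a + r - (i - 1)) ⊔ C (k - d - 1), Subgroup.zpowers g⁆ :=
        Subgroup.commutator_mem_commutator ht hh
      have h2 := comm_sup_normal_le (iterCommutator (C (k - d)) (Subgroup.zpowers g)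
        (a + r - (i - 1))) (C (k - d - 1)) (Subgroup.zpowers g) h1
      have h3 : ⁅iterCommutator (C (k - d)) (Subgroup.zpowers g) (a + r - (i - 1)),
          Subgroup.zpowers g⁆ ≤ iterCommutator (C (k - d)) (Subgroup.zpowers g)
            (a + (r + 1) - (i - 1)) :=
        iter_anti (C (k - d)) (Subgroup.zpowers g)
          (by omega : a + (r + 1) - (i - 1) ≤ (a + r - (i - 1)) + 1)
      exact sup_le_sup_right h3 _ h2
    have hE2 : ⁅w⁻¹, ⁅h⁻¹, v⁆⁆ ∈ iterCommutator (C (k - d)) (Subgroup.zpowers g)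
        (a + (r + 1) - (i - 1)) ⊔ C (k - d - 1) := by
      have hc : ⁅h⁻¹, v⁆ ∈ iterCommutator (C k) (Subgroup.zpowers g) (a + 1) := by
        rw [comm_swap]
        exact inv_mem (Subgroup.commutator_mem_commutator hv (inv_mem hh))
      have ht := hwU' k hk (a + 1) _ hc
      rw [comm_swap]
      refine inv_mem ?_
      have e : a + 1 + r - (i - 1) = a + (r + 1) - (i - 1) := by omega
      rw [e] at ht
      exact ht
    rw [three_sub]
    refine mul_mem ?_ ?_
    · exact T_conj_P P C hCn hmono N hcent g _ _ hkd hwP'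
        (T_conj_P P C hCn hmono N hcent g _ _ hkd hvP (inv_mem hE1))
    · exact T_conj_P P C hCn hmono N hcent g _ _ hkd hwP'
        (T_conj_g C hCn g _ _ hh (inv_mem hE2))

theorem U_zero (P : Subgroup G) (C : ℕ → Subgroup G) (hCn : ∀ k, (C k).Normal)
    (hmono : Monotone C) (N : ℕ) (hcent : ∀ l ≤ N, ⁅C l, P⁆ ≤ C (l - 1)) (g : G) (i d : ℕ)
    (hI : ∀ k ≤ N, iterCommutator (C k) (Subgroup.zpowers g) i ≤ C (k - 1)) :
    Pd P C hCn N d ≤ Ud P C hCn hmono N hcent g i d 0 := by
  intro w hw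
  refine ⟨hw, fun k hk a v hv => ?_⟩
  have := hCn k
  by_cases ha : a ≤ i - 1
  · have e : a + 0 - (i - 1) = 0 := by omega
    rw [e]
    exact (le_sup_left : C (k - d) ≤ C (k - d) ⊔ C (k - d - 1))
      (hw.2 k hk v (iter_le_self (C k) _ a hv))
  · have hv' : v ∈ C (k - 1) := hI k hk (iter_anti (C k) _ (by omega : i ≤ a) hv)
    have h1 := hw.2 (k - 1) (by omega) v hv'
    have e : k - 1 - d = k - d - 1 := by omega
    rw [e] at h1
    exact (le_sup_right : C (k - d - 1) ≤ _ ⊔ C (k - d - 1)) h1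

theorem U_top (P : Subgroup G) (C : ℕ → Subgroup G) (hCn : ∀ k, (C k).Normal)
    (hmono : Monotone C) (N : ℕ) (hcent : ∀ l ≤ N, ⁅C l, P⁆ ≤ C (l - 1)) (g : G) (i j d m : ℕ)
    (hi : 1 ≤ i) (hj : 1 ≤ j) (Z : Subgroup G) (hCm : C m = Z)
    (hPQ : ∀ k ≤ N, ∀ v ∈ C k, ∀ w ∈ P, ⁅v, w⁆ ∈ Z)
    (hJ : ∀ l, 1 ≤ l → l ≤ m → iterCommutator (C l) (Subgroup.zpowers g) j ≤ C (l - 1)) :
    Ud P C hCn hmono N hcent g i d (i + j - 1) ≤ Pd P C hCn N (d + 1) := by
  rintro w ⟨hwP, hwU⟩
  refine ⟨Pd_le P C hCn N d hwP, fun k hk v hv => ?_⟩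
  have e : k - (d + 1) = k - d - 1 := by omega
  rw [e]
  by_cases h0 : k - d = 0
  · have h1 := hwP.2 k hk v hv
    rw [h0] at h1 ⊢
    exact h1
  · by_cases h1 : k - d ≤ m
    · have h2 := hwU k hk 0 v hv
      have e2 : 0 + (i + j - 1) - (i - 1) = j := by omega
      rw [e2] at h2
      exact (sup_le (hJ (k - d) (by omega) h1) le_rfl) h2
    · have h2 := hPQ k hk v hv w (Pd_le P C hCn N d hwP)
      rw [← hCm] at h2
      exact hmono (by omega : m ≤ k - d - 1) h2

theorem S_step (g : G) (n : ℕ) (L H : Subgroup G) [L.Normal]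
    (hiter : iterCommutator H (Subgroup.zpowers g) n ≤ L)
    (hS : ∀ X Y : Subgroup G, IsChiefFactor X Y → X ≤ L →
      iterCommutator X (Subgroup.zpowers g) n ≤ Y) :
    ∀ X Y : Subgroup G, IsChiefFactor X Y → X ≤ H →
      iterCommutator X (Subgroup.zpowers g) n ≤ Y := by
  intro X Y hXY hXH
  obtain ⟨hlt, hXn, hYn, hmin⟩ := hXY
  have := hXn
  have := hYn
  have hMn : ((X ⊓ L) ⊔ Y).Normal := inferInstance
  rcases hmin _ hMn le_sup_right (sup_le inf_le_left hlt.le) with hM | hM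
  · have h1 : X ⊓ L ≤ Y := by rw [← hM]; exact le_sup_left
    exact (le_inf (iter_le_self X _ n) ((iter_mono _ hXH n).trans hiter)).trans h1
  · have hch : IsChiefFactor (X ⊓ L) (Y ⊓ L) := by
      refine ⟨lt_of_le_of_ne (inf_le_inf_right L hlt.le) ?_, inferInstance, inferInstance, ?_⟩
      · intro heq
        have h5 : X ⊓ L ≤ Y := by rw [← heq]; exact inf_le_left
        have h2 : X ≤ Y := by
          rw [← hM]; exact sup_le h5 le_rfl
        exact (not_le_of_gt hlt) h2
      · intro N' hN' h1 h2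
        have := hN'
        rcases hmin (N' ⊔ Y) inferInstance le_sup_right
          (sup_le (h2.trans inf_le_left) hlt.le) with h | h
        · left
          refine le_antisymm ?_ h1
          refine le_inf ?_ (h2.trans inf_le_right)
          rw [← h]; exact le_sup_left
        · right
          refine le_antisymm h2 ?_
          intro x hx
          have hx' : x ∈ N' ⊔ Y := by rw [h]; exact hx.1
          obtain ⟨a, ha, y, hy, rfl⟩ := Subgroup.mem_sup_of_normal_right.mp hx'
          have hyL : y ∈ L := by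
            have e : y = a⁻¹ * (a * y) := by group
            rw [e]
            exact mul_mem (inv_mem (h2 ha).2) hx.2
          exact mul_mem ha (h1 ⟨hy, hyL⟩)
    have h3 := hS _ _ hch inf_le_right
    calc iterCommutator X (Subgroup.zpowers g) n
        = iterCommutator ((X ⊓ L) ⊔ Y) (Subgroup.zpowers g) n := by rw [hM]
      _ ≤ iterCommutator (X ⊓ L) (Subgroup.zpowers g) n ⊔ Y := iter_sup _ _ _ n
      _ ≤ Y := sup_le (h3.trans inf_le_left) le_rfl

end filt

/-- Let p be a prime, G a finite group, P a normal p-subgroup of G and Q a critical subgroup of P: a characteristic subgroup with Q/Z(Q) elementary abelian, [P, Q] ≤ Z(Q), C_P(Q) = Z(Q), and such that every automorphism of P of order prime to p fixing Q elementwise is trivial. Let g ∈ G and i, j ≥ 1, and suppose that [X, g, …, g] ≤ Y with i entries g for every chief factor X/Y of G with X ≤ Q, and with j entries g for every chief factor X/Y of G with X ≤ Z(Q). Then [X, g, …, g] ≤ Y with i + j − 1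 entries g for every chief factor X/Y of G with X ≤ P. -/
theorem result {G : Type*} [Group G] [Finite G] {p : ℕ} [Fact p.Prime] (P : Subgroup G) [P.Normal] (hP : IsPGroup p ↥P) (Q : Subgroup G) (hQP : Q ≤ P) (hQchar : (Q.subgroupOf P).Characteristic) (hQ1 : ∀ a ∈ Q, a ^ p ∈ Q ⊓ Subgroup.centralizer ((Q : Subgroup G) : Set G)) (hQ2 : ⁅Q, Q⁆ ≤ Subgroup.centralizer ((Q : Subgroup G) : Set G)) (hQ3 : ⁅P, Q⁆ ≤ Q ⊓ Subgroup.centralizer ((Q : Subgroup G) : Set G)) (hQ4 : P ⊓ Subgroup.centralizer ((Q : Subgroup G) : Set G) = Q ⊓ Subgroup.centralizer ((Q : Subgroup G) : Set G)) (hQ5 : ∀ φ : MulAut ↥P, (orderOf φ).Coprime p → (∀ a : ↥P, (a : G) ∈ Q → φ a = a) → φ = 1) (g : G) (i j : ℕ) (hi : 1 ≤ i) (hj : 1 ≤ j) (hQi : ∀ U V : Subgroup G, Cfsg.IsChiefFactor U V → U ≤ Q → Cfsg.iterCommutator U (Subgroup.zpowers g) i ≤ V) (hZj : ∀ U V : Subgroup G, Cfsg.IsChiefFactor U V → U ≤ Q ⊓ Subgroup.centralizer ((Q : Subgroup G) : Set G) → Cfsg.iterCommutator U (Subgroup.zpowers g)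 j ≤ V) : ∀ U V : Subgroup G, Cfsg.IsChiefFactor U V → U ≤ P → Cfsg.iterCommutator U (Subgroup.zpowers g) (i + j - 1) ≤ V := by
  classical
  intro U V hUV hUP
  have hQn : Q.Normal := by
    have h1 : ((Q.subgroupOf P).map P.subtype).Normal :=
      ConjAct.normal_of_characteristic_of_normal
    rwa [Subgroup.map_subgroupOf_eq_of_le hQP] at h1
  have hCQn : (Subgroup.centralizer ((Q : Subgroup G) : Set G)).Normal :=
    Subgroup.normal_centralizer
  have hZn : (Q ⊓ Subgroup.centralizer ((Q : Subgroup G) : Set G)).Normal := inferInstance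
  obtain ⟨m, N, C, hmN, hC0, hCm, hCN, hCch, hCn, hmono⟩ :=
    exists_series_through (Q ⊓ Subgroup.centralizer ((Q : Subgroup G) : Set G)) Q inf_le_left
  have hCQ : ∀ k ≤ N, C k ≤ Q := fun k hk => hCN ▸ hmono hk
  have hCP : ∀ k ≤ N, C k ≤ P := fun k hk => (hCQ k hk).trans hQP
  have hPcore : P ≤ pCore p G := le_pCore p inferInstance hP
  have hcent : ∀ l ≤ N, ⁅C l, P⁆ ≤ C (l - 1) := by
    intro l hl
    rcases Nat.eq_zero_or_pos l with h0 | hpos
    · subst h0
      rw [hC0]
      simp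
    · have hch := hCch (l - 1) (by omega)
      rw [Nat.sub_add_cancel hpos] at hch
      exact (Subgroup.commutator_mono le_rfl hPcore).trans
        (pCore_comm_chief_le hch ((hCP l hl).trans hPcore))
  have hI : ∀ k ≤ N, iterCommutator (C k) (Subgroup.zpowers g) i ≤ C (k - 1) := by
    intro k hk
    rcases Nat.eq_zero_or_pos k with h0 | hpos
    · subst h0
      have := hCn 0
      exact iter_le_self (C 0) _ i
    · have hch := hCch (k - 1) (by omega)
      rw [Nat.sub_add_cancel hpos] at hch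
      exact hQi _ _ hch (hCQ k hk)
  have hJ : ∀ l, 1 ≤ l → l ≤ m → iterCommutator (C l) (Subgroup.zpowers g) j ≤ C (l - 1) := by
    intro l h1 hl
    have hch := hCch (l - 1) (by omega)
    rw [Nat.sub_add_cancel h1] at hch
    exact hZj _ _ hch (hCm ▸ hmono hl)
  have hPQ : ∀ k ≤ N, ∀ v ∈ C k, ∀ w ∈ P,
      ⁅v, w⁆ ∈ Q ⊓ Subgroup.centralizer ((Q : Subgroup G) : Set G) := by
    intro k hk v hv w hw
    rw [comm_swap]
    exact inv_mem (hQ3 (Subgroup.commutator_mem_commutator hw (hCQ k hk hv)))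
  have key : ∀ t d, 1 ≤ d → N ≤ d + t → ∀ X Y : Subgroup G, IsChiefFactor X Y →
      X ≤ Pd P C hCn N d → iterCommutator X (Subgroup.zpowers g) (i + j - 1) ≤ Y := by
    intro t
    induction t with
    | zero =>
      intro d hd hN X Y hXY hX
      have hXQ : X ≤ Q := by
        intro x hx
        have hx' := hX hx
        have hxc : x ∈ Subgroup.centralizer ((Q : Subgroup G) : Set G) := by
          rw [Subgroup.mem_centralizer_iff]
          intro v hv
          have h1 := hx'.2 N le_rfl v (by rw [hCN]; exact hv)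
          have e : N - d = 0 := by omega
          rw [e, hC0, Subgroup.mem_bot] at h1
          exact commutatorElement_eq_one_iff_mul_comm.mp h1
        have h2 : x ∈ P ⊓ Subgroup.centralizer ((Q : Subgroup G) : Set G) := ⟨hx'.1, hxc⟩
        rw [hQ4] at h2
        exact h2.1
      have := hXY.2.1
      exact (iter_anti X _ (by omega : i ≤ i + j - 1)).trans (hQi X Y hXY hXQ)
    | succ t ih =>
      intro d hd hN X Y hXY hX
      have := Pd_normal P C hCn N (d + 1)
      refine S_step g (i + j - 1) (Pd P C hCn N (d + 1)) (Pd P C hCn N d) ?_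
        (ih (d + 1) (by omega) (by omega)) X Y hXY hX
      calc iterCommutator (Pd P C hCn N d) (Subgroup.zpowers g) (i + j - 1)
          ≤ iterCommutator (Ud P C hCn hmono N hcent g i d 0) (Subgroup.zpowers g)
              (i + j - 1) := iter_mono _ (U_zero P C hCn hmono N hcent g i d hI) _
        _ ≤ Ud P C hCn hmono N hcent g i d (i + j - 1) :=
            iter_chain (fun r => Ud P C hCn hmono N hcent g i d r) _
              (fun r => U_step P C hCn hmono N hcent g i d r hCP) _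
        _ ≤ Pd P C hCn N (d + 1) :=
            U_top P C hCn hmono N hcent g i j d m hi hj _ hCm hPQ hJ
  refine key N 1 le_rfl (by omega) U V hUV (hUP.trans ?_)
  intro x hx
  exact ⟨hx, fun k hk v hv => hcent k hk (Subgroup.commutator_mem_commutator hv hx)⟩

end Cfsg.Agent.S2003
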