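import Cfsg.Statements.S2006
import Cfsg.Agent.S2005
import Cfsg.Agent.Lib.Helper14.HHCore
import Cfsg.Agent.Lib.Helper14.TightEmb
import Cfsg.Agent.Lib.Helper1.CoprimeSylow

set_option autoImplicit false
universe u
open Cfsg

namespace Cfsg.Agent.S2006

open Cfsg.Agent.Lib.Helper14
open scoped commutatorElement

theorem abelian_of_coatom_sylow {D : Type u} [Group D] [Finite D] {p : ℕ} [hp : Fact p.Prime]
    (S : Sylow p D) (hS : IsCoatom (S : Subgroup D)) (M : Subgroup D) [hMn : M.Normal]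
    (hM : (Nat.card M).Coprime p) : ∀ a ∈ M, ∀ b ∈ M, a * b = b * a := by
  have hpp := hp.out
  have hcopSM : (Nat.card (S : Subgroup D)).Coprime (Nat.card M) := by
    obtain ⟨k, hk⟩ := IsPGroup.iff_card.mp S.2
    rw [hk]
    exact Nat.Coprime.pow_left k hM.symm
  have hSM : (S : Subgroup D) ⊓ M = ⊥ := by
    rw [← disjoint_iff]
    exact Subgroup.disjoint_of_coprime_natCard hcopSM
  have hMN : Subgroup.normalizer (M : Set D) = ⊤ := Subgroup.normalizer_eq_top_iff.mpr hMn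
  have hmin : ∀ A : Subgroup D, A ≤ M →
      (S : Subgroup D) ≤ Subgroup.normalizer (A : Set D) → A = ⊥ ∨ A = M := by
    intro A hAM hSA
    have hAS : A ⊓ (S : Subgroup D) = ⊥ := by
      rw [eq_bot_iff, ← hSM]
      exact le_inf inf_le_right (inf_le_left.trans hAM)
    rcases eq_or_lt_of_le (le_sup_left : (S : Subgroup D) ≤ (S : Subgroup D) ⊔ A) with h | h
    · left
      have hA : A ≤ (S : Subgroup D) := by rw [h]; exact le_sup_right
      rw [eq_bot_iff, ← hAS]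
      exact le_inf le_rfl hA
    · right
      have htop := hS.2 _ h
      have h1 : Nat.card ↥(A ⊔ (S : Subgroup D)) = Nat.card A * Nat.card (S : Subgroup D) :=
        card_sup_eq_mul_of_le_normalizer A S hSA hAS
      have h2 : Nat.card ↥(M ⊔ (S : Subgroup D)) = Nat.card M * Nat.card (S : Subgroup D) :=
        card_sup_eq_mul_of_le_normalizer M S (by rw [hMN]; exact le_top)
          (by rw [inf_comm]; exact hSM)
      have h3 : Nat.card ↥(A ⊔ (S : Subgroup D)) = Nat.card D := by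
        rw [sup_comm, htop, Subgroup.card_top]
      have h4 : Nat.card ↥(M ⊔ (S : Subgroup D)) ≤ Nat.card D := Subgroup.card_le_card_group _
      have h5 : Nat.card M ≤ Nat.card A := by
        have hpos : 0 < Nat.card (S : Subgroup D) := Nat.card_pos
        have h6 : Nat.card M * Nat.card (S : Subgroup D) ≤
            Nat.card A * Nat.card (S : Subgroup D) := by
          rw [← h1, ← h2, h3]
          exact h4
        exact Nat.le_of_mul_le_mul_right h6 hpos
      exact Subgroup.eq_of_le_of_card_ge hAM h5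
  by_cases hMb : M = ⊥
  · intro a ha b hb
    rw [hMb, Subgroup.mem_bot] at ha hb
    rw [ha, hb]
  have hcard1 : Nat.card M ≠ 1 := fun h => hMb (Subgroup.card_eq_one.mp h)
  obtain ⟨q, hq, hqd⟩ := Nat.exists_prime_and_dvd hcard1
  have : Fact q.Prime := ⟨hq⟩
  have hsolv : Group.IsSolvable ↥(S : Subgroup D) := by
    have := S.2.isNilpotent
    infer_instance
  obtain ⟨P, hP⟩ := Cfsg.Agent.Lib.Helper1.exists_invariant_sylow (S : Subgroup D) M
    (by rw [hMN]; exact le_top) hcopSM (Or.inl hsolv) q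
  have hPne : (P : Subgroup ↥M).map M.subtype ≠ ⊥ := by
    intro h0
    have h1 : Nat.card ↥((P : Subgroup ↥M).map M.subtype) = 1 := by
      rw [h0, Subgroup.card_bot]
    rw [Subgroup.card_map_of_injective (Subgroup.subtype_injective _)] at h1
    have h2 := P.card_eq_multiplicity
    rw [h1] at h2
    have h3 : 0 < (Nat.card ↥M).factorization q :=
      hq.factorization_pos_of_dvd (Nat.card_pos).ne' hqd
    have h4 : 1 < q ^ (Nat.card ↥M).factorization q := Nat.one_lt_pow h3.ne' hq.one_lt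
    omega
  have hPM := (hmin _ (Subgroup.map_subtype_le _) hP).resolve_left hPne
  have hMq : IsPGroup q ↥M := by
    have hPtop : (P : Subgroup ↥M) = ⊤ := by
      rw [eq_top_iff]
      intro x _
      have hx : (x : D) ∈ (P : Subgroup ↥M).map M.subtype := by rw [hPM]; exact x.2
      obtain ⟨y, hy, hyx⟩ := hx
      have hyx' : y = x := Subtype.ext hyx
      rw [← hyx']
      exact hy
    intro x
    obtain ⟨k, hk⟩ := P.2 ⟨x, by rw [hPtop]; trivial⟩
    exact ⟨k, congrArg Subtype.val hk⟩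
  have hnt : Nontrivial ↥M := (Subgroup.nontrivial_iff_ne_bot M).mpr hMb
  have hZnt : Nontrivial ↥(Subgroup.center ↥M) := hMq.center_nontrivial
  have hZne : (Subgroup.center ↥M).map M.subtype ≠ ⊥ := by
    intro h0
    have hbot : Subgroup.center ↥M = ⊥ := by
      rw [eq_bot_iff]
      intro x hx
      have h1 : (x : D) ∈ (Subgroup.center ↥M).map M.subtype := ⟨x, hx, rfl⟩
      rw [h0, Subgroup.mem_bot] at h1
      rw [Subgroup.mem_bot]
      exact Subtype.ext h1
    exact (Subgroup.nontrivial_iff_ne_bot _).mp hZnt hbot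
  have hZn : ((Subgroup.center ↥M).map M.subtype).Normal := inferInstance
  have hZM := (hmin _ (Subgroup.map_subtype_le _)
    (by rw [Subgroup.normalizer_eq_top_iff.mpr hZn]; exact le_top)).resolve_left hZne
  intro a ha b hb
  have ha' : a ∈ (Subgroup.center ↥M).map M.subtype := by rw [hZM]; exact ha
  obtain ⟨a', ha'c, rfl⟩ := ha'
  have h1 := Subgroup.mem_center_iff.mp ha'c ⟨b, hb⟩
  exact (congrArg Subtype.val h1).symm

theorem HH {p : ℕ} [hp : Fact p.Prime] {Y : Type u} [Group Y] [Finite Y]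
    (hPC : Cfsg.HasNormalPComplement p (Y ⧸ Cfsg.pCore p Y)) (T : Sylow p Y)
    (hT : IsCoatom (T : Subgroup Y)) (g : Y) (hgT : g ∈ (T : Subgroup Y))
    (hgH : g ∉ Cfsg.pCore p Y) (U V : Subgroup Y) (hUV : Cfsg.IsChiefFactor U V)
    (hUH : U ≤ Cfsg.pCore p Y)
    (hiter : Cfsg.iterCommutator U (Subgroup.zpowers g) (p - 1) ≤ V) :
    ⁅U, Subgroup.zpowers g⁆ ≤ V := by
  have hpp := hp.out
  obtain ⟨hVU, hUn, hVn, hchief⟩ := hUV
  have hHp : IsPGroup p ↥(Cfsg.pCore p Y) := pCore_isPGroup p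
  have hHT : Cfsg.pCore p Y ≤ (T : Subgroup Y) := by
    have h1 : IsPGroup p ↥(Cfsg.pCore p Y ⊔ (T : Subgroup Y)) :=
      IsPGroup.to_sup_of_normal_left hHp T.2
    have h2 := T.3 h1 le_sup_right
    rw [← h2]
    exact le_sup_left
  -- the quotient by V
  obtain ⟨πV, hπV⟩ : ∃ πV : Y →* Y ⧸ V, πV = QuotientGroup.mk' V := ⟨_, rfl⟩
  have hπVs : Function.Surjective πV := hπV ▸ QuotientGroup.mk'_surjective _
  have hπVk : πV.ker = V := hπV ▸ QuotientGroup.ker_mk' _
  have hπV1 : ∀ y : Y, πV y = 1 ↔ y ∈ V := by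
    intro y
    rw [← MonoidHom.mem_ker, hπVk]
  obtain ⟨Ut, hUt⟩ : ∃ Ut : Subgroup (Y ⧸ V), Ut = U.map πV := ⟨_, rfl⟩
  have hUtn : Ut.Normal := by rw [hUt]; exact hUn.map πV hπVs
  have hcomapUt : Ut.comap πV = U := by
    rw [hUt, Subgroup.comap_map_eq, hπVk]
    exact sup_eq_left.mpr hVU.le
  have hmapker : ∀ N : Subgroup (Y ⧸ V), N.comap πV = V → N = ⊥ := by
    intro N hN
    rw [eq_bot_iff]
    intro x hx
    obtain ⟨y, rfl⟩ := hπVs x
    have h1 : y ∈ N.comap πV := hx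
    rw [hN] at h1
    rw [Subgroup.mem_bot]
    exact (hπV1 y).mpr h1
  have hminU : ∀ N : Subgroup (Y ⧸ V), N.Normal → N ≤ Ut → N ≠ ⊥ → N = Ut := by
    intro N hN hNU hNb
    have h0 : V ≤ N.comap πV := by
      intro y hy
      rw [Subgroup.mem_comap, (hπV1 y).mpr hy]
      exact N.one_mem
    have h1 := hchief (N.comap πV) (hN.comap πV) h0
      (by rw [← hcomapUt]; exact Subgroup.comap_mono hNU)
    rcases h1 with h1 | h1
    · exact absurd (hmapker N h1) hNb
    · rw [← Subgroup.map_comap_eq_self_of_surjective hπVs N, h1, hUt]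
  have hUtne : Ut ≠ ⊥ := by
    intro h0
    have h1 : Ut.comap πV = V := by
      rw [h0]
      ext y
      rw [Subgroup.mem_comap, Subgroup.mem_bot, hπV1]
    rw [hcomapUt] at h1
    exact hVU.ne' h1
  obtain ⟨Tt, hTt⟩ : ∃ Tt : Subgroup (Y ⧸ V), Tt = (T : Subgroup Y).map πV := ⟨_, rfl⟩
  have hTtp : IsPGroup p ↥Tt := by rw [hTt]; exact T.2.map _
  obtain ⟨Ht, hHt⟩ : ∃ Ht : Subgroup (Y ⧸ V), Ht = (Cfsg.pCore p Y).map πV := ⟨_, rfl⟩
  have hHtn : Ht.Normal := by rw [hHt]; exact Subgroup.Normal.map inferInstance πV hπVs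
  have hUtHt : Ut ≤ Ht := by rw [hUt, hHt]; exact Subgroup.map_mono hUH
  have hHtTt : Ht ≤ Tt := by rw [hHt, hTt]; exact Subgroup.map_mono hHT
  have hUtTt : Ut ≤ Tt := hUtHt.trans hHtTt
  -- a central element
  have hne' : Ut.subgroupOf Tt ≠ ⊥ := by
    intro h0
    apply hUtne
    rw [eq_bot_iff]
    intro x hx
    have h1 : (⟨x, hUtTt hx⟩ : ↥Tt) ∈ Ut.subgroupOf Tt := Subgroup.mem_subgroupOf.mpr hx
    rw [h0, Subgroup.mem_bot] at h1
    exact congrArg Subtype.val h1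
  obtain ⟨b, hbU, hb1, hbc⟩ := exists_central_of_normal' hTtp (Ut.subgroupOf Tt) hne'
  have hbUt : (b : Y ⧸ V) ∈ Ut := Subgroup.mem_subgroupOf.mp hbU
  have hbcomm : ∀ t ∈ Tt, t * (b : Y ⧸ V) = (b : Y ⧸ V) * t := by
    intro t ht
    have h1 := Subgroup.mem_center_iff.mp hbc ⟨t, ht⟩
    exact congrArg Subtype.val h1
  obtain ⟨j, hj⟩ := (IsPGroup.iff_orderOf.mp hTtp) b
  have hj0 : j ≠ 0 := by
    intro h
    rw [h, pow_zero, orderOf_eq_one_iff] at hj
    exact hb1 hj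
  have hbord : orderOf (b : Y ⧸ V) = p ^ j := by rw [Subgroup.orderOf_coe]; exact hj
  obtain ⟨z, hz⟩ : ∃ z : Y ⧸ V, z = (b : Y ⧸ V) ^ (p ^ (j - 1)) := ⟨_, rfl⟩
  have hzU : z ∈ Ut := by rw [hz]; exact Ut.pow_mem hbUt _
  have hzp : z ^ p = 1 := by
    rw [hz, ← pow_mul, ← pow_succ, Nat.sub_add_cancel (Nat.pos_of_ne_zero hj0), ← hbord]
    exact pow_orderOf_eq_one _
  have hz1 : z ≠ 1 := by
    intro h
    rw [hz] at h
    have h1 := orderOf_dvd_of_pow_eq_one h
    rw [hbord] at h1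
    have h2 := Nat.le_of_dvd (pow_pos hpp.pos _) h1
    have h3 : p ^ (j - 1) < p ^ j := Nat.pow_lt_pow_right hpp.one_lt (by omega)
    omega
  have hzc : ∀ t ∈ Tt, t * z = z * t := by
    intro t ht
    rw [hz]
    exact (Commute.pow_right (hbcomm t ht) _)
  -- the subgroup E of central elements of order dividing p
  let E : Subgroup (Y ⧸ V) :=
    { carrier := {a | a ∈ Ut ∧ a ∈ Subgroup.centralizer (Ht : Set (Y ⧸ V)) ∧ a ^ p = 1}
      mul_mem' := by
        rintro a c ⟨haU, haC, hap⟩ ⟨hcU, hcC, hcp⟩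
        refine ⟨Ut.mul_mem haU hcU, Subgroup.mul_mem _ haC hcC, ?_⟩
        have hcomm : Commute a c := (Subgroup.mem_centralizer_iff.mp hcC a (hUtHt haU))
        rw [hcomm.mul_pow, hap, hcp, one_mul]
      one_mem' := ⟨Ut.one_mem, Subgroup.one_mem _, one_pow _⟩
      inv_mem' := by
        rintro a ⟨haU, haC, hap⟩
        exact ⟨Ut.inv_mem haU, Subgroup.inv_mem _ haC, by rw [inv_pow, hap, inv_one]⟩ }
  have hEdef : ∀ a, a ∈ E ↔ a ∈ Ut ∧ a ∈ Subgroup.centralizer (Ht : Set (Y ⧸ V)) ∧ a ^ p = 1 :=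
    fun a => Iff.rfl
  have hEn : E.Normal := by
    constructor
    intro a ha y
    obtain ⟨haU, haC, hap⟩ := (hEdef a).mp ha
    have hCn : (Subgroup.centralizer (Ht : Set (Y ⧸ V))).Normal := inferInstance
    exact (hEdef _).mpr ⟨hUtn.conj_mem a haU y, hCn.conj_mem a haC y,
      by rw [conj_pow, hap, mul_one, mul_inv_cancel]⟩
  have hEU : E ≤ Ut := fun a ha => ((hEdef a).mp ha).1
  have hEne : E ≠ ⊥ := by
    intro h0
    have h1 : z ∈ E := by
      refine (hEdef z).mpr ⟨hzU, ?_, hzp⟩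
      rw [Subgroup.mem_centralizer_iff]
      intro h hh
      exact hzc h (hHtTt hh)
    rw [h0, Subgroup.mem_bot] at h1
    exact hz1 h1
  have hEeq := hminU E hEn hEU hEne
  have hUtc : ∀ a ∈ Ut, ∀ h ∈ Ht, h * a = a * h := by
    intro a ha h hh
    have h1 : a ∈ E := by rw [hEeq]; exact ha
    exact Subgroup.mem_centralizer_iff.mp ((hEdef a).mp h1).2.1 h hh
  have hUtexp : ∀ a ∈ Ut, a ^ p = 1 := by
    intro a ha
    have h1 : a ∈ E := by rw [hEeq]; exact ha
    exact ((hEdef a).mp h1).2.2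
  have hcommQ : ∀ a c : ↥Ut, a * c = c * a := by
    intro a c
    apply Subtype.ext
    exact (hUtc (a : Y ⧸ V) a.2 (c : Y ⧸ V) (hUtHt c.2)).symm
  have hexpQ : ∀ a : ↥Ut, a ^ p = 1 := by
    intro a
    apply Subtype.ext
    exact hUtexp (a : Y ⧸ V) a.2
  -- the action
  obtain ⟨ρ, hρdef⟩ : ∃ ρ : Y →* MulAut ↥Ut, ρ = (MulAut.conjNormal (H := Ut)).comp πV :=
    ⟨_, rfl⟩
  have hρ : ∀ (y : Y) (a : ↥Ut), ((ρ y a : ↥Ut) : Y ⧸ V) = πV y * a * (πV y)⁻¹ := by
    intro y a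
    rw [hρdef]
    rfl
  have hρone : ∀ y : Y, ρ y = 1 ↔ ∀ a ∈ Ut, πV y * a = a * πV y := by
    intro y
    constructor
    · intro h a ha
      have h1 := hρ y ⟨a, ha⟩
      rw [h] at h1
      have h2 : πV y * a * (πV y)⁻¹ = a := h1.symm
      calc πV y * a = (πV y * a * (πV y)⁻¹) * πV y := by group
        _ = a * πV y := by rw [h2]
    · intro h
      ext a
      rw [hρ]
      have h1 := h (a : Y ⧸ V) a.2
      rw [h1]
      simp
  have hHker : ∀ h ∈ Cfsg.pCore p Y, ρ h = 1 := by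
    intro h hh
    rw [hρone]
    intro a ha
    exact hUtc a ha (πV h) (by rw [hHt]; exact Subgroup.mem_map_of_mem _ hh)
  -- the normal p-complement modulo O_p
  obtain ⟨Mb, hMbn, hMbcop, ⟨k, hMbidx⟩, hMbmem⟩ := (pnilp_iff.mpr hPC).exists_compl
  obtain ⟨πH, hπH⟩ : ∃ πH : Y →* Y ⧸ Cfsg.pCore p Y, πH = QuotientGroup.mk' (Cfsg.pCore p Y) :=
    ⟨_, rfl⟩
  have hπHs : Function.Surjective πH := hπH ▸ QuotientGroup.mk'_surjective _
  have hπHk : πH.ker = Cfsg.pCore p Y := hπH ▸ QuotientGroup.ker_mk' _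
  have hπH1 : ∀ y : Y, πH y = 1 ↔ y ∈ Cfsg.pCore p Y := by
    intro y
    rw [← MonoidHom.mem_ker, hπHk]
  obtain ⟨Sb, hSb⟩ : ∃ Sb : Sylow p (Y ⧸ Cfsg.pCore p Y),
      (Sb : Subgroup (Y ⧸ Cfsg.pCore p Y)) = (T : Subgroup Y).map πH :=
    ⟨T.mapSurjective hπHs, rfl⟩
  have hcomapT : ((T : Subgroup Y).map πH).comap πH = (T : Subgroup Y) := by
    rw [Subgroup.comap_map_eq, hπHk]
    exact sup_eq_left.mpr hHT
  have hSbco : IsCoatom (Sb : Subgroup (Y ⧸ Cfsg.pCore p Y)) := by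
    refine ⟨?_, ?_⟩
    · intro htop
      apply hT.1
      rw [← hcomapT, ← hSb, htop]
      exact Subgroup.comap_top _
    · intro N hN
      have h1 : (T : Subgroup Y) < N.comap πH := by
        refine lt_of_le_of_ne ?_ ?_
        · rw [← hcomapT, ← hSb]
          exact Subgroup.comap_mono hN.le
        · intro heq
          apply hN.ne
          rw [hSb, heq]
          exact Subgroup.map_comap_eq_self_of_surjective hπHs N
      have h2 := hT.2 _ h1
      rw [← Subgroup.map_comap_eq_self_of_surjective hπHs N, h2]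
      exact Subgroup.map_top_of_surjective _ hπHs
  have habM := abelian_of_coatom_sylow Sb hSbco Mb hMbcop
  obtain ⟨K, hK⟩ : ∃ K : Subgroup Y, K = Mb.comap πH := ⟨_, rfl⟩
  have hKmem : ∀ y : Y, y ∈ K ↔ πH y ∈ Mb := by
    intro y
    rw [hK, Subgroup.mem_comap]
  have hKn : K.Normal := by rw [hK]; exact hMbn.comap πH
  have hKab : ∀ k1 ∈ K, ∀ k2 ∈ K, k1 * k2 * k1⁻¹ * k2⁻¹ ∈ Cfsg.pCore p Y := by
    intro k1 hk1 k2 hk2
    rw [← hπH1, map_mul, map_mul, map_mul, map_inv, map_inv,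
      habM _ ((hKmem k1).mp hk1) _ ((hKmem k2).mp hk2)]
    group
  have hKT : ∀ x ∈ K, x ∈ (T : Subgroup Y) → x ∈ Cfsg.pCore p Y := by
    intro x hxK hxT
    rw [← hπH1]
    have h1 : πH x ∈ Mb := (hKmem x).mp hxK
    obtain ⟨i, hi⟩ := T.2 ⟨x, hxT⟩
    have h2 : x ^ p ^ i = 1 := congrArg Subtype.val hi
    have h3 : (πH x) ^ p ^ i = 1 := by rw [← map_pow, h2, map_one]
    have h4 : orderOf (πH x) ∣ p ^ i := orderOf_dvd_of_pow_eq_one h3
    have h5 : orderOf (πH x) ∣ Nat.card Mb := by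
      have := orderOf_dvd_natCard (⟨πH x, h1⟩ : ↥Mb)
      rwa [Subgroup.orderOf_mk] at this
    have h6 : orderOf (πH x) ∣ Nat.gcd (p ^ i) (Nat.card Mb) := Nat.dvd_gcd h4 h5
    have h7 : Nat.gcd (p ^ i) (Nat.card Mb) = 1 := Nat.Coprime.pow_left i hMbcop.symm
    rw [h7] at h6
    exact orderOf_eq_one_iff.mp (Nat.dvd_one.mp h6)
  have hTK : (T : Subgroup Y) ⊔ K = ⊤ := by
    rcases eq_or_lt_of_le (le_sup_left : (T : Subgroup Y) ≤ (T : Subgroup Y) ⊔ K) with h | h
    · exfalso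
      have hKleT : K ≤ (T : Subgroup Y) := by rw [h]; exact le_sup_right
      have hMbbot : Mb = ⊥ := by
        rw [eq_bot_iff]
        intro x hx
        obtain ⟨y, rfl⟩ := hπHs x
        have hy : y ∈ K := (hKmem y).mpr hx
        rw [Subgroup.mem_bot]
        exact (hπH1 y).mpr (hKT y hy (hKleT hy))
      rw [hMbbot, Subgroup.index_bot] at hMbidx
      have hpg : IsPGroup p (Y ⧸ Cfsg.pCore p Y) := IsPGroup.of_card hMbidx
      have h1 : IsPGroup p ↥(⊤ : Subgroup (Y ⧸ Cfsg.pCore p Y)) := hpg.to_subgroup _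
      exact hSbco.1 (Sb.3 h1 le_top).symm
    · exact hT.2 _ h
  -- the abelian p'-group B
  obtain ⟨B, hB⟩ : ∃ B : Subgroup (MulAut ↥Ut), B = K.map ρ := ⟨_, rfl⟩
  have hBfin : Finite ↥B := by
    rw [hB]
    exact Finite.of_surjective (ρ.subgroupMap K) (MonoidHom.subgroupMap_surjective ρ K)
  have hBab : ∀ a ∈ B, ∀ c ∈ B, a * c = c * a := by
    intro a ha c hc
    rw [hB] at ha hc
    obtain ⟨k1, hk1, rfl⟩ := ha
    obtain ⟨k2, hk2, rfl⟩ := hc
    have h1 := hHker _ (hKab k1 hk1 k2 hk2)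
    have h2 : k1 * k2 = (k1 * k2 * k1⁻¹ * k2⁻¹) * (k2 * k1) := by group
    rw [← map_mul, ← map_mul, h2, map_mul, h1, one_mul]
  have hBpow : ∀ a ∈ B, a ^ (Nat.card Mb) = 1 := by
    intro a ha
    rw [hB] at ha
    obtain ⟨k1, hk1, rfl⟩ := ha
    have h1 : (⟨πH k1, (hKmem k1).mp hk1⟩ : ↥Mb) ^ (Nat.card Mb) = 1 := pow_card_eq_one'
    have h2 : (πH k1) ^ (Nat.card Mb) = 1 := congrArg Subtype.val h1
    have h3 : k1 ^ (Nat.card Mb) ∈ Cfsg.pCore p Y := by
      rw [← hπH1, map_pow]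
      exact h2
    rw [← map_pow]
    exact hHker _ h3
  have hBcop : (Nat.card B).Coprime p := by
    rw [Nat.coprime_comm, Nat.Prime.coprime_iff_not_dvd hpp]
    intro hdvd
    obtain ⟨x, hx⟩ := exists_prime_orderOf_dvd_card' p hdvd
    have h1 : (x : MulAut ↥Ut) ^ (Nat.card Mb) = 1 := hBpow x x.2
    have h2 : orderOf (x : MulAut ↥Ut) ∣ Nat.card Mb := orderOf_dvd_of_pow_eq_one h1
    rw [Subgroup.orderOf_coe, hx] at h2
    have h3 := Nat.Coprime.eq_one_of_dvd hMbcop.symm h2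
    exact hpp.one_lt.ne' h3
  have hγN : ∀ c ∈ B, ρ g * c * (ρ g)⁻¹ ∈ B := by
    intro c hc
    rw [hB] at hc ⊢
    obtain ⟨k1, hk1, rfl⟩ := hc
    exact ⟨g * k1 * g⁻¹, hKn.conj_mem k1 hk1 g, by simp⟩
  -- nilpotence of the action of g
  have hiterU : ∀ i : ℕ, Cfsg.iterCommutator U (Subgroup.zpowers g) i ≤ U := by
    intro i
    induction i with
    | zero => exact le_rfl
    | succ i ih =>
      have h1 : ⁅Cfsg.iterCommutator U (Subgroup.zpowers g) i, Subgroup.zpowers g⁆ ≤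
          ⁅U, Subgroup.zpowers g⁆ := Subgroup.commutator_mono ih le_rfl
      exact h1.trans (Subgroup.commutator_le_left U _)
  have hmemUt : ∀ d ∈ U, πV d ∈ Ut := by
    intro d hd
    rw [hUt]
    exact Subgroup.mem_map_of_mem _ hd
  have hstep : ∀ (i : ℕ) (d : Y) (hd : d ∈ U),
      ∃ d' : Y, ∃ hd' : d' ∈ U, d' ∈ Cfsg.iterCommutator U (Subgroup.zpowers g) i ∧
        (fun a : ↥Ut => ρ g a * a⁻¹)^[i] ⟨πV d, hmemUt d hd⟩ = ⟨πV d', hmemUt d' hd'⟩ := by
    intro i
    induction i with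
    | zero =>
      intro d hd
      exact ⟨d, hd, hd, rfl⟩
    | succ i ih =>
      intro d hd
      obtain ⟨d', hd', hd'i, heq⟩ := ih d hd
      have hmem : g * d' * g⁻¹ * d'⁻¹ ∈
          Cfsg.iterCommutator U (Subgroup.zpowers g) (i + 1) := by
        have h1 : ⁅d', g⁆ ∈ ⁅Cfsg.iterCommutator U (Subgroup.zpowers g) i, Subgroup.zpowers g⁆ :=
          Subgroup.commutator_mem_commutator hd'i (Subgroup.mem_zpowers g)
        have h2 : g * d' * g⁻¹ * d'⁻¹ = (⁅d', g⁆)⁻¹ := by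
          rw [commutatorElement_def]
          group
        rw [h2]
        exact Subgroup.inv_mem _ h1
      refine ⟨g * d' * g⁻¹ * d'⁻¹, hiterU (i + 1) hmem, hmem, ?_⟩
      rw [Function.iterate_succ_apply', heq]
      apply Subtype.ext
      have h3 : ((ρ g ⟨πV d', hmemUt d' hd'⟩ * (⟨πV d', hmemUt d' hd'⟩ : ↥Ut)⁻¹ : ↥Ut) : Y ⧸ V) =
          ((ρ g ⟨πV d', hmemUt d' hd'⟩ : ↥Ut) : Y ⧸ V) * (πV d')⁻¹ := rfl
      rw [h3, hρ]
      simp only [map_mul, map_inv]
  have hnil : ∀ a : ↥Ut, (fun a : ↥Ut => ρ g a * a⁻¹)^[p - 1] a = 1 := by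
    intro a
    have ha : (a : Y ⧸ V) ∈ U.map πV := by rw [← hUt]; exact a.2
    obtain ⟨u, hu, hua⟩ := ha
    obtain ⟨d', hd', hd'i, heq⟩ := hstep (p - 1) u hu
    have h1 : a = ⟨πV u, hmemUt u hu⟩ := Subtype.ext hua.symm
    rw [h1, heq]
    apply Subtype.ext
    exact (hπV1 d').mpr (hiter hd'i)
  have hcent := core_aut hcommQ hexpQ B hBab hBcop (ρ g) hγN hnil
  have hgK : ∀ k1 ∈ K, ρ (g * k1 * g⁻¹ * k1⁻¹) = 1 := by
    intro k1 hk1
    have h1 := hcent (ρ k1) (by rw [hB]; exact Subgroup.mem_map_of_mem _ hk1)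
    rw [map_mul, map_mul, map_mul, map_inv, map_inv, h1]
    group
  by_cases hKZ : ∀ k1 ∈ K, ρ k1 = 1
  · -- Case A: K acts trivially
    have hbcen : (b : Y ⧸ V) ∈ Subgroup.center (Y ⧸ V) := by
      rw [Subgroup.mem_center_iff]
      intro y'
      obtain ⟨y, rfl⟩ := hπVs y'
      have hle : (T : Subgroup Y) ⊔ K ≤
          (Subgroup.centralizer ({(b : Y ⧸ V)} : Set (Y ⧸ V))).comap πV := by
        apply sup_le
        · intro t ht
          rw [Subgroup.mem_comap, Subgroup.mem_centralizer_iff]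
          intro x hx
          rw [Set.mem_singleton_iff] at hx
          rw [hx]
          exact (hbcomm (πV t) (by rw [hTt]; exact Subgroup.mem_map_of_mem _ ht)).symm
        · intro k1 hk1
          rw [Subgroup.mem_comap, Subgroup.mem_centralizer_iff]
          intro x hx
          rw [Set.mem_singleton_iff] at hx
          rw [hx]
          exact ((hρone k1).mp (hKZ k1 hk1) _ hbUt).symm
      rw [hTK] at hle
      have h1 := hle (Subgroup.mem_top y)
      rw [Subgroup.mem_comap, Subgroup.mem_centralizer_iff] at h1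
      exact (h1 _ rfl).symm
    have hFn : (Ut ⊓ Subgroup.center (Y ⧸ V)).Normal := inferInstance
    have hFne : Ut ⊓ Subgroup.center (Y ⧸ V) ≠ ⊥ := by
      intro h0
      have h1 : (b : Y ⧸ V) ∈ Ut ⊓ Subgroup.center (Y ⧸ V) := Subgroup.mem_inf.mpr ⟨hbUt, hbcen⟩
      rw [h0, Subgroup.mem_bot] at h1
      exact hb1 (Subtype.ext h1)
    have hFeq := hminU _ hFn inf_le_left hFne
    rw [Subgroup.commutator_le]
    intro u hu x hx
    rw [← hπV1, commutatorElement_def, map_mul, map_mul, map_mul, map_inv, map_inv]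
    have h1 : πV u ∈ Subgroup.center (Y ⧸ V) := by
      have h2 : πV u ∈ Ut ⊓ Subgroup.center (Y ⧸ V) := by rw [hFeq]; exact hmemUt u hu
      exact (Subgroup.mem_inf.mp h2).2
    have h2 := Subgroup.mem_center_iff.mp h1 (πV x)
    rw [← h2]
    group
  · -- Case B: contradiction
    exfalso
    push Not at hKZ
    obtain ⟨k0, hk0K, hk0⟩ := hKZ
    have hKker : K ⊓ ρ.ker ≤ Cfsg.pCore p Y := by
      have hn : (K ⊓ ρ.ker).Normal := inferInstance
      rcases eq_or_lt_of_le (le_sup_left : (T : Subgroup Y) ≤ (T : Subgroup Y) ⊔ (K ⊓ ρ.ker))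
        with h | h
      · intro x hx
        have hxT : x ∈ (T : Subgroup Y) := by rw [h]; exact Subgroup.mem_sup_right hx
        exact hKT x (Subgroup.mem_inf.mp hx).1 hxT
      · exfalso
        have htop := hT.2 _ h
        have h1 : k0 ∈ (T : Subgroup Y) ⊔ (K ⊓ ρ.ker) := by rw [htop]; trivial
        obtain ⟨t, ht, z', hz', htz⟩ := Subgroup.mem_sup_of_normal_right.mp h1
        have hz'K : z' ∈ K := (Subgroup.mem_inf.mp hz').1
        have hz'ker : ρ z' = 1 := (Subgroup.mem_inf.mp hz').2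
        have htK : t ∈ K := by
          have h2 : t = k0 * z'⁻¹ := by rw [← htz]; group
          rw [h2]
          exact K.mul_mem hk0K (K.inv_mem hz'K)
        have htH : t ∈ Cfsg.pCore p Y := hKT t htK ht
        apply hk0
        rw [← htz, map_mul, hHker t htH, hz'ker, one_mul]
    have hgKH : ∀ k1 ∈ K, g * k1 * g⁻¹ * k1⁻¹ ∈ Cfsg.pCore p Y := by
      intro k1 hk1
      apply hKker
      refine Subgroup.mem_inf.mpr ⟨?_, hgK k1 hk1⟩
      exact K.mul_mem (hKn.conj_mem k1 hk1 g) (K.inv_mem hk1)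
    -- the normal p-subgroup T ∩ C(K/O_p)
    have hKbn : (K.map πH).Normal := hKn.map πH hπHs
    obtain ⟨CK, hCK⟩ : ∃ CK : Subgroup Y,
        CK = (Subgroup.centralizer ((K.map πH : Subgroup (Y ⧸ Cfsg.pCore p Y)) :
          Set (Y ⧸ Cfsg.pCore p Y))).comap πH := ⟨_, rfl⟩
    have hCKn : CK.Normal := by
      rw [hCK]
      have : (Subgroup.centralizer ((K.map πH : Subgroup (Y ⧸ Cfsg.pCore p Y)) :
          Set (Y ⧸ Cfsg.pCore p Y))).Normal := inferInstance
      exact this.comap πH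
    have hCKmem : ∀ y : Y, y ∈ CK ↔ ∀ k1 ∈ K, πH k1 * πH y = πH y * πH k1 := by
      intro y
      rw [hCK, Subgroup.mem_comap, Subgroup.mem_centralizer_iff]
      constructor
      · intro h k1 hk1
        exact h _ (Subgroup.mem_map_of_mem _ hk1)
      · rintro h _ ⟨k1, hk1, rfl⟩
        exact h k1 hk1
    have hgCK : g ∈ CK := by
      rw [hCKmem]
      intro k1 hk1
      have h1 := (hπH1 _).mpr (hgKH k1 hk1)
      rw [map_mul, map_mul, map_mul, map_inv, map_inv] at h1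
      calc πH k1 * πH g = (πH g * πH k1 * (πH g)⁻¹ * (πH k1)⁻¹)⁻¹ * (πH g * πH k1) := by group
        _ = πH g * πH k1 := by rw [h1, inv_one, one_mul]
    have hCKtop : Subgroup.normalizer (CK : Set Y) = ⊤ := Subgroup.normalizer_eq_top_iff.mpr hCKn
    have hTN : (T : Subgroup Y) ≤ Subgroup.normalizer (((T : Subgroup Y) ⊓ CK : Subgroup Y) : Set Y) := by
      intro t ht
      exact mem_normalizer_inf (Subgroup.le_normalizer ht) (by rw [hCKtop]; trivial)
    have hKconj : ∀ k1 ∈ K, ∀ x ∈ (T : Subgroup Y) ⊓ CK, k1 * x * k1⁻¹ ∈ (T : Subgroup Y) ⊓ CK := by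
      intro k1 hk1 x hx
      obtain ⟨hxT, hxC⟩ := Subgroup.mem_inf.mp hx
      refine Subgroup.mem_inf.mpr ⟨?_, hCKn.conj_mem x hxC k1⟩
      have h1 : k1 * x * k1⁻¹ * x⁻¹ ∈ Cfsg.pCore p Y := by
        rw [← hπH1, map_mul, map_mul, map_mul, map_inv, map_inv, (hCKmem x).mp hxC k1 hk1]
        group
      have h2 : k1 * x * k1⁻¹ = (k1 * x * k1⁻¹ * x⁻¹) * x := by group
      rw [h2]
      exact (T : Subgroup Y).mul_mem (hHT h1) hxT
    have hKN : K ≤ Subgroup.normalizer (((T : Subgroup Y) ⊓ CK : Subgroup Y) : Set Y) := by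
      intro k1 hk1
      rw [Subgroup.mem_normalizer_iff]
      intro x
      constructor
      · exact hKconj k1 hk1 x
      · intro hx
        have h1 := hKconj k1⁻¹ (K.inv_mem hk1) _ hx
        have h2 : k1⁻¹ * (k1 * x * k1⁻¹) * k1⁻¹⁻¹ = x := by group
        rw [h2] at h1
        exact h1
    have hP0n : ((T : Subgroup Y) ⊓ CK).Normal := by
      rw [← Subgroup.normalizer_eq_top_iff, eq_top_iff, ← hTK]
      exact sup_le hTN hKN
    have hP0p : IsPGroup p ↥((T : Subgroup Y) ⊓ CK) := T.2.to_le inf_le_left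
    exact hgH (le_pCore p hP0n hP0p (Subgroup.mem_inf.mpr ⟨hgT, hgCK⟩))

/-- Let p be a prime, G a finite group with Sylow p-subgroup S, and W an isomorphism-invariant p-group functor (W assigns to every group Q a subgroup W(Q), nontrivial whenever Q is a nontrivial finite p-group, and every isomorphism from a finite p-group Q onto a group R carries W(Q) onto W(R)). Suppose N_G(W(S)) has a normal p-complement, and that whenever G* = K/R is a section of G with C_{G*}(O_p(G*)) ≤ O_p(G*) and S* is a Sylow p-subgroup of G* with W(S*) not normal in G*, there are an element g of S* outside O_p(G*) and a chief factor X/Y of G* with X ≤ O_p(G*) such that [X, g, …, g] ≤ Y with p − 1 entries g but [X, g] ≰ Y. Then G has a normal p-complement. -/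
theorem result {G : Type u} [Group G] [Finite G] {p : ℕ} [Fact p.Prime] (W : ∀ (Q : Type u) [Group Q], Subgroup Q) (hW : Cfsg.IsCharPFunctor.{u} p W) (S : Sylow p G) (hN : Cfsg.HasNormalPComplement p ↥(Subgroup.normalizer ((Cfsg.inducedFunctor (G := G) W (S : Subgroup G) : Subgroup G) : Set G))) (hloc : ∀ (K R : Subgroup G) [hR : (R.subgroupOf K).Normal], Subgroup.centralizer ((Cfsg.pCore p (↥K ⧸ R.subgroupOf K) : Subgroup (↥K ⧸ R.subgroupOf K)) : Set (↥K ⧸ R.subgroupOf K)) ≤ Cfsg.pCore p (↥K ⧸ R.subgroupOf K) → ∀ T : Sylow p (↥K ⧸ R.subgroupOf K), ¬ (Cfsg.inducedFunctor (G := (↥K ⧸ R.subgroupOf K)) W ((T : Subgroup (↥K ⧸ R.subgroupOf K)))).Normal → ∃ g : (↥K ⧸ R.subgroupOf K), g ∈ (T : Subgroup (↥K ⧸ R.subgroupOf K)) ∧ g ∉ Cfsg.pCore p (↥K ⧸ R.subgroupOf K) ∧ ∃ U V : Subgroup (↥K ⧸ R.subgroupOf K), Cfsg.IsChiefFactor U V ∧ U ≤ Cfsg.pCore p (↥K ⧸ R.subgroupOf K) ∧ Cfsg.iterCommutator U (Subgroup.zpowers g) (p - 1) ≤ V ∧ ¬ ⁅U, Subgroup.zpowers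 g⁆ ≤ V) : Cfsg.HasNormalPComplement p G := by
  have hGoodlit : ∀ (K R : Subgroup G) [hR : (R.subgroupOf K).Normal],
      Cfsg.Agent.S2005.Good p W (↥K ⧸ R.subgroupOf K) := by
    intro K R hR hC hPC T hT
    by_contra hn
    obtain ⟨g, hgT, hgH, U, V, hUV, hUH, hiter, hnc⟩ := hloc K R hC T hn
    exact hnc (HH hPC T hT g hgT hgH U V hUV hUH hiter)
  have hGood : ∀ (X : Type u) [Group X] [Finite X], IsSection G X →
      Cfsg.Agent.S2005.Good p W X := by
    intro X _ _ hX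
    obtain ⟨K, R, hR, ⟨e⟩⟩ := hX
    exact Cfsg.Agent.S2005.good_of_equiv hW e.symm (hGoodlit K R)
  have h := Cfsg.Agent.S2005.main W hW (fun X _ => IsSection G X) (fun X _ h L => h.subgroup L)
    (fun X _ h M _ => h.quotient M) hGood (Nat.card G) G (isSection_self G) le_rfl S
    (pnilp_iff.mpr hN)
  exact pnilp_iff.mp h

end Cfsg.Agent.S2006
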