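import Cfsg.Statements.S2007
import Cfsg.Agent.Lib.Helper14.PComplement
import Cfsg.Agent.Lib.Helper14.SylowRel

set_option autoImplicit false
open Cfsg

namespace Cfsg.Agent.S2007

/-- Let p be a prime, G a finite group with Sylow p-subgroup S, and T a normal subgroup of S containing C_S(T). If N_G(T)/C_G(T) is a p-group (every element of N_G(T) of order prime to p centralizes T), then N_G(T) has a normal p-complement. -/
theorem result {G : Type*} [Group G] [Finite G] {p : ℕ} [Fact p.Prime] (S : Sylow p G) (T : Subgroup G) (hTS : T ≤ (S : Subgroup G)) (hTn : (S : Subgroup G) ≤ Subgroup.normalizer ((T : Subgroup G) : Set G)) (hC : (S : Subgroup G) ⊓ Subgroup.centralizer ((T : Subgroup G) : Set G) ≤ T) (hN : ∀ g ∈ Subgroup.normalizer ((T : Subgroup G) : Set G), (orderOf g).Coprime p → g ∈ Subgroup.centralizer ((T : Subgroup G) : Set G)) : Cfsg.HasNormalPComplement p ↥(Subgroup.normalizer ((T : Subgroup G) : Set G)) := by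
  classical
  set N := Subgroup.normalizer ((T : Subgroup G) : Set G) with hNdef
  set C := Subgroup.centralizer ((T : Subgroup G) : Set G) with hCdef
  have hCN : C ≤ N := Subgroup.centralizer_le_normalizer _
  have hNC : ∀ n ∈ N, ∀ c ∈ C, n * c * n⁻¹ ∈ C := by
    intro n hn c hc
    exact (Subgroup.normal_subgroupOf_iff hCN).mp
      (Subgroup.normal_subgroupOf_centralizer_normalizer (T : Set G)) c n hc hn
  obtain ⟨P⟩ : Nonempty (Sylow p ↥C) := inferInstance
  have hPcen : (P : Subgroup ↥C) ≤ Subgroup.center ↥C := by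
    have hP0 : IsPGroup p ↥((P : Subgroup ↥C).map C.subtype) := P.isPGroup'.map _
    have hP0N : (P : Subgroup ↥C).map C.subtype ≤ N := (Subgroup.map_subtype_le _).trans hCN
    obtain ⟨n, hn, hnP⟩ := Cfsg.Agent.Lib.Helper14.Sylow.exists_conj_mem_of_le S hTn hP0 hP0N
    intro x hx
    rw [Subgroup.mem_center_iff]
    intro y
    have hxP0 : (x : G) ∈ (P : Subgroup ↥C).map C.subtype := ⟨x, hx, rfl⟩
    have h1 : n * (x:G) * n⁻¹ ∈ (S : Subgroup G) := hnP _ hxP0
    have h2 : n * (x:G) * n⁻¹ ∈ C := hNC n hn _ x.2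
    have h3 : n * (x:G) * n⁻¹ ∈ T := hC ⟨h1, h2⟩
    have h4 : (x : G) ∈ T := by
      have hn' : n⁻¹ ∈ N := inv_mem hn
      have := (Subgroup.mem_normalizer_iff.mp hn' (n * (x:G) * n⁻¹)).mp h3
      simpa [mul_assoc] using this
    have h5 := Subgroup.mem_centralizer_iff.mp y.2 (x : G) h4
    apply Subtype.ext
    simpa using h5.symm
  obtain ⟨M, hMn, hMp, hM⟩ := Cfsg.Agent.Lib.Helper14.exists_normal_compl_of_central_sylow P hPcen
  apply Cfsg.Agent.Lib.Helper14.hasNormalPComplement_of_pResidual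
  have hle : (pResidual p ↥N).map N.subtype ≤ M.map C.subtype := by
    unfold pResidual
    rw [MonoidHom.map_closure, Subgroup.closure_le]
    rintro _ ⟨g, hg, rfl⟩
    have hg' : (orderOf (g : G)).Coprime p := by
      rw [Subgroup.orderOf_coe]; exact hg
    have hgC : (g : G) ∈ C := hN _ g.2 hg'
    refine ⟨⟨(g : G), hgC⟩, hM _ ?_, rfl⟩
    rw [← Subgroup.orderOf_coe]; exact hg'
  intro hdvd
  apply hMp
  have h1 : Nat.card ((pResidual p ↥N).map N.subtype) = Nat.card (pResidual p ↥N) :=
    Subgroup.card_map_of_injective N.subtype_injective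
  have h2 : Nat.card (M.map C.subtype) = Nat.card M :=
    Subgroup.card_map_of_injective C.subtype_injective
  have h3 := Subgroup.card_dvd_of_le hle
  rw [h1, h2] at h3
  exact dvd_trans hdvd h3

end Cfsg.Agent.S2007
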