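import Cfsg.Statements.S2009

set_option autoImplicit false
open Cfsg

namespace Cfsg.Agent.S2009

theorem inverts_of_fixed_point_free {H : Type*} [Group H] [Finite H] (N : Subgroup H) [hNn : N.Normal]
    (e : H) (he2 : e * e = 1) (hfix : ∀ n ∈ N, e * n = n * e → n = 1) :
    ∀ n ∈ N, e * n * e⁻¹ = n⁻¹ := by
  have he' : e⁻¹ = e := by rw [inv_eq_iff_mul_eq_one]; exact he2
  let f : N → N := fun n => ⟨(n : H)⁻¹ * (e * n * e⁻¹), mul_mem (inv_mem n.2) (hNn.conj_mem _ n.2 e)⟩
  have hinj : Function.Injective f := by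
    intro n m hnm
    have h1 : (n : H)⁻¹ * (e * n * e⁻¹) = (m : H)⁻¹ * (e * m * e⁻¹) := congrArg Subtype.val hnm
    have h2 : e * ((m : H) * (n : H)⁻¹) = ((m : H) * (n : H)⁻¹) * e := by
      have h3 : (m : H) * (n : H)⁻¹ = e * m * e⁻¹ * (e * n * e⁻¹)⁻¹ := by
        have h4 : (m : H) * ((n : H)⁻¹ * (e * n * e⁻¹)) = e * m * e⁻¹ := by
          rw [h1]; group
        calc (m : H) * (n : H)⁻¹ = (m : H) * ((n : H)⁻¹ * (e * n * e⁻¹)) * (e * n * e⁻¹)⁻¹ := by group
          _ = e * m * e⁻¹ * (e * n * e⁻¹)⁻¹ := by rw [h4]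
      have h5 : e * m * e⁻¹ * (e * n * e⁻¹)⁻¹ = e * ((m : H) * (n : H)⁻¹) * e⁻¹ := by group
      rw [h5] at h3
      calc e * ((m : H) * (n : H)⁻¹) = e * ((m : H) * (n : H)⁻¹) * e⁻¹ * e := by group
        _ = ((m : H) * (n : H)⁻¹) * e := by rw [← h3]
    have h6 := hfix _ (mul_mem m.2 (inv_mem n.2)) h2
    apply Subtype.ext
    have : (m : H) = n := by
      calc (m : H) = (m : H) * (n : H)⁻¹ * n := by group
        _ = n := by rw [h6, one_mul]
    exact this.symm
  have hsurj : Function.Surjective f := Finite.surjective_of_injective hinj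
  intro n hn
  obtain ⟨m, hm⟩ := hsurj ⟨n, hn⟩
  have hm' : (m : H)⁻¹ * (e * m * e⁻¹) = n := congrArg Subtype.val hm
  rw [← hm']
  have h7 : e * ((m : H)⁻¹ * (e * m * e⁻¹)) * e⁻¹ =
      (e * (m : H)⁻¹ * e⁻¹) * ((e * e) * m * (e * e)⁻¹) := by group
  rw [h7, he2]
  group

theorem normal_eq_bot {H : Type*} [Group H] [Finite H] (z : H) (hz : orderOf z = 2)
    (hN : ∀ N : Subgroup H, N.Normal → N ≠ ⊤ → N ⊓ Subgroup.centralizer ({z} : Set H) = ⊥)
    (E : Subgroup H) (hE : IsKleinFour ↥E) (hzE : z ∈ E) (hc : ∀ e ∈ E, e ≠ 1 → IsConj z e)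
    (N : Subgroup H) [hNn : N.Normal] (hNtop : N ≠ ⊤) : N = ⊥ := by
  have hz1 : z ≠ 1 := by
    intro h; rw [h, orderOf_one] at hz; omega
  have hz2 : z * z = 1 := by
    have := pow_orderOf_eq_one z
    rw [hz, pow_two] at this; exact this
  -- every nonidentity element of `E` is an involution acting without fixed points on `N`
  have hinv : ∀ e ∈ E, e ≠ 1 → e * e = 1 ∧ ∀ n ∈ N, e * n = n * e → n = 1 := by
    intro e heE he1
    obtain ⟨c, hce⟩ := isConj_iff.mp (hc e heE he1)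
    refine ⟨?_, ?_⟩
    · rw [← hce]
      calc c * z * c⁻¹ * (c * z * c⁻¹) = c * (z * z) * c⁻¹ := by group
        _ = 1 := by rw [hz2]; group
    · intro n hn hcomm
      have h1 : c⁻¹ * n * c ∈ N := by
        have := hNn.conj_mem n hn c⁻¹
        simpa using this
      have h2 : c⁻¹ * n * c ∈ Subgroup.centralizer ({z} : Set H) := by
        rw [Subgroup.mem_centralizer_iff]
        intro y hy
        rw [Set.mem_singleton_iff] at hy
        subst hy
        rw [← hce] at hcomm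
        calc y * (c⁻¹ * n * c) = c⁻¹ * (c * y * c⁻¹ * n) * c := by group
          _ = c⁻¹ * (n * (c * y * c⁻¹)) * c := by rw [hcomm]
          _ = c⁻¹ * n * c * y := by group
      have h3 : c⁻¹ * n * c ∈ N ⊓ Subgroup.centralizer ({z} : Set H) := ⟨h1, h2⟩
      rw [hN N hNn hNtop, Subgroup.mem_bot] at h3
      calc n = c * (c⁻¹ * n * c) * c⁻¹ := by group
        _ = 1 := by rw [h3]; group
  -- a second nonidentity element of `E`
  have hcard : Nat.card ↥E = 4 := hE.card_four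
  have h3le : 3 ≤ ENat.card ↥E := by
    have hfin : Finite ↥E := inferInstance
    rw [ENat.card_eq_coe_natCard, hcard]
    norm_num
  obtain ⟨b, hb1, hbz⟩ := ENat.exists_ne_ne_of_three_le h3le (1 : ↥E) ⟨z, hzE⟩
  have hb1' : (b : H) ≠ 1 := fun h => hb1 (Subtype.ext h)
  have hbz' : (b : H) ≠ z := fun h => hbz (Subtype.ext h)
  have hzb1 : z * (b : H) ≠ 1 := by
    intro h
    apply hbz'
    calc (b : H) = (z * z) * b := by rw [hz2, one_mul]
      _ = z * (z * b) := by group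
      _ = z := by rw [h, mul_one]
  obtain ⟨-, hzfix⟩ := hinv z hzE hz1
  obtain ⟨hb2, hbfix⟩ := hinv b b.2 hb1'
  obtain ⟨hzb2, hzbfix⟩ := hinv (z * b) (mul_mem hzE b.2) hzb1
  have i1 := inverts_of_fixed_point_free N z hz2 hzfix
  have i2 := inverts_of_fixed_point_free N (b : H) hb2 hbfix
  have i3 := inverts_of_fixed_point_free N (z * b) hzb2 hzbfix
  rw [eq_bot_iff]
  intro n hn
  rw [Subgroup.mem_bot]
  have e1 : n⁻¹ = n := by
    have h1 := i3 n hn
    have h2 := i2 n hn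
    have h3 := i1 n⁻¹ (inv_mem hn)
    calc n⁻¹ = z * (b : H) * n * (z * (b : H))⁻¹ := h1.symm
      _ = z * ((b : H) * n * (b : H)⁻¹) * z⁻¹ := by group
      _ = z * n⁻¹ * z⁻¹ := by rw [h2]
      _ = n⁻¹⁻¹ := h3
      _ = n := inv_inv n
  apply hzfix n hn
  have h4 := i1 n hn
  rw [e1] at h4
  calc z * n = z * n * z⁻¹ * z := by group
    _ = n * z := by rw [h4]

/-- Let H be a finite group and z an involution such that every proper normal subgroup of H meets the centralizer of z trivially, and suppose z lies in a Klein four-subgroup E of H all three of whose involutions are conjugate to z in H. Then H is simple. -/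
theorem result {H : Type*} [Group H] [Finite H] (z : H) (hz : orderOf z = 2) (hN : ∀ N : Subgroup H, N.Normal → N ≠ ⊤ → N ⊓ Subgroup.centralizer ({z} : Set H) = ⊥) (E : Subgroup H) (hE : IsKleinFour ↥E) (hzE : z ∈ E) (hc : ∀ e ∈ E, e ≠ 1 → IsConj z e) : IsSimpleGroup H := by
  have hz1 : z ≠ 1 := by
    intro h; rw [h, orderOf_one] at hz; omega
  have : Nontrivial H := ⟨⟨z, 1, hz1⟩⟩
  refine ⟨fun N hNn => ?_⟩
  by_cases hNtop : N = ⊤
  · exact Or.inr hNtop
  · exact Or.inl (normal_eq_bot z hz hN E hE hzE hc N hNtop)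

end Cfsg.Agent.S2009
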