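import Cfsg.Statements.S2008
import Cfsg.Agent.S2009

set_option autoImplicit false
open Cfsg

namespace Cfsg.Agent.S2008

/-- Let H be a finite group and z an involution such that every proper normal subgroup of H meets the centralizer of z trivially, and suppose z lies in a Klein four-subgroup E of H all three of whose involutions are conjugate to z in H. Then H has no non-trivial abelian normal subgroup. -/
theorem result {H : Type*} [Group H] [Finite H] (z : H) (hz : orderOf z = 2) (hN : ∀ N : Subgroup H, N.Normal → N ≠ ⊤ → N ⊓ Subgroup.centralizer ({z} : Set H) = ⊥) (E : Subgroup H) (hE : IsKleinFour ↥E) (hzE : z ∈ E) (hc : ∀ e ∈ E, e ≠ 1 → IsConj z e) (N : Subgroup H) [N.Normal] (hab : IsMulCommutative ↥N) : N = ⊥ := by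
  by_cases hNtop : N = ⊤
  · exfalso
    have hcomm : ∀ x y : H, x * y = y * x := by
      intro x y
      have hx : x ∈ N := by rw [hNtop]; trivial
      have hy : y ∈ N := by rw [hNtop]; trivial
      exact isMulCommutative_iff_of_setLike.mp hab x hx y hy
    have hcard : Nat.card ↥E = 4 := hE.card_four
    have h3le : 3 ≤ ENat.card ↥E := by
      have hfin : Finite ↥E := inferInstance
      rw [ENat.card_eq_coe_natCard, hcard]
      norm_num
    obtain ⟨b, hb1, hbz⟩ := ENat.exists_ne_ne_of_three_le h3le (1 : ↥E) ⟨z, hzE⟩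
    have hb1' : (b : H) ≠ 1 := fun h => hb1 (Subtype.ext h)
    have hbz' : (b : H) ≠ z := fun h => hbz (Subtype.ext h)
    obtain ⟨c, hcb⟩ := isConj_iff.mp (hc b b.2 hb1')
    apply hbz'
    rw [← hcb, hcomm c z]
    group
  · exact Cfsg.Agent.S2009.normal_eq_bot z hz hN E hE hzE hc N hNtop

end Cfsg.Agent.S2008
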