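import Cfsg.Statements.S2034
import Cfsg.Agent.S1603
import Cfsg.Agent.Lib.Helper4.ConjEquiv
import Cfsg.Agent.Lib.Helper28.M11Std
import Cfsg.Agent.Lib.Helper20.M11Syl3

set_option autoImplicit false
open Cfsg

namespace Cfsg.Agent.S2034

open scoped Pointwise

/-! ## Subgroups given by tables -/

/-- Subgroup given by a multiplication table. -/
def tblSubgroup {Γ : Type*} [Group Γ] {n : ℕ} (t : Fin n → Γ) (m : Fin n → Fin n → Fin n)
    (iv : Fin n → Fin n) (e : Fin n) (hmul : ∀ i j, t i * t j = t (m i j)) (hone : t e = 1)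
    (hinv : ∀ i, m i (iv i) = e) : Subgroup Γ where
  carrier := Set.range t
  mul_mem' := by
    rintro _ _ ⟨i, rfl⟩ ⟨j, rfl⟩
    exact ⟨m i j, (hmul i j).symm⟩
  one_mem' := ⟨e, hone⟩
  inv_mem' := by
    rintro _ ⟨i, rfl⟩
    refine ⟨iv i, ?_⟩
    have h := hmul i (iv i)
    rw [hinv, hone] at h
    exact eq_inv_of_mul_eq_one_right h

theorem card_tblSubgroup {Γ : Type*} [Group Γ] {n : ℕ} (t : Fin n → Γ)
    (m : Fin n → Fin n → Fin n) (iv : Fin n → Fin n) (e : Fin n)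
    (hmul : ∀ i j, t i * t j = t (m i j)) (hone : t e = 1) (hinv : ∀ i, m i (iv i) = e)
    (hinj : Function.Injective t) :
    Nat.card (tblSubgroup t m iv e hmul hone hinv) = n := by
  have h : Nat.card (Set.range t) = n := by
    rw [Nat.card_congr (Equiv.ofInjective t hinj).symm, Nat.card_fin]
  exact h

theorem mem_conj_iff' {G : Type*} [Group G] (g x : G) (L : Subgroup G) :
    x ∈ MulAut.conj g • L ↔ g⁻¹ * x * g ∈ L := by
  rw [Subgroup.mem_pointwise_smul_iff_inv_smul_mem, ← map_inv, MulAut.smul_def,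
    MulAut.conj_apply, inv_inv]

/-! ## Transfer -/

theorem transfer_key {Γ : Type*} [Group Γ] (H : Subgroup Γ) (z : Γ)
    (hzc : z ∈ Subgroup.center Γ) (k : ℕ) (g₀ : Γ) (_h : g₀⁻¹ * z ^ k * g₀ ∈ H) :
    g₀⁻¹ * z ^ k * g₀ = z ^ k := by
  have hc : z ^ k ∈ Subgroup.center Γ := Subgroup.pow_mem _ hzc k
  have h := Subgroup.mem_center_iff.mp hc g₀
  rw [mul_assoc, ← h, inv_mul_cancel_left]

/-- A central element of a Sylow subgroup lying in the commutator subgroup of the group lies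
in the commutator subgroup of the Sylow subgroup. -/
theorem focal {Γ : Type*} [Group Γ] [Finite Γ] (p : ℕ) [Fact p.Prime] (S : Sylow p Γ)
    (z : Γ) (hzS : z ∈ (S : Subgroup Γ)) (hzc : z ∈ Subgroup.center Γ)
    (hzd : z ∈ commutator Γ) :
    (⟨z, hzS⟩ : ↥(S : Subgroup Γ)) ∈ commutator ↥(S : Subgroup Γ) := by
  classical
  have h1 := MonoidHom.transfer_eq_pow
    (Abelianization.of : ↥(S : Subgroup Γ) →* Abelianization ↥(S : Subgroup Γ)) z
    (transfer_key (S : Subgroup Γ) z hzc)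
  have h2 : MonoidHom.transfer
      (Abelianization.of : ↥(S : Subgroup Γ) →* Abelianization ↥(S : Subgroup Γ)) z = 1 :=
    (Abelianization.commutator_subset_ker _) hzd
  have h3 : (Abelianization.of (⟨z, hzS⟩ : ↥(S : Subgroup Γ))) ^ (S : Subgroup Γ).index = 1 := by
    rw [← map_pow, ← h2, h1]
    rfl
  obtain ⟨k, hk⟩ := S.isPGroup' ⟨z, hzS⟩
  have h5 : (Abelianization.of (⟨z, hzS⟩ : ↥(S : Subgroup Γ))) ^ (p ^ k) = 1 := by
    rw [← map_pow, hk, map_one]
  have hcop : Nat.Coprime (p ^ k) (S : Subgroup Γ).index :=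
    Nat.Coprime.pow_left _ ((Nat.Prime.coprime_iff_not_dvd Fact.out).mpr S.not_dvd_index)
  have h6 : orderOf (Abelianization.of (⟨z, hzS⟩ : ↥(S : Subgroup Γ))) = 1 :=
    Nat.eq_one_of_dvd_coprimes hcop (orderOf_dvd_of_pow_eq_one h5) (orderOf_dvd_of_pow_eq_one h3)
  rw [← Abelianization.ker_of]
  exact MonoidHom.mem_ker.mpr (orderOf_eq_one_iff.mp h6)

/-- A central element of a commutative Sylow subgroup lying in the commutator subgroup is
trivial. -/
theorem transfer_trivial {Γ : Type*} [Group Γ] [Finite Γ] (p : ℕ) [Fact p.Prime] (S : Sylow p Γ)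
    (hS : ∀ a b : Γ, a ∈ (S : Subgroup Γ) → b ∈ (S : Subgroup Γ) → a * b = b * a)
    (z : Γ) (hzS : z ∈ (S : Subgroup Γ)) (hzc : z ∈ Subgroup.center Γ)
    (hzd : z ∈ commutator Γ) : z = 1 := by
  have h := focal p S z hzS hzc hzd
  have hbot : commutator ↥(S : Subgroup Γ) = ⊥ := by
    rw [commutator_eq_closure, Subgroup.closure_eq_bot_iff]
    rintro _ ⟨x, y, rfl⟩
    rw [Set.mem_singleton_iff, commutatorElement_def]
    have hxy : x * y = y * x := Subtype.ext (hS x y x.2 y.2)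
    rw [hxy]
    group
  rw [hbot, Subgroup.mem_bot] at h
  exact congrArg Subtype.val h

/-! ## Sylow subgroups of a central extension -/

theorem exists_sylow_map_le {Γ G : Type*} [Group Γ] [Group G] [Finite Γ] [Finite G]
    (σ : Γ →* G) (hsurj : Function.Surjective σ) (p : ℕ) [Fact p.Prime] (P : Subgroup G)
    (hP : IsPGroup p P) (hidx : ¬ p ∣ P.index) (z : Γ) (hzc : z ∈ Subgroup.center Γ)
    (hzo : orderOf z = p) :
    ∃ S : Sylow p Γ, z ∈ (S : Subgroup Γ) ∧ ∀ s ∈ (S : Subgroup Γ), σ s ∈ P := by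
  classical
  have hZ : IsPGroup p (Subgroup.zpowers z) :=
    IsPGroup.of_card (n := 1) (by rw [Nat.card_zpowers, hzo, pow_one])
  obtain ⟨S₀, hS₀⟩ := hZ.exists_le_sylow
  have hzS₀ : z ∈ (S₀ : Subgroup Γ) := hS₀ (Subgroup.mem_zpowers z)
  have hT : IsPGroup p ((S₀ : Subgroup Γ).map σ) := S₀.isPGroup'.map σ
  obtain ⟨Q, hQ⟩ := hT.exists_le_sylow
  obtain ⟨g, hg⟩ := MulAction.exists_smul_eq G (hP.toSylow hidx) Q
  obtain ⟨y, hy⟩ := hsurj g
  refine ⟨y⁻¹ • S₀, ?_, ?_⟩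
  · rw [Sylow.coe_subgroup_smul, mem_conj_iff', inv_inv]
    have h := Subgroup.mem_center_iff.mp hzc y
    rw [h, mul_inv_cancel_right]
    exact hzS₀
  · intro s hs
    rw [Sylow.coe_subgroup_smul, mem_conj_iff', inv_inv] at hs
    have h1 : σ (y * s * y⁻¹) ∈ (Q : Subgroup G) := hQ (Subgroup.mem_map_of_mem σ hs)
    rw [← hg, Sylow.coe_subgroup_smul, mem_conj_iff'] at h1
    have h2 : g⁻¹ * σ (y * s * y⁻¹) * g = σ s := by
      rw [map_mul, map_mul, map_inv, hy]
      group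
    rw [h2] at h1
    exact (IsPGroup.mem_toSylow hP hidx).1 h1

theorem sylow_comm_of_sq {Γ G : Type*} [Group Γ] [Group G] [Finite G] (σ : Γ →* G)
    (hker : σ.ker ≤ Subgroup.center Γ) (p : ℕ) [Fact p.Prime] (hp2 : ¬ p ^ 2 ∣ Nat.card G)
    (S : Sylow p Γ) (a b : Γ) (ha : a ∈ (S : Subgroup Γ)) (hb : b ∈ (S : Subgroup Γ)) :
    a * b = b * a := by
  classical
  let f : ↥(S : Subgroup Γ) →* ↥((S : Subgroup Γ).map σ) := σ.subgroupMap (S : Subgroup Γ)
  have hf : f.ker ≤ Subgroup.center ↥(S : Subgroup Γ) := by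
    intro s hs
    rw [Subgroup.mem_center_iff]
    intro g
    have h1 : σ (s : Γ) = 1 := congrArg Subtype.val (MonoidHom.mem_ker.mp hs)
    have h2 : (s : Γ) ∈ Subgroup.center Γ := hker (MonoidHom.mem_ker.mpr h1)
    exact Subtype.ext (Subgroup.mem_center_iff.mp h2 g)
  have hT : IsPGroup p ↥((S : Subgroup Γ).map σ) := S.isPGroup'.map σ
  obtain ⟨k, hk⟩ := IsPGroup.iff_card.mp hT
  have hdvd : Nat.card ↥((S : Subgroup Γ).map σ) ∣ Nat.card G :=
    Subgroup.card_subgroup_dvd_card _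
  have hk1 : k ≤ 1 := by
    by_contra hk2
    exact hp2 ((pow_dvd_pow p (by omega)).trans (hk ▸ hdvd))
  have hcyc : IsCyclic ↥((S : Subgroup Γ).map σ) := by
    interval_cases k
    · rw [pow_zero] at hk
      have hsub : Subsingleton ↥((S : Subgroup Γ).map σ) :=
        (Nat.card_eq_one_iff_unique.mp hk).1
      exact isCyclic_of_subsingleton
    · rw [pow_one] at hk
      exact isCyclic_of_prime_card hk
  have h := (f.isMulCommutative_of_isCyclic_of_ker_le_center hf).is_comm.comm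
    (⟨a, ha⟩ : ↥(S : Subgroup Γ)) ⟨b, hb⟩
  exact congrArg Subtype.val h

/-! ## Commutators -/

/-- The commutator of two elements. -/
def cm {Γ : Type*} [Group Γ] (u v : Γ) : Γ := u * v * u⁻¹ * v⁻¹

theorem cm_self {Γ : Type*} [Group Γ] (u : Γ) : cm u u = 1 := by unfold cm; group

theorem cm_anti {Γ : Type*} [Group Γ] (u v : Γ) : cm v u = (cm u v)⁻¹ := by unfold cm; group

theorem cm_conj {Γ : Type*} [Group Γ] (x u v : Γ) :
    cm (x * u * x⁻¹) (x * v * x⁻¹) = x * cm u v * x⁻¹ := by unfold cm; group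

theorem cm_comm {Γ : Type*} [Group Γ] (u v : Γ) (h : cm u v = 1) : u * v = v * u := by
  have h1 : u * v = cm u v * (v * u) := by unfold cm; group
  rw [h1, h, one_mul]

theorem cm_mul_left {Γ : Type*} [Group Γ] (a b l : Γ) (h : cm b l ∈ Subgroup.center Γ) :
    cm (a * b) l = cm a l * cm b l := by
  have hc := Subgroup.mem_center_iff.mp h
  have h1 : cm (a * b) l = a * cm b l * (l * a⁻¹ * l⁻¹) := by unfold cm; group
  have h2 : cm a l * cm b l = cm b l * a * (l * a⁻¹ * l⁻¹) := by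
    rw [hc (cm a l)]; unfold cm; group
  rw [h1, h2, hc a]

theorem cm_central_left {Γ : Type*} [Group Γ] (u k v : Γ) (hk : k ∈ Subgroup.center Γ) :
    cm (u * k) v = cm u v := by
  have hc := Subgroup.mem_center_iff.mp hk
  unfold cm
  rw [mul_inv_rev, mul_assoc u k v, ← hc v]
  group

theorem cm_central_right {Γ : Type*} [Group Γ] (u v k : Γ) (hk : k ∈ Subgroup.center Γ) :
    cm u (v * k) = cm u v := by
  rw [cm_anti (v * k) u, cm_central_left v k u hk, ← cm_anti]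

theorem cm_mul_self {Γ : Type*} [Group Γ] (x u : Γ) : cm x (u * x) = cm x u := by
  unfold cm; group

theorem cm_lem2 {Γ : Type*} [Group Γ] (w w' d : Γ) (h1 : Commute w w') (h2 : Commute w d)
    (h3 : Commute w' d) : w * (w' * d) * w⁻¹ * w'⁻¹ = d := by
  rw [(h1.mul_right h2).eq, mul_inv_cancel_right, h3.eq, mul_inv_cancel_right]

/-! ## The semidihedral case -/

theorem sd_kill {Γ G : Type*} [Group Γ] [Group G] (σ : Γ →* G) (hsurj : Function.Surjective σ)
    (hker : σ.ker ≤ Subgroup.center Γ) (a b : G) (ha8 : a ^ 8 = 1) (ha4 : a ^ 4 ≠ 1)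
    (hb : b * b = 1) (hba : b * a * b⁻¹ = a ^ 3)
    (S : Subgroup Γ) (hS : ∀ s ∈ S, ∃ i : ℕ, σ s = a ^ i ∨ σ s = a ^ i * b)
    (z : Γ) (hzS : z ∈ S) (hzk : z ∈ σ.ker)
    (hz : (⟨z, hzS⟩ : ↥S) ∈ commutator ↥S) : z = 1 := by
  obtain ⟨A, hA⟩ := hsurj a
  obtain ⟨B, hB⟩ := hsurj b
  obtain ⟨z1, hz1⟩ : ∃ z1 : Γ, z1 = (A ^ 3)⁻¹ * (B * A * B⁻¹) := ⟨_, rfl⟩
  have hz1k : z1 ∈ σ.ker := by
    rw [MonoidHom.mem_ker, hz1, map_mul, map_inv, map_pow, map_mul, map_mul, map_inv, hA, hB,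
      hba, inv_mul_cancel]
  have hz1c : z1 ∈ Subgroup.center Γ := hker hz1k
  have hr : B * A * B⁻¹ = A ^ 3 * z1 := by rw [hz1, mul_inv_cancel_left]
  have hBB : B * B ∈ Subgroup.center Γ :=
    hker (by rw [MonoidHom.mem_ker, map_mul, hB, hb])
  obtain ⟨c, hc⟩ : ∃ c : Γ, c = A ^ (2 : ℤ) * z1 := ⟨_, rfl⟩
  have cen : ∀ k ∈ Subgroup.center Γ, ∀ g : Γ, Commute g k :=
    fun k hk g => Subgroup.mem_center_iff.mp hk g
  have hAc : Commute A c := by
    rw [hc]
    exact (Commute.zpow_right (Commute.refl A) 2).mul_right (cen z1 hz1c A)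
  have hr' : B * A * B⁻¹ = A * c := by
    rw [hr, hc]
    group
  have L1 : ∀ i : ℤ, B * A ^ i * B⁻¹ = A ^ i * c ^ i := by
    intro i
    rw [← conj_zpow, hr', hAc.mul_zpow]
  have hBc : B * c * B⁻¹ = c ^ (3 : ℤ) := by
    calc B * c * B⁻¹ = (B * A ^ (2 : ℤ) * B⁻¹) * (B * z1 * B⁻¹) := by rw [hc]; group
      _ = (A ^ (2 : ℤ) * c ^ (2 : ℤ)) * z1 := by
        rw [L1 2, (cen z1 hz1c B).eq, mul_inv_cancel_right]
      _ = c * c ^ (2 : ℤ) := by
        rw [mul_assoc, (cen z1 hz1c (c ^ (2 : ℤ))).eq, ← mul_assoc, ← hc]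
      _ = c ^ (3 : ℤ) := by group
  have h1 : B * (B * A * B⁻¹) * B⁻¹ = A := by
    have h := (cen (B * B) hBB A).eq
    calc B * (B * A * B⁻¹) * B⁻¹ = (B * B * A) * B⁻¹ * B⁻¹ := by group
      _ = A * (B * B) * B⁻¹ * B⁻¹ := by rw [← h]
      _ = A := by group
  have h2 : B * (B * A * B⁻¹) * B⁻¹ = A * (c * c ^ (3 : ℤ)) := by
    rw [hr']
    calc B * (A * c) * B⁻¹ = (B * A * B⁻¹) * (B * c * B⁻¹) := by group
      _ = A * (c * c ^ (3 : ℤ)) := by rw [hr', hBc, mul_assoc]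
  have h4 : c * c ^ (3 : ℤ) = 1 := mul_eq_left.mp (h2.symm.trans h1)
  have hc4 : c ^ (4 : ℤ) = 1 := by
    rw [← h4]
    group
  -- the commutative subgroup
  let H : Subgroup Γ :=
    { carrier := {g | ∃ i : ℤ, ∃ k ∈ Subgroup.center Γ, g = A ^ i * k}
      mul_mem' := by
        rintro _ _ ⟨i, k, hk, rfl⟩ ⟨j, k', hk', rfl⟩
        refine ⟨i + j, k * k', Subgroup.mul_mem _ hk hk', ?_⟩
        rw [zpow_add]
        exact ((cen k hk (A ^ j)).symm).mul_mul_mul_comm (A ^ i) k'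
      one_mem' := ⟨0, 1, Subgroup.one_mem _, by rw [zpow_zero, mul_one]⟩
      inv_mem' := by
        rintro _ ⟨i, k, hk, rfl⟩
        refine ⟨-i, k⁻¹, Subgroup.inv_mem _ hk, ?_⟩
        rw [mul_inv_rev, zpow_neg]
        exact ((cen k⁻¹ (Subgroup.inv_mem _ hk) ((A ^ i)⁻¹)).eq).symm }
  have Hmk : ∀ (i : ℤ) (k : Γ), k ∈ Subgroup.center Γ → A ^ i * k ∈ H :=
    fun i k hk => ⟨i, k, hk, rfl⟩
  have Hcomm : ∀ x ∈ H, ∀ y ∈ H, Commute x y := by
    rintro _ ⟨i, k, hk, rfl⟩ _ ⟨j, k', hk', rfl⟩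
    have h1 : Commute (A ^ i) (A ^ j) := (Commute.refl A).zpow_zpow i j
    exact (h1.mul_right (cen k' hk' _)).mul_left ((cen k hk _).symm)
  have hcH : c ∈ H := by
    rw [hc]
    exact Hmk 2 z1 hz1c
  have L2 : ∀ (i : ℤ) (k : Γ), k ∈ Subgroup.center Γ →
      B * (A ^ i * k) * B⁻¹ = A ^ i * k * c ^ i := by
    intro i k hk
    calc B * (A ^ i * k) * B⁻¹ = (B * A ^ i * B⁻¹) * (B * k * B⁻¹) := by group
      _ = A ^ i * c ^ i * k := by rw [L1, (cen k hk B).eq, mul_inv_cancel_right]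
      _ = A ^ i * k * c ^ i := by rw [mul_assoc, (cen k hk (c ^ i)).eq, ← mul_assoc]
  have case2 : ∀ w ∈ H, ∀ w' ∈ H, cm (w * B) w' ∈ Subgroup.zpowers c := by
    rintro w hw _ ⟨i, k, hk, rfl⟩
    have hw' : A ^ i * k ∈ H := Hmk i k hk
    have hd : c ^ i ∈ H := Subgroup.zpow_mem _ hcH i
    have e : cm (w * B) (A ^ i * k) = c ^ i := by
      have e1 : cm (w * B) (A ^ i * k) = w * (B * (A ^ i * k) * B⁻¹) * w⁻¹ * (A ^ i * k)⁻¹ := by
        unfold cm; group
      rw [e1, L2 i k hk]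
      exact cm_lem2 w (A ^ i * k) (c ^ i) (Hcomm w hw _ hw') (Hcomm w hw _ hd)
        (Hcomm _ hw' _ hd)
    rw [e]
    exact Subgroup.zpow_mem_zpowers c i
  have Tcase : ∀ s ∈ S, s ∈ H ∨ ∃ w ∈ H, s = w * B := by
    intro s hs
    obtain ⟨i, hi | hi⟩ := hS s hs
    · left
      have hk : (A ^ (i : ℤ))⁻¹ * s ∈ Subgroup.center Γ := by
        apply hker
        rw [MonoidHom.mem_ker, map_mul, map_inv, map_zpow, hA, zpow_natCast, hi, inv_mul_cancel]
      have hs' : s = A ^ (i : ℤ) * ((A ^ (i : ℤ))⁻¹ * s) := by rw [mul_inv_cancel_left]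
      rw [hs']
      exact Hmk _ _ hk
    · right
      have hk : (A ^ (i : ℤ) * B)⁻¹ * s ∈ Subgroup.center Γ := by
        apply hker
        rw [MonoidHom.mem_ker, map_mul, map_inv, map_mul, map_zpow, hA, hB, zpow_natCast, hi,
          inv_mul_cancel]
      refine ⟨A ^ (i : ℤ) * ((A ^ (i : ℤ) * B)⁻¹ * s), Hmk _ _ hk, ?_⟩
      rw [mul_assoc, ← (cen _ hk B).eq, ← mul_assoc, mul_inv_cancel_left]
  have main : ∀ x ∈ S, ∀ y ∈ S, cm x y ∈ Subgroup.zpowers c := by
    intro x hx y hy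
    rcases Tcase x hx with hxH | ⟨w, hw, rfl⟩
    · rcases Tcase y hy with hyH | ⟨w', hw', rfl⟩
      · have e : cm x y = 1 := by
          have h := (Hcomm x hxH y hyH).eq
          unfold cm
          rw [h]
          group
        rw [e]
        exact Subgroup.one_mem _
      · rw [cm_anti (w' * B) x]
        exact Subgroup.inv_mem _ (case2 w' hw' x hxH)
    · rcases Tcase y hy with hyH | ⟨w', hw', rfl⟩
      · exact case2 w hw y hyH
      · have e : w' * B = (w' * w⁻¹) * (w * B) := by group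
        rw [e, cm_mul_self]
        exact case2 w hw _ (Subgroup.mul_mem _ hw' (Subgroup.inv_mem _ hw))
  have hle : commutator ↥S ≤ (Subgroup.zpowers c).subgroupOf S := by
    rw [commutator_eq_closure, Subgroup.closure_le]
    rintro _ ⟨x, y, rfl⟩
    rw [SetLike.mem_coe, Subgroup.mem_subgroupOf]
    exact main x.1 x.2 y.1 y.2
  have hzN : z ∈ Subgroup.zpowers c := Subgroup.mem_subgroupOf.mp (hle hz)
  obtain ⟨n, hn⟩ := Subgroup.mem_zpowers_iff.mp hzN
  have hσc : σ c = a ^ (2 : ℤ) := by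
    rw [hc, map_mul, map_zpow, hA, MonoidHom.mem_ker.mp hz1k, mul_one]
  have h8 : orderOf a = 2 ^ (2 + 1) :=
    orderOf_eq_prime_pow (by norm_num; exact ha4) (by norm_num; exact ha8)
  have h9 : a ^ (2 * n) = 1 := by
    rw [zpow_mul, ← hσc, ← map_zpow, hn]
    exact MonoidHom.mem_ker.mp hzk
  have h10 : ((orderOf a : ℕ) : ℤ) ∣ 2 * n := orderOf_dvd_iff_zpow_eq_one.mpr h9
  rw [h8] at h10
  obtain ⟨t, ht⟩ := h10
  have hn4 : n = 4 * t := by
    push_cast at ht
    omega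
  rw [← hn, hn4, zpow_mul, hc4, one_zpow]

/-! ## The case of a group of order nine -/

open Cfsg.Agent.Lib.Helper20.M11Syl3

theorem m9_comm : ∀ i j : Fin 9, m9 i j = m9 j i := by decide +kernel

theorem m9_zero : m9 0 0 = 0 := by decide +kernel

theorem gen9 (P : Fin 9 → Prop) (h0 : P 0) (h1 : P 1) (h3 : P 3)
    (hm : ∀ i j, P i → P j → P (m9 i j)) : ∀ i, P i := by
  obtain ⟨f2, f4, f5, f6, f7, f8, -, -⟩ := m9_facts
  have p2 : P 2 := by rw [← f2]; exact hm 1 1 h1 h1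
  have p4 : P 4 := by rw [← f4]; exact hm 3 1 h3 h1
  have p5 : P 5 := by rw [← f5]; exact hm 3 2 h3 p2
  have p6 : P 6 := by rw [← f6]; exact hm 3 3 h3 h3
  have p7 : P 7 := by rw [← f7]; exact hm 6 1 p6 h1
  have p8 : P 8 := by rw [← f8]; exact hm 6 2 p6 p2
  intro i
  fin_cases i
  exacts [h0, h1, p2, h3, p4, p5, p6, p7, p8]

theorem beta9_trivial {A : Type*} [CommGroup A] (β : Fin 9 → Fin 9 → A)
    (hadd : ∀ i j l, β (m9 i j) l = β i l * β j l)
    (hdiag : ∀ i, β i i = 1)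
    (hanti : ∀ i j, β j i = (β i j)⁻¹)
    (hinv : ∀ i j, β (s9 i) (s9 j) = β i j) :
    ∀ i j, β i j = 1 := by
  have h0 : ∀ l, β 0 l = 1 := by
    intro l
    have h := hadd 0 0 l
    rw [m9_zero] at h
    exact (mul_eq_left.mp h.symm)
  have haddr : ∀ l i j, β l (m9 i j) = β l i * β l j := by
    intro l i j
    rw [hanti (m9 i j) l, hadd, mul_inv, ← hanti i l, ← hanti j l]
  obtain ⟨f2, -, -, -, -, -, g3, g1⟩ := m9_facts
  have c1 : β 3 1 = 1 := by
    have h := hinv 3 1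
    rw [g3, g1, ← f2, haddr] at h
    exact mul_eq_left.mp h
  have col : ∀ l, β 1 l = 1 → β 3 l = 1 → ∀ i, β i l = 1 := by
    intro l h1 h3
    apply gen9 (fun i => β i l = 1) (h0 l) h1 h3
    intro i j hi hj
    show β (m9 i j) l = 1
    rw [hadd, hi, hj, mul_one]
  have col1 : ∀ i, β i 1 = 1 := col 1 (hdiag 1) c1
  have col3 : ∀ i, β i 3 = 1 :=
    col 3 (by rw [hanti 3 1, c1, inv_one]) (hdiag 3)
  intro i j
  exact col j (by rw [hanti j 1, col1, inv_one]) (by rw [hanti j 3, col3, inv_one]) i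

theorem nine_comm {Γ G : Type*} [Group Γ] [Group G] (σ : Γ →* G)
    (hsurj : Function.Surjective σ) (hker : σ.ker ≤ Subgroup.center Γ) (t9 : Fin 9 → G) (x : G)
    (hmul : ∀ i j, t9 i * t9 j = t9 (m9 i j))
    (hx : ∀ i, x * t9 i = t9 (s9 i) * x)
    (u v : Γ) (hu : ∃ i, t9 i = σ u) (hv : ∃ j, t9 j = σ v) : u * v = v * u := by
  classical
  choose e he using fun i : Fin 9 => hsurj (t9 i)
  obtain ⟨X, hX⟩ := hsurj x
  have tcomm : ∀ i j, t9 i * t9 j = t9 j * t9 i := by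
    intro i j
    rw [hmul, hmul, m9_comm]
  have hcen : ∀ i j, cm (e i) (e j) ∈ Subgroup.center Γ := by
    intro i j
    apply hker
    rw [MonoidHom.mem_ker]
    show σ (e i * e j * (e i)⁻¹ * (e j)⁻¹) = 1
    rw [map_mul, map_mul, map_mul, map_inv, map_inv, he, he, tcomm i j]
    group
  have hlift : ∀ i j, ∃ k ∈ Subgroup.center Γ, e (m9 i j) = e i * e j * k := by
    intro i j
    refine ⟨(e i * e j)⁻¹ * e (m9 i j), hker ?_, by group⟩
    rw [MonoidHom.mem_ker, map_mul, map_inv, map_mul, he, he, he, hmul, inv_mul_cancel]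
  have hconj : ∀ i, ∃ k ∈ Subgroup.center Γ, X * e i * X⁻¹ = e (s9 i) * k := by
    intro i
    refine ⟨(e (s9 i))⁻¹ * (X * e i * X⁻¹), hker ?_, by group⟩
    rw [MonoidHom.mem_ker, map_mul, map_inv, map_mul, map_mul, map_inv, he, he, hX, hx i]
    group
  let cg : CommGroup ↥(Subgroup.center Γ) :=
    { (inferInstance : Group ↥(Subgroup.center Γ)) with
      mul_comm := fun a b => Subtype.ext (Subgroup.mem_center_iff.mp b.2 a.1) }
  let β : Fin 9 → Fin 9 → ↥(Subgroup.center Γ) := fun i j => ⟨cm (e i) (e j), hcen i j⟩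
  have hβ : ∀ i j, β i j = 1 := by
    apply beta9_trivial β
    · intro i j l
      apply Subtype.ext
      show cm (e (m9 i j)) (e l) = cm (e i) (e l) * cm (e j) (e l)
      obtain ⟨k, hk, hkk⟩ := hlift i j
      rw [hkk, cm_central_left _ _ _ hk, cm_mul_left _ _ _ (hcen j l)]
    · intro i
      exact Subtype.ext (cm_self _)
    · intro i j
      exact Subtype.ext (cm_anti _ _)
    · intro i j
      apply Subtype.ext
      show cm (e (s9 i)) (e (s9 j)) = cm (e i) (e j)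
      obtain ⟨k, hk, hkk⟩ := hconj i
      obtain ⟨k', hk', hkk'⟩ := hconj j
      have h1 := cm_conj X (e i) (e j)
      rw [hkk, hkk', cm_central_left _ _ _ hk, cm_central_right _ _ _ hk'] at h1
      rw [h1, Subgroup.mem_center_iff.mp (hcen i j) X, mul_inv_cancel_right]
  obtain ⟨i, hi⟩ := hu
  obtain ⟨j, hj⟩ := hv
  have hku : (e i)⁻¹ * u ∈ Subgroup.center Γ := by
    apply hker
    rw [MonoidHom.mem_ker, map_mul, map_inv, he, ← hi, inv_mul_cancel]
  have hkv : (e j)⁻¹ * v ∈ Subgroup.center Γ := by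
    apply hker
    rw [MonoidHom.mem_ker, map_mul, map_inv, he, ← hj, inv_mul_cancel]
  have hu' : u = e i * ((e i)⁻¹ * u) := by group
  have hv' : v = e j * ((e j)⁻¹ * v) := by group
  apply cm_comm
  rw [hu', hv', cm_central_left _ _ _ hku, cm_central_right _ _ _ hkv]
  exact congrArg Subtype.val (hβ i j)

/-! ## The Mathieu group -/

open Cfsg.Agent.Lib.Helper4 Cfsg.Agent.Lib.Helper4.Golay Cfsg.Agent.Lib.Helper28
  Cfsg.Agent.S1603 Cfsg.Agent.Lib.Helper20.M11Cent

theorem M11_equiv' : Nonempty (↥Cfsg.Spor.M11 ≃* ↥M0) := by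
  obtain ⟨k, hk, hkd, hkp⟩ := dod_pt_std sq_dod sq_zero
  obtain ⟨e⟩ := conj_stab2 (G := ↥M24) ⟨k, hk⟩ Cfsg.Spor.squareDodecad (some 0 : GolayPt)
  have h1 : (⟨k, hk⟩ : ↥M24) • Cfsg.Spor.squareDodecad = D0s := hkd
  have h2 : (⟨k, hk⟩ : ↥M24) • (some 0 : GolayPt) = pt 0 := hkp
  rw [h1, h2] at e
  have e0 : ↥Cfsg.Spor.M11 ≃* ↥(MulAction.stabilizer M24 Cfsg.Spor.squareDodecad ⊓
      MulAction.stabilizer M24 (some 0 : GolayPt)) :=
    (SimpleCrit.stab2MulEquiv M24 Cfsg.Spor.squareDodecad (some 0 : GolayPt)).symm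
  exact ⟨e0.trans e⟩

theorem card_M0' : Nat.card ↥M0 = 7920 :=
  card_stab_dod_pt D0_dod (D0_mem 0 (by norm_num))

/-! ### The subgroup of order sixteen -/

/-- A matrix of order eight. -/
def sdA : GL (Fin 2) (ZMod 3) :=
  ⟨!![0, 1; 1, 1], !![2, 1; 1, 0], by decide +kernel, by decide +kernel⟩

/-- An involution conjugating that matrix to its cube. -/
def sdB : GL (Fin 2) (ZMod 3) :=
  ⟨!![1, 0; 1, 2], !![1, 0; 1, 2], by decide +kernel, by decide +kernel⟩

/-- The sixteen matrices. -/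
def tG16 (n : Fin 16) : GL (Fin 2) (ZMod 3) := sdA ^ (n.val / 2) * sdB ^ (n.val % 2)

/-- Their multiplication table. -/
def m16 (i j : Fin 16) : Fin 16 :=
  Fin.ofNat 16 (2 * ((i.val / 2 + (if i.val % 2 = 1 then 3 else 1) * (j.val / 2)) % 8) +
    (i.val % 2 + j.val % 2) % 2)

/-- Their inverses. -/
def iv16 (i : Fin 16) : Fin 16 :=
  if i.val % 2 = 0 then Fin.ofNat 16 (2 * ((8 - i.val / 2) % 8))
  else Fin.ofNat 16 (2 * ((5 * (i.val / 2)) % 8) + 1)

theorem hsd : sdA ^ 8 = 1 ∧ sdA ^ 4 ≠ 1 ∧ sdB * sdB = 1 ∧ sdB * sdA * sdB⁻¹ = sdA ^ 3 := by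
  decide +kernel

theorem hmul16 : ∀ i j : Fin 16, tG16 i * tG16 j = tG16 (m16 i j) := by decide +kernel

theorem hone16 : tG16 0 = 1 := by decide +kernel

theorem hinv16 : ∀ i : Fin 16, m16 i (iv16 i) = 0 := by decide +kernel

theorem hinj16 : ∀ i j : Fin 16, tG16 i = tG16 j → i = j := by decide +kernel

/-- The sixteen elements in the standard group. -/
def t16 (n : Fin 16) : ↥M0 := Fhom (tG16 n)

theorem t16_mul (i j : Fin 16) : t16 i * t16 j = t16 (m16 i j) := by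
  rw [t16, t16, t16, ← map_mul, hmul16]

theorem t16_one : t16 0 = 1 := by rw [t16, hone16, map_one]

theorem t16_inj : Function.Injective t16 := fun i j h => hinj16 i j (Fhom_inj h)

/-- The subgroup of order sixteen. -/
def P2 : Subgroup ↥M0 := tblSubgroup t16 m16 iv16 0 t16_mul t16_one hinv16

theorem card_P2 : Nat.card P2 = 16 := card_tblSubgroup _ _ _ _ _ _ _ t16_inj

theorem P2_elts (q : ↥M0) (hq : q ∈ P2) :
    ∃ i : ℕ, q = Fhom sdA ^ i ∨ q = Fhom sdA ^ i * Fhom sdB := by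
  obtain ⟨n, rfl⟩ := hq
  refine ⟨n.val / 2, ?_⟩
  rcases Nat.mod_two_eq_zero_or_one n.val with h | h
  · left
    rw [t16, tG16, h, pow_zero, mul_one, map_pow]
  · right
    rw [t16, tG16, h, pow_one, map_mul, map_pow]

/-! ### The subgroup of order nine -/

/-- The nine permutations. -/
def p9 (n : Fin 9) : Equiv.Perm GolayPt := mkPerm (e9 n).1 (e9 n).2 (tab9_ok n).1

theorem p9_mem (n : Fin 9) : p9 n ∈ M24 := mkPerm_mem _ _ _ (tab9_ok n).2.1

theorem p9_D (n : Fin 9) : p9 n • D0s = D0s :=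
  smul_support_word (tab9_ok n).1 (tab9_ok n).2.2.1

theorem p9_pt0 (n : Fin 9) : p9 n (pt 0) = pt 0 := by
  rw [p9, mkPerm_pt _ _ _ 0 (by norm_num), (tab9_ok n).2.2.2.1]

theorem p9_mul (i j : Fin 9) : p9 i * p9 j = p9 (m9 i j) := by
  ext p
  rw [p9, p9, p9, mkPerm_mul_apply, mkPerm_apply, tab9_mul]

theorem p9_one : p9 0 = 1 := by
  ext p
  rw [p9, mkPerm_apply, tab9_one _ (code_lt p), pt_code]
  rfl

theorem p9_X0 (n : Fin 9) : X0 * p9 n = p9 (s9 n) * X0 := by
  ext p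
  rw [X0, p9, p9, mkPerm_mul_apply, mkPerm_mul_apply, (tab9_ok n).2.2.2.2]

/-- The nine elements in the standard group. -/
def t9M (n : Fin 9) : ↥M0 := ⟨⟨p9 n, p9_mem n⟩, p9_D n, p9_pt0 n⟩

theorem t9M_mul (i j : Fin 9) : t9M i * t9M j = t9M (m9 i j) :=
  Subtype.ext (Subtype.ext (p9_mul i j))

theorem t9M_one : t9M 0 = 1 := Subtype.ext (Subtype.ext p9_one)

theorem t9M_X0 (n : Fin 9) : X0M * t9M n = t9M (s9 n) * X0M :=
  Subtype.ext (Subtype.ext (p9_X0 n))

theorem t9M_inj : Function.Injective t9M := by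
  intro i j h
  apply tab9_inj
  rw [List.all_eq_true]
  intro k hk
  rw [List.mem_range] at hk
  have h0 : p9 i = p9 j := congrArg (fun z : ↥M0 => (z.1.1 : Equiv.Perm GolayPt)) h
  have h1 : p9 i (pt k) = p9 j (pt k) := by rw [h0]
  rw [p9, p9, mkPerm_pt _ _ _ k hk, mkPerm_pt _ _ _ k hk] at h1
  have h2 := Cfsg.Agent.S1602.pt_inj ((chk_spec (tab9_ok i).1).2 k hk).1
    ((chk_spec (tab9_ok j).1).2 k hk).1 h1
  show Nat.beq (nth (e9 i).1 k) (nth (e9 j).1 k) = true
  rw [h2]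
  exact Nat.beq_refl _

/-- The subgroup of order nine. -/
def P3 : Subgroup ↥M0 := tblSubgroup t9M m9 iv9 0 t9M_mul t9M_one m9_inv

theorem card_P3 : Nat.card P3 = 9 := card_tblSubgroup _ _ _ _ _ _ _ t9M_inj

/-! ### The kernel of a stem extension is trivial -/

theorem hsq7920 : ∀ p : Fin 89, 3 < p.val → p.val ≠ 4 → p.val ≠ 6 → p.val ≠ 12 →
    ¬ p.val ^ 2 ∣ 7920 := by
  decide +kernel

theorem ker_trivial {Γ : Type} [Group Γ] [Finite Γ] (σ : Γ →* ↥M0)
    (hsurj : Function.Surjective σ) (hker : σ.ker ≤ Subgroup.center Γ)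
    (hcomm : σ.ker ≤ commutator Γ) (z : Γ) (hz : z ∈ σ.ker) : z = 1 := by
  classical
  have hfin : Finite ↥M0 := Nat.finite_of_card_ne_zero (by rw [card_M0']; norm_num)
  by_contra hz1
  have hord : orderOf z ≠ 1 := fun h => hz1 (orderOf_eq_one_iff.mp h)
  obtain ⟨p, hp, hpd⟩ := Nat.exists_prime_and_dvd hord
  have hpf : Fact p.Prime := ⟨hp⟩
  have hwo : orderOf (z ^ (orderOf z / p)) = p :=
    orderOf_pow_orderOf_div (orderOf_pos z).ne' hpd
  have hwk : z ^ (orderOf z / p) ∈ σ.ker := Subgroup.pow_mem _ hz _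
  obtain ⟨w, hw⟩ : ∃ w, w = z ^ (orderOf z / p) := ⟨_, rfl⟩
  rw [← hw] at hwo hwk
  have hw1 : w = 1 := by
    by_cases h2 : p = 2
    · subst h2
      have hP : IsPGroup 2 P2 := IsPGroup.of_card (n := 4) (by rw [card_P2]; norm_num)
      have hidx : ¬ 2 ∣ P2.index := by
        have h := P2.index_mul_card
        rw [card_P2, card_M0'] at h
        omega
      obtain ⟨S, hwS, hSP⟩ := exists_sylow_map_le σ hsurj 2 P2 hP hidx w (hker hwk) hwo
      have hfoc := focal 2 S w hwS (hker hwk) (hcomm hwk)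
      obtain ⟨h8, h4, hbb, hba⟩ := hsd
      exact sd_kill σ hsurj hker (Fhom sdA) (Fhom sdB)
        (by rw [← map_pow, h8, map_one])
        (fun h => h4 (Fhom_inj (by rw [map_pow, h, map_one])))
        (by rw [← map_mul, hbb, map_one])
        (by rw [← map_inv, ← map_mul, ← map_mul, hba, map_pow])
        (S : Subgroup Γ) (fun s hs => P2_elts _ (hSP s hs)) w hwS hwk hfoc
    by_cases h3 : p = 3
    · subst h3
      have hP : IsPGroup 3 P3 := IsPGroup.of_card (n := 2) (by rw [card_P3]; norm_num)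
      have hidx : ¬ 3 ∣ P3.index := by
        have h := P3.index_mul_card
        rw [card_P3, card_M0'] at h
        omega
      obtain ⟨S, hwS, hSP⟩ := exists_sylow_map_le σ hsurj 3 P3 hP hidx w (hker hwk) hwo
      exact transfer_trivial 3 S
        (fun u v hu hv =>
          nine_comm σ hsurj hker t9M X0M t9M_mul t9M_X0 u v (hSP u hu) (hSP v hv))
        w hwS (hker hwk) (hcomm hwk)
    · have hZ : IsPGroup p (Subgroup.zpowers w) :=
        IsPGroup.of_card (n := 1) (by rw [Nat.card_zpowers, hwo, pow_one])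
      obtain ⟨S, hS⟩ := hZ.exists_le_sylow
      have hwS : w ∈ (S : Subgroup Γ) := hS (Subgroup.mem_zpowers _)
      have hp2 : ¬ p ^ 2 ∣ Nat.card ↥M0 := by
        rw [card_M0']
        intro hdvd
        have hlt : p < 89 := by
          by_contra hge
          have h3 := Nat.le_of_dvd (by norm_num) hdvd
          nlinarith
        have hp3 : 3 < p := by
          have := hp.two_le
          omega
        exact hsq7920 ⟨p, hlt⟩ hp3
          (fun h : p = 4 => by subst h; exact absurd hp (by norm_num))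
          (fun h : p = 6 => by subst h; exact absurd hp (by norm_num))
          (fun h : p = 12 => by subst h; exact absurd hp (by norm_num)) hdvd
      exact transfer_trivial p S
        (fun u v hu hv => sylow_comm_of_sq σ hker p hp2 S u v hu hv)
        w hwS (hker hwk) (hcomm hwk)
  rw [hw1, orderOf_one] at hwo
  exact hp.one_lt.ne' hwo.symm

theorem z1_cases : ∀ a : Multiplicative (ZMod 1), a = 1 := by decide

/-- The Schur multiplier of the Mathieu group M₁₁ (the stabiliser of a dodecad and one of its points in the automorphism group of the length-24 binary code) is trivial; here the Schur multiplier is described through stem extensions, as in the definitions: surjective homomorphisms onto the group from a finite group, whose kernel is central in that finite group and contained in that finite group's commutator subgroup. -/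
theorem result : Cfsg.HasCyclicSchurMultiplier ↥Cfsg.Spor.M11 1 := by
  obtain ⟨e⟩ := M11_equiv'
  have hcard : Nat.card ↥Cfsg.Spor.M11 = 7920 := by
    rw [Nat.card_congr e.toEquiv]
    exact card_M0'
  have hfin : Finite ↥Cfsg.Spor.M11 := Nat.finite_of_card_ne_zero (by rw [hcard]; norm_num)
  have hk : ∀ z : ↥Cfsg.Spor.M11, z ∈ (MonoidHom.id ↥Cfsg.Spor.M11).ker → z = 1 :=
    fun z hz => MonoidHom.mem_ker.mp hz
  refine ⟨⟨↥Cfsg.Spor.M11, inferInstance, hfin, MonoidHom.id _,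
    ⟨Function.surjective_id, ?_, ?_⟩, ⟨?_⟩⟩, ?_⟩
  · intro z hz
    rw [hk z hz]
    exact Subgroup.one_mem _
  · intro z hz
    rw [hk z hz]
    exact Subgroup.one_mem _
  · exact
      { toFun := fun _ => 1
        invFun := fun _ => 1
        left_inv := fun z => Subtype.ext (hk z.1 z.2).symm
        right_inv := fun a => (z1_cases a).symm
        map_mul' := fun _ _ => (mul_one 1).symm }
  · intro Γ _ _ σ hσ
    obtain ⟨hsurj, hker, hcomm⟩ := hσ
    refine ⟨1, ?_⟩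
    rintro ⟨z, hz⟩
    have hkk : ∀ x : Γ, x ∈ (e.toMonoidHom.comp σ).ker → x ∈ σ.ker := by
      intro x hx
      rw [MonoidHom.mem_ker] at hx ⊢
      exact (MulEquiv.map_eq_one_iff e).mp hx
    have hz' : z ∈ (e.toMonoidHom.comp σ).ker := by
      rw [MonoidHom.mem_ker]
      show e (σ z) = 1
      rw [MonoidHom.mem_ker.mp hz, map_one]
    have h1 := ker_trivial (e.toMonoidHom.comp σ) (e.surjective.comp hsurj)
      (fun x hx => hker (hkk x hx)) (fun x hx => hcomm (hkk x hx)) z hz'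
    exact ⟨1, Subtype.ext h1.symm⟩

end Cfsg.Agent.S2034
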