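import Cfsg.Statements.S2087
import Cfsg.Agent.S0255
import Cfsg.Agent.Lib.Helper3.PSLCongr

set_option autoImplicit false
open Cfsg

namespace Cfsg.Agent.S2087

open scoped Pointwise

/-! ## Subgroups given by tables -/

/-- Subgroup given by a multiplication table. -/
def tblSubgroup {Γ : Type*} [Group Γ] {n : ℕ} (t : Fin n → Γ) (m : Fin n → Fin n → Fin n)
    (iv : Fin n → Fin n) (e : Fin n) (hmul : ∀ i j, t i * t j = t (m i j)) (hone : t e = 1)
    (hinv : ∀ i, m i (iv i) = e) : Subgroup Γ where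
  carrier := Set.range t
  mul_mem' := by
    rintro _ _ ⟨i, rfl⟩ ⟨j, rfl⟩
    exact ⟨m i j, (hmul i j).symm⟩
  one_mem' := ⟨e, hone⟩
  inv_mem' := by
    rintro _ ⟨i, rfl⟩
    refine ⟨iv i, ?_⟩
    have h := hmul i (iv i)
    rw [hinv, hone] at h
    exact eq_inv_of_mul_eq_one_right h

theorem card_tblSubgroup {Γ : Type*} [Group Γ] {n : ℕ} (t : Fin n → Γ)
    (m : Fin n → Fin n → Fin n) (iv : Fin n → Fin n) (e : Fin n)
    (hmul : ∀ i j, t i * t j = t (m i j)) (hone : t e = 1) (hinv : ∀ i, m i (iv i) = e)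
    (hinj : Function.Injective t) :
    Nat.card (tblSubgroup t m iv e hmul hone hinv) = n := by
  have h : Nat.card (Set.range t) = n := by
    rw [Nat.card_congr (Equiv.ofInjective t hinj).symm, Nat.card_fin]
  exact h

theorem mem_conj_iff' {G : Type*} [Group G] (g x : G) (L : Subgroup G) :
    x ∈ MulAut.conj g • L ↔ g⁻¹ * x * g ∈ L := by
  rw [Subgroup.mem_pointwise_smul_iff_inv_smul_mem, ← map_inv, MulAut.smul_def,
    MulAut.conj_apply, inv_inv]

/-! ## Transfer -/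

theorem transfer_key {Γ : Type*} [Group Γ] (H : Subgroup Γ) (z : Γ)
    (hzc : z ∈ Subgroup.center Γ) (k : ℕ) (g₀ : Γ) (_h : g₀⁻¹ * z ^ k * g₀ ∈ H) :
    g₀⁻¹ * z ^ k * g₀ = z ^ k := by
  have hc : z ^ k ∈ Subgroup.center Γ := Subgroup.pow_mem _ hzc k
  have h := Subgroup.mem_center_iff.mp hc g₀
  rw [mul_assoc, ← h, inv_mul_cancel_left]

/-- A central element of a Sylow subgroup lying in the commutator subgroup of the group lies
in the commutator subgroup of the Sylow subgroup. -/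
theorem focal {Γ : Type*} [Group Γ] [Finite Γ] (p : ℕ) [Fact p.Prime] (S : Sylow p Γ)
    (z : Γ) (hzS : z ∈ (S : Subgroup Γ)) (hzc : z ∈ Subgroup.center Γ)
    (hzd : z ∈ commutator Γ) :
    (⟨z, hzS⟩ : ↥(S : Subgroup Γ)) ∈ commutator ↥(S : Subgroup Γ) := by
  classical
  have h1 := MonoidHom.transfer_eq_pow
    (Abelianization.of : ↥(S : Subgroup Γ) →* Abelianization ↥(S : Subgroup Γ)) z
    (transfer_key (S : Subgroup Γ) z hzc)
  have h2 : MonoidHom.transfer
      (Abelianization.of : ↥(S : Subgroup Γ) →* Abelianization ↥(S : Subgroup Γ)) z = 1 :=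
    (Abelianization.commutator_subset_ker _) hzd
  have h3 : (Abelianization.of (⟨z, hzS⟩ : ↥(S : Subgroup Γ))) ^ (S : Subgroup Γ).index = 1 := by
    rw [← map_pow, ← h2, h1]
    rfl
  obtain ⟨k, hk⟩ := S.isPGroup' ⟨z, hzS⟩
  have h5 : (Abelianization.of (⟨z, hzS⟩ : ↥(S : Subgroup Γ))) ^ (p ^ k) = 1 := by
    rw [← map_pow, hk, map_one]
  have hcop : Nat.Coprime (p ^ k) (S : Subgroup Γ).index :=
    Nat.Coprime.pow_left _ ((Nat.Prime.coprime_iff_not_dvd Fact.out).mpr S.not_dvd_index)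
  have h6 : orderOf (Abelianization.of (⟨z, hzS⟩ : ↥(S : Subgroup Γ))) = 1 :=
    Nat.eq_one_of_dvd_coprimes hcop (orderOf_dvd_of_pow_eq_one h5) (orderOf_dvd_of_pow_eq_one h3)
  rw [← Abelianization.ker_of]
  exact MonoidHom.mem_ker.mpr (orderOf_eq_one_iff.mp h6)

/-- A central element of a commutative Sylow subgroup lying in the commutator subgroup is
trivial. -/
theorem transfer_trivial {Γ : Type*} [Group Γ] [Finite Γ] (p : ℕ) [Fact p.Prime] (S : Sylow p Γ)
    (hS : ∀ a b : Γ, a ∈ (S : Subgroup Γ) → b ∈ (S : Subgroup Γ) → a * b = b * a)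
    (z : Γ) (hzS : z ∈ (S : Subgroup Γ)) (hzc : z ∈ Subgroup.center Γ)
    (hzd : z ∈ commutator Γ) : z = 1 := by
  have h := focal p S z hzS hzc hzd
  have hbot : commutator ↥(S : Subgroup Γ) = ⊥ := by
    rw [commutator_eq_closure, Subgroup.closure_eq_bot_iff]
    rintro _ ⟨x, y, rfl⟩
    rw [Set.mem_singleton_iff, commutatorElement_def]
    have hxy : x * y = y * x := Subtype.ext (hS x y x.2 y.2)
    rw [hxy]
    group
  rw [hbot, Subgroup.mem_bot] at h
  exact congrArg Subtype.val h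

/-! ## Sylow subgroups of a central extension -/

theorem central_mem_sylow {Γ : Type*} [Group Γ] [Finite Γ] (p : ℕ) [Fact p.Prime]
    (S : Sylow p Γ) (z : Γ) (hzc : z ∈ Subgroup.center Γ) (k : ℕ) (hz : z ^ (p ^ k) = 1) :
    z ∈ (S : Subgroup Γ) := by
  have hZ : IsPGroup p (Subgroup.zpowers z) := by
    rintro ⟨g, hg⟩
    obtain ⟨i, rfl⟩ := Subgroup.mem_zpowers_iff.mp hg
    refine ⟨k, Subtype.ext ?_⟩
    show (z ^ i) ^ (p ^ k) = 1
    rw [← zpow_natCast, ← zpow_mul, mul_comm i, zpow_mul, zpow_natCast, hz, one_zpow]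
  obtain ⟨S₁, hS₁⟩ := hZ.exists_le_sylow
  obtain ⟨g, hg⟩ := MulAction.exists_smul_eq Γ S₁ S
  rw [← hg, Sylow.coe_subgroup_smul, mem_conj_iff']
  have h := Subgroup.mem_center_iff.mp hzc g
  rw [mul_assoc, ← h, inv_mul_cancel_left]
  exact hS₁ (Subgroup.mem_zpowers z)

theorem exists_sylow_map_le {Γ G : Type*} [Group Γ] [Group G] [Finite Γ] [Finite G]
    (σ : Γ →* G) (hsurj : Function.Surjective σ) (p : ℕ) [Fact p.Prime] (P : Subgroup G)
    (hP : IsPGroup p P) (hidx : ¬ p ∣ P.index) :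
    ∃ S : Sylow p Γ, ∀ s ∈ (S : Subgroup Γ), σ s ∈ P := by
  classical
  obtain ⟨S₀, -⟩ := (IsPGroup.of_bot : IsPGroup p (⊥ : Subgroup Γ)).exists_le_sylow
  have hT : IsPGroup p ((S₀ : Subgroup Γ).map σ) := S₀.isPGroup'.map σ
  obtain ⟨Q, hQ⟩ := hT.exists_le_sylow
  obtain ⟨g, hg⟩ := MulAction.exists_smul_eq G (hP.toSylow hidx) Q
  obtain ⟨y, hy⟩ := hsurj g
  refine ⟨y⁻¹ • S₀, ?_⟩
  intro s hs
  rw [Sylow.coe_subgroup_smul, mem_conj_iff', inv_inv] at hs
  have h1 : σ (y * s * y⁻¹) ∈ (Q : Subgroup G) := hQ (Subgroup.mem_map_of_mem σ hs)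
  rw [← hg, Sylow.coe_subgroup_smul, mem_conj_iff'] at h1
  have h2 : g⁻¹ * σ (y * s * y⁻¹) * g = σ s := by
    rw [map_mul, map_mul, map_inv, hy]
    group
  rw [h2] at h1
  exact (IsPGroup.mem_toSylow hP hidx).1 h1

theorem sylow_comm_of_sq {Γ G : Type*} [Group Γ] [Group G] [Finite G] (σ : Γ →* G)
    (hker : σ.ker ≤ Subgroup.center Γ) (p : ℕ) [Fact p.Prime] (hp2 : ¬ p ^ 2 ∣ Nat.card G)
    (S : Sylow p Γ) (a b : Γ) (ha : a ∈ (S : Subgroup Γ)) (hb : b ∈ (S : Subgroup Γ)) :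
    a * b = b * a := by
  classical
  let f : ↥(S : Subgroup Γ) →* ↥((S : Subgroup Γ).map σ) := σ.subgroupMap (S : Subgroup Γ)
  have hf : f.ker ≤ Subgroup.center ↥(S : Subgroup Γ) := by
    intro s hs
    rw [Subgroup.mem_center_iff]
    intro g
    have h1 : σ (s : Γ) = 1 := congrArg Subtype.val (MonoidHom.mem_ker.mp hs)
    have h2 : (s : Γ) ∈ Subgroup.center Γ := hker (MonoidHom.mem_ker.mpr h1)
    exact Subtype.ext (Subgroup.mem_center_iff.mp h2 g)
  have hT : IsPGroup p ↥((S : Subgroup Γ).map σ) := S.isPGroup'.map σ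
  obtain ⟨k, hk⟩ := IsPGroup.iff_card.mp hT
  have hdvd : Nat.card ↥((S : Subgroup Γ).map σ) ∣ Nat.card G :=
    Subgroup.card_subgroup_dvd_card _
  have hk1 : k ≤ 1 := by
    by_contra hk2
    exact hp2 ((pow_dvd_pow p (by omega)).trans (hk ▸ hdvd))
  have hcyc : IsCyclic ↥((S : Subgroup Γ).map σ) := by
    interval_cases k
    · rw [pow_zero] at hk
      have hsub : Subsingleton ↥((S : Subgroup Γ).map σ) :=
        (Nat.card_eq_one_iff_unique.mp hk).1
      exact isCyclic_of_subsingleton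
    · rw [pow_one] at hk
      exact isCyclic_of_prime_card hk
  have h := (f.isMulCommutative_of_isCyclic_of_ker_le_center hf).is_comm.comm
    (⟨a, ha⟩ : ↥(S : Subgroup Γ)) ⟨b, hb⟩
  exact congrArg Subtype.val h

/-! ## Commutators -/

/-- The commutator of two elements. -/
def cm {Γ : Type*} [Group Γ] (u v : Γ) : Γ := u * v * u⁻¹ * v⁻¹

theorem cm_self {Γ : Type*} [Group Γ] (u : Γ) : cm u u = 1 := by unfold cm; group

theorem cm_anti {Γ : Type*} [Group Γ] (u v : Γ) : cm v u = (cm u v)⁻¹ := by unfold cm; group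

theorem cm_conj {Γ : Type*} [Group Γ] (x u v : Γ) :
    cm (x * u * x⁻¹) (x * v * x⁻¹) = x * cm u v * x⁻¹ := by unfold cm; group

theorem cm_comm {Γ : Type*} [Group Γ] (u v : Γ) (h : cm u v = 1) : u * v = v * u := by
  have h1 : u * v = cm u v * (v * u) := by unfold cm; group
  rw [h1, h, one_mul]

theorem cm_mul_left {Γ : Type*} [Group Γ] (a b l : Γ) (h : cm b l ∈ Subgroup.center Γ) :
    cm (a * b) l = cm a l * cm b l := by
  have hc := Subgroup.mem_center_iff.mp h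
  have h1 : cm (a * b) l = a * cm b l * (l * a⁻¹ * l⁻¹) := by unfold cm; group
  have h2 : cm a l * cm b l = cm b l * a * (l * a⁻¹ * l⁻¹) := by
    rw [hc (cm a l)]; unfold cm; group
  rw [h1, h2, hc a]

theorem cm_central_left {Γ : Type*} [Group Γ] (u k v : Γ) (hk : k ∈ Subgroup.center Γ) :
    cm (u * k) v = cm u v := by
  have hc := Subgroup.mem_center_iff.mp hk
  unfold cm
  rw [mul_inv_rev, mul_assoc u k v, ← hc v]
  group

theorem cm_central_right {Γ : Type*} [Group Γ] (u v k : Γ) (hk : k ∈ Subgroup.center Γ) :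
    cm u (v * k) = cm u v := by
  rw [cm_anti (v * k) u, cm_central_left v k u hk, ← cm_anti]

theorem cm_mul_self {Γ : Type*} [Group Γ] (x u : Γ) : cm x (u * x) = cm x u := by
  unfold cm; group

theorem cm_lem2 {Γ : Type*} [Group Γ] (w w' d : Γ) (h1 : Commute w w') (h2 : Commute w d)
    (h3 : Commute w' d) : w * (w' * d) * w⁻¹ * w'⁻¹ = d := by
  rw [(h1.mul_right h2).eq, mul_inv_cancel_right, h3.eq, mul_inv_cancel_right]

/-! ## The dihedral case -/

theorem dih_comm {Γ G : Type*} [Group Γ] [Group G] (σ : Γ →* G) (hsurj : Function.Surjective σ)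
    (hker : σ.ker ≤ Subgroup.center Γ) (a b : G)
    (hb : b * b = 1) (hba : b * a * b⁻¹ = a ^ 3)
    (S : Subgroup Γ) (hS : ∀ s ∈ S, ∃ i : ℕ, σ s = a ^ i ∨ σ s = a ^ i * b) :
    ∃ c : Γ, c ^ (4 : ℤ) = 1 ∧ σ c = a ^ (2 : ℤ) ∧
      ∀ (z : Γ) (hzS : z ∈ S), (⟨z, hzS⟩ : ↥S) ∈ commutator ↥S → z ∈ Subgroup.zpowers c := by
  obtain ⟨A, hA⟩ := hsurj a
  obtain ⟨B, hB⟩ := hsurj b
  obtain ⟨z1, hz1⟩ : ∃ z1 : Γ, z1 = (A ^ 3)⁻¹ * (B * A * B⁻¹) := ⟨_, rfl⟩
  have hz1k : z1 ∈ σ.ker := by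
    rw [MonoidHom.mem_ker, hz1, map_mul, map_inv, map_pow, map_mul, map_mul, map_inv, hA, hB,
      hba, inv_mul_cancel]
  have hz1c : z1 ∈ Subgroup.center Γ := hker hz1k
  have hr : B * A * B⁻¹ = A ^ 3 * z1 := by rw [hz1, mul_inv_cancel_left]
  have hBB : B * B ∈ Subgroup.center Γ :=
    hker (by rw [MonoidHom.mem_ker, map_mul, hB, hb])
  obtain ⟨c, hc⟩ : ∃ c : Γ, c = A ^ (2 : ℤ) * z1 := ⟨_, rfl⟩
  have cen : ∀ k ∈ Subgroup.center Γ, ∀ g : Γ, Commute g k :=
    fun k hk g => Subgroup.mem_center_iff.mp hk g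
  have hAc : Commute A c := by
    rw [hc]
    exact (Commute.zpow_right (Commute.refl A) 2).mul_right (cen z1 hz1c A)
  have hr' : B * A * B⁻¹ = A * c := by
    rw [hr, hc]
    group
  have L1 : ∀ i : ℤ, B * A ^ i * B⁻¹ = A ^ i * c ^ i := by
    intro i
    rw [← conj_zpow, hr', hAc.mul_zpow]
  have hBc : B * c * B⁻¹ = c ^ (3 : ℤ) := by
    calc B * c * B⁻¹ = (B * A ^ (2 : ℤ) * B⁻¹) * (B * z1 * B⁻¹) := by rw [hc]; group
      _ = (A ^ (2 : ℤ) * c ^ (2 : ℤ)) * z1 := by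
        rw [L1 2, (cen z1 hz1c B).eq, mul_inv_cancel_right]
      _ = c * c ^ (2 : ℤ) := by
        rw [mul_assoc, (cen z1 hz1c (c ^ (2 : ℤ))).eq, ← mul_assoc, ← hc]
      _ = c ^ (3 : ℤ) := by group
  have h1 : B * (B * A * B⁻¹) * B⁻¹ = A := by
    have h := (cen (B * B) hBB A).eq
    calc B * (B * A * B⁻¹) * B⁻¹ = (B * B * A) * B⁻¹ * B⁻¹ := by group
      _ = A * (B * B) * B⁻¹ * B⁻¹ := by rw [← h]
      _ = A := by group
  have h2 : B * (B * A * B⁻¹) * B⁻¹ = A * (c * c ^ (3 : ℤ)) := by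
    rw [hr']
    calc B * (A * c) * B⁻¹ = (B * A * B⁻¹) * (B * c * B⁻¹) := by group
      _ = A * (c * c ^ (3 : ℤ)) := by rw [hr', hBc, mul_assoc]
  have h4 : c * c ^ (3 : ℤ) = 1 := mul_eq_left.mp (h2.symm.trans h1)
  have hc4 : c ^ (4 : ℤ) = 1 := by
    rw [← h4]
    group
  -- the commutative subgroup
  let H : Subgroup Γ :=
    { carrier := {g | ∃ i : ℤ, ∃ k ∈ Subgroup.center Γ, g = A ^ i * k}
      mul_mem' := by
        rintro _ _ ⟨i, k, hk, rfl⟩ ⟨j, k', hk', rfl⟩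
        refine ⟨i + j, k * k', Subgroup.mul_mem _ hk hk', ?_⟩
        rw [zpow_add]
        exact ((cen k hk (A ^ j)).symm).mul_mul_mul_comm (A ^ i) k'
      one_mem' := ⟨0, 1, Subgroup.one_mem _, by rw [zpow_zero, mul_one]⟩
      inv_mem' := by
        rintro _ ⟨i, k, hk, rfl⟩
        refine ⟨-i, k⁻¹, Subgroup.inv_mem _ hk, ?_⟩
        rw [mul_inv_rev, zpow_neg]
        exact ((cen k⁻¹ (Subgroup.inv_mem _ hk) ((A ^ i)⁻¹)).eq).symm }
  have Hmk : ∀ (i : ℤ) (k : Γ), k ∈ Subgroup.center Γ → A ^ i * k ∈ H :=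
    fun i k hk => ⟨i, k, hk, rfl⟩
  have Hcomm : ∀ x ∈ H, ∀ y ∈ H, Commute x y := by
    rintro _ ⟨i, k, hk, rfl⟩ _ ⟨j, k', hk', rfl⟩
    have h1 : Commute (A ^ i) (A ^ j) := (Commute.refl A).zpow_zpow i j
    exact (h1.mul_right (cen k' hk' _)).mul_left ((cen k hk _).symm)
  have hcH : c ∈ H := by
    rw [hc]
    exact Hmk 2 z1 hz1c
  have L2 : ∀ (i : ℤ) (k : Γ), k ∈ Subgroup.center Γ →
      B * (A ^ i * k) * B⁻¹ = A ^ i * k * c ^ i := by
    intro i k hk
    calc B * (A ^ i * k) * B⁻¹ = (B * A ^ i * B⁻¹) * (B * k * B⁻¹) := by group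
      _ = A ^ i * c ^ i * k := by rw [L1, (cen k hk B).eq, mul_inv_cancel_right]
      _ = A ^ i * k * c ^ i := by rw [mul_assoc, (cen k hk (c ^ i)).eq, ← mul_assoc]
  have case2 : ∀ w ∈ H, ∀ w' ∈ H, cm (w * B) w' ∈ Subgroup.zpowers c := by
    rintro w hw _ ⟨i, k, hk, rfl⟩
    have hw' : A ^ i * k ∈ H := Hmk i k hk
    have hd : c ^ i ∈ H := Subgroup.zpow_mem _ hcH i
    have e : cm (w * B) (A ^ i * k) = c ^ i := by
      have e1 : cm (w * B) (A ^ i * k) = w * (B * (A ^ i * k) * B⁻¹) * w⁻¹ * (A ^ i * k)⁻¹ := by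
        unfold cm; group
      rw [e1, L2 i k hk]
      exact cm_lem2 w (A ^ i * k) (c ^ i) (Hcomm w hw _ hw') (Hcomm w hw _ hd)
        (Hcomm _ hw' _ hd)
    rw [e]
    exact Subgroup.zpow_mem_zpowers c i
  have Tcase : ∀ s ∈ S, s ∈ H ∨ ∃ w ∈ H, s = w * B := by
    intro s hs
    obtain ⟨i, hi | hi⟩ := hS s hs
    · left
      have hk : (A ^ (i : ℤ))⁻¹ * s ∈ Subgroup.center Γ := by
        apply hker
        rw [MonoidHom.mem_ker, map_mul, map_inv, map_zpow, hA, zpow_natCast, hi, inv_mul_cancel]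
      have hs' : s = A ^ (i : ℤ) * ((A ^ (i : ℤ))⁻¹ * s) := by rw [mul_inv_cancel_left]
      rw [hs']
      exact Hmk _ _ hk
    · right
      have hk : (A ^ (i : ℤ) * B)⁻¹ * s ∈ Subgroup.center Γ := by
        apply hker
        rw [MonoidHom.mem_ker, map_mul, map_inv, map_mul, map_zpow, hA, hB, zpow_natCast, hi,
          inv_mul_cancel]
      refine ⟨A ^ (i : ℤ) * ((A ^ (i : ℤ) * B)⁻¹ * s), Hmk _ _ hk, ?_⟩
      rw [mul_assoc, ← (cen _ hk B).eq, ← mul_assoc, mul_inv_cancel_left]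
  have main : ∀ x ∈ S, ∀ y ∈ S, cm x y ∈ Subgroup.zpowers c := by
    intro x hx y hy
    rcases Tcase x hx with hxH | ⟨w, hw, rfl⟩
    · rcases Tcase y hy with hyH | ⟨w', hw', rfl⟩
      · have e : cm x y = 1 := by
          have h := (Hcomm x hxH y hyH).eq
          unfold cm
          rw [h]
          group
        rw [e]
        exact Subgroup.one_mem _
      · rw [cm_anti (w' * B) x]
        exact Subgroup.inv_mem _ (case2 w' hw' x hxH)
    · rcases Tcase y hy with hyH | ⟨w', hw', rfl⟩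
      · exact case2 w hw y hyH
      · have e : w' * B = (w' * w⁻¹) * (w * B) := by group
        rw [e, cm_mul_self]
        exact case2 w hw _ (Subgroup.mul_mem _ hw' (Subgroup.inv_mem _ hw))
  have hσc : σ c = a ^ (2 : ℤ) := by
    rw [hc, map_mul, map_zpow, hA, MonoidHom.mem_ker.mp hz1k, mul_one]
  refine ⟨c, hc4, hσc, ?_⟩
  intro z hzS hz
  have hle : commutator ↥S ≤ (Subgroup.zpowers c).subgroupOf S := by
    rw [commutator_eq_closure, Subgroup.closure_le]
    rintro _ ⟨x, y, rfl⟩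
    rw [SetLike.mem_coe, Subgroup.mem_subgroupOf]
    exact main x.1 x.2 y.1 y.2
  exact Subgroup.mem_subgroupOf.mp (hle hz)

/-! ## The group of order 168 -/

/-- The general linear group of degree three over the field with two elements. -/
abbrev L32 : Type := GL (Fin 3) (ZMod 2)

theorem card_L32 : Nat.card L32 = 168 := by
  rw [Matrix.card_GL_field]
  simp [Fin.prod_univ_three]

theorem unit_zmod2 : ∀ u : (ZMod 2)ˣ, (u : ZMod 2) = 1 := by decide

/-- The special and the general linear group of degree three over the field with two elements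
coincide. -/
noncomputable def slEquivGL : Matrix.SpecialLinearGroup (Fin 3) (ZMod 2) ≃* L32 :=
  MulEquiv.ofBijective Matrix.SpecialLinearGroup.toGL
    ⟨Matrix.SpecialLinearGroup.toGL_injective, by
      intro g
      have hdet : (g : Matrix (Fin 3) (Fin 3) (ZMod 2)).det = 1 :=
        unit_zmod2 (Matrix.GeneralLinearGroup.det g)
      exact ⟨⟨(g : Matrix (Fin 3) (Fin 3) (ZMod 2)), hdet⟩, Units.ext rfl⟩⟩

theorem psl_equiv {F : Type*} [Field F] [Fintype F] (hF : Fintype.card F = 2) :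
    Nonempty (Matrix.ProjectiveSpecialLinearGroup (Fin 3) F ≃* L32) := by
  have e : ZMod 2 ≃+* F := ZMod.ringEquivOfPrime F (by norm_num) hF
  exact ⟨((Cfsg.Agent.Lib.Helper3.pslCongr (Fin 3) e.symm).trans
    (Cfsg.Agent.Lib.Helper3.quotCenterOfBot
      (Cfsg.Agent.S0255.center_sl3_bot (ZMod.card 2)))).trans slEquivGL⟩

/-- A matrix of order four. -/
def dA : L32 :=
  ⟨!![1, 1, 0; 0, 1, 1; 0, 0, 1], !![1, 1, 1; 0, 1, 1; 0, 0, 1], by decide +kernel,
    by decide +kernel⟩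

/-- An involution inverting that matrix. -/
def dB : L32 :=
  ⟨!![1, 0, 0; 0, 1, 1; 0, 0, 1], !![1, 0, 0; 0, 1, 1; 0, 0, 1], by decide +kernel,
    by decide +kernel⟩

/-- The eight matrices. -/
def tG8 (n : Fin 8) : L32 := dA ^ (n.val / 2) * dB ^ (n.val % 2)

/-- Their multiplication table. -/
def m8 (i j : Fin 8) : Fin 8 :=
  Fin.ofNat 8 (2 * ((i.val / 2 + (if i.val % 2 = 1 then 3 else 1) * (j.val / 2)) % 4) +
    (i.val % 2 + j.val % 2) % 2)

/-- Their inverses. -/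
def iv8 (i : Fin 8) : Fin 8 :=
  if i.val % 2 = 0 then Fin.ofNat 8 (2 * ((4 - i.val / 2) % 4))
  else Fin.ofNat 8 (2 * ((i.val / 2) % 4) + 1)

theorem hd8 : dA ^ 4 = 1 ∧ dA ^ 2 ≠ 1 ∧ dB * dB = 1 ∧ dB * dA * dB⁻¹ = dA ^ 3 := by
  decide +kernel

theorem hmul8 : ∀ i j : Fin 8, tG8 i * tG8 j = tG8 (m8 i j) := by decide +kernel

theorem hone8 : tG8 0 = 1 := by decide +kernel

theorem hinv8 : ∀ i : Fin 8, m8 i (iv8 i) = 0 := by decide +kernel

theorem hinj8 : ∀ i j : Fin 8, tG8 i = tG8 j → i = j := by decide +kernel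

/-- The subgroup of order eight. -/
def P2 : Subgroup L32 := tblSubgroup tG8 m8 iv8 0 hmul8 hone8 hinv8

theorem card_P2 : Nat.card P2 = 8 := card_tblSubgroup _ _ _ _ _ _ _ (fun i j h => hinj8 i j h)

theorem P2_elts (q : L32) (hq : q ∈ P2) : ∃ i : ℕ, q = dA ^ i ∨ q = dA ^ i * dB := by
  obtain ⟨n, rfl⟩ := hq
  refine ⟨n.val / 2, ?_⟩
  rcases Nat.mod_two_eq_zero_or_one n.val with h | h
  · left
    rw [tG8, h, pow_zero, mul_one]
  · right
    rw [tG8, h, pow_one]

theorem hsq168 : ∀ p : Fin 13, 2 < p.val → ¬ p.val ^ 2 ∣ 168 := by decide +kernel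

/-! ## The kernel of a stem extension has at most two elements -/

theorem odd_part {Γ : Type*} [Group Γ] [Finite Γ] (σ : Γ →* L32)
    (hker : σ.ker ≤ Subgroup.center Γ) (hcomm : σ.ker ≤ commutator Γ) (z : Γ)
    (hz : z ∈ σ.ker) (p : ℕ) (hp : p.Prime) (hpd : p ∣ orderOf z) : p = 2 := by
  classical
  have hfin : Finite L32 := Nat.finite_of_card_ne_zero (by rw [card_L32]; norm_num)
  by_contra hp2
  have hpf : Fact p.Prime := ⟨hp⟩
  have hwo : orderOf (z ^ (orderOf z / p)) = p :=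
    orderOf_pow_orderOf_div (orderOf_pos z).ne' hpd
  have hwk : z ^ (orderOf z / p) ∈ σ.ker := Subgroup.pow_mem _ hz _
  obtain ⟨w, hw⟩ : ∃ w, w = z ^ (orderOf z / p) := ⟨_, rfl⟩
  rw [← hw] at hwo hwk
  have hZ : IsPGroup p (Subgroup.zpowers w) :=
    IsPGroup.of_card (n := 1) (by rw [Nat.card_zpowers, hwo, pow_one])
  obtain ⟨S, hS⟩ := hZ.exists_le_sylow
  have hwS : w ∈ (S : Subgroup Γ) := hS (Subgroup.mem_zpowers _)
  have hpsq : ¬ p ^ 2 ∣ Nat.card L32 := by
    rw [card_L32]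
    intro hdvd
    have hlt : p < 13 := by
      by_contra hge
      have h3 := Nat.le_of_dvd (by norm_num) hdvd
      nlinarith
    have hp3 : 2 < p := lt_of_le_of_ne hp.two_le (Ne.symm hp2)
    exact hsq168 ⟨p, hlt⟩ hp3 hdvd
  have hw1 : w = 1 := transfer_trivial p S
    (fun u v hu hv => sylow_comm_of_sq σ hker p hpsq S u v hu hv)
    w hwS (hker hwk) (hcomm hwk)
  rw [hw1, orderOf_one] at hwo
  exact hp.one_lt.ne' hwo.symm

theorem ker_le_two {Γ : Type*} [Group Γ] [Finite Γ] (σ : Γ →* L32)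
    (hsurj : Function.Surjective σ) (hker : σ.ker ≤ Subgroup.center Γ)
    (hcomm : σ.ker ≤ commutator Γ) : ∃ d : Γ, ∀ z ∈ σ.ker, z = 1 ∨ z = d := by
  classical
  have hfin : Finite L32 := Nat.finite_of_card_ne_zero (by rw [card_L32]; norm_num)
  have hP : IsPGroup 2 P2 := IsPGroup.of_card (n := 3) (by rw [card_P2]; norm_num)
  have hidx : ¬ 2 ∣ P2.index := by
    have h := P2.index_mul_card
    rw [card_P2, card_L32] at h
    omega
  obtain ⟨S, hSP⟩ := exists_sylow_map_le σ hsurj 2 P2 hP hidx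
  obtain ⟨h4, h2, hbb, hba⟩ := hd8
  obtain ⟨c, hc4, hσc, hcz⟩ := dih_comm σ hsurj hker dA dB hbb hba (S : Subgroup Γ)
    (fun s hs => P2_elts _ (hSP s hs))
  refine ⟨c ^ (2 : ℤ), ?_⟩
  intro z hz
  have hpow : orderOf z = 2 ^ (orderOf z).primeFactorsList.length :=
    Nat.eq_prime_pow_of_unique_prime_dvd (orderOf_pos z).ne'
      (fun {d} hd hdd => odd_part σ hker hcomm z hz d hd hdd)
  have hz2 : z ^ (2 ^ (orderOf z).primeFactorsList.length) = 1 := by
    rw [← hpow]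
    exact pow_orderOf_eq_one z
  have hzS : z ∈ (S : Subgroup Γ) := central_mem_sylow 2 S z (hker hz) _ hz2
  have hfoc := focal 2 S z hzS (hker hz) (hcomm hz)
  obtain ⟨n, hn⟩ := Subgroup.mem_zpowers_iff.mp (hcz z hzS hfoc)
  have h8 : orderOf dA = 2 ^ (1 + 1) :=
    orderOf_eq_prime_pow (by norm_num; exact h2) (by norm_num; exact h4)
  have h9 : dA ^ (2 * n) = 1 := by
    rw [zpow_mul, ← hσc, ← map_zpow, hn]
    exact MonoidHom.mem_ker.mp hz
  have h10 : ((orderOf dA : ℕ) : ℤ) ∣ 2 * n := orderOf_dvd_iff_zpow_eq_one.mpr h9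
  rw [h8] at h10
  obtain ⟨t, ht⟩ := h10
  have hn2 : n = 2 * t := by
    push_cast at ht
    omega
  rcases Int.even_or_odd' t with ⟨s, hs | hs⟩
  · left
    rw [← hn, hn2, hs, show (2 : ℤ) * (2 * s) = 4 * s by ring, zpow_mul, hc4, one_zpow]
  · right
    rw [← hn, hn2, hs, show (2 : ℤ) * (2 * s + 1) = 4 * s + 2 by ring, zpow_add, zpow_mul, hc4,
      one_zpow, one_mul]

theorem card_z2 : Nat.card (Multiplicative (ZMod 2)) = 2 := by
  rw [Nat.card_eq_fintype_card]
  rfl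

theorem exists_pi {Γ : Type*} [Group Γ] (K : Subgroup Γ) (d : Γ)
    (h : ∀ z ∈ K, z = 1 ∨ z = d) :
    ∃ π : Multiplicative (ZMod 2) →* ↥K, Function.Surjective π := by
  by_cases h1 : ∀ z ∈ K, z = 1
  · refine ⟨1, ?_⟩
    rintro ⟨z, hz⟩
    exact ⟨1, Subtype.ext (h1 z hz).symm⟩
  · obtain ⟨z₀, hz₀, hz₀1⟩ : ∃ z₀ ∈ K, z₀ ≠ 1 := by
      by_contra hne
      exact h1 (fun z hz => by
        by_contra hz1
        exact hne ⟨z, hz, hz1⟩)
    have hd : z₀ = d := (h z₀ hz₀).resolve_left hz₀1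
    have hcard : Nat.card ↥K = 2 := by
      rw [Nat.card_eq_two_iff]
      refine ⟨1, ⟨z₀, hz₀⟩, ?_, ?_⟩
      · intro h2
        exact hz₀1 (congrArg Subtype.val h2).symm
      · ext ⟨z, hz⟩
        simp only [Set.mem_insert_iff, Set.mem_singleton_iff, Set.mem_univ, iff_true]
        rcases h z hz with h3 | h3
        · left
          exact Subtype.ext h3
        · right
          exact Subtype.ext (h3.trans hd.symm)
    have hp : Fact (Nat.Prime 2) := ⟨Nat.prime_two⟩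
    exact ⟨(mulEquivOfPrimeCardEq card_z2 hcard).toMonoidHom,
      (mulEquivOfPrimeCardEq card_z2 hcard).surjective⟩

/-! ## The covering group -/

/-- The special linear group of degree two over the field with seven elements. -/
abbrev S27 : Type := Matrix.SpecialLinearGroup (Fin 2) (ZMod 7)

/-- The scalar matrix minus one. -/
def negOne : S27 := ⟨!![6, 0; 0, 6], by rw [Matrix.det_fin_two]; decide⟩

/-- A matrix of order four. -/
def cx : S27 := ⟨!![0, 1; 6, 0], by rw [Matrix.det_fin_two]; decide⟩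

/-- Another matrix of order four, anticommuting with the first. -/
def cy : S27 := ⟨!![3, 2; 2, 4], by rw [Matrix.det_fin_two]; decide⟩

/-- The inverse of the first matrix. -/
def cxi : S27 := ⟨!![0, 6; 1, 0], by rw [Matrix.det_fin_two]; decide⟩

/-- The inverse of the second matrix. -/
def cyi : S27 := ⟨!![4, 5; 5, 3], by rw [Matrix.det_fin_two]; decide⟩

theorem hcov : cx * cxi = 1 ∧ cy * cyi = 1 ∧ cx * cy * cxi * cyi = negOne ∧ negOne ≠ 1 := by
  decide +kernel

theorem sq7 : ∀ r : ZMod 7, r ^ 2 = 1 → r = 1 ∨ r = 6 := by decide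

theorem scalar_one7 : (Matrix.scalar (Fin 2) (1 : ZMod 7)) = (1 : Matrix (Fin 2) (Fin 2) (ZMod 7)) :=
  map_one _

theorem scalar_six7 : (Matrix.scalar (Fin 2) (6 : ZMod 7)) = !![6, 0; 0, 6] := by
  decide +kernel

theorem center_cases (A : S27) (hA : A ∈ Subgroup.center S27) : A = 1 ∨ A = negOne := by
  rw [Matrix.SpecialLinearGroup.mem_center_iff] at hA
  obtain ⟨r, hr, hrA⟩ := hA
  have hr2 : r ^ 2 = 1 := by
    rw [Fintype.card_fin] at hr
    exact hr
  rcases sq7 r hr2 with h | h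
  · left
    apply Subtype.ext
    rw [← hrA, h, scalar_one7]
    rfl
  · right
    apply Subtype.ext
    rw [← hrA, h, scalar_six7]
    rfl

theorem negOne_center : negOne ∈ Subgroup.center S27 := by
  rw [Matrix.SpecialLinearGroup.mem_center_iff]
  exact ⟨6, by decide, scalar_six7⟩

open scoped commutatorElement in
theorem negOne_comm : negOne ∈ commutator S27 := by
  obtain ⟨h1, h2, h3, -⟩ := hcov
  have hx : cx⁻¹ = cxi := inv_eq_of_mul_eq_one_right h1
  have hy : cy⁻¹ = cyi := inv_eq_of_mul_eq_one_right h2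
  have h : ⁅cx, cy⁆ = negOne := by
    rw [commutatorElement_def, hx, hy, h3]
  rw [← h]
  exact Subgroup.commutator_mem_commutator (Subgroup.mem_top cx) (Subgroup.mem_top cy)

universe u

theorem exists_cover {G : Type u} [Group G]
    (e₀ : Matrix.ProjectiveSpecialLinearGroup (Fin 2) (ZMod 7) ≃* G) :
    ∃ (Γ : Type u) (_ : Group Γ) (_ : Finite Γ) (σ : Γ →* G),
      IsStemExtension σ ∧ Nonempty (σ.ker ≃* Multiplicative (ZMod 2)) := by
  let q : S27 →* Matrix.ProjectiveSpecialLinearGroup (Fin 2) (ZMod 7) :=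
    QuotientGroup.mk' (Subgroup.center S27)
  let σ : ULift.{u} S27 →* G :=
    (e₀.toMonoidHom.comp q).comp (MulEquiv.ulift (α := S27)).toMonoidHom
  have hσ : ∀ x : ULift.{u} S27, σ x = e₀ (q x.down) := fun x => rfl
  have hkerσ : ∀ x : ULift.{u} S27, x ∈ σ.ker ↔ x.down ∈ Subgroup.center S27 := by
    intro x
    rw [MonoidHom.mem_ker, hσ, MulEquiv.map_eq_one_iff]
    exact QuotientGroup.eq_one_iff x.down
  have hsurj : Function.Surjective σ := by
    intro g
    obtain ⟨y, hy⟩ := QuotientGroup.mk'_surjective (Subgroup.center S27) (e₀.symm g)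
    refine ⟨ULift.up y, ?_⟩
    rw [hσ]
    show e₀ (q y) = g
    rw [show q y = e₀.symm g from hy, MulEquiv.apply_symm_apply]
  have hcen : σ.ker ≤ Subgroup.center (ULift.{u} S27) := by
    intro x hx
    rw [hkerσ] at hx
    rw [Subgroup.mem_center_iff]
    intro g
    apply ULift.ext
    exact Subgroup.mem_center_iff.mp hx g.down
  have hup : ∀ A : S27, A ∈ commutator S27 → ULift.up.{u} A ∈ commutator (ULift.{u} S27) := by
    intro A hA
    have h := Subgroup.map_commutator (⊤ : Subgroup S27) ⊤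
      ((MulEquiv.ulift (α := S27)).symm.toMonoidHom : S27 →* ULift.{u} S27)
    have h2 : ULift.up.{u} A ∈ (commutator S27).map
        ((MulEquiv.ulift (α := S27)).symm.toMonoidHom : S27 →* ULift.{u} S27) :=
      ⟨A, hA, rfl⟩
    have h3 : (commutator S27).map
        ((MulEquiv.ulift (α := S27)).symm.toMonoidHom : S27 →* ULift.{u} S27) ≤
        commutator (ULift.{u} S27) := by
      rw [commutator_def, commutator_def, h]
      exact Subgroup.commutator_mono le_top le_top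
    exact h3 h2
  have hcom : σ.ker ≤ commutator (ULift.{u} S27) := by
    intro x hx
    rw [hkerσ] at hx
    rcases center_cases x.down hx with h | h
    · have hx1 : x = 1 := ULift.ext _ _ h
      rw [hx1]
      exact Subgroup.one_mem _
    · have hx1 : x = ULift.up negOne := ULift.ext _ _ h
      rw [hx1]
      exact hup negOne negOne_comm
  have hcard : Nat.card ↥σ.ker = 2 := by
    rw [Nat.card_eq_two_iff]
    refine ⟨1, ⟨ULift.up negOne, (hkerσ _).mpr negOne_center⟩, ?_, ?_⟩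
    · intro h2
      have h3 : (1 : ULift.{u} S27) = ULift.up negOne := congrArg Subtype.val h2
      exact hcov.2.2.2 (congrArg ULift.down h3).symm
    · ext ⟨z, hz⟩
      simp only [Set.mem_insert_iff, Set.mem_singleton_iff, Set.mem_univ, iff_true]
      rcases center_cases z.down ((hkerσ z).mp hz) with h3 | h3
      · left
        exact Subtype.ext (ULift.ext _ _ h3)
      · right
        exact Subtype.ext (ULift.ext _ _ h3)
  have hp : Fact (Nat.Prime 2) := ⟨Nat.prime_two⟩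
  exact ⟨ULift.{u} S27, inferInstance, inferInstance, σ, ⟨hsurj, hcen, hcom⟩,
    ⟨mulEquivOfPrimeCardEq hcard card_z2⟩⟩

/-- Exceptional Schur multiplier: over the field with 2 elements, PSL₃ has Schur multiplier cyclic of order 2 (here the Schur multiplier is described through stem extensions, as in the definitions). -/
theorem result {F : Type*} [Field F] [Fintype F] (hF : Fintype.card F = 2) : Cfsg.HasCyclicSchurMultiplier (Matrix.ProjectiveSpecialLinearGroup (Fin 3) F) 2 := by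
  obtain ⟨e₀⟩ := Cfsg.Agent.S0255.result (F := ZMod 7) (K := F) (ZMod.card 7) hF
  obtain ⟨eL⟩ := psl_equiv hF
  refine ⟨exists_cover e₀, ?_⟩
  intro Γ _ _ σ hσ
  obtain ⟨hsurj, hker, hcomm⟩ := hσ
  have hkk : ∀ x : Γ, x ∈ (eL.toMonoidHom.comp σ).ker → x ∈ σ.ker := by
    intro x hx
    rw [MonoidHom.mem_ker] at hx ⊢
    exact (MulEquiv.map_eq_one_iff eL).mp hx
  obtain ⟨d, hd⟩ := ker_le_two (eL.toMonoidHom.comp σ) (eL.surjective.comp hsurj)
    (fun x hx => hker (hkk x hx)) (fun x hx => hcomm (hkk x hx))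
  apply exists_pi σ.ker d
  intro z hz
  apply hd
  rw [MonoidHom.mem_ker]
  show eL (σ z) = 1
  rw [MonoidHom.mem_ker.mp hz, map_one]

end Cfsg.Agent.S2087
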