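-- Statement S2118: the Schur multiplier of the special linear group of degree two over the field
-- with nine elements is cyclic of order three.
import Cfsg.Statements.S2118
import Cfsg.Agent.Lib.Helper3.SL2Sylow
import Cfsg.Agent.Lib.Helper20.Cov9Data

set_option autoImplicit false
open Cfsg

namespace Cfsg.Agent.S2118

open scoped Pointwise

/-! ## Subgroups given by tables -/

/-- Subgroup given by a multiplication table. -/
def tblSubgroup {Γ : Type*} [Group Γ] {n : ℕ} (t : Fin n → Γ) (m : Fin n → Fin n → Fin n)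
    (iv : Fin n → Fin n) (e : Fin n) (hmul : ∀ i j, t i * t j = t (m i j)) (hone : t e = 1)
    (hinv : ∀ i, m i (iv i) = e) : Subgroup Γ where
  carrier := Set.range t
  mul_mem' := by
    rintro _ _ ⟨i, rfl⟩ ⟨j, rfl⟩
    exact ⟨m i j, (hmul i j).symm⟩
  one_mem' := ⟨e, hone⟩
  inv_mem' := by
    rintro _ ⟨i, rfl⟩
    refine ⟨iv i, ?_⟩
    have h := hmul i (iv i)
    rw [hinv, hone] at h
    exact eq_inv_of_mul_eq_one_right h

theorem card_tblSubgroup {Γ : Type*} [Group Γ] {n : ℕ} (t : Fin n → Γ)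
    (m : Fin n → Fin n → Fin n) (iv : Fin n → Fin n) (e : Fin n)
    (hmul : ∀ i j, t i * t j = t (m i j)) (hone : t e = 1) (hinv : ∀ i, m i (iv i) = e)
    (hinj : Function.Injective t) :
    Nat.card (tblSubgroup t m iv e hmul hone hinv) = n := by
  have h : Nat.card (Set.range t) = n := by
    rw [Nat.card_congr (Equiv.ofInjective t hinj).symm, Nat.card_fin]
  exact h

theorem mem_conj_iff' {G : Type*} [Group G] (g x : G) (L : Subgroup G) :
    x ∈ MulAut.conj g • L ↔ g⁻¹ * x * g ∈ L := by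
  rw [Subgroup.mem_pointwise_smul_iff_inv_smul_mem, ← map_inv, MulAut.smul_def,
    MulAut.conj_apply, inv_inv]

/-! ## Transfer -/

theorem transfer_key {Γ : Type*} [Group Γ] (H : Subgroup Γ) (z : Γ)
    (hzc : z ∈ Subgroup.center Γ) (k : ℕ) (g₀ : Γ) (_h : g₀⁻¹ * z ^ k * g₀ ∈ H) :
    g₀⁻¹ * z ^ k * g₀ = z ^ k := by
  have hc : z ^ k ∈ Subgroup.center Γ := Subgroup.pow_mem _ hzc k
  have h := Subgroup.mem_center_iff.mp hc g₀
  rw [mul_assoc, ← h, inv_mul_cancel_left]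

/-- A central element of a Sylow subgroup lying in the commutator subgroup of the group lies
in the commutator subgroup of the Sylow subgroup. -/
theorem focal {Γ : Type*} [Group Γ] [Finite Γ] (p : ℕ) [Fact p.Prime] (S : Sylow p Γ)
    (z : Γ) (hzS : z ∈ (S : Subgroup Γ)) (hzc : z ∈ Subgroup.center Γ)
    (hzd : z ∈ commutator Γ) :
    (⟨z, hzS⟩ : ↥(S : Subgroup Γ)) ∈ commutator ↥(S : Subgroup Γ) := by
  classical
  have h1 := MonoidHom.transfer_eq_pow
    (Abelianization.of : ↥(S : Subgroup Γ) →* Abelianization ↥(S : Subgroup Γ)) z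
    (transfer_key (S : Subgroup Γ) z hzc)
  have h2 : MonoidHom.transfer
      (Abelianization.of : ↥(S : Subgroup Γ) →* Abelianization ↥(S : Subgroup Γ)) z = 1 :=
    (Abelianization.commutator_subset_ker _) hzd
  have h3 : (Abelianization.of (⟨z, hzS⟩ : ↥(S : Subgroup Γ))) ^ (S : Subgroup Γ).index = 1 := by
    rw [← map_pow, ← h2, h1]
    rfl
  obtain ⟨k, hk⟩ := S.isPGroup' ⟨z, hzS⟩
  have h5 : (Abelianization.of (⟨z, hzS⟩ : ↥(S : Subgroup Γ))) ^ (p ^ k) = 1 := by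
    rw [← map_pow, hk, map_one]
  have hcop : Nat.Coprime (p ^ k) (S : Subgroup Γ).index :=
    Nat.Coprime.pow_left _ ((Nat.Prime.coprime_iff_not_dvd Fact.out).mpr S.not_dvd_index)
  have h6 : orderOf (Abelianization.of (⟨z, hzS⟩ : ↥(S : Subgroup Γ))) = 1 :=
    Nat.eq_one_of_dvd_coprimes hcop (orderOf_dvd_of_pow_eq_one h5) (orderOf_dvd_of_pow_eq_one h3)
  rw [← Abelianization.ker_of]
  exact MonoidHom.mem_ker.mpr (orderOf_eq_one_iff.mp h6)

/-- A central element of a commutative Sylow subgroup lying in the commutator subgroup is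
trivial. -/
theorem transfer_trivial {Γ : Type*} [Group Γ] [Finite Γ] (p : ℕ) [Fact p.Prime] (S : Sylow p Γ)
    (hS : ∀ a b : Γ, a ∈ (S : Subgroup Γ) → b ∈ (S : Subgroup Γ) → a * b = b * a)
    (z : Γ) (hzS : z ∈ (S : Subgroup Γ)) (hzc : z ∈ Subgroup.center Γ)
    (hzd : z ∈ commutator Γ) : z = 1 := by
  have h := focal p S z hzS hzc hzd
  have hbot : commutator ↥(S : Subgroup Γ) = ⊥ := by
    rw [commutator_eq_closure, Subgroup.closure_eq_bot_iff]
    rintro _ ⟨x, y, rfl⟩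
    rw [Set.mem_singleton_iff, commutatorElement_def]
    have hxy : x * y = y * x := Subtype.ext (hS x y x.2 y.2)
    rw [hxy]
    group
  rw [hbot, Subgroup.mem_bot] at h
  exact congrArg Subtype.val h

/-! ## Sylow subgroups of a central extension -/

theorem central_mem_sylow {Γ : Type*} [Group Γ] [Finite Γ] (p : ℕ) [Fact p.Prime]
    (S : Sylow p Γ) (z : Γ) (hzc : z ∈ Subgroup.center Γ) (k : ℕ) (hz : z ^ (p ^ k) = 1) :
    z ∈ (S : Subgroup Γ) := by
  have hZ : IsPGroup p (Subgroup.zpowers z) := by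
    rintro ⟨g, hg⟩
    obtain ⟨i, rfl⟩ := Subgroup.mem_zpowers_iff.mp hg
    refine ⟨k, Subtype.ext ?_⟩
    show (z ^ i) ^ (p ^ k) = 1
    rw [← zpow_natCast, ← zpow_mul, mul_comm i, zpow_mul, zpow_natCast, hz, one_zpow]
  obtain ⟨S₁, hS₁⟩ := hZ.exists_le_sylow
  obtain ⟨g, hg⟩ := MulAction.exists_smul_eq Γ S₁ S
  rw [← hg, Sylow.coe_subgroup_smul, mem_conj_iff']
  have h := Subgroup.mem_center_iff.mp hzc g
  rw [mul_assoc, ← h, inv_mul_cancel_left]
  exact hS₁ (Subgroup.mem_zpowers z)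

theorem exists_sylow_map_le {Γ G : Type*} [Group Γ] [Group G] [Finite Γ] [Finite G]
    (σ : Γ →* G) (hsurj : Function.Surjective σ) (p : ℕ) [Fact p.Prime] (P : Subgroup G)
    (hP : IsPGroup p P) (hidx : ¬ p ∣ P.index) :
    ∃ S : Sylow p Γ, ∀ s ∈ (S : Subgroup Γ), σ s ∈ P := by
  classical
  obtain ⟨S₀, -⟩ := (IsPGroup.of_bot : IsPGroup p (⊥ : Subgroup Γ)).exists_le_sylow
  have hT : IsPGroup p ((S₀ : Subgroup Γ).map σ) := S₀.isPGroup'.map σ
  obtain ⟨Q, hQ⟩ := hT.exists_le_sylow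
  obtain ⟨g, hg⟩ := MulAction.exists_smul_eq G (hP.toSylow hidx) Q
  obtain ⟨y, hy⟩ := hsurj g
  refine ⟨y⁻¹ • S₀, ?_⟩
  intro s hs
  rw [Sylow.coe_subgroup_smul, mem_conj_iff', inv_inv] at hs
  have h1 : σ (y * s * y⁻¹) ∈ (Q : Subgroup G) := hQ (Subgroup.mem_map_of_mem σ hs)
  rw [← hg, Sylow.coe_subgroup_smul, mem_conj_iff'] at h1
  have h2 : g⁻¹ * σ (y * s * y⁻¹) * g = σ s := by
    rw [map_mul, map_mul, map_inv, hy]
    group
  rw [h2] at h1
  exact (IsPGroup.mem_toSylow hP hidx).1 h1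

theorem sylow_comm_of_sq {Γ G : Type*} [Group Γ] [Group G] [Finite G] (σ : Γ →* G)
    (hker : σ.ker ≤ Subgroup.center Γ) (p : ℕ) [Fact p.Prime] (hp2 : ¬ p ^ 2 ∣ Nat.card G)
    (S : Sylow p Γ) (a b : Γ) (ha : a ∈ (S : Subgroup Γ)) (hb : b ∈ (S : Subgroup Γ)) :
    a * b = b * a := by
  classical
  let f : ↥(S : Subgroup Γ) →* ↥((S : Subgroup Γ).map σ) := σ.subgroupMap (S : Subgroup Γ)
  have hf : f.ker ≤ Subgroup.center ↥(S : Subgroup Γ) := by
    intro s hs
    rw [Subgroup.mem_center_iff]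
    intro g
    have h1 : σ (s : Γ) = 1 := congrArg Subtype.val (MonoidHom.mem_ker.mp hs)
    have h2 : (s : Γ) ∈ Subgroup.center Γ := hker (MonoidHom.mem_ker.mpr h1)
    exact Subtype.ext (Subgroup.mem_center_iff.mp h2 g)
  have hT : IsPGroup p ↥((S : Subgroup Γ).map σ) := S.isPGroup'.map σ
  obtain ⟨k, hk⟩ := IsPGroup.iff_card.mp hT
  have hdvd : Nat.card ↥((S : Subgroup Γ).map σ) ∣ Nat.card G :=
    Subgroup.card_subgroup_dvd_card _
  have hk1 : k ≤ 1 := by
    by_contra hk2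
    exact hp2 ((pow_dvd_pow p (by omega)).trans (hk ▸ hdvd))
  have hcyc : IsCyclic ↥((S : Subgroup Γ).map σ) := by
    interval_cases k
    · rw [pow_zero] at hk
      have hsub : Subsingleton ↥((S : Subgroup Γ).map σ) :=
        (Nat.card_eq_one_iff_unique.mp hk).1
      exact isCyclic_of_subsingleton
    · rw [pow_one] at hk
      exact isCyclic_of_prime_card hk
  have h := (f.isMulCommutative_of_isCyclic_of_ker_le_center hf).is_comm.comm
    (⟨a, ha⟩ : ↥(S : Subgroup Γ)) ⟨b, hb⟩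
  exact congrArg Subtype.val h

/-! ## Commutators -/

/-- The commutator of two elements. -/
def cm {Γ : Type*} [Group Γ] (u v : Γ) : Γ := u * v * u⁻¹ * v⁻¹

theorem cm_self {Γ : Type*} [Group Γ] (u : Γ) : cm u u = 1 := by unfold cm; group

theorem cm_anti {Γ : Type*} [Group Γ] (u v : Γ) : cm v u = (cm u v)⁻¹ := by unfold cm; group

theorem cm_conj {Γ : Type*} [Group Γ] (x u v : Γ) :
    cm (x * u * x⁻¹) (x * v * x⁻¹) = x * cm u v * x⁻¹ := by unfold cm; group

theorem cm_comm {Γ : Type*} [Group Γ] (u v : Γ) (h : cm u v = 1) : u * v = v * u := by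
  have h1 : u * v = cm u v * (v * u) := by unfold cm; group
  rw [h1, h, one_mul]

theorem cm_mul_left {Γ : Type*} [Group Γ] (a b l : Γ) (h : cm b l ∈ Subgroup.center Γ) :
    cm (a * b) l = cm a l * cm b l := by
  have hc := Subgroup.mem_center_iff.mp h
  have h1 : cm (a * b) l = a * cm b l * (l * a⁻¹ * l⁻¹) := by unfold cm; group
  have h2 : cm a l * cm b l = cm b l * a * (l * a⁻¹ * l⁻¹) := by
    rw [hc (cm a l)]; unfold cm; group
  rw [h1, h2, hc a]

theorem cm_central_left {Γ : Type*} [Group Γ] (u k v : Γ) (hk : k ∈ Subgroup.center Γ) :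
    cm (u * k) v = cm u v := by
  have hc := Subgroup.mem_center_iff.mp hk
  unfold cm
  rw [mul_inv_rev, mul_assoc u k v, ← hc v]
  group

theorem cm_central_right {Γ : Type*} [Group Γ] (u v k : Γ) (hk : k ∈ Subgroup.center Γ) :
    cm u (v * k) = cm u v := by
  rw [cm_anti (v * k) u, cm_central_left v k u hk, ← cm_anti]

theorem cm_mul_self {Γ : Type*} [Group Γ] (x u : Γ) : cm x (u * x) = cm x u := by
  unfold cm; group

theorem cm_lem2 {Γ : Type*} [Group Γ] (w w' d : Γ) (h1 : Commute w w') (h2 : Commute w d)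
    (h3 : Commute w' d) : w * (w' * d) * w⁻¹ * w'⁻¹ = d := by
  rw [(h1.mul_right h2).eq, mul_inv_cancel_right, h3.eq, mul_inv_cancel_right]

theorem quat_comm {Γ G : Type*} [Group Γ] [Group G] (σ : Γ →* G) (hsurj : Function.Surjective σ)
    (hker : σ.ker ≤ Subgroup.center Γ) (a b : G)
    (hbb : b * b = a ^ 4) (hba : b * a * b⁻¹ = a ^ 7)
    (S : Subgroup Γ) (hS : ∀ s ∈ S, ∃ i : ℕ, σ s = a ^ i ∨ σ s = a ^ i * b) :
    ∃ c : Γ, c ^ (4 : ℤ) = 1 ∧ σ c = a ^ (6 : ℤ) ∧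
      ∀ (z : Γ) (hzS : z ∈ S), (⟨z, hzS⟩ : ↥S) ∈ commutator ↥S → z ∈ Subgroup.zpowers c := by
  obtain ⟨A, hA⟩ := hsurj a
  obtain ⟨B, hB⟩ := hsurj b
  obtain ⟨z1, hz1⟩ : ∃ z1 : Γ, z1 = (A ^ 7)⁻¹ * (B * A * B⁻¹) := ⟨_, rfl⟩
  have hz1k : z1 ∈ σ.ker := by
    rw [MonoidHom.mem_ker, hz1, map_mul, map_inv, map_pow, map_mul, map_mul, map_inv, hA, hB,
      hba, inv_mul_cancel]
  have hz1c : z1 ∈ Subgroup.center Γ := hker hz1k
  have hr : B * A * B⁻¹ = A ^ 7 * z1 := by rw [hz1, mul_inv_cancel_left]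
  obtain ⟨z2, hz2⟩ : ∃ z2 : Γ, z2 = (A ^ 4)⁻¹ * (B * B) := ⟨_, rfl⟩
  have hz2k : z2 ∈ σ.ker := by
    rw [MonoidHom.mem_ker, hz2, map_mul, map_inv, map_pow, map_mul, hA, hB, hbb, inv_mul_cancel]
  have hz2c : z2 ∈ Subgroup.center Γ := hker hz2k
  have hBB : B * B = A ^ 4 * z2 := by rw [hz2, mul_inv_cancel_left]
  obtain ⟨c, hc⟩ : ∃ c : Γ, c = A ^ (6 : ℤ) * z1 := ⟨_, rfl⟩
  have cen : ∀ k ∈ Subgroup.center Γ, ∀ g : Γ, Commute g k :=
    fun k hk g => Subgroup.mem_center_iff.mp hk g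
  have hAc : Commute A c := by
    rw [hc]
    exact (Commute.zpow_right (Commute.refl A) 6).mul_right (cen z1 hz1c A)
  have hr' : B * A * B⁻¹ = A * c := by
    rw [hr, hc]
    group
  have L1 : ∀ i : ℤ, B * A ^ i * B⁻¹ = A ^ i * c ^ i := by
    intro i
    rw [← conj_zpow, hr', hAc.mul_zpow]
  have cen' : ∀ k ∈ Subgroup.center Γ, ∀ g : Γ, Commute g k :=
    fun k hk g => Subgroup.mem_center_iff.mp hk g
  have h1 : B * (B * B) * B⁻¹ = B * B := by group
  have h2 : B * (B * B) * B⁻¹ = A ^ (4 : ℤ) * c ^ (4 : ℤ) * z2 := by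
    rw [hBB]
    calc B * (A ^ 4 * z2) * B⁻¹ = (B * A ^ (4 : ℤ) * B⁻¹) * (B * z2 * B⁻¹) := by group
      _ = A ^ (4 : ℤ) * c ^ (4 : ℤ) * z2 := by
        rw [L1 4, (cen' z2 hz2c B).eq, mul_inv_cancel_right]
  have h3 : A ^ (4 : ℤ) * c ^ (4 : ℤ) * z2 = A ^ (4 : ℤ) * z2 := by
    have e : A ^ 4 * z2 = A ^ (4 : ℤ) * z2 := by group
    rw [← h2, h1, hBB, e]
  have hc4 : c ^ (4 : ℤ) = 1 := by
    have h4 : A ^ (4 : ℤ) * (c ^ (4 : ℤ) * z2) = A ^ (4 : ℤ) * z2 := by
      rw [← mul_assoc]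
      exact h3
    exact mul_eq_right.mp (mul_left_cancel h4)
  -- the commutative subgroup
  let H : Subgroup Γ :=
    { carrier := {g | ∃ i : ℤ, ∃ k ∈ Subgroup.center Γ, g = A ^ i * k}
      mul_mem' := by
        rintro _ _ ⟨i, k, hk, rfl⟩ ⟨j, k', hk', rfl⟩
        refine ⟨i + j, k * k', Subgroup.mul_mem _ hk hk', ?_⟩
        rw [zpow_add]
        exact ((cen k hk (A ^ j)).symm).mul_mul_mul_comm (A ^ i) k'
      one_mem' := ⟨0, 1, Subgroup.one_mem _, by rw [zpow_zero, mul_one]⟩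
      inv_mem' := by
        rintro _ ⟨i, k, hk, rfl⟩
        refine ⟨-i, k⁻¹, Subgroup.inv_mem _ hk, ?_⟩
        rw [mul_inv_rev, zpow_neg]
        exact ((cen k⁻¹ (Subgroup.inv_mem _ hk) ((A ^ i)⁻¹)).eq).symm }
  have Hmk : ∀ (i : ℤ) (k : Γ), k ∈ Subgroup.center Γ → A ^ i * k ∈ H :=
    fun i k hk => ⟨i, k, hk, rfl⟩
  have Hcomm : ∀ x ∈ H, ∀ y ∈ H, Commute x y := by
    rintro _ ⟨i, k, hk, rfl⟩ _ ⟨j, k', hk', rfl⟩
    have h1 : Commute (A ^ i) (A ^ j) := (Commute.refl A).zpow_zpow i j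
    exact (h1.mul_right (cen k' hk' _)).mul_left ((cen k hk _).symm)
  have hcH : c ∈ H := by
    rw [hc]
    exact Hmk 6 z1 hz1c
  have L2 : ∀ (i : ℤ) (k : Γ), k ∈ Subgroup.center Γ →
      B * (A ^ i * k) * B⁻¹ = A ^ i * k * c ^ i := by
    intro i k hk
    calc B * (A ^ i * k) * B⁻¹ = (B * A ^ i * B⁻¹) * (B * k * B⁻¹) := by group
      _ = A ^ i * c ^ i * k := by rw [L1, (cen k hk B).eq, mul_inv_cancel_right]
      _ = A ^ i * k * c ^ i := by rw [mul_assoc, (cen k hk (c ^ i)).eq, ← mul_assoc]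
  have case2 : ∀ w ∈ H, ∀ w' ∈ H, cm (w * B) w' ∈ Subgroup.zpowers c := by
    rintro w hw _ ⟨i, k, hk, rfl⟩
    have hw' : A ^ i * k ∈ H := Hmk i k hk
    have hd : c ^ i ∈ H := Subgroup.zpow_mem _ hcH i
    have e : cm (w * B) (A ^ i * k) = c ^ i := by
      have e1 : cm (w * B) (A ^ i * k) = w * (B * (A ^ i * k) * B⁻¹) * w⁻¹ * (A ^ i * k)⁻¹ := by
        unfold cm; group
      rw [e1, L2 i k hk]
      exact cm_lem2 w (A ^ i * k) (c ^ i) (Hcomm w hw _ hw') (Hcomm w hw _ hd)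
        (Hcomm _ hw' _ hd)
    rw [e]
    exact Subgroup.zpow_mem_zpowers c i
  have Tcase : ∀ s ∈ S, s ∈ H ∨ ∃ w ∈ H, s = w * B := by
    intro s hs
    obtain ⟨i, hi | hi⟩ := hS s hs
    · left
      have hk : (A ^ (i : ℤ))⁻¹ * s ∈ Subgroup.center Γ := by
        apply hker
        rw [MonoidHom.mem_ker, map_mul, map_inv, map_zpow, hA, zpow_natCast, hi, inv_mul_cancel]
      have hs' : s = A ^ (i : ℤ) * ((A ^ (i : ℤ))⁻¹ * s) := by rw [mul_inv_cancel_left]
      rw [hs']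
      exact Hmk _ _ hk
    · right
      have hk : (A ^ (i : ℤ) * B)⁻¹ * s ∈ Subgroup.center Γ := by
        apply hker
        rw [MonoidHom.mem_ker, map_mul, map_inv, map_mul, map_zpow, hA, hB, zpow_natCast, hi,
          inv_mul_cancel]
      refine ⟨A ^ (i : ℤ) * ((A ^ (i : ℤ) * B)⁻¹ * s), Hmk _ _ hk, ?_⟩
      rw [mul_assoc, ← (cen _ hk B).eq, ← mul_assoc, mul_inv_cancel_left]
  have main : ∀ x ∈ S, ∀ y ∈ S, cm x y ∈ Subgroup.zpowers c := by
    intro x hx y hy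
    rcases Tcase x hx with hxH | ⟨w, hw, rfl⟩
    · rcases Tcase y hy with hyH | ⟨w', hw', rfl⟩
      · have e : cm x y = 1 := by
          have h := (Hcomm x hxH y hyH).eq
          unfold cm
          rw [h]
          group
        rw [e]
        exact Subgroup.one_mem _
      · rw [cm_anti (w' * B) x]
        exact Subgroup.inv_mem _ (case2 w' hw' x hxH)
    · rcases Tcase y hy with hyH | ⟨w', hw', rfl⟩
      · exact case2 w hw y hyH
      · have e : w' * B = (w' * w⁻¹) * (w * B) := by group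
        rw [e, cm_mul_self]
        exact case2 w hw _ (Subgroup.mul_mem _ hw' (Subgroup.inv_mem _ hw))
  have hσc : σ c = a ^ (6 : ℤ) := by
    rw [hc, map_mul, map_zpow, hA, MonoidHom.mem_ker.mp hz1k, mul_one]
  refine ⟨c, hc4, hσc, ?_⟩
  intro z hzS hz
  have hle : commutator ↥S ≤ (Subgroup.zpowers c).subgroupOf S := by
    rw [commutator_eq_closure, Subgroup.closure_le]
    rintro _ ⟨x, y, rfl⟩
    rw [SetLike.mem_coe, Subgroup.mem_subgroupOf]
    exact main x.1 x.2 y.1 y.2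
  exact Subgroup.mem_subgroupOf.mp (hle hz)


/-! ## The case of a group of order nine -/

/-- Addition table of the group of order nine. -/
def n9 (i j : Fin 9) : Fin 9 :=
  Fin.ofNat 9 (3 * ((i.val / 3 + j.val / 3) % 3) + (i.val % 3 + j.val % 3) % 3)

theorem n9_comm : ∀ i j : Fin 9, n9 i j = n9 j i := by decide +kernel

theorem n9_facts : n9 1 1 = 2 ∧ n9 3 1 = 4 ∧ n9 3 2 = 5 ∧ n9 3 3 = 6 ∧ n9 6 1 = 7 ∧ n9 6 2 = 8 ∧
    n9 0 0 = 0 ∧ n9 3 6 = 0 := by
  decide +kernel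

theorem gen9 (P : Fin 9 → Prop) (h0 : P 0) (h1 : P 1) (h3 : P 3)
    (hm : ∀ i j, P i → P j → P (n9 i j)) : ∀ i, P i := by
  obtain ⟨f2, f4, f5, f6, f7, f8, -, -⟩ := n9_facts
  have p2 : P 2 := by rw [← f2]; exact hm 1 1 h1 h1
  have p4 : P 4 := by rw [← f4]; exact hm 3 1 h3 h1
  have p5 : P 5 := by rw [← f5]; exact hm 3 2 h3 p2
  have p6 : P 6 := by rw [← f6]; exact hm 3 3 h3 h3
  have p7 : P 7 := by rw [← f7]; exact hm 6 1 p6 h1
  have p8 : P 8 := by rw [← f8]; exact hm 6 2 p6 p2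
  intro i
  fin_cases i
  exacts [h0, h1, p2, h3, p4, p5, p6, p7, p8]

theorem abel9_comm {Γ G : Type*} [Group Γ] [Group G] (σ : Γ →* G)
    (hsurj : Function.Surjective σ) (hker : σ.ker ≤ Subgroup.center Γ) (t9 : Fin 9 → G)
    (hmul : ∀ i j, t9 i * t9 j = t9 (n9 i j))
    (S : Subgroup Γ) (hS : ∀ s ∈ S, ∃ i, σ s = t9 i) :
    ∃ c : Γ, c ^ 3 = 1 ∧
      ∀ (z : Γ) (hzS : z ∈ S), (⟨z, hzS⟩ : ↥S) ∈ commutator ↥S → z ∈ Subgroup.zpowers c := by
  classical
  choose e he using fun i : Fin 9 => hsurj (t9 i)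
  have tcomm : ∀ i j, t9 i * t9 j = t9 j * t9 i := by
    intro i j
    rw [hmul, hmul, n9_comm]
  have hcen : ∀ i j, cm (e i) (e j) ∈ Subgroup.center Γ := by
    intro i j
    apply hker
    rw [MonoidHom.mem_ker]
    show σ (e i * e j * (e i)⁻¹ * (e j)⁻¹) = 1
    rw [map_mul, map_mul, map_mul, map_inv, map_inv, he, he, tcomm i j]
    group
  have hlift : ∀ i j, ∃ k ∈ Subgroup.center Γ, e (n9 i j) = e i * e j * k := by
    intro i j
    refine ⟨(e i * e j)⁻¹ * e (n9 i j), hker ?_, by group⟩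
    rw [MonoidHom.mem_ker, map_mul, map_inv, map_mul, he, he, he, hmul, inv_mul_cancel]
  have hadd : ∀ i j l, cm (e (n9 i j)) (e l) = cm (e i) (e l) * cm (e j) (e l) := by
    intro i j l
    obtain ⟨k, hk, hkk⟩ := hlift i j
    rw [hkk, cm_central_left _ _ _ hk, cm_mul_left _ _ _ (hcen j l)]
  obtain ⟨f2, f4, f5, f6, f7, f8, f0, f36⟩ := n9_facts
  have h0 : ∀ l, cm (e 0) (e l) = 1 := by
    intro l
    have h := hadd 0 0 l
    rw [f0] at h
    exact mul_eq_left.mp h.symm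
  obtain ⟨c, hc⟩ : ∃ c : Γ, c = cm (e 3) (e 1) := ⟨_, rfl⟩
  have hc3 : c ^ 3 = 1 := by
    have h1 := hadd 3 6 1
    rw [f36, h0, ← f6, hadd 3 3 1, ← hc] at h1
    have h2 : c ^ 3 = c * (c * c) := pow_three c
    rw [h2, ← h1]
  have col : ∀ l, cm (e 1) (e l) ∈ Subgroup.zpowers c → cm (e 3) (e l) ∈ Subgroup.zpowers c →
      ∀ i, cm (e i) (e l) ∈ Subgroup.zpowers c := by
    intro l h1 h3
    apply gen9 (fun i => cm (e i) (e l) ∈ Subgroup.zpowers c) (by rw [h0]; exact Subgroup.one_mem _)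
      h1 h3
    intro i j hi hj
    show cm (e (n9 i j)) (e l) ∈ Subgroup.zpowers c
    rw [hadd]
    exact Subgroup.mul_mem _ hi hj
  have hcm : Subgroup.zpowers c = Subgroup.zpowers c := rfl
  have col1 : ∀ i, cm (e i) (e 1) ∈ Subgroup.zpowers c :=
    col 1 (by rw [cm_self]; exact Subgroup.one_mem _) (by rw [← hc]; exact Subgroup.mem_zpowers c)
  have col3 : ∀ i, cm (e i) (e 3) ∈ Subgroup.zpowers c :=
    col 3 (by rw [cm_anti (e 3) (e 1), ← hc]; exact Subgroup.inv_mem _ (Subgroup.mem_zpowers c))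
      (by rw [cm_self]; exact Subgroup.one_mem _)
  have hall : ∀ i l, cm (e i) (e l) ∈ Subgroup.zpowers c := by
    intro i l
    exact col l (by rw [cm_anti (e l) (e 1)]; exact Subgroup.inv_mem _ (col1 l))
      (by rw [cm_anti (e l) (e 3)]; exact Subgroup.inv_mem _ (col3 l)) i
  refine ⟨c, hc3, ?_⟩
  intro z hzS hz
  have hnf : ∀ s ∈ S, ∃ i, ∃ k ∈ Subgroup.center Γ, s = e i * k := by
    intro s hs
    obtain ⟨i, hi⟩ := hS s hs
    refine ⟨i, (e i)⁻¹ * s, hker ?_, by group⟩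
    rw [MonoidHom.mem_ker, map_mul, map_inv, he, hi, inv_mul_cancel]
  have main : ∀ x ∈ S, ∀ y ∈ S, cm x y ∈ Subgroup.zpowers c := by
    intro x hx y hy
    obtain ⟨i, k, hk, rfl⟩ := hnf x hx
    obtain ⟨j, k', hk', rfl⟩ := hnf y hy
    rw [cm_central_left _ _ _ hk, cm_central_right _ _ _ hk']
    exact hall i j
  have hle : commutator ↥S ≤ (Subgroup.zpowers c).subgroupOf S := by
    rw [commutator_eq_closure, Subgroup.closure_le]
    rintro _ ⟨x, y, rfl⟩
    rw [SetLike.mem_coe, Subgroup.mem_subgroupOf]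
    exact main x.1 x.2 y.1 y.2
  exact Subgroup.mem_subgroupOf.mp (hle hz)

/-! ## Kernels of order at most three, and lifting universes -/

theorem card_z3 : Nat.card (Multiplicative (ZMod 3)) = 3 := by
  rw [Nat.card_eq_fintype_card]
  rfl

theorem exists_pi3 {Γ : Type*} [Group Γ] [Finite Γ] (K : Subgroup Γ) (c : Γ) (hc : c ^ 3 = 1)
    (h : K ≤ Subgroup.zpowers c) :
    ∃ π : Multiplicative (ZMod 3) →* ↥K, Function.Surjective π := by
  have hdvd : Nat.card K ∣ 3 := by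
    have h1 : Nat.card K ∣ Nat.card (Subgroup.zpowers c) := Subgroup.card_dvd_of_le h
    rw [Nat.card_zpowers] at h1
    exact h1.trans (orderOf_dvd_of_pow_eq_one hc)
  rcases (Nat.dvd_prime Nat.prime_three).mp hdvd with h1 | h3
  · refine ⟨1, ?_⟩
    have hsub : Subsingleton ↥K := (Nat.card_eq_one_iff_unique.mp h1).1
    intro x
    exact ⟨1, Subsingleton.elim _ _⟩
  · have hp : Fact (Nat.Prime 3) := ⟨Nat.prime_three⟩
    exact ⟨(mulEquivOfPrimeCardEq card_z3 h3).toMonoidHom,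
      (mulEquivOfPrimeCardEq card_z3 h3).surjective⟩

universe u

theorem ulift_stem {G : Type u} [Group G] {Γ₀ : Type} [Group Γ₀] [Finite Γ₀] (σ₀ : Γ₀ →* G)
    (h : IsStemExtension σ₀) (hc : Nat.card σ₀.ker = 3) :
    ∃ (Γ : Type u) (_ : Group Γ) (_ : Finite Γ) (σ : Γ →* G),
      IsStemExtension σ ∧ Nonempty (σ.ker ≃* Multiplicative (ZMod 3)) := by
  obtain ⟨hsurj₀, hcen₀, hcom₀⟩ := h
  let σ : ULift.{u} Γ₀ →* G := σ₀.comp (MulEquiv.ulift (α := Γ₀)).toMonoidHom
  have hσ : ∀ x : ULift.{u} Γ₀, σ x = σ₀ x.down := fun x => rfl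
  have hkerσ : ∀ x : ULift.{u} Γ₀, x ∈ σ.ker ↔ x.down ∈ σ₀.ker := by
    intro x
    rw [MonoidHom.mem_ker, MonoidHom.mem_ker, hσ]
  have hsurj : Function.Surjective σ := by
    intro g
    obtain ⟨y, hy⟩ := hsurj₀ g
    exact ⟨ULift.up y, hy⟩
  have hcen : σ.ker ≤ Subgroup.center (ULift.{u} Γ₀) := by
    intro x hx
    rw [hkerσ] at hx
    rw [Subgroup.mem_center_iff]
    intro g
    apply ULift.ext
    exact Subgroup.mem_center_iff.mp (hcen₀ hx) g.down
  have hup : ∀ A : Γ₀, A ∈ commutator Γ₀ → ULift.up.{u} A ∈ commutator (ULift.{u} Γ₀) := by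
    intro A hA
    have h := Subgroup.map_commutator (⊤ : Subgroup Γ₀) ⊤
      ((MulEquiv.ulift (α := Γ₀)).symm.toMonoidHom : Γ₀ →* ULift.{u} Γ₀)
    have h2 : ULift.up.{u} A ∈ (commutator Γ₀).map
        ((MulEquiv.ulift (α := Γ₀)).symm.toMonoidHom : Γ₀ →* ULift.{u} Γ₀) :=
      ⟨A, hA, rfl⟩
    have h3 : (commutator Γ₀).map
        ((MulEquiv.ulift (α := Γ₀)).symm.toMonoidHom : Γ₀ →* ULift.{u} Γ₀) ≤
        commutator (ULift.{u} Γ₀) := by
      rw [commutator_def, commutator_def, h]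
      exact Subgroup.commutator_mono le_top le_top
    exact h3 h2
  have hcom : σ.ker ≤ commutator (ULift.{u} Γ₀) := by
    intro x hx
    rw [hkerσ] at hx
    exact hup x.down (hcom₀ hx)
  have hcard : Nat.card ↥σ.ker = 3 := by
    rw [← hc]
    exact Nat.card_congr
      { toFun := fun x => ⟨x.1.down, (hkerσ x.1).mp x.2⟩
        invFun := fun y => ⟨ULift.up y.1, (hkerσ _).mpr y.2⟩
        left_inv := fun x => rfl
        right_inv := fun y => rfl }
  have hp : Fact (Nat.Prime 3) := ⟨Nat.prime_three⟩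
  exact ⟨ULift.{u} Γ₀, inferInstance, inferInstance, σ, ⟨hsurj, hcen, hcom⟩,
    ⟨mulEquivOfPrimeCardEq hcard card_z3⟩⟩

/-! ## The covering group: tables -/

open Cfsg.Agent.Lib.Helper20.Cov9

/-- The special linear group of degree two over the model of the field with nine elements. -/
abbrev SX : Type := Matrix.SpecialLinearGroup (Fin 2) F9

/-- The special linear group of degree three over the model of the field with four elements. -/
abbrev SY : Type := Matrix.SpecialLinearGroup (Fin 3) F4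

/-- Pairs of matrices. -/
abbrev MP : Type := Matrix (Fin 2) (Fin 2) F9 × Matrix (Fin 3) (Fin 3) F4

/-- Decoded first component. -/
def decX (c : ℕ) : Matrix (Fin 2) (Fin 2) F9 := fun i j => dec9 (eX c i j)

/-- Decoded second component. -/
def decY (c : ℕ) : Matrix (Fin 3) (Fin 3) F4 := fun i j => dec4 (eY c i j)

theorem eX_lt (c i j : ℕ) : eX c i j < 16 := by
  unfold eX
  exact lt_of_le_of_lt Nat.and_le_right (by norm_num)

theorem eY_lt (c i j : ℕ) : eY c i j < 4 := by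
  unfold eY
  exact lt_of_le_of_lt Nat.and_le_right (by norm_num)

theorem decX_mul (c d : ℕ) :
    decX c * decX d = fun i j : Fin 2 => dec9 (dotX c d i j) := by
  refine Matrix.ext (fun i j => ?_)
  rw [Matrix.mul_apply, Fin.sum_univ_two]
  show dec9 (eX c i 0) * dec9 (eX d 0 j) + dec9 (eX c i 1) * dec9 (eX d 1 j)
    = dec9 (dotX c d i j)
  have h1 : dec9 (mul9c (eX c i 0) (eX d 0 j)) = dec9 (eX c i 0) * dec9 (eX d 0 j) :=
    s9m ⟨_, eX_lt _ _ _⟩ ⟨_, eX_lt _ _ _⟩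
  have h2 : dec9 (mul9c (eX c i 1) (eX d 1 j)) = dec9 (eX c i 1) * dec9 (eX d 1 j) :=
    s9m ⟨_, eX_lt _ _ _⟩ ⟨_, eX_lt _ _ _⟩
  have h3 : dec9 (add9c (mul9c (eX c i 0) (eX d 0 j)) (mul9c (eX c i 1) (eX d 1 j)))
      = dec9 (mul9c (eX c i 0) (eX d 0 j)) + dec9 (mul9c (eX c i 1) (eX d 1 j)) :=
    s9a ⟨_, b9m ⟨_, eX_lt _ _ _⟩ ⟨_, eX_lt _ _ _⟩⟩ ⟨_, b9m ⟨_, eX_lt _ _ _⟩ ⟨_, eX_lt _ _ _⟩⟩
  rw [← h1, ← h2, ← h3]
  rfl

theorem decY_mul (c d : ℕ) :
    decY c * decY d = fun i j : Fin 3 => dec4 (dotY c d i j) := by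
  refine Matrix.ext (fun i j => ?_)
  rw [Matrix.mul_apply, Fin.sum_univ_three]
  show dec4 (eY c i 0) * dec4 (eY d 0 j) + dec4 (eY c i 1) * dec4 (eY d 1 j)
    + dec4 (eY c i 2) * dec4 (eY d 2 j) = dec4 (dotY c d i j)
  have h1 : dec4 (mul4c (eY c i 0) (eY d 0 j)) = dec4 (eY c i 0) * dec4 (eY d 0 j) :=
    s4m ⟨_, eY_lt _ _ _⟩ ⟨_, eY_lt _ _ _⟩
  have h2 : dec4 (mul4c (eY c i 1) (eY d 1 j)) = dec4 (eY c i 1) * dec4 (eY d 1 j) :=
    s4m ⟨_, eY_lt _ _ _⟩ ⟨_, eY_lt _ _ _⟩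
  have h2' : dec4 (mul4c (eY c i 2) (eY d 2 j)) = dec4 (eY c i 2) * dec4 (eY d 2 j) :=
    s4m ⟨_, eY_lt _ _ _⟩ ⟨_, eY_lt _ _ _⟩
  have h3 : dec4 (add4c (mul4c (eY c i 0) (eY d 0 j)) (mul4c (eY c i 1) (eY d 1 j)))
      = dec4 (mul4c (eY c i 0) (eY d 0 j)) + dec4 (mul4c (eY c i 1) (eY d 1 j)) :=
    s4a ⟨_, b4m ⟨_, eY_lt _ _ _⟩ ⟨_, eY_lt _ _ _⟩⟩ ⟨_, b4m ⟨_, eY_lt _ _ _⟩ ⟨_, eY_lt _ _ _⟩⟩
  have h4 : dec4 (add4c (add4c (mul4c (eY c i 0) (eY d 0 j)) (mul4c (eY c i 1) (eY d 1 j)))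
        (mul4c (eY c i 2) (eY d 2 j)))
      = dec4 (add4c (mul4c (eY c i 0) (eY d 0 j)) (mul4c (eY c i 1) (eY d 1 j)))
        + dec4 (mul4c (eY c i 2) (eY d 2 j)) :=
    s4a ⟨_, b4a ⟨_, b4m ⟨_, eY_lt _ _ _⟩ ⟨_, eY_lt _ _ _⟩⟩
      ⟨_, b4m ⟨_, eY_lt _ _ _⟩ ⟨_, eY_lt _ _ _⟩⟩⟩ ⟨_, b4m ⟨_, eY_lt _ _ _⟩ ⟨_, eY_lt _ _ _⟩⟩
  rw [← h1, ← h2, ← h2', ← h3, ← h4]
  rfl

/-- The table of pairs of matrices. -/
def TM (n : Fin 2160) : MP := (decX (pm n), decY (pm n))

/-- The first generator. -/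
def g1 : SX × SY := (⟨x1m, det_gens.1⟩, ⟨y1m, det_gens.2.1⟩)

/-- The second generator. -/
def g2 : SX × SY := (⟨x2m, det_gens.2.2.1⟩, ⟨y2m, det_gens.2.2.2⟩)

/-- The underlying pair of matrices. -/
def vl (γ : SX × SY) : MP := (γ.1.val, γ.2.val)

theorem vl_mul (γ δ : SX × SY) : vl (γ * δ) = vl γ * vl δ := rfl

theorem vl_one : vl 1 = 1 := rfl

theorem vl_inj : Function.Injective vl := by
  intro γ δ h
  exact Prod.ext (Subtype.ext (congrArg Prod.fst h)) (Subtype.ext (congrArg Prod.snd h))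

theorem decX_G1 : decX G1c = x1m := hGen.1.symm

theorem decY_G1 : decY G1c = y1m := hGen.2.1.symm

theorem decX_G2 : decX G2c = x2m := hGen.2.2.1.symm

theorem decY_G2 : decY G2c = y2m := hGen.2.2.2.symm

theorem TM_g1 (n : Fin 2160) : TM n * vl g1 = TM (s1 n) := by
  apply Prod.ext
  · show decX (pm n) * x1m = decX (pm (s1 n))
    rw [← decX_G1, decX_mul]
    funext i j
    exact congrArg dec9 ((hS1 n).1 i j)
  · show decY (pm n) * y1m = decY (pm (s1 n))
    rw [← decY_G1, decY_mul]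
    funext i j
    exact congrArg dec4 ((hS1 n).2 i j)

theorem TM_g2 (n : Fin 2160) : TM n * vl g2 = TM (s2 n) := by
  apply Prod.ext
  · show decX (pm n) * x2m = decX (pm (s2 n))
    rw [← decX_G2, decX_mul]
    funext i j
    exact congrArg dec9 ((hS2 n).1 i j)
  · show decY (pm n) * y2m = decY (pm (s2 n))
    rw [← decY_G2, decY_mul]
    funext i j
    exact congrArg dec4 ((hS2 n).2 i j)

theorem TM_zero : TM 0 = 1 := by
  obtain ⟨d1, d0, e1, e0⟩ := dec_consts
  apply Prod.ext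
  · show decX (pm 0) = 1
    refine Matrix.ext (fun i j => ?_)
    show dec9 (eX (pm 0) i j) = (1 : Matrix (Fin 2) (Fin 2) F9) i j
    have h := hOne.1 i j
    have h' : eX (pm 0) i j = if i = j then 1 else 0 := h
    rw [h', Matrix.one_apply]
    by_cases hij : i = j
    · rw [if_pos hij, if_pos hij, d1]
    · rw [if_neg hij, if_neg hij, d0]
  · show decY (pm 0) = 1
    refine Matrix.ext (fun i j => ?_)
    show dec4 (eY (pm 0) i j) = (1 : Matrix (Fin 3) (Fin 3) F4) i j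
    have h' : eY (pm 0) i j = if i = j then 1 else 0 := hOne.2 i j
    rw [h', Matrix.one_apply]
    by_cases hij : i = j
    · rw [if_pos hij, if_pos hij, e1]
    · rw [if_neg hij, if_neg hij, e0]

/-- The elements all of whose translates of the table stay in the table. -/
def K0 : Subgroup (SX × SY) where
  carrier := {γ | ∀ n, ∃ m, TM n * vl γ = TM m}
  mul_mem' := by
    intro γ δ hγ hδ n
    obtain ⟨m, hm⟩ := hγ n
    obtain ⟨m', hm'⟩ := hδ m
    exact ⟨m', by rw [vl_mul, ← mul_assoc, hm, hm']⟩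
  one_mem' := fun n => ⟨n, by rw [vl_one, mul_one]⟩
  inv_mem' := by
    intro γ hγ n
    have hcancel : ∀ r : MP, r * vl γ * vl γ⁻¹ = r := by
      intro r
      rw [mul_assoc, ← vl_mul, mul_inv_cancel, vl_one, mul_one]
    let f : Set.range TM → Set.range TM := fun r =>
      ⟨r.1 * vl γ, by
        obtain ⟨k, hk⟩ := r.2
        obtain ⟨m, hm⟩ := hγ k
        exact ⟨m, by rw [← hk]; exact hm.symm⟩⟩
    have hinj : Function.Injective f := by
      intro r r' h
      have h1 : r.1 * vl γ = r'.1 * vl γ := congrArg Subtype.val h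
      apply Subtype.ext
      rw [← hcancel r.1, h1, hcancel]
    have hsurj : Function.Surjective f := Finite.injective_iff_surjective.mp hinj
    obtain ⟨r', hr'⟩ := hsurj ⟨TM n, n, rfl⟩
    have h2 : r'.1 * vl γ = TM n := congrArg Subtype.val hr'
    obtain ⟨m', hm'⟩ := r'.2
    exact ⟨m', by rw [← h2, hcancel, hm']⟩

/-- The covering group. -/
def Γ0 : Subgroup (SX × SY) := Subgroup.closure {g1, g2}

theorem g1_mem : g1 ∈ Γ0 := Subgroup.subset_closure (Set.mem_insert _ _)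

theorem g2_mem : g2 ∈ Γ0 := Subgroup.subset_closure (Set.mem_insert_of_mem _ rfl)

theorem Γ0_le : Γ0 ≤ K0 := by
  rw [Γ0, Subgroup.closure_le]
  intro γ hγ
  rcases hγ with rfl | rfl
  · exact fun n => ⟨s1 n, TM_g1 n⟩
  · exact fun n => ⟨s2 n, TM_g2 n⟩

theorem Γ0_vl (γ : SX × SY) (hγ : γ ∈ Γ0) : ∃ m, vl γ = TM m := by
  obtain ⟨m, hm⟩ := Γ0_le hγ 0
  rw [TM_zero, one_mul] at hm
  exact ⟨m, hm⟩

theorem tree (n : Fin 2160) : ∃ γ ∈ Γ0, vl γ = TM n := by
  have key : ∀ k : ℕ, ∀ n : Fin 2160, n.val = k → ∃ γ ∈ Γ0, vl γ = TM n := by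
    intro k
    induction k using Nat.strong_induction_on with
    | _ k ih =>
      intro n hn
      by_cases h0 : n = 0
      · exact ⟨1, Subgroup.one_mem _, by rw [h0, vl_one, TM_zero]⟩
      · obtain ⟨hlt, hs⟩ := hPar n h0
        obtain ⟨γ', hγ', hv⟩ := ih (par n).val (by rw [← hn]; exact hlt) (par n) rfl
        by_cases hg : gen n = 0
        · rw [if_pos hg] at hs
          exact ⟨γ' * g1, Subgroup.mul_mem _ hγ' g1_mem, by rw [vl_mul, hv, TM_g1, hs]⟩
        · rw [if_neg hg] at hs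
          exact ⟨γ' * g2, Subgroup.mul_mem _ hγ' g2_mem, by rw [vl_mul, hv, TM_g2, hs]⟩
  exact key n.val n rfl

/-- The product of the generators along a word. -/
def prodW (w : List (Fin 2)) : SX × SY := (w.map (fun l => if l = 0 then g1 else g2)).prod

theorem prodW_mem (w : List (Fin 2)) : prodW w ∈ Γ0 :=
  Subgroup.list_prod_mem _ (by
    intro g hg
    obtain ⟨l, -, rfl⟩ := List.mem_map.mp hg
    by_cases hl : l = 0
    · rw [if_pos hl]; exact g1_mem
    · rw [if_neg hl]; exact g2_mem)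

theorem walk_spec (w : List (Fin 2)) : ∀ n : Fin 2160, TM n * vl (prodW w) = TM (walk n w) := by
  induction w with
  | nil =>
    intro n
    show TM n * vl 1 = TM n
    rw [vl_one, mul_one]
  | cons g w ih =>
    intro n
    show TM n * vl ((if g = 0 then g1 else g2) * prodW w) = TM (walk (if g = 0 then s1 n else s2 n) w)
    rw [vl_mul, ← mul_assoc]
    by_cases hg : g = 0
    · rw [if_pos hg, if_pos hg, TM_g1, ih]
    · rw [if_neg hg, if_neg hg, TM_g2, ih]

theorem prodW_vl (w : List (Fin 2)) : vl (prodW w) = TM (walk 0 w) := by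
  have h := walk_spec w 0
  rw [TM_zero, one_mul] at h
  exact h

/-! ## The covering group: the kernel -/

/-- The scalar matrix of order three. -/
def omY : Matrix (Fin 3) (Fin 3) F4 := !![⟨0, 1⟩, 0, 0; 0, ⟨0, 1⟩, 0; 0, 0, ⟨0, 1⟩]

theorem omY_det : omY.det = 1 := by
  simp only [Matrix.det_fin_three]
  decide +kernel

/-- The central element of order three. -/
def omP : SX × SY := (1, ⟨omY, omY_det⟩)

theorem omY_smul : omY = (⟨0, 1⟩ : F4) • (1 : Matrix (Fin 3) (Fin 3) F4) := by decide +kernel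

theorem omY_mul (M : Matrix (Fin 3) (Fin 3) F4) : omY * M = (⟨0, 1⟩ : F4) • M := by
  rw [omY_smul, Matrix.smul_mul, one_mul]

theorem omY_comm (M : Matrix (Fin 3) (Fin 3) F4) : omY * M = M * omY := by
  rw [omY_smul, Matrix.smul_mul, Matrix.mul_smul, one_mul, mul_one]

theorem omP_central (γ : SX × SY) : omP * γ = γ * omP := by
  apply vl_inj
  apply Prod.ext
  · show (1 : Matrix (Fin 2) (Fin 2) F9) * γ.1.val = γ.1.val * 1
    rw [one_mul, mul_one]
  · show omY * γ.2.val = γ.2.val * omY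
    exact omY_comm _

theorem omP_facts : omP * omP * omP = 1 ∧ omP ≠ 1 := by decide +kernel

theorem dec4_diag :
    ((Matrix.of fun i j : Fin 3 => dec4 (if i = j then 1 else 0)) =
      (1 : Matrix (Fin 3) (Fin 3) F4)) ∧
    ((Matrix.of fun i j : Fin 3 => dec4 (if i = j then 2 else 0)) = omY) ∧
    ((Matrix.of fun i j : Fin 3 => dec4 (if i = j then 3 else 0)) = omY * omY) ∧
    dec4 2 = (⟨0, 1⟩ : F4) := by
  decide +kernel

theorem valid01 : (1 &&& 3 < 3 ∧ 1 >>> 2 < 3) ∧ (0 &&& 3 < 3 ∧ 0 >>> 2 < 3) := by decide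

theorem eX_of_dec (n : Fin 2160) (i j : Fin 2) (e : ℕ) (he : e = 1 ∨ e = 0)
    (h : dec9 (eX (pm n) i j) = dec9 e) : eX (pm n) i j = e := by
  have hv := hValid n i j
  have he16 : e < 16 := by rcases he with rfl | rfl <;> norm_num
  have hev : e &&& 3 < 3 ∧ e >>> 2 < 3 := by
    rcases he with rfl | rfl
    · exact valid01.1
    · exact valid01.2
  have h1 := dec9_inj ⟨eX (pm n) i j, eX_lt _ _ _⟩ ⟨e, he16⟩ hv.1 hv.2 hev.1 hev.2 h
  exact congrArg Fin.val h1

theorem ker_cases (γ : SX × SY) (hγ : γ ∈ Γ0) (h1 : γ.1 = 1) :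
    γ = 1 ∨ γ = omP ∨ γ = omP * omP := by
  obtain ⟨d1, d0, -, -⟩ := dec_consts
  obtain ⟨q1, q2, q3, -⟩ := dec4_diag
  obtain ⟨m, hm⟩ := Γ0_vl γ hγ
  have hX : decX (pm m) = 1 := by
    have h2 : (vl γ).1 = (1 : Matrix (Fin 2) (Fin 2) F9) := by
      show γ.1.val = 1
      rw [h1]
      rfl
    rw [hm] at h2
    exact h2
  have hY : γ.2.val = decY (pm m) := by
    have h2 : (vl γ).2 = (TM m).2 := by rw [hm]
    exact h2
  have hXe : ∀ i j : Fin 2, eX (pm m) i j = if i = j then 1 else 0 := by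
    intro i j
    have h3 : dec9 (eX (pm m) i j) = (1 : Matrix (Fin 2) (Fin 2) F9) i j := congrFun (congrFun hX i) j
    rw [Matrix.one_apply] at h3
    by_cases hij : i = j
    · rw [if_pos hij] at h3 ⊢
      exact eX_of_dec m i j 1 (Or.inl rfl) (by rw [h3, d1])
    · rw [if_neg hij] at h3 ⊢
      exact eX_of_dec m i j 0 (Or.inr rfl) (by rw [h3, d0])
  have hfst : γ.1 = (1 : SX × SY).1 := h1
  rcases hKer m hXe with h | h | h
  · left
    apply Prod.ext hfst
    apply Subtype.ext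
    rw [hY]
    refine Matrix.ext (fun i j => ?_)
    show dec4 (eY (pm m) i j) = (1 : Matrix (Fin 3) (Fin 3) F4) i j
    rw [h i j]
    exact congrFun (congrFun q1 i) j
  · right; left
    refine Prod.ext (?_ : γ.1 = omP.1) ?_
    · exact h1
    apply Subtype.ext
    rw [hY]
    refine Matrix.ext (fun i j => ?_)
    show dec4 (eY (pm m) i j) = omY i j
    rw [h i j]
    exact congrFun (congrFun q2 i) j
  · right; right
    apply Prod.ext
    · show γ.1 = omP.1 * omP.1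
      rw [h1]
      exact (mul_one (1 : SX)).symm
    · apply Subtype.ext
      rw [hY]
      refine Matrix.ext (fun i j => ?_)
      show dec4 (eY (pm m) i j) = (omY * omY) i j
      rw [h i j]
      exact congrFun (congrFun q3 i) j

theorem comm_witness : prodW wu * prodW wv = omP * (prodW wv * prodW wu) := by
  obtain ⟨-, -, -, q4⟩ := dec4_diag
  apply vl_inj
  have hu := prodW_vl wu
  have hv := prodW_vl wv
  have h1 : vl (prodW wu * prodW wv) = TM (walk (walk 0 wu) wv) := by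
    rw [vl_mul, hu, walk_spec]
  have h2 : vl (prodW wv * prodW wu) = TM (walk (walk 0 wv) wu) := by
    rw [vl_mul, hv, walk_spec]
  rw [h1, vl_mul, h2]
  apply Prod.ext
  · show decX (pm (walk (walk 0 wu) wv)) = 1 * decX (pm (walk (walk 0 wv) wu))
    rw [one_mul]
    refine Matrix.ext (fun i j => ?_)
    exact congrArg dec9 (hComm.1 i j)
  · show decY (pm (walk (walk 0 wu) wv)) = omY * decY (pm (walk (walk 0 wv) wu))
    rw [omY_mul]
    refine Matrix.ext (fun i j => ?_)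
    show dec4 (eY (pm (walk (walk 0 wu) wv)) i j)
      = (⟨0, 1⟩ : F4) * dec4 (eY (pm (walk (walk 0 wv) wu)) i j)
    rw [hComm.2 i j, ← q4]
    exact s4m ⟨2, by norm_num⟩ ⟨_, eY_lt _ _ _⟩

theorem omP_mem : omP ∈ Γ0 := by
  have h := comm_witness
  have h2 : omP = prodW wu * prodW wv * (prodW wv * prodW wu)⁻¹ := by
    rw [h, mul_inv_cancel_right]
  rw [h2]
  exact Subgroup.mul_mem _ (Subgroup.mul_mem _ (prodW_mem wu) (prodW_mem wv))
    (Subgroup.inv_mem _ (Subgroup.mul_mem _ (prodW_mem wv) (prodW_mem wu)))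

open scoped commutatorElement in
theorem omP_comm : (⟨omP, omP_mem⟩ : ↥Γ0) ∈ commutator ↥Γ0 := by
  have h : (⟨omP, omP_mem⟩ : ↥Γ0) = ⁅(⟨prodW wu, prodW_mem wu⟩ : ↥Γ0), ⟨prodW wv, prodW_mem wv⟩⁆ := by
    apply Subtype.ext
    rw [commutatorElement_def]
    show omP = prodW wu * prodW wv * (prodW wu)⁻¹ * (prodW wv)⁻¹
    rw [comm_witness]
    group
  rw [h]
  exact Subgroup.commutator_mem_commutator (Subgroup.mem_top _) (Subgroup.mem_top _)

theorem finite_Γ0 : Finite ↥Γ0 := by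
  have hinj : Function.Injective (fun γ : ↥Γ0 => (⟨vl γ.1, by
      obtain ⟨m, hm⟩ := Γ0_vl γ.1 γ.2
      exact ⟨m, hm.symm⟩⟩ : Set.range TM)) := by
    intro γ δ h
    exact Subtype.ext (vl_inj (congrArg Subtype.val h))
  exact Finite.of_injective _ hinj

theorem key_inj : Function.Injective (fun k : Fin 720 => key (pm (rr k))) := by
  have h : StrictMono (fun k : Fin 720 => key (pm (rr k))) :=
    Fin.strictMono_iff_lt_succ.mpr hKey
  exact h.injective

theorem decX_rr_inj (k l : Fin 720) (h : decX (pm (rr k)) = decX (pm (rr l))) : k = l := by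
  apply key_inj
  have he : ∀ i j : Fin 2, eX (pm (rr k)) i j = eX (pm (rr l)) i j := by
    intro i j
    have h1 : dec9 (eX (pm (rr k)) i j) = dec9 (eX (pm (rr l)) i j) := congrFun (congrFun h i) j
    have hv := hValid (rr k) i j
    have hv' := hValid (rr l) i j
    have h2 := dec9_inj ⟨_, eX_lt _ _ _⟩ ⟨_, eX_lt _ _ _⟩ hv.1 hv.2 hv'.1 hv'.2 h1
    exact congrArg Fin.val h2
  show key (pm (rr k)) = key (pm (rr l))
  unfold key
  have e00 := he 0 0
  have e01 := he 0 1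
  have e10 := he 1 0
  have e11 := he 1 1
  have e00' : eX (pm (rr k)) 0 0 = eX (pm (rr l)) 0 0 := e00
  have e01' : eX (pm (rr k)) 0 1 = eX (pm (rr l)) 0 1 := e01
  have e10' : eX (pm (rr k)) 1 0 = eX (pm (rr l)) 1 0 := e10
  have e11' : eX (pm (rr k)) 1 1 = eX (pm (rr l)) 1 1 := e11
  rw [e00', e01', e10', e11']

/-! ## A quaternion group of order sixteen -/

/-- An element of order eight. -/
def qa : SX := ⟨!![⟨1, 1⟩, 0; 0, ⟨2, 1⟩], by simp only [Matrix.det_fin_two]; decide +kernel⟩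

/-- An element of order four. -/
def qb : SX := ⟨!![0, 1; ⟨2, 0⟩, 0], by simp only [Matrix.det_fin_two]; decide +kernel⟩

/-- Elements of the quaternion group. -/
def tQ (n : Fin 16) : SX := qa ^ (n.val / 2) * qb ^ (n.val % 2)

/-- Multiplication table of the quaternion group. -/
def mQ (i j : Fin 16) : Fin 16 :=
  Fin.ofNat 16 (2 * ((i.val / 2 + (if i.val % 2 = 1 then 7 else 1) * (j.val / 2)
    + (if i.val % 2 = 1 ∧ j.val % 2 = 1 then 4 else 0)) % 8) + (i.val % 2 + j.val % 2) % 2)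

/-- Inverses in the quaternion group. -/
def ivQ (i : Fin 16) : Fin 16 :=
  Fin.ofNat 16 (if i.val % 2 = 0 then 2 * ((8 - i.val / 2) % 8) else 2 * ((i.val / 2 + 4) % 8) + 1)

theorem hq16 : qa ^ 8 = 1 ∧ qa ^ 4 ≠ 1 ∧ qb * qb = qa ^ 4 ∧ qb * qa = qa ^ 7 * qb := by
  decide +kernel

theorem hmulQ : ∀ i j : Fin 16, tQ i * tQ j = tQ (mQ i j) := by decide +kernel

theorem honeQ : tQ 0 = 1 := by decide +kernel

theorem hinvQ : ∀ i : Fin 16, mQ i (ivQ i) = 0 := by decide +kernel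

theorem hinjQ : ∀ i j : Fin 16, tQ i = tQ j → i = j := by decide +kernel

theorem hsq720 : ∀ p : Fin 27, 3 < p.val → p.val ≠ 4 → p.val ≠ 6 → p.val ≠ 12 →
    ¬ p.val ^ 2 ∣ 720 := by decide +kernel

/-- The elements of the model of the field with nine elements. -/
def e9 (n : Fin 9) : F9 := ⟨((n.val / 3 : ℕ) : ZMod 3), ((n.val % 3 : ℕ) : ZMod 3)⟩

theorem e9_add : ∀ i j : Fin 9, e9 i + e9 j = e9 (n9 i j) := by decide +kernel

theorem e9_inj : ∀ i j : Fin 9, e9 i = e9 j → i = j := by decide +kernel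

/-! ## Transfer to an arbitrary field with nine elements -/

theorem zmod3_sq : ∀ r i : ZMod 3, r ^ 2 + i ^ 2 = 0 → r = 0 ∧ i = 0 := by decide

section Transfer

variable {F : Type u} [Field F] [CharP F 3]

/-- The embedding of the model into a field of characteristic three containing a square root
of `-1`. -/
noncomputable def iota (I : F) (hI : I ^ 2 = -1) : F9 →+* F where
  toFun z := ZMod.castHom (dvd_refl 3) F z.re + ZMod.castHom (dvd_refl 3) F z.im * I
  map_one' := by simp [QuadraticAlgebra.re_one, QuadraticAlgebra.im_one]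
  map_mul' z w := by
    simp only [QuadraticAlgebra.re_mul, QuadraticAlgebra.im_mul, map_add, map_mul, map_neg,
      map_one, map_zero]
    linear_combination (-(ZMod.castHom (dvd_refl 3) F z.im * ZMod.castHom (dvd_refl 3) F w.im))
      * hI
  map_zero' := by simp
  map_add' z w := by
    simp only [QuadraticAlgebra.re_add, QuadraticAlgebra.im_add, map_add]
    ring

theorem iota_apply (I : F) (hI : I ^ 2 = -1) (z : F9) :
    iota I hI z = ZMod.castHom (dvd_refl 3) F z.re + ZMod.castHom (dvd_refl 3) F z.im * I := rfl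

theorem iota_inj (I : F) (hI : I ^ 2 = -1) : Function.Injective (iota I hI) := by
  have : Fact (Nat.Prime 3) := ⟨Nat.prime_three⟩
  rw [injective_iff_map_eq_zero]
  rintro ⟨r, i⟩ h
  rw [iota_apply] at h
  have h1 : ZMod.castHom (dvd_refl 3) F (r ^ 2 + i ^ 2) = 0 := by
    simp only [map_add, map_pow]
    linear_combination (ZMod.castHom (dvd_refl 3) F r - ZMod.castHom (dvd_refl 3) F i * I) * h
      + (ZMod.castHom (dvd_refl 3) F i) ^ 2 * hI
  have h2 : r ^ 2 + i ^ 2 = 0 := by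
    have hinj : Function.Injective (ZMod.castHom (dvd_refl 3) F) := RingHom.injective _
    exact hinj (by rw [h1, map_zero])
  obtain ⟨rfl, rfl⟩ := zmod3_sq r i h2
  rfl

/-- The induced map of special linear groups. -/
noncomputable def PhiM (I : F) (hI : I ^ 2 = -1) :
    SX →* Matrix.SpecialLinearGroup (Fin 2) F :=
  Matrix.SpecialLinearGroup.map (n := Fin 2) (iota I hI)

theorem PhiM_inj (I : F) (hI : I ^ 2 = -1) : Function.Injective (PhiM I hI) := by
  intro M M' h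
  apply Subtype.ext
  apply Matrix.ext
  intro i j
  have h1 := congrArg (fun g : Matrix.SpecialLinearGroup (Fin 2) F => g.1 i j) h
  exact iota_inj I hI h1

/-- The covering map. -/
noncomputable def sig0 (I : F) (hI : I ^ 2 = -1) :
    ↥Γ0 →* Matrix.SpecialLinearGroup (Fin 2) F :=
  (PhiM I hI).comp ((MonoidHom.fst SX SY).comp Γ0.subtype)

theorem sig0_apply (I : F) (hI : I ^ 2 = -1) (γ : ↥Γ0) : sig0 I hI γ = PhiM I hI γ.1.1 := rfl

theorem sig0_ker (I : F) (hI : I ^ 2 = -1) (γ : ↥Γ0) (h : γ ∈ (sig0 I hI).ker) :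
    γ = 1 ∨ γ = ⟨omP, omP_mem⟩ ∨ γ = ⟨omP, omP_mem⟩ * ⟨omP, omP_mem⟩ := by
  rw [MonoidHom.mem_ker, sig0_apply] at h
  have h1 : γ.1.1 = 1 := PhiM_inj I hI (by rw [h, map_one])
  rcases ker_cases γ.1 γ.2 h1 with h2 | h2 | h2
  · left; exact Subtype.ext h2
  · right; left; exact Subtype.ext h2
  · right; right; exact Subtype.ext h2

omit [CharP F 3] in
theorem card_SLF [Fintype F] (hF : Fintype.card F = 9) :
    Nat.card (Matrix.SpecialLinearGroup (Fin 2) F) = 720 := by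
  rw [Cfsg.Agent.Lib.Helper3.card_SL2_eq, hF]
  norm_num

theorem sig0_surj [Fintype F] (hF : Fintype.card F = 9) (I : F) (hI : I ^ 2 = -1) :
    Function.Surjective (sig0 I hI) := by
  classical
  have hfin : Finite (Matrix.SpecialLinearGroup (Fin 2) F) :=
    Nat.finite_of_card_ne_zero (by rw [card_SLF hF]; norm_num)
  let f : Fin 720 → Matrix.SpecialLinearGroup (Fin 2) F := fun k =>
    sig0 I hI ⟨(tree (rr k)).choose, (tree (rr k)).choose_spec.1⟩
  have hf : Function.Injective f := by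
    intro k l h
    have h1 : ((tree (rr k)).choose).1 = ((tree (rr l)).choose).1 := PhiM_inj I hI h
    apply decX_rr_inj
    have hk := congrArg Prod.fst (tree (rr k)).choose_spec.2
    have hl := congrArg Prod.fst (tree (rr l)).choose_spec.2
    have h2 : ((tree (rr k)).choose).1.val = ((tree (rr l)).choose).1.val :=
      congrArg Subtype.val h1
    exact hk.symm.trans (h2.trans hl)
  have hbij : Function.Bijective f := by
    apply Function.Injective.bijective_of_nat_card_le hf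
    rw [card_SLF hF, Nat.card_eq_fintype_card, Fintype.card_fin]
  intro g
  obtain ⟨k, hk⟩ := hbij.2 g
  exact ⟨_, hk⟩

theorem sig0_stem [Fintype F] (hF : Fintype.card F = 9) (I : F) (hI : I ^ 2 = -1) :
    IsStemExtension (sig0 I hI) := by
  have hom : ∀ δ : ↥Γ0, δ * ⟨omP, omP_mem⟩ = ⟨omP, omP_mem⟩ * δ :=
    fun δ => Subtype.ext (omP_central δ.1).symm
  refine ⟨sig0_surj hF I hI, ?_, ?_⟩
  · intro γ hγ
    rw [Subgroup.mem_center_iff]
    intro δ
    rcases sig0_ker I hI γ hγ with h | h | h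
    · rw [h, mul_one, one_mul]
    · rw [h]; exact hom δ
    · rw [h, ← mul_assoc, hom δ, mul_assoc, hom δ, mul_assoc]
  · intro γ hγ
    rcases sig0_ker I hI γ hγ with h | h | h
    · rw [h]; exact Subgroup.one_mem _
    · rw [h]; exact omP_comm
    · rw [h]; exact Subgroup.mul_mem _ omP_comm omP_comm

theorem sig0_ker_card (I : F) (hI : I ^ 2 = -1) : Nat.card (sig0 I hI).ker = 3 := by
  have hom_mem : (⟨omP, omP_mem⟩ : ↥Γ0) ∈ (sig0 I hI).ker := by
    rw [MonoidHom.mem_ker, sig0_apply]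
    show PhiM I hI 1 = 1
    exact map_one _
  have ho : orderOf (⟨omP, omP_mem⟩ : ↥Γ0) = 3 := by
    have hp : Fact (Nat.Prime 3) := ⟨Nat.prime_three⟩
    apply orderOf_eq_prime
    · apply Subtype.ext
      show omP ^ 3 = 1
      rw [pow_three']
      exact omP_facts.1
    · intro h
      exact omP_facts.2 (congrArg Subtype.val h)
  have hker : (sig0 I hI).ker = Subgroup.zpowers (⟨omP, omP_mem⟩ : ↥Γ0) := by
    apply le_antisymm
    · intro γ hγ
      rcases sig0_ker I hI γ hγ with h | h | h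
      · rw [h]; exact Subgroup.one_mem _
      · rw [h]; exact Subgroup.mem_zpowers _
      · rw [h]; exact Subgroup.mul_mem _ (Subgroup.mem_zpowers _) (Subgroup.mem_zpowers _)
    · rw [Subgroup.zpowers_le]
      exact hom_mem
  rw [hker, Nat.card_zpowers, ho]

theorem exists_cover [Fintype F] (hF : Fintype.card F = 9) (I : F) (hI : I ^ 2 = -1) :
    ∃ (Γ : Type u) (_ : Group Γ) (_ : Finite Γ) (σ : Γ →* Matrix.SpecialLinearGroup (Fin 2) F),
      IsStemExtension σ ∧ Nonempty (σ.ker ≃* Multiplicative (ZMod 3)) := by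
  have hfin0 : Finite ↥Γ0 := finite_Γ0
  exact ulift_stem (sig0 I hI) (sig0_stem hF I hI) (sig0_ker_card I hI)

/-! ## The bound -/

/-- The subgroup of order sixteen. -/
noncomputable def P2 (I : F) (hI : I ^ 2 = -1) : Subgroup (Matrix.SpecialLinearGroup (Fin 2) F) :=
  tblSubgroup (fun n => PhiM I hI (tQ n)) mQ ivQ 0
    (fun i j => by
      show PhiM I hI (tQ i) * PhiM I hI (tQ j) = PhiM I hI (tQ (mQ i j))
      rw [← map_mul, hmulQ])
    (by
      show PhiM I hI (tQ 0) = 1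
      rw [honeQ, map_one]) hinvQ

theorem card_P2 (I : F) (hI : I ^ 2 = -1) : Nat.card (P2 I hI) = 16 :=
  card_tblSubgroup _ _ _ _ _ _ _ (fun i j h => hinjQ i j (PhiM_inj I hI h))

theorem P2_elts (I : F) (hI : I ^ 2 = -1) (q : Matrix.SpecialLinearGroup (Fin 2) F)
    (hq : q ∈ P2 I hI) :
    ∃ i : ℕ, q = PhiM I hI qa ^ i ∨ q = PhiM I hI qa ^ i * PhiM I hI qb := by
  obtain ⟨n, rfl⟩ := hq
  refine ⟨n.val / 2, ?_⟩
  rcases Nat.mod_two_eq_zero_or_one n.val with h | h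
  · left
    show PhiM I hI (tQ n) = _
    rw [tQ, h, pow_zero, mul_one, map_pow]
  · right
    show PhiM I hI (tQ n) = _
    rw [tQ, h, pow_one, map_mul, map_pow]

theorem two_part [Fintype F] (hF : Fintype.card F = 9) (I : F) (hI : I ^ 2 = -1)
    {Γ : Type*} [Group Γ] [Finite Γ] (σ : Γ →* Matrix.SpecialLinearGroup (Fin 2) F)
    (hsurj : Function.Surjective σ) (hker : σ.ker ≤ Subgroup.center Γ)
    (hcomm : σ.ker ≤ commutator Γ) (z : Γ) (hz : z ∈ σ.ker) (k : ℕ) (hz2 : z ^ (2 ^ k) = 1) :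
    z = 1 := by
  classical
  have hfin : Finite (Matrix.SpecialLinearGroup (Fin 2) F) :=
    Nat.finite_of_card_ne_zero (by rw [card_SLF hF]; norm_num)
  have hP : IsPGroup 2 (P2 I hI) := IsPGroup.of_card (n := 4) (by rw [card_P2]; norm_num)
  have hidx : ¬ 2 ∣ (P2 I hI).index := by
    have h := (P2 I hI).index_mul_card
    rw [card_P2, card_SLF hF] at h
    omega
  obtain ⟨S, hSP⟩ := exists_sylow_map_le σ hsurj 2 (P2 I hI) hP hidx
  obtain ⟨h8, h4, hbb, hba⟩ := hq16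
  have hA8 : PhiM I hI qa ^ 8 = 1 := by rw [← map_pow, h8, map_one]
  have hA4 : PhiM I hI qa ^ 4 ≠ 1 := by
    intro h
    rw [← map_pow] at h
    exact h4 (PhiM_inj I hI (by rw [h, map_one]))
  have hBB : PhiM I hI qb * PhiM I hI qb = PhiM I hI qa ^ 4 := by
    rw [← map_mul, hbb, map_pow]
  have hBA : PhiM I hI qb * PhiM I hI qa * (PhiM I hI qb)⁻¹ = PhiM I hI qa ^ 7 := by
    rw [mul_inv_eq_iff_eq_mul, ← map_mul, hba, map_mul, map_pow]
  obtain ⟨c, hc4, hσc, hcz⟩ := quat_comm σ hsurj hker (PhiM I hI qa) (PhiM I hI qb) hBB hBA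
    (S : Subgroup Γ) (fun s hs => P2_elts I hI _ (hSP s hs))
  have hzS : z ∈ (S : Subgroup Γ) := central_mem_sylow 2 S z (hker hz) k hz2
  have hfoc := focal 2 S z hzS (hker hz) (hcomm hz)
  obtain ⟨n, hn⟩ := Subgroup.mem_zpowers_iff.mp (hcz z hzS hfoc)
  have ho : orderOf (PhiM I hI qa) = 2 ^ (2 + 1) :=
    orderOf_eq_prime_pow (by norm_num; exact hA4) (by norm_num; exact hA8)
  have h9 : PhiM I hI qa ^ (6 * n) = 1 := by
    rw [zpow_mul, ← hσc, ← map_zpow, hn]
    exact MonoidHom.mem_ker.mp hz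
  have h10 : ((orderOf (PhiM I hI qa) : ℕ) : ℤ) ∣ 6 * n := orderOf_dvd_iff_zpow_eq_one.mpr h9
  rw [ho] at h10
  obtain ⟨t, ht⟩ := h10
  obtain ⟨m, hm⟩ : ∃ m : ℤ, n = 4 * m := ⟨n - t, by push_cast at ht; omega⟩
  rw [← hn, hm, zpow_mul, hc4, one_zpow]

theorem other_part [Fintype F] (hF : Fintype.card F = 9)
    {Γ : Type*} [Group Γ] [Finite Γ] (σ : Γ →* Matrix.SpecialLinearGroup (Fin 2) F)
    (hker : σ.ker ≤ Subgroup.center Γ) (hcomm : σ.ker ≤ commutator Γ) (w : Γ)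
    (hwk : w ∈ σ.ker) (p : ℕ) (hp : p.Prime) (hwo : orderOf w = p) (hp2 : p ≠ 2)
    (hp3 : p ≠ 3) : False := by
  classical
  have hfin : Finite (Matrix.SpecialLinearGroup (Fin 2) F) :=
    Nat.finite_of_card_ne_zero (by rw [card_SLF hF]; norm_num)
  have hpf : Fact p.Prime := ⟨hp⟩
  have hZ : IsPGroup p (Subgroup.zpowers w) :=
    IsPGroup.of_card (n := 1) (by rw [Nat.card_zpowers, hwo, pow_one])
  obtain ⟨S, hS⟩ := hZ.exists_le_sylow
  have hwS : w ∈ (S : Subgroup Γ) := hS (Subgroup.mem_zpowers _)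
  have hpsq : ¬ p ^ 2 ∣ Nat.card (Matrix.SpecialLinearGroup (Fin 2) F) := by
    rw [card_SLF hF]
    intro hdvd
    have hlt : p < 27 := by
      by_contra hge
      have h3 := Nat.le_of_dvd (by norm_num) hdvd
      nlinarith
    have hgt : 3 < p := by
      have := hp.two_le
      omega
    have h4 : p ≠ 4 := fun h => by
      rw [h] at hp
      exact absurd hp (by norm_num)
    have h6 : p ≠ 6 := fun h => by
      rw [h] at hp
      exact absurd hp (by norm_num)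
    have h12 : p ≠ 12 := fun h => by
      rw [h] at hp
      exact absurd hp (by norm_num)
    exact hsq720 ⟨p, hlt⟩ hgt h4 h6 h12 hdvd
  have hw1 : w = 1 := transfer_trivial p S
    (fun u v hu hv => sylow_comm_of_sq σ hker p hpsq S u v hu hv)
    w hwS (hker hwk) (hcomm hwk)
  rw [hw1, orderOf_one] at hwo
  exact hp.one_lt.ne' hwo.symm

/-- Unipotent elements. -/
noncomputable def t9 (I : F) (hI : I ^ 2 = -1) (n : Fin 9) :
    Matrix.SpecialLinearGroup (Fin 2) F :=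
  Cfsg.Agent.Lib.Helper3.uSL (Multiplicative.ofAdd (iota I hI (e9 n)))

theorem t9_mul (I : F) (hI : I ^ 2 = -1) (i j : Fin 9) :
    t9 I hI i * t9 I hI j = t9 I hI (n9 i j) := by
  unfold t9
  rw [← map_mul, ← ofAdd_add, ← map_add, e9_add]

theorem e9_surj [Fintype F] (hF : Fintype.card F = 9) (I : F) (hI : I ^ 2 = -1) (x : F) :
    ∃ n : Fin 9, iota I hI (e9 n) = x := by
  have hinj : Function.Injective (fun n : Fin 9 => iota I hI (e9 n)) :=
    fun i j h => e9_inj i j (iota_inj I hI h)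
  have hbij : Function.Bijective (fun n : Fin 9 => iota I hI (e9 n)) := by
    rw [Fintype.bijective_iff_injective_and_card]
    exact ⟨hinj, by rw [Fintype.card_fin, hF]⟩
  exact hbij.2 x

theorem three_part [Fintype F] (hF : Fintype.card F = 9) (I : F) (hI : I ^ 2 = -1)
    {Γ : Type*} [Group Γ] [Finite Γ] (σ : Γ →* Matrix.SpecialLinearGroup (Fin 2) F)
    (hsurj : Function.Surjective σ) (hker : σ.ker ≤ Subgroup.center Γ)
    (hcomm : σ.ker ≤ commutator Γ) :
    ∃ c : Γ, c ^ 3 = 1 ∧ ∀ z ∈ σ.ker, (∃ k : ℕ, z ^ (3 ^ k) = 1) → z ∈ Subgroup.zpowers c := by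
  classical
  have hfin : Finite (Matrix.SpecialLinearGroup (Fin 2) F) :=
    Nat.finite_of_card_ne_zero (by rw [card_SLF hF]; norm_num)
  have hp3 : Fact (Nat.Prime 3) := ⟨Nat.prime_three⟩
  obtain ⟨P₀, hP₀⟩ := Cfsg.Agent.Lib.Helper3.exists_sylow_eq_uSL (F := F) 3
  obtain ⟨S, hSP⟩ := exists_sylow_map_le σ hsurj 3
    (P₀ : Subgroup (Matrix.SpecialLinearGroup (Fin 2) F)) P₀.isPGroup' P₀.not_dvd_index
  obtain ⟨c, hc3, hcz⟩ := abel9_comm σ hsurj hker (t9 I hI) (t9_mul I hI) (S : Subgroup Γ)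
    (fun s hs => by
      have h1 := hSP s hs
      rw [hP₀] at h1
      obtain ⟨x, hx⟩ := h1
      obtain ⟨n, hn⟩ := e9_surj hF I hI (Multiplicative.toAdd x)
      refine ⟨n, ?_⟩
      rw [← hx]
      unfold t9
      rw [hn]
      rfl)
  refine ⟨c, hc3, ?_⟩
  rintro z hz ⟨k, hk⟩
  have hzS : z ∈ (S : Subgroup Γ) := central_mem_sylow 3 S z (hker hz) k hk
  exact hcz z hzS (focal 3 S z hzS (hker hz) (hcomm hz))

theorem ker_le_three [Fintype F] (hF : Fintype.card F = 9) (I : F) (hI : I ^ 2 = -1)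
    {Γ : Type*} [Group Γ] [Finite Γ] (σ : Γ →* Matrix.SpecialLinearGroup (Fin 2) F)
    (hsurj : Function.Surjective σ) (hker : σ.ker ≤ Subgroup.center Γ)
    (hcomm : σ.ker ≤ commutator Γ) :
    ∃ c : Γ, c ^ 3 = 1 ∧ σ.ker ≤ Subgroup.zpowers c := by
  obtain ⟨c, hc3, hc⟩ := three_part hF I hI σ hsurj hker hcomm
  refine ⟨c, hc3, ?_⟩
  intro z hz
  apply hc z hz
  have hpow : orderOf z = 3 ^ (orderOf z).primeFactorsList.length :=
    Nat.eq_prime_pow_of_unique_prime_dvd (orderOf_pos z).ne'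
      (fun {d} hd hdd => by
        by_contra hd3
        have hwo : orderOf (z ^ (orderOf z / d)) = d :=
          orderOf_pow_orderOf_div (orderOf_pos z).ne' hdd
        have hwk : z ^ (orderOf z / d) ∈ σ.ker := Subgroup.pow_mem _ hz _
        obtain ⟨w, hw⟩ : ∃ w, w = z ^ (orderOf z / d) := ⟨_, rfl⟩
        rw [← hw] at hwo hwk
        by_cases hd2 : d = 2
        · have hw2 : w ^ (2 ^ 1) = 1 := by
            have h5 := pow_orderOf_eq_one w
            rw [hwo, hd2] at h5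
            rw [pow_one]
            exact h5
          have hw1 : w = 1 := two_part hF I hI σ hsurj hker hcomm w hwk 1 hw2
          rw [hw1, orderOf_one] at hwo
          exact hd.one_lt.ne' hwo.symm
        · exact other_part hF σ hker hcomm w hwk d hd hwo hd2 hd3)
  exact ⟨_, by rw [← hpow]; exact pow_orderOf_eq_one z⟩

end Transfer

/-- For the field with 9 elements, the special linear group SL₂ has Schur multiplier cyclic of order 3 (here the Schur multiplier is described through stem extensions, as in the definitions). -/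
theorem result {F : Type*} [Field F] [Fintype F] (hF : Fintype.card F = 9) : Cfsg.HasCyclicSchurMultiplier (Matrix.SpecialLinearGroup (Fin 2) F) 3 := by
  classical
  have h9 : ((9 : ℕ) : F) = 0 := by rw [← hF]; exact FiniteField.cast_card_eq_zero F
  have h3 : (3 : F) = 0 := by
    have h33 : (3 : F) * 3 = 0 := by rw [← h9]; norm_num
    exact mul_self_eq_zero.1 h33
  obtain ⟨p, hp⟩ := CharP.exists F
  have hp3 : p ∣ 3 := (CharP.cast_eq_zero_iff F p 3).mp (by exact_mod_cast h3)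
  have hpp : p ≠ 1 := CharP.char_ne_one F p
  have hp3' : p = 3 := ((Nat.dvd_prime Nat.prime_three).mp hp3).resolve_left hpp
  subst hp3'
  obtain ⟨x, hx0, hx1, hx2⟩ : ∃ x : F, x ≠ 0 ∧ x ≠ 1 ∧ x ≠ -1 := by
    by_contra hcon
    push Not at hcon
    have hsub : (Finset.univ : Finset F) ⊆ {0, 1, -1} := fun w _ => by
      by_cases hw : w = 0
      · simp [hw]
      · by_cases hw1 : w = 1
        · simp [hw1]
        · simp [hcon w hw hw1]
    have h5 := Finset.card_le_card hsub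
    rw [Finset.card_univ, hF] at h5
    have h6 : ({0, 1, -1} : Finset F).card ≤ 3 := Finset.card_le_three
    omega
  have hx8 : x ^ 8 = 1 := by
    have h5 := FiniteField.pow_card_sub_one_eq_one x hx0
    rwa [hF] at h5
  obtain ⟨I, hI⟩ : ∃ I : F, I ^ 2 = -1 := by
    have h4 : (x ^ 4 - 1) * (x ^ 4 + 1) = 0 := by linear_combination hx8
    rcases mul_eq_zero.1 h4 with h | h
    · have h2 : (x ^ 2 - 1) * (x ^ 2 + 1) = 0 := by linear_combination h
      rcases mul_eq_zero.1 h2 with h' | h'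
      · exfalso
        have h1 : (x - 1) * (x + 1) = 0 := by linear_combination h'
        rcases mul_eq_zero.1 h1 with h'' | h''
        · exact hx1 (sub_eq_zero.1 h'')
        · exact hx2 (eq_neg_of_add_eq_zero_left h'')
      · exact ⟨x, eq_neg_of_add_eq_zero_left h'⟩
    · exact ⟨x ^ 2, by rw [← pow_mul]; exact eq_neg_of_add_eq_zero_left h⟩
  refine ⟨exists_cover hF I hI, ?_⟩
  intro Γ _ _ σ hσ
  obtain ⟨hsurj, hker, hcomm⟩ := hσ
  obtain ⟨c, hc3, hsub⟩ := ker_le_three hF I hI σ hsurj hker hcomm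
  exact exists_pi3 σ.ker c hc3 hsub

end Cfsg.Agent.S2118
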