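-- Statement S2117: the Schur multiplier of the special linear group of degree two over a finite
-- field with neither four nor nine elements is trivial.
import Cfsg.Statements.S2117
import Cfsg.Agent.S0261
import Cfsg.Agent.S0262
import Cfsg.Agent.S2118

set_option autoImplicit false
open Cfsg

namespace Cfsg.Agent.S2117

open scoped Pointwise
open Cfsg.Agent.S2118 (focal transfer_trivial central_mem_sylow exists_sylow_map_le cm cm_self
  cm_anti cm_conj cm_comm cm_mul_left cm_central_left cm_central_right cm_mul_self cm_lem2)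
open Cfsg.Agent.Lib.Helper3 (uSL uMat)

/-! ## Cyclic Sylow subgroups -/

theorem comm_of_zpow {Γ G : Type*} [Group Γ] [Group G] (σ : Γ →* G)
    (hker : σ.ker ≤ Subgroup.center Γ) (s a b : Γ) (i j : ℤ) (ha : σ a = σ s ^ i)
    (hb : σ b = σ s ^ j) : a * b = b * a := by
  have h1 : (s ^ i)⁻¹ * a ∈ Subgroup.center Γ := hker (by
    rw [MonoidHom.mem_ker, map_mul, map_inv, map_zpow, ha, inv_mul_cancel])
  have h2 : (s ^ j)⁻¹ * b ∈ Subgroup.center Γ := hker (by
    rw [MonoidHom.mem_ker, map_mul, map_inv, map_zpow, hb, inv_mul_cancel])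
  have ea : a = s ^ i * ((s ^ i)⁻¹ * a) := by rw [mul_inv_cancel_left]
  have eb : b = s ^ j * ((s ^ j)⁻¹ * b) := by rw [mul_inv_cancel_left]
  obtain ⟨k1, hk1⟩ : ∃ k, k = (s ^ i)⁻¹ * a := ⟨_, rfl⟩
  obtain ⟨k2, hk2⟩ : ∃ k, k = (s ^ j)⁻¹ * b := ⟨_, rfl⟩
  rw [← hk1] at h1 ea
  rw [← hk2] at h2 eb
  have hk1c : ∀ g, Commute k1 g := fun g => (Subgroup.mem_center_iff.mp h1 g).symm
  have hk2c : ∀ g, Commute k2 g := fun g => (Subgroup.mem_center_iff.mp h2 g).symm
  rw [ea, eb]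
  exact ((((Commute.refl s).zpow_zpow i j).mul_right (hk2c _).symm).mul_left (hk1c _)).eq

theorem cyc_part {Γ G : Type*} [Group Γ] [Group G] [Finite Γ] [Finite G] (σ : Γ →* G)
    (hsurj : Function.Surjective σ) (hker : σ.ker ≤ Subgroup.center Γ)
    (hcomm : σ.ker ≤ commutator Γ) (r : ℕ) [Fact r.Prime] (R : Sylow r G)
    (hcyc : IsCyclic ↥(R : Subgroup G)) (z : Γ) (hz : z ∈ σ.ker) (k : ℕ)
    (hzr : z ^ (r ^ k) = 1) : z = 1 := by
  obtain ⟨S, hSR⟩ := exists_sylow_map_le σ hsurj r (R : Subgroup G) R.isPGroup' R.not_dvd_index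
  obtain ⟨⟨g, hgR⟩, hg⟩ := hcyc.exists_generator
  obtain ⟨s, hs⟩ := hsurj g
  have hab : ∀ a b : Γ, a ∈ (S : Subgroup Γ) → b ∈ (S : Subgroup Γ) → a * b = b * a := by
    intro a b ha hb
    obtain ⟨i, hi⟩ := Subgroup.mem_zpowers_iff.mp (hg ⟨σ a, hSR a ha⟩)
    obtain ⟨j, hj⟩ := Subgroup.mem_zpowers_iff.mp (hg ⟨σ b, hSR b hb⟩)
    have hi' : σ a = σ s ^ i := by
      have h := congrArg Subtype.val hi
      rw [hs]
      exact h.symm
    have hj' : σ b = σ s ^ j := by
      have h := congrArg Subtype.val hj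
      rw [hs]
      exact h.symm
    exact comm_of_zpow σ hker s a b i j hi' hj'
  exact transfer_trivial r S hab z (central_mem_sylow r S z (hker hz) k hzr) (hker hz) (hcomm hz)

/-! ## Generalised quaternion Sylow subgroups -/

theorem quat_comm_gen {Γ G : Type*} [Group Γ] [Group G] (σ : Γ →* G)
    (hsurj : Function.Surjective σ) (hker : σ.ker ≤ Subgroup.center Γ) (a b : G) (n : ℕ)
    (hbb : b * b = a ^ n) (hba : b * a * b⁻¹ = a⁻¹)
    (S : Subgroup Γ) (hS : ∀ s ∈ S, ∃ i : ℤ, σ s = a ^ i ∨ σ s = a ^ i * b) :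
    ∃ c : Γ, c ^ (n : ℤ) = 1 ∧ σ c = a ^ (-2 : ℤ) ∧
      ∀ (z : Γ) (hzS : z ∈ S), (⟨z, hzS⟩ : ↥S) ∈ commutator ↥S → z ∈ Subgroup.zpowers c := by
  obtain ⟨A, hA⟩ := hsurj a
  obtain ⟨B, hB⟩ := hsurj b
  obtain ⟨z1, hz1⟩ : ∃ z1 : Γ, z1 = A * (B * A * B⁻¹) := ⟨_, rfl⟩
  have hz1k : z1 ∈ σ.ker := by
    rw [MonoidHom.mem_ker, hz1, map_mul, map_mul, map_mul, map_inv, hA, hB, hba, mul_inv_cancel]
  have hz1c : z1 ∈ Subgroup.center Γ := hker hz1k
  have hr : B * A * B⁻¹ = A⁻¹ * z1 := by rw [hz1, inv_mul_cancel_left]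
  obtain ⟨z2, hz2⟩ : ∃ z2 : Γ, z2 = (A ^ (n : ℤ))⁻¹ * (B * B) := ⟨_, rfl⟩
  have hz2k : z2 ∈ σ.ker := by
    rw [MonoidHom.mem_ker, hz2, map_mul, map_inv, map_zpow, map_mul, hA, hB, hbb, zpow_natCast,
      inv_mul_cancel]
  have hz2c : z2 ∈ Subgroup.center Γ := hker hz2k
  have hBB : B * B = A ^ (n : ℤ) * z2 := by rw [hz2, mul_inv_cancel_left]
  obtain ⟨c, hc⟩ : ∃ c : Γ, c = A ^ (-2 : ℤ) * z1 := ⟨_, rfl⟩
  have cen : ∀ k ∈ Subgroup.center Γ, ∀ g : Γ, Commute g k :=
    fun k hk g => Subgroup.mem_center_iff.mp hk g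
  have hAc : Commute A c := by
    rw [hc]
    exact (Commute.zpow_right (Commute.refl A) (-2)).mul_right (cen z1 hz1c A)
  have hr' : B * A * B⁻¹ = A * c := by
    rw [hr, hc]
    group
  have L1 : ∀ i : ℤ, B * A ^ i * B⁻¹ = A ^ i * c ^ i := by
    intro i
    rw [← conj_zpow, hr', hAc.mul_zpow]
  have h1 : B * (B * B) * B⁻¹ = B * B := by group
  have h2 : B * (B * B) * B⁻¹ = A ^ (n : ℤ) * c ^ (n : ℤ) * z2 := by
    rw [hBB]
    calc B * (A ^ (n : ℤ) * z2) * B⁻¹ = (B * A ^ (n : ℤ) * B⁻¹) * (B * z2 * B⁻¹) := by group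
      _ = A ^ (n : ℤ) * c ^ (n : ℤ) * z2 := by
        rw [L1 n, (cen z2 hz2c B).eq, mul_inv_cancel_right]
  have h3 : A ^ (n : ℤ) * c ^ (n : ℤ) * z2 = A ^ (n : ℤ) * z2 := by
    rw [← h2, h1, hBB]
  have hcn : c ^ (n : ℤ) = 1 := by
    have h4 : A ^ (n : ℤ) * (c ^ (n : ℤ) * z2) = A ^ (n : ℤ) * z2 := by
      rw [← mul_assoc]
      exact h3
    exact mul_eq_right.mp (mul_left_cancel h4)
  let H : Subgroup Γ :=
    { carrier := {g | ∃ i : ℤ, ∃ k ∈ Subgroup.center Γ, g = A ^ i * k}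
      mul_mem' := by
        rintro _ _ ⟨i, k, hk, rfl⟩ ⟨j, k', hk', rfl⟩
        refine ⟨i + j, k * k', Subgroup.mul_mem _ hk hk', ?_⟩
        rw [zpow_add]
        exact ((cen k hk (A ^ j)).symm).mul_mul_mul_comm (A ^ i) k'
      one_mem' := ⟨0, 1, Subgroup.one_mem _, by rw [zpow_zero, mul_one]⟩
      inv_mem' := by
        rintro _ ⟨i, k, hk, rfl⟩
        refine ⟨-i, k⁻¹, Subgroup.inv_mem _ hk, ?_⟩
        rw [mul_inv_rev, zpow_neg]
        exact ((cen k⁻¹ (Subgroup.inv_mem _ hk) ((A ^ i)⁻¹)).eq).symm }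
  have Hmk : ∀ (i : ℤ) (k : Γ), k ∈ Subgroup.center Γ → A ^ i * k ∈ H :=
    fun i k hk => ⟨i, k, hk, rfl⟩
  have Hcomm : ∀ x ∈ H, ∀ y ∈ H, Commute x y := by
    rintro _ ⟨i, k, hk, rfl⟩ _ ⟨j, k', hk', rfl⟩
    have h1 : Commute (A ^ i) (A ^ j) := (Commute.refl A).zpow_zpow i j
    exact (h1.mul_right (cen k' hk' _)).mul_left ((cen k hk _).symm)
  have hcH : c ∈ H := by
    rw [hc]
    exact Hmk (-2) z1 hz1c
  have L2 : ∀ (i : ℤ) (k : Γ), k ∈ Subgroup.center Γ →
      B * (A ^ i * k) * B⁻¹ = A ^ i * k * c ^ i := by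
    intro i k hk
    calc B * (A ^ i * k) * B⁻¹ = (B * A ^ i * B⁻¹) * (B * k * B⁻¹) := by group
      _ = A ^ i * c ^ i * k := by rw [L1, (cen k hk B).eq, mul_inv_cancel_right]
      _ = A ^ i * k * c ^ i := by rw [mul_assoc, (cen k hk (c ^ i)).eq, ← mul_assoc]
  have case2 : ∀ w ∈ H, ∀ w' ∈ H, cm (w * B) w' ∈ Subgroup.zpowers c := by
    rintro w hw _ ⟨i, k, hk, rfl⟩
    have hw' : A ^ i * k ∈ H := Hmk i k hk
    have hd : c ^ i ∈ H := Subgroup.zpow_mem _ hcH i
    have e : cm (w * B) (A ^ i * k) = c ^ i := by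
      have e1 : cm (w * B) (A ^ i * k) = w * (B * (A ^ i * k) * B⁻¹) * w⁻¹ * (A ^ i * k)⁻¹ := by
        unfold cm; group
      rw [e1, L2 i k hk]
      exact cm_lem2 w (A ^ i * k) (c ^ i) (Hcomm w hw _ hw') (Hcomm w hw _ hd)
        (Hcomm _ hw' _ hd)
    rw [e]
    exact Subgroup.zpow_mem_zpowers c i
  have Tcase : ∀ s ∈ S, s ∈ H ∨ ∃ w ∈ H, s = w * B := by
    intro s hs
    obtain ⟨i, hi | hi⟩ := hS s hs
    · left
      have hk : (A ^ i)⁻¹ * s ∈ Subgroup.center Γ := by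
        apply hker
        rw [MonoidHom.mem_ker, map_mul, map_inv, map_zpow, hA, hi, inv_mul_cancel]
      have hs' : s = A ^ i * ((A ^ i)⁻¹ * s) := by rw [mul_inv_cancel_left]
      rw [hs']
      exact Hmk _ _ hk
    · right
      have hk : (A ^ i * B)⁻¹ * s ∈ Subgroup.center Γ := by
        apply hker
        rw [MonoidHom.mem_ker, map_mul, map_inv, map_mul, map_zpow, hA, hB, hi, inv_mul_cancel]
      refine ⟨A ^ i * ((A ^ i * B)⁻¹ * s), Hmk _ _ hk, ?_⟩
      rw [mul_assoc, ← (cen _ hk B).eq, ← mul_assoc, mul_inv_cancel_left]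
  have main : ∀ x ∈ S, ∀ y ∈ S, cm x y ∈ Subgroup.zpowers c := by
    intro x hx y hy
    rcases Tcase x hx with hxH | ⟨w, hw, rfl⟩
    · rcases Tcase y hy with hyH | ⟨w', hw', rfl⟩
      · have e : cm x y = 1 := by
          have h := (Hcomm x hxH y hyH).eq
          unfold cm
          rw [h]
          group
        rw [e]
        exact Subgroup.one_mem _
      · rw [cm_anti (w' * B) x]
        exact Subgroup.inv_mem _ (case2 w' hw' x hxH)
    · rcases Tcase y hy with hyH | ⟨w', hw', rfl⟩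
      · exact case2 w hw y hyH
      · have e : w' * B = (w' * w⁻¹) * (w * B) := by group
        rw [e, cm_mul_self]
        exact case2 w hw _ (Subgroup.mul_mem _ hw' (Subgroup.inv_mem _ hw))
  have hσc : σ c = a ^ (-2 : ℤ) := by
    rw [hc, map_mul, map_zpow, hA, MonoidHom.mem_ker.mp hz1k, mul_one]
  refine ⟨c, hcn, hσc, ?_⟩
  intro z hzS hz
  have hle : commutator ↥S ≤ (Subgroup.zpowers c).subgroupOf S := by
    rw [commutator_eq_closure, Subgroup.closure_le]
    rintro _ ⟨x, y, rfl⟩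
    rw [SetLike.mem_coe, Subgroup.mem_subgroupOf]
    exact main x.1 x.2 y.1 y.2
  exact Subgroup.mem_subgroupOf.mp (hle hz)

theorem quat_part {Γ G : Type*} [Group Γ] [Group G] [Finite Γ] [Finite G] (σ : Γ →* G)
    (hsurj : Function.Surjective σ) (hker : σ.ker ≤ Subgroup.center Γ)
    (hcomm : σ.ker ≤ commutator Γ) (P : Sylow 2 G) (n : ℕ) (hn : 0 < n)
    (e : ↥(P : Subgroup G) ≃* QuaternionGroup n) (z : Γ) (hz : z ∈ σ.ker) (k : ℕ)
    (hz2 : z ^ (2 ^ k) = 1) : z = 1 := by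
  have hp2 : Fact (Nat.Prime 2) := ⟨Nat.prime_two⟩
  have hne : NeZero (2 * n) := ⟨by omega⟩
  obtain ⟨S, hSP⟩ := exists_sylow_map_le σ hsurj 2 (P : Subgroup G) P.isPGroup' P.not_dvd_index
  obtain ⟨A, hA⟩ : ∃ A : G, A = (e.symm (QuaternionGroup.a 1)).1 := ⟨_, rfl⟩
  obtain ⟨B, hB⟩ : ∃ B : G, B = (e.symm (QuaternionGroup.xa 0)).1 := ⟨_, rfl⟩
  have hbb : B * B = A ^ n := by
    rw [hA, hB, ← Subgroup.coe_mul, ← map_mul, ← Subgroup.coe_pow, ← map_pow,
      QuaternionGroup.xa_mul_xa, QuaternionGroup.a_one_pow]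
    simp
  have hABA : A * B * A = B := by
    rw [hA, hB, ← Subgroup.coe_mul, ← Subgroup.coe_mul, ← map_mul, ← map_mul,
      QuaternionGroup.a_mul_xa, QuaternionGroup.xa_mul_a]
    simp
  have hba : B * A * B⁻¹ = A⁻¹ := by
    calc B * A * B⁻¹ = A⁻¹ * (A * B * A) * B⁻¹ := by group
      _ = A⁻¹ := by rw [hABA]; group
  have hval : ∀ i : ZMod (2 * n),
      (e.symm (QuaternionGroup.a i)).1 = A ^ ((i.val : ℕ) : ℤ) := by
    intro i
    rw [zpow_natCast, hA, ← Subgroup.coe_pow, ← map_pow, QuaternionGroup.a_one_pow,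
      ZMod.natCast_zmod_val]
  have hS : ∀ s ∈ (S : Subgroup Γ), ∃ i : ℤ, σ s = A ^ i ∨ σ s = A ^ i * B := by
    intro s hs
    rcases hq : e ⟨σ s, hSP s hs⟩ with i | i
    · refine ⟨(i.val : ℕ), Or.inl ?_⟩
      rw [← hval i, ← hq, MulEquiv.symm_apply_apply]
    · refine ⟨((-i).val : ℕ), Or.inr ?_⟩
      rw [← hval (-i), hB, ← Subgroup.coe_mul, ← map_mul, QuaternionGroup.a_mul_xa]
      have h0 : (0 : ZMod (2 * n)) - -i = i := by ring
      rw [h0, ← hq, MulEquiv.symm_apply_apply]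
  obtain ⟨c, hcn, hσc, hcz⟩ := quat_comm_gen σ hsurj hker A B n hbb hba (S : Subgroup Γ) hS
  have hzS : z ∈ (S : Subgroup Γ) := central_mem_sylow 2 S z (hker hz) k hz2
  have hfoc := focal 2 S z hzS (hker hz) (hcomm hz)
  obtain ⟨j, hj⟩ := Subgroup.mem_zpowers_iff.mp (hcz z hzS hfoc)
  have hoA : orderOf A = 2 * n := by
    rw [hA, Subgroup.orderOf_coe, MulEquiv.orderOf_eq, QuaternionGroup.orderOf_a_one]
  have h9 : A ^ (-2 * j) = 1 := by
    rw [zpow_mul, ← hσc, ← map_zpow, hj]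
    exact MonoidHom.mem_ker.mp hz
  have h10 : ((orderOf A : ℕ) : ℤ) ∣ -2 * j := orderOf_dvd_iff_zpow_eq_one.mpr h9
  rw [hoA] at h10
  obtain ⟨t, ht⟩ := h10
  have hj2 : j = (n : ℤ) * (-t) := by
    push_cast at ht
    linarith
  rw [← hj, hj2, zpow_mul, hcn, one_zpow]

/-! ## Alternating pairings invariant under squares -/

section Pairing

variable {F : Type*} [Field F] {M : Type*} [AddCommGroup M] (c : F → F → M)

theorem pair_add_right (hadd : ∀ s s' t, c (s + s') t = c s t + c s' t)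
    (hanti : ∀ s t, c t s = - c s t) (s t t' : F) : c s (t + t') = c s t + c s t' := by
  rw [hanti (t + t') s, hadd, hanti s t, hanti s t']
  abel

theorem pair_expand (hadd : ∀ s s' t, c (s + s') t = c s t + c s' t)
    (hanti : ∀ s t, c t s = - c s t)
    (hinv : ∀ l : F, l ≠ 0 → ∀ s t, c (l * l * s) (l * l * t) = c s t)
    (l n : F) (hl : l ≠ 0) (hn : n ≠ 0) (h : l * l + 1 = n * n) (s t : F) :
    c (l * l * s) t + c s (l * l * t) = - c s t := by
  have h1 := hinv n hn s t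
  rw [← h] at h1
  have e1 : (l * l + 1) * s = l * l * s + s := by ring
  have e2 : (l * l + 1) * t = l * l * t + t := by ring
  rw [e1, e2, hadd, pair_add_right c hadd hanti, pair_add_right c hadd hanti, hinv l hl] at h1
  have h2 : c (l * l * s) t + c s (l * l * t) =
      (c s t + c (l * l * s) t + (c s (l * l * t) + c s t)) - c s t - c s t := by abel
  rw [h2, h1]
  abel

omit [Field F] in
theorem exists_not_mem4 [Fintype F] [DecidableEq F] (h : 5 ≤ Fintype.card F) (a b c' d : F) :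
    ∃ x : F, x ≠ a ∧ x ≠ b ∧ x ≠ c' ∧ x ≠ d := by
  by_contra hcon
  have hsub : (Finset.univ : Finset F) ⊆ {a, b, c', d} := fun w _ => by
    by_contra hw
    apply hcon
    simp only [Finset.mem_insert, Finset.mem_singleton, not_or] at hw
    exact ⟨w, hw.1, hw.2.1, hw.2.2.1, hw.2.2.2⟩
  have h5 := Finset.card_le_card hsub
  rw [Finset.card_univ] at h5
  have h6 : ({a, b, c', d} : Finset F).card ≤ 4 := Finset.card_le_four
  omega

theorem pair_even [Fintype F] (hadd : ∀ s s' t, c (s + s') t = c s t + c s' t)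
    (hanti : ∀ s t, c t s = - c s t)
    (hinv : ∀ l : F, l ≠ 0 → ∀ s t, c (l * l * s) (l * l * t) = c s t)
    (hsq : ∀ μ : F, μ ≠ 0 → ∃ l : F, l ≠ 0 ∧ l * l = μ) (h5 : 5 ≤ Fintype.card F) (s t : F) :
    c s t = 0 := by
  classical
  obtain ⟨μ, hμ0, hμ1, -, -⟩ := exists_not_mem4 h5 (0 : F) (-1) 0 (-1)
  obtain ⟨μ', hμ'0, hμ'1, hμ'2, hμ'3⟩ := exists_not_mem4 h5 (0 : F) (-1) (-μ) (-μ - 1)
  have key : ∀ ρ : F, ρ ≠ 0 → ρ + 1 ≠ 0 → c (ρ * s) t + c s (ρ * t) = - c s t := by
    intro ρ h0 h1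
    obtain ⟨l, hl, hl2⟩ := hsq ρ h0
    obtain ⟨n, hn, hn2⟩ := hsq (ρ + 1) h1
    have h := pair_expand c hadd hanti hinv l n hl hn (by rw [hl2, hn2]) s t
    rwa [hl2] at h
  have k1 := key μ hμ0 (fun h => hμ1 (eq_neg_of_add_eq_zero_left h))
  have k2 := key μ' hμ'0 (fun h => hμ'1 (eq_neg_of_add_eq_zero_left h))
  have k3 := key (μ + μ') (fun h => hμ'2 (by linear_combination h))
    (fun h => hμ'3 (by linear_combination h))
  have e1 : (μ + μ') * s = μ * s + μ' * s := by ring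
  have e2 : (μ + μ') * t = μ * t + μ' * t := by ring
  rw [e1, e2, hadd, pair_add_right c hadd hanti] at k3
  have h3 : (c (μ * s) t + c (μ' * s) t + (c s (μ * t) + c s (μ' * t)))
      - (c (μ * s) t + c s (μ * t)) - (c (μ' * s) t + c s (μ' * t)) = 0 := by abel
  rw [k3, k1, k2] at h3
  have h4 : c s t = - c s t - - c s t - - c s t := by abel
  rw [h4, h3]

/-- The polynomial whose non-roots give consecutive squares. -/
noncomputable def polyQ (F : Type*) [Field F] : Polynomial F :=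
  Polynomial.X * (Polynomial.X ^ 2 - 1) * (Polynomial.X ^ 2 + 1) *
    ((1 - Polynomial.X ^ 2) ^ 4 + 4 * Polynomial.X ^ 2 * (1 - Polynomial.X ^ 2) ^ 2
      + 16 * Polynomial.X ^ 4)

theorem polyQ_eval (w : F) : (polyQ F).eval w =
    w * (w ^ 2 - 1) * (w ^ 2 + 1) *
      ((1 - w ^ 2) ^ 4 + 4 * w ^ 2 * (1 - w ^ 2) ^ 2 + 16 * w ^ 4) := by
  unfold polyQ
  simp

theorem polyQ_deg : (polyQ F).natDegree ≤ 13 := by
  unfold polyQ
  compute_degree

theorem polyQ_ne : polyQ F ≠ 0 := by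
  have e0 : ∀ P : Polynomial F, P.eval 0 ≠ 0 → P ≠ 0 :=
    fun P h h' => h (by rw [h', Polynomial.eval_zero])
  unfold polyQ
  refine mul_ne_zero (mul_ne_zero (mul_ne_zero Polynomial.X_ne_zero (e0 _ ?_)) (e0 _ ?_))
    (e0 _ ?_)
  · simp
  · simp
  · simp

theorem exists_w [Fintype F] (h14 : 14 ≤ Fintype.card F) :
    ∃ w : F, w ≠ 0 ∧ w ^ 2 - 1 ≠ 0 ∧ w ^ 2 + 1 ≠ 0 ∧
      (1 - w ^ 2) ^ 4 + 4 * w ^ 2 * (1 - w ^ 2) ^ 2 + 16 * w ^ 4 ≠ 0 := by
  classical
  obtain ⟨w, hw⟩ : ∃ w : F, (polyQ F).eval w ≠ 0 := by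
    by_contra hcon
    have hall : ∀ w : F, w ∈ (polyQ F).roots.toFinset := by
      intro w
      rw [Multiset.mem_toFinset, Polynomial.mem_roots polyQ_ne]
      by_contra h
      exact hcon ⟨w, h⟩
    have h1 : Fintype.card F ≤ (polyQ F).roots.toFinset.card := by
      rw [← Finset.card_univ]
      exact Finset.card_le_card (fun w _ => hall w)
    have h2 := Multiset.toFinset_card_le (polyQ F).roots
    have h3 := Polynomial.card_roots' (polyQ F)
    have h4 := polyQ_deg (F := F)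
    omega
  rw [polyQ_eval] at hw
  have a3 := right_ne_zero_of_mul hw
  have b := left_ne_zero_of_mul hw
  have a2 := right_ne_zero_of_mul b
  have b' := left_ne_zero_of_mul b
  exact ⟨w, left_ne_zero_of_mul b', right_ne_zero_of_mul b', a2, a3⟩

theorem pair_odd [Fintype F] (hadd : ∀ s s' t, c (s + s') t = c s t + c s' t)
    (hanti : ∀ s t, c t s = - c s t)
    (hinv : ∀ l : F, l ≠ 0 → ∀ s t, c (l * l * s) (l * l * t) = c s t)
    (h2 : (2 : F) ≠ 0) (h14 : 14 ≤ Fintype.card F) (s t : F) : c s t = 0 := by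
  obtain ⟨w, hw0, hw1, hw2, hwP⟩ := exists_w (F := F) h14
  obtain ⟨l, hl⟩ : ∃ l : F, l = (w⁻¹ - w) / 2 := ⟨_, rfl⟩
  obtain ⟨n, hn⟩ : ∃ n : F, n = (w⁻¹ + w) / 2 := ⟨_, rfl⟩
  have hl0 : l ≠ 0 := by
    intro h
    rw [hl, div_eq_zero_iff] at h
    rcases h with h | h
    · apply hw1
      have h3 : w * (w⁻¹ - w) = 0 := by rw [h, mul_zero]
      rw [mul_sub, mul_inv_cancel₀ hw0] at h3
      linear_combination -h3
    · exact h2 h
  have hn0 : n ≠ 0 := by
    intro h
    rw [hn, div_eq_zero_iff] at h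
    rcases h with h | h
    · apply hw2
      have h3 : w * (w⁻¹ + w) = 0 := by rw [h, mul_zero]
      rw [mul_add, mul_inv_cancel₀ hw0] at h3
      linear_combination h3
    · exact h2 h
  have hln : l * l + 1 = n * n := by
    rw [hl, hn]
    field_simp
    ring
  have hP : (1 - w ^ 2) ^ 4 + 4 * w ^ 2 * (1 - w ^ 2) ^ 2 + 16 * w ^ 4 =
      16 * w ^ 4 * (l * l * (l * l) + l * l + 1) := by
    rw [hl]
    field_simp
    ring
  obtain ⟨μ, hμd⟩ : ∃ μ : F, μ = l * l := ⟨_, rfl⟩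
  have hμ0 : μ ≠ 0 := by rw [hμd]; exact mul_ne_zero hl0 hl0
  have hμ : μ * μ + μ + 1 ≠ 0 := by
    intro h
    apply hwP
    rw [hP, ← hμd, h, mul_zero]
  have key : ∀ s t, c (μ * s) t + c s (μ * t) = - c s t := by
    intro s t
    rw [hμd]
    exact pair_expand c hadd hanti hinv l n hl0 hn0 hln s t
  have hinv' : ∀ s t, c (μ * s) t = c s (μ⁻¹ * t) := by
    intro s t
    have h := hinv l hl0 s (μ⁻¹ * t)
    rw [← hμd, mul_inv_cancel_left₀ hμ0] at h
    exact h
  have hκ : ∀ s t, c s ((μ⁻¹ + μ + 1) * t) = 0 := by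
    intro s t
    have e : (μ⁻¹ + μ + 1) * t = μ⁻¹ * t + μ * t + t := by ring
    have k := key s t
    rw [hinv' s t] at k
    rw [e, pair_add_right c hadd hanti, pair_add_right c hadd hanti, k]
    abel
  have hκ0 : μ⁻¹ + μ + 1 ≠ 0 := by
    intro h
    apply hμ
    have e : μ * (μ⁻¹ + μ + 1) = μ * μ + μ + 1 := by
      rw [mul_add, mul_add, mul_inv_cancel₀ hμ0, mul_one]
      ring
    rw [← e, h, mul_zero]
  have hfin := hκ s ((μ⁻¹ + μ + 1)⁻¹ * t)
  rwa [mul_inv_cancel_left₀ hκ0] at hfin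

end Pairing

/-! ## The unipotent part -/

section Unip

variable {F : Type*} [Field F]

/-- Diagonal matrices. -/
def dSL (l : F) (hl : l ≠ 0) : Matrix.SpecialLinearGroup (Fin 2) F :=
  ⟨!![l, 0; 0, l⁻¹], by rw [Matrix.det_fin_two_of, mul_inv_cancel₀ hl]; ring⟩

theorem dSL_conj (l : F) (hl : l ≠ 0) (t : F) :
    dSL l hl * uSL (Multiplicative.ofAdd t) =
      uSL (Multiplicative.ofAdd (l * l * t)) * dSL l hl := by
  apply Subtype.ext
  show (!![l, 0; 0, l⁻¹] : Matrix (Fin 2) (Fin 2) F) * uMat t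
    = uMat (l * l * t) * !![l, 0; 0, l⁻¹]
  unfold uMat
  rw [Matrix.mul_fin_two, Matrix.mul_fin_two]
  have h : l * l * t * l⁻¹ = l * t := by field_simp
  simp [h]

theorem finite_SL [Fintype F] : Finite (Matrix.SpecialLinearGroup (Fin 2) F) := by
  apply Nat.finite_of_card_ne_zero
  rw [Cfsg.Agent.Lib.Helper3.card_SL2_eq]
  have h1 := Fintype.one_lt_card (α := F)
  have h2 : 1 < Fintype.card F ^ 2 := by nlinarith
  exact Nat.mul_ne_zero (by omega) (by omega)

theorem unip_part [Fintype F] (p : ℕ) [Fact p.Prime] [CharP F p]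
    {Γ : Type*} [Group Γ] [Finite Γ] (σ : Γ →* Matrix.SpecialLinearGroup (Fin 2) F)
    (hpair : ∀ c : F → F → Additive ↥(Subgroup.center Γ),
      (∀ s s' t, c (s + s') t = c s t + c s' t) → (∀ s t, c t s = - c s t) →
      (∀ l : F, l ≠ 0 → ∀ s t, c (l * l * s) (l * l * t) = c s t) → ∀ s t, c s t = 0)
    (hsurj : Function.Surjective σ) (hker : σ.ker ≤ Subgroup.center Γ)
    (hcomm : σ.ker ≤ commutator Γ) (z : Γ) (hz : z ∈ σ.ker) (k : ℕ)
    (hzp : z ^ (p ^ k) = 1) : z = 1 := by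
  classical
  have hfinG : Finite (Matrix.SpecialLinearGroup (Fin 2) F) := finite_SL
  obtain ⟨P₀, hP₀⟩ := Cfsg.Agent.Lib.Helper3.exists_sylow_eq_uSL (F := F) p
  obtain ⟨S, hSP⟩ := exists_sylow_map_le σ hsurj p
    (P₀ : Subgroup (Matrix.SpecialLinearGroup (Fin 2) F)) P₀.isPGroup' P₀.not_dvd_index
  choose X hX using fun t : F => hsurj (uSL (Multiplicative.ofAdd t))
  have xmul : ∀ s t : F, (uSL (Multiplicative.ofAdd s) : Matrix.SpecialLinearGroup (Fin 2) F)
      * uSL (Multiplicative.ofAdd t) = uSL (Multiplicative.ofAdd (s + t)) :=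
    fun s t => by rw [← map_mul, ← ofAdd_add]
  have xcomm : ∀ s t : F, (uSL (Multiplicative.ofAdd s) : Matrix.SpecialLinearGroup (Fin 2) F)
      * uSL (Multiplicative.ofAdd t) = uSL (Multiplicative.ofAdd t) * uSL (Multiplicative.ofAdd s) :=
    fun s t => by rw [xmul, xmul, add_comm]
  have cen : ∀ (u v : Γ) (s t : F), σ u = uSL (Multiplicative.ofAdd s) →
      σ v = uSL (Multiplicative.ofAdd t) → cm u v ∈ Subgroup.center Γ := by
    intro u v s t hu hv
    apply hker
    rw [MonoidHom.mem_ker]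
    unfold cm
    rw [map_mul, map_mul, map_mul, map_inv, map_inv, hu, hv, xcomm s t]
    group
  have indep : ∀ (u v : Γ) (s t : F), σ u = uSL (Multiplicative.ofAdd s) →
      σ v = uSL (Multiplicative.ofAdd t) → cm u v = cm (X s) (X t) := by
    intro u v s t hu hv
    have h1 : (X s)⁻¹ * u ∈ Subgroup.center Γ := hker (by
      rw [MonoidHom.mem_ker, map_mul, map_inv, hX, hu, inv_mul_cancel])
    have h2 : (X t)⁻¹ * v ∈ Subgroup.center Γ := hker (by
      rw [MonoidHom.mem_ker, map_mul, map_inv, hX, hv, inv_mul_cancel])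
    have eu : u = X s * ((X s)⁻¹ * u) := by rw [mul_inv_cancel_left]
    have ev : v = X t * ((X t)⁻¹ * v) := by rw [mul_inv_cancel_left]
    rw [eu, ev, cm_central_left _ _ _ h1, cm_central_right _ _ _ h2]
  obtain ⟨c, hcdef⟩ : ∃ c : F → F → Additive ↥(Subgroup.center Γ), ∀ s t,
      Additive.toMul (c s t) = ⟨cm (X s) (X t), cen _ _ s t (hX s) (hX t)⟩ :=
    ⟨fun s t => Additive.ofMul ⟨_, cen _ _ s t (hX s) (hX t)⟩, fun s t => rfl⟩
  have hc0 : ∀ s t, c s t = 0 := by
    apply hpair c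
    · intro s s' t
      apply Additive.toMul.injective
      rw [toMul_add, hcdef, hcdef, hcdef]
      apply Subtype.ext
      show cm (X (s + s')) (X t) = cm (X s) (X t) * cm (X s') (X t)
      rw [← indep (X s * X s') (X t) (s + s') t (by rw [map_mul, hX, hX, xmul]) (hX t)]
      exact cm_mul_left _ _ _ (cen _ _ s' t (hX s') (hX t))
    · intro s t
      apply Additive.toMul.injective
      rw [toMul_neg, hcdef, hcdef]
      apply Subtype.ext
      show cm (X t) (X s) = (cm (X s) (X t))⁻¹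
      exact cm_anti _ _
    · intro l hl s t
      apply Additive.toMul.injective
      rw [hcdef, hcdef]
      apply Subtype.ext
      show cm (X (l * l * s)) (X (l * l * t)) = cm (X s) (X t)
      obtain ⟨D, hD⟩ := hsurj (dSL l hl)
      have hconj : ∀ t : F, σ (D * X t * D⁻¹) = uSL (Multiplicative.ofAdd (l * l * t)) := by
        intro t
        rw [map_mul, map_mul, map_inv, hD, hX, dSL_conj, mul_inv_cancel_right]
      rw [← indep (D * X s * D⁻¹) (D * X t * D⁻¹) (l * l * s) (l * l * t) (hconj s) (hconj t),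
        cm_conj]
      have hc := Subgroup.mem_center_iff.mp (cen _ _ s t (hX s) (hX t)) D
      rw [hc, mul_inv_cancel_right]
  have hab : ∀ a b : Γ, a ∈ (S : Subgroup Γ) → b ∈ (S : Subgroup Γ) → a * b = b * a := by
    intro a b ha hb
    have h1 := hSP a ha
    have h2 := hSP b hb
    rw [hP₀] at h1 h2
    obtain ⟨x, hx⟩ := h1
    obtain ⟨y, hy⟩ := h2
    apply cm_comm
    rw [indep a b (Multiplicative.toAdd x) (Multiplicative.toAdd y) hx.symm hy.symm]
    have h3 := hc0 (Multiplicative.toAdd x) (Multiplicative.toAdd y)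
    have h4 := congrArg Additive.toMul h3
    rw [hcdef, toMul_zero] at h4
    exact congrArg Subtype.val h4
  exact transfer_trivial p S hab z (central_mem_sylow p S z (hker hz) k hzp) (hker hz) (hcomm hz)

end Unip

/-! ## The kernel of a stem extension is trivial -/

open scoped IsMulCommutative in
theorem ker_trivial {F : Type*} [Field F] [Fintype F] (h4 : Fintype.card F ≠ 4)
    (h9 : Fintype.card F ≠ 9) {Γ : Type*} [Group Γ] [Finite Γ]
    (σ : Γ →* Matrix.SpecialLinearGroup (Fin 2) F) (h : IsStemExtension σ) (z : Γ)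
    (hz : z ∈ σ.ker) : z = 1 := by
  classical
  obtain ⟨hsurj, hker, hcomm⟩ := h
  have hfinG : Finite (Matrix.SpecialLinearGroup (Fin 2) F) := finite_SL
  obtain ⟨p, hp⟩ := CharP.exists F
  obtain ⟨f, hpf, hq⟩ := FiniteField.card F p
  have hpp : Fact p.Prime := ⟨hpf⟩
  by_contra hz1
  have hord : orderOf z ≠ 1 := fun h => hz1 (orderOf_eq_one_iff.mp h)
  obtain ⟨r, hr, hrd⟩ := Nat.exists_prime_and_dvd hord
  have hrf : Fact r.Prime := ⟨hr⟩
  have hwo : orderOf (z ^ (orderOf z / r)) = r :=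
    orderOf_pow_orderOf_div (orderOf_pos z).ne' hrd
  have hwk : z ^ (orderOf z / r) ∈ σ.ker := Subgroup.pow_mem _ hz _
  obtain ⟨w, hw⟩ : ∃ w, w = z ^ (orderOf z / r) := ⟨_, rfl⟩
  rw [← hw] at hwo hwk
  have hwr : w ^ (r ^ 1) = 1 := by
    rw [pow_one, ← hwo]
    exact pow_orderOf_eq_one w
  have hw1 : w = 1 := by
    by_cases hrp : r = p
    · have hwp : w ^ (p ^ 1) = 1 := by rw [← hrp]; exact hwr
      by_cases hf1 : (f : ℕ) = 1
      · obtain ⟨P₀, hP₀⟩ := Cfsg.Agent.Lib.Helper3.exists_sylow_eq_uSL (F := F) p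
        have hcard : Nat.card ↥(P₀ : Subgroup (Matrix.SpecialLinearGroup (Fin 2) F)) = p := by
          rw [hP₀, Cfsg.Agent.Lib.Helper3.card_range_uSL, hq, hf1, pow_one]
        have hcyc : IsCyclic ↥(P₀ : Subgroup (Matrix.SpecialLinearGroup (Fin 2) F)) :=
          isCyclic_of_prime_card hcard
        exact cyc_part σ hsurj hker hcomm p P₀ hcyc w hwk 1 hwp
      · have hf2 : 2 ≤ (f : ℕ) := by
          have := f.pos
          omega
        by_cases hp2 : p = 2
        · have hf3 : 3 ≤ (f : ℕ) := by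
            by_contra hlt
            have hf2' : (f : ℕ) = 2 := by omega
            apply h4
            rw [hq, hp2, hf2']
            norm_num
          have h5 : 5 ≤ Fintype.card F := by
            rw [hq, hp2]
            calc 5 ≤ 2 ^ 3 := by norm_num
              _ ≤ 2 ^ (f : ℕ) := Nat.pow_le_pow_right (by norm_num) hf3
          have hsq : ∀ μ : F, μ ≠ 0 → ∃ l : F, l ≠ 0 ∧ l * l = μ := by
            intro μ hμ
            have hch : ringChar F = 2 := by
              rw [← hp2]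
              exact ringChar.eq F p
            obtain ⟨l, hl⟩ := FiniteField.isSquare_of_char_two hch μ
            refine ⟨l, ?_, hl.symm⟩
            intro hl0
            rw [hl0, mul_zero] at hl
            exact hμ hl
          exact unip_part p σ (fun c h1 h2 h3 => pair_even c h1 h2 h3 hsq h5) hsurj hker hcomm
            w hwk 1 hwp
        · have h2F : (2 : F) ≠ 0 := by
            intro h
            have h' : ((2 : ℕ) : F) = 0 := by exact_mod_cast h
            have hdvd := (CharP.cast_eq_zero_iff F p 2).mp h'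
            exact hp2 ((Nat.prime_dvd_prime_iff_eq hpf Nat.prime_two).mp hdvd)
          have h14 : 14 ≤ Fintype.card F := by
            have hp3 : 3 ≤ p := by
              have := hpf.two_le
              omega
            by_cases hp3' : p = 3
            · have hf3 : 3 ≤ (f : ℕ) := by
                by_contra hlt
                have hf2' : (f : ℕ) = 2 := by omega
                apply h9
                rw [hq, hp3', hf2']
                norm_num
              rw [hq, hp3']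
              calc 14 ≤ 3 ^ 3 := by norm_num
                _ ≤ 3 ^ (f : ℕ) := Nat.pow_le_pow_right (by norm_num) hf3
            · have hp5 : 5 ≤ p := by
                have h4' : p ≠ 4 := fun h => by
                  rw [h] at hpf
                  exact absurd hpf (by norm_num)
                omega
              rw [hq]
              calc 14 ≤ 5 ^ 2 := by norm_num
                _ ≤ p ^ 2 := Nat.pow_le_pow_left hp5 2
                _ ≤ p ^ (f : ℕ) := Nat.pow_le_pow_right (by omega) hf2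
          exact unip_part p σ (fun c h1 h2 h3 => pair_odd c h1 h2 h3 h2F h14) hsurj hker hcomm
            w hwk 1 hwp
    · by_cases hr2 : r = 2
      · have hw2 : w ^ (2 ^ 1) = 1 := by rw [← hr2]; exact hwr
        have hodd : Odd (Fintype.card F) := by
          rw [hq]
          exact Odd.pow (hpf.odd_of_ne_two (fun h => hrp (hr2.trans h.symm)))
        obtain ⟨R⟩ : Nonempty (Sylow 2 (Matrix.SpecialLinearGroup (Fin 2) F)) := inferInstance
        obtain ⟨k, -, ⟨e⟩⟩ := Cfsg.Agent.S0261.result hodd R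
        exact quat_part σ hsurj hker hcomm R (2 ^ k) (by positivity) e w hwk 1 hw2
      · obtain ⟨R⟩ : Nonempty (Sylow r (Matrix.SpecialLinearGroup (Fin 2) F)) := inferInstance
        exact cyc_part σ hsurj hker hcomm r R (Cfsg.Agent.S0262.result p r hr2 hrp R) w hwk 1 hwr
  rw [hw1, orderOf_one] at hwo
  exact hr.one_lt.ne' hwo.symm

theorem z1_cases : ∀ a : Multiplicative (ZMod 1), a = 1 := by decide

/-- For a finite field with q elements, q ≠ 4 and q ≠ 9, the special linear group SL₂ has trivial Schur multiplier (here the Schur multiplier is described through stem extensions, as in the definitions). -/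
theorem result {F : Type*} [Field F] [Fintype F] (h4 : Fintype.card F ≠ 4) (h9 : Fintype.card F ≠ 9) : Cfsg.HasCyclicSchurMultiplier (Matrix.SpecialLinearGroup (Fin 2) F) 1 := by
  classical
  have hfin : Finite (Matrix.SpecialLinearGroup (Fin 2) F) := finite_SL
  have hk : ∀ z : Matrix.SpecialLinearGroup (Fin 2) F,
      z ∈ (MonoidHom.id (Matrix.SpecialLinearGroup (Fin 2) F)).ker → z = 1 :=
    fun z hz => MonoidHom.mem_ker.mp hz
  refine ⟨⟨Matrix.SpecialLinearGroup (Fin 2) F, inferInstance, hfin, MonoidHom.id _,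
    ⟨Function.surjective_id, ?_, ?_⟩, ⟨?_⟩⟩, ?_⟩
  · intro z hz
    rw [hk z hz]
    exact Subgroup.one_mem _
  · intro z hz
    rw [hk z hz]
    exact Subgroup.one_mem _
  · exact
      { toFun := fun _ => 1
        invFun := fun _ => 1
        left_inv := fun z => Subtype.ext (hk z.1 z.2).symm
        right_inv := fun a => (z1_cases a).symm
        map_mul' := fun _ _ => (mul_one 1).symm }
  · intro Γ _ _ σ hσ
    refine ⟨1, ?_⟩
    rintro ⟨z, hz⟩
    exact ⟨1, Subtype.ext (ker_trivial h4 h9 σ hσ z hz).symm⟩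

end Cfsg.Agent.S2117
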