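import Cfsg.Statements.S2131
import Cfsg.Agent.Lib.Helper13.J1M
import Cfsg.Agent.Lib.Helper13.J1Cen

set_option autoImplicit false
open Cfsg

namespace Cfsg.Agent.S2131

/-- The Janko group J₁ (the group generated by two explicit 7 × 7 matrices over the integers modulo 11) has an involution whose centraliser is isomorphic to the direct product of a group of order 2 with the alternating group of degree 5. -/
theorem result : ∃ t : ↥Cfsg.Spor.J1, orderOf t = 2 ∧ Nonempty (↥(Subgroup.centralizer ({t} : Set ↥Cfsg.Spor.J1)) ≃* Multiplicative (ZMod 2) × ↥(alternatingGroup (Fin 5))) := by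
  obtain ⟨t, ht, ⟨e⟩⟩ := Cfsg.Agent.Lib.Helper13.J1Cn.main
  let E : Cfsg.Agent.Lib.Helper13.J1O.P ≃* ↥Cfsg.Spor.J1 := Cfsg.Agent.Lib.Helper13.J1M.equivJ1
  have hmap : Subgroup.centralizer ({E t} : Set ↥Cfsg.Spor.J1) =
      (Subgroup.centralizer ({t} : Set Cfsg.Agent.Lib.Helper13.J1O.P)).map E.toMonoidHom := by
    ext y
    constructor
    · intro hy
      refine ⟨E.symm y, ?_, E.apply_symm_apply y⟩
      rw [Subgroup.mem_centralizer_iff] at hy
      rw [SetLike.mem_coe, Subgroup.mem_centralizer_iff]
      intro h hh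
      rw [Set.mem_singleton_iff] at hh
      subst hh
      apply E.injective
      rw [map_mul, map_mul, E.apply_symm_apply]
      exact hy (E h) rfl
    · rintro ⟨x, hx, rfl⟩
      rw [SetLike.mem_coe, Subgroup.mem_centralizer_iff] at hx
      rw [Subgroup.mem_centralizer_iff]
      intro h hh
      rw [Set.mem_singleton_iff] at hh
      subst hh
      have h1 := hx t rfl
      show E t * E x = E x * E t
      rw [← map_mul, ← map_mul, h1]
  refine ⟨E t, ?_, ⟨?_⟩⟩
  · rw [MulEquiv.orderOf_eq]
    exact ht
  · exact (MulEquiv.subgroupCongr hmap).trans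
      ((E.subgroupMap (Subgroup.centralizer ({t} : Set Cfsg.Agent.Lib.Helper13.J1O.P))).symm.trans e)

end Cfsg.Agent.S2131
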