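import Cfsg.Statements.S2160
import Cfsg.Agent.Lib.Helper15.ChevGen
import Cfsg.Agent.Lib.Helper15.ChevPathG2
import Cfsg.Agent.Lib.Helper15.ChevPathB2
import Cfsg.Agent.Lib.Helper15.ChevPathD4
import Cfsg.Agent.Lib.Helper15.ChevPathF4
import Cfsg.Agent.Lib.Helper15.ChevPathE6
import Cfsg.Agent.Lib.Helper15.ChevPathE7
import Cfsg.Agent.Lib.Helper15.ChevPathE8

set_option autoImplicit false
open Cfsg

namespace Cfsg.Agent.S2160

/-- In a Chevalley group of type G₂, B₂, D₄, F₄, E₆, E₇ or E₈ over a finite field, every field automorphism commutes with every graph automorphism. -/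
theorem result {F : Type*} [Field F] [Finite F] (D : Cfsg.Lie.ChevalleyDatum) (hD : D ∈ [Cfsg.Lie.chevG2, Cfsg.Lie.chevB2, Cfsg.Lie.chevD4, Cfsg.Lie.chevF4, Cfsg.Lie.chevE6, Cfsg.Lie.chevE7, Cfsg.Lie.chevE8]) (f g : ↥(D.group F) ≃* ↥(D.group F))
    (hf : D.IsFieldAut f) (hg : D.IsGraphAut g) (y : ↥(D.group F)) : f (g y) = g (f y) := by
  classical
  obtain ⟨σ, hσ⟩ := hf
  obtain ⟨π, hπ, hgr⟩ := hg
  have hcert : ∃ cert, Cfsg.Agent.Lib.Helper15.ChevGen.GenCert D cert := by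
    have hD' := hD
    simp only [List.mem_cons, List.mem_nil_iff, or_false] at hD'
    rcases hD' with rfl | rfl | rfl | rfl | rfl | rfl | rfl
    · exact ⟨_, Cfsg.Agent.Lib.Helper15.ChevGen.gcertG2_ok⟩
    · exact ⟨_, Cfsg.Agent.Lib.Helper15.ChevGen.gcertB2_ok⟩
    · exact ⟨_, Cfsg.Agent.Lib.Helper15.ChevGen.gcertD4_ok⟩
    · exact ⟨_, Cfsg.Agent.Lib.Helper15.ChevGen.gcertF4_ok⟩
    · exact ⟨_, Cfsg.Agent.Lib.Helper15.ChevGen.gcertE6_ok⟩
    · exact ⟨_, Cfsg.Agent.Lib.Helper15.ChevGen.gcertE7_ok⟩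
    · exact ⟨_, Cfsg.Agent.Lib.Helper15.ChevGen.gcertE8_ok⟩
  obtain ⟨cert, hcert⟩ := hcert
  have hsimple := hcert.1
  let φ₁ : ↥(D.group F) →* ↥(D.group F) := f.toMonoidHom.comp g.toMonoidHom
  let φ₂ : ↥(D.group F) →* ↥(D.group F) := g.toMonoidHom.comp f.toMonoidHom
  let H : Subgroup (GL D.Idx F) := (MonoidHom.eqLocus φ₁ φ₂).map (D.group F).subtype
  have hle : D.group F ≤ H := by
    refine Cfsg.Agent.Lib.Helper15.ChevGen.gen_le D hD cert hcert H ?_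
    intro i hi t u hu
    have hmem : u ∈ D.group F := by
      rcases hu with hu | hu
      · refine Subgroup.subset_closure ⟨⟨D.simple i, (hsimple i hi).1⟩, t, ?_⟩
        rw [hu]
        unfold Cfsg.Lie.ChevalleyDatum.x
        rw [dif_pos (hsimple i hi).1]
      · refine Subgroup.subset_closure ⟨⟨D.neg (D.simple i), (hsimple i hi).2⟩, t, ?_⟩
        rw [hu]
        unfold Cfsg.Lie.ChevalleyDatum.x
        rw [dif_pos (hsimple i hi).2]
    refine ⟨⟨u, hmem⟩, ?_, rfl⟩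
    show f (g ⟨u, hmem⟩) = g (f ⟨u, hmem⟩)
    apply Subtype.ext
    apply Units.ext
    have key := hgr ⟨u, hmem⟩ ⟨i, hi⟩ t
    rcases hu with hu | hu
    · have h1 := key.1 hu
      have h2 := hσ (g ⟨u, hmem⟩) _ _ (hsimple _ (π ⟨i, hi⟩).isLt).1 h1
      have h3 := hσ ⟨u, hmem⟩ _ _ (hsimple i hi).1 hu
      have h4 := (hgr (f ⟨u, hmem⟩) ⟨i, hi⟩ (σ t)).1 h3
      rw [h2, h4, map_pow]
    · have h1 := key.2 hu
      have h2 := hσ (g ⟨u, hmem⟩) _ _ (hsimple _ (π ⟨i, hi⟩).isLt).2 h1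
      have h3 := hσ ⟨u, hmem⟩ _ _ (hsimple i hi).2 hu
      have h4 := (hgr (f ⟨u, hmem⟩) ⟨i, hi⟩ (σ t)).2 h3
      rw [h2, h4, map_pow]
  obtain ⟨y', hy', hyy⟩ := hle y.2
  have hyeq : y' = y := Subtype.ext hyy
  rw [← hyeq]
  exact hy'

end Cfsg.Agent.S2160
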