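import Cfsg.Statements.S2298
import Mathlib
import Cfsg.Agent.Lib.Helper15.GL2Values

set_option autoImplicit false
open Cfsg

namespace Cfsg.Agent.S2298

/-- Over a finite field F with q elements, every irreducible complex character of GL₂ has degree 1, q − 1, q or q + 1; and when q ≥ 3 (so that these four numbers are distinct) there are exactly q − 1 irreducible characters of degree 1, exactly q − 1 of degree q, exactly (q − 1)(q − 2)/2 of degree q + 1 and exactly q(q − 1)/2 of degree q − 1. -/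
theorem result {F : Type*} [Field F] [Fintype F] :
    (∀ χ : Matrix.GeneralLinearGroup (Fin 2) F → ℂ, Cfsg.IsIrrCharacter (Matrix.GeneralLinearGroup (Fin 2) F) χ →
      χ 1 = 1 ∨ χ 1 = (Fintype.card F : ℂ) - 1 ∨ χ 1 = (Fintype.card F : ℂ) ∨ χ 1 = (Fintype.card F : ℂ) + 1) ∧
    (3 ≤ Fintype.card F →
      Nat.card {χ : Cfsg.IrrCharacter (Matrix.GeneralLinearGroup (Fin 2) F) // (χ : Matrix.GeneralLinearGroup (Fin 2) F → ℂ) 1 = 1} = Fintype.card F - 1 ∧
      Nat.card {χ : Cfsg.IrrCharacter (Matrix.GeneralLinearGroup (Fin 2) F) // (χ : Matrix.GeneralLinearGroup (Fin 2) F → ℂ) 1 = (Fintype.card F : ℂ)} = Fintype.card F - 1 ∧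
      Nat.card {χ : Cfsg.IrrCharacter (Matrix.GeneralLinearGroup (Fin 2) F) // (χ : Matrix.GeneralLinearGroup (Fin 2) F → ℂ) 1 = (Fintype.card F : ℂ) + 1} = (Fintype.card F - 1) * (Fintype.card F - 2) / 2 ∧
      Nat.card {χ : Cfsg.IrrCharacter (Matrix.GeneralLinearGroup (Fin 2) F) // (χ : Matrix.GeneralLinearGroup (Fin 2) F → ℂ) 1 = (Fintype.card F : ℂ) - 1} = Fintype.card F * (Fintype.card F - 1) / 2) := by
  classical
  open Cfsg.Agent.Lib.Helper15 in
  obtain ⟨hcusp, hL, hS, hP, hC⟩ := GL2_count (F := F)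
  have hq2 : 2 ≤ Fintype.card F := Fintype.one_lt_card
  refine ⟨?_, ?_⟩
  · intro χ hχ
    rcases Cfsg.Agent.Lib.Helper15.GL2_irr_cases' χ hχ with ⟨α, rfl⟩ | ⟨α, rfl⟩ | ⟨α, β, hne, rfl⟩ | ⟨hc, hd⟩
    · left; exact Cfsg.Agent.Lib.Helper15.linG_one α
    · right; right; left; exact Cfsg.Agent.Lib.Helper15.stG_one α
    · right; right; right; exact Cfsg.Agent.Lib.Helper15.piG_one α β
    · right; left; exact hd
  · intro h3
    obtain ⟨n1, n2, n3⟩ := Cfsg.Agent.Lib.Helper15.card_cast_facts h3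
    have hqq : (Fintype.card F : ℂ) ≠ (Fintype.card F : ℂ) + 1 := by
      intro h; have : (1 : ℂ) = 0 := by linear_combination -h
      simp at this
    have hqq' : (Fintype.card F : ℂ) ≠ (Fintype.card F : ℂ) - 1 := by
      intro h; have : (1 : ℂ) = 0 := by linear_combination h
      simp at this
    have hqq'' : (Fintype.card F : ℂ) + 1 ≠ (Fintype.card F : ℂ) - 1 := by
      intro h; have : (2 : ℂ) = 0 := by linear_combination h
      norm_num at this
    refine ⟨?_, ?_, ?_, ?_⟩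
    · rw [← hL]
      apply Nat.card_congr
      apply Equiv.subtypeEquivRight
      intro χ
      constructor
      · intro h1
        rcases Cfsg.Agent.Lib.Helper15.GL2_irr_cases' χ.1 χ.2 with ⟨α, hα⟩ | ⟨α, hα⟩ | ⟨α, β, hne, hα⟩ | ⟨hc, hd⟩
        · exact ⟨α, hα⟩
        · rw [hα, Cfsg.Agent.Lib.Helper15.stG_one] at h1; exact absurd h1.symm n1
        · rw [hα, Cfsg.Agent.Lib.Helper15.piG_one] at h1; exact absurd h1.symm n2
        · rw [hd] at h1; exact absurd h1.symm n3
      · rintro ⟨α, hα⟩; rw [hα, Cfsg.Agent.Lib.Helper15.linG_one]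
    · rw [← hS]
      apply Nat.card_congr
      apply Equiv.subtypeEquivRight
      intro χ
      constructor
      · intro h1
        rcases Cfsg.Agent.Lib.Helper15.GL2_irr_cases' χ.1 χ.2 with ⟨α, hα⟩ | ⟨α, hα⟩ | ⟨α, β, hne, hα⟩ | ⟨hc, hd⟩
        · rw [hα, Cfsg.Agent.Lib.Helper15.linG_one] at h1; exact absurd h1 n1
        · exact ⟨α, hα⟩
        · rw [hα, Cfsg.Agent.Lib.Helper15.piG_one] at h1; exact absurd h1.symm hqq
        · rw [hd] at h1; exact absurd h1.symm hqq'
      · rintro ⟨α, hα⟩; rw [hα, Cfsg.Agent.Lib.Helper15.stG_one]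
    · have hN : Nat.card {χ : Cfsg.IrrCharacter (Matrix.GeneralLinearGroup (Fin 2) F) // (χ : Matrix.GeneralLinearGroup (Fin 2) F → ℂ) 1 = (Fintype.card F : ℂ) + 1} =
          Nat.card {χ : Cfsg.IrrCharacter (Matrix.GeneralLinearGroup (Fin 2) F) //
            ∃ α β : MulChar F ℂ, α ≠ β ∧ (χ : Matrix.GeneralLinearGroup (Fin 2) F → ℂ) = Cfsg.Agent.Lib.Helper15.piG α β} := by
        apply Nat.card_congr
        apply Equiv.subtypeEquivRight
        intro χ
        constructor
        · intro h1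
          rcases Cfsg.Agent.Lib.Helper15.GL2_irr_cases' χ.1 χ.2 with ⟨α, hα⟩ | ⟨α, hα⟩ | ⟨α, β, hne, hα⟩ | ⟨hc, hd⟩
          · rw [hα, Cfsg.Agent.Lib.Helper15.linG_one] at h1; exact absurd h1 n2
          · rw [hα, Cfsg.Agent.Lib.Helper15.stG_one] at h1; exact absurd h1 hqq
          · exact ⟨α, β, hne, hα⟩
          · rw [hd] at h1; exact absurd h1.symm hqq''
        · rintro ⟨α, β, hne, hα⟩; rw [hα, Cfsg.Agent.Lib.Helper15.piG_one]
      rw [hN, ← hP]
      exact (Nat.mul_div_cancel_left _ (by norm_num)).symm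
    · have hN : Nat.card {χ : Cfsg.IrrCharacter (Matrix.GeneralLinearGroup (Fin 2) F) // (χ : Matrix.GeneralLinearGroup (Fin 2) F → ℂ) 1 = (Fintype.card F : ℂ) - 1} =
          Nat.card {χ : Cfsg.IrrCharacter (Matrix.GeneralLinearGroup (Fin 2) F) //
            ∀ α β : MulChar F ℂ, Cfsg.classInner (Cfsg.Agent.Lib.Helper15.piG α β) (χ : Matrix.GeneralLinearGroup (Fin 2) F → ℂ) = 0} := by
        apply Nat.card_congr
        apply Equiv.subtypeEquivRight
        intro χ
        constructor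
        · intro h1
          rcases Cfsg.Agent.Lib.Helper15.GL2_irr_cases' χ.1 χ.2 with ⟨α, hα⟩ | ⟨α, hα⟩ | ⟨α, β, hne, hα⟩ | ⟨hc, hd⟩
          · rw [hα, Cfsg.Agent.Lib.Helper15.linG_one] at h1; exact absurd h1 n3
          · rw [hα, Cfsg.Agent.Lib.Helper15.stG_one] at h1; exact absurd h1 hqq'
          · rw [hα, Cfsg.Agent.Lib.Helper15.piG_one] at h1; exact absurd h1 hqq''
          · exact hc
        · intro hc; exact hcusp χ.1 χ.2 hc
      rw [hN, ← hC]
      exact (Nat.mul_div_cancel_left _ (by norm_num)).symm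

end Cfsg.Agent.S2298
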