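import Cfsg.Statements.S2301
import Cfsg.Agent.Lib.Helper15.SL2Classes
import Cfsg.Agent.Lib.Helper15.GL2Centralizer

set_option autoImplicit false
open Cfsg

namespace Cfsg.Agent.S2301

/-- Over a finite field with q elements of odd characteristic p, the elements of order p of SL₂ (the non-identity unipotent elements) fall into exactly two conjugacy classes, each of size (q² − 1)/2; two upper unitriangular matrices with non-zero off-diagonal entries b and b′ are conjugate exactly when bb′ is a square. -/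
theorem result {F : Type*} [Field F] [Fintype F] (p : ℕ) [Fact p.Prime] [CharP F p] (hp : p ≠ 2) :
    Nat.card {C : ConjClasses (Matrix.SpecialLinearGroup (Fin 2) F) // ∃ g : Matrix.SpecialLinearGroup (Fin 2) F, orderOf g = p ∧ ConjClasses.mk g = C} = 2 ∧
    (∀ g : Matrix.SpecialLinearGroup (Fin 2) F, orderOf g = p → Nat.card (ConjClasses.mk g).carrier = (Fintype.card F ^ 2 - 1) / 2) ∧
    ∀ g h : Matrix.SpecialLinearGroup (Fin 2) F, (g : Matrix (Fin 2) (Fin 2) F) 0 0 = 1 → (g : Matrix (Fin 2) (Fin 2) F) 1 1 = 1 → (g : Matrix (Fin 2) (Fin 2) F) 1 0 = 0 → (g : Matrix (Fin 2) (Fin 2) F) 0 1 ≠ 0 →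
      (h : Matrix (Fin 2) (Fin 2) F) 0 0 = 1 → (h : Matrix (Fin 2) (Fin 2) F) 1 1 = 1 → (h : Matrix (Fin 2) (Fin 2) F) 1 0 = 0 → (h : Matrix (Fin 2) (Fin 2) F) 0 1 ≠ 0 →
      (IsConj g h ↔ IsSquare ((g : Matrix (Fin 2) (Fin 2) F) 0 1 * (h : Matrix (Fin 2) (Fin 2) F) 0 1)) := by
  classical
  have hF : ringChar F ≠ 2 := by rw [ringChar.eq F p]; exact hp
  have h2 : (2 : F) ≠ 0 := Ring.two_ne_zero hF
  refine ⟨?_, ?_, ?_⟩
  · rw [Cfsg.Agent.Lib.Helper15.card_conjClasses_subtype Cfsg.Agent.Lib.Helper15.sl2InvOdd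
      (Cfsg.Agent.Lib.Helper15.sl2InvOdd_eq_iff hF) (fun g => orderOf g = p)]
    have himg : Cfsg.Agent.Lib.Helper15.sl2InvOdd '' {g : Matrix.SpecialLinearGroup (Fin 2) F | orderOf g = p} =
        {((2 : F), some true), ((2 : F), some false)} := by
      apply Set.eq_of_subset_of_subset
      · rintro _ ⟨g, hg, rfl⟩
        obtain ⟨h1, h3⟩ := Cfsg.Agent.Lib.Helper15.SL2_order_p p g hg
        unfold Cfsg.Agent.Lib.Helper15.sl2InvOdd
        rw [if_neg h3, h1]
        by_cases hfl : Cfsg.Agent.Lib.Helper15.SqFlag g <;> simp [hfl]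
      · obtain ⟨n, hn⟩ := FiniteField.exists_nonsquare hF
        have hn' : ¬ IsSquare (-(-n)) := by rwa [neg_neg]
        have hn0 : -n ≠ 0 := by
          intro h
          apply hn
          have : n = 0 := by linear_combination (-1 : F) * h
          rw [this]; exact IsSquare.zero
        have e1 : (1 : F) ^ 2 = 1 := by ring
        intro q hq
        simp only [Set.mem_insert_iff, Set.mem_singleton_iff] at hq
        rcases hq with rfl | rfl
        · refine ⟨Cfsg.Agent.Lib.Helper15.sl2Companion 2, ?_, ?_⟩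
          · exact Cfsg.Agent.Lib.Helper15.SL2_orderOf_of_trace_two p _
              (Cfsg.Agent.Lib.Helper15.sl2Companion_trace 2) (Cfsg.Agent.Lib.Helper15.sl2Companion_not_scalar 2)
          · unfold Cfsg.Agent.Lib.Helper15.sl2InvOdd
            rw [if_neg (Cfsg.Agent.Lib.Helper15.sl2Companion_not_scalar 2), Cfsg.Agent.Lib.Helper15.sl2Companion_trace]
            simp [Cfsg.Agent.Lib.Helper15.sl2Companion_sqFlag]
        · have hns : ¬ Cfsg.Agent.Lib.Helper15.IsScalar2
              ((Cfsg.Agent.Lib.Helper15.sl2Upper 1 (-n) e1 : Matrix.SpecialLinearGroup (Fin 2) F) : Matrix (Fin 2) (Fin 2) F) := by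
            rw [Cfsg.Agent.Lib.Helper15.sl2Upper_isScalar2]; exact hn0
          have htr : ((Cfsg.Agent.Lib.Helper15.sl2Upper 1 (-n) e1 : Matrix.SpecialLinearGroup (Fin 2) F) : Matrix (Fin 2) (Fin 2) F).trace = 2 := by
            rw [Cfsg.Agent.Lib.Helper15.sl2Upper_trace]; ring
          refine ⟨Cfsg.Agent.Lib.Helper15.sl2Upper 1 (-n) e1, ?_, ?_⟩
          · exact Cfsg.Agent.Lib.Helper15.SL2_orderOf_of_trace_two p _ htr hns
          · unfold Cfsg.Agent.Lib.Helper15.sl2InvOdd
            rw [if_neg hns, htr]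
            simp [Cfsg.Agent.Lib.Helper15.sl2Upper_not_sqFlag 1 (-n) e1 hn']
    rw [himg, Nat.card_coe_set_eq, Set.ncard_pair (by simp)]
  · intro g hg
    obtain ⟨h1, h3⟩ := Cfsg.Agent.Lib.Helper15.SL2_order_p p g hg
    exact Cfsg.Agent.Lib.Helper15.card_class_SL2_odd h2 g h3 h1
  · intro g h g00 g11 g10 g01 h00 h11 h10 h01
    have qg : ∀ x y : F, Cfsg.Agent.Lib.Helper15.qf (g : Matrix (Fin 2) (Fin 2) F) x y =
        -((g : Matrix (Fin 2) (Fin 2) F) 0 1) * y ^ 2 := by
      intro x y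
      simp only [Cfsg.Agent.Lib.Helper15.qf, g00, g11, g10]; ring
    have qh : ∀ x y : F, Cfsg.Agent.Lib.Helper15.qf (h : Matrix (Fin 2) (Fin 2) F) x y =
        -((h : Matrix (Fin 2) (Fin 2) F) 0 1) * y ^ 2 := by
      intro x y
      simp only [Cfsg.Agent.Lib.Helper15.qf, h00, h11, h10]; ring
    constructor
    · intro hc
      obtain ⟨x', y', h3⟩ := Cfsg.Agent.Lib.Helper15.SL2_qf_of_isConj g h hc 0 1
      rw [qg, qh] at h3
      refine ⟨(h : Matrix (Fin 2) (Fin 2) F) 0 1 * y', ?_⟩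
      linear_combination (((h : Matrix (Fin 2) (Fin 2) F) 0 1)) * h3
    · rintro ⟨s, hs⟩
      have ht : (g : Matrix (Fin 2) (Fin 2) F).trace = (h : Matrix (Fin 2) (Fin 2) F).trace := by
        rw [Matrix.trace_fin_two, Matrix.trace_fin_two, g00, g11, h00, h11]
      refine Cfsg.Agent.Lib.Helper15.SL2_isConj_of_qf g h ht 0 1 0 (s / (h : Matrix (Fin 2) (Fin 2) F) 0 1) ?_ ?_
      · rw [qg, qh]
        field_simp
        linear_combination (-1 : F) * hs
      · rw [qg]
        simpa using g01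

end Cfsg.Agent.S2301
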