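import Cfsg.Statements.S2302
import Cfsg.Agent.Lib.Helper15.SL2Classes
import Cfsg.Agent.Lib.Helper15.GL2Centralizer

set_option autoImplicit false
open Cfsg

namespace Cfsg.Agent.S2302

/-- Over a finite field with q elements of characteristic 2, the involutions of SL₂ (the non-identity unipotent elements) form a single conjugacy class, of size q² − 1. -/
theorem result {F : Type*} [Field F] [Fintype F] [CharP F 2] (g h : Matrix.SpecialLinearGroup (Fin 2) F) (hg : orderOf g = 2) (hh : orderOf h = 2) :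
    IsConj g h ∧ Nat.card (ConjClasses.mk g).carrier = Fintype.card F ^ 2 - 1 := by
  have : Fact (Nat.Prime 2) := ⟨Nat.prime_two⟩
  have hchar : ringChar F = 2 := ringChar.eq_iff.mpr inferInstance
  obtain ⟨h1, h2⟩ := Cfsg.Agent.Lib.Helper15.SL2_order_p 2 g hg
  obtain ⟨h1', h2'⟩ := Cfsg.Agent.Lib.Helper15.SL2_order_p 2 h hh
  exact ⟨Cfsg.Agent.Lib.Helper15.SL2_isConj_of_trace g h (Or.inl hchar) h2 h2' (h1.trans h1'.symm),
    Cfsg.Agent.Lib.Helper15.card_class_SL2_even g h2 h1⟩

end Cfsg.Agent.S2302
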