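import Cfsg.Statements.S2303
import Cfsg.Agent.Lib.Helper15.GL2Centralizer

set_option autoImplicit false
open Cfsg

namespace Cfsg.Agent.S2303

theorem card_pairs {F : Type*} [Field F] (a d : F) (had : a ≠ d) :
    Nat.card {p : F × F // p.1 + a * p.2 ≠ 0 ∧ p.1 + d * p.2 ≠ 0} = Nat.card (Fˣ × Fˣ) := by
  have hsub : a - d ≠ 0 := sub_ne_zero.mpr had
  apply Nat.card_congr
  refine ⟨fun p => (Units.mk0 (p.1.1 + a * p.1.2) p.2.1, Units.mk0 (p.1.1 + d * p.1.2) p.2.2),
    fun r => ⟨((r.1 : F) - a * (((r.1 : F) - (r.2 : F)) / (a - d)), ((r.1 : F) - (r.2 : F)) / (a - d)), ?_, ?_⟩, ?_, ?_⟩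
  · have h1 := r.1.ne_zero
    simp only
    have : (r.1 : F) - a * (((r.1 : F) - (r.2 : F)) / (a - d)) + a * (((r.1 : F) - (r.2 : F)) / (a - d)) = (r.1 : F) := by ring
    rw [this]; exact h1
  · have h2 := r.2.ne_zero
    simp only
    have : (r.1 : F) - a * (((r.1 : F) - (r.2 : F)) / (a - d)) + d * (((r.1 : F) - (r.2 : F)) / (a - d)) = (r.2 : F) := by
      field_simp
      ring
    rw [this]; exact h2
  · rintro ⟨⟨x, y⟩, hp⟩
    apply Subtype.ext
    simp only [Units.val_mk0]
    refine Prod.ext ?_ ?_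
    · simp only
      field_simp
      ring
    · simp only
      field_simp
      ring
  · rintro ⟨u, v⟩
    refine Prod.ext ?_ ?_
    · apply Units.ext
      simp only [Units.val_mk0]
      ring
    · apply Units.ext
      simp only [Units.val_mk0]
      field_simp
      ring

/-- Over a finite field with q elements: a diagonal element of GL₂ with two distinct diagonal entries has centralizer of order (q − 1)² (so q(q + 1) conjugates), and an element of GL₂ with no eigenvector in F² has centralizer of order q² − 1 (so q(q − 1) conjugates). -/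
theorem result {F : Type*} [Field F] [Fintype F] (g : Matrix.GeneralLinearGroup (Fin 2) F) :
    ((g : Matrix (Fin 2) (Fin 2) F) 0 1 = 0 → (g : Matrix (Fin 2) (Fin 2) F) 1 0 = 0 → (g : Matrix (Fin 2) (Fin 2) F) 0 0 ≠ (g : Matrix (Fin 2) (Fin 2) F) 1 1 →
      Nat.card (Subgroup.centralizer ({g} : Set (Matrix.GeneralLinearGroup (Fin 2) F))) = (Fintype.card F - 1) ^ 2) ∧
    ((∀ (c : F) (v : Fin 2 → F), v ≠ 0 → (g : Matrix (Fin 2) (Fin 2) F).mulVec v ≠ c • v) →
      Nat.card (Subgroup.centralizer ({g} : Set (Matrix.GeneralLinearGroup (Fin 2) F))) = Fintype.card F ^ 2 - 1) := by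
  classical
  constructor
  · intro g01 g10 hne
    have hns : ¬ Cfsg.Agent.Lib.Helper15.IsScalar2 (g : Matrix (Fin 2) (Fin 2) F) := fun h => hne h.2.2
    rw [Cfsg.Agent.Lib.Helper15.card_centralizer_GL2 g hns]
    have hsub : (g : Matrix (Fin 2) (Fin 2) F) 0 0 - (g : Matrix (Fin 2) (Fin 2) F) 1 1 ≠ 0 := sub_ne_zero.mpr hne
    have e0 : ∀ p : F × F, (p.1 ^ 2 + (g : Matrix (Fin 2) (Fin 2) F).trace * p.1 * p.2 +
        (g : Matrix (Fin 2) (Fin 2) F).det * p.2 ^ 2 ≠ 0) ↔
        (p.1 + (g : Matrix (Fin 2) (Fin 2) F) 0 0 * p.2 ≠ 0 ∧ p.1 + (g : Matrix (Fin 2) (Fin 2) F) 1 1 * p.2 ≠ 0) := by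
      intro p
      rw [Matrix.trace_fin_two, Matrix.det_fin_two, g01, g10, ← mul_ne_zero_iff]
      have : p.1 ^ 2 + ((g : Matrix (Fin 2) (Fin 2) F) 0 0 + (g : Matrix (Fin 2) (Fin 2) F) 1 1) * p.1 * p.2 +
          ((g : Matrix (Fin 2) (Fin 2) F) 0 0 * (g : Matrix (Fin 2) (Fin 2) F) 1 1 - 0 * 0) * p.2 ^ 2 =
          (p.1 + (g : Matrix (Fin 2) (Fin 2) F) 0 0 * p.2) * (p.1 + (g : Matrix (Fin 2) (Fin 2) F) 1 1 * p.2) := by ring
      rw [this]
    have e1 : Nat.card {p : F × F // p.1 ^ 2 + (g : Matrix (Fin 2) (Fin 2) F).trace * p.1 * p.2 +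
        (g : Matrix (Fin 2) (Fin 2) F).det * p.2 ^ 2 ≠ 0} = Nat.card (Fˣ × Fˣ) := by
      rw [Nat.card_congr (Equiv.subtypeEquivRight e0)]
      exact card_pairs _ _ hne
    rw [e1, Nat.card_prod, Nat.card_eq_fintype_card, Fintype.card_units, pow_two]
  · intro hev
    have hns : ¬ Cfsg.Agent.Lib.Helper15.IsScalar2 (g : Matrix (Fin 2) (Fin 2) F) := by
      rintro ⟨h1, h2, h3⟩
      apply hev ((g : Matrix (Fin 2) (Fin 2) F) 0 0) ![1, 0]
      · intro h
        have := congrFun h 0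
        simp at this
      · ext i
        fin_cases i <;> simp [Matrix.mulVec, dotProduct, Fin.sum_univ_two, h2]
    rw [Cfsg.Agent.Lib.Helper15.card_centralizer_GL2 g hns]
    have e1 : ∀ p : F × F, (p.1 ^ 2 + (g : Matrix (Fin 2) (Fin 2) F).trace * p.1 * p.2 +
        (g : Matrix (Fin 2) (Fin 2) F).det * p.2 ^ 2 ≠ 0) ↔ p ≠ 0 := by
      rintro ⟨x, y⟩
      constructor
      · intro h h0
        apply h
        obtain ⟨rfl, rfl⟩ := Prod.mk.inj h0
        ring
      · intro hne hN
        rw [← Cfsg.Agent.Lib.Helper15.det_lin] at hN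
        obtain ⟨v, hv, hMv⟩ := Matrix.exists_mulVec_eq_zero_iff.mpr hN
        rw [Matrix.add_mulVec, Matrix.smul_mulVec, Matrix.smul_mulVec, Matrix.one_mulVec] at hMv
        by_cases hy : y = 0
        · rw [hy, zero_smul, add_zero] at hMv
          have hx : x = 0 := by
            rcases smul_eq_zero.mp hMv with h | h
            · exact h
            · exact absurd h hv
          exact hne (by rw [hx, hy]; rfl)
        · apply hev (-x / y) v hv
          have : y • ((g : Matrix (Fin 2) (Fin 2) F).mulVec v) = y • ((-x / y) • v) := by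
            rw [smul_smul, mul_div_cancel₀ _ hy, neg_smul]
            exact eq_neg_of_add_eq_zero_right hMv
          exact smul_right_injective _ hy this
    have e2 : Nat.card {p : F × F // p.1 ^ 2 + (g : Matrix (Fin 2) (Fin 2) F).trace * p.1 * p.2 +
        (g : Matrix (Fin 2) (Fin 2) F).det * p.2 ^ 2 ≠ 0} = Nat.card {p : F × F // p ≠ 0} :=
      Nat.card_congr (Equiv.subtypeEquivRight e1)
    rw [e2, Nat.card_eq_fintype_card]
    have := Set.card_ne_eq (0 : F × F)
    rw [Fintype.card_prod] at this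
    rw [pow_two]
    convert this

end Cfsg.Agent.S2303
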