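import Cfsg.Statements.S2307
import Mathlib
import Cfsg.Agent.Lib.Helper15.SL2Split

set_option autoImplicit false
open Cfsg

namespace Cfsg.Agent.S2307

/-- Over a finite field F with q elements, q odd, let α be the multiplicative character of F of order 2. The character of SL₂ induced from the linear character b ↦ α(b₁₁) of the upper triangular subgroup is the sum of two distinct irreducible characters, each of degree (q + 1)/2, which are conjugate under GL₂: some fixed element of GL₂ conjugates the one into the other. -/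
theorem result {F : Type*} [Field F] [Fintype F] [DecidableEq F] (hodd : Odd (Fintype.card F)) (α : MulChar F ℂ)
    (hα : α ^ 2 = 1) (hα1 : α ≠ 1) :
    ∃ χ₁ χ₂ : Matrix.SpecialLinearGroup (Fin 2) F → ℂ, Cfsg.IsIrrCharacter (Matrix.SpecialLinearGroup (Fin 2) F) χ₁ ∧ Cfsg.IsIrrCharacter (Matrix.SpecialLinearGroup (Fin 2) F) χ₂ ∧ χ₁ ≠ χ₂ ∧
      Cfsg.indFun ((Cfsg.upperTriangularGL 2 F).comap Matrix.SpecialLinearGroup.toGL) (fun b => α (((b : Matrix.SpecialLinearGroup (Fin 2) F) : Matrix (Fin 2) (Fin 2) F) 0 0)) = χ₁ + χ₂ ∧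
      χ₁ 1 = (((Fintype.card F + 1) / 2 : ℕ) : ℂ) ∧ χ₂ 1 = (((Fintype.card F + 1) / 2 : ℕ) : ℂ) ∧
      ∃ x : Matrix.GeneralLinearGroup (Fin 2) F, ∀ g h : Matrix.SpecialLinearGroup (Fin 2) F,
        Matrix.SpecialLinearGroup.toGL h = x * Matrix.SpecialLinearGroup.toGL g * x⁻¹ → χ₂ h = χ₁ g := by
  obtain ⟨χ₁, χ₂, h1, h2, hne, hsum, hd1, hd2, t, ht⟩ :=
    Cfsg.Agent.Lib.Helper15.piS_quad_split α hα hα1
  refine ⟨χ₁, χ₂, h1, h2, hne, hsum, hd1, hd2,
    ((Cfsg.Agent.Lib.Helper15.borelG t 1 0 : Cfsg.Agent.Lib.Helper15.borelGL F) :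
      Matrix.GeneralLinearGroup (Fin 2) F), ?_⟩
  intro g h hgh
  have : h = Cfsg.Agent.Lib.Helper15.twistS t g :=
    Matrix.SpecialLinearGroup.toGL_injective
      (by rw [hgh, Cfsg.Agent.Lib.Helper15.twistS_toGL])
  rw [this, ht]

end Cfsg.Agent.S2307
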