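import Cfsg.Statements.S2309
import Mathlib
import Cfsg.Agent.Lib.Helper15.GL2Values

set_option autoImplicit false
open Cfsg

namespace Cfsg.Agent.S2309

/-- Over a finite field F with q elements: every irreducible complex character of GL₂ of degree q − 1 vanishes at every diagonal matrix with two distinct entries, and every irreducible complex character of degree q + 1 vanishes at every element with no eigenvector in F². -/
theorem result {F : Type*} [Field F] [Fintype F] (χ : Matrix.GeneralLinearGroup (Fin 2) F → ℂ) (hχ : Cfsg.IsIrrCharacter (Matrix.GeneralLinearGroup (Fin 2) F) χ) (g : Matrix.GeneralLinearGroup (Fin 2) F) :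
    (χ 1 = (Fintype.card F : ℂ) - 1 → (g : Matrix (Fin 2) (Fin 2) F) 0 1 = 0 → (g : Matrix (Fin 2) (Fin 2) F) 1 0 = 0 → (g : Matrix (Fin 2) (Fin 2) F) 0 0 ≠ (g : Matrix (Fin 2) (Fin 2) F) 1 1 → χ g = 0) ∧
    (χ 1 = (Fintype.card F : ℂ) + 1 → (∀ (c : F) (v : Fin 2 → F), v ≠ 0 → (g : Matrix (Fin 2) (Fin 2) F).mulVec v ≠ c • v) → χ g = 0) := by
  classical
  have hq2 : 2 ≤ Fintype.card F := Fintype.one_lt_card
  refine ⟨?_, ?_⟩
  · intro hdeg g01 g10 hne
    obtain ⟨a, d, ha, hd, hg⟩ := Cfsg.Agent.Lib.Helper15.GL_eq_borelG g g10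
    rw [g01] at hg
    have had : a ≠ d := by intro h; apply hne; rw [← ha, ← hd, h]
    rcases Cfsg.Agent.Lib.Helper15.GL2_irr_cases' χ hχ with ⟨α, rfl⟩ | ⟨α, rfl⟩ | ⟨α, β, hαβ, rfl⟩ | ⟨hc, _⟩
    · exfalso
      rw [Cfsg.Agent.Lib.Helper15.linG_one] at hdeg
      have h2 : (Fintype.card F : ℂ) = ((2 : ℕ) : ℂ) := by push_cast; linear_combination -hdeg
      have h2' : Fintype.card F = 2 := Nat.cast_injective h2
      have hu : Fintype.card Fˣ = 1 := by rw [Fintype.card_units, h2']
      have := Fintype.card_le_one_iff_subsingleton.mp hu.le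
      exact had (Subsingleton.elim a d)
    · exfalso; rw [Cfsg.Agent.Lib.Helper15.stG_one] at hdeg
      have : (1 : ℂ) = 0 := by linear_combination hdeg
      simp at this
    · exfalso; rw [Cfsg.Agent.Lib.Helper15.piG_one] at hdeg
      have : (2 : ℂ) = 0 := by linear_combination hdeg
      norm_num at this
    · rw [hg]
      exact Cfsg.Agent.Lib.Helper15.cusp_reg χ
        (Cfsg.Agent.Lib.Helper2.isClassFunction_of_isIrrCharacter hχ) hc a d had
  · intro hdeg hell
    rcases Cfsg.Agent.Lib.Helper15.GL2_irr_cases' χ hχ with ⟨α, rfl⟩ | ⟨α, rfl⟩ | ⟨α, β, hαβ, rfl⟩ | ⟨hc, hd⟩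
    · exfalso; rw [Cfsg.Agent.Lib.Helper15.linG_one] at hdeg
      have h0 : (Fintype.card F : ℂ) = ((0 : ℕ) : ℂ) := by push_cast; linear_combination -hdeg
      have := Nat.cast_injective h0
      omega
    · exfalso; rw [Cfsg.Agent.Lib.Helper15.stG_one] at hdeg
      have : (1 : ℂ) = 0 := by linear_combination -hdeg
      simp at this
    · exact Cfsg.Agent.Lib.Helper15.piG_elliptic α β g hell
    · exfalso; rw [hd] at hdeg
      have : (2 : ℂ) = 0 := by linear_combination -hdeg
      norm_num at this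

end Cfsg.Agent.S2309
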