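import Cfsg.Statements.S2310
import Mathlib
import Cfsg.Agent.Lib.Helper15.GL2Values

set_option autoImplicit false
open Cfsg

namespace Cfsg.Agent.S2310

/-- Over a finite field F with q ≥ 3 elements, let u be the upper unitriangular matrix of GL₂ with off-diagonal entry 1. An irreducible complex character χ of GL₂ takes at u the value 1 if χ has degree 1 or q + 1, the value −1 if χ has degree q − 1, and the value 0 if χ has degree q. -/
theorem result {F : Type*} [Field F] [Fintype F] (hq : 3 ≤ Fintype.card F) (χ : Matrix.GeneralLinearGroup (Fin 2) F → ℂ) (hχ : Cfsg.IsIrrCharacter (Matrix.GeneralLinearGroup (Fin 2) F) χ)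
    (u : Matrix.GeneralLinearGroup (Fin 2) F) (hu : (u : Matrix (Fin 2) (Fin 2) F) = !![1, 1; 0, 1]) :
    (χ 1 = 1 → χ u = 1) ∧ (χ 1 = (Fintype.card F : ℂ) + 1 → χ u = 1) ∧
    (χ 1 = (Fintype.card F : ℂ) - 1 → χ u = -1) ∧ (χ 1 = (Fintype.card F : ℂ) → χ u = 0) := by
  classical
  open Cfsg.Agent.Lib.Helper15 Cfsg.Agent.Lib.Helper2 in
  obtain ⟨n1, n2, n3⟩ := card_cast_facts hq
  have hug : u = ((Cfsg.Agent.Lib.Helper15.borelG (1 : Fˣ) (1 : Fˣ) (1 : F) : Cfsg.Agent.Lib.Helper15.borelGL F) : Matrix.GeneralLinearGroup (Fin 2) F) := by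
    apply Units.ext; rw [Cfsg.Agent.Lib.Helper15.borelG_val, hu]; simp
  have hL : ∀ α : MulChar F ℂ, Cfsg.Agent.Lib.Helper15.linG α u = 1 := by
    intro α; simp [Cfsg.Agent.Lib.Helper15.linG, hu, Matrix.det_fin_two_of]
  have hP : ∀ α β : MulChar F ℂ, Cfsg.Agent.Lib.Helper15.piG α β u = 1 := by
    intro α β; rw [hug, Cfsg.Agent.Lib.Helper15.piG_unip α β 1 1 one_ne_zero]; simp
  have hS : ∀ α : MulChar F ℂ, Cfsg.Agent.Lib.Helper15.stG α u = 0 := by
    intro α; unfold Cfsg.Agent.Lib.Helper15.stG; rw [Pi.sub_apply, hP, hL]; ring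
  have hC : (∀ α β : MulChar F ℂ, Cfsg.classInner (Cfsg.Agent.Lib.Helper15.piG α β) χ = 0) →
      χ 1 = (Fintype.card F : ℂ) - 1 → χ u = -1 := by
    intro hc hd
    have h1 := Cfsg.Agent.Lib.Helper15.cusp_unip χ
      (Cfsg.Agent.Lib.Helper2.isClassFunction_of_isIrrCharacter hχ) hc
    rw [← hug, hd] at h1
    have hne := Cfsg.Agent.Lib.Helper15.card_sub_one_ne_zero (F := F)
    have : ((Fintype.card F : ℂ) - 1) * (χ u + 1) = 0 := by linear_combination h1
    rcases mul_eq_zero.mp this with h | h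
    · exact absurd h hne
    · linear_combination h
  rcases Cfsg.Agent.Lib.Helper15.GL2_irr_cases' χ hχ with ⟨α, rfl⟩ | ⟨α, rfl⟩ | ⟨α, β, hαβ, rfl⟩ | ⟨hc, hd⟩
  · refine ⟨fun _ => hL α, fun h => ?_, fun h => ?_, fun h => ?_⟩
    · rw [Cfsg.Agent.Lib.Helper15.linG_one] at h; exact absurd h n2
    · rw [Cfsg.Agent.Lib.Helper15.linG_one] at h; exact absurd h n3
    · rw [Cfsg.Agent.Lib.Helper15.linG_one] at h; exact absurd h n1
  · refine ⟨fun h => ?_, fun h => ?_, fun h => ?_, fun _ => hS α⟩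
    · rw [Cfsg.Agent.Lib.Helper15.stG_one] at h; exact absurd h.symm n1
    · rw [Cfsg.Agent.Lib.Helper15.stG_one] at h; exfalso
      have : (1 : ℂ) = 0 := by linear_combination -h
      simp at this
    · rw [Cfsg.Agent.Lib.Helper15.stG_one] at h; exfalso
      have : (1 : ℂ) = 0 := by linear_combination h
      simp at this
  · refine ⟨fun h => ?_, fun _ => hP α β, fun h => ?_, fun h => ?_⟩
    · rw [Cfsg.Agent.Lib.Helper15.piG_one] at h; exact absurd h.symm n2
    · rw [Cfsg.Agent.Lib.Helper15.piG_one] at h; exfalso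
      have : (2 : ℂ) = 0 := by linear_combination h
      norm_num at this
    · rw [Cfsg.Agent.Lib.Helper15.piG_one] at h; exfalso
      have : (1 : ℂ) = 0 := by linear_combination h
      simp at this
  · refine ⟨fun h => ?_, fun h => ?_, fun _ => hC hc hd, fun h => ?_⟩
    · rw [hd] at h; exact absurd h.symm n3
    · rw [hd] at h; exfalso
      have : (2 : ℂ) = 0 := by linear_combination -h
      norm_num at this
    · rw [hd] at h; exfalso
      have : (1 : ℂ) = 0 := by linear_combination -h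
      simp at this

end Cfsg.Agent.S2310
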