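import Cfsg.Statements.S2317
import Cfsg.Agent.Lib.Helper15.JordanC
import Cfsg.Agent.Lib.Helper15.Unipotent
open Cfsg.Agent.Lib.Helper15.Jordan Cfsg.Agent.Lib.Helper15

set_option autoImplicit false
open Cfsg

namespace Cfsg.Agent.S2317

/-- Over a finite field of characteristic p, the conjugacy classes of GL_n consisting of elements of p-power order (the unipotent classes) are as many as the partitions of n. -/
theorem result {F : Type*} [Field F] [Fintype F] (p : ℕ) [Fact p.Prime] [CharP F p] (n : ℕ) :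
    Nat.card {C : ConjClasses (Matrix.GeneralLinearGroup (Fin n) F) //
      ∃ g : Matrix.GeneralLinearGroup (Fin n) F, (∃ k : ℕ, orderOf g = p ^ k) ∧ ConjClasses.mk g = C} =
      Fintype.card (Nat.Partition n) := by
  classical
  have hp : p.Prime := Fact.out
  -- the nilpotent part as an endomorphism
  let Nm : Matrix.GeneralLinearGroup (Fin n) F → ((Fin n → F) →ₗ[F] (Fin n → F)) :=
    fun g => Matrix.toLin' ((g : Matrix (Fin n) (Fin n) F) - 1)
  have htoLin_pow : ∀ (A : Matrix (Fin n) (Fin n) F) (k : ℕ),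
      (Matrix.toLin' A) ^ k = Matrix.toLin' (A ^ k) := by
    intro A k
    induction k with
    | zero => rw [pow_zero, pow_zero, Matrix.toLin'_one]; rfl
    | succ k ih => rw [pow_succ, ih, pow_succ, Matrix.toLin'_mul]; rfl
  have hnil : ∀ g : Matrix.GeneralLinearGroup (Fin n) F, (∃ k : ℕ, orderOf g = p ^ k) →
      IsNilpotent (Nm g) := by
    rintro g ⟨k, hk⟩
    refine ⟨p ^ k, ?_⟩
    show (Matrix.toLin' ((g : Matrix (Fin n) (Fin n) F) - 1)) ^ (p ^ k) = 0
    rw [htoLin_pow, sub_one_pow_char_pow p]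
    have h1 : g ^ (p ^ k) = 1 := by rw [← hk]; exact pow_orderOf_eq_one g
    have h2 := congrArg (fun x : GL (Fin n) F => (x : Matrix (Fin n) (Fin n) F)) h1
    have h3 : (g : Matrix (Fin n) (Fin n) F) ^ (p ^ k) = 1 := by simpa using h2
    rw [h3, sub_self, map_zero]
  -- conjugation invariance of the rank sequence
  have hconj : ∀ g g' : Matrix.GeneralLinearGroup (Fin n) F, IsConj g g' →
      ∀ k, rk (Nm g) k = rk (Nm g') k := by
    intro g g' hgg' k
    obtain ⟨c, hc⟩ := isConj_iff.mp hgg'
    have h1 : ((c⁻¹ : GL (Fin n) F) : Matrix (Fin n) (Fin n) F) * (c : Matrix (Fin n) (Fin n) F) = 1 := by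
      rw [← Matrix.GeneralLinearGroup.coe_mul, inv_mul_cancel]
      rfl
    have h2 : (c : Matrix (Fin n) (Fin n) F) * ((c⁻¹ : GL (Fin n) F) : Matrix (Fin n) (Fin n) F) = 1 := by
      rw [← Matrix.GeneralLinearGroup.coe_mul, mul_inv_cancel]
      rfl
    let φ : (Fin n → F) ≃ₗ[F] (Fin n → F) := Matrix.toLin'OfInv h1 h2
    have hφ : ∀ x, φ x = Matrix.toLin' (c : Matrix (Fin n) (Fin n) F) x := fun x => rfl
    have hcg : (c : Matrix (Fin n) (Fin n) F) * (g : Matrix (Fin n) (Fin n) F) =
        (g' : Matrix (Fin n) (Fin n) F) * (c : Matrix (Fin n) (Fin n) F) := by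
      have h3 : c * g = g' * c := by rw [← hc]; group
      have h4 := congrArg (fun x : GL (Fin n) F => (x : Matrix (Fin n) (Fin n) F)) h3
      simpa using h4
    apply rk_conj φ
    intro x
    rw [hφ, hφ]
    show Matrix.toLin' (c : Matrix (Fin n) (Fin n) F)
        (Matrix.toLin' ((g : Matrix (Fin n) (Fin n) F) - 1) x) =
      Matrix.toLin' ((g' : Matrix (Fin n) (Fin n) F) - 1)
        (Matrix.toLin' (c : Matrix (Fin n) (Fin n) F) x)
    rw [← LinearMap.comp_apply, ← LinearMap.comp_apply, ← Matrix.toLin'_mul, ← Matrix.toLin'_mul,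
      Matrix.mul_sub, Matrix.sub_mul, hcg, Matrix.mul_one, Matrix.one_mul]
  -- equal rank sequences give conjugacy
  have hconj' : ∀ g g' : Matrix.GeneralLinearGroup (Fin n) F, IsNilpotent (Nm g) →
      IsNilpotent (Nm g') → (∀ k, rk (Nm g) k = rk (Nm g') k) → IsConj g g' := by
    intro g g' hg hg' hrk
    obtain ⟨φ, hφ⟩ := nilp_conj (F := F) (Module.finrank F (Fin n → F)) (Fin n → F) (Fin n → F)
      (Nm g) (Nm g') rfl hg hg' hrk
    set P := LinearMap.toMatrix' φ.toLinearMap with hP
    set P' := LinearMap.toMatrix' φ.symm.toLinearMap with hP'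
    have hPP' : P * P' = 1 := by
      rw [hP, hP', ← LinearMap.toMatrix'_comp]
      have : φ.toLinearMap ∘ₗ φ.symm.toLinearMap = LinearMap.id := by
        apply LinearMap.ext
        intro x
        simp
      rw [this, LinearMap.toMatrix'_id]
    have hP'P : P' * P = 1 := by
      rw [hP, hP', ← LinearMap.toMatrix'_comp]
      have : φ.symm.toLinearMap ∘ₗ φ.toLinearMap = LinearMap.id := by
        apply LinearMap.ext
        intro x
        simp
      rw [this, LinearMap.toMatrix'_id]
    let c : GL (Fin n) F := ⟨P, P', hPP', hP'P⟩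
    rw [isConj_iff]
    refine ⟨c, ?_⟩
    rw [mul_inv_eq_iff_eq_mul]
    apply Units.ext
    show P * (g : Matrix (Fin n) (Fin n) F) = (g' : Matrix (Fin n) (Fin n) F) * P
    have h1 : P * ((g : Matrix (Fin n) (Fin n) F) - 1) = ((g' : Matrix (Fin n) (Fin n) F) - 1) * P := by
      apply Matrix.toLin'.injective
      apply LinearMap.ext
      intro x
      rw [Matrix.toLin'_mul, Matrix.toLin'_mul, LinearMap.comp_apply, LinearMap.comp_apply, hP,
        Matrix.toLin'_toMatrix']
      exact hφ x
    rw [Matrix.mul_sub, Matrix.sub_mul, Matrix.mul_one, Matrix.one_mul] at h1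
    exact sub_left_injective h1
  -- every unipotent element has a partition type
  have htype : ∀ g : Matrix.GeneralLinearGroup (Fin n) F, IsNilpotent (Nm g) →
      ∃ l : Nat.Partition n, ∀ k, rk (Nm g) k = (l.parts.map (fun x => x - k)).sum := by
    intro g hg
    obtain ⟨l, hl1, hl2, hl3⟩ := exists_type (F := F) (Module.finrank F (Fin n → F)) (Fin n → F)
      (Nm g) rfl hg
    rw [Module.finrank_fin_fun] at hl2
    exact ⟨⟨l, fun {i} hi => hl1 i hi, hl2⟩, hl3⟩
  -- every partition is realised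
  have hreal : ∀ l : Nat.Partition n, ∃ g : Matrix.GeneralLinearGroup (Fin n) F,
      (∃ k : ℕ, orderOf g = p ^ k) ∧ ∀ k, rk (Nm g) k = (l.parts.map (fun x => x - k)).sum := by
    intro l
    obtain ⟨N, hN, hrk⟩ := exists_nilp (F := F) l.parts n l.parts_sum
    have hA : IsNilpotent (LinearMap.toMatrix' N) := by
      obtain ⟨m, hm⟩ := hN
      refine ⟨m, ?_⟩
      apply Matrix.toLin'.injective
      rw [← htoLin_pow, Matrix.toLin'_toMatrix', hm, map_zero]
    obtain ⟨u, hu⟩ := hA.isUnit_one_add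
    have hu' : (u : Matrix (Fin n) (Fin n) F) - 1 = LinearMap.toMatrix' N := by
      rw [hu]
      simp
    have hnu : IsNilpotent ((u : Matrix (Fin n) (Fin n) F) - 1) := by rw [hu']; exact hA
    have h1 := unipotent_pow_eq_one p n u hnu
    have hdvd : orderOf u ∣ p ^ Nat.clog p n := orderOf_dvd_of_pow_eq_one h1
    obtain ⟨j, _, hj⟩ := (Nat.dvd_prime_pow hp).mp hdvd
    refine ⟨u, ⟨j, hj⟩, fun k => ?_⟩
    have h2 : Nm u = N := by
      show Matrix.toLin' ((u : Matrix (Fin n) (Fin n) F) - 1) = N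
      rw [hu', Matrix.toLin'_toMatrix']
    rw [h2, hrk]
  -- the bijection
  let S := {C : ConjClasses (Matrix.GeneralLinearGroup (Fin n) F) //
      ∃ g : Matrix.GeneralLinearGroup (Fin n) F, (∃ k : ℕ, orderOf g = p ^ k) ∧ ConjClasses.mk g = C}
  let rep : S → Matrix.GeneralLinearGroup (Fin n) F := fun C => Classical.choose C.2
  have hrep1 : ∀ C : S, ∃ k : ℕ, orderOf (rep C) = p ^ k := fun C => (Classical.choose_spec C.2).1
  have hrep2 : ∀ C : S, ConjClasses.mk (rep C) = C.1 := fun C => (Classical.choose_spec C.2).2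
  let f : S → Nat.Partition n := fun C => Classical.choose (htype (rep C) (hnil _ (hrep1 C)))
  have hf : ∀ C : S, ∀ k, rk (Nm (rep C)) k = ((f C).parts.map (fun x => x - k)).sum :=
    fun C => Classical.choose_spec (htype (rep C) (hnil _ (hrep1 C)))
  have hbij : Function.Bijective f := by
    constructor
    · intro C C' hCC'
      have h1 : ∀ k, rk (Nm (rep C)) k = rk (Nm (rep C')) k := by
        intro k
        rw [hf C k, hf C' k, hCC']
      have h2 := hconj' (rep C) (rep C') (hnil _ (hrep1 C)) (hnil _ (hrep1 C')) h1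
      apply Subtype.ext
      rw [← hrep2 C, ← hrep2 C']
      exact ConjClasses.mk_eq_mk_iff_isConj.mpr h2
    · intro l
      obtain ⟨g, hg1, hg2⟩ := hreal l
      refine ⟨⟨ConjClasses.mk g, g, hg1, rfl⟩, ?_⟩
      set C : S := ⟨ConjClasses.mk g, g, hg1, rfl⟩ with hC
      have h1 : IsConj (rep C) g := ConjClasses.mk_eq_mk_iff_isConj.mp (hrep2 C)
      have h2 : ∀ k, ((f C).parts.map (fun x => x - k)).sum = (l.parts.map (fun x => x - k)).sum := by
        intro k
        rw [← hf C k, hconj _ _ h1 k, hg2 k]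
      apply Nat.Partition.ext
      exact type_injective _ _ (fun x hx => (f C).parts_pos hx) (fun x hx => l.parts_pos hx) h2
  rw [← Nat.card_eq_fintype_card]
  exact Nat.card_eq_of_bijective f hbij

end Cfsg.Agent.S2317
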