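import Cfsg.Statements.S2320
import Mathlib
import Cfsg.Agent.Lib.Helper15.GL2Values

set_option autoImplicit false
open Cfsg

namespace Cfsg.Agent.S2320

/-- Over a finite field F with q elements, every irreducible complex character of GL₂ of degree q takes a value of absolute value 1 at every diagonal matrix with two different diagonal entries and at every element with no eigenvector in F². -/
theorem result {F : Type*} [Field F] [Fintype F] (χ : Matrix.GeneralLinearGroup (Fin 2) F → ℂ) (hχ : Cfsg.IsIrrCharacter (Matrix.GeneralLinearGroup (Fin 2) F) χ) (hdeg : χ 1 = (Fintype.card F : ℂ)) (g : Matrix.GeneralLinearGroup (Fin 2) F) :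
    ((g : Matrix (Fin 2) (Fin 2) F) 0 1 = 0 → (g : Matrix (Fin 2) (Fin 2) F) 1 0 = 0 → (g : Matrix (Fin 2) (Fin 2) F) 0 0 ≠ (g : Matrix (Fin 2) (Fin 2) F) 1 1 → ‖χ g‖ = 1) ∧
    ((∀ (c : F) (v : Fin 2 → F), v ≠ 0 → (g : Matrix (Fin 2) (Fin 2) F).mulVec v ≠ c • v) → ‖χ g‖ = 1) := by
  classical
  have hq2 : 2 ≤ Fintype.card F := Fintype.one_lt_card
  have hst : ∃ α : MulChar F ℂ, χ = Cfsg.Agent.Lib.Helper15.stG α := by
    rcases Cfsg.Agent.Lib.Helper15.GL2_irr_cases' χ hχ with ⟨α, rfl⟩ | h | ⟨α, β, hαβ, rfl⟩ | ⟨hc, hd⟩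
    · exfalso; rw [Cfsg.Agent.Lib.Helper15.linG_one] at hdeg
      have h1 : (Fintype.card F : ℂ) = ((1 : ℕ) : ℂ) := by rw [← hdeg]; simp
      have := Nat.cast_injective h1
      omega
    · exact h
    · exfalso; rw [Cfsg.Agent.Lib.Helper15.piG_one] at hdeg
      have : (1 : ℂ) = 0 := by linear_combination hdeg
      simp at this
    · exfalso; rw [hd] at hdeg
      have : (1 : ℂ) = 0 := by linear_combination -hdeg
      simp at this
  obtain ⟨α, rfl⟩ := hst
  refine ⟨?_, ?_⟩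
  · intro g01 g10 hne
    obtain ⟨a, d, ha, hd, hg⟩ := Cfsg.Agent.Lib.Helper15.GL_eq_borelG g g10
    rw [g01] at hg
    have had : a ≠ d := by intro h; apply hne; rw [← ha, ← hd, h]
    rw [hg, Cfsg.Agent.Lib.Helper15.stG_diag α a d had, norm_mul,
      Cfsg.Agent.Lib.Helper15.mulChar_norm, Cfsg.Agent.Lib.Helper15.mulChar_norm, one_mul]
  · intro hell
    unfold Cfsg.Agent.Lib.Helper15.stG
    rw [Pi.sub_apply, Cfsg.Agent.Lib.Helper15.piG_elliptic α α g hell, zero_sub, norm_neg]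
    have hdet : (g : Matrix (Fin 2) (Fin 2) F).det ≠ 0 :=
      ((Matrix.isUnit_iff_isUnit_det _).mp g.isUnit).ne_zero
    exact Cfsg.Agent.Lib.Helper15.mulChar_norm α (Units.mk0 _ hdet)

end Cfsg.Agent.S2320
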