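import Cfsg.Statements.S2321
import Cfsg.Agent.Lib.Helper15.SL2Count

set_option autoImplicit false
open Cfsg

namespace Cfsg.Agent.S2321

/-- Over a finite field F with q elements, an irreducible complex character of SL₂ of degree q (the Steinberg character) takes the value 1 at every diagonal matrix whose diagonal entry a has a² ≠ 1, the value −1 at every element with no eigenvector in F², and the value 0 at every upper triangular matrix with equal diagonal entries and non-zero upper right entry. -/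
theorem result {F : Type*} [Field F] [Fintype F] (χ : Matrix.SpecialLinearGroup (Fin 2) F → ℂ) (hχ : Cfsg.IsIrrCharacter (Matrix.SpecialLinearGroup (Fin 2) F) χ) (hdeg : χ 1 = (Fintype.card F : ℂ)) (g : Matrix.SpecialLinearGroup (Fin 2) F) :
    ((g : Matrix (Fin 2) (Fin 2) F) 0 1 = 0 → (g : Matrix (Fin 2) (Fin 2) F) 1 0 = 0 → (g : Matrix (Fin 2) (Fin 2) F) 0 0 ^ 2 ≠ 1 → χ g = 1) ∧
    ((∀ (c : F) (v : Fin 2 → F), v ≠ 0 → (g : Matrix (Fin 2) (Fin 2) F).mulVec v ≠ c • v) → χ g = -1) ∧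
    ((g : Matrix (Fin 2) (Fin 2) F) 1 0 = 0 → (g : Matrix (Fin 2) (Fin 2) F) 0 0 = (g : Matrix (Fin 2) (Fin 2) F) 1 1 → (g : Matrix (Fin 2) (Fin 2) F) 0 1 ≠ 0 → χ g = 0) := by
  classical
  have hst : χ = Cfsg.Agent.Lib.Helper15.stS := (Cfsg.Agent.Lib.Helper15.SL2_deg_q_iff χ hχ).mp hdeg
  subst hst
  have hd : (g : Matrix (Fin 2) (Fin 2) F) 0 0 * (g : Matrix (Fin 2) (Fin 2) F) 1 1 -
      (g : Matrix (Fin 2) (Fin 2) F) 0 1 * (g : Matrix (Fin 2) (Fin 2) F) 1 0 = 1 := by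
    rw [← Matrix.det_fin_two]; exact g.det_coe
  refine ⟨?_, ?_, ?_⟩
  · intro h01 h10 hsq
    rw [h01, zero_mul, sub_zero] at hd
    have h0 : (g : Matrix (Fin 2) (Fin 2) F) 0 0 ≠ 0 := left_ne_zero_of_mul_eq_one hd
    have h1 : (g : Matrix (Fin 2) (Fin 2) F) 1 1 ≠ 0 := right_ne_zero_of_mul_eq_one hd
    have hne : (g : Matrix (Fin 2) (Fin 2) F) 0 0 ≠ (g : Matrix (Fin 2) (Fin 2) F) 1 1 := by
      intro h; apply hsq; rw [pow_two]; nth_rewrite 2 [h]; exact hd
    have hg : (g : Matrix (Fin 2) (Fin 2) F) =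
        !![(g : Matrix (Fin 2) (Fin 2) F) 0 0, 0; 0, (g : Matrix (Fin 2) (Fin 2) F) 1 1] := by
      ext i j; fin_cases i <;> fin_cases j <;> simp [h01, h10]
    unfold Cfsg.Agent.Lib.Helper15.stS
    rw [Pi.sub_apply, Cfsg.Agent.Lib.Helper15.piS_apply, hg,
      Cfsg.Agent.Lib.Helper15.indVal_diag _ _ _ hne, MulChar.one_apply (Ne.isUnit h0),
      MulChar.one_apply (Ne.isUnit h1)]
    norm_num
  · intro hell
    unfold Cfsg.Agent.Lib.Helper15.stS
    rw [Pi.sub_apply, Cfsg.Agent.Lib.Helper15.piS_apply,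
      Cfsg.Agent.Lib.Helper15.indVal_elliptic _ _ hell]
    norm_num
  · intro h10 h01' hx
    have hg : (g : Matrix (Fin 2) (Fin 2) F) =
        !![(g : Matrix (Fin 2) (Fin 2) F) 0 0, (g : Matrix (Fin 2) (Fin 2) F) 0 1; 0,
          (g : Matrix (Fin 2) (Fin 2) F) 0 0] := by
      ext i j; fin_cases i <;> fin_cases j <;> simp [h10, ← h01']
    rw [h10, mul_zero, sub_zero] at hd
    have h0 : (g : Matrix (Fin 2) (Fin 2) F) 0 0 ≠ 0 := left_ne_zero_of_mul_eq_one hd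
    unfold Cfsg.Agent.Lib.Helper15.stS
    rw [Pi.sub_apply, Cfsg.Agent.Lib.Helper15.piS_apply, hg,
      Cfsg.Agent.Lib.Helper15.indVal_unip _ _ _ hx, MulChar.one_apply (Ne.isUnit h0)]
    norm_num

end Cfsg.Agent.S2321
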