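import Cfsg.Statements.S2322
import Cfsg.Agent.Lib.Helper15.SL2Ell

set_option autoImplicit false
open Cfsg

namespace Cfsg.Agent.S2322

/-- Over a finite field F with q elements, q odd: every irreducible complex character of SL₂ of degree q − 1 or (q − 1)/2 vanishes at every diagonal matrix whose diagonal entry a has a² ≠ 1, and every irreducible complex character of degree q + 1 or (q + 1)/2 vanishes at every element with no eigenvector in F². -/
theorem result {F : Type*} [Field F] [Fintype F] (hodd : Odd (Fintype.card F)) (χ : Matrix.SpecialLinearGroup (Fin 2) F → ℂ) (hχ : Cfsg.IsIrrCharacter (Matrix.SpecialLinearGroup (Fin 2) F) χ) (g : Matrix.SpecialLinearGroup (Fin 2) F) :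
    ((χ 1 = (Fintype.card F : ℂ) - 1 ∨ χ 1 = (((Fintype.card F - 1) / 2 : ℕ) : ℂ)) →
      (g : Matrix (Fin 2) (Fin 2) F) 0 1 = 0 → (g : Matrix (Fin 2) (Fin 2) F) 1 0 = 0 → (g : Matrix (Fin 2) (Fin 2) F) 0 0 ^ 2 ≠ 1 → χ g = 0) ∧
    ((χ 1 = (Fintype.card F : ℂ) + 1 ∨ χ 1 = (((Fintype.card F + 1) / 2 : ℕ) : ℂ)) →
      (∀ (c : F) (v : Fin 2 → F), v ≠ 0 → (g : Matrix (Fin 2) (Fin 2) F).mulVec v ≠ c • v) → χ g = 0) := by
  classical
  have hF : ringChar F ≠ 2 := Cfsg.Agent.Lib.Helper15.ringChar_ne_two_of_odd hodd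
  have hoddq : Fintype.card F % 2 = 1 := Nat.odd_iff.mp hodd
  have hq2 : 2 ≤ Fintype.card F := Fintype.one_lt_card
  have hcl := Cfsg.Agent.Lib.Helper2.isClassFunction_of_isIrrCharacter hχ
  constructor
  · intro hdeg h01 h10 hsq
    have hd : (g : Matrix (Fin 2) (Fin 2) F) 0 0 * (g : Matrix (Fin 2) (Fin 2) F) 1 1 -
        (g : Matrix (Fin 2) (Fin 2) F) 0 1 * (g : Matrix (Fin 2) (Fin 2) F) 1 0 = 1 := by
      rw [← Matrix.det_fin_two]; exact g.det_coe
    rw [h01, zero_mul, sub_zero] at hd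
    have h0 : (g : Matrix (Fin 2) (Fin 2) F) 0 0 ≠ 0 := left_ne_zero_of_mul_eq_one hd
    have hq5 : 5 ≤ Fintype.card F := by
      by_contra hlt
      have h3 : Fintype.card F = 3 := by omega
      apply hsq
      have := FiniteField.pow_card_sub_one_eq_one ((g : Matrix (Fin 2) (Fin 2) F) 0 0) h0
      rw [h3] at this
      exact this
    have hcusp : ∀ α : MulChar F ℂ,
        Cfsg.classInner (Cfsg.Agent.Lib.Helper15.piS α) χ = 0 := by
      rcases hdeg with h | h
      · exact ((Cfsg.Agent.Lib.Helper15.SL2_deg_q_sub_one_iff (by omega) χ hχ).mp h).1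
      · exact ((Cfsg.Agent.Lib.Helper15.SL2_deg_half_sub_iff hq5 hF χ hχ).mp h).1
    have hg : g = ((Cfsg.Agent.Lib.Helper15.borelS
        (Units.mk0 ((g : Matrix (Fin 2) (Fin 2) F) 0 0) h0) 0 :
          Cfsg.Agent.Lib.Helper15.borelSL F) : Matrix.SpecialLinearGroup (Fin 2) F) := by
      apply Subtype.ext
      rw [Cfsg.Agent.Lib.Helper15.borelS_val]
      ext i j
      fin_cases i <;> fin_cases j <;>
        simp [h01, h10, Units.val_inv_eq_inv_val, eq_inv_of_mul_eq_one_right hd]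
    rw [hg]
    exact Cfsg.Agent.Lib.Helper15.cuspS_diag χ hcl hcusp _ (by simpa using hsq) 0
  · intro hdeg hell
    rcases hdeg with h | h
    · obtain ⟨α, hα, rfl⟩ := (Cfsg.Agent.Lib.Helper15.SL2_deg_q_add_one_iff χ hχ).mp h
      rw [Cfsg.Agent.Lib.Helper15.piS_apply, Cfsg.Agent.Lib.Helper15.indVal_elliptic _ _ hell]
    · rcases Cfsg.Agent.Lib.Helper15.SL2_types χ hχ with
        ⟨_, h'⟩ | ⟨_, h'⟩ | ⟨_, h'⟩ | ⟨_, hne, _⟩ | ⟨hc, h' | ⟨_, h'⟩⟩
      · have := Nat.cast_injective (R := ℂ) (h'.symm.trans h); omega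
      · have := Nat.cast_injective (R := ℂ) (h'.symm.trans h); omega
      · have := Nat.cast_injective (R := ℂ) (h'.symm.trans h); omega
      · exact Cfsg.Agent.Lib.Helper15.typeD_elliptic hF χ hχ hne g hell
      · have e := Nat.cast_injective (R := ℂ) (h'.symm.trans h)
        have h3 : Fintype.card F = 3 := by omega
        exact Cfsg.Agent.Lib.Helper15.cuspS_three_elliptic h3 χ hχ hc
          (by rw [h', Nat.cast_sub Fintype.card_pos, Nat.cast_one]) g hell
      · have := Nat.cast_injective (R := ℂ) (h'.symm.trans h); omega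

end Cfsg.Agent.S2322
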