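import Cfsg.Statements.S2324
import Cfsg.Agent.Lib.Helper15.SL2Half

set_option autoImplicit false
open Cfsg

namespace Cfsg.Agent.S2324

/-- Over a finite field F with q elements, q odd and q ≥ 5, let u be the upper unitriangular matrix of SL₂ with off-diagonal entry 1 and let δ = (−1)^((q−1)/2). Every irreducible complex character χ of SL₂ of degree (q + 1)/2 satisfies (2χ(u) − 1)² = δq, and every irreducible complex character χ of degree (q − 1)/2 satisfies (2χ(u) + 1)² = δq; that is, χ(u) = (1 ± √(δq))/2 in the first case and χ(u) = (−1 ± √(δq))/2 in the second. Moreover two different irreducible characters of degree (q + 1)/2 take the two different values (their values at u add up to 1), and likewise for degree (q − 1)/2 (values adding up to −1). -/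
theorem result {F : Type*} [Field F] [Fintype F] (hodd : Odd (Fintype.card F)) (hq : 5 ≤ Fintype.card F)
    (u : Matrix.SpecialLinearGroup (Fin 2) F) (hu : (u : Matrix (Fin 2) (Fin 2) F) = !![1, 1; 0, 1]) :
    (∀ χ : Matrix.SpecialLinearGroup (Fin 2) F → ℂ, Cfsg.IsIrrCharacter (Matrix.SpecialLinearGroup (Fin 2) F) χ → χ 1 = (((Fintype.card F + 1) / 2 : ℕ) : ℂ) → (2 * χ u - 1) ^ 2 = (-1 : ℂ) ^ ((Fintype.card F - 1) / 2) * (Fintype.card F : ℂ)) ∧
    (∀ χ : Matrix.SpecialLinearGroup (Fin 2) F → ℂ, Cfsg.IsIrrCharacter (Matrix.SpecialLinearGroup (Fin 2) F) χ → χ 1 = (((Fintype.card F - 1) / 2 : ℕ) : ℂ) → (2 * χ u + 1) ^ 2 = (-1 : ℂ) ^ ((Fintype.card F - 1) / 2) * (Fintype.card F : ℂ)) ∧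
    (∀ χ₁ χ₂ : Matrix.SpecialLinearGroup (Fin 2) F → ℂ, Cfsg.IsIrrCharacter (Matrix.SpecialLinearGroup (Fin 2) F) χ₁ → Cfsg.IsIrrCharacter (Matrix.SpecialLinearGroup (Fin 2) F) χ₂ → χ₁ ≠ χ₂ →
      χ₁ 1 = (((Fintype.card F + 1) / 2 : ℕ) : ℂ) → χ₂ 1 = (((Fintype.card F + 1) / 2 : ℕ) : ℂ) → χ₁ u + χ₂ u = 1) ∧
    (∀ χ₁ χ₂ : Matrix.SpecialLinearGroup (Fin 2) F → ℂ, Cfsg.IsIrrCharacter (Matrix.SpecialLinearGroup (Fin 2) F) χ₁ → Cfsg.IsIrrCharacter (Matrix.SpecialLinearGroup (Fin 2) F) χ₂ → χ₁ ≠ χ₂ →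
      χ₁ 1 = (((Fintype.card F - 1) / 2 : ℕ) : ℂ) → χ₂ 1 = (((Fintype.card F - 1) / 2 : ℕ) : ℂ) → χ₁ u + χ₂ u = -1) := by
  classical
  have hF : ringChar F ≠ 2 := Cfsg.Agent.Lib.Helper15.ringChar_ne_two_of_odd hodd
  have hu1 : u = Cfsg.Agent.Lib.Helper15.unipS (1 : F) := by
    apply Subtype.ext
    rw [hu, Cfsg.Agent.Lib.Helper15.unipS_val]
  subst hu1
  obtain ⟨a, ha⟩ := FiniteField.exists_nonsquare hF
  have ha0 : a ≠ 0 := fun h => ha (by rw [h]; exact IsSquare.zero)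
  obtain ⟨t, ht⟩ : ∃ t : Fˣ, ¬ IsSquare (t : F) := ⟨Units.mk0 a ha0, ha⟩
  obtain ⟨χa, χb, hia, hib, hab, _, _, hiff, hsum, hdiff⟩ := Cfsg.Agent.Lib.Helper15.typeD_unip hF
  refine ⟨?_, ?_, ?_, ?_⟩
  · intro χ hχ hdeg
    have h1 := (Cfsg.Agent.Lib.Helper15.SL2_deg_half_add_iff hq hF χ hχ).mp hdeg
    rcases (hiff χ hχ).mp h1 with rfl | rfl
    · rw [← hdiff]
      congr 1
      linear_combination hsum
    · rw [← hdiff]
      linear_combination (3 * χ (Cfsg.Agent.Lib.Helper15.unipS 1) - 1 -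
        χa (Cfsg.Agent.Lib.Helper15.unipS 1)) * hsum
  · intro χ hχ hdeg
    obtain ⟨hc, _⟩ := (Cfsg.Agent.Lib.Helper15.SL2_deg_half_sub_iff hq hF χ hχ).mp hdeg
    exact (Cfsg.Agent.Lib.Helper15.cuspS_half_unip hF χ hχ hc hdeg t ht).2.2
  · intro χ₁ χ₂ h1 h2 hne hd1 hd2
    have e1 := (hiff χ₁ h1).mp ((Cfsg.Agent.Lib.Helper15.SL2_deg_half_add_iff hq hF χ₁ h1).mp hd1)
    have e2 := (hiff χ₂ h2).mp ((Cfsg.Agent.Lib.Helper15.SL2_deg_half_add_iff hq hF χ₂ h2).mp hd2)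
    rcases e1 with rfl | rfl <;> rcases e2 with rfl | rfl
    · exact absurd rfl hne
    · exact hsum
    · rw [add_comm]; exact hsum
    · exact absurd rfl hne
  · intro χ₁ χ₂ h1 h2 hne hd1 hd2
    obtain ⟨hc1, _⟩ := (Cfsg.Agent.Lib.Helper15.SL2_deg_half_sub_iff hq hF χ₁ h1).mp hd1
    obtain ⟨hc2, _⟩ := (Cfsg.Agent.Lib.Helper15.SL2_deg_half_sub_iff hq hF χ₂ h2).mp hd2
    obtain ⟨hs1, hne1, _⟩ := Cfsg.Agent.Lib.Helper15.cuspS_half_unip hF χ₁ h1 hc1 hd1 t ht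
    have key : χ₂ = fun m => χ₁ (Cfsg.Agent.Lib.Helper15.twistS t m) := by
      by_contra hcon
      obtain ⟨_, _, _, cB⟩ := Cfsg.Agent.Lib.Helper15.SL2_odd_count hF
      have : Fintype {χ : Cfsg.IrrCharacter (Matrix.SpecialLinearGroup (Fin 2) F) //
          (∀ α : MulChar F ℂ, Cfsg.classInner (Cfsg.Agent.Lib.Helper15.piS α) χ.1 = 0) ∧
            χ.1 1 = (((Fintype.card F - 1) / 2 : ℕ) : ℂ)} := Fintype.ofFinite _
      rw [Nat.card_eq_fintype_card] at cB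
      have h3 : 2 < Fintype.card {χ : Cfsg.IrrCharacter (Matrix.SpecialLinearGroup (Fin 2) F) //
          (∀ α : MulChar F ℂ, Cfsg.classInner (Cfsg.Agent.Lib.Helper15.piS α) χ.1 = 0) ∧
            χ.1 1 = (((Fintype.card F - 1) / 2 : ℕ) : ℂ)} :=
        Fintype.two_lt_card_iff.mpr ⟨⟨⟨χ₁, h1⟩, hc1, hd1⟩, ⟨⟨χ₂, h2⟩, hc2, hd2⟩,
          ⟨⟨fun m => χ₁ (Cfsg.Agent.Lib.Helper15.twistS t m),
              Cfsg.Agent.Lib.Helper15.twist_irr χ₁ h1 t⟩,
            fun α => by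
              change Cfsg.classInner (Cfsg.Agent.Lib.Helper15.piS α)
                (fun m => χ₁ (Cfsg.Agent.Lib.Helper15.twistS t m)) = 0
              rw [Cfsg.Agent.Lib.Helper15.classInner_piS_twist]; exact hc1 α,
            by
              change χ₁ (Cfsg.Agent.Lib.Helper15.twistS t 1) = _
              rw [Cfsg.Agent.Lib.Helper15.twistS_id]; exact hd1⟩,
          fun h => hne (congrArg (fun x => x.1.1) h),
          fun h => hne1 (congrArg (fun x => x.1.1) h).symm,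
          fun h => hcon (congrArg (fun x => x.1.1) h)⟩
      omega
    rw [key]
    simp only [Cfsg.Agent.Lib.Helper15.twistS_unipS, mul_one]
    exact hs1

end Cfsg.Agent.S2324
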