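import Cfsg.Statements.S2364
import Cfsg.Agent.Lib.Helper15.CommP2

set_option autoImplicit false
open Cfsg

namespace Cfsg.Agent.S2364

/-- Let F be a finite field of characteristic p, n ≥ 4, and let a, b be commuting elements of PSL(n, F) with a of order p. Then every prime divisor of the order of b divides the order of SL(n − 2, F). -/
theorem result {F : Type*} [Field F] [Fintype F] (p : ℕ) [Fact p.Prime] [CharP F p] (n : ℕ) (hn : 4 ≤ n)
    (a b : Matrix.ProjectiveSpecialLinearGroup (Fin n) F) (ha : orderOf a = p) (hab : Commute a b) :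
    (orderOf b).primeFactors ⊆ (Nat.card (Matrix.SpecialLinearGroup (Fin (n - 2)) F)).primeFactors := by
  classical
  intro r hr_mem
  rw [Nat.mem_primeFactors] at hr_mem ⊢
  obtain ⟨hr, hrb, -⟩ := hr_mem
  refine ⟨hr, ?_, Nat.card_pos.ne'⟩
  apply Cfsg.Agent.Lib.Helper15.CommP.dvd_card_SL (n - 2) (by omega) r hr
  by_contra hcon
  push Not at hcon
  have hrF : Fact r.Prime := ⟨hr⟩
  obtain ⟨s, a₁, c₁, ha₁1, ha₁p, hc₁1, hc₁p, hcomm⟩ :=
    Cfsg.Agent.Lib.Helper15.CommP.exists_lifts p n (by omega) a b ha hab r hr hrb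
  have key := Cfsg.Agent.Lib.Helper15.CommP.mat_eq_one p hn r s c₁.1 a₁.1
    (by rw [← Matrix.SpecialLinearGroup.coe_pow, hc₁p]; rfl)
    (fun h => ha₁1 (Subtype.ext h))
    (by rw [← Matrix.SpecialLinearGroup.coe_pow, ha₁p]; rfl)
    (by rw [← Matrix.SpecialLinearGroup.coe_mul, ← Matrix.SpecialLinearGroup.coe_mul, hcomm])
    (fun i hi1 hi2 => hcon.2 i hi1 hi2) hcon.1
  exact hc₁1 (Subtype.ext key)

end Cfsg.Agent.S2364
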