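import Cfsg.Statements.S2367
import Cfsg.Agent.Lib.Helper15.PrimeList

set_option autoImplicit false
open Cfsg

namespace Cfsg.Agent.S2367

open Cfsg.Agent.Lib.Helper15

theorem check (L : List (ℕ × ℕ)) (hprime : ∀ x ∈ L, x.1.Prime) (N : ℕ)
    (hN : N = (L.map fun x : ℕ × ℕ => x.1 ^ x.2).prod)
    (hcheck : ∀ x ∈ L, x.1 ≠ 2 → expOf L x.1 = 3 → x.1 ^ 3 < 2 ^ expOf L 2)
    (p : ℕ) (hodd : p ≠ 2) (h3 : N.factorization p = 3) : p ^ 3 < 2 ^ N.factorization 2 := by
  rw [hN, factorization_prod L hprime] at h3 ⊢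
  have hex : ∃ x ∈ L, x.1 = p := by
    by_contra hne
    push Not at hne
    have := expOf_eq_zero L p hne
    omega
  obtain ⟨x, hx, rfl⟩ := hex
  exact hcheck x hx hodd h3

theorem pow_ineq (k : ℕ) (hk : 3 ≤ k) : 16 * k ^ 3 ≤ 8 ^ k := by
  induction k, hk using Nat.le_induction with
  | base => norm_num
  | succ k hk ih =>
    have h1 : (k + 1) ^ 3 ≤ 8 * k ^ 3 := by
      have : k + 1 ≤ 2 * k := by omega
      calc (k + 1) ^ 3 ≤ (2 * k) ^ 3 := Nat.pow_le_pow_left this 3
        _ = 8 * k ^ 3 := by ring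
    calc 16 * (k + 1) ^ 3 ≤ 16 * (8 * k ^ 3) := Nat.mul_le_mul_left 16 h1
      _ = 8 * (16 * k ^ 3) := by ring
      _ ≤ 8 * 8 ^ k := Nat.mul_le_mul_left 8 ih
      _ = 8 ^ (k + 1) := by ring

theorem alt_case (n : ℕ) (hn : 5 ≤ n) (p : ℕ) (hp : p.Prime) (hodd : p ≠ 2)
    (h3 : (Nat.card (alternatingGroup (Fin n))).factorization p = 3) :
    p ^ 3 < 2 ^ (Nat.card (alternatingGroup (Fin n))).factorization 2 := by
  have : Fact p.Prime := ⟨hp⟩
  have : Fact (Nat.Prime 2) := ⟨Nat.prime_two⟩
  have : Nontrivial (Fin n) := Fin.nontrivial_iff_two_le.mpr (by omega)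
  set M := Nat.card (alternatingGroup (Fin n)) with hM
  have hcard : 2 * M = n.factorial := by
    rw [hM, two_mul_nat_card_alternatingGroup, Nat.card_eq_fintype_card, Fintype.card_perm, Fintype.card_fin]
  have hM0 : M ≠ 0 := by
    intro h
    rw [h, mul_zero] at hcard
    exact Nat.factorial_ne_zero n hcard.symm
  have hfac : (n.factorial).factorization = Finsupp.single 2 1 + M.factorization := by
    rw [← hcard, Nat.factorization_mul two_ne_zero hM0, Nat.Prime.factorization Nat.prime_two]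
  have hp3 : (n.factorial).factorization p = 3 := by
    rw [hfac, Finsupp.add_apply, Finsupp.single_apply, if_neg (Ne.symm hodd), zero_add, h3]
  have h2 : (n.factorial).factorization 2 = 1 + M.factorization 2 := by
    rw [hfac, Finsupp.add_apply, Finsupp.single_apply, if_pos rfl]
  rw [Nat.factorization_def _ hp] at hp3
  rw [Nat.factorization_def _ Nat.prime_two] at h2
  -- p is not 3
  have hp3' : p ≠ 3 := by
    rintro rfl
    rcases Nat.lt_or_ge n 9 with hlt | hge
    · have hdvd : n.factorial ∣ (8 : ℕ).factorial := Nat.factorial_dvd_factorial (by omega)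
      have h8 : padicValNat 3 (8 : ℕ).factorial = 2 := by
        rw [padicValNat_factorial (b := 2) (Nat.log_lt_of_lt_pow (by norm_num) (by norm_num))]
        decide
      have hle := (padicValNat_dvd_iff_le (p := 3) (a := n.factorial) (n := 3) (Nat.factorial_ne_zero n)).mpr (le_of_eq hp3.symm)
      have hle2 := (padicValNat_dvd_iff_le (p := 3) (a := (8 : ℕ).factorial) (n := 3) (Nat.factorial_ne_zero 8)).mp (hle.trans hdvd)
      omega
    · have hdvd : (9 : ℕ).factorial ∣ n.factorial := Nat.factorial_dvd_factorial hge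
      have h9 : padicValNat 3 (9 : ℕ).factorial = 4 := by
        rw [padicValNat_factorial (b := 3) (Nat.log_lt_of_lt_pow (by norm_num) (by norm_num))]
        decide
      have hle := (padicValNat_dvd_iff_le (p := 3) (a := (9 : ℕ).factorial) (n := 4) (Nat.factorial_ne_zero 9)).mpr (le_of_eq h9.symm)
      have hle2 := (padicValNat_dvd_iff_le (p := 3) (a := n.factorial) (n := 4) (Nat.factorial_ne_zero n)).mp (hle.trans hdvd)
      omega
  have hp5 : 5 ≤ p := by
    have h2 := hp.two_le
    rcases Nat.lt_or_ge p 5 with h | h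
    · interval_cases p
      · exact absurd rfl hodd
      · exact absurd rfl hp3'
      · exact absurd hp (by decide)
    · exact h
  -- 3p ≤ n
  have h3p : 3 * p ≤ n := by
    by_contra hlt
    push Not at hlt
    have hnp : n < p ^ 2 := by nlinarith
    have hlog : Nat.log p n < 2 := Nat.log_lt_of_lt_pow (by omega) hnp
    rw [padicValNat_factorial hlog] at hp3
    have : ∑ i ∈ Finset.Ico 1 2, n / p ^ i = n / p := by simp
    rw [this] at hp3
    have : n / p < 3 := (Nat.div_lt_iff_lt_mul hp.pos).mpr (by omega)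
    omega
  -- the 2-part
  have hlog2 : 2 ≤ Nat.log 2 n := Nat.le_log_of_pow_le (by norm_num) (by omega)
  have hv2 : n / 2 + n / 4 ≤ padicValNat 2 n.factorial := by
    rw [padicValNat_factorial (b := Nat.log 2 n + 1) (Nat.lt_succ_self _)]
    have hsub : Finset.Ico 1 3 ⊆ Finset.Ico 1 (Nat.log 2 n + 1) :=
      Finset.Ico_subset_Ico (le_refl 1) (by omega)
    have := Finset.sum_le_sum_of_subset (f := fun i => n / 2 ^ i) hsub
    have e : ∑ i ∈ Finset.Ico 1 3, n / 2 ^ i = n / 2 + n / 4 := by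
      simp [Finset.sum_Ico_eq_sum_range, Finset.sum_range_succ]
    omega
  set k := n / 4 with hk
  have hk3 : 3 ≤ k := by omega
  have hpk : p < 2 * k := by omega
  have hexp : 3 * k - 1 ≤ M.factorization 2 := by omega
  have h8 := pow_ineq k hk3
  have hp8 : p ^ 3 < 8 * k ^ 3 := by
    calc p ^ 3 < (2 * k) ^ 3 := Nat.pow_lt_pow_left hpk (by norm_num)
      _ = 8 * k ^ 3 := by ring
  have hpow : 2 ^ (3 * k - 1) * 2 = 8 ^ k := by
    rw [← pow_succ, show 3 * k - 1 + 1 = 3 * k by omega, pow_mul]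
    norm_num
  have hle : 2 ^ (3 * k - 1) ≤ 2 ^ M.factorization 2 := Nat.pow_le_pow_right (by norm_num) hexp
  have : 8 * k ^ 3 ≤ 2 ^ (3 * k - 1) := by omega
  omega

/-- Let G be an alternating group of degree at least 5 or a simple group with the order of one of the 26 sporadic groups, and let p be an odd prime such that p³ is the exact power of p dividing the order of G. Then p³ is less than the 2-part of the order of G. -/
theorem result {G : Type*} [Group G] [Finite G] (hG : Cfsg.IsAlternating G ∨ Cfsg.IsSporadic G)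
    (p : ℕ) (hp : p.Prime) (hodd : p ≠ 2) (h3 : (Nat.card G).factorization p = 3) :
    p ^ 3 < 2 ^ (Nat.card G).factorization 2 := by
  rcases hG with ⟨n, hn, ⟨e⟩⟩ | hG
  · have hc : Nat.card G = Nat.card (alternatingGroup (Fin n)) := Nat.card_congr e.toEquiv
    rw [hc] at h3 ⊢
    exact alt_case n hn p hp hodd h3
  · unfold Cfsg.IsSporadic at hG
    rcases hG with ⟨-, hc⟩ | ⟨-, hc⟩ | ⟨-, hc⟩ | ⟨-, hc⟩ | ⟨-, hc⟩ | ⟨-, hc⟩ | ⟨-, hc⟩ | ⟨-, hc⟩ | ⟨-, hc⟩ | ⟨-, hc⟩ | ⟨-, hc⟩ | ⟨-, hc⟩ | ⟨-, hc⟩ | ⟨-, hc⟩ | ⟨-, hc⟩ | ⟨-, hc⟩ | ⟨-, hc⟩ | ⟨-, hc⟩ | ⟨-, hc⟩ | ⟨-, hc⟩ | ⟨-, hc⟩ | ⟨-, hc⟩ | ⟨-, hc⟩ | ⟨-, hc⟩ | ⟨-, hc⟩ | ⟨-, hc⟩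
    · rw [hc] at h3 ⊢
      exact check [(2, 4), (3, 2), (5, 1), (11, 1)] (by decide) 7920 (by decide) (by decide) p hodd h3
    · rw [hc] at h3 ⊢
      exact check [(2, 6), (3, 3), (5, 1), (11, 1)] (by decide) 95040 (by decide) (by decide) p hodd h3
    · rw [hc] at h3 ⊢
      exact check [(2, 7), (3, 2), (5, 1), (7, 1), (11, 1)] (by decide) 443520 (by decide) (by decide) p hodd h3
    · rw [hc] at h3 ⊢
      exact check [(2, 7), (3, 2), (5, 1), (7, 1), (11, 1), (23, 1)] (by decide) 10200960 (by decide) (by decide) p hodd h3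
    · rw [hc] at h3 ⊢
      exact check [(2, 10), (3, 3), (5, 1), (7, 1), (11, 1), (23, 1)] (by decide) 244823040 (by decide) (by decide) p hodd h3
    · rw [hc] at h3 ⊢
      exact check [(2, 3), (3, 1), (5, 1), (7, 1), (11, 1), (19, 1)] (by decide) 175560 (by decide) (by decide) p hodd h3
    · rw [hc] at h3 ⊢
      exact check [(2, 7), (3, 3), (5, 2), (7, 1)] (by decide) 604800 (by decide) (by decide) p hodd h3
    · rw [hc] at h3 ⊢
      exact check [(2, 7), (3, 5), (5, 1), (17, 1), (19, 1)] (by decide) 50232960 (by decide) (by decide) p hodd h3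
    · rw [hc] at h3 ⊢
      exact check [(2, 21), (3, 3), (5, 1), (7, 1), (11, 3), (23, 1), (29, 1), (31, 1), (37, 1), (43, 1)] (by decide) 86775571046077562880 (by decide) (by decide) p hodd h3
    · rw [hc] at h3 ⊢
      exact check [(2, 21), (3, 9), (5, 4), (7, 2), (11, 1), (13, 1), (23, 1)] (by decide) 4157776806543360000 (by decide) (by decide) p hodd h3
    · rw [hc] at h3 ⊢
      exact check [(2, 18), (3, 6), (5, 3), (7, 1), (11, 1), (23, 1)] (by decide) 42305421312000 (by decide) (by decide) p hodd h3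
    · rw [hc] at h3 ⊢
      exact check [(2, 10), (3, 7), (5, 3), (7, 1), (11, 1), (23, 1)] (by decide) 495766656000 (by decide) (by decide) p hodd h3
    · rw [hc] at h3 ⊢
      exact check [(2, 17), (3, 9), (5, 2), (7, 1), (11, 1), (13, 1)] (by decide) 64561751654400 (by decide) (by decide) p hodd h3
    · rw [hc] at h3 ⊢
      exact check [(2, 18), (3, 13), (5, 2), (7, 1), (11, 1), (13, 1), (17, 1), (23, 1)] (by decide) 4089470473293004800 (by decide) (by decide) p hodd h3
    · rw [hc] at h3 ⊢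
      exact check [(2, 21), (3, 16), (5, 2), (7, 3), (11, 1), (13, 1), (17, 1), (23, 1), (29, 1)] (by decide) 1255205709190661721292800 (by decide) (by decide) p hodd h3
    · rw [hc] at h3 ⊢
      exact check [(2, 9), (3, 2), (5, 3), (7, 1), (11, 1)] (by decide) 44352000 (by decide) (by decide) p hodd h3
    · rw [hc] at h3 ⊢
      exact check [(2, 7), (3, 6), (5, 3), (7, 1), (11, 1)] (by decide) 898128000 (by decide) (by decide) p hodd h3
    · rw [hc] at h3 ⊢
      exact check [(2, 10), (3, 3), (5, 2), (7, 3), (17, 1)] (by decide) 4030387200 (by decide) (by decide) p hodd h3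
    · rw [hc] at h3 ⊢
      exact check [(2, 14), (3, 3), (5, 3), (7, 1), (13, 1), (29, 1)] (by decide) 145926144000 (by decide) (by decide) p hodd h3
    · rw [hc] at h3 ⊢
      exact check [(2, 13), (3, 7), (5, 2), (7, 1), (11, 1), (13, 1)] (by decide) 448345497600 (by decide) (by decide) p hodd h3
    · rw [hc] at h3 ⊢
      exact check [(2, 9), (3, 4), (5, 1), (7, 3), (11, 1), (19, 1), (31, 1)] (by decide) 460815505920 (by decide) (by decide) p hodd h3
    · rw [hc] at h3 ⊢
      exact check [(2, 14), (3, 6), (5, 6), (7, 1), (11, 1), (19, 1)] (by decide) 273030912000000 (by decide) (by decide) p hodd h3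
    · rw [hc] at h3 ⊢
      exact check [(2, 8), (3, 7), (5, 6), (7, 1), (11, 1), (31, 1), (37, 1), (67, 1)] (by decide) 51765179004000000 (by decide) (by decide) p hodd h3
    · rw [hc] at h3 ⊢
      exact check [(2, 15), (3, 10), (5, 3), (7, 2), (13, 1), (19, 1), (31, 1)] (by decide) 90745943887872000 (by decide) (by decide) p hodd h3
    · rw [hc] at h3 ⊢
      exact check [(2, 41), (3, 13), (5, 6), (7, 2), (11, 1), (13, 1), (17, 1), (19, 1), (23, 1), (31, 1), (47, 1)] (by decide) 4154781481226426191177580544000000 (by decide) (by decide) p hodd h3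
    · rw [hc] at h3 ⊢
      exact check [(2, 46), (3, 20), (5, 9), (7, 6), (11, 2), (13, 3), (17, 1), (19, 1), (23, 1), (29, 1), (31, 1), (41, 1), (47, 1), (59, 1), (71, 1)] (by decide) 808017424794512875886459904961710757005754368000000000 (by decide) (by decide) p hodd h3

end Cfsg.Agent.S2367
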