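import Cfsg.Statements.S2368
import Cfsg.Agent.Lib.Helper15.Unipotent

set_option autoImplicit false
open Cfsg

namespace Cfsg.Agent.S2368

/-- Let F be a finite field of characteristic p and m ≥ 1. Every element of GL(m, F) of p-power order has order less than p·m, and GL(m, F) has an element of p-power order at least m; so the largest order of a p-element of GL(m, F) is the least power of p that is at least m. -/
theorem result {F : Type*} [Field F] [Fintype F] (p : ℕ) [Fact p.Prime] [CharP F p] (m : ℕ) (hm : 1 ≤ m) :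
    (∀ g : Matrix.GeneralLinearGroup (Fin m) F, (∃ j : ℕ, orderOf g = p ^ j) → orderOf g < p * m) ∧
      ∃ g : Matrix.GeneralLinearGroup (Fin m) F, (∃ j : ℕ, orderOf g = p ^ j) ∧ m ≤ orderOf g := by
  have hp : p.Prime := Fact.out
  constructor
  · rintro g ⟨j, hj⟩
    have hnil : IsNilpotent ((g : Matrix (Fin m) (Fin m) F) - 1) := by
      refine ⟨p ^ j, ?_⟩
      rw [Cfsg.Agent.Lib.Helper15.sub_one_pow_char_pow p, sub_eq_zero]
      have h3 : g ^ (p ^ j) = 1 := by rw [← hj]; exact pow_orderOf_eq_one g
      have := congrArg (fun x : GL (Fin m) F => (x : Matrix (Fin m) (Fin m) F)) h3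
      simpa using this
    have h1 := (Cfsg.Agent.Lib.Helper15.unipotent_orderOf p m g hnil).1
    refine lt_of_le_of_lt h1 ?_
    rcases Nat.lt_or_ge 1 m with h2 | h2
    · have h3 := Nat.pow_pred_clog_lt_self hp.one_lt h2
      have h4 : 0 < Nat.clog p m := Nat.clog_pos hp.one_lt h2
      have h5 : p ^ Nat.clog p m = p * p ^ (Nat.clog p m).pred := by
        rw [← pow_succ']
        congr 1
        have := Nat.succ_pred_eq_of_pos h4
        omega
      rw [h5]
      exact Nat.mul_lt_mul_of_pos_left h3 hp.pos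
    · have h3 : m = 1 := le_antisymm h2 hm
      subst h3
      simp [hp.one_lt]
  · obtain ⟨u, hu1, hu2, -⟩ := Cfsg.Agent.Lib.Helper15.exists_jordan_block (F := F) m hm
    have h1 := (Cfsg.Agent.Lib.Helper15.unipotent_orderOf p m u hu1).2 hu2
    refine ⟨u, ⟨_, h1⟩, ?_⟩
    rw [h1]
    exact Nat.le_pow_clog hp.one_lt m

end Cfsg.Agent.S2368
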