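import Cfsg.Statements.S2388
import Cfsg.Agent.Lib.Helper15.SemiB
open Cfsg.Agent.Lib.Helper15

set_option autoImplicit false
open Cfsg

namespace Cfsg.Agent.S2388

/-- In `SL_n(q)`, `q` a power of the prime `p`, two elements of order prime to `p` with the same characteristic polynomial are conjugate in `SL_n(q)` (not merely in `GL_n`). -/
theorem result {F : Type*} [Field F] [Fintype F] (p : ℕ) [Fact p.Prime] [CharP F p] (n : ℕ)
    (g h : Matrix.SpecialLinearGroup (Fin n) F) (hg : (orderOf g).Coprime p) (hh : (orderOf h).Coprime p)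
    (hc : (g : Matrix (Fin n) (Fin n) F).charpoly = (h : Matrix (Fin n) (Fin n) F).charpoly) : IsConj g h := by
  classical
  rcases Nat.eq_zero_or_pos n with rfl | hn
  · have hgh : g = h := by
      apply Subtype.ext
      ext i
      exact i.elim0
    rw [hgh]
  · have hGss : Module.End.IsSemisimple (Matrix.toLin' (g : Matrix (Fin n) (Fin n) F)) := by
      apply Semi.ss_of_pow p _ (orderOf g) hg
      rw [← Matrix.SpecialLinearGroup.coe_pow, pow_orderOf_eq_one]
      rfl
    have hHss : Module.End.IsSemisimple (Matrix.toLin' (h : Matrix (Fin n) (Fin n) F)) := by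
      apply Semi.ss_of_pow p _ (orderOf h) hh
      rw [← Matrix.SpecialLinearGroup.coe_pow, pow_orderOf_eq_one]
      rfl
    obtain ⟨P, hP⟩ := isConj_iff.mp (Semi.ss_isConj (Matrix.SpecialLinearGroup.toGL g)
      (Matrix.SpecialLinearGroup.toGL h) hGss hHss hc)
    have hdetP : (P : Matrix (Fin n) (Fin n) F).det ≠ 0 :=
      ((Matrix.isUnit_iff_isUnit_det _).mp P.isUnit).ne_zero
    obtain ⟨C, hCcomm, hCdet⟩ := Semi.ds_matrix (g : Matrix (Fin n) (Fin n) F) hGss hn
      ((P : Matrix (Fin n) (Fin n) F).det)⁻¹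
    have hQdet : ((P : Matrix (Fin n) (Fin n) F) * C).det = 1 := by
      rw [Matrix.det_mul, hCdet, mul_inv_cancel₀ hdetP]
    have hPg : (P : Matrix (Fin n) (Fin n) F) * (g : Matrix (Fin n) (Fin n) F) =
        (h : Matrix (Fin n) (Fin n) F) * (P : Matrix (Fin n) (Fin n) F) := by
      have h1 := congrArg Units.val (mul_inv_eq_iff_eq_mul.mp hP)
      exact h1
    obtain ⟨Q, hQ⟩ : ∃ Q : Matrix.SpecialLinearGroup (Fin n) F,
        (Q : Matrix (Fin n) (Fin n) F) = (P : Matrix (Fin n) (Fin n) F) * C :=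
      ⟨⟨_, hQdet⟩, rfl⟩
    rw [isConj_iff]
    refine ⟨Q, ?_⟩
    rw [mul_inv_eq_iff_eq_mul]
    apply Subtype.ext
    show (Q : Matrix (Fin n) (Fin n) F) * (g : Matrix (Fin n) (Fin n) F) =
      (h : Matrix (Fin n) (Fin n) F) * (Q : Matrix (Fin n) (Fin n) F)
    rw [hQ, Matrix.mul_assoc, hCcomm, ← Matrix.mul_assoc, hPg, Matrix.mul_assoc]

end Cfsg.Agent.S2388
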