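import Cfsg.Statements.S2384
import Cfsg.Agent.S2388
import Cfsg.Agent.Lib.Helper15.SemiC
open Cfsg.Agent.Lib.Helper15

set_option autoImplicit false
open Cfsg

namespace Cfsg.Agent.S2384

/-- In `SL_n(q)`, `q` a power of the prime `p`, the number of conjugacy classes of elements of order prime to `p` (the semisimple classes) is `q^(n-1)`. -/
theorem result {F : Type*} [Field F] [Fintype F] {q : ℕ} (hq : Fintype.card F = q) (p : ℕ) [Fact p.Prime] [CharP F p] (n : ℕ) (hn : 1 ≤ n) :
    Nat.card {c : ConjClasses (Matrix.SpecialLinearGroup (Fin n) F) //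
      ∃ g : Matrix.SpecialLinearGroup (Fin n) F, ConjClasses.mk g = c ∧ (orderOf g).Coprime p} = q ^ (n - 1) := by
  classical
  have hsq : ∀ x : F, (-1 : F) ^ n * ((-1) ^ n * x) = x := by
    intro x
    rw [← mul_assoc, ← pow_add, ← two_mul, pow_mul, neg_one_sq, one_pow, one_mul]
  have hcp : ∀ g : Matrix.SpecialLinearGroup (Fin n) F,
      (g : Matrix (Fin n) (Fin n) F).charpoly.Monic ∧
      (g : Matrix (Fin n) (Fin n) F).charpoly.natDegree = n ∧
      (g : Matrix (Fin n) (Fin n) F).charpoly.coeff 0 = (-1) ^ n := by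
    intro g
    refine ⟨(Semi.charpoly_props _).1, (Semi.charpoly_props _).2, ?_⟩
    have hdet : (g : Matrix (Fin n) (Fin n) F).det = 1 := g.2
    rw [Matrix.det_eq_sign_charpoly_coeff, Fintype.card_fin] at hdet
    have h1 := hsq ((g : Matrix (Fin n) (Fin n) F).charpoly.coeff 0)
    rw [hdet, mul_one] at h1
    exact h1.symm
  have hinj : Function.Injective (Matrix.SpecialLinearGroup.toGL (n := Fin n) (R := F)) :=
    Matrix.SpecialLinearGroup.toGL_injective
  have hrep : ∀ c : {c : ConjClasses (Matrix.SpecialLinearGroup (Fin n) F) //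
      ∃ g : Matrix.SpecialLinearGroup (Fin n) F, ConjClasses.mk g = c ∧ (orderOf g).Coprime p},
      ∃ g : Matrix.SpecialLinearGroup (Fin n) F, ConjClasses.mk g = c.1 ∧ (orderOf g).Coprime p :=
    fun c => c.2
  choose rep hrep1 hrep2 using hrep
  have hbij : Function.Bijective
      (fun c : {c : ConjClasses (Matrix.SpecialLinearGroup (Fin n) F) //
        ∃ g : Matrix.SpecialLinearGroup (Fin n) F, ConjClasses.mk g = c ∧ (orderOf g).Coprime p} =>
      (⟨((rep c : Matrix.SpecialLinearGroup (Fin n) F) : Matrix (Fin n) (Fin n) F).charpoly, hcp _⟩ :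
        {f : Polynomial F // f.Monic ∧ f.natDegree = n ∧ f.coeff 0 = (-1) ^ n})) := by
    constructor
    · intro c c' hcc
      have h1 : ((rep c : Matrix.SpecialLinearGroup (Fin n) F) : Matrix (Fin n) (Fin n) F).charpoly =
          ((rep c' : Matrix.SpecialLinearGroup (Fin n) F) : Matrix (Fin n) (Fin n) F).charpoly :=
        congrArg Subtype.val hcc
      apply Subtype.ext
      rw [← hrep1 c, ← hrep1 c', ConjClasses.mk_eq_mk_iff_isConj]
      exact Cfsg.Agent.S2388.result p n _ _ (hrep2 c) (hrep2 c') h1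
    · rintro ⟨f, hm, hd, h0⟩
      have h0' : f.coeff 0 ≠ 0 := by
        rw [h0]
        exact pow_ne_zero _ (neg_ne_zero.mpr one_ne_zero)
      obtain ⟨g, hg, hgo⟩ := Semi.exists_charpoly p n f hm hd h0'
      have hdet : (g : Matrix (Fin n) (Fin n) F).det = 1 := by
        rw [Matrix.det_eq_sign_charpoly_coeff, Fintype.card_fin, hg, h0, ← pow_add, ← two_mul,
          pow_mul, neg_one_sq, one_pow]
      obtain ⟨s, hs⟩ : ∃ s : Matrix.SpecialLinearGroup (Fin n) F,
          (s : Matrix (Fin n) (Fin n) F) = (g : Matrix (Fin n) (Fin n) F) := ⟨⟨_, hdet⟩, rfl⟩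
      have hsg : Matrix.SpecialLinearGroup.toGL s = g := Units.ext hs
      have hso : (orderOf s).Coprime p := by
        rw [← orderOf_injective Matrix.SpecialLinearGroup.toGL hinj s, hsg]
        exact hgo
      refine ⟨⟨ConjClasses.mk s, s, rfl, hso⟩, ?_⟩
      apply Subtype.ext
      show ((rep ⟨ConjClasses.mk s, s, rfl, hso⟩ : Matrix.SpecialLinearGroup (Fin n) F) :
        Matrix (Fin n) (Fin n) F).charpoly = f
      rw [← hg, ← hs]
      obtain ⟨c, hc⟩ := isConj_iff.mp (ConjClasses.mk_eq_mk_iff_isConj.mp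
        (hrep1 ⟨ConjClasses.mk s, s, rfl, hso⟩))
      have h2 : IsConj (Matrix.SpecialLinearGroup.toGL (rep ⟨ConjClasses.mk s, s, rfl, hso⟩))
          (Matrix.SpecialLinearGroup.toGL s) := by
        rw [isConj_iff]
        refine ⟨Matrix.SpecialLinearGroup.toGL c, ?_⟩
        rw [← map_inv, ← map_mul, ← map_mul, hc]
      have h3 := Semi.charpoly_of_isConj h2
      rw [Matrix.SpecialLinearGroup.coe_GL_coe_matrix,
        Matrix.SpecialLinearGroup.coe_GL_coe_matrix] at h3
      exact h3
  rw [Nat.card_eq_of_bijective _ hbij, Semi.card_monic n hn (fun x : F => x = (-1) ^ n),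
    Fintype.card_subtype_eq, one_mul, hq]

end Cfsg.Agent.S2384
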