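import Cfsg.Statements.S2385
import Cfsg.Agent.Lib.Helper15.SpP
import Cfsg.Agent.Lib.Helper15.SpK
import Cfsg.Agent.Lib.Helper15.SpC
import Cfsg.Agent.S2389
open Cfsg.Agent.Lib.Helper15


set_option autoImplicit false
open Cfsg

namespace Cfsg.Agent.S2385

/-- In the symplectic group `Sp_{2n}(q)`, `q` a power of the prime `p`, the number of conjugacy classes of elements of order prime to `p` is `q^n`. -/
theorem result {F : Type*} [Field F] [Fintype F] {q : ℕ} (hq : Fintype.card F = q) (p : ℕ) [Fact p.Prime] [CharP F p] (n : ℕ) :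
    Nat.card {c : ConjClasses ↥(Matrix.symplecticGroup (Fin n) F) //
      ∃ g : ↥(Matrix.symplecticGroup (Fin n) F), ConjClasses.mk g = c ∧ (orderOf g).Coprime p} = q ^ n := by
  classical
  subst hq
  have hpal : ∀ g : ↥(Matrix.symplecticGroup (Fin n) F), SpP.Pal n g.1.charpoly := by
    intro g
    refine ⟨Matrix.charpoly_monic g.1, ?_, SpC.sp_charpoly_selfdual n g.1 g.2, ?_⟩
    · rw [Matrix.charpoly_natDegree_eq_dim, Fintype.card_sum, Fintype.card_fin, two_mul]
    · have h1 := Matrix.det_eq_sign_charpoly_coeff g.1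
      rw [SymplecticGroup.det_eq_one g.2, Fintype.card_sum, Fintype.card_fin,
        Even.neg_one_pow ⟨n, rfl⟩, one_mul] at h1
      exact h1.symm
  have hrep : ∀ c : {c : ConjClasses ↥(Matrix.symplecticGroup (Fin n) F) //
      ∃ g : ↥(Matrix.symplecticGroup (Fin n) F), ConjClasses.mk g = c ∧ (orderOf g).Coprime p},
      ∃ g : ↥(Matrix.symplecticGroup (Fin n) F), ConjClasses.mk g = c.1 ∧ (orderOf g).Coprime p :=
    fun c => c.2
  choose rep hrep1 hrep2 using hrep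
  rw [← SpK.pal_card F n]
  apply Nat.card_eq_of_bijective
    (fun c => (⟨(rep c).1.charpoly, hpal (rep c)⟩ : {f : Polynomial F // SpP.Pal n f}))
  constructor
  · intro c c' hcc
    have h1 : (rep c).1.charpoly = (rep c').1.charpoly := congrArg Subtype.val hcc
    apply Subtype.ext
    rw [← hrep1 c, ← hrep1 c', ConjClasses.mk_eq_mk_iff_isConj]
    exact Cfsg.Agent.S2389.result p n (rep c) (rep c') (hrep2 c) (hrep2 c') h1
  · rintro ⟨f, hf⟩
    obtain ⟨g, hgS, hgc, N, hN, hgN⟩ := SpP.real_pal p n f hf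
    have hUN : (⟨g, hgS⟩ : ↥(Matrix.symplecticGroup (Fin n) F)) ^ N = 1 := by
      apply Subtype.ext
      rw [SubmonoidClass.coe_pow]
      exact hgN
    have hord : (orderOf (⟨g, hgS⟩ : ↥(Matrix.symplecticGroup (Fin n) F))).Coprime p :=
      Nat.Coprime.coprime_dvd_left (orderOf_dvd_of_pow_eq_one hUN) hN
    refine ⟨⟨ConjClasses.mk ⟨g, hgS⟩, ⟨g, hgS⟩, rfl, hord⟩, ?_⟩
    apply Subtype.ext
    show (rep ⟨ConjClasses.mk ⟨g, hgS⟩, ⟨g, hgS⟩, rfl, hord⟩).1.charpoly = f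
    rw [← hgc]
    have hconj : IsConj (rep ⟨ConjClasses.mk ⟨g, hgS⟩, ⟨g, hgS⟩, rfl, hord⟩)
        (⟨g, hgS⟩ : ↥(Matrix.symplecticGroup (Fin n) F)) :=
      ConjClasses.mk_eq_mk_iff_isConj.mp (hrep1 ⟨ConjClasses.mk ⟨g, hgS⟩, ⟨g, hgS⟩, rfl, hord⟩)
    have h3 := SpC.sp_charpoly_of_isConj hconj
    exact h3

end Cfsg.Agent.S2385
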