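import Cfsg.Statements.S2390
import Cfsg.Agent.Lib.Helper15.UnitB
import Cfsg.Agent.Lib.Helper15.LawUnitary
open Cfsg.Agent.Lib.Helper15 Matrix

set_option autoImplicit false
open Cfsg

namespace Cfsg.Agent.S2390

/-- In the special unitary group `SU_n(q)` (inside `SL_n` over the field with `q²` elements), `q` a power of the prime `p`, two elements of order prime to `p` with the same characteristic polynomial are conjugate in `SU_n(q)`. -/
theorem result {F : Type*} [Field F] [Fintype F] {q : ℕ} (hF : Fintype.card F = q ^ 2) (p : ℕ) [Fact p.Prime] [CharP F p] (n : ℕ)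
    (g h : ↥(Cfsg.SU n F q)) (hg : (orderOf g).Coprime p) (hh : (orderOf h).Coprime p)
    (hc : ((g : Matrix.SpecialLinearGroup (Fin n) F) : Matrix (Fin n) (Fin n) F).charpoly =
      ((h : Matrix.SpecialLinearGroup (Fin n) F) : Matrix (Fin n) (Fin n) F).charpoly) : IsConj g h := by
  classical
  rcases Nat.eq_zero_or_pos n with rfl | hn
  · have hgh : g = h := by
      apply Subtype.ext
      apply Subtype.ext
      ext i
      exact i.elim0
    rw [hgh]
  · obtain ⟨φ, hφq, hφ⟩ := exists_frob hF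
    have hq0 : q ≠ 0 := Wall.card_sq_ne_zero hF
    have hne := Wall.frob_ne hF φ hφq
    obtain ⟨a, ha⟩ : ∃ a : Matrix (Fin n) (Fin n) F,
        a = ((g : Matrix.SpecialLinearGroup (Fin n) F) : Matrix (Fin n) (Fin n) F) := ⟨_, rfl⟩
    obtain ⟨b, hb⟩ : ∃ b : Matrix (Fin n) (Fin n) F,
        b = ((h : Matrix.SpecialLinearGroup (Fin n) F) : Matrix (Fin n) (Fin n) F) := ⟨_, rfl⟩
    have hau : Wall.cstar φ a * a = 1 := by
      have h1 := Wall.mem_GU_cstar hq0 φ hφq
        (Matrix.SpecialLinearGroup.toGL (g : Matrix.SpecialLinearGroup (Fin n) F))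
        (fun u v => g.2 u v)
      rw [ha]
      exact h1
    have hbu : Wall.cstar φ b * b = 1 := by
      have h1 := Wall.mem_GU_cstar hq0 φ hφq
        (Matrix.SpecialLinearGroup.toGL (h : Matrix.SpecialLinearGroup (Fin n) F))
        (fun u v => h.2 u v)
      rw [hb]
      exact h1
    have haN : a ^ orderOf g = 1 := by
      rw [ha, ← Matrix.SpecialLinearGroup.coe_pow, ← Subgroup.coe_pow, pow_orderOf_eq_one]
      rfl
    have hbN : b ^ orderOf h = 1 := by
      rw [hb, ← Matrix.SpecialLinearGroup.coe_pow, ← Subgroup.coe_pow, pow_orderOf_eq_one]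
      rfl
    have hGss : Module.End.IsSemisimple (Matrix.toLin' a) := Semi.ss_of_pow p a (orderOf g) hg haN
    have hHss : Module.End.IsSemisimple (Matrix.toLin' b) := Semi.ss_of_pow p b (orderOf h) hh hbN
    have hc' : a.charpoly = b.charpoly := by
      rw [ha, hb]
      exact hc
    have hau' : a * Wall.cstar φ a = 1 := mul_eq_one_comm.mp hau
    have hbu' : b * Wall.cstar φ b = 1 := mul_eq_one_comm.mp hbu
    obtain ⟨P, hP⟩ := isConj_iff.mp (Semi.ss_isConj
      (⟨a, Wall.cstar φ a, hau', hau⟩ : GL (Fin n) F)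
      (⟨b, Wall.cstar φ b, hbu', hbu⟩ : GL (Fin n) F) hGss hHss hc')
    have hdetP : (P : Matrix (Fin n) (Fin n) F).det ≠ 0 :=
      ((Matrix.isUnit_iff_isUnit_det _).mp P.isUnit).ne_zero
    have hPg : (P : Matrix (Fin n) (Fin n) F) * a = b * (P : Matrix (Fin n) (Fin n) F) := by
      have h1 := congrArg Units.val (mul_inv_eq_iff_eq_mul.mp hP)
      exact h1
    obtain ⟨u, hu, hua⟩ := Wall.unitary_conj φ hφ hne a b (P : Matrix (Fin n) (Fin n) F)
      hau hbu hdetP hPg
    have hdu : φ u.det * u.det = 1 := by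
      have h1 := congrArg Matrix.det hu
      rw [Matrix.det_mul, Wall.cstar_det, Matrix.det_one] at h1
      exact h1
    have hu0 : u.det ≠ 0 := right_ne_zero_of_mul_eq_one hdu
    have hμ : (u.det)⁻¹ * φ ((u.det)⁻¹) = 1 := by
      rw [map_inv₀, ← mul_inv, mul_comm, hdu, inv_one]
    obtain ⟨C, hCu, hCcomm, hCdet⟩ := Semi.dsu hF φ hφq hφ p hn a hau (orderOf g) hg haN
      (u.det)⁻¹ hμ
    have hwdet : (u * C).det = 1 := by
      rw [Matrix.det_mul, hCdet, mul_inv_cancel₀ hu0]
    have hwu : Wall.cstar φ (u * C) * (u * C) = 1 := by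
      rw [Wall.cstar_mul]
      calc Wall.cstar φ C * Wall.cstar φ u * (u * C)
          = Wall.cstar φ C * (Wall.cstar φ u * u) * C := by simp only [Matrix.mul_assoc]
        _ = 1 := by rw [hu, Matrix.mul_one, hCu]
    have hwa : (u * C) * a = b * (u * C) := by
      rw [Matrix.mul_assoc, hCcomm, ← Matrix.mul_assoc, hua, Matrix.mul_assoc]
    have hw3 : (u * C).transpose * (u * C).map φ = 1 := by
      have h1 := congrArg Matrix.transpose hwu
      unfold Wall.cstar at h1
      rw [Matrix.transpose_mul, Matrix.transpose_transpose, Matrix.transpose_one] at h1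
      exact h1
    obtain ⟨Q, hQ⟩ : ∃ Q : Matrix.SpecialLinearGroup (Fin n) F,
        (Q : Matrix (Fin n) (Fin n) F) = u * C := ⟨⟨_, hwdet⟩, rfl⟩
    have hQmem : Q ∈ Cfsg.SU n F q := by
      intro x y
      show Cfsg.hermForm n F q ((Q : Matrix (Fin n) (Fin n) F) *ᵥ x)
        ((Q : Matrix (Fin n) (Fin n) F) *ᵥ y) = Cfsg.hermForm n F q x y
      rw [hQ]
      exact herm_preserved φ hφq (u * C) hw3 x y
    rw [isConj_iff]
    refine ⟨⟨Q, hQmem⟩, ?_⟩
    rw [mul_inv_eq_iff_eq_mul]
    apply Subtype.ext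
    apply Subtype.ext
    show (Q : Matrix (Fin n) (Fin n) F) *
        ((g : Matrix.SpecialLinearGroup (Fin n) F) : Matrix (Fin n) (Fin n) F) =
      ((h : Matrix.SpecialLinearGroup (Fin n) F) : Matrix (Fin n) (Fin n) F) *
        (Q : Matrix (Fin n) (Fin n) F)
    rw [hQ, ← ha, ← hb]
    exact hwa

end Cfsg.Agent.S2390
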