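import Cfsg.Statements.S2386
import Cfsg.Agent.S2390
import Cfsg.Agent.Lib.Helper15.UnitC
open Cfsg.Agent.Lib.Helper15 Matrix

set_option autoImplicit false
open Cfsg

namespace Cfsg.Agent.S2386

/-- In the special unitary group `SU_n(q)` (matrices of determinant one over the field with `q²` elements preserving the standard Hermitian form), `q` a power of the prime `p`, the number of conjugacy classes of elements of order prime to `p` is `q^(n-1)`. -/
theorem result {F : Type*} [Field F] [Fintype F] {q : ℕ} (hF : Fintype.card F = q ^ 2) (p : ℕ) [Fact p.Prime] [CharP F p] (n : ℕ) (hn : 1 ≤ n) :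
    Nat.card {c : ConjClasses ↥(Cfsg.SU n F q) // ∃ g : ↥(Cfsg.SU n F q), ConjClasses.mk g = c ∧ (orderOf g).Coprime p} = q ^ (n - 1) := by
  classical
  have hn0 : 0 < n := hn
  obtain ⟨φ, hφq, hφ⟩ := exists_frob hF
  have hq0 : q ≠ 0 := Wall.card_sq_ne_zero hF
  have hsq : ∀ x : F, (-1 : F) ^ n * ((-1) ^ n * x) = x := by
    intro x
    rw [← mul_assoc, ← pow_add, ← two_mul, pow_mul, neg_one_sq, one_pow, one_mul]
  have hunit : ∀ g : ↥(Cfsg.SU n F q),
      Wall.cstar φ ((g : Matrix.SpecialLinearGroup (Fin n) F) : Matrix (Fin n) (Fin n) F) *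
        ((g : Matrix.SpecialLinearGroup (Fin n) F) : Matrix (Fin n) (Fin n) F) = 1 := by
    intro g
    exact Wall.mem_GU_cstar hq0 φ hφq
      (Matrix.SpecialLinearGroup.toGL (g : Matrix.SpecialLinearGroup (Fin n) F))
      (fun u v => g.2 u v)
  have hcp : ∀ g : ↥(Cfsg.SU n F q),
      ((g : Matrix.SpecialLinearGroup (Fin n) F) : Matrix (Fin n) (Fin n) F).charpoly.Monic ∧
      ((g : Matrix.SpecialLinearGroup (Fin n) F) : Matrix (Fin n) (Fin n) F).charpoly.natDegree = n ∧
      ((g : Matrix.SpecialLinearGroup (Fin n) F) : Matrix (Fin n) (Fin n) F).charpoly.coeff 0 =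
        (-1) ^ n ∧
      Semi.dual φ ((g : Matrix.SpecialLinearGroup (Fin n) F) : Matrix (Fin n) (Fin n) F).charpoly =
        ((g : Matrix.SpecialLinearGroup (Fin n) F) : Matrix (Fin n) (Fin n) F).charpoly := by
    intro g
    refine ⟨(Semi.charpoly_props _).1, (Semi.charpoly_props _).2, ?_,
      Semi.charpoly_selfdual φ hφ _ (hunit g)⟩
    have hdet : ((g : Matrix.SpecialLinearGroup (Fin n) F) : Matrix (Fin n) (Fin n) F).det = 1 :=
      (g : Matrix.SpecialLinearGroup (Fin n) F).2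
    rw [Matrix.det_eq_sign_charpoly_coeff, Fintype.card_fin] at hdet
    have h1 := hsq (((g : Matrix.SpecialLinearGroup (Fin n) F) :
      Matrix (Fin n) (Fin n) F).charpoly.coeff 0)
    rw [hdet, mul_one] at h1
    exact h1.symm
  have hrep : ∀ c : {c : ConjClasses ↥(Cfsg.SU n F q) //
      ∃ g : ↥(Cfsg.SU n F q), ConjClasses.mk g = c ∧ (orderOf g).Coprime p},
      ∃ g : ↥(Cfsg.SU n F q), ConjClasses.mk g = c.1 ∧ (orderOf g).Coprime p :=
    fun c => c.2
  choose rep hrep1 hrep2 using hrep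
  have hbij : Function.Bijective
      (fun c : {c : ConjClasses ↥(Cfsg.SU n F q) //
        ∃ g : ↥(Cfsg.SU n F q), ConjClasses.mk g = c ∧ (orderOf g).Coprime p} =>
      (⟨(((rep c : ↥(Cfsg.SU n F q)) : Matrix.SpecialLinearGroup (Fin n) F) :
          Matrix (Fin n) (Fin n) F).charpoly, hcp _⟩ :
        {f : Polynomial F // f.Monic ∧ f.natDegree = n ∧ f.coeff 0 = (-1) ^ n ∧
          Semi.dual φ f = f})) := by
    constructor
    · intro c c' hcc
      have h1 : (((rep c : ↥(Cfsg.SU n F q)) : Matrix.SpecialLinearGroup (Fin n) F) :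
          Matrix (Fin n) (Fin n) F).charpoly =
          (((rep c' : ↥(Cfsg.SU n F q)) : Matrix.SpecialLinearGroup (Fin n) F) :
          Matrix (Fin n) (Fin n) F).charpoly :=
        congrArg Subtype.val hcc
      apply Subtype.ext
      rw [← hrep1 c, ← hrep1 c', ConjClasses.mk_eq_mk_iff_isConj]
      exact Cfsg.Agent.S2390.result hF p n _ _ (hrep2 c) (hrep2 c') h1
    · rintro ⟨f, hm, hd, h0, hdual⟩
      have h0' : f.coeff 0 ≠ 0 := by
        rw [h0]
        exact pow_ne_zero _ (neg_ne_zero.mpr one_ne_zero)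
      obtain ⟨g, hg, hgo⟩ := Semi.exists_charpoly p n f hm hd h0'
      have hgN : g ^ orderOf g = 1 := pow_orderOf_eq_one g
      have hcs : ((Semi.starInv φ g : GL (Fin n) F) : Matrix (Fin n) (Fin n) F).charpoly =
          (g : Matrix (Fin n) (Fin n) F).charpoly := by
        rw [Semi.starInv_charpoly, hg, hdual]
      obtain ⟨b, hbu, hbc, hbN⟩ := Semi.unitary_model hF φ hφq hφ p g (orderOf g) hgo hgN hcs
      have hdet : b.det = 1 := by
        rw [Matrix.det_eq_sign_charpoly_coeff, Fintype.card_fin, hbc, hg, h0, ← pow_add, ← two_mul,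
          pow_mul, neg_one_sq, one_pow]
      have hb3 : b.transpose * b.map φ = 1 := by
        have h1 := congrArg Matrix.transpose hbu
        unfold Wall.cstar at h1
        rw [Matrix.transpose_mul, Matrix.transpose_transpose, Matrix.transpose_one] at h1
        exact h1
      obtain ⟨s, hs⟩ : ∃ s : Matrix.SpecialLinearGroup (Fin n) F,
          (s : Matrix (Fin n) (Fin n) F) = b := ⟨⟨_, hdet⟩, rfl⟩
      have hsmem : s ∈ Cfsg.SU n F q := by
        intro x y
        show Cfsg.hermForm n F q ((s : Matrix (Fin n) (Fin n) F) *ᵥ x)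
          ((s : Matrix (Fin n) (Fin n) F) *ᵥ y) = Cfsg.hermForm n F q x y
        rw [hs]
        exact herm_preserved φ hφq b hb3 x y
      have hsN : (⟨s, hsmem⟩ : ↥(Cfsg.SU n F q)) ^ orderOf g = 1 := by
        apply Subtype.ext
        apply Subtype.ext
        show ((s ^ orderOf g : Matrix.SpecialLinearGroup (Fin n) F) : Matrix (Fin n) (Fin n) F) = 1
        rw [Matrix.SpecialLinearGroup.coe_pow, hs, hbN]
      have hso : (orderOf (⟨s, hsmem⟩ : ↥(Cfsg.SU n F q))).Coprime p :=
        Nat.Coprime.coprime_dvd_left (orderOf_dvd_of_pow_eq_one hsN) hgo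
      refine ⟨⟨ConjClasses.mk ⟨s, hsmem⟩, ⟨s, hsmem⟩, rfl, hso⟩, ?_⟩
      apply Subtype.ext
      show (((rep ⟨ConjClasses.mk ⟨s, hsmem⟩, ⟨s, hsmem⟩, rfl, hso⟩ : ↥(Cfsg.SU n F q)) :
        Matrix.SpecialLinearGroup (Fin n) F) : Matrix (Fin n) (Fin n) F).charpoly = f
      rw [← hg, ← hbc, ← hs]
      obtain ⟨c, hc⟩ := isConj_iff.mp (ConjClasses.mk_eq_mk_iff_isConj.mp
        (hrep1 ⟨ConjClasses.mk ⟨s, hsmem⟩, ⟨s, hsmem⟩, rfl, hso⟩))
      have hc' : (c : Matrix.SpecialLinearGroup (Fin n) F) *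
          ((rep ⟨ConjClasses.mk ⟨s, hsmem⟩, ⟨s, hsmem⟩, rfl, hso⟩ : ↥(Cfsg.SU n F q)) :
            Matrix.SpecialLinearGroup (Fin n) F) *
          (c : Matrix.SpecialLinearGroup (Fin n) F)⁻¹ = s := congrArg Subtype.val hc
      have h2 : IsConj (Matrix.SpecialLinearGroup.toGL
          ((rep ⟨ConjClasses.mk ⟨s, hsmem⟩, ⟨s, hsmem⟩, rfl, hso⟩ : ↥(Cfsg.SU n F q)) :
            Matrix.SpecialLinearGroup (Fin n) F))
          (Matrix.SpecialLinearGroup.toGL s) := by
        rw [isConj_iff]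
        refine ⟨Matrix.SpecialLinearGroup.toGL (c : Matrix.SpecialLinearGroup (Fin n) F), ?_⟩
        rw [← map_inv, ← map_mul, ← map_mul, hc']
      have h3 := Semi.charpoly_of_isConj h2
      rw [Matrix.SpecialLinearGroup.coe_GL_coe_matrix,
        Matrix.SpecialLinearGroup.coe_GL_coe_matrix] at h3
      exact h3
  rw [Nat.card_eq_of_bijective _ hbij, Semi.card_selfdual hF φ hφq hφ n hn0]

end Cfsg.Agent.S2386
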