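import Cfsg.Statements.S2387
import Cfsg.Agent.Lib.Helper15.SemiC
open Cfsg.Agent.Lib.Helper15

set_option autoImplicit false
open scoped MatrixGroups
open Cfsg

namespace Cfsg.Agent.S2387

/-- In `GL_n(q)` with `n ≥ 1`, `q` a power of the prime `p`, the number of conjugacy classes of elements of order prime to `p` (diagonalisable over the algebraic closure; determined by the characteristic polynomial) is `(q - 1) q^(n-1)`. -/
theorem result {F : Type*} [Field F] [Fintype F] {q : ℕ} (hq : Fintype.card F = q) (p : ℕ) [Fact p.Prime] [CharP F p] (n : ℕ) (hn : 1 ≤ n) :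
    Nat.card {c : ConjClasses (GL (Fin n) F) // ∃ g : GL (Fin n) F, ConjClasses.mk g = c ∧ (orderOf g).Coprime p} = (q - 1) * q ^ (n - 1) := by
  classical
  have hcp : ∀ g : GL (Fin n) F, (g : Matrix (Fin n) (Fin n) F).charpoly.Monic ∧
      (g : Matrix (Fin n) (Fin n) F).charpoly.natDegree = n ∧
      (g : Matrix (Fin n) (Fin n) F).charpoly.coeff 0 ≠ 0 := by
    intro g
    refine ⟨(Semi.charpoly_props _).1, (Semi.charpoly_props _).2, ?_⟩
    intro h0
    have hdet : (g : Matrix (Fin n) (Fin n) F).det ≠ 0 :=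
      ((Matrix.isUnit_iff_isUnit_det _).mp g.isUnit).ne_zero
    rw [Matrix.det_eq_sign_charpoly_coeff, h0, mul_zero] at hdet
    exact hdet rfl
  have hrep : ∀ c : {c : ConjClasses (GL (Fin n) F) //
      ∃ g : GL (Fin n) F, ConjClasses.mk g = c ∧ (orderOf g).Coprime p},
      ∃ g : GL (Fin n) F, ConjClasses.mk g = c.1 ∧ (orderOf g).Coprime p := fun c => c.2
  choose rep hrep1 hrep2 using hrep
  have hbij : Function.Bijective (fun c : {c : ConjClasses (GL (Fin n) F) //
      ∃ g : GL (Fin n) F, ConjClasses.mk g = c ∧ (orderOf g).Coprime p} =>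
      (⟨((rep c : GL (Fin n) F) : Matrix (Fin n) (Fin n) F).charpoly, hcp _⟩ :
        {f : Polynomial F // f.Monic ∧ f.natDegree = n ∧ f.coeff 0 ≠ 0})) := by
    constructor
    · intro c c' hcc
      have h1 : ((rep c : GL (Fin n) F) : Matrix (Fin n) (Fin n) F).charpoly =
          ((rep c' : GL (Fin n) F) : Matrix (Fin n) (Fin n) F).charpoly := congrArg Subtype.val hcc
      apply Subtype.ext
      rw [← hrep1 c, ← hrep1 c', ConjClasses.mk_eq_mk_iff_isConj]
      exact Semi.isConj_of_charpoly p _ _ (hrep2 c) (hrep2 c') h1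
    · rintro ⟨f, hm, hd, h0⟩
      obtain ⟨g, hg, hgo⟩ := Semi.exists_charpoly p n f hm hd h0
      refine ⟨⟨ConjClasses.mk g, g, rfl, hgo⟩, ?_⟩
      apply Subtype.ext
      show ((rep ⟨ConjClasses.mk g, g, rfl, hgo⟩ : GL (Fin n) F) :
        Matrix (Fin n) (Fin n) F).charpoly = f
      rw [← hg]
      exact Semi.charpoly_of_isConj (ConjClasses.mk_eq_mk_iff_isConj.mp
        (hrep1 ⟨ConjClasses.mk g, g, rfl, hgo⟩))
  rw [Nat.card_eq_of_bijective _ hbij, Semi.card_monic n hn (fun x : F => x ≠ 0),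
    Fintype.card_subtype_compl, Fintype.card_subtype_eq, hq]

end Cfsg.Agent.S2387
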