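import Cfsg.Statements.S2392
import Cfsg.Agent.Lib.Helper15.SLMinDeg

set_option autoImplicit false
open scoped MatrixGroups
open Cfsg

namespace Cfsg.Agent.S2392

/-- A lower bound for representations in cross characteristic: for `n ≥ 3` and a field `F` with `q` elements, every homomorphism from `SL_n(F)` to `GL_d(K)`, `K` a field of characteristic different from that of `F`, whose kernel is central has `d ≥ q^(n-1) - 1`. -/
theorem result {F : Type*} [Field F] [Fintype F] {q : ℕ} (hq : Fintype.card F = q) (n : ℕ) (hn : 3 ≤ n)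
    {K : Type*} [Field K] (hK : ringChar K ≠ ringChar F) {d : ℕ}
    (ρ : Matrix.SpecialLinearGroup (Fin n) F →* GL (Fin d) K) (hker : ρ.ker ≤ Subgroup.center (Matrix.SpecialLinearGroup (Fin n) F)) :
    q ^ (n - 1) - 1 ≤ d := by
  classical
  subst hq
  obtain ⟨m, rfl⟩ : ∃ m, n = m + 1 := ⟨n - 1, by omega⟩
  let e : Fin 1 ⊕ Fin m ≃ Fin (m + 1) := finSumFinEquiv.trans (finCongr (by omega))
  let ρ₁ : Matrix.SpecialLinearGroup (Fin 1 ⊕ Fin m) F →* GL (Fin d) K :=
    ρ.comp (Cfsg.Agent.Lib.Helper15.SLMinDeg.reindexSL e)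
  have hinj := Cfsg.Agent.Lib.Helper15.SLMinDeg.reindexSL_injective (F := F) e
  have hker₁ : ρ₁.ker ≤ Subgroup.center (Matrix.SpecialLinearGroup (Fin 1 ⊕ Fin m) F) := by
    intro g hg
    have h1 : Cfsg.Agent.Lib.Helper15.SLMinDeg.reindexSL e g ∈
        Subgroup.center (Matrix.SpecialLinearGroup (Fin (m + 1)) F) :=
      hker (MonoidHom.mem_ker.2 (MonoidHom.mem_ker.1 hg))
    rw [Subgroup.mem_center_iff] at h1 ⊢
    intro h
    apply hinj
    rw [map_mul, map_mul]
    exact h1 _
  have h2 := Cfsg.Agent.Lib.Helper15.SLMinDeg.sl_min_degree (by omega) hK ρ₁ hker₁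
  simpa using h2

end Cfsg.Agent.S2392
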