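import Cfsg.Statements.S2394
import Cfsg.Agent.Lib.Helper3.SpCount
import Cfsg.Agent.Lib.Helper18.Zsig

set_option autoImplicit false
open scoped MatrixGroups
open Cfsg

namespace Cfsg.Agent.S2394

/-- The smallest degree of a faithful representation of the symplectic group `Sp_{2n}(q)` over its own field `F_q` is `2n`: every injective homomorphism from `Sp_{2n}(F)` to `GL_d(F)`, `F` the field with `q` elements, has `d ≥ 2n`. -/
theorem result {F : Type*} [Field F] [Fintype F] (n : ℕ) {d : ℕ}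
    (ρ : ↥(Matrix.symplecticGroup (Fin n) F) →* GL (Fin d) F) (hρ : Function.Injective ρ) : 2 * n ≤ d := by
  classical
  by_contra hlt
  push Not at hlt
  obtain ⟨m, rfl⟩ : ∃ m, n = m + 1 := ⟨n - 1, by omega⟩
  have hq1 : 1 < Fintype.card F := Fintype.one_lt_card
  have hdvd : Nat.card (Matrix.symplecticGroup (Fin (m + 1)) F) ∣ Nat.card (GL (Fin d) F) :=
    Subgroup.card_dvd_of_injective ρ hρ
  rw [Cfsg.Agent.Lib.Helper3.card_sp_succ, Matrix.card_GL_field] at hdvd
  set q := Fintype.card F with hq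
  have hpos : ∀ i : Fin d, 0 < q ^ d - q ^ (i : ℕ) := by
    intro i
    have : q ^ (i : ℕ) < q ^ d := Nat.pow_lt_pow_right hq1 i.2
    omega
  have hprodpos : 0 < ∏ i : Fin d, (q ^ d - q ^ (i : ℕ)) := Finset.prod_pos (fun i _ => hpos i)
  have hdvd1 : q ^ (2 * (m + 1)) - 1 ∣ ∏ i : Fin d, (q ^ d - q ^ (i : ℕ)) :=
    Dvd.dvd.trans (Dvd.dvd.mul_right (Dvd.intro _ rfl) _) hdvd
  have hfac : ∀ i : Fin d, q ^ d - q ^ (i : ℕ) = q ^ (i : ℕ) * (q ^ (d - (i : ℕ)) - 1) := by
    intro i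
    rw [Nat.mul_sub, mul_one, ← pow_add]
    congr 2
    have := i.2
    omega
  have hmain : ∀ r : ℕ, r.Prime → r ∣ q ^ (2 * (m + 1)) - 1 →
      (∀ k : ℕ, 0 < k → k < 2 * (m + 1) → ¬ r ∣ q ^ k - 1) → False := by
    intro r hr hr1 hr2
    obtain ⟨i, -, hi⟩ := (Nat.Prime.prime hr).exists_mem_finset_dvd (hr1.trans hdvd1)
    rw [hfac] at hi
    rcases (Nat.Prime.dvd_mul hr).1 hi with h | h
    · have h1 : r ∣ q := hr.dvd_of_dvd_pow h
      have h2 : r ∣ q ^ (2 * (m + 1)) := Dvd.dvd.trans h1 (dvd_pow_self q (by omega))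
      have h3 : 1 ≤ q ^ (2 * (m + 1)) := Nat.one_le_pow _ _ (by omega)
      have h4 : r ∣ 1 := by
        have := Nat.dvd_sub h2 hr1
        rwa [Nat.sub_sub_self h3] at this
      exact hr.one_lt.ne' (Nat.dvd_one.1 h4)
    · have := i.2
      exact hr2 (d - (i : ℕ)) (by omega) (by omega) h
  by_cases hm0 : m = 0
  · subst hm0
    have h1 := Nat.le_of_dvd hprodpos hdvd1
    have hd : d = 0 ∨ d = 1 := by omega
    have h2 : q ^ 2 - 1 ≤ q - 1 := by
      rcases hd with rfl | rfl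
      · simp at h1
        have : 2 ≤ q ^ 2 := by nlinarith
        omega
      · simpa using h1
    have h3 : q < q ^ 2 := by nlinarith
    omega
  by_cases h26 : q = 2 ∧ m = 2
  · obtain ⟨hq2, rfl⟩ := h26
    rw [Cfsg.Agent.Lib.Helper3.card_sp_succ, Cfsg.Agent.Lib.Helper3.card_sp_succ,
      Cfsg.Agent.Lib.Helper3.card_sp_zero, ← hq, hq2] at hdvd
    have hd : d ≤ 5 := by omega
    interval_cases d <;> simp [Fin.prod_univ_succ] at hdvd
  · obtain ⟨r, hr, hr1, hr2⟩ := Cfsg.Agent.Lib.Helper18.zsigmondy q (2 * (m + 1)) hq1 (by omega)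
      (by omega) (by omega)
    exact hmain r hr hr1 hr2

end Cfsg.Agent.S2394
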