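import Cfsg.Statements.S2402
import Cfsg.Agent.Lib.Helper15.SLCyc

set_option autoImplicit false
open Cfsg

namespace Cfsg.Agent.S2402

/-- Explicit two-element generation of `PSL_{n+1}(K)` for a finite field `K` with more than three elements: let `k` generate the multiplicative group of `K`, `h = diag(k, k⁻¹, 1, …, 1)`, `x = 1 + E₁₂` (the elementary transvection) and `w` the monomial matrix with entries `1` in positions `(i, i+1)` and `(−1)^n` in position `(n+1, 1)`. Then `h` and `x·w` generate `SL_{n+1}(K)` modulo its centre: the subgroup they generate together with the centre is everything. -/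
theorem result {K : Type*} [Field K] [Fintype K] (hK : 3 < Fintype.card K) (n : ℕ) (hn : 1 ≤ n)
    (k : Kˣ) (hk : ∀ u : Kˣ, u ∈ Subgroup.zpowers k)
    (h x w : Matrix.SpecialLinearGroup (Fin (n + 1)) K)
    (hh : (h : Matrix (Fin (n + 1)) (Fin (n + 1)) K) =
      Matrix.diagonal (fun i => if i.val = 0 then (k : K) else if i.val = 1 then ((k⁻¹ : Kˣ) : K) else 1))
    (hx : (x : Matrix (Fin (n + 1)) (Fin (n + 1)) K) = Matrix.transvection (0 : Fin (n + 1)) (1 : Fin (n + 1)) 1)
    (hw : (w : Matrix (Fin (n + 1)) (Fin (n + 1)) K) =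
      Matrix.of (fun i j => if j.val = i.val + 1 then 1 else if i.val = n ∧ j.val = 0 then (-1) ^ n else 0)) :
    Subgroup.closure ({h, x * w} : Set (Matrix.SpecialLinearGroup (Fin (n + 1)) K)) ⊔
      Subgroup.center (Matrix.SpecialLinearGroup (Fin (n + 1)) K) = ⊤ := by
  classical
  set H := Subgroup.closure ({h, x * w} : Set (Matrix.SpecialLinearGroup (Fin (n + 1)) K)) with hH
  have hhH : h ∈ H := Subgroup.subset_closure (by simp)
  have hyH : x * w ∈ H := Subgroup.subset_closure (by simp)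
  suffices hs : H = ⊤ by
    rw [hs]
    exact top_sup_eq _
  have : Nontrivial (Fin (n + 1)) := Fin.nontrivial_iff_two_le.2 (by omega)
  have hval1 : ((1 : Fin (n + 1)).val) = 1 := by
    rw [Fin.val_one']
    exact Nat.mod_eq_of_lt (by omega)
  have h01 : (0 : Fin (n + 1)) ≠ 1 := by
    intro h0
    have h1 := congrArg Fin.val h0
    rw [hval1] at h1
    simp at h1
  have hord : orderOf k = Fintype.card K - 1 := by
    rw [orderOf_eq_card_of_forall_mem_zpowers hk, Nat.card_units, Nat.card_eq_fintype_card]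
  have hk2 : (k : K) * k ≠ 1 := by
    intro h1
    have h2 : k ^ 2 = 1 := by
      apply Units.ext
      rw [pow_two, Units.val_mul, h1, Units.val_one]
    have h3 := orderOf_dvd_of_pow_eq_one h2
    have h4 := Nat.le_of_dvd (by norm_num) h3
    omega
  have hk1 : (k : K) ≠ 1 := by
    intro h1
    apply hk2
    rw [h1, mul_one]
  have hk0 : (k : K) ≠ 0 := k.ne_zero
  obtain ⟨η, hη⟩ : ∃ η : Fin (n + 1) → K, η = fun i : Fin (n + 1) => if i.val = 0 then (k : K)
      else if i.val = 1 then ((k⁻¹ : Kˣ) : K) else 1 := ⟨_, rfl⟩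
  have hh' : (h : Matrix (Fin (n + 1)) (Fin (n + 1)) K) = Matrix.diagonal η := by rw [hh, hη]
  have hη0 : η 0 = k := by
    rw [hη]
    simp
  have hη1 : η 1 = (k : K)⁻¹ := by
    rw [hη]
    show (if (1 : Fin (n + 1)).val = 0 then (k : K)
      else if (1 : Fin (n + 1)).val = 1 then ((k⁻¹ : Kˣ) : K) else 1) = (k : K)⁻¹
    rw [hval1, if_neg one_ne_zero, if_pos rfl, Units.val_inv_eq_inv_val]
  have hμ : (k : K) * η (1 + 1) ≠ 1 := by
    rw [hη]
    by_cases hn1 : n = 1
    · subst hn1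
      have h2 : ((1 + 1 : Fin (1 + 1))).val = 0 := by decide
      simp only [h2, if_true]
      exact hk2
    · have h2 : ((1 + 1 : Fin (n + 1))).val = 2 := by
        rw [Fin.val_add, hval1]
        exact Nat.mod_eq_of_lt (by omega)
      simp only [h2]
      rw [if_neg (by norm_num), if_neg (by norm_num), mul_one]
      exact hk1
  have hμ0 : η (1 + 1) ≠ 0 := by
    rw [hη]
    simp only
    split_ifs
    · exact hk0
    · exact (k⁻¹).ne_zero
    · exact one_ne_zero
  obtain ⟨μ, hμdef⟩ : ∃ μ : K, μ = η (1 + 1) := ⟨_, rfl⟩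
  rw [← hμdef] at hμ hμ0
  have hW := Cfsg.Agent.Lib.Helper15.SLCyc.cyc_apply n
    (w : Matrix (Fin (n + 1)) (Fin (n + 1)) K) hw
  have hdet : Matrix.det (Matrix.diagonal (fun u : Fin (n + 1) => η (u + 1))) = 1 := by
    rw [Matrix.det_diagonal]
    have h1 : ∏ u, η (u + 1) = ∏ u, η u := Equiv.prod_comp (Equiv.addRight (1 : Fin (n + 1))) η
    rw [h1, ← Matrix.det_diagonal, ← hh']
    exact h.2
  obtain ⟨DD, hDD⟩ : ∃ DD : Matrix.SpecialLinearGroup (Fin (n + 1)) K,
      (DD : Matrix (Fin (n + 1)) (Fin (n + 1)) K) = Matrix.diagonal (fun u => η (u + 1)) :=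
    ⟨⟨_, hdet⟩, rfl⟩
  have R1 : w * h = DD * w := by
    apply Subtype.ext
    show (w : Matrix (Fin (n + 1)) (Fin (n + 1)) K) * (h : Matrix (Fin (n + 1)) (Fin (n + 1)) K) =
      (DD : Matrix (Fin (n + 1)) (Fin (n + 1)) K) * (w : Matrix (Fin (n + 1)) (Fin (n + 1)) K)
    rw [hh', hDD]
    ext u v
    rw [Matrix.mul_diagonal, Matrix.diagonal_mul, hW u v]
    by_cases hv : v = u + 1
    · rw [if_pos hv, hv]
      ring
    · rw [if_neg hv, zero_mul, mul_zero]
  obtain ⟨T, hT⟩ : ∃ T : K → Matrix.SpecialLinearGroup (Fin (n + 1)) K,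
      T = fun a => Matrix.SpecialLinearGroup.transvection h01 a := ⟨_, rfl⟩
  have hTadd : ∀ a b, T (a + b) = T a * T b := by
    intro a b
    rw [hT]
    exact Matrix.SpecialLinearGroup.transvection_add h01 a b
  have hTinv : ∀ a, (T a)⁻¹ = T (-a) := by
    intro a
    rw [hT]
    exact Matrix.SpecialLinearGroup.transvection_inv h01 a
  have hT0 : T 0 = 1 := by
    rw [hT]
    exact Matrix.SpecialLinearGroup.transvection_coeff_zero h01
  have R2 : ∀ a, DD * T (a * μ) = T ((k : K)⁻¹ * a) * DD := by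
    intro a
    have h1 := Cfsg.Agent.Lib.Helper15.SLCyc.diag_transv h01 DD _ hDD a
    simp only [zero_add] at h1
    rw [hη1, ← hμdef] at h1
    rw [hT]
    exact h1
  have R3 : ∀ c, h * T c = T (k * k * c) * h := by
    intro c
    have h1 := Cfsg.Agent.Lib.Helper15.SLCyc.diag_transv h01 h η hh' (c * k)
    rw [hη0, hη1] at h1
    have e1 : c * (k : K) * (k : K)⁻¹ = c := by field_simp
    have e2 : (k : K) * (c * k) = k * k * c := by ring
    rw [e1, e2] at h1
    rw [hT]
    exact h1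
  have R4 : h * DD = DD * h := by
    apply Subtype.ext
    show (h : Matrix (Fin (n + 1)) (Fin (n + 1)) K) * (DD : Matrix (Fin (n + 1)) (Fin (n + 1)) K) =
      (DD : Matrix (Fin (n + 1)) (Fin (n + 1)) K) * (h : Matrix (Fin (n + 1)) (Fin (n + 1)) K)
    rw [hh', hDD, Matrix.diagonal_mul_diagonal, Matrix.diagonal_mul_diagonal]
    congr 1
    funext u
    ring
  have hx' : x = T 1 := by
    rw [hT]
    exact Subtype.ext hx
  obtain ⟨c₁, hc₁⟩ : ∃ c₁ : K, c₁ = 1 - ((k : K) * μ)⁻¹ := ⟨_, rfl⟩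
  have hc₁0 : c₁ ≠ 0 := by
    rw [hc₁]
    intro h0
    have h1 : ((k : K) * μ)⁻¹ = 1 := (sub_eq_zero.1 h0).symm
    exact hμ (inv_eq_one.1 h1)
  have hi : T c₁ * DD * (x * w) = (x * w) * h := by
    have h1 : DD * T 1 = T ((k : K)⁻¹ * μ⁻¹) * DD := by
      have := R2 μ⁻¹
      rwa [inv_mul_cancel₀ hμ0] at this
    have h2 : c₁ + (k : K)⁻¹ * μ⁻¹ = 1 := by
      rw [hc₁, mul_inv]
      ring
    calc T c₁ * DD * (x * w) = T c₁ * (DD * T 1) * w := by rw [hx']; group
      _ = T c₁ * (T ((k : K)⁻¹ * μ⁻¹) * DD) * w := by rw [h1]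
      _ = T (c₁ + (k : K)⁻¹ * μ⁻¹) * (DD * w) := by rw [hTadd]; group
      _ = T 1 * (w * h) := by rw [h2, R1]
      _ = (x * w) * h := by rw [hx']; group
  have hzH : T c₁ * DD ∈ H := by
    have h1 : T c₁ * DD = (x * w) * h * (x * w)⁻¹ := eq_mul_inv_of_mul_eq hi
    rw [h1]
    exact H.mul_mem (H.mul_mem hyH hhH) (H.inv_mem hyH)
  obtain ⟨c₀, hc₀⟩ : ∃ c₀ : K, c₀ = ((k : K) * k - 1) * c₁ := ⟨_, rfl⟩
  have hc₀0 : c₀ ≠ 0 := by
    rw [hc₀]
    exact mul_ne_zero (sub_ne_zero.2 hk2) hc₁0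
  have hii : T c₀ * (T c₁ * DD * h) = h * (T c₁ * DD) := by
    have h2 : c₀ + c₁ = k * k * c₁ := by
      rw [hc₀]
      ring
    calc T c₀ * (T c₁ * DD * h) = T (c₀ + c₁) * (DD * h) := by rw [hTadd]; group
      _ = T (k * k * c₁) * (h * DD) := by rw [h2, R4]
      _ = (T (k * k * c₁) * h) * DD := by group
      _ = (h * T c₁) * DD := by rw [R3]
      _ = h * (T c₁ * DD) := by group
  have hgH : T c₀ ∈ H := by
    have h1 : T c₀ = h * (T c₁ * DD) * (T c₁ * DD * h)⁻¹ := eq_mul_inv_of_mul_eq hii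
    rw [h1]
    exact H.mul_mem (H.mul_mem hhH hzH) (H.inv_mem (H.mul_mem hzH hhH))
  have hconj : ∀ c, T c ∈ H ↔ T (k * k * c) ∈ H := by
    intro c
    constructor
    · intro hc
      have h1 : T (k * k * c) = h * T c * h⁻¹ := eq_mul_inv_of_mul_eq (R3 c).symm
      rw [h1]
      exact H.mul_mem (H.mul_mem hhH hc) (H.inv_mem hhH)
    · intro hc
      have h1 : T c = h⁻¹ * (T (k * k * c) * h) := eq_inv_mul_of_mul_eq (R3 c)
      rw [h1]
      exact H.mul_mem (H.inv_mem hhH) (H.mul_mem hc hhH)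
  let M' : Subgroup Kˣ :=
    { carrier := {u | ∀ c, T c ∈ H ↔ T ((u : K) * u * c) ∈ H}
      mul_mem' := by
        intro u v hu hv c
        have e : ((u * v : Kˣ) : K) * ((u * v : Kˣ) : K) * c = (u : K) * u * ((v : K) * v * c) := by
          rw [Units.val_mul]
          ring
        rw [e]
        exact (hv c).trans (hu _)
      one_mem' := by
        intro c
        rw [Units.val_one, one_mul, one_mul]
      inv_mem' := by
        intro u hu c
        have e : (u : K) * u * (((u⁻¹ : Kˣ) : K) * ((u⁻¹ : Kˣ) : K) * c) = c := by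
          have h1 : (u : K) * ((u⁻¹ : Kˣ) : K) = 1 := by
            rw [← Units.val_mul, mul_inv_cancel, Units.val_one]
          calc (u : K) * u * (((u⁻¹ : Kˣ) : K) * ((u⁻¹ : Kˣ) : K) * c)
              = ((u : K) * ((u⁻¹ : Kˣ) : K)) * ((u : K) * ((u⁻¹ : Kˣ) : K)) * c := by ring
            _ = c := by rw [h1, one_mul, one_mul]
        have h2 := hu (((u⁻¹ : Kˣ) : K) * ((u⁻¹ : Kˣ) : K) * c)
        rw [e] at h2
        exact h2.symm }
  have hkM : k ∈ M' := hconj
  have hall : ∀ u : Kˣ, u ∈ M' := fun u => (Subgroup.zpowers_le.2 hkM) (hk u)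
  have hsq : ∀ b : K, T (c₀ * (b * b)) ∈ H := by
    intro b
    by_cases hb : b = 0
    · rw [hb, mul_zero, mul_zero, hT0]
      exact H.one_mem
    · have h1 := (hall (Units.mk0 b hb) c₀).1 hgH
      rw [Units.val_mk0] at h1
      have e : b * b * c₀ = c₀ * (b * b) := by ring
      rw [e] at h1
      exact h1
  have hallT : ∀ a : K, T (c₀ * a) ∈ H := by
    intro a
    by_cases hchar : ringChar K = 2
    · obtain ⟨b, hb⟩ := FiniteField.isSquare_of_char_two hchar a
      rw [hb]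
      exact hsq b
    · have h2 : (2 : K) ≠ 0 := Ring.two_ne_zero hchar
      have e : c₀ * a = c₀ * (((a + 1) / 2) * ((a + 1) / 2)) +
          -(c₀ * (((a - 1) / 2) * ((a - 1) / 2))) := by
        field_simp
        ring
      rw [e, hTadd, ← hTinv]
      exact H.mul_mem (hsq _) (H.inv_mem (hsq _))
  have hroot : ∀ (hij : (0 : Fin (n + 1)) ≠ 1) (a : K),
      Matrix.SpecialLinearGroup.transvection hij a ∈ H := by
    intro hij a
    have h1 := hallT (c₀⁻¹ * a)
    rw [mul_inv_cancel_left₀ hc₀0, hT] at h1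
    exact h1
  have hxH : x ∈ H := by
    rw [hx', hT]
    exact hroot h01 1
  have hwH : w ∈ H := by
    have h1 : w = x⁻¹ * (x * w) := by group
    rw [h1]
    exact H.mul_mem (H.inv_mem hxH) hyH
  exact Cfsg.Agent.Lib.Helper15.SLCyc.sl_gen_of_root_cyclic n hn w hw H hwH hroot

end Cfsg.Agent.S2402
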