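import Cfsg.Statements.S2403
import Cfsg.Agent.Lib.Helper3.SLn

set_option autoImplicit false
open Cfsg

namespace Cfsg.Agent.S2403

/-- Elements of a field with at most three elements. -/
theorem elt_cases {K : Type*} [Field K] [Fintype K] (hK : Fintype.card K ≤ 3) (a : K) :
    a = 0 ∨ a = 1 ∨ a = -1 := by
  by_cases ha : a = 0
  · exact Or.inl ha
  · right
    have h1 := FiniteField.pow_card_sub_one_eq_one a ha
    have h2 : 1 < Fintype.card K := Fintype.one_lt_card
    have h3 : Fintype.card K = 2 ∨ Fintype.card K = 3 := by omega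
    rcases h3 with h3 | h3
    · rw [h3] at h1
      left
      simpa using h1
    · rw [h3] at h1
      have h4 : (a - 1) * (a + 1) = 0 := by
        have h5 : a ^ 2 = 1 := h1
        linear_combination h5
      rcases mul_eq_zero.1 h4 with h | h
      · left
        exact sub_eq_zero.1 h
      · right
        exact eq_neg_of_add_eq_zero_left h

open Fin.NatCast in
/-- A subset of `Fin (n + 1)` closed under the successor is everything. -/
theorem fin_orbit {n : ℕ} (S : Fin (n + 1) → Prop) (j₀ : Fin (n + 1)) (h0 : S j₀)
    (hstep : ∀ j, S j → S (j + 1)) (j : Fin (n + 1)) : S j := by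
  have h1 : ∀ m : ℕ, S (j₀ + (m : Fin (n + 1))) := by
    intro m
    induction m with
    | zero => simpa using h0
    | succ m ih =>
      have := hstep _ ih
      rwa [add_assoc, ← Nat.cast_succ] at this
  have h2 := h1 (j - j₀).val
  rwa [Fin.cast_val_eq_self, add_sub_cancel] at h2

/-- Explicit two-element generation of `PSL_{n+1}(K)` over the fields with two or three elements: with `x = 1 + E₁₂` and `w` the monomial matrix with entries `1` in positions `(i, i+1)` and `(−1)^n` in position `(n+1, 1)`, the elements `x` and `w` generate `SL_{n+1}(K)` modulo its centre. -/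
theorem result {K : Type*} [Field K] [Fintype K] (hK : Fintype.card K ≤ 3) (n : ℕ) (hn : 1 ≤ n)
    (x w : Matrix.SpecialLinearGroup (Fin (n + 1)) K)
    (hx : (x : Matrix (Fin (n + 1)) (Fin (n + 1)) K) = Matrix.transvection (0 : Fin (n + 1)) (1 : Fin (n + 1)) 1)
    (hw : (w : Matrix (Fin (n + 1)) (Fin (n + 1)) K) =
      Matrix.of (fun i j => if j.val = i.val + 1 then 1 else if i.val = n ∧ j.val = 0 then (-1) ^ n else 0)) :
    Subgroup.closure ({x, w} : Set (Matrix.SpecialLinearGroup (Fin (n + 1)) K)) ⊔
      Subgroup.center (Matrix.SpecialLinearGroup (Fin (n + 1)) K) = ⊤ := by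
  classical
  have : Nontrivial (Fin (n + 1)) := Fin.nontrivial_iff_two_le.2 (by omega)
  set H := Subgroup.closure ({x, w} : Set (Matrix.SpecialLinearGroup (Fin (n + 1)) K)) with hH
  have hxH : x ∈ H := Subgroup.subset_closure (by simp)
  have hwH : w ∈ H := Subgroup.subset_closure (by simp)
  suffices h : H = ⊤ by
    rw [h]
    exact top_sup_eq _
  obtain ⟨ε, hεdef⟩ : ∃ ε : Fin (n + 1) → K, ε = fun v => if v = 0 then (-1) ^ n else 1 :=
    ⟨_, rfl⟩
  have hε2 : ∀ v, ε v * ε v = 1 := by
    intro v
    rw [hεdef]
    by_cases hv : v = 0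
    · simp only [if_pos hv]
      rw [← mul_pow]
      simp
    · simp only [if_neg hv, mul_one]
  have hW : ∀ u v : Fin (n + 1),
      (w : Matrix (Fin (n + 1)) (Fin (n + 1)) K) u v = if v = u + 1 then ε v else 0 := by
    intro u v
    rw [hw, Matrix.of_apply, hεdef]
    by_cases hu : u = Fin.last n
    · subst hu
      have h1 : (Fin.last n + 1 : Fin (n + 1)) = 0 := Fin.last_add_one n
      rw [h1]
      have h2 : ¬ (v.val = (Fin.last n).val + 1) := by
        have := v.2
        rw [Fin.val_last]
        omega
      rw [if_neg h2]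
      by_cases hv : v = 0
      · subst hv
        simp
      · have h3 : ¬ ((Fin.last n).val = n ∧ v.val = 0) := by
          rintro ⟨-, h⟩
          exact hv (Fin.ext h)
        rw [if_neg h3, if_neg hv]
    · have hlt : u < Fin.last n := lt_of_le_of_ne (Fin.le_last u) hu
      have h1 : (u + 1).val = u.val + 1 := Fin.val_add_one_of_lt hlt
      by_cases hv : v = u + 1
      · have h2 : v.val = u.val + 1 := by rw [hv, h1]
        have h3 : v ≠ 0 := by
          intro h0
          rw [h0] at h2
          simp at h2
        rw [if_pos h2, if_pos hv]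
        simp only [if_neg h3]
      · have h2 : ¬ v.val = u.val + 1 := by
          intro h
          apply hv
          apply Fin.ext
          rw [h1, h]
        have h3 : ¬ (u.val = n ∧ v.val = 0) := by
          rintro ⟨h, -⟩
          apply hu
          apply Fin.ext
          rw [Fin.val_last]
          exact h
        rw [if_neg h2, if_neg h3, if_neg hv]
  have hshift : ∀ (r s : Fin (n + 1)) (hrs : r ≠ s) (hrs' : r + 1 ≠ s + 1) (a : K),
      w * Matrix.SpecialLinearGroup.transvection hrs' a =
        Matrix.SpecialLinearGroup.transvection hrs (ε (r + 1) * a * ε (s + 1)) * w := by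
    intro r s hrs hrs' a
    apply Subtype.ext
    show (w : Matrix (Fin (n + 1)) (Fin (n + 1)) K) *
        (Matrix.SpecialLinearGroup.transvection hrs' a : Matrix (Fin (n + 1)) (Fin (n + 1)) K) =
      (Matrix.SpecialLinearGroup.transvection hrs (ε (r + 1) * a * ε (s + 1)) :
        Matrix (Fin (n + 1)) (Fin (n + 1)) K) * (w : Matrix (Fin (n + 1)) (Fin (n + 1)) K)
    rw [Matrix.SpecialLinearGroup.transvection_coe, Matrix.SpecialLinearGroup.transvection_coe,
      mul_add, add_mul, mul_one, one_mul]
    congr 1
    ext u v
    by_cases hv : v = s + 1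
    · subst hv
      rw [Matrix.mul_single_apply_same]
      by_cases hu : u = r
      · subst hu
        rw [Matrix.single_mul_apply_same, hW, hW, if_pos rfl, if_pos rfl, mul_assoc, mul_assoc,
          hε2, mul_one]
      · rw [Matrix.single_mul_apply_of_ne (h := hu), hW,
          if_neg (fun h => hu (add_right_cancel h).symm), zero_mul]
    · rw [Matrix.mul_single_apply_of_ne (hbj := hv)]
      by_cases hu : u = r
      · subst hu
        rw [Matrix.single_mul_apply_same, hW, if_neg hv, mul_zero]
      · rw [Matrix.single_mul_apply_of_ne (h := hu)]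
  obtain ⟨P, hPdef⟩ : ∃ P : Fin (n + 1) → Fin (n + 1) → Prop, P = fun i j =>
      ∀ (hij : i ≠ j) (a : K), Matrix.SpecialLinearGroup.transvection hij a ∈ H := ⟨_, rfl⟩
  have hP01 : P 0 1 := by
    rw [hPdef]
    intro hij a
    rcases elt_cases hK a with rfl | rfl | rfl
    · rw [Matrix.SpecialLinearGroup.transvection_coeff_zero]
      exact H.one_mem
    · have : Matrix.SpecialLinearGroup.transvection hij (1 : K) = x := Subtype.ext hx.symm
      rw [this]
      exact hxH
    · have h1 : Matrix.SpecialLinearGroup.transvection hij (1 : K) = x := Subtype.ext hx.symm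
      rw [← Matrix.SpecialLinearGroup.transvection_inv hij 1, h1]
      exact H.inv_mem hxH
  have hPshift : ∀ r s, P r s → P (r + 1) (s + 1) := by
    intro r s h
    rw [hPdef] at h ⊢
    intro hij' a
    have hrs : r ≠ s := fun e => hij' (by rw [e])
    have h1 := hshift r s hrs hij' a
    have h2 : Matrix.SpecialLinearGroup.transvection hij' a =
        w⁻¹ * (Matrix.SpecialLinearGroup.transvection hrs (ε (r + 1) * a * ε (s + 1)) * w) :=
      eq_inv_mul_iff_mul_eq.2 h1
    rw [h2]
    exact H.mul_mem (H.inv_mem hwH) (H.mul_mem (h hrs _) hwH)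
  have hPtrans : ∀ i k j, P i k → P k j → P i j := by
    intro i k j h1 h2
    by_cases hik : i = k
    · subst hik
      exact h2
    by_cases hkj : k = j
    · subst hkj
      exact h1
    rw [hPdef] at h1 h2 ⊢
    intro hij a
    have h3 := Cfsg.Agent.Lib.Helper3.transvection_commutator hij hik hkj a 1
    rw [mul_one] at h3
    rw [← h3, commutatorElement_def]
    exact H.mul_mem (H.mul_mem (H.mul_mem (h1 hik a) (h2 hkj 1)) (H.inv_mem (h1 hik a)))
      (H.inv_mem (h2 hkj 1))
  have hC1 : ∀ i : Fin (n + 1), P i (i + 1) := by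
    intro i
    induction i using Fin.induction with
    | zero =>
      rw [zero_add]
      exact hP01
    | succ i ih =>
      have h1 := hPshift _ _ ih
      rw [Fin.coeSucc_eq_succ] at h1
      exact h1
  have hC3 : ∀ (i j : Fin (n + 1)) (hij : i ≠ j) (a : K),
      Matrix.SpecialLinearGroup.transvection hij a ∈ H := by
    intro i j hij a
    have h1 : P i j := fin_orbit (fun j => P i j) (i + 1) (hC1 i)
      (fun j hj => hPtrans _ _ _ hj (hC1 j)) j
    rw [hPdef] at h1
    exact h1 hij a
  exact eq_top_iff.2 (fun g _ => Cfsg.Agent.Lib.Helper3.sl_transvection_induction (fun g => g ∈ H)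
    (fun i j hij a => hC3 i j hij a) (fun A B hA hB => H.mul_mem hA hB) g)

end Cfsg.Agent.S2403
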