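import Cfsg.Statements.S2410
import Cfsg.Agent.Lib.Helper15.SzG

set_option autoImplicit false
open Cfsg

namespace Cfsg.Agent.S2410

/-- The Suzuki group over the field with `2^(2m+1)` elements, `m ≥ 1` (realised as the stabiliser in `SL₄` of the Suzuki–Tits ovoid), is generated by two of its elements. -/
theorem result {F : Type*} [Field F] [Fintype F] {m : ℕ} (hm : 1 ≤ m) (hF : Fintype.card F = 2 ^ (2 * m + 1)) :
    ∃ a b : ↥(Cfsg.Sz F m), Subgroup.closure ({a, b} : Set ↥(Cfsg.Sz F m)) = ⊤ := by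
  have key : ∀ S : Subgroup (Matrix.SpecialLinearGroup (Fin 4) F),
      S = (Cfsg.Agent.Lib.Helper4.Suz.dat hF).G →
      ∃ a b : ↥S, Subgroup.closure ({a, b} : Set ↥S) = ⊤ := by
    intro S hS
    subst hS
    obtain ⟨k0, hk0, hk1⟩ := Cfsg.Agent.Lib.Helper4.Suz.exists_ne01 hm hF
    exact Cfsg.Agent.Lib.Helper15.SzG.two_gen _ (Cfsg.Agent.Lib.Helper4.Suz.dat_indep hm hF)
      k0 hk0 hk1
  exact key _ (Cfsg.Agent.Lib.Helper4.Suz.Sz_eq hF)

end Cfsg.Agent.S2410
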