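import Cfsg.Statements.S2416
import Cfsg.Agent.Lib.Helper15.ChevOrb
import Cfsg.Agent.Lib.Helper15.ChevOrbCert
import Cfsg.Agent.Lib.Helper15.ChevPathG2
import Cfsg.Agent.Lib.Helper15.ChevPathB2
import Cfsg.Agent.Lib.Helper15.ChevPathD4
import Cfsg.Agent.Lib.Helper15.ChevPathF4
import Cfsg.Agent.Lib.Helper15.ChevPathE6
import Cfsg.Agent.Lib.Helper15.ChevPathE7
import Cfsg.Agent.Lib.Helper15.ChevPathE8

set_option autoImplicit false
open scoped MatrixGroups
open Cfsg

namespace Cfsg.Agent.S2416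

/-- A Chevalley group of type G₂, B₂, D₄, F₄, E₆, E₇ or E₈ over a finite field lies in (indeed equals) the subgroup generated by its monomial subgroup `N` and a single fundamental root subgroup `X_p`, where `p` is a short fundamental root if there are two root lengths (any fundamental root otherwise), provided the characteristic is not 2 for types B₂, F₄ and not 3 for type G₂ (and the field has more than two elements for B₂, G₂). -/
theorem result {K : Type*} [Field K] [Finite K] (D : Cfsg.Lie.ChevalleyDatum) (hD : D ∈ [Cfsg.Lie.chevG2, Cfsg.Lie.chevB2, Cfsg.Lie.chevD4, Cfsg.Lie.chevF4, Cfsg.Lie.chevE6, Cfsg.Lie.chevE7, Cfsg.Lie.chevE8])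
    (hK : D ∈ [Cfsg.Lie.chevB2, Cfsg.Lie.chevG2] → ∃ x : K, x ≠ 0 ∧ x ≠ 1)
    (h2 : D ∈ [Cfsg.Lie.chevB2, Cfsg.Lie.chevF4] → ringChar K ≠ 2) (h3 : D = Cfsg.Lie.chevG2 → ringChar K ≠ 3)
    (i : ℕ) (hi : i < D.rank) (hshort : D.isLong (D.simple i) = false) :
    D.group K ≤ D.monomialSubgroup K ⊔ D.rootSubgroup K (D.simple i) := by
  have h3' : ringChar K ≠ 3 → ((3 : ℤ) : K) ≠ 0 := by
    intro h hz
    have h1 : ((3 : ℕ) : K) = 0 := by exact_mod_cast hz
    have h4 : ringChar K ∣ 3 := (ringChar.spec K 3).1 h1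
    rcases (Nat.dvd_prime Nat.prime_three).1 h4 with h5 | h5
    · exact CharP.ringChar_ne_one h5
    · exact h h5
  have h2' : ringChar K ≠ 2 → ((2 : ℤ) : K) ≠ 0 := by
    intro h hz
    have h1 : ((2 : ℕ) : K) = 0 := by exact_mod_cast hz
    have h4 : ringChar K ∣ 2 := (ringChar.spec K 2).1 h1
    rcases (Nat.dvd_prime Nat.prime_two).1 h4 with h5 | h5
    · exact CharP.ringChar_ne_one h5
    · exact h h5
  have hD' := hD
  simp only [List.mem_cons, List.mem_nil_iff, or_false] at hD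
  rcases hD with rfl | rfl | rfl | rfl | rfl | rfl | rfl
  · exact Cfsg.Agent.Lib.Helper15.ChevGen.gen_le_short _ hD' _
      Cfsg.Agent.Lib.Helper15.ChevGen.gcertG2_ok 3 true _
      Cfsg.Agent.Lib.Helper15.ChevGen.cert16G2_ok (fun _ => h3' (h3 rfl)) i hi hshort
  · exact Cfsg.Agent.Lib.Helper15.ChevGen.gen_le_short _ hD' _
      Cfsg.Agent.Lib.Helper15.ChevGen.gcertB2_ok 2 true _
      Cfsg.Agent.Lib.Helper15.ChevGen.cert16B2_ok (fun _ => h2' (h2 (by simp))) i hi hshort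
  · exact Cfsg.Agent.Lib.Helper15.ChevGen.gen_le_short _ hD' _
      Cfsg.Agent.Lib.Helper15.ChevGen.gcertD4_ok 1 false _
      Cfsg.Agent.Lib.Helper15.ChevGen.cert16D4_ok (fun h => absurd h (by simp)) i hi hshort
  · exact Cfsg.Agent.Lib.Helper15.ChevGen.gen_le_short _ hD' _
      Cfsg.Agent.Lib.Helper15.ChevGen.gcertF4_ok 2 true _
      Cfsg.Agent.Lib.Helper15.ChevGen.cert16F4_ok (fun _ => h2' (h2 (by simp))) i hi hshort
  · exact Cfsg.Agent.Lib.Helper15.ChevGen.gen_le_short _ hD' _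
      Cfsg.Agent.Lib.Helper15.ChevGen.gcertE6_ok 1 false _
      Cfsg.Agent.Lib.Helper15.ChevGen.cert16E6_ok (fun h => absurd h (by simp)) i hi hshort
  · exact Cfsg.Agent.Lib.Helper15.ChevGen.gen_le_short _ hD' _
      Cfsg.Agent.Lib.Helper15.ChevGen.gcertE7_ok 1 false _
      Cfsg.Agent.Lib.Helper15.ChevGen.cert16E7_ok (fun h => absurd h (by simp)) i hi hshort
  · exact Cfsg.Agent.Lib.Helper15.ChevGen.gen_le_short _ hD' _
      Cfsg.Agent.Lib.Helper15.ChevGen.gcertE8_ok 1 false _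
      Cfsg.Agent.Lib.Helper15.ChevGen.cert16E8_ok (fun h => absurd h (by simp)) i hi hshort

end Cfsg.Agent.S2416
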