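import Cfsg.Statements.S2419

set_option autoImplicit false
open Cfsg

namespace Cfsg.Agent.S2419

theorem comm_of {G : Type*} [Group G] (a b : G) (ha : a * a = 1) (hb : b * b = 1)
    (h : (a * b) ^ 2 = 1) : a * b = b * a := by
  have h1 : a * b * (a * b) = 1 := by rw [← pow_two]; exact h
  have hai : a⁻¹ = a := inv_eq_of_mul_eq_one_right ha
  have hbi : b⁻¹ = b := inv_eq_of_mul_eq_one_right hb
  calc a * b = (a * b)⁻¹ := eq_inv_of_mul_eq_one_left h1
    _ = b⁻¹ * a⁻¹ := by group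
    _ = b * a := by rw [hai, hbi]

theorem braid_of {G : Type*} [Group G] (a b : G) (ha : a * a = 1) (hb : b * b = 1)
    (h : (a * b) ^ 3 = 1) : a * b * a = b * a * b := by
  have hai : a⁻¹ = a := inv_eq_of_mul_eq_one_right ha
  have hbi : b⁻¹ = b := inv_eq_of_mul_eq_one_right hb
  have h2 : a * b * a * (b * a * b) = 1 := by
    rw [← h]; simp only [pow_succ, pow_zero, one_mul, mul_assoc]
  calc a * b * a = (b * a * b)⁻¹ := eq_inv_of_mul_eq_one_left h2
    _ = b⁻¹ * a⁻¹ * b⁻¹ := by group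
    _ = b * a * b := by rw [hai, hbi]

theorem chain_conj {G : Type*} [Group G] (P a b Q : G)
    (hbr : a * b * a = b * a * b) (hbP : Commute b P) (haQ : Commute a Q) :
    P * a * b * Q * a = b * (P * a * b * Q) := by
  calc P * a * b * Q * a = P * a * b * (Q * a) := by group
    _ = P * a * b * (a * Q) := by rw [haQ.eq]
    _ = P * (a * b * a) * Q := by group
    _ = P * (b * a * b) * Q := by rw [hbr]
    _ = (P * b) * a * b * Q := by group
    _ = (b * P) * a * b * Q := by rw [hbP.eq]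
    _ = b * (P * a * b * Q) := by group

/-- from `c * a = b * c`: `b` is a conjugate of `a` by `c` -/
theorem mem_of_conj {G : Type*} [Group G] (H : Subgroup G) (c a b : G) (hc : c ∈ H) (ha : a ∈ H)
    (h : c * a = b * c) : b ∈ H := by
  have : b = c * a * c⁻¹ := by rw [h]; group
  rw [this]; exact H.mul_mem (H.mul_mem hc ha) (H.inv_mem hc)

theorem E_fin {G : Type*} [Group G] (H : Subgroup G) (x0 x1 x2 x3 : G)
    (h0 : x0 * x0 = 1) (h1 : x1 * x1 = 1) (h2 : x2 * x2 = 1) (h3 : x3 * x3 = 1)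
    (c01 : x0 * x1 = x1 * x0) (c12 : x1 * x2 = x2 * x1) (c03 : x0 * x3 = x3 * x0)
    (b02 : x0 * x2 * x0 = x2 * x0 * x2) (b23 : x2 * x3 * x2 = x3 * x2 * x3)
    (hx3 : x3 ∈ H) (hc : x0 * x1 * x2 ∈ H) : x0 ∈ H ∧ x1 ∈ H ∧ x2 ∈ H := by
  have hcm : Commute x1 (x0 * x2) := Commute.mul_right c01.symm c12
  have hu : x0 * x1 * x2 = x1 * (x0 * x2) := by rw [c01, mul_assoc]
  have hu3 : (x0 * x2) ^ 3 = 1 := by
    calc (x0 * x2) ^ 3 = x0 * x2 * (x0 * x2 * x0) * x2 := by
          simp only [pow_succ, pow_zero, one_mul, mul_assoc]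
      _ = x0 * x2 * (x2 * x0 * x2) * x2 := by rw [b02]
      _ = x0 * (x2 * x2) * x0 * (x2 * x2) := by group
      _ = 1 := by rw [h2, mul_one, mul_one, h0]
  have hx13 : x1 ^ 3 = x1 := by
    calc x1 ^ 3 = x1 * x1 * x1 := by
          simp only [pow_succ, pow_zero, one_mul, mul_assoc]
      _ = x1 := by rw [h1, one_mul]
  have e1 : (x0 * x1 * x2) ^ 3 = x1 := by
    rw [hu, hcm.mul_pow, hx13, hu3, mul_one]
  have hx1 : x1 ∈ H := by rw [← e1]; exact H.pow_mem hc 3
  have hu' : x0 * x2 ∈ H := by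
    have h5 : x0 * x2 = x1 * (x0 * x1 * x2) := by rw [hu, ← mul_assoc, h1, one_mul]
    rw [h5]; exact H.mul_mem hx1 hc
  have hinv : (x0 * x2)⁻¹ = x2 * x0 := by
    rw [mul_inv_rev, inv_eq_of_mul_eq_one_right h0, inv_eq_of_mul_eq_one_right h2]
  have e2 : x2 = x3 * ((x0 * x2)⁻¹ * x3 * (x0 * x2)) * x3 := by
    rw [hinv]
    calc x2 = x3 * x3 * x2 * (x3 * x3) := by rw [h3, one_mul, mul_one]
      _ = x3 * (x3 * x2 * x3) * x3 := by group
      _ = x3 * (x2 * x3 * x2) * x3 := by rw [b23]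
      _ = x3 * (x2 * (x0 * x0) * x3 * x2) * x3 := by rw [h0, mul_one]
      _ = x3 * (x2 * x0 * (x0 * x3) * x2) * x3 := by group
      _ = x3 * (x2 * x0 * (x3 * x0) * x2) * x3 := by rw [c03]
      _ = x3 * ((x2 * x0) * x3 * (x0 * x2)) * x3 := by group
  have hx2 : x2 ∈ H := by
    rw [e2]
    exact H.mul_mem (H.mul_mem hx3 (H.mul_mem (H.mul_mem (H.inv_mem hu') hx3) hu')) hx3
  have hx0 : x0 ∈ H := by
    have h5 : x0 = (x0 * x2) * x2 := by rw [mul_assoc, h2, mul_one]
    rw [h5]; exact H.mul_mem hu' hx2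
  exact ⟨hx0, hx1, hx2⟩

theorem D4_fin {G : Type*} [Group G] (H : Subgroup G) (x0 x1 x2 x3 : G)
    (h0 : x0 * x0 = 1) (h1 : x1 * x1 = 1) (h2 : x2 * x2 = 1) (h3 : x3 * x3 = 1)
    (c02 : x0 * x2 = x2 * x0) (c23 : x2 * x3 = x3 * x2)
    (b01 : x0 * x1 * x0 = x1 * x0 * x1) (b12 : x1 * x2 * x1 = x2 * x1 * x2)
    (hx1 : x1 ∈ H) (hx2 : x2 ∈ H) (hc : x0 * x1 * x2 * x3 ∈ H) : x0 ∈ H ∧ x3 ∈ H := by
  have hcinv : (x0 * x1 * x2 * x3)⁻¹ = x3 * x2 * x1 * x0 := by
    rw [mul_inv_rev, mul_inv_rev, mul_inv_rev, inv_eq_of_mul_eq_one_right h0,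
      inv_eq_of_mul_eq_one_right h1, inv_eq_of_mul_eq_one_right h2,
      inv_eq_of_mul_eq_one_right h3]
    group
  have e : x1 * x2 * ((x0 * x1 * x2 * x3) * x2 * (x0 * x1 * x2 * x3)⁻¹) * x2 * x1 = x0 := by
    rw [hcinv]
    calc x1 * x2 * ((x0 * x1 * x2 * x3) * x2 * (x3 * x2 * x1 * x0)) * x2 * x1
        = x1 * x2 * (x0 * x1 * x2 * (x3 * x2) * x3 * x2 * x1 * x0) * x2 * x1 := by group
      _ = x1 * x2 * (x0 * x1 * x2 * (x2 * x3) * x3 * x2 * x1 * x0) * x2 * x1 := by rw [← c23]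
      _ = x1 * x2 * (x0 * x1 * (x2 * x2) * (x3 * x3) * x2 * x1 * x0) * x2 * x1 := by group
      _ = x1 * x2 * (x0 * (x1 * x2 * x1) * x0) * x2 * x1 := by
          rw [h2, h3, mul_one, mul_one]; group
      _ = x1 * x2 * (x0 * (x2 * x1 * x2) * x0) * x2 * x1 := by rw [b12]
      _ = x1 * x2 * ((x0 * x2) * (x1 * x2 * x0)) * x2 * x1 := by group
      _ = x1 * x2 * ((x2 * x0) * (x1 * x2 * x0)) * x2 * x1 := by rw [c02]
      _ = x1 * (x2 * x2) * (x0 * x1) * (x2 * x0) * x2 * x1 := by group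
      _ = x1 * (x2 * x2) * (x0 * x1) * (x0 * x2) * x2 * x1 := by rw [← c02]
      _ = x1 * (x2 * x2) * (x0 * x1 * x0) * (x2 * x2) * x1 := by group
      _ = x1 * (x1 * x0 * x1) * x1 := by rw [h2, b01, mul_one, mul_one]
      _ = (x1 * x1) * x0 * (x1 * x1) := by group
      _ = x0 := by rw [h1, one_mul, mul_one]
  have hx0 : x0 ∈ H := by
    rw [← e]
    exact H.mul_mem (H.mul_mem (H.mul_mem (H.mul_mem hx1 hx2)
      (H.mul_mem (H.mul_mem hc hx2) (H.inv_mem hc))) hx2) hx1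
  have hx3 : x3 ∈ H := by
    have h5 : x3 = x2 * x1 * x0 * (x0 * x1 * x2 * x3) := by
      calc x3 = x2 * (x1 * (x0 * x0) * x1) * x2 * x3 := by
            rw [h0, mul_one, h1, mul_one, h2, one_mul]
        _ = x2 * x1 * x0 * (x0 * x1 * x2 * x3) := by group
    rw [h5]
    exact H.mul_mem (H.mul_mem (H.mul_mem hx2 hx1) hx0) hc
  exact ⟨hx0, hx3⟩

theorem sq_one {B : Type*} (M : CoxeterMatrix B) (i : B) : M.simple i * M.simple i = 1 := by
  have := M.toCoxeterSystem.simple_mul_simple_self i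
  rw [CoxeterMatrix.toCoxeterSystem_simple] at this
  exact this

theorem rel_pow {B : Type*} (M : CoxeterMatrix B) (i j : B) :
    (M.simple i * M.simple j) ^ M i j = 1 := by
  have := M.toCoxeterSystem.simple_mul_simple_pow i j
  rw [CoxeterMatrix.toCoxeterSystem_simple] at this
  exact this

theorem rel_comm {B : Type*} (M : CoxeterMatrix B) (i j : B) (h : M i j = 2) :
    Commute (M.simple i) (M.simple j) :=
  comm_of _ _ (sq_one M i) (sq_one M j) (by rw [← h]; exact rel_pow M i j)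

theorem rel_braid {B : Type*} (M : CoxeterMatrix B) (i j : B) (h : M i j = 3) :
    M.simple i * M.simple j * M.simple i = M.simple j * M.simple i * M.simple j :=
  braid_of _ _ (sq_one M i) (sq_one M j) (by rw [← h]; exact rel_pow M i j)

theorem top_of_simple {B : Type*} {M : CoxeterMatrix B} (H : Subgroup M.Group)
    (h : ∀ i, M.simple i ∈ H) : H = ⊤ := by
  rw [eq_top_iff, ← M.toCoxeterSystem.subgroup_closure_range_simple, Subgroup.closure_le]
  rintro _ ⟨i, rfl⟩
  rw [CoxeterMatrix.toCoxeterSystem_simple]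
  exact h i

theorem cancel_r {B : Type*} (M : CoxeterMatrix B) (w : M.Group) (i : B) :
    w * M.simple i * M.simple i = w := by
  rw [mul_assoc, sq_one, mul_one]


theorem step_mem {G : Type*} [Group G] (H : Subgroup G) (P a b Q c : G)
    (hbr : a * b * a = b * a * b) (hbP : Commute b P) (haQ : Commute a Q)
    (hce : c = P * a * b * Q) (hc : c ∈ H) (ha : a ∈ H) : b ∈ H := by
  refine mem_of_conj H c a b hc ha ?_
  rw [hce]
  exact chain_conj P a b Q hbr hbP haQ

theorem fin_of {n : ℕ} (M : CoxeterMatrix (Fin n)) (T : Finset M.Group) (k : ℕ) (hk : T.card = k)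
    (hT : ∀ t ∈ T, ∃ i, t = M.simple i)
    (h : ∀ H : Subgroup M.Group, ((List.finRange n).map M.simple).prod ∈ H →
      (∀ t ∈ T, t ∈ H) → ∀ i, M.simple i ∈ H) :
    ∃ T : Finset M.Group, T.card = k ∧
      (∀ t ∈ T, ∃ (g : M.Group) (i : Fin n), t = g * M.simple i * g⁻¹) ∧
      Subgroup.closure (({((List.finRange n).map M.simple).prod} : Set M.Group) ∪ ↑T) = ⊤ := by
  refine ⟨T, hk, ?_, ?_⟩
  · intro t ht
    obtain ⟨i, rfl⟩ := hT t ht
    exact ⟨1, i, by simp⟩
  · apply top_of_simple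
    apply h
    · exact Subgroup.subset_closure (Or.inl rfl)
    · intro t ht
      exact Subgroup.subset_closure (Or.inr ht)

section E8
local notation "s" => CoxeterMatrix.E₈.simple
local notation "M" => CoxeterMatrix.E₈

theorem hpE8 : ((List.finRange 8).map s).prod = s 0 * s 1 * s 2 * s 3 * s 4 * s 5 * s 6 * s 7 := by
  simp [List.finRange_succ, mul_assoc]

theorem caseE8 (H : Subgroup CoxeterMatrix.E₈.Group)
    (hc : ((List.finRange 8).map s).prod ∈ H)
    (h3 : s 3 ∈ H) : ∀ i, s i ∈ H := by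
  rw [hpE8] at hc
  have C : ∀ i j : Fin 8, M i j = 2 → Commute (s i) (s j) := rel_comm M
  have h4 : s 4 ∈ H :=
    step_mem H (s 0 * s 1 * s 2) (s 3) (s 4) (s 5 * s 6 * s 7) _ (rel_braid M 3 4 (by decide))
      (((C 4 0 (by decide)).mul_right (C 4 1 (by decide))).mul_right (C 4 2 (by decide)))
      (((C 3 5 (by decide)).mul_right (C 3 6 (by decide))).mul_right (C 3 7 (by decide)))
      (by simp only [mul_assoc]) hc h3
  have h5 : s 5 ∈ H :=
    step_mem H (s 0 * s 1 * s 2 * s 3) (s 4) (s 5) (s 6 * s 7) _ (rel_braid M 4 5 (by decide))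
      ((((C 5 0 (by decide)).mul_right (C 5 1 (by decide))).mul_right (C 5 2 (by decide))).mul_right
        (C 5 3 (by decide)))
      ((C 4 6 (by decide)).mul_right (C 4 7 (by decide)))
      (by simp only [mul_assoc]) hc h4
  have h6 : s 6 ∈ H :=
    step_mem H (s 0 * s 1 * s 2 * s 3 * s 4) (s 5) (s 6) (s 7) _ (rel_braid M 5 6 (by decide))
      (((((C 6 0 (by decide)).mul_right (C 6 1 (by decide))).mul_right (C 6 2 (by decide))).mul_right
        (C 6 3 (by decide))).mul_right (C 6 4 (by decide)))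
      (C 5 7 (by decide))
      (by simp only [mul_assoc]) hc h5
  have h7 : s 7 ∈ H :=
    step_mem H (s 0 * s 1 * s 2 * s 3 * s 4 * s 5) (s 6) (s 7) 1 _ (rel_braid M 6 7 (by decide))
      ((((((C 7 0 (by decide)).mul_right (C 7 1 (by decide))).mul_right (C 7 2 (by decide))).mul_right
        (C 7 3 (by decide))).mul_right (C 7 4 (by decide))).mul_right (C 7 5 (by decide)))
      (Commute.one_right _)
      (by simp only [mul_assoc, mul_one]) hc h6
  have h012 : s 0 * s 1 * s 2 ∈ H := by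
    have e : s 0 * s 1 * s 2
        = s 0 * s 1 * s 2 * s 3 * s 4 * s 5 * s 6 * s 7 * s 7 * s 6 * s 5 * s 4 * s 3 := by
      rw [cancel_r, cancel_r, cancel_r, cancel_r, cancel_r]
    rw [e]
    exact H.mul_mem (H.mul_mem (H.mul_mem (H.mul_mem (H.mul_mem hc h7) h6) h5) h4) h3
  obtain ⟨h0, h1, h2⟩ := E_fin H (s 0) (s 1) (s 2) (s 3) (sq_one M 0) (sq_one M 1) (sq_one M 2)
    (sq_one M 3) (C 0 1 (by decide)).eq (C 1 2 (by decide)).eq (C 0 3 (by decide)).eq
    (rel_braid M 0 2 (by decide)) (rel_braid M 2 3 (by decide)) h3 h012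
  intro i
  fin_cases i <;> assumption

end E8


section E7
local notation "s" => CoxeterMatrix.E₇.simple
local notation "M" => CoxeterMatrix.E₇

theorem hpE7 : ((List.finRange 7).map s).prod = s 0 * s 1 * s 2 * s 3 * s 4 * s 5 * s 6 := by
  simp [List.finRange_succ, mul_assoc]

theorem caseE7 (H : Subgroup CoxeterMatrix.E₇.Group)
    (hc : ((List.finRange 7).map s).prod ∈ H)
    (h3 : s 3 ∈ H) : ∀ i, s i ∈ H := by
  rw [hpE7] at hc
  have C : ∀ i j : Fin 7, M i j = 2 → Commute (s i) (s j) := rel_comm M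
  have h4 : s 4 ∈ H :=
    step_mem H (s 0 * s 1 * s 2) (s 3) (s 4) (s 5 * s 6) _ (rel_braid M 3 4 (by decide))
      (((C 4 0 (by decide)).mul_right (C 4 1 (by decide))).mul_right (C 4 2 (by decide)))
      ((C 3 5 (by decide)).mul_right (C 3 6 (by decide)))
      (by simp only [mul_assoc]) hc h3
  have h5 : s 5 ∈ H :=
    step_mem H (s 0 * s 1 * s 2 * s 3) (s 4) (s 5) (s 6) _ (rel_braid M 4 5 (by decide))
      ((((C 5 0 (by decide)).mul_right (C 5 1 (by decide))).mul_right (C 5 2 (by decide))).mul_right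
        (C 5 3 (by decide)))
      (C 4 6 (by decide))
      (by simp only [mul_assoc]) hc h4
  have h6 : s 6 ∈ H :=
    step_mem H (s 0 * s 1 * s 2 * s 3 * s 4) (s 5) (s 6) 1 _ (rel_braid M 5 6 (by decide))
      (((((C 6 0 (by decide)).mul_right (C 6 1 (by decide))).mul_right (C 6 2 (by decide))).mul_right
        (C 6 3 (by decide))).mul_right (C 6 4 (by decide)))
      (Commute.one_right _)
      (by simp only [mul_assoc, mul_one]) hc h5
  have h012 : s 0 * s 1 * s 2 ∈ H := by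
    have e : s 0 * s 1 * s 2
        = s 0 * s 1 * s 2 * s 3 * s 4 * s 5 * s 6 * s 6 * s 5 * s 4 * s 3 := by
      rw [cancel_r, cancel_r, cancel_r, cancel_r]
    rw [e]
    exact H.mul_mem (H.mul_mem (H.mul_mem (H.mul_mem hc h6) h5) h4) h3
  obtain ⟨h0, h1, h2⟩ := E_fin H (s 0) (s 1) (s 2) (s 3) (sq_one M 0) (sq_one M 1) (sq_one M 2)
    (sq_one M 3) (C 0 1 (by decide)).eq (C 1 2 (by decide)).eq (C 0 3 (by decide)).eq
    (rel_braid M 0 2 (by decide)) (rel_braid M 2 3 (by decide)) h3 h012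
  intro i
  fin_cases i <;> assumption

end E7

section E6
local notation "s" => CoxeterMatrix.E₆.simple
local notation "M" => CoxeterMatrix.E₆

theorem hpE6 : ((List.finRange 6).map s).prod = s 0 * s 1 * s 2 * s 3 * s 4 * s 5 := by
  simp [List.finRange_succ, mul_assoc]

theorem caseE6 (H : Subgroup CoxeterMatrix.E₆.Group)
    (hc : ((List.finRange 6).map s).prod ∈ H)
    (h3 : s 3 ∈ H) : ∀ i, s i ∈ H := by
  rw [hpE6] at hc
  have C : ∀ i j : Fin 6, M i j = 2 → Commute (s i) (s j) := rel_comm M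
  have h4 : s 4 ∈ H :=
    step_mem H (s 0 * s 1 * s 2) (s 3) (s 4) (s 5) _ (rel_braid M 3 4 (by decide))
      (((C 4 0 (by decide)).mul_right (C 4 1 (by decide))).mul_right (C 4 2 (by decide)))
      (C 3 5 (by decide))
      (by simp only [mul_assoc]) hc h3
  have h5 : s 5 ∈ H :=
    step_mem H (s 0 * s 1 * s 2 * s 3) (s 4) (s 5) 1 _ (rel_braid M 4 5 (by decide))
      ((((C 5 0 (by decide)).mul_right (C 5 1 (by decide))).mul_right (C 5 2 (by decide))).mul_right
        (C 5 3 (by decide)))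
      (Commute.one_right _)
      (by simp only [mul_assoc, mul_one]) hc h4
  have h012 : s 0 * s 1 * s 2 ∈ H := by
    have e : s 0 * s 1 * s 2
        = s 0 * s 1 * s 2 * s 3 * s 4 * s 5 * s 5 * s 4 * s 3 := by
      rw [cancel_r, cancel_r, cancel_r]
    rw [e]
    exact H.mul_mem (H.mul_mem (H.mul_mem hc h5) h4) h3
  obtain ⟨h0, h1, h2⟩ := E_fin H (s 0) (s 1) (s 2) (s 3) (sq_one M 0) (sq_one M 1) (sq_one M 2)
    (sq_one M 3) (C 0 1 (by decide)).eq (C 1 2 (by decide)).eq (C 0 3 (by decide)).eq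
    (rel_braid M 0 2 (by decide)) (rel_braid M 2 3 (by decide)) h3 h012
  intro i
  fin_cases i <;> assumption

end E6

section F4
local notation "s" => CoxeterMatrix.F₄.simple
local notation "M" => CoxeterMatrix.F₄

theorem hpF4 : ((List.finRange 4).map s).prod = s 0 * s 1 * s 2 * s 3 := by
  simp [List.finRange_succ, mul_assoc]

theorem caseF4 (H : Subgroup CoxeterMatrix.F₄.Group)
    (hc : ((List.finRange 4).map s).prod ∈ H)
    (h1 : s 1 ∈ H) (h2 : s 2 ∈ H) : ∀ i, s i ∈ H := by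
  rw [hpF4] at hc
  have C : ∀ i j : Fin 4, M i j = 2 → Commute (s i) (s j) := rel_comm M
  have h3 : s 3 ∈ H :=
    step_mem H (s 0 * s 1) (s 2) (s 3) 1 _ (rel_braid M 2 3 (by decide))
      ((C 3 0 (by decide)).mul_right (C 3 1 (by decide)))
      (Commute.one_right _)
      (by simp only [mul_assoc, mul_one]) hc h2
  have h0 : s 0 ∈ H := by
    have e : s 0 = s 0 * s 1 * s 2 * s 3 * s 3 * s 2 * s 1 := by
      rw [cancel_r, cancel_r, cancel_r]
    rw [e]
    exact H.mul_mem (H.mul_mem (H.mul_mem hc h3) h2) h1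
  intro i
  fin_cases i <;> assumption

def fF4 : Fin 4 → Multiplicative (ZMod 2) :=
  ![1, 1, Multiplicative.ofAdd 1, Multiplicative.ofAdd 1]

theorem fF4_lift : CoxeterMatrix.F₄.IsLiftable fF4 := by
  intro i j
  fin_cases i <;> fin_cases j <;> decide

theorem neF4 : s 1 ≠ s 2 := by
  intro h
  have h1 := CoxeterMatrix.F₄.toCoxeterSystem.lift_apply_simple fF4_lift 1
  have h2 := CoxeterMatrix.F₄.toCoxeterSystem.lift_apply_simple fF4_lift 2
  rw [CoxeterMatrix.toCoxeterSystem_simple] at h1 h2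
  rw [h, h2] at h1
  revert h1
  decide

end F4

section D4
local notation "s" => Cfsg.Lie.coxeterD4.simple
local notation "M" => Cfsg.Lie.coxeterD4

theorem hpD4 : ((List.finRange 4).map s).prod = s 0 * s 1 * s 2 * s 3 := by
  simp [List.finRange_succ, mul_assoc]

theorem caseD4 (H : Subgroup Cfsg.Lie.coxeterD4.Group)
    (hc : ((List.finRange 4).map s).prod ∈ H)
    (h1 : s 1 ∈ H) (h2 : s 2 ∈ H) : ∀ i, s i ∈ H := by
  rw [hpD4] at hc
  have C : ∀ i j : Fin 4, M i j = 2 → Commute (s i) (s j) := rel_comm M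
  obtain ⟨h0, h3⟩ := D4_fin H (s 0) (s 1) (s 2) (s 3) (sq_one M 0) (sq_one M 1) (sq_one M 2)
    (sq_one M 3) (C 0 2 (by decide)).eq (C 2 3 (by decide)).eq
    (rel_braid M 0 1 (by decide)) (rel_braid M 1 2 (by decide)) h1 h2 hc
  intro i
  fin_cases i <;> assumption

def fD4 : Fin 4 → Equiv.Perm (Fin 3) :=
  ![Equiv.swap 1 2, Equiv.swap 0 1, Equiv.swap 1 2, Equiv.swap 1 2]

theorem fD4_lift : Cfsg.Lie.coxeterD4.IsLiftable fD4 := by
  intro i j
  fin_cases i <;> fin_cases j <;> decide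

theorem neD4 : s 1 ≠ s 2 := by
  intro h
  have h1 := Cfsg.Lie.coxeterD4.toCoxeterSystem.lift_apply_simple fD4_lift 1
  have h2 := Cfsg.Lie.coxeterD4.toCoxeterSystem.lift_apply_simple fD4_lift 2
  rw [CoxeterMatrix.toCoxeterSystem_simple] at h1 h2
  rw [h, h2] at h1
  revert h1
  decide

end D4

theorem case2 (M : CoxeterMatrix (Fin 2)) (H : Subgroup M.Group)
    (hc : ((List.finRange 2).map M.simple).prod ∈ H)
    (h0 : M.simple 0 ∈ H) : ∀ i, M.simple i ∈ H := by
  have hp : ((List.finRange 2).map M.simple).prod = M.simple 0 * M.simple 1 := by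
    simp [List.finRange_succ]
  rw [hp] at hc
  have h1 : M.simple 1 ∈ H := by
    have e : M.simple 1 = M.simple 0 * (M.simple 0 * M.simple 1) := by
      rw [← mul_assoc, sq_one, one_mul]
    rw [e]
    exact H.mul_mem h0 hc
  intro i
  fin_cases i <;> assumption

theorem one_case {n : ℕ} (M : CoxeterMatrix (Fin n)) (j : Fin n)
    (h : ∀ H : Subgroup M.Group, ((List.finRange n).map M.simple).prod ∈ H →
      M.simple j ∈ H → ∀ i, M.simple i ∈ H) :
    ∃ T : Finset M.Group, T.card = 1 ∧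
      (∀ t ∈ T, ∃ (g : M.Group) (i : Fin n), t = g * M.simple i * g⁻¹) ∧
      Subgroup.closure (({((List.finRange n).map M.simple).prod} : Set M.Group) ∪ ↑T) = ⊤ := by
  refine fin_of M {M.simple j} 1 (Finset.card_singleton _) ?_ ?_
  · intro t ht
    exact ⟨j, Finset.mem_singleton.mp ht⟩
  · intro H hc hT
    exact h H hc (hT _ (Finset.mem_singleton_self _))

theorem two_case {n : ℕ} (M : CoxeterMatrix (Fin n)) (j k : Fin n)
    (hne : M.simple j ≠ M.simple k)
    (h : ∀ H : Subgroup M.Group, ((List.finRange n).map M.simple).prod ∈ H →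
      M.simple j ∈ H → M.simple k ∈ H → ∀ i, M.simple i ∈ H) :
    ∃ T : Finset M.Group, T.card = 2 ∧
      (∀ t ∈ T, ∃ (g : M.Group) (i : Fin n), t = g * M.simple i * g⁻¹) ∧
      Subgroup.closure (({((List.finRange n).map M.simple).prod} : Set M.Group) ∪ ↑T) = ⊤ := by
  classical
  refine fin_of M {M.simple j, M.simple k} 2 (Finset.card_pair hne) ?_ ?_
  · intro t ht
    rcases Finset.mem_insert.mp ht with h1 | h1
    · exact ⟨j, h1⟩
    · exact ⟨k, Finset.mem_singleton.mp h1⟩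
  · intro H hc hT
    exact h H hc (hT _ (Finset.mem_insert_self _ _))
      (hT _ (Finset.mem_insert_of_mem (Finset.mem_singleton_self _)))

/-- The Coxeter groups of types B₂, G₂, E₆, E₇, E₈ are generated by the Coxeter element `s₁ s₂ ⋯ s_l` together with one suitable reflection (a conjugate of a simple reflection); for types D₄ and F₄ the Coxeter element together with two suitable reflections suffices. -/
theorem result (c : (Σ n : ℕ, CoxeterMatrix (Fin n)) × ℕ)
    (hc : c ∈ [(⟨2, CoxeterMatrix.B 2⟩, 1), (⟨2, CoxeterMatrix.G₂⟩, 1), (⟨4, Cfsg.Lie.coxeterD4⟩, 2), (⟨4, CoxeterMatrix.F₄⟩, 2),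
      (⟨6, CoxeterMatrix.E₆⟩, 1), (⟨7, CoxeterMatrix.E₇⟩, 1), (⟨8, CoxeterMatrix.E₈⟩, 1)]) :
    ∃ T : Finset c.1.2.Group, T.card = c.2 ∧ (∀ t ∈ T, ∃ (g : c.1.2.Group) (i : Fin c.1.1), t = g * c.1.2.simple i * g⁻¹) ∧
      Subgroup.closure (({((List.finRange c.1.1).map c.1.2.simple).prod} : Set c.1.2.Group) ∪ ↑T) = ⊤ := by
  simp only [List.mem_cons, List.not_mem_nil, or_false] at hc
  rcases hc with rfl | rfl | rfl | rfl | rfl | rfl | rfl
  · exact one_case (CoxeterMatrix.B 2) 0 (case2 _)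
  · exact one_case CoxeterMatrix.G₂ 0 (case2 _)
  · exact two_case Cfsg.Lie.coxeterD4 1 2 neD4 caseD4
  · exact two_case CoxeterMatrix.F₄ 1 2 neF4 caseF4
  · exact one_case CoxeterMatrix.E₆ 3 caseE6
  · exact one_case CoxeterMatrix.E₇ 3 caseE7
  · exact one_case CoxeterMatrix.E₈ 3 caseE8

end Cfsg.Agent.S2419
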