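import Cfsg.Statements.S2420
import Cfsg.Agent.Lib.Helper15.ParabCountD
open Cfsg.Agent.Lib.Helper15.ParabCount

set_option autoImplicit false
open scoped MatrixGroups
open Cfsg

namespace Cfsg.Agent.S2420

/-- The number of partial flags of a given type: for a composition `μ` of `n` (with `n` parts, zeros allowed) and a field with `q` elements, the index of the standard parabolic subgroup `P_μ` in `GL_n(q)` times `∏_i {μ_i}` equals `{n}`, where `{r}` denotes the product over `k = 1, …, r` of the q-integers `1 + q + ⋯ + q^(k−1)`. -/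
theorem result {F : Type*} [Field F] [Fintype F] {q : ℕ} (hq : Fintype.card F = q) {n : ℕ} (μ : Fin n → ℕ) (hμ : ∑ i, μ i = n) :
    Nat.card (GL (Fin n) F ⧸ Cfsg.parabolicGL n F μ) * ∏ i : Fin n, ∏ j ∈ Finset.range (μ i), ∑ l ∈ Finset.range (j + 1), q ^ l =
      ∏ j ∈ Finset.range n, ∑ l ∈ Finset.range (j + 1), q ^ l := by
  subst hq
  let b : Fin n → Fin (n + 1) :=
    fun i => ⟨Cfsg.compLabel μ i, Nat.lt_succ_of_lt (compLabel_lt μ hμ i)⟩
  have hP : ∀ g : GL (Fin n) F, g ∈ Cfsg.parabolicGL n F μ ↔
      (g : Matrix (Fin n) (Fin n) F).BlockTriangular b := by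
    intro g
    constructor
    · intro h i j hij
      exact h (show Cfsg.compLabel μ j < Cfsg.compLabel μ i from hij)
    · intro h i j hij
      exact h (show b j < b i from hij)
  have h := index_blockTriangular b (Cfsg.parabolicGL n F μ) hP
  rw [Fin.prod_univ_castSucc] at h
  have hb : ∀ a : Fin n, Fintype.card {i // b i = Fin.castSucc a} = μ a := by
    intro a
    rw [← card_block μ hμ a]
    apply Fintype.card_congr
    exact Equiv.subtypeEquivRight (fun i => by simp [b, Fin.ext_iff])
  have hlast : Fintype.card {i // b i = Fin.last n} = 0 := by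
    rw [Fintype.card_eq_zero_iff]
    constructor
    rintro ⟨i, hi⟩
    have h1 := compLabel_lt μ hμ i
    have h2 := congrArg Fin.val hi
    simp only [b, Fin.val_last] at h2
    omega
  rw [hlast, Finset.prod_congr rfl (fun a _ => by rw [hb a])] at h
  simp only [qf, Finset.range_zero, Finset.prod_empty, mul_one, Fintype.card_fin] at h
  exact h

end Cfsg.Agent.S2420
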