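import Cfsg.Statements.S2424
import Cfsg.Agent.Lib.Helper15.UnipDeg
import Cfsg.Agent.S2420
open Cfsg.Agent.Lib.Helper15.ParabCount

set_option autoImplicit false
open scoped MatrixGroups
open Cfsg

namespace Cfsg.Agent.S2424

/-- Degrees of the partition-indexed irreducible characters of `GL_n(q)`: for `ν` a partition of `n` with `n` non-decreasing parts `ν_0 ≤ ⋯ ≤ ν_{n−1}` (zeros allowed; positions counted from 0) and `λ_i = ν_i + i`, write `Q(r)` for the q-integer `1 + q + ⋯ + q^(r−1)` and `Q!(r)` for `Q(1)Q(2)⋯Q(r)`; then the degree `γ(ν)` of the character satisfies `γ(ν) · q^(n(n−1)(n−2)/6) · ∏_i Q!(λ_i) = Q!(n) · ∏_{i<j} (Q(λ_j) − Q(λ_i))`. For `ν = (1,…,1)` this gives the Steinberg degree `q^(n(n−1)/2)`, for `ν = (0,…,0,n)` degree 1. -/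
theorem result {F : Type*} [Field F] [Fintype F] {q : ℕ} (hq : Fintype.card F = q) {n : ℕ} (ν : Fin n → ℕ) (hmono : Monotone ν) (hsum : ∑ i, ν i = n) :
    Cfsg.unipotentCharacterGL n F ν 1 * (q : ℂ) ^ (n * (n - 1) * (n - 2) / 6) *
        ∏ i : Fin n, ∏ j ∈ Finset.range (ν i + i.val), ((∑ l ∈ Finset.range (j + 1), q ^ l : ℕ) : ℂ) =
      (∏ j ∈ Finset.range n, ((∑ l ∈ Finset.range (j + 1), q ^ l : ℕ) : ℂ)) *
        ∏ i : Fin n, ∏ j ∈ Finset.univ.filter (fun j : Fin n => i < j),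
          (((∑ l ∈ Finset.range (ν j + j.val), q ^ l : ℕ) : ℂ) - ((∑ l ∈ Finset.range (ν i + i.val), q ^ l : ℕ) : ℂ)) := by
  classical
  set lam : Fin n → ℕ := fun i => ν i + i.val with hlam
  have hfix : ∀ H : Subgroup (GL (Fin n) F), Cfsg.fixedPointCharacter H 1 = (H.index : ℂ) := by
    intro H
    unfold Cfsg.fixedPointCharacter
    congr 1
    have h1 : MulAction.fixedBy (GL (Fin n) F ⧸ H) (1 : GL (Fin n) F) = Set.univ := by
      ext x
      simp [MulAction.mem_fixedBy]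
    rw [h1, Nat.card_coe_set_eq, Set.ncard_univ]
    rfl
  have hterm : ∀ κ : Equiv.Perm (Fin n),
      (if ∀ i : Fin n, (κ i).val ≤ ν i + i.val then
        ((Equiv.Perm.sign κ : ℤ) : ℂ) *
          Cfsg.fixedPointCharacter (Cfsg.parabolicGL n F fun i => ν i + i.val - (κ i).val) 1
        else 0) * ∏ i : Fin n, (qf q (lam i) : ℂ) =
      (qf q n : ℂ) * (((Equiv.Perm.sign κ : ℤ) : ℂ) * ∏ i : Fin n, (ff q (lam i) (κ i).val : ℂ)) := by
    intro κ
    by_cases hc : ∀ i : Fin n, (κ i).val ≤ ν i + i.val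
    · rw [if_pos hc, hfix]
      have hμ : ∑ i, (ν i + i.val - (κ i).val) = n := by
        have h1 : ∑ i : Fin n, (κ i).val = ∑ i : Fin n, i.val := Equiv.sum_comp κ (fun i => i.val)
        have h2 : ∑ i : Fin n, ((ν i + i.val - (κ i).val) + (κ i).val) = ∑ i : Fin n, (ν i + i.val) :=
          Finset.sum_congr rfl (fun i _ => Nat.sub_add_cancel (hc i))
        rw [Finset.sum_add_distrib, Finset.sum_add_distrib, h1, hsum] at h2
        omega
      have h3 := Cfsg.Agent.S2420.result hq (fun i => ν i + i.val - (κ i).val) hμ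
      have h4 : (Cfsg.parabolicGL n F fun i => ν i + i.val - (κ i).val).index *
          ∏ i : Fin n, qf q (lam i) = qf q n * ∏ i : Fin n, ff q (lam i) (κ i).val := by
        have h5 : ∏ i : Fin n, qf q (lam i) =
            (∏ i : Fin n, qf q (lam i - (κ i).val)) * ∏ i : Fin n, ff q (lam i) (κ i).val := by
          rw [← Finset.prod_mul_distrib]
          exact Finset.prod_congr rfl (fun i _ => qf_split q (lam i) (κ i).val (hc i))
        rw [h5, ← mul_assoc]
        congr 1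
      have h6 := congrArg (Nat.cast : ℕ → ℂ) h4
      push_cast at h6
      linear_combination ((Equiv.Perm.sign κ : ℤ) : ℂ) * h6
    · rw [if_neg hc, zero_mul]
      push Not at hc
      obtain ⟨i, hi⟩ := hc
      have h0 : ∏ i : Fin n, (ff q (lam i) (κ i).val : ℂ) = 0 := by
        apply Finset.prod_eq_zero (Finset.mem_univ i)
        rw [ff_eq_zero q (lam i) (κ i).val hi, Nat.cast_zero]
      rw [h0, mul_zero, mul_zero]
  have hmain : Cfsg.unipotentCharacterGL n F ν 1 * ∏ i : Fin n, (qf q (lam i) : ℂ) =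
      (qf q n : ℂ) * ∑ κ : Equiv.Perm (Fin n), ((Equiv.Perm.sign κ : ℤ) : ℂ) *
        ∏ i : Fin n, (ff q (lam i) (κ i).val : ℂ) := by
    unfold Cfsg.unipotentCharacterGL
    rw [Finset.sum_mul, Finset.mul_sum]
    exact Finset.sum_congr rfl (fun κ _ => hterm κ)
  have hdet := det_ff q lam
  have e1 : ∏ i : Fin n, ∏ j ∈ Finset.range (ν i + i.val),
      ((∑ l ∈ Finset.range (j + 1), q ^ l : ℕ) : ℂ) = ∏ i : Fin n, (qf q (lam i) : ℂ) := by
    apply Finset.prod_congr rfl
    intro i _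
    rw [qf, Nat.cast_prod]
  have e2 : (∏ j ∈ Finset.range n, ((∑ l ∈ Finset.range (j + 1), q ^ l : ℕ) : ℂ)) = (qf q n : ℂ) := by
    rw [qf, Nat.cast_prod]
  have e3 : ∏ i : Fin n, ∏ j ∈ Finset.univ.filter (fun j : Fin n => i < j),
      (((∑ l ∈ Finset.range (ν j + j.val), q ^ l : ℕ) : ℂ) -
        ((∑ l ∈ Finset.range (ν i + i.val), q ^ l : ℕ) : ℂ)) =
      ∏ i : Fin n, ∏ j ∈ Finset.Ioi i, ((gs q (lam j) : ℂ) - (gs q (lam i) : ℂ)) := by
    apply Finset.prod_congr rfl
    intro i _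
    apply Finset.prod_congr
    · ext j
      simp
    · intro j _
      rfl
  rw [e1, e2, e3, ← hdet]
  linear_combination (q : ℂ) ^ (n * (n - 1) * (n - 2) / 6) * hmain

end Cfsg.Agent.S2424
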