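-- Statement S2427: structure of SL₂(3).
import Cfsg.Statements.S2427
import Mathlib

set_option autoImplicit false
open Cfsg
open scoped commutatorElement

namespace Cfsg.Agent.S2427

/-- The group SL₂(3). -/
abbrev G3 := Matrix.SpecialLinearGroup (Fin 2) (ZMod 3)

theorem card_G3 : Nat.card G3 = 24 := by
  rw [Nat.card_eq_fintype_card]; decide +kernel

theorem card_center_G3 : Nat.card (Subgroup.center G3) = 2 := by
  rw [Nat.card_eq_fintype_card]; decide +kernel

/-- An element of order 4. -/
def mA : G3 := ⟨!![0, -1; 1, 0], by decide +kernel⟩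
/-- A second element of order 4. -/
def mX : G3 := ⟨!![1, 1; 1, -1], by decide +kernel⟩

/-- The embedding of the quaternion group, as a function. -/
def qf : QuaternionGroup 2 → G3
  | .a i => mA ^ i.val
  | .xa i => mX * mA ^ i.val

theorem qf_mul : ∀ x y : QuaternionGroup 2, qf (x * y) = qf x * qf y := by decide +kernel

theorem qf_inj : ∀ x y : QuaternionGroup 2, qf x = qf y → x = y := by decide +kernel

theorem comm_mem : ∀ a b : G3, ∃ x : QuaternionGroup 2, qf x = a * b * a⁻¹ * b⁻¹ := by
  decide +kernel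

theorem mem_comm : ∀ x : QuaternionGroup 2, ∃ a b : G3, a * b * a⁻¹ * b⁻¹ = qf x := by
  decide +kernel

theorem nc_comm : ∀ g : G3, (∃ h : G3, h * g ≠ g * h) →
    ∃ x : G3, (x * g * x⁻¹ * g⁻¹) * (x * g * x⁻¹ * g⁻¹) = qf (.a 2) := by decide +kernel

theorem ord4_conj : ∀ u v : G3, u * u = qf (.a 2) → v * v = qf (.a 2) →
    ∃ y : G3, v = y * u * y⁻¹ := by decide +kernel

theorem q_prod : ∀ x : QuaternionGroup 2, ∃ u v : G3, u * u = qf (.a 2) ∧
    (v * v = qf (.a 2) ∨ v = 1) ∧ qf x = u * v := by decide +kernel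

/-- The embedding of the quaternion group. -/
def qhom : QuaternionGroup 2 →* G3 := MonoidHom.mk' qf qf_mul

theorem qhom_apply (x : QuaternionGroup 2) : qhom x = qf x := rfl

theorem qhom_inj : Function.Injective qhom := fun x y h => qf_inj x y h

theorem range_eq : qhom.range = commutator G3 := by
  apply le_antisymm
  · rintro _ ⟨x, rfl⟩
    obtain ⟨a, b, h⟩ := mem_comm x
    have h1 : ⁅a, b⁆ ∈ commutator G3 := by
      rw [commutator_eq_closure]
      exact Subgroup.subset_closure (commutator_mem_commutatorSet a b)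
    rw [commutatorElement_def, h] at h1
    exact h1
  · rw [commutator_eq_closure, Subgroup.closure_le]
    rintro _ ⟨a, b, rfl⟩
    obtain ⟨x, hx⟩ := comm_mem a b
    refine ⟨x, ?_⟩
    rw [commutatorElement_def]
    exact hx

/-- The commutator subgroup is the quaternion group. -/
noncomputable def commEquiv : commutator G3 ≃* QuaternionGroup 2 :=
  (MulEquiv.subgroupCongr range_eq.symm).trans (MonoidHom.ofInjective qhom_inj).symm

theorem card_quat : Nat.card (QuaternionGroup 2) = 8 := by
  rw [Nat.card_eq_fintype_card]; decide +kernel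

theorem card_comm : Nat.card (commutator G3) = 8 := by
  rw [Nat.card_congr commEquiv.toEquiv, card_quat]

theorem card_sylow3 (P : Sylow 3 G3) : Nat.card (P : Subgroup G3) = 3 := by
  obtain ⟨k, hk⟩ := IsPGroup.iff_card.mp P.isPGroup'
  have hdvd : Nat.card (P : Subgroup G3) ∣ 24 := by
    have h := Subgroup.card_subgroup_dvd_card (P : Subgroup G3)
    rwa [card_G3] at h
  have h3 : 3 ∣ Nat.card (P : Subgroup G3) :=
    P.dvd_card_of_dvd_card (by rw [card_G3]; norm_num)
  rw [hk] at hdvd h3 ⊢
  rcases k with _ | _ | k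
  · norm_num at h3
  · norm_num
  · exfalso
    have h9 : 3 ^ 2 ∣ 24 := (pow_dvd_pow 3 (by omega : 2 ≤ k + 1 + 1)).trans hdvd
    norm_num at h9

theorem normal_cases (N : Subgroup G3) (hN : N.Normal) :
    N = ⊥ ∨ N = ⊤ ∨ N = Subgroup.center G3 ∨ N = commutator G3 := by
  by_cases hle : N ≤ Subgroup.center G3
  · have hd : Nat.card N ∣ 2 := by
      have h := Subgroup.card_dvd_of_le hle
      rwa [card_center_G3] at h
    rcases (Nat.dvd_prime Nat.prime_two).mp hd with h1 | h2
    · left
      exact Subgroup.eq_bot_of_card_eq N h1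
    · right; right; left
      apply Subgroup.eq_of_le_of_card_ge hle
      rw [card_center_G3, h2]
  · right
    obtain ⟨g, hgN, hgc⟩ := SetLike.not_le_iff_exists.mp hle
    have hex : ∃ h : G3, h * g ≠ g * h := by
      by_contra hcon
      push Not at hcon
      exact hgc (Subgroup.mem_center_iff.mpr hcon)
    obtain ⟨x, hx⟩ := nc_comm g hex
    have huN : x * g * x⁻¹ * g⁻¹ ∈ N := N.mul_mem (hN.conj_mem g hgN x) (N.inv_mem hgN)
    have hall : ∀ v : G3, v * v = qf (.a 2) → v ∈ N := by
      intro v hv
      obtain ⟨y, rfl⟩ := ord4_conj _ v hx hv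
      exact hN.conj_mem _ huN y
    have hcle : commutator G3 ≤ N := by
      rw [← range_eq]
      rintro _ ⟨q, rfl⟩
      obtain ⟨u, v, hu, hv, huv⟩ := q_prod q
      rw [qhom_apply, huv]
      refine N.mul_mem (hall u hu) ?_
      rcases hv with hv | rfl
      · exact hall v hv
      · exact N.one_mem
    have h8 : 8 ∣ Nat.card N := by
      have h := Subgroup.card_dvd_of_le hcle
      rwa [card_comm] at h
    have h24 : Nat.card N ∣ 24 := by
      have h := Subgroup.card_subgroup_dvd_card N
      rwa [card_G3] at h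
    have hle24 : Nat.card N ≤ 24 := Nat.le_of_dvd (by norm_num) h24
    have hpos : 0 < Nat.card N := Nat.card_pos
    have hcases : Nat.card N = 8 ∨ Nat.card N = 24 := by
      generalize Nat.card N = n at h8 h24 hle24 hpos
      interval_cases n <;> omega
    rcases hcases with h | h
    · right; right
      symm
      apply Subgroup.eq_of_le_of_card_ge hcle
      rw [card_comm, h]
    · left
      apply (Subgroup.card_eq_iff_eq_top N).mp
      rw [h, card_G3]

theorem result :
    Nat.card (Matrix.SpecialLinearGroup (Fin 2) (ZMod 3)) = 24 ∧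
    Nat.card (Subgroup.center (Matrix.SpecialLinearGroup (Fin 2) (ZMod 3))) = 2 ∧
    Nat.card (commutator (Matrix.SpecialLinearGroup (Fin 2) (ZMod 3))) = 8 ∧
    Nonempty (commutator (Matrix.SpecialLinearGroup (Fin 2) (ZMod 3)) ≃* QuaternionGroup 2) ∧
    (∀ P : Sylow 3 (Matrix.SpecialLinearGroup (Fin 2) (ZMod 3)),
      Subgroup.IsComplement' (commutator (Matrix.SpecialLinearGroup (Fin 2) (ZMod 3)))
        (P : Subgroup (Matrix.SpecialLinearGroup (Fin 2) (ZMod 3)))) ∧
    ∀ N : Subgroup (Matrix.SpecialLinearGroup (Fin 2) (ZMod 3)), N.Normal →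
      N = ⊥ ∨ N = ⊤ ∨ N = Subgroup.center (Matrix.SpecialLinearGroup (Fin 2) (ZMod 3)) ∨
        N = commutator (Matrix.SpecialLinearGroup (Fin 2) (ZMod 3)) := by
  refine ⟨card_G3, card_center_G3, card_comm, ⟨commEquiv⟩, ?_, normal_cases⟩
  intro P
  apply Subgroup.isComplement'_of_coprime
  · rw [card_comm, card_sylow3, card_G3]
  · rw [card_comm, card_sylow3]
    decide

end Cfsg.Agent.S2427
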