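import Cfsg.Statements.S2429
import Mathlib
import Cfsg.Agent.Lib.Helper16.SL2NonSplit

set_option autoImplicit false
open Cfsg

namespace Cfsg.Agent.S2429

/-- Let F be a finite field with q elements, q odd. Then SL₂ over F contains a cyclic subgroup T′ of order q + 1 (a non-split torus) with the following properties: T′ is its own centraliser, and indeed the centraliser of each element of T′ other than 1 and −1 is exactly T′; every element of SL₂ having no eigenvector in F² is conjugate to an element of T′; the normaliser of T′ has order 2(q + 1) and exactly (q + 7)/2 conjugacy classes; and every element of that normaliser outside T′ has square −1. -/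
theorem result {F : Type*} [Field F] [Fintype F] (hodd : Odd (Fintype.card F)) :
    ∃ T' : Subgroup (Matrix.SpecialLinearGroup (Fin 2) F), IsCyclic T' ∧ Nat.card T' = Fintype.card F + 1 ∧
      Subgroup.centralizer ((T' : Set (Matrix.SpecialLinearGroup (Fin 2) F))) = T' ∧
      (∀ g : Matrix.SpecialLinearGroup (Fin 2) F, g ∈ T' → (g : Matrix (Fin 2) (Fin 2) F) ≠ 1 → (g : Matrix (Fin 2) (Fin 2) F) ≠ -1 → Subgroup.centralizer ({g} : Set (Matrix.SpecialLinearGroup (Fin 2) F)) = T') ∧
      (∀ g : Matrix.SpecialLinearGroup (Fin 2) F, (∀ (c : F) (v : Fin 2 → F), v ≠ 0 → (g : Matrix (Fin 2) (Fin 2) F).mulVec v ≠ c • v) → ∃ h : Matrix.SpecialLinearGroup (Fin 2) F, h * g * h⁻¹ ∈ T') ∧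
      Nat.card (Subgroup.normalizer (T' : Set (Matrix.SpecialLinearGroup (Fin 2) F))) = 2 * (Fintype.card F + 1) ∧
      Nat.card (ConjClasses (Subgroup.normalizer (T' : Set (Matrix.SpecialLinearGroup (Fin 2) F)))) = (Fintype.card F + 7) / 2 ∧
      ∀ g : Matrix.SpecialLinearGroup (Fin 2) F, g ∈ Subgroup.normalizer (T' : Set (Matrix.SpecialLinearGroup (Fin 2) F)) → g ∉ T' → ((g * g) : Matrix (Fin 2) (Fin 2) F) = -1 := by
  have hF : ringChar F ≠ 2 := by
    intro h
    have := FiniteField.even_card_of_char_two h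
    exact (Nat.not_even_iff_odd.mpr hodd) (Nat.even_iff.mpr this)
  have h2 : (2 : F) ≠ 0 := Ring.two_ne_zero hF
  obtain ⟨t, ht⟩ := Cfsg.Agent.Lib.Helper16.exists_nonsquare_disc hF
  obtain ⟨k1, k2, k3⟩ := Cfsg.Agent.Lib.Helper16.normalizer_nsT_facts hF t ht
  refine ⟨Cfsg.Agent.Lib.Helper16.nsT t, Cfsg.Agent.Lib.Helper16.isCyclic_nsT t ht,
    Cfsg.Agent.Lib.Helper16.card_nsT t h2 ht, Cfsg.Agent.Lib.Helper16.centralizer_nsT t, ?_,
    Cfsg.Agent.Lib.Helper16.exists_conj_mem_nsT hF t ht, k1, ?_, k3⟩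
  · intro g hg h1 hm1
    apply Cfsg.Agent.Lib.Helper16.centralizer_of_mem_nsT t g hg
    intro h10
    rcases Cfsg.Agent.Lib.Helper16.nsT_scalar t g hg h10 with h | h
    · exact h1 h
    · exact hm1 h
  · omega

end Cfsg.Agent.S2429
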