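import Cfsg.Statements.S2430
import Mathlib
import Cfsg.Agent.Lib.Helper16.SL2NonSplit
import Cfsg.Agent.Lib.Helper16.SylowTorus

set_option autoImplicit false
open Cfsg

namespace Cfsg.Agent.S2430

open Cfsg.Agent.Lib.Helper16

theorem diag_sq_one {F : Type*} [Field F] (x : Matrix.SpecialLinearGroup (Fin 2) F)
    (hx : x ∈ diagT F) (h : (x : Matrix (Fin 2) (Fin 2) F) 0 0 ^ 2 = 1) : x * x = 1 := by
  obtain ⟨x01, x10⟩ := hx
  have hd := sl2_det_eq x
  rw [x01, zero_mul, sub_zero] at hd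
  have h11 : (x : Matrix (Fin 2) (Fin 2) F) 1 1 = (x : Matrix (Fin 2) (Fin 2) F) 0 0 := by
    linear_combination (x : Matrix (Fin 2) (Fin 2) F) 0 0 * hd -
      (x : Matrix (Fin 2) (Fin 2) F) 1 1 * h
  apply sl2_ext
  · rw [sl2_mul_entry, x01]
    simp
    linear_combination h
  · rw [sl2_mul_entry, x01]
    simp
  · rw [sl2_mul_entry, x10]
    simp
  · rw [sl2_mul_entry, x10, h11]
    simp
    linear_combination h

theorem split_case {F : Type*} [Field F] [Fintype F] (h2 : (2 : F) ≠ 0) (ℓ : ℕ) [Fact ℓ.Prime]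
    (hℓ : ℓ ≠ 2) (P : Sylow ℓ (Matrix.SpecialLinearGroup (Fin 2) F))
    (hdvd : ℓ ∣ Fintype.card F - 1) :
    Nat.card (Subgroup.centralizer ((P : Subgroup (Matrix.SpecialLinearGroup (Fin 2) F)) :
      Set (Matrix.SpecialLinearGroup (Fin 2) F))) = Fintype.card F - 1 ∧
    IsCyclic (Subgroup.centralizer ((P : Subgroup (Matrix.SpecialLinearGroup (Fin 2) F)) :
      Set (Matrix.SpecialLinearGroup (Fin 2) F))) ∧
    Nat.card (Subgroup.normalizer ((P : Subgroup (Matrix.SpecialLinearGroup (Fin 2) F)) :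
      Set (Matrix.SpecialLinearGroup (Fin 2) F))) = 2 * (Fintype.card F - 1) := by
  classical
  have hp := (Fact.out : ℓ.Prime)
  have hq : 2 ≤ Fintype.card F := Fintype.one_lt_card
  have hval : (Nat.card (Matrix.SpecialLinearGroup (Fin 2) F)).factorization ℓ =
      (Nat.card (diagT F)).factorization ℓ := by
    rw [Cfsg.Agent.Lib.Helper15.card_SL2, card_diagT]
    exact val_split hp hℓ hq hdvd
  have hcent : ∀ x ∈ diagT F, x * x ≠ 1 →
      Subgroup.centralizer ({x} : Set (Matrix.SpecialLinearGroup (Fin 2) F)) = diagT F := by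
    intro x hx hxx
    exact centralizer_diag x hx.1 hx.2 (fun h => hxx (diag_sq_one x hx h))
  obtain ⟨k1, k2, k3⟩ := sylow_torus_facts ℓ hℓ (diagT F) (fun a ha b hb => diagT_comm a b ha hb)
    hval (by rw [card_diagT]; exact hdvd) hcent P
  obtain ⟨u, hu⟩ := exists_prime_orderOf_dvd_card (G := Fˣ) ℓ
    (by rw [Fintype.card_units]; exact hdvd)
  have hu2 : (u : F) ^ 2 ≠ 1 := by
    intro h
    have h' : u ^ 2 = 1 := by
      apply Units.ext
      rw [Units.val_pow_eq_pow_val, h, Units.val_one]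
    have := orderOf_dvd_of_pow_eq_one h'
    rw [hu] at this
    exact hℓ ((Nat.prime_dvd_prime_iff_eq hp Nat.prime_two).mp this)
  have hd00 : (diagS u : Matrix (Fin 2) (Fin 2) F) 0 0 = (u : F) := by simp [diagS_val]
  obtain ⟨n1, -, -⟩ := normalizer_diagT_facts h2 (diagS u) (diagS_mem u).1 (diagS_mem u).2
    (by rw [hd00]; exact hu2)
  rw [k1, k3, n1, card_diagT]
  exact ⟨rfl, k2 isCyclic_diagT, rfl⟩

theorem scalar_sq_one {F : Type*} [Field F] (x : Matrix.SpecialLinearGroup (Fin 2) F)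
    (h : (x : Matrix (Fin 2) (Fin 2) F) = 1 ∨ (x : Matrix (Fin 2) (Fin 2) F) = -1) : x * x = 1 := by
  apply Subtype.ext
  rw [Matrix.SpecialLinearGroup.coe_mul, Matrix.SpecialLinearGroup.coe_one]
  rcases h with h | h
  · rw [h, one_mul]
  · rw [h]
    simp

theorem nonsplit_case {F : Type*} [Field F] [Fintype F] (hF : ringChar F ≠ 2) (ℓ : ℕ) [Fact ℓ.Prime]
    (hℓ : ℓ ≠ 2) (P : Sylow ℓ (Matrix.SpecialLinearGroup (Fin 2) F))
    (hdvd : ℓ ∣ Fintype.card F + 1) :
    Nat.card (Subgroup.centralizer ((P : Subgroup (Matrix.SpecialLinearGroup (Fin 2) F)) :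
      Set (Matrix.SpecialLinearGroup (Fin 2) F))) = Fintype.card F + 1 ∧
    IsCyclic (Subgroup.centralizer ((P : Subgroup (Matrix.SpecialLinearGroup (Fin 2) F)) :
      Set (Matrix.SpecialLinearGroup (Fin 2) F))) ∧
    Nat.card (Subgroup.normalizer ((P : Subgroup (Matrix.SpecialLinearGroup (Fin 2) F)) :
      Set (Matrix.SpecialLinearGroup (Fin 2) F))) = 2 * (Fintype.card F + 1) := by
  classical
  have h2 : (2 : F) ≠ 0 := Ring.two_ne_zero hF
  have hp := (Fact.out : ℓ.Prime)
  have hq : 2 ≤ Fintype.card F := Fintype.one_lt_card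
  obtain ⟨t, ht⟩ := exists_nonsquare_disc hF
  have hval : (Nat.card (Matrix.SpecialLinearGroup (Fin 2) F)).factorization ℓ =
      (Nat.card (nsT t)).factorization ℓ := by
    rw [Cfsg.Agent.Lib.Helper15.card_SL2, card_nsT t h2 ht]
    exact val_nonsplit hp hℓ hq hdvd
  have hcent : ∀ x ∈ nsT t, x * x ≠ 1 →
      Subgroup.centralizer ({x} : Set (Matrix.SpecialLinearGroup (Fin 2) F)) = nsT t := by
    intro x hx hxx
    exact centralizer_of_mem_nsT t x hx (fun h => hxx (scalar_sq_one x (nsT_scalar t x hx h)))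
  obtain ⟨k1, k2, k3⟩ := sylow_torus_facts ℓ hℓ (nsT t) (fun a ha b hb => nsT_comm t a b ha hb)
    hval (by rw [card_nsT t h2 ht]; exact hdvd) hcent P
  obtain ⟨n1, -, -⟩ := normalizer_nsT_facts hF t ht
  rw [k1, k3, n1, card_nsT t h2 ht]
  exact ⟨rfl, k2 (isCyclic_nsT t ht), rfl⟩

/-- Let F be a finite field with q elements, q odd, ℓ an odd prime, and P a Sylow ℓ-subgroup of SL₂ over F. If ℓ divides q − 1, the centraliser of P is cyclic of order q − 1 (a split torus) and the normaliser of P has order 2(q − 1); if ℓ divides q + 1, the centraliser of P is cyclic of order q + 1 (a non-split torus) and the normaliser of P has order 2(q + 1). -/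
theorem result {F : Type*} [Field F] [Fintype F] (hodd : Odd (Fintype.card F)) (ℓ : ℕ) [Fact ℓ.Prime] (hℓ : ℓ ≠ 2)
    (P : Sylow ℓ (Matrix.SpecialLinearGroup (Fin 2) F)) :
    (ℓ ∣ Fintype.card F - 1 →
      Nat.card (Subgroup.centralizer ((P : Subgroup (Matrix.SpecialLinearGroup (Fin 2) F)) : Set (Matrix.SpecialLinearGroup (Fin 2) F))) = Fintype.card F - 1 ∧
      IsCyclic (Subgroup.centralizer ((P : Subgroup (Matrix.SpecialLinearGroup (Fin 2) F)) : Set (Matrix.SpecialLinearGroup (Fin 2) F))) ∧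
      Nat.card (Subgroup.normalizer ((P : Subgroup (Matrix.SpecialLinearGroup (Fin 2) F)) : Set (Matrix.SpecialLinearGroup (Fin 2) F))) = 2 * (Fintype.card F - 1)) ∧
    (ℓ ∣ Fintype.card F + 1 →
      Nat.card (Subgroup.centralizer ((P : Subgroup (Matrix.SpecialLinearGroup (Fin 2) F)) : Set (Matrix.SpecialLinearGroup (Fin 2) F))) = Fintype.card F + 1 ∧
      IsCyclic (Subgroup.centralizer ((P : Subgroup (Matrix.SpecialLinearGroup (Fin 2) F)) : Set (Matrix.SpecialLinearGroup (Fin 2) F))) ∧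
      Nat.card (Subgroup.normalizer ((P : Subgroup (Matrix.SpecialLinearGroup (Fin 2) F)) : Set (Matrix.SpecialLinearGroup (Fin 2) F))) = 2 * (Fintype.card F + 1)) := by
  have hF : ringChar F ≠ 2 := by
    intro h
    have := FiniteField.even_card_of_char_two h
    exact (Nat.not_even_iff_odd.mpr hodd) (Nat.even_iff.mpr this)
  have h2 : (2 : F) ≠ 0 := Ring.two_ne_zero hF
  exact ⟨fun h => split_case h2 ℓ hℓ P h, fun h => nonsplit_case hF ℓ hℓ P h⟩

end Cfsg.Agent.S2430
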