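import Cfsg.Statements.S2433
import Mathlib
import Cfsg.Agent.Lib.Helper15.SL2Chars

set_option autoImplicit false
open Cfsg

namespace Cfsg.Agent.S2433

/-- Let F be a finite field with q elements, q odd, α a multiplicative character of F, and R(α) the function on SL₂ induced from the linear character b ↦ α(b₁₁) of the upper triangular subgroup. Then R(α) takes the value α(a) + α(a⁻¹) at a diagonal element with entries a, a⁻¹, a² ≠ 1; the value 0 at every element with no eigenvector in F²; the value α(ε) at an upper triangular element with both diagonal entries ε and non-zero upper right entry; and the value (q + 1)α(ε) at the scalar element ε (ε = ±1). -/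
theorem result {F : Type*} [Field F] [Fintype F] [DecidableEq F] (hodd : Odd (Fintype.card F)) (α : MulChar F ℂ) (g : Matrix.SpecialLinearGroup (Fin 2) F) :
    ((g : Matrix (Fin 2) (Fin 2) F) 0 1 = 0 → (g : Matrix (Fin 2) (Fin 2) F) 1 0 = 0 → (g : Matrix (Fin 2) (Fin 2) F) 0 0 ^ 2 ≠ 1 →
      (Cfsg.indFun ((Cfsg.upperTriangularGL 2 F).comap Matrix.SpecialLinearGroup.toGL) (fun b => α (((b : Matrix.SpecialLinearGroup (Fin 2) F) : Matrix (Fin 2) (Fin 2) F) 0 0))) g = α ((g : Matrix (Fin 2) (Fin 2) F) 0 0) + α ((g : Matrix (Fin 2) (Fin 2) F) 1 1)) ∧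
    ((∀ (c : F) (v : Fin 2 → F), v ≠ 0 → (g : Matrix (Fin 2) (Fin 2) F).mulVec v ≠ c • v) → (Cfsg.indFun ((Cfsg.upperTriangularGL 2 F).comap Matrix.SpecialLinearGroup.toGL) (fun b => α (((b : Matrix.SpecialLinearGroup (Fin 2) F) : Matrix (Fin 2) (Fin 2) F) 0 0))) g = 0) ∧
    ((g : Matrix (Fin 2) (Fin 2) F) 1 0 = 0 → (g : Matrix (Fin 2) (Fin 2) F) 0 0 = (g : Matrix (Fin 2) (Fin 2) F) 1 1 → (g : Matrix (Fin 2) (Fin 2) F) 0 1 ≠ 0 →
      (Cfsg.indFun ((Cfsg.upperTriangularGL 2 F).comap Matrix.SpecialLinearGroup.toGL) (fun b => α (((b : Matrix.SpecialLinearGroup (Fin 2) F) : Matrix (Fin 2) (Fin 2) F) 0 0))) g = α ((g : Matrix (Fin 2) (Fin 2) F) 0 0)) ∧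
    ((g : Matrix (Fin 2) (Fin 2) F) 0 1 = 0 → (g : Matrix (Fin 2) (Fin 2) F) 1 0 = 0 → (g : Matrix (Fin 2) (Fin 2) F) 0 0 = (g : Matrix (Fin 2) (Fin 2) F) 1 1 →
      (Cfsg.indFun ((Cfsg.upperTriangularGL 2 F).comap Matrix.SpecialLinearGroup.toGL) (fun b => α (((b : Matrix.SpecialLinearGroup (Fin 2) F) : Matrix (Fin 2) (Fin 2) F) 0 0))) g = ((Fintype.card F : ℂ) + 1) * α ((g : Matrix (Fin 2) (Fin 2) F) 0 0)) := by
  classical
  have hpi : ∀ g : Matrix.SpecialLinearGroup (Fin 2) F,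
      (Cfsg.indFun ((Cfsg.upperTriangularGL 2 F).comap Matrix.SpecialLinearGroup.toGL)
        (fun b => α (((b : Matrix.SpecialLinearGroup (Fin 2) F) : Matrix (Fin 2) (Fin 2) F) 0 0))) g
      = Cfsg.Agent.Lib.Helper15.indVal (fun a _ => α a) (g : Matrix (Fin 2) (Fin 2) F) :=
    fun g => Cfsg.Agent.Lib.Helper15.piS_apply α g
  have hdet : (g : Matrix (Fin 2) (Fin 2) F) 0 0 * (g : Matrix (Fin 2) (Fin 2) F) 1 1 -
      (g : Matrix (Fin 2) (Fin 2) F) 0 1 * (g : Matrix (Fin 2) (Fin 2) F) 1 0 = 1 := by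
    rw [← Matrix.det_fin_two]
    exact g.2
  refine ⟨?_, ?_, ?_, ?_⟩
  · intro h01 h10 hsq
    rw [hpi]
    have hg : (g : Matrix (Fin 2) (Fin 2) F) =
        !![(g : Matrix (Fin 2) (Fin 2) F) 0 0, 0; 0, (g : Matrix (Fin 2) (Fin 2) F) 1 1] := by
      ext i j
      fin_cases i <;> fin_cases j <;> simp [h01, h10]
    have had : (g : Matrix (Fin 2) (Fin 2) F) 0 0 ≠ (g : Matrix (Fin 2) (Fin 2) F) 1 1 := by
      intro h
      apply hsq
      rw [h01, zero_mul, sub_zero, ← h] at hdet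
      rw [sq]
      exact hdet
    rw [hg, Cfsg.Agent.Lib.Helper15.indVal_diag _ _ _ had]
    simp only [Matrix.of_apply, Matrix.cons_val', Matrix.cons_val_zero, Matrix.cons_val_one,
      Matrix.cons_val_fin_one]
    rw [add_comm]
  · intro hM
    rw [hpi]
    exact Cfsg.Agent.Lib.Helper15.indVal_elliptic _ _ hM
  · intro h10 h0011 h01
    rw [hpi]
    have hg : (g : Matrix (Fin 2) (Fin 2) F) =
        !![(g : Matrix (Fin 2) (Fin 2) F) 0 0, (g : Matrix (Fin 2) (Fin 2) F) 0 1; 0,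
          (g : Matrix (Fin 2) (Fin 2) F) 0 0] := by
      ext i j
      fin_cases i <;> fin_cases j <;> simp [h10, h0011]
    rw [hg, Cfsg.Agent.Lib.Helper15.indVal_unip _ _ _ h01]
    simp
  · intro h01 h10 h0011
    rw [hpi]
    have hg : (g : Matrix (Fin 2) (Fin 2) F) =
        !![(g : Matrix (Fin 2) (Fin 2) F) 0 0, 0; 0, (g : Matrix (Fin 2) (Fin 2) F) 0 0] := by
      ext i j
      fin_cases i <;> fin_cases j <;> simp [h10, h0011, h01]
    rw [hg, Cfsg.Agent.Lib.Helper15.indVal_eq]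
    simp
    ring

end Cfsg.Agent.S2433
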