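import Cfsg.Statements.S2437
import Mathlib
import Cfsg.Agent.Lib.Helper15.SL2Classes
import Cfsg.Agent.Lib.Helper15.GL2Borel

set_option autoImplicit false
open Cfsg

namespace Cfsg.Agent.S2437

open Cfsg.Agent.Lib.Helper15

theorem borelS_mul {F : Type*} [Field F] (a c : Fˣ) (x y : F) :
    borelS a x * borelS c y = borelS (a * c) ((a : F) * y + x * ((c⁻¹ : Fˣ) : F)) := by
  apply Subtype.ext
  apply Subtype.ext
  rw [Subgroup.coe_mul, Matrix.SpecialLinearGroup.coe_mul, borelS_val, borelS_val, borelS_val]
  ext i j
  fin_cases i <;> fin_cases j <;> simp [Matrix.mul_apply, Fin.sum_univ_two, mul_comm]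

theorem borelS_isConj_iff {F : Type*} [Field F] (a a' : Fˣ) (x x' : F) :
    IsConj (borelS a x) (borelS a' x') ↔
      ∃ (γ : Fˣ) (y : F), γ * a = a' * γ ∧
        (γ : F) * x + y * ((a⁻¹ : Fˣ) : F) = (a' : F) * y + x' * ((γ⁻¹ : Fˣ) : F) := by
  rw [isConj_iff]
  constructor
  · rintro ⟨c, hc⟩
    obtain ⟨⟨γ, y⟩, rfl⟩ := borelS_bijective.2 c
    have h1 : borelS γ y * borelS a x = borelS a' x' * borelS γ y := mul_inv_eq_iff_eq_mul.mp hc
    rw [borelS_mul, borelS_mul] at h1
    have h2 := borelS_bijective.1
      (a₁ := (γ * a, (γ : F) * x + y * ((a⁻¹ : Fˣ) : F)))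
      (a₂ := (a' * γ, (a' : F) * y + x' * ((γ⁻¹ : Fˣ) : F))) h1
    exact ⟨γ, y, congrArg Prod.fst h2, congrArg Prod.snd h2⟩
  · rintro ⟨γ, y, h1, h2⟩
    refine ⟨borelS γ y, mul_inv_eq_iff_eq_mul.mpr ?_⟩
    rw [borelS_mul, borelS_mul, h1, h2]

open Classical in
/-- the class invariant of an upper triangular element of SL₂ in terms of its parameters -/
noncomputable def inv0 {F : Type*} [Field F] (a : Fˣ) (x : F) : Fˣ ⊕ (Bool × Bool) :=
  if (a : F) ^ 2 = 1 ∧ x ≠ 0 then Sum.inr (decide ((a : F) = 1), decide (IsSquare x))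
  else Sum.inl a

theorem isSquare_sq_mul_iff {F : Type*} [Field F] {γ x : F} (hγ : γ ≠ 0) :
    IsSquare (γ ^ 2 * x) ↔ IsSquare x := by
  constructor
  · rintro ⟨s, hs⟩
    refine ⟨s / γ, ?_⟩
    field_simp
    linear_combination hs
  · rintro ⟨s, hs⟩
    exact ⟨γ * s, by rw [hs]; ring⟩

theorem inv0_eq_iff {F : Type*} [Field F] [Fintype F] (hF : ringChar F ≠ 2) (a a' : Fˣ)
    (x x' : F) : inv0 a x = inv0 a' x' ↔ IsConj (borelS a x) (borelS a' x') := by
  classical
  have h2 : (2 : F) ≠ 0 := Ring.two_ne_zero hF
  have h11 : (1 : F) ≠ -1 := by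
    intro h
    apply h2
    linear_combination h
  rw [borelS_isConj_iff]
  constructor
  · intro hinv
    by_cases h : (a : F) ^ 2 = 1 ∧ x ≠ 0
    · by_cases h' : (a' : F) ^ 2 = 1 ∧ x' ≠ 0
      · rw [inv0, inv0, if_pos h, if_pos h'] at hinv
        simp only [Sum.inr.injEq, Prod.mk.injEq, decide_eq_decide] at hinv
        obtain ⟨ha, hx⟩ := hinv
        have haa : a = a' := by
          apply Units.ext
          have e1 : ((a : F) - 1) * ((a : F) + 1) = 0 := by linear_combination h.1
          have e2 : ((a' : F) - 1) * ((a' : F) + 1) = 0 := by linear_combination h'.1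
          rcases mul_eq_zero.mp e1 with e | e
          · have e3 : (a : F) = 1 := by linear_combination e
            rw [e3, ha.mp e3]
          · have e3 : (a : F) = -1 := by linear_combination e
            have e4 : (a' : F) ≠ 1 := fun hh => h11 ((ha.mpr hh).symm.trans e3)
            rcases mul_eq_zero.mp e2 with e' | e'
            · exact absurd (by linear_combination e') e4
            · rw [e3]
              linear_combination -e'
        subst haa
        have hsq : IsSquare (x * x') := by
          by_cases hxs : IsSquare x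
          · exact hxs.mul (hx.mp hxs)
          · exact isSquare_mul_of_not_isSquare hF hxs (fun hh => hxs (hx.mpr hh))
        obtain ⟨r, hr⟩ := hsq
        have hr0 : r ≠ 0 := by
          intro hr0
          rw [hr0, mul_zero] at hr
          rcases mul_eq_zero.mp hr with e | e
          · exact h.2 e
          · exact h'.2 e
        refine ⟨Units.mk0 (r / x) (div_ne_zero hr0 h.2), 0, mul_comm _ _, ?_⟩
        simp only [Units.val_inv_eq_inv_val, Units.val_mk0]
        have hx0 := h.2
        rw [zero_mul, mul_zero, add_zero, zero_add, div_mul_cancel₀ _ hx0, inv_div]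
        field_simp
        linear_combination -hr
      · rw [inv0, inv0, if_pos h, if_neg h'] at hinv
        exact absurd hinv (by simp)
    · by_cases h' : (a' : F) ^ 2 = 1 ∧ x' ≠ 0
      · rw [inv0, inv0, if_neg h, if_pos h'] at hinv
        exact absurd hinv (by simp)
      · rw [inv0, inv0, if_neg h, if_neg h'] at hinv
        have haa : a = a' := Sum.inl.inj hinv
        subst haa
        by_cases ha : (a : F) ^ 2 = 1
        · have hx0 : x = 0 := by
            by_contra hx
            exact h ⟨ha, hx⟩
          have hx0' : x' = 0 := by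
            by_contra hx
            exact h' ⟨ha, hx⟩
          refine ⟨1, 0, by rw [one_mul, mul_one], ?_⟩
          rw [hx0, hx0']
          simp
        · have ha0 : (a : F) ≠ 0 := a.ne_zero
          have hne : (a : F)⁻¹ - a ≠ 0 := by
            intro hh
            apply ha
            field_simp at hh
            linear_combination -hh
          refine ⟨1, (x' - x) / ((a : F)⁻¹ - a), by rw [one_mul, mul_one], ?_⟩
          simp only [Units.val_inv_eq_inv_val, Units.val_one, inv_one, mul_one, one_mul]
          field_simp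
          ring
  · rintro ⟨γ, y, h1, h3⟩
    have haa : a = a' := by
      rw [mul_comm] at h1
      exact mul_right_cancel h1
    subst haa
    have hγ : (γ : F) ≠ 0 := γ.ne_zero
    have ha0 : (a : F) ≠ 0 := a.ne_zero
    by_cases ha : (a : F) ^ 2 = 1
    · have hinv : ((a⁻¹ : Fˣ) : F) = a := by
        rw [Units.val_inv_eq_inv_val]
        field_simp
        linear_combination -ha
      rw [hinv, Units.val_inv_eq_inv_val] at h3
      have hx' : x' = (γ : F) ^ 2 * x := by
        field_simp at h3
        linear_combination -h3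
      have hx0 : x' ≠ 0 ↔ x ≠ 0 := by
        rw [hx']
        constructor
        · intro hh hx
          exact hh (by rw [hx, mul_zero])
        · intro hh
          exact mul_ne_zero (pow_ne_zero 2 hγ) hh
      have hsq : IsSquare x' ↔ IsSquare x := by
        rw [hx']
        exact isSquare_sq_mul_iff hγ
      rw [inv0, inv0]
      by_cases hx : x ≠ 0
      · rw [if_pos ⟨ha, hx⟩, if_pos ⟨ha, hx0.mpr hx⟩]
        simp only [Sum.inr.injEq, Prod.mk.injEq, decide_eq_decide, true_and]
        exact hsq.symm
      · rw [if_neg (fun hh => hx hh.2), if_neg (fun hh => hx (hx0.mp hh.2))]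
    · rw [inv0, inv0, if_neg (fun hh => ha hh.1), if_neg (fun hh => ha hh.1)]

/-- Over a finite field F with q elements, q odd, the upper triangular subgroup of SL₂ (a Borel subgroup, of order q(q − 1)) has exactly q + 3 conjugacy classes. -/
theorem result {F : Type*} [Field F] [Fintype F] (hodd : Odd (Fintype.card F)) :
    Nat.card (ConjClasses ((Cfsg.upperTriangularGL 2 F).comap Matrix.SpecialLinearGroup.toGL)) = Fintype.card F + 3 := by
  classical
  have hF : ringChar F ≠ 2 := by
    intro h
    have := FiniteField.even_card_of_char_two h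
    exact (Nat.not_even_iff_odd.mpr hodd) (Nat.even_iff.mpr this)
  have h2 : (2 : F) ≠ 0 := Ring.two_ne_zero hF
  have h11 : (1 : F) ≠ -1 := by
    intro h
    apply h2
    linear_combination h
  let e := Equiv.ofBijective _ (borelS_bijective (F := F))
  let f : borelSL F → Fˣ ⊕ (Bool × Bool) := fun b => inv0 (e.symm b).1 (e.symm b).2
  have hb : ∀ b : borelSL F, borelS (e.symm b).1 (e.symm b).2 = b := fun b => e.apply_symm_apply b
  have hf : ∀ g h, f g = f h ↔ IsConj g h := by
    intro g h
    have := inv0_eq_iff hF (e.symm g).1 (e.symm h).1 (e.symm g).2 (e.symm h).2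
    rw [hb, hb] at this
    exact this
  have hfb : ∀ (a : Fˣ) (x : F), f (borelS a x) = inv0 a x := by
    intro a x
    have : e.symm (borelS a x) = (a, x) := e.symm_apply_apply (a, x)
    simp only [f, this]
  have hsurj : Function.Surjective f := by
    obtain ⟨n, hn⟩ := FiniteField.exists_nonsquare hF
    have hn0 : n ≠ 0 := fun h => hn (by rw [h]; exact IsSquare.zero)
    rintro (a | ⟨s, t⟩)
    · refine ⟨borelS a 0, ?_⟩
      rw [hfb, inv0, if_neg (fun h => h.2 rfl)]
    · refine ⟨borelS (if s then 1 else -1) (if t then 1 else n), ?_⟩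
      rw [hfb, inv0]
      cases s <;> cases t <;> simp [hn, hn0, h11.symm]
  change Nat.card (ConjClasses (borelSL F)) = _
  rw [card_conjClasses_of_invariant f hf hsurj]
  rw [Nat.card_eq_fintype_card, Fintype.card_sum, Fintype.card_prod, Fintype.card_units, Fintype.card_bool]
  have h1 : 1 ≤ Fintype.card F := Fintype.card_pos
  omega

end Cfsg.Agent.S2437
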