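import Cfsg.Statements.S2438
import Mathlib
import Cfsg.Agent.Lib.Helper15.SL2Count
import Cfsg.Agent.Lib.Helper15.SL2Cusp

set_option autoImplicit false
open Cfsg

namespace Cfsg.Agent.S2438

open Cfsg.Agent.Lib.Helper15 Cfsg.Agent.Lib.Helper2

theorem sum_eq {F : Type*} [Field F] [Fintype F] [DecidableEq F]
    (χ : Matrix.SpecialLinearGroup (Fin 2) F → ℂ) :
    (∑ g : Matrix.SpecialLinearGroup (Fin 2) F, if (g : Matrix (Fin 2) (Fin 2) F) 1 0 = 0 ∧
      (g : Matrix (Fin 2) (Fin 2) F) 0 0 = 1 ∧ (g : Matrix (Fin 2) (Fin 2) F) 1 1 = 1 then χ g else 0) =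
    ∑ x : F, χ (unipS x) := by
  classical
  have hinj : Function.Injective (unipS (F := F)) := by
    intro x y h
    have h1 := congrArg (fun g : Matrix.SpecialLinearGroup (Fin 2) F =>
      (g : Matrix (Fin 2) (Fin 2) F) 0 1) h
    simpa [unipS_val] using h1
  rw [← Finset.sum_filter, ← Finset.sum_image (s := Finset.univ) (g := unipS (F := F))
    (fun x _ y _ h => hinj h)]
  apply Finset.sum_congr _ (fun _ _ => rfl)
  ext g
  simp only [Finset.mem_filter, Finset.mem_univ, true_and, Finset.mem_image]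
  constructor
  · rintro ⟨h10, h00, h11⟩
    refine ⟨(g : Matrix (Fin 2) (Fin 2) F) 0 1, ?_⟩
    apply Subtype.ext
    rw [unipS_val]
    ext i j
    fin_cases i <;> fin_cases j <;> simp [h10, h00, h11]
  · rintro ⟨x, rfl⟩
    rw [unipS_val]
    simp

theorem piS_unip {F : Type*} [Field F] [Fintype F] [DecidableEq F] (α : MulChar F ℂ) (x : F)
    (hx : x ≠ 0) : piS α (unipS x) = 1 := by
  rw [piS_apply, unipS_val, indVal_unip _ _ _ hx]
  simp

theorem sum_piS {F : Type*} [Field F] [Fintype F] [DecidableEq F] (α : MulChar F ℂ) :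
    ∑ x : F, piS α (unipS x) = 2 * (Fintype.card F : ℂ) := by
  rw [← Finset.add_sum_erase _ _ (Finset.mem_univ (0 : F)), unipS_zero, piS_one]
  rw [Finset.sum_congr rfl (fun x hx => piS_unip α x (Finset.ne_of_mem_erase hx))]
  rw [Finset.sum_const, Finset.card_erase_of_mem (Finset.mem_univ _), Finset.card_univ,
    nsmul_eq_mul, mul_one, Nat.cast_sub Fintype.card_pos]
  push_cast
  ring

theorem sum_stS {F : Type*} [Field F] [Fintype F] [DecidableEq F] :
    ∑ x : F, stS (unipS x) = (Fintype.card F : ℂ) := by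
  unfold stS
  simp only [Pi.sub_apply]
  rw [Finset.sum_sub_distrib, sum_piS, Finset.sum_const, Finset.card_univ, nsmul_eq_mul, mul_one]
  ring

theorem sum_cusp {F : Type*} [Field F] [Fintype F] [DecidableEq F]
    (χ : Matrix.SpecialLinearGroup (Fin 2) F → ℂ)
    (hχ : Cfsg.IsIrrCharacter (Matrix.SpecialLinearGroup (Fin 2) F) χ)
    (h : ∀ α : MulChar F ℂ, Cfsg.classInner (piS α) χ = 0) :
    ∑ x : F, χ (unipS x) = 0 :=
  cuspS_sum_borel χ (isClassFunction_of_isIrrCharacter hχ) h 1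

theorem sum_half {F : Type*} [Field F] [Fintype F] [DecidableEq F] (hF : ringChar F ≠ 2)
    (χ : Matrix.SpecialLinearGroup (Fin 2) F → ℂ)
    (hχ : Cfsg.IsIrrCharacter (Matrix.SpecialLinearGroup (Fin 2) F) χ)
    (h : Cfsg.classInner (piS (quadS F)) χ ≠ 0) :
    ∑ x : F, χ (unipS x) = (Fintype.card F : ℂ) := by
  obtain ⟨χ₁, χ₂, h1, h2, hne, hsum, -, -, t, ht⟩ :=
    piS_quad_split (quadS F) quadS_sq (quadS_ne_one hF)
  have hs : ∑ x : F, χ₁ (unipS x) = ∑ x : F, χ₂ (unipS x) := by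
    have e : ∀ x : F, χ₁ (unipS x) = χ₂ (unipS ((t : F) * x)) := by
      intro x
      rw [← ht, twistS_unipS]
    rw [Finset.sum_congr rfl (fun x _ => e x)]
    exact Fintype.sum_equiv (Equiv.mulLeft₀ (t : F) t.ne_zero) _ _ (fun x => rfl)
  have htot : ∑ x : F, χ₁ (unipS x) + ∑ x : F, χ₂ (unipS x) = 2 * (Fintype.card F : ℂ) := by
    rw [← Finset.sum_add_distrib, ← sum_piS (quadS F), hsum]
    rfl
  have hcase : χ = χ₁ ∨ χ = χ₂ := by
    by_contra hcon
    rw [not_or] at hcon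
    apply h
    rw [hsum, classInner_add_left, classInner_irr h1 hχ, classInner_irr h2 hχ,
      if_neg (fun e => hcon.1 e.symm), if_neg (fun e => hcon.2 e.symm), add_zero]
  rcases hcase with rfl | rfl
  · rw [← hs] at htot
    linear_combination htot / 2
  · rw [hs] at htot
    linear_combination htot / 2

/-- Let F be a finite field with q elements, q odd, q ≥ 5, U the upper unitriangular subgroup of SL₂ over F, and χ an irreducible complex character. The sum of the values of χ over U equals 2q, q, 0, q, 0 according as the degree of χ is q + 1, q, q − 1, (q + 1)/2, (q − 1)/2; so among these five degrees the sum vanishes exactly for the degrees q − 1 and (q − 1)/2, i.e. the irreducible characters of those two degrees are the ones whose restriction to U does not contain the trivial character (the cuspidal characters), while those of degree q + 1, q and (q + 1)/2 are not cuspidal. -/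
theorem result {F : Type*} [Field F] [Fintype F] [DecidableEq F] (hodd : Odd (Fintype.card F)) (hq : 5 ≤ Fintype.card F)
    (χ : Matrix.SpecialLinearGroup (Fin 2) F → ℂ) (hχ : Cfsg.IsIrrCharacter (Matrix.SpecialLinearGroup (Fin 2) F) χ) :
    (χ 1 = (Fintype.card F : ℂ) + 1 →
      (∑ g : Matrix.SpecialLinearGroup (Fin 2) F, if (g : Matrix (Fin 2) (Fin 2) F) 1 0 = 0 ∧ (g : Matrix (Fin 2) (Fin 2) F) 0 0 = 1 ∧ (g : Matrix (Fin 2) (Fin 2) F) 1 1 = 1 then χ g else 0) = 2 * (Fintype.card F : ℂ)) ∧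
    (χ 1 = (Fintype.card F : ℂ) →
      (∑ g : Matrix.SpecialLinearGroup (Fin 2) F, if (g : Matrix (Fin 2) (Fin 2) F) 1 0 = 0 ∧ (g : Matrix (Fin 2) (Fin 2) F) 0 0 = 1 ∧ (g : Matrix (Fin 2) (Fin 2) F) 1 1 = 1 then χ g else 0) = (Fintype.card F : ℂ)) ∧
    (χ 1 = (Fintype.card F : ℂ) - 1 →
      (∑ g : Matrix.SpecialLinearGroup (Fin 2) F, if (g : Matrix (Fin 2) (Fin 2) F) 1 0 = 0 ∧ (g : Matrix (Fin 2) (Fin 2) F) 0 0 = 1 ∧ (g : Matrix (Fin 2) (Fin 2) F) 1 1 = 1 then χ g else 0) = 0) ∧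
    (χ 1 = (((Fintype.card F + 1) / 2 : ℕ) : ℂ) →
      (∑ g : Matrix.SpecialLinearGroup (Fin 2) F, if (g : Matrix (Fin 2) (Fin 2) F) 1 0 = 0 ∧ (g : Matrix (Fin 2) (Fin 2) F) 0 0 = 1 ∧ (g : Matrix (Fin 2) (Fin 2) F) 1 1 = 1 then χ g else 0) = (Fintype.card F : ℂ)) ∧
    (χ 1 = (((Fintype.card F - 1) / 2 : ℕ) : ℂ) →
      (∑ g : Matrix.SpecialLinearGroup (Fin 2) F, if (g : Matrix (Fin 2) (Fin 2) F) 1 0 = 0 ∧ (g : Matrix (Fin 2) (Fin 2) F) 0 0 = 1 ∧ (g : Matrix (Fin 2) (Fin 2) F) 1 1 = 1 then χ g else 0) = 0) := by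
  have hF : ringChar F ≠ 2 := Cfsg.Agent.Lib.Helper15.ringChar_ne_two_of_odd hodd
  simp only [sum_eq]
  refine ⟨?_, ?_, ?_, ?_, ?_⟩
  · intro h
    obtain ⟨α, -, rfl⟩ := (Cfsg.Agent.Lib.Helper15.SL2_deg_q_add_one_iff χ hχ).mp h
    exact sum_piS α
  · intro h
    rw [(Cfsg.Agent.Lib.Helper15.SL2_deg_q_iff χ hχ).mp h]
    exact sum_stS
  · intro h
    exact sum_cusp χ hχ ((Cfsg.Agent.Lib.Helper15.SL2_deg_q_sub_one_iff (by omega) χ hχ).mp h).1
  · intro h
    exact sum_half hF χ hχ ((Cfsg.Agent.Lib.Helper15.SL2_deg_half_add_iff hq hF χ hχ).mp h)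
  · intro h
    exact sum_cusp χ hχ ((Cfsg.Agent.Lib.Helper15.SL2_deg_half_sub_iff hq hF χ hχ).mp h).1

end Cfsg.Agent.S2438
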