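import Cfsg.Statements.S2531
import Mathlib

set_option autoImplicit false
open Cfsg

namespace Cfsg.Agent.S2531

theorem rep_mem_iff {F : Type*} [Field F] {V : Type*} [AddCommGroup V] [Module F V]
    (W : Submodule F V) (v : V) (hv : v ≠ 0) :
    (Projectivization.mk F v hv).rep ∈ W ↔ v ∈ W := by
  obtain ⟨c, hc⟩ := Projectivization.exists_smul_eq_mk_rep F v hv
  rw [← hc, Units.smul_def]
  exact W.smul_mem_iff c.ne_zero

theorem pts_card {F : Type*} [Field F] [Finite F] {V : Type*} [AddCommGroup V] [Module F V]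
    [Finite V] (W : Submodule F V) (hW : ∃ w ∈ W, w ≠ 0) :
    ((Nat.card F : ℕ) : ℤ) ∣ (Nat.card {x : Projectivization F V // x.rep ∈ W} : ℤ) - 1 := by
  classical
  have h1 : Nat.card {x : Projectivization F V // x.rep ∈ W} =
      Nat.card (Projectivization F W) := by
    symm
    refine Nat.card_congr (Equiv.ofBijective
      (fun y => ⟨Projectivization.map W.subtype W.injective_subtype y, ?_⟩) ⟨?_, ?_⟩)
    · induction y using Projectivization.ind with
      | h w hw =>
        rw [Projectivization.map_mk, rep_mem_iff]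
        exact w.2
    · intro y1 y2 h
      have h' := congrArg Subtype.val h
      exact Projectivization.map_injective (σ := RingHom.id F) (τ := RingHom.id F)
        W.subtype W.injective_subtype h'
    · rintro ⟨x, hx⟩
      refine ⟨Projectivization.mk F ⟨x.rep, hx⟩
        (fun h => x.rep_nonzero (congrArg Subtype.val h)), ?_⟩
      apply Subtype.ext
      simp only [Projectivization.map_mk]
      exact x.mk_rep
  have h2 := Projectivization.card F W
  haveI : Fintype F := Fintype.ofFinite F
  haveI : Fintype W := Fintype.ofFinite W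
  have h3 : Nat.card W = Nat.card F ^ Module.finrank F W := by
    rw [Nat.card_eq_fintype_card, Nat.card_eq_fintype_card]
    exact Module.card_eq_pow_finrank
  have h4 : 0 < Module.finrank F W := by
    obtain ⟨w, hw, hw0⟩ := hW
    haveI : Nontrivial W := ⟨⟨⟨w, hw⟩, 0, fun h => hw0 (congrArg Subtype.val h)⟩⟩
    exact Module.finrank_pos
  obtain ⟨k, hk⟩ : ∃ k, Module.finrank F W = k + 1 := ⟨Module.finrank F W - 1, by omega⟩
  rw [h1]
  rw [h3, hk] at h2
  have hq : 1 ≤ Nat.card F := Nat.card_pos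
  have hpos : 1 ≤ Nat.card F ^ (k + 1) := Nat.one_le_pow _ _ hq
  have h5 : ((Nat.card F : ℕ) : ℤ) ^ (k + 1) - 1 =
      (Nat.card (Projectivization F W) : ℤ) * ((Nat.card F : ℤ) - 1) := by
    have h2' : ((Nat.card F ^ (k + 1) - 1 : ℕ) : ℤ)
        = ((Nat.card (Projectivization F W) * (Nat.card F - 1) : ℕ) : ℤ) := by rw [h2]
    rw [Nat.cast_sub hpos, Nat.cast_mul, Nat.cast_sub hq] at h2'
    push_cast at h2'
    exact h2'
  refine ⟨(Nat.card (Projectivization F W) : ℤ) - (Nat.card F : ℤ) ^ k, ?_⟩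
  rw [pow_succ] at h5
  linarith

/-- Let `F` be a finite field and `n ≥ 3`. No set of permutations of the points of the projective space of `Fⁿ`, each induced by an invertible semilinear transformation of `Fⁿ` (so a subset of the full projective semilinear group), is sharply 2-transitive on the points: it is impossible that for all pairs of distinct points `(a, b)` and `(c, d)` exactly one member of the set sends `a` to `c` and `b` to `d`. -/
theorem result {F : Type*} [Field F] [Finite F]
    (n : ℕ) (hn : 3 ≤ n) (S : Set (Equiv.Perm (Projectivization F (Fin n → F))))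
    (hS : ∀ s ∈ S, ∃ (σ : F ≃+* F) (f : (Fin n → F) →ₛₗ[(σ : F →+* F)] (Fin n → F)) (hf : Function.Injective f),
      ∀ x, s x = Projectivization.map f hf x) :
    ¬ (∀ a b c d : Projectivization F (Fin n → F), a ≠ b → c ≠ d →
        ∃! s, s ∈ S ∧ s a = c ∧ s b = d) := by
  classical
  intro h
  letI : Fintype F := Fintype.ofFinite F
  letI : Fintype (Projectivization F (Fin n → F)) := Fintype.ofFinite _
  let i0 : Fin n := ⟨0, by omega⟩
  let i1 : Fin n := ⟨1, by omega⟩
  let i2 : Fin n := ⟨2, by omega⟩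
  have h01 : i0 ≠ i1 := by simp [i0, i1, Fin.ext_iff]
  have h02 : i0 ≠ i2 := by simp [i0, i2, Fin.ext_iff]
  have h12 : i1 ≠ i2 := by simp [i1, i2, Fin.ext_iff]
  let U : Submodule F (Fin n → F) := LinearMap.ker (LinearMap.proj i0 : (Fin n → F) →ₗ[F] F)
  have hUmem : ∀ v : Fin n → F, v ∈ U ↔ v i0 = 0 := fun v => by
    simp [U, LinearMap.mem_ker]
  let e0 : Fin n → F := Pi.single i0 1
  let e1 : Fin n → F := Pi.single i1 1
  let e2 : Fin n → F := Pi.single i2 1
  have he0 : e0 ≠ 0 := by
    intro h0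
    have := congrFun h0 i0
    simp [e0] at this
  have he1 : e1 ≠ 0 := by
    intro h0
    have := congrFun h0 i1
    simp [e1] at this
  have he1U : e1 ∈ U := by
    rw [hUmem]
    simp [e1, Pi.single_apply, h01]
  let a : Projectivization F (Fin n → F) := Projectivization.mk F e0 he0
  let b0 : Projectivization F (Fin n → F) := Projectivization.mk F e1 he1
  have ha : a.rep ∉ U := by
    rw [rep_mem_iff, hUmem]
    simp [e0]
  have hb0 : b0.rep ∈ U := by
    rw [rep_mem_iff]
    exact he1U
  have hA : ((Nat.card F : ℕ) : ℤ) ∣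
      (Nat.card {x : Projectivization F (Fin n → F) // x.rep ∈ U} : ℤ) - 1 :=
    pts_card U ⟨e1, he1U, he1⟩
  have hN : ((Nat.card F : ℕ) : ℤ) ∣ (Nat.card (Projectivization F (Fin n → F)) : ℤ) - 1 := by
    have h1 := pts_card (⊤ : Submodule F (Fin n → F)) ⟨e1, trivial, he1⟩
    rwa [show Nat.card {x : Projectivization F (Fin n → F) // x.rep ∈ (⊤ : Submodule F (Fin n → F))}
      = Nat.card (Projectivization F (Fin n → F)) from
      Nat.card_congr (Equiv.subtypeUnivEquiv (fun x => Submodule.mem_top))] at h1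
  have hs1 : ∀ s ∈ S, ((Nat.card F : ℕ) : ℤ) ∣
      (Nat.card {b : Projectivization F (Fin n → F) // b.rep ∈ U ∧ (s b).rep ∈ U} : ℤ) - 1 := by
    intro s hsS
    obtain ⟨σ, f, hf, hsf⟩ := hS s hsS
    let W : Submodule F (Fin n → F) :=
      { carrier := {v | v ∈ U ∧ f v ∈ U}
        add_mem' := fun {x y} hx hy =>
          ⟨U.add_mem hx.1 hy.1, by rw [map_add]; exact U.add_mem hx.2 hy.2⟩
        zero_mem' := ⟨U.zero_mem, by rw [map_zero]; exact U.zero_mem⟩
        smul_mem' := fun c x hx =>
          ⟨U.smul_mem c hx.1, by rw [map_smulₛₗ]; exact U.smul_mem _ hx.2⟩ }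
    have hWmem : ∀ v : Fin n → F, v ∈ W ↔ (v ∈ U ∧ f v ∈ U) := fun v => Iff.rfl
    have hWne : ∃ w ∈ W, w ≠ 0 := by
      let g : F × F → F := fun xy => (f (xy.1 • e1 + xy.2 • e2)) i0
      have hcard : Fintype.card F < Fintype.card (F × F) := by
        rw [Fintype.card_prod]
        have : 1 < Fintype.card F := Fintype.one_lt_card
        nlinarith
      obtain ⟨x, y, hxy, hg⟩ := Fintype.exists_ne_map_eq_of_card_lt g hcard
      refine ⟨(x.1 - y.1) • e1 + (x.2 - y.2) • e2, ?_, ?_⟩
      · rw [hWmem]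
        refine ⟨?_, ?_⟩
        · rw [hUmem]
          simp [e1, e2, Pi.single_apply, h01, h02]
        · rw [hUmem]
          have e : (x.1 - y.1) • e1 + (x.2 - y.2) • e2
              = (x.1 • e1 + x.2 • e2) - (y.1 • e1 + y.2 • e2) := by
            simp only [sub_smul]; abel
          rw [e, map_sub, Pi.sub_apply]
          exact sub_eq_zero.mpr hg
      · intro h0
        apply hxy
        have h1 := congrFun h0 i1
        have h2 := congrFun h0 i2
        simp [e1, e2, Pi.single_apply, h12, h12.symm] at h1 h2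
        exact Prod.ext (sub_eq_zero.mp h1) (sub_eq_zero.mp h2)
    have hW := pts_card W hWne
    have hcongr : Nat.card {b : Projectivization F (Fin n → F) // b.rep ∈ U ∧ (s b).rep ∈ U}
        = Nat.card {x : Projectivization F (Fin n → F) // x.rep ∈ W} := by
      apply Nat.card_congr
      apply Equiv.subtypeEquivRight
      intro b
      have hb : s b = Projectivization.mk F (f b.rep)
          (by rw [← map_zero f]; exact hf.ne b.rep_nonzero) := by
        rw [hsf b]
        conv_lhs => rw [← b.mk_rep]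
        rw [Projectivization.map_mk]
      rw [hb, rep_mem_iff, hWmem]
    rw [hcongr]
    exact hW
  let Sa : Finset (Equiv.Perm (Projectivization F (Fin n → F))) :=
    Finset.univ.filter (fun s => s ∈ S ∧ s a = a)
  let A : Finset (Projectivization F (Fin n → F)) := Finset.univ.filter (fun x => x.rep ∈ U)
  let Z : Finset (Equiv.Perm (Projectivization F (Fin n → F)) × Projectivization F (Fin n → F)) :=
    Finset.univ.filter (fun z => (z.1 ∈ S ∧ z.1 a = a) ∧ z.2.rep ∈ U ∧ (z.1 z.2).rep ∈ U)
  have hSamem : ∀ s, s ∈ Sa ↔ (s ∈ S ∧ s a = a) := fun s => by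
    simp only [Sa, Finset.mem_filter, Finset.mem_univ, true_and]
  have hAmem : ∀ x, x ∈ A ↔ x.rep ∈ U := fun x => by
    simp only [A, Finset.mem_filter, Finset.mem_univ, true_and]
  have hZmem : ∀ z, z ∈ Z ↔ ((z.1 ∈ S ∧ z.1 a = a) ∧ z.2.rep ∈ U ∧ (z.1 z.2).rep ∈ U) := fun z => by
    simp only [Z, Finset.mem_filter, Finset.mem_univ, true_and]
  have hAcard : A.card = Nat.card {x : Projectivization F (Fin n → F) // x.rep ∈ U} := by
    rw [Nat.card_eq_fintype_card, Fintype.card_subtype]
  have hZ1 : Z.card = A.card * A.card := by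
    rw [← Finset.card_product]
    refine Finset.card_bij (fun z _ => (z.2, z.1 z.2)) ?_ ?_ ?_
    · intro z hz
      rw [hZmem] at hz
      rw [Finset.mem_product, hAmem, hAmem]
      exact ⟨hz.2.1, hz.2.2⟩
    · intro z1 hz1 z2 hz2 heq
      rw [hZmem] at hz1 hz2
      simp only [Prod.mk.injEq] at heq
      obtain ⟨h1, h2⟩ := heq
      have hba : a ≠ z1.2 := fun hh => ha (hh ▸ hz1.2.1)
      have hda : a ≠ z1.1 z1.2 := fun hh => ha (hh ▸ hz1.2.2)
      obtain ⟨s0, -, huniq⟩ := h a z1.2 a (z1.1 z1.2) hba hda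
      have e1 : z1.1 = s0 := huniq z1.1 ⟨hz1.1.1, hz1.1.2, rfl⟩
      have e2 : z2.1 = s0 := huniq z2.1 ⟨hz2.1.1, hz2.1.2, by rw [h2, h1]⟩
      exact Prod.ext (e1.trans e2.symm) h1
    · rintro ⟨b, d⟩ hbd
      rw [Finset.mem_product, hAmem, hAmem] at hbd
      have hba : a ≠ b := fun hh => ha (hh ▸ hbd.1)
      have hda : a ≠ d := fun hh => ha (hh ▸ hbd.2)
      obtain ⟨s0, ⟨hs0S, hs0a, hs0b⟩, -⟩ := h a b a d hba hda
      refine ⟨(s0, b), ?_, ?_⟩
      · rw [hZmem]
        exact ⟨⟨hs0S, hs0a⟩, hbd.1, by rw [hs0b]; exact hbd.2⟩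
      · simp only [hs0b]
  have hab0 : a ≠ b0 := fun hh => ha (hh ▸ hb0)
  have hSa : Sa.card = Nat.card (Projectivization F (Fin n → F)) - 1 := by
    have e : Sa.card = (Finset.univ.erase a : Finset (Projectivization F (Fin n → F))).card := by
      refine Finset.card_bij (fun s _ => s b0) ?_ ?_ ?_
      · intro s hs
        rw [hSamem] at hs
        simp only [Finset.mem_erase, Finset.mem_univ, and_true]
        intro hh
        have : b0 = a := s.injective (hh.trans hs.2.symm)
        exact hab0 this.symm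
      · intro s1 hs1 s2 hs2 heq
        rw [hSamem] at hs1 hs2
        have hda : a ≠ s1 b0 := by
          intro hh
          have : b0 = a := s1.injective (hh.symm.trans hs1.2.symm)
          exact hab0 this.symm
        obtain ⟨s0, -, huniq⟩ := h a b0 a (s1 b0) hab0 hda
        exact (huniq s1 ⟨hs1.1, hs1.2, rfl⟩).trans (huniq s2 ⟨hs2.1, hs2.2, heq.symm⟩).symm
      · intro d hd
        simp only [Finset.mem_erase, Finset.mem_univ, and_true] at hd
        obtain ⟨s0, ⟨hs0S, hs0a, hs0b⟩, -⟩ := h a b0 a d hab0 (Ne.symm hd)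
        exact ⟨s0, (hSamem s0).2 ⟨hs0S, hs0a⟩, hs0b⟩
    rw [e, Finset.card_erase_of_mem (Finset.mem_univ a), Finset.card_univ, Nat.card_eq_fintype_card]
  have hZ2 : Z.card = ∑ s ∈ Sa, (Z.filter (fun z => z.1 = s)).card := by
    apply Finset.card_eq_sum_card_fiberwise
    intro z hz
    have hz' := (hZmem z).1 hz
    exact (hSamem z.1).2 hz'.1
  have hfib : ∀ s ∈ Sa, (Z.filter (fun z => z.1 = s)).card
      = Nat.card {b : Projectivization F (Fin n → F) // b.rep ∈ U ∧ (s b).rep ∈ U} := by
    intro s hs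
    rw [hSamem] at hs
    rw [Nat.card_eq_fintype_card, Fintype.card_subtype]
    refine Finset.card_bij (fun z _ => z.2) ?_ ?_ ?_
    · intro z hz
      rw [Finset.mem_filter, hZmem] at hz
      simp only [Finset.mem_filter, Finset.mem_univ, true_and]
      obtain ⟨hz1, hz2⟩ := hz
      rw [← hz2]
      exact hz1.2
    · intro z1 hz1 z2 hz2 heq
      rw [Finset.mem_filter] at hz1 hz2
      exact Prod.ext (hz1.2.trans hz2.2.symm) heq
    · intro b hb
      simp only [Finset.mem_filter, Finset.mem_univ, true_and] at hb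
      exact ⟨(s, b), by rw [Finset.mem_filter, hZmem]; exact ⟨⟨hs, hb⟩, rfl⟩, rfl⟩
  have hdiv : ((Nat.card F : ℕ) : ℤ) ∣ (Z.card : ℤ) - (Sa.card : ℤ) := by
    have e : (Z.card : ℤ) - (Sa.card : ℤ)
        = ∑ s ∈ Sa, (((Z.filter (fun z => z.1 = s)).card : ℤ) - 1) := by
      rw [Finset.sum_sub_distrib, Finset.sum_const, nsmul_eq_mul, mul_one, ← Nat.cast_sum, ← hZ2]
    rw [e]
    apply Finset.dvd_sum
    intro s hs
    rw [hfib s hs]
    exact hs1 s ((hSamem s).1 hs).1
  haveI : Nonempty (Projectivization F (Fin n → F)) := ⟨a⟩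
  have hNpos : 1 ≤ Nat.card (Projectivization F (Fin n → F)) := Nat.card_pos
  rw [hZ1, hSa, hAcard] at hdiv
  have h1 : ((Nat.card F : ℕ) : ℤ) ∣ 1 := by
    have e : (1 : ℤ) = (((Nat.card {x : Projectivization F (Fin n → F) // x.rep ∈ U}
          * Nat.card {x : Projectivization F (Fin n → F) // x.rep ∈ U} : ℕ) : ℤ)
        - ((Nat.card (Projectivization F (Fin n → F)) - 1 : ℕ) : ℤ))
        - ((Nat.card {x : Projectivization F (Fin n → F) // x.rep ∈ U} : ℤ) - 1)
          * ((Nat.card {x : Projectivization F (Fin n → F) // x.rep ∈ U} : ℤ) + 1)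
        + ((Nat.card (Projectivization F (Fin n → F)) : ℤ) - 1) := by
      rw [Nat.cast_sub hNpos]
      push_cast
      ring
    rw [e]
    exact dvd_add (dvd_sub hdiv (Dvd.dvd.mul_right hA _)) hN
  have h2 : Nat.card F ∣ 1 := by exact_mod_cast h1
  have h3 := Nat.le_of_dvd one_pos h2
  have h4 : 1 < Nat.card F := Finite.one_lt_card
  omega

end Cfsg.Agent.S2531
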