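import Cfsg.Statements.S2532
import Mathlib

set_option autoImplicit false
open Cfsg

namespace Cfsg.Agent.S2532

theorem pigeon {H : Type*} [Group H] [Finite H] {X : Type*} [Finite X] [MulAction H X] (r : ℕ)
    (hcard : Nat.card H * 2 ^ Nat.card H * r ≤ Nat.card X) :
    ∃ (S : Subgroup H) (x : Fin r → X), (∀ i, MulAction.stabilizer H (x i) = S) ∧
      (∀ i j, x i ∈ MulAction.orbit H (x j) → i = j) := by
  classical
  have hn : 0 < Nat.card H := Nat.card_pos
  -- representatives
  have hrep : ∀ y : X, ∃ g : H, g • (Quotient.out (Quotient.mk (MulAction.orbitRel H X) y)) = y := by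
    intro y
    have h1 : (MulAction.orbitRel H X) (Quotient.out (Quotient.mk (MulAction.orbitRel H X) y)) y :=
      Quotient.exact (Quotient.out_eq _)
    rw [MulAction.orbitRel_apply] at h1
    obtain ⟨g, hg⟩ := h1
    refine ⟨g⁻¹, ?_⟩
    rw [← hg, inv_smul_smul]
  choose gy hgy using hrep
  have hinj : Function.Injective
      (fun y : X => ((Quotient.mk (MulAction.orbitRel H X) y : MulAction.orbitRel.Quotient H X), gy y)) := by
    intro y y' h
    have h1 : (Quotient.mk (MulAction.orbitRel H X) y : MulAction.orbitRel.Quotient H X) =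
        Quotient.mk (MulAction.orbitRel H X) y' := congrArg Prod.fst h
    have h2 : gy y = gy y' := congrArg Prod.snd h
    rw [← hgy y, ← hgy y', h1, h2]
  have hX : Nat.card X ≤ Nat.card (MulAction.orbitRel.Quotient H X) * Nat.card H := by
    rw [← Nat.card_prod]
    exact Nat.card_le_card_of_injective _ hinj
  have hsub : Nat.card (Subgroup H) ≤ 2 ^ Nat.card H := by
    have h1 : Nat.card (Subgroup H) ≤ Nat.card (Set H) :=
      Nat.card_le_card_of_injective (fun K : Subgroup H => (K : Set H)) SetLike.coe_injective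
    have h2 : Nat.card (Set H) = 2 ^ Nat.card H := by
      have := Fintype.ofFinite H
      rw [Nat.card_eq_fintype_card, Fintype.card_set, Nat.card_eq_fintype_card]
    rw [h2] at h1
    exact h1
  have hΩ : Nat.card (Subgroup H) * r ≤ Nat.card (MulAction.orbitRel.Quotient H X) := by
    have h1 : Nat.card H * (2 ^ Nat.card H * r) ≤
        Nat.card H * Nat.card (MulAction.orbitRel.Quotient H X) := by
      calc Nat.card H * (2 ^ Nat.card H * r) = Nat.card H * 2 ^ Nat.card H * r := by ring
        _ ≤ Nat.card X := hcard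
        _ ≤ Nat.card (MulAction.orbitRel.Quotient H X) * Nat.card H := hX
        _ = Nat.card H * Nat.card (MulAction.orbitRel.Quotient H X) := by ring
    have h2 := Nat.le_of_mul_le_mul_left h1 hn
    exact le_trans (Nat.mul_le_mul_right r hsub) h2
  have := Fintype.ofFinite (MulAction.orbitRel.Quotient H X)
  have := Fintype.ofFinite (Subgroup H)
  rw [Nat.card_eq_fintype_card, Nat.card_eq_fintype_card] at hΩ
  obtain ⟨S, hS⟩ := Fintype.exists_le_card_fiber_of_mul_le_card
    (fun ω : MulAction.orbitRel.Quotient H X => MulAction.stabilizer H (Quotient.out ω)) hΩ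
  have hcard2 : Fintype.card (Fin r) ≤
      Fintype.card {ω : MulAction.orbitRel.Quotient H X //
        MulAction.stabilizer H (Quotient.out ω) = S} := by
    rw [Fintype.card_fin, Fintype.card_subtype]
    exact hS
  obtain ⟨e⟩ := Function.Embedding.nonempty_of_card_le hcard2
  refine ⟨S, fun i => Quotient.out (e i).1, fun i => (e i).2, ?_⟩
  intro i j hij
  apply e.injective
  apply Subtype.ext
  have h1 : (MulAction.orbitRel H X) (Quotient.out (e i).1) (Quotient.out (e j).1) := by
    rw [MulAction.orbitRel_apply]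
    exact hij
  have h2 := Quotient.sound h1
  rw [Quotient.out_eq, Quotient.out_eq] at h2
  exact h2

theorem embed {H : Type*} [Group H] {X : Type*} [MulAction H X] (r : ℕ) (S : Subgroup H)
    (x : Fin r → X) (hS : ∀ i, MulAction.stabilizer H (x i) = S)
    (hx : ∀ i j, x i ∈ MulAction.orbit H (x j) → i = j) :
    ∃ ι : (H ⧸ S) × Fin r ↪ X,
      ∀ (h : H) (q : H ⧸ S) (i : Fin r), h • ι (q, i) = ι (h • q, i) := by
  have hwd : ∀ (g : H) (i : Fin r),
      (Quotient.out (QuotientGroup.mk g : H ⧸ S)) • x i = g • x i := by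
    intro g i
    obtain ⟨s, hs⟩ := QuotientGroup.mk_out_eq_mul S g
    rw [hs, mul_smul]
    congr 1
    have h1 : (s : H) ∈ MulAction.stabilizer H (x i) := by
      rw [hS]
      exact s.2
    exact h1
  refine ⟨⟨fun p => (Quotient.out p.1) • x p.2, ?_⟩, ?_⟩
  · rintro ⟨q, i⟩ ⟨q', j⟩ h
    simp only at h
    have hij : i = j := by
      apply hx
      rw [MulAction.mem_orbit_iff]
      refine ⟨(Quotient.out q)⁻¹ * Quotient.out q', ?_⟩
      rw [mul_smul, ← h, inv_smul_smul]
    subst hij
    have h0 : (Quotient.out q)⁻¹ * Quotient.out q' ∈ MulAction.stabilizer H (x i) := by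
      rw [MulAction.mem_stabilizer_iff, mul_smul, ← h, inv_smul_smul]
    have h1 : (Quotient.out q)⁻¹ * Quotient.out q' ∈ S := (hS i).le h0
    have h2 : q = q' := by
      rw [← QuotientGroup.out_eq' q, ← QuotientGroup.out_eq' q']
      exact QuotientGroup.eq.mpr h1
    rw [h2]
  · intro h q i
    show h • (Quotient.out q • x i) = Quotient.out (h • q) • x i
    obtain ⟨g, rfl⟩ := QuotientGroup.mk_surjective q
    rw [hwd]
    have h1 : h • (QuotientGroup.mk g : H ⧸ S) = QuotientGroup.mk (h * g) := rfl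
    rw [h1, hwd, mul_smul]

theorem sign_via {α β : Type*} [DecidableEq α] [Fintype α] [DecidableEq β] [Fintype β]
    (e : Equiv.Perm α) (ι : α ↪ β) :
    Equiv.Perm.sign (e.viaEmbedding ι) = Equiv.Perm.sign e := by
  classical
  unfold Equiv.Perm.viaEmbedding
  exact @Equiv.Perm.sign_extendDomain α _ β _ _ _ e _ (fun a => Classical.propDecidable _)
    (Equiv.ofInjective ι.1 ι.2)

theorem sign_prodConst {α β : Type*} [DecidableEq α] [Fintype α] [DecidableEq β] [Fintype β]
    (π : Equiv.Perm β) (hπ : Equiv.Perm.sign π = 1) :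
    Equiv.Perm.sign (Equiv.prodCongrRight (fun _ : α => π)) = 1 := by
  rw [Equiv.Perm.sign_prodCongrRight]
  simp [hπ]

theorem key (m r : ℕ) (H : Subgroup ↥(alternatingGroup (Fin m)))
    (hm : Nat.card H * 2 ^ Nat.card H * r ≤ m) :
    ∃ K : Subgroup ↥(alternatingGroup (Fin m)), Nonempty (↥K ≃* ↥(alternatingGroup (Fin r))) ∧
      K ≤ Subgroup.centralizer (H : Set ↥(alternatingGroup (Fin m))) := by
  classical
  have hcard : Nat.card H * 2 ^ Nat.card H * r ≤ Nat.card (Fin m) := by
    rw [Nat.card_fin]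
    exact hm
  obtain ⟨S, x, hS, hx⟩ := pigeon (H := ↥H) (X := Fin m) r hcard
  obtain ⟨ι, hι⟩ := embed r S x hS hx
  have : Fintype (↥H ⧸ S) := Fintype.ofFinite _
  let ψ : Equiv.Perm (Fin r) →* Equiv.Perm ((↥H ⧸ S) × Fin r) :=
    { toFun := fun π => Equiv.prodCongrRight (fun _ => π)
      map_one' := by
        ext ⟨q, i⟩ <;> rfl
      map_mul' := fun π ρ => by
        ext ⟨q, i⟩ <;> rfl }
  have hψ : ∀ (π : Equiv.Perm (Fin r)) (q : ↥H ⧸ S) (i : Fin r), ψ π (q, i) = (q, π i) :=
    fun π q i => rfl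
  have hψinj : Function.Injective ψ := by
    intro π ρ h
    ext i
    have h1 := congrArg (fun f : Equiv.Perm ((↥H ⧸ S) × Fin r) =>
      (f ((QuotientGroup.mk 1 : ↥H ⧸ S), i)).2) h
    simp only [hψ] at h1
    rw [h1]
  let Θ : Equiv.Perm (Fin r) →* Equiv.Perm (Fin m) := (Equiv.Perm.viaEmbeddingHom ι).comp ψ
  have hΘinj : Function.Injective Θ := (Equiv.Perm.viaEmbeddingHom_injective ι).comp hψinj
  have hΘι : ∀ (π : Equiv.Perm (Fin r)) (q : ↥H ⧸ S) (i : Fin r),
      Θ π (ι (q, i)) = ι (q, π i) := by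
    intro π q i
    show (ψ π).viaEmbedding ι (ι (q, i)) = _
    rw [Equiv.Perm.viaEmbedding_apply, hψ]
  have hΘout : ∀ (π : Equiv.Perm (Fin r)) (y : Fin m), y ∉ Set.range ι → Θ π y = y :=
    fun π y hy => Equiv.Perm.viaEmbedding_apply_of_notMem _ ι y hy
  have hcomm : ∀ (π : Equiv.Perm (Fin r)) (h : ↥H) (y : Fin m), Θ π (h • y) = h • Θ π y := by
    intro π h y
    by_cases hy : y ∈ Set.range ι
    · obtain ⟨⟨q, i⟩, rfl⟩ := hy
      rw [hι, hΘι, hΘι, hι]
    · have hy' : h • y ∉ Set.range ι := by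
        rintro ⟨⟨q, i⟩, hqi⟩
        apply hy
        refine ⟨(h⁻¹ • q, i), ?_⟩
        rw [← hι, hqi, inv_smul_smul]
      rw [hΘout π y hy, hΘout π _ hy']
  have hsign : ∀ π : Equiv.Perm (Fin r), Equiv.Perm.sign π = 1 →
      Equiv.Perm.sign (Θ π) = 1 := by
    intro π hπ
    have h1 : Equiv.Perm.sign (Θ π) = Equiv.Perm.sign (ψ π) := sign_via (ψ π) ι
    rw [h1]
    exact sign_prodConst π hπ
  let Θ' : ↥(alternatingGroup (Fin r)) →* ↥(alternatingGroup (Fin m)) :=
    (Θ.comp (alternatingGroup (Fin r)).subtype).codRestrict (alternatingGroup (Fin m))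
      (fun a => Equiv.Perm.mem_alternatingGroup.mpr
        (hsign a.1 (Equiv.Perm.mem_alternatingGroup.mp a.2)))
  have hΘ'inj : Function.Injective Θ' := by
    intro a b hab
    apply Subtype.ext
    apply hΘinj
    exact congrArg Subtype.val hab
  refine ⟨Θ'.range, ⟨(MonoidHom.ofInjective hΘ'inj).symm⟩, ?_⟩
  rintro _ ⟨a, rfl⟩
  rw [Subgroup.mem_centralizer_iff]
  intro h hh
  apply Subtype.ext
  apply Equiv.ext
  intro y
  have h3 : Θ a.1 ((h : Equiv.Perm (Fin m)) y) = (h : Equiv.Perm (Fin m)) (Θ a.1 y) :=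
    hcomm a.1 ⟨h, hh⟩ y
  exact h3.symm

/-- There is a function `f` of two natural-number arguments such that, whenever `m ≥ f(n, r)`, every subgroup of order `n` of the alternating group of degree `m` centralizes some subgroup of that alternating group isomorphic to the alternating group of degree `r`. -/
theorem result :
    ∃ f : ℕ → ℕ → ℕ, ∀ (m r : ℕ) (H : Subgroup ↥(alternatingGroup (Fin m))), f (Nat.card H) r ≤ m →
      ∃ K : Subgroup ↥(alternatingGroup (Fin m)), Nonempty (↥K ≃* ↥(alternatingGroup (Fin r))) ∧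
        K ≤ Subgroup.centralizer (H : Set ↥(alternatingGroup (Fin m))) := by
  refine ⟨fun n r => n * 2 ^ n * r, ?_⟩
  intro m r H hm
  exact key m r H hm

end Cfsg.Agent.S2532
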