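import Cfsg.Statements.S2533
import Mathlib

set_option autoImplicit false
open Cfsg

namespace Cfsg.Agent.S2533

set_option linter.unusedSectionVars false

open Matrix

section core

variable {F : Type*} [Field F]

theorem lam_one {n : Type*} [Fintype n] [DecidableEq n] (G N : Matrix n n F) (hG : G ≠ 0)
    (hN : N * N = 0) (l : F) (h : G * (1 + N) = l • ((1 + N) * G)) : l = 1 := by
  by_contra hl
  have hl' : (1 - l) ≠ 0 := sub_ne_zero.2 (Ne.symm hl)
  have key : ∀ A : Matrix n n F, A = l • A → A = 0 := by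
    intro A hA
    have : (1 - l) • A = 0 := by
      rw [sub_smul, one_smul, ← hA, sub_self]
    rcases smul_eq_zero.1 this with h | h
    · exact absurd h hl'
    · exact h
  have e1 : G + G * N = l • G + l • (N * G) := by
    simpa [mul_add, add_mul, smul_add] using h
  have e2 : N * G + N * G * N = l • (N * G) := by
    have := congrArg (fun M => N * M) e1
    simp only [mul_add, Matrix.mul_smul, ← Matrix.mul_assoc, hN, Matrix.zero_mul, smul_zero,
      add_zero] at this
    exact this
  have e3 : G * N = l • (G * N) + l • (N * G * N) := by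
    have := congrArg (fun M => M * N) e1
    simp only [add_mul, Matrix.smul_mul, Matrix.mul_assoc, hN, Matrix.mul_zero, add_zero] at this
    rw [Matrix.mul_assoc]
    exact this
  have e4 : N * G * N = 0 := by
    apply key
    have := congrArg (fun M => M * N) e2
    simp only [add_mul, Matrix.smul_mul, Matrix.mul_assoc, hN, Matrix.mul_zero, add_zero] at this
    rw [Matrix.mul_assoc]
    exact this
  have e5 : N * G = 0 := by
    apply key
    rw [e4, add_zero] at e2
    exact e2
  have e6 : G * N = 0 := by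
    apply key
    rw [e4, smul_zero, add_zero] at e3
    exact e3
  apply hG
  apply key
  rw [e5, e6, add_zero, smul_zero, add_zero] at e1
  exact e1

variable {m : ℕ} [NeZero m]

/-- cyclic shift matrix -/
def shiftM (F : Type*) [Field F] (m : ℕ) [NeZero m] : Matrix (ZMod m) (ZMod m) F :=
  Matrix.of fun i j => if i = j + 1 then 1 else 0

theorem comm_scalar (P : Matrix (ZMod m) (ZMod m) F)
    (hE : P * Matrix.single 0 0 1 = Matrix.single 0 0 1 * P)
    (hS : P * shiftM F m = shiftM F m * P) : P = P 0 0 • (1 : Matrix (ZMod m) (ZMod m) F) := by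
  have h1 : ∀ b : ZMod m, b ≠ 0 → P 0 b = 0 := by
    intro b hb
    have := congrFun (congrFun hE 0) b
    rw [Matrix.mul_single_apply_of_ne (hbj := hb), Matrix.single_mul_apply_same] at this
    simpa using this.symm
  have h2 : ∀ i j : ZMod m, P (i + 1) (j + 1) = P i j := by
    intro i j
    have := congrFun (congrFun hS (i + 1)) j
    simp only [Matrix.mul_apply, shiftM, Matrix.of_apply, mul_ite, mul_one, mul_zero, ite_mul,
      one_mul, zero_mul, add_left_inj] at this
    rw [Finset.sum_ite_eq' Finset.univ (j + 1) (fun k => P (i + 1) k),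
      Finset.sum_ite_eq Finset.univ i (fun k => P k j)] at this
    simpa using this
  have h3 : ∀ (k : ℕ) (i j : ZMod m), P (i + k) (j + k) = P i j := by
    intro k
    induction k with
    | zero => intro i j; simp
    | succ k ih =>
      intro i j
      rw [Nat.cast_succ, ← add_assoc, ← add_assoc, h2, ih]
  have h4 : ∀ i j : ZMod m, P i j = P 0 (j - i) := by
    intro i j
    have := h3 (-i).val i j
    rw [ZMod.natCast_zmod_val] at this
    rw [← this, add_neg_cancel, sub_eq_add_neg]
  ext i j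
  by_cases hij : i = j
  · subst hij
    rw [h4 i i, sub_self]
    simp
  · rw [h4 i j, h1 _ (sub_ne_zero.2 (Ne.symm hij))]
    simp [hij]

/-- X(a) -/
def Xm (m : ℕ) [NeZero m] (a : Fin 3 → F) : Matrix (ZMod m) (ZMod m) F :=
  a 0 • (1 : Matrix (ZMod m) (ZMod m) F) + a 1 • Matrix.single 0 0 1 + a 2 • shiftM F m

theorem Xm_add (a b : Fin 3 → F) : Xm m (a + b) = Xm m a + Xm m b := by
  simp only [Xm, Pi.add_apply, add_smul]
  abel

theorem Xm_smul (c : F) (a : Fin 3 → F) : Xm m (c • a) = c • Xm m a := by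
  simp only [Xm, Pi.smul_apply, smul_eq_mul, smul_add, smul_smul]

theorem Xm_e0 : Xm m (Pi.single 0 1 : Fin 3 → F) = 1 := by
  simp [Xm]

theorem Xm_e1 : Xm m (Pi.single 1 1 : Fin 3 → F) = Matrix.single 0 0 1 := by
  simp [Xm]

theorem Xm_e2 : Xm m (Pi.single 2 1 : Fin 3 → F) = shiftM F m := by
  simp [Xm]

theorem Xm_inj (hm : 2 ≤ m) (a : Fin 3 → F) (h : Xm m a = 0) : a = 0 := by
  have : Fact (1 < m) := ⟨by omega⟩
  have h10 : (1 : ZMod m) ≠ 0 := one_ne_zero
  have h11 : (1 : ZMod m) ≠ 1 + 1 := by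
    intro h
    apply h10
    have := congrArg (fun x => x - 1) h
    simpa using this.symm
  have a0 : a 0 = 0 := by
    have := congrFun (congrFun h 1) 1
    simpa [Xm, shiftM, Matrix.single_apply, h10, h11] using this
  have a2 : a 2 = 0 := by
    have := congrFun (congrFun h 1) 0
    simpa [Xm, shiftM, Matrix.single_apply, h10, Matrix.one_apply] using this
  have a1 : a 1 = 0 := by
    have := congrFun (congrFun h 0) 0
    simpa [Xm, shiftM, Matrix.single_apply, h10, h10.symm, a0, a2] using this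
  ext i
  fin_cases i
  · exact a0
  · exact a1
  · exact a2

def uM (m : ℕ) [NeZero m] (a : Fin 3 → F) : Matrix (ZMod m ⊕ ZMod m) (ZMod m ⊕ ZMod m) F :=
  fromBlocks 1 (Xm m a) 0 1

def dM (m : ℕ) [NeZero m] (c : F) : Matrix (ZMod m ⊕ ZMod m) (ZMod m ⊕ ZMod m) F :=
  fromBlocks 1 0 0 (c • (1 : Matrix (ZMod m) (ZMod m) F))

theorem uM_eq (a : Fin 3 → F) : uM m a = 1 + fromBlocks 0 (Xm m a) 0 0 := by
  rw [uM, ← fromBlocks_one, fromBlocks_add]
  simp

theorem nil_sq (a : Fin 3 → F) :
    (fromBlocks 0 (Xm m a) 0 0 : Matrix (ZMod m ⊕ ZMod m) (ZMod m ⊕ ZMod m) F)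
      * fromBlocks 0 (Xm m a) 0 0 = 0 := by
  rw [fromBlocks_multiply]
  simp

theorem core_scalar (h2 : (2 : F) ≠ 0)
    (G : Matrix (ZMod m ⊕ ZMod m) (ZMod m ⊕ ZMod m) F) (hG : G.det ≠ 0)
    (hu : ∀ a : Fin 3 → F, ∃ l : F, G * uM m a = l • (uM m a * G))
    (hd : ∃ μ : F, G * dM m (-1) = μ • (dM m (-1) * G)) : ∃ c : F, G = c • 1 := by
  have hG0 : G ≠ 0 := by
    rintro rfl
    apply hG
    exact Matrix.det_zero
  have hu' : ∀ a : Fin 3 → F, G * uM m a = uM m a * G := by
    intro a
    obtain ⟨l, hl⟩ := hu a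
    have : l = 1 := by
      rw [uM_eq] at hl
      exact lam_one G _ hG0 (nil_sq a) l hl
    rw [hl, this, one_smul]
  obtain ⟨P, Q, R, T, hGb⟩ : ∃ P Q R T, G = fromBlocks P Q R T :=
    ⟨_, _, _, _, (Matrix.fromBlocks_toBlocks G).symm⟩
  have hu'' : ∀ a : Fin 3 → F, Xm m a * R = 0 ∧ P * Xm m a + Q = Q + Xm m a * T := by
    intro a
    have := hu' a
    rw [hGb, uM, fromBlocks_multiply, fromBlocks_multiply, fromBlocks_inj] at this
    simp only [Matrix.mul_one, Matrix.mul_zero, Matrix.one_mul, Matrix.zero_mul, add_zero,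
      zero_add] at this
    obtain ⟨e1, e2, -, -⟩ := this
    refine ⟨?_, e2⟩
    have e1' : P + 0 = P + Xm m a * R := by rw [add_zero]; exact e1
    exact (add_left_cancel e1').symm
  obtain ⟨μ, hμ⟩ := hd
  rw [hGb, dM, fromBlocks_multiply, fromBlocks_multiply, fromBlocks_smul, fromBlocks_inj] at hμ
  simp only [Matrix.mul_one, Matrix.mul_zero, Matrix.one_mul, Matrix.zero_mul, add_zero,
    zero_add, Matrix.mul_smul, Matrix.smul_mul] at hμ
  obtain ⟨eP, eQ, eR, eT⟩ := hμ
  have key : ∀ (c : F) (A : Matrix (ZMod m) (ZMod m) F), c ≠ 0 → c • A = 0 → A = 0 := by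
    intro c A hc hA
    rcases smul_eq_zero.1 hA with h | h
    · exact absurd h hc
    · exact h
  by_cases hμ1 : μ = 1
  · subst hμ1
    have hQ : Q = 0 := by
      apply key 2 Q h2
      rw [one_smul] at eQ
      rw [two_smul]
      nth_rewrite 1 [← eQ]
      simp
    have hR : R = 0 := by
      apply key 2 R h2
      rw [one_smul] at eR
      rw [two_smul]
      nth_rewrite 2 [eR]
      simp
    have hPT : P = T := by
      have := (hu'' (Pi.single 0 1)).2
      rw [Xm_e0, hQ] at this
      simpa using this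
    have hE : P * Matrix.single 0 0 1 = Matrix.single 0 0 1 * P := by
      have := (hu'' (Pi.single 1 1)).2
      rw [Xm_e1, hQ, ← hPT] at this
      simpa using this
    have hS : P * shiftM F m = shiftM F m * P := by
      have := (hu'' (Pi.single 2 1)).2
      rw [Xm_e2, hQ, ← hPT] at this
      simpa using this
    have hP := comm_scalar P hE hS
    refine ⟨P 0 0, ?_⟩
    rw [hGb, hQ, hR, ← hPT, hP, ← fromBlocks_one, fromBlocks_smul]
    simp
  · exfalso
    have hP : P = 0 := by
      apply key (1 - μ) P (sub_ne_zero.2 (Ne.symm hμ1))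
      rw [sub_smul, one_smul, ← eP, sub_self]
    have hT : T = 0 := by
      apply key (1 - μ) T (sub_ne_zero.2 (Ne.symm hμ1))
      have : -T = μ • -T := by simpa using eT
      have h' : T = μ • T := by
        have := congrArg (fun M => -M) this
        simpa using this
      rw [sub_smul, one_smul, ← h', sub_self]
    have hR : R = 0 := by
      have := (hu'' (Pi.single 0 1)).1
      rw [Xm_e0] at this
      simpa using this
    apply hG
    rw [hGb, hP, hT, hR, Matrix.det_fromBlocks_zero₂₁, Matrix.det_zero, zero_mul]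

theorem det_uM (a : Fin 3 → F) : (uM m a).det = 1 := by
  rw [uM, Matrix.det_fromBlocks_zero₂₁]
  simp

theorem det_dM (hm : Even m) (c : F) (hc : c * c = 1) : (dM m c).det = 1 := by
  rw [dM, Matrix.det_fromBlocks_zero₂₁, Matrix.det_one, one_mul, Matrix.det_smul,
    Matrix.det_one, mul_one, ZMod.card]
  obtain ⟨k, rfl⟩ := hm
  rw [← two_mul, pow_mul, pow_two, hc, one_pow]

theorem uM_mul (a b : Fin 3 → F) : uM m a * uM m b = uM m (a + b) := by
  rw [uM, uM, uM, fromBlocks_multiply, Xm_add]
  simp [add_comm]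

theorem dM_mul (c d : F) : dM m c * dM m d = dM m (c * d) := by
  rw [dM, dM, dM, fromBlocks_multiply]
  simp [smul_smul, mul_comm]

theorem dM_one : dM m (1 : F) = 1 := by
  simp [dM, fromBlocks_one]

theorem uM_zero : uM m (0 : Fin 3 → F) = 1 := by
  simp [uM, Xm, fromBlocks_one]

theorem dM_uM (c : F) (hc : c * c = 1) (a : Fin 3 → F) :
    uM m (c • a) * dM m c = dM m c * uM m a := by
  rw [uM, dM, uM, fromBlocks_multiply, fromBlocks_multiply, Xm_smul]
  simp [smul_smul, hc]

end core

section grp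

variable (p : ℕ) [Fact p.Prime]

noncomputable def actHom : ℤˣ →* MulAut (Multiplicative (Fin 3 → ZMod p)) :=
  (MulAutMultiplicative (Fin 3 → ZMod p)).symm.toMonoidHom.comp
    (DistribMulAction.toAddAut ℤˣ (Fin 3 → ZMod p))

def cE (ε : ℤˣ) : ZMod p := ((ε : ℤ) : ZMod p)

theorem cE_mul (ε δ : ℤˣ) : cE p (ε * δ) = cE p ε * cE p δ := by
  simp [cE]

theorem cE_one : cE p 1 = 1 := by simp [cE]

theorem cE_sq (ε : ℤˣ) : cE p ε * cE p ε = 1 := by
  rw [← cE_mul, Int.units_mul_self, cE_one]

theorem actHom_apply (ε : ℤˣ) (a : Multiplicative (Fin 3 → ZMod p)) :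
    Multiplicative.toAdd (actHom p ε a) = cE p ε • Multiplicative.toAdd a := by
  ext i
  simp [actHom, cE, Units.smul_def]

variable (m : ℕ) [NeZero m]

def f1 : Multiplicative (Fin 3 → ZMod p) →*
    Matrix.SpecialLinearGroup (ZMod m ⊕ ZMod m) (ZMod p) where
  toFun a := ⟨uM m (Multiplicative.toAdd a), det_uM _⟩
  map_one' := Subtype.ext uM_zero
  map_mul' a b := Subtype.ext (by
    show uM m (Multiplicative.toAdd (a * b)) = uM m (Multiplicative.toAdd a) * uM m (Multiplicative.toAdd b)
    rw [uM_mul]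
    rfl)

def f2 (hm : Even m) : ℤˣ →* Matrix.SpecialLinearGroup (ZMod m ⊕ ZMod m) (ZMod p) where
  toFun ε := ⟨dM m (cE p ε), det_dM hm _ (cE_sq p ε)⟩
  map_one' := Subtype.ext (by simp [cE_one, dM_one])
  map_mul' a b := Subtype.ext (by
    show dM m (cE p (a * b)) = dM m (cE p a) * dM m (cE p b)
    rw [dM_mul, cE_mul])

theorem compat (hm : Even m) (ε : ℤˣ) :
    (f1 p m).comp (MulEquiv.toMonoidHom (actHom p ε))
      = (MulEquiv.toMonoidHom (MulAut.conj (f2 p m hm ε))).comp (f1 p m) := by
  apply MonoidHom.ext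
  intro a
  simp only [MonoidHom.comp_apply, MulEquiv.coe_toMonoidHom, MulAut.conj_apply]
  rw [eq_mul_inv_iff_mul_eq]
  apply Subtype.ext
  show uM m (Multiplicative.toAdd (actHom p ε a)) * dM m (cE p ε)
    = dM m (cE p ε) * uM m (Multiplicative.toAdd a)
  rw [actHom_apply]
  exact dM_uM _ (cE_sq p ε) _

noncomputable def fH (hm : Even m) :
    (Multiplicative (Fin 3 → ZMod p) ⋊[actHom p] ℤˣ) →*
      Matrix.SpecialLinearGroup (ZMod m ⊕ ZMod m) (ZMod p) :=
  SemidirectProduct.lift (f1 p m) (f2 p m hm) (compat p m hm)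

theorem fH_coe (hm : Even m) (h : Multiplicative (Fin 3 → ZMod p) ⋊[actHom p] ℤˣ) :
    (fH p m hm h).1 = uM m (Multiplicative.toAdd h.left) * dM m (cE p h.right) := by
  conv_lhs => rw [← SemidirectProduct.inl_left_mul_inr_right h]
  rw [map_mul, fH, SemidirectProduct.lift_inl, SemidirectProduct.lift_inr]
  rfl

theorem card_H : Nat.card (Multiplicative (Fin 3 → ZMod p) ⋊[actHom p] ℤˣ) = 2 * p ^ 3 := by
  rw [SemidirectProduct.card, Nat.card_eq_fintype_card, Nat.card_eq_fintype_card,
    Fintype.card_units_int]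
  have : Fintype.card (Multiplicative (Fin 3 → ZMod p)) = p ^ 3 := by
    rw [Fintype.card_congr Multiplicative.toAdd]
    simp [ZMod.card]
  rw [this, mul_comm]

end grp

section final

def reSL {ι κ R : Type*} [Fintype ι] [DecidableEq ι] [Fintype κ] [DecidableEq κ] [CommRing R]
    (e : ι ≃ κ) : Matrix.SpecialLinearGroup ι R →* Matrix.SpecialLinearGroup κ R where
  toFun A := ⟨Matrix.reindexAlgEquiv R R e A.1, by
    rw [Matrix.det_reindexAlgEquiv]
    exact A.2⟩
  map_one' := Subtype.ext (by simp)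
  map_mul' A B := Subtype.ext (by
    show Matrix.reindexAlgEquiv R R e (A.1 * B.1)
      = Matrix.reindexAlgEquiv R R e A.1 * Matrix.reindexAlgEquiv R R e B.1
    rw [map_mul])

theorem reindex_scalar {ι κ R : Type*} [Fintype ι] [DecidableEq ι] [Fintype κ] [DecidableEq κ]
    [CommRing R] (e : ι ≃ κ) (M : Matrix ι ι R) (r : R)
    (h : Matrix.reindexAlgEquiv R R e M = Matrix.scalar κ r) : M = r • 1 := by
  apply (Matrix.reindexAlgEquiv R R e).injective
  rw [h, map_smul, map_one]
  ext i j
  simp [Matrix.one_apply, Matrix.diagonal_apply]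

theorem two_ne (p : ℕ) [Fact p.Prime] (hp : p ≠ 2) : (2 : ZMod p) ≠ 0 := by
  intro h
  have h' : ((2 : ℕ) : ZMod p) = 0 := by exact_mod_cast h
  rw [ZMod.natCast_eq_zero_iff] at h'
  exact hp ((Nat.prime_dvd_prime_iff_eq (Fact.out) Nat.prime_two).1 h')

theorem cE_eq_one (p : ℕ) [Fact p.Prime] (hp : p ≠ 2) (ε : ℤˣ) (h : cE p ε = 1) : ε = 1 := by
  rcases Int.units_eq_one_or ε with h1 | h1
  · exact h1
  · exfalso
    rw [h1] at h
    simp only [cE, Units.val_neg, Units.val_one, Int.cast_neg, Int.cast_one] at h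
    apply two_ne p hp
    have : (2 : ZMod p) = 1 - (-1) := by ring
    rw [this, h, sub_self]

theorem main (p : ℕ) [Fact p.Prime] (hp : p ≠ 2) :
    ∃ (H : Type) (_ : Group H) (_ : Finite H), Nat.card H = 2 * p ^ 3 ∧
      ∀ N : ℕ, ∃ n, N ≤ n ∧ ∃ φ : H →* Matrix.ProjectiveSpecialLinearGroup (Fin n) (ZMod p),
        Function.Injective φ ∧ Subgroup.centralizer (φ.range : Set (Matrix.ProjectiveSpecialLinearGroup (Fin n) (ZMod p))) = ⊥ := by
  refine ⟨Multiplicative (Fin 3 → ZMod p) ⋊[actHom p] ℤˣ, inferInstance,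
    Finite.of_equiv _ SemidirectProduct.equivProd.symm, card_H p, ?_⟩
  intro N
  obtain ⟨m, hm⟩ : ∃ m, m = 2 * (N + 1) := ⟨_, rfl⟩
  have : NeZero m := ⟨by omega⟩
  have hme : Even m := ⟨N + 1, by omega⟩
  have hm2 : 2 ≤ m := by omega
  have hcard : Fintype.card (ZMod m ⊕ ZMod m) = m + m := by simp [ZMod.card]
  obtain ⟨e⟩ : Nonempty (ZMod m ⊕ ZMod m ≃ Fin (m + m)) := ⟨Fintype.equivFinOfCardEq hcard⟩
  have hcoe : ∀ h, ((reSL e) (fH p m hme h)).1
      = Matrix.reindexAlgEquiv (ZMod p) (ZMod p) e (fH p m hme h).1 := fun h => rfl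
  refine ⟨m + m, by omega, (QuotientGroup.mk' _).comp ((reSL e).comp (fH p m hme)), ?_, ?_⟩
  · rw [injective_iff_map_eq_one]
    intro h hh
    rw [MonoidHom.comp_apply, QuotientGroup.mk'_apply, QuotientGroup.eq_one_iff,
      MonoidHom.comp_apply, Matrix.SpecialLinearGroup.mem_center_iff] at hh
    obtain ⟨r, -, hr⟩ := hh
    rw [hcoe] at hr
    have h1 := reindex_scalar e _ r hr.symm
    rw [fH_coe, uM, dM, fromBlocks_multiply, ← fromBlocks_one, fromBlocks_smul,
      fromBlocks_inj] at h1
    simp only [Matrix.mul_one, Matrix.mul_zero, Matrix.one_mul, Matrix.zero_mul, add_zero,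
      zero_add, Matrix.mul_smul, smul_zero] at h1
    obtain ⟨e1, e2, -, e4⟩ := h1
    have hr1 : r = 1 := by
      have := congrFun (congrFun e1 0) 0
      simpa using this.symm
    have hc1 : cE p h.right = 1 := by
      have := congrFun (congrFun e4 0) 0
      simpa [hr1] using this
    have hX : Xm m (Multiplicative.toAdd h.left) = 0 := by
      rw [hc1, one_smul] at e2
      exact e2
    have ha := Xm_inj hm2 _ hX
    apply SemidirectProduct.ext
    · rw [SemidirectProduct.one_left]
      exact Multiplicative.toAdd.injective ha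
    · rw [SemidirectProduct.one_right]
      exact cE_eq_one p hp _ hc1
  · rw [eq_bot_iff]
    intro y hy
    rw [Subgroup.mem_bot]
    obtain ⟨g, rfl⟩ := QuotientGroup.mk_surjective y
    have key : ∀ h, ∃ r : ZMod p, g.1 * ((reSL e) (fH p m hme h)).1
        = r • (((reSL e) (fH p m hme h)).1 * g.1) := by
      intro h
      have h1 := hy ((QuotientGroup.mk' _).comp ((reSL e).comp (fH p m hme)) h) ⟨h, rfl⟩
      rw [MonoidHom.comp_apply, QuotientGroup.mk'_apply, MonoidHom.comp_apply,
        ← QuotientGroup.mk_mul, ← QuotientGroup.mk_mul, QuotientGroup.eq,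
        Matrix.SpecialLinearGroup.mem_center_iff] at h1
      obtain ⟨r, -, hr⟩ := h1
      refine ⟨r, ?_⟩
      have h2 : g * (reSL e) (fH p m hme h)
          = (reSL e) (fH p m hme h) * g * (((reSL e) (fH p m hme h) * g)⁻¹ * (g * (reSL e) (fH p m hme h))) := by
        group
      have h3 := congrArg Subtype.val h2
      rw [Matrix.SpecialLinearGroup.coe_mul, Matrix.SpecialLinearGroup.coe_mul,
        Matrix.SpecialLinearGroup.coe_mul, ← hr] at h3
      rw [h3]
      ext i j
      simp [Matrix.mul_apply, Matrix.scalar_apply, Matrix.diagonal_apply, mul_comm]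
    obtain ⟨G', hG'⟩ : ∃ G', G' = (Matrix.reindexAlgEquiv (ZMod p) (ZMod p) e).symm g.1 :=
      ⟨_, rfl⟩
    have hgG : g.1 = Matrix.reindexAlgEquiv (ZMod p) (ZMod p) e G' := by
      rw [hG', AlgEquiv.apply_symm_apply]
    have key' : ∀ h, ∃ r : ZMod p, G' * (fH p m hme h).1 = r • ((fH p m hme h).1 * G') := by
      intro h
      obtain ⟨r, hr⟩ := key h
      refine ⟨r, ?_⟩
      apply (Matrix.reindexAlgEquiv (ZMod p) (ZMod p) e).injective
      rw [map_mul, map_smul, map_mul, ← hgG, ← hcoe]
      exact hr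
    have hdet : G'.det ≠ 0 := by
      have h1 : g.1.det = G'.det := by rw [hgG, Matrix.det_reindexAlgEquiv]
      rw [← h1, g.2]
      exact one_ne_zero
    have hu : ∀ a : Fin 3 → ZMod p, ∃ l : ZMod p, G' * uM m a = l • (uM m a * G') := by
      intro a
      obtain ⟨r, hr⟩ := key' (SemidirectProduct.inl (Multiplicative.ofAdd a))
      refine ⟨r, ?_⟩
      have h1 : (fH p m hme (SemidirectProduct.inl (Multiplicative.ofAdd a))).1 = uM m a := by
        rw [fH_coe, SemidirectProduct.left_inl, SemidirectProduct.right_inl, cE_one, dM_one,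
          Matrix.mul_one]
        rfl
      rw [h1] at hr
      exact hr
    have hd : ∃ μ : ZMod p, G' * dM m (-1) = μ • (dM m (-1) * G') := by
      obtain ⟨r, hr⟩ := key' (SemidirectProduct.inr (-1))
      refine ⟨r, ?_⟩
      have h1 : (fH p m hme (SemidirectProduct.inr (-1))).1 = dM m (-1) := by
        rw [fH_coe, SemidirectProduct.left_inr, SemidirectProduct.right_inr]
        have : cE p (-1) = -1 := by simp [cE]
        rw [this]
        have : Multiplicative.toAdd (1 : Multiplicative (Fin 3 → ZMod p)) = 0 := rfl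
        rw [this, uM_zero, Matrix.one_mul]
      rw [h1] at hr
      exact hr
    obtain ⟨c, hc⟩ := core_scalar (two_ne p hp) G' hdet hu hd
    have hg : g.1 = c • 1 := by
      rw [hgG, hc, map_smul, map_one]
    rw [QuotientGroup.eq_one_iff, Matrix.SpecialLinearGroup.mem_center_iff]
    refine ⟨c, ?_, ?_⟩
    · have h1 := g.2
      rw [hg, Matrix.det_smul, Matrix.det_one, mul_one] at h1
      exact h1
    · rw [hg]
      ext i j
      simp [Matrix.one_apply, Matrix.diagonal_apply]

end final

/-- For every odd prime `p` there is a finite group `H` of order `2p³` which, for infinitely many `n`, embeds in the projective special linear group `PSL(n, p)` as a subgroup with trivial centralizer. -/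
theorem result
    (p : ℕ) [Fact p.Prime] (hp : p ≠ 2) :
    ∃ (H : Type) (_ : Group H) (_ : Finite H), Nat.card H = 2 * p ^ 3 ∧
      ∀ N : ℕ, ∃ n, N ≤ n ∧ ∃ φ : H →* Matrix.ProjectiveSpecialLinearGroup (Fin n) (ZMod p),
        Function.Injective φ ∧ Subgroup.centralizer (φ.range : Set (Matrix.ProjectiveSpecialLinearGroup (Fin n) (ZMod p))) = ⊥ := by
  exact main p hp

end Cfsg.Agent.S2533
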