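import Cfsg.Statements.S2540
import Mathlib
import Cfsg.Agent.S0248
import Cfsg.Agent.S0249

set_option autoImplicit false
open Cfsg

namespace Cfsg.Agent.S2540

/-- Let F be a finite field and n ≥ 1, excluding the case n = 2 with #F ≤ 3. A subgroup of GL_n(F) that is normalized by every element of SL_n(F) either consists of scalar matrices or contains SL_n(F). -/
theorem result {F : Type*} [Field F] [Fintype F] (n : ℕ) (hn : 1 ≤ n) (hex : ¬ (n = 2 ∧ Fintype.card F ≤ 3)) (G : Subgroup (Matrix.GeneralLinearGroup (Fin n) F)) (hG : ∀ s : Matrix.SpecialLinearGroup (Fin n) F, ∀ g ∈ G, (Matrix.SpecialLinearGroup.toGL s) * g * (Matrix.SpecialLinearGroup.toGL s)⁻¹ ∈ G) : (∀ g ∈ G, ∃ c : F, (g : Matrix (Fin n) (Fin n) F) = c • (1 : Matrix (Fin n) (Fin n) F)) ∨ (Matrix.SpecialLinearGroup.toGL : Matrix.SpecialLinearGroup (Fin n) F →* _).range ≤ G := by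
  classical
  rcases Nat.lt_or_ge n 2 with h1 | h2
  · left
    intro g _
    have hn1 : n = 1 := by omega
    subst hn1
    refine ⟨(g : Matrix (Fin 1) (Fin 1) F) 0 0, ?_⟩
    ext i j
    fin_cases i
    fin_cases j
    simp
  · have hperf : commutator (Matrix.SpecialLinearGroup (Fin n) F) = ⊤ := by
      rcases Nat.lt_or_ge n 3 with h3 | h3
      · have hn2 : n = 2 := by omega
        subst hn2
        have hcard : 4 ≤ Fintype.card F := by
          by_contra h
          exact hex ⟨rfl, by omega⟩
        obtain ⟨a, ha, hasq⟩ : ∃ a : F, a ≠ 0 ∧ a ^ 2 ≠ 1 := by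
          by_contra hno
          push Not at hno
          have hsub : (Finset.univ : Finset F) ⊆ {0, 1, -1} := by
            intro a _
            by_cases ha : a = 0
            · simp [ha]
            · have h1 := hno a ha
              rw [sq] at h1
              rcases mul_self_eq_one_iff.mp h1 with h | h
              · simp [h]
              · simp [h]
          have h2 := Finset.card_le_card hsub
          have h3 : ({0, 1, -1} : Finset F).card ≤ 3 := Finset.card_le_three
          rw [Finset.card_univ] at h2
          omega
        exact Matrix.SL2.commutator_eq_top ha hasq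
      · exact Cfsg.Agent.S0248.result n h3
    have hsimple : IsSimpleGroup (Matrix.ProjectiveSpecialLinearGroup (Fin n) F) := by
      rcases Nat.lt_or_ge n 3 with h3 | h3
      · have hn2 : n = 2 := by omega
        subst hn2
        apply Matrix.ProjectiveSpecialLinearGroup.rank_two_simple
        rw [Nat.card_eq_fintype_card]
        by_contra h
        exact hex ⟨rfl, by omega⟩
      · exact Cfsg.Agent.S0249.result n h3
    -- the subgroup of SL_n mapping into G
    have hNn : (G.comap (Matrix.SpecialLinearGroup.toGL :
        Matrix.SpecialLinearGroup (Fin n) F →* GL (Fin n) F)).Normal := ⟨fun x hx s => by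
      show Matrix.SpecialLinearGroup.toGL (s * x * s⁻¹) ∈ G
      rw [map_mul, map_mul, map_inv]
      exact hG s _ hx⟩
    have hmapn : ((G.comap (Matrix.SpecialLinearGroup.toGL :
        Matrix.SpecialLinearGroup (Fin n) F →* GL (Fin n) F)).map
        (QuotientGroup.mk' (Subgroup.center (Matrix.SpecialLinearGroup (Fin n) F)))).Normal :=
      Subgroup.Normal.map hNn _ (QuotientGroup.mk'_surjective _)
    rcases hmapn.eq_bot_or_eq_top with hbot | htop
    · left
      have hNZ : G.comap (Matrix.SpecialLinearGroup.toGL :
          Matrix.SpecialLinearGroup (Fin n) F →* GL (Fin n) F) ≤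
          Subgroup.center (Matrix.SpecialLinearGroup (Fin n) F) := by
        intro x hx
        have h1 : QuotientGroup.mk' (Subgroup.center (Matrix.SpecialLinearGroup (Fin n) F)) x ∈
            (G.comap (Matrix.SpecialLinearGroup.toGL :
              Matrix.SpecialLinearGroup (Fin n) F →* GL (Fin n) F)).map
            (QuotientGroup.mk' (Subgroup.center (Matrix.SpecialLinearGroup (Fin n) F))) :=
          Subgroup.mem_map_of_mem _ hx
        rw [hbot, Subgroup.mem_bot] at h1
        exact (QuotientGroup.eq_one_iff x).mp h1
      -- H = image of SL_n in GL_n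
      have hHmem : ∀ x : GL (Fin n) F, x ∈ (Matrix.SpecialLinearGroup.toGL :
          Matrix.SpecialLinearGroup (Fin n) F →* GL (Fin n) F).range ↔
          Matrix.GeneralLinearGroup.det x = 1 := by
        intro x
        constructor
        · rintro ⟨s, rfl⟩
          apply Units.ext
          show (s : Matrix (Fin n) (Fin n) F).det = 1
          exact s.2
        · intro hx
          have hx' : (x : Matrix (Fin n) (Fin n) F).det = 1 := congrArg Units.val hx
          exact ⟨⟨(x : Matrix (Fin n) (Fin n) F), hx'⟩, Units.ext rfl⟩
      have hHH : ⁅(Matrix.SpecialLinearGroup.toGL :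
          Matrix.SpecialLinearGroup (Fin n) F →* GL (Fin n) F).range,
          (Matrix.SpecialLinearGroup.toGL :
          Matrix.SpecialLinearGroup (Fin n) F →* GL (Fin n) F).range⁆ =
          (Matrix.SpecialLinearGroup.toGL :
          Matrix.SpecialLinearGroup (Fin n) F →* GL (Fin n) F).range := by
        rw [MonoidHom.range_eq_map, ← Subgroup.map_commutator, ← commutator_def, hperf]
      have hGH_G : ⁅G, (Matrix.SpecialLinearGroup.toGL :
          Matrix.SpecialLinearGroup (Fin n) F →* GL (Fin n) F).range⁆ ≤ G := by
        rw [Subgroup.commutator_le]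
        rintro g hg _ ⟨s, rfl⟩
        rw [commutatorElement_def, mul_assoc, mul_assoc]
        apply G.mul_mem hg
        rw [← mul_assoc]
        exact hG s _ (G.inv_mem hg)
      have hGH_H : ⁅G, (Matrix.SpecialLinearGroup.toGL :
          Matrix.SpecialLinearGroup (Fin n) F →* GL (Fin n) F).range⁆ ≤
          (Matrix.SpecialLinearGroup.toGL :
          Matrix.SpecialLinearGroup (Fin n) F →* GL (Fin n) F).range := by
        rw [Subgroup.commutator_le]
        intro g _ h _
        rw [hHmem, map_commutatorElement, commutatorElement_eq_one_iff_commute]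
        exact Commute.all _ _
      have hcent : ⁅⁅G, (Matrix.SpecialLinearGroup.toGL :
          Matrix.SpecialLinearGroup (Fin n) F →* GL (Fin n) F).range⁆,
          (Matrix.SpecialLinearGroup.toGL :
          Matrix.SpecialLinearGroup (Fin n) F →* GL (Fin n) F).range⁆ = ⊥ := by
        rw [Subgroup.commutator_eq_bot_iff_le_centralizer]
        intro x hx
        obtain ⟨s, rfl⟩ := hGH_H hx
        have hs : s ∈ Subgroup.center (Matrix.SpecialLinearGroup (Fin n) F) := hNZ (hGH_G hx)
        rw [Subgroup.mem_centralizer_iff]
        rintro _ ⟨t, rfl⟩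
        rw [← map_mul, ← map_mul, (Subgroup.mem_center_iff.mp hs t)]
      have hcent' : ⁅⁅(Matrix.SpecialLinearGroup.toGL :
          Matrix.SpecialLinearGroup (Fin n) F →* GL (Fin n) F).range, G⁆,
          (Matrix.SpecialLinearGroup.toGL :
          Matrix.SpecialLinearGroup (Fin n) F →* GL (Fin n) F).range⁆ = ⊥ := by
        rw [Subgroup.commutator_comm _ G]
        exact hcent
      have h3 := Subgroup.commutator_commutator_eq_bot_of_rotate hcent' hcent
      rw [hHH, Subgroup.commutator_comm, Subgroup.commutator_eq_bot_iff_le_centralizer] at h3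
      intro g hg
      have hgc := h3 hg
      rw [Subgroup.mem_centralizer_iff] at hgc
      have hsc : (g : Matrix (Fin n) (Fin n) F) ∈ Set.range (Matrix.scalar (Fin n)) := by
        apply Matrix.mem_range_scalar_of_commute_transvectionStruct
        intro t
        have h4 := hgc (Matrix.SpecialLinearGroup.toGL
          (Matrix.SpecialLinearGroup.transvection t.hij t.c)) ⟨_, rfl⟩
        exact congrArg Units.val h4
      obtain ⟨c, hc⟩ := hsc
      refine ⟨c, ?_⟩
      rw [← hc]
      ext i j
      simp [Matrix.one_apply, Matrix.diagonal_apply]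
    · right
      have hsup : G.comap (Matrix.SpecialLinearGroup.toGL :
          Matrix.SpecialLinearGroup (Fin n) F →* GL (Fin n) F) ⊔
          Subgroup.center (Matrix.SpecialLinearGroup (Fin n) F) = ⊤ := by
        rw [eq_top_iff]
        intro s _
        have h1 : QuotientGroup.mk' (Subgroup.center (Matrix.SpecialLinearGroup (Fin n) F)) s ∈
            (G.comap (Matrix.SpecialLinearGroup.toGL :
              Matrix.SpecialLinearGroup (Fin n) F →* GL (Fin n) F)).map
            (QuotientGroup.mk' (Subgroup.center (Matrix.SpecialLinearGroup (Fin n) F))) := by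
          rw [htop]
          trivial
        obtain ⟨x, hx, hxs⟩ := h1
        have hz : x⁻¹ * s ∈ Subgroup.center (Matrix.SpecialLinearGroup (Fin n) F) :=
          QuotientGroup.eq.mp hxs
        have h2 : s = x * (x⁻¹ * s) := by group
        rw [h2]
        exact Subgroup.mul_mem_sup hx hz
      have hcomm := hNn.commutator_le_of_self_sup_commutative_eq_top hsup inferInstance
      rw [hperf] at hcomm
      rintro _ ⟨s, rfl⟩
      exact hcomm (Subgroup.mem_top s)

end Cfsg.Agent.S2540
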