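import Cfsg.Statements.S2541

set_option autoImplicit false
open Cfsg

namespace Cfsg.Agent.S2541

/-- Let F be a field with 9 elements. The symmetric group S_6 is not isomorphic to PGL_2(F) (although both have index-2 subgroups isomorphic to A_6). -/
theorem result {F : Type*} [Field F] [Fintype F] (hF : Fintype.card F = 9) : ¬ Nonempty (Equiv.Perm (Fin 6) ≃* Matrix.ProjGenLinGroup (Fin 2) F) := by
  classical
  rintro ⟨e⟩
  obtain ⟨ζ, hζ⟩ := IsCyclic.exists_generator (α := Fˣ)
  have hord : orderOf ζ = 8 := by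
    rw [orderOf_eq_card_of_forall_mem_zpowers hζ, Nat.card_eq_fintype_card, Fintype.card_units, hF]
  let φ : Fˣ →* GL (Fin 2) F :=
    Units.map ((Matrix.diagonalRingHom (Fin 2) F).toMonoidHom.comp (MonoidHom.mulSingle (fun _ : Fin 2 => F) 0))
  let ψ : Fˣ →* Matrix.ProjGenLinGroup (Fin 2) F := Matrix.ProjGenLinGroup.mk.comp φ
  have hinj : Function.Injective ψ := by
    rw [injective_iff_map_eq_one]
    intro u hu
    have h1 : φ u ∈ Subgroup.center (GL (Fin 2) F) := Matrix.ProjGenLinGroup.mk_eq_one.mp hu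
    rw [Matrix.GeneralLinearGroup.mem_center_iff_val_mem_range_scalar] at h1
    obtain ⟨a, ha⟩ := h1
    have h00 := congrFun (congrFun ha 0) 0
    have h11 := congrFun (congrFun ha 1) 1
    simp [φ] at h00 h11
    apply Units.ext
    rw [← h00, h11]; rfl
  have hy : orderOf (ψ ζ) = 8 := by rw [orderOf_injective ψ hinj, hord]
  have hσ : orderOf (e.symm (ψ ζ)) = 8 := by rw [MulEquiv.orderOf_eq, hy]
  have hdvd : orderOf (e.symm (ψ ζ)) ∣ 60 := by
    rw [← Equiv.Perm.lcm_cycleType, Multiset.lcm_dvd]
    intro b hb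
    have h2 : 2 ≤ b := Equiv.Perm.two_le_of_mem_cycleType hb
    have h6 : b ≤ 6 := by
      have := Equiv.Perm.le_card_support_of_mem_cycleType hb
      have h' := Finset.card_le_univ (e.symm (ψ ζ)).support
      simp at h'
      omega
    interval_cases b <;> decide
  rw [hσ] at hdvd
  revert hdvd
  decide

end Cfsg.Agent.S2541
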