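import Mathlib
import Cfsg.Statements.S2542
import Cfsg.Agent.S0804
import Cfsg.Agent.S0675

set_option autoImplicit false
open Cfsg

namespace Cfsg.Agent.S2542

open Cfsg.Agent.Lib.Helper15 Cfsg.Agent.Lib.Helper16

theorem card_psl11 {F : Type*} [Field F] [Fintype F] (hF : Fintype.card F = 11) :
    Nat.card (Matrix.ProjectiveSpecialLinearGroup (Fin 2) F) = 660 := by
  classical
  have : Fintype (Matrix.ProjectiveSpecialLinearGroup (Fin 2) F) := Fintype.ofFinite _
  have h2 : (2 : F) ≠ 0 := by
    intro h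
    have hchar : ringChar F = 2 := by
      have h3 : ringChar F ∣ 2 := by
        apply (ringChar.spec F 2).mp
        exact_mod_cast h
      rcases (Nat.dvd_prime Nat.prime_two).mp h3 with h4 | h4
      · exfalso
        exact CharP.ringChar_ne_one (R := F) h4
      · exact h4
    have := FiniteField.even_card_of_char_two hchar
    rw [hF] at this
    omega
  have e4 : Nat.card (Matrix.SpecialLinearGroup (Fin 2) F)
      = 2 * Nat.card (Matrix.ProjectiveSpecialLinearGroup (Fin 2) F) := by
    have h5 := Cfsg.Agent.S0807.card_fiber_sum' (pslMk F)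
    simp only [Cfsg.Agent.S0807.card_fibre h2] at h5
    rw [h5, Finset.sum_const, Finset.card_univ, smul_eq_mul, Nat.card_eq_fintype_card, mul_comm]
  rw [card_SL2_eq, hF] at e4
  omega

theorem alt5_not_comm : ¬ ∀ a b : alternatingGroup (Fin 5), a * b = b * a := by
  intro h
  have h1 : (Equiv.swap (0 : Fin 5) 1 * Equiv.swap 1 2) ∈ alternatingGroup (Fin 5) := by
    rw [Equiv.Perm.mem_alternatingGroup]; decide
  have h2 : (Equiv.swap (0 : Fin 5) 1 * Equiv.swap 1 3) ∈ alternatingGroup (Fin 5) := by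
    rw [Equiv.Perm.mem_alternatingGroup]; decide
  have h3 := h ⟨_, h1⟩ ⟨_, h2⟩
  have h4 := congrArg (fun p : alternatingGroup (Fin 5) => (p : Equiv.Perm (Fin 5)) 0) h3
  have h5 : ((Equiv.swap (0 : Fin 5) 1 * Equiv.swap 1 2
      * (Equiv.swap (0 : Fin 5) 1 * Equiv.swap 1 3) : Equiv.Perm (Fin 5))) 0
      = ((Equiv.swap (0 : Fin 5) 1 * Equiv.swap 1 3
      * (Equiv.swap (0 : Fin 5) 1 * Equiv.swap 1 2) : Equiv.Perm (Fin 5))) 0 := h4
  revert h5
  decide
/-- Let F be a field with 11 elements. PSL_2(F) has a subgroup H of index 11 isomorphic to the alternating group A_5, and the action of PSL_2(F) on the cosets of H is 2-transitive (of degree 11). -/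
theorem result {F : Type*} [Field F] [Fintype F] (hF : Fintype.card F = 11) : ∃ H : Subgroup (Matrix.ProjectiveSpecialLinearGroup (Fin 2) F), H.index = 11 ∧ Nonempty (H ≃* alternatingGroup (Fin 5)) ∧ MulAction.IsMultiplyPretransitive (Matrix.ProjectiveSpecialLinearGroup (Fin 2) F) ((Matrix.ProjectiveSpecialLinearGroup (Fin 2) F) ⧸ H) 2 := by
  classical
  obtain ⟨H, ⟨e⟩⟩ := (Cfsg.Agent.S0804.result (F := F) hF).mpr (by norm_num)
  have hG := card_psl11 hF
  have hH : Nat.card H = 60 := by rw [Nat.card_congr e.toEquiv, Cfsg.Agent.S0804.card_alt5]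
  have hidx : H.index = 11 := by
    have h := H.index_mul_card
    rw [hH, hG] at h
    omega
  refine ⟨H, hidx, ⟨e⟩, ?_⟩
  have hsimple : IsSimpleGroup (Matrix.ProjectiveSpecialLinearGroup (Fin 2) F) :=
    Matrix.ProjectiveSpecialLinearGroup.rank_two_simple
      (by rw [Nat.card_eq_fintype_card, hF]; norm_num)
  have : Fintype ((Matrix.ProjectiveSpecialLinearGroup (Fin 2) F) ⧸ H) := Fintype.ofFinite _
  have hα : Fintype.card ((Matrix.ProjectiveSpecialLinearGroup (Fin 2) F) ⧸ H) = 11 := by
    rw [← Nat.card_eq_fintype_card]; exact hidx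
  obtain ⟨φ, hφ⟩ : ∃ φ : Matrix.ProjectiveSpecialLinearGroup (Fin 2) F →*
      Equiv.Perm ((Matrix.ProjectiveSpecialLinearGroup (Fin 2) F) ⧸ H),
      ∀ g a, φ g a = g • a :=
    ⟨MulAction.toPermHom _ _, fun g a => rfl⟩
  have htrans : MulAction.IsPretransitive φ.range
      ((Matrix.ProjectiveSpecialLinearGroup (Fin 2) F) ⧸ H) := by
    refine ⟨fun a b => ?_⟩
    obtain ⟨g, hg⟩ := MulAction.exists_smul_eq (Matrix.ProjectiveSpecialLinearGroup (Fin 2) F) a b
    exact ⟨⟨φ g, g, rfl⟩, (hφ g a).trans hg⟩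
  rcases Cfsg.Agent.S0675.result (α := (Matrix.ProjectiveSpecialLinearGroup (Fin 2) F) ⧸ H)
    (by rw [hα]; norm_num) φ.range with hs | h2t
  · exfalso
    have hker : φ.ker = ⊥ := by
      rcases Subgroup.Normal.eq_bot_or_eq_top (inferInstance : φ.ker.Normal) with h | h
      · exact h
      · exfalso
        obtain ⟨a, b, hab⟩ : ∃ a b : (Matrix.ProjectiveSpecialLinearGroup (Fin 2) F) ⧸ H, a ≠ b := by
          have h1 : 1 < Fintype.card ((Matrix.ProjectiveSpecialLinearGroup (Fin 2) F) ⧸ H) := by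
            rw [hα]; norm_num
          exact Fintype.exists_pair_of_one_lt_card h1
        obtain ⟨g, hg⟩ := MulAction.exists_smul_eq
          (Matrix.ProjectiveSpecialLinearGroup (Fin 2) F) a b
        have hgk : g ∈ φ.ker := by rw [h]; exact Subgroup.mem_top g
        rw [MonoidHom.mem_ker] at hgk
        apply hab
        rw [← hg, ← hφ, hgk]
        rfl
    have hinj : Function.Injective φ := (MonoidHom.ker_eq_bot_iff φ).mp hker
    have hsolvG : Group.IsSolvable (Matrix.ProjectiveSpecialLinearGroup (Fin 2) F) :=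
      Group.isSolvable_of_isSolvable_injective (f := φ.rangeRestrict)
        (by
          intro x y hxy
          apply hinj
          exact congrArg Subtype.val hxy)
    have hcomm := (IsSimpleGroup.comm_iff_isSolvable).mpr hsolvG
    apply alt5_not_comm
    intro a b
    have h1 := hcomm ((e.symm a : H) : Matrix.ProjectiveSpecialLinearGroup (Fin 2) F)
      ((e.symm b : H) : Matrix.ProjectiveSpecialLinearGroup (Fin 2) F)
    apply e.symm.injective
    apply Subtype.ext
    rw [map_mul, map_mul, Subgroup.coe_mul, Subgroup.coe_mul]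
    exact h1
  · rw [MulAction.isMultiplyPretransitive_iff] at h2t ⊢
    intro x y
    obtain ⟨⟨g', g, rfl⟩, hg⟩ := h2t x y
    refine ⟨g, ?_⟩
    ext i
    have h1 := congrArg (fun f : Fin 2 ↪ (Matrix.ProjectiveSpecialLinearGroup (Fin 2) F) ⧸ H => f i) hg
    exact (hφ g (x i)).symm.trans h1

end Cfsg.Agent.S2542
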