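import Mathlib
import Cfsg.Statements.S2551
import Cfsg.Agent.S0256

set_option autoImplicit false
open Cfsg

namespace Cfsg.Agent.S2551

/-! ## Counting in a permutation group -/

theorem mem_orb {Ω : Type*} (K : Subgroup (Equiv.Perm Ω)) (a b : Ω) :
    b ∈ MulAction.orbit K a ↔ ∃ k ∈ K, k a = b := by
  constructor
  · rintro ⟨g, rfl⟩
    exact ⟨g.1, g.2, rfl⟩
  · rintro ⟨k, hk, rfl⟩
    exact ⟨⟨k, hk⟩, rfl⟩

theorem pinv_apply {Ω : Type*} (σ : Equiv.Perm Ω) (x : Ω) : σ⁻¹ (σ x) = x :=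
  Equiv.Perm.inv_eq_iff_eq.mpr rfl

theorem papply_inv {Ω : Type*} (σ : Equiv.Perm Ω) (x : Ω) : σ (σ⁻¹ x) = x :=
  Equiv.Perm.eq_inv_iff_eq.mp rfl

/-- The orbit congruence for an element of prime order. -/
theorem orbit_modEq {Ω : Type*} [Finite Ω] (K : Subgroup (Equiv.Perm Ω)) (σ : Equiv.Perm Ω)
    (hσK : σ ∈ K) (p : ℕ) [Fact p.Prime] (hσ : orderOf σ = p) (a : Ω) :
    ∃ Z : Subgroup K, (⟨σ, hσK⟩ : K) ∈ Z ∧
      (MulAction.orbit K a).ncard ≡
        Nat.card (MulAction.fixedPoints Z (MulAction.orbit K a)) [MOD p] := by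
  have hs : orderOf (⟨σ, hσK⟩ : K) = p := by
    rw [← hσ]; exact (Subgroup.orderOf_coe (⟨σ, hσK⟩ : K)).symm
  have hZ : IsPGroup p (Subgroup.zpowers (⟨σ, hσK⟩ : K)) :=
    IsPGroup.of_card (n := 1) (by rw [Nat.card_zpowers, hs, pow_one])
  have h := hZ.card_modEq_card_fixedPoints (MulAction.orbit K a)
  rw [Nat.card_coe_set_eq] at h
  exact ⟨_, Subgroup.mem_zpowers _, h⟩

theorem orbit_dvd {Ω : Type*} [Finite Ω] (K : Subgroup (Equiv.Perm Ω)) (σ : Equiv.Perm Ω)
    (hσK : σ ∈ K) (p : ℕ) [Fact p.Prime] (hσ : orderOf σ = p) (a : Ω)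
    (hno : ∀ x ∈ MulAction.orbit K a, σ x ≠ x) : p ∣ (MulAction.orbit K a).ncard := by
  obtain ⟨Z, hZ, h⟩ := orbit_modEq K σ hσK p hσ a
  have hemp : IsEmpty (MulAction.fixedPoints Z (MulAction.orbit K a)) := by
    constructor
    intro x
    have h1 := x.2 ⟨⟨σ, hσK⟩, hZ⟩
    exact hno x.1.1 x.1.2 (congrArg Subtype.val h1)
  rw [Nat.card_of_isEmpty] at h
  exact (Nat.modEq_zero_iff_dvd).1 h

theorem orbit_mod_le {Ω : Type*} [Finite Ω] (K : Subgroup (Equiv.Perm Ω)) (σ : Equiv.Perm Ω)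
    (hσK : σ ∈ K) (p : ℕ) [Fact p.Prime] (hσ : orderOf σ = p) (a : Ω)
    (hsub : ∀ x y, σ x = x → σ y = y → x = y) : (MulAction.orbit K a).ncard % p ≤ 1 := by
  obtain ⟨Z, hZ, h⟩ := orbit_modEq K σ hσK p hσ a
  have hsing : Subsingleton (MulAction.fixedPoints Z (MulAction.orbit K a)) := by
    constructor
    intro x y
    have h1 := x.2 ⟨⟨σ, hσK⟩, hZ⟩
    have h2 := y.2 ⟨⟨σ, hσK⟩, hZ⟩
    exact Subtype.ext (Subtype.ext (hsub x.1.1 y.1.1 (congrArg Subtype.val h1)
      (congrArg Subtype.val h2)))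
  have hle : Nat.card (MulAction.fixedPoints Z (MulAction.orbit K a)) ≤ 1 :=
    Finite.card_le_one_iff_subsingleton.2 hsing
  unfold Nat.ModEq at h
  rw [h]
  exact le_trans (Nat.mod_le _ _) hle

/-- A group of order 2520 of permutations of fifteen points in which the elements of order five
fix no point and the elements of order seven fix at most one point is doubly transitive. -/
theorem two_trans {Ω : Type*} [Fintype Ω] [DecidableEq Ω] (hΩ : Fintype.card Ω = 15)
    (H : Subgroup (Equiv.Perm Ω)) (hH : Nat.card H = 2520)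
    (h5 : ∀ σ ∈ H, orderOf σ = 5 → ∀ x, σ x ≠ x)
    (h7 : ∀ σ ∈ H, orderOf σ = 7 → ∀ x y, σ x = x → σ y = y → x = y) :
    ∀ c d c' d' : Ω, c ≠ d → c' ≠ d' → ∃ h ∈ H, h c = c' ∧ h d = d' := by
  classical
  have hp5 : Fact (Nat.Prime 5) := ⟨by norm_num⟩
  have hp7 : Fact (Nat.Prime 7) := ⟨by norm_num⟩
  have hp2 : Fact (Nat.Prime 2) := ⟨by norm_num⟩
  have hcΩ : Nat.card Ω = 15 := by rw [Nat.card_eq_fintype_card, hΩ]
  obtain ⟨y, hy⟩ := exists_prime_orderOf_dvd_card' (G := H) 5 (by rw [hH]; norm_num)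
  obtain ⟨z, hz⟩ := exists_prime_orderOf_dvd_card' (G := H) 7 (by rw [hH]; norm_num)
  obtain ⟨t, ht⟩ := exists_prime_orderOf_dvd_card' (G := H) 2 (by rw [hH]; norm_num)
  have hy' : orderOf (y : Equiv.Perm Ω) = 5 := by rw [Subgroup.orderOf_coe]; exact hy
  have hz' : orderOf (z : Equiv.Perm Ω) = 7 := by rw [Subgroup.orderOf_coe]; exact hz
  have ht' : orderOf (t : Equiv.Perm Ω) = 2 := by rw [Subgroup.orderOf_coe]; exact ht
  -- transitivity
  have horb : ∀ a : Ω, (MulAction.orbit H a).ncard = 15 := by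
    intro a
    have h1 : 5 ∣ (MulAction.orbit H a).ncard :=
      orbit_dvd H y y.2 5 hy' a (fun x _ => h5 y y.2 hy' x)
    have h2 : (MulAction.orbit H a).ncard % 7 ≤ 1 :=
      orbit_mod_le H z z.2 7 hz' a (h7 z z.2 hz')
    have h3 : (MulAction.orbit H a).ncard ≤ 15 := by
      rw [← hcΩ, ← Set.ncard_univ]; exact Set.ncard_le_ncard (Set.subset_univ _)
    have h4 : 0 < (MulAction.orbit H a).ncard := by
      rw [Set.ncard_pos]; exact ⟨a, MulAction.mem_orbit_self a⟩
    generalize (MulAction.orbit H a).ncard = n at h1 h2 h3 h4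
    interval_cases n <;> omega
  have htrans : ∀ a x : Ω, ∃ h ∈ H, h a = x := by
    intro a x
    have h6 : MulAction.orbit H a = Set.univ :=
      Set.eq_of_subset_of_ncard_le (Set.subset_univ _) (by rw [Set.ncard_univ, hcΩ, horb a])
    have h7' : x ∈ MulAction.orbit H a := by rw [h6]; trivial
    exact (mem_orb H a x).1 h7'
  -- the involution moves a point
  have ht1 : (t : Equiv.Perm Ω) ≠ 1 := by
    intro h
    rw [h, orderOf_one] at ht'
    norm_num at ht'
  obtain ⟨a, ha⟩ : ∃ a, (t : Equiv.Perm Ω) a ≠ a := by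
    by_contra hne
    push Not at hne
    exact ht1 (Equiv.ext hne)
  obtain ⟨b, hb⟩ : ∃ b, b = (t : Equiv.Perm Ω) a := ⟨_, rfl⟩
  have htb : (t : Equiv.Perm Ω) b = a := by
    have h2 : (t : Equiv.Perm Ω) * (t : Equiv.Perm Ω) = 1 := by
      rw [← pow_two, ← ht']; exact pow_orderOf_eq_one _
    have h3 := DFunLike.congr_fun h2 a
    rw [hb]
    exact h3
  have hab : a ≠ b := fun h => ha (by rw [← hb]; exact h.symm)
  -- the stabiliser of a
  obtain ⟨K, hK⟩ : ∃ K : Subgroup (Equiv.Perm Ω),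
      K = H ⊓ MulAction.stabilizer (Equiv.Perm Ω) a := ⟨_, rfl⟩
  have hKmem : ∀ k, k ∈ K ↔ k ∈ H ∧ k a = a := fun k => by
    rw [hK, Subgroup.mem_inf, MulAction.mem_stabilizer_iff]; rfl
  have hKH : K ≤ H := by rw [hK]; exact inf_le_left
  have hKcard : Nat.card K = 168 := by
    have h1 := MulAction.index_stabilizer H a
    have h2 := Subgroup.card_mul_index (MulAction.stabilizer H a)
    have h4 : Nat.card (MulAction.stabilizer H a) = Nat.card K := by
      have h5 : (MulAction.stabilizer H a).map H.subtype = K := by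
        ext k
        constructor
        · rintro ⟨g, hg, rfl⟩
          exact (hKmem _).2 ⟨g.2, hg⟩
        · intro hk
          obtain ⟨hkH, hka⟩ := (hKmem k).1 hk
          exact ⟨⟨k, hkH⟩, hka, rfl⟩
      rw [← h5, Subgroup.card_map_of_injective H.subtype_injective]
    rw [h1, horb a, h4, hH] at h2
    omega
  obtain ⟨z1, hz1⟩ := exists_prime_orderOf_dvd_card' (G := K) 7 (by rw [hKcard]; norm_num)
  have hz1' : orderOf (z1 : Equiv.Perm Ω) = 7 := by rw [Subgroup.orderOf_coe]; exact hz1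
  have hz1a : (z1 : Equiv.Perm Ω) a = a := ((hKmem _).1 z1.2).2
  have hnota : ∀ x ∈ MulAction.orbit K b, x ≠ a := by
    intro x hx hxa
    obtain ⟨k, hk, rfl⟩ := (mem_orb K b x).1 hx
    have h1 := ((hKmem k).1 hk).2
    exact hab (k.injective (h1.trans hxa.symm))
  have h7dvd : 7 ∣ (MulAction.orbit K b).ncard :=
    orbit_dvd K z1 z1.2 7 hz1' b (fun x hx hfix =>
      hnota x hx (h7 z1 (hKH z1.2) hz1' x a hfix hz1a))
  have hsub : MulAction.orbit K b ⊆ (Set.univ \ {a} : Set Ω) :=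
    fun x hx => ⟨trivial, hnota x hx⟩
  have hc14 : (Set.univ \ {a} : Set Ω).ncard = 14 := by
    rw [Set.ncard_sdiff_singleton_of_mem (Set.mem_univ a), Set.ncard_univ, hcΩ]
  have hle14 : (MulAction.orbit K b).ncard ≤ 14 := by
    rw [← hc14]; exact Set.ncard_le_ncard hsub
  have hpos : 0 < (MulAction.orbit K b).ncard := by
    rw [Set.ncard_pos]; exact ⟨b, MulAction.mem_orbit_self b⟩
  have h14 : (MulAction.orbit K b).ncard = 14 := by
    by_contra hne
    have h7c : (MulAction.orbit K b).ncard = 7 := by omega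
    let Γ : SimpleGraph Ω :=
      { Adj := fun x y => ∃ h ∈ H, h a = x ∧ h b = y
        symm := ⟨by
          rintro x y ⟨h, hh, rfl, rfl⟩
          refine ⟨h * t, H.mul_mem hh t.2, ?_, ?_⟩
          · show h ((t : Equiv.Perm Ω) a) = h b
            rw [← hb]
          · show h ((t : Equiv.Perm Ω) b) = h a
            rw [htb]⟩
        loopless := ⟨by
          rintro x ⟨h, hh, h1, h2⟩
          exact hab (h.injective (h1.trans h2.symm))⟩ }
    have hdeg : ∀ x, Γ.degree x = 7 := by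
      intro x
      obtain ⟨h0, hh0, rfl⟩ := htrans a x
      have hd : Γ.degree (h0 a) = (Γ.neighborSet (h0 a)).ncard := by
        rw [Set.ncard_eq_toFinset_card', Set.toFinset_card,
          SimpleGraph.card_neighborSet_eq_degree]
      have hn : Γ.neighborSet (h0 a) = (fun y => h0 y) '' (MulAction.orbit K b) := by
        ext y
        constructor
        · rintro ⟨h, hh, h1, rfl⟩
          refine ⟨h0⁻¹ (h b), (mem_orb K b _).2 ⟨h0⁻¹ * h,
            (hKmem _).2 ⟨H.mul_mem (H.inv_mem hh0) hh, ?_⟩, rfl⟩, ?_⟩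
          · show h0⁻¹ (h a) = a
            rw [h1]; exact pinv_apply h0 a
          · exact papply_inv h0 (h b)
        · rintro ⟨w, hw, rfl⟩
          obtain ⟨k, hk, rfl⟩ := (mem_orb K b w).1 hw
          refine ⟨h0 * k, H.mul_mem hh0 (hKH hk), ?_, rfl⟩
          show h0 (k a) = h0 a
          rw [((hKmem k).1 hk).2]
      rw [hd, hn, Set.ncard_image_of_injective _ h0.injective, h7c]
    have hsum := Γ.sum_degrees_eq_twice_card_edges
    simp only [hdeg, Finset.sum_const, Finset.card_univ, hΩ, smul_eq_mul] at hsum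
    omega
  have hK14 : ∀ x, x ≠ a → ∃ k ∈ K, k b = x := by
    intro x hx
    have h1 : MulAction.orbit K b = (Set.univ \ {a} : Set Ω) :=
      Set.eq_of_subset_of_ncard_le hsub (by rw [hc14, h14])
    have h2 : x ∈ MulAction.orbit K b := by rw [h1]; exact ⟨trivial, hx⟩
    exact (mem_orb K b x).1 h2
  have hpair : ∀ c d : Ω, c ≠ d → ∃ g ∈ H, g a = c ∧ g b = d := by
    intro c d hcd
    obtain ⟨h1, hh1, hc⟩ := htrans a c
    have hx : h1⁻¹ d ≠ a := by
      intro h
      apply hcd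
      rw [← hc, ← h]
      exact papply_inv h1 d
    obtain ⟨k, hk, hkb⟩ := hK14 _ hx
    refine ⟨h1 * k, H.mul_mem hh1 (hKH hk), ?_, ?_⟩
    · show h1 (k a) = c
      rw [((hKmem k).1 hk).2, hc]
    · show h1 (k b) = d
      rw [hkb]; exact papply_inv h1 d
  intro c d c' d' hcd hcd'
  obtain ⟨g1, hg1, hg1a, hg1b⟩ := hpair c d hcd
  obtain ⟨g2, hg2, hg2a, hg2b⟩ := hpair c' d' hcd'
  refine ⟨g2 * g1⁻¹, H.mul_mem hg2 (H.inv_mem hg1), ?_, ?_⟩
  · show g2 (g1⁻¹ c) = c'
    rw [← hg1a, pinv_apply, hg2a]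
  · show g2 (g1⁻¹ d) = d'
    rw [← hg1b, pinv_apply, hg2b]

/-! ## Fixed vectors -/

section Lin

variable {F : Type*} [Field F]

/-- The nonzero vectors. -/
abbrev Om (F : Type*) [Field F] : Type _ := {v : Fin 4 → F // v ≠ 0}

/-- The action of the general linear group on the nonzero vectors. -/
@[reducible] def act (F : Type*) [Field F] : MulAction (GL (Fin 4) F) (Om F) where
  smul g v := ⟨(g : Matrix (Fin 4) (Fin 4) F).mulVec v.1, fun h => v.2 (by
    have h1 : ((g⁻¹ : GL (Fin 4) F) : Matrix (Fin 4) (Fin 4) F).mulVec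
        ((g : Matrix (Fin 4) (Fin 4) F).mulVec v.1) = 0 := by
      rw [h, Matrix.mulVec_zero]
    rw [Matrix.mulVec_mulVec, ← Units.val_mul, inv_mul_cancel, Units.val_one,
      Matrix.one_mulVec] at h1
    exact h1)⟩
  one_smul v := Subtype.ext (Matrix.one_mulVec v.1)
  mul_smul g h v := Subtype.ext (by
    show ((g * h : GL (Fin 4) F) : Matrix (Fin 4) (Fin 4) F).mulVec v.1
      = (g : Matrix (Fin 4) (Fin 4) F).mulVec
        ((h : Matrix (Fin 4) (Fin 4) F).mulVec v.1)
    rw [Matrix.mulVec_mulVec, Units.val_mul])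

/-- The permutation representation on the nonzero vectors. -/
def rho (F : Type*) [Field F] : GL (Fin 4) F →* Equiv.Perm (Om F) :=
  @MulAction.toPermHom _ _ _ (act F)

theorem rho_apply (g : GL (Fin 4) F) (v : Om F) :
    ((rho F g v : Om F) : Fin 4 → F) = (g : Matrix (Fin 4) (Fin 4) F).mulVec v.1 := rfl

theorem eq_one_of_fix (g : GL (Fin 4) F)
    (h : ∀ v : Fin 4 → F, (g : Matrix (Fin 4) (Fin 4) F).mulVec v = v) : g = 1 := by
  apply Units.ext
  ext i j
  have h2 := congrFun (h (Pi.single j 1)) i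
  rw [Matrix.mulVec_single_one] at h2
  show (g : Matrix (Fin 4) (Fin 4) F) i j = (1 : Matrix (Fin 4) (Fin 4) F) i j
  rw [Matrix.one_apply]
  have h3 : (g : Matrix (Fin 4) (Fin 4) F) i j = (Pi.single j 1 : Fin 4 → F) i := h2
  rw [h3, Pi.single_apply]

theorem rho_injective : Function.Injective (rho F) := by
  rw [injective_iff_map_eq_one]
  intro g hg
  apply eq_one_of_fix
  intro v
  by_cases hv : v = 0
  · rw [hv, Matrix.mulVec_zero]
  · have h1 := rho_apply g ⟨v, hv⟩
    rw [hg] at h1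
    exact h1.symm

/-- The vectors fixed by a matrix. -/
def fixA (g : GL (Fin 4) F) : AddSubgroup (Fin 4 → F) where
  carrier := Function.fixedPoints
    (fun v : Fin 4 → F => (g : Matrix (Fin 4) (Fin 4) F).mulVec v)
  add_mem' := by
    intro a b ha hb
    show (g : Matrix (Fin 4) (Fin 4) F).mulVec (a + b) = a + b
    rw [Matrix.mulVec_add]
    exact congrArg₂ (· + ·) ha hb
  zero_mem' := Matrix.mulVec_zero _
  neg_mem' := by
    intro a ha
    show (g : Matrix (Fin 4) (Fin 4) F).mulVec (-a) = -a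
    rw [Matrix.mulVec_neg]
    exact congrArg Neg.neg ha

theorem card_vec {F : Type*} [Fintype F] (hF : Fintype.card F = 2) :
    Nat.card (Fin 4 → F) = 16 := by
  rw [Nat.card_fun, Nat.card_eq_fintype_card, Nat.card_eq_fintype_card, hF, Fintype.card_fin]
  norm_num

variable [Fintype F]

theorem card_Om (hF : Fintype.card F = 2) : Nat.card (Om F) = 15 := by
  classical
  have h1 : Fintype.card (Fin 4 → F) = 16 := by
    rw [← Nat.card_eq_fintype_card]; exact card_vec hF
  have h2 := Fintype.card_subtype_compl (fun v : Fin 4 → F => v = 0)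
  rw [Fintype.card_subtype_eq, h1] at h2
  rw [Nat.card_eq_fintype_card]
  exact h2

theorem card_fixA (hF : Fintype.card F = 2) (g : GL (Fin 4) F) (p : ℕ) [Fact p.Prime]
    (hg : g ^ p = 1) : Nat.card (fixA g) ∣ 16 ∧ Nat.card (fixA g) % p = 16 % p := by
  classical
  have hV := card_vec hF
  refine ⟨hV ▸ AddSubgroup.card_addSubgroup_dvd_card (fixA g), ?_⟩
  let f : Function.End (Fin 4 → F) := fun v => (g : Matrix (Fin 4) (Fin 4) F).mulVec v
  have hpow : ∀ n : ℕ, f ^ n
      = fun v => ((g ^ n : GL (Fin 4) F) : Matrix (Fin 4) (Fin 4) F).mulVec v := by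
    intro n
    induction n with
    | zero =>
      rw [pow_zero, pow_zero]
      funext v
      exact (Matrix.one_mulVec v).symm
    | succ n ih =>
      rw [pow_succ, ih]
      funext v
      show ((g ^ n : GL (Fin 4) F) : Matrix (Fin 4) (Fin 4) F).mulVec
        ((g : Matrix (Fin 4) (Fin 4) F).mulVec v) = _
      rw [Matrix.mulVec_mulVec, ← Units.val_mul, ← pow_succ]
  have hf : f ^ p ^ 1 = 1 := by
    rw [pow_one, hpow, hg]
    funext v
    exact Matrix.one_mulVec v
  have h := Equiv.Perm.card_fixedPoints_modEq (p := p) (n := 1) hf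
  rw [← Nat.card_eq_fintype_card, ← Nat.card_eq_fintype_card, hV] at h
  have h2 : Nat.card (Function.fixedPoints f) = Nat.card (fixA g) :=
    Nat.card_congr (Equiv.subtypeEquivRight (fun x => Iff.rfl))
  rw [h2] at h
  exact h.symm

theorem fix_top (hF : Fintype.card F = 2) (g : GL (Fin 4) F) (h : Nat.card (fixA g) = 16) :
    g = 1 := by
  have h5 : fixA g = ⊤ := by
    rw [← AddSubgroup.card_eq_iff_eq_top, h, card_vec hF]
  apply eq_one_of_fix
  intro w
  have : w ∈ fixA g := by rw [h5]; trivial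
  exact this

theorem fix5 (hF : Fintype.card F = 2) (g : GL (Fin 4) F) (hg : orderOf g = 5)
    (v : Fin 4 → F) (hv : (g : Matrix (Fin 4) (Fin 4) F).mulVec v = v) : v = 0 := by
  have hp : Fact (Nat.Prime 5) := ⟨by norm_num⟩
  obtain ⟨h1, h2⟩ := card_fixA hF g 5 (by rw [← hg]; exact pow_orderOf_eq_one g)
  have h3 : Nat.card (fixA g) ≤ 16 := Nat.le_of_dvd (by norm_num) h1
  have h4 : Nat.card (fixA g) = 1 ∨ Nat.card (fixA g) = 16 := by
    generalize Nat.card (fixA g) = n at h1 h2 h3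
    interval_cases n <;> omega
  rcases h4 with h4 | h4
  · have h5 : fixA g = ⊥ := AddSubgroup.card_eq_one.1 h4
    have h6 : v ∈ fixA g := hv
    rw [h5, AddSubgroup.mem_bot] at h6
    exact h6
  · exfalso
    have h6 := fix_top hF g h4
    rw [h6, orderOf_one] at hg
    norm_num at hg

theorem fix7 (hF : Fintype.card F = 2) (g : GL (Fin 4) F) (hg : orderOf g = 7)
    (v w : Fin 4 → F) (hv0 : v ≠ 0) (hw0 : w ≠ 0)
    (hv : (g : Matrix (Fin 4) (Fin 4) F).mulVec v = v)
    (hw : (g : Matrix (Fin 4) (Fin 4) F).mulVec w = w) : v = w := by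
  have hp : Fact (Nat.Prime 7) := ⟨by norm_num⟩
  obtain ⟨h1, h2⟩ := card_fixA hF g 7 (by rw [← hg]; exact pow_orderOf_eq_one g)
  have h3 : Nat.card (fixA g) ≤ 16 := Nat.le_of_dvd (by norm_num) h1
  have h4 : Nat.card (fixA g) = 2 ∨ Nat.card (fixA g) = 16 := by
    generalize Nat.card (fixA g) = n at h1 h2 h3
    interval_cases n <;> omega
  rcases h4 with h4 | h4
  · obtain ⟨y, -, hy⟩ := (Nat.card_eq_two_iff' (0 : fixA g)).1 h4
    have e1 : (⟨v, hv⟩ : fixA g) = y := hy _ (fun h => hv0 (congrArg Subtype.val h))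
    have e2 : (⟨w, hw⟩ : fixA g) = y := hy _ (fun h => hw0 (congrArg Subtype.val h))
    exact congrArg Subtype.val (e1.trans e2.symm)
  · exfalso
    have h6 := fix_top hF g h4
    rw [h6, orderOf_one] at hg
    norm_num at hg

end Lin

/-! ## An alternating group of degree seven inside the general linear group -/

theorem card_A7 : Nat.card (alternatingGroup (Fin 7)) = 2520 := by
  rw [nat_card_alternatingGroup, Nat.card_fin]
  rfl

theorem exists_A7 {F : Type*} [Field F] [Fintype F] (hF : Fintype.card F = 2) :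
    ∃ H : Subgroup (Matrix.GeneralLinearGroup (Fin 4) F),
      Nonempty (H ≃* alternatingGroup (Fin 7)) := by
  classical
  obtain ⟨e8⟩ := Cfsg.Agent.S0256.result hF
  have h01 : ∀ r : F, r = 0 ∨ r = 1 := by
    intro r
    have h : ∀ x : ZMod 2, x = 0 ∨ x = 1 := by decide
    rcases h ((ZMod.ringEquivOfPrime F Nat.prime_two hF).symm r) with h | h
    · left
      have h1 := congrArg (ZMod.ringEquivOfPrime F Nat.prime_two hF) h
      rw [RingEquiv.apply_symm_apply, map_zero] at h1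
      exact h1
    · right
      have h1 := congrArg (ZMod.ringEquivOfPrime F Nat.prime_two hF) h
      rw [RingEquiv.apply_symm_apply, map_one] at h1
      exact h1
  have hcen : Subgroup.center (Matrix.SpecialLinearGroup (Fin 4) F) = ⊥ := by
    rw [eq_bot_iff]
    intro A hA
    rw [Matrix.SpecialLinearGroup.mem_center_iff] at hA
    obtain ⟨r, hr, hA⟩ := hA
    rw [Subgroup.mem_bot]
    rcases h01 r with h | h
    · rw [h] at hr
      simp at hr
    · apply Subtype.ext
      rw [← hA, h]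
      simp
  let e1 : Matrix.ProjectiveSpecialLinearGroup (Fin 4) F ≃*
      Matrix.SpecialLinearGroup (Fin 4) F :=
    (QuotientGroup.quotientMulEquivOfEq hcen).trans QuotientGroup.quotientBot
  let φ0 : Equiv.Perm (Fin 7) →* Equiv.Perm (Fin 8) :=
    Equiv.Perm.viaEmbeddingHom Fin.castSuccEmb
  have hφ0 : Function.Injective φ0 := Equiv.Perm.viaEmbeddingHom_injective Fin.castSuccEmb
  have hsign : ∀ σ : Equiv.Perm (Fin 7), Equiv.Perm.sign (φ0 σ) = Equiv.Perm.sign σ := by
    intro σ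
    letI : DecidablePred (fun a : Fin 8 => a ∈ Set.range (Fin.castSuccEmb (n := 7)).toFun) :=
      fun a => Classical.propDecidable _
    exact Equiv.Perm.sign_extendDomain σ _
  let φ1 : alternatingGroup (Fin 7) →* alternatingGroup (Fin 8) :=
    (φ0.comp (alternatingGroup (Fin 7)).subtype).codRestrict (alternatingGroup (Fin 8))
      (fun σ => by
        rw [Equiv.Perm.mem_alternatingGroup]
        show Equiv.Perm.sign (φ0 σ.1) = 1
        rw [hsign]
        exact Equiv.Perm.mem_alternatingGroup.1 σ.2)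
  have hφ1 : Function.Injective φ1 := by
    intro a b hab
    apply Subtype.ext
    apply hφ0
    exact congrArg Subtype.val hab
  let ψ : alternatingGroup (Fin 7) →* Matrix.GeneralLinearGroup (Fin 4) F :=
    Matrix.SpecialLinearGroup.toGL.comp
      ((e1.toMonoidHom.comp e8.symm.toMonoidHom).comp φ1)
  have hψ : Function.Injective ψ :=
    Matrix.SpecialLinearGroup.toGL_injective.comp
      ((e1.injective.comp e8.symm.injective).comp hφ1)
  exact ⟨ψ.range, ⟨(MonoidHom.ofInjective hψ).symm⟩⟩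

/-! ## The statement -/

/-- Let F be the field with 2 elements. GL_4(F) (≅ A_8) has a subgroup isomorphic to the alternating group A_7, and every such subgroup acts 2-transitively on the 15 non-zero vectors of F⁴: any ordered pair of distinct non-zero vectors is carried to any other by some element of the subgroup. -/
theorem result {F : Type*} [Field F] [Fintype F] (hF : Fintype.card F = 2) : (∃ H : Subgroup (Matrix.GeneralLinearGroup (Fin 4) F), Nonempty (H ≃* alternatingGroup (Fin 7))) ∧ ∀ H : Subgroup (Matrix.GeneralLinearGroup (Fin 4) F), Nonempty (H ≃* alternatingGroup (Fin 7)) → ∀ v w v' w' : Fin 4 → F, v ≠ 0 → w ≠ 0 → v ≠ w → v' ≠ 0 → w' ≠ 0 → v' ≠ w' → ∃ g ∈ H, (g : Matrix (Fin 4) (Fin 4) F).mulVec v = v' ∧ (g : Matrix (Fin 4) (Fin 4) F).mulVec w = w' := by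
  classical
  refine ⟨exists_A7 hF, ?_⟩
  rintro H ⟨e⟩ v w v' w' hv hw hvw hv' hw' hvw'
  have hcH : Nat.card H = 2520 := by rw [Nat.card_congr e.toEquiv, card_A7]
  have hcH' : Nat.card (H.map (rho F)) = 2520 := by
    rw [Subgroup.card_map_of_injective rho_injective, hcH]
  have hΩ : Fintype.card (Om F) = 15 := by
    rw [← Nat.card_eq_fintype_card]; exact card_Om hF
  have h5 : ∀ σ ∈ H.map (rho F), orderOf σ = 5 → ∀ x, σ x ≠ x := by
    rintro _ ⟨g, hg, rfl⟩ ho x hx
    have ho' : orderOf g = 5 := by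
      rw [← ho]; exact (orderOf_injective (rho F) rho_injective g).symm
    exact x.2 (fix5 hF g ho' x.1 (congrArg Subtype.val hx))
  have h7 : ∀ σ ∈ H.map (rho F), orderOf σ = 7 → ∀ x y, σ x = x → σ y = y → x = y := by
    rintro _ ⟨g, hg, rfl⟩ ho x y hx hy
    have ho' : orderOf g = 7 := by
      rw [← ho]; exact (orderOf_injective (rho F) rho_injective g).symm
    exact Subtype.ext (fix7 hF g ho' x.1 y.1 x.2 y.2 (congrArg Subtype.val hx)
      (congrArg Subtype.val hy))
  obtain ⟨σ, ⟨g, hg, rfl⟩, h1, h2⟩ := two_trans hΩ (H.map (rho F)) hcH' h5 h7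
    ⟨v, hv⟩ ⟨w, hw⟩ ⟨v', hv'⟩ ⟨w', hw'⟩
    (fun h => hvw (congrArg Subtype.val h)) (fun h => hvw' (congrArg Subtype.val h))
  exact ⟨g, hg, congrArg Subtype.val h1, congrArg Subtype.val h2⟩

end Cfsg.Agent.S2551
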