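import Cfsg.Statements.S2552

set_option autoImplicit false
open Cfsg

namespace Cfsg.Agent.S2552

theorem exists_equiv_map {F : Type*} [Field F] {V : Type*} [AddCommGroup V] [Module F V]
    [FiniteDimensional F V] (U₁ U₂ : Submodule F V)
    (h : Module.finrank F U₁ = Module.finrank F U₂) :
    ∃ f : V ≃ₗ[F] V, U₁.map (f : V →ₗ[F] V) = U₂ := by
  obtain ⟨W₁, hW₁⟩ := Submodule.exists_isCompl U₁
  obtain ⟨W₂, hW₂⟩ := Submodule.exists_isCompl U₂
  have h1 := Submodule.finrank_add_eq_of_isCompl hW₁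
  have h2 := Submodule.finrank_add_eq_of_isCompl hW₂
  have hW : Module.finrank F W₁ = Module.finrank F W₂ := by omega
  let eU : U₁ ≃ₗ[F] U₂ := LinearEquiv.ofFinrankEq _ _ h
  let eW : W₁ ≃ₗ[F] W₂ := LinearEquiv.ofFinrankEq _ _ hW
  let f : V ≃ₗ[F] V := (Submodule.prodEquivOfIsCompl U₁ W₁ hW₁).symm.trans
    ((eU.prodCongr eW).trans (Submodule.prodEquivOfIsCompl U₂ W₂ hW₂))
  refine ⟨f, ?_⟩
  apply Submodule.eq_of_le_of_finrank_eq
  · rintro y ⟨x, hx, rfl⟩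
    have hx' : (Submodule.prodEquivOfIsCompl U₁ W₁ hW₁).symm x = ((⟨x, hx⟩ : U₁), (0 : W₁)) :=
      Submodule.prodEquivOfIsCompl_symm_apply_left U₁ W₁ hW₁ ⟨x, hx⟩
    have : f x = (eU ⟨x, hx⟩ : V) := by
      simp only [f, LinearEquiv.trans_apply, hx']
      simp [Submodule.coe_prodEquivOfIsCompl']
    show f x ∈ U₂
    rw [this]
    exact (eU ⟨x, hx⟩).2
  · rw [LinearEquiv.finrank_map_eq, h]

/-- Let F be a finite field and n ≥ 1. For every k, the special linear group SL_n(F) acts transitively on the set of k-dimensional subspaces of F^n: any two subspaces of the same dimension are carried onto each other by some matrix of determinant 1. -/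
theorem result {F : Type*} [Field F] [Fintype F] (n : ℕ) (hn : 1 ≤ n) (U₁ U₂ : Submodule F (Fin n → F)) (h : Module.finrank F U₁ = Module.finrank F U₂) : ∃ g : Matrix.SpecialLinearGroup (Fin n) F, U₁.map ((Matrix.SpecialLinearGroup.toLin' g : (Fin n → F) ≃ₗ[F] (Fin n → F)) : (Fin n → F) →ₗ[F] (Fin n → F)) = U₂ := by
  classical
  obtain ⟨f₀, hf₀⟩ := exists_equiv_map U₁ U₂ h
  have hd : IsUnit (LinearMap.det (f₀ : (Fin n → F) →ₗ[F] (Fin n → F))) := LinearEquiv.isUnit_det' f₀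
  have hd0 : LinearMap.det (f₀ : (Fin n → F) →ₗ[F] (Fin n → F)) ≠ 0 := hd.ne_zero
  set d := LinearMap.det (f₀ : (Fin n → F) →ₗ[F] (Fin n → F)) with hddef
  obtain ⟨u, ℓ, hℓu, hU⟩ : ∃ (u : Fin n → F) (ℓ : Module.Dual F (Fin n → F)), ℓ u = 1 ∧
      ∀ x ∈ U₂, ∀ a : F, x + (ℓ x * a) • u ∈ U₂ := by
    by_cases hbot : U₂ = ⊥
    · refine ⟨Pi.single (⟨0, hn⟩ : Fin n) 1, LinearMap.proj (⟨0, hn⟩ : Fin n), by simp, ?_⟩
      intro x hx a
      rw [hbot, Submodule.mem_bot] at hx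
      subst hx
      simp
    · obtain ⟨u, hu, hu0⟩ := Submodule.exists_mem_ne_zero_of_ne_bot hbot
      obtain ⟨i, hi⟩ := Function.ne_iff.mp hu0
      refine ⟨u, (u i)⁻¹ • LinearMap.proj i, ?_, ?_⟩
      · simp only [LinearMap.smul_apply, LinearMap.proj_apply, smul_eq_mul]
        exact inv_mul_cancel₀ hi
      · intro x hx a
        exact U₂.add_mem hx (U₂.smul_mem _ hu)
  have hval : 1 + ℓ ((d⁻¹ - 1) • u) = d⁻¹ := by
    rw [map_smul, hℓu]; simp
  have hunit : IsUnit (1 + ℓ ((d⁻¹ - 1) • u)) := by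
    rw [hval]; exact (inv_ne_zero hd0).isUnit
  let g : (Fin n → F) ≃ₗ[F] (Fin n → F) := LinearEquiv.dilatransvection hunit
  have hgcoe : (g : (Fin n → F) →ₗ[F] (Fin n → F)) = LinearMap.transvection ℓ ((d⁻¹ - 1) • u) := rfl
  have hgU : U₂.map (g : (Fin n → F) →ₗ[F] (Fin n → F)) = U₂ := by
    apply Submodule.eq_of_le_of_finrank_eq
    · rintro y ⟨x, hx, rfl⟩
      rw [hgcoe, LinearMap.transvection.apply, smul_smul]
      exact hU x hx _
    · rw [LinearEquiv.finrank_map_eq]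
  have hdet : LinearMap.det ((g : (Fin n → F) →ₗ[F] (Fin n → F)) ∘ₗ (f₀ : (Fin n → F) →ₗ[F] (Fin n → F))) = 1 := by
    rw [LinearMap.det_comp, hgcoe, LinearMap.transvection.det, hval]
    exact inv_mul_cancel₀ hd0
  refine ⟨⟨LinearMap.toMatrix' ((g : (Fin n → F) →ₗ[F] (Fin n → F)) ∘ₗ (f₀ : (Fin n → F) →ₗ[F] (Fin n → F))), ?_⟩, ?_⟩
  · rw [LinearMap.det_toMatrix']; exact hdet
  · show U₁.map (Matrix.toLin' (LinearMap.toMatrix' ((g : (Fin n → F) →ₗ[F] (Fin n → F)) ∘ₗ (f₀ : (Fin n → F) →ₗ[F] (Fin n → F))))) = U₂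
    rw [Matrix.toLin'_toMatrix', Submodule.map_comp, hf₀, hgU]

end Cfsg.Agent.S2552
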