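import Cfsg.Statements.S2562

set_option autoImplicit false
open Cfsg

namespace Cfsg.Agent.S2562

open Matrix in
theorem polar_eq_toBilin' {F : Type*} [Field F] {κ : Type*} [Fintype κ] [DecidableEq κ]
    (M : Matrix κ κ F) (Q : (κ → F) → F) (hQ : ∀ u, Q u = u ⬝ᵥ M *ᵥ u) (u v : κ → F) :
    QuadraticMap.polar Q u v = Matrix.toBilin' (M + Mᵀ) u v := by
  rw [QuadraticMap.polar, hQ, hQ, hQ, Matrix.toBilin'_apply', Matrix.add_mulVec, Matrix.mulVec_add]
  simp only [dotProduct_add, add_dotProduct]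
  have h : u ⬝ᵥ Mᵀ *ᵥ v = v ⬝ᵥ M *ᵥ u := by
    rw [Matrix.mulVec_transpose, dotProduct_comm, Matrix.dotProduct_mulVec]
  rw [h]
  ring

theorem ti_bound {F V : Type*} [Field F] [AddCommGroup V] [Module F V] [FiniteDimensional F V]
    (B : LinearMap.BilinForm F V) (U E : Submodule F V)
    (hU : ∀ u ∈ U, ∀ u' ∈ U, B u u' = 0)
    (hE : ∀ u ∈ U, (∀ e ∈ E, B u e = 0) → u ∈ E) :
    Module.finrank F U ≤ Module.finrank F E := by
  let φ : U →ₗ[F] Module.Dual F E := B.domRestrict₁₂ U E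
  have hφ : ∀ (u : U) (e : E), φ u e = B u e := fun u e => rfl
  let K' : Submodule F E := (U ⊓ E).comap E.subtype
  have hrange : LinearMap.range φ ≤ K'.dualAnnihilator := by
    rintro _ ⟨u, rfl⟩
    rw [Submodule.mem_dualAnnihilator]
    intro e he
    rw [hφ]
    exact hU u u.2 e he.1
  have hK' : Module.finrank F K' = Module.finrank F (U ⊓ E : Submodule F V) := by
    rw [← Submodule.finrank_map_subtype_eq E K', Submodule.map_comap_subtype, inf_comm, inf_assoc, inf_idem]
  have hker : Module.finrank F (LinearMap.ker φ) ≤ Module.finrank F (U ⊓ E : Submodule F V) := by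
    rw [← Submodule.finrank_map_subtype_eq U (LinearMap.ker φ)]
    apply Submodule.finrank_mono
    rintro _ ⟨u, hu, rfl⟩
    refine ⟨u.2, ?_⟩
    apply hE u u.2
    intro e he
    have := congrArg (fun l => l ⟨e, he⟩) (LinearMap.mem_ker.mp hu)
    simpa [hφ] using this
  have h1 := LinearMap.finrank_range_add_finrank_ker φ
  have h2 := Subspace.finrank_add_finrank_dualAnnihilator_eq K'
  have h3 := Submodule.finrank_mono hrange
  omega

def U0 (m : ℕ) (F : Type*) [Field F] : Submodule F (Fin m ⊕ Fin m → F) where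
  carrier := {v | ∀ i, v (Sum.inr i) = 0}
  add_mem' := by
    intro a b ha hb i
    simp [ha i, hb i]
  zero_mem' := by
    intro i
    rfl
  smul_mem' := by
    intro c a ha i
    simp [ha i]

theorem finrank_U0 (m : ℕ) (F : Type*) [Field F] : Module.finrank F (U0 m F) = m := by
  have e : U0 m F ≃ₗ[F] (Fin m → F) :=
    { toFun := fun v => fun i => v.1 (Sum.inl i)
      map_add' := by intros; rfl
      map_smul' := by intros; rfl
      invFun := fun w => ⟨Sum.elim w 0, fun i => rfl⟩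
      left_inv := by
        intro v
        apply Subtype.ext
        funext k
        cases k with
        | inl i => rfl
        | inr i => exact (v.2 i).symm
      right_inv := by intro w; rfl }
  rw [LinearEquiv.finrank_eq e, Module.finrank_fin_fun]

def E0 (m : ℕ) (F : Type*) [Field F] : Submodule F ((Fin m ⊕ Fin m) ⊕ Fin 2 → F) where
  carrier := {v | (∀ i, v (Sum.inl (Sum.inr i)) = 0) ∧ ∀ k, v (Sum.inr k) = 0}
  add_mem' := by
    intro a b ha hb
    exact ⟨fun i => by simp [ha.1 i, hb.1 i], fun k => by simp [ha.2 k, hb.2 k]⟩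
  zero_mem' := ⟨fun i => rfl, fun k => rfl⟩
  smul_mem' := by
    intro c a ha
    exact ⟨fun i => by simp [ha.1 i], fun k => by simp [ha.2 k]⟩

theorem finrank_E0 (m : ℕ) (F : Type*) [Field F] : Module.finrank F (E0 m F) = m := by
  have e : E0 m F ≃ₗ[F] (Fin m → F) :=
    { toFun := fun v => fun i => v.1 (Sum.inl (Sum.inl i))
      map_add' := by intros; rfl
      map_smul' := by intros; rfl
      invFun := fun w => ⟨Sum.elim (Sum.elim w 0) 0, ⟨fun i => rfl, fun k => rfl⟩⟩
      left_inv := by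
        intro v
        apply Subtype.ext
        funext k
        rcases k with (i | i) | k
        · rfl
        · exact (v.2.1 i).symm
        · exact (v.2.2 k).symm
      right_inv := by intro w; rfl }
  rw [LinearEquiv.finrank_eq e, Module.finrank_fin_fun]

theorem minus_eq (m : ℕ) {F : Type*} [Field F] (a c : F) (u : (Fin m ⊕ Fin m) ⊕ Fin 2 → F) :
    Cfsg.quadFormMinus m F a c u = u ⬝ᵥ (Matrix.fromBlocks (Matrix.fromBlocks 0 1 0 0) 0 0 !![1, a; 0, c] :
      Matrix ((Fin m ⊕ Fin m) ⊕ Fin 2) ((Fin m ⊕ Fin m) ⊕ Fin 2) F).mulVec u := by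
  rw [Matrix.fromBlocks_mulVec, Matrix.fromBlocks_mulVec]
  simp [Cfsg.quadFormMinus, dotProduct, Fintype.sum_sum_type, Fin.sum_univ_two]
  ring

theorem polar_minus_single (m : ℕ) {F : Type*} [Field F] (a c : F) (u : (Fin m ⊕ Fin m) ⊕ Fin 2 → F)
    (i : Fin m) :
    QuadraticMap.polar (Cfsg.quadFormMinus m F a c) u (Pi.single (Sum.inl (Sum.inl i)) 1)
      = u (Sum.inl (Sum.inr i)) := by
  simp [QuadraticMap.polar, Cfsg.quadFormMinus, Pi.single_apply, add_mul, Finset.sum_add_distrib]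

theorem minus_ti_bound (m : ℕ) {F : Type*} [Field F] (a c : F)
    (hac : ∀ z₁ z₂ : F, z₁ ^ 2 + a * z₁ * z₂ + c * z₂ ^ 2 = 0 → z₁ = 0 ∧ z₂ = 0)
    (U : Submodule F ((Fin m ⊕ Fin m) ⊕ Fin 2 → F))
    (hU : ∀ u ∈ U, Cfsg.quadFormMinus m F a c u = 0) : Module.finrank F U ≤ m := by
  classical
  set M : Matrix ((Fin m ⊕ Fin m) ⊕ Fin 2) ((Fin m ⊕ Fin m) ⊕ Fin 2) F :=
    Matrix.fromBlocks (Matrix.fromBlocks 0 1 0 0) 0 0 !![1, a; 0, c] with hM
  have hpol := polar_eq_toBilin' M (Cfsg.quadFormMinus m F a c) (minus_eq m a c)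
  have key : Module.finrank F U ≤ Module.finrank F (E0 m F) := by
    apply ti_bound (Matrix.toBilin' (M + M.transpose)) U (E0 m F)
    · intro u hu u' hu'
      rw [← hpol, QuadraticMap.polar, hU u hu, hU u' hu', hU _ (U.add_mem hu hu')]
      simp
    · intro u hu h
      have hy : ∀ i, u (Sum.inl (Sum.inr i)) = 0 := by
        intro i
        have h1 := h (Pi.single (Sum.inl (Sum.inl i)) 1) ⟨fun j => by simp, fun k => by simp⟩
        rw [← hpol, polar_minus_single] at h1
        exact h1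
      have hq := hU u hu
      simp only [Cfsg.quadFormMinus, hy, mul_zero, Finset.sum_const_zero, zero_add] at hq
      have hz := hac _ _ hq
      refine ⟨hy, ?_⟩
      intro k
      fin_cases k
      · exact hz.1
      · exact hz.2
  rw [finrank_E0] at key
  exact key

theorem plus_eq (m : ℕ) {F : Type*} [Field F] (u : Fin m ⊕ Fin m → F) :
    Cfsg.quadFormPlus m F u = u ⬝ᵥ (Matrix.fromBlocks 0 1 0 0 :
      Matrix (Fin m ⊕ Fin m) (Fin m ⊕ Fin m) F).mulVec u := by
  rw [Matrix.fromBlocks_mulVec]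
  simp [Cfsg.quadFormPlus, dotProduct, Fintype.sum_sum_type]

theorem polar_plus_single (m : ℕ) {F : Type*} [Field F] (u : Fin m ⊕ Fin m → F) (i : Fin m) :
    QuadraticMap.polar (Cfsg.quadFormPlus m F) u (Pi.single (Sum.inl i) 1) = u (Sum.inr i) := by
  simp [QuadraticMap.polar, Cfsg.quadFormPlus, Pi.single_apply, add_mul, Finset.sum_add_distrib]

theorem plus_ti_bound (m : ℕ) {F : Type*} [Field F]
    (U : Submodule F (Fin m ⊕ Fin m → F))
    (hU : ∀ u ∈ U, Cfsg.quadFormPlus m F u = 0) : Module.finrank F U ≤ m := by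
  classical
  set M : Matrix (Fin m ⊕ Fin m) (Fin m ⊕ Fin m) F := Matrix.fromBlocks 0 1 0 0 with hM
  have hpol := polar_eq_toBilin' M (Cfsg.quadFormPlus m F) (plus_eq m)
  have key : Module.finrank F U ≤ Module.finrank F (U0 m F) := by
    apply ti_bound (Matrix.toBilin' (M + M.transpose)) U (U0 m F)
    · intro u hu u' hu'
      rw [← hpol, QuadraticMap.polar, hU u hu, hU u' hu', hU _ (U.add_mem hu hu')]
      simp
    · intro u hu h i
      have h1 := h (Pi.single (Sum.inl i) 1) (fun j => by simp)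
      rw [← hpol, polar_plus_single] at h1
      exact h1
  rw [finrank_U0] at key
  exact key

/-- Witt indices over the field of two elements, m ≥ 1: for the plus-type form Σ xᵢyᵢ in dimension 2m some m-dimensional subspace is totally singular and no totally singular subspace has larger dimension; for the minus-type form Σ xᵢyᵢ + (z₁² + z₁z₂ + z₂²) in dimension 2m the maximal dimension of a totally singular subspace is m − 1. -/
theorem result (m : ℕ) (hm : 1 ≤ m) :
    (∃ U : Submodule (ZMod 2) (Fin m ⊕ Fin m → ZMod 2), (∀ u ∈ U, Cfsg.quadFormPlus m (ZMod 2) u = 0) ∧ Module.finrank (ZMod 2) ↥U = m) ∧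
    (∀ U : Submodule (ZMod 2) (Fin m ⊕ Fin m → ZMod 2), (∀ u ∈ U, Cfsg.quadFormPlus m (ZMod 2) u = 0) → Module.finrank (ZMod 2) ↥U ≤ m) ∧
    (∃ U : Submodule (ZMod 2) ((Fin (m - 1) ⊕ Fin (m - 1)) ⊕ Fin 2 → ZMod 2), (∀ u ∈ U, Cfsg.quadFormMinus (m - 1) (ZMod 2) 1 1 u = 0) ∧ Module.finrank (ZMod 2) ↥U = m - 1) ∧
    (∀ U : Submodule (ZMod 2) ((Fin (m - 1) ⊕ Fin (m - 1)) ⊕ Fin 2 → ZMod 2), (∀ u ∈ U, Cfsg.quadFormMinus (m - 1) (ZMod 2) 1 1 u = 0) → Module.finrank (ZMod 2) ↥U ≤ m - 1) := by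
  refine ⟨⟨U0 m (ZMod 2), ?_, finrank_U0 m (ZMod 2)⟩, fun U hU => plus_ti_bound m U hU,
    ⟨E0 (m - 1) (ZMod 2), ?_, finrank_E0 (m - 1) (ZMod 2)⟩,
    fun U hU => minus_ti_bound (m - 1) 1 1 (by decide) U hU⟩
  · intro u hu
    simp only [Cfsg.quadFormPlus]
    apply Finset.sum_eq_zero
    intro i _
    rw [hu i, mul_zero]
  · intro u hu
    simp only [Cfsg.quadFormMinus, hu.1, hu.2, mul_zero, Finset.sum_const_zero]
    simp

end Cfsg.Agent.S2562
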