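import Cfsg.Statements.S2564

set_option autoImplicit false
open Cfsg

namespace Cfsg.Agent.S2564

open Matrix in
theorem polar_eq_toBilin' {F : Type*} [Field F] {κ : Type*} [Fintype κ] [DecidableEq κ]
    (M : Matrix κ κ F) (Q : (κ → F) → F) (hQ : ∀ u, Q u = u ⬝ᵥ M *ᵥ u) (u v : κ → F) :
    QuadraticMap.polar Q u v = Matrix.toBilin' (M + Mᵀ) u v := by
  rw [QuadraticMap.polar, hQ, hQ, hQ, Matrix.toBilin'_apply', Matrix.add_mulVec, Matrix.mulVec_add]
  simp only [dotProduct_add, add_dotProduct]
  have h : u ⬝ᵥ Mᵀ *ᵥ v = v ⬝ᵥ M *ᵥ u := by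
    rw [Matrix.mulVec_transpose, dotProduct_comm, Matrix.dotProduct_mulVec]
  rw [h]
  ring

theorem plus_eq (m : ℕ) {F : Type*} [Field F] (u : Fin m ⊕ Fin m → F) :
    Cfsg.quadFormPlus m F u = u ⬝ᵥ (Matrix.fromBlocks 0 1 0 0 :
      Matrix (Fin m ⊕ Fin m) (Fin m ⊕ Fin m) F).mulVec u := by
  rw [Matrix.fromBlocks_mulVec]
  simp [Cfsg.quadFormPlus, dotProduct, Fintype.sum_sum_type]

theorem polar_plus_single (m : ℕ) {F : Type*} [Field F] (u : Fin m ⊕ Fin m → F) (i : Fin m) :
    QuadraticMap.polar (Cfsg.quadFormPlus m F) u (Pi.single (Sum.inl i) 1) = u (Sum.inr i) := by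
  simp [QuadraticMap.polar, Cfsg.quadFormPlus, Pi.single_apply, add_mul, Finset.sum_add_distrib]

theorem polar_plus_single' (m : ℕ) {F : Type*} [Field F] (u : Fin m ⊕ Fin m → F) (i : Fin m) :
    QuadraticMap.polar (Cfsg.quadFormPlus m F) u (Pi.single (Sum.inr i) 1) = u (Sum.inl i) := by
  simp [QuadraticMap.polar, Cfsg.quadFormPlus, Pi.single_apply, mul_add, Finset.sum_add_distrib]

def chi (a : ZMod 2) : ℤ := if a = 0 then 1 else -1

theorem chi_add : ∀ a b : ZMod 2, chi (a + b) = chi a * chi b := by decide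

theorem chi_add_one : ∀ a : ZMod 2, chi (a + 1) = - chi a := by decide

theorem chi_zero : chi 0 = 1 := by decide

theorem zmod2_ne_zero : ∀ a : ZMod 2, a ≠ 0 → a = 1 := by decide

theorem zmod2_add_self : ∀ a : ZMod 2, a + a = 0 := by decide

theorem zmod2_mul_self : ∀ a : ZMod 2, a * a = a := by decide

theorem zmod2_sub : ∀ a b : ZMod 2, a - b = a + b := by decide

/-- the character sum argument: a function `q` on `V` whose polarisation is a nondegenerate bilinear form
has a nonzero character sum -/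
theorem charsum_ne_zero {V : Type*} [AddCommGroup V] [Module (ZMod 2) V] [Fintype V] [DecidableEq V]
    (fb : LinearMap.BilinForm (ZMod 2) V) (hnd : ∀ v : V, v ≠ 0 → ∃ u₀ : V, fb u₀ v = 1)
    (q : V → ZMod 2) (hq : ∀ u v : V, q (u + v) = q u + q v + fb u v) :
    (∑ v : V, chi (q v)) ≠ 0 := by
  have hq0 : q 0 = 0 := by
    have := hq 0 0
    simp at this
    exact this
  have hT : ∀ v : V, (∑ u : V, chi (fb u v)) = if v = 0 then (Fintype.card V : ℤ) else 0 := by
    intro v
    by_cases hv : v = 0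
    · subst hv
      simp [chi_zero]
    · rw [if_neg hv]
      obtain ⟨u₀, hu₀⟩ := hnd v hv
      have h1 : (∑ u : V, chi (fb u v)) = ∑ u : V, chi (fb (u + u₀) v) :=
        (Equiv.sum_comp (Equiv.addRight u₀) (fun u => chi (fb u v))).symm
      have h2 : (∑ u : V, chi (fb (u + u₀) v)) = - ∑ u : V, chi (fb u v) := by
        rw [← Finset.sum_neg_distrib]
        apply Finset.sum_congr rfl
        intro u _
        rw [map_add, LinearMap.add_apply, hu₀, chi_add_one]
      omega
  have hSS : (∑ v : V, chi (q v)) * (∑ v : V, chi (q v)) = (Fintype.card V : ℤ) := by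
    rw [Finset.sum_mul_sum]
    have h1 : ∀ u : V, (∑ v : V, chi (q u) * chi (q v)) = ∑ v : V, chi (q v) * chi (fb u v) := by
      intro u
      rw [← Equiv.sum_comp (Equiv.addLeft u) (fun v => chi (q u) * chi (q v))]
      apply Finset.sum_congr rfl
      intro v _
      simp only [Equiv.coe_addLeft]
      rw [hq u v, ← chi_add, ← chi_add]
      congr 1
      have := zmod2_add_self (q u)
      calc q u + (q u + q v + fb u v) = (q u + q u) + (q v + fb u v) := by ring
        _ = q v + fb u v := by rw [this, zero_add]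
    rw [Finset.sum_congr rfl (fun u _ => h1 u), Finset.sum_comm]
    have h2 : ∀ v : V, (∑ u : V, chi (q v) * chi (fb u v)) = chi (q v) * (if v = 0 then (Fintype.card V : ℤ) else 0) := by
      intro v
      rw [← Finset.mul_sum, hT]
    rw [Finset.sum_congr rfl (fun v _ => h2 v)]
    simp [hq0, chi_zero]
  intro h0
  rw [h0] at hSS
  have : (0 : ℤ) < Fintype.card V := by
    have := Fintype.card_pos (α := V)
    exact_mod_cast this
  omega

/-- On the 2m-dimensional space over the field of two elements (m ≥ 1) let f be the alternating form obtained by polarizing the plus-type form Σ xᵢyᵢ, and let q be any quadratic form polarizing to f. For a vector w, the function q + f(·, w) again polarizes to f, and it is equivalent to q under an invertible linear map (that is, has the same type) if and only if q(w) = 0. -/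
theorem result (m : ℕ) (hm : 1 ≤ m) (q : (Fin m ⊕ Fin m → ZMod 2) → ZMod 2) (hq : (∀ u v : (Fin m ⊕ Fin m → ZMod 2), q (u + v) = q u + q v + (Cfsg.quadFormPlus m (ZMod 2) (u + v) - Cfsg.quadFormPlus m (ZMod 2) u - Cfsg.quadFormPlus m (ZMod 2) v))) (w : (Fin m ⊕ Fin m → ZMod 2)) :
    (∀ u v : (Fin m ⊕ Fin m → ZMod 2), (q (u + v) + (Cfsg.quadFormPlus m (ZMod 2) (u + v + w) - Cfsg.quadFormPlus m (ZMod 2) (u + v) - Cfsg.quadFormPlus m (ZMod 2) w)) =
        (q u + (Cfsg.quadFormPlus m (ZMod 2) (u + w) - Cfsg.quadFormPlus m (ZMod 2) u - Cfsg.quadFormPlus m (ZMod 2) w)) + (q v + (Cfsg.quadFormPlus m (ZMod 2) (v + w) - Cfsg.quadFormPlus m (ZMod 2) v - Cfsg.quadFormPlus m (ZMod 2) w)) +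
        (Cfsg.quadFormPlus m (ZMod 2) (u + v) - Cfsg.quadFormPlus m (ZMod 2) u - Cfsg.quadFormPlus m (ZMod 2) v)) ∧
    ((∃ g : (Fin m ⊕ Fin m → ZMod 2) ≃ₗ[ZMod 2] (Fin m ⊕ Fin m → ZMod 2), ∀ v, q v + (Cfsg.quadFormPlus m (ZMod 2) (v + w) - Cfsg.quadFormPlus m (ZMod 2) v - Cfsg.quadFormPlus m (ZMod 2) w) = q (g v)) ↔ q w = 0) := by
  classical
  set M : Matrix (Fin m ⊕ Fin m) (Fin m ⊕ Fin m) (ZMod 2) := Matrix.fromBlocks 0 1 0 0 with hM
  set fb : LinearMap.BilinForm (ZMod 2) (Fin m ⊕ Fin m → ZMod 2) := Matrix.toBilin' (M + M.transpose) with hfb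
  have hpol : ∀ u v, Cfsg.quadFormPlus m (ZMod 2) (u + v) - Cfsg.quadFormPlus m (ZMod 2) u - Cfsg.quadFormPlus m (ZMod 2) v = fb u v :=
    fun u v => polar_eq_toBilin' M (Cfsg.quadFormPlus m (ZMod 2)) (plus_eq m) u v
  simp only [hpol] at hq ⊢
  have hq0 : q 0 = 0 := by
    have := hq 0 0
    simp at this
    exact this
  have hsymm : ∀ u v, fb u v = fb v u := by
    intro u v
    rw [← hpol, ← hpol, add_comm u v]
    ring
  have hself : ∀ u, fb u u = 0 := by
    intro u
    have h1 := hq u u
    have h2 : u + u = 0 := by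
      funext k
      exact zmod2_add_self (u k)
    rw [h2, hq0, zmod2_add_self, zero_add] at h1
    exact h1.symm
  refine ⟨?_, ?_⟩
  · intro u v
    rw [hq u v, map_add, LinearMap.add_apply]
    ring
  · constructor
    · rintro ⟨g, hg⟩
      by_contra hw
      have hw1 : q w = 1 := zmod2_ne_zero _ hw
      have hnd : ∀ v : (Fin m ⊕ Fin m → ZMod 2), v ≠ 0 → ∃ u₀, fb u₀ v = 1 := by
        intro v hv
        obtain ⟨k, hk⟩ := Function.ne_iff.mp hv
        have hk1 : v k = 1 := zmod2_ne_zero _ hk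
        rcases k with i | i
        · refine ⟨Pi.single (Sum.inr i) 1, ?_⟩
          rw [hsymm, ← hpol]
          have := polar_plus_single' m v i
          rw [QuadraticMap.polar] at this
          rw [this, hk1]
        · refine ⟨Pi.single (Sum.inl i) 1, ?_⟩
          rw [hsymm, ← hpol]
          have := polar_plus_single m v i
          rw [QuadraticMap.polar] at this
          rw [this, hk1]
      have hS := charsum_ne_zero fb hnd q hq
      apply hS
      have h1 : (∑ v : (Fin m ⊕ Fin m → ZMod 2), chi (q (g v))) = ∑ v : (Fin m ⊕ Fin m → ZMod 2), chi (q v) :=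
        Equiv.sum_comp g.toEquiv (fun v => chi (q v))
      have h2 : (∑ v : (Fin m ⊕ Fin m → ZMod 2), chi (q (g v))) = - ∑ v : (Fin m ⊕ Fin m → ZMod 2), chi (q v) := by
        rw [← Equiv.sum_comp (Equiv.addRight w) (fun v => chi (q v)), ← Finset.sum_neg_distrib]
        apply Finset.sum_congr rfl
        intro v _
        simp only [Equiv.coe_addRight]
        rw [← hg v, hq v w, hw1, ← chi_add_one]
        congr 1
        have h11 : (1 : ZMod 2) + 1 = 0 := by decide
        linear_combination -h11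
      omega
    · intro hw
      have hℓ : ((LinearMap.flip fb) w) w = 0 := hself w
      refine ⟨LinearEquiv.transvection hℓ, ?_⟩
      intro v
      rw [LinearEquiv.transvection.apply, LinearMap.flip_apply, hq]
      have hcw : q (fb v w • w) = 0 := by
        rcases (by decide : ∀ a : ZMod 2, a = 0 ∨ a = 1) (fb v w) with h | h
        · rw [h, zero_smul, hq0]
        · rw [h, one_smul, hw]
      rw [hcw, map_smul, smul_eq_mul, zmod2_mul_self]
      ring

end Cfsg.Agent.S2564
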