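import Cfsg.Statements.S2623

set_option autoImplicit false
open Cfsg

namespace Cfsg.Agent.S2623


theorem mem_orth_iff {F V : Type*} [Field F] [AddCommGroup V] [Module F V]
    (B : LinearMap.BilinForm F V) (v x : V) :
    x ∈ B.orthogonal (Submodule.span F {v}) ↔ B v x = 0 := by
  rw [LinearMap.BilinForm.mem_orthogonal_iff]
  constructor
  · intro h; exact h v (Submodule.mem_span_singleton_self v)
  · intro h y hy
    obtain ⟨c, rfl⟩ := Submodule.mem_span_singleton.mp hy
    simp [h]

theorem finrank_orth {F V : Type*} [Field F] [AddCommGroup V] [Module F V]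
    [FiniteDimensional F V] {n : ℕ} (hV : Module.finrank F V = n + 1)
    (B : LinearMap.BilinForm F V) {v : V} (hv : B v v ≠ 0) :
    Module.finrank F (B.orthogonal (Submodule.span F {v})) = n := by
  have hc := LinearMap.BilinForm.isCompl_span_singleton_orthogonal hv
  have h1 := Submodule.finrank_add_eq_of_isCompl hc
  have hv0 : v ≠ 0 := by
    rintro rfl
    simp at hv
  rw [finrank_span_singleton hv0, hV] at h1
  omega

theorem hli_aux {F V : Type*} [Field F] [AddCommGroup V] [Module F V]
    (B : LinearMap.BilinForm F V) {v : V} (hv : B v v ≠ 0) :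
    ∀ (c : F), ∀ x ∈ B.orthogonal (Submodule.span F {v}), c • v + x = 0 → c = 0 := by
  intro c x hx h
  have h1 : B v (c • v + x) = 0 := by rw [h]; simp
  rw [map_add, map_smul, (mem_orth_iff B v x).mp hx, add_zero, smul_eq_mul] at h1
  exact (mul_eq_zero.mp h1).resolve_right hv

theorem hsp_aux {F V : Type*} [Field F] [AddCommGroup V] [Module F V]
    (B : LinearMap.BilinForm F V) {v : V} (hv : B v v ≠ 0) :
    ∀ z : V, ∃ c : F, z + c • v ∈ B.orthogonal (Submodule.span F {v}) := by
  intro z
  refine ⟨- B v z / B v v, ?_⟩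
  rw [mem_orth_iff]
  simp only [map_add, map_smul, smul_eq_mul]
  field_simp
  ring

theorem rep_one {F : Type*} [Field F] [Fintype F] (h2 : (2 : F) ≠ 0) {a b : F} (ha : a ≠ 0)
    (hb : b ≠ 0) : ∃ x y : F, a * x ^ 2 + b * y ^ 2 = 1 := by
  classical
  have hchar : ringChar F ≠ 2 := by
    intro h
    apply h2
    have := ringChar.Nat.cast_ringChar (R := F)
    rw [h] at this
    exact_mod_cast this
  have hodd := FiniteField.odd_card_of_char_ne_two hchar
  have hf : (Polynomial.C a * Polynomial.X ^ 2 : Polynomial F).degree = 2 :=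
    Polynomial.degree_C_mul_X_pow 2 ha
  have hg : (Polynomial.C b * Polynomial.X ^ 2 - Polynomial.C 1 : Polynomial F).degree = 2 := by
    rw [Polynomial.degree_sub_eq_left_of_degree_lt]
    · exact Polynomial.degree_C_mul_X_pow 2 hb
    · rw [Polynomial.degree_C_mul_X_pow 2 hb]
      exact lt_of_le_of_lt Polynomial.degree_C_le (by norm_num)
  obtain ⟨x, y, hxy⟩ := FiniteField.exists_root_sum_quadratic hf hg hodd
  refine ⟨x, y, ?_⟩
  simp only [Polynomial.eval_mul, Polynomial.eval_C, Polynomial.eval_pow, Polynomial.eval_X,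
    Polynomial.eval_sub] at hxy
  linear_combination hxy

theorem exists_nonisotropic {F V : Type*} [Field F] (h2 : (2 : F) ≠ 0) [AddCommGroup V]
    [Module F V] [FiniteDimensional F V] (B : LinearMap.BilinForm F V) (hS : B.IsSymm)
    (hB : B.Nondegenerate) (hpos : 0 < Module.finrank F V) : ∃ v, B v v ≠ 0 := by
  by_contra hcon
  push Not at hcon
  obtain ⟨v, hv⟩ := Module.finrank_pos_iff_exists_ne_zero.mp hpos
  apply hv
  apply hB.1 v
  intro w
  have h1 := hcon (v + w)
  simp only [map_add, LinearMap.add_apply, hcon v, hcon w, hS.eq w v] at h1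
  have h3 : 2 * B v w = 0 := by linear_combination h1
  exact (mul_eq_zero.mp h3).resolve_left h2

theorem exists_norm_one {F V : Type*} [Field F] [Fintype F] (h2 : (2 : F) ≠ 0) [AddCommGroup V]
    [Module F V] [FiniteDimensional F V] {n : ℕ} (hV : Module.finrank F V = n + 2)
    (B : LinearMap.BilinForm F V) (hS : B.IsSymm) (hB : B.Nondegenerate) : ∃ v, B v v = 1 := by
  obtain ⟨v₁, hv₁⟩ := exists_nonisotropic h2 B hS hB (by omega)
  have hWnd := LinearMap.BilinForm.restrict_nondegenerate_orthogonal_spanSingleton B hB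
    hS.isRefl hv₁
  have hWdim : Module.finrank F (B.orthogonal (Submodule.span F {v₁})) = n + 1 :=
    finrank_orth hV B hv₁
  obtain ⟨v₂, hv₂⟩ := exists_nonisotropic h2 (B.restrict _) (hS.restrict _) hWnd (by omega)
  have hv₂' : B (v₂ : V) (v₂ : V) ≠ 0 := hv₂
  have h12 : B v₁ (v₂ : V) = 0 := (mem_orth_iff B v₁ v₂).mp v₂.2
  obtain ⟨x, y, hxy⟩ := rep_one h2 hv₁ hv₂'
  refine ⟨x • v₁ + y • (v₂ : V), ?_⟩
  simp only [map_add, map_smul, LinearMap.add_apply, LinearMap.smul_apply, smul_eq_mul, h12,
    hS.eq (v₂ : V) v₁]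
  linear_combination hxy

theorem normal_form {F : Type*} [Field F] [Fintype F] (h2 : (2 : F) ≠ 0) :
    ∀ (n : ℕ) (V : Type*) [AddCommGroup V] [Module F V] [FiniteDimensional F V],
      Module.finrank F V = n + 1 → ∀ (B : LinearMap.BilinForm F V), B.IsSymm → B.Nondegenerate →
      ∃ (b : Module.Basis (Fin (n + 1)) F V) (d : F), d ≠ 0 ∧
        ∀ i j, B (b i) (b j) = if i = j then (if i = Fin.last n then d else 1) else 0 := by
  intro n
  induction n with
  | zero =>
    intro V _ _ _ hV B hS hB
    obtain ⟨v, hv⟩ := exists_nonisotropic h2 B hS hB (by omega)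
    have hWdim : Module.finrank F (B.orthogonal (Submodule.span F {v})) = 0 :=
      finrank_orth hV B hv
    refine ⟨Module.Basis.mkFinCons v (Module.finBasisOfFinrankEq F _ hWdim) (hli_aux B hv)
      (hsp_aux B hv), B v v, hv, ?_⟩
    intro i j
    have hi : i = 0 := Fin.ext (by have := i.2; simp only [Fin.val_zero]; omega)
    have hj : j = 0 := Fin.ext (by have := j.2; simp only [Fin.val_zero]; omega)
    subst hi hj
    rw [Module.Basis.coe_mkFinCons]
    simp
  | succ n ih =>
    intro V _ _ _ hV B hS hB
    obtain ⟨v, hv⟩ := exists_norm_one h2 hV B hS hB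
    have hv1 : B v v ≠ 0 := by rw [hv]; exact one_ne_zero
    have hWnd := LinearMap.BilinForm.restrict_nondegenerate_orthogonal_spanSingleton B hB
      hS.isRefl hv1
    have hWdim : Module.finrank F (B.orthogonal (Submodule.span F {v})) = n + 1 :=
      finrank_orth hV B hv1
    obtain ⟨bW, d, hd, hbW⟩ := ih (B.orthogonal (Submodule.span F {v})) hWdim
      (B.restrict (B.orthogonal (Submodule.span F {v}))) (hS.restrict _) hWnd
    refine ⟨Module.Basis.mkFinCons v bW (hli_aux B hv1) (hsp_aux B hv1), d, hd, ?_⟩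
    intro i j
    rw [Module.Basis.coe_mkFinCons]
    refine Fin.cases ?_ (fun i' => ?_) i <;> refine Fin.cases ?_ (fun j' => ?_) j
    · simp [hv, (Fin.last_pos (n := n)).ne]
    · simp only [Fin.cons_zero, Fin.cons_succ, Function.comp_apply]
      rw [(mem_orth_iff B v _).mp (bW j').2]
      simp [(Fin.succ_ne_zero j').symm]
    · simp only [Fin.cons_zero, Fin.cons_succ, Function.comp_apply]
      rw [hS.eq, (mem_orth_iff B v _).mp (bW i').2]
      simp [Fin.succ_ne_zero i']
    · simp only [Fin.cons_succ, Function.comp_apply]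
      have h3 : B (bW i' : V) (bW j' : V) = _ := hbW i' j'
      rw [h3]
      simp [Fin.succ_inj, Fin.succ_eq_last_succ]

theorem gram_det' {F : Type*} [Field F] {n : ℕ} (B : LinearMap.BilinForm F (Fin n → F))
    (b : Module.Basis (Fin n) F (Fin n → F)) :
    ∃ e : F, e ≠ 0 ∧ (Matrix.of (fun i j : Fin n => B (b i) (b j))).det =
      e * e * (Matrix.of (fun i j : Fin n => B (Pi.single i 1) (Pi.single j 1))).det := by
  classical
  have hG : Matrix.of (fun i j : Fin n => B (b i) (b j)) = LinearMap.BilinForm.toMatrix b B := by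
    ext i j
    rw [Matrix.of_apply, LinearMap.BilinForm.toMatrix_apply]
  have hG₀ : Matrix.of (fun i j : Fin n => B (Pi.single i 1) (Pi.single j 1)) =
      LinearMap.BilinForm.toMatrix (Pi.basisFun F (Fin n)) B := by
    ext i j
    rw [Matrix.of_apply, LinearMap.BilinForm.toMatrix_apply, Pi.basisFun_apply, Pi.basisFun_apply]
  have hmul := LinearMap.BilinForm.toMatrix_mul_basis_toMatrix (Pi.basisFun F (Fin n)) b B
  refine ⟨((Pi.basisFun F (Fin n)).toMatrix b).det, ?_, ?_⟩
  · intro h0
    have h1 := congrArg Matrix.det (Module.Basis.toMatrix_mul_toMatrix_flip (Pi.basisFun F (Fin n)) b)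
    rw [Matrix.det_mul, h0, zero_mul, Matrix.det_one] at h1
    exact zero_ne_one h1
  · rw [hG, hG₀, ← hmul, Matrix.det_mul, Matrix.det_mul, Matrix.det_transpose]
    ring

theorem det_normal {F : Type*} [Field F] (n : ℕ) (d : F) :
    (Matrix.of (fun i j : Fin (n + 1) =>
      if i = j then (if i = Fin.last n then d else (1 : F)) else 0)).det = d := by
  have h : Matrix.of (fun i j : Fin (n + 1) =>
      if i = j then (if i = Fin.last n then d else (1 : F)) else 0) =
      Matrix.diagonal (fun i => if i = Fin.last n then d else 1) := by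
    ext i j
    simp [Matrix.diagonal_apply]
  rw [h, Matrix.det_diagonal, Finset.prod_ite_eq']
  simp

/-- Over a finite field of odd order, two quadratic forms on F^n with non-degenerate polar forms are isometric (related by an invertible linear change of variables) if and only if their discriminants (determinants of the Gram matrices of their polar forms) lie in the same square class. -/
theorem result {F : Type*} [Field F] [Fintype F] (h2 : (2 : F) ≠ 0) {n : ℕ} (Q₁ Q₂ : QuadraticForm F (Fin n → F)) (h₁ : (QuadraticMap.polarBilin Q₁).Nondegenerate) (h₂ : (QuadraticMap.polarBilin Q₂).Nondegenerate) : (∃ g : (Fin n → F) ≃ₗ[F] (Fin n → F), ∀ v, Q₂ (g v) = Q₁ v) ↔ IsSquare ((Matrix.of (fun i j : Fin n => QuadraticMap.polar ⇑Q₁ (Pi.single i 1) (Pi.single j 1))).det * (Matrix.of (fun i j : Fin n => QuadraticMap.polar ⇑Q₂ (Pi.single i 1) (Pi.single j 1))).det) := by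
  classical
  have hQB : ∀ (Q : QuadraticForm F (Fin n → F)) (v : Fin n → F),
      QuadraticMap.polarBilin Q v v = 2 * Q v := by
    intro Q v
    rw [QuadraticMap.polarBilin_apply_apply, QuadraticMap.polar_self]
    simp [two_mul]
  have hSymm : ∀ (Q : QuadraticForm F (Fin n → F)),
      LinearMap.BilinForm.IsSymm (QuadraticMap.polarBilin Q) :=
    fun Q => ⟨fun x y => QuadraticMap.polar_comm _ x y⟩
  constructor
  · rintro ⟨g, hg⟩
    have hBg : ∀ u v, QuadraticMap.polarBilin Q₂ (g u) (g v) = QuadraticMap.polarBilin Q₁ u v := by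
      intro u v
      simp only [QuadraticMap.polarBilin_apply_apply, QuadraticMap.polar, ← map_add, hg]
    obtain ⟨e, he, hdet⟩ := gram_det' (QuadraticMap.polarBilin Q₂) ((Pi.basisFun F (Fin n)).map g)
    have h1 : Matrix.of (fun i j : Fin n => QuadraticMap.polarBilin Q₂
          (((Pi.basisFun F (Fin n)).map g) i) (((Pi.basisFun F (Fin n)).map g) j)) =
        Matrix.of (fun i j : Fin n => QuadraticMap.polar ⇑Q₁ (Pi.single i 1) (Pi.single j 1)) := by
      ext i j
      simp only [Matrix.of_apply, Module.Basis.map_apply, Pi.basisFun_apply, hBg]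
      rfl
    rw [h1] at hdet
    have h2' : Matrix.of (fun i j : Fin n => QuadraticMap.polarBilin Q₂
          (Pi.single i 1) (Pi.single j 1)) =
        Matrix.of (fun i j : Fin n => QuadraticMap.polar ⇑Q₂ (Pi.single i 1) (Pi.single j 1)) :=
      rfl
    rw [h2'] at hdet
    rw [hdet]
    exact ⟨e * (Matrix.of (fun i j : Fin n =>
      QuadraticMap.polar ⇑Q₂ (Pi.single i 1) (Pi.single j 1))).det, by ring⟩
  · intro hsq
    cases n with
    | zero =>
      refine ⟨LinearEquiv.refl F _, fun v => ?_⟩
      have hv : v = 0 := Subsingleton.elim _ _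
      subst hv
      rw [map_zero, QuadraticMap.map_zero, QuadraticMap.map_zero]
    | succ m =>
      obtain ⟨b₁, d₁, hd₁, hb₁⟩ := normal_form h2 m (Fin (m + 1) → F) (by simp)
        (QuadraticMap.polarBilin Q₁) (hSymm Q₁) h₁
      obtain ⟨b₂, d₂, hd₂, hb₂⟩ := normal_form h2 m (Fin (m + 1) → F) (by simp)
        (QuadraticMap.polarBilin Q₂) (hSymm Q₂) h₂
      obtain ⟨e₁, he₁, hdet₁⟩ := gram_det' (QuadraticMap.polarBilin Q₁) b₁
      obtain ⟨e₂, he₂, hdet₂⟩ := gram_det' (QuadraticMap.polarBilin Q₂) b₂
      have hG₁ : Matrix.of (fun i j => QuadraticMap.polarBilin Q₁ (b₁ i) (b₁ j)) =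
          Matrix.of (fun i j : Fin (m + 1) =>
            if i = j then (if i = Fin.last m then d₁ else (1 : F)) else 0) := by
        ext i j
        exact hb₁ i j
      have hG₂ : Matrix.of (fun i j => QuadraticMap.polarBilin Q₂ (b₂ i) (b₂ j)) =
          Matrix.of (fun i j : Fin (m + 1) =>
            if i = j then (if i = Fin.last m then d₂ else (1 : F)) else 0) := by
        ext i j
        exact hb₂ i j
      rw [hG₁, det_normal] at hdet₁
      rw [hG₂, det_normal] at hdet₂
      have hsq' : IsSquare (d₁ * d₂) := by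
        obtain ⟨r, hr⟩ := hsq
        refine ⟨e₁ * e₂ * r, ?_⟩
        rw [hdet₁, hdet₂]
        have hr' : (Matrix.of (fun i j : Fin (m + 1) => QuadraticMap.polarBilin Q₁
              (Pi.single i 1) (Pi.single j 1))).det *
            (Matrix.of (fun i j : Fin (m + 1) => QuadraticMap.polarBilin Q₂
              (Pi.single i 1) (Pi.single j 1))).det = r * r := hr
        linear_combination (e₁ * e₁ * e₂ * e₂) * hr'
      obtain ⟨s, hs⟩ := hsq'
      have hs0 : s ≠ 0 := by
        rintro rfl
        simp only [mul_zero, mul_eq_zero] at hs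
        rcases hs with h | h
        · exact hd₁ h
        · exact hd₂ h
      have ht0 : s / d₂ ≠ 0 := div_ne_zero hs0 hd₂
      have htd : (s / d₂) * (s / d₂) * d₂ = d₁ := by
        field_simp
        linear_combination -hs
      let w : Fin (m + 1) → Fˣ := fun i => if i = Fin.last m then Units.mk0 (s / d₂) ht0 else 1
      let g := b₁.equiv (b₂.unitsSMul w) (Equiv.refl _)
      have hg : ∀ i, g (b₁ i) = (w i : F) • b₂ i := fun i => by
        simp only [g, Module.Basis.equiv_apply, Equiv.refl_apply, Module.Basis.unitsSMul_apply]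
        rfl
      have hcomp : LinearMap.BilinForm.comp (QuadraticMap.polarBilin Q₂) g.toLinearMap
          g.toLinearMap = (QuadraticMap.polarBilin Q₁ : LinearMap.BilinForm F _) := by
        apply LinearMap.BilinForm.ext_basis b₁
        intro i j
        simp only [LinearMap.BilinForm.comp_apply, LinearEquiv.coe_coe, hg]
        rw [hb₁ i j]
        simp only [map_smul, LinearMap.smul_apply, smul_eq_mul, hb₂ i j]
        by_cases hij : i = j
        · subst hij
          by_cases hi : i = Fin.last m
          · simp only [w, hi, if_true, Units.val_mk0]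
            linear_combination htd
          · simp [w, hi]
        · simp [hij]
      refine ⟨g, fun v => ?_⟩
      have h3 : QuadraticMap.polarBilin Q₂ (g v) (g v) = QuadraticMap.polarBilin Q₁ v v := by
        rw [← hcomp]
        rfl
      rw [hQB, hQB] at h3
      exact mul_left_cancel₀ h2 h3

end Cfsg.Agent.S2623
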