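import Cfsg.Statements.S2618
import Mathlib
import Cfsg.Agent.S2623

set_option autoImplicit false
open Cfsg

namespace Cfsg.Agent.S2618


section
variable {F V : Type*} [Field F] [AddCommGroup V] [Module F V]

/-- restriction of a quadratic form to a submodule -/
noncomputable abbrev res (Q : QuadraticForm F V) (W : Submodule F V) : QuadraticForm F W :=
  Q.comp W.subtype

theorem res_apply (Q : QuadraticForm F V) (W : Submodule F V) (w : W) :
    res Q W w = Q (w : V) := rfl

theorem polar_res (Q : QuadraticForm F V) (W : Submodule F V) (w w' : W) :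
    QuadraticMap.polar ⇑(res Q W) w w' = QuadraticMap.polar ⇑Q (w : V) (w' : V) := rfl

/-- the common orthogonal of two vectors -/
def perp2 (Q : QuadraticForm F V) (e f : V) : Submodule F V :=
  LinearMap.ker (QuadraticMap.polarBilin Q e) ⊓ LinearMap.ker (QuadraticMap.polarBilin Q f)

theorem mem_perp2 (Q : QuadraticForm F V) (e f w : V) :
    w ∈ perp2 Q e f ↔ QuadraticMap.polar ⇑Q e w = 0 ∧ QuadraticMap.polar ⇑Q f w = 0 := by
  unfold perp2
  rw [Submodule.mem_inf, LinearMap.mem_ker, LinearMap.mem_ker]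
  rfl

theorem polar_self_zero (Q : QuadraticForm F V) {e : V} (h : Q e = 0) :
    QuadraticMap.polar ⇑Q e e = 0 := by
  rw [QuadraticMap.polar_self, h, smul_zero]

theorem exists_hyp_pair (Q : QuadraticForm F V)
    (hQ : (QuadraticMap.polarBilin Q).Nondegenerate) (e : V) (he : e ≠ 0) (hQe : Q e = 0) :
    ∃ f, Q f = 0 ∧ QuadraticMap.polar ⇑Q e f = 1 := by
  have hex : ∃ f₀, QuadraticMap.polar ⇑Q e f₀ ≠ 0 := by
    by_contra hcon
    push Not at hcon
    exact he (hQ.1 e hcon)
  obtain ⟨f₀, hf₀⟩ := hex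
  have h1 : QuadraticMap.polar ⇑Q e ((QuadraticMap.polar ⇑Q e f₀)⁻¹ • f₀) = 1 := by
    rw [QuadraticMap.polar_smul_right, smul_eq_mul, inv_mul_cancel₀ hf₀]
  generalize (QuadraticMap.polar ⇑Q e f₀)⁻¹ • f₀ = f₁ at h1
  have hee : QuadraticMap.polar ⇑Q e e = 0 := polar_self_zero Q hQe
  refine ⟨f₁ - Q f₁ • e, ?_, ?_⟩
  · rw [sub_eq_add_neg, QuadraticMap.map_add (⇑Q), QuadraticMap.map_neg, QuadraticMap.map_smul,
      hQe, QuadraticMap.polar_neg_right, QuadraticMap.polar_smul_right,
      QuadraticMap.polar_comm (⇑Q) f₁ e, h1]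
    simp
  · rw [QuadraticMap.polar_sub_right, QuadraticMap.polar_smul_right, h1, hee]
    simp

theorem finrank_perp2 [FiniteDimensional F V] (Q : QuadraticForm F V) (e f : V)
    (hQe : Q e = 0) (hQf : Q f = 0) (hef : QuadraticMap.polar ⇑Q e f = 1) :
    Module.finrank F (perp2 Q e f) + 2 = Module.finrank F V := by
  have hee : QuadraticMap.polar ⇑Q e e = 0 := polar_self_zero Q hQe
  have hff : QuadraticMap.polar ⇑Q f f = 0 := polar_self_zero Q hQf
  have hfe : QuadraticMap.polar ⇑Q f e = 1 := by rw [QuadraticMap.polar_comm, hef]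
  set L : V →ₗ[F] F × F :=
    (QuadraticMap.polarBilin Q e).prod (QuadraticMap.polarBilin Q f) with hL
  have hker : LinearMap.ker L = perp2 Q e f := LinearMap.ker_prod _ _
  have hrange : LinearMap.range L = ⊤ := by
    rw [LinearMap.range_eq_top]
    rintro ⟨a, b⟩
    refine ⟨a • f + b • e, ?_⟩
    show (QuadraticMap.polar ⇑Q e (a • f + b • e), QuadraticMap.polar ⇑Q f (a • f + b • e))
      = (a, b)
    rw [QuadraticMap.polar_add_right, QuadraticMap.polar_add_right,
      QuadraticMap.polar_smul_right, QuadraticMap.polar_smul_right,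
      QuadraticMap.polar_smul_right, QuadraticMap.polar_smul_right, hef, hee, hff, hfe]
    simp
  have h1 := LinearMap.finrank_range_add_finrank_ker L
  rw [hrange, hker, finrank_top, Module.finrank_prod, Module.finrank_self] at h1
  omega

theorem nondeg_perp2 [FiniteDimensional F V] (Q : QuadraticForm F V)
    (hQ : (QuadraticMap.polarBilin Q).Nondegenerate) (e f : V)
    (hQe : Q e = 0) (hQf : Q f = 0) (hef : QuadraticMap.polar ⇑Q e f = 1) :
    (QuadraticMap.polarBilin (res Q (perp2 Q e f))).Nondegenerate := by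
  have hee : QuadraticMap.polar ⇑Q e e = 0 := polar_self_zero Q hQe
  have hff : QuadraticMap.polar ⇑Q f f = 0 := polar_self_zero Q hQf
  have hfe : QuadraticMap.polar ⇑Q f e = 1 := by rw [QuadraticMap.polar_comm, hef]
  apply LinearMap.BilinForm.Nondegenerate.ofSeparatingLeft
  intro w hw
  have hwe : QuadraticMap.polar ⇑Q e w = 0 := ((mem_perp2 Q e f w).mp w.2).1
  have hwf : QuadraticMap.polar ⇑Q f w = 0 := ((mem_perp2 Q e f w).mp w.2).2
  have key : ∀ v : V, QuadraticMap.polar ⇑Q (w : V) v = 0 := by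
    intro v
    have hv' : v - QuadraticMap.polar ⇑Q f v • e - QuadraticMap.polar ⇑Q e v • f
        ∈ perp2 Q e f := by
      rw [mem_perp2]
      constructor
      · simp only [QuadraticMap.polar_sub_right, QuadraticMap.polar_smul_right, hee, hef,
          smul_eq_mul]
        ring
      · simp only [QuadraticMap.polar_sub_right, QuadraticMap.polar_smul_right, hfe, hff,
          smul_eq_mul]
        ring
    have h2 : QuadraticMap.polar ⇑Q (w : V)
        (v - QuadraticMap.polar ⇑Q f v • e - QuadraticMap.polar ⇑Q e v • f) = 0 :=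
      hw ⟨_, hv'⟩
    simp only [QuadraticMap.polar_sub_right, QuadraticMap.polar_smul_right,
      QuadraticMap.polar_comm (⇑Q) (w : V) e, QuadraticMap.polar_comm (⇑Q) (w : V) f, hwe, hwf,
      smul_eq_mul, mul_zero, sub_zero] at h2
    exact h2
  exact Subtype.ext (hQ.1 (w : V) key)

/-- hyperbolic family -/
def IsHyp (Q : QuadraticForm F V) {n : ℕ} (e f : Fin n → V) : Prop :=
  (∀ i, Q (e i) = 0 ∧ Q (f i) = 0) ∧
  (∀ i j, QuadraticMap.polar ⇑Q (e i) (f j) = if i = j then 1 else 0) ∧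
  (∀ i j, QuadraticMap.polar ⇑Q (e i) (e j) = 0 ∧ QuadraticMap.polar ⇑Q (f i) (f j) = 0)

theorem IsHyp.cons (Q : QuadraticForm F V) (e₀ f₀ : V) (hQe : Q e₀ = 0) (hQf : Q f₀ = 0)
    (hef : QuadraticMap.polar ⇑Q e₀ f₀ = 1) {n : ℕ} (e f : Fin n → perp2 Q e₀ f₀)
    (h : IsHyp (res Q (perp2 Q e₀ f₀)) e f) :
    IsHyp Q (Fin.cons e₀ (fun i => (e i : V)) : Fin (n + 1) → V)
      (Fin.cons f₀ (fun i => (f i : V))) := by
  obtain ⟨h1, h2, h3⟩ := h
  have hee : QuadraticMap.polar ⇑Q e₀ e₀ = 0 := polar_self_zero Q hQe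
  have hff : QuadraticMap.polar ⇑Q f₀ f₀ = 0 := polar_self_zero Q hQf
  have hmem : ∀ w : perp2 Q e₀ f₀, QuadraticMap.polar ⇑Q e₀ w = 0 ∧
      QuadraticMap.polar ⇑Q f₀ w = 0 := fun w => (mem_perp2 Q e₀ f₀ w).mp w.2
  have hmem' : ∀ w : perp2 Q e₀ f₀, QuadraticMap.polar ⇑Q (w : V) e₀ = 0 ∧
      QuadraticMap.polar ⇑Q (w : V) f₀ = 0 := fun w => by
    rw [QuadraticMap.polar_comm (⇑Q) (w : V) e₀, QuadraticMap.polar_comm (⇑Q) (w : V) f₀]
    exact hmem w
  refine ⟨?_, ?_, ?_⟩
  · intro i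
    refine Fin.cases ?_ (fun i' => ?_) i
    · simp only [Fin.cons_zero]
      exact ⟨hQe, hQf⟩
    · simp only [Fin.cons_succ]
      exact h1 i'
  · intro i j
    refine Fin.cases ?_ (fun i' => ?_) i <;> refine Fin.cases ?_ (fun j' => ?_) j
    · simp [hef]
    · simp only [Fin.cons_zero, Fin.cons_succ]
      rw [(hmem _).1]
      simp [(Fin.succ_ne_zero j').symm]
    · simp only [Fin.cons_zero, Fin.cons_succ]
      rw [(hmem' _).2]
      simp [Fin.succ_ne_zero i']
    · simp only [Fin.cons_succ]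
      rw [← polar_res, h2 i' j']
      simp [Fin.succ_inj]
  · intro i j
    refine Fin.cases ?_ (fun i' => ?_) i <;> refine Fin.cases ?_ (fun j' => ?_) j
    · simp only [Fin.cons_zero]
      exact ⟨hee, hff⟩
    · simp only [Fin.cons_zero, Fin.cons_succ]
      exact ⟨(hmem _).1, (hmem _).2⟩
    · simp only [Fin.cons_zero, Fin.cons_succ]
      exact ⟨(hmem' _).1, (hmem' _).2⟩
    · simp only [Fin.cons_succ]
      exact h3 i' j'

theorem li_of_dual {ι : Type*} [Fintype ι] [DecidableEq ι] (B : LinearMap.BilinForm F V)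
    (v w : ι → V) (h : ∀ i j, B (v i) (w j) = if i = j then 1 else 0) :
    LinearIndependent F v := by
  rw [Fintype.linearIndependent_iff]
  intro c hc j
  have h1 : B (∑ i, c i • v i) (w j) = 0 := by rw [hc]; simp
  rw [map_sum, LinearMap.sum_apply] at h1
  simp only [map_smul, LinearMap.smul_apply, h, smul_eq_mul, mul_ite, mul_one, mul_zero,
    Finset.sum_ite_eq', Finset.mem_univ, if_true] at h1
  exact h1

end

theorem two_orth {F V : Type*} [Field F] (h2 : (2 : F) ≠ 0) [AddCommGroup V] [Module F V]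
    [FiniteDimensional F V] {k : ℕ} (hk : Module.finrank F V = k + 2)
    (B : LinearMap.BilinForm F V) (hS : B.IsSymm) (hB : B.Nondegenerate) :
    ∃ v₁ v₂ : V, B v₁ v₁ ≠ 0 ∧ B v₂ v₂ ≠ 0 ∧ B v₁ v₂ = 0 := by
  obtain ⟨v₁, hv₁⟩ := Cfsg.Agent.S2623.exists_nonisotropic h2 B hS hB (by omega)
  have hWnd := LinearMap.BilinForm.restrict_nondegenerate_orthogonal_spanSingleton B hB
    hS.isRefl hv₁
  have hWdim : Module.finrank F (B.orthogonal (Submodule.span F {v₁})) = k + 1 :=
    Cfsg.Agent.S2623.finrank_orth hk B hv₁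
  obtain ⟨v₂, hv₂⟩ := Cfsg.Agent.S2623.exists_nonisotropic h2 (B.restrict _) (hS.restrict _)
    hWnd (by omega)
  exact ⟨v₁, (v₂ : V), hv₁, hv₂, (Cfsg.Agent.S2623.mem_orth_iff B v₁ v₂).mp v₂.2⟩

theorem three_orth {F V : Type*} [Field F] (h2 : (2 : F) ≠ 0) [AddCommGroup V] [Module F V]
    [FiniteDimensional F V] {k : ℕ} (hk : Module.finrank F V = k + 3)
    (B : LinearMap.BilinForm F V) (hS : B.IsSymm) (hB : B.Nondegenerate) :
    ∃ v₁ v₂ v₃ : V, B v₁ v₁ ≠ 0 ∧ B v₂ v₂ ≠ 0 ∧ B v₃ v₃ ≠ 0 ∧ B v₁ v₂ = 0 ∧ B v₁ v₃ = 0 ∧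
      B v₂ v₃ = 0 := by
  obtain ⟨v₁, hv₁⟩ := Cfsg.Agent.S2623.exists_nonisotropic h2 B hS hB (by omega)
  have hWnd := LinearMap.BilinForm.restrict_nondegenerate_orthogonal_spanSingleton B hB
    hS.isRefl hv₁
  have hWdim : Module.finrank F (B.orthogonal (Submodule.span F {v₁})) = k + 2 :=
    Cfsg.Agent.S2623.finrank_orth hk B hv₁
  obtain ⟨w₂, w₃, hw₂, hw₃, hw₂₃⟩ := two_orth h2 hWdim (B.restrict _) (hS.restrict _) hWnd
  exact ⟨v₁, (w₂ : V), (w₃ : V), hv₁, hw₂, hw₃,
    (Cfsg.Agent.S2623.mem_orth_iff B v₁ w₂).mp w₂.2,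
    (Cfsg.Agent.S2623.mem_orth_iff B v₁ w₃).mp w₃.2, hw₂₃⟩

theorem rep_zero {F : Type*} [Field F] [Finite F] (h2 : (2 : F) ≠ 0) {a b c : F} (ha : a ≠ 0)
    (hb : b ≠ 0) : ∃ x y : F, a * x ^ 2 + b * y ^ 2 + c = 0 := by
  classical
  have := Fintype.ofFinite F
  have hchar : ringChar F ≠ 2 := by
    intro h
    apply h2
    have := ringChar.Nat.cast_ringChar (R := F)
    rw [h] at this
    exact_mod_cast this
  have hodd := FiniteField.odd_card_of_char_ne_two hchar
  have hf : (Polynomial.C a * Polynomial.X ^ 2 : Polynomial F).degree = 2 :=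
    Polynomial.degree_C_mul_X_pow 2 ha
  have hg : (Polynomial.C b * Polynomial.X ^ 2 + Polynomial.C c : Polynomial F).degree = 2 := by
    rw [Polynomial.degree_add_eq_left_of_degree_lt]
    · exact Polynomial.degree_C_mul_X_pow 2 hb
    · rw [Polynomial.degree_C_mul_X_pow 2 hb]
      exact lt_of_le_of_lt Polynomial.degree_C_le (by norm_num)
  obtain ⟨x, y, hxy⟩ := FiniteField.exists_root_sum_quadratic hf hg hodd
  refine ⟨x, y, ?_⟩
  simp only [Polynomial.eval_mul, Polynomial.eval_C, Polynomial.eval_pow, Polynomial.eval_X,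
    Polynomial.eval_add] at hxy
  linear_combination hxy

theorem exists_isotropic {F V : Type*} [Field F] [Finite F] [AddCommGroup V] [Module F V]
    [FiniteDimensional F V] (Q : QuadraticForm F V)
    (hQ : (QuadraticMap.polarBilin Q).Nondegenerate) (hdim : 3 ≤ Module.finrank F V) :
    ∃ e : V, e ≠ 0 ∧ Q e = 0 := by
  classical
  by_cases h2 : (2 : F) = 0
  · have hchar : ringChar F = 2 :=
      CharP.ringChar_of_prime_eq_zero Nat.prime_two (by exact_mod_cast h2)
    obtain ⟨v₁, hv₁⟩ := Module.finrank_pos_iff_exists_ne_zero.mp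
      (by omega : 0 < Module.finrank F V)
    by_cases hQv : Q v₁ = 0
    · exact ⟨v₁, hv₁, hQv⟩
    have hdimW : 2 ≤ Module.finrank F (LinearMap.ker (QuadraticMap.polarBilin Q v₁)) := by
      have h1 := LinearMap.finrank_range_add_finrank_ker (QuadraticMap.polarBilin Q v₁)
      have h3 : Module.finrank F (LinearMap.range (QuadraticMap.polarBilin Q v₁)) ≤ 1 := by
        have := Submodule.finrank_le (LinearMap.range (QuadraticMap.polarBilin Q v₁))
        rwa [Module.finrank_self] at this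
      omega
    have hex : ∃ w ∈ LinearMap.ker (QuadraticMap.polarBilin Q v₁),
        w ∉ Submodule.span F {v₁} := by
      by_contra hcon
      push Not at hcon
      have hle : LinearMap.ker (QuadraticMap.polarBilin Q v₁) ≤ Submodule.span F {v₁} := hcon
      have := Submodule.finrank_mono hle
      rw [finrank_span_singleton hv₁] at this
      omega
    obtain ⟨w, hw, hwn⟩ := hex
    have hvw : QuadraticMap.polar ⇑Q v₁ w = 0 := LinearMap.mem_ker.mp hw
    obtain ⟨s, hs⟩ := FiniteField.isSquare_of_char_two hchar (Q w / Q v₁)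
    refine ⟨s • v₁ + w, ?_, ?_⟩
    · intro h0
      apply hwn
      have hw' : w = (-s) • v₁ := by
        rw [neg_smul]
        exact eq_neg_of_add_eq_zero_right h0
      rw [hw']
      exact Submodule.smul_mem _ _ (Submodule.mem_span_singleton_self v₁)
    · rw [QuadraticMap.map_add (⇑Q), QuadraticMap.map_smul, QuadraticMap.polar_smul_left, hvw,
        smul_eq_mul, smul_eq_mul, ← hs]
      field_simp
      linear_combination (Q w) * h2
  · obtain ⟨k, hk⟩ : ∃ k, Module.finrank F V = k + 3 := ⟨Module.finrank F V - 3, by omega⟩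
    have hS : LinearMap.BilinForm.IsSymm (QuadraticMap.polarBilin Q) :=
      ⟨fun x y => QuadraticMap.polar_comm _ x y⟩
    obtain ⟨v₁, v₂, v₃, h11, h22, h33, h12, h13, h23⟩ :=
      three_orth h2 hk (QuadraticMap.polarBilin Q) hS hQ
    have hBQ : ∀ v, QuadraticMap.polarBilin Q v v = 2 * Q v := by
      intro v
      rw [QuadraticMap.polarBilin_apply_apply, QuadraticMap.polar_self]
      simp [two_mul]
    have ha₁ : Q v₁ ≠ 0 := fun h => h11 (by rw [hBQ, h, mul_zero])
    have ha₂ : Q v₂ ≠ 0 := fun h => h22 (by rw [hBQ, h, mul_zero])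
    obtain ⟨x, y, hxy⟩ := rep_zero h2 (c := Q v₃) ha₁ ha₂
    have h12' : QuadraticMap.polar ⇑Q v₁ v₂ = 0 := h12
    have h13' : QuadraticMap.polar ⇑Q v₁ v₃ = 0 := h13
    have h23' : QuadraticMap.polar ⇑Q v₂ v₃ = 0 := h23
    have h33' : QuadraticMap.polar ⇑Q v₃ v₃ ≠ 0 := h33
    refine ⟨x • v₁ + y • v₂ + v₃, ?_, ?_⟩
    · intro h0
      apply h33'
      have h1 : QuadraticMap.polar ⇑Q (x • v₁ + y • v₂ + v₃) v₃ = 0 := by
        rw [h0, QuadraticMap.polar_zero_left]
      simpa only [QuadraticMap.polar_add_left, QuadraticMap.polar_smul_left, h13', h23',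
        smul_zero, zero_add] using h1
    · rw [QuadraticMap.map_add (⇑Q), QuadraticMap.map_add (⇑Q), QuadraticMap.map_smul,
        QuadraticMap.map_smul, QuadraticMap.polar_add_left, QuadraticMap.polar_smul_left,
        QuadraticMap.polar_smul_left, QuadraticMap.polar_smul_left,
        QuadraticMap.polar_smul_right, h12', h13', h23']
      simp only [smul_eq_mul, mul_zero, add_zero]
      linear_combination hxy

theorem odd_fam {F : Type*} [Field F] [Finite F] :
    ∀ (m : ℕ) (V : Type*) [AddCommGroup V] [Module F V] [FiniteDimensional F V]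
      (Q : QuadraticForm F V), (QuadraticMap.polarBilin Q).Nondegenerate →
      Module.finrank F V = 2 * m + 1 →
      ∃ (x : V) (e f : Fin m → V), QuadraticMap.polar ⇑Q x x ≠ 0 ∧
        (∀ i, QuadraticMap.polar ⇑Q x (e i) = 0 ∧ QuadraticMap.polar ⇑Q x (f i) = 0) ∧
        IsHyp Q e f := by
  intro m
  induction m with
  | zero =>
    intro V _ _ _ Q hQ hV
    obtain ⟨v, hv⟩ := Module.finrank_pos_iff_exists_ne_zero.mp
      (by omega : 0 < Module.finrank F V)
    refine ⟨v, Fin.elim0, Fin.elim0, ?_, fun i => i.elim0, ?_⟩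
    · intro h0
      apply hv
      apply hQ.1 v
      intro w
      obtain ⟨c, rfl⟩ := (finrank_eq_one_iff_of_nonzero' v hv).mp (by omega) w
      rw [QuadraticMap.polarBilin_apply_apply, QuadraticMap.polar_smul_right, h0, smul_zero]
    · exact ⟨fun i => i.elim0, fun i => i.elim0, fun i => i.elim0⟩
  | succ m ih =>
    intro V _ _ _ Q hQ hV
    obtain ⟨e₀, he₀, hQe⟩ := exists_isotropic Q hQ (by omega)
    obtain ⟨f₀, hQf, hef⟩ := exists_hyp_pair Q hQ e₀ he₀ hQe
    have hdim := finrank_perp2 Q e₀ f₀ hQe hQf hef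
    have hnd := nondeg_perp2 Q hQ e₀ f₀ hQe hQf hef
    obtain ⟨x, e, f, hx, hxef, hH⟩ := ih (perp2 Q e₀ f₀) (res Q _) hnd (by omega)
    refine ⟨(x : V), Fin.cons e₀ (fun i => (e i : V)), Fin.cons f₀ (fun i => (f i : V)), hx, ?_,
      IsHyp.cons Q e₀ f₀ hQe hQf hef e f hH⟩
    intro i
    refine Fin.cases ?_ (fun i' => ?_) i
    · simp only [Fin.cons_zero]
      have hmem := (mem_perp2 Q e₀ f₀ x).mp x.2
      rw [QuadraticMap.polar_comm (⇑Q) (x : V) e₀, QuadraticMap.polar_comm (⇑Q) (x : V) f₀]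
      exact hmem
    · simp only [Fin.cons_succ]
      exact hxef i'

/-- Standard (parabolic) basis of a non-degenerate quadratic space of odd dimension 2m + 1 over a finite field (the non-degeneracy of the polar form forces the characteristic to be odd): there is a basis e_i, f_i (i < m), x with Q(e_i) = Q(f_i) = 0, B(e_i, f_j) = δ_ij (B the polar form), the e's pairwise orthogonal and the f's pairwise orthogonal, x orthogonal to all of them and Q(x) ≠ 0. -/
theorem result {F V : Type*} [Field F] [Finite F] [AddCommGroup V] [Module F V] [FiniteDimensional F V] {m : ℕ} (hV : Module.finrank F V = 2 * m + 1) (Q : QuadraticForm F V) (hQ : (QuadraticMap.polarBilin Q).Nondegenerate) : ∃ b : Module.Basis (Unit ⊕ (Fin m ⊕ Fin m)) F V, Q (b (Sum.inl ())) ≠ 0 ∧ (∀ i, QuadraticMap.polar ⇑Q (b (Sum.inl ())) (b (Sum.inr (Sum.inl i))) = 0 ∧ QuadraticMap.polar ⇑Q (b (Sum.inl ())) (b (Sum.inr (Sum.inr i))) = 0) ∧ (∀ i, Q (b (Sum.inr (Sum.inl i))) = 0 ∧ Q (b (Sum.inr (Sum.inr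 i))) = 0) ∧ (∀ i j, QuadraticMap.polar ⇑Q (b (Sum.inr (Sum.inl i))) (b (Sum.inr (Sum.inr j))) = if i = j then 1 else 0) ∧ (∀ i j, QuadraticMap.polar ⇑Q (b (Sum.inr (Sum.inl i))) (b (Sum.inr (Sum.inl j))) = 0 ∧ QuadraticMap.polar ⇑Q (b (Sum.inr (Sum.inr i))) (b (Sum.inr (Sum.inr j))) = 0) := by
  classical
  obtain ⟨x, e, f, hx, hxef, h1, h2, h3⟩ := odd_fam m V Q hQ hV
  have hfe : ∀ i j, QuadraticMap.polar ⇑Q (f i) (e j) = if i = j then 1 else 0 := by
    intro i j
    rw [QuadraticMap.polar_comm, h2 j i]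
    simp [eq_comm]
  have hli : LinearIndependent F (Sum.elim (fun _ : Unit => x) (Sum.elim e f)) := by
    apply li_of_dual (QuadraticMap.polarBilin Q) _
      (Sum.elim (fun _ : Unit => (QuadraticMap.polar ⇑Q x x)⁻¹ • x) (Sum.elim f e))
    intro i j
    rcases i with (⟨⟩ | i | i) <;> rcases j with (⟨⟩ | j | j)
    · simp only [Sum.elim_inl, QuadraticMap.polarBilin_apply_apply,
        QuadraticMap.polar_smul_right, smul_eq_mul, inv_mul_cancel₀ hx, if_true]
    · simp only [Sum.elim_inl, Sum.elim_inr, QuadraticMap.polarBilin_apply_apply, (hxef j).2]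
      simp
    · simp only [Sum.elim_inl, Sum.elim_inr, QuadraticMap.polarBilin_apply_apply, (hxef j).1]
      simp
    · simp only [Sum.elim_inl, Sum.elim_inr, QuadraticMap.polarBilin_apply_apply,
        QuadraticMap.polar_smul_right, QuadraticMap.polar_comm (⇑Q) (e i) x, (hxef i).1]
      simp
    · simp only [Sum.elim_inr, Sum.elim_inl, QuadraticMap.polarBilin_apply_apply, h2 i j]
      simp
    · simp only [Sum.elim_inr, Sum.elim_inl, QuadraticMap.polarBilin_apply_apply, (h3 i j).1]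
      simp
    · simp only [Sum.elim_inl, Sum.elim_inr, QuadraticMap.polarBilin_apply_apply,
        QuadraticMap.polar_smul_right, QuadraticMap.polar_comm (⇑Q) (f i) x, (hxef i).2]
      simp
    · simp only [Sum.elim_inr, Sum.elim_inl, QuadraticMap.polarBilin_apply_apply, (h3 i j).2]
      simp
    · simp only [Sum.elim_inr, QuadraticMap.polarBilin_apply_apply, hfe i j]
      simp
  have hcard : Fintype.card (Unit ⊕ (Fin m ⊕ Fin m)) = Module.finrank F V := by
    rw [hV]
    simp
    ring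
  refine ⟨basisOfLinearIndependentOfCardEqFinrank' _ hli hcard, ?_⟩
  rw [coe_basisOfLinearIndependentOfCardEqFinrank']
  simp only [Sum.elim_inl, Sum.elim_inr]
  refine ⟨?_, hxef, h1, h2, h3⟩
  intro h0
  apply hx
  rw [QuadraticMap.polar_self, h0, smul_zero]

end Cfsg.Agent.S2618
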