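import Cfsg.Statements.S2616
import Mathlib
import Cfsg.Agent.S2618

set_option autoImplicit false
open Cfsg

namespace Cfsg.Agent.S2616


open Cfsg.Agent.S2618 in
theorem aniso_plane {F V : Type*} [Field F] [Finite F] [AddCommGroup V] [Module F V]
    [FiniteDimensional F V] (Q : QuadraticForm F V)
    (hQ : (QuadraticMap.polarBilin Q).Nondegenerate) (hV : Module.finrank F V = 2)
    (han : ∀ e : V, e ≠ 0 → Q e ≠ 0) :
    ∃ (x y : V) (ζ : F), (∀ t : F, t ^ 2 + t + ζ ≠ 0) ∧ Q x = 1 ∧
      QuadraticMap.polar ⇑Q x y = 1 ∧ Q y = ζ := by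
  classical
  -- a vector with Q x = 1
  have hx : ∃ x : V, Q x = 1 := by
    by_cases h2 : (2 : F) = 0
    · have hchar : ringChar F = 2 :=
        CharP.ringChar_of_prime_eq_zero Nat.prime_two (by exact_mod_cast h2)
      obtain ⟨v, hv⟩ := Module.finrank_pos_iff_exists_ne_zero.mp
        (by omega : 0 < Module.finrank F V)
      have hc := han v hv
      obtain ⟨s, hs⟩ := FiniteField.isSquare_of_char_two hchar (Q v)⁻¹
      refine ⟨s • v, ?_⟩
      rw [QuadraticMap.map_smul, ← hs, smul_eq_mul, inv_mul_cancel₀ hc]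
    · have hS : LinearMap.BilinForm.IsSymm (QuadraticMap.polarBilin Q) :=
        ⟨fun x y => QuadraticMap.polar_comm _ x y⟩
      obtain ⟨v₁, v₂, h11, h22, h12⟩ :=
        two_orth h2 (k := 0) (by omega) (QuadraticMap.polarBilin Q) hS hQ
      have hBQ : ∀ v, QuadraticMap.polarBilin Q v v = 2 * Q v := by
        intro v
        rw [QuadraticMap.polarBilin_apply_apply, QuadraticMap.polar_self]
        simp [two_mul]
      have ha₁ : Q v₁ ≠ 0 := fun h => h11 (by rw [hBQ, h, mul_zero])
      have ha₂ : Q v₂ ≠ 0 := fun h => h22 (by rw [hBQ, h, mul_zero])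
      obtain ⟨x₀, y₀, hxy⟩ := rep_zero h2 (c := -1) ha₁ ha₂
      have h12' : QuadraticMap.polar ⇑Q v₁ v₂ = 0 := h12
      refine ⟨x₀ • v₁ + y₀ • v₂, ?_⟩
      rw [QuadraticMap.map_add (⇑Q), QuadraticMap.map_smul, QuadraticMap.map_smul,
        QuadraticMap.polar_smul_left, QuadraticMap.polar_smul_right, h12']
      simp only [smul_eq_mul, mul_zero, add_zero]
      linear_combination hxy
  obtain ⟨x, hQx⟩ := hx
  have hx0 : x ≠ 0 := by
    rintro rfl
    rw [QuadraticMap.map_zero] at hQx
    exact zero_ne_one hQx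
  have hxx : QuadraticMap.polar ⇑Q x x = 2 := by
    rw [QuadraticMap.polar_self, hQx]
    simp
  -- a vector y outside the line of x with polar x y = 1
  have hy : ∃ y : V, QuadraticMap.polar ⇑Q x y = 1 ∧ y ∉ Submodule.span F {x} := by
    by_cases h2 : (2 : F) = 0
    · have hex : ∃ y₀, QuadraticMap.polar ⇑Q x y₀ ≠ 0 := by
        by_contra hcon
        push Not at hcon
        exact hx0 (hQ.1 x hcon)
      obtain ⟨y₀, hy₀⟩ := hex
      have h1 : QuadraticMap.polar ⇑Q x ((QuadraticMap.polar ⇑Q x y₀)⁻¹ • y₀) = 1 := by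
        rw [QuadraticMap.polar_smul_right, smul_eq_mul, inv_mul_cancel₀ hy₀]
      refine ⟨_, h1, ?_⟩
      intro hmem
      obtain ⟨c, hc⟩ := Submodule.mem_span_singleton.mp hmem
      rw [← hc, QuadraticMap.polar_smul_right, hxx, h2, smul_zero] at h1
      exact zero_ne_one h1
    · have hex : ∃ y₁ : V, y₁ ∉ Submodule.span F {x} := by
        by_contra hcon
        push Not at hcon
        have htop : Submodule.span F {x} = ⊤ := by
          rw [eq_top_iff]
          intro z _
          exact hcon z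
        have h1 := finrank_span_singleton (K := F) hx0
        rw [htop, finrank_top, hV] at h1
        omega
      obtain ⟨y₁, hy₁⟩ := hex
      refine ⟨y₁ + ((1 - QuadraticMap.polar ⇑Q x y₁) / 2) • x, ?_, ?_⟩
      · rw [QuadraticMap.polar_add_right, QuadraticMap.polar_smul_right, hxx, smul_eq_mul]
        field_simp
        ring
      · intro hmem
        apply hy₁
        have h3 : y₁ = (y₁ + ((1 - QuadraticMap.polar ⇑Q x y₁) / 2) • x) -
            ((1 - QuadraticMap.polar ⇑Q x y₁) / 2) • x := by abel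
        rw [h3]
        exact Submodule.sub_mem _ hmem
          (Submodule.smul_mem _ _ (Submodule.mem_span_singleton_self x))
  obtain ⟨y, hxy, hyn⟩ := hy
  refine ⟨x, y, Q y, ?_, hQx, hxy, rfl⟩
  intro t ht
  have h1 : Q (t • x + y) = t ^ 2 + t + Q y := by
    rw [QuadraticMap.map_add (⇑Q), QuadraticMap.map_smul, QuadraticMap.polar_smul_left, hQx, hxy]
    simp only [smul_eq_mul, mul_one]
    ring
  have h2 : t • x + y ≠ 0 := by
    intro h0
    apply hyn
    have h3 : y = (-t) • x := by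
      rw [neg_smul]
      exact eq_neg_of_add_eq_zero_right h0
    rw [h3]
    exact Submodule.smul_mem _ _ (Submodule.mem_span_singleton_self x)
  exact han _ h2 (by rw [h1, ht])

/-- elliptic family -/
def IsEll {F V : Type*} [Field F] [AddCommGroup V] [Module F V] (Q : QuadraticForm F V) {n : ℕ}
    (e f : Fin n → V) (x y : V) (ζ : F) : Prop :=
  (∀ t : F, t ^ 2 + t + ζ ≠ 0) ∧ Cfsg.Agent.S2618.IsHyp Q e f ∧
  (∀ i, QuadraticMap.polar ⇑Q (e i) x = 0 ∧ QuadraticMap.polar ⇑Q (e i) y = 0 ∧
    QuadraticMap.polar ⇑Q (f i) x = 0 ∧ QuadraticMap.polar ⇑Q (f i) y = 0) ∧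
  Q x = 1 ∧ QuadraticMap.polar ⇑Q x y = 1 ∧ Q y = ζ

open Cfsg.Agent.S2618 in
theorem even_fam {F : Type*} [Field F] [Finite F] :
    ∀ (k : ℕ) (V : Type*) [AddCommGroup V] [Module F V] [FiniteDimensional F V]
      (Q : QuadraticForm F V), (QuadraticMap.polarBilin Q).Nondegenerate →
      Module.finrank F V = 2 * (k + 1) →
      (∃ e f : Fin (k + 1) → V, IsHyp Q e f) ∨
      (∃ (e f : Fin k → V) (x y : V) (ζ : F), IsEll Q e f x y ζ) := by
  intro k
  induction k with
  | zero =>
    intro V _ _ _ Q hQ hV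
    by_cases hiso : ∃ e : V, e ≠ 0 ∧ Q e = 0
    · obtain ⟨e₀, he₀, hQe⟩ := hiso
      obtain ⟨f₀, hQf, hef⟩ := exists_hyp_pair Q hQ e₀ he₀ hQe
      left
      refine ⟨fun _ => e₀, fun _ => f₀, fun _ => ⟨hQe, hQf⟩, ?_, fun _ _ =>
        ⟨polar_self_zero Q hQe, polar_self_zero Q hQf⟩⟩
      intro i j
      have hij : i = j := Fin.ext (by have := i.2; have := j.2; omega)
      rw [if_pos hij]
      exact hef
    · push Not at hiso
      right
      obtain ⟨x, y, ζ, h1, h2, h3, h4⟩ := aniso_plane Q hQ (by omega) hiso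
      exact ⟨Fin.elim0, Fin.elim0, x, y, ζ, h1,
        ⟨fun i => i.elim0, fun i => i.elim0, fun i => i.elim0⟩, fun i => i.elim0, h2, h3, h4⟩
  | succ k ih =>
    intro V _ _ _ Q hQ hV
    obtain ⟨e₀, he₀, hQe⟩ := exists_isotropic Q hQ (by omega)
    obtain ⟨f₀, hQf, hef⟩ := exists_hyp_pair Q hQ e₀ he₀ hQe
    have hdim := finrank_perp2 Q e₀ f₀ hQe hQf hef
    have hnd := nondeg_perp2 Q hQ e₀ f₀ hQe hQf hef
    rcases ih (perp2 Q e₀ f₀) (res Q _) hnd (by omega) with ⟨e, f, hH⟩ | ⟨e, f, x, y, ζ, hE⟩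
    · left
      exact ⟨Fin.cons e₀ (fun i => (e i : V)), Fin.cons f₀ (fun i => (f i : V)),
        IsHyp.cons Q e₀ f₀ hQe hQf hef e f hH⟩
    · right
      obtain ⟨h1, hH, h3, h4, h5, h6⟩ := hE
      refine ⟨Fin.cons e₀ (fun i => (e i : V)), Fin.cons f₀ (fun i => (f i : V)), (x : V),
        (y : V), ζ, h1, IsHyp.cons Q e₀ f₀ hQe hQf hef e f hH, ?_, h4, h5, h6⟩
      intro i
      refine Fin.cases ?_ (fun i' => ?_) i
      · simp only [Fin.cons_zero]
        have hmx := (mem_perp2 Q e₀ f₀ x).mp x.2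
        have hmy := (mem_perp2 Q e₀ f₀ y).mp y.2
        exact ⟨hmx.1, hmy.1, hmx.2, hmy.2⟩
      · simp only [Fin.cons_succ]
        exact h3 i'

/-- Standard bases of a non-degenerate quadratic space of even dimension 2m over a finite field: either there is a hyperbolic basis e_i, f_i (Q(e_i) = Q(f_i) = 0, B(e_i, f_j) = δ_ij, the e's pairwise orthogonal and the f's pairwise orthogonal, B the polar form), or there is an elliptic basis: hyperbolic pairs e_i, f_i for i < m − 1 together with x, y orthogonal to them with Q(x) = 1, B(x, y) = 1, Q(y) = ζ where t² + t + ζ has no root in the field. -/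
theorem result {F V : Type*} [Field F] [Finite F] [AddCommGroup V] [Module F V] [FiniteDimensional F V] {m : ℕ} (hm : 1 ≤ m) (hV : Module.finrank F V = 2 * m) (Q : QuadraticForm F V) (hQ : (QuadraticMap.polarBilin Q).Nondegenerate) : (∃ b : Module.Basis (Fin m ⊕ Fin m) F V, (∀ i, Q (b (Sum.inl i)) = 0 ∧ Q (b (Sum.inr i)) = 0) ∧ (∀ i j, QuadraticMap.polar ⇑Q (b (Sum.inl i)) (b (Sum.inr j)) = if i = j then 1 else 0) ∧ (∀ i j, QuadraticMap.polar ⇑Q (b (Sum.inl i)) (b (Sum.inl j)) = 0 ∧ QuadraticMap.polar ⇑Q (b (Sum.inr i)) (b (Sum.inr j)) = 0)) ∨ (∃ (b : Module.Basis ((Fin (m - 1) ⊕ Fin (m - 1)) ⊕ Fin 2) F V) (ζ : F), (∀ t : F, t ^ 2 + t + ζ ≠ 0) ∧ (∀ i, Q (b (Sum.inl (Sum.inl i))) = 0 ∧ Q (b (Sum.inl (Sum.inr i))) = 0) ∧ (∀ i j, QuadraticMap.polar ⇑Q (b (Sum.inl (Sum.inl i))) (b (Sum.inl (Sum.inr j))) = if i = j then 1 else 0) ∧ (∀ i j, QuadraticMap.polar ⇑Q (b (Sum.inl (Sum.inl i))) (b (Sum.inl (Sum.inl j))) = 0 ∧ QuadraticMap.polar ⇑Q (b (Sum.inl (Sum.inr i))) (b (Sum.inl (Sum.inr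 j))) = 0) ∧ (∀ i (k : Fin 2), QuadraticMap.polar ⇑Q (b (Sum.inl (Sum.inl i))) (b (Sum.inr k)) = 0 ∧ QuadraticMap.polar ⇑Q (b (Sum.inl (Sum.inr i))) (b (Sum.inr k)) = 0) ∧ Q (b (Sum.inr 0)) = 1 ∧ QuadraticMap.polar ⇑Q (b (Sum.inr 0)) (b (Sum.inr 1)) = 1 ∧ Q (b (Sum.inr 1)) = ζ) := by
  classical
  obtain ⟨k, rfl⟩ : ∃ k, m = k + 1 := ⟨m - 1, by omega⟩
  rcases even_fam k V Q hQ hV with ⟨e, f, h1, h2, h3⟩ | ⟨e, f, x, y, ζ, hζ, ⟨h1, h2, h3⟩, h4, hQx, hxy, hQy⟩
  · left
    have hfe : ∀ i j, QuadraticMap.polar ⇑Q (f i) (e j) = if i = j then 1 else 0 := by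
      intro i j
      rw [QuadraticMap.polar_comm, h2 j i]
      simp [eq_comm]
    have hli : LinearIndependent F (Sum.elim e f) := by
      apply Cfsg.Agent.S2618.li_of_dual (QuadraticMap.polarBilin Q) _ (Sum.elim f e)
      intro i j
      rcases i with (i | i) <;> rcases j with (j | j)
      · simp only [Sum.elim_inl, QuadraticMap.polarBilin_apply_apply, h2 i j]
        simp
      · simp only [Sum.elim_inl, Sum.elim_inr, QuadraticMap.polarBilin_apply_apply, (h3 i j).1]
        simp
      · simp only [Sum.elim_inl, Sum.elim_inr, QuadraticMap.polarBilin_apply_apply, (h3 i j).2]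
        simp
      · simp only [Sum.elim_inr, QuadraticMap.polarBilin_apply_apply, hfe i j]
        simp
    have hcard : Fintype.card (Fin (k + 1) ⊕ Fin (k + 1)) = Module.finrank F V := by
      rw [hV]
      simp
      ring
    refine ⟨basisOfLinearIndependentOfCardEqFinrank' _ hli hcard, ?_⟩
    rw [coe_basisOfLinearIndependentOfCardEqFinrank']
    simp only [Sum.elim_inl, Sum.elim_inr]
    exact ⟨h1, h2, h3⟩
  · right
    have hfe : ∀ i j, QuadraticMap.polar ⇑Q (f i) (e j) = if i = j then 1 else 0 := by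
      intro i j
      rw [QuadraticMap.polar_comm, h2 j i]
      simp [eq_comm]
    have hxx : QuadraticMap.polar ⇑Q x x = 2 := by
      rw [QuadraticMap.polar_self, hQx]
      simp
    have hyy : QuadraticMap.polar ⇑Q y y = 2 * ζ := by
      rw [QuadraticMap.polar_self, hQy]
      simp [two_mul]
    have hyx : QuadraticMap.polar ⇑Q y x = 1 := by rw [QuadraticMap.polar_comm, hxy]
    have hD : 4 * ζ - 1 ≠ 0 := by
      intro hD0
      by_cases h2' : (2 : F) = 0
      · have h4 : (4 : F) = 0 := by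
          have : (4 : F) = 2 * 2 := by norm_num
          rw [this, h2', mul_zero]
        rw [h4, zero_mul, zero_sub, neg_eq_zero] at hD0
        exact one_ne_zero hD0
      · apply hζ (-(1 / 2))
        field_simp
        linear_combination hD0
    have hxe : ∀ i, QuadraticMap.polar ⇑Q x (e i) = 0 := fun i => by
      rw [QuadraticMap.polar_comm]; exact (h4 i).1
    have hye : ∀ i, QuadraticMap.polar ⇑Q y (e i) = 0 := fun i => by
      rw [QuadraticMap.polar_comm]; exact (h4 i).2.1
    have hxf : ∀ i, QuadraticMap.polar ⇑Q x (f i) = 0 := fun i => by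
      rw [QuadraticMap.polar_comm]; exact (h4 i).2.2.1
    have hyf : ∀ i, QuadraticMap.polar ⇑Q y (f i) = 0 := fun i => by
      rw [QuadraticMap.polar_comm]; exact (h4 i).2.2.2
    have hli : LinearIndependent F (Sum.elim (Sum.elim e f) ![x, y]) := by
      apply Cfsg.Agent.S2618.li_of_dual (QuadraticMap.polarBilin Q) _
        (Sum.elim (Sum.elim f e) ![(4 * ζ - 1)⁻¹ • ((2 * ζ) • x - y),
          (4 * ζ - 1)⁻¹ • ((2 : F) • y - x)])
      intro i j
      rcases i with ((i | i) | i) <;> rcases j with ((j | j) | j)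
      · simp only [Sum.elim_inl, QuadraticMap.polarBilin_apply_apply, h2 i j]
        simp
      · simp only [Sum.elim_inl, Sum.elim_inr, QuadraticMap.polarBilin_apply_apply, (h3 i j).1]
        simp
      · fin_cases j
        · simp [QuadraticMap.polarBilin_apply_apply, (h4 i).1, (h4 i).2.1]
        · simp [QuadraticMap.polarBilin_apply_apply, (h4 i).1, (h4 i).2.1]
      · simp only [Sum.elim_inl, Sum.elim_inr, QuadraticMap.polarBilin_apply_apply, (h3 i j).2]
        simp
      · simp only [Sum.elim_inl, Sum.elim_inr, QuadraticMap.polarBilin_apply_apply, hfe i j]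
        simp
      · fin_cases j
        · simp [QuadraticMap.polarBilin_apply_apply, (h4 i).2.2.1, (h4 i).2.2.2]
        · simp [QuadraticMap.polarBilin_apply_apply, (h4 i).2.2.1, (h4 i).2.2.2]
      · fin_cases i
        · simp [QuadraticMap.polarBilin_apply_apply, hxf]
        · simp [QuadraticMap.polarBilin_apply_apply, hyf]
      · fin_cases i
        · simp [QuadraticMap.polarBilin_apply_apply, hxe]
        · simp [QuadraticMap.polarBilin_apply_apply, hye]
      · fin_cases i <;> fin_cases j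
        · simp only [Sum.elim_inr, QuadraticMap.polarBilin_apply_apply, Fin.zero_eta,
            Matrix.cons_val_zero, QuadraticMap.polar_smul_right, QuadraticMap.polar_sub_right,
            hxx, hxy, smul_eq_mul, if_true]
          field_simp
          ring
        · simp only [Sum.elim_inr, QuadraticMap.polarBilin_apply_apply, Fin.zero_eta,
            Fin.mk_one, Matrix.cons_val_zero, Matrix.cons_val_one,
            QuadraticMap.polar_smul_right, QuadraticMap.polar_sub_right, hxx, hxy, smul_eq_mul]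
          simp
        · simp only [Sum.elim_inr, QuadraticMap.polarBilin_apply_apply, Fin.zero_eta,
            Fin.mk_one, Matrix.cons_val_zero, Matrix.cons_val_one,
            QuadraticMap.polar_smul_right, QuadraticMap.polar_sub_right, hyy, hyx, smul_eq_mul]
          simp
        · simp only [Sum.elim_inr, QuadraticMap.polarBilin_apply_apply, Fin.mk_one,
            Matrix.cons_val_one, Matrix.cons_val_zero, QuadraticMap.polar_smul_right,
            QuadraticMap.polar_sub_right, hyy, hyx, smul_eq_mul, if_true]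
          field_simp
          ring
    have hcard : Fintype.card ((Fin k ⊕ Fin k) ⊕ Fin 2) = Module.finrank F V := by
      rw [hV]
      simp
      ring
    refine ⟨basisOfLinearIndependentOfCardEqFinrank' _ hli hcard, ζ, ?_⟩
    rw [coe_basisOfLinearIndependentOfCardEqFinrank']
    simp only [Sum.elim_inl, Sum.elim_inr]
    refine ⟨hζ, h1, h2, h3, ?_, hQx, hxy, hQy⟩
    intro i j
    fin_cases j
    · exact ⟨(h4 i).1, (h4 i).2.2.1⟩
    · exact ⟨(h4 i).2.1, (h4 i).2.2.2⟩

end Cfsg.Agent.S2616
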