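import Cfsg.Statements.S2561
import Mathlib
import Cfsg.Agent.S2562
import Cfsg.Agent.S2564
import Cfsg.Agent.S2616

set_option autoImplicit false
open Cfsg

namespace Cfsg.Agent.S2561

open Cfsg.Agent.S2564 in
theorem transfer {V : Type*} [AddCommGroup V] [Module (ZMod 2) V] {κ : Type*} [Fintype κ]
    [DecidableEq κ] (b : Module.Basis κ (ZMod 2) V)
    (q : V → ZMod 2) (fb : LinearMap.BilinForm (ZMod 2) V)
    (hq : ∀ u v, q (u + v) = q u + q v + fb u v)
    (q' : (κ → ZMod 2) → ZMod 2) (fb' : LinearMap.BilinForm (ZMod 2) (κ → ZMod 2))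
    (hq' : ∀ u v, q' (u + v) = q' u + q' v + fb' u v)
    (h1 : ∀ k, q (b k) = q' (Pi.single k 1))
    (h2 : ∀ k l, fb (b k) (b l) = fb' (Pi.single k 1) (Pi.single l 1)) (v : V) :
    q v = q' (b.equivFun v) := by
  have hsingle : ∀ k, b.equivFun (b k) = Pi.single k 1 := by
    intro k
    funext j
    rw [Module.Basis.equivFun_self]
    simp [Pi.single_apply, eq_comm]
  have hfb : fb = fb'.compl₁₂ b.equivFun.toLinearMap b.equivFun.toLinearMap := by
    apply LinearMap.ext_basis b b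
    intro k l
    simp only [LinearMap.compl₁₂_apply, LinearEquiv.coe_coe, hsingle, h2]
  have hq0 : q 0 = 0 := by
    have := hq 0 0
    simpa using this
  have hq'0 : q' 0 = 0 := by
    have := hq' 0 0
    simpa using this
  have hv : v ∈ Submodule.span (ZMod 2) (Set.range b) := by
    rw [b.span_eq]
    trivial
  induction hv using Submodule.span_induction with
  | mem x hx =>
    obtain ⟨k, rfl⟩ := hx
    rw [h1, hsingle]
  | zero => rw [map_zero, hq0, hq'0]
  | add u v _ _ hu hv =>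
    rw [hq, map_add, hq', hu, hv, hfb]
    rfl
  | smul a v _ hv =>
    rcases (by decide : ∀ a : ZMod 2, a = 0 ∨ a = 1) a with rfl | rfl
    · rw [zero_smul, map_zero, hq0, hq'0]
    · rw [one_smul]
      exact hv

open Cfsg.Agent.S2564 in
theorem chi_sum {ι : Type*} (s : Finset ι) (f : ι → ZMod 2) :
    chi (∑ i ∈ s, f i) = ∏ i ∈ s, chi (f i) := by
  classical
  induction s using Finset.induction_on with
  | empty => simp [chi_zero]
  | insert a s ha ih => rw [Finset.sum_insert ha, Finset.prod_insert ha, chi_add, ih]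

open Cfsg.Agent.S2564 in
theorem charsum_plus (m : ℕ) :
    (∑ v : Fin m ⊕ Fin m → ZMod 2, chi (Cfsg.quadFormPlus m (ZMod 2) v)) = 2 ^ m := by
  classical
  let e : (Fin m → ZMod 2 × ZMod 2) ≃ (Fin m ⊕ Fin m → ZMod 2) :=
    { toFun := fun x => Sum.elim (fun i => (x i).1) (fun i => (x i).2)
      invFun := fun v i => (v (Sum.inl i), v (Sum.inr i))
      left_inv := fun x => by funext i; rfl
      right_inv := fun v => by funext k; rcases k with i | i <;> rfl }
  rw [← Equiv.sum_comp e]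
  have h1 : ∀ x : Fin m → ZMod 2 × ZMod 2,
      chi (Cfsg.quadFormPlus m (ZMod 2) (e x)) = ∏ i, chi ((x i).1 * (x i).2) := by
    intro x
    rw [Cfsg.quadFormPlus, chi_sum]
    rfl
  rw [Finset.sum_congr rfl (fun x _ => h1 x)]
  have h2 := Finset.prod_univ_sum (fun _ : Fin m => (Finset.univ : Finset (ZMod 2 × ZMod 2)))
    (fun _ p => chi (p.1 * p.2))
  rw [Fintype.piFinset_univ] at h2
  rw [← h2]
  have h3 : (∑ p : ZMod 2 × ZMod 2, chi (p.1 * p.2)) = 2 := by decide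
  simp [h3]

open Cfsg.Agent.S2564 in
theorem zero_count (m : ℕ) (hm : 1 ≤ m) :
    Nat.card {w : Fin m ⊕ Fin m → ZMod 2 // Cfsg.quadFormPlus m (ZMod 2) w = 0}
      = 2 ^ (2 * m - 1) + 2 ^ (m - 1) := by
  classical
  rw [Nat.card_eq_fintype_card, Fintype.card_subtype]
  have h1 := charsum_plus m
  have h2 : (∑ v : Fin m ⊕ Fin m → ZMod 2, chi (Cfsg.quadFormPlus m (ZMod 2) v)) =
      2 * ((Finset.univ.filter (fun w : Fin m ⊕ Fin m → ZMod 2 =>
        Cfsg.quadFormPlus m (ZMod 2) w = 0)).card : ℤ)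
        - (Fintype.card (Fin m ⊕ Fin m → ZMod 2) : ℤ) := by
    have : ∀ v : Fin m ⊕ Fin m → ZMod 2, chi (Cfsg.quadFormPlus m (ZMod 2) v) =
        2 * (if Cfsg.quadFormPlus m (ZMod 2) v = 0 then 1 else 0) - 1 := by
      intro v
      unfold chi
      split_ifs <;> norm_num
    rw [Finset.sum_congr rfl (fun v _ => this v), Finset.sum_sub_distrib, ← Finset.mul_sum,
      Finset.sum_boole]
    simp
  have h3 : Fintype.card (Fin m ⊕ Fin m → ZMod 2) = 2 ^ (2 * m) := by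
    simp [ZMod.card]
    ring
  rw [h2, h3] at h1
  obtain ⟨k, rfl⟩ : ∃ k, m = k + 1 := ⟨m - 1, by omega⟩
  have e1 : 2 * (k + 1) - 1 = 2 * k + 1 := by omega
  have e2 : k + 1 - 1 = k := by omega
  rw [e1, e2]
  have e3 : (2 : ℤ) ^ (2 * (k + 1)) = 2 * 2 ^ (2 * k + 1) := by ring
  have e4 : (2 : ℤ) ^ (k + 1) = 2 * 2 ^ k := by ring
  push_cast at h1
  rw [e3, e4] at h1
  have h5 : ((Finset.univ.filter (fun w : Fin (k + 1) ⊕ Fin (k + 1) → ZMod 2 =>
        Cfsg.quadFormPlus (k + 1) (ZMod 2) w = 0)).card : ℤ) = 2 ^ (2 * k + 1) + 2 ^ k := by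
    linarith
  exact_mod_cast h5

/-- `q` polarizes to the polar form of the plus form -/
def Pol (m : ℕ) (q : (Fin m ⊕ Fin m → ZMod 2) → ZMod 2) : Prop :=
  ∀ u v : (Fin m ⊕ Fin m → ZMod 2), q (u + v) = q u + q v +
    (Cfsg.quadFormPlus m (ZMod 2) (u + v) - Cfsg.quadFormPlus m (ZMod 2) u
      - Cfsg.quadFormPlus m (ZMod 2) v)

def TP (m : ℕ) (q : (Fin m ⊕ Fin m → ZMod 2) → ZMod 2) : Prop :=
  ∃ g : (Fin m ⊕ Fin m → ZMod 2) ≃ₗ[ZMod 2] (Fin m ⊕ Fin m → ZMod 2),
    ∀ v, q v = Cfsg.quadFormPlus m (ZMod 2) (g v)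

def TM (m : ℕ) (q : (Fin m ⊕ Fin m → ZMod 2) → ZMod 2) : Prop :=
  ∃ g : (Fin m ⊕ Fin m → ZMod 2) ≃ₗ[ZMod 2] ((Fin (m - 1) ⊕ Fin (m - 1)) ⊕ Fin 2 → ZMod 2),
    ∀ v, q v = Cfsg.quadFormMinus (m - 1) (ZMod 2) 1 1 (g v)

theorem pol_plus (m : ℕ) : Pol m (Cfsg.quadFormPlus m (ZMod 2)) := by
  intro u v
  ring

def Phi (m : ℕ) (hm : 1 ≤ m) (w : Fin m ⊕ Fin m → ZMod 2) :
    {q : (Fin m ⊕ Fin m → ZMod 2) → ZMod 2 // Pol m q} :=
  ⟨fun v => Cfsg.quadFormPlus m (ZMod 2) v + (Cfsg.quadFormPlus m (ZMod 2) (v + w)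
      - Cfsg.quadFormPlus m (ZMod 2) v - Cfsg.quadFormPlus m (ZMod 2) w),
   (Cfsg.Agent.S2564.result m hm (Cfsg.quadFormPlus m (ZMod 2)) (pol_plus m) w).1⟩

theorem Phi_apply (m : ℕ) (hm : 1 ≤ m) (w v : Fin m ⊕ Fin m → ZMod 2) :
    (Phi m hm w).1 v = Cfsg.quadFormPlus m (ZMod 2) v +
      QuadraticMap.polar (Cfsg.quadFormPlus m (ZMod 2)) v w := rfl

theorem plus_iff (m : ℕ) (hm : 1 ≤ m) (w : Fin m ⊕ Fin m → ZMod 2) :
    TP m (Phi m hm w).1 ↔ Cfsg.quadFormPlus m (ZMod 2) w = 0 :=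
  (Cfsg.Agent.S2564.result m hm (Cfsg.quadFormPlus m (ZMod 2)) (pol_plus m) w).2

theorem not_both (m : ℕ) (hm : 1 ≤ m) (q : (Fin m ⊕ Fin m → ZMod 2) → ZMod 2)
    (h1 : TP m q) (h2 : TM m q) : False := by
  obtain ⟨g₁, hg₁⟩ := h1
  obtain ⟨g₂, hg₂⟩ := h2
  obtain ⟨⟨U, hU, hUr⟩, -, -, hbound⟩ := Cfsg.Agent.S2562.result m hm
  have h3 := hbound (U.map (g₁.symm.trans g₂).toLinearMap) (by
    rintro _ ⟨u, hu, rfl⟩
    have h4 := hg₂ (g₁.symm u)
    rw [hg₁, LinearEquiv.apply_symm_apply, hU u hu] at h4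
    exact h4.symm)
  rw [LinearEquiv.finrank_map_eq, hUr] at h3
  omega

open Cfsg.Agent.S2564 in
theorem polar_bilin (m : ℕ) : ∃ fb : LinearMap.BilinForm (ZMod 2) (Fin m ⊕ Fin m → ZMod 2),
    (∀ u v, QuadraticMap.polar (Cfsg.quadFormPlus m (ZMod 2)) u v = fb u v) ∧
    (∀ k l, fb (Pi.single k 1) (Pi.single l 1) =
      (Matrix.fromBlocks 0 1 1 0 : Matrix (Fin m ⊕ Fin m) (Fin m ⊕ Fin m) (ZMod 2)) k l) := by
  classical
  refine ⟨Matrix.toBilin' ((Matrix.fromBlocks 0 1 0 0 : Matrix (Fin m ⊕ Fin m) (Fin m ⊕ Fin m)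
    (ZMod 2)) + (Matrix.fromBlocks 0 1 0 0 : Matrix (Fin m ⊕ Fin m) (Fin m ⊕ Fin m)
    (ZMod 2)).transpose), ?_, ?_⟩
  · intro u v
    exact polar_eq_toBilin' _ (Cfsg.quadFormPlus m (ZMod 2)) (plus_eq m) u v
  · intro k l
    rw [Matrix.toBilin'_single, Matrix.fromBlocks_transpose, Matrix.fromBlocks_add]
    simp

open Cfsg.Agent.S2564 in
theorem polar_bilin_minus (m : ℕ) :
    ∃ fb : LinearMap.BilinForm (ZMod 2) ((Fin m ⊕ Fin m) ⊕ Fin 2 → ZMod 2),
    (∀ u v, QuadraticMap.polar (Cfsg.quadFormMinus m (ZMod 2) 1 1) u v = fb u v) ∧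
    (∀ k l, fb (Pi.single k 1) (Pi.single l 1) =
      (Matrix.fromBlocks (Matrix.fromBlocks 0 1 1 0) 0 0 !![0, 1; 1, 0] :
        Matrix ((Fin m ⊕ Fin m) ⊕ Fin 2) ((Fin m ⊕ Fin m) ⊕ Fin 2) (ZMod 2)) k l) := by
  classical
  refine ⟨Matrix.toBilin' ((Matrix.fromBlocks (Matrix.fromBlocks 0 1 0 0) 0 0 !![1, 1; 0, 1] :
      Matrix ((Fin m ⊕ Fin m) ⊕ Fin 2) ((Fin m ⊕ Fin m) ⊕ Fin 2) (ZMod 2)) +
    (Matrix.fromBlocks (Matrix.fromBlocks 0 1 0 0) 0 0 !![1, 1; 0, 1] :
      Matrix ((Fin m ⊕ Fin m) ⊕ Fin 2) ((Fin m ⊕ Fin m) ⊕ Fin 2) (ZMod 2)).transpose), ?_, ?_⟩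
  · intro u v
    exact polar_eq_toBilin' _ (Cfsg.quadFormMinus m (ZMod 2) 1 1)
      (Cfsg.Agent.S2562.minus_eq m 1 1) u v
  · intro k l
    rw [Matrix.toBilin'_single, Matrix.fromBlocks_transpose, Matrix.fromBlocks_add,
      Matrix.fromBlocks_transpose, Matrix.fromBlocks_add]
    have h : (!![1, 1; 0, 1] + (!![1, 1; 0, 1] : Matrix (Fin 2) (Fin 2) (ZMod 2)).transpose)
        = !![0, 1; 1, 0] := by decide
    rw [h]
    simp

open Cfsg.Agent.S2564 in
theorem Phi_inj (m : ℕ) (hm : 1 ≤ m) : Function.Injective (Phi m hm) := by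
  intro w w' h
  have h1 : ∀ v, QuadraticMap.polar (Cfsg.quadFormPlus m (ZMod 2)) v w =
      QuadraticMap.polar (Cfsg.quadFormPlus m (ZMod 2)) v w' := by
    intro v
    have h2 := congrFun (congrArg Subtype.val h) v
    rw [Phi_apply, Phi_apply] at h2
    exact add_left_cancel h2
  funext k
  rcases k with i | i
  · have h2 := h1 (Pi.single (Sum.inr i) 1)
    rw [QuadraticMap.polar_comm, polar_plus_single', QuadraticMap.polar_comm,
      polar_plus_single'] at h2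
    exact h2
  · have h2 := h1 (Pi.single (Sum.inl i) 1)
    rw [QuadraticMap.polar_comm, polar_plus_single, QuadraticMap.polar_comm,
      polar_plus_single] at h2
    exact h2

open Cfsg.Agent.S2564 in
theorem Phi_surj (m : ℕ) (hm : 1 ≤ m) : Function.Surjective (Phi m hm) := by
  classical
  rintro ⟨q, hq⟩
  obtain ⟨fb, hfb, -⟩ := polar_bilin m
  let l : (Fin m ⊕ Fin m → ZMod 2) →+ ZMod 2 :=
    AddMonoidHom.mk' (fun v => q v - Cfsg.quadFormPlus m (ZMod 2) v) (by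
      intro u v
      have := hq u v
      rw [this]
      ring)
  let w : Fin m ⊕ Fin m → ZMod 2 := fun k => match k with
    | Sum.inl i => l (Pi.single (Sum.inr i) 1)
    | Sum.inr i => l (Pi.single (Sum.inl i) 1)
  refine ⟨w, ?_⟩
  apply Subtype.ext
  funext v
  rw [Phi_apply]
  have key : l = (fb.flip w).toAddMonoidHom := by
    apply AddMonoidHom.functions_ext
    intro k x
    rcases (by decide : ∀ a : ZMod 2, a = 0 ∨ a = 1) x with rfl | rfl
    · simp
    · rcases k with i | i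
      · show l (Pi.single (Sum.inl i) 1) = fb (Pi.single (Sum.inl i) 1) w
        rw [← hfb, QuadraticMap.polar_comm, polar_plus_single]
      · show l (Pi.single (Sum.inr i) 1) = fb (Pi.single (Sum.inr i) 1) w
        rw [← hfb, QuadraticMap.polar_comm, polar_plus_single']
  have h2 : l v = fb v w := by
    rw [key]
    rfl
  rw [hfb, ← h2]
  show _ + (q v - _) = q v
  ring

open Cfsg.Agent.S2564 in
theorem plus_or_minus (m : ℕ) (hm : 1 ≤ m) (q : (Fin m ⊕ Fin m → ZMod 2) → ZMod 2)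
    (hq : Pol m q) : TP m q ∨ TM m q := by
  classical
  obtain ⟨fb, hfb, hfbs⟩ := polar_bilin m
  obtain ⟨fbm, hfbm, hfbms⟩ := polar_bilin_minus (m - 1)
  have hq' : ∀ u v, q (u + v) = q u + q v + fb u v := by
    intro u v
    rw [← hfb]
    exact hq u v
  have hpolar : ∀ u v, QuadraticMap.polar q u v = fb u v := by
    intro u v
    rw [QuadraticMap.polar, hq']
    ring
  have hq0 : q 0 = 0 := by
    have := hq' 0 0
    simpa using this
  have hself : ∀ u, fb u u = 0 := by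
    intro u
    have h1 := hq' u u
    have h2 : u + u = 0 := by
      funext k
      exact zmod2_add_self (u k)
    rw [h2, hq0, zmod2_add_self, zero_add] at h1
    exact h1.symm
  have hsymm : ∀ u v, fb u v = fb v u := by
    intro u v
    rw [← hfb, ← hfb, QuadraticMap.polar_comm]
  let Q : QuadraticForm (ZMod 2) (Fin m ⊕ Fin m → ZMod 2) := QuadraticMap.ofPolar q
    (by
      intro a x
      rcases (by decide : ∀ a : ZMod 2, a = 0 ∨ a = 1) a with rfl | rfl
      · simp [hq0]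
      · simp)
    (by
      intro x x' y
      rw [hpolar, hpolar, hpolar, map_add, LinearMap.add_apply])
    (by
      intro a x y
      rw [hpolar, hpolar, map_smul, LinearMap.smul_apply])
  have hQ : ∀ v, Q v = q v := fun v => rfl
  have hQp : ∀ u v, QuadraticMap.polar (⇑Q) u v = fb u v := hpolar
  have hnd : (QuadraticMap.polarBilin Q).Nondegenerate := by
    apply LinearMap.BilinForm.Nondegenerate.ofSeparatingLeft
    intro w hw
    funext k
    rcases k with i | i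
    · have h1 := hw (Pi.single (Sum.inr i) 1)
      rw [QuadraticMap.polarBilin_apply_apply, hQp, ← hfb, polar_plus_single'] at h1
      exact h1
    · have h1 := hw (Pi.single (Sum.inl i) 1)
      rw [QuadraticMap.polarBilin_apply_apply, hQp, ← hfb, polar_plus_single] at h1
      exact h1
  have hV : Module.finrank (ZMod 2) (Fin m ⊕ Fin m → ZMod 2) = 2 * m := by
    simp [two_mul]
  rcases Cfsg.Agent.S2616.result hm hV Q hnd with
    ⟨b, h1, h2, h3⟩ | ⟨b, ζ, hζ, h1, h2, h3, h4, hx, hxy, hy⟩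
  · left
    refine ⟨b.equivFun, transfer b q fb hq' (Cfsg.quadFormPlus m (ZMod 2)) fb ?_ ?_ ?_⟩
    · intro u v
      rw [← hfb, QuadraticMap.polar]
      ring
    · intro k
      rcases k with i | i
      · rw [← hQ, (h1 i).1]
        simp [Cfsg.quadFormPlus]
      · rw [← hQ, (h1 i).2]
        simp [Cfsg.quadFormPlus]
    · intro k l
      rw [hfbs]
      rcases k with i | i <;> rcases l with j | j
      · rw [← hQp, (h3 i j).1]
        simp
      · rw [← hQp, h2 i j]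
        simp [Matrix.one_apply]
      · rw [hsymm, ← hQp, h2 j i]
        simp [Matrix.one_apply, eq_comm]
      · rw [← hQp, (h3 i j).2]
        simp
  · right
    have hζ1 : ζ = 1 := by
      apply zmod2_ne_zero
      have := hζ 0
      simpa using this
    refine ⟨b.equivFun,
      transfer b q fb hq' (Cfsg.quadFormMinus (m - 1) (ZMod 2) 1 1) fbm ?_ ?_ ?_⟩
    · intro u v
      rw [← hfbm, QuadraticMap.polar]
      ring
    · intro k
      rcases k with (i | i) | i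
      · rw [← hQ, (h1 i).1]
        simp [Cfsg.quadFormMinus]
      · rw [← hQ, (h1 i).2]
        simp [Cfsg.quadFormMinus]
      · fin_cases i
        · rw [← hQ]
          show Q (b (Sum.inr 0)) = _
          rw [hx]
          simp [Cfsg.quadFormMinus]
        · rw [← hQ]
          show Q (b (Sum.inr 1)) = _
          rw [hy, hζ1]
          simp [Cfsg.quadFormMinus]
    · intro k l
      rw [hfbms]
      rcases k with (i | i) | i <;> rcases l with (j | j) | j
      · rw [← hQp, (h3 i j).1]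
        simp
      · rw [← hQp, h2 i j]
        simp [Matrix.one_apply]
      · rw [← hQp, (h4 i j).1]
        simp
      · rw [hsymm, ← hQp, h2 j i]
        simp [Matrix.one_apply, eq_comm]
      · rw [← hQp, (h3 i j).2]
        simp
      · rw [← hQp, (h4 i j).2]
        simp
      · rw [hsymm, ← hQp, (h4 j i).1]
        simp
      · rw [hsymm, ← hQp, (h4 j i).2]
        simp
      · fin_cases i <;> fin_cases j
        · show fb (b (Sum.inr 0)) (b (Sum.inr 0)) = _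
          rw [hself]
          simp
        · show fb (b (Sum.inr 0)) (b (Sum.inr 1)) = _
          rw [← hQp, hxy]
          simp
        · show fb (b (Sum.inr 1)) (b (Sum.inr 0)) = _
          rw [hsymm, ← hQp, hxy]
          simp
        · show fb (b (Sum.inr 1)) (b (Sum.inr 1)) = _
          rw [hself]
          simp

/-- Fix the non-singular alternating form on the 2m-dimensional space over the field of two elements obtained by polarizing the plus-type form Σ xᵢyᵢ (m ≥ 1). The functions q on the space with q(u + v) = q(u) + q(v) + f(u, v) (the quadratic forms polarizing to f) number 2^(2m); each is equivalent under an invertible linear map either to the plus-type form or to the minus-type form Σ xᵢyᵢ + (z₁² + z₁z₂ + z₂²); and those of plus type number 2^(2m−1) + 2^(m−1), those of minus type 2^(2m−1) − 2^(m−1). -/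
theorem result (m : ℕ) (hm : 1 ≤ m) :
    Nat.card {q : (Fin m ⊕ Fin m → ZMod 2) → ZMod 2 // (∀ u v : (Fin m ⊕ Fin m → ZMod 2), q (u + v) = q u + q v + (Cfsg.quadFormPlus m (ZMod 2) (u + v) - Cfsg.quadFormPlus m (ZMod 2) u - Cfsg.quadFormPlus m (ZMod 2) v))} = 2 ^ (2 * m) ∧
    (∀ q : (Fin m ⊕ Fin m → ZMod 2) → ZMod 2, (∀ u v : (Fin m ⊕ Fin m → ZMod 2), q (u + v) = q u + q v + (Cfsg.quadFormPlus m (ZMod 2) (u + v) - Cfsg.quadFormPlus m (ZMod 2) u - Cfsg.quadFormPlus m (ZMod 2) v)) →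
      (∃ g : (Fin m ⊕ Fin m → ZMod 2) ≃ₗ[ZMod 2] (Fin m ⊕ Fin m → ZMod 2), ∀ v, q v = Cfsg.quadFormPlus m (ZMod 2) (g v)) ∨
      (∃ g : (Fin m ⊕ Fin m → ZMod 2) ≃ₗ[ZMod 2] ((Fin (m - 1) ⊕ Fin (m - 1)) ⊕ Fin 2 → ZMod 2), ∀ v, q v = Cfsg.quadFormMinus (m - 1) (ZMod 2) 1 1 (g v))) ∧
    Nat.card {q : (Fin m ⊕ Fin m → ZMod 2) → ZMod 2 // (∀ u v : (Fin m ⊕ Fin m → ZMod 2), q (u + v) = q u + q v + (Cfsg.quadFormPlus m (ZMod 2) (u + v) - Cfsg.quadFormPlus m (ZMod 2) u - Cfsg.quadFormPlus m (ZMod 2) v)) ∧ ∃ g : (Fin m ⊕ Fin m → ZMod 2) ≃ₗ[ZMod 2] (Fin m ⊕ Fin m → ZMod 2), ∀ v, q v = Cfsg.quadFormPlus m (ZMod 2) (g v)} = 2 ^ (2 * m - 1) + 2 ^ (m - 1) ∧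
    Nat.card {q : (Fin m ⊕ Fin m → ZMod 2) → ZMod 2 // (∀ u v : (Fin m ⊕ Fin m → ZMod 2), q (u + v) = q u + q v + (Cfsg.quadFormPlus m (ZMod 2) (u + v) - Cfsg.quadFormPlus m (ZMod 2) u - Cfsg.quadFormPlus m (ZMod 2) v)) ∧ ∃ g : (Fin m ⊕ Fin m → ZMod 2) ≃ₗ[ZMod 2] ((Fin (m - 1) ⊕ Fin (m - 1)) ⊕ Fin 2 → ZMod 2), ∀ v, q v = Cfsg.quadFormMinus (m - 1) (ZMod 2) 1 1 (g v)} = 2 ^ (2 * m - 1) - 2 ^ (m - 1) := by
  classical
  have hbij : Function.Bijective (Phi m hm) := ⟨Phi_inj m hm, Phi_surj m hm⟩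
  have hcardV' : Fintype.card (Fin m ⊕ Fin m → ZMod 2) = 2 ^ (2 * m) := by
    simp [ZMod.card]
    ring
  have hcardV : Nat.card (Fin m ⊕ Fin m → ZMod 2) = 2 ^ (2 * m) := by
    rw [Nat.card_eq_fintype_card, hcardV']
  refine ⟨?_, ?_, ?_, ?_⟩
  · show Nat.card {q : (Fin m ⊕ Fin m → ZMod 2) → ZMod 2 // Pol m q} = 2 ^ (2 * m)
    rw [← Nat.card_eq_of_bijective (Phi m hm) hbij, hcardV]
  · intro q hq
    exact plus_or_minus m hm q hq
  · show Nat.card {q : (Fin m ⊕ Fin m → ZMod 2) → ZMod 2 // Pol m q ∧ TP m q} = _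
    rw [← zero_count m hm]
    symm
    apply Nat.card_eq_of_bijective
      (fun w : {w : Fin m ⊕ Fin m → ZMod 2 // Cfsg.quadFormPlus m (ZMod 2) w = 0} =>
        (⟨(Phi m hm w.1).1, (Phi m hm w.1).2, (plus_iff m hm w.1).mpr w.2⟩ :
          {q : (Fin m ⊕ Fin m → ZMod 2) → ZMod 2 // Pol m q ∧ TP m q}))
    constructor
    · intro w w' h
      apply Subtype.ext
      apply hbij.1
      apply Subtype.ext
      have h' := congrArg Subtype.val h
      exact h'
    · rintro ⟨q, hq, hT⟩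
      obtain ⟨w, hw⟩ := hbij.2 ⟨q, hq⟩
      have hw' : (Phi m hm w).1 = q := congrArg Subtype.val hw
      refine ⟨⟨w, (plus_iff m hm w).mp (by rw [hw']; exact hT)⟩, ?_⟩
      apply Subtype.ext
      exact hw'
  · show Nat.card {q : (Fin m ⊕ Fin m → ZMod 2) → ZMod 2 // Pol m q ∧ TM m q} = _
    have hcount : Nat.card {w : Fin m ⊕ Fin m → ZMod 2 // ¬ Cfsg.quadFormPlus m (ZMod 2) w = 0}
        = 2 ^ (2 * m - 1) - 2 ^ (m - 1) := by
      have h1 := zero_count m hm
      rw [Nat.card_eq_fintype_card] at h1 ⊢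
      rw [Fintype.card_subtype_compl, h1, hcardV']
      obtain ⟨k, rfl⟩ : ∃ k, m = k + 1 := ⟨m - 1, by omega⟩
      have e1 : 2 * (k + 1) - 1 = 2 * k + 1 := by omega
      have e2 : k + 1 - 1 = k := by omega
      rw [e1, e2]
      have e3 : 2 ^ (2 * (k + 1)) = 2 * 2 ^ (2 * k + 1) := by ring
      omega
    rw [← hcount]
    symm
    apply Nat.card_eq_of_bijective
      (fun w : {w : Fin m ⊕ Fin m → ZMod 2 // ¬ Cfsg.quadFormPlus m (ZMod 2) w = 0} =>
        (⟨(Phi m hm w.1).1, (Phi m hm w.1).2,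
          (plus_or_minus m hm _ (Phi m hm w.1).2).resolve_left
            (fun hT => w.2 ((plus_iff m hm w.1).mp hT))⟩ :
          {q : (Fin m ⊕ Fin m → ZMod 2) → ZMod 2 // Pol m q ∧ TM m q}))
    constructor
    · intro w w' h
      apply Subtype.ext
      apply hbij.1
      apply Subtype.ext
      have h' := congrArg Subtype.val h
      exact h'
    · rintro ⟨q, hq, hT⟩
      obtain ⟨w, hw⟩ := hbij.2 ⟨q, hq⟩
      have hw' : (Phi m hm w).1 = q := congrArg Subtype.val hw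
      refine ⟨⟨w, fun h0 => not_both m hm q
        (by rw [← hw']; exact (plus_iff m hm w).mpr h0) hT⟩, ?_⟩
      apply Subtype.ext
      exact hw'

end Cfsg.Agent.S2561
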