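import Cfsg.Statements.S2567

set_option autoImplicit false
open Cfsg

namespace Cfsg.Agent.S2567

theorem lift_unique {G : Type*} [Group G] {r : ℕ} (hr : r.Prime)
    (hcop : (Nat.card (Subgroup.center G)).Coprime r) (x : G ⧸ Subgroup.center G) (hx : orderOf x = r) :
    ∃! g : G, (QuotientGroup.mk g : G ⧸ Subgroup.center G) = x ∧ orderOf g = r := by
  classical
  obtain ⟨g0, hg0⟩ := QuotientGroup.mk_surjective x
  have hg0r : g0 ^ r ∈ Subgroup.center G := by
    rw [← QuotientGroup.eq_one_iff, QuotientGroup.mk_pow, hg0, ← hx, pow_orderOf_eq_one]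
  obtain ⟨z, hzr⟩ : ∃ z : Subgroup.center G, z ^ r = (⟨g0 ^ r, hg0r⟩ : Subgroup.center G)⁻¹ :=
    (powCoprime hcop).surjective _
  have hpinj : ∀ a b : Subgroup.center G, a ^ r = b ^ r → a = b := fun a b h =>
    (powCoprime hcop).injective h
  have hx1 : x ≠ 1 := by
    intro h
    rw [h, orderOf_one] at hx
    exact hr.one_lt.ne hx
  refine ⟨g0 * (z : G), ⟨?_, ?_⟩, ?_⟩
  · rw [QuotientGroup.mk_mul, hg0]
    have : ((z : G) : G ⧸ Subgroup.center G) = 1 := (QuotientGroup.eq_one_iff _).mpr z.2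
    rw [this, mul_one]
  · have hpow : (g0 * (z : G)) ^ r = 1 := by
      rw [(show Commute g0 (z : G) from Subgroup.mem_center_iff.mp z.2 g0).mul_pow]
      have h2 : ((z : G)) ^ r = (g0 ^ r)⁻¹ := by
        have := congrArg (Subtype.val) hzr
        simpa using this
      rw [h2, mul_inv_cancel]
    have hdvd : orderOf (g0 * (z : G)) ∣ r := orderOf_dvd_of_pow_eq_one hpow
    rcases (Nat.dvd_prime hr).mp hdvd with h1 | h1
    · exfalso
      rw [orderOf_eq_one_iff] at h1
      apply hx1
      rw [← hg0]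
      have h3 : g0 = (z : G)⁻¹ := eq_inv_of_mul_eq_one_left h1
      rw [h3]
      exact (QuotientGroup.eq_one_iff _).mpr ((Subgroup.center G).inv_mem z.2)
    · exact h1
  · rintro g' ⟨hg'1, hg'2⟩
    have hmem : g0⁻¹ * g' ∈ Subgroup.center G := by
      rw [← QuotientGroup.eq, hg0, hg'1]
    have hg' : g' = g0 * (g0⁻¹ * g') := by simp
    have hz'c : Commute g0 (g0⁻¹ * g') := Subgroup.mem_center_iff.mp hmem g0
    have hz'r : (⟨g0⁻¹ * g', hmem⟩ : Subgroup.center G) ^ r = (⟨g0 ^ r, hg0r⟩ : Subgroup.center G)⁻¹ := by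
      apply Subtype.ext
      have h4 : g' ^ r = 1 := by rw [← hg'2, pow_orderOf_eq_one]
      rw [hg', hz'c.mul_pow] at h4
      have h5 : (g0⁻¹ * g') ^ r = (g0 ^ r)⁻¹ := eq_inv_of_mul_eq_one_right h4
      simpa using h5
    have h6 : (⟨g0⁻¹ * g', hmem⟩ : Subgroup.center G) = z := hpinj _ _ (hz'r.trans hzr.symm)
    have h7 : g0⁻¹ * g' = (z : G) := congrArg Subtype.val h6
    rw [← h7]; simp

/-- Lifting elements of prime order from PGL to GL: let F be a finite field with q elements, r a prime not dividing q − 1, and x an element of order r in GL_n(F) modulo its centre (the scalar matrices). Then x has exactly one preimage in GL_n(F) of order r. -/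
theorem result {F : Type*} [Field F] [Fintype F] {q n r : ℕ} (hF : Fintype.card F = q) (hr : r.Prime) (hdiv : ¬ r ∣ q - 1) (x : GL (Fin n) F ⧸ Subgroup.center (GL (Fin n) F)) (hx : orderOf x = r) : ∃! g : GL (Fin n) F, (QuotientGroup.mk g : GL (Fin n) F ⧸ Subgroup.center (GL (Fin n) F)) = x ∧ orderOf g = r := by
  classical
  apply lift_unique hr _ x hx
  have hcardZ : Nat.card (Subgroup.center (GL (Fin n) F)) ∣ q - 1 := by
    have h1 : Nat.card (Matrix.GeneralLinearGroup.scalar (Fin n) : Fˣ →* GL (Fin n) F).range ∣ Nat.card Fˣ :=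
      Subgroup.card_range_dvd _
    rw [← Matrix.GeneralLinearGroup.center_eq_range_scalar] at h1
    rw [Nat.card_eq_fintype_card (α := Fˣ), Fintype.card_units, hF] at h1
    exact h1
  rw [Nat.coprime_comm, Nat.Prime.coprime_iff_not_dvd hr]
  intro h
  exact hdiv (h.trans hcardZ)

end Cfsg.Agent.S2567
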