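import Cfsg.Statements.S2568
import Cfsg.Agent.Lib.Helper15.CycA
open Cfsg.Agent.Lib.Helper15

set_option autoImplicit false
open Cfsg

namespace Cfsg.Agent.S2568

/-- Number of conjugacy classes of elements of a given prime order r, coprime to the characteristic, in GL_n(q): if i is the multiplicative order of q modulo r and t = (r − 1)/i, the classes correspond to the non-zero t-tuples of natural numbers (a_1, …, a_t) with i(a_1 + ⋯ + a_t) ≤ n (a_j is the multiplicity of the j-th Frobenius orbit of nontrivial r-th roots of unity among the eigenvalues), so there are exactly C(⌊n/i⌋ + t, t) − 1 of them. -/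
theorem result {F : Type*} [Field F] [Fintype F] {p q : ℕ} [Fact p.Prime] [CharP F p] (hF : Fintype.card F = q) (n r i t : ℕ) (hr : r.Prime) (hrp : r ≠ p) (hi : i = orderOf (q : ZMod r)) (ht : t * i = r - 1) : Nat.card {C : ConjClasses (GL (Fin n) F) // ∃ g : GL (Fin n) F, ConjClasses.mk g = C ∧ orderOf g = r} = Nat.choose (n / i + t) t - 1 := by
  classical
  have hi0 : 0 < i := by
    rcases Nat.eq_zero_or_pos i with h0 | h0
    · exfalso
      rw [h0, mul_zero] at ht
      have := hr.one_lt
      omega
    · exact h0
  obtain ⟨h, hinj, hirr, hmon, hdiv, hall, h0, hdeg, -⟩ :=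
    Semi.cyc_family (F := F) p r hr hrp i t (by rw [hF]; exact hi) ht
  have hd0 : (h 0).natDegree = 1 := by
    rw [h0]
    have e1 : (Polynomial.X - 1 : Polynomial F) = Polynomial.X - Polynomial.C 1 := by
      rw [map_one]
    rw [e1]
    exact Polynomial.natDegree_X_sub_C 1
  rw [Semi.order_classes_card r hr, Semi.gl_pow_classes p n r hr hrp h hinj hirr hmon hdiv hall,
    Semi.card_exponents n i t hi0 (fun j => (h j).natDegree) hd0 hdeg]

end Cfsg.Agent.S2568
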