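import Cfsg.Statements.S2569
import Mathlib

set_option autoImplicit false
open Cfsg

namespace Cfsg.Agent.S2569

open Polynomial in
theorem exists_centralizer_det {F : Type*} [Field F] [Finite F] {V : Type*} [AddCommGroup V]
    [Module F V] [FiniteDimensional F V] [Nontrivial V]
    (φ : Module.End F V) (hφ : φ.IsSemisimple) (c : F) :
    ∃ T : V →ₗ[F] V, T ∘ₗ φ = φ ∘ₗ T ∧ LinearMap.det T = c := by
  classical
  have hss : IsSemisimpleModule F[X] (Module.AEval' φ) := hφ
  have : Nontrivial (Module.AEval' φ) := (Module.AEval'.of φ).symm.toEquiv.nontrivial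
  have : Finite V := Module.finite_of_finite F
  have : Finite (Module.AEval' φ) := Finite.of_equiv V (Module.AEval'.of φ).toEquiv
  obtain ⟨S, hS⟩ := IsSemisimpleModule.exists_simple_submodule (R := F[X]) (M := Module.AEval' φ)
  obtain ⟨I, hI, ⟨eS⟩⟩ := isSimpleModule_iff_quot_maximal.mp hS
  obtain ⟨S', hc⟩ := exists_isCompl S
  have := hI
  let _ : Field (F[X] ⧸ I) := Ideal.Quotient.field I
  have : Finite (F[X] ⧸ I) := Finite.of_equiv S eS.toEquiv
  obtain ⟨k, hk⟩ := FiniteField.norm_surjective F (F[X] ⧸ I) c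
  let eF : V ≃ₗ[F] (S × S') :=
    (Module.AEval'.of φ) ≪≫ₗ ((Submodule.prodEquivOfIsCompl S S' hc).restrictScalars F).symm
  let L : S →ₗ[F] S := ((eS.restrictScalars F).symm : (F[X] ⧸ I) →ₗ[F] S) ∘ₗ
    (Algebra.lmul F (F[X] ⧸ I) k) ∘ₗ ((eS.restrictScalars F) : S →ₗ[F] (F[X] ⧸ I))
  have hL : ∀ s : S, L s = eS.symm (k * eS s) := fun s => rfl
  have hLX : ∀ s : S, L ((X : F[X]) • s) = (X : F[X]) • L s := by
    intro s
    rw [hL, hL, map_smul, mul_smul_comm, map_smul]
  have hdetL : LinearMap.det L = c := by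
    rw [← hk, Algebra.norm_apply]
    exact LinearMap.det_conj (Algebra.lmul F (F[X] ⧸ I) k) (eS.restrictScalars F).symm
  let T : V →ₗ[F] V := (eF.symm : (S × S') →ₗ[F] V) ∘ₗ (L.prodMap LinearMap.id) ∘ₗ
    (eF : V →ₗ[F] (S × S'))
  refine ⟨T, ?_, ?_⟩
  · apply LinearMap.ext
    intro v
    show eF.symm ((L.prodMap LinearMap.id) (eF (φ v))) = φ (eF.symm ((L.prodMap LinearMap.id) (eF v)))
    have h1 : eF (φ v) = (X : F[X]) • eF v := by
      show (Submodule.prodEquivOfIsCompl S S' hc).symm (Module.AEval'.of φ (φ v)) =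
        (X : F[X]) • (Submodule.prodEquivOfIsCompl S S' hc).symm (Module.AEval'.of φ v)
      rw [← Module.AEval'.X_smul_of, map_smul]
    have h2 : ∀ p : S × S', (L.prodMap LinearMap.id) ((X : F[X]) • p) =
        (X : F[X]) • (L.prodMap LinearMap.id) p := by
      rintro ⟨s, s'⟩
      show (L ((X : F[X]) • s), (X : F[X]) • s') = ((X : F[X]) • L s, (X : F[X]) • s')
      rw [hLX]
    have h3 : ∀ p : S × S', eF.symm ((X : F[X]) • p) = φ (eF.symm p) := by
      intro p
      show (Module.AEval'.of φ).symm ((Submodule.prodEquivOfIsCompl S S' hc) ((X : F[X]) • p)) =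
        φ ((Module.AEval'.of φ).symm ((Submodule.prodEquivOfIsCompl S S' hc) p))
      rw [map_smul, Module.AEval'.of_symm_X_smul]
    rw [h1, h2, h3]
  · have h1 : LinearMap.det T = LinearMap.det (L.prodMap (LinearMap.id : S' →ₗ[F] S')) :=
      LinearMap.det_conj (L.prodMap (LinearMap.id : S' →ₗ[F] S')) eF.symm
    rw [h1, LinearMap.det_prodMap, LinearMap.det_id, mul_one, hdetL]

/-- In GL_n over a finite field of characteristic p, the conjugacy class of a semisimple element (an element of order prime to p) under the special linear group is its whole GL-conjugacy class: for every such x and every invertible g there is h of determinant one with h x h⁻¹ = g x g⁻¹. -/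
theorem result {F : Type*} [Field F] [Fintype F] {p : ℕ} [Fact p.Prime] [CharP F p] {n : ℕ} (x g : GL (Fin n) F) (hx : (orderOf x).Coprime p) : ∃ h : GL (Fin n) F, (h : Matrix (Fin n) (Fin n) F).det = 1 ∧ h * x * h⁻¹ = g * x * g⁻¹ := by
  classical
  rcases Nat.eq_zero_or_pos n with rfl | hn
  · refine ⟨1, by simp, Subsingleton.elim _ _⟩
  · have : Nonempty (Fin n) := ⟨⟨0, hn⟩⟩
    have hpos : 0 < orderOf x := orderOf_pos x
    have hdvd : ¬ p ∣ orderOf x := by
      intro h
      have h1 : p ∣ Nat.gcd (orderOf x) p := Nat.dvd_gcd h dvd_rfl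
      rw [Nat.Coprime] at hx
      rw [hx] at h1
      exact (Fact.out : p.Prime).one_lt.ne' (Nat.dvd_one.mp h1)
    have hk0 : ((orderOf x : ℕ) : F) ≠ 0 := by
      rw [Ne, CharP.cast_eq_zero_iff F p]
      exact hdvd
    have hsq : Squarefree (Polynomial.X ^ orderOf x - 1 : Polynomial F) :=
      (Polynomial.X_pow_sub_one_separable_iff.mpr hk0).squarefree
    have hxpow : (x : Matrix (Fin n) (Fin n) F) ^ orderOf x = 1 := by
      rw [← Units.val_pow_eq_pow_val, pow_orderOf_eq_one, Units.val_one]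
    have hpow : (Matrix.toLin' (x : Matrix (Fin n) (Fin n) F)) ^ orderOf x = 1 := by
      have h2 : Matrix.toLinAlgEquiv' ((x : Matrix (Fin n) (Fin n) F) ^ orderOf x) =
          (Matrix.toLinAlgEquiv' (x : Matrix (Fin n) (Fin n) F)) ^ orderOf x := map_pow _ _ _
      rw [hxpow, map_one] at h2
      exact h2.symm
    have hss : Module.End.IsSemisimple (Matrix.toLin' (x : Matrix (Fin n) (Fin n) F)) := by
      apply Module.End.isSemisimple_of_squarefree_aeval_eq_zero hsq
      rw [map_sub, map_pow, Polynomial.aeval_X, map_one, hpow, sub_self]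
    obtain ⟨T, hT, hdet⟩ := exists_centralizer_det
      (Matrix.toLin' (x : Matrix (Fin n) (Fin n) F)) hss ((g : Matrix (Fin n) (Fin n) F).det)⁻¹
    have hgdet : (g : Matrix (Fin n) (Fin n) F).det ≠ 0 := by
      have h1 : (g : Matrix (Fin n) (Fin n) F) * ((g⁻¹ : GL (Fin n) F) : Matrix (Fin n) (Fin n) F)
          = 1 := by
        rw [← Units.val_mul, mul_inv_cancel, Units.val_one]
      intro h0
      have h2 := congrArg Matrix.det h1
      rw [Matrix.det_mul, h0, zero_mul, Matrix.det_one] at h2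
      exact zero_ne_one h2
    have hZdet : (LinearMap.toMatrix' T).det = ((g : Matrix (Fin n) (Fin n) F).det)⁻¹ := by
      rw [LinearMap.det_toMatrix']
      exact hdet
    have hZx : LinearMap.toMatrix' T * (x : Matrix (Fin n) (Fin n) F) =
        (x : Matrix (Fin n) (Fin n) F) * LinearMap.toMatrix' T := by
      have h1 := congrArg LinearMap.toMatrix' hT
      rw [LinearMap.toMatrix'_comp, LinearMap.toMatrix'_comp, LinearMap.toMatrix'_toLin'] at h1
      exact h1
    let z : GL (Fin n) F := Matrix.GeneralLinearGroup.mkOfDetNeZero (LinearMap.toMatrix' T)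
      (by rw [hZdet]; exact inv_ne_zero hgdet)
    have hz : (z : Matrix (Fin n) (Fin n) F) = LinearMap.toMatrix' T := rfl
    have hzx : z * x = x * z := by
      apply Units.ext
      rw [Units.val_mul, Units.val_mul, hz]
      exact hZx
    refine ⟨g * z, ?_, ?_⟩
    · rw [Units.val_mul, Matrix.det_mul, hz, hZdet, mul_inv_cancel₀ hgdet]
    · rw [mul_inv_rev]
      calc g * z * x * (z⁻¹ * g⁻¹) = g * (z * x * z⁻¹) * g⁻¹ := by group
        _ = g * x * g⁻¹ := by rw [hzx, mul_inv_cancel_right]

end Cfsg.Agent.S2569
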