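import Cfsg.Statements.S2570
import Cfsg.Agent.Lib.Helper15.JordanD
open Cfsg.Agent.Lib.Helper15.Jordan Cfsg.Agent.Lib.Helper15

set_option autoImplicit false
open Cfsg

namespace Cfsg.Agent.S2570

/-- Number of conjugacy classes of elements of order p in GL_n over a finite field of characteristic p: they correspond to the Jordan types, that is, to the partitions of n with all parts at most p other than the partition into ones, so there are (number of partitions of n with parts ≤ p) − 1 of them. -/
theorem result {F : Type*} [Field F] [Fintype F] {p : ℕ} [Fact p.Prime] [CharP F p] (n : ℕ) : Nat.card {C : ConjClasses (GL (Fin n) F) // ∃ g : GL (Fin n) F, ConjClasses.mk g = C ∧ orderOf g = p} = (Finset.univ.filter (fun μ : Nat.Partition n => ∀ a ∈ μ.parts, a ≤ p)).card - 1 := by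
  classical
  have hp : p.Prime := Fact.out
  have hord : ∀ g : GL (Fin n) F, orderOf g = p ↔ ((NmGL g) ^ p = 0 ∧ NmGL g ≠ 0) := by
    intro g
    have h1 := pow_eq_one_iff p g 1
    rw [pow_one] at h1
    have h0 : NmGL g = 0 ↔ g = 1 := by
      unfold NmGL
      constructor
      · intro h
        have h2 : (g : Matrix (Fin n) (Fin n) F) - 1 = 0 := by
          apply Matrix.toLin'.injective
          rw [h, map_zero]
        apply Units.ext
        simpa using sub_eq_zero.mp h2
      · rintro rfl
        simp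
    constructor
    · intro h
      refine ⟨h1.mp (by rw [← h]; exact pow_orderOf_eq_one g), fun h2 => ?_⟩
      rw [h0.mp h2, orderOf_one] at h
      exact hp.one_lt.ne h
    · rintro ⟨h2, h3⟩
      exact orderOf_eq_prime (h1.mpr h2) (fun h => h3 (h0.mpr h))
  have hsum0 : ∀ (l : Multiset ℕ) (k : ℕ), (l.map (fun x => x - k)).sum = 0 ↔ ∀ a ∈ l, a ≤ k := by
    intro l k
    rw [Multiset.sum_eq_zero_iff]
    constructor
    · intro h a ha
      have h1 := h (a - k) (Multiset.mem_map.mpr ⟨a, ha, rfl⟩)
      omega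
    · intro h b hb
      obtain ⟨a, ha, rfl⟩ := Multiset.mem_map.mp hb
      have h1 := h a ha
      omega
  have hchar : ∀ (g : GL (Fin n) F) (l : Nat.Partition n),
      (∀ k, rk (NmGL g) k = (l.parts.map (fun x => x - k)).sum) →
      (((NmGL g) ^ p = 0 ∧ NmGL g ≠ 0) ↔ ((∀ a ∈ l.parts, a ≤ p) ∧ ∃ a ∈ l.parts, 1 < a)) := by
    intro g l hl
    have e1 : (NmGL g) ^ p = 0 ↔ ∀ a ∈ l.parts, a ≤ p := by
      rw [← rk_eq_zero_iff, hl, hsum0]
    have e2 : NmGL g = 0 ↔ ∀ a ∈ l.parts, a ≤ 1 := by
      have h1 : NmGL g = 0 ↔ (NmGL g) ^ 1 = 0 := by rw [pow_one]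
      rw [h1, ← rk_eq_zero_iff, hl, hsum0]
    rw [e1, Ne, e2]
    constructor
    · rintro ⟨h1, h2⟩
      refine ⟨h1, ?_⟩
      by_contra hcon
      push Not at hcon
      exact h2 hcon
    · rintro ⟨h1, a, ha, h2⟩
      refine ⟨h1, fun hcon => ?_⟩
      have := hcon a ha
      omega
  let S := {C : ConjClasses (GL (Fin n) F) // ∃ g : GL (Fin n) F, ConjClasses.mk g = C ∧ orderOf g = p}
  let T := {μ : Nat.Partition n // (∀ a ∈ μ.parts, a ≤ p) ∧ ∃ a ∈ μ.parts, 1 < a}
  let rep : S → GL (Fin n) F := fun C => Classical.choose C.2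
  have hrep1 : ∀ C : S, ConjClasses.mk (rep C) = C.1 := fun C => (Classical.choose_spec C.2).1
  have hrep2 : ∀ C : S, orderOf (rep C) = p := fun C => (Classical.choose_spec C.2).2
  have hnil : ∀ C : S, IsNilpotent (NmGL (rep C)) := fun C => ⟨p, ((hord _).mp (hrep2 C)).1⟩
  let f0 : S → Nat.Partition n := fun C => Classical.choose (exists_partition (hnil C))
  have hf0 : ∀ (C : S) (k : ℕ), rk (NmGL (rep C)) k = ((f0 C).parts.map (fun x => x - k)).sum :=
    fun C => Classical.choose_spec (exists_partition (hnil C))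
  let f : S → T := fun C => ⟨f0 C, (hchar _ _ (hf0 C)).mp ((hord _).mp (hrep2 C))⟩
  have hbij : Function.Bijective f := by
    constructor
    · intro C C' hCC'
      have hCC'' : f0 C = f0 C' := congrArg Subtype.val hCC'
      have h1 : ∀ k, rk (NmGL (rep C)) k = rk (NmGL (rep C')) k := by
        intro k
        rw [hf0 C k, hf0 C' k, hCC'']
      have h2 := isConj_of_rk (hnil C) (hnil C') h1
      apply Subtype.ext
      rw [← hrep1 C, ← hrep1 C']
      exact ConjClasses.mk_eq_mk_iff_isConj.mpr h2
    · rintro ⟨l, hl⟩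
      obtain ⟨g, hg1, hg2⟩ := exists_of_partition (F := F) l
      have hgo : orderOf g = p := (hord g).mpr ((hchar g l hg2).mpr hl)
      set C : S := ⟨ConjClasses.mk g, g, rfl, hgo⟩ with hC
      refine ⟨C, ?_⟩
      have h1 : IsConj (rep C) g := ConjClasses.mk_eq_mk_iff_isConj.mp (hrep1 C)
      have h2 : ∀ k, ((f0 C).parts.map (fun x => x - k)).sum = (l.parts.map (fun x => x - k)).sum := by
        intro k
        rw [← hf0 C k, rk_isConj h1 k, hg2 k]
      apply Subtype.ext
      apply Nat.Partition.ext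
      exact type_injective _ _ (fun x hx => (f0 C).parts_pos hx) (fun x hx => l.parts_pos hx) h2
  rw [Nat.card_eq_of_bijective f hbij]
  let ones : Nat.Partition n := ⟨Multiset.replicate n 1,
    fun {i} hi => by rw [Multiset.eq_of_mem_replicate hi]; exact one_pos, by simp⟩
  have hones : ones ∈ Finset.univ.filter (fun μ : Nat.Partition n => ∀ a ∈ μ.parts, a ≤ p) := by
    rw [Finset.mem_filter]
    refine ⟨Finset.mem_univ _, fun a ha => ?_⟩
    rw [Multiset.eq_of_mem_replicate ha]
    exact hp.one_lt.le
  rw [← Finset.card_erase_of_mem hones]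
  apply Nat.subtype_card
  intro μ
  rw [Finset.mem_erase, Finset.mem_filter]
  simp only [Finset.mem_univ, true_and]
  constructor
  · rintro ⟨hne, hle⟩
    refine ⟨hle, ?_⟩
    by_contra hcon
    push Not at hcon
    apply hne
    apply Nat.Partition.ext
    show μ.parts = Multiset.replicate n 1
    have hall : ∀ b ∈ μ.parts, b = 1 := fun b hb => by
      have h1 := hcon b hb
      have h2 := μ.parts_pos hb
      omega
    have hsum := μ.parts_sum
    have hrep := Multiset.eq_replicate_card.mpr hall
    rw [hrep] at hsum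
    rw [Multiset.eq_replicate]
    refine ⟨?_, hall⟩
    simpa using hsum
  · rintro ⟨hle, a, ha, h1a⟩
    refine ⟨?_, hle⟩
    rintro rfl
    have h2 := Multiset.eq_of_mem_replicate ha
    omega

end Cfsg.Agent.S2570
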