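import Cfsg.Statements.S2571
import Mathlib

set_option autoImplicit false
open Cfsg

namespace Cfsg.Agent.S2571

theorem mulVecLin_pow' {F : Type*} [Field F] {ι : Type*} [Fintype ι] [DecidableEq ι]
    (A : Matrix ι ι F) (k : ℕ) :
    Matrix.mulVecLin (A ^ k) = (Matrix.mulVecLin A) ^ k := by
  induction k with
  | zero => rw [pow_zero, pow_zero, Matrix.mulVecLin_one]; rfl
  | succ k ih => rw [pow_succ, Matrix.mulVecLin_mul, ih, pow_succ]; rfl

theorem finrank_ker_pow_le {F V : Type*} [Field F] [AddCommGroup V] [Module F V]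
    [FiniteDimensional F V] (N : Module.End F V) (j : ℕ) :
    Module.finrank F (LinearMap.ker (N ^ j)) ≤ j * Module.finrank F (LinearMap.ker N) := by
  induction j with
  | zero =>
    have : LinearMap.ker (N ^ 0) = ⊥ := by
      rw [pow_zero]; exact LinearMap.ker_id
    rw [this]; simp
  | succ j ih =>
    have hmap : ∀ x : V, x ∈ LinearMap.ker (N ^ (j + 1)) → N x ∈ LinearMap.ker (N ^ j) := by
      intro x hx
      rw [LinearMap.mem_ker] at hx ⊢
      rw [pow_succ] at hx
      exact hx
    set g := N.restrict hmap with hg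
    have h1 := LinearMap.finrank_range_add_finrank_ker g
    have h2 : Module.finrank F (LinearMap.range g) ≤ Module.finrank F (LinearMap.ker (N ^ j)) :=
      Submodule.finrank_le _
    have h3 : Module.finrank F (LinearMap.ker g) ≤ Module.finrank F (LinearMap.ker N) := by
      have hk : ∀ y : LinearMap.ker g, ((y : LinearMap.ker (N ^ (j + 1))) : V) ∈ LinearMap.ker N := by
        intro y
        have := y.2
        rw [LinearMap.mem_ker] at this ⊢
        have h4 : ((g (y : LinearMap.ker (N ^ (j + 1))) : LinearMap.ker (N ^ j)) : V) = 0 := by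
          rw [this]; rfl
        exact h4
      let φ : LinearMap.ker g →ₗ[F] LinearMap.ker N :=
        { toFun := fun y => ⟨((y : LinearMap.ker (N ^ (j + 1))) : V), hk y⟩
          map_add' := fun a b => rfl
          map_smul' := fun c a => rfl }
      apply LinearMap.finrank_le_finrank_of_injective (f := φ)
      intro a b hab
      have := congrArg Subtype.val hab
      exact Subtype.ext (Subtype.ext this)
    calc Module.finrank F (LinearMap.ker (N ^ (j + 1)))
        = Module.finrank F (LinearMap.range g) + Module.finrank F (LinearMap.ker g) := h1.symm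
      _ ≤ Module.finrank F (LinearMap.ker (N ^ j)) + Module.finrank F (LinearMap.ker N) :=
          add_le_add h2 h3
      _ ≤ j * Module.finrank F (LinearMap.ker N) + Module.finrank F (LinearMap.ker N) :=
          Nat.add_le_add_right ih _
      _ = (j + 1) * Module.finrank F (LinearMap.ker N) := by ring

theorem lemL {F : Type*} [Field F] {n' : ℕ} (N : Matrix (Fin (n' + 1)) (Fin (n' + 1)) F)
    (hN : N ^ (n' + 1) = 0) (w : Fin (n' + 1) → F) (hw : (N ^ n').mulVec w ≠ 0)
    (d : Fin (n' + 1) → F) (h : (∑ i, d i • N ^ (i : ℕ)).mulVec w = 0) : d = 0 := by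
  classical
  by_contra hd
  have hne : (Finset.univ.filter (fun i => d i ≠ 0)).Nonempty := by
    by_contra hemp
    rw [Finset.not_nonempty_iff_eq_empty] at hemp
    apply hd
    funext i
    by_contra hi
    have hmem : i ∈ Finset.univ.filter (fun i => d i ≠ 0) := by
      rw [Finset.mem_filter]
      exact ⟨Finset.mem_univ _, hi⟩
    rw [hemp] at hmem
    exact absurd hmem (Finset.notMem_empty i)
  set j := (Finset.univ.filter (fun i => d i ≠ 0)).min' hne with hj
  have hjmem := Finset.min'_mem _ hne
  have hdj : d j ≠ 0 := (Finset.mem_filter.mp hjmem).2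
  have hmin : ∀ i, d i ≠ 0 → j ≤ i := fun i hi =>
    Finset.min'_le _ i (Finset.mem_filter.mpr ⟨Finset.mem_univ _, hi⟩)
  have hjn : (j : ℕ) ≤ n' := Nat.lt_succ_iff.mp j.2
  have key : (N ^ (n' - j)).mulVec ((∑ i, d i • N ^ (i : ℕ)).mulVec w)
      = d j • (N ^ n').mulVec w := by
    rw [Matrix.mulVec_mulVec, Finset.mul_sum, Finset.sum_eq_single j]
    · rw [Matrix.mul_smul, ← pow_add, Nat.sub_add_cancel hjn, Matrix.smul_mulVec]
    · intro i _ hij
      by_cases hi : d i = 0
      · rw [hi, zero_smul, mul_zero]
      · have hlt : (j : ℕ) < i := lt_of_le_of_ne (hmin i hi) (fun h => hij (Fin.ext h.symm))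
        rw [Matrix.mul_smul, ← pow_add]
        have h0 : N ^ (n' - j + i) = 0 := by
          have e : n' - (j : ℕ) + i = (n' + 1) + (n' - j + i - (n' + 1)) := by omega
          rw [e, pow_add, hN, zero_mul]
        rw [h0, smul_zero]
    · intro h
      exact absurd (Finset.mem_univ j) h
  rw [h, Matrix.mulVec_zero] at key
  rcases smul_eq_zero.mp key.symm with h1 | h1
  · exact hdj h1
  · exact hw h1

/-- Centraliser of a regular unipotent element in GL_n(q): if u is an invertible n × n matrix over the field with q elements, n ≥ 1, with (u − 1)^n = 0 and rank(u − 1) = n − 1 (a single unipotent Jordan block), then its centraliser in GL_n(q) has order (q − 1) q^(n−1). -/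
theorem result {F : Type*} [Field F] [Fintype F] {q n : ℕ} (hF : Fintype.card F = q) (hn : 1 ≤ n) (u : GL (Fin n) F) (hnil : ((u : Matrix (Fin n) (Fin n) F) - 1) ^ n = 0) (hreg : ((u : Matrix (Fin n) (Fin n) F) - 1).rank = n - 1) : Nat.card ↥(Subgroup.centralizer ({u} : Set (GL (Fin n) F))) = (q - 1) * q ^ (n - 1) := by
  classical
  obtain ⟨n', rfl⟩ : ∃ n', n = n' + 1 := ⟨n - 1, by omega⟩
  simp only [Nat.add_sub_cancel] at hreg ⊢
  set U : Matrix (Fin (n' + 1)) (Fin (n' + 1)) F := (u : Matrix (Fin (n' + 1)) (Fin (n' + 1)) F)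
    with hU
  set N : Matrix (Fin (n' + 1)) (Fin (n' + 1)) F := U - 1 with hN
  have hUN : U = N + 1 := by rw [hN]; abel
  let p : (Fin (n' + 1) → F) → Matrix (Fin (n' + 1)) (Fin (n' + 1)) F :=
    fun d => ∑ i, d i • N ^ (i : ℕ)
  have hpN : ∀ d, Commute (p d) N := fun d =>
    Commute.sum_left _ _ _ (fun i _ => ((Commute.refl N).pow_left i).smul_left (d i))
  have hpU : ∀ d, U * p d = p d * U := by
    intro d
    rw [hUN, add_mul, mul_add, (hpN d).eq, one_mul, mul_one]
  -- a vector not killed by N ^ n'
  have hNn' : N ^ n' ≠ 0 := by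
    intro h0
    have hker : Module.finrank F (LinearMap.ker (Matrix.mulVecLin N)) ≤ 1 := by
      have h1 := LinearMap.finrank_range_add_finrank_ker (Matrix.mulVecLin N)
      have h2 : Module.finrank F (LinearMap.range (Matrix.mulVecLin N)) = n' := hreg
      have h3 : Module.finrank F (Fin (n' + 1) → F) = n' + 1 := by simp
      omega
    have h4 := finrank_ker_pow_le (Matrix.mulVecLin N) n'
    rw [← mulVecLin_pow', h0] at h4
    have h5 : LinearMap.ker (Matrix.mulVecLin (0 : Matrix (Fin (n' + 1)) (Fin (n' + 1)) F)) = ⊤ := by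
      rw [LinearMap.ker_eq_top]
      ext v
      simp
    rw [h5, finrank_top] at h4
    have h3 : Module.finrank F (Fin (n' + 1) → F) = n' + 1 := by simp
    have h6 : n' * Module.finrank F (LinearMap.ker (Matrix.mulVecLin N)) ≤ n' * 1 :=
      Nat.mul_le_mul_left _ hker
    omega
  obtain ⟨v, hv⟩ : ∃ v, (N ^ n').mulVec v ≠ 0 := by
    by_contra hcon
    push Not at hcon
    apply hNn'
    ext i j
    have h1 := congrFun (hcon (Pi.single j 1)) i
    rw [Matrix.mulVec_single_one] at h1
    exact h1
  have hL : ∀ d, (p d).mulVec v = 0 → d = 0 := fun d h => lemL N hnil v hv d h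
  have hpsub : ∀ d d', p (d - d') = p d - p d' := by
    intro d d'
    simp only [p, Pi.sub_apply, sub_smul, Finset.sum_sub_distrib]
  have hpinj : ∀ d d', p d = p d' → d = d' := by
    intro d d' h
    have h1 : p (d - d') = 0 := by rw [hpsub, h, sub_self]
    have h2 := hL (d - d') (by rw [h1, Matrix.zero_mulVec])
    exact sub_eq_zero.mp h2
  have hunit : ∀ d : Fin (n' + 1) → F, d 0 ≠ 0 → IsUnit (p d) := by
    intro d hd0
    have hsplit : p d = d 0 • (1 : Matrix (Fin (n' + 1)) (Fin (n' + 1)) F) +
        N * ∑ i : Fin n', d i.succ • N ^ (i : ℕ) := by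
      have e0 : d 0 • N ^ ((0 : Fin (n' + 1)) : ℕ) =
          d 0 • (1 : Matrix (Fin (n' + 1)) (Fin (n' + 1)) F) := by
        rw [Fin.val_zero, pow_zero]
      have e1 : ∀ i : Fin n', d i.succ • N ^ ((i.succ : Fin (n' + 1)) : ℕ) =
          N * (d i.succ • N ^ (i : ℕ)) := by
        intro i
        rw [Matrix.mul_smul, Fin.val_succ, pow_succ']
      simp only [p]
      rw [Fin.sum_univ_succ, Finset.mul_sum, e0]
      exact congrArg _ (Finset.sum_congr rfl (fun i _ => e1 i))
    rw [hsplit]
    have hcomm : Commute N (∑ i : Fin n', d i.succ • N ^ (i : ℕ)) :=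
      Commute.sum_right _ _ _ (fun i _ => ((Commute.refl N).pow_right i).smul_right (d i.succ))
    have hnilp : IsNilpotent (N * ∑ i : Fin n', d i.succ • N ^ (i : ℕ)) := by
      refine ⟨n' + 1, ?_⟩
      rw [hcomm.mul_pow, hnil, zero_mul]
    have hu1 : IsUnit (d 0 • (1 : Matrix (Fin (n' + 1)) (Fin (n' + 1)) F)) := by
      refine ⟨⟨d 0 • 1, (d 0)⁻¹ • 1, ?_, ?_⟩, rfl⟩
      · rw [smul_mul_smul_comm, mul_inv_cancel₀ hd0, one_mul, one_smul]
      · rw [smul_mul_smul_comm, inv_mul_cancel₀ hd0, one_mul, one_smul]
    apply hnilp.isUnit_add_left_of_commute hu1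
    show _ * _ = _ * _
    rw [Matrix.mul_smul, Matrix.smul_mul, mul_one, one_mul]
  let Φ : Fˣ × (Fin n' → F) → ↥(Subgroup.centralizer ({u} : Set (GL (Fin (n' + 1)) F))) :=
    fun ac => ⟨(hunit (Fin.cons (ac.1 : F) ac.2) (by simp)).unit, by
      rw [Subgroup.mem_centralizer_iff]
      intro h hh
      rw [Set.mem_singleton_iff] at hh
      subst hh
      apply Units.ext
      simp only [Units.val_mul, IsUnit.unit_spec]
      exact hpU _⟩
  have hΦval : ∀ ac, (((Φ ac : ↥(Subgroup.centralizer ({u} : Set (GL (Fin (n' + 1)) F)))) :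
      GL (Fin (n' + 1)) F) : Matrix (Fin (n' + 1)) (Fin (n' + 1)) F) =
      p (Fin.cons (ac.1 : F) ac.2) := fun ac => rfl
  have hΦ : Function.Bijective Φ := by
    constructor
    · intro ac ac' h
      have h1 : p (Fin.cons (ac.1 : F) ac.2) = p (Fin.cons (ac'.1 : F) ac'.2) := by
        rw [← hΦval, ← hΦval, h]
      have h2 := hpinj _ _ h1
      have h3 := Fin.cons_injective2 h2
      exact Prod.ext (Units.ext h3.1) h3.2
    · intro g
      set G : Matrix (Fin (n' + 1)) (Fin (n' + 1)) F :=
        ((g : GL (Fin (n' + 1)) F) : Matrix (Fin (n' + 1)) (Fin (n' + 1)) F) with hG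
      have hgu : U * G = G * U := by
        have h1 := (Subgroup.mem_centralizer_iff.mp g.2) u (Set.mem_singleton u)
        have h2 := congrArg (fun x : GL (Fin (n' + 1)) F =>
          (x : Matrix (Fin (n' + 1)) (Fin (n' + 1)) F)) h1
        simpa only [Units.val_mul] using h2
      have hgN : N * G = G * N := by
        rw [hN, sub_mul, mul_sub, hgu, one_mul, mul_one]
      have hgNk : ∀ k : ℕ, N ^ k * G = G * N ^ k := by
        intro k
        induction k with
        | zero => simp
        | succ k ih => rw [pow_succ, mul_assoc, hgN, ← mul_assoc, ih, mul_assoc]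
      -- the cyclic basis
      have hli : LinearIndependent F (fun i : Fin (n' + 1) => (N ^ (i : ℕ)).mulVec v) := by
        rw [Fintype.linearIndependent_iff]
        intro d hd
        have h1 : (p d).mulVec v = 0 := by
          simp only [p]
          rw [Matrix.sum_mulVec]
          simpa only [Matrix.smul_mulVec] using hd
        have h2 := hL d h1
        intro i
        rw [h2]
        rfl
      have hspan : Submodule.span F (Set.range (fun i : Fin (n' + 1) => (N ^ (i : ℕ)).mulVec v))
          = ⊤ := hli.span_eq_top_of_card_eq_finrank' (by simp)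
      have hgv : G.mulVec v ∈ Submodule.span F
          (Set.range (fun i : Fin (n' + 1) => (N ^ (i : ℕ)).mulVec v)) := by
        rw [hspan]
        exact Submodule.mem_top
      obtain ⟨d, hd⟩ := (Submodule.mem_span_range_iff_exists_fun F).mp hgv
      have hpd : (p d).mulVec v = G.mulVec v := by
        simp only [p]
        rw [Matrix.sum_mulVec]
        simpa only [Matrix.smul_mulVec] using hd
      have hGp : G = p d := by
        have h1 : Matrix.mulVecLin G = Matrix.mulVecLin (p d) := by
          apply LinearMap.ext_on_range hspan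
          intro k
          simp only [Matrix.mulVecLin_apply]
          rw [Matrix.mulVec_mulVec, Matrix.mulVec_mulVec, ← hgNk, ((hpN d).pow_right k).eq,
            ← Matrix.mulVec_mulVec, ← Matrix.mulVec_mulVec, hpd]
        ext i j
        have h2 := congrFun (congrArg (fun f => f (Pi.single j 1)) h1) i
        simp only [Matrix.mulVecLin_apply, Matrix.mulVec_single_one] at h2
        exact h2
      have hd0 : d 0 ≠ 0 := by
        intro h0
        have h1 : (p d).mulVec ((N ^ n').mulVec v) = 0 := by
          rw [Matrix.mulVec_mulVec]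
          simp only [p]
          rw [Finset.sum_mul, Matrix.sum_mulVec]
          apply Finset.sum_eq_zero
          intro i _
          rw [Matrix.smul_mul, ← pow_add]
          by_cases hi : i = 0
          · rw [hi, h0, zero_smul, Matrix.zero_mulVec]
          · have hpos : 0 < (i : ℕ) := Nat.pos_of_ne_zero (fun h => hi (Fin.ext h))
            have e : (i : ℕ) + n' = (n' + 1) + (i - 1) := by omega
            rw [e, pow_add, hnil, zero_mul, smul_zero, Matrix.zero_mulVec]
        rw [← hGp] at h1
        have h2 : (((g : GL (Fin (n' + 1)) F)⁻¹ : GL (Fin (n' + 1)) F) :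
            Matrix (Fin (n' + 1)) (Fin (n' + 1)) F) * G = 1 := by
          rw [hG, ← Units.val_mul, inv_mul_cancel, Units.val_one]
        have h3 : ((((g : GL (Fin (n' + 1)) F)⁻¹ : GL (Fin (n' + 1)) F) :
            Matrix (Fin (n' + 1)) (Fin (n' + 1)) F)).mulVec (G.mulVec ((N ^ n').mulVec v)) =
            ((((g : GL (Fin (n' + 1)) F)⁻¹ : GL (Fin (n' + 1)) F) :
            Matrix (Fin (n' + 1)) (Fin (n' + 1)) F)).mulVec 0 := by rw [h1]
        rw [Matrix.mulVec_mulVec, h2, Matrix.one_mulVec, Matrix.mulVec_zero] at h3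
        exact hv h3
      refine ⟨(Units.mk0 (d 0) hd0, Fin.tail d), ?_⟩
      apply Subtype.ext
      apply Units.ext
      rw [hΦval]
      simp only [Units.val_mk0, Fin.cons_self_tail]
      exact hGp.symm
  rw [← Nat.card_eq_of_bijective Φ hΦ, Nat.card_prod, Nat.card_units, Nat.card_fun, Nat.card_fin,
    Nat.card_eq_fintype_card, hF]

end Cfsg.Agent.S2571
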