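import Cfsg.Statements.S2572
import Mathlib

set_option autoImplicit false
open Cfsg

namespace Cfsg.Agent.S2572

theorem exists_equiv_pair {F V : Type*} [Field F] [AddCommGroup V] [Module F V]
    [FiniteDimensional F V] {u v u' v' : V} (h : LinearIndependent F ![u, v])
    (h' : LinearIndependent F ![u', v']) :
    ∃ g : V ≃ₗ[F] V, g u = u' ∧ g v = v' := by
  have q0 : ∀ {u v : V} (h : LinearIndependent F ![u, v]),
      (h.linearCombinationEquiv (Finsupp.single 0 1) : V) = u := by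
    intro u v h
    simp
  have q1 : ∀ {u v : V} (h : LinearIndependent F ![u, v]),
      (h.linearCombinationEquiv (Finsupp.single 1 1) : V) = v := by
    intro u v h
    simp
  let f := h.linearCombinationEquiv.symm ≪≫ₗ h'.linearCombinationEquiv
  obtain ⟨g, hg⟩ := Submodule.exists_linearEquiv_restrict_eq f
  refine ⟨g, ?_, ?_⟩
  · have h1 := hg (h.linearCombinationEquiv (Finsupp.single 0 1))
    simp only [f, LinearEquiv.trans_apply, LinearEquiv.symm_apply_apply] at h1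
    rw [q0 h, q0 h'] at h1
    exact h1.symm
  · have h1 := hg (h.linearCombinationEquiv (Finsupp.single 1 1))
    simp only [f, LinearEquiv.trans_apply, LinearEquiv.symm_apply_apply] at h1
    rw [q1 h, q1 h'] at h1
    exact h1.symm

open Matrix in
theorem std_form {F : Type*} [Field F] {ι : Type*} [Fintype ι] [DecidableEq ι] (i₀ i₁ : ι)
    (h01 : i₀ ≠ i₁) (N : Matrix ι ι F)
    (hr : N.rank = 1) (hN : N * N = 0) :
    ∃ G G' : Matrix ι ι F, G * G' = 1 ∧ G' * G = 1 ∧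
      N * G = G * Matrix.single i₀ i₁ 1 := by
  classical
  have hr' : Module.finrank F (LinearMap.range N.mulVecLin) = 1 := hr
  obtain ⟨⟨a, ha⟩, hane, hall⟩ := finrank_eq_one_iff'.mp hr'
  obtain ⟨x, hx⟩ := ha
  have hx' : N *ᵥ x = a := hx
  have ha0 : a ≠ 0 := fun h => hane (Subtype.ext h)
  have hNa : N *ᵥ a = 0 := by
    rw [← hx', Matrix.mulVec_mulVec, hN, Matrix.zero_mulVec]
  obtain ⟨j₀, hj₀⟩ := Function.ne_iff.mp ha0
  have hj₀' : a j₀ ≠ 0 := hj₀
  let φ : (ι → F) →ₗ[F] F := (a j₀)⁻¹ • (LinearMap.proj j₀ ∘ₗ N.mulVecLin)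
  have hφ : ∀ v, φ v = (a j₀)⁻¹ * (N *ᵥ v) j₀ := fun v => rfl
  have hNv : ∀ v, N *ᵥ v = φ v • a := by
    intro v
    obtain ⟨c, hc⟩ := hall ⟨N *ᵥ v, ⟨v, rfl⟩⟩
    have hc' : c • a = N *ᵥ v := congrArg Subtype.val hc
    rw [hφ, ← hc']
    congr 1
    rw [Pi.smul_apply, smul_eq_mul]
    field_simp
  have hφx : φ x = 1 := by
    rw [hφ, hx']
    exact inv_mul_cancel₀ hj₀'
  have hφa : φ a = 0 := by
    rw [hφ, hNa]
    simp
  have hli : LinearIndependent F ![a, x] := by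
    rw [LinearIndependent.pair_iff]
    intro s t hst
    have h1 := congrArg φ hst
    rw [map_add, map_smul, map_smul, hφa, hφx, map_zero] at h1
    have ht : t = 0 := by simpa using h1
    rw [ht, zero_smul, add_zero] at hst
    exact ⟨(smul_eq_zero.mp hst).resolve_right ha0, ht⟩
  have hli0 : LinearIndependent F ![(Pi.single i₀ 1 : ι → F), Pi.single i₁ 1] := by
    rw [LinearIndependent.pair_iff]
    intro s t hst
    have h0 := congrFun hst i₀
    have h1 := congrFun hst i₁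
    simp [h01, h01.symm] at h0 h1
    exact ⟨h0, h1⟩
  obtain ⟨g₁, hg0, hg1⟩ := exists_equiv_pair hli0 hli
  let ψ : Module.Dual F (ι → F) := (LinearMap.proj i₁) ∘ₗ g₁.symm.toLinearMap - φ
  have hψx : ψ x = 0 := by
    show (g₁.symm x) i₁ - φ x = 0
    rw [← hg1, LinearEquiv.symm_apply_apply, hg1, hφx]
    simp
  let g := g₁ ≪≫ₗ LinearEquiv.transvection hψx
  have hg : ∀ v, g v = g₁ v + (v i₁ - φ (g₁ v)) • x := by
    intro v
    show LinearEquiv.transvection hψx (g₁ v) = _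
    rw [LinearEquiv.transvection.apply]
    show g₁ v + ((g₁.symm (g₁ v)) i₁ - φ (g₁ v)) • x = _
    rw [LinearEquiv.symm_apply_apply]
  have hφg : ∀ v, φ (g v) = v i₁ := by
    intro v
    rw [hg, map_add, map_smul, hφx]
    simp
  have hge0 : g (Pi.single i₀ 1) = a := by
    rw [hg, hg0, hφa]
    simp [h01.symm]
  refine ⟨LinearMap.toMatrix' (g : (ι → F) →ₗ[F] (ι → F)),
    LinearMap.toMatrix' (g.symm : (ι → F) →ₗ[F] (ι → F)), ?_, ?_, ?_⟩
  · rw [← LinearMap.toMatrix'_comp]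
    simp
  · rw [← LinearMap.toMatrix'_comp]
    simp
  · apply Matrix.toLin'.injective
    apply LinearMap.ext
    intro v
    rw [Matrix.toLin'_mul, Matrix.toLin'_mul, Matrix.toLin'_toMatrix']
    simp only [LinearMap.comp_apply, Matrix.toLin'_apply, LinearEquiv.coe_coe]
    rw [hNv, hφg, Matrix.single_mulVec_eq, one_mul, map_smul, hge0]

theorem card_centralizer_mulEquiv {G H : Type*} [Group G] [Group H] (f : G ≃* H) (t : G) :
    Nat.card (Subgroup.centralizer ({t} : Set G)) =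
      Nat.card (Subgroup.centralizer ({f t} : Set H)) := by
  apply Nat.card_congr
  refine ⟨fun g => ⟨f g.1, ?_⟩, fun h => ⟨f.symm h.1, ?_⟩, ?_, ?_⟩
  · have := Subgroup.mem_centralizer_singleton_iff.mp g.2
    rw [Subgroup.mem_centralizer_singleton_iff, ← map_mul, ← map_mul, this]
  · have := Subgroup.mem_centralizer_singleton_iff.mp h.2
    rw [Subgroup.mem_centralizer_singleton_iff]
    apply f.injective
    rw [map_mul, map_mul, f.apply_symm_apply, this]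
  · intro g
    apply Subtype.ext
    exact f.symm_apply_apply g.1
  · intro h
    apply Subtype.ext
    exact f.apply_symm_apply h.1

theorem comm_single_iff {F : Type*} [Field F] {ι : Type*} [Fintype ι] [DecidableEq ι] (i₀ i₁ : ι)
    (g : Matrix ι ι F) :
    g * Matrix.single i₀ i₁ 1 = Matrix.single i₀ i₁ 1 * g ↔
      (∀ i, i ≠ i₀ → g i i₀ = 0) ∧ (∀ j, j ≠ i₁ → g i₁ j = 0) ∧ g i₀ i₀ = g i₁ i₁ := by
  constructor
  · intro h
    refine ⟨?_, ?_, ?_⟩
    · intro i hi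
      have h1 := congrFun (congrFun h i) i₁
      rw [Matrix.mul_single_apply_same, Matrix.single_mul_apply_of_ne _ _ _ _ _ hi, mul_one] at h1
      exact h1
    · intro j hj
      have h1 := congrFun (congrFun h i₀) j
      rw [Matrix.mul_single_apply_of_ne _ _ _ _ _ hj, Matrix.single_mul_apply_same, one_mul] at h1
      exact h1.symm
    · have h1 := congrFun (congrFun h i₀) i₁
      rw [Matrix.mul_single_apply_same, Matrix.single_mul_apply_same, mul_one, one_mul] at h1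
      exact h1
  · rintro ⟨h1, h2, h3⟩
    ext i j
    by_cases hj : j = i₁
    · subst hj
      rw [Matrix.mul_single_apply_same, mul_one]
      by_cases hi : i = i₀
      · subst hi
        rw [Matrix.single_mul_apply_same, one_mul, h3]
      · rw [Matrix.single_mul_apply_of_ne _ _ _ _ _ hi, h1 i hi]
    · rw [Matrix.mul_single_apply_of_ne _ _ _ _ _ hj]
      by_cases hi : i = i₀
      · subst hi
        rw [Matrix.single_mul_apply_same, one_mul, h2 j hj]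
      · rw [Matrix.single_mul_apply_of_ne _ _ _ _ _ hi]

def stdMat {F : Type*} [Field F] (k : ℕ) (lam a : F) (u v : Fin k → F)
    (D : Matrix (Fin k) (Fin k) F) :
    Matrix (Unit ⊕ (Fin k ⊕ Unit)) (Unit ⊕ (Fin k ⊕ Unit)) F :=
  Matrix.fromBlocks (Matrix.of fun _ _ => lam) (Matrix.of fun _ j => Sum.elim u (fun _ => a) j) 0
    (Matrix.fromBlocks D (Matrix.of fun i _ => v i) 0 (Matrix.of fun _ _ => lam))

theorem det_stdMat {F : Type*} [Field F] (k : ℕ) (lam a : F) (u v : Fin k → F)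
    (D : Matrix (Fin k) (Fin k) F) : (stdMat k lam a u v D).det = lam * (D.det * lam) := by
  have h1 : (Matrix.of fun (_ : Unit) (_ : Unit) => lam).det = lam := by
    rw [Matrix.det_unique]
    rfl
  rw [stdMat, Matrix.det_fromBlocks_zero₂₁, Matrix.det_fromBlocks_zero₂₁, h1]

theorem eq_stdMat {F : Type*} [Field F] (k : ℕ)
    (g : Matrix (Unit ⊕ (Fin k ⊕ Unit)) (Unit ⊕ (Fin k ⊕ Unit)) F)
    (h1 : ∀ i, i ≠ Sum.inl () → g i (Sum.inl ()) = 0)
    (h2 : ∀ j, j ≠ Sum.inr (Sum.inr ()) → g (Sum.inr (Sum.inr ())) j = 0)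
    (h3 : g (Sum.inl ()) (Sum.inl ()) = g (Sum.inr (Sum.inr ())) (Sum.inr (Sum.inr ()))) :
    g = stdMat k (g (Sum.inl ()) (Sum.inl ())) (g (Sum.inl ()) (Sum.inr (Sum.inr ())))
      (fun j => g (Sum.inl ()) (Sum.inr (Sum.inl j)))
      (fun i => g (Sum.inr (Sum.inl i)) (Sum.inr (Sum.inr ())))
      (Matrix.of fun i j => g (Sum.inr (Sum.inl i)) (Sum.inr (Sum.inl j))) := by
  ext i j
  rcases i with (⟨⟩ | i | ⟨⟩) <;> rcases j with (⟨⟩ | j | ⟨⟩)
  · rfl
  · rfl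
  · rfl
  · exact h1 _ (by simp)
  · rfl
  · rfl
  · exact h1 _ (by simp)
  · exact h2 _ (by simp)
  · exact h3.symm

theorem count_std {F : Type*} [Field F] [Fintype F] (k : ℕ) (u₀ : GL (Unit ⊕ (Fin k ⊕ Unit)) F)
    (hu : (u₀ : Matrix (Unit ⊕ (Fin k ⊕ Unit)) (Unit ⊕ (Fin k ⊕ Unit)) F) =
      1 + Matrix.single (Sum.inl ()) (Sum.inr (Sum.inr ())) 1) :
    Nat.card (Subgroup.centralizer ({u₀} : Set (GL (Unit ⊕ (Fin k ⊕ Unit)) F))) =
      (Fintype.card F - 1) * Fintype.card F * Fintype.card F ^ k * Fintype.card F ^ k *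
        Nat.card (GL (Fin k) F) := by
  classical
  have hdetGL : ∀ D : GL (Fin k) F, (D : Matrix (Fin k) (Fin k) F).det ≠ 0 := by
    intro D
    have h1 : (D : Matrix (Fin k) (Fin k) F) * ((D⁻¹ : GL (Fin k) F) : Matrix (Fin k) (Fin k) F)
        = 1 := by
      rw [← Units.val_mul, mul_inv_cancel, Units.val_one]
    intro h0
    have h2 := congrArg Matrix.det h1
    rw [Matrix.det_mul, h0, zero_mul, Matrix.det_one] at h2
    exact zero_ne_one h2
  let Φ : Fˣ × F × (Fin k → F) × (Fin k → F) × GL (Fin k) F → GL (Unit ⊕ (Fin k ⊕ Unit)) F :=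
    fun x => Matrix.GeneralLinearGroup.mkOfDetNeZero
      (stdMat k (x.1 : F) x.2.1 x.2.2.1 x.2.2.2.1 (x.2.2.2.2 : Matrix (Fin k) (Fin k) F))
      (by
        rw [det_stdMat]
        exact mul_ne_zero x.1.ne_zero (mul_ne_zero (hdetGL x.2.2.2.2) x.1.ne_zero))
  have hΦ : ∀ x, ((Φ x : GL (Unit ⊕ (Fin k ⊕ Unit)) F) :
      Matrix (Unit ⊕ (Fin k ⊕ Unit)) (Unit ⊕ (Fin k ⊕ Unit)) F) =
      stdMat k (x.1 : F) x.2.1 x.2.2.1 x.2.2.2.1 (x.2.2.2.2 : Matrix (Fin k) (Fin k) F) :=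
    fun x => rfl
  have hinj : Function.Injective Φ := by
    intro x y hxy
    have h : stdMat k (x.1 : F) x.2.1 x.2.2.1 x.2.2.2.1 (x.2.2.2.2 : Matrix (Fin k) (Fin k) F) =
        stdMat k (y.1 : F) y.2.1 y.2.2.1 y.2.2.2.1 (y.2.2.2.2 : Matrix (Fin k) (Fin k) F) := by
      rw [← hΦ, ← hΦ, hxy]
    obtain ⟨l, a, u, v, D⟩ := x
    obtain ⟨l', a', u', v', D'⟩ := y
    have e1 : (l : F) = l' := congrFun (congrFun h (Sum.inl ())) (Sum.inl ())
    have e2 : a = a' := congrFun (congrFun h (Sum.inl ())) (Sum.inr (Sum.inr ()))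
    have e3 : u = u' := funext fun j => congrFun (congrFun h (Sum.inl ())) (Sum.inr (Sum.inl j))
    have e4 : v = v' :=
      funext fun i => congrFun (congrFun h (Sum.inr (Sum.inl i))) (Sum.inr (Sum.inr ()))
    have e5 : (D : Matrix (Fin k) (Fin k) F) = D' := by
      ext i j
      exact congrFun (congrFun h (Sum.inr (Sum.inl i))) (Sum.inr (Sum.inl j))
    rw [Units.ext e1, e2, e3, e4, Units.ext e5]
  have hrange : Set.range Φ =
      (Subgroup.centralizer ({u₀} : Set (GL (Unit ⊕ (Fin k ⊕ Unit)) F)) :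
        Set (GL (Unit ⊕ (Fin k ⊕ Unit)) F)) := by
    ext g
    rw [SetLike.mem_coe, Subgroup.mem_centralizer_singleton_iff]
    have hiff : g * u₀ = u₀ * g ↔
        (g : Matrix (Unit ⊕ (Fin k ⊕ Unit)) (Unit ⊕ (Fin k ⊕ Unit)) F) *
          Matrix.single (Sum.inl ()) (Sum.inr (Sum.inr ())) 1 =
        Matrix.single (Sum.inl ()) (Sum.inr (Sum.inr ())) 1 *
          (g : Matrix (Unit ⊕ (Fin k ⊕ Unit)) (Unit ⊕ (Fin k ⊕ Unit)) F) := by
      rw [Units.ext_iff, Units.val_mul, Units.val_mul, hu, mul_add, add_mul, mul_one, one_mul]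
      exact add_right_inj _
    rw [hiff, comm_single_iff]
    constructor
    · rintro ⟨x, rfl⟩
      rw [hΦ]
      refine ⟨?_, ?_, rfl⟩
      · intro i hi
        rcases i with (⟨⟩ | i | ⟨⟩)
        · exact absurd rfl hi
        · rfl
        · rfl
      · intro j hj
        rcases j with (⟨⟩ | j | ⟨⟩)
        · rfl
        · rfl
        · exact absurd rfl hj
    · rintro ⟨h1, h2, h3⟩
      have hg := eq_stdMat k (g : Matrix (Unit ⊕ (Fin k ⊕ Unit)) (Unit ⊕ (Fin k ⊕ Unit)) F)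
        h1 h2 h3
      have hdet : (g : Matrix (Unit ⊕ (Fin k ⊕ Unit)) (Unit ⊕ (Fin k ⊕ Unit)) F).det ≠ 0 := by
        have h1 : (g : Matrix (Unit ⊕ (Fin k ⊕ Unit)) (Unit ⊕ (Fin k ⊕ Unit)) F) *
            ((g⁻¹ : GL (Unit ⊕ (Fin k ⊕ Unit)) F) :
              Matrix (Unit ⊕ (Fin k ⊕ Unit)) (Unit ⊕ (Fin k ⊕ Unit)) F) = 1 := by
          rw [← Units.val_mul, mul_inv_cancel, Units.val_one]
        intro h0
        have h2 := congrArg Matrix.det h1
        rw [Matrix.det_mul, h0, zero_mul, Matrix.det_one] at h2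
        exact zero_ne_one h2
      rw [hg, det_stdMat] at hdet
      have hl := left_ne_zero_of_mul hdet
      have hD := left_ne_zero_of_mul (right_ne_zero_of_mul hdet)
      refine ⟨(Units.mk0 _ hl,
        (g : Matrix (Unit ⊕ (Fin k ⊕ Unit)) (Unit ⊕ (Fin k ⊕ Unit)) F) (Sum.inl ())
          (Sum.inr (Sum.inr ())),
        (fun j => (g : Matrix (Unit ⊕ (Fin k ⊕ Unit)) (Unit ⊕ (Fin k ⊕ Unit)) F) (Sum.inl ())
          (Sum.inr (Sum.inl j))),
        (fun i => (g : Matrix (Unit ⊕ (Fin k ⊕ Unit)) (Unit ⊕ (Fin k ⊕ Unit)) F)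
          (Sum.inr (Sum.inl i)) (Sum.inr (Sum.inr ()))),
        Matrix.GeneralLinearGroup.mkOfDetNeZero _ hD), ?_⟩
      apply Units.ext
      rw [hΦ]
      exact hg.symm
  have h1 : Nat.card (Subgroup.centralizer ({u₀} : Set (GL (Unit ⊕ (Fin k ⊕ Unit)) F))) =
      Nat.card (Set.range Φ) := (Nat.card_congr (Equiv.setCongr hrange)).symm
  rw [h1, Nat.card_range_of_injective hinj]
  simp only [Nat.card_prod, Nat.card_units, Nat.card_fun, Nat.card_fin,
    Nat.card_eq_fintype_card (α := F)]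
  ring

/-- Centraliser of a transvection in GL_n(q), n ≥ 2: if t − 1 has rank one and square zero, the centraliser of t in GL_n(q) has order q^(2n−3) (q − 1) |GL_(n−2)(q)| (a group of order q^(2n−3) extended by GL_1(q) × GL_(n−2)(q)). -/
theorem result {F : Type*} [Field F] [Fintype F] {q n : ℕ} (hF : Fintype.card F = q) (hn : 2 ≤ n) (t : GL (Fin n) F) (ht : Cfsg.IsTransvection (t : Matrix (Fin n) (Fin n) F)) : Nat.card ↥(Subgroup.centralizer ({t} : Set (GL (Fin n) F))) = q ^ (2 * n - 3) * (q - 1) * ∏ i : Fin (n - 2), (q ^ (n - 2) - q ^ (i : ℕ)) := by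
  classical
  obtain ⟨k, rfl⟩ : ∃ k, n = k + 2 := ⟨n - 2, by omega⟩
  let e : Fin (k + 2) ≃ Unit ⊕ (Fin k ⊕ Unit) := Fintype.equivOfCardEq (by
    simp
    omega)
  let f : GL (Fin (k + 2)) F ≃* GL (Unit ⊕ (Fin k ⊕ Unit)) F :=
    Units.mapEquiv (Matrix.reindexAlgEquiv F F e).toMulEquiv
  have hf : ∀ g : GL (Fin (k + 2)) F, ((f g : GL (Unit ⊕ (Fin k ⊕ Unit)) F) :
      Matrix (Unit ⊕ (Fin k ⊕ Unit)) (Unit ⊕ (Fin k ⊕ Unit)) F) =
      (g : Matrix (Fin (k + 2)) (Fin (k + 2)) F).submatrix e.symm e.symm := fun g => rfl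
  have hN' : ((f t : GL (Unit ⊕ (Fin k ⊕ Unit)) F) :
      Matrix (Unit ⊕ (Fin k ⊕ Unit)) (Unit ⊕ (Fin k ⊕ Unit)) F) - 1 =
      ((t : Matrix (Fin (k + 2)) (Fin (k + 2)) F) - 1).submatrix e.symm e.symm := by
    rw [hf]
    ext i j
    simp [Matrix.one_apply]
  have hr : (((f t : GL (Unit ⊕ (Fin k ⊕ Unit)) F) :
      Matrix (Unit ⊕ (Fin k ⊕ Unit)) (Unit ⊕ (Fin k ⊕ Unit)) F) - 1).rank = 1 := by
    rw [hN', Matrix.rank_submatrix]
    exact ht.1
  have hsq : (((f t : GL (Unit ⊕ (Fin k ⊕ Unit)) F) :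
      Matrix (Unit ⊕ (Fin k ⊕ Unit)) (Unit ⊕ (Fin k ⊕ Unit)) F) - 1) *
      (((f t : GL (Unit ⊕ (Fin k ⊕ Unit)) F) :
      Matrix (Unit ⊕ (Fin k ⊕ Unit)) (Unit ⊕ (Fin k ⊕ Unit)) F) - 1) = 0 := by
    rw [hN', Matrix.submatrix_mul_equiv, ht.2]
    rfl
  obtain ⟨G, G', hG1, hG2, hG3⟩ := std_form (Sum.inl ()) (Sum.inr (Sum.inr ())) (by simp)
    (((f t : GL (Unit ⊕ (Fin k ⊕ Unit)) F) :
      Matrix (Unit ⊕ (Fin k ⊕ Unit)) (Unit ⊕ (Fin k ⊕ Unit)) F) - 1) hr hsq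
  let Gu : GL (Unit ⊕ (Fin k ⊕ Unit)) F := ⟨G, G', hG1, hG2⟩
  have hu : ((Gu⁻¹ * f t * Gu : GL (Unit ⊕ (Fin k ⊕ Unit)) F) :
      Matrix (Unit ⊕ (Fin k ⊕ Unit)) (Unit ⊕ (Fin k ⊕ Unit)) F) =
      1 + Matrix.single (Sum.inl ()) (Sum.inr (Sum.inr ())) 1 := by
    show G' * ((f t : GL (Unit ⊕ (Fin k ⊕ Unit)) F) :
      Matrix (Unit ⊕ (Fin k ⊕ Unit)) (Unit ⊕ (Fin k ⊕ Unit)) F) * G = _
    have h1 : ((f t : GL (Unit ⊕ (Fin k ⊕ Unit)) F) :
        Matrix (Unit ⊕ (Fin k ⊕ Unit)) (Unit ⊕ (Fin k ⊕ Unit)) F) =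
        (((f t : GL (Unit ⊕ (Fin k ⊕ Unit)) F) :
        Matrix (Unit ⊕ (Fin k ⊕ Unit)) (Unit ⊕ (Fin k ⊕ Unit)) F) - 1) + 1 := by
      rw [sub_add_cancel]
    rw [h1, mul_add, add_mul, mul_one, hG2, Matrix.mul_assoc, hG3, ← Matrix.mul_assoc, hG2,
      Matrix.one_mul, add_comm]
  have h2 : (MulAut.conj Gu⁻¹) (f t) = Gu⁻¹ * f t * Gu := by
    rw [MulAut.conj_apply, inv_inv]
  have hprod : ∀ m : ℕ, m = k → (∏ i : Fin m, (q ^ m - q ^ (i : ℕ))) =
      ∏ i : Fin k, (q ^ k - q ^ (i : ℕ)) := by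
    intro m hm
    subst hm
    rfl
  rw [card_centralizer_mulEquiv f t, card_centralizer_mulEquiv (MulAut.conj Gu⁻¹) (f t), h2,
    count_std k _ hu, Matrix.card_GL_field, hF, hprod (k + 2 - 2) (by omega)]
  have h3 : 2 * (k + 2) - 3 = 2 * k + 1 := by omega
  rw [h3]
  ring

end Cfsg.Agent.S2572
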