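import Cfsg.Statements.S2573

set_option autoImplicit false
open Cfsg

namespace Cfsg.Agent.S2573


theorem mulVecLin_pow' {F : Type*} [Field F] {n : ℕ} (A : Matrix (Fin n) (Fin n) F) (k : ℕ) :
    Matrix.mulVecLin (A ^ k) = (Matrix.mulVecLin A) ^ k := by
  induction k with
  | zero => rw [pow_zero, pow_zero, Matrix.mulVecLin_one]; rfl
  | succ k ih => rw [pow_succ, Matrix.mulVecLin_mul, ih, pow_succ]; rfl

theorem finrank_ker_pow_le {F V : Type*} [Field F] [AddCommGroup V] [Module F V]
    [FiniteDimensional F V] (N : Module.End F V) (j : ℕ) :
    Module.finrank F (LinearMap.ker (N ^ j)) ≤ j * Module.finrank F (LinearMap.ker N) := by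
  induction j with
  | zero =>
    have : LinearMap.ker (N ^ 0) = ⊥ := by
      rw [pow_zero]; exact LinearMap.ker_id
    rw [this]; simp
  | succ j ih =>
    have hmap : ∀ x : V, x ∈ LinearMap.ker (N ^ (j + 1)) → N x ∈ LinearMap.ker (N ^ j) := by
      intro x hx
      rw [LinearMap.mem_ker] at hx ⊢
      rw [pow_succ] at hx
      exact hx
    set g := N.restrict hmap with hg
    have h1 := LinearMap.finrank_range_add_finrank_ker g
    have h2 : Module.finrank F (LinearMap.range g) ≤ Module.finrank F (LinearMap.ker (N ^ j)) :=
      Submodule.finrank_le _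
    have h3 : Module.finrank F (LinearMap.ker g) ≤ Module.finrank F (LinearMap.ker N) := by
      have hk : ∀ y : LinearMap.ker g, ((y : LinearMap.ker (N ^ (j + 1))) : V) ∈ LinearMap.ker N := by
        intro y
        have := y.2
        rw [LinearMap.mem_ker] at this ⊢
        have h4 : ((g (y : LinearMap.ker (N ^ (j + 1))) : LinearMap.ker (N ^ j)) : V) = 0 := by
          rw [this]; rfl
        exact h4
      let φ : LinearMap.ker g →ₗ[F] LinearMap.ker N :=
        { toFun := fun y => ⟨((y : LinearMap.ker (N ^ (j + 1))) : V), hk y⟩
          map_add' := fun a b => rfl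
          map_smul' := fun c a => rfl }
      apply LinearMap.finrank_le_finrank_of_injective (f := φ)
      intro a b hab
      have := congrArg Subtype.val hab
      exact Subtype.ext (Subtype.ext this)
    calc Module.finrank F (LinearMap.ker (N ^ (j + 1)))
        = Module.finrank F (LinearMap.range g) + Module.finrank F (LinearMap.ker g) := h1.symm
      _ ≤ Module.finrank F (LinearMap.ker (N ^ j)) + Module.finrank F (LinearMap.ker N) :=
          add_le_add h2 h3
      _ ≤ j * Module.finrank F (LinearMap.ker N) + Module.finrank F (LinearMap.ker N) :=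
          Nat.add_le_add_right ih _
      _ = (j + 1) * Module.finrank F (LinearMap.ker N) := by ring

/-- The invariant subspaces of a regular unipotent matrix form a chain: over a finite field, if u is an n × n matrix with (u − 1)^n = 0 and rank(u − 1) = n − 1, then every subspace W of F^n with u W ⊆ W is the kernel of (u − 1)^(dim W); so u has at most one invariant subspace of each dimension. -/
theorem result {F : Type*} [Field F] [Finite F] {n : ℕ} (u : Matrix (Fin n) (Fin n) F) (hnil : (u - 1) ^ n = 0) (hreg : (u - 1).rank = n - 1) (W : Submodule F (Fin n → F)) (hW : ∀ v ∈ W, u.mulVec v ∈ W) : W = LinearMap.ker (Matrix.mulVecLin ((u - 1) ^ Module.finrank F W)) := by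
  classical
  set N : Module.End F (Fin n → F) := Matrix.mulVecLin (u - 1) with hN
  have hNapp : ∀ v, N v = u.mulVec v - v := by
    intro v
    rw [hN, Matrix.mulVecLin_apply, Matrix.sub_mulVec, Matrix.one_mulVec]
  have hWN : ∀ v ∈ W, N v ∈ W := by
    intro v hv
    rw [hNapp]
    exact W.sub_mem (hW v hv) hv
  rw [mulVecLin_pow']
  change W = LinearMap.ker (N ^ Module.finrank F W)
  have hNn : N ^ n = 0 := by
    rw [hN, ← mulVecLin_pow', hnil]
    ext v; simp
  -- kernel of N has dimension ≤ 1
  have hker : Module.finrank F (LinearMap.ker N) ≤ 1 := by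
    have h1 := LinearMap.finrank_range_add_finrank_ker N
    have h2 : Module.finrank F (LinearMap.range N) = n - 1 := hreg
    have h3 : Module.finrank F (Fin n → F) = n := by simp
    omega
  -- restriction to W
  set f : Module.End F W := N.restrict hWN with hf
  have hfpow : ∀ k : ℕ, ∀ w : W, ((f ^ k) w : Fin n → F) = (N ^ k) (w : Fin n → F) := by
    intro k
    induction k with
    | zero => intro w; simp
    | succ k ih =>
      intro w
      rw [pow_succ, pow_succ, Module.End.mul_apply, Module.End.mul_apply, ih]
      rfl
  have hkn : Module.finrank F W ≤ n := by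
    have := Submodule.finrank_le W
    simpa using this
  have hfk : f ^ Module.finrank F W = 0 := by
    have h1 : LinearMap.ker (f ^ n) = LinearMap.ker (f ^ Module.finrank F W) :=
      Module.End.ker_pow_eq_ker_pow_finrank_of_le hkn
    have h2 : f ^ n = 0 := by
      ext w
      rw [hfpow, hNn]; simp
    rw [h2, LinearMap.ker_zero] at h1
    exact LinearMap.ker_eq_top.mp h1.symm
  have hle : W ≤ LinearMap.ker (N ^ Module.finrank F W) := by
    intro w hw
    rw [LinearMap.mem_ker]
    have := hfpow (Module.finrank F W) ⟨w, hw⟩
    rw [hfk] at this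
    simpa using this.symm
  have hdim : Module.finrank F (LinearMap.ker (N ^ Module.finrank F W)) ≤ Module.finrank F W := by
    have := finrank_ker_pow_le N (Module.finrank F W)
    calc Module.finrank F (LinearMap.ker (N ^ Module.finrank F W))
        ≤ Module.finrank F W * Module.finrank F (LinearMap.ker N) := this
      _ ≤ Module.finrank F W * 1 := Nat.mul_le_mul_left _ hker
      _ = Module.finrank F W := Nat.mul_one _
  exact Submodule.eq_of_le_of_finrank_le hle hdim

end Cfsg.Agent.S2573
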