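import Cfsg.Statements.S2574
import Mathlib

set_option autoImplicit false
open Cfsg

namespace Cfsg.Agent.S2574


theorem mulVecLin_pow' {F : Type*} [Field F] {ι : Type*} [Fintype ι] [DecidableEq ι]
    (A : Matrix ι ι F) (k : ℕ) :
    Matrix.mulVecLin (A ^ k) = (Matrix.mulVecLin A) ^ k := by
  induction k with
  | zero => rw [pow_zero, pow_zero, Matrix.mulVecLin_one]; rfl
  | succ k ih => rw [pow_succ, Matrix.mulVecLin_mul, ih, pow_succ]; rfl

theorem finrank_ker_pow_le {F V : Type*} [Field F] [AddCommGroup V] [Module F V]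
    [FiniteDimensional F V] (N : Module.End F V) (j : ℕ) :
    Module.finrank F (LinearMap.ker (N ^ j)) ≤ j * Module.finrank F (LinearMap.ker N) := by
  induction j with
  | zero =>
    have : LinearMap.ker (N ^ 0) = ⊥ := by
      rw [pow_zero]; exact LinearMap.ker_id
    rw [this]; simp
  | succ j ih =>
    have hmap : ∀ x : V, x ∈ LinearMap.ker (N ^ (j + 1)) → N x ∈ LinearMap.ker (N ^ j) := by
      intro x hx
      rw [LinearMap.mem_ker] at hx ⊢
      rw [pow_succ] at hx
      exact hx
    set g := N.restrict hmap with hg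
    have h1 := LinearMap.finrank_range_add_finrank_ker g
    have h2 : Module.finrank F (LinearMap.range g) ≤ Module.finrank F (LinearMap.ker (N ^ j)) :=
      Submodule.finrank_le _
    have h3 : Module.finrank F (LinearMap.ker g) ≤ Module.finrank F (LinearMap.ker N) := by
      have hk : ∀ y : LinearMap.ker g, ((y : LinearMap.ker (N ^ (j + 1))) : V) ∈ LinearMap.ker N := by
        intro y
        have := y.2
        rw [LinearMap.mem_ker] at this ⊢
        have h4 : ((g (y : LinearMap.ker (N ^ (j + 1))) : LinearMap.ker (N ^ j)) : V) = 0 := by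
          rw [this]; rfl
        exact h4
      let φ : LinearMap.ker g →ₗ[F] LinearMap.ker N :=
        { toFun := fun y => ⟨((y : LinearMap.ker (N ^ (j + 1))) : V), hk y⟩
          map_add' := fun a b => rfl
          map_smul' := fun c a => rfl }
      apply LinearMap.finrank_le_finrank_of_injective (f := φ)
      intro a b hab
      have := congrArg Subtype.val hab
      exact Subtype.ext (Subtype.ext this)
    calc Module.finrank F (LinearMap.ker (N ^ (j + 1)))
        = Module.finrank F (LinearMap.range g) + Module.finrank F (LinearMap.ker g) := h1.symm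
      _ ≤ Module.finrank F (LinearMap.ker (N ^ j)) + Module.finrank F (LinearMap.ker N) :=
          add_le_add h2 h3
      _ ≤ j * Module.finrank F (LinearMap.ker N) + Module.finrank F (LinearMap.ker N) :=
          Nat.add_le_add_right ih _
      _ = (j + 1) * Module.finrank F (LinearMap.ker N) := by ring

theorem inv_sub {F : Type*} [Field F] {ι : Type*} [Fintype ι] [DecidableEq ι]
    (u : Matrix ι ι F) (hnil : (u - 1) ^ (Fintype.card ι) = 0)
    (hreg : (u - 1).rank = Fintype.card ι - 1) (W : Submodule F (ι → F))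
    (hW : ∀ v ∈ W, u.mulVec v ∈ W) :
    W = LinearMap.ker ((Matrix.mulVecLin (u - 1)) ^ Module.finrank F W) := by
  classical
  set N : Module.End F (ι → F) := Matrix.mulVecLin (u - 1) with hN
  have hNapp : ∀ v, N v = u.mulVec v - v := by
    intro v
    rw [hN, Matrix.mulVecLin_apply, Matrix.sub_mulVec, Matrix.one_mulVec]
  have hWN : ∀ v ∈ W, N v ∈ W := by
    intro v hv
    rw [hNapp]
    exact W.sub_mem (hW v hv) hv
  have hNn : N ^ (Fintype.card ι) = 0 := by
    rw [hN, ← mulVecLin_pow', hnil]
    ext v; simp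
  have hker : Module.finrank F (LinearMap.ker N) ≤ 1 := by
    have h1 := LinearMap.finrank_range_add_finrank_ker N
    have h2 : Module.finrank F (LinearMap.range N) = Fintype.card ι - 1 := hreg
    have h3 : Module.finrank F (ι → F) = Fintype.card ι := Module.finrank_fintype_fun_eq_card F
    omega
  set f : Module.End F W := N.restrict hWN with hf
  have hfpow : ∀ k : ℕ, ∀ w : W, ((f ^ k) w : ι → F) = (N ^ k) (w : ι → F) := by
    intro k
    induction k with
    | zero => intro w; simp
    | succ k ih =>
      intro w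
      rw [pow_succ, pow_succ, Module.End.mul_apply, Module.End.mul_apply, ih]
      rfl
  have hkn : Module.finrank F W ≤ Fintype.card ι := by
    have := Submodule.finrank_le W
    rwa [Module.finrank_fintype_fun_eq_card] at this
  have hfk : f ^ Module.finrank F W = 0 := by
    have h1 : LinearMap.ker (f ^ (Fintype.card ι)) = LinearMap.ker (f ^ Module.finrank F W) :=
      Module.End.ker_pow_eq_ker_pow_finrank_of_le hkn
    have h2 : f ^ (Fintype.card ι) = 0 := by
      ext w
      rw [hfpow, hNn]; simp
    rw [h2, LinearMap.ker_zero] at h1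
    exact LinearMap.ker_eq_top.mp h1.symm
  have hle : W ≤ LinearMap.ker (N ^ Module.finrank F W) := by
    intro w hw
    rw [LinearMap.mem_ker]
    have := hfpow (Module.finrank F W) ⟨w, hw⟩
    rw [hfk] at this
    simpa using this.symm
  have hdim : Module.finrank F (LinearMap.ker (N ^ Module.finrank F W)) ≤ Module.finrank F W := by
    have := finrank_ker_pow_le N (Module.finrank F W)
    calc Module.finrank F (LinearMap.ker (N ^ Module.finrank F W))
        ≤ Module.finrank F W * Module.finrank F (LinearMap.ker N) := this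
      _ ≤ Module.finrank F W * 1 := Nat.mul_le_mul_left _ hker
      _ = Module.finrank F W := Nat.mul_one _
  exact Submodule.eq_of_le_of_finrank_le hle hdim

/-- A regular unipotent element of the symplectic group has totally isotropic small invariant subspaces: over a finite field, if u ∈ Sp_2m(F) satisfies (u − 1)^(2m) = 0 and rank(u − 1) = 2m − 1, and W is a u-invariant subspace with 2 dim W ≤ 2m, then the alternating form vanishes identically on W. -/
theorem result {F : Type*} [Field F] [Finite F] {m : ℕ} (u : Matrix.symplecticGroup (Fin m) F) (hnil : ((u : Matrix (Fin m ⊕ Fin m) (Fin m ⊕ Fin m) F) - 1) ^ (2 * m) = 0) (hreg : ((u : Matrix (Fin m ⊕ Fin m) (Fin m ⊕ Fin m) F) - 1).rank = 2 * m - 1) (W : Submodule F (Fin m ⊕ Fin m → F)) (hW : ∀ v ∈ W, (u : Matrix (Fin m ⊕ Fin m) (Fin m ⊕ Fin m) F).mulVec v ∈ W) (hdim : 2 * Module.finrank F W ≤ 2 * m) : ∀ v ∈ W, ∀ w ∈ W, Cfsg.sympForm m F v w = 0 := by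
  classical
  set U : Matrix (Fin m ⊕ Fin m) (Fin m ⊕ Fin m) F :=
    (u : Matrix (Fin m ⊕ Fin m) (Fin m ⊕ Fin m) F) with hU
  have hcard : Fintype.card (Fin m ⊕ Fin m) = 2 * m := by
    rw [Fintype.card_sum, Fintype.card_fin]; ring
  have hform : ∀ x y, Cfsg.sympForm m F (U.mulVec x) (U.mulVec y) = Cfsg.sympForm m F x y := by
    intro x y
    unfold Cfsg.sympForm
    have h1 : U.transpose * Matrix.J (Fin m) F * U = Matrix.J (Fin m) F :=
      SymplecticGroup.mem_iff'.mp u.2
    have h2 : ∀ z : Fin m ⊕ Fin m → F, (U.mulVec x) ⬝ᵥ z = x ⬝ᵥ (U.transpose.mulVec z) := by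
      intro z
      rw [dotProduct_comm, Matrix.dotProduct_mulVec, ← Matrix.mulVec_transpose, dotProduct_comm]
    rw [h2, Matrix.mulVec_mulVec, Matrix.mulVec_mulVec, h1]
  set B : LinearMap.BilinForm F (Fin m ⊕ Fin m → F) := Matrix.toBilin' (Matrix.J (Fin m) F)
    with hB
  have hBapp : ∀ x y, B x y = Cfsg.sympForm m F x y := by
    intro x y
    rw [hB, Matrix.toBilin'_apply']
    rfl
  have hinj : ∀ x y, U.mulVec x = U.mulVec y → x = y := by
    intro x y h
    have h1 : ((u⁻¹ : Matrix.symplecticGroup (Fin m) F) :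
        Matrix (Fin m ⊕ Fin m) (Fin m ⊕ Fin m) F) * U = 1 := by
      rw [hU, ← Submonoid.coe_mul, inv_mul_cancel, Submonoid.coe_one]
    have := congrArg (fun w => ((u⁻¹ : Matrix.symplecticGroup (Fin m) F) :
        Matrix (Fin m ⊕ Fin m) (Fin m ⊕ Fin m) F).mulVec w) h
    simpa only [Matrix.mulVec_mulVec, h1, Matrix.one_mulVec] using this
  let g : W →ₗ[F] W := (Matrix.mulVecLin U).restrict hW
  have hginj : Function.Injective g := by
    intro a b hab
    have := congrArg Subtype.val hab
    exact Subtype.ext (hinj _ _ this)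
  have hgsurj : Function.Surjective g := LinearMap.surjective_of_injective hginj
  have hW'inv : ∀ x ∈ B.orthogonal W, U.mulVec x ∈ B.orthogonal W := by
    intro x hx
    show ∀ w ∈ W, B w (U.mulVec x) = 0
    intro w hw
    obtain ⟨w', hw'⟩ := hgsurj ⟨w, hw⟩
    have hw'' : U.mulVec (w' : Fin m ⊕ Fin m → F) = w := congrArg Subtype.val hw'
    rw [← hw'', hBapp, hform, ← hBapp]
    exact hx w' w'.2
  have hnil' : (U - 1) ^ (Fintype.card (Fin m ⊕ Fin m)) = 0 := by rw [hcard]; exact hnil
  have hreg' : (U - 1).rank = Fintype.card (Fin m ⊕ Fin m) - 1 := by rw [hcard]; exact hreg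
  have e1 := inv_sub U hnil' hreg' W hW
  have e2 := inv_sub U hnil' hreg' (B.orthogonal W) hW'inv
  have hk : Module.finrank F W ≤ Module.finrank F (B.orthogonal W) := by
    have h1 := LinearMap.BilinForm.finrank_add_finrank_orthogonal' (B := B) W
    have h2 : Module.finrank F (Fin m ⊕ Fin m → F) = 2 * m := by
      rw [Module.finrank_fintype_fun_eq_card, hcard]
    omega
  have hle : W ≤ B.orthogonal W := by
    intro w hw
    rw [e2, LinearMap.mem_ker]
    rw [e1, LinearMap.mem_ker] at hw
    rw [← pow_sub_mul_pow _ hk, Module.End.mul_apply, hw, map_zero]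
  intro v hv w hw
  rw [← hBapp]
  exact hle hw v hv

end Cfsg.Agent.S2574
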