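import Cfsg.Statements.S2575

set_option autoImplicit false
open Cfsg

namespace Cfsg.Agent.S2575

theorem neg_one_ne_one_of_odd {F : Type*} [Field F] [Fintype F] (hq : Odd (Fintype.card F)) :
    (-1 : F) ≠ 1 := by
  apply Ring.neg_one_ne_one_of_char_ne_two
  intro h
  rw [FiniteField.even_card_iff_char_two] at h
  rcases hq with ⟨k, hk⟩
  omega

theorem two_pow_mul_odd (n : ℕ) (hn : n ≠ 0) :
    ∃ m, Odd m ∧ n = 2 ^ padicValNat 2 n * m := by
  obtain ⟨m, hm⟩ := pow_padicValNat_dvd (p := 2) (n := n)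
  refine ⟨m, ?_, hm⟩
  by_contra hodd
  rw [Nat.not_odd_iff_even] at hodd
  obtain ⟨k, hk⟩ := hodd
  apply pow_succ_padicValNat_not_dvd (p := 2) hn
  refine ⟨k, ?_⟩
  calc n = 2 ^ padicValNat 2 n * m := hm
    _ = 2 ^ (padicValNat 2 n + 1) * k := by rw [hk, pow_succ]; ring

theorem exists_pow_eq_neg_one_iff {F : Type*} [Field F] [Fintype F] (hq : Odd (Fintype.card F))
    {n : ℕ} (hn : 1 ≤ n) :
    (∃ c : F, c ≠ 0 ∧ c ^ n = -1) ↔ padicValNat 2 n < padicValNat 2 (Fintype.card F - 1) := by
  classical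
  have hne : (-1 : F) ≠ 1 := neg_one_ne_one_of_odd hq
  have hcard : 2 ≤ Fintype.card F := by
    have := Fintype.one_lt_card (α := F); omega
  have hq1 : Fintype.card F - 1 ≠ 0 := by omega
  obtain ⟨n', hn'odd, hn'⟩ := two_pow_mul_odd n (by omega)
  obtain ⟨m', hm'odd, hm'⟩ := two_pow_mul_odd (Fintype.card F - 1) hq1
  set a := padicValNat 2 n with ha
  set b := padicValNat 2 (Fintype.card F - 1) with hb
  constructor
  · rintro ⟨c, hc0, hc⟩
    by_contra hlt
    rw [not_lt] at hlt
    apply hne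
    have h1 : c ^ (Fintype.card F - 1) = 1 := FiniteField.pow_card_sub_one_eq_one c hc0
    have h2 : (c ^ n) ^ m' = -1 := by rw [hc, hm'odd.neg_one_pow]
    rw [← h2, ← pow_mul]
    have h3 : n * m' = (Fintype.card F - 1) * (2 ^ (a - b) * n') := by
      rw [hm', hn']
      have : (2 : ℕ) ^ a = 2 ^ b * 2 ^ (a - b) := by rw [← pow_add]; congr 1; omega
      rw [this]; ring
    rw [h3, pow_mul, h1, one_pow]
  · intro hlt
    obtain ⟨g, hg⟩ := IsCyclic.exists_generator (α := Fˣ)
    have hord : orderOf g = Fintype.card F - 1 := by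
      rw [orderOf_eq_card_of_forall_mem_zpowers hg, Nat.card_eq_fintype_card, Fintype.card_units]
    have hbpos : 1 ≤ b := by omega
    have hhalf : Fintype.card F - 1 = 2 * (2 ^ (b - 1) * m') := by
      rw [hm']
      have : (2 : ℕ) ^ b = 2 * 2 ^ (b - 1) := by rw [← pow_succ']; congr 1; omega
      rw [this]; ring
    have hmpos : 0 < m' := hm'odd.pos
    have hg2 : (g ^ (2 ^ (b - 1) * m') : Fˣ) = -1 := by
      have hsq : (g ^ (2 ^ (b - 1) * m')) * (g ^ (2 ^ (b - 1) * m')) = 1 := by
        rw [← pow_add, ← two_mul, ← hhalf, ← hord, pow_orderOf_eq_one]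
      have hne1 : g ^ (2 ^ (b - 1) * m') ≠ 1 := by
        intro h
        have hdvd := orderOf_dvd_of_pow_eq_one h
        rw [hord, hhalf] at hdvd
        have hpos : 0 < 2 ^ (b - 1) * m' := Nat.mul_pos (pow_pos (by norm_num) _) hmpos
        have := Nat.le_of_dvd hpos hdvd
        omega
      have hval : ((g ^ (2 ^ (b - 1) * m') : Fˣ) : F) * ((g ^ (2 ^ (b - 1) * m') : Fˣ) : F) = 1 := by
        rw [← Units.val_mul, hsq, Units.val_one]
      rcases mul_self_eq_one_iff.mp hval with h | h
      · exact absurd (Units.ext h) hne1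
      · exact Units.ext (by simpa using h)
    refine ⟨((g ^ (2 ^ (b - a - 1) * m') : Fˣ) : F), Units.ne_zero _, ?_⟩
    have h4 : (2 ^ (b - a - 1) * m') * n = (2 ^ (b - 1) * m') * n' := by
      rw [hn']
      have : (2 : ℕ) ^ (b - 1) = 2 ^ (b - a - 1) * 2 ^ a := by rw [← pow_add]; congr 1; omega
      rw [this]; ring
    rw [← Units.val_pow_eq_pow_val, ← pow_mul, h4, pow_mul, hg2]
    simp [hn'odd.neg_one_pow]

/-- Which diagonal involutions of PGL_n(q) lie in PSL_n(q), q odd: for the diagonal matrix t with i entries −1 and n − i entries 1, some non-zero scalar multiple of t has determinant one if and only if i is even or the 2-part of q − 1 exceeds the 2-part of n (that is, −1 is an n-th power in the field exactly in the latter case). -/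
theorem result {F : Type*} [Field F] [Fintype F] {q : ℕ} (hF : Fintype.card F = q) (hq : Odd q) {n : ℕ} (hn : 1 ≤ n) (i : ℕ) (hi : i ≤ n) : (∃ c : F, c ≠ 0 ∧ (c • Matrix.diagonal (fun j : Fin n => if (j : ℕ) < i then (-1 : F) else 1)).det = 1) ↔ (Even i ∨ padicValNat 2 n < padicValNat 2 (q - 1)) := by
  classical
  subst hF
  have hprod : (∏ j : Fin n, (if (j : ℕ) < i then (-1 : F) else 1)) = (-1) ^ i := by
    rw [Fin.prod_univ_eq_prod_range (fun j => if j < i then (-1 : F) else 1) n, Finset.prod_ite]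
    simp only [Finset.prod_const_one, mul_one, Finset.prod_const]
    congr 1
    have : (Finset.range n).filter (fun x => x < i) = Finset.range i := by
      ext x; simp only [Finset.mem_filter, Finset.mem_range]; omega
    rw [this, Finset.card_range]
  have hdet : ∀ c : F, (c • Matrix.diagonal (fun j : Fin n => if (j : ℕ) < i then (-1 : F) else 1)).det
      = c ^ n * (-1) ^ i := by
    intro c
    rw [Matrix.det_smul, Matrix.det_diagonal, hprod, Fintype.card_fin]
  simp only [hdet]
  rcases Nat.even_or_odd i with hi2 | hi2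
  · simp only [hi2, true_or, iff_true]
    exact ⟨1, one_ne_zero, by simp [hi2.neg_one_pow]⟩
  · have hne : ¬ Even i := Nat.not_even_iff_odd.mpr hi2
    simp only [hne, false_or, hi2.neg_one_pow]
    rw [← exists_pow_eq_neg_one_iff hq hn]
    constructor
    · rintro ⟨c, hc0, hc⟩
      refine ⟨c, hc0, ?_⟩
      linear_combination -hc
    · rintro ⟨c, hc0, hc⟩
      refine ⟨c, hc0, ?_⟩
      rw [hc]; ring

end Cfsg.Agent.S2575
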