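import Cfsg.Statements.S2576

set_option autoImplicit false
open Cfsg

namespace Cfsg.Agent.S2576

theorem neg_one_ne_one_of_odd {F : Type*} [Field F] [Fintype F] (hq : Odd (Fintype.card F)) :
    (-1 : F) ≠ 1 := by
  apply Ring.neg_one_ne_one_of_char_ne_two
  intro h
  rw [FiniteField.even_card_iff_char_two] at h
  rcases hq with ⟨k, hk⟩
  omega

theorem two_pow_mul_odd (n : ℕ) (hn : n ≠ 0) :
    ∃ m, Odd m ∧ n = 2 ^ padicValNat 2 n * m := by
  obtain ⟨m, hm⟩ := pow_padicValNat_dvd (p := 2) (n := n)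
  refine ⟨m, ?_, hm⟩
  by_contra hodd
  rw [Nat.not_odd_iff_even] at hodd
  obtain ⟨k, hk⟩ := hodd
  apply pow_succ_padicValNat_not_dvd (p := 2) hn
  refine ⟨k, ?_⟩
  calc n = 2 ^ padicValNat 2 n * m := hm
    _ = 2 ^ (padicValNat 2 n + 1) * k := by rw [hk, pow_succ]; ring

theorem half_pow_eq_neg_one {F : Type*} [Field F] (μ : F) (b : ℕ) (hb : 1 ≤ b)
    (hμ : orderOf μ = 2 ^ b) : μ ^ (2 ^ (b - 1)) = -1 := by
  have h2 : (2 : ℕ) ^ b = 2 ^ (b - 1) + 2 ^ (b - 1) := by
    have : (2 : ℕ) ^ b = 2 * 2 ^ (b - 1) := by rw [← pow_succ']; congr 1; omega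
    omega
  have hsq : μ ^ (2 ^ (b - 1)) * μ ^ (2 ^ (b - 1)) = 1 := by
    rw [← pow_add, ← h2, ← hμ, pow_orderOf_eq_one]
  rcases mul_self_eq_one_iff.mp hsq with h | h
  · exfalso
    have hdvd := orderOf_dvd_of_pow_eq_one h
    rw [hμ] at hdvd
    have hpos : 0 < 2 ^ (b - 1) := pow_pos (by norm_num) _
    have := Nat.le_of_dvd hpos hdvd
    omega
  · exact h

/-- Which involutions of PGL_2m(q) coming from a scalar of the quadratic extension field lie in PSL_2m(q), q odd: let μ generate the Sylow 2-subgroup of the multiplicative group of the field with q elements (μ has order the 2-part of q − 1) and let t be the block-diagonal matrix with m diagonal blocks [[0, 1], [μ, 0]] (so t² is the scalar μ and t is an involution modulo scalars). Then some non-zero scalar multiple of t has determinant one if and only if q ≡ 3 (mod 4) or the 2-part of q − 1 is less than the 2-part of 2m. -/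
theorem result {F : Type*} [Field F] [Fintype F] {q : ℕ} (hF : Fintype.card F = q) (hq : Odd q) {m : ℕ} (hm : 1 ≤ m) (μ : F) (hμ : orderOf μ = 2 ^ padicValNat 2 (q - 1)) : (∃ c : F, c ≠ 0 ∧ (c • Matrix.blockDiagonal (fun _ : Fin m => !![(0 : F), 1; μ, 0])).det = 1) ↔ (q % 4 = 3 ∨ padicValNat 2 (q - 1) < padicValNat 2 (2 * m)) := by
  classical
  subst hF
  have hne : (-1 : F) ≠ 1 := neg_one_ne_one_of_odd hq
  have hcard : 2 ≤ Fintype.card F := by
    have := Fintype.one_lt_card (α := F); omega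
  have hq1 : Fintype.card F - 1 ≠ 0 := by omega
  obtain ⟨m', hm'odd, hm'⟩ := two_pow_mul_odd (Fintype.card F - 1) hq1
  obtain ⟨m'', hm''odd, hm''⟩ := two_pow_mul_odd m (by omega)
  set b := padicValNat 2 (Fintype.card F - 1) with hb
  set a := padicValNat 2 m with ha
  have hb1 : 1 ≤ b := by
    rw [hb, ← padicValNat_dvd_iff_le hq1, pow_one]
    rcases hq with ⟨k, hk⟩
    omega
  have h2m : padicValNat 2 (2 * m) = a + 1 := by
    rw [padicValNat.mul (by norm_num) (by omega), padicValNat_self]; omega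
  rw [h2m]
  have hdet : ∀ c : F, (c • Matrix.blockDiagonal (fun _ : Fin m => !![(0 : F), 1; μ, 0])).det
      = c ^ (2 * m) * (-μ) ^ m := by
    intro c
    rw [Matrix.det_smul, Matrix.det_blockDiagonal]
    simp [Matrix.det_fin_two_of]
  simp only [hdet]
  have hhalf : μ ^ (2 ^ (b - 1)) = -1 := half_pow_eq_neg_one μ b hb1 hμ
  constructor
  · rintro ⟨c, hc0, hc⟩
    by_contra hcon
    rw [not_or, not_lt] at hcon
    obtain ⟨h43, hab⟩ := hcon
    have hb2 : 2 ≤ b := by
      rw [hb, ← padicValNat_dvd_iff_le hq1]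
      rcases hq with ⟨k, hk⟩
      omega
    have hlt : a < b := by omega
    apply hne
    have h1 : c ^ (Fintype.card F - 1) = 1 := FiniteField.pow_card_sub_one_eq_one c hc0
    have hP : (c ^ (2 * m) * (-μ) ^ m) ^ (2 ^ (b - 1 - a) * m') = 1 := by rw [hc, one_pow]
    rw [mul_pow, ← pow_mul, ← pow_mul] at hP
    have e1 : 2 * m * (2 ^ (b - 1 - a) * m') = (Fintype.card F - 1) * m'' := by
      rw [hm', hm'']
      have : (2 : ℕ) ^ b = 2 * 2 ^ a * 2 ^ (b - 1 - a) := by
        rw [← pow_succ', ← pow_add]; congr 1; omega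
      rw [this]; ring
    have e2 : m * (2 ^ (b - 1 - a) * m') = 2 ^ (b - 1) * (m' * m'') := by
      rw [hm'']
      have : (2 : ℕ) ^ (b - 1) = 2 ^ a * 2 ^ (b - 1 - a) := by
        rw [← pow_add]; congr 1; omega
      rw [this]; ring
    rw [e1, e2, pow_mul, h1, one_pow, one_mul, pow_mul, neg_pow, hhalf] at hP
    have hev : Even (2 ^ (b - 1)) := by
      refine ⟨2 ^ (b - 2), ?_⟩
      have : (2 : ℕ) ^ (b - 1) = 2 * 2 ^ (b - 2) := by rw [← pow_succ']; congr 1; omega
      omega
    rw [hev.neg_one_pow, one_mul, (hm'odd.mul hm''odd).neg_one_pow] at hP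
    exact hP
  · rintro (h43 | hlt)
    · have hb' : b = 1 := by
        by_contra hb'
        have hb2 : 2 ≤ b := by omega
        rw [hb, ← padicValNat_dvd_iff_le hq1] at hb2
        omega
      rw [hb'] at hhalf
      simp only [Nat.sub_self, pow_zero, pow_one] at hhalf
      refine ⟨1, one_ne_zero, ?_⟩
      rw [hhalf]; simp
    · have hab : b ≤ a := by omega
      refine ⟨1, one_ne_zero, ?_⟩
      have hdvd : 2 ^ b ∣ m := by
        rw [hm'']
        exact Dvd.dvd.mul_right (pow_dvd_pow 2 hab) _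
      have hμm : μ ^ m = 1 := by
        rw [← hμ] at hdvd
        exact orderOf_dvd_iff_pow_eq_one.mp hdvd
      have hev : Even m := by
        have : 2 ∣ m := Dvd.dvd.trans (dvd_pow_self 2 (by omega)) hdvd
        exact even_iff_two_dvd.mpr this
      rw [neg_pow, hev.neg_one_pow, hμm]; simp

end Cfsg.Agent.S2576
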