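import Cfsg.Statements.S2577
import Mathlib
import Cfsg.Agent.Lib.Helper16.InvolDiag
import Cfsg.Agent.Lib.Helper16.SqConj

set_option autoImplicit false
open Cfsg

namespace Cfsg.Agent.S2577


set_option linter.unusedSectionVars false
set_option linter.unusedVariables false

open Matrix Cfsg.Agent.Lib.Helper16

section PC

variable {F : Type*} [Field F] {n : ℕ}

/-- Projective conjugacy of matrices. -/
def PConj (A B : Matrix (Fin n) (Fin n) F) : Prop :=
  ∃ P : Matrix (Fin n) (Fin n) F, IsUnit P.det ∧ ∃ c : F, c ≠ 0 ∧ P * A = c • (B * P)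

theorem scalar_eq_smul' (r : F) :
    Matrix.scalar (Fin n) r = r • (1 : Matrix (Fin n) (Fin n) F) := by
  ext i j
  simp [Matrix.scalar_apply, Matrix.diagonal_apply, Matrix.one_apply]

theorem ne_zero_of_isUnit_det (hn : 0 < n) (P : Matrix (Fin n) (Fin n) F) (hP : IsUnit P.det) :
    P ≠ 0 := by
  have : Nonempty (Fin n) := ⟨⟨0, hn⟩⟩
  rintro rfl
  rw [Matrix.det_zero] at hP
  exact not_isUnit_zero hP

theorem pconj_sq (hn : 0 < n) {A B : Matrix (Fin n) (Fin n) F} {P : Matrix (Fin n) (Fin n) F}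
    (hP : IsUnit P.det) {c α β : F} (h : P * A = c • (B * P)) (hA : A * A = α • 1)
    (hB : B * B = β • 1) : α = c * c * β := by
  have h1 : P * (A * A) = (c * c * β) • P := by
    calc P * (A * A) = (P * A) * A := by rw [Matrix.mul_assoc]
      _ = (c • (B * P)) * A := by rw [h]
      _ = c • (B * (P * A)) := by rw [Matrix.smul_mul, Matrix.mul_assoc]
      _ = (c * c) • ((B * B) * P) := by
          rw [h, Matrix.mul_smul, smul_smul, Matrix.mul_assoc]
      _ = (c * c * β) • P := by rw [hB, Matrix.smul_mul, Matrix.one_mul, smul_smul]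
  rw [hA, Matrix.mul_smul, Matrix.mul_one] at h1
  have h2 : (α - c * c * β) • P = 0 := by
    rw [sub_smul, h1, sub_self]
  rcases smul_eq_zero.1 h2 with h3 | h3
  · exact sub_eq_zero.1 h3
  · exact absurd h3 (ne_zero_of_isUnit_det hn P hP)

theorem pconj_symm {A B : Matrix (Fin n) (Fin n) F} (h : PConj A B) : PConj B A := by
  obtain ⟨P, hP, c, hc, hPA⟩ := h
  have hPP : P * P⁻¹ = 1 := Matrix.mul_nonsing_inv P hP
  have hPP' : P⁻¹ * P = 1 := Matrix.nonsing_inv_mul P hP
  refine ⟨P⁻¹, ?_, c⁻¹, inv_ne_zero hc, ?_⟩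
  · exact (Matrix.isUnit_nonsing_inv_det_iff).2 hP
  · have h1 : B = c⁻¹ • (P * A * P⁻¹) := by
      rw [hPA, Matrix.smul_mul, smul_smul, inv_mul_cancel₀ hc, one_smul, Matrix.mul_assoc, hPP,
        Matrix.mul_one]
    rw [h1, Matrix.mul_smul]
    congr 1
    rw [← Matrix.mul_assoc, ← Matrix.mul_assoc, hPP', Matrix.one_mul]

/-- Conjugacy in the projective group, in matrix terms. -/
theorem conj_of_pconj (A B : GL (Fin n) F)
    (h : PConj (A : Matrix (Fin n) (Fin n) F) (B : Matrix (Fin n) (Fin n) F)) :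
    ConjClasses.mk (QuotientGroup.mk A : GL (Fin n) F ⧸ Subgroup.center (GL (Fin n) F))
      = ConjClasses.mk (QuotientGroup.mk B) := by
  obtain ⟨P, hP, c, hc, hPA⟩ := h
  rw [ConjClasses.mk_eq_mk_iff_isConj, isConj_iff]
  obtain ⟨g, hg⟩ : ∃ g : GL (Fin n) F, (g : Matrix (Fin n) (Fin n) F) = P :=
    (Matrix.isUnit_iff_isUnit_det P).2 hP
  obtain ⟨z, hz⟩ : ∃ z : GL (Fin n) F, (z : Matrix (Fin n) (Fin n) F) = c • 1 :=
    ⟨Units.map (Matrix.scalar (Fin n) : F →+* Matrix (Fin n) (Fin n) F).toMonoidHom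
      (Units.mk0 c hc), by
        rw [Units.coe_map]
        exact scalar_eq_smul' _⟩
  have hzc : z ∈ Subgroup.center (GL (Fin n) F) := by
    rw [Matrix.GeneralLinearGroup.mem_center_iff_val_mem_range_scalar]
    exact ⟨c, by rw [scalar_eq_smul', ← hz]⟩
  refine ⟨QuotientGroup.mk g, ?_⟩
  have h1 : g * A * g⁻¹ = z * B := by
    rw [mul_inv_eq_iff_eq_mul]
    apply Units.ext
    rw [Units.val_mul, Units.val_mul, Units.val_mul, hg, hz, hPA, Matrix.smul_mul,
      Matrix.one_mul, Matrix.smul_mul]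
  rw [← QuotientGroup.mk_inv, ← QuotientGroup.mk_mul, ← QuotientGroup.mk_mul, h1,
    QuotientGroup.mk_mul, (QuotientGroup.eq_one_iff z).2 hzc, one_mul]

theorem pconj_of_conj (hn : 0 < n) (A B : GL (Fin n) F)
    (h : ConjClasses.mk (QuotientGroup.mk A : GL (Fin n) F ⧸ Subgroup.center (GL (Fin n) F))
      = ConjClasses.mk (QuotientGroup.mk B)) :
    PConj (A : Matrix (Fin n) (Fin n) F) (B : Matrix (Fin n) (Fin n) F) := by
  have : Nonempty (Fin n) := ⟨⟨0, hn⟩⟩
  rw [ConjClasses.mk_eq_mk_iff_isConj, isConj_iff] at h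
  obtain ⟨x, hx⟩ := h
  obtain ⟨g, rfl⟩ := QuotientGroup.mk_surjective x
  rw [← QuotientGroup.mk_inv, ← QuotientGroup.mk_mul, ← QuotientGroup.mk_mul, QuotientGroup.eq,
    Matrix.GeneralLinearGroup.mem_center_iff_val_mem_range_scalar] at hx
  obtain ⟨r, hr⟩ := hx
  obtain ⟨z, hz⟩ : ∃ z : GL (Fin n) F, z = (g * A * g⁻¹)⁻¹ * B := ⟨_, rfl⟩
  rw [← hz] at hr
  have hr' : (z : Matrix (Fin n) (Fin n) F) = r • 1 := by
    rw [← scalar_eq_smul']
    exact hr.symm
  have hr0 : r ≠ 0 := by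
    rintro rfl
    rw [zero_smul] at hr'
    exact z.ne_zero hr'
  have h1 : g * A * z = B * g := by
    have hzc : z * g = g * z := by
      apply Units.ext
      rw [Units.val_mul, Units.val_mul, hr', Matrix.smul_mul, Matrix.mul_smul, Matrix.one_mul,
        Matrix.mul_one]
    have : B = g * A * g⁻¹ * z := by
      rw [hz]
      group
    rw [this, mul_assoc (g * A * g⁻¹), hzc]
    group
  have h2 := congrArg (fun M : GL (Fin n) F => (M : Matrix (Fin n) (Fin n) F)) h1
  simp only [Units.val_mul] at h2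
  rw [hr', Matrix.mul_smul, Matrix.mul_one] at h2
  refine ⟨(g : Matrix (Fin n) (Fin n) F), Matrix.isUnits_det_units g, r⁻¹, inv_ne_zero hr0, ?_⟩
  rw [← h2, smul_smul, inv_mul_cancel₀ hr0, one_smul]

theorem order_two_iff (hn : 0 < n) (A : GL (Fin n) F) :
    orderOf (QuotientGroup.mk A : GL (Fin n) F ⧸ Subgroup.center (GL (Fin n) F)) = 2 ↔
      (∃ lam : F, (A : Matrix (Fin n) (Fin n) F) * (A : Matrix (Fin n) (Fin n) F) = lam • 1) ∧
      ¬ ∃ c : F, (A : Matrix (Fin n) (Fin n) F) = c • 1 := by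
  rw [orderOf_eq_prime_iff, ← QuotientGroup.mk_pow, QuotientGroup.eq_one_iff, Ne,
    QuotientGroup.eq_one_iff, Matrix.GeneralLinearGroup.mem_center_iff_val_mem_range_scalar,
    Matrix.GeneralLinearGroup.mem_center_iff_val_mem_range_scalar]
  constructor
  · rintro ⟨⟨r, hr⟩, h2⟩
    refine ⟨⟨r, ?_⟩, ?_⟩
    · rw [← scalar_eq_smul', hr, pow_two, Units.val_mul]
    · rintro ⟨c, hc⟩
      exact h2 ⟨c, by rw [scalar_eq_smul', hc]⟩
  · rintro ⟨⟨r, hr⟩, h2⟩
    refine ⟨⟨r, ?_⟩, ?_⟩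
    · rw [scalar_eq_smul', pow_two, Units.val_mul, hr]
    · rintro ⟨c, hc⟩
      exact h2 ⟨c, by rw [← hc, scalar_eq_smul']⟩

end PC

section DG

variable {F : Type*} [Field F] {n : ℕ}

/-- The diagonal involution with `k` leading entries `-1`. -/
def dg (k : ℕ) : Matrix (Fin n) (Fin n) F :=
  Matrix.diagonal (fun j : Fin n => if j.val < k then (-1 : F) else 1)

theorem dg_mul_self (k : ℕ) : (dg k : Matrix (Fin n) (Fin n) F) * dg k = 1 := by
  unfold dg
  rw [Matrix.diagonal_mul_diagonal, ← Matrix.diagonal_one]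
  congr 1
  funext j
  split_ifs <;> simp

theorem dg_not_scalar (h2 : (2 : F) ≠ 0) {k : ℕ} (hk1 : 1 ≤ k) (hkn : k < n) :
    ¬ ∃ c : F, (dg k : Matrix (Fin n) (Fin n) F) = c • 1 := by
  rintro ⟨c, hc⟩
  have h0 := congrFun (congrFun hc ⟨0, by omega⟩) ⟨0, by omega⟩
  have h1 := congrFun (congrFun hc ⟨k, hkn⟩) ⟨k, hkn⟩
  unfold dg at h0 h1
  rw [Matrix.diagonal_apply_eq, Matrix.smul_apply, Matrix.one_apply_eq, smul_eq_mul, mul_one]
    at h0 h1
  rw [if_pos (by show 0 < k; omega)] at h0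
  rw [if_neg (by show ¬ k < k; omega)] at h1
  apply h2
  have : (2 : F) = 1 - (-1) := by ring
  rw [this, h0, h1, sub_self]

theorem rank_dg_sub_one (h2 : (2 : F) ≠ 0) [DecidableEq F] {k : ℕ} (hk : k ≤ n) :
    ((dg k : Matrix (Fin n) (Fin n) F) - 1).rank = k := by
  unfold dg
  rw [← Matrix.diagonal_one, Matrix.diagonal_sub, Matrix.rank_diagonal]
  refine Eq.trans ?_ (Fintype.card_fin_lt_of_le hk)
  apply Fintype.card_congr
  apply Equiv.subtypeEquivRight
  intro j
  by_cases hj : j.val < k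
  · rw [if_pos hj]
    constructor
    · intro _; exact hj
    · intro _ h
      apply h2
      have : (2 : F) = -(-1 - 1) := by ring
      rw [this, h, neg_zero]
  · rw [if_neg hj, sub_self]
    constructor
    · intro h; exact absurd rfl h
    · intro h; exact absurd h hj

theorem rank_neg_dg_sub_one (h2 : (2 : F) ≠ 0) [DecidableEq F] {k : ℕ} (hk : k ≤ n) :
    (-(dg k : Matrix (Fin n) (Fin n) F) - 1).rank = n - k := by
  have h1 : (-(dg k : Matrix (Fin n) (Fin n) F) - 1)
      = Matrix.diagonal (fun j : Fin n => -(if j.val < k then (-1 : F) else 1) - 1) := by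
    unfold dg
    rw [← Matrix.diagonal_one, Matrix.diagonal_neg, Matrix.diagonal_sub]
  rw [h1, Matrix.rank_diagonal]
  have h3 : Fintype.card {j : Fin n // ¬ j.val < k} = n - k := by
    have := Fintype.card_subtype_compl (fun j : Fin n => j.val < k)
    rw [this, Fintype.card_fin, Fintype.card_fin_lt_of_le hk]
  refine Eq.trans ?_ h3
  apply Fintype.card_congr
  apply Equiv.subtypeEquivRight
  intro j
  by_cases hj : j.val < k
  · rw [if_pos hj, neg_neg, sub_self]
    constructor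
    · intro h; exact absurd rfl h
    · intro h; exact absurd hj h
  · rw [if_neg hj]
    constructor
    · intro _; exact hj
    · intro _ h
      apply h2
      have : (2 : F) = -(-1 - 1) := by ring
      rw [this, h, neg_zero]

theorem dg_sq' (k : ℕ) :
    (dg k : Matrix (Fin n) (Fin n) F) * dg k = (1 : F) • (1 : Matrix (Fin n) (Fin n) F) := by
  rw [dg_mul_self, one_smul]

theorem pattern_eq (a b : ℕ) (x : Fin (b + a)) :
    Sum.elim (fun _ => (1 : F)) (fun _ => (-1 : F)) ((finSumFinEquiv.symm x).swap)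
      = if x.val < b then (-1 : F) else 1 := by
  refine Fin.addCases (fun i => ?_) (fun i => ?_) x
  · rw [finSumFinEquiv_symm_apply_castAdd]
    simp
  · rw [finSumFinEquiv_symm_apply_natAdd]
    simp

/-- An involution is conjugate to the diagonal involution with as many `-1` as the dimension of
its `-1`-eigenspace. -/
theorem invol_dg (h2 : (2 : F) ≠ 0) (B : Matrix (Fin n) (Fin n) F) (hB : B * B = 1) :
    ∃ P : Matrix (Fin n) (Fin n) F, IsUnit P.det ∧
      B * P = P * dg (Module.finrank F (eigM (Matrix.toLin' B) ⊤)) := by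
  have hu : Matrix.toLin' B * Matrix.toLin' B = 1 := by
    rw [Module.End.mul_eq_comp, ← Matrix.toLin'_mul, hB, Matrix.toLin'_one]
    rfl
  have hsum := eig_finrank h2 hu (W := ⊤) (fun _ _ => trivial)
  rw [finrank_top, Module.finrank_fin_fun] at hsum
  obtain ⟨a, ha⟩ : ∃ a, Module.finrank F (eigP (Matrix.toLin' B) ⊤) = a := ⟨_, rfl⟩
  obtain ⟨b, hb⟩ : ∃ b, Module.finrank F (eigM (Matrix.toLin' B) ⊤) = b := ⟨_, rfl⟩
  rw [ha, hb] at hsum
  have hn : n = b + a := by omega
  subst hn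
  obtain ⟨P, hP, hBP⟩ := invol_diag h2 B
    (finSumFinEquiv.symm.trans (Equiv.sumComm (Fin b) (Fin a))) ha hb
  refine ⟨P, (Matrix.isUnit_iff_isUnit_det P).1 hP, ?_⟩
  rw [hBP, hb]
  congr 1
  unfold dg
  congr 1
  funext j
  exact pattern_eq (F := F) a b j

theorem eigM_neg (B : Matrix (Fin n) (Fin n) F) :
    eigM (Matrix.toLin' (-B)) ⊤ = eigP (Matrix.toLin' B) ⊤ := by
  ext v
  rw [mem_eigM, mem_eigP, map_neg, LinearMap.neg_apply, neg_inj]

theorem eig_zero_left (h2 : (2 : F) ≠ 0) (B : Matrix (Fin n) (Fin n) F) (hB : B * B = 1)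
    (hb : Module.finrank F (eigM (Matrix.toLin' B) ⊤) = 0) : B = 1 := by
  have hu : Matrix.toLin' B * Matrix.toLin' B = 1 := by
    rw [Module.End.mul_eq_comp, ← Matrix.toLin'_mul, hB, Matrix.toLin'_one]
    rfl
  have hbot : eigM (Matrix.toLin' B) ⊤ = ⊥ := Submodule.finrank_eq_zero.1 hb
  have htop := eigP_sup_eigM h2 hu (W := ⊤) (fun _ _ => trivial)
  rw [hbot, sup_bot_eq] at htop
  have h1 : Matrix.toLin' B = Matrix.toLin' (1 : Matrix (Fin n) (Fin n) F) := by
    apply LinearMap.ext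
    intro v
    have hv : v ∈ eigP (Matrix.toLin' B) ⊤ := by
      rw [htop]
      trivial
    rw [(mem_eigP.1 hv).2, Matrix.toLin'_one]
    rfl
  exact Matrix.toLin'.injective h1

/-- Type 1: a non-scalar matrix whose square is a square scalar. -/
theorem type_one (h2 : (2 : F) ≠ 0) (A : Matrix (Fin n) (Fin n) F) (c : F) (hc : c ≠ 0)
    (hA : A * A = (c * c) • 1) (hns : ¬ ∃ d : F, A = d • 1) :
    ∃ k, 1 ≤ k ∧ k ≤ n / 2 ∧ PConj A (dg k) := by
  obtain ⟨B, hBdef⟩ : ∃ B, B = c⁻¹ • A := ⟨_, rfl⟩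
  have hAB : A = c • B := by
    rw [hBdef, smul_smul, mul_inv_cancel₀ hc, one_smul]
  have hB : B * B = 1 := by
    rw [hBdef, Matrix.smul_mul, Matrix.mul_smul, hA, smul_smul, smul_smul]
    have : c⁻¹ * c⁻¹ * (c * c) = 1 := by field_simp
    rw [this, one_smul]
  have hu : Matrix.toLin' B * Matrix.toLin' B = 1 := by
    rw [Module.End.mul_eq_comp, ← Matrix.toLin'_mul, hB, Matrix.toLin'_one]
    rfl
  have hsum := eig_finrank h2 hu (W := ⊤) (fun _ _ => trivial)
  rw [finrank_top, Module.finrank_fin_fun] at hsum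
  have hB' : (-B) * (-B) = 1 := by
    rw [Matrix.neg_mul, Matrix.mul_neg, neg_neg, hB]
  -- the general step: an involution `B'` with `A = c' • B'`
  have step : ∀ (B' : Matrix (Fin n) (Fin n) F) (c' : F), c' ≠ 0 → A = c' • B' → B' * B' = 1 →
      PConj A (dg (Module.finrank F (eigM (Matrix.toLin' B') ⊤))) := by
    intro B' c' hc' hAB' hB'1
    obtain ⟨P, hP, hBP⟩ := invol_dg h2 B' hB'1
    have hPP : P * P⁻¹ = 1 := Matrix.mul_nonsing_inv P hP
    have hPP' : P⁻¹ * P = 1 := Matrix.nonsing_inv_mul P hP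
    refine ⟨P⁻¹, (Matrix.isUnit_nonsing_inv_det_iff).2 hP, c', hc', ?_⟩
    rw [hAB', Matrix.mul_smul]
    congr 1
    have : B' = P * dg (Module.finrank F (eigM (Matrix.toLin' B') ⊤)) * P⁻¹ := by
      rw [← hBP, Matrix.mul_assoc, hPP, Matrix.mul_one]
    conv_lhs => rw [this]
    rw [← Matrix.mul_assoc, ← Matrix.mul_assoc, hPP', Matrix.one_mul]
  have hb0 : Module.finrank F (eigM (Matrix.toLin' B) ⊤) ≠ 0 := by
    intro hb
    apply hns
    refine ⟨c, ?_⟩
    rw [hAB, eig_zero_left h2 B hB hb]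
  have ha0 : Module.finrank F (eigP (Matrix.toLin' B) ⊤) ≠ 0 := by
    intro ha
    apply hns
    refine ⟨-c, ?_⟩
    have := eig_zero_left h2 (-B) hB' (by rw [eigM_neg]; exact ha)
    rw [hAB, neg_smul, ← smul_neg, ← this, neg_neg]
  by_cases hle : Module.finrank F (eigM (Matrix.toLin' B) ⊤) ≤ n / 2
  · exact ⟨_, by omega, hle, step B c hc hAB hB⟩
  · refine ⟨Module.finrank F (eigP (Matrix.toLin' B) ⊤), by omega, by omega, ?_⟩
    have := step (-B) (-c) (neg_ne_zero.2 hc) (by rw [hAB, neg_smul, smul_neg, neg_neg]) hB'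
    rwa [eigM_neg] at this

theorem dg_inj (h2 : (2 : F) ≠ 0) (hn : 0 < n) {k l : ℕ} (hk : k ≤ n / 2) (hl : l ≤ n / 2)
    (h : PConj (dg k : Matrix (Fin n) (Fin n) F) (dg l)) : k = l := by
  classical
  obtain ⟨P, hP, c, hc, hPA⟩ := h
  have hsq := pconj_sq hn hP hPA (dg_sq' k) (dg_sq' l)
  rw [mul_one] at hsq
  have hc1 : c = 1 ∨ c = -1 := by
    have : (c - 1) * (c + 1) = 0 := by linear_combination -hsq
    rcases mul_eq_zero.1 this with h | h
    · left; exact sub_eq_zero.1 h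
    · right; exact eq_neg_of_add_eq_zero_left h
  have hkn : k ≤ n := by omega
  have hln : l ≤ n := by omega
  rcases hc1 with rfl | rfl
  · rw [one_smul] at hPA
    have h1 : P * (dg k - 1) = (dg l - 1) * P := by
      rw [Matrix.mul_sub, Matrix.sub_mul, hPA, Matrix.mul_one, Matrix.one_mul]
    have h3 := congrArg Matrix.rank h1
    rw [Matrix.rank_mul_eq_right_of_isUnit_det _ _ hP, Matrix.rank_mul_eq_left_of_isUnit_det _ _ hP,
      rank_dg_sub_one h2 hkn, rank_dg_sub_one h2 hln] at h3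
    exact h3
  · have h1 : P * (dg k - 1) = (-dg l - 1) * P := by
      rw [Matrix.mul_sub, Matrix.sub_mul, hPA, Matrix.mul_one, Matrix.one_mul, Matrix.neg_mul,
        neg_smul, one_smul]
    have h3 := congrArg Matrix.rank h1
    rw [Matrix.rank_mul_eq_right_of_isUnit_det _ _ hP, Matrix.rank_mul_eq_left_of_isUnit_det _ _ hP,
      rank_dg_sub_one h2 hkn, rank_neg_dg_sub_one h2 hln] at h3
    omega

theorem dg_not_pconj (hn : 0 < n) {k : ℕ} {J : Matrix (Fin n) (Fin n) F} {μ : F}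
    (hμ : ¬ IsSquare μ) (hJ : J * J = μ • 1)
    (h : PConj (dg k : Matrix (Fin n) (Fin n) F) J) : False := by
  obtain ⟨P, hP, c, hc, hPA⟩ := h
  have hsq := pconj_sq hn hP hPA (dg_sq' k) hJ
  apply hμ
  refine ⟨c⁻¹, ?_⟩
  field_simp
  linear_combination -hsq

theorem exists_sq_scalar (hn : Even n) (μ : F) :
    ∃ J : Matrix (Fin n) (Fin n) F, J * J = μ • 1 := by
  obtain ⟨m, rfl⟩ := hn
  obtain ⟨J', hJ'⟩ : ∃ J' : Matrix (Fin m ⊕ Fin m) (Fin m ⊕ Fin m) F,
      J' = Matrix.fromBlocks 0 1 (μ • 1) 0 := ⟨_, rfl⟩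
  have hJ2 : J' * J' = μ • 1 := by
    rw [hJ', Matrix.fromBlocks_multiply, ← Matrix.fromBlocks_one, Matrix.fromBlocks_smul]
    simp
  refine ⟨J'.submatrix finSumFinEquiv.symm finSumFinEquiv.symm, ?_⟩
  rw [Matrix.submatrix_mul_equiv, hJ2]
  ext i j
  simp [Matrix.one_apply]

theorem even_of_nonsquare (A : Matrix (Fin n) (Fin n) F) (lam : F) (hlam : ¬ IsSquare lam)
    (hA : A * A = lam • 1) : Even n := by
  by_contra hodd
  rw [Nat.not_even_iff_odd] at hodd
  obtain ⟨k, rfl⟩ := hodd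
  have h0 : lam ≠ 0 := by
    rintro rfl
    exact hlam ⟨0, by simp⟩
  have h1 := congrArg Matrix.det hA
  rw [Matrix.det_mul, Matrix.det_smul, Matrix.det_one, mul_one, Fintype.card_fin] at h1
  apply hlam
  refine ⟨A.det / lam ^ k, ?_⟩
  rw [← pow_two] at h1
  field_simp
  rw [h1]
  ring
  
end DG

section Main

variable {F : Type*} [Field F] [Fintype F] {n : ℕ}

theorem isSquare_mul_nonsq {x y : F} (h1 : ¬IsSquare x) (h2 : ¬IsSquare y) :
    IsSquare (x * y) := by
  classical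
  have hx : x ≠ 0 := by
    rintro rfl
    exact h1 ⟨0, by simp⟩
  have hy : y ≠ 0 := by
    rintro rfl
    exact h2 ⟨0, by simp⟩
  rw [← quadraticChar_one_iff_isSquare (mul_ne_zero hx hy), map_mul,
    quadraticChar_neg_one_iff_not_isSquare.2 h1, quadraticChar_neg_one_iff_not_isSquare.2 h2]
  norm_num

/-- Type 2: a matrix whose square is a non-square scalar. -/
theorem type_two (A J : Matrix (Fin n) (Fin n) F) (lam μ : F) (hlam : ¬ IsSquare lam)
    (hμ : ¬ IsSquare μ) (hA : A * A = lam • 1) (hJ : J * J = μ • 1) : PConj A J := by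
  have hμ0 : μ ≠ 0 := by
    rintro rfl
    exact hμ ⟨0, by simp⟩
  have hlam0 : lam ≠ 0 := by
    rintro rfl
    exact hlam ⟨0, by simp⟩
  obtain ⟨d, hd⟩ := isSquare_mul_nonsq hlam hμ
  obtain ⟨c, hcdef⟩ : ∃ c, c = d / μ := ⟨_, rfl⟩
  have hc2 : lam = c * c * μ := by
    rw [hcdef]
    field_simp
    linear_combination hd
  have hc : c ≠ 0 := by
    rintro rfl
    apply hlam0
    rw [hc2]
    ring
  obtain ⟨B, hBdef⟩ : ∃ B, B = c⁻¹ • A := ⟨_, rfl⟩
  have hAB : A = c • B := by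
    rw [hBdef, smul_smul, mul_inv_cancel₀ hc, one_smul]
  have hB : B * B = μ • 1 := by
    rw [hBdef, Matrix.smul_mul, Matrix.mul_smul, hA, smul_smul, smul_smul]
    congr 1
    rw [hc2]
    field_simp
  have huB : Matrix.toLin' B * Matrix.toLin' B = μ • 1 := by
    rw [Module.End.mul_eq_comp, ← Matrix.toLin'_mul, hB, map_smul, Matrix.toLin'_one]
    rfl
  have huJ : Matrix.toLin' J * Matrix.toLin' J = μ • 1 := by
    rw [Module.End.mul_eq_comp, ← Matrix.toLin'_mul, hJ, map_smul, Matrix.toLin'_one]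
    rfl
  obtain ⟨T, hT⟩ := conj_of_sq μ hμ (Matrix.toLin' B) (Matrix.toLin' J) huB huJ rfl
  obtain ⟨P, hPdef⟩ : ∃ P, P = LinearMap.toMatrix' (T : (Fin n → F) →ₗ[F] (Fin n → F)) :=
    ⟨_, rfl⟩
  have hPB : P * B = J * P := by
    apply Matrix.toLin'.injective
    rw [Matrix.toLin'_mul, Matrix.toLin'_mul, hPdef, Matrix.toLin'_toMatrix']
    apply LinearMap.ext
    intro v
    exact hT v
  have hPunit : IsUnit P.det := by
    rw [hPdef, LinearMap.det_toMatrix']
    exact LinearEquiv.isUnit_det' T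
  refine ⟨P, hPunit, c, hc, ?_⟩
  rw [hAB, Matrix.mul_smul, hPB]

theorem main {q : ℕ} (hF : Fintype.card F = q) (hq : Odd q) (hn : 2 ≤ n) :
    Nat.card {C : ConjClasses (GL (Fin n) F ⧸ Subgroup.center (GL (Fin n) F)) //
      ∃ g : GL (Fin n) F ⧸ Subgroup.center (GL (Fin n) F),
        ConjClasses.mk g = C ∧ orderOf g = 2}
      = n / 2 + (if Even n then 1 else 0) := by
  classical
  have hn0 : 0 < n := by omega
  have h2 : (2 : F) ≠ 0 := by
    apply Ring.two_ne_zero
    intro h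
    have := FiniteField.even_card_iff_char_two.mp h
    rcases hq with ⟨k, hk⟩
    omega
  have hchar : ringChar F ≠ 2 := by
    intro h
    have := FiniteField.even_card_iff_char_two.mp h
    rcases hq with ⟨k, hk⟩
    omega
  obtain ⟨μ, hμ⟩ := FiniteField.exists_nonsquare hchar
  have hμ0 : μ ≠ 0 := by
    rintro rfl
    exact hμ ⟨0, by simp⟩
  obtain ⟨J, hJ⟩ : ∃ J : GL (Fin n) F, Even n →
      (J : Matrix (Fin n) (Fin n) F) * (J : Matrix (Fin n) (Fin n) F) = μ • 1 := by
    by_cases he : Even n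
    · obtain ⟨J0, hJ0⟩ := exists_sq_scalar he μ
      have hu : IsUnit J0 := by
        rw [Matrix.isUnit_iff_isUnit_det]
        have h1 := congrArg Matrix.det hJ0
        rw [Matrix.det_mul, Matrix.det_smul, Matrix.det_one, mul_one] at h1
        have : J0.det ≠ 0 := by
          intro h0
          rw [h0, mul_zero] at h1
          exact pow_ne_zero _ hμ0 h1.symm
        exact isUnit_iff_ne_zero.2 this
      obtain ⟨J, hJJ⟩ := hu
      exact ⟨J, fun _ => by rw [hJJ]; exact hJ0⟩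
    · exact ⟨1, fun h => absurd h he⟩
  obtain ⟨dgl, hdgl⟩ : ∃ dgl : ℕ → GL (Fin n) F, ∀ k,
      ((dgl k : GL (Fin n) F) : Matrix (Fin n) (Fin n) F) = dg k :=
    ⟨fun k => ⟨dg k, dg k, dg_mul_self k, dg_mul_self k⟩, fun k => rfl⟩
  obtain ⟨N, hN⟩ : ∃ N, N = n / 2 + (if Even n then 1 else 0) := ⟨_, rfl⟩
  rw [← hN]
  obtain ⟨rep, hrep⟩ : ∃ rep : Fin N → GL (Fin n) F, ∀ k : Fin N,
      rep k = if k.val < n / 2 then dgl (k.val + 1) else J := ⟨_, fun _ => rfl⟩
  have hNeven : ∀ k : Fin N, ¬ k.val < n / 2 → Even n ∧ k.val = n / 2 := by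
    intro k hk
    have := k.2
    by_cases he : Even n
    · have hN' : N = n / 2 + 1 := by rw [hN, if_pos he]
      exact ⟨he, by omega⟩
    · have hN' : N = n / 2 + 0 := by rw [hN, if_neg he]
      omega
  have hJns : Even n → ¬ ∃ c : F, (J : Matrix (Fin n) (Fin n) F) = c • 1 := by
    rintro he ⟨c, hc⟩
    have h1 := hJ he
    rw [hc, Matrix.smul_mul, Matrix.one_mul, smul_smul] at h1
    have h3 := congrFun (congrFun h1 ⟨0, hn0⟩) ⟨0, hn0⟩
    simp at h3
    exact hμ ⟨c, h3.symm⟩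
  have hord : ∀ k : Fin N, orderOf (QuotientGroup.mk (rep k) :
      GL (Fin n) F ⧸ Subgroup.center (GL (Fin n) F)) = 2 := by
    intro k
    rw [order_two_iff hn0, hrep]
    by_cases hk : k.val < n / 2
    · rw [if_pos hk, hdgl]
      exact ⟨⟨1, by rw [dg_mul_self, one_smul]⟩, dg_not_scalar h2 (by omega) (by omega)⟩
    · rw [if_neg hk]
      obtain ⟨he, _⟩ := hNeven k hk
      exact ⟨⟨μ, hJ he⟩, hJns he⟩
  obtain ⟨Φ, hΦ⟩ : ∃ Φ : Fin N → {C : ConjClasses (GL (Fin n) F ⧸ Subgroup.center (GL (Fin n) F)) //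
      ∃ g : GL (Fin n) F ⧸ Subgroup.center (GL (Fin n) F),
        ConjClasses.mk g = C ∧ orderOf g = 2},
      ∀ k, (Φ k).1 = ConjClasses.mk (QuotientGroup.mk (rep k)) :=
    ⟨fun k => ⟨ConjClasses.mk (QuotientGroup.mk (rep k)), QuotientGroup.mk (rep k), rfl, hord k⟩,
      fun _ => rfl⟩
  have hinj : Function.Injective Φ := by
    intro k l hkl
    have h1 : ConjClasses.mk (QuotientGroup.mk (rep k) :
        GL (Fin n) F ⧸ Subgroup.center (GL (Fin n) F))
        = ConjClasses.mk (QuotientGroup.mk (rep l)) := by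
      rw [← hΦ, ← hΦ, hkl]
    have h3 := pconj_of_conj hn0 _ _ h1
    rw [hrep, hrep] at h3
    apply Fin.ext
    by_cases hk : k.val < n / 2
    · by_cases hl : l.val < n / 2
      · rw [if_pos hk, if_pos hl, hdgl, hdgl] at h3
        have := dg_inj h2 hn0 (by omega) (by omega) h3
        omega
      · rw [if_pos hk, if_neg hl, hdgl] at h3
        obtain ⟨he, _⟩ := hNeven l hl
        exact (dg_not_pconj hn0 hμ (hJ he) h3).elim
    · by_cases hl : l.val < n / 2
      · rw [if_neg hk, if_pos hl, hdgl] at h3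
        obtain ⟨he, _⟩ := hNeven k hk
        exact (dg_not_pconj hn0 hμ (hJ he) (pconj_symm h3)).elim
      · have := (hNeven k hk).2
        have := (hNeven l hl).2
        omega
  have hsurj : Function.Surjective Φ := by
    rintro ⟨C, g, rfl, hg2⟩
    obtain ⟨A, rfl⟩ := QuotientGroup.mk_surjective g
    obtain ⟨⟨lam, hlam⟩, hns⟩ := (order_two_iff hn0 A).1 hg2
    by_cases hsq : IsSquare lam
    · obtain ⟨c, hc⟩ := hsq
      subst hc
      have hc0 : c ≠ 0 := by
        rintro rfl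
        rw [mul_zero, zero_smul] at hlam
        have hdet : IsUnit ((A : Matrix (Fin n) (Fin n) F)
            * (A : Matrix (Fin n) (Fin n) F)).det := by
          rw [Matrix.det_mul]
          exact (Matrix.isUnits_det_units A).mul (Matrix.isUnits_det_units A)
        exact ne_zero_of_isUnit_det hn0 _ hdet hlam
      obtain ⟨k, hk1, hk2, hpc⟩ := type_one h2 (A : Matrix (Fin n) (Fin n) F) c hc0 hlam hns
      have hkN : k - 1 < N := by
        rw [hN]
        omega
      refine ⟨⟨k - 1, hkN⟩, Subtype.ext ?_⟩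
      rw [hΦ, hrep]
      show ConjClasses.mk (QuotientGroup.mk (if (k - 1) < n / 2 then dgl (k - 1 + 1) else J)) = _
      rw [if_pos (by omega), Nat.sub_add_cancel hk1]
      apply conj_of_pconj
      rw [hdgl]
      exact pconj_symm hpc
    · have he := even_of_nonsquare (A : Matrix (Fin n) (Fin n) F) lam hsq hlam
      have hpc := type_two (A : Matrix (Fin n) (Fin n) F) (J : Matrix (Fin n) (Fin n) F) lam μ
        hsq hμ hlam (hJ he)
      have hkN : n / 2 < N := by
        rw [hN, if_pos he]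
        omega
      refine ⟨⟨n / 2, hkN⟩, Subtype.ext ?_⟩
      rw [hΦ, hrep]
      show ConjClasses.mk (QuotientGroup.mk (if n / 2 < n / 2 then dgl (n / 2 + 1) else J)) = _
      rw [if_neg (by omega)]
      exact conj_of_pconj _ _ (pconj_symm hpc)
  rw [Nat.card_congr (Equiv.ofBijective Φ ⟨hinj, hsurj⟩).symm, Nat.card_fin]

end Main

/-- Number of conjugacy classes of involutions in PGL_n(q) for q odd and n ≥ 2: there are ⌊n/2⌋ classes represented by diagonal matrices with i entries −1 (1 ≤ i ≤ n/2) and, when n is even, one more class represented by a block-diagonal matrix of 2 × 2 blocks [[0, 1], [μ, 0]] with μ a non-square (a matrix squaring to a scalar but having no eigenvalue in the field); in all ⌊n/2⌋ + 1 classes if n is even and ⌊n/2⌋ if n is odd. -/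
theorem result {F : Type*} [Field F] [Fintype F] {q : ℕ} (hF : Fintype.card F = q) (hq : Odd q) {n : ℕ} (hn : 2 ≤ n) : Nat.card {C : ConjClasses (GL (Fin n) F ⧸ Subgroup.center (GL (Fin n) F)) // ∃ g : GL (Fin n) F ⧸ Subgroup.center (GL (Fin n) F), ConjClasses.mk g = C ∧ orderOf g = 2} = n / 2 + (if Even n then 1 else 0) := by
  exact main hF hq hn

end Cfsg.Agent.S2577
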