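import Cfsg.Statements.S2578
import Mathlib

set_option autoImplicit false
open Cfsg

namespace Cfsg.Agent.S2578

theorem mulVecLin_pow' {F : Type*} [Field F] {ι : Type*} [Fintype ι] [DecidableEq ι]
    (A : Matrix ι ι F) (k : ℕ) :
    Matrix.mulVecLin (A ^ k) = (Matrix.mulVecLin A) ^ k := by
  induction k with
  | zero => rw [pow_zero, pow_zero, Matrix.mulVecLin_one]; rfl
  | succ k ih => rw [pow_succ, Matrix.mulVecLin_mul, ih, pow_succ]; rfl

theorem finrank_ker_pow_le {F V : Type*} [Field F] [AddCommGroup V] [Module F V]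
    [FiniteDimensional F V] (N : Module.End F V) (j : ℕ) :
    Module.finrank F (LinearMap.ker (N ^ j)) ≤ j * Module.finrank F (LinearMap.ker N) := by
  induction j with
  | zero =>
    have : LinearMap.ker (N ^ 0) = ⊥ := by
      rw [pow_zero]; exact LinearMap.ker_id
    rw [this]; simp
  | succ j ih =>
    have hmap : ∀ x : V, x ∈ LinearMap.ker (N ^ (j + 1)) → N x ∈ LinearMap.ker (N ^ j) := by
      intro x hx
      rw [LinearMap.mem_ker] at hx ⊢
      rw [pow_succ] at hx
      exact hx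
    set g := N.restrict hmap with hg
    have h1 := LinearMap.finrank_range_add_finrank_ker g
    have h2 : Module.finrank F (LinearMap.range g) ≤ Module.finrank F (LinearMap.ker (N ^ j)) :=
      Submodule.finrank_le _
    have h3 : Module.finrank F (LinearMap.ker g) ≤ Module.finrank F (LinearMap.ker N) := by
      have hk : ∀ y : LinearMap.ker g, ((y : LinearMap.ker (N ^ (j + 1))) : V) ∈ LinearMap.ker N := by
        intro y
        have := y.2
        rw [LinearMap.mem_ker] at this ⊢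
        have h4 : ((g (y : LinearMap.ker (N ^ (j + 1))) : LinearMap.ker (N ^ j)) : V) = 0 := by
          rw [this]; rfl
        exact h4
      let φ : LinearMap.ker g →ₗ[F] LinearMap.ker N :=
        { toFun := fun y => ⟨((y : LinearMap.ker (N ^ (j + 1))) : V), hk y⟩
          map_add' := fun a b => rfl
          map_smul' := fun c a => rfl }
      apply LinearMap.finrank_le_finrank_of_injective (f := φ)
      intro a b hab
      have := congrArg Subtype.val hab
      exact Subtype.ext (Subtype.ext this)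
    calc Module.finrank F (LinearMap.ker (N ^ (j + 1)))
        = Module.finrank F (LinearMap.range g) + Module.finrank F (LinearMap.ker g) := h1.symm
      _ ≤ Module.finrank F (LinearMap.ker (N ^ j)) + Module.finrank F (LinearMap.ker N) :=
          add_le_add h2 h3
      _ ≤ j * Module.finrank F (LinearMap.ker N) + Module.finrank F (LinearMap.ker N) :=
          Nat.add_le_add_right ih _
      _ = (j + 1) * Module.finrank F (LinearMap.ker N) := by ring

theorem lemL {F : Type*} [Field F] {n' : ℕ} (N : Matrix (Fin (n' + 1)) (Fin (n' + 1)) F)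
    (hN : N ^ (n' + 1) = 0) (w : Fin (n' + 1) → F) (hw : (N ^ n').mulVec w ≠ 0)
    (d : Fin (n' + 1) → F) (h : (∑ i, d i • N ^ (i : ℕ)).mulVec w = 0) : d = 0 := by
  classical
  by_contra hd
  have hne : (Finset.univ.filter (fun i => d i ≠ 0)).Nonempty := by
    by_contra hemp
    rw [Finset.not_nonempty_iff_eq_empty] at hemp
    apply hd
    funext i
    by_contra hi
    have hmem : i ∈ Finset.univ.filter (fun i => d i ≠ 0) := by
      rw [Finset.mem_filter]
      exact ⟨Finset.mem_univ _, hi⟩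
    rw [hemp] at hmem
    exact absurd hmem (Finset.notMem_empty i)
  set j := (Finset.univ.filter (fun i => d i ≠ 0)).min' hne with hj
  have hjmem := Finset.min'_mem _ hne
  have hdj : d j ≠ 0 := (Finset.mem_filter.mp hjmem).2
  have hmin : ∀ i, d i ≠ 0 → j ≤ i := fun i hi =>
    Finset.min'_le _ i (Finset.mem_filter.mpr ⟨Finset.mem_univ _, hi⟩)
  have hjn : (j : ℕ) ≤ n' := Nat.lt_succ_iff.mp j.2
  have key : (N ^ (n' - j)).mulVec ((∑ i, d i • N ^ (i : ℕ)).mulVec w)
      = d j • (N ^ n').mulVec w := by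
    rw [Matrix.mulVec_mulVec, Finset.mul_sum, Finset.sum_eq_single j]
    · rw [Matrix.mul_smul, ← pow_add, Nat.sub_add_cancel hjn, Matrix.smul_mulVec]
    · intro i _ hij
      by_cases hi : d i = 0
      · rw [hi, zero_smul, mul_zero]
      · have hlt : (j : ℕ) < i := lt_of_le_of_ne (hmin i hi) (fun h => hij (Fin.ext h.symm))
        rw [Matrix.mul_smul, ← pow_add]
        have h0 : N ^ (n' - j + i) = 0 := by
          have e : n' - (j : ℕ) + i = (n' + 1) + (n' - j + i - (n' + 1)) := by omega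
          rw [e, pow_add, hN, zero_mul]
        rw [h0, smul_zero]
    · intro h
      exact absurd (Finset.mem_univ j) h
  rw [h, Matrix.mulVec_zero] at key
  rcases smul_eq_zero.mp key.symm with h1 | h1
  · exact hdj h1
  · exact hw h1

section
variable {F : Type*} [Field F] {n' : ℕ}

/-- lower shift matrix -/
def sh (F : Type*) [Field F] (n' : ℕ) : Matrix (Fin (n' + 1)) (Fin (n' + 1)) F :=
  Matrix.of fun r c => if (r : ℕ) = (c : ℕ) + 1 then 1 else 0

theorem sh_apply (r c : Fin (n' + 1)) :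
    sh F n' r c = if (r : ℕ) = (c : ℕ) + 1 then 1 else 0 := rfl

theorem mul_sh (M : Matrix (Fin (n' + 1)) (Fin (n' + 1)) F) (r c : Fin (n' + 1)) :
    (M * sh F n') r c = if h : (c : ℕ) + 1 < n' + 1 then M r ⟨c + 1, h⟩ else 0 := by
  rw [Matrix.mul_apply]
  split_ifs with h
  · rw [Finset.sum_eq_single ⟨c + 1, h⟩]
    · simp [sh_apply]
    · intro j _ hj
      have hne : ¬ ((j : ℕ) = c + 1) := fun h' => hj (Fin.ext h')
      simp [sh_apply, hne]
    · intro h'
      exact absurd (Finset.mem_univ _) h'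
  · apply Finset.sum_eq_zero
    intro j _
    have hj := j.2
    have hne : ¬ ((j : ℕ) = c + 1) := by omega
    simp [sh_apply, hne]

theorem sh_mul (M : Matrix (Fin (n' + 1)) (Fin (n' + 1)) F) (r c : Fin (n' + 1)) :
    (sh F n' * M) r c =
      if h : 0 < (r : ℕ) then M ⟨r - 1, by have := r.2; omega⟩ c else 0 := by
  rw [Matrix.mul_apply]
  split_ifs with h
  · rw [Finset.sum_eq_single ⟨r - 1, by have := r.2; omega⟩]
    · have e : (r : ℕ) = (r : ℕ) - 1 + 1 := by omega
      simp [sh_apply, ← e]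
    · intro j _ hj
      have hne : ¬ ((r : ℕ) = j + 1) := by
        intro h'
        apply hj
        apply Fin.ext
        simp only
        omega
      simp [sh_apply, hne]
    · intro h'
      exact absurd (Finset.mem_univ _) h'
  · apply Finset.sum_eq_zero
    intro j _
    have hne : ¬ ((r : ℕ) = j + 1) := by omega
    simp [sh_apply, hne]

theorem sh_pow (k : ℕ) : ∀ (r c : Fin (n' + 1)),
    (sh F n' ^ k) r c = if (r : ℕ) = (c : ℕ) + k then 1 else 0 := by
  induction k with
  | zero =>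
    intro r c
    rw [pow_zero, Matrix.one_apply]
    simp [Fin.ext_iff]
  | succ k ih =>
    intro r c
    rw [pow_succ, mul_sh]
    by_cases h : (c : ℕ) + 1 < n' + 1
    · rw [dif_pos h, ih]
      show (if (r : ℕ) = (c : ℕ) + 1 + k then (1 : F) else 0) = _
      by_cases h1 : (r : ℕ) = c + (k + 1)
      · rw [if_pos h1, if_pos (by omega)]
      · rw [if_neg h1, if_neg (by omega)]
    · rw [dif_neg h, if_neg]
      have := r.2
      omega

theorem sh_pow_top : sh F n' ^ (n' + 1) = 0 := by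
  ext r c
  rw [sh_pow, Matrix.zero_apply, if_neg]
  have := r.2
  omega

theorem sh_rank : (sh F n').rank = n' := by
  classical
  have h1 := LinearMap.finrank_range_add_finrank_ker (Matrix.mulVecLin (sh F n'))
  have h3 : Module.finrank F (Fin (n' + 1) → F) = n' + 1 := by simp
  have hker : Module.finrank F (LinearMap.ker (Matrix.mulVecLin (sh F n'))) = 1 := by
    rw [finrank_eq_one_iff']
    have hmem : (Pi.single (Fin.last n') 1 : Fin (n' + 1) → F) ∈
        LinearMap.ker (Matrix.mulVecLin (sh F n')) := by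
      rw [LinearMap.mem_ker, Matrix.mulVecLin_apply, Matrix.mulVec_single_one]
      ext r
      have := r.2
      simp only [Matrix.col_apply, sh_apply, Fin.val_last, Pi.zero_apply]
      rw [if_neg (by omega)]
    refine ⟨⟨_, hmem⟩, ?_, ?_⟩
    · intro h
      have h5 := congrArg (fun v : LinearMap.ker (Matrix.mulVecLin (sh F n')) =>
        (v : Fin (n' + 1) → F) (Fin.last n')) h
      simp at h5
    · rintro ⟨w, hw⟩
      refine ⟨w (Fin.last n'), ?_⟩
      apply Subtype.ext
      funext i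
      show (w (Fin.last n') • (Pi.single (Fin.last n') 1 : Fin (n' + 1) → F)) i = w i
      by_cases hi : i = Fin.last n'
      · subst hi
        simp
      · have hlt : (i : ℕ) + 1 < n' + 1 := by
          have := i.2
          have hne : (i : ℕ) ≠ n' := fun h => hi (Fin.ext h)
          omega
        have h5 := congrFun (LinearMap.mem_ker.mp hw) ⟨i + 1, hlt⟩
        rw [Matrix.mulVecLin_apply, Matrix.mulVec, dotProduct, Finset.sum_eq_single i] at h5
        · simp only [sh_apply, if_true, one_mul, Pi.zero_apply] at h5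
          simp [hi, h5]
        · intro j _ hj
          have hne : ¬ ((i : ℕ) = (j : ℕ)) := by
            intro h'
            apply hj
            apply Fin.ext
            omega
          simp [sh_apply, hne]
        · intro h'
          exact absurd (Finset.mem_univ _) h'
  have h2 : (sh F n').rank = Module.finrank F (LinearMap.range (Matrix.mulVecLin (sh F n'))) :=
    rfl
  omega

theorem comm_sh_struct (z : Matrix (Fin (n' + 1)) (Fin (n' + 1)) F)
    (hz : z * sh F n' = sh F n' * z) :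
    (∀ (r c : ℕ) (hr : r < n' + 1) (hc : c < n' + 1), r < c → z ⟨r, hr⟩ ⟨c, hc⟩ = 0) ∧
    (∀ (r : ℕ) (hr : r < n' + 1), z ⟨r, hr⟩ ⟨r, hr⟩ = z 0 0) := by
  have key0 : ∀ (c : ℕ) (hc : c + 1 < n' + 1), z 0 ⟨c + 1, hc⟩ = 0 := by
    intro c hc
    have h1 := congrFun (congrFun hz 0) ⟨c, by omega⟩
    rw [mul_sh, sh_mul, dif_pos hc, dif_neg (by simp)] at h1
    exact h1
  have key1 : ∀ (r c : ℕ) (hr : r + 1 < n' + 1) (hc : c + 1 < n' + 1),
      z ⟨r + 1, hr⟩ ⟨c + 1, hc⟩ = z ⟨r, by omega⟩ ⟨c, by omega⟩ := by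
    intro r c hr hc
    have h1 := congrFun (congrFun hz ⟨r + 1, hr⟩) ⟨c, by omega⟩
    rw [mul_sh, sh_mul, dif_pos hc, dif_pos (by simp)] at h1
    exact h1
  constructor
  · intro r
    induction r with
    | zero =>
      intro c hr hc hrc
      obtain ⟨c', rfl⟩ : ∃ c', c = c' + 1 := ⟨c - 1, by omega⟩
      exact key0 c' hc
    | succ r ih =>
      intro c hr hc hrc
      obtain ⟨c', rfl⟩ : ∃ c', c = c' + 1 := ⟨c - 1, by omega⟩
      rw [key1 r c' hr hc]
      exact ih c' (by omega) (by omega) (by omega)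
  · intro r
    induction r with
    | zero =>
      intro hr
      rfl
    | succ r ih =>
      intro hr
      rw [key1 r r hr hr]
      exact ih (by omega)

theorem det_comm_sh (z : Matrix (Fin (n' + 1)) (Fin (n' + 1)) F)
    (hz : z * sh F n' = sh F n' * z) : z.det = (z 0 0) ^ (n' + 1) := by
  obtain ⟨h1, h2⟩ := comm_sh_struct z hz
  rw [Matrix.det_of_isLowerTriangular z]
  · have h3 : ∀ i : Fin (n' + 1), z i i = z 0 0 := fun i => h2 i i.2
    rw [Finset.prod_congr rfl (fun i _ => h3 i), Finset.prod_const, Finset.card_univ,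
      Fintype.card_fin]
  · intro i j hij
    exact h1 i j i.2 j.2 hij

theorem det_one_add_sh : (1 + sh F n').det = 1 := by
  rw [Matrix.det_of_isLowerTriangular]
  · apply Finset.prod_eq_one
    intro i _
    rw [Matrix.add_apply, Matrix.one_apply_eq, sh_apply, if_neg (by omega), add_zero]
  · intro i j hij
    have hij' : (i : ℕ) < j := hij
    rw [Matrix.add_apply, Matrix.one_apply_ne (by intro h; rw [h] at hij'; omega), sh_apply,
      if_neg (by omega), add_zero]

theorem exists_conj_sh (U : Matrix (Fin (n' + 1)) (Fin (n' + 1)) F)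
    (hnil : (U - 1) ^ (n' + 1) = 0) (hreg : (U - 1).rank = n') :
    ∃ g : Matrix (Fin (n' + 1)) (Fin (n' + 1)) F, IsUnit g ∧ g * (1 + sh F n') = U * g := by
  classical
  set N : Matrix (Fin (n' + 1)) (Fin (n' + 1)) F := U - 1 with hN
  have hNn' : N ^ n' ≠ 0 := by
    intro h0
    have hker : Module.finrank F (LinearMap.ker (Matrix.mulVecLin N)) ≤ 1 := by
      have h1 := LinearMap.finrank_range_add_finrank_ker (Matrix.mulVecLin N)
      have h2 : Module.finrank F (LinearMap.range (Matrix.mulVecLin N)) = n' := hreg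
      have h3 : Module.finrank F (Fin (n' + 1) → F) = n' + 1 := by simp
      omega
    have h4 := finrank_ker_pow_le (Matrix.mulVecLin N) n'
    rw [← mulVecLin_pow', h0] at h4
    have h5 : LinearMap.ker (Matrix.mulVecLin (0 : Matrix (Fin (n' + 1)) (Fin (n' + 1)) F)) = ⊤ := by
      rw [LinearMap.ker_eq_top]
      ext v
      simp
    rw [h5, finrank_top] at h4
    have h3 : Module.finrank F (Fin (n' + 1) → F) = n' + 1 := by simp
    have h6 : n' * Module.finrank F (LinearMap.ker (Matrix.mulVecLin N)) ≤ n' * 1 :=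
      Nat.mul_le_mul_left _ hker
    omega
  obtain ⟨v, hv⟩ : ∃ v, (N ^ n').mulVec v ≠ 0 := by
    by_contra hcon
    push Not at hcon
    apply hNn'
    ext i j
    have h1 := congrFun (hcon (Pi.single j 1)) i
    rw [Matrix.mulVec_single_one] at h1
    exact h1
  have hli : LinearIndependent F (fun i : Fin (n' + 1) => (N ^ (i : ℕ)).mulVec v) := by
    rw [Fintype.linearIndependent_iff]
    intro d hd
    have h1 : (∑ i, d i • N ^ (i : ℕ)).mulVec v = 0 := by
      rw [Matrix.sum_mulVec]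
      simpa only [Matrix.smul_mulVec] using hd
    have h2 := lemL N hnil v hv d h1
    intro i
    rw [h2]
    rfl
  refine ⟨Matrix.of (fun r c : Fin (n' + 1) => ((N ^ (c : ℕ)).mulVec v) r), ?_, ?_⟩
  · rw [← Matrix.linearIndependent_cols_iff_isUnit]
    exact hli
  · have hgN : Matrix.of (fun r c : Fin (n' + 1) => ((N ^ (c : ℕ)).mulVec v) r) * sh F n' =
        N * Matrix.of (fun r c : Fin (n' + 1) => ((N ^ (c : ℕ)).mulVec v) r) := by
      ext r c
      rw [mul_sh]
      have hNg : (N * Matrix.of (fun r c : Fin (n' + 1) => ((N ^ (c : ℕ)).mulVec v) r)) r c =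
          ((N ^ ((c : ℕ) + 1)).mulVec v) r := by
        rw [pow_succ', ← Matrix.mulVec_mulVec]
        rfl
      rw [hNg]
      split_ifs with h
      · rfl
      · have hc : (c : ℕ) + 1 = n' + 1 := by
          have := c.2
          omega
        rw [hc, hnil, Matrix.zero_mulVec]
        rfl
    rw [mul_add, mul_one, hgN, hN, sub_mul, one_mul]
    abel

end

/-- Regular unipotent classes of SL_n(q): for n ≥ 2 over the field with q elements, the matrices u of determinant one with (u − 1)^n = 0 and rank(u − 1) = n − 1 form a single GL_n(q)-class which splits into exactly gcd(n, q − 1) conjugacy classes of SL_n(q). -/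
theorem result {F : Type*} [Field F] [Fintype F] {q : ℕ} (hF : Fintype.card F = q) {n : ℕ} (hn : 2 ≤ n) : Nat.card {C : ConjClasses (Matrix.SpecialLinearGroup (Fin n) F) // ∃ u : Matrix.SpecialLinearGroup (Fin n) F, ConjClasses.mk u = C ∧ ((u : Matrix (Fin n) (Fin n) F) - 1) ^ n = 0 ∧ ((u : Matrix (Fin n) (Fin n) F) - 1).rank = n - 1} = Nat.gcd n (q - 1) := by
  classical
  obtain ⟨n', rfl⟩ : ∃ n', n = n' + 1 := ⟨n - 1, by omega⟩
  simp only [Nat.add_sub_cancel]
  have hexδ : ∀ c : Fˣ, ∃ g : GL (Fin (n' + 1)) F,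
      (g : Matrix (Fin (n' + 1)) (Fin (n' + 1)) F).det = (c : F) := by
    intro c
    have hdet : (Matrix.diagonal (Function.update (fun _ : Fin (n' + 1) => (1 : F)) 0 (c : F))).det
        = c := by
      rw [Matrix.det_diagonal, Finset.prod_update_of_mem (Finset.mem_univ _)]
      simp
    exact ⟨Matrix.GeneralLinearGroup.mkOfDetNeZero
      (Matrix.diagonal (Function.update (fun _ : Fin (n' + 1) => (1 : F)) 0 (c : F)))
      (by rw [hdet]; exact c.ne_zero), hdet⟩
  choose δ hδ using hexδ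
  have hDDi : ∀ c : Fˣ, ((δ c : GL (Fin (n' + 1)) F) : Matrix (Fin (n' + 1)) (Fin (n' + 1)) F) *
      (((δ c)⁻¹ : GL (Fin (n' + 1)) F) : Matrix (Fin (n' + 1)) (Fin (n' + 1)) F) = 1 := by
    intro c
    rw [← Units.val_mul, mul_inv_cancel, Units.val_one]
  have hDiD : ∀ c : Fˣ, (((δ c)⁻¹ : GL (Fin (n' + 1)) F) : Matrix (Fin (n' + 1)) (Fin (n' + 1)) F) *
      ((δ c : GL (Fin (n' + 1)) F) : Matrix (Fin (n' + 1)) (Fin (n' + 1)) F) = 1 := by
    intro c
    rw [← Units.val_mul, inv_mul_cancel, Units.val_one]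
  have hδi : ∀ c : Fˣ, (((δ c)⁻¹ : GL (Fin (n' + 1)) F) :
      Matrix (Fin (n' + 1)) (Fin (n' + 1)) F).det = (c : F)⁻¹ := by
    intro c
    have h2 := congrArg Matrix.det (hDDi c)
    rw [Matrix.det_mul, hδ, Matrix.det_one] at h2
    exact eq_inv_of_mul_eq_one_right h2
  let cj : Fˣ → Matrix.SpecialLinearGroup (Fin (n' + 1)) F := fun c =>
    ⟨((δ c : GL (Fin (n' + 1)) F) : Matrix (Fin (n' + 1)) (Fin (n' + 1)) F) * (1 + sh F n') *
      (((δ c)⁻¹ : GL (Fin (n' + 1)) F) : Matrix (Fin (n' + 1)) (Fin (n' + 1)) F), by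
      rw [Matrix.det_mul, Matrix.det_mul, det_one_add_sh, mul_one, hδ, hδi,
        mul_inv_cancel₀ c.ne_zero]⟩
  have hcj : ∀ c, (cj c : Matrix (Fin (n' + 1)) (Fin (n' + 1)) F) =
      ((δ c : GL (Fin (n' + 1)) F) : Matrix (Fin (n' + 1)) (Fin (n' + 1)) F) * (1 + sh F n') *
      (((δ c)⁻¹ : GL (Fin (n' + 1)) F) : Matrix (Fin (n' + 1)) (Fin (n' + 1)) F) := fun c => rfl
  have hreg : ∀ c, ((cj c : Matrix (Fin (n' + 1)) (Fin (n' + 1)) F) - 1) ^ (n' + 1) = 0 ∧
      ((cj c : Matrix (Fin (n' + 1)) (Fin (n' + 1)) F) - 1).rank = n' := by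
    intro c
    have h1 : (cj c : Matrix (Fin (n' + 1)) (Fin (n' + 1)) F) - 1 =
        ((δ c : GL (Fin (n' + 1)) F) : Matrix (Fin (n' + 1)) (Fin (n' + 1)) F) * sh F n' *
        (((δ c)⁻¹ : GL (Fin (n' + 1)) F) : Matrix (Fin (n' + 1)) (Fin (n' + 1)) F) := by
      rw [hcj, mul_add, mul_one, add_mul, hDDi]
      abel
    rw [h1]
    constructor
    · rw [Units.conj_pow (δ c) (sh F n') (n' + 1), sh_pow_top, mul_zero, zero_mul]
    · rw [Matrix.rank_mul_eq_left_of_isUnit_det _ _
          (by rw [hδi]; exact isUnit_iff_ne_zero.mpr (inv_ne_zero c.ne_zero)),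
        Matrix.rank_mul_eq_right_of_isUnit_det _ _ (by rw [hδ]; exact c.isUnit), sh_rank]
  have hsurj : ∀ u : Matrix.SpecialLinearGroup (Fin (n' + 1)) F,
      ((u : Matrix (Fin (n' + 1)) (Fin (n' + 1)) F) - 1) ^ (n' + 1) = 0 →
      ((u : Matrix (Fin (n' + 1)) (Fin (n' + 1)) F) - 1).rank = n' → ∃ c : Fˣ, IsConj (cj c) u := by
    intro u hu1 hu2
    obtain ⟨g, hg, hgU⟩ := exists_conj_sh (u : Matrix (Fin (n' + 1)) (Fin (n' + 1)) F) hu1 hu2
    have hgdet : g.det ≠ 0 := ((Matrix.isUnit_iff_isUnit_det g).mp hg).ne_zero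
    have hHdet : (g * (((δ (Units.mk0 g.det hgdet))⁻¹ : GL (Fin (n' + 1)) F) :
        Matrix (Fin (n' + 1)) (Fin (n' + 1)) F)).det = 1 := by
      rw [Matrix.det_mul, hδi, Units.val_mk0, mul_inv_cancel₀ hgdet]
    refine ⟨Units.mk0 g.det hgdet, isConj_iff.mpr
      ⟨(⟨_, hHdet⟩ : Matrix.SpecialLinearGroup (Fin (n' + 1)) F), mul_inv_eq_iff_eq_mul.mpr ?_⟩⟩
    apply Subtype.ext
    show g * (((δ (Units.mk0 g.det hgdet))⁻¹ : GL (Fin (n' + 1)) F) :
          Matrix (Fin (n' + 1)) (Fin (n' + 1)) F) *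
        (((δ (Units.mk0 g.det hgdet) : GL (Fin (n' + 1)) F) :
          Matrix (Fin (n' + 1)) (Fin (n' + 1)) F) * (1 + sh F n') *
        (((δ (Units.mk0 g.det hgdet))⁻¹ : GL (Fin (n' + 1)) F) :
          Matrix (Fin (n' + 1)) (Fin (n' + 1)) F)) =
      (u : Matrix (Fin (n' + 1)) (Fin (n' + 1)) F) *
        (g * (((δ (Units.mk0 g.det hgdet))⁻¹ : GL (Fin (n' + 1)) F) :
          Matrix (Fin (n' + 1)) (Fin (n' + 1)) F))
    generalize Units.mk0 g.det hgdet = c
    calc g * (((δ c)⁻¹ : GL (Fin (n' + 1)) F) : Matrix (Fin (n' + 1)) (Fin (n' + 1)) F) *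
          (((δ c : GL (Fin (n' + 1)) F) : Matrix (Fin (n' + 1)) (Fin (n' + 1)) F) *
            (1 + sh F n') *
          (((δ c)⁻¹ : GL (Fin (n' + 1)) F) : Matrix (Fin (n' + 1)) (Fin (n' + 1)) F))
        = g * ((((δ c)⁻¹ : GL (Fin (n' + 1)) F) : Matrix (Fin (n' + 1)) (Fin (n' + 1)) F) *
          ((δ c : GL (Fin (n' + 1)) F) : Matrix (Fin (n' + 1)) (Fin (n' + 1)) F)) *
            (1 + sh F n') *
          (((δ c)⁻¹ : GL (Fin (n' + 1)) F) : Matrix (Fin (n' + 1)) (Fin (n' + 1)) F) := by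
          simp only [Matrix.mul_assoc]
      _ = g * (1 + sh F n') *
          (((δ c)⁻¹ : GL (Fin (n' + 1)) F) : Matrix (Fin (n' + 1)) (Fin (n' + 1)) F) := by
          rw [hDiD, Matrix.mul_one]
      _ = (u : Matrix (Fin (n' + 1)) (Fin (n' + 1)) F) *
          (g * (((δ c)⁻¹ : GL (Fin (n' + 1)) F) : Matrix (Fin (n' + 1)) (Fin (n' + 1)) F)) := by
          rw [hgU, Matrix.mul_assoc]
  have hfib : ∀ c c' : Fˣ, IsConj (cj c) (cj c') ↔
      c⁻¹ * c' ∈ (powMonoidHom (n' + 1) : Fˣ →* Fˣ).range := by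
    intro c c'
    constructor
    · intro hconj
      obtain ⟨h, hh⟩ := isConj_iff.mp hconj
      have hh' : h * cj c = cj c' * h := mul_inv_eq_iff_eq_mul.mp hh
      have hm : (h : Matrix (Fin (n' + 1)) (Fin (n' + 1)) F) *
          (((δ c : GL (Fin (n' + 1)) F) : Matrix (Fin (n' + 1)) (Fin (n' + 1)) F) *
            (1 + sh F n') *
          (((δ c)⁻¹ : GL (Fin (n' + 1)) F) : Matrix (Fin (n' + 1)) (Fin (n' + 1)) F)) =
          (((δ c' : GL (Fin (n' + 1)) F) : Matrix (Fin (n' + 1)) (Fin (n' + 1)) F) *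
            (1 + sh F n') *
          (((δ c')⁻¹ : GL (Fin (n' + 1)) F) : Matrix (Fin (n' + 1)) (Fin (n' + 1)) F)) *
          (h : Matrix (Fin (n' + 1)) (Fin (n' + 1)) F) := congrArg Subtype.val hh'
      have hzU : ((((δ c')⁻¹ : GL (Fin (n' + 1)) F) : Matrix (Fin (n' + 1)) (Fin (n' + 1)) F) *
            (h : Matrix (Fin (n' + 1)) (Fin (n' + 1)) F) *
            ((δ c : GL (Fin (n' + 1)) F) : Matrix (Fin (n' + 1)) (Fin (n' + 1)) F)) *
            (1 + sh F n') =
          (1 + sh F n') *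
          ((((δ c')⁻¹ : GL (Fin (n' + 1)) F) : Matrix (Fin (n' + 1)) (Fin (n' + 1)) F) *
            (h : Matrix (Fin (n' + 1)) (Fin (n' + 1)) F) *
            ((δ c : GL (Fin (n' + 1)) F) : Matrix (Fin (n' + 1)) (Fin (n' + 1)) F)) := by
        have e1 : ((((δ c')⁻¹ : GL (Fin (n' + 1)) F) : Matrix (Fin (n' + 1)) (Fin (n' + 1)) F) *
            (h : Matrix (Fin (n' + 1)) (Fin (n' + 1)) F) *
            ((δ c : GL (Fin (n' + 1)) F) : Matrix (Fin (n' + 1)) (Fin (n' + 1)) F)) *
            (1 + sh F n') =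
            (((δ c')⁻¹ : GL (Fin (n' + 1)) F) : Matrix (Fin (n' + 1)) (Fin (n' + 1)) F) *
            ((h : Matrix (Fin (n' + 1)) (Fin (n' + 1)) F) *
            (((δ c : GL (Fin (n' + 1)) F) : Matrix (Fin (n' + 1)) (Fin (n' + 1)) F) *
              (1 + sh F n') *
            (((δ c)⁻¹ : GL (Fin (n' + 1)) F) : Matrix (Fin (n' + 1)) (Fin (n' + 1)) F))) *
            ((δ c : GL (Fin (n' + 1)) F) : Matrix (Fin (n' + 1)) (Fin (n' + 1)) F) := by
          simp only [Matrix.mul_assoc]
          rw [hDiD, Matrix.mul_one]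
        rw [e1, hm]
        simp only [← Matrix.mul_assoc]
        rw [hDiD, Matrix.one_mul]
      have hdetz : ((((δ c')⁻¹ : GL (Fin (n' + 1)) F) : Matrix (Fin (n' + 1)) (Fin (n' + 1)) F) *
            (h : Matrix (Fin (n' + 1)) (Fin (n' + 1)) F) *
            ((δ c : GL (Fin (n' + 1)) F) : Matrix (Fin (n' + 1)) (Fin (n' + 1)) F)).det =
          (c' : F)⁻¹ * c := by
        rw [Matrix.det_mul, Matrix.det_mul, hδi, hδ, h.2, mul_one]
      generalize ((((δ c')⁻¹ : GL (Fin (n' + 1)) F) : Matrix (Fin (n' + 1)) (Fin (n' + 1)) F) *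
            (h : Matrix (Fin (n' + 1)) (Fin (n' + 1)) F) *
            ((δ c : GL (Fin (n' + 1)) F) : Matrix (Fin (n' + 1)) (Fin (n' + 1)) F)) = z
        at hzU hdetz
      have hzsh : z * sh F n' = sh F n' * z := by
        rw [mul_add, add_mul, mul_one, one_mul] at hzU
        exact add_left_cancel hzU
      have hz00 := det_comm_sh z hzsh
      have ha : z 0 0 ≠ 0 := by
        intro h0
        rw [h0, zero_pow (by omega), hdetz] at hz00
        exact (mul_ne_zero (inv_ne_zero c'.ne_zero) c.ne_zero) hz00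
      refine ⟨(Units.mk0 (z 0 0) ha)⁻¹, ?_⟩
      apply Units.ext
      rw [powMonoidHom_apply, Units.val_pow_eq_pow_val, Units.val_inv_eq_inv_val, Units.val_mk0,
        Units.val_mul, Units.val_inv_eq_inv_val, inv_pow, ← hz00, hdetz, mul_inv, inv_inv,
        mul_comm]
    · rintro ⟨a, ha⟩
      have ha' : (a : F) ^ (n' + 1) = (c : F)⁻¹ * c' := by
        have h1 := congrArg Units.val ha
        simpa [powMonoidHom_apply] using h1
      have hHdet : ((a : F)⁻¹ • (((δ c' : GL (Fin (n' + 1)) F) :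
            Matrix (Fin (n' + 1)) (Fin (n' + 1)) F) *
          (((δ c)⁻¹ : GL (Fin (n' + 1)) F) : Matrix (Fin (n' + 1)) (Fin (n' + 1)) F))).det = 1 := by
        rw [Matrix.det_smul, Matrix.det_mul, hδ, hδi, Fintype.card_fin, inv_pow, ha']
        have hc0 := c.ne_zero
        have hc0' := c'.ne_zero
        field_simp
      refine isConj_iff.mpr ⟨(⟨_, hHdet⟩ : Matrix.SpecialLinearGroup (Fin (n' + 1)) F),
        mul_inv_eq_iff_eq_mul.mpr ?_⟩
      apply Subtype.ext
      show (a : F)⁻¹ • (((δ c' : GL (Fin (n' + 1)) F) :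
            Matrix (Fin (n' + 1)) (Fin (n' + 1)) F) *
          (((δ c)⁻¹ : GL (Fin (n' + 1)) F) : Matrix (Fin (n' + 1)) (Fin (n' + 1)) F)) *
          (((δ c : GL (Fin (n' + 1)) F) : Matrix (Fin (n' + 1)) (Fin (n' + 1)) F) *
            (1 + sh F n') *
          (((δ c)⁻¹ : GL (Fin (n' + 1)) F) : Matrix (Fin (n' + 1)) (Fin (n' + 1)) F)) =
        (((δ c' : GL (Fin (n' + 1)) F) : Matrix (Fin (n' + 1)) (Fin (n' + 1)) F) *
            (1 + sh F n') *
          (((δ c')⁻¹ : GL (Fin (n' + 1)) F) : Matrix (Fin (n' + 1)) (Fin (n' + 1)) F)) *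
        ((a : F)⁻¹ • (((δ c' : GL (Fin (n' + 1)) F) :
            Matrix (Fin (n' + 1)) (Fin (n' + 1)) F) *
          (((δ c)⁻¹ : GL (Fin (n' + 1)) F) : Matrix (Fin (n' + 1)) (Fin (n' + 1)) F)))
      rw [Matrix.smul_mul, Matrix.mul_smul]
      congr 1
      simp only [Matrix.mul_assoc]
      rw [← Matrix.mul_assoc (((δ c)⁻¹ : GL (Fin (n' + 1)) F) :
          Matrix (Fin (n' + 1)) (Fin (n' + 1)) F), hDiD, Matrix.one_mul,
        ← Matrix.mul_assoc (((δ c')⁻¹ : GL (Fin (n' + 1)) F) :
          Matrix (Fin (n' + 1)) (Fin (n' + 1)) F), hDiD, Matrix.one_mul]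
  let Ψ : Fˣ ⧸ (powMonoidHom (n' + 1) : Fˣ →* Fˣ).range →
      {C : ConjClasses (Matrix.SpecialLinearGroup (Fin (n' + 1)) F) //
        ∃ u : Matrix.SpecialLinearGroup (Fin (n' + 1)) F, ConjClasses.mk u = C ∧
          ((u : Matrix (Fin (n' + 1)) (Fin (n' + 1)) F) - 1) ^ (n' + 1) = 0 ∧
          ((u : Matrix (Fin (n' + 1)) (Fin (n' + 1)) F) - 1).rank = n'} :=
    fun x => Quotient.liftOn' x
      (fun c => ⟨ConjClasses.mk (cj c), cj c, rfl, (hreg c).1, (hreg c).2⟩) (by
        intro c c' hcc'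
        apply Subtype.ext
        show ConjClasses.mk (cj c) = ConjClasses.mk (cj c')
        rw [ConjClasses.mk_eq_mk_iff_isConj]
        exact (hfib c c').mpr (QuotientGroup.leftRel_apply.mp hcc'))
  have hΨ : Function.Bijective Ψ := by
    constructor
    · intro x y
      refine Quotient.inductionOn₂' x y ?_
      intro c c' h
      have h1 : ConjClasses.mk (cj c) = ConjClasses.mk (cj c') := congrArg Subtype.val h
      rw [ConjClasses.mk_eq_mk_iff_isConj] at h1
      exact Quotient.sound' (QuotientGroup.leftRel_apply.mpr ((hfib c c').mp h1))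
    · rintro ⟨C, u, hu, hu1, hu2⟩
      obtain ⟨c, hc⟩ := hsurj u hu1 hu2
      refine ⟨(QuotientGroup.mk c : Fˣ ⧸ (powMonoidHom (n' + 1) : Fˣ →* Fˣ).range), ?_⟩
      apply Subtype.ext
      show ConjClasses.mk (cj c) = C
      rw [← hu, ConjClasses.mk_eq_mk_iff_isConj]
      exact hc
  rw [← Nat.card_eq_of_bijective Ψ hΨ]
  have h1 : Nat.card (Fˣ ⧸ (powMonoidHom (n' + 1) : Fˣ →* Fˣ).range) =
      ((powMonoidHom (n' + 1) : Fˣ →* Fˣ).range).index := rfl
  rw [h1, IsCyclic.index_powMonoidHom_range, Nat.card_units, Nat.card_eq_fintype_card, hF,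
    Nat.gcd_comm]

end Cfsg.Agent.S2578
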