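import Cfsg.Statements.S2579
import Mathlib

set_option autoImplicit false
open Cfsg

namespace Cfsg.Agent.S2579

theorem exists_equiv_pair {F V : Type*} [Field F] [AddCommGroup V] [Module F V]
    [FiniteDimensional F V] {u v u' v' : V} (h : LinearIndependent F ![u, v])
    (h' : LinearIndependent F ![u', v']) :
    ∃ g : V ≃ₗ[F] V, g u = u' ∧ g v = v' := by
  have q0 : ∀ {u v : V} (h : LinearIndependent F ![u, v]),
      (h.linearCombinationEquiv (Finsupp.single 0 1) : V) = u := by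
    intro u v h
    simp
  have q1 : ∀ {u v : V} (h : LinearIndependent F ![u, v]),
      (h.linearCombinationEquiv (Finsupp.single 1 1) : V) = v := by
    intro u v h
    simp
  let f := h.linearCombinationEquiv.symm ≪≫ₗ h'.linearCombinationEquiv
  obtain ⟨g, hg⟩ := Submodule.exists_linearEquiv_restrict_eq f
  refine ⟨g, ?_, ?_⟩
  · have h1 := hg (h.linearCombinationEquiv (Finsupp.single 0 1))
    simp only [f, LinearEquiv.trans_apply, LinearEquiv.symm_apply_apply] at h1
    rw [q0 h, q0 h'] at h1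
    exact h1.symm
  · have h1 := hg (h.linearCombinationEquiv (Finsupp.single 1 1))
    simp only [f, LinearEquiv.trans_apply, LinearEquiv.symm_apply_apply] at h1
    rw [q1 h, q1 h'] at h1
    exact h1.symm

open Matrix in
theorem std_form {F : Type*} [Field F] (k : ℕ) (N : Matrix (Fin (k + 2)) (Fin (k + 2)) F)
    (hr : N.rank = 1) (hN : N * N = 0) :
    ∃ G G' : Matrix (Fin (k + 2)) (Fin (k + 2)) F, G * G' = 1 ∧ G' * G = 1 ∧
      N * G = G * Matrix.single 0 1 1 := by
  classical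
  have hr' : Module.finrank F (LinearMap.range N.mulVecLin) = 1 := hr
  obtain ⟨⟨a, ha⟩, hane, hall⟩ := finrank_eq_one_iff'.mp hr'
  obtain ⟨x, hx⟩ := ha
  have hx' : N *ᵥ x = a := hx
  have ha0 : a ≠ 0 := fun h => hane (Subtype.ext h)
  have hNa : N *ᵥ a = 0 := by
    rw [← hx', Matrix.mulVec_mulVec, hN, Matrix.zero_mulVec]
  obtain ⟨i₀, hi₀⟩ := Function.ne_iff.mp ha0
  have hi₀' : a i₀ ≠ 0 := hi₀
  let φ : (Fin (k + 2) → F) →ₗ[F] F := (a i₀)⁻¹ • (LinearMap.proj i₀ ∘ₗ N.mulVecLin)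
  have hφ : ∀ v, φ v = (a i₀)⁻¹ * (N *ᵥ v) i₀ := fun v => rfl
  have hNv : ∀ v, N *ᵥ v = φ v • a := by
    intro v
    obtain ⟨c, hc⟩ := hall ⟨N *ᵥ v, ⟨v, rfl⟩⟩
    have hc' : c • a = N *ᵥ v := congrArg Subtype.val hc
    rw [hφ, ← hc']
    congr 1
    rw [Pi.smul_apply, smul_eq_mul]
    field_simp
  have hφx : φ x = 1 := by
    rw [hφ, hx']
    exact inv_mul_cancel₀ hi₀'
  have hφa : φ a = 0 := by
    rw [hφ, hNa]
    simp
  have hli : LinearIndependent F ![a, x] := by
    rw [LinearIndependent.pair_iff]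
    intro s t hst
    have h1 := congrArg φ hst
    rw [map_add, map_smul, map_smul, hφa, hφx, map_zero] at h1
    have ht : t = 0 := by simpa using h1
    rw [ht, zero_smul, add_zero] at hst
    exact ⟨(smul_eq_zero.mp hst).resolve_right ha0, ht⟩
  have hli0 : LinearIndependent F ![(Pi.single 0 1 : Fin (k + 2) → F), Pi.single 1 1] := by
    rw [LinearIndependent.pair_iff]
    intro s t hst
    have h0 := congrFun hst 0
    have h1 := congrFun hst 1
    simp at h0 h1
    exact ⟨h0, h1⟩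
  obtain ⟨g₁, hg0, hg1⟩ := exists_equiv_pair hli0 hli
  let ψ : Module.Dual F (Fin (k + 2) → F) := (LinearMap.proj 1) ∘ₗ g₁.symm.toLinearMap - φ
  have hψx : ψ x = 0 := by
    show (g₁.symm x) 1 - φ x = 0
    rw [← hg1, LinearEquiv.symm_apply_apply, hg1, hφx]
    simp
  let g := g₁ ≪≫ₗ LinearEquiv.transvection hψx
  have hg : ∀ v, g v = g₁ v + (v 1 - φ (g₁ v)) • x := by
    intro v
    show LinearEquiv.transvection hψx (g₁ v) = _
    rw [LinearEquiv.transvection.apply]
    show g₁ v + ((g₁.symm (g₁ v)) 1 - φ (g₁ v)) • x = _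
    rw [LinearEquiv.symm_apply_apply]
  have hφg : ∀ v, φ (g v) = v 1 := by
    intro v
    rw [hg, map_add, map_smul, hφx]
    simp
  have hge0 : g (Pi.single 0 1) = a := by
    rw [hg, hg0, hφa]
    simp
  refine ⟨LinearMap.toMatrix' (g : (Fin (k + 2) → F) →ₗ[F] (Fin (k + 2) → F)),
    LinearMap.toMatrix' (g.symm : (Fin (k + 2) → F) →ₗ[F] (Fin (k + 2) → F)), ?_, ?_, ?_⟩
  · rw [← LinearMap.toMatrix'_comp]
    simp
  · rw [← LinearMap.toMatrix'_comp]
    simp
  · apply Matrix.toLin'.injective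
    apply LinearMap.ext
    intro v
    rw [Matrix.toLin'_mul, Matrix.toLin'_mul, Matrix.toLin'_toMatrix']
    simp only [LinearMap.comp_apply, Matrix.toLin'_apply, LinearEquiv.coe_coe]
    rw [hNv, hφg, Matrix.single_mulVec_eq, one_mul, map_smul, hge0]

/-- In SL_n(F) with n ≥ 3, over a finite field F, any two transvections (matrices t with t − 1 of rank one and square zero) are conjugate by an element of SL_n(F). -/
theorem result {F : Type*} [Field F] [Finite F] {n : ℕ} (hn : 3 ≤ n) (s t : Matrix.SpecialLinearGroup (Fin n) F) (hs : Cfsg.IsTransvection (s : Matrix (Fin n) (Fin n) F)) (ht : Cfsg.IsTransvection (t : Matrix (Fin n) (Fin n) F)) : IsConj s t := by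
  classical
  obtain ⟨k, rfl⟩ : ∃ k, n = k + 3 := ⟨n - 3, by omega⟩
  obtain ⟨Gs, Gs', hs1, hs2, hs3⟩ :=
    std_form (k + 1) ((s : Matrix (Fin (k + 3)) (Fin (k + 3)) F) - 1) hs.1 hs.2
  obtain ⟨Gt, Gt', ht1, ht2, ht3⟩ :=
    std_form (k + 1) ((t : Matrix (Fin (k + 3)) (Fin (k + 3)) F) - 1) ht.1 ht.2
  have hdetGs : Gs.det * Gs'.det = 1 := by rw [← Matrix.det_mul, hs1, Matrix.det_one]
  have hdetGt : Gt.det * Gt'.det = 1 := by rw [← Matrix.det_mul, ht1, Matrix.det_one]
  let D : Matrix (Fin (k + 3)) (Fin (k + 3)) F :=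
    Matrix.diagonal (Function.update (fun _ => (1 : F)) 2 (Gs.det * Gt'.det))
  have hDdet : D.det = Gs.det * Gt'.det := by
    rw [Matrix.det_diagonal, Finset.prod_update_of_mem (Finset.mem_univ _)]
    simp
  have hDE : D * (Matrix.single 0 1 1 : Matrix (Fin (k + 3)) (Fin (k + 3)) F) =
      Matrix.single 0 1 1 * D := by
    ext i j
    rw [Matrix.diagonal_mul, Matrix.mul_diagonal]
    by_cases h : (0 : Fin (k + 3)) = i ∧ (1 : Fin (k + 3)) = j
    · obtain ⟨rfl, rfl⟩ := h
      have h02 : (0 : Fin (k + 3)) ≠ 2 := by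
        intro h
        have h' := congrArg Fin.val h
        rw [Fin.val_zero, Fin.val_two] at h'
        omega
      have h12 : (1 : Fin (k + 3)) ≠ 2 := by
        intro h
        have h' := congrArg Fin.val h
        rw [Fin.val_one, Fin.val_two] at h'
        omega
      rw [Function.update_of_ne h02, Function.update_of_ne h12, one_mul, mul_one]
    · rw [Matrix.single_apply_of_ne _ _ _ _ _ h]
      simp
  have hHdet : (Gt * D * Gs').det = 1 := by
    rw [Matrix.det_mul, Matrix.det_mul, hDdet]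
    calc Gt.det * (Gs.det * Gt'.det) * Gs'.det = (Gt.det * Gt'.det) * (Gs.det * Gs'.det) := by
          ring
      _ = 1 := by rw [hdetGt, hdetGs, one_mul]
  refine isConj_iff.mpr ⟨(⟨Gt * D * Gs', hHdet⟩ :
    Matrix.SpecialLinearGroup (Fin (k + 3)) F), mul_inv_eq_iff_eq_mul.mpr ?_⟩
  apply Subtype.ext
  show Gt * D * Gs' * (s : Matrix (Fin (k + 3)) (Fin (k + 3)) F) =
    (t : Matrix (Fin (k + 3)) (Fin (k + 3)) F) * (Gt * D * Gs')
  have h1 : Gs' * ((s : Matrix (Fin (k + 3)) (Fin (k + 3)) F) - 1) =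
      Matrix.single 0 1 1 * Gs' := by
    calc Gs' * ((s : Matrix (Fin (k + 3)) (Fin (k + 3)) F) - 1)
        = Gs' * (((s : Matrix (Fin (k + 3)) (Fin (k + 3)) F) - 1) * Gs) * Gs' := by
          rw [Matrix.mul_assoc, Matrix.mul_assoc, hs1, Matrix.mul_one]
      _ = Gs' * (Gs * Matrix.single 0 1 1) * Gs' := by rw [hs3]
      _ = Matrix.single 0 1 1 * Gs' := by rw [← Matrix.mul_assoc, hs2, Matrix.one_mul]
  have h2 : Gt * D * Gs' * ((s : Matrix (Fin (k + 3)) (Fin (k + 3)) F) - 1) =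
      ((t : Matrix (Fin (k + 3)) (Fin (k + 3)) F) - 1) * (Gt * D * Gs') := by
    calc Gt * D * Gs' * ((s : Matrix (Fin (k + 3)) (Fin (k + 3)) F) - 1)
        = Gt * D * (Gs' * ((s : Matrix (Fin (k + 3)) (Fin (k + 3)) F) - 1)) := by
          rw [Matrix.mul_assoc]
      _ = Gt * (D * Matrix.single 0 1 1) * Gs' := by
          rw [h1]
          simp only [Matrix.mul_assoc]
      _ = (Gt * Matrix.single 0 1 1) * D * Gs' := by
          rw [hDE]
          simp only [Matrix.mul_assoc]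
      _ = ((t : Matrix (Fin (k + 3)) (Fin (k + 3)) F) - 1) * (Gt * D * Gs') := by
          rw [← ht3]
          simp only [Matrix.mul_assoc]
  calc Gt * D * Gs' * (s : Matrix (Fin (k + 3)) (Fin (k + 3)) F)
      = Gt * D * Gs' * ((s : Matrix (Fin (k + 3)) (Fin (k + 3)) F) - 1) + Gt * D * Gs' := by
        rw [mul_sub, mul_one]
        abel
    _ = ((t : Matrix (Fin (k + 3)) (Fin (k + 3)) F) - 1) * (Gt * D * Gs') + Gt * D * Gs' := by
        rw [h2]
    _ = (t : Matrix (Fin (k + 3)) (Fin (k + 3)) F) * (Gt * D * Gs') := by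
        rw [sub_mul, one_mul]
        abel

end Cfsg.Agent.S2579
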