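import Cfsg.Statements.S2580
import Mathlib

set_option autoImplicit false
open Cfsg

namespace Cfsg.Agent.S2580


open Polynomial in
theorem cyc {F : Type*} [Field F] (f : F[X]) (hf : f ≠ 0) :
    ∃ β : (F[X] ⧸ Submodule.span F[X] {f}) → (F[X] ⧸ Submodule.span F[X] {f}) → F,
      (∀ a a' b, β (a + a') b = β a b + β a' b) ∧
      (∀ a b b', β a (b + b') = β a b + β a b') ∧
      (∀ (c : F) a b, β (C c • a) b = c * β a b) ∧
      (∀ (c : F) a b, β a (C c • b) = c * β a b) ∧
      (∀ a b, β ((X : F[X]) • a) b = β a ((X : F[X]) • b)) ∧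
      (∀ a, (∀ b, β a b = 0) → a = 0) := by
  classical
  set f' : F[X] := f * C (leadingCoeff f)⁻¹ with hf'
  have hmonic : f'.Monic := monic_mul_leadingCoeff_inv hf
  have hdvd : ∀ y : F[X], f ∣ y ↔ f' ∣ y := by
    intro y
    have hlc : leadingCoeff f ≠ 0 := leadingCoeff_ne_zero.mpr hf
    constructor
    · rintro ⟨q, rfl⟩
      refine ⟨C (leadingCoeff f) * q, ?_⟩
      rw [hf', mul_assoc, ← mul_assoc (C _), ← C_mul, inv_mul_cancel₀ hlc, C_1, one_mul]
    · rintro ⟨q, rfl⟩
      exact ⟨C (leadingCoeff f)⁻¹ * q, by rw [hf', mul_assoc]⟩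
  set d := f'.natDegree with hd
  let ℓ : F[X] →ₗ[F] F := (lcoeff F (d - 1)).comp (modByMonicHom f')
  have hℓ : ∀ g, ℓ g = (g %ₘ f').coeff (d - 1) := fun g => rfl
  let mk : F[X] → (F[X] ⧸ Submodule.span F[X] {f}) := Submodule.Quotient.mk
  have hmk : ∀ g g', mk g = mk g' ↔ f ∣ g - g' := by
    intro g g'
    show (Submodule.Quotient.mk g : F[X] ⧸ Submodule.span F[X] {f}) = Submodule.Quotient.mk g' ↔ _
    rw [Submodule.Quotient.eq, Submodule.mem_span_singleton]
    constructor
    · rintro ⟨a, ha⟩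
      exact ⟨a, by rw [← ha, smul_eq_mul, mul_comm]⟩
    · rintro ⟨a, ha⟩
      exact ⟨a, by rw [ha, smul_eq_mul, mul_comm]⟩
  have hℓeq : ∀ g g', mk g = mk g' → ℓ g = ℓ g' := by
    intro g g' h
    rw [hℓ, hℓ, modByMonic_eq_of_dvd_sub hmonic ((hdvd _).mp ((hmk g g').mp h))]
  have hs : ∀ a, ∃ g, mk g = a := Submodule.Quotient.mk_surjective _
  choose rep hrep using hs
  have hs : ∀ a, ∃ g, mk g = a := Submodule.Quotient.mk_surjective _
  have hmul : ∀ g g' h h', mk g = mk g' → mk h = mk h' → mk (g * h) = mk (g' * h') := by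
    intro g g' h h' h1 h2
    rw [hmk] at *
    have e : g * h - g' * h' = (g - g') * h + g' * (h - h') := by ring
    rw [e]
    exact dvd_add (dvd_mul_of_dvd_left h1 _) (dvd_mul_of_dvd_right h2 _)
  let β : (F[X] ⧸ Submodule.span F[X] {f}) → (F[X] ⧸ Submodule.span F[X] {f}) → F :=
    fun a b => ℓ (rep a * rep b)
  have hβ : ∀ g h, β (mk g) (mk h) = ℓ (g * h) := by
    intro g h
    exact hℓeq _ _ (hmul _ _ _ _ (hrep _) (hrep _))
  have hsmul : ∀ (q g : F[X]), q • mk g = mk (q * g) := fun q g => rfl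
  have hadd : ∀ g g', mk g + mk g' = mk (g + g') := fun g g' => rfl
  refine ⟨β, ?_, ?_, ?_, ?_, ?_, ?_⟩
  · intro a a' b
    obtain ⟨g, rfl⟩ := hs a
    obtain ⟨g', rfl⟩ := hs a'
    obtain ⟨h, rfl⟩ := hs b
    rw [hadd, hβ, hβ, hβ, add_mul, map_add]
  · intro a b b'
    obtain ⟨g, rfl⟩ := hs a
    obtain ⟨h, rfl⟩ := hs b
    obtain ⟨h', rfl⟩ := hs b'
    rw [hadd, hβ, hβ, hβ, mul_add, map_add]
  · intro c a b
    obtain ⟨g, rfl⟩ := hs a
    obtain ⟨h, rfl⟩ := hs b
    rw [hsmul, hβ, hβ, mul_assoc, ← smul_eq_C_mul, map_smul, smul_eq_mul]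
  · intro c a b
    obtain ⟨g, rfl⟩ := hs a
    obtain ⟨h, rfl⟩ := hs b
    rw [hsmul, hβ, hβ]
    have e : g * (C c * h) = C c * (g * h) := by ring
    rw [e, ← smul_eq_C_mul, map_smul, smul_eq_mul]
  · intro a b
    obtain ⟨g, rfl⟩ := hs a
    obtain ⟨h, rfl⟩ := hs b
    rw [hsmul, hsmul, hβ, hβ]
    congr 1
    ring
  · intro a ha
    obtain ⟨g, rfl⟩ := hs a
    by_contra hne
    have hr0 : g %ₘ f' ≠ 0 := by
      intro h0
      apply hne
      have h1 : f ∣ g - 0 := by
        rw [sub_zero, hdvd]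
        exact (modByMonic_eq_zero_iff_dvd hmonic).mp h0
      exact (hmk g 0).mpr h1
    have hgr : mk g = mk (g %ₘ f') := by
      rw [hmk, hdvd]
      refine ⟨g /ₘ f', ?_⟩
      have := modByMonic_add_div g (q := f')
      linear_combination -this
    have hdeg : (g %ₘ f').degree < f'.degree := degree_modByMonic_lt g hmonic
    have hk : (g %ₘ f').natDegree < d := natDegree_lt_natDegree hr0 hdeg
    have h1 := ha (mk (X ^ (d - 1 - (g %ₘ f').natDegree)))
    rw [hgr, hβ, hℓ] at h1
    have h2 : ((g %ₘ f') * X ^ (d - 1 - (g %ₘ f').natDegree)) %ₘ f' =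
        (g %ₘ f') * X ^ (d - 1 - (g %ₘ f').natDegree) := by
      rw [modByMonic_eq_self_iff hmonic]
      apply degree_lt_degree
      rw [natDegree_mul_X_pow _ hr0]
      omega
    rw [h2] at h1
    have h3 : d - 1 = (g %ₘ f').natDegree + (d - 1 - (g %ₘ f').natDegree) := by omega
    have h4 := coeff_mul_X_pow (g %ₘ f') (d - 1 - (g %ₘ f').natDegree) (g %ₘ f').natDegree
    rw [← h3] at h4
    rw [h4] at h1
    exact hr0 (leadingCoeff_eq_zero.mp h1)

open Polynomial in
theorem exists_form {F : Type*} [Field F] {V : Type*} [AddCommGroup V] [Module F V]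
    [FiniteDimensional F V] (T : V →ₗ[F] V) :
    ∃ B : LinearMap.BilinForm F V, (∀ u v, B (T u) v = B u (T v)) ∧
      (∀ u, (∀ v, B u v = 0) → u = 0) := by
  classical
  have htors : Module.IsTorsion F[X] (Module.AEval' T) :=
    Module.AEval.isTorsion_of_finiteDimensional F V T
  obtain ⟨ι, _, p, hp, e, ⟨φ⟩⟩ := Module.equiv_directSum_of_isTorsion htors
  have hne : ∀ i, p i ^ e i ≠ 0 := fun i => pow_ne_zero _ (hp i).ne_zero
  choose β hβ1 hβ2 hβ3 hβ4 hβ5 hβ6 using fun i => cyc (p i ^ e i) (hne i)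
  let Y : V → ∀ i, F[X] ⧸ Submodule.span F[X] {p i ^ e i} := fun u i =>
    DirectSum.component F[X] ι (fun i => F[X] ⧸ Submodule.span F[X] {p i ^ e i}) i
      (φ (Module.AEval'.of T u))
  have hYadd : ∀ u u' i, Y (u + u') i = Y u i + Y u' i := by
    intro u u' i
    simp only [Y, map_add]
  have hYsmul : ∀ (c : F) u i, Y (c • u) i = C c • Y u i := by
    intro c u i
    simp only [Y]
    rw [map_smul (Module.AEval'.of T) c u, ← Module.AEval.C_smul, map_smul φ, map_smul]
  have hYT : ∀ u i, Y (T u) i = (X : F[X]) • Y u i := by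
    intro u i
    simp only [Y]
    rw [← Module.AEval'.X_smul_of, map_smul φ, map_smul]
  have hYzero : ∀ u, (∀ i, Y u i = 0) → u = 0 := by
    intro u h
    have h1 : φ (Module.AEval'.of T u) = 0 := by
      apply DirectSum.ext_component F[X]
      intro i
      rw [map_zero]
      exact h i
    have h2 := φ.map_eq_zero_iff.mp h1
    exact (Module.AEval'.of T).map_eq_zero_iff.mp h2
  have hYsurj : ∀ i (b : F[X] ⧸ Submodule.span F[X] {p i ^ e i}),
      ∃ v, Y v i = b ∧ ∀ j, j ≠ i → Y v j = 0 := by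
    intro i b
    refine ⟨(Module.AEval'.of T).symm (φ.symm (DirectSum.lof F[X] ι
      (fun i => F[X] ⧸ Submodule.span F[X] {p i ^ e i}) i b)), ?_, ?_⟩
    · simp only [Y, LinearEquiv.apply_symm_apply]
      exact DirectSum.component.lof_self (R := F[X])
        (M := fun i => F[X] ⧸ Submodule.span F[X] {p i ^ e i}) i b
    · intro j hj
      simp only [Y, LinearEquiv.apply_symm_apply]
      rw [DirectSum.component.of (R := F[X])
        (M := fun i => F[X] ⧸ Submodule.span F[X] {p i ^ e i}), dif_neg (Ne.symm hj)]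
  have hβ0 : ∀ i a, β i a 0 = 0 := by
    intro i a
    have := hβ2 i a 0 0
    rw [add_zero] at this
    linear_combination -this
  let B : LinearMap.BilinForm F V := LinearMap.mk₂ F (fun u v => ∑ i, β i (Y u i) (Y v i))
    (by intro u u' v; simp only [hYadd, hβ1, Finset.sum_add_distrib])
    (by intro c u v; simp only [hYsmul, hβ3, smul_eq_mul, Finset.mul_sum])
    (by intro u v v'; simp only [hYadd, hβ2, Finset.sum_add_distrib])
    (by intro c u v; simp only [hYsmul, hβ4, smul_eq_mul, Finset.mul_sum])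
  have hB : ∀ u v, B u v = ∑ i, β i (Y u i) (Y v i) := fun u v => rfl
  refine ⟨B, ?_, ?_⟩
  · intro u v
    rw [hB, hB]
    apply Finset.sum_congr rfl
    intro i _
    rw [hYT, hYT, hβ5]
  · intro u hu
    apply hYzero
    intro i
    apply hβ6 i
    intro b
    obtain ⟨v, hv1, hv2⟩ := hYsurj i b
    have h1 := hu v
    rw [hB, Finset.sum_eq_single i] at h1
    · rw [hv1] at h1
      exact h1
    · intro j _ hj
      rw [hv2 j hj, hβ0]
    · intro h
      exact absurd (Finset.mem_univ i) h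

/-- Over a finite field, a square matrix is similar to its transpose: for every n × n matrix A there is an invertible matrix P with P A P⁻¹ = Aᵀ (stated as conjugacy in the monoid of matrices, whose units are the invertible matrices). -/
theorem result {F : Type*} [Field F] [Finite F] {n : ℕ} (A : Matrix (Fin n) (Fin n) F) : IsConj A A.transpose := by
  classical
  obtain ⟨B, hBT, hBnd⟩ := exists_form (Matrix.toLin' A)
  have h1 : A.transpose * LinearMap.BilinForm.toMatrix' B = LinearMap.BilinForm.toMatrix' B * A := by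
    have e1 := LinearMap.BilinForm.toMatrix'_compLeft B (Matrix.toLin' A)
    have e2 := LinearMap.BilinForm.toMatrix'_compRight B (Matrix.toLin' A)
    rw [LinearMap.toMatrix'_toLin'] at e1 e2
    rw [← e1, ← e2]
    congr 1
    ext u v
    exact hBT _ _
  have hunit : IsUnit (LinearMap.BilinForm.toMatrix' B) := by
    rw [← Matrix.vecMul_injective_iff_isUnit]
    intro u u' huu
    have h2 : ∀ w, B (u - u') w = 0 := by
      intro w
      have hB' : B = Matrix.toBilin' (LinearMap.BilinForm.toMatrix' B) :=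
        (Matrix.toBilin'_toMatrix' B).symm
      rw [hB', Matrix.toBilin'_apply', Matrix.dotProduct_mulVec, Matrix.sub_vecMul]
      have huu' : Matrix.vecMul u (LinearMap.BilinForm.toMatrix' B) =
          Matrix.vecMul u' (LinearMap.BilinForm.toMatrix' B) := huu
      rw [huu', sub_self, zero_dotProduct]
    exact sub_eq_zero.mp (hBnd _ h2)
  obtain ⟨c, hc⟩ := hunit
  refine ⟨c, ?_⟩
  show (c : Matrix (Fin n) (Fin n) F) * A = A.transpose * c
  rw [hc, h1]

end Cfsg.Agent.S2580
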