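import Cfsg.Statements.S2581
import Cfsg.Agent.Lib.Helper15.JordanE
import Cfsg.Agent.Lib.Helper15.CentC

open Cfsg.Agent.Lib.Helper15

set_option autoImplicit false
open Cfsg

namespace Cfsg.Agent.S2581

/-- Order of the centraliser in GL of a unipotent matrix of given Jordan type over the field with q elements: if the type has a_i blocks of size i (all block sizes at least 1), the invertible matrices commuting with it number q^γ · Π_i |GL_(a_i)(q)| with γ = 2 Σ_(i<j) i a_i a_j + Σ_i (i − 1) a_i² (a group of order q^γ extended by Π GL_(a_i)(q)). -/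
theorem result {F : Type*} [Field F] [Fintype F] {q : ℕ} (hF : Fintype.card F = q) {t : ℕ} (d : Fin t → ℕ) (hd : ∀ k, 1 ≤ d k) : Nat.card {g : GL ((k : Fin t) × Fin (d k)) F // (g : Matrix ((k : Fin t) × Fin (d k)) ((k : Fin t) × Fin (d k)) F) * Cfsg.jordanTypeMatrix d F = Cfsg.jordanTypeMatrix d F * (g : Matrix ((k : Fin t) × Fin (d k)) ((k : Fin t) × Fin (d k)) F)} = q ^ (2 * (∑ i ∈ Finset.range (Finset.univ.sup d + 1), ∑ j ∈ Finset.range (Finset.univ.sup d + 1), if i < j then i * (Finset.univ.filter (fun k : Fin t => d k = i)).card * (Finset.univ.filter (fun k : Fin t => d k = j)).card else 0) + ∑ i ∈ Finset.range (Finset.univ.sup d + 1), (i - 1) * (Finset.univ.filter (fun k : Fin t => d k = i)).card ^ 2) * ∏ i ∈ Finset.range (Finset.univ.sup d + 1), ∏ j : Fin ((Finset.univ.filter (fun k : Fin t => d k = i)).card), (q ^ (Finset.univ.filter (fun k : Fin t => d k = i)).card - q ^ (j : ℕ)) := by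
  subst hF
  set J := Cfsg.jordanTypeMatrix d F with hJ
  let N : (((k : Fin t) × Fin (d k)) → F) →ₗ[F] (((k : Fin t) × Fin (d k)) → F) :=
    Matrix.toLin' (J - 1)
  have hNx : ∀ x, N x = (J - 1).mulVec x := fun x => rfl
  have h1 : Nat.card {g : GL ((k : Fin t) × Fin (d k)) F //
      (g : Matrix ((k : Fin t) × Fin (d k)) ((k : Fin t) × Fin (d k)) F) * J =
        J * (g : Matrix ((k : Fin t) × Fin (d k)) ((k : Fin t) × Fin (d k)) F)} =
      Nat.card {g : (((k : Fin t) × Fin (d k)) → F) ≃ₗ[F] (((k : Fin t) × Fin (d k)) → F) //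
        ∀ x, g (N x) = N (g x)} := by
    apply Nat.card_congr
    refine Equiv.subtypeEquiv (Matrix.GeneralLinearGroup.toLin.toEquiv.trans
      (LinearMap.GeneralLinearGroup.generalLinearEquiv F
        (((k : Fin t) × Fin (d k)) → F)).toEquiv) ?_
    intro g
    have hg : ∀ x, ((Matrix.GeneralLinearGroup.toLin.toEquiv.trans
        (LinearMap.GeneralLinearGroup.generalLinearEquiv F
          (((k : Fin t) × Fin (d k)) → F)).toEquiv) g) x =
        (g : Matrix ((k : Fin t) × Fin (d k)) ((k : Fin t) × Fin (d k)) F).mulVec x :=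
      fun x => rfl
    have hcomm : (g : Matrix ((k : Fin t) × Fin (d k)) ((k : Fin t) × Fin (d k)) F) * J =
        J * (g : Matrix ((k : Fin t) × Fin (d k)) ((k : Fin t) × Fin (d k)) F) ↔
        (g : Matrix ((k : Fin t) × Fin (d k)) ((k : Fin t) × Fin (d k)) F) * (J - 1) =
        (J - 1) * (g : Matrix ((k : Fin t) × Fin (d k)) ((k : Fin t) × Fin (d k)) F) := by
      rw [Matrix.mul_sub, Matrix.sub_mul, Matrix.mul_one, Matrix.one_mul, sub_left_inj]
    rw [hcomm]
    constructor
    · intro h x
      rw [hg, hg, hNx, hNx, Matrix.mulVec_mulVec, Matrix.mulVec_mulVec, h]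
    · intro h
      apply Matrix.toLin'.injective
      apply LinearMap.ext
      intro x
      have h2 := h x
      rw [hg, hg, hNx, hNx, Matrix.mulVec_mulVec, Matrix.mulVec_mulVec] at h2
      rw [Matrix.toLin'_apply, Matrix.toLin'_apply]
      exact h2
  rw [h1]
  set l : Multiset ℕ := (Finset.univ : Finset (Fin t)).val.map d with hl
  have hrk : ∀ k, Jordan.rk N k = (l.map (fun x => x - k)).sum := by
    intro k
    rw [← Jordan.urk_eq_rk, hJ, Jordan.urk_jordan, hl, Multiset.map_map]
    rfl
  have hpos : ∀ x ∈ l, 0 < x := by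
    intro x hx
    obtain ⟨k, _, rfl⟩ := Multiset.mem_map.mp hx
    exact hd k
  have hB : ∀ x ∈ l, x < Finset.univ.sup d + 1 := by
    intro x hx
    obtain ⟨k, _, rfl⟩ := Multiset.mem_map.mp hx
    exact Nat.lt_succ_of_le (Finset.le_sup (Finset.mem_univ k))
  have hmain := Jordan.card_cent (F := F) (Module.finrank F (((k : Fin t) × Fin (d k)) → F))
    (((k : Fin t) × Fin (d k)) → F) N l (Finset.univ.sup d + 1) rfl hpos hB hrk
  rw [hmain, Nat.card_eq_fintype_card]
  have hc : (fun i => l.count i) =
      fun i => (Finset.univ.filter (fun k : Fin t => d k = i)).card := by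
    funext i
    rw [hl, Multiset.count_map, Finset.card_def, Finset.filter_val]
    congr 1
    apply Multiset.filter_congr
    intro k _
    exact eq_comm
  rw [hc]
  rfl

end Cfsg.Agent.S2581
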