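import Cfsg.Statements.S2582
import Cfsg.Agent.Lib.Helper15.JordanF
open Cfsg.Agent.Lib.Helper15.Jordan Matrix

set_option autoImplicit false
open Cfsg

namespace Cfsg.Agent.S2582

/-- Which unipotent Jordan types occur in the finite symplectic group: over a finite field, a unipotent matrix with Jordan block sizes d_1, …, d_t (sum 2m, all at least 1) is similar to an element of Sp_2m(F) if and only if every odd block size occurs an even number of times. -/
theorem result {F : Type*} [Field F] [Fintype F] {m t : ℕ} (d : Fin t → ℕ) (hd : ∀ k, 1 ≤ d k) (hsum : ∑ k, d k = 2 * m) : (∃ e : ((k : Fin t) × Fin (d k)) ≃ (Fin m ⊕ Fin m), ∃ A : Matrix.symplecticGroup (Fin m) F, IsConj (Matrix.reindex e e (Cfsg.jordanTypeMatrix d F)) (A : Matrix (Fin m ⊕ Fin m) (Fin m ⊕ Fin m) F)) ↔ ∀ j : ℕ, Odd j → Even (Finset.univ.filter (fun k : Fin t => d k = j)).card := by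
  classical
  constructor
  · rintro ⟨e, A, hconj⟩
    apply odd_mult_even d
    intro l
    have h1 := even_urk (Matrix.J (Fin m) F) (A : Matrix (Fin m ⊕ Fin m) (Fin m ⊕ Fin m) F)
      (Matrix.J_transpose (Fin m) F) (fun i => by rcases i with a | a <;> simp [Matrix.J])
      (Matrix.isUnit_det_J (Fin m) F) (SymplecticGroup.mem_iff'.mp A.2) l
    rw [← urk_of_isConj hconj, urk_reindex, urk_jordan] at h1
    exact h1
  · intro hcond
    have hreal := real_of_cond (F := F) t (Finset.univ.val.map d) (by simp)
      (fun x hx => by
        obtain ⟨k, -, rfl⟩ := Multiset.mem_map.mp hx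
        exact hd k)
      (fun j hj => by
        have h := hcond j hj
        rw [Multiset.count_map]
        have e1 : (Finset.univ.filter (fun k : Fin t => d k = j)).card =
            Multiset.card (Multiset.filter (fun a => j = d a) (Finset.univ : Finset (Fin t)).val) := by
          rw [Finset.card_def, Finset.filter_val]
          congr 1
          apply Multiset.filter_congr
          intro x _
          exact eq_comm
        rw [← e1]
        exact h)
    obtain ⟨ι, _, _, A, hA, hr⟩ := hreal
    have hsum' : ∀ i, ((Finset.univ.val.map d).map (fun x => x - i)).sum = ∑ k, (d k - i) := by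
      intro i
      rw [Multiset.map_map]
      rfl
    have hcard : Fintype.card ι = m := by
      have h0 := hr 0
      rw [urk_zero, hsum' 0] at h0
      simp only [Nat.sub_zero, Fintype.card_sum] at h0
      omega
    let e₀ : ι ≃ Fin m := Fintype.equivFinOfCardEq hcard
    let e : ((k : Fin t) × Fin (d k)) ≃ (Fin m ⊕ Fin m) :=
      Fintype.equivOfCardEq (by simp [hsum, two_mul])
    refine ⟨e, ⟨_, reindex_mem e₀ hA⟩, ?_⟩
    apply isConj_of_urk (2 * m)
    · rw [urk_reindex, urk_jordan]
      apply Finset.sum_eq_zero
      intro k _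
      have := Finset.single_le_sum (f := d) (fun _ _ => Nat.zero_le _) (Finset.mem_univ k)
      omega
    · intro i
      rw [urk_reindex, urk_jordan, urk_reindex, hr, hsum']

end Cfsg.Agent.S2582
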