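import Cfsg.Statements.S2583
import Cfsg.Agent.Lib.Helper15.JordanH
open Cfsg.Agent.Lib.Helper15.Jordan Matrix

set_option autoImplicit false
open Cfsg

namespace Cfsg.Agent.S2583

/-- Which unipotent Jordan types occur in a finite orthogonal group in odd characteristic: over a finite field of odd order, a unipotent matrix with Jordan block sizes d_1, …, d_t (sum n, all at least 1) is similar to an isometry of some quadratic form on F^n with non-degenerate polar form if and only if every even block size occurs an even number of times. -/
theorem result {F : Type*} [Field F] [Fintype F] (h2 : (2 : F) ≠ 0) {n t : ℕ} (d : Fin t → ℕ) (hd : ∀ k, 1 ≤ d k) (hsum : ∑ k, d k = n) : (∃ Q : QuadraticForm F (Fin n → F), (QuadraticMap.polarBilin Q).Nondegenerate ∧ ∃ e : ((k : Fin t) × Fin (d k)) ≃ Fin n, ∃ A : ↥(Cfsg.isometryGroup F ⇑Q), IsConj (Matrix.reindex e e (Cfsg.jordanTypeMatrix d F)) ((A : Matrix.GeneralLinearGroup (Fin n) F) : Matrix (Fin n) (Fin n) F)) ↔ ∀ j : ℕ, Even j → 0 < j → Even (Finset.univ.filter (fun k : Fin t => d k = j)).card := by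
  classical
  have hz : ∑ k, (d k - n) = 0 := by
    apply Finset.sum_eq_zero
    intro k _
    have := Finset.single_le_sum (f := d) (fun _ _ => Nat.zero_le _) (Finset.mem_univ k)
    omega
  constructor
  · rintro ⟨Q, hQ, e, A, hconj⟩
    apply even_mult_even d
    intro l
    obtain ⟨hKt, hKu, hKA, -⟩ := polar_gram Q hQ (A : Matrix.GeneralLinearGroup (Fin n) F) A.2
    have hnil : IsNilpotent
        (((A : Matrix.GeneralLinearGroup (Fin n) F) : Matrix (Fin n) (Fin n) F) - 1) :=
      ⟨n, pow_eq_zero_of_urk _ n (by
        rw [← urk_of_isConj hconj, urk_reindex, urk_jordan]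
        exact hz)⟩
    have h1 := even_urk_odd h2 _ _ hKt hKu hKA hnil l
    rw [← urk_of_isConj hconj, urk_reindex, urk_jordan] at h1
    exact h1
  · intro hcond
    have hreal := realO_of_cond h2 t (Finset.univ.val.map d) (by simp)
      (fun x hx => by
        obtain ⟨k, -, rfl⟩ := Multiset.mem_map.mp hx
        exact hd k)
      (fun j hj hj0 => by
        have h := hcond j hj hj0
        rw [Multiset.count_map]
        have e1 : (Finset.univ.filter (fun k : Fin t => d k = j)).card =
            Multiset.card (Multiset.filter (fun a => j = d a) (Finset.univ : Finset (Fin t)).val) := by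
          rw [Finset.card_def, Finset.filter_val]
          congr 1
          apply Multiset.filter_congr
          intro x _
          exact eq_comm
        rw [← e1]
        exact h)
    obtain ⟨ι, _, _, Q, A, hdet, hQA, hnd, hr⟩ := realO_form h2 hreal
    have hsum' : ∀ i, ((Finset.univ.val.map d).map (fun x => x - i)).sum = ∑ k, (d k - i) := by
      intro i
      rw [Multiset.map_map]
      rfl
    have hcard : Fintype.card ι = n := by
      have h0 := hr 0
      rw [urk_zero, hsum' 0] at h0
      simp only [Nat.sub_zero] at h0
      omega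
    let σ : ι ≃ Fin n := Fintype.equivFinOfCardEq hcard
    obtain ⟨Q', hQ', A', hA'⟩ := transport σ Q A hdet hQA hnd
    let e : ((k : Fin t) × Fin (d k)) ≃ Fin n := Fintype.equivOfCardEq (by simp [hsum])
    refine ⟨Q', hQ', e, A', ?_⟩
    rw [hA']
    apply isConj_of_urk n
    · rw [urk_reindex, urk_jordan]
      exact hz
    · intro i
      rw [urk_reindex, urk_jordan, urk_reindex, hr, hsum']

end Cfsg.Agent.S2583
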