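import Cfsg.Statements.S2585
import Mathlib

set_option autoImplicit false
open Cfsg

namespace Cfsg.Agent.S2585


open Matrix in
theorem polar_eq_toBilin' {F : Type*} [Field F] {κ : Type*} [Fintype κ] [DecidableEq κ]
    (M : Matrix κ κ F) (Q : (κ → F) → F) (hQ : ∀ u, Q u = u ⬝ᵥ M *ᵥ u) (u v : κ → F) :
    QuadraticMap.polar Q u v = Matrix.toBilin' (M + Mᵀ) u v := by
  rw [QuadraticMap.polar, hQ, hQ, hQ, Matrix.toBilin'_apply', Matrix.add_mulVec, Matrix.mulVec_add]
  simp only [dotProduct_add, add_dotProduct]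
  have h : u ⬝ᵥ Mᵀ *ᵥ v = v ⬝ᵥ M *ᵥ u := by
    rw [Matrix.mulVec_transpose, dotProduct_comm, Matrix.dotProduct_mulVec]
  rw [h]
  ring

theorem sq_inj {F : Type*} [Field F] [CharP F 2] {a b : F} (h : a * a = b * b) : a = b := by
  have h1 : (a + b) * (a + b) = 0 := by
    rw [CharTwo.add_mul_self, h, CharTwo.add_self_eq_zero]
  have h2 : a + b = 0 := mul_self_eq_zero.mp h1
  have h3 := eq_neg_of_add_eq_zero_left h2
  rw [h3, CharTwo.neg_eq]

theorem exists_sqrt_linear {F V : Type*} [Field F] [Finite F] [CharP F 2] [AddCommGroup V]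
    [Module F V] (D : V → F) (hadd : ∀ u v, D (u + v) = D u + D v)
    (hsmul : ∀ (c : F) v, D (c • v) = c * c * D v) :
    ∃ lam : V →ₗ[F] F, ∀ v, lam v * lam v = D v := by
  have hsq : ∀ x : F, ∃ y, y * y = x := fun x => by
    obtain ⟨y, hy⟩ := FiniteField.isSquare_of_char_two (ringChar.eq F 2) x
    exact ⟨y, hy.symm⟩
  choose s hs using hsq
  refine ⟨{ toFun := fun v => s (D v), map_add' := ?_, map_smul' := ?_ }, fun v => hs _⟩
  · intro u v
    apply sq_inj
    rw [hs, CharTwo.add_mul_self, hs, hs, hadd]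
  · intro c v
    apply sq_inj
    simp only [RingHom.id_apply, smul_eq_mul]
    rw [hs, hsmul, mul_mul_mul_comm, hs]

theorem exists_factor {F V : Type*} [Field F] [AddCommGroup V] [Module F V] (T : V →ₗ[F] V)
    (lam : V →ₗ[F] F) (h : ∀ v, T v = 0 → lam v = 0) :
    ∃ mu : V →ₗ[F] F, ∀ v, mu (T v) = lam v := by
  obtain ⟨S, hS⟩ := LinearMap.exists_rightInverse_of_surjective T.rangeRestrict
    (LinearMap.range_rangeRestrict T)
  obtain ⟨mu, hmu⟩ := LinearMap.exists_extend (lam.comp S)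
  refine ⟨mu, fun v => ?_⟩
  have h1 : mu (T v) = lam (S (T.rangeRestrict v)) := by
    have := congrArg (fun f => f (T.rangeRestrict v)) hmu
    simpa using this
  rw [h1]
  have h2 : T (S (T.rangeRestrict v) - v) = 0 := by
    have h4 := congrArg (fun f => ((f (T.rangeRestrict v) : LinearMap.range T) : V)) hS
    have h4' : T (S (T.rangeRestrict v)) = T v := h4
    rw [map_sub, h4', sub_self]
  have h3 := h _ h2
  rw [map_sub, sub_eq_zero] at h3
  exact h3

/-- Over a finite field of characteristic two every element of the symplectic group is orthogonal for a suitable quadratic form: for each A in Sp_2m(F) there is a quadratic form Q on F^(2m) whose polar form is the alternating form defining Sp_2m(F) (so Q is non-degenerate) and which A preserves. Equivalently, for m ≥ 1, Sp_2m(F) is the union of the conjugates of its two orthogonal subgroups O⁺_2m(F) and O⁻_2m(F). -/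
theorem result {F : Type*} [Field F] [Fintype F] [CharP F 2] {m : ℕ} (A : Matrix.symplecticGroup (Fin m) F) : ∃ Q : QuadraticForm F (Fin m ⊕ Fin m → F), (∀ u v : Fin m ⊕ Fin m → F, QuadraticMap.polar ⇑Q u v = Cfsg.sympForm m F u v) ∧ ∀ v : Fin m ⊕ Fin m → F, Q ((A : Matrix (Fin m ⊕ Fin m) (Fin m ⊕ Fin m) F).mulVec v) = Q v := by
  classical
  set U : Matrix (Fin m ⊕ Fin m) (Fin m ⊕ Fin m) F :=
    (A : Matrix (Fin m ⊕ Fin m) (Fin m ⊕ Fin m) F) with hU
  have hform : ∀ x y, Cfsg.sympForm m F (U.mulVec x) (U.mulVec y) = Cfsg.sympForm m F x y := by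
    intro x y
    unfold Cfsg.sympForm
    have h1 : U.transpose * Matrix.J (Fin m) F * U = Matrix.J (Fin m) F :=
      SymplecticGroup.mem_iff'.mp A.2
    have h2 : ∀ z : Fin m ⊕ Fin m → F, (U.mulVec x) ⬝ᵥ z = x ⬝ᵥ (U.transpose.mulVec z) := by
      intro z
      rw [dotProduct_comm, Matrix.dotProduct_mulVec, ← Matrix.mulVec_transpose, dotProduct_comm]
    rw [h2, Matrix.mulVec_mulVec, Matrix.mulVec_mulVec, h1]
  have h2two : (2 : F) = 0 := by exact_mod_cast CharP.cast_eq_zero F 2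
  let M₀ : Matrix (Fin m ⊕ Fin m) (Fin m ⊕ Fin m) F := Matrix.fromBlocks 0 0 1 0
  have hM₀ : M₀ + M₀.transpose = Matrix.J (Fin m) F := by
    have hneg : (-1 : Matrix (Fin m) (Fin m) F) = 1 := by
      ext i j
      rw [Matrix.neg_apply, CharTwo.neg_eq]
    simp only [M₀, Matrix.J, Matrix.fromBlocks_transpose, Matrix.fromBlocks_add, hneg,
      Matrix.transpose_zero, Matrix.transpose_one, add_zero, zero_add]
  let B₀ : LinearMap.BilinForm F (Fin m ⊕ Fin m → F) := Matrix.toBilin' M₀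
  let Q₀ : QuadraticForm F (Fin m ⊕ Fin m → F) := LinearMap.BilinMap.toQuadraticMap B₀
  have hQ₀ : ∀ v, Q₀ v = v ⬝ᵥ M₀.mulVec v := fun v => by
    simp only [Q₀, B₀, LinearMap.BilinMap.toQuadraticMap_apply, Matrix.toBilin'_apply']
  have hpol₀ : ∀ u v, QuadraticMap.polar ⇑Q₀ u v = Cfsg.sympForm m F u v := by
    intro u v
    rw [polar_eq_toBilin' M₀ (⇑Q₀) hQ₀, hM₀, Matrix.toBilin'_apply']
    rfl
  have hadd : ∀ u v : Fin m ⊕ Fin m → F,
      Q₀ (U.mulVec (u + v)) + Q₀ (u + v) =
        (Q₀ (U.mulVec u) + Q₀ u) + (Q₀ (U.mulVec v) + Q₀ v) := by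
    intro u v
    rw [Matrix.mulVec_add, QuadraticMap.map_add (⇑Q₀) (U.mulVec u) (U.mulVec v),
      QuadraticMap.map_add (⇑Q₀) u v, hpol₀, hpol₀, hform]
    linear_combination (Cfsg.sympForm m F u v) * h2two
  have hsmul : ∀ (c : F) (v : Fin m ⊕ Fin m → F),
      Q₀ (U.mulVec (c • v)) + Q₀ (c • v) = c * c * (Q₀ (U.mulVec v) + Q₀ v) := by
    intro c v
    rw [Matrix.mulVec_smul, QuadraticMap.map_smul, QuadraticMap.map_smul, smul_eq_mul, smul_eq_mul]
    ring
  obtain ⟨lam, hlam⟩ := exists_sqrt_linear (fun v => Q₀ (U.mulVec v) + Q₀ v) hadd hsmul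
  obtain ⟨mu, hmu⟩ := exists_factor (LinearMap.id - Matrix.mulVecLin U) lam (by
    intro v hv
    have hv' : U.mulVec v = v := by
      have h3 : v - U.mulVec v = 0 := hv
      exact (sub_eq_zero.mp h3).symm
    have h1 := hlam v
    simp only [hv', CharTwo.add_self_eq_zero] at h1
    exact mul_self_eq_zero.mp h1)
  refine ⟨Q₀ + QuadraticMap.linMulLin mu mu, ?_, ?_⟩
  · intro u v
    rw [← hpol₀]
    simp only [QuadraticMap.polar, FunLike.coe_add, Pi.add_apply, QuadraticMap.linMulLin_apply, map_add]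
    linear_combination (mu u * mu v) * h2two
  · intro v
    simp only [FunLike.coe_add, Pi.add_apply, QuadraticMap.linMulLin_apply]
    have h1 := hlam v
    have h2 : mu v - mu (U.mulVec v) = lam v := by
      rw [← hmu v]
      simp
    rw [← h2] at h1
    linear_combination -h1 + (mu (U.mulVec v) * mu (U.mulVec v) - mu v * mu (U.mulVec v) - Q₀ v) * h2two

end Cfsg.Agent.S2585
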