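import Cfsg.Statements.S2584
import Cfsg.Agent.Lib.Helper15.JordanG
import Cfsg.Agent.S2582
import Cfsg.Agent.S2585
open Cfsg.Agent.Lib.Helper15.Jordan Matrix

set_option autoImplicit false
open Cfsg

namespace Cfsg.Agent.S2584

/-- Which unipotent Jordan types occur in a finite orthogonal group in characteristic two: over a finite field of characteristic 2 and in even dimension 2m, a unipotent matrix with Jordan block sizes d_1, …, d_t (sum 2m, all at least 1) is similar to an isometry of some quadratic form on F^(2m) with non-degenerate polar form if and only if every odd block size occurs an even number of times (the same condition as for the symplectic group, which contains these orthogonal groups). -/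
theorem result {F : Type*} [Field F] [Fintype F] [CharP F 2] {m t : ℕ} (d : Fin t → ℕ) (hd : ∀ k, 1 ≤ d k) (hsum : ∑ k, d k = 2 * m) : (∃ Q : QuadraticForm F (Fin (2 * m) → F), (QuadraticMap.polarBilin Q).Nondegenerate ∧ ∃ e : ((k : Fin t) × Fin (d k)) ≃ Fin (2 * m), ∃ A : ↥(Cfsg.isometryGroup F ⇑Q), IsConj (Matrix.reindex e e (Cfsg.jordanTypeMatrix d F)) ((A : Matrix.GeneralLinearGroup (Fin (2 * m)) F) : Matrix (Fin (2 * m)) (Fin (2 * m)) F)) ↔ ∀ j : ℕ, Odd j → Even (Finset.univ.filter (fun k : Fin t => d k = j)).card := by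
  classical
  have h2 : (2 : F) = 0 := CharTwo.two_eq_zero
  constructor
  · rintro ⟨Q, hQ, e, A, hconj⟩
    apply odd_mult_even d
    intro l
    obtain ⟨hKt, hKu, hKA, hKd⟩ := polar_gram Q hQ (A : Matrix.GeneralLinearGroup (Fin (2 * m)) F) A.2
    have h1 := even_urk _ _ (by rw [hKt]; ext i j; rw [Matrix.neg_apply, CharTwo.neg_eq])
      (fun i => by rw [hKd, h2, zero_mul]) hKu hKA l
    rw [← urk_of_isConj hconj, urk_reindex, urk_jordan] at h1
    exact h1
  · intro hcond
    obtain ⟨e₁, A₁, hc₁⟩ := (Cfsg.Agent.S2582.result (F := F) d hd hsum).mpr hcond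
    obtain ⟨Q, hQp, hQA⟩ := Cfsg.Agent.S2585.result A₁
    let σ : Fin m ⊕ Fin m ≃ Fin (2 * m) := finSumFinEquiv.trans (finCongr (two_mul m).symm)
    obtain ⟨Q', hQ', A', hA'⟩ := transport σ Q (A₁ : Matrix (Fin m ⊕ Fin m) (Fin m ⊕ Fin m) F)
      (SymplecticGroup.symplectic_det A₁.2) hQA (by
        intro x hx
        apply Cfsg.Agent.Lib.Helper15.SpInvol.form_nondeg
        intro y
        rw [← hQp, QuadraticMap.polar_comm]
        exact hx y)
    refine ⟨Q', hQ', e₁.trans σ, A', ?_⟩
    rw [hA']
    apply isConj_of_urk (2 * m)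
    · rw [urk_reindex, urk_jordan]
      apply Finset.sum_eq_zero
      intro k _
      have := Finset.single_le_sum (f := d) (fun _ _ => Nat.zero_le _) (Finset.mem_univ k)
      omega
    · intro i
      rw [urk_reindex, urk_reindex, ← urk_of_isConj hc₁, urk_reindex]

end Cfsg.Agent.S2584
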