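import Cfsg.Statements.S2586
import Mathlib
import Cfsg.Agent.S2580

set_option autoImplicit false
open Cfsg

namespace Cfsg.Agent.S2586


theorem conj_transpose {F : Type*} [Field F] {ι : Type*} [Fintype ι] [DecidableEq ι]
    (A : Matrix ι ι F) : IsConj A A.transpose := by
  classical
  obtain ⟨B, hBT, hBnd⟩ := Cfsg.Agent.S2580.exists_form (Matrix.toLin' A)
  have h1 : A.transpose * LinearMap.BilinForm.toMatrix' B = LinearMap.BilinForm.toMatrix' B * A := by
    have e1 := LinearMap.BilinForm.toMatrix'_compLeft B (Matrix.toLin' A)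
    have e2 := LinearMap.BilinForm.toMatrix'_compRight B (Matrix.toLin' A)
    rw [LinearMap.toMatrix'_toLin'] at e1 e2
    rw [← e1, ← e2]
    congr 1
    ext u v
    exact hBT _ _
  have hunit : IsUnit (LinearMap.BilinForm.toMatrix' B) := by
    rw [← Matrix.vecMul_injective_iff_isUnit]
    intro u u' huu
    have h2 : ∀ w, B (u - u') w = 0 := by
      intro w
      have hB' : B = Matrix.toBilin' (LinearMap.BilinForm.toMatrix' B) :=
        (Matrix.toBilin'_toMatrix' B).symm
      rw [hB', Matrix.toBilin'_apply', Matrix.dotProduct_mulVec, Matrix.sub_vecMul]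
      have huu' : Matrix.vecMul u (LinearMap.BilinForm.toMatrix' B) =
          Matrix.vecMul u' (LinearMap.BilinForm.toMatrix' B) := huu
      rw [huu', sub_self, zero_dotProduct]
    exact sub_eq_zero.mp (hBnd _ h2)
  obtain ⟨c, hc⟩ := hunit
  refine ⟨c, ?_⟩
  show (c : Matrix ι ι F) * A = A.transpose * c
  rw [hc, h1]

/-- Over a finite field, every element of the symplectic group Sp_2m(F) is conjugate by an invertible matrix to its inverse. -/
theorem result {F : Type*} [Field F] [Finite F] {m : ℕ} (A : Matrix.symplecticGroup (Fin m) F) : IsConj (A : Matrix (Fin m ⊕ Fin m) (Fin m ⊕ Fin m) F) ((A⁻¹ : Matrix.symplecticGroup (Fin m) F) : Matrix (Fin m ⊕ Fin m) (Fin m ⊕ Fin m) F) := by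
  classical
  have h1 : IsConj (A : Matrix (Fin m ⊕ Fin m) (Fin m ⊕ Fin m) F)
      (A : Matrix (Fin m ⊕ Fin m) (Fin m ⊕ Fin m) F).transpose := conj_transpose _
  have h2 : IsConj (A : Matrix (Fin m ⊕ Fin m) (Fin m ⊕ Fin m) F).transpose
      ((A⁻¹ : Matrix.symplecticGroup (Fin m) F) : Matrix (Fin m ⊕ Fin m) (Fin m ⊕ Fin m) F) := by
    have hJ : (-Matrix.J (Fin m) F) * Matrix.J (Fin m) F = 1 := by
      rw [Matrix.neg_mul, Matrix.J_squared, neg_neg]
    have hJ' : Matrix.J (Fin m) F * (-Matrix.J (Fin m) F) = 1 := by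
      rw [Matrix.mul_neg, Matrix.J_squared, neg_neg]
    refine ⟨⟨-Matrix.J (Fin m) F, Matrix.J (Fin m) F, hJ, hJ'⟩, ?_⟩
    show (-Matrix.J (Fin m) F) * (A : Matrix (Fin m ⊕ Fin m) (Fin m ⊕ Fin m) F).transpose =
      ((A⁻¹ : Matrix.symplecticGroup (Fin m) F) : Matrix (Fin m ⊕ Fin m) (Fin m ⊕ Fin m) F) *
        (-Matrix.J (Fin m) F)
    rw [SymplecticGroup.coe_inv, Matrix.mul_assoc, hJ', Matrix.mul_one]
  exact h1.trans h2

end Cfsg.Agent.S2586
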