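import Cfsg.Statements.S2588
import Cfsg.Agent.Lib.Helper15.LawUnitary
import Cfsg.Agent.Lib.Helper15.WallC
open Cfsg.Agent.Lib.Helper15

set_option autoImplicit false
open Cfsg

namespace Cfsg.Agent.S2588

/-- An invertible matrix A over the field with q² elements is conjugate in GL_n(q²) to an element of the general unitary group GU_n(q) (isometries of the Hermitian form Σ u_i v_i^q) if and only if A is similar to the inverse transpose of its entrywise q-th power (A ~ A^(−qT), the image of A under the map sending a matrix to the inverse transpose of its entrywise q-th power — inverse transpose composed with the field automorphism — whose fixed points form GU_n(q)). -/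
theorem result {K : Type*} [Field K] [Fintype K] {q n : ℕ} (hK : Fintype.card K = q ^ 2) (A : GL (Fin n) K) : (∃ B : ↥(Cfsg.GU n K q), IsConj A (B : GL (Fin n) K)) ↔ IsConj (A : Matrix (Fin n) (Fin n) K) (((A : Matrix (Fin n) (Fin n) K).map (fun x : K => x ^ q)).transpose)⁻¹ := by
  classical
  obtain ⟨φ, hφq, hφ2⟩ := exists_frob hK
  have hfun : (fun x : K => x ^ q) = φ := by
    funext x
    exact (hφq x).symm
  have hcs : ((A : Matrix (Fin n) (Fin n) K).map (fun x : K => x ^ q)).transpose =
      Wall.cstar φ (A : Matrix (Fin n) (Fin n) K) := by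
    rw [hfun]
    rfl
  rw [hcs]
  have hq0 : q ≠ 0 := Wall.card_sq_ne_zero hK
  have hAdet : (A : Matrix (Fin n) (Fin n) K).det ≠ 0 :=
    ((Matrix.isUnit_iff_isUnit_det _).mp A.isUnit).ne_zero
  have hcdet : IsUnit (Wall.cstar φ (A : Matrix (Fin n) (Fin n) K)).det := by
    rw [Wall.cstar_det]
    exact isUnit_iff_ne_zero.mpr ((map_ne_zero φ).mpr hAdet)
  constructor
  · rintro ⟨B, hB⟩
    obtain ⟨k, hk⟩ := isConj_iff.mp hB
    have hkA : (k : Matrix (Fin n) (Fin n) K) * (A : Matrix (Fin n) (Fin n) K) =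
        ((B : GL (Fin n) K) : Matrix (Fin n) (Fin n) K) * (k : Matrix (Fin n) (Fin n) K) := by
      have h1 : k * A = (B : GL (Fin n) K) * k := by
        rw [← hk]
        group
      exact congrArg Units.val h1
    have hBu := Wall.mem_GU_cstar hq0 φ hφq (B : GL (Fin n) K) B.2
    have hc : Wall.cstar φ (A : Matrix (Fin n) (Fin n) K) *
        (Wall.cstar φ (k : Matrix (Fin n) (Fin n) K) * (k : Matrix (Fin n) (Fin n) K)) *
        (A : Matrix (Fin n) (Fin n) K) =
        Wall.cstar φ (k : Matrix (Fin n) (Fin n) K) * (k : Matrix (Fin n) (Fin n) K) := by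
      calc Wall.cstar φ (A : Matrix (Fin n) (Fin n) K) *
          (Wall.cstar φ (k : Matrix (Fin n) (Fin n) K) * (k : Matrix (Fin n) (Fin n) K)) *
          (A : Matrix (Fin n) (Fin n) K)
          = (Wall.cstar φ (A : Matrix (Fin n) (Fin n) K) *
              Wall.cstar φ (k : Matrix (Fin n) (Fin n) K)) *
              ((k : Matrix (Fin n) (Fin n) K) * (A : Matrix (Fin n) (Fin n) K)) := by
            simp only [Matrix.mul_assoc]
        _ = Wall.cstar φ ((k : Matrix (Fin n) (Fin n) K) * (A : Matrix (Fin n) (Fin n) K)) *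
              ((k : Matrix (Fin n) (Fin n) K) * (A : Matrix (Fin n) (Fin n) K)) := by
            rw [Wall.cstar_mul]
        _ = Wall.cstar φ (k : Matrix (Fin n) (Fin n) K) *
              (Wall.cstar φ ((B : GL (Fin n) K) : Matrix (Fin n) (Fin n) K) *
                ((B : GL (Fin n) K) : Matrix (Fin n) (Fin n) K)) *
              (k : Matrix (Fin n) (Fin n) K) := by
            rw [hkA, Wall.cstar_mul]
            simp only [Matrix.mul_assoc]
        _ = Wall.cstar φ (k : Matrix (Fin n) (Fin n) K) * (k : Matrix (Fin n) (Fin n) K) := by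
            rw [hBu, Matrix.mul_one]
    have hkdet : (k : Matrix (Fin n) (Fin n) K).det ≠ 0 :=
      ((Matrix.isUnit_iff_isUnit_det _).mp k.isUnit).ne_zero
    have hcu : IsUnit
        (Wall.cstar φ (k : Matrix (Fin n) (Fin n) K) * (k : Matrix (Fin n) (Fin n) K)).det := by
      rw [Matrix.det_mul, Wall.cstar_det]
      exact isUnit_iff_ne_zero.mpr (mul_ne_zero ((map_ne_zero φ).mpr hkdet) hkdet)
    refine ⟨⟨Wall.cstar φ (k : Matrix (Fin n) (Fin n) K) * (k : Matrix (Fin n) (Fin n) K),
      (Wall.cstar φ (k : Matrix (Fin n) (Fin n) K) * (k : Matrix (Fin n) (Fin n) K))⁻¹,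
      Matrix.mul_nonsing_inv _ hcu, Matrix.nonsing_inv_mul _ hcu⟩, ?_⟩
    show (Wall.cstar φ (k : Matrix (Fin n) (Fin n) K) * (k : Matrix (Fin n) (Fin n) K)) *
        (A : Matrix (Fin n) (Fin n) K) =
        (Wall.cstar φ (A : Matrix (Fin n) (Fin n) K))⁻¹ *
        (Wall.cstar φ (k : Matrix (Fin n) (Fin n) K) * (k : Matrix (Fin n) (Fin n) K))
    calc (Wall.cstar φ (k : Matrix (Fin n) (Fin n) K) * (k : Matrix (Fin n) (Fin n) K)) *
        (A : Matrix (Fin n) (Fin n) K)
        = ((Wall.cstar φ (A : Matrix (Fin n) (Fin n) K))⁻¹ *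
            Wall.cstar φ (A : Matrix (Fin n) (Fin n) K)) *
            ((Wall.cstar φ (k : Matrix (Fin n) (Fin n) K) * (k : Matrix (Fin n) (Fin n) K)) *
            (A : Matrix (Fin n) (Fin n) K)) := by
          rw [Matrix.nonsing_inv_mul _ hcdet, Matrix.one_mul]
      _ = (Wall.cstar φ (A : Matrix (Fin n) (Fin n) K))⁻¹ *
            (Wall.cstar φ (A : Matrix (Fin n) (Fin n) K) *
            (Wall.cstar φ (k : Matrix (Fin n) (Fin n) K) * (k : Matrix (Fin n) (Fin n) K)) *
            (A : Matrix (Fin n) (Fin n) K)) := by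
          simp only [Matrix.mul_assoc]
      _ = (Wall.cstar φ (A : Matrix (Fin n) (Fin n) K))⁻¹ *
            (Wall.cstar φ (k : Matrix (Fin n) (Fin n) K) * (k : Matrix (Fin n) (Fin n) K)) := by
          rw [hc]
  · rintro ⟨c, hc⟩
    have hc' : (c : Matrix (Fin n) (Fin n) K) * (A : Matrix (Fin n) (Fin n) K) =
        (Wall.cstar φ (A : Matrix (Fin n) (Fin n) K))⁻¹ * (c : Matrix (Fin n) (Fin n) K) := hc
    have hcdet' : (c : Matrix (Fin n) (Fin n) K).det ≠ 0 :=
      ((Matrix.isUnit_iff_isUnit_det _).mp c.isUnit).ne_zero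
    apply Wall.exists_GU_conj hK φ hφq hφ2 A (c : Matrix (Fin n) (Fin n) K) hcdet'
    calc Wall.cstar φ (A : Matrix (Fin n) (Fin n) K) * (c : Matrix (Fin n) (Fin n) K) *
        (A : Matrix (Fin n) (Fin n) K)
        = Wall.cstar φ (A : Matrix (Fin n) (Fin n) K) *
            ((c : Matrix (Fin n) (Fin n) K) * (A : Matrix (Fin n) (Fin n) K)) := by
          rw [Matrix.mul_assoc]
      _ = (Wall.cstar φ (A : Matrix (Fin n) (Fin n) K) *
            (Wall.cstar φ (A : Matrix (Fin n) (Fin n) K))⁻¹) * (c : Matrix (Fin n) (Fin n) K) := by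
          rw [hc', Matrix.mul_assoc]
      _ = (c : Matrix (Fin n) (Fin n) K) := by
          rw [Matrix.mul_nonsing_inv _ hcdet, Matrix.one_mul]

end Cfsg.Agent.S2588
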