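import Cfsg.Statements.S2589
import Mathlib
import Cfsg.Agent.S2389

set_option autoImplicit false
open Cfsg

namespace Cfsg.Agent.S2589

theorem glue {F : Type*} [Field F] [Fintype F] {p : ℕ} [Fact p.Prime] [CharP F p] {m : ℕ}
    (h2389 : ∀ (g h : ↥(Matrix.symplecticGroup (Fin m) F)), (orderOf g).Coprime p → (orderOf h).Coprime p →
      (g : Matrix (Fin m ⊕ Fin m) (Fin m ⊕ Fin m) F).charpoly = (h : Matrix (Fin m ⊕ Fin m) (Fin m ⊕ Fin m) F).charpoly →
      IsConj g h)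
    (A B : Matrix.symplecticGroup (Fin m) F) (hA : (orderOf A).Coprime p) :
    IsConj A B ↔ IsConj (A : Matrix (Fin m ⊕ Fin m) (Fin m ⊕ Fin m) F) (B : Matrix (Fin m ⊕ Fin m) (Fin m ⊕ Fin m) F) := by
  constructor
  · intro h
    exact (Submonoid.subtype (Matrix.symplecticGroup (Fin m) F)).map_isConj h
  · intro h
    obtain ⟨c, hc⟩ := h
    have key : ∀ n : ℕ, (B : Matrix (Fin m ⊕ Fin m) (Fin m ⊕ Fin m) F) ^ n =
        (c : Matrix (Fin m ⊕ Fin m) (Fin m ⊕ Fin m) F) * (A : Matrix (Fin m ⊕ Fin m) (Fin m ⊕ Fin m) F) ^ n *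
          ((c⁻¹ : (Matrix (Fin m ⊕ Fin m) (Fin m ⊕ Fin m) F)ˣ) : Matrix (Fin m ⊕ Fin m) (Fin m ⊕ Fin m) F) := by
      intro n
      have h1 := (hc.pow_right n).eq
      rw [h1, Units.mul_inv_cancel_right]
    have key' : ∀ n : ℕ, (A : Matrix (Fin m ⊕ Fin m) (Fin m ⊕ Fin m) F) ^ n =
        ((c⁻¹ : (Matrix (Fin m ⊕ Fin m) (Fin m ⊕ Fin m) F)ˣ) : Matrix (Fin m ⊕ Fin m) (Fin m ⊕ Fin m) F) *
          (B : Matrix (Fin m ⊕ Fin m) (Fin m ⊕ Fin m) F) ^ n * (c : Matrix (Fin m ⊕ Fin m) (Fin m ⊕ Fin m) F) := by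
      intro n
      have h1 := (hc.pow_right n).eq
      rw [mul_assoc, ← h1, Units.inv_mul_cancel_left]
    have hord : orderOf B = orderOf A := by
      rw [← orderOf_submonoid B, ← orderOf_submonoid A]
      apply orderOf_eq_orderOf_iff.mpr
      intro n
      constructor
      · intro hk
        rw [key', hk, mul_one, Units.inv_mul]
      · intro hk
        rw [key, hk, mul_one, Units.mul_inv]
    have hcp : (A : Matrix (Fin m ⊕ Fin m) (Fin m ⊕ Fin m) F).charpoly = (B : Matrix (Fin m ⊕ Fin m) (Fin m ⊕ Fin m) F).charpoly := by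
      have h1 := key 1
      rw [pow_one, pow_one] at h1
      rw [h1, Matrix.coe_units_inv]
      exact (Matrix.charpoly_units_conj c (A : Matrix (Fin m ⊕ Fin m) (Fin m ⊕ Fin m) F)).symm
    exact h2389 A B hA (hord ▸ hA) hcp

/-- Two semisimple elements of the finite symplectic group Sp_2m(F) (elements of order prime to the characteristic) are conjugate in Sp_2m(F) if and only if they are conjugate in GL_2m(F). -/
theorem result {F : Type*} [Field F] [Fintype F] {p : ℕ} [Fact p.Prime] [CharP F p] {m : ℕ} (A B : Matrix.symplecticGroup (Fin m) F) (hA : (orderOf A).Coprime p) : IsConj A B ↔ IsConj (A : Matrix (Fin m ⊕ Fin m) (Fin m ⊕ Fin m) F) (B : Matrix (Fin m ⊕ Fin m) (Fin m ⊕ Fin m) F) := by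
  exact glue (fun g h hg hh hc => Cfsg.Agent.S2389.result p m g h hg hh hc) A B hA

end Cfsg.Agent.S2589
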