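import Cfsg.Statements.S2592
import Mathlib
import Cfsg.Agent.Lib.Helper16.CayleyCount
import Cfsg.Agent.Lib.Helper16.TruncPoly
import Cfsg.Agent.Lib.Helper16.CyclicNil

set_option autoImplicit false
open Cfsg

namespace Cfsg.Agent.S2592


set_option linter.unusedSectionVars false
set_option linter.unusedVariables false

open Matrix Cfsg.Agent.Lib.Helper16

section Sp

variable {F : Type*} [Field F] {m : ℕ}

/-- The adjoint with respect to the symplectic form. -/
def sst (g : Matrix (Fin m ⊕ Fin m) (Fin m ⊕ Fin m) F) :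
    Matrix (Fin m ⊕ Fin m) (Fin m ⊕ Fin m) F :=
  (-(Matrix.J (Fin m) F)) * gᵀ * Matrix.J (Fin m) F

theorem J_mul_neg_J : Matrix.J (Fin m) F * (-(Matrix.J (Fin m) F)) = 1 := by
  rw [Matrix.mul_neg, Matrix.J_squared, neg_neg]

theorem neg_J_mul_J : (-(Matrix.J (Fin m) F)) * Matrix.J (Fin m) F = 1 := by
  rw [Matrix.neg_mul, Matrix.J_squared, neg_neg]

theorem sst_add (a b : Matrix (Fin m ⊕ Fin m) (Fin m ⊕ Fin m) F) :
    sst (a + b) = sst a + sst b := by
  unfold sst
  rw [Matrix.transpose_add, Matrix.mul_add, Matrix.add_mul]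

theorem sst_sub (a b : Matrix (Fin m ⊕ Fin m) (Fin m ⊕ Fin m) F) :
    sst (a - b) = sst a - sst b := by
  unfold sst
  rw [Matrix.transpose_sub, Matrix.mul_sub, Matrix.sub_mul]

theorem sst_smul (c : F) (a : Matrix (Fin m ⊕ Fin m) (Fin m ⊕ Fin m) F) :
    sst (c • a) = c • sst a := by
  unfold sst
  rw [Matrix.transpose_smul, Matrix.mul_smul, Matrix.smul_mul]

theorem sst_one : sst (1 : Matrix (Fin m ⊕ Fin m) (Fin m ⊕ Fin m) F) = 1 := by
  unfold sst
  rw [Matrix.transpose_one, Matrix.mul_one, neg_J_mul_J]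

theorem sst_mul (a b : Matrix (Fin m ⊕ Fin m) (Fin m ⊕ Fin m) F) :
    sst (a * b) = sst b * sst a := by
  unfold sst
  rw [Matrix.transpose_mul]
  calc (-(Matrix.J (Fin m) F)) * (bᵀ * aᵀ) * Matrix.J (Fin m) F
      = (-(Matrix.J (Fin m) F)) * bᵀ * (Matrix.J (Fin m) F * (-(Matrix.J (Fin m) F)))
          * aᵀ * Matrix.J (Fin m) F := by
        rw [J_mul_neg_J, Matrix.mul_one]
        simp only [Matrix.mul_assoc]
    _ = (-(Matrix.J (Fin m) F)) * bᵀ * Matrix.J (Fin m) F
          * ((-(Matrix.J (Fin m) F)) * aᵀ * Matrix.J (Fin m) F) := by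
        simp only [Matrix.mul_assoc]

theorem mem_sp_iff (g : Matrix (Fin m ⊕ Fin m) (Fin m ⊕ Fin m) F) :
    g ∈ Matrix.symplecticGroup (Fin m) F ↔ sst g * g = 1 := by
  constructor
  · intro h
    have := SymplecticGroup.inv_left_mul_aux h
    unfold sst
    rw [← this]
    simp only [Matrix.neg_mul]
  · intro h
    rw [SymplecticGroup.mem_iff']
    calc gᵀ * Matrix.J (Fin m) F * g
        = (Matrix.J (Fin m) F * (-(Matrix.J (Fin m) F))) * (gᵀ * Matrix.J (Fin m) F * g) := by
          rw [J_mul_neg_J, Matrix.one_mul]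
      _ = Matrix.J (Fin m) F * (sst g * g) := by
          unfold sst
          simp only [Matrix.mul_assoc]
      _ = Matrix.J (Fin m) F := by rw [h, Matrix.mul_one]

theorem card_commutant_solutions' {ι : Type*} [Fintype ι] [DecidableEq ι]
    (n : Matrix ι ι F) (N : ℕ) (hN : Fintype.card ι = N) (hpos : 0 < N)
    (hn : n ^ N = 0) (hn' : n ^ (N - 1) ≠ 0)
    (st : Matrix ι ι F → Matrix ι ι F) (hst_add : ∀ a b, st (a + b) = st a + st b)
    (hst_mul : ∀ a b, st (a * b) = st b * st a) (hst_smul : ∀ (c : F) a, st (c • a) = c • st a)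
    (hst_one : st 1 = 1) (hstn : st n = -n) :
    Nat.card {g : Matrix ι ι F // g * n = n * g ∧ st g * g = 1}
      = Nat.card {x : TP F N // tpSigma N x * x = 1} := by
  subst hN
  exact card_commutant_solutions n hpos hn hn' st hst_add hst_mul hst_smul hst_one hstn

theorem main [Fintype F] {q : ℕ} (hF : Fintype.card F = q) (hq : Odd q) (hm : 1 ≤ m)
    (u : Matrix.symplecticGroup (Fin m) F)
    (hnil : ((u : Matrix (Fin m ⊕ Fin m) (Fin m ⊕ Fin m) F) - 1) ^ (2 * m) = 0)
    (hreg : ((u : Matrix (Fin m ⊕ Fin m) (Fin m ⊕ Fin m) F) - 1).rank = 2 * m - 1) :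
    Nat.card ↥(Subgroup.centralizer ({u} : Set ↥(Matrix.symplecticGroup (Fin m) F)))
      = 2 * q ^ m := by
  classical
  have h2 : (2 : F) ≠ 0 := by
    apply Ring.two_ne_zero
    intro h
    have := FiniteField.even_card_iff_char_two.mp h
    rw [hF] at this
    rcases hq with ⟨k, hk⟩
    omega
  have hcard : Fintype.card (Fin m ⊕ Fin m) = 2 * m := by
    rw [Fintype.card_sum, Fintype.card_fin, two_mul]
  obtain ⟨U, hU⟩ : ∃ U : Matrix (Fin m ⊕ Fin m) (Fin m ⊕ Fin m) F,
      U = (u : Matrix (Fin m ⊕ Fin m) (Fin m ⊕ Fin m) F) := ⟨_, rfl⟩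
  rw [← hU] at hnil hreg
  have hUsp : U ∈ Matrix.symplecticGroup (Fin m) F := by
    rw [hU]
    exact u.2
  have hUi1 : sst U * U = 1 := (mem_sp_iff U).1 hUsp
  have hUi2 : U * sst U = 1 := mul_eq_one_comm.1 hUi1
  have hnilN : IsNilpotent (U - 1) := ⟨2 * m, hnil⟩
  have h2M : IsUnit (2 : Matrix (Fin m ⊕ Fin m) (Fin m ⊕ Fin m) F) := by
    have : (2 : Matrix (Fin m ⊕ Fin m) (Fin m ⊕ Fin m) F)
        = algebraMap F (Matrix (Fin m ⊕ Fin m) (Fin m ⊕ Fin m) F) 2 := by
      rw [map_ofNat]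
    rw [this]
    exact (isUnit_iff_ne_zero.2 h2).map _
  have hU1 : IsUnit (U + 1) := by
    have : U + 1 = 2 + (U - 1) := by
      rw [← one_add_one_eq_two]
      abel
    rw [this]
    apply hnilN.isUnit_add_left_of_commute h2M
    show (U - 1) * 2 = 2 * (U - 1)
    rw [mul_two, two_mul]
  obtain ⟨uu, huu⟩ := hU1
  obtain ⟨w, hwdef⟩ : ∃ w : Matrix (Fin m ⊕ Fin m) (Fin m ⊕ Fin m) F, w = ↑uu⁻¹ := ⟨_, rfl⟩
  have hw1 : (U + 1) * w = 1 := by
    rw [hwdef, ← huu]
    exact uu.mul_inv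
  have hw2 : w * (U + 1) = 1 := by
    rw [hwdef, ← huu]
    exact uu.inv_mul
  have hcomm_inv : ∀ a : Matrix (Fin m ⊕ Fin m) (Fin m ⊕ Fin m) F,
      a * (U + 1) = (U + 1) * a → a * w = w * a := by
    intro a ha
    calc a * w = w * (U + 1) * (a * w) := by rw [hw2, Matrix.one_mul]
      _ = w * ((U + 1) * a) * w := by simp only [Matrix.mul_assoc]
      _ = w * (a * (U + 1)) * w := by rw [ha]
      _ = w * a * ((U + 1) * w) := by simp only [Matrix.mul_assoc]
      _ = w * a := by rw [hw1, Matrix.mul_one]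
  have hUw : U * w = w * U :=
    hcomm_inv U (by rw [Matrix.mul_add, Matrix.add_mul, Matrix.mul_one, Matrix.one_mul])
  have hNw : (U - 1) * w = w * (U - 1) := by
    rw [Matrix.sub_mul, Matrix.mul_sub, hUw, Matrix.one_mul, Matrix.mul_one]
  obtain ⟨n, hndef⟩ : ∃ n : Matrix (Fin m ⊕ Fin m) (Fin m ⊕ Fin m) F, n = (U - 1) * w :=
    ⟨_, rfl⟩
  have hn0 : n ^ (2 * m) = 0 := by
    rw [hndef, (show Commute (U - 1) w from hNw).mul_pow, hnil, Matrix.zero_mul]
  have hwdet : IsUnit w.det :=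
    IsUnit.of_mul_eq_one (det (U + 1)) (by rw [← Matrix.det_mul, hw2, Matrix.det_one])
  have hnrank : n.rank = 2 * m - 1 := by
    rw [hndef, Matrix.rank_mul_eq_left_of_isUnit_det _ _ hwdet, hreg]
  have hnU : n * (U + 1) = U - 1 := by
    rw [hndef, Matrix.mul_assoc, hw2, Matrix.mul_one]
  have hstw : sst w = w * U := by
    have e1 : sst w * (sst U + 1) = 1 := by
      have := congrArg sst hw1
      rwa [sst_mul, sst_add, sst_one] at this
    have e2 : w * U * (sst U + 1) = 1 := by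
      calc w * U * (sst U + 1) = w * (U * sst U + U) := by
            simp only [Matrix.mul_assoc, Matrix.mul_add, Matrix.mul_one]
        _ = w * (U + 1) := by rw [hUi2, add_comm]
        _ = 1 := hw2
    have e3 : (sst U + 1) * (w * U) = 1 := mul_eq_one_comm.1 e2
    calc sst w = sst w * ((sst U + 1) * (w * U)) := by rw [e3, Matrix.mul_one]
      _ = (sst w * (sst U + 1)) * (w * U) := by rw [Matrix.mul_assoc]
      _ = w * U := by rw [e1, Matrix.one_mul]
  have hstn : sst n = -n := by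
    rw [hndef, sst_mul, hstw, sst_sub, sst_one]
    calc w * U * (sst U - 1) = w * (U * sst U - U) := by
          simp only [Matrix.mul_assoc, Matrix.mul_sub, Matrix.mul_one]
      _ = w * (1 - U) := by rw [hUi2]
      _ = -(w * (U - 1)) := by rw [← Matrix.mul_neg, neg_sub]
      _ = -((U - 1) * w) := by rw [hNw]
  have hcomm_iff : ∀ g : Matrix (Fin m ⊕ Fin m) (Fin m ⊕ Fin m) F,
      g * U = U * g ↔ g * n = n * g := by
    intro g
    constructor
    · intro hg
      have hg1 : g * (U + 1) = (U + 1) * g := by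
        rw [Matrix.mul_add, Matrix.add_mul, hg, Matrix.mul_one, Matrix.one_mul]
      have hgw := hcomm_inv g hg1
      rw [hndef]
      calc g * ((U - 1) * w) = (g * U - g) * w := by
            rw [← Matrix.mul_assoc, Matrix.mul_sub, Matrix.mul_one]
        _ = (U - 1) * (g * w) := by
            rw [hg, ← Matrix.mul_assoc, Matrix.sub_mul U 1 g, Matrix.one_mul]
        _ = (U - 1) * w * g := by rw [hgw, Matrix.mul_assoc]
    · intro hg
      have hnil_n : IsNilpotent n := ⟨2 * m, hn0⟩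
      have hunit : IsUnit (1 + -n) := hnil_n.neg.isUnit_one_add
      have hrel : (1 + -n) * U = 1 + n := by
        have h3 := hnU
        rw [Matrix.mul_add, Matrix.mul_one] at h3
        have h' : n * U = U - 1 - n := eq_sub_of_add_eq h3
        rw [Matrix.add_mul, Matrix.one_mul, Matrix.neg_mul, h']
        abel
      have hg1 : g * (1 + -n) = (1 + -n) * g := by
        rw [Matrix.mul_add, Matrix.add_mul, Matrix.mul_neg, Matrix.neg_mul, hg, Matrix.mul_one,
          Matrix.one_mul]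
      have hg2 : g * (1 + n) = (1 + n) * g := by
        rw [Matrix.mul_add, Matrix.add_mul, hg, Matrix.mul_one, Matrix.one_mul]
      apply hunit.mul_left_cancel
      calc (1 + -n) * (g * U) = g * ((1 + -n) * U) := by
            rw [← Matrix.mul_assoc, ← hg1, Matrix.mul_assoc]
        _ = (1 + n) * g := by rw [hrel, hg2]
        _ = (1 + -n) * (U * g) := by rw [← Matrix.mul_assoc, hrel]
  have hn' : n ^ (2 * m - 1) ≠ 0 := by
    have := pow_pred_ne_zero n (by rw [hcard]; omega) (by rw [hcard]; exact hnrank)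
    rwa [hcard] at this
  have hcount := card_commutant_solutions' n (2 * m) hcard (by omega) hn0 hn' sst sst_add sst_mul
    sst_smul sst_one hstn
  have hcent : Nat.card ↥(Subgroup.centralizer ({u} : Set ↥(Matrix.symplecticGroup (Fin m) F)))
      = Nat.card {g : Matrix (Fin m ⊕ Fin m) (Fin m ⊕ Fin m) F //
          g * n = n * g ∧ sst g * g = 1} := by
    apply Nat.card_congr
    refine Equiv.ofBijective
      (fun x => ⟨(x.1 : Matrix (Fin m ⊕ Fin m) (Fin m ⊕ Fin m) F), ?_, ?_⟩) ⟨?_, ?_⟩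
    · have hx := (Subgroup.mem_centralizer_iff.1 x.2) u (Set.mem_singleton _)
      have hx' := congrArg
        (fun y : ↥(Matrix.symplecticGroup (Fin m) F) =>
          (y : Matrix (Fin m ⊕ Fin m) (Fin m ⊕ Fin m) F)) hx
      simp only [Submonoid.coe_mul] at hx'
      rw [← hcomm_iff, hU]
      exact hx'.symm
    · exact (mem_sp_iff _).1 x.1.2
    · intro x y hxy
      apply Subtype.ext
      apply Subtype.ext
      simp only [Subtype.mk.injEq] at hxy
      exact hxy
    · rintro ⟨g, hg1, hg2⟩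
      have hgsp : g ∈ Matrix.symplecticGroup (Fin m) F := (mem_sp_iff g).2 hg2
      refine ⟨⟨⟨g, hgsp⟩, ?_⟩, rfl⟩
      rw [Subgroup.mem_centralizer_iff]
      intro y hy
      rw [Set.mem_singleton_iff] at hy
      rw [hy]
      apply Subtype.ext
      show (u : Matrix (Fin m ⊕ Fin m) (Fin m ⊕ Fin m) F) * g
        = g * (u : Matrix (Fin m ⊕ Fin m) (Fin m ⊕ Fin m) F)
      rw [← hU]
      exact ((hcomm_iff g).2 hg1).symm
  rw [hcent, hcount]
  have := tp_finite (F := F) (2 * m)
  rw [cayley_count h2 (tpSigma (2 * m)) (tpEps (2 * m) (by omega)) (tpEps_sigma _ _)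
    (tp_isUnit _ _), tp_minus_card h2, hF]

end Sp

/-- Over a finite field with q elements, q odd, the centraliser in Sp_2m(F) (m ≥ 1) of a regular unipotent element (u − 1 nilpotent of rank 2m − 1) has order 2 q^m. -/
theorem result {F : Type*} [Field F] [Fintype F] {q : ℕ} (hF : Fintype.card F = q) (hq : Odd q) {m : ℕ} (hm : 1 ≤ m) (u : Matrix.symplecticGroup (Fin m) F) (hnil : ((u : Matrix (Fin m ⊕ Fin m) (Fin m ⊕ Fin m) F) - 1) ^ (2 * m) = 0) (hreg : ((u : Matrix (Fin m ⊕ Fin m) (Fin m ⊕ Fin m) F) - 1).rank = 2 * m - 1) : Nat.card ↥(Subgroup.centralizer ({u} : Set ↥(Matrix.symplecticGroup (Fin m) F))) = 2 * q ^ m := by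
  exact main hF hq hm u hnil hreg

end Cfsg.Agent.S2592
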