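import Cfsg.Statements.S2591
import Mathlib
import Cfsg.Agent.S2592
import Cfsg.Agent.Lib.Helper16.CyclicNil2
import Cfsg.Agent.Lib.Helper16.TruncPoly2

set_option autoImplicit false
open Cfsg

namespace Cfsg.Agent.S2591


set_option linter.unusedSectionVars false
set_option linter.unusedVariables false


open Matrix Cfsg.Agent.Lib.Helper16 Cfsg.Agent.S2592

section RU

variable {F : Type*} [Field F] {m : ℕ}

theorem card_sum_fin : Fintype.card (Fin m ⊕ Fin m) = 2 * m := by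
  rw [Fintype.card_sum, Fintype.card_fin, two_mul]

theorem sst_sst (g : Matrix (Fin m ⊕ Fin m) (Fin m ⊕ Fin m) F) : sst (sst g) = g := by
  unfold sst
  rw [Matrix.transpose_mul, Matrix.transpose_mul, Matrix.transpose_transpose,
    Matrix.transpose_neg, Matrix.J_transpose, neg_neg]
  calc (-(Matrix.J (Fin m) F)) * ((-(Matrix.J (Fin m) F)) * (g * Matrix.J (Fin m) F))
        * Matrix.J (Fin m) F
      = ((-(Matrix.J (Fin m) F)) * (-(Matrix.J (Fin m) F))) * g
        * (Matrix.J (Fin m) F * Matrix.J (Fin m) F) := by simp only [Matrix.mul_assoc]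
    _ = g := by
        rw [neg_mul_neg, Matrix.J_squared]
        simp

theorem sst_fromBlocks (A B C D : Matrix (Fin m) (Fin m) F) :
    sst (Matrix.fromBlocks A B C D) = Matrix.fromBlocks Dᵀ (-Bᵀ) (-Cᵀ) Aᵀ := by
  unfold sst Matrix.J
  rw [Matrix.fromBlocks_transpose, Matrix.fromBlocks_neg, Matrix.fromBlocks_multiply,
    Matrix.fromBlocks_multiply]
  simp

/-- The lower shift. -/
def shiftA (F : Type*) [Field F] (m : ℕ) : Matrix (Fin m) (Fin m) F :=
  Matrix.of fun i j => if i.val = j.val + 1 then 1 else 0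

/-- The corner matrix unit. -/
def cornerC (F : Type*) [Field F] (m : ℕ) : Matrix (Fin m) (Fin m) F :=
  Matrix.of fun i j => if i.val + 1 = m ∧ j.val + 1 = m then 1 else 0

/-- An explicit regular nilpotent element of the symplectic algebra. -/
def nZero (F : Type*) [Field F] (m : ℕ) : Matrix (Fin m ⊕ Fin m) (Fin m ⊕ Fin m) F :=
  Matrix.fromBlocks (shiftA F m) 0 (cornerC F m) (-(shiftA F m)ᵀ)

theorem cornerC_transpose : (cornerC F m)ᵀ = cornerC F m := by
  ext i j
  simp [cornerC, and_comm]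

theorem sst_nZero : sst (nZero F m) = -nZero F m := by
  unfold nZero
  rw [sst_fromBlocks, Matrix.fromBlocks_neg, Matrix.transpose_neg, Matrix.transpose_transpose,
    cornerC_transpose, Matrix.transpose_zero, neg_zero, neg_neg]

/-- First components of the chain vectors. -/
def fK (F : Type*) [Field F] (m : ℕ) (k : ℕ) : Fin m → F := fun i => if i.val = k then 1 else 0

/-- Second components of the chain vectors. -/
def gK (F : Type*) [Field F] (m : ℕ) (k : ℕ) : Fin m → F :=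
  fun j => if j.val + k + 1 = 2 * m then (-1) ^ (k + m) else 0

/-- The chain vectors. -/
def chainV (F : Type*) [Field F] (m : ℕ) (k : ℕ) : Fin m ⊕ Fin m → F :=
  Sum.elim (fK F m k) (gK F m k)

theorem shiftA_mulVec (k : ℕ) : shiftA F m *ᵥ fK F m k = fK F m (k + 1) := by
  funext i
  unfold shiftA fK
  simp only [Matrix.mulVec, dotProduct, Matrix.of_apply]
  by_cases h : i.val = k + 1
  · rw [if_pos h, Finset.sum_eq_single ⟨k, by have := i.2; omega⟩]
    · simp [h]
    · intro j _ hj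
      have : j.val ≠ k := fun e => hj (Fin.ext e)
      simp [this]
    · intro h'
      exact absurd (Finset.mem_univ _) h'
  · rw [if_neg h]
    apply Finset.sum_eq_zero
    intro j _
    by_cases hj : j.val = k
    · have : ¬ (i.val = j.val + 1) := by omega
      simp [this]
    · simp [hj]

theorem cornerC_mulVec (k : ℕ) :
    cornerC F m *ᵥ fK F m k = fun i => if i.val + 1 = m ∧ k + 1 = m then 1 else 0 := by
  funext i
  unfold cornerC fK
  simp only [Matrix.mulVec, dotProduct, Matrix.of_apply]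
  by_cases h : i.val + 1 = m ∧ k + 1 = m
  · rw [if_pos h, Finset.sum_eq_single ⟨k, by omega⟩]
    · simp [h]
    · intro j _ hj
      have : j.val ≠ k := fun e => hj (Fin.ext e)
      simp [this]
    · intro h'
      exact absurd (Finset.mem_univ _) h'
  · rw [if_neg h]
    apply Finset.sum_eq_zero
    intro j _
    by_cases hj : j.val = k
    · have : ¬ (i.val + 1 = m ∧ j.val + 1 = m) := by
        rw [hj]
        exact h
      simp [this]
    · simp [hj]

theorem negShiftT_mulVec (k : ℕ) :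
    (-(shiftA F m)ᵀ) *ᵥ gK F m k
      = fun i => if i.val + k + 2 = 2 * m ∧ i.val + 1 < m then -(-1) ^ (k + m) else 0 := by
  funext i
  unfold shiftA gK
  simp only [Matrix.mulVec, dotProduct, Matrix.neg_apply, Matrix.transpose_apply, Matrix.of_apply]
  by_cases h : i.val + k + 2 = 2 * m ∧ i.val + 1 < m
  · rw [if_pos h, Finset.sum_eq_single ⟨i.val + 1, h.2⟩]
    · have : i.val + 1 + k + 1 = 2 * m := by omega
      simp [this]
    · intro j _ hj
      have : j.val ≠ i.val + 1 := fun e => hj (Fin.ext e)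
      simp [this]
    · intro h'
      exact absurd (Finset.mem_univ _) h'
  · rw [if_neg h]
    apply Finset.sum_eq_zero
    intro j _
    by_cases hj : j.val = i.val + 1
    · have : ¬ (j.val + k + 1 = 2 * m) := by
        have := j.2
        omega
      simp [this]
    · simp [hj]

theorem nZero_chain (k : ℕ) : nZero F m *ᵥ chainV F m k = chainV F m (k + 1) := by
  unfold nZero chainV
  rw [Matrix.fromBlocks_mulVec]
  simp only [Sum.elim_comp_inl, Sum.elim_comp_inr, Matrix.zero_mulVec, add_zero]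
  rw [shiftA_mulVec, cornerC_mulVec, negShiftT_mulVec]
  congr 1
  funext i
  simp only [Pi.add_apply]
  unfold gK
  have hi := i.2
  by_cases h1 : k + 1 = m
  · have e1 : ¬ (i.val + k + 2 = 2 * m ∧ i.val + 1 < m) := by omega
    rw [if_neg e1, add_zero]
    by_cases h3 : i.val + 1 = m
    · rw [if_pos ⟨h3, h1⟩, if_pos (by omega)]
      rw [Even.neg_one_pow ⟨m, by omega⟩]
    · rw [if_neg (fun h => h3 h.1), if_neg (by omega)]
  · have e1 : ¬ (i.val + 1 = m ∧ k + 1 = m) := fun h => h1 h.2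
    rw [if_neg e1, zero_add]
    by_cases h3 : i.val + (k + 1) + 1 = 2 * m
    · rw [if_pos h3, if_pos (by omega)]
      rw [show k + 1 + m = (k + m) + 1 by ring, pow_succ]
      ring
    · rw [if_neg h3, if_neg (by omega)]

theorem nZero_pow_chain (k : ℕ) : (nZero F m ^ k) *ᵥ chainV F m 0 = chainV F m k := by
  induction k with
  | zero => rw [pow_zero, Matrix.one_mulVec]
  | succ k ih => rw [pow_succ', ← Matrix.mulVec_mulVec, ih, nZero_chain]

theorem nZero_pow_ne (hm : 1 ≤ m) : nZero F m ^ (2 * m - 1) ≠ 0 := by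
  intro h
  have h1 := nZero_pow_chain (F := F) (m := m) (2 * m - 1)
  rw [h, Matrix.zero_mulVec] at h1
  have h3 := congrFun h1 (Sum.inr ⟨0, hm⟩)
  unfold chainV gK at h3
  simp only [Pi.zero_apply, Sum.elim_inr] at h3
  rw [if_pos (by omega)] at h3
  exact pow_ne_zero _ (neg_ne_zero.2 one_ne_zero) h3.symm

theorem chainV_large (k : ℕ) (hk : 2 * m ≤ k) : chainV F m k = 0 := by
  funext a
  unfold chainV fK gK
  rcases a with i | j
  · have := i.2
    simp only [Sum.elim_inl, Pi.zero_apply]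
    rw [if_neg (by omega)]
  · simp only [Sum.elim_inr, Pi.zero_apply]
    rw [if_neg (by omega)]

theorem nZero_pow_kill (k : ℕ) : (nZero F m ^ (2 * m)) *ᵥ chainV F m k = 0 := by
  rw [← nZero_pow_chain, Matrix.mulVec_mulVec, ← pow_add, nZero_pow_chain,
    chainV_large _ (by omega)]

theorem nZero_pow_zero : nZero F m ^ (2 * m) = 0 := by
  have key : ∀ b : Fin m ⊕ Fin m, (nZero F m ^ (2 * m)) *ᵥ Pi.single b 1 = 0 := by
    intro b
    rcases b with i | j
    · have : (Pi.single (Sum.inl i) 1 : Fin m ⊕ Fin m → F) = chainV F m i.val := by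
        funext a
        unfold chainV fK gK
        rcases a with i' | j'
        · simp only [Sum.elim_inl, Pi.single_apply, Sum.inl.injEq]
          simp only [Fin.ext_iff]
        · have := i.2
          have := j'.2
          simp only [Sum.elim_inr, Pi.single_apply]
          rw [if_neg (by simp), if_neg (by omega)]
      rw [this, nZero_pow_kill]
    · have : (Pi.single (Sum.inr j) 1 : Fin m ⊕ Fin m → F)
          = ((-1 : F) ^ ((2 * m - 1 - j.val) + m)) • chainV F m (2 * m - 1 - j.val) := by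
        funext a
        unfold chainV fK gK
        have hj := j.2
        rcases a with i' | j'
        · have := i'.2
          simp only [Pi.smul_apply, Sum.elim_inl, Pi.single_apply, smul_eq_mul]
          rw [if_neg (by simp), if_neg (by omega), mul_zero]
        · have := j'.2
          simp only [Pi.smul_apply, Sum.elim_inr, Pi.single_apply, smul_eq_mul, Sum.inr.injEq]
          by_cases hjj : j' = j
          · rw [if_pos hjj, if_pos (by rw [hjj]; omega), ← pow_add, Even.neg_one_pow ⟨_, rfl⟩]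
          · rw [if_neg hjj, if_neg (by
              intro h
              apply hjj
              apply Fin.ext
              omega), mul_zero]
      rw [this, Matrix.mulVec_smul, nZero_pow_kill, smul_zero]
  ext a b
  have := congrFun (key b) a
  rw [Matrix.mulVec_single_one] at this
  exact this

/-- A similitude of the symplectic form with multiplier `d`. -/
def simH (d : F) : Matrix (Fin m ⊕ Fin m) (Fin m ⊕ Fin m) F :=
  Matrix.fromBlocks (d • (1 : Matrix (Fin m) (Fin m) F)) 0 0 1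

theorem simH_mul (d e : F) (hde : d * e = 1) :
    (simH d : Matrix (Fin m ⊕ Fin m) (Fin m ⊕ Fin m) F) * simH e = 1 := by
  unfold simH
  rw [Matrix.fromBlocks_multiply]
  simp only [Matrix.smul_mul, Matrix.mul_smul, Matrix.one_mul, Matrix.mul_zero, Matrix.zero_mul,
    add_zero, zero_add, smul_zero, smul_smul]
  rw [mul_comm e d, hde, one_smul]
  exact Matrix.fromBlocks_one

theorem sst_simH (d : F) :
    sst (simH d : Matrix (Fin m ⊕ Fin m) (Fin m ⊕ Fin m) F) * simH d = d • 1 := by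
  unfold simH
  rw [sst_fromBlocks, Matrix.fromBlocks_multiply]
  simp only [Matrix.transpose_one, Matrix.transpose_zero, neg_zero, Matrix.transpose_smul,
    Matrix.one_mul, Matrix.mul_zero, Matrix.zero_mul, add_zero, zero_add, Matrix.mul_one]
  rw [← Matrix.fromBlocks_one, Matrix.fromBlocks_smul, smul_zero]

theorem inv_intertwine (a b h hi : Matrix (Fin m ⊕ Fin m) (Fin m ⊕ Fin m) F)
    (hh1 : h * hi = 1) (hh2 : hi * h = 1) (hab : h * a = b * h) : hi * b = a * hi := by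
  calc hi * b = hi * b * (h * hi) := by rw [hh1, Matrix.mul_one]
    _ = hi * (b * h) * hi := by simp only [Matrix.mul_assoc]
    _ = hi * (h * a) * hi := by rw [hab]
    _ = (hi * h) * a * hi := by simp only [Matrix.mul_assoc]
    _ = a * hi := by rw [hh2, Matrix.one_mul]

theorem sst_inv_sim {δ : F} (hδ : δ ≠ 0) (h hi : Matrix (Fin m ⊕ Fin m) (Fin m ⊕ Fin m) F)
    (hh1 : h * hi = 1) (hh : sst h * h = δ • 1) : sst hi * hi = δ⁻¹ • 1 := by
  have e2 : sst hi * sst h = 1 := by rw [← sst_mul, hh1, sst_one]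
  calc sst hi * hi = sst hi * (δ⁻¹ • (sst h * h)) * hi := by
        rw [hh, smul_smul, inv_mul_cancel₀ hδ, one_smul, Matrix.mul_one]
    _ = δ⁻¹ • ((sst hi * sst h) * (h * hi)) := by
        simp only [Matrix.mul_smul, Matrix.smul_mul, Matrix.mul_assoc]
    _ = δ⁻¹ • 1 := by rw [e2, hh1, Matrix.one_mul]

theorem sp_conj_of {δ : F} (hδ : δ ≠ 0)
    (n₀ n₁ n K c ci h hi : Matrix (Fin m ⊕ Fin m) (Fin m ⊕ Fin m) F)
    (hc1 : c * ci = 1) (hc2 : ci * c = 1) (hh1 : h * hi = 1) (hh2 : hi * h = 1)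
    (hh : sst h * h = δ • 1) (hcn : c * n₀ = n₀ * c) (hK : K * n₀ = n * K)
    (hn₁ : h * n₀ = n₁ * h) (hKK : sst K * K = δ • (sst c * c)) :
    ∃ g : Matrix (Fin m ⊕ Fin m) (Fin m ⊕ Fin m) F, sst g * g = 1 ∧ g * n₁ = n * g := by
  refine ⟨K * ci * hi, ?_, ?_⟩
  · have e1 : sst ci * sst c = 1 := by rw [← sst_mul, hc1, sst_one]
    have e3 := sst_inv_sim hδ h hi hh1 hh
    calc sst (K * ci * hi) * (K * ci * hi) = sst hi * (sst ci * (sst K * K) * ci) * hi := by
          rw [sst_mul, sst_mul]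
          simp only [Matrix.mul_assoc]
      _ = sst hi * (δ • ((sst ci * sst c) * (c * ci))) * hi := by
          rw [hKK]
          simp only [Matrix.mul_smul, Matrix.smul_mul, Matrix.mul_assoc]
      _ = δ • (sst hi * hi) := by
          rw [e1, hc1, Matrix.one_mul, Matrix.mul_smul, Matrix.smul_mul, Matrix.mul_one]
      _ = 1 := by rw [e3, smul_smul, mul_inv_cancel₀ hδ, one_smul]
  · have e1 : hi * n₁ = n₀ * hi := inv_intertwine n₀ n₁ h hi hh1 hh2 hn₁
    have e2 : ci * n₀ = n₀ * ci := inv_intertwine n₀ n₀ c ci hc1 hc2 hcn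
    calc K * ci * hi * n₁ = K * ci * (hi * n₁) := by rw [Matrix.mul_assoc]
      _ = K * (ci * n₀) * hi := by
          rw [e1]
          simp only [Matrix.mul_assoc]
      _ = (K * n₀) * ci * hi := by
          rw [e2]
          simp only [Matrix.mul_assoc]
      _ = n * (K * ci * hi) := by
          rw [hK]
          simp only [Matrix.mul_assoc]

theorem sp_not_conj (hm : 1 ≤ m) {d : F} (hd : ¬ IsSquare d)
    (n₀ n₁ h hi : Matrix (Fin m ⊕ Fin m) (Fin m ⊕ Fin m) F)
    (hn0 : n₀ ^ (2 * m) = 0) (hn0' : n₀ ^ (2 * m - 1) ≠ 0) (hstn : sst n₀ = -n₀)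
    (hh1 : h * hi = 1) (hh2 : hi * h = 1) (hh : sst h * h = d • 1) (hn₁ : h * n₀ = n₁ * h)
    (g : Matrix (Fin m ⊕ Fin m) (Fin m ⊕ Fin m) F) (hg : sst g * g = 1)
    (hgn : g * n₀ = n₁ * g) : False := by
  classical
  have hd0 : d ≠ 0 := by
    rintro rfl
    exact hd ⟨0, by simp⟩
  have e1 : hi * n₁ = n₀ * hi := inv_intertwine n₀ n₁ h hi hh1 hh2 hn₁
  have hC : (hi * g) * n₀ = n₀ * (hi * g) := by
    rw [Matrix.mul_assoc, hgn, ← Matrix.mul_assoc, e1, Matrix.mul_assoc]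
  have e3 := sst_inv_sim hd0 h hi hh1 hh
  have hCC : sst (hi * g) * (hi * g) = d⁻¹ • 1 := by
    calc sst (hi * g) * (hi * g) = sst g * (sst hi * hi) * g := by
          rw [sst_mul]
          simp only [Matrix.mul_assoc]
      _ = d⁻¹ • (sst g * g) := by
          rw [e3, Matrix.mul_smul, Matrix.smul_mul, Matrix.mul_one]
      _ = d⁻¹ • 1 := by rw [hg]
  have hsq := skew_cyclic_square n₀ (2 * m) card_sum_fin (by omega) hn0 hn0' sst sst_add sst_mul
    sst_smul sst_one hstn (hi * g) hC d⁻¹ hCC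
  obtain ⟨e, he⟩ := hsq
  apply hd
  exact ⟨e⁻¹, by rw [← mul_inv, ← he, inv_inv]⟩

theorem skew_dichotomy [Fintype F] (h2 : (2 : F) ≠ 0) (hm : 1 ≤ m) {d : F} (hd : ¬ IsSquare d)
    (n₀ n₁ n h hi : Matrix (Fin m ⊕ Fin m) (Fin m ⊕ Fin m) F)
    (hn0 : n₀ ^ (2 * m) = 0) (hn0' : n₀ ^ (2 * m - 1) ≠ 0) (hstn0 : sst n₀ = -n₀)
    (hn : n ^ (2 * m) = 0) (hn' : n ^ (2 * m - 1) ≠ 0) (hstn : sst n = -n)
    (hh1 : h * hi = 1) (hh2 : hi * h = 1) (hh : sst h * h = d • 1) (hn₁ : h * n₀ = n₁ * h) :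
    (∃ g : Matrix (Fin m ⊕ Fin m) (Fin m ⊕ Fin m) F, sst g * g = 1 ∧ g * n₀ = n * g) ∨
    (∃ g : Matrix (Fin m ⊕ Fin m) (Fin m ⊕ Fin m) F, sst g * g = 1 ∧ g * n₁ = n * g) := by
  classical
  have hd0 : d ≠ 0 := by
    rintro rfl
    exact hd ⟨0, by simp⟩
  have hcard := card_sum_fin (m := m)
  obtain ⟨K, hKdet, hK⟩ := cyclic_conj n₀ n (by rw [hcard]; exact hn0) (by rw [hcard]; exact hn0')
    (by rw [hcard]; exact hn) (by rw [hcard]; exact hn')
  obtain ⟨Ki, hKi1, hKi2⟩ : ∃ Ki : Matrix (Fin m ⊕ Fin m) (Fin m ⊕ Fin m) F,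
      K * Ki = 1 ∧ Ki * K = 1 :=
    ⟨K⁻¹, Matrix.mul_nonsing_inv K hKdet, Matrix.nonsing_inv_mul K hKdet⟩
  have hy : (sst K * K) * n₀ = n₀ * (sst K * K) := by
    have e : n₀ * sst K = sst K * n := by
      have := congrArg sst hK
      rw [sst_mul, sst_mul, hstn0, hstn, Matrix.neg_mul, Matrix.mul_neg, neg_inj] at this
      exact this
    rw [Matrix.mul_assoc, hK, ← Matrix.mul_assoc, ← e, Matrix.mul_assoc]
  have hsty : sst (sst K * K) = sst K * K := by rw [sst_mul, sst_sst]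
  have hyi : (sst K * K) * (Ki * sst Ki) = 1 := by
    calc sst K * K * (Ki * sst Ki) = sst K * (K * Ki) * sst Ki := by
          simp only [Matrix.mul_assoc]
      _ = sst (Ki * K) := by rw [hKi1, Matrix.mul_one, sst_mul]
      _ = 1 := by rw [hKi2, sst_one]
  rcases skew_cyclic_norm h2 n₀ (2 * m) hcard (by omega) hn0 hn0' sst sst_add sst_mul sst_smul
    sst_one hstn0 (sst K * K) (Ki * sst Ki) hy hsty hyi d hd with
    ⟨c, ci, hc1, hc2, hc3, hc4⟩ | ⟨c, ci, hc1, hc2, hc3, hc4⟩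
  · left
    exact sp_conj_of (δ := 1) one_ne_zero n₀ n₀ n K c ci 1 1 hc1 hc2 (Matrix.one_mul 1)
      (Matrix.one_mul 1) (by rw [sst_one, Matrix.one_mul, one_smul]) hc3 hK
      (by rw [Matrix.one_mul, Matrix.mul_one]) (by rw [one_smul]; exact hc4)
  · right
    exact sp_conj_of (δ := d) hd0 n₀ n₁ n K c ci h hi hc1 hc2 hh1 hh2 hh hc3 hK hn₁ hc4

theorem two_isUnit (h2 : (2 : F) ≠ 0) :
    IsUnit (2 : Matrix (Fin m ⊕ Fin m) (Fin m ⊕ Fin m) F) := by
  have : (2 : Matrix (Fin m ⊕ Fin m) (Fin m ⊕ Fin m) F)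
      = algebraMap F (Matrix (Fin m ⊕ Fin m) (Fin m ⊕ Fin m) F) 2 := by
    rw [map_ofNat]
  rw [this]
  exact (isUnit_iff_ne_zero.2 h2).map _

theorem unip_add_one_isUnit (h2 : (2 : F) ≠ 0) (U : Matrix (Fin m ⊕ Fin m) (Fin m ⊕ Fin m) F)
    (hnilN : IsNilpotent (U - 1)) : IsUnit (U + 1) := by
  have : U + 1 = 2 + (U - 1) := by
    rw [← one_add_one_eq_two]
    abel
  rw [this]
  apply hnilN.isUnit_add_left_of_commute (two_isUnit h2)
  show (U - 1) * 2 = 2 * (U - 1)
  rw [mul_two, two_mul]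

theorem reg_unip_data (h2 : (2 : F) ≠ 0) (hm : 1 ≤ m)
    (U : Matrix (Fin m ⊕ Fin m) (Fin m ⊕ Fin m) F)
    (hUi1 : sst U * U = 1) (hnil : (U - 1) ^ (2 * m) = 0) (hreg : (U - 1).rank = 2 * m - 1) :
    ∃ n : Matrix (Fin m ⊕ Fin m) (Fin m ⊕ Fin m) F,
      n ^ (2 * m) = 0 ∧ n ^ (2 * m - 1) ≠ 0 ∧ sst n = -n ∧ n * (U + 1) = U - 1 := by
  classical
  have hcard := card_sum_fin (m := m)
  have hUi2 : U * sst U = 1 := mul_eq_one_comm.1 hUi1
  have hnilN : IsNilpotent (U - 1) := ⟨2 * m, hnil⟩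
  have hU1 : IsUnit (U + 1) := unip_add_one_isUnit h2 U hnilN
  obtain ⟨uu, huu⟩ := hU1
  obtain ⟨w, hwdef⟩ : ∃ w : Matrix (Fin m ⊕ Fin m) (Fin m ⊕ Fin m) F, w = ↑uu⁻¹ := ⟨_, rfl⟩
  have hw1 : (U + 1) * w = 1 := by
    rw [hwdef, ← huu]
    exact uu.mul_inv
  have hw2 : w * (U + 1) = 1 := by
    rw [hwdef, ← huu]
    exact uu.inv_mul
  have hcomm_inv : ∀ a : Matrix (Fin m ⊕ Fin m) (Fin m ⊕ Fin m) F,
      a * (U + 1) = (U + 1) * a → a * w = w * a := by
    intro a ha
    calc a * w = w * (U + 1) * (a * w) := by rw [hw2, Matrix.one_mul]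
      _ = w * ((U + 1) * a) * w := by simp only [Matrix.mul_assoc]
      _ = w * (a * (U + 1)) * w := by rw [ha]
      _ = w * a * ((U + 1) * w) := by simp only [Matrix.mul_assoc]
      _ = w * a := by rw [hw1, Matrix.mul_one]
  have hUw : U * w = w * U :=
    hcomm_inv U (by rw [Matrix.mul_add, Matrix.add_mul, Matrix.mul_one, Matrix.one_mul])
  have hNw : (U - 1) * w = w * (U - 1) := by
    rw [Matrix.sub_mul, Matrix.mul_sub, hUw, Matrix.one_mul, Matrix.mul_one]
  obtain ⟨n, hndef⟩ : ∃ n : Matrix (Fin m ⊕ Fin m) (Fin m ⊕ Fin m) F, n = (U - 1) * w :=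
    ⟨_, rfl⟩
  have hn0 : n ^ (2 * m) = 0 := by
    rw [hndef, (show Commute (U - 1) w from hNw).mul_pow, hnil, Matrix.zero_mul]
  have hwdet : IsUnit w.det :=
    IsUnit.of_mul_eq_one (det (U + 1)) (by rw [← Matrix.det_mul, hw2, Matrix.det_one])
  have hnrank : n.rank = 2 * m - 1 := by
    rw [hndef, Matrix.rank_mul_eq_left_of_isUnit_det _ _ hwdet, hreg]
  have hnU : n * (U + 1) = U - 1 := by
    rw [hndef, Matrix.mul_assoc, hw2, Matrix.mul_one]
  have hstw : sst w = w * U := by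
    have e1 : sst w * (sst U + 1) = 1 := by
      have := congrArg sst hw1
      rwa [sst_mul, sst_add, sst_one] at this
    have e2 : w * U * (sst U + 1) = 1 := by
      calc w * U * (sst U + 1) = w * (U * sst U + U) := by
            simp only [Matrix.mul_assoc, Matrix.mul_add, Matrix.mul_one]
        _ = w * (U + 1) := by rw [hUi2, add_comm]
        _ = 1 := hw2
    have e3 : (sst U + 1) * (w * U) = 1 := mul_eq_one_comm.1 e2
    calc sst w = sst w * ((sst U + 1) * (w * U)) := by rw [e3, Matrix.mul_one]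
      _ = (sst w * (sst U + 1)) * (w * U) := by rw [Matrix.mul_assoc]
      _ = w * U := by rw [e1, Matrix.one_mul]
  have hstn : sst n = -n := by
    rw [hndef, sst_mul, hstw, sst_sub, sst_one]
    calc w * U * (sst U - 1) = w * (U * sst U - U) := by
          simp only [Matrix.mul_assoc, Matrix.mul_sub, Matrix.mul_one]
      _ = w * (1 - U) := by rw [hUi2]
      _ = -(w * (U - 1)) := by rw [← Matrix.mul_neg, neg_sub]
      _ = -((U - 1) * w) := by rw [hNw]
  have hn' : n ^ (2 * m - 1) ≠ 0 := by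
    have := pow_pred_ne_zero n (by rw [hcard]; omega) (by rw [hcard]; exact hnrank)
    rwa [hcard] at this
  exact ⟨n, hn0, hn', hstn, hnU⟩

theorem cayley_back (h2 : (2 : F) ≠ 0) (hm : 1 ≤ m)
    (n : Matrix (Fin m ⊕ Fin m) (Fin m ⊕ Fin m) F)
    (hn0 : n ^ (2 * m) = 0) (hn1 : n ^ (2 * m - 1) ≠ 0) (hstn : sst n = -n) :
    ∃ U : Matrix (Fin m ⊕ Fin m) (Fin m ⊕ Fin m) F,
      sst U * U = 1 ∧ (U - 1) ^ (2 * m) = 0 ∧ (U - 1).rank = 2 * m - 1 ∧ n * (U + 1) = U - 1 := by
  classical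
  have hcard := card_sum_fin (m := m)
  have hnil : IsNilpotent n := ⟨2 * m, hn0⟩
  obtain ⟨vu, hvu⟩ := hnil.isUnit_one_sub
  obtain ⟨v, hvdef⟩ : ∃ v : Matrix (Fin m ⊕ Fin m) (Fin m ⊕ Fin m) F, v = ↑vu⁻¹ := ⟨_, rfl⟩
  have hv1 : (1 - n) * v = 1 := by
    rw [hvdef, ← hvu]
    exact vu.mul_inv
  have hv2 : v * (1 - n) = 1 := by
    rw [hvdef, ← hvu]
    exact vu.inv_mul
  have hnv : n * v = v * n := by
    have e : n * (1 - n) = (1 - n) * n := by
      rw [Matrix.mul_sub, Matrix.sub_mul, Matrix.mul_one, Matrix.one_mul]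
    calc n * v = v * (1 - n) * (n * v) := by rw [hv2, Matrix.one_mul]
      _ = v * ((1 - n) * n) * v := by simp only [Matrix.mul_assoc]
      _ = v * (n * (1 - n)) * v := by rw [e]
      _ = v * n * ((1 - n) * v) := by simp only [Matrix.mul_assoc]
      _ = v * n := by rw [hv1, Matrix.mul_one]
  have hsv : sst v * (1 + n) = 1 := by
    have := congrArg sst hv1
    rw [sst_mul, sst_sub, sst_one, hstn, sub_neg_eq_add] at this
    exact this
  have hUm : (1 + n) * v - 1 = n * ((2 : F) • v) := by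
    calc (1 + n) * v - 1 = (1 + n) * v - (1 - n) * v := by rw [hv1]
      _ = n * ((2 : F) • v) := by
          rw [Matrix.mul_smul, two_smul, Matrix.add_mul, Matrix.sub_mul, Matrix.one_mul]
          abel
  have hUp : (1 + n) * v + 1 = (2 : F) • v := by
    calc (1 + n) * v + 1 = (1 + n) * v + (1 - n) * v := by rw [hv1]
      _ = (2 : F) • v := by
          rw [two_smul, Matrix.add_mul, Matrix.sub_mul, Matrix.one_mul]
          abel
  refine ⟨(1 + n) * v, ?_, ?_, ?_, ?_⟩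
  · rw [sst_mul, sst_add, sst_one, hstn]
    have e : (1 + -n) * (1 + n) = (1 + n) * (1 - n) := by
      rw [← sub_eq_add_neg]
      simp only [Matrix.mul_add, Matrix.add_mul, Matrix.mul_sub, Matrix.sub_mul, Matrix.one_mul,
        Matrix.mul_one]
      abel
    calc sst v * (1 + -n) * ((1 + n) * v) = sst v * ((1 + -n) * (1 + n)) * v := by
          simp only [Matrix.mul_assoc]
      _ = (sst v * (1 + n)) * ((1 - n) * v) := by
          rw [e]
          simp only [Matrix.mul_assoc]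
      _ = 1 := by rw [hsv, hv1, Matrix.one_mul]
  · rw [hUm, Matrix.mul_smul, smul_pow, (show Commute n v from hnv).mul_pow, hn0,
      Matrix.zero_mul, smul_zero]
  · rw [hUm]
    have hvdet : IsUnit ((2 : F) • v).det := by
      rw [Matrix.det_smul]
      apply IsUnit.mul
      · exact (isUnit_iff_ne_zero.2 h2).pow _
      · exact IsUnit.of_mul_eq_one (det (1 - n)) (by rw [← Matrix.det_mul, hv2, Matrix.det_one])
    rw [Matrix.rank_mul_eq_left_of_isUnit_det _ _ hvdet]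
    have := rank_of_cyclic n (by rw [hcard]; omega) (by rw [hcard]; exact hn0)
      (by rw [hcard]; exact hn1)
    rw [hcard] at this
    exact this
  · rw [hUp, hUm]

theorem intertwine_iff (h2 : (2 : F) ≠ 0)
    (U U' n n' : Matrix (Fin m ⊕ Fin m) (Fin m ⊕ Fin m) F)
    (hn : IsNilpotent n') (hU : n * (U + 1) = U - 1) (hU' : n' * (U' + 1) = U' - 1)
    (hUnip : IsNilpotent (U - 1)) (g : Matrix (Fin m ⊕ Fin m) (Fin m ⊕ Fin m) F) :
    g * U = U' * g ↔ g * n = n' * g := by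
  have hU1 : IsUnit (U + 1) := unip_add_one_isUnit h2 U hUnip
  have hrel : ∀ a b : Matrix (Fin m ⊕ Fin m) (Fin m ⊕ Fin m) F,
      a * (b + 1) = b - 1 → (1 - a) * b = 1 + a := by
    intro a b h3
    rw [Matrix.mul_add, Matrix.mul_one] at h3
    have h' : a * b = b - 1 - a := eq_sub_of_add_eq h3
    rw [Matrix.sub_mul, Matrix.one_mul, h']
    abel
  constructor
  · intro hg
    have hg1 : g * (U + 1) = (U' + 1) * g := by
      rw [Matrix.mul_add, Matrix.add_mul, hg, Matrix.mul_one, Matrix.one_mul]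
    have hg2 : g * (U - 1) = (U' - 1) * g := by
      rw [Matrix.mul_sub, Matrix.sub_mul, hg, Matrix.mul_one, Matrix.one_mul]
    apply hU1.mul_right_cancel
    calc g * n * (U + 1) = g * (n * (U + 1)) := by rw [Matrix.mul_assoc]
      _ = g * (U - 1) := by rw [hU]
      _ = (U' - 1) * g := hg2
      _ = n' * (U' + 1) * g := by rw [hU']
      _ = n' * ((U' + 1) * g) := by rw [Matrix.mul_assoc]
      _ = n' * (g * (U + 1)) := by rw [hg1]
      _ = n' * g * (U + 1) := by rw [Matrix.mul_assoc]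
  · intro hg
    have hunit : IsUnit (1 - n') := hn.isUnit_one_sub
    have hg1 : g * (1 - n) = (1 - n') * g := by
      rw [Matrix.mul_sub, Matrix.sub_mul, hg, Matrix.mul_one, Matrix.one_mul]
    have hg2 : g * (1 + n) = (1 + n') * g := by
      rw [Matrix.mul_add, Matrix.add_mul, hg, Matrix.mul_one, Matrix.one_mul]
    apply hunit.mul_left_cancel
    calc (1 - n') * (g * U) = g * ((1 - n) * U) := by
          rw [← Matrix.mul_assoc, ← hg1, Matrix.mul_assoc]
      _ = (1 + n') * g := by rw [hrel n U hU, hg2]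
      _ = (1 - n') * (U' * g) := by rw [← Matrix.mul_assoc, hrel n' U' hU']

theorem conj_pow_eq (h hi a : Matrix (Fin m ⊕ Fin m) (Fin m ⊕ Fin m) F) (hh1 : h * hi = 1)
    (hh2 : hi * h = 1) (k : ℕ) : (h * a * hi) ^ k = h * a ^ k * hi := by
  induction k with
  | zero => rw [pow_zero, pow_zero, Matrix.mul_one, hh1]
  | succ k ih =>
    rw [pow_succ, ih, pow_succ]
    calc h * a ^ k * hi * (h * a * hi) = h * a ^ k * (hi * h) * a * hi := by
          simp only [Matrix.mul_assoc]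
      _ = h * (a ^ k * a) * hi := by
          rw [hh2, Matrix.mul_one]
          simp only [Matrix.mul_assoc]

theorem main [Fintype F] {q : ℕ} (hF : Fintype.card F = q) (hq : Odd q) (hm : 1 ≤ m) :
    Nat.card {C : ConjClasses ↥(Matrix.symplecticGroup (Fin m) F) //
      ∃ u : Matrix.symplecticGroup (Fin m) F, ConjClasses.mk u = C ∧
        ((u : Matrix (Fin m ⊕ Fin m) (Fin m ⊕ Fin m) F) - 1) ^ (2 * m) = 0 ∧
        ((u : Matrix (Fin m ⊕ Fin m) (Fin m ⊕ Fin m) F) - 1).rank = 2 * m - 1} = 2 := by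
  classical
  have hchar : ringChar F ≠ 2 := by
    intro h
    have := FiniteField.even_card_iff_char_two.mp h
    rw [hF] at this
    rcases hq with ⟨k, hk⟩
    omega
  have h2 : (2 : F) ≠ 0 := Ring.two_ne_zero hchar
  obtain ⟨d, hd⟩ := FiniteField.exists_nonsquare hchar
  have hd0 : d ≠ 0 := by
    rintro rfl
    exact hd ⟨0, by simp⟩
  obtain ⟨n₀, hn₀def⟩ : ∃ n₀ : Matrix (Fin m ⊕ Fin m) (Fin m ⊕ Fin m) F, n₀ = nZero F m :=
    ⟨_, rfl⟩
  have hn0 : n₀ ^ (2 * m) = 0 := by rw [hn₀def]; exact nZero_pow_zero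
  have hn0' : n₀ ^ (2 * m - 1) ≠ 0 := by rw [hn₀def]; exact nZero_pow_ne hm
  have hstn0 : sst n₀ = -n₀ := by rw [hn₀def]; exact sst_nZero
  obtain ⟨h, hhdef⟩ : ∃ h : Matrix (Fin m ⊕ Fin m) (Fin m ⊕ Fin m) F, h = simH d := ⟨_, rfl⟩
  obtain ⟨hi, hhidef⟩ : ∃ hi : Matrix (Fin m ⊕ Fin m) (Fin m ⊕ Fin m) F, hi = simH d⁻¹ :=
    ⟨_, rfl⟩
  have hh1 : h * hi = 1 := by rw [hhdef, hhidef]; exact simH_mul d d⁻¹ (mul_inv_cancel₀ hd0)
  have hh2 : hi * h = 1 := by rw [hhdef, hhidef]; exact simH_mul d⁻¹ d (inv_mul_cancel₀ hd0)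
  have hh : sst h * h = d • 1 := by rw [hhdef]; exact sst_simH d
  obtain ⟨n₁, hn₁def⟩ : ∃ n₁ : Matrix (Fin m ⊕ Fin m) (Fin m ⊕ Fin m) F, n₁ = h * n₀ * hi :=
    ⟨_, rfl⟩
  have hn₁ : h * n₀ = n₁ * h := by
    rw [hn₁def, Matrix.mul_assoc, hh2, Matrix.mul_one]
  have hn1 : n₁ ^ (2 * m) = 0 := by
    rw [hn₁def, conj_pow_eq h hi n₀ hh1 hh2, hn0, Matrix.mul_zero, Matrix.zero_mul]
  have hn1' : n₁ ^ (2 * m - 1) ≠ 0 := by
    rw [hn₁def, conj_pow_eq h hi n₀ hh1 hh2]
    intro h0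
    apply hn0'
    calc n₀ ^ (2 * m - 1) = (hi * h) * n₀ ^ (2 * m - 1) * (hi * h) := by
          rw [hh2, Matrix.one_mul, Matrix.mul_one]
      _ = hi * (h * n₀ ^ (2 * m - 1) * hi) * h := by simp only [Matrix.mul_assoc]
      _ = 0 := by rw [h0, Matrix.mul_zero, Matrix.zero_mul]
  have hsth : sst h = d • hi := by
    calc sst h = sst h * (h * hi) := by rw [hh1, Matrix.mul_one]
      _ = (sst h * h) * hi := by rw [Matrix.mul_assoc]
      _ = d • hi := by rw [hh, Matrix.smul_mul, Matrix.one_mul]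
  have hsthi : sst hi = d⁻¹ • h := by
    have e3 := sst_inv_sim hd0 h hi hh1 hh
    calc sst hi = sst hi * (hi * h) := by rw [hh2, Matrix.mul_one]
      _ = (sst hi * hi) * h := by rw [Matrix.mul_assoc]
      _ = d⁻¹ • h := by rw [e3, Matrix.smul_mul, Matrix.one_mul]
  have hstn1 : sst n₁ = -n₁ := by
    rw [hn₁def, sst_mul, sst_mul, hstn0, hsth, hsthi]
    simp only [Matrix.mul_smul, Matrix.smul_mul, Matrix.mul_neg, Matrix.neg_mul, smul_neg,
      smul_smul, Matrix.mul_assoc]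
    rw [mul_inv_cancel₀ hd0, one_smul]
  obtain ⟨U₀, hU0sp, hU0nil, hU0rank, hU0n⟩ := cayley_back h2 hm n₀ hn0 hn0' hstn0
  obtain ⟨U₁, hU1sp, hU1nil, hU1rank, hU1n⟩ := cayley_back h2 hm n₁ hn1 hn1' hstn1
  obtain ⟨u₀, hu₀⟩ : ∃ u₀ : Matrix.symplecticGroup (Fin m) F,
      (u₀ : Matrix (Fin m ⊕ Fin m) (Fin m ⊕ Fin m) F) = U₀ :=
    ⟨⟨U₀, (mem_sp_iff U₀).2 hU0sp⟩, rfl⟩
  obtain ⟨u₁, hu₁⟩ : ∃ u₁ : Matrix.symplecticGroup (Fin m) F,
      (u₁ : Matrix (Fin m ⊕ Fin m) (Fin m ⊕ Fin m) F) = U₁ :=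
    ⟨⟨U₁, (mem_sp_iff U₁).2 hU1sp⟩, rfl⟩
  have hconj : ∀ (a b : Matrix.symplecticGroup (Fin m) F)
      (g : Matrix (Fin m ⊕ Fin m) (Fin m ⊕ Fin m) F), sst g * g = 1 →
      g * (a : Matrix (Fin m ⊕ Fin m) (Fin m ⊕ Fin m) F)
        = (b : Matrix (Fin m ⊕ Fin m) (Fin m ⊕ Fin m) F) * g →
      ConjClasses.mk b = ConjClasses.mk a := by
    intro a b g hg1 hg2
    rw [ConjClasses.mk_eq_mk_iff_isConj, isConj_comm, isConj_iff]
    refine ⟨⟨g, (mem_sp_iff g).2 hg1⟩, ?_⟩
    rw [mul_inv_eq_iff_eq_mul]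
    exact Subtype.ext hg2
  have hne : ConjClasses.mk u₀ ≠ ConjClasses.mk u₁ := by
    intro heq
    rw [ConjClasses.mk_eq_mk_iff_isConj, isConj_iff] at heq
    obtain ⟨g, hg⟩ := heq
    have hg' : g * u₀ = u₁ * g := by
      rw [← hg]
      group
    have hgm : (g : Matrix (Fin m ⊕ Fin m) (Fin m ⊕ Fin m) F) * U₀
        = U₁ * (g : Matrix (Fin m ⊕ Fin m) (Fin m ⊕ Fin m) F) := by
      have := congrArg (fun y : ↥(Matrix.symplecticGroup (Fin m) F) =>
          (y : Matrix (Fin m ⊕ Fin m) (Fin m ⊕ Fin m) F)) hg'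
      simp only [Submonoid.coe_mul] at this
      rw [hu₀, hu₁] at this
      exact this
    have hgn := (intertwine_iff h2 U₀ U₁ n₀ n₁ ⟨2 * m, hn1⟩ hU0n hU1n ⟨2 * m, hU0nil⟩ _).1 hgm
    exact sp_not_conj hm hd n₀ n₁ h hi hn0 hn0' hstn0 hh1 hh2 hh hn₁ _
      ((mem_sp_iff _).1 g.2) hgn
  have hset : {C : ConjClasses ↥(Matrix.symplecticGroup (Fin m) F) |
      ∃ u : Matrix.symplecticGroup (Fin m) F, ConjClasses.mk u = C ∧
        ((u : Matrix (Fin m ⊕ Fin m) (Fin m ⊕ Fin m) F) - 1) ^ (2 * m) = 0 ∧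
        ((u : Matrix (Fin m ⊕ Fin m) (Fin m ⊕ Fin m) F) - 1).rank = 2 * m - 1}
      = {ConjClasses.mk u₀, ConjClasses.mk u₁} := by
    ext C
    simp only [Set.mem_ofPred_eq, Set.mem_insert_iff, Set.mem_singleton_iff]
    constructor
    · rintro ⟨u, rfl, hnil, hrank⟩
      obtain ⟨n, hn, hn', hstn, hnU⟩ := reg_unip_data h2 hm _ ((mem_sp_iff _).1 u.2) hnil hrank
      rcases skew_dichotomy h2 hm hd n₀ n₁ n h hi hn0 hn0' hstn0 hn hn' hstn hh1 hh2 hh hn₁ with
        ⟨g, hg1, hg2⟩ | ⟨g, hg1, hg2⟩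
      · left
        have hgU := (intertwine_iff h2 U₀ _ n₀ n ⟨_, hn⟩ hU0n hnU ⟨_, hU0nil⟩ g).2 hg2
        rw [← hu₀] at hgU
        exact hconj u₀ u g hg1 hgU
      · right
        have hgU := (intertwine_iff h2 U₁ _ n₁ n ⟨_, hn⟩ hU1n hnU ⟨_, hU1nil⟩ g).2 hg2
        rw [← hu₁] at hgU
        exact hconj u₁ u g hg1 hgU
    · rintro (rfl | rfl)
      · exact ⟨u₀, rfl, by rw [hu₀]; exact hU0nil, by rw [hu₀]; exact hU0rank⟩
      · exact ⟨u₁, rfl, by rw [hu₁]; exact hU1nil, by rw [hu₁]; exact hU1rank⟩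
  show Nat.card ↥{C : ConjClasses ↥(Matrix.symplecticGroup (Fin m) F) |
      ∃ u : Matrix.symplecticGroup (Fin m) F, ConjClasses.mk u = C ∧
        ((u : Matrix (Fin m ⊕ Fin m) (Fin m ⊕ Fin m) F) - 1) ^ (2 * m) = 0 ∧
        ((u : Matrix (Fin m ⊕ Fin m) (Fin m ⊕ Fin m) F) - 1).rank = 2 * m - 1} = 2
  rw [hset, Nat.card_coe_set_eq, Set.ncard_pair hne]

end RU

/-- Over a finite field of odd order and for m ≥ 1, the regular unipotent elements of Sp_2m(F) (u − 1 nilpotent of rank 2m − 1, a single Jordan block) form exactly two conjugacy classes of Sp_2m(F) (one class under the similarity group, which splits in two). -/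
theorem result {F : Type*} [Field F] [Fintype F] {q : ℕ} (hF : Fintype.card F = q) (hq : Odd q) {m : ℕ} (hm : 1 ≤ m) : Nat.card {C : ConjClasses ↥(Matrix.symplecticGroup (Fin m) F) // ∃ u : Matrix.symplecticGroup (Fin m) F, ConjClasses.mk u = C ∧ ((u : Matrix (Fin m ⊕ Fin m) (Fin m ⊕ Fin m) F) - 1) ^ (2 * m) = 0 ∧ ((u : Matrix (Fin m ⊕ Fin m) (Fin m ⊕ Fin m) F) - 1).rank = 2 * m - 1} = 2 := by
  exact main hF hq hm

end Cfsg.Agent.S2591
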