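import Cfsg.Statements.S2593
import Cfsg.Agent.Lib.Helper15.SpInvolD
open Cfsg.Agent.Lib.Helper15.SpInvol Matrix

set_option autoImplicit false
open Cfsg

namespace Cfsg.Agent.S2593

/-- Number of conjugacy classes of involutions in the symplectic group Sp_2m(F) over a finite field of characteristic two (m ≥ 1): for each s with 1 ≤ s ≤ m there is one class with rank(t − 1) = s if s is odd and two if s is even (according as v ↦ f(v, tv), f the symplectic form, vanishes identically or not), so m + ⌊m/2⌋ classes in all. -/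
theorem result {F : Type*} [Field F] [Fintype F] [CharP F 2] {m : ℕ} (hm : 1 ≤ m) : Nat.card {C : ConjClasses ↥(Matrix.symplecticGroup (Fin m) F) // ∃ g : Matrix.symplecticGroup (Fin m) F, ConjClasses.mk g = C ∧ orderOf g = 2} = m + m / 2 := by
  classical
  have hk2 : ∀ j : Fin (m / 2), 2 * ((j : ℕ) + 1) ≤ m := fun j => by
    have := j.2
    omega
  have hsq2 : ∀ x : ↥(Matrix.symplecticGroup (Fin m) F), orderOf x = 2 →
      (x : Matrix (Fin m ⊕ Fin m) (Fin m ⊕ Fin m) F) * (x : Matrix (Fin m ⊕ Fin m) (Fin m ⊕ Fin m) F) = 1 := by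
    intro x hx
    have h1 : x ^ 2 = 1 := by rw [← hx]; exact pow_orderOf_eq_one x
    have h2 := congrArg (fun y : ↥(Matrix.symplecticGroup (Fin m) F) =>
      (y : Matrix (Fin m ⊕ Fin m) (Fin m ⊕ Fin m) F)) h1
    simpa [pow_two] using h2
  let S := {C : ConjClasses ↥(Matrix.symplecticGroup (Fin m) F) //
    ∃ g : Matrix.symplecticGroup (Fin m) F, ConjClasses.mk g = C ∧ orderOf g = 2}
  let g : Fin m ⊕ Fin (m / 2) → S := fun x =>
    match x with
    | Sum.inl i => ⟨ConjClasses.mk (tNA F m (i + 1)), tNA F m (i + 1), rfl,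
        tNA_order (i + 1) (by omega) (by have := i.2; omega)⟩
    | Sum.inr j => ⟨ConjClasses.mk (tA F m (j + 1) (hk2 j)), tA F m (j + 1) (hk2 j), rfl,
        tA_order (j + 1) (by omega) (hk2 j)⟩
  have hgl : ∀ i : Fin m, (g (Sum.inl i)).1 = ConjClasses.mk (tNA F m (i + 1)) := fun i => rfl
  have hgr : ∀ j : Fin (m / 2), (g (Sum.inr j)).1 = ConjClasses.mk (tA F m (j + 1) (hk2 j)) :=
    fun j => rfl
  have hbij : Function.Bijective g := by
    constructor
    · intro x y hxy
      have hxy' : (g x).1 = (g y).1 := congrArg Subtype.val hxy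
      rcases x with i | j <;> rcases y with i' | j'
      · rw [hgl, hgl] at hxy'
        have hc := ConjClasses.mk_eq_mk_iff_isConj.mp hxy'
        have hr := conj_rank hc
        rw [tNA_rank _ (by have := i.2; omega), tNA_rank _ (by have := i'.2; omega)] at hr
        congr 1
        apply Fin.ext
        omega
      · exfalso
        rw [hgl, hgr] at hxy'
        have hc := ConjClasses.mk_eq_mk_iff_isConj.mp hxy'
        exact tNA_nonalt (F := F) (i + 1) (by omega) (by have := i.2; omega)
          (conj_alt hc.symm (tA_alt (j' + 1) (hk2 j')))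
      · exfalso
        rw [hgl, hgr] at hxy'
        have hc := ConjClasses.mk_eq_mk_iff_isConj.mp hxy'
        exact tNA_nonalt (F := F) (i' + 1) (by omega) (by have := i'.2; omega)
          (conj_alt hc (tA_alt (j + 1) (hk2 j)))
      · rw [hgr, hgr] at hxy'
        have hc := ConjClasses.mk_eq_mk_iff_isConj.mp hxy'
        have hr := conj_rank hc
        rw [tA_rank, tA_rank] at hr
        congr 1
        apply Fin.ext
        omega
    · rintro ⟨C, a, hC, ha⟩
      have hA2 := hsq2 a ha
      have hne : (a : Matrix (Fin m ⊕ Fin m) (Fin m ⊕ Fin m) F) ≠ 1 := by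
        intro h
        have ha1 : a = 1 := Subtype.ext h
        rw [ha1, orderOf_one] at ha
        omega
      have hs1 := rank_pos_of_ne hne
      have hsm := rank_le_of_sq hA2
      by_cases halt : ∀ v, Cfsg.sympForm m F v
          ((a : Matrix (Fin m ⊕ Fin m) (Fin m ⊕ Fin m) F) *ᵥ v) = 0
      · obtain ⟨k, hk⟩ := alt_rank_even a.2 hA2 halt
        have hk1 : k - 1 < m / 2 := by omega
        refine ⟨Sum.inr ⟨k - 1, hk1⟩, ?_⟩
        apply Subtype.ext
        rw [hgr]
        show ConjClasses.mk _ = C
        rw [← hC]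
        apply ConjClasses.mk_eq_mk_iff_isConj.mpr
        apply conj_of_inv (hsq2 _ (tA_order _ (by omega) _)) hA2
        · rw [tA_rank, hk]
          show 2 * (k - 1 + 1) = 2 * k
          omega
        · exact ⟨fun _ => halt, fun _ => tA_alt _ _⟩
      · have hi : ((a : Matrix (Fin m ⊕ Fin m) (Fin m ⊕ Fin m) F) - 1).rank - 1 < m := by omega
        refine ⟨Sum.inl ⟨_, hi⟩, ?_⟩
        apply Subtype.ext
        rw [hgl]
        show ConjClasses.mk _ = C
        rw [← hC]
        apply ConjClasses.mk_eq_mk_iff_isConj.mpr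
        apply conj_of_inv (hsq2 _ (tNA_order _ (by omega) (by show _ - 1 + 1 ≤ m; omega))) hA2
        · rw [tNA_rank _ (by show _ - 1 + 1 ≤ m; omega)]
          show _ - 1 + 1 = _
          omega
        · constructor
          · intro h
            exact absurd h (tNA_nonalt _ (by omega) (by show _ - 1 + 1 ≤ m; omega))
          · intro h
            exact absurd h halt
  rw [← Nat.card_eq_of_bijective g hbij]
  simp [Nat.card_eq_fintype_card, Fintype.card_sum, Fintype.card_fin]

end Cfsg.Agent.S2593
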