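import Cfsg.Statements.S2595
import Cfsg.Agent.Lib.Helper15.OPlus
open Cfsg.Agent.Lib.Helper15.SpInvol Cfsg.Agent.Lib.Helper15.OPlus Matrix

set_option autoImplicit false
open Cfsg

namespace Cfsg.Agent.S2595

/-- Number of conjugacy classes of involutions in the full orthogonal group O⁺_2m(F) of the hyperbolic quadratic form Σ x_i y_i over a finite field of characteristic two (m ≥ 1): one class for each odd s ≤ m and two for each even s with 2 ≤ s ≤ m, where s = rank(t − 1); in all m + ⌊m/2⌋. -/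
theorem result {F : Type*} [Field F] [Fintype F] [CharP F 2] {m : ℕ} (hm : 1 ≤ m) : Nat.card {C : ConjClasses ↥(Cfsg.isometryGroup F (Cfsg.quadFormPlus m F)) // ∃ g : ↥(Cfsg.isometryGroup F (Cfsg.quadFormPlus m F)), ConjClasses.mk g = C ∧ orderOf g = 2} = m + m / 2 := by
  classical
  have hk2 : ∀ j : Fin (m / 2), 2 * ((j : ℕ) + 1) ≤ m := fun j => by
    have := j.2
    omega
  have hwo : ∀ i : Fin m, orderOf (wO F m (i + 1)) = 2 := fun i =>
    wO_order _ (by omega) (by have := i.2; omega)
  have hao : ∀ j : Fin (m / 2), orderOf (aO F m (j + 1) (hk2 j)) = 2 := fun j =>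
    aO_order _ (by omega) (hk2 j)
  let S := {C : ConjClasses ↥(Cfsg.isometryGroup F (Cfsg.quadFormPlus m F)) //
    ∃ g : ↥(Cfsg.isometryGroup F (Cfsg.quadFormPlus m F)), ConjClasses.mk g = C ∧ orderOf g = 2}
  let g : Fin m ⊕ Fin (m / 2) → S := fun x =>
    match x with
    | Sum.inl i => ⟨ConjClasses.mk (wO F m (i + 1)), wO F m (i + 1), rfl, hwo i⟩
    | Sum.inr j => ⟨ConjClasses.mk (aO F m (j + 1) (hk2 j)), aO F m (j + 1) (hk2 j), rfl, hao j⟩
  have hgl : ∀ i : Fin m, (g (Sum.inl i)).1 = ConjClasses.mk (wO F m (i + 1)) := fun i => rfl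
  have hgr : ∀ j : Fin (m / 2), (g (Sum.inr j)).1 = ConjClasses.mk (aO F m (j + 1) (hk2 j)) :=
    fun j => rfl
  have hinj : Function.Injective g := by
    intro x y hxy
    have hxy' : (g x).1 = (g y).1 := congrArg Subtype.val hxy
    rcases x with i | j <;> rcases y with i' | j'
    · rw [hgl, hgl] at hxy'
      have hc := ConjClasses.mk_eq_mk_iff_isConj.mp hxy'
      have hr := O_conj_rank hc
      rw [wO_rank _ (by have := i.2; omega), wO_rank _ (by have := i'.2; omega)] at hr
      congr 1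
      apply Fin.ext
      omega
    · exfalso
      rw [hgl, hgr] at hxy'
      have hc := ConjClasses.mk_eq_mk_iff_isConj.mp hxy'
      exact wO_nonalt (F := F) (i + 1) (by omega) (by have := i.2; omega)
        (O_conj_alt hc.symm (aO_alt (j' + 1) (hk2 j')))
    · exfalso
      rw [hgl, hgr] at hxy'
      have hc := ConjClasses.mk_eq_mk_iff_isConj.mp hxy'
      exact wO_nonalt (F := F) (i' + 1) (by omega) (by have := i'.2; omega)
        (O_conj_alt hc (aO_alt (j + 1) (hk2 j)))
    · rw [hgr, hgr] at hxy'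
      have hc := ConjClasses.mk_eq_mk_iff_isConj.mp hxy'
      have hr := O_conj_rank hc
      rw [aO_rank, aO_rank] at hr
      congr 1
      apply Fin.ext
      omega
  have hsurj : Function.Surjective g := by
    rintro ⟨C, a, hC, ha⟩
    obtain ⟨hs1, hsm, hev⟩ := O_constraints a ha
    by_cases halt : ∀ v, Cfsg.sympForm m F v
        (((a : GL (Fin m ⊕ Fin m) F) : Matrix (Fin m ⊕ Fin m) (Fin m ⊕ Fin m) F) *ᵥ v) = 0
    · obtain ⟨k, hk⟩ := hev halt
      have hk1 : k - 1 < m / 2 := by omega
      refine ⟨Sum.inr ⟨k - 1, hk1⟩, ?_⟩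
      apply Subtype.ext
      rw [hgr]
      show ConjClasses.mk _ = C
      rw [← hC]
      apply ConjClasses.mk_eq_mk_iff_isConj.mpr
      apply conj_of_inv_O _ _ (hao _) ha
      · rw [aO_rank, hk]
        show 2 * (k - 1 + 1) = 2 * k
        omega
      · exact ⟨fun _ => halt, fun _ => aO_alt _ _⟩
    · have hi : (((a : GL (Fin m ⊕ Fin m) F) : Matrix (Fin m ⊕ Fin m) (Fin m ⊕ Fin m) F) - 1).rank - 1 < m := by
        omega
      refine ⟨Sum.inl ⟨_, hi⟩, ?_⟩
      apply Subtype.ext
      rw [hgl]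
      show ConjClasses.mk _ = C
      rw [← hC]
      apply ConjClasses.mk_eq_mk_iff_isConj.mpr
      apply conj_of_inv_O _ _ (hwo _) ha
      · rw [wO_rank _ (by show _ - 1 + 1 ≤ m; omega)]
        show _ - 1 + 1 = _
        omega
      · constructor
        · intro h
          exact absurd h (wO_nonalt _ (by omega) (by show _ - 1 + 1 ≤ m; omega))
        · intro h
          exact absurd h halt
  rw [← Nat.card_eq_of_bijective g ⟨hinj, hsurj⟩]
  simp [Nat.card_eq_fintype_card, Fintype.card_sum, Fintype.card_fin]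

end Cfsg.Agent.S2595
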