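import Cfsg.Statements.S2596
import Cfsg.Agent.Lib.Helper15.OMinus
open Cfsg.Agent.Lib.Helper15.SpInvol Cfsg.Agent.Lib.Helper15.OPlus Cfsg.Agent.Lib.Helper15.OMinus Cfsg.Agent.Lib.Helper15.OrthForms2 Matrix

set_option autoImplicit false
open Cfsg

namespace Cfsg.Agent.S2596

/-- Number of conjugacy classes of involutions in the full orthogonal group O⁻_2m(F) of an elliptic quadratic form (Σ_(i<m−1) x_i y_i plus an anisotropic binary form) over a finite field of characteristic two (m ≥ 1): one class for each odd s ≤ m, two for each even s with 2 ≤ s < m and one for s = m when m is even, where s = rank(t − 1); in all m + ⌊(m − 1)/2⌋. -/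
theorem result {F : Type*} [Field F] [Fintype F] [CharP F 2] {m : ℕ} (hm : 1 ≤ m) (a b : F) (hab : ∀ z₁ z₂ : F, z₁ ^ 2 + a * z₁ * z₂ + b * z₂ ^ 2 = 0 → z₁ = 0 ∧ z₂ = 0) : Nat.card {C : ConjClasses ↥(Cfsg.isometryGroup F (Cfsg.quadFormMinus (m - 1) F a b)) // ∃ g : ↥(Cfsg.isometryGroup F (Cfsg.quadFormMinus (m - 1) F a b)), ConjClasses.mk g = C ∧ orderOf g = 2} = m + (m - 1) / 2 := by
  classical
  have ha : a ≠ 0 := a_ne_zero a b hab
  have hnd := qMinus_nondeg_two (m - 1) F a b hab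
  have hk2 : ∀ j : Fin ((m - 1) / 2), 2 * ((j : ℕ) + 1) ≤ m - 1 := fun j => by
    have := j.2
    omega
  let nrep : Fin m → ↥(Cfsg.isometryGroup F (Cfsg.quadFormMinus (m - 1) F a b)) :=
    fun i => mkO a b (wO F (m - 1) i) (R0 a) (R0_sq a) (R0_pres a b)
  let arep : Fin ((m - 1) / 2) → ↥(Cfsg.isometryGroup F (Cfsg.quadFormMinus (m - 1) F a b)) :=
    fun j => mkO a b (aO F (m - 1) (j + 1) (hk2 j)) 1 (one_mul 1) (one_pres a b)
  have hnr : ∀ i : Fin m, (((nrep i : GL ((Fin (m - 1) ⊕ Fin (m - 1)) ⊕ Fin 2) F) :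
      Matrix ((Fin (m - 1) ⊕ Fin (m - 1)) ⊕ Fin 2) ((Fin (m - 1) ⊕ Fin (m - 1)) ⊕ Fin 2) F) -
        1).rank = (i : ℕ) + 1 := fun i => by
    show (((mkO a b (wO F (m - 1) i) (R0 a) (R0_sq a) (R0_pres a b) :
      GL ((Fin (m - 1) ⊕ Fin (m - 1)) ⊕ Fin 2) F) :
      Matrix ((Fin (m - 1) ⊕ Fin (m - 1)) ⊕ Fin 2) ((Fin (m - 1) ⊕ Fin (m - 1)) ⊕ Fin 2) F) -
        1).rank = (i : ℕ) + 1
    rw [mkO_rank, wO_rank _ (by have := i.2; omega), R0_rank a ha]
  have har : ∀ j : Fin ((m - 1) / 2), (((arep j : GL ((Fin (m - 1) ⊕ Fin (m - 1)) ⊕ Fin 2) F) :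
      Matrix ((Fin (m - 1) ⊕ Fin (m - 1)) ⊕ Fin 2) ((Fin (m - 1) ⊕ Fin (m - 1)) ⊕ Fin 2) F) -
        1).rank = 2 * ((j : ℕ) + 1) := fun j => by
    show (((mkO a b (aO F (m - 1) (j + 1) (hk2 j)) 1 (one_mul 1) (one_pres a b) :
      GL ((Fin (m - 1) ⊕ Fin (m - 1)) ⊕ Fin 2) F) :
      Matrix ((Fin (m - 1) ⊕ Fin (m - 1)) ⊕ Fin 2) ((Fin (m - 1) ⊕ Fin (m - 1)) ⊕ Fin 2) F) -
        1).rank = 2 * ((j : ℕ) + 1)
    rw [mkO_rank, aO_rank, sub_self, Matrix.rank_zero, add_zero]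
  have hno : ∀ i : Fin m, orderOf (nrep i) = 2 := fun i =>
    gorder_two_of _ _ (mkO_sq a b _ _ _ _ (Wm_sq _)) (by rw [hnr]; omega)
  have hao : ∀ j : Fin ((m - 1) / 2), orderOf (arep j) = 2 := fun j =>
    gorder_two_of _ _ (mkO_sq a b _ _ _ _ (TS_sq _)) (by rw [har]; omega)
  have hnn : ∀ i : Fin m, ¬ ∀ v, QuadraticMap.polar (Cfsg.quadFormMinus (m - 1) F a b) v
      (((nrep i : GL ((Fin (m - 1) ⊕ Fin (m - 1)) ⊕ Fin 2) F) :
        Matrix ((Fin (m - 1) ⊕ Fin (m - 1)) ⊕ Fin 2) ((Fin (m - 1) ⊕ Fin (m - 1)) ⊕ Fin 2) F) *ᵥ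
          v) = 0 := fun i => mkO_nonalt a b ha _
  have haa : ∀ (j : Fin ((m - 1) / 2)) v, QuadraticMap.polar (Cfsg.quadFormMinus (m - 1) F a b) v
      (((arep j : GL ((Fin (m - 1) ⊕ Fin (m - 1)) ⊕ Fin 2) F) :
        Matrix ((Fin (m - 1) ⊕ Fin (m - 1)) ⊕ Fin 2) ((Fin (m - 1) ⊕ Fin (m - 1)) ⊕ Fin 2) F) *ᵥ
          v) = 0 := fun j => mkO_alt a b _ (aO_alt _ _)
  let S := {C : ConjClasses ↥(Cfsg.isometryGroup F (Cfsg.quadFormMinus (m - 1) F a b)) //
    ∃ g : ↥(Cfsg.isometryGroup F (Cfsg.quadFormMinus (m - 1) F a b)),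
      ConjClasses.mk g = C ∧ orderOf g = 2}
  let g : Fin m ⊕ Fin ((m - 1) / 2) → S := fun x =>
    match x with
    | Sum.inl i => ⟨ConjClasses.mk (nrep i), nrep i, rfl, hno i⟩
    | Sum.inr j => ⟨ConjClasses.mk (arep j), arep j, rfl, hao j⟩
  have hgl : ∀ i : Fin m, (g (Sum.inl i)).1 = ConjClasses.mk (nrep i) := fun i => rfl
  have hgr : ∀ j : Fin ((m - 1) / 2), (g (Sum.inr j)).1 = ConjClasses.mk (arep j) := fun j => rfl
  have hinj : Function.Injective g := by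
    intro x y hxy
    have hxy' : (g x).1 = (g y).1 := congrArg Subtype.val hxy
    rcases x with i | j <;> rcases y with i' | j'
    · rw [hgl, hgl] at hxy'
      have hc := ConjClasses.mk_eq_mk_iff_isConj.mp hxy'
      have hr := gen_conj_rank _ hc
      rw [hnr, hnr] at hr
      congr 1
      apply Fin.ext
      omega
    · exfalso
      rw [hgl, hgr] at hxy'
      have hc := ConjClasses.mk_eq_mk_iff_isConj.mp hxy'
      exact hnn i (gen_conj_alt _ hc.symm (haa j'))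
    · exfalso
      rw [hgl, hgr] at hxy'
      have hc := ConjClasses.mk_eq_mk_iff_isConj.mp hxy'
      exact hnn i' (gen_conj_alt _ hc (haa j))
    · rw [hgr, hgr] at hxy'
      have hc := ConjClasses.mk_eq_mk_iff_isConj.mp hxy'
      have hr := gen_conj_rank _ hc
      rw [har, har] at hr
      congr 1
      apply Fin.ext
      omega
  have hsurj : Function.Surjective g := by
    rintro ⟨C, t, hC, ht⟩
    obtain ⟨hs1, hsm, hev⟩ := gen_constraints (qMinus (m - 1) F a b) hnd t ht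
    have hcard : Fintype.card ((Fin (m - 1) ⊕ Fin (m - 1)) ⊕ Fin 2) = 2 * m := by
      simp only [Fintype.card_sum, Fintype.card_fin]
      omega
    rw [hcard] at hsm
    by_cases halt : ∀ v, QuadraticMap.polar (Cfsg.quadFormMinus (m - 1) F a b) v
        (((t : GL ((Fin (m - 1) ⊕ Fin (m - 1)) ⊕ Fin 2) F) :
          Matrix ((Fin (m - 1) ⊕ Fin (m - 1)) ⊕ Fin 2) ((Fin (m - 1) ⊕ Fin (m - 1)) ⊕ Fin 2) F) *ᵥ
            v) = 0
    · obtain ⟨j, hj⟩ := hev halt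
      have hne := minus_alt_rank_ne hm a b hab t ht halt
      have hj1 : j - 1 < (m - 1) / 2 := by omega
      refine ⟨Sum.inr ⟨j - 1, hj1⟩, ?_⟩
      apply Subtype.ext
      rw [hgr]
      show ConjClasses.mk _ = C
      rw [← hC]
      apply ConjClasses.mk_eq_mk_iff_isConj.mpr
      apply gen_conj_of_inv (qMinus (m - 1) F a b) hnd _ _ (hao _) ht
      · rw [har, hj]
        show 2 * (j - 1 + 1) = 2 * j
        omega
      · exact ⟨fun _ => halt, fun _ => haa _⟩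
    · have hi : (((t : GL ((Fin (m - 1) ⊕ Fin (m - 1)) ⊕ Fin 2) F) :
          Matrix ((Fin (m - 1) ⊕ Fin (m - 1)) ⊕ Fin 2) ((Fin (m - 1) ⊕ Fin (m - 1)) ⊕ Fin 2) F) -
            1).rank - 1 < m := by
        omega
      refine ⟨Sum.inl ⟨_, hi⟩, ?_⟩
      apply Subtype.ext
      rw [hgl]
      show ConjClasses.mk _ = C
      rw [← hC]
      apply ConjClasses.mk_eq_mk_iff_isConj.mpr
      apply gen_conj_of_inv (qMinus (m - 1) F a b) hnd _ _ (hno _) ht
      · rw [hnr]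
        show _ - 1 + 1 = _
        omega
      · constructor
        · intro h
          exact absurd h (hnn _)
        · intro h
          exact absurd h halt
  rw [← Nat.card_eq_of_bijective g ⟨hinj, hsurj⟩]
  simp [Nat.card_eq_fintype_card, Fintype.card_sum, Fintype.card_fin]

end Cfsg.Agent.S2596
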