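import Cfsg.Statements.S2599

set_option autoImplicit false
open Cfsg

namespace Cfsg.Agent.S2599

/-- An irreducible invariant subspace of a semisimple isometry is non-degenerate or totally singular: let Q be a quadratic form on F^n (F finite of characteristic p) with non-degenerate polar form f, x an isometry of Q of order prime to p, and U a non-zero x-invariant subspace containing no x-invariant subspace other than 0 and U. Then U meets its f-orthogonal trivially, or Q vanishes on U, or p = 2, U is a line spanned by a non-singular vector and x fixes U pointwise. -/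
theorem result {F : Type*} [Field F] [Fintype F] {p : ℕ} [Fact p.Prime] [CharP F p] {n : ℕ} (Q : QuadraticForm F (Fin n → F)) (hQ : (QuadraticMap.polarBilin Q).Nondegenerate) (x : ↥(Cfsg.isometryGroup F ⇑Q)) (hx : (orderOf x).Coprime p) (U : Submodule F (Fin n → F)) (hU0 : U ≠ ⊥) (hUx : ∀ u ∈ U, ((x : Matrix.GeneralLinearGroup (Fin n) F) : Matrix (Fin n) (Fin n) F).mulVec u ∈ U) (hirr : ∀ W : Submodule F (Fin n → F), W ≤ U → (∀ w ∈ W, ((x : Matrix.GeneralLinearGroup (Fin n) F) : Matrix (Fin n) (Fin n) F).mulVec w ∈ W) → W = ⊥ ∨ W = U) : U ⊓ LinearMap.BilinForm.orthogonal (QuadraticMap.polarBilin Q) U = ⊥ ∨ (∀ u ∈ U, Q u = 0) ∨ (p = 2 ∧ Module.finrank F U = 1 ∧ (∃ u ∈ U, Q u ≠ 0) ∧ ∀ u ∈ U, ((x : Matrix.GeneralLinearGroup (Fin n) F) : Matrix (Fin n) (Fin n) F).mulVec u = u) := by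
  classical
  set A : Matrix (Fin n) (Fin n) F :=
    ((x : Matrix.GeneralLinearGroup (Fin n) F) : Matrix (Fin n) (Fin n) F) with hA
  have hxQ : ∀ u, Q (A.mulVec u) = Q u := fun u => x.2 u u
  have hpol : ∀ u v, QuadraticMap.polar Q (A.mulVec u) (A.mulVec v) = QuadraticMap.polar Q u v := by
    intro u v
    unfold QuadraticMap.polar
    rw [← Matrix.mulVec_add, hxQ, hxQ, hxQ]
  have hinj : ∀ u v, A.mulVec u = A.mulVec v → u = v := by
    intro u v h
    have h1 : (((x : Matrix.GeneralLinearGroup (Fin n) F)⁻¹ :
        Matrix.GeneralLinearGroup (Fin n) F) : Matrix (Fin n) (Fin n) F) * A = 1 := by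
      rw [hA, ← Units.val_mul, inv_mul_cancel, Units.val_one]
    have := congrArg (fun w => ((((x : Matrix.GeneralLinearGroup (Fin n) F)⁻¹ :
        Matrix.GeneralLinearGroup (Fin n) F) : Matrix (Fin n) (Fin n) F)).mulVec w) h
    simpa only [Matrix.mulVec_mulVec, h1, Matrix.one_mulVec] using this
  let g : U →ₗ[F] U := (Matrix.mulVecLin A).restrict hUx
  have hginj : Function.Injective g := by
    intro a b hab
    have := congrArg Subtype.val hab
    exact Subtype.ext (hinj _ _ this)
  have hgsurj : Function.Surjective g := LinearMap.surjective_of_injective hginj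
  have hR := hirr (U ⊓ LinearMap.BilinForm.orthogonal (QuadraticMap.polarBilin Q) U) inf_le_left (by
    intro w hw
    refine ⟨hUx w hw.1, ?_⟩
    show ∀ u ∈ U, (QuadraticMap.polarBilin Q) u (A.mulVec w) = 0
    intro u hu
    obtain ⟨u', hu'⟩ := hgsurj ⟨u, hu⟩
    have hu'' : A.mulVec (u' : Fin n → F) = u := congrArg Subtype.val hu'
    rw [← hu'', QuadraticMap.polarBilin_apply_apply, hpol]
    exact hw.2 u' u'.2)
  rcases hR with hR | hR
  · exact Or.inl hR
  right
  have hUU : ∀ u ∈ U, ∀ v ∈ U, QuadraticMap.polar Q u v = 0 := by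
    intro u hu v hv
    have : v ∈ U ⊓ LinearMap.BilinForm.orthogonal (QuadraticMap.polarBilin Q) U := by
      rw [hR]; exact hv
    exact this.2 u hu
  have hadd : ∀ u ∈ U, ∀ v ∈ U, Q (u + v) = Q u + Q v := by
    intro u hu v hv
    rw [QuadraticMap.map_add (⇑Q) u v, hUU u hu v hv, add_zero]
  by_cases hp : p = 2
  · subst hp
    have h2 : (2 : F) = 0 := by exact_mod_cast CharP.cast_eq_zero F 2
    let K : Submodule F (Fin n → F) :=
      { carrier := {u | u ∈ U ∧ Q u = 0}
        add_mem' := fun {a b} ha hb =>
          ⟨U.add_mem ha.1 hb.1, by rw [hadd a ha.1 b hb.1, ha.2, hb.2, add_zero]⟩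
        zero_mem' := ⟨U.zero_mem, by simp⟩
        smul_mem' := fun c a ha =>
          ⟨U.smul_mem c ha.1, by rw [QuadraticMap.map_smul, ha.2, smul_zero]⟩ }
    have hK := hirr K (fun u hu => hu.1) (fun w hw => ⟨hUx w hw.1, by rw [hxQ]; exact hw.2⟩)
    rcases hK with hK | hK
    · right
      have hQ0 : ∀ u ∈ U, Q u = 0 → u = 0 := by
        intro u hu h
        have : u ∈ K := ⟨hu, h⟩
        rw [hK] at this
        exact (Submodule.mem_bot F).mp this
      have hneg : ∀ u ∈ U, ∀ v ∈ U, Q u = Q v → u = v := by
        intro u hu v hv h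
        have h0 : Q (u + v) = 0 := by rw [hadd u hu v hv, h, ← two_mul, h2, zero_mul]
        have h3 := hQ0 (u + v) (U.add_mem hu hv) h0
        have h4 : v + v = 0 := by
          rw [← two_smul F v, h2, zero_smul]
        have h5 : u = u + (v + v) := by rw [h4, add_zero]
        rw [h5, ← add_assoc, h3, zero_add]
      obtain ⟨u, hu, hu0⟩ := Submodule.exists_mem_ne_zero_of_ne_bot hU0
      have hQu : Q u ≠ 0 := fun h => hu0 (hQ0 u hu h)
      refine ⟨rfl, ?_, ⟨u, hu, hQu⟩, ?_⟩
      · have hspan : U = Submodule.span F {u} := by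
          apply le_antisymm
          · intro v hv
            obtain ⟨s, hs⟩ := FiniteField.isSquare_of_char_two (ringChar.eq F 2) (Q v / Q u)
            have hvs : v = s • u := by
              apply hneg v hv (s • u) (U.smul_mem s hu)
              rw [QuadraticMap.map_smul, ← hs, smul_eq_mul]
              field_simp
            rw [hvs]
            exact Submodule.smul_mem _ _ (Submodule.mem_span_singleton_self u)
          · rw [Submodule.span_singleton_le_iff_mem]
            exact hu
        rw [hspan]
        exact finrank_span_singleton hu0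
      · intro v hv
        exact hneg _ (hUx v hv) v hv (hxQ v)
    · left
      intro u hu
      have : u ∈ K := by rw [hK]; exact hu
      exact this.2
  · left
    intro u hu
    have h2 : (2 : F) ≠ 0 := by
      intro h
      have h' : ((2 : ℕ) : F) = 0 := by exact_mod_cast h
      rw [CharP.cast_eq_zero_iff F p] at h'
      have := (Nat.prime_dvd_prime_iff_eq (Fact.out : p.Prime) Nat.prime_two).mp h'
      exact hp this
    have h3 := hUU u hu u hu
    rw [QuadraticMap.polar_self, two_smul, ← two_mul] at h3
    exact (mul_eq_zero.mp h3).resolve_left h2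

end Cfsg.Agent.S2599
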