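import Cfsg.Statements.S2612
import Cfsg.Agent.Lib.Helper16.SpinPlus

set_option autoImplicit false
open Cfsg

namespace Cfsg.Agent.S2612

open Cfsg.Agent.Lib.Helper16

/-- For the hyperbolic quadratic form Σ x_i y_i on F^(2m) (F finite, m ≥ 1, excluding m = 2 over the field of two elements), Ω⁺_2m(F) (the commutator subgroup of the orthogonal group) contains an element interchanging the two complementary maximal totally singular subspaces {y = 0} and {x = 0} if and only if m is even (dimension divisible by 4). -/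
theorem result {F : Type*} [Field F] [Fintype F] {m : ℕ} (hm : 1 ≤ m) (h : Fintype.card F ≠ 2 ∨ m ≠ 2) : (∃ g : ↥(Cfsg.isometryGroup F (Cfsg.quadFormPlus m F)), g ∈ Cfsg.Omega F (Cfsg.quadFormPlus m F) ∧ (∀ v : Fin m ⊕ Fin m → F, (∀ i, v (Sum.inr i) = 0) → ∀ i, (((g : Matrix.GeneralLinearGroup (Fin m ⊕ Fin m) F) : Matrix (Fin m ⊕ Fin m) (Fin m ⊕ Fin m) F).mulVec v) (Sum.inl i) = 0) ∧ (∀ v : Fin m ⊕ Fin m → F, (∀ i, v (Sum.inl i) = 0) → ∀ i, (((g : Matrix.GeneralLinearGroup (Fin m ⊕ Fin m) F) : Matrix (Fin m ⊕ Fin m) (Fin m ⊕ Fin m) F).mulVec v) (Sum.inr i) = 0)) ↔ Even m := by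
  constructor
  · rintro ⟨g, hg, h1, h2⟩
    refine plus_swap_even (g := g) hg ?_ ?_
    · ext i j
      have := h1 (Pi.single (Sum.inl j) 1) (fun k => by simp) i
      simpa [Matrix.toBlocks₁₁] using this
    · ext i j
      have := h2 (Pi.single (Sum.inr j) 1) (fun k => by simp) i
      simpa [Matrix.toBlocks₂₂] using this
  · rintro ⟨t, rfl⟩
    obtain ⟨g, hg, hact⟩ := plus_swap_mem t F
    refine ⟨g, hg, fun v hv i => ?_, fun v hv i => ?_⟩
    · rw [hact]
      exact hv i
    · rw [hact]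
      exact hv i

end Cfsg.Agent.S2612
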