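import Cfsg.Statements.S2614
import Cfsg.Agent.Lib.Helper16.SpinForms

set_option autoImplicit false
open Cfsg

namespace Cfsg.Agent.S2614

open Cfsg.Agent.Lib.Helper16

theorem two_ne_zero_of_odd {F : Type*} [Field F] [Fintype F] {q : ℕ} (hF : Fintype.card F = q)
    (hq : Odd q) : (2 : F) ≠ 0 := by
  intro h
  have h3 : ((2 : ℕ) : F) = 0 := by exact_mod_cast h
  rw [CharP.cast_eq_zero_iff F (ringChar F)] at h3
  have h4 : ringChar F = 2 := by
    rcases (Nat.dvd_prime Nat.prime_two).1 h3 with h5 | h5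
    · exact absurd h5 (CharP.ringChar_ne_one)
    · exact h5
  have := FiniteField.even_card_of_char_two h4
  rw [hF] at this
  obtain ⟨t, rfl⟩ := hq
  omega

/-- For the form x_0² + Σ x_j y_j on F^(2m+1), F finite with q elements, q odd, and 1 ≤ i ≤ m: the involution of determinant one negating the first i hyperbolic pairs (and fixing x_0 and the other pairs) lies in Ω_(2m+1)(q) (commutator subgroup of the orthogonal group) if and only if q^i ≡ 1 (mod 4); its (−1)-eigenspace is a hyperbolic 2i-space. -/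
theorem result {F : Type*} [Field F] [Fintype F] {q : ℕ} (hF : Fintype.card F = q) (hq : Odd q) {m : ℕ} (i : ℕ) (hi : 1 ≤ i) (him : i ≤ m) : (∃ g : ↥(Cfsg.isometryGroup F (Cfsg.quadFormOdd m F)), g ∈ Cfsg.Omega F (Cfsg.quadFormOdd m F) ∧ ((g : Matrix.GeneralLinearGroup (Unit ⊕ (Fin m ⊕ Fin m)) F) : Matrix (Unit ⊕ (Fin m ⊕ Fin m)) (Unit ⊕ (Fin m ⊕ Fin m)) F) = Matrix.diagonal (fun k : Unit ⊕ (Fin m ⊕ Fin m) => if (Sum.elim (fun _ : Unit => i) (Sum.elim (fun j : Fin m => (j : ℕ)) (fun j : Fin m => (j : ℕ))) k) < i then (-1 : F) else 1)) ↔ q ^ i % 4 = 1 := by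
  have h := hyp_invol_fin (Q := qfOdd m F) hF hq (qfOdd_nondeg m F (two_ne_zero_of_odd hF hq))
    (by simp only [Fintype.card_sum, Fintype.card_fin, Fintype.card_unit]; omega)
    (fun j : Fin m => Sum.inr (Sum.inl j)) (fun j => Sum.inr (Sum.inr j))
    (qfOdd_polar_inl m F) (qfOdd_polar_inr m F) (qfOdd_q_inl m F) (qfOdd_q_inr m F)
    (Sum.inr_injective.comp Sum.inl_injective) (Sum.inr_injective.comp Sum.inr_injective)
    (fun j k h => by cases h) i hi him
    (fun k : Unit ⊕ (Fin m ⊕ Fin m) => if (Sum.elim (fun _ : Unit => i)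
      (Sum.elim (fun j : Fin m => (j : ℕ)) (fun j : Fin m => (j : ℕ))) k) < i then (-1 : F) else 1)
    (by
      intro k
      rcases k with u | a | a
      · have h' : ¬ Sum.elim (fun _ : Unit => i)
            (Sum.elim (fun j : Fin m => (j : ℕ)) (fun j : Fin m => (j : ℕ))) (Sum.inl u) < i :=
          lt_irrefl i
        rw [if_neg h', if_neg]
        rintro ⟨j, hj, hj' | hj'⟩
        · cases hj'
        · cases hj'
      · by_cases h : (a : ℕ) < i
        · have h' : Sum.elim (fun _ : Unit => i)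
            (Sum.elim (fun j : Fin m => (j : ℕ)) (fun j : Fin m => (j : ℕ)))
            (Sum.inr (Sum.inl a)) < i := h
          rw [if_pos h', if_pos ⟨a, h, Or.inl rfl⟩]
        · have h' : ¬ Sum.elim (fun _ : Unit => i)
            (Sum.elim (fun j : Fin m => (j : ℕ)) (fun j : Fin m => (j : ℕ)))
            (Sum.inr (Sum.inl a)) < i := h
          rw [if_neg h', if_neg]
          rintro ⟨j, hj, hj' | hj'⟩
          · cases hj'
            exact h hj
          · cases hj'
      · by_cases h : (a : ℕ) < i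
        · have h' : Sum.elim (fun _ : Unit => i)
            (Sum.elim (fun j : Fin m => (j : ℕ)) (fun j : Fin m => (j : ℕ)))
            (Sum.inr (Sum.inr a)) < i := h
          rw [if_pos h', if_pos ⟨a, h, Or.inr rfl⟩]
        · have h' : ¬ Sum.elim (fun _ : Unit => i)
            (Sum.elim (fun j : Fin m => (j : ℕ)) (fun j : Fin m => (j : ℕ)))
            (Sum.inr (Sum.inr a)) < i := h
          rw [if_neg h', if_neg]
          rintro ⟨j, hj, hj' | hj'⟩
          · cases hj'
          · cases hj'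
            exact h hj)
  exact h

end Cfsg.Agent.S2614
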