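import Cfsg.Statements.S2615
import Cfsg.Agent.Lib.Helper16.SpinForms

set_option autoImplicit false
open Cfsg

namespace Cfsg.Agent.S2615

open Cfsg.Agent.Lib.Helper16

theorem two_ne_zero_of_odd {F : Type*} [Field F] [Fintype F] {q : ℕ} (hF : Fintype.card F = q)
    (hq : Odd q) : (2 : F) ≠ 0 := by
  intro h
  have h3 : ((2 : ℕ) : F) = 0 := by exact_mod_cast h
  rw [CharP.cast_eq_zero_iff F (ringChar F)] at h3
  have h4 : ringChar F = 2 := by
    rcases (Nat.dvd_prime Nat.prime_two).1 h3 with h5 | h5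
    · exact absurd h5 (CharP.ringChar_ne_one)
    · exact h5
  have := FiniteField.even_card_of_char_two h4
  rw [hF] at this
  obtain ⟨t, rfl⟩ := hq
  omega

/-- For an elliptic form Σ_(j<m−1) x_j y_j + (z₁² + a z₁z₂ + b z₂²) (anisotropic binary part) on F^(2m), F finite with q elements, q odd, and 1 ≤ i ≤ m − 1: the involution negating the first i hyperbolic pairs and fixing the rest lies in Ω⁻_2m(q) (commutator subgroup of the orthogonal group) if and only if q^i ≡ 1 (mod 4). -/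
theorem result {F : Type*} [Field F] [Fintype F] {q : ℕ} (hF : Fintype.card F = q) (hq : Odd q) {m : ℕ} (a b : F) (hab : ∀ z₁ z₂ : F, z₁ ^ 2 + a * z₁ * z₂ + b * z₂ ^ 2 = 0 → z₁ = 0 ∧ z₂ = 0) (i : ℕ) (hi : 1 ≤ i) (him : i + 1 ≤ m) : (∃ g : ↥(Cfsg.isometryGroup F (Cfsg.quadFormMinus (m - 1) F a b)), g ∈ Cfsg.Omega F (Cfsg.quadFormMinus (m - 1) F a b) ∧ ((g : Matrix.GeneralLinearGroup ((Fin (m - 1) ⊕ Fin (m - 1)) ⊕ Fin 2) F) : Matrix ((Fin (m - 1) ⊕ Fin (m - 1)) ⊕ Fin 2) ((Fin (m - 1) ⊕ Fin (m - 1)) ⊕ Fin 2) F) = Matrix.diagonal (fun k : (Fin (m - 1) ⊕ Fin (m - 1)) ⊕ Fin 2 => if (Sum.elim (Sum.elim (fun j : Fin (m - 1) => (j : ℕ)) (fun j : Fin (m - 1) => (j : ℕ))) (fun _ : Fin 2 => i) k) < i then (-1 : F) else 1)) ↔ q ^ i % 4 = 1 := by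
  have h := hyp_invol_fin (Q := qfMinus (m - 1) F a b) hF hq
    (qfMinus_nondeg (m - 1) F a b (two_ne_zero_of_odd hF hq) hab)
    (by simp only [Fintype.card_sum, Fintype.card_fin]; omega)
    (fun j : Fin (m - 1) => Sum.inl (Sum.inl j)) (fun j => Sum.inl (Sum.inr j))
    (qfMinus_polar_inl (m - 1) F a b) (qfMinus_polar_inr (m - 1) F a b)
    (qfMinus_q_inl (m - 1) F a b) (qfMinus_q_inr (m - 1) F a b)
    (Sum.inl_injective.comp Sum.inl_injective) (Sum.inl_injective.comp Sum.inr_injective)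
    (fun j k h => by cases h) i hi (by omega)
    (fun k : (Fin (m - 1) ⊕ Fin (m - 1)) ⊕ Fin 2 => if (Sum.elim
      (Sum.elim (fun j : Fin (m - 1) => (j : ℕ)) (fun j : Fin (m - 1) => (j : ℕ)))
      (fun _ : Fin 2 => i) k) < i then (-1 : F) else 1)
    (by
      intro k
      rcases k with (a | a) | u
      · by_cases h : (a : ℕ) < i
        · have h' : Sum.elim
            (Sum.elim (fun j : Fin (m - 1) => (j : ℕ)) (fun j : Fin (m - 1) => (j : ℕ)))
            (fun _ : Fin 2 => i) (Sum.inl (Sum.inl a)) < i := h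
          rw [if_pos h', if_pos ⟨a, h, Or.inl rfl⟩]
        · have h' : ¬ Sum.elim
            (Sum.elim (fun j : Fin (m - 1) => (j : ℕ)) (fun j : Fin (m - 1) => (j : ℕ)))
            (fun _ : Fin 2 => i) (Sum.inl (Sum.inl a)) < i := h
          rw [if_neg h', if_neg]
          rintro ⟨j, hj, hj' | hj'⟩
          · cases hj'
            exact h hj
          · cases hj'
      · by_cases h : (a : ℕ) < i
        · have h' : Sum.elim
            (Sum.elim (fun j : Fin (m - 1) => (j : ℕ)) (fun j : Fin (m - 1) => (j : ℕ)))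
            (fun _ : Fin 2 => i) (Sum.inl (Sum.inr a)) < i := h
          rw [if_pos h', if_pos ⟨a, h, Or.inr rfl⟩]
        · have h' : ¬ Sum.elim
            (Sum.elim (fun j : Fin (m - 1) => (j : ℕ)) (fun j : Fin (m - 1) => (j : ℕ)))
            (fun _ : Fin 2 => i) (Sum.inl (Sum.inr a)) < i := h
          rw [if_neg h', if_neg]
          rintro ⟨j, hj, hj' | hj'⟩
          · cases hj'
          · cases hj'
            exact h hj
      · have h' : ¬ Sum.elim
            (Sum.elim (fun j : Fin (m - 1) => (j : ℕ)) (fun j : Fin (m - 1) => (j : ℕ)))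
            (fun _ : Fin 2 => i) (Sum.inr u) < i := lt_irrefl i
        rw [if_neg h', if_neg]
        rintro ⟨j, hj, hj' | hj'⟩
        · cases hj'
        · cases hj')
  exact h

end Cfsg.Agent.S2615
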