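import Cfsg.Statements.S2619

set_option autoImplicit false
open Cfsg

namespace Cfsg.Agent.S2619

/-- Over a finite field of characteristic two, given an alternating bilinear form B on a finite-dimensional space, a basis (v_i) and scalars (λ_i), there is exactly one quadratic form whose polar form is B and whose value at each v_i is λ_i. -/
theorem result {F V ι : Type*} [Field F] [Finite F] [CharP F 2] [AddCommGroup V] [Module F V] [Fintype ι] (b : Module.Basis ι F V) (B : LinearMap.BilinForm F V) (hB : B.IsAlt) (c : ι → F) : ∃! Q : QuadraticForm F V, QuadraticMap.polarBilin Q = B ∧ ∀ i, Q (b i) = c i := by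
  classical
  have h2 : (2 : F) = 0 := CharP.ofNat_eq_zero F 2
  have hneg : ∀ x : F, -x = x := by
    intro x
    have : x + x = 0 := by rw [← two_mul, h2, zero_mul]
    exact neg_eq_of_add_eq_zero_left this
  let e := Fintype.equivFin ι
  let M : Matrix ι ι F := Matrix.of fun i j => if e i < e j then B (b i) (b j) else if i = j then c i else 0
  let A : LinearMap.BilinForm F V := Matrix.toBilin b M
  have hA : ∀ i j, A (b i) (b j) = M i j := by
    intro i j
    rw [← LinearMap.BilinForm.toMatrix_apply b A i j, LinearMap.BilinForm.toMatrix_toBilin]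
  refine ⟨LinearMap.BilinMap.toQuadraticMap A, ⟨?_, ?_⟩, ?_⟩
  · rw [LinearMap.BilinMap.polarBilin_toQuadraticMap]
    apply LinearMap.BilinForm.ext_basis b
    intro i j
    simp only [LinearMap.add_apply, LinearMap.flip_apply, hA, M, Matrix.of_apply]
    rcases lt_trichotomy (e i) (e j) with h | h | h
    · have hne : j ≠ i := by rintro rfl; exact lt_irrefl _ h
      simp [h, not_lt.mpr h.le, hne]
    · have hij : i = j := e.injective h
      subst hij
      simp only [lt_irrefl, if_false, if_true]
      rw [hB (b i), ← two_mul, h2, zero_mul]
    · have hne : i ≠ j := by rintro rfl; exact lt_irrefl _ h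
      simp only [h, not_lt.mpr h.le, hne, if_false, if_true, zero_add]
      have := LinearMap.IsAlt.neg hB (b i) (b j)
      rw [hneg] at this
      exact this.symm
  · intro i
    rw [LinearMap.BilinMap.toQuadraticMap_apply, hA]
    simp [M]
  · rintro Q' ⟨hQ'1, hQ'2⟩
    apply QuadraticMap.ext
    intro v
    have hpol : ∀ (Q : QuadraticForm F V), QuadraticMap.polarBilin Q = B → ∀ x y, Q (x + y) = Q x + Q y + B x y := by
      intro Q hQ x y
      rw [← hQ, QuadraticMap.polarBilin_apply_apply, QuadraticMap.polar]
      ring
    have hQ1 : QuadraticMap.polarBilin (LinearMap.BilinMap.toQuadraticMap A) = B := by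
      rw [LinearMap.BilinMap.polarBilin_toQuadraticMap]
      apply LinearMap.BilinForm.ext_basis b
      intro i j
      simp only [LinearMap.add_apply, LinearMap.flip_apply, hA, M, Matrix.of_apply]
      rcases lt_trichotomy (e i) (e j) with h | h | h
      · have hne : j ≠ i := by rintro rfl; exact lt_irrefl _ h
        simp [h, not_lt.mpr h.le, hne]
      · have hij : i = j := e.injective h
        subst hij
        simp only [lt_irrefl, if_false, if_true]
        rw [hB (b i), ← two_mul, h2, zero_mul]
      · have hne : i ≠ j := by rintro rfl; exact lt_irrefl _ h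
        simp only [h, not_lt.mpr h.le, hne, if_false, if_true, zero_add]
        have := LinearMap.IsAlt.neg hB (b i) (b j)
        rw [hneg] at this
        exact this.symm
    have hQ2 : ∀ i, (LinearMap.BilinMap.toQuadraticMap A) (b i) = c i := by
      intro i
      rw [LinearMap.BilinMap.toQuadraticMap_apply, hA]
      simp [M]
    rw [← b.sum_repr v]
    refine Finset.sum_induction (fun i => b.repr v i • b i) (fun x => Q' x = (LinearMap.BilinMap.toQuadraticMap A) x) ?_ ?_ ?_
    · intro x y hx hy
      rw [hpol Q' hQ'1, hpol _ hQ1, hx, hy]
    · simp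
    · intro i _
      rw [QuadraticMap.map_smul, QuadraticMap.map_smul, hQ'2, hQ2]

end Cfsg.Agent.S2619
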