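import Cfsg.Statements.S2620

set_option autoImplicit false
open Cfsg

namespace Cfsg.Agent.S2620

open Matrix in
theorem polar_eq_toBilin' {F : Type*} [Field F] {κ : Type*} [Fintype κ] [DecidableEq κ]
    (M : Matrix κ κ F) (Q : (κ → F) → F) (hQ : ∀ u, Q u = u ⬝ᵥ M *ᵥ u) (u v : κ → F) :
    QuadraticMap.polar Q u v = Matrix.toBilin' (M + Mᵀ) u v := by
  rw [QuadraticMap.polar, hQ, hQ, hQ, Matrix.toBilin'_apply', Matrix.add_mulVec, Matrix.mulVec_add]
  simp only [dotProduct_add, add_dotProduct]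
  have h : u ⬝ᵥ Mᵀ *ᵥ v = v ⬝ᵥ M *ᵥ u := by
    rw [Matrix.mulVec_transpose, dotProduct_comm, Matrix.dotProduct_mulVec]
  rw [h]
  ring

theorem isSquare_sq_mul {F : Type*} [Field F] {d x : F} (hd : d ≠ 0) :
    IsSquare (d * d * x) ↔ IsSquare x := by
  constructor
  · rintro ⟨y, hy⟩
    refine ⟨y / d, ?_⟩
    field_simp
    rw [← pow_two] at hy
    linear_combination hy
  · rintro ⟨y, hy⟩
    exact ⟨d * y, by rw [hy]; ring⟩

open Matrix in
theorem gram_det {F : Type*} [Field F] {κ : Type*} [Fintype κ] [DecidableEq κ]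
    (M : Matrix κ κ F) (Q : (κ → F) → F) (hQ : ∀ u, Q u = u ⬝ᵥ M *ᵥ u)
    {ι : Type*} [Fintype ι] [DecidableEq ι] (b : Module.Basis ι F (κ → F)) :
    ∃ d : F, d ≠ 0 ∧
      (Matrix.of (fun i j : ι => QuadraticMap.polar Q (b i) (b j))).det = d * d * (M + Mᵀ).det := by
  classical
  set Bp : LinearMap.BilinForm F (κ → F) := Matrix.toBilin' (M + Mᵀ) with hBp
  have hG : Matrix.of (fun i j : ι => QuadraticMap.polar Q (b i) (b j)) = LinearMap.BilinForm.toMatrix b Bp := by
    ext i j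
    rw [Matrix.of_apply, LinearMap.BilinForm.toMatrix_apply, polar_eq_toBilin' M Q hQ]
  let e : κ ≃ ι := (Pi.basisFun F κ).indexEquiv b
  let b₀ : Module.Basis ι F (κ → F) := (Pi.basisFun F κ).reindex e
  have hG₀ : LinearMap.BilinForm.toMatrix b₀ Bp = (M + Mᵀ).submatrix e.symm e.symm := by
    ext i j
    rw [LinearMap.BilinForm.toMatrix_apply, Matrix.submatrix_apply]
    simp only [b₀, Module.Basis.reindex_apply]
    rw [← LinearMap.BilinForm.toMatrix_apply (Pi.basisFun F κ) Bp, LinearMap.BilinForm.toMatrix_basisFun,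
      hBp, LinearMap.BilinForm.toMatrix'_toBilin']
  have hmul := LinearMap.BilinForm.toMatrix_mul_basis_toMatrix b₀ b Bp
  refine ⟨(b₀.toMatrix b).det, ?_, ?_⟩
  · intro h0
    have h1 := congrArg Matrix.det (Module.Basis.toMatrix_mul_toMatrix_flip b₀ b)
    rw [Matrix.det_mul, h0, zero_mul, Matrix.det_one] at h1
    exact zero_ne_one h1
  · rw [hG, ← hmul, Matrix.det_mul, Matrix.det_mul, Matrix.det_transpose, hG₀,
      Matrix.det_submatrix_equiv_self]
    ring

theorem det_swap_blocks {F : Type*} [Field F] (m : ℕ) :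
    (Matrix.fromBlocks (0 : Matrix (Fin m) (Fin m) F) (1 : Matrix (Fin m) (Fin m) F)
      (1 : Matrix (Fin m) (Fin m) F) (0 : Matrix (Fin m) (Fin m) F)).det = (-1) ^ m := by
  have h1 : Matrix.fromBlocks (0 : Matrix (Fin m) (Fin m) F) (1 : Matrix (Fin m) (Fin m) F)
      (1 : Matrix (Fin m) (Fin m) F) (0 : Matrix (Fin m) (Fin m) F) =
      Matrix.fromBlocks (0 : Matrix (Fin m) (Fin m) F) (1 : Matrix (Fin m) (Fin m) F)
        (1 : Matrix (Fin m) (Fin m) F) (1 : Matrix (Fin m) (Fin m) F) *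
      Matrix.fromBlocks (1 : Matrix (Fin m) (Fin m) F) (-1 : Matrix (Fin m) (Fin m) F)
        (0 : Matrix (Fin m) (Fin m) F) (1 : Matrix (Fin m) (Fin m) F) := by
    rw [Matrix.fromBlocks_multiply]
    simp
  letI : Invertible (1 : Matrix (Fin m) (Fin m) F) := invertibleOne
  rw [h1, Matrix.det_mul, Matrix.det_fromBlocks_zero₂₁, Matrix.det_fromBlocks₂₂]
  simp [Matrix.det_neg]

/-- Discriminant of the hyperbolic quadratic form Σ_(i<m) x_i y_i over a field with q elements, q odd, m ≥ 1: the determinant of the Gram matrix of its polar form in any basis is a square if and only if m(q − 1)/2 is even (equivalently q^m ≡ 1 (mod 4)). -/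
theorem result {F : Type*} [Field F] [Fintype F] {q : ℕ} (hF : Fintype.card F = q) (hq : Odd q) {m : ℕ} (hm : 1 ≤ m) {ι : Type*} [Fintype ι] [DecidableEq ι] (b : Module.Basis ι F (Fin m ⊕ Fin m → F)) : IsSquare (Matrix.of (fun i j : ι => QuadraticMap.polar (Cfsg.quadFormPlus m F) (b i) (b j))).det ↔ Even (m * (q - 1) / 2) := by
  classical
  subst hF
  set M : Matrix (Fin m ⊕ Fin m) (Fin m ⊕ Fin m) F := Matrix.fromBlocks 0 1 0 0 with hM
  have hQ : ∀ u, Cfsg.quadFormPlus m F u = u ⬝ᵥ M.mulVec u := by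
    intro u
    rw [hM, Matrix.fromBlocks_mulVec]
    simp [Cfsg.quadFormPlus, dotProduct, Fintype.sum_sum_type]
  obtain ⟨d, hd, hdet⟩ := gram_det M (Cfsg.quadFormPlus m F) hQ b
  have hMT : M + M.transpose = Matrix.fromBlocks 0 1 1 0 := by
    rw [hM, Matrix.fromBlocks_transpose, Matrix.fromBlocks_add]
    simp
  rw [hdet, isSquare_sq_mul hd, hMT, det_swap_blocks]
  obtain ⟨t, ht⟩ := hq
  have hmt : m * (Fintype.card F - 1) / 2 = m * t := by
    rw [ht]
    have : m * (2 * t + 1 - 1) = 2 * (m * t) := by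
      rw [Nat.add_sub_cancel]; ring
    rw [this, Nat.mul_div_cancel_left _ (by norm_num : 0 < 2)]
  rw [hmt, Nat.even_mul]
  rcases Nat.even_or_odd m with hm2 | hm2
  · simp only [hm2, true_or, iff_true, hm2.neg_one_pow]
    exact ⟨1, by simp⟩
  · have hne : ¬ Even m := Nat.not_even_iff_odd.mpr hm2
    simp only [hne, false_or, hm2.neg_one_pow]
    rw [FiniteField.isSquare_neg_one_iff, ht]
    constructor
    · intro h
      rcases Nat.even_or_odd t with ht2 | ht2
      · exact ht2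
      · exfalso
        obtain ⟨s, hs⟩ := ht2
        apply h
        omega
    · rintro ⟨s, hs⟩
      omega

end Cfsg.Agent.S2620
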