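import Cfsg.Statements.S2621

set_option autoImplicit false
open Cfsg

namespace Cfsg.Agent.S2621

open Matrix in
theorem polar_eq_toBilin' {F : Type*} [Field F] {κ : Type*} [Fintype κ] [DecidableEq κ]
    (M : Matrix κ κ F) (Q : (κ → F) → F) (hQ : ∀ u, Q u = u ⬝ᵥ M *ᵥ u) (u v : κ → F) :
    QuadraticMap.polar Q u v = Matrix.toBilin' (M + Mᵀ) u v := by
  rw [QuadraticMap.polar, hQ, hQ, hQ, Matrix.toBilin'_apply', Matrix.add_mulVec, Matrix.mulVec_add]
  simp only [dotProduct_add, add_dotProduct]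
  have h : u ⬝ᵥ Mᵀ *ᵥ v = v ⬝ᵥ M *ᵥ u := by
    rw [Matrix.mulVec_transpose, dotProduct_comm, Matrix.dotProduct_mulVec]
  rw [h]
  ring

theorem isSquare_sq_mul {F : Type*} [Field F] {d x : F} (hd : d ≠ 0) :
    IsSquare (d * d * x) ↔ IsSquare x := by
  constructor
  · rintro ⟨y, hy⟩
    refine ⟨y / d, ?_⟩
    field_simp
    rw [← pow_two] at hy
    linear_combination hy
  · rintro ⟨y, hy⟩
    exact ⟨d * y, by rw [hy]; ring⟩

open Matrix in
theorem gram_det {F : Type*} [Field F] {κ : Type*} [Fintype κ] [DecidableEq κ]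
    (M : Matrix κ κ F) (Q : (κ → F) → F) (hQ : ∀ u, Q u = u ⬝ᵥ M *ᵥ u)
    {ι : Type*} [Fintype ι] [DecidableEq ι] (b : Module.Basis ι F (κ → F)) :
    ∃ d : F, d ≠ 0 ∧
      (Matrix.of (fun i j : ι => QuadraticMap.polar Q (b i) (b j))).det = d * d * (M + Mᵀ).det := by
  classical
  set Bp : LinearMap.BilinForm F (κ → F) := Matrix.toBilin' (M + Mᵀ) with hBp
  have hG : Matrix.of (fun i j : ι => QuadraticMap.polar Q (b i) (b j)) = LinearMap.BilinForm.toMatrix b Bp := by
    ext i j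
    rw [Matrix.of_apply, LinearMap.BilinForm.toMatrix_apply, polar_eq_toBilin' M Q hQ]
  let e : κ ≃ ι := (Pi.basisFun F κ).indexEquiv b
  let b₀ : Module.Basis ι F (κ → F) := (Pi.basisFun F κ).reindex e
  have hG₀ : LinearMap.BilinForm.toMatrix b₀ Bp = (M + Mᵀ).submatrix e.symm e.symm := by
    ext i j
    rw [LinearMap.BilinForm.toMatrix_apply, Matrix.submatrix_apply]
    simp only [b₀, Module.Basis.reindex_apply]
    rw [← LinearMap.BilinForm.toMatrix_apply (Pi.basisFun F κ) Bp, LinearMap.BilinForm.toMatrix_basisFun,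
      hBp, LinearMap.BilinForm.toMatrix'_toBilin']
  have hmul := LinearMap.BilinForm.toMatrix_mul_basis_toMatrix b₀ b Bp
  refine ⟨(b₀.toMatrix b).det, ?_, ?_⟩
  · intro h0
    have h1 := congrArg Matrix.det (Module.Basis.toMatrix_mul_toMatrix_flip b₀ b)
    rw [Matrix.det_mul, h0, zero_mul, Matrix.det_one] at h1
    exact zero_ne_one h1
  · rw [hG, ← hmul, Matrix.det_mul, Matrix.det_mul, Matrix.det_transpose, hG₀,
      Matrix.det_submatrix_equiv_self]
    ring

theorem det_swap_blocks {F : Type*} [Field F] (m : ℕ) :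
    (Matrix.fromBlocks (0 : Matrix (Fin m) (Fin m) F) (1 : Matrix (Fin m) (Fin m) F)
      (1 : Matrix (Fin m) (Fin m) F) (0 : Matrix (Fin m) (Fin m) F)).det = (-1) ^ m := by
  have h1 : Matrix.fromBlocks (0 : Matrix (Fin m) (Fin m) F) (1 : Matrix (Fin m) (Fin m) F)
      (1 : Matrix (Fin m) (Fin m) F) (0 : Matrix (Fin m) (Fin m) F) =
      Matrix.fromBlocks (0 : Matrix (Fin m) (Fin m) F) (1 : Matrix (Fin m) (Fin m) F)
        (1 : Matrix (Fin m) (Fin m) F) (1 : Matrix (Fin m) (Fin m) F) *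
      Matrix.fromBlocks (1 : Matrix (Fin m) (Fin m) F) (-1 : Matrix (Fin m) (Fin m) F)
        (0 : Matrix (Fin m) (Fin m) F) (1 : Matrix (Fin m) (Fin m) F) := by
    rw [Matrix.fromBlocks_multiply]
    simp
  letI : Invertible (1 : Matrix (Fin m) (Fin m) F) := invertibleOne
  rw [h1, Matrix.det_mul, Matrix.det_fromBlocks_zero₂₁, Matrix.det_fromBlocks₂₂]
  simp [Matrix.det_neg]

theorem nonsq_mul_nonsq {F : Type*} [Field F] [Fintype F] [DecidableEq F] {x y : F}
    (hx : ¬ IsSquare x) (hy : ¬ IsSquare y) : IsSquare (x * y) := by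
  have hx0 : x ≠ 0 := by rintro rfl; exact hx ⟨0, by simp⟩
  have hy0 : y ≠ 0 := by rintro rfl; exact hy ⟨0, by simp⟩
  rw [← quadraticChar_one_iff_isSquare (mul_ne_zero hx0 hy0), map_mul,
    quadraticChar_neg_one_iff_not_isSquare.mpr hx, quadraticChar_neg_one_iff_not_isSquare.mpr hy]
  norm_num

theorem sq_mul_nonsq {F : Type*} [Field F] {x y : F}
    (hx : IsSquare x) (hx0 : x ≠ 0) (hy : ¬ IsSquare y) : ¬ IsSquare (x * y) := by
  obtain ⟨s, rfl⟩ := hx
  have hs : s ≠ 0 := by rintro rfl; simp at hx0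
  rw [isSquare_sq_mul hs]
  exact hy

/-- Discriminant of an elliptic quadratic form Σ_(i<m−1) x_i y_i + z₁² + a z₁z₂ + c z₂² (binary part anisotropic) in dimension 2m over a field with q elements, q odd, m ≥ 1: the determinant of the Gram matrix of its polar form in any basis is a square if and only if m(q − 1)/2 is odd (equivalently q^m ≡ 3 (mod 4)). -/
theorem result {F : Type*} [Field F] [Fintype F] {q : ℕ} (hF : Fintype.card F = q) (hq : Odd q) {m : ℕ} (hm : 1 ≤ m) (a c : F) (hac : ∀ z₁ z₂ : F, z₁ ^ 2 + a * z₁ * z₂ + c * z₂ ^ 2 = 0 → z₁ = 0 ∧ z₂ = 0) {ι : Type*} [Fintype ι] [DecidableEq ι] (b : Module.Basis ι F ((Fin (m - 1) ⊕ Fin (m - 1)) ⊕ Fin 2 → F)) : IsSquare (Matrix.of (fun i j : ι => QuadraticMap.polar (Cfsg.quadFormMinus (m - 1) F a c) (b i) (b j))).det ↔ ¬ Even (m * (q - 1) / 2) := by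
  classical
  subst hF
  have h2F : (2 : F) ≠ 0 := by
    intro h
    have hc : ringChar F = 2 := by
      apply (CharP.ringChar_of_prime_eq_zero Nat.prime_two _)
      exact_mod_cast h
    rw [FiniteField.even_card_iff_char_two] at hc
    rcases hq with ⟨k, hk⟩
    omega
  set M : Matrix ((Fin (m - 1) ⊕ Fin (m - 1)) ⊕ Fin 2) ((Fin (m - 1) ⊕ Fin (m - 1)) ⊕ Fin 2) F :=
    Matrix.fromBlocks (Matrix.fromBlocks 0 1 0 0) 0 0 !![1, a; 0, c] with hM
  have hQ : ∀ u, Cfsg.quadFormMinus (m - 1) F a c u = u ⬝ᵥ M.mulVec u := by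
    intro u
    rw [hM, Matrix.fromBlocks_mulVec, Matrix.fromBlocks_mulVec]
    simp [Cfsg.quadFormMinus, dotProduct, Fintype.sum_sum_type, Fin.sum_univ_two]
    ring
  obtain ⟨d, hd, hdet⟩ := gram_det M (Cfsg.quadFormMinus (m - 1) F a c) hQ b
  have hMT : M + M.transpose = Matrix.fromBlocks (Matrix.fromBlocks 0 1 1 0) 0 0 !![2, a; a, 2 * c] := by
    rw [hM, Matrix.fromBlocks_transpose, Matrix.fromBlocks_add, Matrix.fromBlocks_transpose, Matrix.fromBlocks_add]
    congr 1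
    · simp
    · simp
    · simp
    · ext i j
      fin_cases i <;> fin_cases j <;> simp <;> ring
  have hD : ¬ IsSquare (a ^ 2 - 4 * c) := by
    rintro ⟨s, hs⟩
    have := hac ((s - a) / 2) 1 (by
      field_simp
      linear_combination (-1 : F) * hs)
    exact one_ne_zero this.2
  rw [hdet, isSquare_sq_mul hd, hMT, Matrix.det_fromBlocks_zero₂₁, det_swap_blocks, Matrix.det_fin_two_of]
  obtain ⟨t, ht⟩ := hq
  have hmt : m * (Fintype.card F - 1) / 2 = m * t := by
    rw [ht]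
    have : m * (2 * t + 1 - 1) = 2 * (m * t) := by
      rw [Nat.add_sub_cancel]; ring
    rw [this, Nat.mul_div_cancel_left _ (by norm_num : 0 < 2)]
  rw [hmt, Nat.even_mul]
  have hrw : (-1 : F) ^ (m - 1) * (2 * (2 * c) - a * a) = (-1) ^ m * (a ^ 2 - 4 * c) := by
    obtain ⟨m', rfl⟩ : ∃ m', m = m' + 1 := ⟨m - 1, by omega⟩
    rw [Nat.add_sub_cancel, pow_succ]; ring
  rw [hrw]
  have hsq1 : IsSquare ((-1 : F) ^ m) ↔ (Even m ∨ Even t) := by
    rcases Nat.even_or_odd m with hm2 | hm2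
    · simp only [hm2, true_or, iff_true, hm2.neg_one_pow]
      exact ⟨1, by simp⟩
    · have hne : ¬ Even m := Nat.not_even_iff_odd.mpr hm2
      simp only [hne, false_or, hm2.neg_one_pow]
      rw [FiniteField.isSquare_neg_one_iff, ht]
      constructor
      · intro h
        rcases Nat.even_or_odd t with ht2 | ht2
        · exact ht2
        · exfalso
          obtain ⟨s, hs⟩ := ht2
          apply h
          omega
      · rintro ⟨s, hs⟩
        omega
  rw [← hsq1]
  have hne0 : ((-1 : F) ^ m) ≠ 0 := pow_ne_zero _ (neg_ne_zero.mpr one_ne_zero)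
  constructor
  · intro h hsq
    exact sq_mul_nonsq hsq hne0 hD h
  · intro h
    exact nonsq_mul_nonsq h hD

end Cfsg.Agent.S2621
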