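import Cfsg.Statements.S2622

set_option autoImplicit false
open Cfsg

namespace Cfsg.Agent.S2622


theorem mem_orth_iff {F V : Type*} [Field F] [AddCommGroup V] [Module F V]
    (B : LinearMap.BilinForm F V) (v x : V) :
    x ∈ B.orthogonal (Submodule.span F {v}) ↔ B v x = 0 := by
  rw [LinearMap.BilinForm.mem_orthogonal_iff]
  constructor
  · intro h; exact h v (Submodule.mem_span_singleton_self v)
  · intro h y hy
    obtain ⟨c, rfl⟩ := Submodule.mem_span_singleton.mp hy
    simp [h]

theorem exists_norm_one {F V : Type*} [Field F] [Finite F] [CharP F 2] [AddCommGroup V]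
    [Module F V] (B : LinearMap.BilinForm F V) (v0 : V) (h : B v0 v0 ≠ 0) : ∃ v, B v v = 1 := by
  obtain ⟨s, hs⟩ := FiniteField.isSquare_of_char_two (ringChar.eq F 2) (B v0 v0)
  have hs0 : s ≠ 0 := by
    rintro rfl
    simp at hs
    exact h hs
  refine ⟨s⁻¹ • v0, ?_⟩
  simp only [map_smul, LinearMap.smul_apply, smul_eq_mul]
  rw [hs]
  field_simp

theorem finrank_orth {F V : Type*} [Field F] [AddCommGroup V] [Module F V]
    [FiniteDimensional F V] {n : ℕ} (hV : Module.finrank F V = n + 1)
    (B : LinearMap.BilinForm F V) {v : V} (hv : B v v ≠ 0) :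
    Module.finrank F (B.orthogonal (Submodule.span F {v})) = n := by
  have hc := LinearMap.BilinForm.isCompl_span_singleton_orthogonal hv
  have h1 := Submodule.finrank_add_eq_of_isCompl hc
  have hv0 : v ≠ 0 := by
    rintro rfl
    simp at hv
  rw [finrank_span_singleton hv0, hV] at h1
  omega

theorem exists_good_vector {F V : Type*} [Field F] [Finite F] [CharP F 2] [AddCommGroup V]
    [Module F V] [FiniteDimensional F V] {n : ℕ} (hV : Module.finrank F V = n + 1)
    (B : LinearMap.BilinForm F V) (hS : B.IsSymm) (hB : B.Nondegenerate)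
    (hna : ∃ v : V, B v v ≠ 0) :
    ∃ v : V, B v v = 1 ∧
      (n = 0 ∨ ∃ x ∈ B.orthogonal (Submodule.span F {v}), B x x ≠ 0) := by
  obtain ⟨v0, hv0⟩ := hna
  obtain ⟨v, hv⟩ := exists_norm_one B v0 hv0
  by_cases hn : n = 0
  · exact ⟨v, hv, Or.inl hn⟩
  by_cases halt : ∃ x ∈ B.orthogonal (Submodule.span F {v}), B x x ≠ 0
  · exact ⟨v, hv, Or.inr halt⟩
  push Not at halt
  have hv1 : B v v ≠ 0 := by rw [hv]; exact one_ne_zero
  have hWnd := LinearMap.BilinForm.restrict_nondegenerate_orthogonal_spanSingleton B hB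
    hS.isRefl hv1
  have hWdim : Module.finrank F (B.orthogonal (Submodule.span F {v})) = n :=
    finrank_orth hV B hv1
  have hpos : 0 < Module.finrank F (B.orthogonal (Submodule.span F {v})) := by omega
  obtain ⟨a, ha⟩ := Module.finrank_pos_iff_exists_ne_zero.mp hpos
  have hex : ∃ b : (B.orthogonal (Submodule.span F {v})), B (a : V) (b : V) ≠ 0 := by
    by_contra hcon
    push Not at hcon
    exact ha (hWnd.1 a hcon)
  obtain ⟨b0, hb0⟩ := hex
  have hbW : (B (a : V) (b0 : V))⁻¹ • (b0 : V) ∈ B.orthogonal (Submodule.span F {v}) :=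
    Submodule.smul_mem _ _ b0.2
  have hab : B (a : V) ((B (a : V) (b0 : V))⁻¹ • (b0 : V)) = 1 := by
    rw [map_smul, smul_eq_mul, inv_mul_cancel₀ hb0]
  generalize (B (a : V) (b0 : V))⁻¹ • (b0 : V) = b at hbW hab
  have hva : B v (a : V) = 0 := (mem_orth_iff B v a).mp a.2
  have hvb : B v b = 0 := (mem_orth_iff B v b).mp hbW
  have haa : B (a : V) (a : V) = 0 := halt a a.2
  have hbb : B b b = 0 := halt b hbW
  have h2 : (1 : F) + 1 = 0 := by
    have := CharP.cast_eq_zero F 2
    rw [one_add_one_eq_two]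
    exact_mod_cast this
  refine ⟨v + a, ?_, Or.inr ⟨v + b, ?_, ?_⟩⟩
  · simp [map_add, LinearMap.add_apply, hv, hva, hS.eq (a : V) v, haa]
  · rw [mem_orth_iff]
    simp [map_add, LinearMap.add_apply, hv, hvb, hS.eq (a : V) v, hva, hab, h2]
  · simp [map_add, LinearMap.add_apply, hv, hvb, hS.eq b v, hbb]

theorem main {F : Type*} [Field F] [Finite F] [CharP F 2] :
    ∀ (n : ℕ) (V : Type*) [AddCommGroup V] [Module F V] [FiniteDimensional F V],
      Module.finrank F V = n → ∀ (B : LinearMap.BilinForm F V), B.IsSymm → B.Nondegenerate →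
      (∃ v : V, B v v ≠ 0) →
      ∃ b : Module.Basis (Fin n) F V, ∀ i j, B (b i) (b j) = if i = j then 1 else 0 := by
  intro n
  induction n with
  | zero =>
    intro V _ _ _ hV B hS hB ⟨v, hv⟩
    exfalso
    have : Subsingleton V := Module.finrank_zero_iff.mp hV
    apply hv
    rw [Subsingleton.elim v 0]
    simp
  | succ n ih =>
    intro V _ _ _ hV B hS hB hna
    obtain ⟨v, hv, hcase⟩ := exists_good_vector hV B hS hB hna
    have hv1 : B v v ≠ 0 := by rw [hv]; exact one_ne_zero
    have hWnd := LinearMap.BilinForm.restrict_nondegenerate_orthogonal_spanSingleton B hB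
      hS.isRefl hv1
    have hWdim : Module.finrank F (B.orthogonal (Submodule.span F {v})) = n :=
      finrank_orth hV B hv1
    have hbW : ∃ bW : Module.Basis (Fin n) F (B.orthogonal (Submodule.span F {v})),
        ∀ i j, B (bW i : V) (bW j : V) = if i = j then 1 else 0 := by
      rcases hcase with hn | ⟨x, hx, hxx⟩
      · subst hn
        exact ⟨Module.finBasisOfFinrankEq F _ hWdim, fun i => i.elim0⟩
      · exact ih (B.orthogonal (Submodule.span F {v})) hWdim
          (B.restrict (B.orthogonal (Submodule.span F {v})))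
          (hS.restrict _) hWnd ⟨⟨x, hx⟩, hxx⟩
    obtain ⟨bW, hbW⟩ := hbW
    have hli : ∀ (c : F), ∀ x ∈ B.orthogonal (Submodule.span F {v}), c • v + x = 0 → c = 0 := by
      intro c x hx h
      have h1 : B v (c • v + x) = 0 := by rw [h]; simp
      rw [map_add, map_smul, hv, (mem_orth_iff B v x).mp hx] at h1
      simpa using h1
    have hsp : ∀ z : V, ∃ c : F, z + c • v ∈ B.orthogonal (Submodule.span F {v}) := by
      intro z
      refine ⟨- B v z, ?_⟩
      rw [mem_orth_iff]
      simp [map_add, hv]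
    refine ⟨Module.Basis.mkFinCons v bW hli hsp, ?_⟩
    intro i j
    rw [Module.Basis.coe_mkFinCons]
    refine Fin.cases ?_ (fun i' => ?_) i <;> refine Fin.cases ?_ (fun j' => ?_) j
    · simp [hv]
    · simp only [Fin.cons_zero, Fin.cons_succ, Function.comp_apply]
      rw [(mem_orth_iff B v _).mp (bW j').2]
      simp [(Fin.succ_ne_zero j').symm]
    · simp only [Fin.cons_zero, Fin.cons_succ, Function.comp_apply]
      rw [hS.eq, (mem_orth_iff B v _).mp (bW i').2]
      simp [Fin.succ_ne_zero i']
    · simp only [Fin.cons_succ, Function.comp_apply]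
      rw [hbW i' j']
      simp [Fin.succ_inj]

/-- Over a finite field of characteristic two, a non-degenerate symmetric bilinear form that is not alternating (some vector v has B(v, v) ≠ 0) admits an orthonormal basis. -/
theorem result {F V : Type*} [Field F] [Finite F] [CharP F 2] [AddCommGroup V] [Module F V] [FiniteDimensional F V] {n : ℕ} (hV : Module.finrank F V = n) (B : LinearMap.BilinForm F V) (hS : B.IsSymm) (hB : B.Nondegenerate) (hna : ∃ v : V, B v v ≠ 0) : ∃ b : Module.Basis (Fin n) F V, ∀ i j, B (b i) (b j) = if i = j then 1 else 0 := by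
  exact main n V hV B hS hB hna

end Cfsg.Agent.S2622
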