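import Cfsg.Statements.S2624
import Cfsg.Agent.S2623

set_option autoImplicit false
open Cfsg

namespace Cfsg.Agent.S2624

/-- For a quadratic form Q on F^n with non-degenerate polar form, F finite and n ≥ 2 even, every non-zero scalar c is the multiplier of some similarity: there is an invertible linear map g with Q(g v) = c·Q(v) for all v. -/
theorem result {F : Type*} [Field F] [Fintype F] {n : ℕ} (hn : 2 ≤ n) (he : Even n) (Q : QuadraticForm F (Fin n → F)) (hQ : (QuadraticMap.polarBilin Q).Nondegenerate) (c : F) (hc : c ≠ 0) : ∃ g : (Fin n → F) ≃ₗ[F] (Fin n → F), ∀ v, Q (g v) = c * Q v := by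
  classical
  by_cases h2 : (2 : F) = 0
  · have hchar : ringChar F = 2 :=
      CharP.ringChar_of_prime_eq_zero Nat.prime_two (by exact_mod_cast h2)
    obtain ⟨s, hs⟩ := FiniteField.isSquare_of_char_two hchar c
    have hs0 : s ≠ 0 := by
      rintro rfl
      simp only [mul_zero] at hs
      exact hc hs
    refine ⟨LinearEquiv.smulOfUnit (Units.mk0 s hs0), fun v => ?_⟩
    have h1 : (LinearEquiv.smulOfUnit (Units.mk0 s hs0) : (Fin n → F) ≃ₗ[F] (Fin n → F)) v
        = s • v := rfl
    rw [h1, QuadraticMap.map_smul, smul_eq_mul, hs]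
  · have hpol : ∀ x y : Fin n → F, QuadraticMap.polar ⇑(c • Q) x y
        = c * QuadraticMap.polar ⇑Q x y := by
      intro x y
      simp only [QuadraticMap.polar, FunLike.coe_smul, Pi.smul_apply, smul_eq_mul]
      ring
    have hnd : (QuadraticMap.polarBilin (c • Q)).Nondegenerate := by
      constructor
      · intro x hx
        apply hQ.1 x
        intro y
        have := hx y
        rw [QuadraticMap.polarBilin_apply_apply, hpol] at this
        rw [QuadraticMap.polarBilin_apply_apply]
        exact (mul_eq_zero.mp this).resolve_left hc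
      · intro y hy
        apply hQ.2 y
        intro x
        have := hy x
        rw [QuadraticMap.polarBilin_apply_apply, hpol] at this
        rw [QuadraticMap.polarBilin_apply_apply]
        exact (mul_eq_zero.mp this).resolve_left hc
    have key := Cfsg.Agent.S2623.result h2 (c • Q) Q hnd hQ
    have hmat : Matrix.of (fun i j : Fin n =>
          QuadraticMap.polar ⇑(c • Q) (Pi.single i 1) (Pi.single j 1)) =
        c • Matrix.of (fun i j : Fin n =>
          QuadraticMap.polar ⇑Q (Pi.single i 1) (Pi.single j 1)) := by
      ext i j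
      rw [Matrix.smul_apply, Matrix.of_apply, Matrix.of_apply, hpol, smul_eq_mul]
    have hsq : IsSquare ((Matrix.of (fun i j : Fin n =>
          QuadraticMap.polar ⇑(c • Q) (Pi.single i 1) (Pi.single j 1))).det *
        (Matrix.of (fun i j : Fin n =>
          QuadraticMap.polar ⇑Q (Pi.single i 1) (Pi.single j 1))).det) := by
      rw [hmat, Matrix.det_smul, Fintype.card_fin]
      obtain ⟨k, hk⟩ := he
      refine ⟨c ^ k * (Matrix.of (fun i j : Fin n =>
          QuadraticMap.polar ⇑Q (Pi.single i 1) (Pi.single j 1))).det, ?_⟩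
      have hck : c ^ n = c ^ k * c ^ k := by rw [hk, pow_add]
      rw [hck]
      ring
    obtain ⟨g, hg⟩ := key.mpr hsq
    refine ⟨g, fun v => ?_⟩
    rw [hg v, FunLike.coe_smul, Pi.smul_apply, smul_eq_mul]

end Cfsg.Agent.S2624
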