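import Cfsg.Statements.S2625

set_option autoImplicit false
open Cfsg

namespace Cfsg.Agent.S2625

/-- For a quadratic form Q on F^n with non-degenerate polar form, F finite and n odd (so |F| is odd), the multiplier of any similarity is a square: if g is an invertible linear map with Q(g v) = c·Q(v) for all v then c is a square. -/
theorem result {F : Type*} [Field F] [Fintype F] {n : ℕ} (hn : Odd n) (Q : QuadraticForm F (Fin n → F)) (hQ : (QuadraticMap.polarBilin Q).Nondegenerate) (g : (Fin n → F) ≃ₗ[F] (Fin n → F)) (c : F) (hg : ∀ v, Q (g v) = c * Q v) : IsSquare c := by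
  classical
  by_cases hc : c = 0
  · subst hc; exact ⟨0, by simp⟩
  set B : LinearMap.BilinForm F (Fin n → F) := QuadraticMap.polarBilin Q with hB
  have hcomp : B.comp (g : (Fin n → F) →ₗ[F] (Fin n → F)) (g : (Fin n → F) →ₗ[F] (Fin n → F)) = c • B := by
    refine LinearMap.ext₂ ?_
    intro u v
    simp only [LinearMap.BilinForm.comp_apply, LinearMap.smul_apply, hB,
      QuadraticMap.polarBilin_apply_apply, QuadraticMap.polar, LinearEquiv.coe_coe, smul_eq_mul]
    rw [← map_add, hg, hg, hg]
    ring
  have hM := congrArg LinearMap.BilinForm.toMatrix' hcomp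
  rw [LinearMap.BilinForm.toMatrix'_comp, map_smul] at hM
  have hdet := congrArg Matrix.det hM
  rw [Matrix.det_mul, Matrix.det_mul, Matrix.det_transpose, Matrix.det_smul, Fintype.card_fin] at hdet
  have hM0 : (LinearMap.BilinForm.toMatrix' B).det ≠ 0 :=
    Matrix.nondegenerate_iff_det_ne_zero.mp (LinearMap.BilinForm.nondegenerate_toMatrix'_iff.mpr hQ)
  set d := (LinearMap.toMatrix' (g : (Fin n → F) →ₗ[F] (Fin n → F))).det with hd
  have h1 : d * d = c ^ n := by
    have : d * d * (LinearMap.BilinForm.toMatrix' B).det = c ^ n * (LinearMap.BilinForm.toMatrix' B).det := by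
      rw [← hdet]; ring
    exact mul_right_cancel₀ hM0 this
  obtain ⟨k, hk⟩ := hn
  refine ⟨d / c ^ k, ?_⟩
  have hck : c ^ k ≠ 0 := pow_ne_zero k hc
  field_simp
  rw [hk] at h1
  rw [← pow_two] at h1
  rw [h1]; ring

end Cfsg.Agent.S2625
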