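import Cfsg.Statements.S2626

set_option autoImplicit false
open Cfsg

namespace Cfsg.Agent.S2626

open Matrix in
theorem map_mem_commutator {G H : Type*} [Group G] [Group H] (f : G →* H) {x : G}
    (hx : x ∈ commutator G) : f x ∈ commutator H := by
  have h1 : (commutator G).map f ≤ commutator H := by
    rw [commutator_def, commutator_def, Subgroup.map_commutator]
    exact Subgroup.commutator_mono le_top le_top
  exact h1 (Subgroup.mem_map_of_mem f hx)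

noncomputable def blkL (k l : ℕ) (F : Type*) [Field F] :
    Matrix (Fin k) (Fin k) F →* Matrix (Fin k ⊕ Fin l) (Fin k ⊕ Fin l) F where
  toFun A := Matrix.fromBlocks A 0 0 1
  map_one' := Matrix.fromBlocks_one
  map_mul' A B := by simp [Matrix.fromBlocks_multiply]

noncomputable def blkR (k l : ℕ) (F : Type*) [Field F] :
    Matrix (Fin l) (Fin l) F →* Matrix (Fin k ⊕ Fin l) (Fin k ⊕ Fin l) F where
  toFun A := Matrix.fromBlocks 1 0 0 A
  map_one' := Matrix.fromBlocks_one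
  map_mul' A B := by simp [Matrix.fromBlocks_multiply]

theorem mem_iso_iff {ι : Type} [Fintype ι] [DecidableEq ι] {F : Type*} [Field F] (Q : (ι → F) → F)
    (g : Matrix.GeneralLinearGroup ι F) :
    g ∈ Cfsg.isometryGroup F Q ↔ ∀ u : ι → F, Q ((g : Matrix ι ι F).mulVec u) = Q u := by
  constructor
  · intro h u
    exact h u u
  · intro h u v
    exact h u

theorem blkL_mem {F : Type*} [Field F] {k l : ℕ} (Q₁ : (Fin k → F) → F) (Q₂ : (Fin l → F) → F)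
    (g : Cfsg.isometryGroup F Q₁) :
    Units.map (blkL k l F) (g : Matrix.GeneralLinearGroup (Fin k) F) ∈
      Cfsg.isometryGroup F (fun v : Fin k ⊕ Fin l → F => Q₁ (v ∘ Sum.inl) + Q₂ (v ∘ Sum.inr)) := by
  rw [mem_iso_iff]
  intro u
  have hg := (mem_iso_iff Q₁ _).mp g.2 (u ∘ Sum.inl)
  have e : ((Units.map (blkL k l F) (g : Matrix.GeneralLinearGroup (Fin k) F) :
      Matrix.GeneralLinearGroup (Fin k ⊕ Fin l) F) : Matrix (Fin k ⊕ Fin l) (Fin k ⊕ Fin l) F)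
      = Matrix.fromBlocks ((g : Matrix.GeneralLinearGroup (Fin k) F) : Matrix (Fin k) (Fin k) F) 0 0 1 := rfl
  rw [e, Matrix.fromBlocks_mulVec]
  simp only [Matrix.zero_mulVec, add_zero, zero_add, Matrix.one_mulVec, Sum.elim_comp_inl,
    Sum.elim_comp_inr]
  rw [hg]

theorem blkR_mem {F : Type*} [Field F] {k l : ℕ} (Q₁ : (Fin k → F) → F) (Q₂ : (Fin l → F) → F)
    (g : Cfsg.isometryGroup F Q₂) :
    Units.map (blkR k l F) (g : Matrix.GeneralLinearGroup (Fin l) F) ∈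
      Cfsg.isometryGroup F (fun v : Fin k ⊕ Fin l → F => Q₁ (v ∘ Sum.inl) + Q₂ (v ∘ Sum.inr)) := by
  rw [mem_iso_iff]
  intro u
  have hg := (mem_iso_iff Q₂ _).mp g.2 (u ∘ Sum.inr)
  have e : ((Units.map (blkR k l F) (g : Matrix.GeneralLinearGroup (Fin l) F) :
      Matrix.GeneralLinearGroup (Fin k ⊕ Fin l) F) : Matrix (Fin k ⊕ Fin l) (Fin k ⊕ Fin l) F)
      = Matrix.fromBlocks 1 0 0 ((g : Matrix.GeneralLinearGroup (Fin l) F) : Matrix (Fin l) (Fin l) F) := rfl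
  rw [e, Matrix.fromBlocks_mulVec]
  simp only [Matrix.zero_mulVec, add_zero, zero_add, Matrix.one_mulVec, Sum.elim_comp_inl,
    Sum.elim_comp_inr]
  rw [hg]

noncomputable def embL {F : Type*} [Field F] {k l : ℕ} (Q₁ : (Fin k → F) → F) (Q₂ : (Fin l → F) → F) :
    Cfsg.isometryGroup F Q₁ →*
      Cfsg.isometryGroup F (fun v : Fin k ⊕ Fin l → F => Q₁ (v ∘ Sum.inl) + Q₂ (v ∘ Sum.inr)) :=
  MonoidHom.codRestrict ((Units.map (blkL k l F)).comp (Cfsg.isometryGroup F Q₁).subtype) _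
    (fun g => blkL_mem Q₁ Q₂ g)

noncomputable def embR {F : Type*} [Field F] {k l : ℕ} (Q₁ : (Fin k → F) → F) (Q₂ : (Fin l → F) → F) :
    Cfsg.isometryGroup F Q₂ →*
      Cfsg.isometryGroup F (fun v : Fin k ⊕ Fin l → F => Q₁ (v ∘ Sum.inl) + Q₂ (v ∘ Sum.inr)) :=
  MonoidHom.codRestrict ((Units.map (blkR k l F)).comp (Cfsg.isometryGroup F Q₂).subtype) _
    (fun g => blkR_mem Q₁ Q₂ g)

/-- Ω of an orthogonal direct sum contains the product of the Ω's: for quadratic forms Q₁ on F^k and Q₂ on F^l with non-degenerate polar forms (F finite) and Q = Q₁ ⊕ Q₂ on F^(k+l), if g₁ lies in Ω(Q₁) and g₂ in Ω(Q₂) (commutator subgroups of the orthogonal groups) then the block-diagonal isometry diag(g₁, g₂) lies in Ω(Q). -/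
theorem result {F : Type*} [Field F] [Fintype F] {k l : ℕ} (Q₁ : QuadraticForm F (Fin k → F)) (Q₂ : QuadraticForm F (Fin l → F)) (h₁ : (QuadraticMap.polarBilin Q₁).Nondegenerate) (h₂ : (QuadraticMap.polarBilin Q₂).Nondegenerate) (g₁ : ↥(Cfsg.isometryGroup F ⇑Q₁)) (g₂ : ↥(Cfsg.isometryGroup F ⇑Q₂)) (hg₁ : g₁ ∈ Cfsg.Omega F ⇑Q₁) (hg₂ : g₂ ∈ Cfsg.Omega F ⇑Q₂) : ∃ g : ↥(Cfsg.isometryGroup F (fun v : Fin k ⊕ Fin l → F => Q₁ (v ∘ Sum.inl) + Q₂ (v ∘ Sum.inr))), g ∈ Cfsg.Omega F (fun v : Fin k ⊕ Fin l → F => Q₁ (v ∘ Sum.inl) + Q₂ (v ∘ Sum.inr)) ∧ ((g : Matrix.GeneralLinearGroup (Fin k ⊕ Fin l) F) : Matrix (Fin k ⊕ Fin l) (Fin k ⊕ Fin l) F) = Matrix.fromBlocks ((g₁ : Matrix.GeneralLinearGroup (Fin k) F) : Matrix (Fin k) (Fin k) F) 0 0 ((g₂ : Matrix.GeneralLinearGroup (Fin l) F) : Matrix (Fin l) (Fin l) F) := by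
  classical
  refine ⟨embL (⇑Q₁) (⇑Q₂) g₁ * embR (⇑Q₁) (⇑Q₂) g₂, ?_, ?_⟩
  · exact Subgroup.mul_mem _ (map_mem_commutator _ hg₁) (map_mem_commutator _ hg₂)
  · show Matrix.fromBlocks ((g₁ : Matrix.GeneralLinearGroup (Fin k) F) : Matrix (Fin k) (Fin k) F) 0 0 1 *
        Matrix.fromBlocks 1 0 0 ((g₂ : Matrix.GeneralLinearGroup (Fin l) F) : Matrix (Fin l) (Fin l) F) = _
    rw [Matrix.fromBlocks_multiply]
    simp

end Cfsg.Agent.S2626
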