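import Cfsg.Statements.S2634
import Cfsg.Agent.Lib.Helper17.CDChar2App

set_option autoImplicit false
open Cfsg

namespace Cfsg.Agent.S2634

/-- Over a finite field of characteristic two, Ω (the commutator subgroup of the orthogonal group of a quadratic form Q on F^n with non-degenerate polar form; excluding dimension 4 over the field of two elements) acts transitively on the non-singular 1-spaces: for u, v with Q(u) ≠ 0 and Q(v) ≠ 0 some element of Ω carries the line through u to the line through v. -/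
theorem result {F : Type*} [Field F] [Fintype F] [CharP F 2] {n : ℕ} (h : Fintype.card F ≠ 2 ∨ n ≠ 4) (Q : QuadraticForm F (Fin n → F)) (hQ : (QuadraticMap.polarBilin Q).Nondegenerate) (u v : Fin n → F) (hu : Q u ≠ 0) (hv : Q v ≠ 0) : ∃ g : ↥(Cfsg.isometryGroup F ⇑Q), g ∈ Cfsg.Omega F ⇑Q ∧ (F ∙ ((g : Matrix.GeneralLinearGroup (Fin n) F) : Matrix (Fin n) (Fin n) F).mulVec u) = F ∙ v := by
  have hsq : ∀ a : F, ∃ b, b * b = a := Cfsg.Agent.Lib.Helper17.c2_fin_hsq
  have hex : (∃ β : F, β ≠ 0 ∧ β ≠ 1) ∨ Fintype.card (Fin n) ≠ 4 := by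
    rcases h with h | h
    · exact Or.inl (Cfsg.Agent.Lib.Helper17.c2_fin_hex h)
    · right
      rw [Fintype.card_fin]
      exact h
  obtain ⟨c, hc⟩ := hsq (Q u / Q v)
  have hc0 : c ≠ 0 := by
    rintro rfl
    rw [mul_zero] at hc
    exact div_ne_zero hu hv hc.symm
  have hQcv : Q (c • v) = Q u := by
    rw [QuadraticMap.map_smul, hc, smul_eq_mul, div_mul_cancel₀ _ hv]
  obtain ⟨ρ, hρ, hρu⟩ := Cfsg.Agent.Lib.Helper17.c2_trans Q hQ hex u (c • v) hQcv.symm hu
  refine ⟨ρ, Cfsg.Agent.Lib.Helper17.c2P_le_commutator Q hQ hsq hex hρ, ?_⟩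
  have e : ((ρ : Matrix.GeneralLinearGroup (Fin n) F) : Matrix (Fin n) (Fin n) F).mulVec u
      = c • v := hρu
  rw [e]
  exact Submodule.span_singleton_smul_eq (IsUnit.mk0 c hc0) v

end Cfsg.Agent.S2634
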