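import Cfsg.Statements.S2637
import Mathlib
import Cfsg.Agent.S0755
import Cfsg.Agent.S0277

set_option autoImplicit false
open Cfsg

namespace Cfsg.Agent.S2637


set_option linter.unusedSectionVars false
set_option linter.unusedVariables false
set_option linter.style.haveILetI false

theorem no_root {F : Type*} [Field F] [Fintype F] {q : ℕ} (hF : Fintype.card F = q) (hq : q % 3 = 2)
    (a : F) : a ^ 2 + a + 1 ≠ 0 := by
  intro h
  have h3 : a ^ 3 = 1 := by linear_combination (a - 1) * h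
  have ha0 : a ≠ 0 := by
    rintro rfl
    simp at h
  have h1 : a ^ (q - 1) = 1 := by
    rw [← hF]; exact FiniteField.pow_card_sub_one_eq_one a ha0
  obtain ⟨k, hk⟩ : ∃ k, q = 3 * k + 2 := ⟨q / 3, by omega⟩
  have h2 : a = 1 := by
    have : q - 1 = 3 * k + 1 := by omega
    rw [this, pow_succ, pow_mul, h3, one_pow, one_mul] at h1
    exact h1
  subst h2
  have hq0 : ((q : ℕ) : F) = 0 := by rw [← hF]; exact FiniteField.cast_card_eq_zero F
  rw [hk] at hq0
  push_cast at hq0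
  have : (1 : F) = 0 := by linear_combination (1 + (k : F)) * h - hq0
  exact one_ne_zero this

theorem indep {F : Type*} [Field F] [Fintype F] {q : ℕ} (hF : Fintype.card F = q) (hq : q % 3 = 2)
    {K : Type*} [Field K] [Algebra F K] (ω : K) (hω : ω ^ 2 + ω + 1 = 0) (a b : F)
    (h : algebraMap F K a + algebraMap F K b * ω = 0) : a = 0 ∧ b = 0 := by
  by_cases hb : b = 0
  · subst hb
    simp at h
    exact ⟨h, rfl⟩
  · exfalso
    have hb' : algebraMap F K b ≠ 0 := by simpa using hb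
    have hω' : ω = algebraMap F K (-a / b) := by
      rw [map_div₀, map_neg]; field_simp; linear_combination h
    have : algebraMap F K ((-a/b)^2 + (-a/b) + 1) = 0 := by
      rw [map_add, map_add, map_pow, map_one, ← hω']; exact hω
    exact no_root hF hq (-a/b) ((map_eq_zero _).mp this)


section forms
open scoped Matrix
variable {F : Type*} [Field F] {m : ℕ}

/-- the standard alternating form on `F^(2m)` -/
def Bf (u v : Fin m ⊕ Fin m → F) : F := u ⬝ᵥ (Matrix.J (Fin m) F *ᵥ v)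

theorem Bf_add_left (u u' v : Fin m ⊕ Fin m → F) : Bf (u + u') v = Bf u v + Bf u' v := by
  unfold Bf; rw [add_dotProduct]

theorem Bf_add_right (u v v' : Fin m ⊕ Fin m → F) : Bf u (v + v') = Bf u v + Bf u v' := by
  unfold Bf; rw [Matrix.mulVec_add, dotProduct_add]

theorem Bf_smul_left (a : F) (u v : Fin m ⊕ Fin m → F) : Bf (a • u) v = a * Bf u v := by
  unfold Bf; rw [smul_dotProduct, smul_eq_mul]

theorem Bf_smul_right (a : F) (u v : Fin m ⊕ Fin m → F) : Bf u (a • v) = a * Bf u v := by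
  unfold Bf; rw [Matrix.mulVec_smul, dotProduct_smul, smul_eq_mul]

theorem Bf_neg_right (u v : Fin m ⊕ Fin m → F) : Bf u (-v) = - Bf u v := by
  unfold Bf; rw [Matrix.mulVec_neg, dotProduct_neg]

theorem Bf_swap (u v : Fin m ⊕ Fin m → F) : Bf v u = - Bf u v := by
  unfold Bf
  rw [Matrix.dotProduct_mulVec, ← Matrix.mulVec_transpose, Matrix.J_transpose, Matrix.neg_mulVec,
    neg_dotProduct, dotProduct_comm]

theorem Bf_eq_zero (u : Fin m ⊕ Fin m → F) (h : ∀ v, Bf u v = 0) : u = 0 := by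
  apply dotProduct_eq_zero
  intro w
  have := h (Matrix.J (Fin m) F *ᵥ w)
  unfold Bf at this
  rw [Matrix.mulVec_mulVec, Matrix.J_squared, Matrix.neg_mulVec, Matrix.one_mulVec,
    dotProduct_neg, neg_eq_zero] at this
  exact this

theorem Bf_eq_zero' (v : Fin m ⊕ Fin m → F) (h : ∀ u, Bf u v = 0) : v = 0 := by
  apply Bf_eq_zero
  intro u
  rw [Bf_swap, h, neg_zero]

theorem Bf_mul (M : Matrix (Fin m ⊕ Fin m) (Fin m ⊕ Fin m) F)
    (hM : M.transpose * Matrix.J (Fin m) F * M = Matrix.J (Fin m) F) (u v : Fin m ⊕ Fin m → F) :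
    Bf (M *ᵥ u) (M *ᵥ v) = Bf u v := by
  unfold Bf
  rw [← Matrix.vecMul_transpose, ← Matrix.dotProduct_mulVec, Matrix.mulVec_mulVec,
    Matrix.mulVec_mulVec, hM]

theorem Bf_mul_conv (M : Matrix (Fin m ⊕ Fin m) (Fin m ⊕ Fin m) F)
    (h : ∀ u v : Fin m ⊕ Fin m → F, Bf (M *ᵥ u) (M *ᵥ v) = Bf u v) :
    M.transpose * Matrix.J (Fin m) F * M = Matrix.J (Fin m) F := by
  have h2 : ∀ u v : Fin m ⊕ Fin m → F,
      u ⬝ᵥ ((M.transpose * Matrix.J (Fin m) F * M) *ᵥ v) = u ⬝ᵥ (Matrix.J (Fin m) F *ᵥ v) := by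
    intro u v
    have := h u v
    unfold Bf at this
    rw [← Matrix.vecMul_transpose, ← Matrix.dotProduct_mulVec, Matrix.mulVec_mulVec,
      Matrix.mulVec_mulVec] at this
    exact this
  apply Matrix.mulVec_injective
  funext v
  apply dotProduct_eq
  intro u
  rw [dotProduct_comm, h2, dotProduct_comm]

end forms

section herm
open scoped Matrix
variable {F : Type*} [Field F] {K : Type*} [Field K] [Algebra F K] {m : ℕ}

/-- the hermitian form attached to the alternating form and `X` -/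
def hf (ω : K) (X : Matrix (Fin m ⊕ Fin m) (Fin m ⊕ Fin m) F) (u v : Fin m ⊕ Fin m → F) : K :=
  algebraMap F K (Bf u v + Bf u (X *ᵥ v)) + algebraMap F K (Bf u v) * ω

theorem hf_add_left (ω : K) (X : Matrix (Fin m ⊕ Fin m) (Fin m ⊕ Fin m) F)
    (u u' v : Fin m ⊕ Fin m → F) : hf ω X (u + u') v = hf ω X u v + hf ω X u' v := by
  unfold hf; rw [Bf_add_left, Bf_add_left]; simp only [map_add]; ring

theorem hf_add_right (ω : K) (X : Matrix (Fin m ⊕ Fin m) (Fin m ⊕ Fin m) F)
    (u v v' : Fin m ⊕ Fin m → F) : hf ω X u (v + v') = hf ω X u v + hf ω X u v' := by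
  unfold hf; rw [Matrix.mulVec_add, Bf_add_right, Bf_add_right]; simp only [map_add]; ring

theorem XX (X : Matrix (Fin m ⊕ Fin m) (Fin m ⊕ Fin m) F) (hX : X * X + X + 1 = 0)
    (v : Fin m ⊕ Fin m → F) : X *ᵥ (X *ᵥ v) = - v - X *ᵥ v := by
  have := congrArg (fun M => M *ᵥ v) hX
  simp only [Matrix.add_mulVec, Matrix.one_mulVec, Matrix.zero_mulVec,
    ← Matrix.mulVec_mulVec] at this
  rw [eq_sub_iff_add_eq, eq_neg_iff_add_eq_zero]; exact this

theorem hf_smul_right (ω : K) (hω : ω ^ 2 + ω + 1 = 0)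
    (X : Matrix (Fin m ⊕ Fin m) (Fin m ⊕ Fin m) F) (hX : X * X + X + 1 = 0) (a b : F)
    (u v : Fin m ⊕ Fin m → F) :
    hf ω X u (a • v + b • (X *ᵥ v)) = (algebraMap F K a + algebraMap F K b * ω) * hf ω X u v := by
  unfold hf
  rw [Matrix.mulVec_add, Matrix.mulVec_smul, Matrix.mulVec_smul, XX X hX]
  simp only [Bf_add_right, Bf_smul_right, sub_eq_add_neg, Bf_neg_right, map_add, map_mul, map_neg]
  linear_combination (-(algebraMap F K b) * algebraMap F K (Bf u v)) * hω

theorem Bf_X_left (X : Matrix (Fin m ⊕ Fin m) (Fin m ⊕ Fin m) F)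
    (hXJ : X.transpose * Matrix.J (Fin m) F * X = Matrix.J (Fin m) F)
    (hX : X * X + X + 1 = 0) (u v : Fin m ⊕ Fin m → F) :
    Bf (X *ᵥ u) v = - Bf u v - Bf u (X *ᵥ v) := by
  have h1 := Bf_mul X hXJ u (X *ᵥ v)
  rw [XX X hX, sub_eq_add_neg, Bf_add_right, Bf_neg_right, Bf_neg_right, Bf_mul X hXJ] at h1
  linear_combination -h1

theorem hf_symm (ω : K) (σ : K →+* K) (hσ : ∀ a, σ (algebraMap F K a) = algebraMap F K a)
    (hσω : σ ω = -1 - ω) (X : Matrix (Fin m ⊕ Fin m) (Fin m ⊕ Fin m) F)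
    (hXJ : X.transpose * Matrix.J (Fin m) F * X = Matrix.J (Fin m) F)
    (hX : X * X + X + 1 = 0) (u v : Fin m ⊕ Fin m → F) :
    σ (hf ω X v u) = hf ω X u v := by
  unfold hf
  rw [map_add, map_mul, hσ, hσ, hσω, Bf_swap u v, Bf_swap (X *ᵥ u) v, Bf_X_left X hXJ hX]
  simp only [map_add, map_neg, map_sub]
  ring

end herm

section mainsec
open scoped Matrix

theorem main {F : Type*} [Field F] [Fintype F] {q : ℕ} (hF : Fintype.card F = q) (hq : q % 3 = 2)
    {K : Type*} [Field K] [Fintype K] [Algebra F K] (ω : K) (hω : ω ^ 2 + ω + 1 = 0)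
    (hspan : ∀ c : K, ∃ a b : F, c = algebraMap F K a + algebraMap F K b * ω)
    {m : ℕ} (x : Matrix.symplecticGroup (Fin m) F)
    (hX : (x : Matrix (Fin m ⊕ Fin m) (Fin m ⊕ Fin m) F) * x + x + 1 = 0)
    [Module K (Fin m ⊕ Fin m → F)]
    (hsm : ∀ (a b : F) (v : Fin m ⊕ Fin m → F),
      (algebraMap F K a + algebraMap F K b * ω) • v
        = a • v + b • ((x : Matrix (Fin m ⊕ Fin m) (Fin m ⊕ Fin m) F) *ᵥ v)) :
    Nat.card ↥(Subgroup.centralizer ({x} : Set ↥(Matrix.symplecticGroup (Fin m) F)))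
      = q ^ (m * (m - 1) / 2) * ∏ i ∈ Finset.range m,
          (if Even i then q ^ (i + 1) + 1 else q ^ (i + 1) - 1) := by
  classical
  have hXJ : (x.1).transpose * Matrix.J (Fin m) F * x.1 = Matrix.J (Fin m) F :=
    SymplecticGroup.mem_iff'.mp x.2
  have hsm1 : ∀ (a : F) (v : Fin m ⊕ Fin m → F), (algebraMap F K a) • v = a • v := by
    intro a v; have := hsm a 0 v; simpa using this
  have hsmω : ∀ (v : Fin m ⊕ Fin m → F), ω • v = x.1 *ᵥ v := by
    intro v; have := hsm 0 1 v; simpa using this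
  -- the Frobenius
  obtain ⟨σ, hσdef⟩ : ∃ σ : K →+* K, ∀ c, σ c = c ^ q :=
    ⟨(FiniteField.frobeniusAlgHom F K).toRingHom, fun c => by rw [← hF]; rfl⟩
  have hσalg : ∀ a : F, σ (algebraMap F K a) = algebraMap F K a := by
    intro a; rw [hσdef, ← map_pow, ← hF, FiniteField.pow_card]
  have hω3 : ω ^ 3 = 1 := by linear_combination (ω - 1) * hω
  have hσω : σ ω = -1 - ω := by
    rw [hσdef]
    obtain ⟨k, hk⟩ : ∃ k, q = 3 * k + 2 := ⟨q / 3, by omega⟩
    rw [hk, pow_add, pow_mul, hω3, one_pow, one_mul]; linear_combination hω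
  have hKcard : Fintype.card K = q ^ 2 := by
    have hbij : Function.Bijective
        (fun p : F × F => algebraMap F K p.1 + algebraMap F K p.2 * ω) := by
      constructor
      · rintro ⟨a, b⟩ ⟨a', b'⟩ hab
        have := indep hF hq ω hω (a - a') (b - b') (by
          simp only [map_sub]; simp only at hab; linear_combination hab)
        rw [Prod.mk.injEq]
        exact ⟨sub_eq_zero.mp this.1, sub_eq_zero.mp this.2⟩
      · intro c; obtain ⟨a, b, rfl⟩ := hspan c; exact ⟨(a, b), rfl⟩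
    rw [← Fintype.card_congr (Equiv.ofBijective _ hbij), Fintype.card_prod, hF, sq]
  have hσ2 : ∀ c : K, σ (σ c) = c := by
    intro c; rw [hσdef, hσdef, ← pow_mul, ← sq, ← hKcard, FiniteField.pow_card]
  have hσne : σ ≠ RingHom.id K := by
    intro h
    have h1 : σ ω = ω := by rw [h]; rfl
    rw [hσω] at h1
    have := (indep hF hq ω hω 1 2 (by
      simp only [map_one, map_ofNat]; linear_combination -h1)).1
    exact one_ne_zero this
  -- the hermitian form
  have hh_smul_right : ∀ (c : K) (u v : Fin m ⊕ Fin m → F),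
      hf ω x.1 u (c • v) = c * hf ω x.1 u v := by
    intro c u v
    obtain ⟨a, b, rfl⟩ := hspan c
    rw [hsm, hf_smul_right ω hω x.1 hX]
  have hh_symm : ∀ (u v : Fin m ⊕ Fin m → F), σ (hf ω x.1 v u) = hf ω x.1 u v :=
    fun u v => hf_symm ω σ hσalg hσω x.1 hXJ hX u v
  have hh_smul_left : ∀ (c : K) (u v : Fin m ⊕ Fin m → F),
      hf ω x.1 (c • u) v = σ c * hf ω x.1 u v := by
    intro c u v
    rw [← hh_symm, hh_smul_right, map_mul, hh_symm]
  obtain ⟨hS, hSdef⟩ : ∃ hS : (Fin m ⊕ Fin m → F) →ₛₗ[σ] (Fin m ⊕ Fin m → F) →ₗ[K] K,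
      ∀ u v, hS u v = hf ω x.1 u v :=
    ⟨LinearMap.mk₂'ₛₗ σ (RingHom.id K) (hf ω x.1) (hf_add_left ω x.1)
      (fun c u v => by rw [smul_eq_mul]; exact hh_smul_left c u v) (hf_add_right ω x.1)
      (fun c u v => by rw [RingHom.id_apply, smul_eq_mul]; exact hh_smul_right c u v),
      fun u v => rfl⟩
  have hSsymm : hS.IsSymm := ⟨fun u v => by rw [hSdef, hSdef]; exact hh_symm v u⟩
  have hBcoef : ∀ u v : Fin m ⊕ Fin m → F, hS u v = 0 → Bf u v = 0 := by
    intro u v h
    rw [hSdef] at h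
    exact (indep hF hq ω hω _ _ h).2
  have hSnd : hS.Nondegenerate :=
    ⟨fun u hu => Bf_eq_zero u (fun v => hBcoef u v (hu v)),
      fun v hv => Bf_eq_zero' v (fun u => hBcoef u v (hv u))⟩
  -- dimension
  have : Module.Finite K (Fin m ⊕ Fin m → F) := Module.Finite.of_finite
  have hq2 : 2 ≤ q := by omega
  have hfin : Module.finrank K (Fin m ⊕ Fin m → F) = m := by
    have h1 := Module.card_eq_pow_finrank (K := K) (V := Fin m ⊕ Fin m → F)
    rw [hKcard, Fintype.card_fun, hF, Fintype.card_sum, Fintype.card_fin, ← pow_mul] at h1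
    have h2 := Nat.pow_right_injective hq2 h1
    omega
  obtain ⟨b0, hb0⟩ := Cfsg.Agent.S0755.result σ hσne hσ2 hS hSsymm hSnd
  obtain ⟨b, hb⟩ : ∃ b : Module.Basis (Fin m) K (Fin m ⊕ Fin m → F),
      ∀ i j, hS (b i) (b j) = if i = j then 1 else 0 := by
    refine ⟨b0.reindex (finCongr hfin), fun i j => ?_⟩
    rw [Module.Basis.reindex_apply, Module.Basis.reindex_apply, hb0]
    simp
  have hrepr : ∀ u v : Fin m ⊕ Fin m → F,
      hS u v = Cfsg.hermForm m K q (b.equivFun v) (b.equivFun u) := by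
    intro u v
    conv_lhs => rw [← b.sum_equivFun u, ← b.sum_equivFun v]
    simp only [map_sum, LinearMap.sum_apply, LinearMap.map_smulₛₗ, LinearMap.smul_apply, hb,
      smul_eq_mul, RingHom.id_apply, mul_ite, mul_one, mul_zero,
      Finset.sum_ite_eq', Finset.mem_univ, if_true, hσdef]
    unfold Cfsg.hermForm
    rfl
  -- the unitary side
  have hGU : Nat.card (Cfsg.GU m K q)
      = Nat.card {T : ((Fin m ⊕ Fin m → F) →ₗ[K] (Fin m ⊕ Fin m → F))ˣ //
          ∀ u v, hS (T.1 u) (T.1 v) = hS u v} := by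
    refine Nat.card_congr (Equiv.subtypeEquiv
      (Units.mapEquiv (Matrix.toLinAlgEquiv b).toMulEquiv).toEquiv ?_)
    intro A
    have hA : ∀ u, b.equivFun ((Units.mapEquiv (Matrix.toLinAlgEquiv b).toMulEquiv A).1 u)
        = A.1 *ᵥ b.equivFun u := by
      intro u
      exact Matrix.repr_toLin b b A.1 u
    constructor
    · intro h u v
      rw [hrepr, hrepr]
      erw [hA, hA]
      exact h _ _
    · intro h u v
      have h1 := h (b.equivFun.symm v) (b.equivFun.symm u)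
      rw [hrepr, hrepr] at h1
      erw [hA, hA] at h1
      rw [LinearEquiv.apply_symm_apply, LinearEquiv.apply_symm_apply] at h1
      exact h1
  -- the symplectic side
  have hcomm : ∀ g : ↥(Subgroup.centralizer ({x} : Set ↥(Matrix.symplecticGroup (Fin m) F))),
      g.1.1 * x.1 = x.1 * g.1.1 := by
    intro g
    have := Subgroup.mem_centralizer_iff.mp g.2 x rfl
    exact (congrArg Subtype.val this).symm
  have hlin : ∀ (M : Matrix (Fin m ⊕ Fin m) (Fin m ⊕ Fin m) F), M * x.1 = x.1 * M →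
      ∀ (c : K) (v : Fin m ⊕ Fin m → F), M *ᵥ (c • v) = c • (M *ᵥ v) := by
    intro M hM c v
    obtain ⟨a, b', rfl⟩ := hspan c
    rw [hsm, hsm, Matrix.mulVec_add, Matrix.mulVec_smul, Matrix.mulVec_smul, Matrix.mulVec_mulVec,
      Matrix.mulVec_mulVec, hM]
  let τ : ↥(Subgroup.centralizer ({x} : Set ↥(Matrix.symplecticGroup (Fin m) F))) →*
      ((Fin m ⊕ Fin m → F) →ₗ[K] (Fin m ⊕ Fin m → F)) :=
    { toFun := fun g =>
        { toFun := fun v => g.1.1 *ᵥ v
          map_add' := fun u v => Matrix.mulVec_add _ u v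
          map_smul' := fun c v => hlin g.1.1 (hcomm g) c v }
      map_one' := by
        refine LinearMap.ext fun v => ?_
        exact Matrix.one_mulVec v
      map_mul' := fun g g' => by
        refine LinearMap.ext fun v => ?_
        exact (Matrix.mulVec_mulVec v g.1.1 g'.1.1).symm }
  have hτ : ∀ g v, τ g v = g.1.1 *ᵥ v := fun g v => rfl
  have hiso : ∀ g u v, hS (τ g u) (τ g v) = hS u v := by
    intro g u v
    rw [hSdef, hSdef, hτ, hτ]
    unfold hf
    have hg : (g.1.1).transpose * Matrix.J (Fin m) F * g.1.1 = Matrix.J (Fin m) F :=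
      SymplecticGroup.mem_iff'.mp g.1.2
    rw [Matrix.mulVec_mulVec, ← hcomm g, ← Matrix.mulVec_mulVec, Bf_mul _ hg, Bf_mul _ hg]
  have hC : Nat.card ↥(Subgroup.centralizer ({x} : Set ↥(Matrix.symplecticGroup (Fin m) F)))
      = Nat.card {T : ((Fin m ⊕ Fin m → F) →ₗ[K] (Fin m ⊕ Fin m → F))ˣ //
          ∀ u v, hS (T.1 u) (T.1 v) = hS u v} := by
    refine Nat.card_congr (Equiv.ofBijective
      (fun g => ⟨τ.toHomUnits g, fun u v => hiso g u v⟩) ⟨?_, ?_⟩)
    · intro g g' hgg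
      have h1 : ∀ v, g.1.1 *ᵥ v = g'.1.1 *ᵥ v := by
        intro v
        have := congrArg (fun T => (T.1.1 : (Fin m ⊕ Fin m → F) →ₗ[K] (Fin m ⊕ Fin m → F)) v) hgg
        exact this
      exact Subtype.ext (Subtype.ext (Matrix.mulVec_injective (funext h1)))
    · rintro ⟨T, hT⟩
      have hTF : ∀ (a : F) (v : Fin m ⊕ Fin m → F), T.1 (a • v) = a • T.1 v := by
        intro a v; rw [← hsm1, map_smul, hsm1]
      obtain ⟨M, hM⟩ : ∃ M : Matrix (Fin m ⊕ Fin m) (Fin m ⊕ Fin m) F,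
          ∀ v, M *ᵥ v = T.1 v := by
        refine ⟨LinearMap.toMatrix' ({ toFun := fun v => T.1 v
                                       map_add' := fun u v => map_add _ u v
                                       map_smul' := fun a v => hTF a v } :
          (Fin m ⊕ Fin m → F) →ₗ[F] (Fin m ⊕ Fin m → F)), fun v => ?_⟩
        rw [LinearMap.toMatrix'_mulVec]; rfl
      have hMX : M * x.1 = x.1 * M := by
        apply Matrix.mulVec_injective
        funext v
        rw [← Matrix.mulVec_mulVec, ← Matrix.mulVec_mulVec, hM, hM, ← hsmω, ← hsmω, map_smul]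
      have hMB : ∀ u v, Bf (M *ᵥ u) (M *ᵥ v) = Bf u v := by
        intro u v
        have h1 := hT u v
        rw [hSdef, hSdef] at h1
        unfold hf at h1
        have h2 := indep hF hq ω hω
          (Bf (T.1 u) (T.1 v) + Bf (T.1 u) (x.1 *ᵥ T.1 v) - (Bf u v + Bf u (x.1 *ᵥ v)))
          (Bf (T.1 u) (T.1 v) - Bf u v) (by simp only [map_sub]; linear_combination h1)
        rw [hM, hM]; exact sub_eq_zero.mp h2.2
      have hMsp : M ∈ Matrix.symplecticGroup (Fin m) F :=
        SymplecticGroup.mem_iff'.mpr (Bf_mul_conv M hMB)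
      refine ⟨⟨⟨M, hMsp⟩, ?_⟩, ?_⟩
      · rw [Subgroup.mem_centralizer_iff]
        intro y hy
        rw [Set.mem_singleton_iff] at hy
        subst hy
        exact Subtype.ext hMX.symm
      · apply Subtype.ext
        apply Units.ext
        refine LinearMap.ext fun v => ?_
        exact hM v
  rw [hC, ← hGU, Cfsg.Agent.S0277.result hKcard m]

end mainsec

section inst
open Polynomial

theorem fpol_natDegree {F : Type*} [Field F] : (X ^ 2 + X + 1 : F[X]).natDegree = 2 := by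
  compute_degree!

theorem fpol_monic {F : Type*} [Field F] : (X ^ 2 + X + 1 : F[X]).Monic := by
  monicity!

theorem fpol_irr {F : Type*} [Field F] [Fintype F] {q : ℕ} (hF : Fintype.card F = q)
    (hq : q % 3 = 2) : Irreducible (X ^ 2 + X + 1 : F[X]) := by
  apply Polynomial.irreducible_of_degree_le_three_of_not_isRoot
  · rw [fpol_natDegree]; decide
  · intro a ha
    rw [IsRoot.def] at ha
    simp only [eval_add, eval_pow, eval_X, eval_one] at ha
    exact no_root hF hq a ha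

theorem fpol_span {F : Type*} [Field F] (c : AdjoinRoot (X ^ 2 + X + 1 : F[X])) :
    ∃ a b : F, c = algebraMap F (AdjoinRoot (X ^ 2 + X + 1 : F[X])) a
      + algebraMap F (AdjoinRoot (X ^ 2 + X + 1 : F[X])) b
        * AdjoinRoot.root (X ^ 2 + X + 1 : F[X]) := by
  obtain ⟨p, rfl⟩ := AdjoinRoot.mk_surjective c
  have h1 : AdjoinRoot.mk (X ^ 2 + X + 1 : F[X]) p
      = AdjoinRoot.mk (X ^ 2 + X + 1 : F[X]) (p %ₘ (X ^ 2 + X + 1)) := by
    conv_lhs => rw [← Polynomial.modByMonic_add_div p (X ^ 2 + X + 1 : F[X])]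
    rw [map_add, map_mul, AdjoinRoot.mk_self, zero_mul, add_zero]
  have hne : (X ^ 2 + X + 1 : F[X]) ≠ 1 := by
    intro h
    have := congrArg natDegree h
    rw [fpol_natDegree, natDegree_one] at this
    omega
  have hdeg : (p %ₘ (X ^ 2 + X + 1 : F[X])).natDegree ≤ 1 := by
    have := Polynomial.natDegree_modByMonic_lt p (fpol_monic (F := F)) hne
    rw [fpol_natDegree] at this
    omega
  refine ⟨(p %ₘ (X ^ 2 + X + 1 : F[X])).coeff 0, (p %ₘ (X ^ 2 + X + 1 : F[X])).coeff 1, ?_⟩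
  rw [h1]
  conv_lhs => rw [Polynomial.eq_X_add_C_of_natDegree_le_one hdeg]
  rw [map_add, map_mul, AdjoinRoot.mk_C, AdjoinRoot.mk_C, AdjoinRoot.mk_X,
    AdjoinRoot.algebraMap_eq]
  exact add_comm _ _

/-- the action of `F[X]/(X^2+X+1)` through `X ↦ M` -/
noncomputable def rho {F : Type*} [Field F] {m : ℕ}
    (M : Matrix (Fin m ⊕ Fin m) (Fin m ⊕ Fin m) F) (hM : M * M + M + 1 = 0) :
    AdjoinRoot (X ^ 2 + X + 1 : F[X]) →+* Module.End F (Fin m ⊕ Fin m → F) :=
  Ideal.Quotient.lift (Ideal.span {(X ^ 2 + X + 1 : F[X])})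
    ((Polynomial.aeval (Matrix.toLinAlgEquiv' M)).toRingHom) (by
      intro p hp
      obtain ⟨d, rfl⟩ := Ideal.mem_span_singleton.mp hp
      have h0 : (Matrix.toLinAlgEquiv' M) ^ 2 + Matrix.toLinAlgEquiv' M + 1 = 0 := by
        rw [sq, ← map_mul, ← map_one (Matrix.toLinAlgEquiv' (R := F) (n := Fin m ⊕ Fin m)),
          ← map_add, ← map_add, hM, map_zero]
      simp only [AlgHom.toRingHom_eq_coe, RingHom.coe_coe, map_mul, map_add, map_pow, aeval_X,
        map_one, h0, zero_mul])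

theorem rho_mk {F : Type*} [Field F] {m : ℕ}
    (M : Matrix (Fin m ⊕ Fin m) (Fin m ⊕ Fin m) F) (hM : M * M + M + 1 = 0) (p : F[X]) :
    rho M hM (AdjoinRoot.mk (X ^ 2 + X + 1 : F[X]) p)
      = Polynomial.aeval (Matrix.toLinAlgEquiv' M) p := rfl

end inst

theorem num_conv (q m : ℕ) (hq : 1 ≤ q) :
    ((q ^ (m * (m - 1) / 2) * ∏ i ∈ Finset.range m,
        (if Even i then q ^ (i + 1) + 1 else q ^ (i + 1) - 1) : ℕ) : ℤ)
      = (q : ℤ) ^ (m * (m - 1) / 2)
        * ∏ i : Fin m, ((q : ℤ) ^ ((i : ℕ) + 1) - (-1) ^ ((i : ℕ) + 1)) := by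
  rw [Fin.prod_univ_eq_prod_range (fun i => (q : ℤ) ^ (i + 1) - (-1) ^ (i + 1)) m,
    Nat.cast_mul, Nat.cast_pow, Nat.cast_prod]
  congr 1
  apply Finset.prod_congr rfl
  intro i _
  by_cases he : Even i
  · rw [if_pos he, Odd.neg_one_pow (Even.add_one he)]; push_cast; ring
  · rw [if_neg he, Even.neg_one_pow (by rw [Nat.even_add_one]; exact he)]
    have : 1 ≤ q ^ (i + 1) := Nat.one_le_pow _ _ hq
    push_cast [Nat.cast_sub this]; ring

/-- Centraliser of a fixed-point-free element of order three in Sp_2m(q) when q ≡ 2 (mod 3): if x ∈ Sp_2m(F) (|F| = q, m ≥ 1) satisfies x³ = 1 and x − 1 is invertible, then its centraliser in Sp_2m(F) has the order of the unitary group GU_m(q), namely q^(m(m−1)/2) Π_(i=1)^m (q^i − (−1)^i) (x lies in the centre of a subgroup GU_m(q) of Sp_2m(q)). -/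
theorem result {F : Type*} [Field F] [Fintype F] {q : ℕ} (hF : Fintype.card F = q) (hq : q % 3 = 2) {m : ℕ} (hm : 1 ≤ m) (x : Matrix.symplecticGroup (Fin m) F) (hx3 : x ^ 3 = 1) (hfpf : IsUnit ((x : Matrix (Fin m ⊕ Fin m) (Fin m ⊕ Fin m) F) - 1)) : (Nat.card ↥(Subgroup.centralizer ({x} : Set ↥(Matrix.symplecticGroup (Fin m) F))) : ℤ) = (q : ℤ) ^ (m * (m - 1) / 2) * ∏ i : Fin m, ((q : ℤ) ^ ((i : ℕ) + 1) - (-1) ^ ((i : ℕ) + 1)) := by
  classical
  have hX3 : (x.1) ^ 3 = 1 := by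
    have := congrArg Subtype.val hx3
    simpa using this
  have hX : x.1 * x.1 + x.1 + 1 = 0 := by
    have h1 : (x.1 - 1) * (x.1 * x.1 + x.1 + 1) = 0 := by
      have : (x.1 - 1) * (x.1 * x.1 + x.1 + 1) = x.1 ^ 3 - 1 := by noncomm_ring
      rw [this, hX3, sub_self]
    exact (hfpf.mul_right_eq_zero).mp h1
  haveI : Fact (Irreducible (Polynomial.X ^ 2 + Polynomial.X + 1 : Polynomial F)) :=
    ⟨fpol_irr hF hq⟩
  letI : Module (AdjoinRoot (Polynomial.X ^ 2 + Polynomial.X + 1 : Polynomial F))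
      (Fin m ⊕ Fin m → F) := Module.compHom _ (rho x.1 hX)
  haveI : Finite (AdjoinRoot (Polynomial.X ^ 2 + Polynomial.X + 1 : Polynomial F)) :=
    Finite.of_surjective (fun p : F × F =>
      algebraMap F (AdjoinRoot (Polynomial.X ^ 2 + Polynomial.X + 1 : Polynomial F)) p.1
      + algebraMap F (AdjoinRoot (Polynomial.X ^ 2 + Polynomial.X + 1 : Polynomial F)) p.2
        * AdjoinRoot.root (Polynomial.X ^ 2 + Polynomial.X + 1 : Polynomial F))
      (fun c => by obtain ⟨a, b, h⟩ := fpol_span c; exact ⟨(a, b), h.symm⟩)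
  letI : Fintype (AdjoinRoot (Polynomial.X ^ 2 + Polynomial.X + 1 : Polynomial F)) :=
    Fintype.ofFinite _
  have hω : (AdjoinRoot.root (Polynomial.X ^ 2 + Polynomial.X + 1 : Polynomial F)) ^ 2
      + AdjoinRoot.root (Polynomial.X ^ 2 + Polynomial.X + 1 : Polynomial F) + 1 = 0 := by
    have := AdjoinRoot.eval₂_root (Polynomial.X ^ 2 + Polynomial.X + 1 : Polynomial F)
    simpa using this
  have hsm : ∀ (a b : F) (v : Fin m ⊕ Fin m → F),
      (algebraMap F (AdjoinRoot (Polynomial.X ^ 2 + Polynomial.X + 1 : Polynomial F)) a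
        + algebraMap F (AdjoinRoot (Polynomial.X ^ 2 + Polynomial.X + 1 : Polynomial F)) b
          * AdjoinRoot.root (Polynomial.X ^ 2 + Polynomial.X + 1 : Polynomial F)) • v
        = a • v + b • ((x : Matrix (Fin m ⊕ Fin m) (Fin m ⊕ Fin m) F).mulVec v) := by
    intro a b v
    show rho x.1 hX _ v = _
    rw [AdjoinRoot.algebraMap_eq, ← AdjoinRoot.mk_C, ← AdjoinRoot.mk_C, ← AdjoinRoot.mk_X,
      ← map_mul, ← map_add, rho_mk]
    simp [Matrix.toLinAlgEquiv'_apply]
  have hmain := main hF hq (AdjoinRoot.root (Polynomial.X ^ 2 + Polynomial.X + 1 : Polynomial F))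
    hω fpol_span x hX hsm
  rw [hmain]
  exact num_conv q m (by omega)

end Cfsg.Agent.S2637
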