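import Cfsg.Statements.S2642
import Cfsg.Agent.S2570
import Cfsg.Agent.S2587
import Cfsg.Agent.Lib.Helper15.LawUnitary
import Cfsg.Agent.Lib.Helper15.WallC
import Cfsg.Agent.Lib.Helper15.JordanE
import Cfsg.Agent.Lib.Helper15.JordanF
import Cfsg.Agent.Lib.Helper15.JordanD
open Cfsg.Agent.Lib.Helper15

set_option autoImplicit false
open Cfsg

namespace Cfsg.Agent.S2642

/-- Number of conjugacy classes of elements of order p in the general unitary group GU_n(q), q a power of p: every unipotent Jordan type occurs and the classes correspond to the partitions of n with all parts at most p other than the all-ones partition, exactly as in GL_n; so there are (number of partitions of n with parts ≤ p) − 1 classes. -/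
theorem result {K : Type*} [Field K] [Fintype K] {p q n : ℕ} [Fact p.Prime] [CharP K p] (hK : Fintype.card K = q ^ 2) : Nat.card {C : ConjClasses ↥(Cfsg.GU n K q) // ∃ g : ↥(Cfsg.GU n K q), ConjClasses.mk g = C ∧ orderOf g = p} = (Finset.univ.filter (fun μ : Nat.Partition n => ∀ a ∈ μ.parts, a ≤ p)).card - 1 := by
  classical
  rw [← Cfsg.Agent.S2570.result (F := K) (p := p) n]
  obtain ⟨φ, hφq, hφ2⟩ := exists_frob hK
  let f : {C : ConjClasses ↥(Cfsg.GU n K q) //
      ∃ g : ↥(Cfsg.GU n K q), ConjClasses.mk g = C ∧ orderOf g = p} →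
      {C : ConjClasses (GL (Fin n) K) // ∃ g : GL (Fin n) K, ConjClasses.mk g = C ∧ orderOf g = p} :=
    fun C => ⟨ConjClasses.map (Cfsg.GU n K q).subtype C.1, by
      obtain ⟨g, hg, hgo⟩ := C.2
      refine ⟨(g : GL (Fin n) K), ?_, ?_⟩
      · rw [← hg]
        rfl
      · rw [Subgroup.orderOf_coe]
        exact hgo⟩
  apply Nat.card_eq_of_bijective f
  constructor
  · rintro ⟨C, g, rfl, hg⟩ ⟨C', g', rfl, hg'⟩ h
    have h1 : ConjClasses.mk (g : GL (Fin n) K) = ConjClasses.mk (g' : GL (Fin n) K) :=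
      congrArg Subtype.val h
    rw [ConjClasses.mk_eq_mk_iff_isConj] at h1
    apply Subtype.ext
    show ConjClasses.mk g = ConjClasses.mk g'
    rw [ConjClasses.mk_eq_mk_iff_isConj]
    exact (Cfsg.Agent.S2587.result hK g g').mpr h1
  · rintro ⟨C, x, rfl, hx⟩
    obtain ⟨B, hB⟩ : ∃ B : ↥(Cfsg.GU n K q), IsConj x (B : GL (Fin n) K) := by
      obtain ⟨a, ha⟩ : ∃ a : Matrix (Fin n) (Fin n) K, a = (x : Matrix (Fin n) (Fin n) K) :=
        ⟨_, rfl⟩
      obtain ⟨ai, hai⟩ : ∃ ai : Matrix (Fin n) (Fin n) K,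
          ai = ((x⁻¹ : GL (Fin n) K) : Matrix (Fin n) (Fin n) K) := ⟨_, rfl⟩
      have h1 : a * ai = 1 := by
        rw [ha, hai]
        exact x.mul_inv
      have h2 : ai * a = 1 := by
        rw [ha, hai]
        exact x.inv_mul
      have hxp : x ^ (p ^ 1) = 1 := by
        rw [pow_one, ← hx]
        exact pow_orderOf_eq_one x
      have h3 : (a - 1) ^ (p ^ 1) = 0 := by
        rw [ha]
        exact (Jordan.NmGL_pow_eq_zero_iff x (p ^ 1)).mp ((Jordan.pow_eq_one_iff p x 1).mp hxp)
      have hurk0 : Jordan.urk a (p ^ 1) = 0 := Jordan.urk_of_pow_eq_zero a (p ^ 1) h3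
      have hurk : ∀ i, Jordan.urk a i = Jordan.urk (Wall.cstar φ ai) i := by
        intro i
        rw [← Jordan.urk_inv_transpose a ai h1 h2 i]
        unfold Jordan.urk
        have e1 : Wall.cstar φ ai - 1 = φ.mapMatrix (ai.transpose - 1) := by
          rw [map_sub, map_one]
          rfl
        rw [e1, ← map_pow, RingHom.mapMatrix_apply, Wall.rank_map_eq φ hφ2]
      obtain ⟨c, hc⟩ := Jordan.isConj_of_urk (p ^ 1) hurk0 hurk
      have hc' : (c : Matrix (Fin n) (Fin n) K) * a = Wall.cstar φ ai * (c : Matrix (Fin n) (Fin n) K) :=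
        hc
      have hcdet : (c : Matrix (Fin n) (Fin n) K).det ≠ 0 :=
        ((Matrix.isUnit_iff_isUnit_det _).mp c.isUnit).ne_zero
      apply Wall.exists_GU_conj hK φ hφq hφ2 x (c : Matrix (Fin n) (Fin n) K) hcdet
      rw [← ha]
      calc Wall.cstar φ a * (c : Matrix (Fin n) (Fin n) K) * a
          = Wall.cstar φ a * ((c : Matrix (Fin n) (Fin n) K) * a) := by rw [Matrix.mul_assoc]
        _ = (Wall.cstar φ a * Wall.cstar φ ai) * (c : Matrix (Fin n) (Fin n) K) := by
            rw [hc', Matrix.mul_assoc]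
        _ = (c : Matrix (Fin n) (Fin n) K) := by
            rw [← Wall.cstar_mul, h2, Wall.cstar_one, Matrix.one_mul]
    refine ⟨⟨ConjClasses.mk B, B, rfl, ?_⟩, ?_⟩
    · rw [← Subgroup.orderOf_coe, ← hx]
      obtain ⟨c, hc⟩ := isConj_iff.mp hB
      rw [← hc]
      exact (MulAut.conj c).orderOf_eq x
    · apply Subtype.ext
      show ConjClasses.mk (B : GL (Fin n) K) = ConjClasses.mk x
      rw [ConjClasses.mk_eq_mk_iff_isConj]
      exact hB.symm

end Cfsg.Agent.S2642
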