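import Cfsg.Statements.S2643
import Mathlib
import Cfsg.Agent.S0755
import Cfsg.Agent.S0751
import Cfsg.Agent.S0779
import Cfsg.Agent.S0837
import Cfsg.Agent.S0278
import Cfsg.Agent.S2591
import Cfsg.Agent.Lib.Helper3.UnitaryCount
import Cfsg.Agent.Lib.Helper16.CyclicNil2
import Cfsg.Agent.Lib.Helper16.TruncPoly3

set_option autoImplicit false
open Cfsg

namespace Cfsg.Agent.S2643



set_option linter.unusedSectionVars false
set_option linter.unusedVariables false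

open Matrix Cfsg.Agent.Lib.Helper16

section U

variable {K : Type*} [Field K] {n : ℕ}

/-- Conjugate transpose with respect to `φ`. -/
def hst (φ : K →+* K) (g : Matrix (Fin n) (Fin n) K) : Matrix (Fin n) (Fin n) K :=
  Matrix.of fun i j => φ (g j i)

theorem hst_apply (φ : K →+* K) (g : Matrix (Fin n) (Fin n) K) (i j : Fin n) :
    hst φ g i j = φ (g j i) := rfl

theorem hst_eq (φ : K →+* K) (g : Matrix (Fin n) (Fin n) K) : hst φ g = (g.map φ)ᵀ := rfl

theorem hst_add (φ : K →+* K) (a b : Matrix (Fin n) (Fin n) K) :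
    hst φ (a + b) = hst φ a + hst φ b := by
  ext i j
  simp [hst_apply]

theorem hst_sub (φ : K →+* K) (a b : Matrix (Fin n) (Fin n) K) :
    hst φ (a - b) = hst φ a - hst φ b := by
  ext i j
  simp [hst_apply]

theorem hst_neg (φ : K →+* K) (a : Matrix (Fin n) (Fin n) K) :
    hst φ (-a) = -hst φ a := by
  ext i j
  simp [hst_apply]

theorem hst_zero (φ : K →+* K) : hst φ (0 : Matrix (Fin n) (Fin n) K) = 0 := by
  ext i j
  simp [hst_apply]

theorem hst_one (φ : K →+* K) : hst φ (1 : Matrix (Fin n) (Fin n) K) = 1 := by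
  ext i j
  rw [hst_apply, Matrix.one_apply, Matrix.one_apply]
  by_cases h : i = j
  · rw [if_pos h, if_pos h.symm, map_one]
  · rw [if_neg h, if_neg (fun e => h e.symm), map_zero]

theorem hst_mul (φ : K →+* K) (a b : Matrix (Fin n) (Fin n) K) :
    hst φ (a * b) = hst φ b * hst φ a := by
  rw [hst_eq, hst_eq, hst_eq, Matrix.map_mul, Matrix.transpose_mul]

theorem hst_smul (φ : K →+* K) (c : K) (a : Matrix (Fin n) (Fin n) K) :
    hst φ (c • a) = φ c • hst φ a := by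
  ext i j
  simp [hst_apply]

theorem hst_hst (φ : K →+* K) (hφ2 : ∀ a, φ (φ a) = a) (a : Matrix (Fin n) (Fin n) K) :
    hst φ (hst φ a) = a := by
  ext i j
  simp [hst_apply, hφ2]

theorem hst_pow (φ : K →+* K) (a : Matrix (Fin n) (Fin n) K) (k : ℕ) :
    hst φ (a ^ k) = (hst φ a) ^ k := by
  induction k with
  | zero => rw [pow_zero, pow_zero, hst_one]
  | succ k ih => rw [pow_succ, hst_mul, ih, pow_succ']

theorem det_hst (φ : K →+* K) (a : Matrix (Fin n) (Fin n) K) : (hst φ a).det = φ a.det := by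
  rw [hst_eq, Matrix.det_transpose, RingHom.map_det]
  rfl

theorem hst_inj (φ : K →+* K) (hφ2 : ∀ a, φ (φ a) = a) (a : Matrix (Fin n) (Fin n) K)
    (h : hst φ a = 0) : a = 0 := by
  rw [← hst_hst φ hφ2 a, h, hst_zero]

theorem card_fin_n : Fintype.card (Fin n) = n := Fintype.card_fin n

/-- Data attached to a regular unipotent unitary matrix. -/
theorem ru_data (φ : K →+* K) (hn : 1 ≤ n) (U : Matrix (Fin n) (Fin n) K)
    (hU : hst φ U * U = 1) (hnil : (U - 1) ^ n = 0) (hrank : (U - 1).rank = n - 1) :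
    (U - 1) ^ (n - 1) ≠ 0 ∧ ∀ x : TP K n,
      hst φ (tpEval (U - 1) n hnil x) = tpEval (U - 1) n hnil (tpTau φ n x) := by
  constructor
  · have := pow_pred_ne_zero (U - 1) (by rw [card_fin_n]; omega) (by rw [card_fin_n]; exact hrank)
    rwa [card_fin_n] at this
  · have hV : hst φ U * (1 + (U - 1)) = 1 := by
      rw [add_sub_cancel]
      exact hU
    have hstN : hst φ (U - 1) = tpEval (U - 1) n hnil (tpX0 K n) := by
      rw [tpEval_X0 (U - 1) n hnil (hst φ U) hV, hst_sub, hst_one]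
    exact st_tpEval_tau φ (U - 1) n hnil (hst φ) (hst_add φ) (hst_mul φ) (hst_smul φ) (hst_one φ)
      hstN

theorem commute_sub_one (g U U' : Matrix (Fin n) (Fin n) K) :
    g * U = U' * g ↔ g * (U - 1) = (U' - 1) * g := by
  rw [Matrix.mul_sub, Matrix.sub_mul, Matrix.mul_one, Matrix.one_mul]
  constructor
  · intro h
    rw [h]
  · intro h
    exact sub_left_injective h

/-- Any two regular unipotent unitary matrices are conjugate under the unitary group. -/
theorem gu_conj [Fintype K] (φ : K →+* K) (hφ2 : ∀ a, φ (φ a) = a) (hφne : φ ≠ RingHom.id K)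
    (hn : 1 ≤ n) (U₀ U : Matrix (Fin n) (Fin n) K)
    (hU₀ : hst φ U₀ * U₀ = 1) (hnil₀ : (U₀ - 1) ^ n = 0) (hrank₀ : (U₀ - 1).rank = n - 1)
    (hU : hst φ U * U = 1) (hnil : (U - 1) ^ n = 0) (hrank : (U - 1).rank = n - 1) :
    ∃ g : Matrix (Fin n) (Fin n) K, hst φ g * g = 1 ∧ g * U₀ = U * g := by
  classical
  obtain ⟨hN1₀, hτ₀⟩ := ru_data φ hn U₀ hU₀ hnil₀ hrank₀
  obtain ⟨hN1, -⟩ := ru_data φ hn U hU hnil hrank
  have hcard := card_fin_n (n := n)
  obtain ⟨G, hGdet, hG⟩ := cyclic_conj (U₀ - 1) (U - 1) (by rw [hcard]; exact hnil₀)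
    (by rw [hcard]; exact hN1₀) (by rw [hcard]; exact hnil) (by rw [hcard]; exact hN1)
  have hGU : G * U₀ = U * G := (commute_sub_one G U₀ U).2 hG
  obtain ⟨Gi, hGi1, hGi2⟩ : ∃ Gi : Matrix (Fin n) (Fin n) K, G * Gi = 1 ∧ Gi * G = 1 :=
    ⟨G⁻¹, Matrix.mul_nonsing_inv G hGdet, Matrix.nonsing_inv_mul G hGdet⟩
  have hU₀' : U₀ * hst φ U₀ = 1 := mul_eq_one_comm.1 hU₀
  have e : hst φ G * U = U₀ * hst φ G := by
    have h1 := congrArg (hst φ) hGU
    rw [hst_mul, hst_mul] at h1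
    calc hst φ G * U = (U₀ * hst φ U₀) * hst φ G * U := by rw [hU₀', Matrix.one_mul]
      _ = U₀ * (hst φ U₀ * hst φ G) * U := by simp only [Matrix.mul_assoc]
      _ = U₀ * (hst φ G * hst φ U) * U := by rw [h1]
      _ = U₀ * hst φ G * (hst φ U * U) := by simp only [Matrix.mul_assoc]
      _ = U₀ * hst φ G := by rw [hU, Matrix.mul_one]
  have hy : (hst φ G * G) * U₀ = U₀ * (hst φ G * G) := by
    rw [Matrix.mul_assoc, hGU, ← Matrix.mul_assoc, e, Matrix.mul_assoc]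
  have hy' : (hst φ G * G) * (U₀ - 1) = (U₀ - 1) * (hst φ G * G) :=
    (commute_sub_one _ U₀ U₀).1 hy
  obtain ⟨x, hx⟩ := exists_tp_of_commute (U₀ - 1) n hcard hnil₀ hN1₀ _ hy'
  have hinj := tpEval_injective (U₀ - 1) n hnil₀ hN1₀
  have hn0 : n ≠ 0 := by omega
  have hτx : tpTau φ n x = x := by
    apply hinj
    rw [← hτ₀, hx, hst_mul, hst_hst φ hφ2]
  have hεx : tpEps n hn0 x ≠ 0 := by
    rw [← tpEval_isUnit_iff (U₀ - 1) n hn0 hnil₀ (by rw [hcard]; omega), hx]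
    have h1 : hst φ G * G * (Gi * hst φ Gi) = 1 := by
      calc hst φ G * G * (Gi * hst φ Gi) = hst φ G * (G * Gi) * hst φ Gi := by
            simp only [Matrix.mul_assoc]
        _ = hst φ (Gi * G) := by rw [hGi1, Matrix.mul_one, hst_mul]
        _ = 1 := by rw [hGi2, hst_one]
    exact IsUnit.of_mul_eq_one _ h1
  obtain ⟨ω, hω⟩ := Cfsg.Agent.S0751.trace_surj φ hφne hφ2 1 (map_one φ)
  obtain ⟨c', hc'u, hc'⟩ := tau_norm_surj φ hφ2 ω hω
    (fun c hc hc0 => Cfsg.Agent.S0755.norm_surj φ hφne hφ2 c hc hc0) n hn0 x hτx hεx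
  obtain ⟨cu, rfl⟩ := hc'u
  obtain ⟨c, hcdef⟩ : ∃ c : Matrix (Fin n) (Fin n) K, c = tpEval (U₀ - 1) n hnil₀ (cu : TP K n) :=
    ⟨_, rfl⟩
  obtain ⟨ci, hcidef⟩ : ∃ ci : Matrix (Fin n) (Fin n) K,
      ci = tpEval (U₀ - 1) n hnil₀ ((cu⁻¹ : (TP K n)ˣ) : TP K n) := ⟨_, rfl⟩
  have hc1 : c * ci = 1 := by rw [hcdef, hcidef, ← map_mul, Units.mul_inv, map_one]
  have hcc : hst φ c * c = hst φ G * G := by
    rw [hcdef, hτ₀, ← map_mul, hc', hx]
  have hciU : ci * U₀ = U₀ * ci := by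
    rw [commute_sub_one, hcidef]
    exact tpEval_commute (U₀ - 1) n hnil₀ _
  refine ⟨G * ci, ?_, ?_⟩
  · calc hst φ (G * ci) * (G * ci) = hst φ ci * (hst φ G * G) * ci := by
          rw [hst_mul]
          simp only [Matrix.mul_assoc]
      _ = hst φ ci * hst φ c * (c * ci) := by
          rw [← hcc]
          simp only [Matrix.mul_assoc]
      _ = 1 := by rw [← hst_mul, hc1, hst_one, Matrix.one_mul]
  · rw [Matrix.mul_assoc, hciU, ← Matrix.mul_assoc, hGU, Matrix.mul_assoc]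

/-- Determinants of unitary matrices centralising a regular unipotent. -/
theorem cent_det (φ : K →+* K) {q : ℕ} (hφq : ∀ a, φ a = a ^ q) (hn : 1 ≤ n)
    (U₀ : Matrix (Fin n) (Fin n) K)
    (hU₀ : hst φ U₀ * U₀ = 1) (hnil₀ : (U₀ - 1) ^ n = 0) (hrank₀ : (U₀ - 1).rank = n - 1)
    (g : Matrix (Fin n) (Fin n) K) (hg : hst φ g * g = 1) (hgU : g * U₀ = U₀ * g) :
    ∃ a : K, a ^ (q + 1) = 1 ∧ g.det = a ^ n := by
  classical
  obtain ⟨hN1₀, hτ₀⟩ := ru_data φ hn U₀ hU₀ hnil₀ hrank₀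
  have hcard := card_fin_n (n := n)
  have hn0 : n ≠ 0 := by omega
  obtain ⟨x, hx⟩ := exists_tp_of_commute (U₀ - 1) n hcard hnil₀ hN1₀ g
    ((commute_sub_one g U₀ U₀).1 hgU)
  have hinj := tpEval_injective (U₀ - 1) n hnil₀ hN1₀
  have h1 : tpTau φ n x * x = 1 := by
    apply hinj
    rw [map_mul, ← hτ₀, hx, hg, map_one]
  have h2 := congrArg (tpEps n hn0) h1
  rw [map_mul, tpEps_tau, hφq, map_one] at h2
  refine ⟨tpEps n hn0 x, ?_, ?_⟩
  · rw [pow_succ', mul_comm]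
    exact h2
  · rw [← hx, det_tpEval (U₀ - 1) n hn0 hnil₀, hcard]

theorem shift_pow_fK (k : ℕ) :
    (Cfsg.Agent.S2591.shiftA K n ^ k) *ᵥ Cfsg.Agent.S2591.fK K n 0
      = Cfsg.Agent.S2591.fK K n k := by
  induction k with
  | zero => rw [pow_zero, Matrix.one_mulVec]
  | succ k ih => rw [pow_succ', ← Matrix.mulVec_mulVec, ih, Cfsg.Agent.S2591.shiftA_mulVec]

theorem shift_pow_ne (hn : 1 ≤ n) : Cfsg.Agent.S2591.shiftA K n ^ (n - 1) ≠ 0 := by
  intro h
  have h1 := shift_pow_fK (K := K) (n := n) (n - 1)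
  rw [h, Matrix.zero_mulVec] at h1
  have h3 := congrFun h1 ⟨n - 1, by omega⟩
  unfold Cfsg.Agent.S2591.fK at h3
  simp only [Pi.zero_apply] at h3
  rw [if_pos trivial] at h3
  exact zero_ne_one h3

theorem shift_pow_zero : Cfsg.Agent.S2591.shiftA K n ^ n = 0 := by
  have key : ∀ b : Fin n, (Cfsg.Agent.S2591.shiftA K n ^ n) *ᵥ Pi.single b 1 = 0 := by
    intro b
    have h1 : (Pi.single b 1 : Fin n → K) = Cfsg.Agent.S2591.fK K n b.val := by
      funext i
      unfold Cfsg.Agent.S2591.fK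
      simp only [Pi.single_apply, Fin.ext_iff]
    rw [h1, ← shift_pow_fK, Matrix.mulVec_mulVec, ← pow_add, shift_pow_fK]
    funext i
    unfold Cfsg.Agent.S2591.fK
    have := i.2
    simp only [Pi.zero_apply]
    rw [if_neg (by omega)]
  ext a b
  have := congrFun (key b) a
  rw [Matrix.mulVec_single_one] at this
  exact this

theorem conj_pow_gen (h hi a : Matrix (Fin n) (Fin n) K) (hh1 : h * hi = 1)
    (hh2 : hi * h = 1) (k : ℕ) : (h * a * hi) ^ k = h * a ^ k * hi := by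
  induction k with
  | zero => rw [pow_zero, pow_zero, Matrix.mul_one, hh1]
  | succ k ih =>
    rw [pow_succ, ih, pow_succ]
    calc h * a ^ k * hi * (h * a * hi) = h * a ^ k * (hi * h) * a * hi := by
          simp only [Matrix.mul_assoc]
      _ = h * (a ^ k * a) * hi := by
          rw [hh2, Matrix.mul_one]
          simp only [Matrix.mul_assoc]

/-- A regular unipotent element of the unitary group of the standard form exists. -/
theorem exists_ru [Fintype K] (φ : K →+* K) (hφ2 : ∀ a, φ (φ a) = a) (hφne : φ ≠ RingHom.id K)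
    (hn : 1 ≤ n) :
    ∃ U : Matrix (Fin n) (Fin n) K,
      hst φ U * U = 1 ∧ (U - 1) ^ n = 0 ∧ (U - 1).rank = n - 1 := by
  classical
  have hcard := card_fin_n (n := n)
  have hn0 : n ≠ 0 := by omega
  obtain ⟨N₀, hN₀def⟩ : ∃ N₀ : Matrix (Fin n) (Fin n) K, N₀ = Cfsg.Agent.S2591.shiftA K n :=
    ⟨_, rfl⟩
  have hN0 : N₀ ^ n = 0 := by rw [hN₀def]; exact shift_pow_zero
  have hN1 : N₀ ^ (n - 1) ≠ 0 := by rw [hN₀def]; exact shift_pow_ne hn
  have hnilN : IsNilpotent N₀ := ⟨n, hN0⟩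
  obtain ⟨uu, huu⟩ := hnilN.isUnit_one_add
  obtain ⟨u₀, hu₀def⟩ : ∃ u₀ : Matrix (Fin n) (Fin n) K, u₀ = 1 + N₀ := ⟨_, rfl⟩
  obtain ⟨w, hwdef⟩ : ∃ w : Matrix (Fin n) (Fin n) K, w = ↑uu⁻¹ := ⟨_, rfl⟩
  have hw1 : u₀ * w = 1 := by rw [hwdef, hu₀def, ← huu]; exact uu.mul_inv
  have hw2 : w * u₀ = 1 := by rw [hwdef, hu₀def, ← huu]; exact uu.inv_mul
  have hw3 : w - 1 = -(w * N₀) := by
    have h1 : w * (1 + N₀) = 1 := by rw [← hu₀def]; exact hw2
    rw [Matrix.mul_add, Matrix.mul_one] at h1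
    rw [← h1]
    abel
  have hwN : Commute w N₀ := by
    have h1 : w * u₀ = u₀ * w := by rw [hw1, hw2]
    rw [hu₀def, Matrix.mul_add, Matrix.add_mul, Matrix.mul_one, Matrix.one_mul] at h1
    exact add_left_cancel h1
  have hwp0 : (w - 1) ^ n = 0 := by
    rw [hw3, neg_pow, hwN.mul_pow, hN0, Matrix.mul_zero, Matrix.mul_zero]
  have hwp1 : (w - 1) ^ (n - 1) ≠ 0 := by
    intro h0
    rw [hw3, neg_pow, hwN.mul_pow] at h0
    apply hN1
    have hsq : ((-1 : Matrix (Fin n) (Fin n) K) ^ (n - 1)) * ((-1) ^ (n - 1)) = 1 := by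
      rw [← (Commute.refl (-1 : Matrix (Fin n) (Fin n) K)).mul_pow, neg_mul_neg, one_mul, one_pow]
    have h2 : w ^ (n - 1) * N₀ ^ (n - 1) = 0 := by
      calc w ^ (n - 1) * N₀ ^ (n - 1)
          = ((-1) ^ (n - 1) * (-1) ^ (n - 1)) * (w ^ (n - 1) * N₀ ^ (n - 1)) := by
            rw [hsq, Matrix.one_mul]
        _ = (-1) ^ (n - 1) * ((-1) ^ (n - 1) * (w ^ (n - 1) * N₀ ^ (n - 1))) := by
            rw [Matrix.mul_assoc]
        _ = 0 := by rw [h0, Matrix.mul_zero]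
    have hcomm : Commute u₀ w := hw1.trans hw2.symm
    calc N₀ ^ (n - 1) = (u₀ * w) ^ (n - 1) * N₀ ^ (n - 1) := by
          rw [hw1, one_pow, Matrix.one_mul]
      _ = u₀ ^ (n - 1) * (w ^ (n - 1) * N₀ ^ (n - 1)) := by rw [hcomm.mul_pow, Matrix.mul_assoc]
      _ = 0 := by rw [h2, Matrix.mul_zero]
  have hN'0 : (hst φ (w - 1)) ^ n = 0 := by rw [← hst_pow, hwp0, hst_zero]
  have hN'1 : (hst φ (w - 1)) ^ (n - 1) ≠ 0 := by
    intro h
    apply hwp1
    apply hst_inj φ hφ2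
    rw [hst_pow]
    exact h
  obtain ⟨G₁, hG₁det, hG₁⟩ := cyclic_conj N₀ (hst φ (w - 1)) (by rw [hcard]; exact hN0)
    (by rw [hcard]; exact hN1) (by rw [hcard]; exact hN'0) (by rw [hcard]; exact hN'1)
  have hG₁u : G₁ * u₀ = hst φ w * G₁ := by
    rw [hu₀def, Matrix.mul_add, Matrix.mul_one, hG₁, hst_sub, hst_one, Matrix.sub_mul,
      Matrix.one_mul]
    abel
  have hstw : hst φ u₀ * hst φ w = 1 := by rw [← hst_mul, hw2, hst_one]
  have hstw' : hst φ w * hst φ u₀ = 1 := by rw [← hst_mul, hw1, hst_one]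
  obtain ⟨G₁i, hG₁i1, hG₁i2⟩ : ∃ G₁i : Matrix (Fin n) (Fin n) K, G₁ * G₁i = 1 ∧ G₁i * G₁ = 1 :=
    ⟨G₁⁻¹, Matrix.mul_nonsing_inv G₁ hG₁det, Matrix.nonsing_inv_mul G₁ hG₁det⟩
  have hW1 : hst φ u₀ * G₁ * u₀ = G₁ := by
    rw [Matrix.mul_assoc, hG₁u, ← Matrix.mul_assoc, hstw, Matrix.one_mul]
  have hW2 : hst φ u₀ * hst φ G₁ * u₀ = hst φ G₁ := by
    have := congrArg (hst φ) hW1
    rw [hst_mul, hst_mul, hst_hst φ hφ2, ← Matrix.mul_assoc] at this
    exact this
  have hzu : (G₁i * hst φ G₁) * u₀ = u₀ * (G₁i * hst φ G₁) := by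
    have e1 : hst φ G₁ * u₀ = hst φ w * hst φ G₁ := by
      calc hst φ G₁ * u₀ = (hst φ w * hst φ u₀) * hst φ G₁ * u₀ := by
            rw [hstw', Matrix.one_mul]
        _ = hst φ w * (hst φ u₀ * hst φ G₁ * u₀) := by simp only [Matrix.mul_assoc]
        _ = hst φ w * hst φ G₁ := by rw [hW2]
    have e2 : G₁i * hst φ w = u₀ * G₁i := by
      calc G₁i * hst φ w = G₁i * hst φ w * (G₁ * G₁i) := by rw [hG₁i1, Matrix.mul_one]
        _ = G₁i * (hst φ w * G₁) * G₁i := by simp only [Matrix.mul_assoc]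
        _ = G₁i * (G₁ * u₀) * G₁i := by rw [hG₁u]
        _ = (G₁i * G₁) * u₀ * G₁i := by simp only [Matrix.mul_assoc]
        _ = u₀ * G₁i := by rw [hG₁i2, Matrix.one_mul]
    calc G₁i * hst φ G₁ * u₀ = G₁i * (hst φ G₁ * u₀) := by rw [Matrix.mul_assoc]
      _ = (G₁i * hst φ w) * hst φ G₁ := by rw [e1, Matrix.mul_assoc]
      _ = u₀ * (G₁i * hst φ G₁) := by rw [e2, Matrix.mul_assoc]
  have hu₀N : u₀ - 1 = N₀ := by rw [hu₀def, add_sub_cancel_left]
  have hzN : (G₁i * hst φ G₁) * N₀ = N₀ * (G₁i * hst φ G₁) := by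
    have := (commute_sub_one _ u₀ u₀).1 hzu
    rwa [hu₀N] at this
  obtain ⟨x₁, hx₁⟩ := exists_tp_of_commute N₀ n hcard hN0 hN1 _ hzN
  obtain ⟨e, hedef⟩ : ∃ e : K, e = tpEps n hn0 x₁ := ⟨_, rfl⟩
  obtain ⟨ξ, hξ⟩ : ∃ ξ : K, ξ + φ ξ * e ≠ 0 := by
    by_cases he : 1 + e = 0
    · have hex : ∃ ξ, φ ξ ≠ ξ := by
        by_contra hcon
        push Not at hcon
        apply hφne
        ext a
        exact hcon a
      obtain ⟨ξ, hξ⟩ := hex
      refine ⟨ξ, ?_⟩
      have he' : e = -1 := by linear_combination he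
      rw [he', mul_neg, mul_one]
      intro h0
      apply hξ
      linear_combination -h0
    · exact ⟨1, by rw [map_one, one_mul]; exact he⟩
  obtain ⟨M, hMdef⟩ : ∃ M : Matrix (Fin n) (Fin n) K, M = ξ • G₁ + φ ξ • hst φ G₁ := ⟨_, rfl⟩
  have hM1 : hst φ M = M := by
    rw [hMdef, hst_add, hst_smul, hst_smul, hst_hst φ hφ2, hφ2, add_comm]
  have hM2 : hst φ u₀ * M * u₀ = M := by
    rw [hMdef, Matrix.mul_add, Matrix.add_mul, Matrix.mul_smul, Matrix.smul_mul, Matrix.mul_smul,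
      Matrix.smul_mul, hW1, hW2]
  have hM3 : M = G₁ * tpEval N₀ n hN0
      (AdjoinRoot.of _ ξ + AdjoinRoot.of _ (φ ξ) * x₁) := by
    rw [map_add, map_mul, tpEval_of, tpEval_of, hx₁, Matrix.mul_add, Matrix.mul_smul,
      Matrix.mul_one, Matrix.smul_mul, Matrix.one_mul, Matrix.mul_smul, ← Matrix.mul_assoc, hG₁i1,
      Matrix.one_mul, hMdef]
  have hMdet : IsUnit M.det := by
    rw [hM3, Matrix.det_mul]
    apply hG₁det.mul
    rw [← Matrix.isUnit_iff_isUnit_det,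
      tpEval_isUnit_iff N₀ n hn0 hN0 (by rw [hcard]; omega), map_add, map_mul, tpEps_of, tpEps_of,
      ← hedef]
    exact hξ
  obtain ⟨B, hB⟩ : ∃ B : (Fin n → K) →ₛₗ[φ] (Fin n → K) →ₗ[K] K,
      ∀ x y, B x y = ∑ i, φ (x i) * (M *ᵥ y) i :=
    ⟨LinearMap.mk₂'ₛₗ φ (RingHom.id K) (fun x y => ∑ i, φ (x i) * (M *ᵥ y) i)
      (by intro a b c; simp [add_mul, Finset.sum_add_distrib])
      (by intro a b c; simp [Finset.mul_sum, mul_assoc])
      (by intro a b c; simp [Matrix.mulVec_add, mul_add, Finset.sum_add_distrib])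
      (by
        intro a b c
        simp only [Matrix.mulVec_smul, Pi.smul_apply, smul_eq_mul, RingHom.id_apply,
          Finset.mul_sum]
        apply Finset.sum_congr rfl
        intro i _
        ring), fun x y => rfl⟩
  have hMent : ∀ i j, M j i = φ (M i j) := by
    intro i j
    have := congrFun (congrFun hM1 j) i
    rw [hst_apply] at this
    exact this.symm
  have hS : B.IsSymm := by
    refine ⟨fun x y => ?_⟩
    rw [hB, hB]
    simp only [Matrix.mulVec, dotProduct, map_sum, map_mul, hφ2, Finset.mul_sum]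
    rw [Finset.sum_comm]
    apply Finset.sum_congr rfl
    intro j _
    apply Finset.sum_congr rfl
    intro i _
    rw [hMent i j]
    ring
  have hright : ∀ y : Fin n → K, (∀ x, B x y = 0) → y = 0 := by
    intro y hy
    apply Matrix.eq_zero_of_mulVec_eq_zero hMdet.ne_zero
    funext i
    have h1 := hy (Pi.single i 1)
    rw [hB] at h1
    rw [Finset.sum_eq_single i] at h1
    · rw [Pi.single_eq_same, map_one, one_mul] at h1
      exact h1
    · intro j _ hji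
      rw [Pi.single_eq_of_ne hji, map_zero, zero_mul]
    · intro h
      exact absurd (Finset.mem_univ i) h
  have hnd : B.Nondegenerate := by
    refine ⟨fun x hx => hright x (fun y => ?_), hright⟩
    rw [← hS.eq, hx y, map_zero]
  obtain ⟨b, hb⟩ := Cfsg.Agent.S0755.aux φ hφne hφ2 n (Fin n → K) B hS hnd
    (Module.finrank_fin_fun K)
  obtain ⟨P, hPdef⟩ : ∃ P : Matrix (Fin n) (Fin n) K, P = Matrix.of (fun k i => b i k) :=
    ⟨_, rfl⟩
  have hP : hst φ P * M * P = 1 := by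
    ext i j
    calc (hst φ P * M * P) i j = ∑ k, (∑ l, φ (b i l) * M l k) * b j k := by
          rw [Matrix.mul_apply]
          apply Finset.sum_congr rfl
          intro k _
          rw [Matrix.mul_apply, hPdef]
          rfl
      _ = ∑ l, φ (b i l) * ∑ k, M l k * b j k := by
          simp only [Finset.sum_mul, Finset.mul_sum]
          rw [Finset.sum_comm]
          apply Finset.sum_congr rfl
          intro l _
          apply Finset.sum_congr rfl
          intro k _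
          rw [mul_assoc]
      _ = B (b i) (b j) := by
          rw [hB]
          rfl
      _ = (1 : Matrix (Fin n) (Fin n) K) i j := by rw [hb, Matrix.one_apply]
  obtain ⟨Pi, hPidef⟩ : ∃ Pi : Matrix (Fin n) (Fin n) K, Pi = hst φ P * M := ⟨_, rfl⟩
  have hPi1 : Pi * P = 1 := by rw [hPidef]; exact hP
  have hPi2 : P * Pi = 1 := mul_eq_one_comm.1 hPi1
  have hPi3 : hst φ Pi * Pi = M := by
    have h1 : hst φ Pi = M * P := by rw [hPidef, hst_mul, hst_hst φ hφ2, hM1]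
    rw [h1, Matrix.mul_assoc, hPi2, Matrix.mul_one]
  have hUN : Pi * u₀ * P - 1 = Pi * N₀ * P := by
    rw [hu₀def, Matrix.mul_add, Matrix.mul_one, Matrix.add_mul, hPi1, add_sub_cancel_left]
  refine ⟨Pi * u₀ * P, ?_, ?_, ?_⟩
  · calc hst φ (Pi * u₀ * P) * (Pi * u₀ * P)
        = hst φ P * (hst φ u₀ * (hst φ Pi * Pi) * u₀) * P := by
          rw [hst_mul, hst_mul]
          simp only [Matrix.mul_assoc]
      _ = hst φ P * M * P := by rw [hPi3, hM2]
      _ = 1 := hP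
  · rw [hUN, conj_pow_gen Pi P N₀ hPi1 hPi2, hN0, Matrix.mul_zero, Matrix.zero_mul]
  · rw [hUN]
    have hPdet : IsUnit P.det :=
      IsUnit.of_mul_eq_one (det Pi) (by rw [← Matrix.det_mul, hPi2, Matrix.det_one])
    have hPidet : IsUnit Pi.det :=
      IsUnit.of_mul_eq_one (det P) (by rw [← Matrix.det_mul, hPi1, Matrix.det_one])
    rw [Matrix.rank_mul_eq_left_of_isUnit_det _ _ hPdet,
      Matrix.rank_mul_eq_right_of_isUnit_det _ _ hPidet]
    have := rank_of_cyclic N₀ (by rw [hcard]; omega) (by rw [hcard]; exact hN0)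
      (by rw [hcard]; exact hN1)
    rw [hcard] at this
    exact this

end U

section SUlevel

variable {K : Type*} [Field K] {n q : ℕ}

/-- The matrix of an element of the special unitary group. -/
def suM (u : ↥(Cfsg.SU n K q)) : Matrix (Fin n) (Fin n) K :=
  ((u : Matrix.SpecialLinearGroup (Fin n) K) : Matrix (Fin n) (Fin n) K)

theorem suM_eq (u : ↥(Cfsg.SU n K q)) :
    ((u : GL (Fin n) K) : Matrix (Fin n) (Fin n) K) = suM u := rfl

theorem suM_mul (a b : ↥(Cfsg.SU n K q)) : suM (a * b) = suM a * suM b := rfl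

theorem suM_det (u : ↥(Cfsg.SU n K q)) : (suM u).det = 1 := u.1.2

theorem su_mem_iff (φ : K →+* K) (hφq : ∀ a, φ a = a ^ q)
    (u : Matrix.SpecialLinearGroup (Fin n) K) :
    u ∈ Cfsg.SU n K q ↔
      hst φ (u : Matrix (Fin n) (Fin n) K) * (u : Matrix (Fin n) (Fin n) K) = 1 := by
  have h1 : u ∈ Cfsg.SU n K q ↔ ∀ x y, Cfsg.Agent.S0837.hf φ
      ((u : Matrix (Fin n) (Fin n) K) *ᵥ x) ((u : Matrix (Fin n) (Fin n) K) *ᵥ y)
        = Cfsg.Agent.S0837.hf φ x y := by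
    constructor
    · intro h x y
      rw [← Cfsg.Agent.S0837.herm_eq φ hφq, ← Cfsg.Agent.S0837.herm_eq φ hφq]
      exact h x y
    · intro h x y
      change Cfsg.hermForm n K q ((u : Matrix (Fin n) (Fin n) K) *ᵥ x)
        ((u : Matrix (Fin n) (Fin n) K) *ᵥ y) = _
      rw [Cfsg.Agent.S0837.herm_eq φ hφq, Cfsg.Agent.S0837.herm_eq φ hφq]
      exact h x y
  rw [h1, Cfsg.Agent.S0837.pres_iff, hst_eq]
  constructor
  · intro h
    have := congrArg Matrix.transpose h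
    rw [Matrix.transpose_mul, Matrix.transpose_transpose, Matrix.transpose_one] at this
    exact this
  · intro h
    have := congrArg Matrix.transpose h
    rw [Matrix.transpose_mul, Matrix.transpose_transpose, Matrix.transpose_one] at this
    exact this

theorem suM_unitary (φ : K →+* K) (hφq : ∀ a, φ a = a ^ q) (u : ↥(Cfsg.SU n K q)) :
    hst φ (suM u) * suM u = 1 :=
  (su_mem_iff φ hφq u.1).1 u.2

theorem exists_su (φ : K →+* K) (hφq : ∀ a, φ a = a ^ q) (U : Matrix (Fin n) (Fin n) K)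
    (hdet : U.det = 1) (hU : hst φ U * U = 1) : ∃ u : ↥(Cfsg.SU n K q), suM u = U :=
  ⟨⟨⟨U, hdet⟩, (su_mem_iff φ hφq ⟨U, hdet⟩).2 hU⟩, rfl⟩

theorem su_conj (φ : K →+* K) (hφq : ∀ a, φ a = a ^ q) (a b : ↥(Cfsg.SU n K q))
    (g : Matrix (Fin n) (Fin n) K) (hdet : g.det = 1) (hg : hst φ g * g = 1)
    (hgab : g * suM a = suM b * g) : ConjClasses.mk a = ConjClasses.mk b := by
  obtain ⟨c, hc⟩ := exists_su (q := q) φ hφq g hdet hg
  rw [ConjClasses.mk_eq_mk_iff_isConj, isConj_iff]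
  refine ⟨c, ?_⟩
  rw [mul_inv_eq_iff_eq_mul]
  apply Subtype.ext
  apply Subtype.ext
  show suM (c * a) = suM (b * c)
  rw [suM_mul, suM_mul, hc]
  exact hgab

/-- Diagonal matrix with a single non-unit entry. -/
def dg (b : K) : Matrix (Fin n) (Fin n) K :=
  Matrix.diagonal (fun i : Fin n => if i.val = 0 then b else 1)

theorem dg_mul (a b : K) : dg (n := n) a * dg b = dg (a * b) := by
  unfold dg
  rw [Matrix.diagonal_mul_diagonal]
  congr 1
  funext i
  split_ifs <;> simp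

theorem dg_one : dg (n := n) (1 : K) = 1 := by
  unfold dg
  rw [← Matrix.diagonal_one]
  congr 1
  funext i
  split_ifs <;> rfl

theorem hst_dg (φ : K →+* K) (b : K) : hst φ (dg (n := n) b) = dg (φ b) := by
  ext i j
  rw [hst_apply]
  unfold dg
  rw [Matrix.diagonal_apply, Matrix.diagonal_apply]
  by_cases h : i = j
  · subst h
    rw [if_pos rfl, if_pos rfl]
    split_ifs <;> simp
  · rw [if_neg h, if_neg (fun e => h e.symm), map_zero]

theorem det_dg (hn : 1 ≤ n) (b : K) : (dg (n := n) b).det = b := by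
  unfold dg
  rw [Matrix.det_diagonal]
  rw [Finset.prod_eq_single (⟨0, by omega⟩ : Fin n)]
  · rw [if_pos rfl]
  · intro j _ hj
    rw [if_neg]
    intro h
    apply hj
    ext
    exact h
  · intro h
    exact absurd (Finset.mem_univ _) h

theorem ru_conj (φ : K →+* K) (hφ2 : ∀ a, φ (φ a) = a) (g gi U₁ : Matrix (Fin n) (Fin n) K)
    (hgi1 : g * gi = 1) (hgi2 : gi * g = 1) (hg : hst φ g = gi)
    (hU₁ : hst φ U₁ * U₁ = 1) (hnil₁ : (U₁ - 1) ^ n = 0) (hrank₁ : (U₁ - 1).rank = n - 1) :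
    hst φ (g * U₁ * gi) * (g * U₁ * gi) = 1 ∧ (g * U₁ * gi - 1) ^ n = 0 ∧
      (g * U₁ * gi - 1).rank = n - 1 ∧ (g * U₁ * gi).det = U₁.det := by
  have hgi : hst φ gi = g := by rw [← hg, hst_hst φ hφ2]
  have hUN : g * U₁ * gi - 1 = g * (U₁ - 1) * gi := by
    rw [Matrix.mul_sub, Matrix.mul_one, Matrix.sub_mul, hgi1]
  refine ⟨?_, ?_, ?_, ?_⟩
  · rw [hst_mul, hst_mul, hgi, hg]
    calc g * (hst φ U₁ * gi) * (g * U₁ * gi) = g * (hst φ U₁ * (gi * g) * U₁) * gi := by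
          simp only [Matrix.mul_assoc]
      _ = 1 := by rw [hgi2, Matrix.mul_one, hU₁, Matrix.mul_one, hgi1]
  · rw [hUN, conj_pow_gen g gi _ hgi1 hgi2, hnil₁, Matrix.mul_zero, Matrix.zero_mul]
  · rw [hUN]
    have hgdet : IsUnit g.det :=
      IsUnit.of_mul_eq_one (det gi) (by rw [← Matrix.det_mul, hgi1, Matrix.det_one])
    have hgidet : IsUnit gi.det :=
      IsUnit.of_mul_eq_one (det g) (by rw [← Matrix.det_mul, hgi2, Matrix.det_one])
    rw [Matrix.rank_mul_eq_left_of_isUnit_det _ _ hgidet,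
      Matrix.rank_mul_eq_right_of_isUnit_det _ _ hgdet]
    exact hrank₁
  · rw [Matrix.det_mul, Matrix.det_mul, mul_right_comm, ← Matrix.det_mul, hgi1, Matrix.det_one,
      one_mul]

theorem n1_of_pow (φ : K →+* K) (hφq : ∀ a, φ a = a ^ q) (d : K) :
    d ^ (q + 1) = 1 ↔ φ d * d = 1 := by
  rw [hφq, pow_succ]

theorem n1_ne (φ : K →+* K) (d : K) (h : φ d * d = 1) : d ≠ 0 := by
  rintro rfl
  rw [mul_zero] at h
  exact zero_ne_one h

theorem n1_phi (φ : K →+* K) (d : K) (h : φ d * d = 1) : φ d = d⁻¹ :=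
  eq_inv_of_mul_eq_one_left h

theorem n1_inv (φ : K →+* K) (d : K) (h : φ d * d = 1) : φ d⁻¹ * d⁻¹ = 1 := by
  rw [map_inv₀, ← mul_inv, h, inv_one]

theorem n1_mul (φ : K →+* K) (d e : K) (h : φ d * d = 1) (h' : φ e * e = 1) :
    φ (d * e) * (d * e) = 1 := by
  rw [map_mul, mul_mul_mul_comm, h, h', one_mul]

theorem main [Fintype K] (hK : Fintype.card K = q ^ 2) (hn : 2 ≤ n) :
    Nat.card {C : ConjClasses ↥(Cfsg.SU n K q) // ∃ u : ↥(Cfsg.SU n K q),
      ConjClasses.mk u = C ∧ (suM u - 1) ^ n = 0 ∧ (suM u - 1).rank = n - 1}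
        = Nat.gcd n (q + 1) := by
  classical
  obtain ⟨φ, hφq, hφ2⟩ := Cfsg.Agent.S0779.exists_frob hK
  have hφne : φ ≠ RingHom.id K := Cfsg.Agent.Lib.Helper3.frob_ne_id hK φ hφq
  have hn1 : 1 ≤ n := by omega
  have hcard := card_fin_n (n := n)
  obtain ⟨U₁, hU₁, hnil₁, hrank₁⟩ := exists_ru (n := n) φ hφ2 hφne hn1
  have hdetU₁ : U₁.det = 1 := by
    have h := det_smul_one_add_nilpotent (1 : K) (U₁ - 1) ⟨n, hnil₁⟩
    rw [one_smul, add_sub_cancel, one_pow] at h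
    exact h
  -- the representatives
  have hV : ∀ d : K, φ d * d = 1 → ∃ u : ↥(Cfsg.SU n K q),
      suM u = dg d * U₁ * dg d⁻¹ ∧ (suM u - 1) ^ n = 0 ∧ (suM u - 1).rank = n - 1 := by
    intro d hd
    have hd0 := n1_ne φ d hd
    obtain ⟨h1, h2, h3, h4⟩ := ru_conj φ hφ2 (dg d) (dg d⁻¹) U₁
      (by rw [dg_mul, mul_inv_cancel₀ hd0, dg_one]) (by rw [dg_mul, inv_mul_cancel₀ hd0, dg_one])
      (by rw [hst_dg, n1_phi φ d hd]) hU₁ hnil₁ hrank₁
    obtain ⟨u, hu⟩ := exists_su (q := q) φ hφq _ (h4.trans hdetU₁) h1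
    exact ⟨u, hu, by rw [hu]; exact h2, by rw [hu]; exact h3⟩
  -- every regular unipotent is conjugate to a representative
  have hA : ∀ u : ↥(Cfsg.SU n K q), (suM u - 1) ^ n = 0 → (suM u - 1).rank = n - 1 →
      ∃ d : K, φ d * d = 1 ∧ ∀ v : ↥(Cfsg.SU n K q), suM v = dg d * U₁ * dg d⁻¹ →
        ConjClasses.mk v = ConjClasses.mk u := by
    intro u hnil hrank
    obtain ⟨g, hg, hgU⟩ := gu_conj φ hφ2 hφne hn1 U₁ (suM u) hU₁ hnil₁ hrank₁
      (suM_unitary φ hφq u) hnil hrank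
    have hd : φ g.det * g.det = 1 := by
      rw [← det_hst, ← Matrix.det_mul, hg, Matrix.det_one]
    have hd0 := n1_ne φ _ hd
    refine ⟨g.det, hd, fun v hv => ?_⟩
    apply su_conj φ hφq v u (g * dg g.det⁻¹)
    · rw [Matrix.det_mul, det_dg hn1, mul_inv_cancel₀ hd0]
    · rw [hst_mul, hst_dg]
      calc dg (φ g.det⁻¹) * hst φ g * (g * dg g.det⁻¹)
          = dg (φ g.det⁻¹) * (hst φ g * g) * dg g.det⁻¹ := by simp only [Matrix.mul_assoc]
        _ = 1 := by rw [hg, Matrix.mul_one, dg_mul, n1_inv φ _ hd, dg_one]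
    · rw [hv]
      calc g * dg g.det⁻¹ * (dg g.det * U₁ * dg g.det⁻¹)
          = g * (dg g.det⁻¹ * dg g.det) * U₁ * dg g.det⁻¹ := by simp only [Matrix.mul_assoc]
        _ = suM u * (g * dg g.det⁻¹) := by
            rw [dg_mul, inv_mul_cancel₀ hd0, dg_one, Matrix.mul_one, hgU, Matrix.mul_assoc]
  -- when two representatives are conjugate
  have hB : ∀ (d d' : K) (hd : φ d * d = 1) (hd' : φ d' * d' = 1) (v v' : ↥(Cfsg.SU n K q)),
      suM v = dg d * U₁ * dg d⁻¹ → suM v' = dg d' * U₁ * dg d'⁻¹ →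
      (ConjClasses.mk v = ConjClasses.mk v' ↔ ∃ a : K, φ a * a = 1 ∧ a ^ n = d⁻¹ * d') := by
    intro d d' hd hd' v v' hv hv'
    have hd0 := n1_ne φ d hd
    have hd0' := n1_ne φ d' hd'
    constructor
    · intro h
      rw [ConjClasses.mk_eq_mk_iff_isConj, isConj_iff] at h
      obtain ⟨c, hc⟩ := h
      rw [mul_inv_eq_iff_eq_mul] at hc
      have hH : suM c * suM v = suM v' * suM c := by rw [← suM_mul, ← suM_mul, hc]
      have hHu := suM_unitary φ hφq c
      rw [hv, hv'] at hH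
      obtain ⟨C, hCdef⟩ : ∃ C : Matrix (Fin n) (Fin n) K, C = dg d'⁻¹ * suM c * dg d :=
        ⟨_, rfl⟩
      have hCU : C * U₁ = U₁ * C := by
        have e1 : suM c * dg d * U₁ = dg d' * U₁ * dg d'⁻¹ * suM c * dg d := by
          calc suM c * dg d * U₁ = suM c * (dg d * U₁ * dg d⁻¹) * dg d := by
                simp only [Matrix.mul_assoc]
                rw [dg_mul, inv_mul_cancel₀ hd0, dg_one, Matrix.mul_one]
            _ = dg d' * U₁ * dg d'⁻¹ * suM c * dg d := by rw [hH]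
        calc C * U₁ = dg d'⁻¹ * (suM c * dg d * U₁) := by
              rw [hCdef]
              simp only [Matrix.mul_assoc]
          _ = (dg d'⁻¹ * dg d') * U₁ * dg d'⁻¹ * suM c * dg d := by
              rw [e1]
              simp only [Matrix.mul_assoc]
          _ = U₁ * C := by
              rw [dg_mul, inv_mul_cancel₀ hd0', dg_one, Matrix.one_mul, hCdef]
              simp only [Matrix.mul_assoc]
      have hCu : hst φ C * C = 1 := by
        rw [hCdef, hst_mul, hst_mul, hst_dg, hst_dg, n1_phi φ d hd,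
          n1_phi φ d'⁻¹ (n1_inv φ d' hd'), inv_inv]
        calc dg d⁻¹ * (hst φ (suM c) * dg d') * (dg d'⁻¹ * suM c * dg d)
            = dg d⁻¹ * (hst φ (suM c) * (dg d' * dg d'⁻¹) * suM c) * dg d := by
              simp only [Matrix.mul_assoc]
          _ = 1 := by
              rw [dg_mul, mul_inv_cancel₀ hd0', dg_one, Matrix.mul_one, hHu, Matrix.mul_one,
                dg_mul, inv_mul_cancel₀ hd0, dg_one]
      obtain ⟨a, ha1, ha2⟩ := cent_det φ hφq hn1 U₁ hU₁ hnil₁ hrank₁ C hCu hCU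
      have hCdet : C.det = d'⁻¹ * d := by
        rw [hCdef, Matrix.det_mul, Matrix.det_mul, det_dg hn1, det_dg hn1, suM_det, mul_one]
      have ha1' : φ a * a = 1 := (n1_of_pow φ hφq a).1 ha1
      refine ⟨a⁻¹, n1_inv φ a ha1', ?_⟩
      rw [inv_pow, ← ha2, hCdet, mul_inv, inv_inv, mul_comm]
    · rintro ⟨a, ha1, ha2⟩
      have ha0 := n1_ne φ a ha1
      apply su_conj φ hφq v v' (a⁻¹ • dg (d' * d⁻¹))
      · rw [Matrix.det_smul, hcard, det_dg hn1, inv_pow, ha2]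
        field_simp
      · rw [hst_smul, hst_dg, Matrix.smul_mul, Matrix.mul_smul, smul_smul, dg_mul,
          n1_inv φ a ha1, one_smul, n1_mul φ d' d⁻¹ hd' (n1_inv φ d hd), dg_one]
      · rw [hv, hv', Matrix.smul_mul, Matrix.mul_smul]
        congr 1
        calc dg (d' * d⁻¹) * (dg d * U₁ * dg d⁻¹)
            = (dg (d' * d⁻¹) * dg d) * U₁ * dg d⁻¹ := by simp only [Matrix.mul_assoc]
          _ = dg d' * U₁ * (dg d'⁻¹ * dg (d' * d⁻¹)) := by
              rw [dg_mul, dg_mul, inv_mul_cancel_right₀ hd0, inv_mul_cancel_left₀ hd0']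
          _ = dg d' * U₁ * dg d'⁻¹ * dg (d' * d⁻¹) := by simp only [Matrix.mul_assoc]
  -- the group of norm-one elements
  obtain ⟨S, hSdef⟩ : ∃ S : Subgroup Kˣ, S = (powMonoidHom (q + 1) : Kˣ →* Kˣ).ker := ⟨_, rfl⟩
  have hSmem : ∀ x : Kˣ, x ∈ S ↔ x ^ (q + 1) = 1 := by
    intro x
    rw [hSdef, MonoidHom.mem_ker, powMonoidHom_apply]
  have hScard : Nat.card ↥S = q + 1 := by
    rw [← Cfsg.Agent.S0278.card_norm_one hK]
    exact Nat.card_congr (Equiv.subtypeEquivRight hSmem)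
  have hSn1 : ∀ b : ↥S, φ ((b : Kˣ) : K) * ((b : Kˣ) : K) = 1 := by
    intro b
    apply (n1_of_pow φ hφq _).1
    have := (hSmem b.1).1 b.2
    rw [← Units.val_pow_eq_pow_val, this, Units.val_one]
  have hSlift : ∀ d : K, φ d * d = 1 → ∃ b : ↥S, ((b : Kˣ) : K) = d := by
    intro d hd
    refine ⟨⟨Units.mk0 d (n1_ne φ d hd), (hSmem _).2 (Units.ext ?_)⟩, rfl⟩
    rw [Units.val_pow_eq_pow_val, Units.val_mk0, Units.val_one]
    exact (n1_of_pow φ hφq d).2 hd
  choose ub hub1 hub2 hub3 using fun b : ↥S => hV ((b : Kˣ) : K) (hSn1 b)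
  obtain ⟨f, hf⟩ : ∃ f : ↥S → {C : ConjClasses ↥(Cfsg.SU n K q) // ∃ u : ↥(Cfsg.SU n K q),
      ConjClasses.mk u = C ∧ (suM u - 1) ^ n = 0 ∧ (suM u - 1).rank = n - 1},
      ∀ b, (f b).1 = ConjClasses.mk (ub b) :=
    ⟨fun b => ⟨ConjClasses.mk (ub b), ub b, rfl, hub2 b, hub3 b⟩, fun b => rfl⟩
  have hfsurj : Function.Surjective f := by
    rintro ⟨C, u, rfl, hnil, hrank⟩
    obtain ⟨d, hd, hconj⟩ := hA u hnil hrank
    obtain ⟨b, hb⟩ := hSlift d hd
    refine ⟨b, Subtype.ext ?_⟩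
    rw [hf]
    apply hconj
    rw [hub1, hb]
  obtain ⟨T, hTdef⟩ : ∃ T : Subgroup ↥S, T = (powMonoidHom n : ↥S →* ↥S).range := ⟨_, rfl⟩
  have hker : ∀ b b' : ↥S, f b = f b' ↔ b⁻¹ * b' ∈ T := by
    intro b b'
    rw [Subtype.ext_iff, hf, hf,
      hB _ _ (hSn1 b) (hSn1 b') (ub b) (ub b') (hub1 b) (hub1 b'), hTdef, MonoidHom.mem_range]
    constructor
    · rintro ⟨a, ha1, ha2⟩
      obtain ⟨a', ha'⟩ := hSlift a ha1
      refine ⟨a', ?_⟩
      rw [powMonoidHom_apply]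
      apply Subtype.ext
      apply Units.ext
      rw [Subgroup.coe_pow, Units.val_pow_eq_pow_val, ha', ha2, Subgroup.coe_mul, Units.val_mul,
        Subgroup.coe_inv, Units.val_inv_eq_inv_val]
    · rintro ⟨a', ha'⟩
      refine ⟨((a' : Kˣ) : K), hSn1 a', ?_⟩
      rw [powMonoidHom_apply] at ha'
      have := congrArg (fun x : ↥S => ((x : Kˣ) : K)) ha'
      simp only [Subgroup.coe_pow, Units.val_pow_eq_pow_val, Subgroup.coe_mul, Units.val_mul,
        Subgroup.coe_inv, Units.val_inv_eq_inv_val] at this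
      exact this
  have hindex : T.index = (Nat.card ↥S).gcd n := by
    rw [hTdef]
    exact IsCyclic.index_powMonoidHom_range (↥S) n
  have e : (↥S ⧸ T) ≃ {C : ConjClasses ↥(Cfsg.SU n K q) // ∃ u : ↥(Cfsg.SU n K q),
      ConjClasses.mk u = C ∧ (suM u - 1) ^ n = 0 ∧ (suM u - 1).rank = n - 1} :=
    (Quotient.congrRight (fun b b' => by
      rw [QuotientGroup.leftRel_apply]
      exact (hker b b').symm)).trans (Setoid.quotientKerEquivOfSurjective f hfsurj)
  rw [← Nat.card_congr e]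
  have h2 : Nat.card (↥S ⧸ T) = T.index := rfl
  rw [h2, hindex, hScard, Nat.gcd_comm]

end SUlevel

/-- Regular unipotent classes of SU_n(q), n ≥ 2: the elements u of the special unitary group (isometries of Σ u_i v_i^q of determinant one over the field with q² elements) with (u − 1)^n = 0 and rank(u − 1) = n − 1 form exactly gcd(n, q + 1) conjugacy classes of SU_n(q). -/
theorem result {K : Type*} [Field K] [Fintype K] {q n : ℕ} (hK : Fintype.card K = q ^ 2) (hn : 2 ≤ n) : Nat.card {C : ConjClasses ↥(Cfsg.SU n K q) // ∃ u : ↥(Cfsg.SU n K q), ConjClasses.mk u = C ∧ (((u : GL (Fin n) K) : Matrix (Fin n) (Fin n) K) - 1) ^ n = 0 ∧ (((u : GL (Fin n) K) : Matrix (Fin n) (Fin n) K) - 1).rank = n - 1} = Nat.gcd n (q + 1) := by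
  exact main hK hn

end Cfsg.Agent.S2643
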