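import Cfsg.Statements.S2644
import Mathlib
import Cfsg.Agent.Lib.Helper3.UnitaryConj

set_option autoImplicit false
open Cfsg

namespace Cfsg.Agent.S2644

/-- In the special unitary group SU_n(q) with n ≥ 3 (isometries of Σ u_i v_i^q of determinant one over the field with q² elements), any two transvections (elements t with t − 1 of rank one and square zero) are conjugate. -/
theorem result {K : Type*} [Field K] [Fintype K] {q n : ℕ} (hK : Fintype.card K = q ^ 2) (hn : 3 ≤ n) (s t : ↥(Cfsg.SU n K q)) (hs : Cfsg.IsTransvection (((s : GL (Fin n) K) : Matrix (Fin n) (Fin n) K))) (ht : Cfsg.IsTransvection (((t : GL (Fin n) K) : Matrix (Fin n) (Fin n) K))) : IsConj s t := by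
  classical
  obtain ⟨φ, hφq, hφ2⟩ := Cfsg.Agent.S0779.exists_frob hK
  have hφ := Cfsg.Agent.S0829.phi_ne_id hK φ hφq
  have hq2 := Cfsg.Agent.S0829.two_le_q hK
  have hs1 : (Cfsg.Agent.Lib.Helper3.suMat s - 1).rank = 1 := hs.1
  have ht1 : (Cfsg.Agent.Lib.Helper3.suMat t - 1).rank = 1 := ht.1
  obtain ⟨v, hv0, hvv, c, hc0, hsv⟩ := Cfsg.Agent.Lib.Helper3.su_rank_one_tv φ hφq hφ2 s hs1
  obtain ⟨w, hw0, hww, c', hc'0, htw⟩ := Cfsg.Agent.Lib.Helper3.su_rank_one_tv φ hφq hφ2 t ht1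
  have skew : ∀ (g : ↥(Cfsg.SU n K q)) (x : Fin n → K) (d : K), x ≠ 0 →
      Cfsg.hermForm n K q x x = 0 → d ≠ 0 →
      Cfsg.Agent.Lib.Helper3.suMat g = Cfsg.unitaryTransvection n q x d → φ d = -d := by
    intro g x d hx0 hxx hd0 hg
    have h := (Cfsg.Agent.S0779.result hK n x hx0 hxx d).mp
      (fun y z => by rw [← hg]; exact Cfsg.Agent.Lib.Helper3.su_pres g y z)
    rcases h with h | h
    · exact absurd h hd0
    · rw [hφq]
      calc d ^ q = d ^ (q - 1) * d := by rw [← pow_succ, Nat.sub_add_cancel (by omega)]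
        _ = -d := by rw [h]; ring
  have hc := skew s v c hv0 hvv hc0 hsv
  have hc' := skew t w c' hw0 hww hc'0 htw
  obtain ⟨a, ha⟩ := Cfsg.Agent.S0755.norm_surj φ hφ hφ2 (c' / c)
    (by rw [map_div₀, hc, hc', neg_div_neg_eq]) (div_ne_zero hc'0 hc0)
  have ha0 : a ≠ 0 := by
    rintro rfl
    rw [mul_zero] at ha
    exact (div_ne_zero hc'0 hc0) ha.symm
  obtain ⟨M, hM, hMv⟩ := Cfsg.Agent.Lib.Helper3.su_move_vec φ hφ2 hφ hn v w hv0 hw0
    (by rw [← Cfsg.Agent.Lib.Helper3.herm_bh φ hφq]; exact hvv)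
    (by rw [← Cfsg.Agent.Lib.Helper3.herm_bh φ hφq]; exact hww) a ha0
  obtain ⟨g, hg⟩ := Cfsg.Agent.Lib.Helper3.su_of_isSUm φ hφq M hM
  rw [isConj_iff]
  refine ⟨g, ?_⟩
  apply Cfsg.Agent.Lib.Helper3.suMat_ext
  rw [Cfsg.Agent.Lib.Helper3.conj_tv g s v c hsv, hg, hMv, Cfsg.Agent.Lib.Helper3.tv_smul, htw]
  congr 1
  rw [← hφq, mul_comm a, ha]
  field_simp

end Cfsg.Agent.S2644
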