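import Cfsg.Statements.S2645
import Cfsg.Agent.Lib.Helper15.CycA
import Cfsg.Agent.Lib.Helper15.CycC
import Cfsg.Agent.Lib.Helper15.SpE
import Cfsg.Agent.Lib.Helper15.SpC
open Cfsg.Agent.Lib.Helper15

set_option autoImplicit false
open Cfsg

namespace Cfsg.Agent.S2645

/-- Number of conjugacy classes of elements of odd prime order r, r different from the characteristic, in the symplectic group Sp_2m(q): let i be the multiplicative order of q modulo r and t = (r − 1)/i. If i is odd the eigenvalue orbits pair off (Λ ≠ Λ⁻¹) and the classes correspond to the non-zero (t/2)-tuples (a_j) with 2i Σ a_j ≤ 2m, giving C(⌊m/i⌋ + t/2, t/2) − 1 classes; if i is even (Λ = Λ⁻¹) they correspond to the non-zero t-tuples with i Σ a_j ≤ 2m, giving C(⌊2m/i⌋ + t, t) − 1 classes. -/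
theorem result {F : Type*} [Field F] [Fintype F] {p q : ℕ} [Fact p.Prime] [CharP F p] (hF : Fintype.card F = q) (m r i t : ℕ) (hr : r.Prime) (hr2 : r ≠ 2) (hrp : r ≠ p) (hi : i = orderOf (q : ZMod r)) (ht : t * i = r - 1) : Nat.card {C : ConjClasses ↥(Matrix.symplecticGroup (Fin m) F) // ∃ g : Matrix.symplecticGroup (Fin m) F, ConjClasses.mk g = C ∧ orderOf g = r} = if Odd i then Nat.choose (m / i + t / 2) (t / 2) - 1 else Nat.choose (2 * m / i + t) t - 1 := by
  classical
  have hp : p.Prime := Fact.out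
  have hrq : ¬ r ∣ q := by
    intro hdvd
    obtain ⟨k, -, hk⟩ := FiniteField.card F p
    have h1 : r ∣ p ^ (k : ℕ) := by
      rw [← hk, hF]
      exact hdvd
    exact hrp ((Nat.prime_dvd_prime_iff_eq hr hp).mp (hr.dvd_of_dvd_pow h1))
  have hi' : i = orderOf ((Fintype.card F : ℕ) : ZMod r) := by
    rw [hF]
    exact hi
  have hi0 : 0 < i := by
    rcases Nat.eq_zero_or_pos i with h0 | h0
    · exfalso
      rw [h0, mul_zero] at ht
      have := hr.one_lt
      omega
    · exact h0
  obtain ⟨h, hinj, hirr, hmon, hdiv, hall, h0, hdeg, hcyc⟩ :=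
    Semi.cyc_family (F := F) p r hr hrp i t hi' ht
  have hd0 : (h 0).natDegree = 1 := by
    rw [h0]
    have e1 : (Polynomial.X - 1 : Polynomial F) = Polynomial.X - Polynomial.C 1 := by
      rw [map_one]
    rw [e1]
    exact Polynomial.natDegree_X_sub_C 1
  have hex := fun j => Semi.exists_dual_index (RingHom.id F) (fun _ => rfl) r hr.pos h hirr hmon
    hdiv hall j
  choose σ hσ using hex
  have hc0 : ∀ j, (h j).coeff 0 ≠ 0 := fun j => Semi.coeff_zero_ne_of_dvd r hr.pos _ (hdiv j)
  have hσσ : ∀ j, σ (σ j) = j := by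
    intro j
    apply hinj
    rw [hσ, hσ, Semi.dual_dual (RingHom.id F) (fun _ => rfl) _ (hmon j) (hc0 j)]
  have hσ0 : σ 0 = 0 := by
    apply hinj
    rw [hσ, h0, Semi.dual_X_sub_one]
  have hsd : ∀ j : Fin t, (σ j.succ = j.succ ↔ Even i) := by
    intro j
    rw [hi, ← Semi.neg_one_mem_iff r q hr hr2 hrq, ← hF,
      ← Semi.selfdual_iff_cyc_id p r i hr hrp (h j.succ) (hmon _) (hirr _) (hcyc j) hi' (hdeg j)]
    constructor
    · intro h1
      rw [← hσ, h1]
    · intro h1
      apply hinj
      rw [hσ, h1]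
  rw [Semi.order_classes_card r hr,
    SpC.sp_pow_classes p m r hr hr2 hrp h hinj hirr hmon hdiv hall h0 σ hσ]
  split_ifs with hodd
  · have hfix : ∀ j : Fin t, σ j.succ ≠ j.succ := fun j hj =>
      (Nat.not_even_iff_odd.mpr hodd) ((hsd j).mp hj)
    rw [Semi.card_exponents_invol (2 * m) i t hi0 (fun j => (h j).natDegree) hd0 hdeg σ hσ0 hσσ
      hfix, Nat.mul_div_mul_left _ _ (by norm_num : 0 < 2)]
  · have hev : Even i := Nat.not_odd_iff_even.mp hodd
    have hσid : ∀ j, σ j = j := by
      intro j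
      induction j using Fin.cases with
      | zero => exact hσ0
      | succ j => exact (hsd j).mpr hev
    have e1 : Nat.card {a : Fin (t + 1) → ℕ // (∑ j, a j * (h j).natDegree = 2 * m) ∧
        ∀ j, a (σ j) = a j} =
        Nat.card {a : Fin (t + 1) → ℕ // ∑ j, a j * (h j).natDegree = 2 * m} := by
      apply Nat.card_congr
      exact Equiv.subtypeEquivRight
        (fun a => ⟨fun h1 => h1.1, fun h1 => ⟨h1, fun j => by rw [hσid]⟩⟩)
    rw [e1, Semi.card_exponents (2 * m) i t hi0 (fun j => (h j).natDegree) hd0 hdeg]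

end Cfsg.Agent.S2645
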