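import Cfsg.Statements.S2666

set_option autoImplicit false
open Pointwise
open Cfsg

namespace Cfsg.Agent.S2666

theorem prod_range_eq {X : Type*} [Group X] (σ : MulAut X) (g a : X) (ha : g = a * (σ a)⁻¹) (d : ℕ) :
    ((List.range d).map (fun i => (σ ^ i) g)).prod = a * ((σ ^ d) a)⁻¹ := by
  induction d with
  | zero => simp
  | succ n ih =>
    rw [List.range_succ, List.map_append, List.prod_append, ih]
    simp only [List.map_cons, List.map_nil, List.prod_cons, List.prod_nil, mul_one]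
    rw [ha, map_mul, map_inv, pow_succ, MulAut.mul_apply]
    group

theorem pow_fix {X : Type*} [Group X] (τ : MulAut X) (x : X) (h : τ x = x) (n : ℕ) :
    (τ ^ n) x = x := by
  induction n with
  | zero => simp
  | succ n ih => rw [pow_succ, MulAut.mul_apply, h, ih]

theorem comm_pow_apply {X : Type*} [Group X] (σ : MulAut X) (e : ℕ) (a : X) :
    σ ((σ ^ e) a) = (σ ^ e) (σ a) := by
  rw [← MulAut.mul_apply, ← MulAut.mul_apply, ← pow_succ, ← pow_succ']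

theorem sigma_fix {X : Type*} [Group X] (σ : MulAut X) (e : ℕ) (g a : X)
    (hg' : (σ ^ e) g = g) (ha : g = a * (σ a)⁻¹) :
    σ (((σ ^ e) a)⁻¹ * a) = ((σ ^ e) a)⁻¹ * a := by
  rw [ha, map_mul, map_inv] at hg'
  rw [map_mul, map_inv, comm_pow_apply]
  have h1 : (σ ^ e) (σ a) = σ a * a⁻¹ * (σ ^ e) a := by
    have h2 : ((σ ^ e) (σ a))⁻¹ = ((σ ^ e) a)⁻¹ * (a * (σ a)⁻¹) := by rw [← hg']; group
    rw [← inv_inv ((σ ^ e) (σ a)), h2]; group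
  rw [h1]; group

theorem part2 {X : Type*} [Group X] (σ : MulAut X) (e : ℕ) (a b : X) :
    ((∃ k : X, (σ ^ e) k = k ∧ b * (σ b)⁻¹ = k * (a * (σ a)⁻¹) * (σ k)⁻¹) ↔
      (∃ h : X, σ h = h ∧ ((σ ^ e) b)⁻¹ * b = h * (((σ ^ e) a)⁻¹ * a) * h⁻¹)) := by
  constructor
  · rintro ⟨k, hk, hkg⟩
    refine ⟨b⁻¹ * k * a, ?_, ?_⟩
    · rw [map_mul, map_mul, map_inv]
      have h1 : σ k = σ b * b⁻¹ * k * a * (σ a)⁻¹ := by
        calc σ k = (k * (a * (σ a)⁻¹) * (σ k)⁻¹)⁻¹ * (k * (a * (σ a)⁻¹)) := by group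
          _ = (b * (σ b)⁻¹)⁻¹ * (k * (a * (σ a)⁻¹)) := by rw [hkg]
          _ = σ b * b⁻¹ * k * a * (σ a)⁻¹ := by group
      rw [h1]; group
    · have h2 : (σ ^ e) b = k * (σ ^ e) a * ((σ ^ e) (b⁻¹ * k * a))⁻¹ := by
        rw [map_mul, map_mul, map_inv, hk]; group
      have h3 : (σ ^ e) (b⁻¹ * k * a) = b⁻¹ * k * a := by
        apply pow_fix
        rw [map_mul, map_mul, map_inv]
        have h1 : σ k = σ b * b⁻¹ * k * a * (σ a)⁻¹ := by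
          calc σ k = (k * (a * (σ a)⁻¹) * (σ k)⁻¹)⁻¹ * (k * (a * (σ a)⁻¹)) := by group
            _ = (b * (σ b)⁻¹)⁻¹ * (k * (a * (σ a)⁻¹)) := by rw [hkg]
            _ = σ b * b⁻¹ * k * a * (σ a)⁻¹ := by group
        rw [h1]; group
      rw [h2, h3]; group
  · rintro ⟨h, hh, hx⟩
    have hh' : (σ ^ e) h = h := pow_fix σ h hh e
    refine ⟨b * h * a⁻¹, ?_, ?_⟩
    · rw [map_mul, map_mul, map_inv, hh']
      calc (σ ^ e) b * h * ((σ ^ e) a)⁻¹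
          = (σ ^ e) b * (h * (((σ ^ e) a)⁻¹ * a) * h⁻¹) * h * a⁻¹ := by group
        _ = (σ ^ e) b * (((σ ^ e) b)⁻¹ * b) * h * a⁻¹ := by rw [hx]
        _ = b * h * a⁻¹ := by group
    · rw [map_mul, map_mul, map_inv, hh]; group

theorem result {X : Type*} [Group X] (σ : MulAut X) (e : ℕ) (he : 1 ≤ e)
    (hL : ∀ g : X, ∃ a : X, g = a * (σ a)⁻¹) (hLe : ∀ g : X, ∃ a : X, g = a * ((σ ^ e) a)⁻¹) :
    (∀ g ∈ (MulEquiv.toMonoidHom (σ ^ e)).eqLocus (MonoidHom.id X), ∀ a : X, g = a * (σ a)⁻¹ →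
        ((σ ^ e) a)⁻¹ * a ∈ (MulEquiv.toMonoidHom σ).eqLocus (MonoidHom.id X) ∧
          a⁻¹ * ((List.range e).map (fun i => (σ ^ i) g)).prod * a = ((σ ^ e) a)⁻¹ * a) ∧
    (∀ g ∈ (MulEquiv.toMonoidHom (σ ^ e)).eqLocus (MonoidHom.id X), ∀ g' ∈ (MulEquiv.toMonoidHom (σ ^ e)).eqLocus (MonoidHom.id X), ∀ a b : X,
        g = a * (σ a)⁻¹ → g' = b * (σ b)⁻¹ →
          ((∃ k ∈ (MulEquiv.toMonoidHom (σ ^ e)).eqLocus (MonoidHom.id X), g' = k * g * (σ k)⁻¹) ↔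
            (∃ h ∈ (MulEquiv.toMonoidHom σ).eqLocus (MonoidHom.id X), ((σ ^ e) b)⁻¹ * b = h * (((σ ^ e) a)⁻¹ * a) * h⁻¹))) ∧
    (∀ x ∈ (MulEquiv.toMonoidHom σ).eqLocus (MonoidHom.id X), ∃ g ∈ (MulEquiv.toMonoidHom (σ ^ e)).eqLocus (MonoidHom.id X), ∃ a : X,
        g = a * (σ a)⁻¹ ∧ ((σ ^ e) a)⁻¹ * a = x) := by
  refine ⟨?_, ?_, ?_⟩
  · intro g hg a ha
    have hg' : (σ ^ e) g = g := hg
    refine ⟨sigma_fix σ e g a hg' ha, ?_⟩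
    rw [prod_range_eq σ g a ha e]; group
  · intro g _ g' _ a b ha hb
    subst ha hb
    exact part2 σ e a b
  · intro x hx
    have hx' : σ x = x := hx
    obtain ⟨c, hc⟩ := hLe x⁻¹
    have hxc : x = (σ ^ e) c * c⁻¹ := by
      rw [← inv_inv x, hc]; group
    have key : ((σ ^ e) c⁻¹)⁻¹ * c⁻¹ = x := by
      rw [map_inv, hxc]; group
    refine ⟨c⁻¹ * (σ c⁻¹)⁻¹, ?_, c⁻¹, rfl, key⟩
    show (σ ^ e) (c⁻¹ * (σ c⁻¹)⁻¹) = c⁻¹ * (σ c⁻¹)⁻¹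
    have h1 : σ ((σ ^ e) c * c⁻¹) = (σ ^ e) c * c⁻¹ := by rw [← hxc]; exact hx'
    rw [map_mul, map_inv, comm_pow_apply] at h1
    have h2 : (σ ^ e) (σ c) = (σ ^ e) c * c⁻¹ * σ c := by
      calc (σ ^ e) (σ c) = ((σ ^ e) (σ c) * (σ c)⁻¹) * σ c := by group
        _ = ((σ ^ e) c * c⁻¹) * σ c := by rw [h1]
    simp only [map_mul, map_inv, inv_inv]
    rw [h2]; group

end Cfsg.Agent.S2666
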