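import Cfsg.Statements.S2667

set_option autoImplicit false
open Pointwise
open Cfsg

namespace Cfsg.Agent.S2667

theorem pow_fix {X : Type*} [Group X] (τ : MulAut X) (x : X) (h : τ x = x) (n : ℕ) :
    (τ ^ n) x = x := by
  induction n with
  | zero => simp
  | succ n ih => rw [pow_succ, MulAut.mul_apply, h, ih]

theorem result {X : Type*} [Group X] (σ : MulAut X) (e : ℕ) (he : 1 ≤ e)
    (g : X) (hg : g ∈ (MulEquiv.toMonoidHom (σ ^ e)).eqLocus (MonoidHom.id X)) (a : X) (ha : g = a * (σ a)⁻¹) (k : X) :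
    (k ∈ (MulEquiv.toMonoidHom (σ ^ e)).eqLocus (MonoidHom.id X) ∧ k * g * (σ k)⁻¹ = g) ↔
      (a⁻¹ * k * a ∈ (MulEquiv.toMonoidHom σ).eqLocus (MonoidHom.id X) ∧
        (a⁻¹ * k * a) * (((σ ^ e) a)⁻¹ * a) = (((σ ^ e) a)⁻¹ * a) * (a⁻¹ * k * a)) := by
  subst ha
  constructor
  · rintro ⟨hk, hk2⟩
    have hk' : (σ ^ e) k = k := hk
    have ht : σ k = σ a * a⁻¹ * k * a * (σ a)⁻¹ := by
      calc σ k = (k * (a * (σ a)⁻¹) * (σ k)⁻¹)⁻¹ * (k * (a * (σ a)⁻¹)) := by group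
        _ = (a * (σ a)⁻¹)⁻¹ * (k * (a * (σ a)⁻¹)) := by rw [hk2]
        _ = σ a * a⁻¹ * k * a * (σ a)⁻¹ := by group
    have hh : σ (a⁻¹ * k * a) = a⁻¹ * k * a := by
      rw [map_mul, map_mul, map_inv, ht]; group
    refine ⟨hh, ?_⟩
    have hh' : (σ ^ e) (a⁻¹ * k * a) = a⁻¹ * k * a := pow_fix σ _ hh e
    rw [map_mul, map_mul, map_inv, hk'] at hh'
    calc a⁻¹ * k * a * (((σ ^ e) a)⁻¹ * a) = (((σ ^ e) a)⁻¹ * k * (σ ^ e) a) * (((σ ^ e) a)⁻¹ * a) := by rw [hh']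
      _ = ((σ ^ e) a)⁻¹ * a * (a⁻¹ * k * a) := by group
  · rintro ⟨hh, hc⟩
    have hh1 : σ (a⁻¹ * k * a) = a⁻¹ * k * a := hh
    have hh' : (σ ^ e) (a⁻¹ * k * a) = a⁻¹ * k * a := pow_fix σ _ hh1 e
    rw [map_mul, map_mul, map_inv] at hh1 hh'
    have ht : σ k = σ a * a⁻¹ * k * a * (σ a)⁻¹ := by
      calc σ k = σ a * ((σ a)⁻¹ * σ k * σ a) * (σ a)⁻¹ := by group
        _ = σ a * (a⁻¹ * k * a) * (σ a)⁻¹ := by rw [hh1]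
        _ = σ a * a⁻¹ * k * a * (σ a)⁻¹ := by group
    have ht' : (σ ^ e) k = (σ ^ e) a * a⁻¹ * k * a * ((σ ^ e) a)⁻¹ := by
      calc (σ ^ e) k = (σ ^ e) a * (((σ ^ e) a)⁻¹ * (σ ^ e) k * (σ ^ e) a) * ((σ ^ e) a)⁻¹ := by group
        _ = (σ ^ e) a * (a⁻¹ * k * a) * ((σ ^ e) a)⁻¹ := by rw [hh']
        _ = (σ ^ e) a * a⁻¹ * k * a * ((σ ^ e) a)⁻¹ := by group
    refine ⟨?_, ?_⟩
    · show (σ ^ e) k = k
      rw [ht']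
      calc (σ ^ e) a * a⁻¹ * k * a * ((σ ^ e) a)⁻¹
          = (σ ^ e) a * (a⁻¹ * k * a * (((σ ^ e) a)⁻¹ * a)) * a⁻¹ := by group
        _ = (σ ^ e) a * (((σ ^ e) a)⁻¹ * a * (a⁻¹ * k * a)) * a⁻¹ := by rw [hc]
        _ = k := by group
    · rw [ht]; group

end Cfsg.Agent.S2667
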