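import Cfsg.Statements.S2668

set_option autoImplicit false
open Pointwise
open Cfsg

namespace Cfsg.Agent.S2668

theorem prod_range_eq {X : Type*} [Group X] (σ : MulAut X) (g a : X) (ha : g = a * (σ a)⁻¹) (d : ℕ) :
    ((List.range d).map (fun i => (σ ^ i) g)).prod = a * ((σ ^ d) a)⁻¹ := by
  induction d with
  | zero => simp
  | succ n ih =>
    rw [List.range_succ, List.map_append, List.prod_append, ih]
    simp only [List.map_cons, List.map_nil, List.prod_cons, List.prod_nil, mul_one]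
    rw [ha, map_mul, map_inv, pow_succ, MulAut.mul_apply]
    group

theorem pow_fix {X : Type*} [Group X] (τ : MulAut X) (x : X) (h : τ x = x) (n : ℕ) :
    (τ ^ n) x = x := by
  induction n with
  | zero => simp
  | succ n ih => rw [pow_succ, MulAut.mul_apply, h, ih]

theorem shift_pow {X : Type*} [Group X] (τ : MulAut X) (a x : X) (hx : τ x = x)
    (ha : τ a = a * x⁻¹) (n : ℕ) : (τ ^ n) a = a * (x ^ n)⁻¹ := by
  induction n with
  | zero => simp
  | succ n ih =>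
    rw [pow_succ, MulAut.mul_apply, ha, map_mul, map_inv, ih, pow_fix τ x hx, pow_succ]
    group

theorem comm_pow_apply {X : Type*} [Group X] (σ : MulAut X) (e : ℕ) (a : X) :
    σ ((σ ^ e) a) = (σ ^ e) (σ a) := by
  rw [← MulAut.mul_apply, ← MulAut.mul_apply, ← pow_succ, ← pow_succ']

theorem sigma_fix {X : Type*} [Group X] (σ : MulAut X) (e : ℕ) (g a : X)
    (hg' : (σ ^ e) g = g) (ha : g = a * (σ a)⁻¹) :
    σ (((σ ^ e) a)⁻¹ * a) = ((σ ^ e) a)⁻¹ * a := by
  rw [ha, map_mul, map_inv] at hg'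
  rw [map_mul, map_inv, comm_pow_apply]
  have h1 : (σ ^ e) (σ a) = σ a * a⁻¹ * (σ ^ e) a := by
    have h2 : ((σ ^ e) (σ a))⁻¹ = ((σ ^ e) a)⁻¹ * (a * (σ a)⁻¹) := by rw [← hg']; group
    rw [← inv_inv ((σ ^ e) (σ a)), h2]; group
  rw [h1]; group

theorem result {X : Type*} [Group X] (σ : MulAut X) (e d : ℕ) (he : 1 ≤ e) (hd : 1 ≤ d)
    (g : X) (hg : g ∈ (MulEquiv.toMonoidHom (σ ^ e)).eqLocus (MonoidHom.id X)) (a : X) (ha : g = a * (σ a)⁻¹) :
    ((List.range d).map (fun i => (σ ^ i) g)).prod = a * ((σ ^ d) a)⁻¹ ∧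
      ((List.range d).map (fun i => (σ ^ i) g)).prod ∈ (MulEquiv.toMonoidHom ((σ ^ d) ^ e)).eqLocus (MonoidHom.id X) ∧
      (((σ ^ d) ^ e) a)⁻¹ * a = (((σ ^ e) a)⁻¹ * a) ^ d := by
  have hg' : (σ ^ e) g = g := hg
  refine ⟨prod_range_eq σ g a ha d, ?_, ?_⟩
  · refine Subgroup.list_prod_mem _ ?_
    intro x hx
    rw [List.mem_map] at hx
    obtain ⟨i, -, rfl⟩ := hx
    show ((σ ^ d) ^ e) ((σ ^ i) g) = (σ ^ i) g
    rw [← pow_mul, ← MulAut.mul_apply, ← pow_add, add_comm, pow_add, MulAut.mul_apply, mul_comm d e, pow_mul]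
    rw [pow_fix _ g hg' d]
  · set x := ((σ ^ e) a)⁻¹ * a with hxdef
    have hax : (σ ^ e) a = a * x⁻¹ := by rw [hxdef]; group
    have hx : (σ ^ e) x = x := pow_fix σ x (sigma_fix σ e g a hg' ha) e
    rw [← pow_mul, mul_comm d e, pow_mul, shift_pow (σ ^ e) a x hx hax d]
    group

end Cfsg.Agent.S2668
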