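import Cfsg.Statements.S2669

set_option autoImplicit false
open Pointwise
open Cfsg

namespace Cfsg.Agent.S2669

theorem pow_fix {X : Type*} [Group X] (τ : MulAut X) (x : X) (h : τ x = x) (n : ℕ) :
    (τ ^ n) x = x := by
  induction n with
  | zero => simp
  | succ n ih => rw [pow_succ, MulAut.mul_apply, h, ih]

theorem pow_mem_iff {X : Type*} [Group X] (σ : MulAut X) (Y : Subgroup X)
    (hY : ∀ y : X, y ∈ Y ↔ σ y ∈ Y) (n : ℕ) (y : X) : y ∈ Y ↔ (σ ^ n) y ∈ Y := by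
  induction n generalizing y with
  | zero => simp
  | succ n ih => rw [pow_succ, MulAut.mul_apply, ← ih]; exact hY y

theorem claim1 {X : Type*} [Group X] (σ : MulAut X) (Y : Subgroup X)
    (hYL : ∀ y ∈ Y, ∃ a ∈ Y, y = a * (σ a)⁻¹) (a k : X)
    (hk : k⁻¹ * (a * (σ a)⁻¹) * σ k ∈ Y) :
    ∃ h : X, σ h = h ∧ k⁻¹ * a * h ∈ Y := by
  obtain ⟨c, hc, hce⟩ := hYL _ hk
  refine ⟨a⁻¹ * k * c, ?_, ?_⟩
  · rw [map_mul, map_mul, map_inv]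
    have h1 : σ k = σ a * a⁻¹ * k * c * (σ c)⁻¹ := by
      calc σ k = (a * (σ a)⁻¹)⁻¹ * k * (k⁻¹ * (a * (σ a)⁻¹) * σ k) := by group
        _ = (a * (σ a)⁻¹)⁻¹ * k * (c * (σ c)⁻¹) := by rw [hce]
        _ = σ a * a⁻¹ * k * c * (σ c)⁻¹ := by group
    rw [h1]; group
  · have h2 : k⁻¹ * a * (a⁻¹ * k * c) = c := by group
    rw [h2]; exact hc

theorem claim2 {X : Type*} [Group X] (τ : MulAut X) (Y : Subgroup X)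
    (hYLe : ∀ y ∈ Y, ∃ a ∈ Y, y = a * (τ a)⁻¹) (a h : X) (hh : τ h = h)
    (hx : h⁻¹ * ((τ a)⁻¹ * a) * h ∈ Y) :
    ∃ k : X, τ k = k ∧ k⁻¹ * a * h ∈ Y := by
  have h1 : (a * h)⁻¹ * τ (a * h) ∈ Y := by
    have h2 : (a * h)⁻¹ * τ (a * h) = (h⁻¹ * ((τ a)⁻¹ * a) * h)⁻¹ := by
      rw [map_mul, hh]; group
    rw [h2]; exact Y.inv_mem hx
  obtain ⟨c, hc, hce⟩ := hYLe _ h1
  refine ⟨a * h * c, ?_, ?_⟩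
  · have h3 : τ (a * h) = a * h * (c * (τ c)⁻¹) := by rw [← hce]; group
    rw [map_mul, h3]; group
  · have h4 : (a * h * c)⁻¹ * a * h = c⁻¹ := by group
    rw [h4]; exact Y.inv_mem hc

theorem claim3a {X : Type*} [Group X] (σ : MulAut X) (Y : Subgroup X)
    (hY : ∀ y : X, y ∈ Y ↔ σ y ∈ Y) (a k h : X) (hh : σ h = h) (hw : k⁻¹ * a * h ∈ Y) :
    k⁻¹ * (a * (σ a)⁻¹) * σ k ∈ Y := by
  have h1 : k⁻¹ * (a * (σ a)⁻¹) * σ k = (k⁻¹ * a * h) * (σ (k⁻¹ * a * h))⁻¹ := by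
    rw [map_mul, map_mul, map_inv, hh]; group
  rw [h1]; exact Y.mul_mem hw (Y.inv_mem ((hY _).mp hw))

theorem claim3b {X : Type*} [Group X] (τ : MulAut X) (Y : Subgroup X)
    (hY : ∀ y : X, y ∈ Y ↔ τ y ∈ Y) (a k h : X) (hk : τ k = k) (hh : τ h = h)
    (hw : k⁻¹ * a * h ∈ Y) :
    h⁻¹ * ((τ a)⁻¹ * a) * h ∈ Y := by
  have h1 : h⁻¹ * ((τ a)⁻¹ * a) * h = (τ (k⁻¹ * a * h))⁻¹ * (k⁻¹ * a * h) := by
    rw [map_mul, map_mul, map_inv, hh, hk]; group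
  rw [h1]; exact Y.mul_mem (Y.inv_mem ((hY _).mp hw)) hw

theorem card1 {X : Type*} [Group X] (σ : MulAut X) (e : ℕ) (Y : Subgroup X)
    (hY : ∀ y : X, y ∈ Y ↔ σ y ∈ Y)
    (hYL : ∀ y ∈ Y, ∃ a ∈ Y, y = a * (σ a)⁻¹) (a : X) :
    Nat.card {p : X × X // (σ ^ e) p.1 = p.1 ∧ σ p.2 = p.2 ∧ p.1⁻¹ * a * p.2 ∈ Y} =
      Nat.card {k : ↥((MulEquiv.toMonoidHom (σ ^ e)).eqLocus (MonoidHom.id X)) //
          (k : X)⁻¹ * (a * (σ a)⁻¹) * σ k ∈ Y} *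
        Nat.card ↥(Y ⊓ (MulEquiv.toMonoidHom σ).eqLocus (MonoidHom.id X)) := by
  classical
  have H : ∀ k : X, ∃ h : X, k⁻¹ * (a * (σ a)⁻¹) * σ k ∈ Y → (σ h = h ∧ k⁻¹ * a * h ∈ Y) := by
    intro k
    by_cases hk : k⁻¹ * (a * (σ a)⁻¹) * σ k ∈ Y
    · obtain ⟨h, h1, h2⟩ := claim1 σ Y hYL a k hk
      exact ⟨h, fun _ => ⟨h1, h2⟩⟩
    · exact ⟨1, fun h => absurd h hk⟩
  choose h0 hh0 using H
  rw [← Nat.card_prod]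
  refine Nat.card_congr ⟨fun w => (⟨⟨w.1.1, w.2.1⟩, claim3a σ Y hY a w.1.1 w.1.2 w.2.2.1 w.2.2.2⟩,
    ⟨(h0 w.1.1)⁻¹ * w.1.2, ?_⟩), fun q => ⟨((q.1.1 : X), h0 q.1.1 * (q.2 : X)), ?_⟩, ?_, ?_⟩
  · have hk := claim3a σ Y hY a w.1.1 w.1.2 w.2.2.1 w.2.2.2
    obtain ⟨h1, h2⟩ := hh0 w.1.1 hk
    refine Subgroup.mem_inf.mpr ⟨?_, ?_⟩
    · have h3 : (h0 w.1.1)⁻¹ * w.1.2 = (w.1.1⁻¹ * a * h0 w.1.1)⁻¹ * (w.1.1⁻¹ * a * w.1.2) := by group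
      rw [h3]; exact Y.mul_mem (Y.inv_mem h2) w.2.2.2
    · show σ ((h0 w.1.1)⁻¹ * w.1.2) = (h0 w.1.1)⁻¹ * w.1.2
      rw [map_mul, map_inv, h1, w.2.2.1]
  · obtain ⟨h1, h2⟩ := hh0 q.1.1 q.1.2
    have hy := Subgroup.mem_inf.mp q.2.2
    have hy2 : σ (q.2 : X) = (q.2 : X) := hy.2
    refine ⟨q.1.1.2, ?_, ?_⟩
    · show σ (h0 q.1.1 * (q.2 : X)) = h0 q.1.1 * (q.2 : X)
      rw [map_mul, h1, hy2]
    · show (q.1.1 : X)⁻¹ * a * (h0 q.1.1 * (q.2 : X)) ∈ Y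
      have h3 : (q.1.1 : X)⁻¹ * a * (h0 q.1.1 * (q.2 : X)) = ((q.1.1 : X)⁻¹ * a * h0 q.1.1) * (q.2 : X) := by group
      rw [h3]; exact Y.mul_mem h2 hy.1
  · intro w
    apply Subtype.ext
    apply Prod.ext
    · rfl
    · show h0 w.1.1 * ((h0 w.1.1)⁻¹ * w.1.2) = w.1.2
      group
  · intro q
    apply Prod.ext
    · rfl
    · apply Subtype.ext
      show (h0 q.1.1)⁻¹ * (h0 q.1.1 * (q.2 : X)) = (q.2 : X)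
      group

theorem card2 {X : Type*} [Group X] (σ : MulAut X) (e : ℕ) (Y : Subgroup X)
    (hY : ∀ y : X, y ∈ Y ↔ σ y ∈ Y)
    (hYLe : ∀ y ∈ Y, ∃ a ∈ Y, y = a * ((σ ^ e) a)⁻¹) (a : X) :
    Nat.card {p : X × X // (σ ^ e) p.1 = p.1 ∧ σ p.2 = p.2 ∧ p.1⁻¹ * a * p.2 ∈ Y} =
      Nat.card {h : ↥((MulEquiv.toMonoidHom σ).eqLocus (MonoidHom.id X)) //
          (h : X)⁻¹ * (((σ ^ e) a)⁻¹ * a) * h ∈ Y} *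
        Nat.card ↥(Y ⊓ (MulEquiv.toMonoidHom (σ ^ e)).eqLocus (MonoidHom.id X)) := by
  classical
  have hYτ : ∀ y : X, y ∈ Y ↔ (σ ^ e) y ∈ Y := pow_mem_iff σ Y hY e
  have H : ∀ h : X, ∃ k : X, (σ h = h ∧ h⁻¹ * (((σ ^ e) a)⁻¹ * a) * h ∈ Y) →
      ((σ ^ e) k = k ∧ k⁻¹ * a * h ∈ Y) := by
    intro h
    by_cases hk : σ h = h ∧ h⁻¹ * (((σ ^ e) a)⁻¹ * a) * h ∈ Y
    · obtain ⟨k, h1, h2⟩ := claim2 (σ ^ e) Y hYLe a h (pow_fix σ h hk.1 e) hk.2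
      exact ⟨k, fun _ => ⟨h1, h2⟩⟩
    · exact ⟨1, fun h => absurd h hk⟩
  choose k0 hk0 using H
  rw [← Nat.card_prod]
  refine Nat.card_congr ⟨fun w => (⟨⟨w.1.2, w.2.2.1⟩,
      claim3b (σ ^ e) Y hYτ a w.1.1 w.1.2 w.2.1 (pow_fix σ _ w.2.2.1 e) w.2.2.2⟩,
    ⟨(k0 w.1.2)⁻¹ * w.1.1, ?_⟩), fun q => ⟨(k0 q.1.1 * (q.2 : X), (q.1.1 : X)), ?_⟩, ?_, ?_⟩
  · have hk := claim3b (σ ^ e) Y hYτ a w.1.1 w.1.2 w.2.1 (pow_fix σ _ w.2.2.1 e) w.2.2.2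
    obtain ⟨h1, h2⟩ := hk0 w.1.2 ⟨w.2.2.1, hk⟩
    refine Subgroup.mem_inf.mpr ⟨?_, ?_⟩
    · have h3 : (k0 w.1.2)⁻¹ * w.1.1 = ((k0 w.1.2)⁻¹ * a * w.1.2) * (w.1.1⁻¹ * a * w.1.2)⁻¹ := by group
      rw [h3]; exact Y.mul_mem h2 (Y.inv_mem w.2.2.2)
    · show (σ ^ e) ((k0 w.1.2)⁻¹ * w.1.1) = (k0 w.1.2)⁻¹ * w.1.1
      rw [map_mul, map_inv, h1, w.2.1]
  · have hq1 : σ (q.1.1 : X) = (q.1.1 : X) := q.1.1.2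
    obtain ⟨h1, h2⟩ := hk0 q.1.1 ⟨hq1, q.1.2⟩
    have hy := Subgroup.mem_inf.mp q.2.2
    have hy2 : (σ ^ e) (q.2 : X) = (q.2 : X) := hy.2
    refine ⟨?_, hq1, ?_⟩
    · show (σ ^ e) (k0 q.1.1 * (q.2 : X)) = k0 q.1.1 * (q.2 : X)
      rw [map_mul, h1, hy2]
    · show (k0 q.1.1 * (q.2 : X))⁻¹ * a * (q.1.1 : X) ∈ Y
      have h3 : (k0 q.1.1 * (q.2 : X))⁻¹ * a * (q.1.1 : X) = (q.2 : X)⁻¹ * ((k0 q.1.1)⁻¹ * a * (q.1.1 : X)) := by group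
      rw [h3]; exact Y.mul_mem (Y.inv_mem hy.1) h2
  · intro w
    apply Subtype.ext
    apply Prod.ext
    · show k0 w.1.2 * ((k0 w.1.2)⁻¹ * w.1.1) = w.1.1
      group
    · rfl
  · intro q
    apply Prod.ext
    · rfl
    · apply Subtype.ext
      show (k0 q.1.1)⁻¹ * (k0 q.1.1 * (q.2 : X)) = (q.2 : X)
      group

theorem result {X : Type*} [Group X] (σ : MulAut X) (e : ℕ) (he : 1 ≤ e)
    [Finite ↥((MulEquiv.toMonoidHom (σ ^ e)).eqLocus (MonoidHom.id X))]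
    (Y : Subgroup X) (hY : ∀ y : X, y ∈ Y ↔ σ y ∈ Y)
    (hYL : ∀ y ∈ Y, ∃ a ∈ Y, y = a * (σ a)⁻¹) (hYLe : ∀ y ∈ Y, ∃ a ∈ Y, y = a * ((σ ^ e) a)⁻¹)
    (g : X) (hg : g ∈ (MulEquiv.toMonoidHom (σ ^ e)).eqLocus (MonoidHom.id X)) (a : X) (ha : g = a * (σ a)⁻¹) :
    Nat.card {k : ↥((MulEquiv.toMonoidHom (σ ^ e)).eqLocus (MonoidHom.id X)) // (k : X)⁻¹ * g * σ k ∈ Y} *
        Nat.card ↥(Y ⊓ (MulEquiv.toMonoidHom σ).eqLocus (MonoidHom.id X)) =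
      Nat.card {h : ↥((MulEquiv.toMonoidHom σ).eqLocus (MonoidHom.id X)) // (h : X)⁻¹ * (((σ ^ e) a)⁻¹ * a) * h ∈ Y} *
        Nat.card ↥(Y ⊓ (MulEquiv.toMonoidHom (σ ^ e)).eqLocus (MonoidHom.id X)) := by
  subst ha
  rw [← card1 σ e Y hY hYL a, ← card2 σ e Y hY hYLe a]

end Cfsg.Agent.S2669
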