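import Cfsg.Statements.S2671
import Cfsg.Agent.Lib.Helper15.CycC
import Cfsg.Agent.Lib.Helper15.LawUnitary
open Cfsg.Agent.Lib.Helper15

set_option autoImplicit false
open Cfsg

namespace Cfsg.Agent.S2671

/-- Number of conjugacy classes of elements of odd prime order r in the general unitary group GU_n(q), for r not dividing q(q + 1): let i be the multiplicative order of q modulo r, b = i if i is odd and b = i/2 if i is even, and s = (r − 1)/b. If i ≢ 2 (mod 4) the eigenvalue orbits pair off into dual pairs of totally isotropic blocks and there are C(⌊n/(2b)⌋ + s/2, s/2) − 1 classes; if i ≡ 2 (mod 4) each orbit gives a non-degenerate block of dimension i/2 and there are C(⌊2n/i⌋ + s, s) − 1 classes. -/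
theorem result {K : Type*} [Field K] [Fintype K] {p q n r i b s : ℕ} [Fact p.Prime] [CharP K p] (hK : Fintype.card K = q ^ 2) (hr : r.Prime) (hr2 : r ≠ 2) (hrp : r ≠ p) (hi : i = orderOf (q : ZMod r)) (hi2 : i ≠ 2) (hb : b = if Odd i then i else i / 2) (hs : s * b = r - 1) : Nat.card {C : ConjClasses ↥(Cfsg.GU n K q) // ∃ g : ↥(Cfsg.GU n K q), ConjClasses.mk g = C ∧ orderOf g = r} = if i % 4 = 2 then Nat.choose (2 * n / i + s) s - 1 else Nat.choose (n / (2 * b) + s / 2) (s / 2) - 1 := by
  classical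
  have hp : p.Prime := Fact.out
  obtain ⟨φ, hφq, hφ⟩ := exists_frob hK
  have hrq : ¬ r ∣ q := by
    intro hdvd
    obtain ⟨k, -, hk⟩ := FiniteField.card K p
    have h1 : r ∣ p ^ (k : ℕ) := by
      rw [← hk, hK]
      exact Dvd.dvd.pow hdvd two_ne_zero
    exact hrp ((Nat.prime_dvd_prime_iff_eq hr hp).mp (hr.dvd_of_dvd_pow h1))
  have : Fact r.Prime := ⟨hr⟩
  have hx0 : (q : ZMod r) ≠ 0 := by
    rw [Ne, ZMod.natCast_eq_zero_iff]
    exact hrq
  have hi0 : 0 < i := by
    rw [hi]
    obtain ⟨u, hu⟩ := isUnit_iff_ne_zero.mpr hx0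
    rw [← hu, orderOf_units]
    exact orderOf_pos u
  have hgcd : Nat.gcd i 2 = if i % 2 = 0 then 2 else 1 := by
    rcases Nat.mod_two_eq_zero_or_one i with h | h
    · rw [if_pos h, Nat.gcd_comm, Nat.gcd_rec, h]
      rfl
    · rw [if_neg (by omega), Nat.gcd_comm, Nat.gcd_rec, h]
      rfl
  have hb2 : b = i / Nat.gcd i 2 := by
    rw [hb, hgcd]
    by_cases hodd : Odd i
    · have h1 : i % 2 = 1 := Nat.odd_iff.mp hodd
      rw [if_pos hodd, if_neg (by omega), Nat.div_one]
    · have h1 : i % 2 = 0 := by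
        rcases Nat.mod_two_eq_zero_or_one i with h | h
        · exact h
        · exact absurd (Nat.odd_iff.mpr h) hodd
      rw [if_neg hodd, if_pos h1]
  have hb' : b = orderOf ((Fintype.card K : ℕ) : ZMod r) := by
    rw [hK, Nat.cast_pow, orderOf_pow' _ two_ne_zero, ← hi]
    exact hb2
  have hb0 : 0 < b := by
    rcases Nat.eq_zero_or_pos b with h0 | h0
    · exfalso
      rw [h0, mul_zero] at hs
      have := hr.one_lt
      omega
    · exact h0
  obtain ⟨h, hinj, hirr, hmon, hdiv, hall, h0, hdeg, hcyc⟩ :=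
    Semi.cyc_family (F := K) p r hr hrp b s hb' hs
  have hd0 : (h 0).natDegree = 1 := by
    rw [h0]
    have e1 : (Polynomial.X - 1 : Polynomial K) = Polynomial.X - Polynomial.C 1 := by
      rw [map_one]
    rw [e1]
    exact Polynomial.natDegree_X_sub_C 1
  have hex := fun j => Semi.exists_dual_index φ hφ r hr.pos h hirr hmon hdiv hall j
  choose σ hσ using hex
  have hc0 : ∀ j, (h j).coeff 0 ≠ 0 := fun j => Semi.coeff_zero_ne_of_dvd r hr.pos _ (hdiv j)
  have hσσ : ∀ j, σ (σ j) = j := by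
    intro j
    apply hinj
    rw [hσ, hσ, Semi.dual_dual φ hφ _ (hmon j) (hc0 j)]
  have hσ0 : σ 0 = 0 := by
    apply hinj
    rw [hσ, h0, Semi.dual_X_sub_one]
  have hsd : ∀ j : Fin s, (σ j.succ = j.succ ↔ i % 4 = 2) := by
    intro j
    rw [hi, ← Semi.neg_mem_sq_iff r q hr hr2 hrq,
      ← Semi.selfdual_iff_cyc hK φ hφq p r b hr hrp (h j.succ) (hmon _) (hirr _) (hcyc j) hb'
        (hdeg j)]
    constructor
    · intro h1
      rw [← hσ, h1]
    · intro h1
      apply hinj
      rw [hσ, h1]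
  rw [Semi.order_classes_card r hr,
    Semi.gu_pow_classes hK φ hφq hφ p n r hr hrp h hinj hirr hmon hdiv hall σ hσ]
  split_ifs with h4
  · have hσid : ∀ j, σ j = j := by
      intro j
      induction j using Fin.cases with
      | zero => exact hσ0
      | succ j => exact (hsd j).mpr h4
    have e1 : Nat.card {a : Fin (s + 1) → ℕ // (∑ j, a j * (h j).natDegree = n) ∧
        ∀ j, a (σ j) = a j} =
        Nat.card {a : Fin (s + 1) → ℕ // ∑ j, a j * (h j).natDegree = n} := by
      apply Nat.card_congr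
      exact Equiv.subtypeEquivRight
        (fun a => ⟨fun h1 => h1.1, fun h1 => ⟨h1, fun j => by rw [hσid]⟩⟩)
    rw [e1, Semi.card_exponents n b s hb0 (fun j => (h j).natDegree) hd0 hdeg]
    have hi2b : i = 2 * b := by
      have h5 : i % 2 = 0 := by omega
      rw [hb2, hgcd, if_pos h5]
      omega
    have e2 : n / b = 2 * n / i := by
      rw [hi2b, Nat.mul_div_mul_left _ _ (by norm_num : 0 < 2)]
    rw [e2]
  · have hfix : ∀ j : Fin s, σ j.succ ≠ j.succ := fun j hj => h4 ((hsd j).mp hj)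
    rw [Semi.card_exponents_invol n b s hb0 (fun j => (h j).natDegree) hd0 hdeg σ hσ0 hσσ hfix]

end Cfsg.Agent.S2671
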