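import Cfsg.Statements.S2722
import Cfsg.Agent.Lib.Helper16.OrthAutG

set_option autoImplicit false
open Cfsg

namespace Cfsg.Agent.S2722

open Cfsg.Agent.Lib.Helper16

/-- Let T = PΩ⁺_{2m}(F) with m ≥ 4 and |F| = q odd. Inside Aut(T), the image G̃ of the conformal orthogonal group of the form modulo the image of the special orthogonal group is elementary abelian of order 4. -/
theorem result {F : Type*} [Field F] [Fintype F] (hodd : Odd (Fintype.card F)) {m : ℕ} (hm : 4 ≤ m) :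
    (∃ φ : ↥(Cfsg.pgoAut F (Cfsg.quadFormPlus m F)) →* Multiplicative (ZMod 2 × ZMod 2), Function.Surjective φ ∧ φ.ker = (Cfsg.psoAut F (Cfsg.quadFormPlus m F)).subgroupOf (Cfsg.pgoAut F (Cfsg.quadFormPlus m F))) := by
  classical
  have h2 : (2 : F) ≠ 0 := oa_two_ne_zero hodd
  have hc : Fintype.card (Fin m ⊕ Fin m) = 2 * m := by
    simp only [Fintype.card_sum, Fintype.card_fin]
    omega
  have hQ := qfPlus_nondeg m F
  obtain ⟨lam, hlam⟩ := FiniteField.exists_nonsquare (ringChar_ne_two_of h2)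
  have hlam0 : lam ≠ 0 := by
    rintro rfl
    exact hlam IsSquare.zero
  obtain ⟨v₀, hv₀1⟩ := exists_quad_eq (qfPlus m F) h2 hQ (by rw [hc]; omega) 1
  have hv₀ : qfPlus m F v₀ ≠ 0 := by rw [hv₀1]; exact one_ne_zero
  obtain ⟨d, hd1, hd2⟩ := oa_plus_delta m F lam hlam0 hv₀
  exact oa_klein' (qfPlus m F) h2 hQ (by rw [hc]; omega) hc
    ⟨d, by rw [hd1]; exact hlam, by rw [hd1, hd2]⟩ _ (qfPlus_coe m F)

end Cfsg.Agent.S2722
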