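import Cfsg.Statements.S2723
import Cfsg.Agent.Lib.Helper16.OrthAutH
import Cfsg.Agent.Lib.Helper16.OrthAutG
import Cfsg.Agent.S0790

set_option autoImplicit false
open Cfsg

namespace Cfsg.Agent.S2723

open Cfsg.Agent.Lib.Helper16

/-- Let T = PΩ⁺_{2m}(F) with m ≥ 4 and |F| = q odd. The image of the special orthogonal group in Aut(T) contains the inner automorphism group T with index 1 (they coincide) when m is odd and q ≡ 3 (mod 4), and with index 2 otherwise (the index is 2 exactly when the discriminant of the form is a square). -/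
theorem result {F : Type*} [Field F] [Fintype F] (hodd : Odd (Fintype.card F)) {m : ℕ} (hm : 4 ≤ m) :
    ((Odd m ∧ Fintype.card F % 4 = 3) → (Cfsg.Inn (Cfsg.POmega F (Cfsg.quadFormPlus m F))).relIndex (Cfsg.psoAut F (Cfsg.quadFormPlus m F)) = 1) ∧ (¬ (Odd m ∧ Fintype.card F % 4 = 3) → (Cfsg.Inn (Cfsg.POmega F (Cfsg.quadFormPlus m F))).relIndex (Cfsg.psoAut F (Cfsg.quadFormPlus m F)) = 2) := by
  classical
  have h2 : (2 : F) ≠ 0 := oa_two_ne_zero hodd
  have hc : Fintype.card (Fin m ⊕ Fin m) = 2 * m := by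
    simp only [Fintype.card_sum, Fintype.card_fin]
    omega
  have hQ := qfPlus_nondeg m F
  have hneg := Cfsg.Agent.S0790.result (F := F) rfl hodd m (by omega)
  have hq4 : Fintype.card F % 4 = 1 ∨ Fintype.card F % 4 = 3 := by
    rcases hodd with ⟨j, hj⟩
    omega
  constructor
  · rintro ⟨⟨j, rfl⟩, hq⟩
    have hpow : Fintype.card F ^ (2 * j + 1) % 4 = 3 := by
      rw [Nat.pow_mod, hq, pow_succ, pow_mul, Nat.mul_mod, Nat.pow_mod]
      norm_num
    exact oa_relIndex_one' (qfPlus (2 * j + 1) F) h2 hQ (by rw [hc]; omega)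
      (by rw [hc]; exact even_two_mul _) _ (qfPlus_coe _ F)
      (fun h => by have := hneg.1 h; omega)
  · intro hno
    have hpow : Fintype.card F ^ m % 4 = 1 := by
      rcases hq4 with hq | hq
      · rw [Nat.pow_mod, hq]
        simp
      · rcases Nat.even_or_odd m with ⟨j, rfl⟩ | hmo
        · rw [← two_mul, Nat.pow_mod, hq, pow_mul, Nat.pow_mod]
          norm_num
        · exact absurd ⟨hmo, hq⟩ hno
    exact oa_relIndex_two' (qfPlus m F) h2 hQ (by rw [hc]; omega) _ (qfPlus_coe m F)
      (hneg.2 hpow)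

end Cfsg.Agent.S2723
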