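import Cfsg.Statements.S2724
import Cfsg.Agent.Lib.Helper16.OrthAutI
import Cfsg.Agent.Lib.Helper16.OrthAutG
import Cfsg.Agent.S0790

set_option autoImplicit false
open Cfsg

namespace Cfsg.Agent.S2724

open Cfsg.Agent.Lib.Helper16

/-- Let T = PΩ⁺_{2m}(F) with m ≥ 4 and |F| = q odd. The image G̃ of the conformal orthogonal group in Aut(T), taken modulo the inner automorphism group T, is elementary abelian of order 4 when m is odd and q ≡ 3 (mod 4), and dihedral of order 8 otherwise. -/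
theorem result {F : Type*} [Field F] [Fintype F] (hodd : Odd (Fintype.card F)) {m : ℕ} (hm : 4 ≤ m) :
    ((Odd m ∧ Fintype.card F % 4 = 3) → (∃ φ : ↥(Cfsg.pgoAut F (Cfsg.quadFormPlus m F)) →* Multiplicative (ZMod 2 × ZMod 2), Function.Surjective φ ∧ φ.ker = (Cfsg.Inn (Cfsg.POmega F (Cfsg.quadFormPlus m F))).subgroupOf (Cfsg.pgoAut F (Cfsg.quadFormPlus m F)))) ∧ (¬ (Odd m ∧ Fintype.card F % 4 = 3) → (∃ φ : ↥(Cfsg.pgoAut F (Cfsg.quadFormPlus m F)) →* DihedralGroup 4, Function.Surjective φ ∧ φ.ker = (Cfsg.Inn (Cfsg.POmega F (Cfsg.quadFormPlus m F))).subgroupOf (Cfsg.pgoAut F (Cfsg.quadFormPlus m F)))) := by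
  classical
  have h2 : (2 : F) ≠ 0 := oa_two_ne_zero hodd
  have hc : Fintype.card (Fin m ⊕ Fin m) = 2 * m := by
    simp only [Fintype.card_sum, Fintype.card_fin]
    omega
  have hQ := qfPlus_nondeg m F
  obtain ⟨lam, hlam⟩ := FiniteField.exists_nonsquare (ringChar_ne_two_of h2)
  have hlam0 : lam ≠ 0 := by
    rintro rfl
    exact hlam IsSquare.zero
  obtain ⟨v₀, hv₀1⟩ := exists_quad_eq (qfPlus m F) h2 hQ (by rw [hc]; omega) 1
  have hv₀ : qfPlus m F v₀ ≠ 0 := by rw [hv₀1]; exact one_ne_zero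
  obtain ⟨d, hd1, hd2⟩ := oa_plus_delta m F lam hlam0 hv₀
  have hn : 5 ≤ Fintype.card (Fin m ⊕ Fin m) := by rw [hc]; omega
  have hdd : ∃ (d : ↥(Cfsg.Geo.quadSimilarityGroup (F := F) (⇑(qfPlus m F)))),
      ¬ IsSquare (simMul (qfPlus m F) d : F) ∧
      ((d : Matrix.GeneralLinearGroup (Fin m ⊕ Fin m) F) :
        Matrix (Fin m ⊕ Fin m) (Fin m ⊕ Fin m) F).det = (simMul (qfPlus m F) d : F) ^ m :=
    ⟨d, by rw [hd1]; exact hlam, by rw [hd1, hd2]⟩
  have hneg := Cfsg.Agent.S0790.result (F := F) rfl hodd m (by omega)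
  have hq4 : Fintype.card F % 4 = 1 ∨ Fintype.card F % 4 = 3 := by
    rcases hodd with ⟨j, hj⟩
    omega
  constructor
  · rintro ⟨hmo, hq⟩
    have hpow : Fintype.card F ^ m % 4 = 3 := by
      obtain ⟨j, hj⟩ := hmo
      rw [hj, Nat.pow_mod, hq, pow_succ, pow_mul, Nat.mul_mod, Nat.pow_mod]
      norm_num
    exact oa_klein_inn' (qfPlus m F) h2 hQ hn hc hdd _ (qfPlus_coe m F)
      (fun h => by have := hneg.1 h; omega)
  · intro hno
    have hpow : Fintype.card F ^ m % 4 = 1 := by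
      rcases hq4 with hq | hq
      · rw [Nat.pow_mod, hq]
        simp
      · rcases Nat.even_or_odd m with ⟨j, hj⟩ | hmo
        · rw [hj, ← two_mul, Nat.pow_mod, hq, pow_mul, Nat.pow_mod]
          norm_num
        · exact absurd ⟨hmo, hq⟩ hno
    exact oa_dihedral' (qfPlus m F) h2 hQ hn hc hdd _ (qfPlus_coe m F) (hneg.2 hpow)

end Cfsg.Agent.S2724
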