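import Cfsg.Statements.S2726
import Cfsg.Agent.Lib.Helper16.OrthAutG

set_option autoImplicit false
open Cfsg

namespace Cfsg.Agent.S2726

open Cfsg.Agent.Lib.Helper16

/-- Let T = PΩ⁻_{2m+2}(F) with m ≥ 3 and |F| = q odd (form with anisotropic binary part). Inside Aut(T), the image G̃ of the conformal orthogonal group of the form modulo the image of the special orthogonal group is elementary abelian of order 4. -/
theorem result {F : Type*} [Field F] [Fintype F] (hodd : Odd (Fintype.card F)) {m : ℕ} (hm : 3 ≤ m) (a b : F) (hab : (∀ z₁ z₂ : F, z₁ ^ 2 + a * z₁ * z₂ + b * z₂ ^ 2 = 0 → z₁ = 0 ∧ z₂ = 0)) :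
    (∃ φ : ↥(Cfsg.pgoAut F (Cfsg.quadFormMinus m F a b)) →* Multiplicative (ZMod 2 × ZMod 2), Function.Surjective φ ∧ φ.ker = (Cfsg.psoAut F (Cfsg.quadFormMinus m F a b)).subgroupOf (Cfsg.pgoAut F (Cfsg.quadFormMinus m F a b))) := by
  classical
  have h2 : (2 : F) ≠ 0 := oa_two_ne_zero hodd
  have hc : Fintype.card ((Fin m ⊕ Fin m) ⊕ Fin 2) = 2 * (m + 1) := by
    simp only [Fintype.card_sum, Fintype.card_fin]
    omega
  have hQ := qfMinus_nondeg m F a b h2 hab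
  obtain ⟨lam, hlam⟩ := FiniteField.exists_nonsquare (ringChar_ne_two_of h2)
  have hlam0 : lam ≠ 0 := by
    rintro rfl
    exact hlam IsSquare.zero
  obtain ⟨v₀, hv₀1⟩ := exists_quad_eq (qfMinus m F a b) h2 hQ (by rw [hc]; omega) 1
  have hv₀ : qfMinus m F a b v₀ ≠ 0 := by rw [hv₀1]; exact one_ne_zero
  obtain ⟨d, hd1, hd2⟩ := oa_minus_delta m F a b h2 hab lam hlam0 hv₀
  have hn : 5 ≤ Fintype.card ((Fin m ⊕ Fin m) ⊕ Fin 2) := by rw [hc]; omega
  have hdd : ∃ (d : ↥(Cfsg.Geo.quadSimilarityGroup (F := F) (⇑(qfMinus m F a b)))),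
      ¬ IsSquare (simMul (qfMinus m F a b) d : F) ∧
      ((d : Matrix.GeneralLinearGroup ((Fin m ⊕ Fin m) ⊕ Fin 2) F) : Matrix ((Fin m ⊕ Fin m) ⊕ Fin 2) ((Fin m ⊕ Fin m) ⊕ Fin 2) F).det = (simMul (qfMinus m F a b) d : F) ^ (m+1) := ⟨d, by rw [hd1]; exact hlam, by rw [hd1, hd2]⟩
  exact oa_klein' (qfMinus m F a b) h2 hQ hn hc hdd _ (qfMinus_coe m F a b)

end Cfsg.Agent.S2726
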