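import Cfsg.Statements.S2727
import Cfsg.Agent.Lib.Helper16.OrthAutH
import Cfsg.Agent.Lib.Helper16.OrthAutG
import Cfsg.Agent.S0791

set_option autoImplicit false
open Cfsg

namespace Cfsg.Agent.S2727

open Cfsg.Agent.Lib.Helper16

/-- Let T = PΩ⁻_{2m+2}(F) with m ≥ 3 and |F| = q odd (form with anisotropic binary part). The image of the special orthogonal group in Aut(T) contains the inner automorphism group T with index 2 when m is even and q ≡ 3 (mod 4), and coincides with it otherwise (the index is 2 exactly when the discriminant of the form is a square). -/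
theorem result {F : Type*} [Field F] [Fintype F] (hodd : Odd (Fintype.card F)) {m : ℕ} (hm : 3 ≤ m) (a b : F) (hab : (∀ z₁ z₂ : F, z₁ ^ 2 + a * z₁ * z₂ + b * z₂ ^ 2 = 0 → z₁ = 0 ∧ z₂ = 0)) :
    ((Even m ∧ Fintype.card F % 4 = 3) → (Cfsg.Inn (Cfsg.POmega F (Cfsg.quadFormMinus m F a b))).relIndex (Cfsg.psoAut F (Cfsg.quadFormMinus m F a b)) = 2) ∧ (¬ (Even m ∧ Fintype.card F % 4 = 3) → (Cfsg.Inn (Cfsg.POmega F (Cfsg.quadFormMinus m F a b))).relIndex (Cfsg.psoAut F (Cfsg.quadFormMinus m F a b)) = 1) := by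
  classical
  have h2 : (2 : F) ≠ 0 := oa_two_ne_zero hodd
  have hc : Fintype.card ((Fin m ⊕ Fin m) ⊕ Fin 2) = 2 * (m + 1) := by
    simp only [Fintype.card_sum, Fintype.card_fin]
    omega
  have hQ := qfMinus_nondeg m F a b h2 hab
  have hneg := Cfsg.Agent.S0791.result (F := F) rfl hodd (m + 1) (by omega) a b hab
  simp only [Nat.add_one_sub_one] at hneg
  have hq4 : Fintype.card F % 4 = 1 ∨ Fintype.card F % 4 = 3 := by
    rcases hodd with ⟨j, hj⟩
    omega
  constructor
  · rintro ⟨⟨j, rfl⟩, hq⟩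
    have hpow : Fintype.card F ^ (j + j + 1) % 4 = 3 := by
      rw [← two_mul, Nat.pow_mod, hq, pow_succ, pow_mul, Nat.mul_mod, Nat.pow_mod]
      norm_num
    exact oa_relIndex_two' (qfMinus (j + j) F a b) h2 hQ (by rw [hc]; omega) _
      (qfMinus_coe _ F a b) (hneg.2 hpow)
  · intro hno
    have hpow : Fintype.card F ^ (m + 1) % 4 = 1 := by
      rcases hq4 with hq | hq
      · rw [Nat.pow_mod, hq]
        simp
      · rcases Nat.even_or_odd m with hme | ⟨j, rfl⟩
        · exact absurd ⟨hme, hq⟩ hno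
        · have e : 2 * j + 1 + 1 = 2 * (j + 1) := by ring
          rw [e, Nat.pow_mod, hq, pow_mul, Nat.pow_mod]
          norm_num
    exact oa_relIndex_one' (qfMinus m F a b) h2 hQ (by rw [hc]; omega)
      (by rw [hc]; exact even_two_mul _) _ (qfMinus_coe m F a b)
      (fun h => by have := hneg.1 h; omega)

end Cfsg.Agent.S2727
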