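import Cfsg.Statements.S2729
import Cfsg.Agent.Lib.Helper16.OrthAutK
import Cfsg.Agent.S0791

set_option autoImplicit false
open Cfsg

namespace Cfsg.Agent.S2729

open Cfsg.Agent.Lib.Helper16

set_option maxHeartbeats 1600000 in

/-- Let T = PΩ⁻_{2m+2}(F) with m ≥ 3 and |F| = q odd (form with anisotropic binary part). The inner-diagonal group G = Inndiag(T) (image of the class-preserving similarities) taken modulo the inner automorphism group T is cyclic of order 4 when m is even and q ≡ 3 (mod 4), and of order 2 otherwise. -/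
theorem result {F : Type*} [Field F] [Fintype F] (hodd : Odd (Fintype.card F)) {m : ℕ} (hm : 3 ≤ m) (a b : F) (hab : (∀ z₁ z₂ : F, z₁ ^ 2 + a * z₁ * z₂ + b * z₂ ^ 2 = 0 → z₁ = 0 ∧ z₂ = 0)) :
    ((Even m ∧ Fintype.card F % 4 = 3) → (∃ φ : ↥(Cfsg.inndiagPOmegaMinus m F a b) →* Multiplicative (ZMod 4), Function.Surjective φ ∧ φ.ker = (Cfsg.Inn (Cfsg.POmega F (Cfsg.quadFormMinus m F a b))).subgroupOf (Cfsg.inndiagPOmegaMinus m F a b))) ∧ (¬ (Even m ∧ Fintype.card F % 4 = 3) → (∃ φ : ↥(Cfsg.inndiagPOmegaMinus m F a b) →* Multiplicative (ZMod 2), Function.Surjective φ ∧ φ.ker = (Cfsg.Inn (Cfsg.POmega F (Cfsg.quadFormMinus m F a b))).subgroupOf (Cfsg.inndiagPOmegaMinus m F a b))) := by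
  classical
  have h2 : (2 : F) ≠ 0 := oa_two_ne_zero hodd
  have hc : Fintype.card ((Fin m ⊕ Fin m) ⊕ Fin 2) = 2 * (m + 1) := by
    simp only [Fintype.card_sum, Fintype.card_fin]
    omega
  have hQ := qfMinus_nondeg m F a b h2 hab
  obtain ⟨lam, hlam⟩ := FiniteField.exists_nonsquare (ringChar_ne_two_of h2)
  have hlam0 : lam ≠ 0 := by
    rintro rfl
    exact hlam IsSquare.zero
  obtain ⟨v₀, hv₀1⟩ := exists_quad_eq (qfMinus m F a b) h2 hQ (by rw [hc]; omega) 1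
  have hv₀ : qfMinus m F a b v₀ ≠ 0 := by rw [hv₀1]; exact one_ne_zero
  obtain ⟨d, hd1, hd2⟩ := oa_minus_delta m F a b h2 hab lam hlam0 hv₀
  have hn : 5 ≤ Fintype.card ((Fin m ⊕ Fin m) ⊕ Fin 2) := by rw [hc]; omega
  have hdd : ∃ (d : ↥(Cfsg.Geo.quadSimilarityGroup (F := F) (⇑(qfMinus m F a b)))),
      ¬ IsSquare (simMul (qfMinus m F a b) d : F) ∧
      ((d : Matrix.GeneralLinearGroup ((Fin m ⊕ Fin m) ⊕ Fin 2) F) :
        Matrix ((Fin m ⊕ Fin m) ⊕ Fin 2) ((Fin m ⊕ Fin m) ⊕ Fin 2) F).det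
        = (simMul (qfMinus m F a b) d : F) ^ (m + 1) :=
    ⟨d, by rw [hd1]; exact hlam, by rw [hd1, hd2]⟩
  obtain ⟨d', hd'1, hd'2, hd'3⟩ := oa_minus_anti m F a b h2 hab lam hlam0 hv₀
  have hd'ns : ¬ IsSquare (simMul (qfMinus m F a b) d' : F) := by rw [hd'1]; exact hlam
  have hP := psc_minus_iff m a b hodd hab
  have hneg := Cfsg.Agent.S0791.result (F := F) rfl hodd (m + 1) (by omega) a b hab
  simp only [Nat.add_one_sub_one] at hneg
  have hq4 : Fintype.card F % 4 = 1 ∨ Fintype.card F % 4 = 3 := by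
    rcases hodd with ⟨j, hj⟩
    omega
  constructor
  · rintro ⟨hme, hq⟩
    have hpow : Fintype.card F ^ (m + 1) % 4 = 3 := by
      obtain ⟨j, hj⟩ := hme
      rw [hj, ← two_mul, Nat.pow_mod, hq, pow_succ, pow_mul, Nat.mul_mod, Nat.pow_mod]
      norm_num
    have hd'det : ((d' : Matrix.GeneralLinearGroup ((Fin m ⊕ Fin m) ⊕ Fin 2) F) :
        Matrix ((Fin m ⊕ Fin m) ⊕ Fin 2) ((Fin m ⊕ Fin m) ⊕ Fin 2) F).det
        = -(simMul (qfMinus m F a b) d' : F) ^ (m + 1) := by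
      rw [hd'2, hd'1, (hme.add_one).neg_one_pow]
      ring
    exact oa_inndiag_cyclic' (qfMinus m F a b) h2 hQ hn hc hdd _ hP d' hd'ns _ hd'3 hd'det _
      (qfMinus_coe m F a b) (hneg.2 hpow) _ rfl
  · intro hno
    have hpow : Fintype.card F ^ (m + 1) % 4 = 1 := by
      rcases hq4 with hq | hq
      · rw [Nat.pow_mod, hq]
        simp
      · rcases Nat.even_or_odd m with hme | ⟨j, hj⟩
        · exact absurd ⟨hme, hq⟩ hno
        · have e : m + 1 = 2 * (j + 1) := by omega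
          rw [e, Nat.pow_mod, hq, pow_mul, Nat.pow_mod]
          norm_num
    exact oa_inndiag_two' (qfMinus m F a b) h2 hQ hn hc hdd _ hP _ (qfMinus_coe m F a b)
      (fun h => by have := hneg.1 h; omega) _ rfl

end Cfsg.Agent.S2729
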