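import Cfsg.Statements.S2738
import Mathlib

set_option autoImplicit false
open Cfsg

namespace Cfsg.Agent.S2738

theorem comm_mem_of_complement {G : Type*} [Group G] (K : Subgroup G)
    (h : Subgroup.IsComplement' (Subgroup.center G) K) (a b : G) : a * b * a⁻¹ * b⁻¹ ∈ K := by
  obtain ⟨⟨⟨z₁, hz₁⟩, ⟨k₁, hk₁⟩⟩, ha⟩ := h.2 a
  obtain ⟨⟨⟨z₂, hz₂⟩, ⟨k₂, hk₂⟩⟩, hb⟩ := h.2 b
  have ha' : z₁ * k₁ = a := ha
  have hb' : z₂ * k₂ = b := hb
  have c1 : ∀ g, g * z₁ = z₁ * g := Subgroup.mem_center_iff.mp hz₁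
  have c2 : ∀ g, g * z₂ = z₂ * g := Subgroup.mem_center_iff.mp hz₂
  have e : a * b * a⁻¹ * b⁻¹ = k₁ * k₂ * k₁⁻¹ * k₂⁻¹ := by
    rw [← ha', ← hb']
    calc z₁ * k₁ * (z₂ * k₂) * (z₁ * k₁)⁻¹ * (z₂ * k₂)⁻¹
        = z₁ * (k₁ * (z₂ * k₂) * k₁⁻¹) * z₁⁻¹ * (z₂ * k₂)⁻¹ := by group
      _ = (k₁ * (z₂ * k₂) * k₁⁻¹) * (z₂ * k₂)⁻¹ := by rw [← c1, mul_inv_cancel_right]
      _ = (k₁ * z₂) * (k₂ * k₁⁻¹ * k₂⁻¹) * z₂⁻¹ := by group
      _ = z₂ * (k₁ * k₂ * k₁⁻¹ * k₂⁻¹) * z₂⁻¹ := by rw [c2]; group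
      _ = k₁ * k₂ * k₁⁻¹ * k₂⁻¹ := by rw [← c2, mul_inv_cancel_right]
  rw [e]
  exact K.mul_mem (K.mul_mem (K.mul_mem hk₁ hk₂) (K.inv_mem hk₁)) (K.inv_mem hk₂)

/-- The special linear group SL(3, 4) has centre of order 3 and does not split over it: no subgroup is a complement to the centre (so SL(3, 4) is a non-split central extension of PSL(3, 4) by a group of order 3). -/
theorem result (F : Type*) [Field F] [Fintype F] (hF : Fintype.card F = 4) : Nat.card ↥(Subgroup.center (Matrix.SpecialLinearGroup (Fin 3) F)) = 3 ∧ ¬ ∃ K : Subgroup (Matrix.SpecialLinearGroup (Fin 3) F), Subgroup.IsComplement' (Subgroup.center (Matrix.SpecialLinearGroup (Fin 3) F)) K := by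
  classical
  have hU : Fintype.card Fˣ = 3 := by rw [Fintype.card_units, hF]
  have hpow : ∀ u : Fˣ, u ^ 3 = 1 := by
    intro u
    rw [← hU]; exact pow_card_eq_one
  constructor
  · rw [Nat.card_congr (Matrix.SpecialLinearGroup.center_equiv_rootsOfUnity' (0 : Fin 3)).toEquiv]
    have htop : rootsOfUnity (Fintype.card (Fin 3)) F = ⊤ := by
      rw [eq_top_iff]
      intro u _
      rw [mem_rootsOfUnity]
      simpa using hpow u
    rw [htop, Subgroup.card_top, Nat.card_eq_fintype_card, hU]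
  · rintro ⟨K, hK⟩
    haveI : Nontrivial Fˣ := Fintype.one_lt_card_iff_nontrivial.mp (by rw [hU]; norm_num)
    obtain ⟨u, hu⟩ := exists_ne (1 : Fˣ)
    have hω3 : (u : F) ^ 3 = 1 := by
      have := congrArg Units.val (hpow u)
      simpa using this
    have hω1 : (u : F) ≠ 1 := fun h => hu (Units.ext h)
    let A : Matrix.SpecialLinearGroup (Fin 3) F :=
      ⟨!![1, 0, 0; 0, (u : F), 0; 0, 0, (u : F) ^ 2], by
        rw [Matrix.det_fin_three]; simp; rw [← hω3]; ring⟩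
    let B : Matrix.SpecialLinearGroup (Fin 3) F :=
      ⟨!![0, 1, 0; 0, 0, 1; 1, 0, 0], by rw [Matrix.det_fin_three]; simp⟩
    let z : Matrix.SpecialLinearGroup (Fin 3) F :=
      ⟨(u : F) • (1 : Matrix (Fin 3) (Fin 3) F), by simp [hω3]⟩
    have hrel : z * (A * B) = B * A := by
      apply Subtype.ext
      show ((u : F) • (1 : Matrix (Fin 3) (Fin 3) F)) *
        (!![1, 0, 0; 0, (u : F), 0; 0, 0, (u : F) ^ 2] * !![0, 1, 0; 0, 0, 1; 1, 0, 0]) =
        !![0, 1, 0; 0, 0, 1; 1, 0, 0] * !![1, 0, 0; 0, (u : F), 0; 0, 0, (u : F) ^ 2]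
      rw [Matrix.smul_mul, Matrix.one_mul]
      ext i j
      fin_cases i <;> fin_cases j <;>
        simp [Matrix.mul_apply, Fin.sum_univ_three]
      all_goals first | (rw [← hω3]; ring) | ring
    have hz : z = B * A * B⁻¹ * A⁻¹ := by
      have h1 := eq_mul_inv_of_mul_eq hrel
      rw [h1, mul_inv_rev]; group
    have hzK : z ∈ K := by
      rw [hz]; exact comm_mem_of_complement K hK B A
    have hzZ : z ∈ Subgroup.center (Matrix.SpecialLinearGroup (Fin 3) F) := by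
      rw [Subgroup.mem_center_iff]
      intro g
      apply Subtype.ext
      show g.1 * ((u : F) • (1 : Matrix (Fin 3) (Fin 3) F)) =
        ((u : F) • (1 : Matrix (Fin 3) (Fin 3) F)) * g.1
      rw [Matrix.mul_smul, Matrix.smul_mul, Matrix.mul_one, Matrix.one_mul]
    have hz1 : z = 1 := by
      have := hK.disjoint.le_bot (Subgroup.mem_inf.mpr ⟨hzZ, hzK⟩)
      exact Subgroup.mem_bot.mp this
    apply hω1
    have h2 := congrArg (fun M : Matrix.SpecialLinearGroup (Fin 3) F => M.1 0 0) hz1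
    simpa [z] using h2

end Cfsg.Agent.S2738
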