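import Cfsg.Statements.S2760
import Cfsg.Agent.Lib.Helper17.PCore

set_option autoImplicit false
open Cfsg

namespace Cfsg.Agent.S2760

open Cfsg.Agent.Lib.Helper17

/-- Let G be a finite group with C_G(O₂(G)) ≤ O₂(G) and H a subgroup of G such that H is normal in G, or the subgroup O²(H) generated by the elements of H of odd order is normal in G. Then C_H(O₂(H)) ≤ O₂(H). -/
theorem result {G : Type*} [Group G] [Finite G] (hchar : Subgroup.centralizer (Cfsg.pCore 2 G : Set G) ≤ Cfsg.pCore 2 G) (H : Subgroup G) (hH : H.Normal ∨ ((Cfsg.pResidual 2 ↥H).map H.subtype).Normal) : Subgroup.centralizer (Cfsg.pCore 2 ↥H : Set ↥H) ≤ Cfsg.pCore 2 ↥H := by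
  obtain ⟨K, hKn, hKH, hKodd⟩ : ∃ K : Subgroup G, K.Normal ∧ K ≤ H ∧
      ∀ c : H, Nat.Coprime (orderOf c) 2 → (c : G) ∈ K := by
    rcases hH with h | h
    · exact ⟨H, h, le_rfl, fun c _ => c.2⟩
    · exact ⟨_, h, Subgroup.map_subtype_le _, fun c hc => ⟨c, Subgroup.subset_closure hc, rfl⟩⟩
  have hQn : (Cfsg.pCore 2 G).Normal := Cfsg.Agent.Lib.Helper17.pCore_normal
  have hQp : IsPGroup 2 (Cfsg.pCore 2 G) := pCore_isPGroup
  have hQK : (Cfsg.pCore 2 G ⊓ K).subgroupOf H ≤ Cfsg.pCore 2 ↥H := by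
    apply le_pCore
    · haveI := hQn
      haveI := hKn
      infer_instance
    · exact (hQp.to_le inf_le_left).comap_subtype
  have key : ∀ c : H, c ∈ Subgroup.centralizer (Cfsg.pCore 2 ↥H : Set ↥H) →
      Nat.Coprime (orderOf c) 2 → c = 1 := by
    intro c hc hodd
    have hcK : (c : G) ∈ K := hKodd c hodd
    have hcn : (c : G) ^ (orderOf (c : G)) = 1 := pow_orderOf_eq_one _
    have hodd' : Nat.Coprime (orderOf (c : G)) 2 := by
      rw [Subgroup.orderOf_coe]; exact hodd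
    have hcent : (c : G) ∈ Subgroup.centralizer (Cfsg.pCore 2 G : Set G) := by
      rw [Subgroup.mem_centralizer_iff]
      intro q hq
      have hzQ : q * (c : G) * q⁻¹ * (c : G)⁻¹ ∈ Cfsg.pCore 2 G := by
        have h1 : (c : G) * q⁻¹ * (c : G)⁻¹ ∈ Cfsg.pCore 2 G := hQn.conj_mem _ (inv_mem hq) _
        have h2 : q * (c : G) * q⁻¹ * (c : G)⁻¹ = q * ((c : G) * q⁻¹ * (c : G)⁻¹) := by group
        rw [h2]; exact mul_mem hq h1
      have hzK : q * (c : G) * q⁻¹ * (c : G)⁻¹ ∈ K := mul_mem (hKn.conj_mem _ hcK _) (inv_mem hcK)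
      have hzH : q * (c : G) * q⁻¹ * (c : G)⁻¹ ∈ H := hKH hzK
      have hz1 : (⟨_, hzH⟩ : H) ∈ Cfsg.pCore 2 ↥H :=
        hQK (by rw [Subgroup.mem_subgroupOf]; exact ⟨hzQ, hzK⟩)
      have hcomm := Subgroup.mem_centralizer_iff.mp hc _ hz1
      have hcomm' : (q * (c : G) * q⁻¹ * (c : G)⁻¹) * (c : G) =
          (c : G) * (q * (c : G) * q⁻¹ * (c : G)⁻¹) := congrArg Subtype.val hcomm
      have h1 : q * (c : G) * q⁻¹ = (q * (c : G) * q⁻¹ * (c : G)⁻¹) * (c : G) := by group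
      have h2 : (q * (c : G) * q⁻¹) ^ (orderOf (c : G)) = 1 := by rw [conj_pow, hcn]; group
      have h3 : ((q * (c : G) * q⁻¹ * (c : G)⁻¹) * (c : G)) ^ (orderOf (c : G)) =
          (q * (c : G) * q⁻¹ * (c : G)⁻¹) ^ (orderOf (c : G)) * (c : G) ^ (orderOf (c : G)) :=
        Commute.mul_pow hcomm' _
      have h4 : (q * (c : G) * q⁻¹ * (c : G)⁻¹) ^ (orderOf (c : G)) = 1 := by
        rw [h1, h3, hcn, mul_one] at h2; exact h2
      obtain ⟨k, hk⟩ := hQp ⟨_, hzQ⟩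
      have hk' : (q * (c : G) * q⁻¹ * (c : G)⁻¹) ^ (2 ^ k) = 1 := by
        have := congrArg Subtype.val hk; simpa using this
      have h5 := pow_gcd_eq_one.mpr ⟨h4, hk'⟩
      have h6 : Nat.gcd (orderOf (c : G)) (2 ^ k) = 1 := Nat.Coprime.pow_right k hodd'
      rw [h6, pow_one] at h5
      calc q * (c : G) = (q * (c : G) * q⁻¹ * (c : G)⁻¹) * (c : G) * q := by group
        _ = (c : G) * q := by rw [h5]; group
    have hcQ := hchar hcent
    obtain ⟨k, hk⟩ := hQp ⟨_, hcQ⟩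
    have hk' : (c : G) ^ (2 ^ k) = 1 := by
      have := congrArg Subtype.val hk; simpa using this
    have h5 : (c : G) ^ (Nat.gcd (orderOf (c : G)) (2 ^ k)) = 1 := pow_gcd_eq_one.mpr ⟨hcn, hk'⟩
    have h6 : Nat.gcd (orderOf (c : G)) (2 ^ k) = 1 := Nat.Coprime.pow_right k hodd'
    rw [h6, pow_one] at h5
    exact Subtype.ext h5
  apply le_pCore
  · haveI : (Cfsg.pCore 2 ↥H).Normal := Cfsg.Agent.Lib.Helper17.pCore_normal
    infer_instance
  · intro g
    have hpos : 0 < orderOf (g : H) := orderOf_pos (g : H)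
    obtain ⟨a, m, hmp, hfac⟩ := Nat.exists_eq_pow_mul_and_not_dvd hpos.ne' 2 (by norm_num)
    have hcop : Nat.Coprime m 2 := (Nat.Prime.coprime_iff_not_dvd Nat.prime_two).mpr hmp |>.symm
    have hxm : ((g : H) ^ (2 ^ a)) ^ m = 1 := by
      rw [← pow_mul, ← hfac]; exact pow_orderOf_eq_one _
    have hx1 : (g : H) ^ (2 ^ a) = 1 := by
      apply key _ (Subgroup.pow_mem _ g.2 _)
      exact Nat.Coprime.coprime_dvd_left (orderOf_dvd_of_pow_eq_one hxm) hcop
    refine ⟨a, ?_⟩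
    apply Subtype.ext
    simpa using hx1

end Cfsg.Agent.S2760
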