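import Cfsg.Statements.S2761
import Mathlib

set_option autoImplicit false
open Cfsg

namespace Cfsg.Agent.S2761

abbrev Pt := ZMod 2 × ZMod 2

theorem row_mul (M N : Matrix.SpecialLinearGroup (Fin 3) (ZMod 2))
    (h0 : (M : Matrix (Fin 3) (Fin 3) (ZMod 2)) 2 0 = 0)
    (h1 : (M : Matrix (Fin 3) (Fin 3) (ZMod 2)) 2 1 = 0)
    (h2 : (M : Matrix (Fin 3) (Fin 3) (ZMod 2)) 2 2 = 1) (j : Fin 3) :
    ((M * N : Matrix.SpecialLinearGroup (Fin 3) (ZMod 2)) : Matrix (Fin 3) (Fin 3) (ZMod 2)) 2 j =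
      (N : Matrix (Fin 3) (Fin 3) (ZMod 2)) 2 j := by
  rw [Matrix.SpecialLinearGroup.coe_mul, Matrix.mul_apply, Fin.sum_univ_three, h0, h1, h2]
  ring

/-- the affine group as a subgroup -/
def Hs : Subgroup (Matrix.SpecialLinearGroup (Fin 3) (ZMod 2)) where
  carrier := {M | (M : Matrix (Fin 3) (Fin 3) (ZMod 2)) 2 0 = 0 ∧
    (M : Matrix (Fin 3) (Fin 3) (ZMod 2)) 2 1 = 0 ∧ (M : Matrix (Fin 3) (Fin 3) (ZMod 2)) 2 2 = 1}
  mul_mem' := by
    rintro M N ⟨h0, h1, h2⟩ ⟨k0, k1, k2⟩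
    exact ⟨by rw [row_mul M N h0 h1 h2]; exact k0, by rw [row_mul M N h0 h1 h2]; exact k1,
      by rw [row_mul M N h0 h1 h2]; exact k2⟩
  one_mem' := by
    refine ⟨?_, ?_, ?_⟩ <;> simp
  inv_mem' := by
    rintro M ⟨h0, h1, h2⟩
    have key : ∀ j : Fin 3, ((M⁻¹ : Matrix.SpecialLinearGroup (Fin 3) (ZMod 2)) :
        Matrix (Fin 3) (Fin 3) (ZMod 2)) 2 j = (1 : Matrix (Fin 3) (Fin 3) (ZMod 2)) 2 j := by
      intro j
      rw [← row_mul M M⁻¹ h0 h1 h2 j, mul_inv_cancel]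
      rfl
    refine ⟨?_, ?_, ?_⟩
    · rw [key 0]; simp
    · rw [key 1]; simp
    · rw [key 2]; simp

theorem qd_eq : Cfsg.qd 2 = Hs := Subgroup.closure_eq Hs

def act (M : Matrix.SpecialLinearGroup (Fin 3) (ZMod 2)) (v : Pt) : Pt :=
  ((M : Matrix (Fin 3) (Fin 3) (ZMod 2)) 0 0 * v.1 + (M : Matrix (Fin 3) (Fin 3) (ZMod 2)) 0 1 * v.2 +
      (M : Matrix (Fin 3) (Fin 3) (ZMod 2)) 0 2,
    (M : Matrix (Fin 3) (Fin 3) (ZMod 2)) 1 0 * v.1 + (M : Matrix (Fin 3) (Fin 3) (ZMod 2)) 1 1 * v.2 +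
      (M : Matrix (Fin 3) (Fin 3) (ZMod 2)) 1 2)

theorem act_one (v : Pt) : act 1 v = v := by
  simp [act]

theorem act_mul (M N : Matrix.SpecialLinearGroup (Fin 3) (ZMod 2)) (hN : N ∈ Hs) (v : Pt) :
    act (M * N) v = act M (act N v) := by
  obtain ⟨k0, k1, k2⟩ := hN
  simp only [act, Matrix.SpecialLinearGroup.coe_mul, Matrix.mul_apply, Fin.sum_univ_three, k0, k1, k2]
  ext <;> simp <;> ring

abbrev actHs : MulAction ↥Hs Pt where
  smul M v := act M.1 v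
  one_smul v := act_one v
  mul_smul M N v := act_mul M.1 N.1 N.2 v

def phi : ↥Hs →* Equiv.Perm Pt := @MulAction.toPermHom ↥Hs Pt _ actHs

theorem phi_apply (M : ↥Hs) (v : Pt) : phi M v = act M.1 v := rfl

theorem det_fact : ∀ a b c : Pt, a ≠ b → a ≠ c → b ≠ c →
    (b.1 - a.1) * (c.2 - a.2) - (c.1 - a.1) * (b.2 - a.2) = 1 := by decide

theorem fourth_fact : ∀ a b c d : Pt, a ≠ b → a ≠ c → a ≠ d → b ≠ c → b ≠ d → c ≠ d →
    d = (b.1 - a.1 + (c.1 - a.1) + a.1, b.2 - a.2 + (c.2 - a.2) + a.2) := by decide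

theorem pt_cases : ∀ v : Pt, v = (0, 0) ∨ v = (1, 0) ∨ v = (0, 1) ∨ v = (1, 1) := by decide

theorem phi_injective : Function.Injective phi := by
  rw [injective_iff_map_eq_one]
  intro M hM
  have h : ∀ v, act M.1 v = v := fun v => by
    rw [← phi_apply, hM]; rfl
  obtain ⟨h0, h1, h2⟩ := M.2
  have e0 := h (0, 0)
  have e1 := h (1, 0)
  have e2 := h (0, 1)
  simp only [act, mul_zero, mul_one, zero_add, add_zero, Prod.mk.injEq] at e0 e1 e2
  obtain ⟨a0, a1⟩ := e0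
  obtain ⟨b0, b1⟩ := e1
  obtain ⟨c0, c1⟩ := e2
  rw [a0, add_zero] at b0 c0
  rw [a1, add_zero] at b1 c1
  apply Subtype.ext
  apply Subtype.ext
  ext i j
  fin_cases i <;> fin_cases j <;> simp [a0, a1, b0, b1, c0, c1, h0, h1, h2]

theorem phi_surjective : Function.Surjective phi := by
  intro σ
  have hab : σ (0, 0) ≠ σ (1, 0) := fun h => by
    have := σ.injective h; revert this; decide
  have hac : σ (0, 0) ≠ σ (0, 1) := fun h => by
    have := σ.injective h; revert this; decide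
  have had : σ (0, 0) ≠ σ (1, 1) := fun h => by
    have := σ.injective h; revert this; decide
  have hbc : σ (1, 0) ≠ σ (0, 1) := fun h => by
    have := σ.injective h; revert this; decide
  have hbd : σ (1, 0) ≠ σ (1, 1) := fun h => by
    have := σ.injective h; revert this; decide
  have hcd : σ (0, 1) ≠ σ (1, 1) := fun h => by
    have := σ.injective h; revert this; decide
  have hdet : Matrix.det (!![(σ (1, 0)).1 - (σ (0, 0)).1, (σ (0, 1)).1 - (σ (0, 0)).1, (σ (0, 0)).1;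
      (σ (1, 0)).2 - (σ (0, 0)).2, (σ (0, 1)).2 - (σ (0, 0)).2, (σ (0, 0)).2;
      0, 0, 1] : Matrix (Fin 3) (Fin 3) (ZMod 2)) = 1 := by
    rw [Matrix.det_fin_three]
    simp
    exact det_fact _ _ _ hab hac hbc
  have hmem : (⟨_, hdet⟩ : Matrix.SpecialLinearGroup (Fin 3) (ZMod 2)) ∈ Hs := by
    refine ⟨?_, ?_, ?_⟩ <;> simp
  refine ⟨⟨⟨_, hdet⟩, hmem⟩, ?_⟩
  ext v : 1
  rw [phi_apply]
  rcases pt_cases v with rfl | rfl | rfl | rfl
  · simp [act]
  · simp [act]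
  · simp [act]
  · have h4 := fourth_fact _ _ _ _ hab hac had hbc hbd hcd
    rw [h4]
    simp [act]

/-- The group Qd(2), the natural semidirect product of an elementary abelian group of order 4 by SL₂(2) (realised as the affine subgroup of SL₃(2)), is isomorphic to the symmetric group of degree 4. -/
theorem result : Nonempty (↥(Cfsg.qd 2) ≃* Equiv.Perm (Fin 4)) := by
  have e1 : ↥(Cfsg.qd 2) ≃* ↥Hs := MulEquiv.subgroupCongr qd_eq
  have e2 : ↥Hs ≃* Equiv.Perm Pt := MulEquiv.ofBijective phi ⟨phi_injective, phi_surjective⟩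
  have hc : Fintype.card Pt = 4 := by
    simp [Pt]
  have e3 : Equiv.Perm Pt ≃* Equiv.Perm (Fin 4) := Equiv.permCongrHom (Fintype.equivFinOfCardEq hc)
  exact ⟨(e1.trans e2).trans e3⟩

end Cfsg.Agent.S2761
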