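import Cfsg.Statements.S2781
import Cfsg.Agent.Lib.Helper17.RelTrace
import Cfsg.Agent.Lib.Helper17.Frattini

set_option autoImplicit false
open Cfsg

namespace Cfsg.Agent.S2781

open Cfsg.Agent.Lib.Helper17
open scoped commutatorElement

theorem pResidual_normal {K : Type*} [Group K] (p : ℕ) : (Cfsg.pResidual p K).Normal := by
  constructor
  intro n hn g
  have h1 : (Cfsg.pResidual p K).map (MulAut.conj g).toMonoidHom ≤ Cfsg.pResidual p K := by
    unfold Cfsg.pResidual
    rw [MonoidHom.map_closure]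
    apply Subgroup.closure_mono
    rintro _ ⟨x, hx, rfl⟩
    show Nat.Coprime (orderOf ((MulAut.conj g).toMonoidHom x)) p
    rw [orderOf_injective _ (MulAut.conj g).injective x]; exact hx
  have h2 := h1 (Subgroup.mem_map_of_mem _ hn)
  simpa [MulAut.conj_apply] using h2

/-- Let H act faithfully by conjugation on the elementary abelian p-subgroup V of a finite group, let O^p(H) be the subgroup of H generated by its elements of order prime to p, and T a Sylow p-subgroup of O^p(H). If V is generated by the H-conjugates of C_V(T) (V is the smallest H-invariant subgroup containing C_V(T)), then V = [V, O^p(H)]·C_V(O^p(H)). -/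
theorem result {G : Type*} [Group G] [Finite G] {p : ℕ} [Fact p.Prime] (V H : Subgroup G) (hV : Cfsg.IsElementaryAbelian p V) (hHV : H ≤ Subgroup.normalizer (V : Set G)) (hf : H ⊓ Subgroup.centralizer (V : Set G) = ⊥) (R : Subgroup G) (hR : R = (Cfsg.pResidual p ↥H).map H.subtype) (S : Sylow p ↥R) (T : Subgroup G) (hT : T = ((S : Subgroup ↥R).map R.subtype)) (hgen : ∀ W : Subgroup G, H ≤ Subgroup.normalizer (W : Set G) → (V ⊓ Subgroup.centralizer ((T : Subgroup G) : Set G)) ≤ W → V ≤ W) : ⁅V, R⁆ ⊔ (V ⊓ Subgroup.centralizer ((R : Subgroup G) : Set G)) = V := by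
  have hRH : R ≤ H := by rw [hR]; exact Subgroup.map_subtype_le _
  have hRV : R ≤ Subgroup.normalizer (V : Set G) := hRH.trans hHV
  have hVR : ⁅V, R⁆ ≤ V := by
    rw [Subgroup.commutator_le]
    intro v hv r hr
    have h1 : r * v⁻¹ * r⁻¹ ∈ V := (Subgroup.mem_normalizer_iff.mp (hRV hr) v⁻¹).mp (V.inv_mem hv)
    have h2 : ⁅v, r⁆ = v * (r * v⁻¹ * r⁻¹) := by rw [commutatorElement_def]; group
    rw [h2]; exact V.mul_mem hv h1
  apply le_antisymm (sup_le hVR inf_le_left)
  have hRconj : ∀ h ∈ H, R.map (MulAut.conj h).toMonoidHom ≤ R := by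
    intro h hh
    rw [hR]
    rintro _ ⟨_, ⟨y, hy, rfl⟩, rfl⟩
    refine ⟨⟨h, hh⟩ * y * ⟨h, hh⟩⁻¹, ?_, by simp [MulAut.conj_apply]⟩
    exact (pResidual_normal (K := ↥H) p).conj_mem y hy _
  apply hgen
  · apply le_normalizer_of_map_conj_le
    intro h hh
    rw [Subgroup.map_sup]
    apply sup_le_sup
    · rw [Subgroup.map_commutator]
      apply Subgroup.commutator_mono
      · exact (Subgroup.mem_normalizer_iff_map_conj_eq.mp (hHV hh)).le
      · exact hRconj h hh
    · rintro _ ⟨z, hz, rfl⟩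
      obtain ⟨hzV, hzC⟩ := Subgroup.mem_inf.mp hz
      refine Subgroup.mem_inf.mpr ⟨(Subgroup.mem_normalizer_iff.mp (hHV hh) z).mp hzV, ?_⟩
      rw [Subgroup.mem_centralizer_iff]
      intro r hr
      have hr' : h⁻¹ * r * h ∈ R := by
        have := hRconj h⁻¹ (H.inv_mem hh) ⟨r, hr, rfl⟩
        simpa [MulAut.conj_apply] using this
      have hc := Subgroup.mem_centralizer_iff.mp hzC _ hr'
      show r * (h * z * h⁻¹) = h * z * h⁻¹ * r
      calc r * (h * z * h⁻¹) = h * ((h⁻¹ * r * h) * z) * h⁻¹ := by group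
        _ = h * (z * (h⁻¹ * r * h)) * h⁻¹ := by rw [hc]
        _ = h * z * h⁻¹ * r := by group
  · intro v hv
    obtain ⟨hvV, hvT⟩ := Subgroup.mem_inf.mp hv
    haveI := hV.1
    apply mem_commutator_sup_centralizer_of_sylow V R hV.2 hRV S v hvV
    intro s hs
    have hsT : ((s : ↥R) : G) ∈ T := by rw [hT]; exact ⟨s, hs, rfl⟩
    exact Subgroup.mem_centralizer_iff.mp hvT _ hsT

end Cfsg.Agent.S2781
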