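import Cfsg.Statements.S2792
import Cfsg.Agent.Lib.Helper17.TrFusion
import Cfsg.Agent.Lib.Helper17.TrTate
import Cfsg.Agent.Lib.Helper17.TrStar

set_option autoImplicit false
open Cfsg

namespace Cfsg.Agent.S2792

/-- Let S be a Sylow p-subgroup of the finite group G and W a subgroup of S weakly closed in S with respect to G. If S ∩ G' ≠ S ∩ (N_G(W))', then there are x ∈ S, z ∈ W and a maximal subgroup W₀ of W such that the iterated commutator [x, z; p−1] (with [x, z] = x⁻¹z⁻¹xz and [x, z; i+1] = [[x, z; i], z]) lies in W₀ but not in the Frattini subgroup of W₀; in particular [x, z; p−1] ≠ 1. -/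
theorem result {G : Type*} [Group G] [Finite G] {p : ℕ} [Fact p.Prime] (S : Sylow p G) (W : Subgroup G) (hW : Cfsg.IsWeaklyClosed W (S : Subgroup G)) (h : (S : Subgroup G) ⊓ commutator G ≠ (S : Subgroup G) ⊓ ⁅Subgroup.normalizer (W : Set G), Subgroup.normalizer (W : Set G)⁆) : ∃ x ∈ (S : Subgroup G), ∃ z ∈ W, ∃ W₀ : Subgroup ↥W, IsCoatom W₀ ∧ (fun y : G => y⁻¹ * z⁻¹ * y * z)^[p - 1] x ∈ W₀.map W.subtype ∧ (fun y : G => y⁻¹ * z⁻¹ * y * z)^[p - 1] x ∉ ((frattini ↥W₀).map W₀.subtype).map W.subtype := by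
  classical
  by_contra hcon
  apply h
  have hneg : ∀ x ∈ (S : Subgroup G), ∀ z ∈ W, ∀ W₀ : Subgroup ↥W, IsCoatom W₀ →
      (fun y : G => y⁻¹ * z⁻¹ * y * z)^[p - 1] x ∈ W₀.map W.subtype →
      (fun y : G => y⁻¹ * z⁻¹ * y * z)^[p - 1] x ∈
        ((frattini ↥W₀).map W₀.subtype).map W.subtype := by
    intro x hx z hz W₀ hW₀ h1
    by_contra h2
    exact hcon ⟨x, hx, z, hz, W₀, hW₀, h1, h2⟩
  have hSN : (S : Subgroup G) ≤ Subgroup.normalizer (W : Set G) := by
    intro u hu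
    apply Cfsg.Agent.Lib.Helper14.mem_normalizer_of_map_conj_eq
    apply hW.2
    rintro _ ⟨q, hq, rfl⟩
    show MulAut.conj u q ∈ (S : Subgroup G)
    rw [MulAut.conj_apply]
    exact (S : Subgroup G).mul_mem ((S : Subgroup G).mul_mem hu (hW.1 hq))
      ((S : Subgroup G).inv_mem hu)
  have hWn : ∀ s ∈ (S : Subgroup G), ∀ w ∈ W, s⁻¹ * w * s ∈ W := by
    intro s hs w hw
    have h1 := (Subgroup.mem_normalizer_iff.mp (inv_mem (hSN hs)) w).mp hw
    simpa using h1
  have hle := Cfsg.Agent.Lib.Helper17.tr_commutator S (Subgroup.normalizer (W : Set G)) hSN (by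
    intro A _ hA ϑ hϑ
    apply Cfsg.Agent.Lib.Helper17.tr_fusion S W hW hA ?_ ϑ hϑ
    intro Y P₁ hWY hYS hP₁Y hnorm hidx σ hσ y hy z hz hzP
    exact Cfsg.Agent.Lib.Helper17.tr_glauberman_star (S : Subgroup G) W hWn hneg Y P₁ hWY hYS
      hP₁Y hnorm hidx hA σ hσ y hy z hz hzP)
  apply le_antisymm
  · exact le_inf inf_le_left hle
  · exact le_inf inf_le_left (inf_le_right.trans (Subgroup.commutator_mono le_top le_top))

end Cfsg.Agent.S2792
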