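import Cfsg.Statements.S2807
import Cfsg.Agent.Lib.Helper17.TrFusion
import Cfsg.Agent.Lib.Helper17.TrTate
import Cfsg.Agent.Lib.Helper17.TrStar

set_option autoImplicit false
open Cfsg

namespace Cfsg.Agent.S2807

/-- Let S be a Sylow p-subgroup of the finite group G. If S ∩ G' ≠ S ∩ (N_G(S))' (derived subgroups), then the wreath product Z_p ≀ Z_p — realised as a Sylow p-subgroup of the symmetric group of degree p² — is a homomorphic image of S. -/
theorem result {G : Type*} [Group G] [Finite G] {p : ℕ} [Fact p.Prime] (S : Sylow p G) (h : (S : Subgroup G) ⊓ commutator G ≠ (S : Subgroup G) ⊓ ⁅Subgroup.normalizer ((S : Subgroup G) : Set G), Subgroup.normalizer ((S : Subgroup G) : Set G)⁆) : ∃ (P : Sylow p (Equiv.Perm (Fin (p ^ 2)))) (f : ↥(S : Subgroup G) →* ↥(P : Subgroup (Equiv.Perm (Fin (p ^ 2))))), Function.Surjective f := by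
  classical
  by_contra hcon
  apply h
  have hWS : Cfsg.IsWeaklyClosed (S : Subgroup G) (S : Subgroup G) := by
    refine ⟨le_refl _, fun g hg => ?_⟩
    exact Subgroup.eq_of_le_of_card_ge hg
      (le_of_eq (Subgroup.card_map_of_injective (MulAut.conj g).injective).symm)
  have hle := Cfsg.Agent.Lib.Helper17.tr_commutator S
    (Subgroup.normalizer ((S : Subgroup G) : Set G)) Subgroup.le_normalizer (by
    intro A _ hA ϑ hϑ
    apply Cfsg.Agent.Lib.Helper17.tr_fusion S (S : Subgroup G) hWS hA ?_ ϑ hϑ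
    intro Y P₁ hWY hYS hP₁Y hnorm hidx σ hσ y hy z hz hzP
    by_contra hne
    have hYeq : Y = (S : Subgroup G) := le_antisymm hYS hWY
    subst hYeq
    exact hcon (Cfsg.Agent.Lib.Helper17.tr_yoshida_star _ P₁ S.2 hP₁Y hnorm hidx hA σ hσ y hy z
      hz hne))
  apply le_antisymm
  · exact le_inf inf_le_left hle
  · exact le_inf inf_le_left (inf_le_right.trans (Subgroup.commutator_mono le_top le_top))

end Cfsg.Agent.S2807
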