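import Cfsg.Statements.S2941
import Cfsg.Agent.Lib.Helper18.Subnormal

set_option autoImplicit false
open Cfsg

namespace Cfsg.Agent.S2941

open Cfsg.Agent.Lib.Helper18
open scoped commutatorElement

/-- Let G be a finite group of characteristic 2 type in which every 2-local subgroup is solvable and the centralizer of Ω₁(Z(S)) lies in N_G(S) for every Sylow 2-subgroup S, and let T be a nontrivial 2-subgroup and K a J(T)-component (J the Thompson subgroup generated by the elementary abelian 2-subgroups of largest order). If a subgroup Q is normalized by ⟨K, J(T)⟩ and normalizes J(T), then Q normalizes K. -/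
theorem result {G : Type*} [Group G] [Finite G] (hL : Cfsg.IsCharacteristicTwoType G) (hN : ∀ N : Subgroup G, Cfsg.IsTwoLocal N → Group.IsSolvable ↥N)
    (hZ : ∀ S : Sylow 2 G, Subgroup.centralizer (Cfsg.omegaCenterOf (S : Subgroup G) : Set G) ≤ Subgroup.normalizer ((S : Subgroup G) : Set G)) (T : Subgroup G) (hT : IsPGroup 2 ↥T) (hT1 : T ≠ ⊥) (K : Subgroup G) (hK : Cfsg.IsJComponent T K)
    (Q : Subgroup G) (hQ1 : K ⊔ Cfsg.thompsonSubgroupOf 2 T ≤ Subgroup.normalizer (Q : Set G)) (hQ2 : Q ≤ Subgroup.normalizer (Cfsg.thompsonSubgroupOf 2 T : Set G)) :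
    Q ≤ Subgroup.normalizer (K : Set G) := by
  obtain ⟨hgen, hcomm, -⟩ := hK
  have hJ2 : IsPGroup 2 (Cfsg.thompsonSubgroupOf 2 T) := by
    apply hT.to_le
    unfold Cfsg.thompsonSubgroupOf
    exact Subgroup.map_subtype_le _
  revert hgen hcomm hQ1 hQ2 hJ2
  generalize Cfsg.thompsonSubgroupOf 2 T = J
  intro hQ1 hQ2 hgen hcomm hJ2
  have hJK : J ≤ Subgroup.normalizer (K : Set G) := by
    have := le_normalizer_commutator_right K J
    rwa [hcomm] at this
  -- step 1: conjugates of `K` under `Q` stay inside `K ⊔ J`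
  have h1 : ∀ q ∈ Q, K.map (MulAut.conj q).toMonoidHom ≤ K ⊔ J := by
    intro q hq
    rw [Subgroup.map_le_iff_le_comap]
    conv_lhs => rw [← hcomm]
    rw [Subgroup.commutator_le]
    intro k hk j hj
    rw [Subgroup.mem_comap]
    show q * ⁅k, j⁆ * q⁻¹ ∈ K ⊔ J
    have hkq : k⁻¹ * q * k ∈ Q := by
      have := (Subgroup.mem_normalizer_iff.mp
        (hQ1 (le_sup_left (a := K) (b := J) (K.inv_mem hk))) q).mp hq
      simpa using this
    have hj1 : (k⁻¹ * q * k) * j * (k⁻¹ * q * k)⁻¹ ∈ J :=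
      (Subgroup.mem_normalizer_iff.mp (hQ2 hkq) j).mp hj
    have hj2 : q * j⁻¹ * q⁻¹ ∈ J :=
      (Subgroup.mem_normalizer_iff.mp (hQ2 hq) j⁻¹).mp (J.inv_mem hj)
    have e : q * ⁅k, j⁆ * q⁻¹
        = k * ((k⁻¹ * q * k) * j * (k⁻¹ * q * k)⁻¹) * k⁻¹ * (q * j⁻¹ * q⁻¹) := by
      rw [commutatorElement_def]; group
    rw [e]
    exact Subgroup.mul_mem _ (Subgroup.mul_mem _ (Subgroup.mul_mem _
      (le_sup_left (a := K) hk) (le_sup_right (a := K) hj1))
      (le_sup_left (a := K) (K.inv_mem hk))) (le_sup_right (a := K) hj2)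
  -- step 2: elements of odd order of `K ⊔ J` lie in `K`
  have h2 : ∀ x ∈ K ⊔ J, Odd (orderOf x) → x ∈ K := by
    intro x hx hodd
    rw [sup_comm] at hx
    obtain ⟨j, hj, k, hk, rfl⟩ := mem_sup_of_le_normalizer hJK hx
    obtain ⟨n, hn⟩ := hJ2 ⟨j, hj⟩
    have hn' : j ^ 2 ^ n = 1 := by
      have := congrArg Subtype.val hn
      simpa using this
    obtain ⟨d, hd, e⟩ := exists_pow_mul_eq (hJK hj) hk (2 ^ n)
    apply mem_of_pow_mem_of_coprime (p := 2) (n := n)
    · rw [e, hn', one_mul]; exact hd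
    · exact Nat.coprime_two_right.mpr hodd
  -- step 3
  apply le_normalizer_of_forall_map_conj_le
  intro q hq
  rw [Subgroup.map_le_iff_le_comap]
  conv_lhs => rw [← hgen]
  rw [Subgroup.closure_le]
  rintro x ⟨hxK, hodd⟩
  show q * x * q⁻¹ ∈ K
  apply h2
  · exact h1 q hq (conj_mem_map_conj K q hxK)
  · have : orderOf (q * x * q⁻¹) = orderOf x := by
      have := orderOf_conj' q x
      simpa using this
    rw [this]; exact hodd

end Cfsg.Agent.S2941
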