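import Cfsg.Statements.S2947
import Cfsg.Agent.Lib.Helper18.SylowRel
import Cfsg.Agent.Lib.Helper18.PGroupL

set_option autoImplicit false
open Cfsg

namespace Cfsg.Agent.S2947

open Cfsg.Agent.Lib.Helper18

theorem two_dvd_card {G : Type*} [Group G] [Finite G] {P : Subgroup G} (hP : IsPGroup 2 P)
    (h1 : P ≠ ⊥) : 2 ∣ Nat.card P := by
  haveI : Fact (Nat.Prime 2) := ⟨Nat.prime_two⟩
  obtain ⟨n, hn⟩ := IsPGroup.iff_card.mp hP
  rw [hn]
  rcases n with _ | n
  · exfalso; apply h1; rw [Subgroup.eq_bot_iff_card]; simpa using hn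
  · exact dvd_pow_self 2 (Nat.succ_ne_zero n)

theorem le_of_normalizers {G : Type*} [Group G] [Finite G] {M T R : Subgroup G}
    (hkey : ∀ P : Subgroup G, IsPGroup 2 P → P ≠ ⊥ → P ≤ M →
      Subgroup.normalizer (P : Set G) ≤ M)
    (hT : IsPGroup 2 T) (hT1 : T ≠ ⊥) (hTM : T ≤ M) (hR : IsPGroup 2 R)
    (hTR : T ≤ Subgroup.normalizer (R : Set G)) : R ≤ M := by
  haveI : Fact (Nat.Prime 2) := ⟨Nat.prime_two⟩
  have hTR2 : IsPGroup 2 (T ⊔ R : Subgroup G) := IsPGroup.to_sup_of_normal_right' hT hR hTR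
  by_contra hRM
  have hlt : (T ⊔ R) ⊓ M < T ⊔ R := by
    refine lt_of_le_of_ne inf_le_left ?_
    intro e
    exact hRM (le_sup_right.trans (inf_eq_left.mp e))
  obtain ⟨x, hx, hxN, hxn⟩ := exists_mem_normalizer_not_mem hTR2 hlt
  have hP0 : IsPGroup 2 ((T ⊔ R) ⊓ M : Subgroup G) := hTR2.to_le inf_le_left
  have hne : (T ⊔ R) ⊓ M ≠ ⊥ := by
    intro e
    apply hT1
    rw [eq_bot_iff, ← e]
    exact le_inf le_sup_left hTM
  exact hxn ⟨hx, hkey _ hP0 hne inf_le_right hxN⟩

/-- Let G be a finite group of characteristic 2 type in which every 2-local subgroup is solvable and the centralizer of Ω₁(Z(S)) lies in N_G(S) for every Sylow 2-subgroup S; suppose O₂(G) = 1, fix a Sylow 2-subgroup S and a 2-local subgroup M containing N_G(J(S)) (J the Thompson subgroup generated by the elementary abelian 2-subgroups of largest order). Then M is strongly embedded in G (a proper subgroup of even order whose intersection with each conjugate by an element outside M has odd order) if and only if no nontrivial 2-subgroup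 of M lies in a 2-local subgroup of G not contained in M. -/
theorem result {G : Type*} [Group G] [Finite G] (hL : Cfsg.IsCharacteristicTwoType G) (hN : ∀ N : Subgroup G, Cfsg.IsTwoLocal N → Group.IsSolvable ↥N)
    (hZ : ∀ S : Sylow 2 G, Subgroup.centralizer (Cfsg.omegaCenterOf (S : Subgroup G) : Set G) ≤ Subgroup.normalizer ((S : Subgroup G) : Set G)) (hO : Cfsg.pCore 2 G = ⊥) (S : Sylow 2 G) (M : Subgroup G) (hM : Cfsg.IsTwoLocal M)
    (hMJ : Subgroup.normalizer (Cfsg.thompsonSubgroupOf 2 (S : Subgroup G) : Set G) ≤ M) :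
    Cfsg.IsStronglyEmbedded M ↔ Cfsg.straddlingTwoSubgroups M = ∅ := by
  haveI : Fact (Nat.Prime 2) := ⟨Nat.prime_two⟩
  obtain ⟨R, hR, hR1, rfl⟩ := hM
  constructor
  · rintro ⟨hne, heven, hodd⟩
    have hkey : ∀ P : Subgroup G, IsPGroup 2 P → P ≠ ⊥ → P ≤ Subgroup.normalizer (R : Set G) →
        Subgroup.normalizer (P : Set G) ≤ Subgroup.normalizer (R : Set G) := by
      intro P hP hP1 hPM g hg
      by_contra hgM
      have h1 := hodd g hgM
      have hle : P ≤ Subgroup.normalizer (R : Set G) ⊓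
          (Subgroup.normalizer (R : Set G)).map (MulAut.conj g).toMonoidHom := by
        refine le_inf hPM ?_
        have : P.map (MulAut.conj g).toMonoidHom = P := map_conj_eq_of_mem_normalizer P hg
        rw [← this]; exact Subgroup.map_mono hPM
      have h2 := (two_dvd_card hP hP1).trans (Subgroup.card_dvd_of_le hle)
      exact (Nat.not_even_iff_odd.mpr h1) (even_iff_two_dvd.mpr h2)
    rw [Set.eq_empty_iff_forall_notMem]
    rintro T ⟨hT, hT1, hTM, L, ⟨R', hR', hR'1, rfl⟩, hTL, hLM⟩
    apply hLM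
    exact hkey R' hR' hR'1 (le_of_normalizers hkey hT hT1 hTM hR' hTL)
  · intro hemp
    have hkey : ∀ P : Subgroup G, IsPGroup 2 P → P ≠ ⊥ → P ≤ Subgroup.normalizer (R : Set G) →
        Subgroup.normalizer (P : Set G) ≤ Subgroup.normalizer (R : Set G) := by
      intro P hP hP1 hPM
      by_contra hcon
      have : P ∈ Cfsg.straddlingTwoSubgroups (Subgroup.normalizer (R : Set G)) :=
        ⟨hP, hP1, hPM, Subgroup.normalizer (P : Set G), ⟨P, hP, hP1, rfl⟩,
          Subgroup.le_normalizer, hcon⟩
      rw [hemp] at this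
      exact this
    refine ⟨?_, ?_, ?_⟩
    · intro htop
      apply hR1
      rw [eq_bot_iff, ← hO]
      have hn : R.Normal := Subgroup.normalizer_eq_top_iff.mp htop
      exact le_pCore hn hR
    · rw [even_iff_two_dvd]
      exact (two_dvd_card hR hR1).trans (Subgroup.card_dvd_of_le Subgroup.le_normalizer)
    · intro g hg
      by_contra hnodd
      rw [Nat.not_odd_iff_even, even_iff_two_dvd] at hnodd
      obtain ⟨x, hx⟩ := exists_prime_orderOf_dvd_card' 2 hnodd
      have hZ : IsPGroup 2 (Subgroup.zpowers (x : G)) := by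
        apply IsPGroup.of_card (n := 1)
        rw [Nat.card_zpowers, Subgroup.orderOf_coe, hx, pow_one]
      have hZ1 : Subgroup.zpowers (x : G) ≠ ⊥ := by
        intro e
        rw [Subgroup.zpowers_eq_bot] at e
        have : orderOf (x : G) = 1 := by rw [e, orderOf_one]
        rw [Subgroup.orderOf_coe, hx] at this
        omega
      have hZD : Subgroup.zpowers (x : G) ≤ Subgroup.normalizer (R : Set G) ⊓
          (Subgroup.normalizer (R : Set G)).map (MulAut.conj g).toMonoidHom := by
        rw [Subgroup.zpowers_le]; exact x.2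
      obtain ⟨U, hU, hZU⟩ := exists_isSylowIn_ge hZ hZD
      have hU1 : U ≠ ⊥ := by
        intro e
        apply hZ1
        rw [eq_bot_iff, ← e]; exact hZU
      have hUM : U ≤ Subgroup.normalizer (R : Set G) := hU.1.trans inf_le_left
      have hN1 := hkey U hU.2.1 hU1 hUM
      have hUg : U.map (MulAut.conj g⁻¹).toMonoidHom ≤ Subgroup.normalizer (R : Set G) := by
        rw [map_conj_le_iff, inv_inv]; exact hU.1.trans inf_le_right
      have hN2' := hkey _ (isPGroup_map_conj hU.2.1 g⁻¹) (map_conj_ne_bot hU1 g⁻¹) hUg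
      have hN2 : Subgroup.normalizer (U : Set G) ≤
          (Subgroup.normalizer (R : Set G)).map (MulAut.conj g).toMonoidHom := by
        have := normalizer_map_conj_le g⁻¹ hN2'
        rwa [inv_inv] at this
      have hUtop : IsSylowIn 2 U ⊤ := hU.isSylowIn_top (le_inf hN1 hN2)
      have hUM' : IsSylowIn 2 U (Subgroup.normalizer (R : Set G)) :=
        ⟨hUM, hU.2.1, fun R' hR' hle _ => hUtop.2.2 R' hR' hle le_top⟩
      have hV : IsSylowIn 2 (U.map (MulAut.conj g⁻¹).toMonoidHom)
          (Subgroup.normalizer (R : Set G)) :=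
        ⟨hUg, isPGroup_map_conj hU.2.1 g⁻¹, fun R' hR' hle _ =>
          (hUtop.map_conj g⁻¹).2.2 R' hR' hle
            (fun y _ => (mem_map_conj_iff _ _ _).mpr (Subgroup.mem_top _))⟩
      obtain ⟨c, hc, e⟩ := hUM'.exists_conj_eq hV
      have hgc : g * c ∈ Subgroup.normalizer (R : Set G) := by
        apply hN1
        apply mem_normalizer_of_map_conj_eq
        rw [map_conj_mul, ← e, ← map_conj_mul, mul_inv_cancel, map_conj_one]
      apply hg
      have : g = (g * c) * c⁻¹ := by group
      rw [this]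
      exact Subgroup.mul_mem _ hgc (Subgroup.inv_mem _ hc)

end Cfsg.Agent.S2947
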