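import Cfsg.Statements.S3103
import Mathlib
import Cfsg.Agent.Lib.Helper11.A8Emb

set_option autoImplicit false
open Cfsg

namespace Cfsg.Agent.S3103

/-- Let X be a finite 2-constrained group with no nontrivial normal subgroup of odd order such that O₂(X) has sectional 2-rank at most 4. Then X/O₂(X) is isomorphic to a subgroup of the alternating group of degree 8. -/
theorem result {X : Type*} [Group X] [Finite X] (hc : Cfsg.IsPConstrained 2 X) (hO : Cfsg.oddCore X = ⊥)
    (h4 : Cfsg.SectionalPRankLE 2 4 ↥(Cfsg.pCore 2 X)) :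
    ∃ f : X ⧸ Cfsg.pCore 2 X →* ↥(alternatingGroup (Fin 8)), Function.Injective f := by
  classical
  haveI : Fact (Nat.Prime 2) := ⟨Nat.prime_two⟩
  have hcent := Cfsg.Agent.Lib.Helper11.centralizer_pCore_le_of_isPConstrained 2 hc hO
  obtain ⟨f, hf1, hf2⟩ := Cfsg.Agent.Lib.Helper11.exists_hom_a8 (Cfsg.pCore 2 X)
    (Cfsg.Agent.Lib.Helper11.pCore_isPGroup 2) h4
  refine ⟨QuotientGroup.lift (Cfsg.pCore 2 X) f
    (fun g hg => MonoidHom.mem_ker.mpr (hf1 g hg)), ?_⟩
  rw [injective_iff_map_eq_one]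
  intro q hq
  induction q using QuotientGroup.induction_on with
  | H g =>
    rw [QuotientGroup.lift_mk] at hq
    exact (QuotientGroup.eq_one_iff g).mpr
      (Cfsg.Agent.Lib.Helper11.mem_pCore_of_trivial_on_frattini_quot hcent g (hf2 g hq))

end Cfsg.Agent.S3103
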