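import Cfsg.Statements.S3116

set_option autoImplicit false
open Cfsg

namespace Cfsg.Agent.S3116

theorem aut_two_group {X : Type*} [Group X] [Finite X] (g s : X) (k : ℕ) (hk : orderOf g = 2 ^ k)
    (hout : ∀ z : X, z ∉ Subgroup.zpowers g → orderOf z < orderOf g)
    (hs : ∀ x : X, x ∈ Subgroup.zpowers g ∨ s⁻¹ * x ∈ Subgroup.zpowers g) :
    IsPGroup 2 (MulAut X) := by
  intro α
  have h1 : α g ∈ Subgroup.zpowers g := by
    by_contra hc
    have h := hout _ hc
    rw [MulEquiv.orderOf_eq] at h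
    exact lt_irrefl _ h
  obtain ⟨m, hm⟩ := (mem_powers_iff_mem_zpowers.mpr h1)
  have hm' : g ^ m = α g := hm
  have hcop : Nat.Coprime m (2 ^ k) := by
    have h2 : orderOf (g ^ m) = orderOf g := by rw [hm', MulEquiv.orderOf_eq]
    rw [orderOf_pow, hk] at h2
    have hpos : 0 < 2 ^ k := by positivity
    have hgpos : 0 < Nat.gcd (2 ^ k) m := Nat.gcd_pos_of_pos_left _ hpos
    have h3 : Nat.gcd (2 ^ k) m = 1 := by
      have h4 := Nat.div_mul_cancel (Nat.gcd_dvd_left (2 ^ k) m)
      rw [h2] at h4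
      have h5 : 2 ^ k * Nat.gcd (2 ^ k) m = 2 ^ k * 1 := by rw [h4, mul_one]
      exact Nat.eq_of_mul_eq_mul_left hpos h5
    exact Nat.Coprime.symm h3
  have hpow : ∀ j : ℕ, (α ^ j) g = g ^ (m ^ j) := by
    intro j
    induction j with
    | zero => simp
    | succ j ih =>
      rw [pow_succ', MulAut.mul_apply, ih, map_pow, ← hm', ← pow_mul, pow_succ']
  obtain ⟨E, hE⟩ : ∃ E, E = Nat.totient (2 ^ k) := ⟨_, rfl⟩
  have hmod : m ^ E ≡ 1 [MOD 2 ^ k] := by
    rw [hE]
    exact Nat.ModEq.pow_totient hcop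
  obtain ⟨β, hβ⟩ : ∃ β, β = α ^ E := ⟨_, rfl⟩
  have hβg : β g = g := by
    rw [hβ, hpow]
    have h6 : g ^ (m ^ E) = g ^ 1 := by
      rw [pow_eq_pow_iff_modEq, hk]
      exact hmod
    rw [h6, pow_one]
  have hfix : ∀ (γ : MulAut X), γ g = g → ∀ c ∈ Subgroup.zpowers g, γ c = c := by
    intro γ hγ c hc
    obtain ⟨i, rfl⟩ := Subgroup.mem_zpowers_iff.mp hc
    rw [map_zpow, hγ]
  have hβfix := hfix β hβg
  have hc0 : s⁻¹ * β s ∈ Subgroup.zpowers g := by
    rcases hs (β s) with h | h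
    · have h7 : β (β s) = β s := hβfix _ h
      have h8 : β s = s := β.injective h7
      rw [h8] at h
      rw [h8]
      exact mul_mem (inv_mem h) h
    · exact h
  obtain ⟨c0, hc0def⟩ : ∃ c0, c0 = s⁻¹ * β s := ⟨_, rfl⟩
  rw [← hc0def] at hc0
  have hβs : β s = s * c0 := by rw [hc0def]; group
  have hpowg : ∀ j : ℕ, (β ^ j) g = g := by
    intro j
    induction j with
    | zero => simp
    | succ j ih => rw [pow_succ', MulAut.mul_apply, ih, hβg]
  have hpows : ∀ j : ℕ, (β ^ j) s = s * c0 ^ j := by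
    intro j
    induction j with
    | zero => simp
    | succ j ih =>
      rw [pow_succ', MulAut.mul_apply, ih, map_mul, hβs, hβfix _ (pow_mem hc0 j), pow_succ']
      group
  have hc0pow : c0 ^ (2 ^ k) = 1 := by
    have h9 := orderOf_dvd_of_mem_zpowers hc0
    rw [hk] at h9
    exact orderOf_dvd_iff_pow_eq_one.mp h9
  have hfin : β ^ (2 ^ k) = 1 := by
    have hgg := hpowg (2 ^ k)
    have hss : (β ^ (2 ^ k)) s = s := by rw [hpows, hc0pow, mul_one]
    have hff := hfix _ hgg
    apply MulEquiv.ext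
    intro x
    rw [MulAut.one_apply]
    rcases hs x with h | h
    · exact hff x h
    · have h10 : x = s * (s⁻¹ * x) := by group
      rw [h10, map_mul, hss, hff _ h]
  have hEpow : ∃ e : ℕ, E = 2 ^ e := by
    rcases Nat.eq_zero_or_pos k with h0 | h0
    · refine ⟨0, ?_⟩
      rw [hE, h0]
      simp
    · refine ⟨k - 1, ?_⟩
      rw [hE, Nat.totient_prime_pow Nat.prime_two h0]
      simp
  obtain ⟨e, he⟩ := hEpow
  refine ⟨e + k, ?_⟩
  rw [pow_add, pow_mul, ← he, ← hβ, hfin]

theorem dihedral_case (n : ℕ) (hn : 4 ≤ n) (h2 : IsPGroup 2 (DihedralGroup n)) :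
    IsPGroup 2 (MulAut (DihedralGroup n)) := by
  have hne : NeZero n := ⟨by omega⟩
  have hord : orderOf (DihedralGroup.r (1 : ZMod n)) = n := DihedralGroup.orderOf_r_one
  obtain ⟨j, hj⟩ := h2 (DihedralGroup.r (1 : ZMod n))
  have hdvd : orderOf (DihedralGroup.r (1 : ZMod n)) ∣ 2 ^ j := orderOf_dvd_of_pow_eq_one hj
  obtain ⟨k, -, hk⟩ := (Nat.dvd_prime_pow Nat.prime_two).mp hdvd
  have hr : ∀ i : ZMod n, DihedralGroup.r i ∈ Subgroup.zpowers (DihedralGroup.r (1 : ZMod n)) := by
    intro i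
    have h3 : (DihedralGroup.r (1 : ZMod n)) ^ (ZMod.val i) = DihedralGroup.r i := by
      rw [DihedralGroup.r_one_pow, ZMod.natCast_zmod_val]
    rw [← h3]
    exact Subgroup.npow_mem_zpowers _ _
  refine aut_two_group (DihedralGroup.r (1 : ZMod n)) (DihedralGroup.sr (0 : ZMod n)) k hk ?_ ?_
  · intro z hz
    cases z with
    | r i => exact absurd (hr i) hz
    | sr i =>
      rw [DihedralGroup.orderOf_sr, hord]
      omega
  · intro x
    cases x with
    | r i => exact Or.inl (hr i)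
    | sr i =>
      right
      have h4 : (DihedralGroup.sr (0 : ZMod n))⁻¹ * DihedralGroup.sr i = DihedralGroup.r (i - 0) := rfl
      rw [h4]
      exact hr _

theorem quasi_case {X : Type*} [Group X] [Finite X] (h : Cfsg.IsQuasiDihedral X) :
    IsPGroup 2 (MulAut X) := by
  obtain ⟨n, hn, hcard, x, y, hx, hy, hconj⟩ := h
  have hyy : y * y = 1 := by
    have h1 := pow_orderOf_eq_one y
    rw [hy, pow_two] at h1
    exact h1
  have hyinv : y⁻¹ = y := inv_eq_of_mul_eq_one_left hyy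
  have h8 : 2 ^ 3 ≤ 2 ^ n := Nat.pow_le_pow_right (by norm_num) hn
  have h4 : 2 ^ 2 ≤ 2 ^ (n - 1) := Nat.pow_le_pow_right (by norm_num) (by omega)
  have hsplit : 2 ^ n = 2 ^ (n - 1) + 2 ^ (n - 1) := by
    have h5 : n = (n - 1) + 1 := by omega
    conv_lhs => rw [h5, pow_succ]
    ring
  have hxpow : x ^ (2 ^ n) = 1 := by
    rw [← hx]
    exact pow_orderOf_eq_one x
  have hidx : (Subgroup.zpowers x).index = 2 := by
    have h6 := Subgroup.card_mul_index (Subgroup.zpowers x)
    rw [Nat.card_zpowers, hx, hcard, pow_succ] at h6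
    have hpos : 0 < 2 ^ n := by positivity
    exact Nat.eq_of_mul_eq_mul_left hpos h6
  have hynot : y ∉ Subgroup.zpowers x := by
    intro hmem
    obtain ⟨i, hi⟩ := Subgroup.mem_zpowers_iff.mp hmem
    have hcomm : y * x = x * y := by
      rw [← hi]
      exact ((Commute.refl x).zpow_left i).eq
    have h7 : y * x * y⁻¹ = x := by rw [hcomm]; group
    rw [h7] at hconj
    have h9 : x ^ 1 = x ^ (2 ^ (n - 1) - 1) := by rw [pow_one]; exact hconj
    rw [pow_eq_pow_iff_modEq, hx] at h9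
    have h10 := (Nat.modEq_iff_dvd' (by omega)).mp h9
    have h11 := Nat.le_of_dvd (by omega) h10
    omega
  have hs : ∀ z : X, z ∈ Subgroup.zpowers x ∨ y⁻¹ * z ∈ Subgroup.zpowers x := by
    intro z
    by_cases hz : z ∈ Subgroup.zpowers x
    · exact Or.inl hz
    · right
      rw [Subgroup.mul_mem_iff_of_index_two hidx]
      constructor
      · intro h12
        exact absurd (by rw [← hyinv]; exact h12) hynot
      · intro h12
        exact absurd h12 hz
  refine aut_two_group x y n hx ?_ hs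
  intro z hz
  have h13 : y⁻¹ * z ∈ Subgroup.zpowers x := (hs z).resolve_left hz
  obtain ⟨i, hi⟩ := mem_powers_iff_mem_zpowers.mpr h13
  have hi' : x ^ i = y⁻¹ * z := hi
  have hz' : z = y * x ^ i := by rw [hi']; group
  have hzz : z * z = x ^ (2 ^ (n - 1) * i) := by
    have h14 : z * z = (y * x * y⁻¹) ^ i * x ^ i := by
      rw [conj_pow, hz', hyinv]
      group
    rw [h14, hconj, ← pow_mul, ← pow_add]
    congr 1
    have h15 : 2 ^ (n - 1) = (2 ^ (n - 1) - 1) + 1 := by omega
    conv_rhs => rw [h15]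
    ring
  have hz4 : z ^ 4 = 1 := by
    have h16 : z ^ 4 = (z * z) * (z * z) := by simp only [pow_succ, pow_zero, one_mul, mul_assoc]
    rw [h16, hzz, ← pow_add, ← add_mul, ← hsplit, pow_mul, hxpow, one_pow]
  have h17 : orderOf z ∣ 4 := orderOf_dvd_of_pow_eq_one hz4
  have h18 : orderOf z ≤ 4 := Nat.le_of_dvd (by norm_num) h17
  rw [hx]
  omega

/-- The automorphism group of a dihedral 2-group of order at least 8, or of a quasi-dihedral (semidihedral) 2-group of order at least 16, is a 2-group. -/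
theorem result {X : Type*} [Group X] [Finite X] (h2 : IsPGroup 2 X)
    (h : (∃ n : ℕ, 4 ≤ n ∧ Nonempty (X ≃* DihedralGroup n)) ∨ Cfsg.IsQuasiDihedral X) : IsPGroup 2 (MulAut X) := by
  rcases h with ⟨n, hn, ⟨e⟩⟩ | h
  · have h3 : IsPGroup 2 (DihedralGroup n) := h2.of_equiv e
    exact (dihedral_case n hn h3).of_equiv (MulAut.congr e).symm
  · exact quasi_case h

end Cfsg.Agent.S3116
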