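import Mathlib
import Cfsg.Statements.S3362

set_option autoImplicit false
open Cfsg

namespace Cfsg.Agent.S3362

abbrev Γ := Equiv.Perm (Fin 12)

/-- Products of transversal elements along a chain of levels `(base point, transversal)`. -/
def Mset : List (Fin 12 × List Γ) → Set Γ
  | [] => {1}
  | (_, U) :: r => {g | ∃ u ∈ U, u⁻¹ * g ∈ Mset r}

/-- Sifting through the chain. -/
def sift : List (Fin 12 × List Γ) → Γ → Bool
  | [], g => decide (g = 1)
  | (b, U) :: r, g => U.any (fun u => decide (u b = g b) && sift r (u⁻¹ * g))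

theorem sift_sound : ∀ (L : List (Fin 12 × List Γ)) (g : Γ), sift L g = true → g ∈ Mset L
  | [], g, h => by
      simp only [sift, decide_eq_true_eq] at h
      exact h
  | (b, U) :: r, g, h => by
      simp only [sift, List.any_eq_true, Bool.and_eq_true, decide_eq_true_eq] at h
      obtain ⟨u, hu, _, h2⟩ := h
      exact ⟨u, hu, sift_sound r _ h2⟩

/-- Every element of the list is a product of generators (Schreier tree check). -/
def treeOK (S : List Γ) : List Γ → Bool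
  | [] => true
  | u :: r => (decide (u = 1) || S.any (fun s => r.any (fun u' => decide (u = s * u')))) && treeOK S r

theorem treeOK_sound (S : List Γ) : ∀ (U : List Γ), treeOK S U = true →
    ∀ u ∈ U, u ∈ Subgroup.closure {s | s ∈ S}
  | [], _, u, hu => by simp at hu
  | a :: r, h, u, hu => by
      simp only [treeOK, Bool.and_eq_true, Bool.or_eq_true, decide_eq_true_eq, List.any_eq_true]
        at h
      rcases List.mem_cons.mp hu with rfl | hu'
      · rcases h.1 with h1 | ⟨s, hs, u', hu', h2⟩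
        · rw [h1]; exact Subgroup.one_mem _
        · rw [h2]
          exact Subgroup.mul_mem _ (Subgroup.subset_closure hs) (treeOK_sound S r h.2 u' hu')
      · exact treeOK_sound S r h.2 u hu'

theorem level_step (S U : List Γ) (b : Fin 12) (r : List (Fin 12 × List Γ)) (K : Subgroup Γ)
    (hK : ∀ g, g ∈ K ↔ g ∈ Mset r)
    (hKle : K ≤ Subgroup.closure {s | s ∈ S})
    (h1 : (1 : Γ) ∈ U) (hU : ∀ u ∈ U, u ∈ Subgroup.closure {s | s ∈ S})
    (hc : ∀ s ∈ S, ∀ u ∈ U, sift ((b, U) :: r) (s * u) = true) :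
    ∀ g, g ∈ Subgroup.closure {s | s ∈ S} ↔ g ∈ Mset ((b, U) :: r) := by
  intro g
  constructor
  · intro hg
    have hstep : ∀ s ∈ S, ∀ m ∈ Mset ((b, U) :: r), s * m ∈ Mset ((b, U) :: r) := by
      intro s hs m hm
      obtain ⟨u, hu, hk⟩ := hm
      obtain ⟨u', hu', hk'⟩ := sift_sound _ _ (hc s hs u hu)
      refine ⟨u', hu', ?_⟩
      have h3 : u'⁻¹ * (s * m) = (u'⁻¹ * (s * u)) * (u⁻¹ * m) := by group
      rw [h3]
      exact (hK _).mp (K.mul_mem ((hK _).mpr hk') ((hK _).mpr hk))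
    have h1M : (1 : Γ) ∈ Mset ((b, U) :: r) :=
      ⟨1, h1, by simpa using (hK 1).mp K.one_mem⟩
    have hmon : g ∈ Submonoid.closure {s | s ∈ S} := by
      rw [← Subgroup.closure_toSubmonoid_of_finite]
      exact hg
    induction hmon using Submonoid.closure_induction_left with
    | one => exact h1M
    | mul_left x hx y hy ih =>
      exact hstep x hx y (ih (Subgroup.le_closure_toSubmonoid _ hy))
  · rintro ⟨u, hu, hk⟩
    have h3 : g = u * (u⁻¹ * g) := by group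
    rw [h3]
    exact Subgroup.mul_mem _ (hU u hu) (hKle ((hK _).mpr hk))

/-- all transversal elements in the chain fix `b`. -/
def fixAll (b : Fin 12) : List (Fin 12 × List Γ) → Bool
  | [] => true
  | (_, U) :: r => U.all (fun u => decide (u b = b)) && fixAll b r

/-- the chain is a base and strong-generating-set style chain. -/
def good : List (Fin 12 × List Γ) → Bool
  | [] => true
  | (b, U) :: r => U.all (fun u => !decide (u b = b) || decide (u = 1)) && fixAll b r && good r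

theorem fixAll_sound (b : Fin 12) : ∀ (L : List (Fin 12 × List Γ)), fixAll b L = true →
    ∀ k ∈ Mset L, k b = b
  | [], _, k, hk => by
      have : k = 1 := hk
      rw [this]; rfl
  | (b', U) :: r, h, k, hk => by
      simp only [fixAll, Bool.and_eq_true, List.all_eq_true, decide_eq_true_eq] at h
      obtain ⟨u, hu, hk'⟩ := hk
      have h1 := fixAll_sound b r h.2 _ hk'
      have h2 : k = u * (u⁻¹ * k) := by group
      rw [h2, Equiv.Perm.mul_apply, h1]
      exact h.1 u hu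

theorem good_sound : ∀ (L : List (Fin 12 × List Γ)), good L = true →
    ∀ g ∈ Mset L, (∀ bU ∈ L, g bU.1 = bU.1) → g = 1
  | [], _, g, hg, _ => hg
  | (b, U) :: r, h, g, hg, hfix => by
      simp only [good, Bool.and_eq_true, List.all_eq_true, Bool.or_eq_true, Bool.not_eq_true',
        decide_eq_false_iff_not, decide_eq_true_eq] at h
      obtain ⟨u, hu, hk⟩ := hg
      have h1 := fixAll_sound b r h.1.2 _ hk
      have h2 : g = u * (u⁻¹ * g) := by group
      have h3 : u b = b := by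
        have h4 := hfix (b, U) List.mem_cons_self
        rw [h2, Equiv.Perm.mul_apply, h1] at h4
        exact h4
      have h5 : u = 1 := by
        rcases h.1.1 u hu with h6 | h6
        · exact absurd h3 h6
        · exact h6
      rw [h5, inv_one, one_mul] at hk
      exact good_sound r h.2 g hk (fun bU hbU => hfix bU (List.mem_cons_of_mem _ hbU))

def qs : Γ := Equiv.swap (3 : Fin 12) 5 * Equiv.swap (3 : Fin 12) 4 * Equiv.swap (6 : Fin 12) 8 * Equiv.swap (6 : Fin 12) 7 * Equiv.swap (9 : Fin 12) 11 * Equiv.swap (9 : Fin 12) 10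
def qt : Γ := Equiv.swap (3 : Fin 12) 9 * Equiv.swap (3 : Fin 12) 6 * Equiv.swap (4 : Fin 12) 10 * Equiv.swap (4 : Fin 12) 7 * Equiv.swap (5 : Fin 12) 11 * Equiv.swap (5 : Fin 12) 8
def qu : Γ := Equiv.swap (4 : Fin 12) 9 * Equiv.swap (4 : Fin 12) 5 * Equiv.swap (4 : Fin 12) 6 * Equiv.swap (7 : Fin 12) 10 * Equiv.swap (7 : Fin 12) 11 * Equiv.swap (7 : Fin 12) 8
def qv : Γ := Equiv.swap (4 : Fin 12) 11 * Equiv.swap (4 : Fin 12) 5 * Equiv.swap (4 : Fin 12) 7 * Equiv.swap (6 : Fin 12) 8 * Equiv.swap (6 : Fin 12) 9 * Equiv.swap (6 : Fin 12) 10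
def qw : Γ := Equiv.swap (4 : Fin 12) 8 * Equiv.swap (4 : Fin 12) 5 * Equiv.swap (4 : Fin 12) 10 * Equiv.swap (6 : Fin 12) 7 * Equiv.swap (6 : Fin 12) 9 * Equiv.swap (6 : Fin 12) 11
def qx1 : Γ := Equiv.swap (0 : Fin 12) 3 * Equiv.swap (6 : Fin 12) 7 * Equiv.swap (8 : Fin 12) 10 * Equiv.swap (9 : Fin 12) 11
def qx2 : Γ := Equiv.swap (0 : Fin 12) 1 * Equiv.swap (6 : Fin 12) 9 * Equiv.swap (7 : Fin 12) 10 * Equiv.swap (8 : Fin 12) 11
def qx3 : Γ := Equiv.swap (1 : Fin 12) 2 * Equiv.swap (6 : Fin 12) 11 * Equiv.swap (7 : Fin 12) 9 * Equiv.swap (8 : Fin 12) 10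

def a0_2 : Γ := ⟨![0,1,2,3,4,5,6,7,8,9,10,11], ![0,1,2,3,4,5,6,7,8,9,10,11], fun x => by revert x; decide, fun x => by revert x; decide⟩
def a0_1 : Γ := ⟨![0,2,1,3,4,5,11,9,10,7,8,6], ![0,2,1,3,4,5,11,9,10,7,8,6], fun x => by revert x; decide, fun x => by revert x; decide⟩
def a0_0 : Γ := ⟨![1,2,0,3,4,5,8,6,7,10,11,9], ![2,0,1,3,4,5,7,8,6,11,9,10], fun x => by revert x; decide, fun x => by revert x; decide⟩
def a0_3 : Γ := ⟨![1,2,3,0,4,5,10,7,6,8,9,11], ![3,0,1,2,4,5,8,7,9,10,6,11], fun x => by revert x; decide, fun x => by revert x; decide⟩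
def a0_4 : Γ := ⟨![1,2,4,0,5,3,11,8,7,6,10,9], ![3,0,1,5,2,4,9,8,7,11,10,6], fun x => by revert x; decide, fun x => by revert x; decide⟩
def a0_6 : Γ := ⟨![1,2,6,0,7,8,4,10,9,11,3,5], ![3,0,1,10,6,11,2,4,5,8,7,9], fun x => by revert x; decide, fun x => by revert x; decide⟩
def a0_5 : Γ := ⟨![1,2,5,0,3,4,9,6,8,7,11,10], ![3,0,1,4,5,2,7,9,8,6,11,10], fun x => by revert x; decide, fun x => by revert x; decide⟩
def a0_7 : Γ := ⟨![1,2,7,0,8,6,5,11,10,9,4,3], ![3,0,1,11,10,6,5,2,4,9,8,7], fun x => by revert x; decide, fun x => by revert x; decide⟩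
def a0_10 : Γ := ⟨![1,2,10,0,8,3,9,4,6,11,5,7], ![3,0,1,5,7,10,8,11,4,6,2,9], fun x => by revert x; decide, fun x => by revert x; decide⟩
def a0_9 : Γ := ⟨![1,2,9,0,10,11,7,4,3,5,6,8], ![3,0,1,8,7,9,10,6,11,2,4,5], fun x => by revert x; decide, fun x => by revert x; decide⟩
def a0_11 : Γ := ⟨![1,2,11,0,6,4,10,5,7,9,3,8], ![3,0,1,10,5,7,4,8,11,9,6,2], fun x => by revert x; decide, fun x => by revert x; decide⟩
def a0_8 : Γ := ⟨![1,2,8,0,6,7,3,9,11,10,5,4], ![3,0,1,6,11,10,4,5,2,7,9,8], fun x => by revert x; decide, fun x => by revert x; decide⟩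

def a1_1 : Γ := ⟨![0,1,2,3,4,5,6,7,8,9,10,11], ![0,1,2,3,4,5,6,7,8,9,10,11], fun x => by revert x; decide, fun x => by revert x; decide⟩
def a1_0 : Γ := ⟨![1,0,2,3,4,5,9,10,11,6,7,8], ![1,0,2,3,4,5,9,10,11,6,7,8], fun x => by revert x; decide, fun x => by revert x; decide⟩
def a1_3 : Γ := ⟨![1,3,2,0,4,5,11,8,9,7,6,10], ![3,0,2,1,4,5,10,9,7,8,11,6], fun x => by revert x; decide, fun x => by revert x; decide⟩
def a1_4 : Γ := ⟨![1,4,2,0,5,3,9,6,10,8,7,11], ![3,0,2,5,1,4,7,10,9,6,8,11], fun x => by revert x; decide, fun x => by revert x; decide⟩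
def a1_6 : Γ := ⟨![1,6,2,0,7,8,5,11,3,10,9,4], ![3,0,2,8,11,6,1,4,5,10,9,7], fun x => by revert x; decide, fun x => by revert x; decide⟩
def a1_5 : Γ := ⟨![1,5,2,0,3,4,10,7,11,6,8,9], ![3,0,2,4,5,1,9,7,10,11,6,8], fun x => by revert x; decide, fun x => by revert x; decide⟩
def a1_7 : Γ := ⟨![1,7,2,0,8,6,3,9,4,11,10,5], ![3,0,2,6,8,11,5,1,4,7,10,9], fun x => by revert x; decide, fun x => by revert x; decide⟩
def a1_10 : Γ := ⟨![1,10,2,0,8,3,7,11,5,4,6,9], ![3,0,2,5,9,8,10,6,4,11,1,7], fun x => by revert x; decide, fun x => by revert x; decide⟩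
def a1_9 : Γ := ⟨![1,9,2,0,10,11,8,5,6,4,3,7], ![3,0,2,10,9,7,8,11,6,1,4,5], fun x => by revert x; decide, fun x => by revert x; decide⟩
def a1_11 : Γ := ⟨![1,11,2,0,6,4,8,9,3,5,7,10], ![3,0,2,8,5,9,4,10,6,7,11,1], fun x => by revert x; decide, fun x => by revert x; decide⟩
def a1_8 : Γ := ⟨![1,8,2,0,6,7,4,10,5,9,11,3], ![3,0,2,11,6,8,4,5,1,9,7,10], fun x => by revert x; decide, fun x => by revert x; decide⟩

def a2_0 : Γ := ⟨![0,1,2,3,4,5,6,7,8,9,10,11], ![0,1,2,3,4,5,6,7,8,9,10,11], fun x => by revert x; decide, fun x => by revert x; decide⟩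
def a2_3 : Γ := ⟨![3,1,2,0,4,5,7,6,10,11,8,9], ![3,1,2,0,4,5,7,6,10,11,8,9], fun x => by revert x; decide, fun x => by revert x; decide⟩
def a2_4 : Γ := ⟨![4,1,2,0,5,3,8,7,11,9,6,10], ![3,1,2,5,0,4,10,7,6,9,11,8], fun x => by revert x; decide, fun x => by revert x; decide⟩
def a2_6 : Γ := ⟨![6,1,2,0,7,8,10,9,4,5,11,3], ![3,1,2,11,8,9,0,4,5,7,6,10], fun x => by revert x; decide, fun x => by revert x; decide⟩
def a2_5 : Γ := ⟨![5,1,2,0,3,4,6,8,9,10,7,11], ![3,1,2,4,5,0,6,10,7,8,9,11], fun x => by revert x; decide, fun x => by revert x; decide⟩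
def a2_7 : Γ := ⟨![7,1,2,0,8,6,11,10,5,3,9,4], ![3,1,2,9,11,8,5,0,4,10,7,6], fun x => by revert x; decide, fun x => by revert x; decide⟩
def a2_10 : Γ := ⟨![10,1,2,0,8,3,4,6,9,7,11,5], ![3,1,2,5,6,11,7,9,4,8,0,10], fun x => by revert x; decide, fun x => by revert x; decide⟩
def a2_9 : Γ := ⟨![9,1,2,0,10,11,4,3,7,8,5,6], ![3,1,2,7,6,10,11,8,9,0,4,5], fun x => by revert x; decide, fun x => by revert x; decide⟩
def a2_11 : Γ := ⟨![11,1,2,0,6,4,5,7,10,8,9,3], ![3,1,2,11,5,6,4,7,9,10,8,0], fun x => by revert x; decide, fun x => by revert x; decide⟩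
def a2_8 : Γ := ⟨![8,1,2,0,6,7,9,11,3,4,10,5], ![3,1,2,8,9,11,4,5,0,6,10,7], fun x => by revert x; decide, fun x => by revert x; decide⟩

def a3_3 : Γ := ⟨![0,1,2,3,4,5,6,7,8,9,10,11], ![0,1,2,3,4,5,6,7,8,9,10,11], fun x => by revert x; decide, fun x => by revert x; decide⟩
def a3_4 : Γ := ⟨![0,1,2,4,5,3,7,8,6,10,11,9], ![0,1,2,5,3,4,8,6,7,11,9,10], fun x => by revert x; decide, fun x => by revert x; decide⟩
def a3_6 : Γ := ⟨![0,1,2,6,7,8,9,10,11,3,4,5], ![0,1,2,9,10,11,3,4,5,6,7,8], fun x => by revert x; decide, fun x => by revert x; decide⟩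
def a3_5 : Γ := ⟨![0,1,2,5,3,4,8,6,7,11,9,10], ![0,1,2,4,5,3,7,8,6,10,11,9], fun x => by revert x; decide, fun x => by revert x; decide⟩
def a3_7 : Γ := ⟨![0,1,2,7,8,6,10,11,9,4,5,3], ![0,1,2,11,9,10,5,3,4,8,6,7], fun x => by revert x; decide, fun x => by revert x; decide⟩
def a3_10 : Γ := ⟨![0,1,2,10,8,3,6,4,11,5,9,7], ![0,1,2,5,7,9,6,11,4,10,3,8], fun x => by revert x; decide, fun x => by revert x; decide⟩
def a3_9 : Γ := ⟨![0,1,2,9,10,11,3,4,5,6,7,8], ![0,1,2,6,7,8,9,10,11,3,4,5], fun x => by revert x; decide, fun x => by revert x; decide⟩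
def a3_11 : Γ := ⟨![0,1,2,11,6,4,7,5,9,3,10,8], ![0,1,2,9,5,7,4,6,11,8,10,3], fun x => by revert x; decide, fun x => by revert x; decide⟩
def a3_8 : Γ := ⟨![0,1,2,8,6,7,11,9,10,5,3,4], ![0,1,2,10,11,9,4,5,3,7,8,6], fun x => by revert x; decide, fun x => by revert x; decide⟩

def a4_4 : Γ := ⟨![0,1,2,3,4,5,6,7,8,9,10,11], ![0,1,2,3,4,5,6,7,8,9,10,11], fun x => by revert x; decide, fun x => by revert x; decide⟩
def a4_6 : Γ := ⟨![0,1,2,3,6,9,5,8,11,4,7,10], ![0,1,2,3,9,6,4,10,7,5,11,8], fun x => by revert x; decide, fun x => by revert x; decide⟩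
def a4_7 : Γ := ⟨![0,1,2,3,7,11,10,5,6,8,9,4], ![0,1,2,3,11,7,8,4,9,10,6,5], fun x => by revert x; decide, fun x => by revert x; decide⟩
def a4_10 : Γ := ⟨![0,1,2,3,10,8,11,6,4,7,5,9], ![0,1,2,3,8,10,7,9,5,11,4,6], fun x => by revert x; decide, fun x => by revert x; decide⟩
def a4_5 : Γ := ⟨![0,1,2,3,5,4,9,11,10,6,8,7], ![0,1,2,3,5,4,9,11,10,6,8,7], fun x => by revert x; decide, fun x => by revert x; decide⟩
def a4_11 : Γ := ⟨![0,1,2,3,11,7,8,4,9,10,6,5], ![0,1,2,3,7,11,10,5,6,8,9,4], fun x => by revert x; decide, fun x => by revert x; decide⟩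
def a4_8 : Γ := ⟨![0,1,2,3,8,10,7,9,5,11,4,6], ![0,1,2,3,10,8,11,6,4,7,5,9], fun x => by revert x; decide, fun x => by revert x; decide⟩
def a4_9 : Γ := ⟨![0,1,2,3,9,6,4,10,7,5,11,8], ![0,1,2,3,6,9,5,8,11,4,7,10], fun x => by revert x; decide, fun x => by revert x; decide⟩

def S0 : List Γ := [qs, qt, qu, qv, qw, qx1, qx2, qx3]
def S1 : List Γ := [qs, qt, qu, qv, qw, qx1, qx2]
def S2 : List Γ := [qs, qt, qu, qv, qw, qx1]
def S3 : List Γ := [qs, qt, qu, qv, qw]
def S4 : List Γ := [qu, qv, qw]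
def U0 : List Γ := [a0_8, a0_11, a0_9, a0_10, a0_7, a0_5, a0_6, a0_4, a0_3, a0_0, a0_1, a0_2]
def U1 : List Γ := [a1_8, a1_11, a1_9, a1_10, a1_7, a1_5, a1_6, a1_4, a1_3, a1_0, a1_1]
def U2 : List Γ := [a2_8, a2_11, a2_9, a2_10, a2_7, a2_5, a2_6, a2_4, a2_3, a2_0]
def U3 : List Γ := [a3_8, a3_11, a3_9, a3_10, a3_7, a3_5, a3_6, a3_4, a3_3]
def U4 : List Γ := [a4_9, a4_8, a4_11, a4_5, a4_10, a4_7, a4_6, a4_4]

def L4 : List (Fin 12 × List Γ) := [(4, U4)]
def L3 : List (Fin 12 × List Γ) := (3, U3) :: L4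
def L2 : List (Fin 12 × List Γ) := (0, U2) :: L3
def L1 : List (Fin 12 × List Γ) := (1, U1) :: L2
def L0 : List (Fin 12 × List Γ) := (2, U0) :: L1

def bs : Fin 5 → Fin 12 := ![2, 1, 0, 3, 4]
def Ulev : Fin 5 → List Γ := ![U0, U1, U2, U3, U4]

theorem tree_4 : treeOK S4 U4 = true := by decide +kernel
theorem tree_3 : treeOK S3 U3 = true := by decide +kernel
theorem tree_2 : treeOK S2 U2 = true := by decide +kernel
theorem tree_1 : treeOK S1 U1 = true := by decide +kernel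
theorem tree_0 : treeOK S0 U0 = true := by decide +kernel

theorem one_4 : (1 : Γ) ∈ U4 := by decide +kernel
theorem one_3 : (1 : Γ) ∈ U3 := by decide +kernel
theorem one_2 : (1 : Γ) ∈ U2 := by decide +kernel
theorem one_1 : (1 : Γ) ∈ U1 := by decide +kernel
theorem one_0 : (1 : Γ) ∈ U0 := by decide +kernel

/-- Boolean form of the Schreier generator check. -/
def schB (S U : List Γ) (L : List (Fin 12 × List Γ)) : Bool :=
  S.all (fun s => U.all (fun u => sift L (s * u)))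

theorem schB_sound (S U : List Γ) (L : List (Fin 12 × List Γ)) (h : schB S U L = true) :
    ∀ s ∈ S, ∀ u ∈ U, sift L (s * u) = true := by
  intro s hs u hu
  simp only [schB, List.all_eq_true] at h
  exact h s hs u hu

theorem sch_4 : schB S4 U4 ((4, U4) :: []) = true := by decide +kernel
theorem sch_3 : schB S3 U3 ((3, U3) :: L4) = true := by decide +kernel
theorem sch_2 : schB S2 U2 ((0, U2) :: L3) = true := by decide +kernel
theorem sch_1 : schB S1 U1 ((1, U1) :: L2) = true := by decide +kernel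
theorem sch_0 : schB S0 U0 ((2, U0) :: L1) = true := by decide +kernel

/-- Boolean list inclusion. -/
def subB (A B : List Γ) : Bool := A.all (fun s => decide (s ∈ B))

theorem subB_sound (A B : List Γ) (h : subB A B = true) :
    ({s | s ∈ A} : Set Γ) ⊆ {s | s ∈ B} := by
  intro s hs
  simp only [subB, List.all_eq_true, decide_eq_true_eq] at h
  exact h s hs

theorem sub_3 : subB S4 S3 = true := by decide +kernel
theorem sub_2 : subB S3 S2 = true := by decide +kernel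
theorem sub_1 : subB S2 S1 = true := by decide +kernel
theorem sub_0 : subB S1 S0 = true := by decide +kernel

theorem good_0 : good L0 = true := by decide +kernel

theorem hfixB : ∀ i : Fin 5, (Ulev i).all
    (fun u => decide (∀ j : Fin 5, j < i → u (bs j) = bs j)) = true := by
  decide +kernel

theorem hfix : ∀ i : Fin 5, ∀ u ∈ Ulev i, ∀ j : Fin 5, j < i → u (bs j) = bs j := by
  intro i u hu
  have h := hfixB i
  simp only [List.all_eq_true, decide_eq_true_eq] at h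
  exact h u hu

theorem hcovB : ∀ i : Fin 5, ∀ p : Fin 12, (∀ j : Fin 5, j < i → p ≠ bs j) →
    (Ulev i).any (fun u => decide (u (bs i) = p)) = true := by
  decide +kernel

theorem hcov : ∀ i : Fin 5, ∀ p : Fin 12, (∀ j : Fin 5, j < i → p ≠ bs j) →
    ∃ u ∈ Ulev i, u (bs i) = p := by
  intro i p hp
  have h := hcovB i p hp
  simp only [List.any_eq_true, decide_eq_true_eq] at h
  exact h

theorem fix2B : S1.all (fun s => decide (s (2 : Fin 12) = 2)) = true := by decide +kernel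

theorem fix2 : ∀ s ∈ S1, s (2 : Fin 12) = 2 := by
  intro s hs
  have h := fix2B
  simp only [List.all_eq_true, decide_eq_true_eq] at h
  exact h s hs

theorem fixL1 : fixAll (2 : Fin 12) L1 = true := by decide +kernel

theorem u0fixB : U0.all (fun u => !decide (u (2 : Fin 12) = 2) || decide (u = 1)) = true := by
  decide +kernel

theorem u0fix : ∀ u ∈ U0, u (2 : Fin 12) = 2 → u = 1 := by
  intro u hu h2
  have h := u0fixB
  simp only [List.all_eq_true, Bool.or_eq_true, Bool.not_eq_true', decide_eq_false_iff_not,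
    decide_eq_true_eq] at h
  rcases h u hu with h | h
  · exact absurd h2 h
  · exact h

theorem bs_inj : Function.Injective bs := by
  intro a b
  revert a b
  decide

theorem mem_lev (M : Subgroup Γ) (h0 : ∀ u ∈ U0, u ∈ M) (h1 : ∀ u ∈ U1, u ∈ M)
    (h2 : ∀ u ∈ U2, u ∈ M) (h3 : ∀ u ∈ U3, u ∈ M) (h4 : ∀ u ∈ U4, u ∈ M) :
    ∀ i : Fin 5, ∀ u ∈ Ulev i, u ∈ M := by
  intro i
  fin_cases i
  · exact h0
  · exact h1
  · exact h2
  · exact h3
  · exact h4

theorem to_base (M : Subgroup Γ) (hmem : ∀ i : Fin 5, ∀ u ∈ Ulev i, u ∈ M) (x : Fin 5 ↪ Fin 12) :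
    ∀ k : ℕ, k ≤ 5 → ∃ g ∈ M, ∀ j : Fin 5, j.val < k → g (x j) = bs j := by
  intro k
  induction k with
  | zero => intro _; exact ⟨1, M.one_mem, fun j hj => absurd hj (Nat.not_lt_zero _)⟩
  | succ k ih =>
    intro hk
    obtain ⟨g, hg, hgx⟩ := ih (by omega)
    have hk5 : k < 5 := by omega
    have hp : ∀ j : Fin 5, j < (⟨k, hk5⟩ : Fin 5) → g (x ⟨k, hk5⟩) ≠ bs j := by
      intro j hj h
      have h1 : g (x ⟨k, hk5⟩) = g (x j) := by rw [h, hgx j hj]
      have h2 := x.injective (g.injective h1)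
      exact absurd h2 (ne_of_gt hj)
    obtain ⟨u, hu, hub⟩ := hcov ⟨k, hk5⟩ (g (x ⟨k, hk5⟩)) hp
    refine ⟨u⁻¹ * g, M.mul_mem (M.inv_mem (hmem _ u hu)) hg, ?_⟩
    intro j hj
    rcases Nat.lt_succ_iff_lt_or_eq.mp hj with h | h
    · have hji : j < (⟨k, hk5⟩ : Fin 5) := h
      rw [Equiv.Perm.mul_apply, hgx j h, Equiv.Perm.inv_eq_iff_eq]
      exact (hfix _ u hu j hji).symm
    · have hji : j = (⟨k, hk5⟩ : Fin 5) := Fin.ext h
      rw [hji, Equiv.Perm.mul_apply, Equiv.Perm.inv_eq_iff_eq]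
      exact hub.symm

theorem core (M12 M11 : Subgroup Γ) (h12 : M12 = Subgroup.closure {s | s ∈ S0})
    (h11 : M11 = Subgroup.closure {s | s ∈ S1}) :
    MulAction.IsMultiplyPretransitive M12 (Fin 12) 5 ∧
    (∀ y : Fin 5 ↪ Fin 12, MulAction.stabilizer M12 y = ⊥) ∧
    Nat.card M12 = 95040 ∧ Nat.card M11 = 7920 ∧
    M11 = M12 ⊓ MulAction.stabilizer (Equiv.Perm (Fin 12)) (2 : Fin 12) := by
  have hL4 : ∀ g, g ∈ Subgroup.closure {s | s ∈ S4} ↔ g ∈ Mset L4 :=
    level_step S4 U4 4 [] ⊥ (fun g => by simp [Mset]) bot_le one_4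
      (treeOK_sound S4 U4 tree_4) (schB_sound _ _ _ sch_4)
  have c43 : Subgroup.closure {s | s ∈ S4} ≤ Subgroup.closure {s | s ∈ S3} :=
    Subgroup.closure_mono (subB_sound _ _ sub_3)
  have c32 : Subgroup.closure {s | s ∈ S3} ≤ Subgroup.closure {s | s ∈ S2} :=
    Subgroup.closure_mono (subB_sound _ _ sub_2)
  have c21 : Subgroup.closure {s | s ∈ S2} ≤ Subgroup.closure {s | s ∈ S1} :=
    Subgroup.closure_mono (subB_sound _ _ sub_1)
  have c10 : Subgroup.closure {s | s ∈ S1} ≤ Subgroup.closure {s | s ∈ S0} :=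
    Subgroup.closure_mono (subB_sound _ _ sub_0)
  have hL3 : ∀ g, g ∈ Subgroup.closure {s | s ∈ S3} ↔ g ∈ Mset L3 :=
    level_step S3 U3 3 L4 _ hL4 c43 one_3 (treeOK_sound S3 U3 tree_3) (schB_sound _ _ _ sch_3)
  have hL2 : ∀ g, g ∈ Subgroup.closure {s | s ∈ S2} ↔ g ∈ Mset L2 :=
    level_step S2 U2 0 L3 _ hL3 c32 one_2 (treeOK_sound S2 U2 tree_2) (schB_sound _ _ _ sch_2)
  have hL1 : ∀ g, g ∈ Subgroup.closure {s | s ∈ S1} ↔ g ∈ Mset L1 :=
    level_step S1 U1 1 L2 _ hL2 c21 one_1 (treeOK_sound S1 U1 tree_1) (schB_sound _ _ _ sch_1)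
  have hL0 : ∀ g, g ∈ Subgroup.closure {s | s ∈ S0} ↔ g ∈ Mset L0 :=
    level_step S0 U0 2 L1 _ hL1 c10 one_0 (treeOK_sound S0 U0 tree_0) (schB_sound _ _ _ sch_0)
  subst h12 h11
  generalize hM : Subgroup.closure {s | s ∈ S0} = M at *
  have hmem : ∀ i : Fin 5, ∀ u ∈ Ulev i, u ∈ M := by
    exact mem_lev _ (fun u hu => hM ▸ treeOK_sound S0 U0 tree_0 u hu)
      (fun u hu => c10 (treeOK_sound S1 U1 tree_1 u hu))
      (fun u hu => c10 (c21 (treeOK_sound S2 U2 tree_2 u hu)))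
      (fun u hu => c10 (c21 (c32 (treeOK_sound S3 U3 tree_3 u hu))))
      (fun u hu => c10 (c21 (c32 (c43 (treeOK_sound S4 U4 tree_4 u hu)))))
  have hbase : ∀ x : Fin 5 ↪ Fin 12, ∃ g ∈ M, ∀ j : Fin 5, g (x j) = bs j := by
    intro x
    obtain ⟨g, hg, h⟩ := to_base M hmem x 5 le_rfl
    exact ⟨g, hg, fun j => h j j.2⟩
  have hstab : ∀ k ∈ M, (∀ j : Fin 5, k (bs j) = bs j) → k = 1 := by
    intro k hk hfixk
    refine good_sound L0 good_0 k ((hL0 k).mp hk) ?_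
    intro bU hbU
    simp only [L0, L1, L2, L3, L4, List.mem_cons, List.not_mem_nil, or_false] at hbU
    rcases hbU with rfl | rfl | rfl | rfl | rfl
    · exact hfixk 0
    · exact hfixk 1
    · exact hfixk 2
    · exact hfixk 3
    · exact hfixk 4
  have htrans : MulAction.IsMultiplyPretransitive M (Fin 12) 5 := by
    rw [MulAction.isMultiplyPretransitive_iff]
    intro x y
    obtain ⟨g, hg, hgx⟩ := hbase x
    obtain ⟨g', hg', hgy⟩ := hbase y
    refine ⟨⟨g'⁻¹ * g, M.mul_mem (M.inv_mem hg') hg⟩, ?_⟩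
    ext j
    show ((g'⁻¹ * g) (x j) : ℕ) = y j
    rw [Equiv.Perm.mul_apply, hgx j]
    congr 1
    rw [Equiv.Perm.inv_eq_iff_eq, hgy j]
  have hstabT : ∀ y : Fin 5 ↪ Fin 12, MulAction.stabilizer M y = ⊥ := by
    intro y
    rw [Subgroup.eq_bot_iff_forall]
    intro h hh
    rw [MulAction.mem_stabilizer_iff] at hh
    obtain ⟨g, hg, hgy⟩ := hbase y
    have hhy : ∀ j, (h : Γ) (y j) = y j := by
      intro j
      exact DFunLike.congr_fun hh j
    have h1 : g * (h : Γ) * g⁻¹ = 1 := by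
      apply hstab _ (M.mul_mem (M.mul_mem hg h.2) (M.inv_mem hg))
      intro j
      rw [Equiv.Perm.mul_apply, Equiv.Perm.mul_apply]
      have h2 : g⁻¹ (bs j) = y j := by rw [Equiv.Perm.inv_eq_iff_eq, hgy j]
      rw [h2, hhy j, hgy j]
    apply Subtype.ext
    show (h : Γ) = 1
    calc (h : Γ) = g⁻¹ * (g * (h : Γ) * g⁻¹) * g := by group
      _ = 1 := by rw [h1]; group
  have hcard : Nat.card M = 95040 := by
    have hbij : Function.Bijective (fun g : M => g • (⟨bs, bs_inj⟩ : Fin 5 ↪ Fin 12)) := by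
      constructor
      · intro a b hab
        have hab' : a • (⟨bs, bs_inj⟩ : Fin 5 ↪ Fin 12) = b • (⟨bs, bs_inj⟩ : Fin 5 ↪ Fin 12) := hab
        have h1 : (b⁻¹ * a) • (⟨bs, bs_inj⟩ : Fin 5 ↪ Fin 12) = ⟨bs, bs_inj⟩ := by
          calc (b⁻¹ * a) • (⟨bs, bs_inj⟩ : Fin 5 ↪ Fin 12)
              = b⁻¹ • (a • (⟨bs, bs_inj⟩ : Fin 5 ↪ Fin 12)) := mul_smul _ _ _
            _ = b⁻¹ • (b • (⟨bs, bs_inj⟩ : Fin 5 ↪ Fin 12)) := by rw [hab']
            _ = _ := inv_smul_smul _ _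
        have h2 : b⁻¹ * a ∈ MulAction.stabilizer M (⟨bs, bs_inj⟩ : Fin 5 ↪ Fin 12) := h1
        rw [hstabT, Subgroup.mem_bot] at h2
        exact (inv_mul_eq_one.mp h2).symm
      · intro y
        exact MulAction.exists_smul_eq M _ y
    rw [Nat.card_congr (Equiv.ofBijective _ hbij), Nat.card_eq_fintype_card,
      Fintype.card_embedding_eq, Fintype.card_fin, Fintype.card_fin]
    rfl
  have h11eq : Subgroup.closure {s | s ∈ S1} = M ⊓ MulAction.stabilizer Γ (2 : Fin 12) := by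
    apply le_antisymm
    · apply le_inf c10
      rw [Subgroup.closure_le]
      intro s hs
      exact fix2 s hs
    · rintro g ⟨hgM, hg2⟩
      obtain ⟨u, hu, hk⟩ := (hL0 g).mp hgM
      have hk' : u⁻¹ * g ∈ Subgroup.closure {s | s ∈ S1} := (hL1 _).mpr hk
      have hk2 : (u⁻¹ * g) (2 : Fin 12) = 2 := fixAll_sound 2 L1 fixL1 _ hk
      have hu2 : u (2 : Fin 12) = 2 := by
        have h3 : g = u * (u⁻¹ * g) := by group
        have h4 : g (2 : Fin 12) = 2 := hg2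
        rw [h3, Equiv.Perm.mul_apply, hk2] at h4
        exact h4
      have hu1 : u = 1 := u0fix u hu hu2
      rw [hu1, inv_one, one_mul] at hk'
      exact hk'
  have hcard11 : Nat.card (Subgroup.closure {s | s ∈ S1}) = 7920 := by
    rw [h11eq]
    have h1 : ((M ⊓ MulAction.stabilizer Γ (2 : Fin 12)).subgroupOf M)
        = MulAction.stabilizer M (2 : Fin 12) := by
      ext ⟨g, hg⟩
      simp only [Subgroup.mem_subgroupOf, Subgroup.mem_inf, MulAction.mem_stabilizer_iff]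
      constructor
      · rintro ⟨_, h⟩; exact h
      · intro h; exact ⟨hg, h⟩
    have h2 : Nat.card ((M ⊓ MulAction.stabilizer Γ (2 : Fin 12)).subgroupOf M)
        = Nat.card (M ⊓ MulAction.stabilizer Γ (2 : Fin 12) : Subgroup Γ) :=
      Nat.card_congr (Subgroup.subgroupOfEquivOfLe inf_le_left).toEquiv
    have h3 : (MulAction.stabilizer M (2 : Fin 12)).index = 12 := by
      rw [MulAction.index_stabilizer]
      have h5 : MulAction.orbit M (2 : Fin 12) = Set.univ := by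
        ext p
        simp only [Set.mem_univ, iff_true]
        obtain ⟨u, hu, hup⟩ := hcov 0 p (fun j hj => absurd hj (Fin.not_lt_zero j))
        exact ⟨⟨u, hmem 0 u hu⟩, hup⟩
      rw [h5, Set.ncard_univ, Nat.card_eq_fintype_card, Fintype.card_fin]
    have h4 := Subgroup.card_mul_index (MulAction.stabilizer M (2 : Fin 12))
    rw [h3, ← h1, h2, hcard] at h4
    omega
  exact ⟨htrans, hstabT, hcard, hcard11, h11eq⟩

/-- An explicit construction of the Mathieu groups of degrees 11 and 12. On the points 0, …, 11 let s = (3 4 5)(6 7 8)(9 10 11), t = (3 6 9)(4 7 10)(5 8 11), u = (4 6 5 9)(7 8 11 10), v = (4 7 5 11)(6 10 9 8), w = (4 10 5 8)(6 11 9 7), x₁ = (0 3)(6 7)(8 10)(9 11), x₂ = (0 1)(6 9)(7 10)(8 11), x₃ = (1 2)(6 11)(7 9)(8 10) (each written as a product of transpositions). Then the group M₁₂ generated by all eight permutations is sharply 5-transitive on the 12 points and has order 95040, and the group M₁₁ generated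 by the first seven has order 7920 and is the stabilizer of the point 2 in M₁₂. -/
theorem result
    (s t u v w x₁ x₂ x₃ : Equiv.Perm (Fin 12))
    (hs : s = Equiv.swap (3 : Fin 12) 5 * Equiv.swap (3 : Fin 12) 4 * Equiv.swap (6 : Fin 12) 8 * Equiv.swap (6 : Fin 12) 7 * Equiv.swap (9 : Fin 12) 11 * Equiv.swap (9 : Fin 12) 10) (ht : t = Equiv.swap (3 : Fin 12) 9 * Equiv.swap (3 : Fin 12) 6 * Equiv.swap (4 : Fin 12) 10 * Equiv.swap (4 : Fin 12) 7 * Equiv.swap (5 : Fin 12) 11 * Equiv.swap (5 : Fin 12) 8)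
    (hu : u = Equiv.swap (4 : Fin 12) 9 * Equiv.swap (4 : Fin 12) 5 * Equiv.swap (4 : Fin 12) 6 * Equiv.swap (7 : Fin 12) 10 * Equiv.swap (7 : Fin 12) 11 * Equiv.swap (7 : Fin 12) 8) (hv : v = Equiv.swap (4 : Fin 12) 11 * Equiv.swap (4 : Fin 12) 5 * Equiv.swap (4 : Fin 12) 7 * Equiv.swap (6 : Fin 12) 8 * Equiv.swap (6 : Fin 12) 9 * Equiv.swap (6 : Fin 12) 10) (hw : w = Equiv.swap (4 : Fin 12) 8 * Equiv.swap (4 : Fin 12) 5 * Equiv.swap (4 : Fin 12) 10 * Equiv.swap (6 : Fin 12) 7 * Equiv.swap (6 : Fin 12) 9 * Equiv.swap (6 : Fin 12) 11)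
    (hx₁ : x₁ = Equiv.swap (0 : Fin 12) 3 * Equiv.swap (6 : Fin 12) 7 * Equiv.swap (8 : Fin 12) 10 * Equiv.swap (9 : Fin 12) 11) (hx₂ : x₂ = Equiv.swap (0 : Fin 12) 1 * Equiv.swap (6 : Fin 12) 9 * Equiv.swap (7 : Fin 12) 10 * Equiv.swap (8 : Fin 12) 11)
    (hx₃ : x₃ = Equiv.swap (1 : Fin 12) 2 * Equiv.swap (6 : Fin 12) 11 * Equiv.swap (7 : Fin 12) 9 * Equiv.swap (8 : Fin 12) 10)
    (M₁₂ M₁₁ : Subgroup (Equiv.Perm (Fin 12))) (hM₁₂ : M₁₂ = Subgroup.closure {s, t, u, v, w, x₁, x₂, x₃})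
    (hM₁₁ : M₁₁ = Subgroup.closure {s, t, u, v, w, x₁, x₂}) :
    MulAction.IsMultiplyPretransitive M₁₂ (Fin 12) 5 ∧ (∀ y : Fin 5 ↪ Fin 12, MulAction.stabilizer M₁₂ y = ⊥) ∧
    Nat.card M₁₂ = 95040 ∧ Nat.card M₁₁ = 7920 ∧
    M₁₁ = M₁₂ ⊓ MulAction.stabilizer (Equiv.Perm (Fin 12)) (2 : Fin 12) := by
  have e0 : ({qs, qt, qu, qv, qw, qx1, qx2, qx3} : Set Γ) = {s | s ∈ S0} := by
    ext g; simp [S0]
  have e1 : ({qs, qt, qu, qv, qw, qx1, qx2} : Set Γ) = {s | s ∈ S1} := by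
    ext g; simp [S1]
  subst hs ht hu hv hw hx₁ hx₂ hx₃
  exact core M₁₂ M₁₁ (hM₁₂.trans (congrArg Subgroup.closure e0))
    (hM₁₁.trans (congrArg Subgroup.closure e1))

end Cfsg.Agent.S3362
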