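import Cfsg.Statements.S3784
import Mathlib

set_option autoImplicit false
open Cfsg

namespace Cfsg.Agent.S3784

theorem two_pow_dvd_of_odd_pow {x y : ℤ} {n k : ℕ} (hxy : (2:ℤ) ∣ x - y) (hx : ¬ (2:ℤ) ∣ x)
    (hn : Odd n) (h : (2:ℤ)^k ∣ x^n - y^n) : (2:ℤ)^k ∣ x - y := by
  have hn2 : ¬ (2:ℤ) ∣ (n : ℤ) := by
    intro hd
    have : (2:ℕ) ∣ n := by exact_mod_cast hd
    exact (Nat.not_even_iff_odd.mpr hn) (even_iff_two_dvd.mpr this)
  have hS := not_dvd_geom_sum₂ Int.prime_two hxy hx hn2
  rw [← geom_sum₂_mul] at h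
  have hcop : IsCoprime ((2:ℤ)^k) (∑ i ∈ Finset.range n, x ^ i * y ^ (n - 1 - i)) :=
    IsCoprime.pow_left ((Int.prime_two.irreducible.coprime_iff_not_dvd).mpr hS)
  exact hcop.dvd_of_dvd_mul_left h

theorem odd_not_two_dvd_int {q : ℕ} (hq : Odd q) : ¬ (2:ℤ) ∣ (q : ℤ) := by
  intro hd
  have : (2:ℕ) ∣ q := by exact_mod_cast hd
  exact (Nat.not_even_iff_odd.mpr hq) (even_iff_two_dvd.mpr this)

theorem four_dvd_two_pow {a : ℕ} (ha : 2 ≤ a) : 4 ∣ 2 ^ a := by
  obtain ⟨d, rfl⟩ := Nat.exists_eq_add_of_le ha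
  rw [pow_add]; norm_num

theorem odd_sq_mod_four {x : ℕ} (hx : Odd x) : x ^ 2 % 4 = 1 := by
  obtain ⟨k, rfl⟩ := hx
  have : (2 * k + 1) ^ 2 = 4 * (k * k + k) + 1 := by ring
  rw [this]; omega

/-- Let p, q be primes and a, b positive integers with p^a = q^b + 1. Then either p = 2, b = 1, a is prime and q = 2^a − 1; or q = 2, a = 1, b is a power of 2 and p = 2^b + 1; or p^a = 9 and q^b = 8. -/
theorem result (p q a b : ℕ) (hp : p.Prime) (hq : q.Prime) (ha : 1 ≤ a) (hb : 1 ≤ b) (h : p ^ a = q ^ b + 1) : (p = 2 ∧ b = 1 ∧ a.Prime ∧ q + 1 = 2 ^ a) ∨ (q = 2 ∧ a = 1 ∧ (∃ m : ℕ, b = 2 ^ m) ∧ p = 2 ^ b + 1) ∨ (p ^ a = 9 ∧ q ^ b = 8) := by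
  rcases hp.eq_two_or_odd' with rfl | hpodd
  · left
    have hqodd : Odd q := by
      rcases hq.eq_two_or_odd' with rfl | h'
      · exfalso
        have h1 : Even (2 ^ a) := (Nat.even_pow.mpr ⟨even_two, by omega⟩)
        have h2 : Even (2 ^ b) := (Nat.even_pow.mpr ⟨even_two, by omega⟩)
        rw [h] at h1
        rcases h1 with ⟨u, hu⟩
        rcases h2 with ⟨v, hv⟩
        omega
      · exact h'
    have hb1 : b = 1 := by
      rcases Nat.even_or_odd b with hbe | hbo
      · exfalso
        obtain ⟨c, rfl⟩ := hbe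
        have hqc : Odd (q ^ c) := hqodd.pow
        have h4 : (q ^ c) ^ 2 % 4 = 1 := odd_sq_mod_four hqc
        have e : q ^ (c + c) = (q ^ c) ^ 2 := by rw [← pow_mul]; congr 1; omega
        rw [e] at h
        have ha1 : a = 1 := by
          by_contra hne
          have := four_dvd_two_pow (a := a) (by omega)
          omega
        subst ha1
        have h1 : 1 < (q ^ c) ^ 2 := Nat.one_lt_pow (by norm_num) (Nat.one_lt_pow (by omega) hq.one_lt)
        omega
      · have hdiv : (2:ℤ)^a ∣ (q:ℤ) - (-1) := by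
          apply two_pow_dvd_of_odd_pow (n := b) _ (odd_not_two_dvd_int hqodd) hbo
          · rw [hbo.neg_one_pow]
            have : ((2:ℤ)^a) = (q:ℤ)^b + 1 := by exact_mod_cast h
            rw [this, sub_neg_eq_add]
          · obtain ⟨k, rfl⟩ := hqodd
            exact ⟨k + 1, by push_cast; ring⟩
        have hdiv' : 2^a ∣ q + 1 := by
          rw [sub_neg_eq_add] at hdiv
          exact_mod_cast hdiv
        have hle : 2^a ≤ q + 1 := Nat.le_of_dvd (by omega) hdiv'
        have h1 : q ^ b ≤ q ^ 1 := by rw [pow_one]; omega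
        have h2 : b ≤ 1 := (Nat.pow_le_pow_iff_right hq.one_lt).mp h1
        omega
    subst hb1
    rw [pow_one] at h
    refine ⟨rfl, rfl, ?_, h.symm⟩
    have ha1 : a ≠ 1 := by
      rintro rfl
      have : q = 1 := by omega
      exact hq.one_lt.ne' this
    have hq' : (2 ^ a - 1).Prime := by
      have : 2 ^ a - 1 = q := by omega
      rw [this]; exact hq
    exact (Nat.prime_of_pow_sub_one_prime ha1 hq').2
  · right
    have hq2 : q = 2 := by
      rcases hq.eq_two_or_odd' with rfl | hqodd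
      · rfl
      · exfalso
        have h1 : Odd (p ^ a) := hpodd.pow
        have h2 : Odd (q ^ b) := hqodd.pow
        rw [h] at h1
        rcases h1 with ⟨u, hu⟩
        rcases h2 with ⟨v, hv⟩
        omega
    subst hq2
    rcases Nat.even_or_odd a with hae | hao
    · right
      obtain ⟨c, rfl⟩ := hae
      have hc : 1 ≤ c := by omega
      have e : p ^ (c + c) = (p ^ c) ^ 2 := by rw [← pow_mul]; congr 1; omega
      rw [e] at h
      set x := p ^ c with hx
      have hx2 : 2 ≤ x := by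
        have := Nat.one_lt_pow (n := c) (by omega) hp.one_lt
        omega
      have hfac : (x - 1) * (x + 1) = 2 ^ b := by
        have : (x - 1) * (x + 1) = x ^ 2 - 1 := by
          zify [show 1 ≤ x by omega, show 1 ≤ x ^ 2 from Nat.one_le_pow _ _ (by omega)]
          ring
        rw [this, h, Nat.add_sub_cancel]
      have hd1 : x - 1 ∣ 2 ^ b := ⟨x + 1, hfac.symm⟩
      have hd2 : x + 1 ∣ 2 ^ b := ⟨x - 1, by rw [mul_comm]; exact hfac.symm⟩
      obtain ⟨i, hi, hi'⟩ := (Nat.dvd_prime_pow Nat.prime_two).mp hd1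
      obtain ⟨j, hj, hj'⟩ := (Nat.dvd_prime_pow Nat.prime_two).mp hd2
      have hij : 2 ^ i + 2 = 2 ^ j := by omega
      have hi1 : i = 1 := by
        rcases Nat.lt_or_ge i 2 with hlt | hge
        · interval_cases i
          · exfalso
            have : 2 ^ j = 3 := by omega
            rcases Nat.lt_or_ge j 2 with hj2 | hj2
            · interval_cases j <;> omega
            · have := four_dvd_two_pow hj2; omega
          · rfl
        · exfalso
          have h4i := four_dvd_two_pow hge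
          rcases Nat.lt_or_ge j 2 with hj2 | hj2
          · interval_cases j <;> omega
          · have := four_dvd_two_pow hj2; omega
      subst hi1
      have hx3 : x = 3 := by omega
      rw [hx3] at h
      refine ⟨by rw [e, hx3]; norm_num, by omega⟩
    · left
      have hdiv : (2:ℤ)^b ∣ (p:ℤ) - 1 := by
        apply two_pow_dvd_of_odd_pow (n := a) _ (odd_not_two_dvd_int hpodd) hao
        · rw [one_pow]
          have : ((2:ℤ)^b) = (p:ℤ)^a - 1 := by
            have : (p:ℤ)^a = (2:ℤ)^b + 1 := by exact_mod_cast h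
            rw [this]; ring
          rw [this]
        · obtain ⟨k, rfl⟩ := hpodd
          exact ⟨k, by push_cast; ring⟩
      have hdiv' : 2^b ∣ p - 1 := by
        have : ((p - 1 : ℕ) : ℤ) = (p : ℤ) - 1 := by
          have := hp.one_lt
          omega
        rw [← this] at hdiv
        exact_mod_cast hdiv
      have hle : 2^b ≤ p - 1 := Nat.le_of_dvd (by have := hp.two_le; omega) hdiv'
      have h1 : p ^ a ≤ p ^ 1 := by rw [pow_one]; omega
      have h2 : a ≤ 1 := (Nat.pow_le_pow_iff_right hp.one_lt).mp h1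
      have ha1 : a = 1 := by omega
      subst ha1
      rw [pow_one] at h
      refine ⟨rfl, rfl, ?_, h⟩
      exact Nat.pow_of_pow_add_prime (by norm_num) (by omega) (h ▸ hp)

end Cfsg.Agent.S3784
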