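import Cfsg.Statements.S3370
import Cfsg.Agent.Lib.Lead.UniqueSubgroup
import Cfsg.Agent.S3784

set_option autoImplicit false
open Cfsg

namespace Cfsg.Agent.S3370

theorem m_d1 : ∀ a b c d : ZMod 3, a * d - b * c ≠ 0 →
    ((!![a, b; c, d] : Matrix (Fin 2) (Fin 2) (ZMod 3)) ^ 8) ^ 3 = 1 := by decide

theorem m_s1 : ∀ a b c d : ZMod 3, a * d - b * c ≠ 0 →
    Matrix.mulVec (!![a, b; c, d] : Matrix (Fin 2) (Fin 2) (ZMod 3)) ![1, 0] = ![1, 0] →
    (!![a, b; c, d] : Matrix (Fin 2) (Fin 2) (ZMod 3)) ^ 3 ≠ 1 →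
    (!![a, b; c, d] : Matrix (Fin 2) (Fin 2) (ZMod 3)) ^ 2 = 1 ∧ a = 1 ∧ c = 0 ∧ d = -1 := by decide

theorem m_r1 : ∀ a b c d : ZMod 3,
    (!![a, b; c, d] : Matrix (Fin 2) (Fin 2) (ZMod 3)) ^ 2 = 1 →
    (!![a, b; c, d] : Matrix (Fin 2) (Fin 2) (ZMod 3)) ≠ 1 →
    (!![a, b; c, d] : Matrix (Fin 2) (Fin 2) (ZMod 3)) ≠ -1 →
    Matrix.mulVec (!![a, b; c, d] : Matrix (Fin 2) (Fin 2) (ZMod 3)) ![1, 0] = ![1, 0] ∨
    Matrix.mulVec (!![a, b; c, d] : Matrix (Fin 2) (Fin 2) (ZMod 3)) ![0, 1] = ![0, 1] ∨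
    Matrix.mulVec (!![a, b; c, d] : Matrix (Fin 2) (Fin 2) (ZMod 3)) ![1, 1] = ![1, 1] ∨
    Matrix.mulVec (!![a, b; c, d] : Matrix (Fin 2) (Fin 2) (ZMod 3)) ![1, 2] = ![1, 2] := by decide

theorem v_ne : (![1, 0] : Fin 2 → ZMod 3) ≠ 0 ∧ (![0, 1] : Fin 2 → ZMod 3) ≠ 0 ∧
    (![1, 1] : Fin 2 → ZMod 3) ≠ 0 ∧ (![1, 2] : Fin 2 → ZMod 3) ≠ 0 := by decide

theorem v_ne' : ∀ b : ZMod 3, (![b + 1, 1] : Fin 2 → ZMod 3) ≠ 0 := by decide

theorem m_s2 : ∀ b c : ZMod 3,
    ((!![1, b; 0, -1] : Matrix (Fin 2) (Fin 2) (ZMod 3)) * !![1, c; 0, -1]) ^ 3 = 1 := by decide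

theorem m_o8 : ∀ b s t : ZMod 3,
    ¬ ((!![b + 1, s; 1, t] : Matrix (Fin 2) (Fin 2) (ZMod 3)) ^ 4 = 1 ∧
      ((!![b + 1, s; 1, t] : Matrix (Fin 2) (Fin 2) (ZMod 3)) * !![1, b; 0, -1]) ^ 4 = 1) := by
  decide

theorem m_c3 : ∀ b x y z w : ZMod 3,
    (!![x, y; z, w] : Matrix (Fin 2) (Fin 2) (ZMod 3)) ^ 8 = 1 →
    (!![x, y; z, w] : Matrix (Fin 2) (Fin 2) (ZMod 3)) ^ 4 ≠ 1 →
    ∀ k : Fin 8, (!![1, b; 0, -1] : Matrix (Fin 2) (Fin 2) (ZMod 3)) * !![x, y; z, w] *
      !![1, b; 0, -1] = (!![x, y; z, w] : Matrix (Fin 2) (Fin 2) (ZMod 3)) ^ (k : ℕ) →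
    (!![1, b; 0, -1] : Matrix (Fin 2) (Fin 2) (ZMod 3)) * !![x, y; z, w] *
      !![1, b; 0, -1] = (!![x, y; z, w] : Matrix (Fin 2) (Fin 2) (ZMod 3)) ^ 3 := by
  decide

theorem card_nz : Fintype.card {v : Fin 2 → ZMod 3 // v ≠ 0} = 8 := by decide

theorem mulVec_e1 (M : Matrix (Fin 2) (Fin 2) (ZMod 3)) :
    Matrix.mulVec M ![1, 0] = ![M 0 0, M 1 0] := by
  ext i
  fin_cases i <;> simp [Matrix.mulVec, dotProduct, Fin.sum_univ_two]

theorem core23 {G : Type*} [Group G] [Finite G] (hG : IsPGroup 2 G)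
    (f : G →* Matrix (Fin 2) (Fin 2) (ZMod 3)) (hf : Function.Injective f)
    (htr : ∀ v w : Fin 2 → ZMod 3, v ≠ 0 → w ≠ 0 → ∃ g : G, Matrix.mulVec (f g) v = w) :
    (IsCyclic G ∧ Nat.card G = 8) ∨ Nonempty (G ≃* QuaternionGroup 2) ∨
      (Cfsg.IsQuasiDihedral G ∧ Nat.card G = 16) := by
  classical
  have hdet : ∀ g : G, f g 0 0 * f g 1 1 - f g 0 1 * f g 1 0 ≠ 0 := by
    intro g h0
    have h1 : f g * f g⁻¹ = 1 := by rw [← map_mul, mul_inv_cancel, map_one]
    have h2 := congrArg Matrix.det h1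
    rw [Matrix.det_mul, Matrix.det_one, Matrix.det_fin_two (f g), h0, zero_mul] at h2
    exact zero_ne_one h2
  have hf1 : ∀ g : G, f g = 1 → g = 1 := fun g h => hf (by rw [h, map_one])
  -- exponent 8
  have hE8 : ∀ g : G, g ^ 8 = 1 := by
    intro g
    have h1 := m_d1 _ _ _ _ (hdet g)
    rw [← Matrix.eta_fin_two (f g), ← map_pow, ← map_pow] at h1
    have h2 : (g ^ 8) ^ 3 = 1 := hf1 _ h1
    obtain ⟨k, hk⟩ := hG g
    have h3 : orderOf g ∣ 2 ^ k := orderOf_dvd_of_pow_eq_one hk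
    have h4 : orderOf g ∣ 24 := orderOf_dvd_of_pow_eq_one (by rw [← h2, ← pow_mul])
    obtain ⟨j, hj, hj'⟩ := (Nat.dvd_prime_pow Nat.prime_two).mp h3
    have hj3 : j ≤ 3 := by
      by_contra hcon
      push Not at hcon
      have h5 : 2 ^ 4 ∣ 2 ^ j := pow_dvd_pow 2 hcon
      rw [← hj'] at h5
      have h6 := dvd_trans h5 h4
      omega
    apply orderOf_dvd_iff_pow_eq_one.mp
    rw [hj']
    exact pow_dvd_pow 2 hj3
  have hE3 : ∀ g : G, f g ^ 3 = 1 → g = 1 := by
    intro g h
    rw [← map_pow] at h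
    have h1 : g ^ 3 = 1 := hf1 _ h
    have h2 : g ^ 9 = 1 := by
      have : g ^ 9 = (g ^ 3) ^ 3 := by rw [← pow_mul]
      rw [this, h1, one_pow]
    have h3 : g ^ 9 = g ^ 8 * g := pow_succ g 8
    rw [h2, hE8 g, one_mul] at h3
    exact h3.symm
  obtain ⟨hv0, hv1, hv2, hv3⟩ := v_ne
  let act : MulAction G (Fin 2 → ZMod 3) :=
    { smul := fun g v => Matrix.mulVec (f g) v
      one_smul := fun v => by
        show Matrix.mulVec (f 1) v = v
        rw [map_one, Matrix.one_mulVec]
      mul_smul := fun g h v => by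
        show Matrix.mulVec (f (g * h)) v = Matrix.mulVec (f g) (Matrix.mulVec (f h) v)
        rw [map_mul, Matrix.mulVec_mulVec] }
  have hsmul : ∀ (g : G) (v : Fin 2 → ZMod 3), g • v = Matrix.mulVec (f g) v := fun _ _ => rfl
  have horb : ∀ v : Fin 2 → ZMod 3, v ∈ MulAction.orbit G (![1, 0] : Fin 2 → ZMod 3) ↔ v ≠ 0 := by
    intro v
    constructor
    · rintro ⟨g, rfl⟩
      intro h0
      have h1 : Matrix.mulVec (f g) ![1, 0] = 0 := h0
      have h2 : Matrix.mulVec (f g⁻¹) (Matrix.mulVec (f g) ![1, 0]) = ![1, 0] := by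
        rw [Matrix.mulVec_mulVec, ← map_mul, inv_mul_cancel, map_one, Matrix.one_mulVec]
      rw [h1, Matrix.mulVec_zero] at h2
      exact hv0 h2.symm
    · intro hv
      obtain ⟨g, hg⟩ := htr _ v hv0 hv
      exact ⟨g, hg⟩
  have hcard : Nat.card (MulAction.orbit G (![1, 0] : Fin 2 → ZMod 3)) = 8 := by
    have e : MulAction.orbit G (![1, 0] : Fin 2 → ZMod 3) ≃ {v : Fin 2 → ZMod 3 // v ≠ 0} :=
      Equiv.subtypeEquivRight horb
    rw [Nat.card_congr e, Nat.card_eq_fintype_card]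
    exact card_nz
  have hos : 8 * Nat.card (MulAction.stabilizer G (![1, 0] : Fin 2 → ZMod 3)) = Nat.card G := by
    rw [← hcard, ← Nat.card_prod]
    exact Nat.card_congr (MulAction.orbitProdStabilizerEquivGroup G _)
  have hSmem : ∀ g : G, g ∈ MulAction.stabilizer G (![1, 0] : Fin 2 → ZMod 3) ↔
      Matrix.mulVec (f g) ![1, 0] = ![1, 0] := fun g => Iff.rfl
  -- structure of nonidentity stabilizer elements
  have hS1 : ∀ g : G, Matrix.mulVec (f g) ![1, 0] = ![1, 0] → g ≠ 1 →
      f g = !![1, f g 0 1; 0, -1] ∧ g ^ 2 = 1 := by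
    intro g hg hg1
    have h1 := m_s1 (f g 0 0) (f g 0 1) (f g 1 0) (f g 1 1) (hdet g)
    rw [← Matrix.eta_fin_two (f g)] at h1
    obtain ⟨h2, h00, h10, h11⟩ := h1 hg (fun h => hg1 (hE3 g h))
    refine ⟨?_, hf1 _ (by rw [map_pow]; exact h2)⟩
    conv_lhs => rw [Matrix.eta_fin_two (f g), h00, h10, h11]
  have hS2 : ∀ g h : G, Matrix.mulVec (f g) ![1, 0] = ![1, 0] → g ≠ 1 →
      Matrix.mulVec (f h) ![1, 0] = ![1, 0] → h ≠ 1 → g = h := by
    intro g h hg hg1 hh hh1
    obtain ⟨eg, g2⟩ := hS1 g hg hg1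
    obtain ⟨eh, h2⟩ := hS1 h hh hh1
    have h3 := m_s2 (f g 0 1) (f h 0 1)
    rw [← eg, ← eh, ← map_mul] at h3
    have h4 : g * h = 1 := hE3 _ h3
    have h5 : g * g = 1 := by rw [← pow_two]; exact g2
    exact mul_left_cancel (h5.trans h4.symm)
  by_cases hS : ∀ g : G, Matrix.mulVec (f g) ![1, 0] = ![1, 0] → g = 1
  · -- regular case
    have hc8 : Nat.card G = 8 := by
      have h1 : MulAction.stabilizer G (![1, 0] : Fin 2 → ZMod 3) = ⊥ := by
        rw [eq_bot_iff]
        intro g hg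
        rw [Subgroup.mem_bot]
        exact hS g ((hSmem g).mp hg)
      rw [h1, Subgroup.card_bot] at hos
      omega
    have hinv : ∀ x : G, x ^ 2 = 1 → x ≠ 1 → f x = -1 := by
      intro x hx2 hx1
      by_contra hneg
      have h1 := m_r1 (f x 0 0) (f x 0 1) (f x 1 0) (f x 1 1)
      rw [← Matrix.eta_fin_two (f x)] at h1
      have h2 := h1 (by rw [← map_pow, hx2, map_one]) (fun h => hx1 (hf1 x h)) hneg
      have key : ∀ w : Fin 2 → ZMod 3, w ≠ 0 → Matrix.mulVec (f x) w = w → False := by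
        intro w hw hxw
        obtain ⟨g, hg⟩ := htr _ w hv0 hw
        have h3 : Matrix.mulVec (f (g⁻¹ * x * g)) ![1, 0] = ![1, 0] := by
          rw [map_mul, map_mul, ← Matrix.mulVec_mulVec, ← Matrix.mulVec_mulVec, hg, hxw, ← hg,
            Matrix.mulVec_mulVec, ← map_mul, inv_mul_cancel, map_one, Matrix.one_mulVec]
        have h4 := hS _ h3
        apply hx1
        have h5 : x = g * (g⁻¹ * x * g) * g⁻¹ := by group
        rw [h5, h4, mul_one, mul_inv_cancel]
      rcases h2 with h | h | h | h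
      · exact key _ hv0 h
      · exact key _ hv1 h
      · exact key _ hv2 h
      · exact key _ hv3 h
    have hU : Cfsg.Agent.Lib.Lead.UniqP 2 G := by
      intro x y hx hy hx1
      by_cases hy1 : y = 1
      · rw [hy1]; exact Subgroup.one_mem _
      · have h1 : y = x := hf (by rw [hinv x hx hx1, hinv y hy hy1])
        rw [h1]
        exact Subgroup.mem_zpowers x
    rcases Cfsg.Agent.Lib.Lead.uniqP_cyclic_or_quaternion 2 hG hU with h | ⟨-, n, ⟨e⟩⟩
    · exact Or.inl ⟨h, hc8⟩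
    · have h1 : Nat.card G = 4 * 2 ^ n := by
        rw [Nat.card_congr e.toEquiv, Nat.card_eq_fintype_card, QuaternionGroup.card]
      have h2 : n = 1 := by
        rw [hc8] at h1
        have h3 : 2 ^ n = 2 ^ 1 := by omega
        exact Nat.pow_right_injective (le_refl 2) h3
      subst h2
      exact Or.inr (Or.inl ⟨e⟩)
  · push Not at hS
    obtain ⟨r, hr, hr1⟩ := hS
    obtain ⟨er, r2⟩ := hS1 r hr hr1
    have hc16 : Nat.card G = 16 := by
      have h1 : MulAction.stabilizer G (![1, 0] : Fin 2 → ZMod 3) = Subgroup.zpowers r := by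
        apply le_antisymm
        · intro g hg
          by_cases hg1 : g = 1
          · rw [hg1]; exact Subgroup.one_mem _
          · rw [hS2 g r ((hSmem g).mp hg) hg1 hr hr1]
            exact Subgroup.mem_zpowers r
        · rw [Subgroup.zpowers_le]
          exact (hSmem r).mpr hr
      have h2 : orderOf r = 2 := orderOf_eq_prime r2 hr1
      rw [h1, Nat.card_zpowers, h2] at hos
      omega
    have hrinv : r⁻¹ = r := by
      rw [inv_eq_iff_mul_eq_one, ← pow_two]; exact r2
    -- an element with nontrivial fourth power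
    obtain ⟨x, hx4⟩ : ∃ x : G, x ^ 4 ≠ 1 := by
      by_contra hcon
      push Not at hcon
      obtain ⟨g, hg⟩ := htr _ _ hv0 (v_ne' (f r 0 1))
      rw [mulVec_e1] at hg
      have h00 : f g 0 0 = f r 0 1 + 1 := by
        have := congrFun hg 0
        simpa using this
      have h10 : f g 1 0 = 1 := by
        have := congrFun hg 1
        simpa using this
      have eg : f g = !![f r 0 1 + 1, f g 0 1; 1, f g 1 1] := by
        conv_lhs => rw [Matrix.eta_fin_two (f g), h00, h10]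
      apply m_o8 (f r 0 1) (f g 0 1) (f g 1 1)
      rw [← eg, ← er, ← map_mul, ← map_pow, ← map_pow, hcon g, hcon (g * r), map_one]
      exact ⟨rfl, rfl⟩
    have hx8 : orderOf x = 8 := by
      have h1 : orderOf x ∣ 2 ^ 3 := orderOf_dvd_of_pow_eq_one (hE8 x)
      obtain ⟨j, hj, hj'⟩ := (Nat.dvd_prime_pow Nat.prime_two).mp h1
      have hj3 : j = 3 := by
        by_contra hcon
        have hj2 : j ≤ 2 := by omega
        apply hx4
        apply orderOf_dvd_iff_pow_eq_one.mp
        rw [hj']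
        exact pow_dvd_pow 2 hj2
      rw [hj', hj3]
      norm_num
    have hidx : (Subgroup.zpowers x).index = 2 := by
      have h1 := Subgroup.card_mul_index (Subgroup.zpowers x)
      rw [Nat.card_zpowers, hx8, hc16] at h1
      omega
    have hnorm : (Subgroup.zpowers x).Normal := Subgroup.normal_of_index_eq_two hidx
    have hmem : r * x * r⁻¹ ∈ Subgroup.zpowers x := hnorm.conj_mem x (Subgroup.mem_zpowers x) r
    rw [← mem_powers_iff_mem_zpowers] at hmem
    obtain ⟨n, hn⟩ := hmem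
    have hn' : x ^ (n % 8) = r * x * r⁻¹ := by
      rw [← hx8, pow_mod_orderOf]; exact hn
    have hX8 : f x ^ 8 = 1 := by rw [← map_pow, hE8 x, map_one]
    have hX4 : f x ^ 4 ≠ 1 := by
      rw [← map_pow]
      exact fun h => hx4 (hf1 _ h)
    have h3 := m_c3 (f r 0 1) (f x 0 0) (f x 0 1) (f x 1 0) (f x 1 1)
    rw [← Matrix.eta_fin_two (f x), ← er] at h3
    have h4 := h3 hX8 hX4 ⟨n % 8, Nat.mod_lt _ (by norm_num)⟩ (by
      show f r * f x * f r = f x ^ (n % 8)
      rw [← map_pow, hn', hrinv, map_mul, map_mul])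
    have h5 : r * x * r⁻¹ = x ^ 3 := by
      apply hf
      rw [hrinv, map_mul, map_mul, map_pow]
      exact h4
    refine Or.inr (Or.inr ⟨⟨3, le_refl 3, by rw [hc16]; norm_num, x, r, by rw [hx8]; norm_num,
      orderOf_eq_prime r2 hr1, ?_⟩, hc16⟩)
    rw [h5]
    norm_num

/-- Let q be a prime, V a non-trivial finite vector space over the field with q elements, and G a non-trivial finite p-group (p prime) acting faithfully and linearly on V and transitively on the non-zero vectors. Then either q = 2 and G has prime order p = |V| − 1; or p = 2, V has q elements with q = 2^m + 1 and G is cyclic of order 2^m; or p = 2, q = 3, V has 9 elements and G is cyclic of order 8, quaternion of order 8, or semidihedral of order 16. -/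
theorem result (q : ℕ) [Fact q.Prime] {V : Type*} [AddCommGroup V] [Module (ZMod q) V] [Finite V] [Nontrivial V]
    {G : Type*} [Group G] [Finite G] [Nontrivial G] (p : ℕ) [Fact p.Prime] (hG : IsPGroup p G)
    (ρ : G →* (V ≃ₗ[ZMod q] V)) (hρ : Function.Injective ρ)
    (htrans : ∀ v w : V, v ≠ 0 → w ≠ 0 → ∃ g : G, ρ g v = w) :
    (q = 2 ∧ p = Nat.card V - 1 ∧ Nat.card G = p) ∨
    (p = 2 ∧ Nat.card V = q ∧ (∃ m : ℕ, q = 2 ^ m + 1 ∧ Nat.card G = 2 ^ m) ∧ IsCyclic G) ∨
    (p = 2 ∧ q = 3 ∧ Nat.card V = 9 ∧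
      ((IsCyclic G ∧ Nat.card G = 8) ∨ Nonempty (G ≃* QuaternionGroup 2) ∨ (Cfsg.IsQuasiDihedral G ∧ Nat.card G = 16))) := by
  classical
  have hq : q.Prime := Fact.out
  have hp : p.Prime := Fact.out
  have hid : ∀ g : G, (∀ v : V, ρ g v = v) → g = 1 := by
    intro g h
    apply hρ
    rw [map_one]
    ext v
    exact h v
  obtain ⟨v0, hv0⟩ := exists_ne (0 : V)
  let act : MulAction G V :=
    { smul := fun g v => ρ g v
      one_smul := fun v => by
        show ρ 1 v = v
        rw [map_one]; rfl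
      mul_smul := fun g h v => by
        show ρ (g * h) v = ρ g (ρ h v)
        rw [map_mul]; rfl }
  have hsmul : ∀ (g : G) (v : V), g • v = ρ g v := fun _ _ => rfl
  have horb : ∀ v : V, v ∈ MulAction.orbit G v0 ↔ v ∈ ({0}ᶜ : Set V) := by
    intro v
    rw [Set.mem_compl_singleton_iff]
    constructor
    · rintro ⟨g, rfl⟩
      show ρ g v0 ≠ 0
      exact (ρ g).map_ne_zero_iff.mpr hv0
    · intro hv
      obtain ⟨g, hg⟩ := htrans v0 v hv0 hv
      exact ⟨g, hg⟩
  have hV1 : 1 < Nat.card V := Finite.one_lt_card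
  have hcardorb : Nat.card (MulAction.orbit G v0) = Nat.card V - 1 := by
    have e : MulAction.orbit G v0 ≃ ({0}ᶜ : Set V) := Equiv.subtypeEquivRight horb
    rw [Nat.card_congr e, Nat.card_coe_set_eq, Set.ncard_compl, Set.ncard_singleton]
  have hos : Nat.card (MulAction.orbit G v0) * Nat.card (MulAction.stabilizer G v0) = Nat.card G := by
    rw [← Nat.card_prod]
    exact Nat.card_congr (MulAction.orbitProdStabilizerEquivGroup G _)
  have hSmem : ∀ g : G, g ∈ MulAction.stabilizer G v0 ↔ ρ g v0 = v0 := fun g => Iff.rfl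
  obtain ⟨n, hn⟩ := IsPGroup.iff_card.mp hG
  obtain ⟨b, hbn, hb⟩ := (Nat.dvd_prime_pow hp).mp (by rw [← hn, ← hos]; exact dvd_mul_right _ _ :
    Nat.card (MulAction.orbit G v0) ∣ p ^ n)
  rw [hcardorb] at hb
  have _f2 : Module.Finite (ZMod q) V := Module.Finite.of_finite
  have hVq : Nat.card V = q ^ Module.finrank (ZMod q) V := by
    have h1 := Module.natCard_eq_pow_finrank (K := ZMod q) (V := V)
    rw [Nat.card_zmod] at h1
    exact h1
  generalize hd : Module.finrank (ZMod q) V = d at hVq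
  have hd1 : 1 ≤ d := by
    by_contra hcon
    have hd0 : d = 0 := by omega
    rw [hd0, pow_zero] at hVq
    omega
  have hb1 : 1 ≤ b := by
    by_contra hcon
    have hb0 : b = 0 := by omega
    rw [hb0, pow_zero] at hb
    have hV2 : Nat.card V = 2 := by omega
    obtain ⟨y, -, hy⟩ := (Nat.card_eq_two_iff' (0 : V)).mp hV2
    obtain ⟨g, hg⟩ := exists_ne (1 : G)
    apply hg
    apply hid
    intro v
    by_cases hv : v = 0
    · rw [hv, map_zero]
    · exact (hy (ρ g v) ((ρ g).map_ne_zero_iff.mpr hv)).trans (hy v hv).symm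
  have heq : q ^ d = p ^ b + 1 := by
    rw [← hVq, ← hb]; omega
  rcases Cfsg.Agent.S3784.result q p d b hq hp hd1 hb1 heq with ⟨hq2, hb1', -, -⟩ | ⟨hp2, hd1', -, hq'⟩ | ⟨h9, h8⟩
  · -- q = 2, |V| - 1 = p
    left
    rw [hb1', pow_one] at hb
    have hSbot : MulAction.stabilizer G v0 = ⊥ := by
      have hSp : IsPGroup p (MulAction.stabilizer G v0) := hG.to_subgroup _
      have h1 := hSp.card_modEq_card_fixedPoints V
      have h2 : ({0, v0} : Set V) ⊆ MulAction.fixedPoints (MulAction.stabilizer G v0) V := by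
        intro x hx
        rcases hx with rfl | rfl
        · intro s
          show ρ (s : G) 0 = 0
          rw [map_zero]
        · intro s
          exact s.2
      have h3 : 2 ≤ Nat.card (MulAction.fixedPoints (MulAction.stabilizer G v0) V) := by
        rw [Nat.card_coe_set_eq, ← Set.ncard_pair (Ne.symm hv0)]
        exact Set.ncard_le_ncard h2
      have h4 : Nat.card (MulAction.fixedPoints (MulAction.stabilizer G v0) V) ≤ Nat.card V := by
        rw [Nat.card_coe_set_eq, ← Set.ncard_univ]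
        exact Set.ncard_le_ncard (Set.subset_univ _)
      have h5 : Nat.card (MulAction.fixedPoints (MulAction.stabilizer G v0) V) = Nat.card V := by
        have h6 := (Nat.modEq_iff_dvd' h4).mp h1.symm
        have h7 : Nat.card V - Nat.card (MulAction.fixedPoints (MulAction.stabilizer G v0) V) < p := by
          omega
        have h8 := Nat.eq_zero_of_dvd_of_lt h6 h7
        omega
      have h6 : MulAction.fixedPoints (MulAction.stabilizer G v0) V = Set.univ := by
        apply Set.eq_of_subset_of_ncard_le (Set.subset_univ _)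
        rw [Set.ncard_univ, ← Nat.card_coe_set_eq, h5]
      rw [eq_bot_iff]
      intro s hs
      rw [Subgroup.mem_bot]
      apply hid
      intro v
      have h7 : v ∈ MulAction.fixedPoints (MulAction.stabilizer G v0) V := by rw [h6]; trivial
      exact h7 ⟨s, hs⟩
    refine ⟨hq2, hb.symm, ?_⟩
    rw [← hos, hSbot, Subgroup.card_bot, mul_one, hcardorb, hb]
  · -- p = 2, dim 1
    right; left
    rw [hd1', pow_one] at hVq
    have hinj : Function.Injective (fun c : ZMod q => c • v0) := smul_left_injective (ZMod q) hv0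
    have hbij : Function.Bijective (fun c : ZMod q => c • v0) :=
      (Nat.bijective_iff_injective_and_card _).mpr ⟨hinj, by rw [Nat.card_zmod, hVq]⟩
    have hSbot : MulAction.stabilizer G v0 = ⊥ := by
      rw [eq_bot_iff]
      intro s hs
      rw [Subgroup.mem_bot]
      apply hid
      intro v
      obtain ⟨c, rfl⟩ := hbij.2 v
      show ρ s (c • v0) = c • v0
      rw [map_smul, (hSmem s).mp hs]
    have hcG : Nat.card G = 2 ^ b := by
      rw [← hos, hSbot, Subgroup.card_bot, mul_one, hcardorb, hb, hp2]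
    refine ⟨hp2, hVq, ⟨b, by rw [hq'], hcG⟩, ?_⟩
    let E : ZMod q ≃ V := Equiv.ofBijective _ hbij
    have hE : ∀ c : ZMod q, E c = c • v0 := fun c => rfl
    let f : G →* ZMod q :=
      { toFun := fun g => E.symm (ρ g v0)
        map_one' := by
          rw [Equiv.symm_apply_eq, hE, one_smul, map_one]; rfl
        map_mul' := fun g h => by
          rw [Equiv.symm_apply_eq, hE, map_mul]
          show ρ g (ρ h v0) = _
          have h1 : ρ h v0 = E.symm (ρ h v0) • v0 := by rw [← hE, Equiv.apply_symm_apply]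
          have h2 : ρ g v0 = E.symm (ρ g v0) • v0 := by rw [← hE, Equiv.apply_symm_apply]
          rw [h1, map_smul, h2, smul_smul, mul_comm]
          rw [← h2, ← h1] }
    have hf : Function.Injective f := by
      intro g h hgh
      have h1 : E.symm (ρ g v0) = E.symm (ρ h v0) := hgh
      have h2 : ρ g v0 = ρ h v0 := E.symm.injective h1
      have h3 : h⁻¹ * g ∈ MulAction.stabilizer G v0 := by
        rw [hSmem, map_mul]
        show (ρ h⁻¹) (ρ g v0) = v0
        rw [h2, map_inv]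
        exact (ρ h).symm_apply_apply v0
      rw [hSbot, Subgroup.mem_bot, inv_mul_eq_one] at h3
      exact h3.symm
    exact isCyclic_of_injective_ringHom f hf
  · -- q = 3, dim 2, p = 2
    right; right
    have hq3 : q = 3 := by
      have h1 : q ∣ 3 ^ 2 := by
        have : q ∣ q ^ d := dvd_pow_self q (by omega)
        rw [h9] at this
        exact this
      exact (Nat.prime_dvd_prime_iff_eq hq Nat.prime_three).mp (hq.dvd_of_dvd_pow h1)
    have hp2 : p = 2 := by
      have h1 : p ∣ 2 ^ 3 := by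
        have : p ∣ p ^ b := dvd_pow_self p (by omega)
        rw [h8] at this
        exact this
      exact (Nat.prime_dvd_prime_iff_eq hp Nat.prime_two).mp (hp.dvd_of_dvd_pow h1)
    subst hq3
    subst hp2
    have hd2 : d = 2 := by
      have h1 : 3 ^ d = 3 ^ 2 := by rw [h9]; norm_num
      exact Nat.pow_right_injective (by norm_num) h1
    rw [hd2] at hd
    have hV9 : Nat.card V = 9 := by rw [hVq, h9]
    refine ⟨rfl, rfl, hV9, ?_⟩
    let bs : Module.Basis (Fin 2) (ZMod 3) V := Module.finBasisOfFinrankEq (ZMod 3) V hd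
    let f : G →* Matrix (Fin 2) (Fin 2) (ZMod 3) :=
      ((LinearMap.toMatrixAlgEquiv bs : Module.End (ZMod 3) V ≃ₐ[ZMod 3]
        Matrix (Fin 2) (Fin 2) (ZMod 3)) : Module.End (ZMod 3) V →*
        Matrix (Fin 2) (Fin 2) (ZMod 3)).comp
        ((LinearEquiv.automorphismGroup.toLinearMapMonoidHom).comp ρ)
    have hfapp : ∀ (g : G) (v : V), Matrix.mulVec (f g) (bs.repr v) = bs.repr (ρ g v) := by
      intro g v
      exact LinearMap.toMatrix_mulVec_repr bs bs (ρ g : V →ₗ[ZMod 3] V) v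
    have hf : Function.Injective f := by
      intro g h hgh
      have h1 : ((ρ g : V ≃ₗ[ZMod 3] V) : V →ₗ[ZMod 3] V) = (ρ h : V ≃ₗ[ZMod 3] V) :=
        (LinearMap.toMatrixAlgEquiv bs).injective hgh
      exact hρ (LinearEquiv.toLinearMap_injective h1)
    apply core23 hG f hf
    intro v w hv hw
    have hv' : bs.equivFun.symm v ≠ 0 := fun h => hv (by
      have := congrArg bs.equivFun h
      rwa [LinearEquiv.apply_symm_apply, map_zero] at this)
    have hw' : bs.equivFun.symm w ≠ 0 := fun h => hw (by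
      have := congrArg bs.equivFun h
      rwa [LinearEquiv.apply_symm_apply, map_zero] at this)
    obtain ⟨g, hg⟩ := htrans _ _ hv' hw'
    refine ⟨g, ?_⟩
    have h1 := hfapp g (bs.equivFun.symm v)
    rw [hg] at h1
    have h2 : ∀ u : Fin 2 → ZMod 3, ⇑(bs.repr (bs.equivFun.symm u)) = u := by
      intro u
      have := bs.equivFun.apply_symm_apply u
      rwa [Module.Basis.equivFun_apply] at this
    rw [h2 v, h2 w] at h1
    exact h1

end Cfsg.Agent.S3370
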