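import Cfsg.Statements.S3374
import Cfsg.Agent.Lib.Helper20.SL25
import Cfsg.Agent.Lib.Helper20.FrobSemi

set_option autoImplicit false
open Cfsg

namespace Cfsg.Agent.S3374

open Cfsg.Agent.Lib.Helper20 Cfsg.Agent.Lib.Helper20.SL25

abbrev V11 := Fin 2 → ZMod 11

noncomputable def phi : PresentedGroup rels →* MulAut (Multiplicative V11) where
  toFun p := AddEquiv.toMultiplicative (Matrix.SpecialLinearGroup.toLin' (f11 p)).toAddEquiv
  map_one' := by
    apply MulEquiv.ext
    intro v
    show Multiplicative.ofAdd ((Matrix.SpecialLinearGroup.toLin' (f11 1)) (Multiplicative.toAdd v)) = v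
    rw [map_one, map_one]
    rfl
  map_mul' p q := by
    apply MulEquiv.ext
    intro v
    show Multiplicative.ofAdd ((Matrix.SpecialLinearGroup.toLin' (f11 (p * q))) (Multiplicative.toAdd v)) =
      Multiplicative.ofAdd ((Matrix.SpecialLinearGroup.toLin' (f11 p))
        ((Matrix.SpecialLinearGroup.toLin' (f11 q)) (Multiplicative.toAdd v)))
    rw [map_mul, map_mul]
    rfl

theorem phi_apply (p : PresentedGroup rels) (v : Multiplicative V11) :
    Multiplicative.toAdd (phi p v) = (f11 p).val.mulVec (Multiplicative.toAdd v) := rfl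

instance fact11 : Fact (Nat.Prime 11) := ⟨by norm_num⟩

theorem phi_free (h : PresentedGroup rels) (hh : h ≠ 1) (n : Multiplicative V11)
    (hn : phi h n = n) : n = 1 := by
  have h0 : (f11 h).val.mulVec (Multiplicative.toAdd n) = Multiplicative.toAdd n := by
    rw [← phi_apply, hn]
  have h1 := Mat2.eq_zero_of_mulVec_eq (f11 h).val (f11 h).property (f11_trace h hh)
    (Multiplicative.toAdd n) h0
  exact h1

instance nontrivial_P : Nontrivial (PresentedGroup rels) := by
  rw [← Finite.one_lt_card_iff_nontrivial, Nat.card_congr equivSL25.toEquiv, card_SL25]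
  norm_num

/-- SL(2,5) occurs as a Frobenius complement: there is a finite group L with a subgroup H isomorphic to SL(2,5) which is a non-trivial proper subgroup meeting each conjugate gHg⁻¹ with g outside H trivially. -/
theorem result :
    ∃ (L : Type) (_ : Group L) (_ : Finite L) (H : Subgroup L),
      Cfsg.IsFrobeniusComplement H ∧ Nonempty (H ≃* Matrix.SpecialLinearGroup (Fin 2) (ZMod 5)) := by
  refine ⟨Multiplicative V11 ⋊[phi] PresentedGroup rels, inferInstance, ?_,
    (SemidirectProduct.inr : PresentedGroup rels →* Multiplicative V11 ⋊[phi] PresentedGroup rels).range,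
    isFrobeniusComplement_range_inr phi phi_free, ⟨?_⟩⟩
  · exact Finite.of_equiv _ SemidirectProduct.equivProd.symm
  · exact (MonoidHom.ofInjective SemidirectProduct.inr_injective).symm.trans equivSL25

end Cfsg.Agent.S3374
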