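import Cfsg.Statements.S3375

set_option autoImplicit false
open Cfsg

namespace Cfsg.Agent.S3375

/-- Let γ be an automorphism of order 2 of a finite group H. (i) If γ fixes only the identity, then H is abelian and γ inverts every element. (ii) If γ has exactly two fixed points and H has a subgroup of index 2, then H has a γ-invariant abelian subgroup of index 2 on which γ acts by inversion. -/
theorem result {H : Type*} [Group H] [Finite H] (γ : MulAut H) (hγ : orderOf γ = 2) :
    ((∀ h : H, γ h = h → h = 1) → (∀ a b : H, a * b = b * a) ∧ ∀ h : H, γ h = h⁻¹) ∧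
    ((Nat.card {h : H // γ h = h} = 2 ∧ ∃ M : Subgroup H, M.index = 2) →
      ∃ A : Subgroup H, A.index = 2 ∧ IsMulCommutative A ∧ (∀ a ∈ A, γ a ∈ A) ∧ ∀ a ∈ A, γ a = a⁻¹) := by
  classical
  have hγ2 : ∀ h : H, γ (γ h) = h := by
    intro h
    have h1 : γ ^ 2 = 1 := by rw [← hγ]; exact pow_orderOf_eq_one γ
    have h2 := congrArg (fun f : MulAut H => f h) h1
    simpa [pow_two] using h2
  have hinvφ : ∀ h : H, γ (h⁻¹ * γ h) = (h⁻¹ * γ h)⁻¹ := by
    intro h
    rw [map_mul, map_inv, hγ2, mul_inv_rev, inv_inv]
  have hcomm_of_inv : ∀ a b : H, γ a = a⁻¹ → γ b = b⁻¹ → γ (a * b) = (a * b)⁻¹ → a * b = b * a := by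
    intro a b ha hb hab
    rw [map_mul, ha, hb, mul_inv_rev] at hab
    have := congrArg (fun t => t⁻¹) hab
    simp only [mul_inv_rev, inv_inv] at this
    exact this.symm
  refine ⟨?_, ?_⟩
  · intro hfp
    have hinj : Function.Injective (fun h : H => h⁻¹ * γ h) := by
      intro h h' hh
      have hh' : h⁻¹ * γ h = h'⁻¹ * γ h' := hh
      have hfix : γ (h' * h⁻¹) = h' * h⁻¹ := by
        rw [map_mul, map_inv]
        have h3 : γ h = h * (h'⁻¹ * γ h') := by rw [← hh']; group
        rw [h3]; group
      have := hfp _ hfix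
      exact (mul_inv_eq_one.mp this).symm
    have hsurj : Function.Surjective (fun h : H => h⁻¹ * γ h) := Finite.injective_iff_surjective.mp hinj
    have hinv : ∀ h : H, γ h = h⁻¹ := by
      intro x
      obtain ⟨h, rfl⟩ := hsurj x
      exact hinvφ h
    exact ⟨fun a b => hcomm_of_inv a b (hinv a) (hinv b) (hinv (a * b)), hinv⟩
  · rintro ⟨hcard, M, hM⟩
    obtain ⟨z, hz⟩ : ∃ z : H, ∀ h : H, γ h = h → h = 1 ∨ h = z := by
      have h2 : ({h : H | γ h = h} : Set H).ncard = 2 := by rw [← Nat.card_coe_set_eq]; exact hcard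
      obtain ⟨a, b, hab, hset⟩ := Set.ncard_eq_two.mp h2
      have h1 : (1 : H) ∈ ({h : H | γ h = h} : Set H) := map_one γ
      rw [hset] at h1
      rcases h1 with h1 | h1
      · refine ⟨b, fun h hh => ?_⟩
        have hm : h ∈ ({a, b} : Set H) := hset ▸ hh
        rcases hm with rfl | rfl
        · left; exact h1.symm
        · right; rfl
      · refine ⟨a, fun h hh => ?_⟩
        have hm : h ∈ ({a, b} : Set H) := hset ▸ hh
        rcases hm with rfl | rfl
        · right; rfl
        · left; exact h1.symm
    obtain ⟨A, hA2, hAγ⟩ : ∃ A : Subgroup H, A.index = 2 ∧ ∀ a, a ∈ A ↔ γ a ∈ A := by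
      by_cases hMγ : ∀ a, a ∈ M ↔ γ a ∈ M
      · exact ⟨M, hM, hMγ⟩
      · push Not at hMγ
        obtain ⟨h₀, hh₀⟩ := hMγ
        let M₃ : Subgroup H :=
          { carrier := {h | h ∈ M ↔ γ h ∈ M}
            mul_mem' := by
              intro a b ha hb
              show a * b ∈ M ↔ γ (a * b) ∈ M
              have ha' : a ∈ M ↔ γ a ∈ M := ha
              have hb' : b ∈ M ↔ γ b ∈ M := hb
              rw [map_mul, Subgroup.mul_mem_iff_of_index_two hM, Subgroup.mul_mem_iff_of_index_two hM, ha', hb']
            one_mem' := by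
              show (1 : H) ∈ M ↔ γ 1 ∈ M
              rw [map_one]
            inv_mem' := by
              intro a ha
              show a⁻¹ ∈ M ↔ γ a⁻¹ ∈ M
              have ha' : a ∈ M ↔ γ a ∈ M := ha
              rw [map_inv, inv_mem_iff, inv_mem_iff, ha'] }
        have hmem3 : ∀ h, h ∈ M₃ ↔ (h ∈ M ↔ γ h ∈ M) := fun h => Iff.rfl
        refine ⟨M₃, ?_, ?_⟩
        · rw [Subgroup.index_eq_two_iff]
          refine ⟨h₀, fun b => ?_⟩
          rw [hmem3, hmem3, map_mul, Subgroup.mul_mem_iff_of_index_two hM, Subgroup.mul_mem_iff_of_index_two hM]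
          unfold Xor
          tauto
        · intro a
          rw [hmem3, hmem3, hγ2]
          tauto
    have hAinv : ∀ a ∈ A, γ a = a⁻¹ := by
      letI : Fintype H := Fintype.ofFinite H
      have himg : (Finset.univ.image (fun h : H => h⁻¹ * γ h)) ⊆ Finset.univ.filter (· ∈ A) := by
        intro x hx
        obtain ⟨h, -, rfl⟩ := Finset.mem_image.mp hx
        rw [Finset.mem_filter]
        refine ⟨Finset.mem_univ _, ?_⟩
        rw [Subgroup.mul_mem_iff_of_index_two hA2, inv_mem_iff]
        exact hAγ h
      have hcardH : Fintype.card H ≤ 2 * (Finset.univ.image (fun h : H => h⁻¹ * γ h)).card := by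
        have := Finset.card_le_mul_card_image (f := fun h : H => h⁻¹ * γ h) Finset.univ 2 (by
          intro x hx
          obtain ⟨h₀, -, rfl⟩ := Finset.mem_image.mp hx
          have hsub : (Finset.univ.filter fun h : H => h⁻¹ * γ h = h₀⁻¹ * γ h₀) ⊆ {h₀, z * h₀} := by
            intro h hh
            rw [Finset.mem_filter] at hh
            have hh' := hh.2
            have hfix : γ (h * h₀⁻¹) = h * h₀⁻¹ := by
              rw [map_mul, map_inv]
              have h3 : γ h = h * (h₀⁻¹ * γ h₀) := by rw [← hh']; group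
              rw [h3]; group
            rcases hz _ hfix with h1 | h1
            · rw [Finset.mem_insert]; left
              exact mul_inv_eq_one.mp h1
            · rw [Finset.mem_insert, Finset.mem_singleton]; right
              rw [← h1]; group
          exact (Finset.card_le_card hsub).trans Finset.card_le_two)
        rwa [Finset.card_univ] at this
      have hA' : Nat.card A * 2 = Nat.card H := by rw [← hA2]; exact A.card_mul_index
      have hAc : (Finset.univ.filter (· ∈ A)).card = Nat.card A := by
        rw [Nat.card_eq_fintype_card, Fintype.card_subtype]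
      have hHc : Nat.card H = Fintype.card H := Nat.card_eq_fintype_card
      have heq := Finset.eq_of_subset_of_card_le himg (by omega)
      intro a ha
      have hmem : a ∈ Finset.univ.image (fun h : H => h⁻¹ * γ h) := by
        rw [heq, Finset.mem_filter]; exact ⟨Finset.mem_univ _, ha⟩
      obtain ⟨h, -, rfl⟩ := Finset.mem_image.mp hmem
      exact hinvφ h
    refine ⟨A, hA2, ?_, fun a ha => (hAγ a).mp ha, hAinv⟩
    exact IsMulCommutative.of_setLike_mul_comm
      (fun a ha b hb => hcomm_of_inv a b (hAinv a ha) (hAinv b hb) (hAinv _ (mul_mem ha hb)))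

end Cfsg.Agent.S3375
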