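import Cfsg.Statements.S3377
import Cfsg.Agent.Lib.Helper20.Enum

set_option autoImplicit false
open Cfsg

namespace Cfsg.Agent.S3377

open Cfsg.Agent.Lib.Helper20.Enum

def cert : Cert where
  ngens := 2
  words := [[],
    [0],
    [1],
    [0, 0],
    [0, 1],
    [1, 0],
    [1, 1],
    [0, 0, 1],
    [0, 1, 0],
    [0, 1, 1],
    [1, 0, 0],
    [1, 1, 0],
    [1, 1, 1],
    [0, 0, 1, 0],
    [0, 0, 1, 1],
    [0, 1, 0, 0],
    [0, 1, 1, 0],
    [0, 1, 1, 1],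
    [1, 0, 0, 1],
    [1, 1, 0, 0],
    [1, 1, 1, 0],
    [0, 0, 1, 0, 0],
    [0, 0, 1, 1, 0],
    [0, 0, 1, 1, 1],
    [0, 1, 0, 0, 1],
    [0, 1, 1, 0, 0],
    [0, 1, 1, 1, 0],
    [1, 0, 0, 1, 1],
    [1, 1, 0, 0, 1],
    [0, 0, 1, 0, 0, 1],
    [0, 0, 1, 1, 0, 0],
    [0, 0, 1, 1, 1, 0],
    [0, 1, 0, 0, 1, 1],
    [0, 1, 1, 0, 0, 1],
    [1, 0, 0, 1, 1, 0],
    [1, 0, 0, 1, 1, 1],
    [1, 1, 0, 0, 1, 1],
    [0, 0, 1, 0, 0, 1, 1],
    [0, 0, 1, 1, 0, 0, 1],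
    [0, 1, 0, 0, 1, 1, 0],
    [0, 1, 0, 0, 1, 1, 1],
    [0, 1, 1, 0, 0, 1, 1],
    [1, 0, 0, 1, 1, 0, 0],
    [1, 0, 0, 1, 1, 1, 0],
    [1, 1, 0, 0, 1, 1, 0],
    [0, 0, 1, 0, 0, 1, 1, 0],
    [0, 0, 1, 0, 0, 1, 1, 1],
    [0, 0, 1, 1, 0, 0, 1, 1],
    [0, 1, 0, 0, 1, 1, 0, 0],
    [0, 1, 0, 0, 1, 1, 1, 0],
    [0, 1, 1, 0, 0, 1, 1, 0],
    [1, 0, 0, 1, 1, 0, 0, 1],
    [1, 1, 0, 0, 1, 1, 0, 0],
    [0, 0, 1, 0, 0, 1, 1, 0, 0],
    [0, 0, 1, 0, 0, 1, 1, 1, 0],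
    [0, 0, 1, 1, 0, 0, 1, 1, 0],
    [0, 1, 1, 0, 0, 1, 1, 0, 0],
    [1, 0, 0, 1, 1, 0, 0, 1, 1],
    [1, 1, 0, 0, 1, 1, 0, 0, 1],
    [0, 1, 1, 0, 0, 1, 1, 0, 0, 1]]
  tab := [[1, 3, 5, 0, 8, 10, 11, 13, 15, 16, 2, 19, 20, 21, 22, 4, 25, 26, 23, 6, 24, 7, 30, 31, 12, 9, 29, 34, 35, 17, 14, 18, 39, 40, 42, 43, 44, 45, 46, 48, 49, 50, 27, 28, 52, 53, 54, 55, 32, 33, 56, 47, 36, 37, 38, 51, 41, 59, 57, 58],
    [2, 4, 6, 7, 9, 3, 12, 14, 0, 17, 18, 10, 8, 1, 23, 24, 15, 13, 27, 28, 19, 29, 21, 5, 32, 33, 25, 35, 36, 37, 38, 30, 40, 41, 31, 11, 39, 46, 47, 20, 16, 45, 51, 42, 43, 26, 22, 34, 52, 48, 49, 57, 58, 56, 53, 54, 59, 44, 50, 55]]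
  rels := [[0, 0, 0], [1, 1, 1, 1, 1], [0, 1, 0, 1]]
  steps := [(0, [0, 0], 0, []),
    (2, [0, 0], 0, []),
    (4, [0, 0], 0, []),
    (6, [0, 0], 0, []),
    (7, [0, 0], 0, []),
    (9, [0, 0], 0, []),
    (14, [0, 0], 0, []),
    (27, [0, 0], 0, []),
    (32, [0, 0], 0, []),
    (36, [0, 0], 0, []),
    (37, [0, 0], 0, []),
    (41, [0, 0], 0, []),
    (0, [0, 1, 0], 1, []),
    (1, [0, 1, 0], 1, []),
    (2, [0], 1, [0, 1]),
    (6, [0], 1, [0, 1]),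
    (9, [0], 1, [0, 1]),
    (12, [0], 1, [0, 1]),
    (14, [0], 1, [0, 1]),
    (17, [0], 1, [0, 1]),
    (23, [0], 1, [0, 1]),
    (35, [0], 1, [0, 1]),
    (40, [0], 1, [0, 1]),
    (46, [0], 1, [0, 1]),
    (0, [1, 1, 1], 1, [1]),
    (1, [1, 1, 1], 1, [1]),
    (3, [1, 1, 1], 1, [1]),
    (10, [1, 1, 1], 1, [1]),
    (15, [1, 1, 1], 1, [1]),
    (21, [1, 1, 1], 1, [1]),
    (5, [0, 1], 0, [1]),
    (8, [0, 1], 0, [1]),
    (11, [0, 1], 0, [1]),
    (13, [0, 1], 0, [1]),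
    (16, [0, 1], 0, [1]),
    (22, [0, 1], 0, [1]),
    (12, [0], 0, [0]),
    (17, [0], 0, [0]),
    (18, [0, 0], 0, []),
    (28, [0, 0], 0, []),
    (33, [0, 0], 0, []),
    (38, [0, 0], 0, []),
    (20, [0, 1, 0], 1, []),
    (26, [0, 1, 0], 1, []),
    (27, [0], 1, [0, 1]),
    (36, [0], 1, [0, 1]),
    (41, [0], 1, [0, 1]),
    (47, [0], 1, [0, 1]),
    (19, [1, 1], 1, [1, 1]),
    (25, [1, 1], 1, [1, 1]),
    (30, [1, 1], 1, [1, 1]),
    (42, [1, 1], 1, [1, 1]),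
    (34, [0, 1], 0, [1]),
    (39, [0], 1, [0, 1]),
    (44, [0, 1], 0, [1]),
    (45, [0], 1, [0, 1]),
    (47, [0], 0, [0]),
    (48, [1, 1], 1, [1, 1]),
    (53, [1, 1], 1, [1, 1]),
    (50, [0, 1], 0, [1]),
    (55, [0, 1], 0, [1])]


theorem cert_ok : check cert = true := by decide +kernel

theorem cert_rels : cert.rels = [[0, 0, 0], [1, 1, 1, 1, 1], [0, 1, 0, 1]] := rfl

theorem cert_len : cert.words.length = 60 := by decide +kernel

def px : Equiv.Perm (Fin 5) := ⟨![1, 2, 0, 3, 4], ![2, 0, 1, 3, 4], by decide, by decide⟩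

def py : Equiv.Perm (Fin 5) := ⟨![2, 3, 4, 0, 1], ![3, 4, 0, 1, 2], by decide, by decide⟩

def ax : alternatingGroup (Fin 5) := ⟨px, by rw [Equiv.Perm.mem_alternatingGroup]; decide⟩

def ay : alternatingGroup (Fin 5) := ⟨py, by rw [Equiv.Perm.mem_alternatingGroup]; decide⟩

def gA : ℕ → alternatingGroup (Fin 5) := fun i =>
  match i with
  | 0 => ax
  | 1 => ay
  | _ => 1

abbrev rels : Set (FreeGroup (Fin 2)) :=
  {FreeGroup.of (0 : Fin 2) ^ 3, FreeGroup.of (1 : Fin 2) ^ 5,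
    (FreeGroup.of (0 : Fin 2) * FreeGroup.of 1) ^ 2}

def gP : ℕ → PresentedGroup rels := fun i =>
  match i with
  | 0 => PresentedGroup.of 0
  | 1 => PresentedGroup.of 1
  | _ => 1

theorem relP : ∀ R ∈ cert.rels, ev gP R = 1 := by
  intro R hR
  rw [cert_rels] at hR
  simp only [List.mem_cons, List.not_mem_nil, or_false] at hR
  rcases hR with rfl | rfl | rfl
  · have h : (PresentedGroup.of (0 : Fin 2) : PresentedGroup rels) ^ 3 = 1 := by
      have h0 := PresentedGroup.one_of_mem (rels := rels) (x := FreeGroup.of (0 : Fin 2) ^ 3)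
        (Set.mem_insert _ _)
      rw [map_pow] at h0
      exact h0
    show 1 * PresentedGroup.of 0 * PresentedGroup.of 0 * PresentedGroup.of 0 = 1
    rw [one_mul, ← pow_two, ← pow_succ]
    exact h
  · have h : (PresentedGroup.of (1 : Fin 2) : PresentedGroup rels) ^ 5 = 1 := by
      have h0 := PresentedGroup.one_of_mem (rels := rels) (x := FreeGroup.of (1 : Fin 2) ^ 5)
        (Set.mem_insert_of_mem _ (Set.mem_insert _ _))
      rw [map_pow] at h0
      exact h0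
    show 1 * PresentedGroup.of 1 * PresentedGroup.of 1 * PresentedGroup.of 1 * PresentedGroup.of 1 *
      PresentedGroup.of 1 = 1
    rw [one_mul, ← pow_two, ← pow_succ, ← pow_succ, ← pow_succ]
    exact h
  · have h : ((PresentedGroup.of (0 : Fin 2) : PresentedGroup rels) * PresentedGroup.of 1) ^ 2 = 1 := by
      have h0 := PresentedGroup.one_of_mem (rels := rels)
        (x := (FreeGroup.of (0 : Fin 2) * FreeGroup.of 1) ^ 2)
        (Set.mem_insert_of_mem _ (Set.mem_insert_of_mem _ (Set.mem_singleton _)))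
      rw [map_pow, map_mul] at h0
      exact h0
    show 1 * PresentedGroup.of 0 * PresentedGroup.of 1 * PresentedGroup.of 0 * PresentedGroup.of 1 = 1
    rw [one_mul, mul_assoc (PresentedGroup.of 0 * PresentedGroup.of 1), ← pow_two]
    exact h

theorem hg1 : ∀ i, cert.ngens ≤ i → gP i = 1 := by
  intro i hi
  have h2 : 2 ≤ i := hi
  match i, h2 with
  | (n + 2), _ => rfl

theorem hgen : Subgroup.closure (Set.range gP) = ⊤ := by
  rw [eq_top_iff, ← PresentedGroup.closure_range_of rels]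
  apply Subgroup.closure_mono
  rintro _ ⟨i, rfl⟩
  fin_cases i
  · exact ⟨0, rfl⟩
  · exact ⟨1, rfl⟩

theorem hlift : ∀ r ∈ rels, FreeGroup.lift ![ax, ay] r = 1 := by
  intro r hr
  simp only [rels, Set.mem_insert_iff, Set.mem_singleton_iff] at hr
  rcases hr with rfl | rfl | rfl
  · simp only [map_pow, FreeGroup.lift_apply_of, Matrix.cons_val_zero]
    decide
  · simp only [map_pow, FreeGroup.lift_apply_of, Matrix.cons_val_one, Matrix.cons_val_zero]
    decide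
  · simp only [map_pow, map_mul, FreeGroup.lift_apply_of, Matrix.cons_val_one, Matrix.cons_val_zero]
    decide

def fP : PresentedGroup rels →* alternatingGroup (Fin 5) := PresentedGroup.toGroup hlift

theorem fP_gP : ∀ i, fP (gP i) = gA i := by
  intro i
  match i with
  | 0 => exact PresentedGroup.toGroup.of hlift
  | 1 => exact PresentedGroup.toGroup.of hlift
  | (n + 2) => exact map_one fP

theorem words_nodup : (List.ofFn (fun j : Fin 60 => List.ofFn (fun t : Fin 5 =>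
    ((ev gA (cert.wordAt j) : alternatingGroup (Fin 5)) : Equiv.Perm (Fin 5)) t))).Nodup := by
  decide +kernel

theorem fP_surj : Function.Surjective fP := by
  have hinj : Function.Injective (fun j : Fin 60 => ev gA (cert.wordAt j)) := by
    have h1 := List.nodup_ofFn.mp words_nodup
    exact Function.Injective.of_comp (f := fun a : alternatingGroup (Fin 5) =>
      List.ofFn (fun t : Fin 5 => (a : Equiv.Perm (Fin 5)) t)) h1
  have hcard : Nat.card (alternatingGroup (Fin 5)) = 60 := by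
    rw [nat_card_alternatingGroup, Nat.card_fin]; rfl
  have hbij := hinj.bijective_of_nat_card_le (by rw [hcard, Nat.card_fin])
  intro a
  obtain ⟨j, hj⟩ := hbij.2 a
  refine ⟨ev gP (cert.wordAt j), ?_⟩
  rw [map_ev, (funext fP_gP : (fun i => fP (gP i)) = gA)]
  exact hj

/-- The alternating group of degree 5 has the presentation ⟨x, y | x³ = 1, y⁵ = 1, (xy)² = 1⟩: the group so presented is isomorphic to Alt(5). -/
theorem result :
    Nonempty (PresentedGroup ({FreeGroup.of (0 : Fin 2) ^ 3, FreeGroup.of (1 : Fin 2) ^ 5,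
        (FreeGroup.of (0 : Fin 2) * FreeGroup.of 1) ^ 2} : Set (FreeGroup (Fin 2))) ≃* alternatingGroup (Fin 5)) := by
  have hcard : Nat.card (alternatingGroup (Fin 5)) = 60 := by
    rw [nat_card_alternatingGroup, Nat.card_fin]; rfl
  have hbij := bijective_of_check gP cert cert_ok relP hg1 hgen fP
    (by rw [cert_len, hcard]) fP_surj
  exact ⟨MulEquiv.ofBijective fP hbij⟩

end Cfsg.Agent.S3377
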