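import Cfsg.Statements.S3378
import Cfsg.Agent.Lib.Helper20.SL25
import Cfsg.Agent.Lib.Helper2.CharBurnside
import Cfsg.Agent.S3377
import Cfsg.Agent.S0494

set_option autoImplicit false
open Cfsg

namespace Cfsg.Agent.S3378

universe u

open Cfsg.Agent.Lib.Helper20

theorem solv_small (H : Type u) [Group H] [Finite H] (hdvd : Nat.card H ∣ 120)
    (h30 : ¬ (30 ∣ Nat.card H)) : Group.IsSolvable H := by
  have hpr : ∀ r : ℕ, r.Prime → r ∣ Nat.card H → r = 2 ∨ r = 3 ∨ r = 5 := by
    intro r hr hrd
    have h1 : r ∣ 120 := hrd.trans hdvd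
    have h120 : (120 : ℕ) = 2 ^ 3 * 3 * 5 := by norm_num
    rw [h120] at h1
    rcases (Nat.Prime.dvd_mul hr).mp h1 with h | h
    · rcases (Nat.Prime.dvd_mul hr).mp h with h | h
      · left; exact (Nat.prime_dvd_prime_iff_eq hr Nat.prime_two).mp (hr.dvd_of_dvd_pow h)
      · right; left; exact (Nat.prime_dvd_prime_iff_eq hr Nat.prime_three).mp h
    · right; right; exact (Nat.prime_dvd_prime_iff_eq hr Nat.prime_five).mp h
  by_cases h2 : 2 ∣ Nat.card H
  · by_cases h3 : 3 ∣ Nat.card H
    · have h5 : ¬ 5 ∣ Nat.card H := by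
        intro h5
        apply h30
        have h6 : 2 * 3 ∣ Nat.card H := Nat.Coprime.mul_dvd_of_dvd_of_dvd (by norm_num) h2 h3
        exact Nat.Coprime.mul_dvd_of_dvd_of_dvd (by norm_num : Nat.Coprime (2 * 3) 5) h6 h5
      apply Cfsg.Agent.Lib.Helper2.solvable_of_two_primes 2 3 Nat.prime_two Nat.prime_three _ H rfl
      intro r hr hrd
      rcases hpr r hr hrd with h | h | h
      · left; exact h
      · right; exact h
      · exfalso; rw [h] at hrd; exact h5 hrd
    · apply Cfsg.Agent.Lib.Helper2.solvable_of_two_primes 2 5 Nat.prime_two Nat.prime_five _ H rfl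
      intro r hr hrd
      rcases hpr r hr hrd with h | h | h
      · left; exact h
      · exfalso; rw [h] at hrd; exact h3 hrd
      · right; exact h
  · apply Cfsg.Agent.Lib.Helper2.solvable_of_two_primes 3 5 Nat.prime_three Nat.prime_five _ H rfl
    intro r hr hrd
    rcases hpr r hr hrd with h | h | h
    · exfalso; rw [h] at hrd; exact h2 hrd
    · left; exact h
    · right; exact h

theorem ext_solv {H : Type u} [Group H] (K : Subgroup H) [K.Normal]
    (h1 : Group.IsSolvable K) (h2 : Group.IsSolvable (H ⧸ K)) : Group.IsSolvable H := by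
  apply Group.isSolvable_of_ker_le_range K.subtype (QuotientGroup.mk' K)
  rw [QuotientGroup.ker_mk', Subgroup.range_subtype]

theorem card_quot {H : Type u} [Group H] [Finite H] (K : Subgroup H) [K.Normal] :
    Nat.card (H ⧸ K) * Nat.card K = Nat.card H := by
  rw [← Subgroup.index_eq_card, Subgroup.index_mul_card]

theorem sylow_card {H : Type u} [Group H] [Finite H] (p : ℕ) [Fact p.Prime] (P : Sylow p H)
    (n m : ℕ) (hH : Nat.card H = p ^ n * m) (hm : ¬ p ∣ m) : Nat.card P = p ^ n := by
  have hp := (Fact.out : p.Prime)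
  have hm0 : m ≠ 0 := by
    rintro rfl
    exact hm (dvd_zero p)
  rw [Sylow.card_eq_multiplicity, hH, Nat.factorization_mul (pow_ne_zero n hp.ne_zero) hm0,
    Nat.Prime.factorization_pow hp]
  simp [Nat.factorization_eq_zero_of_not_dvd hm]

/-- groups of order 30 are solvable -/
theorem solv30 (H : Type u) [Group H] [Finite H] (h : Nat.card H = 30) : Group.IsSolvable H := by
  have _i5 : Fact (Nat.Prime 5) := ⟨Nat.prime_five⟩
  have P : Sylow 5 H := default
  have hPcard : Nat.card P = 5 := by
    have := sylow_card 5 P 1 6 (by rw [h]; norm_num) (by norm_num)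
    simpa using this
  have hidx : (P : Subgroup H).index = 6 := by
    have := Subgroup.card_mul_index (P : Subgroup H)
    rw [hPcard, h] at this
    omega
  have hdvd : Nat.card (Sylow 5 H) ∣ 6 := by
    have := Sylow.card_dvd_index P
    rwa [hidx] at this
  have hmod : Nat.card (Sylow 5 H) % 5 = 1 := card_sylow_modEq_one 5 H
  have hle : Nat.card (Sylow 5 H) ≤ 6 := Nat.le_of_dvd (by norm_num) hdvd
  have hn : Nat.card (Sylow 5 H) = 1 ∨ Nat.card (Sylow 5 H) = 6 := by
    generalize Nat.card (Sylow 5 H) = n at hmod hle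
    interval_cases n <;> simp_all
  have hPsolv : Group.IsSolvable (P : Subgroup H) :=
    solv_small _ (by rw [hPcard]; norm_num) (by rw [hPcard]; norm_num)
  have key : ∃ K : Subgroup H, K.Normal ∧ (Nat.card K = 5 ∨ Nat.card K = 6) := by
    rcases hn with h1 | h6
    · refine ⟨(P : Subgroup H), ?_, Or.inl hPcard⟩
      rw [← Subgroup.normalizer_eq_top_iff, ← Subgroup.index_eq_one]
      have := Sylow.card_eq_index_normalizer P
      rw [h1] at this
      exact this.symm
    · have hNidx : (Subgroup.normalizer ((P : Subgroup H) : Set H)).index = 6 := by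
        have := Sylow.card_eq_index_normalizer P
        rw [h6] at this
        exact this.symm
      have hNcard : Nat.card (Subgroup.normalizer ((P : Subgroup H) : Set H)) = 5 := by
        have := Subgroup.card_mul_index (Subgroup.normalizer ((P : Subgroup H) : Set H))
        rw [hNidx, h] at this
        omega
      have hNP : Subgroup.normalizer ((P : Subgroup H) : Set H) = (P : Subgroup H) := by
        symm
        apply Subgroup.eq_of_le_of_card_ge Subgroup.le_normalizer
        rw [hNcard, hPcard]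
      have hNC : Subgroup.normalizer ((P : Subgroup H) : Set H) ≤
          Subgroup.centralizer ((P : Subgroup H) : Set H) := by
        rw [hNP]
        have hcyc : IsCyclic (P : Subgroup H) := isCyclic_of_prime_card hPcard
        obtain ⟨τ, hτ⟩ := hcyc.exists_generator
        intro x hx y hy
        obtain ⟨i, hi⟩ := Subgroup.mem_zpowers_iff.mp (hτ ⟨x, hx⟩)
        obtain ⟨j, hj⟩ := Subgroup.mem_zpowers_iff.mp (hτ ⟨y, hy⟩)
        have hc : (⟨y, hy⟩ : (P : Subgroup H)) * ⟨x, hx⟩ = ⟨x, hx⟩ * ⟨y, hy⟩ := by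
          rw [← hi, ← hj, ← zpow_add, ← zpow_add, add_comm]
        exact congrArg Subtype.val hc
      have hcomp := MonoidHom.ker_transferSylow_isComplement' P hNC
      have hcard := hcomp.card_mul_card
      refine ⟨(MonoidHom.transferSylow P hNC).ker, inferInstance, Or.inr ?_⟩
      rw [hPcard, h] at hcard
      omega
  obtain ⟨K, hKn, hKc⟩ := key
  have hq := card_quot K
  rw [h] at hq
  have hKs : Group.IsSolvable K := by
    rcases hKc with hc | hc
    · exact solv_small _ (by rw [hc]; norm_num) (by rw [hc]; norm_num)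
    · exact solv_small _ (by rw [hc]; norm_num) (by rw [hc]; norm_num)
  have hQs : Group.IsSolvable (H ⧸ K) := by
    rcases hKc with hc | hc
    · have : Nat.card (H ⧸ K) = 6 := by rw [hc] at hq; omega
      exact solv_small _ (by rw [this]; norm_num) (by rw [this]; norm_num)
    · have : Nat.card (H ⧸ K) = 5 := by rw [hc] at hq; omega
      exact solv_small _ (by rw [this]; norm_num) (by rw [this]; norm_num)
  exact ext_solv K hKs hQs

theorem solv_lt60 (H : Type u) [Group H] [Finite H] (hdvd : Nat.card H ∣ 60)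
    (hlt : Nat.card H < 60) : Group.IsSolvable H := by
  by_cases h30 : 30 ∣ Nat.card H
  · apply solv30
    obtain ⟨k, hk⟩ := h30
    obtain ⟨l, hl⟩ := hdvd
    rw [hk] at hl hlt ⊢
    have : k = 1 := by
      have hk2 : k < 2 := by omega
      have hk0 : k ≠ 0 := by
        rintro rfl
        simp at hl
      omega
    rw [this]
  · exact solv_small H (hdvd.trans (by norm_num)) h30

theorem simple60 (H : Type u) [Group H] [Finite H] (h : Nat.card H = 60)
    (hns : ¬ Group.IsSolvable H) : IsSimpleGroup H := by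
  have hnt : Nontrivial H := by
    rw [← Finite.one_lt_card_iff_nontrivial, h]; norm_num
  refine ⟨fun K hK => ?_⟩
  by_contra hcon
  push Not at hcon
  obtain ⟨hbot, htop⟩ := hcon
  apply hns
  have hq := card_quot K
  rw [h] at hq
  have hK1 : Nat.card K ≠ 1 := by
    intro h1
    exact hbot ((Subgroup.card_eq_one).mp h1)
  have hK60 : Nat.card K ≠ 60 := by
    intro h60
    apply htop
    apply Subgroup.eq_top_of_card_eq
    rw [h60, h]
  have hKpos : 0 < Nat.card K := Nat.card_pos
  have hQpos : 0 < Nat.card (H ⧸ K) := Nat.card_pos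
  have hKd : Nat.card K ∣ 60 := Dvd.intro_left _ hq
  have hQd : Nat.card (H ⧸ K) ∣ 60 := Dvd.intro _ hq
  have hKle : Nat.card K ≤ 60 := Nat.le_of_dvd (by norm_num) hKd
  have hQle : Nat.card (H ⧸ K) ≤ 60 := Nat.le_of_dvd (by norm_num) hQd
  have hQ60 : Nat.card (H ⧸ K) ≠ 60 := by
    intro h60
    rw [h60] at hq
    omega
  exact ext_solv K (solv_lt60 _ hKd (by omega)) (solv_lt60 _ hQd (by omega))

theorem lift60 {Q : Type*} [Group Q] (a b : Q) (h1 : a ^ 3 = 1) (h2 : b ^ 5 = 1)
    (h3 : (a * b) ^ 2 = 1) : ∀ r ∈ Cfsg.Agent.S3377.rels, FreeGroup.lift ![a, b] r = 1 := by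
  intro r hr
  simp only [Cfsg.Agent.S3377.rels, Set.mem_insert_iff, Set.mem_singleton_iff] at hr
  rcases hr with rfl | rfl | rfl
  · simpa using h1
  · simpa using h2
  · simpa using h3

theorem main (G : Type u) [Group G] [Finite G] (hG : Nat.card G = 120)
    (hns : ¬ Group.IsSolvable G)
    (hQ : ∀ P : Sylow 2 G, Nonempty ((P : Subgroup G) ≃* QuaternionGroup 2)) :
    Nonempty (G ≃* Matrix.SpecialLinearGroup (Fin 2) (ZMod 5)) := by
  classical
  have _i5 : Fact (Nat.Prime 5) := ⟨Nat.prime_five⟩
  have _i2 : Fact (Nat.Prime 2) := ⟨Nat.prime_two⟩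
  -- facts about Q8
  have Q1 : (QuaternionGroup.a 2 : QuaternionGroup 2) ≠ 1 := by decide
  have Q2 : (QuaternionGroup.a 2 : QuaternionGroup 2) ^ 2 = 1 := by decide
  have Q3 : ∀ q : QuaternionGroup 2, q ≠ 1 → q = QuaternionGroup.a 2 ∨ q ^ 2 = QuaternionGroup.a 2 := by
    decide
  have Q4 : ∀ q : QuaternionGroup 2, q ^ 2 = 1 → q = 1 ∨ q = QuaternionGroup.a 2 := by decide
  have Q5 : (QuaternionGroup.a 1 : QuaternionGroup 2) ^ 2 = QuaternionGroup.a 2 := by decide
  -- Sylow 5
  have P5 : Sylow 5 G := default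
  have hP5card : ∀ Q : Sylow 5 G, Nat.card Q = 5 := by
    intro Q
    have := sylow_card 5 Q 1 24 (by rw [hG]; norm_num) (by norm_num)
    simpa using this
  have hidx : (P5 : Subgroup G).index = 24 := by
    have := Subgroup.card_mul_index (P5 : Subgroup G)
    rw [hP5card, hG] at this
    omega
  have hdvd : Nat.card (Sylow 5 G) ∣ 24 := by
    have := Sylow.card_dvd_index P5
    rwa [hidx] at this
  have hmod : Nat.card (Sylow 5 G) % 5 = 1 := card_sylow_modEq_one 5 G
  have hle : Nat.card (Sylow 5 G) ≤ 24 := Nat.le_of_dvd (by norm_num) hdvd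
  have hn : Nat.card (Sylow 5 G) = 1 ∨ Nat.card (Sylow 5 G) = 6 := by
    generalize Nat.card (Sylow 5 G) = n at hmod hle hdvd
    interval_cases n <;> simp_all
  have hn6 : Nat.card (Sylow 5 G) = 6 := by
    rcases hn with h1 | h6
    · exfalso
      apply hns
      have hnorm : (P5 : Subgroup G).Normal := by
        rw [← Subgroup.normalizer_eq_top_iff, ← Subgroup.index_eq_one]
        have := Sylow.card_eq_index_normalizer P5
        rw [h1] at this
        exact this.symm
      have hq := card_quot (P5 : Subgroup G)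
      rw [hG, hP5card] at hq
      have hc : Nat.card (G ⧸ (P5 : Subgroup G)) = 24 := by omega
      exact ext_solv (P5 : Subgroup G)
        (solv_small _ (by rw [hP5card]; norm_num) (by rw [hP5card]; norm_num))
        (solv_small _ (by rw [hc]; norm_num) (by rw [hc]; norm_num))
    · exact h6
  -- the kernel of the action on Sylow 5-subgroups
  set K : Subgroup G := (MulAction.toPermHom G (Sylow 5 G)).ker with hK
  have hKmem : ∀ g : G, g ∈ K ↔ ∀ Q : Sylow 5 G, g • Q = Q := by
    intro g
    rw [hK, MonoidHom.mem_ker]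
    constructor
    · intro h Q
      have := congrArg (fun σ : Equiv.Perm (Sylow 5 G) => σ Q) h
      exact this
    · intro h
      apply Equiv.ext
      intro Q
      exact h Q
  -- a Sylow 2-subgroup and its involution
  have P2 : Sylow 2 G := default
  obtain ⟨e⟩ := hQ P2
  set z0 : (P2 : Subgroup G) := e.symm (QuaternionGroup.a 2) with hz0
  set z : G := (z0 : G) with hz
  have hz0ne : z0 ≠ 1 := by
    intro h
    apply Q1
    have := congrArg e h
    rwa [hz0, MulEquiv.apply_symm_apply, map_one] at this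
  have hz0sq : z0 ^ 2 = 1 := by
    rw [hz0, ← map_pow, Q2, map_one]
  have hzne : z ≠ 1 := by
    intro h
    apply hz0ne
    exact Subtype.ext h
  have hzsq : z ^ 2 = 1 := by
    have := congrArg Subtype.val hz0sq
    simpa using this
  -- z acts trivially on the Sylow 5-subgroups
  have hzK : z ∈ K := by
    rw [hKmem]
    intro Q
    have h1 := MulAction.index_stabilizer (↥(P2 : Subgroup G)) Q
    have h2 := Subgroup.card_mul_index (MulAction.stabilizer (↥(P2 : Subgroup G)) Q)
    have hP2card : Nat.card (P2 : Subgroup G) = 8 := by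
      rw [Nat.card_congr e.toEquiv, Nat.card_eq_fintype_card, QuaternionGroup.card]
    have h3 : (MulAction.orbit (↥(P2 : Subgroup G)) Q).ncard ≤ 6 := by
      rw [← hn6]
      exact Set.ncard_le_card _
    rw [h1, hP2card] at h2
    have h4 : 1 < Nat.card (MulAction.stabilizer (↥(P2 : Subgroup G)) Q) := by
      by_contra hcon
      have : Nat.card (MulAction.stabilizer (↥(P2 : Subgroup G)) Q) ≤ 1 := by omega
      have h5 : Nat.card (MulAction.stabilizer (↥(P2 : Subgroup G)) Q) *
          (MulAction.orbit (↥(P2 : Subgroup G)) Q).ncard ≤ 1 * 6 := Nat.mul_le_mul this h3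
      omega
    obtain ⟨s, hs, hs1⟩ : ∃ s ∈ MulAction.stabilizer (↥(P2 : Subgroup G)) Q, s ≠ 1 := by
      by_contra hcon
      push Not at hcon
      have : MulAction.stabilizer (↥(P2 : Subgroup G)) Q = ⊥ := by
        rw [eq_bot_iff]
        intro s hs
        rw [Subgroup.mem_bot]
        exact hcon s hs
      rw [this, Subgroup.card_bot] at h4
      omega
    have hes : e s ≠ 1 := by
      intro h
      apply hs1
      have := congrArg e.symm h
      rwa [MulEquiv.symm_apply_apply, map_one] at this
    have hz0S : z0 ∈ MulAction.stabilizer (↥(P2 : Subgroup G)) Q := by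
      rcases Q3 (e s) hes with h | h
      · have : s = z0 := by
          rw [hz0, ← h, MulEquiv.symm_apply_apply]
        rw [← this]; exact hs
      · have : s ^ 2 = z0 := by
          rw [hz0, ← h, map_pow, MulEquiv.symm_apply_apply]
        rw [← this]
        exact Subgroup.pow_mem _ hs 2
    exact MulAction.mem_stabilizer_iff.mp hz0S
  -- K is a 2-group
  have hKstab : ∀ Q : Sylow 5 G, K ≤ Subgroup.normalizer ((Q : Subgroup G) : Set G) := by
    intro Q g hg
    have h1 := Sylow.stabilizer_eq_normalizer Q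
    have h2 : g ∈ MulAction.stabilizer G Q := by
      rw [MulAction.mem_stabilizer_iff]
      exact (hKmem g).mp hg Q
    rw [h1] at h2
    exact h2
  have hK5 : ¬ 5 ∣ Nat.card K := by
    intro h5
    obtain ⟨g, hg⟩ := exists_prime_orderOf_dvd_card' (G := K) 5 h5
    have hgG : orderOf (g : G) = 5 := by rw [Subgroup.orderOf_coe]; exact hg
    have hmemQ : ∀ Q : Sylow 5 G, (g : G) ∈ (Q : Subgroup G) := by
      intro Q
      have hpg : IsPGroup 5 (Subgroup.zpowers (g : G)) := by
        apply IsPGroup.of_card (n := 1)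
        rw [Nat.card_zpowers, hgG, pow_one]
      have := IsPGroup.inf_normalizer_sylow hpg Q
      have hin : (g : G) ∈ Subgroup.zpowers (g : G) ⊓ Subgroup.normalizer (Q : Set G) :=
        ⟨Subgroup.mem_zpowers _, hKstab Q g.2⟩
      rw [this] at hin
      exact hin.2
    have heq : ∀ Q : Sylow 5 G, (Q : Subgroup G) = Subgroup.zpowers (g : G) := by
      intro Q
      symm
      apply Subgroup.eq_of_le_of_card_ge
      · rw [Subgroup.zpowers_le]; exact hmemQ Q
      · rw [hP5card, Nat.card_zpowers, hgG]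
    have hsub : Subsingleton (Sylow 5 G) := by
      refine ⟨fun Q1 Q2 => ?_⟩
      apply Sylow.ext
      rw [heq Q1, heq Q2]
    have := Finite.card_le_one_iff_subsingleton.mpr hsub
    omega
  have hK4 : Nat.card K ∣ 4 := by
    have hNidx : (Subgroup.normalizer ((P5 : Subgroup G) : Set G)).index = 6 := by
      have := Sylow.card_eq_index_normalizer P5
      rw [hn6] at this
      exact this.symm
    have hNcard : Nat.card (Subgroup.normalizer ((P5 : Subgroup G) : Set G)) = 20 := by
      have := Subgroup.card_mul_index (Subgroup.normalizer ((P5 : Subgroup G) : Set G))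
      rw [hNidx, hG] at this
      omega
    have h20 : Nat.card K ∣ 4 * 5 := by
      have := Subgroup.card_dvd_of_le (hKstab P5)
      rwa [hNcard] at this
    have hcop : Nat.Coprime (Nat.card K) 5 := by
      rw [Nat.coprime_comm]
      exact (Nat.Prime.coprime_iff_not_dvd Nat.prime_five).mpr hK5
    exact hcop.dvd_of_dvd_mul_right h20
  have hKp : IsPGroup 2 K := by
    have hle : Nat.card K ≤ 4 := Nat.le_of_dvd (by norm_num) hK4
    have hpos : 0 < Nat.card K := Nat.card_pos
    have h3 : Nat.card K ≠ 3 := by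
      intro h; rw [h] at hK4; norm_num at hK4
    have : Nat.card K = 2 ^ 0 ∨ Nat.card K = 2 ^ 1 ∨ Nat.card K = 2 ^ 2 := by omega
    rcases this with h | h | h
    · exact IsPGroup.of_card h
    · exact IsPGroup.of_card h
    · exact IsPGroup.of_card h
  have hKle : ∀ P : Sylow 2 G, K ≤ (P : Subgroup G) := by
    intro P
    have h1 : IsPGroup 2 (K ⊔ (P : Subgroup G) : Subgroup G) :=
      IsPGroup.to_sup_of_normal_left hKp P.2
    have h2 := P.3 h1 le_sup_right
    rw [← h2]
    exact le_sup_left
  -- z is the unique involution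
  have huniq : ∀ g : G, g ^ 2 = 1 → g ≠ 1 → g = z := by
    intro g hg2 hg1
    have hpg : IsPGroup 2 (Subgroup.zpowers g) := by
      apply IsPGroup.of_card (n := 1)
      rw [Nat.card_zpowers, pow_one]
      exact orderOf_eq_prime hg2 hg1
    obtain ⟨P, hP⟩ := hpg.exists_le_sylow
    obtain ⟨e'⟩ := hQ P
    have hgP : g ∈ (P : Subgroup G) := hP (Subgroup.mem_zpowers g)
    have hzP : z ∈ (P : Subgroup G) := hKle P hzK
    have e1 : e' ⟨g, hgP⟩ = QuaternionGroup.a 2 := by
      have h1 : (e' ⟨g, hgP⟩) ^ 2 = 1 := by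
        rw [← map_pow]
        have : (⟨g, hgP⟩ : (P : Subgroup G)) ^ 2 = 1 := Subtype.ext hg2
        rw [this, map_one]
      rcases Q4 _ h1 with h | h
      · exfalso
        apply hg1
        have := congrArg e'.symm h
        rw [MulEquiv.symm_apply_apply, map_one] at this
        exact congrArg Subtype.val this
      · exact h
    have e2 : e' ⟨z, hzP⟩ = QuaternionGroup.a 2 := by
      have h1 : (e' ⟨z, hzP⟩) ^ 2 = 1 := by
        rw [← map_pow]
        have : (⟨z, hzP⟩ : (P : Subgroup G)) ^ 2 = 1 := Subtype.ext hzsq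
        rw [this, map_one]
      rcases Q4 _ h1 with h | h
      · exfalso
        apply hzne
        have := congrArg e'.symm h
        rw [MulEquiv.symm_apply_apply, map_one] at this
        exact congrArg Subtype.val this
      · exact h
    have := e'.injective (e1.trans e2.symm)
    exact congrArg Subtype.val this
  have hzc : ∀ g : G, g * z = z * g := by
    intro g
    have h1 : (g * z * g⁻¹) ^ 2 = 1 := by
      rw [pow_two]
      have : g * z * g⁻¹ * (g * z * g⁻¹) = g * (z * z) * g⁻¹ := by group
      rw [this, ← pow_two, hzsq]; group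
    have h2 : g * z * g⁻¹ ≠ 1 := by
      intro h
      apply hzne
      have : z = g⁻¹ * (g * z * g⁻¹) * g := by group
      rw [this, h]; group
    have h3 := huniq _ h1 h2
    calc g * z = g * z * g⁻¹ * g := by group
      _ = z * g := by rw [h3]
  -- N = ⟨z⟩
  set N : Subgroup G := Subgroup.zpowers z with hN
  have hNnorm : N.Normal := by
    refine ⟨fun n hn g => ?_⟩
    rw [hN, Subgroup.mem_zpowers_iff] at hn ⊢
    obtain ⟨k, rfl⟩ := hn
    refine ⟨k, ?_⟩
    have hc : Commute g z := hzc g
    have := (hc.zpow_right k).eq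
    rw [this, mul_inv_cancel_right]
  have hzord : orderOf z = 2 := orderOf_eq_prime hzsq hzne
  have hNcard : Nat.card N = 2 := by rw [hN, Nat.card_zpowers, hzord]
  have hNmem : ∀ g : G, g ∈ N → g = 1 ∨ g = z := by
    intro g hg
    by_cases h1 : g = 1
    · exact Or.inl h1
    · right
      have hzN : z ∈ N := Subgroup.mem_zpowers z
      have h2 := (Nat.card_eq_two_iff' (1 : N)).mp hNcard
      obtain ⟨b, -, hb⟩ := h2
      have e1 := hb ⟨g, hg⟩ (fun h => h1 (congrArg Subtype.val h))
      have e2 := hb ⟨z, hzN⟩ (fun h => hzne (congrArg Subtype.val h))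
      exact congrArg Subtype.val (e1.trans e2.symm)
  have hqcard : Nat.card (G ⧸ N) = 60 := by
    have := card_quot N
    rw [hNcard, hG] at this
    omega
  have hqns : ¬ Group.IsSolvable (G ⧸ N) := by
    intro h
    apply hns
    exact ext_solv N (solv_small _ (by rw [hNcard]; norm_num) (by rw [hNcard]; norm_num)) h
  have hsimple : IsSimpleGroup (G ⧸ N) := simple60 _ hqcard hqns
  obtain ⟨ε1⟩ := Cfsg.Agent.S0494.result (G := G ⧸ N) hqcard
  obtain ⟨ε2⟩ := Cfsg.Agent.S3377.result
  set θ : PresentedGroup Cfsg.Agent.S3377.rels ≃* G ⧸ N := ε2.trans ε1.symm with hθ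
  -- relations in the presented group
  have r1 : (PresentedGroup.of (0 : Fin 2) : PresentedGroup Cfsg.Agent.S3377.rels) ^ 3 = 1 := by
    have h0 := PresentedGroup.one_of_mem (rels := Cfsg.Agent.S3377.rels)
      (x := FreeGroup.of (0 : Fin 2) ^ 3) (Set.mem_insert _ _)
    rw [map_pow] at h0
    exact h0
  have r2 : (PresentedGroup.of (1 : Fin 2) : PresentedGroup Cfsg.Agent.S3377.rels) ^ 5 = 1 := by
    have h0 := PresentedGroup.one_of_mem (rels := Cfsg.Agent.S3377.rels)
      (x := FreeGroup.of (1 : Fin 2) ^ 5) (Set.mem_insert_of_mem _ (Set.mem_insert _ _))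
    rw [map_pow] at h0
    exact h0
  have r3 : ((PresentedGroup.of (0 : Fin 2) : PresentedGroup Cfsg.Agent.S3377.rels) *
      PresentedGroup.of 1) ^ 2 = 1 := by
    have h0 := PresentedGroup.one_of_mem (rels := Cfsg.Agent.S3377.rels)
      (x := (FreeGroup.of (0 : Fin 2) * FreeGroup.of 1) ^ 2)
      (Set.mem_insert_of_mem _ (Set.mem_insert_of_mem _ rfl))
    rw [map_pow, map_mul] at h0
    exact h0
  -- lifts
  obtain ⟨x0, hx0⟩ := QuotientGroup.mk_surjective (s := N) (θ (PresentedGroup.of 0))
  obtain ⟨y0, hy0⟩ := QuotientGroup.mk_surjective (s := N) (θ (PresentedGroup.of 1))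
  have hmkN : ∀ g : G, (QuotientGroup.mk g : G ⧸ N) = 1 → g = 1 ∨ g = z := by
    intro g hg
    exact hNmem g ((QuotientGroup.eq_one_iff g).mp hg)
  have hmkz : (QuotientGroup.mk z : G ⧸ N) = 1 :=
    (QuotientGroup.eq_one_iff z).mpr (Subgroup.mem_zpowers z)
  have hz3 : z ^ 3 = z := by
    rw [pow_succ, hzsq, one_mul]
  have hz5 : z ^ 5 = z := by
    have : z ^ 5 = (z ^ 2) ^ 2 * z := by group
    rw [this, hzsq, one_pow, one_mul]
  obtain ⟨x, hx3, hxmk⟩ : ∃ x : G, x ^ 3 = 1 ∧ (QuotientGroup.mk x : G ⧸ N) = θ (PresentedGroup.of 0) := by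
    have h1 : (QuotientGroup.mk (x0 ^ 3) : G ⧸ N) = 1 := by
      rw [QuotientGroup.mk_pow, hx0, ← map_pow, r1, map_one]
    rcases hmkN _ h1 with h | h
    · exact ⟨x0, h, hx0⟩
    · refine ⟨x0 * z, ?_, ?_⟩
      · rw [(show Commute x0 z from hzc x0).mul_pow, h, hz3, ← pow_two, hzsq]
      · rw [QuotientGroup.mk_mul, hmkz, mul_one, hx0]
  obtain ⟨y, hy5, hymk⟩ : ∃ y : G, y ^ 5 = 1 ∧ (QuotientGroup.mk y : G ⧸ N) = θ (PresentedGroup.of 1) := by
    have h1 : (QuotientGroup.mk (y0 ^ 5) : G ⧸ N) = 1 := by
      rw [QuotientGroup.mk_pow, hy0, ← map_pow, r2, map_one]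
    rcases hmkN _ h1 with h | h
    · exact ⟨y0, h, hy0⟩
    · refine ⟨y0 * z, ?_, ?_⟩
      · rw [(show Commute y0 z from hzc y0).mul_pow, h, hz5, ← pow_two, hzsq]
      · rw [QuotientGroup.mk_mul, hmkz, mul_one, hy0]
  have hw : (x * y) ^ 2 = 1 ∨ (x * y) ^ 2 = z := by
    apply hmkN
    rw [QuotientGroup.mk_pow, QuotientGroup.mk_mul, hxmk, hymk, ← map_mul, ← map_pow, r3, map_one]
  rcases hw with hw1 | hwz
  · -- split case: contradiction
    exfalso
    set ψ : PresentedGroup Cfsg.Agent.S3377.rels →* G :=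
      PresentedGroup.toGroup (lift60 x y hx3 hy5 hw1) with hψ
    have hψθ : (QuotientGroup.mk' N).comp ψ = θ.toMonoidHom := by
      apply PresentedGroup.ext
      intro i
      fin_cases i
      · show (QuotientGroup.mk (ψ (PresentedGroup.of 0)) : G ⧸ N) = θ (PresentedGroup.of 0)
        rw [hψ, PresentedGroup.toGroup.of]
        exact hxmk
      · show (QuotientGroup.mk (ψ (PresentedGroup.of 1)) : G ⧸ N) = θ (PresentedGroup.of 1)
        rw [hψ, PresentedGroup.toGroup.of]
        exact hymk
    have hψθ' : ∀ p, (QuotientGroup.mk (ψ p) : G ⧸ N) = θ p := by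
      intro p
      exact congrArg (fun f => f p) hψθ
    -- element with square z
    set u : G := ((e.symm (QuaternionGroup.a 1) : (P2 : Subgroup G)) : G) with hu
    have hu2 : u ^ 2 = z := by
      have : (e.symm (QuaternionGroup.a 1)) ^ 2 = z0 := by
        rw [hz0, ← map_pow, Q5]
      have := congrArg Subtype.val this
      simpa using this
    obtain ⟨p, hp⟩ := θ.surjective (QuotientGroup.mk u)
    have h1 : (QuotientGroup.mk (ψ p) : G ⧸ N) = QuotientGroup.mk u := by rw [hψθ', hp]
    have h2 : (ψ p)⁻¹ * u ∈ N := QuotientGroup.eq.mp h1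
    have h3 : u ^ 2 = (ψ p) ^ 2 := by
      rcases hNmem _ h2 with h | h
      · have : u = ψ p := by
          have : u = ψ p * ((ψ p)⁻¹ * u) := by group
          rw [this, h, mul_one]
        rw [this]
      · have : u = ψ p * z := by
          have : u = ψ p * ((ψ p)⁻¹ * u) := by group
          rw [this, h]
        rw [this, (show Commute (ψ p) z from hzc (ψ p)).mul_pow, hzsq, mul_one]
    have h4 : θ (p ^ 2) = 1 := by
      rw [← hψθ', map_pow, ← h3, hu2]
      exact hmkz
    have h5 : p ^ 2 = 1 := by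
      have := θ.injective (h4.trans (map_one θ).symm)
      exact this
    apply hzne
    rw [← hu2, h3, ← map_pow, h5, map_one]
  · -- nonsplit case
    have hxz : x * z = z * x := hzc x
    have hyz : y * z = z * y := hzc y
    set f : PresentedGroup SL25.rels →* G :=
      PresentedGroup.toGroup (SL25.lift_rels x y z hx3 hy5 hzsq hxz hyz hwz) with hf
    have hf0 : f (PresentedGroup.of 0) = x := by rw [hf, PresentedGroup.toGroup.of]; rfl
    have hf1 : f (PresentedGroup.of 1) = y := by rw [hf, PresentedGroup.toGroup.of]; rfl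
    have hf2 : f (PresentedGroup.of 2) = z := by rw [hf, PresentedGroup.toGroup.of]; rfl
    have hrange : ((QuotientGroup.mk' N).comp f).range = ⊤ := by
      rw [eq_top_iff]
      have h1 : (⊤ : Subgroup (G ⧸ N)) = Subgroup.map θ.toMonoidHom ⊤ := by
        rw [← MonoidHom.range_eq_map]
        exact (MonoidHom.range_eq_top.mpr θ.surjective).symm
      rw [h1, ← PresentedGroup.closure_range_of, MonoidHom.map_closure, Subgroup.closure_le]
      rintro _ ⟨_, ⟨i, rfl⟩, rfl⟩
      fin_cases i
      · exact ⟨PresentedGroup.of 0, by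
          show (QuotientGroup.mk (f (PresentedGroup.of 0)) : G ⧸ N) = θ (PresentedGroup.of 0)
          rw [hf0, hxmk]⟩
      · exact ⟨PresentedGroup.of 1, by
          show (QuotientGroup.mk (f (PresentedGroup.of 1)) : G ⧸ N) = θ (PresentedGroup.of 1)
          rw [hf1, hymk]⟩
    have hsurj : Function.Surjective f := by
      intro g
      have : (QuotientGroup.mk g : G ⧸ N) ∈ ((QuotientGroup.mk' N).comp f).range := by
        rw [hrange]; exact Subgroup.mem_top _
      obtain ⟨q, hq⟩ := this
      have h1 : (QuotientGroup.mk (f q) : G ⧸ N) = QuotientGroup.mk g := hq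
      have h2 : (f q)⁻¹ * g ∈ N := QuotientGroup.eq.mp h1
      rcases hNmem _ h2 with h | h
      · refine ⟨q, ?_⟩
        have : g = f q * ((f q)⁻¹ * g) := by group
        rw [this, h, mul_one]
      · refine ⟨q * PresentedGroup.of 2, ?_⟩
        have : g = f q * ((f q)⁻¹ * g) := by group
        rw [this, h, map_mul, hf2]
    have hcardP : Nat.card (PresentedGroup SL25.rels) = 120 := by
      rw [Nat.card_congr SL25.equivSL25.toEquiv, SL25.card_SL25]
    have hbij : Function.Bijective f :=
      hsurj.bijective_of_nat_card_le (by rw [hcardP, hG])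
    exact ⟨(MulEquiv.ofBijective f hbij).symm.trans SL25.equivSL25⟩

/-- Every non-solvable group of order 120 whose Sylow 2-subgroups are quaternion of order 8 is isomorphic to SL(2,5), and SL(2,5) has the presentation ⟨x, y, z | x³ = y⁵ = z² = 1, z⁻¹xz = x, z⁻¹yz = y, (xy)² = z⟩. -/
theorem result :
    (∀ (G : Type*) [Group G] [Finite G], Nat.card G = 120 → ¬ Group.IsSolvable G →
      (∀ P : Sylow 2 G, Nonempty ((P : Subgroup G) ≃* QuaternionGroup 2)) →
      Nonempty (G ≃* Matrix.SpecialLinearGroup (Fin 2) (ZMod 5))) ∧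
    Nonempty (PresentedGroup ({FreeGroup.of (0 : Fin 3) ^ 3, FreeGroup.of (1 : Fin 3) ^ 5, FreeGroup.of (2 : Fin 3) ^ 2,
        (FreeGroup.of (2 : Fin 3))⁻¹ * FreeGroup.of 0 * FreeGroup.of 2 * (FreeGroup.of (0 : Fin 3))⁻¹,
        (FreeGroup.of (2 : Fin 3))⁻¹ * FreeGroup.of 1 * FreeGroup.of 2 * (FreeGroup.of (1 : Fin 3))⁻¹,
        (FreeGroup.of (0 : Fin 3) * FreeGroup.of 1) ^ 2 * (FreeGroup.of (2 : Fin 3))⁻¹} : Set (FreeGroup (Fin 3)))
      ≃* Matrix.SpecialLinearGroup (Fin 2) (ZMod 5)) := by
  refine ⟨?_, ⟨Cfsg.Agent.Lib.Helper20.SL25.equivSL25⟩⟩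
  intro G _ _ hG hns hQ
  exact main G hG hns hQ

end Cfsg.Agent.S3378
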