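import Cfsg.Statements.S3379

set_option autoImplicit false
open Cfsg

namespace Cfsg.Agent.S3379

/-- Let G be a finite group all of whose Sylow subgroups are cyclic. Then G is generated by two elements x and y of coprime orders n and m with x⁻¹yx = y^r, where gcd(r − 1, m) = 1 and r^n ≡ 1 (mod m). -/
theorem result {G : Type*} [Group G] [Finite G]
    (hZ : ∀ (p : ℕ) [Fact p.Prime] (P : Sylow p G), IsCyclic (P : Subgroup G)) :
    ∃ (x y : G) (n m r : ℕ), Subgroup.closure {x, y} = ⊤ ∧ orderOf x = n ∧ orderOf y = m ∧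
      x⁻¹ * y * x = y ^ r ∧ Nat.Coprime (r - 1) m ∧ Nat.Coprime n m ∧ 1 ≤ r ∧ r ^ n % m = 1 % m := by
  classical
  have hZG : IsZGroup G := ⟨fun p hp P => by have := Fact.mk hp; exact hZ p P⟩
  have hcop := IsZGroup.coprime_commutator_index G
  obtain ⟨H, hH⟩ := Subgroup.exists_right_complement'_of_coprime hcop
  have hNcyc0 : IsCyclic (commutator G) := IsZGroup.isCyclic_commutator G
  have hAbcyc : IsCyclic (Abelianization G) := inferInstance
  have eAb : Abelianization G ≃* H := hH.symm.QuotientMulEquiv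
  have hHcyc : IsCyclic H := isCyclic_of_surjective eAb eAb.surjective
  set N := commutator G with hN
  have hNcyc : IsCyclic N := hNcyc0
  obtain ⟨y', hy'⟩ := IsCyclic.exists_generator (α := N)
  obtain ⟨x', hx'⟩ := IsCyclic.exists_generator (α := H)
  have hyord : orderOf (y' : G) = Nat.card N := by
    rw [Subgroup.orderOf_coe, orderOf_eq_card_of_forall_mem_zpowers hy']
  have hxord : orderOf (x' : G) = Nat.card H := by
    rw [Subgroup.orderOf_coe, orderOf_eq_card_of_forall_mem_zpowers hx']
  have hNz : ∀ g ∈ N, ∃ k : ℕ, g = (y' : G) ^ k := by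
    intro g hg
    have h1 := hy' ⟨g, hg⟩
    rw [← mem_powers_iff_mem_zpowers] at h1
    obtain ⟨k, hk⟩ := h1
    exact ⟨k, by have := congrArg Subtype.val hk; simpa using this.symm⟩
  have hHz : ∀ g ∈ H, ∃ k : ℕ, g = (x' : G) ^ k := by
    intro g hg
    have h1 := hx' ⟨g, hg⟩
    rw [← mem_powers_iff_mem_zpowers] at h1
    obtain ⟨k, hk⟩ := h1
    exact ⟨k, by have := congrArg Subtype.val hk; simpa using this.symm⟩
  obtain ⟨x, hxdef⟩ : ∃ x : G, x = (x' : G) := ⟨_, rfl⟩
  obtain ⟨y, hydef⟩ : ∃ y : G, y = (y' : G) := ⟨_, rfl⟩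
  rw [← hxdef] at hxord hHz
  rw [← hydef] at hyord hNz
  have hyN : y ∈ N := by rw [hydef]; exact y'.2
  have hxH : x ∈ H := by rw [hxdef]; exact x'.2
  have hclos : Subgroup.closure {x, y} = ⊤ := by
    rw [eq_top_iff, ← hH.sup_eq_top]
    apply sup_le
    · intro g hg
      obtain ⟨k, rfl⟩ := hNz g hg
      exact Subgroup.pow_mem _ (Subgroup.subset_closure (by simp)) k
    · intro g hg
      obtain ⟨k, rfl⟩ := hHz g hg
      exact Subgroup.pow_mem _ (Subgroup.subset_closure (by simp)) k
  have hNnorm : N.Normal := by rw [hN]; infer_instance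
  set m := orderOf y with hm
  have hm0 : 0 < m := orderOf_pos y
  obtain ⟨r₀, hr₀⟩ := hNz (x⁻¹ * y * x) (by
    have := hNnorm.conj_mem y hyN x⁻¹
    rwa [inv_inv] at this)
  set r := r₀ % m + m with hr
  have hyr : x⁻¹ * y * x = y ^ r := by
    rw [hr₀, hr, pow_add, pow_orderOf_eq_one, mul_one, hm, pow_mod_orderOf]
  have hr1 : 1 ≤ r := by omega
  -- powers of x
  have hpow : ∀ k : ℕ, (x ^ k)⁻¹ * y * x ^ k = y ^ (r ^ k) := by
    intro k
    induction k with
    | zero => simp
    | succ k ih =>
      have e : (x ^ (k + 1))⁻¹ * y * x ^ (k + 1) = x⁻¹ * ((x ^ k)⁻¹ * y * x ^ k) * x := by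
        rw [pow_succ]; group
      rw [e, ih]
      have e2 : x⁻¹ * y ^ (r ^ k) * x = (x⁻¹ * y * x) ^ (r ^ k) := by
        have := conj_pow (a := x⁻¹) (b := y) (i := r ^ k)
        rw [inv_inv] at this
        exact this.symm
      rw [e2, hyr, ← pow_mul, pow_succ, mul_comm]
  have hrn : r ^ orderOf x % m = 1 % m := by
    have h1 := hpow (orderOf x)
    rw [pow_orderOf_eq_one, inv_one, one_mul, mul_one] at h1
    have h2 : y ^ (r ^ orderOf x) = y ^ 1 := by rw [← h1, pow_one]
    exact pow_eq_pow_iff_modEq.mp h2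
  -- gcd (r - 1, m) = 1
  set Z : Subgroup G := Subgroup.zpowers (y ^ (r - 1)) with hZdef
  have hZN : Z ≤ N := by
    rw [hZdef, Subgroup.zpowers_le]
    exact N.pow_mem hyN _
  have hZnorm : Z.Normal := by
    constructor
    intro z hz g
    obtain ⟨j, rfl⟩ := Subgroup.mem_zpowers_iff.mp hz
    obtain ⟨k, hk⟩ := hNz (g * y * g⁻¹) (hNnorm.conj_mem y hyN g)
    have e : g * (y ^ (r - 1)) ^ j * g⁻¹ = ((y ^ (r - 1)) ^ k) ^ j := by
      rw [← conj_zpow, ← conj_pow, hk, ← pow_mul, ← pow_mul, mul_comm]
    rw [e]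
    exact Subgroup.zpow_mem _ (Subgroup.pow_mem _ (Subgroup.mem_zpowers _) _) _
  have hNZ : N ≤ Z := by
    have hq : (QuotientGroup.mk' Z) x * (QuotientGroup.mk' Z) y =
        (QuotientGroup.mk' Z) y * (QuotientGroup.mk' Z) x := by
      rw [← map_mul, ← map_mul, QuotientGroup.mk'_eq_mk']
      refine ⟨y ^ (r - 1), Subgroup.mem_zpowers _, ?_⟩
      have : y * x = x * y ^ r := by rw [← hyr]; group
      rw [this, mul_assoc, ← pow_succ', Nat.sub_add_cancel hr1]
    have hT : Subgroup.closure {(QuotientGroup.mk' Z) x, (QuotientGroup.mk' Z) y} = ⊤ := by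
      have := congrArg (Subgroup.map (QuotientGroup.mk' Z)) hclos
      rw [MonoidHom.map_closure, Subgroup.map_top_of_surjective _ (QuotientGroup.mk'_surjective Z)]
        at this
      rw [← this]
      congr 1
      simp [Set.image_pair]
    have h2 : ∀ a : G ⧸ Z, a * (QuotientGroup.mk' Z) x = (QuotientGroup.mk' Z) x * a ∧
        a * (QuotientGroup.mk' Z) y = (QuotientGroup.mk' Z) y * a := by
      intro a
      have ha : a ∈ Subgroup.closure {(QuotientGroup.mk' Z) x, (QuotientGroup.mk' Z) y} := by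
        rw [hT]; trivial
      constructor
      · have hle : Subgroup.closure {(QuotientGroup.mk' Z) x, (QuotientGroup.mk' Z) y} ≤
            Subgroup.centralizer {(QuotientGroup.mk' Z) x} := by
          rw [Subgroup.closure_le]
          intro b hb
          rw [SetLike.mem_coe, Subgroup.mem_centralizer_iff]
          intro c hc
          rw [Set.mem_singleton_iff] at hc
          subst hc
          rcases hb with rfl | rfl
          · rfl
          · exact hq
        have := Subgroup.mem_centralizer_iff.mp (hle ha) _ (Set.mem_singleton _)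
        exact this.symm
      · have hle : Subgroup.closure {(QuotientGroup.mk' Z) x, (QuotientGroup.mk' Z) y} ≤
            Subgroup.centralizer {(QuotientGroup.mk' Z) y} := by
          rw [Subgroup.closure_le]
          intro b hb
          rw [SetLike.mem_coe, Subgroup.mem_centralizer_iff]
          intro c hc
          rw [Set.mem_singleton_iff] at hc
          subst hc
          rcases hb with rfl | rfl
          · exact hq.symm
          · rfl
        have := Subgroup.mem_centralizer_iff.mp (hle ha) _ (Set.mem_singleton _)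
        exact this.symm
    have h3 : ∀ a b : G ⧸ Z, a * b = b * a := by
      intro a b
      have hb : b ∈ Subgroup.closure {(QuotientGroup.mk' Z) x, (QuotientGroup.mk' Z) y} := by
        rw [hT]; trivial
      have hle : Subgroup.closure {(QuotientGroup.mk' Z) x, (QuotientGroup.mk' Z) y} ≤
          Subgroup.centralizer {a} := by
        rw [Subgroup.closure_le]
        intro c hc
        rw [SetLike.mem_coe, Subgroup.mem_centralizer_iff]
        intro d hd
        rw [Set.mem_singleton_iff] at hd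
        subst hd
        rcases hc with rfl | rfl
        · exact (h2 d).1
        · exact (h2 d).2
      exact Subgroup.mem_centralizer_iff.mp (hle hb) _ (Set.mem_singleton _)
    rw [hN, commutator_def, Subgroup.commutator_le]
    intro g₁ _ g₂ _
    rw [← QuotientGroup.eq_one_iff, commutatorElement_def]
    have e : ((g₁ * g₂ * g₁⁻¹ * g₂⁻¹ : G) : G ⧸ Z) =
        (g₁ : G ⧸ Z) * (g₂ : G ⧸ Z) * (g₁ : G ⧸ Z)⁻¹ * (g₂ : G ⧸ Z)⁻¹ := rfl
    rw [e, h3 (g₁ : G ⧸ Z) (g₂ : G ⧸ Z)]
    group
  have hgcd : Nat.Coprime (r - 1) m := by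
    have hyZ : y ∈ Z := hNZ hyN
    have h1 : Subgroup.zpowers y ≤ Z := by rw [Subgroup.zpowers_le]; exact hyZ
    have h2 : Z ≤ Subgroup.zpowers y := by
      rw [hZdef, Subgroup.zpowers_le]
      exact Subgroup.pow_mem _ (Subgroup.mem_zpowers y) _
    have h3 : Z = Subgroup.zpowers y := le_antisymm h2 h1
    have h4 : orderOf (y ^ (r - 1)) = orderOf y := by
      rw [← Nat.card_zpowers, ← Nat.card_zpowers, ← hZdef, h3]
    rw [orderOf_pow] at h4
    have h5 : Nat.gcd m (r - 1) = 1 := by
      rw [← hm] at h4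
      have h6 := Nat.div_mul_cancel (Nat.gcd_dvd_left m (r - 1))
      rw [h4] at h6
      exact Nat.eq_of_mul_eq_mul_left hm0 (by rw [mul_one]; exact h6)
    exact Nat.Coprime.symm h5
  refine ⟨x, y, orderOf x, m, r, hclos, rfl, rfl, hyr, hgcd, ?_, hr1, hrn⟩
  rw [hxord, hyord, ← hH.symm.index_eq_card]
  exact hcop.symm

end Cfsg.Agent.S3379
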