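import Cfsg.Statements.S3381
import Mathlib

set_option autoImplicit false
open Cfsg

namespace Cfsg.Agent.S3381

theorem stab_two {q : ℕ} [Fact q.Prime] {V : Type*} [AddCommGroup V] [Module (ZMod q) V]
    {G : Type*} [Group G] (ρ : G →* (V ≃ₗ[ZMod q] V))
    (hstab : ∀ v : V, v ≠ 0 → Nat.card {g : G // ρ g v = v} = 2) (v : V) (hv : v ≠ 0) :
    ∃ t : G, t ≠ 1 ∧ t * t = 1 ∧ ρ t v = v ∧ ∀ g : G, ρ g v = v → g = 1 ∨ g = t := by
  have h2 := hstab v hv
  have one_mem : ρ 1 v = v := by simp
  rw [Nat.card_eq_two_iff' (⟨1, one_mem⟩ : {g : G // ρ g v = v})] at h2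
  obtain ⟨⟨t, ht⟩, ht1, huniq⟩ := h2
  have ht1' : t ≠ 1 := fun h => ht1 (Subtype.ext h)
  have hall : ∀ g : G, ρ g v = v → g = 1 ∨ g = t := by
    intro g hg
    by_cases h1 : g = 1
    · exact Or.inl h1
    · right
      have := huniq ⟨g, hg⟩ (fun h => h1 (congrArg Subtype.val h))
      exact congrArg Subtype.val this
  refine ⟨t, ht1', ?_, ht, hall⟩
  have htt : ρ (t * t) v = v := by
    rw [map_mul, LinearEquiv.mul_apply, ht, ht]
  rcases hall (t * t) htt with h | h
  · exact h
  · exfalso
    apply ht1'
    have h' : t * t = t * 1 := by rw [h, mul_one]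
    exact mul_left_cancel h'

theorem central_neg {q : ℕ} [Fact q.Prime] {V : Type*} [AddCommGroup V] [Module (ZMod q) V]
    {G : Type*} [Group G] (ρ : G →* (V ≃ₗ[ZMod q] V)) (hρ : Function.Injective ρ)
    (hstab : ∀ v : V, v ≠ 0 → Nat.card {g : G // ρ g v = v} = 2)
    (z : G) (hz1 : z ≠ 1) (hzz : z * z = 1) (hzc : ∀ g : G, g * z = z * g) :
    ∀ v : V, ρ z v = -v := by
  have hdich : ∀ v : V, ρ z v = -v ∨ ρ z v = v := by
    intro v
    by_cases hv : v = 0
    · subst hv; right; simp
    obtain ⟨t, ht1, htt, htv, hall⟩ := stab_two ρ hstab v hv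
    by_cases hw : v + ρ z v = 0
    · left; exact (neg_eq_of_add_eq_zero_right hw).symm
    · right
      obtain ⟨t', ht'1, ht't', ht'w, hall'⟩ := stab_two ρ hstab _ hw
      have hzw : ρ z (v + ρ z v) = v + ρ z v := by
        rw [map_add, ← LinearEquiv.mul_apply, ← map_mul, hzz, map_one, LinearEquiv.coe_one, id_eq,
          add_comm]
      have htw : ρ t (v + ρ z v) = v + ρ z v := by
        rw [map_add, htv, ← LinearEquiv.mul_apply, ← map_mul, hzc t, map_mul,
          LinearEquiv.mul_apply, htv]
      have hz' : z = t' := (hall' z hzw).resolve_left hz1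
      have ht' : t = t' := (hall' t htw).resolve_left ht1
      rw [hz', ← ht']; exact htv
  have hne : ∃ w : V, ρ z w ≠ w := by
    by_contra h
    push Not at h
    apply hz1
    apply hρ
    rw [map_one]
    ext w
    simpa using h w
  obtain ⟨w, hw⟩ := hne
  have hw' : ρ z w = -w := (hdich w).resolve_right hw
  intro v
  by_contra hv
  have hv' : ρ z v = v := (hdich v).resolve_left hv
  rcases hdich (v + w) with h | h
  · rw [map_add, hv', hw', neg_add] at h
    apply hv
    rw [hv']
    exact add_right_cancel h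
  · rw [map_add, hv', hw'] at h
    apply hw
    rw [hw']
    exact add_left_cancel h

theorem two_tor {q : ℕ} [Fact q.Prime] {V : Type*} [AddCommGroup V] [Module (ZMod q) V]
    (w : V) (hw : w + w ≠ 0) : ∀ v : V, v + v = 0 → v = 0 := by
  have h2 : (2 : ZMod q) ≠ 0 := by
    intro h
    apply hw
    rw [← two_smul (ZMod q) w, h, zero_smul]
  intro v hv
  rw [← two_smul (ZMod q) v] at hv
  rcases smul_eq_zero.mp hv with h | h
  · exact absurd h h2
  · exact h

theorem card_mul_le {V : Type*} [AddCommGroup V] [Fintype V] [DecidableEq V]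
    (A B : Finset V) (hsub : ∀ a ∈ A, ∀ a' ∈ A, ∀ b ∈ B, ∀ b' ∈ B, a + b = a' + b' → a = a' ∧ b = b') :
    A.card * B.card ≤ Fintype.card V := by
  rw [← Finset.card_product, ← Finset.card_univ]
  apply Finset.card_le_card_of_injOn (fun p : V × V => p.1 + p.2) (fun _ _ => Finset.mem_univ _)
  rintro ⟨a, b⟩ hab ⟨a', b'⟩ hab' h
  simp only [Finset.coe_product, Set.mem_prod, Finset.mem_coe] at hab hab'
  obtain ⟨h1, h2⟩ := hsub a hab.1 a' hab'.1 b hab.2 b' hab'.2 h
  rw [h1, h2]

/-- Let G be a finite group acting faithfully and linearly on a non-trivial finite vector space V over the field with q elements (q prime) so that every non-zero vector has a stabilizer of order 2, and suppose G has a central involution. Then V has q^(2r) elements for some r and G contains exactly q^r + 1 non-central involutions. -/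
theorem result
    (q : ℕ) [Fact q.Prime] {V : Type*} [AddCommGroup V] [Module (ZMod q) V] [Finite V] [Nontrivial V]
    {G : Type*} [Group G] [Finite G] (ρ : G →* (V ≃ₗ[ZMod q] V)) (hρ : Function.Injective ρ)
    (hstab : ∀ v : V, v ≠ 0 → Nat.card {g : G // ρ g v = v} = 2)
    (z : G) (hz : orderOf z = 2) (hzc : z ∈ Subgroup.center G) :
    ∃ r : ℕ, Nat.card V = q ^ (2 * r) ∧
      Nat.card {g : G // orderOf g = 2 ∧ g ∉ Subgroup.center G} = q ^ r + 1 := by
  classical
  have _iV := Fintype.ofFinite V
  have _iG := Fintype.ofFinite G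
  have hq := (Fact.out : q.Prime)
  have hz1 : z ≠ 1 := by
    intro h
    rw [h, orderOf_one] at hz
    omega
  have hzz : z * z = 1 := by rw [← pow_two, ← hz, pow_orderOf_eq_one]
  have hzc' : ∀ g : G, g * z = z * g := fun g => (Subgroup.mem_center_iff.mp hzc g)
  have hneg := central_neg ρ hρ hstab z hz1 hzz hzc'
  have hst := stab_two ρ hstab
  -- 2-torsion free
  have htor : ∀ v : V, v + v = 0 → v = 0 := by
    have hne : ∃ w : V, ρ z w ≠ w := by
      by_contra h
      push Not at h
      apply hz1
      apply hρ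
      rw [map_one]
      ext w
      simpa using h w
    obtain ⟨w, hw⟩ := hne
    apply two_tor (q := q) w
    intro h
    apply hw
    rw [hneg w]
    exact neg_eq_of_add_eq_zero_right h
  -- fixed sets
  set F : G → Finset V := fun t => Finset.univ.filter (fun v : V => ρ t v = v) with hF
  have hFmem : ∀ t v, v ∈ F t ↔ ρ t v = v := by
    intro t v
    simp [hF]
  have hF0 : ∀ t, (0 : V) ∈ F t := by
    intro t
    rw [hFmem]; simp
  have hFpos : ∀ t, 1 ≤ (F t).card := fun t => Finset.card_pos.mpr ⟨0, hF0 t⟩
  set N := Fintype.card V with hN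
  have hN2 : 2 ≤ N := Fintype.one_lt_card
  -- J
  set J : Finset G := Finset.univ.filter (fun t : G => t * t = 1 ∧ t ≠ 1 ∧ t ≠ z) with hJ
  have hJmem : ∀ t, t ∈ J ↔ (t * t = 1 ∧ t ≠ 1 ∧ t ≠ z) := by
    intro t
    simp [hJ]
  have hJz : ∀ t ∈ J, t * z ∈ J := by
    intro t ht
    rw [hJmem] at ht ⊢
    obtain ⟨h1, h2, h3⟩ := ht
    refine ⟨?_, ?_, ?_⟩
    · calc t * z * (t * z) = t * (z * t) * z := by group
        _ = t * (t * z) * z := by rw [hzc' t]
        _ = (t * t) * (z * z) := by group
        _ = 1 := by rw [h1, hzz, mul_one]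
    · intro h
      apply h3
      have e1 : t * z = z * z := by rw [h, hzz]
      exact mul_right_cancel e1
    · intro h
      apply h2
      have e1 : t * z = 1 * z := by rw [h, one_mul]
      exact mul_right_cancel e1
  -- (Q) nontrivial elements do not fix everything
  have hQ : ∀ t : G, t ≠ 1 → (F t).card ≠ N := by
    intro t ht hc
    apply ht
    apply hρ
    rw [map_one]
    ext v
    have : F t = Finset.univ := (Finset.card_eq_iff_eq_univ _).mp hc
    have hv : v ∈ F t := by rw [this]; exact Finset.mem_univ v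
    simpa using (hFmem t v).mp hv
  -- (P1)
  have hP1 : ∀ s t : G, s ≠ t → s ≠ 1 → t ≠ 1 → (F s).card * (F t).card ≤ N := by
    intro s t hst' hs1 ht1
    apply card_mul_le
    intro a ha a' ha' b hb b' hb' h
    rw [hFmem] at ha ha' hb hb'
    have hd : a - a' = b' - b := by
      rw [sub_eq_sub_iff_add_eq_add, h, add_comm]
    have hds : ρ s (a - a') = a - a' := by rw [map_sub, ha, ha']
    have hdt : ρ t (a - a') = a - a' := by rw [hd, map_sub, hb, hb']
    have hd0 : a - a' = 0 := by
      by_contra hne
      obtain ⟨u, hu1, huu, huv, hall⟩ := hst _ hne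
      have e1 := (hall s hds).resolve_left hs1
      have e2 := (hall t hdt).resolve_left ht1
      exact hst' (e1.trans e2.symm)
    have haa : a = a' := sub_eq_zero.mp hd0
    refine ⟨haa, ?_⟩
    rw [hd0] at hd
    exact (sub_eq_zero.mp hd.symm).symm
  -- (P2)
  have hP2 : ∀ t : G, t * t = 1 → (F t).card * (F (t * z)).card = N := by
    intro t htt
    apply le_antisymm
    · apply card_mul_le
      intro a ha a' ha' b hb b' hb' h
      rw [hFmem] at ha ha' hb hb'
      have hd : a - a' = b' - b := by
        rw [sub_eq_sub_iff_add_eq_add, h, add_comm]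
      have hds : ρ t (a - a') = a - a' := by rw [map_sub, ha, ha']
      have hdt : ρ (t * z) (a - a') = a - a' := by rw [hd, map_sub, hb, hb']
      have hd0 : a - a' = 0 := by
        apply htor
        rw [map_mul, LinearEquiv.mul_apply, hneg, map_neg, hds] at hdt
        -- hdt : -(a - a') = a - a'
        nth_rewrite 1 [← hdt]
        exact neg_add_cancel _
      have haa : a = a' := sub_eq_zero.mp hd0
      refine ⟨haa, ?_⟩
      rw [hd0] at hd
      exact (sub_eq_zero.mp hd.symm).symm
    · rw [← Finset.card_product, hN, ← Finset.card_univ]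
      apply Finset.card_le_card_of_injOn (fun v : V => (v + ρ t v, v - ρ t v))
      · intro v _
        simp only [Finset.coe_product, Set.mem_prod, Finset.mem_coe]
        constructor
        · rw [hFmem, map_add, ← LinearEquiv.mul_apply, ← map_mul, htt, map_one,
            LinearEquiv.coe_one, id_eq, add_comm]
        · rw [hFmem, map_mul, LinearEquiv.mul_apply, hneg, map_neg, map_sub,
            ← LinearEquiv.mul_apply, ← map_mul, htt, map_one, LinearEquiv.coe_one, id_eq]
          abel
      · intro v _ v' _ h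
        simp only [Prod.mk.injEq] at h
        obtain ⟨h1, h2⟩ := h
        have h3 : (v - v') + (v - v') = 0 := by
          have e : (v + ρ t v) + (v - ρ t v) = (v' + ρ t v') + (v' - ρ t v') := by rw [h1, h2]
          have e1 : (v + ρ t v) + (v - ρ t v) = v + v := by abel
          have e2 : (v' + ρ t v') + (v' - ρ t v') = v' + v' := by abel
          rw [e1, e2] at e
          have e3 : (v - v') + (v - v') = (v + v) - (v' + v') := by abel
          rw [e3, e, sub_self]
        exact sub_eq_zero.mp (htor _ h3)
  -- (P3)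
  have hP3 : ∑ t ∈ J, ((F t).card - 1) = N - 1 := by
    set f : V → G := fun v => if h : v ≠ 0 then Classical.choose (hst v h) else 1 with hf
    have hfspec : ∀ v : V, v ≠ 0 → f v ≠ 1 ∧ f v * f v = 1 ∧ ρ (f v) v = v ∧
        ∀ g : G, ρ g v = v → g = 1 ∨ g = f v := by
      intro v hv
      have := Classical.choose_spec (hst v hv)
      simp only [hf, dif_pos hv]
      exact this
    have hX : ∀ v ∈ (Finset.univ.erase (0 : V)), f v ∈ J := by
      intro v hv
      have hv0 : v ≠ 0 := Finset.ne_of_mem_erase hv
      obtain ⟨h1, h2, h3, h4⟩ := hfspec v hv0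
      rw [hJmem]
      refine ⟨h2, h1, ?_⟩
      intro h
      rw [h, hneg] at h3
      apply hv0
      apply htor
      nth_rewrite 1 [← h3]
      exact neg_add_cancel _
    have hcount := Finset.card_eq_sum_card_fiberwise hX
    rw [Finset.card_erase_of_mem (Finset.mem_univ _), Finset.card_univ] at hcount
    rw [hN, hcount]
    apply Finset.sum_congr rfl
    intro t ht
    rw [hJmem] at ht
    have : (Finset.univ.erase (0 : V)).filter (fun v => f v = t) = (F t).erase 0 := by
      ext v
      simp only [Finset.mem_filter, Finset.mem_erase, Finset.mem_univ, and_true, hFmem]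
      constructor
      · rintro ⟨hv0, hfv⟩
        refine ⟨hv0, ?_⟩
        rw [← hfv]
        exact (hfspec v hv0).2.2.1
      · rintro ⟨hv0, htv⟩
        refine ⟨hv0, ?_⟩
        exact (((hfspec v hv0).2.2.2 t htv).resolve_left ht.2.1).symm
    rw [this, Finset.card_erase_of_mem (hF0 t)]
  -- (A)
  have hA : ∀ t ∈ J, ∃ s ∈ J, s ≠ t ∧ s ≠ t * z := by
    intro t ht
    by_contra hcon
    push Not at hcon
    have htz := hJz t ht
    have hne : t ≠ t * z := by
      intro h
      apply hz1
      have e1 : t * 1 = t * z := by rw [mul_one]; exact h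
      exact (mul_left_cancel e1).symm
    have hJeq : J = {t, t * z} := by
      ext s
      simp only [Finset.mem_insert, Finset.mem_singleton]
      constructor
      · intro hs
        by_cases h : s = t
        · exact Or.inl h
        · exact Or.inr (hcon s hs h)
      · rintro (h | h)
        · rw [h]; exact ht
        · rw [h]; exact htz
    have hsum := hP3
    rw [hJeq, Finset.sum_pair hne] at hsum
    have hprod := hP2 t ((hJmem t).mp ht).1
    have h1 := hFpos t
    have h2 := hFpos (t * z)
    have hq1 := hQ t ((hJmem t).mp ht).2.1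
    have hq2 := hQ (t * z) ((hJmem _).mp htz).2.1
    obtain ⟨x, hx⟩ : ∃ x, (F t).card = x + 1 := ⟨(F t).card - 1, by omega⟩
    obtain ⟨y, hy⟩ : ∃ y, (F (t * z)).card = y + 1 := ⟨(F (t * z)).card - 1, by omega⟩
    rw [hx, hy] at hsum hprod
    rw [hx] at hq1
    rw [hy] at hq2
    have hxy : x * y = 0 := by
      have e : (x + 1) * (y + 1) = x * y + x + y + 1 := by ring
      rw [e] at hprod
      omega
    rcases Nat.mul_eq_zero.mp hxy with h0 | h0
    · rw [h0] at hprod
      apply hq2
      rw [← hprod]; ring
    · rw [h0] at hprod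
      apply hq1
      rw [← hprod]; ring
  -- (B)
  have hB : ∀ t ∈ J, (F t).card * (F t).card ≤ N := by
    intro t ht
    obtain ⟨s, hs, hst1, hst2⟩ := hA t ht
    have htJ := (hJmem t).mp ht
    have hsJ := (hJmem s).mp hs
    have hszJ := (hJmem _).mp (hJz s hs)
    have e1 := hP1 t s (Ne.symm hst1) htJ.2.1 hsJ.2.1
    have hne : t ≠ s * z := by
      intro h
      apply hst2
      rw [h, mul_assoc, hzz, mul_one]
    have e2 := hP1 t (s * z) hne htJ.2.1 hszJ.2.1
    have e3 := hP2 s hsJ.1
    have e4 : ((F t).card * (F t).card) * N ≤ N * N := by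
      calc ((F t).card * (F t).card) * N
          = ((F t).card * (F s).card) * ((F t).card * (F (s * z)).card) := by rw [← e3]; ring
        _ ≤ N * N := Nat.mul_le_mul e1 e2
    exact Nat.le_of_mul_le_mul_right e4 (by omega)
  -- (C)
  have hC : ∀ t ∈ J, (F t).card * (F t).card = N := by
    intro t ht
    have htJ := (hJmem t).mp ht
    have e1 := hB t ht
    have e2 := hB (t * z) (hJz t ht)
    have e3 := hP2 t htJ.1
    apply le_antisymm e1
    have e4 : N * N ≤ ((F t).card * (F t).card) * N := by
      calc N * N = ((F t).card * (F t).card) * ((F (t * z)).card * (F (t * z)).card) := by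
            rw [← e3]; ring
        _ ≤ ((F t).card * (F t).card) * N := Nat.mul_le_mul_left _ e2
    exact Nat.le_of_mul_le_mul_right e4 (by omega)
  -- J nonempty
  obtain ⟨v0, hv0⟩ := exists_ne (0 : V)
  obtain ⟨t0, ht01, ht0t0, ht0v, -⟩ := hst v0 hv0
  have ht0J : t0 ∈ J := by
    rw [hJmem]
    refine ⟨ht0t0, ht01, ?_⟩
    intro h
    rw [h, hneg] at ht0v
    apply hv0
    apply htor
    nth_rewrite 1 [← ht0v]
    exact neg_add_cancel _
  set c := (F t0).card with hc
  have hcc : c * c = N := hC t0 ht0J
  have hc2 : 2 ≤ c := by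
    by_contra h
    have : c ≤ 1 := by omega
    have : c * c ≤ 1 * 1 := Nat.mul_le_mul this this
    omega
  -- N is a power of q
  have hNq : N = q ^ Module.finrank (ZMod q) V := by
    rw [hN, Module.card_eq_pow_finrank (K := ZMod q), ZMod.card]
  have hcdvd : c ∣ q ^ Module.finrank (ZMod q) V := by
    rw [← hNq, ← hcc]
    exact Dvd.intro _ rfl
  obtain ⟨r, -, hr⟩ := (Nat.dvd_prime_pow hq).mp hcdvd
  refine ⟨r, ?_, ?_⟩
  · rw [Nat.card_eq_fintype_card, ← hN, ← hcc, hr, two_mul, pow_add]
  · -- all c(t) equal c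
    have hall : ∀ t ∈ J, (F t).card - 1 = c - 1 := by
      intro t ht
      have := hC t ht
      rw [← hcc] at this
      have : (F t).card = c := Nat.mul_self_inj.mp this
      rw [this]
    rw [Finset.sum_congr rfl hall, Finset.sum_const, smul_eq_mul] at hP3
    have hJc : J.card = c + 1 := by
      obtain ⟨d, hd⟩ : ∃ d, c = d + 2 := ⟨c - 2, by omega⟩
      rw [← hcc, hd] at hP3
      have e : (d + 2) * (d + 2) - 1 = (d + 3) * (d + 1) := by
        have : (d + 2) * (d + 2) = (d + 3) * (d + 1) + 1 := by ring
        omega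
      have e' : d + 2 - 1 = d + 1 := by omega
      rw [e, e'] at hP3
      have := Nat.eq_of_mul_eq_mul_right (by omega : 0 < d + 1) hP3
      omega
    rw [← hr, ← hJc, Nat.card_eq_fintype_card, Fintype.card_subtype]
    congr 1
    ext g
    simp only [Finset.mem_filter, Finset.mem_univ, true_and]
    rw [hJmem]
    constructor
    · rintro ⟨ho, hnc⟩
      refine ⟨?_, ?_, ?_⟩
      · rw [← pow_two, ← ho, pow_orderOf_eq_one]
      · intro h
        rw [h, orderOf_one] at ho
        omega
      · intro h
        apply hnc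
        rw [h]; exact hzc
    · rintro ⟨hgg, hg1, hgz⟩
      refine ⟨?_, ?_⟩
      · have _i2 : Fact (Nat.Prime 2) := ⟨Nat.prime_two⟩
        exact orderOf_eq_prime (by rw [pow_two]; exact hgg) hg1
      · intro hgc
        apply hgz
        apply hρ
        ext v
        rw [central_neg ρ hρ hstab g hg1 hgg (fun x => Subgroup.mem_center_iff.mp hgc x), hneg]

end Cfsg.Agent.S3381
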