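import Cfsg.Statements.S3382

set_option autoImplicit false
open Cfsg

namespace Cfsg.Agent.S3382

universe u

section gen
variable {T : Type u} [Group T]

/-- if `β` has odd order and `β (β w) = w` then `β w = w`. -/
theorem fix_of_sq (β : MulAut T) (hodd : Odd (orderOf β)) (w : T) (h : β (β w) = w) : β w = w := by
  obtain ⟨j, hj⟩ := hodd
  have h2 : ∀ i : ℕ, ((β ^ 2) ^ i) w = w := by
    intro i
    induction i with
    | zero => simp
    | succ i ih =>
      rw [pow_succ, MulAut.mul_apply]
      have : (β ^ 2) w = w := by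
        rw [pow_two, MulAut.mul_apply]; exact h
      rw [this, ih]
  have h3 : (β ^ orderOf β) w = w := by rw [pow_orderOf_eq_one]; rfl
  rw [hj, pow_succ, MulAut.mul_apply, pow_mul] at h3
  have h4 := h2 j
  -- h3 : ((β^2)^j) (β w) = w
  have h5 : ((β ^ 2) ^ j) (β w) = β (((β ^ 2) ^ j) w) := by
    have hc : Commute ((β ^ 2) ^ j) β := ((Commute.refl β).pow_left 2).pow_left j
    have := congrArg (fun f : MulAut T => f w) hc.eq
    simpa [MulAut.mul_apply] using this
  rw [h5, h4] at h3
  exact h3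

/-- power formula -/
theorem pow_apply_of_fix (β : MulAut T) (x c : T) (h1 : β x = x * c) (h2 : β c = c) (j : ℕ) :
    (β ^ j) x = x * c ^ j := by
  induction j with
  | zero => simp
  | succ j ih =>
    rw [pow_succ', MulAut.mul_apply, ih, map_mul, map_pow, h1, h2, mul_assoc, ← pow_succ']

theorem eq_one_of_odd_two (β : MulAut T) (hodd : Odd (orderOf β)) (x c : T) (h1 : β x = x * c)
    (h2 : β c = c) (h3 : ∃ k : ℕ, c ^ (2 ^ k) = 1) : c = 1 := by
  have h := pow_apply_of_fix β x c h1 h2 (orderOf β)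
  rw [pow_orderOf_eq_one] at h
  have hc : c ^ orderOf β = 1 := by
    have h' : x * 1 = x * c ^ orderOf β := by rw [mul_one]; exact h
    exact (mul_left_cancel h').symm
  obtain ⟨k, hk⟩ := h3
  have d1 : orderOf c ∣ orderOf β := orderOf_dvd_of_pow_eq_one hc
  have d2 : orderOf c ∣ 2 ^ k := orderOf_dvd_of_pow_eq_one hk
  have hcop : Nat.Coprime (orderOf β) (2 ^ k) :=
    Nat.Coprime.pow_right k (Nat.Coprime.symm (Nat.coprime_two_left.mpr hodd))
  exact orderOf_eq_one_iff.mp (Nat.eq_one_of_dvd_coprimes hcop d1 d2)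

/-- (U): an odd order automorphism fixing pointwise an invariant subgroup of index ≤ 2 in a
2-group is trivial. -/
theorem aut_trivial (β : MulAut T) (hodd : Odd (orderOf β)) (S : Subgroup T)
    (hi : ∀ x ∈ S, β x ∈ S) (hii : ∀ x ∈ S, β x = x)
    (hiii : ∀ x y : T, x ∉ S → y ∉ S → x⁻¹ * y ∈ S)
    (hiv : ∀ c : T, ∃ k : ℕ, c ^ (2 ^ k) = 1) : β = 1 := by
  ext x
  show β x = x
  by_cases hx : x ∈ S
  · exact hii x hx
  · have hpow : ∀ j : ℕ, ∀ y ∈ S, (β ^ j) y ∈ S := by
      intro j
      induction j with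
      | zero => intro y hy; simpa using hy
      | succ j ih =>
        intro y hy
        rw [pow_succ', MulAut.mul_apply]
        exact hi _ (ih y hy)
    have hbx : β x ∉ S := by
      intro hbx
      have hpos : 0 < orderOf β := Nat.pos_of_ne_zero (fun h0 => by rw [h0] at hodd; exact absurd hodd (by decide))
      have h1 := hpow (orderOf β - 1) (β x) hbx
      have h2 : (β ^ (orderOf β - 1)) (β x) = x := by
        rw [← MulAut.mul_apply, ← pow_succ, Nat.sub_add_cancel hpos, pow_orderOf_eq_one]; rfl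
      rw [h2] at h1
      exact hx h1
    have hc : x⁻¹ * β x ∈ S := hiii x (β x) hx hbx
    have h1 : β x = x * (x⁻¹ * β x) := by group
    have hc1 := eq_one_of_odd_two β hodd x (x⁻¹ * β x) h1 (hii _ hc) (hiv _)
    rw [h1, hc1, mul_one]

/-- (AL) -/
theorem aut_trivial_abelian (β : MulAut T) (hodd : Odd (orderOf β)) (S : Subgroup T)
    (hi : ∀ x ∈ S, β x ∈ S) (hcomm : ∀ x ∈ S, ∀ y ∈ S, x * y = y * x)
    (hinv : ∀ c ∈ S, c * c = 1 → β c = c)
    (hiv : ∀ c : T, ∃ k : ℕ, c ^ (2 ^ k) = 1) : ∀ x ∈ S, β x = x := by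
  have key : ∀ j : ℕ, ∀ x ∈ S, x ^ (2 ^ j) = 1 → β x = x := by
    intro j
    induction j with
    | zero => intro x _ hx; simp at hx; rw [hx, map_one]
    | succ j ih =>
      intro x hx hxp
      have hxx : x * x ∈ S := S.mul_mem hx hx
      have h1 : β (x * x) = x * x := by
        apply ih _ hxx
        rw [← pow_two, ← pow_mul, ← pow_succ']; exact hxp
      have hc : x⁻¹ * β x ∈ S := S.mul_mem (S.inv_mem hx) (hi x hx)
      have hcc : (x⁻¹ * β x) * (x⁻¹ * β x) = 1 := by
        have e1 : (x⁻¹ * β x) * (x⁻¹ * β x) = x⁻¹ * (β x * x⁻¹) * β x := by group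
        rw [e1, hcomm _ (hi x hx) _ (S.inv_mem hx)]
        have e2 : x⁻¹ * (x⁻¹ * β x) * β x = (x * x)⁻¹ * (β x * β x) := by group
        rw [e2, ← map_mul, h1]; group
      have h2 : β x = x * (x⁻¹ * β x) := by group
      have hc1 := eq_one_of_odd_two β hodd x (x⁻¹ * β x) h2 (hinv _ hc hcc) (hiv _)
      rw [h2, hc1, mul_one]
  intro x hx
  obtain ⟨k, hk⟩ := hiv x
  exact key k x hx hk

end gen

theorem z2a : ∀ a : ZMod 2, a ≠ 0 → a = 1 := by decide
theorem z2s : ∀ s : ZMod 2, (s = 1 ∨ s = -1) → s = 1 := by decide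
theorem z3a : ∀ a : ZMod 3, a ≠ 0 → a = 1 ∨ a = -1 := by decide
theorem z3m : (-1 : ZMod 3) ≠ 1 := by decide

section conc
variable {q : ℕ} [Fact q.Prime]

/-- `f` is the diagonal map with parameters `a, s` -/
def KD (f : (Fin 2 → ZMod q) ≃ₗ[ZMod q] (Fin 2 → ZMod q)) (a s : ZMod q) : Prop :=
  ∀ v, f v = ![a * v 0, s * a⁻¹ * v 1]

/-- `f` is the antidiagonal map with parameters `a, s` -/
def KW (f : (Fin 2 → ZMod q) ≃ₗ[ZMod q] (Fin 2 → ZMod q)) (a s : ZMod q) : Prop :=
  ∀ v, f v = ![s * a⁻¹ * v 1, a * v 0]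

variable {f g : (Fin 2 → ZMod q) ≃ₗ[ZMod q] (Fin 2 → ZMod q)} {a s b t : ZMod q}

theorem mulDD (hf : KD f a s) (hg : KD g b t) : KD (f * g) (a * b) (s * t) := by
  intro v
  rw [LinearEquiv.mul_apply, hg v, hf]
  simp only [Matrix.cons_val_zero, Matrix.cons_val_one, mul_inv]
  congr 1
  · ring
  · congr 1; ring

theorem mulDW (hs : s ≠ 0) (hf : KD f a s) (hg : KW g b t) :
    KW (f * g) (s * a⁻¹ * b) (s * t) := by
  intro v
  rw [LinearEquiv.mul_apply, hg v, hf]
  simp only [Matrix.cons_val_zero, Matrix.cons_val_one, mul_inv, inv_inv]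
  congr 1
  · field_simp
  · congr 1; ring

theorem mulWD (hf : KW f a s) (hg : KD g b t) : KW (f * g) (a * b) (s * t) := by
  intro v
  rw [LinearEquiv.mul_apply, hg v, hf]
  simp only [Matrix.cons_val_zero, Matrix.cons_val_one, mul_inv]
  congr 1
  · ring
  · congr 1; ring

theorem mulWW (hs : s ≠ 0) (hf : KW f a s) (hg : KW g b t) :
    KD (f * g) (s * a⁻¹ * b) (s * t) := by
  intro v
  rw [LinearEquiv.mul_apply, hg v, hf]
  simp only [Matrix.cons_val_zero, Matrix.cons_val_one, mul_inv, inv_inv]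
  congr 1
  · ring
  · congr 1; field_simp

theorem eqD (hf : KD f a s) (hg : KD g a s) : f = g := by
  ext v : 1
  rw [hf v, hg v]

theorem eqW (hf : KW f a s) (hg : KW g a s) : f = g := by
  ext v : 1
  rw [hf v, hg v]

theorem paramD (ha : a ≠ 0) (hf : KD f a s) (hg : KD f b t) : a = b ∧ s = t := by
  have h1 := (hf ![1, 0]).symm.trans (hg ![1, 0])
  have h2 := (hf ![0, 1]).symm.trans (hg ![0, 1])
  have e1 := congrFun h1 0
  have e2 := congrFun h2 1
  simp at e1 e2
  subst e1
  refine ⟨rfl, ?_⟩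
  field_simp at e2
  exact e2

theorem paramW (ha : a ≠ 0) (hf : KW f a s) (hg : KW f b t) : a = b ∧ s = t := by
  have h1 := (hf ![1, 0]).symm.trans (hg ![1, 0])
  have h2 := (hf ![0, 1]).symm.trans (hg ![0, 1])
  have e1 := congrFun h1 1
  have e2 := congrFun h2 0
  simp at e1 e2
  subst e1
  refine ⟨rfl, ?_⟩
  field_simp at e2
  exact e2

theorem exclDW (ha : a ≠ 0) (hf : KD f a s) (hg : KW f b t) : False := by
  have h1 := (hf ![1, 0]).symm.trans (hg ![1, 0])
  have e1 := congrFun h1 0
  simp at e1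
  exact ha e1

theorem oneD : KD (1 : (Fin 2 → ZMod q) ≃ₗ[ZMod q] (Fin 2 → ZMod q)) 1 1 := by
  intro v
  ext i
  fin_cases i <;> simp

theorem powD (hf : KD f a s) (n : ℕ) : KD (f ^ n) (a ^ n) (s ^ n) := by
  induction n with
  | zero => simpa using oneD
  | succ n ih =>
    rw [pow_succ, pow_succ, pow_succ]
    exact mulDD ih hf

/-- the diagonal equivalence -/
def dEquiv (a s : ZMod q) (ha : a ≠ 0) (hs : s ≠ 0) :
    (Fin 2 → ZMod q) ≃ₗ[ZMod q] (Fin 2 → ZMod q) where
  toFun v := ![a * v 0, s * a⁻¹ * v 1]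
  invFun v := ![a⁻¹ * v 0, s⁻¹ * a * v 1]
  map_add' := by
    intro v w; ext i; fin_cases i <;> simp [mul_add]
  map_smul' := by
    intro c v; ext i; fin_cases i <;> simp <;> ring
  left_inv := by
    intro v; ext i; fin_cases i <;> simp <;> field_simp
  right_inv := by
    intro v; ext i; fin_cases i <;> simp <;> field_simp

/-- the antidiagonal equivalence -/
def wEquiv (a s : ZMod q) (ha : a ≠ 0) (hs : s ≠ 0) :
    (Fin 2 → ZMod q) ≃ₗ[ZMod q] (Fin 2 → ZMod q) where
  toFun v := ![s * a⁻¹ * v 1, a * v 0]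
  invFun v := ![a⁻¹ * v 1, s⁻¹ * a * v 0]
  map_add' := by
    intro v w; ext i; fin_cases i <;> simp [mul_add]
  map_smul' := by
    intro c v; ext i; fin_cases i <;> simp <;> ring
  left_inv := by
    intro v; ext i; fin_cases i <;> simp <;> field_simp
  right_inv := by
    intro v; ext i; fin_cases i <;> simp <;> field_simp

theorem dEquiv_KD (a s : ZMod q) (ha : a ≠ 0) (hs : s ≠ 0) : KD (dEquiv a s ha hs) a s :=
  fun _ => rfl

theorem wEquiv_KW (a s : ZMod q) (ha : a ≠ 0) (hs : s ≠ 0) : KW (wEquiv a s ha hs) a s :=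
  fun _ => rfl


theorem KD.congr {f : (Fin 2 → ZMod q) ≃ₗ[ZMod q] (Fin 2 → ZMod q)} {a s a' s' : ZMod q}
    (h : KD f a s) (ha : a = a') (hs : s = s') : KD f a' s' := by
  subst ha; subst hs; exact h

theorem KW.congr {f : (Fin 2 → ZMod q) ≃ₗ[ZMod q] (Fin 2 → ZMod q)} {a s a' s' : ZMod q}
    (h : KW f a s) (ha : a = a') (hs : s = s') : KW f a' s' := by
  subst ha; subst hs; exact h

theorem sgn_ne_zero {s : ZMod q} (hs : s = 1 ∨ s = -1) : s ≠ 0 := by
  rcases hs with rfl | rfl
  · exact one_ne_zero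
  · exact neg_ne_zero.mpr one_ne_zero

theorem sgn_sq {s : ZMod q} (hs : s = 1 ∨ s = -1) : s * s = 1 := by
  rcases hs with rfl | rfl <;> ring

variable (T : Subgroup ((Fin 2 → ZMod q) ≃ₗ[ZMod q] (Fin 2 → ZMod q)))
  (hT : ∀ f, f ∈ T ↔ ∃ a s : ZMod q, a ≠ 0 ∧ (s = 1 ∨ s = -1) ∧
      ((∀ v, f v = ![a * v 0, s * a⁻¹ * v 1]) ∨ (∀ v, f v = ![s * a⁻¹ * v 1, a * v 0])))

include hT in
theorem kinds (x : T) : (∃ a s : ZMod q, a ≠ 0 ∧ (s = 1 ∨ s = -1) ∧ KD x.1 a s) ∨
    (∃ a s : ZMod q, a ≠ 0 ∧ (s = 1 ∨ s = -1) ∧ KW x.1 a s) := by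
  obtain ⟨a, s, ha, hs, h | h⟩ := (hT x.1).mp x.2
  · exact Or.inl ⟨a, s, ha, hs, h⟩
  · exact Or.inr ⟨a, s, ha, hs, h⟩

include hT in
theorem mkD (a s : ZMod q) (ha : a ≠ 0) (hs : s = 1 ∨ s = -1) : ∃ x : T, KD x.1 a s :=
  ⟨⟨dEquiv a s ha (sgn_ne_zero hs), (hT _).mpr ⟨a, s, ha, hs, Or.inl (fun _ => rfl)⟩⟩,
    dEquiv_KD a s ha (sgn_ne_zero hs)⟩

include hT in
theorem mkW (a s : ZMod q) (ha : a ≠ 0) (hs : s = 1 ∨ s = -1) : ∃ x : T, KW x.1 a s :=
  ⟨⟨wEquiv a s ha (sgn_ne_zero hs), (hT _).mpr ⟨a, s, ha, hs, Or.inr (fun _ => rfl)⟩⟩,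
    wEquiv_KW a s ha (sgn_ne_zero hs)⟩

include hT in
theorem two_elt (m : ℕ) (hq : q = 2 ^ m + 1) (c : T) : ∃ k : ℕ, c ^ (2 ^ k) = 1 := by
  have hfer : ∀ a : ZMod q, a ≠ 0 → a ^ (2 ^ (m + 1)) = 1 := by
    intro a ha
    have h1 := ZMod.pow_card_sub_one_eq_one ha
    have h2 : q - 1 = 2 ^ m := Nat.sub_eq_of_eq_add hq
    rw [h2] at h1
    rw [pow_succ, pow_mul, h1, one_pow]
  have hsg : ∀ s : ZMod q, (s = 1 ∨ s = -1) → s ^ (2 ^ (m + 1)) = 1 := by
    intro s hs
    rw [pow_succ', pow_mul, pow_two, sgn_sq hs, one_pow]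
  have hD : ∀ x : T, (∃ a s : ZMod q, a ≠ 0 ∧ (s = 1 ∨ s = -1) ∧ KD x.1 a s) →
      x ^ (2 ^ (m + 1)) = 1 := by
    rintro x ⟨a, s, ha, hs, hx⟩
    apply Subtype.ext
    have h1 := powD hx (2 ^ (m + 1))
    rw [hfer a ha, hsg s hs] at h1
    exact eqD h1 oneD
  rcases kinds T hT c with h | ⟨a, s, ha, hs, hx⟩
  · exact ⟨m + 1, hD c h⟩
  · refine ⟨m + 2, ?_⟩
    have h1 : KD (c * c).1 (s * a⁻¹ * a) (s * s) := mulWW (sgn_ne_zero hs) hx hx
    have h2 := hD (c * c) ⟨_, _, mul_ne_zero (mul_ne_zero (sgn_ne_zero hs) (inv_ne_zero ha)) ha,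
      Or.inl (sgn_sq hs), h1⟩
    rw [← h2, ← pow_two, ← pow_mul, ← pow_succ']

end conc

/-- Let q = 2^m + 1 be a prime other than 5. Then the automorphism group of the group of linear maps of F_q² of the forms (x, y) ↦ (a x, ± a⁻¹ y) and (x, y) ↦ (± a⁻¹ y, a x) with a ≠ 0 is itself a 2-group. -/
theorem result (q m : ℕ) [Fact q.Prime] (hq : q = 2 ^ m + 1) (hq5 : q ≠ 5)
    (T : Subgroup ((Fin 2 → ZMod q) ≃ₗ[ZMod q] (Fin 2 → ZMod q)))
    (hT : ∀ f, f ∈ T ↔ ∃ a s : ZMod q, a ≠ 0 ∧ (s = 1 ∨ s = -1) ∧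
      ((∀ v, f v = ![a * v 0, s * a⁻¹ * v 1]) ∨ (∀ v, f v = ![s * a⁻¹ * v 1, a * v 0]))) :
    IsPGroup 2 (MulAut T) := by
  have hfinL : Finite ((Fin 2 → ZMod q) ≃ₗ[ZMod q] (Fin 2 → ZMod q)) :=
    Finite.of_injective (fun f => (f : (Fin 2 → ZMod q) → (Fin 2 → ZMod q))) DFunLike.coe_injective
  have hfinA : Finite (MulAut T) :=
    Finite.of_injective (fun f => (f : T → T)) DFunLike.coe_injective
  have hiv : ∀ c : T, ∃ k : ℕ, c ^ (2 ^ k) = 1 := two_elt T hT m hq
  -- main claim: odd order automorphisms are trivial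
  have main : ∀ β : MulAut T, Odd (orderOf β) → β = 1 := by
    intro β hodd
    have hqp : q.Prime := Fact.out
    rcases m with _ | _ | _ | m
    · -- q = 2
      have hq2 : q = 2 := by simpa using hq
      subst hq2
      have ha1 : ∀ a : ZMod 2, a ≠ 0 → a = 1 := z2a
      have hs1 : ∀ s : ZMod 2, (s = 1 ∨ s = -1) → s = 1 := z2s
      have hne : ∀ x : T, x ≠ 1 → KW x.1 1 1 := by
        intro x hx
        rcases kinds T hT x with ⟨a, s, ha, hs, h⟩ | ⟨a, s, ha, hs, h⟩
        · exfalso
          apply hx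
          apply Subtype.ext
          rw [ha1 a ha, hs1 s hs] at h
          exact eqD h oneD
        · rw [ha1 a ha, hs1 s hs] at h
          exact h
      apply aut_trivial β hodd ⊥
      · intro x hx
        rw [Subgroup.mem_bot] at hx ⊢
        rw [hx, map_one]
      · intro x hx
        rw [Subgroup.mem_bot] at hx
        rw [hx, map_one]
      · intro x y hx hy
        rw [Subgroup.mem_bot] at hx hy ⊢
        have : x = y := Subtype.ext (eqW (hne x hx) (hne y hy))
        rw [this, inv_mul_cancel]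
      · exact hiv
    · -- q = 3
      have hq3 : q = 3 := by simpa using hq
      subst hq3
      have ha1 : ∀ a : ZMod 3, a ≠ 0 → a = 1 ∨ a = -1 := z3a
      have hm1 : (-1 : ZMod 3) ≠ 1 := z3m
      have hasq : ∀ a : ZMod 3, a ≠ 0 → a * a = 1 := by
        intro a ha
        rcases ha1 a ha with rfl | rfl <;> ring
      have hainv : ∀ a : ZMod 3, a ≠ 0 → a⁻¹ = a := fun a ha =>
        inv_eq_of_mul_eq_one_right (hasq a ha)
      have hneg : (-1 : ZMod 3) ≠ 0 := neg_ne_zero.mpr one_ne_zero
      obtain ⟨w, hw⟩ := mkW T hT 1 (-1) one_ne_zero (Or.inr rfl)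
      have hww : KD (w * w).1 (-1) 1 := by
        have := mulWW hneg hw hw
        exact this.congr (by simp) (by simp)
      have hww1 : w * w ≠ 1 := by
        intro h
        have h1 : KD (1 : T).1 (-1) 1 := h ▸ hww
        exact hm1 (paramD hneg h1 oneD).1
      have memC : ∀ x : T, x ∈ Subgroup.centralizer ({w} : Set T) ↔
          ((∃ a : ZMod 3, a ≠ 0 ∧ KD x.1 a 1) ∨ (∃ a : ZMod 3, a ≠ 0 ∧ KW x.1 a (-1))) := by
        intro x
        rw [Subgroup.mem_centralizer_iff]
        constructor
        · intro hx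
          have hx' : w * x = x * w := hx w rfl
          rcases kinds T hT x with ⟨a, s, ha, hs, h⟩ | ⟨a, s, ha, hs, h⟩
          · left
            have h1 : KW (w * x).1 (1 * a) (-1 * s) := mulWD hw h
            have h2 : KW (x * w).1 (s * a⁻¹ * 1) (s * -1) := mulDW (sgn_ne_zero hs) h hw
            rw [hx'] at h1
            have h3 := (paramW (by simpa using ha) h1 h2).1
            rw [hainv a ha] at h3
            have h4 : s = 1 := by
              have : s * (a * a) = a * a := by linear_combination -a * h3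
              rw [hasq a ha] at this
              simpa using this
            exact ⟨a, ha, h4 ▸ h⟩
          · right
            have h1 : KD (w * x).1 (-1 * 1⁻¹ * a) (-1 * s) := mulWW hneg hw h
            have h2 : KD (x * w).1 (s * a⁻¹ * 1) (s * -1) := mulWW (sgn_ne_zero hs) h hw
            rw [hx'] at h1
            have h3 := (paramD (by simpa using ha) h1 h2).1
            rw [hainv a ha] at h3
            have h4 : s = -1 := by
              have : s * (a * a) = -(a * a) := by linear_combination -a * h3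
              rw [hasq a ha] at this
              simpa using this
            exact ⟨a, ha, h4 ▸ h⟩
        · rintro (⟨a, ha, h⟩ | ⟨a, ha, h⟩) g hg
          · rw [Set.mem_singleton_iff] at hg
            subst hg
            apply Subtype.ext
            have h1 : KW (g * x).1 a (-1) := (mulWD hw h).congr (by simp) (by simp)
            have h2 : KW (x * g).1 a (-1) :=
              (mulDW one_ne_zero h hw).congr (by simp [hainv a ha]) (by simp)
            exact eqW h1 h2
          · rw [Set.mem_singleton_iff] at hg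
            subst hg
            apply Subtype.ext
            have h1 : KD (g * x).1 (-a) 1 := (mulWW hneg hw h).congr (by simp) (by simp)
            have h2 : KD (x * g).1 (-a) 1 :=
              (mulWW hneg h hw).congr (by simp [hainv a ha]) (by simp)
            exact eqD h1 h2
      -- inverse of w
      have hwinv : ∀ x : T, KW x.1 (-1) (-1) → x = w⁻¹ := by
        intro x hx
        apply eq_inv_of_mul_eq_one_right
        apply Subtype.ext
        have h1 : KD (w * x).1 1 1 := (mulWW hneg hw hx).congr (by simp) (by simp)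
        exact eqD h1 oneD
      have hC2 : ∀ x ∈ Subgroup.centralizer ({w} : Set T),
          x = 1 ∨ x = w * w ∨ x = w ∨ x = w⁻¹ := by
        intro x hx
        rcases (memC x).mp hx with ⟨a, ha, h⟩ | ⟨a, ha, h⟩
        · rcases ha1 a ha with rfl | rfl
          · left; exact Subtype.ext (eqD h oneD)
          · right; left; exact Subtype.ext (eqD h hww)
        · rcases ha1 a ha with rfl | rfl
          · right; right; left; exact Subtype.ext (eqW h hw)
          · right; right; right; exact hwinv x h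
      have hC3 : β w = w ∨ β w = w⁻¹ := by
        have hx2 : β w * β w ≠ 1 := by
          intro h
          apply hww1
          rw [← map_mul] at h
          exact (MulEquiv.map_eq_one_iff β).mp h
        rcases kinds T hT (β w) with ⟨a, s, ha, hs, h⟩ | ⟨a, s, ha, hs, h⟩
        · exfalso
          apply hx2
          apply Subtype.ext
          have h1 : KD (β w * β w).1 1 1 := (mulDD h h).congr (hasq a ha) (sgn_sq hs)
          exact eqD h1 oneD
        · rcases hs with rfl | rfl
          · exfalso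
            apply hx2
            apply Subtype.ext
            have h1 : KD (β w * β w).1 1 1 :=
              (mulWW one_ne_zero h h).congr (by field_simp) (by simp)
            exact eqD h1 oneD
          · rcases ha1 a ha with rfl | rfl
            · left; exact Subtype.ext (eqW h hw)
            · right; exact hwinv _ h
      have hC4 : β w = w := by
        rcases hC3 with h | h
        · exact h
        · apply fix_of_sq β hodd
          rw [h, map_inv, h, inv_inv]
      have notC : ∀ x : T, x ∉ Subgroup.centralizer ({w} : Set T) →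
          ((∃ a : ZMod 3, a ≠ 0 ∧ KD x.1 a (-1)) ∨ (∃ a : ZMod 3, a ≠ 0 ∧ KW x.1 a 1)) := by
        intro x hx
        rcases kinds T hT x with ⟨a, s, ha, hs, h⟩ | ⟨a, s, ha, hs, h⟩
        · rcases hs with rfl | rfl
          · exact absurd ((memC x).mpr (Or.inl ⟨a, ha, h⟩)) hx
          · exact Or.inl ⟨a, ha, h⟩
        · rcases hs with rfl | rfl
          · exact Or.inr ⟨a, ha, h⟩
          · exact absurd ((memC x).mpr (Or.inr ⟨a, ha, h⟩)) hx
      have prodC : ∀ x z : T, x ∉ Subgroup.centralizer ({w} : Set T) →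
          z ∉ Subgroup.centralizer ({w} : Set T) → x * z ∈ Subgroup.centralizer ({w} : Set T) := by
        intro x z hx hz
        rw [memC]
        rcases notC x hx with ⟨a, ha, h⟩ | ⟨a, ha, h⟩ <;>
          rcases notC z hz with ⟨b, hb, h'⟩ | ⟨b, hb, h'⟩
        · exact Or.inl ⟨a * b, mul_ne_zero ha hb, (mulDD h h').congr rfl (by simp)⟩
        · exact Or.inr ⟨-1 * a⁻¹ * b, mul_ne_zero (mul_ne_zero hneg (inv_ne_zero ha)) hb,
            (mulDW hneg h h').congr rfl (by simp)⟩
        · exact Or.inr ⟨a * b, mul_ne_zero ha hb, (mulWD h h').congr rfl (by simp)⟩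
        · exact Or.inl ⟨1 * a⁻¹ * b, mul_ne_zero (mul_ne_zero one_ne_zero (inv_ne_zero ha)) hb,
            (mulWW one_ne_zero h h').congr rfl (by simp)⟩
      apply aut_trivial β hodd (Subgroup.centralizer ({w} : Set T))
      · intro x hx
        rw [Subgroup.mem_centralizer_iff] at hx ⊢
        intro g hg
        rw [Set.mem_singleton_iff] at hg
        subst hg
        have h1 := congrArg β (hx g rfl)
        rw [map_mul, map_mul, hC4] at h1
        exact h1
      · intro x hx
        rcases hC2 x hx with rfl | rfl | rfl | rfl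
        · exact map_one β
        · rw [map_mul, hC4]
        · exact hC4
        · rw [map_inv, hC4]
      · intro x y hx hy
        by_contra hz
        apply hy
        have := prodC x (x⁻¹ * y) hx hz
        rwa [mul_inv_cancel_left] at this
      · exact hiv
    · exfalso
      apply hq5
      simpa using hq
    · -- generic case
      have h8 : 8 ≤ 2 ^ (m + 3) := by
        calc 8 = 2 ^ 3 := by norm_num
          _ ≤ 2 ^ (m + 3) := Nat.pow_le_pow_right (by norm_num) (by omega)
      have hq' : q = 2 ^ (m + 3) + 1 := hq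
      have hq9 : 9 ≤ q := by omega
      have h2 : (2 : ZMod q) ≠ 0 := by
        intro h
        have h' : ((2 : ℕ) : ZMod q) = 0 := by exact_mod_cast h
        rw [ZMod.natCast_eq_zero_iff] at h'
        have := Nat.le_of_dvd (by norm_num) h'
        omega
      have h16 : (16 : ZMod q) ≠ 1 := by
        intro h
        have h' : ((15 : ℕ) : ZMod q) = 0 := by
          push_cast
          linear_combination h
        rw [ZMod.natCast_eq_zero_iff] at h'
        have := Nat.le_of_dvd (by norm_num) h'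
        interval_cases q <;> omega
      have hm1 : (-1 : ZMod q) ≠ 1 := by
        intro h
        apply h2
        linear_combination -h
      have hneg : (-1 : ZMod q) ≠ 0 := neg_ne_zero.mpr one_ne_zero
      obtain ⟨y0, hy0⟩ := mkD T hT 2 1 h2 (Or.inl rfl)
      obtain ⟨w1, hw1⟩ := mkW T hT 1 1 one_ne_zero (Or.inl rfl)
      obtain ⟨Z, hZ⟩ := mkD T hT (-1) 1 hneg (Or.inl rfl)
      obtain ⟨d1, hd1⟩ := mkD T hT 1 (-1) one_ne_zero (Or.inr rfl)
      obtain ⟨d2, hd2⟩ := mkD T hT (-1) (-1) hneg (Or.inr rfl)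
      have hsq : ∀ y : T, ∃ c u : ZMod q, KD (y * y).1 c u := by
        intro y
        rcases kinds T hT y with ⟨a, s, ha, hs, h⟩ | ⟨a, s, ha, hs, h⟩
        · exact ⟨_, _, mulDD h h⟩
        · exact ⟨_, _, mulWW (sgn_ne_zero hs) h h⟩
      have memS : ∀ x : T, x ∈ Subgroup.centralizer {z : T | ∃ y : T, z = y * y} ↔
          ∃ a s : ZMod q, a ≠ 0 ∧ (s = 1 ∨ s = -1) ∧ KD x.1 a s := by
        intro x
        rw [Subgroup.mem_centralizer_iff]
        constructor
        · intro hx
          rcases kinds T hT x with h | ⟨b, t, hb, ht, h⟩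
          · exact h
          · exfalso
            have hx' : (y0 * y0) * x = x * (y0 * y0) := hx _ ⟨y0, rfl⟩
            have h0 : KD (y0 * y0).1 (2 * 2) (1 * 1) := mulDD hy0 hy0
            have h1 : KW ((y0 * y0) * x).1 ((1 * 1) * (2 * 2)⁻¹ * b) ((1 * 1) * t) :=
              mulDW (by simp) h0 h
            have h2' : KW (x * (y0 * y0)).1 (b * (2 * 2)) (t * (1 * 1)) := mulWD h h0
            rw [hx'] at h1
            have h4 : (2 * 2 : ZMod q) ≠ 0 := mul_ne_zero h2 h2
            have h3 := (paramW (mul_ne_zero (mul_ne_zero (by simp) (inv_ne_zero h4)) hb) h1 h2').1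
            apply h16
            have e : b * 16 = b * 1 := by
              calc b * 16 = b * (2 * 2) * (2 * 2) := by ring
                _ = ((1 * 1) * (2 * 2)⁻¹ * b) * (2 * 2) := by rw [h3]
                _ = b * 1 := by field_simp
            exact mul_left_cancel₀ hb e
        · rintro ⟨a, s, ha, hs, h⟩ z ⟨y, rfl⟩
          obtain ⟨c, u, hc⟩ := hsq y
          apply Subtype.ext
          exact eqD (mulDD hc h) ((mulDD h hc).congr (mul_comm _ _) (mul_comm _ _))
      have hi : ∀ x ∈ Subgroup.centralizer {z : T | ∃ y : T, z = y * y},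
          β x ∈ Subgroup.centralizer {z : T | ∃ y : T, z = y * y} := by
        intro x hx
        rw [Subgroup.mem_centralizer_iff] at hx ⊢
        rintro z ⟨y, rfl⟩
        have h1 := congrArg β (hx (β.symm y * β.symm y) ⟨_, rfl⟩)
        simpa [map_mul] using h1
      have hcomm : ∀ x ∈ Subgroup.centralizer {z : T | ∃ y : T, z = y * y},
          ∀ y ∈ Subgroup.centralizer {z : T | ∃ y : T, z = y * y}, x * y = y * x := by
        intro x hx y hy
        obtain ⟨a, s, -, -, h⟩ := (memS x).mp hx
        obtain ⟨b, t, -, -, h'⟩ := (memS y).mp hy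
        apply Subtype.ext
        exact eqD (mulDD h h') ((mulDD h' h).congr (mul_comm _ _) (mul_comm _ _))
      -- the involutions of S
      have hlist : ∀ c ∈ Subgroup.centralizer {z : T | ∃ y : T, z = y * y}, c * c = 1 →
          c = 1 ∨ c = Z ∨ c = d1 ∨ c = d2 := by
        intro c hc hcc
        obtain ⟨a, s, ha, hs, h⟩ := (memS c).mp hc
        have h1 : KD (c * c).1 (a * a) (s * s) := mulDD h h
        rw [hcc] at h1
        have h2' := (paramD (mul_ne_zero ha ha) h1 oneD).1
        rcases mul_self_eq_one_iff.mp h2' with rfl | rfl <;> rcases hs with rfl | rfl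
        · left; exact Subtype.ext (eqD h oneD)
        · right; right; left; exact Subtype.ext (eqD h hd1)
        · right; left; exact Subtype.ext (eqD h hZ)
        · right; right; right; exact Subtype.ext (eqD h hd2)
      have hZS : Z ∈ Subgroup.centralizer {z : T | ∃ y : T, z = y * y} :=
        (memS Z).mpr ⟨_, _, hneg, Or.inl rfl, hZ⟩
      have hd1S : d1 ∈ Subgroup.centralizer {z : T | ∃ y : T, z = y * y} :=
        (memS d1).mpr ⟨_, _, one_ne_zero, Or.inr rfl, hd1⟩
      have hd2S : d2 ∈ Subgroup.centralizer {z : T | ∃ y : T, z = y * y} :=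
        (memS d2).mpr ⟨_, _, hneg, Or.inr rfl, hd2⟩
      have hZZ : Z * Z = 1 :=
        Subtype.ext (eqD ((mulDD hZ hZ).congr (by simp) (by simp)) oneD)
      have hd11 : d1 * d1 = 1 :=
        Subtype.ext (eqD ((mulDD hd1 hd1).congr (by simp) (by simp)) oneD)
      have hd22 : d2 * d2 = 1 :=
        Subtype.ext (eqD ((mulDD hd2 hd2).congr (by simp) (by simp)) oneD)
      -- distinctness
      have hZ1 : Z ≠ 1 := fun h => hm1 (paramD hneg hZ (by rw [h]; exact oneD)).1
      have hd1_1 : d1 ≠ 1 := fun h => hm1 (paramD one_ne_zero hd1 (by rw [h]; exact oneD)).2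
      have hd2_1 : d2 ≠ 1 := fun h => hm1 (paramD hneg hd2 (by rw [h]; exact oneD)).1
      have hd1Z : d1 ≠ Z := fun h => hm1 (paramD one_ne_zero hd1 (by rw [h]; exact hZ)).2
      have hd2Z : d2 ≠ Z := fun h => hm1 (paramD hneg hd2 (by rw [h]; exact hZ)).2
      have hd12 : d1 ≠ d2 := fun h => hm1 (paramD one_ne_zero hd1 (by rw [h]; exact hd2)).1.symm
      -- centrality
      have hZneg : ∀ v, Z.1 v = -v := by
        intro v
        rw [hZ v]
        ext i
        fin_cases i <;> simp
      have hZcen : ∀ y : T, Z * y = y * Z := by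
        intro y
        apply Subtype.ext
        ext v : 1
        show Z.1 (y.1 v) = y.1 (Z.1 v)
        rw [hZneg, hZneg, map_neg]
      have hd1nc : d1 * w1 ≠ w1 * d1 := by
        intro h
        have h1 : KW (d1 * w1).1 (-1 * 1⁻¹ * 1) (-1 * 1) := mulDW hneg hd1 hw1
        have h2' : KW (w1 * d1).1 (1 * 1) (1 * -1) := mulWD hw1 hd1
        rw [h] at h1
        have := (paramW (by simp) h1 h2').1
        apply hm1
        simpa using this
      have hd2nc : d2 * w1 ≠ w1 * d2 := by
        intro h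
        have h1 : KW (d2 * w1).1 (-1 * (-1)⁻¹ * 1) (-1 * 1) := mulDW hneg hd2 hw1
        have h2' : KW (w1 * d2).1 (1 * -1) (1 * -1) := mulWD hw1 hd2
        rw [h] at h1
        have := (paramW (by simp) h1 h2').1
        apply hm1
        have e : (-1 : ZMod q) * (-1)⁻¹ * 1 = 1 := by field_simp
        rw [e] at this
        simpa using this.symm
      have hcenβ : ∀ c : T, (∀ y : T, c * y = y * c) → ∀ y : T, β c * y = y * β c := by
        intro c hc y
        have h1 := congrArg β (hc (β.symm y))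
        simpa [map_mul] using h1
      have hβinv : ∀ c ∈ Subgroup.centralizer {z : T | ∃ y : T, z = y * y}, c * c = 1 →
          β c = 1 ∨ β c = Z ∨ β c = d1 ∨ β c = d2 := by
        intro c hc hcc
        apply hlist _ (hi c hc)
        rw [← map_mul, hcc, map_one]
      have hβZ : β Z = Z := by
        rcases hβinv Z hZS hZZ with h | h | h | h
        · exact absurd ((MulEquiv.map_eq_one_iff β).mp h) hZ1
        · exact h
        · have h' := hcenβ Z hZcen w1
          rw [h] at h'
          exact absurd h' hd1nc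
        · have h' := hcenβ Z hZcen w1
          rw [h] at h'
          exact absurd h' hd2nc
      have hβd1' : β d1 = d1 ∨ β d1 = d2 := by
        rcases hβinv d1 hd1S hd11 with h | h | h | h
        · exact absurd ((MulEquiv.map_eq_one_iff β).mp h) hd1_1
        · exact absurd (β.injective (h.trans hβZ.symm)) hd1Z
        · exact Or.inl h
        · exact Or.inr h
      have hβd2' : β d2 = d1 ∨ β d2 = d2 := by
        rcases hβinv d2 hd2S hd22 with h | h | h | h
        · exact absurd ((MulEquiv.map_eq_one_iff β).mp h) hd2_1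
        · exact absurd (β.injective (h.trans hβZ.symm)) hd2Z
        · exact Or.inl h
        · exact Or.inr h
      have hβd1 : β d1 = d1 := by
        rcases hβd1' with h | h
        · exact h
        · apply fix_of_sq β hodd
          rw [h]
          rcases hβd2' with h' | h'
          · exact h'
          · exact absurd (β.injective (h.trans h'.symm)) hd12
      have hβd2 : β d2 = d2 := by
        rcases hβd2' with h | h
        · exact absurd (β.injective (hβd1.trans h.symm)) hd12
        · exact h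
      have hinv : ∀ c ∈ Subgroup.centralizer {z : T | ∃ y : T, z = y * y}, c * c = 1 →
          β c = c := by
        intro c hc hcc
        rcases hlist c hc hcc with rfl | rfl | rfl | rfl
        · exact map_one β
        · exact hβZ
        · exact hβd1
        · exact hβd2
      have hS := aut_trivial_abelian β hodd _ hi hcomm hinv hiv
      apply aut_trivial β hodd _ hi hS _ hiv
      intro x y hx hy
      by_contra hz
      apply hy
      have hW : ∀ x : T, x ∉ Subgroup.centralizer {z : T | ∃ y : T, z = y * y} →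
          ∃ a s : ZMod q, a ≠ 0 ∧ (s = 1 ∨ s = -1) ∧ KW x.1 a s := by
        intro x hx
        rcases kinds T hT x with h | h
        · exact absurd ((memS x).mpr h) hx
        · exact h
      obtain ⟨a, s, ha, hs, h⟩ := hW x hx
      obtain ⟨b, t, hb, ht, h'⟩ := hW _ hz
      rw [memS]
      have h1 : KD (x * (x⁻¹ * y)).1 (s * a⁻¹ * b) (s * t) := mulWW (sgn_ne_zero hs) h h'
      rw [mul_inv_cancel_left] at h1
      refine ⟨_, _, mul_ne_zero (mul_ne_zero (sgn_ne_zero hs) (inv_ne_zero ha)) hb, ?_, h1⟩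
      rcases hs with rfl | rfl <;> rcases ht with rfl | rfl <;> simp
  intro α
  have hpos : 0 < orderOf α := orderOf_pos α
  obtain ⟨e, m', hm', hem⟩ := Nat.exists_eq_two_pow_mul_odd hpos.ne'
  refine ⟨e, ?_⟩
  apply main
  rw [orderOf_pow, hem]
  have : Nat.gcd (2 ^ e * m') (2 ^ e) = 2 ^ e := Nat.gcd_eq_right (Dvd.intro _ rfl)
  rw [this, Nat.mul_div_cancel_left _ (by positivity)]
  exact hm'

end Cfsg.Agent.S3382
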