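import Cfsg.Statements.S3383

set_option autoImplicit false
open Cfsg

namespace Cfsg.Agent.S3383

open scoped Pointwise

/-- Let H be a Frobenius complement in a finite group L and K the Frobenius kernel (as a subgroup). Then K is characteristic in L, and every normal subgroup of L either contains K or is contained in K. -/
theorem result {L : Type*} [Group L] [Finite L]
    (H : Subgroup L) (hH : Cfsg.IsFrobeniusComplement H)
    (K : Subgroup L) (hK : (K : Set L) = Cfsg.frobeniusKernel H) :
    K.Characteristic ∧ ∀ N : Subgroup L, N.Normal → K ≤ N ∨ N ≤ K := by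
  have hmemc : ∀ (g x : L), x ∈ MulAut.conj g • H ↔ g⁻¹ * x * g ∈ H := by
    intro g x
    rw [Subgroup.mem_pointwise_smul_iff_inv_smul_mem]
    simp [MulAut.smul_def]
  have hmem : ∀ x : L, x ∈ K ↔ (x = 1 ∨ ∀ g : L, ¬ g⁻¹ * x * g ∈ H) := by
    intro x
    have := Set.ext_iff.mp hK x
    rw [SetLike.mem_coe] at this
    rw [this]
    unfold Cfsg.frobeniusKernel
    simp only [Set.mem_ofPred_eq, hmemc]
  have hfrob : ∀ g : L, g ∉ H → ∀ x ∈ H, g⁻¹ * x * g ∈ H → x = 1 := by
    intro g hg x hx hx'
    have := hH.2.2 g hg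
    have hx2 : x ∈ H ⊓ (MulAut.conj g • H) := Subgroup.mem_inf.mpr ⟨hx, (hmemc g x).mpr hx'⟩
    rw [this] at hx2
    exact Subgroup.mem_bot.mp hx2
  have hKn : K.Normal := by
    constructor
    intro n hn g
    rw [hmem] at hn ⊢
    rcases hn with rfl | hn
    · left; group
    · right
      intro g' hg'
      apply hn (g⁻¹ * g')
      have : (g⁻¹ * g')⁻¹ * n * (g⁻¹ * g') = g'⁻¹ * (g * n * g⁻¹) * g' := by group
      rw [this]; exact hg'
  have hKH : ∀ x ∈ K, x ∈ H → x = 1 := by
    intro x hxK hxH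
    rcases (hmem x).mp hxK with h | h
    · exact h
    · exfalso; apply h 1; simpa using hxH
  have hcomp : ∀ N : Subgroup L, N.Normal → K ≤ N ∨ N ≤ K := by
    intro N hN
    by_cases hNK : N ≤ K
    · exact Or.inr hNK
    · left
      obtain ⟨n, hnN, hnK⟩ := SetLike.not_le_iff_exists.mp hNK
      rw [hmem] at hnK
      push Not at hnK
      obtain ⟨hn1, g, hg⟩ := hnK
      obtain ⟨h, hh⟩ : ∃ h, h = g⁻¹ * n * g := ⟨_, rfl⟩
      have hhH : h ∈ H := hh ▸ hg
      have hhN : h ∈ N := by
        rw [hh]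
        have := hN.conj_mem n hnN g⁻¹
        simpa using this
      have hh1 : h ≠ 1 := by
        intro h1
        apply hn1
        rw [h1] at hh
        have : n = g * (g⁻¹ * n * g) * g⁻¹ := by group
        rw [this, ← hh]; group
      have hmemKN : ∀ k : K, (k : L) * h * (k : L)⁻¹ * h⁻¹ ∈ K ⊓ N := by
        intro k
        refine Subgroup.mem_inf.mpr ⟨?_, ?_⟩
        · have : (k : L) * h * (k : L)⁻¹ * h⁻¹ = (k : L) * (h * (k : L)⁻¹ * h⁻¹) := by group
          rw [this]
          exact mul_mem k.2 (hKn.conj_mem _ (inv_mem k.2) h)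
        · exact mul_mem (hN.conj_mem h hhN k) (inv_mem hhN)
      have hinj : Function.Injective (fun k : K => (⟨(k : L) * h * (k : L)⁻¹ * h⁻¹, hmemKN k⟩ : (K ⊓ N : Subgroup L))) := by
        intro k k' hkk
        have h1 : (k : L) * h * (k : L)⁻¹ * h⁻¹ = (k' : L) * h * (k' : L)⁻¹ * h⁻¹ := congrArg Subtype.val hkk
        have h2 : ((k' : L)⁻¹ * k)⁻¹ * h * ((k' : L)⁻¹ * k) = h := by
          have h3 : (k : L) * h * (k : L)⁻¹ = (k' : L) * h * (k' : L)⁻¹ := mul_right_cancel h1
          calc ((k' : L)⁻¹ * k)⁻¹ * h * ((k' : L)⁻¹ * k) = (k : L)⁻¹ * ((k' : L) * h * (k' : L)⁻¹) * k := by group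
            _ = (k : L)⁻¹ * ((k : L) * h * (k : L)⁻¹) * k := by rw [h3]
            _ = h := by group
        have hcK : (k' : L)⁻¹ * k ∈ K := mul_mem (inv_mem k'.2) k.2
        by_contra hne
        have hcH : (k' : L)⁻¹ * k ∉ H := by
          intro hc
          have h4 := hKH _ hcK hc
          apply hne
          ext
          have h5 : (k : L) = k' * ((k' : L)⁻¹ * k) := by group
          rw [h5, h4, mul_one]
        exact hh1 (hfrob _ hcH h hhH (by rw [h2]; exact hhH))
      have hcard : Nat.card K ≤ Nat.card (K ⊓ N : Subgroup L) := Nat.card_le_card_of_injective _ hinj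
      have heq : K ⊓ N = K := Subgroup.eq_of_le_of_card_ge inf_le_left hcard
      rw [← heq]; exact inf_le_right
  refine ⟨?_, hcomp⟩
  rw [Subgroup.characteristic_iff_map_le]
  intro φ
  have hn : (K.map φ.toMonoidHom).Normal := hKn.map _ φ.surjective
  rcases hcomp _ hn with h | h
  · have hc : Nat.card (K.map φ.toMonoidHom) = Nat.card K := Subgroup.card_map_of_injective φ.injective
    exact (Subgroup.eq_of_le_of_card_ge h hc.le).symm.le
  · exact h

end Cfsg.Agent.S3383
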