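import Cfsg.Statements.S3704

set_option autoImplicit false
open Cfsg

namespace Cfsg.Agent.S3704


section

variable {G Ω : Type*} [Group G] [MulAction G Ω]

/-- incidence between points and cosets of `H`: `ω` lies in the translate `x Δ` -/
def inc (H : Subgroup G) (Δ : Set Ω) (ω : Ω) (γ : G ⧸ H) : Prop :=
  ∃ x : G, (x : G ⧸ H) = γ ∧ x⁻¹ • ω ∈ Δ

theorem inc_mk (H : Subgroup G) (Δ : Set Ω) (hΔ : ∀ h ∈ H, ∀ y ∈ Δ, h • y ∈ Δ) (ω : Ω) (x : G) :
    inc H Δ ω (x : G ⧸ H) ↔ x⁻¹ • ω ∈ Δ := by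
  constructor
  · rintro ⟨x', hx', hmem⟩
    have hh : x⁻¹ * x' ∈ H := QuotientGroup.eq.mp hx'.symm
    have := hΔ _ hh _ hmem
    rwa [smul_smul, mul_assoc, mul_inv_cancel, mul_one] at this
  · intro h
    exact ⟨x, rfl, h⟩

theorem inc_smul (H : Subgroup G) (Δ : Set Ω) (hΔ : ∀ h ∈ H, ∀ y ∈ Δ, h • y ∈ Δ) (g : G) (ω : Ω)
    (γ : G ⧸ H) : inc H Δ (g • ω) (g • γ) ↔ inc H Δ ω γ := by
  induction γ using QuotientGroup.induction_on with
  | H x =>
    rw [show g • (x : G ⧸ H) = ((g * x : G) : G ⧸ H) from rfl, inc_mk H Δ hΔ, inc_mk H Δ hΔ,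
      mul_inv_rev, smul_smul, mul_assoc, inv_mul_cancel, mul_one]

/-- the number of fixed points is a class function -/
theorem card_fixedBy_conj (x g : G) :
    Nat.card (MulAction.fixedBy Ω (x * g * x⁻¹)) = Nat.card (MulAction.fixedBy Ω g) := by
  refine Nat.card_congr ?_
  refine ⟨fun ω => ⟨x⁻¹ • ω.1, ?_⟩, fun ω => ⟨x • ω.1, ?_⟩, ?_, ?_⟩
  · have h := ω.2
    rw [MulAction.mem_fixedBy] at h ⊢
    rw [smul_smul]
    have e : g * x⁻¹ = x⁻¹ * (x * g * x⁻¹) := by group
    rw [e, mul_smul, h]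
  · have h := ω.2
    rw [MulAction.mem_fixedBy] at h ⊢
    rw [smul_smul]
    have e : x * g * x⁻¹ * x = x * g := by group
    rw [e, mul_smul, h]
  · intro ω
    apply Subtype.ext
    show x • x⁻¹ • ω.1 = ω.1
    exact smul_inv_smul x ω.1
  · intro ω
    apply Subtype.ext
    show x⁻¹ • x • ω.1 = ω.1
    exact inv_smul_smul x ω.1

end

section fin

variable {G Ω : Type*} [Group G] [MulAction G Ω] [Fintype Ω] [DecidableEq Ω]

theorem card_fixedBy_eq_sum (g : G) :
    (Nat.card (MulAction.fixedBy Ω g) : ℚ) = ∑ ω : Ω, if g • ω = ω then (1 : ℚ) else 0 := by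
  classical
  rw [Finset.sum_boole, Nat.card_eq_fintype_card]
  congr 1
  exact Fintype.card_subtype _

theorem card_fixedBy_eq_sum_nat (g : G) :
    Nat.card (MulAction.fixedBy Ω g) = ∑ ω : Ω, if g • ω = ω then 1 else 0 := by
  classical
  rw [Finset.sum_boole, Nat.card_eq_fintype_card, Nat.cast_id]
  exact Fintype.card_subtype _

/-- Brauer's permutation lemma for the incidence structure of translates of `Δ` -/
theorem fix_eq (h2 : MulAction.IsMultiplyPretransitive G Ω 2) (H : Subgroup G)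
    [Fintype (G ⧸ H)] [DecidableEq (G ⧸ H)]
    (Δ : Set Ω) (hΔ : ∀ h ∈ H, ∀ y ∈ Δ, h • y ∈ Δ) (δ δ' : Ω) (hδ : δ ∈ Δ) (hδ' : δ' ∉ Δ)
    (hidx : Fintype.card (G ⧸ H) = Fintype.card Ω) (g : G) :
    Nat.card (MulAction.fixedBy Ω g) = Nat.card (MulAction.fixedBy (G ⧸ H) g) := by
  classical
  haveI : MulAction.IsPretransitive G Ω := MulAction.isPretransitive_of_is_two_pretransitive
  have h2' : ∀ {a b c d : Ω}, a ≠ b → c ≠ d → ∃ x : G, x • a = c ∧ x • b = d :=
    fun hab hcd => MulAction.is_two_pretransitive_iff.mp h2 hab hcd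
  let A : Matrix Ω (G ⧸ H) ℚ := Matrix.of fun ω γ => if inc H Δ ω γ then 1 else 0
  have hA : ∀ ω γ, A ω γ = if inc H Δ ω γ then 1 else 0 := fun ω γ => rfl
  have hA0 : ∀ ω γ, 0 ≤ A ω γ := by
    intro ω γ
    rw [hA]
    split_ifs <;> norm_num
  have hA1 : ∀ ω γ, A ω γ ≤ 1 := by
    intro ω γ
    rw [hA]
    split_ifs <;> norm_num
  let c : Ω → Ω → ℚ := fun ω ω' => ∑ γ, A ω γ * A ω' γ
  have hc : ∀ ω ω', c ω ω' = ∑ γ, A ω γ * A ω' γ := fun ω ω' => rfl
  have hc_inv : ∀ (x : G) (ω ω' : Ω), c (x • ω) (x • ω') = c ω ω' := by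
    intro x ω ω'
    rw [hc, hc]
    rw [← Equiv.sum_comp (MulAction.toPerm x : Equiv.Perm (G ⧸ H))
      (fun γ => A (x • ω) γ * A (x • ω') γ)]
    refine Finset.sum_congr rfl fun γ _ => ?_
    show A (x • ω) (x • γ) * A (x • ω') (x • γ) = A ω γ * A ω' γ
    rw [hA, hA, hA, hA]
    simp only [inc_smul H Δ hΔ]
  have hδne : δ ≠ δ' := fun h => hδ' (h ▸ hδ)
  set r := c δ δ with hr_def
  set lam := c δ δ' with hl_def
  have hr : ∀ ω, c ω ω = r := by
    intro ω
    obtain ⟨x, rfl⟩ := MulAction.exists_smul_eq G δ ω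
    exact hc_inv x δ δ
  have hl : ∀ ω ω', ω ≠ ω' → c ω ω' = lam := by
    intro ω ω' hne
    obtain ⟨x, rfl, rfl⟩ := h2' hδne hne
    exact hc_inv x δ δ'
  have hl0 : 0 ≤ lam := Finset.sum_nonneg fun γ _ => mul_nonneg (hA0 _ _) (hA0 _ _)
  have hrl : 1 ≤ r - lam := by
    have e : r - lam = ∑ γ, A δ γ * (A δ γ - A δ' γ) := by
      rw [hr_def, hl_def, hc, hc, ← Finset.sum_sub_distrib]
      refine Finset.sum_congr rfl fun γ _ => ?_
      ring
    rw [e]
    have hterm : A δ ((1 : G) : G ⧸ H) * (A δ ((1 : G) : G ⧸ H) - A δ' ((1 : G) : G ⧸ H)) = 1 := by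
      have h1 : A δ ((1 : G) : G ⧸ H) = 1 := by
        rw [hA, if_pos]
        rw [inc_mk H Δ hΔ, inv_one, one_smul]
        exact hδ
      have h0 : A δ' ((1 : G) : G ⧸ H) = 0 := by
        rw [hA, if_neg]
        rw [inc_mk H Δ hΔ, inv_one, one_smul]
        exact hδ'
      rw [h1, h0]
      norm_num
    rw [← hterm]
    refine Finset.single_le_sum (f := fun γ => A δ γ * (A δ γ - A δ' γ)) ?_ (Finset.mem_univ _)
    intro γ _
    show 0 ≤ A δ γ * (A δ γ - A δ' γ)
    by_cases hi : inc H Δ δ γ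
    · have h1 : A δ γ = 1 := by rw [hA, if_pos hi]
      rw [h1]
      have := hA1 δ' γ
      linarith
    · have h0 : A δ γ = 0 := by rw [hA, if_neg hi]
      rw [h0]
      simp
  have hM : ∀ ω ω', (A * A.transpose) ω ω' = if ω = ω' then r else lam := by
    intro ω ω'
    rw [Matrix.mul_apply]
    simp only [Matrix.transpose_apply]
    split_ifs with h
    · subst h
      exact hr ω
    · exact hl ω ω' h
  have hdet : (A * A.transpose).det ≠ 0 := by
    intro hd
    obtain ⟨v, hv0, hv⟩ := Matrix.exists_vecMul_eq_zero_iff.mpr hd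
    apply hv0
    have hv' : ∀ ω', lam * (∑ ω, v ω) + (r - lam) * v ω' = 0 := by
      intro ω'
      have h := congrFun hv ω'
      simp only [Matrix.vecMul, dotProduct, hM, Pi.zero_apply] at h
      have e : ∀ ω, v ω * (if ω = ω' then r else lam)
          = lam * v ω + (if ω = ω' then (r - lam) * v ω else 0) := by
        intro ω
        split_ifs <;> ring
      simp only [e, Finset.sum_add_distrib, ← Finset.mul_sum, Finset.sum_ite_eq', Finset.mem_univ,
        if_true] at h
      exact h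
    have hS : (∑ ω, v ω) = 0 := by
      have hsum : ∑ ω' : Ω, (lam * (∑ ω, v ω) + (r - lam) * v ω') = 0 :=
        Finset.sum_eq_zero fun ω' _ => hv' ω'
      rw [Finset.sum_add_distrib, Finset.sum_const, ← Finset.mul_sum, Finset.card_univ,
        nsmul_eq_mul] at hsum
      have hpos : (0 : ℚ) < (Fintype.card Ω : ℚ) * lam + (r - lam) := by
        have : (0 : ℚ) ≤ (Fintype.card Ω : ℚ) * lam := mul_nonneg (Nat.cast_nonneg _) hl0
        linarith
      have h0 : ((Fintype.card Ω : ℚ) * lam + (r - lam)) * (∑ ω, v ω) = 0 := by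
        rw [← hsum]
        ring
      rcases mul_eq_zero.mp h0 with h | h
      · exact absurd h hpos.ne'
      · exact h
    funext ω'
    have h := hv' ω'
    rw [hS, mul_zero, zero_add] at h
    rcases mul_eq_zero.mp h with h | h
    · linarith
    · exact h
  have hunit : IsUnit (A * A.transpose).det := isUnit_iff_ne_zero.mpr hdet
  set B : Matrix (G ⧸ H) Ω ℚ := A.transpose * (A * A.transpose)⁻¹ with hB
  have hAB : A * B = 1 := by
    rw [hB, ← Matrix.mul_assoc, Matrix.mul_nonsing_inv _ hunit]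
  have hBA : B * A = 1 := (Matrix.mul_eq_one_comm_of_equiv (Fintype.equivOfCardEq hidx.symm)).mp hAB
  let P : Matrix Ω Ω ℚ := Matrix.of fun ω ω' => if g • ω' = ω then 1 else 0
  let Q : Matrix (G ⧸ H) (G ⧸ H) ℚ := Matrix.of fun γ γ' => if g • γ' = γ then 1 else 0
  have hPA : P * A = A * Q := by
    ext ω γ
    rw [Matrix.mul_apply, Matrix.mul_apply]
    have e1 : ∑ ω', P ω ω' * A ω' γ = A (g⁻¹ • ω) γ := by
      rw [Finset.sum_eq_single (g⁻¹ • ω)]
      · show (if g • g⁻¹ • ω = ω then (1 : ℚ) else 0) * A (g⁻¹ • ω) γ = _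
        rw [if_pos (smul_inv_smul g ω), one_mul]
      · intro ω' _ hne
        show (if g • ω' = ω then (1 : ℚ) else 0) * A ω' γ = 0
        rw [if_neg, zero_mul]
        intro h
        apply hne
        rw [← h, inv_smul_smul]
      · intro h
        exact absurd (Finset.mem_univ _) h
    have e2 : ∑ γ', A ω γ' * Q γ' γ = A ω (g • γ) := by
      rw [Finset.sum_eq_single (g • γ)]
      · show A ω (g • γ) * (if g • γ = g • γ then (1 : ℚ) else 0) = _
        rw [if_pos rfl, mul_one]
      · intro γ' _ hne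
        show A ω γ' * (if g • γ = γ' then (1 : ℚ) else 0) = 0
        rw [if_neg (Ne.symm hne), mul_zero]
      · intro h
        exact absurd (Finset.mem_univ _) h
    rw [e1, e2, hA, hA]
    have h := inc_smul H Δ hΔ g (g⁻¹ • ω) γ
    rw [smul_inv_smul] at h
    simp only [h]
  have htr : Matrix.trace P = Matrix.trace Q := by
    calc Matrix.trace P = Matrix.trace (P * (A * B)) := by rw [hAB, Matrix.mul_one]
      _ = Matrix.trace ((A * Q) * B) := by rw [← Matrix.mul_assoc, hPA]
      _ = Matrix.trace (A * (Q * B)) := by rw [Matrix.mul_assoc]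
      _ = Matrix.trace ((Q * B) * A) := Matrix.trace_mul_comm _ _
      _ = Matrix.trace Q := by rw [Matrix.mul_assoc, hBA, Matrix.mul_one]
  have hP : Matrix.trace P = Nat.card (MulAction.fixedBy Ω g) := by
    rw [card_fixedBy_eq_sum]
    rfl
  have hQ : Matrix.trace Q = Nat.card (MulAction.fixedBy (G ⧸ H) g) := by
    rw [card_fixedBy_eq_sum]
    rfl
  exact_mod_cast hP.symm.trans (htr.trans hQ)

end fin

section burn

theorem burnside_nat (G X : Type*) [Group G] [MulAction G X] [Fintype G] [Finite X] :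
    ∑ g : G, Nat.card (MulAction.fixedBy X g)
      = Nat.card (MulAction.orbitRel.Quotient G X) * Nat.card G := by
  classical
  haveI : Fintype X := Fintype.ofFinite X
  haveI : ∀ g : G, Fintype (MulAction.fixedBy X g) := fun g => Fintype.ofFinite _
  haveI : Fintype (MulAction.orbitRel.Quotient G X) := Fintype.ofFinite _
  simp only [Nat.card_eq_fintype_card]
  exact MulAction.sum_card_fixedBy_eq_card_orbits_mul_card_group G X

/-- a 2-transitive group has exactly two orbits on ordered pairs -/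
theorem card_orbits_prod {G Ω : Type*} [Group G] [MulAction G Ω]
    (h2 : MulAction.IsMultiplyPretransitive G Ω 2) (δ δ' : Ω) (hne : δ ≠ δ') :
    Nat.card (MulAction.orbitRel.Quotient G (Ω × Ω)) = 2 := by
  haveI : MulAction.IsPretransitive G Ω := MulAction.isPretransitive_of_is_two_pretransitive
  have h2' : ∀ {a b c d : Ω}, a ≠ b → c ≠ d → ∃ x : G, x • a = c ∧ x • b = d :=
    fun hab hcd => MulAction.is_two_pretransitive_iff.mp h2 hab hcd
  rw [Nat.card_eq_two_iff]
  refine ⟨Quotient.mk'' (δ, δ), Quotient.mk'' (δ, δ'), ?_, ?_⟩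
  · intro h
    have h' := Quotient.exact' h
    rw [MulAction.orbitRel_apply] at h'
    obtain ⟨x, hx⟩ := h'
    have h1 : x • δ = δ := congrArg Prod.fst hx
    have h2 : x • δ' = δ := congrArg Prod.snd hx
    exact hne (smul_left_cancel x (h1.trans h2.symm))
  · rw [Set.eq_univ_iff_forall]
    intro q
    induction q using Quotient.inductionOn' with
    | h p =>
      obtain ⟨a, b⟩ := p
      by_cases hab : a = b
      · left
        subst hab
        obtain ⟨x, hx⟩ := MulAction.exists_smul_eq G δ a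
        apply Quotient.sound'
        rw [MulAction.orbitRel_apply]
        exact ⟨x, by show x • (δ, δ) = (a, a); rw [Prod.smul_mk, hx]⟩
      · right
        obtain ⟨x, hx, hx'⟩ := h2' hne hab
        show Quotient.mk'' (a, b) = Quotient.mk'' (δ, δ')
        apply Quotient.sound'
        rw [MulAction.orbitRel_apply]
        exact ⟨x, by show x • (δ, δ') = (a, b); rw [Prod.smul_mk, hx, hx']⟩

theorem card_fixedBy_prod {G Ω : Type*} [Group G] [MulAction G Ω] [Finite Ω] (g : G) :
    Nat.card (MulAction.fixedBy (Ω × Ω) g)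
      = Nat.card (MulAction.fixedBy Ω g) * Nat.card (MulAction.fixedBy Ω g) := by
  rw [← Nat.card_prod]
  refine Nat.card_congr ?_
  refine ⟨fun p => (⟨p.1.1, congrArg Prod.fst p.2⟩, ⟨p.1.2, congrArg Prod.snd p.2⟩),
    fun p => ⟨(p.1.1, p.2.1), ?_⟩, ?_, ?_⟩
  · rw [MulAction.mem_fixedBy, Prod.smul_mk, p.1.2, p.2.2]
  · intro p
    rfl
  · intro p
    rfl

end burn

/-- Let G be a finite group acting faithfully and 2-transitively on a finite set Ω of size n, and let H be a subgroup of index n in G which is not transitive on Ω and fixes no point of Ω. Then H has exactly two orbits on Ω. -/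
theorem result {G Ω : Type*} [Group G] [Finite G] [MulAction G Ω] [FaithfulSMul G Ω] [Finite Ω] (h2 : MulAction.IsMultiplyPretransitive G Ω 2) (H : Subgroup G) (hidx : H.index = Nat.card Ω) (hnt : ¬ MulAction.IsPretransitive H Ω) (hfix : ∀ a : Ω, ∃ h : H, h • a ≠ a) : Nat.card (MulAction.orbitRel.Quotient H Ω) = 2 := by
  classical
  haveI : Fintype G := Fintype.ofFinite G
  haveI : Fintype Ω := Fintype.ofFinite Ω
  haveI : Fintype (G ⧸ H) := Fintype.ofFinite _
  haveI : Fintype H := Fintype.ofFinite H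
  have hcardG : 0 < Nat.card G := Nat.card_pos
  have hΩ : Nonempty Ω := by
    by_contra hE
    rw [not_nonempty_iff] at hE
    have h0 : Nat.card Ω = 0 := Nat.card_of_isEmpty
    rw [h0] at hidx
    exact Subgroup.index_ne_zero_of_finite hidx
  obtain ⟨ω₀⟩ := hΩ
  set Δ : Set Ω := MulAction.orbit H ω₀ with hΔdef
  have hΔ : ∀ h ∈ H, ∀ y ∈ Δ, h • y ∈ Δ := by
    intro h hh y hy
    obtain ⟨k, rfl⟩ := hy
    refine ⟨⟨h, hh⟩ * k, ?_⟩
    show ((⟨h, hh⟩ : H) * k) • ω₀ = h • (k • ω₀)
    rw [mul_smul]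
    rfl
  have hex : ∃ δ', δ' ∉ Δ := by
    by_contra hall
    push Not at hall
    apply hnt
    constructor
    intro x y
    obtain ⟨k₁, hk₁⟩ := hall x
    obtain ⟨k₂, hk₂⟩ := hall y
    have hk₁' : k₁ • ω₀ = x := hk₁
    have hk₂' : k₂ • ω₀ = y := hk₂
    refine ⟨k₂ * k₁⁻¹, ?_⟩
    rw [← hk₁', ← hk₂', mul_smul, inv_smul_smul]
  obtain ⟨δ', hδ'⟩ := hex
  have hδ : ω₀ ∈ Δ := MulAction.mem_orbit_self ω₀
  have hidx' : Fintype.card (G ⧸ H) = Fintype.card Ω := by
    rw [← Nat.card_eq_fintype_card, ← Nat.card_eq_fintype_card]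
    exact hidx
  have hfe : ∀ g : G,
      Nat.card (MulAction.fixedBy Ω g) = Nat.card (MulAction.fixedBy (G ⧸ H) g) :=
    fun g => fix_eq h2 H Δ hΔ ω₀ δ' hδ hδ' hidx' g
  have hsq : ∑ g : G, Nat.card (MulAction.fixedBy Ω g) * Nat.card (MulAction.fixedBy Ω g)
      = 2 * Nat.card G := by
    have hb := burnside_nat G (Ω × Ω)
    rw [card_orbits_prod h2 ω₀ δ' (fun h => hδ' (h ▸ hδ))] at hb
    rw [← hb]
    exact Finset.sum_congr rfl fun g _ => (card_fixedBy_prod g).symm
  have hmix : ∑ g : G, Nat.card (MulAction.fixedBy Ω g) * Nat.card (MulAction.fixedBy (G ⧸ H) g)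
      = Nat.card (G ⧸ H) * ∑ h : H, Nat.card (MulAction.fixedBy Ω (h : G)) := by
    have e1 : ∀ g : G, Nat.card (MulAction.fixedBy Ω g) * Nat.card (MulAction.fixedBy (G ⧸ H) g)
        = ∑ γ : G ⧸ H, if g • γ = γ then Nat.card (MulAction.fixedBy Ω g) else 0 := by
      intro g
      rw [card_fixedBy_eq_sum_nat (Ω := G ⧸ H) g, Finset.mul_sum]
      refine Finset.sum_congr rfl fun γ _ => ?_
      split_ifs <;> simp
    rw [Finset.sum_congr rfl fun g _ => e1 g, Finset.sum_comm]
    have e2 : ∀ γ : G ⧸ H, ∑ g : G, (if g • γ = γ then Nat.card (MulAction.fixedBy Ω g) else 0)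
        = ∑ h : H, Nat.card (MulAction.fixedBy Ω (h : G)) := by
      intro γ
      induction γ using QuotientGroup.induction_on with
      | H x =>
        rw [← Equiv.sum_comp (MulAut.conj x).toEquiv]
        have e3 : ∀ k : G, (if ((MulAut.conj x).toEquiv k) • (x : G ⧸ H) = (x : G ⧸ H) then
            Nat.card (MulAction.fixedBy Ω ((MulAut.conj x).toEquiv k)) else 0)
            = if k ∈ H then Nat.card (MulAction.fixedBy Ω k) else 0 := by
          intro k
          have hk : (MulAut.conj x).toEquiv k = x * k * x⁻¹ := rfl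
          rw [hk, card_fixedBy_conj]
          have hiff : (x * k * x⁻¹) • (x : G ⧸ H) = (x : G ⧸ H) ↔ k ∈ H := by
            rw [show (x * k * x⁻¹) • (x : G ⧸ H) = ((x * k * x⁻¹ * x : G) : G ⧸ H) from rfl,
              QuotientGroup.eq]
            have e4 : (x * k * x⁻¹ * x)⁻¹ * x = k⁻¹ := by group
            rw [e4, inv_mem_iff]
          simp only [hiff]
        rw [Finset.sum_congr rfl fun k _ => e3 k, ← Finset.sum_filter]
        exact Finset.sum_subtype (Finset.univ.filter (· ∈ H)) (by simp)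
          (fun k => Nat.card (MulAction.fixedBy Ω k))
    rw [Finset.sum_congr rfl fun γ _ => e2 γ, Finset.sum_const, Finset.card_univ, smul_eq_mul,
      Nat.card_eq_fintype_card]
  have hH : ∑ h : H, Nat.card (MulAction.fixedBy Ω (h : G))
      = Nat.card (MulAction.orbitRel.Quotient H Ω) * Nat.card H := burnside_nat H Ω
  have hfinal : 2 * Nat.card G
      = Nat.card (G ⧸ H) * (Nat.card (MulAction.orbitRel.Quotient H Ω) * Nat.card H) := by
    rw [← hsq, ← hH, ← hmix]
    exact Finset.sum_congr rfl fun g _ => by rw [hfe g]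
  have hG : Nat.card G = Nat.card (G ⧸ H) * Nat.card H :=
    Subgroup.card_eq_card_quotient_mul_card_subgroup H
  have hlast : 2 * Nat.card G = Nat.card (MulAction.orbitRel.Quotient H Ω) * Nat.card G := by
    rw [hfinal, hG]
    ring
  exact (Nat.eq_of_mul_eq_mul_right hcardG hlast).symm

end Cfsg.Agent.S3704
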