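import Cfsg.Statements.S3707
import Cfsg.Agent.Lib.Helper26.JordanSet

set_option autoImplicit false
open Cfsg

namespace Cfsg.Agent.S3707

/-- Let G be a finite primitive permutation group on Ω of degree n and Γ ⊂ Ω a subset with 1 < #Γ ≤ n/2 such that the pointwise stabilizer of Ω ∖ Γ is transitive on Γ. Then G is 3-transitive on Ω. -/
theorem result {G Ω : Type*} [Group G] [Finite G] [MulAction G Ω] [FaithfulSMul G Ω] [Finite Ω] (hprim : MulAction.IsPreprimitive G Ω) (Γ : Set Ω) (h1 : 1 < Γ.ncard) (h2 : 2 * Γ.ncard ≤ Nat.card Ω) (htr : ∀ x ∈ Γ, ∀ y ∈ Γ, ∃ g : G, (∀ z ∉ Γ, g • z = z) ∧ g • x = y) : MulAction.IsMultiplyPretransitive G Ω 3 := by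
  classical
  have hJ : Cfsg.Agent.Lib.Helper26.JordanSet.IsJ G Γ := htr
  have hcompl := Set.ncard_add_ncard_compl Γ
  have hpre : MulAction.IsPretransitive (fixingSubgroup G Γᶜ)
      (SubMulAction.ofFixingSubgroup G Γᶜ) := by
    refine ⟨fun x y => ?_⟩
    have hx : (x : Ω) ∈ Γ := by
      have := x.2
      rw [SubMulAction.mem_ofFixingSubgroup_iff] at this
      simpa using this
    have hy : (y : Ω) ∈ Γ := by
      have := y.2
      rw [SubMulAction.mem_ofFixingSubgroup_iff] at this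
      simpa using this
    obtain ⟨g, hg, hgx⟩ := htr x hx y hy
    refine ⟨⟨g, ?_⟩, ?_⟩
    · rw [mem_fixingSubgroup_iff]; intro z hz; exact hg z hz
    · apply Subtype.ext; exact hgx
  have h2t : MulAction.IsMultiplyPretransitive G Ω 2 :=
    hprim.is_two_pretransitive (s := Γᶜ) (n := Γᶜ.ncard - 1) (by omega) (by omega) hpre
  have h2' : ∀ a b c d : Ω, a ≠ b → c ≠ d → ∃ g : G, g • a = c ∧ g • b = d :=
    fun a b c d hab hcd => MulAction.is_two_pretransitive_iff.mp h2t hab hcd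
  have key := Cfsg.Agent.Lib.Helper26.JordanSet.isJ_pair_compl h2' Γ hJ h1 h2
  have : MulAction.IsPretransitive G Ω := MulAction.isPretransitive_of_is_two_pretransitive
  have hΓne : Γ.Nonempty := by rw [← Set.ncard_pos]; omega
  obtain ⟨a, -⟩ := hΓne
  refine (SubMulAction.ofStabilizer.isMultiplyPretransitive (n := 2) (a := a)).mpr ?_
  rw [MulAction.is_two_pretransitive_iff]
  intro x y x' y' hxy hxy'
  have hxa : (x : Ω) ≠ a := (SubMulAction.mem_ofStabilizer_iff G a).mp x.2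
  have hya : (y : Ω) ≠ a := (SubMulAction.mem_ofStabilizer_iff G a).mp y.2
  have hx'a : (x' : Ω) ≠ a := (SubMulAction.mem_ofStabilizer_iff G a).mp x'.2
  have hy'a : (y' : Ω) ≠ a := (SubMulAction.mem_ofStabilizer_iff G a).mp y'.2
  obtain ⟨g1, hg1a, hg1x⟩ := h2' a (x : Ω) a (x' : Ω) hxa.symm hx'a.symm
  have hJ2 := key a (x' : Ω) hx'a.symm
  have hm1 : g1 • (y : Ω) ∈ ({a, (x' : Ω)}ᶜ : Set Ω) := by
    intro hmem
    rcases hmem with h | h
    · exact hya (MulAction.injective g1 (h.trans hg1a.symm))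
    · exact hxy (Subtype.ext (MulAction.injective g1 (hg1x.trans (Set.mem_singleton_iff.mp h).symm)))
  have hm2 : (y' : Ω) ∈ ({a, (x' : Ω)}ᶜ : Set Ω) := by
    intro hmem
    rcases hmem with h | h
    · exact hy'a h
    · exact hxy' (Subtype.ext (Set.mem_singleton_iff.mp h).symm)
  obtain ⟨g2, hg2, hg2y⟩ := hJ2 _ hm1 _ hm2
  have hg2a : g2 • a = a := hg2 a (fun h => h (Or.inl rfl))
  have hg2x : g2 • (x' : Ω) = x' := hg2 _ (fun h => h (Or.inr rfl))
  refine ⟨⟨g2 * g1, ?_⟩, ?_, ?_⟩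
  · rw [MulAction.mem_stabilizer_iff, mul_smul, hg1a, hg2a]
  · apply Subtype.ext
    show (g2 * g1) • (x : Ω) = x'
    rw [mul_smul, hg1x, hg2x]
  · apply Subtype.ext
    show (g2 * g1) • (y : Ω) = y'
    rw [mul_smul, hg2y]

end Cfsg.Agent.S3707
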