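import Cfsg.Statements.S3734
import Cfsg.Agent.Lib.Helper21.CoCyclic
import Cfsg.Agent.Lib.Helper21.SylowRel
import Cfsg.Agent.Lib.Helper1.Averaging

set_option autoImplicit false
open Cfsg

namespace Cfsg.Agent.S3734

open Cfsg.Agent.Lib.Helper21

/-- Let A and G be subgroups of a finite group with A abelian, A normalizing G and the orders of A and G coprime. Then G is generated by the fixed-point subgroups C_G(B) of those subgroups B of A for which A/B is cyclic (that is, A = ⟨B, a⟩ for some a), and [G, A] is generated by the commutator subgroups [C_G(B), A] over the same subgroups B. -/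
theorem result {X : Type*} [Group X] [Finite X] (A G : Subgroup X) (hAab : IsMulCommutative A) (hAG : A ≤ Subgroup.normalizer (G : Set X)) (hcop : (Nat.card A).Coprime (Nat.card G)) : (⨆ B ∈ {B : Subgroup X | B ≤ A ∧ ∃ a ∈ A, B ⊔ Subgroup.zpowers a = A}, G ⊓ Subgroup.centralizer (B : Set X)) = G ∧ (⨆ B ∈ {B : Subgroup X | B ≤ A ∧ ∃ a ∈ A, B ⊔ Subgroup.zpowers a = A}, ⁅G ⊓ Subgroup.centralizer (B : Set X), A⁆) = ⁅G, A⁆ := by
  haveI := hAab
  have h1 := cocyclic_generation A G hAG hcop
  refine ⟨h1, ?_⟩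
  obtain ⟨N, hN⟩ : ∃ N : Subgroup X, N = ⨆ B ∈ {B : Subgroup X | B ≤ A ∧
      ∃ a ∈ A, B ⊔ Subgroup.zpowers a = A}, ⁅G ⊓ Subgroup.centralizer (B : Set X), A⁆ :=
    ⟨_, rfl⟩
  rw [← hN]
  have hcomm : ∀ x ∈ A, ∀ y ∈ A, x * y = y * x := fun x hx y hy => setLike_mul_comm hx hy
  have hsolvA : Group.IsSolvable A := Cfsg.Agent.Lib.Helper1.isSolvable_of_isMulCommutative A
  have hAcA : A ≤ Subgroup.centralizer (A : Set X) := by
    intro a ha
    rw [Subgroup.mem_centralizer_iff]
    intro b hb
    exact hcomm b hb a ha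
  have hAGB : ∀ B : Subgroup X, B ≤ A → A ≤ Subgroup.normalizer
      ((G ⊓ Subgroup.centralizer (B : Set X) : Subgroup X) : Set X) := by
    intro B hBA
    apply le_normalizer_inf_of_le hAG
    refine le_trans ?_ Subgroup.le_normalizer
    intro a ha
    rw [Subgroup.mem_centralizer_iff]
    intro b hb
    exact hcomm b (hBA hb) a ha
  -- an element normalizing each generator normalizes N
  have hnormN : ∀ c : X, (∀ B : Subgroup X, B ≤ A →
      (G ⊓ Subgroup.centralizer (B : Set X)).map (MulAut.conj c).toMonoidHom =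
        G ⊓ Subgroup.centralizer (B : Set X)) → A.map (MulAut.conj c).toMonoidHom = A →
      c ∈ Subgroup.normalizer (N : Set X) := by
    intro c hc1 hc2
    rw [mem_normalizer_iff_map, hN]
    simp only [Subgroup.map_iSup]
    apply iSup_congr
    intro B
    apply iSup_congr
    intro hB
    rw [Subgroup.map_commutator, hc1 B hB.1, hc2]
  apply le_antisymm
  · rw [hN]
    exact iSup₂_le fun B _ => Subgroup.commutator_mono inf_le_left le_rfl
  · obtain ⟨C, hC⟩ : ∃ C : Subgroup X, C = G ⊓ Subgroup.centralizer (A : Set X) := ⟨_, rfl⟩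
    have hG_le : G ≤ C ⊔ N := by
      have h3 : (⨆ B ∈ {B : Subgroup X | B ≤ A ∧ ∃ a ∈ A, B ⊔ Subgroup.zpowers a = A},
          G ⊓ Subgroup.centralizer (B : Set X)) ≤ C ⊔ N := by
        apply iSup₂_le
        intro B hB
        have h2 := Cfsg.Agent.Lib.Helper1.coprime_commutator_sup A
          (G ⊓ Subgroup.centralizer (B : Set X)) (hAGB B hB.1)
          (hcop.coprime_dvd_right (Subgroup.card_dvd_of_le inf_le_left)) (Or.inl hsolvA)
        rw [← h2, sup_comm]
        apply sup_le_sup
        · rw [hC]; exact inf_le_inf_right _ inf_le_left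
        · rw [hN]
          exact le_biSup (fun B : Subgroup X => ⁅G ⊓ Subgroup.centralizer (B : Set X), A⁆) hB
      rwa [h1] at h3
    have hCN : C ≤ Subgroup.normalizer (N : Set X) := by
      intro c hc
      rw [hC] at hc
      apply hnormN c
      · intro B hBA
        apply map_conj_of_mem
        refine Subgroup.mem_inf.mpr ⟨hc.1, ?_⟩
        exact Subgroup.centralizer_le (show (B : Set X) ⊆ (A : Set X) from hBA) hc.2
      · exact (mem_normalizer_iff_map A c).mp (Subgroup.centralizer_le_normalizer _ hc.2)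
    have hAN : A ≤ Subgroup.normalizer (N : Set X) := by
      intro a ha
      apply hnormN a
      · intro B hBA
        exact (mem_normalizer_iff_map _ a).mp (hAGB B hBA ha)
      · exact map_conj_of_mem ha
    rw [Subgroup.commutator_le]
    intro g hg a ha
    obtain ⟨c, hc, n, hn, rfl⟩ := (mem_sup_of_le_normalizer hCN).mp (hG_le hg)
    rw [hC] at hc
    have hca : a * c = c * a := Subgroup.mem_centralizer_iff.mp hc.2 a ha
    have h4 : a * n⁻¹ * a⁻¹ ∈ N :=
      (Subgroup.mem_normalizer_iff.mp (hAN ha) n⁻¹).mp (N.inv_mem hn)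
    have h5 : a⁻¹ * c⁻¹ = c⁻¹ * a⁻¹ := by
      rw [← mul_inv_rev, ← mul_inv_rev, hca]
    rw [commutatorElement_def]
    have h6 : c * n * a * (c * n)⁻¹ * a⁻¹ = c * (n * (a * n⁻¹ * a⁻¹)) * c⁻¹ := by
      have e1 : c * n * a * (c * n)⁻¹ * a⁻¹ = c * n * a * n⁻¹ * (c⁻¹ * a⁻¹) := by group
      rw [e1, ← h5]
      group
    rw [h6]
    exact (Subgroup.mem_normalizer_iff.mp (hCN (hC ▸ hc)) _).mp (N.mul_mem hn h4)

end Cfsg.Agent.S3734
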