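import Cfsg.Statements.S3735
import Cfsg.Agent.Lib.Helper21.SylowRel

set_option autoImplicit false
open Cfsg

namespace Cfsg.Agent.S3735

open Cfsg.Agent.Lib.Helper21

/-- `S` is an irreducible `A`-invariant subgroup of `V`. -/
def Irr {G : Type*} [Group G] (A V S : Subgroup G) : Prop :=
  S ≤ V ∧ S ≠ ⊥ ∧ A ≤ Subgroup.normalizer (S : Set G) ∧
    ∀ T : Subgroup G, T ≤ S → A ≤ Subgroup.normalizer (T : Set G) → T = ⊥ ∨ T = S

theorem Irr.conj {G : Type*} [Group G] {A V S : Subgroup G} (h : Irr A V S) {g : G}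
    (hgV : g ∈ Subgroup.normalizer (V : Set G)) (hgA : g ∈ Subgroup.normalizer (A : Set G)) :
    Irr A V (S.map (MulAut.conj g).toMonoidHom) := by
  obtain ⟨h1, h2, h3, h4⟩ := h
  have hgA' : g⁻¹ ∈ Subgroup.normalizer (A : Set G) := Subgroup.inv_mem _ hgA
  refine ⟨?_, ?_, ?_, ?_⟩
  · rw [← (mem_normalizer_iff_map V g).mp hgV]; exact Subgroup.map_mono h1
  · intro hbot
    exact h2 ((Subgroup.map_eq_bot_iff_of_injective _ (MulAut.conj g).injective).mp hbot)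
  · have h5 := le_normalizer_map_conj h3 g
    rwa [(mem_normalizer_iff_map A g).mp hgA] at h5
  · intro T hT hAT
    have hT' : T.map (MulAut.conj g⁻¹).toMonoidHom ≤ S := by
      rw [map_conj_le_iff, inv_inv]; exact hT
    have hAT' : A ≤ Subgroup.normalizer
        ((T.map (MulAut.conj g⁻¹).toMonoidHom : Subgroup G) : Set G) := by
      have h5 := le_normalizer_map_conj hAT g⁻¹
      rwa [(mem_normalizer_iff_map A g⁻¹).mp hgA'] at h5
    rcases h4 _ hT' hAT' with h | h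
    · left
      exact (Subgroup.map_eq_bot_iff_of_injective _ (MulAut.conj g⁻¹).injective).mp h
    · right
      rw [← h, map_conj_inv_map_conj]

theorem exists_irr_le {G : Type*} [Group G] [Finite G] {A V W : Subgroup G} (hWV : W ≤ V)
    (hW1 : W ≠ ⊥) (hAW : A ≤ Subgroup.normalizer (W : Set G)) : ∃ S, Irr A V S ∧ S ≤ W := by
  let 𝒯 : Set (Subgroup G) := {T | T ≤ W ∧ T ≠ ⊥ ∧ A ≤ Subgroup.normalizer (T : Set G)}
  obtain ⟨S, ⟨hSW, hS1, hAS⟩, hmin⟩ :=
    (wellFounded_lt (α := Subgroup G)).has_min 𝒯 ⟨W, le_rfl, hW1, hAW⟩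
  refine ⟨S, ⟨hSW.trans hWV, hS1, hAS, ?_⟩, hSW⟩
  intro T hTS hAT
  by_cases hT1 : T = ⊥
  · exact Or.inl hT1
  · right
    by_contra hne
    exact hmin T ⟨hTS.trans hSW, hT1, hAT⟩ (lt_of_le_of_ne hTS hne)

/-- Clifford's Theorem for actions on finite abelian groups, first part. Let H and V be subgroups of a finite group with V abelian and H normalizing V, and let A be a normal subgroup of H. If every H-invariant subgroup of V has an H-invariant complement in V, then every A-invariant subgroup of V has an A-invariant complement in V. -/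
theorem result {G : Type*} [Group G] [Finite G] (H A V : Subgroup G) (hVab : IsMulCommutative V) (hHV : H ≤ Subgroup.normalizer (V : Set G)) (hAH : A ≤ H) (hAn : H ≤ Subgroup.normalizer (A : Set G)) (hss : ∀ U : Subgroup G, U ≤ V → H ≤ Subgroup.normalizer (U : Set G) → ∃ W : Subgroup G, W ≤ V ∧ H ≤ Subgroup.normalizer (W : Set G) ∧ U ⊓ W = ⊥ ∧ U ⊔ W = V) (U : Subgroup G) (hUV : U ≤ V) (hAU : A ≤ Subgroup.normalizer (U : Set G)) : ∃ W : Subgroup G, W ≤ V ∧ A ≤ Subgroup.normalizer (W : Set G) ∧ U ⊓ W = ⊥ ∧ U ⊔ W = V := by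
  classical
  have hcomm : ∀ x ∈ V, ∀ y ∈ V, x * y = y * x := fun x hx y hy =>
    congrArg Subtype.val (hVab.is_comm.comm ⟨x, hx⟩ ⟨y, hy⟩)
  have hSocV : sSup {S | Irr A V S} ≤ V := sSup_le fun S hS => hS.1
  have hHSoc : H ≤ Subgroup.normalizer ((sSup {S | Irr A V S} : Subgroup G) : Set G) := by
    apply le_normalizer_of_forall_map_conj_le
    intro h hh
    rw [(Subgroup.gc_map_comap (MulAut.conj h).toMonoidHom).l_sSup]
    refine iSup₂_le ?_
    intro S hS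
    exact le_sSup (hS.conj (hHV hh) (hAn hh))
  obtain ⟨W, hWV, hHW, hinf, hsup⟩ := hss _ hSocV hHSoc
  have hW1 : W = ⊥ := by
    by_contra hW1
    obtain ⟨S, hS, hSW⟩ := exists_irr_le hWV hW1 (hAH.trans hHW)
    have h1 : S ≤ sSup {S | Irr A V S} ⊓ W := le_inf (le_sSup hS) hSW
    rw [hinf] at h1
    exact hS.2.1 (le_bot_iff.mp h1)
  have hSocEq : sSup {S | Irr A V S} = V := by
    have h1 := hsup
    rw [hW1, sup_bot_eq] at h1
    exact h1
  let 𝒲 : Set (Subgroup G) := {W | W ≤ V ∧ A ≤ Subgroup.normalizer (W : Set G) ∧ U ⊓ W = ⊥}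
  have hbot : (⊥ : Subgroup G) ∈ 𝒲 := by
    refine ⟨bot_le, ?_, inf_bot_eq U⟩
    intro a _
    rw [Subgroup.mem_normalizer_iff]
    intro h
    simp
  obtain ⟨W₀, ⟨hW₀V, hAW₀, hUW₀⟩, hmax⟩ :=
    (wellFounded_gt (α := Subgroup G)).has_min 𝒲 ⟨⊥, hbot⟩
  refine ⟨W₀, hW₀V, hAW₀, hUW₀, ?_⟩
  by_contra hne
  have hex : ∃ S, Irr A V S ∧ ¬ S ≤ U ⊔ W₀ := by
    by_contra hcon
    push Not at hcon
    have h1 : sSup {S | Irr A V S} ≤ U ⊔ W₀ := sSup_le fun S hS => hcon S hS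
    rw [hSocEq] at h1
    exact hne (le_antisymm (sup_le hUV hW₀V) h1)
  obtain ⟨S, hS, hSnot⟩ := hex
  obtain ⟨hSV, hS1, hAS, hSmin⟩ := hS
  have hAUW : A ≤ Subgroup.normalizer ((U ⊔ W₀ : Subgroup G) : Set G) :=
    (le_inf hAU hAW₀).trans (Subgroup.normalizer_inf_normalizer_le_normalizer_sup U W₀)
  have hSinf : S ⊓ (U ⊔ W₀) = ⊥ := by
    rcases hSmin (S ⊓ (U ⊔ W₀)) inf_le_left
      ((le_inf hAS hAUW).trans Subgroup.inf_normalizer_le_normalizer_inf) with h | h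
    · exact h
    · exact absurd (inf_eq_left.mp h) hSnot
  have hWS : W₀ ≤ Subgroup.normalizer (S : Set G) := by
    apply le_normalizer_of_forall_map_conj_le
    rintro w hw _ ⟨t, ht, rfl⟩
    show w * t * w⁻¹ ∈ S
    have h1 : w * t * w⁻¹ = t := by
      rw [hcomm w (hW₀V hw) t (hSV ht)]; group
    rw [h1]; exact ht
  have hW' : W₀ ⊔ S ∈ 𝒲 := by
    refine ⟨sup_le hW₀V hSV,
      (le_inf hAW₀ hAS).trans (Subgroup.normalizer_inf_normalizer_le_normalizer_sup W₀ S), ?_⟩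
    rw [eq_bot_iff]
    rintro x ⟨hxU, hxWS⟩
    obtain ⟨w, hw, s, hs, rfl⟩ := (mem_sup_of_le_normalizer hWS).mp hxWS
    have hsUW : s ∈ U ⊔ W₀ := by
      have h1 : s = w⁻¹ * (w * s) := by group
      rw [h1]
      exact Subgroup.mul_mem _ (Subgroup.mem_sup_right (W₀.inv_mem hw)) (Subgroup.mem_sup_left hxU)
    have hs1 : s = 1 := by
      have h1 : s ∈ S ⊓ (U ⊔ W₀) := ⟨hs, hsUW⟩
      rw [hSinf] at h1; exact Subgroup.mem_bot.mp h1
    rw [hs1, mul_one] at hxU ⊢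
    have h1 : w ∈ U ⊓ W₀ := ⟨hxU, hw⟩
    rw [hUW₀] at h1; exact h1
  have hlt' : W₀ < W₀ ⊔ S :=
    lt_of_le_of_ne le_sup_left
      (fun h => hSnot ((h ▸ le_sup_right : S ≤ W₀).trans le_sup_right))
  exact hmax _ hW' hlt'

end Cfsg.Agent.S3735
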