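import Cfsg.Statements.S3736
import Mathlib
import Cfsg.Agent.Lib.Helper21.CoprimeP
import Cfsg.Agent.Lib.Helper21.NormMap
import Cfsg.Agent.Lib.Helper1.Averaging

set_option autoImplicit false
open Cfsg

namespace Cfsg.Agent.S3736

open Cfsg.Agent.Lib.Helper21

open scoped commutatorElement

/-- The Hall–Higman reduction for a minimal non-trivial action. Let B, A and P be subgroups of a finite group with P a p-group, B normalizing P, and A a normal subgroup of B of order prime to p. Suppose A does not centralize P but centralizes every proper B-invariant subgroup of P. Then [P, A] = P; P is elementary abelian or special; B acts irreducibly on P/Φ(P), that is, the only B-invariant subgroups of P containing Φ(P) are Φ(P) and P; and if p is odd then every element of P has order dividing p. -/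
theorem result {X : Type*} [Group X] [Finite X] {p : ℕ} [Fact p.Prime] (B A P : Subgroup X) (hP : IsPGroup p P) (hBP : B ≤ Subgroup.normalizer (P : Set X)) (hAB : A ≤ B) (hAn : B ≤ Subgroup.normalizer (A : Set X)) (hAp : (Nat.card A).Coprime p) (hnt : ⁅P, A⁆ ≠ ⊥) (hmin : ∀ U : Subgroup X, U < P → B ≤ Subgroup.normalizer (U : Set X) → ⁅U, A⁆ = ⊥) : ⁅P, A⁆ = P ∧ (Cfsg.IsElementaryAbelian p P ∨ Cfsg.IsSpecial p ↥P) ∧ (∀ U : Subgroup X, (frattini ↥P).map P.subtype ≤ U → U ≤ P → B ≤ Subgroup.normalizer (U : Set X) → U = (frattini ↥P).map P.subtype ∨ U = P) ∧ (p ≠ 2 → ∀ x ∈ P, x ^ p = 1) := by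
  classical
  have hp : p.Prime := Fact.out
  obtain ⟨ha, hb, hΦlt, hc1, hc2, hd⟩ := minimal_core B A P hP hBP hAB hAn hAp hnt hmin
  have hAP : A ≤ Subgroup.normalizer (P : Set X) := hAB.trans hBP
  have hS := Cfsg.Agent.S0012.result (G := ↥P) p hP
  have hcommΦ : ∀ x ∈ P, ∀ y ∈ P, y * x * y⁻¹ * x⁻¹ ∈ (frattini ↥P).map P.subtype := by
    intro x hx y hy
    have h1 : ⁅(⟨y, hy⟩ : ↥P), ⟨x, hx⟩⁆ ∈ commutator ↥P := by
      rw [commutator_def]
      exact Subgroup.commutator_mem_commutator (Subgroup.mem_top _) (Subgroup.mem_top _)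
    exact ⟨_, hS.1 h1, rfl⟩
  have hPne : P ≠ ⊥ := by
    rintro rfl
    exact hnt (le_bot_iff.mp (Cfsg.Agent.Lib.Helper1.commutator_le_of_le_normalizer hAP))
  -- part 4
  have h4 : p ≠ 2 → ∀ x ∈ P, x ^ p = 1 := by
    intro hp2 x hx
    have hdvd : p ∣ p * (p - 1) / 2 := by
      rcases hp.eq_two_or_odd' with h | ⟨t, ht⟩
      · exact absurd h hp2
      · have h2 : 2 ∣ p - 1 := ⟨t, by omega⟩
        rw [Nat.mul_div_assoc p h2]
        exact dvd_mul_right p _
    exact hd p dvd_rfl hdvd x hx
  by_cases hab : ∀ x ∈ P, ∀ y ∈ P, x * y = y * x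
  · -- abelian case
    haveI hPc : IsMulCommutative P := ⟨⟨fun x y => Subtype.ext (hab x x.2 y y.2)⟩⟩
    obtain ⟨k, hk⟩ := IsPGroup.iff_card.mp hP
    have hcop : (Nat.card A).Coprime (Nat.card P) := by
      rw [hk]; exact Nat.Coprime.pow_right k hAp
    have hfix : P ⊓ Subgroup.centralizer (A : Set X) = ⊥ := by
      have h1 := Cfsg.Agent.Lib.Helper1.coprime_abelian_inf_commutator A P hAP hcop
      rw [ha] at h1
      rw [← h1]
      exact (inf_eq_left.mpr inf_le_left).symm
    have hprop : ∀ U : Subgroup X, U < P → B ≤ Subgroup.normalizer (U : Set X) → U = ⊥ := by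
      intro U hU hBU
      have h1 := hmin U hU hBU
      have h2 := Subgroup.commutator_eq_bot_iff_le_centralizer.mp h1
      exact le_bot_iff.mp (hfix ▸ le_inf hU.le h2)
    refine ⟨ha, Or.inl ⟨hPc, ?_⟩, ?_, h4⟩
    · obtain ⟨T, hT⟩ := Cfsg.Agent.Lib.Helper1.exists_torsion_subgroup P hab p
      have hTP : T ≤ P := fun x hx => ((hT x).mp hx).1
      have hBT : B ≤ Subgroup.normalizer (T : Set X) := by
        apply le_normalizer_of_forall_map_conj_le
        rintro b hb' _ ⟨x, hx, rfl⟩
        obtain ⟨hxP, hxp⟩ := (hT x).mp hx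
        apply (hT _).mpr
        refine ⟨conj_mem_of_mem_normalizer (hBP hb') hxP, ?_⟩
        show (b * x * b⁻¹) ^ p = 1
        rw [conj_pow, hxp]; group
      have hTeq : T = P := by
        by_contra hne
        have hTbot := hprop T (lt_of_le_of_ne hTP hne) hBT
        haveI : Nontrivial ↥P := (Subgroup.nontrivial_iff_ne_bot P).mpr hPne
        have hdvd : p ∣ Nat.card ↥P := by
          rcases k with _ | k
          · rw [pow_zero] at hk
            exact absurd (Subgroup.eq_bot_of_card_eq P hk) hPne
          · rw [hk, pow_succ]; exact dvd_mul_left p _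
        obtain ⟨x, hx⟩ := exists_prime_orderOf_dvd_card' p hdvd
        have hxT : (x : X) ∈ T := by
          apply (hT _).mpr
          refine ⟨x.2, ?_⟩
          have h1 := pow_orderOf_eq_one x
          rw [hx] at h1
          have h2 := congrArg Subtype.val h1
          simpa using h2
        rw [hTbot, Subgroup.mem_bot] at hxT
        have hx1 : x = 1 := Subtype.ext hxT
        rw [hx1, orderOf_one] at hx
        exact hp.one_lt.ne hx
      intro a haP
      exact ((hT a).mp (hTeq ▸ haP)).2
    · intro U hΦU hUP hBU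
      by_cases hUeq : U = P
      · exact Or.inr hUeq
      · left
        have hUbot := hprop U (lt_of_le_of_ne hUP hUeq) hBU
        rw [hUbot] at hΦU ⊢
        exact (le_bot_iff.mp hΦU).symm
  · -- nonabelian case
    have hZlt : (Subgroup.center ↥P).map P.subtype < P := by
      refine lt_of_le_of_ne (Subgroup.map_subtype_le _) ?_
      intro heq
      apply hab
      intro x hx y hy
      have hx' : x ∈ (Subgroup.center ↥P).map P.subtype := by rw [heq]; exact hx
      obtain ⟨z, hz, hzx⟩ := hx'
      have h1 := (Subgroup.mem_center_iff.mp hz) ⟨y, hy⟩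
      have h2 := congrArg Subtype.val h1
      have hzx' : (z : X) = x := hzx
      rw [← hzx']
      exact h2.symm
    have hBZ : B ≤ Subgroup.normalizer (((Subgroup.center ↥P).map P.subtype : Subgroup X) : Set X) :=
      hBP.trans (Cfsg.Agent.Lib.Helper1.normalizer_le_normalizer_map_of_characteristic (Subgroup.center ↥P))
    have hZA := Subgroup.commutator_eq_bot_iff_le_centralizer.mp (hmin _ hZlt hBZ)
    have hZcomm : (Subgroup.center ↥P).map P.subtype ≤ ⁅P, P⁆ :=
      (le_inf hZlt.le hZA).trans (centralizer_le_commutator_of_commutator_eq A P hP hAP hAp ha)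
    have hcenter_le : Subgroup.center ↥P ≤ commutator ↥P := by
      rw [← Subgroup.map_subtype_commutator] at hZcomm
      exact (Subgroup.map_le_map_iff_of_injective P.subtype_injective).mp hZcomm
    have hfrat_le : frattini ↥P ≤ Subgroup.center ↥P := by
      intro f hf
      rw [Subgroup.mem_center_iff]
      intro g
      apply Subtype.ext
      have h1 := hc1 (f : X) ⟨f, hf, rfl⟩ (g : X) g.2
      exact h1.symm
    have hfc : frattini ↥P = Subgroup.center ↥P :=
      le_antisymm hfrat_le (hcenter_le.trans hS.1)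
    have hcc : commutator ↥P = Subgroup.center ↥P :=
      le_antisymm (hS.1.trans hfrat_le) hcenter_le
    refine ⟨ha, Or.inr ⟨hP, hfc, hcc⟩, ?_, h4⟩
    intro U hΦU hUP hBU
    by_cases hUeq : U = P
    · exact Or.inr hUeq
    · left
      have hUlt : U < P := lt_of_le_of_ne hUP hUeq
      have hPU : P ≤ Subgroup.normalizer (U : Set X) := by
        apply le_normalizer_of_forall_map_conj_le
        rintro x hx _ ⟨u, hu, rfl⟩
        show x * u * x⁻¹ ∈ U
        have h1 : x * u * x⁻¹ * u⁻¹ ∈ U := hΦU (hcommΦ u (hUP hu) x hx)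
        have e : x * u * x⁻¹ = (x * u * x⁻¹ * u⁻¹) * u := by group
        rw [e]
        exact U.mul_mem h1 hu
      have hUc := hb U hUlt hPU hBU
      apply le_antisymm _ hΦU
      intro u hu
      rw [hfc]
      have hmem : (⟨u, hUP hu⟩ : ↥P) ∈ Subgroup.center ↥P := by
        rw [Subgroup.mem_center_iff]
        intro g
        apply Subtype.ext
        exact (hUc u hu (g : X) g.2).symm
      exact ⟨_, hmem, rfl⟩

end Cfsg.Agent.S3736
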