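import Cfsg.Statements.S3737
import Cfsg.Agent.Lib.Helper21.Baer
import Cfsg.Agent.Lib.Helper21.CoprimeP

set_option autoImplicit false
open Cfsg

namespace Cfsg.Agent.S3737

open Cfsg.Agent.Lib.Helper21
open scoped commutatorElement

/-- Thompson's strengthening of the P × Q lemma for odd primes. Let p be an odd prime and let P, Q and G be subgroups of a finite group with P a p-group, Q of order prime to p and normalized by P, and G a p-group normalized by both P and Q. If every element of G centralized by P is centralized by Q, then Q centralizes G. -/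
theorem result {X : Type*} [Group X] [Finite X] {p : ℕ} [Fact p.Prime] (hp : p ≠ 2) (P Q G : Subgroup X) (hP : IsPGroup p P) (hQ : (Nat.card Q).Coprime p) (hPQ : P ≤ Subgroup.normalizer (Q : Set X)) (hG : IsPGroup p G) (hPG : P ≤ Subgroup.normalizer (G : Set X)) (hQG : Q ≤ Subgroup.normalizer (G : Set X)) (hC : G ⊓ Subgroup.centralizer (P : Set X) ≤ Subgroup.centralizer (Q : Set X)) : Q ≤ Subgroup.centralizer (G : Set X) := by
  classical
  by_contra hne
  have hpp : p.Prime := Fact.out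
  let 𝒮 : Set (Subgroup X) := {U | U ≤ G ∧ P ≤ Subgroup.normalizer (U : Set X) ∧
    Q ≤ Subgroup.normalizer (U : Set X) ∧ ¬ Q ≤ Subgroup.centralizer (U : Set X)}
  obtain ⟨G₀, hG₀⟩ := Set.Finite.exists_minimal (s := 𝒮) (Set.toFinite _)
    ⟨G, le_rfl, hPG, hQG, hne⟩
  obtain ⟨⟨hG₀G, hPG₀, hQG₀, hne₀⟩, hmin⟩ := hG₀
  have hG₀p : IsPGroup p G₀ := hG.to_le hG₀G
  have hnt : ⁅G₀, Q⁆ ≠ ⊥ := by
    intro h
    apply hne₀
    rw [Subgroup.commutator_eq_bot_iff_le_centralizer] at h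
    exact Subgroup.le_centralizer_iff.mp h
  have hB : P ⊔ Q ≤ Subgroup.normalizer (G₀ : Set X) := sup_le hPG₀ hQG₀
  have hmin' : ∀ U : Subgroup X, U < G₀ → P ⊔ Q ≤ Subgroup.normalizer (U : Set X) →
      ⁅U, Q⁆ = ⊥ := by
    intro U hU hBU
    by_contra hUQ
    have hUS : U ∈ 𝒮 := ⟨hU.le.trans hG₀G, le_sup_left.trans hBU, le_sup_right.trans hBU,
      fun h => hUQ (Subgroup.commutator_eq_bot_iff_le_centralizer.mpr
        (Subgroup.le_centralizer_iff.mp h))⟩
    exact hU.not_ge (hmin hUS hU.le)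
  obtain ⟨-, -, -, hΦc, -, hexp⟩ := minimal_core (P ⊔ Q) Q G₀ hG₀p hB le_sup_right
    (sup_le hPQ Subgroup.le_normalizer) hQ hnt hmin'
  have hS12 := Cfsg.Agent.S0012.result (G := ↥G₀) p hG₀p
  have hcl : ∀ x ∈ G₀, ∀ y ∈ G₀, ∀ g ∈ G₀,
      g * (y⁻¹ * x⁻¹ * y * x) = y⁻¹ * x⁻¹ * y * x * g := by
    intro x hx y hy g hg
    have h1 : ⁅(⟨y, hy⟩ : ↥G₀)⁻¹, (⟨x, hx⟩ : ↥G₀)⁻¹⁆ ∈ commutator ↥G₀ := by
      rw [commutator_def]
      exact Subgroup.commutator_mem_commutator (Subgroup.mem_top _) (Subgroup.mem_top _)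
    have h2 : y⁻¹ * x⁻¹ * y * x ∈ (frattini ↥G₀).map G₀.subtype :=
      ⟨_, hS12.1 h1, by simp [commutatorElement_def]⟩
    exact (hΦc _ h2 g hg).symm
  obtain ⟨m, hm⟩ : ∃ m, p = 2 * m + 1 := by
    rcases hpp.eq_two_or_odd with h | h
    · exact absurd h hp
    · exact ⟨p / 2, by omega⟩
  have hexp' : ∀ x ∈ G₀, x ^ p = 1 := by
    apply hexp p (dvd_refl p)
    have e1 : p * (p - 1) = 2 * (p * m) := by
      have : p - 1 = 2 * m := by omega
      rw [this]; ring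
    rw [e1, Nat.mul_div_cancel_left _ (by norm_num : 0 < 2)]
    exact Dvd.intro _ rfl
  exact hne₀ (class_two_PQ hp P Q G₀ hP hQ hPQ hG₀p hPG₀ hQG₀ hcl hexp'
    (le_trans (inf_le_inf_right _ hG₀G) hC))

end Cfsg.Agent.S3737
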