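import Cfsg.Statements.S3738
import Cfsg.Agent.Lib.Helper21.Rank3c

set_option autoImplicit false
open Cfsg

namespace Cfsg.Agent.S3738

/-- Let d be a non-identity 3-element of a finite group and P a 2-subgroup normalized by d on which ⟨d⟩ acts faithfully (no non-identity power of d centralizes P) and without non-identity fixed points (C_P(d) = 1). If every abelian subgroup of P has 2-rank at most 2, then d has order 3. -/
theorem result {X : Type*} [Group X] [Finite X] (d : X) (n : ℕ) (hn : 1 ≤ n) (hd : orderOf d = 3 ^ n) (P : Subgroup X) (hP : IsPGroup 2 P) (hdP : d ∈ Subgroup.normalizer (P : Set X)) (hfaith : Subgroup.zpowers d ⊓ Subgroup.centralizer (P : Set X) = ⊥) (hfpf : P ⊓ Subgroup.centralizer {d} = ⊥) (hrank : ∀ V : Subgroup X, V ≤ P → IsMulCommutative V → Cfsg.PRankLE 2 2 V) : orderOf d = 3 := by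
  by_contra hne
  have hn2 : 2 ≤ n := by
    by_contra hlt
    have h1 : n = 1 := by omega
    rw [h1, pow_one] at hd
    exact hne hd
  have hrank' : ∀ E : Subgroup X, E ≤ P → IsMulCommutative E → (∀ a ∈ E, a ^ 2 = 1) →
      Nat.card E ≤ 4 := by
    intro E hEP hEc hE2
    have h := hrank E hEP hEc ⊤ ⟨⟨fun a b => Subtype.ext (hEc.is_comm.comm a.1 b.1)⟩⟩
      (fun a _ => Subtype.ext (hE2 a a.2))
    rw [Subgroup.card_top] at h
    norm_num at h
    exact h
  have hcore := Cfsg.Agent.Lib.Helper21.r3_core P hP hrank' d n hn2 hd hdP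
  obtain ⟨t, ht⟩ : ∃ t : X, t = d ^ (3 ^ (n - 1)) := ⟨_, rfl⟩
  rw [← ht] at hcore
  have ht1 : t ≠ 1 := by
    intro h
    rw [ht] at h
    have h1 := orderOf_dvd_of_pow_eq_one h
    rw [hd] at h1
    have h2 := Nat.le_of_dvd (by positivity) h1
    have h3 : 3 ^ (n - 1) < 3 ^ n := Nat.pow_lt_pow_right (by norm_num) (by omega)
    omega
  have hmem : t ∈ Subgroup.zpowers d ⊓ Subgroup.centralizer (P : Set X) := by
    refine Subgroup.mem_inf.mpr ⟨?_, ?_⟩
    · rw [ht]; exact Subgroup.pow_mem _ (Subgroup.mem_zpowers d) _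
    · rw [Subgroup.mem_centralizer_iff]
      intro x hx
      exact (hcore x hx).symm
  rw [hfaith] at hmem
  exact ht1 (Subgroup.mem_bot.mp hmem)

end Cfsg.Agent.S3738
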