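import Cfsg.Statements.S3739
import Cfsg.Agent.Lib.Helper21.Rank3c
import Cfsg.Agent.Lib.Helper21.AbSub
import Cfsg.Agent.Lib.Helper21.PGroup
import Cfsg.Agent.Lib.Helper1.Cores

set_option autoImplicit false
open Cfsg

namespace Cfsg.Agent.S3739

/-- Let G be a finite group with C_G(O₂(G)) ≤ O₂(G) containing an element of order 6, and let d be a non-identity 3-element of G normalizing a nontrivial elementary abelian 2-subgroup W with C_W(d) = 1. Then G has an elementary abelian subgroup of order 8. -/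
theorem result {G : Type*} [Group G] [Finite G] (hchar : Subgroup.centralizer (Cfsg.pCore 2 G : Set G) ≤ Cfsg.pCore 2 G) (hsix : ∃ g : G, orderOf g = 6) (d : G) (hd1 : d ≠ 1) (hd : IsPGroup 3 ↥(Subgroup.zpowers d)) (W : Subgroup G) (hW : Cfsg.IsElementaryAbelian 2 W) (hW1 : W ≠ ⊥) (hdW : d ∈ Subgroup.normalizer (W : Set G)) (hfpf : W ⊓ Subgroup.centralizer {d} = ⊥) : ∃ E : Subgroup G, Cfsg.IsElementaryAbelian 2 E ∧ Nat.card E = 8 := by
  classical
  by_contra hno
  have hR : ∀ E : Subgroup G, IsMulCommutative E → (∀ a ∈ E, a ^ 2 = 1) → Nat.card E ≤ 4 := by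
    intro E hEc hE2
    by_contra hlt
    push Not at hlt
    have hEp : IsPGroup 2 ↥E := fun g => ⟨1, Subtype.ext (by simpa using hE2 g g.2)⟩
    obtain ⟨k, hk⟩ := IsPGroup.iff_card.mp hEp
    have hk3 : 3 ≤ k := by
      by_contra hk3
      push Not at hk3
      have : 2 ^ k ≤ 2 ^ 2 := Nat.pow_le_pow_right (by norm_num) (by omega)
      omega
    obtain ⟨K, hK⟩ := Sylow.exists_subgroup_card_pow_prime 2 (n := 3) (G := ↥E)
      (by rw [hk]; exact pow_dvd_pow 2 hk3)
    apply hno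
    refine ⟨K.map E.subtype, ⟨⟨⟨fun a b => ?_⟩⟩, ?_⟩, ?_⟩
    · apply Subtype.ext
      have ha : (a : G) ∈ E := Subgroup.map_subtype_le K a.2
      have hb : (b : G) ∈ E := Subgroup.map_subtype_le K b.2
      have h := hEc.is_comm.comm ⟨a, ha⟩ ⟨b, hb⟩
      have h' : (a : G) * (b : G) = (b : G) * (a : G) := congrArg Subtype.val h
      exact h'
    · intro a ha
      exact hE2 a (Subgroup.map_subtype_le K ha)
    · rw [Subgroup.card_map_of_injective (Subgroup.subtype_injective E), hK]; norm_num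
  have hcard2 : ∀ E : Subgroup G, IsMulCommutative E → (∀ a ∈ E, a ^ 2 = 1) →
      Nat.card E = 1 ∨ Nat.card E = 2 ∨ Nat.card E = 4 := by
    intro E hEc hE2
    have hEp : IsPGroup 2 ↥E := fun g => ⟨1, Subtype.ext (by simpa using hE2 g g.2)⟩
    obtain ⟨k, hk⟩ := IsPGroup.iff_card.mp hEp
    have h4 := hR E hEc hE2
    rw [hk] at h4 ⊢
    have hk2 : k ≤ 2 := by
      by_contra hlt
      push Not at hlt
      have : 2 ^ 3 ≤ 2 ^ k := Nat.pow_le_pow_right (by norm_num) hlt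
      omega
    interval_cases k <;> simp
  obtain ⟨Q, hQdef⟩ : ∃ Q : Subgroup G, Q = Cfsg.pCore 2 G := ⟨_, rfl⟩
  rw [← hQdef] at hchar
  have hQn : Q.Normal := by rw [hQdef]; exact Cfsg.Agent.Lib.Helper1.pCore_normal (G := G) 2
  have hQ2 : IsPGroup 2 Q := by
    rw [hQdef]; exact Cfsg.Agent.Lib.Helper1.pCore_isPGroup (G := G) 2
  have hQconj : ∀ g : G, ∀ x ∈ Q, g * x * g⁻¹ ∈ Q := fun g x hx => hQn.conj_mem x hx g
  have hQnorm : ∀ g : G, g ∈ Subgroup.normalizer (Q : Set G) := by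
    intro g
    exact Cfsg.Agent.Lib.Helper21.r3_mem_normalizer_of_conj Q g (hQconj g) (fun x hx => by
      have := hQconj g⁻¹ x hx; rwa [inv_inv] at this)
  have h23 : ∀ u ∈ Q, u ^ 3 = 1 → u = 1 := by
    intro u hu hu3
    obtain ⟨k, hk⟩ := hQ2 ⟨u, hu⟩
    have hk' : u ^ (2 ^ k) = 1 := by
      have := congrArg Subtype.val hk
      simpa using this
    have hd1' : orderOf u ∣ 3 := orderOf_dvd_of_pow_eq_one hu3
    have hd2 : orderOf u ∣ 2 ^ k := orderOf_dvd_of_pow_eq_one hk'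
    have hcop : Nat.Coprime 3 (2 ^ k) := Nat.Coprime.pow_right k (by norm_num)
    exact orderOf_eq_one_iff.mp (Nat.eq_one_of_dvd_coprimes hcop hd1' hd2)
  obtain ⟨g6, hg6⟩ := hsix
  have hQne : Q ≠ ⊥ := by
    intro hQ
    rw [hQ] at hchar
    have : g6 ∈ (⊥ : Subgroup G) := hchar (by
      rw [Subgroup.mem_centralizer_iff]
      intro h hh
      rw [Subgroup.coe_bot, Set.mem_singleton_iff] at hh
      rw [hh, one_mul, mul_one])
    rw [Subgroup.mem_bot] at this
    rw [this, orderOf_one] at hg6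
    omega
  obtain ⟨Z, hZ⟩ : ∃ Z : Subgroup G,
      ∀ z, z ∈ Z ↔ z ∈ Q ∧ (∀ q ∈ Q, q * z = z * q) ∧ z ^ 2 = 1 := by
    refine ⟨{ carrier := {z | z ∈ Q ∧ (∀ q ∈ Q, q * z = z * q) ∧ z ^ 2 = 1}
              mul_mem' := ?_
              one_mem' := ⟨Q.one_mem, fun q _ => by rw [mul_one, one_mul], one_pow 2⟩
              inv_mem' := ?_ }, fun z => Iff.rfl⟩
    · rintro a b ⟨ha, hac, ha2⟩ ⟨hb, hbc, hb2⟩
      refine ⟨Q.mul_mem ha hb, ?_, ?_⟩
      · intro q hq
        calc q * (a * b) = (q * a) * b := (mul_assoc _ _ _).symm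
          _ = (a * q) * b := by rw [hac q hq]
          _ = a * (q * b) := mul_assoc _ _ _
          _ = a * (b * q) := by rw [hbc q hq]
          _ = a * b * q := (mul_assoc _ _ _).symm
      · have hcomm : Commute a b := hbc a ha
        rw [hcomm.mul_pow, ha2, hb2, one_mul]
    · rintro a ⟨ha, hac, ha2⟩
      refine ⟨Q.inv_mem ha, ?_, by rw [inv_pow, ha2, inv_one]⟩
      intro q hq
      have := hac q hq
      calc q * a⁻¹ = a⁻¹ * (a * q) * a⁻¹ := by group
        _ = a⁻¹ * (q * a) * a⁻¹ := by rw [this]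
        _ = a⁻¹ * q := by group
  have hZQ : Z ≤ Q := fun z hz => ((hZ z).mp hz).1
  have hZconj : ∀ g : G, ∀ z ∈ Z, g * z * g⁻¹ ∈ Z := by
    intro g z hz
    obtain ⟨hzQ, hzc, hz2⟩ := (hZ z).mp hz
    refine (hZ _).mpr ⟨hQconj g z hzQ, ?_, by rw [conj_pow, hz2]; group⟩
    intro q hq
    have hq' : g⁻¹ * q * g ∈ Q := by
      have := hQconj g⁻¹ q hq; rwa [inv_inv] at this
    have h1 := hzc _ hq'
    calc q * (g * z * g⁻¹) = g * (g⁻¹ * q * g * z) * g⁻¹ := by group
      _ = g * (z * (g⁻¹ * q * g)) * g⁻¹ := by rw [h1]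
      _ = g * z * g⁻¹ * q := by group
  haveI hZn : Z.Normal := ⟨fun z hz g => hZconj g z hz⟩
  have hZnorm : ∀ g : G, g ∈ Subgroup.normalizer (Z : Set G) := fun g =>
    Cfsg.Agent.Lib.Helper21.r3_mem_normalizer_of_conj Z g (hZconj g) (fun x hx => by
      have := hZconj g⁻¹ x hx; rwa [inv_inv] at this)
  have hZc : IsMulCommutative Z :=
    ⟨⟨fun a b => Subtype.ext (((hZ b).mp b.2).2.1 a (hZQ a.2))⟩⟩
  have hZ2 : ∀ a ∈ Z, a ^ 2 = 1 := fun a ha => ((hZ a).mp ha).2.2
  have hZp : IsPGroup 2 Z := hQ2.to_le hZQ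
  have hsubc : ∀ U : Subgroup G, U ≤ Z → IsMulCommutative U ∧ ∀ a ∈ U, a ^ 2 = 1 := by
    intro U hUZ
    refine ⟨⟨⟨fun a b => ?_⟩⟩, fun a ha => hZ2 a (hUZ ha)⟩
    apply Subtype.ext
    have h := hZc.is_comm.comm ⟨a, hUZ a.2⟩ ⟨b, hUZ b.2⟩
    have h' : (a : G) * (b : G) = (b : G) * (a : G) := congrArg Subtype.val h
    exact h'
  have hZne : Z ≠ ⊥ := by
    haveI : Nontrivial ↥Q := (Subgroup.nontrivial_iff_ne_bot Q).mpr hQne
    obtain ⟨z, hzc, hzo⟩ := Cfsg.Agent.Lib.Helper21.exists_central_orderOf_eq (X := ↥Q) hQ2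
    intro hZb
    have hzZ : (z : G) ∈ Z := by
      refine (hZ _).mpr ⟨z.2, ?_, ?_⟩
      · intro q hq
        exact congrArg Subtype.val (Subgroup.mem_center_iff.mp hzc ⟨q, hq⟩)
      · have := pow_orderOf_eq_one z
        rw [hzo] at this
        exact congrArg Subtype.val this
    rw [hZb, Subgroup.mem_bot] at hzZ
    have : z = 1 := Subtype.ext hzZ
    rw [this, orderOf_one] at hzo
    omega
  have hinv : ∀ u : G, u ^ 2 = 1 → (∀ z ∈ Z, u * z = z * u) → Nat.card Z = 4 → u ∈ Z := by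
    intro u hu2 huZ hZ4
    by_contra huZn
    obtain ⟨E, hEc, hE2, hEcard⟩ :=
      Cfsg.Agent.Lib.Helper21.r3_adjoin Z hZc hZ2 u hu2 huZ huZn
    have := hR E hEc hE2
    omega
  obtain ⟨m, hm⟩ := hd ⟨d, Subgroup.mem_zpowers d⟩
  have hdm : d ^ (3 ^ m) = 1 := by
    have := congrArg Subtype.val hm
    simpa using this
  have hWcard : Nat.card W = 4 := by
    have hmod := Cfsg.Agent.Lib.Helper21.r3_card_modEq_fixed W d 3 m hdW hdm
    rw [hfpf, Subgroup.card_bot] at hmod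
    rcases hcard2 W hW.1 hW.2 with h | h | h
    · exact absurd (Subgroup.card_eq_one.mp h) hW1
    · rw [h] at hmod; exact absurd hmod (by decide)
    · exact h
  have hZcard : Nat.card Z = 4 := by
    rcases hcard2 Z hZc hZ2 with h | h | h
    · exact absurd (Subgroup.card_eq_one.mp h) hZne
    · exfalso
      obtain ⟨a, haZ, ha1⟩ : ∃ a ∈ Z, a ≠ (1 : G) := by
        by_contra hall
        push Not at hall
        exact hZne (by rw [eq_bot_iff]; intro x hx; exact Subgroup.mem_bot.mpr (hall x hx))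
      have hacen : ∀ g : G, g * a * g⁻¹ = a := by
        intro g
        by_contra hne
        have h3 : 3 ≤ Nat.card Z := by
          have hsub : ({1, a, g * a * g⁻¹} : Set G) ⊆ (Z : Set G) := by
            intro x hx
            rcases hx with rfl | rfl | rfl
            · exact Z.one_mem
            · exact haZ
            · exact hZconj g a haZ
          have hc : ({1, a, g * a * g⁻¹} : Set G).ncard = 3 := by
            rw [Set.ncard_eq_three]
            refine ⟨1, a, g * a * g⁻¹, fun h => ha1 h.symm, ?_, fun h => hne h.symm, rfl⟩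
            intro h
            apply ha1
            have e : a = g⁻¹ * (g * a * g⁻¹) * g := by group
            rw [e, ← h]; group
          calc 3 = ({1, a, g * a * g⁻¹} : Set G).ncard := hc.symm
            _ ≤ (Z : Set G).ncard := Set.ncard_le_ncard hsub (Set.toFinite _)
            _ = Nat.card Z := (Nat.card_coe_set_eq (Z : Set G)).symm
        omega
      have hacomm : ∀ g : G, g * a = a * g := fun g => mul_inv_eq_iff_eq_mul.mp (hacen g)
      by_cases haW : a ∈ W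
      · have : a ∈ W ⊓ Subgroup.centralizer {d} := Subgroup.mem_inf.mpr
          ⟨haW, Cfsg.Agent.Lib.Helper21.mem_centralizer_singleton.mpr (hacomm d)⟩
        rw [hfpf, Subgroup.mem_bot] at this
        exact ha1 this
      · obtain ⟨E, hEc, hE2, hEcard⟩ := Cfsg.Agent.Lib.Helper21.r3_adjoin W hW.1 hW.2 a
          (hZ2 a haZ) (fun w _ => (hacomm w).symm) haW
        have := hR E hEc hE2
        omega
    · exact h
  have hZd : Z ⊓ Subgroup.centralizer {d} = ⊥ := by
    obtain ⟨U, hU⟩ : ∃ U : Subgroup G, U = W ⊓ Z := ⟨_, rfl⟩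
    have hdU : d ∈ Subgroup.normalizer (U : Set G) := by
      refine Cfsg.Agent.Lib.Helper21.r3_mem_normalizer_of_conj U d ?_ ?_
      · intro x hx
        rw [hU, Subgroup.mem_inf] at hx ⊢
        exact ⟨(Cfsg.Agent.Lib.Helper21.r3_conj_mem_of_mem_normalizer hdW hx.1).1,
          hZconj d x hx.2⟩
      · intro x hx
        rw [hU, Subgroup.mem_inf] at hx ⊢
        refine ⟨(Cfsg.Agent.Lib.Helper21.r3_conj_mem_of_mem_normalizer hdW hx.1).2, ?_⟩
        have := hZconj d⁻¹ x hx.2; rwa [inv_inv] at this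
    have hmod := Cfsg.Agent.Lib.Helper21.r3_card_modEq_fixed U d 3 m hdU hdm
    have hUW : U ≤ W := by rw [hU]; exact inf_le_left
    have hUZ : U ≤ Z := by rw [hU]; exact inf_le_right
    have hUd : U ⊓ Subgroup.centralizer {d} = ⊥ := by
      rw [eq_bot_iff, ← hfpf]
      exact inf_le_inf_right _ hUW
    rw [hUd, Subgroup.card_bot] at hmod
    obtain ⟨hUc, hU2⟩ := hsubc U hUZ
    have hWZ : W = Z := by
      rcases hcard2 U hUc hU2 with h | h | h
      · exfalso
        have hUbot : U = ⊥ := Subgroup.card_eq_one.mp h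
        have hWp : IsPGroup 2 W := fun g => ⟨1, Subtype.ext (by simpa using hW.2 g g.2)⟩
        have hHp : IsPGroup 2 (W ⊔ Z : Subgroup G) := IsPGroup.to_sup_of_normal_right hWp hZp
        obtain ⟨z, hzN, hzc, hz1⟩ := Cfsg.Agent.Lib.Helper21.exists_mem_center_of_normal
          (S := ↥(W ⊔ Z : Subgroup G)) hHp (Z.subgroupOf (W ⊔ Z)) (by
            intro hb
            apply hZne
            rw [eq_bot_iff]
            intro x hx
            have h1 : (⟨x, (le_sup_right : Z ≤ W ⊔ Z) hx⟩ : ↥(W ⊔ Z : Subgroup G)) ∈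
                Z.subgroupOf (W ⊔ Z) := Subgroup.mem_subgroupOf.mpr hx
            rw [hb, Subgroup.mem_bot] at h1
            exact Subgroup.mem_bot.mpr (congrArg Subtype.val h1))
        have hzZ : (z : G) ∈ Z := Subgroup.mem_subgroupOf.mp hzN
        have hz1' : (z : G) ≠ 1 := fun h => hz1 (Subtype.ext h)
        have hzW : ∀ w ∈ W, (z : G) * w = w * (z : G) := by
          intro w hw
          have := Subgroup.mem_center_iff.mp hzc ⟨w, (le_sup_left : W ≤ W ⊔ Z) hw⟩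
          exact (congrArg Subtype.val this).symm
        have hznW : (z : G) ∉ W := by
          intro hzW'
          have : (z : G) ∈ U := by rw [hU]; exact ⟨hzW', hzZ⟩
          rw [hUbot, Subgroup.mem_bot] at this
          exact hz1' this
        obtain ⟨E, hEc, hE2, hEcard⟩ := Cfsg.Agent.Lib.Helper21.r3_adjoin W hW.1 hW.2 (z : G)
          (hZ2 _ hzZ) hzW hznW
        have := hR E hEc hE2
        omega
      · rw [h] at hmod; exact absurd hmod (by decide)
      · have h1 : U = W := Subgroup.eq_of_le_of_card_ge hUW (by rw [h, hWcard])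
        have h2 : U = Z := Subgroup.eq_of_le_of_card_ge hUZ (by rw [h, hZcard])
        rw [← h1, h2]
    rw [← hWZ]; exact hfpf
  obtain ⟨t₀, ht₀⟩ : ∃ t₀ : G, t₀ = g6 ^ 2 := ⟨_, rfl⟩
  obtain ⟨z₀, hz₀⟩ : ∃ z₀ : G, z₀ = g6 ^ 3 := ⟨_, rfl⟩
  have hg66 : g6 ^ 6 = 1 := by rw [← hg6]; exact pow_orderOf_eq_one g6
  have ht₀3 : t₀ ^ 3 = 1 := by rw [ht₀, ← pow_mul]; exact hg66
  have hz₀2 : z₀ ^ 2 = 1 := by rw [hz₀, ← pow_mul]; exact hg66
  have ht₀1 : t₀ ≠ 1 := by
    intro h; rw [ht₀] at h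
    have := orderOf_dvd_of_pow_eq_one h
    rw [hg6] at this; omega
  have hz₀1 : z₀ ≠ 1 := by
    intro h; rw [hz₀] at h
    have := orderOf_dvd_of_pow_eq_one h
    rw [hg6] at this; omega
  have htz : t₀ * z₀ = z₀ * t₀ := by rw [ht₀, hz₀, ← pow_add, ← pow_add]
  have ht₀Z : ∀ z ∈ Z, t₀ * z = z * t₀ := by
    have hmod := Cfsg.Agent.Lib.Helper21.r3_card_modEq_fixed Z t₀ 3 1 (hZnorm t₀)
      (by rw [pow_one]; exact ht₀3)
    rw [hZcard] at hmod
    obtain ⟨C, hC⟩ : ∃ C : Subgroup G, C = Z ⊓ Subgroup.centralizer {t₀} := ⟨_, rfl⟩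
    rw [← hC] at hmod
    have hCZ : C ≤ Z := by rw [hC]; exact inf_le_left
    obtain ⟨hCc, hC2⟩ := hsubc C hCZ
    rcases hcard2 C hCc hC2 with h | h | h
    · exfalso
      have hCbot : C = ⊥ := Subgroup.card_eq_one.mp h
      obtain ⟨U, hU⟩ : ∃ U : Subgroup G, U = Z ⊓ Subgroup.centralizer {z₀} := ⟨_, rfl⟩
      have hUZ : U ≤ Z := by rw [hU]; exact inf_le_left
      have hmod2 := Cfsg.Agent.Lib.Helper21.r3_card_modEq_fixed Z z₀ 2 1 (hZnorm z₀)
        (by rw [pow_one]; exact hz₀2)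
      rw [hZcard, ← hU] at hmod2
      have hconjU : ∀ s : G, s * z₀ = z₀ * s → ∀ x ∈ U, s * x * s⁻¹ ∈ U := by
        intro s hs x hx
        rw [hU, Subgroup.mem_inf] at hx ⊢
        refine ⟨hZconj s x hx.1, ?_⟩
        rw [Cfsg.Agent.Lib.Helper21.mem_centralizer_singleton] at hx ⊢
        have h2 := hx.2
        have hs' : s⁻¹ * z₀ = z₀ * s⁻¹ := (Commute.inv_left (show Commute s z₀ from hs)).eq
        calc z₀ * (s * x * s⁻¹) = (z₀ * s) * x * s⁻¹ := by group
          _ = (s * z₀) * x * s⁻¹ := by rw [hs]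
          _ = s * (z₀ * x) * s⁻¹ := by group
          _ = s * (x * z₀) * s⁻¹ := by rw [h2]
          _ = s * x * (z₀ * s⁻¹) := by group
          _ = s * x * (s⁻¹ * z₀) := by rw [hs']
          _ = s * x * s⁻¹ * z₀ := by group
      have ht₀U : t₀ ∈ Subgroup.normalizer (U : Set G) := by
        refine Cfsg.Agent.Lib.Helper21.r3_mem_normalizer_of_conj U t₀ (hconjU t₀ htz) ?_
        intro x hx
        have := hconjU t₀⁻¹ (Commute.inv_left (show Commute t₀ z₀ from htz)).eq x hx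
        rwa [inv_inv] at this
      have hmod3 := Cfsg.Agent.Lib.Helper21.r3_card_modEq_fixed U t₀ 3 1 ht₀U
        (by rw [pow_one]; exact ht₀3)
      have hUt : U ⊓ Subgroup.centralizer {t₀} = ⊥ := by
        rw [eq_bot_iff, ← hCbot, hC]
        exact inf_le_inf_right _ hUZ
      rw [hUt, Subgroup.card_bot] at hmod3
      obtain ⟨hUc, hU2⟩ := hsubc U hUZ
      rcases hcard2 U hUc hU2 with h' | h' | h'
      · rw [h'] at hmod2; exact absurd hmod2 (by decide)
      · rw [h'] at hmod3; exact absurd hmod3 (by decide)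
      · have hUeq : U = Z := Subgroup.eq_of_le_of_card_ge hUZ (by rw [h', hZcard])
        have hz₀Z : z₀ ∈ Z := by
          apply hinv z₀ hz₀2 _ hZcard
          intro z hz
          have hzU : z ∈ U := by rw [hUeq]; exact hz
          rw [hU, Subgroup.mem_inf] at hzU
          exact Cfsg.Agent.Lib.Helper21.mem_centralizer_singleton.mp hzU.2
        have hz₀C : z₀ ∈ C := by
          rw [hC]
          exact Subgroup.mem_inf.mpr
            ⟨hz₀Z, Cfsg.Agent.Lib.Helper21.mem_centralizer_singleton.mpr htz⟩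
        rw [hCbot, Subgroup.mem_bot] at hz₀C
        exact hz₀1 hz₀C
    · rw [h] at hmod; exact absurd hmod (by decide)
    · have hCeq : C = Z := Subgroup.eq_of_le_of_card_ge hCZ (by rw [h, hZcard])
      intro z hz
      have hzC : z ∈ C := by rw [hCeq]; exact hz
      rw [hC, Subgroup.mem_inf] at hzC
      exact Cfsg.Agent.Lib.Helper21.mem_centralizer_singleton.mp hzC.2
  obtain ⟨P₃, hP₃⟩ := hd.exists_le_sylow
  have hdP₃ : d ∈ (P₃ : Subgroup G) := hP₃ (Subgroup.mem_zpowers d)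
  have hpg : IsPGroup 3 (Subgroup.zpowers t₀) :=
    IsPGroup.of_card (n := 1) (by
      rw [Nat.card_zpowers, pow_one]; exact orderOf_eq_prime ht₀3 ht₀1)
  obtain ⟨P', hP'⟩ := hpg.exists_le_sylow
  obtain ⟨g₀, hg₀⟩ := MulAction.exists_smul_eq G P' P₃
  obtain ⟨t₁, ht₁⟩ : ∃ t₁ : G, t₁ = g₀ * t₀ * g₀⁻¹ := ⟨_, rfl⟩
  have ht₁P : t₁ ∈ (P₃ : Subgroup G) := by
    have h1 : g₀ * t₀ * g₀⁻¹ ∈ ((g₀ • P' : Sylow 3 G) : Subgroup G) := by
      rw [Sylow.coe_subgroup_smul, Subgroup.mem_pointwise_smul_iff_inv_smul_mem]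
      have h2 : (MulAut.conj g₀)⁻¹ • (g₀ * t₀ * g₀⁻¹) = t₀ := by
        rw [← map_inv, MulAut.smul_def, MulAut.conj_apply]
        group
      rw [h2]
      exact hP' (Subgroup.mem_zpowers t₀)
    rw [hg₀] at h1
    rw [ht₁]; exact h1
  have ht₁1 : t₁ ≠ 1 := by
    intro h; rw [ht₁] at h
    apply ht₀1
    have e : t₀ = g₀⁻¹ * (g₀ * t₀ * g₀⁻¹) * g₀ := by group
    rw [e, h]; group
  have ht₁Z : ∀ z ∈ Z, t₁ * z = z * t₁ := by
    intro z hz
    have hz' : g₀⁻¹ * z * g₀ ∈ Z := by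
      have := hZconj g₀⁻¹ z hz; rwa [inv_inv] at this
    have h1 := ht₀Z _ hz'
    rw [ht₁]
    calc g₀ * t₀ * g₀⁻¹ * z = g₀ * (t₀ * (g₀⁻¹ * z * g₀)) * g₀⁻¹ := by group
      _ = g₀ * ((g₀⁻¹ * z * g₀) * t₀) * g₀⁻¹ := by rw [h1]
      _ = z * (g₀ * t₀ * g₀⁻¹) := by group
  obtain ⟨U₃, hU₃⟩ : ∃ U₃ : Subgroup G,
      U₃ = (P₃ : Subgroup G) ⊓ Subgroup.centralizer (Z : Set G) := ⟨_, rfl⟩
  have ht₁U : t₁ ∈ U₃ := by
    rw [hU₃]
    refine Subgroup.mem_inf.mpr ⟨ht₁P, ?_⟩
    rw [Subgroup.mem_centralizer_iff]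
    intro z hz
    exact (ht₁Z z hz).symm
  have hU₃p : IsPGroup 3 U₃ := P₃.isPGroup'.to_le (by rw [hU₃]; exact inf_le_left)
  have hdU₃ : d ∈ Subgroup.normalizer (U₃ : Set G) := by
    have key : ∀ s : G, s ∈ (P₃ : Subgroup G) → ∀ x ∈ U₃, s * x * s⁻¹ ∈ U₃ := by
      intro s hs x hx
      rw [hU₃, Subgroup.mem_inf] at hx ⊢
      refine ⟨Subgroup.mul_mem _ (Subgroup.mul_mem _ hs hx.1) (Subgroup.inv_mem _ hs), ?_⟩
      rw [Subgroup.mem_centralizer_iff] at hx ⊢
      intro z hz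
      have hz' : s⁻¹ * z * s ∈ Z := by
        have := hZconj s⁻¹ z hz; rwa [inv_inv] at this
      have h1 := hx.2 _ hz'
      calc z * (s * x * s⁻¹) = s * (s⁻¹ * z * s * x) * s⁻¹ := by group
        _ = s * (x * (s⁻¹ * z * s)) * s⁻¹ := by rw [h1]
        _ = s * x * s⁻¹ * z := by group
    refine Cfsg.Agent.Lib.Helper21.r3_mem_normalizer_of_conj U₃ d (key d hdP₃) ?_
    intro x hx
    have := key d⁻¹ (Subgroup.inv_mem _ hdP₃) x hx
    rwa [inv_inv] at this
  have hmodU := Cfsg.Agent.Lib.Helper21.r3_card_modEq_fixed U₃ d 3 m hdU₃ hdm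
  obtain ⟨kU, hkU⟩ := IsPGroup.iff_card.mp hU₃p
  have hkU0 : kU ≠ 0 := by
    rintro rfl
    rw [pow_zero] at hkU
    have := Subgroup.card_eq_one.mp hkU
    rw [this, Subgroup.mem_bot] at ht₁U
    exact ht₁1 ht₁U
  obtain ⟨s, hsU, hsd, hs1⟩ : ∃ s : G, s ∈ U₃ ∧ d * s = s * d ∧ s ≠ 1 := by
    by_contra hall
    push Not at hall
    have hbot : U₃ ⊓ Subgroup.centralizer {d} = ⊥ := by
      rw [eq_bot_iff]
      intro x hx
      rw [Subgroup.mem_inf] at hx
      exact Subgroup.mem_bot.mpr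
        (hall x hx.1 (Cfsg.Agent.Lib.Helper21.mem_centralizer_singleton.mp hx.2))
    rw [hbot, Subgroup.card_bot, hkU] at hmodU
    have h3 : 3 ∣ 3 ^ kU := dvd_pow_self 3 hkU0
    have := (Nat.modEq_zero_iff_dvd.mpr h3).symm.trans hmodU
    exact absurd this (by decide)
  have hsP : s ∈ (P₃ : Subgroup G) := by
    rw [hU₃] at hsU; exact (Subgroup.mem_inf.mp hsU).1
  have hsZ : ∀ z ∈ Z, s * z = z * s := by
    intro z hz
    rw [hU₃] at hsU
    exact (Subgroup.mem_centralizer_iff.mp (Subgroup.mem_inf.mp hsU).2 z hz).symm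
  obtain ⟨ks, hks⟩ := P₃.isPGroup' ⟨s, hsP⟩
  have hks' : s ^ (3 ^ ks) = 1 := by
    have := congrArg Subtype.val hks
    simpa using this
  obtain ⟨j, hj, hoj⟩ :=
    (Nat.dvd_prime_pow Nat.prime_three).mp (orderOf_dvd_of_pow_eq_one hks')
  have hj1 : 1 ≤ j := by
    by_contra hlt
    have : j = 0 := by omega
    rw [this, pow_zero] at hoj
    exact hs1 (orderOf_eq_one_iff.mp hoj)
  obtain ⟨t', ht'⟩ : ∃ t' : G, t' = s ^ (3 ^ (j - 1)) := ⟨_, rfl⟩
  have ht'3 : t' ^ 3 = 1 := by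
    rw [ht', ← pow_mul, ← pow_succ, (by omega : j - 1 + 1 = j), ← hoj, pow_orderOf_eq_one]
  have ht'1 : t' ≠ 1 := by
    intro hcon
    rw [ht'] at hcon
    have := orderOf_dvd_of_pow_eq_one hcon
    rw [hoj] at this
    have h2 := Nat.le_of_dvd (by positivity) this
    have h3 : 3 ^ (j - 1) < 3 ^ j := Nat.pow_lt_pow_right (by norm_num) (by omega)
    omega
  have hdt' : Commute d t' := by rw [ht']; exact Commute.pow_right hsd _
  have ht'Z : ∀ z ∈ Z, t' * z = z * t' := by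
    intro z hz
    rw [ht']
    exact (Commute.pow_left (show Commute s z from hsZ z hz) _).eq
  have hnc : ¬ ∀ x ∈ Q, t' * x = x * t' := by
    intro hall
    have hmem : t' ∈ Q := hchar (by
      rw [Subgroup.mem_centralizer_iff]
      intro x hx
      exact (hall x hx).symm)
    exact ht'1 (h23 t' hmem ht'3)
  have hdo : orderOf d = 3 := by
    obtain ⟨n, hn, hon⟩ :=
      (Nat.dvd_prime_pow Nat.prime_three).mp (orderOf_dvd_of_pow_eq_one hdm)
    have hn1 : 1 ≤ n := by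
      by_contra hlt
      have : n = 0 := by omega
      rw [this, pow_zero] at hon
      exact hd1 (orderOf_eq_one_iff.mp hon)
    by_contra hne
    have hn2 : 2 ≤ n := by
      by_contra hlt
      have : n = 1 := by omega
      rw [this, pow_one] at hon
      exact hne hon
    have hcore := Cfsg.Agent.Lib.Helper21.r3_core Q hQ2 (fun E _ hEc hE2 => hR E hEc hE2) d n
      hn2 hon (hQnorm d)
    obtain ⟨t, ht⟩ : ∃ t : G, t = d ^ (3 ^ (n - 1)) := ⟨_, rfl⟩
    rw [← ht] at hcore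
    have hmem : t ∈ Q := hchar (by
      rw [Subgroup.mem_centralizer_iff]
      intro x hx
      exact (hcore x hx).symm)
    have ht3 : t ^ 3 = 1 := by
      rw [ht, ← pow_mul, ← pow_succ, (by omega : n - 1 + 1 = n), ← hon, pow_orderOf_eq_one]
    have ht1 : t ≠ 1 := by
      intro h
      rw [ht] at h
      have h1 := orderOf_dvd_of_pow_eq_one h
      rw [hon] at h1
      have h2 := Nat.le_of_dvd (by positivity) h1
      have h3 : 3 ^ (n - 1) < 3 ^ n := Nat.pow_lt_pow_right (by norm_num) (by omega)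
      omega
    exact ht1 (h23 t hmem ht3)
  obtain ⟨Q₂, hQ₂Q, hdQ₂, htQ₂, hncQ₂, hmin⟩ :=
    Cfsg.Agent.Lib.Helper21.r3_exists_min Q d t' (hQnorm d) (hQnorm t') hnc
  have hQ₂2 : IsPGroup 2 Q₂ := hQ2.to_le hQ₂Q
  obtain ⟨Φ, hΦQ, hsq, hΦc, hΦ2, htΦ⟩ :=
    Cfsg.Agent.Lib.Helper21.r3_min_struct Q₂ hQ₂2 d t' hdQ₂ htQ₂ ht'3 hncQ₂ hmin
  have hinvQ : ∀ u ∈ Q, u ^ 2 = 1 → u ∈ Z := by
    intro u hu hu2
    apply hinv u hu2 _ hZcard
    intro z hz
    exact ((hZ z).mp hz).2.1 u hu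
  have hΦZ : Φ ≤ Z := fun z hz => hinvQ z (hQ₂Q (hΦQ hz)) (hΦ2 z hz)
  have hΦ4 : Nat.card Φ ≤ 4 := by rw [← hZcard]; exact Subgroup.card_le_of_le hΦZ
  have hcomm' : ∀ (a : ↥(Subgroup.zpowers d)) (b : ↥(Subgroup.zpowers t')),
      Commute ((Subgroup.zpowers d).subtype a) ((Subgroup.zpowers t').subtype b) := by
    intro a b
    obtain ⟨i, hi⟩ := Subgroup.mem_zpowers_iff.mp a.2
    obtain ⟨j', hj'⟩ := Subgroup.mem_zpowers_iff.mp b.2
    show Commute (a : G) (b : G)
    rw [← hi, ← hj']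
    exact Commute.zpow_zpow hdt' i j'
  obtain ⟨φ, hφ⟩ : ∃ φ : ↥(Subgroup.zpowers d) × ↥(Subgroup.zpowers t') →* G,
      ∀ a b, φ (a, b) = (a : G) * (b : G) :=
    ⟨MonoidHom.noncommCoprod (Subgroup.zpowers d).subtype (Subgroup.zpowers t').subtype hcomm',
      fun a b => MonoidHom.noncommCoprod_apply _ _ _ _⟩
  have ht'o : orderOf t' = 3 := orderOf_eq_prime ht'3 ht'1
  have h9 : 9 ∣ Nat.card ↥((Q₂ : Set G) \ (Subgroup.centralizer {t'} : Set G)) := by
    have hdvd := Cfsg.Agent.Lib.Helper21.r3_card_dvd_of_free φ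
      ((Q₂ : Set G) \ (Subgroup.centralizer {t'} : Set G)) ?_ ?_
    · rw [Nat.card_prod, Nat.card_zpowers, Nat.card_zpowers, hdo, ht'o] at hdvd
      exact hdvd
    · rintro ⟨a, b⟩ x hx
      rw [hφ]
      have haN : (a : G) ∈ Subgroup.normalizer (Q₂ : Set G) :=
        (Subgroup.zpowers_le.mpr hdQ₂) a.2
      have hbN : (b : G) ∈ Subgroup.normalizer (Q₂ : Set G) :=
        (Subgroup.zpowers_le.mpr htQ₂) b.2
      have habN := Subgroup.mul_mem _ haN hbN
      refine ⟨(Cfsg.Agent.Lib.Helper21.r3_conj_mem_of_mem_normalizer habN hx.1).1, ?_⟩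
      intro hc
      apply hx.2
      rw [SetLike.mem_coe, Cfsg.Agent.Lib.Helper21.mem_centralizer_singleton] at hc ⊢
      have hab : Commute ((a : G) * (b : G)) t' := by
        obtain ⟨i, hi⟩ := Subgroup.mem_zpowers_iff.mp a.2
        obtain ⟨j', hj'⟩ := Subgroup.mem_zpowers_iff.mp b.2
        rw [← hi, ← hj']
        exact Commute.mul_left (Commute.zpow_left hdt' i)
          (Commute.zpow_left (Commute.refl t') j')
      obtain ⟨h, hh⟩ : ∃ h : G, h = (a : G) * (b : G) := ⟨_, rfl⟩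
      rw [← hh] at hc hab
      have e1 : h⁻¹ * t' = t' * h⁻¹ := (Commute.inv_left hab).eq
      calc t' * x = h⁻¹ * (t' * (h * x * h⁻¹)) * h := by
            rw [← mul_assoc h⁻¹ t', e1]; group
        _ = h⁻¹ * ((h * x * h⁻¹) * t') * h := by rw [hc]
        _ = x * (h⁻¹ * t') * h := by group
        _ = x * (t' * h⁻¹) * h := by rw [e1]
        _ = x * t' := by group
    · rintro ⟨a, b⟩ x hx hcomm
      rw [hφ] at hcomm
      have hxQ₂ : x ∈ Q₂ := hx.1
      have hxt : ¬ t' * x = x * t' := fun h =>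
        hx.2 (Cfsg.Agent.Lib.Helper21.mem_centralizer_singleton.mpr h)
      have hx2Z : x ^ 2 ∈ Z := hΦZ (hsq x hxQ₂)
      have hx21 : x ^ 2 ≠ 1 := by
        intro h
        exact hxt (ht'Z x (hinvQ x (hQ₂Q hxQ₂) h))
      have hbx2 : Commute (b : G) (x ^ 2) := by
        obtain ⟨j', hj'⟩ := Subgroup.mem_zpowers_iff.mp b.2
        rw [← hj']
        exact Commute.zpow_left (show Commute t' (x ^ 2) from ht'Z _ hx2Z) j'
      have habx2 : Commute ((a : G) * (b : G)) (x ^ 2) :=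
        Commute.pow_right (show Commute ((a : G) * (b : G)) x from hcomm) 2
      have hax2 : (a : G) * x ^ 2 = x ^ 2 * (a : G) := by
        have hb' : Commute (b : G)⁻¹ (x ^ 2) := Commute.inv_left hbx2
        have e : (a : G) = (a : G) * (b : G) * (b : G)⁻¹ := by group
        rw [e]
        exact (Commute.mul_left habx2 hb').eq
      have ha1 : (a : G) = 1 := by
        by_contra hane
        have hmem := Cfsg.Agent.Lib.Helper21.r3_order3_mem_zpowers (n := 1) le_rfl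
          (by rw [hdo, pow_one]) a.2 hane
        simp only [Nat.sub_self, pow_zero, pow_one] at hmem
        have hle : Subgroup.zpowers (a : G) ≤ Subgroup.centralizer {x ^ 2} := by
          rw [Subgroup.zpowers_le, Cfsg.Agent.Lib.Helper21.mem_centralizer_singleton]
          exact hax2.symm
        have hdx := Cfsg.Agent.Lib.Helper21.mem_centralizer_singleton.mp (hle hmem)
        have hmemZ : x ^ 2 ∈ Z ⊓ Subgroup.centralizer {d} := Subgroup.mem_inf.mpr
          ⟨hx2Z, Cfsg.Agent.Lib.Helper21.mem_centralizer_singleton.mpr hdx.symm⟩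
        rw [hZd, Subgroup.mem_bot] at hmemZ
        exact hx21 hmemZ
      have hb1 : (b : G) = 1 := by
        by_contra hbne
        have hmem := Cfsg.Agent.Lib.Helper21.r3_order3_mem_zpowers (n := 1) le_rfl
          (by rw [ht'o, pow_one]) b.2 hbne
        simp only [Nat.sub_self, pow_zero, pow_one] at hmem
        rw [ha1, one_mul] at hcomm
        have hle : Subgroup.zpowers (b : G) ≤ Subgroup.centralizer {x} := by
          rw [Subgroup.zpowers_le, Cfsg.Agent.Lib.Helper21.mem_centralizer_singleton]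
          exact hcomm.symm
        exact hxt (Cfsg.Agent.Lib.Helper21.mem_centralizer_singleton.mp (hle hmem)).symm
      exact Prod.ext (Subtype.ext ha1) (Subtype.ext hb1)
  have hidx := Cfsg.Agent.Lib.Helper21.r3_index_ge Q₂ hQ₂2 t' hncQ₂ h9
  have hΦC : Φ ≤ Q₂ ⊓ Subgroup.centralizer {t'} :=
    le_inf hΦQ (fun z hz => Cfsg.Agent.Lib.Helper21.mem_centralizer_singleton.mpr (htΦ z hz))
  have hcard : 64 * Nat.card Φ ≤ Nat.card Q₂ :=
    le_trans (Nat.mul_le_mul_left _ (Subgroup.card_le_of_le hΦC)) hidx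
  obtain ⟨E, hEQ, hEc, hE2, hE8⟩ :=
    Cfsg.Agent.Lib.Helper21.r3_exists_elemAb8' Q₂ Φ hΦQ hsq hΦc hΦ2 hΦ4 hcard
  have := hR E hEc hE2
  omega

end Cfsg.Agent.S3739
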