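import Mathlib
import Cfsg.Statements.S3740
import Cfsg.Agent.Lib.Lead.UniqueSubgroup
import Cfsg.Agent.Lib.Helper3.SL2Sylow
import Cfsg.Agent.Lib.Helper2.SL23Sec
import Cfsg.Agent.Lib.Helper2.QuatSyl
import Cfsg.Agent.Lib.Helper1.CoprimeSylow

set_option autoImplicit false
set_option linter.unusedVariables false
set_option linter.style.haveILetI false
open Cfsg

namespace Cfsg.Agent.S3740

open Cfsg.Agent.Lib.Helper3 Cfsg.Agent.Lib.Helper2 Cfsg.Agent.Lib.Lead Cfsg.Agent.Lib.Helper1

variable {F : Type*} [Field F]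

/-- entries forced by commuting with the conjugate under an upper unitriangular matrix -/
theorem comm_entries (c : F) (hc : c ≠ 0) (h2 : (2 : F) ≠ 0) (A : Matrix (Fin 2) (Fin 2) F)
    (h : A * (uMat c * A * uMat (-c)) = (uMat c * A * uMat (-c)) * A) :
    A 1 0 = 0 ∧ A 0 0 = A 1 1 := by
  have e10 := congrFun (congrFun h 1) 0
  have e01 := congrFun (congrFun h 0) 1
  simp only [uMat, Matrix.mul_apply, Fin.sum_univ_two, Matrix.of_apply, Matrix.cons_val_zero,
    Matrix.cons_val_one, Matrix.cons_val', Matrix.cons_val_fin_one] at e10 e01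
  have hz : A 1 0 = 0 := by
    have h3 : 2 * c * (A 1 0 * A 1 0) = 0 := by linear_combination e10
    rcases mul_eq_zero.mp h3 with h4 | h4
    · rcases mul_eq_zero.mp h4 with h5 | h5
      · exact absurd h5 h2
      · exact absurd h5 hc
    · exact mul_self_eq_zero.mp h4
  refine ⟨hz, ?_⟩
  rw [hz] at e01
  have h3 : c * ((A 0 0 - A 1 1) * (A 0 0 - A 1 1)) = 0 := by linear_combination (-1 : F) * e01
  rcases mul_eq_zero.mp h3 with h4 | h4
  · exact absurd h4 hc
  · exact sub_eq_zero.mp (mul_self_eq_zero.mp h4)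

/-- the only involution of `SL₂` in odd characteristic -/
theorem invol (h2 : (2 : F) ≠ 0) (t : Matrix.SpecialLinearGroup (Fin 2) F) (ht : t * t = 1) :
    t = 1 ∨ t = -1 := by
  have hdet := sl2_det t
  have hm : (t : Matrix (Fin 2) (Fin 2) F) * (t : Matrix (Fin 2) (Fin 2) F) = 1 := by
    have := congrArg (fun g : Matrix.SpecialLinearGroup (Fin 2) F =>
      (g : Matrix (Fin 2) (Fin 2) F)) ht
    simpa using this
  have e00 := congrFun (congrFun hm 0) 0
  have e01 := congrFun (congrFun hm 0) 1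
  have e10 := congrFun (congrFun hm 1) 0
  have e11 := congrFun (congrFun hm 1) 1
  simp only [Matrix.mul_apply, Fin.sum_univ_two, Matrix.one_apply_eq, Matrix.one_apply_ne,
    ne_eq, zero_ne_one, one_ne_zero, not_false_eq_true] at e00 e01 e10 e11
  obtain ⟨x, hx⟩ : ∃ x, x = (t : Matrix (Fin 2) (Fin 2) F) 0 0 := ⟨_, rfl⟩
  obtain ⟨y, hy⟩ : ∃ y, y = (t : Matrix (Fin 2) (Fin 2) F) 0 1 := ⟨_, rfl⟩
  obtain ⟨z, hz⟩ : ∃ z, z = (t : Matrix (Fin 2) (Fin 2) F) 1 0 := ⟨_, rfl⟩
  obtain ⟨w, hw⟩ : ∃ w, w = (t : Matrix (Fin 2) (Fin 2) F) 1 1 := ⟨_, rfl⟩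
  simp only [← hx, ← hy, ← hz, ← hw] at hdet e00 e01 e10 e11
  have hs : x * (x + w) = 2 := by linear_combination e00 + hdet
  have hxw : x + w ≠ 0 := by
    intro h0
    rw [h0, mul_zero] at hs
    exact h2 hs.symm
  have hy0 : y = 0 := by
    have : y * (x + w) = 0 := by linear_combination e01
    exact (mul_eq_zero.mp this).resolve_right hxw
  have hz0 : z = 0 := by
    have : z * (x + w) = 0 := by linear_combination e10
    exact (mul_eq_zero.mp this).resolve_right hxw
  rw [hy0, hz0] at hdet e00 e11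
  have hxx : x * x = 1 := by linear_combination e00
  have hwx : w = x := by
    have : x * (w - x) = 0 := by linear_combination hdet - hxx
    have hx0 : x ≠ 0 := by
      intro h0
      rw [h0, mul_zero] at hxx
      exact zero_ne_one hxx
    exact sub_eq_zero.mp ((mul_eq_zero.mp this).resolve_left hx0)
  rcases mul_self_eq_one_iff.mp hxx with h1 | h1
  · left
    apply Subtype.ext
    ext i j
    fin_cases i <;> fin_cases j <;> simp [← hx, ← hy, ← hz, ← hw, h1, hy0, hz0, hwx]
  · right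
    apply Subtype.ext
    ext i j
    fin_cases i <;> fin_cases j <;> simp [← hx, ← hy, ← hz, ← hw, h1, hy0, hz0, hwx]

/-- upper triangular with equal diagonal entries and order prime to `p`: `±1` -/
theorem triang_pm (p : ℕ) [Fact p.Prime] [CharP F p] (h2 : (2 : F) ≠ 0)
    (r : Matrix.SpecialLinearGroup (Fin 2) F) (hr : (orderOf r).Coprime p)
    (h10 : (r : Matrix (Fin 2) (Fin 2) F) 1 0 = 0)
    (h00 : (r : Matrix (Fin 2) (Fin 2) F) 0 0 = (r : Matrix (Fin 2) (Fin 2) F) 1 1) :
    r = 1 ∨ r = -1 := by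
  have hdet := sl2_det r
  rw [h10, mul_zero, sub_zero, ← h00] at hdet
  have hsq : r * r = uSL (Multiplicative.ofAdd (2 * (r : Matrix (Fin 2) (Fin 2) F) 0 0 *
      (r : Matrix (Fin 2) (Fin 2) F) 0 1)) := by
    apply Subtype.ext
    rw [uSL_val]
    ext i j
    fin_cases i <;> fin_cases j <;>
      simp [uMat, Matrix.mul_apply, Fin.sum_univ_two, h10, ← h00, hdet] <;> ring
  have hp1 : (r * r) ^ p = 1 := by
    rw [hsq, ← map_pow]
    have : (Multiplicative.ofAdd (2 * (r : Matrix (Fin 2) (Fin 2) F) 0 0 *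
        (r : Matrix (Fin 2) (Fin 2) F) 0 1)) ^ p = 1 := by
      rw [← ofAdd_nsmul, nsmul_eq_mul, CharP.cast_eq_zero, zero_mul]
      rfl
    rw [this, map_one]
  have h1 : r * r = 1 := by
    have hd1 : orderOf (r * r) ∣ p := orderOf_dvd_of_pow_eq_one hp1
    have hd2 : orderOf (r * r) ∣ orderOf r := by
      rw [← pow_two]
      exact orderOf_pow_dvd 2
    have := Nat.eq_one_of_dvd_coprimes hr hd2 hd1
    exact orderOf_eq_one_iff.mp this
  exact invol h2 r h1

theorem ab_uSL (p : ℕ) [Fact p.Prime] [CharP F p] (h2 : (2 : F) ≠ 0) (m : Multiplicative F)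
    (hm : m ≠ 1) (r : Matrix.SpecialLinearGroup (Fin 2) F) (hr : (orderOf r).Coprime p)
    (hc : Commute r (uSL m * r * (uSL m)⁻¹)) : r = 1 ∨ r = -1 := by
  have hc0 : Multiplicative.toAdd m ≠ 0 := by
    intro h
    apply hm
    have : m = Multiplicative.ofAdd (Multiplicative.toAdd m) := rfl
    rw [this, h]
    rfl
  have hmat : (r : Matrix (Fin 2) (Fin 2) F) * (uMat (Multiplicative.toAdd m) *
      (r : Matrix (Fin 2) (Fin 2) F) * uMat (-Multiplicative.toAdd m)) =
      (uMat (Multiplicative.toAdd m) * (r : Matrix (Fin 2) (Fin 2) F) *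
        uMat (-Multiplicative.toAdd m)) * (r : Matrix (Fin 2) (Fin 2) F) := by
    have h := congrArg (fun g : Matrix.SpecialLinearGroup (Fin 2) F =>
      (g : Matrix (Fin 2) (Fin 2) F)) hc.eq
    rw [show (uSL m)⁻¹ = uSL m⁻¹ from (map_inv uSL m).symm] at h
    simp only [Matrix.SpecialLinearGroup.coe_mul, uSL_val, toAdd_inv] at h
    exact h
  obtain ⟨h10, h00⟩ := comm_entries (Multiplicative.toAdd m) hc0 h2 _ hmat
  exact triang_pm p h2 r hr h10 h00

/-- the key lemma: a nontrivial `p`-element does not normalize a non-scalar abelian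
`p'`-subgroup -/
theorem ab [Fintype F] (p : ℕ) [Fact p.Prime] [CharP F p] (h2 : (2 : F) ≠ 0)
    (a : Matrix.SpecialLinearGroup (Fin 2) F) (ha : IsPGroup p ↥(Subgroup.zpowers a))
    (ha1 : a ≠ 1) (r : Matrix.SpecialLinearGroup (Fin 2) F) (hr : (orderOf r).Coprime p)
    (hc : Commute r (a * r * a⁻¹)) : r = 1 ∨ r = -1 := by
  classical
  obtain ⟨Q, hQ⟩ := ha.exists_le_sylow
  obtain ⟨P₀, hP₀⟩ := exists_sylow_eq_uSL (F := F) p
  obtain ⟨g, hg⟩ := MulAction.exists_smul_eq (Matrix.SpecialLinearGroup (Fin 2) F) Q P₀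
  have hmem : g * a * g⁻¹ ∈ (P₀ : Subgroup (Matrix.SpecialLinearGroup (Fin 2) F)) := by
    rw [← hg, Sylow.coe_subgroup_smul]
    exact Subgroup.smul_mem_pointwise_smul a (MulAut.conj g) _ (hQ (Subgroup.mem_zpowers a))
  rw [hP₀] at hmem
  obtain ⟨m, hm⟩ := hmem
  have hm1 : m ≠ 1 := by
    rintro rfl
    rw [map_one] at hm
    apply ha1
    have : a = g⁻¹ * (g * a * g⁻¹) * g := by group
    rw [this, ← hm]
    group
  have hr' : (orderOf (g * r * g⁻¹)).Coprime p := by
    have : orderOf (g * r * g⁻¹) = orderOf r := by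
      have := orderOf_injective (MulAut.conj g).toMonoidHom (MulAut.conj g).injective r
      simpa using this
    rw [this]
    exact hr
  have hc' : Commute (g * r * g⁻¹) (uSL m * (g * r * g⁻¹) * (uSL m)⁻¹) := by
    rw [hm]
    have e0 : g * a * g⁻¹ * (g * r * g⁻¹) * (g * a * g⁻¹)⁻¹ = g * (a * r * a⁻¹) * g⁻¹ := by
      group
    rw [e0]
    show g * r * g⁻¹ * (g * (a * r * a⁻¹) * g⁻¹) = g * (a * r * a⁻¹) * g⁻¹ * (g * r * g⁻¹)
    have e1 : g * r * g⁻¹ * (g * (a * r * a⁻¹) * g⁻¹) = g * (r * (a * r * a⁻¹)) * g⁻¹ := by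
      group
    have e2 : g * (a * r * a⁻¹) * g⁻¹ * (g * r * g⁻¹) = g * ((a * r * a⁻¹) * r) * g⁻¹ := by
      group
    rw [e1, e2, hc.eq]
  rcases ab_uSL p h2 m hm1 _ hr' hc' with h | h
  · left
    have : r = g⁻¹ * (g * r * g⁻¹) * g := by group
    rw [this, h]
    group
  · right
    have : r = g⁻¹ * (g * r * g⁻¹) * g := by group
    rw [this, h]
    simp

theorem pow_four_eq {G : Type*} [Monoid G] (x : G) : x ^ 4 = (x * x) * (x * x) := by
  rw [show (4 : ℕ) = 2 + 2 from rfl, pow_add, pow_two]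

theorem pow_three_eq {G : Type*} [Monoid G] (x : G) : x ^ 3 = x * x * x := by
  rw [show (3 : ℕ) = 2 + 1 from rfl, pow_add, pow_two, pow_one]

theorem neg_one_ne (h2 : (2 : F) ≠ 0) : (-1 : Matrix.SpecialLinearGroup (Fin 2) F) ≠ 1 := by
  intro h
  have h' := congrArg (fun g : Matrix.SpecialLinearGroup (Fin 2) F =>
    (g : Matrix (Fin 2) (Fin 2) F) 0 0) h
  simp at h'
  apply h2
  linear_combination (-1 : F) * h'

theorem orderOf_neg_one (h2 : (2 : F) ≠ 0) :
    orderOf (-1 : Matrix.SpecialLinearGroup (Fin 2) F) = 2 := by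
  haveI : Fact (Nat.Prime 2) := ⟨Nat.prime_two⟩
  exact orderOf_eq_prime (by simp) (neg_one_ne h2)

/-- Let F be a finite field of odd characteristic p and let a be a p-element of SL₂(F) normalizing a subgroup R of order prime to p with [R, a] ≠ 1. Then p = 3, R is a quaternion group of order 8, and R⟨a⟩ is isomorphic to SL₂(3). -/
theorem result (F : Type) [Field F] [Fintype F] {p : ℕ} [Fact p.Prime] [CharP F p] (hp : p ≠ 2) (a : Matrix.SpecialLinearGroup (Fin 2) F) (ha : IsPGroup p ↥(Subgroup.zpowers a)) (R : Subgroup (Matrix.SpecialLinearGroup (Fin 2) F)) (hR : (Nat.card R).Coprime p) (haR : a ∈ Subgroup.normalizer (R : Set (Matrix.SpecialLinearGroup (Fin 2) F))) (hnt : ⁅R, Subgroup.zpowers a⁆ ≠ ⊥) : p = 3 ∧ Nonempty (↥R ≃* QuaternionGroup 2) ∧ Nonempty (↥(R ⊔ Subgroup.zpowers a) ≃* Matrix.SpecialLinearGroup (Fin 2) (ZMod 3)) := by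
  classical
  have hpp : p.Prime := Fact.out
  have h2F : (2 : F) ≠ 0 := by
    intro h
    have h' : ((2 : ℕ) : F) = 0 := by exact_mod_cast h
    rw [CharP.cast_eq_zero_iff F p] at h'
    exact hp ((Nat.prime_dvd_prime_iff_eq hpp Nat.prime_two).mp h')
  have hnc : ∃ r ∈ R, a * r * a⁻¹ ≠ r := by
    by_contra hcon
    push Not at hcon
    apply hnt
    rw [Subgroup.commutator_eq_bot_iff_le_centralizer]
    intro r hr
    rw [Subgroup.mem_centralizer_iff]
    intro z hz
    obtain ⟨k, rfl⟩ := Subgroup.mem_zpowers_iff.mp hz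
    have hc : Commute a r := by
      show a * r = r * a
      have := hcon r hr
      calc a * r = (a * r * a⁻¹) * a := by group
        _ = r * a := by rw [this]
    exact (hc.zpow_left k).eq
  obtain ⟨r0, hr0, hr0a⟩ := hnc
  have ha1 : a ≠ 1 := by
    rintro rfl
    exact hr0a (by group)
  have hconjR : ∀ r ∈ R, a * r * a⁻¹ ∈ R :=
    fun r hr => (Subgroup.mem_normalizer_iff.mp haR r).mp hr
  have hord : ∀ r ∈ R, (orderOf r).Coprime p := fun r hr =>
    Nat.Coprime.coprime_dvd_left (Subgroup.orderOf_dvd_natCard R hr) hR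
  have AB : ∀ r ∈ R, Commute r (a * r * a⁻¹) → r = 1 ∨ r = -1 := fun r hr hc =>
    ab p h2F a ha ha1 r (hord r hr) hc
  have hneg : ∀ g : Matrix.SpecialLinearGroup (Fin 2) F, g * -1 = -1 * g := by
    intro g
    simp
  have hnab : ¬ (∀ x ∈ R, ∀ y ∈ R, x * y = y * x) := by
    intro hab
    rcases AB r0 hr0 (hab r0 hr0 _ (hconjR r0 hr0)) with h | h
    · exact hr0a (by rw [h]; group)
    · apply hr0a
      rw [h, hneg a, mul_assoc, mul_inv_cancel, mul_one]
  have hcop : (Nat.card ↥(Subgroup.zpowers a)).Coprime (Nat.card R) := by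
    obtain ⟨k, hk⟩ := (IsPGroup.iff_card).mp ha
    rw [hk]
    exact Nat.Coprime.pow_left k hR.symm
  have hsolv : Group.IsSolvable ↥(Subgroup.zpowers a) := by
    apply Group.isSolvable_of_comm
    intro x y
    obtain ⟨k, hk⟩ := Subgroup.mem_zpowers_iff.mp x.2
    obtain ⟨l, hl⟩ := Subgroup.mem_zpowers_iff.mp y.2
    apply Subtype.ext
    show (x : Matrix.SpecialLinearGroup (Fin 2) F) * y = y * x
    rw [← hk, ← hl, ← zpow_add, ← zpow_add, add_comm]
  have hR2 : IsPGroup 2 R := by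
    have hprime : ∀ {ℓ : ℕ}, ℓ.Prime → ℓ ∣ Nat.card R → ℓ = 2 := by
      intro ℓ hℓ hdvd
      by_contra hℓ2
      haveI : Fact ℓ.Prime := ⟨hℓ⟩
      obtain ⟨P, hP⟩ := exists_invariant_sylow (Subgroup.zpowers a) R
        (Subgroup.zpowers_le.mpr haR) hcop (Or.inl hsolv) ℓ
      have hPcard : 1 < Nat.card (P : Subgroup R) := by
        rw [Sylow.card_eq_multiplicity]
        have : 0 < (Nat.card R).factorization ℓ :=
          hℓ.factorization_pos_of_dvd Nat.card_pos.ne' hdvd
        exact Nat.one_lt_pow this.ne' hℓ.one_lt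
      haveI : Nontrivial (P : Subgroup R) := Finite.one_lt_card_iff_nontrivial.mp hPcard
      haveI := IsPGroup.center_nontrivial P.2
      obtain ⟨z, hz1⟩ := exists_ne (1 : Subgroup.center (P : Subgroup R))
      obtain ⟨zz, hzz⟩ : ∃ zz : Matrix.SpecialLinearGroup (Fin 2) F,
          zz = (((z : (P : Subgroup R)) : R) : Matrix.SpecialLinearGroup (Fin 2) F) := ⟨_, rfl⟩
      have hzR : zz ∈ R := hzz ▸ ((z : (P : Subgroup R)) : R).2
      have hzS : zz ∈ (P : Subgroup R).map R.subtype :=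
        ⟨((z : (P : Subgroup R)) : R), (z : (P : Subgroup R)).2, hzz.symm⟩
      have hconj : a * zz * a⁻¹ ∈ (P : Subgroup R).map R.subtype :=
        (Subgroup.mem_normalizer_iff.mp (hP (Subgroup.mem_zpowers a)) zz).mp hzS
      obtain ⟨y, hyP, hy⟩ := hconj
      have hcomm : Commute zz (a * zz * a⁻¹) := by
        have h1 := Subgroup.mem_center_iff.mp z.2 ⟨y, hyP⟩
        have h2 := congrArg (fun t : (P : Subgroup R) =>
          ((t : R) : Matrix.SpecialLinearGroup (Fin 2) F)) h1
        show zz * (a * zz * a⁻¹) = a * zz * a⁻¹ * zz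
        rw [← hy, hzz]
        exact h2.symm
      have hzo : ∃ k, orderOf zz = ℓ ^ k := by
        obtain ⟨k, hk⟩ := (IsPGroup.iff_orderOf.mp P.2) (z : (P : Subgroup R))
        refine ⟨k, ?_⟩
        rw [hzz, Subgroup.orderOf_coe, Subgroup.orderOf_coe]
        exact hk
      rcases AB zz hzR hcomm with h | h
      · apply hz1
        apply Subtype.ext
        apply Subtype.ext
        apply Subtype.ext
        rw [← hzz, h]
        rfl
      · obtain ⟨k, hk⟩ := hzo
        rw [h, orderOf_neg_one h2F] at hk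
        have : ℓ ∣ 2 := by
          rcases Nat.eq_zero_or_pos k with hk0 | hk0
          · rw [hk0, pow_zero] at hk
            omega
          · rw [hk]
            exact dvd_pow_self ℓ hk0.ne'
        exact hℓ2 ((Nat.prime_dvd_prime_iff_eq hℓ Nat.prime_two).mp this)
    have := Nat.eq_prime_pow_of_unique_prime_dvd (Nat.card_pos (α := R)).ne' hprime
    exact IsPGroup.of_card this
  have hU : UniqP 2 ↥R := by
    intro x y hx hy hx1
    have hx' : (x : Matrix.SpecialLinearGroup (Fin 2) F) * x = 1 := by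
      have := congrArg Subtype.val hx
      simpa [pow_two] using this
    have hy' : (y : Matrix.SpecialLinearGroup (Fin 2) F) * y = 1 := by
      have := congrArg Subtype.val hy
      simpa [pow_two] using this
    have hxn : (x : Matrix.SpecialLinearGroup (Fin 2) F) = -1 := by
      rcases invol h2F _ hx' with h | h
      · exact absurd (Subtype.ext h) hx1
      · exact h
    rcases invol h2F _ hy' with h | h
    · have : y = 1 := Subtype.ext h
      rw [this]
      exact Subgroup.one_mem _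
    · have : y = x := Subtype.ext (by rw [h, hxn])
      rw [this]
      exact Subgroup.mem_zpowers x
  haveI : Fact (Nat.Prime 2) := ⟨Nat.prime_two⟩
  have hquat : ∃ n : ℕ, Nonempty (↥R ≃* QuaternionGroup (2 ^ n)) := by
    rcases uniqP_cyclic_or_quaternion 2 hR2 hU with hcyc | ⟨-, n, hn⟩
    · exfalso
      apply hnab
      intro x hx y hy
      obtain ⟨g, hg⟩ := hcyc.exists_generator
      obtain ⟨k, hk⟩ := Subgroup.mem_zpowers_iff.mp (hg ⟨x, hx⟩)
      obtain ⟨l, hl⟩ := Subgroup.mem_zpowers_iff.mp (hg ⟨y, hy⟩)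
      have h1 : (⟨x, hx⟩ : R) * ⟨y, hy⟩ = ⟨y, hy⟩ * ⟨x, hx⟩ := by
        rw [← hk, ← hl, ← zpow_add, ← zpow_add, add_comm]
      exact congrArg Subtype.val h1
    · exact ⟨n, hn⟩
  obtain ⟨n, ⟨e⟩⟩ := hquat
  have hn1 : 1 ≤ n := by
    by_contra hn0
    have hn0' : n = 0 := by omega
    subst hn0'
    apply hnab
    intro x hx y hy
    have hq : ∀ u v : QuaternionGroup (2 ^ 0), u * v = v * u := by decide
    have := hq (e ⟨x, hx⟩) (e ⟨y, hy⟩)
    rw [← map_mul, ← map_mul] at this
    exact congrArg Subtype.val (e.injective this)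
  have h2n : 2 ≤ 2 ^ n := by
    calc 2 = 2 ^ 1 := rfl
      _ ≤ 2 ^ n := Nat.pow_le_pow_right (by norm_num) hn1
  obtain ⟨z, α, c⟩ := qtype_of_equiv R hR2 (2 ^ n) h2n e
  have hz : z = -1 := by
    rcases invol h2F z c.z2 with h | h
    · exact absurd h c.z1
    · exact h
  have hβR : a * α * a⁻¹ ∈ R := hconjR α c.αT
  have hβ : a * α * a⁻¹ ∉ Subgroup.zpowers α := by
    intro hmem
    have hcomm : Commute α (a * α * a⁻¹) := by
      obtain ⟨k, hk⟩ := Subgroup.mem_zpowers_iff.mp hmem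
      rw [← hk]
      exact (Commute.refl α).zpow_right k
    have hcen : ∀ s ∈ Subgroup.zpowers α, ∀ g : Matrix.SpecialLinearGroup (Fin 2) F,
        s * g = g * s := by
      intro s hs g
      obtain ⟨k, rfl⟩ := Subgroup.mem_zpowers_iff.mp hs
      rcases AB α c.αT hcomm with h | h
      · rw [h]
        simp
      · rw [h]
        have hc1 : Commute (-1 : Matrix.SpecialLinearGroup (Fin 2) F) g := (hneg g).symm
        exact (hc1.zpow_left k).eq
    apply hnab
    intro x hx y hy
    by_cases hxα : x ∈ Subgroup.zpowers α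
    · exact hcen x hxα y
    · by_cases hyα : y ∈ Subgroup.zpowers α
      · exact (hcen y hyα x).symm
      · have hs := c.idx x hx y hy hxα hyα
        have h1 := hcen _ hs x
        have h1' : x⁻¹ * y * x = y := by
          rw [h1]
          group
        calc x * y = x * (x⁻¹ * y * x) := by rw [h1']
          _ = y * x := by group
  have hββ : a * α * a⁻¹ * (a * α * a⁻¹) = z := c.sq _ hβR hβ
  have hαα : α * α = -1 := by
    have : α * α = a⁻¹ * (a * α * a⁻¹ * (a * α * a⁻¹)) * a := by group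
    rw [this, hββ, hz]
    simp
  have hα4 : orderOf α = 4 := by
    have h := orderOf_eq_prime_pow (x := α) (p := 2) (n := 1)
      (by rw [pow_one, pow_two, hαα]; exact neg_one_ne h2F)
      (by
        have e4 : α ^ 2 ^ (1 + 1) = (α * α) * (α * α) := by
          rw [show (2 : ℕ) ^ (1 + 1) = 4 from rfl, pow_four_eq]
        rw [e4, hαα]
        simp)
    rw [h]
    norm_num
  have hcardR : Nat.card R = 8 := by
    have hle : Subgroup.zpowers α ≤ R := Subgroup.zpowers_le.mpr c.αT
    have hidx : ((Subgroup.zpowers α).subgroupOf R).index = 2 := by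
      rw [Subgroup.index_eq_two_iff]
      refine ⟨⟨a * α * a⁻¹, hβR⟩, ?_⟩
      intro b
      by_cases hb : b ∈ (Subgroup.zpowers α).subgroupOf R
      · right
        refine ⟨hb, ?_⟩
        intro hba
        apply hβ
        have := Subgroup.mul_mem _ (Subgroup.inv_mem _ hb) hba
        rw [inv_mul_cancel_left] at this
        exact Subgroup.mem_subgroupOf.mp this
      · left
        refine ⟨?_, hb⟩
        rw [Subgroup.mem_subgroupOf]
        have hb' : ((b : R) : Matrix.SpecialLinearGroup (Fin 2) F) ∉ Subgroup.zpowers α :=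
          fun h => hb (Subgroup.mem_subgroupOf.mpr h)
        have hbinv : ((b : R) : Matrix.SpecialLinearGroup (Fin 2) F)⁻¹ ∉ Subgroup.zpowers α :=
          fun h => hb' (by simpa using Subgroup.inv_mem _ h)
        have := c.idx _ (R.inv_mem b.2) _ hβR hbinv hβ
        simpa using this
    have h1 := Subgroup.card_mul_index ((Subgroup.zpowers α).subgroupOf R)
    rw [hidx, Nat.card_congr (Subgroup.subgroupOfEquivOfLe hle).toEquiv, Nat.card_zpowers,
      hα4] at h1
    omega
  have hn : n = 1 := by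
    have h1 : Nat.card R = Nat.card (QuaternionGroup (2 ^ n)) := Nat.card_congr e.toEquiv
    haveI : NeZero (2 ^ n) := ⟨by positivity⟩
    rw [hcardR, Nat.card_eq_fintype_card, QuaternionGroup.card] at h1
    have h2 : 2 ^ n = 2 ^ 1 := by omega
    exact Nat.pow_right_injective (le_refl 2) h2
  subst hn
  obtain ⟨L, hL⟩ : ∃ L : Subgroup (Matrix.SpecialLinearGroup (Fin 2) F),
      L = R ⊔ Subgroup.zpowers a := ⟨_, rfl⟩
  have hRL : R ≤ L := hL ▸ le_sup_left
  have haL : a ∈ L := hL ▸ (Subgroup.mem_sup_right (Subgroup.mem_zpowers a))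
  have e' : ↥(R.subgroupOf L) ≃* QuaternionGroup (2 ^ 1) :=
    (Subgroup.subgroupOfEquivOfLe hRL).trans e
  have hR2' : IsPGroup 2 ↥(R.subgroupOf L) :=
    hR2.of_equiv (Subgroup.subgroupOfEquivOfLe hRL).symm
  obtain ⟨z', α', c'⟩ := qtype_of_equiv (R.subgroupOf L) hR2' (2 ^ 1) (by norm_num) e'
  obtain ⟨g, hg⟩ : ∃ g : L, g = ⟨a, haL⟩ := ⟨_, rfl⟩
  have hgN : g ∈ Subgroup.normalizer ((R.subgroupOf L : Subgroup L) : Set L) := by
    rw [Subgroup.mem_normalizer_iff]
    intro x
    rw [Subgroup.mem_subgroupOf, Subgroup.mem_subgroupOf, hg]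
    exact Subgroup.mem_normalizer_iff.mp haR x
  have hog : orderOf g = orderOf a := by
    rw [hg, Subgroup.orderOf_mk]
  have hodd : Odd (orderOf g) := by
    rw [hog]
    obtain ⟨k, hk⟩ := (IsPGroup.iff_card).mp ha
    rw [Nat.card_zpowers] at hk
    rw [hk]
    exact Odd.pow (hpp.odd_of_ne_two hp)
  have hgC : g ∉ Subgroup.centralizer ((R.subgroupOf L : Subgroup L) : Set L) := by
    intro hcen
    rw [Subgroup.mem_centralizer_iff] at hcen
    have := hcen ⟨r0, hRL hr0⟩ (Subgroup.mem_subgroupOf.mpr hr0)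
    have h' : r0 * a = a * r0 := by
      have := congrArg Subtype.val this
      rw [hg] at this
      exact this
    apply hr0a
    rw [← h']
    group
  obtain ⟨i, j, h1, h2, h3, h4, h5, h6⟩ :=
    c'.exists_q8 (R.subgroupOf L) le_rfl g hgN hodd hgC
  have hi4 : i ^ 4 = 1 := by
    rw [← h1]
    exact pow_orderOf_eq_one i
  have hg3i : g ^ 3 * i * (g ^ 3)⁻¹ = i := by
    have e1 : g ^ 3 * i * (g ^ 3)⁻¹ = g * (g * (g * i * g⁻¹) * g⁻¹) * g⁻¹ := by
      simp only [pow_three_eq, mul_inv_rev, mul_assoc]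
    rw [e1, h5, h6]
    have e2 : g * (j * i ^ 3) * g⁻¹ = (g * j * g⁻¹) * (g * i * g⁻¹) ^ 3 := by
      rw [conj_pow]
      simp only [mul_assoc, inv_mul_cancel_left]
    rw [e2, h5, h6]
    have hj4 : j ^ 4 = 1 := by
      rw [pow_four_eq, h2, ← pow_add]
      exact hi4
    have hj3 : j ^ 3 = j⁻¹ := by
      apply eq_inv_of_mul_eq_one_left
      rw [← pow_succ]
      exact hj4
    have hi3 : i ^ 3 = i⁻¹ := by
      apply eq_inv_of_mul_eq_one_left
      rw [← pow_succ]
      exact hi4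
    rw [hj3, hi3, ← h3, mul_inv_cancel_right]
  have hp3 : p = 3 := by
    by_contra hne
    have hcop3 : Nat.Coprime 3 (orderOf g) := by
      rw [hog]
      obtain ⟨k, hk⟩ := (IsPGroup.iff_card).mp ha
      rw [Nat.card_zpowers] at hk
      rw [hk]
      apply Nat.Coprime.pow_right
      exact (Nat.coprime_primes Nat.prime_three hpp).mpr (fun h => hne h.symm)
    obtain ⟨m, hm⟩ := exists_pow_eq_self_of_coprime hcop3
    have hc3 : Commute (g ^ 3) i := by
      show g ^ 3 * i = i * g ^ 3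
      calc g ^ 3 * i = (g ^ 3 * i * (g ^ 3)⁻¹) * g ^ 3 := by rw [inv_mul_cancel_right]
        _ = i * g ^ 3 := by rw [hg3i]
    have hc : Commute g i := by
      have := hc3.pow_left m
      rwa [hm] at this
    apply h4
    rw [← h5, hc.eq, mul_inv_cancel_right]
    exact Subgroup.mem_zpowers i
  subst hp3
  have hio : orderOf ((i : L) : Matrix.SpecialLinearGroup (Fin 2) F) = 4 := by
    rw [Subgroup.orderOf_coe, h1]
  have ha3 : a ^ 3 = 1 := by
    by_contra hne
    have hpg : IsPGroup 3 ↥(Subgroup.zpowers (a ^ 3)) :=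
      ha.to_le (Subgroup.zpowers_le.mpr (Subgroup.pow_mem _ (Subgroup.mem_zpowers a) 3))
    have hcomm : Commute ((i : L) : Matrix.SpecialLinearGroup (Fin 2) F)
        (a ^ 3 * (i : L) * (a ^ 3)⁻¹) := by
      have := congrArg Subtype.val hg3i
      have h' : a ^ 3 * ((i : L) : Matrix.SpecialLinearGroup (Fin 2) F) * (a ^ 3)⁻¹ = (i : L) := by
        rw [hg] at this
        exact this
      rw [h']
    rcases ab 3 h2F (a ^ 3) hpg hne _ (by rw [hio]; decide) hcomm with h | h
    · rw [h, orderOf_one] at hio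
      omega
    · rw [h, orderOf_neg_one h2F] at hio
      omega
  have hoa : orderOf a = 3 := orderOf_eq_prime ha3 ha1
  have hcardL : Nat.card L = 24 := by
    have hdisj : R ⊓ Subgroup.zpowers a = ⊥ :=
      disjoint_iff.mp (Subgroup.disjoint_of_coprime_natCard
        (by rw [hcardR, Nat.card_zpowers, hoa]; decide))
    have h1 := relIndex_sup_eq_card (K := R) (A := Subgroup.zpowers a)
      (Subgroup.zpowers_le.mpr haR) hdisj
    rw [← hL, Nat.card_zpowers, hoa] at h1
    have h2 := Subgroup.card_mul_index (R.subgroupOf L)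
    rw [Nat.card_congr (Subgroup.subgroupOfEquivOfLe hRL).toEquiv, hcardR] at h2
    have h3 : (R.subgroupOf L).index = 3 := h1
    rw [h3] at h2
    omega
  obtain ⟨H₁, K₁, hK₁, ⟨e₂⟩⟩ := exists_sl23_section i j g h1 h2 h3 h4 h5 h6 hodd
  have hsurj : Function.Surjective
      (fun x : H₁ => e₂ (QuotientGroup.mk x)) := fun y => by
    obtain ⟨q, hq⟩ := e₂.surjective y
    obtain ⟨x, rfl⟩ := QuotientGroup.mk_surjective q
    exact ⟨x, hq⟩
  have hc24 : Nat.card (Matrix.SpecialLinearGroup (Fin 2) (ZMod 3)) = 24 :=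
    Cfsg.Agent.Lib.Helper11.card_sl23
  have hH1 : Nat.card H₁ = 24 := by
    have h1 : Nat.card (Matrix.SpecialLinearGroup (Fin 2) (ZMod 3)) ≤ Nat.card H₁ :=
      Nat.card_le_card_of_surjective _ hsurj
    have h2 : Nat.card H₁ ≤ Nat.card L := Subgroup.card_le_card_group H₁
    omega
  have hH1top : H₁ = ⊤ := Subgroup.eq_top_of_card_eq H₁ (by rw [hH1, hcardL])
  have hbij : Function.Bijective (fun x : H₁ => e₂ (QuotientGroup.mk x)) :=
    hsurj.bijective_of_nat_card_le (by rw [hH1, hc24])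
  have e₃ : H₁ ≃* Matrix.SpecialLinearGroup (Fin 2) (ZMod 3) :=
    MulEquiv.ofBijective (e₂.toMonoidHom.comp (QuotientGroup.mk' _)) hbij
  have e₄ : L ≃* H₁ := (Subgroup.topEquiv.symm).trans (MulEquiv.subgroupCongr hH1top.symm)
  refine ⟨rfl, ⟨e⟩, ?_⟩
  rw [← hL]
  exact ⟨e₄.trans e₃⟩

end Cfsg.Agent.S3740
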