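import Cfsg.Statements.S3741
import Cfsg.Agent.Lib.Helper21.Basic

set_option autoImplicit false
open Cfsg

namespace Cfsg.Agent.S3741

open Cfsg.Agent.Lib.Helper21

theorem relIndex_le_card_commutator {G : Type*} [Group G] [Finite G] (A B : Subgroup G) (a : G)
    (ha : a ∈ A) :
    (B ⊓ Subgroup.centralizer ({a} : Set G)).relIndex B ≤ Nat.card ↥⁅A, B⁆ := by
  classical
  set C := B ⊓ Subgroup.centralizer ({a} : Set G) with hC
  have hCcomm : ∀ c ∈ C, c * a * c⁻¹ = a := by
    intro c hc
    have h1 := Subgroup.mem_centralizer_iff.mp hc.2 a (Set.mem_singleton a)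
    rw [← h1, mul_inv_cancel_right]
  let g : ↥B ⧸ C.subgroupOf B → G := fun q =>
    Quotient.liftOn' q (fun b => (b : G) * a * (b : G)⁻¹) (fun b b' h => by
      have h' : b⁻¹ * b' ∈ C.subgroupOf B := QuotientGroup.leftRel_apply.mp h
      rw [Subgroup.mem_subgroupOf] at h'
      have h2 := hCcomm _ h'
      show (b : G) * a * (b : G)⁻¹ = (b' : G) * a * (b' : G)⁻¹
      have e : (b' : G) * a * (b' : G)⁻¹ =
          (b : G) * (((b⁻¹ * b' : ↥B) : G) * a * ((b⁻¹ * b' : ↥B) : G)⁻¹) * (b : G)⁻¹ := by
        simp only [Subgroup.coe_mul, Subgroup.coe_inv]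
        group
      rw [e, h2])
  have hg : ∀ q, g q * a⁻¹ ∈ ⁅A, B⁆ := by
    intro q
    induction q using Quotient.inductionOn' with
    | h b =>
      show (b : G) * a * (b : G)⁻¹ * a⁻¹ ∈ ⁅A, B⁆
      rw [Subgroup.commutator_comm]
      exact Subgroup.commutator_mem_commutator b.2 ha
  have hginj : Function.Injective g := by
    intro q q'
    induction q using Quotient.inductionOn' with
    | h b =>
    induction q' using Quotient.inductionOn' with
    | h b' =>
      intro h
      have h1 : (b : G) * a * (b : G)⁻¹ = (b' : G) * a * (b' : G)⁻¹ := h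
      apply Quotient.sound'
      rw [QuotientGroup.leftRel_apply, Subgroup.mem_subgroupOf]
      refine ⟨(b⁻¹ * b').2, ?_⟩
      show ((b⁻¹ * b' : ↥B) : G) ∈ Subgroup.centralizer ({a} : Set G)
      rw [Subgroup.mem_centralizer_iff]
      intro x hx
      rw [Set.mem_singleton_iff] at hx
      subst hx
      simp only [Subgroup.coe_mul, Subgroup.coe_inv]
      calc x * ((b : G)⁻¹ * b') = (b : G)⁻¹ * ((b : G) * x * (b : G)⁻¹) * b' := by group
        _ = (b : G)⁻¹ * ((b' : G) * x * (b' : G)⁻¹) * b' := by rw [h1]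
        _ = (b : G)⁻¹ * b' * x := by group
  have hinj : Function.Injective (fun q => (⟨g q * a⁻¹, hg q⟩ : ↥⁅A, B⁆)) := by
    intro q q' h
    have h1 : g q * a⁻¹ = g q' * a⁻¹ := congrArg Subtype.val h
    exact hginj (mul_right_cancel h1)
  have := Nat.card_le_card_of_injective _ hinj
  rw [Subgroup.relIndex, Subgroup.index]
  exact this


theorem count_lemma {G : Type*} [Group G] [Finite G] {p : ℕ} [Fact p.Prime] (hG : IsPGroup p G)
    (A B : Subgroup G) (hcard : Nat.card ↥⁅A, B⁆ ≤ p) :
    p * Nat.card {x : ↥A × ↥B // (x.1 : G) * x.2 = x.2 * x.1} =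
      Nat.card B * ((p - 1) * Nat.card ↥(A ⊓ Subgroup.centralizer (B : Set G)) + Nat.card A) := by
  classical
  have hp : p.Prime := Fact.out
  have key : ∀ a : ↥A, p * Nat.card {b : ↥B // (a : G) * b = b * a} =
      Nat.card B * (1 + (p - 1) * (if (a : G) ∈ Subgroup.centralizer (B : Set G) then 1 else 0)) := by
    intro a
    set C := B ⊓ Subgroup.centralizer ({(a : G)} : Set G) with hC
    have hcardC : Nat.card {b : ↥B // (a : G) * b = b * a} = Nat.card C := by
      apply Nat.card_congr
      refine ⟨fun b => ⟨b.1.1, b.1.2, ?_⟩, fun c => ⟨⟨c.1, c.2.1⟩, ?_⟩, fun b => rfl, fun c => rfl⟩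
      · exact mem_centralizer_singleton.mpr b.2
      · exact mem_centralizer_singleton.mp c.2.2
    have hidx := card_mul_relIndex (inf_le_left : C ≤ B)
    have hle : C.relIndex B ≤ p := (relIndex_le_card_commutator A B a a.2).trans hcard
    obtain ⟨n, hn⟩ := IsPGroup.iff_card.mp (hG.to_subgroup B)
    have hdvd : C.relIndex B ∣ p ^ n := hn ▸ Subgroup.relIndex_dvd_card C B
    obtain ⟨j, -, hj⟩ := (Nat.dvd_prime_pow hp).mp hdvd
    by_cases hcen : (a : G) ∈ Subgroup.centralizer (B : Set G)
    · have h1 : C.relIndex B = 1 := by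
        rw [Subgroup.relIndex_eq_one]
        intro b hb
        exact ⟨hb, mem_centralizer_singleton.mpr (Subgroup.mem_centralizer_iff.mp hcen b hb).symm⟩
      rw [if_pos hcen, hcardC, ← hidx, h1]
      have : 1 + (p - 1) * 1 = p := by have := hp.one_lt; omega
      rw [this]; ring
    · have h1 : C.relIndex B = p := by
        rcases Nat.eq_zero_or_pos j with h0 | hpos
        · exfalso
          rw [h0, pow_zero, Subgroup.relIndex_eq_one] at hj
          apply hcen
          rw [Subgroup.mem_centralizer_iff]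
          intro b hb
          exact (mem_centralizer_singleton.mp (hj hb).2).symm
        · have h2 : p ^ 1 ≤ p ^ j := Nat.pow_le_pow_right hp.pos hpos
          rw [pow_one] at h2
          rw [hj] at hle ⊢
          omega
      rw [if_neg hcen, hcardC, ← hidx, h1]
      ring
  have hsum : Nat.card {x : ↥A × ↥B // (x.1 : G) * x.2 = x.2 * x.1} =
      ∑ᶠ a : ↥A, Nat.card {b : ↥B // (a : G) * b = b * a} := by
    rw [Nat.card_congr (Equiv.subtypeProdEquivSigmaSubtype
      (fun (a : ↥A) (b : ↥B) => (a : G) * b = b * a))]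
    have := Fintype.ofFinite ↥A
    rw [Nat.card_sigma, finsum_eq_sum_of_fintype]
  have := Fintype.ofFinite ↥A
  rw [hsum, finsum_eq_sum_of_fintype, Finset.mul_sum]
  simp_rw [key]
  rw [← Finset.mul_sum, Finset.sum_add_distrib, ← Finset.mul_sum, Finset.sum_boole]
  congr 1
  simp only [Finset.sum_const, Finset.card_univ, smul_eq_mul, mul_one, Nat.cast_id]
  rw [add_comm]
  congr 1
  · congr 1
    rw [← Fintype.card_subtype, ← Nat.card_eq_fintype_card]
    have e : Nat.card ↥(A ⊓ Subgroup.centralizer (B : Set G)) =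
        Nat.card ↥((Subgroup.centralizer (B : Set G)).subgroupOf A) := by
      rw [← Subgroup.inf_subgroupOf_left]
      exact (Nat.card_congr (Subgroup.subgroupOfEquivOfLe (inf_le_left)).toEquiv).symm
    rw [e]
    rfl
  · exact (Nat.card_eq_fintype_card).symm

/-- Let A and B be subgroups of a finite p-group with [A, B] ≤ A ∩ B and [A, B] of order at most p. Then |A : C_A(B)| = |B : C_B(A)|. -/
theorem result {G : Type*} [Group G] [Finite G] {p : ℕ} [Fact p.Prime] (hG : IsPGroup p G) (A B : Subgroup G) (hAB : ⁅A, B⁆ ≤ A ⊓ B) (hcard : Nat.card ↥⁅A, B⁆ ≤ p) : (A ⊓ Subgroup.centralizer (B : Set G)).relIndex A = (B ⊓ Subgroup.centralizer (A : Set G)).relIndex B := by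
  classical
  have hp : p.Prime := Fact.out
  have h1 := count_lemma hG A B hcard
  have h2 := count_lemma hG B A (by rw [Subgroup.commutator_comm]; exact hcard)
  have hswap : Nat.card {x : ↥B × ↥A // (x.1 : G) * x.2 = x.2 * x.1} =
      Nat.card {x : ↥A × ↥B // (x.1 : G) * x.2 = x.2 * x.1} := by
    apply Nat.card_congr
    exact ⟨fun x => ⟨x.1.swap, x.2.symm⟩, fun x => ⟨x.1.swap, x.2.symm⟩, fun x => rfl, fun x => rfl⟩
  rw [hswap, h1] at h2
  have hA := card_mul_relIndex (inf_le_left : A ⊓ Subgroup.centralizer (B : Set G) ≤ A)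
  have hB := card_mul_relIndex (inf_le_left : B ⊓ Subgroup.centralizer (A : Set G) ≤ B)
  generalize Nat.card ↥(A ⊓ Subgroup.centralizer (B : Set G)) = x at *
  generalize Nat.card ↥(B ⊓ Subgroup.centralizer (A : Set G)) = y at *
  generalize (A ⊓ Subgroup.centralizer (B : Set G)).relIndex A = rA at *
  generalize (B ⊓ Subgroup.centralizer (A : Set G)).relIndex B = rB at *
  have hα : 0 < Nat.card A := Nat.card_pos
  have hβ : 0 < Nat.card B := Nat.card_pos
  generalize Nat.card ↥A = α at *
  generalize Nat.card ↥B = β at *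
  have hk : 0 < p - 1 := by have := hp.one_lt; omega
  generalize p - 1 = k at *
  have e1 : β * (k * x + α) = k * (β * x) + α * β := by ring
  have e2 : α * (k * y + β) = k * (α * y) + α * β := by ring
  rw [e1, e2] at h2
  have h3 : β * x = α * y := Nat.eq_of_mul_eq_mul_left hk (Nat.add_right_cancel h2)
  rw [← hA, ← hB] at h3
  have hx : 0 < x := by
    rcases Nat.eq_zero_or_pos x with h | h
    · rw [h, zero_mul] at hA; omega
    · exact h
  have hy : 0 < y := by
    rcases Nat.eq_zero_or_pos y with h | h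
    · rw [h, zero_mul] at hB; omega
    · exact h
  have h4 : (x * y) * rB = (x * y) * rA := by
    calc (x * y) * rB = y * rB * x := by ring
      _ = x * rA * y := h3
      _ = (x * y) * rA := by ring
  exact (Nat.eq_of_mul_eq_mul_left (Nat.mul_pos hx hy) h4).symm

end Cfsg.Agent.S3741
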