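import Cfsg.Statements.S5344

set_option autoImplicit false
open Cfsg

namespace Cfsg.Agent.S5344

/-- Names of the three generators. -/
inductive Gen : Type
  | x | y | z
  deriving DecidableEq

open Gen

/-- The three adjacent transpositions. -/
def sw : Gen → Equiv.Perm (Fin 4)
  | x => Equiv.swap 0 1
  | y => Equiv.swap 1 2
  | z => Equiv.swap 2 3

/-- Value of a word in the symmetric group. -/
def evP : List Gen → Equiv.Perm (Fin 4)
  | [] => 1
  | i :: l => sw i * evP l

/-- The 24 normal forms. -/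
def tbl : List (List Gen) :=
  ([[], [x]] : List (List Gen)).flatMap fun u1 =>
    ([[], [y], [y, x]] : List (List Gen)).flatMap fun u2 =>
      ([[], [z], [z, y], [z, y, x]] : List (List Gen)).map fun u3 => u1 ++ u2 ++ u3

/-- Normal form of a permutation. -/
def nf (γ : Equiv.Perm (Fin 4)) : List Gen :=
  (tbl.find? fun l => decide (evP l = γ)).getD []

/-- One rewriting step at the head. -/
def rw1 : List Gen → List Gen
  | x :: x :: l => l
  | y :: y :: l => l
  | z :: z :: l => l
  | z :: x :: l => x :: z :: l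
  | y :: x :: y :: l => x :: y :: x :: l
  | z :: y :: z :: l => y :: z :: y :: l
  | z :: y :: x :: z :: l => y :: z :: y :: x :: l
  | l => l

/-- One rewriting pass from the right. -/
def pass : List Gen → List Gen
  | [] => []
  | i :: l => rw1 (i :: pass l)

section grp

variable {G : Type*} [Group G]

/-- The three generators in `G`. -/
def gv (a b c : G) : Gen → G
  | x => a
  | y => b
  | z => c

/-- Value of a word in `G`. -/
def ev (a b c : G) : List Gen → G
  | [] => 1
  | i :: l => gv a b c i * ev a b c l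

theorem ev_append (a b c : G) (l m : List Gen) :
    ev a b c (l ++ m) = ev a b c l * ev a b c m := by
  induction l with
  | nil => simp [ev]
  | cons i l ih => simp [ev, ih, mul_assoc]

theorem e1 {a : G} (aa : a * a = 1) (t : G) : a * (a * t) = t := by
  rw [← mul_assoc, aa, one_mul]

theorem e4 {a b : G} (bab : b * a * b = a * b * a) (t : G) :
    a * (b * (a * t)) = b * (a * (b * t)) := by
  calc a * (b * (a * t)) = a * b * a * t := by simp only [mul_assoc]
    _ = b * a * b * t := by rw [bab]
    _ = b * (a * (b * t)) := by simp only [mul_assoc]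

theorem e6 {a b c : G} (ca : c * a = a * c) (cbc : c * b * c = b * c * b) (t : G) :
    b * (c * (b * (a * t))) = c * (b * (a * (c * t))) := by
  have h : c * b * a * c = b * c * b * a := by
    calc c * b * a * c = c * b * (a * c) := by rw [mul_assoc]
      _ = c * b * (c * a) := by rw [ca]
      _ = c * b * c * a := by rw [← mul_assoc]
      _ = b * c * b * a := by rw [cbc]
  calc b * (c * (b * (a * t))) = b * c * b * a * t := by simp only [mul_assoc]
    _ = c * b * a * c * t := by rw [h]
    _ = c * (b * (a * (c * t))) := by simp only [mul_assoc]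

theorem rw1_sound {a b c : G} (aa : a * a = 1) (bb : b * b = 1) (cc : c * c = 1)
    (ca : c * a = a * c) (bab : b * a * b = a * b * a) (cbc : c * b * c = b * c * b)
    (l : List Gen) : ev a b c (rw1 l) = ev a b c l := by
  fun_cases rw1 l
  · simp only [ev, gv]; exact (e1 aa _).symm
  · simp only [ev, gv]; exact (e1 bb _).symm
  · simp only [ev, gv]; exact (e1 cc _).symm
  · simp only [ev, gv]
    rw [← mul_assoc, ← mul_assoc, ca]
  · simp only [ev, gv]; exact e4 bab _
  · simp only [ev, gv]; exact e4 cbc _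
  · simp only [ev, gv]; exact e6 ca cbc _
  · rfl

theorem pass_sound {a b c : G} (aa : a * a = 1) (bb : b * b = 1) (cc : c * c = 1)
    (ca : c * a = a * c) (bab : b * a * b = a * b * a) (cbc : c * b * c = b * c * b)
    (l : List Gen) : ev a b c (pass l) = ev a b c l := by
  induction l with
  | nil => rfl
  | cons i l ih =>
    show ev a b c (rw1 (i :: pass l)) = ev a b c (i :: l)
    rw [rw1_sound aa bb cc ca bab cbc]
    simp only [ev, ih]

theorem braid {a b : G} (ha : a * a = 1) (hb : b * b = 1) (h : (a * b) ^ 3 = 1) :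
    b * a * b = a * b * a := by
  have h1 : a * b * a * (b * a * b) = 1 := by
    rw [← h]; simp only [pow_succ, pow_zero, one_mul, mul_assoc]
  have h2 : b * a * b = (a * b * a)⁻¹ := eq_inv_of_mul_eq_one_right h1
  rw [h2]
  simp only [mul_inv_rev, inv_eq_of_mul_eq_one_right ha, inv_eq_of_mul_eq_one_right hb,
    mul_assoc]

theorem cube_of_not_comm {a b : G} (ha : a * a = 1) (hb : b * b = 1) (hn : ¬ Commute a b)
    (h : (a * b) ^ 2 = 1 ∨ (a * b) ^ 3 = 1) : (a * b) ^ 3 = 1 := by
  rcases h with h | h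
  · exfalso; apply hn
    have h1 : a * b * (a * b) = 1 := by rw [← pow_two]; exact h
    have h2 : a * b = (a * b)⁻¹ := eq_inv_of_mul_eq_one_left h1
    rw [mul_inv_rev, inv_eq_of_mul_eq_one_right ha, inv_eq_of_mul_eq_one_right hb] at h2
    exact h2
  · exact h

end grp

set_option maxRecDepth 100000 in
theorem nf_evP : ∀ γ : Equiv.Perm (Fin 4), evP (nf γ) = γ := by decide

set_option maxRecDepth 100000 in
theorem nf_mul : ∀ γ : Equiv.Perm (Fin 4),
    nf (γ * sw x) = pass (nf γ ++ [x]) ∧ nf (γ * sw y) = pass (nf γ ++ [y]) ∧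
      nf (γ * sw z) = pass (nf γ ++ [z]) := by decide

theorem nf_mul' (γ : Equiv.Perm (Fin 4)) (i : Gen) :
    nf (γ * sw i) = pass (nf γ ++ [i]) := by
  cases i
  · exact (nf_mul γ).1
  · exact (nf_mul γ).2.1
  · exact (nf_mul γ).2.2

set_option maxRecDepth 100000 in
theorem nf_one : nf 1 = [] := by decide

set_option maxRecDepth 100000 in
theorem nf_x : nf (Equiv.swap 0 1) = [x] := by decide

set_option maxRecDepth 100000 in
theorem nf_y : nf (Equiv.swap 1 2) = [y] := by decide

set_option maxRecDepth 100000 in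
theorem nf_z : nf (Equiv.swap 2 3) = [z] := by decide

set_option maxRecDepth 100000 in
theorem ker_aux : ∀ γ : Equiv.Perm (Fin 4), γ ≠ 1 → ∃ τ : Equiv.Perm (Fin 4),
    (γ * (τ * γ * τ⁻¹) = Equiv.swap 0 1 * Equiv.swap 2 3 ∨
      γ * (τ * γ * τ⁻¹) = Equiv.swap 1 2 * (Equiv.swap 0 1 * Equiv.swap 2 3) * (Equiv.swap 1 2)⁻¹ ∨
      γ * (τ * γ * τ⁻¹) = Equiv.swap 1 3 * (Equiv.swap 0 1 * Equiv.swap 2 3) * (Equiv.swap 1 3)⁻¹) := by
  decide

theorem result {G : Type*} [Group G] {D : Set G} (hD : Cfsg.IsThreeTranspositionSet D) {a b c : G} (ha : a ∈ D) (hb : b ∈ D) (hc : c ∈ D) (hac : a ≠ c) (hac' : Commute a c) (hab : ¬ Commute a b) (hbc : ¬ Commute b c) : ∃ φ : Equiv.Perm (Fin 4) →* G, Function.Injective φ ∧ φ (Equiv.swap 0 1) = a ∧ φ (Equiv.swap 1 2) = b ∧ φ (Equiv.swap 2 3) = c := by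
  obtain ⟨hord, hprod⟩ := hD
  have aa : a * a = 1 := by
    have := pow_orderOf_eq_one a; rw [hord a ha, pow_two] at this; exact this
  have bb : b * b = 1 := by
    have := pow_orderOf_eq_one b; rw [hord b hb, pow_two] at this; exact this
  have cc : c * c = 1 := by
    have := pow_orderOf_eq_one c; rw [hord c hc, pow_two] at this; exact this
  have ca : c * a = a * c := hac'.symm
  have bab : b * a * b = a * b * a := braid aa bb (cube_of_not_comm aa bb hab (hprod a ha b hb))
  have cbc : c * b * c = b * c * b := braid bb cc (cube_of_not_comm bb cc hbc (hprod b hb c hc))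
  have hps : ∀ l, ev a b c (pass l) = ev a b c l := pass_sound aa bb cc ca bab cbc
  -- the map
  have step : ∀ (γ : Equiv.Perm (Fin 4)) (i : Gen),
      ev a b c (nf (γ * sw i)) = ev a b c (nf γ) * gv a b c i := by
    intro γ i
    rw [nf_mul', hps, ev_append]
    simp only [ev, mul_one]
  have hmulP : ∀ (l : List Gen) (γ : Equiv.Perm (Fin 4)),
      ev a b c (nf (γ * evP l)) = ev a b c (nf γ) * ev a b c l := by
    intro l
    induction l with
    | nil => intro γ; simp only [evP, ev, mul_one]
    | cons i l ih =>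
      intro γ
      have : γ * evP (i :: l) = γ * sw i * evP l := by simp only [evP, mul_assoc]
      rw [this, ih, step]
      simp only [ev, mul_assoc]
  have hmul : ∀ γ δ : Equiv.Perm (Fin 4),
      ev a b c (nf (γ * δ)) = ev a b c (nf γ) * ev a b c (nf δ) := by
    intro γ δ
    have := hmulP (nf δ) γ
    rw [nf_evP] at this
    exact this
  let φ : Equiv.Perm (Fin 4) →* G :=
    { toFun := fun γ => ev a b c (nf γ)
      map_one' := by rw [nf_one]; rfl
      map_mul' := hmul }
  have hφ : ∀ γ, φ γ = ev a b c (nf γ) := fun γ => rfl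
  have hφx : φ (Equiv.swap 0 1) = a := by rw [hφ, nf_x]; simp only [ev, gv, mul_one]
  have hφy : φ (Equiv.swap 1 2) = b := by rw [hφ, nf_y]; simp only [ev, gv, mul_one]
  have hφz : φ (Equiv.swap 2 3) = c := by rw [hφ, nf_z]; simp only [ev, gv, mul_one]
  refine ⟨φ, ?_, hφx, hφy, hφz⟩
  rw [injective_iff_map_eq_one]
  intro γ hγ
  by_contra hne
  have hxz : φ (Equiv.swap 0 1 * Equiv.swap 2 3) ≠ 1 := by
    rw [map_mul, hφx, hφz]
    intro h
    apply hac
    have := eq_inv_of_mul_eq_one_left h
    rw [inv_eq_of_mul_eq_one_right cc] at this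
    exact this
  obtain ⟨τ, hτ⟩ := ker_aux γ hne
  have h1 : φ (γ * (τ * γ * τ⁻¹)) = 1 := by
    simp only [map_mul, hγ, map_inv, mul_one, mul_inv_cancel]
  have hconj : ∀ ρ : Equiv.Perm (Fin 4),
      φ (ρ * (Equiv.swap 0 1 * Equiv.swap 2 3) * ρ⁻¹) ≠ 1 := by
    intro ρ h
    apply hxz
    have : φ ρ * φ (Equiv.swap 0 1 * Equiv.swap 2 3) * (φ ρ)⁻¹ = 1 := by
      rw [← map_inv, ← map_mul, ← map_mul]; exact h
    have h2 : φ ρ * φ (Equiv.swap 0 1 * Equiv.swap 2 3) = φ ρ := by
      have := mul_eq_one_iff_eq_inv.1 this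
      rw [inv_inv] at this
      exact this
    exact mul_eq_left.1 h2
  rcases hτ with h | h | h
  · rw [h] at h1; exact hxz h1
  · rw [h] at h1; exact hconj _ h1
  · rw [h] at h1; exact hconj _ h1

end Cfsg.Agent.S5344
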