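import Cfsg.Statements.S3742
import Cfsg.Agent.S5344

set_option autoImplicit false
open Cfsg

namespace Cfsg.Agent.S3742

open QuaternionGroup

/-- An involutive multiplicative map gives an automorphism. -/
def mkAut (f : QuaternionGroup 2 → QuaternionGroup 2) (h2 : ∀ x, f (f x) = x)
    (hm : ∀ x y, f (x * y) = f x * f y) : MulAut (QuaternionGroup 2) :=
  { toFun := f, invFun := f, left_inv := h2, right_inv := h2, map_mul' := hm }

theorem mkAut_apply (f : QuaternionGroup 2 → QuaternionGroup 2) (h2 : ∀ x, f (f x) = x)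
    (hm : ∀ x y, f (x * y) = f x * f y) (x : QuaternionGroup 2) : mkAut f h2 hm x = f x := rfl

/-- `i ↔ j`. -/
def fA : QuaternionGroup 2 → QuaternionGroup 2
  | .a k => (![a 0, xa 0, a 2, xa 2] : Fin 4 → QuaternionGroup 2) k
  | .xa k => (![a 1, xa 3, a 3, xa 1] : Fin 4 → QuaternionGroup 2) k

/-- `j ↔ k`. -/
def fB : QuaternionGroup 2 → QuaternionGroup 2
  | .a k => (![a 0, a 3, a 2, a 1] : Fin 4 → QuaternionGroup 2) k
  | .xa k => (![xa 3, xa 2, xa 1, xa 0] : Fin 4 → QuaternionGroup 2) k

/-- `i ↦ -j`, `j ↦ -i`. -/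
def fC : QuaternionGroup 2 → QuaternionGroup 2
  | .a k => (![a 0, xa 2, a 2, xa 0] : Fin 4 → QuaternionGroup 2) k
  | .xa k => (![a 3, xa 3, a 1, xa 1] : Fin 4 → QuaternionGroup 2) k

theorem fA_sq : ∀ x, fA (fA x) = x := by decide
theorem fB_sq : ∀ x, fB (fB x) = x := by decide
theorem fC_sq : ∀ x, fC (fC x) = x := by decide
theorem fA_mul : ∀ x y, fA (x * y) = fA x * fA y := by decide
theorem fB_mul : ∀ x y, fB (x * y) = fB x * fB y := by decide
theorem fC_mul : ∀ x y, fC (x * y) = fC x * fC y := by decide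

/-- The three automorphisms. -/
def uA : MulAut (QuaternionGroup 2) := mkAut fA fA_sq fA_mul
def uB : MulAut (QuaternionGroup 2) := mkAut fB fB_sq fB_mul
def uC : MulAut (QuaternionGroup 2) := mkAut fC fC_sq fC_mul

theorem uA_apply (x : QuaternionGroup 2) : uA x = fA x := rfl
theorem uB_apply (x : QuaternionGroup 2) : uB x = fB x := rfl
theorem uC_apply (x : QuaternionGroup 2) : uC x = fC x := rfl

theorem uA_sq : uA * uA = 1 := by
  ext x; simp only [MulAut.mul_apply, MulAut.one_apply, uA_apply]; exact fA_sq x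
theorem uB_sq : uB * uB = 1 := by
  ext x; simp only [MulAut.mul_apply, MulAut.one_apply, uB_apply]; exact fB_sq x
theorem uC_sq : uC * uC = 1 := by
  ext x; simp only [MulAut.mul_apply, MulAut.one_apply, uC_apply]; exact fC_sq x

theorem fAC : ∀ x, fA (fC x) = fC (fA x) := by decide
theorem fAB3 : ∀ x, fA (fB (fA (fB (fA (fB x))))) = x := by decide
theorem fBA3 : ∀ x, fB (fA (fB (fA (fB (fA x))))) = x := by decide
theorem fBC3 : ∀ x, fB (fC (fB (fC (fB (fC x))))) = x := by decide
theorem fCB3 : ∀ x, fC (fB (fC (fB (fC (fB x))))) = x := by decide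

theorem uAC : uA * uC = uC * uA := by
  ext x; simp only [MulAut.mul_apply, uA_apply, uC_apply]; exact fAC x

theorem uAB3 : (uA * uB) ^ 3 = 1 := by
  ext x
  simp only [pow_succ, pow_zero, one_mul, MulAut.mul_apply, MulAut.one_apply, uA_apply, uB_apply]
  exact fAB3 x
theorem uBA3 : (uB * uA) ^ 3 = 1 := by
  ext x
  simp only [pow_succ, pow_zero, one_mul, MulAut.mul_apply, MulAut.one_apply, uA_apply, uB_apply]
  exact fBA3 x
theorem uBC3 : (uB * uC) ^ 3 = 1 := by
  ext x
  simp only [pow_succ, pow_zero, one_mul, MulAut.mul_apply, MulAut.one_apply, uB_apply, uC_apply]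
  exact fBC3 x
theorem uCB3 : (uC * uB) ^ 3 = 1 := by
  ext x
  simp only [pow_succ, pow_zero, one_mul, MulAut.mul_apply, MulAut.one_apply, uB_apply, uC_apply]
  exact fCB3 x

theorem uA_ne_one : uA ≠ 1 := by
  intro h
  have := congrArg (fun f : MulAut (QuaternionGroup 2) => f (a 1)) h
  simp only [MulAut.one_apply, uA_apply] at this
  exact absurd this (by decide)
theorem uB_ne_one : uB ≠ 1 := by
  intro h
  have := congrArg (fun f : MulAut (QuaternionGroup 2) => f (a 1)) h
  simp only [MulAut.one_apply, uB_apply] at this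
  exact absurd this (by decide)
theorem uC_ne_one : uC ≠ 1 := by
  intro h
  have := congrArg (fun f : MulAut (QuaternionGroup 2) => f (a 1)) h
  simp only [MulAut.one_apply, uC_apply] at this
  exact absurd this (by decide)

theorem uA_ne_uC : uA ≠ uC := by
  intro h
  have := congrArg (fun f : MulAut (QuaternionGroup 2) => f (a 1)) h
  simp only [uA_apply, uC_apply] at this
  exact absurd this (by decide)

theorem not_comm_AB : ¬ Commute uA uB := by
  intro h
  have := congrArg (fun f : MulAut (QuaternionGroup 2) => f (a 1)) h.eq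
  simp only [MulAut.mul_apply, uA_apply, uB_apply] at this
  exact absurd this (by decide)

theorem not_comm_BC : ¬ Commute uB uC := by
  intro h
  have := congrArg (fun f : MulAut (QuaternionGroup 2) => f (a 1)) h.eq
  simp only [MulAut.mul_apply, uB_apply, uC_apply] at this
  exact absurd this (by decide)

theorem order_two {x : MulAut (QuaternionGroup 2)} (h : x * x = 1) (h1 : x ≠ 1) :
    orderOf x = 2 := by
  have : Fact (Nat.Prime 2) := ⟨Nat.prime_two⟩
  exact orderOf_eq_prime (by rw [pow_two]; exact h) h1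

theorem three_transp : Cfsg.IsThreeTranspositionSet ({uA, uB, uC} : Set (MulAut (QuaternionGroup 2))) := by
  refine ⟨?_, ?_⟩
  · intro d hd
    rcases hd with rfl | rfl | rfl
    · exact order_two uA_sq uA_ne_one
    · exact order_two uB_sq uB_ne_one
    · exact order_two uC_sq uC_ne_one
  · intro d hd e he
    rcases hd with rfl | rfl | rfl <;> rcases he with rfl | rfl | rfl
    · left; rw [uA_sq]; exact one_pow 2
    · right; exact uAB3
    · left; rw [pow_two, mul_assoc, ← mul_assoc uC, ← uAC, mul_assoc, uC_sq, mul_one, uA_sq]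
    · right; exact uBA3
    · left; rw [uB_sq]; exact one_pow 2
    · right; exact uBC3
    · left; rw [pow_two, mul_assoc, ← mul_assoc uA, uAC, mul_assoc, uA_sq, mul_one, uC_sq]
    · right; exact uCB3
    · left; rw [uC_sq]; exact one_pow 2

/-- The pairs of possible images of the two generators. -/
abbrev Pairs : Type :=
  {p : QuaternionGroup 2 × QuaternionGroup 2 //
    p.1 ^ 2 ≠ 1 ∧ p.2 ^ 2 ≠ 1 ∧ p.2 ≠ p.1 ∧ p.2 ≠ p.1⁻¹}

theorem card_pairs : Fintype.card Pairs = 24 := by decide

theorem gen_q8 : ∀ x : QuaternionGroup 2, ∃ m n : Fin 4,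
    x = (xa 0 : QuaternionGroup 2) ^ (m : ℕ) * (a 1 : QuaternionGroup 2) ^ (n : ℕ) := by decide

/-- An automorphism is determined by two values. -/
def toPairs (f : MulAut (QuaternionGroup 2)) : Pairs :=
  ⟨(f (a 1), f (xa 0)), by
    refine ⟨?_, ?_, ?_, ?_⟩
    · show f (a 1) ^ 2 ≠ 1
      rw [← map_pow]
      intro h
      have h' : (a 1 : QuaternionGroup 2) ^ 2 = 1 := f.injective (by rw [h, map_one])
      exact absurd h' (by decide)
    · show f (xa 0) ^ 2 ≠ 1
      rw [← map_pow]
      intro h
      have h' : (xa 0 : QuaternionGroup 2) ^ 2 = 1 := f.injective (by rw [h, map_one])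
      exact absurd h' (by decide)
    · show f (xa 0) ≠ f (a 1)
      exact f.injective.ne (by decide)
    · show f (xa 0) ≠ (f (a 1))⁻¹
      rw [← map_inv]
      exact f.injective.ne (by decide)⟩

theorem toPairs_injective : Function.Injective toPairs := by
  intro f g h
  have h1 : f (a 1) = g (a 1) := congrArg (fun p : Pairs => p.1.1) h
  have h2 : f (xa 0) = g (xa 0) := congrArg (fun p : Pairs => p.1.2) h
  ext x
  obtain ⟨m, n, rfl⟩ := gen_q8 x
  rw [map_mul, map_mul, map_pow, map_pow, map_pow, map_pow, h1, h2]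

theorem result : Nonempty (MulAut (QuaternionGroup 2) ≃* Equiv.Perm (Fin 4)) := by
  obtain ⟨φ, hφ, -⟩ := Cfsg.Agent.S5344.result three_transp
    (a := uA) (b := uB) (c := uC) (by simp) (by simp) (by simp) uA_ne_uC uAC not_comm_AB not_comm_BC
  have hfin : Finite (MulAut (QuaternionGroup 2)) := Finite.of_injective _ toPairs_injective
  have hc : Nat.card (MulAut (QuaternionGroup 2)) ≤ Nat.card (Equiv.Perm (Fin 4)) := by
    have h1 : Nat.card (MulAut (QuaternionGroup 2)) ≤ Nat.card Pairs :=
      Nat.card_le_card_of_injective _ toPairs_injective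
    have h2 : Nat.card Pairs = 24 := by rw [Nat.card_eq_fintype_card]; exact card_pairs
    have h3 : Nat.card (Equiv.Perm (Fin 4)) = 24 := by
      rw [Nat.card_eq_fintype_card, Fintype.card_perm, Fintype.card_fin]; rfl
    rw [h3, ← h2]; exact h1
  have hbij : Function.Bijective φ := hφ.bijective_of_nat_card_le hc
  exact ⟨(MulEquiv.ofBijective φ hbij).symm⟩

end Cfsg.Agent.S3742
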