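import Cfsg.Statements.S3746
import Mathlib
import Cfsg.Agent.Lib.Helper11.Components
import Cfsg.Agent.Lib.Helper11.Bender

set_option autoImplicit false
open Cfsg

namespace Cfsg.Agent.S3746

open scoped commutatorElement Pointwise
open Cfsg.Agent.Lib.Helper11

theorem commElem_central_right {G : Type*} [Group G] (n h z : G) (hz : ∀ g, g * z = z * g) :
    ⁅n, h * z⁆ = ⁅n, h⁆ := by
  rw [← commutatorElement_inv (h * z) n, commElem_mul_central h z n hz, commutatorElement_inv]

theorem comm_sup_central {G : Type*} [Group G] (A Z : Subgroup G) (hZ : Z ≤ Subgroup.center G) :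
    ⁅A ⊔ Z, A ⊔ Z⁆ ≤ ⁅A, A⁆ := by
  haveI hZn : Z.Normal := by
    constructor
    intro z hz g
    have := Subgroup.mem_center_iff.mp (hZ hz) g
    have h2 : g * z * g⁻¹ = z := by rw [this, mul_inv_cancel_right]
    rw [h2]; exact hz
  rw [Subgroup.commutator_le]
  intro x hx y hy
  have hx' : x ∈ ((A ⊔ Z : Subgroup G) : Set G) := hx
  have hy' : y ∈ ((A ⊔ Z : Subgroup G) : Set G) := hy
  rw [Subgroup.mul_normal] at hx' hy'
  obtain ⟨a, ha, z, hz, rfl⟩ := Set.mem_mul.mp hx'
  obtain ⟨b, hb, w, hw, rfl⟩ := Set.mem_mul.mp hy'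
  rw [commElem_mul_central a z _ (fun g => Subgroup.mem_center_iff.mp (hZ hz) g),
    commElem_central_right a b w (fun g => Subgroup.mem_center_iff.mp (hZ hw) g)]
  exact Subgroup.commutator_mem_commutator ha hb

/-- Let Z ≤ Z(G) be a central subgroup of a finite group G and E a subgroup of G containing Z whose image E/Z is a component of G/Z (subnormal and quasisimple). Then the derived subgroup [E, E] is a component of G. -/
theorem result {G : Type*} [Group G] [Finite G] (Z : Subgroup G) (hZ : Z ≤ Subgroup.center G) [Z.Normal] (E : Subgroup G) (hZE : Z ≤ E) (hE : Cfsg.IsComponent (E.map (QuotientGroup.mk' Z))) : Cfsg.IsComponent ⁅E, E⁆ := by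
  classical
  set π := QuotientGroup.mk' Z with hπ
  set Q := E.map π with hQ
  set D : Subgroup G := ⁅E, E⁆ with hD
  have hker : π.ker = Z := QuotientGroup.ker_mk' Z
  have hQperf : ⁅Q, Q⁆ = Q := component_perfect hE
  have hDQ : D.map π = Q := by rw [hD, Subgroup.map_commutator]; exact hQperf
  have hEn : E ≤ Subgroup.normalizer ((⁅E, E⁆ : Subgroup G) : Set G) :=
    le_normalizer_commutator_self E
  have hDE : D ≤ E := by
    rw [hD, Subgroup.commutator_le]
    intro x hx y hy
    exact E.mul_mem (E.mul_mem (E.mul_mem hx hy) (E.inv_mem hx)) (E.inv_mem hy)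
  have hEDZ : E ≤ D ⊔ Z := by
    have h1 : E ≤ (E.map π).comap π := Subgroup.le_comap_map π E
    rw [← hQ, ← hDQ, Subgroup.comap_map_eq, hker] at h1
    exact h1
  have hDD : ⁅D, D⁆ ≤ D := by
    rw [Subgroup.commutator_le]
    intro x hx y hy
    exact D.mul_mem (D.mul_mem (D.mul_mem hx hy) (D.inv_mem hx)) (D.inv_mem hy)
  have hDperf : ⁅D, D⁆ = D := by
    apply le_antisymm hDD
    calc D = ⁅E, E⁆ := rfl
      _ ≤ ⁅D ⊔ Z, D ⊔ Z⁆ := Subgroup.commutator_mono hEDZ hEDZ
      _ ≤ ⁅D, D⁆ := comm_sup_central D Z hZ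
  have hEsub : E.IsSubnormal := by
    have h1 : (Q.comap π).IsSubnormal := hE.1.comap π
    have h2 : Q.comap π = E := by
      rw [hQ, Subgroup.comap_map_eq, hker]; exact sup_of_le_left hZE
    rwa [h2] at h1
  have hDsub : D.IsSubnormal := by
    refine Subgroup.IsSubnormal.trans hDE ?_ hEsub
    apply Subgroup.Normal.isSubnormal
    rw [Subgroup.normal_subgroupOf_iff_le_normalizer hDE]
    exact hEn
  haveI hQnt : Nontrivial ↥Q := qs_nontrivial hE.2
  have hDne : D ≠ ⊥ := by
    intro h0
    have : Q = ⊥ := by rw [← hDQ, h0, Subgroup.map_bot]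
    exact (Subgroup.nontrivial_iff_ne_bot Q).mp hQnt this
  have hqs : Cfsg.IsQuasisimple ↥D := by
    apply qs_of_normal_central
    · apply Subgroup.map_injective D.subtype_injective
      rw [Subgroup.map_subtype_commutator, hDperf, ← MonoidHom.range_eq_map, Subgroup.range_subtype]
    · exact (Subgroup.nontrivial_iff_ne_bot D).mpr hDne
    · intro N hN hNtop
      set N' : Subgroup G := N.map D.subtype with hN'
      have hN'D : N' ≤ D := by
        rintro _ ⟨n, -, rfl⟩; exact n.2
      have hMn : ((N'.map π).subgroupOf Q).Normal := by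
        constructor
        rintro ⟨y, hyQ⟩ hy ⟨q, hqQ⟩
        rw [Subgroup.mem_subgroupOf] at hy ⊢
        obtain ⟨n, hn, hn2⟩ := hy
        rw [← hDQ] at hqQ
        obtain ⟨d, hd, rfl⟩ := hqQ
        refine ⟨d * n * d⁻¹, ?_, ?_⟩
        · obtain ⟨n0, hn0, rfl⟩ := hn
          exact ⟨⟨d, hd⟩ * n0 * ⟨d, hd⟩⁻¹, hN.conj_mem n0 hn0 ⟨d, hd⟩, rfl⟩
        · simp only [map_mul, map_inv, hn2]
          rfl
      rcases eq_or_ne ((N'.map π).subgroupOf Q) ⊤ with htop | hne
      · exfalso
        apply hNtop
        rw [Subgroup.subgroupOf_eq_top] at htop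
        have h1 : D ≤ N' ⊔ Z := by
          have h2 : D ≤ (D.map π).comap π := Subgroup.le_comap_map π D
          have h3 : (D.map π).comap π ≤ (N'.map π).comap π := by
            apply Subgroup.comap_mono
            rw [hDQ]; exact htop
          rw [Subgroup.comap_map_eq, Subgroup.comap_map_eq, hker] at h3
          exact le_sup_left.trans h3
        have h4 : D ≤ N' := by
          calc D = ⁅D, D⁆ := hDperf.symm
            _ ≤ ⁅N' ⊔ Z, N' ⊔ Z⁆ := Subgroup.commutator_mono h1 h1
            _ ≤ ⁅N', N'⁆ := comm_sup_central N' Z hZ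
            _ ≤ N' := by
              rw [Subgroup.commutator_le]
              intro x hx y hy
              exact N'.mul_mem (N'.mul_mem (N'.mul_mem hx hy) (N'.inv_mem hx)) (N'.inv_mem hy)
        rw [eq_top_iff]
        intro x _
        obtain ⟨n, hn, hnx⟩ := h4 x.2
        have : n = x := Subtype.ext hnx
        rwa [← this]
      · have hcen := qs_normal_le_center hE.2 _ hMn hne
        have h1 : ⁅N', D⁆ ≤ Z := by
          rw [Subgroup.commutator_le]
          intro n hn d hd
          rw [← hker, MonoidHom.mem_ker, map_commutatorElement]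
          have hnQ : π n ∈ Q := by rw [← hDQ]; exact Subgroup.mem_map_of_mem π (hN'D hn)
          have hdQ : π d ∈ Q := by rw [← hDQ]; exact Subgroup.mem_map_of_mem π hd
          have hmem : (⟨π n, hnQ⟩ : ↥Q) ∈ (N'.map π).subgroupOf Q := by
            rw [Subgroup.mem_subgroupOf]; exact Subgroup.mem_map_of_mem π hn
          have hc := Subgroup.mem_center_iff.mp (hcen hmem) ⟨π d, hdQ⟩
          have hc' : π d * π n = π n * π d := congrArg Subtype.val hc
          rw [commutatorElement_eq_one_iff_mul_comm]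
          exact hc'.symm
        have h2 : ⁅⁅N', D⁆, D⁆ = ⊥ := by
          rw [eq_bot_iff]
          calc ⁅⁅N', D⁆, D⁆ ≤ ⁅Z, D⁆ := Subgroup.commutator_mono h1 le_rfl
            _ ≤ ⊥ := by
              rw [Subgroup.commutator_le]
              intro z hz d _
              rw [Subgroup.mem_bot, commutatorElement_eq_one_iff_mul_comm]
              exact (Subgroup.mem_center_iff.mp (hZ hz) d).symm
        have h3 : ⁅D, N'⁆ = ⊥ := perfect_comm_of_triple hDperf h2
        intro n hn
        rw [Subgroup.mem_center_iff]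
        intro g
        apply Subtype.ext
        have h4 : ⁅(g : G), (n : G)⁆ ∈ ⁅D, N'⁆ :=
          Subgroup.commutator_mem_commutator g.2 ⟨n, hn, rfl⟩
        rw [h3, Subgroup.mem_bot, commutatorElement_eq_one_iff_mul_comm] at h4
        exact h4
  exact ⟨hDsub, hqs⟩

end Cfsg.Agent.S3746
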