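import Cfsg.Statements.S3747
import Mathlib
import Cfsg.Agent.Lib.Helper11.Components
import Cfsg.Agent.Lib.Helper11.Bender
import Cfsg.Agent.Lib.Helper11.GenFit
import Cfsg.Agent.Lib.Helper18.Subnormal
import Cfsg.Agent.Lib.Helper21.Nilp

set_option autoImplicit false
open Cfsg

namespace Cfsg.Agent.S3747

open scoped commutatorElement Pointwise
open Cfsg.Agent.Lib.Helper11

theorem center_sup {G : Type*} [Group G] {A B : Subgroup G}
    (hA : A ⊓ Subgroup.centralizer (A : Set G) = ⊥)
    (hB : B ⊓ Subgroup.centralizer (B : Set G) = ⊥)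
    (hAB : B ≤ Subgroup.centralizer (A : Set G)) :
    (A ⊔ B) ⊓ Subgroup.centralizer ((A ⊔ B : Subgroup G) : Set G) = ⊥ := by
  rw [eq_bot_iff]
  rintro z ⟨hz1, hz2⟩
  have hAB' : A ≤ Subgroup.centralizer (B : Set G) := by
    intro a ha
    rw [Subgroup.mem_centralizer_iff]
    intro b hb
    exact ((Subgroup.mem_centralizer_iff.mp (hAB hb)) a ha).symm
  obtain ⟨a, ha, b, hb, rfl⟩ := Cfsg.Agent.Lib.Helper18.mem_sup_of_le_normalizer
    (hAB'.trans (Subgroup.centralizer_le_normalizer _)) hz1
  have hz2' := Subgroup.mem_centralizer_iff.mp hz2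
  have ha1 : a = 1 := by
    have hmem : a ∈ A ⊓ Subgroup.centralizer (A : Set G) := by
      refine Subgroup.mem_inf.mpr ⟨ha, ?_⟩
      rw [Subgroup.mem_centralizer_iff]
      intro x hx
      have h1 := hz2' x (Subgroup.mem_sup_left hx)
      have h2 := Subgroup.mem_centralizer_iff.mp (hAB hb) x hx
      have h3 : x * a * b = a * x * b := by
        rw [mul_assoc, h1, mul_assoc, mul_assoc, h2]
      exact mul_right_cancel h3
    rw [hA] at hmem; exact hmem
  have hb1 : b = 1 := by
    have hmem : b ∈ B ⊓ Subgroup.centralizer (B : Set G) := by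
      refine Subgroup.mem_inf.mpr ⟨hb, ?_⟩
      rw [Subgroup.mem_centralizer_iff]
      intro x hx
      have h1 := hz2' x (Subgroup.mem_sup_right hx)
      rw [ha1, one_mul] at h1
      exact h1
    rw [hB] at hmem; exact hmem
  rw [ha1, hb1, one_mul]
  exact Subgroup.one_mem _

theorem center_sSup {G : Type*} [Group G] (T : Set (Subgroup G)) (hT : T.Finite)
    (h1 : ∀ A ∈ T, A ⊓ Subgroup.centralizer (A : Set G) = ⊥)
    (h2 : ∀ A ∈ T, ∀ B ∈ T, A ≠ B → B ≤ Subgroup.centralizer (A : Set G)) :
    sSup T ⊓ Subgroup.centralizer ((sSup T : Subgroup G) : Set G) = ⊥ := by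
  induction T, hT using Set.Finite.induction_on with
  | empty => simp
  | @insert A S hAS hS ih =>
    rw [sSup_insert]
    apply center_sup (h1 A (Set.mem_insert _ _))
    · apply ih
      · intro B hB; exact h1 B (Set.mem_insert_of_mem _ hB)
      · intro B hB C hC hne
        exact h2 B (Set.mem_insert_of_mem _ hB) C (Set.mem_insert_of_mem _ hC) hne
    · apply sSup_le
      intro B hB
      exact h2 A (Set.mem_insert _ _) B (Set.mem_insert_of_mem _ hB)
        (by rintro rfl; exact hAS hB)

theorem part_a {G : Type*} [Group G] [Finite G] (K : Subgroup G) (hK : Cfsg.IsComponent K)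
    (hZ : Subgroup.center ↥K = ⊥) :
    Subgroup.normalClosure (K : Set G) ≠ ⊥ ∧ ∀ N : Subgroup G, N.Normal →
      N ≤ Subgroup.normalClosure (K : Set G) → N = ⊥ ∨ N = Subgroup.normalClosure (K : Set G) := by
  classical
  set M := Subgroup.normalClosure (K : Set G) with hM
  have hKM : K ≤ M := Subgroup.le_normalClosure
  haveI hKnt : Nontrivial ↥K := qs_nontrivial hK.2
  have hKne : K ≠ ⊥ := (Subgroup.nontrivial_iff_ne_bot K).mp hKnt
  refine ⟨fun h => hKne (le_bot_iff.mp (h ▸ hKM)), ?_⟩
  intro N hN hNM
  by_cases hKN : K ≤ N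
  · right
    exact le_antisymm hNM (Subgroup.normalClosure_le_normal hKN)
  · left
    have hcomm : ⁅K, N⁆ = ⊥ := (component_le_or_comm hK hN.isSubnormal).resolve_left hKN
    have hKc : K ≤ Subgroup.centralizer (N : Set G) :=
      Subgroup.commutator_eq_bot_iff_le_centralizer.mp hcomm
    have hMc : M ≤ Subgroup.centralizer (N : Set G) := Subgroup.normalClosure_le_normal hKc
    have hNc : N ≤ M ⊓ Subgroup.centralizer (M : Set G) := by
      refine le_inf hNM ?_
      intro n hn
      rw [Subgroup.mem_centralizer_iff]
      intro m hm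
      exact ((Subgroup.mem_centralizer_iff.mp (hMc hm)) n hn).symm
    have hK0 : K ⊓ Subgroup.centralizer (K : Set G) = ⊥ := by
      rw [eq_bot_iff]
      rintro x ⟨hx1, hx2⟩
      have hmem : (⟨x, hx1⟩ : ↥K) ∈ Subgroup.center ↥K := by
        rw [Subgroup.mem_center_iff]
        intro g
        apply Subtype.ext
        exact Subgroup.mem_centralizer_iff.mp hx2 g g.2
      rw [hZ, Subgroup.mem_bot] at hmem
      rw [Subgroup.mem_bot]
      exact congrArg Subtype.val hmem
    set T : Set (Subgroup G) :=
      Set.range (fun m : (⊤ : Subgroup G) => K.map (MulAut.conj (m : G)).toMonoidHom) with hT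
    have hprops := Cfsg.Agent.Lib.Helper21.iSup_conj_props (⊤ : Subgroup G) K
    have hsup : sSup T = ⨆ m : (⊤ : Subgroup G), K.map (MulAut.conj (m : G)).toMonoidHom :=
      sSup_range
    rw [← hsup] at hprops
    have hnorm : (sSup T).Normal := by
      rw [← Subgroup.normalizer_eq_top_iff]
      exact top_le_iff.mp hprops.2
    have hMT : M = sSup T := by
      apply le_antisymm
      · exact Subgroup.normalClosure_le_normal hprops.1
      · apply sSup_le
        rintro _ ⟨m, rfl⟩
        rintro _ ⟨k, hk, rfl⟩
        exact (Subgroup.normalClosure_normal (s := (K : Set G))).conj_mem k (hKM hk) m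
    have hMZ : M ⊓ Subgroup.centralizer (M : Set G) = ⊥ := by
      rw [hMT]
      apply center_sSup T (Set.toFinite T)
      · rintro _ ⟨m, rfl⟩
        rw [← map_conj_centralizer_subgroup, ← Subgroup.map_inf_eq _ _ _ (MulAut.conj (m : G)).injective,
          hK0, Subgroup.map_bot]
      · rintro _ ⟨m, rfl⟩ _ ⟨m', rfl⟩ hne
        have hc := components_comm (component_map_equiv hK (MulAut.conj (m' : G)))
          (component_map_equiv hK (MulAut.conj (m : G))) (Ne.symm hne)
        exact Subgroup.commutator_eq_bot_iff_le_centralizer.mp hc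
    rw [hMZ] at hNc
    exact le_bot_iff.mp hNc

theorem subnormal_nilpotent_le_fitting {G : Type*} [Group G] [Finite G] {S : Subgroup G}
    (hS : S.IsSubnormal) (hnil : Group.IsNilpotent S) : S ≤ Cfsg.fittingSubgroup G :=
  (le_fitOf le_rfl Subgroup.le_normalizer hnil).trans (fitOf_le_fitting_of_subnormal hS)

theorem minimal_subnormal_component {G : Type*} [Group G] [Finite G]
    (hF : Cfsg.fittingSubgroup G = ⊥)
    (S : Subgroup G) (hS : S.IsSubnormal) (hne : S ≠ ⊥)
    (hmin : ∀ T : Subgroup G, T.IsSubnormal → T ≠ ⊥ → T ≤ S → T = S) : Cfsg.IsComponent S := by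
  refine ⟨hS, ?_⟩
  haveI hnt : Nontrivial ↥S := (Subgroup.nontrivial_iff_ne_bot S).mpr hne
  have hsimple : ∀ T : Subgroup ↥S, T.Normal → T = ⊥ ∨ T = ⊤ := by
    intro T hT
    by_cases hT0 : T = ⊥
    · left; exact hT0
    · right
      have h1 : (T.map S.subtype).IsSubnormal := by
        refine Subgroup.IsSubnormal.trans (Subgroup.map_subtype_le T) ?_ hS
        have : (T.map S.subtype).subgroupOf S = T := by
          ext x
          rw [Subgroup.mem_subgroupOf]
          constructor
          · rintro ⟨t, ht, htx⟩
            have : t = x := Subtype.ext htx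
            rwa [← this]
          · intro hx; exact ⟨x, hx, rfl⟩
        rw [this]
        exact hT.isSubnormal
      have h2 : T.map S.subtype ≠ ⊥ := by
        intro h; apply hT0
        exact (Subgroup.map_eq_bot_iff_of_injective _ S.subtype_injective).mp h
      have h3 := hmin _ h1 h2 (Subgroup.map_subtype_le T)
      rw [eq_top_iff]; intro x _
      have hx : (x : G) ∈ T.map S.subtype := by rw [h3]; exact x.2
      obtain ⟨t, ht, htx⟩ := hx
      have : t = x := Subtype.ext htx
      rwa [← this]
  apply qs_of_normal_central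
  · rcases hsimple (commutator ↥S) inferInstance with h | h
    · exfalso
      have h1 : ⁅S, S⁆ = ⊥ := by
        rw [← Subgroup.map_subtype_commutator, h, Subgroup.map_bot]
      have hnil : Group.IsNilpotent S := by
        apply nilpotent_of_commutator_central
        rw [h1]; exact bot_le
      have h2 := subnormal_nilpotent_le_fitting hS hnil
      rw [hF] at h2
      exact hne (le_bot_iff.mp h2)
    · exact h
  · exact hnt
  · intro N hN hNt
    rcases hsimple N hN with h | h
    · rw [h]; exact bot_le
    · exact absurd h hNt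

/-- Let G be a finite group. (a) If K is a component of G with trivial centre, then the normal closure of K in G is a minimal normal subgroup of G. (b) If the Fitting subgroup of G is trivial, then the layer E(G) is generated by the minimal normal subgroups of G. -/
theorem result {G : Type*} [Group G] [Finite G] : (∀ K : Subgroup G, Cfsg.IsComponent K → Subgroup.center ↥K = ⊥ → (Subgroup.normalClosure (K : Set G) ≠ ⊥ ∧ ∀ N : Subgroup G, N.Normal → N ≤ Subgroup.normalClosure (K : Set G) → N = ⊥ ∨ N = Subgroup.normalClosure (K : Set G))) ∧ (Cfsg.fittingSubgroup G = ⊥ → sSup {N : Subgroup G | N ≠ ⊥ ∧ N.Normal ∧ ∀ N' : Subgroup G, N'.Normal → N' ≤ N → N' = ⊥ ∨ N' = N} = Cfsg.layer G) := by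
  classical
  refine ⟨fun K hK hZ => part_a K hK hZ, ?_⟩
  intro hF
  apply le_antisymm
  · apply sSup_le
    rintro N ⟨hN0, hNn, hNmin⟩
    let P : Set (Subgroup G) := {S | S.IsSubnormal ∧ S ≠ ⊥ ∧ S ≤ N}
    have hNP : N ∈ P := ⟨hNn.isSubnormal, hN0, le_rfl⟩
    obtain ⟨S, ⟨hS1, hS2, hS3⟩, hSmin⟩ := (wellFounded_lt (α := Subgroup G)).has_min P ⟨N, hNP⟩
    have hcomp : Cfsg.IsComponent S := minimal_subnormal_component hF S hS1 hS2 (by
      intro T hT hT0 hTS
      by_contra hne
      exact hSmin T ⟨hT, hT0, hTS.trans hS3⟩ (lt_of_le_of_ne hTS hne))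
    have hcl : Subgroup.normalClosure (S : Set G) ≤ N := Subgroup.normalClosure_le_normal hS3
    have hcl2 : Subgroup.normalClosure (S : Set G) = N := by
      rcases hNmin _ inferInstance hcl with h | h
      · exfalso; apply hS2
        have h3 : S ≤ Subgroup.normalClosure (S : Set G) := Subgroup.le_normalClosure
        rw [h] at h3
        exact le_bot_iff.mp h3
      · exact h
    rw [← hcl2]
    haveI := layer_normal (G := G)
    exact Subgroup.normalClosure_le_normal (component_le_layer hcomp)
  · apply sSup_le
    intro K hK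
    have hZ : Subgroup.center ↥K = ⊥ := by
      set C : Subgroup G := (Subgroup.center ↥K).map K.subtype with hC
      have hCsub : C.IsSubnormal := by
        refine Subgroup.IsSubnormal.trans (Subgroup.map_subtype_le _) ?_ hK.1
        have : C.subgroupOf K = Subgroup.center ↥K := by
          ext x
          rw [Subgroup.mem_subgroupOf]
          constructor
          · rintro ⟨t, ht, htx⟩
            have : t = x := Subtype.ext htx
            rwa [← this]
          · intro hx; exact ⟨x, hx, rfl⟩
        rw [this]
        exact Subgroup.Normal.isSubnormal inferInstance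
      have hCnil : Group.IsNilpotent C := by
        apply nilpotent_of_commutator_central
        have : ⁅C, C⁆ = ⊥ := by
          rw [eq_bot_iff, Subgroup.commutator_le]
          rintro _ ⟨a, ha, rfl⟩ _ ⟨b, hb, rfl⟩
          rw [Subgroup.mem_bot, commutatorElement_eq_one_iff_mul_comm]
          have := Subgroup.mem_center_iff.mp hb a
          exact congrArg Subtype.val this
        rw [this]; exact bot_le
      have h2 := subnormal_nilpotent_le_fitting hCsub hCnil
      rw [hF] at h2
      exact (Subgroup.map_eq_bot_iff_of_injective _ K.subtype_injective).mp (le_bot_iff.mp h2)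
    obtain ⟨h1, h2⟩ := part_a K hK hZ
    exact Subgroup.le_normalClosure.trans (le_sSup ⟨h1, inferInstance, h2⟩)

end Cfsg.Agent.S3747
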