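import Cfsg.Statements.S3748
import Cfsg.Agent.Lib.Helper21.Nilp

set_option autoImplicit false
open Cfsg

namespace Cfsg.Agent.S3748

open Cfsg.Agent.Lib.Helper21

/-- Call a proper subgroup M of G primitive when M = N_G(N) for every non-trivial normal subgroup N of M. If M is a primitive subgroup of the finite group G, then no non-trivial subnormal subgroup of G is contained in M; in particular M ∩ F(G) = 1. -/
theorem result {G : Type*} [Group G] [Finite G] (M : Subgroup G) (hM : M ≠ ⊤) (hprim : ∀ N : Subgroup G, N ≤ M → M ≤ Subgroup.normalizer (N : Set G) → N ≠ ⊥ → Subgroup.normalizer (N : Set G) = M) : (∀ L : Subgroup G, L.IsSubnormal → L ≤ M → L = ⊥) ∧ M ⊓ Cfsg.fittingSubgroup G = ⊥ := by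
  have h1 : ∀ L : Subgroup G, L.IsSubnormal → L ≤ M → L = ⊥ := by
    intro L hL hLM
    by_contra hL1
    have hnt : Nontrivial G := by
      by_contra hnt
      rw [not_nontrivial_iff_subsingleton] at hnt
      exact hL1 (Subsingleton.elim _ _)
    obtain ⟨A, hAn, hA1, hAmin⟩ := exists_minimal_normal (G := G)
    obtain ⟨hLN, hMN⟩ := iSup_conj_props M L
    have hNM : (⨆ m : M, L.map (MulAut.conj (m : G)).toMonoidHom) ≤ M :=
      iSup_le fun m => map_conj_le_of_mem hLM m.2
    have hN1 : (⨆ m : M, L.map (MulAut.conj (m : G)).toMonoidHom) ≠ ⊥ :=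
      fun h => hL1 (by rw [eq_bot_iff, ← h]; exact hLN)
    have hNN := hprim _ hNM hMN hN1
    have hAN : A ≤ Subgroup.normalizer
        (((⨆ m : M, L.map (MulAut.conj (m : G)).toMonoidHom) : Subgroup G) : Set G) := by
      apply le_normalizer_of_forall_map_conj_le
      intro a ha
      rw [Subgroup.map_iSup]
      apply iSup_le
      intro m
      have hnorm := minimal_normal_le_normalizer_subnormal (isSubnormal_map_conj hL (m : G))
        hAn hA1 hAmin
      rw [(mem_normalizer_iff_map _ a).mp (hnorm ha)]
      exact le_iSup (fun m : M => L.map (MulAut.conj (m : G)).toMonoidHom) m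
    rw [hNN] at hAN
    have hAA := hprim A hAN (by rw [Subgroup.normalizer_eq_top_iff.mpr hAn]; exact le_top) hA1
    rw [Subgroup.normalizer_eq_top_iff.mpr hAn] at hAA
    exact hM hAA.symm
  exact ⟨h1, h1 _ (isSubnormal_of_le_fittingSubgroup inf_le_right) inf_le_left⟩

end Cfsg.Agent.S3748
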