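import Cfsg.Statements.S3749
import Cfsg.Agent.Lib.Helper21.SylowRel

set_option autoImplicit false
open Cfsg

namespace Cfsg.Agent.S3749

open Cfsg.Agent.Lib.Helper21

theorem not_dvd_card_of_fixed {G : Type*} [Group G] [Finite G] {p : ℕ} [Fact p.Prime]
    (P N : Subgroup G) [N.Normal] (hP : IsPGroup p P)
    (h : ∀ n ∈ N, (∀ g ∈ P, g * n * g⁻¹ = n) → n = 1) : ¬ p ∣ Nat.card N := by
  let _ : MulAction P N := MulAction.compHom N ((MulAut.conjNormal : G →* MulAut N).comp P.subtype)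
  have hmod := hP.card_modEq_card_fixedPoints (↥N)
  have hfix : MulAction.fixedPoints P N = {1} := by
    ext n
    simp only [MulAction.mem_fixedPoints, Set.mem_singleton_iff]
    constructor
    · intro hn
      have h1 := h n n.2 (fun g hg => congrArg Subtype.val (hn ⟨g, hg⟩))
      exact Subtype.ext h1
    · rintro rfl g
      apply Subtype.ext
      show (g : G) * 1 * (g : G)⁻¹ = 1
      group
  rw [hfix] at hmod
  intro hdvd
  have h1 : Nat.card N ≡ 1 [MOD p] := by simpa using hmod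
  have h2 : Nat.card N ≡ 0 [MOD p] := (Nat.modEq_zero_iff_dvd).mpr hdvd
  have h3 : (1 : ℕ) ≡ 0 [MOD p] := h1.symm.trans h2
  have hp : p.Prime := Fact.out
  rw [Nat.modEq_zero_iff_dvd] at h3
  exact hp.one_lt.ne' (Nat.dvd_one.mp h3)

theorem pcoreMap_props {G : Type*} [Group G] [Finite G] (M : Subgroup G) (p : ℕ) [Fact p.Prime] :
    (Cfsg.pCore p ↥M).map M.subtype ≤ M ∧
    M ≤ Subgroup.normalizer (((Cfsg.pCore p ↥M).map M.subtype : Subgroup G) : Set G) ∧
    IsPGroup p ((Cfsg.pCore p ↥M).map M.subtype) := by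
  refine ⟨Subgroup.map_subtype_le _, ?_, (pCore_isPGroup p).map _⟩
  have hn : (Cfsg.pCore p ↥M).Normal := inferInstance
  have h1 := Subgroup.le_normalizer_map (H := Cfsg.pCore p ↥M) M.subtype
  rw [Subgroup.normalizer_eq_top_iff.mpr hn] at h1
  rwa [← MonoidHom.range_eq_map, Subgroup.range_subtype] at h1

/-- Call a proper subgroup M of G primitive when M = N_G(N) for every non-trivial normal subgroup N of M. Let M be a primitive subgroup of the finite group G, p a prime with O_p(M) ≠ 1, and N a normal subgroup of G with M ∩ N = 1. Then p does not divide the order of N; for every prime q there is exactly one Sylow q-subgroup of N normalized by M; and if the order of N has at least two prime divisors then M is not a maximal subgroup of G. -/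
theorem result {G : Type*} [Group G] [Finite G] (M : Subgroup G) (hM : M ≠ ⊤) (hprim : ∀ N : Subgroup G, N ≤ M → M ≤ Subgroup.normalizer (N : Set G) → N ≠ ⊥ → Subgroup.normalizer (N : Set G) = M) {p : ℕ} [Fact p.Prime] (hOp : Cfsg.pCore p ↥M ≠ ⊥) (N : Subgroup G) [N.Normal] (hMN : M ⊓ N = ⊥) : ¬ p ∣ Nat.card N ∧ (∀ q : ℕ, [Fact q.Prime] → ∃! Q : Sylow q ↥N, M ≤ Subgroup.normalizer ((Q : Subgroup ↥N).map N.subtype : Set G)) ∧ ((∃ q r : ℕ, q.Prime ∧ r.Prime ∧ q ≠ r ∧ q ∣ Nat.card N ∧ r ∣ Nat.card N) → ¬ IsCoatom M) := by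
  classical
  have hp : p.Prime := Fact.out
  obtain ⟨hPM, hMP, hPp⟩ := pcoreMap_props M p
  have hP1 : (Cfsg.pCore p ↥M).map M.subtype ≠ ⊥ := by
    intro h
    apply hOp
    exact (Subgroup.map_eq_bot_iff_of_injective _ M.subtype_injective).mp h
  have hNP := hprim _ hPM hMP hP1
  have hbot : ∀ x : G, x ∈ M → x ∈ N → x = 1 := by
    intro x hxM hxN
    have h1 : x ∈ M ⊓ N := ⟨hxM, hxN⟩
    rw [hMN] at h1
    exact Subgroup.mem_bot.mp h1
  have hpN : ¬ p ∣ Nat.card N := by
    apply not_dvd_card_of_fixed _ N hPp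
    intro n hn hfix
    apply hbot n _ hn
    rw [← hNP]
    apply Subgroup.centralizer_le_normalizer
    rw [Subgroup.mem_centralizer_iff]
    intro x hx
    have h1 := hfix x hx
    rw [mul_inv_eq_iff_eq_mul] at h1
    exact h1
  have hb : ∀ q : ℕ, [Fact q.Prime] → ∃! Q : Sylow q ↥N,
      M ≤ Subgroup.normalizer ((Q : Subgroup ↥N).map N.subtype : Set G) := by
    intro q _
    have huniq : ∀ Q₁ Q₂ : Subgroup G, IsSylOf q N Q₁ → IsSylOf q N Q₂ →
        (Cfsg.pCore p ↥M).map M.subtype ≤ Subgroup.normalizer (Q₁ : Set G) →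
        (Cfsg.pCore p ↥M).map M.subtype ≤ Subgroup.normalizer (Q₂ : Set G) → Q₂ = Q₁ := by
      intro Q₁ Q₂ h₁ h₂ hPQ₁ hPQ₂
      obtain ⟨n, hnN, hnP, hEq⟩ := h₁.exists_conj_normalizer hpN hPp h₂ hPQ₁ hPQ₂
      rw [hNP] at hnP
      have h1 := hbot n hnP hnN
      rw [hEq, h1, map_conj_one]
    obtain ⟨Q, hQ⟩ := exists_sylow_normalized (q := q) hpN hPp
    refine ⟨Q, ?_, ?_⟩
    · intro m hm
      rw [mem_normalizer_iff_map]
      have hmN : m ∈ Subgroup.normalizer (N : Set G) := by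
        rw [Subgroup.normalizer_eq_top_iff.mpr inferInstance]; trivial
      apply huniq _ _ (isSylOf_map_subtype Q) ((isSylOf_map_subtype Q).map_conj hmN) hQ
      have h1 := le_normalizer_map_conj hQ m
      rwa [(mem_normalizer_iff_map _ m).mp (hMP hm)] at h1
    · intro Q₂ hQ₂
      have h1 := huniq _ _ (isSylOf_map_subtype Q) (isSylOf_map_subtype Q₂) hQ (hPM.trans hQ₂)
      exact Sylow.ext (Subgroup.map_injective N.subtype_injective h1)
  refine ⟨hpN, hb, ?_⟩
  rintro ⟨q, r, hq, hr, hqr, hqN, hrN⟩ hco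
  have : Fact q.Prime := ⟨hq⟩
  obtain ⟨Q, hQ, -⟩ := hb q
  have hSyl := isSylOf_map_subtype Q
  have hQ1 : (Q : Subgroup N).map N.subtype ≠ ⊥ := hSyl.ne_bot hqN
  have hlt : M < M ⊔ (Q : Subgroup N).map N.subtype := by
    refine lt_of_le_of_ne le_sup_left (fun h => hQ1 ?_)
    have h1 : (Q : Subgroup N).map N.subtype ≤ M := by rw [h]; exact le_sup_right
    rw [eq_bot_iff, ← hMN]
    exact le_inf h1 hSyl.1
  have htop := hco.2 _ hlt
  have hNQ : N ≤ (Q : Subgroup N).map N.subtype := by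
    intro n hn
    have h1 : n ∈ M ⊔ (Q : Subgroup N).map N.subtype := by rw [htop]; trivial
    obtain ⟨m, hm, c, hc, rfl⟩ := (mem_sup_of_le_normalizer hQ).mp h1
    have hmN : m ∈ N := by
      have h2 : m = (m * c) * c⁻¹ := by group
      rw [h2]; exact N.mul_mem hn (N.inv_mem (hSyl.1 hc))
    rw [hbot m hm hmN, one_mul]; exact hc
  have hNp : IsPGroup q N := hSyl.2.1.to_le hNQ
  obtain ⟨k, hk⟩ := IsPGroup.iff_card.mp hNp
  rw [hk] at hrN
  exact hqr ((Nat.prime_dvd_prime_iff_eq hr hq).mp (hr.dvd_of_dvd_pow hrN)).symm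

end Cfsg.Agent.S3749
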