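import Cfsg.Statements.S3750
import Cfsg.Agent.S3748
import Cfsg.Agent.Lib.Helper21.Nilp
import Cfsg.Agent.Lib.Helper21.ProdCard
import Cfsg.Agent.Lib.Helper21.CoprimeHall
import Cfsg.Agent.Lib.Helper11.GenFit
import Cfsg.Agent.Lib.Helper1.Coprime

set_option autoImplicit false
open Cfsg

namespace Cfsg.Agent.S3750

open Cfsg.Agent.Lib.Helper21 Cfsg.Agent.Lib.Helper11

/-- Call a proper subgroup M of G primitive when M = N_G(N) for every non-trivial normal subgroup N of M. Let M be a primitive subgroup of the finite group G and N a normal subgroup of G with M ∩ F*(N) ≠ 1. Then F(G) = 1 and F*(N) = F*(G) = E(G); in particular every minimal normal subgroup of G is contained in N. -/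
theorem result {G : Type*} [Group G] [Finite G] (M : Subgroup G) (hM : M ≠ ⊤) (hprim : ∀ N : Subgroup G, N ≤ M → M ≤ Subgroup.normalizer (N : Set G) → N ≠ ⊥ → Subgroup.normalizer (N : Set G) = M) (N : Subgroup G) [N.Normal] (hMF : M ⊓ (Cfsg.generalizedFittingSubgroup ↥N).map N.subtype ≠ ⊥) : Cfsg.fittingSubgroup G = ⊥ ∧ (Cfsg.generalizedFittingSubgroup ↥N).map N.subtype = Cfsg.generalizedFittingSubgroup G ∧ Cfsg.generalizedFittingSubgroup G = Cfsg.layer G ∧ ∀ K : Subgroup G, K.Normal → K ≠ ⊥ → (∀ K' : Subgroup G, K'.Normal → K' ≤ K → K' = ⊥ ∨ K' = K) → K ≤ N := by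
  obtain ⟨hsub, hMF0⟩ := Cfsg.Agent.S3748.result M hM hprim
  have hNsub : N.IsSubnormal := Subgroup.Normal.isSubnormal inferInstance
  have hFN : (Cfsg.generalizedFittingSubgroup ↥N).map N.subtype = layOf N ⊔ fitOf N := by
    unfold Cfsg.generalizedFittingSubgroup layOf fitOf; rw [Subgroup.map_sup]
  haveI hchar : (Cfsg.generalizedFittingSubgroup ↥N).Characteristic := by
    rw [Subgroup.characteristic_iff_map_le]
    intro φ
    unfold Cfsg.generalizedFittingSubgroup
    rw [Subgroup.map_sup]
    exact sup_le_sup (layer_map_equiv_le φ) (fitting_map_mulEquiv_le φ)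
  have hFNn : M ≤ Subgroup.normalizer
      (((Cfsg.generalizedFittingSubgroup ↥N).map N.subtype : Subgroup G) : Set G) := by
    refine le_trans ?_ (Cfsg.Agent.Lib.Helper1.normalizer_le_normalizer_map_of_characteristic
      (Cfsg.generalizedFittingSubgroup ↥N))
    rw [Subgroup.normalizer_eq_top]; exact le_top
  obtain ⟨D, hD⟩ : ∃ D : Subgroup G,
      D = M ⊓ (Cfsg.generalizedFittingSubgroup ↥N).map N.subtype := ⟨_, rfl⟩
  have hDne : D ≠ ⊥ := hD ▸ hMF
  have hDM : D ≤ M := hD ▸ inf_le_left
  have hDFN : D ≤ layOf N ⊔ fitOf N := by rw [← hFN, hD]; exact inf_le_right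
  have hDN : D ≤ N := hDFN.trans (sup_le (layOf_le N) (fitOf_le N))
  have hMD : M ≤ Subgroup.normalizer (D : Set G) := by
    rw [hD]; exact le_normalizer_inf_of_le Subgroup.le_normalizer hFNn
  have hND := hprim D hDM hMD hDne
  have hCD : Subgroup.centralizer (D : Set G) ≤ M :=
    (Subgroup.centralizer_le_normalizer _).trans (le_of_eq hND)
  have hCN : Subgroup.centralizer (N : Set G) ≤ M :=
    (Subgroup.centralizer_le (SetLike.coe_subset_coe.mpr hDN)).trans hCD
  have hlay : layOf N ≤ Cfsg.layer G := layer_map_subtype_le hNsub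
  have hfit : fitOf N ≤ Cfsg.fittingSubgroup G := fitOf_le_fitting_of_subnormal hNsub
  -- F(G) = 1
  have hF0 : Cfsg.fittingSubgroup G = ⊥ := by
    by_contra hF
    haveI : Nontrivial ↥(Cfsg.fittingSubgroup G) := (Subgroup.nontrivial_iff_ne_bot _).mpr hF
    haveI : Group.IsNilpotent ↥(Cfsg.fittingSubgroup G) := fittingSubgroup_isNilpotent
    have hc := Group.IsNilpotent.center_ne_bot (G := ↥(Cfsg.fittingSubgroup G))
    obtain ⟨z, hz, hz1⟩ : ∃ z ∈ Subgroup.center ↥(Cfsg.fittingSubgroup G), z ≠ 1 := by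
      by_contra hcon
      push Not at hcon
      exact hc ((Subgroup.eq_bot_iff_forall _).mpr hcon)
    have hzF : ∀ f ∈ Cfsg.fittingSubgroup G, f * (z : G) = (z : G) * f := by
      intro f hf
      have := Subgroup.mem_center_iff.mp hz ⟨f, hf⟩
      exact congrArg Subtype.val this
    have hzE : ∀ e ∈ Cfsg.layer G, e * (z : G) = (z : G) * e := by
      intro e he
      have h1 := Subgroup.commutator_eq_bot_iff_le_centralizer.mp
        (layer_comm_fitting (G := G)) he
      exact (Subgroup.mem_centralizer_iff.mp h1 (z : G) z.2).symm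
    have hzD : (z : G) ∈ Subgroup.centralizer (D : Set G) := by
      have h2 : (z : G) ∈ Subgroup.centralizer ((layOf N ⊔ fitOf N : Subgroup G) : Set G) := by
        rw [centralizer_sup_eq]
        refine Subgroup.mem_inf.mpr ⟨?_, ?_⟩
        · rw [Subgroup.mem_centralizer_iff]
          intro e he
          exact hzE e (hlay he)
        · rw [Subgroup.mem_centralizer_iff]
          intro f hf
          exact hzF f (hfit hf)
      exact Subgroup.centralizer_le (SetLike.coe_subset_coe.mpr hDFN) h2
    have hzM : (z : G) ∈ M ⊓ Cfsg.fittingSubgroup G := ⟨hCD hzD, z.2⟩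
    rw [hMF0, Subgroup.mem_bot] at hzM
    exact hz1 (Subtype.ext hzM)
  have h3 : Cfsg.generalizedFittingSubgroup G = Cfsg.layer G := by
    unfold Cfsg.generalizedFittingSubgroup; rw [hF0, sup_bot_eq]
  have hnotM : ∀ K : Subgroup G, K.IsSubnormal → K ≠ ⊥ → ⁅K, N⁆ = ⊥ → False := by
    intro K hK hK1 hKN
    have h1 : K ≤ Subgroup.centralizer (N : Set G) :=
      Subgroup.commutator_eq_bot_iff_le_centralizer.mp hKN
    exact hK1 (hsub K hK (h1.trans hCN))
  refine ⟨hF0, ?_, h3, ?_⟩
  · rw [hFN, h3]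
    have hfit0 : fitOf N = ⊥ := le_bot_iff.mp (hF0 ▸ hfit)
    rw [hfit0, sup_bot_eq]
    apply le_antisymm hlay
    apply sSup_le
    intro K hK
    rcases component_le_or_comm hK hNsub with h | h
    · exact component_le_layOf hK h
    · exfalso
      haveI := qs_nontrivial hK.2
      exact hnotM K hK.1 ((Subgroup.nontrivial_iff_ne_bot K).mp inferInstance) h
  · intro K hKn hK1 hKmin
    haveI := hKn
    have hKNn : (K ⊓ N).Normal := inferInstance
    rcases hKmin (K ⊓ N) hKNn inf_le_left with h | h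
    · exfalso
      apply hnotM K hKn.isSubnormal hK1
      rw [eq_bot_iff, ← h]
      exact le_inf (Subgroup.commutator_le_left K N) (Subgroup.commutator_le_right K N)
    · exact inf_eq_left.mp h

end Cfsg.Agent.S3750
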