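import Cfsg.Statements.S3751
import Cfsg.Agent.Lib.Helper21.Basic
import Cfsg.Agent.Lib.Helper21.Wielandt
import Cfsg.Agent.Lib.Helper21.CoprimeHall
import Cfsg.Agent.Lib.Helper21.SylowInt
import Cfsg.Agent.Lib.Helper1.Cores

set_option autoImplicit false
open Cfsg

namespace Cfsg.Agent.S3751

open Cfsg.Agent.Lib.Helper21

section aux

variable {G : Type*} [Group G]

/-- `p`-local subgroup. -/
def IsLoc (p : ℕ) (M : Subgroup G) : Prop :=
  ∃ T : Subgroup G, IsPGroup p T ∧ T ≠ ⊥ ∧ M = Subgroup.normalizer (T : Set G)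

/-- maximal `p`-local subgroup. -/
def IsMaxLoc (p : ℕ) (M : Subgroup G) : Prop :=
  IsLoc p M ∧ ∀ L : Subgroup G, IsLoc p L → M ≤ L → L = M

/-- `O_p(H)` as a subgroup of the ambient group. -/
def oP (p : ℕ) (H : Subgroup G) : Subgroup G := (Cfsg.pCore p ↥H).map H.subtype

theorem oP_le (p : ℕ) (H : Subgroup G) : oP p H ≤ H := Subgroup.map_subtype_le _

theorem oP_isPGroup [Finite G] (p : ℕ) [Fact p.Prime] (H : Subgroup G) : IsPGroup p (oP p H) :=
  (Cfsg.Agent.Lib.Helper1.pCore_isPGroup p).map _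

theorem le_oP {p : ℕ} {N H : Subgroup G} (hNH : N ≤ H)
    (hnorm : H ≤ Subgroup.normalizer (N : Set G)) (hN : IsPGroup p N) : N ≤ oP p H := by
  have h1 : (N.subgroupOf H).Normal := (Subgroup.normal_subgroupOf_iff_le_normalizer hNH).mpr hnorm
  have h2 : IsPGroup p (N.subgroupOf H) := hN.comap_subtype
  have h3 := Cfsg.Agent.Lib.Helper1.le_pCore p h1 h2
  have h4 : (N.subgroupOf H).map H.subtype ≤ oP p H := Subgroup.map_mono h3
  rwa [Subgroup.map_subgroupOf_eq_of_le hNH] at h4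

theorem le_normalizer_oP (p : ℕ) (H : Subgroup G) :
    H ≤ Subgroup.normalizer ((oP p H : Subgroup G) : Set G) := by
  have key : ∀ h ∈ H, ∀ x ∈ oP p H, h * x * h⁻¹ ∈ oP p H := by
    intro h hh x hx
    obtain ⟨y, hy, rfl⟩ := hx
    refine ⟨⟨h, hh⟩ * y * ⟨h, hh⟩⁻¹, (Cfsg.Agent.Lib.Helper1.pCore_normal (G := ↥H) p).conj_mem y hy ⟨h, hh⟩, ?_⟩
    simp
  intro h hh
  rw [Subgroup.mem_normalizer_iff]
  intro x
  constructor
  · exact key h hh x
  · intro hx
    have := key h⁻¹ (H.inv_mem hh) _ hx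
    have e : h⁻¹ * (h * x * h⁻¹) * h⁻¹⁻¹ = x := by group
    rwa [e] at this

theorem conj_oP [Finite G] (p : ℕ) [Fact p.Prime] (H : Subgroup G) {g : G}
    (hg : g ∈ Subgroup.normalizer (H : Set G)) :
    g ∈ Subgroup.normalizer ((oP p H : Subgroup G) : Set G) := by
  have key : ∀ g ∈ Subgroup.normalizer (H : Set G),
      (oP p H).map (MulAut.conj g).toMonoidHom ≤ oP p H := by
    intro g hg
    apply le_oP
    · have h1 : (oP p H).map (MulAut.conj g).toMonoidHom ≤ H.map (MulAut.conj g).toMonoidHom :=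
        Subgroup.map_mono (oP_le p H)
      rwa [(mem_normalizer_iff_map H g).mp hg] at h1
    · have h1 := le_normalizer_map_conj (le_normalizer_oP p H) g
      rwa [(mem_normalizer_iff_map H g).mp hg] at h1
    · exact (oP_isPGroup p H).map _
  rw [Subgroup.mem_normalizer_iff]
  intro x
  constructor
  · intro hx
    exact key g hg (conj_mem_map_conj _ g hx)
  · intro hx
    have := key g⁻¹ (Subgroup.inv_mem _ hg) (conj_mem_map_conj _ g⁻¹ hx)
    have e : g⁻¹ * (g * x * g⁻¹) * g⁻¹⁻¹ = x := by group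
    rwa [e] at this

theorem oP_ne_bot {p : ℕ} {M : Subgroup G} (hM : IsLoc p M) : oP p M ≠ ⊥ := by
  obtain ⟨T, hT, hT1, rfl⟩ := hM
  intro h
  apply hT1
  have := le_oP (Subgroup.le_normalizer) (le_refl _) hT
  rw [h] at this
  exact le_bot_iff.mp this

theorem isLoc_normalizer_oP [Finite G] {p : ℕ} [Fact p.Prime] {M : Subgroup G} (hM : IsLoc p M) :
    IsLoc p (Subgroup.normalizer ((oP p M : Subgroup G) : Set G)) :=
  ⟨oP p M, oP_isPGroup p M, oP_ne_bot hM, rfl⟩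

theorem norm_oP_eq [Finite G] {p : ℕ} [Fact p.Prime] {M : Subgroup G} (hM : IsMaxLoc p M) :
    Subgroup.normalizer ((oP p M : Subgroup G) : Set G) = M :=
  hM.2 _ (isLoc_normalizer_oP hM.1) (le_normalizer_oP p M)

theorem selfnorm [Finite G] {p : ℕ} [Fact p.Prime] {M : Subgroup G} (hM : IsMaxLoc p M) {g : G}
    (hg : M.map (MulAut.conj g).toMonoidHom = M) : g ∈ M := by
  have h1 : g ∈ Subgroup.normalizer (M : Set G) := (mem_normalizer_iff_map M g).mpr hg
  have h2 := conj_oP p M h1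
  rwa [norm_oP_eq hM] at h2

theorem isLoc_conj {p : ℕ} {M : Subgroup G} (hM : IsLoc p M) (g : G) :
    IsLoc p (M.map (MulAut.conj g).toMonoidHom) := by
  obtain ⟨T, hT, hT1, rfl⟩ := hM
  refine ⟨T.map (MulAut.conj g).toMonoidHom, hT.map _, ?_, ?_⟩
  · intro h
    apply hT1
    exact (Subgroup.map_eq_bot_iff_of_injective T (MulAut.conj g).injective).mp h
  · exact Subgroup.map_equiv_normalizer_eq T (MulAut.conj g)

theorem isMaxLoc_conj {p : ℕ} {M : Subgroup G} (hM : IsMaxLoc p M) (g : G) :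
    IsMaxLoc p (M.map (MulAut.conj g).toMonoidHom) := by
  refine ⟨isLoc_conj hM.1 g, ?_⟩
  intro L hL hML
  have h1 : M ≤ L.map (MulAut.conj g⁻¹).toMonoidHom := (map_conj_le_iff M L g).mp hML
  have h2 := hM.2 _ (isLoc_conj hL g⁻¹) h1
  rw [← h2, map_conj_inv_map_conj]

theorem exists_maxloc_ge [Finite G] {p : ℕ} {N : Subgroup G} (hN : IsLoc p N) :
    ∃ L, IsMaxLoc p L ∧ N ≤ L := by
  have hfin : {L : Subgroup G | IsLoc p L ∧ N ≤ L}.Finite := Set.toFinite _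
  obtain ⟨b, hNb, hb⟩ := hfin.exists_le_maximal (a := N) ⟨hN, le_refl _⟩
  refine ⟨b, ⟨hb.prop.1, ?_⟩, hNb⟩
  intro L hL hbL
  exact le_antisymm (hb.le_of_ge ⟨hL, hNb.trans hbL⟩ hbL) hbL

theorem prim [Finite G] {p : ℕ} [Fact p.Prime] (hloc : Cfsg.IsOfLocalCharacteristic p G)
    {M : Subgroup G} (hM : IsMaxLoc p M) {A : Subgroup G} (hA : A ≠ ⊥) (hAM : A ≤ M)
    (hMA : M ≤ Subgroup.normalizer (A : Set G)) : Subgroup.normalizer (A : Set G) = M := by
  have hchar : Subgroup.centralizer (Cfsg.pCore p ↥M : Set ↥M) ≤ Cfsg.pCore p ↥M := by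
    obtain ⟨T, hT, hT1, rfl⟩ := hM.1
    exact hloc.2 T hT hT1
  have hQn := le_normalizer_oP p M
  have hne : A ⊓ oP p M ≠ ⊥ := by
    intro hbot
    apply hA
    rw [eq_bot_iff]
    intro a ha
    have haM : a ∈ M := hAM ha
    have hcomm : ∀ q ∈ oP p M, q * a = a * q := by
      intro q hq
      have h1 : a * q * a⁻¹ * q⁻¹ ∈ A ⊓ oP p M := by
        constructor
        · have hqA : q * a⁻¹ * q⁻¹ ∈ A :=
            conj_mem_of_mem_normalizer (hMA (oP_le p M hq)) (A.inv_mem ha)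
          have e : a * q * a⁻¹ * q⁻¹ = a * (q * a⁻¹ * q⁻¹) := by group
          rw [e]; exact A.mul_mem ha hqA
        · have h2 : a * q * a⁻¹ ∈ oP p M := conj_mem_of_mem_normalizer (hQn haM) hq
          exact (oP p M).mul_mem h2 ((oP p M).inv_mem hq)
      rw [hbot, Subgroup.mem_bot] at h1
      have e : q * a = (a * q * a⁻¹ * q⁻¹)⁻¹ * (a * q) := by group
      rw [e, h1]; simp
    have hc : (⟨a, haM⟩ : ↥M) ∈ Subgroup.centralizer (Cfsg.pCore p ↥M : Set ↥M) := by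
      rw [Subgroup.mem_centralizer_iff]
      intro q hq
      have := hcomm (q : G) ⟨q, hq, rfl⟩
      exact Subtype.ext this
    have h3 := hchar hc
    have h4 : a ∈ oP p M := ⟨⟨a, haM⟩, h3, rfl⟩
    have h5 : a ∈ A ⊓ oP p M := ⟨ha, h4⟩
    rwa [hbot] at h5
  have h1 : A ⊓ oP p M ≤ oP p A := by
    apply le_oP inf_le_left
    · exact le_normalizer_inf_of_le Subgroup.le_normalizer (hAM.trans hQn)
    · exact (oP_isPGroup p M).to_le inf_le_right
  have hOA : oP p A ≠ ⊥ := by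
    intro h
    rw [h] at h1
    exact hne (le_bot_iff.mp h1)
  have hL : IsLoc p (Subgroup.normalizer ((oP p A : Subgroup G) : Set G)) :=
    ⟨oP p A, oP_isPGroup p A, hOA, rfl⟩
  have h2 : Subgroup.normalizer (A : Set G) ≤ Subgroup.normalizer ((oP p A : Subgroup G) : Set G) :=
    fun g hg => conj_oP p A hg
  have h3 := hM.2 _ hL (hMA.trans h2)
  exact le_antisymm (h3 ▸ h2) hMA

/-- the final step: two distinct maximal `p`-locals sharing a common "Sylow" `p`-subgroup. -/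
theorem fin [Finite G] {p : ℕ} [Fact p.Prime] (hloc : Cfsg.IsOfLocalCharacteristic p G)
    {M₁ M₂ : Subgroup G} (hM₁ : IsMaxLoc p M₁) (hM₂ : IsMaxLoc p M₂) (hne : M₁ ≠ M₂)
    {T : Subgroup G} (hT : IsPGroup p T) (hT1 : T ≤ M₁) (hT2 : T ≤ M₂)
    (hS1 : ∀ U : Subgroup G, IsPGroup p U → T ≤ U → U ≤ M₁ → U = T)
    (hS2 : ∀ U : Subgroup G, IsPGroup p U → T ≤ U → U ≤ M₂ → U = T) :
    ∃ M₁ M₂ : Subgroup G, M₁ ≠ M₂ ∧ (∀ A : Subgroup G, A ≠ ⊥ → A ≤ M₁ ⊓ M₂ → (M₁ ≤ Subgroup.normalizer (A : Set G) → M₂ ⊓ Subgroup.normalizer (A : Set G) = M₁ ⊓ M₂) ∧ (M₂ ≤ Subgroup.normalizer (A : Set G) → M₁ ⊓ Subgroup.normalizer (A : Set G) = M₁ ⊓ M₂)) ∧ Subgroup.centralizer (Cfsg.pCore p ↥M₁ : Set ↥M₁) ≤ Cfsg.pCore p ↥M₁ ∧ Subgroup.centralizer (Cfsg.pCore p ↥M₂ : Set ↥M₂) ≤ Cfsg.pCore p ↥M₂ ∧ (Cfsg.pCore p ↥M₁).map M₁.subtype ⊔ (Cfsg.pCore p ↥M₂).map M₂.subtype ≤ M₁ ⊓ M₂ := by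
  have hc1 : Subgroup.centralizer (Cfsg.pCore p ↥M₁ : Set ↥M₁) ≤ Cfsg.pCore p ↥M₁ := by
    obtain ⟨T', hT', hT1', rfl⟩ := hM₁.1
    exact hloc.2 T' hT' hT1'
  have hc2 : Subgroup.centralizer (Cfsg.pCore p ↥M₂ : Set ↥M₂) ≤ Cfsg.pCore p ↥M₂ := by
    obtain ⟨T', hT', hT1', rfl⟩ := hM₂.1
    exact hloc.2 T' hT' hT1'
  have hO : ∀ M : Subgroup G, T ≤ M →
      (∀ U : Subgroup G, IsPGroup p U → T ≤ U → U ≤ M → U = T) → oP p M ≤ T := by
    intro M hTM hS
    have h1 : IsPGroup p (T ⊔ oP p M : Subgroup G) :=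
      IsPGroup.to_sup_of_normal_right' hT (oP_isPGroup p M) (hTM.trans (le_normalizer_oP p M))
    have h2 := hS _ h1 le_sup_left (sup_le hTM (oP_le p M))
    rw [← h2]; exact le_sup_right
  refine ⟨M₁, M₂, hne, ?_, hc1, hc2, ?_⟩
  · intro A hA hAM
    constructor
    · intro h
      rw [prim hloc hM₁ hA (hAM.trans inf_le_left) h, inf_comm]
    · intro h
      rw [prim hloc hM₂ hA (hAM.trans inf_le_right) h]
  · exact sup_le ((hO M₁ hT1 hS1).trans (le_inf hT1 hT2)) ((hO M₂ hT2 hS2).trans (le_inf hT1 hT2))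

theorem step4 [Finite G] {p : ℕ} [Fact p.Prime] {M₁ : Subgroup G} (hM₁ : IsMaxLoc p M₁)
    {T : Subgroup G} (hT1 : T ≤ M₁)
    (hS1 : ∀ U : Subgroup G, IsPGroup p U → T ≤ U → U ≤ M₁ → U = T)
    {U : Subgroup G} (hU : IsPGroup p U) (hTU : T < U) :
    ∃ M' : Subgroup G, IsMaxLoc p M' ∧ M' ≠ M₁ ∧ T ≤ M' ∧
      ∀ V : Subgroup G, IsPGroup p V → T ≤ V → V ≤ M' → V = T := by
  obtain ⟨u, huU, huN, huT⟩ := exists_mem_normalizer_not_mem hU hTU
  have huM : u ∉ M₁ := by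
    intro huM
    have h1 : T ⊔ Subgroup.zpowers u ≤ U := sup_le hTU.le (by rw [Subgroup.zpowers_le]; exact huU)
    have h2 := hS1 _ (hU.to_le h1) le_sup_left (sup_le hT1 (by rw [Subgroup.zpowers_le]; exact huM))
    apply huT
    rw [← h2]
    exact (le_sup_right : Subgroup.zpowers u ≤ _) (Subgroup.mem_zpowers u)
  have hTu : T.map (MulAut.conj u).toMonoidHom = T := (mem_normalizer_iff_map T u).mp huN
  have hTu' : T.map (MulAut.conj u⁻¹).toMonoidHom = T :=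
    (mem_normalizer_iff_map T u⁻¹).mp (Subgroup.inv_mem _ huN)
  refine ⟨M₁.map (MulAut.conj u).toMonoidHom, isMaxLoc_conj hM₁ u, ?_, ?_, ?_⟩
  · intro h
    exact huM (selfnorm hM₁ h)
  · rw [← hTu]; exact map_conj_mono hT1 u
  · intro V hV hTV hVM
    have h1 : V.map (MulAut.conj u⁻¹).toMonoidHom ≤ M₁ := by
      rw [map_conj_le_iff, inv_inv]; exact hVM
    have h2 : T ≤ V.map (MulAut.conj u⁻¹).toMonoidHom := by
      rw [← hTu']; exact map_conj_mono hTV u⁻¹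
    have h3 := hS1 _ (hV.map _) h2 h1
    have h4 := congrArg (fun K : Subgroup G => K.map (MulAut.conj u).toMonoidHom) h3
    simp only [map_conj_inv_map_conj] at h4
    rw [h4, hTu]

end aux

/-- Two distinct subgroups M₁, M₂ of G form a primitive pair when, for {i, j} = {1, 2}, every non-trivial normal subgroup A of M_i contained in M₁ ∩ M₂ satisfies N_{M_j}(A) = M₁ ∩ M₂; the pair has characteristic p when moreover C_{M_i}(O_p(M_i)) ≤ O_p(M_i) for both i and O_p(M₁)O_p(M₂) ≤ M₁ ∩ M₂. Let G be a finite group, p a prime dividing its order, with O_p(G) = 1 and every p-local subgroup of characteristic p. Then either G has a primitive pair of characteristic p, or every maximal p-local subgroup M of G is strongly p-embedded in G: M is a proper subgroup, p divides its order, and for every g ∉ M the order of M ∩ gMg⁻¹ is prime to p. -/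
theorem result {G : Type*} [Group G] [Finite G] {p : ℕ} [Fact p.Prime] (hloc : Cfsg.IsOfLocalCharacteristic p G) (hOp : Cfsg.pCore p G = ⊥) : (∃ M₁ M₂ : Subgroup G, M₁ ≠ M₂ ∧ (∀ A : Subgroup G, A ≠ ⊥ → A ≤ M₁ ⊓ M₂ → (M₁ ≤ Subgroup.normalizer (A : Set G) → M₂ ⊓ Subgroup.normalizer (A : Set G) = M₁ ⊓ M₂) ∧ (M₂ ≤ Subgroup.normalizer (A : Set G) → M₁ ⊓ Subgroup.normalizer (A : Set G) = M₁ ⊓ M₂)) ∧ Subgroup.centralizer (Cfsg.pCore p ↥M₁ : Set ↥M₁) ≤ Cfsg.pCore p ↥M₁ ∧ Subgroup.centralizer (Cfsg.pCore p ↥M₂ : Set ↥M₂) ≤ Cfsg.pCore p ↥M₂ ∧ (Cfsg.pCore p ↥M₁).map M₁.subtype ⊔ (Cfsg.pCore p ↥M₂).map M₂.subtype ≤ M₁ ⊓ M₂) ∨ (∀ M : Subgroup G, (∃ T : Subgroup G, IsPGroup p T ∧ T ≠ ⊥ ∧ M = Subgroup.normalizer (T : Set G)) → (∀ L : Subgroup G, (∃ T : Subgroup G, IsPGroup p T ∧ T ≠ ⊥ ∧ L = Subgroup.normalizer (T : Set G)) → M ≤ L → L = M) → M ≠ ⊤ ∧ p ∣ Nat.card M ∧ ∀ g : G, g ∉ M → ¬ p ∣ Nat.card ↥(M ⊓ M.map (MulAut.conj g).toMonoidHom))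 := by
  classical
  rw [or_iff_not_imp_left]
  intro hcon M hMloc hMmax
  have hMmaxloc : IsMaxLoc p M := ⟨hMloc, hMmax⟩
  have hp : p.Prime := Fact.out
  refine ⟨?_, ?_, ?_⟩
  · obtain ⟨T, hT, hT1, rfl⟩ := hMloc
    intro htop
    apply hT1
    have hn : T.Normal := Subgroup.normalizer_eq_top_iff.mp htop
    have := Cfsg.Agent.Lib.Helper1.le_pCore p hn hT
    rw [hOp] at this
    exact le_bot_iff.mp this
  · obtain ⟨T, hT, hT1, rfl⟩ := hMloc
    obtain ⟨k, hk⟩ := IsPGroup.iff_card.mp hT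
    have hk0 : k ≠ 0 := by
      intro h0
      rw [h0, pow_zero] at hk
      exact hT1 (Subgroup.card_eq_one.mp hk)
    have h1 : p ∣ Nat.card T := by rw [hk]; exact dvd_pow_self p hk0
    exact h1.trans (Subgroup.card_dvd_of_le Subgroup.le_normalizer)
  · intro g hg hdvd
    apply hcon
    -- a nontrivial p-subgroup in the intersection
    obtain ⟨x, hx⟩ := exists_prime_orderOf_dvd_card' p hdvd
    have hxo : orderOf (x : G) = p := by rw [Subgroup.orderOf_coe]; exact hx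
    have hM' : IsMaxLoc p (M.map (MulAut.conj g).toMonoidHom) := isMaxLoc_conj hMmaxloc g
    have hne0 : M ≠ M.map (MulAut.conj g).toMonoidHom := fun h => hg (selfnorm hMmaxloc h.symm)
    -- the property of triples
    let P : ℕ → Prop := fun n => ∃ M₁ M₂ T : Subgroup G, IsMaxLoc p M₁ ∧ IsMaxLoc p M₂ ∧ M₁ ≠ M₂ ∧
      IsPGroup p T ∧ T ≠ ⊥ ∧ T ≤ M₁ ∧ T ≤ M₂ ∧ Nat.card T = n
    have hP0 : P p := by
      refine ⟨M, M.map (MulAut.conj g).toMonoidHom, Subgroup.zpowers (x : G), hMmaxloc, hM', hne0,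
        ?_, ?_, ?_, ?_, ?_⟩
      · apply IsPGroup.of_card (n := 1)
        rw [Nat.card_zpowers, hxo, pow_one]
      · intro h
        rw [Subgroup.zpowers_eq_bot] at h
        rw [h, orderOf_one] at hxo
        exact hp.one_lt.ne hxo
      · rw [Subgroup.zpowers_le]; exact x.2.1
      · rw [Subgroup.zpowers_le]; exact x.2.2
      · rw [Nat.card_zpowers, hxo]
    have hpG : p ≤ Nat.card G := by
      have := Nat.le_of_dvd Nat.card_pos (orderOf_dvd_natCard (x : G))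
      rwa [hxo] at this
    have hspec : P (Nat.findGreatest P (Nat.card G)) := Nat.findGreatest_spec hpG hP0
    have hmaxP : ∀ k, P k → k ≤ Nat.findGreatest P (Nat.card G) := by
      intro k hk
      apply Nat.le_findGreatest _ hk
      obtain ⟨_, _, T, _, _, _, _, _, _, _, rfl⟩ := hk
      exact Subgroup.card_le_card_group T
    obtain ⟨M₁, M₂, T, hM₁, hM₂, hne, hT, hTne, hT1, hT2, hcard⟩ := hspec
    -- key: a bigger p-subgroup in M_i ∩ L forces L = M_i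
    have key : ∀ (Mi L U : Subgroup G), IsMaxLoc p Mi → IsMaxLoc p L → IsPGroup p U → U ≤ Mi → U ≤ L →
        Nat.card T < Nat.card U → L = Mi := by
      intro Mi L U hMi hL hU hUMi hUL hlt
      by_contra hneq
      have hUne : U ≠ ⊥ := by
        intro h
        rw [h, Subgroup.card_bot] at hlt
        have : 0 < Nat.card T := Nat.card_pos
        omega
      have := hmaxP _ ⟨Mi, L, U, hMi, hL, fun h => hneq h.symm, hU, hUne, hUMi, hUL, rfl⟩
      rw [← hcard] at this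
      omega
    obtain ⟨Ls, hLs, hNLs⟩ := exists_maxloc_ge (p := p)
      (N := Subgroup.normalizer (T : Set G)) ⟨T, hT, hTne, rfl⟩
    -- if T is not Sylow in M_i then Ls = M_i
    have step2 : ∀ Mi : Subgroup G, IsMaxLoc p Mi → T ≤ Mi →
        (¬ ∀ U : Subgroup G, IsPGroup p U → T ≤ U → U ≤ Mi → U = T) → Ls = Mi := by
      intro Mi hMi hTMi hnot
      push Not at hnot
      obtain ⟨U, hU, hTU, hUMi, hUT⟩ := hnot
      have hlt : T < U := lt_of_le_of_ne hTU (Ne.symm hUT)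
      obtain ⟨u, huU, huN, huT⟩ := exists_mem_normalizer_not_mem hU hlt
      have hV : T ⊔ Subgroup.zpowers u ≤ U := sup_le hTU (by rw [Subgroup.zpowers_le]; exact huU)
      have hVlt : T < T ⊔ Subgroup.zpowers u := by
        refine lt_of_le_of_ne le_sup_left ?_
        intro h
        apply huT
        rw [h]
        exact (le_sup_right : Subgroup.zpowers u ≤ _) (Subgroup.mem_zpowers u)
      refine key Mi Ls (T ⊔ Subgroup.zpowers u) hMi hLs (hU.to_le hV) (hV.trans hUMi) ?_ ?_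
      · refine le_trans ?_ hNLs
        exact sup_le Subgroup.le_normalizer (by rw [Subgroup.zpowers_le]; exact huN)
      · exact card_lt_card_of_lt hVlt
    by_cases hS1 : ∀ U : Subgroup G, IsPGroup p U → T ≤ U → U ≤ M₁ → U = T
    · by_cases hS2 : ∀ U : Subgroup G, IsPGroup p U → T ≤ U → U ≤ M₂ → U = T
      · exact fin hloc hM₁ hM₂ hne hT hT1 hT2 hS1 hS2
      · push Not at hS2
        obtain ⟨U, hU, hTU, hUM, hUT⟩ := hS2
        obtain ⟨M', hM', hne', hTM', hS'⟩ :=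
          step4 hM₁ hT1 hS1 hU (lt_of_le_of_ne hTU (Ne.symm hUT))
        exact fin hloc hM₁ hM' (Ne.symm hne') hT hT1 hTM' hS1 hS'
    · have hLs1 := step2 M₁ hM₁ hT1 hS1
      have hS2 : ∀ U : Subgroup G, IsPGroup p U → T ≤ U → U ≤ M₂ → U = T := by
        by_contra hS2
        have hLs2 := step2 M₂ hM₂ hT2 hS2
        exact hne (hLs1.symm.trans hLs2)
      push Not at hS1
      obtain ⟨U, hU, hTU, hUM, hUT⟩ := hS1
      obtain ⟨M', hM', hne', hTM', hS'⟩ :=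
        step4 hM₂ hT2 hS2 hU (lt_of_le_of_ne hTU (Ne.symm hUT))
      exact fin hloc hM₂ hM' (Ne.symm hne') hT hT2 hTM' hS2 hS'

end Cfsg.Agent.S3751
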