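import Cfsg.Statements.S3752
import Cfsg.Agent.Lib.Helper11.BenderLemma

set_option autoImplicit false
open Cfsg

namespace Cfsg.Agent.S3752

open Cfsg.Agent.Lib.Helper11

universe u

/-- if `F*(M)` is a `p`-group, so is `F*(N)` (the argument of helper11's S1312; no simplicity
is needed). -/
theorem pgroup_of_pgroup {G : Type u} [Group G] [Finite G] (M N : Subgroup G)
    (h1 : (Cfsg.generalizedFittingSubgroup ↥M).map M.subtype ≤ N)
    (h2 : (Cfsg.generalizedFittingSubgroup ↥N).map N.subtype ≤ M)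
    (hlayN : Cfsg.layer ↥N = ⊥) (p : ℕ) [Fact p.Prime]
    (hMp : IsPGroup p ↥(Cfsg.generalizedFittingSubgroup ↥M)) :
    IsPGroup p ↥(Cfsg.generalizedFittingSubgroup ↥N) := by
  by_contra hNp
  have hK₂ := fq'_ne_bot N hlayN p hNp
  have hK₂F : fq' p N ≤ (Cfsg.generalizedFittingSubgroup ↥N).map N.subtype := by
    unfold fq'
    apply Subgroup.map_mono
    rw [genFitting_eq_fitting_of_layer N hlayN]
    exact inf_le_left
  have hK₂M : fq' p N ≤ M := hK₂F.trans h2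
  obtain ⟨F, hF⟩ : ∃ F, F = (Cfsg.generalizedFittingSubgroup ↥M).map M.subtype := ⟨_, rfl⟩
  have hFp : IsPGroup p F := by rw [hF]; exact hMp.map _
  have hFn : M ≤ Subgroup.normalizer (F : Set G) := by
    rw [hF]; exact le_normalizer_map_subtype' _ genFitting_normal
  have hFN : F ≤ N := by rw [hF]; exact h1
  have hcop : (Nat.card F).Coprime (Nat.card (fq' p N)) := by
    obtain ⟨k, hk⟩ := IsPGroup.iff_card.mp hFp
    rw [hk]
    exact (Nat.Coprime.pow_right k (fq'_coprime p N)).symm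
  have hcomm := comm_of_normalizing_coprime (hFN.trans (fq'_normalizer p N)) (hK₂M.trans hFn) hcop
  apply hK₂
  rw [eq_bot_iff]
  intro x hx
  have hxc : (⟨x, hK₂M hx⟩ : M) ∈
      Subgroup.centralizer (Cfsg.generalizedFittingSubgroup ↥M : Set ↥M) := by
    rw [Subgroup.mem_centralizer_iff]
    intro y hy
    have hyF : (y : G) ∈ F := by rw [hF]; exact ⟨y, hy, rfl⟩
    exact Subtype.ext (hcomm _ hyF x hx)
  have hxF : x ∈ F := by
    rw [hF]; exact ⟨_, centralizer_genFitting_le hxc, rfl⟩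
  have : x ∈ F ⊓ fq' p N := Subgroup.mem_inf.mpr ⟨hxF, hx⟩
  rwa [(Subgroup.disjoint_of_coprime_natCard hcop).eq_bot] at this

theorem charp {G : Type u} [Group G] [Finite G] (M : Subgroup G) (p : ℕ) [Fact p.Prime]
    (hMp : IsPGroup p ↥(Cfsg.generalizedFittingSubgroup ↥M)) :
    Subgroup.centralizer (Cfsg.pCore p ↥M : Set ↥M) ≤ Cfsg.pCore p ↥M := by
  have h1 : Cfsg.generalizedFittingSubgroup ↥M ≤ Cfsg.pCore p ↥M :=
    le_sSup ⟨genFitting_normal, hMp⟩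
  exact (Subgroup.centralizer_le (SetLike.coe_subset_coe.mpr h1)).trans
    (centralizer_genFitting_le.trans h1)

theorem core_le {G : Type u} [Group G] [Finite G] (M : Subgroup G) (p : ℕ) [Fact p.Prime] :
    (Cfsg.pCore p ↥M).map M.subtype ≤ (Cfsg.generalizedFittingSubgroup ↥M).map M.subtype :=
  Subgroup.map_mono ((pCore_le_fitting p).trans le_sup_right)

/-- `q`-elements of `C_M(O_{q'}(F(M)))` centralize a `q'`-subgroup `B ≤ M` centralizing
`O_q(M)` (when `E(M) = 1`). -/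
theorem qcomm_in {G : Type u} [Group G] [Finite G] (M : Subgroup G) (hlay : Cfsg.layer ↥M = ⊥)
    (q : ℕ) [Fact q.Prime] (B : Subgroup G) (hBM : B ≤ M) (hB : (Nat.card B).Coprime q)
    (hBF₁ : ∀ f ∈ fq q M, ∀ b ∈ B, f * b = b * f)
    (x : G) (hxM : x ∈ M) (hx : x ∈ Subgroup.centralizer (fq' q M : Set G)) (a : ℕ)
    (hxa : x ^ (q ^ a) = 1) (k : G) (hk : k ∈ B) : k * x = x * k := by
  have hn1 : (Cfsg.pCore q ↥M).Normal := Subgroup.sSup_normal _ (fun _ h => h.1)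
  have hn2 : (Cfsg.fittingSubgroup ↥M ⊓ Cfsg.pPrimeCore q ↥M).Normal := by
    haveI : (Cfsg.fittingSubgroup ↥M).Normal := fitting_normal
    haveI : (Cfsg.pPrimeCore q ↥M).Normal := Subgroup.sSup_normal _ (fun _ h => h.1)
    infer_instance
  have hF₂cop : (Nat.card ↥(Cfsg.fittingSubgroup ↥M ⊓ Cfsg.pPrimeCore q ↥M)).Coprime q :=
    Nat.Coprime.coprime_dvd_left (Subgroup.card_dvd_of_le inf_le_right) (pPrimeCore_card_coprime q)
  have hcomm : ∀ f₁ ∈ Cfsg.pCore q ↥M, ∀ f₂ ∈ Cfsg.fittingSubgroup ↥M ⊓ Cfsg.pPrimeCore q ↥M,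
      f₁ * f₂ = f₂ * f₁ := by
    intro f₁ hf₁ f₂ hf₂
    exact Subtype.ext (fq_comm q M (f₁ : G) ⟨f₁, hf₁, rfl⟩ (f₂ : G) ⟨f₂, hf₂, rfl⟩)
  have hXn : Subgroup.centralizer
      ((Cfsg.fittingSubgroup ↥M ⊓ Cfsg.pPrimeCore q ↥M : Subgroup ↥M) : Set ↥M) ≤
      Subgroup.normalizer ((Cfsg.pCore q ↥M : Subgroup ↥M) : Set ↥M) := by
    rw [Subgroup.normalizer_eq_top_iff.mpr hn1]; exact le_top
  have hCX : Subgroup.centralizer
      ((Cfsg.fittingSubgroup ↥M ⊓ Cfsg.pPrimeCore q ↥M : Subgroup ↥M) : Set ↥M) ⊓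
      Subgroup.centralizer ((Cfsg.pCore q ↥M : Subgroup ↥M) : Set ↥M) ≤
      Cfsg.pCore q ↥M ⊔ (Cfsg.fittingSubgroup ↥M ⊓ Cfsg.pPrimeCore q ↥M) := by
    intro g hg
    have hsup : Cfsg.pCore q ↥M ⊔ (Cfsg.fittingSubgroup ↥M ⊓ Cfsg.pPrimeCore q ↥M) ≤
        Subgroup.centralizer ({g} : Set ↥M) := by
      apply sup_le
      · intro f hf
        rw [Subgroup.mem_centralizer_iff]
        intro z hz
        rw [Set.mem_singleton_iff] at hz
        rw [hz]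
        exact (Subgroup.mem_centralizer_iff.mp hg.2 f hf).symm
      · intro f hf
        rw [Subgroup.mem_centralizer_iff]
        intro z hz
        rw [Set.mem_singleton_iff] at hz
        rw [hz]
        exact (Subgroup.mem_centralizer_iff.mp hg.1 f hf).symm
    rw [fitting_eq_sup q M, ← genFitting_eq_fitting_of_layer M hlay] at hsup ⊢
    apply centralizer_genFitting_le
    rw [Subgroup.mem_centralizer_iff]
    intro y hy
    exact (Subgroup.mem_centralizer_iff.mp (hsup hy) g rfl).symm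
  have hB' : (Nat.card ↥(B.subgroupOf M)).Coprime q := by
    rw [Nat.card_congr (Subgroup.subgroupOfEquivOfLe hBM).toEquiv]; exact hB
  have hBn : B.subgroupOf M ≤ Subgroup.normalizer
      ((Cfsg.fittingSubgroup ↥M ⊓ Cfsg.pPrimeCore q ↥M : Subgroup ↥M) : Set ↥M) := by
    rw [Subgroup.normalizer_eq_top_iff.mpr hn2]; exact le_top
  have hBF : B.subgroupOf M ≤
      Subgroup.centralizer ((Cfsg.pCore q ↥M : Subgroup ↥M) : Set ↥M) := by
    intro b hb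
    rw [Subgroup.mem_centralizer_iff]
    intro f hf
    exact Subtype.ext (hBF₁ (f : G) ⟨f, hf, rfl⟩ (b : G) (Subgroup.mem_subgroupOf.mp hb))
  have hx' : (⟨x, hxM⟩ : ↥M) ∈ Subgroup.centralizer
      ((Cfsg.fittingSubgroup ↥M ⊓ Cfsg.pPrimeCore q ↥M : Subgroup ↥M) : Set ↥M) := by
    rw [Subgroup.mem_centralizer_iff]
    intro f hf
    exact Subtype.ext (Subgroup.mem_centralizer_iff.mp hx (f : G) ⟨f, hf, rfl⟩)
  have hxa' : (⟨x, hxM⟩ : ↥M) ^ (q ^ a) = 1 := Subtype.ext (by simpa using hxa)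
  have := q_element_comm q (Cfsg.pCore q ↥M) (Cfsg.fittingSubgroup ↥M ⊓ Cfsg.pPrimeCore q ↥M)
    (B.subgroupOf M) (pCore_isPGroup q) hF₂cop hcomm hXn hCX hB' hBn hBF ⟨x, hxM⟩ hx' a hxa'
    ⟨k, hBM hk⟩ (Subgroup.mem_subgroupOf.mpr hk)
  exact congrArg Subtype.val this

/-- Bender's Theorem on primitive pairs. Two distinct subgroups M₁, M₂ of G form a primitive pair when, for {i, j} = {1, 2}, every non-trivial normal subgroup A of M_i contained in M₁ ∩ M₂ satisfies N_{M_j}(A) = M₁ ∩ M₂; the pair has characteristic p when moreover C_{M_i}(O_p(M_i)) ≤ O_p(M_i) for both i and O_p(M₁)O_p(M₂) ≤ M₁ ∩ M₂. If (M₁, M₂) is a primitive pair of the finite group G with F*(M₁) ≤ M₂ and F*(M₂) ≤ M₁, then for some prime p the pair has characteristic p. -/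
theorem result {G : Type*} [Group G] [Finite G] (M₁ M₂ : Subgroup G) (hne : M₁ ≠ M₂) (hP : ∀ A : Subgroup G, A ≠ ⊥ → A ≤ M₁ ⊓ M₂ → (M₁ ≤ Subgroup.normalizer (A : Set G) → M₂ ⊓ Subgroup.normalizer (A : Set G) = M₁ ⊓ M₂) ∧ (M₂ ≤ Subgroup.normalizer (A : Set G) → M₁ ⊓ Subgroup.normalizer (A : Set G) = M₁ ⊓ M₂)) (h₁ : (Cfsg.generalizedFittingSubgroup ↥M₁).map M₁.subtype ≤ M₂) (h₂ : (Cfsg.generalizedFittingSubgroup ↥M₂).map M₂.subtype ≤ M₁) : ∃ p : ℕ, p.Prime ∧ Subgroup.centralizer (Cfsg.pCore p ↥M₁ : Set ↥M₁) ≤ Cfsg.pCore p ↥M₁ ∧ Subgroup.centralizer (Cfsg.pCore p ↥M₂ : Set ↥M₂) ≤ Cfsg.pCore p ↥M₂ ∧ (Cfsg.pCore p ↥M₁).map M₁.subtype ⊔ (Cfsg.pCore p ↥M₂).map M₂.subtype ≤ M₁ ⊓ M₂ := by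
  classical
  have key : ∀ A : Subgroup G, A ≠ ⊥ → A ≤ M₁ ⊓ M₂ → M₁ ≤ Subgroup.normalizer (A : Set G) →
      M₂ ≤ Subgroup.normalizer (A : Set G) → False := by
    intro A hA hAD hn1 hn2
    obtain ⟨hp1, hp2⟩ := hP A hA hAD
    have e1 := hp1 hn1
    have e2 := hp2 hn2
    rw [inf_eq_left.mpr hn2] at e1
    rw [inf_eq_left.mpr hn1] at e2
    exact hne (e2.trans e1.symm)
  have hF1D : fsOf M₁ ≤ M₁ ⊓ M₂ := le_inf (fsOf_le M₁) h₁
  have hF2D : fsOf M₂ ≤ M₁ ⊓ M₂ := le_inf h₂ (fsOf_le M₂)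
  have hE : layOf M₁ = layOf M₂ :=
    le_antisymm (layOf_le_of_mutual M₁ M₂ h₁ h₂) (layOf_le_of_mutual M₂ M₁ h₂ h₁)
  have hlayle : ∀ M : Subgroup G, layOf M ≤ fsOf M := fun M => by
    rw [fsOf_eq]; exact le_sup_left
  have hEbot : layOf M₁ = ⊥ := by
    by_contra hEne
    refine key (layOf M₁) hEne ((hlayle M₁).trans hF1D)
      (le_normalizer_map_subtype' _ layer_normal) ?_
    rw [hE]; exact le_normalizer_map_subtype' _ layer_normal
  have hlay1 : Cfsg.layer ↥M₁ = ⊥ :=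
    (Subgroup.map_eq_bot_iff_of_injective _ M₁.subtype_injective).mp hEbot
  have hlay2 : Cfsg.layer ↥M₂ = ⊥ :=
    (Subgroup.map_eq_bot_iff_of_injective _ M₂.subtype_injective).mp
      (show layOf M₂ = ⊥ by rw [← hE]; exact hEbot)
  by_cases hMp : ∃ p : ℕ, p.Prime ∧ IsPGroup p ↥(Cfsg.generalizedFittingSubgroup ↥M₁)
  · obtain ⟨p, hp, hMp⟩ := hMp
    haveI : Fact p.Prime := ⟨hp⟩
    have hNp := pgroup_of_pgroup M₁ M₂ h₁ h₂ hlay2 p hMp
    exact ⟨p, hp, charp M₁ p hMp, charp M₂ p hNp,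
      sup_le ((core_le M₁ p).trans hF1D) ((core_le M₂ p).trans hF2D)⟩
  by_cases hNp : ∃ p : ℕ, p.Prime ∧ IsPGroup p ↥(Cfsg.generalizedFittingSubgroup ↥M₂)
  · obtain ⟨p, hp, hNp⟩ := hNp
    haveI : Fact p.Prime := ⟨hp⟩
    have hMp' := pgroup_of_pgroup M₂ M₁ h₂ h₁ hlay1 p hNp
    exact ⟨p, hp, charp M₁ p hMp', charp M₂ p hNp,
      sup_le ((core_le M₁ p).trans hF1D) ((core_le M₂ p).trans hF2D)⟩
  exfalso
  push Not at hMp hNp
  have hcard1 : Nat.card ↥(Cfsg.generalizedFittingSubgroup ↥M₁) ≠ 1 := by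
    intro h
    apply hMp 2 Nat.prime_two
    haveI : Fact (Nat.Prime 2) := ⟨Nat.prime_two⟩
    exact IsPGroup.of_card (n := 0) (by rw [h, pow_zero])
  obtain ⟨q, hq, hqdvd⟩ := Nat.exists_prime_and_dvd hcard1
  haveI : Fact q.Prime := ⟨hq⟩
  have hF₁ne := fq_ne_bot M₁ hlay1 q hqdvd
  have hF₂ne := fq'_ne_bot M₁ hlay1 q (hMp q hq)
  have hK₂ne := fq'_ne_bot M₂ hlay2 q (hNp q hq)
  have hFitM : (Cfsg.fittingSubgroup ↥M₁).map M₁.subtype ≤ M₂ := by
    rw [← genFitting_eq_fitting_of_layer M₁ hlay1]; exact h₁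
  have hFitN : (Cfsg.fittingSubgroup ↥M₂).map M₂.subtype ≤ M₁ := by
    rw [← genFitting_eq_fitting_of_layer M₂ hlay2]; exact h₂
  have hF₁N : fq q M₁ ≤ M₂ := by
    rw [← fq_sup q M₁] at hFitM; exact le_sup_left.trans hFitM
  have hF₂N : fq' q M₁ ≤ M₂ := by
    rw [← fq_sup q M₁] at hFitM; exact le_sup_right.trans hFitM
  have hK₁M : fq q M₂ ≤ M₁ := by
    rw [← fq_sup q M₂] at hFitN; exact le_sup_left.trans hFitN
  have hK₂M : fq' q M₂ ≤ M₁ := by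
    rw [← fq_sup q M₂] at hFitN; exact le_sup_right.trans hFitN
  have hcopFK : (Nat.card (fq q M₁)).Coprime (Nat.card (fq' q M₂)) := by
    obtain ⟨k, hk⟩ := IsPGroup.iff_card.mp (fq_isPGroup q M₁)
    rw [hk]; exact (Nat.Coprime.pow_right k (fq'_coprime q M₂)).symm
  have hcopKF : (Nat.card (fq q M₂)).Coprime (Nat.card (fq' q M₁)) := by
    obtain ⟨k, hk⟩ := IsPGroup.iff_card.mp (fq_isPGroup q M₂)
    rw [hk]; exact (Nat.Coprime.pow_right k (fq'_coprime q M₁)).symm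
  have hF₁K₂ := comm_of_normalizing_coprime (hF₁N.trans (fq'_normalizer q M₂))
    (hK₂M.trans (fq_normalizer q M₁)) hcopFK
  have hK₁F₂ := comm_of_normalizing_coprime (hK₁M.trans (fq'_normalizer q M₁))
    (hF₂N.trans (fq_normalizer q M₂)) hcopKF
  have hXY : ∀ x ∈ M₁, x ∈ Subgroup.centralizer (fq' q M₁ : Set G) → ∀ a : ℕ, x ^ (q ^ a) = 1 →
      x ∈ M₂ ∧ x ∈ Subgroup.centralizer (fq' q M₂ : Set G) := by
    intro x hxM hx a hxa
    have hc : x ∈ Subgroup.centralizer (fq' q M₂ : Set G) := by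
      rw [Subgroup.mem_centralizer_iff]
      intro k hk
      exact qcomm_in M₁ hlay1 q (fq' q M₂) hK₂M (fq'_coprime q M₂)
        (fun f hf b hb => hF₁K₂ f hf b hb) x hxM hx a hxa k hk
    refine ⟨?_, hc⟩
    have hprim := (hP (fq' q M₂) hK₂ne (le_inf hK₂M (fq'_le q M₂))).2 (fq'_normalizer q M₂)
    have hmem : x ∈ M₁ ⊓ Subgroup.normalizer ((fq' q M₂ : Subgroup G) : Set G) :=
      ⟨hxM, Subgroup.centralizer_le_normalizer _ hc⟩
    rw [hprim] at hmem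
    exact hmem.2
  have hYX : ∀ x ∈ M₂, x ∈ Subgroup.centralizer (fq' q M₂ : Set G) → ∀ a : ℕ, x ^ (q ^ a) = 1 →
      x ∈ M₁ ∧ x ∈ Subgroup.centralizer (fq' q M₁ : Set G) := by
    intro x hxM hx a hxa
    have hc : x ∈ Subgroup.centralizer (fq' q M₁ : Set G) := by
      rw [Subgroup.mem_centralizer_iff]
      intro k hk
      exact qcomm_in M₂ hlay2 q (fq' q M₁) hF₂N (fq'_coprime q M₁)
        (fun f hf b hb => hK₁F₂ f hf b hb) x hxM hx a hxa k hk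
    refine ⟨?_, hc⟩
    have hprim := (hP (fq' q M₁) hF₂ne (le_inf (fq'_le q M₁) hF₂N)).1 (fq'_normalizer q M₁)
    have hmem : x ∈ M₂ ⊓ Subgroup.normalizer ((fq' q M₁ : Subgroup G) : Set G) :=
      ⟨hxM, Subgroup.centralizer_le_normalizer _ hc⟩
    rw [hprim] at hmem
    exact hmem.1
  obtain ⟨S, hS⟩ : ∃ S : Set G, S = {x | x ∈ M₁ ∧ x ∈ Subgroup.centralizer (fq' q M₁ : Set G) ∧
      ∃ a : ℕ, x ^ (q ^ a) = 1} := ⟨_, rfl⟩
  have hS' : S = {x | x ∈ M₂ ∧ x ∈ Subgroup.centralizer (fq' q M₂ : Set G) ∧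
      ∃ a : ℕ, x ^ (q ^ a) = 1} := by
    rw [hS]
    ext x
    constructor
    · rintro ⟨hxM, hx, a, hxa⟩
      obtain ⟨h1, h2⟩ := hXY x hxM hx a hxa
      exact ⟨h1, h2, a, hxa⟩
    · rintro ⟨hxM, hx, a, hxa⟩
      obtain ⟨h1, h2⟩ := hYX x hxM hx a hxa
      exact ⟨h1, h2, a, hxa⟩
  have hconj : ∀ (L F : Subgroup G), L ≤ Subgroup.normalizer (F : Set G) →
      L ≤ Subgroup.normalizer ((Subgroup.closure {x | x ∈ L ∧
        x ∈ Subgroup.centralizer (F : Set G) ∧ ∃ a : ℕ, x ^ (q ^ a) = 1} : Subgroup G) : Set G) := by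
    intro L F hLF
    apply le_normalizer_of_map_conj_le
    intro g hg
    rw [MonoidHom.map_closure]
    apply Subgroup.closure_mono
    rintro _ ⟨x, ⟨hxL, hx, a, hxa⟩, rfl⟩
    refine ⟨L.mul_mem (L.mul_mem hg hxL) (L.inv_mem hg),
      conj_mem_centralizer_of_mem_normalizer (hLF hg) hx, a, ?_⟩
    show (g * x * g⁻¹) ^ (q ^ a) = 1
    rw [conj_pow, hxa, mul_one, mul_inv_cancel]
  have hRM : M₁ ≤ Subgroup.normalizer ((Subgroup.closure S : Subgroup G) : Set G) := by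
    rw [hS]; exact hconj M₁ (fq' q M₁) (fq'_normalizer q M₁)
  have hRN : M₂ ≤ Subgroup.normalizer ((Subgroup.closure S : Subgroup G) : Set G) := by
    rw [hS']; exact hconj M₂ (fq' q M₂) (fq'_normalizer q M₂)
  have hRle : Subgroup.closure S ≤ M₁ ⊓ M₂ := by
    rw [Subgroup.closure_le]
    intro x hx
    refine ⟨?_, ?_⟩
    · rw [hS] at hx; exact hx.1
    · rw [hS'] at hx; exact hx.1
  have hF₁R : fq q M₁ ≤ Subgroup.closure S := by
    intro f hf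
    apply Subgroup.subset_closure
    rw [hS]
    refine ⟨fq_le q M₁ hf, ?_, ?_⟩
    · rw [Subgroup.mem_centralizer_iff]
      intro f₂ hf₂
      exact (fq_comm q M₁ f hf f₂ hf₂).symm
    · obtain ⟨a, ha⟩ := fq_isPGroup q M₁ ⟨f, hf⟩
      exact ⟨a, by simpa using congrArg Subtype.val ha⟩
  refine key (Subgroup.closure S) ?_ hRle hRM hRN
  intro h
  apply hF₁ne
  rw [eq_bot_iff, ← h]; exact hF₁R

end Cfsg.Agent.S3752
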