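import Cfsg.Statements.S3754
import Mathlib
import Cfsg.Agent.Lib.Helper6.PSolv
import Cfsg.Agent.Lib.Helper6.PSolv4
import Cfsg.Agent.Lib.Helper1.PRes
import Cfsg.Agent.Lib.Helper1.Cores
import Cfsg.Agent.Lib.Helper21.CoCyclic
import Cfsg.Agent.Lib.Helper21.CoprimeAbs
import Cfsg.Agent.Lib.Helper18.PGroupFrat

set_option autoImplicit false
open Cfsg

namespace Cfsg.Agent.S3754

open scoped commutatorElement

/-- Lift an element of order prime to `p` in the image of `L` to an element of `L` of order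
prime to `p`. -/
theorem exists_pprime_lift {M N : Type*} [Group M] [Group N] [Finite M] {p : ℕ}
    [hp : Fact p.Prime] (f : M →* N) (L : Subgroup M) (c : N) (hc : c ∈ L.map f)
    (hcop : (orderOf c).Coprime p) :
    ∃ y ∈ L, f y = c ∧ (orderOf y).Coprime p := by
  obtain ⟨r, hr, rfl⟩ := hc
  obtain ⟨k, m, hm, hkm⟩ := Nat.exists_eq_pow_mul_and_not_dvd (orderOf_pos r).ne' p
    hp.out.ne_one
  have h1 : (p ^ k).Coprime (orderOf (f r)) := Nat.Coprime.pow_left k hcop.symm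
  obtain ⟨j, hj⟩ := exists_pow_eq_self_of_coprime h1
  refine ⟨(r ^ (p ^ k)) ^ j, L.pow_mem (L.pow_mem hr _) _, ?_, ?_⟩
  · rw [map_pow, map_pow]; exact hj
  · have h2 : orderOf (r ^ (p ^ k)) ∣ m := by
      apply orderOf_dvd_of_pow_eq_one
      rw [← pow_mul, ← hkm, pow_orderOf_eq_one]
    have h3 : orderOf ((r ^ (p ^ k)) ^ j) ∣ orderOf (r ^ (p ^ k)) := orderOf_pow_dvd j
    exact Nat.Coprime.coprime_dvd_left (h3.trans h2)
      ((Nat.Prime.coprime_iff_not_dvd hp.out).mpr hm).symm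

/-- An element that is both a `p`-element and a `p'`-element is trivial. -/
theorem eq_one_of_pow_of_coprime {N : Type*} [Group N] {p : ℕ} {c : N} {n : ℕ}
    (h1 : c ^ (p ^ n) = 1) (h2 : (orderOf c).Coprime p) : c = 1 := by
  have h3 : orderOf c ∣ p ^ n := orderOf_dvd_of_pow_eq_one h1
  have h4 : orderOf c = 1 := Nat.eq_one_of_dvd_coprimes (Nat.Coprime.pow_right n h2) dvd_rfl h3
  exact orderOf_eq_one_iff.mp h4

/-- The product set `N * A` as a subgroup, when `A` normalizes `N`. -/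
def mulSub {M : Type*} [Group M] (A N : Subgroup M)
    (hAN : ∀ a ∈ A, ∀ n ∈ N, a * n * a⁻¹ ∈ N) : Subgroup M where
  carrier := {t | ∃ a ∈ A, t * a ∈ N}
  mul_mem' := by
    rintro t₁ t₂ ⟨a₁, ha₁, h₁⟩ ⟨a₂, ha₂, h₂⟩
    refine ⟨a₂ * a₁, A.mul_mem ha₂ ha₁, ?_⟩
    have h3 := hAN a₁⁻¹ (A.inv_mem ha₁) _ h₂
    have h4 := N.mul_mem h₁ h3
    have e : t₁ * a₁ * (a₁⁻¹ * (t₂ * a₂) * a₁⁻¹⁻¹) = t₁ * t₂ * (a₂ * a₁) := by group
    rwa [e] at h4
  one_mem' := ⟨1, A.one_mem, by rw [mul_one]; exact N.one_mem⟩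
  inv_mem' := by
    rintro t ⟨a, ha, h⟩
    refine ⟨a⁻¹, A.inv_mem ha, ?_⟩
    have h3 := hAN a ha _ (N.inv_mem h)
    have e : a * (t * a)⁻¹ * a⁻¹ = t⁻¹ * a⁻¹ := by group
    rwa [e] at h3

/-- Every element of `A ⊔ A^y` of order prime to `p` lies in any subgroup `N` normalized by
the `p`-group `A` and containing the commutators `[y, a]`, `a ∈ A`. -/
theorem pprime_mem_of_normalized {M : Type*} [Group M] [Finite M] {p : ℕ} [Fact p.Prime]
    (A N : Subgroup M) (hA : IsPGroup p A) (hAN : ∀ a ∈ A, ∀ n ∈ N, a * n * a⁻¹ ∈ N)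
    (y : M) (hy : ∀ a ∈ A, y * a * y⁻¹ * a⁻¹ ∈ N) (g : M)
    (hg : g ∈ A ⊔ A.map (MulAut.conj y).toMonoidHom) (hgo : (orderOf g).Coprime p) :
    g ∈ N := by
  have h1 : A ⊔ A.map (MulAut.conj y).toMonoidHom ≤ mulSub A N hAN := by
    apply sup_le
    · intro a ha
      exact ⟨a⁻¹, A.inv_mem ha, by rw [mul_inv_cancel]; exact N.one_mem⟩
    · rintro _ ⟨a, ha, rfl⟩
      exact ⟨a⁻¹, A.inv_mem ha, hy a ha⟩
  obtain ⟨a, ha, hga⟩ := h1 hg
  have h2 : ∀ j : ℕ, g ^ j * a ^ j ∈ N := by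
    intro j
    induction j with
    | zero => simp
    | succ j ih =>
      have h3 := hAN a⁻¹ (A.inv_mem ha) _ ih
      have h4 := N.mul_mem hga h3
      have e : g * a * (a⁻¹ * (g ^ j * a ^ j) * a⁻¹⁻¹) = g ^ (j + 1) * a ^ (j + 1) := by
        rw [pow_succ' g j, pow_succ a j]; group
      rwa [e] at h4
  obtain ⟨n, hn⟩ := hA ⟨a, ha⟩
  have hn' : a ^ (p ^ n) = 1 := by
    have := congrArg Subtype.val hn
    simpa using this
  have h5 : g ^ (p ^ n) ∈ N := by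
    have := h2 (p ^ n)
    rwa [hn', mul_one] at this
  obtain ⟨m, hm⟩ := exists_pow_eq_self_of_coprime
    (show (p ^ n).Coprime (orderOf g) from Nat.Coprime.pow_left n hgo.symm)
  rw [← hm]
  exact N.pow_mem h5 m

open Cfsg.Agent.Lib.Helper1 in
/-- The abstract core: `π` plays the role of `M → M / O_p(M)`, `Q` of `O_{p'}(M / O_p(M))`,
`B` of a hyperplane of the image of `A` and `A₀` of its preimage in `A`. -/
theorem core {M N : Type*} [Group M] [Group N] [Finite M] {p : ℕ} [hp : Fact p.Prime]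
    (π : M →* N) (hker : IsPGroup p π.ker) (A : Subgroup M) (hA : IsPGroup p A)
    (Q : Subgroup N) [hQn : Q.Normal] (hQ : (Nat.card Q).Coprime p)
    (B : Subgroup N) (hBA : ∀ b ∈ B, ∀ a ∈ A, π a * b = b * π a)
    (A₀ : Subgroup M) (hA₀ : A₀ ≤ A) (hA₀B : ∀ a ∈ A₀, π a ∈ B) (hidx : A₀.relIndex A = p)
    (x₀ : M) (hx₀Q : π x₀ ∈ Q) (hx₀B : ∀ b ∈ B, π x₀ * b = b * π x₀)
    (hx₀A : ∃ a ∈ A, π x₀ * π a ≠ π a * π x₀) :
    ∃ x : M, π x ∈ Q ∧ ∀ L : Subgroup M, L = A ⊔ A.map (MulAut.conj x).toMonoidHom →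
      x ∈ (pResidual p ↥L).map L.subtype ∧
      (pResidual p ↥L).map L.subtype ≤ Q.comap π ∧
      ⁅(pResidual p ↥L).map L.subtype, A⁆ = (pResidual p ↥L).map L.subtype ∧
      (A ⊓ (pCore p ↥L).map L.subtype).relIndex A = p ∧
      ⁅A ⊓ (pCore p ↥L).map L.subtype, L⁆ ≤ π.ker := by
  classical
  obtain ⟨X, hX⟩ : ∃ X : Set M, X = {x | π x ∈ Q ∧ (∀ b ∈ B, π x * b = b * π x) ∧
      ∃ a ∈ A, π x * π a ≠ π a * π x} := ⟨_, rfl⟩
  have hXne : X.Nonempty := ⟨x₀, by rw [hX]; exact ⟨hx₀Q, hx₀B, hx₀A⟩⟩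
  obtain ⟨x, hxX, hxmin⟩ := Set.exists_min_image X
    (fun x => Nat.card ↥(A ⊔ A.map (MulAut.conj x).toMonoidHom)) (Set.toFinite X) hXne
  have hxX' := hxX
  rw [hX] at hxX'
  obtain ⟨hxQ, hxB, a, ha, hxa⟩ := hxX'
  obtain ⟨c, hc⟩ : ∃ c, c = π x * π a * (π x)⁻¹ * (π a)⁻¹ := ⟨_, rfl⟩
  have hcQ : c ∈ Q := by
    rw [hc]
    have h1 : π a * (π x)⁻¹ * (π a)⁻¹ ∈ Q := hQn.conj_mem _ (Q.inv_mem hxQ) _
    have h2 := Q.mul_mem hxQ h1
    have e : π x * (π a * (π x)⁻¹ * (π a)⁻¹) = π x * π a * (π x)⁻¹ * (π a)⁻¹ := by group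
    rwa [e] at h2
  have hcB : ∀ b ∈ B, c * b = b * c := by
    intro b hb
    have h1 : Commute (π x) b := hxB b hb
    have h2 : Commute (π a) b := hBA b hb a ha
    rw [hc]
    exact (((h1.mul_left h2).mul_left h1.inv_left).mul_left h2.inv_left)
  have hcL : c ∈ (A ⊔ A.map (MulAut.conj x).toMonoidHom).map π := by
    refine ⟨x * a * x⁻¹ * a⁻¹, ?_, ?_⟩
    · apply Subgroup.mul_mem
      · apply (le_sup_right : A.map (MulAut.conj x).toMonoidHom ≤ _)
        exact ⟨a, ha, rfl⟩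
      · exact (le_sup_left : A ≤ _) (A.inv_mem ha)
    · rw [hc]; simp only [map_mul, map_inv]
  have hcop : (orderOf c).Coprime p :=
    Nat.Coprime.coprime_dvd_left (Subgroup.orderOf_dvd_natCard Q hcQ) hQ
  have hca : c * π a ≠ π a * c := by
    intro hcomm
    obtain ⟨n, hn⟩ := hA ⟨a, ha⟩
    have hn' : a ^ (p ^ n) = 1 := by
      have := congrArg Subtype.val hn
      simpa using this
    have h1 : (c * π a) ^ (p ^ n) = c ^ (p ^ n) * (π a) ^ (p ^ n) :=
      (show Commute c (π a) from hcomm).mul_pow _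
    have h2 : c * π a = π x * π a * (π x)⁻¹ := by rw [hc]; group
    have h3 : (π x * π a * (π x)⁻¹) ^ (p ^ n) = 1 := by
      rw [conj_pow, ← map_pow, hn', map_one, mul_one, mul_inv_cancel]
    rw [h2, h3, ← map_pow, hn', map_one, mul_one] at h1
    have hc1 : c = 1 := eq_one_of_pow_of_coprime h1.symm hcop
    apply hxa
    have h4 : π x * π a * (π x)⁻¹ * (π a)⁻¹ = 1 := by rw [← hc]; exact hc1
    calc π x * π a = (π x * π a * (π x)⁻¹ * (π a)⁻¹) * π a * π x := by group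
      _ = π a * π x := by rw [h4, one_mul]
  obtain ⟨y, hyLx, hyc, hyo⟩ := exists_pprime_lift π _ c hcL hcop
  have hyX : y ∈ X := by
    rw [hX]
    exact ⟨by rw [hyc]; exact hcQ, by rw [hyc]; exact hcB, a, ha, by rw [hyc]; exact hca⟩
  have hle : A ⊔ A.map (MulAut.conj y).toMonoidHom ≤ A ⊔ A.map (MulAut.conj x).toMonoidHom := by
    apply sup_le le_sup_left
    rintro _ ⟨b, hb, rfl⟩
    exact Subgroup.mul_mem _ (Subgroup.mul_mem _ hyLx (le_sup_left (a := A) hb))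
      (Subgroup.inv_mem _ hyLx)
  have heq : A ⊔ A.map (MulAut.conj y).toMonoidHom = A ⊔ A.map (MulAut.conj x).toMonoidHom :=
    Subgroup.eq_of_le_of_card_ge hle (hxmin y hyX)
  have hyQ : π y ∈ Q := by rw [hyc]; exact hcQ
  have hyB : ∀ b ∈ B, π y * b = b * π y := by rw [hyc]; exact hcB
  have hya : π y * π a ≠ π a * π y := by rw [hyc]; exact hca
  refine ⟨y, hyQ, ?_⟩
  intro L hL
  have hAL : A ≤ L := hL ▸ le_sup_left
  have hyL : y ∈ L := by rw [hL, heq]; exact hyLx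
  obtain ⟨R, hR⟩ : ∃ R : Subgroup M, R = (pResidual p ↥L).map L.subtype := ⟨_, rfl⟩
  obtain ⟨O, hO⟩ : ∃ O : Subgroup M, O = (pCore p ↥L).map L.subtype := ⟨_, rfl⟩
  rw [← hR, ← hO]
  have hRL : R ≤ L := by rw [hR]; exact Subgroup.map_subtype_le _
  have hRn : ∀ l ∈ L, ∀ r ∈ R, l * r * l⁻¹ ∈ R := by
    intro l hl r hr
    rw [hR] at hr ⊢
    obtain ⟨r, hr, rfl⟩ := hr
    exact ⟨⟨l, hl⟩ * r * ⟨l, hl⟩⁻¹, (pResidual_normal p).conj_mem r hr ⟨l, hl⟩, rfl⟩
  have hOn : ∀ l ∈ L, ∀ r ∈ O, l * r * l⁻¹ ∈ O := by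
    intro l hl r hr
    rw [hO] at hr ⊢
    obtain ⟨r, hr, rfl⟩ := hr
    exact ⟨⟨l, hl⟩ * r * ⟨l, hl⟩⁻¹, (Cfsg.Agent.Lib.Helper1.pCore_normal (G := ↥L) p).conj_mem r hr ⟨l, hl⟩, rfl⟩
  have hOp : IsPGroup p O := by rw [hO]; exact (pCore_isPGroup p).map L.subtype
  have hyR : y ∈ R := by
    rw [hR]
    refine ⟨⟨y, hyL⟩, Subgroup.subset_closure ?_, rfl⟩
    show (orderOf (⟨y, hyL⟩ : ↥L)).Coprime p
    rw [Subgroup.orderOf_mk]; exact hyo
  -- `B` centralizes the image of `L`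
  have hBL : ∀ b ∈ B, ∀ l ∈ L, π l * b = b * π l := by
    have h1 : L ≤ (Subgroup.centralizer (B : Set N)).comap π := by
      rw [hL]
      apply sup_le
      · intro a' ha'
        rw [Subgroup.mem_comap, Subgroup.mem_centralizer_iff]
        intro b hb
        exact (hBA b hb a' ha').symm
      · rintro _ ⟨a', ha', rfl⟩
        rw [Subgroup.mem_comap, Subgroup.mem_centralizer_iff]
        intro b hb
        have h1 : Commute (π y) b := hyB b hb
        have h2 : Commute (π a') b := hBA b hb a' ha'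
        show b * π (y * a' * y⁻¹) = π (y * a' * y⁻¹) * b
        rw [map_mul, map_mul, map_inv]
        exact (((h1.mul_left h2).mul_left h1.inv_left)).symm
    intro b hb l hl
    have h2 := h1 hl
    rw [Subgroup.mem_comap, Subgroup.mem_centralizer_iff] at h2
    exact (h2 b hb).symm
  refine ⟨hyR, ?_, ?_, ?_⟩
  · -- `O^p(L) ≤ O_{p,p'}`
    obtain ⟨φ, hφ⟩ : ∃ φ : M →* N ⧸ Q, φ = (QuotientGroup.mk' Q).comp π := ⟨_, rfl⟩
    have hφy : φ y = 1 := by
      rw [hφ, MonoidHom.comp_apply]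
      exact (QuotientGroup.eq_one_iff _).mpr hyQ
    have h1 : L ≤ (A.map φ).comap φ := by
      rw [hL]
      apply sup_le (Subgroup.le_comap_map φ A)
      rintro _ ⟨b, hb, rfl⟩
      rw [Subgroup.mem_comap]
      refine ⟨b, hb, ?_⟩
      show φ b = φ (y * b * y⁻¹)
      rw [map_mul, map_mul, map_inv, hφy, one_mul, inv_one, mul_one]
    obtain ⟨ψ, hψ⟩ : ∃ ψ : ↥L →* N ⧸ Q, ψ = φ.comp L.subtype := ⟨_, rfl⟩
    have h2 : ψ.range ≤ A.map φ := by
      rintro _ ⟨l, rfl⟩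
      rw [hψ]
      exact h1 l.2
    have h3 : IsPGroup p ψ.range := (hA.map φ).to_le h2
    have h4 := pResidual_le_ker p ψ.rangeRestrict h3
    rw [MonoidHom.ker_rangeRestrict] at h4
    rw [hR]
    rintro _ ⟨r, hr, rfl⟩
    have h5 := h4 hr
    rw [MonoidHom.mem_ker, hψ, MonoidHom.comp_apply, hφ, MonoidHom.comp_apply,
      QuotientGroup.mk'_apply, QuotientGroup.eq_one_iff] at h5
    exact h5
  · -- `[O^p(L), A] = O^p(L)`
    apply le_antisymm
    · rw [Subgroup.commutator_le]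
      intro r hr a' ha'
      rw [commutatorElement_def]
      have h1 := hRn a' (hAL ha') _ (R.inv_mem hr)
      have h2 := R.mul_mem hr h1
      have e : r * (a' * r⁻¹ * a'⁻¹) = r * a' * r⁻¹ * a'⁻¹ := by group
      rwa [e] at h2
    · have hAN : ∀ a' ∈ A, ∀ n ∈ ⁅R, A⁆, a' * n * a'⁻¹ ∈ ⁅R, A⁆ := by
        intro a' ha' n hn
        have h1 : (⁅R, A⁆).map (MulAut.conj a').toMonoidHom ≤ ⁅R, A⁆ := by
          rw [Subgroup.map_commutator]
          apply Subgroup.commutator_mono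
          · rintro _ ⟨r, hr, rfl⟩
            exact hRn a' (hAL ha') r hr
          · rintro _ ⟨b, hb, rfl⟩
            exact A.mul_mem (A.mul_mem ha' hb) (A.inv_mem ha')
        exact h1 ⟨n, hn, rfl⟩
      have hy : ∀ a' ∈ A, y * a' * y⁻¹ * a'⁻¹ ∈ ⁅R, A⁆ := by
        intro a' ha'
        have := Subgroup.commutator_mem_commutator hyR ha'
        rwa [commutatorElement_def] at this
      have h1 : pResidual p ↥L ≤ (⁅R, A⁆).comap L.subtype := by
        unfold pResidual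
        rw [Subgroup.closure_le]
        intro g hg
        rw [SetLike.mem_coe, Subgroup.mem_comap]
        refine pprime_mem_of_normalized A _ hA hAN y hy _ (hL ▸ g.2) ?_
        rw [Subgroup.coe_subtype, Subgroup.orderOf_coe]
        exact hg
      intro r hr
      rw [hR] at hr
      obtain ⟨r, hr, rfl⟩ := hr
      exact h1 hr
  · -- the index and the commutator with `L`
    have hA₀O : A₀ ≤ O := by
      obtain ⟨U, hU⟩ : ∃ U : Subgroup M, U = A₀ ⊔ (π.ker ⊓ L) := ⟨_, rfl⟩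
      have hUL : U ≤ L := by
        rw [hU]; exact sup_le (hA₀.trans hAL) inf_le_right
      have hUp : IsPGroup p U := by
        rw [hU]
        exact (IsPGroup.to_sup_of_normal_right (hA.to_le hA₀) hker).to_le
          (sup_le_sup_left inf_le_left _)
      have hUn : ∀ l ∈ L, ∀ u ∈ U, l * u * l⁻¹ ∈ U := by
        intro l hl u hu
        have h1 : U.map (MulAut.conj l).toMonoidHom ≤ U := by
          conv_lhs => rw [hU]
          rw [Subgroup.map_sup]
          apply sup_le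
          · rintro _ ⟨a₀, ha₀, rfl⟩
            show l * a₀ * l⁻¹ ∈ U
            have e : l * a₀ * l⁻¹ = (l * a₀ * l⁻¹ * a₀⁻¹) * a₀ := by group
            rw [e, hU]
            refine Subgroup.mul_mem _ (le_sup_right (a := A₀) (Subgroup.mem_inf.mpr ⟨?_, ?_⟩))
              (le_sup_left (a := A₀) ha₀)
            · rw [MonoidHom.mem_ker]
              have h2 : Commute (π l) (π a₀) := hBL _ (hA₀B a₀ ha₀) l hl
              simp only [map_mul, map_inv]
              rw [h2.eq, mul_inv_cancel_right, mul_inv_cancel]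
            · exact L.mul_mem (L.mul_mem (L.mul_mem hl (hAL (hA₀ ha₀))) (L.inv_mem hl))
                (L.inv_mem (hAL (hA₀ ha₀)))
          · rintro _ ⟨k, ⟨hk1, hk2⟩, rfl⟩
            rw [hU]
            refine le_sup_right (a := A₀) (Subgroup.mem_inf.mpr ⟨?_, ?_⟩)
            · exact (MonoidHom.normal_ker π).conj_mem k hk1 l
            · exact L.mul_mem (L.mul_mem hl hk2) (L.inv_mem hl)
        exact h1 ⟨u, hu, rfl⟩
      have hnorm : (U.subgroupOf L).Normal := by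
        constructor
        intro u hu l
        rw [Subgroup.mem_subgroupOf] at hu ⊢
        exact hUn l l.2 u hu
      have hpg : IsPGroup p (U.subgroupOf L) := hUp.comap_subtype
      have h1 := le_pCore p hnorm hpg
      intro a₀ ha₀
      rw [hO]
      have ha₀U : a₀ ∈ U := by rw [hU]; exact le_sup_left (a := A₀) ha₀
      exact ⟨⟨a₀, hUL ha₀U⟩, h1 (Subgroup.mem_subgroupOf.mpr ha₀U), rfl⟩
    have hnotA : ¬ A ≤ O := by
      intro h
      have hLO : L ≤ O := by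
        rw [hL]
        apply sup_le h
        rintro _ ⟨b, hb, rfl⟩
        exact hOn y hyL b (h hb)
      obtain ⟨n, hn⟩ := hOp ⟨y, hLO hyL⟩
      have hn' : y ^ (p ^ n) = 1 := by
        have := congrArg Subtype.val hn
        simpa using this
      have hy1 : y = 1 := eq_one_of_pow_of_coprime hn' hyo
      apply hya
      rw [hy1, map_one, one_mul, mul_one]
    have hle2 : A₀ ≤ A ⊓ O := le_inf hA₀ hA₀O
    have hidx2 : (A ⊓ O).relIndex A = p := by
      have h1 : (A ⊓ O).relIndex A ∣ A₀.relIndex A := Subgroup.relIndex_dvd_of_le_left A hle2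
      rw [hidx] at h1
      rcases (Nat.dvd_prime hp.out).mp h1 with h | h
      · exfalso
        exact hnotA ((Subgroup.relIndex_eq_one.mp h).trans inf_le_right)
      · exact h
    refine ⟨hidx2, ?_⟩
    have h3 : A ⊓ O ≤ A₀ := by
      have h1 := Subgroup.relIndex_mul_relIndex A₀ (A ⊓ O) A hle2 inf_le_left
      rw [hidx, hidx2] at h1
      have h2 : A₀.relIndex (A ⊓ O) = 1 := by
        have hp0 : 0 < p := hp.out.pos
        exact Nat.eq_of_mul_eq_mul_right hp0 (by rw [h1, one_mul])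
      exact Subgroup.relIndex_eq_one.mp h2
    rw [Subgroup.commutator_le]
    intro u hu l hl
    rw [MonoidHom.mem_ker, map_commutatorElement, commutatorElement_eq_one_iff_commute]
    exact (hBL _ (hA₀B u (h3 hu)) l hl).symm

/-- A subgroup `H` of a commutative subgroup `K = H ⊔ ⟨g⟩` with `g ^ p = 1`, `g ∉ H` has index
`p` in `K`. -/
theorem relIndex_eq_prime_of_sup_zpowers {G : Type*} [Group G] {p : ℕ} [hp : Fact p.Prime]
    (H K : Subgroup G) (g : G) (hK : H ⊔ Subgroup.zpowers g = K)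
    (hcomm : ∀ u ∈ K, ∀ v ∈ K, u * v = v * u) (hgp : g ^ p = 1) (hg : g ∉ H) :
    H.relIndex K = p := by
  have hHK : H ≤ K := hK ▸ le_sup_left
  have hZK : Subgroup.zpowers g ≤ K := hK ▸ le_sup_right
  have hg1 : g ≠ 1 := fun h => hg (h ▸ H.one_mem)
  have hord : orderOf g = p := orderOf_eq_prime hgp hg1
  have hn : (H.subgroupOf K).Normal := by
    constructor
    intro n hn k
    have e : k * n * k⁻¹ = n := by
      have h1 := hcomm k k.2 n n.2
      apply Subtype.ext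
      show (k : G) * n * (k : G)⁻¹ = n
      rw [h1, mul_inv_cancel_right]
    rw [e]; exact hn
  have h1 : (H.subgroupOf K).relIndex (H.subgroupOf K ⊔ (Subgroup.zpowers g).subgroupOf K) =
      (H.subgroupOf K).relIndex ((Subgroup.zpowers g).subgroupOf K) :=
    Subgroup.relIndex_sup_left _ _
  have h2 : H.subgroupOf K ⊔ (Subgroup.zpowers g).subgroupOf K = ⊤ := by
    rw [← Subgroup.subgroupOf_sup hHK hZK, hK, Subgroup.subgroupOf_self]
  rw [h2, Subgroup.relIndex_top_right] at h1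
  have h3 : (H.subgroupOf K).relIndex ((Subgroup.zpowers g).subgroupOf K) ∣
      Nat.card ((Subgroup.zpowers g).subgroupOf K) := Subgroup.relIndex_dvd_card _ _
  have h4 : Nat.card ((Subgroup.zpowers g).subgroupOf K) = p := by
    rw [Nat.card_congr (Subgroup.subgroupOfEquivOfLe hZK).toEquiv, Nat.card_zpowers, hord]
  rw [h4, ← h1] at h3
  have h5 : H.relIndex K ∣ p := h3
  rcases (Nat.dvd_prime hp.out).mp h5 with h | h
  · exfalso
    have h6 : K ≤ H := Subgroup.relIndex_eq_one.mp h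
    exact hg (h6 (hZK (Subgroup.mem_zpowers g)))
  · exact h

/-- Let M be a finite p-soluble group and A a p-subgroup of M with Φ(A) ≤ O_p(M) but A ≰ O_p(M). Then there is x ∈ O_{p,p'}(M) such that L = ⟨A, xAx⁻¹⟩ satisfies: x ∈ O^p(L) and O^p(L) ≤ O_{p,p'}(M); [O^p(L), A] = O^p(L); A ∩ O_p(L) has index p in A; and [A ∩ O_p(L), L] ≤ O_p(M). Here O^p(L) is the subgroup generated by the p'-elements of L and O_{p,p'}(M) the preimage of O_{p'}(M/O_p(M)). -/
theorem result {M : Type*} [Group M] [Finite M] {p : ℕ} [Fact p.Prime] (hM : Cfsg.IsPSolvable p M) (A : Subgroup M) (hA : IsPGroup p A) (hΦ : (frattini ↥A).map A.subtype ≤ Cfsg.pCore p M) (hnot : ¬ A ≤ Cfsg.pCore p M) : ∃ x ∈ (Cfsg.pPrimeCore p (M ⧸ Cfsg.pCore p M)).comap (QuotientGroup.mk' (Cfsg.pCore p M)), x ∈ (Cfsg.pResidual p ↥(A ⊔ A.map (MulAut.conj x).toMonoidHom)).map (A ⊔ A.map (MulAut.conj x).toMonoidHom).subtype ∧ (Cfsg.pResidual p ↥(A ⊔ A.map (MulAut.conj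 x).toMonoidHom)).map (A ⊔ A.map (MulAut.conj x).toMonoidHom).subtype ≤ (Cfsg.pPrimeCore p (M ⧸ Cfsg.pCore p M)).comap (QuotientGroup.mk' (Cfsg.pCore p M)) ∧ ⁅(Cfsg.pResidual p ↥(A ⊔ A.map (MulAut.conj x).toMonoidHom)).map (A ⊔ A.map (MulAut.conj x).toMonoidHom).subtype, A⁆ = (Cfsg.pResidual p ↥(A ⊔ A.map (MulAut.conj x).toMonoidHom)).map (A ⊔ A.map (MulAut.conj x).toMonoidHom).subtype ∧ (A ⊓ (Cfsg.pCore p ↥(A ⊔ A.map (MulAut.conj x).toMonoidHom)).map (A ⊔ A.map (MulAut.conj x).toMonoidHom).subtype).relIndex A = p ∧ ⁅A ⊓ (Cfsg.pCore p ↥(A ⊔ A.map (MulAut.conj x).toMonoidHom)).map (A ⊔ A.map (MulAut.conj x).toMonoidHom).subtype, A ⊔ A.map (MulAut.conj x).toMonoidHom⁆ ≤ Cfsg.pCore p M := by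
  classical
  have hp : p.Prime := Fact.out
  obtain ⟨π, hπ⟩ : ∃ π : M →* M ⧸ pCore p M, π = QuotientGroup.mk' (pCore p M) := ⟨_, rfl⟩
  have hπs : Function.Surjective π := hπ ▸ QuotientGroup.mk'_surjective _
  have hπk : π.ker = pCore p M := by rw [hπ, QuotientGroup.ker_mk']
  obtain ⟨Q, hQdef⟩ : ∃ Q : Subgroup (M ⧸ pCore p M), Q = pPrimeCore p (M ⧸ pCore p M) :=
    ⟨_, rfl⟩
  have hQn : Q.Normal := hQdef ▸ Cfsg.Agent.Lib.Helper1.pPrimeCore_normal p
  have hQc : (Nat.card Q).Coprime p := hQdef ▸ Cfsg.Agent.Lib.Helper1.pPrimeCore_coprime p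
  have hsolq : IsPSolvable p (M ⧸ pCore p M) :=
    Cfsg.Agent.Lib.Helper6.isPSolvable_quotient hp (pCore p M) hM
  have hOp : pCore p (M ⧸ pCore p M) = ⊥ := Cfsg.Agent.Lib.Helper6.pCore_quotient_pCore_eq_bot
  have hCQ : Subgroup.centralizer (Q : Set (M ⧸ pCore p M)) ≤ Q :=
    hQdef ▸ Cfsg.Agent.Lib.Helper6.centralizer_pPrimeCore_le_of_isPSolvable hsolq hOp
  have hker : IsPGroup p π.ker := by
    rw [hπk]; exact Cfsg.Agent.Lib.Helper1.pCore_isPGroup p
  obtain ⟨Ab, hAb⟩ : ∃ Ab, Ab = A.map π := ⟨_, rfl⟩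
  have hcommA : ∀ a ∈ A, ∀ b ∈ A, π a * π b = π b * π a := by
    intro a ha b hb
    have h1 : ⁅a, b⁆ ∈ pCore p M :=
      hΦ (Cfsg.Agent.Lib.Helper18.commutator_le_map_frattini hA
        (Subgroup.commutator_mem_commutator ha hb))
    have h2 : π ⁅a, b⁆ = 1 := by rw [← MonoidHom.mem_ker, hπk]; exact h1
    rw [map_commutatorElement, commutatorElement_eq_one_iff_commute] at h2
    exact h2
  have hpowA : ∀ a ∈ A, (π a) ^ p = 1 := by
    intro a ha
    have h1 := Cfsg.Agent.Lib.Helper21.pow_mem_frattini' hA (⟨a, ha⟩ : ↥A)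
    have h2 : a ^ p ∈ pCore p M := hΦ ⟨_, h1, rfl⟩
    rw [← map_pow, ← MonoidHom.mem_ker, hπk]; exact h2
  have hcommAb : ∀ u ∈ Ab, ∀ v ∈ Ab, u * v = v * u := by
    rw [hAb]; rintro _ ⟨a, ha, rfl⟩ _ ⟨b, hb, rfl⟩; exact hcommA a ha b hb
  have : IsMulCommutative Ab :=
    IsMulCommutative.of_setLike_mul_comm fun _ ha _ hb => hcommAb _ ha _ hb
  have hAbp : IsPGroup p Ab := hAb ▸ hA.map π
  have hcop : (Nat.card Ab).Coprime (Nat.card Q) := by
    obtain ⟨n, hn⟩ := IsPGroup.iff_card.mp hAbp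
    rw [hn]; exact Nat.Coprime.pow_left n hQc.symm
  have hgen := Cfsg.Agent.Lib.Helper21.cocyclic_generation Ab Q
    (by rw [Subgroup.normalizer_eq_top]; exact le_top) hcop
  have hex : ∃ Bb : Subgroup (M ⧸ pCore p M), Bb ≤ Ab ∧
      (∃ ab ∈ Ab, Bb ⊔ Subgroup.zpowers ab = Ab) ∧
      ¬ (Q ⊓ Subgroup.centralizer (Bb : Set (M ⧸ pCore p M)) ≤
        Subgroup.centralizer (Ab : Set (M ⧸ pCore p M))) := by
    by_contra hcon
    push Not at hcon
    have h1 : Q ≤ Subgroup.centralizer (Ab : Set (M ⧸ pCore p M)) := by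
      conv_lhs => rw [← hgen]
      exact iSup₂_le fun Bb hBb => hcon Bb hBb.1 hBb.2
    have h2 : Ab ≤ Subgroup.centralizer (Q : Set (M ⧸ pCore p M)) :=
      Subgroup.le_centralizer_iff.mp h1
    have h3 : Ab ≤ Q := h2.trans hCQ
    apply hnot
    intro a ha
    have h4 : π a ∈ Q := h3 (hAb ▸ ⟨a, ha, rfl⟩)
    have h5 : (orderOf (π a)).Coprime p :=
      Nat.Coprime.coprime_dvd_left (Subgroup.orderOf_dvd_natCard Q h4) hQc
    have h6 : π a ^ (p ^ 1) = 1 := by rw [pow_one]; exact hpowA a ha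
    have h7 := eq_one_of_pow_of_coprime h6 h5
    rw [← hπk, MonoidHom.mem_ker]; exact h7
  obtain ⟨Bb, hBbA, ⟨ab, hab, hsup⟩, hnc⟩ := hex
  obtain ⟨xb, hxb, hxbn⟩ := SetLike.not_le_iff_exists.mp hnc
  obtain ⟨x₀, rfl⟩ := hπs xb
  obtain ⟨hx₀Q, hx₀B⟩ := Subgroup.mem_inf.mp hxb
  have habB : ab ∉ Bb := by
    intro h
    have h1 : Bb = Ab := by
      rw [← hsup]
      exact (sup_eq_left.mpr (by rw [Subgroup.zpowers_le]; exact h)).symm
    apply hnc; rw [h1]; exact inf_le_right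
  have habp : ab ^ p = 1 := by
    rw [hAb] at hab
    obtain ⟨a, ha, rfl⟩ := hab
    exact hpowA a ha
  have hidxb : Bb.relIndex Ab = p :=
    relIndex_eq_prime_of_sup_zpowers Bb Ab ab hsup hcommAb habp habB
  obtain ⟨A₀, hA₀def⟩ : ∃ A₀, A₀ = A ⊓ Bb.comap π := ⟨_, rfl⟩
  have hidx : A₀.relIndex A = p := by
    rw [hA₀def, Subgroup.inf_relIndex_left, Subgroup.relIndex_comap, ← hAb]; exact hidxb
  have hx₀A : ∃ a ∈ A, π x₀ * π a ≠ π a * π x₀ := by
    by_contra hcon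
    push Not at hcon
    apply hxbn
    rw [Subgroup.mem_centralizer_iff, hAb]
    rintro _ ⟨a, ha, rfl⟩
    exact (hcon a ha).symm
  obtain ⟨x, hxQ, hx⟩ := core π hker A hA Q hQc Bb
    (fun b hb a ha => hcommAb _ (hAb ▸ ⟨a, ha, rfl⟩) _ (hBbA hb))
    A₀ (hA₀def ▸ inf_le_left) (fun a ha => by rw [hA₀def] at ha; exact ha.2) hidx x₀ hx₀Q
    (fun b hb => ((Subgroup.mem_centralizer_iff.mp hx₀B) b hb).symm) hx₀A
  have h := hx _ rfl
  rw [hπk] at h
  subst hπ
  subst hQdef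
  exact ⟨x, hxQ, h.1, h.2.1, h.2.2.1, h.2.2.2.1, h.2.2.2.2⟩

end Cfsg.Agent.S3754
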