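import Cfsg.Statements.S3760

set_option autoImplicit false
open Cfsg

namespace Cfsg.Agent.S3760

theorem mem_map_conj {G : Type*} [Group G] (K : Subgroup G) (g x : G) :
    x ∈ K.map (MulAut.conj g).toMonoidHom ↔ g⁻¹ * x * g ∈ K := by
  constructor
  · rintro ⟨k, hk, rfl⟩
    have : g⁻¹ * (MulAut.conj g).toMonoidHom k * g = k := by
      simp [MulAut.conj_apply, mul_assoc]
    rw [this]; exact hk
  · intro h
    refine ⟨g⁻¹ * x * g, h, ?_⟩
    simp [MulAut.conj_apply, mul_assoc]

theorem mem_normalizer_iff_map {G : Type*} [Group G] (K : Subgroup G) (g : G) :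
    g ∈ Subgroup.normalizer (K : Set G) ↔ K.map (MulAut.conj g).toMonoidHom = K :=
  Subgroup.mem_normalizer_iff_map_conj_eq

/-- Let the group G act transitively on a set X, let x ∈ X with stabilizer H = G_x, and let K ≤ H. Then N_G(K) acts transitively on the set of fixed points of K if and only if every G-conjugate of K contained in H is already an H-conjugate of K. -/
theorem result {G : Type*} [Group G] {X : Type*} [MulAction G X] (htrans : ∀ a b : X, ∃ g : G, g • a = b) (x : X) (K : Subgroup G) (hK : K ≤ MulAction.stabilizer G x) : (∀ a b : X, (∀ k ∈ K, k • a = a) → (∀ k ∈ K, k • b = b) → ∃ g ∈ Subgroup.normalizer (K : Set G), g • a = b) ↔ ∀ g : G, K.map (MulAut.conj g).toMonoidHom ≤ MulAction.stabilizer G x → ∃ h ∈ MulAction.stabilizer G x, K.map (MulAut.conj g).toMonoidHom = K.map (MulAut.conj h).toMonoidHom := by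
  constructor
  · intro hN g hg
    have hfixx : ∀ k ∈ K, k • x = x := fun k hk => hK hk
    have hfixg : ∀ k ∈ K, k • (g⁻¹ • x) = g⁻¹ • x := by
      intro k hk
      have h1 : g * k * g⁻¹ ∈ MulAction.stabilizer G x := by
        apply hg
        rw [mem_map_conj]
        have : g⁻¹ * (g * k * g⁻¹) * g = k := by group
        rw [this]; exact hk
      rw [MulAction.mem_stabilizer_iff] at h1
      have e : k * g⁻¹ = g⁻¹ * (g * k * g⁻¹) := by group
      rw [← mul_smul, e, mul_smul, h1]
    obtain ⟨n, hn, hnx⟩ := hN x (g⁻¹ • x) hfixx hfixg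
    refine ⟨g * n, ?_, ?_⟩
    · rw [MulAction.mem_stabilizer_iff, mul_smul, hnx, smul_inv_smul]
    · rw [mem_normalizer_iff_map] at hn
      ext y
      rw [mem_map_conj, mem_map_conj]
      have e : (g * n)⁻¹ * y * (g * n) = n⁻¹ * (g⁻¹ * y * g) * n := by group
      rw [e, ← mem_map_conj K n, hn]
  · intro hC a b ha hb
    have key : ∀ c : X, (∀ k ∈ K, k • c = c) → ∃ n ∈ Subgroup.normalizer (K : Set G), n • x = c := by
      intro c hc
      obtain ⟨u, hu⟩ := htrans x c
      have hle : K.map (MulAut.conj u⁻¹).toMonoidHom ≤ MulAction.stabilizer G x := by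
        intro y hy
        rw [mem_map_conj] at hy
        rw [MulAction.mem_stabilizer_iff]
        have h1 := hc _ hy
        rw [← hu] at h1
        have e : y = u⁻¹ * ((u⁻¹⁻¹ * y * u⁻¹) * u) := by group
        rw [e, mul_smul, mul_smul, h1, inv_smul_smul]
      obtain ⟨h, hh, hEq⟩ := hC u⁻¹ hle
      refine ⟨u * h, ?_, ?_⟩
      · rw [mem_normalizer_iff_map]
        ext y
        rw [mem_map_conj]
        have e : (u * h)⁻¹ * y * (u * h) = h⁻¹ * (u⁻¹⁻¹⁻¹ * y * u⁻¹⁻¹) * h := by group
        rw [e, ← mem_map_conj K h, ← hEq, mem_map_conj]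
        have e2 : u⁻¹⁻¹ * (u⁻¹⁻¹⁻¹ * y * u⁻¹⁻¹) * u⁻¹ = y := by group
        rw [e2]
      · rw [mul_smul, MulAction.mem_stabilizer_iff.mp hh, hu]
    obtain ⟨na, hna, hnax⟩ := key a ha
    obtain ⟨nb, hnb, hnbx⟩ := key b hb
    refine ⟨nb * na⁻¹, Subgroup.mul_mem _ hnb (Subgroup.inv_mem _ hna), ?_⟩
    rw [mul_smul, ← hnax, inv_smul_smul, hnbx]

end Cfsg.Agent.S3760
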