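import Cfsg.Statements.S3764
import Cfsg.Agent.Lib.Helper12.XsGlue

set_option autoImplicit false
set_option linter.style.haveILetI false
open Cfsg

namespace Cfsg.Agent.S3764

/-- Let p, q, r be distinct primes and let X, Q, V be subgroups of a finite group with X of order r, Q an extraspecial q-group normalized by X with C_Q(X) = Z(Q), and V an elementary abelian p-group normalized by X and Q on which XQ acts faithfully ((X ⊔ Q) ∩ C(V) = 1). If C_V(X) = 1, then q = 2, r = 2^n + 1 for some n, and Q has order 2^(2n+1). -/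
theorem result {G : Type*} [Group G] [Finite G] {p q r : ℕ} (hp : p.Prime) (hq : q.Prime) (hr : r.Prime) (hpq : p ≠ q) (hpr : p ≠ r) (hqr : q ≠ r) (X Q V : Subgroup G) (hX : Nat.card X = r) (hQ : Cfsg.IsExtraspecial q ↥Q) (hXQ : X ≤ Subgroup.normalizer (Q : Set G)) (hCQ : Q ⊓ Subgroup.centralizer (X : Set G) = (Subgroup.center ↥Q).map Q.subtype) (hV : Cfsg.IsElementaryAbelian p V) (hXV : X ≤ Subgroup.normalizer (V : Set G)) (hQV : Q ≤ Subgroup.normalizer (V : Set G)) (hfaith : (X ⊔ Q) ⊓ Subgroup.centralizer (V : Set G) = ⊥) (hCV : V ⊓ Subgroup.centralizer (X : Set G) = ⊥) : q = 2 ∧ ∃ n : ℕ, r = 2 ^ n + 1 ∧ Nat.card Q = 2 ^ (2 * n + 1) := by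
  classical
  haveI : Fact p.Prime := ⟨hp⟩
  haveI : Fact q.Prime := ⟨hq⟩
  obtain ⟨x₀, hx₀X, hx₀1, hx₀o⟩ := Cfsg.Agent.Lib.Helper12.XsGlue.exists_gen X hr hX
  have hcent : ∀ g : G, x₀ * g = g * x₀ → g ∈ Subgroup.centralizer (X : Set G) :=
    fun g hg => Cfsg.Agent.Lib.Helper12.XsGlue.mem_centralizer_of_prime X hr hX x₀ hx₀X hx₀1 g hg
  set S : Subgroup G := X ⊔ Q with hS
  have hXS : X ≤ S := le_sup_left
  have hQS : Q ≤ S := le_sup_right
  have hSV : S ≤ Subgroup.normalizer (V : Set G) := sup_le hXV hQV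
  set Zc : Subgroup G := (Subgroup.center ↥Q).map Q.subtype with hZcdef
  have hZcQ : Zc ≤ Q := by
    rintro _ ⟨z, -, rfl⟩; exact z.2
  have hZc_mem : ∀ g : G, g ∈ Zc ↔ g ∈ Q ∧ ∀ h ∈ Q, h * g = g * h := by
    intro g
    constructor
    · rintro ⟨z, hz, rfl⟩
      refine ⟨z.2, fun h hh => ?_⟩
      have := Subgroup.mem_center_iff.mp hz ⟨h, hh⟩
      exact congrArg Subtype.val this
    · rintro ⟨hg, hcomm⟩
      exact ⟨⟨g, hg⟩, Subgroup.mem_center_iff.mpr (fun h => Subtype.ext (hcomm h h.2)), rfl⟩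
  have hZcard : Nat.card Zc = q := by
    rw [hZcdef, Subgroup.card_map_of_injective Q.subtype_injective]
    exact hQ.2
  have hZq : ∀ z ∈ Zc, z ^ q = 1 := by
    intro z hz
    have h1 : (⟨z, hz⟩ : ↥Zc) ^ Nat.card Zc = 1 := pow_card_eq_one'
    rw [hZcard] at h1
    exact congrArg Subtype.val h1
  have hZx : ∀ z ∈ Zc, x₀ * z = z * x₀ := by
    intro z hz
    have h1 : z ∈ Q ⊓ Subgroup.centralizer (X : Set G) := hCQ ▸ hz
    exact Subgroup.mem_centralizer_iff.mp h1.2 x₀ hx₀X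
  have hclQ : ∀ h ∈ Q, ∀ g ∈ Q, h * g * h⁻¹ * g⁻¹ ∈ Zc := by
    intro h hh g hg
    have h1 := Subgroup.commutator_mem_commutator (H₁ := (⊤ : Subgroup ↥Q)) (H₂ := ⊤)
      (g₁ := ⟨h, hh⟩) (g₂ := ⟨g, hg⟩) (Subgroup.mem_top _) (Subgroup.mem_top _)
    rw [← commutator_def, hQ.1.2.2] at h1
    exact ⟨_, h1, by simp [commutatorElement_def]⟩
  have hxQ : ∀ g ∈ Q, x₀ * g * x₀⁻¹ ∈ Q := by
    intro g hg
    exact (Subgroup.mem_normalizer_iff.mp (hXQ hx₀X) g).mp hg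
  have hrq : Nat.Coprime r q := (Nat.coprime_primes hr hq).mpr (Ne.symm hqr)
  have hfreeQ : ∀ g ∈ Q, x₀ * g * x₀⁻¹ * g⁻¹ ∈ Zc → g ∈ Zc := by
    intro g hg hz
    have h1 : x₀ * g = g * x₀ := Cfsg.Agent.Lib.Helper12.XsGlue.commute_of_coprime x₀ g r q
      (by rw [← hx₀o]; exact pow_orderOf_eq_one x₀) hrq (hZx _ hz) (hZq _ hz)
    have h2 : g ∈ Q ⊓ Subgroup.centralizer (X : Set G) := ⟨hg, hcent g h1⟩
    rw [hCQ] at h2
    exact h2
  obtain ⟨c, hcZ, hc1⟩ : ∃ c ∈ Zc, c ≠ 1 := by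
    have hnt : Nontrivial ↥Zc := by
      rw [← Finite.one_lt_card_iff_nontrivial, hZcard]; exact hq.one_lt
    obtain ⟨y, hy⟩ := exists_ne (1 : ↥Zc)
    exact ⟨y.1, y.2, fun h => hy (Subtype.ext h)⟩
  have hNbot : ∀ N : Subgroup G, N ≤ Zc → c ∉ N → ∀ n ∈ N, n = 1 := by
    intro N hNZ hcN n hn
    by_contra hn1
    haveI : Fact q.Prime := ⟨hq⟩
    have h2 : (⟨c, hcZ⟩ : ↥Zc) ∈ Subgroup.zpowers (⟨n, hNZ hn⟩ : ↥Zc) :=
      mem_zpowers_of_prime_card hZcard (fun h0 => hn1 (congrArg Subtype.val h0))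
    obtain ⟨k, hk⟩ := Subgroup.mem_zpowers_iff.mp h2
    have h3 : c = n ^ k := by
      have := congrArg Subtype.val hk
      simpa using this.symm
    exact hcN (h3 ▸ N.zpow_mem hn k)
  have hpX : ¬ p ∣ Nat.card X := by
    rw [hX]; intro h; exact hpr ((Nat.prime_dvd_prime_iff_eq hp hr).mp h)
  have hpQ : ¬ p ∣ Nat.card Q := by
    intro h
    obtain ⟨k, hk⟩ := (IsPGroup.iff_card.mp hQ.1.1)
    rw [hk] at h
    exact hpq ((Nat.prime_dvd_prime_iff_eq hp hq).mp (hp.dvd_of_dvd_pow h))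
  have hA : ¬ p ∣ Nat.card ↥S :=
    Cfsg.Agent.Lib.Helper12.XsGlue.not_dvd_card_sup X Q hXQ p hp hpX hpQ
  set ψ : ↥S →* MulAut ↥V := Cfsg.Agent.S1545.cj S V hSV with hψ
  have hψapp : ∀ (g : ↥S) (v : ↥V), ((ψ g v : ↥V) : G) = (g : G) * (v : G) * (g : G)⁻¹ :=
    fun g v => rfl
  have hcommV : ∀ a b : ↥V, a * b = b * a := fun a b => hV.1.is_comm.comm a b
  have hexp : ∀ v : ↥V, v ^ p = 1 := fun v => Subtype.ext (by
    rw [Subgroup.coe_pow, hV.2 v v.2, Subgroup.coe_one])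
  have hψ1 : ∀ g : ↥S, ψ g = 1 → g = 1 := by
    intro g hg
    have h1 : (g : G) ∈ S ⊓ Subgroup.centralizer (V : Set G) := by
      refine ⟨g.2, Subgroup.mem_centralizer_iff.mpr ?_⟩
      intro v hv
      have h2 := congrArg Subtype.val (show ψ g ⟨v, hv⟩ = ⟨v, hv⟩ by rw [hg]; rfl)
      rw [hψapp] at h2
      change (g : G) * v * (g : G)⁻¹ = v at h2
      calc v * (g : G) = ((g : G) * v * (g : G)⁻¹) * (g : G) := by rw [h2]
        _ = (g : G) * v := by group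
    rw [hfaith] at h1
    exact Subtype.ext (Subgroup.mem_bot.mp h1)
  set x : ↥S := ⟨x₀, hXS hx₀X⟩ with hxdef
  have hxo : orderOf x = r := by rw [← hx₀o, ← Subgroup.orderOf_coe x]
  have a1 : ∀ g ∈ Q.subgroupOf S, x * g * x⁻¹ ∈ Q.subgroupOf S := fun g hg => hxQ _ hg
  have a2 : Zc.subgroupOf S ≤ Q.subgroupOf S := fun g hg => hZcQ hg
  have a3 : ∀ z ∈ Zc.subgroupOf S, ∀ g ∈ Q.subgroupOf S, z * g = g * z := by
    intro z hz g hg
    exact Subtype.ext (((hZc_mem _).mp hz).2 _ hg).symm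
  have a4 : ∀ z ∈ Zc.subgroupOf S, x * z = z * x := fun z hz => Subtype.ext (hZx _ hz)
  have a5 : ∀ h ∈ Q.subgroupOf S, ∀ g ∈ Q.subgroupOf S,
      h * g * h⁻¹ * g⁻¹ ∈ Zc.subgroupOf S := fun h hh g hg => hclQ _ hh _ hg
  have a6 : ∀ g ∈ Q.subgroupOf S, x * g * x⁻¹ * g⁻¹ ∈ Zc.subgroupOf S → g ∈ Zc.subgroupOf S :=
    fun g hg hz => hfreeQ _ hg hz
  set cS : ↥S := ⟨c, hQS (hZcQ hcZ)⟩ with hcS
  have a7 : cS ∈ Zc.subgroupOf S := hcZ
  have a8 : ψ cS ≠ 1 := fun h => hc1 (congrArg Subtype.val (hψ1 cS h))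
  have a9 : ∀ N : Subgroup ↥S, N ≤ Zc.subgroupOf S → cS ∉ N → ∀ g ∈ Q.subgroupOf S,
      g ∉ Zc.subgroupOf S → ∃ h ∈ Q.subgroupOf S, h * g * h⁻¹ * g⁻¹ ∉ N := by
    intro N hNZ hcN g hg hgZ
    have hN1 : ∀ n ∈ N, n = 1 := by
      intro n hn
      have h0 := hNbot (N.map S.subtype) (by
          rintro _ ⟨m, hm, rfl⟩; exact hNZ hm) (by
          rintro ⟨m, hm, hmc⟩
          have : m = cS := Subtype.ext hmc
          exact hcN (this ▸ hm)) (n : G) (Subgroup.mem_map_of_mem _ hn)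
      exact Subtype.ext h0
    have h1 : ¬ ((g : G) ∈ Q ∧ ∀ h ∈ Q, h * (g : G) = (g : G) * h) :=
      fun h => hgZ ((hZc_mem _).mpr h)
    push Not at h1
    obtain ⟨h, hhQ, hne⟩ := h1 hg
    refine ⟨⟨h, hQS hhQ⟩, hhQ, fun hmem => hne ?_⟩
    have h2 := congrArg Subtype.val (hN1 _ hmem)
    simp only [Subgroup.coe_mul, Subgroup.coe_inv, Subgroup.coe_one] at h2
    calc h * (g : G) = (h * (g : G) * h⁻¹ * (g : G)⁻¹) * ((g : G) * h) := by group
      _ = (g : G) * h := by rw [h2, one_mul]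
  have a10 : ∀ v : ↥V, ψ x v = v → v = 1 := by
    intro v hv
    have h1 := congrArg Subtype.val hv
    rw [hψapp] at h1
    change x₀ * (v : G) * x₀⁻¹ = (v : G) at h1
    have h2 : x₀ * (v : G) = (v : G) * x₀ := by
      calc x₀ * (v : G) = (x₀ * (v : G) * x₀⁻¹) * x₀ := by group
        _ = (v : G) * x₀ := by rw [h1]
    have h3 : (v : G) ∈ V ⊓ Subgroup.centralizer (X : Set G) := ⟨v.2, hcent _ h2⟩
    rw [hCV] at h3
    exact Subtype.ext (Subgroup.mem_bot.mp h3)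
  have a11 : ∀ h ∈ Q.subgroupOf S, ∀ g ∈ Q.subgroupOf S, (h * g * h⁻¹ * g⁻¹) ^ q = 1 :=
    fun h hh g hg => Subtype.ext (hZq _ (hclQ _ hh _ hg))
  have cardZ : Nat.card ↥(Zc.subgroupOf S) = q := by
    rw [Nat.card_congr (Subgroup.subgroupOfEquivOfLe (hZcQ.trans hQS)).toEquiv, hZcard]
  have cardP : Nat.card ↥(Q.subgroupOf S) = Nat.card Q :=
    Nat.card_congr (Subgroup.subgroupOfEquivOfLe hQS).toEquiv
  have a12 : ¬ r ∣ Nat.card ↥(Zc.subgroupOf S) := by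
    rw [cardZ]; intro h; exact hqr ((Nat.prime_dvd_prime_iff_eq hr hq).mp h).symm
  have key := @Cfsg.Agent.Lib.Helper12.XsSub.core_sub ↥S ↥V _ _
    ({ (inferInstance : Group ↥V) with mul_comm := hcommV }) _ p _ hexp hA ψ
    (Q.subgroupOf S) (Zc.subgroupOf S) x r hr hxo a1 a2 a3 a4 a5 a6 cS a7 a8 a9 a10 q hq a11 a12
  obtain ⟨n, hn1, hn2⟩ := key
  rw [cardP, cardZ] at hn1
  have hn0 : n ≠ 0 := by
    rintro rfl
    have h1 : Nat.card (Subgroup.center ↥Q) = Nat.card Q := by rw [hn1, hQ.2]; simp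
    have h2 : Subgroup.center ↥Q = ⊤ := Subgroup.eq_top_of_card_eq _ h1
    have h3 : commutator ↥Q = ⊥ := by
      rw [commutator_def]
      exact Subgroup.commutator_top_right_eq_bot_iff_le_center.mpr h2.ge
    have h4 := hQ.1.2.2
    rw [h3, h2] at h4
    have h5 : Nat.card (⊥ : Subgroup ↥Q) = Nat.card (⊤ : Subgroup ↥Q) := by rw [h4]
    rw [Subgroup.card_bot, Subgroup.card_top, hn1] at h5
    simp at h5
    exact hq.one_lt.ne' h5.symm
  rcases hn2 with h | h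
  · exact absurd h hn0
  have hq2 : q = 2 := by
    by_contra hq2
    have hodd : Odd q := hq.odd_of_ne_two hq2
    have h1 : Even r := by rw [h]; exact (hodd.pow).add_one
    have h2 : r = 2 := (Nat.Prime.even_iff hr).mp h1
    have h4 : 1 < q ^ n := Nat.one_lt_pow hn0 hq.one_lt
    omega
  subst hq2
  exact ⟨rfl, n, h, by rw [hn1, pow_succ]⟩

end Cfsg.Agent.S3764
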