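import Cfsg.Statements.S3765
import Cfsg.Agent.Lib.Helper12.XsHH

set_option autoImplicit false
set_option linter.style.haveILetI false
open Cfsg

namespace Cfsg.Agent.S3765

/-- Let p, q, r be distinct primes and let X, Q, V be subgroups of a finite group with X of order r normalizing the q-group Q and acting faithfully on it (X ∩ C(Q) = 1), and V a nontrivial elementary abelian p-group normalized by X and Q on which XQ acts faithfully. If q = 2 and r has the form 2^n + 1, assume in addition that Q is abelian. Then C_V(X) ≠ 1. -/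
theorem result {G : Type*} [Group G] [Finite G] {p q r : ℕ} (hp : p.Prime) (hq : q.Prime) (hr : r.Prime) (hpq : p ≠ q) (hpr : p ≠ r) (hqr : q ≠ r) (X Q V : Subgroup G) (hX : Nat.card X = r) (hQ : IsPGroup q Q) (hXQ : X ≤ Subgroup.normalizer (Q : Set G)) (hXfaith : X ⊓ Subgroup.centralizer (Q : Set G) = ⊥) (hV : Cfsg.IsElementaryAbelian p V) (hV1 : V ≠ ⊥) (hXV : X ≤ Subgroup.normalizer (V : Set G)) (hQV : Q ≤ Subgroup.normalizer (V : Set G)) (hfaith : (X ⊔ Q) ⊓ Subgroup.centralizer (V : Set G) = ⊥) (hexc : q = 2 → (∃ n : ℕ, r = 2 ^ n + 1) → IsMulCommutative Q) : V ⊓ Subgroup.centralizer (X : Set G) ≠ ⊥ := by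
  classical
  haveI : Fact p.Prime := ⟨hp⟩
  haveI : Fact q.Prime := ⟨hq⟩
  intro hCV
  obtain ⟨x₀, hx₀X, hx₀1, hx₀o⟩ := Cfsg.Agent.Lib.Helper12.XsGlue.exists_gen X hr hX
  have hcent : ∀ g : G, x₀ * g = g * x₀ → g ∈ Subgroup.centralizer (X : Set G) :=
    fun g hg => Cfsg.Agent.Lib.Helper12.XsGlue.mem_centralizer_of_prime X hr hX x₀ hx₀X hx₀1 g hg
  set S : Subgroup G := X ⊔ Q with hS
  have hXS : X ≤ S := le_sup_left
  have hQS : Q ≤ S := le_sup_right
  have hSV : S ≤ Subgroup.normalizer (V : Set G) := sup_le hXV hQV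
  have hxQ : ∀ g ∈ Q, x₀ * g * x₀⁻¹ ∈ Q := by
    intro g hg
    exact (Subgroup.mem_normalizer_iff.mp (hXQ hx₀X) g).mp hg
  have hpX : ¬ p ∣ Nat.card X := by
    rw [hX]; intro h; exact hpr ((Nat.prime_dvd_prime_iff_eq hp hr).mp h)
  have hpQ : ¬ p ∣ Nat.card Q := by
    intro h
    obtain ⟨k, hk⟩ := (IsPGroup.iff_card.mp hQ)
    rw [hk] at h
    exact hpq ((Nat.prime_dvd_prime_iff_eq hp hq).mp (hp.dvd_of_dvd_pow h))
  have hA : ¬ p ∣ Nat.card ↥S :=
    Cfsg.Agent.Lib.Helper12.XsGlue.not_dvd_card_sup X Q hXQ p hp hpX hpQ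
  set ψ : ↥S →* MulAut ↥V := Cfsg.Agent.S1545.cj S V hSV with hψ
  have hψapp : ∀ (g : ↥S) (v : ↥V), ((ψ g v : ↥V) : G) = (g : G) * (v : G) * (g : G)⁻¹ :=
    fun g v => rfl
  have hcommV : ∀ a b : ↥V, a * b = b * a := fun a b => hV.1.is_comm.comm a b
  have hexp : ∀ v : ↥V, v ^ p = 1 := fun v => Subtype.ext (by
    rw [Subgroup.coe_pow, hV.2 v v.2, Subgroup.coe_one])
  have hψ1 : ∀ g : ↥S, ψ g = 1 → g = 1 := by
    intro g hg
    have h1 : (g : G) ∈ S ⊓ Subgroup.centralizer (V : Set G) := by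
      refine ⟨g.2, Subgroup.mem_centralizer_iff.mpr ?_⟩
      intro v hv
      have h2 := congrArg Subtype.val (show ψ g ⟨v, hv⟩ = ⟨v, hv⟩ by rw [hg]; rfl)
      rw [hψapp] at h2
      change (g : G) * v * (g : G)⁻¹ = v at h2
      calc v * (g : G) = ((g : G) * v * (g : G)⁻¹) * (g : G) := by rw [h2]
        _ = (g : G) * v := by group
    rw [hfaith] at h1
    exact Subtype.ext (Subgroup.mem_bot.mp h1)
  have hinj : Function.Injective ψ := (injective_iff_map_eq_one ψ).mpr hψ1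
  set x : ↥S := ⟨x₀, hXS hx₀X⟩ with hxdef
  have hxo : orderOf x = r := by rw [← hx₀o, ← Subgroup.orderOf_coe x]
  have a1 : ∀ g ∈ Q.subgroupOf S, x * g * x⁻¹ ∈ Q.subgroupOf S := fun g hg => hxQ _ hg
  have a10 : ∀ v : ↥V, ψ x v = v → v = 1 := by
    intro v hv
    have h1 := congrArg Subtype.val hv
    rw [hψapp] at h1
    change x₀ * (v : G) * x₀⁻¹ = (v : G) at h1
    have h2 : x₀ * (v : G) = (v : G) * x₀ := by
      calc x₀ * (v : G) = (x₀ * (v : G) * x₀⁻¹) * x₀ := by group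
        _ = (v : G) * x₀ := by rw [h1]
    have h3 : (v : G) ∈ V ⊓ Subgroup.centralizer (X : Set G) := ⟨v.2, hcent _ h2⟩
    rw [hCV] at h3
    exact Subtype.ext (Subgroup.mem_bot.mp h3)
  have hQ' : IsPGroup q ↥(Q.subgroupOf S) := hQ.comap_subtype
  have hnc : ∃ g ∈ Q.subgroupOf S, x * g ≠ g * x := by
    by_contra hcon
    push Not at hcon
    have h1 : x₀ ∈ X ⊓ Subgroup.centralizer (Q : Set G) := by
      refine ⟨hx₀X, Subgroup.mem_centralizer_iff.mpr ?_⟩
      intro g hg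
      have h2 := congrArg Subtype.val (hcon ⟨g, hQS hg⟩ hg)
      exact h2.symm
    rw [hXfaith] at h1
    exact hx₀1 (Subgroup.mem_bot.mp h1)
  obtain ⟨h1, h2, a, ha, b, hb, hab⟩ := @Cfsg.Agent.Lib.Helper12.XsHH.hh ↥S ↥V _ _
    ({ (inferInstance : Group ↥V) with mul_comm := hcommV }) _ p _ hexp hA ψ hinj x r hr hxo a10
    q hq hqr _ (Q.subgroupOf S) rfl hQ' a1 hnc
  have hcomm := hexc h1 h2
  apply hab
  have h3 := hcomm.is_comm.comm (⟨a, ha⟩ : ↥Q) ⟨b, hb⟩
  have h4 : (a : G) * (b : G) = (b : G) * (a : G) := congrArg Subtype.val h3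
  exact Subtype.ext h4

end Cfsg.Agent.S3765
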