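import Cfsg.Statements.S3766
import Mathlib
import Cfsg.Agent.Lib.Helper21.CoprimeP
import Cfsg.Agent.Lib.Helper21.FittingK
import Cfsg.Agent.Lib.Helper21.CharSub

set_option autoImplicit false
open Cfsg

namespace Cfsg.Agent.S3766

open Cfsg.Agent.Lib.Helper21

open scoped commutatorElement

/-- Iterated commutators `[U, R, ..., R]`. -/
def iterComm {G : Type*} [Group G] (U R : Subgroup G) : ℕ → Subgroup G
  | 0 => U
  | k + 1 => ⁅iterComm U R k, R⁆

theorem iterComm_zero {G : Type*} [Group G] (U R : Subgroup G) : iterComm U R 0 = U := rfl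

theorem iterComm_succ {G : Type*} [Group G] (U R : Subgroup G) (k : ℕ) :
    iterComm U R (k + 1) = ⁅iterComm U R k, R⁆ := rfl

/-- A normal nilpotent subgroup centralizes every chief factor. -/
theorem nilpotent_centralizes_chief {G : Type*} [Group G] (R : Subgroup G) [R.Normal]
    (hR : Group.IsNilpotent R) (U V : Subgroup G) [U.Normal] [V.Normal] (hVU : V < U)
    (hmin : ∀ W : Subgroup G, W.Normal → V ≤ W → W ≤ U → W = V ∨ W = U) :
    ⁅U, R⁆ ≤ V := by
  have hWn : (V ⊔ ⁅U, R⁆).Normal := inferInstance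
  have hWU : V ⊔ ⁅U, R⁆ ≤ U := sup_le hVU.le (Subgroup.commutator_le_left U R)
  rcases hmin _ hWn le_sup_left hWU with h | h
  · rw [← h]; exact le_sup_right
  · exfalso
    obtain ⟨c, hc⟩ := (Subgroup.isNilpotent_iff_lowerCentralSeries R).mp hR
    have hCn : ∀ k, (iterComm U R k).Normal := by
      intro k
      induction k with
      | zero => rw [iterComm_zero]; infer_instance
      | succ k ih =>
        rw [iterComm_succ]
        haveI := ih
        exact Subgroup.commutator_normal _ _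
    have hCl : ∀ k, iterComm U R (k + 1) ≤ R.lowerCentralSeries k := by
      intro k
      induction k with
      | zero =>
        rw [iterComm_succ, iterComm_zero, Subgroup.lowerCentralSeries_zero]
        exact Subgroup.commutator_le_right U R
      | succ k ih =>
        rw [iterComm_succ, Subgroup.lowerCentralSeries_succ]
        exact Subgroup.commutator_mono ih le_rfl
    have hstep : ∀ k, U ≤ V ⊔ iterComm U R k := by
      intro k
      induction k with
      | zero => rw [iterComm_zero]; exact le_sup_right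
      | succ k ih =>
        haveI := hCn k
        have h1 : ⁅U, R⁆ ≤ V ⊔ iterComm U R (k + 1) := by
          rw [Subgroup.commutator_le]
          intro u hu r hr
          obtain ⟨v, hv, c', hc', rfl⟩ := Subgroup.mem_sup_of_normal_left.mp (ih hu)
          have e : ⁅v * c', r⁆ = v * ⁅c', r⁆ * (r * v⁻¹ * r⁻¹) := by
            simp only [commutatorElement_def]; group
          rw [e]
          refine Subgroup.mul_mem _ (Subgroup.mul_mem _ (le_sup_left (a := V) hv)
            (le_sup_right (a := V) ?_)) (le_sup_left (a := V) ?_)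
          · rw [iterComm_succ]; exact Subgroup.commutator_mem_commutator hc' hr
          · exact Subgroup.Normal.conj_mem inferInstance _ (V.inv_mem hv) r
        calc U = V ⊔ ⁅U, R⁆ := h.symm
          _ ≤ V ⊔ (V ⊔ iterComm U R (k + 1)) := sup_le_sup_left h1 V
          _ = V ⊔ iterComm U R (k + 1) := by rw [← sup_assoc, sup_idem]
    have h2 := hstep (c + 1)
    have h3 : iterComm U R (c + 1) = ⊥ := le_bot_iff.mp (hc ▸ hCl c)
    rw [h3, sup_bot_eq] at h2
    exact (not_le_of_gt hVU) h2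

/-- The elements of `N` centralizing all chief factors of `G` below `F`. -/
def chiefCent {G : Type*} [Group G] (N F : Subgroup G) : Subgroup G where
  carrier := {g | g ∈ N ∧ ∀ U V : Subgroup G, (U.Normal ∧ V.Normal ∧ V < U ∧
    ∀ W : Subgroup G, W.Normal → V ≤ W → W ≤ U → W = V ∨ W = U) → U ≤ F →
    ∀ u ∈ U, u * g * u⁻¹ * g⁻¹ ∈ V}
  one_mem' := ⟨N.one_mem, fun U V _ _ u _ => by simp⟩
  mul_mem' := by
    rintro a b ⟨haN, ha⟩ ⟨hbN, hb⟩
    refine ⟨N.mul_mem haN hbN, fun U V h hUF u hu => ?_⟩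
    have e : u * (a * b) * u⁻¹ * (a * b)⁻¹ =
        (u * a * u⁻¹ * a⁻¹) * (a * (u * b * u⁻¹ * b⁻¹) * a⁻¹) := by group
    rw [e]
    exact V.mul_mem (ha U V h hUF u hu) (h.2.1.conj_mem _ (hb U V h hUF u hu) a)
  inv_mem' := by
    rintro a ⟨haN, ha⟩
    refine ⟨N.inv_mem haN, fun U V h hUF u hu => ?_⟩
    have e : u * a⁻¹ * u⁻¹ * a⁻¹⁻¹ = a⁻¹ * (u * a * u⁻¹ * a⁻¹)⁻¹ * a⁻¹⁻¹ := by group
    rw [e]
    exact h.2.1.conj_mem _ (V.inv_mem (ha U V h hUF u hu)) a⁻¹

theorem chiefCent_normal {G : Type*} [Group G] (N F : Subgroup G) [hN : N.Normal] :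
    (chiefCent N F).Normal := by
  constructor
  rintro a ⟨haN, ha⟩ x
  refine ⟨hN.conj_mem a haN x, fun U V h hUF u hu => ?_⟩
  have hu' : x⁻¹ * u * x ∈ U := by simpa using h.1.conj_mem u hu x⁻¹
  have e : u * (x * a * x⁻¹) * u⁻¹ * (x * a * x⁻¹)⁻¹ =
      x * ((x⁻¹ * u * x) * a * (x⁻¹ * u * x)⁻¹ * a⁻¹) * x⁻¹ := by group
  rw [e]
  exact h.2.1.conj_mem _ (ha U V h hUF _ hu') x

theorem chiefCent_commute {G : Type*} [Group G] [Finite G] (N F : Subgroup G)
    {p q : ℕ} [Fact p.Prime] [Fact q.Prime] (hpq : p ≠ q)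
    {x : G} (hx : x ∈ chiefCent N F) {j : ℕ} (hxq : x ^ (q ^ j) = 1) :
    ∀ (n : ℕ) (W : Subgroup G), Nat.card W ≤ n → W.Normal → W ≤ F → IsPGroup p W →
      ∀ w ∈ W, x * w = w * x := by
  intro n
  induction n with
  | zero =>
    intro W hW
    have := Nat.card_pos (α := W)
    omega
  | succ n ih =>
    intro W hcard hWn hWF hWp w hw
    by_cases hbot : W = ⊥
    · rw [hbot, Subgroup.mem_bot] at hw
      rw [hw]; simp
    obtain ⟨V, -, hVmax⟩ := (Set.toFinite {V : Subgroup G | V.Normal ∧ V < W}).exists_le_maximal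
      (⟨Subgroup.normal_bot, bot_lt_iff_ne_bot.mpr hbot⟩ :
        (⊥ : Subgroup G) ∈ {V : Subgroup G | V.Normal ∧ V < W})
    obtain ⟨hVn, hVW⟩ := hVmax.1
    have hchief : W.Normal ∧ V.Normal ∧ V < W ∧
        ∀ W' : Subgroup G, W'.Normal → V ≤ W' → W' ≤ W → W' = V ∨ W' = W := by
      refine ⟨hWn, hVn, hVW, fun W' hW'n hVW' hW'W => ?_⟩
      by_cases h : W' = W
      · exact Or.inr h
      · left
        exact le_antisymm (hVmax.2 ⟨hW'n, lt_of_le_of_ne hW'W h⟩ hVW') hVW'
    have hVcomm : ∀ v ∈ V, x * v = v * x :=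
      ih V (by have := card_lt_card_of_lt hVW; omega) hVn (hVW.le.trans hWF) (hWp.to_le hVW.le)
    have hc' : x * w * x⁻¹ * w⁻¹ ∈ V := by
      have h1 := hx.2 W V hchief hWF w⁻¹ (W.inv_mem hw)
      have h2 := hVn.conj_mem _ h1 w
      have e : w * (w⁻¹ * x * w⁻¹⁻¹ * x⁻¹) * w⁻¹ = x * w * x⁻¹ * w⁻¹ := by group
      rwa [e] at h2
    have hcx : Commute (x * w * x⁻¹ * w⁻¹) x := (hVcomm _ hc').symm
    have h3 : x * w * x⁻¹ = (x * w * x⁻¹ * w⁻¹) * w := by group
    have h4 := conj_pow_of_central h3 hcx (q ^ j)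
    rw [hxq] at h4
    have h5 : (x * w * x⁻¹ * w⁻¹) ^ (q ^ j) = 1 := by
      have h6 : w = (x * w * x⁻¹ * w⁻¹) ^ (q ^ j) * w := by simpa using h4
      exact mul_eq_right.mp h6.symm
    obtain ⟨i, hi⟩ := (hWp.to_le hVW.le) ⟨_, hc'⟩
    have hi' : (x * w * x⁻¹ * w⁻¹) ^ (p ^ i) = 1 := by simpa using congrArg Subtype.val hi
    have h6 : orderOf (x * w * x⁻¹ * w⁻¹) = 1 := by
      have d1 := orderOf_dvd_of_pow_eq_one h5
      have d2 := orderOf_dvd_of_pow_eq_one hi'
      have hcop : (q ^ j).Coprime (p ^ i) :=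
        Nat.Coprime.pow _ _ ((Nat.coprime_primes Fact.out Fact.out).mpr (Ne.symm hpq))
      exact Nat.Coprime.eq_one_of_dvd (Nat.Coprime.coprime_dvd_left d1 hcop) d2
    have h7 : x * w * x⁻¹ * w⁻¹ = 1 := orderOf_eq_one_iff.mp h6
    calc x * w = (x * w * x⁻¹ * w⁻¹) * (w * x) := by group
      _ = w * x := by rw [h7, one_mul]

/-- Let G be a finite solvable group and N a normal subgroup of G. Call a pair V < U of normal subgroups of G a chief factor of G when no normal subgroup of G lies strictly between them; an element g centralizes the chief factor U/V when u g u⁻¹ g⁻¹ ∈ V for all u ∈ U. Then an element of G lies in the Fitting subgroup F(N) if and only if it lies in N and centralizes every chief factor of G; and also if and only if it lies in N and centralizes every chief factor U/V of G with U ≤ F(N). -/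
theorem result {G : Type*} [Group G] [Finite G] (hG : Group.IsSolvable G) (N : Subgroup G) [N.Normal] (g : G) : (g ∈ (Cfsg.fittingSubgroup ↥N).map N.subtype ↔ g ∈ N ∧ ∀ U V : Subgroup G, (U.Normal ∧ V.Normal ∧ V < U ∧ ∀ W : Subgroup G, W.Normal → V ≤ W → W ≤ U → W = V ∨ W = U) → ∀ u ∈ U, u * g * u⁻¹ * g⁻¹ ∈ V) ∧ (g ∈ (Cfsg.fittingSubgroup ↥N).map N.subtype ↔ g ∈ N ∧ ∀ U V : Subgroup G, (U.Normal ∧ V.Normal ∧ V < U ∧ ∀ W : Subgroup G, W.Normal → V ≤ W → W ≤ U → W = V ∨ W = U) → U ≤ (Cfsg.fittingSubgroup ↥N).map N.subtype → ∀ u ∈ U, u * g * u⁻¹ * g⁻¹ ∈ V) := by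
  classical
  haveI := hG
  haveI hFNn : ((Cfsg.fittingSubgroup ↥N).map N.subtype).Normal := map_fittingSubgroup_normal N
  have hFNnil := map_fittingSubgroup_isNilpotent N
  have hFNle : (Cfsg.fittingSubgroup ↥N).map N.subtype ≤ N := Subgroup.map_subtype_le _
  have hA : g ∈ (Cfsg.fittingSubgroup ↥N).map N.subtype → g ∈ N ∧ ∀ U V : Subgroup G,
      (U.Normal ∧ V.Normal ∧ V < U ∧ ∀ W : Subgroup G, W.Normal → V ≤ W → W ≤ U → W = V ∨ W = U) →
      ∀ u ∈ U, u * g * u⁻¹ * g⁻¹ ∈ V := by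
    intro hg
    refine ⟨hFNle hg, ?_⟩
    rintro U V ⟨hUn, hVn, hVU, hmin⟩ u hu
    haveI := hUn
    haveI := hVn
    have h1 := nilpotent_centralizes_chief _ hFNnil U V hVU hmin
      (Subgroup.commutator_mem_commutator hu hg)
    rw [commutatorElement_def] at h1
    exact h1
  have hB : (g ∈ N ∧ ∀ U V : Subgroup G,
      (U.Normal ∧ V.Normal ∧ V < U ∧ ∀ W : Subgroup G, W.Normal → V ≤ W → W ≤ U → W = V ∨ W = U) →
      U ≤ (Cfsg.fittingSubgroup ↥N).map N.subtype → ∀ u ∈ U, u * g * u⁻¹ * g⁻¹ ∈ V) →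
      g ∈ (Cfsg.fittingSubgroup ↥N).map N.subtype := by
    rintro ⟨hgN, hcent⟩
    haveI := chiefCent_normal N ((Cfsg.fittingSubgroup ↥N).map N.subtype)
    have hgK : g ∈ chiefCent N ((Cfsg.fittingSubgroup ↥N).map N.subtype) := ⟨hgN, hcent⟩
    have hK : (chiefCent N ((Cfsg.fittingSubgroup ↥N).map N.subtype)).subgroupOf N ≤
        Cfsg.fittingSubgroup ↥N := by
      haveI : ((chiefCent N ((Cfsg.fittingSubgroup ↥N).map N.subtype)).subgroupOf N).Normal :=
        Subgroup.Normal.subgroupOf inferInstance N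
      apply le_fitting_of_coprime_centralize
      intro q p hq hp hpq x hx hxq y hy
      haveI := Fact.mk hp
      haveI := Fact.mk hq
      obtain ⟨j, hj⟩ := hxq
      have hxq' : (x : G) ^ (q ^ j) = 1 := by simpa using congrArg Subtype.val hj
      have hWn : ((Cfsg.pCore p ↥N).map N.subtype).Normal := map_pCore_normal p N
      have hWF : (Cfsg.pCore p ↥N).map N.subtype ≤ (Cfsg.fittingSubgroup ↥N).map N.subtype :=
        Subgroup.map_mono (pCore_le_fittingSubgroup p)
      have hWp : IsPGroup p ((Cfsg.pCore p ↥N).map N.subtype) := (pCore_isPGroup p).map _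
      have h1 := chiefCent_commute N ((Cfsg.fittingSubgroup ↥N).map N.subtype) hpq
        (Subgroup.mem_subgroupOf.mp hx) hxq' _ _ le_rfl hWn hWF hWp (y : G) ⟨y, hy, rfl⟩
      exact Subtype.ext h1
    have h2 := hK (Subgroup.mem_subgroupOf.mpr hgK :
      (⟨g, hgN⟩ : ↥N) ∈ (chiefCent N ((Cfsg.fittingSubgroup ↥N).map N.subtype)).subgroupOf N)
    exact ⟨⟨g, hgN⟩, h2, rfl⟩
  exact ⟨⟨hA, fun h => hB ⟨h.1, fun U V hUV _ => h.2 U V hUV⟩⟩,
    ⟨fun h => ⟨(hA h).1, fun U V hUV _ => (hA h).2 U V hUV⟩, hB⟩⟩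

end Cfsg.Agent.S3766
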