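import Cfsg.Statements.S3767
import Mathlib
import Cfsg.Agent.Lib.Helper22.FP4

set_option autoImplicit false
open Cfsg

namespace Cfsg.Agent.S3767

/-- Let P be an extraspecial p-group of order p^(2n+1) and H a cyclic group of order h prime to p acting on P (inside a common finite group: H normalizes P) so that C_P(x) = Z(P) for every non-identity x ∈ H. Then h divides p^n + 1 or h divides p^n − 1. -/
theorem result {G : Type*} [Group G] [Finite G] {p : ℕ} [Fact p.Prime] (P H : Subgroup G) (hP : Cfsg.IsExtraspecial p ↥P) (n : ℕ) (hn : Nat.card P = p ^ (2 * n + 1)) (hH : IsCyclic H) (hcop : (Nat.card H).Coprime p) (hHP : H ≤ Subgroup.normalizer (P : Set G)) (hfix : ∀ x ∈ H, x ≠ 1 → P ⊓ Subgroup.centralizer {x} = (Subgroup.center ↥P).map P.subtype) : Nat.card H ∣ p ^ n + 1 ∨ Nat.card H ∣ p ^ n - 1 := by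
  classical
  have hp := (Fact.out : p.Prime)
  by_cases h2 : Nat.card H ∣ 2
  · have hle : Nat.card H ≤ 2 := Nat.le_of_dvd (by norm_num) h2
    have hpos : 0 < Nat.card H := Nat.card_pos
    rcases (by omega : Nat.card H = 1 ∨ Nat.card H = 2) with h1 | h1
    · left; rw [h1]; exact one_dvd _
    · right
      rw [h1] at hcop ⊢
      have hodd : ¬ 2 ∣ p := by
        intro hd
        have := Nat.Coprime.eq_one_of_dvd hcop hd
        omega
      have hpn : ¬ 2 ∣ p ^ n := fun hd => hodd (Nat.Prime.dvd_of_dvd_pow Nat.prime_two hd)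
      have hpos' : 0 < p ^ n := Nat.pow_pos hp.pos
      omega
  obtain ⟨y, hy⟩ := hH.exists_generator
  have hord : orderOf y = Nat.card H := orderOf_eq_card_of_forall_mem_zpowers hy
  have hord' : orderOf (y : G) = Nat.card H := by rw [← hord]; exact Subgroup.orderOf_coe y
  have hyH : (y : G) ∈ H := y.2
  have hynorm := hHP hyH
  have hconj : ∀ (k : ℕ) (a : G), a ∈ P → (y : G) ^ k * a * ((y : G) ^ k)⁻¹ ∈ P := by
    intro k a ha
    have hk : (y : G) ^ k ∈ Subgroup.normalizer (P : Set G) := Subgroup.pow_mem _ hynorm k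
    exact (Subgroup.mem_normalizer_iff.mp hk a).mp ha
  obtain ⟨θ, hθdef⟩ : ∃ θ : ↥P →* ↥P, ∀ a : ↥P, ((θ a : ↥P) : G) = (y : G) * a * (y : G)⁻¹ := by
    refine ⟨{ toFun := fun a => ⟨(y : G) * a * (y : G)⁻¹, by simpa using hconj 1 a a.2⟩
              map_one' := by apply Subtype.ext; simp
              map_mul' := by intro a b; apply Subtype.ext; simp [mul_assoc] }, fun a => rfl⟩
  have hθk : ∀ (k : ℕ) (a : ↥P),
      (((θ^[k]) a : ↥P) : G) = (y : G) ^ k * a * ((y : G) ^ k)⁻¹ := by
    intro k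
    induction k with
    | zero => intro a; simp
    | succ k ih =>
      intro a
      rw [Function.iterate_succ_apply', hθdef, ih, pow_succ']
      group
  have hθh : ∀ a, (θ^[Nat.card H]) a = a := by
    intro a
    apply Subtype.ext
    rw [hθk, ← hord', pow_orderOf_eq_one]
    simp
  have hy1 : (y : G) ≠ 1 := by
    intro h1
    apply h2
    rw [← hord', h1, orderOf_one]
    exact one_dvd _
  have hcen : ∀ a ∈ Subgroup.center ↥P, θ a = a := by
    intro a ha
    have h1 := hfix y hyH hy1
    have h3 : (a : G) ∈ (Subgroup.center ↥P).map P.subtype := ⟨a, ha, rfl⟩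
    rw [← h1] at h3
    have h4 := Subgroup.mem_centralizer_iff.mp h3.2 y (Set.mem_singleton _)
    apply Subtype.ext
    rw [hθdef, h4, mul_inv_cancel_right]
  have hfix' : ∀ k : ℕ, ¬ Nat.card H ∣ k → ∀ a, (θ^[k]) a = a → a ∈ Subgroup.center ↥P := by
    intro k hk a hak
    have hyk1 : (y : G) ^ k ≠ 1 := by
      intro h1
      apply hk
      rw [← hord']
      exact orderOf_dvd_of_pow_eq_one h1
    have h1 := hfix ((y : G) ^ k) (Subgroup.pow_mem _ hyH k) hyk1
    have h3 : (a : G) ∈ P ⊓ Subgroup.centralizer {(y : G) ^ k} := by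
      refine ⟨a.2, ?_⟩
      show (a : G) ∈ Subgroup.centralizer {(y : G) ^ k}
      rw [Subgroup.mem_centralizer_iff]
      intro g hg
      rw [Set.mem_singleton_iff] at hg
      rw [hg]
      have h5 := hθk k a
      rw [hak] at h5
      calc (y : G) ^ k * a = (y : G) ^ k * a * ((y : G) ^ k)⁻¹ * (y : G) ^ k := by group
        _ = a * (y : G) ^ k := by rw [← h5]
    rw [h1] at h3
    obtain ⟨z, hz, hza⟩ := h3
    have hza' : z = a := Subtype.ext hza
    rw [← hza']; exact hz
  exact Cfsg.Agent.Lib.Helper22.FP.es_abstract hP n hn θ (Nat.card H) Nat.card_pos hcop h2 hθh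
    hcen hfix'

end Cfsg.Agent.S3767
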