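import Cfsg.Statements.S3768
import Cfsg.Agent.Lib.Lead.FrobeniusMore

set_option autoImplicit false
open Cfsg

namespace Cfsg.Agent.S3768

open Cfsg.Agent.Lib.Lead Cfsg.Agent.Lib.Helper21
open scoped Pointwise

/-- Let G be a finite Frobenius group with Frobenius complement R and Frobenius kernel K (the identity together with the elements in no conjugate of R), and let N be a normal subgroup of G not containing K. Then G/N is a Frobenius group with Frobenius complement RN/N whose Frobenius kernel is the image of K. -/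
theorem result {G : Type*} [Group G] [Finite G] (R : Subgroup G) (hR : Cfsg.IsFrobeniusComplement R) (N : Subgroup G) [N.Normal] (hKN : ¬ Cfsg.frobeniusKernel R ⊆ N) : Cfsg.IsFrobeniusComplement (R.map (QuotientGroup.mk' N)) ∧ Cfsg.frobeniusKernel (R.map (QuotientGroup.mk' N)) = QuotientGroup.mk' N '' Cfsg.frobeniusKernel R := by
  classical
  set K₀ := frobKer R hR with hK₀
  have hK₀n : K₀.Normal := frobKer_normal R hR
  have hNn : N.Normal := inferInstance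
  have hinf : K₀ ⊓ R = ⊥ := frobKer_inf R hR
  have hsup : K₀ ⊔ R = ⊤ := frobKer_sup R hR
  have hKN' : ¬ K₀ ≤ N := by
    intro h
    apply hKN
    rw [← coe_frobKer R hR]
    exact h
  have hdec : ∀ g : G, ∃ k ∈ K₀, ∃ r ∈ R, k * r = g := by
    intro g
    have h1 : g ∈ K₀ ⊔ R := by rw [hsup]; trivial
    have h2 : g ∈ ((K₀ ⊔ R : Subgroup G) : Set G) := h1
    rw [Subgroup.normal_mul] at h2
    exact Set.mem_mul.mp h2
  have hinj : ∀ r ∈ R, r ≠ 1 → ∀ κ ∈ K₀, ∀ κ' ∈ K₀,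
      r⁻¹ * κ⁻¹ * r * κ = r⁻¹ * κ'⁻¹ * r * κ' → κ = κ' := by
    intro r hr hr1 κ hκ κ' hκ' e
    have hc : r * (κ * κ'⁻¹) = (κ * κ'⁻¹) * r := by
      calc r * (κ * κ'⁻¹) = κ * r * (r⁻¹ * κ⁻¹ * r * κ) * κ'⁻¹ := by group
        _ = κ * r * (r⁻¹ * κ'⁻¹ * r * κ') * κ'⁻¹ := by rw [e]
        _ = (κ * κ'⁻¹) * r := by group
    have h1 := frob_commute_eq_one R hR hr hr1 (K₀.mul_mem hκ (K₀.inv_mem hκ')) hc
    exact mul_inv_eq_one.mp h1
  have hbij : ∀ (M : Subgroup G), M.Normal → M ≤ K₀ → ∀ r ∈ R, r ≠ 1 → ∀ m ∈ M,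
      ∃ κ ∈ M, r⁻¹ * κ⁻¹ * r * κ = m := by
    intro M hM hMK r hr hr1
    let θ : M → M := fun κ => ⟨r⁻¹ * (κ : G)⁻¹ * r * κ,
      M.mul_mem (hM.conj_mem' _ (M.inv_mem κ.2) r) κ.2⟩
    have hθinj : Function.Injective θ := by
      intro a b hab
      have := congrArg Subtype.val hab
      exact Subtype.ext (hinj r hr hr1 a (hMK a.2) b (hMK b.2) this)
    have hsurj := Finite.injective_iff_surjective.mp hθinj
    intro m hm
    obtain ⟨κ, hκ⟩ := hsurj ⟨m, hm⟩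
    exact ⟨κ, κ.2, congrArg Subtype.val hκ⟩
  have hNK : N ≤ K₀ := by
    intro n hn
    by_contra hnK
    rw [mem_frobKer_iff] at hnK
    push Not at hnK
    obtain ⟨hn1, g, hg⟩ := hnK
    rw [Cfsg.Agent.Lib.Lead.mem_conj_smul] at hg
    have hr₀N : g⁻¹ * n * g ∈ N := hNn.conj_mem' _ hn g
    have hr₀1 : g⁻¹ * n * g ≠ 1 := by
      intro h
      apply hn1
      have e : n = g * (g⁻¹ * n * g) * g⁻¹ := by group
      rw [e, h]; group
    apply hKN'
    intro k hk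
    obtain ⟨κ, hκ, hκe⟩ := hbij K₀ hK₀n le_rfl _ hg hr₀1 k hk
    rw [← hκe]
    have e : (g⁻¹ * n * g)⁻¹ * κ⁻¹ * (g⁻¹ * n * g) * κ
        = (g⁻¹ * n * g)⁻¹ * (κ⁻¹ * (g⁻¹ * n * g) * κ) := by group
    rw [e]
    exact N.mul_mem (N.inv_mem hr₀N) (hNn.conj_mem' _ hr₀N κ)
  have hRN : R ⊓ N = ⊥ := by
    rw [eq_bot_iff]
    intro x hx
    have h1 : x ∈ K₀ ⊓ R := ⟨hNK hx.2, hx.1⟩
    rw [hinf] at h1; exact h1
  set π := QuotientGroup.mk' N with hπdef
  have hπ : ∀ a b : G, π a = π b ↔ a⁻¹ * b ∈ N := by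
    intro a b
    exact QuotientGroup.eq
  have hπ1 : ∀ a : G, π a = 1 ↔ a ∈ N := by
    intro a
    exact QuotientGroup.eq_one_iff a
  have hbot : R.map π ≠ ⊥ := by
    intro h
    rw [Subgroup.map_eq_bot_iff, QuotientGroup.ker_mk'] at h
    apply hR.1
    rw [eq_bot_iff, ← hRN]
    exact le_inf le_rfl h
  have htop : R.map π ≠ ⊤ := by
    intro h
    apply hKN'
    intro k hk
    have h1 : π k ∈ R.map π := by rw [h]; trivial
    obtain ⟨r, hr, hre⟩ := h1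
    rw [hπ] at hre
    have hrK : r ∈ K₀ := by
      have h2 := K₀.mul_mem hk (K₀.inv_mem (hNK hre))
      have e : k * (r⁻¹ * k)⁻¹ = r := by group
      rwa [e] at h2
    have hr1 : r = 1 := by
      have h3 : r ∈ K₀ ⊓ R := ⟨hrK, hr⟩
      rwa [hinf, Subgroup.mem_bot] at h3
    rw [hr1] at hre
    simpa using hre
  have hTI : ∀ gb : G ⧸ N, gb ∉ R.map π → R.map π ⊓ MulAut.conj gb • R.map π = ⊥ := by
    intro gb hgb
    obtain ⟨g, rfl⟩ := QuotientGroup.mk'_surjective N gb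
    rw [eq_bot_iff]
    intro xb hxb
    have hx1 : xb ∈ R.map π := hxb.1
    have hx2 : xb ∈ MulAut.conj (π g) • R.map π := hxb.2
    rw [Subgroup.mem_bot]
    by_contra hne
    obtain ⟨r₁, hr₁, rfl⟩ := hx1
    rw [Cfsg.Agent.Lib.Lead.mem_conj_smul] at hx2
    obtain ⟨r₃, hr₃, hr₃e⟩ := hx2
    have hr₃e' : π r₃ = π (g⁻¹ * r₁ * g) := by
      rw [hr₃e]; simp
    rw [hπ] at hr₃e'
    obtain ⟨k, hk, r, hr, rfl⟩ := hdec g
    have hr₁N : r₁ ∉ N := fun h => hne ((hπ1 r₁).mpr h)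
    have hr₁1 : r₁ ≠ 1 := by
      rintro rfl
      exact hr₁N N.one_mem
    have hn' : (r * r₃ * r⁻¹)⁻¹ * (k⁻¹ * r₁ * k) ∈ N := by
      have h1 := hNn.conj_mem _ hr₃e' r
      have e : r * (r₃⁻¹ * ((k * r)⁻¹ * r₁ * (k * r))) * r⁻¹
          = (r * r₃ * r⁻¹)⁻¹ * (k⁻¹ * r₁ * k) := by group
      rwa [e] at h1
    have hr₂ : r * r₃ * r⁻¹ ∈ R := R.mul_mem (R.mul_mem hr hr₃) (R.inv_mem hr)
    have hr₂₁ : (r * r₃ * r⁻¹)⁻¹ * r₁ = 1 := by
      have h1 : (r * r₃ * r⁻¹)⁻¹ * r₁ ∈ K₀ ⊓ R := by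
        refine ⟨?_, R.mul_mem (R.inv_mem hr₂) hr₁⟩
        have e : (r * r₃ * r⁻¹)⁻¹ * r₁
            = ((r * r₃ * r⁻¹)⁻¹ * (k⁻¹ * r₁ * k)) * k⁻¹ * (r₁⁻¹ * k * r₁) := by group
        rw [e]
        exact K₀.mul_mem (K₀.mul_mem (hNK hn') (K₀.inv_mem hk)) (hK₀n.conj_mem' _ hk r₁)
      rwa [hinf, Subgroup.mem_bot] at h1
    have hr₂e : r * r₃ * r⁻¹ = r₁ := by
      have := inv_mul_eq_one.mp hr₂₁
      exact this
    rw [hr₂e] at hn'
    obtain ⟨κ, hκ, hκe⟩ := hbij N hNn hNK r₁ hr₁ hr₁1 _ hn'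
    have hκk : κ = k := by
      apply hinj r₁ hr₁ hr₁1 κ (hNK hκ) k hk
      rw [hκe]; group
    apply hgb
    refine ⟨r, hr, ?_⟩
    rw [map_mul]
    have : π k = 1 := (hπ1 k).mpr (hκk ▸ hκ)
    rw [this, one_mul]
  have hRb : Cfsg.IsFrobeniusComplement (R.map π) := ⟨hbot, htop, hTI⟩
  refine ⟨hRb, ?_⟩
  have himg : ∀ k ∈ K₀, π k ∈ frobKer (R.map π) hRb := by
    intro k hk
    rw [mem_frobKer_iff]
    by_cases hkN : k ∈ N
    · left; exact (hπ1 k).mpr hkN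
    · right
      intro gb hmem
      obtain ⟨g, rfl⟩ := QuotientGroup.mk'_surjective N gb
      have hmem : π k ∈ MulAut.conj (π g) • R.map π := hmem
      rw [Cfsg.Agent.Lib.Lead.mem_conj_smul] at hmem
      obtain ⟨r, hr, hre⟩ := hmem
      have hre' : π r = π (g⁻¹ * k * g) := by
        rw [hre]; simp
      rw [hπ] at hre'
      have hgk : g⁻¹ * k * g ∈ K₀ := hK₀n.conj_mem' _ hk g
      have hrK : r ∈ K₀ := by
        have h2 := K₀.mul_mem hgk (K₀.inv_mem (hNK hre'))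
        have e : g⁻¹ * k * g * (r⁻¹ * (g⁻¹ * k * g))⁻¹ = r := by group
        rwa [e] at h2
      have hr1 : r = 1 := by
        have h3 : r ∈ K₀ ⊓ R := ⟨hrK, hr⟩
        rwa [hinf, Subgroup.mem_bot] at h3
      rw [hr1] at hre'
      apply hkN
      have h4 := hNn.conj_mem _ hre' g
      have e : g * (1⁻¹ * (g⁻¹ * k * g)) * g⁻¹ = k := by group
      rwa [e] at h4
  rw [← coe_frobKer R hR, ← coe_frobKer (R.map π) hRb]
  ext xb
  constructor
  · intro hx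
    obtain ⟨x, rfl⟩ := QuotientGroup.mk'_surjective N xb
    obtain ⟨k, hk, r, hr, rfl⟩ := hdec x
    have hk' : π k ∈ frobKer (R.map π) hRb := himg k hk
    have hx' : π (k * r) ∈ frobKer (R.map π) hRb := hx
    have h5 : π r ∈ frobKer (R.map π) hRb ⊓ R.map π := by
      refine ⟨?_, Subgroup.mem_map_of_mem _ hr⟩
      have h6 := mul_mem (inv_mem hk') hx'
      rw [map_mul, inv_mul_cancel_left] at h6
      exact h6
    rw [frobKer_inf, Subgroup.mem_bot] at h5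
    refine ⟨k, hk, ?_⟩
    change π k = π (k * r)
    rw [map_mul, h5, mul_one]
  · rintro ⟨k, hk, rfl⟩
    exact himg k hk

end Cfsg.Agent.S3768
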