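import Cfsg.Statements.S3769
import Cfsg.Agent.Lib.Helper12.XsOdd

set_option autoImplicit false
set_option linter.style.haveILetI false
open Cfsg

namespace Cfsg.Agent.S3769

/-- Let G and V be subgroups of a finite group with G solvable of odd order normalizing V, V an elementary abelian ℓ-group for a prime ℓ not dividing the order of G, and suppose G has a normal Hall subgroup K with a complement R of prime order. If C_V(R) = 1, then [R, K] centralizes V. -/
theorem result {X : Type*} [Group X] [Finite X] (G : Subgroup X) (hsolv : Group.IsSolvable G) (hodd : Odd (Nat.card G)) (V : Subgroup X) {ℓ : ℕ} (hℓ : ℓ.Prime) (hV : Cfsg.IsElementaryAbelian ℓ V) (hℓG : ¬ ℓ ∣ Nat.card G) (hGV : G ≤ Subgroup.normalizer (V : Set X)) (K R : Subgroup X) (hKG : K ≤ G) (hKn : G ≤ Subgroup.normalizer (K : Set X)) (hHall : (Nat.card K).Coprime (K.relIndex G)) (hRG : R ≤ G) (hR : (Nat.card R).Prime) (hKR : K ⊓ R = ⊥) (hKRG : K ⊔ R = G) (hCV : V ⊓ Subgroup.centralizer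 (R : Set X) = ⊥) : ⁅R, K⁆ ≤ Subgroup.centralizer (V : Set X) := by
  classical
  haveI : Fact ℓ.Prime := ⟨hℓ⟩
  set ψ : ↥G →* MulAut ↥V := Cfsg.Agent.S1545.cj G V hGV with hψ
  have hψapp : ∀ (g : ↥G) (v : ↥V), ((ψ g v : ↥V) : X) = (g : X) * (v : X) * (g : X)⁻¹ :=
    fun g v => rfl
  have hcommV : ∀ a b : ↥V, a * b = b * a := fun a b => hV.1.is_comm.comm a b
  have hexp : ∀ v : ↥V, v ^ ℓ = 1 := fun v => Subtype.ext (by
    rw [Subgroup.coe_pow, hV.2 v v.2, Subgroup.coe_one])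
  have hker : ∀ g : ↥G, ψ g = 1 → (g : X) ∈ Subgroup.centralizer (V : Set X) := by
    intro g hg
    refine Subgroup.mem_centralizer_iff.mpr ?_
    intro v hv
    have h2 := congrArg Subtype.val (show ψ g ⟨v, hv⟩ = ⟨v, hv⟩ by rw [hg]; rfl)
    rw [hψapp] at h2
    change (g : X) * v * (g : X)⁻¹ = v at h2
    calc v * (g : X) = ((g : X) * v * (g : X)⁻¹) * (g : X) := by rw [h2]
      _ = (g : X) * v := by group
  obtain ⟨r, hrdef⟩ : ∃ r : ℕ, Nat.card R = r := ⟨_, rfl⟩
  rw [hrdef] at hR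
  obtain ⟨x₀, hx₀R, hx₀1, hx₀o⟩ := Cfsg.Agent.Lib.Helper12.XsGlue.exists_gen R hR hrdef
  have hcent : ∀ g : X, x₀ * g = g * x₀ → g ∈ Subgroup.centralizer (R : Set X) :=
    fun g hg => Cfsg.Agent.Lib.Helper12.XsGlue.mem_centralizer_of_prime R hR hrdef x₀ hx₀R hx₀1 g hg
  set A : Subgroup (MulAut ↥V) := ψ.range with hAdef
  set xG : ↥G := ⟨x₀, hRG hx₀R⟩ with hxG
  set x : ↥A := ⟨ψ xG, ⟨xG, rfl⟩⟩ with hxdef
  have hfix : ∀ v : ↥V, A.subtype x v = v → v = 1 := by
    intro v hv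
    have h1 := congrArg Subtype.val (show ψ xG v = v from hv)
    rw [hψapp] at h1
    change x₀ * (v : X) * x₀⁻¹ = (v : X) at h1
    have h2 : x₀ * (v : X) = (v : X) * x₀ := by
      calc x₀ * (v : X) = (x₀ * (v : X) * x₀⁻¹) * x₀ := by group
        _ = (v : X) * x₀ := by rw [h1]
    have h3 : (v : X) ∈ V ⊓ Subgroup.centralizer (R : Set X) := ⟨v.2, hcent _ h2⟩
    rw [hCV] at h3
    exact Subtype.ext (Subgroup.mem_bot.mp h3)
  have hcomm : ∀ (k : ↥G), (k : X) ∈ K → ψ xG * ψ k = ψ k * ψ xG := by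
    by_cases hx1 : x = 1
    · intro k hk
      have h0 : ψ xG = 1 := congrArg Subtype.val hx1
      rw [h0, one_mul, mul_one]
    · have hxo : orderOf x = r := by
        have h1 : orderOf x ∣ r := by
          rw [orderOf_dvd_iff_pow_eq_one]
          apply Subtype.ext
          rw [Subgroup.coe_pow, Subgroup.coe_one]
          change (ψ xG) ^ r = 1
          rw [← map_pow]
          have h0 : xG ^ r = 1 := Subtype.ext (by
            rw [Subgroup.coe_pow, ← hx₀o]; exact pow_orderOf_eq_one x₀)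
          rw [h0, map_one]
        rcases (Nat.dvd_prime hR).mp h1 with h | h
        · exact absurd (orderOf_eq_one_iff.mp h) hx1
        · exact h
      have hAcard : Nat.card ↥A ∣ Nat.card G := Subgroup.card_range_dvd ψ
      have hA : ¬ ℓ ∣ Nat.card ↥A := fun h => hℓG (h.trans hAcard)
      have hAodd : Odd (Nat.card ↥A) := hodd.of_dvd_nat hAcard
      set Kb : Subgroup ↥A := (K.subgroupOf G).map ψ.rangeRestrict with hKb
      have hxK : ∀ g ∈ Kb, x * g * x⁻¹ ∈ Kb := by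
        rintro _ ⟨k, hk, rfl⟩
        refine ⟨xG * k * xG⁻¹, ?_, ?_⟩
        · exact (Subgroup.mem_normalizer_iff.mp (hKn (hRG hx₀R)) (k : X)).mp hk
        · apply Subtype.ext
          simp [hxdef]
          rfl
      have hrK : ¬ r ∣ Nat.card Kb := by
        have h1 : Nat.card Kb ∣ Nat.card K := by
          have h0 := Subgroup.card_map_dvd (K.subgroupOf G) ψ.rangeRestrict
          rwa [Nat.card_congr (Subgroup.subgroupOfEquivOfLe hKG).toEquiv] at h0
        have h2 : K.relIndex G = r := by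
          rw [← hKRG, ← hrdef]
          exact Cfsg.Agent.Lib.Helper1.relIndex_sup_eq_card (hRG.trans hKn) hKR
        rw [h2] at hHall
        intro h
        exact (Nat.Prime.coprime_iff_not_dvd hR).mp hHall.symm (h.trans h1)
      have key := @Cfsg.Agent.Lib.Helper12.XsOdd.cent_odd ↥A ↥V _ _
        ({ (inferInstance : Group ↥V) with mul_comm := hcommV }) _ ℓ _ hexp hA hAodd A.subtype
        A.subtype_injective x r hR hxo hfix Kb hxK hrK
      intro k hk
      have h5 := key (ψ.rangeRestrict k) ⟨k, hk, rfl⟩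
      exact congrArg Subtype.val h5
  rw [Subgroup.commutator_le]
  intro g₁ hg₁ g₂ hg₂
  have hg₁' : ∃ i : ℤ, g₁ = x₀ ^ i := by
    haveI : Fact r.Prime := ⟨hR⟩
    have h2 : (⟨g₁, hg₁⟩ : ↥R) ∈ Subgroup.zpowers (⟨x₀, hx₀R⟩ : ↥R) :=
      mem_zpowers_of_prime_card hrdef (fun h0 => hx₀1 (congrArg Subtype.val h0))
    obtain ⟨i, hi⟩ := Subgroup.mem_zpowers_iff.mp h2
    exact ⟨i, by have := congrArg Subtype.val hi; simpa using this.symm⟩
  obtain ⟨i, rfl⟩ := hg₁'
  set kG : ↥G := ⟨g₂, hKG hg₂⟩ with hkG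
  have h1 : ψ (xG ^ i * kG * (xG ^ i)⁻¹ * kG⁻¹) = 1 := by
    have hc : Commute (ψ xG) (ψ kG) := hcomm kG hg₂
    rw [map_mul, map_mul, map_mul, map_inv, map_inv, map_zpow]
    have hc2 : Commute ((ψ xG) ^ i) (ψ kG) := hc.zpow_left i
    rw [hc2.eq, mul_inv_cancel_right, mul_inv_cancel]
  have h2 := hker _ h1
  have h3 : ((xG ^ i * kG * (xG ^ i)⁻¹ * kG⁻¹ : ↥G) : X) = x₀ ^ i * g₂ * (x₀ ^ i)⁻¹ * g₂⁻¹ := by
    simp [hxG, hkG]
  rw [h3] at h2
  rw [commutatorElement_def]
  exact h2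

end Cfsg.Agent.S3769
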