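import Cfsg.Statements.S3771
import Cfsg.Agent.Lib.Helper21.AbSub

set_option autoImplicit false
open Cfsg

namespace Cfsg.Agent.S3771


open Cfsg.Agent.Lib.Helper21

/-- Let p be a prime and R a finite p-group of p-rank at most 2 (no elementary abelian subgroup of order p³) in which every element has order dividing p. Then R has order at most p³. -/
theorem result {R : Type*} [Group R] [Finite R] {p : ℕ} [Fact p.Prime] (hR : IsPGroup p R) (hrank : Cfsg.PRankLE p 2 R) (hexp : ∀ x : R, x ^ p = 1) : Nat.card R ≤ p ^ 3 := by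
  by_contra hcon
  push Not at hcon
  have hp : p.Prime := Fact.out
  obtain ⟨n, hn⟩ := IsPGroup.iff_card.mp hR
  have h4 : p ^ 4 ≤ Nat.card R := by
    rw [hn] at hcon ⊢
    have h3 : 3 < n := (Nat.pow_lt_pow_iff_right hp.one_lt).mp hcon
    exact Nat.pow_le_pow_right hp.pos h3
  obtain ⟨M, hMc, hMcard⟩ := exists_abelian_card_cube hR h4
  have h5 := hrank M hMc (fun a _ => hexp a)
  rw [hMcard] at h5
  have h6 : 3 ≤ 2 := (Nat.pow_le_pow_iff_right hp.one_lt).mp h5
  omega

end Cfsg.Agent.S3771
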