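import Cfsg.Statements.S3772
import Cfsg.Agent.S0012
import Cfsg.Agent.Lib.Helper21.PGroup
import Cfsg.Agent.Lib.Helper18.Frattini

set_option autoImplicit false
open Cfsg

namespace Cfsg.Agent.S3772

open Cfsg.Agent.Lib.Helper21

theorem sum_eq_zero_of_mul {H : Type*} [Group H] [Fintype H] (f : H → ℤ) (a : H)
    (hf : ∀ x, f (a * x) = - f x) : ∑ x, f x = 0 := by
  have h1 := Equiv.sum_comp (Equiv.mulLeft a) f
  have h2 : ∑ x, f ((Equiv.mulLeft a) x) = - ∑ x, f x := by
    rw [← Finset.sum_neg_distrib]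
    exact Finset.sum_congr rfl (fun x _ => hf x)
  rw [h2] at h1
  linarith

/-- arithmetic core -/
theorem arith_core (d c j : ℕ) (hc1 : 1 ≤ c) (hcd : c + 1 ≤ d)
    (h : (2 * (j : ℤ) - 2 ^ (d + 1)) * (2 * (j : ℤ) - 2 ^ (d + 1)) = 2 ^ (d + 1) * 2 ^ c) :
    ∃ t : ℕ, 2 * t + 1 = d + c ∧ (j = 2 ^ d + 2 ^ t ∨ j + 2 ^ t = 2 ^ d) := by
  obtain ⟨c', rfl⟩ : ∃ c', c = c' + 1 := ⟨c - 1, by omega⟩
  have h1 : ((j : ℤ) - 2 ^ d) * ((j : ℤ) - 2 ^ d) = 2 ^ (d + c') := by
    have e1 : (2 : ℤ) ^ (d + 1) = 2 * 2 ^ d := by ring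
    have e2 : (2 : ℤ) ^ (c' + 1) = 2 * 2 ^ c' := by ring
    have e3 : (2 : ℤ) ^ (d + c') = 2 ^ d * 2 ^ c' := by ring
    rw [e1, e2] at h
    rw [e3]
    nlinarith
  have h2 : ((j : ℤ) - 2 ^ d).natAbs * ((j : ℤ) - 2 ^ d).natAbs = 2 ^ (d + c') := by
    have := congrArg Int.natAbs h1
    rw [Int.natAbs_mul] at this
    rw [this]
    simp [Int.natAbs_pow]
  obtain ⟨t, ht, hte⟩ := (Nat.dvd_prime_pow Nat.prime_two).mp (Dvd.intro _ h2)
  rw [hte, ← pow_add] at h2
  have h3 : t + t = d + c' := Nat.pow_right_injective (le_refl 2) h2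
  refine ⟨t, by omega, ?_⟩
  rcases Int.natAbs_eq ((j : ℤ) - 2 ^ d) with h4 | h4
  · left
    rw [hte] at h4
    have : (j : ℤ) = 2 ^ d + 2 ^ t := by push_cast at h4; linarith
    exact_mod_cast this
  · right
    rw [hte] at h4
    have : (j : ℤ) + 2 ^ t = 2 ^ d := by push_cast at h4; linarith
    exact_mod_cast this

/-- Let G be a finite 2-group whose Frattini subgroup Φ(G) has order 2, with |G : Φ(G)| = 2^d, and let j be the number of elements x of G with x² = 1. Then j = 2^d, or j = 2^d + 2^(d−r) or j = 2^d − 2^(d−r) for some positive integer r with 2r ≤ d. Moreover if d = 2r and j is 2^d + 2^r or 2^d − 2^r, then G is extraspecial. -/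
theorem result {G : Type*} [Group G] [Finite G] (hG : IsPGroup 2 G) (hΦ : Nat.card (frattini G) = 2) (d : ℕ) (hd : (frattini G).index = 2 ^ d) : (Nat.card {x : G // x ^ 2 = 1} = 2 ^ d ∨ ∃ r : ℕ, 1 ≤ r ∧ 2 * r ≤ d ∧ (Nat.card {x : G // x ^ 2 = 1} = 2 ^ d + 2 ^ (d - r) ∨ Nat.card {x : G // x ^ 2 = 1} + 2 ^ (d - r) = 2 ^ d)) ∧ (∀ r : ℕ, d = 2 * r → (Nat.card {x : G // x ^ 2 = 1} = 2 ^ d + 2 ^ r ∨ Nat.card {x : G // x ^ 2 = 1} + 2 ^ r = 2 ^ d) → Cfsg.IsExtraspecial 2 G) := by
  classical
  haveI : Fact (Nat.Prime 2) := ⟨Nat.prime_two⟩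
  haveI : Fintype G := Fintype.ofFinite G
  have hS12 := Cfsg.Agent.S0012.result (G := G) 2 hG
  have hΦZ : frattini G ≤ Subgroup.center G :=
    le_center_of_normal_of_card_eq_prime hG (frattini G) hΦ
  obtain ⟨z, hz1, hzu⟩ := (Nat.card_eq_two_iff' (1 : frattini G)).mp hΦ
  have hz₀ : (z : G) ≠ 1 := fun h => hz1 (Subtype.ext h)
  have hΦ2 : ∀ w ∈ frattini G, w = 1 ∨ w = (z : G) := by
    intro w hw
    by_cases h : w = 1
    · exact Or.inl h
    · right
      have := hzu ⟨w, hw⟩ (fun h' => h (congrArg Subtype.val h'))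
      exact congrArg Subtype.val this
  have hzc : ∀ g : G, g * (z : G) = (z : G) * g :=
    fun g => Subgroup.mem_center_iff.mp (hΦZ z.2) g
  have hzsq : (z : G) * (z : G) = 1 := by
    rcases hΦ2 _ ((frattini G).mul_mem z.2 z.2) with h | h
    · exact h
    · exfalso
      exact hz₀ (mul_eq_left.mp h)
  have hcΦ : ∀ x y : G, y⁻¹ * x⁻¹ * y * x ∈ frattini G := by
    intro x y
    apply hS12.1
    rw [commutator_def]
    have := Subgroup.commutator_mem_commutator (Subgroup.mem_top y⁻¹) (Subgroup.mem_top x⁻¹)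
    simpa [commutatorElement_def] using this
  have hcm : ∀ x y : G, (x * y = y * x) ↔ y⁻¹ * x⁻¹ * y * x = 1 := by
    intro x y
    constructor
    · intro h
      calc y⁻¹ * x⁻¹ * y * x = y⁻¹ * x⁻¹ * (y * x) := by group
        _ = y⁻¹ * x⁻¹ * (x * y) := by rw [h]
        _ = 1 := by group
    · intro h
      calc x * y = x * y * (y⁻¹ * x⁻¹ * y * x) := by rw [h, mul_one]
        _ = y * x := by group
  have hcen : ∀ x y g : G, g * (y⁻¹ * x⁻¹ * y * x) = (y⁻¹ * x⁻¹ * y * x) * g :=
    fun x y g => Subgroup.mem_center_iff.mp (hΦZ (hcΦ x y)) g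
  let sgn : G → ℤ := fun x => if x ^ 2 = 1 then 1 else -1
  let ε : G → G → ℤ := fun x y => if x * y = y * x then 1 else -1
  have hmult : ∀ x y : G, sgn (x * y) = sgn x * sgn y * ε x y := by
    intro x y
    have hxy : (x * y) ^ 2 = x ^ 2 * y ^ 2 * (y⁻¹ * x⁻¹ * y * x) := by
      calc (x * y) ^ 2 = (x * y) * (x * y) := pow_two _
        _ = x * x * y * ((y⁻¹ * x⁻¹ * y * x) * y) := by group
        _ = x * x * y * (y * (y⁻¹ * x⁻¹ * y * x)) := by rw [hcen x y y]
        _ = x ^ 2 * y ^ 2 * (y⁻¹ * x⁻¹ * y * x) := by rw [pow_two, pow_two]; group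
    simp only [sgn, ε]
    rw [hxy, hcm]
    rcases hΦ2 (x ^ 2) (hS12.2 x) with hx | hx <;>
    rcases hΦ2 (y ^ 2) (hS12.2 y) with hy | hy <;>
    rcases hΦ2 _ (hcΦ x y) with hc | hc <;>
    simp [hx, hy, hc, hz₀, hzsq]
  have hεmult : ∀ x x' y : G, ε (x * x') y = ε x y * ε x' y := by
    intro x x' y
    have hxy : y⁻¹ * (x * x')⁻¹ * y * (x * x')
        = (y⁻¹ * x⁻¹ * y * x) * (y⁻¹ * x'⁻¹ * y * x') := by
      calc y⁻¹ * (x * x')⁻¹ * y * (x * x')
          = y⁻¹ * x'⁻¹ * y * ((y⁻¹ * x⁻¹ * y * x) * x') := by group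
        _ = y⁻¹ * x'⁻¹ * y * (x' * (y⁻¹ * x⁻¹ * y * x)) := by rw [hcen x y x']
        _ = (y⁻¹ * x'⁻¹ * y * x') * (y⁻¹ * x⁻¹ * y * x) := by group
        _ = (y⁻¹ * x⁻¹ * y * x) * (y⁻¹ * x'⁻¹ * y * x') := hcen x y _
    simp only [ε]
    rw [hcm, hcm x y, hcm x' y, hxy]
    rcases hΦ2 _ (hcΦ x y) with hc | hc <;>
    rcases hΦ2 _ (hcΦ x' y) with hc' | hc' <;>
    simp [hc, hc', hz₀, hzsq]
  have hsq : ∀ x : G, sgn x * sgn x = 1 := by
    intro x
    simp only [sgn]
    split_ifs <;> norm_num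
  have hεsum : ∀ y : G, ∑ x, ε x y = if y ∈ Subgroup.center G then (Fintype.card G : ℤ) else 0 := by
    intro y
    by_cases hy : y ∈ Subgroup.center G
    · rw [if_pos hy]
      have : ∀ x : G, ε x y = 1 := by
        intro x
        simp only [ε]
        rw [if_pos (Subgroup.mem_center_iff.mp hy x)]
      simp [this]
    · rw [if_neg hy]
      have : ∃ a : G, a * y ≠ y * a := by
        by_contra hcon
        push Not at hcon
        exact hy (Subgroup.mem_center_iff.mpr (fun g => hcon g))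
      obtain ⟨a, ha⟩ := this
      apply sum_eq_zero_of_mul (fun x => ε x y) a
      intro x
      change ε (a * x) y = - ε x y
      rw [hεmult]
      have : ε a y = -1 := by
        simp only [ε]
        rw [if_neg ha]
      rw [this]; ring
  set S : ℤ := ∑ x, sgn x with hSdef
  set T : ℤ := ∑ y, (if y ∈ Subgroup.center G then sgn y else 0) with hT
  have hSS : S * S = (Fintype.card G : ℤ) * T := by
    calc S * S = ∑ x, ∑ y, sgn x * sgn y := by rw [hSdef, Finset.sum_mul_sum]
      _ = ∑ x, ∑ y, sgn x * sgn (x * y) := by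
          refine Finset.sum_congr rfl (fun x _ => ?_)
          exact (Equiv.sum_comp (Equiv.mulLeft x) (fun y => sgn x * sgn y)).symm
      _ = ∑ x, ∑ y, sgn y * ε x y := by
          refine Finset.sum_congr rfl (fun x _ => Finset.sum_congr rfl (fun y _ => ?_))
          rw [hmult, ← mul_assoc, ← mul_assoc, hsq x, one_mul]
      _ = ∑ y, ∑ x, sgn y * ε x y := Finset.sum_comm
      _ = ∑ y, sgn y * (if y ∈ Subgroup.center G then (Fintype.card G : ℤ) else 0) := by
          refine Finset.sum_congr rfl (fun y _ => ?_)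
          rw [← Finset.mul_sum, hεsum y]
      _ = (Fintype.card G : ℤ) * T := by
          rw [hT, Finset.mul_sum]
          refine Finset.sum_congr rfl (fun y _ => ?_)
          split_ifs <;> ring
  have hTcase : T = 0 ∨ ((∀ y ∈ Subgroup.center G, y ^ 2 = 1) ∧
      T = (Nat.card (Subgroup.center G) : ℤ)) := by
    by_cases hex : ∃ a ∈ Subgroup.center G, a ^ 2 ≠ 1
    · left
      obtain ⟨a, haZ, ha⟩ := hex
      apply sum_eq_zero_of_mul _ a
      intro y
      have hiff : a * y ∈ Subgroup.center G ↔ y ∈ Subgroup.center G :=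
        Subgroup.mul_mem_cancel_left _ haZ
      have hsa : sgn a = -1 := by
        simp only [sgn]
        rw [if_neg ha]
      have hεa : ε a y = 1 := by
        simp only [ε]
        rw [if_pos ((Subgroup.mem_center_iff.mp haZ y)).symm]
      by_cases hy : y ∈ Subgroup.center G
      · rw [if_pos (hiff.mpr hy), if_pos hy, hmult, hsa, hεa]; ring
      · rw [if_neg (fun h => hy (hiff.mp h)), if_neg hy]; simp
    · right
      push Not at hex
      refine ⟨hex, ?_⟩
      rw [hT]
      have h1 : ∀ y : G, (if y ∈ Subgroup.center G then sgn y else 0)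
          = if y ∈ Subgroup.center G then 1 else 0 := by
        intro y
        split_ifs with h
        · simp only [sgn]
          rw [if_pos (hex y h)]
        · rfl
      rw [Finset.sum_congr rfl (fun y _ => h1 y), Finset.sum_boole]
      rw [Nat.card_eq_fintype_card, Fintype.card_subtype]
  set j := Nat.card {x : G // x ^ 2 = 1} with hj
  have hSj : S = 2 * (j : ℤ) - (Fintype.card G : ℤ) := by
    have h1 : ∀ x : G, sgn x = 2 * (if x ^ 2 = 1 then (1 : ℤ) else 0) - 1 := by
      intro x
      simp only [sgn]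
      split_ifs <;> norm_num
    rw [hSdef, Finset.sum_congr rfl (fun x _ => h1 x), Finset.sum_sub_distrib, ← Finset.mul_sum,
      Finset.sum_boole, hj, Nat.card_eq_fintype_card, Fintype.card_subtype]
    simp
  have hcardG : Fintype.card G = 2 ^ (d + 1) := by
    rw [← Nat.card_eq_fintype_card, ← (frattini G).card_mul_index, hΦ, hd, pow_succ]
    ring
  obtain ⟨c, hc⟩ := (IsPGroup.iff_card.mp (hG.to_subgroup (Subgroup.center G)))
  have hc1 : 1 ≤ c := by
    have h1 := Subgroup.card_le_of_le hΦZ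
    rw [hΦ, hc] at h1
    by_contra h0
    have : c = 0 := by omega
    rw [this] at h1
    norm_num at h1
  -- abelian is impossible when the centre is elementary
  have hnonab : (∀ y ∈ Subgroup.center G, y ^ 2 = 1) → ¬ (∀ a b : G, a * b = b * a) := by
    intro hZsq hab
    have h1 : frattini G ≤ ⊥ := by
      apply Cfsg.Agent.Lib.Helper18.frattini_le_of_elementary (p := 2)
      · intro a b
        rw [hab a b]
        simp
      · intro a
        rw [hZsq a (Subgroup.mem_center_iff.mpr (fun g => hab g a))]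
        exact Subgroup.one_mem _
    rw [le_bot_iff] at h1
    rw [h1, Subgroup.card_bot] at hΦ
    norm_num at hΦ
  have hcd : (∀ y ∈ Subgroup.center G, y ^ 2 = 1) → c + 1 ≤ d := by
    intro hZsq
    by_contra hcon
    apply hnonab hZsq
    have hidx : Nat.card (G ⧸ Subgroup.center G) * 2 ^ c = 2 ^ (d + 1) := by
      rw [← hc, ← hcardG, ← Nat.card_eq_fintype_card]
      exact (Subgroup.card_eq_card_quotient_mul_card_subgroup (Subgroup.center G)).symm
    have hcle : c ≤ d + 1 := by
      have h1 : 2 ^ c ∣ 2 ^ (d + 1) := Dvd.intro_left _ hidx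
      exact (Nat.pow_dvd_pow_iff_le_right (by norm_num)).mp h1
    have hq : Nat.card (G ⧸ Subgroup.center G) = 2 ^ (d + 1 - c) := by
      have h2 : 2 ^ (d + 1) = 2 ^ (d + 1 - c) * 2 ^ c := by
        rw [← pow_add]; congr 1; omega
      rw [h2] at hidx
      exact Nat.eq_of_mul_eq_mul_right (by positivity) hidx
    have hcyc : IsCyclic (G ⧸ Subgroup.center G) := by
      have h3 : d + 1 - c = 0 ∨ d + 1 - c = 1 := by omega
      rcases h3 with h3 | h3
      · rw [h3, pow_zero] at hq
        haveI := (Nat.card_eq_one_iff_unique.mp hq).1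
        exact isCyclic_of_subsingleton
      · rw [h3, pow_one] at hq
        exact isCyclic_of_prime_card hq
    intro a b
    exact commutative_of_cyclic_center_quotient (QuotientGroup.mk' (Subgroup.center G))
      (by rw [QuotientGroup.ker_mk']) a b
  rw [hcardG] at hSS hSj
  push_cast at hSS hSj
  rcases hTcase with hT0 | ⟨hZsq, hTZ⟩
  · -- S = 0
    rw [hT0, mul_zero] at hSS
    have hS0 : S = 0 := by
      rcases mul_eq_zero.mp hSS with h | h <;> exact h
    have hjd : j = 2 ^ d := by
      have h1 : (2 : ℤ) * j = 2 ^ (d + 1) := by linarith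
      have h2 : (2 : ℤ) ^ (d + 1) = 2 * 2 ^ d := by ring
      have h3 : (j : ℤ) = 2 ^ d := by linarith
      exact_mod_cast h3
    refine ⟨Or.inl hjd, ?_⟩
    intro r hr hjr
    exfalso
    have hpos : 0 < 2 ^ r := by positivity
    rcases hjr with h | h <;> omega
  · have hcd' := hcd hZsq
    rw [hTZ, hc, hSj] at hSS
    push_cast at hSS
    obtain ⟨t, ht, hjt⟩ := arith_core d c j hc1 hcd' hSS
    constructor
    · right
      refine ⟨d - t, by omega, by omega, ?_⟩
      have : d - (d - t) = t := by omega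
      rw [this]
      exact hjt
    · intro r hr hjr
      -- t = r and so c = 1
      have htr : t = r := by
        have hinj := Nat.pow_right_injective (le_refl 2)
        rcases hjt with h1 | h1 <;> rcases hjr with h2 | h2
        · exact hinj (show 2 ^ t = 2 ^ r by omega)
        · exfalso
          have : 0 < 2 ^ r := by positivity
          have : 0 < 2 ^ t := by positivity
          omega
        · exfalso
          have : 0 < 2 ^ r := by positivity
          have : 0 < 2 ^ t := by positivity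
          omega
        · exact hinj (show 2 ^ t = 2 ^ r by omega)
      have hc1' : c = 1 := by omega
      rw [hc1', pow_one] at hc
      have hΦeq : frattini G = Subgroup.center G :=
        Subgroup.eq_of_le_of_card_ge hΦZ (by rw [hc, hΦ])
      have hcomm : commutator G = Subgroup.center G := by
        apply Subgroup.eq_of_le_of_card_ge (hS12.1.trans hΦZ)
        rw [hc]
        have hne : commutator G ≠ ⊥ := by
          intro hbot
          apply hnonab hZsq
          intro a b
          have h1 := Subgroup.commutator_mem_commutator (Subgroup.mem_top a) (Subgroup.mem_top b)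
          rw [← commutator_def, hbot, Subgroup.mem_bot, commutatorElement_eq_one_iff_mul_comm] at h1
          exact h1
        have := (Subgroup.one_lt_card_iff_ne_bot (commutator G)).mpr hne
        omega
      exact ⟨⟨hG, hΦeq, hcomm⟩, hc⟩

end Cfsg.Agent.S3772
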