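import Cfsg.Statements.S3774
import Mathlib

set_option autoImplicit false
open Cfsg

namespace Cfsg.Agent.S3774

theorem two_group_pow_half {G : Type*} [Group G] (hG : IsPGroup 2 G) {x : G} (hx : x ≠ 1) :
    x ^ (orderOf x / 2) ≠ 1 ∧ (x ^ (orderOf x / 2)) ^ 2 = 1 := by
  obtain ⟨k, hk⟩ := hG x
  have hdvd : orderOf x ∣ 2 ^ k := orderOf_dvd_of_pow_eq_one hk
  obtain ⟨j, -, hj⟩ := (Nat.dvd_prime_pow Nat.prime_two).mp hdvd
  have hj0 : j ≠ 0 := by
    rintro rfl
    rw [pow_zero] at hj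
    exact hx (orderOf_eq_one_iff.mp hj)
  obtain ⟨i, rfl⟩ := Nat.exists_eq_succ_of_ne_zero hj0
  have ho : orderOf x / 2 = 2 ^ i := by
    rw [hj, pow_succ]; simp
  constructor
  · apply pow_ne_one_of_lt_orderOf
    · rw [ho]; positivity
    · rw [ho, hj, pow_succ]
      have : 0 < 2 ^ i := by positivity
      omega
  · rw [← pow_mul, ho, ← pow_succ, ← hj]
    exact pow_orderOf_eq_one x

/-- Let G be a nontrivial finite 2-group whose automorphism group permutes the involutions of G transitively. Then every involution of G is central, so that the involutions together with 1 form the subgroup Ω₁(Z(G)), and if this subgroup has order q then |G| is a power of q. -/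
theorem result {G : Type*} [Group G] [Finite G] [Nontrivial G] (hG : IsPGroup 2 G) (htrans : ∀ x y : G, x ≠ 1 → x ^ 2 = 1 → y ≠ 1 → y ^ 2 = 1 → ∃ a : MulAut G, a x = y) : (∀ x : G, x ^ 2 = 1 → x ∈ Subgroup.center G) ∧ ∃ m : ℕ, Nat.card G = Nat.card {z : G // z ^ 2 = 1} ^ m := by
  classical
  have h2 : Fact (Nat.Prime 2) := ⟨Nat.prime_two⟩
  have hcz : ∃ z ∈ Subgroup.center G, orderOf z = 2 := by
    have hnt : Nontrivial (Subgroup.center G) := hG.center_nontrivial
    have hcard : 2 ∣ Nat.card (Subgroup.center G) := by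
      obtain ⟨k, hk⟩ := IsPGroup.iff_card.mp (hG.to_subgroup (Subgroup.center G))
      have hk1 : k ≠ 0 := by
        rintro rfl
        rw [pow_zero] at hk
        have := Finite.one_lt_card_iff_nontrivial.mpr hnt
        omega
      rw [hk]; exact dvd_pow_self 2 hk1
    obtain ⟨z, hz⟩ := exists_prime_orderOf_dvd_card' 2 hcard
    exact ⟨z, z.2, by rw [← hz]; exact (Subgroup.orderOf_coe z)⟩
  obtain ⟨z, hzc, hz2⟩ := hcz
  have hz1 : z ≠ 1 := by rintro rfl; simp at hz2
  have hzsq : z ^ 2 = 1 := by rw [← hz2]; exact pow_orderOf_eq_one z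
  have hcent : ∀ x : G, x ^ 2 = 1 → x ∈ Subgroup.center G := by
    intro x hx
    by_cases hx1 : x = 1
    · rw [hx1]; exact Subgroup.one_mem _
    · obtain ⟨a, ha⟩ := htrans z x hz1 hzsq hx1 hx
      rw [Subgroup.mem_center_iff]
      intro g
      rw [← ha]
      have h1 := Subgroup.mem_center_iff.mp hzc (a.symm g)
      have h3 := congrArg a h1
      simpa using h3
  refine ⟨hcent, ?_⟩
  let S : Subgroup G :=
    { carrier := {x | x ^ 2 = 1}
      mul_mem' := by
        intro x y hx hy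
        have hc : Commute x y := Subgroup.mem_center_iff.mp (hcent y hy) x
        show (x * y) ^ 2 = 1
        rw [hc.mul_pow, show x ^ 2 = 1 from hx, show y ^ 2 = 1 from hy, one_mul]
      one_mem' := by show (1 : G) ^ 2 = 1; simp
      inv_mem' := by
        intro x hx
        show x⁻¹ ^ 2 = 1
        rw [inv_pow, show x ^ 2 = 1 from hx, inv_one] }
  have hScard : Nat.card {z : G // z ^ 2 = 1} = Nat.card S := rfl
  obtain ⟨k, hk⟩ := IsPGroup.iff_card.mp (hG.to_subgroup S)
  obtain ⟨a, ha⟩ := IsPGroup.iff_card.mp hG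
  have hcount : ∃ n : ℕ, Nat.card G = (Nat.card S - 1) * n + 1 := by
    let f : {x : G // x ≠ 1} → {u : S // u ≠ 1} := fun x =>
      ⟨⟨x.1 ^ (orderOf x.1 / 2), (two_group_pow_half hG x.2).2⟩, fun h =>
        (two_group_pow_half hG x.2).1 (congrArg Subtype.val h)⟩
    have hfa : ∀ (α : MulAut G) (x : {x : G // x ≠ 1}) (hx' : α x.1 ≠ 1),
        ((f ⟨α x.1, hx'⟩ : {u : S // u ≠ 1}) : G) = α ((f x : {u : S // u ≠ 1}) : G) := by
      intro α x hx'
      show (α x.1) ^ (orderOf (α x.1) / 2) = α (x.1 ^ (orderOf x.1 / 2))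
      rw [MulEquiv.orderOf_eq α x.1, map_pow]
    have hle : ∀ u v : {u : S // u ≠ 1},
        Nat.card {x : {x : G // x ≠ 1} // f x = u} ≤ Nat.card {x : {x : G // x ≠ 1} // f x = v} := by
      intro u v
      have hu1 : (u.1 : G) ≠ 1 := fun h => u.2 (Subtype.ext h)
      have hv1 : (v.1 : G) ≠ 1 := fun h => v.2 (Subtype.ext h)
      obtain ⟨α, hα⟩ := htrans u.1 v.1 hu1 u.1.2 hv1 v.1.2
      have hne : ∀ x : {x : G // x ≠ 1}, α x.1 ≠ 1 := fun x h =>
        x.2 (by simpa using h)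
      let g : {x : {x : G // x ≠ 1} // f x = u} → {x : {x : G // x ≠ 1} // f x = v} :=
        fun x => ⟨⟨α x.1.1, hne x.1⟩, by
          apply Subtype.ext
          apply Subtype.ext
          rw [hfa α x.1 (hne x.1), x.2]
          exact hα⟩
      apply Nat.card_le_card_of_injective g
      intro x y hxy
      have h1 : α x.1.1 = α y.1.1 := congrArg (fun t => (t.1 : {x : G // x ≠ 1}).1) hxy
      exact Subtype.ext (Subtype.ext (α.injective h1))
    let u₀ : {u : S // u ≠ 1} := ⟨⟨z, hzsq⟩, fun h => hz1 (congrArg Subtype.val h)⟩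
    have heq : ∀ u : {u : S // u ≠ 1},
        Nat.card {x : {x : G // x ≠ 1} // f x = u} = Nat.card {x : {x : G // x ≠ 1} // f x = u₀} :=
      fun u => le_antisymm (hle u u₀) (hle u₀ u)
    have hfin : Fintype {u : S // u ≠ 1} := Fintype.ofFinite _
    have hN : Nat.card {x : G // x ≠ 1} =
        Nat.card {u : S // u ≠ 1} * Nat.card {x : {x : G // x ≠ 1} // f x = u₀} := by
      rw [Nat.card_congr (Equiv.sigmaFiberEquiv f).symm, Nat.card_sigma]
      rw [Finset.sum_congr rfl (fun u _ => heq u), Finset.sum_const, Finset.card_univ,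
        smul_eq_mul, ← Nat.card_eq_fintype_card]
    have hG1 : Nat.card G = Nat.card {x : G // x ≠ 1} + 1 := by
      rw [← Nat.card_congr (Equiv.optionSubtypeNe (1 : G)), Finite.card_option]
    have hS1 : Nat.card S = Nat.card {u : S // u ≠ 1} + 1 := by
      rw [← Nat.card_congr (Equiv.optionSubtypeNe (1 : S)), Finite.card_option]
    refine ⟨Nat.card {x : {x : G // x ≠ 1} // f x = u₀}, ?_⟩
    rw [hG1, hN, hS1]
    simp
  obtain ⟨n, hn⟩ := hcount
  rw [hk, ha] at hn
  have hpos1 : 1 ≤ 2 ^ k := Nat.one_le_two_pow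
  have hpos2 : 1 ≤ 2 ^ a := Nat.one_le_two_pow
  have hdvd : 2 ^ k - 1 ∣ 2 ^ a - 1 := ⟨n, by omega⟩
  have hgcd := Nat.pow_sub_one_gcd_pow_sub_one 2 k a
  rw [Nat.gcd_eq_left hdvd] at hgcd
  have hkk : k = Nat.gcd k a := by
    have hpos3 : 1 ≤ 2 ^ (Nat.gcd k a) := Nat.one_le_two_pow
    have h1 : 2 ^ k = 2 ^ (Nat.gcd k a) := by omega
    exact Nat.pow_right_injective (le_refl 2) h1
  have hka : k ∣ a := by rw [hkk]; exact Nat.gcd_dvd_right k a
  obtain ⟨m, hm⟩ := hka
  refine ⟨m, ?_⟩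
  rw [hScard, hk, ha, hm, pow_mul]

end Cfsg.Agent.S3774
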