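import Cfsg.Statements.S3775
import Cfsg.Agent.Lib.Helper5.CoprimeAb

set_option autoImplicit false
open Cfsg

namespace Cfsg.Agent.S3775

open Cfsg.Agent.Lib.Helper5

theorem inv_iff {A : Type*} [CommGroup A] (X : Subgroup (MulAut A)) (B : Subgroup A) :
    (∀ x ∈ X, B.map x.toMonoidHom = B) ↔ (∀ x ∈ X, ∀ b ∈ B, x b ∈ B) := by
  constructor
  · intro h x hx b hb
    have h3 : x b ∈ B.map x.toMonoidHom := Subgroup.mem_map_of_mem x.toMonoidHom hb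
    rwa [h x hx] at h3
  · intro h x hx
    apply le_antisymm
    · rintro _ ⟨b, hb, rfl⟩
      exact h x hx b hb
    · intro b hb
      exact ⟨x⁻¹ b, h _ (X.inv_mem hx) b hb, MulAut.apply_inv_self A x b⟩

theorem h32 {A : Type*} [CommGroup A] [Finite A] {p : ℕ} [Fact p.Prime] (hA : IsPGroup p A)
    (X : Subgroup (MulAut A))
    (h3 : ∀ B : Subgroup A, (∀ x ∈ X, ∀ b ∈ B, x b ∈ B) → (∀ b ∈ B, b ^ p = 1) →
      B = ⊥ ∨ ∀ a : A, a ∈ B ↔ a ^ p = 1)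
    (B : Subgroup A) (hB : ∀ x ∈ X, ∀ b ∈ B, x b ∈ B) :
    ∃ i : ℕ, ∀ a : A, a ∈ B ↔ a ^ p ^ i = 1 := by
  classical
  obtain ⟨n, hn⟩ := IsPGroup.iff_card.mp hA
  have hex : ∃ i, ∀ b ∈ B, b ^ p ^ i = 1 :=
    ⟨n, fun b _ => by rw [← hn]; exact pow_card_eq_one'⟩
  refine ⟨Nat.find hex, fun a => ⟨fun ha => Nat.find_spec hex a ha, ?_⟩⟩
  rcases Nat.eq_zero_or_pos (Nat.find hex) with h0 | hpos
  · rw [h0]
    intro ha
    rw [pow_zero, pow_one] at ha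
    rw [ha]
    exact one_mem B
  · obtain ⟨i, hi⟩ : ∃ i, Nat.find hex = i + 1 := ⟨Nat.find hex - 1, by omega⟩
    have hspec : ∀ b ∈ B, b ^ p ^ (i + 1) = 1 := by
      rw [← hi]; exact Nat.find_spec hex
    have hmin : ¬ ∀ b ∈ B, b ^ p ^ i = 1 := Nat.find_min hex (by omega)
    rw [hi]
    push Not at hmin
    obtain ⟨b₀, hb₀, hb₀1⟩ := hmin
    have hU := h3 (B.map (powMonoidHom (p ^ i))) ?_ ?_
    · rcases hU with hU | hU
      · exfalso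
        apply hb₀1
        have h4 : b₀ ^ p ^ i ∈ B.map (powMonoidHom (p ^ i)) := ⟨b₀, hb₀, rfl⟩
        rw [hU] at h4
        exact Subgroup.mem_bot.mp h4
      · have key : ∀ j, j ≤ i + 1 → ∀ a : A, a ^ p ^ j = 1 → a ∈ B := by
          intro j
          induction j with
          | zero =>
            intro _ a ha
            rw [pow_zero, pow_one] at ha
            rw [ha]
            exact one_mem B
          | succ j ih =>
            intro hj a ha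
            have h1 : (a ^ p ^ j) ^ p = 1 := by
              rw [← pow_mul, ← pow_succ]; exact ha
            obtain ⟨b, hb, hb2⟩ := (hU _).mpr h1
            have hb3 : (b ^ p ^ (i - j)) ^ p ^ j = a ^ p ^ j := by
              rw [← pow_mul, ← pow_add, Nat.sub_add_cancel (by omega)]
              exact hb2
            have h4 : (a * (b ^ p ^ (i - j))⁻¹) ^ p ^ j = 1 := by
              rw [mul_pow, inv_pow, hb3, mul_inv_cancel]
            have h5 := B.mul_mem (ih (by omega) _ h4) (B.pow_mem hb (p ^ (i - j)))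
            rwa [inv_mul_cancel_right] at h5
        exact fun ha => key (i + 1) le_rfl a ha
    · rintro x hx _ ⟨b, hb, rfl⟩
      exact ⟨x b, hB x hx b hb, by simp⟩
    · rintro _ ⟨b, hb, rfl⟩
      show (b ^ p ^ i) ^ p = 1
      rw [← pow_mul, ← pow_succ]
      exact hspec b hb

theorem h13 {A : Type*} [CommGroup A] [Finite A] {p : ℕ} [Fact p.Prime] (hA : IsPGroup p A)
    (X : Subgroup (MulAut A)) (hX : (Nat.card X).Coprime p)
    (h1 : ∀ B C : Subgroup A, (∀ x ∈ X, ∀ b ∈ B, x b ∈ B) → (∀ x ∈ X, ∀ b ∈ C, x b ∈ C) →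
      B ⊓ C = ⊥ → B ⊔ C = ⊤ → B = ⊥ ∨ C = ⊥)
    (U : Subgroup A) (hU : ∀ x ∈ X, ∀ b ∈ U, x b ∈ U) (hUp : ∀ b ∈ U, b ^ p = 1) :
    U = ⊥ ∨ ∀ a : A, a ∈ U ↔ a ^ p = 1 := by
  classical
  have hp : p.Prime := Fact.out
  by_cases hU0 : U = ⊥
  · exact Or.inl hU0
  right
  obtain ⟨n, hn⟩ := IsPGroup.iff_card.mp hA
  have hex : ∃ e, ∀ a : A, a ^ p ^ e = 1 :=
    ⟨n, fun a => by rw [← hn]; exact pow_card_eq_one'⟩
  have he0 : Nat.find hex ≠ 0 := by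
    intro h0
    have h := Nat.find_spec hex
    rw [h0] at h
    apply hU0
    rw [eq_bot_iff]
    intro u _
    have h4 := h u
    rw [pow_zero, pow_one] at h4
    rw [h4]
    exact one_mem _
  obtain ⟨e, he⟩ : ∃ e, Nat.find hex = e + 1 := ⟨Nat.find hex - 1, by omega⟩
  have hspec : ∀ a : A, a ^ p ^ (e + 1) = 1 := by
    rw [← he]; exact Nat.find_spec hex
  have hmin : ¬ ∀ a : A, a ^ p ^ e = 1 := Nat.find_min hex (by omega)
  push Not at hmin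
  obtain ⟨a₀, ha₀⟩ := hmin
  obtain ⟨ψ, hψ⟩ : ∃ ψ : A →* A, ∀ a, ψ a = a ^ p ^ e :=
    ⟨powMonoidHom (p ^ e), fun a => rfl⟩
  have hψx : ∀ x : MulAut A, ∀ a, ψ (x a) = x (ψ a) := by
    intro x a
    rw [hψ, hψ, map_pow]
  have hTst : ∀ x ∈ X, ∀ b ∈ ψ.range, x b ∈ ψ.range := by
    rintro x _ _ ⟨a, rfl⟩
    exact ⟨x a, hψx x a⟩
  have hTne : ψ.range ≠ ⊥ := by
    intro h
    apply ha₀
    have h4 : ψ a₀ ∈ ψ.range := ⟨a₀, rfl⟩
    rw [h] at h4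
    rw [← hψ]
    exact Subgroup.mem_bot.mp h4
  obtain ⟨T₁, ⟨hT1st, hT1ne, hT1le⟩, hT1min⟩ := (wellFounded_lt (α := Subgroup A)).has_min
    {S | (∀ x ∈ X, ∀ b ∈ S, x b ∈ S) ∧ S ≠ ⊥ ∧ S ≤ ψ.range} ⟨ψ.range, hTst, hTne, le_refl _⟩
  obtain ⟨B, ⟨hBst, hBmap⟩, hBmin⟩ := (wellFounded_lt (α := Subgroup A)).has_min
    {S | (∀ x ∈ X, ∀ b ∈ S, x b ∈ S) ∧ S.map ψ = T₁}
    ⟨T₁.comap ψ, fun x hx b hb => by
        rw [Subgroup.mem_comap] at hb ⊢
        rw [hψx]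
        exact hT1st x hx _ hb,
      Subgroup.map_comap_eq_self hT1le⟩
  have hNK : B.map (powMonoidHom p) ≤ B ⊓ ψ.ker := by
    rintro _ ⟨b, hb, rfl⟩
    refine Subgroup.mem_inf.mpr ⟨B.pow_mem hb p, MonoidHom.mem_ker.mpr ?_⟩
    rw [hψ]
    show (b ^ p) ^ p ^ e = 1
    rw [← pow_mul, ← pow_succ']
    exact hspec b
  have hNst : ∀ x ∈ X, ∀ a ∈ B.map (powMonoidHom p), x a ∈ B.map (powMonoidHom p) := by
    rintro x hx _ ⟨b, hb, rfl⟩
    exact ⟨x b, hBst x hx b hb, by simp⟩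
  have hKst : ∀ x ∈ X, ∀ a ∈ B ⊓ ψ.ker, x a ∈ B ⊓ ψ.ker := by
    intro x hx a ha
    obtain ⟨ha1, ha2⟩ := Subgroup.mem_inf.mp ha
    refine Subgroup.mem_inf.mpr ⟨hBst x hx a ha1, MonoidHom.mem_ker.mpr ?_⟩
    rw [hψx, MonoidHom.mem_ker.mp ha2, map_one]
  obtain ⟨C₀, hC₀1, hC₀2⟩ := cab_exists_compl_mod hp (B.map (powMonoidHom p)) (B ⊓ ψ.ker) B
    hNK inf_le_left (fun b hb => ⟨b, hb, rfl⟩)
  obtain ⟨C, hCst, hNC, hCB, hCK, hBKC⟩ := cab_avg_complement X p hX _ _ B C₀ hNst hKst hBst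
    hNK inf_le_left hC₀1 hC₀2 (fun k hk => ⟨k, (Subgroup.mem_inf.mp hk).1, rfl⟩)
  have hCmap : C.map ψ = T₁ := by
    apply le_antisymm
    · rw [← hBmap]
      exact Subgroup.map_mono hCB
    · rw [← hBmap]
      rintro _ ⟨b, hb, rfl⟩
      obtain ⟨k, hk, c, hc, rfl⟩ := Subgroup.mem_sup.mp (hBKC hb)
      refine ⟨c, hc, ?_⟩
      rw [map_mul, MonoidHom.mem_ker.mp (Subgroup.mem_inf.mp hk).2, one_mul]
  have hCeq : C = B := by
    by_contra hne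
    exact hBmin C ⟨hCst, hCmap⟩ (lt_of_le_of_ne hCB hne)
  have hH : ∀ b ∈ B, b ^ p ^ e = 1 → ∃ b₁ ∈ B, b₁ ^ p = b := by
    intro b hb hb1
    have h4 : b ∈ C ⊓ (B ⊓ ψ.ker) :=
      Subgroup.mem_inf.mpr ⟨by rw [hCeq]; exact hb,
        Subgroup.mem_inf.mpr ⟨hb, MonoidHom.mem_ker.mpr (by rw [hψ]; exact hb1)⟩⟩
    obtain ⟨b₁, hb₁, h⟩ := hCK h4
    exact ⟨b₁, hb₁, h⟩
  obtain ⟨C₁, hC₁1, hC₁2⟩ := cab_exists_compl hp e hspec B hH
  obtain ⟨C₂, hC₂st, -, -, hC₂1, hC₂2⟩ := cab_avg_complement X (p ^ (e + 1))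
    (Nat.Coprime.pow_right _ hX) ⊥ B ⊤ C₁
    (fun x _ a ha => by rw [Subgroup.mem_bot] at ha ⊢; rw [ha, map_one]) hBst
    (fun _ _ _ _ => Subgroup.mem_top _)
    bot_le le_top (by rw [inf_comm, hC₁1]) (by rw [hC₁2])
    (fun k _ => by rw [hspec k]; exact one_mem _)
  have hBne : B ≠ ⊥ := by
    intro h
    apply hT1ne
    rw [← hBmap, h, Subgroup.map_bot]
  have hBtop : B = ⊤ := by
    rcases h1 B C₂ hBst hC₂st (by rw [eq_bot_iff, inf_comm]; exact hC₂1)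
      (top_le_iff.mp hC₂2) with h | h
    · exact absurd h hBne
    · rw [h, sup_bot_eq] at hC₂2
      exact top_le_iff.mp hC₂2
  have hT1eq : T₁ = ψ.range := by
    rw [← hBmap, hBtop, ← MonoidHom.range_eq_map]
  have hH' : ∀ a : A, a ^ p ^ e = 1 → ∃ b₁, b₁ ^ p = a := by
    intro a ha
    obtain ⟨b₁, -, h⟩ := hH a (by rw [hBtop]; exact Subgroup.mem_top _) ha
    exact ⟨b₁, h⟩
  have key : ∀ j, j ≤ e → ∀ a : A, a ^ p = 1 → ∃ c, c ^ p ^ j = a := by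
    intro j
    induction j with
    | zero =>
      intro _ a _
      exact ⟨a, by rw [pow_zero, pow_one]⟩
    | succ j ih =>
      intro hj a ha
      obtain ⟨c, hc⟩ := ih (by omega) a ha
      have hc1 : c ^ p ^ e = 1 := by
        have h4 : c ^ p ^ (j + 1) = 1 := by
          rw [pow_succ, pow_mul, hc]; exact ha
        obtain ⟨d, hd⟩ : ∃ d, e = (j + 1) + d := ⟨e - (j + 1), by omega⟩
        rw [hd, pow_add, pow_mul, h4, one_pow]
      obtain ⟨d, hd⟩ := hH' c hc1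
      exact ⟨d, by rw [pow_succ', pow_mul, hd, hc]⟩
  have hUle : U ≤ ψ.range := by
    intro u hu
    obtain ⟨c, hc⟩ := key e le_rfl u (hUp u hu)
    exact ⟨c, by rw [hψ]; exact hc⟩
  have hUeq : U = T₁ := by
    by_contra hne
    exact hT1min U ⟨hU, hU0, hUle⟩ (lt_of_le_of_ne (by rw [hT1eq]; exact hUle) hne)
  intro a
  refine ⟨hUp a, fun ha => ?_⟩
  obtain ⟨c, hc⟩ := key e le_rfl a ha
  rw [hUeq, hT1eq]
  exact ⟨c, by rw [hψ]; exact hc⟩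

/-- Let A be a finite abelian p-group and X a group of automorphisms of A of order prime to p. Call a subgroup of A invariant when every element of X maps it onto itself. Then the following are equivalent: (i) A is not the direct product of two nontrivial invariant subgroups; (ii) every invariant subgroup of A is one of the subgroups Ω_i(A) = {a : a^(p^i) = 1}; (iii) the subgroup Ω₁(A) of elements of order dividing p has no invariant subgroups other than 1 and itself. -/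
theorem result {A : Type*} [CommGroup A] [Finite A] {p : ℕ} [Fact p.Prime] (hA : IsPGroup p A) (X : Subgroup (MulAut A)) (hX : (Nat.card X).Coprime p) : ((¬ ∃ B C : Subgroup A, B ≠ ⊥ ∧ C ≠ ⊥ ∧ (∀ x ∈ X, B.map x.toMonoidHom = B) ∧ (∀ x ∈ X, C.map x.toMonoidHom = C) ∧ B ⊓ C = ⊥ ∧ B ⊔ C = ⊤) ↔ (∀ B : Subgroup A, (∀ x ∈ X, B.map x.toMonoidHom = B) → ∃ i : ℕ, ∀ a : A, a ∈ B ↔ a ^ p ^ i = 1)) ∧ ((∀ B : Subgroup A, (∀ x ∈ X, B.map x.toMonoidHom = B) → ∃ i : ℕ, ∀ a : A, a ∈ B ↔ a ^ p ^ i = 1) ↔ (∀ B : Subgroup A, (∀ x ∈ X, B.map x.toMonoidHom = B) → (∀ b ∈ B, b ^ p = 1) → B = ⊥ ∨ ∀ a : A, a ∈ B ↔ a ^ p = 1)) := by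
  simp only [inv_iff X]
  have P12 : (¬ ∃ B C : Subgroup A, B ≠ ⊥ ∧ C ≠ ⊥ ∧ (∀ x ∈ X, ∀ b ∈ B, x b ∈ B) ∧
      (∀ x ∈ X, ∀ b ∈ C, x b ∈ C) ∧ B ⊓ C = ⊥ ∧ B ⊔ C = ⊤) →
      ∀ B C : Subgroup A, (∀ x ∈ X, ∀ b ∈ B, x b ∈ B) → (∀ x ∈ X, ∀ b ∈ C, x b ∈ C) →
        B ⊓ C = ⊥ → B ⊔ C = ⊤ → B = ⊥ ∨ C = ⊥ := by
    intro h B C hB hC h1 h2
    by_contra hne
    push Not at hne
    exact h ⟨B, C, hne.1, hne.2, hB, hC, h1, h2⟩
  refine ⟨⟨fun h B hB => h32 hA X (fun U hU hUp => h13 hA X hX (P12 h) U hU hUp) B hB, ?_⟩,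
    ?_, fun h B hB => h32 hA X h B hB⟩
  · rintro h ⟨B, C, hB0, hC0, hB, hC, h1, h2⟩
    obtain ⟨i, hi⟩ := h B hB
    obtain ⟨j, hj⟩ := h C hC
    rcases le_total i j with hij | hij
    · apply hB0
      rw [eq_bot_iff, ← h1]
      intro b hb
      refine ⟨hb, (hj b).mpr ?_⟩
      obtain ⟨d, rfl⟩ := Nat.exists_eq_add_of_le hij
      rw [pow_add, pow_mul, (hi b).mp hb, one_pow]
    · apply hC0
      rw [eq_bot_iff, ← h1]
      intro c hc
      refine ⟨(hi c).mpr ?_, hc⟩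
      obtain ⟨d, rfl⟩ := Nat.exists_eq_add_of_le hij
      rw [pow_add, pow_mul, (hj c).mp hc, one_pow]
  · intro h B hB hBp
    obtain ⟨i, hi⟩ := h B hB
    rcases Nat.eq_zero_or_pos i with h0 | hpos
    · left
      rw [eq_bot_iff]
      intro b hb
      have h4 := (hi b).mp hb
      rw [h0, pow_zero, pow_one] at h4
      rw [h4]
      exact one_mem _
    · right
      intro a
      refine ⟨hBp a, fun ha => (hi a).mpr ?_⟩
      obtain ⟨d, rfl⟩ : ∃ d, i = 1 + d := ⟨i - 1, by omega⟩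
      rw [pow_add, pow_one, pow_mul, ha, one_pow]

end Cfsg.Agent.S3775
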