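import Cfsg.Statements.S3780
import Cfsg.Agent.S0012

set_option autoImplicit false
open Cfsg

namespace Cfsg.Agent.S3780


theorem card_eq_ker_mul_range {A B : Type*} [AddGroup A] [AddGroup B] [Finite A] (f : A →+ B) :
    Nat.card A = Nat.card f.ker * Nat.card f.range := by
  rw [← AddSubgroup.index_ker, AddSubgroup.card_mul_index]

/-- the chain of kernels -/
def kchain {A : Type*} [AddCommGroup A] (p : ℕ) (T : AddMonoid.End A) (i : ℕ) : AddSubgroup A :=
  (nsmulAddMonoidHom p : A →+ A).ker ⊓ AddMonoidHom.ker (show A →+ A from T ^ i)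

theorem mem_kchain {A : Type*} [AddCommGroup A] (p : ℕ) (T : AddMonoid.End A) (i : ℕ) (x : A) :
    x ∈ kchain p T i ↔ p • x = 0 ∧ (T ^ i) x = 0 := by
  exact Iff.rfl

theorem chain_step {A : Type*} [AddCommGroup A] [Finite A] (p : ℕ) (T : AddMonoid.End A) (i : ℕ) :
    Nat.card (kchain p T (i + 1)) ≤ Nat.card (kchain p T i) * Nat.card (kchain p T 1) := by
  have hmap : ∀ x : kchain p T (i + 1), (T.comp (kchain p T (i + 1)).subtype) x ∈ kchain p T i := by
    intro x
    have hx := (mem_kchain p T (i + 1) x.1).mp x.2
    rw [mem_kchain]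
    refine ⟨?_, ?_⟩
    · show p • T x.1 = 0
      rw [← map_nsmul, hx.1, map_zero]
    · show (T ^ i) (T x.1) = 0
      have := hx.2
      rw [pow_succ] at this
      exact this
  let g : kchain p T (i + 1) →+ kchain p T i :=
    (T.comp (kchain p T (i + 1)).subtype).codRestrict (kchain p T i) hmap
  have h1 := card_eq_ker_mul_range g
  have h2 : Nat.card g.range ≤ Nat.card (kchain p T i) := Nat.card_le_card_of_injective (fun x : g.range => x.1) Subtype.val_injective
  have h3 : Nat.card g.ker ≤ Nat.card (kchain p T 1) := by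
    have hk : ∀ x : g.ker, x.1.1 ∈ kchain p T 1 := by
      intro x
      have hx := (mem_kchain p T (i + 1) x.1.1).mp x.1.2
      have hx2 : g x.1 = 0 := x.2
      have hx3 : T x.1.1 = 0 := by
        have := congrArg Subtype.val hx2
        exact this
      rw [mem_kchain]
      refine ⟨hx.1, ?_⟩
      rw [pow_one]
      exact hx3
    refine Nat.card_le_card_of_injective (fun x => (⟨x.1.1, hk x⟩ : kchain p T 1)) ?_
    intro x y hxy
    have := congrArg Subtype.val hxy
    exact Subtype.ext (Subtype.ext this)
  rw [h1, mul_comm]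
  exact Nat.mul_le_mul h2 h3

theorem chain_bound {A : Type*} [AddCommGroup A] [Finite A] (p : ℕ) (T : AddMonoid.End A) (i : ℕ) :
    Nat.card (kchain p T i) ≤ Nat.card (kchain p T 1) ^ i := by
  induction i with
  | zero =>
    have h0 : kchain p T 0 = ⊥ := by
      rw [eq_bot_iff]
      intro x hx
      have := ((mem_kchain p T 0 x).mp hx).2
      rw [pow_zero] at this
      exact this
    rw [h0, pow_zero]
    simp
  | succ i ih =>
    calc Nat.card (kchain p T (i + 1)) ≤ Nat.card (kchain p T i) * Nat.card (kchain p T 1) :=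
          chain_step p T i
      _ ≤ Nat.card (kchain p T 1) ^ i * Nat.card (kchain p T 1) := Nat.mul_le_mul_right _ ih
      _ = Nat.card (kchain p T 1) ^ (i + 1) := (pow_succ _ _).symm

theorem add_main {A : Type*} [AddCommGroup A] [Finite A] (p : ℕ) [hp : Fact p.Prime]
    (a : AddMonoid.End A) (ha : a ^ p = 1) :
    Nat.card {x : A // p • x = 0} ≤ (Nat.card {x : A // p • x = 0 ∧ a x = x}) ^ p := by
  set T : AddMonoid.End A := a - 1 with hT
  obtain ⟨r, hr⟩ := (Commute.one_left T).exists_add_pow_prime_eq hp.out
  have h1T : 1 + T = a := by rw [hT]; abel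
  rw [h1T, ha, one_pow] at hr
  have hTp : T ^ p = (p : AddMonoid.End A) * (-(T * r)) := by
    have : T ^ p + (p : AddMonoid.End A) * 1 * T * r = 0 := by
      have h := hr
      rw [add_assoc] at h
      exact (left_eq_add.mp h)
    rw [mul_one, mul_assoc] at this
    rw [mul_neg]
    exact eq_neg_of_add_eq_zero_left this
  have hkill : ∀ x : A, p • x = 0 → (T ^ p) x = 0 := by
    intro x hx
    rw [hTp]
    show (p : AddMonoid.End A) ((-(T * r)) x) = 0
    rw [AddMonoid.End.natCast_apply, ← map_nsmul, hx, map_zero]
  have e1 : Nat.card {x : A // p • x = 0} = Nat.card (kchain p T p) := by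
    refine Nat.card_congr (Equiv.subtypeEquivRight ?_)
    intro x
    rw [mem_kchain]
    exact ⟨fun h => ⟨h, hkill x h⟩, fun h => h.1⟩
  have e2 : Nat.card {x : A // p • x = 0 ∧ a x = x} = Nat.card (kchain p T 1) := by
    refine Nat.card_congr (Equiv.subtypeEquivRight ?_)
    intro x
    rw [mem_kchain, pow_one]
    have : T x = a x - x := rfl
    rw [this, sub_eq_zero]
  rw [e1, e2]
  exact chain_bound p T p

theorem exists_gen {G : Type*} [Group G] (p : ℕ) [hp : Fact p.Prime] :
    ∀ m : ℕ, ∀ H : Subgroup G, H.index ∣ p ^ m →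
      ∃ S : Finset G, S.card ≤ m ∧ H ⊔ Subgroup.closure (S : Set G) = ⊤ := by
  classical
  intro m
  induction m with
  | zero =>
    intro H hH
    rw [pow_zero, Nat.dvd_one] at hH
    refine ⟨∅, by simp, ?_⟩
    rw [Subgroup.index_eq_one.mp hH]
    simp
  | succ m ih =>
    intro H hH
    by_cases htop : H = ⊤
    · refine ⟨∅, by simp, ?_⟩
      rw [htop]; simp
    · obtain ⟨g, hg⟩ : ∃ g : G, g ∉ H := by
        by_contra hcon
        push Not at hcon
        exact htop (eq_top_iff.mpr fun x _ => hcon x)
      have hne : H.index ≠ 0 := by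
        intro h0
        rw [h0] at hH
        exact (pow_ne_zero _ hp.out.ne_zero) (Nat.eq_zero_of_zero_dvd hH)
      set H' : Subgroup G := H ⊔ Subgroup.closure {g} with hH'
      have hle : H ≤ H' := le_sup_left
      have hgH' : g ∈ H' := (le_sup_right : Subgroup.closure {g} ≤ H') (Subgroup.subset_closure rfl)
      have hdvd : H'.index ∣ H.index := Subgroup.index_dvd_of_le hle
      have hrel : H.relIndex H' * H'.index = H.index := Subgroup.relIndex_mul_index hle
      have hneq : H'.index ≠ H.index := by
        intro heq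
        have h1 : H.relIndex H' = 1 := by
          have : H.relIndex H' * H.index = 1 * H.index := by
            rw [one_mul]; rw [heq] at hrel; exact hrel
          exact Nat.eq_of_mul_eq_mul_right (Nat.pos_of_ne_zero hne) this
        exact hg (Subgroup.relIndex_eq_one.mp h1 hgH')
      obtain ⟨i, hi, hHi⟩ := (Nat.dvd_prime_pow hp.out).mp hH
      obtain ⟨j, hj, hHj⟩ := (Nat.dvd_prime_pow hp.out).mp (hHi ▸ hdvd)
      have hjm : j ≤ m := by
        have : j ≠ i := by
          intro h
          apply hneq
          rw [hHj, hHi, h]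
        omega
      obtain ⟨S, hS, hS2⟩ := ih H' (by rw [hHj]; exact pow_dvd_pow p hjm)
      refine ⟨insert g S, ?_, ?_⟩
      · exact (Finset.card_insert_le g S).trans (by omega)
      · rw [Finset.coe_insert, Set.insert_eq, Subgroup.closure_union, ← sup_assoc]
        exact hS2

/-- Let V be a finite abelian p-group and α an automorphism of V of order p whose fixed-point subgroup has order p^n. Then V can be generated by pn elements: some subset of V with at most pn elements generates V. -/
theorem result {V : Type*} [CommGroup V] [Finite V] {p : ℕ} [Fact p.Prime] (hV : IsPGroup p V) (α : MulAut V) (hα : orderOf α = p) (n : ℕ) (hfix : Nat.card {v : V // α v = v} = p ^ n) : ∃ S : Finset V, S.card ≤ p * n ∧ Subgroup.closure (S : Set V) = ⊤ := by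
  classical
  have hp : p.Prime := Fact.out
  -- the additive endomorphism
  let a : AddMonoid.End (Additive V) := MonoidHom.toAdditive α.toMonoidHom
  have hapow : ∀ k : ℕ, ∀ x : Additive V, (a ^ k) x = Additive.ofMul ((α ^ k) (Additive.toMul x)) := by
    intro k
    induction k with
    | zero => intro x; rw [pow_zero, pow_zero]; rfl
    | succ k ih =>
      intro x
      rw [pow_succ, pow_succ]
      show (a ^ k) (a x) = _
      rw [ih]
      rfl
  have ha : a ^ p = 1 := by
    ext x
    rw [hapow, ← hα, pow_orderOf_eq_one]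
    rfl
  have hmain := add_main p a ha
  have e1 : Nat.card {x : Additive V // p • x = 0} = Nat.card {v : V // v ^ p = 1} :=
    Nat.card_congr (Equiv.subtypeEquiv Additive.toMul (fun x => Iff.rfl))
  have e2 : Nat.card {x : Additive V // p • x = 0 ∧ a x = x} = Nat.card {v : V // v ^ p = 1 ∧ α v = v} :=
    Nat.card_congr (Equiv.subtypeEquiv Additive.toMul (fun x => Iff.rfl))
  have hmain' : Nat.card {v : V // v ^ p = 1} ≤ (Nat.card {v : V // v ^ p = 1 ∧ α v = v}) ^ p := by
    rw [← e1, ← e2]
    exact hmain
  have hfixle : Nat.card {v : V // v ^ p = 1 ∧ α v = v} ≤ p ^ n := by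
    rw [← hfix]
    refine Nat.card_le_card_of_injective (fun v => (⟨v.1, v.2.2⟩ : {v : V // α v = v})) ?_
    intro x y hxy
    have h := congrArg Subtype.val hxy
    exact Subtype.ext h
  let P : V →* V := powMonoidHom p
  have hker : Nat.card P.ker = Nat.card {v : V // v ^ p = 1} := by
    refine Nat.card_congr (Equiv.subtypeEquivRight ?_)
    intro v
    rw [MonoidHom.mem_ker]
    rfl
  obtain ⟨d, hd⟩ := (hV.to_subgroup P.ker).exists_card_eq
  have hdle : d ≤ p * n := by
    have h1 : p ^ d ≤ (p ^ n) ^ p := by
      rw [← hd, hker]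
      exact hmain'.trans (Nat.pow_le_pow_left hfixle p)
    rw [← pow_mul] at h1
    have := (Nat.pow_le_pow_iff_right hp.one_lt).mp h1
    rw [mul_comm] at this
    exact this
  have hidx : P.range.index = p ^ d := by
    have h1 : Nat.card P.ker * P.ker.index = Nat.card V := Subgroup.card_mul_index _
    rw [Subgroup.index_ker] at h1
    have h2 : Nat.card P.range * P.range.index = Nat.card V := Subgroup.card_mul_index _
    have h3 : 0 < Nat.card P.range := Nat.card_pos
    rw [← hd]
    have : Nat.card P.range * P.range.index = Nat.card P.range * Nat.card P.ker := by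
      rw [h2, ← h1, mul_comm]
    exact Nat.eq_of_mul_eq_mul_left h3 this
  obtain ⟨S, hS, hS2⟩ := exists_gen p d P.range (by rw [hidx])
  refine ⟨S, hS.trans hdle, ?_⟩
  have hfr : P.range ≤ frattini V := by
    rintro _ ⟨x, rfl⟩
    exact (Cfsg.Agent.S0012.result p hV).2 x
  have hfin : Subgroup.closure (S : Set V) ⊔ frattini V = ⊤ := by
    apply le_antisymm le_top
    calc (⊤ : Subgroup V) = P.range ⊔ Subgroup.closure (S : Set V) := hS2.symm
      _ ≤ frattini V ⊔ Subgroup.closure (S : Set V) := sup_le_sup_right hfr _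
      _ = _ := sup_comm _ _
  exact frattini_nongenerating hfin

end Cfsg.Agent.S3780
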