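import Cfsg.Statements.S3781
import Cfsg.Agent.S4206

set_option autoImplicit false
open Cfsg

namespace Cfsg.Agent.S3781


theorem lcs_normal {G : Type*} [Group G] (N : Subgroup G) [hN : N.Normal] :
    ∀ k, (N.lowerCentralSeries k).Normal
  | 0 => hN
  | k + 1 => by
    haveI := lcs_normal N k
    rw [Subgroup.lowerCentralSeries_succ]
    infer_instance

/-- the chain `A, [A,G]B, [[A,G]B,G]B, …` -/
def ch {G : Type*} [Group G] (A B : Subgroup G) : ℕ → Subgroup G
  | 0 => A
  | k + 1 => ⁅ch A B k, (⊤ : Subgroup G)⁆ ⊔ B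

theorem ch_normal {G : Type*} [Group G] (A B : Subgroup G) [hA : A.Normal] [hB : B.Normal] :
    ∀ k, (ch A B k).Normal
  | 0 => hA
  | k + 1 => by
    haveI := ch_normal A B k
    show (⁅ch A B k, (⊤ : Subgroup G)⁆ ⊔ B).Normal
    infer_instance

theorem le_ch {G : Type*} [Group G] (A B : Subgroup G) (h : B ≤ A) : ∀ k, B ≤ ch A B k
  | 0 => h
  | _ + 1 => le_sup_right

theorem ch_succ_le {G : Type*} [Group G] (A B : Subgroup G) [A.Normal] [B.Normal] (h : B ≤ A)
    (k : ℕ) : ch A B (k + 1) ≤ ch A B k := by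
  haveI := ch_normal A B k
  exact sup_le (Subgroup.commutator_le_left _ _) (le_ch A B h k)

theorem ch_mono {G : Type*} [Group G] (A B B' : Subgroup G) (h : B ≤ B') :
    ∀ k, ch A B k ≤ ch A B' k
  | 0 => le_rfl
  | k + 1 => sup_le_sup (Subgroup.commutator_mono (ch_mono A B B' h k) le_rfl) h

open scoped commutatorElement in
theorem le_of_le_comm_sup {G : Type*} [Group G] [Group.IsNilpotent G] (X B : Subgroup G) [B.Normal]
    (h : X ≤ ⁅X, (⊤ : Subgroup G)⁆ ⊔ B) : X ≤ B := by
  have key : ∀ r, X ≤ (⊤ : Subgroup G).lowerCentralSeries r ⊔ B := by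
    intro r
    induction r with
    | zero => simp
    | succ r ih =>
      refine h.trans (sup_le ?_ le_sup_right)
      refine (Subgroup.commutator_mono ih le_rfl).trans ?_
      rw [Subgroup.commutator_le]
      intro x hx g _
      rw [← SetLike.mem_coe, Subgroup.mul_normal] at hx
      obtain ⟨u, hu, b, hb, rfl⟩ := hx
      rw [commutatorElement_mul_left_eq_conj_mul]
      refine Subgroup.mul_mem _ ?_ ?_
      · refine (le_sup_right : B ≤ _) ?_
        have hbg : ⁅b, g⁆ ∈ B := by
          have e : ⁅b, g⁆ = b * (g * b⁻¹ * g⁻¹) := by rw [commutatorElement_def]; group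
          rw [e]
          exact B.mul_mem hb (‹B.Normal›.conj_mem _ (B.inv_mem hb) g)
        exact ‹B.Normal›.conj_mem _ hbg u
      · refine (le_sup_left : (⊤ : Subgroup G).lowerCentralSeries (r + 1) ≤ _) ?_
        rw [Subgroup.lowerCentralSeries_succ]
        exact Subgroup.commutator_mem_commutator hu (Subgroup.mem_top g)
  have := key (Group.nilpotencyClass G)
  rwa [Subgroup.lowerCentralSeries_nilpotencyClass, bot_sup_eq] at this

theorem ch_index {G : Type*} [Group G] [Finite G] {p : ℕ} [hp : Fact p.Prime] (hG : IsPGroup p G)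
    (A B : Subgroup G) [A.Normal] [B.Normal] (h : B ≤ A) :
    ∀ k, ch A B k ≤ B ∨ p ^ k * B.relIndex (ch A B k) ≤ B.relIndex A := by
  haveI : Group.IsNilpotent G := hG.isNilpotent
  intro k
  induction k with
  | zero => right; simp [ch]
  | succ k ih =>
    haveI := ch_normal A B k
    rcases ih with hle | hidx
    · left
      refine sup_le ?_ le_rfl
      exact (Subgroup.commutator_mono hle le_rfl).trans (Subgroup.commutator_le_left _ _)
    · by_cases hlt : ch A B k ≤ ch A B (k + 1)
      · left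
        exact (ch_succ_le A B h k).trans (le_of_le_comm_sup (ch A B k) B hlt)
      · right
        have h1 : (ch A B (k + 1)).relIndex (ch A B k) ≠ 1 := by
          rw [Ne, Subgroup.relIndex_eq_one]; exact hlt
        obtain ⟨a, ha⟩ := hG.exists_card_eq
        have h2 : (ch A B (k + 1)).relIndex (ch A B k) ∣ p ^ a := by
          rw [← ha]
          exact (Subgroup.relIndex_dvd_card _ _).trans (Subgroup.card_subgroup_dvd_card _)
        obtain ⟨j, -, hj⟩ := (Nat.dvd_prime_pow hp.out).mp h2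
        have h3 : p ≤ (ch A B (k + 1)).relIndex (ch A B k) := by
          rw [hj]
          rcases j with _ | j
          · exact absurd (by rw [hj, pow_zero]) h1
          · calc p = p ^ 1 := (pow_one p).symm
              _ ≤ p ^ (j + 1) := Nat.pow_le_pow_right hp.out.pos (by omega)
        have h4 := Subgroup.relIndex_mul_relIndex _ _ _ (le_ch A B h (k + 1)) (ch_succ_le A B h k)
        calc p ^ (k + 1) * B.relIndex (ch A B (k + 1))
            = p ^ k * (B.relIndex (ch A B (k + 1)) * p) := by ring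
          _ ≤ p ^ k * (B.relIndex (ch A B (k + 1)) * (ch A B (k + 1)).relIndex (ch A B k)) :=
              Nat.mul_le_mul_left _ (Nat.mul_le_mul_left _ h3)
          _ = p ^ k * B.relIndex (ch A B k) := by rw [h4]
          _ ≤ B.relIndex A := hidx

/-- Let G be a finite p-group and n ≥ 1, and write γ_1(G) = G, γ_{k+1}(G) = [γ_k(G), G], and likewise γ_k(N) for a subgroup N. Let N be a normal subgroup of G contained in γ_n(G). If i > 1 and γ_{i+1}(N) ≠ 1, then |γ_i(N) : γ_{i+1}(N)| ≥ p^n. -/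
theorem result {G : Type*} [Group G] [Finite G] {p : ℕ} [Fact p.Prime] (hG : IsPGroup p G) (n : ℕ) (hn : 1 ≤ n) (N : Subgroup G) [N.Normal] (hN : N ≤ (⊤ : Subgroup G).lowerCentralSeries (n - 1)) (i : ℕ) (hi : 1 < i) (hne : N.lowerCentralSeries i ≠ ⊥) : p ^ n ≤ (N.lowerCentralSeries i).relIndex (N.lowerCentralSeries (i - 1)) := by
  classical
  have hp : p.Prime := Fact.out
  haveI : Group.IsNilpotent G := hG.isNilpotent
  obtain ⟨i0, rfl⟩ : ∃ i0, i = i0 + 1 := ⟨i - 1, by omega⟩
  rw [Nat.add_sub_cancel]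
  set A := N.lowerCentralSeries i0 with hA
  set B := N.lowerCentralSeries (i0 + 1) with hB
  haveI hAn : A.Normal := lcs_normal N i0
  haveI hBn : B.Normal := lcs_normal N (i0 + 1)
  have hBA : B ≤ A := Subgroup.lowerCentralSeries_antitone N (Nat.le_succ i0)
  have hBdef : B = ⁅A, N⁆ := rfl
  by_contra hcon
  push Not at hcon
  obtain ⟨a, ha⟩ := hG.exists_card_eq
  have hdvd : B.relIndex A ∣ p ^ a := by
    rw [← ha]
    exact (Subgroup.relIndex_dvd_card _ _).trans (Subgroup.card_subgroup_dvd_card _)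
  obtain ⟨m, -, hm⟩ := (Nat.dvd_prime_pow hp).mp hdvd
  have hmn : m < n := by
    rw [hm] at hcon
    exact (Nat.pow_lt_pow_iff_right hp.one_lt).mp hcon
  -- the chain reaches B after m steps
  have hchm : ch A B m ≤ B := by
    rcases ch_index hG A B hBA m with h | h
    · exact h
    · rw [hm] at h
      have h1 : B.relIndex (ch A B m) ≤ 1 := by
        have h2 : p ^ m * B.relIndex (ch A B m) ≤ p ^ m * 1 := by rw [mul_one]; exact h
        exact Nat.le_of_mul_le_mul_left h2 (pow_pos hp.pos m)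
      have h3 : B.relIndex (ch A B m) ≠ 0 := by
        intro h0
        have h4 : B.relIndex (ch A B m) ∣ p ^ a := by
          rw [← ha]
          exact (Subgroup.relIndex_dvd_card _ _).trans (Subgroup.card_subgroup_dvd_card _)
        rw [h0] at h4
        exact (pow_ne_zero _ hp.ne_zero) (Nat.eq_zero_of_zero_dvd h4)
      have h5 : B.relIndex (ch A B m) = 1 := by omega
      exact Subgroup.relIndex_eq_one.mp h5
  -- the second chain
  have hnorm : ∀ k, (ch A ⊥ k).Normal := fun k => ch_normal A ⊥ k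
  have hdesc : ∀ k, ch A ⊥ (k + 1) ≤ ch A ⊥ k := fun k => ch_succ_le A ⊥ bot_le k
  have hL : ∀ k, ⁅ch A ⊥ k, (⊤ : Subgroup G)⁆ ≤ ch A ⊥ (k + 1) := fun k => le_sup_left
  have h4206 := Cfsg.Agent.S4206.result (ch A ⊥) hnorm hdesc ⊤ hL 0 m
  have hstep : ch A ⊥ (0 + m + 1) ≤ ⁅B, (⊤ : Subgroup G)⁆ := by
    rw [Nat.zero_add]
    show ⁅ch A ⊥ m, (⊤ : Subgroup G)⁆ ⊔ ⊥ ≤ _
    rw [sup_bot_eq]
    exact Subgroup.commutator_mono ((ch_mono A ⊥ B bot_le m).trans hchm) le_rfl
  have hNle : N ≤ (⊤ : Subgroup G).lowerCentralSeries m :=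
    hN.trans (Subgroup.lowerCentralSeries_antitone ⊤ (by omega))
  have hBle : B ≤ ⁅B, (⊤ : Subgroup G)⁆ := by
    rw [hBdef]
    refine (Subgroup.commutator_mono le_rfl hNle).trans ?_
    exact h4206.trans hstep
  have hBbot : B ≤ ⊥ := le_of_le_comm_sup B ⊥ (by rw [sup_bot_eq]; exact hBle)
  exact hne (le_bot_iff.mp hBbot)

end Cfsg.Agent.S3781
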