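import Cfsg.Statements.S3785
import Mathlib
import Cfsg.Agent.Lib.Helper21.CoprimeP
import Cfsg.Agent.Lib.Helper21.FittingK

set_option autoImplicit false
open Cfsg

namespace Cfsg.Agent.S3785

open Cfsg.Agent.Lib.Helper21

/-- Let G be a finite solvable group whose Fitting subgroup F(G) has odd order. If an element g of G commutes with every element of prime order of F(G), then g ∈ F(G). -/
theorem result {G : Type*} [Group G] [Finite G] (hG : Group.IsSolvable G) (hodd : Odd (Nat.card (Cfsg.fittingSubgroup G))) (g : G) (hg : ∀ x ∈ Cfsg.fittingSubgroup G, (orderOf x).Prime → g * x = x * g) : g ∈ Cfsg.fittingSubgroup G := by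
  classical
  haveI := hG
  have hKn : (Subgroup.centralizer
      {x : G | x ∈ Cfsg.fittingSubgroup G ∧ (orderOf x).Prime}).Normal := by
    constructor
    intro k hk n
    rw [Subgroup.mem_centralizer_iff] at hk ⊢
    intro x hx
    have hx' : n⁻¹ * x * n ∈ {x : G | x ∈ Cfsg.fittingSubgroup G ∧ (orderOf x).Prime} := by
      refine ⟨?_, ?_⟩
      · have := (fittingSubgroup_normal (G := G)).conj_mem x hx.1 n⁻¹
        simpa using this
      · have h1 : orderOf (n⁻¹ * x * n) = orderOf x := by
          have := (MulAut.conj n⁻¹).orderOf_eq x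
          simpa using this
        rw [h1]; exact hx.2
    have h2 := hk _ hx'
    calc x * (n * k * n⁻¹) = n * ((n⁻¹ * x * n) * k) * n⁻¹ := by group
      _ = n * (k * (n⁻¹ * x * n)) * n⁻¹ := by rw [h2]
      _ = n * k * n⁻¹ * x := by group
  haveI := hKn
  have hK : Subgroup.centralizer {x : G | x ∈ Cfsg.fittingSubgroup G ∧ (orderOf x).Prime} ≤
      Cfsg.fittingSubgroup G := by
    apply le_fitting_of_coprime_centralize
    intro q p hq hp hpq x hx hxq y hy
    haveI := Fact.mk hp
    have hOpF : Cfsg.pCore p G ≤ Cfsg.fittingSubgroup G := pCore_le_fittingSubgroup p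
    have hOp : IsPGroup p (Cfsg.pCore p G) := pCore_isPGroup p
    rcases hp.eq_two_or_odd' with hp2 | hpodd
    · subst hp2
      have hy1 : y = 1 := by
        obtain ⟨i, hi⟩ := IsPGroup.iff_card.mp hOp
        have h1 : Odd (Nat.card (Cfsg.pCore 2 G)) := Odd.of_dvd_nat hodd (Subgroup.card_dvd_of_le hOpF)
        rcases i with _ | i
        · rw [pow_zero] at hi
          have := Subgroup.eq_bot_of_card_eq _ hi
          rw [this] at hy
          exact Subgroup.mem_bot.mp hy
        · exfalso
          rw [hi] at h1
          have h2 : Even (2 ^ (i + 1)) := ⟨2 ^ i, by ring⟩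
          exact (Nat.not_even_iff_odd.mpr h1) h2
      rw [hy1]; simp
    · have hxcop : (orderOf x).Coprime p := by
        obtain ⟨j, hj⟩ := hxq
        have h1 : orderOf x ∣ q ^ j := orderOf_dvd_of_pow_eq_one hj
        exact Nat.Coprime.coprime_dvd_left h1
          (Nat.Coprime.pow_left j ((Nat.coprime_primes hq hp).mpr (Ne.symm hpq)))
      have hdvd : p ∣ p * (p - 1) / 2 := by
        obtain ⟨t, ht⟩ := hpodd
        have h2 : 2 ∣ p - 1 := ⟨t, by omega⟩
        rw [Nat.mul_div_assoc p h2]
        exact dvd_mul_right p _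
      have hxN : x ∈ Subgroup.normalizer ((Cfsg.pCore p G : Subgroup G) : Set G) := by
        haveI : (Cfsg.pCore p G).Normal := inferInstance
        rw [Subgroup.normalizer_eq_top]; trivial
      have hall := centralizes_of_centralizes_omega (p := p) p dvd_rfl hdvd x hxcop
        (Nat.card (Cfsg.pCore p G)) (Cfsg.pCore p G) le_rfl hOp hxN (by
          intro z hz hzp
          by_cases hz1 : z = 1
          · rw [hz1]; group
          · have hzo : orderOf z = p := orderOf_eq_prime hzp hz1
            have hzΩ : z ∈ {x : G | x ∈ Cfsg.fittingSubgroup G ∧ (orderOf x).Prime} :=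
              ⟨hOpF hz, hzo ▸ hp⟩
            have h3 := (Subgroup.mem_centralizer_iff.mp hx) z hzΩ
            rw [← h3]; group)
      have h4 := hall y hy
      calc x * y = (x * y * x⁻¹) * x := by group
        _ = y * x := by rw [h4]
  apply hK
  rw [Subgroup.mem_centralizer_iff]
  intro x hx
  exact (hg x hx.1 hx.2).symm

end Cfsg.Agent.S3785
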