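import Cfsg.Statements.S3790
import Mathlib
import Cfsg.Agent.Lib.Helper23.PLen

set_option autoImplicit false
open Cfsg

namespace Cfsg.Agent.S3790


open Cfsg.Agent.Lib.Helper6 Cfsg.Agent.Lib.Helper14 Cfsg.Agent.Lib.Helper23

universe u

theorem aux (p : ℕ) [hp : Fact p.Prime] (T : Finset ℕ) : (∀ s ∈ T, s.Prime ∧ s ≠ p) →
    ∀ (G : Type u) [Group G] [Finite G], Group.IsSolvable G → ∀ (l : ℕ → ℕ),
      (∀ s : ℕ, s.Prime → s ∣ Nat.card G → s ≠ p → s ∈ T) →
      (∀ s ∈ T, PLengthLE s (l s) G) →
      PLengthLE p (∏ s ∈ T, (1 + l s)) G := by
  induction T using Finset.induction_on with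
  | empty =>
    intro _ G _ _ hsol l hcov _
    rw [Finset.prod_empty]
    apply plen_one_of_isPGroup
    have h1 : Nat.card G = p ^ (Nat.card G).primeFactorsList.length := by
      apply Nat.eq_prime_pow_of_unique_prime_dvd Nat.card_pos.ne'
      intro s hs hdvd
      by_contra hsp
      exact absurd (hcov s hs hdvd hsp) (Finset.notMem_empty s)
    exact IsPGroup.of_card h1
  | insert q T hqT ih =>
    intro hT G _ _ hsol l hcov hlen
    have hq := hT q (Finset.mem_insert_self q T)
    haveI : Fact q.Prime := ⟨hq.1⟩
    have hT' : ∀ s ∈ T, s.Prime ∧ s ≠ p := fun s hs => hT s (Finset.mem_insert_of_mem hs)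
    have claim : ∀ k : ℕ, ∀ (G : Type u) [Group G] [Finite G], Group.IsSolvable G →
        ∀ (l : ℕ → ℕ), l q = k →
        (∀ s : ℕ, s.Prime → s ∣ Nat.card G → s ≠ p → s ∈ insert q T) →
        (∀ s ∈ insert q T, PLengthLE s (l s) G) →
        PLengthLE p (∏ s ∈ insert q T, (1 + l s)) G := by
      intro k
      induction k with
      | zero =>
        intro G _ _ hsol l hlq hcov hlen
        have hKcop : (Nat.card ↥(upperPSeries q G 1).1).Coprime q := by
          have := ups_relIndex_even (p := q) (G := G) (m := 0) (by decide)
          rwa [upperPSeries_zero, Subgroup.relIndex_bot_left] at this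
        have h0 := hlen q (Finset.mem_insert_self q T)
        rw [hlq] at h0
        unfold PLengthLE at h0
        rw [show 2 * 0 + 1 = 1 from rfl] at h0
        rw [h0, Subgroup.card_top] at hKcop
        rw [Finset.prod_insert hqT, hlq, add_zero, one_mul]
        apply ih hT' G hsol l
        · intro s hs hdvd hsp
          rcases Finset.mem_insert.mp (hcov s hs hdvd hsp) with rfl | h1
          · exact absurd hdvd ((Nat.Prime.coprime_iff_not_dvd hs).mp hKcop.symm)
          · exact h1
        · intro s hs
          exact hlen s (Finset.mem_insert_of_mem hs)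
      | succ k ihk =>
        intro G _ _ hsol l hlq hcov hlen
        haveI := hsol
        have hKcop : (Nat.card ↥(upperPSeries q G 1).1).Coprime q := by
          have := ups_relIndex_even (p := q) (G := G) (m := 0) (by decide)
          rwa [upperPSeries_zero, Subgroup.relIndex_bot_left] at this
        have hK : PLengthLE p (∏ s ∈ T, (1 + l s)) ↥(upperPSeries q G 1).1 := by
          apply ih hT' _ inferInstance l
          · intro s hs hdvd hsp
            have h1 := hcov s hs (hdvd.trans (Subgroup.card_subgroup_dvd_card _)) hsp
            rcases Finset.mem_insert.mp h1 with rfl | h1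
            · exact absurd hdvd ((Nat.Prime.coprime_iff_not_dvd hs).mp hKcop.symm)
            · exact h1
          · intro s hs
            haveI : Fact s.Prime := ⟨(hT' s hs).1⟩
            exact plen_subgroup _ (hlen s (Finset.mem_insert_of_mem hs))
        have hKM : (upperPSeries q G 1).1 ≤ (upperPSeries q G 2).1 := ups_mono 1
        have hM : PLengthLE p (∏ s ∈ T, (1 + l s)) ↥(upperPSeries q G 2).1 := by
          have h1 : PLengthLE p (∏ s ∈ T, (1 + l s))
              ↥((upperPSeries q G 1).1.subgroupOf (upperPSeries q G 2).1) :=
            plen_of_surjective (Subgroup.subgroupOfEquivOfLe hKM).symm.toMonoidHom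
              (Subgroup.subgroupOfEquivOfLe hKM).symm.surjective hK
          have h2 : PLengthLE p 0 (↥(upperPSeries q G 2).1 ⧸
              (upperPSeries q G 1).1.subgroupOf (upperPSeries q G 2).1) := by
            apply plen_zero_of_coprime
            rw [← Subgroup.index_eq_card]
            obtain ⟨j, hj⟩ := ups_relIndex_odd (p := q) (G := G) (m := 1) (by decide)
            have h3 : ((upperPSeries q G 1).1.subgroupOf (upperPSeries q G 2).1).index = q ^ j :=
              hj
            rw [h3]
            exact Nat.Coprime.pow_left j ((Nat.coprime_primes hq.1 hp.out).mpr hq.2)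
          have h3 := plen_ext _ h1 h2
          rwa [add_zero] at h3
        have hlk : PLengthLE q k (G ⧸ (upperPSeries q G 2).1) :=
          plen_quotient_two (hlq ▸ hlen q (Finset.mem_insert_self q T))
        have h4 := ihk (G ⧸ (upperPSeries q G 2).1) inferInstance (Function.update l q k)
          (Function.update_self q k l) (by
            intro s hs hdvd hsp
            exact hcov s hs (hdvd.trans (Subgroup.card_quotient_dvd_card _)) hsp) (by
            intro s hs
            haveI : Fact s.Prime := ⟨(hT s hs).1⟩
            by_cases hsq : s = q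
            · subst hsq
              rw [Function.update_self]
              exact hlk
            · rw [Function.update_of_ne hsq]
              exact plen_of_surjective (QuotientGroup.mk' _) (QuotientGroup.mk'_surjective _)
                (hlen s hs))
        have h5 := plen_ext _ hM h4
        have e : ∀ s ∈ T, 1 + Function.update l q k s = 1 + l s := by
          intro s hs
          have hsq : s ≠ q := fun h => hqT (h ▸ hs)
          rw [Function.update_of_ne hsq]
        rw [Finset.prod_insert hqT, Function.update_self, Finset.prod_congr rfl e] at h5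
        rw [Finset.prod_insert hqT, hlq]
        have e2 : (1 + (k + 1)) * ∏ s ∈ T, (1 + l s) =
            ∏ s ∈ T, (1 + l s) + (1 + k) * ∏ s ∈ T, (1 + l s) := by ring
        rw [e2]
        exact h5
    exact claim (l q) G hsol l rfl hcov hlen

/-- Let G be a finite solvable group and p a prime. Suppose p₁, …, p_r are distinct primes, all different from p, that include every prime dividing the order of G other than p, and that G has p_i-length at most l_i for each i. Then G has p-length at most the product of the numbers 1 + l_i. -/
theorem result {G : Type*} [Group G] [Finite G] (hG : Group.IsSolvable G) (p : ℕ) [Fact p.Prime] (r : ℕ) (q : Fin r → ℕ) (hq : ∀ i, (q i).Prime ∧ q i ≠ p) (hinj : Function.Injective q) (hcover : ∀ s : ℕ, s.Prime → s ∣ Nat.card G → s ≠ p → ∃ i, q i = s) (l : Fin r → ℕ) (hl : ∀ i, Cfsg.PLengthLE (q i) (l i) G) : Cfsg.PLengthLE p (Finset.univ.prod fun i => 1 + l i) G := by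
  classical
  have h := aux p (Finset.univ.image q) ?_ G hG (Function.extend q l 0) ?_ ?_
  · rw [Finset.prod_image (fun i _ j _ h => hinj h)] at h
    have e : ∀ i ∈ (Finset.univ : Finset (Fin r)),
        1 + Function.extend q l 0 (q i) = 1 + l i := by
      intro i _
      rw [hinj.extend_apply]
    rw [Finset.prod_congr rfl e] at h
    exact h
  · intro s hs
    obtain ⟨i, -, rfl⟩ := Finset.mem_image.mp hs
    exact hq i
  · intro s hs hdvd hsp
    obtain ⟨i, rfl⟩ := hcover s hs hdvd hsp
    exact Finset.mem_image_of_mem q (Finset.mem_univ i)
  · intro s hs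
    obtain ⟨i, -, rfl⟩ := Finset.mem_image.mp hs
    rw [hinj.extend_apply]
    exact hl i

end Cfsg.Agent.S3790
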