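import Cfsg.Statements.S3791
import Mathlib
import Cfsg.Agent.Lib.Helper23.PLen
import Cfsg.Agent.Lib.Helper1.SZ

set_option autoImplicit false
open Cfsg

namespace Cfsg.Agent.S3791


open Cfsg.Agent.Lib.Helper6 Cfsg.Agent.Lib.Helper14 Cfsg.Agent.Lib.Helper23

universe u

theorem ds_le_of_quot {G : Type u} [Group G] (N : Subgroup G) [N.Normal] (k : ℕ)
    (h : derivedSeries (G ⧸ N) k = ⊥) : derivedSeries G k ≤ N := by
  have h1 := map_derivedSeries_eq (QuotientGroup.mk'_surjective N) k
  rw [h] at h1
  have h2 : derivedSeries G k ≤ (QuotientGroup.mk' N).ker := (Subgroup.map_eq_bot_iff _).mp h1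
  rwa [QuotientGroup.ker_mk'] at h2

theorem ds_add_le {G : Type u} [Group G] (M : Subgroup G) (a : ℕ) (h : derivedSeries G a ≤ M)
    (b : ℕ) : derivedSeries G (a + b) ≤ (derivedSeries ↥M b).map M.subtype := by
  induction b with
  | zero =>
    rw [derivedSeries_zero, ← MonoidHom.range_eq_map, Subgroup.range_subtype]
    exact h
  | succ b ih =>
    rw [← add_assoc, derivedSeries_succ, derivedSeries_succ, Subgroup.map_commutator]
    exact Subgroup.commutator_mono ih ih

theorem ds_sub {G : Type u} [Group G] {M S : Subgroup G} (h : M ≤ S) (k : ℕ)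
    (hS : derivedSeries ↥S k = ⊥) : derivedSeries ↥M k = ⊥ := by
  have h1 := map_derivedSeries_le_derivedSeries (Subgroup.inclusion h) k
  rw [hS, le_bot_iff] at h1
  exact (Subgroup.map_eq_bot_iff_of_injective _ (Subgroup.inclusion_injective h)).mp h1

theorem aux (n : ℕ) : ∀ (G : Type u) [Group G] [Finite G], Nat.card G = n → Group.IsSolvable G →
    ∀ (T : Finset ℕ) (d l : ℕ → ℕ), (∀ s ∈ T, s.Prime) →
      (∀ s : ℕ, s.Prime → s ∣ Nat.card G → s ∈ T) →
      (∀ s ∈ T, ∀ S : Sylow s G, derivedSeries ↥(S : Subgroup G) (d s) = ⊥) →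
      (∀ s ∈ T, PLengthLE s (l s) G) →
      derivedSeries G (∑ s ∈ T, d s * l s) = ⊥ := by
  induction n using Nat.strong_induction_on with
  | _ n IH =>
  intro G _ _ hcard hsol T d l hTp hcov hSyl hlen
  rcases subsingleton_or_nontrivial G with hsub | hnt
  · exact Subsingleton.elim _ _
  have hquot : ∀ (N : Subgroup G) [N.Normal], N ≠ ⊥ → ∀ l' : ℕ → ℕ,
      (∀ s ∈ T, PLengthLE s (l' s) (G ⧸ N)) →
      derivedSeries G (∑ s ∈ T, d s * l' s) ≤ N := by
    intro N _ hN l' hl'
    apply ds_le_of_quot
    have hlt : Nat.card (G ⧸ N) < n := by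
      rw [← hcard, ← Subgroup.index_eq_card]
      have h1 := Subgroup.card_mul_index N
      have h2 : 1 < Nat.card N := (Subgroup.one_lt_card_iff_ne_bot N).mpr hN
      have h3 : 0 < N.index := Nat.pos_of_ne_zero Subgroup.index_ne_zero_of_finite
      nlinarith
    refine IH _ hlt (G ⧸ N) rfl inferInstance T d l' hTp ?_ ?_ hl'
    · intro s hs hdvd
      exact hcov s hs (hdvd.trans (Subgroup.card_quotient_dvd_card N))
    · intro s hsT S
      haveI : Fact s.Prime := ⟨hTp s hsT⟩
      obtain ⟨S0, rfl⟩ := Sylow.mapSurjective_surjective (QuotientGroup.mk'_surjective N) s S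
      show derivedSeries ↥((S0 : Subgroup G).map (QuotientGroup.mk' N)) (d s) = ⊥
      rw [← map_derivedSeries_eq
        ((QuotientGroup.mk' N).subgroupMap_surjective (S0 : Subgroup G)) (d s), hSyl s hsT S0,
        Subgroup.map_bot]
  obtain ⟨s, hs, Q, hQn, hQne, hQp⟩ := Cfsg.Agent.Lib.Helper1.exists_normal_pgroup G
  by_cases hB : ∃ t : ℕ, t.Prime ∧ t ≠ s ∧ ∃ R : Subgroup G, R.Normal ∧ R ≠ ⊥ ∧ IsPGroup t R
  · obtain ⟨t, ht, hts, R, hRn, hRne, hRp⟩ := hB
    haveI := hQn
    haveI := hRn
    have h1 := hquot Q hQne l (fun s' hs' => by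
      haveI : Fact s'.Prime := ⟨hTp s' hs'⟩
      exact plen_of_surjective (QuotientGroup.mk' Q) (QuotientGroup.mk'_surjective Q)
        (hlen s' hs'))
    have h2 := hquot R hRne l (fun s' hs' => by
      haveI : Fact s'.Prime := ⟨hTp s' hs'⟩
      exact plen_of_surjective (QuotientGroup.mk' R) (QuotientGroup.mk'_surjective R)
        (hlen s' hs'))
    have hdis : Q ⊓ R = ⊥ := by
      haveI : Fact s.Prime := ⟨hs⟩
      haveI : Fact t.Prime := ⟨ht⟩
      exact (IsPGroup.disjoint_of_ne s t (Ne.symm hts) Q R hQp hRp).eq_bot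
    exact le_bot_iff.mp (hdis ▸ le_inf h1 h2)
  · push Not at hB
    haveI : Fact s.Prime := ⟨hs⟩
    have hU1 : (upperPSeries s G 1).1 = ⊥ := by
      by_contra hne
      haveI : Nontrivial ↥(upperPSeries s G 1).1 := (Subgroup.nontrivial_iff_ne_bot _).mpr hne
      obtain ⟨t, ht, Q', hQ'n, hQ'ne, hQ'p⟩ :=
        Cfsg.Agent.Lib.Helper1.exists_normal_pgroup ↥(upperPSeries s G 1).1
      haveI : Fact t.Prime := ⟨ht⟩
      have hcop : (Nat.card ↥(upperPSeries s G 1).1).Coprime s := by
        have := ups_relIndex_even (p := s) (G := G) (m := 0) (by decide)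
        rwa [upperPSeries_zero, Subgroup.relIndex_bot_left] at this
      have hts : t ≠ s := by
        rintro rfl
        obtain ⟨k, hk⟩ := IsPGroup.iff_card.mp hQ'p
        have hk0 : k ≠ 0 := by
          rintro rfl
          rw [pow_zero] at hk
          exact hQ'ne (Subgroup.eq_bot_of_card_eq Q' hk)
        have h1 : t ∣ Nat.card ↥Q' := by
          rw [hk]
          exact dvd_pow_self t hk0
        have h2 : t ∣ Nat.card ↥(upperPSeries t G 1).1 :=
          h1.trans (Subgroup.card_subgroup_dvd_card Q')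
        exact (Nat.Prime.coprime_iff_not_dvd ht).mp hcop.symm h2
      have hcore : pCore t ↥(upperPSeries s G 1).1 ≠ ⊥ := by
        intro h
        exact hQ'ne (le_bot_iff.mp (h ▸ le_pCore t hQ'n hQ'p))
      refine hB t ht hts _ (pCore_map_subtype_normal (upperPSeries s G 1).1) ?_
        ((pCore_isPGroup t).map _)
      intro h
      exact hcore ((Subgroup.map_eq_bot_iff_of_injective _ (Subgroup.subtype_injective _)).mp h)
    have hMp : IsPGroup s ↥(upperPSeries s G 2).1 := by
      obtain ⟨k, hk⟩ := ups_relIndex_odd (p := s) (G := G) (m := 1) (by decide)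
      rw [hU1, Subgroup.relIndex_bot_left] at hk
      exact IsPGroup.of_card hk
    have hQM : Q ≤ (upperPSeries s G 2).1 := by
      apply ups_step_odd (A := ⊥) hQn (m := 1) (by decide) bot_le
      rw [Subgroup.relIndex_bot_left]
      exact IsPGroup.iff_card.mp hQp
    have hMne : (upperPSeries s G 2).1 ≠ ⊥ := fun h => hQne (le_bot_iff.mp (h ▸ hQM))
    have hsT : s ∈ T := by
      apply hcov s hs
      obtain ⟨k, hk⟩ := IsPGroup.iff_card.mp hQp
      have hk0 : k ≠ 0 := by
        rintro rfl
        rw [pow_zero] at hk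
        exact hQne (Subgroup.eq_bot_of_card_eq Q hk)
      have h1 : s ∣ Nat.card ↥Q := by
        rw [hk]
        exact dvd_pow_self s hk0
      exact h1.trans (Subgroup.card_subgroup_dvd_card Q)
    have hl1 : l s ≠ 0 := by
      intro h0
      have h1 := hlen s hsT
      rw [h0] at h1
      unfold PLengthLE at h1
      rw [show 2 * 0 + 1 = 1 from rfl, hU1] at h1
      exact bot_ne_top h1
    obtain ⟨k, hk⟩ := Nat.exists_eq_succ_of_ne_zero hl1
    have hlk : PLengthLE s k (G ⧸ (upperPSeries s G 2).1) :=
      plen_quotient_two (by rw [← Nat.succ_eq_add_one, ← hk]; exact hlen s hsT)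
    have h1 := hquot (upperPSeries s G 2).1 hMne (Function.update l s k) (by
      intro t htT
      haveI : Fact t.Prime := ⟨hTp t htT⟩
      by_cases hts : t = s
      · subst hts
        rw [Function.update_self]
        exact hlk
      · rw [Function.update_of_ne hts]
        exact plen_of_surjective (QuotientGroup.mk' _) (QuotientGroup.mk'_surjective _)
          (hlen t htT))
    have hsum : ∑ t ∈ T, d t * l t = (∑ t ∈ T, d t * Function.update l s k t) + d s := by
      rw [← Finset.add_sum_erase T _ hsT,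
        ← Finset.add_sum_erase T (fun t => d t * Function.update l s k t) hsT]
      have e : ∀ t ∈ T.erase s, d t * Function.update l s k t = d t * l t := by
        intro t ht
        rw [Function.update_of_ne (Finset.ne_of_mem_erase ht)]
      rw [Finset.sum_congr rfl e, Function.update_self, hk, Nat.succ_eq_add_one]
      ring
    rw [hsum]
    obtain ⟨S, hMS⟩ := hMp.exists_le_sylow
    have h2 := ds_add_le (upperPSeries s G 2).1 _ h1 (d s)
    rw [ds_sub hMS (d s) (hSyl s hsT S), Subgroup.map_bot] at h2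
    exact le_bot_iff.mp h2

/-- The Hall–Higman bound on derived length: let G be a finite solvable group, let p₁, …, p_r be distinct primes that include every prime dividing the order of G, and suppose that for each i the Sylow p_i-subgroups of G have derived length at most d_i and G has p_i-length at most l_i. Then G has derived length at most Σ d_i l_i. -/
theorem result {G : Type*} [Group G] [Finite G] (hG : Group.IsSolvable G) (r : ℕ) (q : Fin r → ℕ) (hq : ∀ i, (q i).Prime) (hinj : Function.Injective q) (hcover : ∀ s : ℕ, s.Prime → s ∣ Nat.card G → ∃ i, q i = s) (d l : Fin r → ℕ) (hd : ∀ i, ∀ P : Subgroup G, (haveI := Fact.mk (hq i); ∃ S : Sylow (q i) G, (S : Subgroup G) = P) → derivedSeries ↥P (d i) = ⊥) (hl : ∀ i, Cfsg.PLengthLE (q i) (l i) G) : derivedSeries G (Finset.univ.sum fun i => d i * l i) = ⊥ := by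
  classical
  have h := aux (Nat.card G) G rfl hG (Finset.univ.image q) (Function.extend q d 0)
    (Function.extend q l 0) ?_ ?_ ?_ ?_
  · rw [Finset.sum_image (fun i _ j _ h => hinj h)] at h
    have e : ∀ i ∈ (Finset.univ : Finset (Fin r)),
        Function.extend q d 0 (q i) * Function.extend q l 0 (q i) = d i * l i := by
      intro i _
      rw [hinj.extend_apply, hinj.extend_apply]
    rw [Finset.sum_congr rfl e] at h
    exact h
  · intro s hs
    obtain ⟨i, -, rfl⟩ := Finset.mem_image.mp hs
    exact hq i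
  · intro s hs hdvd
    obtain ⟨i, rfl⟩ := hcover s hs hdvd
    exact Finset.mem_image_of_mem q (Finset.mem_univ i)
  · intro s hs S
    obtain ⟨i, -, rfl⟩ := Finset.mem_image.mp hs
    rw [hinj.extend_apply]
    exact hd i (S : Subgroup G) ⟨S, rfl⟩
  · intro s hs
    obtain ⟨i, -, rfl⟩ := Finset.mem_image.mp hs
    rw [hinj.extend_apply]
    exact hl i

end Cfsg.Agent.S3791
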