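import Cfsg.Statements.S3799
import Cfsg.Agent.Lib.Helper18.PGroupFrat

set_option autoImplicit false
open Cfsg

namespace Cfsg.Agent.S3799

open Cfsg.Agent.Lib.Helper18
open scoped commutatorElement

/-- The Heisenberg group of dimension `2n+1` over `ZMod p`. -/
structure Heis (n p : ℕ) : Type where
  a : Fin n → ZMod p
  b : Fin n → ZMod p
  c : ZMod p

variable {n p : ℕ}

theorem heis_ext {d e : Heis n p} (ha : d.a = e.a) (hb : d.b = e.b) (hc : d.c = e.c) : d = e := by
  cases d; cases e; simp only at ha hb hc; subst ha; subst hb; subst hc; rfl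

instance instGroupHeis : Group (Heis n p) where
  mul d e := ⟨d.a + e.a, d.b + e.b, d.c + e.c + d.a ⬝ᵥ e.b⟩
  one := ⟨0, 0, 0⟩
  inv d := ⟨-d.a, -d.b, -d.c + d.a ⬝ᵥ d.b⟩
  mul_assoc := by
    intro x y z
    apply heis_ext
    · show x.a + y.a + z.a = x.a + (y.a + z.a)
      rw [add_assoc]
    · show x.b + y.b + z.b = x.b + (y.b + z.b)
      rw [add_assoc]
    · show x.c + y.c + x.a ⬝ᵥ y.b + z.c + (x.a + y.a) ⬝ᵥ z.b =
        x.c + (y.c + z.c + y.a ⬝ᵥ z.b) + x.a ⬝ᵥ (y.b + z.b)
      rw [add_dotProduct, dotProduct_add]; ring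
  one_mul := by
    intro x
    apply heis_ext
    · show 0 + x.a = x.a
      rw [zero_add]
    · show 0 + x.b = x.b
      rw [zero_add]
    · show 0 + x.c + (0 : Fin n → ZMod p) ⬝ᵥ x.b = x.c
      rw [zero_dotProduct, zero_add, add_zero]
  mul_one := by
    intro x
    apply heis_ext
    · show x.a + 0 = x.a
      rw [add_zero]
    · show x.b + 0 = x.b
      rw [add_zero]
    · show x.c + 0 + x.a ⬝ᵥ (0 : Fin n → ZMod p) = x.c
      rw [dotProduct_zero, add_zero, add_zero]
  inv_mul_cancel := by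
    intro x
    apply heis_ext
    · show -x.a + x.a = 0
      rw [neg_add_cancel]
    · show -x.b + x.b = 0
      rw [neg_add_cancel]
    · show -x.c + x.a ⬝ᵥ x.b + x.c + (-x.a) ⬝ᵥ x.b = 0
      rw [neg_dotProduct]; ring

@[simp] theorem mul_a (d e : Heis n p) : (d * e).a = d.a + e.a := rfl
@[simp] theorem mul_b (d e : Heis n p) : (d * e).b = d.b + e.b := rfl
@[simp] theorem mul_c (d e : Heis n p) : (d * e).c = d.c + e.c + d.a ⬝ᵥ e.b := rfl
@[simp] theorem one_a : (1 : Heis n p).a = 0 := rfl
@[simp] theorem one_b : (1 : Heis n p).b = 0 := rfl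
@[simp] theorem one_c : (1 : Heis n p).c = 0 := rfl
@[simp] theorem inv_a (d : Heis n p) : (d⁻¹).a = -d.a := rfl
@[simp] theorem inv_b (d : Heis n p) : (d⁻¹).b = -d.b := rfl
@[simp] theorem inv_c (d : Heis n p) : (d⁻¹).c = -d.c + d.a ⬝ᵥ d.b := rfl

/-- The underlying triple. -/
def equivProd : Heis n p ≃ (Fin n → ZMod p) × (Fin n → ZMod p) × ZMod p where
  toFun d := (d.a, d.b, d.c)
  invFun x := ⟨x.1, x.2.1, x.2.2⟩
  left_inv _ := rfl
  right_inv _ := rfl

instance instFiniteHeis [Fact p.Prime] : Finite (Heis n p) := Finite.of_equiv _ equivProd.symm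

theorem card_heis : Nat.card (Heis n p) = p ^ (2 * n + 1) := by
  rw [Nat.card_congr equivProd, Nat.card_prod, Nat.card_prod, Nat.card_fun, Nat.card_zmod,
    Nat.card_eq_fintype_card, Fintype.card_fin]
  ring

theorem mem_center_iff' (d : Heis n p) :
    d ∈ Subgroup.center (Heis n p) ↔ d.a = 0 ∧ d.b = 0 := by
  rw [Subgroup.mem_center_iff]
  constructor
  · intro h
    constructor
    · funext i
      have := congrArg Heis.c (h ⟨0, Pi.single i 1, 0⟩)
      simp at this
      exact this
    · funext i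
      have := congrArg Heis.c (h ⟨Pi.single i 1, 0, 0⟩)
      simp at this
      exact this
  · rintro ⟨ha, hb⟩ g
    apply heis_ext <;> simp [ha, hb, add_comm]

theorem card_center : Nat.card (Subgroup.center (Heis n p)) = p := by
  have e : ZMod p ≃ Subgroup.center (Heis n p) :=
    { toFun := fun c => ⟨⟨0, 0, c⟩, (mem_center_iff' _).2 ⟨rfl, rfl⟩⟩
      invFun := fun d => d.1.c
      left_inv := fun c => rfl
      right_inv := fun d => by
        obtain ⟨ha, hb⟩ := (mem_center_iff' d.1).1 d.2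
        apply Subtype.ext
        apply heis_ext
        · exact ha.symm
        · exact hb.symm
        · rfl }
  rw [← Nat.card_congr e, Nat.card_zmod]

theorem pow_formula (d : Heis n p) (k : ℕ) :
    (d ^ k).a = k • d.a ∧ (d ^ k).b = k • d.b ∧
      (d ^ k).c = k * d.c + ((k.choose 2 : ℕ) : ZMod p) * (d.a ⬝ᵥ d.b) := by
  induction k with
  | zero => simp
  | succ k ih =>
    obtain ⟨ha, hb, hc⟩ := ih
    refine ⟨?_, ?_, ?_⟩
    · rw [pow_succ, mul_a, ha, succ_nsmul]
    · rw [pow_succ, mul_b, hb, succ_nsmul]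
    · rw [pow_succ, mul_c, hc, ha, smul_dotProduct, Nat.choose_succ_succ, Nat.choose_one_right]
      simp only [nsmul_eq_mul]
      push_cast
      ring

theorem pow_p [hp : Fact p.Prime] (hp2 : p ≠ 2) (d : Heis n p) : d ^ p = 1 := by
  obtain ⟨ha, hb, hc⟩ := pow_formula d p
  have h0 : ((p : ℕ) : ZMod p) = 0 := ZMod.natCast_self p
  have h2 : ((p.choose 2 : ℕ) : ZMod p) = 0 := by
    rw [ZMod.natCast_eq_zero_iff]
    apply Nat.Prime.dvd_choose_self hp.out (by norm_num)
    have := hp.out.two_le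
    omega
  apply heis_ext
  · rw [ha]; funext i; simp
  · rw [hb]; funext i; simp
  · rw [hc, h0, h2]; simp

theorem comm_mem_center (x y : Heis n p) : x * y * x⁻¹ * y⁻¹ ∈ Subgroup.center (Heis n p) := by
  rw [mem_center_iff']
  constructor
  · simp only [mul_a, inv_a]; abel
  · simp only [mul_b, inv_b]; abel

theorem commutator_eq_center (hn : 1 ≤ n) :
    commutator (Heis n p) = Subgroup.center (Heis n p) := by
  apply le_antisymm
  · rw [commutator_def, Subgroup.commutator_le]
    intro g₁ _ g₂ _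
    rw [commutatorElement_def]
    exact comm_mem_center g₁ g₂
  · intro d hd
    obtain ⟨ha, hb⟩ := (mem_center_iff' d).1 hd
    have hd' : d = ⁅(⟨Pi.single ⟨0, hn⟩ d.c, 0, 0⟩ : Heis n p),
        (⟨0, Pi.single ⟨0, hn⟩ 1, 0⟩ : Heis n p)⁆ := by
      rw [commutatorElement_def]
      apply heis_ext
      · simp [ha]
      · simp [hb]
      · simp
    rw [hd', commutator_def]
    exact Subgroup.commutator_mem_commutator (Subgroup.mem_top _) (Subgroup.mem_top _)

theorem heis_extraspecial [hp : Fact p.Prime] (hp2 : p ≠ 2) (hn : 1 ≤ n) :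
    Cfsg.IsExtraspecial p (Heis n p) := by
  have hP : IsPGroup p (Heis n p) := IsPGroup.of_card card_heis
  have hnil : Group.IsNilpotent (Heis n p) := hP.isNilpotent
  refine ⟨⟨hP, ?_, commutator_eq_center hn⟩, card_center⟩
  apply le_antisymm
  · apply frattini_le_of_elementary (p := p)
    · intro x y
      exact comm_mem_center x y
    · intro x
      rw [pow_p hp2]
      exact Subgroup.one_mem _
  · rw [← commutator_eq_center hn]
    exact commutator_le_frattini_of_isNilpotent

/-- The module on which the group acts. -/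
abbrev W (n p : ℕ) : Type := ZMod p × (Fin n → ZMod p) × ZMod p

/-- The linear map of an element. -/
def act (d : Heis n p) : Module.End (ZMod p) (W n p) where
  toFun x := (x.1 + d.a ⬝ᵥ x.2.1 + d.c * x.2.2, x.2.1 + x.2.2 • d.b, x.2.2)
  map_add' x y := by
    refine Prod.ext ?_ (Prod.ext ?_ ?_)
    · show (x.1 + y.1) + d.a ⬝ᵥ (x.2.1 + y.2.1) + d.c * (x.2.2 + y.2.2) =
        (x.1 + d.a ⬝ᵥ x.2.1 + d.c * x.2.2) + (y.1 + d.a ⬝ᵥ y.2.1 + d.c * y.2.2)
      rw [dotProduct_add]; ring
    · show (x.2.1 + y.2.1) + (x.2.2 + y.2.2) • d.b =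
        (x.2.1 + x.2.2 • d.b) + (y.2.1 + y.2.2 • d.b)
      rw [add_smul]; abel
    · rfl
  map_smul' r x := by
    refine Prod.ext ?_ (Prod.ext ?_ ?_)
    · show r * x.1 + d.a ⬝ᵥ (r • x.2.1) + d.c * (r * x.2.2) =
        r * (x.1 + d.a ⬝ᵥ x.2.1 + d.c * x.2.2)
      rw [dotProduct_smul, smul_eq_mul]; ring
    · show r • x.2.1 + (r * x.2.2) • d.b = r • (x.2.1 + x.2.2 • d.b)
      rw [smul_add, mul_smul]
    · rfl

theorem act_apply (d : Heis n p) (x : W n p) :
    act d x = (x.1 + d.a ⬝ᵥ x.2.1 + d.c * x.2.2, x.2.1 + x.2.2 • d.b, x.2.2) := rfl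

/-- The action as a monoid homomorphism. -/
def actHom : Heis n p →* Module.End (ZMod p) (W n p) where
  toFun := act
  map_one' := by
    apply LinearMap.ext
    intro x
    rw [act_apply]
    refine Prod.ext ?_ (Prod.ext ?_ ?_)
    · show x.1 + (0 : Fin n → ZMod p) ⬝ᵥ x.2.1 + 0 * x.2.2 = x.1
      rw [zero_dotProduct, zero_mul, add_zero, add_zero]
    · show x.2.1 + x.2.2 • (0 : Fin n → ZMod p) = x.2.1
      rw [smul_zero, add_zero]
    · rfl
  map_mul' d e := by
    apply LinearMap.ext
    intro x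
    show act (d * e) x = act d (act e x)
    rw [act_apply, act_apply, act_apply]
    refine Prod.ext ?_ (Prod.ext ?_ ?_)
    · show x.1 + (d.a + e.a) ⬝ᵥ x.2.1 + (d.c + e.c + d.a ⬝ᵥ e.b) * x.2.2 =
        (x.1 + e.a ⬝ᵥ x.2.1 + e.c * x.2.2) + d.a ⬝ᵥ (x.2.1 + x.2.2 • e.b) + d.c * x.2.2
      rw [add_dotProduct, dotProduct_add, dotProduct_smul, smul_eq_mul]; ring
    · show x.2.1 + x.2.2 • (d.b + e.b) = (x.2.1 + x.2.2 • e.b) + x.2.2 • d.b
      rw [smul_add]; abel
    · rfl

theorem actHom_injective : Function.Injective (actHom : Heis n p →* Module.End (ZMod p) (W n p)) := by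
  intro d e h
  have h' : ∀ x : W n p, act d x = act e x := fun x => congrArg (fun f => f x) h
  apply heis_ext
  · funext i
    have := congrArg Prod.fst (h' (0, Pi.single i 1, 0))
    simp [act_apply] at this
    exact this
  · have := congrArg (fun x : W n p => x.2.1) (h' (0, 0, 1))
    simp [act_apply] at this
    exact this
  · have := congrArg Prod.fst (h' (0, 0, 1))
    simp [act_apply] at this
    exact this

theorem finrank_W [Fact p.Prime] : Module.finrank (ZMod p) (W n p) = n + 2 := by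
  rw [Module.finrank_prod, Module.finrank_prod, Module.finrank_fin_fun, Module.finrank_self]
  omega

/-- The matrix representation. -/
noncomputable def rho [Fact p.Prime] :
    Heis n p →* Matrix.GeneralLinearGroup (Fin (n + 2)) (ZMod p) :=
  (Units.mapEquiv (LinearMap.toMatrixAlgEquiv
    (Module.finBasisOfFinrankEq (ZMod p) (W n p) finrank_W)).toRingEquiv.toMulEquiv).toMonoidHom.comp
    actHom.toHomUnits

theorem rho_injective [Fact p.Prime] :
    Function.Injective (rho : Heis n p →* Matrix.GeneralLinearGroup (Fin (n + 2)) (ZMod p)) := by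
  intro d e h
  have h1 : actHom.toHomUnits d = actHom.toHomUnits e := (Units.mapEquiv _).injective h
  have h2 := congrArg Units.val h1
  rw [MonoidHom.coe_toHomUnits, MonoidHom.coe_toHomUnits] at h2
  exact actHom_injective h2

theorem map_center_equiv {A B : Type*} [Group A] [Group B] (e : A ≃* B) :
    (Subgroup.center A).map e.toMonoidHom = Subgroup.center B := by
  ext y
  constructor
  · rintro ⟨x, hx, rfl⟩
    rw [Subgroup.mem_center_iff]
    intro g
    obtain ⟨g', rfl⟩ := e.surjective g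
    have := Subgroup.mem_center_iff.1 hx g'
    show e g' * e x = e x * e g'
    rw [← map_mul, ← map_mul, this]
  · intro hy
    refine ⟨e.symm y, Subgroup.mem_center_iff.2 ?_, e.apply_symm_apply y⟩
    intro g
    have := Subgroup.mem_center_iff.1 hy (e g)
    apply e.injective
    rw [map_mul, map_mul, e.apply_symm_apply]
    exact this

theorem extraspecial_of_equiv {A B : Type} [Group A] [Group B] (e : A ≃* B) {p : ℕ}
    (h : Cfsg.IsExtraspecial p A) : Cfsg.IsExtraspecial p B := by
  obtain ⟨⟨hp, hf, hc⟩, hz⟩ := h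
  have hcen := map_center_equiv e
  have hcom : (commutator A).map e.toMonoidHom = commutator B := by
    rw [commutator_def, commutator_def, Subgroup.map_commutator,
      Subgroup.map_top_of_surjective _ e.surjective]
  refine ⟨⟨hp.of_equiv e, ?_, ?_⟩, ?_⟩
  · rw [← frattini_map_equiv e, hf, hcen]
  · rw [← hcom, hc, hcen]
  · rw [← hcen, Subgroup.card_map_of_injective e.injective]
    exact hz

theorem result (p : ℕ) [Fact p.Prime] (hp : p ≠ 2) (n : ℕ) (hn : 1 ≤ n) : ∃ E : Subgroup (Matrix.GeneralLinearGroup (Fin (n + 2)) (ZMod p)), Cfsg.IsExtraspecial p ↥E ∧ Nat.card E = p ^ (1 + 2 * n) ∧ ∀ x ∈ E, x ^ p = 1 := by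
  let f : Heis n p →* Matrix.GeneralLinearGroup (Fin (n + 2)) (ZMod p) := rho
  have hf : Function.Injective f := rho_injective
  let e : Heis n p ≃* f.range := MonoidHom.ofInjective hf
  refine ⟨f.range, extraspecial_of_equiv e (heis_extraspecial hp hn), ?_, ?_⟩
  · rw [← Nat.card_congr e.toEquiv, card_heis]
    congr 1
    omega
  · rintro x ⟨d, rfl⟩
    rw [← map_pow, pow_p hp, map_one]

end Cfsg.Agent.S3799
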