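import Cfsg.Statements.S3800
import Cfsg.Agent.Lib.Helper21.Basic

set_option autoImplicit false
open Cfsg

namespace Cfsg.Agent.S3800

open Cfsg.Agent.Lib.Helper21

/-- Let G be a finite group, N a normal subgroup of G whose order is prime to p, and P a p-subgroup of G. Then in G/N the normalizer of the image of P is the image of N_G(P), and the centralizer of the image of P is the image of C_G(P). -/
theorem result {G : Type*} [Group G] [Finite G] {p : ℕ} [Fact p.Prime] (N : Subgroup G) [N.Normal] (hN : (Nat.card N).Coprime p) (P : Subgroup G) (hP : IsPGroup p P) : Subgroup.normalizer ((P.map (QuotientGroup.mk' N)) : Set (G ⧸ N)) = (Subgroup.normalizer (P : Set G)).map (QuotientGroup.mk' N) ∧ Subgroup.centralizer ((P.map (QuotientGroup.mk' N)) : Set (G ⧸ N)) = (Subgroup.centralizer (P : Set G)).map (QuotientGroup.mk' N) := by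
  have hnorm : ∀ x : G, (QuotientGroup.mk' N) x ∈ Subgroup.normalizer ((P.map (QuotientGroup.mk' N)) : Set (G ⧸ N)) →
      ∃ n ∈ N, n⁻¹ * x ∈ Subgroup.normalizer (P : Set G) := by
    intro x hy
    have hx : P.map (MulAut.conj x).toMonoidHom ≤ P ⊔ N := by
      intro z hz
      rw [mem_map_conj] at hz
      have h1 : (QuotientGroup.mk' N) (x⁻¹ * z * x) ∈ P.map (QuotientGroup.mk' N) :=
        Subgroup.mem_map_of_mem _ hz
      have h2 := (Subgroup.mem_normalizer_iff.mp hy _).mp h1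
      obtain ⟨u, hu, hue⟩ := h2
      have h3 : (QuotientGroup.mk' N) u = (QuotientGroup.mk' N) z := by
        rw [hue, ← map_inv, ← map_mul, ← map_mul]
        congr 1; group
      have h4 : u⁻¹ * z ∈ N := by
        have := QuotientGroup.eq.mp h3
        exact this
      have : z = u * (u⁻¹ * z) := by group
      rw [this]
      exact Subgroup.mul_mem _ (Subgroup.mem_sup_left hu) (Subgroup.mem_sup_right h4)
    exact exists_mul_normalizer_of_conj_le_sup N hN P hP x hx
  have hmk : ∀ (n x : G), n ∈ N → (QuotientGroup.mk' N) (n⁻¹ * x) = (QuotientGroup.mk' N) x := by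
    intro n x hn
    rw [map_mul, map_inv]
    have : (QuotientGroup.mk' N) n = 1 := (QuotientGroup.eq_one_iff n).mpr hn
    rw [this]; simp
  have hPN : P ⊓ N = ⊥ := by
    apply disjoint_iff.mp; apply Subgroup.disjoint_of_coprime_natCard
    obtain ⟨k, hk⟩ := (IsPGroup.iff_card.mp hP)
    rw [hk]
    exact Nat.Coprime.pow_left k (Nat.Coprime.symm hN)
  constructor
  · apply le_antisymm
    · intro y hy
      obtain ⟨x, rfl⟩ := QuotientGroup.mk'_surjective N y
      obtain ⟨n, hn, hc⟩ := hnorm x hy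
      exact ⟨n⁻¹ * x, hc, hmk n x hn⟩
    · exact Subgroup.le_normalizer_map _
  · apply le_antisymm
    · intro y hy
      obtain ⟨x, rfl⟩ := QuotientGroup.mk'_surjective N y
      obtain ⟨n, hn, hc⟩ := hnorm x (Subgroup.centralizer_le_normalizer _ hy)
      refine ⟨n⁻¹ * x, ?_, hmk n x hn⟩
      show n⁻¹ * x ∈ Subgroup.centralizer (P : Set G)
      rw [Subgroup.mem_centralizer_iff]
      intro u hu
      have hcu : (n⁻¹ * x) * u * (n⁻¹ * x)⁻¹ ∈ P := (Subgroup.mem_normalizer_iff.mp hc u).mp hu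
      have h1 : (n⁻¹ * x) * u * (n⁻¹ * x)⁻¹ * u⁻¹ ∈ P := P.mul_mem hcu (P.inv_mem hu)
      have h2 : (n⁻¹ * x) * u * (n⁻¹ * x)⁻¹ * u⁻¹ ∈ N := by
        rw [← QuotientGroup.eq_one_iff]
        have hcomm := (Subgroup.mem_centralizer_iff.mp hy) ((QuotientGroup.mk' N) u) (Subgroup.mem_map_of_mem _ hu)
        have e1 : ((((n⁻¹ * x) * u * (n⁻¹ * x)⁻¹ * u⁻¹ : G)) : G ⧸ N) =
            (QuotientGroup.mk' N) (n⁻¹ * x) * (QuotientGroup.mk' N) u * ((QuotientGroup.mk' N) (n⁻¹ * x))⁻¹ * ((QuotientGroup.mk' N) u)⁻¹ := by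
          simp
        rw [e1, hmk n x hn, ← hcomm]
        group
      have h3 : (n⁻¹ * x) * u * (n⁻¹ * x)⁻¹ * u⁻¹ ∈ P ⊓ N := ⟨h1, h2⟩
      rw [hPN, Subgroup.mem_bot] at h3
      have h4 : (n⁻¹ * x) * u = u * (n⁻¹ * x) := by
        have : (n⁻¹ * x) * u = ((n⁻¹ * x) * u * (n⁻¹ * x)⁻¹ * u⁻¹) * (u * (n⁻¹ * x)) := by group
        rw [this, h3, one_mul]
      exact h4.symm
    · rintro _ ⟨c, hc, rfl⟩
      rw [Subgroup.mem_centralizer_iff]
      rintro _ ⟨u, hu, rfl⟩
      rw [← map_mul, ← map_mul, (Subgroup.mem_centralizer_iff.mp hc) u hu]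

end Cfsg.Agent.S3800
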