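import Cfsg.Statements.S3950
import Cfsg.Agent.Lib.Helper22.NonCyclic
import Cfsg.Agent.S3979

set_option autoImplicit false
open Cfsg

namespace Cfsg.Agent.S3950

open Cfsg.Agent.Lib.Helper22
open scoped commutatorElement

universe u

theorem exists_nontrivial_stem {G : Type u} [CommGroup G] [Finite G] (p : ℕ) (hp : p.Prime)
    (f : G →* Multiplicative (ZMod p × ZMod p)) (hf : Function.Surjective f) :
    ∃ (Γ : Type u) (_ : Group Γ) (_ : Finite Γ) (σ : Γ →* G), Cfsg.IsStemExtension σ ∧ σ.ker ≠ ⊥ := by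
  have : NeZero p := ⟨hp.ne_zero⟩
  have : Fact (1 < p) := ⟨hp.one_lt⟩
  let H := Heis p p (dvd_refl p)
  let τ : H →* Multiplicative (ZMod p × ZMod p) := Heis.proj (dvd_refl p)
  let Γ : Subgroup (G × H) := (f.comp (MonoidHom.fst G H)).eqLocus (τ.comp (MonoidHom.snd G H))
  have hmem : ∀ x : G × H, x ∈ Γ ↔ f x.1 = τ x.2 := fun x => Iff.rfl
  let σ : Γ →* G := (MonoidHom.fst G H).comp Γ.subtype
  have hσ : ∀ x : Γ, σ x = x.1.1 := fun x => rfl
  -- the two lifted generators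
  obtain ⟨g₁, hg₁⟩ := hf (τ ⟨1, 0, 0⟩)
  obtain ⟨g₂, hg₂⟩ := hf (τ ⟨0, 1, 0⟩)
  let x₁ : Γ := ⟨(g₁, ⟨1, 0, 0⟩), (hmem _).mpr hg₁⟩
  let x₂ : Γ := ⟨(g₂, ⟨0, 1, 0⟩), (hmem _).mpr hg₂⟩
  have hw : ((⁅x₁, x₂⁆ : Γ) : G × H) = (1, Heis.zc (dvd_refl p)) := by
    rw [Heis.zc_eq_commutator, commutatorElement_def, commutatorElement_def]
    show (g₁, (⟨1, 0, 0⟩ : H)) * (g₂, (⟨0, 1, 0⟩ : H)) * (g₁, (⟨1, 0, 0⟩ : H))⁻¹ *
      (g₂, (⟨0, 1, 0⟩ : H))⁻¹ = _
    rw [Prod.inv_mk, Prod.inv_mk, Prod.mk_mul_mk, Prod.mk_mul_mk, Prod.mk_mul_mk]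
    congr 1
    rw [mul_comm g₁ g₂]; group
  have hwc : ⁅x₁, x₂⁆ ∈ commutator Γ := by
    rw [commutator_def]
    exact Subgroup.commutator_mem_commutator (Subgroup.mem_top _) (Subgroup.mem_top _)
  have hkerdesc : ∀ x : Γ, x ∈ σ.ker → x.1.1 = 1 ∧ x.1.2 ∈ τ.ker := by
    intro x hx
    have h1 : x.1.1 = 1 := hx
    refine ⟨h1, ?_⟩
    rw [MonoidHom.mem_ker]
    have := (hmem x.1).mp x.2
    rw [h1, map_one] at this
    exact this.symm
  refine ⟨Γ, inferInstance, inferInstance, σ, ⟨?_, ?_, ?_⟩, ?_⟩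
  · intro g
    obtain ⟨h, hh⟩ := Heis.proj_surjective (h := dvd_refl p) (f g)
    exact ⟨⟨(g, h), (hmem _).mpr hh.symm⟩, rfl⟩
  · intro x hx
    obtain ⟨h1, h2⟩ := hkerdesc x hx
    have hc := Heis.ker_le_center h2
    rw [Subgroup.mem_center_iff]
    intro y
    apply Subtype.ext
    apply Prod.ext
    · show y.1.1 * x.1.1 = x.1.1 * y.1.1
      rw [mul_comm]
    · show y.1.2 * x.1.2 = x.1.2 * y.1.2
      exact Subgroup.mem_center_iff.mp hc y.1.2
  · intro x hx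
    obtain ⟨h1, h2⟩ := hkerdesc x hx
    have h3 := (Heis.mem_ker_proj _).mp h2
    have h4 : x.1.2 = (Heis.zc (dvd_refl p)) ^ x.1.2.c.val := by
      rw [Heis.zc_pow]
      ext
      · exact h3.1
      · exact h3.2
      · simp
    have h5 : x = ⁅x₁, x₂⁆ ^ x.1.2.c.val := by
      apply Subtype.ext
      rw [Subgroup.coe_pow, hw]
      apply Prod.ext
      · rw [Prod.pow_fst, one_pow]; exact h1
      · rw [Prod.pow_snd]; exact h4
    rw [h5]
    exact Subgroup.pow_mem _ hwc _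
  · intro hbot
    have h1 : ⁅x₁, x₂⁆ ∈ σ.ker := by
      rw [MonoidHom.mem_ker, hσ, hw]
    rw [hbot, Subgroup.mem_bot] at h1
    have h2 : ((⁅x₁, x₂⁆ : Γ) : G × H) = 1 := by rw [h1]; rfl
    rw [hw] at h2
    have h3 : (Heis.zc (dvd_refl p)).c = (1 : H).c := by
      have := congrArg Prod.snd h2
      exact congrArg Heis.c this
    exact one_ne_zero (α := ZMod p) h3


/-- A finite abelian group has trivial Schur multiplier if and only if it is cyclic. -/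
theorem result {G : Type*} [CommGroup G] [Finite G] : Cfsg.HasCyclicSchurMultiplier G 1 ↔ IsCyclic G := by
  constructor
  · intro hM
    by_contra hnc
    obtain ⟨p, hp, f, hf⟩ := exists_surjective_of_not_isCyclic G hnc
    obtain ⟨Γ, _, _, σ, hσ, hker⟩ := exists_nontrivial_stem p hp f hf
    obtain ⟨π, hπ⟩ := hM.2 Γ σ hσ
    apply hker
    rw [eq_bot_iff]
    intro x hx
    obtain ⟨y, hy⟩ := hπ ⟨x, hx⟩
    have hy1 : y = 1 := Subsingleton.elim (α := ZMod 1) _ _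
    rw [hy1, map_one] at hy
    rw [Subgroup.mem_bot]
    exact (congrArg Subtype.val hy).symm
  · intro hc
    exact Cfsg.Agent.S3979.result

end Cfsg.Agent.S3950
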