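import Cfsg.Statements.S3951
import Cfsg.Agent.Lib.Helper22.Heis
import Cfsg.Agent.Lib.Helper22.StemAbel
import Cfsg.Agent.Lib.Helper22.StemTwoGen

set_option autoImplicit false
open Cfsg

namespace Cfsg.Agent.S3951

open Cfsg.Agent.Lib.Helper22

theorem closure_gens (m n : ℕ) [NeZero m] [NeZero n] :
    Subgroup.closure ({Multiplicative.ofAdd ((0 : ZMod m), (1 : ZMod n)),
      Multiplicative.ofAdd ((1 : ZMod m), (0 : ZMod n))} : Set (Multiplicative (ZMod m × ZMod n))) = ⊤ := by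
  rw [eq_top_iff]
  intro q _
  have h1 : Multiplicative.ofAdd ((0 : ZMod m), (1 : ZMod n)) ∈
      Subgroup.closure ({Multiplicative.ofAdd ((0 : ZMod m), (1 : ZMod n)),
      Multiplicative.ofAdd ((1 : ZMod m), (0 : ZMod n))} : Set (Multiplicative (ZMod m × ZMod n))) :=
    Subgroup.subset_closure (Or.inl rfl)
  have h2 : Multiplicative.ofAdd ((1 : ZMod m), (0 : ZMod n)) ∈
      Subgroup.closure ({Multiplicative.ofAdd ((0 : ZMod m), (1 : ZMod n)),
      Multiplicative.ofAdd ((1 : ZMod m), (0 : ZMod n))} : Set (Multiplicative (ZMod m × ZMod n))) :=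
    Subgroup.subset_closure (Or.inr rfl)
  have hq : q = Multiplicative.ofAdd ((1 : ZMod m), (0 : ZMod n)) ^ (Multiplicative.toAdd q).1.val *
      Multiplicative.ofAdd ((0 : ZMod m), (1 : ZMod n)) ^ (Multiplicative.toAdd q).2.val := by
    rw [← ofAdd_nsmul, ← ofAdd_nsmul, ← ofAdd_add]
    apply Multiplicative.toAdd.injective
    rw [toAdd_ofAdd]
    ext
    · simp
    · simp
  rw [hq]
  exact Subgroup.mul_mem _ (Subgroup.pow_mem _ h2 _) (Subgroup.pow_mem _ h1 _)


/-- For positive integers `m` and `n` with `n` dividing `m`, the Schur multiplier of the abelian group `ZMod m × ZMod n` (written multiplicatively) is cyclic of order `n`. In particular the elementary abelian group of order `p ^ 2` has multiplier of order `p`. -/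
theorem result (m n : ℕ) [NeZero m] [NeZero n] (hnm : n ∣ m) : Cfsg.HasCyclicSchurMultiplier (Multiplicative (ZMod m × ZMod n)) n := by
  refine ⟨⟨Heis m n hnm, inferInstance, inferInstance, Heis.proj hnm, Heis.proj_isStem,
    ⟨Heis.kerEquiv hnm⟩⟩, ?_⟩
  intro Γ _ _ σ hσ
  obtain ⟨hsurj, hcen, hcomm⟩ := hσ
  obtain ⟨α, hα⟩ := hsurj (Multiplicative.ofAdd ((0 : ZMod m), (1 : ZMod n)))
  obtain ⟨ξ, hξ⟩ := hsurj (Multiplicative.ofAdd ((1 : ZMod m), (0 : ZMod n)))
  have hgen : Subgroup.closure (({α, ξ} : Set Γ) ∪ (σ.ker : Set Γ)) = ⊤ := by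
    apply closure_union_ker_eq_top
    rw [hα, hξ]
    exact closure_gens m n
  have hc : ξ * α * ξ⁻¹ * α⁻¹ ∈ σ.ker := by
    rw [MonoidHom.mem_ker, map_mul, map_mul, map_mul, map_inv, map_inv]
    rw [mul_comm (σ ξ) (σ α)]
    simp
  have hαn : α ^ n ∈ σ.ker := by
    rw [MonoidHom.mem_ker, map_pow, hα, ← ofAdd_nsmul]
    have : n • ((0 : ZMod m), (1 : ZMod n)) = 0 := by
      ext
      · simp
      · simp
    rw [this]; rfl
  have hn : Commute (α ^ n) ξ := (Subgroup.mem_center_iff.mp (hcen hαn) ξ).symm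
  have hle := le_zpowers_of_two_gen σ.ker hcen hcomm α ξ hgen hc
  have hpow := commutator_pow_eq_one α ξ (hcen hc) n hn
  have hcyc : IsCyclic σ.ker := by
    have h1 : IsCyclic (σ.ker.subgroupOf (Subgroup.zpowers (ξ * α * ξ⁻¹ * α⁻¹))) := inferInstance
    exact isCyclic_of_surjective (Subgroup.subgroupOfEquivOfLe hle).toMonoidHom
      (Subgroup.subgroupOfEquivOfLe hle).surjective
  have hd : Nat.card σ.ker ∣ n := by
    calc Nat.card σ.ker ∣ Nat.card (Subgroup.zpowers (ξ * α * ξ⁻¹ * α⁻¹)) := Subgroup.card_dvd_of_le hle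
      _ = orderOf (ξ * α * ξ⁻¹ * α⁻¹) := Nat.card_zpowers _
      _ ∣ n := orderOf_dvd_of_pow_eq_one hpow
  let e := zmodCyclicMulEquiv hcyc
  let f : ZMod n →+* ZMod (Nat.card σ.ker) := ZMod.castHom hd (ZMod (Nat.card σ.ker))
  have hf : Function.Surjective f := ZMod.castHom_surjective hd
  refine ⟨e.toMonoidHom.comp (AddMonoidHom.toMultiplicative f.toAddMonoidHom), ?_⟩
  intro y
  obtain ⟨x, hx⟩ := hf (Multiplicative.toAdd (e.symm y))
  refine ⟨Multiplicative.ofAdd x, ?_⟩
  show e (Multiplicative.ofAdd (f x)) = y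
  rw [hx]
  simp

end Cfsg.Agent.S3951
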