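import Cfsg.Statements.S3954
import Mathlib
import Cfsg.Agent.Lib.Helper22.StemOfCentral
import Cfsg.Agent.Lib.Helper22.StemTransfer

set_option autoImplicit false
open Cfsg

namespace Cfsg.Agent.S3954

/-- Let `U` be a subgroup of index `m` in the finite group `G`, let `A` be the Schur multiplier of `G` and `B` that of `U`. Then the subgroup of `m`-th powers of `A` is isomorphic to a subgroup of `B`. -/
theorem result {G : Type*} [Group G] [Finite G] (U : Subgroup G) {A B : Type*} [CommGroup A] [CommGroup B] (hA : Cfsg.HasSchurMultiplier G A) (hB : Cfsg.HasSchurMultiplier U B) : ∃ C : Subgroup B, Nonempty ((powMonoidHom U.index : A →* A).range ≃* C) := by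
  classical
  obtain ⟨Γ, _, _, σ, hσ, ⟨e⟩⟩ := hA.1
  haveI : Finite B := by
    obtain ⟨Γ', _, _, σ', _, ⟨e'⟩⟩ := hB.1
    exact Finite.of_equiv _ e'.toEquiv
  let Ũ : Subgroup Γ := U.comap σ
  let π : Ũ →* U := σ.subgroupComap U
  have hπ : ∀ y : Ũ, (π y : G) = σ y.1 := fun y => rfl
  have hπs : Function.Surjective π := σ.subgroupComap_surjective_of_surjective U hσ.1
  have hπk : ∀ y : Ũ, y ∈ π.ker ↔ (y : Γ) ∈ σ.ker := by
    intro y
    rw [MonoidHom.mem_ker, MonoidHom.mem_ker, ← hπ]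
    constructor
    · intro h
      rw [h]
      rfl
    · intro h
      exact Subtype.ext h
  have hπc : π.ker ≤ Subgroup.center Ũ := by
    intro y hy
    have h1 := hσ.2.1 ((hπk y).mp hy)
    rw [Subgroup.mem_center_iff] at h1 ⊢
    intro z
    exact Subtype.ext (h1 z.1)
  obtain ⟨f, hf⟩ := Cfsg.Agent.Lib.Helper22.exists_surjective_of_central hB π hπs hπc
  have hidx : Ũ.index = U.index := Subgroup.index_comap_of_surjective U hσ.1
  letI icomm : CommGroup ↥(π.ker ⊓ commutator Ũ) :=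
    { (π.ker ⊓ commutator Ũ).toGroup with
      mul_comm := fun a b => Subtype.ext (Subgroup.mem_center_iff.mp (hπc b.2.1) a.1) }
  obtain ⟨g, hg⟩ := Cfsg.Agent.Lib.Helper22.exists_injective_of_surjective_comm f hf
  have hpow : ∀ x : (powMonoidHom U.index : A →* A).range, ∃ d : ↥(π.ker ⊓ commutator Ũ),
      ((d : Ũ) : Γ) = ((e.symm x.1 : σ.ker) : Γ) := by
    rintro ⟨x, a, rfl⟩
    have h1 : e.symm ((powMonoidHom U.index) a) = (e.symm a) ^ U.index := by
      rw [powMonoidHom_apply, map_pow]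
    obtain ⟨h2, h3⟩ := Cfsg.Agent.Lib.Helper22.pow_index_mem_commutator_of_central Ũ U.index hidx
      ((e.symm a : σ.ker) : Γ) (hσ.2.1 (e.symm a).2) (hσ.2.2 (e.symm a).2)
    have h4 : (⟨((e.symm a : σ.ker) : Γ) ^ U.index, h2⟩ : Ũ) ∈ π.ker := by
      rw [hπk]
      exact Subgroup.pow_mem _ (e.symm a).2 _
    refine ⟨⟨⟨((e.symm a : σ.ker) : Γ) ^ U.index, h2⟩, h4, h3⟩, ?_⟩
    show ((e.symm a : σ.ker) : Γ) ^ U.index = ((e.symm ((powMonoidHom U.index) a) : σ.ker) : Γ)
    rw [h1]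
    rfl
  choose j hj using hpow
  have hjmul : ∀ x y, j (x * y) = j x * j y := by
    intro x y
    apply Subtype.ext
    apply Subtype.ext
    show ((j (x * y) : Ũ) : Γ) = ((j x : Ũ) : Γ) * ((j y : Ũ) : Γ)
    rw [hj, hj, hj]
    show ((e.symm (x.1 * y.1) : σ.ker) : Γ) = _
    rw [map_mul]
    rfl
  have hjinj : Function.Injective j := by
    intro x y h
    have h1 : ((e.symm x.1 : σ.ker) : Γ) = ((e.symm y.1 : σ.ker) : Γ) := by rw [← hj, ← hj, h]
    exact Subtype.ext (e.symm.injective (Subtype.ext h1))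
  let Φ : (powMonoidHom U.index : A →* A).range →* B := g.comp (MonoidHom.mk' j hjmul)
  have hΦ : Function.Injective Φ := hg.comp hjinj
  exact ⟨Φ.range, ⟨MonoidHom.ofInjective hΦ⟩⟩

end Cfsg.Agent.S3954
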