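import Cfsg.Statements.S3955
import Mathlib
import Cfsg.Agent.Lib.Helper22.ProjRep

set_option autoImplicit false
open Cfsg

namespace Cfsg.Agent.S3955

/-- Let `Q` be a finite group with Schur multiplier `A`, and let `σ : Γ →* Q` be a finite stem extension whose kernel is isomorphic to `A` (a Schur covering group of `Q`). Then every homomorphism `γ` from `Q` to the quotient of `GL n ℂ` by its centre lifts along `σ`: there is a homomorphism `ρ : Γ →* GL n ℂ` which, followed by the quotient map, equals `γ ∘ σ`. -/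
theorem result {Q : Type*} [Group Q] [Finite Q] {A : Type*} [CommGroup A] (hA : Cfsg.HasSchurMultiplier Q A) {Γ : Type*} [Group Γ] [Finite Γ] (σ : Γ →* Q) (hσ : Cfsg.IsStemExtension σ) (hk : Nonempty (σ.ker ≃* A)) (n : ℕ) (γ : Q →* (GL (Fin n) ℂ ⧸ Subgroup.center (GL (Fin n) ℂ))) : ∃ ρ : Γ →* GL (Fin n) ℂ, (QuotientGroup.mk' (Subgroup.center (GL (Fin n) ℂ))).comp ρ = γ.comp σ := by
  classical
  rcases Nat.eq_zero_or_pos n with rfl | hn
  · refine ⟨1, ?_⟩
    apply MonoidHom.ext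
    intro y
    obtain ⟨g, hg⟩ := QuotientGroup.mk_surjective (γ (σ y))
    show (QuotientGroup.mk (1 : GL (Fin 0) ℂ) : GL (Fin 0) ℂ ⧸ Subgroup.center (GL (Fin 0) ℂ)) = γ (σ y)
    rw [← hg]
    congr 1
    exact Subsingleton.elim _ _
  · haveI : NeZero n := ⟨hn.ne'⟩
    obtain ⟨E, _, _, π, ρ₁, hπ, hc, hγ, hcen⟩ :=
      Cfsg.Agent.Lib.Helper22.exists_finite_central_of_projective n γ
    let P : Subgroup (Γ × E) := (σ.comp (MonoidHom.fst Γ E)).eqLocus (π.comp (MonoidHom.snd Γ E))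
    have hP : ∀ y : Γ × E, y ∈ P ↔ σ y.1 = π y.2 := fun y => Iff.rfl
    let p₁ : P →* Γ := (MonoidHom.fst Γ E).comp P.subtype
    let p₂ : P →* E := (MonoidHom.snd Γ E).comp P.subtype
    have hp₁ : ∀ y : P, p₁ y = y.1.1 := fun y => rfl
    have hp₂ : ∀ y : P, p₂ y = y.1.2 := fun y => rfl
    have hp₁s : Function.Surjective p₁ := by
      intro g
      obtain ⟨x, hx⟩ := hπ (σ g)
      exact ⟨⟨(g, x), (hP _).mpr hx.symm⟩, rfl⟩
    let φ : P →* Q := σ.comp p₁
    have hφs : Function.Surjective φ := hσ.1.comp hp₁s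
    have hφc : φ.ker ≤ Subgroup.center P := by
      intro y hy
      have h1 : σ y.1.1 = 1 := hy
      have h2 : π y.1.2 = 1 := by
        rw [← (hP y.1).mp y.2]
        exact h1
      have h3 : y.1.1 ∈ Subgroup.center Γ := hσ.2.1 h1
      have h4 : y.1.2 ∈ Subgroup.center E := hc h2
      rw [Subgroup.mem_center_iff]
      intro z
      apply Subtype.ext
      apply Prod.ext
      · exact Subgroup.mem_center_iff.mp h3 z.1.1
      · exact Subgroup.mem_center_iff.mp h4 z.1.2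
    obtain ⟨f, hf⟩ := Cfsg.Agent.Lib.Helper22.exists_surjective_of_central hA φ hφs hφc
    obtain ⟨e⟩ := hk
    have hc₁ : (commutator P).map p₁ = commutator Γ := by
      rw [commutator_def, Subgroup.map_commutator, Subgroup.map_top_of_surjective p₁ hp₁s, ← commutator_def]
    let r : ↥(φ.ker ⊓ commutator P) → σ.ker := fun d => ⟨p₁ d.1, d.2.1⟩
    have hr : Function.Surjective r := by
      intro k
      have h1 : (k : Γ) ∈ (commutator P).map p₁ := by
        rw [hc₁]
        exact hσ.2.2 k.2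
      obtain ⟨w, hw, hwk⟩ := h1
      have h2 : w ∈ φ.ker := by
        rw [MonoidHom.mem_ker]
        show σ (p₁ w) = 1
        rw [hwk]
        exact k.2
      exact ⟨⟨w, h2, hw⟩, Subtype.ext hwk⟩
    haveI : Finite A := Finite.of_equiv _ e.toEquiv
    have hcard : Nat.card ↥(φ.ker ⊓ commutator P) ≤ Nat.card σ.ker := by
      calc Nat.card ↥(φ.ker ⊓ commutator P) ≤ Nat.card A := Nat.card_le_card_of_surjective f hf
        _ = Nat.card σ.ker := (Nat.card_congr e.toEquiv).symm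
    have hrb : Function.Bijective r := hr.bijective_of_nat_card_le hcard
    have hbot : p₁.ker ⊓ commutator P = ⊥ := by
      rw [eq_bot_iff]
      intro y hy
      rw [Subgroup.mem_bot]
      have hy1 : p₁ y = 1 := hy.1
      have h2 : y ∈ φ.ker := by
        rw [MonoidHom.mem_ker]
        show σ (p₁ y) = 1
        rw [hy1, map_one]
      have h3 : r ⟨y, h2, hy.2⟩ = r ⟨1, one_mem _⟩ := by
        apply Subtype.ext
        show p₁ y = p₁ 1
        rw [hy1, map_one]
      exact congrArg Subtype.val (hrb.1 h3)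
    have hcen' : ∀ c ∈ p₁.ker, (ρ₁.comp p₂) c ∈ Subgroup.center (Matrix.GeneralLinearGroup (Fin n) ℂ) := by
      intro c hc'
      apply hcen
      rw [MonoidHom.mem_ker]
      have hc1 : c.1.1 = 1 := hc'
      show π c.1.2 = 1
      rw [← (hP c.1).mp c.2, hc1, map_one]
    obtain ⟨ρ, hρ, hρ1⟩ := Cfsg.Agent.Lib.Helper22.exists_untwist n (ρ₁.comp p₂) p₁.ker hbot hcen'
    have hle : p₁.ker ≤ ρ.ker := fun c hc' => hρ1 c hc'
    refine ⟨p₁.liftOfRightInverse (Function.surjInv hp₁s) (Function.rightInverse_surjInv hp₁s) ⟨ρ, hle⟩, ?_⟩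
    apply MonoidHom.ext
    intro y
    obtain ⟨x, rfl⟩ := hp₁s y
    show (QuotientGroup.mk ((p₁.liftOfRightInverse (Function.surjInv hp₁s) (Function.rightInverse_surjInv hp₁s) ⟨ρ, hle⟩) (p₁ x)) : GL (Fin n) ℂ ⧸ Subgroup.center (GL (Fin n) ℂ)) = γ (σ (p₁ x))
    rw [MonoidHom.liftOfRightInverse_comp_apply]
    show (QuotientGroup.mk (ρ x) : GL (Fin n) ℂ ⧸ Subgroup.center (GL (Fin n) ℂ)) = γ (σ (p₁ x))
    rw [hρ]
    show (QuotientGroup.mk (ρ₁ (p₂ x)) : GL (Fin n) ℂ ⧸ Subgroup.center (GL (Fin n) ℂ)) = γ (σ (p₁ x))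
    rw [hγ]
    congr 1
    exact ((hP x.1).mp x.2).symm

end Cfsg.Agent.S3955
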