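import Cfsg.Statements.S3956
import Mathlib
import Cfsg.Agent.Lib.Helper22.ProjRep

set_option autoImplicit false
universe u v
open Cfsg

namespace Cfsg.Agent.S3956

/-- Let `σ : Γ →* Q` be a finite stem extension of the finite group `Q` such that every homomorphism from `Q` to the quotient of `GL n ℂ` by its centre, for every `n`, lifts along `σ` to a homomorphism `Γ →* GL n ℂ`. Then `σ` is a Schur covering group of `Q`: for every finite stem extension `τ : Δ →* Q` with `Δ` in the same universe as `Q`, the kernel of `τ` is a homomorphic image of the kernel of `σ`. -/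
theorem result {Q : Type u} [Group Q] [Finite Q] {Γ : Type v} [Group Γ] [Finite Γ] (σ : Γ →* Q) (hσ : Cfsg.IsStemExtension σ) (hlift : ∀ (n : ℕ) (γ : Q →* (GL (Fin n) ℂ ⧸ Subgroup.center (GL (Fin n) ℂ))), ∃ ρ : Γ →* GL (Fin n) ℂ, (QuotientGroup.mk' (Subgroup.center (GL (Fin n) ℂ))).comp ρ = γ.comp σ) (Δ : Type u) [Group Δ] [Finite Δ] (τ : Δ →* Q) (hτ : Cfsg.IsStemExtension τ) : ∃ π : σ.ker →* τ.ker, Function.Surjective π := by
  classical
  let P : Subgroup (Γ × Δ) := (σ.comp (MonoidHom.fst Γ Δ)).eqLocus (τ.comp (MonoidHom.snd Γ Δ))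
  have hP : ∀ y : Γ × Δ, y ∈ P ↔ σ y.1 = τ y.2 := fun y => Iff.rfl
  let p₁ : P →* Γ := (MonoidHom.fst Γ Δ).comp P.subtype
  let p₂ : P →* Δ := (MonoidHom.snd Γ Δ).comp P.subtype
  have hp₁ : ∀ y : P, p₁ y = y.1.1 := fun y => rfl
  have hp₂ : ∀ y : P, p₂ y = y.1.2 := fun y => rfl
  have hp₁s : Function.Surjective p₁ := by
    intro g
    obtain ⟨x, hx⟩ := hτ.1 (σ g)
    exact ⟨⟨(g, x), (hP _).mpr hx.symm⟩, rfl⟩
  have hp₂s : Function.Surjective p₂ := by
    intro d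
    obtain ⟨x, hx⟩ := hσ.1 (τ d)
    exact ⟨⟨(x, d), (hP _).mpr hx⟩, rfl⟩
  have htriv : ∀ y : P, y ∈ p₁.ker → y ∈ commutator P → y = 1 := by
    intro y hy hy'
    by_contra hy1
    have h1 : y.1.1 = 1 := hy
    have hl : y.1.2 ∈ τ.ker := by
      rw [MonoidHom.mem_ker, ← (hP y.1).mp y.2, h1, map_one]
    have hl1 : y.1.2 ≠ 1 := by
      intro h
      apply hy1
      apply Subtype.ext
      exact Prod.ext h1 h
    obtain ⟨n, ρΔ, γ, hγ, hne⟩ :=
      Cfsg.Agent.Lib.Helper22.exists_proj_rep_detecting τ hτ.1 hτ.2.1 y.1.2 hl hl1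
    obtain ⟨ρΓ, hρΓ⟩ := hlift n γ
    have h2 := Cfsg.Agent.Lib.Helper22.eq_on_commutator_of_mk_eq (ρΓ.comp p₁) (ρΔ.comp p₂) (fun x => by
      show (QuotientGroup.mk (ρΓ (p₁ x)) : GL (Fin n) ℂ ⧸ Subgroup.center (GL (Fin n) ℂ)) = QuotientGroup.mk (ρΔ (p₂ x))
      rw [← hγ]
      have h3 := DFunLike.congr_fun hρΓ (p₁ x)
      rw [show τ (p₂ x) = σ (p₁ x) from ((hP x.1).mp x.2).symm]
      exact h3) hy'
    apply hne
    have h3 : ρΔ (p₂ y) = ρΓ (p₁ y) := h2.symm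
    show ρΔ (p₂ y) = 1
    rw [h3, MonoidHom.mem_ker.mp hy, map_one]
  have hc₁ : (commutator P).map p₁ = commutator Γ := by
    rw [commutator_def, Subgroup.map_commutator, Subgroup.map_top_of_surjective p₁ hp₁s, ← commutator_def]
  have hc₂ : (commutator P).map p₂ = commutator Δ := by
    rw [commutator_def, Subgroup.map_commutator, Subgroup.map_top_of_surjective p₂ hp₂s, ← commutator_def]
  have hex : ∀ k : σ.ker, ∃ l : τ.ker, ∃ w : P, w ∈ commutator P ∧ w.1 = ((k : Γ), (l : Δ)) := by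
    intro k
    have h1 : (k : Γ) ∈ (commutator P).map p₁ := by rw [hc₁]; exact hσ.2.2 k.2
    obtain ⟨w, hw, hwk⟩ := h1
    have hwk' : w.1.1 = (k : Γ) := hwk
    have h2 : τ w.1.2 = 1 := by
      rw [← (hP w.1).mp w.2, hwk']
      exact k.2
    exact ⟨⟨w.1.2, h2⟩, w, hw, Prod.ext hwk' rfl⟩
  choose F hF using hex
  have huniq : ∀ (k : σ.ker) (l : τ.ker) (w : P), w ∈ commutator P → w.1 = ((k : Γ), (l : Δ)) →
      l = F k := by
    intro k l w hw hwk
    obtain ⟨w', hw', hwk'⟩ := hF k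
    have h1 : w * w'⁻¹ = 1 := by
      apply htriv
      · rw [MonoidHom.mem_ker, map_mul, map_inv, hp₁, hp₁, hwk, hwk']
        exact mul_inv_cancel _
      · exact Subgroup.mul_mem _ hw (Subgroup.inv_mem _ hw')
    have h2 : w = w' := mul_inv_eq_one.mp h1
    have h3 : (l : Δ) = (F k : Δ) := by
      have h4 : w.1.2 = w'.1.2 := by rw [h2]
      rw [hwk, hwk'] at h4
      exact h4
    exact Subtype.ext h3
  refine ⟨MonoidHom.mk' F ?_, ?_⟩
  · intro k k'
    obtain ⟨w, hw, hwk⟩ := hF k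
    obtain ⟨w', hw', hwk'⟩ := hF k'
    symm
    apply huniq (k * k') (F k * F k') (w * w') (Subgroup.mul_mem _ hw hw')
    show (w.1 * w'.1) = _
    rw [hwk, hwk']
    rfl
  · intro l
    have h1 : (l : Δ) ∈ (commutator P).map p₂ := by rw [hc₂]; exact hτ.2.2 l.2
    obtain ⟨w, hw, hwl⟩ := h1
    have hwl' : w.1.2 = (l : Δ) := hwl
    have h2 : σ w.1.1 = 1 := by
      rw [(hP w.1).mp w.2, hwl']
      exact l.2
    refine ⟨⟨w.1.1, h2⟩, ?_⟩
    show F ⟨w.1.1, h2⟩ = l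
    symm
    exact huniq ⟨w.1.1, h2⟩ l w hw (Prod.ext rfl hwl')

end Cfsg.Agent.S3956
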