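import Cfsg.Statements.S3957
import Mathlib
import Cfsg.Agent.Lib.Helper22.StemOfCentralHom

set_option autoImplicit false
universe u v
open Cfsg

namespace Cfsg.Agent.S3957

/-- Let `Q` be a finite group with Schur multiplier `A` and let `τ : Δ →* Q` be a finite stem extension, `Δ` in the universe of `Q`. Then there is a finite stem extension `σ : Γ →* Q` with kernel isomorphic to `A` (a Schur covering group) and a surjective homomorphism `β : Γ →* Δ` with `τ ∘ β = σ`. -/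
theorem result {Q : Type u} [Group Q] [Finite Q] {A : Type v} [CommGroup A] (hA : Cfsg.HasSchurMultiplier Q A) {Δ : Type u} [Group Δ] [Finite Δ] (τ : Δ →* Q) (hτ : Cfsg.IsStemExtension τ) : ∃ (Γ : Type u) (_ : Group Γ) (_ : Finite Γ) (σ : Γ →* Q), Cfsg.IsStemExtension σ ∧ Nonempty (σ.ker ≃* A) ∧ ∃ β : Γ →* Δ, Function.Surjective β ∧ τ.comp β = σ := by
  classical
  obtain ⟨Γ₀, _, _, σ₀, hσ₀, ⟨e₀⟩⟩ := hA.1
  haveI : Finite A := Finite.of_equiv _ e₀.toEquiv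
  let P : Subgroup (Γ₀ × Δ) := (σ₀.comp (MonoidHom.fst Γ₀ Δ)).eqLocus (τ.comp (MonoidHom.snd Γ₀ Δ))
  have hP : ∀ y : Γ₀ × Δ, y ∈ P ↔ σ₀ y.1 = τ y.2 := fun y => Iff.rfl
  let p₁ : P →* Γ₀ := (MonoidHom.fst Γ₀ Δ).comp P.subtype
  let p₂ : P →* Δ := (MonoidHom.snd Γ₀ Δ).comp P.subtype
  have hp₁ : ∀ y : P, p₁ y = y.1.1 := fun y => rfl
  have hp₂ : ∀ y : P, p₂ y = y.1.2 := fun y => rfl
  have hp₁s : Function.Surjective p₁ := by
    intro g
    obtain ⟨x, hx⟩ := hτ.1 (σ₀ g)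
    exact ⟨⟨(g, x), (hP _).mpr hx.symm⟩, rfl⟩
  have hp₂s : Function.Surjective p₂ := by
    intro d
    obtain ⟨x, hx⟩ := hσ₀.1 (τ d)
    exact ⟨⟨(x, d), (hP _).mpr hx⟩, rfl⟩
  let π : P →* Q := σ₀.comp p₁
  have hπ : ∀ y : P, π y = σ₀ y.1.1 := fun y => rfl
  have hπ' : ∀ y : P, π y = τ y.1.2 := fun y => (hP y.1).mp y.2
  have hπs : Function.Surjective π := hσ₀.1.comp hp₁s
  have hπc : π.ker ≤ Subgroup.center P := by
    intro y hy
    have h1 : y.1.1 ∈ Subgroup.center Γ₀ := hσ₀.2.1 (by rw [MonoidHom.mem_ker, ← hπ]; exact hy)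
    have h2 : y.1.2 ∈ Subgroup.center Δ := hτ.2.1 (by rw [MonoidHom.mem_ker, ← hπ']; exact hy)
    rw [Subgroup.mem_center_iff]
    intro z
    apply Subtype.ext
    apply Prod.ext
    · exact Subgroup.mem_center_iff.mp h1 z.1.1
    · exact Subgroup.mem_center_iff.mp h2 z.1.2
  have hc₁ : (commutator P).map p₁ = commutator Γ₀ := by
    rw [commutator_def, Subgroup.map_commutator, Subgroup.map_top_of_surjective p₁ hp₁s, ← commutator_def]
  have hc₂ : (commutator P).map p₂ = commutator Δ := by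
    rw [commutator_def, Subgroup.map_commutator, Subgroup.map_top_of_surjective p₂ hp₂s, ← commutator_def]
  have hρ : ∀ c ∈ π.ker, ∃ r ∈ π.ker ⊓ commutator P, p₂ r = p₂ c := by
    intro c hc
    have h1 : p₂ c ∈ τ.ker := by rw [MonoidHom.mem_ker, hp₂, ← hπ']; exact hc
    have h2 : p₂ c ∈ (commutator P).map p₂ := by rw [hc₂]; exact hτ.2.2 h1
    obtain ⟨r, hr, hrc⟩ := h2
    have hrk : r ∈ π.ker := by
      rw [MonoidHom.mem_ker, hπ', ← hp₂, hrc]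
      exact h1
    exact ⟨r, ⟨hrk, hr⟩, hrc⟩
  obtain ⟨Γ, _, _, σ, β, hσ, ⟨e⟩, hβ₁, hβ₂⟩ :=
    Cfsg.Agent.Lib.Helper22.exists_stem_of_central_hom π hπs hπc p₂ hρ
  -- the kernel has the right order
  obtain ⟨g, hg⟩ := hA.2 Γ σ hσ
  have hcard : Nat.card A ≤ Nat.card σ.ker := by
    rw [Nat.card_congr e.toEquiv, ← Nat.card_congr e₀.toEquiv]
    let q : ↥(π.ker ⊓ commutator P) → σ₀.ker := fun d =>
      ⟨p₁ d.1, by rw [MonoidHom.mem_ker, hp₁, ← hπ]; exact d.2.1⟩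
    have hq : Function.Surjective q := by
      rintro ⟨k, hk⟩
      have h2 : k ∈ (commutator P).map p₁ := by rw [hc₁]; exact hσ₀.2.2 hk
      obtain ⟨w, hw, hwk⟩ := h2
      have hwker : w ∈ π.ker := by
        rw [MonoidHom.mem_ker, hπ, ← hp₁, hwk]
        exact hk
      exact ⟨⟨w, hwker, hw⟩, Subtype.ext hwk⟩
    exact Nat.card_le_card_of_surjective q hq
  have hgb : Function.Bijective g := hg.bijective_of_nat_card_le hcard
  refine ⟨Γ, inferInstance, inferInstance, σ, hσ, ⟨(MulEquiv.ofBijective g hgb).symm⟩, β, ?_, ?_⟩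
  · -- surjectivity of β
    have hL : ∀ l ∈ τ.ker, ∃ y : Γ, β y = l := by
      intro l hl
      have h2 : l ∈ (commutator P).map p₂ := by rw [hc₂]; exact hτ.2.2 hl
      obtain ⟨w, hw, hwl⟩ := h2
      obtain ⟨y, hy⟩ := hβ₂ w hw
      exact ⟨y, by rw [hy, hwl]⟩
    have hτβ : ∀ y : Γ, τ (β y) = σ y := by
      intro y
      obtain ⟨x, hx₁, hx₂⟩ := hβ₁ y
      rw [hx₂, hx₁, hp₂, ← hπ']
    intro d
    obtain ⟨y, hy⟩ := hσ.1 (τ d)
    have h1 : d * (β y)⁻¹ ∈ τ.ker := by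
      rw [MonoidHom.mem_ker, map_mul, map_inv, hτβ, hy, mul_inv_cancel]
    obtain ⟨y', hy'⟩ := hL _ h1
    exact ⟨y' * y, by rw [map_mul, hy', inv_mul_cancel_right]⟩
  · refine MonoidHom.ext fun y => ?_
    obtain ⟨x, hx₁, hx₂⟩ := hβ₁ y
    rw [MonoidHom.comp_apply, hx₂, hx₁, hp₂, ← hπ']

end Cfsg.Agent.S3957
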