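import Cfsg.Statements.S3960
import Cfsg.Agent.Lib.Helper22.Schur
import Cfsg.Agent.Lib.Helper22.Pullback

set_option autoImplicit false
universe u
open Cfsg

namespace Cfsg.Agent.S3960

open Cfsg.Agent.Lib.Helper22
open scoped commutatorElement

/-- The order of a finite perfect central extension of `Q` is bounded in terms of the order of `Q`. -/
theorem card_le_of_perfect_central {G : Type u} {Q : Type u} [Group G] [Group Q] [Finite G] [Finite Q]
    (hG : Group.IsPerfect G) (π : G →* Q) (hπ : Function.Surjective π)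
    (hker : π.ker ≤ Subgroup.center G) :
    Nat.card G ≤ (Finset.range (Nat.card Q ^ 2 + 1)).sup Subgroup.cardCommutatorBound := by
  obtain ⟨s, hs⟩ := hπ.hasRightInverse
  have hcentral : ∀ y y' : G, π y = π y' → y * y'⁻¹ ∈ Subgroup.center G := by
    intro y y' hyy
    apply hker
    rw [MonoidHom.mem_ker, map_mul, map_inv, hyy, mul_inv_cancel]
  let f : Q × Q → commutatorSet G := fun ab => ⟨⁅s ab.1, s ab.2⁆, ⟨s ab.1, s ab.2, rfl⟩⟩
  have hf : Function.Surjective f := by
    rintro ⟨_, ⟨y₁, y₂, rfl⟩⟩
    refine ⟨(π y₁, π y₂), ?_⟩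
    apply Subtype.ext
    exact (commutator_eq_of_central y₁ y₂ (s (π y₁)) (s (π y₂))
      (hcentral _ _ (hs (π y₁)).symm) (hcentral _ _ (hs (π y₂)).symm)).symm
  have h1 : Nat.card (commutatorSet G) ≤ Nat.card Q ^ 2 := by
    have := Nat.card_le_card_of_surjective f hf
    rwa [Nat.card_prod, ← sq] at this
  have h2 : Nat.card G = Nat.card (commutator G) := by
    rw [hG.commutator_eq_top, Subgroup.card_top]
  rw [h2]
  calc Nat.card (commutator G) ≤ Subgroup.cardCommutatorBound (Nat.card (commutatorSet G)) :=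
        Subgroup.card_commutator_le_of_finite_commutatorSet G
    _ ≤ (Finset.range (Nat.card Q ^ 2 + 1)).sup Subgroup.cardCommutatorBound :=
        Finset.le_sup (Finset.mem_range.mpr (by omega))


/-- A finite perfect group `Q` has a universal central extension: a finite perfect group `G` in the universe of `Q` and a surjective homomorphism `π : G →* Q` with central kernel such that for every group `X` in that universe and every surjective homomorphism `ξ : X →* Q` with central kernel there is exactly one homomorphism `η : G →* X` with `ξ ∘ η = π`. -/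
theorem result {Q : Type u} [Group Q] [Finite Q] (hQ : Group.IsPerfect Q) : ∃ (G : Type u) (_ : Group G) (_ : Finite G) (π : G →* Q), Group.IsPerfect G ∧ Function.Surjective π ∧ π.ker ≤ Subgroup.center G ∧ ∀ (X : Type u) [Group X] (ξ : X →* Q), Function.Surjective ξ → ξ.ker ≤ Subgroup.center X → ∃! η : G →* X, ξ.comp η = π := by
  let S : Set ℕ := {n | ∃ (G : Type u) (_ : Group G) (_ : Finite G) (π : G →* Q),
    Group.IsPerfect G ∧ Function.Surjective π ∧ π.ker ≤ Subgroup.center G ∧ Nat.card G = n}
  have hne : S.Nonempty := by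
    refine ⟨Nat.card Q, Q, inferInstance, inferInstance, MonoidHom.id Q, hQ,
      Function.surjective_id, ?_, rfl⟩
    intro x hx
    rw [MonoidHom.mem_ker, MonoidHom.id_apply] at hx
    rw [hx]; exact Subgroup.one_mem _
  have hbdd : BddAbove S := by
    refine ⟨(Finset.range (Nat.card Q ^ 2 + 1)).sup Subgroup.cardCommutatorBound, ?_⟩
    rintro n ⟨G, _, _, π, hG, hπ, hker, rfl⟩
    exact card_le_of_perfect_central hG π hπ hker
  obtain ⟨G, _, _, π, hG, hπ, hker, hcard⟩ := Nat.sSup_mem hne hbdd
  have hmax : ∀ n ∈ S, n ≤ Nat.card G := by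
    intro n hn
    rw [hcard]
    exact le_csSup hbdd hn
  have hM : ∀ (Γ : Type u) [Group Γ] [Finite Γ] (σ : Γ →* G), Cfsg.IsStemExtension σ → σ.ker = ⊥ := by
    intro E _ _ σ hσ
    have hE : Group.IsPerfect E := isPerfect_of_stem hG σ hσ
    obtain ⟨hsurj, hcen, hcomm⟩ := hσ
    have hES : Nat.card E ∈ S :=
      ⟨E, inferInstance, inferInstance, π.comp σ, hE, hπ.comp hsurj,
        ker_comp_le_center hE σ hcen π hker, rfl⟩
    have h1 := hmax _ hES
    have h2 : Nat.card σ.ker * σ.ker.index = Nat.card E := Subgroup.card_mul_index _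
    have h3 : σ.ker.index = Nat.card G := by
      rw [Subgroup.index_ker, MonoidHom.range_eq_top.mpr hsurj, Subgroup.card_top]
    rw [h3] at h2
    have hGpos : 0 < Nat.card G := Nat.card_pos
    have hkpos : 0 < Nat.card σ.ker := Nat.card_pos
    have h4 : Nat.card σ.ker = 1 := by
      by_contra hne1
      have : 2 ≤ Nat.card σ.ker := by omega
      have : 2 * Nat.card G ≤ Nat.card σ.ker * Nat.card G := Nat.mul_le_mul_right _ this
      omega
    exact Subgroup.card_eq_one.mp h4
  refine ⟨G, inferInstance, inferInstance, π, hG, hπ, hker, ?_⟩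
  intro X _ ξ hξs hξ
  obtain ⟨η, hη⟩ := exists_lift_of_trivial_multiplier hG π hM X ξ hξs hξ
  refine ⟨η, hη, ?_⟩
  intro η' hη'
  exact hom_eq_of_perfect hG ξ hξ η' η (hη'.trans hη.symm)

end Cfsg.Agent.S3960
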