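import Cfsg.Statements.S3961
import Cfsg.Agent.Lib.Helper22.Schur
import Cfsg.Agent.Lib.Helper22.Pullback

set_option autoImplicit false
universe u v
open Cfsg

namespace Cfsg.Agent.S3961

open Cfsg.Agent.Lib.Helper22


/-- Let `π : G →* Q` be a surjective homomorphism with central kernel from a finite perfect group `G` (a perfect cover of `Q`). Then `π` is universal, in the sense that every surjective homomorphism `ξ : X →* Q` with central kernel from a group `X` in the universe of `G` admits a homomorphism `η : G →* X` with `ξ ∘ η = π`, if and only if `G` has trivial Schur multiplier. -/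
theorem result {G : Type u} {Q : Type v} [Group G] [Group Q] [Finite G] (hG : Group.IsPerfect G) (π : G →* Q) (hπ : Function.Surjective π) (hker : π.ker ≤ Subgroup.center G) : (∀ (X : Type u) [Group X] (ξ : X →* Q), Function.Surjective ξ → ξ.ker ≤ Subgroup.center X → ∃ η : G →* X, ξ.comp η = π) ↔ Cfsg.HasCyclicSchurMultiplier G 1 := by
  constructor
  · intro huniv
    apply hasCyclicSchurMultiplier_one_of
    intro E _ _ σ hσ
    have hE : Group.IsPerfect E := isPerfect_of_stem hG σ hσ
    obtain ⟨hsurj, hcen, hcomm⟩ := hσ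
    obtain ⟨η, hη⟩ := huniv E (π.comp σ) (hπ.comp hsurj) (ker_comp_le_center hE σ hcen π hker)
    have h1 : σ.comp η = MonoidHom.id G := by
      apply hom_eq_of_perfect hG π hker
      rw [← MonoidHom.comp_assoc, hη]
      rfl
    have h2 : η.comp σ = MonoidHom.id E := by
      apply hom_eq_of_perfect hE σ hcen
      rw [← MonoidHom.comp_assoc, h1]
      rfl
    rw [eq_bot_iff]
    intro k hk
    rw [Subgroup.mem_bot]
    have := DFunLike.congr_fun h2 k
    simp only [MonoidHom.comp_apply, MonoidHom.id_apply] at this
    rw [← this, MonoidHom.mem_ker.mp hk, map_one]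
  · intro hM X _ ξ hξs hξ
    apply exists_lift_of_trivial_multiplier hG π _ X ξ hξs hξ
    intro Γ _ _ σ hσ
    obtain ⟨τ, hτ⟩ := hM.2 Γ σ hσ
    rw [eq_bot_iff]
    intro x hx
    obtain ⟨y, hy⟩ := hτ ⟨x, hx⟩
    have hy1 : y = 1 := Subsingleton.elim (α := ZMod 1) _ _
    rw [hy1, map_one] at hy
    rw [Subgroup.mem_bot]
    exact (congrArg Subtype.val hy).symm

end Cfsg.Agent.S3961
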