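import Cfsg.Statements.S3962
import Mathlib

set_option autoImplicit false
open Cfsg

namespace Cfsg.Agent.S3962

/-- Let `G` be a perfect group and `π : G →* Q` a surjective homomorphism whose kernel is central. Then `π` maps the centre of `G` onto the centre of `Q`. Taking `π` to be the map to `G ⧸ Z(G)` shows that the central quotient of a perfect group has trivial centre. -/
theorem result {G Q : Type*} [Group G] [Group Q] (hG : Group.IsPerfect G) (π : G →* Q) (hπ : Function.Surjective π) (hker : π.ker ≤ Subgroup.center G) : (Subgroup.center G).map π = Subgroup.center Q := by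
  apply le_antisymm
  · rintro _ ⟨z, hz, rfl⟩
    rw [Subgroup.mem_center_iff]
    intro q
    obtain ⟨g, rfl⟩ := hπ q
    rw [← map_mul, ← map_mul, Subgroup.mem_center_iff.mp hz g]
  · intro q hq
    obtain ⟨z, rfl⟩ := hπ q
    refine ⟨z, ?_, rfl⟩
    have h1 : ∀ g : G, z * g * z⁻¹ * g⁻¹ ∈ Subgroup.center G := by
      intro g
      apply hker
      rw [MonoidHom.mem_ker]
      simp only [map_mul, map_inv]
      have := Subgroup.mem_center_iff.mp hq (π g)
      rw [← this]
      group
    let φ : G →* Subgroup.center G :=
      { toFun := fun g => ⟨z * g * z⁻¹ * g⁻¹, h1 g⟩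
        map_one' := by ext; simp
        map_mul' := by
          intro g h
          ext
          simp only [Subgroup.coe_mul]
          have h2 := Subgroup.mem_center_iff.mp (h1 h) g⁻¹
          calc z * (g * h) * z⁻¹ * (g * h)⁻¹
              = z * g * (z⁻¹ * (z * h * z⁻¹ * h⁻¹)) * g⁻¹ := by group
            _ = z * g * z⁻¹ * ((z * h * z⁻¹ * h⁻¹) * g⁻¹) := by group
            _ = z * g * z⁻¹ * (g⁻¹ * (z * h * z⁻¹ * h⁻¹)) := by rw [h2]
            _ = z * g * z⁻¹ * g⁻¹ * (z * h * z⁻¹ * h⁻¹) := by group }
    have h3 : commutator G ≤ φ.ker := by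
      rw [commutator_def, Subgroup.commutator_le]
      intro a _ b _
      rw [MonoidHom.mem_ker, map_commutatorElement, commutatorElement_def]
      rw [mul_comm' (φ a) (φ b)]
      simp
    rw [hG.commutator_eq_top] at h3
    refine Subgroup.mem_center_iff.mpr ?_
    intro g
    have h4 : φ g = 1 := by
      have : g ∈ φ.ker := h3 (Subgroup.mem_top g)
      exact this
    have h5 : z * g * z⁻¹ * g⁻¹ = 1 := by
      have := congrArg (fun x : Subgroup.center G => (x : G)) h4
      simpa [φ] using this
    calc g * z = (z * g * z⁻¹ * g⁻¹)⁻¹ * (z * g) := by group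
      _ = z * g := by rw [h5]; simp

end Cfsg.Agent.S3962
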