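import Cfsg.Statements.S3964
import Cfsg.Agent.Lib.Helper22.Schur
import Cfsg.Agent.Lib.Helper22.DihedralMult

set_option autoImplicit false
open Cfsg

namespace Cfsg.Agent.S3964

/-- For odd `n` the dihedral group of order `2 n` has trivial Schur multiplier. -/
theorem result (n : ℕ) (hn : Odd n) : Cfsg.HasCyclicSchurMultiplier (DihedralGroup n) 1 := by
  have : NeZero n := ⟨by rintro rfl; exact (Nat.not_odd_iff_even.mpr (by decide : Even 0)) hn⟩
  apply Cfsg.Agent.Lib.Helper22.hasCyclicSchurMultiplier_one_of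
  intro Γ _ _ σ hσ
  have h := Cfsg.Agent.Lib.Helper22.dih_stem_card_ker n σ hσ
  have hg : Nat.gcd n 2 = 1 := Nat.Coprime.gcd_eq_one hn.coprime_two_right
  rw [hg, Nat.div_one] at h
  have hpos : 0 < n := Nat.pos_of_ne_zero (NeZero.ne n)
  have h1 : Nat.card σ.ker * n ∣ 1 * n := by rw [one_mul]; exact h
  have h2 : Nat.card σ.ker ∣ 1 := Nat.dvd_of_mul_dvd_mul_right hpos h1
  exact Subgroup.card_eq_one.mp (Nat.dvd_one.mp h2)

end Cfsg.Agent.S3964
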