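import Cfsg.Statements.S3965
import Cfsg.Agent.Lib.Helper22.Schur
import Cfsg.Agent.Lib.Helper22.DihedralMult

set_option autoImplicit false
open Cfsg

namespace Cfsg.Agent.S3965

/-- For even `n ≥ 2` the dihedral group of order `2 n` has Schur multiplier cyclic of order `2`. -/
theorem result (n : ℕ) [NeZero n] (hn : Even n) : Cfsg.HasCyclicSchurMultiplier (DihedralGroup n) 2 := by
  have hZ : Nat.card (Multiplicative (ZMod 2)) = 2 := by
    rw [Nat.card_congr Multiplicative.toAdd, Nat.card_zmod]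
  refine ⟨⟨QuaternionGroup n, inferInstance, inferInstance,
    Cfsg.Agent.Lib.Helper22.quatToDihedral n,
    Cfsg.Agent.Lib.Helper22.quatToDihedral_isStem n hn, ?_⟩, ?_⟩
  · exact ⟨mulEquivOfPrimeCardEq (p := 2) (Cfsg.Agent.Lib.Helper22.card_ker_quatToDihedral n) hZ⟩
  · intro Γ _ _ σ hσ
    have h := Cfsg.Agent.Lib.Helper22.dih_stem_card_ker n σ hσ
    obtain ⟨m, hm⟩ := hn
    have hmpos : 0 < m := by
      have hpos : 0 < n := Nat.pos_of_ne_zero (NeZero.ne n)
      omega
    have hg : Nat.gcd n 2 = 2 := Nat.gcd_eq_right ⟨m, by omega⟩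
    have hdiv : n / 2 = m := by omega
    rw [hg, hdiv] at h
    have h1 : Nat.card σ.ker * m ∣ 2 * m := by
      have : n = 2 * m := by omega
      rw [← this]; exact h
    have h2 : Nat.card σ.ker ∣ 2 := Nat.dvd_of_mul_dvd_mul_right hmpos h1
    rcases (Nat.dvd_prime Nat.prime_two).mp h2 with h3 | h3
    · refine ⟨1, ?_⟩
      have hb : σ.ker = ⊥ := Subgroup.card_eq_one.mp h3
      rintro ⟨x, hx⟩
      refine ⟨1, ?_⟩
      rw [hb, Subgroup.mem_bot] at hx
      subst hx
      rfl
    · let e : Multiplicative (ZMod 2) ≃* σ.ker := mulEquivOfPrimeCardEq (p := 2) hZ h3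
      exact ⟨e.toMonoidHom, e.surjective⟩

end Cfsg.Agent.S3965
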