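import Cfsg.Statements.S3968
import Mathlib
import Cfsg.Agent.Lib.Helper2.CharBurnside
import Cfsg.Agent.Lib.Helper2.CharMore
import Cfsg.Agent.Lib.Helper2.CharCenter
import Cfsg.Agent.Lib.Helper2.CharLinear

set_option autoImplicit false
open Cfsg

namespace Cfsg.Agent.S3968


open Cfsg.Agent.Lib.Helper2 in
theorem central_of_norm {G : Type*} [Group G] [Finite G] (n : ℕ)
    (ρ : Representation ℂ G (Fin n → ℂ))
    (hfaith : ∀ g : G, ρ.character g = ρ.character 1 → g = 1) (z : G)
    (hz : ‖ρ.character z‖ = (n : ℝ)) : z ∈ Subgroup.center G := by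
  have hfr : Module.finrank ℂ (Fin n → ℂ) = n := by simp
  obtain ⟨ω, hω⟩ := (norm_char_eq_iff ρ z).1 (by rw [hfr]; exact hz)
  rw [Subgroup.mem_center_iff]
  intro g
  have h1 : ρ (g * z * g⁻¹ * z⁻¹) = LinearMap.id := by
    have e1 : ρ (g * z * g⁻¹ * z⁻¹) = ρ g * ρ z * ρ g⁻¹ * ρ z⁻¹ := by
      rw [map_mul, map_mul, map_mul]
    have e2 : ρ g * ρ z * ρ g⁻¹ = ρ z := by
      rw [hω]
      have : ρ g * ρ g⁻¹ = 1 := by rw [← map_mul, mul_inv_cancel, map_one]
      refine LinearMap.ext fun v => ?_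
      have h3 := congrArg (fun T => T v) this
      simp only [Module.End.mul_apply, Module.End.one_apply] at h3
      simp only [Module.End.mul_apply, LinearMap.smul_apply, LinearMap.id_coe, id_eq, map_smul]
      rw [h3]
    rw [e1, e2, ← map_mul, mul_inv_cancel, map_one]
    rfl
  have h2 := (char_eq_finrank_iff ρ _).2 h1
  have h3 : ρ.character (g * z * g⁻¹ * z⁻¹) = ρ.character 1 := by
    rw [h2, Representation.char_one]
  have h4 := hfaith _ h3
  have h5 : g * z = z * g := by
    have : g * z * g⁻¹ * z⁻¹ * z * g = z * g := by rw [h4, one_mul]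
    rw [← this]; group
  exact h5

open Cfsg.Agent.Lib.Helper2


/-- Let `p` be a prime and `G` a finite group with a faithful irreducible complex character of degree `p` (so `G` is an irreducible linear group in `p` variables). If `p ^ 2` divides the order of `G`, then the centre of `G` is nontrivial. -/
theorem result {G : Type*} [Group G] [Finite G] (p : ℕ) (hp : p.Prime) (χ : Cfsg.IrrCharacter G) (hdeg : χ.1 1 = p) (hfaith : ∀ g : G, χ.1 g = χ.1 1 → g = 1) (hdiv : p ^ 2 ∣ Nat.card G) : Subgroup.center G ≠ ⊥ := by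
  classical
  intro hZ
  haveI : Fact p.Prime := ⟨hp⟩
  obtain ⟨n, ρ, hirr, hχ⟩ := χ.2
  haveI := hirr
  have hfr : Module.finrank ℂ (Fin n → ℂ) = n := by simp
  have hn : n = p := by
    have h1 : ρ.character 1 = (n : ℂ) := by rw [Representation.char_one, hfr]
    rw [hχ, hdeg] at h1; exact_mod_cast h1.symm
  subst hn
  have hfaith' : ∀ g : G, ρ.character g = ρ.character 1 → g = 1 := by rw [hχ]; exact hfaith
  have hcent : ∀ z : G, ‖χ.1 z‖ = (n : ℝ) → z = 1 := by
    intro z hz
    have := central_of_norm n ρ hfaith' z (by rw [hχ]; exact hz)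
    rw [hZ] at this; exact Subgroup.mem_bot.1 this
  obtain ⟨P⟩ : Nonempty (Sylow n G) := inferInstance
  have hstar : ∀ x : G, (∀ y ∈ (P : Subgroup G), y * x = x * y) → x ≠ 1 → χ.1 x = 0 := by
    intro x hx hx1
    have hle : (P : Subgroup G) ≤ Subgroup.centralizer ({x} : Set G) := by
      intro y hy; rw [Subgroup.mem_centralizer_iff]; intro h hh
      rw [Set.mem_singleton_iff.1 hh]; exact (hx y hy).symm
    have hcop : Nat.Coprime (Module.finrank ℂ (Fin n → ℂ))
        (Subgroup.centralizer ({x} : Set G)).index := by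
      rw [hfr]
      have hd := Subgroup.index_dvd_of_le hle
      exact (Nat.Prime.coprime_iff_not_dvd hp).2 (fun h => P.not_dvd_index (h.trans hd))
    rcases char_zero_or_norm_of_coprime ρ x hcop with h0 | h1
    · rw [← hχ]; exact h0
    · rw [hfr, hχ] at h1
      exact absurd (hcent x h1) hx1
  haveI : Fintype (P : Subgroup G) := Fintype.ofFinite _
  haveI : Fintype (Cfsg.IrrCharacter (P : Subgroup G)) := Fintype.ofFinite _
  obtain ⟨θ, hθdef⟩ : ∃ θ : ↥(P : Subgroup G) → ℂ, θ = fun h : ↥(P : Subgroup G) => χ.1 (h : G) := ⟨_, rfl⟩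
  have hθ : Cfsg.IsCharacter (P : Subgroup G) θ := by
    rw [hθdef]; exact Cfsg.Agent.Lib.Helper2.IsCharacter.restrict (isCharacter_of_isIrrCharacter χ.2) _
  have hθ1 : θ 1 = (n : ℂ) := by rw [hθdef]; exact hdeg
  have hnat : ∀ ψ : Cfsg.IrrCharacter (P : Subgroup G),
      ∃ m : ℕ, Cfsg.classInner θ ψ = (m : ℂ) :=
    fun ψ => classInner_isCharacter_nat hθ (isCharacter_of_isIrrCharacter ψ.2)
  choose m hm using hnat
  have hdegs : ∀ ψ : Cfsg.IrrCharacter (P : Subgroup G),
      ∃ d : ℕ, 0 < d ∧ (ψ : ↥(P : Subgroup G) → ℂ) 1 = (d : ℂ) := fun ψ => irr_apply_one ψ.2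
  choose d hdpos hd using hdegs
  have hsum : n = ∑ ψ : Cfsg.IrrCharacter (P : Subgroup G), m ψ * d ψ := by
    have h1 := char_apply_one_eq_sum hθ
    simp only [hm, hd] at h1
    rw [hθ1] at h1
    exact_mod_cast h1
  have hexp : ∀ x : (P : Subgroup G), θ x
      = ∑ ψ : Cfsg.IrrCharacter (P : Subgroup G), (m ψ : ℂ) * (ψ : ↥(P : Subgroup G) → ℂ) x := by
    intro x
    have h := congrFun (class_fun_expand θ (isClassFunction_of_isCharacter hθ)) x
    rw [Finset.sum_apply] at h
    simp only [hm, Pi.smul_apply, smul_eq_mul] at h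
    exact h
  have hcardP : n ^ 2 ∣ Nat.card (P : Subgroup G) := P.pow_dvd_card_of_pow_dvd_card hdiv
  have hcardle : n ^ 2 ≤ Nat.card (P : Subgroup G) := Nat.le_of_dvd Nat.card_pos hcardP
  have hn2 : n < n ^ 2 := by nlinarith [hp.two_le]
  obtain ⟨k, hk⟩ := P.isPGroup'.exists_card_eq
  have hdeg_cases : ∀ ψ : Cfsg.IrrCharacter (P : Subgroup G), m ψ ≠ 0 → d ψ = 1 ∨ d ψ = n := by
    intro ψ hmψ
    obtain ⟨r, σ, hσ, hψ⟩ := ψ.2
    haveI := hσ
    have h1 := degree_dvd_index_center σ
    have hfr' : Module.finrank ℂ (Fin r → ℂ) = r := by simp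
    rw [hfr'] at h1
    have hr : r = d ψ := by
      have := hd ψ
      rw [← hψ, Representation.char_one, hfr'] at this
      exact_mod_cast this
    have h2 : (Subgroup.center (P : Subgroup G)).index ∣ n ^ k := by
      rw [← hk]; exact Subgroup.index_dvd_card _
    obtain ⟨j, -, hj⟩ := (Nat.dvd_prime_pow hp).1 (h1.trans h2)
    have hle : d ψ ≤ n := by
      calc d ψ ≤ m ψ * d ψ := Nat.le_mul_of_pos_left _ (Nat.pos_of_ne_zero hmψ)
        _ ≤ ∑ ψ : Cfsg.IrrCharacter (P : Subgroup G), m ψ * d ψ :=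
          Finset.single_le_sum (f := fun ψ => m ψ * d ψ) (fun _ _ => Nat.zero_le _)
          (Finset.mem_univ _)
        _ = n := hsum.symm
    rw [← hr, hj] at hle ⊢
    rcases j with _ | _ | j
    · left; simp
    · right; simp
    · exfalso
      have : n ^ 2 ≤ n ^ (j + 1 + 1) := Nat.pow_le_pow_right hp.pos (by omega)
      omega
  by_cases hcase : ∃ ψ : Cfsg.IrrCharacter (P : Subgroup G), m ψ ≠ 0 ∧ d ψ = n
  · obtain ⟨ψ, hmψ, hdψ⟩ := hcase
    have hsplit : n = m ψ * d ψ + ∑ ψ' ∈ Finset.univ.erase ψ, m ψ' * d ψ' := by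
      exact hsum.trans (Finset.add_sum_erase _ (fun ψ => m ψ * d ψ) (Finset.mem_univ ψ)).symm
    rw [hdψ] at hsplit
    obtain ⟨R, hR⟩ : ∃ R, R = ∑ ψ' ∈ Finset.univ.erase ψ, m ψ' * d ψ' := ⟨_, rfl⟩
    rw [← hR] at hsplit
    have hm1 : m ψ = 1 := by
      rcases Nat.lt_or_ge (m ψ) 2 with h | h
      · omega
      · exfalso
        have h2 : 2 * n ≤ m ψ * n := Nat.mul_le_mul_right n h
        have := hp.pos
        omega
    have hrest : R = 0 := by rw [hm1] at hsplit; omega
    rw [hR] at hrest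
    have hzero : ∀ ψ' : Cfsg.IrrCharacter (P : Subgroup G), ψ' ≠ ψ → m ψ' = 0 := by
      intro ψ' hne
      have := (Finset.sum_eq_zero_iff.1 hrest) ψ' (Finset.mem_erase.2 ⟨hne, Finset.mem_univ _⟩)
      rcases Nat.mul_eq_zero.1 this with h | h
      · exact h
      · exact absurd h (hdpos ψ').ne'
    have hθψ : ∀ x, θ x = (ψ : ↥(P : Subgroup G) → ℂ) x := by
      intro x
      rw [hexp x, Finset.sum_eq_single ψ]
      · rw [hm1]; simp
      · intro ψ' _ hne; rw [hzero ψ' hne]; simp
      · intro h; exact absurd (Finset.mem_univ _) h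
    haveI : Nontrivial (P : Subgroup G) := Finite.one_lt_card_iff_nontrivial.1 (by
      have := hp.two_le
      omega)
    haveI := P.isPGroup'.center_nontrivial
    obtain ⟨z, hz⟩ := exists_ne (1 : Subgroup.center (P : Subgroup G))
    obtain ⟨r, σ, hσ, hψ⟩ := ψ.2
    haveI := hσ
    have hfr' : Module.finrank ℂ (Fin r → ℂ) = r := by simp
    have hr : r = n := by
      have := hd ψ
      rw [← hψ, Representation.char_one, hfr', hdψ] at this
      exact_mod_cast this
    obtain ⟨c, hc⟩ := schur_scalar σ (σ (z : (P : Subgroup G))) (by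
      intro g
      have hzg : (z : (P : Subgroup G)) * g = g * z := (Subgroup.mem_center_iff.1 z.2 g).symm
      change σ z * σ g = σ g * σ z
      rw [← map_mul, ← map_mul, hzg])
    have hnorm : ‖σ.character (z : (P : Subgroup G))‖
        = (Module.finrank ℂ (Fin r → ℂ) : ℝ) := (norm_char_eq_iff σ _).2 ⟨c, hc⟩
    have hnorm' : ‖θ (z : ↥(P : Subgroup G))‖ = (n : ℝ) := by
      rw [hθψ, ← hψ, hnorm, hfr']
      exact_mod_cast hr
    rw [hθdef] at hnorm'
    have h1 := hcent _ hnorm'
    exact hz (Subtype.ext (Subtype.ext h1))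
  · push Not at hcase
    have hlin : ∀ ψ : Cfsg.IrrCharacter (P : Subgroup G), m ψ ≠ 0 → d ψ = 1 := by
      intro ψ hmψ
      rcases hdeg_cases ψ hmψ with h | h
      · exact h
      · exact absurd h (hcase ψ hmψ)
    have hab : ∀ a b : (P : Subgroup G), a * b = b * a := by
      intro a b
      have hx : θ (a * b * a⁻¹ * b⁻¹) = θ 1 := by
        rw [hexp, hexp]
        apply Finset.sum_congr rfl
        intro ψ _
        by_cases hmψ : m ψ = 0
        · rw [hmψ]; simp
        · have h1 : (ψ : ↥(P : Subgroup G) → ℂ) 1 = 1 := by rw [hd ψ, hlin ψ hmψ]; simp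
          obtain ⟨lam, hlam⟩ := hom_of_irr_deg_one ψ.2 h1
          rw [hlam]
          simp only
          have : lam (a * b * a⁻¹ * b⁻¹) = 1 := by
            rw [map_mul, map_mul, map_mul, map_inv, map_inv, mul_comm (lam a) (lam b),
              mul_inv_cancel_right, mul_inv_cancel]
          rw [this, map_one]
      rw [hθdef] at hx
      have h1 := hfaith _ hx
      have h2 : a * b * a⁻¹ * b⁻¹ = 1 := Subtype.ext h1
      have : a * b * a⁻¹ * b⁻¹ * b * a = b * a := by rw [h2, one_mul]
      rw [← this]; group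
    have hvan : ∀ x : (P : Subgroup G), x ≠ 1 → θ x = 0 := by
      intro x hx
      rw [hθdef]
      apply hstar
      · intro y hy
        have := hab ⟨y, hy⟩ x
        exact congrArg Subtype.val this
      · intro h; exact hx (Subtype.ext h)
    obtain ⟨N, hN⟩ := classInner_isCharacter_nat hθ
      (isCharacter_of_isIrrCharacter (isIrrCharacter_one (G := (P : Subgroup G))))
    rw [classInner_def] at hN
    have hsum1 : ∑ g : (P : Subgroup G), θ g * (starRingEnd ℂ) ((fun _ => (1 : ℂ)) g) = (n : ℂ) := by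
      rw [Finset.sum_eq_single 1]
      · rw [hθ1]; simp
      · intro x _ hx; rw [hvan x hx]; simp
      · intro h; exact absurd (Finset.mem_univ _) h
    rw [hsum1] at hN
    have hc0 : (Nat.card (P : Subgroup G) : ℂ) ≠ 0 := by
      have : Nat.card (P : Subgroup G) ≠ 0 := Nat.card_pos.ne'
      exact_mod_cast this
    have hN' : (n : ℂ) = (N : ℂ) * (Nat.card (P : Subgroup G) : ℂ) := by
      rw [← hN]; field_simp
    have hN'' : n = N * Nat.card (P : Subgroup G) := by exact_mod_cast hN'
    rcases Nat.eq_zero_or_pos N with h0 | hpos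
    · rw [h0, zero_mul] at hN''
      exact hp.ne_zero hN''
    · have : Nat.card (P : Subgroup G) ≤ N * Nat.card (P : Subgroup G) :=
        Nat.le_mul_of_pos_left _ hpos
      omega

end Cfsg.Agent.S3968
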