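import Cfsg.Statements.S3969
import Mathlib
import Cfsg.Agent.Lib.Helper22.CoprimeAbelian
import Cfsg.Agent.Lib.Helper22.TI

set_option autoImplicit false
open Cfsg

namespace Cfsg.Agent.S3969

/-- Let `P` be an abelian Sylow `p`-subgroup of the finite group `G`, generated by `d` elements (`d` its minimal number of generators). If the order of `G` is coprime to `(p - 1)(p ^ 2 - 1) ⋯ (p ^ d - 1)`, then `G` has a normal `p`-complement. (The classical statement needs only the largest number of cyclic factors of `P` of equal order in place of `d`; the form here follows from it.) -/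
theorem result {G : Type*} [Group G] [Finite G] (p : ℕ) [Fact p.Prime] (P : Sylow p G) (hab : IsMulCommutative (P : Subgroup G)) (hcop : Nat.Coprime (Nat.card G) (∏ i ∈ Finset.Icc 1 (Group.rank (P : Subgroup G)), (p ^ i - 1))) : Cfsg.HasNormalPComplement p G := by
  classical
  have hNC : Subgroup.normalizer ((P : Subgroup G) : Set G)
      ≤ Subgroup.centralizer ((P : Subgroup G) : Set G) := by
    let ψ : ↥(Subgroup.normalizer ((P : Subgroup G) : Set G)) →* MulAut ↥(P : Subgroup G) :=
      { toFun := fun n =>
          { toFun := fun x => ⟨n * x * n⁻¹, (Subgroup.mem_normalizer_iff.mp n.2 x).mp x.2⟩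
            invFun := fun x => ⟨n⁻¹ * x * n, (Subgroup.mem_normalizer_iff''.mp n.2 x).mp x.2⟩
            left_inv := fun x => Subtype.ext (by simp [mul_assoc])
            right_inv := fun x => Subtype.ext (by simp [mul_assoc])
            map_mul' := fun x y => Subtype.ext (by simp [mul_assoc]) }
        map_one' := by ext x; simp
        map_mul' := fun a b => by ext x; simp [mul_assoc] }
    have hψ : ∀ (n : ↥(Subgroup.normalizer ((P : Subgroup G) : Set G))) (x : ↥(P : Subgroup G)),
        ((ψ n x : ↥(P : Subgroup G)) : G) = n * x * n⁻¹ := fun n x => rfl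
    have hT : (Subgroup.centralizer ((P : Subgroup G) : Set G)).subgroupOf
        (Subgroup.normalizer ((P : Subgroup G) : Set G)) = ⊤ := by
      apply Lib.Helper22.eq_top_of_sylow_le
      intro r hr
      by_cases hrp : r = p
      · subst hrp
        refine ⟨P.subtype Subgroup.le_normalizer, ?_⟩
        rw [Sylow.coe_subtype]
        intro x hx
        rw [Subgroup.mem_subgroupOf] at hx ⊢
        rw [Subgroup.mem_centralizer_iff]
        intro h hh
        exact congrArg Subtype.val (mul_comm' (⟨h, hh⟩ : ↥(P : Subgroup G)) ⟨x, hx⟩)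
      · obtain ⟨R⟩ := (inferInstance :
          Nonempty (Sylow r ↥(Subgroup.normalizer ((P : Subgroup G) : Set G))))
        refine ⟨R, ?_⟩
        by_contra hcon
        obtain ⟨g, hgR, hgC⟩ := SetLike.not_le_iff_exists.mp hcon
        rw [Subgroup.mem_subgroupOf, Subgroup.mem_centralizer_iff] at hgC
        push Not at hgC
        obtain ⟨x, hxP, hxg⟩ := hgC
        have hact : ∃ (g' : ↥(R : Subgroup ↥(Subgroup.normalizer ((P : Subgroup G) : Set G))))
            (x' : ↥(P : Subgroup G)),
            (ψ.comp (R : Subgroup ↥(Subgroup.normalizer ((P : Subgroup G) : Set G))).subtype) g' x'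
              ≠ x' := by
          refine ⟨⟨g, hgR⟩, ⟨x, hxP⟩, ?_⟩
          intro h
          apply hxg
          have h' : (g : G) * x * (g : G)⁻¹ = x := congrArg Subtype.val h
          calc x * (g : G) = ((g : G) * x * (g : G)⁻¹) * (g : G) := by rw [h']
            _ = (g : G) * x := by group
        obtain ⟨i, hi1, hid, hri⟩ := Lib.Helper22.exists_dvd_pow_sub_one_of_coprime_action p r
          (Ne.symm hrp) P.isPGroup' R.isPGroup'
          (ψ.comp (R : Subgroup ↥(Subgroup.normalizer ((P : Subgroup G) : Set G))).subtype) hact
        have hrG : r ∣ Nat.card G := by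
          obtain ⟨k, hk⟩ := R.isPGroup' ⟨g, hgR⟩
          have hk' : (g : G) ^ (r ^ k) = 1 := by
            have := congrArg Subtype.val (congrArg Subtype.val hk)
            simpa using this
          obtain ⟨j, -, hj⟩ := (Nat.dvd_prime_pow hr.out).mp (orderOf_dvd_of_pow_eq_one hk')
          rcases Nat.eq_zero_or_pos j with h0 | hpos
          · exfalso
            rw [h0, pow_zero, orderOf_eq_one_iff] at hj
            apply hxg
            rw [hj, mul_one, one_mul]
          · have h1 : r ∣ orderOf (g : G) := by
              rw [hj]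
              exact dvd_pow_self r hpos.ne'
            exact h1.trans (orderOf_dvd_natCard _)
        have hrprod : r ∣ ∏ i ∈ Finset.Icc 1 (Group.rank (P : Subgroup G)), (p ^ i - 1) :=
          hri.trans (Finset.dvd_prod_of_mem _ (Finset.mem_Icc.mpr ⟨hi1, hid⟩))
        have h3 := Nat.dvd_gcd hrG hrprod
        rw [hcop.gcd_eq_one] at h3
        exact hr.out.one_lt.ne' (Nat.dvd_one.mp h3)
    rw [Subgroup.subgroupOf_eq_top] at hT
    exact hT
  exact ⟨P, (MonoidHom.transferSylow P hNC).ker, inferInstance,
    MonoidHom.ker_transferSylow_isComplement' P hNC⟩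

end Cfsg.Agent.S3969
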