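import Cfsg.Statements.S3971
import Mathlib
import Cfsg.Agent.Lib.Helper22.CyclicIndexTwo
import Cfsg.Agent.Lib.Helper22.TI
import Cfsg.Agent.Lib.Helper1.FrobPC

set_option autoImplicit false
open Cfsg

namespace Cfsg.Agent.S3971

/-- Let `G` be a finite group of order `2 ^ a * n` with `n` odd and not divisible by `3`, and suppose `G` has an element of order `2 ^ (a - 1)` (so a Sylow `2`-subgroup has a cyclic subgroup of index at most `2`). Then `G` has a normal subgroup of order `n`. -/
theorem result {G : Type*} [Group G] [Finite G] (a n : ℕ) (hG : Nat.card G = 2 ^ a * n) (hn : Odd n) (h3 : ¬ 3 ∣ n) (hx : ∃ x : G, orderOf x = 2 ^ (a - 1)) : ∃ N : Subgroup G, N.Normal ∧ Nat.card N = n := by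
  classical
  haveI : Fact (Nat.Prime 2) := ⟨Nat.prime_two⟩
  obtain ⟨x, hx⟩ := hx
  have hn0 : n ≠ 0 := by
    rintro rfl
    simp at hn
  have h2n : ¬ 2 ∣ n := by
    rcases hn with ⟨k, rfl⟩
    omega
  obtain ⟨P, hxP⟩ := IsPGroup.exists_le_sylow
    (IsPGroup.of_card (n := a - 1) (by rw [Nat.card_zpowers, hx]) :
      IsPGroup 2 (Subgroup.zpowers x))
  have hPcard : Nat.card (P : Subgroup G) = 2 ^ a := by
    rw [Sylow.card_eq_multiplicity, hG, Nat.factorization_mul (by positivity) hn0,
      Nat.Prime.factorization_pow Nat.prime_two]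
    simp [Nat.factorization_eq_zero_of_not_dvd h2n]
  have hrel : (Subgroup.zpowers x).relIndex (P : Subgroup G) ≤ 2
      ∧ (Subgroup.zpowers x).relIndex (P : Subgroup G) ≠ 0 := by
    have h1 := Subgroup.card_mul_index ((Subgroup.zpowers x).subgroupOf (P : Subgroup G))
    rw [Nat.card_congr (Subgroup.subgroupOfEquivOfLe hxP).toEquiv, Nat.card_zpowers, hx,
      hPcard] at h1
    have h2 : ((Subgroup.zpowers x).subgroupOf (P : Subgroup G)).index
        = (Subgroup.zpowers x).relIndex (P : Subgroup G) := rfl
    rw [h2] at h1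
    have h5 : 0 < 2 ^ (a - 1) := by positivity
    constructor
    · by_contra hcon
      push Not at hcon
      have h3 : 2 ^ (a - 1) * 3 ≤ 2 ^ (a - 1) * (Subgroup.zpowers x).relIndex (P : Subgroup G) :=
        Nat.mul_le_mul_left _ hcon
      have h4 : 2 ^ a ≤ 2 * 2 ^ (a - 1) := by
        calc 2 ^ a ≤ 2 ^ (a - 1 + 1) := Nat.pow_le_pow_right (by norm_num) (by omega)
          _ = 2 * 2 ^ (a - 1) := by rw [pow_succ, mul_comm]
      linarith
    · intro h0
      rw [h0, mul_zero] at h1
      have h6 : 0 < 2 ^ a := by positivity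
      omega
  have hF : Lib.Helper1.FrobCond 2 G := by
    apply Lib.Helper1.frobCond_of_sylow P
    intro Q hQP g hg hcop
    have hQ2 : IsPGroup 2 Q := P.isPGroup'.to_le hQP
    haveI : IsCyclic ((Subgroup.zpowers x).subgroupOf Q) :=
      isCyclic_of_injective ((Q.subtype).subgroupComap (Subgroup.zpowers x)) (by
        intro u v huv
        have h1 : ((u : ↥Q) : G) = ((v : ↥Q) : G) := congrArg (fun w : ↥(Subgroup.zpowers x) => (w : G)) huv
        exact Subtype.ext (Subtype.ext h1))
    obtain ⟨c', hc'⟩ := IsCyclic.exists_generator (α := (Subgroup.zpowers x).subgroupOf Q)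
    have hcQ : Nat.card Q ≤ 2 * orderOf (c' : ↥Q) := by
      rw [Subgroup.orderOf_coe, orderOf_eq_card_of_forall_mem_zpowers hc']
      have h1 := Subgroup.card_mul_index ((Subgroup.zpowers x).subgroupOf Q)
      have h2 : ((Subgroup.zpowers x).subgroupOf Q).index ≤ 2 :=
        (Subgroup.relIndex_le_of_le_right hQP hrel.2).trans hrel.1
      rw [← h1]
      calc Nat.card ((Subgroup.zpowers x).subgroupOf Q) * ((Subgroup.zpowers x).subgroupOf Q).index
          ≤ Nat.card ((Subgroup.zpowers x).subgroupOf Q) * 2 := Nat.mul_le_mul_left _ h2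
        _ = 2 * Nat.card ((Subgroup.zpowers x).subgroupOf Q) := mul_comm _ _
    have hg3 : ¬ 3 ∣ orderOf g := by
      intro h
      have h1 : 3 ∣ 2 ^ a * n := by
        rw [← hG]
        exact h.trans (orderOf_dvd_natCard g)
      rcases (Nat.Prime.dvd_mul Nat.prime_three).mp h1 with h2 | h2
      · have h4 := Nat.Prime.dvd_of_dvd_pow Nat.prime_three h2
        omega
      · exact h3 h2
    have hker : Subgroup.zpowers (⟨g, hg⟩ : ↥(Subgroup.normalizer (Q : Set G)))
        ≤ (Lib.Helper22.normalizerConjHom Q).ker := by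
      rw [← Subgroup.subgroupOf_eq_top]
      apply Lib.Helper22.eq_top_of_sylow_le
      intro r hr
      obtain ⟨R⟩ := (inferInstance : Nonempty (Sylow r
        ↥(Subgroup.zpowers (⟨g, hg⟩ : ↥(Subgroup.normalizer (Q : Set G))))))
      refine ⟨R, ?_⟩
      by_cases hr5 : 5 ≤ r
      · intro u hu
        rw [Subgroup.mem_subgroupOf, MonoidHom.mem_ker]
        ext q
        have h1 := Lib.Helper22.trivial_action_of_cyclic_index_two r hr5 hQ2 R.isPGroup'
          (c' : ↥Q) hcQ
          (((Lib.Helper22.normalizerConjHom Q).comp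
            (Subgroup.zpowers (⟨g, hg⟩ : ↥(Subgroup.normalizer (Q : Set G)))).subtype).comp
            (R : Subgroup ↥(Subgroup.zpowers
              (⟨g, hg⟩ : ↥(Subgroup.normalizer (Q : Set G))))).subtype) ⟨u, hu⟩ q
        exact congrArg Subtype.val h1
      · have hrdvd : ¬ r ∣ orderOf g := by
          have hr2 := hr.out.two_le
          have hcases : r = 2 ∨ r = 3 := by
            push Not at hr5
            interval_cases r
            · left; rfl
            · right; rfl
            · exact absurd hr.out (by norm_num)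
          rcases hcases with rfl | rfl
          · intro h
            have h1 := Nat.Coprime.eq_one_of_dvd hcop.symm h
            omega
          · exact hg3
        have hRbot : (R : Subgroup ↥(Subgroup.zpowers
            (⟨g, hg⟩ : ↥(Subgroup.normalizer (Q : Set G))))) = ⊥ := by
          apply Subgroup.eq_bot_of_card_eq
          obtain ⟨k, hk⟩ := IsPGroup.iff_card.mp R.isPGroup'
          rcases Nat.eq_zero_or_pos k with h0 | hpos
          · rw [hk, h0, pow_zero]
          · exfalso
            apply hrdvd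
            have h1 : r ∣ Nat.card (R : Subgroup ↥(Subgroup.zpowers
                (⟨g, hg⟩ : ↥(Subgroup.normalizer (Q : Set G))))) := by
              rw [hk]
              exact dvd_pow_self r hpos.ne'
            have h2 : Nat.card (R : Subgroup ↥(Subgroup.zpowers
                (⟨g, hg⟩ : ↥(Subgroup.normalizer (Q : Set G))))) ∣ Nat.card (Subgroup.zpowers
                (⟨g, hg⟩ : ↥(Subgroup.normalizer (Q : Set G)))) :=
              Subgroup.card_subgroup_dvd_card _
            rw [Nat.card_zpowers, Subgroup.orderOf_mk] at h2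
            exact h1.trans h2
        rw [hRbot]
        exact bot_le
    have hgker : (Lib.Helper22.normalizerConjHom Q) ⟨g, hg⟩ = 1 :=
      hker (Subgroup.mem_zpowers _)
    rw [Subgroup.mem_centralizer_iff]
    intro q hq
    have h2 : g * q * g⁻¹ = q := congrArg (fun f : MulAut ↥Q => ((f ⟨q, hq⟩ : ↥Q) : G)) hgker
    calc q * g = (g * q * g⁻¹) * g := by rw [h2]
      _ = g * q := by group
  have hcomp := Lib.Helper1.frobCond_isComplement' hF P
  refine ⟨Cfsg.pResidual 2 G, Lib.Helper1.pResidual_normal 2, ?_⟩
  have h1 := hcomp.card_mul_card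
  rw [hPcard, hG, mul_comm (2 ^ a) n] at h1
  exact Nat.eq_of_mul_eq_mul_right (by positivity) h1

end Cfsg.Agent.S3971
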