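import Cfsg.Statements.S3975
import Mathlib
import Cfsg.Agent.Lib.Helper22.Wielandt

set_option autoImplicit false
open Cfsg

namespace Cfsg.Agent.S3975

/-- Let `p` be a prime and `G` a finite group whose order is divisible by `p ^ β`. Then the number of subgroups of `G` of order `p ^ β` is congruent to `1` modulo `p`. (When `p ^ β` is the full power of `p` dividing the order, these are the Sylow `p`-subgroups and this is the usual Sylow count.) -/
theorem result {G : Type*} [Group G] [Finite G] (p β : ℕ) (hp : p.Prime) (hdiv : p ^ β ∣ Nat.card G) : Nat.card {H : Subgroup G // Nat.card H = p ^ β} ≡ 1 [MOD p] := by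
  classical
  obtain ⟨m, hm⟩ := hdiv
  have hmpos : m ≠ 0 := by
    rintro rfl
    rw [mul_zero] at hm
    have : 0 < Nat.card G := Nat.card_pos
    omega
  have h1 := Lib.Helper22.wielandt_count (G := G) p β m hp hm
  haveI : NeZero (p ^ β * m) := ⟨Nat.mul_ne_zero (pow_pos hp.pos β).ne' hmpos⟩
  have hC : Nat.card (Multiplicative (ZMod (p ^ β * m))) = p ^ β * m := by
    rw [Nat.card_congr Multiplicative.toAdd, Nat.card_zmod]
  have h2 := Lib.Helper22.wielandt_count (G := Multiplicative (ZMod (p ^ β * m))) p β m hp hC
  rw [Lib.Helper22.card_subgroups_cyclic (p ^ β) m (pow_pos hp.pos β) hC, one_mul] at h2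
  have h3 : Nat.card {H : Subgroup G // Nat.card H = p ^ β} * m ≡ 1 * m [MOD p * m] := by
    rw [one_mul]
    exact h1.symm.trans h2
  exact Nat.ModEq.mul_right_cancel' hmpos h3

end Cfsg.Agent.S3975
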