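import Cfsg.Statements.S3976
import Mathlib
import Cfsg.Agent.S3975
import Cfsg.Agent.Lib.Helper22.Wielandt

set_option autoImplicit false
open Cfsg

namespace Cfsg.Agent.S3976

open scoped Pointwise

/-- Let `p` be a prime and `G` a group of order `p ^ m`. For every `s ≤ m` the number of normal subgroups of `G` of order `p ^ s` is congruent to `1` modulo `p`. -/
theorem result {G : Type*} [Group G] [Finite G] (p m s : ℕ) (hp : p.Prime) (hG : Nat.card G = p ^ m) (hs : s ≤ m) : Nat.card {H : Subgroup G // H.Normal ∧ Nat.card H = p ^ s} ≡ 1 [MOD p] := by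
  classical
  haveI : Fact p.Prime := ⟨hp⟩
  haveI : Fintype (Subgroup G) := Fintype.ofFinite _
  have h1 := Cfsg.Agent.S3975.result (G := G) p s hp (by rw [hG]; exact pow_dvd_pow p hs)
  haveI : Finite (ConjAct G) := Finite.of_equiv G ConjAct.toConjAct.toEquiv
  have hGp : IsPGroup p (ConjAct G) := (IsPGroup.of_card hG).of_equiv ConjAct.toConjAct
  have h2 : p ∣ Nat.card {H : Subgroup G // Nat.card H = p ^ s ∧ ¬ H.Normal} := by
    apply Lib.Helper22.dvd_card_subtype_of_dvd_index (G := ConjAct G)
    · rintro g H ⟨hH, hHn⟩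
      refine ⟨?_, ?_⟩
      · rw [← hH]
        exact (Nat.card_congr (Subgroup.equivSMul g H).toEquiv).symm
      · intro hn
        apply hHn
        have h3 := Subgroup.Normal.conjAct hn g⁻¹
        rw [inv_smul_smul] at h3
        rw [h3]
        exact hn
    · rintro H ⟨hH, hHn⟩
      obtain ⟨k, hk⟩ := hGp.index (MulAction.stabilizer (ConjAct G) H)
      rcases Nat.eq_zero_or_pos k with h0 | hpos
      · exfalso
        apply hHn
        rw [h0, pow_zero, Subgroup.index_eq_one] at hk
        refine ⟨fun n hn g => ?_⟩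
        have hg : ConjAct.toConjAct g ∈ MulAction.stabilizer (ConjAct G) H := by
          rw [hk]
          exact Subgroup.mem_top _
        have hg' : ConjAct.toConjAct g • H = H := hg
        have h4 := Subgroup.smul_mem_pointwise_smul n (ConjAct.toConjAct g) H hn
        rw [hg', ConjAct.toConjAct_smul] at h4
        exact h4
      · rw [hk]
        exact dvd_pow_self p hpos.ne'
  have hsplit : Nat.card {H : Subgroup G // Nat.card H = p ^ s}
      = Nat.card {H : Subgroup G // H.Normal ∧ Nat.card H = p ^ s}
        + Nat.card {H : Subgroup G // Nat.card H = p ^ s ∧ ¬ H.Normal} := by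
    rw [Nat.card_eq_fintype_card, Nat.card_eq_fintype_card, Nat.card_eq_fintype_card,
      Fintype.card_subtype, Fintype.card_subtype, Fintype.card_subtype]
    rw [← Finset.card_filter_add_card_filter_not (p := fun H : Subgroup G => H.Normal)
      (s := Finset.univ.filter (fun H : Subgroup G => Nat.card H = p ^ s))]
    congr 1
    · congr 1
      ext X
      simp only [Finset.mem_filter, Finset.mem_univ, true_and]
      exact ⟨fun h => ⟨h.2, h.1⟩, fun h => ⟨h.2, h.1⟩⟩
    · congr 1
      ext X
      simp only [Finset.mem_filter, Finset.mem_univ, true_and]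
  obtain ⟨c, hc⟩ := h2
  rw [hsplit, hc] at h1
  have h5 : (Nat.card {H : Subgroup G // H.Normal ∧ Nat.card H = p ^ s} + p * c) % p
      = Nat.card {H : Subgroup G // H.Normal ∧ Nat.card H = p ^ s} % p :=
    Nat.add_mul_mod_self_left _ _ _
  show Nat.card {H : Subgroup G // H.Normal ∧ Nat.card H = p ^ s} % p = 1 % p
  rw [← h5]
  exact h1

end Cfsg.Agent.S3976
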