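import Cfsg.Statements.S3978
import Mathlib
import Cfsg.Agent.Lib.Helper22.ProjRep
import Cfsg.Agent.Lib.Helper22.Schur

set_option autoImplicit false
open Cfsg

namespace Cfsg.Agent.S3978

/-- A finite group `Q` has trivial Schur multiplier if and only if, for every `n`, every homomorphism from `Q` to the projective general linear group (the quotient of `GL n ℂ` by its centre) lifts to a homomorphism into `GL n ℂ`. -/
theorem result {Q : Type*} [Group Q] [Finite Q] : Cfsg.HasCyclicSchurMultiplier Q 1 ↔ ∀ (n : ℕ) (γ : Q →* (GL (Fin n) ℂ ⧸ Subgroup.center (GL (Fin n) ℂ))), ∃ ρ : Q →* GL (Fin n) ℂ, (QuotientGroup.mk' (Subgroup.center (GL (Fin n) ℂ))).comp ρ = γ := by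
  classical
  constructor
  · intro hA n γ
    rcases Nat.eq_zero_or_pos n with rfl | hn
    · refine ⟨1, ?_⟩
      apply MonoidHom.ext
      intro q
      obtain ⟨g, hg⟩ := QuotientGroup.mk_surjective (γ q)
      rw [← hg]
      show (QuotientGroup.mk (1 : GL (Fin 0) ℂ) : GL (Fin 0) ℂ ⧸ Subgroup.center (GL (Fin 0) ℂ)) = QuotientGroup.mk g
      congr 1
      exact Subsingleton.elim _ _
    · haveI : NeZero n := ⟨hn.ne'⟩
      obtain ⟨E, _, _, π, ρ₀, hπ, hc, hγ, hcen⟩ :=
        Cfsg.Agent.Lib.Helper22.exists_finite_central_of_projective n γ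
      obtain ⟨f, hf⟩ := Cfsg.Agent.Lib.Helper22.exists_surjective_of_central hA π hπ hc
      have hbot : π.ker ⊓ commutator E = ⊥ := by
        rw [eq_bot_iff]
        intro x hx
        obtain ⟨a, ha⟩ := hf ⟨x, hx⟩
        have h1 : a = 1 := Subsingleton.elim _ _
        rw [h1, map_one] at ha
        rw [Subgroup.mem_bot]
        exact (congrArg Subtype.val ha).symm
      obtain ⟨ρ, hρ, hρ1⟩ := Cfsg.Agent.Lib.Helper22.exists_untwist n ρ₀ π.ker hbot hcen
      have hle : π.ker ≤ ρ.ker := fun c hc' => hρ1 c hc'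
      refine ⟨π.liftOfRightInverse (Function.surjInv hπ) (Function.rightInverse_surjInv hπ) ⟨ρ, hle⟩, ?_⟩
      apply MonoidHom.ext
      intro q
      obtain ⟨x, rfl⟩ := hπ q
      show (QuotientGroup.mk ((π.liftOfRightInverse (Function.surjInv hπ) (Function.rightInverse_surjInv hπ) ⟨ρ, hle⟩) (π x)) : GL (Fin n) ℂ ⧸ Subgroup.center (GL (Fin n) ℂ)) = γ (π x)
      rw [MonoidHom.liftOfRightInverse_comp_apply]
      show (QuotientGroup.mk (ρ x) : GL (Fin n) ℂ ⧸ Subgroup.center (GL (Fin n) ℂ)) = γ (π x)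
      rw [hρ, hγ]
  · intro h
    apply Cfsg.Agent.Lib.Helper22.hasCyclicSchurMultiplier_one_of
    intro Γ _ _ σ hσ
    rw [eq_bot_iff]
    intro k hk
    rw [Subgroup.mem_bot]
    by_contra hk1
    obtain ⟨n, ρ, γ, hγ, hne⟩ :=
      Cfsg.Agent.Lib.Helper22.exists_proj_rep_detecting σ hσ.1 hσ.2.1 k hk hk1
    obtain ⟨ρ', hρ'⟩ := h n γ
    have h1 := Cfsg.Agent.Lib.Helper22.eq_on_commutator_of_mk_eq ρ (ρ'.comp σ) (fun x => by
      rw [← hγ]
      exact (DFunLike.congr_fun hρ' (σ x)).symm) (hσ.2.2 hk)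
    apply hne
    rw [h1]
    show ρ' (σ k) = 1
    rw [MonoidHom.mem_ker.mp hk, map_one]

end Cfsg.Agent.S3978
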