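import Cfsg.Statements.S3980
import Mathlib
import Cfsg.Agent.Lib.Helper22.StemOfCentral
import Cfsg.Agent.Lib.Helper22.StemProd

set_option autoImplicit false
universe u v w
open Cfsg

namespace Cfsg.Agent.S3980


open scoped commutatorElement

theorem map_mem_commutator {G H : Type*} [Group G] [Group H] (f : G →* H) {x : G}
    (hx : x ∈ commutator G) : f x ∈ commutator H := by
  have h2 : (commutator G).map f ≤ commutator H := by
    rw [commutator_def, Subgroup.map_commutator, commutator_def]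
    exact Subgroup.commutator_mono le_top le_top
  exact h2 (Subgroup.mem_map_of_mem _ hx)


/-- Let `Q₁` and `Q₂` be finite groups whose commutator quotients have coprime orders, with Schur multipliers `A` and `B`. Then the Schur multiplier of `Q₁ × Q₂` is isomorphic to `A × B`. -/
theorem result {Q₁ : Type u} {Q₂ : Type v} [Group Q₁] [Group Q₂] [Finite Q₁] [Finite Q₂] {A B : Type w} [CommGroup A] [CommGroup B] (hA : Cfsg.HasSchurMultiplier Q₁ A) (hB : Cfsg.HasSchurMultiplier Q₂ B) (hcop : Nat.Coprime (Nat.card (Abelianization Q₁)) (Nat.card (Abelianization Q₂))) : Cfsg.HasSchurMultiplier (Q₁ × Q₂) (A × B) := by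
  classical
  constructor
  · obtain ⟨Γ₁, _, _, σ₁, hσ₁, ⟨e₁⟩⟩ := hA.1
    obtain ⟨Γ₂, _, _, σ₂, hσ₂, ⟨e₂⟩⟩ := hB.1
    have hk : ∀ y : Γ₁ × Γ₂, y ∈ (σ₁.prodMap σ₂).ker ↔ σ₁ y.1 = 1 ∧ σ₂ y.2 = 1 := by
      intro y
      rw [MonoidHom.mem_ker]
      constructor
      · intro h
        exact ⟨congrArg Prod.fst h, congrArg Prod.snd h⟩
      · rintro ⟨h1, h2⟩
        exact Prod.ext h1 h2
    refine ⟨Γ₁ × Γ₂, inferInstance, inferInstance, σ₁.prodMap σ₂, ⟨?_, ?_, ?_⟩, ?_⟩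
    · rintro ⟨q₁, q₂⟩
      obtain ⟨x₁, hx₁⟩ := hσ₁.1 q₁
      obtain ⟨x₂, hx₂⟩ := hσ₂.1 q₂
      exact ⟨(x₁, x₂), Prod.ext hx₁ hx₂⟩
    · intro y hy
      obtain ⟨h1, h2⟩ := (hk y).mp hy
      have h1' := hσ₁.2.1 (MonoidHom.mem_ker.mpr h1)
      have h2' := hσ₂.2.1 (MonoidHom.mem_ker.mpr h2)
      rw [Subgroup.mem_center_iff]
      intro z
      apply Prod.ext
      · exact Subgroup.mem_center_iff.mp h1' z.1
      · exact Subgroup.mem_center_iff.mp h2' z.2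
    · intro y hy
      obtain ⟨h1, h2⟩ := (hk y).mp hy
      have h1' := hσ₁.2.2 (MonoidHom.mem_ker.mpr h1)
      have h2' := hσ₂.2.2 (MonoidHom.mem_ker.mpr h2)
      have h3 : y = (MonoidHom.inl Γ₁ Γ₂ y.1) * (MonoidHom.inr Γ₁ Γ₂ y.2) := by
        apply Prod.ext
        · show y.1 = y.1 * 1
          rw [mul_one]
        · show y.2 = 1 * y.2
          rw [one_mul]
      rw [h3]
      exact Subgroup.mul_mem _ (map_mem_commutator _ h1') (map_mem_commutator _ h2')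
    · have hk₁ : ∀ y : (σ₁.prodMap σ₂).ker, y.1.1 ∈ σ₁.ker := fun y =>
        MonoidHom.mem_ker.mpr ((hk y.1).mp y.2).1
      have hk₂ : ∀ y : (σ₁.prodMap σ₂).ker, y.1.2 ∈ σ₂.ker := fun y =>
        MonoidHom.mem_ker.mpr ((hk y.1).mp y.2).2
      refine ⟨{
        toFun := fun y => (e₁ ⟨y.1.1, hk₁ y⟩, e₂ ⟨y.1.2, hk₂ y⟩)
        invFun := fun ab => ⟨((e₁.symm ab.1 : Γ₁), (e₂.symm ab.2 : Γ₂)),
          (hk _).mpr ⟨MonoidHom.mem_ker.mp (e₁.symm ab.1).2, MonoidHom.mem_ker.mp (e₂.symm ab.2).2⟩⟩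
        left_inv := ?_
        right_inv := ?_
        map_mul' := ?_ }⟩
      · intro y
        apply Subtype.ext
        apply Prod.ext
        · show ((e₁.symm (e₁ ⟨y.1.1, hk₁ y⟩) : σ₁.ker) : Γ₁) = y.1.1
          rw [MulEquiv.symm_apply_apply]
        · show ((e₂.symm (e₂ ⟨y.1.2, hk₂ y⟩) : σ₂.ker) : Γ₂) = y.1.2
          rw [MulEquiv.symm_apply_apply]
      · intro ab
        apply Prod.ext
        · show e₁ ⟨((e₁.symm ab.1 : σ₁.ker) : Γ₁), _⟩ = ab.1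
          rw [Subtype.coe_eta, MulEquiv.apply_symm_apply]
        · show e₂ ⟨((e₂.symm ab.2 : σ₂.ker) : Γ₂), _⟩ = ab.2
          rw [Subtype.coe_eta, MulEquiv.apply_symm_apply]
      · intro y y'
        apply Prod.ext
        · show e₁ ⟨(y * y').1.1, hk₁ (y * y')⟩ = e₁ ⟨y.1.1, hk₁ y⟩ * e₁ ⟨y'.1.1, hk₁ y'⟩
          rw [← map_mul]
          rfl
        · show e₂ ⟨(y * y').1.2, hk₂ (y * y')⟩ = e₂ ⟨y.1.2, hk₂ y⟩ * e₂ ⟨y'.1.2, hk₂ y'⟩
          rw [← map_mul]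
          rfl
  · intro Γ _ _ σ hσ
    let H₁ : Subgroup Γ := ((MonoidHom.snd Q₁ Q₂).comp σ).ker
    let H₂ : Subgroup Γ := ((MonoidHom.fst Q₁ Q₂).comp σ).ker
    have hH₁ : ∀ a : Γ, a ∈ H₁ ↔ (σ a).2 = 1 := fun a => Iff.rfl
    have hH₂ : ∀ a : Γ, a ∈ H₂ ↔ (σ a).1 = 1 := fun a => Iff.rfl
    have hcomm : ∀ x ∈ H₁, ∀ y ∈ H₂, x * y = y * x := by
      intro x hx y hy
      have h1 := Cfsg.Agent.Lib.Helper22.comm_pow_card_eq_one σ hσ.1 hσ.2.1 x y
        ((hH₁ x).mp hx) ((hH₂ y).mp hy)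
      let σ' : Γ →* Q₂ × Q₁ := (MulEquiv.prodComm : Q₁ × Q₂ ≃* Q₂ × Q₁).toMonoidHom.comp σ
      have hσ'1 : ∀ a : Γ, (σ' a).1 = (σ a).2 := fun a => rfl
      have hσ'2 : ∀ a : Γ, (σ' a).2 = (σ a).1 := fun a => rfl
      have hσ's : Function.Surjective σ' :=
        (MulEquiv.prodComm : Q₁ × Q₂ ≃* Q₂ × Q₁).surjective.comp hσ.1
      have hσ'c : σ'.ker ≤ Subgroup.center Γ := by
        intro a ha
        apply hσ.2.1
        rw [MonoidHom.mem_ker] at ha ⊢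
        have h1 : (σ a).2 = 1 := congrArg Prod.fst ha
        have h2 : (σ a).1 = 1 := congrArg Prod.snd ha
        exact Prod.ext h2 h1
      have h2 := Cfsg.Agent.Lib.Helper22.comm_pow_card_eq_one σ' hσ's hσ'c y x
        (by rw [hσ'2]; exact (hH₂ y).mp hy) (by rw [hσ'1]; exact (hH₁ x).mp hx)
      have h3 : ⁅x, y⁆ ^ Nat.card (Abelianization Q₂) = 1 := by
        rw [← commutatorElement_inv, inv_pow, h2, inv_one]
      have h4 := pow_gcd_eq_one.mpr ⟨h1, h3⟩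
      have h5 : Nat.gcd (Nat.card (Abelianization Q₁)) (Nat.card (Abelianization Q₂)) = 1 := hcop
      rw [h5, pow_one] at h4
      exact commutatorElement_eq_one_iff_mul_comm.mp h4
    -- the two central extensions
    let π₁ : H₁ →* Q₁ := ((MonoidHom.fst Q₁ Q₂).comp σ).comp H₁.subtype
    let π₂ : H₂ →* Q₂ := ((MonoidHom.snd Q₁ Q₂).comp σ).comp H₂.subtype
    have hπ₁ : ∀ a : H₁, π₁ a = (σ a.1).1 := fun a => rfl
    have hπ₂ : ∀ a : H₂, π₂ a = (σ a.1).2 := fun a => rfl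
    have hπ₁s : Function.Surjective π₁ := by
      intro q
      obtain ⟨x, hx⟩ := hσ.1 (q, 1)
      exact ⟨⟨x, by rw [hH₁, hx]⟩, by rw [hπ₁]; show (σ x).1 = q; rw [hx]⟩
    have hπ₂s : Function.Surjective π₂ := by
      intro q
      obtain ⟨x, hx⟩ := hσ.1 (1, q)
      exact ⟨⟨x, by rw [hH₂, hx]⟩, by rw [hπ₂]; show (σ x).2 = q; rw [hx]⟩
    have hk₁ : ∀ a : H₁, a ∈ π₁.ker → (a : Γ) ∈ σ.ker := by
      intro a ha
      rw [MonoidHom.mem_ker] at ha ⊢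
      exact Prod.ext ha ((hH₁ a.1).mp a.2)
    have hk₂ : ∀ a : H₂, a ∈ π₂.ker → (a : Γ) ∈ σ.ker := by
      intro a ha
      rw [MonoidHom.mem_ker] at ha ⊢
      exact Prod.ext ((hH₂ a.1).mp a.2) ha
    have hπ₁c : π₁.ker ≤ Subgroup.center H₁ := by
      intro a ha
      have h1 := hσ.2.1 (hk₁ a ha)
      rw [Subgroup.mem_center_iff] at h1 ⊢
      intro z
      exact Subtype.ext (h1 z.1)
    have hπ₂c : π₂.ker ≤ Subgroup.center H₂ := by
      intro a ha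
      have h1 := hσ.2.1 (hk₂ a ha)
      rw [Subgroup.mem_center_iff] at h1 ⊢
      intro z
      exact Subtype.ext (h1 z.1)
    obtain ⟨f₁, hf₁⟩ := Cfsg.Agent.Lib.Helper22.exists_surjective_of_central hA π₁ hπ₁s hπ₁c
    obtain ⟨f₂, hf₂⟩ := Cfsg.Agent.Lib.Helper22.exists_surjective_of_central hB π₂ hπ₂s hπ₂c
    let g₁ : A →* σ.ker := (H₁.subtype.comp ((Subgroup.subtype _).comp f₁)).codRestrict σ.ker
      (fun a => hk₁ _ (f₁ a).2.1)
    let g₂ : B →* σ.ker := (H₂.subtype.comp ((Subgroup.subtype _).comp f₂)).codRestrict σ.ker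
      (fun b => hk₂ _ (f₂ b).2.1)
    have hg₁ : ∀ a : A, ((g₁ a : σ.ker) : Γ) = (((f₁ a : ↥(π₁.ker ⊓ commutator H₁)) : H₁) : Γ) :=
      fun a => rfl
    have hg₂ : ∀ b : B, ((g₂ b : σ.ker) : Γ) = (((f₂ b : ↥(π₂.ker ⊓ commutator H₂)) : H₂) : Γ) :=
      fun b => rfl
    have hgc : ∀ (a : A) (b : B), Commute (g₁ a) (g₂ b) := by
      intro a b
      apply Subtype.ext
      show ((g₁ a : σ.ker) : Γ) * ((g₂ b : σ.ker) : Γ) = ((g₂ b : σ.ker) : Γ) * ((g₁ a : σ.ker) : Γ)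
      exact Subgroup.mem_center_iff.mp (hσ.2.1 (g₂ b).2) _
    refine ⟨MonoidHom.noncommCoprod g₁ g₂ hgc, ?_⟩
    rintro ⟨k, hk⟩
    -- write k as a product
    let m : H₁ × H₂ →* Γ := MonoidHom.noncommCoprod H₁.subtype H₂.subtype
      (fun x y => hcomm x.1 x.2 y.1 y.2)
    have hm : ∀ w : H₁ × H₂, m w = (w.1 : Γ) * (w.2 : Γ) := fun w => rfl
    have hms : Function.Surjective m := by
      intro g
      obtain ⟨x, hx⟩ := hσ.1 ((σ g).1, 1)
      have hx' : x ∈ H₁ := by rw [hH₁, hx]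
      have hy' : x⁻¹ * g ∈ H₂ := by
        rw [hH₂, map_mul, map_inv, hx]
        show ((σ g).1)⁻¹ * (σ g).1 = 1
        exact inv_mul_cancel _
      exact ⟨(⟨x, hx'⟩, ⟨x⁻¹ * g, hy'⟩), by rw [hm]; exact mul_inv_cancel_left x g⟩
    have hcm : (commutator (H₁ × H₂)).map m = commutator Γ := by
      rw [commutator_def, Subgroup.map_commutator, Subgroup.map_top_of_surjective m hms, ← commutator_def]
    have hcp : commutator (H₁ × H₂) = (commutator H₁).prod (commutator H₂) := by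
      rw [commutator_def, ← Subgroup.top_prod_top, Subgroup.commutator_prod_prod, ← commutator_def,
        ← commutator_def]
    have hkc : k ∈ (commutator (H₁ × H₂)).map m := by rw [hcm]; exact hσ.2.2 hk
    obtain ⟨w, hw, hwk⟩ := hkc
    rw [hcp] at hw
    replace hw : w ∈ (commutator ↥H₁).prod (commutator ↥H₂) := hw
    rw [Subgroup.mem_prod] at hw
    rw [hm] at hwk
    have hσk : σ ((w.1 : Γ) * (w.2 : Γ)) = 1 := by rw [hwk]; exact hk
    rw [map_mul] at hσk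
    have hw1 : w.1 ∈ π₁.ker := by
      rw [MonoidHom.mem_ker, hπ₁]
      have h1 : (σ (w.1 : Γ)).1 * (σ (w.2 : Γ)).1 = 1 := congrArg Prod.fst hσk
      rw [(hH₂ _).mp w.2.2, mul_one] at h1
      exact h1
    have hw2 : w.2 ∈ π₂.ker := by
      rw [MonoidHom.mem_ker, hπ₂]
      have h1 : (σ (w.1 : Γ)).2 * (σ (w.2 : Γ)).2 = 1 := congrArg Prod.snd hσk
      rw [(hH₁ _).mp w.1.2, one_mul] at h1
      exact h1
    obtain ⟨a, ha⟩ := hf₁ ⟨w.1, hw1, hw.1⟩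
    obtain ⟨b, hb⟩ := hf₂ ⟨w.2, hw2, hw.2⟩
    refine ⟨(a, b), ?_⟩
    apply Subtype.ext
    rw [MonoidHom.noncommCoprod_apply]
    show ((g₁ a : σ.ker) : Γ) * ((g₂ b : σ.ker) : Γ) = k
    rw [hg₁, hg₂, ha, hb]
    exact hwk

end Cfsg.Agent.S3980
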