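import Cfsg.Statements.S3994
import Cfsg.Agent.Lib.Helper21.FrobCount

set_option autoImplicit false
open Cfsg

namespace Cfsg.Agent.S3994

open Cfsg.Agent.Lib.Helper21

/-- Let G be a finite group and n a positive integer. The number of elements of G whose order is divisible by n is either 0 or divisible by the largest divisor of the order of G that is coprime to n. -/
theorem result {G : Type*} [Group G] [Finite G] (n : ℕ) (hn : 0 < n) :
    Nat.card {g : G // n ∣ orderOf g} = 0 ∨
      (Nat.card G / Nat.gcd (Nat.card G) (n ^ Nat.card G)) ∣ Nat.card {g : G // n ∣ orderOf g} := by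
  classical
  right
  obtain ⟨N, hN⟩ : ∃ N, N = Nat.card G := ⟨_, rfl⟩
  rw [← hN]
  have hN0 : N ≠ 0 := by rw [hN]; exact (Nat.card_pos).ne'
  obtain ⟨A, hA⟩ : ∃ A, A = Nat.gcd N (n ^ N) := ⟨_, rfl⟩
  rw [← hA]
  have hAN : A ∣ N := by rw [hA]; exact Nat.gcd_dvd_left _ _
  obtain ⟨B, hB⟩ := hAN
  have hA0 : 0 < A := Nat.pos_of_ne_zero (by
    rintro rfl
    rw [zero_mul] at hB
    exact hN0 hB)
  have hdiv : N / A = B := by rw [hB]; exact Nat.mul_div_cancel_left B hA0
  rw [hdiv]
  have hnB : Nat.Coprime n B := by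
    by_contra hcon
    obtain ⟨q, hq, hqn, hqB⟩ := Nat.Prime.not_coprime_iff_dvd.1 hcon
    obtain ⟨e, t, hqt, hNe⟩ := Nat.exists_eq_pow_mul_and_not_dvd hN0 q hq.ne_one
    have he : e ≤ N := by
      have h1 : q ^ e ≤ N := Nat.le_of_dvd (Nat.pos_of_ne_zero hN0) (Dvd.intro _ hNe.symm)
      have h2 : e < q ^ e := Nat.lt_pow_self hq.one_lt
      omega
    have h1 : q ^ e ∣ A := by
      rw [hA]
      apply Nat.dvd_gcd (Dvd.intro _ hNe.symm)
      exact (pow_dvd_pow q he).trans (pow_dvd_pow_of_dvd hqn N)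
    have h2 : q ^ e * q ∣ q ^ e * t := by
      rw [← hNe, hB]
      exact Nat.mul_dvd_mul h1 hqB
    exact hqt ((Nat.mul_dvd_mul_iff_left (pow_pos hq.pos e)).1 h2)
  have hAB : Nat.Coprime A B := by
    have h1 : Nat.Coprime (n ^ N) B := Nat.Coprime.pow_left N hnB
    exact Nat.Coprime.coprime_dvd_left (by rw [hA]; exact Nat.gcd_dvd_right _ _) h1
  have e0 : Nat.card {g : G // n ∣ orderOf g} =
      Nat.card {x : G // x ^ (A * B) = 1 ∧ n ∣ orderOf x} := by
    refine Nat.card_congr (Equiv.subtypeEquivRight (fun g => ?_))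
    constructor
    · intro h
      refine ⟨?_, h⟩
      rw [← hB, hN]
      exact pow_card_eq_one'
    · exact fun h => h.2
  have hPQ : ∀ y z : G, y ^ A = 1 → z ^ B = 1 → Commute y z →
      (n ∣ orderOf (y * z) ↔ n ∣ orderOf y) := by
    intro y z hy hz hc
    have hoy := orderOf_dvd_of_pow_eq_one hy
    have hoz := orderOf_dvd_of_pow_eq_one hz
    have hco : Nat.Coprime (orderOf y) (orderOf z) :=
      Nat.Coprime.coprime_dvd_left hoy (Nat.Coprime.coprime_dvd_right hoz hAB)
    rw [hc.orderOf_mul_eq_mul_orderOf_of_coprime hco]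
    constructor
    · intro h
      exact Nat.Coprime.dvd_of_dvd_mul_right (Nat.Coprime.coprime_dvd_right hoz hnB) h
    · intro h
      exact Dvd.dvd.mul_right h _
  rw [e0, card_crt A B hAB (fun x => n ∣ orderOf x) (fun y => n ∣ orderOf y) hPQ]
  apply dvd_card_sigma_conj B (fun y : G => y ^ A = 1 ∧ n ∣ orderOf y)
    (fun y z => Commute y z ∧ z ^ B = 1)
  · rintro g y ⟨h1, h2⟩
    refine ⟨by rw [conj_pow, h1]; simp, ?_⟩
    have h3 : orderOf (g * y * g⁻¹) = orderOf y := (MulAut.conj g).orderOf_eq y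
    rw [h3]
    exact h2
  · rintro g y z ⟨h1, h2⟩
    refine ⟨?_, by rw [conj_pow, h2]; simp⟩
    show g * y * g⁻¹ * (g * z * g⁻¹) = g * z * g⁻¹ * (g * y * g⁻¹)
    have h3 : y * z = z * y := h1.eq
    calc g * y * g⁻¹ * (g * z * g⁻¹) = g * (y * z) * g⁻¹ := by group
      _ = g * (z * y) * g⁻¹ := by rw [h3]
      _ = g * z * g⁻¹ * (g * y * g⁻¹) := by group
  · rintro y ⟨hy1, hy2⟩
    rw [card_commute_pow, card_pow_gcd]
    have hIH := frobenius (G := Subgroup.centralizer ({y} : Set G))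
      (Nat.gcd B (Nat.card (Subgroup.centralizer ({y} : Set G)))) (Nat.gcd_dvd_right _ _)
    have h1 : B ∣ (Subgroup.centralizer ({y} : Set G)).index *
        Nat.card (Subgroup.centralizer ({y} : Set G)) := by
      rw [Subgroup.index_mul_card, ← hN, hB]
      exact Dvd.intro_left _ rfl
    have h2 : B ∣ (Subgroup.centralizer ({y} : Set G)).index *
        Nat.gcd B (Nat.card (Subgroup.centralizer ({y} : Set G))) := by
      rw [← Nat.gcd_mul_left]
      exact Nat.dvd_gcd (Dvd.intro_left _ rfl) h1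
    exact h2.trans (Nat.mul_dvd_mul_left _ hIH)

end Cfsg.Agent.S3994
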