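import Cfsg.Statements.S3997
import Mathlib

set_option autoImplicit false
open Cfsg

namespace Cfsg.Agent.S3997

/-- Let G and H be finite groups with the same order type: for every m they have the same number of elements of order m. If G is nilpotent then so is H. -/
theorem result {G H : Type*} [Group G] [Finite G] [Group H] [Finite H] (hT : (∀ m : ℕ, Nat.card {g : G // orderOf g = m} = Nat.card {h : H // orderOf h = m})) (hG : Group.IsNilpotent G) :
    Group.IsNilpotent H := by
  classical
  let E : ∀ m : ℕ, {g : G // orderOf g = m} ≃ {h : H // orderOf h = m} := fun m =>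
    (Finite.equivFin _).trans ((finCongr (hT m)).trans (Finite.equivFin _).symm)
  let e : G ≃ H := (Equiv.sigmaFiberEquiv (orderOf : G → ℕ)).symm.trans
    ((Equiv.sigmaCongrRight E).trans (Equiv.sigmaFiberEquiv (orderOf : H → ℕ)))
  have he : ∀ g, orderOf (e g) = orderOf g := fun g => (E (orderOf g) ⟨g, rfl⟩).2
  have hcard : Nat.card G = Nat.card H := Nat.card_congr e
  have q' := (Group.isNilpotent_of_finite_tfae (G := H)).out 0 3
  apply q'.mpr
  intro p hp Q
  have q := (Group.isNilpotent_of_finite_tfae (G := G)).out 0 3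
  have hPn : ∀ P : Sylow p G, (P : Subgroup G).Normal := q.mp hG p hp
  obtain ⟨P⟩ : Nonempty (Sylow p G) := inferInstance
  have hPnorm := hPn P
  have hSG : {g : G | ∃ k, orderOf g = p ^ k} = (P : Set G) := by
    ext g
    constructor
    · rintro ⟨k, hk⟩
      have hz : IsPGroup p (Subgroup.zpowers g) :=
        IsPGroup.of_card (n := k) (by rw [Nat.card_zpowers, hk])
      have h1 : IsPGroup p (Subgroup.zpowers g ⊔ (P : Subgroup G) : Subgroup G) :=
        IsPGroup.to_sup_of_normal_right hz P.isPGroup'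
      have h2 := P.is_maximal' h1 le_sup_right
      have : g ∈ Subgroup.zpowers g ⊔ (P : Subgroup G) :=
        (le_sup_left : Subgroup.zpowers g ≤ _) (Subgroup.mem_zpowers g)
      rw [h2] at this
      exact this
    · intro hg
      obtain ⟨k, hk⟩ := (IsPGroup.iff_orderOf.mp P.isPGroup') ⟨g, hg⟩
      rw [Subgroup.orderOf_mk] at hk
      exact ⟨k, hk⟩
  have hSH : {h : H | ∃ k, orderOf h = p ^ k} = e '' {g : G | ∃ k, orderOf g = p ^ k} := by
    ext h
    constructor
    · rintro ⟨k, hk⟩
      refine ⟨e.symm h, ⟨k, ?_⟩, e.apply_symm_apply h⟩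
      rw [← he, e.apply_symm_apply, hk]
    · rintro ⟨g, ⟨k, hk⟩, rfl⟩
      exact ⟨k, by rw [he, hk]⟩
  have hncard : {h : H | ∃ k, orderOf h = p ^ k}.ncard = Nat.card P := by
    rw [hSH, Set.ncard_image_of_injective _ e.injective, hSG]
    rfl
  have hQ : (Q : Set H) = {h : H | ∃ k, orderOf h = p ^ k} := by
    refine Set.eq_of_subset_of_ncard_le ?_ ?_ (Set.toFinite _)
    · intro h hh
      obtain ⟨k, hk⟩ := (IsPGroup.iff_orderOf.mp Q.isPGroup') ⟨h, hh⟩
      rw [Subgroup.orderOf_mk] at hk
      exact ⟨k, hk⟩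
    · rw [hncard]
      have : (Q : Set H).ncard = Nat.card Q := rfl
      rw [this, Sylow.card_eq_multiplicity, Sylow.card_eq_multiplicity, hcard]
  constructor
  intro n hn g
  have hn' : n ∈ (Q : Set H) := hn
  rw [hQ] at hn'
  obtain ⟨k, hk⟩ := hn'
  have : g * n * g⁻¹ ∈ (Q : Set H) := by
    rw [hQ]
    refine ⟨k, ?_⟩
    rw [← hk]
    exact (MulAut.conj g).orderOf_eq n
  exact this

end Cfsg.Agent.S3997
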