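import Cfsg.Statements.S3998
import Mathlib
import Cfsg.Agent.Lib.Helper5.Supersolvable2

set_option autoImplicit false
open Cfsg

namespace Cfsg.Agent.S3998

open Cfsg.Agent.Lib.Helper5

universe u

/-- The elements whose order has all its prime factors at least `t`. -/
def bset (X : Type u) [Group X] (t : ℕ) : Set X :=
  {x : X | ∀ q : ℕ, q.Prime → q ∣ orderOf x → t ≤ q}

/-- The part of `n` made of the primes at least `t`. -/
noncomputable def bpart (n t : ℕ) : ℕ :=
  n.factorization.prod (fun q k => if t ≤ q then q ^ k else 1)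

/-- The counting form of a Sylow tower for decreasing primes. -/
def TowP (X : Type u) [Group X] : Prop := ∀ t : ℕ, (bset X t).ncard = bpart (Nat.card X) t

theorem bpart_mul {a b : ℕ} (ha : a ≠ 0) (hb : b ≠ 0) (t : ℕ) :
    bpart (a * b) t = bpart a t * bpart b t := by
  unfold bpart
  rw [Nat.factorization_mul ha hb]
  apply Finsupp.prod_add_index'
  · intro q
    split_ifs <;> simp
  · intro q k l
    split_ifs <;> simp [pow_add]

theorem bpart_prime_pow {p : ℕ} (hp : p.Prime) (k : ℕ) {t : ℕ} (ht : t ≤ p) :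
    bpart (p ^ k) t = p ^ k := by
  unfold bpart
  rw [hp.factorization_pow, Finsupp.prod_single_index]
  · rw [if_pos ht]
  · split_ifs <;> simp

theorem bpart_eq_one {n t : ℕ} (h : ∀ q : ℕ, q.Prime → q ∣ n → q < t) : bpart n t = 1 := by
  unfold bpart
  rw [Finsupp.prod]
  apply Finset.prod_eq_one
  intro q hq
  rw [Nat.support_factorization, Nat.mem_primeFactors] at hq
  have := h q hq.1 hq.2.1
  rw [if_neg (by omega)]

theorem bpart_max {n p : ℕ} (hmax : ∀ q : ℕ, q.Prime → q ∣ n → q ≤ p) :
    bpart n p = p ^ n.factorization p := by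
  unfold bpart
  rw [Finsupp.prod, Finset.prod_eq_single p]
  · rw [if_pos le_rfl]
  · intro q hq hqp
    rw [Nat.support_factorization, Nat.mem_primeFactors] at hq
    have := hmax q hq.1 hq.2.1
    rw [if_neg (by omega)]
  · intro hnp
    have h0 : n.factorization p = 0 := Finsupp.notMem_support_iff.mp hnp
    rw [h0]
    simp

theorem bset_trivial (X : Type u) [Group X] [Finite X] {t : ℕ}
    (h : ∀ q : ℕ, q.Prime → q ∣ Nat.card X → q < t) : (bset X t).ncard = 1 := by
  have hs : bset X t = {1} := by
    ext x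
    simp only [bset, Set.mem_ofPred_eq, Set.mem_singleton_iff]
    constructor
    · intro hx
      by_contra hx1
      have ho : orderOf x ≠ 1 := fun h1 => hx1 (orderOf_eq_one_iff.mp h1)
      obtain ⟨q, hq, hqd⟩ := Nat.exists_prime_and_dvd ho
      have h1 := h q hq (hqd.trans (orderOf_dvd_natCard x))
      have h2 := hx q hq hqd
      omega
    · rintro rfl q hq hqd
      rw [orderOf_one] at hqd
      exact absurd (Nat.dvd_one.mp hqd) hq.ne_one
  rw [hs, Set.ncard_singleton]

theorem bset_preimage {X : Type u} [Group X] [Finite X] (N : Subgroup X) [N.Normal] {p : ℕ}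
    (hp : p.Prime) (hN : IsPGroup p N) {t : ℕ} (ht : t ≤ p) :
    bset X t = (QuotientGroup.mk : X → X ⧸ N) ⁻¹' bset (X ⧸ N) t := by
  ext x
  simp only [bset, Set.mem_ofPred_eq, Set.mem_preimage]
  constructor
  · intro hx q hq hqd
    exact hx q hq (hqd.trans (orderOf_map_dvd (QuotientGroup.mk' N) x))
  · intro hx q hq hqd
    have hm : x ^ orderOf (x : X ⧸ N) ∈ N := by
      rw [← QuotientGroup.eq_one_iff, QuotientGroup.mk_pow, pow_orderOf_eq_one]
    obtain ⟨k, hk⟩ := hN ⟨_, hm⟩
    have hk' : (x ^ orderOf (x : X ⧸ N)) ^ p ^ k = 1 := by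
      have := congrArg Subtype.val hk
      simpa using this
    have hd : orderOf x ∣ orderOf (x : X ⧸ N) * p ^ k := by
      apply orderOf_dvd_of_pow_eq_one
      rw [pow_mul]
      exact hk'
    rcases (Nat.Prime.dvd_mul hq).mp (hqd.trans hd) with h | h
    · exact hx q hq h
    · have := (Nat.prime_dvd_prime_iff_eq hq hp).mp (hq.dvd_of_dvd_pow h)
      omega

theorem ncard_bset {X : Type u} [Group X] [Finite X] (N : Subgroup X) [N.Normal] {p : ℕ}
    (hp : p.Prime) (hN : IsPGroup p N) {t : ℕ} (ht : t ≤ p) :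
    (bset X t).ncard = Nat.card N * (bset (X ⧸ N) t).ncard := by
  have h := QuotientGroup.card_preimage_mk N (bset (X ⧸ N) t)
  rw [bset_preimage N hp hN ht]
  simpa only [Nat.card_coe_set_eq] using h

theorem bpart_quot {X : Type u} [Group X] [Finite X] (N : Subgroup X) [N.Normal] {p : ℕ}
    (hp : p.Prime) (hN : IsPGroup p N) {t : ℕ} (ht : t ≤ p) :
    bpart (Nat.card X) t = Nat.card N * bpart (Nat.card (X ⧸ N)) t := by
  haveI : Fact p.Prime := ⟨hp⟩
  obtain ⟨k, hk⟩ := IsPGroup.iff_card.mp hN
  rw [Subgroup.card_eq_card_quotient_mul_card_subgroup N,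
    bpart_mul Nat.card_pos.ne' Nat.card_pos.ne', hk, bpart_prime_pow hp k ht, mul_comm]

theorem exists_normal_sylow {X : Type u} [Group X] [Finite X] [Nontrivial X] (hT : TowP X) :
    ∃ (p : ℕ) (P : Sylow p X), p.Prime ∧ (P : Subgroup X).Normal ∧
      (∀ q : ℕ, q.Prime → q ∣ Nat.card X → q ≤ p) ∧ p ∣ Nat.card X := by
  classical
  have hne : (Nat.card X).primeFactors.Nonempty := by
    rw [Nat.nonempty_primeFactors]
    exact Finite.one_lt_card
  obtain ⟨p, hpdef⟩ : ∃ p : ℕ, p = (Nat.card X).primeFactors.max' hne := ⟨_, rfl⟩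
  have hpmem : p ∈ (Nat.card X).primeFactors := hpdef ▸ Finset.max'_mem _ hne
  have hp : p.Prime := Nat.prime_of_mem_primeFactors hpmem
  have hpd : p ∣ Nat.card X := Nat.dvd_of_mem_primeFactors hpmem
  have hmax : ∀ q : ℕ, q.Prime → q ∣ Nat.card X → q ≤ p := by
    intro q hq hqd
    rw [hpdef]
    exact Finset.le_max' _ q (Nat.mem_primeFactors.mpr ⟨hq, hqd, Nat.card_pos.ne'⟩)
  haveI : Fact p.Prime := ⟨hp⟩
  obtain ⟨P⟩ : Nonempty (Sylow p X) := inferInstance
  refine ⟨p, P, hp, ?_, hmax, hpd⟩
  have hsub : (P : Set X) ⊆ bset X p := by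
    intro x hx q hq hqd
    obtain ⟨k, hk⟩ := (IsPGroup.iff_orderOf.mp P.isPGroup') ⟨x, hx⟩
    rw [Subgroup.orderOf_mk] at hk
    rw [hk] at hqd
    have := (Nat.prime_dvd_prime_iff_eq hq hp).mp (hq.dvd_of_dvd_pow hqd)
    omega
  have hcard : (bset X p).ncard = (P : Set X).ncard := by
    rw [hT p, bpart_max hmax]
    have : (P : Set X).ncard = Nat.card P := rfl
    rw [this, Sylow.card_eq_multiplicity]
  have hPS : (P : Set X) = bset X p :=
    Set.eq_of_subset_of_ncard_le hsub hcard.le (Set.toFinite _)
  constructor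
  intro n hn g
  have hn' : n ∈ (P : Set X) := hn
  rw [hPS] at hn'
  have hmem : g * n * g⁻¹ ∈ (P : Set X) := by
    rw [hPS]
    intro q hq hqd
    have ho : orderOf (g * n * g⁻¹) = orderOf n := (MulAut.conj g).orderOf_eq n
    rw [ho] at hqd
    exact hn' q hq hqd
  exact hmem

theorem solvable_of_towP : ∀ (n : ℕ) (X : Type u) [Group X] [Finite X], Nat.card X = n → TowP X →
    Group.IsSolvable X := by
  intro n
  induction n using Nat.strong_induction_on with
  | _ n ih =>
  intro X _ _ hcard hT
  rcases subsingleton_or_nontrivial X with hs | hnt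
  · infer_instance
  · obtain ⟨p, P, hp, hPn, hmax, hpd⟩ := exists_normal_sylow hT
    haveI : Fact p.Prime := ⟨hp⟩
    haveI := hPn
    have hPp : IsPGroup p (P : Subgroup X) := P.isPGroup'
    have hcX := Subgroup.card_eq_card_quotient_mul_card_subgroup (P : Subgroup X)
    have hP2 : 2 ≤ Nat.card (P : Subgroup X) := by
      rw [Sylow.card_eq_multiplicity]
      have h1 : 1 ≤ (Nat.card X).factorization p :=
        hp.factorization_pos_of_dvd Nat.card_pos.ne' hpd
      calc 2 ≤ p := hp.two_le
        _ = p ^ 1 := (pow_one p).symm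
        _ ≤ p ^ (Nat.card X).factorization p := Nat.pow_le_pow_right hp.pos h1
    have h3 : 0 < Nat.card (X ⧸ (P : Subgroup X)) := Nat.card_pos
    have hlt : Nat.card (X ⧸ (P : Subgroup X)) < n := by
      rw [← hcard, hcX]
      calc Nat.card (X ⧸ (P : Subgroup X)) < Nat.card (X ⧸ (P : Subgroup X)) * 2 := by omega
        _ ≤ Nat.card (X ⧸ (P : Subgroup X)) * Nat.card (P : Subgroup X) :=
          Nat.mul_le_mul_left _ hP2
    have hTQ : TowP (X ⧸ (P : Subgroup X)) := by
      intro t
      by_cases ht : t ≤ p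
      · have h1 := ncard_bset (P : Subgroup X) hp hPp ht
        have h2 := bpart_quot (P : Subgroup X) hp hPp ht
        have h4 := hT t
        rw [h1, h2] at h4
        exact Nat.eq_of_mul_eq_mul_left (by omega) h4
      · have hq : ∀ q : ℕ, q.Prime → q ∣ Nat.card (X ⧸ (P : Subgroup X)) → q < t := by
          intro q hq hqd
          have := hmax q hq (hqd.trans (Dvd.intro _ hcX.symm))
          omega
        rw [bset_trivial (X ⧸ (P : Subgroup X)) hq, bpart_eq_one hq]
    haveI : Group.IsSolvable (X ⧸ (P : Subgroup X)) := ih _ hlt _ rfl hTQ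
    haveI : Group.IsSolvable (P : Subgroup X) := by
      haveI := hPp.isNilpotent
      infer_instance
    apply Group.isSolvable_of_ker_le_range (P : Subgroup X).subtype
      (QuotientGroup.mk' (P : Subgroup X))
    rw [QuotientGroup.ker_mk', Subgroup.range_subtype]

theorem towP_of_star : ∀ (n : ℕ) (X : Type u) [Group X] [Finite X], Nat.card X = n → SSStar X →
    TowP X := by
  intro n
  induction n using Nat.strong_induction_on with
  | _ n ih =>
  intro X _ _ hcard hX
  rcases subsingleton_or_nontrivial X with hs | hnt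
  · intro t
    have hq : ∀ q : ℕ, q.Prime → q ∣ Nat.card X → q < t := by
      intro q hq hqd
      rw [Nat.card_of_subsingleton (1 : X)] at hqd
      exact absurd (Nat.dvd_one.mp hqd) hq.ne_one
    rw [bset_trivial X hq, bpart_eq_one hq]
  · obtain ⟨g, hgp, hgn, hgmax⟩ := exists_normal_largest_prime _ X rfl hX hnt
    haveI := hgn
    have hcN : Nat.card (Subgroup.zpowers g) = orderOf g := Nat.card_zpowers g
    have hNp : IsPGroup (orderOf g) (Subgroup.zpowers g) :=
      IsPGroup.of_card (n := 1) (by rw [hcN, pow_one])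
    have hcX := Subgroup.card_eq_card_quotient_mul_card_subgroup (Subgroup.zpowers g)
    have h3 : 0 < Nat.card (X ⧸ Subgroup.zpowers g) := Nat.card_pos
    have hlt : Nat.card (X ⧸ Subgroup.zpowers g) < n := by
      rw [← hcard, hcX, hcN]
      calc Nat.card (X ⧸ Subgroup.zpowers g) < Nat.card (X ⧸ Subgroup.zpowers g) * 2 := by omega
        _ ≤ Nat.card (X ⧸ Subgroup.zpowers g) * orderOf g := Nat.mul_le_mul_left _ hgp.two_le
    have hTQ : TowP (X ⧸ Subgroup.zpowers g) :=
      ih _ hlt _ rfl (star_quotient (Subgroup.zpowers g) hX)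
    intro t
    by_cases ht : t ≤ orderOf g
    · rw [ncard_bset (Subgroup.zpowers g) hgp hNp ht, bpart_quot (Subgroup.zpowers g) hgp hNp ht,
        hTQ t]
    · have hq : ∀ q : ℕ, q.Prime → q ∣ Nat.card X → q < t := by
        intro q hq hqd
        have := hgmax q hq hqd
        omega
      rw [bset_trivial X hq, bpart_eq_one hq]

/-- Let G and H be finite groups with the same order type (for every m the same number of elements of order m). If G is supersolvable then H is solvable. -/
theorem result {G H : Type*} [Group G] [Finite G] [Group H] [Finite H] (hT : (∀ m : ℕ, Nat.card {g : G // orderOf g = m} = Nat.card {h : H // orderOf h = m})) (hG : Cfsg.IsSupersolvable G) :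
    Group.IsSolvable H := by
  classical
  let E : ∀ m : ℕ, {g : G // orderOf g = m} ≃ {h : H // orderOf h = m} := fun m =>
    (Finite.equivFin _).trans ((finCongr (hT m)).trans (Finite.equivFin _).symm)
  let e : G ≃ H := (Equiv.sigmaFiberEquiv (orderOf : G → ℕ)).symm.trans
    ((Equiv.sigmaCongrRight E).trans (Equiv.sigmaFiberEquiv (orderOf : H → ℕ)))
  have he : ∀ g, orderOf (e g) = orderOf g := fun g => (E (orderOf g) ⟨g, rfl⟩).2
  have hcard : Nat.card G = Nat.card H := Nat.card_congr e
  have hTG : TowP G := towP_of_star _ G rfl (ss_imp_star hG)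
  have hTH : TowP H := by
    intro t
    have himg : bset H t = e '' bset G t := by
      ext h
      constructor
      · intro hh
        refine ⟨e.symm h, ?_, e.apply_symm_apply h⟩
        intro q hq hqd
        rw [← he, e.apply_symm_apply] at hqd
        exact hh q hq hqd
      · rintro ⟨g, hg, rfl⟩
        intro q hq hqd
        rw [he] at hqd
        exact hg q hq hqd
    rw [himg, Set.ncard_image_of_injective _ e.injective, ← hcard]
    exact hTG t
  exact solvable_of_towP _ H rfl hTH

end Cfsg.Agent.S3998
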