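import Cfsg.Statements.S4002
import Mathlib
import Cfsg.Agent.Lib.Helper21.ThreePrimesSolv

set_option autoImplicit false
open Cfsg

namespace Cfsg.Agent.S4002

open Cfsg.Agent.Lib.Helper21

theorem exists_three_primes (n : ℕ) (hn : 7 ≤ n) :
    ∃ p q r : ℕ, p.Prime ∧ q.Prime ∧ r.Prime ∧ p < q ∧ q < r ∧ r ≤ n ∧ n < p * q := by
  by_cases h1 : n ≤ 14
  · exact ⟨3, 5, 7, by norm_num, by norm_num, by norm_num, by norm_num, by norm_num, by omega,
      by omega⟩
  by_cases h2 : n ≤ 34
  · exact ⟨5, 7, 11, by norm_num, by norm_num, by norm_num, by norm_num, by norm_num, by omega,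
      by omega⟩
  obtain ⟨p, hp, hp1, hp2⟩ := Nat.exists_prime_lt_and_le_two_mul (n / 8) (by omega)
  obtain ⟨q, hq, hq1, hq2⟩ := Nat.exists_prime_lt_and_le_two_mul (n / 4) (by omega)
  obtain ⟨r, hr, hr1, hr2⟩ := Nat.exists_prime_lt_and_le_two_mul (n / 2) (by omega)
  refine ⟨p, q, r, hp, hq, hr, by omega, by omega, by omega, ?_⟩
  have h5 : 5 ≤ p := by omega
  calc n < 5 * (n / 4 + 1) := by omega
    _ ≤ p * q := Nat.mul_le_mul h5 (by omega)

/-- If the set of element orders of a finite group G is {1, 2, …, n} with n ≥ 7, then G is not solvable. -/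
theorem result {G : Type*} [Group G] [Finite G] (n : ℕ) (hn : 7 ≤ n) (h : Set.range (orderOf : G → ℕ) = {k : ℕ | 1 ≤ k ∧ k ≤ n}) : ¬ Group.IsSolvable G := by
  classical
  intro hsolv
  obtain ⟨p, q, r, hp, hq, hr, hpq, hqr, hrn, hlt⟩ := exists_three_primes n hn
  haveI : Group.IsSolvable (⊤ : Subgroup G) := inferInstance
  have hdiv : ∀ a : ℕ, a.Prime → a ≤ n → a ∣ Nat.card (⊤ : Subgroup G) := by
    intro a ha han
    have hmem : a ∈ Set.range (orderOf : G → ℕ) := by rw [h]; exact ⟨ha.one_lt.le, han⟩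
    obtain ⟨g, hg⟩ := hmem
    rw [Subgroup.card_top, ← hg]; exact orderOf_dvd_natCard g
  have hcard : 3 ≤ ({p, q, r} : Finset ℕ).card := by
    rw [Finset.card_insert_of_notMem, Finset.card_insert_of_notMem, Finset.card_singleton]
    · simp; omega
    · simp; omega
  obtain ⟨a, ha, b, hb, hab, x, hx⟩ := solvable_three_primes (⊤ : Subgroup G) {p, q, r} (by
    intro a ha
    simp only [Finset.mem_insert, Finset.mem_singleton] at ha
    rcases ha with rfl | rfl | rfl
    · exact ⟨hp, hdiv _ hp (by omega)⟩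
    · exact ⟨hq, hdiv _ hq (by omega)⟩
    · exact ⟨hr, hdiv _ hr hrn⟩) hcard
  have hmem : orderOf x ∈ Set.range (orderOf : G → ℕ) := ⟨x, rfl⟩
  rw [h, hx] at hmem
  have hle : a * b ≤ n := hmem.2
  have hpq' : p * q ≤ p * r := Nat.mul_le_mul le_rfl hqr.le
  have hqr' : p * q ≤ q * r := Nat.mul_le_mul hpq.le hqr.le
  simp only [Finset.mem_insert, Finset.mem_singleton] at ha hb
  rcases ha with rfl | rfl | rfl <;> rcases hb with rfl | rfl | rfl
  · exact hab rfl
  · omega
  · omega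
  · rw [mul_comm] at hle; omega
  · exact hab rfl
  · omega
  · rw [mul_comm] at hle; omega
  · rw [mul_comm] at hle; omega
  · exact hab rfl

end Cfsg.Agent.S4002
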