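import Cfsg.Statements.S4005
import Mathlib
import Cfsg.Agent.Lib.Helper22.SmallOrders
import Cfsg.Agent.Lib.Helper2.CharBurnside
import Cfsg.Agent.Lib.Lead.FrobComplement

set_option autoImplicit false
open Cfsg

namespace Cfsg.Agent.S4005

/-- A finite group whose set of element orders is exactly {1, 2, 3} has either a normal elementary abelian 3-subgroup of index 2 or a normal elementary abelian 2-subgroup of index 3. -/
theorem result {G : Type*} [Group G] [Finite G] (h : Set.range (orderOf : G → ℕ) = {k : ℕ | 1 ≤ k ∧ k ≤ 3}) :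
    (∃ N : Subgroup G, N.Normal ∧ Cfsg.IsElementaryAbelian 3 N ∧ N.index = 2) ∨
      (∃ N : Subgroup G, N.Normal ∧ Cfsg.IsElementaryAbelian 2 N ∧ N.index = 3) := by
  classical
  have hord : ∀ g : G, orderOf g = 1 ∨ orderOf g = 2 ∨ orderOf g = 3 := by
    intro g
    have h1 : orderOf g ∈ Set.range (orderOf : G → ℕ) := ⟨g, rfl⟩
    rw [h] at h1
    obtain ⟨h2, h3⟩ := h1
    omega
  obtain ⟨t, ht⟩ : ∃ t : G, orderOf t = 2 := by
    have h1 : (2 : ℕ) ∈ Set.range (orderOf : G → ℕ) := by
      rw [h]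
      exact ⟨by norm_num, by norm_num⟩
    exact h1
  obtain ⟨x, hx⟩ : ∃ x : G, orderOf x = 3 := by
    have h1 : (3 : ℕ) ∈ Set.range (orderOf : G → ℕ) := by
      rw [h]
      exact ⟨by norm_num, by norm_num⟩
    exact h1
  have hno6 : ∀ a b : G, orderOf a = 2 → orderOf b = 3 → a * b ≠ b * a := by
    intro a b ha hb hab
    have h1 := (show Commute a b from hab).orderOf_mul_eq_mul_orderOf_of_coprime
      (by rw [ha, hb]; norm_num)
    rw [ha, hb] at h1
    rcases hord (a * b) with h2 | h2 | h2 <;> omega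
  have hprimes : ∀ r : ℕ, r.Prime → r ∣ Nat.card G → r = 2 ∨ r = 3 := by
    intro r hr hrd
    haveI : Fact r.Prime := ⟨hr⟩
    obtain ⟨g, hg⟩ := exists_prime_orderOf_dvd_card' r hrd
    rcases hord g with h1 | h1 | h1
    · exfalso
      rw [h1] at hg
      exact hr.ne_one hg.symm
    · left
      omega
    · right
      omega
  haveI hsolv : Group.IsSolvable G :=
    Lib.Helper2.solvable_of_two_primes 2 3 Nat.prime_two Nat.prime_three _ G rfl hprimes
  haveI : Nontrivial G := ⟨⟨t, 1, by
    rintro rfl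
    rw [orderOf_one] at ht
    omega⟩⟩
  obtain ⟨A, hAn, hAb, hAc⟩ := Lib.Helper22.exists_normal_abelian_of_solvable G
  haveI := hAn
  haveI : Fact (Nat.Prime 2) := ⟨Nat.prime_two⟩
  haveI : Fact (Nat.Prime 3) := ⟨Nat.prime_three⟩
  -- elements of `2`-subgroups and of `3`-subgroups
  have h2el : ∀ K : Subgroup G, IsPGroup 2 K → ∀ g ∈ K, g ^ 2 = 1 := by
    intro K hK g hg
    obtain ⟨k, hk⟩ := hK ⟨g, hg⟩
    have hk' : g ^ 2 ^ k = 1 := congrArg Subtype.val hk
    have h1 := orderOf_dvd_of_pow_eq_one hk'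
    rcases hord g with h2 | h2 | h2
    · rw [orderOf_eq_one_iff.mp h2, one_pow]
    · rw [← h2, pow_orderOf_eq_one]
    · exfalso
      rw [h2] at h1
      have h3 := Nat.Prime.dvd_of_dvd_pow Nat.prime_three h1
      omega
  have h3el : ∀ K : Subgroup G, IsPGroup 3 K → ∀ g ∈ K, g ^ 3 = 1 := by
    intro K hK g hg
    obtain ⟨k, hk⟩ := hK ⟨g, hg⟩
    have hk' : g ^ 3 ^ k = 1 := congrArg Subtype.val hk
    have h1 := orderOf_dvd_of_pow_eq_one hk'
    rcases hord g with h2 | h2 | h2
    · rw [orderOf_eq_one_iff.mp h2, one_pow]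
    · exfalso
      rw [h2] at h1
      have h3 := Nat.Prime.dvd_of_dvd_pow Nat.prime_two h1
      omega
    · rw [← h2, pow_orderOf_eq_one]
  obtain ⟨a₀', ha₀1⟩ := (Subgroup.ne_bot_iff_exists_ne_one).mp hAb
  obtain ⟨a₀, ha₀, ha₀'⟩ : ∃ a : G, a ∈ A ∧ a ≠ 1 :=
    ⟨a₀', a₀'.2, fun h => ha₀1 (Subtype.ext h)⟩
  by_cases hA2 : ∃ a ∈ A, orderOf a = 2
  · -- `A` is a `2`-group
    right
    obtain ⟨a₁, ha₁, ha₁o⟩ := hA2
    have hA2' : ∀ a ∈ A, a ^ 2 = 1 := by
      intro a ha
      rcases hord a with h2 | h2 | h2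
      · rw [orderOf_eq_one_iff.mp h2, one_pow]
      · rw [← h2, pow_orderOf_eq_one]
      · exact absurd (hAc a₁ ha₁ a ha) (hno6 a₁ a ha₁o h2)
    have hT2 : ∀ g ∈ Subgroup.centralizer (A : Set G), g ^ 2 = 1 := by
      intro g hg
      rcases hord g with h2 | h2 | h2
      · rw [orderOf_eq_one_iff.mp h2, one_pow]
      · rw [← h2, pow_orderOf_eq_one]
      · exact absurd (hg a₁ ha₁) (hno6 a₁ g ha₁o h2)
    have hTc := Lib.Helper22.comm_of_sq_eq_one _ hT2
    have hAp : IsPGroup 2 A := by
      intro a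
      refine ⟨1, ?_⟩
      rw [pow_one]
      exact Subtype.ext (hA2' a a.2)
    obtain ⟨Q, hQ⟩ := hAp.exists_le_sylow
    have hQ2 := h2el Q Q.isPGroup'
    have hQc := Lib.Helper22.comm_of_sq_eq_one _ hQ2
    have hQT : (Q : Subgroup G) ≤ Subgroup.centralizer (A : Set G) := by
      intro g hg a ha
      exact hQc a (hQ ha) g hg
    have h2idx : ¬ 2 ∣ (Subgroup.centralizer (A : Set G)).index :=
      fun h => Q.not_dvd_index (h.trans (Subgroup.index_dvd_of_le hQT))
    obtain ⟨S⟩ : Nonempty (Sylow 3 G) := inferInstance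
    have hS3 := h3el S S.isPGroup'
    have hU : Lib.Lead.UniqP 3 (S : Subgroup G) := by
      apply Lib.Lead.fpf_pgroup_uniq A hAb 3 S S.isPGroup'
      intro s hs hs1
      rw [eq_bot_iff]
      rintro a ⟨ha, hac⟩
      rw [Subgroup.mem_bot]
      by_contra ha1
      have hao : orderOf a = 2 := orderOf_eq_prime (hA2' a ha) ha1
      have hso : orderOf s = 3 := orderOf_eq_prime (hS3 s hs) hs1
      have h1 : s * a = a * s := Subgroup.mem_centralizer_iff.mp hac s rfl
      exact hno6 a s hao hso h1.symm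
    have hScard : Nat.card (S : Subgroup G) = 3 := by
      have h3G : 3 ∣ Nat.card G := hx ▸ orderOf_dvd_natCard x
      obtain ⟨s, hs1⟩ := (Subgroup.ne_bot_iff_exists_ne_one).mp (S.ne_bot_of_dvd_card h3G)
      have hs3 : s ^ 3 = 1 := Subtype.ext (hS3 s s.2)
      have htop : Subgroup.zpowers s = ⊤ := by
        rw [eq_top_iff]
        intro y _
        exact hU s y hs3 (Subtype.ext (hS3 y y.2)) hs1
      have h1 : Nat.card (Subgroup.zpowers s) = Nat.card (S : Subgroup G) := by
        rw [htop]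
        exact Subgroup.card_top
      rw [← h1, Nat.card_zpowers]
      exact orderOf_eq_prime hs3 hs1
    have hTtop : Subgroup.centralizer (A : Set G) ≠ ⊤ := by
      intro h1
      have h2 : x ∈ Subgroup.centralizer (A : Set G) := by
        rw [h1]
        exact Subgroup.mem_top x
      exact hno6 a₁ x ha₁o hx (h2 a₁ ha₁)
    have hidx := Lib.Helper22.index_eq_prime_of_sylow_card (Subgroup.centralizer (A : Set G))
      2 3 hprimes h2idx hTtop S hScard
    exact ⟨Subgroup.centralizer (A : Set G), inferInstance,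
      ⟨⟨⟨fun a b => Subtype.ext (hTc a a.2 b b.2)⟩⟩, hT2⟩, hidx⟩
  · -- `A` is a `3`-group
    left
    have hA3 : ∀ a ∈ A, a ^ 3 = 1 := by
      intro a ha
      rcases hord a with h2 | h2 | h2
      · rw [orderOf_eq_one_iff.mp h2, one_pow]
      · exact absurd ⟨a, ha, h2⟩ hA2
      · rw [← h2, pow_orderOf_eq_one]
    have hinv : ∀ s : G, orderOf s = 2 → ∀ a ∈ A, s * a * s⁻¹ = a⁻¹ := by
      intro s hs a ha
      have hs2 : s * s = 1 := by rw [← pow_two, ← hs, pow_orderOf_eq_one]
      have hsa : s * a * s⁻¹ ∈ A := hAn.conj_mem a ha s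
      have hcA : a * (s * a * s⁻¹) ∈ A := A.mul_mem ha hsa
      have hsinv : s⁻¹ = s := inv_eq_of_mul_eq_one_left hs2
      have hcomm : s * (a * (s * a * s⁻¹)) = a * (s * a * s⁻¹) * s := by
        have h1 : s * (a * (s * a * s⁻¹)) = (s * a * s⁻¹) * (s * s) * a * s⁻¹ := by group
        rw [h1, hs2, mul_one, hAc _ hsa a ha, hsinv]
      have hc1 : a * (s * a * s⁻¹) = 1 := by
        by_contra hne
        have hco : orderOf (a * (s * a * s⁻¹)) = 3 := orderOf_eq_prime (hA3 _ hcA) hne
        exact hno6 s _ hs hco hcomm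
      exact (eq_inv_of_mul_eq_one_right hc1)
    obtain ⟨Q⟩ : Nonempty (Sylow 2 G) := inferInstance
    have hQ2 := h2el Q Q.isPGroup'
    have hQcard : Nat.card (Q : Subgroup G) = 2 := by
      have h2G : 2 ∣ Nat.card G := ht ▸ orderOf_dvd_natCard t
      obtain ⟨s', hs'1⟩ := (Subgroup.ne_bot_iff_exists_ne_one).mp (Q.ne_bot_of_dvd_card h2G)
      obtain ⟨s, hsQ, hs1⟩ : ∃ s : G, s ∈ (Q : Subgroup G) ∧ s ≠ 1 :=
        ⟨s', s'.2, fun h => hs'1 (Subtype.ext h)⟩
      have hso : orderOf s = 2 := orderOf_eq_prime (hQ2 s hsQ) hs1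
      have hall : ∀ u ∈ (Q : Subgroup G), u ∈ Subgroup.zpowers s := by
        intro u hu
        by_contra hun
        have hu1 : u ≠ 1 := by
          rintro rfl
          exact hun (Subgroup.one_mem _)
        have hus : u ≠ s := by
          rintro rfl
          exact hun (Subgroup.mem_zpowers _)
        have huo : orderOf u = 2 := orderOf_eq_prime (hQ2 u hu) hu1
        have hw1 : u * s ≠ 1 := by
          intro h1
          apply hus
          have hs2 : s * s = 1 := by rw [← pow_two, ← hso, pow_orderOf_eq_one]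
          calc u = u * (s * s) := by rw [hs2, mul_one]
            _ = (u * s) * s := by group
            _ = s := by rw [h1, one_mul]
        have hwo : orderOf (u * s) = 2 :=
          orderOf_eq_prime (hQ2 _ (Subgroup.mul_mem _ hu hsQ)) hw1
        have e1 := hinv s hso a₀ ha₀
        have e2 := hinv u huo a₀⁻¹ (A.inv_mem ha₀)
        have e3 := hinv (u * s) hwo a₀ ha₀
        have e4 : u * s * a₀ * (u * s)⁻¹ = u * (s * a₀ * s⁻¹) * u⁻¹ := by group
        rw [e4, e1, e2, inv_inv] at e3
        have e5 : a₀ ^ 2 = 1 := by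
          rw [pow_two]
          nth_rewrite 1 [e3]
          exact inv_mul_cancel a₀
        have e6 := hA3 a₀ ha₀
        apply ha₀'
        calc a₀ = a₀ ^ 3 * (a₀ ^ 2)⁻¹ := by group
          _ = 1 := by rw [e5, e6, inv_one, one_mul]
      have heq : (Q : Subgroup G) = Subgroup.zpowers s :=
        le_antisymm hall ((Subgroup.zpowers_le).mpr hsQ)
      rw [heq, Nat.card_zpowers]
      exact hso
    obtain ⟨S⟩ : Nonempty (Sylow 3 G) := inferInstance
    have hS3 := h3el S S.isPGroup'
    have hStop : (S : Subgroup G) ≠ ⊤ := by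
      intro h1
      have h2 : t ∈ (S : Subgroup G) := by
        rw [h1]
        exact Subgroup.mem_top t
      have h3 := orderOf_dvd_of_pow_eq_one (hS3 t h2)
      rw [ht] at h3
      omega
    have hprimes' : ∀ r : ℕ, r.Prime → r ∣ Nat.card G → r = 3 ∨ r = 2 :=
      fun r hr hrd => (hprimes r hr hrd).symm
    have hidx := Lib.Helper22.index_eq_prime_of_sylow_card (S : Subgroup G)
      3 2 hprimes' S.not_dvd_index hStop Q hQcard
    haveI hSn : (S : Subgroup G).Normal := Subgroup.normal_of_index_eq_two hidx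
    have ht2 : t * t = 1 := by rw [← pow_two, ← ht, pow_orderOf_eq_one]
    have htinv : t⁻¹ = t := inv_eq_of_mul_eq_one_left ht2
    have hfpf : MonoidHom.FixedPointFree
        ((MulAut.conjNormal t : MulAut (S : Subgroup G)).toMonoidHom) := by
      intro g hg
      have h1 : t * (g : G) * t⁻¹ = g := by
        have h2 := congrArg Subtype.val hg
        exact h2
      by_contra hne
      have hgo : orderOf (g : G) = 3 :=
        orderOf_eq_prime (hS3 g g.2) (fun h => hne (Subtype.ext h))
      apply hno6 t g ht hgo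
      calc t * (g : G) = t * g * t⁻¹ * t := by group
        _ = g * t := by rw [h1]
    have hinvol : Function.Involutive
        ((MulAut.conjNormal t : MulAut (S : Subgroup G)).toMonoidHom) := by
      intro g
      apply Subtype.ext
      show t * (t * (g : G) * t⁻¹) * t⁻¹ = g
      rw [htinv]
      calc t * (t * (g : G) * t) * t = (t * t) * g * (t * t) := by group
        _ = g := by rw [ht2, one_mul, mul_one]
    have hScomm := hfpf.commute_all_of_involutive hinvol
    exact ⟨S, hSn, ⟨⟨⟨fun a b => (hScomm a b).eq⟩⟩, hS3⟩, hidx⟩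

end Cfsg.Agent.S4005
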