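import Cfsg.Statements.S4198
import Mathlib.GroupTheory.SpecificGroups.Alternating.Centralizer
import Mathlib.GroupTheory.Perm.Cycle.PossibleTypes
import Mathlib.Data.Nat.Fib.Basic


set_option autoImplicit false
open Cfsg

namespace Cfsg.Agent.S4198

section

/-- cycle types of permutations of `n` points -/
def T (n : ℕ) : Set (Multiset ℕ) := {m | (∀ a ∈ m, 2 ≤ a) ∧ m.sum ≤ n}

theorem T_small (n : ℕ) (hn : n ≤ 1) : T n ⊆ {0} := by
  intro m hm
  obtain ⟨h1, h2⟩ := hm
  simp only [Set.mem_singleton_iff]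
  by_contra h
  obtain ⟨a, ha⟩ := Multiset.exists_mem_of_ne_zero h
  have h3 := h1 a ha
  have h4 := Multiset.le_sum_of_mem ha
  omega

theorem T_step (n : ℕ) :
    T (n + 2) ⊆ T (n + 1) ∪ (fun μ : Multiset ℕ => (n + 2 - μ.sum) ::ₘ μ) '' T n := by
  intro m hm
  obtain ⟨h1, h2⟩ := hm
  by_cases hs : m.sum ≤ n + 1
  · left; exact ⟨h1, hs⟩
  · right
    have hsum : m.sum = n + 2 := by omega
    have hne : m ≠ 0 := by rintro rfl; simp at hsum
    obtain ⟨a, ha⟩ := Multiset.exists_mem_of_ne_zero hne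
    have hcons : a ::ₘ m.erase a = m := Multiset.cons_erase ha
    have hsum' : a + (m.erase a).sum = n + 2 := by rw [← Multiset.sum_cons, hcons, hsum]
    have ha2 := h1 a ha
    refine ⟨m.erase a, ⟨fun b hb => h1 b (Multiset.mem_of_mem_erase hb), by omega⟩, ?_⟩
    show (n + 2 - (m.erase a).sum) ::ₘ m.erase a = m
    have : n + 2 - (m.erase a).sum = a := by omega
    rw [this, hcons]

theorem T_fin (n : ℕ) : (T n).Finite ∧ (T n).ncard ≤ Nat.fib (n + 1) ∧ (T (n + 1)).Finite ∧
    (T (n + 1)).ncard ≤ Nat.fib (n + 2) := by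
  induction n with
  | zero =>
    have h0 := T_small 0 (by omega)
    have h1 := T_small 1 (by omega)
    refine ⟨(Set.finite_singleton _).subset h0, ?_, (Set.finite_singleton _).subset h1, ?_⟩
    · calc (T 0).ncard ≤ ({0} : Set (Multiset ℕ)).ncard := Set.ncard_le_ncard h0 (Set.finite_singleton _)
        _ = 1 := Set.ncard_singleton _
        _ = Nat.fib (0 + 1) := by simp
    · calc (T (0 + 1)).ncard ≤ ({0} : Set (Multiset ℕ)).ncard := Set.ncard_le_ncard h1 (Set.finite_singleton _)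
        _ = 1 := Set.ncard_singleton _
        _ = Nat.fib (0 + 2) := by simp
  | succ k ih =>
    obtain ⟨f0, c0, f1, c1⟩ := ih
    refine ⟨f1, c1, (f1.union (f0.image _)).subset (T_step k), ?_⟩
    calc (T (k + 2)).ncard
        ≤ (T (k + 1) ∪ (fun μ : Multiset ℕ => (k + 2 - μ.sum) ::ₘ μ) '' T k).ncard :=
          Set.ncard_le_ncard (T_step k) (f1.union (f0.image _))
      _ ≤ (T (k + 1)).ncard + ((fun μ : Multiset ℕ => (k + 2 - μ.sum) ::ₘ μ) '' T k).ncard :=
          Set.ncard_union_le _ _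
      _ ≤ Nat.fib (k + 2) + Nat.fib (k + 1) := Nat.add_le_add c1 ((Set.ncard_image_le f0).trans c0)
      _ = Nat.fib (k + 1 + 2) := by rw [Nat.fib_add_two (n := k + 1), Nat.add_comm]

theorem fib_aux (k : ℕ) : Nat.fib (k + 6) ≤ 2 ^ (k + 3) ∧ Nat.fib (k + 7) ≤ 2 ^ (k + 4) := by
  induction k with
  | zero => exact ⟨by decide, by decide⟩
  | succ k ih =>
    refine ⟨ih.2, ?_⟩
    have h : Nat.fib (k + 6 + 2) = Nat.fib (k + 6) + Nat.fib (k + 6 + 1) := Nat.fib_add_two
    have e : (2 : ℕ) ^ (k + 1 + 4) = 2 ^ (k + 3) + 2 ^ (k + 3) + 2 ^ (k + 4) := by ring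
    calc Nat.fib (k + 1 + 7) = Nat.fib (k + 6) + Nat.fib (k + 7) := h
      _ ≤ 2 ^ (k + 3) + 2 ^ (k + 4) := Nat.add_le_add ih.1 ih.2
      _ ≤ 2 ^ (k + 1 + 4) := by rw [e]; omega

theorem fib_le (n : ℕ) (hn : 5 ≤ n) : Nat.fib (n + 1) ≤ 2 ^ (n - 2) := by
  obtain ⟨k, rfl⟩ := Nat.exists_eq_add_of_le hn
  have := (fib_aux k).1
  have e1 : 5 + k + 1 = k + 6 := by omega
  have e2 : 5 + k - 2 = k + 3 := by omega
  rw [e1, e2]; exact this

theorem odd_parts (m : Multiset ℕ) (h : ∀ c ∈ m, Odd c) : Even (m.sum + Multiset.card m) := by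
  induction m using Multiset.induction_on with
  | empty => simp
  | cons a s ih =>
    have ha : Odd a := h a (Multiset.mem_cons_self a s)
    have hs := ih (fun c hc => h c (Multiset.mem_cons_of_mem hc))
    rw [Multiset.sum_cons, Multiset.card_cons]
    obtain ⟨r, hr⟩ := ha
    obtain ⟨q, hq⟩ := hs
    exact ⟨r + q + 1, by omega⟩

/-- cycle type of a conjugacy class -/
noncomputable def ct {n : ℕ} (C : ConjClasses (Equiv.Perm (Fin n))) : Multiset ℕ :=
  (Classical.choose (ConjClasses.exists_rep C)).cycleType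

theorem ct_mk {n : ℕ} (x : Equiv.Perm (Fin n)) : ct (ConjClasses.mk x) = x.cycleType := by
  have h := Classical.choose_spec (ConjClasses.exists_rep (ConjClasses.mk x))
  rw [ConjClasses.mk_eq_mk_iff_isConj, Equiv.Perm.isConj_iff_cycleType_eq] at h
  exact h

theorem ct_inj {n : ℕ} : Function.Injective (ct (n := n)) := by
  intro C C' h
  obtain ⟨x, rfl⟩ := ConjClasses.exists_rep C
  obtain ⟨y, rfl⟩ := ConjClasses.exists_rep C'
  rw [ct_mk, ct_mk] at h
  rw [ConjClasses.mk_eq_mk_iff_isConj, Equiv.Perm.isConj_iff_cycleType_eq]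
  exact h

theorem ct_mem {n : ℕ} (C : ConjClasses (Equiv.Perm (Fin n))) : ct C ∈ T n := by
  obtain ⟨x, rfl⟩ := ConjClasses.exists_rep C
  rw [ct_mk]
  exact ⟨fun a ha => Equiv.Perm.two_le_of_mem_cycleType ha, by simpa using x.sum_cycleType_le⟩

theorem card_le (n : ℕ) : Nat.card (ConjClasses (Equiv.Perm (Fin n))) ≤ (T n).ncard := by
  have hfin := (T_fin n).1
  rw [← Set.ncard_univ]
  calc (Set.univ : Set (ConjClasses (Equiv.Perm (Fin n)))).ncard
      = (ct '' (Set.univ : Set (ConjClasses (Equiv.Perm (Fin n))))).ncard :=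
        (Set.ncard_image_of_injective _ ct_inj).symm
    _ ≤ (T n).ncard := Set.ncard_le_ncard (by rintro _ ⟨C, -, rfl⟩; exact ct_mem C) hfin

theorem alt_lt (n : ℕ) (hn : 5 ≤ n) : Nat.card (ConjClasses (alternatingGroup (Fin n))) <
    Nat.card (ConjClasses (Equiv.Perm (Fin n))) := by
  classical
  let Φ : ConjClasses (alternatingGroup (Fin n)) → ConjClasses (Equiv.Perm (Fin n)) :=
    ConjClasses.map (alternatingGroup (Fin n)).subtype
  let E : Set (ConjClasses (Equiv.Perm (Fin n))) :=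
    {C | ∃ x : Equiv.Perm (Fin n), x ∈ alternatingGroup (Fin n) ∧ ConjClasses.mk x = C}
  let O : Set (ConjClasses (Equiv.Perm (Fin n))) :=
    {C | ∃ x : Equiv.Perm (Fin n), x ∉ alternatingGroup (Fin n) ∧ ConjClasses.mk x = C}
  let S : Set (ConjClasses (Equiv.Perm (Fin n))) :=
    {C | ∃ x : Equiv.Perm (Fin n), Subgroup.centralizer {x} ≤ alternatingGroup (Fin n) ∧ ConjClasses.mk x = C}
  have hΦ : ∀ x : alternatingGroup (Fin n), Φ (ConjClasses.mk x) = ConjClasses.mk (x : Equiv.Perm (Fin n)) :=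
    fun x => rfl
  have key : ∀ x y : alternatingGroup (Fin n),
      ConjClasses.mk x ≠ ConjClasses.mk y →
      ∀ g : Equiv.Perm (Fin n), g * x * g⁻¹ = y → g ∉ alternatingGroup (Fin n) := by
    intro x y hne g hg hgH
    apply hne
    rw [ConjClasses.mk_eq_mk_iff_isConj, isConj_iff]
    exact ⟨⟨g, hgH⟩, Subtype.ext (by simpa using hg)⟩
  have oddodd : ∀ g g' : Equiv.Perm (Fin n), g ∉ alternatingGroup (Fin n) → g' ∉ alternatingGroup (Fin n) →
      g' * g⁻¹ ∈ alternatingGroup (Fin n) := by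
    intro g g' h h'
    rw [Equiv.Perm.mem_alternatingGroup] at h h' ⊢
    have e := (Int.units_eq_one_or (Equiv.Perm.sign g)).resolve_left h
    have e' := (Int.units_eq_one_or (Equiv.Perm.sign g')).resolve_left h'
    simp [Equiv.Perm.sign_mul, Equiv.Perm.sign_inv, e, e']
  have three : ∀ x y w : alternatingGroup (Fin n),
      ConjClasses.mk (x : Equiv.Perm (Fin n)) = ConjClasses.mk (y : Equiv.Perm (Fin n)) →
      ConjClasses.mk (x : Equiv.Perm (Fin n)) = ConjClasses.mk (w : Equiv.Perm (Fin n)) →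
      ConjClasses.mk x ≠ ConjClasses.mk y → ConjClasses.mk x ≠ ConjClasses.mk w →
      ConjClasses.mk y = ConjClasses.mk w := by
    intro x y w hxy hxw h1 h2
    obtain ⟨g, hg⟩ := isConj_iff.mp (ConjClasses.mk_eq_mk_iff_isConj.mp hxy)
    obtain ⟨g', hg'⟩ := isConj_iff.mp (ConjClasses.mk_eq_mk_iff_isConj.mp hxw)
    have hgo := key x y h1 g hg
    have hgo' := key x w h2 g' hg'
    have hmem := oddodd g g' hgo hgo'
    rw [ConjClasses.mk_eq_mk_iff_isConj, isConj_iff]
    refine ⟨⟨g' * g⁻¹, hmem⟩, Subtype.ext ?_⟩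
    show g' * g⁻¹ * (y : Equiv.Perm (Fin n)) * (g' * g⁻¹)⁻¹ = w
    rw [← hg, ← hg']; group
  have split : ∀ x y : alternatingGroup (Fin n),
      ConjClasses.mk (x : Equiv.Perm (Fin n)) = ConjClasses.mk (y : Equiv.Perm (Fin n)) →
      ConjClasses.mk x ≠ ConjClasses.mk y →
      Subgroup.centralizer {(x : Equiv.Perm (Fin n))} ≤ alternatingGroup (Fin n) := by
    intro x y hxy hne c hc
    by_contra hcH
    obtain ⟨g, hg⟩ := isConj_iff.mp (ConjClasses.mk_eq_mk_iff_isConj.mp hxy)
    have hgo := key x y hne g hg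
    have hc' : c * (x : Equiv.Perm (Fin n)) = (x : Equiv.Perm (Fin n)) * c := by
      rw [Subgroup.mem_centralizer_iff] at hc
      exact (hc _ rfl).symm
    have hcx : c * (x : Equiv.Perm (Fin n)) * c⁻¹ = x := by rw [hc', mul_inv_cancel_right]
    refine key x y hne (g * c) ?_ ?_
    · calc g * c * (x : Equiv.Perm (Fin n)) * (g * c)⁻¹
          = g * (c * (x : Equiv.Perm (Fin n)) * c⁻¹) * g⁻¹ := by group
        _ = g * x * g⁻¹ := by rw [hcx]
        _ = y := hg
    · have := oddodd c⁻¹ g (by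
        intro h; exact hcH (by simpa using inv_mem h)) hgo
      simpa using this
  let s : ConjClasses (Equiv.Perm (Fin n)) → ConjClasses (alternatingGroup (Fin n)) := Function.invFun Φ
  have hs : ∀ D : ConjClasses (alternatingGroup (Fin n)), Φ (s (Φ D)) = Φ D :=
    fun D => Function.invFun_eq ⟨D, rfl⟩
  let Θ : ConjClasses (alternatingGroup (Fin n)) → ConjClasses (Equiv.Perm (Fin n)) × Bool :=
    fun D => (Φ D, decide (D = s (Φ D)))
  have hΘ : Function.Injective Θ := by
    intro D D' h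
    have h1 : Φ D = Φ D' := congrArg Prod.fst h
    have h2 : decide (D = s (Φ D)) = decide (D' = s (Φ D')) := congrArg Prod.snd h
    have h2' : (D = s (Φ D)) ↔ (D' = s (Φ D')) := decide_eq_decide.mp h2
    by_cases hD : D = s (Φ D)
    · have hD' := h2'.mp hD
      rw [hD, hD', h1]
    · have hD' : ¬ D' = s (Φ D') := fun e => hD (h2'.mpr e)
      obtain ⟨w, hw⟩ := ConjClasses.exists_rep (s (Φ D))
      have hsw : Φ (ConjClasses.mk w) = Φ D := by rw [hw]; exact hs D
      obtain ⟨x, rfl⟩ := ConjClasses.exists_rep D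
      obtain ⟨y, rfl⟩ := ConjClasses.exists_rep D'
      rw [hΦ] at hsw
      have hxy : ConjClasses.mk (x : Equiv.Perm (Fin n)) = ConjClasses.mk (y : Equiv.Perm (Fin n)) := h1
      refine three w x y hsw (hsw.trans hxy) ?_ ?_
      · rw [hw]; exact fun e => hD e.symm
      · rw [hw, h1]; exact fun e => hD' e.symm
  have hrange : Set.range Θ ⊆ ((fun C => (C, true)) '' E) ∪ ((fun C => (C, false)) '' S) := by
    rintro _ ⟨D, rfl⟩
    by_cases hD : D = s (Φ D)
    · left
      obtain ⟨x, hx⟩ := ConjClasses.exists_rep D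
      refine ⟨Φ D, ⟨x, x.2, by rw [← hx]; rfl⟩, ?_⟩
      show (Φ D, true) = (Φ D, decide (D = s (Φ D)))
      rw [decide_eq_true hD]
    · right
      obtain ⟨w, hw⟩ := ConjClasses.exists_rep (s (Φ D))
      have hsw : Φ (ConjClasses.mk w) = Φ D := by rw [hw]; exact hs D
      obtain ⟨x, hx⟩ := ConjClasses.exists_rep D
      refine ⟨Φ D, ⟨x, split x w ?_ ?_, by rw [← hx]; rfl⟩, ?_⟩
      · rw [← hx] at hsw; exact hsw.symm
      · rw [hx, hw]; exact hD
      · show (Φ D, false) = (Φ D, decide (D = s (Φ D)))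
        rw [decide_eq_false hD]
  have h1 : Nat.card (ConjClasses (alternatingGroup (Fin n))) ≤ E.ncard + S.ncard := by
    calc Nat.card (ConjClasses (alternatingGroup (Fin n))) = (Set.range Θ).ncard := by
          rw [← Set.image_univ, Set.ncard_image_of_injective _ hΘ, Set.ncard_univ]
      _ ≤ (((fun C => (C, true)) '' E) ∪ ((fun C => (C, false)) '' S)).ncard :=
          Set.ncard_le_ncard hrange (Set.toFinite _)
      _ ≤ ((fun C : ConjClasses (Equiv.Perm (Fin n)) => (C, true)) '' E).ncard +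
            ((fun C : ConjClasses (Equiv.Perm (Fin n)) => (C, false)) '' S).ncard := Set.ncard_union_le _ _
      _ ≤ E.ncard + S.ncard :=
          Nat.add_le_add (Set.ncard_image_le (Set.toFinite _)) (Set.ncard_image_le (Set.toFinite _))
  have h2 : E.ncard + O.ncard ≤ Nat.card (ConjClasses (Equiv.Perm (Fin n))) := by
    have hdisj : Disjoint E O := by
      rw [Set.disjoint_left]
      rintro C ⟨x, hx, rfl⟩ ⟨y, hy, hxy⟩
      rw [ConjClasses.mk_eq_mk_iff_isConj, isConj_iff] at hxy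
      obtain ⟨g, hg⟩ := hxy
      apply hy
      have e : y = g⁻¹ * x * g⁻¹⁻¹ := by rw [← hg]; group
      rw [e]
      exact (inferInstance : (alternatingGroup (Fin n)).Normal).conj_mem x hx g⁻¹
    rw [← Set.ncard_union_eq hdisj (Set.toFinite _) (Set.toFinite _), ← Set.ncard_univ]
    exact Set.ncard_le_ncard (Set.subset_univ _) (Set.toFinite _)
  let Tsplit : Set (Multiset ℕ) :=
    {m | m ∈ T n ∧ (∀ c ∈ m, Odd c) ∧ n ≤ m.sum + 1 ∧ ∀ i, m.count i ≤ 1}
  let Todd : Set (Multiset ℕ) := {m | m ∈ T n ∧ Odd (m.sum + Multiset.card m)}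
  have hTfin : (T n).Finite := (T_fin n).1
  have hS : S.ncard ≤ Tsplit.ncard := by
    rw [← Set.ncard_image_of_injective S ct_inj]
    apply Set.ncard_le_ncard _ (hTfin.subset (fun m hm => hm.1))
    rintro _ ⟨C, ⟨x, hx, rfl⟩, rfl⟩
    have h := Equiv.Perm.centralizer_le_alternating_iff.mp hx
    refine ⟨ct_mem _, ?_, ?_, ?_⟩
    · rw [ct_mk]; exact h.1
    · rw [ct_mk]; simpa using h.2.1
    · rw [ct_mk]; exact h.2.2
  have hO : Todd.ncard ≤ O.ncard := by
    rw [← Set.ncard_image_of_injective O ct_inj]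
    apply Set.ncard_le_ncard _ (Set.toFinite _)
    rintro m ⟨⟨hm1, hm2⟩, hodd⟩
    obtain ⟨g, hg⟩ := (Equiv.Perm.exists_with_cycleType_iff (α := Fin n)).mpr ⟨by simpa using hm2, hm1⟩
    refine ⟨ConjClasses.mk g, ⟨g, ?_, rfl⟩, by rw [ct_mk, hg]⟩
    rw [Equiv.Perm.mem_alternatingGroup, Equiv.Perm.sign_of_cycleType, hg, Odd.neg_one_pow hodd]
    decide
  let ell : Multiset ℕ → ℕ :=
    fun m => if h : m = 0 then 0 else Classical.choose (Multiset.exists_mem_of_ne_zero h)
  have hell : ∀ m : Multiset ℕ, m ≠ 0 → ell m ∈ m := by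
    intro m h
    simp only [ell, dif_neg h]
    exact Classical.choose_spec (Multiset.exists_mem_of_ne_zero h)
  let φ : Multiset ℕ → Multiset ℕ := fun m => (ell m - 1) ::ₘ m.erase (ell m)
  have hne0 : ∀ m ∈ Tsplit, m ≠ 0 := by
    rintro m ⟨_, _, h, _⟩ rfl
    simp at h; omega
  have hdata : ∀ m ∈ Tsplit, ell m ∈ m ∧ 3 ≤ ell m ∧ Odd (ell m) ∧ ell m ::ₘ m.erase (ell m) = m ∧
      ell m + (m.erase (ell m)).sum = m.sum := by
    intro m hm
    have h0 := hell m (hne0 m hm)
    obtain ⟨hT, hodd, _, _⟩ := hm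
    have h2 := hT.1 _ h0
    have ho := hodd _ h0
    have hcons : ell m ::ₘ m.erase (ell m) = m := Multiset.cons_erase h0
    refine ⟨h0, ?_, ho, hcons, ?_⟩
    · obtain ⟨r, hr⟩ := ho; omega
    · rw [← Multiset.sum_cons, hcons]
  have hφodd : ∀ m ∈ Tsplit, φ m ∈ Todd ∧ φ m ≠ {2} := by
    intro m hm
    obtain ⟨h0, h3, ho, hcons, hsum⟩ := hdata m hm
    obtain ⟨hT, hodd, hn1, _⟩ := hm
    have hφsum : (φ m).sum + 1 = m.sum := by
      show ((ell m - 1) ::ₘ m.erase (ell m)).sum + 1 = m.sum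
      rw [Multiset.sum_cons]; omega
    have hφcard : Multiset.card (φ m) = Multiset.card m := by
      show Multiset.card ((ell m - 1) ::ₘ m.erase (ell m)) = Multiset.card m
      rw [Multiset.card_cons, ← hcons, Multiset.card_cons]
      rw [hcons]
    refine ⟨⟨⟨?_, by have := hT.2; omega⟩, ?_⟩, ?_⟩
    · intro a ha
      rcases Multiset.mem_cons.mp ha with e | e
      · omega
      · exact hT.1 a (Multiset.mem_of_mem_erase e)
    · obtain ⟨q, hq⟩ := odd_parts m hodd
      rw [hφcard]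
      exact ⟨q - 1, by omega⟩
    · intro e
      have : (φ m).sum = 2 := by rw [e]; simp
      omega
  have hφinj : Set.InjOn φ Tsplit := by
    intro m₁ hm₁ m₂ hm₂ h
    obtain ⟨h0, h3, ho, hcons, hsum⟩ := hdata m₁ hm₁
    obtain ⟨h0', h3', ho', hcons', hsum'⟩ := hdata m₂ hm₂
    have hmem : ell m₂ - 1 ∈ (ell m₁ - 1) ::ₘ m₁.erase (ell m₁) := by
      have : ell m₂ - 1 ∈ φ m₂ := Multiset.mem_cons_self _ _
      rw [← h] at this; exact this
    have hl : ell m₂ - 1 = ell m₁ - 1 := by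
      rcases Multiset.mem_cons.mp hmem with e | e
      · exact e
      · exfalso
        have hodd1 := hm₁.2.1 _ (Multiset.mem_of_mem_erase e)
        obtain ⟨r, hr⟩ := hodd1
        obtain ⟨r', hr'⟩ := ho'
        omega
    have hl' : ell m₁ = ell m₂ := by omega
    have h' : (ell m₁ - 1) ::ₘ m₁.erase (ell m₁) = (ell m₂ - 1) ::ₘ m₂.erase (ell m₂) := h
    rw [hl, Multiset.cons_inj_right] at h'
    rw [← hcons, ← hcons', h', hl']
  have hT : Tsplit.ncard < Todd.ncard := by
    have hTodd_fin : Todd.Finite := hTfin.subset (fun m hm => hm.1)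
    calc Tsplit.ncard = (φ '' Tsplit).ncard := (Set.InjOn.ncard_image hφinj).symm
      _ < Todd.ncard := by
        apply Set.ncard_lt_ncard _ hTodd_fin
        refine ⟨?_, ?_⟩
        · rintro _ ⟨m, hm, rfl⟩; exact (hφodd m hm).1
        · intro hsub
          have h2 : ({2} : Multiset ℕ) ∈ Todd := by
            refine ⟨⟨?_, ?_⟩, ?_⟩
            · intro a ha; simp at ha; omega
            · simp; omega
            · simp; decide
          obtain ⟨m, hm, hm2⟩ := hsub h2
          exact (hφodd m hm).2 hm2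
  omega

end

/-- For n ≥ 5 the alternating group of degree n has strictly fewer conjugacy classes than the symmetric group of degree n, and the symmetric group of degree n (whose classes correspond to the partitions of n) has at most 2^(n−2) conjugacy classes. -/
theorem result (n : ℕ) (hn : 5 ≤ n) : Nat.card (ConjClasses (alternatingGroup (Fin n))) < Nat.card (ConjClasses (Equiv.Perm (Fin n))) ∧ Nat.card (ConjClasses (Equiv.Perm (Fin n))) ≤ 2 ^ (n - 2) := by
  exact ⟨alt_lt n hn, (card_le n).trans ((T_fin n).2.1.trans (fib_le n hn))⟩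

end Cfsg.Agent.S4198
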