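import Cfsg.Statements.S4200
import Mathlib
import Cfsg.Agent.Lib.Helper23.CommPairs

set_option autoImplicit false
open Cfsg

namespace Cfsg.Agent.S4200

/-- Let Y be a subgroup of the finite group X, of index m. Then the numbers of conjugacy classes satisfy k(Y) ≤ m·k(X) and k(X) ≤ m·k(Y), and the second inequality is strict unless Y is normal in X. -/
theorem result {X : Type*} [Group X] [Finite X] (Y : Subgroup X) : Nat.card (ConjClasses Y) ≤ Y.index * Nat.card (ConjClasses X) ∧ Nat.card (ConjClasses X) ≤ Y.index * Nat.card (ConjClasses Y) ∧ (¬ Y.Normal → Nat.card (ConjClasses X) < Y.index * Nat.card (ConjClasses Y)) := by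
  classical
  have hYpos : 0 < Nat.card Y := Nat.card_pos
  have hXpos : 0 < Nat.card X := Nat.card_pos
  have hidx : Nat.card Y * Y.index = Nat.card X := Subgroup.card_mul_index Y
  have hidx' : Nat.card (X ⧸ Y) = Y.index := rfl
  have hmpos : 0 < Y.index := Nat.pos_of_ne_zero Subgroup.index_ne_zero_of_finite
  obtain ⟨F, hF, hF2, hF3⟩ := Cfsg.Agent.Lib.Helper23.commPairs_inj Y
  have cX := card_comm_eq_card_conjClasses_mul_card X
  have cY := card_comm_eq_card_conjClasses_mul_card Y
  refine ⟨?_, ?_, ?_⟩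
  · let E : {p : Y × Y // Commute p.1 p.2} → {p : X × X // Commute p.1 p.2} :=
      fun p => ⟨((p.1.1 : X), (p.1.2 : X)), p.2.map Y.subtype⟩
    have hE : Function.Injective E := by
      rintro ⟨⟨a, b⟩, h⟩ ⟨⟨a', b'⟩, h'⟩ heq
      have h1 : (a : X) = a' := congrArg (fun q => q.1.1) heq
      have h2 : (b : X) = b' := congrArg (fun q => q.1.2) heq
      have h1' := Subtype.ext h1
      have h2' := Subtype.ext h2
      subst h1'; subst h2'; rfl
    have key := Nat.card_le_card_of_injective E hE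
    rw [cX, cY, ← hidx] at key
    apply Nat.le_of_mul_le_mul_right _ hYpos
    calc _ ≤ _ := key
      _ = _ := by ring
  · have key := Nat.card_le_card_of_injective F hF
    rw [Nat.card_prod, Nat.card_prod, cX, cY, hidx', ← hidx] at key
    apply Nat.le_of_mul_le_mul_right _ (Nat.mul_pos hYpos hmpos)
    calc _ ≤ _ := key
      _ = _ := by ring
  · intro hnn
    have : ∃ y ∈ Y, ∃ g : X, g * y * g⁻¹ ∉ Y := by
      by_contra hcon
      push Not at hcon
      exact hnn ⟨fun y hy g => hcon y hy g⟩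
    obtain ⟨y, hy, g, hg⟩ := this
    have key : Nat.card {p : X × X // Commute p.1 p.2} <
        Nat.card ({p : Y × Y // Commute p.1 p.2} × (X ⧸ Y) × (X ⧸ Y)) := by
      have := Fintype.ofFinite {p : X × X // Commute p.1 p.2}
      have := Fintype.ofFinite ({p : Y × Y // Commute p.1 p.2} × (X ⧸ Y) × (X ⧸ Y))
      rw [Nat.card_eq_fintype_card, Nat.card_eq_fintype_card]
      apply Fintype.card_lt_of_injective_of_notMem F hF
        (b := (⟨((1 : Y), (⟨y, hy⟩ : Y)), Commute.one_left _⟩, ((g⁻¹ : X) : X ⧸ Y),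
          ((1 : X) : X ⧸ Y)))
      rintro ⟨p, hp⟩
      have h1 : (p.1.1 : X ⧸ Y) = ((g⁻¹ : X) : X ⧸ Y) := by
        rw [← (hF2 p).1, hp]
      have h2 : Commute y p.1.1 := by
        have := hF3 p
        rw [hp] at this
        exact this
      have h3 : (p.1.1)⁻¹ * g⁻¹ ∈ Y := QuotientGroup.eq.mp h1
      apply hg
      have e : g * y * g⁻¹ = ((p.1.1)⁻¹ * g⁻¹)⁻¹ * y * ((p.1.1)⁻¹ * g⁻¹) := by
        have : p.1.1 * y * (p.1.1)⁻¹ = y := by rw [← h2.eq]; group
        calc g * y * g⁻¹ = g * (p.1.1 * y * (p.1.1)⁻¹) * g⁻¹ := by rw [this]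
          _ = _ := by group
      rw [e]
      exact Y.mul_mem (Y.mul_mem (Y.inv_mem h3) hy) h3
    rw [Nat.card_prod, Nat.card_prod, cX, cY, hidx', ← hidx] at key
    apply Nat.lt_of_mul_lt_mul_right (a := Nat.card Y * Y.index)
    calc _ < _ := key
      _ = _ := by ring

end Cfsg.Agent.S4200
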