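import Cfsg.Statements.S4201
import Mathlib
import Cfsg.Agent.Lib.Helper23.CommPairs

set_option autoImplicit false
open Cfsg

namespace Cfsg.Agent.S4201

/-- If N is a normal subgroup of the finite group X then k(X) ≤ k(N)·k(X ⧸ N), where k denotes the number of conjugacy classes. -/
theorem result {X : Type*} [Group X] [Finite X] (N : Subgroup X) [N.Normal] : Nat.card (ConjClasses X) ≤ Nat.card (ConjClasses N) * Nat.card (ConjClasses (X ⧸ N)) := by
  classical
  obtain ⟨F, hF, hF2, -⟩ := Cfsg.Agent.Lib.Helper23.commPairs_inj N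
  have hcomm : ∀ p, Commute (F p).2.1 (F p).2.2 := by
    intro p
    rw [(hF2 p).1, (hF2 p).2]
    exact p.2.map (QuotientGroup.mk' N)
  let F' : {p : X × X // Commute p.1 p.2} →
      {p : N × N // Commute p.1 p.2} × {p : (X ⧸ N) × (X ⧸ N) // Commute p.1 p.2} :=
    fun p => ((F p).1, ⟨(F p).2, hcomm p⟩)
  have hF' : Function.Injective F' := by
    intro p q h
    apply hF
    have h1 : (F p).1 = (F q).1 := congrArg (fun z => z.1) h
    have h2 : (F p).2 = (F q).2 := congrArg (fun z => (z.2 : (X ⧸ N) × (X ⧸ N))) h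
    exact Prod.ext h1 h2
  have key := Nat.card_le_card_of_injective F' hF'
  rw [Nat.card_prod, card_comm_eq_card_conjClasses_mul_card,
    card_comm_eq_card_conjClasses_mul_card, card_comm_eq_card_conjClasses_mul_card] at key
  have h4 : Nat.card N * Nat.card (X ⧸ N) = Nat.card X := Subgroup.card_mul_index N
  have hpos : 0 < Nat.card X := Nat.card_pos
  apply Nat.le_of_mul_le_mul_right _ hpos
  calc _ ≤ _ := key
    _ = _ := by rw [← h4]; ring

end Cfsg.Agent.S4201
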