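import Cfsg.Statements.S4203
import Mathlib
import Cfsg.Agent.Lib.Helper24.SylowCount
import Cfsg.Agent.Lib.Helper2.CharBurnside

set_option autoImplicit false
open Cfsg

namespace Cfsg.Agent.S4203


universe u

theorem aux : ∀ (n : ℕ) (G : Type u) [Group G] [Finite G], Nat.card G = n →
    (∀ M : Subgroup G, IsCoatom M → ∃ p : ℕ, p.Prime ∧ (M.index = p ∨ M.index = p ^ 2)) →
    Group.IsSolvable G := by
  intro n
  induction n using Nat.strong_induction_on with
  | _ n ih =>
    intro G _ _ hcard h
    by_cases htriv : Nat.card G = 1
    · have : Subsingleton G := (Nat.card_eq_one_iff_unique.1 htriv).1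
      exact Group.isSolvable_of_comm (fun a b => Subsingleton.elim _ _)
    have hgt : 1 < Nat.card G := by
      have := Nat.card_pos (α := G)
      omega
    have hne : (Nat.card G).primeFactors.Nonempty := Nat.nonempty_primeFactors.2 hgt
    obtain ⟨p, hpmem, hmax'⟩ : ∃ p ∈ (Nat.card G).primeFactors, ∀ r ∈ (Nat.card G).primeFactors, r ≤ p :=
      ⟨_, Finset.max'_mem _ hne, fun r hr => Finset.le_max' _ r hr⟩
    have hp : p.Prime := (Nat.mem_primeFactors.1 hpmem).1
    have hpd : p ∣ Nat.card G := (Nat.mem_primeFactors.1 hpmem).2.1
    have hmax : ∀ r : ℕ, r.Prime → r ∣ Nat.card G → r ≤ p := fun r hr hrd =>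
      hmax' r (Nat.mem_primeFactors.2 ⟨hr, hrd, Nat.card_pos.ne'⟩)
    have : Fact p.Prime := ⟨hp⟩
    obtain ⟨P⟩ : Nonempty (Sylow p G) := inferInstance
    by_cases hPn : (P : Subgroup G).Normal
    · have hsurj := QuotientGroup.mk'_surjective (P : Subgroup G)
      have hPcard : 1 < Nat.card (P : Subgroup G) := by
        rw [Sylow.card_eq_multiplicity]
        apply Nat.one_lt_pow _ hp.one_lt
        intro h0
        exact (Nat.factorization_eq_zero_iff _ _).1 h0 |>.elim (fun h1 => h1 hp)
          (fun h1 => h1.elim (fun h2 => h2 hpd) (fun h2 => Nat.card_pos.ne' h2))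
      have hQ : Group.IsSolvable (G ⧸ (P : Subgroup G)) := by
        apply ih (Nat.card (G ⧸ (P : Subgroup G))) ?_ (G ⧸ (P : Subgroup G)) rfl ?_
        · have h1 := Subgroup.card_eq_card_quotient_mul_card_subgroup (P : Subgroup G)
          rw [← hcard, h1]
          have hpos : 0 < Nat.card (G ⧸ (P : Subgroup G)) := Nat.card_pos
          nlinarith
        · intro M hM
          have hker : (P : Subgroup G) ≤ M.comap (QuotientGroup.mk' (P : Subgroup G)) := by
            have := MonoidHom.ker_le_comap (QuotientGroup.mk' (P : Subgroup G)) M
            rwa [QuotientGroup.ker_mk'] at this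
          have hco : IsCoatom (M.comap (QuotientGroup.mk' (P : Subgroup G))) := by
            constructor
            · intro htop
              apply hM.1
              rw [← Subgroup.map_comap_eq_self_of_surjective hsurj M, htop,
                Subgroup.map_top_of_surjective _ hsurj]
            · intro K hK
              have hKeq : (K.map (QuotientGroup.mk' (P : Subgroup G))).comap
                  (QuotientGroup.mk' (P : Subgroup G)) = K := by
                rw [Subgroup.comap_map_eq, QuotientGroup.ker_mk']
                exact sup_eq_left.2 (hker.trans hK.le)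
              have h1 : M < K.map (QuotientGroup.mk' (P : Subgroup G)) := by
                refine lt_of_le_of_ne ?_ ?_
                · rw [← Subgroup.map_comap_eq_self_of_surjective hsurj M]
                  exact Subgroup.map_mono hK.le
                · intro heq
                  rw [heq, hKeq] at hK
                  exact lt_irrefl _ hK
              have h2 := hM.2 _ h1
              rw [← hKeq, h2, Subgroup.comap_top]
          obtain ⟨q, hq, hqi⟩ := h _ hco
          refine ⟨q, hq, ?_⟩
          rwa [Subgroup.index_comap_of_surjective _ hsurj] at hqi
      have hPs : Group.IsSolvable (P : Subgroup G) := by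
        have := P.isPGroup'.isNilpotent
        infer_instance
      exact Group.isSolvable_of_ker_le_range (P : Subgroup G).subtype (QuotientGroup.mk' (P : Subgroup G))
        (by rw [QuotientGroup.ker_mk', Subgroup.range_subtype])
    · have hN : Subgroup.normalizer ((P : Subgroup G) : Set G) ≠ ⊤ :=
        fun htop => hPn (Subgroup.normalizer_eq_top_iff.1 htop)
      obtain ⟨M, hM, hNM⟩ := (eq_top_or_exists_le_coatom _).resolve_left hN
      obtain ⟨q, hq, hqi⟩ := h M hM
      have hPM : (P : Subgroup G) ≤ M := Subgroup.le_normalizer.trans hNM
      have hmod : M.index ≡ 1 [MOD p] := by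
        have h1 : Nat.card (Sylow p M) ≡ 1 [MOD p] := card_sylow_modEq_one p M
        rw [Cfsg.Agent.Lib.Helper24.card_sylow_of_le p P M hPM] at h1
        have h2 : (Subgroup.normalizer ((P : Subgroup G) : Set G)).index ≡ 1 [MOD p] := by
          have h2' : Nat.card (Sylow p G) ≡ 1 [MOD p] := card_sylow_modEq_one p G
          rw [Sylow.card_eq_index_normalizer P] at h2'
          exact h2'
        rw [← Subgroup.relIndex_mul_index hNM] at h2
        have h3 := h1.mul_right M.index
        rw [one_mul] at h3
        exact h3.symm.trans h2
      have hidx1 : M.index ≠ 1 := fun h1 => hM.1 (Subgroup.index_eq_one.1 h1)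
      have hqd : q ∣ Nat.card G := by
        have h1 : M.index ∣ Nat.card G := Subgroup.index_dvd_card M
        rcases hqi with h2 | h2
        · rw [h2] at h1; exact h1
        · rw [h2] at h1; exact dvd_trans (dvd_pow_self q (by norm_num)) h1
      have hqp : q ≤ p := hmax q hq hqd
      have hp3 : p = 3 := by
        have hq2 := hq.two_le
        have hp2 := hp.two_le
        rcases hqi with h2 | h2
        · exfalso
          rw [h2] at hmod
          have h3 : q % p = 1 % p := hmod
          rw [Nat.mod_eq_of_lt (show 1 < p by omega)] at h3
          rcases Nat.lt_or_ge q p with hlt | hge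
          · rw [Nat.mod_eq_of_lt hlt] at h3; omega
          · have : q = p := le_antisymm hqp hge
            rw [this, Nat.mod_self] at h3; omega
        · rw [h2] at hmod
          have hq1 : 1 ≤ q ^ 2 := Nat.one_le_pow _ _ (by omega)
          have h3 : p ∣ q ^ 2 - 1 := (Nat.modEq_iff_dvd' hq1).1 hmod.symm
          have h4 : q ^ 2 - 1 = (q - 1) * (q + 1) := by
            obtain ⟨t, rfl⟩ : ∃ t, q = t + 1 := ⟨q - 1, by omega⟩
            simp only [Nat.add_sub_cancel]
            ring_nf
            omega
          rw [h4] at h3
          rcases (Nat.Prime.dvd_mul hp).1 h3 with h5 | h5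
          · exfalso
            have := Nat.le_of_dvd (by omega) h5
            omega
          · have h6 := Nat.le_of_dvd (by omega) h5
            rcases Nat.lt_or_ge q p with hlt | hge
            · have hpq : p = q + 1 := by omega
              have h2q : 2 ∣ q := by
                by_contra hodd
                have hqodd : q % 2 = 1 := by omega
                have : 2 ∣ p := by omega
                rcases Nat.Prime.eq_one_or_self_of_dvd hp 2 this with h8 | h8
                · omega
                · omega
              rcases Nat.Prime.eq_one_or_self_of_dvd hq 2 h2q with h7 | h7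
              · omega
              · omega
            · exfalso
              have : q = p := le_antisymm hqp hge
              rw [this] at h5
              have : p ∣ 1 := (Nat.dvd_add_right (dvd_refl p)).1 h5
              have := Nat.le_of_dvd (by norm_num) this
              omega
      subst hp3
      exact Cfsg.Agent.Lib.Helper2.solvable_of_two_primes 2 3 Nat.prime_two Nat.prime_three _ G rfl (by
        intro r hr hrd
        have h1 := hmax r hr hrd
        have h2 := hr.two_le
        omega)

/-- A finite group in which every maximal subgroup has index a prime or the square of a prime is solvable. -/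
theorem result {G : Type*} [Group G] [Finite G] (h : ∀ M : Subgroup G, IsCoatom M → ∃ p : ℕ, p.Prime ∧ (M.index = p ∨ M.index = p ^ 2)) : Group.IsSolvable G := by
  exact aux _ G rfl h

end Cfsg.Agent.S4203
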