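import Cfsg.Statements.S4204
import Mathlib

set_option autoImplicit false
open Cfsg

namespace Cfsg.Agent.S4204

open scoped commutatorElement

theorem commutator_iSup_le {G : Type*} [Group G] {ι : Sort*} (T : ι → Subgroup G)
    (B R : Subgroup G) [hR : R.Normal] (h : ∀ i, ⁅T i, B⁆ ≤ R) : ⁅⨆ i, T i, B⁆ ≤ R := by
  let C : Subgroup G :=
    { carrier := {x | ∀ b ∈ B, ⁅x, b⁆ ∈ R}
      one_mem' := by
        intro b _
        simp [R.one_mem]
      mul_mem' := by
        intro x y hx hy b hb
        have e : ⁅x * y, b⁆ = x * ⁅y, b⁆ * x⁻¹ * ⁅x, b⁆ := by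
          simp only [commutatorElement_def]; group
        rw [e]; exact R.mul_mem (hR.conj_mem _ (hy b hb) x) (hx b hb)
      inv_mem' := by
        intro x hx b hb
        have e : ⁅x⁻¹, b⁆ = x⁻¹ * ⁅x, b⁆⁻¹ * (x⁻¹)⁻¹ := by
          simp only [commutatorElement_def]; group
        rw [e]; exact hR.conj_mem _ (R.inv_mem (hx b hb)) x⁻¹ }
  have hT : ∀ i, T i ≤ C := fun i x hx b hb => h i (Subgroup.commutator_mem_commutator hx hb)
  have hle : ⨆ i, T i ≤ C := iSup_le hT
  rw [Subgroup.commutator_le]
  intro x hx b hb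
  exact hle hx b hb

theorem commutator_sup_right_le {G : Type*} [Group G] (A H K R : Subgroup G) [hR : R.Normal]
    (h1 : ⁅A, H⁆ ≤ R) (h2 : ⁅A, K⁆ ≤ R) : ⁅A, H ⊔ K⁆ ≤ R := by
  rw [Subgroup.commutator_comm, sup_eq_iSup]
  apply commutator_iSup_le
  intro b
  cases b
  · rw [Subgroup.commutator_comm]; exact h2
  · rw [Subgroup.commutator_comm]; exact h1

/-- shifted lower central series: index `0` is the whole group -/
def gam {G : Type*} [Group G] (S : Subgroup G) (i : ℕ) : Subgroup G :=
  if i = 0 then ⊤ else S.lowerCentralSeries (i - 1)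

theorem gam_zero {G : Type*} [Group G] (S : Subgroup G) : gam S 0 = ⊤ := by simp [gam]

theorem gam_succ {G : Type*} [Group G] (S : Subgroup G) (i : ℕ) :
    gam S (i + 1) = S.lowerCentralSeries i := by simp [gam]

theorem gam_normal {G : Type*} [Group G] (S : Subgroup G) [S.Normal] (i : ℕ) :
    (gam S i).Normal := by
  cases i with
  | zero => rw [gam_zero]; infer_instance
  | succ i => rw [gam_succ]; infer_instance

theorem gam_comm_le {G : Type*} [Group G] (S : Subgroup G) [S.Normal] (i : ℕ) :
    ⁅gam S i, S⁆ ≤ gam S (i + 1) := by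
  cases i with
  | zero => rw [gam_zero, gam_succ]; exact Subgroup.commutator_le_right _ _
  | succ i => rw [gam_succ, gam_succ]; exact le_rfl

theorem fitting_key {G : Type*} [Group G] (H K : Subgroup G) [H.Normal] [K.Normal] (n : ℕ) :
    (H ⊔ K).lowerCentralSeries n ≤ ⨆ i : Fin (n + 2), gam H i ⊓ gam K (n + 1 - i) := by
  induction n with
  | zero =>
    apply sup_le
    · refine le_iSup_of_le (1 : Fin 2) ?_
      simp [gam]
    · refine le_iSup_of_le (0 : Fin 2) ?_
      simp [gam]
  | succ n ih =>
    have hnorm : ∀ (S : Subgroup G) [S.Normal] (i : ℕ), (gam S i).Normal := fun S _ i => gam_normal S i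
    have hR : (⨆ i : Fin (n + 1 + 2), gam H i ⊓ gam K (n + 1 + 1 - i)).Normal := by
      rw [iSup]
      apply Subgroup.sSup_normal
      rintro _ ⟨i, rfl⟩
      have := hnorm H i
      have := hnorm K (n + 1 + 1 - i)
      infer_instance
    rw [Subgroup.lowerCentralSeries_succ]
    refine (Subgroup.commutator_mono ih le_rfl).trans ?_
    apply commutator_iSup_le
    intro i
    have h1 := hnorm H i
    have h2 := hnorm K (n + 1 - i)
    apply commutator_sup_right_le
    · have hi : (i : ℕ) + 1 < n + 1 + 2 := by omega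
      refine le_trans ?_ (le_iSup (fun j : Fin (n + 1 + 2) => gam H j ⊓ gam K (n + 1 + 1 - j))
        ⟨(i : ℕ) + 1, hi⟩)
      have e : n + 1 + 1 - ((i : ℕ) + 1) = n + 1 - (i : ℕ) := by omega
      simp only [e]
      refine le_inf ?_ ?_
      · exact (Subgroup.commutator_mono inf_le_left le_rfl).trans (gam_comm_le H i)
      · exact (Subgroup.commutator_mono inf_le_right le_rfl).trans (Subgroup.commutator_le_left _ _)
    · have hi : (i : ℕ) < n + 1 + 2 := by omega
      refine le_trans ?_ (le_iSup (fun j : Fin (n + 1 + 2) => gam H j ⊓ gam K (n + 1 + 1 - j))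
        ⟨(i : ℕ), hi⟩)
      have e : n + 1 + 1 - (i : ℕ) = (n + 1 - (i : ℕ)) + 1 := by omega
      simp only [e]
      refine le_inf ?_ ?_
      · exact (Subgroup.commutator_mono inf_le_left le_rfl).trans (Subgroup.commutator_le_left _ _)
      · exact (Subgroup.commutator_mono inf_le_right le_rfl).trans (gam_comm_le K _)

/-- If `H` and `K` are normal subgroups of a finite group with `H` nilpotent of class at most `c` and `K` nilpotent of class at most `d` (the terms with index `c`, respectively `d`, of their lower central series are trivial, indices starting at `0`), then `HK` is nilpotent of class at most `c + d`. -/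
theorem result {G : Type*} [Group G] [Finite G] (H K : Subgroup G) [H.Normal] [K.Normal] (c d : ℕ) (hH : H.lowerCentralSeries c = ⊥) (hK : K.lowerCentralSeries d = ⊥) : (H ⊔ K).lowerCentralSeries (c + d) = ⊥ := by
  rw [eq_bot_iff]
  refine (fitting_key H K (c + d)).trans ?_
  apply iSup_le
  intro i
  by_cases hi : c + 1 ≤ (i : ℕ)
  · refine inf_le_left.trans ?_
    obtain ⟨j, hj⟩ : ∃ j, (i : ℕ) = j + 1 := ⟨(i : ℕ) - 1, by omega⟩
    rw [hj, gam_succ, ← hH]
    exact Subgroup.lowerCentralSeries_antitone H (by omega)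
  · refine inf_le_right.trans ?_
    obtain ⟨j, hj⟩ : ∃ j, c + d + 1 - (i : ℕ) = j + 1 := ⟨c + d - (i : ℕ), by omega⟩
    rw [hj, gam_succ, ← hK]
    exact Subgroup.lowerCentralSeries_antitone K (by omega)

end Cfsg.Agent.S4204
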