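import Cfsg.Statements.S4205
import Mathlib

set_option autoImplicit false
open Cfsg

namespace Cfsg.Agent.S4205

open scoped commutatorElement

/-- In a finite group whose upper central series reaches the whole group at step `c` (nilpotent of class at most `c`), starting from any subgroup and taking normalizers `c` times reaches the whole group. -/
theorem result {G : Type*} [Group G] [Finite G] (c : ℕ) (hG : Subgroup.upperCentralSeries G c = ⊤) (H : Subgroup G) : (fun K : Subgroup G => Subgroup.normalizer (K : Set G))^[c] H = ⊤ := by
  have key : ∀ n : ℕ, Subgroup.upperCentralSeries G n ≤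
      (fun K : Subgroup G => Subgroup.normalizer (K : Set G))^[n] H := by
    intro n
    induction n with
    | zero => simp
    | succ n ih =>
      rw [Function.iterate_succ_apply']
      intro z hz
      rw [Subgroup.mem_normalizer_iff]
      intro k
      have h1 : ∀ y : G, ⁅z, y⁆ ∈ (fun K : Subgroup G => Subgroup.normalizer (K : Set G))^[n] H :=
        fun y => ih (Subgroup.mem_upperCentralSeries_succ_iff.mp hz y)
      constructor
      · intro hk
        have := Subgroup.mul_mem _ (h1 k) hk
        have e : ⁅z, k⁆ * k = z * k * z⁻¹ := by
          rw [commutatorElement_def]; group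
        rwa [e] at this
      · intro hk
        have hz' : z⁻¹ ∈ Subgroup.upperCentralSeries G (n + 1) := Subgroup.inv_mem _ hz
        have h2 : ⁅z⁻¹, z * k * z⁻¹⁆ ∈ (fun K : Subgroup G => Subgroup.normalizer (K : Set G))^[n] H :=
          ih (Subgroup.mem_upperCentralSeries_succ_iff.mp hz' _)
        have := Subgroup.mul_mem _ h2 hk
        have e : ⁅z⁻¹, z * k * z⁻¹⁆ * (z * k * z⁻¹) = k := by
          rw [commutatorElement_def]; group
        rwa [e] at this
  exact top_le_iff.mp (hG ▸ key c)

end Cfsg.Agent.S4205
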