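import Cfsg.Statements.S4217
import Mathlib
import Cfsg.Agent.Lib.Helper1.Gaschutz

set_option autoImplicit false
open Cfsg

namespace Cfsg.Agent.S4217


theorem mem_mul_of_sup {G : Type*} [Group G] (H N : Subgroup G) [N.Normal] {x : G}
    (hx : x ∈ H ⊔ N) : ∃ h ∈ H, ∃ n ∈ N, x = h * n := by
  have h1 : x ∈ ((H ⊔ N : Subgroup G) : Set G) := hx
  rw [Subgroup.mul_normal] at h1
  obtain ⟨h, hh, n, hn, rfl⟩ := h1
  exact ⟨h, hh, n, hn, rfl⟩

theorem mem_mul_of_sup' {G : Type*} [Group G] (N H : Subgroup G) [N.Normal] {x : G}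
    (hx : x ∈ N ⊔ H) : ∃ n ∈ N, ∃ h ∈ H, x = n * h := by
  have h1 : x ∈ ((N ⊔ H : Subgroup G) : Set G) := hx
  rw [Subgroup.normal_mul] at h1
  obtain ⟨n, hn, h, hh, rfl⟩ := h1
  exact ⟨n, hn, h, hh, rfl⟩

theorem gasch {G : Type*} [Group G] [Finite G] :
    ∀ (n : ℕ) (A : Subgroup G), A.Normal → (∀ a ∈ A, ∀ b ∈ A, a * b = b * a) →
      Nat.card A ≤ n →
      (∀ p : ℕ, p.Prime → ∃ U L : Subgroup G, A ≤ U ∧ ¬ p ∣ U.index ∧ L ⊓ A = ⊥ ∧ L ⊔ A = U) →
      ∃ K : Subgroup G, K.IsComplement' A := by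
  intro n
  induction n with
  | zero =>
    intro A _ _ hcard _
    exfalso
    have : 0 < Nat.card A := Nat.card_pos
    omega
  | succ n ih =>
    intro A hAn hAc hcard hyp
    by_cases hA1 : A = ⊥
    · rw [hA1]
      exact ⟨⊤, Subgroup.isComplement'_top_bot⟩
    have hcA1 : Nat.card A ≠ 1 := by
      intro h
      exact hA1 (Subgroup.card_eq_one.mp h)
    obtain ⟨q, hq, hqA⟩ := Nat.exists_prime_and_dvd hcA1
    haveI : Fact q.Prime := ⟨hq⟩
    have hcA0 : Nat.card A ≠ 0 := Nat.card_pos.ne'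
    obtain ⟨N, hN⟩ : ∃ N : ℕ, N = q ^ (Nat.card A).factorization q := ⟨_, rfl⟩
    obtain ⟨n', hn'⟩ : ∃ n' : ℕ, n' = Nat.card A / N := ⟨_, rfl⟩
    have hNn' : N * n' = Nat.card A := by
      rw [hn', hN]
      exact Nat.ordProj_mul_ordCompl_eq_self _ _
    have hcop : N.Coprime n' := by
      rw [hN, hn', hN]
      exact Nat.Coprime.pow_left _ (Nat.coprime_ordCompl hq hcA0)
    have hqN : q ∣ N := by
      rw [hN]
      apply dvd_pow_self
      have := (Nat.Prime.factorization_pos_of_dvd hq hcA0 hqA)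
      omega
    have hpowA : ∀ a ∈ A, a ^ (N * n') = 1 := by
      intro a ha
      rw [hNn']
      have h1 : (⟨a, ha⟩ : A) ^ Nat.card A = 1 := pow_card_eq_one'
      exact congrArg Subtype.val h1
    have hmulpow : ∀ a ∈ A, ∀ b ∈ A, ∀ k : ℕ, (a * b) ^ k = a ^ k * b ^ k := by
      intro a ha b hb k
      exact Commute.mul_pow (hAc a ha b hb) k
    -- the q-part and the q'-part
    let Aq : Subgroup G :=
      { carrier := {a | a ∈ A ∧ a ^ N = 1}
        one_mem' := ⟨one_mem A, one_pow N⟩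
        mul_mem' := by
          rintro a b ⟨ha, haN⟩ ⟨hb, hbN⟩
          exact ⟨A.mul_mem ha hb, by rw [hmulpow a ha b hb, haN, hbN, one_mul]⟩
        inv_mem' := by
          rintro a ⟨ha, haN⟩
          exact ⟨A.inv_mem ha, by rw [inv_pow, haN, inv_one]⟩ }
    let B : Subgroup G :=
      { carrier := {b | ∃ a ∈ A, a ^ N = b}
        one_mem' := ⟨1, one_mem A, one_pow N⟩
        mul_mem' := by
          rintro _ _ ⟨a, ha, rfl⟩ ⟨b, hb, rfl⟩
          exact ⟨a * b, A.mul_mem ha hb, hmulpow a ha b hb N⟩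
        inv_mem' := by
          rintro _ ⟨a, ha, rfl⟩
          exact ⟨a⁻¹, A.inv_mem ha, inv_pow a N⟩ }
    have hAqA : Aq ≤ A := fun a ha => ha.1
    have hBA : B ≤ A := by
      rintro _ ⟨a, ha, rfl⟩
      exact A.pow_mem ha N
    have hAqn : Aq.Normal := ⟨by
      rintro a ⟨ha, haN⟩ g
      exact ⟨hAn.conj_mem a ha g, by rw [conj_pow, haN, mul_one, mul_inv_cancel]⟩⟩
    have hBn : B.Normal := ⟨by
      rintro _ ⟨a, ha, rfl⟩ g
      exact ⟨g * a * g⁻¹, hAn.conj_mem a ha g, conj_pow⟩⟩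
    have hgcd : ∀ x : G, x ^ N = 1 → x ^ n' = 1 → x = 1 := by
      intro x h1 h2
      have h3 : orderOf x ∣ N := orderOf_dvd_of_pow_eq_one h1
      have h4 : orderOf x ∣ n' := orderOf_dvd_of_pow_eq_one h2
      exact orderOf_eq_one_iff.mp (Nat.eq_one_of_dvd_coprimes hcop h3 h4)
    have hBn' : ∀ b ∈ B, b ^ n' = 1 := by
      rintro _ ⟨a, ha, rfl⟩
      rw [← pow_mul]
      exact hpowA a ha
    have hAqB : Aq ⊓ B = ⊥ := by
      rw [eq_bot_iff]
      rintro x ⟨⟨-, hxN⟩, hxB⟩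
      rw [Subgroup.mem_bot]
      exact hgcd x hxN (hBn' x hxB)
    have hsupA : Aq ⊔ B = A := by
      apply le_antisymm (sup_le hAqA hBA)
      intro a ha
      have h1 : ((Nat.gcd N n' : ℕ) : ℤ) = N * Nat.gcdA N n' + n' * Nat.gcdB N n' :=
        Nat.gcd_eq_gcd_ab N n'
      rw [hcop] at h1
      have h2 : a = (a ^ n') ^ (Nat.gcdB N n') * (a ^ N) ^ (Nat.gcdA N n') := by
        rw [← zpow_natCast a n', ← zpow_natCast a N, ← zpow_mul, ← zpow_mul, ← zpow_add]
        have e : (n' : ℤ) * Nat.gcdB N n' + N * Nat.gcdA N n' = ((1 : ℕ) : ℤ) := by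
          rw [h1]
          ring
        rw [e]
        simp
      rw [h2]
      apply Subgroup.mul_mem_sup
      · apply Subgroup.zpow_mem
        refine ⟨A.pow_mem ha n', ?_⟩
        rw [← pow_mul, mul_comm]
        exact hpowA a ha
      · apply Subgroup.zpow_mem
        exact ⟨a, ha, rfl⟩
    have hAqne : Aq ≠ ⊥ := by
      obtain ⟨x, hx⟩ := exists_prime_orderOf_dvd_card' (G := A) q hqA
      intro hbot
      have h1 : (x : G) ∈ Aq := by
        refine ⟨x.2, ?_⟩
        obtain ⟨t, ht⟩ := hqN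
        have h2 : x ^ q = 1 := by
          rw [← hx]
          exact pow_orderOf_eq_one x
        have h3 : (x : G) ^ q = 1 := by
          have := congrArg Subtype.val h2
          simpa using this
        rw [ht, pow_mul, h3, one_pow]
      rw [hbot, Subgroup.mem_bot] at h1
      have h4 : x = 1 := Subtype.ext h1
      rw [h4, orderOf_one] at hx
      exact hq.one_lt.ne hx
    have hBlt : Nat.card B ≤ n := by
      by_contra hcon
      have h1 : Nat.card A ≤ Nat.card B := by omega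
      have h2 := Subgroup.eq_of_le_of_card_ge hBA h1
      apply hAqne
      rw [← hAqB, h2]
      exact (inf_eq_left.mpr hAqA).symm
    -- complement of the q-part
    obtain ⟨U, L, hAU, hqU, hLA, hLAU⟩ := hyp q hq
    have : IsMulCommutative Aq := ⟨⟨fun a b => Subtype.ext (hAc a.1 a.2.1 b.1 b.2.1)⟩⟩
    have hAqp : IsPGroup q Aq := by
      intro x
      refine ⟨(Nat.card A).factorization q, ?_⟩
      apply Subtype.ext
      have := x.2.2
      rw [hN] at this
      simpa using this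
    have hcopq : (Nat.card Aq).Coprime U.index := by
      obtain ⟨j, hj⟩ := IsPGroup.iff_card.mp hAqp
      rw [hj]
      exact Nat.Coprime.pow_left j ((Nat.Prime.coprime_iff_not_dvd hq).mpr hqU)
    have hLBU : L ⊔ B ≤ U := by
      rw [← hLAU]
      exact sup_le_sup_left hBA L
    have hLBAq : (L ⊔ B) ⊓ Aq = ⊥ := by
      rw [eq_bot_iff]
      rintro x ⟨hx1, hx2⟩
      obtain ⟨l, hl, b, hb, rfl⟩ := mem_mul_of_sup L B hx1
      have hlA : l ∈ A := by
        have e : l = (l * b) * b⁻¹ := by group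
        rw [e]
        exact A.mul_mem (hAqA hx2) (A.inv_mem (hBA hb))
      have hl1 : l = 1 := by
        have : l ∈ L ⊓ A := ⟨hl, hlA⟩
        rw [hLA, Subgroup.mem_bot] at this
        exact this
      rw [hl1, one_mul] at hx2 ⊢
      have : b ∈ Aq ⊓ B := ⟨hx2, hb⟩
      rw [hAqB] at this
      exact this
    have hAqLB : Aq ⊔ (L ⊔ B) = U := by
      rw [← hLAU, ← hsupA]
      rw [sup_comm Aq (L ⊔ B), sup_assoc, sup_comm B Aq]
    obtain ⟨H, hH⟩ := Cfsg.Agent.Lib.Helper1.gaschutz_exists Aq U (hAqA.trans hAU) hcopq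
      (L ⊔ B) hLBU hLBAq hAqLB
    have hAqH : Aq ⊓ H = ⊥ := disjoint_iff.mp hH.disjoint
    have hGAqH : ∀ g : G, ∃ a ∈ Aq, ∃ h ∈ H, g = a * h := by
      intro g
      apply mem_mul_of_sup' Aq H
      rw [hH.sup_eq_top]
      exact Subgroup.mem_top g
    have hBH : B ≤ H := by
      intro b hb
      obtain ⟨a, ha, h, hh, rfl⟩ := hGAqH b
      have hhA : h ∈ A := by
        have e : h = a⁻¹ * (a * h) := by group
        rw [e]
        exact A.mul_mem (A.inv_mem (hAqA ha)) (hBA hb)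
      have h1 : (a * h) ^ n' = 1 := hBn' _ hb
      rw [hmulpow a (hAqA ha) h hhA] at h1
      have h2 : a ^ n' = (h ^ n')⁻¹ := eq_inv_of_mul_eq_one_left h1
      have h3 : a ^ n' ∈ Aq ⊓ H := ⟨Aq.pow_mem ha n', by rw [h2]; exact H.inv_mem (H.pow_mem hh n')⟩
      rw [hAqH, Subgroup.mem_bot] at h3
      have h4 : a = 1 := hgcd a ha.2 h3
      rw [h4, one_mul]
      exact hh
    -- induction for B
    have hypB : ∀ p : ℕ, p.Prime →
        ∃ U L : Subgroup G, B ≤ U ∧ ¬ p ∣ U.index ∧ L ⊓ B = ⊥ ∧ L ⊔ B = U := by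
      intro p hp
      obtain ⟨U, L, hAU, hpU, hLA, hLAU⟩ := hyp p hp
      refine ⟨U, L ⊔ Aq, hBA.trans hAU, hpU, ?_, ?_⟩
      · rw [eq_bot_iff]
        rintro x ⟨hx1, hx2⟩
        obtain ⟨l, hl, a, ha, rfl⟩ := mem_mul_of_sup L Aq hx1
        have hlA : l ∈ A := by
          have e : l = (l * a) * a⁻¹ := by group
          rw [e]
          exact A.mul_mem (hBA hx2) (A.inv_mem (hAqA ha))
        have hl1 : l = 1 := by
          have : l ∈ L ⊓ A := ⟨hl, hlA⟩
          rw [hLA, Subgroup.mem_bot] at this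
          exact this
        rw [hl1, one_mul] at hx2 ⊢
        have : a ∈ Aq ⊓ B := ⟨ha, hx2⟩
        rw [hAqB] at this
        exact this
      · rw [sup_assoc, hsupA, hLAU]
    obtain ⟨KB, hKB⟩ := ih B hBn (fun a ha b hb => hAc a (hBA ha) b (hBA hb)) hBlt hypB
    have hKBB : KB ⊓ B = ⊥ := disjoint_iff.mp hKB.disjoint
    refine ⟨H ⊓ KB, ?_⟩
    apply Subgroup.isComplement'_of_disjoint_and_mul_eq_univ
    · rw [disjoint_iff, eq_bot_iff]
      rintro x ⟨⟨hxH, hxK⟩, hxA⟩
      rw [← hsupA] at hxA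
      obtain ⟨a, ha, b, hb, rfl⟩ := mem_mul_of_sup' Aq B hxA
      have ha1 : a = 1 := by
        have e : a = (a * b) * b⁻¹ := by group
        have : a ∈ Aq ⊓ H := ⟨ha, by rw [e]; exact H.mul_mem hxH (H.inv_mem (hBH hb))⟩
        rw [hAqH, Subgroup.mem_bot] at this
        exact this
      rw [ha1, one_mul] at hxK ⊢
      have : b ∈ KB ⊓ B := ⟨hxK, hb⟩
      rw [hKBB] at this
      exact this
    · rw [Set.eq_univ_iff_forall]
      intro g
      obtain ⟨a, ha, h, hh, rfl⟩ := hGAqH g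
      have hh' : h ∈ KB ⊔ B := by
        rw [hKB.sup_eq_top]
        exact Subgroup.mem_top h
      obtain ⟨k, hk, b, hb, rfl⟩ := mem_mul_of_sup KB B hh'
      have hkH : k ∈ H := by
        have e : k = (k * b) * b⁻¹ := by group
        rw [e]
        exact H.mul_mem hh (H.inv_mem (hBH hb))
      refine ⟨k, ⟨hkH, hk⟩, (k⁻¹ * a * k) * b, ?_, ?_⟩
      · apply A.mul_mem _ (hBA hb)
        have := hAn.conj_mem a (hAqA ha) k⁻¹
        simpa using this
      · show k * ((k⁻¹ * a * k) * b) = a * (k * b)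
        group

/-- Let `A` be an abelian normal subgroup of the finite group `G`. Then `A` has a complement in `G` if and only if, for every prime `p` dividing the index of `A`, there are a Sylow `p`-subgroup `S` of `G/A` and a subgroup `K` of `G` with `K ∩ A = 1` and `KA` equal to the preimage of `S` (that is, `A` has a complement in the preimage of a Sylow `p`-subgroup of `G/A`). -/
theorem result {G : Type*} [Group G] [Finite G] (A : Subgroup G) [A.Normal] (hA : IsMulCommutative A) : (∃ K : Subgroup G, K.IsComplement' A) ↔ ∀ p : ℕ, p.Prime → p ∣ A.index → ∃ (S : Sylow p (G ⧸ A)) (K : Subgroup G), K ⊓ A = ⊥ ∧ K ⊔ A = (S : Subgroup (G ⧸ A)).comap (QuotientGroup.mk' A) := by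
  classical
  have hAc : ∀ a ∈ A, ∀ b ∈ A, a * b = b * a := fun a ha b hb =>
    congrArg Subtype.val (hA.is_comm.comm ⟨a, ha⟩ ⟨b, hb⟩)
  constructor
  · rintro ⟨K, hK⟩ p hp _
    haveI : Fact p.Prime := ⟨hp⟩
    obtain ⟨S⟩ : Nonempty (Sylow p (G ⧸ A)) := inferInstance
    have hKA : K ⊓ A = ⊥ := disjoint_iff.mp hK.disjoint
    have hAle : A ≤ (S : Subgroup (G ⧸ A)).comap (QuotientGroup.mk' A) := by
      intro a ha
      rw [Subgroup.mem_comap]
      have : QuotientGroup.mk' A a = 1 := (QuotientGroup.eq_one_iff a).mpr ha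
      rw [this]
      exact one_mem _
    refine ⟨S, K ⊓ (S : Subgroup (G ⧸ A)).comap (QuotientGroup.mk' A), ?_, ?_⟩
    · rw [inf_assoc, inf_comm _ A, ← inf_assoc, hKA, bot_inf_eq]
    · apply le_antisymm (sup_le inf_le_right hAle)
      intro u hu
      have hu' : u ∈ K ⊔ A := by
        rw [hK.sup_eq_top]
        exact Subgroup.mem_top u
      obtain ⟨k, hk, a, ha, rfl⟩ := mem_mul_of_sup K A hu'
      apply Subgroup.mul_mem_sup _ ha
      refine ⟨hk, ?_⟩
      have e : k = (k * a) * a⁻¹ := by group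
      rw [e]
      exact Subgroup.mul_mem _ hu (Subgroup.inv_mem _ (hAle ha))
  · intro h
    apply gasch (Nat.card A) A inferInstance hAc le_rfl
    intro p hp
    haveI : Fact p.Prime := ⟨hp⟩
    by_cases hpA : p ∣ A.index
    · obtain ⟨S, K, hKA, hKS⟩ := h p hp hpA
      refine ⟨(S : Subgroup (G ⧸ A)).comap (QuotientGroup.mk' A), K, ?_, ?_, hKA, hKS⟩
      · rw [← hKS]
        exact le_sup_right
      · rw [Subgroup.index_comap_of_surjective _ (QuotientGroup.mk'_surjective A)]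
        exact S.not_dvd_index
    · exact ⟨A, ⊥, le_rfl, hpA, bot_inf_eq _, bot_sup_eq _⟩

end Cfsg.Agent.S4217
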