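import Cfsg.Statements.S4222
import Mathlib

set_option autoImplicit false
open Cfsg

namespace Cfsg.Agent.S4222

/-- If a normal subgroup `N` of a finite group is complete (its centre is trivial and every automorphism of `N` is inner), then the group is the internal direct product of `N` and the centralizer of `N`: the centralizer is a complement to `N`. -/
theorem result {T : Type*} [Group T] [Finite T] (N : Subgroup T) [N.Normal] (hz : Subgroup.center ↥N = ⊥) (ha : Function.Surjective (MulAut.conj : ↥N →* MulAut ↥N)) : (Subgroup.centralizer (N : Set T)).IsComplement' N := by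
  have hdisj : Disjoint (Subgroup.centralizer (N : Set T)) N := by
    rw [Subgroup.disjoint_def]
    intro x hxC hxN
    have hx : (⟨x, hxN⟩ : N) ∈ Subgroup.center N := by
      rw [Subgroup.mem_center_iff]
      intro g
      apply Subtype.ext
      exact Subgroup.mem_centralizer_iff.mp hxC g g.2
    rw [hz, Subgroup.mem_bot] at hx
    exact congrArg Subtype.val hx
  have hsup : Subgroup.centralizer (N : Set T) ⊔ N = ⊤ := by
    rw [eq_top_iff]
    intro t _
    obtain ⟨n, hn⟩ := ha (MulAut.conjNormal t)
    have hc : (n : T)⁻¹ * t ∈ Subgroup.centralizer (N : Set T) := by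
      rw [Subgroup.mem_centralizer_iff]
      intro h hh
      have h1 := congrArg (fun f => ((f ⟨h, hh⟩ : N) : T)) hn
      simp only [MulAut.conj_apply, Subgroup.coe_mul, Subgroup.coe_inv,
        MulAut.conjNormal_apply] at h1
      calc h * ((n : T)⁻¹ * t) = (n : T)⁻¹ * ((n : T) * h * (n : T)⁻¹) * t := by group
        _ = (n : T)⁻¹ * (t * h * t⁻¹) * t := by rw [h1]
        _ = (n : T)⁻¹ * t * h := by group
    have : t = (n : T) * ((n : T)⁻¹ * t) := by group
    rw [this]
    exact Subgroup.mul_mem _ (Subgroup.mem_sup_right n.2) (Subgroup.mem_sup_left hc)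
  exact Subgroup.isComplement'_of_disjoint_and_mul_eq_univ hdisj (by
    rw [← Subgroup.normal_mul, hsup]; rfl)

end Cfsg.Agent.S4222
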