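import Cfsg.Statements.S4223

set_option autoImplicit false
open Cfsg

namespace Cfsg.Agent.S4223

set_option linter.style.haveILetI false

universe u v w

/-- directly indecomposable -/
def Indec (A : Type*) [Group A] : Prop :=
  ∀ H K : Subgroup A, H.Normal → K.Normal → H ⊓ K = ⊥ → H ⊔ K = ⊤ → H = ⊥ ∨ K = ⊥

theorem Indec.of_equiv {A B : Type*} [Group A] [Group B] (e : A ≃* B) (hA : Indec A) :
    Indec B := by
  intro H K hH hK hinf hsup
  have h := hA (H.map e.symm.toMonoidHom) (K.map e.symm.toMonoidHom)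
    (hH.map _ e.symm.surjective) (hK.map _ e.symm.surjective)
    (by rw [← Subgroup.map_inf _ _ _ e.symm.injective, hinf, Subgroup.map_bot])
    (by rw [← Subgroup.map_sup, hsup, Subgroup.map_top_of_surjective _ e.symm.surjective])
  rcases h with h | h
  · exact Or.inl ((Subgroup.map_eq_bot_iff_of_injective H e.symm.injective).mp h)
  · exact Or.inr ((Subgroup.map_eq_bot_iff_of_injective K e.symm.injective).mp h)

/-- **Fitting's lemma** for a normal endomorphism of an indecomposable finite group -/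
theorem fitting {H : Type*} [Group H] [Finite H] (hH : Indec H) (φ : Monoid.End H)
    (hφ : ∀ g h : H, φ (g * h * g⁻¹) = g * φ h * g⁻¹) :
    Function.Injective φ ∨ ∃ k : ℕ, ∀ h : H, (φ ^ k) h = 1 := by
  have hconj : ∀ k : ℕ, ∀ g h : H, (φ ^ k) (g * h * g⁻¹) = g * (φ ^ k) h * g⁻¹ := by
    intro k
    induction k with
    | zero => intro g h; rfl
    | succ k ih =>
      intro g h
      rw [pow_succ]
      show (φ ^ k) (φ (g * h * g⁻¹)) = g * (φ ^ k) (φ h) * g⁻¹
      rw [hφ, ih]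
  have hanti : ∀ a b : ℕ, MonoidHom.range (φ ^ (a + b) : H →* H) ≤ MonoidHom.range (φ ^ a : H →* H) := by
    intro a b
    rintro _ ⟨y, rfl⟩
    refine ⟨(φ ^ b) y, ?_⟩
    rw [pow_add]; rfl
  -- a minimiser of the cardinality of the range
  obtain ⟨k₀, hk₀⟩ : ∃ k₀ : ℕ, ∀ i : ℕ, Nat.card (MonoidHom.range (φ ^ k₀ : H →* H)) ≤
      Nat.card (MonoidHom.range (φ ^ i : H →* H)) := by
    classical
    have hex : ∃ v : ℕ, ∃ k : ℕ, Nat.card (MonoidHom.range (φ ^ k : H →* H)) = v := ⟨_, 0, rfl⟩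
    obtain ⟨k, hk⟩ := Nat.find_spec hex
    refine ⟨k, fun i => ?_⟩
    rw [hk]
    exact Nat.find_min' hex ⟨i, rfl⟩
  have hk : ∀ i : ℕ, Nat.card (MonoidHom.range (φ ^ (k₀ + 1) : H →* H)) ≤
      Nat.card (MonoidHom.range (φ ^ i : H →* H)) := fun i =>
    (Subgroup.card_le_of_le (hanti k₀ 1)).trans (hk₀ i)
  have hstab : MonoidHom.range (φ ^ (k₀ + 1 + (k₀ + 1)) : H →* H) =
      MonoidHom.range (φ ^ (k₀ + 1) : H →* H) :=
    Subgroup.eq_of_le_of_card_ge (hanti _ _) (hk _)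
  have hRn : (MonoidHom.range (φ ^ (k₀ + 1) : H →* H)).Normal := by
    refine ⟨?_⟩
    rintro _ ⟨y, rfl⟩ g
    exact ⟨g * y * g⁻¹, hconj _ g y⟩
  have htwo : ∀ y : H, (φ ^ (k₀ + 1 + (k₀ + 1))) y = (φ ^ (k₀ + 1)) ((φ ^ (k₀ + 1)) y) := by
    intro y; rw [pow_add]; rfl
  have hinf : MonoidHom.ker (φ ^ (k₀ + 1) : H →* H) ⊓ MonoidHom.range (φ ^ (k₀ + 1) : H →* H) = ⊥ := by
    -- `φ ^ (k₀+1)` is injective on its range
    have hsurj : Function.Surjective (fun x : ↥(MonoidHom.range (φ ^ (k₀ + 1) : H →* H)) =>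
        (⟨(φ ^ (k₀ + 1)) (x : H), ⟨(x : H), rfl⟩⟩ : ↥(MonoidHom.range (φ ^ (k₀ + 1) : H →* H)))) := by
      rintro ⟨z, hz⟩
      rw [← hstab] at hz
      obtain ⟨w, hw⟩ := hz
      refine ⟨⟨(φ ^ (k₀ + 1)) w, ⟨w, rfl⟩⟩, ?_⟩
      apply Subtype.ext
      show (φ ^ (k₀ + 1)) ((φ ^ (k₀ + 1)) w) = z
      rw [← htwo]; exact hw
    have hinj := Finite.injective_iff_surjective.mpr hsurj
    rw [eq_bot_iff]
    rintro x ⟨hx1, hx2⟩
    have h1 : (φ ^ (k₀ + 1)) x = 1 := hx1
    have h2 := @hinj ⟨x, hx2⟩ ⟨1, one_mem _⟩ (by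
      apply Subtype.ext
      show (φ ^ (k₀ + 1)) x = (φ ^ (k₀ + 1)) 1
      rw [h1, map_one])
    exact Subgroup.mem_bot.mpr (congrArg Subtype.val h2)
  have hsup : MonoidHom.ker (φ ^ (k₀ + 1) : H →* H) ⊔ MonoidHom.range (φ ^ (k₀ + 1) : H →* H) = ⊤ := by
    rw [eq_top_iff]
    intro x _
    have hx : (φ ^ (k₀ + 1)) x ∈ MonoidHom.range (φ ^ (k₀ + 1 + (k₀ + 1)) : H →* H) := by
      rw [hstab]; exact ⟨x, rfl⟩
    obtain ⟨w, hw⟩ := hx
    have hw' : (φ ^ (k₀ + 1)) ((φ ^ (k₀ + 1)) w) = (φ ^ (k₀ + 1)) x := (htwo w).symm.trans hw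
    have e : x = (x * ((φ ^ (k₀ + 1)) w)⁻¹) * (φ ^ (k₀ + 1)) w := by group
    rw [e]
    apply Subgroup.mul_mem_sup
    · show (φ ^ (k₀ + 1)) (x * ((φ ^ (k₀ + 1)) w)⁻¹) = 1
      rw [map_mul, map_inv, hw', mul_inv_cancel]
    · exact ⟨w, rfl⟩
  rcases hH _ _ (MonoidHom.normal_ker _) hRn hinf hsup with h | h
  · left
    have hinj : Function.Injective (φ ^ (k₀ + 1) : H →* H) := (MonoidHom.ker_eq_bot_iff _).mp h
    intro x y hxy
    apply hinj
    rw [pow_succ]
    show (φ ^ k₀) (φ x) = (φ ^ k₀) (φ y)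
    rw [hxy]
  · right
    refine ⟨k₀ + 1, fun x => ?_⟩
    have : (φ ^ (k₀ + 1)) x ∈ MonoidHom.range (φ ^ (k₀ + 1) : H →* H) := ⟨x, rfl⟩
    rw [h] at this
    exact Subgroup.mem_bot.mp this

theorem dichotomy {H : Type*} [Group H] [Finite H] (hH : Indec H) (φ ψ : Monoid.End H)
    (hφ : ∀ g h : H, φ (g * h * g⁻¹) = g * φ h * g⁻¹) (hsum : ∀ h : H, φ h * ψ h = h) :
    Function.Bijective φ ∨ Function.Bijective ψ := by
  rcases fitting hH φ hφ with h | ⟨k, hk⟩
  · exact Or.inl (Finite.injective_iff_bijective.mp h)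
  · right
    apply Finite.injective_iff_bijective.mp
    rw [injective_iff_map_eq_one]
    intro x hx
    have h1 : φ x = x := by
      have := hsum x
      rwa [hx, mul_one] at this
    have h2 : ∀ j : ℕ, (φ ^ j) x = x := by
      intro j
      induction j with
      | zero => rfl
      | succ j ih =>
        rw [pow_succ]
        show (φ ^ j) (φ x) = x
        rw [h1, ih]
    rw [← h2 k, hk]

/-- **Two-factor exchange.** -/
theorem two_factor {H K X Y : Type*} [Group H] [Group K] [Group X] [Group Y]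
    [Finite H] [Finite K] [Finite X] [Finite Y]
    (hHn : Nontrivial H) (hH : Indec H) (hX : Indec X) (Ψ : H × K ≃* X × Y) :
    (Nonempty (H ≃* X) ∧ Nonempty (K ≃* Y)) ∨
      ∃ M₀ : Subgroup Y, Nonempty (H × ↥M₀ ≃* Y) ∧ Nonempty (K ≃* X × ↥M₀) := by
  obtain ⟨a, ha⟩ : ∃ a : H →* X, ∀ h, a h = (Ψ (h, 1)).1 :=
    ⟨(MonoidHom.fst X Y).comp (Ψ.toMonoidHom.comp (MonoidHom.inl H K)), fun _ => rfl⟩
  obtain ⟨c, hc⟩ : ∃ c : H →* Y, ∀ h, c h = (Ψ (h, 1)).2 :=
    ⟨(MonoidHom.snd X Y).comp (Ψ.toMonoidHom.comp (MonoidHom.inl H K)), fun _ => rfl⟩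
  obtain ⟨pp, hpp⟩ : ∃ pp : X →* H, ∀ x, pp x = (Ψ.symm (x, 1)).1 :=
    ⟨(MonoidHom.fst H K).comp (Ψ.symm.toMonoidHom.comp (MonoidHom.inl X Y)), fun _ => rfl⟩
  obtain ⟨q, hq⟩ : ∃ q : Y →* H, ∀ y, q y = (Ψ.symm (1, y)).1 :=
    ⟨(MonoidHom.fst H K).comp (Ψ.symm.toMonoidHom.comp (MonoidHom.inr X Y)), fun _ => rfl⟩
  have hsum : ∀ h, (pp.comp a : Monoid.End H) h * (q.comp c : Monoid.End H) h = h := by
    intro h
    show pp (a h) * q (c h) = h
    rw [hpp, hq, ha, hc, ← Prod.fst_mul, ← map_mul, Prod.mk_mul_mk, mul_one, one_mul, Prod.mk.eta,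
      Ψ.symm_apply_apply]
  have hnorm : ∀ g h : H, (pp.comp a : Monoid.End H) (g * h * g⁻¹) =
      g * (pp.comp a : Monoid.End H) h * g⁻¹ := by
    intro g h
    show pp (a (g * h * g⁻¹)) = g * pp (a h) * g⁻¹
    rw [hpp, hpp, ha, ha]
    have e1 : ((g * h * g⁻¹, 1) : H × K) = (g, 1) * (h, 1) * (g, 1)⁻¹ := by
      ext <;> simp
    have e2 : (((Ψ (g * h * g⁻¹, 1)).1, 1) : X × Y) =
        Ψ (g, 1) * ((Ψ (h, 1)).1, 1) * (Ψ (g, 1))⁻¹ := by
      rw [e1, map_mul, map_mul, map_inv]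
      ext <;> simp
    rw [e2, map_mul, map_mul, map_inv, Ψ.symm_apply_apply]
    simp
  have hcardHK : Nat.card H * Nat.card K = Nat.card X * Nat.card Y := by
    rw [← Nat.card_prod, ← Nat.card_prod]
    exact Nat.card_congr Ψ.toEquiv
  rcases dichotomy hH (pp.comp a : Monoid.End H) (q.comp c : Monoid.End H) hnorm hsum with hφ | hψ
  · -- `pp ∘ a` is bijective
    left
    have hφ1 : ∀ h : H, pp (a h) = 1 → h = 1 := by
      intro h hh
      apply hφ.1
      show pp (a h) = pp (a 1)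
      rw [hh, map_one, map_one]
    have ha_inj : Function.Injective a := by
      rw [injective_iff_map_eq_one]
      intro h hh
      apply hφ1
      rw [hh, map_one]
    have hRn : a.range.Normal := by
      refine ⟨?_⟩
      rintro _ ⟨h, rfl⟩ t
      refine ⟨(Ψ.symm (t, 1)).1 * h * ((Ψ.symm (t, 1)).1)⁻¹, ?_⟩
      rw [ha, ha]
      have e1 : (((Ψ.symm (t, 1)).1 * h * ((Ψ.symm (t, 1)).1)⁻¹, 1) : H × K) =
          Ψ.symm (t, 1) * (h, 1) * (Ψ.symm (t, 1))⁻¹ := by
        ext <;> simp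
      rw [e1, map_mul, map_mul, map_inv, Ψ.apply_symm_apply]
      simp
    have hinf : a.range ⊓ pp.ker = ⊥ := by
      rw [eq_bot_iff]
      rintro _ ⟨⟨h, rfl⟩, hx2⟩
      have : h = 1 := hφ1 h hx2
      rw [this, map_one]
      exact Subgroup.mem_bot.mpr rfl
    have hsup : a.range ⊔ pp.ker = ⊤ := by
      rw [eq_top_iff]
      intro x _
      obtain ⟨h, hh⟩ := hφ.2 (pp x)
      have hh' : pp (a h) = pp x := hh
      have e : x = a h * ((a h)⁻¹ * x) := by group
      rw [e]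
      refine Subgroup.mul_mem_sup (show a h ∈ a.range from ⟨h, rfl⟩) ?_
      show pp ((a h)⁻¹ * x) = 1
      rw [map_mul, map_inv, hh', inv_mul_cancel]
    have hker : pp.ker = ⊥ := by
      rcases hX _ _ hRn (MonoidHom.normal_ker pp) hinf hsup with h | h
      · exfalso
        obtain ⟨h0, hh0⟩ := exists_ne (1 : H)
        apply hh0
        apply hφ1
        have : a h0 ∈ a.range := ⟨h0, rfl⟩
        rw [h, Subgroup.mem_bot] at this
        rw [this, map_one]
      · exact h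
    have hpp_inj : Function.Injective pp := (MonoidHom.ker_eq_bot_iff pp).mp hker
    have ha_surj : Function.Surjective a := by
      intro x
      obtain ⟨h, hh⟩ := hφ.2 (pp x)
      exact ⟨h, hpp_inj hh⟩
    have eHX : H ≃* X := MulEquiv.ofBijective a ⟨ha_inj, ha_surj⟩
    refine ⟨⟨eHX⟩, ?_⟩
    obtain ⟨d, hd⟩ : ∃ d : K →* Y, ∀ k, d k = (Ψ (1, k)).2 :=
      ⟨(MonoidHom.snd X Y).comp (Ψ.toMonoidHom.comp (MonoidHom.inr H K)), fun _ => rfl⟩
    have hd_inj : Function.Injective d := by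
      rw [injective_iff_map_eq_one]
      intro k hk
      rw [hd] at hk
      have h1 : Ψ (1, k) = ((Ψ (1, k)).1, 1) := by
        ext
        · rfl
        · exact hk
      have h2 : pp (Ψ (1, k)).1 = 1 := by
        rw [hpp, ← h1, Ψ.symm_apply_apply]
      have h3 : (Ψ (1, k)).1 = 1 := by
        apply hpp_inj; rw [h2, map_one]
      have h4 : Ψ (1, k) = 1 := by
        rw [h1, h3]; rfl
      have h5 : ((1 : H), k) = 1 := by
        apply Ψ.injective; rw [h4, map_one]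
      exact congrArg Prod.snd h5
    have hcard : Nat.card Y ≤ Nat.card K := by
      have h1 : Nat.card H = Nat.card X := Nat.card_congr eHX.toEquiv
      rw [h1] at hcardHK
      have hpos : 0 < Nat.card X := Nat.card_pos
      exact (Nat.eq_of_mul_eq_mul_left hpos hcardHK).symm.le
    exact ⟨MulEquiv.ofBijective d (hd_inj.bijective_of_nat_card_le hcard)⟩
  · -- `q ∘ c` is bijective
    right
    have hψ1 : ∀ h : H, q (c h) = 1 → h = 1 := by
      intro h hh
      apply hψ.1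
      show q (c h) = q (c 1)
      rw [hh, map_one, map_one]
    have hc_inj : Function.Injective c := by
      rw [injective_iff_map_eq_one]
      intro h hh
      apply hψ1
      rw [hh, map_one]
    have hRn : c.range.Normal := by
      refine ⟨?_⟩
      rintro _ ⟨h, rfl⟩ t
      refine ⟨(Ψ.symm (1, t)).1 * h * ((Ψ.symm (1, t)).1)⁻¹, ?_⟩
      rw [hc, hc]
      have e1 : (((Ψ.symm (1, t)).1 * h * ((Ψ.symm (1, t)).1)⁻¹, 1) : H × K) =
          Ψ.symm (1, t) * (h, 1) * (Ψ.symm (1, t))⁻¹ := by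
        ext <;> simp
      rw [e1, map_mul, map_mul, map_inv, Ψ.apply_symm_apply]
      simp
    have hinf : c.range ⊓ q.ker = ⊥ := by
      rw [eq_bot_iff]
      rintro _ ⟨⟨h, rfl⟩, hx2⟩
      have : h = 1 := hψ1 h hx2
      rw [this, map_one]
      exact Subgroup.mem_bot.mpr rfl
    have hsup : c.range ⊔ q.ker = ⊤ := by
      rw [eq_top_iff]
      intro y _
      obtain ⟨h, hh⟩ := hψ.2 (q y)
      have hh' : q (c h) = q y := hh
      have e : y = c h * ((c h)⁻¹ * y) := by group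
      rw [e]
      refine Subgroup.mul_mem_sup (show c h ∈ c.range from ⟨h, rfl⟩) ?_
      show q ((c h)⁻¹ * y) = 1
      rw [map_mul, map_inv, hh', inv_mul_cancel]
    have hcomm : ∀ (h : H) (m : ↥q.ker), Commute (c h) (q.ker.subtype m) := fun h m =>
      Subgroup.commute_of_normal_of_disjoint _ _ hRn (MonoidHom.normal_ker q)
        (disjoint_iff.mpr hinf) _ _ ⟨h, rfl⟩ m.2
    have hf_inj : Function.Injective (MonoidHom.noncommCoprod c q.ker.subtype hcomm) := by
      rw [injective_iff_map_eq_one]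
      rintro ⟨h, m⟩ hhm
      have h1 : c h * (m : Y) = 1 := hhm
      have h2 : c h ∈ c.range ⊓ q.ker := by
        have h0 : c h ∈ q.ker := by
          have : c h = (m : Y)⁻¹ := eq_inv_of_mul_eq_one_left h1
          rw [this]; exact inv_mem m.2
        exact ⟨⟨h, rfl⟩, h0⟩
      rw [hinf, Subgroup.mem_bot] at h2
      have h3 : h = 1 := by apply hc_inj; rw [h2, map_one]
      have h4 : (m : Y) = 1 := by rw [h2, one_mul] at h1; exact h1
      ext
      · exact h3
      · exact h4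
    have hf_surj : Function.Surjective (MonoidHom.noncommCoprod c q.ker.subtype hcomm) := by
      rw [← MonoidHom.range_eq_top, MonoidHom.noncommCoprod_range, Subgroup.range_subtype, hsup]
    have eY : H × ↥q.ker ≃* Y :=
      MulEquiv.ofBijective (MonoidHom.noncommCoprod c q.ker.subtype hcomm) ⟨hf_inj, hf_surj⟩
    refine ⟨q.ker, ⟨eY⟩, ?_⟩
    obtain ⟨θ, hθ⟩ : ∃ θ : X × ↥q.ker →* K, ∀ x m, θ (x, m) = (Ψ.symm (x, (m : Y))).2 :=
      ⟨(MonoidHom.snd H K).comp (Ψ.symm.toMonoidHom.comp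
        (MonoidHom.prodMap (MonoidHom.id X) q.ker.subtype)), fun _ _ => rfl⟩
    have hθ_inj : Function.Injective θ := by
      rw [injective_iff_map_eq_one]
      rintro ⟨x, m⟩ hxm
      rw [hθ] at hxm
      have h1 : Ψ.symm (x, (m : Y)) = ((Ψ.symm (x, (m : Y))).1, 1) := by
        ext
        · rfl
        · exact hxm
      have h2 : Ψ ((Ψ.symm (x, (m : Y))).1, 1) = (x, (m : Y)) := by
        rw [← h1, Ψ.apply_symm_apply]
      have h3 : c (Ψ.symm (x, (m : Y))).1 = (m : Y) := by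
        rw [hc, h2]
      have h4 : c (Ψ.symm (x, (m : Y))).1 ∈ c.range ⊓ q.ker := ⟨⟨_, rfl⟩, by rw [h3]; exact m.2⟩
      rw [hinf, Subgroup.mem_bot] at h4
      have h5 : (Ψ.symm (x, (m : Y))).1 = 1 := by apply hc_inj; rw [h4, map_one]
      have h6 : Ψ.symm (x, (m : Y)) = 1 := by rw [h1, h5]; rfl
      have h7 : (x, (m : Y)) = (1 : X × Y) := by
        apply Ψ.symm.injective; rw [h6, map_one]
      have h8 : x = 1 := congrArg Prod.fst h7
      have h9 : (m : Y) = 1 := congrArg Prod.snd h7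
      ext
      · exact h8
      · exact h9
    have hcard : Nat.card K ≤ Nat.card (X × ↥q.ker) := by
      have h1 : Nat.card H * Nat.card ↥q.ker = Nat.card Y := by
        rw [← Nat.card_prod]; exact Nat.card_congr eY.toEquiv
      rw [← h1] at hcardHK
      have hpos : 0 < Nat.card H := Nat.card_pos
      have h2 : Nat.card H * Nat.card K = Nat.card H * (Nat.card X * Nat.card ↥q.ker) := by
        rw [hcardHK]; ring
      rw [Nat.card_prod]
      exact (Nat.eq_of_mul_eq_mul_left hpos h2).le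
    exact ⟨(MulEquiv.ofBijective θ (hθ_inj.bijective_of_nat_card_le hcard)).symm⟩

/-- splitting off one factor of a product over `Fin (n + 1)` -/
def piSplit {n : ℕ} (L : Fin (n + 1) → Type v) [∀ j, Group (L j)] (p : Fin (n + 1)) :
    (∀ j, L j) ≃* L p × (∀ i, L (p.succAbove i)) :=
  { (Fin.insertNthEquiv L p).symm with
    map_mul' := fun _ _ => rfl }

theorem idx_congr {κ : Type*} (L : κ → Type v) [∀ k, Group (L k)] {a b : κ} (h : a = b) :
    Nonempty (L a ≃* L b) := by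
  subst h
  exact ⟨MulEquiv.refl _⟩

theorem pi_idx_congr {ι κ : Type*} (L : κ → Type v) [∀ k, Group (L k)] (f g : ι → κ)
    (h : ∀ i, f i = g i) : Nonempty ((∀ i, L (f i)) ≃* (∀ i, L (g i))) := by
  obtain rfl : f = g := funext h
  exact ⟨MulEquiv.refl _⟩

theorem exchange_aux (n : ℕ) : ∀ (L : Fin (n + 1) → Type v) [∀ j, Group (L j)]
    [∀ j, Finite (L j)] (_ : ∀ j, Indec (L j)) (H K : Type v) [Group H] [Group K] [Finite H]
    [Finite K] (_ : Nontrivial H) (_ : Indec H) (_ : H × K ≃* ∀ j, L j),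
    ∃ j : Fin (n + 1), Nonempty (H ≃* L j) ∧ Nonempty (K ≃* ∀ i : Fin n, L (j.succAbove i)) := by
  induction n with
  | zero =>
    intro L _ _ hL H K _ _ _ _ hHn hH Ψ
    letI : Unique (Fin (0 + 1)) := ⟨⟨0⟩, fun i => Fin.ext (by have := i.2; omega)⟩
    have hind : Indec (H × K) := Indec.of_equiv (Ψ.trans (MulEquiv.piUnique L)).symm (hL _)
    have hinf : Subgroup.prod (⊤ : Subgroup H) (⊥ : Subgroup K) ⊓ Subgroup.prod ⊥ ⊤ = ⊥ := by
      rw [eq_bot_iff]
      rintro ⟨h, k⟩ ⟨h1, h2⟩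
      have h1' : ((h, k) : H × K) ∈ Subgroup.prod (⊤ : Subgroup H) (⊥ : Subgroup K) := h1
      have h2' : ((h, k) : H × K) ∈ Subgroup.prod (⊥ : Subgroup H) (⊤ : Subgroup K) := h2
      rw [Subgroup.mem_prod] at h1' h2'
      have e1 : k = 1 := Subgroup.mem_bot.mp h1'.2
      have e2 : h = 1 := Subgroup.mem_bot.mp h2'.1
      rw [Subgroup.mem_bot, e1, e2]; rfl
    have hsup : Subgroup.prod (⊤ : Subgroup H) (⊥ : Subgroup K) ⊔ Subgroup.prod ⊥ ⊤ = ⊤ := by
      rw [eq_top_iff]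
      rintro ⟨h, k⟩ _
      have e : ((h, k) : H × K) = (h, 1) * (1, k) := by ext <;> simp
      rw [e]
      apply Subgroup.mul_mem_sup
      · rw [Subgroup.mem_prod]; exact ⟨Subgroup.mem_top _, Subgroup.mem_bot.mpr rfl⟩
      · rw [Subgroup.mem_prod]; exact ⟨Subgroup.mem_bot.mpr rfl, Subgroup.mem_top _⟩
    have hK1 : ∀ k : K, k = 1 := by
      rcases hind _ _ inferInstance inferInstance hinf hsup with h | h
      · exfalso
        obtain ⟨h0, hh0⟩ := exists_ne (1 : H)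
        have : ((h0, 1) : H × K) ∈ Subgroup.prod (⊤ : Subgroup H) (⊥ : Subgroup K) := by
          rw [Subgroup.mem_prod]; exact ⟨Subgroup.mem_top _, Subgroup.mem_bot.mpr rfl⟩
        rw [h, Subgroup.mem_bot] at this
        exact hh0 (congrArg Prod.fst this)
      · intro k
        have : ((1, k) : H × K) ∈ Subgroup.prod (⊥ : Subgroup H) (⊤ : Subgroup K) := by
          rw [Subgroup.mem_prod]; exact ⟨Subgroup.mem_bot.mpr rfl, Subgroup.mem_top _⟩
        rw [h, Subgroup.mem_bot] at this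
        exact congrArg Prod.snd this
    refine ⟨0, ?_, ?_⟩
    · have hbij : Function.Bijective (MonoidHom.inl H K) := by
        refine ⟨fun x y hxy => congrArg Prod.fst hxy, ?_⟩
        rintro ⟨h, k⟩
        refine ⟨h, ?_⟩
        show ((h, 1) : H × K) = (h, k)
        rw [hK1 k]
      exact ⟨(MulEquiv.ofBijective (MonoidHom.inl H K) hbij).trans
        (Ψ.trans (MulEquiv.piUnique L))⟩
    · haveI : Unique K := ⟨⟨1⟩, fun k => hK1 k⟩
      exact ⟨MulEquiv.ofUnique⟩
  | succ n ih =>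
    intro L _ _ hL H K _ _ _ _ hHn hH Ψ
    rcases two_factor hHn hH (hL 0) (Ψ.trans (piSplit L 0)) with ⟨⟨e1⟩, ⟨e2⟩⟩ | ⟨M₀, ⟨e1⟩, ⟨e2⟩⟩
    · exact ⟨0, ⟨e1⟩, ⟨e2⟩⟩
    · obtain ⟨j', ⟨e3⟩, ⟨e4⟩⟩ := ih (fun i => L ((0 : Fin (n + 2)).succAbove i))
        (fun i => hL _) H ↥M₀ hHn hH e1
      refine ⟨(0 : Fin (n + 2)).succAbove j', ⟨e3⟩, ?_⟩
      obtain ⟨e5⟩ := idx_congr L (show ((0 : Fin (n + 2)).succAbove j').succAbove 0 = 0 from
        Fin.succ_succAbove_zero j')
      obtain ⟨e6⟩ := pi_idx_congr L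
        (fun i : Fin n => ((0 : Fin (n + 2)).succAbove j').succAbove ((0 : Fin (n + 1)).succAbove i))
        (fun i : Fin n => (0 : Fin (n + 2)).succAbove (j'.succAbove i))
        (fun i => Fin.succ_succAbove_succ j' i)
      exact ⟨(e2.trans (MulEquiv.prodCongr (MulEquiv.refl _) e4)).trans
        ((MulEquiv.prodCongr e5 e6).symm.trans
          (piSplit (fun t => L (((0 : Fin (n + 2)).succAbove j').succAbove t)) 0).symm)⟩

theorem exchange {n : ℕ} (L : Fin (n + 1) → Type v) [∀ j, Group (L j)] [∀ j, Finite (L j)]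
    (hL : ∀ j, Indec (L j)) (H : Type u) (K : Type w) [Group H] [Group K] [Finite H] [Finite K]
    (hHn : Nontrivial H) (hH : Indec H) (Ψ : H × K ≃* ∀ j, L j) :
    ∃ j : Fin (n + 1), Nonempty (H ≃* L j) ∧ Nonempty (K ≃* ∀ i : Fin n, L (j.succAbove i)) := by
  have hinjH : Function.Injective (Ψ.toMonoidHom.comp (MonoidHom.inl H K)) :=
    Ψ.injective.comp (fun x y hxy => congrArg Prod.fst hxy)
  have hinjK : Function.Injective (Ψ.toMonoidHom.comp (MonoidHom.inr H K)) :=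
    Ψ.injective.comp (fun x y hxy => congrArg Prod.snd hxy)
  have eH : H ≃* ↥(Ψ.toMonoidHom.comp (MonoidHom.inl H K)).range := MonoidHom.ofInjective hinjH
  have eK : K ≃* ↥(Ψ.toMonoidHom.comp (MonoidHom.inr H K)).range := MonoidHom.ofInjective hinjK
  haveI : Nontrivial ↥(Ψ.toMonoidHom.comp (MonoidHom.inl H K)).range := eH.symm.toEquiv.nontrivial
  obtain ⟨j, ⟨e1⟩, ⟨e2⟩⟩ := exchange_aux n L hL
    ↥(Ψ.toMonoidHom.comp (MonoidHom.inl H K)).range ↥(Ψ.toMonoidHom.comp (MonoidHom.inr H K)).range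
    inferInstance (Indec.of_equiv eH hH) ((MulEquiv.prodCongr eH.symm eK.symm).trans Ψ)
  exact ⟨j, ⟨eH.trans e1⟩, ⟨eK.trans e2⟩⟩

theorem krs : ∀ (m n : ℕ) (A : Fin m → Type u) (B : Fin n → Type v) [∀ i, Group (A i)]
    [∀ j, Group (B j)] [∀ i, Finite (A i)] [∀ j, Finite (B j)]
    (_ : ∀ i, Nontrivial (A i) ∧ Indec (A i)) (_ : ∀ j, Nontrivial (B j) ∧ Indec (B j))
    (_ : (∀ i, A i) ≃* (∀ j, B j)), ∃ σ : Fin m ≃ Fin n, ∀ i, Nonempty (A i ≃* B (σ i)) := by
  intro m
  induction m with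
  | zero =>
    intro n A B _ _ _ _ hA hB e
    rcases n with _ | n
    · exact ⟨Equiv.refl _, fun i => i.elim0⟩
    · exfalso
      haveI := (hB 0).1
      obtain ⟨b, hb⟩ := exists_ne (1 : B 0)
      apply hb
      have h1 : e.symm (Pi.mulSingle 0 b) = e.symm 1 := Subsingleton.elim _ _
      have h2 : (Pi.mulSingle 0 b : ∀ j, B j) = 1 := e.symm.injective h1
      have h3 := congrFun h2 0
      rwa [Pi.mulSingle_eq_same] at h3
  | succ m ih =>
    intro n A B _ _ _ _ hA hB e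
    rcases n with _ | n
    · exfalso
      haveI := (hA 0).1
      obtain ⟨a, ha⟩ := exists_ne (1 : A 0)
      apply ha
      have h1 : e (Pi.mulSingle 0 a) = e 1 := Subsingleton.elim _ _
      have h2 : (Pi.mulSingle 0 a : ∀ i, A i) = 1 := e.injective h1
      have h3 := congrFun h2 0
      rwa [Pi.mulSingle_eq_same] at h3
    · obtain ⟨j₀, ⟨e0⟩, ⟨e1⟩⟩ := exchange B (fun j => (hB j).2) (A 0)
        (∀ i : Fin m, A ((0 : Fin (m + 1)).succAbove i)) (hA 0).1 (hA 0).2
        ((piSplit A 0).symm.trans e)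
      obtain ⟨σ', hσ'⟩ := ih n (fun i => A ((0 : Fin (m + 1)).succAbove i))
        (fun i => B (j₀.succAbove i)) (fun i => hA _) (fun j => hB _) e1
      refine ⟨(finSuccEquiv' (0 : Fin (m + 1))).trans
        ((Equiv.optionCongr σ').trans (finSuccEquiv' j₀).symm), ?_⟩
      intro i
      by_cases hi : i = 0
      · subst hi
        have h0 : ((finSuccEquiv' (0 : Fin (m + 1))).trans
            ((Equiv.optionCongr σ').trans (finSuccEquiv' j₀).symm)) 0 = j₀ := by
          show (finSuccEquiv' j₀).symm (Equiv.optionCongr σ' (finSuccEquiv' 0 0)) = j₀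
          rw [finSuccEquiv'_at]
          exact finSuccEquiv'_symm_none j₀
        rw [h0]
        exact ⟨e0⟩
      · obtain ⟨i', rfl⟩ := Fin.exists_succAbove_eq hi
        have h1 : ((finSuccEquiv' (0 : Fin (m + 1))).trans
            ((Equiv.optionCongr σ').trans (finSuccEquiv' j₀).symm))
              ((0 : Fin (m + 1)).succAbove i') = j₀.succAbove (σ' i') := by
          show (finSuccEquiv' j₀).symm (Equiv.optionCongr σ'
            (finSuccEquiv' 0 ((0 : Fin (m + 1)).succAbove i'))) = j₀.succAbove (σ' i')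
          rw [finSuccEquiv'_succAbove]
          exact finSuccEquiv'_symm_some j₀ (σ' i')
        rw [h1]
        exact hσ' i'

/-- If a finite group is isomorphic both to a direct product of `m` directly indecomposable nontrivial groups and to a direct product of `n` such groups (a group is directly indecomposable when it is not the internal direct product of two nontrivial normal subgroups), then `m = n` and the factors are isomorphic in pairs after a suitable matching. -/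
theorem result {m n : ℕ} {A : Fin m → Type*} {B : Fin n → Type*} [∀ i, Group (A i)] [∀ j, Group (B j)] [∀ i, Finite (A i)] [∀ j, Finite (B j)] (hA : ∀ i, Nontrivial (A i) ∧ ∀ H K : Subgroup (A i), H.Normal → K.Normal → H ⊓ K = ⊥ → H ⊔ K = ⊤ → H = ⊥ ∨ K = ⊥) (hB : ∀ j, Nontrivial (B j) ∧ ∀ H K : Subgroup (B j), H.Normal → K.Normal → H ⊓ K = ⊥ → H ⊔ K = ⊤ → H = ⊥ ∨ K = ⊥) (e : ((i : Fin m) → A i) ≃* ((j : Fin n) → B j)) : ∃ σ : Fin m ≃ Fin n, ∀ i, Nonempty (A i ≃* B (σ i)) := by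
  exact krs m n A B hA hB e

end Cfsg.Agent.S4223
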