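import Cfsg.Statements.S4225
import Mathlib
import Cfsg.Agent.Lib.Helper23.Regular

set_option autoImplicit false
open Cfsg

namespace Cfsg.Agent.S4225

/-- In a regular `p`-group, for every `k` the elements whose `p^k`-th power is `1` form a characteristic subgroup. -/
theorem result {G : Type*} [Group G] [Finite G] {p : ℕ} [Fact p.Prime] (hG : Cfsg.IsRegularPGroup p G) (k : ℕ) : ∃ H : Subgroup G, H.Characteristic ∧ (H : Set G) = {x : G | x ^ p ^ k = 1} := by
  refine ⟨{ carrier := {x : G | x ^ p ^ k = 1}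
            one_mem' := one_pow _
            mul_mem' := ?_
            inv_mem' := ?_ }, ⟨fun ϕ => ?_⟩, rfl⟩
  · intro x y hx hy
    have hx' : x ^ p ^ k = 1 := hx
    have hy' : y ^ p ^ k = 1 := hy
    have h := (Cfsg.Agent.Lib.Helper23.pow_eq_pow_iff_of_regular hG k x⁻¹ y).mp (by
      rw [inv_pow, hx', hy', inv_one])
    simpa using h
  · intro x hx
    have hx' : x ^ p ^ k = 1 := hx
    show x⁻¹ ^ p ^ k = 1
    rw [inv_pow, hx', inv_one]
  · ext x
    show (ϕ x) ^ p ^ k = 1 ↔ x ^ p ^ k = 1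
    rw [← map_pow, MulEquiv.map_eq_one_iff]

end Cfsg.Agent.S4225
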