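import Cfsg.Statements.S4226
import Mathlib
import Cfsg.Agent.S4215

set_option autoImplicit false
open Cfsg

namespace Cfsg.Agent.S4226

lemma weakly_self {G : Type*} [Group G] [Finite G] (P : Subgroup G) :
    Cfsg.IsWeaklyClosed P P := by
  refine ⟨le_rfl, fun g hg => ?_⟩
  apply Subgroup.eq_of_le_of_card_ge hg
  rw [Subgroup.card_map_of_injective (MulAut.conj g).injective]

lemma iter_mem {G : Type*} [Group G] (P : Subgroup G) (z : G) (hz : z ∈ P) (k : ℕ) (u : G)
    (hu : u ∈ P) : (fun y : G => y⁻¹ * z⁻¹ * y * z)^[k] u ∈ P.lowerCentralSeries k := by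
  induction k with
  | zero => simpa using hu
  | succ k ih =>
    rw [Function.iterate_succ_apply', Subgroup.lowerCentralSeries_succ]
    have h1 := Subgroup.commutator_mem_commutator ((P.lowerCentralSeries k).inv_mem ih) (P.inv_mem hz)
    simpa [commutatorElement_def] using h1

theorem glue {G : Type*} [Group G] [Finite G] {p : ℕ} [Fact p.Prime] (P : Sylow p G)
    (hcl : (P : Subgroup G).lowerCentralSeries (p - 1) = ⊥)
    (h4215 : ∀ (Q : Subgroup G), Cfsg.IsWeaklyClosed Q (P : Subgroup G) →
      (∀ u ∈ (P : Subgroup G), ∀ z ∈ Q, (fun y : G => y⁻¹ * z⁻¹ * y * z)^[p - 1] u = 1) →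
      Cfsg.pResidualOf p (Subgroup.normalizer (Q : Set G)) = Cfsg.pResidual p G ⊓ Subgroup.normalizer (Q : Set G)) :
    Cfsg.pResidualOf p (Subgroup.normalizer ((P : Subgroup G) : Set G)) = Cfsg.pResidual p G ⊓ Subgroup.normalizer ((P : Subgroup G) : Set G) := by
  refine h4215 (P : Subgroup G) (weakly_self _) (fun u hu z hz => ?_)
  have h := iter_mem (P : Subgroup G) z hz (p - 1) u hu
  rw [hcl] at h
  simpa using h

/-- Let `P` be a Sylow `p`-subgroup of the finite group `G` with nilpotency class less than `p` (the term of index `p - 1` of the lower central series of `P`, indexed from `0`, is trivial), and let `N` be its normalizer. Then `O^p(N) = O^p(G) ∩ N`, where `O^p` denotes the subgroup generated by the elements of order prime to `p`; so the largest `p`-factor groups of `G` and of `N` are isomorphic. -/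
theorem result {G : Type*} [Group G] [Finite G] {p : ℕ} [Fact p.Prime] (P : Sylow p G) (hcl : (P : Subgroup G).lowerCentralSeries (p - 1) = ⊥) : Cfsg.pResidualOf p (Subgroup.normalizer ((P : Subgroup G) : Set G)) = Cfsg.pResidual p G ⊓ Subgroup.normalizer ((P : Subgroup G) : Set G) := by
  exact glue P hcl (fun Q hQ h => Cfsg.Agent.S4215.result P Q hQ h)

end Cfsg.Agent.S4226
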