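import Cfsg.Statements.S4275
-- import your own Cfsg.Agent.* helpers here

set_option autoImplicit false
open Cfsg

namespace Cfsg.Agent.S4275

/-- Let G be a transitive group of permutations of a finite set Ω, let o ∈ Ω, and let α be an automorphism of G. Then α is induced by conjugation by a permutation of Ω normalizing G if and only if the image under α of the stabilizer of o fixes some point of Ω. -/
theorem result {Ω : Type*} [Fintype Ω] (G : Subgroup (Equiv.Perm Ω)) (htr : MulAction.IsPretransitive G Ω) (o : Ω) (α : G ≃* G) : (∃ σ : Equiv.Perm Ω, σ ∈ Subgroup.normalizer (G : Set (Equiv.Perm Ω)) ∧ ∀ g : G, ((α g : G) : Equiv.Perm Ω) = σ * (g : Equiv.Perm Ω) * σ⁻¹) ↔ ∃ ω : Ω, ∀ g ∈ (MulAction.stabilizer G o).map α.toMonoidHom, g • ω = ω := by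
  classical
  have hsmul : ∀ (g : G) (x : Ω), g • x = (g : Equiv.Perm Ω) x := fun g x => rfl
  constructor
  · rintro ⟨σ, -, hσ⟩
    refine ⟨σ o, ?_⟩
    rintro g ⟨h, hh, rfl⟩
    have hho : (h : Equiv.Perm Ω) o = o := by
      have := MulAction.mem_stabilizer_iff.mp hh
      rwa [hsmul] at this
    change (α h) • (σ o) = σ o
    rw [hsmul, hσ h]
    simp only [Equiv.Perm.mul_apply]
    rw [show σ⁻¹ (σ o) = o from by rw [← Equiv.Perm.mul_apply, inv_mul_cancel, Equiv.Perm.one_apply],
      hho]
  · rintro ⟨ω, hω⟩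
    have hω' : ∀ h : G, h • o = o → (α h) • ω = ω := by
      intro h hh
      exact hω (α h) ⟨h, MulAction.mem_stabilizer_iff.mpr hh, rfl⟩
    have hex : ∀ x : Ω, ∃ g : G, g • o = x := fun x => MulAction.exists_smul_eq G o x
    choose rep hrep using hex
    have key : ∀ g : G, α (rep (g • o)) • ω = α g • ω := by
      intro g
      have h1 : (g⁻¹ * rep (g • o)) • o = o := by
        rw [mul_smul, hrep, inv_smul_smul]
      have h2 := hω' _ h1
      rw [map_mul, map_inv, mul_smul, inv_smul_eq_iff] at h2
      exact h2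
    have hequi : ∀ (g : G) (x : Ω), α (rep (g • x)) • ω = α g • (α (rep x) • ω) := by
      intro g x
      have h1 : g • x = (g * rep x) • o := by rw [mul_smul, hrep]
      rw [h1, key, map_mul, mul_smul]
    have hsurj : Function.Surjective (fun x : Ω => α (rep x) • ω) := by
      intro y
      obtain ⟨h, hh⟩ := MulAction.exists_smul_eq G ω y
      refine ⟨α.symm h • o, ?_⟩
      change α (rep (α.symm h • o)) • ω = y
      rw [key, MulEquiv.apply_symm_apply, hh]
    have hbij : Function.Bijective (fun x : Ω => α (rep x) • ω) :=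
      ⟨Finite.injective_iff_surjective.mpr hsurj, hsurj⟩
    have hσapp : ∀ x, (Equiv.ofBijective _ hbij) x = α (rep x) • ω := fun x => rfl
    have hconj : ∀ g : G, ((α g : G) : Equiv.Perm Ω) =
        (Equiv.ofBijective _ hbij) * (g : Equiv.Perm Ω) * (Equiv.ofBijective _ hbij)⁻¹ := by
      intro g
      refine Equiv.ext (fun y => ?_)
      simp only [Equiv.Perm.mul_apply]
      rw [hσapp, ← hsmul g, hequi, ← hσapp,
        show (Equiv.ofBijective _ hbij) ((Equiv.ofBijective _ hbij)⁻¹ y) = y from by
          rw [← Equiv.Perm.mul_apply, mul_inv_cancel, Equiv.Perm.one_apply], hsmul]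
    refine ⟨Equiv.ofBijective _ hbij, ?_, hconj⟩
    rw [Subgroup.mem_normalizer_iff]
    intro n
    constructor
    · intro hn
      have := hconj ⟨n, hn⟩
      rw [← this]
      exact (α ⟨n, hn⟩).2
    · intro hn
      have h1 := hconj (α.symm ⟨_, hn⟩)
      rw [MulEquiv.apply_symm_apply] at h1
      have h2 : n = ((α.symm ⟨_, hn⟩ : G) : Equiv.Perm Ω) := by
        have h3 := mul_right_cancel h1
        exact mul_left_cancel h3
      rw [h2]
      exact (α.symm ⟨_, hn⟩).2

end Cfsg.Agent.S4275
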