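import Cfsg.Statements.S4283
import Mathlib
import Cfsg.Agent.Lib.Lead.FrobeniusMore

set_option autoImplicit false
open Cfsg

namespace Cfsg.Agent.S4283

open Cfsg.Agent.Lib.Lead
open scoped Pointwise

/-- Let G be a finite group with centre Z and let K, H be abelian subgroups of G containing Z such that G/Z is a Frobenius group with complement H/Z and kernel K/Z. Then the conjugacy class sizes of G are exactly 1, [G : K] and [G : H], and these two indices are coprime. (This is the converse half of the characterization of finite groups whose conjugacy class sizes are exactly 1, m and n with m and n coprime.) -/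
theorem result {G : Type*} [Group G] [Finite G] (K H : Subgroup G) (hZK : Subgroup.center G ≤ K) (hZH : Subgroup.center G ≤ H) (hK : IsMulCommutative K) (hH : IsMulCommutative H) (hFrob : Cfsg.IsFrobeniusComplement (H.map (QuotientGroup.mk' (Subgroup.center G)))) (hker : Cfsg.frobeniusKernel (H.map (QuotientGroup.mk' (Subgroup.center G))) = (K.map (QuotientGroup.mk' (Subgroup.center G)) : Set (G ⧸ Subgroup.center G))) : Set.range (fun x : G => (Subgroup.centralizer ({x} : Set G)).index) = ({1, K.index, H.index} : Set ℕ) ∧ K.index.Coprime H.index := by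
  classical
  have hπs : Function.Surjective (QuotientGroup.mk' (Subgroup.center G)) :=
    QuotientGroup.mk'_surjective _
  have hFK : frobKer _ hFrob = K.map (QuotientGroup.mk' (Subgroup.center G)) := by
    apply SetLike.coe_injective
    rw [coe_frobKer, hker]
  have hKmem : ∀ x : G, QuotientGroup.mk' (Subgroup.center G) x
      ∈ K.map (QuotientGroup.mk' (Subgroup.center G)) ↔ x ∈ K := by
    intro x
    rw [← Subgroup.mem_comap, Subgroup.comap_map_eq, QuotientGroup.ker_mk', sup_eq_left.mpr hZK]
  have hHmem : ∀ x : G, QuotientGroup.mk' (Subgroup.center G) x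
      ∈ H.map (QuotientGroup.mk' (Subgroup.center G)) ↔ x ∈ H := by
    intro x
    rw [← Subgroup.mem_comap, Subgroup.comap_map_eq, QuotientGroup.ker_mk', sup_eq_left.mpr hZH]
  have hπ1 : ∀ x : G, QuotientGroup.mk' (Subgroup.center G) x = 1 ↔ x ∈ Subgroup.center G := by
    intro x
    rw [QuotientGroup.mk'_apply, QuotientGroup.eq_one_iff]
  have hKidx : (K.map (QuotientGroup.mk' (Subgroup.center G))).index = K.index :=
    Subgroup.index_map_eq _ hπs (by rw [QuotientGroup.ker_mk']; exact hZK)
  have hHidx : (H.map (QuotientGroup.mk' (Subgroup.center G))).index = H.index :=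
    Subgroup.index_map_eq _ hπs (by rw [QuotientGroup.ker_mk']; exact hZH)
  -- centralizers
  have hcK : ∀ x : G, x ∈ K → x ∉ Subgroup.center G → Subgroup.centralizer ({x} : Set G) = K := by
    intro x hxK hxZ
    apply le_antisymm
    · intro c hc
      rw [← hKmem, ← hFK]
      have hx1 : QuotientGroup.mk' (Subgroup.center G) x ≠ 1 := fun h => hxZ ((hπ1 x).mp h)
      have hxF : QuotientGroup.mk' (Subgroup.center G) x ∈ frobKer _ hFrob := by
        rw [hFK, hKmem]; exact hxK
      apply frob_centralizer_le _ hFrob hxF hx1
      rw [Subgroup.mem_centralizer_singleton_iff] at hc ⊢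
      rw [← map_mul, ← map_mul, hc]
    · intro k hk
      rw [Subgroup.mem_centralizer_singleton_iff]
      exact congrArg Subtype.val (hK.is_comm.comm ⟨k, hk⟩ ⟨x, hxK⟩)
  have hcH : ∀ y : G, y ∈ H → y ∉ Subgroup.center G → Subgroup.centralizer ({y} : Set G) = H := by
    intro y hyH hyZ
    apply le_antisymm
    · intro c hc
      rw [← hHmem]
      have hy1 : QuotientGroup.mk' (Subgroup.center G) y ≠ 1 := fun h => hyZ ((hπ1 y).mp h)
      have hyF : QuotientGroup.mk' (Subgroup.center G) y
          ∈ H.map (QuotientGroup.mk' (Subgroup.center G)) := by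
        rw [hHmem]; exact hyH
      apply frob_conj_mem hFrob hyF hy1
      rw [Subgroup.mem_centralizer_singleton_iff] at hc
      rw [← map_inv, ← map_mul, ← map_mul]
      have e : c⁻¹ * y * c = y := by rw [mul_assoc, ← hc, inv_mul_cancel_left]
      rw [e]
      exact hyF
    · intro k hk
      rw [Subgroup.mem_centralizer_singleton_iff]
      exact congrArg Subtype.val (hH.is_comm.comm ⟨k, hk⟩ ⟨y, hyH⟩)
  have hcX : ∀ x : G, x ∉ K → (Subgroup.centralizer ({x} : Set G)).index = H.index := by
    intro x hxK
    have hxF : ¬ QuotientGroup.mk' (Subgroup.center G) x ∈ frobKer _ hFrob := by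
      rw [hFK, hKmem]; exact hxK
    rw [mem_frobKer_iff] at hxF
    have hex : ∃ g' : G ⧸ Subgroup.center G, QuotientGroup.mk' (Subgroup.center G) x
        ∈ MulAut.conj g' • H.map (QuotientGroup.mk' (Subgroup.center G)) := by
      by_contra hno
      apply hxF
      right
      intro g' hg'
      exact hno ⟨g', hg'⟩
    obtain ⟨g', hg'⟩ := hex
    obtain ⟨g, rfl⟩ := hπs g'
    rw [mem_conj_smul, ← map_inv, ← map_mul, ← map_mul, hHmem] at hg'
    have hyZ : g⁻¹ * x * g ∉ Subgroup.center G := by
      intro hz
      apply hxK
      apply hZK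
      have e : x = g * (g⁻¹ * x * g) * g⁻¹ := by group
      rw [e]
      exact (inferInstance : (Subgroup.center G).Normal).conj_mem _ hz g
    have h1 := hcH _ hg' hyZ
    have h2 : Subgroup.centralizer ({x} : Set G)
        = (Subgroup.centralizer ({g⁻¹ * x * g} : Set G)).map
          ((MulAut.conj g : G ≃* G) : G →* G) := by
      ext c
      rw [Subgroup.mem_map, Subgroup.mem_centralizer_singleton_iff]
      constructor
      · intro hc
        refine ⟨g⁻¹ * c * g, ?_, ?_⟩
        · rw [Subgroup.mem_centralizer_singleton_iff]
          have e1 : g⁻¹ * c * g * (g⁻¹ * x * g) = g⁻¹ * (c * x) * g := by group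
          have e2 : g⁻¹ * x * g * (g⁻¹ * c * g) = g⁻¹ * (x * c) * g := by group
          rw [e1, e2, hc]
        · show MulAut.conj g (g⁻¹ * c * g) = c
          rw [MulAut.conj_apply]; group
      · rintro ⟨d, hd, rfl⟩
        rw [Subgroup.mem_centralizer_singleton_iff] at hd
        show MulAut.conj g d * x = x * MulAut.conj g d
        rw [MulAut.conj_apply]
        have e1 : g * d * g⁻¹ * x = g * (d * (g⁻¹ * x * g)) * g⁻¹ := by group
        have e2 : x * (g * d * g⁻¹) = g * (g⁻¹ * x * g * d) * g⁻¹ := by group
        rw [e1, e2, hd]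
    rw [h2, Subgroup.index_map_equiv, h1]
  constructor
  · ext n
    constructor
    · rintro ⟨x, rfl⟩
      by_cases hxZ : x ∈ Subgroup.center G
      · left
        show (Subgroup.centralizer ({x} : Set G)).index = 1
        rw [Subgroup.index_eq_one, Subgroup.centralizer_eq_top_iff_subset]
        intro y hy
        rw [Set.mem_singleton_iff] at hy
        rw [hy]; exact hxZ
      · by_cases hxK : x ∈ K
        · right; left
          show (Subgroup.centralizer ({x} : Set G)).index = K.index
          rw [hcK x hxK hxZ]
        · right; right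
          exact hcX x hxK
    · rintro (rfl | rfl | rfl)
      · refine ⟨1, ?_⟩
        show (Subgroup.centralizer ({1} : Set G)).index = 1
        rw [Subgroup.index_eq_one, Subgroup.centralizer_eq_top_iff_subset]
        intro y hy
        rw [Set.mem_singleton_iff] at hy
        rw [hy]; exact Subgroup.one_mem _
      · have hne := frobKer_ne_bot _ hFrob
        rw [hFK] at hne
        obtain ⟨a, ha⟩ := (Subgroup.ne_bot_iff_exists_ne_one).mp hne
        obtain ⟨k, hk⟩ := hπs (a : G ⧸ Subgroup.center G)
        have hk' : QuotientGroup.mk' (Subgroup.center G) k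
            ∈ K.map (QuotientGroup.mk' (Subgroup.center G)) := by rw [hk]; exact a.2
        have hk'1 : QuotientGroup.mk' (Subgroup.center G) k ≠ 1 := by
          rw [hk]; exact fun h => ha (Subtype.ext h)
        refine ⟨k, ?_⟩
        show (Subgroup.centralizer ({k} : Set G)).index = K.index
        rw [hcK k ((hKmem k).mp hk') (fun h => hk'1 ((hπ1 k).mpr h))]
      · have hne := hFrob.1
        obtain ⟨a, ha⟩ := (Subgroup.ne_bot_iff_exists_ne_one).mp hne
        obtain ⟨h, hk⟩ := hπs (a : G ⧸ Subgroup.center G)
        have hh' : QuotientGroup.mk' (Subgroup.center G) h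
            ∈ H.map (QuotientGroup.mk' (Subgroup.center G)) := by rw [hk]; exact a.2
        have hh'1 : QuotientGroup.mk' (Subgroup.center G) h ≠ 1 := by
          rw [hk]; exact fun h => ha (Subtype.ext h)
        refine ⟨h, ?_⟩
        show (Subgroup.centralizer ({h} : Set G)).index = H.index
        rw [hcH h ((hHmem h).mp hh') (fun e => hh'1 ((hπ1 h).mpr e))]
  · have h1 := frobKer_coprime _ hFrob
    have h2 := card_frobKer _ hFrob
    have h3 : (frobKer _ hFrob).index
        = Nat.card (H.map (QuotientGroup.mk' (Subgroup.center G))) :=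
      (frobKer_isComplement' _ hFrob).symm.index_eq_card
    rw [h2, hHidx] at h1
    rw [← h3, hFK, hKidx] at h1
    exact h1.symm

end Cfsg.Agent.S4283
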