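import Cfsg.Statements.S4293
import Cfsg.Agent.Lib.Helper24.FrobComplement

set_option autoImplicit false
open Cfsg

namespace Cfsg.Agent.S4293

open scoped Pointwise

/-- A nontrivial finite subgroup of the multiplicative group of a division ring occurs as a Frobenius complement of some finite Frobenius group. -/
theorem result {D : Type*} [DivisionRing D] (H : Subgroup Dˣ) [Finite H] (hH : H ≠ ⊥) :
    ∃ (L : Type) (_ : Group L) (_ : Finite L) (C : Subgroup L), Cfsg.IsFrobeniusComplement C ∧ Nonempty (H ≃* C) := by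
  classical
  have hnt : Nontrivial H := (Subgroup.nontrivial_iff_ne_bot H).mpr hH
  have hTfin : ((fun h : Dˣ => (h : D)) '' (H : Set Dˣ)).Finite :=
    Set.Finite.image _ (Set.toFinite _)
  have hTmul : ((fun h : Dˣ => (h : D)) '' (H : Set Dˣ)) * ((fun h : Dˣ => (h : D)) '' (H : Set Dˣ))
      ⊆ ((fun h : Dˣ => (h : D)) '' (H : Set Dˣ)) := by
    rintro _ ⟨_, ⟨a, ha, rfl⟩, _, ⟨b, hb, rfl⟩, rfl⟩
    exact ⟨a * b, H.mul_mem ha hb, by simp⟩
  have h1 : (1 : D) ∈ Submodule.span ℤ ((fun h : Dˣ => (h : D)) '' (H : Set Dˣ)) :=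
    Submodule.subset_span ⟨1, H.one_mem, by simp⟩
  have hmul : ∀ x y : D, x ∈ Submodule.span ℤ ((fun h : Dˣ => (h : D)) '' (H : Set Dˣ)) →
      y ∈ Submodule.span ℤ ((fun h : Dˣ => (h : D)) '' (H : Set Dˣ)) →
      x * y ∈ Submodule.span ℤ ((fun h : Dˣ => (h : D)) '' (H : Set Dˣ)) := by
    intro x y hx hy
    have := Submodule.mul_mem_mul hx hy
    rw [Submodule.span_mul_span] at this
    exact Submodule.span_mono hTmul this
  have hSfin : Module.Finite ℤ
      ((Submodule.span ℤ ((fun h : Dˣ => (h : D)) '' (H : Set Dˣ))).toSubalgebra h1 hmul) := by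
    have : Module.Finite ℤ (Submodule.span ℤ ((fun h : Dˣ => (h : D)) '' (H : Set Dˣ))) :=
      Module.Finite.span_of_finite ℤ hTfin
    exact this
  have hmemS : ∀ h : H, ((h : Dˣ) : D) ∈
      (Submodule.span ℤ ((fun h : Dˣ => (h : D)) '' (H : Set Dˣ))).toSubalgebra h1 hmul :=
    fun h => Submodule.subset_span ⟨h, h.2, rfl⟩
  let ψ : H →* ((Submodule.span ℤ ((fun h : Dˣ => (h : D)) '' (H : Set Dˣ))).toSubalgebra h1 hmul) :=
    { toFun := fun h => ⟨((h : Dˣ) : D), hmemS h⟩
      map_one' := by ext; simp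
      map_mul' := by intro a b; ext; simp }
  have hψ : ∀ h : H, h ≠ 1 → ψ h ≠ 1 := by
    intro h hh h1
    apply hh
    have h2 := congrArg Subtype.val h1
    have h3 : ((h : Dˣ) : D) = 1 := h2
    exact Subtype.ext (Units.ext h3)
  obtain ⟨q, hq, hq2⟩ : ∃ q : ℕ, q.Coprime (Nat.card H) ∧
      ∀ r : ℤ, (r : D) = 0 → ¬ (q : ℤ) ∣ r - 1 := by
    obtain ⟨p, hp⟩ := CharP.exists D
    rcases CharP.char_is_prime_or_zero D p with hpp | hp0
    · refine ⟨p, ?_, ?_⟩
      · rw [Nat.Prime.coprime_iff_not_dvd hpp]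
        intro hdvd
        have hpf : Fact p.Prime := ⟨hpp⟩
        obtain ⟨h, hh⟩ := exists_prime_orderOf_dvd_card' p hdvd
        have hpow : (((h : Dˣ) : D)) ^ p = 1 := by
          have h1 := pow_orderOf_eq_one h
          rw [hh] at h1
          have h2 := congrArg (fun x : H => ((x : Dˣ) : D)) h1
          simpa using h2
        have hsub : (((h : Dˣ) : D) - 1) ^ p = 0 := by
          rw [sub_pow_char_of_commute (p := p) (Commute.one_right _), hpow, one_pow, sub_self]
        have h1 : ((h : Dˣ) : D) = 1 := sub_eq_zero.mp ((pow_eq_zero_iff hpp.ne_zero).mp hsub)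
        have h2 : h = 1 := Subtype.ext (Units.ext h1)
        rw [h2, orderOf_one] at hh
        exact hpp.one_lt.ne hh
      · intro r hr hdvd
        have h1 : (p : ℤ) ∣ r := (CharP.intCast_eq_zero_iff D p r).mp hr
        have h2 : (p : ℤ) ∣ 1 := by
          have := dvd_sub h1 hdvd
          simpa using this
        have h3 : p ∣ 1 := by exact_mod_cast h2
        exact hpp.one_lt.ne' (Nat.dvd_one.mp h3)
    · subst hp0
      have hcz : CharZero D := CharP.charP_to_charZero D
      obtain ⟨q, hqge, hqp⟩ := Nat.exists_infinite_primes (Nat.card H + 1)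
      refine ⟨q, ?_, ?_⟩
      · rw [Nat.Prime.coprime_iff_not_dvd hqp]
        intro hdvd
        have := Nat.le_of_dvd Nat.card_pos hdvd
        omega
      · intro r hr hdvd
        have hr0 : r = 0 := by exact_mod_cast hr
        subst hr0
        have h2 : (q : ℤ) ∣ 1 := by
          have := (dvd_neg).mpr hdvd
          simpa using this
        have h3 : q ∣ 1 := by exact_mod_cast h2
        exact hqp.one_lt.ne' (Nat.dvd_one.mp h3)
  have hq2' : ∀ r : ℤ, ((r : ℤ) :
      ((Submodule.span ℤ ((fun h : Dˣ => (h : D)) '' (H : Set Dˣ))).toSubalgebra h1 hmul)) = 0 →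
      ¬ (q : ℤ) ∣ r - 1 := by
    intro r hr
    apply hq2 r
    have := congrArg Subtype.val hr
    simpa using this
  exact Cfsg.Agent.Lib.Helper24.exists_frobenius_of_ring ψ hψ q hq hq2'

end Cfsg.Agent.S4293
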