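import Cfsg.Statements.S4295
import Cfsg.Agent.Lib.Helper24.QuatSquare

set_option autoImplicit false
open Cfsg

namespace Cfsg.Agent.S4295

open Cfsg.Agent.Lib.Helper24

/-- The endomorphism `(x, y) ↦ (αx + βy, βx - αy)` of `R × R`. -/
def uEnd {R : Type*} [CommRing R] (α β : R) : AddMonoid.End (R × R) :=
  AddMonoidHom.mk' (fun v => (α * v.1 + β * v.2, β * v.1 - α * v.2)) (by
    intro v w
    apply Prod.ext
    · show α * (v.1 + w.1) + β * (v.2 + w.2) = (α * v.1 + β * v.2) + (α * w.1 + β * w.2)
      ring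
    · show β * (v.1 + w.1) - α * (v.2 + w.2) = (β * v.1 - α * v.2) + (β * w.1 - α * w.2)
      ring)

/-- The endomorphism `(x, y) ↦ (-y, x)` of `R × R`. -/
def wEnd (R : Type*) [CommRing R] : AddMonoid.End (R × R) :=
  AddMonoidHom.mk' (fun v => (-v.2, v.1)) (by
    intro v w
    apply Prod.ext
    · show -(v.2 + w.2) = -v.2 + -w.2
      ring
    · rfl)

theorem uEnd_apply {R : Type*} [CommRing R] (α β : R) (v : R × R) :
    uEnd α β v = (α * v.1 + β * v.2, β * v.1 - α * v.2) := rfl

theorem wEnd_apply (R : Type*) [CommRing R] (v : R × R) : wEnd R v = (-v.2, v.1) := rfl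

theorem uEnd_sq {R : Type*} [CommRing R] (α β : R) (h : α ^ 2 + β ^ 2 = -1) :
    uEnd α β * uEnd α β = -1 := by
  apply AddMonoidHom.ext
  intro v
  apply Prod.ext
  · show α * (α * v.1 + β * v.2) + β * (β * v.1 - α * v.2) = -v.1
    linear_combination v.1 * h
  · show β * (α * v.1 + β * v.2) - α * (β * v.1 - α * v.2) = -v.2
    linear_combination v.2 * h

theorem wEnd_sq (R : Type*) [CommRing R] : wEnd R * wEnd R = -1 := by
  apply AddMonoidHom.ext
  intro v
  apply Prod.ext
  · rfl
  · rfl

theorem uEnd_wEnd {R : Type*} [CommRing R] (α β : R) :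
    uEnd α β * wEnd R = -(wEnd R * uEnd α β) := by
  apply AddMonoidHom.ext
  intro v
  apply Prod.ext
  · show α * -v.2 + β * v.1 = - -(β * v.1 - α * v.2)
    ring
  · show β * -v.2 - α * v.1 = -(α * v.1 + β * v.2)
    ring

/-- Quaternion relations in a ring give a homomorphism from the quaternion group to the units. -/
theorem quat_units {E : Type*} [Ring E] (a b : E) (ha : a * a = -1) (hb : b * b = -1)
    (hab : a * b = -(b * a)) (h1 : (-1 : E) ≠ 1) :
    ∃ f : QuaternionGroup 2 →* Eˣ, ((f (QuaternionGroup.a 2) : Eˣ) : E) = -1 := by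
  let ua : Eˣ := ⟨a, -a, by rw [mul_neg, ha, neg_neg], by rw [neg_mul, ha, neg_neg]⟩
  let ub : Eˣ := ⟨b, -b, by rw [mul_neg, hb, neg_neg], by rw [neg_mul, hb, neg_neg]⟩
  have hua : ((ua * ua : Eˣ) : E) = -1 := ha
  have hu2 : ua ^ 2 ≠ 1 := by
    intro h
    apply h1
    rw [← hua, ← pow_two, h]
    rfl
  have hu4 : ua ^ 4 = 1 := by
    apply Units.ext
    have : ua ^ 4 = (ua * ua) * (ua * ua) := by
      rw [show (4 : ℕ) = 2 + 2 from rfl, pow_add, pow_two]
    rw [this, Units.val_mul, hua]
    simp
  have hord : orderOf ua = 2 * 2 := by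
    have := orderOf_eq_prime_pow (p := 2) (n := 1) (x := ua) (by simpa using hu2) (by simpa using hu4)
    simpa using this
  have hww : ub * ub = ua ^ 2 := by
    apply Units.ext
    rw [pow_two, hua]
    exact hb
  have huw : ua * ub = ub * ua⁻¹ := by
    apply Units.ext
    show a * b = b * -a
    rw [hab, mul_neg]
  obtain ⟨f, -, hf1, -⟩ := quat_hom 2 le_rfl ua ub hord hww huw
  refine ⟨f, ?_⟩
  have h3 : (QuaternionGroup.a 2 : QuaternionGroup 2) = QuaternionGroup.a 1 * QuaternionGroup.a 1 := by
    decide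
  rw [h3, map_mul, hf1]
  exact hua

/-- `Good k`: the quaternion group of order 8 acts on an abelian group of order `k²` with the
central involution acting as `-1`. -/
def Good (k : ℕ) : Prop :=
  ∃ (V : Type) (_ : AddCommGroup V) (_ : Finite V) (_ : DistribMulAction (QuaternionGroup 2) V),
    Nat.card V = k * k ∧ ∀ v : V, (QuaternionGroup.a 2 : QuaternionGroup 2) • v = -v

theorem good_one : Good 1 :=
  ⟨PUnit, inferInstance, inferInstance, inferInstance, by simp, fun _ => Subsingleton.elim _ _⟩

theorem good_mul {k l : ℕ} (hk : Good k) (hl : Good l) : Good (k * l) := by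
  obtain ⟨V, iA, iF, iD, hV, hVn⟩ := hk
  obtain ⟨W, jA, jF, jD, hW, hWn⟩ := hl
  refine ⟨V × W, inferInstance, inferInstance, inferInstance, ?_, ?_⟩
  · rw [Nat.card_prod, hV, hW]
    ring
  · intro v
    apply Prod.ext
    · exact hVn v.1
    · exact hWn v.2

theorem good_prime (p : ℕ) [hp : Fact p.Prime] (hp2 : p ≠ 2) : Good p := by
  obtain ⟨α, β, hαβ⟩ := ZMod.sq_add_sq p (-1 : ZMod p)
  have h2 : (2 : ZMod p) ≠ 0 := by
    intro h
    have h3 : ((2 : ℕ) : ZMod p) = 0 := by exact_mod_cast h
    rw [ZMod.natCast_eq_zero_iff] at h3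
    exact hp2 ((Nat.prime_dvd_prime_iff_eq hp.out Nat.prime_two).mp h3)
  have h1 : (-1 : AddMonoid.End (ZMod p × ZMod p)) ≠ 1 := by
    intro h
    have h3 := congrArg (fun e : AddMonoid.End (ZMod p × ZMod p) => (e (1, 0)).1) h
    have h4 : (-1 : ZMod p) = 1 := h3
    apply h2
    linear_combination -h4
  obtain ⟨f, hf⟩ := quat_units (uEnd α β) (wEnd (ZMod p)) (uEnd_sq α β hαβ) (wEnd_sq (ZMod p))
    (uEnd_wEnd α β) h1
  refine ⟨ZMod p × ZMod p, inferInstance, inferInstance, DistribMulAction.compHom (ZMod p × ZMod p) f, ?_, ?_⟩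
  · rw [Nat.card_prod, Nat.card_zmod]
  · intro v
    show f (QuaternionGroup.a 2) • v = -v
    rw [Units.smul_def, hf]
    rfl

theorem good_odd : ∀ k : ℕ, Odd k → Good k := by
  intro k
  induction k using Nat.strong_induction_on with
  | _ k ih =>
    intro hk
    by_cases h1 : k = 1
    · rw [h1]
      exact good_one
    have hp : (k.minFac).Prime := Nat.minFac_prime h1
    have hFp : Fact (k.minFac).Prime := ⟨hp⟩
    obtain ⟨k', hk'⟩ := Nat.minFac_dvd k
    have hk0 : 0 < k := hk.pos
    have hp2 : k.minFac ≠ 2 := by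
      intro h2
      have : 2 ∣ k := h2 ▸ Nat.minFac_dvd k
      exact (Nat.not_even_iff_odd.mpr hk) (even_iff_two_dvd.mpr this)
    have hk'odd : Odd k' := by
      rw [hk'] at hk
      exact (Nat.odd_mul.mp hk).2
    have hk'lt : k' < k := by
      have h2 := hp.two_le
      have hk'pos : 0 < k' := hk'odd.pos
      calc k' < k.minFac * k' := by nlinarith
        _ = k := hk'.symm
    have := good_mul (good_prime k.minFac hp2) (ih k' hk'lt hk'odd)
    rwa [← hk'] at this

theorem quat_sq_or : ∀ h : QuaternionGroup 2, h ≠ 1 →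
    h * h = QuaternionGroup.a 2 ∨ h = QuaternionGroup.a 2 := by
  decide

/-- For a natural number m the following are equivalent: (a) some finite group has a Frobenius complement isomorphic to the quaternion group of order 8 whose Frobenius kernel (the identity together with the elements lying in no conjugate of the complement) has exactly m elements; (b) m is an odd perfect square greater than 1. -/
theorem result (m : ℕ) :
    (∃ (L : Type) (_ : Group L) (_ : Finite L) (H : Subgroup L), Cfsg.IsFrobeniusComplement H ∧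
        Nonempty (H ≃* QuaternionGroup 2) ∧ Nat.card (Cfsg.frobeniusKernel H) = m) ↔
    (Odd m ∧ IsSquare m ∧ 1 < m) := by
  constructor
  · rintro ⟨L, iG, iF, H, hH, ⟨e⟩, rfl⟩
    set i : L := ((e.symm (QuaternionGroup.a 1) : H) : L) with hi
    set j : L := ((e.symm (QuaternionGroup.xa 0) : H) : L) with hj
    have key : ∀ x y : QuaternionGroup 2, ((e.symm x : H) : L) * ((e.symm y : H) : L) = ((e.symm (x * y) : H) : L) := by
      intro x y
      rw [map_mul]
      rfl
    have hinj : ∀ x : QuaternionGroup 2, ((e.symm x : H) : L) = 1 → x = 1 := by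
      intro x hx
      have : e.symm x = 1 := Subtype.ext hx
      exact e.symm.injective (this.trans (map_one _).symm)
    have h1 : i * i ≠ 1 := by
      rw [hi, key]
      intro h
      exact absurd (hinj _ h) (by decide)
    have h2 : (i * i) * (i * i) = 1 := by
      rw [hi, key, key]
      have : (QuaternionGroup.a 1 * QuaternionGroup.a 1 * (QuaternionGroup.a 1 * QuaternionGroup.a 1) : QuaternionGroup 2) = 1 := by
        decide
      rw [this, map_one]
      rfl
    have h3 : j * j = i * i := by
      rw [hi, hj, key, key]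
      have : (QuaternionGroup.xa 0 * QuaternionGroup.xa 0 : QuaternionGroup 2) = QuaternionGroup.a 1 * QuaternionGroup.a 1 := by
        decide
      rw [this]
    have h4 : i * j = (i * i) * (j * i) := by
      rw [hi, hj, key, key, key, key]
      have : (QuaternionGroup.a 1 * QuaternionGroup.xa 0 : QuaternionGroup 2) =
          QuaternionGroup.a 1 * QuaternionGroup.a 1 * (QuaternionGroup.xa 0 * QuaternionGroup.a 1) := by
        decide
      rw [this]
    obtain ⟨hodd, hsq⟩ := frob_kernel_sq H hH i j (e.symm (QuaternionGroup.a 1)).2 h1 h2 h3 h4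
    refine ⟨hodd, hsq, ?_⟩
    have hc : Nat.card (Cfsg.frobeniusKernel H) = H.index := by
      rw [Nat.card_coe_set_eq]
      exact Cfsg.Agent.Lib.Lead.frob_kernel_ncard hH
    rw [hc]
    have h0 : H.index ≠ 0 := Subgroup.index_ne_zero_of_finite
    have h1' : H.index ≠ 1 := fun h => hH.2.1 (Subgroup.index_eq_one.mp h)
    omega
  · rintro ⟨hodd, ⟨k, rfl⟩, hlt⟩
    have hkodd : Odd k := (Nat.odd_mul.mp hodd).1
    obtain ⟨V, iA, iF, iD, hV, hVn⟩ := good_odd k hkodd
    have hVnt : Nontrivial V := by
      rw [← Finite.one_lt_card_iff_nontrivial, hV]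
      exact hlt
    have hfpf : ∀ h : QuaternionGroup 2, h ≠ 1 → ∀ v : V, h • v = v → v = 0 := by
      intro h hh v hv
      have hz : (QuaternionGroup.a 2 : QuaternionGroup 2) • v = v := by
        rcases quat_sq_or h hh with h2 | h2
        · rw [← h2, mul_smul, hv, hv]
        · rw [← h2, hv]
      rw [hVn] at hz
      have h2v : v + v = 0 := by
        nth_rw 1 [← hz]
        exact neg_add_cancel v
      obtain ⟨c, hc⟩ := hodd
      have h3 : (Nat.card V) • v = 0 := card_nsmul_eq_zero'
      rw [hV, hc] at h3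
      have h4 : (2 * c + 1) • v = c • (v + v) + v := by
        rw [add_smul, one_smul, mul_comm, mul_smul, two_smul]
      rw [h4, h2v, smul_zero, zero_add] at h3
      exact h3
    obtain ⟨L, iG, iFL, C, hC, ⟨e⟩, hcardL⟩ := exists_frobenius_of_fpf_card hfpf
    refine ⟨L, iG, iFL, C, hC, ⟨e.symm⟩, ?_⟩
    have hc : Nat.card (Cfsg.frobeniusKernel C) = C.index := by
      rw [Nat.card_coe_set_eq]
      exact Cfsg.Agent.Lib.Lead.frob_kernel_ncard hC
    rw [hc]
    have h5 := C.index_mul_card
    rw [hcardL, ← Nat.card_congr e.toEquiv, hV] at h5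
    have hpos : 0 < Nat.card (QuaternionGroup 2) := Nat.card_pos
    exact Nat.eq_of_mul_eq_mul_right hpos h5

end Cfsg.Agent.S4295
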