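import Cfsg.Statements.S4296
import Cfsg.Agent.Lib.Helper24.QuatSquare
import Cfsg.Agent.Lib.Lead.FrobComplement

set_option autoImplicit false
open Cfsg

namespace Cfsg.Agent.S4296

/-- Let H be a Frobenius complement in a finite group, and suppose some Sylow subgroup of H is not cyclic. Then the number of elements of the Frobenius kernel (the identity together with the elements lying in no conjugate of H) is an odd perfect square. -/
theorem result {L : Type*} [Group L] [Finite L] (H : Subgroup L) (hF : Cfsg.IsFrobeniusComplement H)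
    (hZ : ∃ (p : ℕ) (_ : Fact p.Prime) (P : Sylow p H), ¬ IsCyclic P) :
    Odd (Nat.card (Cfsg.frobeniusKernel H)) ∧ IsSquare (Nat.card (Cfsg.frobeniusKernel H)) := by
  classical
  obtain ⟨p, hp, P, hP⟩ := hZ
  have hp' : Fact p.Prime := hp
  set K := Cfsg.Agent.Lib.Lead.frobKer H hF with hK
  have hKn : K.Normal := Cfsg.Agent.Lib.Lead.frobKer_normal H hF
  have hK1 : K ≠ ⊥ := Cfsg.Agent.Lib.Lead.frobKer_ne_bot H hF
  have hfpf : ∀ h ∈ H, h ≠ 1 → K ⊓ Subgroup.centralizer {h} = ⊥ := by
    intro h hh h1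
    rw [eq_bot_iff]
    intro k hk
    rw [Subgroup.mem_bot]
    have hc : k * h = h * k := Subgroup.mem_centralizer_singleton_iff.mp hk.2
    exact Cfsg.Agent.Lib.Lead.frob_commute_eq_one H hF hh h1 hk.1 hc.symm
  have hPp : IsPGroup p (P : Subgroup H) := P.isPGroup'
  have hU' : Cfsg.Agent.Lib.Lead.UniqP p ((P : Subgroup H).map H.subtype) :=
    Cfsg.Agent.Lib.Lead.fpf_pgroup_uniq K hK1 p _ (hPp.map _)
      (fun h hh hh1 => hfpf h (Subgroup.map_subtype_le _ hh) hh1)
  have hU : Cfsg.Agent.Lib.Lead.UniqP p (P : Subgroup H) :=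
    Cfsg.Agent.Lib.Lead.uniqP_of_mulEquiv
      ((P : Subgroup H).equivMapOfInjective H.subtype H.subtype_injective).symm hU'
  rcases Cfsg.Agent.Lib.Lead.uniqP_cyclic_or_quaternion p hPp hU with h | ⟨_, n, ⟨e⟩⟩
  · exact absurd h hP
  · rcases Nat.eq_zero_or_pos n with hn | hn
    · exfalso
      apply hP
      subst hn
      have hc : IsCyclic (QuaternionGroup (2 ^ 0)) := by
        rw [pow_zero]
        exact QuaternionGroup.quaternionGroup_one_isCyclic
      exact isCyclic_of_surjective e.symm.toMonoidHom e.symm.surjective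
    · obtain ⟨m, rfl⟩ : ∃ m, n = m + 1 := ⟨n - 1, by omega⟩
      have h2 : NeZero (2 ^ (m + 1)) := ⟨by positivity⟩
      set i0 : QuaternionGroup (2 ^ (m + 1)) := QuaternionGroup.a ((2 ^ m : ℕ) : ZMod (2 * 2 ^ (m + 1))) with hi0
      set j0 : QuaternionGroup (2 ^ (m + 1)) := QuaternionGroup.xa 0 with hj0
      have hcast : ((2 ^ m : ℕ) : ZMod (2 * 2 ^ (m + 1))) + ((2 ^ m : ℕ) : ZMod (2 * 2 ^ (m + 1)))
          = ((2 ^ (m + 1) : ℕ) : ZMod (2 * 2 ^ (m + 1))) := by
        rw [← Nat.cast_add]
        congr 1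
        ring
      have hii : i0 * i0 = QuaternionGroup.a ((2 ^ (m + 1) : ℕ) : ZMod (2 * 2 ^ (m + 1))) := by
        rw [hi0, QuaternionGroup.a_mul_a, hcast]
      have hne : ((2 ^ (m + 1) : ℕ) : ZMod (2 * 2 ^ (m + 1))) ≠ 0 := by
        intro h0
        rw [ZMod.natCast_eq_zero_iff] at h0
        have := Nat.le_of_dvd (by positivity) h0
        have h3 : 0 < 2 ^ (m + 1) := by positivity
        omega
      have hdbl : ((2 ^ (m + 1) : ℕ) : ZMod (2 * 2 ^ (m + 1))) + ((2 ^ (m + 1) : ℕ) : ZMod (2 * 2 ^ (m + 1))) = 0 := by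
        rw [← Nat.cast_add, ZMod.natCast_eq_zero_iff]
        exact dvd_of_eq (by ring)
      have hz1 : i0 * i0 ≠ 1 := by
        rw [hii, QuaternionGroup.one_def]
        intro h
        exact hne (QuaternionGroup.a.inj h)
      have hz2 : (i0 * i0) * (i0 * i0) = 1 := by
        rw [hii, QuaternionGroup.a_mul_a, hdbl, QuaternionGroup.one_def]
      have hjj : j0 * j0 = i0 * i0 := by
        rw [hii, hj0, QuaternionGroup.xa_mul_xa]
        congr 1
        simp
      have hij : i0 * j0 = (i0 * i0) * (j0 * i0) := by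
        rw [hii, hi0, hj0, QuaternionGroup.a_mul_xa, QuaternionGroup.xa_mul_a, QuaternionGroup.a_mul_xa]
        congr 1
        rw [zero_sub, zero_add, ← hcast]
        ring
      set i : L := (((e.symm i0 : (P : Subgroup H)) : H) : L) with hi
      set j : L := (((e.symm j0 : (P : Subgroup H)) : H) : L) with hj
      have key : ∀ x y : QuaternionGroup (2 ^ (m + 1)),
          (((e.symm (x * y) : (P : Subgroup H)) : H) : L)
            = (((e.symm x : (P : Subgroup H)) : H) : L) * (((e.symm y : (P : Subgroup H)) : H) : L) := by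
        intro x y
        rw [map_mul]
        rfl
      have key1 : ∀ x : QuaternionGroup (2 ^ (m + 1)),
          (((e.symm x : (P : Subgroup H)) : H) : L) = 1 → x = 1 := by
        intro x hx
        have h1 : ((e.symm x : (P : Subgroup H)) : H) = 1 := Subtype.ext hx
        have h2 : (e.symm x : (P : Subgroup H)) = 1 := Subtype.ext h1
        exact (map_eq_one_iff e.symm e.symm.injective).mp h2
      refine Cfsg.Agent.Lib.Helper24.frob_kernel_sq H hF i j (SetLike.coe_mem _) ?_ ?_ ?_ ?_
      · rw [hi, ← key]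
        intro h
        exact hz1 (key1 _ h)
      · rw [hi, ← key, ← key, hz2, map_one]
        rfl
      · rw [hi, hj, ← key, ← key, hjj]
      · rw [hi, hj, ← key, ← key, ← key, ← key, ← hij]

end Cfsg.Agent.S4296
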