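import Cfsg.Statements.S4297
import Cfsg.Agent.S4293

set_option autoImplicit false
open Cfsg

namespace Cfsg.Agent.S4297

/-- The dicyclic group of order `4n` embeds in any group containing elements `u`, `w` with `u` of
order `2n`, `w² = uⁿ` and `u w = w u⁻¹`. -/
theorem exists_injective_hom {G : Type*} [Group G] (n : ℕ) (hn : 2 ≤ n) (u w : G)
    (hu : orderOf u = 2 * n) (hw : w * w = u ^ n) (huw : u * w = w * u⁻¹) :
    ∃ f : QuaternionGroup n →* G, Function.Injective f := by
  have hne : NeZero (2 * n) := ⟨by omega⟩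
  have hcadd : ∀ i j : ZMod (2 * n), u ^ (i + j).val = u ^ i.val * u ^ j.val := by
    intro i j
    have h := pow_mod_orderOf u (i.val + j.val)
    rw [hu] at h
    rw [ZMod.val_add, h, pow_add]
  have hcn : u ^ ((n : ZMod (2 * n))).val = u ^ n := by
    have h := pow_mod_orderOf u n
    rw [hu] at h
    rw [ZMod.val_natCast, h]
  have hc0 : ∀ i : ZMod (2 * n), u ^ i.val = 1 → i = 0 := by
    intro i hi
    have h1 := orderOf_dvd_of_pow_eq_one hi
    rw [hu] at h1
    have h2 := ZMod.val_lt i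
    have h3 : i.val = 0 := Nat.eq_zero_of_dvd_of_lt h1 h2
    exact (ZMod.val_eq_zero i).mp h3
  have hcsub : ∀ i j : ZMod (2 * n), u ^ (j - i).val = (u ^ i.val)⁻¹ * u ^ j.val := by
    intro i j
    have h := hcadd i (j - i)
    rw [add_sub_cancel] at h
    rw [h, inv_mul_cancel_left]
  have hcw : ∀ k : ℕ, u ^ k * w = w * (u ^ k)⁻¹ := by
    intro k
    induction k with
    | zero => simp
    | succ k ih =>
      rw [pow_succ, mul_assoc, huw, ← mul_assoc, ih, mul_assoc, ← mul_inv_rev, ← pow_succ']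
      rw [pow_succ]
  let f : QuaternionGroup n → G := fun x =>
    match x with
    | QuaternionGroup.a i => u ^ i.val
    | QuaternionGroup.xa i => w * u ^ i.val
  have hfa : ∀ i, f (QuaternionGroup.a i) = u ^ i.val := fun i => rfl
  have hfxa : ∀ i, f (QuaternionGroup.xa i) = w * u ^ i.val := fun i => rfl
  have hmul : ∀ x y, f (x * y) = f x * f y := by
    rintro (i | i) (j | j)
    · rw [QuaternionGroup.a_mul_a, hfa, hfa, hfa, hcadd]
    · rw [QuaternionGroup.a_mul_xa, hfa, hfxa, hfxa, hcsub, ← mul_assoc, ← mul_assoc, hcw]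
    · rw [QuaternionGroup.xa_mul_a, hfa, hfxa, hfxa, hcadd, mul_assoc]
    · rw [QuaternionGroup.xa_mul_xa, hfa, hfxa, hfxa, add_sub_assoc, hcadd, hcn, hcsub, ← hw]
      rw [mul_assoc w (u ^ i.val), ← mul_assoc (u ^ i.val), hcw]
      simp only [mul_assoc]
  refine ⟨MonoidHom.mk' f hmul, ?_⟩
  rw [injective_iff_map_eq_one]
  rintro (i | i) hx
  · have h1 : u ^ i.val = 1 := hx
    rw [hc0 i h1]
    rfl
  · exfalso
    have h1 : w * u ^ i.val = 1 := hx
    have h2 : w = (u ^ i.val)⁻¹ := eq_inv_of_mul_eq_one_left h1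
    have h3 : u * w = w * u := by
      rw [h2]
      exact ((Commute.refl u).pow_right i.val).inv_right.eq
    have h4 : u = u⁻¹ := by
      have := h3.symm.trans huw
      exact mul_left_cancel this
    have h5 : u ^ 2 = 1 := by
      rw [pow_two]
      nth_rw 2 [h4]
      exact mul_inv_cancel u
    have h6 := orderOf_dvd_of_pow_eq_one h5
    rw [hu] at h6
    have := Nat.le_of_dvd (by norm_num) h6
    omega

/-- The quaternion `j`. -/
noncomputable def qJ : Quaternion ℝ := ⟨0, 0, 1, 0⟩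

theorem qJ_re : qJ.re = 0 := rfl
theorem qJ_imI : qJ.imI = 0 := rfl
theorem qJ_imJ : qJ.imJ = 1 := rfl
theorem qJ_imK : qJ.imK = 0 := rfl

open Quaternion in
theorem qJ_mul_neg : qJ * -qJ = 1 := by
  ext <;> simp [qJ_re, qJ_imI, qJ_imJ, qJ_imK]

open Quaternion in
theorem qJ_neg_mul : -qJ * qJ = 1 := by
  ext <;> simp [qJ_re, qJ_imI, qJ_imJ, qJ_imK]

open Quaternion in
theorem qJ_mul_self : qJ * qJ = -1 := by
  ext <;> simp [qJ_re, qJ_imI, qJ_imJ, qJ_imK]

/-- The unit `j`. -/
noncomputable def unitJ : (Quaternion ℝ)ˣ :=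
  ⟨qJ, -qJ, qJ_mul_neg, qJ_neg_mul⟩

theorem ofComplex_injective : Function.Injective (Quaternion.ofComplex : ℂ → Quaternion ℝ) := by
  intro z z' h
  rw [Quaternion.coe_ofComplex] at h
  apply Complex.ext
  · have := congrArg (fun q : Quaternion ℝ => q.re) h
    simpa using this
  · have := congrArg (fun q : Quaternion ℝ => q.imI) h
    simpa using this

open Quaternion in
theorem coe_mul_J_mul_coe (z : ℂ) (hz : z.re * z.re + z.im * z.im = 1) :
    (Quaternion.ofComplex z) * qJ * (Quaternion.ofComplex z) = qJ := by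
  rw [Quaternion.coe_ofComplex]
  ext <;> simp [qJ_re, qJ_imI, qJ_imJ, qJ_imK]
  · linarith
  · ring

/-- For every n ≥ 2 the dicyclic group of order 4n (generated by an element a of order 2n and an element x with x² = aⁿ and x a x⁻¹ = a⁻¹) occurs as a Frobenius complement of some finite Frobenius group. -/
theorem result (n : ℕ) (hn : 2 ≤ n) :
    ∃ (L : Type) (_ : Group L) (_ : Finite L) (H : Subgroup L), Cfsg.IsFrobeniusComplement H ∧ Nonempty (H ≃* QuaternionGroup n) := by
  have hn0 : 2 * n ≠ 0 := by omega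
  have hζ := Complex.isPrimitiveRoot_exp (2 * n) hn0
  have hζ1 : Complex.exp (2 * Real.pi * Complex.I / (2 * n : ℕ)) ^ (2 * n) = 1 := hζ.pow_eq_one
  have hζn : Complex.exp (2 * Real.pi * Complex.I / (2 * n : ℕ)) ^ n = -1 := by
    have h1 : Complex.exp (2 * Real.pi * Complex.I / (2 * n : ℕ)) ^ n *
        Complex.exp (2 * Real.pi * Complex.I / (2 * n : ℕ)) ^ n = 1 := by
      rw [← pow_add, ← two_mul]; exact hζ1
    rcases mul_self_eq_one_iff.mp h1 with h2 | h2
    · exact absurd h2 (hζ.pow_ne_one_of_pos_of_lt (by omega) (by omega))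
    · exact h2
  have hnorm : ‖Complex.exp (2 * Real.pi * Complex.I / (2 * n : ℕ))‖ = 1 :=
    Complex.norm_eq_one_of_pow_eq_one hζ1 hn0
  have hsq : (Complex.exp (2 * Real.pi * Complex.I / (2 * n : ℕ))).re *
      (Complex.exp (2 * Real.pi * Complex.I / (2 * n : ℕ))).re +
      (Complex.exp (2 * Real.pi * Complex.I / (2 * n : ℕ))).im *
      (Complex.exp (2 * Real.pi * Complex.I / (2 * n : ℕ))).im = 1 := by
    rw [← Complex.normSq_apply, Complex.normSq_eq_norm_sq, hnorm, one_pow]
  -- the units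
  let uC : ℂˣ := (hζ.isUnit hn0).unit
  have huC : (uC : ℂ) = Complex.exp (2 * Real.pi * Complex.I / (2 * n : ℕ)) := rfl
  let ι : ℂ →* Quaternion ℝ := (Quaternion.ofComplex : ℂ →ₐ[ℝ] Quaternion ℝ)
  have hι : ∀ z : ℂ, ι z = Quaternion.ofComplex z := fun z => rfl
  have hu : orderOf (Units.map ι uC) = 2 * n := by
    rw [orderOf_injective (Units.map ι) (Units.map_injective ofComplex_injective) uC,
      ← orderOf_units, huC]
    exact hζ.eq_orderOf.symm
  have hw : unitJ * unitJ = (Units.map ι uC) ^ n := by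
    apply Units.ext
    rw [Units.val_mul, Units.val_pow_eq_pow_val, Units.coe_map, huC, ← map_pow, hζn, hι,
      map_neg, map_one]
    exact qJ_mul_self
  have huw : Units.map ι uC * unitJ = unitJ * (Units.map ι uC)⁻¹ := by
    apply eq_mul_inv_of_mul_eq
    apply Units.ext
    rw [Units.val_mul, Units.val_mul, Units.coe_map, huC, hι]
    exact coe_mul_J_mul_coe _ hsq
  obtain ⟨f, hf⟩ := exists_injective_hom n hn (Units.map ι uC) unitJ hu hw huw
  have hNZ : NeZero n := ⟨by omega⟩
  have hfin : Finite f.range := Finite.of_equiv _ (MonoidHom.ofInjective hf).toEquiv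
  have hne : f.range ≠ ⊥ := by
    intro h
    obtain ⟨x, hx⟩ := exists_ne (1 : QuaternionGroup n)
    have h1 : f x ∈ f.range := ⟨x, rfl⟩
    rw [h, Subgroup.mem_bot] at h1
    exact hx (hf (h1.trans (map_one f).symm))
  obtain ⟨L, iG, iF, K, hK, ⟨g⟩⟩ := Cfsg.Agent.S4293.result f.range hne
  exact ⟨L, iG, iF, K, hK, ⟨g.symm.trans (MonoidHom.ofInjective hf).symm⟩⟩

end Cfsg.Agent.S4297
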