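import Cfsg.Statements.S4298
import Cfsg.Agent.Lib.Helper24.FrobComplement

set_option autoImplicit false
open Cfsg

namespace Cfsg.Agent.S4298

/-- lift of residues mod 3 to residues mod 5 -/
def lift3 (x : ZMod 3) : ZMod 5 := if x = 0 then 0 else if x = 1 then 1 else 4

/-- the entries of the image matrix: `SL(2,3)` is the group of norm one quaternions over the
field with three elements, which lift to the Hurwitz units, read modulo five -/
def img (p q r s : ZMod 3) : ZMod 5 × ZMod 5 × ZMod 5 × ZMod 5 :=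
  let a := -(p + s)
  let b := r - q
  let c := p - s + q + r
  let d := p - s - q - r
  let t : ZMod 5 := if a ≠ 0 ∧ b ≠ 0 ∧ c ≠ 0 ∧ d ≠ 0 then 2 else 1
  let A := t * lift3 a
  let B := t * lift3 b
  let C := t * lift3 c
  let D := t * lift3 d
  (A + 2 * B, C + 2 * D, 2 * D - C, A + 3 * B)

set_option maxRecDepth 1000000 in
theorem img_mul : ∀ p q r s p' q' r' s' : ZMod 3, p * s - q * r = 1 → p' * s' - q' * r' = 1 →
    img (p * p' + q * r') (p * q' + q * s') (r * p' + s * r') (r * q' + s * s') =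
      ((img p q r s).1 * (img p' q' r' s').1 + (img p q r s).2.1 * (img p' q' r' s').2.2.1,
       (img p q r s).1 * (img p' q' r' s').2.1 + (img p q r s).2.1 * (img p' q' r' s').2.2.2,
       (img p q r s).2.2.1 * (img p' q' r' s').1 + (img p q r s).2.2.2 * (img p' q' r' s').2.2.1,
       (img p q r s).2.2.1 * (img p' q' r' s').2.1 + (img p q r s).2.2.2 * (img p' q' r' s').2.2.2) := by
  decide +kernel

theorem img_one : img 1 0 0 1 = (1, 0, 0, 1) := by decide +kernel

/-- non-identity elements map to matrices `M` with `M - 1` invertible -/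
theorem img_fpf : ∀ p q r s : ZMod 3, p * s - q * r = 1 →
    ¬ (p = 1 ∧ q = 0 ∧ r = 0 ∧ s = 1) →
    ((img p q r s).1 - 1) * ((img p q r s).2.2.2 - 1) - (img p q r s).2.1 * (img p q r s).2.2.1 ≠ 0 := by
  decide +kernel

abbrev G3 := Matrix.SpecialLinearGroup (Fin 2) (ZMod 3)

theorem g3_det (y : G3) : y 0 0 * y 1 1 - y 0 1 * y 1 0 = 1 := by
  have := y.det_coe
  rwa [Matrix.det_fin_two] at this

/-- the image matrix -/
def toMat (g : G3) : Matrix (Fin 2) (Fin 2) (ZMod 5) :=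
  !![(img (g 0 0) (g 0 1) (g 1 0) (g 1 1)).1, (img (g 0 0) (g 0 1) (g 1 0) (g 1 1)).2.1;
     (img (g 0 0) (g 0 1) (g 1 0) (g 1 1)).2.2.1, (img (g 0 0) (g 0 1) (g 1 0) (g 1 1)).2.2.2]

theorem toMat_one : toMat 1 = 1 := by
  have h : img ((1 : G3) 0 0) ((1 : G3) 0 1) ((1 : G3) 1 0) ((1 : G3) 1 1) = (1, 0, 0, 1) := by
    simp only [Matrix.SpecialLinearGroup.coe_one, Matrix.one_apply_eq, ne_eq, zero_ne_one,
      not_false_eq_true, Matrix.one_apply_ne, one_ne_zero]
    exact img_one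
  unfold toMat
  rw [h]
  ext i j
  fin_cases i <;> fin_cases j <;> simp

theorem toMat_mul (g h : G3) : toMat (g * h) = toMat g * toMat h := by
  have e : img ((g * h) 0 0) ((g * h) 0 1) ((g * h) 1 0) ((g * h) 1 1)
      = img (g 0 0 * h 0 0 + g 0 1 * h 1 0) (g 0 0 * h 0 1 + g 0 1 * h 1 1)
          (g 1 0 * h 0 0 + g 1 1 * h 1 0) (g 1 0 * h 0 1 + g 1 1 * h 1 1) := by
    simp [Matrix.SpecialLinearGroup.coe_mul, Matrix.mul_apply, Fin.sum_univ_two]
  have key := img_mul (g 0 0) (g 0 1) (g 1 0) (g 1 1) (h 0 0) (h 0 1) (h 1 0) (h 1 1)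
    (g3_det g) (g3_det h)
  unfold toMat
  rw [e, key]
  ext i j
  fin_cases i <;> fin_cases j <;> simp [Matrix.mul_apply, Fin.sum_univ_two]

/-- the homomorphism into the matrix ring -/
def psi : G3 →* Matrix (Fin 2) (Fin 2) (ZMod 5) where
  toFun := toMat
  map_one' := toMat_one
  map_mul' := toMat_mul

theorem g3_eq_one (g : G3) (h : g 0 0 = 1 ∧ g 0 1 = 0 ∧ g 1 0 = 0 ∧ g 1 1 = 1) : g = 1 := by
  ext i j
  fin_cases i <;> fin_cases j <;> simp [h.1, h.2.1, h.2.2.1, h.2.2.2]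

instance fact5 : Fact (Nat.Prime 5) := ⟨by norm_num⟩

theorem psi_fpf (g : G3) (hg : g ≠ 1) (v : Matrix (Fin 2) (Fin 2) (ZMod 5))
    (hv : psi g * v = v) : v = 0 := by
  have hdet : (psi g - 1).det ≠ 0 := by
    have h1 := img_fpf (g 0 0) (g 0 1) (g 1 0) (g 1 1) (g3_det g) (fun h => hg (g3_eq_one g h))
    rw [Matrix.det_fin_two]
    show (toMat g - 1) 0 0 * (toMat g - 1) 1 1 - (toMat g - 1) 0 1 * (toMat g - 1) 1 0 ≠ 0
    simpa [toMat] using h1
  have hunit : IsUnit (psi g - 1) := by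
    rw [Matrix.isUnit_iff_isUnit_det]
    exact isUnit_iff_ne_zero.mpr hdet
  have h0 : (psi g - 1) * v = 0 := by
    rw [sub_mul, one_mul, hv, sub_self]
  exact (IsUnit.mul_right_eq_zero hunit).mp h0


/-- The group SL(2,3) of order 24 (the binary tetrahedral group) occurs as a Frobenius complement of some finite Frobenius group. -/
theorem result :
    ∃ (L : Type) (_ : Group L) (_ : Finite L) (H : Subgroup L), Cfsg.IsFrobeniusComplement H ∧ Nonempty (H ≃* Matrix.SpecialLinearGroup (Fin 2) (ZMod 3)) := by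
  haveI : Nontrivial G3 := by
    refine ⟨⟨1, -1, ?_⟩⟩
    intro h
    have h1 := congrArg (fun y : G3 => y 0 0) h
    simp [Matrix.SpecialLinearGroup.coe_neg] at h1
    exact absurd h1 (by decide)
  letI act : DistribMulAction G3 (Matrix (Fin 2) (Fin 2) (ZMod 5)) :=
    DistribMulAction.compHom _ psi
  have hact : ∀ (g : G3) (v : Matrix (Fin 2) (Fin 2) (ZMod 5)), g • v = psi g * v :=
    fun g v => rfl
  obtain ⟨L, iG, iF, C, hC, ⟨e⟩⟩ :=
    Cfsg.Agent.Lib.Helper24.exists_frobenius_of_fpf (H := G3)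
      (V := Matrix (Fin 2) (Fin 2) (ZMod 5)) (by
        intro g hg v hv
        rw [hact] at hv
        exact psi_fpf g hg v hv)
  exact ⟨L, iG, iF, C, hC, ⟨e.symm⟩⟩

end Cfsg.Agent.S4298
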