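import Cfsg.Statements.S4300
-- import your own Cfsg.Agent.* helpers here

set_option autoImplicit false
open Cfsg

namespace Cfsg.Agent.S4300

/-- Let G act faithfully and primitively on a set X, and suppose the stabilizer of some point is a simple group. Then either G is simple, or G has a normal subgroup, neither trivial nor the whole group, that acts regularly on X (transitively with trivial point stabilizers). -/
theorem result {G : Type*} [Group G] {X : Type*} [MulAction G X] [FaithfulSMul G X]
    (hprim : MulAction.IsPreprimitive G X) (x : X) (hsimple : IsSimpleGroup (MulAction.stabilizer G x)) :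
    IsSimpleGroup G ∨ ∃ N : Subgroup G, N.Normal ∧ N ≠ ⊥ ∧ N ≠ ⊤ ∧
      MulAction.IsPretransitive N X ∧ ∀ y : X, MulAction.stabilizer N y = ⊥ := by
  have hntS : Nontrivial (MulAction.stabilizer G x) := hsimple.toNontrivial
  by_cases hex : ∃ N : Subgroup G, N.Normal ∧ N ≠ ⊥ ∧ N ≠ ⊤
  · right
    obtain ⟨N, hN, hbot, htop⟩ := hex
    have hfix : MulAction.fixedPoints N X ≠ Set.univ := by
      intro hfix
      apply hbot
      refine (N.eq_bot_iff_forall).mpr fun n hn => ?_
      apply FaithfulSMul.eq_of_smul_eq_smul (α := X)
      intro y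
      rw [one_smul]
      exact Set.eq_univ_iff_forall.mp hfix y ⟨n, hn⟩
    have htrans : MulAction.IsPretransitive N X :=
      MulAction.IsQuasiPreprimitive.isPretransitive_of_normal hfix
    have hGtrans : MulAction.IsPretransitive G X := hprim.toIsPretransitive
    have hnorm : (N.subgroupOf (MulAction.stabilizer G x)).Normal := hN.subgroupOf _
    refine ⟨N, hN, hbot, htop, htrans, ?_⟩
    rcases hsimple.eq_bot_or_eq_top_of_normal _ hnorm with h1 | h1
    · intro y
      obtain ⟨g, rfl⟩ := MulAction.exists_smul_eq G x y
      refine (Subgroup.eq_bot_iff_forall _).mpr ?_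
      rintro ⟨n, hn⟩ hfixn
      rw [MulAction.mem_stabilizer_iff, Subgroup.smul_def] at hfixn
      simp only at hfixn
      have h2 : g⁻¹ * n * g ∈ MulAction.stabilizer G x := by
        rw [MulAction.mem_stabilizer_iff, mul_smul, mul_smul, hfixn, inv_smul_smul]
      have h3 : (⟨g⁻¹ * n * g, h2⟩ : MulAction.stabilizer G x) ∈
          N.subgroupOf (MulAction.stabilizer G x) := by
        rw [Subgroup.mem_subgroupOf]
        have := hN.conj_mem n hn g⁻¹
        simpa using this
      rw [h1, Subgroup.mem_bot] at h3
      have h4 : g⁻¹ * n * g = 1 := congrArg Subtype.val h3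
      have h5 : n = 1 := by
        have : n = g * (g⁻¹ * n * g) * g⁻¹ := by group
        rw [this, h4]; group
      exact Subtype.ext h5
    · exfalso
      apply htop
      rw [Subgroup.subgroupOf_eq_top] at h1
      refine top_le_iff.mp fun g _ => ?_
      obtain ⟨n, hn⟩ := MulAction.exists_smul_eq N x (g • x)
      rw [Subgroup.smul_def] at hn
      have h2 : (n : G)⁻¹ * g ∈ MulAction.stabilizer G x := by
        rw [MulAction.mem_stabilizer_iff, mul_smul, ← hn, inv_smul_smul]
      have h3 := N.mul_mem n.2 (h1 h2)
      simpa using h3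
  · left
    have hnt : Nontrivial G := by
      obtain ⟨a, b, hab⟩ := hntS
      exact ⟨⟨a, b, fun h => hab (Subtype.ext h)⟩⟩
    refine IsSimpleGroup.mk (fun N hN => ?_)
    by_contra hc
    rw [not_or] at hc
    exact hex ⟨N, hN, hc.1, hc.2⟩

end Cfsg.Agent.S4300
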