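import Cfsg.Statements.S4301
import Mathlib
import Cfsg.Agent.S0709

set_option autoImplicit false
open Cfsg

namespace Cfsg.Agent.S4301

/-- One-point extension of a multiply transitive group. Let X be a set and G a group of permutations of Option X (the set X with one extra point ∗ = none) all of whose elements fix ∗, such that G is k-transitive on the points of X for some k ≥ 2, X having at least k points. Suppose a permutation h of Option X and an element g of G satisfy: h interchanges ∗ with a point x of X and fixes a point y of X; g interchanges x and y; (g h)³ and h² lie in G; and for every f in G fixing x, the product h f h lies in G and fixes x. Then an element of the group generated by G and h fixes ∗ exactly when it lies in G, and that group acts (k+1)-transitively on Option X. -/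
theorem result {X : Type*} (G : Subgroup (Equiv.Perm (Option X))) (hfix : ∀ f ∈ G, f none = none)
    (k : ℕ) (hk : 2 ≤ k) (hkX : Nonempty (Fin k ↪ X))
    (htrans : ∀ a b : Fin k ↪ X, ∃ f ∈ G, ∀ i, f (some (a i)) = some (b i))
    (h g : Equiv.Perm (Option X)) (hg : g ∈ G) (x y : X)
    (h1 : h none = some x) (h2 : h (some x) = none) (h3 : h (some y) = some y)
    (h4 : g (some x) = some y) (h5 : g (some y) = some x)
    (h6 : (g * h) ^ 3 ∈ G) (h7 : h ^ 2 ∈ G)
    (h8 : ∀ f ∈ G, f (some x) = some x → h * f * h ∈ G ∧ (h * f * h) (some x) = some x) :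
    (∀ f ∈ Subgroup.closure ((G : Set (Equiv.Perm (Option X))) ∪ {h}), f none = none ↔ f ∈ G) ∧
      MulAction.IsMultiplyPretransitive (Subgroup.closure ((G : Set (Equiv.Perm (Option X))) ∪ {h})) (Option X) (k + 1) := by
  classical
  have hxy : x ≠ y := by
    intro e
    rw [← e, h2] at h3
    exact (Option.some_ne_none x) h3.symm
  obtain ⟨e0⟩ := hkX
  have hGinj : ∀ f ∈ G, ∀ c, f c = none → c = none := by
    intro f hf c hc
    exact f.injective (hc.trans (hfix f hf).symm)
  -- embeddings with prescribed first value(s)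
  have hemb1 : ∀ v : X, ∃ a : Fin k ↪ X, a ⟨0, by omega⟩ = v := by
    intro v
    refine ⟨e0.trans (Equiv.swap (e0 ⟨0, by omega⟩) v).toEmbedding, ?_⟩
    simp
  have hemb2 : ∀ u v : X, u ≠ v → ∃ a : Fin k ↪ X, a ⟨0, by omega⟩ = u ∧ a ⟨1, by omega⟩ = v := by
    intro u v huv
    obtain ⟨a1, ha1⟩ := hemb1 u
    have hne : a1 ⟨1, by omega⟩ ≠ u := by
      intro e
      have h9 := a1.injective (e.trans ha1.symm)
      rw [Fin.mk.injEq] at h9
      omega
    refine ⟨a1.trans (Equiv.swap (a1 ⟨1, by omega⟩) v).toEmbedding, ?_, ?_⟩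
    · show Equiv.swap (a1 ⟨1, by omega⟩) v (a1 ⟨0, by omega⟩) = u
      rw [ha1]
      exact Equiv.swap_apply_of_ne_of_ne (Ne.symm hne) huv
    · show Equiv.swap (a1 ⟨1, by omega⟩) v (a1 ⟨1, by omega⟩) = v
      exact Equiv.swap_apply_left _ _
  have htr1 : ∀ u v : X, ∃ f ∈ G, f (some u) = some v := by
    intro u v
    obtain ⟨a, ha⟩ := hemb1 u
    obtain ⟨b, hb⟩ := hemb1 v
    obtain ⟨f, hf, hfab⟩ := htrans a b
    refine ⟨f, hf, ?_⟩
    have h9 := hfab ⟨0, by omega⟩
    rwa [ha, hb] at h9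
  have htr2 : ∀ u v : X, u ≠ x → v ≠ x → ∃ f ∈ G, f (some x) = some x ∧ f (some u) = some v := by
    intro u v hu hv
    obtain ⟨a, ha0, ha1⟩ := hemb2 x u (Ne.symm hu)
    obtain ⟨b, hb0, hb1⟩ := hemb2 x v (Ne.symm hv)
    obtain ⟨f, hf, hfab⟩ := htrans a b
    refine ⟨f, hf, ?_, ?_⟩
    · have h9 := hfab ⟨0, by omega⟩
      rwa [ha0, hb0] at h9
    · have h9 := hfab ⟨1, by omega⟩
      rwa [ha1, hb1] at h9
  -- double coset decomposition
  have hdc := Cfsg.Agent.S0709.double_coset G
    (G ⊓ MulAction.stabilizer (Equiv.Perm (Option X)) (some x)) (some x) g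
    (fun c => c ≠ none ∧ c ≠ some x) (fun w => Iff.rfl) hg
    (by
      rintro a b ⟨ha1, ha2⟩ ⟨hb1, hb2⟩
      obtain ⟨u, rfl⟩ := Option.ne_none_iff_exists'.mp ha1
      obtain ⟨v, rfl⟩ := Option.ne_none_iff_exists'.mp hb1
      obtain ⟨f, hf, hfx, hfu⟩ := htr2 u v (fun e => ha2 (by rw [e])) (fun e => hb2 (by rw [e]))
      exact ⟨f, ⟨hf, hfx⟩, hfu⟩)
    (by
      rw [h4]
      exact ⟨Option.some_ne_none y, fun e => hxy (Option.some.inj e).symm⟩)
    (fun w hw hwx => ⟨fun e => Option.some_ne_none x (hGinj w hw _ e), hwx⟩)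
  have hh2x : (h ^ 2) (some x) = some x := by
    rw [pow_two, Equiv.Perm.mul_apply, h2, h1]
  have hext := Cfsg.Agent.S0709.ext_lemma G
    (G ⊓ MulAction.stabilizer (Equiv.Perm (Option X)) (some x)) inf_le_left g h hg hdc
    ⟨h7, hh2x⟩
    (by
      intro d hd
      obtain ⟨hd1, hd2⟩ := h8 d hd.1 hd.2
      have e : h * d * h⁻¹ = (h * d * h) * (h ^ 2)⁻¹ := by group
      rw [e]
      refine ⟨G.mul_mem hd1 (G.inv_mem h7), ?_⟩
      show (h * d * h * (h ^ 2)⁻¹) (some x) = some x
      rw [Equiv.Perm.mul_apply, Equiv.Perm.inv_eq_iff_eq.mpr hh2x.symm, hd2])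
    h6
  have hGY : G ≤ Subgroup.closure ((G : Set (Equiv.Perm (Option X))) ∪ {h}) :=
    fun f hf => Subgroup.subset_closure (Or.inl hf)
  have hhY : h ∈ Subgroup.closure ((G : Set (Equiv.Perm (Option X))) ∪ {h}) :=
    Subgroup.subset_closure (Or.inr rfl)
  refine ⟨fun f hf => ⟨fun hfn => ?_, fun hfG => hfix f hfG⟩, ?_⟩
  · rcases hext f hf with hfG | ⟨w1, hw1, w2, hw2, rfl⟩
    · exact hfG
    · exfalso
      rw [Equiv.Perm.mul_apply, Equiv.Perm.mul_apply, hfix w2 hw2, h1] at hfn
      exact Option.some_ne_none x (hGinj w1 hw1 _ hfn)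
  · rw [MulAction.isMultiplyPretransitive_iff]
    have hto : ∀ c : Option X, ∃ f ∈ Subgroup.closure ((G : Set (Equiv.Perm (Option X))) ∪ {h}),
        f c = none := by
      intro c
      rcases Option.eq_none_or_eq_some c with rfl | ⟨v, rfl⟩
      · exact ⟨1, one_mem _, rfl⟩
      · obtain ⟨f, hf, hfv⟩ := htr1 v x
        refine ⟨h * f, mul_mem hhY (hGY hf), ?_⟩
        rw [Equiv.Perm.mul_apply, hfv, h2]
    have key : ∀ z : Fin (k + 1) ↪ Option X,
        ∃ f ∈ Subgroup.closure ((G : Set (Equiv.Perm (Option X))) ∪ {h}), ∃ a : Fin k ↪ X,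
          f (z 0) = none ∧ ∀ i : Fin k, f (z i.succ) = some (a i) := by
      intro z
      obtain ⟨f, hf, hf0⟩ := hto (z 0)
      have hex : ∀ i : Fin k, ∃ v : X, f (z i.succ) = some v := by
        intro i
        apply Option.ne_none_iff_exists'.mp
        intro e
        have h9 := z.injective (f.injective (e.trans hf0.symm))
        exact Fin.succ_ne_zero i h9
      choose a ha using hex
      refine ⟨f, hf, ⟨a, ?_⟩, hf0, ha⟩
      intro i j hij
      have h9 : f (z i.succ) = f (z j.succ) := by rw [ha i, ha j, hij]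
      exact Fin.succ_injective _ (z.injective (f.injective h9))
    intro z1 z2
    obtain ⟨f1, hf1, a1, h10, h1s⟩ := key z1
    obtain ⟨f2, hf2, a2, h20, h2s⟩ := key z2
    obtain ⟨f, hf, hfa⟩ := htrans a1 a2
    refine ⟨⟨f2⁻¹ * f * f1, mul_mem (mul_mem (inv_mem hf2) (hGY hf)) hf1⟩, ?_⟩
    apply Function.Embedding.ext
    intro i
    show (f2⁻¹ * f * f1) (z1 i) = z2 i
    rw [Equiv.Perm.mul_apply, Equiv.Perm.mul_apply, Equiv.Perm.inv_eq_iff_eq]
    rcases Fin.eq_zero_or_eq_succ i with rfl | ⟨j, rfl⟩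
    · rw [h10, h20, hfix f hf]
    · rw [h1s, h2s, hfa]

end Cfsg.Agent.S4301
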