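import Cfsg.Statements.S4302
import Mathlib
import Cfsg.Agent.Lib.Helper6.FFS3
import Cfsg.Agent.Lib.Helper17.ThA1
import Cfsg.Agent.Lib.Helper17.SylowNormal
import Cfsg.Agent.Lib.Helper17.PCore
import Cfsg.Agent.Lib.Helper10.Comp
import Cfsg.Agent.Lib.Helper1.SZ

set_option autoImplicit false
open Cfsg

namespace Cfsg.Agent.S4302

universe u

/-- Finite solvable groups are `p`-solvable. -/
theorem psolv_of_solv (p : ℕ) (hp : p.Prime) : ∀ (n : ℕ) (G : Type u) [Group G] [Finite G],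
    Group.IsSolvable G → Nat.card G = n → IsPSolvable p G := by
  intro n
  induction n using Nat.strong_induction_on with
  | _ n ih =>
    intro G _ _ hsol hcard
    by_cases htriv : Subsingleton G
    · refine ⟨0, fun _ => ⊥, rfl, Subsingleton.elim _ _, fun _ _ _ => le_refl _,
        fun _ => Subgroup.normal_bot, fun i => i.elim0⟩
    · rw [not_subsingleton_iff_nontrivial] at htriv
      have hsol' : Group.IsSolvable G := hsol
      obtain ⟨q, hq, Q, hQn, hQne, hQp⟩ := Cfsg.Agent.Lib.Helper1.exists_normal_pgroup G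
      have hQcard : 1 < Nat.card Q := by
        rw [Finite.one_lt_card_iff_nontrivial]
        exact (Subgroup.nontrivial_iff_ne_bot Q).mpr hQne
      have hlt : Nat.card (G ⧸ Q) < n := by
        rw [← hcard, Subgroup.card_eq_card_quotient_mul_card_subgroup Q]
        have hpos : 0 < Nat.card (G ⧸ Q) := Nat.card_pos
        nlinarith
      have hsolq : Group.IsSolvable (G ⧸ Q) :=
        Group.isSolvable_of_surjective (QuotientGroup.mk'_surjective Q)
      obtain ⟨m, H, h0, hl, hm, hn, hfac⟩ := ih _ hlt (G ⧸ Q) hsolq rfl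
      refine ⟨m + 1, Fin.cons ⊥ (fun i => (H i).comap (QuotientGroup.mk' Q)), ?_, ?_, ?_, ?_, ?_⟩
      · rfl
      · rw [← Fin.succ_last, Fin.cons_succ, hl, Subgroup.comap_top]
      · rw [Fin.monotone_iff_le_succ]
        intro i
        refine Fin.cases ?_ ?_ i
        · rw [Fin.castSucc_zero, Fin.cons_zero]
          exact bot_le
        · intro j
          rw [← Fin.succ_castSucc, Fin.cons_succ, Fin.cons_succ]
          exact Subgroup.comap_mono (hm (Fin.castSucc_lt_succ (i := j)).le)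
      · intro i
        refine Fin.cases ?_ ?_ i
        · rw [Fin.cons_zero]; exact Subgroup.normal_bot
        · intro j
          rw [Fin.cons_succ]
          exact (hn j).comap _
      · intro i
        refine Fin.cases ?_ ?_ i
        · rw [Fin.castSucc_zero, Fin.cons_zero, Fin.cons_succ, h0, Subgroup.relIndex_bot_left]
          have hker : Nat.card ((⊥ : Subgroup (G ⧸ Q)).comap (QuotientGroup.mk' Q)) = Nat.card Q := by
            have : (⊥ : Subgroup (G ⧸ Q)).comap (QuotientGroup.mk' Q) = Q := by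
              rw [MonoidHom.comap_bot, QuotientGroup.ker_mk']
            rw [this]
          rw [hker]
          have hqf : Fact q.Prime := ⟨hq⟩
          obtain ⟨k, hk⟩ := IsPGroup.iff_card.mp hQp
          by_cases hqp : q = p
          · left; exact ⟨k, by rw [hk, hqp]⟩
          · right
            rw [hk]
            exact Nat.Coprime.pow_left k ((Nat.coprime_primes hq hp).mpr hqp)
        · intro j
          rw [← Fin.succ_castSucc, Fin.cons_succ, Fin.cons_succ, Subgroup.relIndex_comap,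
            Subgroup.map_comap_eq_self_of_surjective (QuotientGroup.mk'_surjective Q)]
          exact hfac j

/-- An element of odd order centralizing the involutions of an abelian normal `2`-subgroup
centralizes the subgroup. -/
theorem odd_centralizes {X : Type u} [Group X] (V V₁ : Subgroup X) (hVn : V.Normal)
    (hVc : ∀ a ∈ V, ∀ b ∈ V, a * b = b * a) (hV₁ : ∀ v, v ∈ V₁ ↔ v ∈ V ∧ v ^ 2 = 1)
    (hV2 : ∀ v ∈ V, ∃ j : ℕ, v ^ 2 ^ j = 1) (g : X)
    (hg : g ∈ Subgroup.centralizer (V₁ : Set X)) (m : ℕ) (hm : Odd m) (hgm : g ^ m = 1) :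
    g ∈ Subgroup.centralizer (V : Set X) := by
  have key : ∀ j : ℕ, ∀ v ∈ V, v ^ 2 ^ j = 1 → g * v * g⁻¹ = v := by
    intro j
    induction j with
    | zero =>
      intro v _ hv
      rw [pow_zero, pow_one] at hv
      rw [hv]
      group
    | succ j ih =>
      intro v hv hvj
      have hu : g * v ^ 2 * g⁻¹ = v ^ 2 := by
        apply ih (v ^ 2) (V.pow_mem hv 2)
        rw [← pow_mul, ← pow_succ']
        exact hvj
      obtain ⟨w, hwdef⟩ : ∃ w, w = v⁻¹ * (g * v * g⁻¹) := ⟨_, rfl⟩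
      have hgv : g * v * g⁻¹ ∈ V := hVn.conj_mem v hv g
      have hwV : w ∈ V := hwdef ▸ V.mul_mem (V.inv_mem hv) hgv
      have hw2 : w ^ 2 = 1 := by
        have h1 : (g * v * g⁻¹) * v⁻¹ = v⁻¹ * (g * v * g⁻¹) := hVc _ hgv _ (V.inv_mem hv)
        have h2 : (g * v * g⁻¹) * (g * v * g⁻¹) = v * v := by
          have h3 : (g * v * g⁻¹) * (g * v * g⁻¹) = g * v ^ 2 * g⁻¹ := by
            rw [pow_two]
            group
          rw [h3, hu, pow_two]
        calc w ^ 2 = v⁻¹ * ((g * v * g⁻¹) * v⁻¹) * (g * v * g⁻¹) := by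
              rw [hwdef, pow_two]
              group
          _ = v⁻¹ * (v⁻¹ * (g * v * g⁻¹)) * (g * v * g⁻¹) := by rw [h1]
          _ = v⁻¹ * v⁻¹ * ((g * v * g⁻¹) * (g * v * g⁻¹)) := by group
          _ = v⁻¹ * v⁻¹ * (v * v) := by rw [h2]
          _ = 1 := by group
      have hw₁ : w ∈ V₁ := (hV₁ w).mpr ⟨hwV, hw2⟩
      have hgw : g * w * g⁻¹ = w := by
        have h1 : w * g = g * w := Subgroup.mem_centralizer_iff.mp hg w hw₁
        rw [← h1]
        group
      have hgvw : g * v * g⁻¹ = v * w := by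
        rw [hwdef]
        group
      have hpow : ∀ n : ℕ, g ^ n * v * (g ^ n)⁻¹ = v * w ^ n := by
        intro n
        induction n with
        | zero => simp
        | succ n ihn =>
          calc g ^ (n + 1) * v * (g ^ (n + 1))⁻¹ = g * (g ^ n * v * (g ^ n)⁻¹) * g⁻¹ := by
                rw [pow_succ']
                group
            _ = g * (v * w ^ n) * g⁻¹ := by rw [ihn]
            _ = (g * v * g⁻¹) * (g * w * g⁻¹) ^ n := by
                rw [conj_pow]
                group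
            _ = v * w * w ^ n := by rw [hgvw, hgw]
            _ = v * w ^ (n + 1) := by rw [pow_succ', mul_assoc]
      have h5 := hpow m
      rw [hgm] at h5
      have h6 : w ^ m = 1 := by
        have h7 : v = v * w ^ m := by
          rw [← h5]
          group
        calc w ^ m = v⁻¹ * (v * w ^ m) := by group
          _ = v⁻¹ * v := by rw [← h7]
          _ = 1 := by group
      obtain ⟨t, rfl⟩ := hm
      have h8 : w = 1 := by
        rw [pow_succ, pow_mul, hw2, one_pow, one_mul] at h6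
        exact h6
      rw [hgvw, h8, mul_one]
  rw [Subgroup.mem_centralizer_iff]
  intro v hv
  obtain ⟨j, hj⟩ := hV2 v hv
  have h1 := key j v hv hj
  calc v * g = (g * v * g⁻¹) * g := by rw [h1]
    _ = g * v := by group

/-- Let `X` be a finite solvable group whose Fitting subgroup is a 2-group (equivalently `F(X) = O₂(X)`), `T` a Sylow 2-subgroup of `X`, `J(T)` the subgroup generated by the abelian subgroups of `T` of largest order, `C` the largest normal subgroup of `X` centralizing the centre `Z(T)`, and `Y` the normal closure of `J(T)` in `X`. Then `X = C · Y · N_X(J(T))`, and either `Y ≤ C`, or `CY/C` is isomorphic to a direct product of at least one copy of the symmetric group of degree 3. -/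
theorem result {X : Type*} [Group X] [Finite X]
    [Group.IsSolvable X] (hF : Cfsg.fittingSubgroup X = Cfsg.pCore 2 X) (T : Sylow 2 X) :
    ((Subgroup.centralizer (((T : Subgroup X) ⊓ Subgroup.centralizer ((T : Subgroup X) : Set X) : Subgroup X) : Set X)).normalCore
        ⊔ Subgroup.normalClosure (Cfsg.thompsonSubgroupAOf (T : Subgroup X) : Set X)
        ⊔ Subgroup.normalizer (Cfsg.thompsonSubgroupAOf (T : Subgroup X) : Set X) = ⊤) ∧
    (Subgroup.normalClosure (Cfsg.thompsonSubgroupAOf (T : Subgroup X) : Set X)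
        ≤ (Subgroup.centralizer (((T : Subgroup X) ⊓ Subgroup.centralizer ((T : Subgroup X) : Set X) : Subgroup X) : Set X)).normalCore
      ∨ ∃ n : ℕ, 1 ≤ n ∧
        Nonempty (↥(Subgroup.normalClosure (Cfsg.thompsonSubgroupAOf (T : Subgroup X) : Set X)) ⧸
            ((Subgroup.centralizer (((T : Subgroup X) ⊓ Subgroup.centralizer ((T : Subgroup X) : Set X) : Subgroup X) : Set X)).normalCore).subgroupOf
              (Subgroup.normalClosure (Cfsg.thompsonSubgroupAOf (T : Subgroup X) : Set X))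
          ≃* (Fin n → Equiv.Perm (Fin 3)))) := by
  classical
  have hp2 : Fact (Nat.Prime 2) := ⟨Nat.prime_two⟩
  obtain ⟨Z, hZdef⟩ : ∃ Z : Subgroup X, Z = (T : Subgroup X) ⊓
      Subgroup.centralizer ((T : Subgroup X) : Set X) := ⟨_, rfl⟩
  obtain ⟨JA, hJAdef⟩ : ∃ JA : Subgroup X, JA = Cfsg.thompsonSubgroupAOf (T : Subgroup X) :=
    ⟨_, rfl⟩
  obtain ⟨Y, hYdef⟩ : ∃ Y : Subgroup X, Y = Subgroup.normalClosure (JA : Set X) := ⟨_, rfl⟩
  obtain ⟨C, hCdef⟩ : ∃ C : Subgroup X, C = (Subgroup.centralizer (Z : Set X)).normalCore :=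
    ⟨_, rfl⟩
  rw [← hZdef, ← hJAdef, ← hYdef]
  have hYn : Y.Normal := by
    rw [hYdef]
    exact Subgroup.normalClosure_normal
  have hCn : C.Normal := by
    rw [hCdef]
    exact Subgroup.normalCore_normal _
  have hJAY : JA ≤ Y := by
    rw [hYdef]
    exact Subgroup.le_normalClosure
  -- the Frattini argument
  have claim1 : C ⊔ Y ⊔ Subgroup.normalizer (JA : Set X) = ⊤ := by
    rw [eq_top_iff]
    intro g _
    obtain ⟨a, ha, c, hc, rfl⟩ := Cfsg.Agent.Lib.Helper17.frattini_sylow_inf_normal T Y g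
    have h1 : Cfsg.thompsonSubgroupAOf (T : Subgroup X) =
        Cfsg.thompsonSubgroupAOf ((T : Subgroup X) ⊓ Y) :=
      Cfsg.Agent.Lib.Helper17.thompsonSubgroupAOf_eq_of_le inf_le_left
        (fun A hA => le_inf hA.1
          ((Cfsg.Agent.Lib.Helper17.le_thompsonSubgroupAOf hA).trans (hJAdef ▸ hJAY)))
    have h2 : a ∈ Subgroup.normalizer (JA : Set X) := by
      rw [hJAdef, h1]
      exact Cfsg.Agent.Lib.Helper17.normalizer_le_normalizer_thompsonSubgroupAOf _ ha
    exact Subgroup.mul_mem _ (Subgroup.mem_sup_right h2)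
      (Subgroup.mem_sup_left (Subgroup.mem_sup_right hc))
  refine ⟨hCdef ▸ claim1, ?_⟩
  by_cases hYC : Y ≤ C
  · exact Or.inl (hCdef ▸ hYC)
  right
  -- the `2`-core
  have hQn : (Cfsg.pCore 2 X).Normal := Cfsg.Agent.Lib.Helper17.pCore_normal
  have hCQ : Subgroup.centralizer (Cfsg.pCore 2 X : Set X) ≤ Cfsg.pCore 2 X := by
    have h1 := Cfsg.Agent.Lib.Helper10.subnormal_solvable_le_fitting_of_le_centralizer
      (Subgroup.centralizer (Cfsg.pCore 2 X : Set X)) (Subgroup.Normal.isSubnormal inferInstance)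
      (le_of_eq (by rw [hF])) inferInstance
    rwa [hF] at h1
  have hQT : Cfsg.pCore 2 X ≤ (T : Subgroup X) := Cfsg.Agent.Lib.Helper17.pCore_le_sylow T
  have hQp : IsPGroup 2 ↥(Cfsg.pCore 2 X) := Cfsg.Agent.Lib.Helper17.pCore_isPGroup
  obtain ⟨ZP, hZPdef⟩ : ∃ ZP : Subgroup X, ZP = Cfsg.pCore 2 X ⊓
      Subgroup.centralizer (Cfsg.pCore 2 X : Set X) := ⟨_, rfl⟩
  have hZPn : ZP.Normal := by
    rw [hZPdef]
    infer_instance
  have hZPc : ∀ a ∈ ZP, ∀ b ∈ ZP, a * b = b * a := by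
    intro a ha b hb
    rw [hZPdef] at ha hb
    exact Subgroup.mem_centralizer_iff.mp hb.2 a ha.1
  have hZZP : Z ≤ ZP := by
    intro z hz
    rw [hZdef] at hz
    have hzC : z ∈ Subgroup.centralizer (Cfsg.pCore 2 X : Set X) :=
      Subgroup.centralizer_le hQT hz.2
    rw [hZPdef]
    exact ⟨hCQ hzC, hzC⟩
  obtain ⟨V, hVdef⟩ : ∃ V : Subgroup X, V = Subgroup.normalClosure (Z : Set X) := ⟨_, rfl⟩
  have hVn : V.Normal := by
    rw [hVdef]
    exact Subgroup.normalClosure_normal
  have hZV : Z ≤ V := by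
    rw [hVdef]
    exact Subgroup.le_normalClosure
  have hVZP : V ≤ ZP := by
    rw [hVdef]
    exact Subgroup.normalClosure_le_normal hZZP
  have hVc : ∀ a ∈ V, ∀ b ∈ V, a * b = b * a := fun a ha b hb => hZPc a (hVZP ha) b (hVZP hb)
  have hV2 : IsPGroup 2 ↥V := hQp.to_le (hVZP.trans (hZPdef ▸ inf_le_left))
  -- `C` is the centralizer of `V`
  have hCV : C = Subgroup.centralizer (V : Set X) := by
    rw [hCdef]
    apply le_antisymm
    · intro c hc
      have hc' : ∀ b : X, b * c * b⁻¹ ∈ Subgroup.centralizer (Z : Set X) := hc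
      have h1 : V ≤ Subgroup.centralizer ((Subgroup.zpowers c : Subgroup X) : Set X) := by
        rw [hVdef]
        unfold Subgroup.normalClosure
        rw [Subgroup.closure_le]
        intro y hy
        obtain ⟨z, hz, hzy⟩ := Group.mem_conjugatesOfSet_iff.mp hy
        obtain ⟨g, rfl⟩ := isConj_iff.mp hzy
        have h2 := Subgroup.mem_centralizer_iff.mp (hc' g⁻¹) z hz
        have h3 : Commute (g * z * g⁻¹) c := by
          show g * z * g⁻¹ * c = c * (g * z * g⁻¹)
          calc g * z * g⁻¹ * c = g * (z * (g⁻¹ * c * g⁻¹⁻¹)) * g⁻¹ := by group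
            _ = g * ((g⁻¹ * c * g⁻¹⁻¹) * z) * g⁻¹ := by rw [h2]
            _ = c * (g * z * g⁻¹) := by group
        rw [SetLike.mem_coe, Subgroup.mem_centralizer_iff]
        intro w hw
        obtain ⟨k, rfl⟩ := Subgroup.mem_zpowers_iff.mp hw
        exact (h3.zpow_right k).eq.symm
      exact Subgroup.le_centralizer_iff.mp h1 (Subgroup.mem_zpowers c)
    · exact Subgroup.normal_le_normalCore.mpr (Subgroup.centralizer_le hZV)
  -- no normal `2`-subgroups modulo the centralizer of `V`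
  have hVminV : ∀ D : Subgroup X, D.Normal → Subgroup.centralizer (V : Set X) ≤ D →
      (∃ k : ℕ, (Subgroup.centralizer (V : Set X)).relIndex D = 2 ^ k) →
      D = Subgroup.centralizer (V : Set X) := by
    intro D hDn hCD hk
    obtain ⟨k, hk⟩ := hk
    apply le_antisymm _ hCD
    have hsup : D ≤ Subgroup.centralizer (V : Set X) ⊔ ((T : Subgroup X) ⊓ D) := by
      rw [← Subgroup.relIndex_eq_one]
      have h1 : (Subgroup.centralizer (V : Set X) ⊔ ((T : Subgroup X) ⊓ D)).relIndex D ∣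
          (Subgroup.centralizer (V : Set X)).relIndex D :=
        Subgroup.relIndex_dvd_of_le_left D le_sup_left
      have h2 : (Subgroup.centralizer (V : Set X) ⊔ ((T : Subgroup X) ⊓ D)).relIndex D ∣
          ((T : Subgroup X) ⊓ D).relIndex D :=
        Subgroup.relIndex_dvd_of_le_left D le_sup_right
      have h3 : (((T : Subgroup X) ⊓ D).relIndex D).Coprime 2 := by
        have h4 := Cfsg.Agent.Lib.Helper6.relIndex_mul_card_of_le
          (inf_le_right : (T : Subgroup X) ⊓ D ≤ D)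
        rw [Cfsg.Agent.Lib.Helper17.card_sylow_inf_normal T D] at h4
        have h5 : ((T : Subgroup X) ⊓ D).relIndex D =
            Nat.card D / 2 ^ (Nat.card D).factorization 2 :=
          (Nat.div_eq_of_eq_mul_left (pow_pos (by norm_num) _) h4.symm).symm
        rw [h5]
        exact (Nat.coprime_ordCompl Nat.prime_two Nat.card_pos.ne').symm
      rw [hk] at h1
      exact Nat.Coprime.eq_one_of_dvd ((Nat.Coprime.coprime_dvd_left h2 h3).pow_right k) h1
    have hDZ : D ≤ Subgroup.centralizer (Z : Set X) := by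
      refine hsup.trans (sup_le (Subgroup.centralizer_le hZV) ?_)
      intro x hx
      rw [Subgroup.mem_centralizer_iff]
      intro z hz
      rw [hZdef] at hz
      exact (Subgroup.mem_centralizer_iff.mp hz.2 x hx.1).symm
    have h6 : D ≤ (Subgroup.centralizer (Z : Set X)).normalCore :=
      Subgroup.normal_le_normalCore.mpr hDZ
    rw [← hCdef, hCV] at h6
    exact h6
  -- the involutions of `V`
  obtain ⟨V₁, hV₁mem⟩ : ∃ V₁ : Subgroup X, ∀ v, v ∈ V₁ ↔ v ∈ V ∧ v ^ 2 = 1 := by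
    refine ⟨
      { carrier := {v | v ∈ V ∧ v ^ 2 = 1}
        mul_mem' := ?_
        one_mem' := ⟨V.one_mem, one_pow 2⟩
        inv_mem' := ?_ }, fun v => Iff.rfl⟩
    · rintro a b ⟨ha, ha2⟩ ⟨hb, hb2⟩
      refine ⟨V.mul_mem ha hb, ?_⟩
      have h1 : Commute a b := hVc a ha b hb
      rw [h1.mul_pow, ha2, hb2, one_mul]
    · rintro a ⟨ha, ha2⟩
      exact ⟨V.inv_mem ha, by rw [inv_pow, ha2, inv_one]⟩
  have hV₁V : V₁ ≤ V := fun v hv => ((hV₁mem v).mp hv).1
  have hV₁n : V₁.Normal := by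
    constructor
    intro v hv g
    obtain ⟨h1, h2⟩ := (hV₁mem v).mp hv
    exact (hV₁mem _).mpr ⟨hVn.conj_mem v h1 g, by rw [conj_pow, h2]; group⟩
  have hV₁ea : Cfsg.IsElementaryAbelian 2 V₁ := by
    refine ⟨⟨⟨?_⟩⟩, fun v hv => ((hV₁mem v).mp hv).2⟩
    rintro ⟨a, ha⟩ ⟨b, hb⟩
    apply Subtype.ext
    exact hVc a (hV₁V ha) b (hV₁V hb)
  have hV₁2 : IsPGroup 2 ↥V₁ := hV2.to_le hV₁V
  have hVpow : ∀ v ∈ V, ∃ j : ℕ, v ^ 2 ^ j = 1 := by
    intro v hv
    obtain ⟨j, hj⟩ := hV2 ⟨v, hv⟩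
    exact ⟨j, congrArg Subtype.val hj⟩
  have hCV₁ : Subgroup.centralizer (V₁ : Set X) = Subgroup.centralizer (V : Set X) := by
    apply hVminV _ inferInstance (Subgroup.centralizer_le hV₁V)
    have hpg : IsPGroup 2 (↥(Subgroup.centralizer (V₁ : Set X)) ⧸
        (Subgroup.centralizer (V : Set X)).subgroupOf (Subgroup.centralizer (V₁ : Set X))) := by
      intro q
      induction q using QuotientGroup.induction_on with
      | H d =>
        obtain ⟨k, m, hm, hkm⟩ := Nat.exists_eq_two_pow_mul_odd (orderOf_pos (d : X)).ne'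
        refine ⟨k, ?_⟩
        rw [← QuotientGroup.mk_pow, QuotientGroup.eq_one_iff, Subgroup.mem_subgroupOf]
        have h1 : ((d : X) ^ 2 ^ k) ^ m = 1 := by
          rw [← pow_mul, ← hkm]
          exact pow_orderOf_eq_one _
        have h2 : (d : X) ^ 2 ^ k ∈ Subgroup.centralizer (V₁ : Set X) :=
          Subgroup.pow_mem _ d.2 _
        exact odd_centralizes V V₁ hVn hVc hV₁mem hVpow _ h2 m hm h1
    obtain ⟨k, hk⟩ := IsPGroup.iff_card.mp hpg
    refine ⟨k, ?_⟩
    rw [← hk]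
    exact Subgroup.index_eq_card _
  have hVmin₁ : ∀ D : Subgroup X, D.Normal → Subgroup.centralizer (V₁ : Set X) ≤ D →
      (∃ k : ℕ, (Subgroup.centralizer (V₁ : Set X)).relIndex D = 2 ^ k) →
      D = Subgroup.centralizer (V₁ : Set X) := by
    rw [hCV₁]
    exact hVminV
  have hsep : Cfsg.IsPSolvable 2 X :=
    psolv_of_solv 2 Nat.prime_two (Nat.card X) X inferInstance rfl
  -- the abelian `2`-subgroups of largest order
  obtain ⟨A₀, hA₀⟩ := Cfsg.Agent.Lib.Helper17.maxAb_nonempty (T : Subgroup X)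
  obtain ⟨𝒜, h𝒜⟩ : ∃ 𝒜 : Set (Subgroup X), ∀ A, A ∈ 𝒜 ↔ (IsPGroup 2 ↥A ∧
      (∀ a ∈ A, ∀ b ∈ A, a * b = b * a) ∧ Nat.card A = Nat.card A₀) :=
    ⟨{A | IsPGroup 2 ↥A ∧ (∀ a ∈ A, ∀ b ∈ A, a * b = b * a) ∧ Nat.card A = Nat.card A₀},
      fun A => Iff.rfl⟩
  have hconjT : ∀ B : Subgroup X, IsPGroup 2 ↥B → ∃ g : X,
      B.map (MulAut.conj g).toMonoidHom ≤ (T : Subgroup X) := by
    intro B hB2
    obtain ⟨P, hBP⟩ := hB2.exists_le_sylow
    obtain ⟨g, hg⟩ := MulAction.exists_smul_eq X P T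
    refine ⟨g, ?_⟩
    rintro _ ⟨b, hb, rfl⟩
    rw [← hg, Sylow.coe_subgroup_smul]
    exact Subgroup.smul_mem_pointwise_smul _ _ _ (hBP hb)
  have hmapc : ∀ (B : Subgroup X) (g : X), (∀ a ∈ B, ∀ b ∈ B, a * b = b * a) →
      ∀ a ∈ B.map (MulAut.conj g).toMonoidHom, ∀ b ∈ B.map (MulAut.conj g).toMonoidHom,
        a * b = b * a := by
    rintro B g hBc _ ⟨a, ha, rfl⟩ _ ⟨b, hb, rfl⟩
    rw [← map_mul, ← map_mul, hBc a ha b hb]
  have hbound : ∀ B : Subgroup X, IsPGroup 2 ↥B → (∀ a ∈ B, ∀ b ∈ B, a * b = b * a) →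
      Nat.card B ≤ Nat.card A₀ := by
    intro B hB2 hBc
    obtain ⟨g, hg⟩ := hconjT B hB2
    have h1 := hA₀.2.2 _ hg (hmapc B g hBc)
    rwa [Subgroup.card_map_of_injective (MulAut.conj g).injective] at h1
  have hYsup : Y = sSup 𝒜 := by
    apply le_antisymm
    · have hn : (sSup 𝒜).Normal := by
        constructor
        intro x hx g
        have hle : sSup 𝒜 ≤ (sSup 𝒜).comap (MulAut.conj g).toMonoidHom := by
          apply sSup_le
          intro A hA
          rw [← Subgroup.map_le_iff_le_comap]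
          apply le_sSup
          obtain ⟨hA2, hAc, hAcard⟩ := (h𝒜 A).mp hA
          exact (h𝒜 _).mpr ⟨hA2.map _, hmapc A g hAc,
            by rw [Subgroup.card_map_of_injective (MulAut.conj g).injective]; exact hAcard⟩
        exact hle hx
      have hJA𝒜 : JA ≤ sSup 𝒜 := by
        rw [hJAdef, Cfsg.Agent.Lib.Helper17.thompsonSubgroupAOf_eq_sSup]
        apply sSup_le
        intro A hA
        apply le_sSup
        exact (h𝒜 A).mpr ⟨T.isPGroup'.to_le hA.1, hA.2.1,
          le_antisymm (hA₀.2.2 A hA.1 hA.2.1) (hA.2.2 A₀ hA₀.1 hA₀.2.1)⟩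
      rw [hYdef]
      exact Subgroup.normalClosure_le_normal hJA𝒜
    · apply sSup_le
      intro A hA
      obtain ⟨hA2, hAc, hAcard⟩ := (h𝒜 A).mp hA
      obtain ⟨g, hg⟩ := hconjT A hA2
      have hA'max : A.map (MulAut.conj g).toMonoidHom ∈
          Cfsg.Agent.Lib.Helper17.maxAb (T : Subgroup X) := by
        refine ⟨hg, hmapc A g hAc, fun B hBT hBc => ?_⟩
        rw [Subgroup.card_map_of_injective (MulAut.conj g).injective, hAcard]
        exact hA₀.2.2 B hBT hBc
      have hA'Y : A.map (MulAut.conj g).toMonoidHom ≤ Y :=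
        (Cfsg.Agent.Lib.Helper17.le_thompsonSubgroupAOf hA'max).trans (hJAdef ▸ hJAY)
      intro a ha
      have h1 : g * a * g⁻¹ ∈ Y := hA'Y ⟨a, ha, rfl⟩
      have h2 := hYn.conj_mem _ h1 g⁻¹
      have h3 : g⁻¹ * (g * a * g⁻¹) * g⁻¹⁻¹ = a := by group
      rwa [h3] at h2
  have hoff : ∀ A ∈ 𝒜, IsPGroup 2 ↥A ∧ (∀ a ∈ A, ∀ b ∈ A, a * b = b * a) ∧
      Cfsg.Agent.Lib.Helper6.FFS3.NumBest V₁ A := by
    intro A hA
    obtain ⟨hA2, hAc, hAcard⟩ := (h𝒜 A).mp hA
    refine ⟨hA2, hAc, ?_⟩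
    intro B hBA
    have hBc : ∀ a ∈ B, ∀ b ∈ B, a * b = b * a := fun a ha b hb => hAc a (hBA ha) b (hBA hb)
    have hB2 : IsPGroup 2 ↥B := hA2.to_le hBA
    have hcomm : ∀ b ∈ B, ∀ d ∈ V₁ ⊓ Subgroup.centralizer (B : Set X), b * d = d * b := by
      intro b hb d hd
      exact Subgroup.mem_centralizer_iff.mp hd.2 b hb
    have hKc : ∀ x ∈ B ⊔ (V₁ ⊓ Subgroup.centralizer (B : Set X)),
        ∀ y ∈ B ⊔ (V₁ ⊓ Subgroup.centralizer (B : Set X)), x * y = y * x := by
      intro x hx y hy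
      obtain ⟨b, hb, d, hd, rfl⟩ := Cfsg.Agent.Lib.Helper6.BestOff.mem_sup_comm hcomm hx
      obtain ⟨b', hb', d', hd', rfl⟩ := Cfsg.Agent.Lib.Helper6.BestOff.mem_sup_comm hcomm hy
      have c1 : Commute b b' := hBc b hb b' hb'
      have c2 : Commute b d' := hcomm b hb d' hd'
      have c3 : Commute d b' := (hcomm b' hb' d hd).symm
      have c4 : Commute d d' := hVc d (hV₁V hd.1) d' (hV₁V hd'.1)
      exact ((c1.mul_right c2).mul_left (c3.mul_right c4)).eq
    have hK2 : IsPGroup 2 ↥(B ⊔ (V₁ ⊓ Subgroup.centralizer (B : Set X))) :=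
      (hB2.to_sup_of_normal_right hV₁2).to_le (sup_le_sup_left inf_le_left B)
    have h1 := hbound _ hK2 hKc
    rw [← hAcard] at h1
    have h2 := Cfsg.Agent.Lib.Helper6.card_mul_card_le_sup_mul_inf B
      (V₁ ⊓ Subgroup.centralizer (B : Set X))
    have h3 : B ⊓ (V₁ ⊓ Subgroup.centralizer (B : Set X)) ≤
        V₁ ⊓ Subgroup.centralizer (A : Set X) := by
      intro x hx
      refine ⟨hx.2.1, ?_⟩
      show x ∈ Subgroup.centralizer (A : Set X)
      rw [Subgroup.mem_centralizer_iff]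
      intro a ha
      exact hAc a ha x (hBA hx.1)
    have h4 := Subgroup.card_le_of_le h3
    calc Nat.card B * Nat.card ↥(V₁ ⊓ Subgroup.centralizer (B : Set X))
        ≤ Nat.card ↥(B ⊔ (V₁ ⊓ Subgroup.centralizer (B : Set X))) *
          Nat.card ↥(B ⊓ (V₁ ⊓ Subgroup.centralizer (B : Set X))) := h2
      _ ≤ Nat.card A * Nat.card ↥(V₁ ⊓ Subgroup.centralizer (A : Set X)) :=
          Nat.mul_le_mul h1 h4
  have hJC : ¬ Y ≤ Subgroup.centralizer (V₁ : Set X) := by
    rw [hCV₁, ← hCV]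
    exact hYC
  obtain ⟨n, hn1, hnorm, ⟨ψ⟩⟩ := Cfsg.Agent.Lib.Helper6.FFS3.ff_abstract_S3 hsep V₁ hV₁ea hVmin₁
    Y 𝒜 hYsup hoff hJC
  refine ⟨n, hn1, ⟨?_⟩⟩
  have hCeq : ((Subgroup.centralizer (Z : Set X)).normalCore).subgroupOf Y =
      (Subgroup.centralizer (V₁ : Set X)).subgroupOf Y := by
    rw [← hCdef, hCV, hCV₁]
  exact (QuotientGroup.quotientMulEquivOfEq hCeq).trans ψ

end Cfsg.Agent.S4302
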