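import Cfsg.Statements.S4303
import Cfsg.Agent.Lib.Helper24.Coprime

set_option autoImplicit false
universe u
open Cfsg

namespace Cfsg.Agent.S4303

open Cfsg.Agent.Lib.Helper24

theorem coprime_prime_part {G : Type*} [Group G] [Finite G] (p : ℕ) [Fact p.Prime]
    (K : Subgroup G) [K.Normal] (P : Sylow p G)
    (hsup : (P : Subgroup G) ⊔ K = ⊤) (hinf : (P : Subgroup G) ⊓ K = ⊥) (r : ℕ) (hr : r.Prime) :
    r ^ (Nat.card (Sylow p G)).factorization r ≡ 1 [MOD p] := by
  have hfr : Fact r.Prime := ⟨hr⟩
  set NP := Subgroup.normalizer ((P : Subgroup G) : Set G) with hNP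
  set C := K ⊓ NP with hC
  have hKcard : Nat.card K = (P : Subgroup G).index := by
    have h := relIndex_inf_eq_sup K (P : Subgroup G)
    rw [inf_comm, hinf, sup_comm, hsup, Subgroup.relIndex_bot_left,
      Subgroup.relIndex_top_right] at h
    exact h
  have hKcop : ¬ p ∣ Nat.card K := by rw [hKcard]; exact P.not_dvd_index
  have hcent : ∀ x ∈ (P : Subgroup G), ∀ c ∈ C, x * c * x⁻¹ = c := by
    intro x hx c hc
    have hcK : c ∈ K := hc.1
    have hcN : c ∈ NP := hc.2
    have h1 : x * c * x⁻¹ * c⁻¹ ∈ (P : Subgroup G) := by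
      have h0 : c * x⁻¹ * c⁻¹ ∈ (P : Subgroup G) :=
        (Subgroup.mem_normalizer_iff.mp hcN x⁻¹).mp (inv_mem hx)
      have := mul_mem hx h0
      simpa [mul_assoc] using this
    have h2 : x * c * x⁻¹ * c⁻¹ ∈ K :=
      mul_mem (Subgroup.Normal.conj_mem inferInstance c hcK x) (inv_mem hcK)
    have h3 : x * c * x⁻¹ * c⁻¹ ∈ (P : Subgroup G) ⊓ K := ⟨h1, h2⟩
    rw [hinf, Subgroup.mem_bot] at h3
    exact mul_inv_eq_one.mp h3
  obtain ⟨S0⟩ := (Sylow.nonempty : Nonempty (Sylow r C))
  set S := (S0 : Subgroup C).map C.subtype with hS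
  have hSC : S ≤ C := Subgroup.map_subtype_le _
  have hSr : IsPGroup r S := S0.isPGroup'.map _
  have hSi : ¬ r ∣ S.relIndex C := by
    have e : S.subgroupOf C = (S0 : Subgroup C) :=
      Subgroup.comap_map_eq_self_of_injective C.subtype_injective _
    change ¬ r ∣ (S.subgroupOf C).index
    rw [e]; exact S0.not_dvd_index
  have hPS : (P : Subgroup G) ≤ Subgroup.normalizer (S : Set G) := by
    apply le_normalizer_of_conj_mem
    intro x hx y hy
    rw [hcent x hx y (hSC hy)]; exact hy
  obtain ⟨R, hSR, hRK, hRr, hRi, hPR⟩ := exists_invariant_sylow_ge p r K (P : Subgroup G) S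
    P.isPGroup' Subgroup.le_normalizer_of_normal hKcop (hSC.trans inf_le_left) hSr hPS
  set D := R ⊓ NP with hD
  have hSD : S ≤ D := le_inf hSR (hSC.trans inf_le_right)
  have hDC : D ≤ C := inf_le_inf_right _ hRK
  have hDi : ¬ r ∣ D.relIndex C := by
    have h := Subgroup.relIndex_mul_relIndex S D C hSD hDC
    exact fun hd => hSi (h ▸ Dvd.dvd.mul_left hd _)
  have hn1 : Nat.card (Sylow p G) = C.relIndex K := by
    rw [Sylow.card_eq_index_normalizer P]
    have hsup' : K ⊔ NP = ⊤ := by
      apply top_le_iff.mp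
      rw [← hsup]
      exact sup_le (le_sup_of_le_right Subgroup.le_normalizer) le_sup_left
    rw [hC, Subgroup.inf_relIndex_left]
    exact (relIndex_eq_index_of_sup_eq_top K NP hsup').symm
  have hn2 : D.relIndex C * C.relIndex K = D.relIndex K :=
    Subgroup.relIndex_mul_relIndex D C K hDC inf_le_left
  have hn3 : D.relIndex R * R.relIndex K = D.relIndex K :=
    Subgroup.relIndex_mul_relIndex D R K inf_le_left hRK
  have hn4 : D.relIndex R = Nat.card (Sylow p (R ⊔ (P : Subgroup G) : Subgroup G)) := by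
    rw [card_sylow_of_le p P _ le_sup_right,
      ← relIndex_eq_relIndex_sup R NP (P : Subgroup G) Subgroup.le_normalizer hPR, hD,
      Subgroup.inf_relIndex_left]
  obtain ⟨b, hb⟩ := (IsPGroup.iff_card).mp hRr
  have hn5 : D.relIndex R ∣ r ^ b := hb ▸ Subgroup.relIndex_dvd_card _ _
  obtain ⟨e, -, he⟩ := (Nat.dvd_prime_pow hr).mp hn5
  have hmod : r ^ e ≡ 1 [MOD p] := by
    rw [← he, hn4]; exact card_sylow_modEq_one p _
  have hfac : (Nat.card (Sylow p G)).factorization r = e := by
    have h0 : Nat.card (Sylow p G) * D.relIndex C = r ^ e * R.relIndex K := by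
      rw [hn1, mul_comm, hn2, ← hn3, he]
    have hA : Nat.card (Sylow p G) ≠ 0 := Nat.card_pos.ne'
    have hB : D.relIndex C ≠ 0 := fun h => hDi (h ▸ dvd_zero r)
    have hC' : R.relIndex K ≠ 0 := fun h => hRi (h ▸ dvd_zero r)
    have hE : r ^ e ≠ 0 := (pow_pos hr.pos e).ne'
    have h1 := congrArg (fun m => m.factorization r) h0
    simp only [Nat.factorization_mul hA hB, Nat.factorization_mul hE hC', Finsupp.add_apply,
      Nat.factorization_eq_zero_of_not_dvd hDi, Nat.factorization_eq_zero_of_not_dvd hRi,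
      Nat.Prime.factorization_pow hr, Finsupp.single_eq_same, add_zero] at h1
    exact h1
  rw [hfac]; exact hmod

theorem coprime_list {G : Type*} [Group G] [Finite G] (p : ℕ) [Fact p.Prime]
    (K : Subgroup G) [K.Normal] (P : Sylow p G)
    (hsup : (P : Subgroup G) ⊔ K = ⊤) (hinf : (P : Subgroup G) ⊓ K = ⊥) :
    ∃ l : List ℕ, l.prod = Nat.card (Sylow p G) ∧ ∀ m ∈ l, IsPrimePow m ∧ m % p = 1 := by
  have hn0 : Nat.card (Sylow p G) ≠ 0 := Nat.card_pos.ne'
  refine ⟨(Nat.card (Sylow p G)).primeFactors.toList.map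
    (fun r => r ^ (Nat.card (Sylow p G)).factorization r), ?_, ?_⟩
  · rw [Finset.prod_map_toList]
    have h := Nat.prod_factorization_pow_eq_self hn0
    rw [Finsupp.prod, Nat.support_factorization] at h
    exact h
  · intro m hm
    rw [List.mem_map] at hm
    obtain ⟨r, hr, rfl⟩ := hm
    rw [Finset.mem_toList] at hr
    have hrp : r.Prime := Nat.prime_of_mem_primeFactors hr
    have hrd : r ∣ Nat.card (Sylow p G) := Nat.dvd_of_mem_primeFactors hr
    have hpos : 0 < (Nat.card (Sylow p G)).factorization r :=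
      hrp.factorization_pos_of_dvd hn0 hrd
    refine ⟨⟨r, _, hrp.prime, hpos, rfl⟩, ?_⟩
    have h := coprime_prime_part p K P hsup hinf r hrp
    have hp1 : 1 % p = 1 := Nat.mod_eq_of_lt (Fact.out : p.Prime).one_lt
    rw [Nat.ModEq, hp1] at h
    exact h

/-- The admissible factors. -/
def Good (p : ℕ) (m : ℕ) : Prop :=
  (IsPrimePow m ∧ m % p = 1) ∨
    ∃ (S : Type u) (_ : Group S) (_ : Finite S), IsSimpleGroup S ∧ m = Nat.card (Sylow p S)

/-- Products of admissible factors. -/
def HallProd (p : ℕ) (N : ℕ) : Prop :=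
  ∃ l : List ℕ, l.prod = N ∧ ∀ m ∈ l, Good.{u} p m

theorem HallProd.mul {p a b : ℕ} (ha : HallProd.{u} p a) (hb : HallProd.{u} p b) :
    HallProd.{u} p (a * b) := by
  obtain ⟨l1, h1, h1'⟩ := ha
  obtain ⟨l2, h2, h2'⟩ := hb
  refine ⟨l1 ++ l2, by rw [List.prod_append, h1, h2], ?_⟩
  intro m hm
  rcases List.mem_append.mp hm with h | h
  · exact h1' m h
  · exact h2' m h

theorem aux (p : ℕ) [Fact p.Prime] : ∀ n : ℕ, ∀ (G : Type u) [Group G] [Finite G],
    Nat.card G = n → HallProd.{u} p (Nat.card (Sylow p G)) := by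
  intro n
  induction n using Nat.strong_induction_on with
  | _ n ih =>
    intro G _ _ hn
    by_cases hsimple : IsSimpleGroup G
    · exact ⟨[Nat.card (Sylow p G)], by simp, fun m hm =>
        Or.inr ⟨G, inferInstance, inferInstance, hsimple, by simpa using hm⟩⟩
    by_cases htriv : Subsingleton G
    · obtain ⟨P⟩ := (Sylow.nonempty : Nonempty (Sylow p G))
      have h1 : Nat.card (Sylow p G) = 1 := by
        rw [Sylow.card_eq_index_normalizer P]
        have : Subgroup.normalizer (P : Set G) = ⊤ := Subsingleton.elim _ _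
        rw [this, Subgroup.index_top]
      rw [h1]
      exact ⟨[], rfl, by simp⟩
    have hnt : Nontrivial G := not_subsingleton_iff_nontrivial.mp htriv
    have hK : ∃ K : Subgroup G, K.Normal ∧ K ≠ ⊥ ∧ K ≠ ⊤ := by
      by_contra hcon
      apply hsimple
      refine ⟨fun H hH => ?_⟩
      by_contra h2
      rw [not_or] at h2
      exact hcon ⟨H, hH, h2.1, h2.2⟩
    obtain ⟨K, hKn, hKbot, hKtop⟩ := hK
    obtain ⟨P⟩ := (Sylow.nonempty : Nonempty (Sylow p G))
    by_cases hcase : (P : Subgroup G) ⊔ K = ⊤ ∧ (P : Subgroup G) ⊓ K = ⊥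
    · obtain ⟨l, hl, hl2⟩ := coprime_list p K P hcase.1 hcase.2
      exact ⟨l, hl, fun m hm => Or.inl (hl2 m hm)⟩
    · set N := ((P : Subgroup G) ⊔ K) ⊓
        Subgroup.normalizer (((P : Subgroup G) ⊓ K : Subgroup G) : Set G) with hN
      have hQN : (P : Subgroup G) ⊓ K ≤ N :=
        le_inf (inf_le_left.trans le_sup_left) Subgroup.le_normalizer
      have hn' : (((P : Subgroup G) ⊓ K).subgroupOf N).Normal :=
        (Subgroup.normal_subgroupOf_iff_le_normalizer hQN).mpr inf_le_right
      have hformula : Nat.card (Sylow p G) = Nat.card (Sylow p (G ⧸ K)) *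
          (Nat.card (Sylow p K) *
            Nat.card (Sylow p (N ⧸ ((P : Subgroup G) ⊓ K).subgroupOf N))) := by
        rw [card_sylow_eq_mul p K P, card_sylow_sup_eq_mul p K P N hN]
      have hGpos : 0 < Nat.card G := Nat.card_pos
      have h1 : Nat.card (G ⧸ K) < n := by
        rw [← hn, Subgroup.card_eq_card_quotient_mul_card_subgroup K]
        have h1 : 1 < Nat.card K := (Subgroup.one_lt_card_iff_ne_bot K).mpr hKbot
        have h2 : 0 < Nat.card (G ⧸ K) := Nat.card_pos
        calc Nat.card (G ⧸ K) = Nat.card (G ⧸ K) * 1 := (mul_one _).symm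
          _ < Nat.card (G ⧸ K) * Nat.card K := Nat.mul_lt_mul_of_pos_left h1 h2
      have h2 : Nat.card K < n := by
        rw [← hn]
        exact lt_of_le_of_ne (Subgroup.card_le_card_group K)
          (fun h => hKtop ((Subgroup.card_eq_iff_eq_top K).mp h))
      have h3 : Nat.card (N ⧸ ((P : Subgroup G) ⊓ K).subgroupOf N) < n := by
        have hmul := Subgroup.card_eq_card_quotient_mul_card_subgroup
          (((P : Subgroup G) ⊓ K).subgroupOf N)
        have hQpos : 0 < Nat.card (((P : Subgroup G) ⊓ K).subgroupOf N) := Nat.card_pos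
        have hNle : Nat.card N ≤ Nat.card G := Subgroup.card_le_card_group N
        have hqle : Nat.card (N ⧸ ((P : Subgroup G) ⊓ K).subgroupOf N) ≤ Nat.card N := by
          rw [hmul]; exact Nat.le_mul_of_pos_right _ hQpos
        rw [← hn]
        by_cases hL : (P : Subgroup G) ⊔ K = ⊤
        · have hQne : (P : Subgroup G) ⊓ K ≠ ⊥ := fun h => hcase ⟨hL, h⟩
          have hQ'ne : ((P : Subgroup G) ⊓ K).subgroupOf N ≠ ⊥ := by
            intro h
            rw [Subgroup.subgroupOf_eq_bot] at h
            exact hQne (h.eq_bot_of_le hQN)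
          have h1' : 1 < Nat.card (((P : Subgroup G) ⊓ K).subgroupOf N) :=
            (Subgroup.one_lt_card_iff_ne_bot _).mpr hQ'ne
          have hqpos : 0 < Nat.card (N ⧸ ((P : Subgroup G) ⊓ K).subgroupOf N) := Nat.card_pos
          have : Nat.card (N ⧸ ((P : Subgroup G) ⊓ K).subgroupOf N) < Nat.card N := by
            calc Nat.card (N ⧸ ((P : Subgroup G) ⊓ K).subgroupOf N)
                = Nat.card (N ⧸ ((P : Subgroup G) ⊓ K).subgroupOf N) * 1 := (mul_one _).symm
              _ < Nat.card (N ⧸ ((P : Subgroup G) ⊓ K).subgroupOf N) *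
                    Nat.card (((P : Subgroup G) ⊓ K).subgroupOf N) :=
                  Nat.mul_lt_mul_of_pos_left h1' hqpos
              _ = Nat.card N := hmul.symm
          omega
        · have hNtop : N ≠ ⊤ := by
            intro h
            apply hL
            apply top_le_iff.mp
            rw [← h]
            exact inf_le_left
          have : Nat.card N < Nat.card G :=
            lt_of_le_of_ne hNle (fun h => hNtop ((Subgroup.card_eq_iff_eq_top N).mp h))
          omega
      rw [hformula]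
      exact (ih _ h1 (G ⧸ K) rfl).mul ((ih _ h2 K rfl).mul (ih _ h3 _ rfl))


/-- For a finite group `G` and a prime `p`, the number of Sylow `p`-subgroups of `G` is a product of natural numbers each of which is either a prime power congruent to 1 modulo `p` or the number of Sylow `p`-subgroups of some finite simple group. -/
theorem result {G : Type u} [Group G] [Finite G]
    (p : ℕ) [Fact p.Prime] :
    ∃ l : List ℕ, l.prod = Nat.card (Sylow p G) ∧
      ∀ m ∈ l, (IsPrimePow m ∧ m % p = 1) ∨
        ∃ (S : Type u) (_ : Group S) (_ : Finite S), IsSimpleGroup S ∧ m = Nat.card (Sylow p S) := by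
  exact aux p _ G rfl

end Cfsg.Agent.S4303
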