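import Cfsg.Statements.S4320
import Mathlib
import Cfsg.Agent.Lib.Helper22.PIT3

set_option autoImplicit false
open Cfsg

namespace Cfsg.Agent.S4320


theorem transfer_commutator_apply {G : Type*} [Group G] [Finite G] (g : G) :
    MonoidHom.transfer (Abelianization.of : ↥(commutator G) →* Abelianization ↥(commutator G)) g
      = 1 := by
  classical
  letI inst : Fintype (G ⧸ commutator G) := (commutator G).fintypeQuotientOfFiniteIndex
  let T : (commutator G).LeftTransversal := default
  let φ : ↥(commutator G) →* Abelianization ↥(commutator G) := Abelianization.of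
  let r' : G ⧸ commutator G → G := fun q => ((T.2.leftQuotientEquiv q : G))
  have hr' : ∀ q : G ⧸ commutator G, ((r' q : G) : G ⧸ commutator G) = q :=
    fun q => T.2.quotientGroupMk_leftQuotientEquiv q
  have hmem : ∀ x : G, (r' (x : G ⧸ commutator G))⁻¹ * x ∈ commutator G := fun x =>
    QuotientGroup.eq.mp (hr' (x : G ⧸ commutator G))
  let hf : G → ↥(commutator G) := fun x => ⟨(r' (x : G ⧸ commutator G))⁻¹ * x, hmem x⟩
  let ψ : G → Abelianization ↥(commutator G) := fun x => φ (hf x)
  have hmulh : ∀ (x h : G) (hh : h ∈ commutator G), hf (x * h) = hf x * ⟨h, hh⟩ := by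
    intro x h hh
    apply Subtype.ext
    have e : (((x * h : G)) : G ⧸ commutator G) = (x : G ⧸ commutator G) := by
      rw [QuotientGroup.eq, mul_inv_rev, inv_mul_cancel_right]
      exact inv_mem hh
    show (r' ((x * h : G) : G ⧸ commutator G))⁻¹ * (x * h)
      = (r' (x : G ⧸ commutator G))⁻¹ * x * h
    rw [e, mul_assoc]
  have hψ : ∀ x h : G, (Abelianization.of h : Abelianization G) = 1 →
      ψ (x * h) * ψ 1 = ψ x * ψ h := by
    intro x h hh1
    have hh : h ∈ commutator G := by
      rw [← Abelianization.ker_of]; exact MonoidHom.mem_ker.mpr hh1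
    have e2 : hf h = hf 1 * ⟨h, hh⟩ := by
      have := hmulh 1 h hh
      rwa [one_mul] at this
    show φ (hf (x * h)) * φ (hf 1) = φ (hf x) * φ (hf h)
    rw [hmulh x h hh, e2, map_mul, map_mul, mul_assoc, mul_comm (φ ⟨h, hh⟩)]
  have hψr : ∀ q : G ⧸ commutator G, ψ (r' q) = 1 := by
    intro q
    have : hf (r' q) = 1 := by
      apply Subtype.ext
      show (r' ((r' q : G) : G ⧸ commutator G))⁻¹ * r' q = 1
      rw [hr' q, inv_mul_cancel]
    show φ (hf (r' q)) = 1
    rw [this, map_one]
  have hker : (Abelianization.of : G →* Abelianization G).ker ≤ commutator G :=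
    le_of_eq (Abelianization.ker_of G)
  have hmain : ∏ q : G ⧸ commutator G, ψ (g * r' q) = 1 :=
    @Cfsg.Agent.Lib.Helper22.PIT.pit_prod G _ _ (Abelianization G) _ inst
      (Abelianization.of : G →* Abelianization G) (fun q => r' q) (fun q => hr' q) hker _ _
      ψ hψ (fun q => hψr q) g
  have h1 : MonoidHom.transfer φ g = ∏ q : G ⧸ commutator G, ψ (g * r' (g⁻¹ • q)) := by
    rw [MonoidHom.transfer_def φ T g]
    refine Finset.prod_congr rfl fun q _ => congrArg φ (Subtype.ext ?_)
    have e1 : ((g * r' (g⁻¹ • q) : G) : G ⧸ commutator G) = q := by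
      have h := MulAction.Quotient.smul_mk (commutator G) g (r' (g⁻¹ • q))
      rw [hr', smul_inv_smul, smul_eq_mul] at h
      exact h.symm
    show (r' q)⁻¹ * _ = (r' ((g * r' (g⁻¹ • q) : G) : G ⧸ commutator G))⁻¹ * (g * r' (g⁻¹ • q))
    rw [e1, Subgroup.smul_apply_eq_smul_apply_inv_smul, smul_eq_mul]
  have h2 : ∏ q : G ⧸ commutator G, ψ (g * r' (g⁻¹ • q))
      = ∏ q : G ⧸ commutator G, ψ (g * r' q) :=
    Fintype.prod_equiv (MulAction.toPerm (α := G) (β := G ⧸ commutator G) g⁻¹) _ _ (fun q => rfl)
  exact h1.trans (h2.trans hmain)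


/-- The Principal Ideal Theorem of class field theory in its group-theoretic form: for every finite group `G`, the transfer homomorphism from `G` into the abelianization `G'/G''` of its derived subgroup `G'` is the trivial homomorphism. -/
theorem result {G : Type*} [Group G] [Finite G] :
    MonoidHom.transfer (Abelianization.of : ↥(commutator G) →* Abelianization ↥(commutator G)) =
      (1 : G →* Abelianization ↥(commutator G)) := by
  ext g
  rw [MonoidHom.one_apply]
  exact transfer_commutator_apply g

end Cfsg.Agent.S4320
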