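import Cfsg.Statements.S4421
-- import your own Cfsg.Agent.* helpers here

set_option autoImplicit false
open Cfsg

namespace Cfsg.Agent.S4421

theorem map_conj_mul {G : Type*} [Group G] (K : Subgroup G) (a b : G) :
    K.map (MulAut.conj (a * b)).toMonoidHom =
      (K.map (MulAut.conj b).toMonoidHom).map (MulAut.conj a).toMonoidHom := by
  rw [Subgroup.map_map]
  congr 1
  ext t
  simp [MulAut.conj_apply, mul_assoc]

theorem map_conj_one {G : Type*} [Group G] (K : Subgroup G) :
    K.map (MulAut.conj (1 : G)).toMonoidHom = K := by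
  ext t
  simp [Subgroup.mem_map]

theorem map_conj_cancel {G : Type*} [Group G] (K : Subgroup G) (a : G) :
    (K.map (MulAut.conj a).toMonoidHom).map (MulAut.conj a⁻¹).toMonoidHom = K := by
  rw [← map_conj_mul, inv_mul_cancel, map_conj_one]


/-- A factorization of a normalizer from two-step control of fusion. Let `G` be a finite group and `A ≤ S ≤ H` subgroups of `G` such that: (i) `S` controls the `G`-fusion of `A` in the sense that every `G`-conjugate of `A` lying in `S` is an `S`-conjugate of `A`; (ii) `H` controls the `G`-fusion of `S` in the same sense; (iii) every conjugate of `S` by an element of the normalizer of `A` lies in `H`. Then `N_G(A) = N_H(A) · (N_G(S) ∩ N_G(A))`: every element of the normalizer of `A` is a product of an element of `H` normalizing `A` and an element normalizing both `S` and `A`. -/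
theorem result {G : Type*} [Group G] [Finite G] (A S H : Subgroup G)
    (hAS : A ≤ S) (hSH : S ≤ H)
    (h1 : ∀ g : G, A.map (MulAut.conj g).toMonoidHom ≤ S → ∃ s ∈ S, A.map (MulAut.conj g).toMonoidHom = A.map (MulAut.conj s).toMonoidHom)
    (h2 : ∀ g : G, S.map (MulAut.conj g).toMonoidHom ≤ H → ∃ y ∈ H, S.map (MulAut.conj g).toMonoidHom = S.map (MulAut.conj y).toMonoidHom)
    (h3 : ∀ x ∈ Subgroup.normalizer (A : Set G), S.map (MulAut.conj x).toMonoidHom ≤ H) :
    ∀ x ∈ Subgroup.normalizer (A : Set G), ∃ y ∈ H ⊓ Subgroup.normalizer (A : Set G),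
      ∃ z ∈ Subgroup.normalizer (S : Set G) ⊓ Subgroup.normalizer (A : Set G), x = y * z := by
  intro x hx
  have hxA : A.map (MulAut.conj x).toMonoidHom = A := Subgroup.mem_normalizer_iff_map_conj_eq.mp hx
  obtain ⟨y, hyH, hy⟩ := h2 x (h3 x hx)
  have hz0S : S.map (MulAut.conj (y⁻¹ * x)).toMonoidHom = S := by
    rw [map_conj_mul, hy, map_conj_cancel]
  have hz0A : A.map (MulAut.conj (y⁻¹ * x)).toMonoidHom ≤ S := by
    rw [← hz0S]
    exact Subgroup.map_mono hAS
  obtain ⟨s, hsS, hs⟩ := h1 (y⁻¹ * x) hz0A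
  have hzA : A.map (MulAut.conj (s⁻¹ * (y⁻¹ * x))).toMonoidHom = A := by
    rw [map_conj_mul, hs, map_conj_cancel]
  have hsN : s⁻¹ ∈ Subgroup.normalizer (S : Set G) := Subgroup.le_normalizer (S.inv_mem hsS)
  have hzS : S.map (MulAut.conj (s⁻¹ * (y⁻¹ * x))).toMonoidHom = S := by
    rw [map_conj_mul, hz0S]
    exact Subgroup.mem_normalizer_iff_map_conj_eq.mp hsN
  have hzNA : s⁻¹ * (y⁻¹ * x) ∈ Subgroup.normalizer (A : Set G) :=
    Subgroup.mem_normalizer_iff_map_conj_eq.mpr hzA
  have hzNS : s⁻¹ * (y⁻¹ * x) ∈ Subgroup.normalizer (S : Set G) :=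
    Subgroup.mem_normalizer_iff_map_conj_eq.mpr hzS
  refine ⟨y * s, ⟨H.mul_mem hyH (hSH hsS), ?_⟩, s⁻¹ * (y⁻¹ * x), ⟨hzNS, hzNA⟩, by group⟩
  have : y * s = x * (s⁻¹ * (y⁻¹ * x))⁻¹ := by group
  rw [this]
  exact Subgroup.mul_mem _ hx (Subgroup.inv_mem _ hzNA)

end Cfsg.Agent.S4421
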