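import Cfsg.Statements.S4422
-- import your own Cfsg.Agent.* helpers here

set_option autoImplicit false
open Cfsg

namespace Cfsg.Agent.S4422

theorem modEq_one_of_primes (e : ℕ) : ∀ m : ℕ, m ≠ 0 →
    (∀ p : ℕ, p.Prime → p ∣ m → p ≡ 1 [MOD e]) → m ≡ 1 [MOD e] := by
  intro m
  induction m using Nat.strong_induction_on with
  | _ m ih =>
    intro hm0 hp
    by_cases h1 : m = 1
    · rw [h1]
    · have hpr := Nat.minFac_prime h1
      have hdvd := Nat.minFac_dvd m
      obtain ⟨k, hk⟩ := hdvd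
      have hk0 : k ≠ 0 := by
        intro hk0; rw [hk0, mul_zero] at hk; exact hm0 hk
      have hklt : k < m := by
        have h2 : 2 ≤ m.minFac := hpr.two_le
        calc k = 1 * k := (one_mul k).symm
          _ < m.minFac * k := Nat.mul_lt_mul_of_pos_right (by omega) (Nat.pos_of_ne_zero hk0)
          _ = m := hk.symm
      have hkm : k ∣ m := Dvd.intro_left m.minFac hk.symm
      have ihk := ih k hklt hk0 (fun p hpp hpk => hp p hpp (dvd_trans hpk hkm))
      have hmin := hp m.minFac hpr (Nat.minFac_dvd m)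
      have := Nat.ModEq.mul hmin ihk
      rw [← hk] at this
      simpa using this

theorem prime_modEq_one (q e m : ℕ) (hq : 2 ≤ q) (he : 1 ≤ e)
    (hm : m ∣ q ^ e - 1) (hcop : ∀ i : ℕ, 1 ≤ i → i < e → Nat.Coprime m (q ^ i - 1))
    (p : ℕ) (hp : p.Prime) (hpm : p ∣ m) : p ≡ 1 [MOD e] := by
  have : Fact p.Prime := Fact.mk hp
  have hpow : ∀ i : ℕ, ((q : ZMod p)) ^ i = 1 ↔ p ∣ q ^ i - 1 := by
    intro i
    have h1 : 1 ≤ q ^ i := Nat.one_le_pow _ _ (by omega)
    rw [← ZMod.natCast_eq_zero_iff, Nat.cast_sub h1, Nat.cast_pow, Nat.cast_one, sub_eq_zero]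
  have h1 : ((q : ZMod p)) ^ e = 1 := (hpow e).mpr (dvd_trans hpm hm)
  have hd : orderOf (q : ZMod p) ∣ e := orderOf_dvd_of_pow_eq_one h1
  have hdpos : 0 < orderOf (q : ZMod p) := Nat.pos_of_dvd_of_pos hd he
  have hde : orderOf (q : ZMod p) = e := by
    by_contra hne
    have hlt : orderOf (q : ZMod p) < e := lt_of_le_of_ne (Nat.le_of_dvd he hd) hne
    have h2 : p ∣ q ^ orderOf (q : ZMod p) - 1 := (hpow _).mp (pow_orderOf_eq_one _)
    have h3 := hcop _ hdpos hlt
    have h4 : p ∣ Nat.gcd m (q ^ orderOf (q : ZMod p) - 1) := Nat.dvd_gcd hpm h2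
    rw [h3] at h4
    exact hp.one_lt.ne' (Nat.dvd_one.mp h4)
  have hq0 : (q : ZMod p) ≠ 0 := by
    intro h0
    rw [h0, zero_pow (by omega : e ≠ 0)] at h1
    exact zero_ne_one h1
  have h5 : (q : ZMod p) ^ (p - 1) = 1 := ZMod.pow_card_sub_one_eq_one hq0
  have h6 : e ∣ p - 1 := hde ▸ orderOf_dvd_of_pow_eq_one h5
  have h7 : (1 : ℕ) ≡ p [MOD e] := (Nat.modEq_iff_dvd' hp.one_lt.le).mpr h6
  exact h7.symm


/-- Primitive divisors of `q^e - 1` are congruent to 1 modulo `e`. Let `q ≥ 2` and `e ≥ 1` be natural numbers and let `m` be a divisor of `q^e - 1` that is coprime to `q^i - 1` for every `1 ≤ i < e` (so `m` divides the primitive part of `q^e - 1`, the largest such divisor). Then `m ≡ 1 (mod e)`. -/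
theorem result (q e m : ℕ) (hq : 2 ≤ q) (he : 1 ≤ e)
    (hm : m ∣ q ^ e - 1) (hcop : ∀ i : ℕ, 1 ≤ i → i < e → Nat.Coprime m (q ^ i - 1)) :
    m % e = 1 % e := by
  have hm0 : m ≠ 0 := by
    rintro rfl
    have h1 : 2 ≤ q ^ e := by
      calc 2 ≤ q := hq
        _ = q ^ 1 := (pow_one q).symm
        _ ≤ q ^ e := Nat.pow_le_pow_right (by omega) he
    have := Nat.eq_zero_of_zero_dvd hm
    omega
  exact modEq_one_of_primes e m hm0 (fun p hp hpm => prime_modEq_one q e m hq he hm hcop p hp hpm)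

end Cfsg.Agent.S4422
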