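import Cfsg.Statements.S4448
import Mathlib
import Cfsg.Agent.S1490
import Cfsg.Agent.Lib.Helper2.CharClifford
import Cfsg.Agent.Lib.Helper2.CharMore
import Cfsg.Agent.Lib.Helper2.CharProd
import Cfsg.Agent.Lib.Helper2.CharPerm
import Cfsg.Agent.S1489

set_option autoImplicit false
open Cfsg

namespace Cfsg.Agent.S4448

open Cfsg.Agent.Lib.Helper2
open scoped ComplexConjugate

section abstract

variable {G : Type*} [Group G] [Fintype G]

/-- restriction in stages keeps constituents -/
theorem constituent_trans {H : Type*} [Group H] [Fintype H] (f : H →* G) (Ψ φ : G → ℂ)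
    (hΨ : Cfsg.IsCharacter G Ψ) (hφ : Cfsg.IsIrrCharacter G φ) (h1 : Cfsg.classInner Ψ φ ≠ 0)
    (θ : H → ℂ) (hθ : Cfsg.IsIrrCharacter H θ) (h2 : Cfsg.classInner (φ ∘ f) θ ≠ 0) :
    Cfsg.classInner (Ψ ∘ f) θ ≠ 0 := by
  have hsub : Cfsg.IsCharacter G (Ψ - φ) := IsCharacter.sub_irr hΨ hφ h1
  have hdec : Ψ ∘ f = φ ∘ f + (Ψ - φ) ∘ f := by
    funext x
    simp
  rw [hdec, classInner_add_left]
  obtain ⟨a, ha⟩ := classInner_isCharacter_nat
    (IsCharacter.comp_hom (isCharacter_of_isIrrCharacter hφ) f) (isCharacter_of_isIrrCharacter hθ)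
  obtain ⟨b, hb⟩ := classInner_isCharacter_nat
    (IsCharacter.comp_hom hsub f) (isCharacter_of_isIrrCharacter hθ)
  rw [ha] at h2
  rw [ha, hb]
  have ha0 : a ≠ 0 := by
    intro h; apply h2; rw [h]; simp
  have : a + b ≠ 0 := by omega
  exact_mod_cast this

/-- two characters with a common irreducible constituent are not orthogonal -/
theorem common_constituent (Ψ₁ Ψ₂ φ : G → ℂ) (h₁ : Cfsg.IsCharacter G Ψ₁)
    (h₂ : Cfsg.IsCharacter G Ψ₂) (hφ : Cfsg.IsIrrCharacter G φ)
    (c₁ : Cfsg.classInner Ψ₁ φ ≠ 0) (c₂ : Cfsg.classInner Ψ₂ φ ≠ 0) :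
    Cfsg.classInner Ψ₁ Ψ₂ ≠ 0 := by
  have hsub : Cfsg.IsCharacter G (Ψ₂ - φ) := IsCharacter.sub_irr h₂ hφ c₂
  have hdec : Ψ₂ = φ + (Ψ₂ - φ) := by
    funext x
    simp
  rw [hdec, classInner_add_right]
  obtain ⟨a, ha⟩ := classInner_isCharacter_nat h₁ (isCharacter_of_isIrrCharacter hφ)
  obtain ⟨b, hb⟩ := classInner_isCharacter_nat h₁ hsub
  rw [ha] at c₁
  rw [ha, hb]
  have ha0 : a ≠ 0 := by
    intro h; apply c₁; rw [h]; simp
  have : a + b ≠ 0 := by omega
  exact_mod_cast this

variable (M : Subgroup G) [hMn : M.Normal] [Fintype M]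

/-- twisting by a linear character trivial on `M` -/
theorem twist (μ : G →* ℂˣ) (hμ : ∀ m ∈ M, μ m = 1) (φ : M → ℂ) (χ : G → ℂ)
    (hχ : Cfsg.IsIrrCharacter G χ) (hc : Cfsg.classInner (fun m : M => χ m) φ ≠ 0) :
    Cfsg.IsIrrCharacter G (fun g => ((μ g : ℂˣ) : ℂ) * χ g) ∧
      Cfsg.classInner (fun m : M => ((μ m : ℂˣ) : ℂ) * χ m) φ ≠ 0 := by
  constructor
  · have hlin : Cfsg.IsIrrCharacter G (fun t => ((μ t : ℂˣ) : ℂ)) := isIrrCharacter_of_hom _
    have hchar : Cfsg.IsCharacter G (fun g => ((μ g : ℂˣ) : ℂ) * χ g) :=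
      IsCharacter.mul (isCharacter_of_isIrrCharacter hlin) (isCharacter_of_isIrrCharacter hχ)
    apply isIrrCharacter_of_norm_one hchar
    rw [← classInner_irr_self hχ, classInner_def, classInner_def]
    congr 1
    apply Finset.sum_congr rfl
    intro t _
    show ((μ t : ℂˣ) : ℂ) * χ t * conj (((μ t : ℂˣ) : ℂ) * χ t) = _
    rw [map_mul]
    have h1 : ((μ t : ℂˣ) : ℂ) * conj ((μ t : ℂˣ) : ℂ) = 1 := by
      rw [Complex.mul_conj, Complex.normSq_eq_norm_sq, Cfsg.Agent.S1490.norm_hom_apply]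
      simp
    linear_combination (χ t * conj (χ t)) * h1
  · have : (fun m : M => ((μ m : ℂˣ) : ℂ) * χ m) = (fun m : M => χ m) := by
      funext m
      rw [hμ m m.2, Units.val_one, one_mul]
    rw [this]
    exact hc

/-- for abelian `G / M`, the linear characters of `G / M` permute transitively the irreducible
characters of `G` lying over a given irreducible character of `M` -/
theorem transitive (hab : ∀ x y : G, x * y * x⁻¹ * y⁻¹ ∈ M) (φ : M → ℂ)
    (hφ : Cfsg.IsIrrCharacter M φ) (χ ψ : G → ℂ)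
    (hχ : Cfsg.IsIrrCharacter G χ) (hc : Cfsg.classInner (fun m : M => χ m) φ ≠ 0)
    (hψ : Cfsg.IsIrrCharacter G ψ) (hd : Cfsg.classInner (fun m : M => ψ m) φ ≠ 0) :
    ∃ μ : G →* ℂˣ, (∀ m ∈ M, μ m = 1) ∧ ∀ g, ψ g = ((μ g : ℂˣ) : ℂ) * χ g := by
  classical
  have hχcl := isClassFunction_of_isIrrCharacter hχ
  have hψcl := isClassFunction_of_isIrrCharacter hψ
  have hcommA : ∀ x y : G ⧸ M, x * y = y * x := by
    intro x y
    induction x using QuotientGroup.induction_on with | _ x => ?_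
    induction y using QuotientGroup.induction_on with | _ y => ?_
    rw [← QuotientGroup.mk_mul, ← QuotientGroup.mk_mul, QuotientGroup.eq]
    have := hab y⁻¹ x⁻¹
    convert this using 1
    group
  have : Fintype ((G ⧸ M) →* ℂˣ) := Fintype.ofFinite _
  have hkey : Cfsg.indFun M (fun m : M => χ m)
      = ∑ lam : (G ⧸ M) →* ℂˣ, fun t => ((lam (QuotientGroup.mk t) : ℂˣ) : ℂ) * χ t := by
    funext t
    rw [Finset.sum_apply, ← Finset.sum_mul, Cfsg.Agent.S1490.sum_dual hcommA, indFun_apply]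
    have hterm : ∀ x : G, Cfsg.extendByZero M (fun m : M => χ m) (x⁻¹ * t * x)
        = if t ∈ M then χ t else 0 := by
      intro x
      by_cases ht : t ∈ M
      · have hx : x⁻¹ * t * x ∈ M := by
          have := hMn.conj_mem t ht x⁻¹
          simpa using this
        rw [if_pos ht, extendByZero_of_mem M _ hx]
        show χ (x⁻¹ * t * x) = χ t
        have h2 := hχcl t x⁻¹
        simpa using h2
      · have hx : x⁻¹ * t * x ∉ M := by
          intro h
          apply ht
          have h1 := hMn.conj_mem _ h x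
          have e1 : x * (x⁻¹ * t * x) * x⁻¹ = t := by group
          rwa [e1] at h1
        rw [if_neg ht, extendByZero_of_not_mem M _ hx]
    simp only [hterm]
    rw [Finset.sum_const, Finset.card_univ, nsmul_eq_mul]
    by_cases ht : t ∈ M
    · rw [if_pos ht, if_pos ((QuotientGroup.eq_one_iff t).mpr ht)]
      have hcard : (Nat.card (G ⧸ M) : ℂ) * (Nat.card M : ℂ) = (Fintype.card G : ℂ) := by
        have h1 := Subgroup.card_eq_card_quotient_mul_card_subgroup M
        rw [← Nat.card_eq_fintype_card]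
        exact_mod_cast h1.symm
      have hN0 : (Nat.card M : ℂ) ≠ 0 := by exact_mod_cast (Nat.card_pos (α := M)).ne'
      rw [← hcard]
      field_simp
    · rw [if_neg ht, if_neg (fun h => ht ((QuotientGroup.eq_one_iff t).mp h))]
      simp
  have hfr := frobenius_reciprocity M (fun m : M => χ m) ψ hψcl
  have hne : Cfsg.classInner (fun m : M => χ m) (fun m : M => ψ m) ≠ 0 :=
    common_constituent _ _ φ (IsCharacter.restrict (isCharacter_of_isIrrCharacter hχ) M)
      (IsCharacter.restrict (isCharacter_of_isIrrCharacter hψ) M) hφ hc hd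
  rw [← hfr, hkey, classInner_sum_left] at hne
  obtain ⟨lam, -, hlam⟩ := Finset.exists_ne_zero_of_sum_ne_zero hne
  have hμ : ∀ m ∈ M, (lam.comp (QuotientGroup.mk' M)) m = 1 := by
    intro m hm
    show lam (QuotientGroup.mk m) = 1
    rw [(QuotientGroup.eq_one_iff m).mpr hm, map_one]
  refine ⟨lam.comp (QuotientGroup.mk' M), hμ, ?_⟩
  have hirr := (twist M (lam.comp (QuotientGroup.mk' M)) hμ φ χ hχ hc).1
  by_contra hcon
  apply hlam
  apply classInner_irr_ne hirr hψ
  intro heq
  apply hcon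
  intro g
  exact (congrFun heq g).symm

end abstract

section step

variable {G : Type*} [Group G] [Fintype G] {S : Type*} [Group S] [Fintype S]

/-- the abelian step, abstractly: `S` acts on `G` preserving the normal subgroup `M` with
`G / M` abelian of order prime to `|S|`; an `S`-invariant irreducible character of `M` lies
under an `S`-invariant irreducible character of `G` -/
theorem abelian_step (act : S →* MulAut G) (M : Subgroup G) [hMn : M.Normal] [Fintype M]
    (hab : ∀ x y : G, x * y * x⁻¹ * y⁻¹ ∈ M)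
    (hM : ∀ (s : S) (m : G), m ∈ M → act s m ∈ M)
    (hcop : (M.index).Coprime (Fintype.card S))
    (φ : M → ℂ) (hφ : Cfsg.IsIrrCharacter M φ)
    (hinv : ∀ (s : S) (m : M), φ ⟨act s m, hM s m m.2⟩ = φ m) :
    ∃ χ : G → ℂ, Cfsg.IsIrrCharacter G χ ∧ Cfsg.classInner (fun m : M => χ m) φ ≠ 0 ∧
      ∀ (s : S) (g : G), χ (act s g) = χ g := by
  classical
  -- some irreducible character over φ
  have hφc := isCharacter_of_isIrrCharacter hφ
  have hInd : Cfsg.IsCharacter G (Cfsg.indFun M φ) := indFun_isCharacter M hφc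
  obtain ⟨a, ha0, ha⟩ := irr_apply_one hφ
  have hInd0 : Cfsg.indFun M φ ≠ 0 := by
    intro h
    have h1 := congrFun h 1
    rw [indFun_apply_one, ha] at h1
    have h2 : ((M.index * a : ℕ) : ℂ) = 0 := by
      push_cast
      exact h1
    have h3 : M.index * a = 0 := by exact_mod_cast h2
    have hidx : M.index ≠ 0 := Subgroup.index_ne_zero_of_finite
    rcases Nat.mul_eq_zero.mp h3 with h | h
    · exact hidx h
    · omega
  obtain ⟨χ₀, hχ₀, hne⟩ := exists_irr_constituent hInd hInd0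
  have hχ₀cl := isClassFunction_of_isIrrCharacter hχ₀
  have hc₀ : Cfsg.classInner (fun m : M => χ₀ m) φ ≠ 0 := by
    intro h0
    apply hne
    rw [frobenius_reciprocity M φ χ₀ hχ₀cl, ← classInner_conj_symm, h0, map_zero]
  -- the translates of χ₀ lie over φ
  have htrans : ∀ s : S, Cfsg.classInner (fun m : M => χ₀ (act s m)) φ ≠ 0 := by
    intro s
    have hbij : Function.Bijective (fun m : M => (⟨act s m, hM s m m.2⟩ : M)) := by
      apply Function.Injective.bijective_of_finite
      intro m₁ m₂ h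
      have h1 := congrArg Subtype.val h
      exact Subtype.ext ((act s).injective h1)
    have heq : Cfsg.classInner (fun m : M => χ₀ (act s m)) φ
        = Cfsg.classInner (fun m : M => χ₀ m) φ := by
      rw [classInner_def, classInner_def]
      congr 1
      apply Fintype.sum_bijective _ hbij
      intro m
      show χ₀ (act s m) * conj (φ m) = χ₀ (act s m) * conj (φ ⟨act s m, hM s m m.2⟩)
      rw [hinv s m]
    rw [heq]
    exact hc₀
  have hex : ∀ s : S, ∃ μ : G →* ℂˣ, (∀ m ∈ M, μ m = 1) ∧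
      ∀ g, χ₀ (act s⁻¹ g) = ((μ g : ℂˣ) : ℂ) * χ₀ g := by
    intro s
    exact transitive M hab φ hφ χ₀ (fun g => χ₀ (act s⁻¹ g)) hχ₀ hc₀
      (isIrrCharacter_comp_mulEquiv hχ₀ (act s⁻¹)) (htrans s⁻¹)
  choose lam hlamM hlam using hex
  -- Bezout
  obtain ⟨u, v, huv⟩ : ∃ u v : ℤ, (Fintype.card S : ℤ) * u + (M.index : ℤ) * v = 1 := by
    have h1 := Nat.gcd_eq_gcd_ab (Fintype.card S) M.index
    rw [Nat.coprime_comm.mp hcop] at h1
    exact ⟨_, _, by exact_mod_cast h1.symm⟩
  have hpow : ∀ (s : S) (g : G), (lam s g) ^ M.index = 1 := by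
    intro s g
    rw [← map_pow]
    exact hlamM s _ (Subgroup.pow_index_mem M g)
  -- the averaged twist
  obtain ⟨d, hd⟩ : ∃ d : G →* ℂˣ, ∀ g, d g = (∏ t : S, lam t g) ^ u :=
    ⟨{ toFun := fun g => (∏ t : S, lam t g) ^ u
       map_one' := by simp
       map_mul' := by
         intro x y
         simp only [map_mul, Finset.prod_mul_distrib, mul_zpow] }, fun g => rfl⟩
  have hdM : ∀ m ∈ M, d m = 1 := by
    intro m hm
    rw [hd]
    have : ∀ t : S, lam t m = 1 := fun t => hlamM t m hm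
    simp [this]
  have hcoc : ∀ (s : S) (g : G), χ₀ g ≠ 0 → d g = d (act s⁻¹ g) * lam s g := by
    intro s g hg
    have h1 : ∀ t : S, lam (s * t) g = lam t (act s⁻¹ g) * lam s g := by
      intro t
      apply Units.ext
      have e1 := hlam (s * t) g
      have e2 := hlam t (act s⁻¹ g)
      have e3 := hlam s g
      have e4 : act (s * t)⁻¹ g = act t⁻¹ (act s⁻¹ g) := by
        rw [mul_inv_rev, map_mul, MulAut.mul_apply]
      rw [e4, e2, e3] at e1
      have e5 : ((lam (s * t) g : ℂˣ) : ℂ) * χ₀ g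
          = ((lam t (act s⁻¹ g) * lam s g : ℂˣ) : ℂ) * χ₀ g := by
        rw [← e1, Units.val_mul]; ring
      exact mul_right_cancel₀ hg e5
    have h2 : ∏ t : S, lam t g = (∏ t : S, lam t (act s⁻¹ g)) * (lam s g) ^ (Fintype.card S) := by
      have h3 : ∏ t : S, lam t g = ∏ t : S, lam (s * t) g :=
        (Fintype.prod_equiv (Equiv.mulLeft s) (fun t => lam (s * t) g) (fun t => lam t g)
          (fun t => rfl)).symm
      rw [h3, Finset.prod_congr rfl (fun t _ => h1 t), Finset.prod_mul_distrib, Finset.prod_const,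
        Finset.card_univ]
    rw [hd, hd, h2, mul_zpow]
    congr 1
    rw [← zpow_natCast, ← zpow_mul]
    have h4 : (Fintype.card S : ℤ) * u = 1 - (M.index : ℤ) * v := by linarith
    rw [h4, zpow_sub, zpow_one, zpow_mul, zpow_natCast, hpow, one_zpow, inv_one, mul_one]
  obtain ⟨hirr₁, hc₁⟩ := twist M d hdM φ χ₀ hχ₀ hc₀
  refine ⟨fun g => ((d g : ℂˣ) : ℂ) * χ₀ g, hirr₁, hc₁, ?_⟩
  have hinv1 : ∀ (s : S) (g : G),
      ((d (act s⁻¹ g) : ℂˣ) : ℂ) * χ₀ (act s⁻¹ g) = ((d g : ℂˣ) : ℂ) * χ₀ g := by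
    intro s g
    rw [hlam s g]
    by_cases hg : χ₀ g = 0
    · rw [hg]; ring
    · rw [hcoc s g hg, Units.val_mul]; ring
  intro s g
  have := hinv1 s⁻¹ g
  rw [inv_inv] at this
  exact this

end step

section inside

variable {Γ : Type*} [Group Γ] [Fintype Γ]

/-- the abelian step for subgroups of an ambient group -/
theorem step_in (G S M : Subgroup Γ) [Fintype G] [Fintype M]
    (hnorm : ∀ s ∈ S, ∀ g ∈ G, s * g * s⁻¹ ∈ G) (hMG : M ≤ G)
    (hMS : ∀ s ∈ S, ∀ m ∈ M, s * m * s⁻¹ ∈ M)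
    (hab : ∀ x ∈ G, ∀ y ∈ G, x * y * x⁻¹ * y⁻¹ ∈ M)
    (hcop : (M.relIndex G).Coprime (Nat.card S))
    (φ : M → ℂ) (hφ : Cfsg.IsIrrCharacter M φ)
    (hinv : ∀ s ∈ S, ∀ m m' : M, (m' : Γ) = s * m * s⁻¹ → φ m' = φ m) :
    ∃ χ : G → ℂ, Cfsg.IsIrrCharacter G χ ∧
      Cfsg.classInner (fun m : M => χ ⟨m, hMG m.2⟩) φ ≠ 0 ∧
      ∀ s ∈ S, ∀ g g' : G, (g' : Γ) = s * g * s⁻¹ → χ g' = χ g := by
  classical
  have hSG : S ≤ Subgroup.normalizer (G : Set Γ) := by
    intro s hs
    rw [Subgroup.mem_normalizer_iff]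
    intro g
    constructor
    · exact hnorm s hs g
    · intro h
      have := hnorm s⁻¹ (S.inv_mem hs) _ h
      simpa [mul_assoc] using this
  let act : S →* MulAut G := G.normalizerMonoidHom.comp (Subgroup.inclusion hSG)
  have hact : ∀ (s : S) (g : G), ((act s g : G) : Γ) = (s : Γ) * g * (s : Γ)⁻¹ := fun s g => rfl
  haveI : Fintype S := Fintype.ofFinite S
  haveI hM'n : (M.subgroupOf G).Normal := by
    constructor
    intro n hn g
    rw [Subgroup.mem_subgroupOf] at hn ⊢
    have := hab g g.2 n (hMG hn)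
    have h2 : ((g * n * g⁻¹ : G) : Γ) = ((g : Γ) * n * (g : Γ)⁻¹ * (n : Γ)⁻¹) * n := by
      simp
    rw [h2]
    exact M.mul_mem this hn
  haveI : Fintype (M.subgroupOf G) := Fintype.ofFinite _
  obtain ⟨e, he⟩ : ∃ e : M.subgroupOf G ≃* M, ∀ n' : M.subgroupOf G,
      ((e n' : M) : Γ) = ((n' : G) : Γ) :=
    ⟨Subgroup.subgroupOfEquivOfLe hMG, fun _ => rfl⟩
  have hab' : ∀ x y : G, x * y * x⁻¹ * y⁻¹ ∈ M.subgroupOf G := by
    intro x y
    rw [Subgroup.mem_subgroupOf]
    simpa using hab x x.2 y y.2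
  have hM' : ∀ (s : S) (m : G), m ∈ M.subgroupOf G → act s m ∈ M.subgroupOf G := by
    intro s m hm
    rw [Subgroup.mem_subgroupOf] at hm ⊢
    rw [hact]
    exact hMS s s.2 _ hm
  have hcop' : ((M.subgroupOf G).index).Coprime (Fintype.card S) := by
    rw [Fintype.card_eq_nat_card]
    exact hcop
  obtain ⟨χ, hχ, hc, hχinv⟩ := abelian_step act (M.subgroupOf G) hab' hM' hcop' (φ ∘ e)
    (Cfsg.Agent.S1489.isIrrCharacter_comp_iso hφ e) (by
      intro s m
      show φ (e ⟨act s m, _⟩) = φ (e m)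
      apply hinv s s.2
      rw [he, he]
      exact hact s m)
  refine ⟨χ, hχ, ?_, ?_⟩
  · have hres : (fun n' : M.subgroupOf G => χ n') = (fun m : M => χ ⟨m, hMG m.2⟩) ∘ e := by
      funext n'
      show χ n' = χ ⟨e n', hMG (e n').2⟩
      exact congrArg χ (Subtype.ext (he n').symm)
    rw [hres, Cfsg.Agent.S1489.classInner_comp_iso] at hc
    exact hc
  · intro s hs g g' hg
    have := hχinv ⟨s, hs⟩ g
    rw [← this]
    congr 1
    exact Subtype.ext hg

theorem main_aux (S : Subgroup Γ) (n : ℕ) :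
    ∀ (G N : Subgroup Γ) [Fintype G] [Fintype N]
      (hnorm : ∀ s ∈ S, ∀ g ∈ G, s * g * s⁻¹ ∈ G) (hNG : N ≤ G)
      [hNn : (N.subgroupOf G).Normal]
      (hNS : ∀ s ∈ S, ∀ n ∈ N, s * n * s⁻¹ ∈ N)
      (hcop : (N.relIndex G).Coprime (Nat.card S))
      (hsolv : Group.IsSolvable (G ⧸ N.subgroupOf G))
      (θ : N → ℂ) (hθ : Cfsg.IsIrrCharacter N θ)
      (hinv : ∀ s ∈ S, ∀ g g' : N, (g' : Γ) = s * g * s⁻¹ → θ g' = θ g),
      N.relIndex G ≤ n →
      ∃ χ : G → ℂ, Cfsg.IsIrrCharacter G χ ∧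
        Cfsg.classInner (fun n : N => χ ⟨n, hNG n.2⟩) θ ≠ 0 ∧
        ∀ s ∈ S, ∀ g g' : G, (g' : Γ) = s * g * s⁻¹ → χ g' = χ g := by
  induction n with
  | zero =>
    intro G N _ _ hnorm hNG hNn hNS hcop hsolv θ hθ hinv hle
    exfalso
    have h0 : N.relIndex G ≠ 0 := by
      show (N.subgroupOf G).index ≠ 0
      exact Subgroup.index_ne_zero_of_finite
    omega
  | succ n ih =>
    intro G N _ _ hnorm hNG hNn hNS hcop hsolv θ hθ hinv hle
    classical
    by_cases hGN : G ≤ N
    · have hEq : G = N := le_antisymm hGN hNG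
      obtain ⟨e, he⟩ : ∃ e : G ≃* N, ∀ g : G, ((e g : N) : Γ) = (g : Γ) :=
        ⟨MulEquiv.subgroupCongr hEq, fun _ => rfl⟩
      refine ⟨θ ∘ e, Cfsg.Agent.S1489.isIrrCharacter_comp_iso hθ e, ?_, ?_⟩
      · have h1 : (fun n : N => (θ ∘ e) ⟨n, hNG n.2⟩) = θ := by
          funext n
          show θ (e ⟨n, hNG n.2⟩) = θ n
          exact congrArg θ (Subtype.ext (he _))
        rw [h1, classInner_irr_self hθ]
        exact one_ne_zero
      · intro s hs g g' hg
        show θ (e g') = θ (e g)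
        apply hinv s hs
        rw [he, he]
        exact hg
    · -- the intermediate subgroup
      have hCG : ⁅G, G⁆ ≤ G := by
        rw [Subgroup.commutator_le]
        intro g₁ h₁ g₂ h₂
        rw [commutatorElement_def]
        exact G.mul_mem (G.mul_mem (G.mul_mem h₁ h₂) (G.inv_mem h₁)) (G.inv_mem h₂)
      obtain ⟨M, hMdef⟩ : ∃ M : Subgroup Γ, M = N ⊔ ⁅G, G⁆ := ⟨_, rfl⟩
      have hMG : M ≤ G := by rw [hMdef]; exact sup_le hNG hCG
      have hNM : N ≤ M := by rw [hMdef]; exact le_sup_left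
      have hMS : ∀ s ∈ S, ∀ m ∈ M, s * m * s⁻¹ ∈ M := by
        intro s hs m hm
        have h1 : M.map (MulAut.conj s).toMonoidHom ≤ M := by
          rw [hMdef, Subgroup.map_sup, Subgroup.map_commutator]
          apply sup_le_sup
          · rintro _ ⟨x, hx, rfl⟩
            exact hNS s hs x hx
          · apply Subgroup.commutator_mono
            · rintro _ ⟨x, hx, rfl⟩
              exact hnorm s hs x hx
            · rintro _ ⟨x, hx, rfl⟩
              exact hnorm s hs x hx
        exact h1 ⟨m, hm, rfl⟩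
      have hab : ∀ x ∈ G, ∀ y ∈ G, x * y * x⁻¹ * y⁻¹ ∈ M := by
        intro x hx y hy
        rw [hMdef, ← commutatorElement_def]
        exact (le_sup_right : ⁅G, G⁆ ≤ N ⊔ ⁅G, G⁆) (Subgroup.commutator_mem_commutator hx hy)
      have hMne : ¬ G ≤ M := by
        intro hGM
        have h1 : (N ⊔ ⁅G, G⁆).subgroupOf G = ⊤ := by
          rw [← hMdef]; exact Subgroup.subgroupOf_eq_top.mpr hGM
        rw [Subgroup.subgroupOf_sup hNG hCG] at h1
        have h2 : (⁅G, G⁆ : Subgroup Γ).subgroupOf G = commutator G := by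
          rw [← Subgroup.map_subtype_commutator]
          exact Subgroup.comap_map_eq_self_of_injective G.subtype_injective _
        rw [h2] at h1
        have h3 : commutator (G ⧸ N.subgroupOf G) = ⊤ := by
          have h4 := congrArg (Subgroup.map (QuotientGroup.mk' (N.subgroupOf G))) h1
          rw [Subgroup.map_sup, QuotientGroup.map_mk'_self, bot_sup_eq,
            Subgroup.map_top_of_surjective _ (QuotientGroup.mk'_surjective _)] at h4
          rw [← h4, commutator_def, commutator_def, Subgroup.map_commutator,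
            Subgroup.map_top_of_surjective _ (QuotientGroup.mk'_surjective _)]
        haveI : Nontrivial (G ⧸ N.subgroupOf G) := by
          by_contra hnt
          rw [not_nontrivial_iff_subsingleton] at hnt
          have := QuotientGroup.subgroup_eq_top_of_subsingleton (N.subgroupOf G) hnt
          exact hGN (Subgroup.subgroupOf_eq_top.mp this)
        exact (ne_of_lt (Group.IsSolvable.commutator_lt_top_of_nontrivial (G ⧸ N.subgroupOf G))) h3
      have hmul : N.relIndex M * M.relIndex G = N.relIndex G :=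
        Subgroup.relIndex_mul_relIndex N M G hNM hMG
      have hMG0 : M.relIndex G ≠ 0 := by
        show (M.subgroupOf G).index ≠ 0
        exact Subgroup.index_ne_zero_of_finite
      have hNM0 : N.relIndex M ≠ 0 := by
        haveI : Finite M := Finite.of_injective (Subgroup.inclusion hMG) (Subgroup.inclusion_injective hMG)
        show (N.subgroupOf M).index ≠ 0
        exact Subgroup.index_ne_zero_of_finite
      have hMG1 : M.relIndex G ≠ 1 := fun h => hMne (Subgroup.relIndex_eq_one.mp h)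
      have hlt : N.relIndex M ≤ n := by
        have h2 : 2 ≤ M.relIndex G := by omega
        have h3 : N.relIndex M * 2 ≤ N.relIndex G := by
          rw [← hmul]; exact Nat.mul_le_mul_left _ h2
        omega
      have hcop1 : (N.relIndex M).Coprime (Nat.card S) :=
        Nat.Coprime.coprime_dvd_left (Dvd.intro _ hmul) hcop
      have hcop2 : (M.relIndex G).Coprime (Nat.card S) :=
        Nat.Coprime.coprime_dvd_left (Dvd.intro_left _ hmul) hcop
      haveI hNMn : (N.subgroupOf M).Normal := by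
        rw [Subgroup.normal_subgroupOf_iff_le_normalizer hNM]
        exact le_trans hMG ((Subgroup.normal_subgroupOf_iff_le_normalizer hNG).mp hNn)
      haveI : Fintype M := Fintype.ofFinite M
      haveI hsolvM : Group.IsSolvable (M ⧸ N.subgroupOf M) := by
        let f : M →* G ⧸ N.subgroupOf G :=
          (QuotientGroup.mk' (N.subgroupOf G)).comp (Subgroup.inclusion hMG)
        have hker : f.ker = N.subgroupOf M := by
          ext x
          rw [MonoidHom.mem_ker]
          show (QuotientGroup.mk' (N.subgroupOf G)) (Subgroup.inclusion hMG x) = 1 ↔ _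
          rw [QuotientGroup.mk'_apply, QuotientGroup.eq_one_iff]
          rfl
        have hinj := QuotientGroup.kerLift_injective f
        haveI : Group.IsSolvable (M ⧸ f.ker) := Group.isSolvable_of_isSolvable_injective hinj
        exact Group.isSolvable_of_surjective (f := (QuotientGroup.quotientMulEquivOfEq hker).toMonoidHom)
          (QuotientGroup.quotientMulEquivOfEq hker).surjective
      obtain ⟨φ, hφ, hφc, hφinv⟩ := ih M N hMS hNM hNS hcop1 hsolvM θ hθ hinv hlt
      obtain ⟨χ, hχ, hχc, hχinv⟩ := step_in G S M hnorm hMG hMS hab hcop2 φ hφ hφinv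
      refine ⟨χ, hχ, ?_, hχinv⟩
      have hΨ : Cfsg.IsCharacter M (fun m : M => χ ⟨m, hMG m.2⟩) :=
        IsCharacter.comp_hom (isCharacter_of_isIrrCharacter hχ) (Subgroup.inclusion hMG)
      exact constituent_trans (Subgroup.inclusion hNM) (fun m : M => χ ⟨m, hMG m.2⟩) φ hΨ hφ hχc
        θ hθ hφc

end inside

/-- Inside a finite group Γ let S normalise G and also normalise a normal subgroup N of G, with the order of S coprime to the index of N in G and G/N solvable. Then for every S-invariant irreducible character ϑ of N, the induced character ϑ^G has an S-invariant irreducible constituent. -/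
theorem result {Γ : Type*} [Group Γ] [Fintype Γ] (G S N : Subgroup Γ) [Fintype G] [Fintype N] (hnorm : ∀ s ∈ S, ∀ g ∈ G, s * g * s⁻¹ ∈ G) (hNG : N ≤ G) [hNn : (N.subgroupOf G).Normal] (hNS : ∀ s ∈ S, ∀ n ∈ N, s * n * s⁻¹ ∈ N) (hcop : (N.relIndex G).Coprime (Nat.card S)) (hsolv : Group.IsSolvable (G ⧸ N.subgroupOf G)) (θ : Cfsg.IrrCharacter N) (hinv : (∀ s ∈ S, ∀ g g' : N, (g' : Γ) = s * g * s⁻¹ → (θ : N → ℂ) g' = (θ : N → ℂ) g)) : ∃ χ : Cfsg.IrrCharacter G, Cfsg.classInner (fun n : N => (χ : G → ℂ) ⟨n, hNG n.2⟩) (θ : N → ℂ) ≠ 0 ∧ (∀ s ∈ S, ∀ g g' : G, (g' : Γ) = s * g * s⁻¹ → (χ : G → ℂ) g' = (χ : G → ℂ) g) := by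
  obtain ⟨χ, hχ, hc, hχinv⟩ := main_aux S (N.relIndex G) G N hnorm hNG hNS hcop hsolv
    (θ : N → ℂ) θ.2 hinv le_rfl
  exact ⟨⟨χ, hχ⟩, hc, hχinv⟩

end Cfsg.Agent.S4448
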