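import Cfsg.Statements.S4456
import Mathlib
import Cfsg.Agent.S0081
import Cfsg.Agent.S0012
import Cfsg.Agent.Lib.Helper2.CharMore
import Cfsg.Agent.Lib.Helper2.CharClifford
import Cfsg.Agent.Lib.Helper2.CharLinear
import Cfsg.Agent.Lib.Helper2.IndFun

set_option autoImplicit false
open Cfsg

namespace Cfsg.Agent.S4456

open Cfsg.Agent.Lib.Helper2

/-- under the degree hypothesis, every linear character of a Sylow p-subgroup extends to the
whole group -/
theorem ext_lin {G : Type*} [Group G] [Finite G] (p : ℕ) (hp : p.Prime)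
    (hdeg : ∀ χ : Cfsg.IrrCharacter G, Cfsg.charDegree (χ : G → ℂ) ≠ 1 →
      p ∣ Cfsg.charDegree (χ : G → ℂ))
    (P : Sylow p G) (lam : (P : Subgroup G) →* ℂˣ) :
    ∃ mu : G →* ℂˣ, ∀ x : (P : Subgroup G), mu x = lam x := by
  classical
  have := Fintype.ofFinite G
  have := Fintype.ofFinite (P : Subgroup G)
  have := Fintype.ofFinite (Cfsg.IrrCharacter G)
  have : Fact p.Prime := ⟨hp⟩
  have hlam : Cfsg.IsIrrCharacter (P : Subgroup G) (fun g => (lam g : ℂ)) :=
    isIrrCharacter_of_hom lam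
  obtain ⟨Θ, hΘdef⟩ : ∃ Θ : G → ℂ, Θ = Cfsg.indFun (P : Subgroup G) (fun g => (lam g : ℂ)) :=
    ⟨_, rfl⟩
  have hΘ : Cfsg.IsCharacter G Θ := by
    rw [hΘdef]
    exact indFun_isCharacter _ (isCharacter_of_isIrrCharacter hlam)
  have hΘ1 : Θ 1 = ((P : Subgroup G).index : ℂ) := by
    rw [hΘdef, indFun_apply_one]; simp
  have hex : ∃ ψ : Cfsg.IrrCharacter G, Cfsg.classInner Θ ψ ≠ 0 ∧
      ¬ p ∣ Cfsg.charDegree (ψ : G → ℂ) := by
    by_contra hno
    have hno' : ∀ ψ : Cfsg.IrrCharacter G, Cfsg.classInner Θ ψ ≠ 0 →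
        p ∣ Cfsg.charDegree (ψ : G → ℂ) := by
      intro ψ h1
      by_contra h2
      exact hno ⟨ψ, h1, h2⟩
    have hnat : ∀ ψ : Cfsg.IrrCharacter G, ∃ n : ℕ, Cfsg.classInner Θ ψ = (n : ℂ) :=
      fun ψ => classInner_isCharacter_nat hΘ (isCharacter_of_isIrrCharacter ψ.2)
    choose m hm using hnat
    have hdg : ∀ ψ : Cfsg.IrrCharacter G, ∃ n : ℕ, (ψ : G → ℂ) 1 = (n : ℂ) := by
      intro ψ
      obtain ⟨n, _, hn⟩ := irr_apply_one ψ.2
      exact ⟨n, hn⟩
    choose d hd using hdg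
    have hcd : ∀ ψ : Cfsg.IrrCharacter G, Cfsg.charDegree (ψ : G → ℂ) = d ψ := by
      intro ψ
      unfold Cfsg.charDegree
      rw [hd ψ]
      simp
    have h1 := char_apply_one_eq_sum hΘ
    simp only [hm, hd] at h1
    rw [hΘ1] at h1
    have h2 : (P : Subgroup G).index = ∑ ψ : Cfsg.IrrCharacter G, m ψ * d ψ := by
      exact_mod_cast h1
    have h3 : p ∣ (P : Subgroup G).index := by
      rw [h2]
      apply Finset.dvd_sum
      intro ψ _
      by_cases h0 : m ψ = 0
      · rw [h0, zero_mul]; exact dvd_zero _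
      · have h4 : Cfsg.classInner Θ ψ ≠ 0 := by
          rw [hm ψ]; exact_mod_cast h0
        have h5 := hno' ψ h4
        rw [hcd ψ] at h5
        exact Dvd.dvd.mul_left h5 _
    exact P.not_dvd_index h3
  obtain ⟨ψ, hψ1, hψ2⟩ := hex
  have hψdeg : Cfsg.charDegree (ψ : G → ℂ) = 1 := by
    by_contra h
    exact hψ2 (hdeg ψ h)
  have hψ1' : (ψ : G → ℂ) 1 = 1 := by
    obtain ⟨n, _, hn⟩ := irr_apply_one ψ.2
    unfold Cfsg.charDegree at hψdeg
    rw [hn] at hψdeg
    simp at hψdeg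
    rw [hn, hψdeg]; simp
  obtain ⟨mu, hmu⟩ := hom_of_irr_deg_one ψ.2 hψ1'
  refine ⟨mu, ?_⟩
  have hrec := frobenius_reciprocity (P : Subgroup G) (fun g => (lam g : ℂ)) (ψ : G → ℂ)
    (isClassFunction_of_isIrrCharacter ψ.2)
  have hres : Cfsg.IsIrrCharacter (P : Subgroup G)
      (fun h : (P : Subgroup G) => (ψ : G → ℂ) h) := by
    rw [hmu]
    exact isIrrCharacter_of_hom (mu.comp (P : Subgroup G).subtype)
  have heq : (fun g : (P : Subgroup G) => (lam g : ℂ))
      = (fun h : (P : Subgroup G) => (ψ : G → ℂ) h) := by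
    by_contra hne
    apply hψ1
    rw [hΘdef, hrec]
    exact classInner_irr_ne hlam hres hne
  intro x
  have h6 := congrFun heq x
  rw [hmu] at h6
  exact Units.ext h6.symm

/-- consequence: a Sylow p-subgroup meets the derived subgroup of the group inside its own
derived subgroup -/
theorem focal_le {G : Type*} [Group G] [Finite G] (p : ℕ) (hp : p.Prime)
    (hdeg : ∀ χ : Cfsg.IrrCharacter G, Cfsg.charDegree (χ : G → ℂ) ≠ 1 →
      p ∣ Cfsg.charDegree (χ : G → ℂ))
    (P : Sylow p G) (x : (P : Subgroup G)) (hx : (x : G) ∈ commutator G) :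
    x ∈ commutator (P : Subgroup G) := by
  by_contra hnot
  have h1 : (Abelianization.of x : Abelianization (P : Subgroup G)) ≠ 1 := by
    intro h
    apply hnot
    rw [← Abelianization.ker_of]
    exact h
  obtain ⟨φ, hφ⟩ := CommGroup.exists_apply_ne_one_of_hasEnoughRootsOfUnity
    (Abelianization (P : Subgroup G)) ℂ h1
  obtain ⟨mu, hmu⟩ := ext_lin p hp hdeg P (φ.comp Abelianization.of)
  have h2 : mu (x : G) = 1 := by
    have := Abelianization.commutator_subset_ker mu hx
    exact this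
  apply hφ
  have h3 := hmu x
  rw [h2] at h3
  exact h3.symm


/-- Let p be a prime and G a finite group such that p divides the degree of every irreducible character of G of degree greater than one. Then G has a normal p-complement: a normal subgroup of order prime to p whose index is a power of p. -/
theorem result {G : Type*} [Group G] [Finite G] (p : ℕ) (hp : p.Prime) (hdeg : ∀ χ : Cfsg.IrrCharacter G, Cfsg.charDegree (χ : G → ℂ) ≠ 1 → p ∣ Cfsg.charDegree (χ : G → ℂ)) : ∃ N : Subgroup G, N.Normal ∧ (Nat.card N).Coprime p ∧ ∃ k : ℕ, N.index = p ^ k := by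
  classical
  have : Fact p.Prime := ⟨hp⟩
  obtain ⟨P⟩ : Nonempty (Sylow p G) := inferInstance
  obtain ⟨e, m, hm1, hm2⟩ := Nat.exists_eq_pow_mul_and_not_dvd (Nat.card_pos (α := G)).ne' p
    hp.ne_one
  have hcop : Nat.Coprime m p := ((Nat.Prime.coprime_iff_not_dvd hp).mpr hm1).symm
  obtain ⟨f, hf⟩ : ∃ f : G →* Abelianization G, ∀ x, f x = (Abelianization.of x) ^ m :=
    ⟨(powMonoidHom m).comp Abelianization.of, fun x => rfl⟩
  obtain ⟨N, hN⟩ : ∃ N : Subgroup G, N = f.ker := ⟨_, rfl⟩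
  have hNn : N.Normal := by rw [hN]; infer_instance
  -- index of N is a power of p
  have hNidx : ∃ a : ℕ, N.index = p ^ a := by
    rw [hN, Subgroup.index_ker]
    apply IsPGroup.iff_card.mp
    intro y
    obtain ⟨x, hx⟩ := y.2
    refine ⟨e, ?_⟩
    apply Subtype.ext
    rw [Subgroup.coe_pow, ← hx, hf, ← pow_mul, mul_comm, ← hm2, ← map_pow, pow_card_eq_one',
      map_one]
    rfl
  -- N meets P inside the Frattini subgroup of P
  have hNP : N ⊓ (P : Subgroup G) ≤ (frattini P).map (P : Subgroup G).subtype := by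
    intro x hx
    obtain ⟨hx1, hx2⟩ := Subgroup.mem_inf.mp hx
    have hx3 : (Abelianization.of x : Abelianization G) ^ m = 1 := by
      rw [← hf]
      rw [hN] at hx1
      exact hx1
    obtain ⟨j, hj⟩ := P.isPGroup' ⟨x, hx2⟩
    have hj' : x ^ (p ^ j) = 1 := by
      have := congrArg Subtype.val hj
      simpa using this
    have hx4 : (Abelianization.of x : Abelianization G) ^ (p ^ j) = 1 := by
      rw [← map_pow, hj', map_one]
    have hx5 : (Abelianization.of x : Abelianization G) = 1 := by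
      rw [← orderOf_eq_one_iff]
      have h1 := orderOf_dvd_of_pow_eq_one hx3
      have h2 := orderOf_dvd_of_pow_eq_one hx4
      have h3 : Nat.Coprime m (p ^ j) := Nat.Coprime.pow_right j hcop
      exact Nat.dvd_one.mp (h3 ▸ Nat.dvd_gcd h1 h2)
    have hx6 : x ∈ commutator G := by
      rw [← Abelianization.ker_of]
      exact hx5
    have hx7 := focal_le p hp hdeg P ⟨x, hx2⟩ hx6
    exact ⟨⟨x, hx2⟩, (Cfsg.Agent.S0012.result p P.isPGroup').1 hx7, rfl⟩
  obtain ⟨Q, K, hKn, hKc⟩ := Cfsg.Agent.S0081.result P N hNP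
  have hKidx : K.index = Nat.card Q := hKc.symm.index_eq_card
  obtain ⟨b, hb⟩ := IsPGroup.iff_card.mp Q.isPGroup'
  have hKcard : Nat.Coprime (Nat.card K) p := by
    rw [← hKc.index_eq_card]
    exact ((Nat.Prime.coprime_iff_not_dvd hp).mpr Q.not_dvd_index).symm
  refine ⟨K.map N.subtype, ?_, ?_, ?_⟩
  · constructor
    intro x hx g
    obtain ⟨k, hk, rfl⟩ := hx
    have hmem : g * (k : G) * g⁻¹ ∈ N := hNn.conj_mem _ k.2 g
    refine ⟨⟨g * (k : G) * g⁻¹, hmem⟩, ?_, rfl⟩
    have ho : orderOf (⟨g * (k : G) * g⁻¹, hmem⟩ : N) = orderOf k := by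
      rw [← Subgroup.orderOf_coe, ← Subgroup.orderOf_coe]
      exact (MulAut.conj g).orderOf_eq (k : G)
    have hok : orderOf k ∣ Nat.card K := by
      have := orderOf_dvd_natCard (⟨k, hk⟩ : K)
      rwa [← Subgroup.orderOf_coe] at this
    have hc : Nat.Coprime (K.index) (orderOf (⟨g * (k : G) * g⁻¹, hmem⟩ : N)) := by
      rw [ho, hKidx, hb]
      exact Nat.Coprime.pow_left b (Nat.Coprime.coprime_dvd_left hok hKcard).symm
    obtain ⟨r, hr⟩ := exists_pow_eq_self_of_coprime hc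
    rw [← hr]
    exact K.pow_mem (K.pow_index_mem _) r
  · rw [Nat.card_congr (K.equivMapOfInjective N.subtype N.subtype_injective).toEquiv.symm]
    exact hKcard
  · obtain ⟨a, ha⟩ := hNidx
    refine ⟨b + a, ?_⟩
    rw [Subgroup.index_map_subtype, hKidx, hb, ha, pow_add]

end Cfsg.Agent.S4456
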