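import Cfsg.Statements.S4487
-- import your own Cfsg.Agent.* helpers here
import Mathlib
import Cfsg.Agent.Lib.Helper25.OneBlock

set_option autoImplicit false
open Cfsg

namespace Cfsg.Agent.S4487

open Cfsg Cfsg.Agent.Lib.Helper25 in
/-- If the `p`-core contains its centralizer then all irreducible characters lie in one
block. -/
theorem result {G : Type*} [Group G] [Finite G] (p : ℕ) [Fact p.Prime] (M : Ideal Cfsg.AlgInt) (hM : Cfsg.IsPModular p M) (hcore : Cfsg.pPrimeCore p G = ⊥) (hconstr : Subgroup.centralizer ((Cfsg.pCore p G) : Set G) ≤ Cfsg.pCore p G) (χ ψ : Cfsg.IrrCharacter G) : Cfsg.SameBlock M (χ : G → ℂ) (ψ : G → ℂ) := by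
  have : Fintype G := Fintype.ofFinite G
  have hn : (Cfsg.pCore p G).Normal := pCore_normal''
  exact sameBlock_of_self_centralizing p M hM (Cfsg.pCore p G) pCore_isPGroup' hconstr χ ψ

end Cfsg.Agent.S4487
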