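import Cfsg.Statements.S4490
-- import your own Cfsg.Agent.* helpers here
import Mathlib
import Cfsg.Agent.Lib.Helper25.MinMax
import Cfsg.Agent.Lib.Helper25.OneBlock
import Cfsg.Agent.Lib.Helper25.ClassProd
import Cfsg.Agent.Lib.Helper8.BlockRing

set_option autoImplicit false
open Cfsg

namespace Cfsg.Agent.S4490

open Cfsg.Agent.Lib.Helper2 Cfsg.Agent.Lib.Helper25 Cfsg.Agent.Lib.Helper8 in
/-- a sum over a finite set with a fixed-point-free involution, of a local-integer valued
function whose values on each pair add up to a member of the local ideal -/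
theorem pair_sum_mem {α : Type*} (M : Ideal Cfsg.AlgInt) [M.IsPrime] (s : Finset α) (σ : α → α)
    (F : α → ℂ) (hR : ∀ a, Cfsg.MemLocalRing M (F a))
    (hmem : ∀ a ∈ s, σ a ∈ s) (hinv : ∀ a ∈ s, σ (σ a) = a) (hne : ∀ a ∈ s, σ a ≠ a)
    (hF : ∀ a ∈ s, Cfsg.MemLocalIdeal M (F a + F (σ a))) :
    Cfsg.MemLocalIdeal M (∑ a ∈ s, F a) := by
  classical
  let φ : α → (locRing M ⧸ locIdeal M) := fun a => Ideal.Quotient.mk (locIdeal M) ⟨F a, hR a⟩
  have h0 : ∑ a ∈ s, φ a = 0 := by
    apply Finset.sum_involution (fun a _ => σ a)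
    · intro a ha
      change Ideal.Quotient.mk (locIdeal M) ⟨F a, hR a⟩
        + Ideal.Quotient.mk (locIdeal M) ⟨F (σ a), hR (σ a)⟩ = 0
      rw [← map_add, Ideal.Quotient.eq_zero_iff_mem, mem_locIdeal_iff]
      exact hF a ha
    · intro a ha _
      exact hne a ha
    · intro a ha
      exact hmem a ha
    · intro a ha
      exact hinv a ha
  have h1 : ∑ a ∈ s, φ a = Ideal.Quotient.mk (locIdeal M)
      ⟨∑ a ∈ s, F a, memLocalRing_sum M _ _ (fun a _ => hR a)⟩ := by
    rw [← map_sum]
    congr 1
    apply Subtype.ext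
    rw [AddSubmonoidClass.coe_finsetSum]
  rw [h1, Ideal.Quotient.eq_zero_iff_mem, mem_locIdeal_iff] at h0
  exact h0

open Cfsg.Agent.Lib.Helper2 Cfsg.Agent.Lib.Helper25 Cfsg.Agent.Lib.Helper8 in
/-- for a `2`-subgroup `P`: a class function with local integer values vanishing on elements
of even order, whose values at `g` and `g⁻¹` add up to a member of the local ideal for `g`
centralizing `P`, has sum congruent to its value at `1` -/
theorem sum_cong_one {G : Type*} [Group G] [Fintype G] (M : Ideal Cfsg.AlgInt)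
    (hM : Cfsg.IsPModular 2 M) (P : Subgroup G) (hP : IsPGroup 2 P)
    (F : G → ℂ) (hR : ∀ g, Cfsg.MemLocalRing M (F g))
    (hcl : ∀ u ∈ P, ∀ x : G, F (u * x * u⁻¹) = F x)
    (hsing : ∀ g : G, 2 ∣ orderOf g → F g = 0)
    (hpair : ∀ g ∈ Subgroup.centralizer (P : Set G), Cfsg.MemLocalIdeal M (F g + F g⁻¹)) :
    Cfsg.MemLocalIdeal M (∑ g : G, F g - F 1) := by
  classical
  have hpr := isPrime_of_isPModular hM
  have : Fact (Nat.Prime 2) := ⟨Nat.prime_two⟩
  have key1 := sum_sub_sum_centralizer_mem hM P hP F hR hcl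
  set C := Subgroup.centralizer (P : Set G) with hC
  set Y : Finset G := ((Finset.univ.filter (fun g : G => g ∈ C)).erase 1).filter
    (fun g => ¬ 2 ∣ orderOf g) with hY
  have hYmem : ∀ g, g ∈ Y ↔ g ∈ C ∧ g ≠ 1 ∧ ¬ 2 ∣ orderOf g := by
    intro g
    rw [hY, Finset.mem_filter, Finset.mem_erase, Finset.mem_filter]
    simp only [Finset.mem_univ, true_and]
    tauto
  have e1 : ∑ x : G, (if x ∈ C then F x else 0) = F 1 + ∑ g ∈ Y, F g := by
    rw [← Finset.sum_filter]
    rw [← Finset.add_sum_erase _ F (a := 1) (by simp [C.one_mem])]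
    congr 1
    rw [hY]
    symm
    apply Finset.sum_filter_of_ne
    intro x _ hx h2
    exact hx (hsing x h2)
  have key2 : Cfsg.MemLocalIdeal M (∑ g ∈ Y, F g) := by
    apply pair_sum_mem M Y (fun g => g⁻¹) F hR
    · intro g hg
      rw [hYmem] at hg ⊢
      refine ⟨C.inv_mem hg.1, ?_, ?_⟩
      · intro h; exact hg.2.1 (inv_eq_one.mp h)
      · rw [orderOf_inv]; exact hg.2.2
    · intro g _
      exact inv_inv g
    · intro g hg hgg
      rw [hYmem] at hg
      have h2 : g ^ 2 = 1 := by
        have : g * g = 1 := by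
          nth_rewrite 1 [← hgg]
          exact inv_mul_cancel g
        rw [pow_two]; exact this
      have h3 : orderOf g ∣ 2 := orderOf_dvd_of_pow_eq_one h2
      rcases (Nat.dvd_prime Nat.prime_two).mp h3 with h4 | h4
      · exact hg.2.1 (orderOf_eq_one_iff.mp h4)
      · exact hg.2.2 (by rw [h4])
    · intro g hg
      rw [hYmem] at hg
      exact hpair g hg.1
  have e2 : ∑ g : G, F g - F 1 = (∑ x : G, F x - ∑ x : G, (if x ∈ C then F x else 0))
      + ∑ g ∈ Y, F g := by
    rw [e1]; ring
  rw [e2]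
  exact MemLocalIdeal.add M key1 key2

open Cfsg.Agent.Lib.Helper2 Cfsg.Agent.Lib.Helper25 Cfsg.Agent.Lib.Helper8 in
/-- Let G be a finite group and M a maximal ideal of the algebraic integers containing 2. Every 2-block B of G whose defect groups are the Sylow 2-subgroups of G (a block of full defect) and which is not the principal block is different from its complex-conjugate block, the block formed by the complex conjugates of the members of B. -/
theorem result {G : Type*} [Group G] [Finite G] (M : Ideal Cfsg.AlgInt) (hM : Cfsg.IsPModular 2 M) (B : Set (Cfsg.IrrCharacter G)) (hB : Cfsg.IsPBlock M B) (P : Sylow 2 G) (hfull : Cfsg.IsDefectGroup 2 M B (P : Subgroup G)) (hnp : B ≠ Cfsg.principalBlock M G) : {ψ : Cfsg.IrrCharacter G | ∃ χ ∈ B, (ψ : G → ℂ) = fun g => (starRingEnd ℂ) ((χ : G → ℂ) g)} ≠ B := by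
  classical
  have hpr := isPrime_of_isPModular hM
  have : Fact (Nat.Prime 2) := ⟨Nat.prime_two⟩
  have : Fintype G := Fintype.ofFinite G
  have : Fintype (IrrCharacter G) := Fintype.ofFinite _
  intro hEq
  have hclosed : BlockClosed M B := blockClosed_of_isPBlock M hB
  have hconj : ∀ ψ ∈ B, ∃ χ ∈ B, (ψ : G → ℂ) = fun g => (starRingEnd ℂ) ((χ : G → ℂ) g) := by
    intro ψ hψ
    rw [← hEq] at hψ
    exact hψ
  have hconj' : ∀ χ ∈ B, ∃ ψ ∈ B, (ψ : G → ℂ) = fun g => (starRingEnd ℂ) ((χ : G → ℂ) g) := by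
    intro χ hχ
    obtain ⟨χ', hχ', h⟩ := hconj χ hχ
    refine ⟨χ', hχ', ?_⟩
    funext g
    have := congrFun h g
    rw [this]
    simp
  -- the idempotent coefficients are invariant under inversion
  have hcoef : ∀ g, blockCoeff B g⁻¹ = blockCoeff B g := by
    intro g
    rw [blockCoeff_eq_sum, blockCoeff_eq_sum]
    congr 1
    let c : IrrCharacter G → IrrCharacter G :=
      fun χ => if h : χ ∈ B then (hconj' χ h).choose else χ
    have hc1 : ∀ χ, χ ∈ B → (c χ ∈ B ∧
        ((c χ : IrrCharacter G) : G → ℂ) = fun g => (starRingEnd ℂ) ((χ : G → ℂ) g)) := by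
      intro χ h
      have := (hconj' χ h).choose_spec
      simp only [c, dif_pos h]
      exact this
    have hc2 : ∀ χ, χ ∉ B → c χ = χ := fun χ h => by simp only [c, dif_neg h]
    have hinv : Function.Involutive c := by
      intro χ
      by_cases h : χ ∈ B
      · obtain ⟨h1, h2⟩ := hc1 χ h
        obtain ⟨h3, h4⟩ := hc1 (c χ) h1
        apply Subtype.ext
        rw [h4]
        funext g
        rw [h2]
        simp
      · rw [hc2 χ h, hc2 χ h]
    have hsum : ∀ f : IrrCharacter G → ℂ, ∑ χ, f (c χ) = ∑ χ, f χ :=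
      fun f => Equiv.sum_comp hinv.toPerm f
    rw [← hsum (fun χ : IrrCharacter G => (if χ ∈ B then (1 : ℂ) else 0)
      * ((χ : G → ℂ) 1 * (starRingEnd ℂ) ((χ : G → ℂ) g)))]
    apply Finset.sum_congr rfl
    intro χ _
    change (if χ ∈ B then (1 : ℂ) else 0) * ((χ : G → ℂ) 1 * (starRingEnd ℂ) ((χ : G → ℂ) g⁻¹))
      = (if c χ ∈ B then (1 : ℂ) else 0)
        * (((c χ : IrrCharacter G) : G → ℂ) 1 * (starRingEnd ℂ) (((c χ : IrrCharacter G) : G → ℂ) g))
    by_cases h : χ ∈ B
    · obtain ⟨h1, h2⟩ := hc1 χ h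
      rw [if_pos h1, if_pos h, h2]
      simp only
      rw [irr_inv χ g, irr_conj_one χ]
    · rw [hc2 χ h, if_neg h, zero_mul, zero_mul]
  -- a member of odd degree
  obtain ⟨m0, hm0, ⟨χ, hχ, hχm⟩, -⟩ := blockDefect_spec (p := 2) B (isPBlock_nonempty hM hB)
  have hcard := card_of_isDefectGroup hM B hB _ hfull
  have hcard2 : Nat.card (P : Subgroup G) = 2 ^ (Nat.card G).factorization 2 :=
    P.card_eq_multiplicity
  rw [hcard2] at hcard
  have hdef : (Nat.card G).factorization 2 = blockDefect 2 B :=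
    Nat.pow_right_injective (le_refl 2) hcard
  have hm00 : m0 = 0 := by omega
  obtain ⟨d, hd1, hd0, -, hd2⟩ := irr_degree χ
  have hodd : ¬ 2 ∣ d := by
    rw [hm00, hd2] at hχm
    rcases (Nat.factorization_eq_zero_iff d 2).mp hχm with h | h | h
    · exact absurd Nat.prime_two h
    · exact h
    · omega
  have hPg : IsPGroup 2 (P : Subgroup G) := P.isPGroup'
  have hcf := blockCoeff_isClassFunction B
  have hBR := blockCoeff_memLocalRing hM B hclosed
  -- the trivial character is not in the block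
  have htriv : trivIrr G ∉ B := by
    intro h
    apply hnp
    exact isPBlock_eq_of_mem hM hB ⟨trivIrr G, rfl⟩ h (trivIrr_mem_principal M)
  -- the coefficient at the identity lies in the ideal
  have h0 : MemLocalIdeal M (blockCoeff B 1) := by
    have hs := sum_cong_one M hM (P : Subgroup G) hPg (blockCoeff B) hBR
      (fun u _ x => hcf x u)
      (fun g hg => blockCoeff_eq_zero_of_singular hM B hclosed g hg)
      (fun g _ => by
        rw [hcoef g]
        have : blockCoeff B g + blockCoeff B g = ((2 : ℕ) : ℂ) * blockCoeff B g := by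
          push_cast; ring
        rw [this]
        exact MemLocalIdeal.mul_right M (memLocalIdeal_p hM) (hBR g))
    have hom := Cfsg.Agent.Lib.Helper25.omegaFun_blockCoeff B (trivIrr G)
    rw [if_neg htriv] at hom
    unfold omegaFun at hom
    have hsum : ∑ g : G, blockCoeff B g = 0 := by
      have h1 : ∑ g : G, blockCoeff B g * ((trivIrr G : IrrCharacter G) : G → ℂ) g
          = ∑ g : G, blockCoeff B g := by
        apply Finset.sum_congr rfl
        intro g _
        change blockCoeff B g * 1 = blockCoeff B g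
        rw [mul_one]
      have h2 : ((trivIrr G : IrrCharacter G) : G → ℂ) 1 = 1 := rfl
      rw [h1, h2, div_one] at hom
      exact hom
    rw [hsum, zero_sub] at hs
    have := MemLocalIdeal.neg M hs
    rwa [neg_neg] at this
  -- the sum against `χ`
  have hχR : ∀ g, MemLocalRing M ((χ : G → ℂ) g) :=
    fun g => memLocalRing_of_isIntegral M (irr_isIntegral χ g)
  have h1 : MemLocalIdeal M (∑ g : G, blockCoeff B g * (χ : G → ℂ) g
      - blockCoeff B 1 * (χ : G → ℂ) 1) := by
    apply sum_cong_one M hM (P : Subgroup G) hPg (fun g => blockCoeff B g * (χ : G → ℂ) g)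
      (fun g => MemLocalRing.mul M (hBR g) (hχR g))
    · intro u _ x
      change blockCoeff B (u * x * u⁻¹) * (χ : G → ℂ) (u * x * u⁻¹)
        = blockCoeff B x * (χ : G → ℂ) x
      rw [hcf x u, isClassFunction_of_isIrrCharacter χ.2 x u]
    · intro g hg
      change blockCoeff B g * (χ : G → ℂ) g = 0
      rw [blockCoeff_eq_zero_of_singular hM B hclosed g hg, zero_mul]
    · intro g hg
      change MemLocalIdeal M (blockCoeff B g * (χ : G → ℂ) g
        + blockCoeff B g⁻¹ * (χ : G → ℂ) g⁻¹)
      rw [hcoef g, irr_inv χ g, ← mul_add]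
      apply MemLocalIdeal.mul_left M (hBR g)
      obtain ⟨ψ, hψ, hψe⟩ := hconj' χ hχ
      have hsb := isPBlock_sameBlock hM hB χ hχ ψ hψ g
      unfold centralChar at hsb
      rw [hψe] at hsb
      simp only at hsb
      rw [irr_conj_one χ, hd1] at hsb
      -- the index of the centralizer is odd
      set idx := (Subgroup.centralizer ({g} : Set G)).index with hidx
      have hle : (P : Subgroup G) ≤ Subgroup.centralizer ({g} : Set G) := by
        intro u hu
        rw [Subgroup.mem_centralizer_iff]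
        intro y hy
        rw [Set.mem_singleton_iff.mp hy]
        exact (Subgroup.mem_centralizer_iff.mp hg u hu).symm
      have hidx2 : ¬ 2 ∣ idx := by
        intro h
        exact P.not_dvd_index (dvd_trans h (Subgroup.index_dvd_of_le hle))
      have hidx0 : (idx : ℂ) ≠ 0 := by
        intro h
        apply hidx2
        have : idx = 0 := by exact_mod_cast h
        rw [this]; exact dvd_zero 2
      have hd0' : (d : ℂ) ≠ 0 := by exact_mod_cast hd0.ne'
      have hdiff : MemLocalIdeal M ((χ : G → ℂ) g - (starRingEnd ℂ) ((χ : G → ℂ) g)) := by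
        have h3 := MemLocalIdeal.mul_left M
          (MemLocalRing.mul M (memLocalRing_natCast M d) (memLocalRing_inv_natCast hM hidx2)) hsb
        have e : (d : ℂ) * (idx : ℂ)⁻¹ * ((idx : ℂ) * (χ : G → ℂ) g / (d : ℂ)
            - (idx : ℂ) * (starRingEnd ℂ) ((χ : G → ℂ) g) / (d : ℂ))
            = (χ : G → ℂ) g - (starRingEnd ℂ) ((χ : G → ℂ) g) := by
          field_simp
        rw [e] at h3
        exact h3
      have e2 : (χ : G → ℂ) g + (starRingEnd ℂ) ((χ : G → ℂ) g)
          = ((χ : G → ℂ) g - (starRingEnd ℂ) ((χ : G → ℂ) g))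
            + ((2 : ℕ) : ℂ) * (starRingEnd ℂ) ((χ : G → ℂ) g) := by
        push_cast; ring
      rw [e2]
      apply MemLocalIdeal.add M hdiff
      apply MemLocalIdeal.mul_right M (memLocalIdeal_p hM)
      rw [← irr_inv χ g]
      exact hχR _
  have hom := Cfsg.Agent.Lib.Helper25.omegaFun_blockCoeff B χ
  rw [if_pos hχ] at hom
  unfold omegaFun at hom
  have hχ1 : (χ : G → ℂ) 1 ≠ 0 := irr_one_ne_zero χ.2
  have hsum : ∑ g : G, blockCoeff B g * (χ : G → ℂ) g = (χ : G → ℂ) 1 := by
    field_simp at hom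
    exact hom
  rw [hsum] at h1
  have h2 : MemLocalIdeal M ((χ : G → ℂ) 1) := by
    have := MemLocalIdeal.add M h1 (MemLocalIdeal.mul_right M h0 (hχR 1))
    rwa [sub_add_cancel] at this
  rw [hd1] at h2
  exact hodd ((memLocalIdeal_natCast_iff hM d).mp h2)

end Cfsg.Agent.S4490
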