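import Cfsg.Statements.S4498
-- import your own Cfsg.Agent.* helpers here
import Mathlib
import Cfsg.Agent.Lib.Helper25.WeakOrth
import Cfsg.Agent.Lib.Helper25.BlockDefect

set_option autoImplicit false
open Cfsg

namespace Cfsg.Agent.S4498

open Cfsg.Agent.Lib.Helper2 Cfsg.Agent.Lib.Helper25

open scoped ComplexConjugate

/-- If p ≠ q divide #G and G has no element of order pq, then B₀(p) ∩ B₀(q) contains a nonprincipal irreducible character. -/
theorem result {G : Type*} [Group G] [Finite G] (p q : ℕ) [Fact p.Prime] [Fact q.Prime] (hpq : p ≠ q) (hp : p ∣ Nat.card G) (hq : q ∣ Nat.card G) (hno : ∀ g : G, orderOf g ≠ p * q) (Mp Mq : Ideal Cfsg.AlgInt) (hMp : Cfsg.IsPModular p Mp) (hMq : Cfsg.IsPModular q Mq) : ∃ χ : Cfsg.IrrCharacter G, (χ : G → ℂ) ≠ (fun _ => 1) ∧ χ ∈ Cfsg.principalBlock Mp G ∧ χ ∈ Cfsg.principalBlock Mq G := by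
  classical
  have : Fintype G := Fintype.ofFinite G
  have : Fintype (IrrCharacter G) := Fintype.ofFinite _
  have hprp := isPrime_of_isPModular hMp
  have hprq := isPrime_of_isPModular hMq
  have hne := card_ne_zero_complex G
  by_contra hcon
  push Not at hcon
  obtain ⟨u, hu⟩ := exists_prime_orderOf_dvd_card' p hp
  obtain ⟨v, hv⟩ := exists_prime_orderOf_dvd_card' q hq
  set Bp := principalBlock Mp G with hBp
  set Bq := principalBlock Mq G with hBq
  let cp : IrrCharacter G → ℂ := fun χ => if χ ∈ Bp then 1 else 0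
  let cq : IrrCharacter G → ℂ := fun χ => if χ ∈ Bq then 1 else 0
  let α : G → ℂ := fun g => ∑ χ : IrrCharacter G, cp χ * ((χ : G → ℂ) g * conj ((χ : G → ℂ) u))
  let β : G → ℂ := fun g => ∑ χ : IrrCharacter G, cq χ * ((χ : G → ℂ) g * conj ((χ : G → ℂ) v))
  have hα : ∀ g : G, ¬ p ∣ orderOf g → α g = 0 := fun g hg =>
    block_orth hMp Bp (blockClosed_principal Mp) g u hg (by rw [hu])
  have hβ : ∀ g : G, ¬ q ∣ orderOf g → β g = 0 := fun g hg =>
    block_orth hMq Bq (blockClosed_principal Mq) g v hg (by rw [hv])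
  have hzero : ∑ g : G, α g * conj (β g) = 0 := by
    apply Finset.sum_eq_zero
    intro g _
    by_cases h1 : p ∣ orderOf g
    · by_cases h2 : q ∣ orderOf g
      · exfalso
        have hcop : Nat.Coprime p q := (Nat.coprime_primes Fact.out Fact.out).mpr hpq
        have h3 : p * q ∣ orderOf g := hcop.mul_dvd_of_dvd_of_dvd h1 h2
        exact hno _ (orderOf_pow_orderOf_div (orderOf_pos g).ne' h3)
      · rw [hβ g h2, map_zero, mul_zero]
    · rw [hα g h1, zero_mul]
  -- the other evaluation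
  have hval : ∑ g : G, α g * conj (β g)
      = (Nat.card G : ℂ) * ∑ χ : IrrCharacter G,
          cp χ * cq χ * (conj ((χ : G → ℂ) u) * (χ : G → ℂ) v) := by
    have e1 : ∀ g : G, α g * conj (β g) = ∑ χ : IrrCharacter G, ∑ ψ : IrrCharacter G,
        cp χ * cq ψ * (conj ((χ : G → ℂ) u) * (ψ : G → ℂ) v)
          * ((χ : G → ℂ) g * conj ((ψ : G → ℂ) g)) := by
      intro g
      change (∑ χ : IrrCharacter G, cp χ * ((χ : G → ℂ) g * conj ((χ : G → ℂ) u)))
        * conj (∑ χ : IrrCharacter G, cq χ * ((χ : G → ℂ) g * conj ((χ : G → ℂ) v))) = _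
      rw [map_sum, Finset.sum_mul_sum]
      apply Finset.sum_congr rfl
      intro χ _
      apply Finset.sum_congr rfl
      intro ψ _
      have : conj (cq ψ) = cq ψ := by
        change conj (if ψ ∈ Bq then (1 : ℂ) else 0) = if ψ ∈ Bq then (1 : ℂ) else 0
        split_ifs <;> simp
      rw [map_mul, map_mul, Complex.conj_conj, this]
      ring
    simp only [e1]
    rw [Finset.sum_comm, Finset.mul_sum]
    apply Finset.sum_congr rfl
    intro χ _
    rw [Finset.sum_comm]
    have e2 : ∀ ψ : IrrCharacter G, ∑ g : G,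
        cp χ * cq ψ * (conj ((χ : G → ℂ) u) * (ψ : G → ℂ) v)
          * ((χ : G → ℂ) g * conj ((ψ : G → ℂ) g))
        = if χ = ψ then (Nat.card G : ℂ) * (cp χ * cq ψ * (conj ((χ : G → ℂ) u) * (ψ : G → ℂ) v))
          else 0 := by
      intro ψ
      rw [← Finset.mul_sum]
      have h1 := classInner_irr χ.2 ψ.2
      rw [classInner_def] at h1
      have h3 : ((χ : G → ℂ) = (ψ : G → ℂ)) ↔ χ = ψ := Subtype.ext_iff.symm
      rw [if_congr h3 rfl rfl] at h1
      have h4 : ∑ g : G, (χ : G → ℂ) g * conj ((ψ : G → ℂ) g)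
          = (Nat.card G : ℂ) * (if χ = ψ then 1 else 0) := by
        rw [← h1, ← mul_assoc, mul_inv_cancel₀ hne, one_mul]
      rw [h4]
      split_ifs <;> ring
    simp only [e2]
    rw [Finset.sum_ite_eq Finset.univ χ, if_pos (Finset.mem_univ _)]
  rw [hzero] at hval
  have hsum : ∑ χ : IrrCharacter G, cp χ * cq χ * (conj ((χ : G → ℂ) u) * (χ : G → ℂ) v) = 1 := by
    rw [Finset.sum_eq_single (trivIrr G)]
    · have h1 : cp (trivIrr G) = 1 := if_pos (trivIrr_mem_principal Mp)
      have h2 : cq (trivIrr G) = 1 := if_pos (trivIrr_mem_principal Mq)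
      rw [h1, h2]
      change (1 : ℂ) * 1 * (conj (1 : ℂ) * 1) = 1
      simp
    · intro χ _ hχ
      by_cases h1 : χ ∈ Bp
      · by_cases h2 : χ ∈ Bq
        · exfalso
          apply hχ
          apply Subtype.ext
          by_contra h3
          exact hcon χ h3 h1 h2
        · have : cq χ = 0 := if_neg h2
          rw [this]; ring
      · have : cp χ = 0 := if_neg h1
        rw [this]; ring
    · intro h; exact absurd (Finset.mem_univ _) h
  rw [hsum, mul_one] at hval
  exact hne hval.symm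

end Cfsg.Agent.S4498
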