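import Cfsg.Statements.S4510
-- import your own Cfsg.Agent.* helpers here
import Mathlib
import Cfsg.Agent.Lib.Helper25.MinMax
import Cfsg.Agent.Lib.Helper8.BlockAux

set_option autoImplicit false
open Cfsg

namespace Cfsg.Agent.S4510

open Cfsg Cfsg.Agent.Lib.Helper25 Cfsg.Agent.Lib.Helper2 in
/-- Two characters in blocks of defect `d` lie in the same block iff their central characters
agree modulo the local ideal on the `p`-regular classes of defect `d`. -/
theorem result {G : Type*} [Group G] [Finite G] (p : ℕ) [Fact p.Prime] (M : Ideal Cfsg.AlgInt) (hM : Cfsg.IsPModular p M) (d : ℕ) (χ ψ : Cfsg.IrrCharacter G) (hχ : Cfsg.blockDefect p (Cfsg.blockOf M (χ : G → ℂ)) = d) (hψ : Cfsg.blockDefect p (Cfsg.blockOf M (ψ : G → ℂ)) = d) : Cfsg.SameBlock M (χ : G → ℂ) (ψ : G → ℂ) ↔ ∀ x : G, ¬ p ∣ orderOf x → (Nat.card (Subgroup.centralizer ({x} : Set G))).factorization p = d → Cfsg.MemLocalIdeal M (Cfsg.centralChar (χ : G → ℂ) x - Cfsg.centralChar (ψ : G → ℂ) x) := by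
  classical
  have : Fintype G := Fintype.ofFinite G
  have : Fintype (IrrCharacter G) := Fintype.ofFinite _
  have hpr := isPrime_of_isPModular hM
  constructor
  · intro h x _ _
    exact h x
  · intro h
    by_contra hns
    set B := blockOf M (χ : G → ℂ) with hBdef
    have hBc : BlockClosed M B := blockClosed_blockOf M _
    have hχB : χ ∈ B := sameBlock_refl M _
    have hψB : ψ ∉ B := hns
    have h1 := omegaFun_blockCoeff B χ
    have h2 := omegaFun_blockCoeff B ψ
    rw [if_pos hχB] at h1
    rw [if_neg hψB] at h2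
    have hcf := blockCoeff_isClassFunction B
    rw [Cfsg.Agent.Lib.Helper8.omegaFun_eq_sum_classes _ (isClassFunction_of_isIrrCharacter χ.2)
      _ hcf] at h1
    rw [Cfsg.Agent.Lib.Helper8.omegaFun_eq_sum_classes _ (isClassFunction_of_isIrrCharacter ψ.2)
      _ hcf] at h2
    have h3 : MemLocalIdeal M (1 : ℂ) := by
      have e : (1 : ℂ) = 1 - 0 := by ring
      rw [e]
      nth_rewrite 1 [← h1]
      rw [← h2, ← Finset.sum_sub_distrib]
      apply memLocalIdeal_sum
      intro c _
      rw [← mul_sub]
      set x := c.out with hx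
      have hbR : MemLocalRing M (blockCoeff B x) := blockCoeff_memLocalRing hM B hBc x
      have hωR : MemLocalRing M (centralChar (χ : G → ℂ) x - centralChar (ψ : G → ℂ) x) :=
        MemLocalRing.sub M (memLocalRing_of_isIntegral M (centralChar_isIntegral χ x))
          (memLocalRing_of_isIntegral M (centralChar_isIntegral ψ x))
      by_cases hsing : p ∣ orderOf x
      · rw [blockCoeff_eq_zero_of_singular hM B hBc x hsing, zero_mul]
        exact memLocalIdeal_zero M
      rcases lt_trichotomy ((Nat.card (Subgroup.centralizer ({x} : Set G))).factorization p) d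
        with hlt | heq | hgt
      · apply MemLocalIdeal.mul_left M hbR
        apply MemLocalIdeal.sub M
        · apply memLocalIdeal_centralChar_of_defect_lt hM B
            (fun χ₁ h₁ χ₂ h₂ => sameBlock_trans M (sameBlock_symm M h₁) h₂) x (by rw [hχ]; exact hlt)
            χ hχB
        · apply memLocalIdeal_centralChar_of_defect_lt hM (blockOf M (ψ : G → ℂ))
            (fun χ₁ h₁ χ₂ h₂ => sameBlock_trans M (sameBlock_symm M h₁) h₂) x (by rw [hψ]; exact hlt)
            ψ (sameBlock_refl M _)
      · exact MemLocalIdeal.mul_left M hbR (h x hsing heq)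
      · apply MemLocalIdeal.mul_right M _ hωR
        exact memLocalIdeal_blockCoeff_of_defect_lt hM B hBc x (by rw [hχ]; exact hgt)
    exact not_memLocalIdeal_one M h3

end Cfsg.Agent.S4510
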