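import Cfsg.Statements.S4636

set_option autoImplicit false
open scoped Pointwise
open Cfsg

namespace Cfsg.Agent.S4636

/-- In a cyclic subgroup, two subgroups of the same positive order coincide. -/
theorem unique_of_card {G : Type*} [Group G] [Finite G] (p : ℕ) (hp : 0 < p) (P : Subgroup G)
    (hcyc : IsCyclic P) (W Z : Subgroup G) (hW : W ≤ P) (hZ : Z ≤ P)
    (hWc : Nat.card W = p) (hZc : Nat.card Z = p) : W = Z := by
  classical
  have : Fintype P := Fintype.ofFinite P
  let S : Set P := {a : P | a ^ p = 1}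
  have hS : S.ncard ≤ p := by
    have h := IsCyclic.card_pow_eq_one_le (α := P) hp
    have : S.ncard = (Finset.univ.filter (fun a : P => a ^ p = 1)).card := by
      rw [← Set.ncard_coe_finset]
      congr 1
      ext a
      simp [S]
    rw [this]
    exact h
  have key : ∀ V : Subgroup G, V ≤ P → Nat.card V = p → ((V.subgroupOf P : Subgroup P) : Set P) = S := by
    intro V hV hVc
    have hcard : Nat.card (V.subgroupOf P) = p := by
      rw [← hVc]
      exact Nat.card_congr (Subgroup.subgroupOfEquivOfLe hV).toEquiv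
    apply Set.eq_of_subset_of_ncard_le
    · intro a ha
      have ha' : a ∈ V.subgroupOf P := ha
      have h1 : (⟨a, ha'⟩ : V.subgroupOf P) ^ Nat.card (V.subgroupOf P) = 1 := pow_card_eq_one'
      rw [hcard] at h1
      have h2 := congrArg (fun z : V.subgroupOf P => (z : P)) h1
      simpa [S] using h2
    · have : ((V.subgroupOf P : Subgroup P) : Set P).ncard = p := by
        rw [← hcard]
        rfl
      rw [this]
      exact hS
    · exact Set.toFinite _
  have h1 := key W hW hWc
  have h2 := key Z hZ hZc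
  have h3 : W.subgroupOf P = Z.subgroupOf P := SetLike.coe_injective (h1.trans h2.symm)
  rw [Subgroup.subgroupOf_inj] at h3
  rwa [inf_eq_left.mpr hW, inf_eq_left.mpr hZ] at h3

/-- Let P be a nontrivial cyclic p-subgroup of the finite group G and Z its subgroup of order p. For every x outside N_G(Z), P meets its conjugate xPx⁻¹ trivially; consequently N_G(Q) ≤ N_G(Z) for every nontrivial subgroup Q of P. -/
theorem result {G : Type*} [Group G] [Finite G] (p : ℕ) [Fact p.Prime] (P : Subgroup G) (hP : IsPGroup p P) (hP1 : P ≠ ⊥) (hcyc : IsCyclic P) (Z : Subgroup G) (hZ : Z ≤ P) (hZcard : Nat.card Z = p) : (∀ x : G, x ∉ Subgroup.normalizer (Z : Set G) → P ⊓ MulAut.conj x • P = ⊥) ∧ ∀ Q : Subgroup G, Q ≤ P → Q ≠ ⊥ → Subgroup.normalizer (Q : Set G) ≤ Subgroup.normalizer (Z : Set G) := by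
  have hp : p.Prime := Fact.out
  have key : ∀ x : G, x ∉ Subgroup.normalizer (Z : Set G) → P ⊓ MulAut.conj x • P = ⊥ := by
    intro x hx
    by_contra hK
    apply hx
    set K : Subgroup G := P ⊓ MulAut.conj x • P with hKdef
    have hKp : IsPGroup p K := hP.to_le inf_le_left
    have hKnt : Nontrivial K := (Subgroup.nontrivial_iff_ne_bot K).mpr hK
    obtain ⟨n, hn⟩ := IsPGroup.iff_card.mp hKp
    have hn0 : n ≠ 0 := by
      rintro rfl
      have : Nat.card K = 1 := by simpa using hn
      have h1 := (Nat.card_eq_one_iff_unique.mp this).1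
      exact not_subsingleton K h1
    have hdvd : p ∣ Nat.card K := by
      rw [hn]
      exact dvd_pow_self p hn0
    obtain ⟨y, hy⟩ := exists_prime_orderOf_dvd_card' p hdvd
    set W : Subgroup G := Subgroup.zpowers (y : G) with hWdef
    have hWc : Nat.card W = p := by
      rw [hWdef, Nat.card_zpowers, Subgroup.orderOf_coe, hy]
    have hWK : W ≤ K := by
      rw [hWdef, Subgroup.zpowers_le]
      exact y.2
    have hWP : W ≤ P := hWK.trans inf_le_left
    have hWxP : W ≤ MulAut.conj x • P := hWK.trans inf_le_right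
    have hWZ : W = Z := unique_of_card p hp.pos P hcyc W Z hWP hZ hWc hZcard
    have hW' : MulAut.conj x⁻¹ • W ≤ P := by
      have := Subgroup.subset_pointwise_smul_iff.mp hWxP
      simpa using this
    have hW'c : Nat.card (MulAut.conj x⁻¹ • W : Subgroup G) = p := by
      rw [← hWc]
      exact (Nat.card_congr (Subgroup.equivSMul (MulAut.conj x⁻¹) W).toEquiv).symm
    have hW'Z : MulAut.conj x⁻¹ • W = Z :=
      unique_of_card p hp.pos P hcyc _ Z hW' hZ hW'c hZcard
    have hxinv : x⁻¹ ∈ Subgroup.normalizer (Z : Set G) := by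
      rw [Subgroup.mem_normalizer_iff_map_conj_eq]
      rw [hWZ] at hW'Z
      exact hW'Z
    simpa using inv_mem hxinv
  refine ⟨key, ?_⟩
  intro Q hQ hQ1 g hg
  by_contra hgZ
  have h1 := key g hgZ
  apply hQ1
  rw [eq_bot_iff, ← h1]
  refine le_inf hQ ?_
  have h2 : MulAut.conj g • Q = Q := by
    have := Subgroup.mem_normalizer_iff_map_conj_eq.mp hg
    exact this
  rw [← h2]
  intro z hz
  rw [Subgroup.mem_pointwise_smul_iff_inv_smul_mem] at hz ⊢
  exact hQ hz

end Cfsg.Agent.S4636
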