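import Cfsg.Statements.S4652
-- import your own Cfsg.Agent.* helpers here
import Mathlib
import Cfsg.Agent.Lib.Helper25.BlockDefect

set_option autoImplicit false
open Cfsg

namespace Cfsg.Agent.S4652

open Cfsg.Agent.Lib.Helper2 Cfsg.Agent.Lib.Helper25

/-- The defect groups of the principal p-block are exactly the Sylow p-subgroups. -/
theorem result {G : Type*} [Group G] [Fintype G] (p : ℕ) [Fact p.Prime] (M : Ideal Cfsg.AlgInt) (hM : Cfsg.IsPModular p M) (D : Subgroup G) : Cfsg.IsDefectGroup p M (Cfsg.principalBlock M G) D ↔ ∃ S : Sylow p G, (S : Subgroup G) = D := by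
  classical
  have hpr := isPrime_of_isPModular hM
  have : Fintype (IrrCharacter G) := Fintype.ofFinite _
  have hfact : ∀ (H : Subgroup G), ¬ p ∣ H.index →
      (Nat.card H).factorization p = (Nat.card G).factorization p := by
    intro H hH
    have h2 := Subgroup.card_mul_index H
    rw [← h2, Nat.factorization_mul Nat.card_pos.ne'
      (fun h0 => hH (by rw [h0]; exact dvd_zero p)), Finsupp.add_apply,
      Nat.factorization_eq_zero_of_not_dvd hH, add_zero]
  constructor
  · rintro ⟨g, ⟨_, _, h3⟩, P, rfl⟩
    have h4 := h3 (trivIrr G) (trivIrr_mem_principal M)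
    have h5 : centralChar ((trivIrr G : IrrCharacter G) : G → ℂ) g
        = ((Subgroup.centralizer ({g} : Set G)).index : ℂ) := centralChar_one_fun g
    rw [h5, memLocalIdeal_natCast_iff hM] at h4
    have hcard : Nat.card ((P : Subgroup _).map (Subgroup.centralizer ({g} : Set G)).subtype)
        = p ^ (Nat.card G).factorization p := by
      rw [Subgroup.card_map_of_injective (Subgroup.subtype_injective _),
        Sylow.card_eq_multiplicity, hfact _ h4]
    exact ⟨Sylow.ofCard _ hcard, rfl⟩
  · rintro ⟨S, rfl⟩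
    have hBc : BlockClosed M (principalBlock M G) := blockClosed_principal M
    have hR : ∀ g, MemLocalRing M (blockCoeff (principalBlock M G) g) :=
      blockCoeff_memLocalRing hM _ hBc
    have hex : ∃ g : G, ¬ p ∣ (Subgroup.centralizer ({g} : Set G)).index ∧
        ¬ MemLocalIdeal M (blockCoeff (principalBlock M G) g) := by
      by_contra hcon
      push Not at hcon
      have : Fintype (ConjClasses G) := Fintype.ofFinite _
      have hsum := sum_blockCoeff_of_triv_mem (principalBlock M G) (trivIrr_mem_principal M)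
      rw [sum_eq_sum_classes _ (blockCoeff_isClassFunction _)] at hsum
      apply not_memLocalIdeal_one M
      rw [← hsum]
      apply memLocalIdeal_sum
      intro c _
      by_cases hk : p ∣ (Subgroup.centralizer ({Quotient.out c} : Set G)).index
      · exact MemLocalIdeal.mul_right M ((memLocalIdeal_natCast_iff hM _).mpr hk) (hR _)
      · exact MemLocalIdeal.mul_left M (memLocalRing_natCast M _) (hcon _ hk)
    obtain ⟨g, hg1, hg2⟩ := hex
    obtain ⟨x, hx⟩ := exists_conj_sylow_le p S (Subgroup.centralizer ({g} : Set G)) hg1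
    have hidx : (Subgroup.centralizer ({x⁻¹ * g * x⁻¹⁻¹} : Set G)).index
        = (Subgroup.centralizer ({g} : Set G)).index := index_centralizer_conj g x⁻¹
    have hSle : (S : Subgroup G) ≤ Subgroup.centralizer ({x⁻¹ * g * x⁻¹⁻¹} : Set G) := by
      intro h hh
      have h2 := hx h hh
      rw [Subgroup.mem_centralizer_singleton_iff] at h2 ⊢
      calc h * (x⁻¹ * g * x⁻¹⁻¹) = x⁻¹ * (x * h * x⁻¹ * g) * x := by group
        _ = x⁻¹ * (g * (x * h * x⁻¹)) * x := by rw [h2]
        _ = x⁻¹ * g * x⁻¹⁻¹ * h := by group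
    refine ⟨x⁻¹ * g * x⁻¹⁻¹, ⟨hR _, ?_, ?_⟩, ?_⟩
    · rw [blockCoeff_isClassFunction (principalBlock M G) g x⁻¹]
      exact hg2
    · intro χ hχ hI
      rw [centralChar_conj χ g x⁻¹] at hI
      have h1 : MemLocalIdeal M (centralChar (fun _ : G => (1 : ℂ)) g
          - centralChar (χ : G → ℂ) g) := hχ g
      have h2 := MemLocalIdeal.add M h1 hI
      rw [sub_add_cancel, centralChar_one_fun, memLocalIdeal_natCast_iff hM] at h2
      exact hg1 h2
    · have hcard : Nat.card ((S : Subgroup G).subgroupOf
          (Subgroup.centralizer ({x⁻¹ * g * x⁻¹⁻¹} : Set G)))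
          = p ^ (Nat.card (Subgroup.centralizer ({x⁻¹ * g * x⁻¹⁻¹} : Set G))).factorization p := by
        rw [Nat.card_congr (Subgroup.subgroupOfEquivOfLe hSle).toEquiv,
          Sylow.card_eq_multiplicity, hfact _ (by rw [hidx]; exact hg1)]
      refine ⟨Sylow.ofCard _ hcard, ?_⟩
      rw [Sylow.coe_ofCard, Subgroup.map_subgroupOf_eq_of_le hSle]

end Cfsg.Agent.S4652
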