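import Cfsg.Statements.S4653
-- import your own Cfsg.Agent.* helpers here
import Mathlib
import Cfsg.Agent.Lib.Helper25.NormalP

set_option autoImplicit false
open Cfsg

namespace Cfsg.Agent.S4653

open Cfsg Cfsg.Agent.Lib.Helper25 in
/-- The block idempotent is supported on the centralizer of every normal `p`-subgroup. -/
theorem result {G : Type*} [Group G] [Fintype G] (p : ℕ) [Fact p.Prime] (M : Ideal Cfsg.AlgInt) (hM : Cfsg.IsPModular p M) (P : Subgroup G) [P.Normal] (hP : IsPGroup p P) (B : Set (Cfsg.IrrCharacter G)) (hB : Cfsg.IsPBlock M B) (g : G) (hg : g ∉ Subgroup.centralizer (P : Set G)) : Cfsg.blockCoeff B g = 0 := by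
  have hpr := isPrime_of_isPModular hM
  exact blockCoeff_eq_zero_of_normal p M hM P hP B (blockClosed_of_isPBlock M hB) g hg

end Cfsg.Agent.S4653
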