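import Cfsg.Statements.S4664
-- import your own Cfsg.Agent.* helpers here
import Mathlib
import Cfsg.Agent.Lib.Helper25.Defect0

set_option autoImplicit false
open Cfsg

namespace Cfsg.Agent.S4664

open Cfsg.Agent.Lib.Helper2 Cfsg.Agent.Lib.Helper25

open scoped ComplexConjugate

/-- The coefficients of a p-block idempotent lie in ℚ(η), η a primitive m-th root of unity with m the p'-part of the group order. -/
theorem result {G : Type*} [Group G] [Fintype G] (p : ℕ) [Fact p.Prime] (M : Ideal Cfsg.AlgInt) (hM : Cfsg.IsPModular p M) (B : Set (Cfsg.IrrCharacter G)) (hB : Cfsg.IsPBlock M B) (g : G) : Cfsg.blockCoeff B g ∈ IntermediateField.adjoin ℚ ({Complex.exp (2 * Real.pi * Complex.I / ((Nat.card G / p ^ (Nat.card G).factorization p : ℕ) : ℂ))} : Set ℂ) := by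
  classical
  have : Fintype (IrrCharacter G) := Fintype.ofFinite _
  have hpr := isPrime_of_isPModular hM
  have hp : p.Prime := Fact.out
  set m := Nat.card G / p ^ (Nat.card G).factorization p with hm
  set η := Complex.exp (2 * Real.pi * Complex.I / (m : ℂ)) with hη
  set K := IntermediateField.adjoin ℚ ({η} : Set ℂ) with hK
  have hm0 : m ≠ 0 := (Nat.ordCompl_pos p Nat.card_pos.ne').ne'
  have hprim : IsPrimitiveRoot η m := Complex.isPrimitiveRoot_exp m hm0
  have hηK : η ∈ K := IntermediateField.mem_adjoin_simple_self ℚ η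
  by_cases hg : p ∣ orderOf g
  · rw [blockCoeff_eq_zero_of_singular hM B (blockClosed_of_isPBlock M hB) g hg]
    exact K.zero_mem
  · have hord : orderOf g ∣ m := by
      have h1 : orderOf g ∣ p ^ (Nat.card G).factorization p * m := by
        rw [hm, Nat.ordProj_mul_ordCompl_eq_self]
        exact orderOf_dvd_natCard g
      have hcop : Nat.Coprime (orderOf g) (p ^ (Nat.card G).factorization p) :=
        Nat.Coprime.pow_right _ ((Nat.coprime_comm).mp ((Nat.Prime.coprime_iff_not_dvd hp).mpr hg))
      exact hcop.dvd_of_dvd_mul_left h1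
    have hval : ∀ χ : IrrCharacter G, conj ((χ : G → ℂ) g) ∈ K := by
      intro χ
      obtain ⟨n, ρ, hρ, hχ⟩ := χ.2
      rw [irr_conj_eq_inv, ← hχ, char_eq_sum]
      apply K.sum_mem
      intro μ hμ
      apply K.mul_mem
      · have h1 := eig_pow ρ g⁻¹ hμ
        rw [orderOf_inv] at h1
        have h2 : μ ^ m = 1 := by
          obtain ⟨k, hk⟩ := hord
          rw [hk, pow_mul, h1, one_pow]
        have : NeZero m := ⟨hm0⟩
        obtain ⟨i, _, hi⟩ := hprim.eq_pow_of_pow_eq_one h2
        rw [← hi]
        exact K.pow_mem hηK i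
      · exact natCast_mem K _
    rw [blockCoeff_eq_sum]
    apply K.mul_mem
    · exact K.inv_mem (natCast_mem K _)
    · apply K.sum_mem
      intro χ _
      apply K.mul_mem
      · split_ifs
        · exact K.one_mem
        · exact K.zero_mem
      · apply K.mul_mem _ (hval χ)
        obtain ⟨d, _, hd⟩ := irr_apply_one χ.2
        rw [hd]
        exact natCast_mem K _

end Cfsg.Agent.S4664
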