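import Cfsg.Statements.S4665
import Mathlib
import Cfsg.Agent.Lib.Helper25.CharSum

set_option autoImplicit false
open Cfsg

namespace Cfsg.Agent.S4665

open Cfsg.Agent.Lib.Helper2 Cfsg.Agent.Lib.Helper25

/-- Fix a prime p, a maximal ideal M of the algebraic integers containing p, and a p-block B of the finite group G, and let p^a be the p-part of the order of G. Let χ be an integer combination of the irreducible characters in B. If the function that agrees with χ on p-regular elements and vanishes on p-singular elements is again an integer combination of the irreducible characters in B, then p^a divides χ(1). -/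
theorem result {G : Type*} [Group G] [Fintype G] (p : ℕ) [Fact p.Prime] (M : Ideal Cfsg.AlgInt) (hM : Cfsg.IsPModular p M) (B : Set (Cfsg.IrrCharacter G)) (hB : Cfsg.IsPBlock M B) (χ : G → ℂ) (hχ : (∃ n : Cfsg.IrrCharacter G → ℤ, ∀ g : G, χ g = ∑ᶠ ψ ∈ B, (n ψ : ℂ) * (ψ : G → ℂ) g)) (h0 : (∃ n : Cfsg.IrrCharacter G → ℤ, ∀ g : G, Cfsg.pRegularPart p χ g = ∑ᶠ ψ ∈ B, (n ψ : ℂ) * (ψ : G → ℂ) g)) : ∃ k : ℤ, χ 1 = (p ^ (Nat.card G).factorization p : ℂ) * k := by
  classical
  have hp : p.Prime := Fact.out
  obtain ⟨n, hn⟩ := h0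
  let P : Sylow p G := default
  have : Fintype (P : Subgroup G) := Fintype.ofFinite _
  obtain ⟨k, hk⟩ := sum_subgroup_intCombo B n (Cfsg.pRegularPart p χ) hn (P : Subgroup G)
  refine ⟨k, ?_⟩
  have hcard : Nat.card (P : Subgroup G) = p ^ (Nat.card G).factorization p :=
    P.card_eq_multiplicity
  rw [hcard] at hk
  push_cast at hk
  rw [← hk]
  rw [Finset.sum_eq_single (1 : (P : Subgroup G))]
  · have h1 : Cfsg.IsPRegular p (1 : G) := by
      unfold Cfsg.IsPRegular
      rw [orderOf_one]
      exact hp.not_dvd_one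
    unfold Cfsg.pRegularPart
    simp only [OneMemClass.coe_one]
    rw [if_pos h1]
  · intro h _ hne
    have hsing : ¬ Cfsg.IsPRegular p (h : G) := by
      unfold Cfsg.IsPRegular
      rw [not_not]
      obtain ⟨j, hj⟩ := P.isPGroup' h
      have hd : orderOf h ∣ p ^ j := orderOf_dvd_of_pow_eq_one hj
      obtain ⟨i, _, hi⟩ := (Nat.dvd_prime_pow hp).mp hd
      rw [Subgroup.orderOf_coe, hi]
      have hi0 : i ≠ 0 := by
        rintro rfl
        rw [pow_zero, orderOf_eq_one_iff] at hi
        exact hne hi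
      exact dvd_pow_self p hi0
    unfold Cfsg.pRegularPart
    rw [if_neg hsing]
  · intro h
    exact absurd (Finset.mem_univ _) h

end Cfsg.Agent.S4665
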