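import Cfsg.Statements.S4667
-- import your own Cfsg.Agent.* helpers here
import Mathlib
import Cfsg.Agent.Lib.Helper25.Defect0

set_option autoImplicit false
open Cfsg

namespace Cfsg.Agent.S4667

open Cfsg.Agent.Lib.Helper2 Cfsg.Agent.Lib.Helper25 Module

open scoped ComplexConjugate

/-- the trace of an idempotent complex matrix is its rank -/
theorem trace_eq_rank_of_idem {n : Type*} [Fintype n] [DecidableEq n] (E : Matrix n n ℂ)
    (hE : E * E = E) : E.trace = (E.rank : ℂ) := by
  have hidem : IsIdempotentElem (Matrix.toLin' E) := by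
    have h0 : Matrix.toLin' E * Matrix.toLin' E = Matrix.toLin' (E * E) :=
      (Matrix.toLin'_mul E E).symm
    unfold IsIdempotentElem
    rw [h0, hE]
  have h1 := (LinearMap.IsIdempotentElem.isProj_range _ hidem).trace
  rw [Matrix.trace_toLin'_eq] at h1
  rw [h1]
  rfl

/-- #G · l(B) = Σ over p-regular x of Σ_{χ∈B} χ(x)χ(x⁻¹), with l(B) the p-regular rank of the block B. -/
theorem result {G : Type*} [Group G] [Fintype G] (p : ℕ) [Fact p.Prime] (M : Ideal Cfsg.AlgInt) (hM : Cfsg.IsPModular p M) (B : Set (Cfsg.IrrCharacter G)) (hB : Cfsg.IsPBlock M B) : (Nat.card G : ℂ) * (Cfsg.blockRank p B : ℂ) = ∑ x : G, ∑ᶠ χ ∈ B, Cfsg.pRegularPart p (χ : G → ℂ) x * (χ : G → ℂ) x⁻¹ := by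
  classical
  have : Fintype (IrrCharacter G) := Fintype.ofFinite _
  have hpr := isPrime_of_isPModular hM
  have hBc := blockClosed_of_isPBlock M hB
  have : Fintype B := Fintype.ofFinite _
  have hne := card_ne_zero_complex G
  have hreg : ∀ (χ : IrrCharacter G) (x : G), ¬ p ∣ orderOf x →
      pRegularPart p (χ : G → ℂ) x = (χ : G → ℂ) x := by
    intro χ x hx
    unfold pRegularPart
    rw [if_pos]
    exact hx
  have hsing : ∀ (χ : IrrCharacter G) (x : G), p ∣ orderOf x →
      pRegularPart p (χ : G → ℂ) x = 0 := by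
    intro χ x hx
    unfold pRegularPart
    rw [if_neg]
    intro h; exact h hx
  -- weak block orthogonality over the subtype
  have hBO : ∀ x y : G, ¬ p ∣ orderOf x → p ∣ orderOf y →
      ∑ ψ : B, ((ψ : IrrCharacter G) : G → ℂ) x * conj (((ψ : IrrCharacter G) : G → ℂ) y) = 0 := by
    intro x y hx hy
    have h1 := block_orth hM B hBc x y hx hy
    simp only [ite_mul, one_mul, zero_mul] at h1
    rw [← Finset.sum_filter] at h1
    rw [Finset.sum_subtype (Finset.univ.filter (fun χ : IrrCharacter G => χ ∈ B))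
      (p := fun χ => χ ∈ B) (by simp)] at h1
    exact h1
  let A : Matrix G B ℂ := fun x χ => pRegularPart p ((χ : IrrCharacter G) : G → ℂ) x
  let S : Matrix B G ℂ := fun ψ x =>
    (Nat.card G : ℂ)⁻¹ * conj (((ψ : IrrCharacter G) : G → ℂ) x)
  have hASA : A * (S * A) = A := by
    ext z χ
    simp only [Matrix.mul_apply]
    change ∑ ψ : B, pRegularPart p ((ψ : IrrCharacter G) : G → ℂ) z
      * ∑ x : G, (Nat.card G : ℂ)⁻¹ * conj (((ψ : IrrCharacter G) : G → ℂ) x)
        * pRegularPart p ((χ : IrrCharacter G) : G → ℂ) x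
      = pRegularPart p ((χ : IrrCharacter G) : G → ℂ) z
    by_cases hz : p ∣ orderOf z
    · rw [hsing _ z hz]
      apply Finset.sum_eq_zero
      intro ψ _
      rw [hsing _ z hz, zero_mul]
    · rw [hreg _ z hz]
      simp only [hreg _ z hz]
      have e1 : ∑ ψ : B, ((ψ : IrrCharacter G) : G → ℂ) z
          * ∑ x : G, (Nat.card G : ℂ)⁻¹ * conj (((ψ : IrrCharacter G) : G → ℂ) x)
            * pRegularPart p ((χ : IrrCharacter G) : G → ℂ) x
          = ∑ x : G, (Nat.card G : ℂ)⁻¹ * pRegularPart p ((χ : IrrCharacter G) : G → ℂ) x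
            * ∑ ψ : B, ((ψ : IrrCharacter G) : G → ℂ) z
              * conj (((ψ : IrrCharacter G) : G → ℂ) x) := by
        simp only [Finset.mul_sum]
        rw [Finset.sum_comm]
        apply Finset.sum_congr rfl
        intro x _
        apply Finset.sum_congr rfl
        intro ψ _
        ring
      rw [e1]
      have e2 : ∀ x : G, (Nat.card G : ℂ)⁻¹ * pRegularPart p ((χ : IrrCharacter G) : G → ℂ) x
            * ∑ ψ : B, ((ψ : IrrCharacter G) : G → ℂ) z
              * conj (((ψ : IrrCharacter G) : G → ℂ) x)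
          = (Nat.card G : ℂ)⁻¹ * ((χ : IrrCharacter G) : G → ℂ) x
            * ∑ ψ : B, ((ψ : IrrCharacter G) : G → ℂ) z
              * conj (((ψ : IrrCharacter G) : G → ℂ) x) := by
        intro x
        by_cases hx : p ∣ orderOf x
        · rw [hBO z x hz hx, mul_zero, mul_zero]
        · rw [hreg _ x hx]
      simp only [e2]
      have e3 : ∑ x : G, (Nat.card G : ℂ)⁻¹ * ((χ : IrrCharacter G) : G → ℂ) x
            * ∑ ψ : B, ((ψ : IrrCharacter G) : G → ℂ) z
              * conj (((ψ : IrrCharacter G) : G → ℂ) x)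
          = ∑ ψ : B, ((ψ : IrrCharacter G) : G → ℂ) z
            * Cfsg.classInner ((χ : IrrCharacter G) : G → ℂ) ((ψ : IrrCharacter G) : G → ℂ) := by
        simp only [Finset.mul_sum, classInner_def]
        rw [Finset.sum_comm]
        apply Finset.sum_congr rfl
        intro ψ _
        apply Finset.sum_congr rfl
        intro x _
        ring
      rw [e3]
      rw [Finset.sum_eq_single χ]
      · rw [classInner_irr_self (χ : IrrCharacter G).2, mul_one]
      · intro ψ _ hψ
        rw [classInner_irr_ne (χ : IrrCharacter G).2 (ψ : IrrCharacter G).2 (by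
          intro h
          apply hψ
          apply Subtype.ext
          apply Subtype.ext
          exact h.symm), mul_zero]
      · intro h; exact absurd (Finset.mem_univ _) h
  have hE : (S * A) * (S * A) = S * A := by
    rw [Matrix.mul_assoc, hASA]
  have hrankE : (S * A).rank = A.rank := by
    apply le_antisymm
    · exact Matrix.rank_mul_le_right S A
    · have h1 := Matrix.rank_mul_le_right A (S * A)
      rw [hASA] at h1
      exact h1
  have hrankA : A.rank = blockRank p B := by
    rw [Matrix.rank_eq_finrank_span_cols]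
    unfold blockRank
    rw [Set.image_eq_range]
    rfl
  have htr := trace_eq_rank_of_idem (S * A) hE
  rw [hrankE, hrankA] at htr
  rw [← htr]
  -- compute the trace
  have htr2 : (S * A).trace = ∑ χ : B, ∑ x : G, (Nat.card G : ℂ)⁻¹
      * conj (((χ : IrrCharacter G) : G → ℂ) x)
      * pRegularPart p ((χ : IrrCharacter G) : G → ℂ) x := by
    unfold Matrix.trace
    apply Finset.sum_congr rfl
    intro χ _
    rw [Matrix.diag_apply, Matrix.mul_apply]
  have e4 : ∀ x : G, ∑ᶠ χ ∈ B, pRegularPart p (χ : G → ℂ) x * (χ : G → ℂ) x⁻¹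
      = ∑ χ : B, pRegularPart p ((χ : IrrCharacter G) : G → ℂ) x
        * ((χ : IrrCharacter G) : G → ℂ) x⁻¹ := by
    intro x
    rw [← finsum_set_coe_eq_finsum_mem, finsum_eq_sum_of_fintype]
  have e5 : ∑ x : G, ∑ χ : B, pRegularPart p ((χ : IrrCharacter G) : G → ℂ) x
        * ((χ : IrrCharacter G) : G → ℂ) x⁻¹
      = ∑ χ : B, ∑ x : G, pRegularPart p ((χ : IrrCharacter G) : G → ℂ) x
        * ((χ : IrrCharacter G) : G → ℂ) x⁻¹ := Finset.sum_comm
  simp only [e4]
  rw [e5, htr2, Finset.mul_sum]
  apply Finset.sum_congr rfl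
  intro χ _
  rw [Finset.mul_sum]
  apply Finset.sum_congr rfl
  intro x _
  rw [← irr_conj_eq_inv, ← mul_assoc, ← mul_assoc, mul_inv_cancel₀ hne, one_mul, mul_comm]

end Cfsg.Agent.S4667
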