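import Cfsg.Statements.S4668
-- import your own Cfsg.Agent.* helpers here
import Mathlib
import Cfsg.Agent.Lib.Helper25.NormalP
import Cfsg.Agent.Lib.Helper11.ThompsonAB

set_option autoImplicit false
open Cfsg

namespace Cfsg.Agent.S4668

open Cfsg Cfsg.Agent.Lib.Helper25 in
/-- The block idempotents of the normalizer of a chain of `p`-subgroups are supported on the
centralizer of the largest member of the chain. -/
theorem result {G : Type*} [Group G] [Fintype G] (p : ℕ) [Fact p.Prime] (M : Ideal Cfsg.AlgInt) (hM : Cfsg.IsPModular p M) (m : ℕ) (Q : Fin (m + 1) → Subgroup G) (hQ : StrictMono Q) (hQp : ∀ i, IsPGroup p (Q i)) (N : Subgroup G) (hN : ∀ g : G, g ∈ N ↔ ∀ i, g ∈ Subgroup.normalizer (Q i : Set G)) (E : Set (Cfsg.IrrCharacter N)) (hE : Cfsg.IsPBlock M E) (n : N) (hn : (n : G) ∉ Subgroup.centralizer (Q (Fin.last m) : Set G)) : Cfsg.blockCoeff E n = 0 := by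
  classical
  have hpr := isPrime_of_isPModular hM
  have hEc := blockClosed_of_isPBlock M hE
  by_cases hsing : p ∣ orderOf n
  · exact blockCoeff_eq_zero_of_singular hM E hEc n hsing
  have hmono : Monotone Q := hQ.monotone
  have hnN : ∀ i, (n : G) ∈ Subgroup.normalizer (Q i : Set G) := (hN n).mp n.2
  let R : Subgroup N := (Q (Fin.last m)).subgroupOf N
  have hRn : R.Normal :=
    Subgroup.normal_subgroupOf_of_le_normalizer (fun g hg => (hN g).mp hg (Fin.last m))
  have hRp : IsPGroup p R := (hQp (Fin.last m)).comap_subtype (K := N)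
  apply blockCoeff_eq_zero_of_normal p M hM R hRp E hEc n
  intro hcen
  apply hn
  have hcomm : ∀ q : G, q ∈ Q (Fin.last m) → q ∈ N → q * (n : G) = (n : G) * q := by
    intro q hq hqN
    have := (Subgroup.mem_centralizer_iff.mp hcen) ⟨q, hqN⟩ (Subgroup.mem_subgroupOf.mpr hq)
    exact congrArg Subtype.val this
  set A : Subgroup G := Subgroup.zpowers (n : G) with hA
  have hAcard : ¬ p ∣ Nat.card A := by
    rw [Nat.card_zpowers, Subgroup.orderOf_coe]
    exact hsing
  have hmemA : ∀ c : G, c * (n : G) = (n : G) * c → c ∈ Subgroup.centralizer (A : Set G) := by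
    intro c hc
    rw [Subgroup.mem_centralizer_iff]
    intro h hh
    obtain ⟨k, rfl⟩ := Subgroup.mem_zpowers_iff.mp hh
    have h1 : Commute (n : G) c := hc.symm
    exact (Commute.zpow_left h1 k).eq
  have key : ∀ k : ℕ, ∀ hk : k < m + 1, Q ⟨k, hk⟩ ≤ Subgroup.centralizer (A : Set G) := by
    intro k
    induction k with
    | zero =>
      intro hk q hq
      apply hmemA
      have h0 : ∀ j : Fin (m + 1), (⟨0, hk⟩ : Fin (m + 1)) ≤ j := fun j => Fin.mk_le_of_le_val (Nat.zero_le _)
      apply hcomm q (hmono (h0 _) hq)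
      rw [hN]
      intro j
      exact Subgroup.le_normalizer (hmono (h0 j) hq)
    | succ k ih =>
      intro hk
      have hk' : k < m + 1 := by omega
      have ih' := ih hk'
      have hle : Q ⟨k, hk'⟩ ≤ Q ⟨k + 1, hk⟩ := hmono (Fin.mk_le_of_le_val (Nat.le_succ k))
      apply Cfsg.Agent.Lib.Helper11.thompson_AxB p A (Q ⟨k, hk'⟩) hAcard (hQp _)
        (Subgroup.commutator_eq_bot_iff_le_centralizer.mpr (Subgroup.le_centralizer_iff.mp ih'))
        (Nat.card (Q ⟨k + 1, hk⟩)) (Q ⟨k + 1, hk⟩) (hQp _) ?_ ?_ ?_ le_rfl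
      · rw [hA, Subgroup.zpowers_le]
        exact hnN _
      · exact hle.trans Subgroup.le_normalizer
      · rintro c ⟨hc1, hc2⟩
        apply hmemA
        apply hcomm c (hmono (Fin.le_last _) hc1)
        rw [hN]
        intro j
        by_cases hj : j ≤ ⟨k, hk'⟩
        · exact Subgroup.centralizer_le_normalizer _
            (Subgroup.centralizer_le (SetLike.coe_subset_coe.mpr (hmono hj)) hc2)
        · have hj' : (⟨k + 1, hk⟩ : Fin (m + 1)) ≤ j := by
            rw [Fin.le_def] at hj ⊢
            simp only [not_le] at hj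
            exact hj
          exact Subgroup.le_normalizer (hmono hj' hc1)
  have hfin := key m (Nat.lt_succ_self m)
  rw [Subgroup.mem_centralizer_iff]
  intro q hq
  have h1 : q ∈ Subgroup.centralizer (A : Set G) := hfin hq
  have h2 := (Subgroup.mem_centralizer_iff.mp h1) (n : G) (Subgroup.mem_zpowers _)
  exact h2.symm

end Cfsg.Agent.S4668
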