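import Cfsg.Statements.S4681
-- import your own Cfsg.Agent.* helpers here
import Mathlib
import Cfsg.Agent.Lib.Helper25.BrauerPair9

set_option autoImplicit false
open Cfsg

namespace Cfsg.Agent.S4681

open Cfsg.Agent.Lib.Helper2 Cfsg.Agent.Lib.Helper25 Cfsg.Agent.Lib.Helper8 in
/-- Fix a prime p and a maximal ideal M of the algebraic integers containing p. Let B₀ be the principal p-block of the finite group G, P a Sylow p-subgroup and e₀ the principal p-block of C_G(P). Then (P, e₀) is a maximal Brauer pair of B₀, and the fusion system of B₀ on (P, e₀) is the fusion system of G on P: its maps from each subgroup of P are exactly the conjugation maps into P by elements of G. -/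
theorem result {G : Type*} [Group G] [Fintype G] (p : ℕ) [Fact p.Prime] (M : Ideal Cfsg.AlgInt) (hM : Cfsg.IsPModular p M) (S : Sylow p G) : Cfsg.IsMaximalBrauerPair p M (Cfsg.principalBlock M G) (S : Subgroup G) (Cfsg.principalBlock M (Subgroup.centralizer ((S : Subgroup G) : Set G))) ∧ ∀ F : Cfsg.FusionSystem (S : Subgroup G), Cfsg.IsBlockFusionSystemOn p M (Cfsg.principalBlock M G) (S : Subgroup G) (Cfsg.principalBlock M (Subgroup.centralizer ((S : Subgroup G) : Set G))) F → ∀ Q : Subgroup G, F.Hom Q = (Cfsg.groupFusionSystem (S : Subgroup G)).Hom Q := by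
  refine ⟨isMaximalBrauerPair_principal hM S, ?_⟩
  intro F hF Q
  ext φ
  rw [hF.2 Q φ]
  constructor
  · rintro ⟨hQS, g, hφ, hle, -⟩
    refine ⟨hQS, fun x => ?_, g, hφ⟩
    rw [hφ x]
    exact hle (Subgroup.mem_map.mpr ⟨(x : G), x.2, rfl⟩)
  · rintro ⟨hQS, hφS, g, hφ⟩
    have hle : Q.map (MulAut.conj g).toMonoidHom ≤ (S : Subgroup G) := by
      intro y hy
      obtain ⟨u, hu, rfl⟩ := Subgroup.mem_map.mp hy
      have := hφS ⟨u, hu⟩
      rw [hφ ⟨u, hu⟩] at this
      exact this
    refine ⟨hQS, g, hφ, hle, Cfsg.principalBlock M (Subgroup.centralizer (Q : Set G)),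
      subpairLE_principal hM S.isPGroup' hQS, ?_⟩
    rw [conjBlock_principal]
    exact subpairLE_principal hM S.isPGroup' hle

end Cfsg.Agent.S4681
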