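import Cfsg.Statements.S4702
import Mathlib
import Cfsg.Agent.S0727
import Cfsg.Agent.S0728
import Cfsg.Agent.S1230

set_option autoImplicit false
open Cfsg

namespace Cfsg.Agent.S4702

/-- Let G be a triply transitive permutation group on a finite set of odd size m ≥ 3 in which only the identity fixes three or more points. Then m = 2^a + 1 for some a ≥ 1 and G is isomorphic to SL(2, 2^a). -/
theorem result {α : Type*} [Fintype α] [DecidableEq α] (hm : 3 ≤ Fintype.card α) (hodd : Odd (Fintype.card α)) (G : Subgroup (Equiv.Perm α)) (h3 : MulAction.IsMultiplyPretransitive G α 3) (hfix : ∀ g : G, 3 ≤ Nat.card (MulAction.fixedBy α g) → g = 1) : ∃ a : ℕ, 1 ≤ a ∧ Fintype.card α = 2 ^ a + 1 ∧ ∃ (F : Type) (_ : Field F) (_ : Fintype F), Fintype.card F = 2 ^ a ∧ Nonempty (G ≃* Matrix.SpecialLinearGroup (Fin 2) F) := by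
  classical
  have hp2 : Fact (Nat.Prime 2) := ⟨Nat.prime_two⟩
  have hsharp : ∀ x : Fin 3 ↪ α, MulAction.stabilizer G x = ⊥ := by
    intro x
    rw [eq_bot_iff]
    intro g hg
    rw [Subgroup.mem_bot]
    apply hfix
    rw [MulAction.mem_stabilizer_iff] at hg
    have hsub : Set.range x ⊆ MulAction.fixedBy α g := by
      rintro _ ⟨i, rfl⟩
      rw [MulAction.mem_fixedBy]
      exact DFunLike.congr_fun hg i
    have hcard : Nat.card (Set.range x) = 3 := by
      rw [Nat.card_range_of_injective x.injective]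
      simp
    calc 3 = Nat.card (Set.range x) := hcard.symm
      _ ≤ Nat.card (MulAction.fixedBy α g) := Nat.card_mono (Set.toFinite _) hsub
  have hS := Cfsg.Agent.S0728.s3_of G h3 hsharp
  have hcard : ∃ f : ℕ, 1 ≤ f ∧ Fintype.card α = 2 ^ f + 1 := by
    by_cases h4 : 4 ≤ Fintype.card α
    · obtain ⟨a⟩ : Nonempty α := Fintype.card_pos_iff.mp (by omega)
      obtain ⟨b, hb⟩ := Cfsg.Agent.S0728.exists_ne1 (by omega) a
      obtain ⟨N, hK⟩ := Cfsg.Agent.S0728.exists_ker hS h4 a
      have hKc := hK.card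
      have heven : Even (Nat.card N) := by
        rw [hKc]
        obtain ⟨k, hk⟩ := hodd
        exact ⟨k, by omega⟩
      have hexp := Cfsg.Agent.S0727.exp2 hS hK (Ne.symm hb) heven
      have hp : IsPGroup 2 N := by
        intro n
        refine ⟨1, ?_⟩
        rw [pow_one, pow_two]
        exact Subtype.ext (hexp n.1 n.2)
      obtain ⟨f, hf⟩ := IsPGroup.iff_card.mp hp
      rw [hKc] at hf
      refine ⟨f, ?_, ?_⟩
      · by_contra h0
        have h00 : f = 0 := by omega
        rw [h00, pow_zero] at hf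
        omega
      · omega
    · exact ⟨1, le_refl 1, by omega⟩
  obtain ⟨f, hf1, hf⟩ := hcard
  obtain ⟨F, iF, iFt, hFc, ⟨e⟩⟩ := Cfsg.Agent.S0727.result hf1 hf G h3 hsharp
  refine ⟨f, hf1, hf, F, iF, iFt, hFc, ?_⟩
  obtain ⟨e2⟩ := Cfsg.Agent.S1230.pgl_psl f hf1 hFc
  have hcen : Subgroup.center (Matrix.SpecialLinearGroup (Fin 2) F) = ⊥ := by
    rw [eq_bot_iff]
    intro A hA
    rw [Matrix.SpecialLinearGroup.mem_center_iff] at hA
    obtain ⟨r, hr, hrA⟩ := hA
    rw [Subgroup.mem_bot]
    have hr2 : r ^ 2 = 1 := by simpa using hr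
    have hr1 : r = 1 := by
      have h1 : r ^ (2 ^ f) = r := by
        rw [← hFc]
        exact FiniteField.pow_card r
      have h2 : (2 : ℕ) ^ f = 2 * 2 ^ (f - 1) := by
        rw [← pow_succ']
        congr 1
        omega
      rw [h2, pow_mul, hr2, one_pow] at h1
      exact h1.symm
    apply Subtype.ext
    rw [← hrA, hr1]
    simp
  exact ⟨(e.trans e2).trans ((QuotientGroup.quotientMulEquivOfEq hcen).trans
    QuotientGroup.quotientBot)⟩

end Cfsg.Agent.S4702
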