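import Cfsg.Statements.S4726
import Cfsg.Agent.Lib.Helper24.PairTransfer

set_option autoImplicit false
open Cfsg

namespace Cfsg.Agent.S4726

open Cfsg.Agent.Lib.Helper2 Cfsg.Agent.Lib.Helper25 Cfsg.Agent.Lib.Helper8 Cfsg.Agent.Lib.Helper24 in
/-- Let p be a prime, M a maximal ideal of the algebraic integers containing p, H a subgroup of the finite group G and b a p-block of H with defect group D₀ such that C_G(D₀) ≤ H. Then b induces a block of G, and for every block B of G induced by b there is a defect group D of B with Z(D) ≤ Z(D₀) ≤ D₀ ≤ D (as subgroups of G). In particular, if the defect groups of B are abelian then D₀ is a defect group of B. -/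
theorem result {G : Type*} [Group G] [Finite G] (p : ℕ) [Fact p.Prime] (M : Ideal Cfsg.AlgInt) (hM : Cfsg.IsPModular p M) (H : Subgroup G) (b : Set (Cfsg.IrrCharacter ↥H)) (hb : Cfsg.IsPBlock M b) (D₀ : Subgroup ↥H) (hD₀ : Cfsg.IsDefectGroup p M b D₀) (hC : Subgroup.centralizer ((D₀.map H.subtype : Subgroup G) : Set G) ≤ H) : Cfsg.InducedBlockDefined M H b ∧ ∀ B : Set (Cfsg.IrrCharacter G), Cfsg.IsInducedBlock M H b B → (∃ D : Subgroup G, Cfsg.IsDefectGroup p M B D ∧ (Subgroup.center ↥D).map D.subtype ≤ ((Subgroup.center ↥D₀).map D₀.subtype).map H.subtype ∧ ((Subgroup.center ↥D₀).map D₀.subtype).map H.subtype ≤ D₀.map H.subtype ∧ D₀.map H.subtype ≤ D) ∧ (∀ D : Subgroup G, Cfsg.IsDefectGroup p M B D → IsMulCommutative ↥D → Cfsg.IsDefectGroup p M B (D₀.map H.subtype)) := by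
  classical
  have : Fintype G := Fintype.ofFinite G
  have : Fintype ↥H := Fintype.ofFinite _
  obtain ⟨hdef, hmain⟩ := induced_centric_main hM H b hb D₀ hD₀ hC
  refine ⟨hdef, ?_⟩
  intro B hind
  obtain ⟨D, hD, hle, hcent⟩ := hmain B hind
  have hZ : (Subgroup.center ↥D).map D.subtype
      ≤ ((Subgroup.center ↥D₀).map D₀.subtype).map H.subtype := by
    rintro x ⟨z, hz, rfl⟩
    have hzc := Subgroup.mem_center_iff.mp hz
    have hx : (z : G) ∈ D ⊓ Subgroup.centralizer ((D₀.map H.subtype : Subgroup G) : Set G) := by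
      refine Subgroup.mem_inf.mpr ⟨z.2, ?_⟩
      rw [Subgroup.mem_centralizer_iff]
      intro y hy
      exact congrArg Subtype.val (hzc ⟨y, hle hy⟩)
    obtain ⟨d, hd, hdz⟩ := Subgroup.mem_map.mp (hcent hx)
    refine ⟨d, ⟨⟨d, hd⟩, ?_, rfl⟩, hdz⟩
    rw [SetLike.mem_coe, Subgroup.mem_center_iff]
    intro g
    apply Subtype.ext
    apply Subtype.ext
    have hg : ((g : ↥H) : G) ∈ D := hle (Subgroup.mem_map_of_mem _ g.2)
    have := congrArg Subtype.val (hzc ⟨_, hg⟩)
    simp only [Subgroup.coe_mul] at this ⊢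
    rw [← hdz] at this
    exact this
  have hmid : ((Subgroup.center ↥D₀).map D₀.subtype).map H.subtype ≤ D₀.map H.subtype :=
    Subgroup.map_mono (Subgroup.map_subtype_le _)
  refine ⟨⟨D, hD, hZ, hmid, hle⟩, ?_⟩
  intro D' hD' hcomm
  obtain ⟨x, hx⟩ := defectGroup_conj hM hind.2.1 hD hD'
  have hDcomm : ∀ a ∈ D, ∀ c ∈ D, a * c = c * a := by
    intro a ha c hc
    rw [hx] at ha hc
    obtain ⟨a', ha', rfl⟩ := Subgroup.mem_map.mp ha
    obtain ⟨c', hc', rfl⟩ := Subgroup.mem_map.mp hc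
    have h := congrArg Subtype.val (hcomm.is_comm.comm (⟨a', ha'⟩ : ↥D') ⟨c', hc'⟩)
    simp only [Subgroup.coe_mul] at h
    rw [← map_mul, ← map_mul, h]
  have hDle : D ≤ (Subgroup.center ↥D).map D.subtype := by
    intro a ha
    refine ⟨⟨a, ha⟩, ?_, rfl⟩
    rw [SetLike.mem_coe, Subgroup.mem_center_iff]
    intro g
    apply Subtype.ext
    exact hDcomm g g.2 a ha
  have heq : D₀.map H.subtype = D := le_antisymm hle (hDle.trans (hZ.trans hmid))
  rw [heq]
  exact hD

end Cfsg.Agent.S4726
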