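import Cfsg.Statements.S4730
-- import your own Cfsg.Agent.* helpers here
import Mathlib
import Cfsg.Agent.Lib.Helper25.ClassProd
import Cfsg.Agent.Lib.Helper25.BlockOrth
import Cfsg.Agent.Lib.Helper2.CharBurnside

set_option autoImplicit false
open Cfsg

namespace Cfsg.Agent.S4730

open Cfsg.Agent.Lib.Helper25 Cfsg.Agent.Lib.Helper2 in
/-- Let p be a prime, M a maximal ideal of the algebraic integers containing p, and G a finite group with trivial centre, Sylow p-subgroup P of order p^a and centre Z(P) of order p^b. If χ is a faithful irreducible character of G whose degree is a power of p, then the p-block of χ has defect at most a − b; in particular, if P is abelian then χ lies in a block of defect zero. -/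
theorem result {G : Type*} [Group G] [Finite G] (p : ℕ) [Fact p.Prime] (M : Ideal Cfsg.AlgInt) (hM : Cfsg.IsPModular p M) (hZ : Subgroup.center G = ⊥) (P : Sylow p G) (a b : ℕ) (ha : Nat.card P = p ^ a) (hb : Nat.card (Subgroup.center ↥(P : Subgroup G)) = p ^ b) (χ : Cfsg.IrrCharacter G) (hfaith : ∀ g : G, (χ : G → ℂ) g = (χ : G → ℂ) 1 → g = 1) (n : ℕ) (hdeg : Cfsg.charDegree (χ : G → ℂ) = p ^ n) : Cfsg.blockDefect p (Cfsg.blockOf M (χ : G → ℂ)) ≤ a - b ∧ (IsMulCommutative ↥(P : Subgroup G) → Cfsg.blockDefect p (Cfsg.blockOf M (χ : G → ℂ)) = 0) := by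
  classical
  have hpp : p.Prime := Fact.out
  have hfG := Fintype.ofFinite G
  have hpr := isPrime_of_isPModular hM
  have hp0 : (p : ℂ) ≠ 0 := by
    have := hpp.pos
    exact_mod_cast this.ne'
  obtain ⟨n', ρ, hρ, hχ⟩ := χ.2
  obtain ⟨d, hd1, hd0, hdG, hd⟩ := irr_degree χ
  have hdn : d = p ^ n := by rw [← hd, hdeg]
  have hfin : Module.finrank ℂ (Fin n' → ℂ) = p ^ n := by
    have h1 : (χ : G → ℂ) 1 = (Module.finrank ℂ (Fin n' → ℂ) : ℂ) := by
      rw [← hχ, Representation.char_one]
    rw [hd1, hdn] at h1
    exact_mod_cast h1.symm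
  -- the centre of `P` as a subgroup of `G`
  let Z : Subgroup G := (Subgroup.center (P : Subgroup G)).map (P : Subgroup G).subtype
  have hZcard : Nat.card Z = p ^ b := by
    rw [Subgroup.card_subtype]
    exact hb
  have hZmem : ∀ z ∈ Z, z ∈ (P : Subgroup G) ∧ ∀ u ∈ (P : Subgroup G), u * z = z * u := by
    rintro _ ⟨z, hz, rfl⟩
    refine ⟨z.2, ?_⟩
    intro u hu
    have := Subgroup.mem_center_iff.mp hz ⟨u, hu⟩
    exact congrArg Subtype.val this
  -- `χ` vanishes on the non-identity elements of `Z`
  have hvan : ∀ z ∈ Z, z ≠ 1 → (χ : G → ℂ) z = 0 := by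
    intro z hz hz1
    obtain ⟨hzP, hzc⟩ := hZmem z hz
    have hidx : ¬ p ∣ (Subgroup.centralizer ({z} : Set G)).index := by
      have hle : (P : Subgroup G) ≤ Subgroup.centralizer ({z} : Set G) := by
        intro u hu
        rw [Subgroup.mem_centralizer_singleton_iff]
        exact hzc u hu
      have h1 := Subgroup.index_dvd_of_le hle
      intro h2
      exact (Sylow.not_dvd_index P) (dvd_trans h2 h1)
    have hcop : Nat.Coprime (Module.finrank ℂ (Fin n' → ℂ))
        (Subgroup.centralizer ({z} : Set G)).index := by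
      rw [hfin]
      exact Nat.Coprime.pow_left _ ((Nat.Prime.coprime_iff_not_dvd hpp).mpr hidx)
    rcases char_zero_or_norm_of_coprime ρ z hcop with h0 | hnorm
    · rw [← hχ]; exact h0
    · exfalso
      obtain ⟨ω, hω⟩ := (norm_char_eq_iff ρ z).mp hnorm
      apply hz1
      have hcent : z ∈ Subgroup.center G := by
        rw [Subgroup.mem_center_iff]
        intro g
        have h0 : ρ (z * g) = ρ (g * z) := by
          rw [map_mul, map_mul, hω]
          ext v
          simp
        have h1 : ρ (z * g * (g * z)⁻¹) = LinearMap.id := by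
          rw [map_mul, h0, ← map_mul, mul_inv_cancel, map_one]
          rfl
        have h2 := (char_eq_finrank_iff ρ _).mpr h1
        have h3 : (χ : G → ℂ) (z * g * (g * z)⁻¹) = (χ : G → ℂ) 1 := by
          rw [← hχ, h2, Representation.char_one]
        have h4 := hfaith _ h3
        exact (mul_inv_eq_one.mp h4).symm
      rw [hZ, Subgroup.mem_bot] at hcent
      exact hcent
  -- every character in the block has degree divisible by `p ^ b`
  have hkey : ∀ ψ : IrrCharacter G, ψ ∈ blockOf M (χ : G → ℂ) →
      b ≤ (charDegree (ψ : G → ℂ)).factorization p := by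
    intro ψ hψ
    by_contra hlt
    push Not at hlt
    obtain ⟨e, he1, he0, heG, he⟩ := irr_degree ψ
    rw [he] at hlt
    obtain ⟨k, m, hm, hem⟩ := Nat.exists_eq_pow_mul_and_not_dvd he0.ne' p hpp.ne_one
    have hk : k < b := by
      have : e.factorization p = k := by
        rw [hem, Nat.factorization_mul (pow_ne_zero _ hpp.ne_zero) (by
          rintro rfl
          exact hm (dvd_zero p)), Nat.factorization_pow]
        simp [hpp.factorization_self, Nat.factorization_eq_zero_of_not_dvd hm]
      omega
    have hm0 : (m : ℂ) ≠ 0 := by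
      intro h0
      have : m = 0 := by exact_mod_cast h0
      rw [this] at hm
      exact hm (dvd_zero p)
    -- the values on `Z`
    have hterm : ∀ z ∈ Z, z ≠ 1 → MemLocalIdeal M ((ψ : G → ℂ) z / (ψ : G → ℂ) 1) := by
      intro z hz hz1
      obtain ⟨hzP, hzc⟩ := hZmem z hz
      have hidx : ¬ p ∣ (Subgroup.centralizer ({z} : Set G)).index := by
        have hle : (P : Subgroup G) ≤ Subgroup.centralizer ({z} : Set G) := by
          intro u hu
          rw [Subgroup.mem_centralizer_singleton_iff]
          exact hzc u hu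
        have h1 := Subgroup.index_dvd_of_le hle
        intro h2
        exact (Sylow.not_dvd_index P) (dvd_trans h2 h1)
      have hsb : MemLocalIdeal M (centralChar (χ : G → ℂ) z - centralChar (ψ : G → ℂ) z) := hψ z
      have h0 : centralChar (χ : G → ℂ) z = 0 := by
        unfold centralChar
        rw [hvan z hz hz1, mul_zero, zero_div]
      rw [h0, zero_sub] at hsb
      have hsb' : MemLocalIdeal M (centralChar (ψ : G → ℂ) z) := by
        have := MemLocalIdeal.neg M hsb
        rwa [neg_neg] at this
      have hidx0 : ((Subgroup.centralizer ({z} : Set G)).index : ℂ) ≠ 0 := by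
        intro h0
        have : (Subgroup.centralizer ({z} : Set G)).index = 0 := by exact_mod_cast h0
        exact hidx (this ▸ dvd_zero p)
      have e1 : (ψ : G → ℂ) z / (ψ : G → ℂ) 1
          = ((Subgroup.centralizer ({z} : Set G)).index : ℂ)⁻¹ * centralChar (ψ : G → ℂ) z := by
        unfold centralChar
        field_simp
      rw [e1]
      exact MemLocalIdeal.mul_left M (memLocalRing_inv_natCast hM hidx) hsb'
    -- the sum over `Z`
    have hfZ : Fintype Z := Fintype.ofFinite Z
    obtain ⟨n₂, ρ₂, hρ₂, hψρ⟩ := ψ.2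
    have havg := avg_char_isIntegral ρ₂ Z 1 (fun u _ => by rw [mul_one, one_mul])
    have hsum1 : MemLocalIdeal M (∑ z : Z, (ψ : G → ℂ) (z : G) / (ψ : G → ℂ) 1 - 1) := by
      rw [← Finset.sum_erase_add _ _ (Finset.mem_univ (1 : Z))]
      have h1 : (ψ : G → ℂ) ((1 : Z) : G) / (ψ : G → ℂ) 1 = 1 := by
        rw [Subgroup.coe_one, div_self (irr_one_ne_zero ψ.2)]
      rw [h1, add_sub_cancel_right]
      apply memLocalIdeal_sum
      intro z hz
      have hz1 : (z : G) ≠ 1 := by
        intro h
        exact (Finset.ne_of_mem_erase hz) (Subtype.ext h)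
      exact hterm z z.2 hz1
    have hsum2 : MemLocalIdeal M (∑ z : Z, (ψ : G → ℂ) (z : G) / (ψ : G → ℂ) 1) := by
      have e2 : ∑ z : Z, (ψ : G → ℂ) (z : G) / (ψ : G → ℂ) 1
          = ((p : ℂ) * ((p : ℂ) ^ (b - k - 1) * (m : ℂ)⁻¹))
            * ((Nat.card Z : ℂ)⁻¹ * ∑ u : Z, ρ₂.character ((u : G) * 1)) := by
        rw [← Finset.sum_div, he1, hem, hZcard]
        have e3 : ∑ u : Z, ρ₂.character ((u : G) * 1) = ∑ z : Z, (ψ : G → ℂ) (z : G) := by
          apply Finset.sum_congr rfl
          intro u _
          rw [mul_one, hψρ]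
        rw [e3]
        obtain ⟨f, hf⟩ : ∃ f, b = k + 1 + f := ⟨b - k - 1, by omega⟩
        have hf' : b - k - 1 = f := by omega
        rw [hf', hf]
        push_cast
        field_simp
        ring
      rw [e2]
      apply MemLocalIdeal.mul_right M _ (memLocalRing_of_isIntegral M havg)
      apply MemLocalIdeal.mul_right M (memLocalIdeal_p hM)
      exact MemLocalRing.mul M (MemLocalRing.pow M (memLocalRing_natCast M p) _)
        (memLocalRing_inv_natCast hM hm)
    have h1 := MemLocalIdeal.sub M hsum2 hsum1
    rw [sub_sub_cancel] at h1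
    exact not_memLocalIdeal_one M h1
  have haG : (Nat.card G).factorization p = a := by
    have h1 := Sylow.card_eq_multiplicity P
    rw [ha] at h1
    exact (Nat.pow_right_injective hpp.two_le h1).symm
  have hχmem : χ ∈ blockOf M (χ : G → ℂ) := by
    change SameBlock M (χ : G → ℂ) (χ : G → ℂ)
    exact sameBlock_refl M _
  have hmain : blockDefect p (blockOf M (χ : G → ℂ)) ≤ a - b := by
    unfold blockDefect
    rw [haG]
    apply Nat.sub_le_sub_left
    apply le_csInf
    · exact ⟨_, ⟨χ, hχmem, rfl⟩⟩
    · rintro _ ⟨ψ, hψ, rfl⟩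
      exact hkey ψ hψ
  refine ⟨hmain, ?_⟩
  intro hab
  have hcenter : Subgroup.center (P : Subgroup G) = ⊤ := by
    rw [Subgroup.eq_top_iff']
    intro x
    rw [Subgroup.mem_center_iff]
    intro g
    exact hab.is_comm.comm g x
  have hab' : a = b := by
    have h1 : Nat.card (Subgroup.center (P : Subgroup G)) = Nat.card (P : Subgroup G) := by
      rw [hcenter, Subgroup.card_top]
    rw [hb] at h1
    have h2 : Nat.card (P : Subgroup G) = p ^ a := ha
    rw [h2] at h1
    exact (Nat.pow_right_injective hpp.two_le h1).symm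
  rw [hab', Nat.sub_self] at hmain
  exact Nat.le_zero.mp hmain

end Cfsg.Agent.S4730
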