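import Cfsg.Statements.S4733
-- import your own Cfsg.Agent.* helpers here
import Mathlib
import Cfsg.Agent.Lib.Helper25.Defect0

set_option autoImplicit false
open Cfsg

namespace Cfsg.Agent.S4733

open Cfsg.Agent.Lib.Helper2 Cfsg.Agent.Lib.Helper25 Module

open scoped ComplexConjugate

/-- For a p-block, l(B) ≤ k(B), and B has defect zero iff k(B) = l(B) iff k(B) = l(B) = 1. -/
theorem result {G : Type*} [Group G] [Finite G] (p : ℕ) [Fact p.Prime] (M : Ideal Cfsg.AlgInt) (hM : Cfsg.IsPModular p M) (B : Set (Cfsg.IrrCharacter G)) (hB : Cfsg.IsPBlock M B) : Cfsg.blockRank p B ≤ Nat.card B ∧ (Cfsg.blockDefect p B = 0 ↔ (Nat.card B = 1 ∧ Cfsg.blockRank p B = 1)) ∧ (Cfsg.blockDefect p B = 0 ↔ Nat.card B = Cfsg.blockRank p B) := by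
  classical
  have : Fintype G := Fintype.ofFinite G
  have : Fintype (IrrCharacter G) := Fintype.ofFinite _
  have hpr := isPrime_of_isPModular hM
  have hBc : BlockClosed M B := blockClosed_of_isPBlock M hB
  have hBfin : Fintype B := Fintype.ofFinite _
  obtain ⟨χ₀, hχ₀⟩ := hB
  have hχ₀B : χ₀ ∈ B := by rw [hχ₀]; exact sameBlock_refl M _
  have hsame : ∀ χ ∈ B, ∀ ψ ∈ B, SameBlock M (χ : G → ℂ) (ψ : G → ℂ) := by
    intro χ hχ ψ hψ
    rw [hχ₀] at hχ hψ
    exact sameBlock_trans M (sameBlock_symm M hχ) hψ
  let b : B → (G → ℂ) := fun χ => pRegularPart p ((χ : IrrCharacter G) : G → ℂ)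
  have hrank : blockRank p B = (Set.range b).finrank ℂ := by
    unfold blockRank Set.finrank
    rw [Set.image_eq_range]
  have hdef : blockDefect p B = 0 ↔ ∀ χ ∈ B,
      (Nat.card G).factorization p ≤ (charDegree (χ : G → ℂ)).factorization p := by
    unfold blockDefect
    rw [Nat.sub_eq_zero_iff_le]
    constructor
    · intro h χ hχ
      exact le_trans h (Nat.sInf_le ⟨χ, hχ, rfl⟩)
    · intro h
      have hne : ((fun χ : IrrCharacter G => (charDegree (χ : G → ℂ)).factorization p) '' B).Nonempty :=
        ⟨_, χ₀, hχ₀B, rfl⟩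
      obtain ⟨χ, hχ, hχe⟩ := Nat.sInf_mem hne
      rw [← hχe]
      exact h χ hχ
  have hDZ : ∀ χ ∈ B, (Nat.card G).factorization p ≤ (charDegree (χ : G → ℂ)).factorization p →
      B = {χ} := by
    intro χ hχ hle
    obtain ⟨d, hd1, hdpos, hdvd, hdeg⟩ := irr_degree χ
    have hnd : ¬ p ∣ Nat.card G / d := not_dvd_div_of_factorization_le Nat.card_pos hdvd (by
      rw [← hdeg]; exact hle)
    ext ψ
    constructor
    · intro hψ
      exact eq_of_sameBlock_of_defect_zero hM χ ψ (hsame χ hχ ψ hψ) d hd1 hdvd hnd
    · intro hψ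
      rw [Set.mem_singleton_iff] at hψ
      rw [hψ]; exact hχ
  have hrank1 : ∀ χ, B = {χ} → blockRank p B = 1 := by
    intro χ hB1
    unfold blockRank
    rw [hB1, Set.image_singleton]
    apply finrank_span_singleton
    intro h0
    have h1 := congrFun h0 1
    unfold pRegularPart at h1
    have hreg : IsPRegular p (1 : G) := by
      unfold IsPRegular
      rw [orderOf_one, Nat.dvd_one]
      exact (Fact.out : p.Prime).one_lt.ne'
    rw [if_pos hreg] at h1
    exact irr_one_ne_zero χ.2 h1
  have hcard1 : ∀ χ, B = {χ} → Nat.card B = 1 := by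
    intro χ h
    rw [h]; simp
  have hsing : ∀ χ, B = {χ} →
      (Nat.card G).factorization p ≤ (charDegree (χ : G → ℂ)).factorization p := by
    intro χ hB1
    obtain ⟨d, hd1, hdpos, hdvd, hdeg⟩ := irr_degree χ
    rw [hdeg]
    exact factorization_le_of_singleton_closed hM χ (by rw [← hB1]; exact hBc) d hd1 hdpos
  refine ⟨?_, ?_, ?_⟩
  · rw [hrank, Nat.card_eq_fintype_card]
    exact finrank_range_le_card b
  · constructor
    · intro h0
      have h1 := hDZ χ₀ hχ₀B ((hdef.mp h0) χ₀ hχ₀B)
      exact ⟨hcard1 χ₀ h1, hrank1 χ₀ h1⟩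
    · rintro ⟨h1, _⟩
      obtain ⟨⟨χ, hχB⟩, hall⟩ := Nat.card_eq_one_iff_exists.mp h1
      have hBχ : B = {χ} := by
        ext ψ
        constructor
        · intro hψ
          have := hall ⟨ψ, hψ⟩
          exact congrArg Subtype.val this
        · intro hψ
          rw [Set.mem_singleton_iff] at hψ
          rw [hψ]; exact hχB
      rw [hdef]
      intro ψ hψ
      rw [hBχ, Set.mem_singleton_iff] at hψ
      rw [hψ]; exact hsing χ hBχ
  · constructor
    · intro h0
      have h1 := hDZ χ₀ hχ₀B ((hdef.mp h0) χ₀ hχ₀B)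
      rw [hcard1 χ₀ h1, hrank1 χ₀ h1]
    · intro hcr
      rw [hdef]
      have hli : LinearIndependent ℂ b := by
        rw [linearIndependent_iff_card_eq_finrank_span, ← hrank, ← hcr, Nat.card_eq_fintype_card]
      intro χ hχ
      obtain ⟨d, hd1, hdpos, hdvd, hdeg⟩ := irr_degree χ
      rw [hdeg]
      apply factorization_le_of_vanish χ _ d hd1 hdpos
      intro y hy
      have hrel : ∑ ψ : B, conj (((ψ : IrrCharacter G) : G → ℂ) y) • b ψ = 0 := by
        funext x
        rw [Finset.sum_apply]
        simp only [Pi.smul_apply, smul_eq_mul, Pi.zero_apply]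
        by_cases hx : p ∣ orderOf x
        · apply Finset.sum_eq_zero
          intro ψ _
          have : b ψ x = 0 := by
            change pRegularPart p _ x = 0
            unfold pRegularPart
            rw [if_neg]
            intro h; exact h hx
          rw [this, mul_zero]
        · have h1 := block_orth hM B hBc x y hx hy
          simp only [ite_mul, one_mul, zero_mul] at h1
          rw [← Finset.sum_filter] at h1
          rw [Finset.sum_subtype (Finset.univ.filter (fun χ : IrrCharacter G => χ ∈ B))
            (p := fun χ => χ ∈ B) (by simp)] at h1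
          rw [← h1]
          apply Finset.sum_congr rfl
          intro ψ _
          have : b ψ x = ((ψ : IrrCharacter G) : G → ℂ) x := by
            change pRegularPart p _ x = _
            unfold pRegularPart
            rw [if_pos]
            exact hx
          rw [this, mul_comm]
      have h2 := (Fintype.linearIndependent_iff.mp hli) _ hrel ⟨χ, hχ⟩
      have h3 := congrArg conj h2
      simpa using h3

end Cfsg.Agent.S4733
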