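import Cfsg.Statements.S4955
import Cfsg.Agent.Lib.Helper2.CharIto
import Cfsg.Agent.Lib.Helper8.DefectNum
import Cfsg.Agent.Lib.Helper25.Codegree
import Cfsg.Agent.Lib.Helper26.GaloisAvg

set_option autoImplicit false
open Cfsg

namespace Cfsg.Agent.S4955

open Cfsg.Agent.Lib.Helper2 Cfsg.Agent.Lib.Helper25 Cfsg.Agent.Lib.Helper8 Cfsg.Agent.Lib.Helper26

theorem card_conjClasses_congr {A B : Type*} [Group A] [Group B] (e : A ≃* B) :
    Nat.card (ConjClasses A) = Nat.card (ConjClasses B) := by
  apply Nat.card_congr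
  refine ⟨ConjClasses.map e.toMonoidHom, ConjClasses.map e.symm.toMonoidHom, ?_, ?_⟩
  · intro c
    obtain ⟨a, rfl⟩ := ConjClasses.mk_surjective c
    show ConjClasses.mk (e.symm (e a)) = ConjClasses.mk a
    simp
  · intro c
    obtain ⟨a, rfl⟩ := ConjClasses.mk_surjective c
    show ConjClasses.mk (e (e.symm a)) = ConjClasses.mk a
    simp

/-- Let X be a finite group with an abelian normal Sylow p-subgroup V (a normal p-subgroup of index prime to p in which any two elements commute), and let G be a complement to V in X. Then for every v in V, writing C for the centralizer of v in G, the number k(X) of conjugacy classes of X satisfies k(X) ≤ (order of C)·(order of V) − ((order of G) − k(G)); the statement is written with the subtracted term moved to the left. In particular, if some v in V is centralized by no nonidentity element of G, then k(X) is at most the order of V. -/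
theorem result {X : Type*} [Group X] [Finite X] (p : ℕ) [Fact p.Prime] (V : Subgroup X) [V.Normal] (hVp : IsPGroup p V) (hidx : ¬ p ∣ V.index) (hab : ∀ a ∈ V, ∀ b ∈ V, a * b = b * a) (G : Subgroup X) (hGV : Subgroup.IsComplement' V G) (v : X) (hv : v ∈ V) : Nat.card (ConjClasses X) + Nat.card G ≤ Nat.card ↥(G ⊓ Subgroup.centralizer ({v} : Set X)) * Nat.card V + Nat.card (ConjClasses G) := by
  classical
  have hp : p.Prime := Fact.out
  obtain ⟨M, hM⟩ := exists_isPModular p hp
  have hnv : ∀ χ : IrrCharacter X, (χ : X → ℂ) v ≠ 0 := by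
    intro χ h0
    obtain ⟨k, hk⟩ := (IsPGroup.iff_orderOf.mp hVp) ⟨v, hv⟩
    have hvk : v ^ (p ^ k) = 1 := by
      have h1 := pow_orderOf_eq_one (⟨v, hv⟩ : V)
      rw [hk] at h1
      have h2 := congrArg Subtype.val h1
      simpa using h2
    have h1 := char_mul_sub_mem hM χ v 1 k hvk (by simp)
    rw [mul_one, h0, zero_sub] at h1
    have h2 : MemLocalIdeal M ((χ : X → ℂ) 1) := by
      have := MemLocalIdeal.neg M h1
      simpa using this
    obtain ⟨n, ρ, hρ, hχ⟩ := χ.2
    have h3 : (χ : X → ℂ) 1 = (n : ℂ) := by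
      rw [← hχ, Representation.char_one]
      simp
    rw [h3, memLocalIdeal_natCast_iff hM] at h2
    have := hρ
    have h4 := ito_degree_dvd_index ρ V hab
    rw [Module.finrank_fin_fun] at h4
    exact hidx (h2.trans h4)
  have key := card_irr_add_le v hnv V hv
  rw [card_irr_eq_card_conjClasses, card_irr_eq_card_conjClasses] at key
  have e : G ≃* X ⧸ V := hGV.symm.QuotientMulEquiv.symm
  have h1 : Nat.card (X ⧸ V) = Nat.card G := (Nat.card_congr e.toEquiv).symm
  have h2 : Nat.card (ConjClasses (X ⧸ V)) = Nat.card (ConjClasses G) :=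
    (card_conjClasses_congr e).symm
  have hVC : V ≤ Subgroup.centralizer ({v} : Set X) := by
    intro a ha
    rw [Subgroup.mem_centralizer_iff]
    intro x hx
    rw [Set.mem_singleton_iff] at hx
    rw [hx]
    exact hab v hv a ha
  have h3 : Nat.card (Subgroup.centralizer ({v} : Set X))
      = Nat.card ↥(G ⊓ Subgroup.centralizer ({v} : Set X)) * Nat.card V := by
    rw [mul_comm, ← Nat.card_prod]
    symm
    apply Nat.card_congr
    refine Equiv.ofBijective (fun ab : V × ↥(G ⊓ Subgroup.centralizer ({v} : Set X)) =>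
      (⟨(ab.1 : X) * (ab.2 : X), Subgroup.mul_mem _ (hVC ab.1.2) ab.2.2.2⟩ :
        Subgroup.centralizer ({v} : Set X))) ⟨?_, ?_⟩
    · rintro ⟨a, b⟩ ⟨a', b'⟩ h
      have h' : (a : X) * (b : X) = (a' : X) * (b' : X) := congrArg Subtype.val h
      have h4 := hGV.1 (a₁ := (a, ⟨(b : X), b.2.1⟩)) (a₂ := (a', ⟨(b' : X), b'.2.1⟩)) h'
      rw [Prod.mk.injEq] at h4
      obtain ⟨h5, h6⟩ := h4
      have h7 : (b : X) = (b' : X) := by
        have := congrArg Subtype.val h6
        exact this
      rw [Prod.mk.injEq]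
      exact ⟨h5, Subtype.ext h7⟩
    · intro c
      obtain ⟨⟨a, b⟩, habc⟩ := hGV.2 (c : X)
      have habc' : (a : X) * (b : X) = (c : X) := habc
      have hb : (b : X) ∈ Subgroup.centralizer ({v} : Set X) := by
        have h4 : (b : X) = (a : X)⁻¹ * (c : X) := by
          rw [← habc']
          group
        rw [h4]
        exact Subgroup.mul_mem _ (Subgroup.inv_mem _ (hVC a.2)) c.2
      refine ⟨(a, ⟨(b : X), ⟨b.2, hb⟩⟩), ?_⟩
      exact Subtype.ext habc'
  omega

end Cfsg.Agent.S4955
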