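import Cfsg.Statements.S4956
import Cfsg.Agent.Lib.Helper26.CoprimeFix

set_option autoImplicit false
open Cfsg

namespace Cfsg.Agent.S4956

open Cfsg.Agent.Lib.Helper26

/-- Let X be a finite group, V an abelian normal subgroup of X (any two elements of V commute) and G a complement to V in X whose order is coprime to that of V. Let S be a set of representatives of the orbits of G on V under conjugation: S lies in V and every element of V is conjugate under G to exactly one member of S. Then the number of conjugacy classes of X equals the sum, over s in S, of the number of conjugacy classes of the centralizer of s in G. -/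
theorem result {X : Type*} [Group X] [Finite X] (V : Subgroup X) [V.Normal] (hab : ∀ a ∈ V, ∀ b ∈ V, a * b = b * a) (G : Subgroup X) (hGV : Subgroup.IsComplement' V G) (hcop : (Nat.card V).Coprime (Nat.card G)) (S : Finset X) (hSV : ∀ s ∈ S, s ∈ V) (hrep : ∀ v ∈ V, ∃! s, s ∈ S ∧ ∃ g ∈ G, g * v * g⁻¹ = s) : Nat.card (ConjClasses X) = ∑ s ∈ S, Nat.card (ConjClasses ↥(G ⊓ Subgroup.centralizer ({s} : Set X))) := by
  classical
  have hdisj : ∀ x : X, x ∈ V → x ∈ G → x = 1 := by
    intro x hxV hxG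
    exact (Subgroup.disjoint_def.mp hGV.disjoint) hxV hxG
  have hsplit : ∀ x : X, ∃ u ∈ V, ∃ k ∈ G, x = u * k := by
    intro x
    obtain ⟨⟨⟨u, hu⟩, ⟨k, hk⟩⟩, h⟩ := hGV.2 x
    exact ⟨u, hu, k, hk, h.symm⟩
  -- the coprime decomposition for `h ∈ G` acting on `V`
  have hdec : ∀ h ∈ G, (∀ c ∈ V, ∀ u ∈ V, h * c = c * h → c = h⁻¹ * u * h * u⁻¹ → c = 1) ∧
      (∀ v ∈ V, ∃ c ∈ V, ∃ u ∈ V, h * c = c * h ∧ v = c * (h⁻¹ * u * h * u⁻¹)) := by
    intro h hh
    have hcommV : ∀ a b : V, a * b = b * a := fun a b => Subtype.ext (hab a a.2 b b.2)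
    have hpow : ∀ (i : ℕ) (a : V), ((MulAut.conjNormal h⁻¹ : V ≃* V) ^ i) a
        = MulAut.conjNormal (h⁻¹ ^ i) a := by
      intro i a
      rw [← map_pow]
    have hn : ∀ a : V, ((MulAut.conjNormal h⁻¹ : V ≃* V) ^ (orderOf h)) a = a := by
      intro a
      rw [hpow, inv_pow, pow_orderOf_eq_one, inv_one, map_one]
      rfl
    have hcop' : (Nat.card V).Coprime (orderOf h) := by
      apply Nat.Coprime.coprime_dvd_right _ hcop
      have := orderOf_dvd_natCard (⟨h, hh⟩ : G)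
      rwa [Subgroup.orderOf_mk] at this
    obtain ⟨h1, h2⟩ := coprime_fix_decomp hcommV (MulAut.conjNormal h⁻¹ : V ≃* V) (orderOf h)
      hn hcop'
    constructor
    · intro c hc u hu hcc hcu
      have e1 : (MulAut.conjNormal h⁻¹ : V ≃* V) ⟨c, hc⟩ = ⟨c, hc⟩ := by
        apply Subtype.ext
        rw [MulAut.conjNormal_apply, inv_inv]
        calc h⁻¹ * c * h = h⁻¹ * (c * h) := by group
          _ = h⁻¹ * (h * c) := by rw [hcc]
          _ = c := by group
      have e2 : (⟨c, hc⟩ : V) = (MulAut.conjNormal h⁻¹ : V ≃* V) ⟨u, hu⟩ * (⟨u, hu⟩ : V)⁻¹ := by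
        apply Subtype.ext
        rw [Subgroup.coe_mul, MulAut.conjNormal_apply, inv_inv]
        exact hcu
      exact congrArg Subtype.val (h1 ⟨c, hc⟩ ⟨u, hu⟩ e1 e2)
    · intro v hv
      obtain ⟨c, u, hc, hvu⟩ := h2 ⟨v, hv⟩
      refine ⟨c, c.2, u, u.2, ?_, ?_⟩
      · have e := congrArg Subtype.val hc
        rw [MulAut.conjNormal_apply, inv_inv] at e
        calc h * (c : X) = h * (h⁻¹ * c * h) := by rw [e]
          _ = c * h := by group
      · have e := congrArg Subtype.val hvu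
        rw [Subgroup.coe_mul, Subgroup.coe_mul, MulAut.conjNormal_apply, inv_inv] at e
        exact e
  -- the map from pairs to classes
  let Φ : (Σ s : {s // s ∈ S}, ConjClasses ↥(G ⊓ Subgroup.centralizer ({(s : X)} : Set X)))
      → ConjClasses X :=
    fun p => Quotient.liftOn p.2 (fun h => ConjClasses.mk ((h : X) * (p.1 : X))) (by
      intro a b hab'
      obtain ⟨k, hk⟩ := isConj_iff.mp hab'
      apply ConjClasses.mk_eq_mk_iff_isConj.mpr
      rw [isConj_iff]
      refine ⟨(k : X), ?_⟩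
      have hkc : (k : X) * (p.1 : X) = (p.1 : X) * (k : X) :=
        (Subgroup.mem_centralizer_iff.mp k.2.2 (p.1 : X) (Set.mem_singleton _)).symm
      have hk' : (k : X) * (a : X) * (k : X)⁻¹ = (b : X) := by
        have := congrArg Subtype.val hk
        simpa using this
      calc (k : X) * ((a : X) * (p.1 : X)) * (k : X)⁻¹
          = ((k : X) * (a : X) * (k : X)⁻¹) * ((k : X) * (p.1 : X) * (k : X)⁻¹) := by group
        _ = (b : X) * (p.1 : X) := by rw [hk', hkc, mul_inv_cancel_right])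
  have hΦmk : ∀ (s : {s // s ∈ S}) (h : ↥(G ⊓ Subgroup.centralizer ({(s : X)} : Set X))),
      Φ ⟨s, ConjClasses.mk h⟩ = ConjClasses.mk ((h : X) * (s : X)) := fun s h => rfl
  have hΦ : Function.Bijective Φ := by
    constructor
    · rintro ⟨⟨s, hs⟩, c⟩ ⟨⟨s', hs'⟩, c'⟩ heq
      obtain ⟨h, rfl⟩ := ConjClasses.mk_surjective c
      obtain ⟨h', rfl⟩ := ConjClasses.mk_surjective c'
      rw [hΦmk, hΦmk] at heq
      obtain ⟨x, hx⟩ := isConj_iff.mp (ConjClasses.mk_eq_mk_iff_isConj.mp heq)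
      obtain ⟨u, hu, k, hk, rfl⟩ := hsplit x
      simp only at hx
      have hhG : (h : X) ∈ G := h.2.1
      have hhs : (h : X) * s = s * (h : X) :=
        (Subgroup.mem_centralizer_iff.mp h.2.2 s (Set.mem_singleton _)).symm
      have hh'G : (h' : X) ∈ G := h'.2.1
      have hh's : (h' : X) * s' = s' * (h' : X) :=
        (Subgroup.mem_centralizer_iff.mp h'.2.2 s' (Set.mem_singleton _)).symm
      have hsV : s ∈ V := hSV s hs
      have hs'V : s' ∈ V := hSV s' hs'
      -- conjugates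
      have hs1V : k * s * k⁻¹ ∈ V := Subgroup.Normal.conj_mem inferInstance s hsV k
      have hh1G : k * (h : X) * k⁻¹ ∈ G := G.mul_mem (G.mul_mem hk hhG) (G.inv_mem hk)
      have hx' : u * ((k * (h : X) * k⁻¹) * (k * s * k⁻¹)) * u⁻¹ = (h' : X) * s' := by
        rw [← hx]; group
      -- the `G`-parts agree
      have hGeq : k * (h : X) * k⁻¹ = (h' : X) := by
        have h1 : (k * (h : X) * k⁻¹)⁻¹ * (h' : X) ∈ G := G.mul_mem (G.inv_mem hh1G) hh'G
        have h2 : (k * (h : X) * k⁻¹)⁻¹ * (h' : X) ∈ V := by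
          have e : (k * (h : X) * k⁻¹)⁻¹ * (h' : X)
              = ((k * (h : X) * k⁻¹)⁻¹ * u * (k * (h : X) * k⁻¹)) * (k * s * k⁻¹) * u⁻¹ * s'⁻¹ := by
            have : (h' : X) = u * ((k * (h : X) * k⁻¹) * (k * s * k⁻¹)) * u⁻¹ * s'⁻¹ := by
              rw [hx']; group
            rw [this]; group
          rw [e]
          refine V.mul_mem (V.mul_mem (V.mul_mem ?_ hs1V) (V.inv_mem hu)) (V.inv_mem hs'V)
          have := Subgroup.Normal.conj_mem (inferInstance : V.Normal) u hu (k * (h : X) * k⁻¹)⁻¹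
          rwa [inv_inv] at this
        have h3 := hdisj _ h2 h1
        exact inv_mul_eq_one.mp h3
      rw [hGeq] at hx'
      -- the `V`-parts agree
      have hVeq : s' = k * s * k⁻¹ := by
        have hc1 : (k * s * k⁻¹)⁻¹ * s' ∈ V := V.mul_mem (V.inv_mem hs1V) hs'V
        have hc2 : (h' : X) * ((k * s * k⁻¹)⁻¹ * s') = ((k * s * k⁻¹)⁻¹ * s') * (h' : X) := by
          have e1 : (h' : X) * (k * s * k⁻¹) = (k * s * k⁻¹) * (h' : X) := by
            rw [← hGeq]
            calc k * (h : X) * k⁻¹ * (k * s * k⁻¹) = k * ((h : X) * s) * k⁻¹ := by group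
              _ = k * (s * (h : X)) * k⁻¹ := by rw [hhs]
              _ = k * s * k⁻¹ * (k * (h : X) * k⁻¹) := by group
          have e2 : (h' : X) * (k * s * k⁻¹)⁻¹ = (k * s * k⁻¹)⁻¹ * (h' : X) := by
            calc (h' : X) * (k * s * k⁻¹)⁻¹
                = (k * s * k⁻¹)⁻¹ * ((k * s * k⁻¹) * (h' : X)) * (k * s * k⁻¹)⁻¹ := by group
              _ = (k * s * k⁻¹)⁻¹ * ((h' : X) * (k * s * k⁻¹)) * (k * s * k⁻¹)⁻¹ := by rw [e1]
              _ = (k * s * k⁻¹)⁻¹ * (h' : X) := by group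
          rw [← mul_assoc, e2, mul_assoc, hh's, ← mul_assoc]
        have hc3 : (k * s * k⁻¹)⁻¹ * s' = (h' : X)⁻¹ * u * (h' : X) * u⁻¹ := by
          have e3 : s' = (h' : X)⁻¹ * u * (h' : X) * (k * s * k⁻¹) * u⁻¹ := by
            have : (h' : X) * s' = u * ((h' : X) * (k * s * k⁻¹)) * u⁻¹ := hx'.symm
            calc s' = (h' : X)⁻¹ * ((h' : X) * s') := by group
              _ = (h' : X)⁻¹ * (u * ((h' : X) * (k * s * k⁻¹)) * u⁻¹) := by rw [this]
              _ = (h' : X)⁻¹ * u * (h' : X) * (k * s * k⁻¹) * u⁻¹ := by group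
          have e4 : (k * s * k⁻¹) * u⁻¹ = u⁻¹ * (k * s * k⁻¹) := hab _ hs1V _ (V.inv_mem hu)
          have hw : (h' : X)⁻¹ * u * (h' : X) ∈ V := by
            have := Subgroup.Normal.conj_mem (inferInstance : V.Normal) u hu (h' : X)⁻¹
            rwa [inv_inv] at this
          have e5 : (k * s * k⁻¹)⁻¹ * ((h' : X)⁻¹ * u * (h' : X) * u⁻¹)
              = ((h' : X)⁻¹ * u * (h' : X) * u⁻¹) * (k * s * k⁻¹)⁻¹ :=
            hab _ (V.inv_mem hs1V) _ (V.mul_mem hw (V.inv_mem hu))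
          calc (k * s * k⁻¹)⁻¹ * s'
              = (k * s * k⁻¹)⁻¹ * ((h' : X)⁻¹ * u * (h' : X) * (k * s * k⁻¹) * u⁻¹) :=
                congrArg (fun z => (k * s * k⁻¹)⁻¹ * z) e3
            _ = (k * s * k⁻¹)⁻¹ * ((h' : X)⁻¹ * u * (h' : X) * ((k * s * k⁻¹) * u⁻¹)) := by
                group
            _ = (k * s * k⁻¹)⁻¹ * ((h' : X)⁻¹ * u * (h' : X) * u⁻¹ * (k * s * k⁻¹)) := by
                rw [e4]; group
            _ = (k * s * k⁻¹)⁻¹ * ((h' : X)⁻¹ * u * (h' : X) * u⁻¹) * (k * s * k⁻¹) := by group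
            _ = ((h' : X)⁻¹ * u * (h' : X) * u⁻¹) * (k * s * k⁻¹)⁻¹ * (k * s * k⁻¹) := by rw [e5]
            _ = (h' : X)⁻¹ * u * (h' : X) * u⁻¹ := by group
        have := (hdec (h' : X) hh'G).1 _ hc1 u hu hc2 hc3
        exact (inv_mul_eq_one.mp this).symm
      -- uniqueness of representatives
      obtain ⟨t, -, htu⟩ := hrep s hsV
      have e1 : s = t := htu s ⟨hs, 1, G.one_mem, by group⟩
      have e2 : s' = t := htu s' ⟨hs', k, hk, hVeq.symm⟩
      have hss : s = s' := e1.trans e2.symm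
      subst hss
      have hkc : k ∈ G ⊓ Subgroup.centralizer ({s} : Set X) := by
        refine Subgroup.mem_inf.mpr ⟨hk, ?_⟩
        rw [Subgroup.mem_centralizer_iff]
        intro y hy
        rw [Set.mem_singleton_iff] at hy
        subst hy
        calc y * k = (k * y * k⁻¹) * k := by rw [← hVeq]
          _ = k * y := by group
      congr 1
      apply ConjClasses.mk_eq_mk_iff_isConj.mpr
      rw [isConj_iff]
      exact ⟨⟨k, hkc⟩, Subtype.ext hGeq⟩
    · intro c
      obtain ⟨x, rfl⟩ := ConjClasses.mk_surjective c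
      obtain ⟨u₀, hu₀, g, hg, rfl⟩ := hsplit x
      have hv' : g⁻¹ * u₀ * g ∈ V := by
        have := Subgroup.Normal.conj_mem (inferInstance : V.Normal) u₀ hu₀ g⁻¹
        rwa [inv_inv] at this
      obtain ⟨c, hc, u, hu, hgc, hvc⟩ := (hdec g hg).2 _ hv'
      obtain ⟨s, ⟨hsS, k, hk, hks⟩, -⟩ := hrep c hc
      have hmem : k * g * k⁻¹ ∈ G ⊓ Subgroup.centralizer ({s} : Set X) := by
        refine Subgroup.mem_inf.mpr ⟨G.mul_mem (G.mul_mem hk hg) (G.inv_mem hk), ?_⟩
        rw [Subgroup.mem_centralizer_iff]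
        intro y hy
        rw [Set.mem_singleton_iff] at hy
        subst hy
        rw [← hks]
        calc k * c * k⁻¹ * (k * g * k⁻¹) = k * (c * g) * k⁻¹ := by group
          _ = k * (g * c) * k⁻¹ := by rw [hgc]
          _ = k * g * k⁻¹ * (k * c * k⁻¹) := by group
      refine ⟨⟨⟨s, hsS⟩, ConjClasses.mk ⟨k * g * k⁻¹, hmem⟩⟩, ?_⟩
      rw [hΦmk]
      apply ConjClasses.mk_eq_mk_iff_isConj.mpr
      rw [isConj_iff]
      refine ⟨u * k⁻¹, ?_⟩
      have hcu : c * u = u * c := hab c hc u hu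
      have e1 : u₀ * g = g * (g⁻¹ * u₀ * g) := by group
      rw [e1, hvc]
      simp only
      rw [← hks]
      calc u * k⁻¹ * (k * g * k⁻¹ * (k * c * k⁻¹)) * (u * k⁻¹)⁻¹ = u * (g * c) * u⁻¹ := by group
        _ = u * (c * g) * u⁻¹ := by rw [hgc]
        _ = (u * c) * g * u⁻¹ := by group
        _ = (c * u) * g * u⁻¹ := by rw [hcu]
        _ = (g * c) * g⁻¹ * u * g * u⁻¹ := by rw [hgc]; group
        _ = g * (c * (g⁻¹ * u * g * u⁻¹)) := by group
  rw [← Nat.card_eq_of_bijective Φ hΦ, Nat.card_sigma, Finset.sum_coe_sort S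
    (fun s => Nat.card (ConjClasses ↥(G ⊓ Subgroup.centralizer ({s} : Set X))))]

end Cfsg.Agent.S4956
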