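import Cfsg.Statements.S4965
import Mathlib

set_option autoImplicit false
open Cfsg

namespace Cfsg.Agent.S4965

/-- Let X be a finite group with an abelian normal subgroup V (any two elements of V commute), and let φ be the action of X ⧸ V on V induced by conjugation (well defined because V is abelian; the hypothesis hφ says that the class of x acts as conjugation by x). Then X has at most as many conjugacy classes as the semidirect product of V by X ⧸ V formed with this action: the split extension has the largest class number among extensions with the given action. -/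
theorem result {X : Type*} [Group X] [Finite X] (V : Subgroup X) [V.Normal] (hab : ∀ a ∈ V, ∀ b ∈ V, a * b = b * a) (φ : X ⧸ V →* MulAut ↥V) (hφ : ∀ (x : X) (v : ↥V), ((φ (QuotientGroup.mk x) v : ↥V) : X) = x * v * x⁻¹) : Nat.card (ConjClasses X) ≤ Nat.card (ConjClasses (SemidirectProduct ↥V (X ⧸ V) φ)) := by
  classical
  have hfinY : Finite (SemidirectProduct ↥V (X ⧸ V) φ) :=
    Finite.of_equiv _ SemidirectProduct.equivProd.symm
  have hcardY : Nat.card (SemidirectProduct ↥V (X ⧸ V) φ) = Nat.card X := by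
    rw [SemidirectProduct.card, Subgroup.card_eq_card_quotient_mul_card_subgroup V, mul_comm]
  have h1 := card_comm_eq_card_conjClasses_mul_card X
  have h2 := card_comm_eq_card_conjClasses_mul_card (SemidirectProduct ↥V (X ⧸ V) φ)
  -- a commuting pair above every pair of cosets that has one
  have hex : ∀ hh : (X ⧸ V) × (X ⧸ V), ∃ b : X × X,
      (∃ b' : X × X, Commute b'.1 b'.2 ∧ (b'.1 : X ⧸ V) = hh.1 ∧ (b'.2 : X ⧸ V) = hh.2) →
      (Commute b.1 b.2 ∧ (b.1 : X ⧸ V) = hh.1 ∧ (b.2 : X ⧸ V) = hh.2) := by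
    intro hh
    by_cases h : ∃ b' : X × X, Commute b'.1 b'.2 ∧ (b'.1 : X ⧸ V) = hh.1 ∧ (b'.2 : X ⧸ V) = hh.2
    · obtain ⟨b, hb⟩ := h
      exact ⟨b, fun _ => hb⟩
    · exact ⟨(1, 1), fun h' => absurd h' h⟩
  choose base hbase using hex
  have hb : ∀ p : {p : X × X // Commute p.1 p.2},
      Commute (base ((p.1.1 : X ⧸ V), (p.1.2 : X ⧸ V))).1 (base ((p.1.1 : X ⧸ V), (p.1.2 : X ⧸ V))).2
      ∧ ((base ((p.1.1 : X ⧸ V), (p.1.2 : X ⧸ V))).1 : X ⧸ V) = (p.1.1 : X ⧸ V)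
      ∧ ((base ((p.1.1 : X ⧸ V), (p.1.2 : X ⧸ V))).2 : X ⧸ V) = (p.1.2 : X ⧸ V) :=
    fun p => hbase _ ⟨p.1, p.2, rfl, rfl⟩
  have hm1 : ∀ p : {p : X × X // Commute p.1 p.2},
      p.1.1 * (base ((p.1.1 : X ⧸ V), (p.1.2 : X ⧸ V))).1⁻¹ ∈ V := by
    intro p
    apply (QuotientGroup.eq_one_iff _).mp
    rw [QuotientGroup.mk_mul, QuotientGroup.mk_inv, (hb p).2.1, mul_inv_cancel]
  have hm2 : ∀ p : {p : X × X // Commute p.1 p.2},
      p.1.2 * (base ((p.1.1 : X ⧸ V), (p.1.2 : X ⧸ V))).2⁻¹ ∈ V := by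
    intro p
    apply (QuotientGroup.eq_one_iff _).mp
    rw [QuotientGroup.mk_mul, QuotientGroup.mk_inv, (hb p).2.2, mul_inv_cancel]
  have hcg : ∀ (x x' x₀ x₀' : X) (hc : x * x' = x' * x) (hc0 : x₀ * x₀' = x₀' * x₀)
      (hb1 : (x₀ : X ⧸ V) = (x : X ⧸ V)) (hb2 : (x₀' : X ⧸ V) = (x' : X ⧸ V))
      (hv : x * x₀⁻¹ ∈ V) (hv' : x' * x₀'⁻¹ ∈ V),
      Commute (⟨⟨x * x₀⁻¹, hv⟩, (x : X ⧸ V)⟩ : SemidirectProduct ↥V (X ⧸ V) φ)
        (⟨⟨x' * x₀'⁻¹, hv'⟩, (x' : X ⧸ V)⟩ : SemidirectProduct ↥V (X ⧸ V) φ) := by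
    intro x x' x₀ x₀' hc hc0 hb1 hb2 hv hv'
    apply SemidirectProduct.ext
    · rw [SemidirectProduct.mul_left, SemidirectProduct.mul_left]
      apply Subtype.ext
      rw [Subgroup.coe_mul, Subgroup.coe_mul]
      simp only
      rw [← hb1, ← hb2, hφ, hφ]
      simp only
      calc x * x₀⁻¹ * (x₀ * (x' * x₀'⁻¹) * x₀⁻¹) = (x * x') * (x₀ * x₀')⁻¹ := by group
        _ = (x' * x) * (x₀' * x₀)⁻¹ := by rw [hc, hc0]
        _ = x' * x₀'⁻¹ * (x₀' * (x * x₀⁻¹) * x₀'⁻¹) := by group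
    · rw [SemidirectProduct.mul_right, SemidirectProduct.mul_right]
      simp only
      rw [← QuotientGroup.mk_mul, ← QuotientGroup.mk_mul, hc]
  have hcomm : ∀ p : {p : X × X // Commute p.1 p.2},
      Commute (⟨⟨_, hm1 p⟩, (p.1.1 : X ⧸ V)⟩ : SemidirectProduct ↥V (X ⧸ V) φ)
        (⟨⟨_, hm2 p⟩, (p.1.2 : X ⧸ V)⟩ : SemidirectProduct ↥V (X ⧸ V) φ) :=
    fun p => hcg _ _ _ _ p.2 (hb p).1 (hb p).2.1 (hb p).2.2 (hm1 p) (hm2 p)
  have hinj : Function.Injective (fun p : {p : X × X // Commute p.1 p.2} =>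
      (⟨((⟨⟨_, hm1 p⟩, (p.1.1 : X ⧸ V)⟩ : SemidirectProduct ↥V (X ⧸ V) φ),
        (⟨⟨_, hm2 p⟩, (p.1.2 : X ⧸ V)⟩ : SemidirectProduct ↥V (X ⧸ V) φ)), hcomm p⟩ :
        {q : SemidirectProduct ↥V (X ⧸ V) φ × SemidirectProduct ↥V (X ⧸ V) φ //
          Commute q.1 q.2})) := by
    intro p q hpq
    have e := congrArg Subtype.val hpq
    have e1 := congrArg (fun z : SemidirectProduct ↥V (X ⧸ V) φ × SemidirectProduct ↥V (X ⧸ V) φ =>
      ((z.1.left : ↥V) : X)) e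
    have e2 := congrArg (fun z : SemidirectProduct ↥V (X ⧸ V) φ × SemidirectProduct ↥V (X ⧸ V) φ =>
      z.1.right) e
    have e3 := congrArg (fun z : SemidirectProduct ↥V (X ⧸ V) φ × SemidirectProduct ↥V (X ⧸ V) φ =>
      ((z.2.left : ↥V) : X)) e
    have e4 := congrArg (fun z : SemidirectProduct ↥V (X ⧸ V) φ × SemidirectProduct ↥V (X ⧸ V) φ =>
      z.2.right) e
    simp only at e1 e2 e3 e4
    rw [e2, e4] at e1 e3
    apply Subtype.ext
    apply Prod.ext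
    · exact mul_right_cancel e1
    · exact mul_right_cancel e3
  have hle := Nat.card_le_card_of_injective _ hinj
  rw [h1, h2, hcardY] at hle
  exact Nat.le_of_mul_le_mul_right hle Nat.card_pos

end Cfsg.Agent.S4965
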