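import Cfsg.Statements.S4966
import Mathlib
import Cfsg.Agent.Lib.Helper22.SD1
import Cfsg.Agent.Lib.Helper22.SD4

set_option autoImplicit false
open Cfsg

namespace Cfsg.Agent.S4966

/-- Let F be a finite field of characteristic p, G a finite group of order prime to p, and V a finite-dimensional representation of G over F carrying a nondegenerate G-invariant bilinear form (equivalently, V is self-dual). Then V is the direct sum of two G-invariant subspaces U and W such that U carries a G-invariant alternating bilinear form that is nondegenerate on U and W carries a G-invariant symmetric bilinear form that is nondegenerate on W; moreover when p = 2 the decomposition can be chosen with G acting trivially on W. -/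
theorem result {F : Type*} [Field F] [Fintype F] (p : ℕ) [Fact p.Prime] [CharP F p] {G : Type*} [Group G] [Finite G] (hcop : ¬ p ∣ Nat.card G) {V : Type*} [AddCommGroup V] [Module F V] [FiniteDimensional F V] (ρ : Representation F G V) (B : LinearMap.BilinForm F V) (hB : B.Nondegenerate) (hBinv : ∀ g : G, ∀ x y : V, B (ρ g x) (ρ g y) = B x y) : ∃ U W : Submodule F V, IsCompl U W ∧ (∀ g : G, ∀ u ∈ U, ρ g u ∈ U) ∧ (∀ g : G, ∀ w ∈ W, ρ g w ∈ W) ∧ (∃ A : LinearMap.BilinForm F V, (∀ x : V, A x x = 0) ∧ (∀ g : G, ∀ x ∈ U, ∀ y ∈ U, A (ρ g x) (ρ g y) = A x y) ∧ (∀ x ∈ U, (∀ y ∈ U, A x y = 0) → x = 0)) ∧ (∃ S : LinearMap.BilinForm F V, (∀ x y : V, S x y = S y x) ∧ (∀ g : G, ∀ x ∈ W, ∀ y ∈ W, S (ρ g x) (ρ g y) = S x y) ∧ (∀ x ∈ W, (∀ y ∈ W, S x y = 0) → x = 0)) ∧ (p = 2 → ∀ g : G, ∀ w ∈ W, ρ g w = w) := by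
  classical
  have hp := (Fact.out : p.Prime)
  by_cases hp2 : p = 2
  · letI : Fintype G := Fintype.ofFinite G
    have h2 : (2 : F) = 0 := by
      have h0 : ((p : ℕ) : F) = 0 := CharP.cast_eq_zero F p
      rw [hp2] at h0
      exact_mod_cast h0
    have hG : (Fintype.card G : F) ≠ 0 := by
      intro h0
      apply hcop
      rw [Nat.card_eq_fintype_card]
      exact (CharP.cast_eq_zero_iff F p _).mp h0
    obtain ⟨U, W, hc, hU, hW, hA, hS, hfix⟩ :=
      Cfsg.Agent.Lib.Helper22.SD.even_case h2 hG ρ B hB hBinv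
    exact ⟨U, W, hc, hU, hW, hA, hS, fun _ => hfix⟩
  · have htwo : (2 : F) ≠ 0 := by
      intro h0
      apply hp2
      have h1 : ((2 : ℕ) : F) = 0 := by exact_mod_cast h0
      have h3 := (CharP.cast_eq_zero_iff F p 2).mp h1
      exact (Nat.prime_dvd_prime_iff_eq hp Nat.prime_two).mp h3
    obtain ⟨U, W, hc, hU, hW, hA, hS⟩ :=
      Cfsg.Agent.Lib.Helper22.SD.odd_case htwo ρ B hB hBinv
    exact ⟨U, W, hc, hU, hW, hA, hS, fun h => absurd h hp2⟩

end Cfsg.Agent.S4966
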