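import Cfsg.Statements.S4967
import Mathlib
import Cfsg.Agent.Lib.Helper22.FQ2

set_option autoImplicit false
open Cfsg

namespace Cfsg.Agent.S4967

/-- Let F be a finite field with r elements and of characteristic p, H a finite abelian group of order prime to p, and V a faithful irreducible representation of H over F of dimension n (faithful: distinct elements act differently; irreducible: the only H-invariant subspaces are 0 and V). Call V self-dual when it carries a nondegenerate H-invariant bilinear form. If n = 1 and V is self-dual then H has order at most 2. If n ≥ 2 then V is self-dual if and only if n is even and the order of H divides r^(n/2) + 1. -/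
theorem result {F : Type*} [Field F] [Fintype F] (p : ℕ) [Fact p.Prime] [CharP F p] {H : Type*} [CommGroup H] [Finite H] (hcop : ¬ p ∣ Nat.card H) {V : Type*} [AddCommGroup V] [Module F V] [FiniteDimensional F V] (ρ : Representation F H V) (hfaith : Function.Injective ρ) (hirr : ∀ U : Submodule F V, (∀ h : H, ∀ u ∈ U, ρ h u ∈ U) → U = ⊥ ∨ U = ⊤) : (Module.finrank F V = 1 → (∃ B : LinearMap.BilinForm F V, B.Nondegenerate ∧ ∀ h : H, ∀ x y : V, B (ρ h x) (ρ h y) = B x y) → Nat.card H ≤ 2) ∧ (2 ≤ Module.finrank F V → ((∃ B : LinearMap.BilinForm F V, B.Nondegenerate ∧ ∀ h : H, ∀ x y : V, B (ρ h x) (ρ h y) = B x y) ↔ (Even (Module.finrank F V) ∧ Nat.card H ∣ Fintype.card F ^ (Module.finrank F V / 2) + 1))) := by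
  classical
  by_cases hV : Subsingleton V
  · have h0 : Module.finrank F V = 0 := Module.finrank_zero_of_subsingleton
    constructor
    · intro h1; omega
    · intro h2; omega
  rw [not_subsingleton_iff_nontrivial] at hV
  haveI := hV
  haveI hcyc : IsCyclic H := Cfsg.Agent.Lib.Helper22.FQ.cyclic_of_faithful_irr ρ hfaith hirr
  obtain ⟨g₀, hg₀⟩ := IsCyclic.exists_monoid_generator (α := H)
  have hgen : ∀ g : H, ∃ k : ℕ, ρ g = (ρ g₀) ^ k := by
    intro g
    obtain ⟨k, hk⟩ := (Submonoid.mem_powers_iff _ _).mp (hg₀ g)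
    exact ⟨k, by rw [← hk, map_pow]⟩
  have hordH : orderOf g₀ = Nat.card H := by
    apply orderOf_eq_card_of_forall_mem_zpowers
    intro y
    obtain ⟨k, hk⟩ := (Submonoid.mem_powers_iff _ _).mp (hg₀ y)
    exact ⟨k, by simpa using hk⟩
  obtain ⟨x, hxdef⟩ : ∃ x : Module.End F V, x = ρ g₀ := ⟨_, rfl⟩
  have hxh : x ^ Nat.card H = 1 := by
    rw [hxdef, ← map_pow, ← hordH, pow_orderOf_eq_one, map_one]
  have hxord : ∀ k : ℕ, x ^ k = 1 → Nat.card H ∣ k := by
    intro k hk
    rw [← hordH]
    apply orderOf_dvd_of_pow_eq_one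
    apply hfaith
    rw [map_pow, ← hxdef, hk, map_one]
  have hpowinv : ∀ (S : Submodule F V), S ≤ S.comap x → ∀ (k : ℕ), ∀ u ∈ S, (x ^ k) u ∈ S := by
    intro S hS k
    induction k with
    | zero => intro u hu; simpa using hu
    | succ k ih => intro u hu; rw [pow_succ, Module.End.mul_apply]; exact ih _ (hS hu)
  have hxirr : ∀ S : Submodule F V, S ≤ S.comap x → S = ⊥ ∨ S = ⊤ := by
    intro S hS
    apply hirr
    intro g u hu
    obtain ⟨k, hk⟩ := hgen g
    rw [hk, ← hxdef]
    exact hpowinv S hS k u hu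
  have hinv_iff : ∀ B : LinearMap.BilinForm F V,
      (∀ h : H, ∀ a b : V, B (ρ h a) (ρ h b) = B a b) ↔ (∀ u v, B (x u) (x v) = B u v) := by
    intro B
    constructor
    · intro hB u v; rw [hxdef]; exact hB g₀ u v
    · intro hB g u v
      obtain ⟨k, hk⟩ := hgen g
      rw [hk, ← hxdef]
      clear hk
      induction k generalizing u v with
      | zero => simp
      | succ k ih => rw [pow_succ, Module.End.mul_apply, Module.End.mul_apply, ih, hB]
  obtain ⟨hc1, hc2⟩ := Cfsg.Agent.Lib.Helper22.FQ.irrF_core x (Nat.card H) Nat.card_pos hxh hxord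
    hxirr
  constructor
  · rintro hn1 ⟨B, hBnd, hBinv⟩
    rcases hc1 B hBnd ((hinv_iff B).mp hBinv) with h2 | ⟨j, hj, _⟩
    · exact Nat.le_of_dvd (by norm_num) h2
    · omega
  · intro hn2
    constructor
    · rintro ⟨B, hBnd, hBinv⟩
      rcases hc1 B hBnd ((hinv_iff B).mp hBinv) with h2 | ⟨j, hj, hdj⟩
      · exfalso
        obtain ⟨c, hc⟩ := h2
        have hx2 : x ^ 2 = 1 := by rw [hc, pow_mul, hxh, one_pow]
        have := Cfsg.Agent.Lib.Helper22.FQ.finrank_eq_one_of_sq x hx2 hxirr
        omega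
      · refine ⟨⟨j, by omega⟩, ?_⟩
        have hj2 : Module.finrank F V / 2 = j := by omega
        rw [hj2]; exact hdj
    · rintro ⟨⟨j, hj⟩, hd⟩
      have hj2 : Module.finrank F V / 2 = j := by omega
      rw [hj2] at hd
      obtain ⟨B, hBnd, hBx⟩ := hc2 j (by omega) hd
      exact ⟨B, hBnd, (hinv_iff B).mpr hBx⟩

end Cfsg.Agent.S4967
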