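import Cfsg.Statements.S5013
import Cfsg.Agent.Lib.Helper26.RankOne

set_option autoImplicit false
open Cfsg

namespace Cfsg.Agent.S5013

open Cfsg.Agent.Lib.Helper26

/-- In a rank one group with unipotent subgroups A and B (conjugation written g H g⁻¹), for every non-identity a in A the non-identity b in B with b⁻¹ A b = a⁻¹ B a is unique, every non-identity b in B arises in this way from exactly one such a (so a ↦ b(a) is a bijection between the non-identity elements of A and of B), and no non-identity element of A normalizes B (and vice versa). -/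
theorem result {G : Type*} [Group G] {A B : Subgroup G} (h : Cfsg.IsRankOnePair A B) :
    (∀ a ∈ A, a ≠ 1 → ∃! b : G, b ∈ B ∧ b ≠ 1 ∧ Cfsg.conjBy A b⁻¹ = Cfsg.conjBy B a⁻¹) ∧
    (∀ b ∈ B, b ≠ 1 → ∃! a : G, a ∈ A ∧ a ≠ 1 ∧ Cfsg.conjBy A b⁻¹ = Cfsg.conjBy B a⁻¹) ∧
    A ⊓ Subgroup.normalizer (B : Set G) = ⊥ ∧ B ⊓ Subgroup.normalizer (A : Set G) = ⊥ := by
  refine ⟨?_, ?_, RankOne.inf_normalizer_right h, RankOne.inf_normalizer_left h⟩
  · intro a ha ha1
    obtain ⟨b, hb, hb1, hconj⟩ := h.cond_left a ha ha1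
    refine ⟨b, ⟨hb, hb1, hconj⟩, ?_⟩
    rintro b' ⟨hb', -, hconj'⟩
    have h1 : conjBy A b'⁻¹ = conjBy A b⁻¹ := hconj'.trans hconj.symm
    have h2 : conjBy A (b * b'⁻¹) = A := by
      rw [← conjBy_conjBy, h1, conjBy_conjBy_inv]
    have h3 := RankOne.eq_one_of_mem_normalizer' h (B.mul_mem hb (B.inv_mem hb'))
      (conjBy_eq_self_iff.mp h2)
    have h4 : b = b' := by
      have := congrArg (fun z => z * b') h3
      simpa using this
    exact h4.symm
  · intro b hb hb1
    obtain ⟨a, ha, ha1, hconj⟩ := h.cond_right b hb hb1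
    refine ⟨a, ⟨ha, ha1, hconj.symm⟩, ?_⟩
    rintro a' ⟨ha', -, hconj'⟩
    have h1 : conjBy B a'⁻¹ = conjBy B a⁻¹ := hconj'.symm.trans hconj.symm
    have h2 : conjBy B (a * a'⁻¹) = B := by
      rw [← conjBy_conjBy, h1, conjBy_conjBy_inv]
    have h3 := RankOne.eq_one_of_mem_normalizer h (A.mul_mem ha (A.inv_mem ha'))
      (conjBy_eq_self_iff.mp h2)
    have h4 : a = a' := by
      have := congrArg (fun z => z * a') h3
      simpa using this
    exact h4.symm

end Cfsg.Agent.S5013
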