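import Cfsg.Statements.S5015
import Cfsg.Agent.Lib.Helper26.RankOneGroup

set_option autoImplicit false
open Cfsg

namespace Cfsg.Agent.S5015

open Cfsg.Agent.Lib.Helper26

lemma exists_third {Ω : Type*} (a b : Ω) (h : 3 ≤ ENat.card Ω) : ∃ c, c ≠ a ∧ c ≠ b := by
  classical
  by_contra hc
  push Not at hc
  have hinj : Function.Injective (fun c : Ω => decide (c = a)) := by
    intro c d hcd
    have hcd' : (c = a) ↔ (d = a) := by simpa using hcd
    by_cases hca : c = a
    · rw [hca]; exact (hcd'.mp hca).symm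
    · have h1 := hc c hca
      have hda : d ≠ a := fun hd => hca (hcd'.mpr hd)
      have h2 := hc d hda
      rw [h1, h2]
  have h1 := ENat.card_le_card_of_injective hinj
  have h2 : ENat.card Bool = 2 := by simp
  rw [h2] at h1
  have h3 : (3 : ℕ∞) ≤ 2 := h.trans h1
  exact absurd h3 (by norm_num)

/-- Let a group Y act doubly transitively on a set Ω with at least three points, and suppose that the stabilizer of a point α contains a nilpotent subgroup A, normalized by that stabilizer, which acts regularly on the points other than α. Then for any y in Y moving α, the subgroups A and y A y⁻¹ are the unipotent subgroups of a rank one group, and the normal closure of A in Y (the subgroup generated by all conjugates of A) is generated by A and y A y⁻¹ alone. -/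
theorem result {Y Ω : Type*} [Group Y] [MulAction Y Ω]
    (h2 : MulAction.IsMultiplyPretransitive Y Ω 2) (hΩ : 3 ≤ ENat.card Ω) (α : Ω) (A : Subgroup Y)
    (hA : A ≤ MulAction.stabilizer Y α) (hAn : ∀ y ∈ MulAction.stabilizer Y α, Cfsg.conjBy A y = A)
    (hnil : Group.IsNilpotent A) (hreg : ∀ β γ : Ω, β ≠ α → γ ≠ α → ∃! a : Y, a ∈ A ∧ a • β = γ)
    (y : Y) (hy : y ∉ MulAction.stabilizer Y α) :
    Cfsg.IsRankOnePair A (Cfsg.conjBy A y) ∧ Subgroup.normalClosure (A : Set Y) = A ⊔ Cfsg.conjBy A y := by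
  have hfix : ∀ a ∈ A, a • α = α := fun a ha => MulAction.mem_stabilizer_iff.mp (hA ha)
  -- conjugates of A only depend on the image of α
  have K : ∀ g₁ g₂ : Y, g₁ • α = g₂ • α → conjBy A g₁ = conjBy A g₂ := by
    intro g₁ g₂ hg
    have h1 : g₂⁻¹ * g₁ ∈ MulAction.stabilizer Y α := by
      rw [MulAction.mem_stabilizer_iff, mul_smul, hg, inv_smul_smul]
    have h3 := hAn _ h1
    have : g₁ = g₂ * (g₂⁻¹ * g₁) := by group
    rw [this, ← conjBy_conjBy, h3]
  set β := y • α with hβ
  have hβα : β ≠ α := fun h => hy (MulAction.mem_stabilizer_iff.mpr h)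
  have hyinv : y⁻¹ • α ≠ α := by
    intro h
    apply hβα
    rw [hβ]
    conv_lhs => rw [← h]
    rw [smul_inv_smul]
  -- elements of B fix β
  have hBfix : ∀ b ∈ conjBy A y, b • β = β := by
    intro b hb
    have h1 := hfix _ (mem_conjBy.mp hb)
    rw [hβ]
    have : b • y • α = y • ((y⁻¹ * b * y) • α) := by
      simp [mul_smul]
    rw [this, h1]
  -- B moves α anywhere except β
  have hBtrans : ∀ γ : Ω, γ ≠ β → ∃ b ∈ conjBy A y, b • α = γ := by
    intro γ hγ
    have h1 : y⁻¹ • γ ≠ α := by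
      intro h
      apply hγ
      rw [hβ, ← h, smul_inv_smul]
    obtain ⟨a, ⟨ha, ha2⟩, -⟩ := hreg (y⁻¹ • α) (y⁻¹ • γ) hyinv h1
    refine ⟨y * a * y⁻¹, conj_mem_conjBy ha, ?_⟩
    rw [mul_smul, mul_smul, ha2, smul_inv_smul]
  -- an element of B fixing α is trivial
  have hBreg : ∀ b ∈ conjBy A y, b • α = α → b = 1 := by
    intro b hb hbα
    have h1 : y⁻¹ * b * y ∈ A := mem_conjBy.mp hb
    have h2 : (y⁻¹ * b * y) • (y⁻¹ • α) = y⁻¹ • α := by
      simp [mul_smul, hbα]
    obtain ⟨a, -, huniq⟩ := hreg (y⁻¹ • α) (y⁻¹ • α) hyinv hyinv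
    have h3 := huniq _ ⟨h1, h2⟩
    have h4 := huniq 1 ⟨A.one_mem, one_smul _ _⟩
    have h5 : y⁻¹ * b * y = 1 := h3.trans h4.symm
    have : b = y * (y⁻¹ * b * y) * y⁻¹ := by group
    rw [this, h5]; group
  obtain ⟨γ, hγα, hγβ⟩ := exists_third α β hΩ
  have hpair : Cfsg.IsRankOnePair A (Cfsg.conjBy A y) := by
    refine ⟨?_, hnil, isNilpotent_conjBy hnil y, ?_, ?_⟩
    · intro hAB
      obtain ⟨a, ⟨ha, ha2⟩, -⟩ := hreg β γ hβα hγα
      have : a • β = β := hBfix a (hAB ▸ ha)
      exact hγβ (ha2.symm.trans this)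
    · intro a ha ha1
      have h1 : a⁻¹ • β ≠ β := by
        intro h
        obtain ⟨a₀, -, huniq⟩ := hreg β β hβα hβα
        have h3 := huniq a⁻¹ ⟨A.inv_mem ha, h⟩
        have h4 := huniq 1 ⟨A.one_mem, one_smul _ _⟩
        apply ha1
        have : a⁻¹ = 1 := h3.trans h4.symm
        simpa using this
      obtain ⟨b', hb', hb'2⟩ := hBtrans (a⁻¹ • β) h1
      refine ⟨b'⁻¹, Subgroup.inv_mem _ hb', ?_, ?_⟩
      · intro hb1
        have hb1' : b' = 1 := by simpa using hb1
        rw [hb1', one_smul] at hb'2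
        have : a • α = β := by rw [hb'2, smul_inv_smul]
        rw [hfix a ha] at this
        exact hβα this.symm
      · rw [inv_inv, conjBy_conjBy]
        apply K
        rw [hb'2, mul_smul]
    · intro b hb hb1
      have h1 : b⁻¹ • α ≠ α := by
        intro h
        apply hb1
        have := hBreg b⁻¹ (Subgroup.inv_mem _ hb) h
        simpa using this
      obtain ⟨a', ⟨ha', ha'2⟩, -⟩ := hreg β (b⁻¹ • α) hβα h1
      refine ⟨a'⁻¹, A.inv_mem ha', ?_, ?_⟩
      · intro ha1
        have ha1' : a' = 1 := by simpa using ha1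
        rw [ha1', one_smul] at ha'2
        have : b • β = α := by rw [ha'2, smul_inv_smul]
        rw [hBfix b hb] at this
        exact hβα this
      · rw [inv_inv, conjBy_conjBy]
        apply K
        rw [mul_smul, ← hβ, ha'2]
  refine ⟨hpair, ?_⟩
  apply le_antisymm
  · -- every conjugate of A lies in A ⊔ B
    have htrans : ∀ δ : Ω, ∃ x ∈ A ⊔ conjBy A y, x • α = δ := by
      intro δ
      by_cases hδ : δ = α
      · exact ⟨1, Subgroup.one_mem _, by rw [one_smul, hδ]⟩
      · obtain ⟨b, hb, hb2⟩ := hBtrans γ hγβ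
        obtain ⟨a, ⟨ha, ha2⟩, -⟩ := hreg γ δ hγα hδ
        exact ⟨a * b, Subgroup.mul_mem _ (Subgroup.mem_sup_left ha) (Subgroup.mem_sup_right hb),
          by rw [mul_smul, hb2, ha2]⟩
    have hconj : ∀ g : Y, conjBy A g ≤ A ⊔ conjBy A y := by
      intro g
      obtain ⟨x, hx, hx2⟩ := htrans (g • α)
      rw [K g x hx2.symm]
      exact conjBy_le_of_mem le_sup_left hx
    unfold Subgroup.normalClosure
    rw [Subgroup.closure_le]
    intro x hx
    obtain ⟨a, ha, hconj'⟩ := Group.mem_conjugatesOfSet_iff.mp hx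
    obtain ⟨c, rfl⟩ := isConj_iff.mp hconj'
    exact hconj c (conj_mem_conjBy ha)
  · apply sup_le Subgroup.le_normalClosure
    have h1 : conjBy A y ≤ conjBy (Subgroup.normalClosure (A : Set Y)) y :=
      conjBy_mono Subgroup.le_normalClosure y
    rwa [conjBy_normal Subgroup.normalClosure_normal y] at h1

end Cfsg.Agent.S5015
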