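import Cfsg.Statements.S5016
import Cfsg.Agent.Lib.Helper26.RankOne

set_option autoImplicit false
open Cfsg

namespace Cfsg.Agent.S5016

open Cfsg.Agent.Lib.Helper26 Matrix

variable {k : Type*} [Field k]

/-- lower unitriangular matrix -/
def Lm (t : k) : Matrix.SpecialLinearGroup (Fin 2) k :=
  ⟨!![1, 0; t, 1], by simp [Matrix.det_fin_two]⟩

/-- upper unitriangular matrix -/
def Um (s : k) : Matrix.SpecialLinearGroup (Fin 2) k :=
  ⟨!![1, s; 0, 1], by simp [Matrix.det_fin_two]⟩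

theorem coe_Lm (t : k) : ((Lm t : Matrix.SpecialLinearGroup (Fin 2) k) : Matrix (Fin 2) (Fin 2) k)
    = !![1, 0; t, 1] := rfl

theorem coe_Um (s : k) : ((Um s : Matrix.SpecialLinearGroup (Fin 2) k) : Matrix (Fin 2) (Fin 2) k)
    = !![1, s; 0, 1] := rfl

theorem sl_ext {g h : Matrix.SpecialLinearGroup (Fin 2) k}
    (h00 : (g : Matrix (Fin 2) (Fin 2) k) 0 0 = (h : Matrix (Fin 2) (Fin 2) k) 0 0)
    (h01 : (g : Matrix (Fin 2) (Fin 2) k) 0 1 = (h : Matrix (Fin 2) (Fin 2) k) 0 1)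
    (h10 : (g : Matrix (Fin 2) (Fin 2) k) 1 0 = (h : Matrix (Fin 2) (Fin 2) k) 1 0)
    (h11 : (g : Matrix (Fin 2) (Fin 2) k) 1 1 = (h : Matrix (Fin 2) (Fin 2) k) 1 1) : g = h := by
  apply Subtype.ext
  ext i j
  fin_cases i <;> fin_cases j <;> assumption

theorem det_eq (g : Matrix.SpecialLinearGroup (Fin 2) k) :
    (g : Matrix (Fin 2) (Fin 2) k) 0 0 * (g : Matrix (Fin 2) (Fin 2) k) 1 1
      - (g : Matrix (Fin 2) (Fin 2) k) 0 1 * (g : Matrix (Fin 2) (Fin 2) k) 1 0 = 1 := by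
  have := g.det_coe
  rwa [Matrix.det_fin_two] at this

theorem Lm_mul (t t' : k) : Lm t * Lm t' = Lm (t + t') := by
  apply sl_ext <;> simp [coe_Lm, Matrix.SpecialLinearGroup.coe_mul, Matrix.mul_apply, Fin.sum_univ_two, add_comm]

theorem Um_mul (s s' : k) : Um s * Um s' = Um (s + s') := by
  apply sl_ext <;> simp [coe_Um, Matrix.SpecialLinearGroup.coe_mul, Matrix.mul_apply, Fin.sum_univ_two, add_comm]

theorem Lm_zero : Lm (0 : k) = 1 := by
  apply sl_ext <;> simp [coe_Lm]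

theorem Um_zero : Um (0 : k) = 1 := by
  apply sl_ext <;> simp [coe_Um]

theorem Lm_inv (t : k) : (Lm t)⁻¹ = Lm (-t) := by
  apply inv_eq_of_mul_eq_one_right
  rw [Lm_mul, add_neg_cancel, Lm_zero]

theorem Um_inv (s : k) : (Um s)⁻¹ = Um (-s) := by
  apply inv_eq_of_mul_eq_one_right
  rw [Um_mul, add_neg_cancel, Um_zero]

theorem Lm_injective : Function.Injective (Lm : k → _) := by
  intro t t' h
  have := congrArg (fun g : Matrix.SpecialLinearGroup (Fin 2) k => (g : Matrix (Fin 2) (Fin 2) k) 1 0) h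
  simpa [coe_Lm] using this

theorem Um_injective : Function.Injective (Um : k → _) := by
  intro t t' h
  have := congrArg (fun g : Matrix.SpecialLinearGroup (Fin 2) k => (g : Matrix (Fin 2) (Fin 2) k) 0 1) h
  simpa [coe_Um] using this

theorem mem_lower {g : Matrix.SpecialLinearGroup (Fin 2) k} :
    g ∈ Cfsg.lowerUnipotentSL2 k ↔ ∃ t : k, g = Lm t := by
  constructor
  · intro h
    refine Subgroup.closure_induction (p := fun g _ => ∃ t : k, g = Lm t) ?_ ?_ ?_ ?_ h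
    · rintro g ⟨h01, h00, h11⟩
      refine ⟨(g : Matrix (Fin 2) (Fin 2) k) 1 0, ?_⟩
      apply sl_ext <;> simp [coe_Lm, h01, h00, h11]
    · exact ⟨0, Lm_zero.symm⟩
    · rintro _ _ _ _ ⟨t, rfl⟩ ⟨t', rfl⟩
      exact ⟨_, Lm_mul t t'⟩
    · rintro _ _ ⟨t, rfl⟩
      exact ⟨_, Lm_inv t⟩
  · rintro ⟨t, rfl⟩
    apply Subgroup.subset_closure
    simp [coe_Lm]

theorem mem_upper {g : Matrix.SpecialLinearGroup (Fin 2) k} :
    g ∈ Cfsg.upperUnipotentSL2 k ↔ ∃ s : k, g = Um s := by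
  constructor
  · intro h
    refine Subgroup.closure_induction (p := fun g _ => ∃ s : k, g = Um s) ?_ ?_ ?_ ?_ h
    · rintro g ⟨h10, h00, h11⟩
      refine ⟨(g : Matrix (Fin 2) (Fin 2) k) 0 1, ?_⟩
      apply sl_ext <;> simp [coe_Um, h10, h00, h11]
    · exact ⟨0, Um_zero.symm⟩
    · rintro _ _ _ _ ⟨t, rfl⟩ ⟨t', rfl⟩
      exact ⟨_, Um_mul t t'⟩
    · rintro _ _ ⟨t, rfl⟩
      exact ⟨_, Um_inv t⟩
  · rintro ⟨t, rfl⟩
    apply Subgroup.subset_closure
    simp [coe_Um]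

theorem coe_w (s t : k) :
    ((Lm t * Um (-s) : Matrix.SpecialLinearGroup (Fin 2) k) : Matrix (Fin 2) (Fin 2) k)
      = !![1, -s; t, 1 - t * s] := by
  ext i j
  fin_cases i <;> fin_cases j <;>
    simp [coe_Lm, coe_Um, Matrix.SpecialLinearGroup.coe_mul, Matrix.mul_apply, Fin.sum_univ_two] <;>
    ring

theorem coe_ULU (x c y : k) :
    ((Um x * Lm c * Um y : Matrix.SpecialLinearGroup (Fin 2) k) : Matrix (Fin 2) (Fin 2) k)
      = !![1 + x * c, (1 + x * c) * y + x; c, c * y + 1] := by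
  ext i j
  fin_cases i <;> fin_cases j <;>
    simp [coe_Lm, coe_Um, Matrix.SpecialLinearGroup.coe_mul, Matrix.mul_apply, Fin.sum_univ_two] <;>
    ring

/-- the key conjugation identity -/
theorem conj_identity {s t : k} (hst : s * t = 1) (c : k) :
    (Lm t * Um (-s)) * Lm c = Um (-(s ^ 2 * c)) * (Lm t * Um (-s)) := by
  apply sl_ext
  · rw [Matrix.SpecialLinearGroup.coe_mul, Matrix.SpecialLinearGroup.coe_mul (Um _), coe_w, coe_Lm, coe_Um]
    simp [Matrix.mul_apply, Fin.sum_univ_two]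
    linear_combination (-(s * c)) * hst
  · rw [Matrix.SpecialLinearGroup.coe_mul, Matrix.SpecialLinearGroup.coe_mul (Um _), coe_w, coe_Lm, coe_Um]
    simp [Matrix.mul_apply, Fin.sum_univ_two]
    right
    linear_combination (-1 : k) * hst
  · rw [Matrix.SpecialLinearGroup.coe_mul, Matrix.SpecialLinearGroup.coe_mul (Um _), coe_w, coe_Lm, coe_Um]
    simp [Matrix.mul_apply, Fin.sum_univ_two]
    left
    linear_combination (-1 : k) * hst
  · rw [Matrix.SpecialLinearGroup.coe_mul, Matrix.SpecialLinearGroup.coe_mul (Um _), coe_w, coe_Lm, coe_Um]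
    simp [Matrix.mul_apply, Fin.sum_univ_two]

theorem conjBy_L_eq_U {s t : k} (hst : s * t = 1) :
    conjBy (Cfsg.lowerUnipotentSL2 k) (Lm t * Um (-s)) = Cfsg.upperUnipotentSL2 k := by
  have hs : s ≠ 0 := left_ne_zero_of_mul_eq_one hst
  ext x
  rw [mem_conjBy, mem_lower, mem_upper]
  constructor
  · rintro ⟨c, hc⟩
    refine ⟨-(s ^ 2 * c), ?_⟩
    have : x = (Lm t * Um (-s)) * Lm c * (Lm t * Um (-s))⁻¹ := by rw [← hc]; group
    rw [this, conj_identity hst c]; group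
  · rintro ⟨d, rfl⟩
    refine ⟨-(d / s ^ 2), ?_⟩
    have h1 := conj_identity hst (-(d / s ^ 2))
    have h2 : -(s ^ 2 * -(d / s ^ 2)) = d := by field_simp
    rw [h2] at h1
    rw [mul_assoc, ← h1]; group

theorem cond_LU : Cfsg.RankOneCondition (Cfsg.lowerUnipotentSL2 k) (Cfsg.upperUnipotentSL2 k) := by
  intro a ha ha1
  obtain ⟨t, rfl⟩ := mem_lower.1 ha
  have ht : t ≠ 0 := fun h => ha1 (by rw [h, Lm_zero])
  refine ⟨Um t⁻¹, mem_upper.2 ⟨_, rfl⟩, ?_, ?_⟩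
  · intro h
    exact inv_ne_zero ht (Um_injective (h.trans Um_zero.symm))
  · refine conjBy_eq_iff.1 ?_
    rw [conjBy_conjBy, Um_inv]
    exact conjBy_L_eq_U (inv_mul_cancel₀ ht)

theorem cond_UL : Cfsg.RankOneCondition (Cfsg.upperUnipotentSL2 k) (Cfsg.lowerUnipotentSL2 k) := by
  intro b hb hb1
  obtain ⟨s, rfl⟩ := mem_upper.1 hb
  have hs : s ≠ 0 := fun h => hb1 (by rw [h, Um_zero])
  refine ⟨Lm s⁻¹, mem_lower.2 ⟨_, rfl⟩, ?_, ?_⟩
  · intro h
    exact inv_ne_zero hs (Lm_injective (h.trans Lm_zero.symm))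
  · symm
    refine conjBy_eq_iff.1 ?_
    rw [conjBy_conjBy, Um_inv]
    exact conjBy_L_eq_U (mul_inv_cancel₀ hs)

theorem special_aux {s t : k} (h : conjBy (Cfsg.lowerUnipotentSL2 k) (Um s)⁻¹
    = conjBy (Cfsg.upperUnipotentSL2 k) (Lm t)⁻¹) : s * t = 1 := by
  have h1 : conjBy (Cfsg.lowerUnipotentSL2 k) (Lm t * Um (-s)) = Cfsg.upperUnipotentSL2 k := by
    rw [← Um_inv, ← conjBy_conjBy]
    exact conjBy_eq_iff.2 h
  have h2 : (Lm t * Um (-s)) * Lm 1 * (Lm t * Um (-s))⁻¹ ∈ Cfsg.upperUnipotentSL2 k := by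
    rw [← h1]
    exact conj_mem_conjBy (mem_lower.2 ⟨1, rfl⟩)
  obtain ⟨d, hd⟩ := mem_upper.1 h2
  have h3 : (Lm t * Um (-s)) * Lm 1 = Um d * (Lm t * Um (-s)) := by
    rw [← hd]; group
  have h4 := congrArg (fun g : Matrix.SpecialLinearGroup (Fin 2) k =>
    (g : Matrix (Fin 2) (Fin 2) k) 1 0) h3
  simp only [Matrix.SpecialLinearGroup.coe_mul, coe_w, coe_Lm, coe_Um] at h4
  simp [Matrix.mul_apply, Fin.sum_univ_two] at h4
  linear_combination (-1 : k) * h4

theorem coe_ULU' (x c y : k) :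
    ((Lm x * Um c * Lm y : Matrix.SpecialLinearGroup (Fin 2) k) : Matrix (Fin 2) (Fin 2) k)
      = !![1 + c * y, c; x * (1 + c * y) + y, x * c + 1] := by
  ext i j
  fin_cases i <;> fin_cases j <;>
    simp [coe_Lm, coe_Um, Matrix.SpecialLinearGroup.coe_mul, Matrix.mul_apply, Fin.sum_univ_two] <;>
    ring

theorem special_identity {s t : k} (hst : s * t = 1) :
    (Um s)⁻¹ * Lm t * Um s = (Lm t)⁻¹ * (Um s)⁻¹ * Lm t := by
  rw [Um_inv, Lm_inv]
  apply sl_ext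
  · rw [coe_ULU, coe_ULU']
    show 1 + -s * t = 1 + -s * t
    rfl
  · rw [coe_ULU, coe_ULU']
    show (1 + -s * t) * s + -s = -s
    linear_combination (-s) * hst
  · rw [coe_ULU, coe_ULU']
    show t = -t * (1 + -s * t) + t
    linear_combination (-t) * hst
  · rw [coe_ULU, coe_ULU']
    show t * s + 1 = -t * -s + 1
    ring

theorem sup_eq_top : Cfsg.lowerUnipotentSL2 k ⊔ Cfsg.upperUnipotentSL2 k = ⊤ := by
  rw [eq_top_iff]
  have key : ∀ g : Matrix.SpecialLinearGroup (Fin 2) k, (g : Matrix (Fin 2) (Fin 2) k) 1 0 ≠ 0 →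
      g ∈ Cfsg.lowerUnipotentSL2 k ⊔ Cfsg.upperUnipotentSL2 k := by
    intro g hc
    have hdet := det_eq g
    have : g = Um (((g : Matrix (Fin 2) (Fin 2) k) 0 0 - 1) / (g : Matrix (Fin 2) (Fin 2) k) 1 0)
        * Lm ((g : Matrix (Fin 2) (Fin 2) k) 1 0)
        * Um (((g : Matrix (Fin 2) (Fin 2) k) 1 1 - 1) / (g : Matrix (Fin 2) (Fin 2) k) 1 0) := by
      apply sl_ext
      · rw [coe_ULU]; simp; field_simp; ring
      · rw [coe_ULU]; simp; field_simp; linear_combination (-1 : k) * hdet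
      · rw [coe_ULU]; simp
      · rw [coe_ULU]; simp; field_simp; ring
    rw [this]
    exact mul_mem (mul_mem (Subgroup.mem_sup_right (mem_upper.2 ⟨_, rfl⟩))
      (Subgroup.mem_sup_left (mem_lower.2 ⟨_, rfl⟩))) (Subgroup.mem_sup_right (mem_upper.2 ⟨_, rfl⟩))
  intro g _
  by_cases hc : (g : Matrix (Fin 2) (Fin 2) k) 1 0 = 0
  · have hdet := det_eq g
    rw [hc, mul_zero, sub_zero] at hdet
    have h00 : (g : Matrix (Fin 2) (Fin 2) k) 0 0 ≠ 0 := left_ne_zero_of_mul_eq_one hdet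
    have h1 : Lm 1 * g ∈ Cfsg.lowerUnipotentSL2 k ⊔ Cfsg.upperUnipotentSL2 k := by
      apply key
      rw [Matrix.SpecialLinearGroup.coe_mul, coe_Lm]
      simp [Matrix.mul_apply, Fin.sum_univ_two, hc, h00]
    have : g = Lm (-1) * (Lm 1 * g) := by
      rw [← mul_assoc, Lm_mul, neg_add_cancel, Lm_zero, one_mul]
    rw [this]
    exact mul_mem (Subgroup.mem_sup_left (mem_lower.2 ⟨_, rfl⟩)) h1
  · exact key g hc

theorem comm_lower : IsMulCommutative ↥(Cfsg.lowerUnipotentSL2 k) := by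
  refine ⟨⟨fun a b => ?_⟩⟩
  obtain ⟨t, ht⟩ := mem_lower.1 a.2
  obtain ⟨t', ht'⟩ := mem_lower.1 b.2
  apply Subtype.ext
  show (a : Matrix.SpecialLinearGroup (Fin 2) k) * b = b * a
  rw [ht, ht', Lm_mul, Lm_mul, add_comm]

theorem comm_upper : IsMulCommutative ↥(Cfsg.upperUnipotentSL2 k) := by
  refine ⟨⟨fun a b => ?_⟩⟩
  obtain ⟨t, ht⟩ := mem_upper.1 a.2
  obtain ⟨t', ht'⟩ := mem_upper.1 b.2
  apply Subtype.ext
  show (a : Matrix.SpecialLinearGroup (Fin 2) k) * b = b * a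
  rw [ht, ht', Um_mul, Um_mul, add_comm]

theorem rankOnePair : Cfsg.IsRankOnePair (Cfsg.lowerUnipotentSL2 k) (Cfsg.upperUnipotentSL2 k) := by
  refine ⟨?_, ?_, ?_, cond_LU, cond_UL⟩
  · intro h
    have h1 : Lm (1 : k) ∈ Cfsg.upperUnipotentSL2 k := by
      rw [← h]; exact mem_lower.2 ⟨1, rfl⟩
    obtain ⟨s, hs⟩ := mem_upper.1 h1
    have h2 := congrArg (fun g : Matrix.SpecialLinearGroup (Fin 2) k =>
      (g : Matrix (Fin 2) (Fin 2) k) 1 0) hs
    simp [coe_Lm, coe_Um] at h2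
  · exact ⟨1, Subgroup.upperCentralSeries_one_eq_top_iff.2 comm_lower⟩
  · exact ⟨1, Subgroup.upperCentralSeries_one_eq_top_iff.2 comm_upper⟩

/-- For any field k, the special linear group SL₂(k) is a special rank one group with abelian unipotent subgroups, the unipotent subgroups being the group of lower unitriangular matrices and the group of upper unitriangular matrices. -/
theorem result (k : Type*) [Field k] :
    Cfsg.IsRankOneGroup (Matrix.SpecialLinearGroup (Fin 2) k) (Cfsg.lowerUnipotentSL2 k) (Cfsg.upperUnipotentSL2 k) ∧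
    Cfsg.IsSpecialRankOnePair (Cfsg.lowerUnipotentSL2 k) (Cfsg.upperUnipotentSL2 k) ∧
    Cfsg.HasAbelianUnipotents (Cfsg.lowerUnipotentSL2 k) (Cfsg.upperUnipotentSL2 k) := by
  refine ⟨⟨sup_eq_top, rankOnePair⟩, ⟨rankOnePair, ?_⟩, comm_lower, comm_upper⟩
  intro a ha _ b hb _ h
  obtain ⟨t, rfl⟩ := mem_lower.1 ha
  obtain ⟨s, rfl⟩ := mem_upper.1 hb
  exact special_identity (special_aux h)

end Cfsg.Agent.S5016
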