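import Cfsg.Statements.S5017
import Cfsg.Agent.Lib.Helper26.RankOneGroup

set_option autoImplicit false
open Cfsg

namespace Cfsg.Agent.S5017

open Cfsg.Agent.Lib.Helper26

/-- Let X be a rank one group with unipotent subgroups A and B and N a normal subgroup of X. Then either X = N A or N lies in the centre of X. Consequently a perfect rank one group is quasisimple. -/
theorem result {X : Type*} [Group X] {A B : Subgroup X} (h : Cfsg.IsRankOneGroup X A B) :
    (∀ N : Subgroup X, N.Normal → N ⊔ A = ⊤ ∨ N ≤ Subgroup.center X) ∧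
    (Group.IsPerfect X → Cfsg.IsQuasisimple X) := by
  refine ⟨fun N hN => RankOneGroup.normal_dichotomy h hN, ?_⟩
  intro hperf
  refine ⟨hperf, ?_⟩
  have hnt : Nontrivial (X ⧸ Subgroup.center X) := by
    have hc := RankOneGroup.center_ne_top h
    obtain ⟨x, -, hx⟩ := SetLike.exists_of_lt (lt_top_iff_ne_top.mpr hc)
    refine ⟨⟨(x : X ⧸ Subgroup.center X), 1, ?_⟩⟩
    intro h1
    exact hx ((QuotientGroup.eq_one_iff x).mp h1)
  refine @IsSimpleGroup.mk _ _ hnt ?_
  intro M hM
  have hN : (M.comap (QuotientGroup.mk' (Subgroup.center X))).Normal := hM.comap _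
  rcases RankOneGroup.normal_dichotomy h hN with hNA | hNZ
  · right
    -- X / N is nilpotent and perfect, hence trivial
    set N := M.comap (QuotientGroup.mk' (Subgroup.center X)) with hNdef
    have := hN
    have : Group.IsNilpotent A := h.2.nilpotent_left
    let f : A →* X ⧸ N := (QuotientGroup.mk' N).comp A.subtype
    have hf : Function.Surjective f := by
      intro y
      obtain ⟨x, rfl⟩ := QuotientGroup.mk'_surjective N y
      have hx : x ∈ N ⊔ A := by rw [hNA]; trivial
      obtain ⟨n, hn, a, ha, rfl⟩ := Subgroup.mem_sup_of_normal_left.mp hx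
      refine ⟨⟨a, ha⟩, ?_⟩
      show (QuotientGroup.mk' N) a = (QuotientGroup.mk' N) (n * a)
      have hn1 : (QuotientGroup.mk' N) n = 1 := (QuotientGroup.eq_one_iff n).mpr hn
      rw [map_mul, hn1, one_mul]
    have : Group.IsNilpotent (X ⧸ N) := Group.nilpotent_of_surjective f hf
    have hperf' : commutator (X ⧸ N) = ⊤ := by
      have h1 : commutator X = ⊤ := hperf.commutator_eq_top
      rw [commutator_def, ← Subgroup.map_top_of_surjective _ (QuotientGroup.mk'_surjective N),
        ← Subgroup.map_commutator, ← commutator_def, h1]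
    have htb := top_eq_bot_of_perfect_of_nilpotent hperf'
    rw [eq_top_iff]
    intro m _
    obtain ⟨x, rfl⟩ := QuotientGroup.mk'_surjective (Subgroup.center X) m
    have hx : ((x : X) : X ⧸ N) ∈ (⊤ : Subgroup (X ⧸ N)) := trivial
    rw [htb, Subgroup.mem_bot, QuotientGroup.eq_one_iff] at hx
    exact hx
  · left
    rw [eq_bot_iff]
    intro m hm
    obtain ⟨x, rfl⟩ := QuotientGroup.mk'_surjective (Subgroup.center X) m
    have hx : x ∈ M.comap (QuotientGroup.mk' (Subgroup.center X)) := hm
    have := hNZ hx
    rw [Subgroup.mem_bot]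
    exact (QuotientGroup.eq_one_iff x).mpr this

end Cfsg.Agent.S5017
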