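import Cfsg.Statements.S5023

set_option autoImplicit false
open Cfsg

namespace Cfsg.Agent.S5023

section aux

variable {X : Type*} [Group X] {A B : Subgroup X} {V : Type*} [AddCommGroup V]
  [DistribMulAction X V]

/-- Faithfulness: two elements acting in the same way are equal. -/
theorem eq_of_smul_eq (hf : ∀ x : X, (∀ v : V, x • v = v) → x = 1) {x y : X}
    (hxy : ∀ v : V, x • v = y • v) : x = y := by
  have h1 : y⁻¹ * x = 1 := by
    apply hf
    intro v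
    rw [mul_smul, hxy v, inv_smul_smul]
  calc x = y * (y⁻¹ * x) := by group
    _ = y := by rw [h1, mul_one]

/-- The commutator map is additive on a quadratically acting subgroup. -/
theorem delta_mul (hq : ∀ a ∈ A, ∀ a' ∈ A, ∀ v : V, a' • (a • v - v) = a • v - v)
    {a a' : X} (ha : a ∈ A) (ha' : a' ∈ A) (v : V) :
    (a * a') • v - v = (a • v - v) + (a' • v - v) := by
  have h1 := hq a' ha' a ha v
  rw [smul_sub] at h1
  rw [mul_smul]
  have h2 : a • a' • v - v = (a • a' • v - a • v) + (a • v - v) := by abel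
  rw [h2, h1]
  abel

theorem delta_pow (hq : ∀ a ∈ A, ∀ a' ∈ A, ∀ v : V, a' • (a • v - v) = a • v - v)
    {a : X} (ha : a ∈ A) (n : ℕ) (v : V) :
    (a ^ n) • v - v = n • (a • v - v) := by
  induction n with
  | zero => simp
  | succ n ih =>
    rw [pow_succ, delta_mul hq (pow_mem ha n) ha, ih, succ_nsmul]

/-- `B` is a conjugate of `A`, elementwise. -/
theorem rep (h : Cfsg.IsRankOneGroup X A B) {a : X} (ha : a ∈ A) (ha1 : a ≠ 1) :
    ∃ g : X, ∀ b ∈ B, ∃ a'' ∈ A, b = g * a'' * g⁻¹ := by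
  obtain ⟨b0, hb0, hb01, hconj⟩ := h.2.cond_left a ha ha1
  refine ⟨a * b0⁻¹, ?_⟩
  intro b hb
  have hmem : a⁻¹ * b * a ∈ Cfsg.conjBy A b0⁻¹ := by
    rw [hconj]
    exact Subgroup.mem_map.mpr ⟨b, hb, by simp [MulAut.conj_apply]⟩
  obtain ⟨a'', ha'', heq⟩ := Subgroup.mem_map.mp hmem
  have heq' : b0⁻¹ * a'' * b0 = a⁻¹ * b * a := by simpa [MulAut.conj_apply] using heq
  refine ⟨a'', ha'', ?_⟩
  have h2 : b = a * (b0⁻¹ * a'' * b0) * a⁻¹ := by rw [heq']; group
  rw [h2]; group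

/-- `B` acts quadratically as well. -/
theorem quadB (h : Cfsg.IsRankOneGroup X A B)
    (hq : ∀ a ∈ A, ∀ a' ∈ A, ∀ v : V, a' • (a • v - v) = a • v - v)
    {a : X} (ha : a ∈ A) (ha1 : a ≠ 1) :
    ∀ b ∈ B, ∀ b' ∈ B, ∀ v : V, b' • (b • v - v) = b • v - v := by
  obtain ⟨g, hrep⟩ := rep h ha ha1
  intro b hb b' hb' v
  obtain ⟨c, hc, rfl⟩ := hrep b hb
  obtain ⟨c', hc', rfl⟩ := hrep b' hb'
  have e1 : (g * c * g⁻¹) • v - v = g • (c • (g⁻¹ • v) - g⁻¹ • v) := by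
    simp only [smul_sub, mul_smul, smul_inv_smul]
  rw [e1]
  have e2 : (g * c' * g⁻¹) • g • (c • (g⁻¹ • v) - g⁻¹ • v)
      = g • c' • (c • (g⁻¹ • v) - g⁻¹ • v) := by
    simp only [mul_smul, inv_smul_smul]
  rw [e2, hq c hc c' hc' (g⁻¹ • v)]

/-- Key decomposition: every commutator `a' • v - v` is a commutator with `a⁻¹` plus a vector
fixed by the whole group. -/
theorem key (h : Cfsg.IsRankOneGroup X A B)
    (hq : ∀ a ∈ A, ∀ a' ∈ A, ∀ v : V, a' • (a • v - v) = a • v - v)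
    (hqB : ∀ b ∈ B, ∀ b' ∈ B, ∀ v : V, b' • (b • v - v) = b • v - v)
    {a : X} (ha : a ∈ A) (ha1 : a ≠ 1) {a' : X} (ha' : a' ∈ A) (v : V) :
    ∃ w z : V, (∀ x : X, x • z = z) ∧ a' • v - v = (a⁻¹ • w - w) + z := by
  obtain ⟨b, hb, hb1, hconj⟩ := h.2.cond_left a ha ha1
  have hmem : b⁻¹ * a' * b ∈ Cfsg.conjBy B a⁻¹ := by
    rw [← hconj]
    exact Subgroup.mem_map.mpr ⟨a', ha', by simp [MulAut.conj_apply]⟩
  obtain ⟨b', hb', hb'eq⟩ := Subgroup.mem_map.mp hmem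
  have hb'eq' : a⁻¹ * b' * a = b⁻¹ * a' * b := by
    simpa [MulAut.conj_apply] using hb'eq
  have e1 : b⁻¹ • (a' • v - v) = a⁻¹ • (b' • (a • b⁻¹ • v) - a • b⁻¹ • v) := by
    have l1 : b⁻¹ • (a' • v - v) = (b⁻¹ * a' * b) • (b⁻¹ • v) - b⁻¹ • v := by
      simp only [smul_sub, mul_smul, smul_inv_smul]
    have l2 : a⁻¹ • (b' • (a • b⁻¹ • v) - a • b⁻¹ • v)
        = (a⁻¹ * b' * a) • (b⁻¹ • v) - b⁻¹ • v := by
      simp only [smul_sub, mul_smul, inv_smul_smul]
    rw [l1, l2, hb'eq']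
  generalize hu : a' • v - v = u at e1
  generalize hw : b' • (a • b⁻¹ • v) - a • b⁻¹ • v = w at e1
  have fixA_u : ∀ c ∈ A, c • u = u := by
    intro c hc
    rw [← hu]
    exact hq a' ha' c hc v
  have fixA_2 : ∀ c ∈ A, c • (a⁻¹ • w - w) = a⁻¹ • w - w :=
    fun c hc => hq a⁻¹ (inv_mem ha) c hc w
  have fixB_w : ∀ c ∈ B, c • w = w := by
    intro c hc
    rw [← hw]
    exact hqB b' hb' c hc _
  have fixB_2 : ∀ c ∈ B, c • (b⁻¹ • u - u) = b⁻¹ • u - u :=
    fun c hc => hqB b⁻¹ (inv_mem hb) c hc u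
  have hz : u - (a⁻¹ • w - w) = w - (b⁻¹ • u - u) := by rw [e1]; abel
  refine ⟨w, u - (a⁻¹ • w - w), ?_, by abel⟩
  have hA : A ≤ MulAction.stabilizer X (u - (a⁻¹ • w - w)) := by
    intro c hc
    rw [MulAction.mem_stabilizer_iff, smul_sub, fixA_u c hc, fixA_2 c hc]
  have hB : B ≤ MulAction.stabilizer X (u - (a⁻¹ • w - w)) := by
    intro c hc
    rw [MulAction.mem_stabilizer_iff, hz, smul_sub, fixB_w c hc, fixB_2 c hc]
  intro x
  have h1 : A ⊔ B ≤ MulAction.stabilizer X (u - (a⁻¹ • w - w)) := sup_le hA hB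
  rw [h.1] at h1
  exact MulAction.mem_stabilizer_iff.mp (h1 (Subgroup.mem_top x))

end aux

/-- Let X be a rank one group with unipotent subgroups A and B that acts faithfully on an abelian group V (written additively) with A acting quadratically: a' • (a • v − v) = a • v − v for all a, a' in A and v in V. Then A is either torsion-free or an elementary abelian p-group for some prime p. -/
theorem result {X : Type*} [Group X] {A B : Subgroup X} (h : Cfsg.IsRankOneGroup X A B)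
    {V : Type*} [AddCommGroup V] [DistribMulAction X V] (hf : ∀ x : X, (∀ v : V, x • v = v) → x = 1)
    (hq : ∀ a ∈ A, ∀ a' ∈ A, ∀ v : V, a' • (a • v - v) = a • v - v) :
    (∀ a ∈ A, a ≠ 1 → ¬ IsOfFinOrder a) ∨ ∃ p : ℕ, p.Prime ∧ Cfsg.IsElementaryAbelian p A := by
  classical
  by_cases h0 : ∀ a ∈ A, a ≠ 1 → ¬ IsOfFinOrder a
  · exact Or.inl h0
  right
  push Not at h0
  obtain ⟨a0, ha0, ha01, hfin⟩ := h0
  have hn0 : orderOf a0 ≠ 0 := by
    rw [Ne, orderOf_eq_zero_iff]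
    exact not_not.mpr hfin
  have hn1 : orderOf a0 ≠ 1 := by
    rw [Ne, orderOf_eq_one_iff]
    exact ha01
  have hpp : (orderOf a0).minFac.Prime := Nat.minFac_prime hn1
  have hpd : (orderOf a0).minFac ∣ orderOf a0 := Nat.minFac_dvd _
  generalize (orderOf a0).minFac = p at hpp hpd
  have ha1A : a0 ^ (orderOf a0 / p) ∈ A := pow_mem ha0 _
  have ha1ord : orderOf (a0 ^ (orderOf a0 / p)) = p := orderOf_pow_orderOf_div hn0 hpd
  generalize a0 ^ (orderOf a0 / p) = a1 at ha1A ha1ord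
  have ha1ne : a1 ≠ 1 := by
    intro h1
    rw [h1, orderOf_one] at ha1ord
    exact hpp.one_lt.ne ha1ord
  have ha1p : a1 ^ p = 1 := by
    rw [← ha1ord]
    exact pow_orderOf_eq_one a1
  have hqB := quadB h hq ha1A ha1ne
  have hcomm : ∀ a ∈ A, ∀ a' ∈ A, a * a' = a' * a := by
    intro a ha a' ha'
    apply eq_of_smul_eq hf
    intro v
    have e1 := delta_mul hq ha ha' v
    have e2 := delta_mul hq ha' ha v
    have e3 : (a * a') • v - v = (a' * a) • v - v := by rw [e1, e2]; abel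
    exact sub_left_injective e3
  refine ⟨p, hpp, ⟨⟨fun a b => Subtype.ext (hcomm a a.2 b b.2)⟩⟩, ?_⟩
  intro a' ha'
  by_contra hne
  have ha2A : a' ^ p ∈ A := pow_mem ha' p
  have hfix2 : ∀ v : V, ∀ x : X, x • ((a' ^ p) • v - v) = (a' ^ p) • v - v := by
    intro v x
    obtain ⟨w, z, hz, huz⟩ := key h hq hqB (inv_mem ha1A) (inv_ne_one.mpr ha1ne) ha' v
    rw [inv_inv] at huz
    have e1 : (a' ^ p) • v - v = p • z := by
      rw [delta_pow hq ha' p v, huz, nsmul_add, ← delta_pow hq ha1A p w, ha1p, one_smul,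
        sub_self, zero_add]
    rw [e1, smul_comm x p z, hz x]
  have hfixA : ∀ a'' ∈ A, ∀ v : V, ∀ x : X, x • (a'' • v - v) = a'' • v - v := by
    intro a'' ha'' v x
    obtain ⟨w, z, hz, huz⟩ := key h hq hqB (inv_mem ha2A) (inv_ne_one.mpr hne) ha'' v
    rw [inv_inv] at huz
    rw [huz, smul_add, hfix2 w x, hz x]
  have hfixB : ∀ b ∈ B, ∀ v : V, ∀ x : X, x • (b • v - v) = b • v - v := by
    obtain ⟨g, hrep⟩ := rep h ha1A ha1ne
    intro b hb v x
    obtain ⟨c, hc, rfl⟩ := hrep b hb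
    have e1 : (g * c * g⁻¹) • v - v = g • (c • (g⁻¹ • v) - g⁻¹ • v) := by
      simp only [smul_sub, mul_smul, smul_inv_smul]
    rw [e1, hfixA c hc (g⁻¹ • v) g, hfixA c hc (g⁻¹ • v) x]
  have hAB : ∀ a'' ∈ A, ∀ b ∈ B, a'' * b = b * a'' := by
    intro a'' ha'' b hb
    apply eq_of_smul_eq hf
    intro v
    have h1 := hfixB b hb v a''
    rw [smul_sub] at h1
    have e1 : a'' • b • v = a'' • v + (b • v - v) := sub_eq_iff_eq_add'.mp h1
    have h2 := hfixA a'' ha'' v b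
    rw [smul_sub] at h2
    have e2 : b • a'' • v = b • v + (a'' • v - v) := sub_eq_iff_eq_add'.mp h2
    rw [mul_smul, mul_smul, e1, e2]
    abel
  obtain ⟨b1, hb1, hb1ne, hconj⟩ := h.2.cond_left a1 ha1A ha1ne
  apply h.2.ne
  apply le_antisymm
  · intro c hc
    have hmem : b1⁻¹ * c * b1 ∈ Cfsg.conjBy B a1⁻¹ := by
      rw [← hconj]
      exact Subgroup.mem_map.mpr ⟨c, hc, by simp [MulAut.conj_apply]⟩
    obtain ⟨b', hb', heq⟩ := Subgroup.mem_map.mp hmem
    have heq' : a1⁻¹ * b' * a1 = b1⁻¹ * c * b1 := by simpa [MulAut.conj_apply] using heq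
    have hc1 : b1⁻¹ * c * b1 = c := by
      have h3 := hAB c hc b1 hb1
      rw [mul_assoc, h3, inv_mul_cancel_left]
    have hc2 : a1⁻¹ * b' * a1 = b' := by
      have h3 := hAB a1 ha1A b' hb'
      rw [mul_assoc, ← h3, inv_mul_cancel_left]
    rw [hc1, hc2] at heq'
    rw [← heq']
    exact hb'
  · intro c hc
    have hmem : a1⁻¹ * c * a1 ∈ Cfsg.conjBy A b1⁻¹ := by
      rw [hconj]
      exact Subgroup.mem_map.mpr ⟨c, hc, by simp [MulAut.conj_apply]⟩
    obtain ⟨a'', ha'', heq⟩ := Subgroup.mem_map.mp hmem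
    have heq' : b1⁻¹ * a'' * b1 = a1⁻¹ * c * a1 := by simpa [MulAut.conj_apply] using heq
    have hc1 : b1⁻¹ * a'' * b1 = a'' := by
      have h3 := hAB a'' ha'' b1 hb1
      rw [mul_assoc, h3, inv_mul_cancel_left]
    have hc2 : a1⁻¹ * c * a1 = c := by
      have h3 := hAB a1 ha1A c hc
      rw [mul_assoc, ← h3, inv_mul_cancel_left]
    rw [hc1, hc2] at heq'
    rw [← heq']
    exact ha''

end Cfsg.Agent.S5023
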