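import Cfsg.Statements.S5019
import Cfsg.Agent.S5023

set_option autoImplicit false
open Cfsg

namespace Cfsg.Agent.S5019

section aux

variable {X : Type*} [Group X] {N : Type*} [AddCommGroup N] [DistribMulAction X N]

/-- A vector fixed by `A` and by `B` is fixed by `A ⊔ B = ⊤`. -/
theorem fixed_of_fixed {A B : Subgroup X} (hAB : A ⊔ B = ⊤) {z : N}
    (hA : ∀ c ∈ A, c • z = z) (hB : ∀ c ∈ B, c • z = z) (x : X) : x • z = z := by
  have h1 : A ⊔ B ≤ MulAction.stabilizer X z :=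
    sup_le (fun c hc => MulAction.mem_stabilizer_iff.mpr (hA c hc))
      (fun c hc => MulAction.mem_stabilizer_iff.mpr (hB c hc))
  rw [hAB] at h1
  exact MulAction.mem_stabilizer_iff.mp (h1 (Subgroup.mem_top x))

/-- For `u` a commutator with `A`, the vector `a b⁻¹ u - (b⁻¹ u - u)` is fixed by the whole
group, when `b⁻¹ A b = a⁻¹ B a`. -/
theorem L1 {A B : Subgroup X} (hAB : A ⊔ B = ⊤)
    (hq : ∀ a ∈ A, ∀ a' ∈ A, ∀ v : N, a' • (a • v - v) = a • v - v)
    (hqB : ∀ b ∈ B, ∀ b' ∈ B, ∀ v : N, b' • (b • v - v) = b • v - v)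
    {a b : X} (ha : a ∈ A) (hb : b ∈ B) (hconj : Cfsg.conjBy A b⁻¹ = Cfsg.conjBy B a⁻¹)
    {a' : X} (ha' : a' ∈ A) (v : N) (x : X) :
    x • (a • b⁻¹ • (a' • v - v) - (b⁻¹ • (a' • v - v) - (a' • v - v)))
      = a • b⁻¹ • (a' • v - v) - (b⁻¹ • (a' • v - v) - (a' • v - v)) := by
  have hmem : b⁻¹ * a' * b ∈ Cfsg.conjBy B a⁻¹ := by
    rw [← hconj]
    exact Subgroup.mem_map.mpr ⟨a', ha', by simp⟩
  obtain ⟨b', hb', hb'eq⟩ := Subgroup.mem_map.mp hmem
  have hb'eq' : a⁻¹ * b' * a = b⁻¹ * a' * b := by simpa using hb'eq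
  have e1 : b⁻¹ • (a' • v - v) = a⁻¹ • (b' • (a • b⁻¹ • v) - a • b⁻¹ • v) := by
    have l1 : b⁻¹ • (a' • v - v) = (b⁻¹ * a' * b) • (b⁻¹ • v) - b⁻¹ • v := by
      simp only [smul_sub, mul_smul, smul_inv_smul]
    have l2 : a⁻¹ • (b' • (a • b⁻¹ • v) - a • b⁻¹ • v)
        = (a⁻¹ * b' * a) • (b⁻¹ • v) - b⁻¹ • v := by
      simp only [smul_sub, mul_smul, inv_smul_smul]
    rw [l1, l2, hb'eq']
  have fixA_u : ∀ c ∈ A, c • (a' • v - v) = a' • v - v := fun c hc => hq a' ha' c hc v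
  have fixB_w : ∀ c ∈ B, c • (b' • (a • b⁻¹ • v) - a • b⁻¹ • v)
      = b' • (a • b⁻¹ • v) - a • b⁻¹ • v :=
    fun c hc => hqB b' hb' c hc _
  generalize a' • v - v = u at e1 fixA_u ⊢
  generalize b' • (a • b⁻¹ • v) - a • b⁻¹ • v = w at e1 fixB_w
  have e2 : a • b⁻¹ • u = w := by rw [e1, smul_inv_smul]
  have fixA_2 : ∀ c ∈ A, c • (a⁻¹ • w - w) = a⁻¹ • w - w :=
    fun c hc => hq a⁻¹ (inv_mem ha) c hc w
  have fixB_2 : ∀ c ∈ B, c • (b⁻¹ • u - u) = b⁻¹ • u - u :=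
    fun c hc => hqB b⁻¹ (inv_mem hb) c hc u
  have hz : w - (b⁻¹ • u - u) = u - (a⁻¹ • w - w) := by rw [e1]; abel
  rw [e2]
  refine fixed_of_fixed hAB ?_ ?_ x
  · intro c hc
    rw [hz, smul_sub, fixA_u c hc, fixA_2 c hc]
  · intro c hc
    rw [smul_sub, fixB_w c hc, fixB_2 c hc]

/-- The core computation: if `b⁻¹ a4 b = a⁻¹ b⁻¹ a` with `a4 ∈ A`, then every commutator with
`a a4⁻¹` is fixed by the whole group. -/
theorem core {A B : Subgroup X} (hAB : A ⊔ B = ⊤)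
    (hq : ∀ a ∈ A, ∀ a' ∈ A, ∀ v : N, a' • (a • v - v) = a • v - v)
    (hqB : ∀ b ∈ B, ∀ b' ∈ B, ∀ v : N, b' • (b • v - v) = b • v - v)
    {a b : X} (ha : a ∈ A) (hb : b ∈ B) (hconj : Cfsg.conjBy A b⁻¹ = Cfsg.conjBy B a⁻¹)
    {a4 : X} (ha4 : a4 ∈ A) (heq' : b⁻¹ * a4 * b = a⁻¹ * b⁻¹ * a) (m : N) (x : X) :
    x • ((a * a4⁻¹) • m - m) = (a * a4⁻¹) • m - m := by
  obtain ⟨n, rfl⟩ : ∃ n, m = b • n := ⟨b⁻¹ • m, (smul_inv_smul b m).symm⟩
  have hBA : B ⊔ A = ⊤ := by rw [sup_comm]; exact hAB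
  have E1 : (a * a4⁻¹) • b • n - b • n = (a • b • n - b • n) - (a4 • b • n - b • n) := by
    have h1 := Cfsg.Agent.S5023.delta_mul hq ha (inv_mem ha4) (b • n)
    have h2 := hq a4⁻¹ (inv_mem ha4) a4 ha4 (b • n)
    rw [smul_sub, smul_inv_smul] at h2
    rw [h1, ← h2]
    abel
  have h4 : a4 * b = b * (a⁻¹ * b⁻¹ * a) := by rw [← heq']; group
  have E2 : a4 • b • n = b • a⁻¹ • b⁻¹ • a • n := by
    calc a4 • b • n = (a4 * b) • n := (mul_smul a4 b n).symm
      _ = (b * (a⁻¹ * b⁻¹ * a)) • n := by rw [h4]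
      _ = b • a⁻¹ • b⁻¹ • a • n := by simp only [mul_smul]
  have h3 : n - b⁻¹ • n = b • n - n := by
    have h := hqB b hb b⁻¹ (inv_mem hb) n
    rw [smul_sub, inv_smul_smul] at h
    exact h
  have hbw0 : b • (b • n - n) = b • n - n := hqB b hb b hb n
  have hbiw0 : b⁻¹ • (b • n - n) = b • n - n := hqB b hb b⁻¹ (inv_mem hb) n
  have h40 : (b • n - n) - a • (b • n - n) = a⁻¹ • (b • n - n) - (b • n - n) := by
    have h := hq a⁻¹ (inv_mem ha) a ha (b • n - n)
    rw [smul_sub a (a⁻¹ • (b • n - n)), smul_inv_smul] at h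
    exact h
  have Z1 := fun y : X => L1 hAB hq hqB ha hb hconj ha (b • n) y
  have Z2 := fun y : X => L1 hBA hqB hq hb ha hconj.symm hb n y
  have h80 : (a • b • n - b • n) - a • n = (a • (b • n - n) - (b • n - n)) - n := by
    rw [smul_sub]; abel
  generalize hw : b • n - n = w at h3 hbw0 hbiw0 h40 Z2 h80
  generalize hu : a • b • n - b • n = u at E1 Z1 h80
  generalize hr : a⁻¹ • w - w = r at h40 Z2
  generalize hP : b⁻¹ • u = P at Z1
  generalize hz1 : a • P - (P - u) = z1 at Z1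
  generalize hz2 : b • a⁻¹ • w - r = z2 at Z2
  have h5 : a⁻¹ • w = w + r := by rw [← hr]; abel
  have h6 : b • r = z2 - w + r := by
    rw [← hz2, h5, smul_add, hbw0]; abel
  have h7 : r - b⁻¹ • r = z2 - w := by
    have h := congrArg (fun t => b⁻¹ • t) h6
    simp only [inv_smul_smul, smul_add, smul_sub, Z2, hbiw0] at h
    exact sub_eq_of_eq_add h
  have h9 : b⁻¹ • (u - a • n) - (u - a • n) = z2 := by
    have e : a • w - w = -r := by rw [← h40]; abel
    rw [h80, e, smul_sub, smul_neg]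
    have e2 : -(b⁻¹ • r) - b⁻¹ • n - (-r - n) = (r - b⁻¹ • r) + (n - b⁻¹ • n) := by abel
    rw [e2, h7, h3]
    abel
  have h10 : P = z1 + a⁻¹ • (P - u) := by
    have h := congrArg (fun t => a⁻¹ • t) (show a • P = z1 + (P - u) by rw [← hz1]; abel)
    simp only [inv_smul_smul, smul_add, Z1] at h
    exact h
  have h11 : P - a⁻¹ • (b⁻¹ • a • n - a • n) = z1 + z2 := by
    have e : (P - u) - (b⁻¹ • a • n - a • n) = z2 := by
      rw [← h9, ← hP, smul_sub]; abel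
    calc P - a⁻¹ • (b⁻¹ • a • n - a • n)
        = (z1 + a⁻¹ • (P - u)) - a⁻¹ • (b⁻¹ • a • n - a • n) := by rw [← h10]
      _ = z1 + a⁻¹ • ((P - u) - (b⁻¹ • a • n - a • n)) := by
          simp only [smul_sub]; abel
      _ = z1 + z2 := by rw [e, Z2]
  have h12 : (a * a4⁻¹) • b • n - b • n = b • (P - a⁻¹ • (b⁻¹ • a • n - a • n)) := by
    rw [E1, E2, ← hP]
    simp only [smul_sub, smul_inv_smul, inv_smul_smul]
  rw [h12, h11, smul_add, smul_add, Z1, Z2, Z1, Z2]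

end aux

/-- Let X be a rank one group with abelian unipotent subgroups A and B, and suppose X acts on an abelian group N (written additively) in such a way that A acts quadratically, meaning a' • (a • n − n) = a • n − n for all a, a' in A and n in N, while X as a whole does not: y • (x • n − n) ≠ x • n − n for some x, y in X and n in N. Then X is a special rank one group. -/
theorem result {X : Type*} [Group X] {A B : Subgroup X} (h : Cfsg.IsRankOneGroup X A B)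
    (hab : Cfsg.HasAbelianUnipotents A B) {N : Type*} [AddCommGroup N] [DistribMulAction X N]
    (hq : ∀ a ∈ A, ∀ a' ∈ A, ∀ n : N, a' • (a • n - n) = a • n - n)
    (hX : ∃ x y : X, ∃ n : N, y • (x • n - n) ≠ x • n - n) : Cfsg.IsSpecialRankOnePair A B := by
  refine ⟨h.2, ?_⟩
  intro a ha ha1 b hb hb1 hconj
  have hqB := Cfsg.Agent.S5023.quadB h hq ha ha1
  have hmem : a⁻¹ * b⁻¹ * a ∈ Cfsg.conjBy A b⁻¹ := by
    rw [hconj]
    exact Subgroup.mem_map.mpr ⟨b⁻¹, inv_mem hb, by simp⟩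
  obtain ⟨a4, ha4, heq⟩ := Subgroup.mem_map.mp hmem
  have heq' : b⁻¹ * a4 * b = a⁻¹ * b⁻¹ * a := by simpa using heq
  by_contra hgoal
  have hne : a * a4⁻¹ ≠ 1 := by
    intro h1
    have h2 : a = a4 := by
      calc a = a * a4⁻¹ * a4 := by group
        _ = a4 := by rw [h1, one_mul]
    apply hgoal
    rw [← heq', h2]
  have ha3 : a * a4⁻¹ ∈ A := mul_mem ha (inv_mem ha4)
  have hfix3 : ∀ m : N, ∀ x : X, x • ((a * a4⁻¹) • m - m) = (a * a4⁻¹) • m - m :=
    fun m x => core h.1 hq hqB ha hb hconj ha4 heq' m x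
  have hfixA : ∀ a'' ∈ A, ∀ v : N, ∀ x : X, x • (a'' • v - v) = a'' • v - v := by
    intro a'' ha'' v x
    obtain ⟨w, z, hz, huz⟩ :=
      Cfsg.Agent.S5023.key h hq hqB (inv_mem ha3) (inv_ne_one.mpr hne) ha'' v
    rw [inv_inv] at huz
    rw [huz, smul_add, hfix3 w x, hz x]
  have hfixB : ∀ b' ∈ B, ∀ v : N, ∀ x : X, x • (b' • v - v) = b' • v - v := by
    obtain ⟨g, hrep⟩ := Cfsg.Agent.S5023.rep h ha ha1
    intro b' hb' v x
    obtain ⟨c, hc, rfl⟩ := hrep b' hb'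
    have e1 : (g * c * g⁻¹) • v - v = g • (c • (g⁻¹ • v) - g⁻¹ • v) := by
      simp only [smul_sub, mul_smul, smul_inv_smul]
    rw [e1, hfixA c hc (g⁻¹ • v) g, hfixA c hc (g⁻¹ • v) x]
  let S : Subgroup X :=
    { carrier := {x | ∀ n : N, ∀ y : X, y • (x • n - n) = x • n - n}
      mul_mem' := by
        intro x x' hx hx' n y
        have e : (x * x') • n - n = (x' • n - n) + (x • n - n) := by
          have h1 := hx' n x
          rw [smul_sub] at h1
          rw [mul_smul, ← h1]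
          abel
        rw [e, smul_add, hx' n y, hx n y]
      one_mem' := by
        intro n y
        simp
      inv_mem' := by
        intro x hx n y
        have e : x⁻¹ • n - n = -(x • (x⁻¹ • n) - x⁻¹ • n) := by
          rw [smul_inv_smul]; abel
        rw [e, smul_neg, hx (x⁻¹ • n) y] }
  have hAS : A ≤ S := by
    intro c hc
    change ∀ n : N, ∀ y : X, y • (c • n - n) = c • n - n
    exact fun n y => hfixA c hc n y
  have hBS : B ≤ S := by
    intro c hc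
    change ∀ n : N, ∀ y : X, y • (c • n - n) = c • n - n
    exact fun n y => hfixB c hc n y
  have hS : (⊤ : Subgroup X) ≤ S := by
    rw [← h.1]
    exact sup_le hAS hBS
  obtain ⟨x, y, n, hxy⟩ := hX
  have hx : ∀ n : N, ∀ y : X, y • (x • n - n) = x • n - n := hS (Subgroup.mem_top x)
  exact hxy (hx n y)

end Cfsg.Agent.S5019
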