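import Cfsg.Statements.S5021
import Mathlib
import Cfsg.Agent.Lib.Helper26.RankOne

set_option autoImplicit false
open Cfsg
open Cfsg.Agent.Lib.Helper26

namespace Cfsg.Agent.S5021

variable {G : Type*} [Group G]

/-- right conjugate `g⁻¹ C g` -/
def rc (C : Subgroup G) (g : G) : Subgroup G := conjBy C g⁻¹

lemma rc_rc (C : Subgroup G) (g h : G) : rc (rc C g) h = rc C (g * h) := by
  unfold rc
  rw [conjBy_conjBy, mul_inv_rev]

lemma rc_of_mem {C : Subgroup G} {g : G} (hg : g ∈ C) : rc C g = C :=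
  conjBy_of_mem (C.inv_mem hg)

lemma rc_one (C : Subgroup G) : rc C 1 = C := by
  unfold rc
  rw [inv_one, conjBy_one]

lemma rc_norm {C : Subgroup G} {g : G} (h : rc C g = C) :
    g ∈ Subgroup.normalizer (C : Set G) := by
  have h1 : g⁻¹ ∈ Subgroup.normalizer (C : Set G) := conjBy_eq_self_iff.mp h
  simpa using Subgroup.inv_mem _ h1

lemma eq_of_eq_rc {A B : Subgroup G} {f : G} (hf : f ∈ A) (h : A = rc B f) : A = B := by
  have h1 : rc A f⁻¹ = A := rc_of_mem (A.inv_mem hf)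
  have h2 : rc (rc B f) f⁻¹ = B := by rw [rc_rc, mul_inv_cancel, rc_one]
  rw [← h] at h2
  exact h1.symm.trans h2

/-- the relation `a ↔ b(a)` -/
def Rl (A B : Subgroup G) (a b : G) : Prop :=
  a ∈ A ∧ a ≠ 1 ∧ b ∈ B ∧ b ≠ 1 ∧ rc A b = rc B a

lemma Rl.symm {A B : Subgroup G} {a b : G} (r : Rl A B a b) : Rl B A b a :=
  ⟨r.2.2.1, r.2.2.2.1, r.1, r.2.1, r.2.2.2.2.symm⟩

structure Hyp (A B : Subgroup G) : Prop where
  pair : IsRankOnePair A B
  spec : ∀ a b, Rl A B a b → b⁻¹ * a * b = a⁻¹ * b⁻¹ * a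
  commA : ∀ x ∈ A, ∀ y ∈ A, x * y = y * x
  commB : ∀ x ∈ B, ∀ y ∈ B, x * y = y * x

lemma Hyp.symm {A B : Subgroup G} (h : Hyp A B) : Hyp B A where
  pair := RankOnePair_symm h.pair
  spec := by
    intro b a r
    have h1 := h.spec a b r.symm
    have h2 := congrArg (fun x => x⁻¹) h1
    simp only [mul_inv_rev, inv_inv] at h2
    rw [← mul_assoc, ← mul_assoc] at h2
    exact h2.symm
  commA := h.commB
  commB := h.commA

lemma Hyp.uniqB {A B : Subgroup G} (h : Hyp A B) {b b' : G} (hb : b ∈ B) (hb' : b' ∈ B)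
    (e : rc A b = rc A b') : b = b' := by
  have h0 : rc A (b * b'⁻¹) = A := by
    rw [← rc_rc, e, rc_rc, mul_inv_cancel, rc_one]
  have h1 : b * b'⁻¹ = 1 :=
    RankOne.eq_one_of_mem_normalizer' h.pair (B.mul_mem hb (B.inv_mem hb')) (rc_norm h0)
  exact mul_inv_eq_one.mp h1

lemma Hyp.uniq_right {A B : Subgroup G} (h : Hyp A B) {a b b' : G} (r : Rl A B a b)
    (r' : Rl A B a b') : b = b' :=
  h.uniqB r.2.2.1 r'.2.2.1 (r.2.2.2.2.trans r'.2.2.2.2.symm)

lemma Hyp.uniq_left {A B : Subgroup G} (h : Hyp A B) {a a' b : G} (r : Rl A B a b)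
    (r' : Rl A B a' b) : a = a' :=
  h.symm.uniq_right r.symm r'.symm

lemma Hyp.exists_left {A B : Subgroup G} (h : Hyp A B) {b : G} (hb : b ∈ B) (hb1 : b ≠ 1) :
    ∃ a, Rl A B a b := by
  obtain ⟨a, ha, ha1, hc⟩ := h.pair.cond_right b hb hb1
  exact ⟨a, ha, ha1, hb, hb1, hc.symm⟩

lemma Hyp.exists_right {A B : Subgroup G} (h : Hyp A B) {a : G} (ha : a ∈ A) (ha1 : a ≠ 1) :
    ∃ b, Rl A B a b := by
  obtain ⟨b, hb, hb1, hc⟩ := h.pair.cond_left a ha ha1
  exact ⟨b, ha, ha1, hb, hb1, hc⟩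

lemma Hyp.braid {A B : Subgroup G} (h : Hyp A B) {a b : G} (r : Rl A B a b) :
    a * b⁻¹ * a = b⁻¹ * a * b⁻¹ := by
  have h1 := h.spec a b r
  calc a * b⁻¹ * a = a * (b⁻¹ * a * b) * b⁻¹ := by group
    _ = a * (a⁻¹ * b⁻¹ * a) * b⁻¹ := by rw [h1]
    _ = b⁻¹ * a * b⁻¹ := by group

lemma Hyp.pow_eq_one_iff {A B : Subgroup G} (h : Hyp A B) {a b : G} (r : Rl A B a b) (m : ℕ) :
    a ^ m = 1 ↔ b ^ m = 1 := by
  have hb := h.braid r
  have hs : SemiconjBy (a * b⁻¹ * a) b⁻¹ a := by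
    unfold SemiconjBy
    calc a * b⁻¹ * a * b⁻¹ = a * (b⁻¹ * a * b⁻¹) := by group
      _ = a * (a * b⁻¹ * a) := by rw [hb]
  have hm : a * b⁻¹ * a * b⁻¹ ^ m = a ^ m * (a * b⁻¹ * a) := (hs.pow_right m).eq
  constructor
  · intro ha
    rw [ha, one_mul] at hm
    have h2 : b⁻¹ ^ m = 1 := mul_eq_left.mp hm
    rw [inv_pow, inv_eq_one] at h2
    exact h2
  · intro hb1
    have h2 : b⁻¹ ^ m = 1 := by rw [inv_pow, hb1, inv_one]
    rw [h2, mul_one] at hm
    exact mul_eq_right.mp hm.symm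

lemma Hyp.rel_inv {A B : Subgroup G} (h : Hyp A B) {a b : G} (r : Rl A B a b) :
    Rl A B a⁻¹ b⁻¹ := by
  have hbr := h.braid r
  obtain ⟨ha, ha1, hb, hb1, hr⟩ := r
  refine ⟨A.inv_mem ha, by simpa using ha1, B.inv_mem hb, by simpa using hb1, ?_⟩
  have e1 : rc A (a * b⁻¹ * a) = rc A (b⁻¹ * a) := by
    rw [mul_assoc, ← rc_rc, rc_of_mem ha]
  have hCb : rc (rc A (b⁻¹ * a)) b⁻¹ = rc A (b⁻¹ * a) := by
    rw [rc_rc, ← hbr, e1]
  have hCB : rc A (b⁻¹ * a) = B := by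
    by_contra hne
    have hpair : IsRankOnePair B A := RankOnePair_symm h.pair
    have hmem : rc A (b⁻¹ * a) ∈ unipotentSubgroups B A := by
      refine RankOne.conjBy_mem_unipotent (RankOne.right_mem_unipotent hpair) ?_
      exact Subgroup.inv_mem _ (Subgroup.mul_mem _ (Subgroup.mem_sup_left (B.inv_mem hb))
        (Subgroup.mem_sup_right ha))
    obtain ⟨x, -, hx⟩ := RankOne.regular hpair hmem hmem hne hne
    have h1 := hx 1 ⟨B.one_mem, conjBy_one _⟩
    have h2 := hx b ⟨hb, by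
      have := hCb
      unfold rc at this ⊢
      rw [inv_inv] at this
      exact this⟩
    exact hb1 (h2.trans h1.symm)
  rw [← hCB, rc_rc, mul_assoc, mul_inv_cancel, mul_one]

lemma Hyp.Y {A B : Subgroup G} (h : Hyp A B) {e γ : G} (r : Rl A B e γ) (E : ℕ → G) (N : ℕ)
    (hE : ∀ i, 1 ≤ i → i ≤ N → Rl A B (E i) (γ ^ i)) (hE1 : E 1 = e) :
    ∀ j, j < N → rc B (e ^ j * γ) = rc B (e * (E (j + 1))⁻¹) := by
  intro j
  induction j with
  | zero =>
    intro _
    rw [hE1, pow_zero, one_mul, mul_inv_cancel, rc_one, rc_of_mem r.2.2.1]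
  | succ j ih =>
    intro hj
    have ih' := ih (by omega)
    have r0 := hE (j + 1) (by omega) (by omega)
    have r1 := h.rel_inv r0
    have r2 := h.rel_inv (hE (j + 1 + 1) (by omega) (by omega))
    have hsp := h.spec e γ r
    have hmul : e ^ (j + 1) * γ = (e ^ j * γ) * (e⁻¹ * γ⁻¹ * e) := by
      rw [← hsp, pow_succ]; group
    rw [hmul, ← rc_rc, ih', rc_rc]
    have hc1 : e * (E (j + 1))⁻¹ * (e⁻¹ * γ⁻¹ * e) = (E (j + 1))⁻¹ * (γ⁻¹ * e) := by
      have := h.commA e r.1 (E (j + 1))⁻¹ (A.inv_mem r0.1)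
      rw [this]; group
    rw [hc1, ← rc_rc, ← r1.2.2.2.2, rc_rc]
    have hc2 : (γ ^ (j + 1))⁻¹ * (γ⁻¹ * e) = (γ ^ (j + 1 + 1))⁻¹ * e := by
      rw [pow_succ γ (j + 1)]; group
    rw [hc2, ← rc_rc, r2.2.2.2.2, rc_rc]
    rw [h.commA e r.1 (E (j + 1 + 1))⁻¹ (A.inv_mem (hE (j + 1 + 1) (by omega) (by omega)).1)]

theorem P (k : ℕ) : ∀ (A B : Subgroup G), Hyp A B → ∀ e γ e', Rl A B e γ → Rl A B e' (γ ^ k) →
    e' ^ k = e := by
  induction k using Nat.strong_induction_on with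
  | _ k IH =>
    intro A B h e γ e' r r'
    rcases Nat.lt_or_ge k 2 with hk | hk
    · interval_cases k
      · exact absurd (pow_zero γ) r'.2.2.2.1
      · rw [pow_one] at r' ⊢
        exact h.uniq_left r' r
    · obtain ⟨m, rfl⟩ : ∃ m, k = m + 1 := ⟨k - 1, by omega⟩
      by_cases hcase : ∃ i, 1 ≤ i ∧ i ≤ m ∧ γ ^ i = 1
      · obtain ⟨i, hi1, him, hγi⟩ := hcase
        have hpow : γ ^ (m + 1) = γ ^ (m + 1 - i) := by
          have hh : m + 1 = (m + 1 - i) + i := by omega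
          conv_lhs => rw [hh, pow_add, hγi, mul_one]
        have r'' : Rl A B e' (γ ^ (m + 1 - i)) := hpow ▸ r'
        have h1 := IH (m + 1 - i) (by omega) A B h e γ e' r r''
        have h2 : e' ^ i = 1 :=
          (h.pow_eq_one_iff r' i).mpr (by rw [← pow_mul, mul_comm, pow_mul, hγi, one_pow])
        have hh : m + 1 = (m + 1 - i) + i := by omega
        calc e' ^ (m + 1) = e' ^ (m + 1 - i) * e' ^ i := by rw [← pow_add, ← hh]
          _ = e := by rw [h1, h2, mul_one]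
      · push Not at hcase
        have hne : ∀ i, 1 ≤ i → i ≤ m + 1 → γ ^ i ≠ 1 := by
          intro i hi1 hi2
          rcases Nat.lt_or_ge i (m + 1) with hlt | hge
          · exact hcase i hi1 (by omega)
          · have hh : i = m + 1 := by omega
            subst hh
            exact r'.2.2.2.1
        have hex : ∀ i, ∃ a, 1 ≤ i → i ≤ m + 1 → Rl A B a (γ ^ i) := by
          intro i
          by_cases hi : 1 ≤ i ∧ i ≤ m + 1
          · obtain ⟨a, ha⟩ := h.exists_left (B.pow_mem r.2.2.1 i) (hne i hi.1 hi.2)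
            exact ⟨a, fun _ _ => ha⟩
          · exact ⟨1, fun h1 h2 => absurd ⟨h1, h2⟩ hi⟩
        choose E hE using hex
        have hE1 : E 1 = e := by
          have := hE 1 le_rfl (by omega)
          rw [pow_one] at this
          exact h.uniq_left this r
        have hEm : E (m + 1) = e' := h.uniq_left (hE (m + 1) (by omega) le_rfl) r'
        have hY := h.Y r E (m + 1) hE hE1 m (by omega)
        rw [hEm] at hY
        have hem : e ^ m ≠ 1 := fun hh =>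
          hne m (by omega) (by omega) ((h.pow_eq_one_iff r m).mp hh)
        obtain ⟨ε, hε⟩ := h.exists_right (A.pow_mem r.1 m) hem
        have hεγ : ε ^ m = γ := IH m (by omega) B A h.symm γ e ε r.symm hε.symm
        have h3 : rc A (ε ^ (m + 1)) = rc B (e * e'⁻¹) := by
          rw [← hY, ← rc_rc, ← hε.2.2.2.2, rc_rc, pow_succ', hεγ]
        have hfA : e * e'⁻¹ ∈ A := A.mul_mem r.1 (A.inv_mem r'.1)
        have hηB : ε ^ (m + 1) ∈ B := B.pow_mem hε.2.2.1 _
        have hη : ε ^ (m + 1) ≠ 1 := by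
          intro hh
          rw [hh, rc_one] at h3
          exact h.pair.ne (eq_of_eq_rc hfA h3)
        have hf : e * e'⁻¹ ≠ 1 := by
          intro hh
          rw [hh, rc_one] at h3
          exact h.pair.ne (eq_of_eq_rc hηB h3.symm).symm
        have rf : Rl A B (e * e'⁻¹) (ε ^ (m + 1)) := ⟨hfA, hf, hηB, hη, h3⟩
        have r3 : Rl A B e' ((ε ^ (m + 1)) ^ m) := by
          have hh : (ε ^ (m + 1)) ^ m = γ ^ (m + 1) := by
            rw [← pow_mul, mul_comm, pow_mul, hεγ]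
          rw [hh]; exact r'
        have h4 := IH m (by omega) A B h (e * e'⁻¹) (ε ^ (m + 1)) e' rf r3
        rw [pow_succ, h4]; group

/-- In a special rank one group with abelian unipotent subgroups A and B, either A is an elementary abelian p-group for some prime p, or A is torsion-free and divisible (every element of A has an n-th root in A for every positive n). -/
theorem result {X : Type*} [Group X] {A B : Subgroup X} (h : Cfsg.IsRankOneGroup X A B)
    (hs : Cfsg.IsSpecialRankOnePair A B) (hab : Cfsg.HasAbelianUnipotents A B) :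
    (∃ p : ℕ, p.Prime ∧ Cfsg.IsElementaryAbelian p A) ∨
    ((∀ a ∈ A, a ≠ 1 → ¬ IsOfFinOrder a) ∧ ∀ a ∈ A, ∀ n : ℕ, 0 < n → ∃ c ∈ A, c ^ n = a) := by
  have hcA : ∀ x ∈ A, ∀ y ∈ A, x * y = y * x := fun x hx y hy =>
    congrArg Subtype.val (hab.1.is_comm.comm ⟨x, hx⟩ ⟨y, hy⟩)
  have hcB : ∀ x ∈ B, ∀ y ∈ B, x * y = y * x := fun x hx y hy =>
    congrArg Subtype.val (hab.2.is_comm.comm ⟨x, hx⟩ ⟨y, hy⟩)
  have hyp : Hyp A B :=
    ⟨hs.1, fun a b r => hs.2 a r.1 r.2.1 b r.2.2.1 r.2.2.2.1 r.2.2.2.2, hcA, hcB⟩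
  by_cases htf : ∀ a ∈ A, a ≠ 1 → ¬ IsOfFinOrder a
  · right
    refine ⟨htf, ?_⟩
    intro a ha n hn
    by_cases ha1 : a = 1
    · exact ⟨1, A.one_mem, by rw [ha1, one_pow]⟩
    · obtain ⟨b, hb⟩ := hyp.exists_right ha ha1
      have hbn : b ^ n ≠ 1 := by
        intro hh
        have h1 : a ^ n = 1 := (hyp.pow_eq_one_iff hb n).mpr hh
        exact htf a ha ha1 (isOfFinOrder_iff_pow_eq_one.mpr ⟨n, hn, h1⟩)
      obtain ⟨c, hc⟩ := hyp.exists_left (B.pow_mem hb.2.2.1 n) hbn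
      exact ⟨c, hc.1, P n A B hyp a b c hb hc⟩
  · left
    push Not at htf
    obtain ⟨a₀, ha₀, ha₀1, hfin⟩ := htf
    have hord : orderOf a₀ ≠ 1 := by rwa [Ne, orderOf_eq_one_iff]
    obtain ⟨p, hp, hpd⟩ := Nat.exists_prime_and_dvd hord
    have hpos : 0 < orderOf a₀ := hfin.orderOf_pos
    have ha₁p : (a₀ ^ (orderOf a₀ / p)) ^ p = 1 := by
      rw [← pow_mul, Nat.div_mul_cancel hpd, pow_orderOf_eq_one]
    have ha₁1 : a₀ ^ (orderOf a₀ / p) ≠ 1 := by
      intro hh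
      have h1 : orderOf a₀ ∣ orderOf a₀ / p := orderOf_dvd_of_pow_eq_one hh
      have h2 : orderOf a₀ ≤ orderOf a₀ / p :=
        Nat.le_of_dvd (Nat.div_pos (Nat.le_of_dvd hpos hpd) hp.pos) h1
      have h3 : orderOf a₀ / p < orderOf a₀ := Nat.div_lt_self hpos hp.one_lt
      omega
    have ha₁A : a₀ ^ (orderOf a₀ / p) ∈ A := A.pow_mem ha₀ _
    refine ⟨p, hp, hab.1, ?_⟩
    intro a ha
    by_contra hap
    have ha1 : a ≠ 1 := by
      rintro rfl
      exact hap (one_pow p)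
    have hcA' : a₀ ^ (orderOf a₀ / p) * a ∈ A := A.mul_mem ha₁A ha
    have hcp : (a₀ ^ (orderOf a₀ / p) * a) ^ p = a ^ p := by
      have hcm : Commute (a₀ ^ (orderOf a₀ / p)) a := hcA _ ha₁A a ha
      rw [hcm.mul_pow, ha₁p, one_mul]
    have hc1 : a₀ ^ (orderOf a₀ / p) * a ≠ 1 := by
      intro hh
      rw [hh, one_pow] at hcp
      exact hap hcp.symm
    obtain ⟨β, hβ⟩ := hyp.exists_right (A.pow_mem ha p) hap
    obtain ⟨b1, hb1⟩ := hyp.exists_right ha ha1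
    obtain ⟨b2, hb2⟩ := hyp.exists_right hcA' hc1
    have e1 : β ^ p = b1 := P p B A hyp.symm b1 a β hb1.symm hβ.symm
    have e2 : β ^ p = b2 := P p B A hyp.symm b2 _ β hb2.symm (by rw [hcp]; exact hβ.symm)
    have hb12 : b2 = b1 := e2.symm.trans e1
    rw [hb12] at hb2
    have hca : a₀ ^ (orderOf a₀ / p) * a = a := hyp.uniq_left hb2 hb1
    exact ha₁1 (mul_eq_right.mp hca)

end Cfsg.Agent.S5021
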