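import Cfsg.Statements.S5024
import Cfsg.Agent.Lib.Helper26.RootSet

set_option autoImplicit false
open Cfsg

namespace Cfsg.Agent.S5024

open Cfsg.Agent.Lib.Helper26

variable {G : Type*} [Group G] {S : Set (Subgroup G)}

/-- a member `A` of `S` with a partner `B`, lying with `B` inside the rank one group `⟨C, D⟩`,
is one of its unipotent subgroups -/
lemma mem_unipotent (hS : Cfsg.IsRootSubgroupSet S) {A B C D : Subgroup G} (hA : A ∈ S)
    (hAB : IsRankOnePair A B) (hC : C ∈ S) (hCD : IsRankOnePair C D)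
    (hle : A ⊔ B ≤ C ⊔ D) : A ∈ unipotentSubgroups C D := by
  by_contra hAmem
  have hAle : A ≤ C ⊔ D := le_sup_left.trans hle
  have hBle : B ≤ C ⊔ D := le_sup_right.trans hle
  -- A normalises every unipotent subgroup of ⟨C, D⟩
  have hnorm : ∀ a ∈ A, ∀ E ∈ unipotentSubgroups C D, conjBy E a = E := by
    intro a ha E hE
    by_contra hEa
    have hES : E ∈ S := by
      obtain ⟨y, -, rfl⟩ := hE
      exact hS.conj_mem C hC y
    have hEa_mem : conjBy E a ∈ unipotentSubgroups C D :=
      RankOne.conjBy_mem_unipotent hE (hAle ha)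
    rcases hS.pair A hA E hES with hcomm | hro | hcc
    · apply hEa
      apply conjBy_eq_self_iff.mpr
      have h1 : A ≤ Subgroup.centralizer (E : Set G) :=
        Subgroup.commutator_eq_bot_iff_le_centralizer.mp hcomm
      exact Subgroup.centralizer_le_normalizer _ (h1 ha)
    · have ha1 : a⁻¹ ≠ 1 := by
        intro h1
        apply hEa
        have : a = 1 := by simpa using h1
        rw [this, conjBy_one]
      obtain ⟨e, he, -, hconj⟩ := hro.cond_left a⁻¹ (A.inv_mem ha) ha1
      rw [inv_inv] at hconj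
      apply hAmem
      have h2 : A = conjBy (conjBy E a) e := by
        rw [← hconj, conjBy_conjBy_inv]
      rw [h2]
      exact RankOne.conjBy_mem_unipotent hEa_mem (RankOne.unipotent_le_sup hE he)
    · have hEc : IsMulCommutative E := hS.commutative E hES
      have h1 := RootSet.comm_of_commutatorCase hEc hcc ha
      obtain ⟨y, -, hy1, hy2⟩ := RankOne.move_pair hCD hEa_mem hE hEa
      have h2 : IsRankOnePair (conjBy C y⁻¹) (conjBy D y⁻¹) := RankOne.conj hCD y⁻¹
      rw [← hy1, ← hy2, conjBy_inv_conjBy, conjBy_inv_conjBy] at h2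
      exact RankOne.not_commute h2 h1
  -- hence A centralises ⟨C, D⟩, in particular B
  apply RankOne.not_commute hAB
  intro a ha b hb
  exact RankOne.central_of_normalizes_all hCD (hnorm a ha) b (hBle hb)

/-- Let S be a set of abstract root subgroups of G, A and C members of S, B a rank one partner of A in S and D a rank one partner of C in S. If the rank one group ⟨A, B⟩ is contained in ⟨C, D⟩ then the two coincide, and C and D are conjugates of A inside ⟨A, B⟩. -/
theorem result {G : Type*} [Group G] {S : Set (Subgroup G)} (hS : Cfsg.IsRootSubgroupSet S)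
    {A B C D : Subgroup G} (hA : A ∈ S) (hC : C ∈ S) (hB : B ∈ Cfsg.rankOnePartners S A) (hD : D ∈ Cfsg.rankOnePartners S C)
    (hle : A ⊔ B ≤ C ⊔ D) : A ⊔ B = C ⊔ D ∧ C ∈ Cfsg.unipotentSubgroups A B ∧ D ∈ Cfsg.unipotentSubgroups A B := by
  obtain ⟨hBS, hAB⟩ := hB
  obtain ⟨hDS, hCD⟩ := hD
  have hAmem := mem_unipotent hS hA hAB hC hCD hle
  have hBmem := mem_unipotent hS hBS (RankOnePair_symm hAB) hC hCD (by rwa [sup_comm])
  have heq : A ⊔ B = C ⊔ D := RankOne.sup_eq_of_ne hCD hAmem hBmem hAB.ne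
  refine ⟨heq, ?_, ?_⟩
  · obtain ⟨y, hy, hAy⟩ := hAmem
    refine ⟨y⁻¹, ?_, ?_⟩
    · rw [heq]; exact Subgroup.inv_mem _ hy
    · rw [hAy, conjBy_inv_conjBy]
  · obtain ⟨y, hy, hAy⟩ := hAmem
    obtain ⟨y', hy', hDy'⟩ := RankOne.right_mem_unipotent hCD
    refine ⟨y' * y⁻¹, ?_, ?_⟩
    · rw [heq]; exact Subgroup.mul_mem _ hy' (Subgroup.inv_mem _ hy)
    · rw [← conjBy_conjBy, hAy, conjBy_inv_conjBy, hDy']

end Cfsg.Agent.S5024
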