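import Cfsg.Statements.S5026
import Cfsg.Agent.Lib.Helper26.RootSet
import Cfsg.Agent.S5028

set_option autoImplicit false
open Cfsg

namespace Cfsg.Agent.S5026

open Cfsg.Agent.Lib.Helper26

variable {G : Type*} [Group G]

lemma le_centralizer_zpowers_iff {C : Subgroup G} {g : G} :
    C ≤ Subgroup.centralizer ((Subgroup.zpowers g : Subgroup G) : Set G) ↔ ∀ c ∈ C, c * g = g * c := by
  constructor
  · intro h c hc
    have := Subgroup.mem_centralizer_iff.mp (h hc) g (Subgroup.mem_zpowers g)
    exact this.symm
  · intro h c hc
    rw [Subgroup.mem_centralizer_iff]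
    intro x hx
    obtain ⟨n, rfl⟩ := Subgroup.mem_zpowers_iff.mp hx
    have h1 : Commute c g := h c hc
    exact (h1.zpow_right n).symm

/-- Let S be a degenerate set of abstract root subgroups of G (a set of abstract transvection groups) and let a, b be commuting non-identity elements of members of S with a b ≠ 1. Then the members of S centralizing a b are exactly those centralizing both a and b. -/
theorem result {G : Type*} [Group G] {S : Set (Subgroup G)} (hS : Cfsg.IsRootSubgroupSet S) (hdeg : Cfsg.IsDegenerateRootSet S)
    {a b : G} (ha : a ∈ Cfsg.rootElements S) (hb : b ∈ Cfsg.rootElements S) (hab : a * b = b * a) (hab1 : a * b ≠ 1) :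
    Cfsg.centralizingMembers S (Subgroup.zpowers (a * b)) =
      Cfsg.centralizingMembers S (Subgroup.zpowers a) ∩ Cfsg.centralizingMembers S (Subgroup.zpowers b) := by
  obtain ⟨ha1, A, hA, haA⟩ := ha
  obtain ⟨hb1, B, hB, hbB⟩ := hb
  -- A and B commute elementwise
  have hAB : ∀ x ∈ A, ∀ y ∈ B, x * y = y * x := by
    rcases hS.pair A hA B hB with hcomm | hro | hcc
    · intro x hx y hy
      have h1 : A ≤ Subgroup.centralizer (B : Set G) :=
        Subgroup.commutator_eq_bot_iff_le_centralizer.mp hcomm
      exact (Subgroup.mem_centralizer_iff.mp (h1 hx) y hy).symm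
    · exfalso
      have hiso : ¬ Cfsg.IsIsolatedIn (Cfsg.FAdj S) S B := by
        intro h
        exact (h.2 A).1 ⟨hB, hA, RankOnePair_symm hro⟩
      have h1 := Cfsg.Agent.S5028.result hS hiso hB (conjBy B a) (hS.conj_mem B hB a)
      have hmem : b ∈ B ⊓ conjBy B a := by
        refine ⟨hbB, ?_⟩
        have : b = a * b * a⁻¹ := by rw [hab]; group
        rw [this]; exact conj_mem_conjBy hbB
      rcases h1 with h2 | h2
      · rw [h2] at hmem
        exact hb1 hmem
      · exact ha1 (RankOne.eq_one_of_mem_normalizer hro haA (conjBy_eq_self_iff.mp h2.symm))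
    · exact absurd hcc (hdeg A hA B hB)
  ext C
  simp only [centralizingMembers, Set.mem_ofPred_eq, Set.mem_inter_iff]
  rw [le_centralizer_zpowers_iff, le_centralizer_zpowers_iff, le_centralizer_zpowers_iff]
  constructor
  · rintro ⟨hC, hCab⟩
    -- it suffices to show that C centralises a
    have hsuff : (∀ c ∈ C, c * a = a * c) → (∀ c ∈ C, c * b = b * c) := by
      intro h c hc
      have h1 := hCab c hc
      have h2 := h c hc
      have e : c * b = a⁻¹ * (c * (a * b)) := by
        calc c * b = a⁻¹ * (a * c) * b := by group
          _ = a⁻¹ * (c * a) * b := by rw [h2]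
          _ = a⁻¹ * (c * (a * b)) := by group
      rw [e, h1]; group
    have hsuff' : (∀ c ∈ C, c * b = b * c) → (∀ c ∈ C, c * a = a * c) := by
      intro h c hc
      have h1 := hCab c hc
      have h2 := h c hc
      have e : c * a = (c * (a * b)) * b⁻¹ := by group
      rw [e, h1]
      calc a * b * c * b⁻¹ = a * (b * c) * b⁻¹ := by group
        _ = a * (c * b) * b⁻¹ := by rw [h2]
        _ = a * c := by group
    have hCa : ∀ c ∈ C, c * a = a * c := by
      rcases hS.pair C hC A hA with hcomm | hCA | hcc
      · intro c hc
        have h1 : C ≤ Subgroup.centralizer (A : Set G) :=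
          Subgroup.commutator_eq_bot_iff_le_centralizer.mp hcomm
        exact (Subgroup.mem_centralizer_iff.mp (h1 hc) a haA).symm
      · rcases hS.pair C hC B hB with hcomm | hCB | hcc
        · apply hsuff'
          intro c hc
          have h1 : C ≤ Subgroup.centralizer (B : Set G) :=
            Subgroup.commutator_eq_bot_iff_le_centralizer.mp hcomm
          exact (Subgroup.mem_centralizer_iff.mp (h1 hc) b hbB).symm
        · have hAC : IsRankOnePair A C := RankOnePair_symm hCA
          -- a b normalises C
          have hnorm : a * b ∈ Subgroup.normalizer (C : Set G) := by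
            apply Subgroup.centralizer_le_normalizer
            rw [Subgroup.mem_centralizer_iff]
            intro c hc
            exact hCab c hc
          have hact : conjBy C (b⁻¹)⁻¹ = conjBy C a⁻¹ := by
            rw [inv_inv]
            have h1 : conjBy C (a * b) = C := conjBy_eq_self_iff.mpr hnorm
            rw [← conjBy_conjBy] at h1
            exact conjBy_eq_iff.mp h1
          obtain ⟨c₀, hc₀, hBc₀⟩ := RootSet.conj_of_same_action hS hAC hC hB haA ha1 (B.inv_mem hbB) hact
          by_cases hc₀1 : c₀ = 1
          · exfalso
            rw [hc₀1, conjBy_one] at hBc₀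
            rw [hBc₀] at hbB
            exact hab1 (RankOne.eq_one_of_mem_normalizer hAC (A.mul_mem haA hbB) hnorm)
          · have hc₀1' : c₀⁻¹ ≠ 1 := by simpa using hc₀1
            obtain ⟨a', ha', -, hconj⟩ := hAC.cond_right c₀⁻¹ (C.inv_mem hc₀) hc₀1'
            rw [inv_inv, ← hBc₀] at hconj
            -- a' normalises B
            have ha'B : conjBy B a' = B := by
              apply conjBy_eq_self_iff.mpr
              apply Subgroup.centralizer_le_normalizer
              rw [Subgroup.mem_centralizer_iff]
              intro y hy
              exact (hAB a' ha' y hy).symm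
            have hCB' : C = B := by
              have h1 : C = conjBy B a' := by
                have := conjBy_eq_iff.mp hconj
                simpa using this
              rw [h1, ha'B]
            apply hsuff'
            intro c hc
            have hBc : IsMulCommutative B := hS.commutative B hB
            exact setLike_mul_comm (hCB' ▸ hc) hbB
        · exact absurd hcc (hdeg C hC B hB)
      · exact absurd hcc (hdeg C hC A hA)
    exact ⟨⟨hC, hCa⟩, hC, hsuff hCa⟩
  · rintro ⟨⟨hC, hCa⟩, -, hCb⟩
    refine ⟨hC, ?_⟩
    intro c hc
    rw [← mul_assoc, hCa c hc, mul_assoc, hCb c hc, mul_assoc]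

end Cfsg.Agent.S5026
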