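import Cfsg.Statements.S5027
import Cfsg.Agent.Lib.Helper26.RootSet
import Cfsg.Agent.S5025

set_option autoImplicit false
open Cfsg

namespace Cfsg.Agent.S5027

open Cfsg.Agent.Lib.Helper26
open scoped commutatorElement

/-- Let S be a set of abstract root subgroups of G such that every member of S has a rank one partner in S (the graph of rank one pairs on S has no isolated vertex). Then the second centre of G equals its centre. -/
theorem result {G : Type*} [Group G] {S : Set (Subgroup G)} (hS : Cfsg.IsRootSubgroupSet S)
    (hF : ∀ A ∈ S, ¬ Cfsg.IsIsolatedIn (Cfsg.FAdj S) S A) : Subgroup.upperCentralSeries G 2 = Subgroup.center G := by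
  apply le_antisymm
  · intro z hz
    have hz' : ∀ y : G, ⁅z, y⁆ ∈ Subgroup.center G := by
      have := Subgroup.mem_upperCentralSeries_succ_iff.mp hz
      simpa [Subgroup.upperCentralSeries_one] using this
    -- z centralises every member of S
    have hcent : ∀ A ∈ S, A ≤ Subgroup.centralizer ({z} : Set G) := by
      intro A hA a ha
      rw [Subgroup.mem_centralizer_iff]
      intro m hm
      rw [Set.mem_singleton_iff.mp hm]
      by_contra hne
      obtain ⟨B, hB, hAB⟩ := RootSet.exists_partner (hF A hA) hA
      have hzeta := hz' a
      have hzeta1 : ⁅z, a⁆ ≠ 1 := by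
        intro h1
        apply hne
        rw [commutatorElement_def] at h1
        have : z * a = (z * a * z⁻¹ * a⁻¹) * (a * z) := by group
        rw [this, h1, one_mul]
      have ha1 : a ≠ 1 := by
        intro h1
        apply hne
        rw [h1]; simp
      have hcen : ⁅z, a⁆ ∈ Subgroup.centralizer ((A ⊔ B : Subgroup G) : Set G) := by
        rw [Subgroup.mem_centralizer_iff]
        intro x _
        exact (Subgroup.mem_center_iff.mp hzeta x)
      have hnot := Cfsg.Agent.S5025.result hS hA ⟨hB, hAB⟩ hcen hzeta1 a ha ha1
      apply hnot
      have e : ⁅z, a⁆ * a = z * a * z⁻¹ := by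
        rw [commutatorElement_def]; group
      refine ⟨?_, conjBy A z, hS.conj_mem A hA z, ?_⟩
      · rw [e]
        intro h1
        apply ha1
        have : a = z⁻¹ * (z * a * z⁻¹) * z := by group
        rw [this, h1]; group
      · rw [e]
        exact conj_mem_conjBy ha
    have htop : (⊤ : Subgroup G) ≤ Subgroup.centralizer ({z} : Set G) := by
      rw [← hS.generates]
      exact iSup₂_le hcent
    rw [Subgroup.mem_center_iff]
    intro g
    have := htop (Subgroup.mem_top g)
    rw [Subgroup.mem_centralizer_iff] at this
    exact (this z rfl).symm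
  · rw [← Subgroup.upperCentralSeries_one]
    exact Subgroup.upperCentralSeries_mono G (by norm_num)

end Cfsg.Agent.S5027
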