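import Cfsg.Statements.S5031
import Cfsg.Agent.Lib.Helper26.RootComm
import Cfsg.Agent.Lib.Helper26.CommCalc
import Cfsg.Agent.S5030

set_option autoImplicit false
open Cfsg

namespace Cfsg.Agent.S5031

open Cfsg.Agent.Lib.Helper26

/-- the third point `T` of a line through `A`, `B` forms a rank one pair with a rank one partner
`C` of `A`, unless `B` does -/
lemma key {G : Type*} [Group G] {S : Set (Subgroup G)} (hS : Cfsg.IsRootSubgroupSet S)
    {A B T C : Subgroup G} (hA : A ∈ S) (hB : B ∈ S) (hT : T ∈ S) (hAC : FAdj S A C)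
    (hTA : T ≠ A) (hTB : T ≠ B) (cAB : Cm A B) (hTle : T ≤ A ⊔ B)
    (hpart : IsSubgroupPartition (A ⊔ B) (membersIn S (A ⊔ B)))
    {a b : G} (ha : a ∈ A) (ha1 : a ≠ 1) (hb : b ∈ B) (habT : a * b ∈ T)
    (hBC : ¬ IsRankOnePair B C) (hBA : B ≠ A) : IsRankOnePair T C := by
  have hAni : ¬ IsIsolatedIn (FAdj S) S A := RootGraph.not_isolated_of_adj hAC
  have hC : C ∈ S := hAC.2.1
  have hro : IsRankOnePair A C := hAC.2.2
  have hAc : IsMulCommutative A := hS.commutative A hA
  have hBc : IsMulCommutative B := hS.commutative B hB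
  have cAA : Cm A A := Cm.of_comm A
  have cBB : Cm B B := Cm.of_comm B
  have cJJ : Cm (A ⊔ B) (A ⊔ B) := (cAA.sup_right cAB).sup_left (cAB.symm.sup_right cBB)
  have hstar : ∀ T' ∈ S, T' ≤ A ⊔ B → T' ≠ A → ∀ t ∈ T', t ≠ 1 → ¬ (∀ c ∈ C, c * t = t * c) := by
    intro T' hT' hT'le hT'A t ht ht1 htC
    have htA : ∀ x ∈ A, x * t = t * x := fun x hx => cJJ x (Subgroup.mem_sup_left hx) t (hT'le ht)
    have hzc := mem_centralizer_sup htA htC
    apply Cfsg.Agent.S5025.result hS hA ⟨hC, hro⟩ hzc ht1 a ha ha1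
    have hta1 : t * a ≠ 1 := by
      intro h
      have h0 : A ⊓ T' = ⊥ :=
        (Cfsg.Agent.S5028.result hS hAni hA T' hT').resolve_right (Ne.symm hT'A)
      have h1 : t ∈ A ⊓ T' := by
        refine ⟨?_, ht⟩
        rw [eq_inv_of_mul_eq_one_left h]; exact A.inv_mem ha
      rw [h0] at h1
      exact ht1 (Subgroup.mem_bot.mp h1)
    obtain ⟨T'', ⟨hT''S, -⟩, hmem⟩ := hpart.2.1 (t * a)
      (Subgroup.mul_mem _ (hT'le ht) (Subgroup.mem_sup_left ha)) hta1
    exact ⟨hta1, T'', hT''S, hmem⟩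
  have hnc : ∀ T' ∈ S, T' ≤ A ⊔ B → T' ≠ A → ⁅T', C⁆ ≠ ⊥ := by
    intro T' hT' hT'le hT'A h0
    obtain ⟨t, ht, ht1⟩ := RootSet.exists_ne_one hS hT'
    apply hstar T' hT' hT'le hT'A t ht ht1
    intro c hc
    exact ((cm_iff_commutator.mpr h0) t ht c hc).symm
  rcases hS.pair T hT C hC with h1 | h1 | h1
  · exact absurd h1 (hnc T hT hTle hTA)
  · exact h1
  · exfalso
    rcases hS.pair B hB C hC with h2 | h2 | h2
    · exact hnc B hB le_sup_right hBA h2
    · exact hBC h2
    · obtain ⟨c₀, hc₀, hc₀1⟩ := RootSet.exists_ne_one hS hC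
      have cTB : Cm T B := cJJ.mono hTle le_sup_right
      have hCT : ⁅C, T⁆ ∈ S := by rw [Subgroup.commutator_comm]; exact h1.1
      have hnil := (Cfsg.Agent.S5030.result hS hB hC hT h2.1 hCT
        ⟨hT, hTB, cm_iff_commutator.mp cTB.symm⟩ hc₀ hc₀1).2.2.2.2
      have haR : a ∈ B ⊔ C ⊔ T := by
        have e : a = (a * b) * b⁻¹ := by group
        rw [e]
        exact Subgroup.mul_mem _ (Subgroup.mem_sup_right habT)
          (Subgroup.mem_sup_left (Subgroup.mem_sup_left (B.inv_mem hb)))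
      have hCR : C ≤ B ⊔ C ⊔ T := le_sup_of_le_left le_sup_right
      have hCu := RankOne.right_mem_unipotent hro
      have hne : C ≠ conjBy C a := by
        intro e
        exact ha1 (RankOne.eq_one_of_mem_normalizer hro ha (conjBy_eq_self_iff.mp e.symm))
      have hsup : C ⊔ conjBy C a = A ⊔ C := RankOne.sup_eq_of_ne hro hCu
        (RankOne.conjBy_mem_unipotent hCu (Subgroup.mem_sup_left ha)) hne
      have hle : A ⊔ C ≤ B ⊔ C ⊔ T := by
        rw [← hsup]
        exact sup_le hCR (conjBy_le_of_mem hCR haR)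
      exact RankOne.not_isNilpotent_sup hro (isNilpotent_of_le hle hnil)

/-- Let S be a set of abstract root subgroups of G and let A, B ∈ S lie in different connected components of the graph of rank one pairs on S, each component having more than one member. Then B is not a line partner of A. -/
theorem result {G : Type*} [Group G] {S : Set (Subgroup G)} (hS : Cfsg.IsRootSubgroupSet S)
    {A B : Subgroup G} (hA : A ∈ S) (hB : B ∈ S)
    (hne : Cfsg.componentOf (Cfsg.FAdj S) S A ≠ Cfsg.componentOf (Cfsg.FAdj S) S B)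
    (hA2 : ∃ A' ∈ Cfsg.componentOf (Cfsg.FAdj S) S A, A' ≠ A) (hB2 : ∃ B' ∈ Cfsg.componentOf (Cfsg.FAdj S) S B, B' ≠ B) :
    B ∉ Cfsg.linePartners S A := by
  rintro ⟨⟨-, hBA, hcomm⟩, hpart⟩
  obtain ⟨C, hAC⟩ := RootGraph.exists_adj_of_component hA2
  obtain ⟨D, hBD⟩ := RootGraph.exists_adj_of_component hB2
  have hAni : ¬ IsIsolatedIn (FAdj S) S A := RootGraph.not_isolated_of_adj hAC
  have cAB : Cm A B := cm_iff_commutator.mpr hcomm
  have hAB0 : A ⊓ B = ⊥ := (Cfsg.Agent.S5028.result hS hAni hA B hB).resolve_right (Ne.symm hBA)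
  obtain ⟨a, ha, ha1⟩ := RootSet.exists_ne_one hS hA
  obtain ⟨b, hb, hb1⟩ := RootSet.exists_ne_one hS hB
  have hab1 : a * b ≠ 1 := by
    intro h
    have h1 : a ∈ A ⊓ B := by
      refine ⟨ha, ?_⟩
      rw [eq_inv_of_mul_eq_one_left h]; exact B.inv_mem hb
    rw [hAB0] at h1
    exact ha1 (Subgroup.mem_bot.mp h1)
  obtain ⟨T, ⟨hTS, hTle⟩, habT⟩ := hpart.2.1 (a * b)
    (Subgroup.mul_mem _ (Subgroup.mem_sup_left ha) (Subgroup.mem_sup_right hb)) hab1
  have hTA : T ≠ A := by
    rintro rfl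
    have h1 : b ∈ T ⊓ B := by
      refine ⟨?_, hb⟩
      have := T.mul_mem (T.inv_mem ha) habT
      simpa using this
    rw [hAB0] at h1
    exact hb1 (Subgroup.mem_bot.mp h1)
  have hTB : T ≠ B := by
    rintro rfl
    have h1 : a ∈ A ⊓ T := by
      refine ⟨ha, ?_⟩
      have := T.mul_mem habT (T.inv_mem hb)
      simpa using this
    rw [hAB0] at h1
    exact ha1 (Subgroup.mem_bot.mp h1)
  have hBC : ¬ IsRankOnePair B C := by
    intro h
    apply hne
    apply RootGraph.componentOf_eq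
    exact Relation.ReflTransGen.head hAC
      (Relation.ReflTransGen.single ⟨hAC.2.1, hB, RankOnePair_symm h⟩)
  have hAD : ¬ IsRankOnePair A D := by
    intro h
    apply hne
    apply RootGraph.componentOf_eq
    exact RootGraph.reach_symm (Relation.ReflTransGen.head hBD
      (Relation.ReflTransGen.single ⟨hBD.2.1, hA, RankOnePair_symm h⟩))
  have h1 : IsRankOnePair T C :=
    key hS hA hB hTS hAC hTA hTB cAB hTle hpart ha ha1 hb habT hBC hBA
  have hpart' : IsSubgroupPartition (B ⊔ A) (membersIn S (B ⊔ A)) := by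
    rw [sup_comm]; exact hpart
  have hbaT : b * a ∈ T := by rw [← cAB a ha b hb]; exact habT
  have h2 : IsRankOnePair T D :=
    key hS hB hA hTS hBD hTB hTA cAB.symm (by rw [sup_comm]; exact hTle) hpart' hb hb1 ha hbaT
      hAD (Ne.symm hBA)
  apply hne
  apply RootGraph.componentOf_eq
  have r1 : Relation.ReflTransGen (FAdj S) A T :=
    Relation.ReflTransGen.head hAC (Relation.ReflTransGen.single ⟨hAC.2.1, hTS, RankOnePair_symm h1⟩)
  have r2 : Relation.ReflTransGen (FAdj S) B T :=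
    Relation.ReflTransGen.head hBD (Relation.ReflTransGen.single ⟨hBD.2.1, hTS, RankOnePair_symm h2⟩)
  exact r1.trans (RootGraph.reach_symm r2)

end Cfsg.Agent.S5031
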