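import Cfsg.Statements.S5032
import Cfsg.Agent.Lib.Helper26.RootComm
import Cfsg.Agent.Lib.Helper26.CommCalc
import Cfsg.Agent.S5029
import Cfsg.Agent.S5031

set_option autoImplicit false
open Cfsg

namespace Cfsg.Agent.S5032

open Cfsg.Agent.Lib.Helper26

lemma conj_of_reach {G : Type*} [Group G] {S : Set (Subgroup G)} {A B : Subgroup G}
    (h : Relation.ReflTransGen (FAdj S) A B) : ∃ g : G, B = conjBy A g := by
  induction h with
  | refl => exact ⟨1, (conjBy_one A).symm⟩
  | tail _ hbc ih =>
    obtain ⟨g, rfl⟩ := ih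
    obtain ⟨x, -, hx⟩ := RankOne.right_mem_unipotent hbc.2.2
    exact ⟨x * g, by rw [hx, conjBy_conjBy]⟩

/-- Let S be a set of abstract root subgroups of G with more than one member. Then the graph of rank one pairs on S is connected if and only if S is a single conjugacy class of G and some member of S has a rank one partner in S. -/
theorem result {G : Type*} [Group G] {S : Set (Subgroup G)} (hS : Cfsg.IsRootSubgroupSet S) (h2 : ∃ A ∈ S, ∃ B ∈ S, A ≠ B) :
    Cfsg.IsConnectedFamily (Cfsg.FAdj S) S ↔
      (Cfsg.IsConjClassOfSubgroups S ∧ ∃ A ∈ S, ¬ Cfsg.IsIsolatedIn (Cfsg.FAdj S) S A) := by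
  constructor
  · intro hconn
    obtain ⟨A, hA, B, hB, hAB⟩ := h2
    refine ⟨⟨⟨A, hA⟩, ?_⟩, A, hA, ?_⟩
    · intro A' hA' B' hB'
      exact conj_of_reach (hconn A' hA' B' hB')
    · rcases Relation.ReflTransGen.cases_head (hconn A hA B hB) with h1 | ⟨C, hC, -⟩
      · exact absurd h1 hAB
      · exact RootGraph.not_isolated_of_adj hC
  · rintro ⟨⟨-, hconj⟩, A₀, hA₀, hA₀ni⟩
    have hni : ∀ A ∈ S, ¬ IsIsolatedIn (FAdj S) S A := by
      intro A hA
      obtain ⟨g, rfl⟩ := hconj A₀ hA₀ A hA
      exact RootSet.not_isolated_conj hS hA₀ni hA₀ g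
    have comp2 : ∀ A ∈ S, ∃ A' ∈ componentOf (FAdj S) S A, A' ≠ A := by
      intro A hA
      obtain ⟨B, hB, hAB⟩ := RootSet.exists_partner (hni A hA) hA
      exact ⟨B, ⟨hB, Relation.ReflTransGen.single ⟨hA, hB, hAB⟩⟩, hAB.ne.symm⟩
    have hstep : ∀ C ∈ S, ∀ D ∈ S, ∀ d ∈ D, Relation.ReflTransGen (FAdj S) C (conjBy C d) := by
      intro C hC D hD d hd
      rcases hS.pair C hC D hD with h | h | h
      · have hdn : d ∈ Subgroup.normalizer (C : Set G) := by
          have h1 : D ≤ Subgroup.centralizer (C : Set G) := by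
            rw [Subgroup.commutator_comm] at h
            exact Subgroup.commutator_eq_bot_iff_le_centralizer.mp h
          exact Subgroup.centralizer_le_normalizer _ (h1 hd)
        rw [conjBy_eq_self_iff.mpr hdn]
      · have h' : IsRankOnePair (conjBy C d) (conjBy D d) := RankOne.conj h d
        rw [conjBy_of_mem hd] at h'
        exact Relation.ReflTransGen.head ⟨hC, hD, h⟩
          (Relation.ReflTransGen.single ⟨hD, hS.conj_mem C hC d, RankOnePair_symm h'⟩)
      · by_cases hd1 : conjBy C d = C
        · rw [hd1]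
        · have hdne : d ≠ 1 := by
            rintro rfl
            exact hd1 (conjBy_one C)
          have hCc : IsMulCommutative C := hS.commutative C hC
          have hle : conjBy C d ≤ C ⊔ ⁅C, D⁆ := by
            intro x hx
            obtain ⟨c, hc, rfl⟩ : ∃ c ∈ C, x = d * c * d⁻¹ :=
              ⟨d⁻¹ * x * d, mem_conjBy.mp hx, by group⟩
            have e : d * c * d⁻¹ = (d * c * d⁻¹ * c⁻¹) * c := by group
            rw [e]
            exact Subgroup.mul_mem _ (Subgroup.mem_sup_right (CommCase.comm_mem' hc hd))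
              (Subgroup.mem_sup_left hc)
          have hge : ⁅C, D⁆ ≤ C ⊔ conjBy C d := by
            intro e he
            obtain ⟨c, hc, hcd⟩ := CommCase.surj_left h hd hdne he
            have e' : e = c * (d * c⁻¹ * d⁻¹) := by rw [← hcd]; group
            rw [e']
            exact Subgroup.mul_mem _ (Subgroup.mem_sup_left hc)
              (Subgroup.mem_sup_right (conj_mem_conjBy (C.inv_mem hc)))
          have hsup : C ⊔ conjBy C d = C ⊔ ⁅C, D⁆ :=
            le_antisymm (sup_le le_sup_left hle) (sup_le le_sup_left hge)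
          have cCE : Cm C ⁅C, D⁆ := fun c hc e he => (CommCase.commute_left h he hc).symm
          have cCd : Cm C (conjBy C d) := ((Cm.of_comm C).sup_right cCE).mono le_rfl hle
          have h29 := Cfsg.Agent.S5029.result hS (hni C hC) hC hD h.1
          have hL : conjBy C d ∈ linePartners S C := by
            refine ⟨⟨hS.conj_mem C hC d, hd1, cm_iff_commutator.mp cCd⟩, ?_⟩
            rw [hsup]; exact h29.2.1
          by_contra hreach
          have hne : componentOf (FAdj S) S C ≠ componentOf (FAdj S) S (conjBy C d) := by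
            intro heq
            apply hreach
            have h1 : conjBy C d ∈ componentOf (FAdj S) S (conjBy C d) :=
              ⟨hS.conj_mem C hC d, Relation.ReflTransGen.refl⟩
            rw [← heq] at h1
            exact h1.2
          exact Cfsg.Agent.S5031.result hS hC (hS.conj_mem C hC d) hne (comp2 C hC)
            (comp2 _ (hS.conj_mem C hC d)) hL
    have hinv : ∀ g : G, ∀ C ∈ S, Relation.ReflTransGen (FAdj S) C (conjBy C g) := by
      intro g
      have hg : g ∈ (⨆ A ∈ S, A : Subgroup G) := by rw [hS.generates]; trivial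
      have hone : ∀ C ∈ S, Relation.ReflTransGen (FAdj S) C (conjBy C (1 : G)) := by
        intro C _
        rw [conjBy_one]
      have hmul : ∀ x y : G, (∀ C ∈ S, Relation.ReflTransGen (FAdj S) C (conjBy C x)) →
          (∀ C ∈ S, Relation.ReflTransGen (FAdj S) C (conjBy C y)) →
          ∀ C ∈ S, Relation.ReflTransGen (FAdj S) C (conjBy C (x * y)) := by
        intro x y hx hy C hC
        rw [← conjBy_conjBy]
        exact (hy C hC).trans (hx _ (hS.conj_mem C hC y))
      refine Subgroup.iSup_induction (fun A : Subgroup G => ⨆ (_ : A ∈ S), A)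
        (C := fun g => ∀ C ∈ S, Relation.ReflTransGen (FAdj S) C (conjBy C g)) hg ?_ hone hmul
      intro A x hx
      refine Subgroup.iSup_induction (fun (_ : A ∈ S) => A)
        (C := fun g => ∀ C ∈ S, Relation.ReflTransGen (FAdj S) C (conjBy C g)) hx ?_ hone hmul
      intro hA x hx C hC
      exact hstep C hC A hA x hx
    intro A hA B hB
    obtain ⟨g, rfl⟩ := hconj A hA B hB
    exact hinv g A hA

end Cfsg.Agent.S5032
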