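import Cfsg.Statements.S5034
import Cfsg.Agent.Lib.Helper26.RootLine

set_option autoImplicit false
open Cfsg

namespace Cfsg.Agent.S5034

open Cfsg.Agent.Lib.Helper26

/-- Let S be a non-degenerate class of abstract root subgroups of G, A ∈ S and B a rank one partner of A. Then some line partner C of A has ⁅B, C⁆ ∈ S, and the rank one pair A, B is special. -/
theorem result {G : Type*} [Group G] {S : Set (Subgroup G)} (hS : Cfsg.IsRootSubgroupClass S) (hnd : Cfsg.IsNondegenerateRootSet S)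
    {A B : Subgroup G} (hA : A ∈ S) (hB : B ∈ Cfsg.rankOnePartners S A) :
    (∃ C ∈ Cfsg.linePartners S A, C ∈ Cfsg.commutatorPartners S B) ∧ Cfsg.IsSpecialRankOnePair A B := by
  have hS' := hS.1
  have hAni : ¬ IsIsolatedIn (FAdj S) S A := RootSet.not_isolated_of_rankOne hA hB.1 hB.2
  have hF : ∀ A' ∈ S, ¬ IsIsolatedIn (FAdj S) S A' := by
    intro A' hA'
    obtain ⟨g, rfl⟩ := hS.2.2 A hA A' hA'
    exact RootSet.not_isolated_conj hS' hAni hA g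
  obtain ⟨A₁, hA₁, B₁, hB₁, hcc₁⟩ := hnd.2.2
  obtain ⟨g, hg⟩ := hS.2.2 A₁ hA₁ A hA
  have hB₂ : conjBy B₁ g ∈ S := hS'.conj_mem B₁ hB₁ g
  have hC₁ : ⁅A, conjBy B₁ g⁆ ∈ S := by
    have h1 : conjBy ⁅A₁, B₁⁆ g ∈ S := hS'.conj_mem _ hcc₁.1 g
    have h2 : conjBy ⁅A₁, B₁⁆ g = ⁅conjBy A₁ g, conjBy B₁ g⁆ :=
      Subgroup.map_commutator A₁ B₁ (MulAut.conj g).toMonoidHom
    rw [h2, ← hg] at h1
    exact h1
  have h29 := Cfsg.Agent.S5029.result hS' hAni hA hB₂ hC₁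
  have hlp : ⁅A, conjBy B₁ g⁆ ∈ linePartners S A := linePartners_symm h29.2.2.1 hC₁
  obtain ⟨D₀, E, hD₀, hE, hD₀A, hsup, hcc, hEdef, hAE, hAEeq, hmem⟩ :=
    RootLine.exists_transitive hS' hF hA hlp hB.1 hB.2
  subst hEdef
  refine ⟨⟨D₀, ⟨⟨hD₀, hD₀A, ?_⟩, ?_⟩, hD₀, ?_⟩, ?_⟩
  · apply cm_iff_commutator.mp
    intro a ha d hd
    exact (CommCase.commute_left hAE (hAEeq.ge hd) ha).symm
  · rw [hsup]; exact hlp.2
  · rw [Subgroup.commutator_comm]; exact hcc.1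
  · exact RootLine.special hS' hA hB.1 hD₀ hB.2 hcc hAE hAEeq (hF D₀ hD₀)

end Cfsg.Agent.S5034
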