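import Cfsg.Statements.S5035
import Cfsg.Agent.Lib.Helper26.RootMap

set_option autoImplicit false
open Cfsg

namespace Cfsg.Agent.S5035

open Cfsg.Agent.Lib.Helper26

/-- Let S be a set of abstract root subgroups of G whose graph of rank one pairs is connected, and f a homomorphism from G onto a group H. Then either the images of the members of S form a set of abstract root subgroups of H whose graph of rank one pairs is again connected, or H equals the image of a member of S. -/
theorem result {G H : Type*} [Group G] [Group H] {S : Set (Subgroup G)} (hS : Cfsg.IsRootSubgroupSet S)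
    (hc : Cfsg.IsConnectedFamily (Cfsg.FAdj S) S) (f : G →* H) (hf : Function.Surjective f) :
    (Cfsg.IsRootSubgroupSet ((fun A : Subgroup G => A.map f) '' S) ∧
      Cfsg.IsConnectedFamily (Cfsg.FAdj ((fun A : Subgroup G => A.map f) '' S)) ((fun A : Subgroup G => A.map f) '' S)) ∨
    ∃ A ∈ S, A.map f = ⊤ := by
  by_cases hbot : ∃ A ∈ S, A.map f = ⊥
  · right
    obtain ⟨A, hA, hAbot⟩ := hbot
    refine ⟨A, hA, ?_⟩
    have hall : ∀ B ∈ S, B.map f = ⊥ := by
      intro B hB
      obtain ⟨g, rfl⟩ := RootGraph.conj_of_reach (hc A hA B hB)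
      rw [map_conjBy, hAbot]
      exact Subgroup.map_bot _
    have htop : (⊤ : Subgroup H) = ⊥ := by
      rw [← Subgroup.map_top_of_surjective f hf, ← hS.generates, Subgroup.map_iSup]
      apply le_antisymm _ bot_le
      apply iSup_le
      intro B
      rw [Subgroup.map_iSup]
      apply iSup_le
      intro hB
      rw [hall B hB]
    rw [hAbot, htop]
  · left
    push Not at hbot
    refine ⟨RootSet.map f hf hS hbot, ?_⟩
    rintro _ ⟨A, hA, rfl⟩ _ ⟨B, hB, rfl⟩
    exact RootGraph.reach_map f (hc A hA B hB)

end Cfsg.Agent.S5035
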