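import Cfsg.Statements.S5038
import Cfsg.Agent.Lib.Helper26.RootLine

set_option autoImplicit false
open Cfsg

namespace Cfsg.Agent.S5038

open Cfsg.Agent.Lib.Helper26

/-- Let S be a set of abstract root subgroups of G in which every member has a rank one partner, A ∈ S and B a line partner of A. Then the subgroup generated by the members of S normalizing AB permutes the members of S inside AB doubly transitively by conjugation. -/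
theorem result {G : Type*} [Group G] {S : Set (Subgroup G)} (hS : Cfsg.IsRootSubgroupSet S)
    (hF : ∀ A ∈ S, ¬ Cfsg.IsIsolatedIn (Cfsg.FAdj S) S A) {A B : Subgroup G} (hA : A ∈ S) (hB : B ∈ Cfsg.linePartners S A) :
    ∀ C₁ ∈ Cfsg.membersIn S (A ⊔ B), ∀ C₂ ∈ Cfsg.membersIn S (A ⊔ B), ∀ D₁ ∈ Cfsg.membersIn S (A ⊔ B),
      ∀ D₂ ∈ Cfsg.membersIn S (A ⊔ B), C₁ ≠ C₂ → D₁ ≠ D₂ →
        ∃ x ∈ ⨆ E ∈ Cfsg.normalizingMembers S (A ⊔ B), E, Cfsg.conjBy C₁ x = D₁ ∧ Cfsg.conjBy C₂ x = D₂ := by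
  obtain ⟨C, hC, hro⟩ := RootSet.exists_partner (hF A hA) hA
  obtain ⟨D₀, E, hD₀, hE, hD₀A, hsup, hcc, hEdef, hAE, hAEeq, hL⟩ :=
    RootLine.exists_transitive hS hF hA hB hC hro
  obtain ⟨⟨hBS, hBA, hcomm⟩, hpart⟩ := hB
  have cAB : Cm A B := cm_iff_commutator.mpr hcomm
  have hAc : IsMulCommutative A := hS.commutative A hA
  have hBc : IsMulCommutative B := hS.commutative B hBS
  have hEc : IsMulCommutative E := hS.commutative E hE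
  have cJJ : Cm (A ⊔ B) (A ⊔ B) :=
    ((Cm.of_comm A).sup_right cAB).sup_left (cAB.symm.sup_right (Cm.of_comm B))
  have hD₀le : D₀ ≤ A ⊔ B := by rw [← hsup]; exact le_sup_right
  have hAD₀ : A ∈ linePartners S D₀ := by
    refine ⟨⟨hA, Ne.symm hD₀A, ?_⟩, ?_⟩
    · exact cm_iff_commutator.mp (cJJ.mono hD₀le le_sup_left)
    · rw [sup_comm, hsup]; exact hpart
  obtain ⟨C', hC', hro'⟩ := RootSet.exists_partner (hF D₀ hD₀) hD₀
  obtain ⟨Q₁, E₁, hQ₁, hE₁, hQ₁D₀, hsup₁, hcc₁, hE₁def, hD₀E₁, hD₀E₁eq, hL₁⟩ :=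
    RootLine.exists_transitive hS hF hD₀ hAD₀ hC' hro'
  have hN : D₀ ⊔ A = A ⊔ B := by rw [sup_comm, hsup]
  rw [hN] at hL₁
  have hEn : E ≤ Subgroup.normalizer ((A ⊔ B : Subgroup G) : Set G) :=
    RootLine.le_normalizer hAE hAEeq hsup
  have hE₁n : E₁ ≤ Subgroup.normalizer ((A ⊔ B : Subgroup G) : Set G) :=
    RootLine.le_normalizer hD₀E₁ hD₀E₁eq (hsup₁.trans hN)
  have hE_M : E ≤ ⨆ E' ∈ Cfsg.normalizingMembers S (A ⊔ B), E' :=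
    le_biSup (fun E' : Subgroup G => E') (show E ∈ Cfsg.normalizingMembers S (A ⊔ B) from ⟨hE, hEn⟩)
  have hE₁_M : E₁ ≤ ⨆ E' ∈ Cfsg.normalizingMembers S (A ⊔ B), E' :=
    le_biSup (fun E' : Subgroup G => E')
      (show E₁ ∈ Cfsg.normalizingMembers S (A ⊔ B) from ⟨hE₁, hE₁n⟩)
  have hMn : (⨆ E' ∈ Cfsg.normalizingMembers S (A ⊔ B), E') ≤
      Subgroup.normalizer ((A ⊔ B : Subgroup G) : Set G) :=
    iSup₂_le (fun E' hE' => hE'.2)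
  have hLconj : ∀ x ∈ ⨆ E' ∈ Cfsg.normalizingMembers S (A ⊔ B), E',
      ∀ P ∈ membersIn S (A ⊔ B), conjBy P x ∈ membersIn S (A ⊔ B) := by
    intro x hx P hP
    refine ⟨hS.conj_mem P hP.1 x, ?_⟩
    have := conjBy_mono hP.2 x
    rwa [conjBy_eq_self_iff.mpr (hMn hx)] at this
  have mA : ∀ P ∈ membersIn S (A ⊔ B), P ≠ D₀ → ∃ e ∈ E, conjBy A e = P := by
    intro P hP hPD
    rw [hL] at hP
    rcases hP with ⟨e, he, rfl⟩ | hP
    · exact ⟨e, he, rfl⟩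
    · exact absurd hP hPD
  have mD : ∀ P ∈ membersIn S (A ⊔ B), P ≠ Q₁ → ∃ e ∈ E₁, conjBy D₀ e = P := by
    intro P hP hPD
    rw [hL₁] at hP
    rcases hP with ⟨e, he, rfl⟩ | hP
    · exact ⟨e, he, rfl⟩
    · exact absurd hP hPD
  have fixD₀ : ∀ e ∈ E, conjBy D₀ e = D₀ := by
    intro e he
    apply conjBy_eq_self_iff.mpr
    have cED₀ : Cm E D₀ := by
      intro e he d hd
      have hd' : d ∈ ⁅A, E⁆ := by rw [hAEeq]; exact hd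
      exact (CommCase.commute_right hAE hd' he).symm
    exact cED₀.le_normalizer he
  have T1 : ∀ P ∈ membersIn S (A ⊔ B),
      ∃ x ∈ ⨆ E' ∈ Cfsg.normalizingMembers S (A ⊔ B), E', conjBy P x = D₀ := by
    intro P hP
    by_cases hPD₀ : P = D₀
    · exact ⟨1, Subgroup.one_mem _, by rw [conjBy_one, hPD₀]⟩
    by_cases hPQ₁ : P = Q₁
    · obtain ⟨e₀, he₀, hPe₀⟩ := mA P hP hPD₀
      obtain ⟨e', he', he'1⟩ := RootSet.exists_ne_one hS hE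
      have hP' : conjBy P e' ∈ membersIn S (A ⊔ B) := hLconj e' (hE_M he') P hP
      have hP'D₀ : conjBy P e' ≠ D₀ := by
        intro h
        apply hPD₀
        rw [conjBy_eq_iff.mp h, fixD₀ e'⁻¹ (E.inv_mem he')]
      have hP'Q₁ : conjBy P e' ≠ Q₁ := by
        rw [← hPQ₁]
        intro h
        rw [← hPe₀, conjBy_conjBy] at h
        have hcomm' : e' * e₀ = e₀ * e' := setLike_mul_comm he' he₀
        rw [hcomm', ← conjBy_conjBy] at h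
        have h2 : conjBy A e' = A := conjBy_injective e₀ h
        exact RootLine.conj_ne_self hS (hF A hA) hA hAE he' he'1 h2
      obtain ⟨e₁, he₁, hD₀e₁⟩ := mD _ hP' hP'Q₁
      refine ⟨e₁⁻¹ * e', Subgroup.mul_mem _ (Subgroup.inv_mem _ (hE₁_M he₁)) (hE_M he'), ?_⟩
      rw [← conjBy_conjBy, ← hD₀e₁, conjBy_inv_conjBy]
    · obtain ⟨e₁, he₁, hD₀e₁⟩ := mD P hP hPQ₁
      exact ⟨e₁⁻¹, Subgroup.inv_mem _ (hE₁_M he₁), by rw [← hD₀e₁, conjBy_inv_conjBy]⟩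
  have T2 : ∀ P₁ ∈ membersIn S (A ⊔ B), ∀ P₂ ∈ membersIn S (A ⊔ B), P₁ ≠ P₂ →
      ∃ x ∈ ⨆ E' ∈ Cfsg.normalizingMembers S (A ⊔ B), E', conjBy P₁ x = D₀ ∧ conjBy P₂ x = A := by
    intro P₁ hP₁ P₂ hP₂ hne
    obtain ⟨x₁, hx₁, hx₁'⟩ := T1 P₁ hP₁
    have hP₂' : conjBy P₂ x₁ ∈ membersIn S (A ⊔ B) := hLconj x₁ hx₁ P₂ hP₂
    have hne' : conjBy P₂ x₁ ≠ D₀ := by
      rw [← hx₁']
      intro h
      exact hne (conjBy_injective x₁ h).symm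
    obtain ⟨e, he, hAe⟩ := mA _ hP₂' hne'
    refine ⟨e⁻¹ * x₁, Subgroup.mul_mem _ (Subgroup.inv_mem _ (hE_M he)) hx₁, ?_, ?_⟩
    · rw [← conjBy_conjBy, hx₁', fixD₀ e⁻¹ (E.inv_mem he)]
    · rw [← conjBy_conjBy, ← hAe, conjBy_inv_conjBy]
  intro C₁ hC₁ C₂ hC₂ D₁ hD₁ D₂ hD₂ hCne hDne
  obtain ⟨x, hx, hx1, hx2⟩ := T2 C₁ hC₁ C₂ hC₂ hCne
  obtain ⟨y, hy, hy1, hy2⟩ := T2 D₁ hD₁ D₂ hD₂ hDne
  refine ⟨y⁻¹ * x, Subgroup.mul_mem _ (Subgroup.inv_mem _ hy) hx, ?_, ?_⟩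
  · rw [← conjBy_conjBy, hx1, ← hy1, conjBy_inv_conjBy]
  · rw [← conjBy_conjBy, hx2, ← hy2, conjBy_inv_conjBy]

end Cfsg.Agent.S5038
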