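import Mathlib
import Cfsg.Statements.S5045
import Cfsg.Agent.S0199

set_option autoImplicit false
open Cfsg

namespace Cfsg.Agent.S5045

universe u

variable {G : Type u} [Group G]

/-- Two involutions whose product has order dividing four generate a 2-group. -/
theorem isPGroup_pair (x y : G) (hx : x * x = 1) (hy : y * y = 1) (hxy : (x * y) ^ 4 = 1) :
    IsPGroup 2 (Subgroup.closure ({x, y} : Set G)) := by
  have hxi : x⁻¹ = x := inv_eq_of_mul_eq_one_left hx
  have hyi : y⁻¹ = y := inv_eq_of_mul_eq_one_left hy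
  have hconj : ∀ i : ℤ, x * (x * y) ^ i = (x * y) ^ (-i) * x := by
    intro i
    have h1 : x * (x * y) * x⁻¹ = (x * y)⁻¹ := by
      rw [mul_inv_rev, hxi, hyi]
      calc x * (x * y) * x = (x * x) * y * x := by group
        _ = y * x := by rw [hx, one_mul]
    have h2 : x * (x * y) ^ i * x⁻¹ = ((x * y)⁻¹) ^ i := by rw [← h1, conj_zpow]
    rw [hxi] at h2
    calc x * (x * y) ^ i = (x * (x * y) ^ i * x) * x := by rw [mul_assoc _ x x, hx, mul_one]
      _ = (x * y) ^ (-i) * x := by rw [h2, inv_zpow, zpow_neg]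
  have key : ∀ g ∈ Subgroup.closure ({x, y} : Set G),
      ∃ i : ℤ, g = (x * y) ^ i ∨ g = (x * y) ^ i * x := by
    intro g hg
    induction hg using Subgroup.closure_induction with
    | mem g hg =>
      rcases hg with rfl | rfl
      · exact ⟨0, Or.inr (by simp)⟩
      · refine ⟨-1, Or.inr ?_⟩
        rw [zpow_neg, zpow_one, mul_inv_rev, hxi, hyi, mul_assoc, hx, mul_one]
    | one => exact ⟨0, Or.inl (by simp)⟩
    | mul g h _ _ ihg ihh =>
      obtain ⟨i, hi | hi⟩ := ihg <;> obtain ⟨j, hj | hj⟩ := ihh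
      · exact ⟨i + j, Or.inl (by rw [hi, hj, zpow_add])⟩
      · exact ⟨i + j, Or.inr (by rw [hi, hj, zpow_add, mul_assoc])⟩
      · refine ⟨i + -j, Or.inr ?_⟩
        rw [hi, hj, mul_assoc, hconj j, ← mul_assoc, zpow_add]
      · refine ⟨i + -j, Or.inl ?_⟩
        rw [hi, hj, mul_assoc, ← mul_assoc x, hconj j, mul_assoc _ x x, hx, mul_one, zpow_add]
    | inv g _ ihg =>
      obtain ⟨i, hi | hi⟩ := ihg
      · exact ⟨-i, Or.inl (by rw [hi, zpow_neg])⟩
      · refine ⟨i, Or.inr ?_⟩
        rw [hi, mul_inv_rev, hxi, ← zpow_neg, hconj (-i), neg_neg]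
  intro g
  refine ⟨2, ?_⟩
  apply Subtype.ext
  obtain ⟨i, hi | hi⟩ := key g.1 g.2
  · show (g.1) ^ (2 ^ 2) = 1
    rw [hi, ← zpow_natCast, ← zpow_mul, mul_comm, zpow_mul, zpow_natCast]
    norm_num
    rw [hxy, one_zpow]
  · show (g.1) ^ (2 ^ 2) = 1
    have h2 : ((x * y) ^ i * x) * ((x * y) ^ i * x) = 1 := by
      rw [mul_assoc, ← mul_assoc x, hconj i, mul_assoc _ x x, hx, mul_one, ← zpow_add]
      simp
    rw [hi]
    have h3 : ((x * y) ^ i * x) ^ 2 = 1 := by rw [pow_two]; exact h2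
    have h4 : (2 : ℕ) ^ 2 = 2 * 2 := by norm_num
    rw [h4, pow_mul, h3, one_pow]

theorem orderOf_mul_comm' (a b : G) : orderOf (a * b) = orderOf (b * a) := by
  have h := (MulAut.conj b).orderOf_eq (a * b)
  have h2 : (MulAut.conj b) (a * b) = b * a := by
    rw [MulAut.conj_apply]; group
  rw [h2] at h
  exact h.symm

theorem eq_one_of_odd_two_pow {r : G} (hodd : Odd (orderOf r)) {n : ℕ} (h : r ^ (2 ^ n) = 1) :
    r = 1 := by
  have hdvd := orderOf_dvd_of_pow_eq_one h
  obtain ⟨j, -, hj⟩ := (Nat.dvd_prime_pow Nat.prime_two).1 hdvd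
  rcases j with _ | j
  · rw [pow_zero] at hj
    exact orderOf_eq_one_iff.mp hj
  · rw [hj, pow_succ] at hodd
    exact absurd (Nat.odd_mul.mp hodd).2 (by decide)

theorem eq_one_of_odd_pow_four {r : G} (hodd : Odd (orderOf r)) (h : r ^ 4 = 1) : r = 1 :=
  eq_one_of_odd_two_pow hodd (n := 2) (by norm_num; exact h)

/-- For involutions `p, q` with `(p q)^4 = 1`, the square `(p q)^2` commutes with `p` and `q`. -/
theorem sq_comm {p q : G} (hp : p * p = 1) (hq : q * q = 1) (h4 : (p * q) ^ 4 = 1) :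
    p * (p * q) ^ 2 = (p * q) ^ 2 * p ∧ q * (p * q) ^ 2 = (p * q) ^ 2 * q := by
  have hpi : p⁻¹ = p := inv_eq_of_mul_eq_one_left hp
  have hqi : q⁻¹ = q := inv_eq_of_mul_eq_one_left hq
  have h2 : (q * p) ^ 2 = (p * q) ^ 2 := by
    have h1 : q * p = (p * q)⁻¹ := by rw [mul_inv_rev, hpi, hqi]
    rw [h1, inv_pow]
    apply inv_eq_of_mul_eq_one_left
    rw [← pow_add]
    exact h4
  constructor
  · calc p * (p * q) ^ 2 = p * ((q * p) * (q * p)) := by rw [← h2, pow_two]
      _ = ((p * q) * (p * q)) * p := by simp only [mul_assoc]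
      _ = (p * q) ^ 2 * p := by rw [← pow_two]
  · calc q * (p * q) ^ 2 = q * ((p * q) * (p * q)) := by rw [pow_two]
      _ = ((q * p) * (q * p)) * q := by simp only [mul_assoc]
      _ = (p * q) ^ 2 * q := by rw [← pow_two, h2]

section root

variable {D : Set G}

theorem sq_one (hD : Cfsg.IsRootInvolutionSet D) {d : G} (hd : d ∈ D) : d * d = 1 := by
  have h := pow_orderOf_eq_one d
  rw [hD.orderOf_eq d hd, pow_two] at h
  exact h

theorem ne_one' (hD : Cfsg.IsRootInvolutionSet D) {d : G} (hd : d ∈ D) : d ≠ 1 := by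
  intro h
  have h2 := hD.orderOf_eq d hd
  rw [h, orderOf_one] at h2
  omega

theorem inv_eq' (hD : Cfsg.IsRootInvolutionSet D) {d : G} (hd : d ∈ D) : d⁻¹ = d :=
  inv_eq_of_mul_eq_one_left (sq_one hD hd)

theorem oddAdj_symm {a b : G} (h : Cfsg.OddAdj D a b) : Cfsg.OddAdj D b a :=
  ⟨h.2.1, h.1, h.2.2.1.symm, by rw [orderOf_mul_comm' b a]; exact h.2.2.2⟩

theorem rtg_symm {a b : G} (h : Relation.ReflTransGen (Cfsg.OddAdj D) a b) :
    Relation.ReflTransGen (Cfsg.OddAdj D) b a := by
  induction h with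
  | refl => exact Relation.ReflTransGen.refl
  | tail _ hbc ih => exact Relation.ReflTransGen.head (oddAdj_symm hbc) ih

theorem comp_eq_of_rtg {a b : G} (h : Relation.ReflTransGen (Cfsg.OddAdj D) a b) :
    Cfsg.elemComponentOf (Cfsg.OddAdj D) D a = Cfsg.elemComponentOf (Cfsg.OddAdj D) D b := by
  ext d
  constructor
  · rintro ⟨hd, hr⟩
    exact ⟨hd, (rtg_symm h).trans hr⟩
  · rintro ⟨hd, hr⟩
    exact ⟨hd, h.trans hr⟩

theorem exists_adj_of_comp {a : G}
    (h : ∃ a' ∈ Cfsg.elemComponentOf (Cfsg.OddAdj D) D a, a' ≠ a) : ∃ e, Cfsg.OddAdj D a e := by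
  obtain ⟨a', ⟨-, hr⟩, hne⟩ := h
  rcases Relation.ReflTransGen.cases_head hr with h | ⟨c, hac, -⟩
  · exact absurd h.symm hne
  · exact ⟨c, hac⟩

/-- (alpha) If `x` commutes with `a`, `x a ∈ D` and `a e` has odd order (`a ≠ e`), then `x` does
not commute with `e`. -/
theorem alpha (hD : Cfsg.IsRootInvolutionSet D) {a e x : G} (ha : a ∈ D) (he : e ∈ D)
    (hx : x ∈ D) (hae : a ≠ e) (hodd : Odd (orderOf (a * e))) (hxa : x * a = a * x)
    (hxaD : x * a ∈ D) : x * e ≠ e * x := by
  intro hxe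
  have haa := sq_one hD ha
  have hee := sq_one hD he
  have hxx := sq_one hD hx
  have hai := inv_eq' hD ha
  have hei := inv_eq' hD he
  obtain ⟨k, hk⟩ := hodd
  have hrl : (a * e) ^ (2 * k + 1) = 1 := by rw [← hk]; exact pow_orderOf_eq_one _
  have harinv : a * (a * e) * a⁻¹ = (a * e)⁻¹ := by
    rw [mul_inv_rev, hai, hei, ← mul_assoc, haa, one_mul]
  have h1 : a * (a * e) ^ k * a⁻¹ = ((a * e) ^ k)⁻¹ := by rw [← conj_pow, harinv, inv_pow]
  have h2 : (a * e) ^ k * a * ((a * e) ^ k)⁻¹ = e := by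
    rw [← h1]
    calc (a * e) ^ k * a * (a * (a * e) ^ k * a⁻¹)
        = (a * e) ^ k * (a * a) * (a * e) ^ k * a⁻¹ := by simp only [mul_assoc]
      _ = (a * e) ^ (2 * k) * a := by rw [haa, mul_one, ← pow_add, hai, two_mul]
      _ = (a * e)⁻¹ * a := by
          have h3 : (a * e) ^ (2 * k) = (a * e)⁻¹ := by
            rw [eq_inv_iff_mul_eq_one, ← pow_succ]
            exact hrl
          rw [h3]
      _ = e := by rw [mul_inv_rev, hai, hei, mul_assoc, haa, mul_one]
  have hxr : Commute x (a * e) := by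
    show x * (a * e) = a * e * x
    rw [← mul_assoc, hxa, mul_assoc, hxe, mul_assoc]
  have hxh : Commute x ((a * e) ^ k) := hxr.pow_right k
  have hexD : e * x ∈ D := by
    have h3 := hD.conj_mem (x * a) hxaD ((a * e) ^ k)
    have h4 : (a * e) ^ k * (x * a) * ((a * e) ^ k)⁻¹ = e * x := by
      rw [hxa]
      calc (a * e) ^ k * (a * x) * ((a * e) ^ k)⁻¹
          = ((a * e) ^ k * a) * (x * ((a * e) ^ k)⁻¹) := by simp only [mul_assoc]
        _ = ((a * e) ^ k * a) * (((a * e) ^ k)⁻¹ * x) := by rw [(hxh.inv_right).eq]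
        _ = ((a * e) ^ k * a * ((a * e) ^ k)⁻¹) * x := by simp only [mul_assoc]
        _ = e * x := by rw [h2]
    rw [h4] at h3
    exact h3
  have hrne : a * e ≠ 1 := by
    intro h
    apply hae
    have h3 : a⁻¹ = e := inv_eq_of_mul_eq_one_right h
    rw [← h3, hai]
  have hzpow : ∀ n : ℕ, (a * e * x) ^ n = (a * e) ^ n * x ^ n := fun n => (hxr.symm).mul_pow n
  rcases hD.pair a ha (e * x) hexD with hc | hc | ⟨hc, -⟩
  · apply hrne
    have h5 : a * e = e * a := by
      have h6 : a * e * x = e * a * x := by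
        calc a * e * x = a * (e * x) := by rw [mul_assoc]
          _ = e * x * a := hc
          _ = e * a * x := by rw [mul_assoc, hxa, mul_assoc]
      exact mul_right_cancel h6
    have h7 : (a * e) ^ 2 = 1 := by
      rw [pow_two]
      nth_rewrite 2 [h5]
      rw [mul_assoc, ← mul_assoc e, hee, one_mul, haa]
    apply eq_one_of_odd_pow_four ⟨k, hk⟩
    calc (a * e) ^ 4 = ((a * e) ^ 2) ^ 2 := by rw [← pow_mul]
      _ = 1 := by rw [h7, one_pow]
  · rw [← mul_assoc] at hc
    obtain ⟨j, hj⟩ := hc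
    have h5 : (a * e * x) ^ (2 * j + 1) = 1 := by rw [← hj]; exact pow_orderOf_eq_one _
    rw [hzpow] at h5
    have hxodd : ∀ m : ℕ, x ^ (2 * m + 1) = x := by
      intro m
      rw [pow_succ, pow_mul, pow_two, hxx, one_pow, one_mul]
    rw [hxodd] at h5
    have h6 : x = ((a * e) ^ (2 * j + 1))⁻¹ := (inv_eq_of_mul_eq_one_right h5).symm
    have h7 : x ^ (2 * k + 1) = 1 := by
      rw [h6, inv_pow, ← pow_mul, mul_comm, pow_mul, hrl, one_pow, inv_one]
    rw [hxodd] at h7
    exact ne_one' hD hx h7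
  · rw [← mul_assoc] at hc
    apply hrne
    have h5 : (a * e * x) ^ 4 = 1 := by rw [← hc]; exact pow_orderOf_eq_one _
    rw [hzpow] at h5
    have hx4 : x ^ 4 = 1 := by
      have h6 : x ^ 4 = (x ^ 2) ^ 2 := by rw [← pow_mul]
      rw [h6, pow_two x, hxx, one_pow]
    rw [hx4, mul_one] at h5
    exact eq_one_of_odd_pow_four ⟨k, hk⟩ h5

/-- The square of a product of order four of two members of `D` lies in `D`. -/
theorem sq_mem (hD : Cfsg.IsRootInvolutionSet D) {p q : G} (hp : p ∈ D) (hq : q ∈ D)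
    (h4 : orderOf (p * q) = 4) : (p * q) ^ 2 ∈ D := by
  rcases hD.pair p hp q hq with hc | hc | ⟨-, hc⟩
  · exfalso
    have h1 : (p * q) ^ 2 = 1 := by
      rw [pow_two]
      calc p * q * (p * q) = p * (q * p) * q := by simp only [mul_assoc]
        _ = p * (p * q) * q := by rw [hc]
        _ = (p * p) * (q * q) := by simp only [mul_assoc]
        _ = 1 := by rw [sq_one hD hp, sq_one hD hq, one_mul]
    have h2 := orderOf_dvd_of_pow_eq_one h1
    rw [h4] at h2
    norm_num at h2
  · exfalso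
    rw [h4] at hc
    exact absurd hc (by decide)
  · exact hc

/-- (beta) With `x` commuting with `a`, `x a ∈ D` and `a e` of odd order, the products `x e` and
`(x a) e` cannot both have order four. -/
theorem beta (hD : Cfsg.IsRootInvolutionSet D) {a e x : G} (ha : a ∈ D) (he : e ∈ D)
    (hx : x ∈ D) (hae : a ≠ e) (hodd : Odd (orderOf (a * e))) (hxa : x * a = a * x)
    (hxaD : x * a ∈ D) (h4 : orderOf (x * e) = 4) (h4' : orderOf (x * a * e) = 4) : False := by
  have haa := sq_one hD ha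
  have hee := sq_one hD he
  have hxx := sq_one hD hx
  have hyy := sq_one hD hxaD
  have hai := inv_eq' hD ha
  have hei := inv_eq' hD he
  have hcD : (x * e) ^ 2 ∈ D := sq_mem hD hx he h4
  have hc'D : (x * a * e) ^ 2 ∈ D := sq_mem hD hxaD he h4'
  have hxe4 : (x * e) ^ 4 = 1 := by rw [← h4]; exact pow_orderOf_eq_one _
  have hye4 : (x * a * e) ^ 4 = 1 := by rw [← h4']; exact pow_orderOf_eq_one _
  obtain ⟨hcx, hce⟩ := sq_comm hxx hee hxe4
  obtain ⟨-, hc'e⟩ := sq_comm hyy hee hye4
  generalize hcdef : (x * e) ^ 2 = c at hcD hcx hce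
  generalize hc'def : (x * a * e) ^ 2 = c' at hc'D hc'e
  have hcc : c * c = 1 := sq_one hD hcD
  have hc'c' : c' * c' = 1 := sq_one hD hc'D
  have hci : c⁻¹ = c := inv_eq' hD hcD
  -- x e x = c e and y e y = c' e
  have hxex : x * e * x = c * e := by
    rw [← hcdef, pow_two]
    simp only [mul_assoc]
    rw [hee, mul_one]
  have hyey : x * a * e * (x * a) = c' * e := by
    rw [← hc'def, pow_two]
    simp only [mul_assoc]
    rw [hee, mul_one]
  have h3 : c' * e = a * (c * e) * a := by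
    rw [← hyey, ← hxex]
    nth_rewrite 1 [hxa]
    simp only [mul_assoc]
  have h4a : a * c' * a = c * (e * a) ^ 2 := by
    have h5 : c' = a * (c * e) * a * e := by rw [← h3, mul_assoc, hee, mul_one]
    rw [h5, pow_two]
    calc a * (a * (c * e) * a * e) * a = (a * a) * (c * e) * a * e * a := by simp only [mul_assoc]
      _ = c * (e * a * (e * a)) := by rw [haa, one_mul]; simp only [mul_assoc]
  have h5 : (c * (e * a) ^ 2) * (c * (e * a) ^ 2) = 1 := by
    rw [← h4a]
    calc a * c' * a * (a * c' * a) = a * c' * (a * a) * c' * a := by simp only [mul_assoc]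
      _ = 1 := by rw [haa, mul_one, mul_assoc a, hc'c', mul_one, haa]
  have ht_r : e * a = (a * e)⁻¹ := by rw [mul_inv_rev, hei, hai]
  have htodd : Odd (orderOf (e * a)) := by rw [ht_r, orderOf_inv]; exact hodd
  generalize htdef : e * a = t at h4a h5 ht_r htodd
  obtain ⟨k, hk⟩ := htodd
  have htl : t ^ (2 * k + 1) = 1 := by rw [← hk]; exact pow_orderOf_eq_one t
  have hu : ∀ n : ℕ, (c * t * c) ^ n = c * t ^ n * c := by
    intro n
    have h6 := conj_pow (a := c) (b := t) (i := n)
    rw [hci] at h6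
    exact h6
  have h6 : (c * t * c) ^ 2 = (t ^ 2)⁻¹ := by
    rw [hu]
    apply eq_inv_of_mul_eq_one_left
    rw [← h5]
    simp only [mul_assoc]
  have hul : (c * t * c) ^ (2 * k + 1) = 1 := by rw [hu, htl, mul_one, hcc]
  have h7 : c * t * c = t⁻¹ := by
    have hn : 2 * (k + 1) = (2 * k + 1) + 1 := by ring
    have e1 : c * t * c = ((c * t * c) ^ 2) ^ (k + 1) := by
      rw [← pow_mul, hn, pow_succ, hul, one_mul]
    have e2 : t⁻¹ = ((t ^ 2)⁻¹) ^ (k + 1) := by
      rw [inv_pow, ← pow_mul, hn, pow_succ, htl, one_mul]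
    rw [e1, h6, ← e2]
  have h8 : c * a * c = t ^ 2 * a := by
    have e1 : e = t * a := by rw [← htdef, mul_assoc, haa, mul_one]
    have e2 : c * e * c = e := by rw [← hce, mul_assoc, hcc, mul_one]
    have e3 : (c * t * c) * (c * a * c) = t * a := by
      calc (c * t * c) * (c * a * c) = c * t * (c * c) * a * c := by simp only [mul_assoc]
        _ = c * (t * a) * c := by rw [hcc, mul_one]; simp only [mul_assoc]
        _ = t * a := by rw [← e1, e2]
    rw [h7] at e3
    have e4 : c * a * c = t * (t * a) := by rw [← e3, ← mul_assoc, mul_inv_cancel, one_mul]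
    rw [e4, pow_two, mul_assoc]
  have h9 : (a * c) ^ 2 = a * t ^ 2 * a := by
    rw [pow_two]
    calc a * c * (a * c) = a * (c * a * c) := by simp only [mul_assoc]
      _ = a * t ^ 2 * a := by rw [h8, mul_assoc]
  have htne : t ≠ 1 := by
    intro h
    apply hae
    rw [← htdef] at h
    have e1 : a = e⁻¹ := eq_inv_of_mul_eq_one_right h
    rw [e1, hei]
  have hfin : t ^ 2 * a = a → False := by
    intro h
    apply htne
    have ht2 : t ^ 2 = 1 := mul_right_cancel (h.trans (one_mul a).symm)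
    apply eq_one_of_odd_pow_four ⟨k, hk⟩
    calc t ^ 4 = (t ^ 2) ^ 2 := by rw [← pow_mul]
      _ = 1 := by rw [ht2, one_pow]
  rcases hD.pair a ha c hcD with hcomm | hodd' | ⟨h44, -⟩
  · apply hfin
    rw [← h8, ← hcomm, mul_assoc, hcc, mul_one]
  · have hac : a ≠ c := by
      intro h
      apply hfin
      rw [← h8, ← h, haa, one_mul]
    exact alpha hD ha hcD hx hac hodd' hxa hxaD hcx
  · apply htne
    have e1 : (a * c) ^ 4 = 1 := by rw [← h44]; exact pow_orderOf_eq_one _
    have e2 : ((a * c) ^ 2) ^ 2 = 1 := by rw [← pow_mul]; exact e1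
    rw [h9, pow_two] at e2
    have e3 : a * t ^ 2 * a * (a * t ^ 2 * a) = a * (t ^ 2 * t ^ 2) * a := by
      calc a * t ^ 2 * a * (a * t ^ 2 * a) = a * t ^ 2 * (a * a) * t ^ 2 * a := by
            simp only [mul_assoc]
        _ = a * (t ^ 2 * t ^ 2) * a := by rw [haa, mul_one]; simp only [mul_assoc]
    rw [e3, ← pow_add] at e2
    have e4 : t ^ (2 + 2) = (a * a) * t ^ (2 + 2) * (a * a) := by rw [haa, one_mul, mul_one]
    have e5 : (a * a) * t ^ (2 + 2) * (a * a) = a * (a * t ^ (2 + 2) * a) * a := by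
      simp only [mul_assoc]
    apply eq_one_of_odd_pow_four ⟨k, hk⟩
    show t ^ (2 + 2) = 1
    rw [e4, e5, e2, mul_one, haa]

/-- A product partner of `a` lies in the component of `a` or is isolated, when `a` has a
neighbour. -/
theorem part6 (hD : Cfsg.IsRootInvolutionSet D) {a e : G} (ha : a ∈ D)
    (hae : Cfsg.OddAdj D a e) {x : G} (hx : x ∈ Cfsg.productPartners D a) :
    x ∈ Cfsg.elemComponentOf (Cfsg.OddAdj D) D a ∨ Cfsg.IsIsolatedElem (Cfsg.OddAdj D) D x := by
  obtain ⟨⟨hxD, hxa, hxne⟩, hxaD⟩ := hx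
  by_cases hiso : Cfsg.IsIsolatedElem (Cfsg.OddAdj D) D x
  · exact Or.inr hiso
  left
  have hf : ∃ f, Cfsg.OddAdj D x f := by
    by_contra hcon
    push Not at hcon
    exact hiso ⟨hxD, fun b => ⟨hcon b, fun h => hcon b (oddAdj_symm h)⟩⟩
  obtain ⟨f, hxf⟩ := hf
  have haa := sq_one hD ha
  have hxx := sq_one hD hxD
  obtain ⟨-, heD, hane, hodd⟩ := hae
  have hae' : Cfsg.OddAdj D a e := ⟨ha, heD, hane, hodd⟩
  -- `x` and `x a` do not commute with `e`
  have hxe_nc : x * e ≠ e * x := alpha hD ha heD hxD hane hodd hxa hxaD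
  have hya : x * a * a = a * (x * a) := by
    rw [mul_assoc, haa, mul_one, ← mul_assoc, ← hxa, mul_assoc, haa, mul_one]
  have hyaD : x * a * a ∈ D := by rw [mul_assoc, haa, mul_one]; exact hxD
  have hye_nc : x * a * e ≠ e * (x * a) := alpha hD ha heD hxaD hane hodd hya hyaD
  rcases hD.pair x hxD e heD with hc | hc | ⟨hc, -⟩
  · exact absurd hc hxe_nc
  · -- x ~ e ~ a
    have hxe : Cfsg.OddAdj D x e := ⟨hxD, heD, fun h => hxe_nc (by rw [h]), hc⟩
    exact ⟨hxD, (Relation.ReflTransGen.single hae').tail (oddAdj_symm hxe)⟩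
  · rcases hD.pair (x * a) hxaD e heD with hc2 | hc2 | ⟨hc2, -⟩
    · exact absurd hc2 hye_nc
    · -- y ~ e ~ a, now use f
      have hye : Cfsg.OddAdj D (x * a) e := ⟨hxaD, heD, fun h => hye_nc (by rw [h]), hc2⟩
      have hay : Relation.ReflTransGen (Cfsg.OddAdj D) a (x * a) :=
        (Relation.ReflTransGen.single hae').tail (oddAdj_symm hye)
      obtain ⟨-, hfD, hxfne, hoddf⟩ := hxf
      have hxf' : Cfsg.OddAdj D x f := ⟨hxD, hfD, hxfne, hoddf⟩
      -- roles: a := x, e := f, x := a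
      have haxD : a * x ∈ D := by rw [← hxa]; exact hxaD
      have haf_nc : a * f ≠ f * a := alpha hD hxD hfD ha hxfne hoddf hxa.symm haxD
      have hzx : a * x * x = x * (a * x) := by
        rw [mul_assoc, hxx, mul_one, ← mul_assoc, hxa, mul_assoc, hxx, mul_one]
      have hzxD : a * x * x ∈ D := by rw [mul_assoc, hxx, mul_one]; exact ha
      have hzf_nc : a * x * f ≠ f * (a * x) := alpha hD hxD hfD haxD hxfne hoddf hzx hzxD
      rcases hD.pair a ha f hfD with hc3 | hc3 | ⟨hc3, -⟩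
      · exact absurd hc3 haf_nc
      · -- a ~ f ~ x
        have haf : Cfsg.OddAdj D a f := ⟨ha, hfD, fun h => haf_nc (by rw [h]), hc3⟩
        exact ⟨hxD, (Relation.ReflTransGen.single haf).tail (oddAdj_symm hxf')⟩
      · rcases hD.pair (a * x) haxD f hfD with hc4 | hc4 | ⟨hc4, -⟩
        · exact absurd hc4 hzf_nc
        · -- a ~* y ~ f ~ x
          have hyf : Cfsg.OddAdj D (x * a) f := by
            rw [hxa]
            exact ⟨haxD, hfD, fun h => hzf_nc (by rw [h]), hc4⟩
          exact ⟨hxD, (hay.tail hyf).tail (oddAdj_symm hxf')⟩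
        · exact (beta hD hxD hfD ha hxfne hoddf hxa.symm haxD hc3 hc4).elim
    · exact (beta hD ha heD hxD hane hodd hxa hxaD hc hc2).elim

theorem conj_isolated (hD : Cfsg.IsRootInvolutionSet D) {w : G}
    (hw : Cfsg.IsIsolatedElem (Cfsg.OddAdj D) D w) (g : G) :
    Cfsg.IsIsolatedElem (Cfsg.OddAdj D) D (g * w * g⁻¹) := by
  refine ⟨hD.conj_mem w hw.1 g, fun b => ?_⟩
  have key : ∀ b, ¬ Cfsg.OddAdj D (g * w * g⁻¹) b := by
    intro b hb
    obtain ⟨-, hbD, hne, hodd⟩ := hb
    apply (hw.2 (g⁻¹ * b * g)).1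
    refine ⟨hw.1, ?_, ?_, ?_⟩
    · have h1 := hD.conj_mem b hbD g⁻¹
      rwa [inv_inv] at h1
    · intro h
      apply hne
      rw [h]
      group
    · have h2 : w * (g⁻¹ * b * g) = (MulAut.conj g⁻¹) (g * w * g⁻¹ * b) := by
        rw [MulAut.conj_apply, inv_inv]
        group
      rw [h2, MulEquiv.orderOf_eq]
      exact hodd
  exact ⟨key b, fun h => key b (oddAdj_symm h)⟩

end root

/-- Let G be a finite group generated by a set D of root involutions, and W the set of members of D whose product with every other member of D has even order or is trivial (the isolated vertices of the odd-order-product graph on D). Then W is conjugation-invariant and generates a normal 2-subgroup of G meeting D in exactly W; the commutator of two members of D lying in different connected components of that graph, each with more than one member, lies in the subgroup generated by W; and for a in such a component, every member of D commuting with a, different from a and with product with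 a in D, lies in that component or in W. -/
theorem result {G : Type*} [Group G] [Finite G] {D : Set G} (hD : Cfsg.IsRootInvolutionSet D) :
    (∀ w ∈ {w | Cfsg.IsIsolatedElem (Cfsg.OddAdj D) D w}, ∀ g : G, g * w * g⁻¹ ∈ {w | Cfsg.IsIsolatedElem (Cfsg.OddAdj D) D w}) ∧
    (Subgroup.closure {w | Cfsg.IsIsolatedElem (Cfsg.OddAdj D) D w}).Normal ∧
    IsPGroup 2 ↥(Subgroup.closure {w | Cfsg.IsIsolatedElem (Cfsg.OddAdj D) D w}) ∧
    (Subgroup.closure {w | Cfsg.IsIsolatedElem (Cfsg.OddAdj D) D w} : Set G) ∩ D = {w | Cfsg.IsIsolatedElem (Cfsg.OddAdj D) D w} ∧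
    (∀ a ∈ D, ∀ b ∈ D, (∃ a' ∈ Cfsg.elemComponentOf (Cfsg.OddAdj D) D a, a' ≠ a) →
      (∃ b' ∈ Cfsg.elemComponentOf (Cfsg.OddAdj D) D b, b' ≠ b) →
      Cfsg.elemComponentOf (Cfsg.OddAdj D) D a ≠ Cfsg.elemComponentOf (Cfsg.OddAdj D) D b →
        a * b * a⁻¹ * b⁻¹ ∈ Subgroup.closure {w | Cfsg.IsIsolatedElem (Cfsg.OddAdj D) D w}) ∧
    (∀ a ∈ D, (∃ a' ∈ Cfsg.elemComponentOf (Cfsg.OddAdj D) D a, a' ≠ a) →
      Cfsg.productPartners D a ⊆ Cfsg.elemComponentOf (Cfsg.OddAdj D) D a ∪ {w | Cfsg.IsIsolatedElem (Cfsg.OddAdj D) D w}) := by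
  have h1 : ∀ w ∈ {w | Cfsg.IsIsolatedElem (Cfsg.OddAdj D) D w}, ∀ g : G,
      g * w * g⁻¹ ∈ {w | Cfsg.IsIsolatedElem (Cfsg.OddAdj D) D w} :=
    fun w hw g => conj_isolated hD hw g
  have hnormal : (Subgroup.closure {w | Cfsg.IsIsolatedElem (Cfsg.OddAdj D) D w}).Normal := by
    constructor
    intro n hn g
    induction hn using Subgroup.closure_induction with
    | mem w hw => exact Subgroup.subset_closure (h1 w hw g)
    | one => simp
    | mul a b _ _ iha ihb =>
      have h2 : g * (a * b) * g⁻¹ = (g * a * g⁻¹) * (g * b * g⁻¹) := by group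
      rw [h2]
      exact Subgroup.mul_mem _ iha ihb
    | inv a _ iha =>
      have h2 : g * a⁻¹ * g⁻¹ = (g * a * g⁻¹)⁻¹ := by group
      rw [h2]
      exact Subgroup.inv_mem _ iha
  have hp : IsPGroup 2 ↥(Subgroup.closure {w | Cfsg.IsIsolatedElem (Cfsg.OddAdj D) D w}) := by
    haveI : Fact (Nat.Prime 2) := ⟨Nat.prime_two⟩
    obtain ⟨N, -, hNp, hWN⟩ := Cfsg.Agent.S0199.baer_suzuki_set (p := 2)
      {w | Cfsg.IsIsolatedElem (Cfsg.OddAdj D) D w} (fun g w hw => h1 w hw g)
      (fun x hx y hy => by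
        apply isPGroup_pair x y (sq_one hD hx.1) (sq_one hD hy.1)
        rcases hD.pair x hx.1 y hy.1 with hc | hc | ⟨hc, -⟩
        · have h2 : (x * y) ^ 2 = 1 := by
            rw [pow_two]
            calc x * y * (x * y) = x * (y * x) * y := by simp only [mul_assoc]
              _ = x * (x * y) * y := by rw [hc]
              _ = (x * x) * (y * y) := by simp only [mul_assoc]
              _ = 1 := by rw [sq_one hD hx.1, sq_one hD hy.1, one_mul]
          calc (x * y) ^ 4 = ((x * y) ^ 2) ^ 2 := by rw [← pow_mul]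
            _ = 1 := by rw [h2, one_pow]
        · by_cases hxy : x = y
          · subst hxy
            rw [sq_one hD hx.1, one_pow]
          · exact absurd ⟨hx.1, hy.1, hxy, hc⟩ (hx.2 y).1
        · rw [← hc]
          exact pow_orderOf_eq_one _)
    exact hNp.to_le ((Subgroup.closure_le N).2 hWN)
  have h4 : (Subgroup.closure {w | Cfsg.IsIsolatedElem (Cfsg.OddAdj D) D w} : Set G) ∩ D =
      {w | Cfsg.IsIsolatedElem (Cfsg.OddAdj D) D w} := by
    ext d
    constructor
    · rintro ⟨hdN, hdD⟩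
      have key : ∀ b, ¬ Cfsg.OddAdj D d b := by
        rintro b ⟨-, hbD, hne, hodd⟩
        have hmem : (d * b) ^ 2 ∈ Subgroup.closure {w | Cfsg.IsIsolatedElem (Cfsg.OddAdj D) D w} := by
          have h2 : (d * b) ^ 2 = d * (b * d * b⁻¹) := by
            rw [pow_two, inv_eq' hD hbD]
            simp only [mul_assoc]
          rw [h2]
          exact Subgroup.mul_mem _ hdN (hnormal.conj_mem d hdN b)
        obtain ⟨k, hk⟩ := hp ⟨(d * b) ^ 2, hmem⟩
        have hk' : ((d * b) ^ 2) ^ (2 ^ k) = 1 := congrArg Subtype.val hk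
        have h3 : d * b = 1 := by
          apply eq_one_of_odd_two_pow hodd (n := k + 1)
          rw [pow_succ', pow_mul]
          exact hk'
        apply hne
        have h5 : d⁻¹ = b := inv_eq_of_mul_eq_one_right h3
        rw [← h5, inv_eq' hD hdD]
      exact ⟨hdD, fun b => ⟨key b, fun h => key b (oddAdj_symm h)⟩⟩
    · intro hw
      exact ⟨Subgroup.subset_closure hw, hw.1⟩
  refine ⟨h1, hnormal, hp, h4, ?_, ?_⟩
  · intro a ha b hb hane hbne hcomp
    obtain ⟨ea, hea⟩ := exists_adj_of_comp hane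
    obtain ⟨eb, heb⟩ := exists_adj_of_comp hbne
    have haa := sq_one hD ha
    have hbb := sq_one hD hb
    rcases hD.pair a ha b hb with hc | hc | ⟨hc, hcD⟩
    · have h2 : a * b * a⁻¹ * b⁻¹ = 1 := by rw [hc]; group
      rw [h2]
      exact Subgroup.one_mem _
    · exfalso
      apply hcomp
      by_cases hab : a = b
      · rw [hab]
      · exact comp_eq_of_rtg (Relation.ReflTransGen.single ⟨ha, hb, hab, hc⟩)
    · have hcomm_eq : a * b * a⁻¹ * b⁻¹ = (a * b) ^ 2 := by
        rw [inv_eq' hD ha, inv_eq' hD hb, pow_two]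
        simp only [mul_assoc]
      rw [hcomm_eq]
      have hab4 : (a * b) ^ 4 = 1 := by rw [← hc]; exact pow_orderOf_eq_one _
      obtain ⟨hca, hcb⟩ := sq_comm haa hbb hab4
      have hcaD : (a * b) ^ 2 * a ∈ D := by
        have h2 := hD.conj_mem a ha (a * b)
        have h3 : a * b * a * (a * b)⁻¹ = (a * b) ^ 2 * a := by
          rw [mul_inv_rev, inv_eq' hD ha, inv_eq' hD hb, pow_two]
          simp only [mul_assoc]
        rw [h3] at h2
        exact h2
      have hcbD : (a * b) ^ 2 * b ∈ D := by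
        have h2 := hD.conj_mem b hb a
        have h3 : a * b * a⁻¹ = (a * b) ^ 2 * b := by
          rw [inv_eq' hD ha, pow_two]
          simp only [mul_assoc]
          rw [hbb, mul_one]
        rw [h3] at h2
        exact h2
      have hcXa : (a * b) ^ 2 ∈ Cfsg.productPartners D a := by
        refine ⟨⟨hcD, hca.symm, ?_⟩, hcaD⟩
        intro h
        rw [h, haa] at hcaD
        exact ne_one' hD hcaD rfl
      have hcXb : (a * b) ^ 2 ∈ Cfsg.productPartners D b := by
        refine ⟨⟨hcD, hcb.symm, ?_⟩, hcbD⟩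
        intro h
        rw [h, hbb] at hcbD
        exact ne_one' hD hcbD rfl
      rcases part6 hD ha hea hcXa with h5 | h5
      · rcases part6 hD hb heb hcXb with h6 | h6
        · exfalso
          apply hcomp
          rw [comp_eq_of_rtg h5.2, comp_eq_of_rtg h6.2]
        · exact Subgroup.subset_closure h6
      · exact Subgroup.subset_closure h5
  · intro a ha hane x hx
    obtain ⟨e, hae⟩ := exists_adj_of_comp hane
    exact part6 hD ha hae hx

end Cfsg.Agent.S5045
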