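import Cfsg.Statements.S5049
import Mathlib

set_option autoImplicit false
open Cfsg
open scoped commutatorElement

namespace Cfsg.Agent.S5049

variable {G : Type*} [Group G]

theorem pCore_normal_aux (p : ℕ) : (Cfsg.pCore p G).Normal := by
  unfold Cfsg.pCore
  exact Subgroup.sSup_normal _ (fun H hH => hH.1)

theorem pCore_two_pow [Finite G] {x : G} (hx : x ∈ Cfsg.pCore 2 G) : ∃ k : ℕ, x ^ (2 ^ k) = 1 := by
  have : Fact (Nat.Prime 2) := ⟨Nat.prime_two⟩
  obtain ⟨P⟩ : Nonempty (Sylow 2 G) := inferInstance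
  have hle : Cfsg.pCore 2 G ≤ (P : Subgroup G) := by
    unfold Cfsg.pCore
    apply sSup_le
    rintro N ⟨hN, hNp⟩
    have := hN
    exact hNp.le_sylow_of_normal P
  obtain ⟨k, hk⟩ := P.isPGroup' ⟨x, hle hx⟩
  exact ⟨k, by simpa [Subtype.ext_iff] using hk⟩

theorem comm_of_two_pow {D : Set G} (hD : Cfsg.IsOddTranspositionSet D) {d e : G} (hd : d ∈ D)
    (he : e ∈ D) {k : ℕ} (hk : (d * e) ^ (2 ^ k) = 1) : d * e = e * d := by
  rcases hD.1.pair d hd e he with h | h | h
  · exact h
  · have hdvd : orderOf (d * e) ∣ 2 ^ k := orderOf_dvd_of_pow_eq_one hk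
    obtain ⟨j, -, hj⟩ := (Nat.dvd_prime_pow Nat.prime_two).1 hdvd
    have h1 : orderOf (d * e) = 1 := by
      rw [hj] at h ⊢
      rcases j with _ | j
      · simp
      · exfalso
        rw [pow_succ] at h
        exact (Nat.not_even_iff_odd.2 h) (even_two.mul_left _)
    have h2 : d * e = 1 := orderOf_eq_one_iff.1 h1
    rw [h2, mul_eq_one_comm.1 h2]
  · exact absurd h.1 (hD.2 d hd e he)

theorem sq_eq_one_of_mem {D : Set G} (hD : Cfsg.IsRootInvolutionSet D) {d : G} (hd : d ∈ D) :
    d * d = 1 := by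
  have := pow_orderOf_eq_one d
  rw [hD.orderOf_eq d hd, pow_two] at this
  exact this

theorem two_pow_of_sq_mul [Finite G] {u c : G} (hu : u * u = 1) (hc : c ∈ Cfsg.pCore 2 G) :
    ∃ k : ℕ, (u * c) ^ (2 ^ k) = 1 := by
  have hN := pCore_normal_aux (G := G) 2
  have huinv : u⁻¹ = u := inv_eq_of_mul_eq_one_left hu
  have h1 : (u * c) ^ 2 = (u * c * u⁻¹) * c := by
    rw [huinv, pow_two]; group
  have h2 : (u * c) ^ 2 ∈ Cfsg.pCore 2 G := by
    rw [h1]; exact mul_mem (hN.conj_mem c hc u) hc
  obtain ⟨k, hk⟩ := pCore_two_pow h2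
  exact ⟨k + 1, by rw [pow_succ', pow_mul]; exact hk⟩

theorem eq_one_of_sq_of_odd_pow {x : G} (h2 : x ^ 2 = 1) {n : ℕ} (hn : Odd n) (hx : x ^ n = 1) :
    x = 1 := by
  obtain ⟨j, rfl⟩ := hn
  rw [pow_succ, pow_mul, h2, one_pow, one_mul] at hx
  exact hx

/-- Let G be a finite group generated by a set D of odd transpositions (root involutions with no product of order 4), Q = O₂(G), and for a ∈ D let Q_a be the commutator subgroup of Q with a. Then every member of D commuting with a centralizes Q_a; and for b ∈ D with ab of odd order greater than 1, the centralizer of ab in Q is the intersection of the centralizers of a and b in Q. -/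
theorem result {G : Type*} [Group G] [Finite G] {D : Set G} (hD : Cfsg.IsOddTranspositionSet D) {a : G} (ha : a ∈ D) :
    (∀ e ∈ Cfsg.commutingMembers D a, ∀ q ∈ ⁅Cfsg.pCore 2 G, Subgroup.zpowers a⁆, e * q = q * e) ∧
    (∀ b ∈ Cfsg.oddPartners D a,
      Cfsg.pCore 2 G ⊓ Subgroup.centralizer {a * b} = Cfsg.pCore 2 G ⊓ Subgroup.centralizer {a} ⊓ Subgroup.centralizer {b}) := by
  have hR := hD.1
  have hN := pCore_normal_aux (G := G) 2
  have haa : a * a = 1 := sq_eq_one_of_mem hR ha
  have hainv : a⁻¹ = a := inv_eq_of_mul_eq_one_left haa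
  constructor
  · rintro e ⟨heD, hea⟩ q hq
    have hle : ⁅Cfsg.pCore 2 G, Subgroup.zpowers a⁆ ≤ Subgroup.centralizer {e} := by
      rw [Subgroup.commutator_le]
      intro g hg x hx
      obtain ⟨n, rfl⟩ := Subgroup.mem_zpowers_iff.1 hx
      have ha' : g * a * g⁻¹ ∈ D := hR.conj_mem a ha g
      have hu : (e * a) * (e * a) = 1 := by
        have hee := sq_eq_one_of_mem hR heD
        calc (e * a) * (e * a) = e * (a * e) * a := by group
          _ = e * (e * a) * a := by rw [hea]
          _ = (e * e) * (a * a) := by group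
          _ = 1 := by rw [hee, haa, one_mul]
      have hc : a⁻¹ * (g * a * g⁻¹) ∈ Cfsg.pCore 2 G := by
        have : a⁻¹ * (g * a * g⁻¹) = (a⁻¹ * g * a⁻¹⁻¹) * g⁻¹ := by group
        rw [this]
        exact mul_mem (hN.conj_mem g hg a⁻¹) (inv_mem hg)
      obtain ⟨k, hk⟩ := two_pow_of_sq_mul hu hc
      have hk' : (e * (g * a * g⁻¹)) ^ (2 ^ k) = 1 := by
        have : e * (g * a * g⁻¹) = e * a * (a⁻¹ * (g * a * g⁻¹)) := by group
        rw [this]; exact hk
      have hcomm : e * (g * a * g⁻¹) = (g * a * g⁻¹) * e := comm_of_two_pow hD heD ha' hk'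
      have h1 : a ∈ Subgroup.centralizer {e} := Subgroup.mem_centralizer_singleton_iff.2 hea.symm
      have h2 : g * a * g⁻¹ ∈ Subgroup.centralizer {e} :=
        Subgroup.mem_centralizer_singleton_iff.2 hcomm.symm
      have h3 : ⁅g, a ^ n⁆ = (g * a * g⁻¹) ^ n * (a ^ n)⁻¹ := by
        rw [commutatorElement_def, conj_zpow]
      rw [h3]
      exact mul_mem (zpow_mem h2 n) (inv_mem (zpow_mem h1 n))
    exact (Subgroup.mem_centralizer_singleton_iff.1 (hle hq)).symm
  · rintro b ⟨hbD, hba, hodd⟩
    have hbb : b * b = 1 := sq_eq_one_of_mem hR hbD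
    have hbinv : b⁻¹ = b := inv_eq_of_mul_eq_one_left hbb
    apply le_antisymm
    · rintro q ⟨hqQ, hqr⟩
      have hqc : Commute q (a * b) := Subgroup.mem_centralizer_singleton_iff.1 hqr
      have key : a * q = q * a := by
        have ha' : q * a * q⁻¹ ∈ D := hR.conj_mem a ha q
        have ha'a' : (q * a * q⁻¹) * (q * a * q⁻¹) = 1 := sq_eq_one_of_mem hR ha'
        have hy : a * (q * a * q⁻¹) ∈ Cfsg.pCore 2 G := by
          have : a * (q * a * q⁻¹) = (a * q * a⁻¹) * q⁻¹ := by rw [hainv]; group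
          rw [this]; exact mul_mem (hN.conj_mem q hqQ a) (inv_mem hqQ)
        obtain ⟨k, hk⟩ := pCore_two_pow hy
        have hcomm : a * (q * a * q⁻¹) = (q * a * q⁻¹) * a := comm_of_two_pow hD ha ha' hk
        have hyy : (a * (q * a * q⁻¹)) ^ 2 = 1 := by
          rw [pow_two]
          calc a * (q * a * q⁻¹) * (a * (q * a * q⁻¹))
              = a * ((q * a * q⁻¹) * a) * (q * a * q⁻¹) := by group
            _ = a * (a * (q * a * q⁻¹)) * (q * a * q⁻¹) := by rw [hcomm]
            _ = (a * a) * ((q * a * q⁻¹) * (q * a * q⁻¹)) := by group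
            _ = 1 := by rw [haa, ha'a', one_mul]
        have hs1 : SemiconjBy a (a * b) (a * b)⁻¹ := by
          show a * (a * b) = (a * b)⁻¹ * a
          rw [← mul_assoc, haa, one_mul, mul_inv_rev, inv_mul_cancel_right, hbinv]
        have hs2 : SemiconjBy (q * a * q⁻¹) (a * b) (a * b)⁻¹ :=
          SemiconjBy.mul_left (SemiconjBy.mul_left hqc.inv_right hs1) hqc.inv_left
        have hyc : Commute (a * (q * a * q⁻¹)) (a * b) := by
          have h := SemiconjBy.mul_left hs1.inv_right hs2
          rw [inv_inv] at h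
          exact h
        have hz : b * (q * a * q⁻¹) = (a * b)⁻¹ * (a * (q * a * q⁻¹)) := by
          rw [mul_inv_rev, hbinv, mul_assoc b a⁻¹, inv_mul_cancel_left]
        have hrn : (a * b) ^ orderOf (a * b) = 1 := pow_orderOf_eq_one _
        have hy1 : a * (q * a * q⁻¹) = 1 := by
          rcases hR.pair b hbD (q * a * q⁻¹) ha' with h | h | h
          · exfalso
            have hz2 : (b * (q * a * q⁻¹)) ^ 2 = 1 := by
              rw [pow_two]
              calc b * (q * a * q⁻¹) * (b * (q * a * q⁻¹))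
                  = b * ((q * a * q⁻¹) * b) * (q * a * q⁻¹) := by group
                _ = b * (b * (q * a * q⁻¹)) * (q * a * q⁻¹) := by rw [h]
                _ = (b * b) * ((q * a * q⁻¹) * (q * a * q⁻¹)) := by group
                _ = 1 := by rw [hbb, ha'a', one_mul]
            rw [hz, (hyc.symm.inv_left).mul_pow, hyy, mul_one, inv_pow, inv_eq_one] at hz2
            have hr1 : a * b = 1 := eq_one_of_sq_of_odd_pow hz2 hodd hrn
            exact hba ((eq_inv_of_mul_eq_one_right hr1).trans hainv)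
          · have hzm : (b * (q * a * q⁻¹)) ^ orderOf (b * (q * a * q⁻¹)) = 1 := pow_orderOf_eq_one _
            have hyeq : a * (q * a * q⁻¹) = (a * b) * (b * (q * a * q⁻¹)) := by
              rw [hz, mul_inv_cancel_left]
            have hcz : Commute (a * b) (b * (q * a * q⁻¹)) := by
              rw [hz]
              exact (Commute.inv_right (Commute.refl _)).mul_right hyc.symm
            have hpow : (a * (q * a * q⁻¹)) ^ (orderOf (a * b) * orderOf (b * (q * a * q⁻¹))) = 1 := by
              rw [hyeq, hcz.mul_pow, pow_mul, hrn, one_pow, one_mul, mul_comm, pow_mul, hzm, one_pow]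
            exact eq_one_of_sq_of_odd_pow hyy (hodd.mul h) hpow
          · exact absurd h.1 (hD.2 b hbD _ ha')
        have h1 : q * a * q⁻¹ = a := (eq_inv_of_mul_eq_one_right hy1).trans hainv
        exact (mul_inv_eq_iff_eq_mul.1 h1).symm
      have hqa : Commute q a := key.symm
      have hqb : Commute q b := by
        have h := (hqa.inv_right).mul_right hqc
        rwa [inv_mul_cancel_left] at h
      exact ⟨⟨hqQ, Subgroup.mem_centralizer_singleton_iff.2 key.symm⟩,
        Subgroup.mem_centralizer_singleton_iff.2 hqb⟩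
    · rintro q ⟨⟨hqQ, hqa⟩, hqb⟩
      refine ⟨hqQ, Subgroup.mem_centralizer_singleton_iff.2 ?_⟩
      have h1 : Commute q a := Subgroup.mem_centralizer_singleton_iff.1 hqa
      have h2 : Commute q b := Subgroup.mem_centralizer_singleton_iff.1 hqb
      exact h1.mul_right h2

end Cfsg.Agent.S5049
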