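import Cfsg.Statements.S5057
import Mathlib

set_option autoImplicit false
open Cfsg

namespace Cfsg.Agent.S5057

open Equiv Equiv.Perm

theorem ms_cases (m : Multiset ℕ) (h2 : ∀ a ∈ m, 2 ≤ a) (hsum : m.sum ≤ 6)
    (hev : Even (m.sum + Multiset.card m)) :
    m = 0 ∨ m = {3} ∨ m = {5} ∨ m = {2, 2} ∨ m = {2, 4} ∨ m = {3, 3} := by
  obtain ⟨l, rfl⟩ : ∃ l : List ℕ, (l : Multiset ℕ) = m := ⟨m.toList, Multiset.coe_toList m⟩
  · simp only [Multiset.mem_coe, Multiset.sum_coe, Multiset.coe_card] at h2 hsum hev
    match l, h2, hsum, hev with
    | [], _, _, _ => left; rfl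
    | [a], h2, hsum, hev =>
      have ha := h2 a (by simp)
      simp only [List.sum_cons, List.sum_nil, List.length_cons, List.length_nil] at hsum hev
      have ha6 : a ≤ 6 := by omega
      interval_cases a
      · exact absurd hev (by decide)
      · right; left; rfl
      · exact absurd hev (by decide)
      · right; right; left; rfl
      · exact absurd hev (by decide)
    | [a, b], h2, hsum, hev =>
      have ha := h2 a (by simp)
      have hb := h2 b (by simp)
      simp only [List.sum_cons, List.sum_nil, List.length_cons, List.length_nil] at hsum hev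
      have ha4 : a ≤ 4 := by omega
      have hb4 : b ≤ 4 := by omega
      interval_cases a <;> interval_cases b <;> first
        | (exfalso; omega)
        | exact absurd hev (by decide)
        | (right; right; right; left; rfl)
        | (right; right; right; right; left; rfl)
        | (right; right; right; right; left; decide)
        | (right; right; right; right; right; rfl)
    | [a, b, c], h2, hsum, hev =>
      have ha := h2 a (by simp)
      have hb := h2 b (by simp)
      have hc := h2 c (by simp)
      simp only [List.sum_cons, List.sum_nil, List.length_cons, List.length_nil] at hsum hev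
      have ha2 : a = 2 := by omega
      have hb2 : b = 2 := by omega
      have hc2 : c = 2 := by omega
      subst ha2 hb2 hc2
      exact absurd hev (by decide)
    | a :: b :: c :: d :: l, h2, hsum, _ =>
      have ha := h2 a (by simp)
      have hb := h2 b (by simp)
      have hc := h2 c (by simp)
      have hd := h2 d (by simp)
      simp only [List.sum_cons] at hsum
      exfalso; omega

theorem cycleType_cases (g : alternatingGroup (Fin 6)) :
    (g : Perm (Fin 6)).cycleType = 0 ∨ (g : Perm (Fin 6)).cycleType = {3} ∨
    (g : Perm (Fin 6)).cycleType = {5} ∨ (g : Perm (Fin 6)).cycleType = {2, 2} ∨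
    (g : Perm (Fin 6)).cycleType = {2, 4} ∨ (g : Perm (Fin 6)).cycleType = {3, 3} := by
  apply ms_cases
  · intro a ha; exact Equiv.Perm.two_le_of_mem_cycleType ha
  · rw [Equiv.Perm.sum_cycleType]
    simpa using Finset.card_le_univ (g : Perm (Fin 6)).support
  · have hg := g.2
    rw [Equiv.Perm.mem_alternatingGroup, Equiv.Perm.sign_of_cycleType] at hg
    exact (neg_one_pow_eq_one_iff_even (by decide)).mp hg

theorem orderOf_cases (g : alternatingGroup (Fin 6)) :
    (orderOf g = 1 ∨ orderOf g = 3 ∨ orderOf g = 4 ∨ orderOf g = 5) ∨
    (orderOf g = 2 ∧ (g : Perm (Fin 6)).cycleType = {2, 2}) := by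
  have h : orderOf g = (g : Perm (Fin 6)).cycleType.lcm := by
    rw [Equiv.Perm.lcm_cycleType, Subgroup.orderOf_coe]
  rcases cycleType_cases g with h0 | h0 | h0 | h0 | h0 | h0
  · left; left; rw [h, h0]; rfl
  · left; right; left; rw [h, h0]; rfl
  · left; right; right; right; rw [h, h0]; rfl
  · right; exact ⟨by rw [h, h0]; rfl, h0⟩
  · left; right; right; left; rw [h, h0]; rfl
  · left; right; left; rw [h, h0]; rfl

theorem orderOf_conj_eq {G : Type*} [Group G] (g d : G) : orderOf (g * d * g⁻¹) = orderOf d := by
  have := MulEquiv.orderOf_eq (MulAut.conj g) d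
  rwa [MulAut.conj_apply] at this

/-- The involutions of the alternating group of degree 6 form a class of root involutions (a single conjugacy class of involutions generating the group, any two of which commute, have product of odd order, or have product of order 4 whose square is again an involution of the class), and the product of any two of them has order at most 5. -/
theorem result :
    Cfsg.IsRootInvolutionClass {g : ↥(alternatingGroup (Fin 6)) | orderOf g = 2} ∧
    ∀ d ∈ {g : ↥(alternatingGroup (Fin 6)) | orderOf g = 2}, ∀ e ∈ {g : ↥(alternatingGroup (Fin 6)) | orderOf g = 2},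
      orderOf (d * e) ≤ 5 := by
  have hne : ({g : ↥(alternatingGroup (Fin 6)) | orderOf g = 2}).Nonempty := by
    refine ⟨⟨swap 0 1 * swap 2 3, Equiv.Perm.mem_alternatingGroup.2 (by decide)⟩, ?_⟩
    have : Fact (Nat.Prime 2) := ⟨Nat.prime_two⟩
    apply orderOf_eq_prime
    · apply Subtype.ext; decide
    · intro h
      have := congrArg Subtype.val h
      revert this; decide
  refine ⟨⟨⟨fun d hd => hd, ?_, ?_, ?_⟩, hne, ?_⟩, ?_⟩
  · -- generation
    have hsimple : IsSimpleGroup (alternatingGroup (Fin 6)) :=
      alternatingGroup.isSimpleGroup (by simp)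
    have hN : (Subgroup.normalClosure {g : ↥(alternatingGroup (Fin 6)) | orderOf g = 2}) = ⊤ := by
      apply Subgroup.normalClosure_normal.eq_bot_or_eq_top.resolve_left
      intro hbot
      obtain ⟨x, hx⟩ := hne
      have hx1 : x ∈ Subgroup.normalClosure {g : ↥(alternatingGroup (Fin 6)) | orderOf g = 2} :=
        Subgroup.subset_normalClosure hx
      rw [hbot, Subgroup.mem_bot] at hx1
      rw [hx1] at hx
      simp at hx
    rw [← hN]
    apply le_antisymm
    · exact Subgroup.closure_le_normalClosure
    · unfold Subgroup.normalClosure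
      apply Subgroup.closure_mono
      intro x hx
      rw [Group.mem_conjugatesOfSet_iff] at hx
      obtain ⟨b, hb, hbx⟩ := hx
      obtain ⟨c, rfl⟩ := isConj_iff.1 hbx
      show orderOf (c * b * c⁻¹) = 2
      rw [orderOf_conj_eq]; exact hb
  · intro d hd g
    show orderOf (g * d * g⁻¹) = 2
    rw [orderOf_conj_eq]; exact hd
  · intro a ha b hb
    have ha2 : a ^ 2 = 1 := by rw [← ha]; exact pow_orderOf_eq_one a
    have hb2 : b ^ 2 = 1 := by rw [← hb]; exact pow_orderOf_eq_one b
    rcases orderOf_cases (a * b) with (h | h | h | h) | ⟨h, -⟩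
    · right; left; rw [h]; decide
    · right; left; rw [h]; decide
    · right; right
      refine ⟨h, ?_⟩
      show orderOf ((a * b) ^ 2) = 2
      rw [orderOf_pow' _ (by norm_num), h]; rfl
    · right; left; rw [h]; decide
    · left
      have hab2 : (a * b) ^ 2 = 1 := by rw [← h]; exact pow_orderOf_eq_one _
      have ha' : a⁻¹ = a := by
        rw [inv_eq_iff_mul_eq_one, ← pow_two]; exact ha2
      have hb' : b⁻¹ = b := by
        rw [inv_eq_iff_mul_eq_one, ← pow_two]; exact hb2
      rw [pow_two] at hab2
      have : a * b = (a * b)⁻¹ := eq_inv_of_mul_eq_one_left hab2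
      rw [this, mul_inv_rev, ha', hb']
  · intro a ha0 b hb0
    have ha : orderOf a = 2 := ha0
    have hb : orderOf b = 2 := hb0
    have hca : (a : Perm (Fin 6)).cycleType = {2, 2} := by
      rcases orderOf_cases a with (h | h | h | h) | ⟨-, h⟩
      · rw [h] at ha; exact absurd ha (by decide)
      · rw [h] at ha; exact absurd ha (by decide)
      · rw [h] at ha; exact absurd ha (by decide)
      · rw [h] at ha; exact absurd ha (by decide)
      · exact h
    have hcb : (b : Perm (Fin 6)).cycleType = {2, 2} := by
      rcases orderOf_cases b with (h | h | h | h) | ⟨-, h⟩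
      · rw [h] at hb; exact absurd hb (by decide)
      · rw [h] at hb; exact absurd hb (by decide)
      · rw [h] at hb; exact absurd hb (by decide)
      · rw [h] at hb; exact absurd hb (by decide)
      · exact h
    have hc : IsConj (a : Perm (Fin 6)) (b : Perm (Fin 6)) :=
      (Equiv.Perm.isConj_iff_cycleType_eq).2 (hca.trans hcb.symm)
    have hsupp : (a : Perm (Fin 6)).support.card + 2 ≤ Fintype.card (Fin 6) := by
      rw [← Equiv.Perm.sum_cycleType, hca]; decide
    obtain ⟨c, hc'⟩ := isConj_iff.1 (alternatingGroup.isConj_of hc hsupp)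
    exact ⟨c, hc'.symm⟩
  · intro d _ e _
    rcases orderOf_cases (d * e) with (h | h | h | h) | ⟨h, -⟩ <;> rw [h] <;> norm_num

end Cfsg.Agent.S5057
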