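import Cfsg.Statements.S5058
import Mathlib
import Cfsg.Agent.Lib.Helper3.SLTv

set_option autoImplicit false
open Matrix
open Cfsg

namespace Cfsg.Agent.S5058

/-- Let F be a finite field of characteristic 2 and n a natural number. Then the transvections of SL_{n+3}(F) (so in every dimension at least 3) (the conjugates of the elementary matrices 1 + c E₁₂, c ≠ 0) form a class of root involutions of SL_{n+3}(F); when F has two elements they form a class of {3,4}⁺-transpositions (every product of odd order has order 1 or 3). -/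
theorem result (F : Type*) [Field F] [Fintype F] [CharP F 2] (n : ℕ) :
    Cfsg.IsRootInvolutionClass {t : Matrix.SpecialLinearGroup (Fin (n + 3)) F | ∃ c : F, c ≠ 0 ∧
        ∃ g : Matrix.SpecialLinearGroup (Fin (n + 3)) F, ((g⁻¹ * t * g : Matrix.SpecialLinearGroup (Fin (n + 3)) F) :
          Matrix (Fin (n + 3)) (Fin (n + 3)) F) = Matrix.transvection 0 1 c} ∧
    (Fintype.card F = 2 → Cfsg.IsThreeFourPlusTranspositionSet {t : Matrix.SpecialLinearGroup (Fin (n + 3)) F | ∃ c : F, c ≠ 0 ∧
        ∃ g : Matrix.SpecialLinearGroup (Fin (n + 3)) F, ((g⁻¹ * t * g : Matrix.SpecialLinearGroup (Fin (n + 3)) F) :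
          Matrix (Fin (n + 3)) (Fin (n + 3)) F) = Matrix.transvection 0 1 c}) := by
  have hset : Cfsg.IsRootInvolutionSet
      {t : Matrix.SpecialLinearGroup (Fin (n + 3)) F | Cfsg.Agent.Lib.Helper3.IsTv t} := by
    refine ⟨?_, ?_, ?_, ?_⟩
    · intro d hd
      exact Cfsg.Agent.Lib.Helper3.isTv_orderOf hd
    · exact Cfsg.Agent.Lib.Helper3.isTv_closure
    · intro d hd g
      exact Cfsg.Agent.Lib.Helper3.IsTv.conj hd g
    · intro a ha b hb
      exact Cfsg.Agent.Lib.Helper3.isTv_pair ha hb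
  refine ⟨⟨hset, ⟨Cfsg.Agent.Lib.Helper3.tbase 1,
      Cfsg.Agent.Lib.Helper3.isTv_tbase 1 one_ne_zero⟩,
      fun a ha b hb => Cfsg.Agent.Lib.Helper3.IsTv.conj_of ha hb⟩, fun hF => ⟨hset, ?_⟩⟩
  intro a ha b hb hodd
  have hF2 : ∀ x : F, x = 0 ∨ x = 1 := by
    intro x
    by_cases hx : x = 0
    · exact Or.inl hx
    · right
      have h1 := FiniteField.pow_card_sub_one_eq_one x hx
      rw [hF] at h1
      simpa using h1
  exact Cfsg.Agent.Lib.Helper3.isTv_pair_two hF2 ha hb hodd

end Cfsg.Agent.S5058
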