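import Cfsg.Statements.S5059
import Mathlib

set_option autoImplicit false
universe u
open Cfsg

namespace Cfsg.Agent.S5059

section aux

variable {k : Type u} [Field k] {M : Type u} [AddCommGroup M] [Module k M]

theorem one_add_mul_one_sub {X : M →ₗ[k] M} (hX : X * X = 0) : (1 + X) * (1 - X) = 1 := by
  calc (1 + X) * (1 - X) = 1 - X * X := by noncomm_ring
    _ = 1 := by rw [hX, sub_zero]

theorem one_sub_mul_one_add {X : M →ₗ[k] M} (hX : X * X = 0) : (1 - X) * (1 + X) = 1 := by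
  calc (1 - X) * (1 + X) = 1 - X * X := by noncomm_ring
    _ = 1 := by rw [hX, sub_zero]

theorem one_add_mul_one_add {X Y : M →ₗ[k] M} (hXY : X * Y = 0) :
    (1 + X) * (1 + Y) = 1 + X + Y := by
  calc (1 + X) * (1 + Y) = 1 + X + Y + X * Y := by noncomm_ring
    _ = 1 + X + Y := by rw [hXY, add_zero]

/-- the unit `1 + c N` for a square-zero endomorphism `N` -/
def unitOf (N : M →ₗ[k] M) (hN : N * N = 0) (c : k) : LinearMap.GeneralLinearGroup k M where
  val := 1 + c • N
  inv := 1 - c • N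
  val_inv := one_add_mul_one_sub (by rw [smul_mul_smul_comm, hN, smul_zero])
  inv_val := one_sub_mul_one_add (by rw [smul_mul_smul_comm, hN, smul_zero])

theorem mul_zero_of_class {G : Subgroup (LinearMap.GeneralLinearGroup k M)}
    {σ τ₁ τ₂ : LinearMap.GeneralLinearGroup k M}
    (h1 : τ₁ ∈ Cfsg.sameActionClass G σ) (h2 : τ₂ ∈ Cfsg.sameActionClass G σ) :
    ((τ₁ : M →ₗ[k] M) - 1) * ((τ₂ : M →ₗ[k] M) - 1) = 0 := by
  obtain ⟨⟨⟨-, ⟨hq1, -⟩, -⟩, -⟩, -, hr1⟩ := h1
  obtain ⟨-, -, hr2⟩ := h2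
  ext m
  have hm : ((τ₂ : M →ₗ[k] M) - 1) m ∈ LinearMap.range ((τ₁ : M →ₗ[k] M) - 1) := by
    rw [hr1, ← hr2]; exact LinearMap.mem_range_self _ m
  obtain ⟨y, hy⟩ := hm
  rw [Module.End.mul_apply, ← hy, ← Module.End.mul_apply, hq1]; rfl

theorem val_mul_sub_one {τ₁ τ₂ : LinearMap.GeneralLinearGroup k M}
    (h : ((τ₁ : M →ₗ[k] M) - 1) * ((τ₂ : M →ₗ[k] M) - 1) = 0) :
    ((τ₁ * τ₂ : LinearMap.GeneralLinearGroup k M) : M →ₗ[k] M) - 1
      = ((τ₁ : M →ₗ[k] M) - 1) + ((τ₂ : M →ₗ[k] M) - 1) := by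
  have h' : ((τ₁ * τ₂ : LinearMap.GeneralLinearGroup k M) : M →ₗ[k] M) - 1
      = ((τ₁ : M →ₗ[k] M) - 1) + ((τ₂ : M →ₗ[k] M) - 1)
        + ((τ₁ : M →ₗ[k] M) - 1) * ((τ₂ : M →ₗ[k] M) - 1) := by
    rw [Units.val_mul]; noncomm_ring
  rw [h', h, add_zero]

theorem val_inv_sub_one {τ : LinearMap.GeneralLinearGroup k M}
    (h : ((τ : M →ₗ[k] M) - 1) * ((τ : M →ₗ[k] M) - 1) = 0) :
    ((τ⁻¹ : LinearMap.GeneralLinearGroup k M) : M →ₗ[k] M) - 1 = -((τ : M →ₗ[k] M) - 1) := by
  have h1 : (τ : M →ₗ[k] M) * (1 - ((τ : M →ₗ[k] M) - 1)) = 1 := by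
    calc (τ : M →ₗ[k] M) * (1 - ((τ : M →ₗ[k] M) - 1))
        = 1 - ((τ : M →ₗ[k] M) - 1) * ((τ : M →ₗ[k] M) - 1) := by noncomm_ring
      _ = 1 := by rw [h, sub_zero]
  rw [Units.inv_eq_of_mul_eq_one_right h1]; abel

theorem inv_mem_class {G : Subgroup (LinearMap.GeneralLinearGroup k M)}
    {σ τ : LinearMap.GeneralLinearGroup k M}
    (h : τ ∈ Cfsg.sameActionClass G σ) : τ⁻¹ ∈ Cfsg.sameActionClass G σ := by
  obtain ⟨⟨⟨hG, ⟨hq, hne⟩, hsc⟩, hmin⟩, hk, hr⟩ := h
  have hinv := val_inv_sub_one hq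
  refine ⟨⟨⟨inv_mem hG, ⟨?_, ?_⟩, ?_⟩, ?_⟩, ?_, ?_⟩
  · rw [hinv, neg_mul_neg, hq]
  · rw [hinv]; exact neg_ne_zero.2 hne
  · rintro ρ ⟨c, hc⟩
    apply hsc
    refine ⟨-c, ?_⟩
    rw [hc, hinv, smul_neg, neg_smul]
  · intro τ' hτ'
    have : Cfsg.commutatorRank τ⁻¹ = Cfsg.commutatorRank τ := by
      unfold Cfsg.commutatorRank
      rw [hinv, LinearMap.range_neg]
    rw [this]; exact hmin τ' hτ'
  · rw [hinv, LinearMap.ker_neg, hk]
  · rw [hinv, LinearMap.range_neg, hr]

theorem mul_mem_class [FiniteDimensional k M] {G : Subgroup (LinearMap.GeneralLinearGroup k M)}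
    {σ τ₁ τ₂ : LinearMap.GeneralLinearGroup k M}
    (h1 : τ₁ ∈ Cfsg.sameActionClass G σ) (h2 : τ₂ ∈ Cfsg.sameActionClass G σ) :
    τ₁ * τ₂ = 1 ∨ τ₁ * τ₂ ∈ Cfsg.sameActionClass G σ := by
  have h11 := mul_zero_of_class h1 h1
  have h12 := mul_zero_of_class h1 h2
  have h21 := mul_zero_of_class h2 h1
  have h22 := mul_zero_of_class h2 h2
  have hval := val_mul_sub_one h12
  obtain ⟨⟨⟨hG1, ⟨hq1, hne1⟩, hsc1⟩, hmin1⟩, hk1, hr1⟩ := h1
  obtain ⟨⟨⟨hG2, ⟨hq2, hne2⟩, hsc2⟩, hmin2⟩, hk2, hr2⟩ := h2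
  by_cases hN : ((τ₁ : M →ₗ[k] M) - 1) + ((τ₂ : M →ₗ[k] M) - 1) = 0
  · left
    apply Units.ext
    rw [hN, sub_eq_zero] at hval
    rw [hval]; rfl
  · right
    have hNN : (((τ₁ : M →ₗ[k] M) - 1) + ((τ₂ : M →ₗ[k] M) - 1))
        * (((τ₁ : M →ₗ[k] M) - 1) + ((τ₂ : M →ₗ[k] M) - 1)) = 0 := by
      rw [mul_add, add_mul, add_mul, h11, h12, h21, h22]; simp
    have hquad : τ₁ * τ₂ ∈ Cfsg.quadraticElements G := by
      refine ⟨mul_mem hG1 hG2, ⟨?_, ?_⟩, ?_⟩
      · rw [hval]; exact hNN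
      · rw [hval]; exact hN
      · rintro ρ ⟨c, hc⟩
        have e1 : unitOf _ hq1 c ∈ G := hsc1 ⟨c, rfl⟩
        have e2 : unitOf _ hq2 c ∈ G := hsc2 ⟨c, rfl⟩
        have e3 : ρ = unitOf _ hq1 c * unitOf _ hq2 c := by
          apply Units.ext
          rw [hc, hval, Units.val_mul]
          show _ = (1 + c • ((τ₁ : M →ₗ[k] M) - 1)) * (1 + c • ((τ₂ : M →ₗ[k] M) - 1))
          have h0 : (c • ((τ₁ : M →ₗ[k] M) - 1)) * (c • ((τ₂ : M →ₗ[k] M) - 1)) = 0 := by
            rw [smul_mul_smul_comm, h12, smul_zero]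
          rw [one_add_mul_one_add h0, smul_add, add_assoc]
        rw [e3]; exact mul_mem e1 e2
    have hrle : LinearMap.range (((τ₁ * τ₂ : LinearMap.GeneralLinearGroup k M) : M →ₗ[k] M) - 1)
        ≤ LinearMap.range ((σ : M →ₗ[k] M) - 1) := by
      rw [hval]
      rintro x ⟨m, rfl⟩
      rw [LinearMap.add_apply]
      refine add_mem ?_ ?_
      · rw [← hr1]; exact LinearMap.mem_range_self _ m
      · rw [← hr2]; exact LinearMap.mem_range_self _ m
    have hrank1 : Cfsg.commutatorRank τ₁ = Module.finrank k (LinearMap.range ((σ : M →ₗ[k] M) - 1)) := by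
      unfold Cfsg.commutatorRank; rw [hr1]
    have hrank_le : Cfsg.commutatorRank (τ₁ * τ₂) ≤ Cfsg.commutatorRank τ₁ := by
      rw [hrank1]; exact Submodule.finrank_mono hrle
    have hrank_ge : Cfsg.commutatorRank τ₁ ≤ Cfsg.commutatorRank (τ₁ * τ₂) := hmin1 _ hquad
    have hreq : LinearMap.range (((τ₁ * τ₂ : LinearMap.GeneralLinearGroup k M) : M →ₗ[k] M) - 1)
        = LinearMap.range ((σ : M →ₗ[k] M) - 1) := by
      apply Submodule.eq_of_le_of_finrank_le hrle
      rw [← hrank1]; exact hrank_ge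
    have hkle : LinearMap.ker ((σ : M →ₗ[k] M) - 1)
        ≤ LinearMap.ker (((τ₁ * τ₂ : LinearMap.GeneralLinearGroup k M) : M →ₗ[k] M) - 1) := by
      intro m hm
      have hm1 : ((τ₁ : M →ₗ[k] M) - 1) m = 0 := by
        rw [← hk1] at hm; exact LinearMap.mem_ker.1 hm
      have hm2 : ((τ₂ : M →ₗ[k] M) - 1) m = 0 := by
        rw [← hk2] at hm; exact LinearMap.mem_ker.1 hm
      rw [LinearMap.mem_ker, hval, LinearMap.add_apply, hm1, hm2, add_zero]
    have hkeq : LinearMap.ker (((τ₁ * τ₂ : LinearMap.GeneralLinearGroup k M) : M →ₗ[k] M) - 1)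
        = LinearMap.ker ((σ : M →ₗ[k] M) - 1) := by
      symm
      apply Submodule.eq_of_le_of_finrank_eq hkle
      have e1 := LinearMap.finrank_range_add_finrank_ker
        (((τ₁ * τ₂ : LinearMap.GeneralLinearGroup k M) : M →ₗ[k] M) - 1)
      have e2 := LinearMap.finrank_range_add_finrank_ker ((τ₁ : M →ₗ[k] M) - 1)
      rw [hreq] at e1
      rw [hr1, hk1] at e2
      omega
    exact ⟨⟨hquad, fun τ' hτ' => hrank_le.trans (hmin1 τ' hτ')⟩, hkeq, hreq⟩

theorem one_add_pow_of_sq_zero {N : M →ₗ[k] M} (hN : N * N = 0) (n : ℕ) :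
    (1 + N) ^ n = 1 + n • N := by
  induction n with
  | zero => simp
  | succ n ih =>
    rw [pow_succ, ih]
    have h0 : (n • N) * N = 0 := by rw [smul_mul_assoc, hN, smul_zero]
    calc (1 + n • N) * (1 + N) = 1 + n • N + N + (n • N) * N := by noncomm_ring
      _ = 1 + (n + 1) • N := by rw [h0, add_zero, add_smul, one_smul, add_assoc]

end aux

/-- Let k be a field of characteristic not 2 with k not of order 3, M a finite-dimensional k-vector space and G ≤ GL(M) such that (G, M) is a quadratic pair (M irreducible for G, and G generated by its quadratically acting elements σ whose scalar family 1 + c(σ − 1), c ∈ k, lies in G). Write 𝒬_d for the quadratic elements of G of minimal commutator rank, E(σ) for the subgroup generated by the members of 𝒬_d with the same fixed space and commutator space as σ, and Σ for the set of these subgroups. Then for σ ∈ 𝒬_d the subgroup E(σ) consists exactly of those members together with the identity, it is abelian,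 and if k has prime characteristic p every element of E(σ) has order dividing p. -/
theorem result {k : Type u} [Field k] (hk2 : ringChar k ≠ 2) (hk3 : Nat.card k ≠ 3)
    {M : Type u} [AddCommGroup M] [Module k M] [FiniteDimensional k M]
    {G : Subgroup (LinearMap.GeneralLinearGroup k M)} (hG : Cfsg.IsQuadraticPair G)
    {σ : LinearMap.GeneralLinearGroup k M} (hσ : σ ∈ Cfsg.minimalQuadraticElements G) :
    (Cfsg.sameActionSubgroup G σ : Set (LinearMap.GeneralLinearGroup k M)) = Cfsg.sameActionClass G σ ∪ {1} ∧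
    IsMulCommutative ↥(Cfsg.sameActionSubgroup G σ) ∧
    (∀ p : ℕ, p.Prime → ringChar k = p → ∀ x ∈ Cfsg.sameActionSubgroup G σ, x ^ p = 1) := by
  have hset : (Cfsg.sameActionSubgroup G σ : Set (LinearMap.GeneralLinearGroup k M))
      = Cfsg.sameActionClass G σ ∪ {1} := by
    apply Set.Subset.antisymm
    · intro x hx
      have hx' : x ∈ Subgroup.closure (Cfsg.sameActionClass G σ) := hx
      refine Subgroup.closure_induction
        (p := fun x _ => x ∈ Cfsg.sameActionClass G σ ∪ {1}) ?_ ?_ ?_ ?_ hx'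
      · intro x hx; exact Or.inl hx
      · exact Or.inr rfl
      · intro x y _ _ hx hy
        rcases hx with hx | hx
        · rcases hy with hy | hy
          · rcases mul_mem_class hx hy with h | h
            · exact Or.inr h
            · exact Or.inl h
          · rw [Set.mem_singleton_iff.1 hy, mul_one]; exact Or.inl hx
        · rw [Set.mem_singleton_iff.1 hx, one_mul]; exact hy
      · intro x _ hx
        rcases hx with hx | hx
        · exact Or.inl (inv_mem_class hx)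
        · rw [Set.mem_singleton_iff.1 hx, inv_one]; exact Or.inr rfl
    · rintro x (hx | hx)
      · exact Subgroup.subset_closure hx
      · rw [Set.mem_singleton_iff.1 hx]; exact one_mem _
  refine ⟨hset, ?_, ?_⟩
  · apply Subgroup.isMulCommutative_closure
    intro x hx y hy
    apply Units.ext
    have e1 := val_mul_sub_one (mul_zero_of_class hx hy)
    have e2 := val_mul_sub_one (mul_zero_of_class hy hx)
    rw [add_comm] at e2
    exact sub_left_injective (e1.trans e2.symm)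
  · intro p hp hchar x hx
    have hx' : x ∈ (Cfsg.sameActionSubgroup G σ : Set (LinearMap.GeneralLinearGroup k M)) := hx
    rw [hset] at hx'
    rcases hx' with hx' | hx'
    · have hNN := mul_zero_of_class hx' hx'
      apply Units.ext
      have hcp : CharP k p := ringChar.of_eq hchar
      have h1 := one_add_pow_of_sq_zero hNN p
      have h2 : p • ((x : M →ₗ[k] M) - 1) = 0 := by
        rw [← Nat.cast_smul_eq_nsmul k p, CharP.cast_eq_zero k p, zero_smul]
      rw [h2, add_zero, add_sub_cancel] at h1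
      rw [Units.val_pow_eq_pow_val, h1]; rfl
    · rw [Set.mem_singleton_iff.1 hx', one_pow]

end Cfsg.Agent.S5059
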