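import Cfsg.Statements.S5061

set_option autoImplicit false
open Cfsg

namespace Cfsg.Agent.S5061


section aux

variable {k M : Type*} [Field k] [AddCommGroup M] [Module k M]

theorem coe_mul_apply (g h : LinearMap.GeneralLinearGroup k M) (m : M) :
    ((g * h : LinearMap.GeneralLinearGroup k M) : M →ₗ[k] M) m =
      (g : M →ₗ[k] M) ((h : M →ₗ[k] M) m) := rfl

theorem inv_apply_self (g : LinearMap.GeneralLinearGroup k M) (m : M) :
    ((g⁻¹ : LinearMap.GeneralLinearGroup k M) : M →ₗ[k] M) ((g : M →ₗ[k] M) m) = m := by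
  rw [← coe_mul_apply, inv_mul_cancel]; rfl

theorem self_apply_inv (g : LinearMap.GeneralLinearGroup k M) (m : M) :
    (g : M →ₗ[k] M) (((g⁻¹ : LinearMap.GeneralLinearGroup k M) : M →ₗ[k] M) m) = m := by
  rw [← coe_mul_apply, mul_inv_cancel]; rfl

theorem conj_sub (x b : LinearMap.GeneralLinearGroup k M) (m : M) :
    ((x * b * x⁻¹ : LinearMap.GeneralLinearGroup k M) : M →ₗ[k] M) m - m =
      (x : M →ₗ[k] M) ((b : M →ₗ[k] M) (((x⁻¹ : LinearMap.GeneralLinearGroup k M) : M →ₗ[k] M) m) -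
        ((x⁻¹ : LinearMap.GeneralLinearGroup k M) : M →ₗ[k] M) m) := by
  rw [map_sub, self_apply_inv, coe_mul_apply, coe_mul_apply]

/-- product of the endomorphisms `g - 1` over a list -/
def pr (l : List (LinearMap.GeneralLinearGroup k M)) : M →ₗ[k] M :=
  (l.map (fun g : LinearMap.GeneralLinearGroup k M => ((g : M →ₗ[k] M) - 1))).prod

theorem bridge (l : List (LinearMap.GeneralLinearGroup k M)) :
    (l.map fun g => (g : M →ₗ[k] M) - 1).prod = pr l := by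
  unfold pr
  congr 1
  induction l with
  | nil => rfl
  | cons g l ih =>
    simp only [List.map_cons]
    rw [← ih]
    rfl

theorem isUnip_iff (H : Subgroup (LinearMap.GeneralLinearGroup k M)) :
    Cfsg.IsUnipotentOn H ↔ ∃ n : ℕ, ∀ l : List (LinearMap.GeneralLinearGroup k M),
      (∀ g ∈ l, g ∈ H) → l.length = n → pr l = 0 := by
  unfold Cfsg.IsUnipotentOn
  simp only [bridge]

theorem pr_nil_apply (m : M) : pr ([] : List (LinearMap.GeneralLinearGroup k M)) m = m := rfl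

theorem pr_cons_apply (g : LinearMap.GeneralLinearGroup k M)
    (l : List (LinearMap.GeneralLinearGroup k M)) (m : M) :
    pr (g :: l) m = (g : M →ₗ[k] M) (pr l m) - pr l m := by
  unfold pr
  rw [List.map_cons, List.prod_cons]
  rfl

theorem pr_append_apply (l₁ l₂ : List (LinearMap.GeneralLinearGroup k M)) (m : M) :
    pr (l₁ ++ l₂) m = pr l₁ (pr l₂ m) := by
  unfold pr
  rw [List.map_append, List.prod_append]
  rfl

theorem pr_single_apply (g : LinearMap.GeneralLinearGroup k M) (m : M) :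
    pr [g] m = (g : M →ₗ[k] M) m - m := by
  rw [pr_cons_apply, pr_nil_apply]

/-- every element of `H` maps `L` into itself -/
def HStab (L : Submodule k M) (H : Subgroup (LinearMap.GeneralLinearGroup k M)) : Prop :=
  ∀ g ∈ H, ∀ m ∈ L, (g : M →ₗ[k] M) m ∈ L

/-- every element of `H` acts trivially on `F` modulo `N` -/
def HTriv (N F : Submodule k M) (H : Subgroup (LinearMap.GeneralLinearGroup k M)) : Prop :=
  ∀ g ∈ H, ∀ m ∈ F, (g : M →ₗ[k] M) m - m ∈ N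

/-- every product of `n` factors `g - 1`, `g ∈ H`, maps `N'` into `N` -/
def UnipSec (N N' : Submodule k M) (H : Subgroup (LinearMap.GeneralLinearGroup k M)) (n : ℕ) :
    Prop :=
  ∀ l : List (LinearMap.GeneralLinearGroup k M), (∀ g ∈ l, g ∈ H) → l.length = n →
    ∀ m ∈ N', pr l m ∈ N

def stabSub (L : Submodule k M) : Subgroup (LinearMap.GeneralLinearGroup k M) where
  carrier := {g | (∀ m ∈ L, (g : M →ₗ[k] M) m ∈ L) ∧
    (∀ m ∈ L, ((g⁻¹ : LinearMap.GeneralLinearGroup k M) : M →ₗ[k] M) m ∈ L)}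
  mul_mem' := by
    rintro g h ⟨hg1, hg2⟩ ⟨hh1, hh2⟩
    refine ⟨fun m hm => ?_, fun m hm => ?_⟩
    · rw [coe_mul_apply]; exact hg1 _ (hh1 _ hm)
    · rw [mul_inv_rev, coe_mul_apply]; exact hh2 _ (hg2 _ hm)
  one_mem' := by
    refine ⟨fun m hm => hm, fun m hm => ?_⟩
    rw [inv_one]; exact hm
  inv_mem' := by
    rintro g ⟨hg1, hg2⟩
    refine ⟨hg2, ?_⟩
    rw [inv_inv]; exact hg1

theorem le_stabSub {L : Submodule k M} {H : Subgroup (LinearMap.GeneralLinearGroup k M)}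
    (h : HStab L H) : H ≤ stabSub L :=
  fun g hg => ⟨h g hg, h g⁻¹ (H.inv_mem hg)⟩

theorem hstab_of_le {L : Submodule k M} {H : Subgroup (LinearMap.GeneralLinearGroup k M)}
    (h : H ≤ stabSub L) : HStab L H := fun g hg => (h hg).1

theorem hstab_iSup {L : Submodule k M} {W : Set (Subgroup (LinearMap.GeneralLinearGroup k M))}
    (h : ∀ A ∈ W, HStab L A) : HStab L (⨆ A ∈ W, A) :=
  hstab_of_le (iSup₂_le fun A hA => le_stabSub (h A hA))

theorem hstab_sup {L : Submodule k M} {A B : Subgroup (LinearMap.GeneralLinearGroup k M)}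
    (hA : HStab L A) (hB : HStab L B) : HStab L (A ⊔ B) :=
  hstab_of_le (sup_le (le_stabSub hA) (le_stabSub hB))

def trivSub (N F : Submodule k M) : Subgroup (LinearMap.GeneralLinearGroup k M) where
  carrier := {g | g ∈ stabSub N ∧ (∀ m ∈ F, (g : M →ₗ[k] M) m - m ∈ N) ∧
    (∀ m ∈ F, ((g⁻¹ : LinearMap.GeneralLinearGroup k M) : M →ₗ[k] M) m - m ∈ N)}
  mul_mem' := by
    rintro g h ⟨hg0, hg1, hg2⟩ ⟨hh0, hh1, hh2⟩
    refine ⟨(stabSub N).mul_mem hg0 hh0, fun m hm => ?_, fun m hm => ?_⟩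
    · have e : ((g * h : LinearMap.GeneralLinearGroup k M) : M →ₗ[k] M) m - m =
          (g : M →ₗ[k] M) ((h : M →ₗ[k] M) m - m) + ((g : M →ₗ[k] M) m - m) := by
        rw [coe_mul_apply, map_sub]; abel
      rw [e]
      exact N.add_mem (hg0.1 _ (hh1 m hm)) (hg1 m hm)
    · have e : (((g * h)⁻¹ : LinearMap.GeneralLinearGroup k M) : M →ₗ[k] M) m - m =
          ((h⁻¹ : LinearMap.GeneralLinearGroup k M) : M →ₗ[k] M)
            (((g⁻¹ : LinearMap.GeneralLinearGroup k M) : M →ₗ[k] M) m - m) +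
          (((h⁻¹ : LinearMap.GeneralLinearGroup k M) : M →ₗ[k] M) m - m) := by
        rw [mul_inv_rev, coe_mul_apply, map_sub]; abel
      rw [e]
      exact N.add_mem (hh0.2 _ (hg2 m hm)) (hh2 m hm)
  one_mem' := by
    refine ⟨(stabSub N).one_mem, fun m hm => ?_, fun m hm => ?_⟩
    · show m - m ∈ N
      rw [sub_self]; exact N.zero_mem
    · rw [inv_one]
      show m - m ∈ N
      rw [sub_self]; exact N.zero_mem
  inv_mem' := by
    rintro g ⟨hg0, hg1, hg2⟩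
    refine ⟨(stabSub N).inv_mem hg0, hg2, ?_⟩
    rw [inv_inv]; exact hg1

theorem le_trivSub {N F : Submodule k M} {H : Subgroup (LinearMap.GeneralLinearGroup k M)}
    (h0 : HStab N H) (h : HTriv N F H) : H ≤ trivSub N F :=
  fun g hg => ⟨le_stabSub h0 hg, h g hg, h g⁻¹ (H.inv_mem hg)⟩

theorem htriv_of_le {N F : Submodule k M} {H : Subgroup (LinearMap.GeneralLinearGroup k M)}
    (h : H ≤ trivSub N F) : HTriv N F H := fun g hg => (h hg).2.1

theorem htriv_iSup {N F : Submodule k M} {W : Set (Subgroup (LinearMap.GeneralLinearGroup k M))}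
    (h0 : ∀ A ∈ W, HStab N A) (h : ∀ A ∈ W, HTriv N F A) : HTriv N F (⨆ A ∈ W, A) :=
  htriv_of_le (iSup₂_le fun A hA => le_trivSub (h0 A hA) (h A hA))

theorem htriv_sup {N F : Submodule k M} {A B : Subgroup (LinearMap.GeneralLinearGroup k M)}
    (hA0 : HStab N A) (hB0 : HStab N B) (hA : HTriv N F A) (hB : HTriv N F B) :
    HTriv N F (A ⊔ B) :=
  htriv_of_le (sup_le (le_trivSub hA0 hA) (le_trivSub hB0 hB))

theorem pr_mem {L : Submodule k M} {H : Subgroup (LinearMap.GeneralLinearGroup k M)}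
    (h : HStab L H) : ∀ (l : List (LinearMap.GeneralLinearGroup k M)), (∀ g ∈ l, g ∈ H) →
    ∀ m ∈ L, pr l m ∈ L := by
  intro l
  induction l with
  | nil => intro _ m hm; exact hm
  | cons g l ih =>
    intro hl m hm
    rw [pr_cons_apply]
    have h1 := ih (fun g' hg' => hl g' (List.mem_cons_of_mem _ hg')) m hm
    exact L.sub_mem (h g (hl g List.mem_cons_self) _ h1) h1

theorem unip_mono {N N₂ L₂ N' : Submodule k M} {H H₂ : Subgroup (LinearMap.GeneralLinearGroup k M)}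
    {n : ℕ} (h1 : N ≤ N₂) (h2 : L₂ ≤ N') (h3 : H₂ ≤ H) (h : UnipSec N N' H n) :
    UnipSec N₂ L₂ H₂ n :=
  fun l hl hlen m hm => h1 (h l (fun g hg => h3 (hl g hg)) hlen m (h2 hm))

theorem unip_comp {N L N' : Submodule k M} {H : Subgroup (LinearMap.GeneralLinearGroup k M)}
    {a b : ℕ} (h1 : UnipSec N L H a) (h2 : UnipSec L N' H b) : UnipSec N N' H (a + b) := by
  intro l hl hlen m hm
  have e : l = l.take a ++ l.drop a := (List.take_append_drop a l).symm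
  rw [e, pr_append_apply]
  apply h1 (l.take a) (fun g hg => hl g (List.mem_of_mem_take hg))
  · rw [List.length_take, hlen]; omega
  · apply h2 (l.drop a) (fun g hg => hl g (List.mem_of_mem_drop hg))
    · rw [List.length_drop, hlen]; omega
    · exact hm

theorem unip_triv {N F : Submodule k M} {H : Subgroup (LinearMap.GeneralLinearGroup k M)}
    (h : HTriv N F H) : UnipSec N F H 1 := by
  intro l hl hlen m hm
  obtain ⟨g, rfl⟩ := List.length_eq_one_iff.mp hlen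
  rw [pr_single_apply]
  exact h g (hl g List.mem_cons_self) m hm

theorem unip_fix {N L : Submodule k M} {H : Subgroup (LinearMap.GeneralLinearGroup k M)}
    (hL : HStab L H) (hne : ¬ L ≤ N) : ∀ n, UnipSec N L H n →
    ∃ m ∈ L, m ∉ N ∧ ∀ h ∈ H, (h : M →ₗ[k] M) m - m ∈ N := by
  intro n
  induction n with
  | zero =>
    intro h
    exfalso
    apply hne
    intro m hm
    have := h [] (fun g hg => by simp at hg) rfl m hm
    rwa [pr_nil_apply] at this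
  | succ n ih =>
    intro h
    by_cases h' : UnipSec N L H n
    · exact ih h'
    · unfold UnipSec at h'
      push Not at h'
      obtain ⟨l, hl, hlen, m, hm, hmN⟩ := h'
      refine ⟨pr l m, pr_mem hL l hl m hm, hmN, fun g hg => ?_⟩
      have := h (g :: l) (fun g' hg' => by
        rcases List.mem_cons.mp hg' with rfl | h''
        · exact hg
        · exact hl g' h'') (by simp [hlen]) m hm
      rwa [pr_cons_apply] at this

/-- common fixed space of a family modulo `N` inside `N'` -/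
def Fx (N N' : Submodule k M) (𝒜 : Set (Subgroup (LinearMap.GeneralLinearGroup k M))) :
    Submodule k M where
  carrier := {m | m ∈ N' ∧ ∀ A ∈ 𝒜, ∀ a ∈ A, (a : M →ₗ[k] M) m - m ∈ N}
  add_mem' := by
    rintro m₁ m₂ ⟨h1, h1'⟩ ⟨h2, h2'⟩
    refine ⟨N'.add_mem h1 h2, fun A hA a ha => ?_⟩
    have e : (a : M →ₗ[k] M) (m₁ + m₂) - (m₁ + m₂) =
        ((a : M →ₗ[k] M) m₁ - m₁) + ((a : M →ₗ[k] M) m₂ - m₂) := by
      rw [map_add]; abel
    rw [e]; exact N.add_mem (h1' A hA a ha) (h2' A hA a ha)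
  zero_mem' := ⟨N'.zero_mem, fun A hA a ha => by
    rw [map_zero, sub_zero]; exact N.zero_mem⟩
  smul_mem' := by
    rintro c m ⟨h1, h1'⟩
    refine ⟨N'.smul_mem c h1, fun A hA a ha => ?_⟩
    have e : (a : M →ₗ[k] M) (c • m) - c • m = c • ((a : M →ₗ[k] M) m - m) := by
      rw [map_smul, smul_sub]
    rw [e]; exact N.smul_mem c (h1' A hA a ha)

theorem Fx_le (N N' : Submodule k M) (𝒜 : Set (Subgroup (LinearMap.GeneralLinearGroup k M))) :
    Fx N N' 𝒜 ≤ N' := fun _ hm => hm.1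

theorem le_Fx {N N' : Submodule k M} {𝒜 : Set (Subgroup (LinearMap.GeneralLinearGroup k M))}
    (hNN : N ≤ N') (h : ∀ A ∈ 𝒜, HStab N A) : N ≤ Fx N N' 𝒜 :=
  fun m hm => ⟨hNN hm, fun A hA a ha => N.sub_mem (h A hA a ha m hm) hm⟩

theorem Fx_anti {N N' : Submodule k M} {𝒜 ℬ : Set (Subgroup (LinearMap.GeneralLinearGroup k M))}
    (h : 𝒜 ⊆ ℬ) : Fx N N' ℬ ≤ Fx N N' 𝒜 :=
  fun _ hm => ⟨hm.1, fun A hA a ha => hm.2 A (h hA) a ha⟩

theorem htriv_Fx {N N' : Submodule k M} {𝒜 : Set (Subgroup (LinearMap.GeneralLinearGroup k M))}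
    {A : Subgroup (LinearMap.GeneralLinearGroup k M)} (hA : A ∈ 𝒜) : HTriv N (Fx N N' 𝒜) A :=
  fun a ha _ hm => hm.2 A hA a ha

/-- the members of `W` acting trivially on `F` modulo `N` -/
def WF (W : Set (Subgroup (LinearMap.GeneralLinearGroup k M))) (N F : Submodule k M) :
    Set (Subgroup (LinearMap.GeneralLinearGroup k M)) := {A | A ∈ W ∧ HTriv N F A}

theorem le_Fx_WF {W : Set (Subgroup (LinearMap.GeneralLinearGroup k M))} {N N' F : Submodule k M}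
    (hF : F ≤ N') : F ≤ Fx N N' (WF W N F) :=
  fun m hm => ⟨hF hm, fun _ hA a ha => hA.2 a ha m hm⟩

theorem hstab_Fx_of_norm {N N' : Submodule k M}
    {𝒥 : Set (Subgroup (LinearMap.GeneralLinearGroup k M))}
    {X : Subgroup (LinearMap.GeneralLinearGroup k M)}
    (hXN : HStab N X) (hXN' : HStab N' X)
    (hnorm : ∀ x ∈ X, ∀ B ∈ 𝒥, Cfsg.conjBy B x ∈ 𝒥) : HStab (Fx N N' 𝒥) X := by
  intro x hx m hm
  refine ⟨hXN' x hx m hm.1, fun B hB b hb => ?_⟩
  have hmem : x⁻¹ * b * (x⁻¹)⁻¹ ∈ Cfsg.conjBy B x⁻¹ := Subgroup.mem_map.mpr ⟨b, hb, rfl⟩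
  have h1 := hm.2 _ (hnorm x⁻¹ (X.inv_mem hx) B hB) _ hmem
  rw [conj_sub, inv_inv] at h1
  have h2 := hXN x hx _ h1
  rwa [self_apply_inv] at h2

/-- the filtration of `N'` modulo `N` by the augmentation powers of `S` -/
def Lf (S : Subgroup (LinearMap.GeneralLinearGroup k M)) (N N' : Submodule k M) (i : ℕ) :
    Submodule k M :=
  N ⊔ Submodule.span k {v | ∃ l : List (LinearMap.GeneralLinearGroup k M),
    (∀ g ∈ l, g ∈ S) ∧ l.length = i ∧ ∃ m ∈ N', v = pr l m}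

theorem N_le_Lf {S : Subgroup (LinearMap.GeneralLinearGroup k M)} {N N' : Submodule k M} {i : ℕ} :
    N ≤ Lf S N N' i := le_sup_left

theorem gen_mem_Lf {S : Subgroup (LinearMap.GeneralLinearGroup k M)} {N N' : Submodule k M}
    {l : List (LinearMap.GeneralLinearGroup k M)} (hl : ∀ g ∈ l, g ∈ S) {m : M} (hm : m ∈ N') :
    pr l m ∈ Lf S N N' l.length :=
  (le_sup_right : _ ≤ Lf S N N' l.length) (Submodule.subset_span ⟨l, hl, rfl, m, hm, rfl⟩)

theorem N'_le_Lf0 {S : Subgroup (LinearMap.GeneralLinearGroup k M)} {N N' : Submodule k M} :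
    N' ≤ Lf S N N' 0 := by
  intro m hm
  have := gen_mem_Lf (S := S) (N := N) (l := []) (fun g hg => by simp at hg) hm
  rwa [pr_nil_apply] at this

theorem Lf_succ_le {S : Subgroup (LinearMap.GeneralLinearGroup k M)} {N N' : Submodule k M}
    (hN' : HStab N' S) (i : ℕ) : Lf S N N' (i + 1) ≤ Lf S N N' i := by
  apply sup_le le_sup_left
  apply Submodule.span_le.mpr
  rintro v ⟨l, hl, hlen, m, hm, rfl⟩
  have hne : l ≠ [] := by
    intro h; rw [h] at hlen; simp at hlen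
  have e := List.dropLast_append_getLast hne
  have hg : l.getLast hne ∈ S := hl _ (List.getLast_mem hne)
  have hm' : ((l.getLast hne : LinearMap.GeneralLinearGroup k M) : M →ₗ[k] M) m - m ∈ N' :=
    N'.sub_mem (hN' _ hg m hm) hm
  have hlen' : l.dropLast.length = i := by
    rw [List.length_dropLast, hlen]; rfl
  have h1 := gen_mem_Lf (S := S) (N := N) (l := l.dropLast)
    (fun g hg' => hl g (List.mem_of_mem_dropLast hg')) hm'
  rw [hlen'] at h1
  have e2 : pr l m = pr l.dropLast (((l.getLast hne : LinearMap.GeneralLinearGroup k M) :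
      M →ₗ[k] M) m - m) := by
    conv_lhs => rw [← e]
    rw [pr_append_apply, pr_single_apply]
  show pr l m ∈ Lf S N N' i
  rw [e2]; exact h1

theorem Lf_anti {S : Subgroup (LinearMap.GeneralLinearGroup k M)} {N N' : Submodule k M}
    (hN' : HStab N' S) (i : ℕ) : ∀ j, Lf S N N' (i + j) ≤ Lf S N N' i := by
  intro j
  induction j with
  | zero => exact le_rfl
  | succ j ih => exact (Lf_succ_le hN' (i + j)).trans ih

theorem Lf_sub_mem {S : Subgroup (LinearMap.GeneralLinearGroup k M)} {N N' : Submodule k M}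
    (hN : HStab N S) {s : LinearMap.GeneralLinearGroup k M} (hs : s ∈ S) {i : ℕ} :
    ∀ m ∈ Lf S N N' i, (s : M →ₗ[k] M) m - m ∈ Lf S N N' (i + 1) := by
  have h : Lf S N N' i ≤ (Lf S N N' (i + 1)).comap ((s : M →ₗ[k] M) - 1) := by
    apply sup_le
    · intro m hm
      rw [Submodule.mem_comap]
      have e : ((s : M →ₗ[k] M) - 1) m = (s : M →ₗ[k] M) m - m := rfl
      rw [e]
      exact N_le_Lf (N.sub_mem (hN s hs m hm) hm)
    · apply Submodule.span_le.mpr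
      rintro v ⟨l, hl, hlen, m, hm, rfl⟩
      rw [SetLike.mem_coe, Submodule.mem_comap]
      have e : ((s : M →ₗ[k] M) - 1) (pr l m) = pr (s :: l) m := by
        rw [pr_cons_apply]; rfl
      rw [e]
      have h1 := gen_mem_Lf (S := S) (N := N) (l := s :: l) (fun g hg => by
        rcases List.mem_cons.mp hg with rfl | h''
        · exact hs
        · exact hl g h'') hm
      rwa [List.length_cons, hlen] at h1
  intro m hm
  exact h hm

theorem Lf_stab {S : Subgroup (LinearMap.GeneralLinearGroup k M)} {N N' : Submodule k M}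
    (hN : HStab N S) (hN' : HStab N' S) {s : LinearMap.GeneralLinearGroup k M} (hs : s ∈ S)
    {i : ℕ} : ∀ m ∈ Lf S N N' i, (s : M →ₗ[k] M) m ∈ Lf S N N' i := by
  intro m hm
  have h1 := Lf_succ_le hN' i (Lf_sub_mem hN hs m hm)
  have := (Lf S N N' i).add_mem h1 hm
  rwa [sub_add_cancel] at this

theorem Lf_le_N {S : Subgroup (LinearMap.GeneralLinearGroup k M)} {N N' : Submodule k M} {n : ℕ}
    (h : UnipSec N N' S n) : Lf S N N' n ≤ N := by
  apply sup_le le_rfl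
  apply Submodule.span_le.mpr
  rintro v ⟨l, hl, hlen, m, hm, rfl⟩
  exact h l hl hlen m hm

theorem norm_grow {N N' : Submodule k M}
    {𝒮 𝒥 : Set (Subgroup (LinearMap.GeneralLinearGroup k M))} {n : ℕ}
    (hSN : ∀ A ∈ 𝒮, HStab N A) (hSN' : ∀ A ∈ 𝒮, HStab N' A)
    (hSconj : ∀ A ∈ 𝒮, ∀ B ∈ 𝒮, ∀ b ∈ B, Cfsg.conjBy A b ∈ 𝒮)
    (hunip : UnipSec N N' (⨆ A ∈ 𝒮, A) n)
    (hJS : 𝒥 ⊆ 𝒮) (hclosed : ∀ A ∈ 𝒮, HTriv N (Fx N N' 𝒥) A → A ∈ 𝒥)
    {X₀ : Subgroup (LinearMap.GeneralLinearGroup k M)} (hX₀ : X₀ ∈ 𝒮) (hX₀J : X₀ ∉ 𝒥) :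
    ∃ X ∈ 𝒮, X ∉ 𝒥 ∧ ∀ x ∈ X, ∀ B ∈ 𝒥, Cfsg.conjBy B x ∈ 𝒥 := by
  obtain ⟨S, hS⟩ : ∃ S : Subgroup (LinearMap.GeneralLinearGroup k M), S = ⨆ A ∈ 𝒮, A := ⟨_, rfl⟩
  rw [← hS] at hunip
  have hle : ∀ A ∈ 𝒮, A ≤ S := fun A hA => by
    rw [hS]; exact le_biSup (fun A => A) hA
  have hStN : HStab N S := by rw [hS]; exact hstab_iSup hSN
  have hStN' : HStab N' S := by rw [hS]; exact hstab_iSup hSN'
  have key : ∀ t j (X : Subgroup (LinearMap.GeneralLinearGroup k M)), n ≤ j + t → X ∈ 𝒮 → X ∉ 𝒥 →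
      (∀ x ∈ X, ∀ i, ∀ m ∈ Fx N N' 𝒥, m ∈ Lf S N N' i →
        (x : M →ₗ[k] M) m - m ∈ Lf S N N' (i + j)) →
      ∃ X ∈ 𝒮, X ∉ 𝒥 ∧ ∀ x ∈ X, ∀ B ∈ 𝒥, Cfsg.conjBy B x ∈ 𝒥 := by
    intro t
    induction t with
    | zero =>
      intro j X hj hXS hXJ hD
      exfalso; apply hXJ; apply hclosed X hXS
      intro x hx m hm
      have h1 := hD x hx 0 m hm (N'_le_Lf0 hm.1)
      have h2 : Lf S N N' (0 + j) ≤ N := by
        have : 0 + j = n + (j - n) := by omega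
        rw [this]; exact (Lf_anti hStN' n (j - n)).trans (Lf_le_N hunip)
      exact h2 h1
    | succ t ih =>
      intro j X hj hXS hXJ hD
      by_cases hn : ∀ x ∈ X, ∀ B ∈ 𝒥, Cfsg.conjBy B x ∈ 𝒥
      · exact ⟨X, hXS, hXJ, hn⟩
      · push Not at hn
        obtain ⟨x, hx, B, hB, hBx⟩ := hn
        apply ih (j + 1) (Cfsg.conjBy B x) (by omega) (hSconj B (hJS hB) X hXS x hx) hBx
        intro y hy i m hm hmi
        obtain ⟨b, hb, rfl⟩ := Subgroup.mem_map.mp hy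
        show ((x * b * x⁻¹ : LinearMap.GeneralLinearGroup k M) : M →ₗ[k] M) m - m ∈ _
        rw [conj_sub]
        have hxS : x ∈ S := hle X hXS hx
        have hbS : b ∈ S := hle B (hJS hB) hb
        have hr := hD x⁻¹ (X.inv_mem hx) i m hm hmi
        have e : (b : M →ₗ[k] M) (((x⁻¹ : LinearMap.GeneralLinearGroup k M) : M →ₗ[k] M) m) -
            ((x⁻¹ : LinearMap.GeneralLinearGroup k M) : M →ₗ[k] M) m =
            ((b : M →ₗ[k] M) m - m) +
            ((b : M →ₗ[k] M) (((x⁻¹ : LinearMap.GeneralLinearGroup k M) : M →ₗ[k] M) m - m) -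
              (((x⁻¹ : LinearMap.GeneralLinearGroup k M) : M →ₗ[k] M) m - m)) := by
          rw [map_sub]; abel
        rw [e]
        apply Lf_stab hStN hStN' hxS
        have e2 : i + (j + 1) = (i + j) + 1 := by omega
        rw [e2]
        exact (Lf S N N' (i + j + 1)).add_mem (N_le_Lf (hm.2 B hB b hb))
          (Lf_sub_mem hStN hbS _ hr)
  exact key n 1 X₀ (by omega) hX₀ hX₀J
    (fun x hx i m _ hmi => Lf_sub_mem hStN (hle X₀ hX₀ hx) m hmi)

theorem WF_anti {W : Set (Subgroup (LinearMap.GeneralLinearGroup k M))} {N F F' : Submodule k M}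
    (h : F ≤ F') : WF W N F' ⊆ WF W N F :=
  fun _ hA => ⟨hA.1, fun a ha m hm => hA.2 a ha m (h hm)⟩

theorem WF_stab {W : Set (Subgroup (LinearMap.GeneralLinearGroup k M))} {N F : Submodule k M}
    (hNF : N ≤ F) {A : Subgroup (LinearMap.GeneralLinearGroup k M)} (hA : A ∈ WF W N F) :
    HStab F A := by
  intro a ha m hm
  have := F.add_mem (hNF (hA.2 a ha m hm)) hm
  rwa [sub_add_cancel] at this

theorem WF_conj {W : Set (Subgroup (LinearMap.GeneralLinearGroup k M))} {N F : Submodule k M}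
    (hNF : N ≤ F) (hN : ∀ A ∈ W, HStab N A)
    (hconj : ∀ A ∈ W, ∀ B ∈ W, ∀ b ∈ B, Cfsg.conjBy A b ∈ W) :
    ∀ A ∈ WF W N F, ∀ B ∈ WF W N F, ∀ b ∈ B, Cfsg.conjBy A b ∈ WF W N F := by
  intro A hA B hB b hb
  refine ⟨hconj A hA.1 B hB.1 b hb, ?_⟩
  intro y hy m hm
  obtain ⟨a, ha, rfl⟩ := Subgroup.mem_map.mp hy
  show ((b * a * b⁻¹ : LinearMap.GeneralLinearGroup k M) : M →ₗ[k] M) m - m ∈ N
  rw [conj_sub]
  apply hN B hB.1 b hb
  apply hA.2 a ha
  exact WF_stab hNF hB b⁻¹ (B.inv_mem hb) m hm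

theorem fix_unip [FiniteDimensional k M] {d : ℕ}
    (IH : ∀ (N N' : Submodule k M) (W : Set (Subgroup (LinearMap.GeneralLinearGroup k M))),
      N ≤ N' → Module.finrank k N' ≤ Module.finrank k N + d →
      (∀ A ∈ W, HStab N A) → (∀ A ∈ W, HStab N' A) →
      (∀ A ∈ W, ∀ B ∈ W, ∀ b ∈ B, Cfsg.conjBy A b ∈ W) →
      (∀ A ∈ W, ∀ B ∈ W, ∃ n, UnipSec N N' (A ⊔ B) n) →
      ∃ n, UnipSec N N' (⨆ A ∈ W, A) n)
    {N N' : Submodule k M} {W : Set (Subgroup (LinearMap.GeneralLinearGroup k M))}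
    (hd : Module.finrank k N' ≤ Module.finrank k N + (d + 1))
    (hN : ∀ A ∈ W, HStab N A) (hN' : ∀ A ∈ W, HStab N' A)
    (hconj : ∀ A ∈ W, ∀ B ∈ W, ∀ b ∈ B, Cfsg.conjBy A b ∈ W)
    (hpair : ∀ A ∈ W, ∀ B ∈ W, ∃ n, UnipSec N N' (A ⊔ B) n)
    {F : Submodule k M} (hNF : N ≤ F) (hFN' : F ≤ N') (hF : ¬ F ≤ N) :
    ∃ n, UnipSec N N' (⨆ A ∈ WF W N F, A) n := by
  have hlt : Module.finrank k N < Module.finrank k F :=
    Submodule.finrank_lt_finrank_of_lt (lt_of_le_not_ge hNF hF)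
  obtain ⟨n, hn⟩ := IH F N' (WF W N F) hFN' (by omega)
    (fun A hA => WF_stab hNF hA) (fun A hA => hN' A hA.1) (WF_conj hNF hN hconj)
    (fun A hA B hB => by
      obtain ⟨n, hn⟩ := hpair A hA.1 B hB.1
      exact ⟨n, unip_mono hNF le_rfl le_rfl hn⟩)
  exact ⟨1 + n, unip_comp (unip_triv (htriv_iSup (fun A hA => hN A hA.1) (fun A hA => hA.2))) hn⟩

/-- `F` is the fixed space modulo `N` of a subfamily of `W`, and is not inside `N` -/
def IsCF (W : Set (Subgroup (LinearMap.GeneralLinearGroup k M))) (N N' F : Submodule k M) : Prop :=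
  ∃ 𝒜 : Set (Subgroup (LinearMap.GeneralLinearGroup k M)), 𝒜 ⊆ W ∧ F = Fx N N' 𝒜 ∧ ¬ F ≤ N

/-- minimal among the fixed spaces -/
def IsMinCF (W : Set (Subgroup (LinearMap.GeneralLinearGroup k M))) (N N' F : Submodule k M) :
    Prop :=
  IsCF W N N' F ∧ ∀ F', IsCF W N N' F' → F' ≤ F → F' = F

theorem cf_le {W : Set (Subgroup (LinearMap.GeneralLinearGroup k M))} {N N' F : Submodule k M}
    (h : IsCF W N N' F) : F ≤ N' := by
  obtain ⟨𝒜, -, rfl, -⟩ := h; exact Fx_le _ _ _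

theorem cf_not_le {W : Set (Subgroup (LinearMap.GeneralLinearGroup k M))} {N N' F : Submodule k M}
    (h : IsCF W N N' F) : ¬ F ≤ N := by
  obtain ⟨𝒜, -, -, h⟩ := h; exact h

theorem cf_closed {W : Set (Subgroup (LinearMap.GeneralLinearGroup k M))} {N N' F : Submodule k M}
    (h : IsCF W N N' F) : Fx N N' (WF W N F) = F := by
  obtain ⟨𝒜, h𝒜, rfl, -⟩ := h
  apply le_antisymm
  · exact Fx_anti (fun A hA => ⟨h𝒜 hA, htriv_Fx hA⟩)
  · exact le_Fx_WF (Fx_le _ _ _)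

theorem exists_min [FiniteDimensional k M]
    {W : Set (Subgroup (LinearMap.GeneralLinearGroup k M))} {N N' F : Submodule k M}
    (h : IsCF W N N' F) : ∃ F', IsMinCF W N N' F' ∧ F' ≤ F := by
  classical
  have hex : ∃ r, ∃ F', IsCF W N N' F' ∧ F' ≤ F ∧ Module.finrank k F' = r :=
    ⟨_, F, h, le_rfl, rfl⟩
  obtain ⟨F', hF', hF'F, hr⟩ := Nat.find_spec hex
  refine ⟨F', ⟨hF', fun F'' hF'' hle => ?_⟩, hF'F⟩
  apply Submodule.eq_of_le_of_finrank_le hle
  rw [hr]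
  exact Nat.find_min' hex ⟨F'', hF'', hle.trans hF'F, rfl⟩

theorem AL [FiniteDimensional k M] {N N' : Submodule k M}
    {W : Set (Subgroup (LinearMap.GeneralLinearGroup k M))}
    (hNN : N ≤ N')
    (hN : ∀ A ∈ W, HStab N A) (hN' : ∀ A ∈ W, HStab N' A)
    (hconj : ∀ A ∈ W, ∀ B ∈ W, ∀ b ∈ B, Cfsg.conjBy A b ∈ W)
    (hpair : ∀ A ∈ W, ∀ B ∈ W, ∃ n, UnipSec N N' (A ⊔ B) n)
    (hirr : ∀ L : Submodule k M, N ≤ L → L ≤ N' → (∀ A ∈ W, HStab L A) → L ≤ N ∨ N' ≤ L)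
    (hfix : ∀ F : Submodule k M, N ≤ F → F ≤ N' → ¬ F ≤ N →
      ∃ n, UnipSec N N' (⨆ A ∈ WF W N F, A) n) :
    ∀ A ∈ W, HTriv N N' A := by
  by_contra hcon
  push Not at hcon
  obtain ⟨X₀, hX₀, hX₀t⟩ := hcon
  have hN'N : ¬ N' ≤ N := by
    intro h
    apply hX₀t
    intro a ha m hm
    exact N.sub_mem (hN X₀ hX₀ a ha m (h hm)) (h hm)
  have hNle : ∀ {F : Submodule k M}, IsCF W N N' F → N ≤ F := by
    rintro F ⟨𝒜, h𝒜, rfl, -⟩
    exact le_Fx hNN (fun A hA => hN A (h𝒜 hA))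
  have hK1 : ∀ A ∈ W, ∀ B ∈ W, IsCF W N N' (Fx N N' {A, B}) := by
    intro A hA B hB
    refine ⟨{A, B}, ?_, rfl, ?_⟩
    · rintro C (rfl | rfl)
      · exact hA
      · exact hB
    · obtain ⟨n, hn⟩ := hpair A hA B hB
      obtain ⟨m, hm, hmN, hfix'⟩ := unip_fix (hstab_sup (hN' A hA) (hN' B hB)) hN'N n hn
      intro hle
      apply hmN
      apply hle
      refine ⟨hm, ?_⟩
      rintro C (rfl | rfl) c hc
      · exact hfix' c (Subgroup.mem_sup_left hc)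
      · exact hfix' c (Subgroup.mem_sup_right hc)
  have hK2 : ∀ A ∈ W, ∃ F, IsMinCF W N N' F ∧ A ∈ WF W N F := by
    intro A hA
    obtain ⟨F, hF, hle⟩ := exists_min (hK1 A hA A hA)
    refine ⟨F, hF, hA, ?_⟩
    intro a ha m hm
    exact (hle hm).2 A (Or.inl rfl) a ha
  have hK3 : ∃ F₁ F₂, IsMinCF W N N' F₁ ∧ IsMinCF W N N' F₂ ∧ F₁ ≠ F₂ := by
    by_contra hno
    push Not at hno
    obtain ⟨F₁, hF₁, -⟩ := hK2 X₀ hX₀
    have hall : ∀ A ∈ W, A ∈ WF W N F₁ := by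
      intro A hA
      obtain ⟨F, hF, hAF⟩ := hK2 A hA
      rw [hno F₁ F hF₁ hF]
      exact hAF
    have hWF : WF W N F₁ = W := Set.eq_of_subset_of_subset (fun A hA => hA.1) hall
    have hF₁eq : Fx N N' W = F₁ := by
      have := cf_closed hF₁.1
      rwa [hWF] at this
    have hst : ∀ A ∈ W, HStab F₁ A := by
      intro A hA
      rw [← hF₁eq]
      exact hstab_Fx_of_norm (hN A hA) (hN' A hA) (fun x hx B hB => hconj B hB A hA x hx)
    rcases hirr F₁ (hNle hF₁.1) (cf_le hF₁.1) hst with h | h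
    · exact cf_not_le hF₁.1 h
    · apply hX₀t
      intro a ha m hm
      exact (hall X₀ hX₀).2 a ha m (h hm)
  classical
  have hex : ∃ r, ∃ F₁ F₂, IsMinCF W N N' F₁ ∧ IsMinCF W N N' F₂ ∧ F₁ ≠ F₂ ∧
      Module.finrank k (Fx N N' (WF W N F₁ ∩ WF W N F₂)) = r := by
    obtain ⟨F₁, F₂, h1, h2, h3⟩ := hK3
    exact ⟨_, F₁, F₂, h1, h2, h3, rfl⟩
  obtain ⟨F₁, F₂, hF₁, hF₂, hne, hr⟩ := Nat.find_spec hex
  have hmin : ∀ F F', IsMinCF W N N' F → IsMinCF W N N' F' → F ≠ F' →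
      Module.finrank k (Fx N N' (WF W N F₁ ∩ WF W N F₂)) ≤
        Module.finrank k (Fx N N' (WF W N F ∩ WF W N F')) := by
    intro F F' hF hF' hFF'
    rw [hr]
    exact Nat.find_min' hex ⟨F, F', hF, hF', hFF', rfl⟩
  obtain ⟨𝒥, h𝒥⟩ : ∃ 𝒥, 𝒥 = WF W N F₁ ∩ WF W N F₂ := ⟨_, rfl⟩
  rw [← h𝒥] at hmin
  have hJ1 : 𝒥 ⊆ WF W N F₁ := by rw [h𝒥]; exact Set.inter_subset_left
  have hJ2 : 𝒥 ⊆ WF W N F₂ := by rw [h𝒥]; exact Set.inter_subset_right
  have hJW : 𝒥 ⊆ W := fun A hA => (hJ1 hA).1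
  have hF1le : F₁ ≤ Fx N N' 𝒥 :=
    calc F₁ = Fx N N' (WF W N F₁) := (cf_closed hF₁.1).symm
      _ ≤ Fx N N' 𝒥 := Fx_anti hJ1
  have hF2le : F₂ ≤ Fx N N' 𝒥 :=
    calc F₂ = Fx N N' (WF W N F₂) := (cf_closed hF₂.1).symm
      _ ≤ Fx N N' 𝒥 := Fx_anti hJ2
  have hF12N : ¬ Fx N N' 𝒥 ≤ N := fun h => cf_not_le hF₁.1 (hF1le.trans h)
  have hJclosed : ∀ A ∈ W, HTriv N (Fx N N' 𝒥) A → A ∈ 𝒥 := by
    intro A hA ht
    rw [h𝒥]
    exact ⟨⟨hA, fun a ha m hm => ht a ha m (hF1le hm)⟩,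
      ⟨hA, fun a ha m hm => ht a ha m (hF2le hm)⟩⟩
  have hstep3 : ∀ F, IsMinCF W N N' F → 𝒥 ⊆ WF W N F → (∃ X₁ ∈ WF W N F, X₁ ∉ 𝒥) →
      ∃ X ∈ WF W N F, X ∉ 𝒥 ∧ HStab (Fx N N' 𝒥) X := by
    rintro F hF hJF ⟨X₁, hX₁, hX₁J⟩
    obtain ⟨n, hn⟩ := hfix F (hNle hF.1) (cf_le hF.1) (cf_not_le hF.1)
    obtain ⟨X, hX, hXJ, hnorm⟩ := norm_grow (fun A hA => hN A hA.1) (fun A hA => hN' A hA.1)
      (WF_conj (hNle hF.1) hN hconj) hn hJF (fun A hA ht => hJclosed A hA.1 ht) hX₁ hX₁J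
    exact ⟨X, hX, hXJ, hstab_Fx_of_norm (hN X hX.1) (hN' X hX.1) hnorm⟩
  have hnot12 : ∃ X₁ ∈ WF W N F₁, X₁ ∉ 𝒥 := by
    by_contra hno
    push Not at hno
    apply hne
    have hle : F₂ ≤ F₁ :=
      calc F₂ = Fx N N' (WF W N F₂) := (cf_closed hF₂.1).symm
        _ ≤ Fx N N' (WF W N F₁) := Fx_anti (fun A hA => hJ2 (hno A hA))
        _ = F₁ := cf_closed hF₁.1
    exact (hF₁.2 F₂ hF₂.1 hle).symm
  have hnot21 : ∃ X₁ ∈ WF W N F₂, X₁ ∉ 𝒥 := by
    by_contra hno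
    push Not at hno
    apply hne
    have hle : F₁ ≤ F₂ :=
      calc F₁ = Fx N N' (WF W N F₁) := (cf_closed hF₁.1).symm
        _ ≤ Fx N N' (WF W N F₂) := Fx_anti (fun A hA => hJ1 (hno A hA))
        _ = F₂ := cf_closed hF₂.1
    exact hF₂.2 F₁ hF₁.1 hle
  obtain ⟨X, hX, hXJ, hXst⟩ := hstep3 F₁ hF₁ hJ1 hnot12
  obtain ⟨Y, hY, hYJ, hYst⟩ := hstep3 F₂ hF₂ hJ2 hnot21
  obtain ⟨n, hn⟩ := hpair X hX.1 Y hY.1
  obtain ⟨m, hm, hmN, hmfix⟩ := unip_fix (hstab_sup hXst hYst) hF12N n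
    (unip_mono le_rfl (Fx_le _ _ _) le_rfl hn)
  have hCF' : IsCF W N N' (Fx N N' (𝒥 ∪ {X, Y})) := by
    refine ⟨𝒥 ∪ {X, Y}, ?_, rfl, ?_⟩
    · rintro C (hC | rfl | rfl)
      · exact hJW hC
      · exact hX.1
      · exact hY.1
    · intro hle
      apply hmN
      apply hle
      refine ⟨hm.1, ?_⟩
      rintro C (hC | rfl | rfl) c hc
      · exact hm.2 C hC c hc
      · exact hmfix c (Subgroup.mem_sup_left hc)
      · exact hmfix c (Subgroup.mem_sup_right hc)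
  obtain ⟨F₃, hF₃, hF₃le⟩ := exists_min hCF'
  have hJ3 : 𝒥 ∪ {X, Y} ⊆ WF W N F₃ := by
    intro C hC
    refine ⟨?_, fun c hc m hm => (hF₃le hm).2 C hC c hc⟩
    rcases hC with hC | rfl | rfl
    · exact hJW hC
    · exact hX.1
    · exact hY.1
  have hstep5 : ∀ (F : Submodule k M) (Z : Subgroup (LinearMap.GeneralLinearGroup k M)),
      IsMinCF W N N' F → 𝒥 ⊆ WF W N F → Z ∈ WF W N F → Z ∉ 𝒥 → Z ∈ WF W N F₃ → F₃ = F := by
    intro F Z hF hJF hZ hZJ hZ3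
    by_contra hne3
    have h1 := hmin F F₃ hF hF₃ (fun h => hne3 h.symm)
    have hle : Fx N N' (WF W N F ∩ WF W N F₃) ≤ Fx N N' 𝒥 :=
      Fx_anti (fun A hA => ⟨hJF hA, hJ3 (Or.inl hA)⟩)
    have heq := Submodule.eq_of_le_of_finrank_le hle h1
    apply hZJ
    apply hJclosed Z hZ.1
    intro z hz m hm
    rw [← heq] at hm
    exact hm.2 Z ⟨hZ, hZ3⟩ z hz
  have e1 := hstep5 F₁ X hF₁ hJ1 hX hXJ (hJ3 (Or.inr (Or.inl rfl)))
  have e2 := hstep5 F₂ Y hF₂ hJ2 hY hYJ (hJ3 (Or.inr (Or.inr rfl)))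
  exact hne (e1.symm.trans e2)

theorem main [FiniteDimensional k M] : ∀ d : ℕ, ∀ (N N' : Submodule k M)
    (W : Set (Subgroup (LinearMap.GeneralLinearGroup k M))),
    N ≤ N' → Module.finrank k N' ≤ Module.finrank k N + d →
    (∀ A ∈ W, HStab N A) → (∀ A ∈ W, HStab N' A) →
    (∀ A ∈ W, ∀ B ∈ W, ∀ b ∈ B, Cfsg.conjBy A b ∈ W) →
    (∀ A ∈ W, ∀ B ∈ W, ∃ n, UnipSec N N' (A ⊔ B) n) →
    ∃ n, UnipSec N N' (⨆ A ∈ W, A) n := by
  intro d
  induction d with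
  | zero =>
    intro N N' W hNN hd _ _ _ _
    have : N = N' := Submodule.eq_of_le_of_finrank_le hNN (by omega)
    refine ⟨0, fun l _ hlen m hm => ?_⟩
    rw [List.length_eq_zero_iff] at hlen
    rw [hlen, pr_nil_apply, this]
    exact hm
  | succ d IH =>
    intro N N' W hNN hd hN hN' hconj hpair
    by_cases hle : N' ≤ N
    · refine ⟨0, fun l _ hlen m hm => ?_⟩
      rw [List.length_eq_zero_iff] at hlen
      rw [hlen, pr_nil_apply]
      exact hle hm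
    by_cases hA : ∃ L : Submodule k M, N ≤ L ∧ L ≤ N' ∧ (∀ A ∈ W, HStab L A) ∧ ¬ L ≤ N ∧ ¬ N' ≤ L
    · obtain ⟨L, hNL, hLN', hL, hLN, hN'L⟩ := hA
      have h1 : Module.finrank k N < Module.finrank k L :=
        Submodule.finrank_lt_finrank_of_lt (lt_of_le_not_ge hNL hLN)
      have h2 : Module.finrank k L < Module.finrank k N' :=
        Submodule.finrank_lt_finrank_of_lt (lt_of_le_not_ge hLN' hN'L)
      obtain ⟨a, ha⟩ := IH N L W hNL (by omega) hN hL hconj (fun A hA B hB => by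
        obtain ⟨n, hn⟩ := hpair A hA B hB
        exact ⟨n, unip_mono le_rfl hLN' le_rfl hn⟩)
      obtain ⟨b, hb⟩ := IH L N' W hLN' (by omega) hL hN' hconj (fun A hA B hB => by
        obtain ⟨n, hn⟩ := hpair A hA B hB
        exact ⟨n, unip_mono hNL le_rfl le_rfl hn⟩)
      exact ⟨a + b, unip_comp ha hb⟩
    · push Not at hA
      refine ⟨1, unip_triv (htriv_iSup hN ?_)⟩
      apply AL hNN hN hN' hconj hpair
      · intro L h1 h2 h3
        by_contra hcon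
        push Not at hcon
        exact hcon.2 (hA L h1 h2 h3 hcon.1)
      · intro F h1 h2 h3
        exact fix_unip IH hd hN hN' hconj hpair h1 h2 h3

end aux

/-- Let M be a finite-dimensional vector space over a field k, G ≤ GL(M), and 𝒲 a set of subgroups of G, invariant under conjugation by G, such that any two members of 𝒲 generate a subgroup acting unipotently on M (for some n all products of n endomorphisms g − 1 from it vanish). Then the subgroup generated by all members of 𝒲 acts unipotently on M and is normal in G. -/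
theorem result {k : Type*} [Field k] {M : Type*} [AddCommGroup M] [Module k M] [FiniteDimensional k M]
    {G : Subgroup (LinearMap.GeneralLinearGroup k M)} {W : Set (Subgroup (LinearMap.GeneralLinearGroup k M))} (hWG : ∀ A ∈ W, A ≤ G)
    (hWW : ∀ A ∈ W, ∀ B ∈ W, Cfsg.IsUnipotentOn (A ⊔ B)) (hWconj : ∀ A ∈ W, ∀ g ∈ G, Cfsg.conjBy A g ∈ W) :
    Cfsg.IsUnipotentOn (⨆ A ∈ W, A) ∧ ∀ g ∈ G, Cfsg.conjBy (⨆ A ∈ W, A) g = ⨆ A ∈ W, A := by
  have hnorm : ∀ g ∈ G, Cfsg.conjBy (⨆ A ∈ W, A) g ≤ ⨆ A ∈ W, A := by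
    intro g hg
    show Subgroup.map _ _ ≤ _
    rw [Subgroup.map_iSup]
    apply iSup_le; intro A
    rw [Subgroup.map_iSup]
    apply iSup_le; intro hA
    exact le_biSup (fun A => A) (hWconj A hA g hg)
  refine ⟨?_, fun g hg => le_antisymm (hnorm g hg) ?_⟩
  · rw [isUnip_iff]
    have hpair : ∀ A ∈ W, ∀ B ∈ W, ∃ n, UnipSec (⊥ : Submodule k M) ⊤ (A ⊔ B) n := by
      intro A hA B hB
      obtain ⟨n, hn⟩ := (isUnip_iff _).mp (hWW A hA B hB)
      refine ⟨n, fun l hl hlen m _ => ?_⟩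
      rw [hn l hl hlen]
      exact Submodule.zero_mem _
    obtain ⟨n, hn⟩ := main (Module.finrank k M) ⊥ ⊤ W bot_le (by rw [finrank_top]; omega)
      (fun A _ a _ m hm => by rw [Submodule.mem_bot] at hm ⊢; rw [hm, map_zero])
      (fun A _ a _ m _ => Submodule.mem_top)
      (fun A hA B hB b hb => hWconj A hA b (hWG B hB hb)) hpair
    refine ⟨n, fun l hl hlen => ?_⟩
    ext m
    have := hn l hl hlen m Submodule.mem_top
    rw [Submodule.mem_bot] at this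
    rw [this]; rfl
  · intro x hx
    have h1 : g⁻¹ * x * (g⁻¹)⁻¹ ∈ (⨆ A ∈ W, A) :=
      hnorm g⁻¹ (G.inv_mem hg) (Subgroup.mem_map.mpr ⟨x, hx, rfl⟩)
    refine Subgroup.mem_map.mpr ⟨g⁻¹ * x * (g⁻¹)⁻¹, h1, ?_⟩
    show g * (g⁻¹ * x * (g⁻¹)⁻¹) * g⁻¹ = x
    group

end Cfsg.Agent.S5061
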