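import Cfsg.Statements.S5067
import Mathlib

set_option autoImplicit false
open Cfsg

namespace Cfsg.Agent.S5067

open scoped commutatorElement

lemma key {P : Type*} [Group P] [Group.IsNilpotent P] (hna : ¬ IsMulCommutative P)
    {E : Subgroup P} (hE : IsMulCommutative ↥E) :
    Group.nilpotencyClass ↥(Subgroup.normalClosure (E : Set P)) < Group.nilpotencyClass P := by
  have hc2 : 2 ≤ Group.nilpotencyClass P := by
    by_contra h
    push Not at h
    exact hna (Group.IsNilpotent.nilpotencyClass_le_one_iff.mp (by omega))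
  set D : Subgroup P := commutator P with hD
  set L : Subgroup P := (⊤ : Subgroup P).lowerCentralSeries 2 with hL
  have hLdef : L = ⁅D, ⊤⁆ := by
    rw [hL, Subgroup.lowerCentralSeries_succ, Subgroup.top_lowerCentralSeries_one]
  have hnormal : (E ⊔ D).Normal := Subgroup.Normal.of_commutator_le P le_sup_right
  have hN : Subgroup.normalClosure (E : Set P) ≤ E ⊔ D :=
    Subgroup.normalClosure_le_normal (by exact_mod_cast (le_sup_left : E ≤ E ⊔ D))
  have hLn : L.Normal := by rw [hL]; infer_instance
  have hDn : D.Normal := by rw [hD]; infer_instance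
  -- elements of D are central modulo L
  have hDc : ∀ d ∈ D, ∀ g : P, (QuotientGroup.mk' L) d * (QuotientGroup.mk' L) g =
      (QuotientGroup.mk' L) g * (QuotientGroup.mk' L) d := by
    intro d hd g
    have h1 : ⁅d, g⁆ ∈ L := by
      rw [hLdef]; exact Subgroup.commutator_mem_commutator hd (Subgroup.mem_top g)
    have h2 : (QuotientGroup.mk' L) ⁅d, g⁆ = 1 := (QuotientGroup.eq_one_iff _).mpr h1
    rw [commutatorElement_def, map_mul, map_mul, map_mul, map_inv, map_inv] at h2
    have h3 := congrArg (fun z => z * ((QuotientGroup.mk' L) g * (QuotientGroup.mk' L) d)) h2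
    simpa [mul_assoc] using h3
  have hcomm : ⁅E ⊔ D, E ⊔ D⁆ ≤ L := by
    rw [Subgroup.commutator_le]
    intro g₁ hg₁ g₂ hg₂
    obtain ⟨e₁, he₁, d₁, hd₁, rfl⟩ := Subgroup.mem_sup_of_normal_right.mp hg₁
    obtain ⟨e₂, he₂, d₂, hd₂, rfl⟩ := Subgroup.mem_sup_of_normal_right.mp hg₂
    rw [← QuotientGroup.eq_one_iff (N := L), commutatorElement_def]
    show (QuotientGroup.mk' L) (e₁ * d₁ * (e₂ * d₂) * (e₁ * d₁)⁻¹ * (e₂ * d₂)⁻¹) = 1
    have hee : (QuotientGroup.mk' L) e₁ * (QuotientGroup.mk' L) e₂ =
        (QuotientGroup.mk' L) e₂ * (QuotientGroup.mk' L) e₁ := by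
      rw [← map_mul, ← map_mul, setLike_mul_comm he₁ he₂]
    have h1 := hDc d₁ hd₁ e₂
    have h2 := hDc d₁ hd₁ d₂
    have h3 := hDc d₂ hd₂ e₁
    have hprod : (QuotientGroup.mk' L) (e₁ * d₁) * (QuotientGroup.mk' L) (e₂ * d₂) =
        (QuotientGroup.mk' L) (e₂ * d₂) * (QuotientGroup.mk' L) (e₁ * d₁) := by
      simp only [map_mul]
      calc (QuotientGroup.mk' L) e₁ * (QuotientGroup.mk' L) d₁ *
            ((QuotientGroup.mk' L) e₂ * (QuotientGroup.mk' L) d₂)
          = (QuotientGroup.mk' L) e₁ * ((QuotientGroup.mk' L) d₁ * (QuotientGroup.mk' L) e₂) *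
              (QuotientGroup.mk' L) d₂ := by group
        _ = (QuotientGroup.mk' L) e₁ * (QuotientGroup.mk' L) e₂ *
              ((QuotientGroup.mk' L) d₁ * (QuotientGroup.mk' L) d₂) := by rw [h1]; group
        _ = (QuotientGroup.mk' L) e₂ * (QuotientGroup.mk' L) e₁ *
              ((QuotientGroup.mk' L) d₂ * (QuotientGroup.mk' L) d₁) := by rw [hee, h2]
        _ = (QuotientGroup.mk' L) e₂ * ((QuotientGroup.mk' L) d₂ * (QuotientGroup.mk' L) e₁) *
              (QuotientGroup.mk' L) d₁ := by rw [h3]; group
        _ = (QuotientGroup.mk' L) e₂ * (QuotientGroup.mk' L) d₂ *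
            ((QuotientGroup.mk' L) e₁ * (QuotientGroup.mk' L) d₁) := by group
    rw [map_mul, map_mul, map_mul, hprod, map_inv, map_inv]
    group
  have hstep : ∀ k : ℕ, (Subgroup.normalClosure (E : Set P)).lowerCentralSeries (k + 1) ≤
      (⊤ : Subgroup P).lowerCentralSeries (k + 2) := by
    intro k
    induction k with
    | zero =>
      rw [Subgroup.lowerCentralSeries_succ, Subgroup.lowerCentralSeries_zero]
      exact (Subgroup.commutator_mono hN hN).trans hcomm
    | succ k ih =>
      rw [Subgroup.lowerCentralSeries_succ, Subgroup.lowerCentralSeries_succ ⊤ (k + 2)]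
      exact Subgroup.commutator_mono ih le_top
  have h1 : (Subgroup.normalClosure (E : Set P)).lowerCentralSeries (Group.nilpotencyClass P - 1) = ⊥ := by
    have := hstep (Group.nilpotencyClass P - 2)
    rw [show Group.nilpotencyClass P - 2 + 1 = Group.nilpotencyClass P - 1 by omega,
      show Group.nilpotencyClass P - 2 + 2 = Group.nilpotencyClass P by omega,
      Subgroup.lowerCentralSeries_nilpotencyClass] at this
    exact le_bot_iff.mp this
  have h2 : (⊤ : Subgroup ↥(Subgroup.normalClosure (E : Set P))).lowerCentralSeries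
      (Group.nilpotencyClass P - 1) = ⊥ := by
    have := Subgroup.top_subtype_lowerCentralSeries (Subgroup.normalClosure (E : Set P))
      (Group.nilpotencyClass P - 1)
    rw [h1] at this
    exact (Subgroup.map_eq_bot_iff_of_injective _ (Subgroup.subtype_injective _)).mp this
  have h3 := Subgroup.lowerCentralSeries_eq_bot_iff_nilpotencyClass_le.mp h2
  omega

/-- Let P be a non-abelian nilpotent p-group (every element of p-power order; P possibly infinite) generated by two abelian subgroups E and F. Then the normal closure of E in P, and likewise that of F, has nilpotency class strictly smaller than that of P. -/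
theorem result {P : Type*} [Group P] {p : ℕ} [Fact p.Prime] (hP : IsPGroup p P) [Group.IsNilpotent P]
    (hna : ¬ IsMulCommutative P) {E F : Subgroup P} (hE : IsMulCommutative ↥E) (hF : IsMulCommutative ↥F) (hgen : E ⊔ F = ⊤) :
    Group.nilpotencyClass ↥(Subgroup.normalClosure (E : Set P)) < Group.nilpotencyClass P ∧
    Group.nilpotencyClass ↥(Subgroup.normalClosure (F : Set P)) < Group.nilpotencyClass P :=
  ⟨key hna hE, key hna hF⟩

end Cfsg.Agent.S5067
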