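import Cfsg.Statements.S5083
import Cfsg.Agent.Lib.Helper27.Alperin
import Cfsg.Agent.Lib.Helper27.SubgroupFusion
import Cfsg.Agent.Lib.Helper26.FusionGen

set_option autoImplicit false
open Cfsg Cfsg.Agent.Lib.Helper26

namespace Cfsg.Agent.S5083

/-- If F is a saturated fusion system over a finite p-group S in which Aut_F(P) is a p-group for every P ≤ S, then F is the inner fusion system of S (all its maps are conjugations by elements of S). -/
theorem result {Ω : Type*} [Group Ω] {S : Subgroup Ω} [Finite S] (p : ℕ) [Fact p.Prime] (hS : IsPGroup p S) (F : Cfsg.FusionSystem S) (hF : F.IsSaturated p) (h : ∀ P : Subgroup Ω, P ≤ S → IsPGroup p (F.autGroup P)) : F = Cfsg.innerFusionSystem S := by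
  have hle : F ≤ Cfsg.innerFusionSystem S := by
    refine Cfsg.Agent.Lib.Helper27.alperin p hS F hF _ ?_
    rintro P (rfl | hPess)
    · intro α hα
      obtain ⟨-, R, hR⟩ := Fusion.top_fullyAutomized F hF
      have hp : IsPGroup p (F.autGroup P) := h P le_rfl
      have hRtop : (⊤ : Subgroup (F.autGroup P)) = (R : Subgroup (F.autGroup P)) :=
        R.is_maximal' (hp.to_subgroup ⊤) le_top
      have hmem : (⟨α, hα⟩ : F.autGroup P) ∈ (R : Subgroup (F.autGroup P)) := by
        rw [← hRtop]; exact Subgroup.mem_top _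
      rw [hR] at hmem
      obtain ⟨g, hg, hgα⟩ := Fusion.mem_autInducedBy_iff.1 (Subgroup.mem_subgroupOf.mp hmem)
      exact Subgroup.subset_closure ⟨le_rfl, g, hg, fun x => hgα x⟩
    · exfalso
      obtain ⟨hcen, -, hN, E, hE⟩ := hPess
      have hPfin : Finite P := Fusion.finite_of_le hcen.1
      have hp : IsPGroup p (F.autGroup P) := h P hcen.1
      exact not_isStronglyPEmbedded_of_isPGroup p (hp.to_quotient _) E hE
  apply Cfsg.Agent.Lib.Helper27.fusionSystem_ext
  intro P
  apply Set.Subset.antisymm (hle P)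
  rintro φ ⟨hP, g, hg, hφ⟩
  have h1 : φ = conjHom P g := by
    ext x
    exact hφ x
  rw [h1]
  exact F.conj_mem hP hg

end Cfsg.Agent.S5083
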