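import Cfsg.Statements.S5084
import Cfsg.Agent.Lib.Helper26.FusionSat
import Cfsg.Agent.S5077

set_option autoImplicit false
open Cfsg

namespace Cfsg.Agent.S5084

open Cfsg.Agent.Lib.Helper26

variable {Ω : Type*} [Group Ω] {S : Subgroup Ω}

/-- `C_S(P)` lies in the extender of every map with source `P` -/
theorem centralizerIn_le_extender (P : Subgroup Ω) (φ : P →* Ω) :
    FusionSystem.centralizerIn S P ≤ FusionSystem.extender S P φ := by
  intro c hc
  apply Subgroup.subset_closure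
  refine ⟨hc.1, Subgroup.centralizer_le_normalizer _ hc.2, 1, S.one_mem, ?_⟩
  intro x hx
  have : c * (x : Ω) * c⁻¹ = x := by
    have := hc.2 x x.2
    rw [mul_inv_eq_iff_eq_mul]; exact this.symm
  have h2 : (⟨c * (x : Ω) * c⁻¹, hx⟩ : P) = x := Subtype.ext this
  rw [h2]; simp

/-- if no element of `Q` is conjugate in the system to another element, every map of the system
fixes the elements of `Q` in its source -/
theorem fix_of_mem (F : FusionSystem S) {Q : Subgroup Ω}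
    (hfix : ∀ x ∈ Q, ∀ y : Ω, F.IsConjElt x y → y = x) {R : Subgroup Ω} {χ : R →* Ω}
    (hχ : χ ∈ F.Hom R) (x : Ω) (hxQ : x ∈ Q) (hxR : x ∈ R) : χ ⟨x, hxR⟩ = x := by
  have hle : Subgroup.zpowers x ≤ R := (Subgroup.zpowers_le).2 hxR
  exact hfix x hxQ _ ⟨_, Fusion.restrict_mem F hχ hle, rfl⟩

/-- extension to `P ⊔ Q` of a map onto a receptive subgroup -/
theorem extend_receptive (F : FusionSystem S) {Q : Subgroup Ω} (hQS : Q ≤ S)
    (hfix : ∀ x ∈ Q, ∀ y : Ω, F.IsConjElt x y → y = x) {P P' : Subgroup Ω} {φ : P →* Ω}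
    (hφ : φ ∈ F.Hom P) (hr : φ.range = P') (hP' : F.IsReceptive P') :
    ∃ ψ ∈ F.Hom (P ⊔ Q), (∀ x : P, ψ (Subgroup.inclusion le_sup_left x) = φ x) ∧
      ∀ x : Q, ψ (Subgroup.inclusion le_sup_right x) = x := by
  have hPS : P ≤ S := (F.le_of_mem hφ).1
  -- Q ≤ Z(S)
  have hQC : Q ≤ FusionSystem.centralizerIn S P := by
    intro x hx
    refine ⟨hQS hx, ?_⟩
    intro s hs
    have h1 := F.conj_mem (P := Subgroup.zpowers x) ((Subgroup.zpowers_le).2 (hQS hx)) (hPS hs)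
    have h2 := hfix x hx _ ⟨_, h1, rfl⟩
    have h3 : s * x * s⁻¹ = x := h2
    rw [mul_inv_eq_iff_eq_mul] at h3
    exact h3
  obtain ⟨ψ₀, hψ₀, hext⟩ := hP'.2 P φ hφ hr
  have hle : P ⊔ Q ≤ FusionSystem.extender S P φ :=
    sup_le (Fusion.le_extender F hφ) (hQC.trans (centralizerIn_le_extender P φ))
  refine ⟨_, Fusion.restrict_mem F hψ₀ hle, ?_, ?_⟩
  · intro x
    exact hext x x.2 (hle (le_sup_left (a := P) (b := Q) x.2))
  · intro x
    exact fix_of_mem F hfix hψ₀ x x.2 _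

/-- In a saturated fusion system over a finite p-group S, a subgroup Q is central in the system if and only if Q ≤ S and no element of Q is conjugate in the system to any element other than itself. -/
theorem result {Ω : Type*} [Group Ω] {S : Subgroup Ω} [Finite S] (p : ℕ) [Fact p.Prime] (hS : IsPGroup p S) (F : Cfsg.FusionSystem S) (hF : F.IsSaturated p) (Q : Subgroup Ω) : F.IsCentral Q ↔ (Q ≤ S ∧ ∀ x ∈ Q, ∀ y : Ω, F.IsConjElt x y → y = x) := by
  constructor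
  · rintro ⟨hQS, hc⟩
    refine ⟨hQS, ?_⟩
    rintro x hx y ⟨φ, hφ, rfl⟩
    obtain ⟨ψ, -, hψ1, hψ2⟩ := hc _ φ hφ
    have h1 := hψ1 ⟨x, Subgroup.mem_zpowers x⟩
    have h2 := hψ2 ⟨x, hx⟩
    rw [← h1]
    exact h2
  · rintro ⟨hQS, hfix⟩
    refine ⟨hQS, ?_⟩
    intro P φ hφ
    have hP'S : φ.range ≤ S := by
      rintro _ ⟨x, rfl⟩
      exact (F.le_of_mem hφ).2 x
    obtain ⟨P'', hconj, hP''c⟩ := Fusion.exists_fullyCentralized_conj F hP'S
    have hP''r : F.IsReceptive P'' := ((Cfsg.Agent.S5077.result p hS F).1 hF).2 P'' hP''c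
    obtain ⟨χ, hχ, hχr⟩ := hconj
    have hφval : ∀ x : P, φ x ∈ φ.range := fun x => ⟨x, rfl⟩
    have hχφ := F.comp_mem hφ hχ hφval
    have hχφr : (χ.comp (φ.codRestrict φ.range hφval)).range = P'' := by
      rw [← hχr]
      ext y
      constructor
      · rintro ⟨x, rfl⟩
        exact ⟨_, rfl⟩
      · rintro ⟨⟨_, x, rfl⟩, rfl⟩
        exact ⟨x, rfl⟩
    obtain ⟨ψ₁, hψ₁, hψ₁P, hψ₁Q⟩ := extend_receptive F hQS hfix hχφ hχφr hP''r
    obtain ⟨ψ₂, hψ₂, hψ₂P, hψ₂Q⟩ := extend_receptive F hQS hfix hχ hχr hP''r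
    have hval : ∀ z : ↥(P ⊔ Q), ψ₁ z ∈ ψ₂.range := by
      apply Fusion.sup_values
      · intro x
        rw [hψ₁P]
        exact ⟨Subgroup.inclusion le_sup_left ⟨φ x, hφval x⟩, hψ₂P _⟩
      · intro x
        rw [hψ₁Q]
        exact ⟨Subgroup.inclusion le_sup_right x, hψ₂Q x⟩
    obtain ⟨ψinv, hψinv, hψinv'⟩ := F.inv_mem hψ₂
    refine ⟨_, F.comp_mem hψ₁ hψinv hval, ?_, ?_⟩
    · intro x
      have h1 : (⟨ψ₁ (Subgroup.inclusion le_sup_left x), hval _⟩ : ψ₂.range)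
          = ⟨ψ₂ (Subgroup.inclusion le_sup_left ⟨φ x, hφval x⟩), ⟨_, rfl⟩⟩ := by
        apply Subtype.ext
        show ψ₁ (Subgroup.inclusion le_sup_left x) = ψ₂ (Subgroup.inclusion le_sup_left ⟨φ x, hφval x⟩)
        rw [hψ₁P, hψ₂P]; rfl
      show ψinv ⟨ψ₁ (Subgroup.inclusion le_sup_left x), hval _⟩ = φ x
      rw [h1, hψinv']; rfl
    · intro x
      have h1 : (⟨ψ₁ (Subgroup.inclusion le_sup_right x), hval _⟩ : ψ₂.range)
          = ⟨ψ₂ (Subgroup.inclusion le_sup_right x), ⟨_, rfl⟩⟩ := by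
        apply Subtype.ext
        show ψ₁ (Subgroup.inclusion le_sup_right x) = ψ₂ (Subgroup.inclusion le_sup_right x)
        rw [hψ₁Q, hψ₂Q]
      show ψinv ⟨ψ₁ (Subgroup.inclusion le_sup_right x), hval _⟩ = x
      rw [h1, hψinv']; rfl

end Cfsg.Agent.S5084
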