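import Cfsg.Statements.S5088
import Cfsg.Agent.Lib.Helper26.FusionChain
import Cfsg.Agent.S5086

set_option autoImplicit false
open Cfsg Cfsg.Agent.Lib.Helper26

namespace Cfsg.Agent.S5088

open scoped commutatorElement

open Cfsg.FusionSystem in
theorem chain_imp {Ω : Type*} [Group Ω] {S : Subgroup Ω} [Finite S] (p : ℕ) [Fact p.Prime]
    (hS : IsPGroup p S) (F : Cfsg.FusionSystem S) (hF : F.IsSaturated p) (Q : Subgroup Ω)
    (n : ℕ) (Qs : Fin (n + 1) → Subgroup Ω) (h0 : Qs 0 = ⊥) (hlast : Qs (Fin.last n) = Q)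
    (hmono : Monotone Qs)
    (hstep : ∀ i : Fin n, F.StronglyClosed (Qs i.succ) ∧ ⁅Q, Qs i.succ⁆ ≤ Qs (Fin.castSucc i)) :
    F.IsNormal Q := by
  rcases Nat.eq_zero_or_pos n with hn | hn
  · subst hn
    have : Q = ⊥ := by rw [← hlast, ← h0]; rfl
    rw [this]
    exact Cfsg.Agent.Lib.Helper27.isNormal_bot F
  have hsc : ∀ i : ℕ, (hi : i < n + 1) → 0 < i → F.StronglyClosed (Qs ⟨i, hi⟩) := by
    intro i hi hi0
    have h1 : (⟨i, hi⟩ : Fin (n + 1)) = Fin.succ ⟨i - 1, by omega⟩ := by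
      apply Fin.ext
      show i = i - 1 + 1
      omega
    rw [h1]
    exact (hstep _).1
  have hQsc : F.StronglyClosed Q := by
    rw [← hlast]
    exact hsc n (by omega) hn
  have hQS : Q ≤ S := hQsc.1
  have hQn := Fusion.le_normalizer_of_stronglyClosed F hQsc
  refine (Cfsg.Agent.S5086.result p hS F hF Q).2 ⟨hQsc, fun P hPc hPr => ?_⟩
  have hP : P ≤ S := hPc.1
  have hcen := Fusion.centralizerIn_le_of_isCentric F hPc
  apply Fusion.le_of_normalizer_inf_le hS hP hQS hQn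
  -- the chain
  let c : ℕ → Subgroup Ω := fun j => if h : j = 0 then ⊤ else Qs ⟨n + 1 - j, by omega⟩
  have hc0 : c 0 = ⊤ := rfl
  have hcj : ∀ j : ℕ, (hj : 0 < j) → c j = Qs ⟨n + 1 - j, by omega⟩ := by
    intro j hj
    show (if h : j = 0 then ⊤ else Qs ⟨n + 1 - j, by omega⟩) = _
    rw [dif_neg (by omega)]
  have hc1 : c 1 = Q := by
    rw [hcj 1 (by omega), ← hlast]
    congr 1
  have hcm : c (n + 1) = ⊥ := by
    rw [hcj (n + 1) (by omega), ← h0]
    congr 1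
    apply Fin.ext
    show n + 1 - (n + 1) = 0
    omega
  have hanti : ∀ j < n + 1, c (j + 1) ≤ c j := by
    intro j hj
    rcases Nat.eq_zero_or_pos j with rfl | hj0
    · rw [hc0]; exact le_top
    · rw [hcj j hj0, hcj (j + 1) (by omega)]
      apply hmono
      show n + 1 - (j + 1) ≤ n + 1 - j
      omega
  have hcsc : ∀ j : ℕ, 0 < j → j < n + 1 → F.StronglyClosed (c j) := by
    intro j hj0 hj
    rw [hcj j hj0]
    exact hsc _ _ (by omega)
  have hcomm : ∀ j : ℕ, 0 < j → j < n + 1 → ⁅Q, c j⁆ ≤ c (j + 1) := by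
    intro j hj0 hj
    rw [hcj j hj0, hcj (j + 1) (by omega)]
    have h1 : (⟨n + 1 - j, by omega⟩ : Fin (n + 1)) = Fin.succ ⟨n - j, by omega⟩ := by
      apply Fin.ext
      show n + 1 - j = n - j + 1
      omega
    have h2 : (⟨n + 1 - (j + 1), by omega⟩ : Fin (n + 1)) = Fin.castSucc ⟨n - j, by omega⟩ := by
      apply Fin.ext
      show n + 1 - (j + 1) = n - j
      omega
    rw [h1, h2]
    exact (hstep _).2
  have key : ∀ g ∈ Q, g ∈ Subgroup.normalizer (P : Set Ω) → ∀ j < n + 1, ∀ x : P,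
      (x : Ω) ∈ c j → (x : Ω)⁻¹ * (g * x * g⁻¹) ∈ c (j + 1) := by
    intro g hg hgN j hj x hx
    rcases Nat.eq_zero_or_pos j with rfl | hj0
    · rw [hc1]
      have h1 : (x : Ω)⁻¹ * g * (x : Ω)⁻¹⁻¹ ∈ Q := by
        have h2 := hQn (S.inv_mem (hP x.2))
        rw [Subgroup.mem_normalizer_iff] at h2
        exact (h2 g).mp hg
      have h3 : (x : Ω)⁻¹ * (g * x * g⁻¹) = ((x : Ω)⁻¹ * g * (x : Ω)⁻¹⁻¹) * g⁻¹ := by group
      rw [h3]
      exact Q.mul_mem h1 (Q.inv_mem hg)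
    · apply hcomm j hj0 hj
      have h4 : (x : Ω)⁻¹ * (g * x * g⁻¹) = ⁅(x : Ω)⁻¹, g⁆ := by
        rw [commutatorElement_def]
        group
      rw [h4, Subgroup.commutator_comm]
      exact Subgroup.commutator_mem_commutator ((c j).inv_mem hx) hg
  intro g hg hgN
  refine Fusion.mem_of_radical_of_stabChain hS F hcen hPr c (n + 1) (by rw [hc0]; exact le_top)
    hanti ?_ ?_ g (hQS hg) hgN (key g hg hgN) ?_
  · intro x hx
    rw [hcm] at hx
    exact Subtype.ext (Subgroup.mem_bot.mp hx)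
  · intro j hj α hα x hx
    rcases Nat.eq_zero_or_pos j with rfl | hj0
    · rw [hc0]; exact Subgroup.mem_top _
    · rcases Nat.lt_or_ge j (n + 1) with hlt | hge
      · exact Fusion.aut_mem_of_stronglyClosed F (hcsc j hj0 hlt) hP hα x hx
      · have hjeq : j = n + 1 := by omega
        subst hjeq
        rw [hcm] at hx ⊢
        have : x = 1 := Subtype.ext (Subgroup.mem_bot.mp hx)
        rw [this, map_one]
        exact Subgroup.one_mem _
  · intro j hj x hx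
    have := key g⁻¹ (Q.inv_mem hg) (Subgroup.inv_mem _ hgN) j hj x hx
    rwa [inv_inv] at this

open Cfsg.FusionSystem in
theorem imp_chain {Ω : Type*} [Group Ω] {S : Subgroup Ω} [Finite S] (p : ℕ) [Fact p.Prime]
    (hS : IsPGroup p S) (F : Cfsg.FusionSystem S) (Q : Subgroup Ω) (hQ : F.IsNormal Q) :
    ∃ (n : ℕ) (Qs : Fin (n + 1) → Subgroup Ω), Qs 0 = ⊥ ∧ Qs (Fin.last n) = Q ∧ Monotone Qs ∧
      ∀ i : Fin n, F.StronglyClosed (Qs i.succ) ∧ ⁅Q, Qs i.succ⁆ ≤ Qs (Fin.castSucc i) := by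
  have hQfin : Finite Q := Fusion.finite_of_le hQ.1
  have hQnil : Group.IsNilpotent Q := (hS.to_le hQ.1).isNilpotent
  refine ⟨Group.nilpotencyClass Q, fun i => (Subgroup.upperCentralSeries Q i).map Q.subtype, ?_, ?_, ?_, ?_⟩
  · show (Subgroup.upperCentralSeries Q 0).map Q.subtype = ⊥
    rw [Subgroup.upperCentralSeries_zero, Subgroup.map_bot]
  · show (Subgroup.upperCentralSeries Q (Group.nilpotencyClass Q)).map Q.subtype = Q
    rw [Subgroup.upperCentralSeries_nilpotencyClass, ← MonoidHom.range_eq_map, Subgroup.range_subtype]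
  · intro i j hij
    exact Subgroup.map_mono (Subgroup.upperCentralSeries_mono Q hij)
  · intro i
    refine ⟨Fusion.stronglyClosed_of_characteristic F hQ _, ?_⟩
    rw [Subgroup.commutator_le]
    rintro q hq _ ⟨z, hz, rfl⟩
    have hz' : z ∈ Subgroup.upperCentralSeries Q ((i : ℕ) + 1) := hz
    rw [Subgroup.mem_upperCentralSeries_succ_iff] at hz'
    have h1 := hz' ⟨q, hq⟩
    refine ⟨(z * ⟨q, hq⟩ * z⁻¹ * (⟨q, hq⟩ : Q)⁻¹)⁻¹, Subgroup.inv_mem _ h1, ?_⟩
    show ((z : Ω) * q * (z : Ω)⁻¹ * q⁻¹)⁻¹ = ⁅q, (z : Ω)⁆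
    rw [commutatorElement_def]
    group

/-- In a saturated fusion system over a finite p-group, a subgroup Q is normal in the system if and only if there is a chain of subgroups 1 = Q₀ ≤ Q₁ ≤ ⋯ ≤ Qₙ = Q such that each Qᵢ with i ≥ 1 is strongly closed in the system and [Q, Qᵢ] ≤ Qᵢ₋₁. -/
theorem result {Ω : Type*} [Group Ω] {S : Subgroup Ω} [Finite S] (p : ℕ) [Fact p.Prime] (hS : IsPGroup p S) (F : Cfsg.FusionSystem S) (hF : F.IsSaturated p) (Q : Subgroup Ω) : F.IsNormal Q ↔ ∃ (n : ℕ) (Qs : Fin (n + 1) → Subgroup Ω), Qs 0 = ⊥ ∧ Qs (Fin.last n) = Q ∧ Monotone Qs ∧ ∀ i : Fin n, F.StronglyClosed (Qs i.succ) ∧ ⁅Q, Qs i.succ⁆ ≤ Qs (Fin.castSucc i) := by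
  constructor
  · intro hQ
    exact imp_chain p hS F Q hQ
  · rintro ⟨n, Qs, h0, hlast, hmono, hstep⟩
    exact chain_imp p hS F hF Q n Qs h0 hlast hmono hstep

end Cfsg.Agent.S5088
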