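import Cfsg.Statements.S5089
import Cfsg.Agent.Lib.Helper26.FusionChain
import Cfsg.Agent.S5088

set_option autoImplicit false
open Cfsg Cfsg.Agent.Lib.Helper26

namespace Cfsg.Agent.S5089

/-- A saturated fusion system over a finite p-group has a nontrivial subgroup that is normal in the system (O_p(F) ≠ 1) if and only if some nontrivial abelian subgroup is strongly closed in the system. -/
theorem result {Ω : Type*} [Group Ω] {S : Subgroup Ω} [Finite S] (p : ℕ) [Fact p.Prime] (hS : IsPGroup p S) (F : Cfsg.FusionSystem S) (hF : F.IsSaturated p) : F.core ≠ ⊥ ↔ ∃ Q : Subgroup Ω, Q ≠ ⊥ ∧ IsMulCommutative Q ∧ F.StronglyClosed Q := by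
  constructor
  · intro hne
    have hQ : F.IsNormal F.core := Cfsg.Agent.Lib.Helper27.isNormal_core F
    generalize F.core = Q at hne hQ
    have hQfin : Finite Q := Fusion.finite_of_le hQ.1
    have hQnt : Nontrivial Q := (Subgroup.nontrivial_iff_ne_bot Q).mpr hne
    have hZnt : Nontrivial (Subgroup.center Q) := (hS.to_le hQ.1).center_nontrivial
    refine ⟨(Subgroup.center Q).map Q.subtype, ?_, ?_,
      Fusion.stronglyClosed_of_characteristic F hQ _⟩
    · intro hbot
      obtain ⟨z, hz⟩ := exists_ne (1 : Subgroup.center Q)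
      apply hz
      have h1 : ((z : Q) : Ω) ∈ (Subgroup.center Q).map Q.subtype := ⟨z, z.2, rfl⟩
      rw [hbot, Subgroup.mem_bot] at h1
      exact Subtype.ext (Subtype.ext h1)
    · refine ⟨⟨fun a b => ?_⟩⟩
      obtain ⟨a, ha⟩ := a
      obtain ⟨b, hb⟩ := b
      obtain ⟨a', ha', rfl⟩ := ha
      obtain ⟨b', hb', rfl⟩ := hb
      apply Subtype.ext
      show (a' : Ω) * (b' : Ω) = (b' : Ω) * (a' : Ω)
      have h2 := Subgroup.mem_center_iff.mp ha' b'
      exact (congrArg Subtype.val h2).symm
  · rintro ⟨Q, hne, hcomm, hsc⟩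
    have hQ : F.IsNormal Q := by
      refine (Cfsg.Agent.S5088.result p hS F hF Q).2 ⟨1, ![⊥, Q], rfl, rfl, ?_, ?_⟩
      · intro i j hij
        fin_cases i <;> fin_cases j
        · exact le_rfl
        · exact bot_le
        · exact absurd hij (by decide)
        · exact le_rfl
      · intro i
        fin_cases i
        refine ⟨hsc, ?_⟩
        show ⁅Q, Q⁆ ≤ ⊥
        rw [Subgroup.commutator_le]
        intro a ha b hb
        rw [Subgroup.mem_bot, commutatorElement_eq_one_iff_mul_comm]
        have h3 : (⟨a, ha⟩ : Q) * ⟨b, hb⟩ = ⟨b, hb⟩ * ⟨a, ha⟩ := hcomm.is_comm.comm _ _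
        exact congrArg Subtype.val h3
    intro hbot
    apply hne
    rw [eq_bot_iff, ← hbot]
    exact le_sSup hQ

end Cfsg.Agent.S5089
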