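import Cfsg.Statements.S5093
import Cfsg.Agent.Lib.Helper26.Hyperfocal

set_option autoImplicit false
open Cfsg Cfsg.Agent.Lib.Helper26

namespace Cfsg.Agent.S5093

theorem pResidual_map_le_of_injective {A B : Type*} [Group A] [Group B] (p : ℕ) (f : A →* B)
    (hf : Function.Injective f) : (Cfsg.pResidual p A).map f ≤ Cfsg.pResidual p B := by
  rw [Cfsg.pResidual, MonoidHom.map_closure, Subgroup.closure_le]
  rintro _ ⟨a, ha, rfl⟩
  apply Subgroup.subset_closure
  show (orderOf (f a)).Coprime p
  rw [orderOf_injective f hf]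
  exact ha

open Cfsg.FusionSystem in
/-- transport of the hyperfocal subgroup of `F_{S ∩ O}(O)` into that of `F_S(G)` -/
theorem hyperfocal_map_le {G : Type*} [Group G] [Finite G] {p : ℕ} [Fact p.Prime] (S : Sylow p G)
    (O : Subgroup G) (SK : Sylow p ↥O)
    (hSK : (SK : Subgroup ↥O) = (S : Subgroup G).subgroupOf O) :
    ((Cfsg.groupFusionSystem (SK : Subgroup ↥O)).hyperfocalSubgroup p).map O.subtype ≤
      (Cfsg.groupFusionSystem (S : Subgroup G)).hyperfocalSubgroup p := by
  rw [Cfsg.FusionSystem.hyperfocalSubgroup, MonoidHom.map_closure, Subgroup.closure_le]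
  rintro _ ⟨_, ⟨P', α, x, hP', hα, rfl⟩, rfl⟩
  have hP : P'.map O.subtype ≤ (S : Subgroup G) := by
    rintro _ ⟨y, hy, rfl⟩
    have h1 := hP' hy
    rw [hSK] at h1
    exact Subgroup.mem_subgroupOf.mp h1
  have hmem : ∀ β : ↥((Cfsg.groupFusionSystem (SK : Subgroup ↥O)).autGroup P'),
      ((MulAut.congr (P'.equivMapOfInjective O.subtype (Subgroup.subtype_injective O))).toMonoidHom.comp
        (Subgroup.subtype _)) β ∈
        (Cfsg.groupFusionSystem (S : Subgroup G)).autGroup (P'.map O.subtype) := by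
    intro β
    have hβ := (Cfsg.Agent.Lib.Helper27.groupFS_autGroup hP').le β.2
    obtain ⟨k, -, hk⟩ := Fusion.mem_autInducedBy_iff.1 hβ
    apply (Cfsg.Agent.Lib.Helper27.groupFS_autGroup hP).ge
    rw [Fusion.mem_autInducedBy_iff]
    refine ⟨(k : G), Subgroup.mem_top _, fun y => ?_⟩
    obtain ⟨y, z, hz, rfl⟩ := y
    have h2 : (P'.equivMapOfInjective O.subtype (Subgroup.subtype_injective O)).symm
        ⟨O.subtype z, ⟨z, hz, rfl⟩⟩ = ⟨z, hz⟩ := by
      rw [MulEquiv.symm_apply_eq]
      rfl
    show (((P'.equivMapOfInjective O.subtype (Subgroup.subtype_injective O))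
      ((β : MulAut P') ((P'.equivMapOfInjective O.subtype (Subgroup.subtype_injective O)).symm
        ⟨O.subtype z, ⟨z, hz, rfl⟩⟩)) : ↥(P'.map O.subtype)) : G) = _
    rw [h2, Subgroup.coe_equivMapOfInjective_apply]
    show ((((β : MulAut P') ⟨z, hz⟩ : P') : ↥O) : G) = (k : G) * (z : G) * (k : G)⁻¹
    rw [hk ⟨z, hz⟩]
    rfl
  have hψinj : Function.Injective
      (((MulAut.congr (P'.equivMapOfInjective O.subtype (Subgroup.subtype_injective O))).toMonoidHom.comp
        (Subgroup.subtype _)).codRestrict _ hmem) := by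
    intro a b hab
    have h3 : (MulAut.congr (P'.equivMapOfInjective O.subtype (Subgroup.subtype_injective O)))
        (a : MulAut P') =
        (MulAut.congr (P'.equivMapOfInjective O.subtype (Subgroup.subtype_injective O)))
          (b : MulAut P') := congrArg Subtype.val hab
    exact Subtype.ext ((MulAut.congr _).injective h3)
  have hψα := pResidual_map_le_of_injective p _ hψinj ⟨α, hα, rfl⟩
  apply Subgroup.subset_closure
  refine ⟨P'.map O.subtype, _, (P'.equivMapOfInjective O.subtype (Subgroup.subtype_injective O)) x,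
    hP, hψα, ?_⟩
  show ((x : ↥O) : G)⁻¹ * ((((α : MulAut P') x : P') : ↥O) : G) = _
  congr 1
  show _ = (((P'.equivMapOfInjective O.subtype (Subgroup.subtype_injective O))
      ((α : MulAut P') ((P'.equivMapOfInjective O.subtype (Subgroup.subtype_injective O)).symm
        ((P'.equivMapOfInjective O.subtype (Subgroup.subtype_injective O)) x))) :
          ↥(P'.map O.subtype)) : G)
  rw [MulEquiv.symm_apply_apply, Subgroup.coe_equivMapOfInjective_apply]
  rfl

/-- Hyperfocal subgroup Theorem: for a finite group G with Sylow p-subgroup S, the hyperfocal subgroup of the fusion system of G on S equals S ∩ O^p(G), where O^p(G) is the subgroup generated by the elements of order prime to p. -/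
theorem result {G : Type*} [Group G] [Finite G] (p : ℕ) [Fact p.Prime] (S : Sylow p G) : (Cfsg.groupFusionSystem (S : Subgroup G)).hyperfocalSubgroup p = (S : Subgroup G) ⊓ Cfsg.pResidual p G := by
  apply le_antisymm (hyperfocal_le S)
  have hOn : (Cfsg.pResidual p G).Normal := Cfsg.Agent.Lib.Helper18.pResidual_normal' p G
  have hcard : Nat.card ↥((S : Subgroup G).subgroupOf (Cfsg.pResidual p G)) =
      p ^ (Nat.card ↥(Cfsg.pResidual p G)).factorization p := by
    rw [← Subgroup.inf_subgroupOf_right,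
      Nat.card_congr (Subgroup.subgroupOfEquivOfLe
        (inf_le_right : (S : Subgroup G) ⊓ Cfsg.pResidual p G ≤ Cfsg.pResidual p G)).toEquiv]
    exact Cfsg.Agent.Lib.Helper27.card_sylow_inf_normal S (Cfsg.pResidual p G)
  obtain ⟨SK, hSK⟩ : ∃ SK : Sylow p ↥(Cfsg.pResidual p G),
      (SK : Subgroup ↥(Cfsg.pResidual p G)) =
        (S : Subgroup G).subgroupOf (Cfsg.pResidual p G) := ⟨Sylow.ofCard _ hcard, rfl⟩
  have hA := sylow_inf_pResidual_le SK
  rw [pResidual_pResidual, inf_top_eq] at hA
  have hle := hyperfocal_le SK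
  rw [pResidual_pResidual, inf_top_eq] at hle
  have hmap := hyperfocal_map_le S (Cfsg.pResidual p G) SK hSK
  have hcomm_le : ⁅(SK : Subgroup ↥(Cfsg.pResidual p G)), (SK : Subgroup ↥(Cfsg.pResidual p G))⁆ ≤
      (SK : Subgroup ↥(Cfsg.pResidual p G)) := by
    rw [Subgroup.commutator_le]
    intro a ha b hb
    rw [commutatorElement_def]
    exact Subgroup.mul_mem _ (Subgroup.mul_mem _ (Subgroup.mul_mem _ ha hb)
      (Subgroup.inv_mem _ ha)) (Subgroup.inv_mem _ hb)
  have hD : ((Cfsg.groupFusionSystem (SK : Subgroup ↥(Cfsg.pResidual p G))).hyperfocalSubgroup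
      p).subgroupOf (SK : Subgroup ↥(Cfsg.pResidual p G)) = ⊤ := by
    apply eq_top_of_sup_commutator SK.2
    have h1 : commutator ↥(SK : Subgroup ↥(Cfsg.pResidual p G)) =
        ⁅(SK : Subgroup ↥(Cfsg.pResidual p G)),
          (SK : Subgroup ↥(Cfsg.pResidual p G))⁆.subgroupOf
            (SK : Subgroup ↥(Cfsg.pResidual p G)) := by
      rw [← Subgroup.map_subtype_commutator]
      exact (Subgroup.comap_map_eq_self_of_injective (Subgroup.subtype_injective _) _).symm
    rw [h1, ← Subgroup.subgroupOf_sup hle hcomm_le, Subgroup.subgroupOf_eq_top]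
    exact hA
  rw [Subgroup.subgroupOf_eq_top] at hD
  calc (S : Subgroup G) ⊓ Cfsg.pResidual p G
      = ((S : Subgroup G).subgroupOf (Cfsg.pResidual p G)).map (Cfsg.pResidual p G).subtype :=
        (Subgroup.subgroupOf_map_subtype _ _).symm
    _ = (SK : Subgroup ↥(Cfsg.pResidual p G)).map (Cfsg.pResidual p G).subtype := by rw [hSK]
    _ ≤ _ := (Subgroup.map_mono hD).trans hmap

end Cfsg.Agent.S5093
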