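import Cfsg.Statements.S5102
-- import your own Cfsg.Agent.* helpers here

set_option autoImplicit false
open Cfsg

namespace Cfsg.Agent.S5102

/-- A normal p-subgroup of a finite group G is normal in the fusion system of G on a Sylow p-subgroup. -/
theorem result {G : Type*} [Group G] [Finite G] (p : ℕ) [Fact p.Prime] (S : Sylow p G) (R : Subgroup G) [R.Normal] (hR : IsPGroup p R) : (Cfsg.groupFusionSystem (S : Subgroup G)).IsNormal R := by
  have hRS : R ≤ (S : Subgroup G) := hR.le_sylow_of_normal S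
  refine ⟨hRS, ?_⟩
  rintro P φ ⟨hP, hφS, g, hg⟩
  have hconjR : ∀ x : G, x ∈ R → g * x * g⁻¹ ∈ R := fun x hx => ‹R.Normal›.conj_mem x hx g
  have hmem : ∀ x : G, x ∈ P ⊔ R → g * x * g⁻¹ ∈ (S : Subgroup G) := by
    intro x hx
    have h1 : (P ⊔ R).map (MulAut.conj g).toMonoidHom ≤ (S : Subgroup G) := by
      rw [Subgroup.map_sup]
      refine sup_le ?_ ?_
      · rintro _ ⟨y, hy, rfl⟩
        have := hφS ⟨y, hy⟩
        rw [hg] at this
        exact this
      · rintro _ ⟨y, hy, rfl⟩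
        exact hRS (hconjR y hy)
    exact h1 ⟨x, hx, rfl⟩
  refine ⟨Cfsg.conjHom (P ⊔ R) g, ⟨sup_le hP hRS, fun x => hmem x x.2, g, fun x => rfl⟩, ?_, ?_⟩
  · intro x
    rw [hg]
    rfl
  · ext y
    constructor
    · rintro ⟨x, hx, rfl⟩
      exact hconjR _ (Subgroup.mem_subgroupOf.mp hx)
    · intro hy
      refine ⟨⟨g⁻¹ * y * g, ?_⟩, ?_, ?_⟩
      · apply Subgroup.mem_sup_right
        have := hconjR y hy
        have h2 := ‹R.Normal›.conj_mem y hy g⁻¹
        simpa using h2
      · show g⁻¹ * y * g ∈ R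
        have h2 := ‹R.Normal›.conj_mem y hy g⁻¹
        simpa using h2
      · show g * (g⁻¹ * y * g) * g⁻¹ = y
        group

end Cfsg.Agent.S5102
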