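import Cfsg.Statements.S5105
import Cfsg.Agent.Lib.Helper27.Cocycle
import Cfsg.Agent.Lib.Helper18.Basic
import Cfsg.Prelude.Def_CaseTheorems

set_option autoImplicit false
open Cfsg
open Cfsg.Agent.Lib.Helper27 Cfsg.FusionSystem

namespace Cfsg.Agent.S5105

/-- Model Theorem, rigidity: if G is a model of a constrained fusion system over a finite p-group S (through ι : S → G), then every automorphism of G fixing ι(S) elementwise is conjugation by ι(z) for some z in the centre of S. -/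
theorem result {Ω : Type*} [Group Ω] {S : Subgroup Ω} [Finite S] (p : ℕ) [Fact p.Prime] (hS : IsPGroup p S) (F : Cfsg.FusionSystem S) (hF : F.IsConstrained p) {G : Type*} [Group G] (ι : S →* G) (hG : F.IsModel p G ι) (ψ : G ≃* G) (hψ : ∀ x : S, ψ (ι x) = ι x) : ∃ z : S, z ∈ Subgroup.center S ∧ ∀ g : G, ψ g = ι z * g * (ι z)⁻¹ := by
  obtain ⟨hfin, hR, ⟨T, hT⟩, hcent⟩ := hG
  have hι := hR.1
  have hOT : pCore p G ≤ ι.range := hT.le.trans' (Cfsg.Agent.Lib.Helper18.pCore_le_sylow T)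
  have hnorm : (pCore p G).Normal := inferInstance
  have hfixT : ∀ t ∈ (T : Subgroup G), ψ t = t := by
    intro t ht
    obtain ⟨x, rfl⟩ := hT.le ht
    exact hψ x
  have hfixQ : ∀ y ∈ pCore p G, ψ y = y := fun y hy =>
    hfixT y (Cfsg.Agent.Lib.Helper18.pCore_le_sylow T hy)
  have hZn : (pCore p G ⊓ Subgroup.centralizer (pCore p G : Set G)).Normal := by
    refine ⟨fun z hz g => ⟨hnorm.conj_mem z hz.1 g, ?_⟩⟩
    show g * z * g⁻¹ ∈ Subgroup.centralizer (pCore p G : Set G)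
    rw [Subgroup.mem_centralizer_iff]
    intro y hy
    have hy' : g⁻¹ * y * g ∈ pCore p G := by simpa using hnorm.conj_mem y hy g⁻¹
    have h1 := (Subgroup.mem_centralizer_iff.mp hz.2) _ hy'
    calc y * (g * z * g⁻¹) = g * ((g⁻¹ * y * g) * z) * g⁻¹ := by group
      _ = g * (z * (g⁻¹ * y * g)) * g⁻¹ := by rw [h1]
      _ = g * z * g⁻¹ * y := by group
  have hZp : IsPGroup p ↥(pCore p G ⊓ Subgroup.centralizer (pCore p G : Set G)) :=
    (Cfsg.Agent.Lib.Helper18.pCore_isPGroup p G).to_le inf_le_left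
  have hZc : ∀ a ∈ pCore p G ⊓ Subgroup.centralizer (pCore p G : Set G),
      ∀ b ∈ pCore p G ⊓ Subgroup.centralizer (pCore p G : Set G), a * b = b * a :=
    fun a ha b hb => (Subgroup.mem_centralizer_iff.mp hb.2) a ha.1
  have hψZ : ∀ g, g⁻¹ * ψ g ∈ pCore p G ⊓ Subgroup.centralizer (pCore p G : Set G) := by
    intro g
    have hc : g⁻¹ * ψ g ∈ Subgroup.centralizer (pCore p G : Set G) := by
      rw [Subgroup.mem_centralizer_iff]
      intro y hy
      have h1 : g * y * g⁻¹ ∈ pCore p G := hnorm.conj_mem y hy g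
      have h2 := hfixQ _ h1
      rw [map_mul, map_mul, map_inv, hfixQ y hy] at h2
      calc y * (g⁻¹ * ψ g) = g⁻¹ * (g * y * g⁻¹) * ψ g := by group
        _ = g⁻¹ * (ψ g * y * (ψ g)⁻¹) * ψ g := by rw [h2]
        _ = g⁻¹ * ψ g * y := by group
    exact ⟨hcent hc, hc⟩
  obtain ⟨z, hz, hzψ⟩ := exists_conj_of_cocycle T _ hZp hZc ψ hψZ hfixT
  obtain ⟨z₀, rfl⟩ := hOT hz.1
  refine ⟨z₀, ?_, hzψ⟩
  rw [Subgroup.mem_center_iff]
  intro s
  apply hι
  rw [map_mul, map_mul]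
  have h1 := hzψ (ι s)
  rw [hψ s] at h1
  calc ι s * ι z₀ = (ι z₀ * ι s * (ι z₀)⁻¹) * ι z₀ := by rw [← h1]
    _ = ι z₀ * ι s := by group

end Cfsg.Agent.S5105
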