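import Cfsg.Statements.S5107
import Cfsg.Agent.Lib.Helper27.Radical
import Cfsg.Agent.Lib.Helper27.NormalSub
import Cfsg.Agent.S5080

set_option autoImplicit false
open Cfsg
open Cfsg.Agent.Lib.Helper27 Cfsg.FusionSystem Cfsg.Agent.Lib.Helper26
open scoped commutatorElement

namespace Cfsg.Agent.S5107

/-- If a Sylow p-subgroup S of a finite group G has nilpotency class at most two and its centre is strongly closed in S with respect to G, then every map of the fusion system of G on S is conjugation by an element of N_G(S), and S is the largest subgroup normal in that fusion system. -/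
theorem result {G : Type*} [Group G] [Finite G] (p : ℕ) [Fact p.Prime] (S : Sylow p G) (hcl : ⁅(S : Subgroup G), (S : Subgroup G)⁆ ≤ (S : Subgroup G) ⊓ Subgroup.centralizer ((S : Subgroup G) : Set G)) (hZ : Cfsg.IsStronglyClosed ((S : Subgroup G) ⊓ Subgroup.centralizer ((S : Subgroup G) : Set G)) (S : Subgroup G)) : (∀ (P : Subgroup G) (φ : P →* G), φ ∈ (Cfsg.groupFusionSystem (S : Subgroup G)).Hom P → ∃ g ∈ Subgroup.normalizer ((S : Subgroup G) : Set G), ∀ x : P, φ x = g * (x : G) * g⁻¹) ∧ (Cfsg.groupFusionSystem (S : Subgroup G)).core = S := by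
  have hSp : IsPGroup p (S : Subgroup G) := S.2
  have hsat : (groupFusionSystem (S : Subgroup G)).IsSaturated p := groupFS_saturated S
  have hle : groupFusionSystem (S : Subgroup G) ≤
      autSystem ((groupFusionSystem (S : Subgroup G)).autGroup S)
        (Fusion.autInducedBy_le_autGroup _ le_rfl) := by
    apply alperin p hSp _ hsat
    intro P hP
    have hPS : P = S := by
      rcases hP with h | hess
      · exact h
      · have hrad := Cfsg.Agent.S5080.result p hSp _ hsat P hess
        have hPle : P ≤ S := hrad.1
        have hcen : centralizerIn (S : Subgroup G) P ≤ P :=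
          hess.1.2 P (Fusion.isConj_refl _ hPle)
        have hZP : (S : Subgroup G) ⊓ Subgroup.centralizer ((S : Subgroup G) : Set G) ≤ P := by
          refine le_trans ?_ hcen
          exact inf_le_inf_left _ (Subgroup.centralizer_le hPle)
        apply le_antisymm hPle
        intro s hs
        have hcomm : ∀ x : P, (x : G)⁻¹ * (s * x * s⁻¹) ∈
            (S : Subgroup G) ⊓ Subgroup.centralizer ((S : Subgroup G) : Set G) := by
          intro x
          have : (x : G)⁻¹ * (s * x * s⁻¹) = ⁅(x : G)⁻¹, s⁆ := by
            rw [commutatorElement_def]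
            group
          rw [this]
          exact hcl (Subgroup.commutator_mem_commutator (Subgroup.inv_mem _ (hPle x.2)) hs)
        have hsN : s ∈ Subgroup.normalizer (P : Set G) := by
          apply mem_normalizer_of_cj_eq
          apply Subgroup.eq_of_le_of_card_ge
          · rintro _ ⟨x, hx, rfl⟩
            show s * x * s⁻¹ ∈ P
            have := hZP (hcomm ⟨x, hx⟩)
            have h2 : s * x * s⁻¹ = x * (x⁻¹ * (s * x * s⁻¹)) := by group
            rw [h2]
            exact P.mul_mem hx this
          · rw [card_cj]
        refine mem_of_radical_of_stab hSp _ hcen hrad _ ?_ s hs hsN hcomm ?_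
        · intro α hα x hx
          rw [groupFS_autGroup hPle, mem_autInducedBy_iff] at hα
          obtain ⟨g, -, -, hg⟩ := hα
          rw [hg]
          apply hZ.2 _ hx g
          rw [← hg]
          exact hPle (α x).2
        · intro x hx
          have := (Subgroup.mem_centralizer_iff.mp hx.2) s hs
          rw [this]
          group
    subst hPS
    exact le_autGroup_autSystem _ _
  have hnormal : (groupFusionSystem (S : Subgroup G)).IsNormal S := isNormal_top_of_le _ hle
  refine ⟨?_, ?_⟩
  · intro P φ hφ
    obtain ⟨hP, α, hα, hφα⟩ := hle P hφ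
    rw [groupFS_autGroup le_rfl, mem_autInducedBy_iff] at hα
    obtain ⟨g, -, hgN, hg⟩ := hα
    exact ⟨g, hgN, fun x => by rw [hφα, hg]⟩
  · apply le_antisymm
    · exact sSup_le (fun Q hQ => hQ.1)
    · exact le_sSup hnormal

end Cfsg.Agent.S5107
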