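import Cfsg.Statements.S5119
import Cfsg.Agent.Lib.Helper27.StrongInv

set_option autoImplicit false
open Cfsg
open Cfsg.Agent.Lib.Helper27 Cfsg.FusionSystem Cfsg.Agent.Lib.Helper26

namespace Cfsg.Agent.S5119

/-- Let F be a saturated fusion system over a finite p-group S and E a subsystem of F over a subgroup T that is strongly closed in F. Then E is invariant in F (invariance under Aut_F(T) plus the Frattini condition) if and only if the strong invariance condition holds: for P ≤ Q ≤ T, every map φ of E from P into Q and every map ψ of F with source Q, the transported map ψ φ ψ⁻¹ on ψ(P) is a map of E. -/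
theorem result {Ω : Type*} [Group Ω] {S : Subgroup Ω} [Finite S] (p : ℕ) [Fact p.Prime] (hS : IsPGroup p S) (F : Cfsg.FusionSystem S) (hF : F.IsSaturated p) {T : Subgroup Ω} (E : Cfsg.FusionSystem T) (hE : E.IsSubsystemOf F) (hT : F.StronglyClosed T) : E.IsInvariantIn F ↔ ∀ (P Q : Subgroup Ω) (hPQ : P ≤ Q) (_ : Q ≤ T) (φ : P →* Ω) (_ : φ ∈ E.Hom P) (hφQ : ∀ x : P, φ x ∈ Q) (ψ : Q →* Ω) (_ : ψ ∈ F.Hom Q), ∃ χ ∈ E.Hom ((P.subgroupOf Q).map ψ), ∀ (x : P) (hx : ψ (Subgroup.inclusion hPQ x) ∈ (P.subgroupOf Q).map ψ), χ ⟨ψ (Subgroup.inclusion hPQ x), hx⟩ = ψ ⟨φ x, hφQ x⟩ := by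
  constructor
  · rintro ⟨-, -, hinv, hfrat⟩
    intro P Q hPQ hQT φ hφ hφQ ψ hψ
    obtain ⟨α, hα, ψ₀, hψ₀, hval⟩ := hfrat Q hQT ψ hψ
    have hψ₀T := (E.le_of_mem hψ₀).2
    have hres := Fusion.restrict_mem E hψ₀ hPQ
    obtain ⟨ρ, hρ, hρv⟩ := E.inv_mem hres
    have hρP : ∀ z : (ψ₀.comp (Subgroup.inclusion hPQ)).range, ρ z ∈ P := by
      rintro ⟨_, x, rfl⟩
      rw [hρv]
      exact x.2
    have h1 := E.comp_mem hρ hφ hρP
    have hv2 : ∀ z, (φ.comp (ρ.codRestrict P hρP)) z ∈ Q := fun z => hφQ _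
    have h2 := E.comp_mem h1 hψ₀ hv2
    have hrT : (ψ₀.comp (Subgroup.inclusion hPQ)).range ≤ T := by
      rintro _ ⟨x, rfl⟩
      exact hψ₀T _
    obtain ⟨χ', hχ', hχ'v⟩ := autInv_apply (E := E) (F := F) hinv hrT h2 hα
    have hle : (P.subgroupOf Q).map ψ ≤
        ((ψ₀.comp (Subgroup.inclusion hPQ)).range.subgroupOf T).map
          (T.subtype.comp α.toMonoidHom) := by
      rintro _ ⟨y, hy, rfl⟩
      have hyP : (y : Ω) ∈ P := Subgroup.mem_subgroupOf.mp hy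
      refine ⟨⟨ψ₀ y, hψ₀T y⟩, Subgroup.mem_subgroupOf.mpr ⟨⟨y, hyP⟩, rfl⟩, ?_⟩
      exact (hval y (hψ₀T y)).symm
    refine ⟨χ'.comp (Subgroup.inclusion hle), Fusion.restrict_mem E hχ' hle, fun x hx => ?_⟩
    have hyT : ψ (Subgroup.inclusion hPQ x) ∈ T := by
      rw [hval _ (hψ₀T _)]
      exact (α _).2
    have e0 : (ρ.codRestrict P hρP) ⟨(ψ₀.comp (Subgroup.inclusion hPQ)) x, ⟨x, rfl⟩⟩ = x :=
      Subtype.ext (hρv x)
    have ez : (ψ₀.comp ((φ.comp (ρ.codRestrict P hρP)).codRestrict Q hv2))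
        ⟨ψ₀ (Subgroup.inclusion hPQ x), ⟨x, rfl⟩⟩ = ψ₀ ⟨φ x, hφQ x⟩ := by
      show ψ₀ ⟨φ ((ρ.codRestrict P hρP) ⟨(ψ₀.comp (Subgroup.inclusion hPQ)) x, ⟨x, rfl⟩⟩), _⟩ =
        ψ₀ ⟨φ x, hφQ x⟩
      congr 2
      rw [e0]
    have e := hχ'v ⟨ψ₀ (Subgroup.inclusion hPQ x), hψ₀T _⟩ ⟨ψ (Subgroup.inclusion hPQ x), hyT⟩
      ⟨x, rfl⟩ (hle hx) ⟨ψ₀ ⟨φ x, hφQ x⟩, hψ₀T _⟩ (Subtype.ext (hval _ (hψ₀T _)).symm) ez.symm
    show χ' ⟨ψ (Subgroup.inclusion hPQ x), hle hx⟩ = ψ ⟨φ x, hφQ x⟩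
    rw [e]
    exact (hval ⟨φ x, hφQ x⟩ (hψ₀T _)).symm
  · intro hsi
    exact ⟨hE, hT, autInv_of_strongInv hT.1 hsi, frattini_of_strongInv p hS F hF E hT hsi⟩

end Cfsg.Agent.S5119
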