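import Cfsg.Statements.S5123
import Cfsg.Agent.Lib.Helper27.GroupFusion

set_option autoImplicit false
open Cfsg
open Cfsg.Agent.Lib.Helper27

namespace Cfsg.Agent.S5123

/-- Let G be a finite group with Sylow p-subgroup S, P, Q ≤ S and g ∈ G with gPg⁻¹ = Q, and suppose N_S(Q) is a Sylow p-subgroup of N_G(Q). Let N be the set of x ∈ N_S(P) with gxg⁻¹ ∈ N_S(Q)C_G(Q). Then some h ∈ C_G(Q) satisfies (hg)N(hg)⁻¹ ≤ S. -/
theorem result {G : Type*} [Group G] [Finite G] (p : ℕ) [Fact p.Prime] (S : Sylow p G) (P Q : Subgroup G) (hP : P ≤ S) (hQ : Q ≤ S) (g : G) (hg : P.map (MulAut.conj g).toMonoidHom = Q) (hN : (∃ R : Sylow p ↥(Subgroup.normalizer (Q : Set G)), (R : Subgroup ↥(Subgroup.normalizer (Q : Set G))) = (Cfsg.FusionSystem.normalizerIn (S : Subgroup G) Q).subgroupOf (Subgroup.normalizer (Q : Set G)))) : ∃ h ∈ Subgroup.centralizer (Q : Set G), ((Cfsg.FusionSystem.normalizerIn (S : Subgroup G) P) ⊓ (Cfsg.FusionSystem.normalizerIn (S : Subgroup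 G) Q ⊔ Subgroup.centralizer (Q : Set G)).comap (MulAut.conj g).toMonoidHom).map (MulAut.conj (h * g)).toMonoidHom ≤ S := by
  have hSp : IsPGroup p (S : Subgroup G) := S.2
  rw [sylow_subgroupOf_iff (normalizerIn_le_normalizer _ _)] at hN
  set T := Cfsg.FusionSystem.normalizerIn (S : Subgroup G) Q with hT
  set C := Subgroup.centralizer (Q : Set G) with hC
  set K := (Cfsg.FusionSystem.normalizerIn (S : Subgroup G) P) ⊓
    (T ⊔ C).comap (MulAut.conj g).toMonoidHom with hK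
  have hTN : T ≤ Subgroup.normalizer (Q : Set G) := inf_le_right
  have hCN : C ≤ Subgroup.normalizer (Q : Set G) := Subgroup.centralizer_le_normalizer _
  have hMN : T ⊔ C ≤ Subgroup.normalizer (Q : Set G) := sup_le hTN hCN
  have hTp : IsPGroup p T := hSp.to_le inf_le_left
  have hTM : Nat.card T = p ^ (Nat.card ↥(T ⊔ C)).factorization p := by
    obtain ⟨R, hTR, hRM, hRp, hRc⟩ := exists_sylow_between (le_sup_left : T ≤ T ⊔ C) hTp
    have h1 := card_le_pPart (hRM.trans hMN) hRp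
    have h2 : Nat.card T ≤ Nat.card R := Subgroup.card_le_of_le hTR
    omega
  have hK'M : cj g K ≤ T ⊔ C := by
    rintro _ ⟨x, hx, rfl⟩
    exact hx.2
  have hK'p : IsPGroup p (cj g K) := isPGroup_cj (hSp.to_le (inf_le_left.trans inf_le_left))
  obtain ⟨m, hmM, hm⟩ := exists_cj_le_of_card (le_sup_left : T ≤ T ⊔ C) hTM hK'M hK'p
  have hTNC : T ≤ Subgroup.normalizer ((C : Subgroup G) : Set G) :=
    hTN.trans (normalizer_le_normalizer_centralizer Q)
  have hmem : m ∈ ((T ⊔ C : Subgroup G) : Set G) := hmM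
  rw [Subgroup.coe_mul_of_left_le_normalizer_right T C hTNC] at hmem
  obtain ⟨s, hs, c, hc, rfl⟩ := Set.mem_mul.mp hmem
  refine ⟨c, hc, ?_⟩
  have h3 : cj (s * c) (cj g K) = cj s (cj (c * g) K) := by
    rw [cj_cj, cj_cj, mul_assoc]
  rw [h3, cj_le_iff, cj_eq_self_of_mem (T.inv_mem hs)] at hm
  exact hm.trans inf_le_left

end Cfsg.Agent.S5123
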