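import Cfsg.Statements.S5147
import Cfsg.Agent.Lib.Helper27.CenterQuot

set_option autoImplicit false
open Cfsg
open Cfsg.Agent.Lib.Helper27 Cfsg.FusionSystem Cfsg.Agent.Lib.Helper26

namespace Cfsg.Agent.S5147

/-- Let G be a finite group with Sylow 2-subgroup S whose 2-fusion system on S is constrained, and L a component of G (a subnormal quasisimple subgroup). Then the 2-fusion system of L/Z(L) on the image of S ∩ L is constrained. -/
theorem result {G : Type*} [Group G] [Finite G] (S : Sylow 2 G) (hF : (Cfsg.groupFusionSystem (S : Subgroup G)).IsConstrained 2) (L : Subgroup G) (hL : Cfsg.IsComponent L) : (Cfsg.groupFusionSystem (((S : Subgroup G).subgroupOf L).map (QuotientGroup.mk' (Subgroup.center L)))).IsConstrained 2 := by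
  obtain ⟨hsub, -⟩ := hL
  obtain ⟨hcard, hcon⟩ := subnormal_constrained 2 S hF hsub
  have hcard' : Nat.card ((S : Subgroup G).subgroupOf L) = 2 ^ (Nat.card L).factorization 2 := by
    rw [card_subgroupOf_eq_inf]
    exact hcard
  obtain ⟨T, hT⟩ : ∃ T : Sylow 2 L, (T : Subgroup L) = (S : Subgroup G).subgroupOf L :=
    ⟨Sylow.ofCard _ hcard', rfl⟩
  have h := isConstrained_map_of_ker_center 2 (QuotientGroup.mk' (Subgroup.center L))
    (QuotientGroup.mk'_surjective _) (QuotientGroup.ker_mk' _) T (by rw [hT]; exact hcon)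
  rw [hT] at h
  exact h

end Cfsg.Agent.S5147
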