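import Cfsg.Statements.S5345

set_option autoImplicit false
open Cfsg

namespace Cfsg.Agent.S5345

/-- Let D be a conjugation-invariant generating set of 3-transpositions of a finite group G and T a Sylow 2-subgroup of G. Then the members of D lying in T generate an abelian subgroup, and their number is the width of D (the largest number of pairwise commuting members of D). -/
theorem result {G : Type*} [Group G] [Finite G] {D : Set G} (hD : Cfsg.IsThreeTranspositionGroup D) (T : Sylow 2 G) : IsMulCommutative (Subgroup.closure {d : G | d ∈ D ∧ d ∈ T}) ∧ {d : G | d ∈ D ∧ d ∈ T}.ncard = Cfsg.commutingWidth D := by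
  classical
  haveI : Fact (Nat.Prime 2) := ⟨Nat.prime_two⟩
  obtain ⟨⟨hinv, h23⟩, hconj, _⟩ := hD
  have hsq : ∀ d ∈ D, d * d = 1 := fun d hd => by
    rw [← pow_two, ← hinv d hd, pow_orderOf_eq_one]
  -- members of D in a common 2-subgroup commute
  have hcomm : ∀ a ∈ {d : G | d ∈ D ∧ d ∈ T}, ∀ b ∈ {d : G | d ∈ D ∧ d ∈ T}, a * b = b * a := by
    rintro a ⟨haD, haT⟩ b ⟨hbD, hbT⟩
    have habT : a * b ∈ (T : Subgroup G) := (T : Subgroup G).mul_mem haT hbT
    obtain ⟨k, hk⟩ := T.isPGroup' ⟨_, habT⟩
    have hk' : (a * b) ^ (2 ^ k) = 1 := by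
      have := congrArg Subtype.val hk
      simpa using this
    have h2 : (a * b) ^ 2 = 1 := by
      rcases h23 a haD b hbD with h | h
      · exact h
      · have hcop : Nat.Coprime (2 ^ k) 3 := by
          apply Nat.Coprime.pow_left
          decide
        have := pow_gcd_eq_one.mpr ⟨hk', h⟩
        rw [hcop, pow_one] at this
        rw [this]; simp
    have h3 : a * b * (a * b) = 1 := by rw [← pow_two]; exact h2
    have ha' : a⁻¹ = a := inv_eq_of_mul_eq_one_left (hsq a haD)
    have hb' : b⁻¹ = b := inv_eq_of_mul_eq_one_left (hsq b hbD)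
    symm
    calc b * a = a⁻¹ * (a * b * (a * b)) * b⁻¹ := by group
      _ = a⁻¹ * b⁻¹ := by rw [h3]; group
      _ = a * b := by rw [ha', hb']
  refine ⟨Subgroup.isMulCommutative_closure hcomm, ?_⟩
  unfold commutingWidth
  have hSfin : {d : G | d ∈ D ∧ d ∈ T}.Finite := Set.toFinite _
  apply le_antisymm
  · apply le_csSup
    · refine ⟨Nat.card G, ?_⟩
      rintro n ⟨E, _, _, _, rfl⟩
      rw [← Set.ncard_univ]
      exact Set.ncard_le_ncard (Set.subset_univ _) (Set.toFinite _)
    · exact ⟨_, fun x hx => hx.1, hSfin, fun a ha b hb => hcomm a ha b hb, rfl⟩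
  · apply csSup_le
    · exact ⟨_, _, fun x hx => hx.1, hSfin, fun a ha b hb => hcomm a ha b hb, rfl⟩
    · rintro n ⟨E, hED, hEfin, hEcomm, rfl⟩
      -- closure E is a 2-group
      have hEc : ∀ x ∈ E, ∀ y ∈ E, x * y = y * x := fun x hx y hy => hEcomm x hx y hy
      have hcl : ∀ x ∈ Subgroup.closure E, ∀ y ∈ Subgroup.closure E, x * y = y * x := by
        intro x hx y hy
        have hI := Subgroup.isMulCommutative_closure hEc
        have := hI.is_comm.comm ⟨x, hx⟩ ⟨y, hy⟩
        exact congrArg Subtype.val this
      have hcl2 : ∀ x ∈ Subgroup.closure E, x * x = 1 := by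
        intro x hx
        induction hx using Subgroup.closure_induction with
        | mem x hx => exact hsq x (hED hx)
        | one => simp
        | mul x y hx hy ihx ihy =>
          calc x * y * (x * y) = x * (y * x) * y := by group
            _ = x * (x * y) * y := by rw [hcl y hy x hx]
            _ = (x * x) * (y * y) := by group
            _ = 1 := by rw [ihx, ihy]; simp
        | inv x hx ihx =>
          calc x⁻¹ * x⁻¹ = (x * x)⁻¹ := by group
            _ = 1 := by rw [ihx]; simp
      have hp : IsPGroup 2 (Subgroup.closure E) := by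
        intro x
        refine ⟨1, ?_⟩
        ext
        simp only [pow_one, Subgroup.coe_one, pow_two]
        exact hcl2 x x.2
      obtain ⟨P, hP⟩ := hp.exists_le_sylow
      obtain ⟨g, hg⟩ := MulAction.exists_smul_eq G P T
      have hmap : ∀ x ∈ E, g * x * g⁻¹ ∈ {d : G | d ∈ D ∧ d ∈ T} := by
        intro x hx
        refine ⟨hconj g x (hED hx), ?_⟩
        have hxP : x ∈ (P : Subgroup G) := hP (Subgroup.subset_closure hx)
        show g * x * g⁻¹ ∈ (T : Subgroup G)
        rw [← hg, Sylow.smul_def, Sylow.pointwise_smul_def, Subgroup.mem_pointwise_smul_iff_inv_smul_mem]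
        simpa [MulAut.smul_def, mul_assoc] using hxP
      refine Set.ncard_le_ncard_of_injOn (fun x => g * x * g⁻¹) hmap ?_ hSfin
      intro x _ y _ hxy
      simpa using hxy
end Cfsg.Agent.S5345
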