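import Cfsg.Statements.S5355
import Cfsg.Agent.Lib.Helper28.ThreeTransp

set_option autoImplicit false
set_option linter.unusedSimpArgs false
open Cfsg

namespace Cfsg.Agent.S5355

open Cfsg.Agent.Lib.Helper28

section triple

variable {G : Type*} [Group G]

/-- The relations of the symmetric group of degree four on three involutions. -/
structure Rel (a b c : G) : Prop where
  aa : a * a = 1
  bb : b * b = 1
  cc : c * c = 1
  ca : c * a = a * c
  bab : b * a * b = a * b * a
  cbc : c * b * c = b * c * b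

namespace Rel

variable {a b c : G}

theorem r1 (h : Rel a b c) (t : G) : a * (a * t) = t := by rw [← mul_assoc, h.aa, one_mul]

theorem r2 (h : Rel a b c) (t : G) : b * (b * t) = t := by rw [← mul_assoc, h.bb, one_mul]

theorem r3 (h : Rel a b c) (t : G) : c * (c * t) = t := by rw [← mul_assoc, h.cc, one_mul]

theorem r4 (h : Rel a b c) (t : G) : c * (a * t) = a * (c * t) := by
  rw [← mul_assoc, h.ca, mul_assoc]

theorem r5 (h : Rel a b c) (t : G) : b * (a * (b * t)) = a * (b * (a * t)) := by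
  rw [← mul_assoc, ← mul_assoc, h.bab, mul_assoc, mul_assoc]

theorem r5' (h : Rel a b c) : b * (a * b) = a * (b * a) := by
  rw [← mul_assoc, h.bab, mul_assoc]

theorem r6 (h : Rel a b c) (t : G) : c * (b * (c * t)) = b * (c * (b * t)) := by
  rw [← mul_assoc, ← mul_assoc, h.cbc, mul_assoc, mul_assoc]

theorem r6' (h : Rel a b c) : c * (b * c) = b * (c * b) := by
  rw [← mul_assoc, h.cbc, mul_assoc]

theorem r7 (h : Rel a b c) (t : G) : c * (b * (a * (c * t))) = b * (c * (b * (a * t))) := by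
  rw [← h.r4 t, h.r6]

theorem r7' (h : Rel a b c) : c * (b * (a * c)) = b * (c * (b * a)) := by
  rw [← h.ca, h.r6]

theorem ia (h : Rel a b c) : a⁻¹ = a := inv_eq_of_mul_eq_one_right h.aa

theorem ib (h : Rel a b c) : b⁻¹ = b := inv_eq_of_mul_eq_one_right h.bb

theorem ic (h : Rel a b c) : c⁻¹ = c := inv_eq_of_mul_eq_one_right h.cc

/-- The conjugate of `b` by `a * c` commutes with `b`. -/
theorem w_comm (h : Rel a b c) : Commute b (a * c * b * (a * c)) := by
  show b * (a * c * b * (a * c)) = a * c * b * (a * c) * b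
  simp only [mul_assoc, mul_one, one_mul, h.aa, h.bb, h.cc, h.ca, h.r1, h.r2, h.r3, h.r4, h.r5,
    h.r5', h.r6, h.r6', h.r7, h.r7']

/-- The conjugate of `b` by `a * c` is not `b`. -/
theorem w_ne (h : Rel a b c) (hne : a ≠ c) : a * c * b * (a * c) ≠ b := by
  intro h0
  apply hne
  have e1 : c = b * (a * (a * c * b * (a * c)) * a) * b := by
    simp only [mul_assoc, mul_one, one_mul, h.aa, h.bb, h.cc, h.ca, h.r1, h.r2, h.r3, h.r4, h.r5,
      h.r5', h.r6, h.r6', h.r7, h.r7']
  rw [h0] at e1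
  have e2 : b * (a * b * a) * b = a := by
    simp only [mul_assoc, mul_one, one_mul, h.aa, h.bb, h.cc, h.ca, h.r1, h.r2, h.r3, h.r4, h.r5,
      h.r5', h.r6, h.r6', h.r7, h.r7']
  exact (e1.trans e2).symm

end Rel

end triple

section partner

variable {G : Type*} [Group G] {D : Set G}

/-- `c` is the only member of `D` other than `a` commuting with `a`, and it commutes with the same
members of `D` as `a`. -/
def Partner (D : Set G) (a c : G) : Prop :=
  a ∈ D ∧ c ∈ D ∧ c ≠ a ∧ Commute a c ∧ (∀ y ∈ D, Commute a y → y = a ∨ y = c) ∧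
    ∀ y ∈ D, Commute c y ↔ Commute a y

theorem partner_conj (hconj : ∀ g : G, ∀ x ∈ D, g * x * g⁻¹ ∈ D) {a c : G} (h : Partner D a c)
    (g : G) : Partner D (g * a * g⁻¹) (g * c * g⁻¹) := by
  obtain ⟨ha, hc, hne, hcom, h2, h3⟩ := h
  have hback : ∀ y ∈ D, g⁻¹ * y * g ∈ D := by
    intro y hy
    have := hconj g⁻¹ y hy
    rwa [inv_inv] at this
  refine ⟨hconj g a ha, hconj g c hc, ?_, commute_conj g hcom, ?_, ?_⟩
  · intro e
    apply hne
    have e2 : g⁻¹ * (g * c * g⁻¹) * g = g⁻¹ * (g * a * g⁻¹) * g := by rw [e]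
    simpa [mul_assoc] using e2
  · intro y hy hcy
    rw [commute_conj_iff] at hcy
    rcases h2 _ (hback y hy) hcy with e | e
    · left
      rw [← e]; group
    · right
      rw [← e]; group
  · intro y hy
    rw [commute_conj_iff, commute_conj_iff]
    exact h3 _ (hback y hy)

theorem partner_unique {a c y : G} (h : Partner D a c) (hy : y ∈ D) (hc : Commute a y)
    (hne : y ≠ a) : y = c := by
  rcases h.2.2.2.2.1 y hy hc with e | e
  · exact absurd e hne
  · exact e

theorem rel_of_partner (hTS : IsThreeTranspositionSet D) {a c f : G} (h : Partner D a c)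
    (hf : f ∈ D) (hnc : ¬ Commute a f) : Rel a f c := by
  obtain ⟨ha, hc, hne, hcom, h2, h3⟩ := h
  have hnc' : ¬ Commute c f := fun hh => hnc ((h3 f hf).mp hh)
  exact ⟨tt_mul_self hTS ha, tt_mul_self hTS hf, tt_mul_self hTS hc, hcom.eq.symm,
    tt_braid hTS hf ha (fun hh => hnc hh.symm), tt_braid hTS hc hf hnc'⟩

/-- The partner of `f` is its conjugate by `a * c`. -/
theorem partner_z (hTS : IsThreeTranspositionSet D) (hconj : ∀ g : G, ∀ x ∈ D, g * x * g⁻¹ ∈ D)
    {a c f f' : G} (h : Partner D a c) (hf : Partner D f f') (hnc : ¬ Commute a f) :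
    a * c * f * (a * c) = f' := by
  have hR := rel_of_partner hTS h hf.1 hnc
  have hmemD : a * c * f * (a * c) ∈ D := by
    have h1 := hconj (a * c) f hf.1
    have e : (a * c)⁻¹ = a * c := by
      rw [mul_inv_rev, hR.ia, hR.ic, hR.ca]
    rwa [e] at h1
  exact partner_unique hf hmemD hR.w_comm (hR.w_ne (fun e => h.2.2.1 e.symm))

end partner

section main

variable {G : Type*} [Group G] {a b c : G}

/-- The elements of the subgroup generated by `a` and `b`. -/
theorem mem_H (h : Rel a b c) {x : G} (hx : x ∈ Subgroup.closure ({a, b} : Set G)) :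
    x = 1 ∨ x = a ∨ x = b ∨ x = a * b ∨ x = b * a ∨ x = a * (b * a) := by
  have step : ∀ y : G, (y = 1 ∨ y = a ∨ y = b ∨ y = a * b ∨ y = b * a ∨ y = a * (b * a)) →
      ∀ s : G, s = a ∨ s = b →
      (s * y = 1 ∨ s * y = a ∨ s * y = b ∨ s * y = a * b ∨ s * y = b * a ∨
        s * y = a * (b * a)) := by
    intro y hy s hs
    rcases hs with rfl | rfl
    · rcases hy with rfl | rfl | rfl | rfl | rfl | rfl <;>
        simp only [mul_assoc, mul_one, one_mul, mul_inv_rev, inv_inv, inv_one, h.ia, h.ib, h.ic, h.aa, h.bb,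
      h.cc, h.ca, h.r1, h.r2, h.r3, h.r4, h.r5, h.r5', h.r6, h.r6', h.r7, h.r7', eq_self_iff_true, true_or, or_true]
    · rcases hy with rfl | rfl | rfl | rfl | rfl | rfl <;>
        simp only [mul_assoc, mul_one, one_mul, mul_inv_rev, inv_inv, inv_one, h.ia, h.ib, h.ic, h.aa, h.bb,
      h.cc, h.ca, h.r1, h.r2, h.r3, h.r4, h.r5, h.r5', h.r6, h.r6', h.r7, h.r7', eq_self_iff_true, true_or, or_true]
  induction hx using Subgroup.closure_induction_left with
  | one => exact Or.inl rfl
  | mul_left s hs y _ ih =>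
    apply step y ih s
    simpa using hs
  | inv_mul_cancel s hs y _ ih =>
    have hs' : s = a ∨ s = b := by simpa using hs
    have e : s⁻¹ = s := by
      rcases hs' with rfl | rfl
      · exact h.ia
      · exact h.ib
    rw [e]
    exact step y ih s hs'

/-- Every element of the subgroup generated by `a`, `b`, `c` lies in one of four cosets of the
subgroup generated by `a` and `b`. -/
theorem coset_enum (h : Rel a b c) (x : G) (hx : x ∈ Subgroup.closure ({a, b, c} : Set G)) :
    ∃ k ∈ Subgroup.closure ({a, b} : Set G),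
      x = k ∨ x = k * c ∨ x = k * (c * b) ∨ x = k * (c * (b * a)) := by
  have ha : a ∈ Subgroup.closure ({a, b} : Set G) := Subgroup.subset_closure (by simp)
  have hb : b ∈ Subgroup.closure ({a, b} : Set G) := Subgroup.subset_closure (by simp)
  have step : ∀ y : G, (∃ k ∈ Subgroup.closure ({a, b} : Set G),
      y = k ∨ y = k * c ∨ y = k * (c * b) ∨ y = k * (c * (b * a))) →
      ∀ s : G, s = a ∨ s = b ∨ s = c → (∃ k ∈ Subgroup.closure ({a, b} : Set G),
      y * s = k ∨ y * s = k * c ∨ y * s = k * (c * b) ∨ y * s = k * (c * (b * a))) := by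
    intro y hy s hs
    obtain ⟨k, hk, hy⟩ := hy
    rcases hs with rfl | rfl | rfl
    · rcases hy with rfl | rfl | rfl | rfl
      · exact ⟨y * s, Subgroup.mul_mem _ hk ha, Or.inl rfl⟩
      · exact ⟨k * s, Subgroup.mul_mem _ hk ha, Or.inr (Or.inl (by simp only [mul_assoc, mul_one, one_mul, mul_inv_rev, inv_inv, inv_one, h.ia, h.ib, h.ic, h.aa, h.bb,
      h.cc, h.ca, h.r1, h.r2, h.r3, h.r4, h.r5, h.r5', h.r6, h.r6', h.r7, h.r7']))⟩
      · exact ⟨k, hk, Or.inr (Or.inr (Or.inr (by simp only [mul_assoc, mul_one, one_mul, mul_inv_rev, inv_inv, inv_one, h.ia, h.ib, h.ic, h.aa, h.bb,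
      h.cc, h.ca, h.r1, h.r2, h.r3, h.r4, h.r5, h.r5', h.r6, h.r6', h.r7, h.r7'])))⟩
      · exact ⟨k, hk, Or.inr (Or.inr (Or.inl (by simp only [mul_assoc, mul_one, one_mul, mul_inv_rev, inv_inv, inv_one, h.ia, h.ib, h.ic, h.aa, h.bb,
      h.cc, h.ca, h.r1, h.r2, h.r3, h.r4, h.r5, h.r5', h.r6, h.r6', h.r7, h.r7'])))⟩
    · rcases hy with rfl | rfl | rfl | rfl
      · exact ⟨y * s, Subgroup.mul_mem _ hk hb, Or.inl rfl⟩
      · exact ⟨k, hk, Or.inr (Or.inr (Or.inl (by simp only [mul_assoc, mul_one, one_mul, mul_inv_rev, inv_inv, inv_one, h.ia, h.ib, h.ic, h.aa, h.bb,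
      h.cc, h.ca, h.r1, h.r2, h.r3, h.r4, h.r5, h.r5', h.r6, h.r6', h.r7, h.r7'])))⟩
      · exact ⟨k, hk, Or.inr (Or.inl (by simp only [mul_assoc, mul_one, one_mul, mul_inv_rev, inv_inv, inv_one, h.ia, h.ib, h.ic, h.aa, h.bb,
      h.cc, h.ca, h.r1, h.r2, h.r3, h.r4, h.r5, h.r5', h.r6, h.r6', h.r7, h.r7']))⟩
      · exact ⟨k * a, Subgroup.mul_mem _ hk ha, Or.inr (Or.inr (Or.inr (by simp only [mul_assoc, mul_one, one_mul, mul_inv_rev, inv_inv, inv_one, h.ia, h.ib, h.ic, h.aa, h.bb,
      h.cc, h.ca, h.r1, h.r2, h.r3, h.r4, h.r5, h.r5', h.r6, h.r6', h.r7, h.r7'])))⟩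
    · rcases hy with rfl | rfl | rfl | rfl
      · exact ⟨y, hk, Or.inr (Or.inl rfl)⟩
      · exact ⟨k, hk, Or.inl (by simp only [mul_assoc, mul_one, one_mul, mul_inv_rev, inv_inv, inv_one, h.ia, h.ib, h.ic, h.aa, h.bb,
      h.cc, h.ca, h.r1, h.r2, h.r3, h.r4, h.r5, h.r5', h.r6, h.r6', h.r7, h.r7'])⟩
      · exact ⟨k * b, Subgroup.mul_mem _ hk hb, Or.inr (Or.inr (Or.inl (by simp only [mul_assoc, mul_one, one_mul, mul_inv_rev, inv_inv, inv_one, h.ia, h.ib, h.ic, h.aa, h.bb,
      h.cc, h.ca, h.r1, h.r2, h.r3, h.r4, h.r5, h.r5', h.r6, h.r6', h.r7, h.r7'])))⟩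
      · exact ⟨k * b, Subgroup.mul_mem _ hk hb, Or.inr (Or.inr (Or.inr (by simp only [mul_assoc, mul_one, one_mul, mul_inv_rev, inv_inv, inv_one, h.ia, h.ib, h.ic, h.aa, h.bb,
      h.cc, h.ca, h.r1, h.r2, h.r3, h.r4, h.r5, h.r5', h.r6, h.r6', h.r7, h.r7'])))⟩
  induction hx using Subgroup.closure_induction_right with
  | one => exact ⟨1, Subgroup.one_mem _, Or.inl rfl⟩
  | mul_right y _ s hs ih =>
    apply step y ih s
    simpa using hs
  | mul_inv_cancel y _ s hs ih =>
    have hs' : s = a ∨ s = b ∨ s = c := by simpa using hs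
    have e : s⁻¹ = s := by
      rcases hs' with rfl | rfl | rfl
      · exact h.ia
      · exact h.ib
      · exact h.ic
    rw [e]
    exact step y ih s hs'

theorem arith (k m : ℕ) (hk : 0 < k) (hk4 : k ≤ 4) (hm : 0 < 6 * m)
    (hle : 6 * m * k ≤ k.factorial) : k = 4 ∧ 6 * m = 6 := by
  interval_cases k <;> simp [Nat.factorial] at hle ⊢ <;> omega

end main

/-- Let D be a conjugacy class of 3-transpositions generating the finite group G, with at least two members, and d a member of D. Suppose that every member of D commuting with d commutes with exactly the same members of D as d does, and that exactly one member of D other than d commutes with d. Then G is isomorphic to the symmetric group of degree 4. -/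
theorem result {G : Type*} [Group G] [Finite G] {D : Set G} (hD : Cfsg.IsThreeTranspositionClass D) (hD2 : ∃ a ∈ D, ∃ b ∈ D, a ≠ b) {d : G} (hd : d ∈ D) (hV : {y : G | y ∈ D ∧ Commute d y} = {v : G | v ∈ D ∧ ∀ e ∈ D, Commute v e ↔ Commute d e}) (hm : {y : G | y ∈ D ∧ Commute d y}.ncard = 2) : Nonempty (G ≃* Equiv.Perm (Fin 4)) := by
  classical
  obtain ⟨hTS, ⟨d0, hd0, hDconj⟩, hgen⟩ := hD
  have hmem : ∀ x : G, x ∈ D ↔ IsConj d0 x := by
    intro x
    rw [hDconj]
    rfl
  have hconj : ∀ g : G, ∀ x ∈ D, g * x * g⁻¹ ∈ D := by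
    intro g x hx
    rw [hmem] at hx ⊢
    exact hx.trans (isConj_iff.mpr ⟨g, rfl⟩)
  have hconjD : ∀ x ∈ D, ∀ y ∈ D, ∃ g : G, g * x * g⁻¹ = y := by
    intro x hx y hy
    exact isConj_iff.mp (((hmem x).mp hx).symm.trans ((hmem y).mp hy))
  -- the partner of d
  obtain ⟨p, q, hpq, hs⟩ := Set.ncard_eq_two.mp hm
  have hdmem : d ∈ ({p, q} : Set G) := by rw [← hs]; exact ⟨hd, Commute.refl d⟩
  obtain ⟨d', hd'mem, hd'ne⟩ : ∃ d', d' ∈ ({p, q} : Set G) ∧ d' ≠ d := by
    by_cases hx : p = d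
    · exact ⟨q, by simp, fun h => hpq (hx.trans h.symm)⟩
    · exact ⟨p, by simp, hx⟩
  have hd'C : d' ∈ {y : G | y ∈ D ∧ Commute d y} := by rw [hs]; exact hd'mem
  have hd'V : d' ∈ {v : G | v ∈ D ∧ ∀ e ∈ D, Commute v e ↔ Commute d e} := by
    rw [← hV]; exact hd'C
  have hP : Partner D d d' := by
    refine ⟨hd, hd'C.1, hd'ne, hd'C.2, ?_, hd'V.2⟩
    intro y hy hc
    have hy' : y ∈ ({p, q} : Set G) := by rw [← hs]; exact ⟨hy, hc⟩
    simp only [Set.mem_insert_iff, Set.mem_singleton_iff] at hdmem hd'mem hy'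
    rcases hdmem with h1 | h1 <;> rcases hd'mem with h2 | h2 <;> rcases hy' with h3 | h3
    all_goals first
      | exact Or.inl (h3.trans h1.symm)
      | exact Or.inr (h3.trans h2.symm)
      | exact absurd (h2.trans h1.symm) hd'ne
  have hexists : ∀ x ∈ D, ∃ x', Partner D x x' := by
    intro x hx
    obtain ⟨g, rfl⟩ := hconjD d hd x hx
    exact ⟨_, partner_conj hconj hP g⟩
  -- an element not commuting with d
  obtain ⟨e, he, hde⟩ : ∃ e ∈ D, ¬ Commute d e := by
    by_contra hcon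
    push Not at hcon
    have hcen : ∀ g : G, g * d = d * g := by
      intro g
      have hg : g ∈ Subgroup.closure D := by rw [hgen]; exact Subgroup.mem_top g
      induction hg using Subgroup.closure_induction with
      | mem x hx => exact (hcon x hx).eq.symm
      | one => simp
      | mul x y _ _ ihx ihy => rw [mul_assoc, ihy, ← mul_assoc, ihx, mul_assoc]
      | inv x _ ihx =>
        calc x⁻¹ * d = x⁻¹ * (d * x) * x⁻¹ := by group
          _ = x⁻¹ * (x * d) * x⁻¹ := by rw [ihx]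
          _ = d * x⁻¹ := by group
    obtain ⟨g, hg⟩ := hconjD d hd d' hP.2.1
    apply hP.2.2.1
    rw [← hg, hcen g]
    group
  have hR : Rel d e d' := rel_of_partner hTS hP he hde
  -- the partner of e
  obtain ⟨e'', hPe''⟩ := hexists e he
  have hPe : Partner D e (d * d' * e * (d * d')) := by
    rw [partner_z hTS hconj hP hPe'' hde]
    exact hPe''
  -- a third element
  have hgD : d * e * d ∈ D := by
    have := hconj d e he
    rwa [hR.ia] at this
  have hdg : ¬ Commute d (d * e * d) := by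
    intro hc
    apply hde
    have h1 : d * (d * e * d) = d * e * d * d := hc
    simp only [mul_assoc, mul_one, one_mul, mul_inv_rev, inv_inv, inv_one, hR.ia, hR.ib, hR.ic, hR.aa, hR.bb,
      hR.cc, hR.ca, hR.r1, hR.r2, hR.r3, hR.r4, hR.r5, hR.r5', hR.r6, hR.r6', hR.r7, hR.r7'] at h1
    exact h1.symm
  obtain ⟨g'', hPg''⟩ := hexists _ hgD
  have hPg : Partner D (d * e * d) (d * d' * (d * e * d) * (d * d')) := by
    rw [partner_z hTS hconj hP hPg'' hdg]
    exact hPg''
  -- the three products of partners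
  obtain ⟨z1, hz1⟩ : ∃ z, z = d * d' := ⟨_, rfl⟩
  obtain ⟨z2, hz2⟩ : ∃ z, z = e * (d * d' * e * (d * d')) := ⟨_, rfl⟩
  obtain ⟨z3, hz3⟩ : ∃ z, z = d * e * d * (d * d' * (d * e * d) * (d * d')) := ⟨_, rfl⟩
  have W1 : z3 = z1 * z2 := by
    rw [hz1, hz2, hz3]
    simp only [mul_assoc, mul_one, one_mul, mul_inv_rev, inv_inv, inv_one, hR.ia, hR.ib, hR.ic, hR.aa, hR.bb,
      hR.cc, hR.ca, hR.r1, hR.r2, hR.r3, hR.r4, hR.r5, hR.r5', hR.r6, hR.r6', hR.r7, hR.r7']
  have W2 : z1 * z2 = z2 * z1 := by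
    rw [hz1, hz2]
    simp only [mul_assoc, mul_one, one_mul, mul_inv_rev, inv_inv, inv_one, hR.ia, hR.ib, hR.ic, hR.aa, hR.bb,
      hR.cc, hR.ca, hR.r1, hR.r2, hR.r3, hR.r4, hR.r5, hR.r5', hR.r6, hR.r6', hR.r7, hR.r7']
  have W3 : z1 * z1 = 1 := by
    rw [hz1]
    simp only [mul_assoc, mul_one, one_mul, mul_inv_rev, inv_inv, inv_one, hR.ia, hR.ib, hR.ic, hR.aa, hR.bb,
      hR.cc, hR.ca, hR.r1, hR.r2, hR.r3, hR.r4, hR.r5, hR.r5', hR.r6, hR.r6', hR.r7, hR.r7']
  have key : ∀ f ∈ D, f = d ∨ f = d' ∨ f = e ∨ f = d * d' * e * (d * d') ∨ f = d * e * d ∨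
      f = d * d' * (d * e * d) * (d * d') := by
    intro f hf
    by_contra hcon
    push Not at hcon
    obtain ⟨h1, h2, h3, h4, h5, h6⟩ := hcon
    obtain ⟨f', hPf⟩ := hexists f hf
    have hdf : ¬ Commute d f := fun hc => by
      rcases hP.2.2.2.2.1 f hf hc with h | h
      · exact h1 h
      · exact h2 h
    have hef : ¬ Commute e f := fun hc => by
      rcases hPe.2.2.2.2.1 f hf hc with h | h
      · exact h3 h
      · exact h4 h
    have hgf : ¬ Commute (d * e * d) f := fun hc => by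
      rcases hPg.2.2.2.2.1 f hf hc with h | h
      · exact h5 h
      · exact h6 h
    have e1 : z1 * f * z1 = f' := by
      rw [hz1]; exact partner_z hTS hconj hP hPf hdf
    have e2 : z2 * f * z2 = f' := by
      rw [hz2]; exact partner_z hTS hconj hPe hPf hef
    have e3 : z3 * f * z3 = f' := by
      rw [hz3]; exact partner_z hTS hconj hPg hPf hgf
    apply hPf.2.2.1
    calc f' = z3 * f * z3 := e3.symm
      _ = z1 * z2 * f * (z1 * z2) := by rw [W1]
      _ = z1 * z2 * f * (z2 * z1) := by rw [← W2]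
      _ = z1 * (z2 * f * z2) * z1 := by simp only [mul_assoc]
      _ = z1 * (z1 * f * z1) * z1 := by rw [e2, e1]
      _ = z1 * z1 * f * (z1 * z1) := by simp only [mul_assoc]
      _ = f := by rw [W3, one_mul, mul_one]
  -- generation
  have hKtop : Subgroup.closure ({d, e, d'} : Set G) = ⊤ := by
    rw [eq_top_iff, ← hgen, Subgroup.closure_le]
    intro f hf
    have hdK : d ∈ Subgroup.closure ({d, e, d'} : Set G) := Subgroup.subset_closure (by simp)
    have heK : e ∈ Subgroup.closure ({d, e, d'} : Set G) := Subgroup.subset_closure (by simp)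
    have hd'K : d' ∈ Subgroup.closure ({d, e, d'} : Set G) := Subgroup.subset_closure (by simp)
    have hzK : d * d' ∈ Subgroup.closure ({d, e, d'} : Set G) := Subgroup.mul_mem _ hdK hd'K
    have hgK : d * e * d ∈ Subgroup.closure ({d, e, d'} : Set G) :=
      Subgroup.mul_mem _ (Subgroup.mul_mem _ hdK heK) hdK
    rcases key f hf with h | h | h | h | h | h
    · rw [h]; exact hdK
    · rw [h]; exact hd'K
    · rw [h]; exact heK
    · rw [h]; exact Subgroup.mul_mem _ (Subgroup.mul_mem _ hzK heK) hzK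
    · rw [h]; exact hgK
    · rw [h]; exact Subgroup.mul_mem _ (Subgroup.mul_mem _ hzK hgK) hzK
  obtain ⟨H, hH⟩ : ∃ H : Subgroup G, H = Subgroup.closure ({d, e} : Set G) := ⟨_, rfl⟩
  have hdH : d ∈ H := by rw [hH]; exact Subgroup.subset_closure (by simp)
  have heH : e ∈ H := by rw [hH]; exact Subgroup.subset_closure (by simp)
  have hmemH : ∀ x ∈ H, x = 1 ∨ x = d ∨ x = e ∨ x = d * e ∨ x = e * d ∨ x = d * (e * d) := by
    intro x hx
    rw [hH] at hx
    exact mem_H hR hx
  have hd'1 : d' ≠ 1 := by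
    intro h
    have h2 := hTS.1 d' hP.2.1
    rw [h, orderOf_one] at h2
    exact absurd h2 (by norm_num)
  have hd'H : d' ∉ H := by
    intro hmem'
    have hc : Commute d d' := hP.2.2.2.1
    rcases hmemH d' hmem' with h | h | h | h | h | h
    · exact hd'1 h
    · exact hP.2.2.1 h
    · rw [h] at hc
      exact hde hc
    · apply hde
      rw [h] at hc
      have h1 : d * (d * e) = d * e * d := hc
      exact mul_left_cancel (h1.trans (mul_assoc d e d))
    · apply hde
      rw [h] at hc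
      have h1 : d * (e * d) = e * d * d := hc
      exact mul_right_cancel ((mul_assoc d e d).trans h1)
    · apply hde
      rw [h] at hc
      have h1 : d * (d * (e * d)) = d * (e * d) * d := hc
      simp only [mul_assoc, mul_one, one_mul, mul_inv_rev, inv_inv, inv_one, hR.ia, hR.ib, hR.ic, hR.aa, hR.bb,
      hR.cc, hR.ca, hR.r1, hR.r2, hR.r3, hR.r4, hR.r5, hR.r5', hR.r6, hR.r6', hR.r7, hR.r7'] at h1
      exact h1.symm
  -- the order of H
  have h6 : 6 ∣ Nat.card H := by
    have h2 : 2 ∣ Nat.card H := by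
      have h := orderOf_dvd_natCard (⟨d, hdH⟩ : H)
      rwa [Subgroup.orderOf_mk, hTS.1 d hd] at h
    have h3 : 3 ∣ Nat.card H := by
      have hde1 : d * e ≠ 1 := by
        intro h
        apply hde
        have h' : d * (d * e) = d * 1 := by rw [h]
        simp only [mul_assoc, mul_one, one_mul, mul_inv_rev, inv_inv, inv_one, hR.ia, hR.ib, hR.ic, hR.aa, hR.bb,
      hR.cc, hR.ca, hR.r1, hR.r2, hR.r3, hR.r4, hR.r5, hR.r5', hR.r6, hR.r6', hR.r7, hR.r7'] at h'
        rw [h']
      have hord : orderOf (d * e) = 3 := by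
        have : Fact (Nat.Prime 3) := ⟨by norm_num⟩
        apply orderOf_eq_prime _ hde1
        rw [pow_three]
        simp only [mul_assoc, mul_one, one_mul, mul_inv_rev, inv_inv, inv_one, hR.ia, hR.ib, hR.ic, hR.aa, hR.bb,
      hR.cc, hR.ca, hR.r1, hR.r2, hR.r3, hR.r4, hR.r5, hR.r5', hR.r6, hR.r6', hR.r7, hR.r7']
      have h := orderOf_dvd_natCard (⟨d * e, H.mul_mem hdH heH⟩ : H)
      rwa [Subgroup.orderOf_mk, hord] at h
    exact Nat.Coprime.mul_dvd_of_dvd_of_dvd (by norm_num) h2 h3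
  -- four cosets
  have hcos : ∀ x : G, ∃ k ∈ H, x = k ∨ x = k * d' ∨ x = k * (d' * e) ∨
      x = k * (d' * (e * d)) := by
    intro x
    have hx : x ∈ Subgroup.closure ({d, e, d'} : Set G) := by
      rw [hKtop]; exact Subgroup.mem_top x
    rw [hH]
    exact coset_enum hR x hx
  have hindex : Nat.card (G ⧸ H) ≤ 4 := by
    have hsurj : Function.Surjective
        (fun i : Fin 4 => (((![1, d', d' * e, d' * (e * d)] i)⁻¹ : G) : G ⧸ H)) := by
      intro q
      obtain ⟨x, rfl⟩ := QuotientGroup.mk_surjective q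
      obtain ⟨k, hk, hx⟩ := hcos x⁻¹
      have hx' : ∃ i : Fin 4, x⁻¹ = k * ![1, d', d' * e, d' * (e * d)] i := by
        rcases hx with h | h | h | h
        · exact ⟨0, by rw [h]; simp⟩
        · exact ⟨1, by rw [h]; simp⟩
        · exact ⟨2, by rw [h]; simp⟩
        · exact ⟨3, by rw [h]; simp⟩
      obtain ⟨i, hi⟩ := hx'
      refine ⟨i, ?_⟩
      show (((![1, d', d' * e, d' * (e * d)] i)⁻¹ : G) : G ⧸ H) = (x : G ⧸ H)
      rw [QuotientGroup.eq]
      have hx2 : x = (![1, d', d' * e, d' * (e * d)] i)⁻¹ * k⁻¹ := by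
        rw [← mul_inv_rev, ← hi, inv_inv]
      rw [hx2, inv_inv, mul_inv_cancel_left]
      exact H.inv_mem hk
    have h := Nat.card_le_card_of_surjective _ hsurj
    simpa using h
  -- the core of H is trivial
  have hcore : H.normalCore = ⊥ := by
    rw [Subgroup.eq_bot_iff_forall]
    intro x hx
    have hxH : x ∈ H := Subgroup.normalCore_le H hx
    have hN : H.normalCore.Normal := Subgroup.normalCore_normal H
    have hDN : ∀ y ∈ D, y ∉ H.normalCore := by
      intro y hy hyN
      obtain ⟨g, hg⟩ := hconjD y hy d' hP.2.1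
      apply hd'H
      apply Subgroup.normalCore_le H
      rw [← hg]
      exact hN.conj_mem y hyN g
    have hdeN : d * e ∉ H.normalCore := by
      intro hN1
      have h1 : d' * (d * e) * d'⁻¹ ∈ H := Subgroup.normalCore_le H (hN.conj_mem _ hN1 d')
      have h2 : e * d * (d' * (d * e) * d'⁻¹) * e ∈ H :=
        H.mul_mem (H.mul_mem (H.mul_mem heH hdH) h1) heH
      have h3 : e * d * (d' * (d * e) * d'⁻¹) * e = d' := by
        simp only [mul_assoc, mul_one, one_mul, mul_inv_rev, inv_inv, inv_one, hR.ia, hR.ib, hR.ic, hR.aa, hR.bb,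
      hR.cc, hR.ca, hR.r1, hR.r2, hR.r3, hR.r4, hR.r5, hR.r5', hR.r6, hR.r6', hR.r7, hR.r7']
      rw [h3] at h2
      exact hd'H h2
    rcases hmemH x hxH with h | h | h | h | h | h
    · exact h
    · rw [h] at hx
      exact absurd hx (hDN d hd)
    · rw [h] at hx
      exact absurd hx (hDN e he)
    · rw [h] at hx
      exact absurd hx hdeN
    · exfalso
      apply hdeN
      have h1 := H.normalCore.inv_mem hx
      rw [h] at h1
      have e1 : (e * d)⁻¹ = d * e := by
        simp only [mul_assoc, mul_one, one_mul, mul_inv_rev, inv_inv, inv_one, hR.ia, hR.ib, hR.ic, hR.aa, hR.bb,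
      hR.cc, hR.ca, hR.r1, hR.r2, hR.r3, hR.r4, hR.r5, hR.r5', hR.r6, hR.r6', hR.r7, hR.r7']
      rwa [e1] at h1
    · exfalso
      rw [h] at hx
      have hm' : d * (e * d) ∈ D := by
        rw [← mul_assoc]; exact hgD
      exact hDN _ hm' hx
  -- the action on the cosets of H
  have hinj : Function.Injective (MulAction.toPermHom G (G ⧸ H)) := by
    rw [← MonoidHom.ker_eq_bot_iff, ← Subgroup.normalCore_eq_ker, hcore]
  have hk1 : 0 < Nat.card (G ⧸ H) := Nat.card_pos
  have hcardG : Nat.card G = Nat.card H * Nat.card (G ⧸ H) := by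
    rw [← Subgroup.index_eq_card, Subgroup.card_mul_index]
  have hle : Nat.card G ≤ (Nat.card (G ⧸ H)).factorial := by
    have h := Nat.card_le_card_of_injective _ hinj
    rwa [Nat.card_perm] at h
  obtain ⟨m, hm6⟩ := h6
  have hHpos : 0 < Nat.card H := Nat.card_pos
  have hk4 : Nat.card (G ⧸ H) = 4 ∧ 6 * m = 6 := by
    apply arith _ m hk1 hindex
    · rw [← hm6]; exact hHpos
    · rw [← hm6, ← hcardG]; exact hle
  have hbij : Function.Bijective (MulAction.toPermHom G (G ⧸ H)) := by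
    apply hinj.bijective_of_nat_card_le
    rw [Nat.card_perm, hk4.1, hcardG, hk4.1, hm6, hk4.2]
    decide
  exact ⟨(MulEquiv.ofBijective (MulAction.toPermHom G (G ⧸ H)) hbij).trans
    (Equiv.permCongrHom (Finite.equivFinOfCardEq hk4.1))⟩

end Cfsg.Agent.S5355
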