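import Cfsg.Statements.S5358

set_option autoImplicit false
open scoped MatrixGroups
open Cfsg

namespace Cfsg.Agent.S5358

/-- Let Q be a non-degenerate quadratic form on the n-dimensional coordinate space over the field with three elements and u, v vectors of the same non-zero norm Q(u) = Q(v) spanning different lines (v ≠ u and v ≠ −u). Then the reflection matrices of u and v commute if and only if u and v are orthogonal for the polar form of Q. -/
theorem result (n : ℕ) (Q : QuadraticForm (ZMod 3) (Fin n → ZMod 3)) (hQ : (QuadraticMap.polarBilin Q).Nondegenerate) (u v : Fin n → ZMod 3) (hu : Q u ≠ 0) (huv : Q u = Q v) (h1 : v ≠ u) (h2 : v ≠ -u) : Commute (Cfsg.reflectionMatrix (⇑Q) u) (Cfsg.reflectionMatrix (⇑Q) v) ↔ QuadraticMap.polar (⇑Q) u v = 0 := by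
  classical
  -- dot product with the polar vector
  have hdot : ∀ w x : Fin n → ZMod 3, Cfsg.polarVec (⇑Q) w ⬝ᵥ x = QuadraticMap.polar (⇑Q) w x := by
    intro w x
    have h1 := LinearMap.pi_apply_eq_sum_univ (QuadraticMap.polarBilin Q w) x
    simp only [QuadraticMap.polarBilin_apply_apply, smul_eq_mul] at h1
    rw [h1]
    unfold Cfsg.polarVec dotProduct
    apply Finset.sum_congr rfl
    intro j _
    have : (Pi.single j (1 : ZMod 3) : Fin n → ZMod 3) = fun i => if j = i then 1 else 0 := by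
      funext i
      simp [Pi.single_apply, eq_comm]
    show QuadraticMap.polar (⇑Q) w (Pi.single j 1) * x j = _
    rw [this, mul_comm]
  set c := QuadraticMap.polar (⇑Q) u v with hc
  have hc' : QuadraticMap.polar (⇑Q) v u = c := by rw [hc, QuadraticMap.polar_comm]
  set pu := Cfsg.polarVec (⇑Q) u with hpu
  set pv := Cfsg.polarVec (⇑Q) v with hpv
  have hUV : Matrix.vecMulVec u pu * Matrix.vecMulVec v pv = Matrix.vecMulVec u (c • pv) := by
    rw [Matrix.vecMulVec_mul_vecMulVec, hpu, hdot]
  have hVU : Matrix.vecMulVec v pv * Matrix.vecMulVec u pu = Matrix.vecMulVec v (c • pu) := by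
    rw [Matrix.vecMulVec_mul_vecMulVec, hpv, hdot, hc']
  have ha : (Q u)⁻¹ ≠ 0 := inv_ne_zero hu
  have hRu : Cfsg.reflectionMatrix (⇑Q) u = 1 - (Q u)⁻¹ • Matrix.vecMulVec u pu := rfl
  have hRv : Cfsg.reflectionMatrix (⇑Q) v = 1 - (Q u)⁻¹ • Matrix.vecMulVec v pv := by
    rw [huv]; rfl
  rw [hRu, hRv]
  have key : ∀ A B : Matrix (Fin n) (Fin n) (ZMod 3), Commute (1 - A) (1 - B) ↔ A * B = B * A := by
    intro A B
    have h1 : (1 - A) * (1 - B) - (1 - B) * (1 - A) = A * B - B * A := by noncomm_ring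
    constructor
    · intro h
      have h2 : (1 - A) * (1 - B) = (1 - B) * (1 - A) := h
      rw [← sub_eq_zero] at h2 ⊢
      rw [← h1]; exact h2
    · intro h
      show (1 - A) * (1 - B) = (1 - B) * (1 - A)
      rw [← sub_eq_zero] at h ⊢
      rw [h1]; exact h
  rw [key, Matrix.smul_mul, Matrix.mul_smul, Matrix.smul_mul, Matrix.mul_smul, hUV, hVU]
  constructor
  · intro h
    by_contra hc0
    have h3 : Matrix.vecMulVec u (c • pv) = Matrix.vecMulVec v (c • pu) := by
      have h4 := smul_right_injective (Matrix (Fin n) (Fin n) (ZMod 3)) ha h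
      exact smul_right_injective (Matrix (Fin n) (Fin n) (ZMod 3)) ha h4
    have e1 : Matrix.mulVec (Matrix.vecMulVec u (c • pv)) u = (c * c) • u := by
      rw [Matrix.vecMulVec_mulVec, smul_dotProduct, hpv, hdot, hc', op_smul_eq_smul, smul_eq_mul]
    have e2 : Matrix.mulVec (Matrix.vecMulVec v (c • pu)) u = (c * (2 • Q u)) • v := by
      rw [Matrix.vecMulVec_mulVec, smul_dotProduct, hpu, hdot, QuadraticMap.polar_self,
        op_smul_eq_smul, smul_eq_mul]
    have h5 : (c * c) • u = (c * (2 • Q u)) • v := by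
      rw [← e1, ← e2, h3]
    -- h5 : (c * c) • u = (c * (2 • Q u)) • v
    have h2 : (2 : ZMod 3) ≠ 0 := by decide
    have hne : c * (2 • Q u) ≠ 0 := by
      rw [two_smul, ← two_mul]
      exact mul_ne_zero hc0 (mul_ne_zero h2 hu)
    have hv : v = ((c * (2 • Q u))⁻¹ * (c * c)) • u := by
      rw [← smul_smul, h5, smul_smul, inv_mul_cancel₀ hne, one_smul]
    have hs : (c * (2 • Q u))⁻¹ * (c * c) ≠ 0 :=
      mul_ne_zero (inv_ne_zero hne) (mul_ne_zero hc0 hc0)
    have hdec : ∀ s : ZMod 3, s ≠ 0 → s = 1 ∨ s = -1 := by decide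
    rcases hdec _ hs with h6 | h6
    · rw [h6, one_smul] at hv
      exact h1 hv
    · rw [h6, neg_smul, one_smul] at hv
      exact ‹v ≠ -u› hv
  · intro h
    rw [h]
    simp
end Cfsg.Agent.S5358
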