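import Cfsg.Statements.S5363

set_option autoImplicit false
open Cfsg

namespace Cfsg.Agent.S5363

/-- Let D be a conjugation-invariant set of involutions of a finite group G. Then every product of two members of D has odd order or order 2 if and only if, for every a in D and every b in D different from a and commuting with a, the members of D commuting with a b are exactly those commuting with both a and b. -/
theorem result {G : Type*} [Group G] [Finite G] {D : Set G} (hinv : ∀ d ∈ D, orderOf d = 2) (hconj : ∀ g : G, ∀ d ∈ D, g * d * g⁻¹ ∈ D) : (∀ a ∈ D, ∀ b ∈ D, Odd (orderOf (a * b)) ∨ orderOf (a * b) = 2) ↔ ∀ a ∈ D, ∀ b ∈ D, b ≠ a → Commute a b → {y : G | y ∈ D ∧ Commute (a * b) y} = {y : G | y ∈ D ∧ Commute a y} ∩ {y : G | y ∈ D ∧ Commute b y} := by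
  classical
  have hsq : ∀ d ∈ D, d * d = 1 := fun d hd => by
    rw [← pow_two, ← hinv d hd, pow_orderOf_eq_one]
  have hinv' : ∀ d ∈ D, d⁻¹ = d := fun d hd => inv_eq_of_mul_eq_one_left (hsq d hd)
  constructor
  · intro h a ha b hb hba hab
    ext y
    simp only [Set.mem_inter_iff, Set.mem_ofPred_eq]
    constructor
    · rintro ⟨hy, hyc⟩
      -- it suffices to show that a commutes with y
      suffices hay : Commute a y by
        refine ⟨⟨hy, hay⟩, hy, ?_⟩
        have : b = a⁻¹ * (a * b) := by group
        rw [this]
        exact (hay.inv_left).mul_left hyc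
      have hab' : a * b = b * a := hab
      have ht2 : (a * b) * (a * b) = 1 := by
        calc a * b * (a * b) = a * (b * a) * b := by group
          _ = a * (a * b) * b := by rw [hab']
          _ = (a * a) * (b * b) := by group
          _ = 1 := by rw [hsq a ha, hsq b hb]; simp
      have ht1 : a * b ≠ 1 := by
        intro h1
        apply hba
        have : b = a⁻¹ := eq_inv_of_mul_eq_one_right h1
        rw [this, hinv' a ha]
      have hcomm_of_sq : ∀ u v : G, u * u = 1 → v * v = 1 → (u * v) ^ 2 = 1 → Commute u v := by
        intro u v hu hv huv
        have hu' : u⁻¹ = u := inv_eq_of_mul_eq_one_left hu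
        have hv' : v⁻¹ = v := inv_eq_of_mul_eq_one_left hv
        have huv' : u * v * (u * v) = 1 := by rw [← pow_two]; exact huv
        show u * v = v * u
        calc u * v = (u * v * (u * v)) * (v⁻¹ * u⁻¹) := by group
          _ = v * u := by rw [huv', hu', hv']; simp
      rcases h y hy a ha with hodd | h2
      · -- y * a has odd order; then y = a
        set u := y * a with hu
        have hut : Commute u (a * b) := by
          have h1 : Commute y (a * b) := hyc.symm
          have h2 : Commute a (a * b) := (Commute.refl a).mul_right hab
          exact h1.mul_left h2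
        have hyb : y * b = u * (a * b) := by
          rw [hu]
          calc y * b = y * (a * a) * b := by rw [hsq a ha]; simp
            _ = y * a * (a * b) := by group
        have hu1 : u = 1 := by
          rcases h y hy b hb with hodd2 | h22
          · exfalso
            obtain ⟨m, hm⟩ := hodd
            obtain ⟨n, hn⟩ := hodd2
            rw [hyb] at hn
            have e1 : (u * (a * b)) ^ (2 * n + 1) = 1 := by rw [← hn]; exact pow_orderOf_eq_one _
            have e2 : u ^ (2 * m + 1) = 1 := by rw [← hm]; exact pow_orderOf_eq_one _
            have e3 : (a * b) ^ (2 * m + 1) = a * b := by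
              rw [pow_succ, pow_mul, pow_two, ht2, one_pow, one_mul]
            have e4 : (a * b) ^ (2 * n + 1) = a * b := by
              rw [pow_succ, pow_mul, pow_two, ht2, one_pow, one_mul]
            have e5 : (u * (a * b)) ^ (2 * m + 1) = a * b := by
              rw [hut.mul_pow, e2, e3, one_mul]
            have e6 : ((u * (a * b)) ^ (2 * m + 1)) ^ (2 * n + 1) = 1 := by
              rw [← pow_mul, mul_comm, pow_mul, e1, one_pow]
            rw [e5, e4] at e6
            exact ht1 e6
          · rw [hyb] at h22
            have e1 : (u * (a * b)) ^ 2 = 1 := by rw [← h22]; exact pow_orderOf_eq_one _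
            rw [hut.mul_pow, pow_two (a * b), ht2, mul_one] at e1
            have e2 : orderOf u ∣ 2 := orderOf_dvd_of_pow_eq_one e1
            have e3 : orderOf u = 1 := by
              rcases (Nat.dvd_prime Nat.prime_two).mp e2 with h1 | h1
              · exact h1
              · exfalso
                rw [h1] at hodd
                exact (by decide : ¬ Odd 2) hodd
            exact orderOf_eq_one_iff.mp e3
        have hya : y = a := by
          have : y = a⁻¹ := eq_inv_of_mul_eq_one_left hu1
          rw [this, hinv' a ha]
        rw [hya]
      · have e1 : (y * a) ^ 2 = 1 := by rw [← h2]; exact pow_orderOf_eq_one _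
        exact (hcomm_of_sq y a (hsq y hy) (hsq a ha) e1).symm
    · rintro ⟨⟨hy, hya⟩, _, hyb⟩
      exact ⟨hy, hya.mul_left hyb⟩
  · intro h a ha b hb
    set r := a * b with hr
    have hpos : 0 < orderOf r := orderOf_pos r
    rcases Nat.even_or_odd (orderOf r) with heven | hodd
    · right
      obtain ⟨k, hk⟩ := heven
      by_contra hne
      have hk2 : 2 ≤ k := by omega
      set z := r ^ k with hz
      have hz1 : z ≠ 1 := by
        intro h1
        have := orderOf_dvd_of_pow_eq_one h1
        have := Nat.le_of_dvd (by omega) this
        omega
      have hz2 : z * z = 1 := by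
        rw [hz, ← pow_add, ← hk]; exact pow_orderOf_eq_one _
      have hrinv : r⁻¹ = b * a := by
        rw [hr, mul_inv_rev, hinv' a ha, hinv' b hb]
      have har : ∀ j : ℕ, a * r ^ j = (r ^ j)⁻¹ * a := by
        intro j
        have h1 : a * r * a⁻¹ = r⁻¹ := by
          rw [hrinv, hr, hinv' a ha]
          calc a * (a * b) * a = (a * a) * b * a := by group
            _ = b * a := by rw [hsq a ha]; simp
        have h2 : a * r ^ j * a⁻¹ = (r ^ j)⁻¹ := by
          rw [← conj_pow, h1, inv_pow]
        calc a * r ^ j = (a * r ^ j * a⁻¹) * a := by group
          _ = (r ^ j)⁻¹ * a := by rw [h2]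
      have hbr : ∀ j : ℕ, b * r ^ j = (r ^ j)⁻¹ * b := by
        intro j
        have h1 : b * r * b⁻¹ = r⁻¹ := by
          rw [hrinv, hr]
          group
        have h2 : b * r ^ j * b⁻¹ = (r ^ j)⁻¹ := by
          rw [← conj_pow, h1, inv_pow]
        calc b * r ^ j = (b * r ^ j * b⁻¹) * b := by group
          _ = (r ^ j)⁻¹ * b := by rw [h2]
      have hzinv : z⁻¹ = z := inv_eq_of_mul_eq_one_left hz2
      have haz : Commute a z := by
        show a * z = z * a
        rw [hz, har k, ← hz, hzinv]
      have hbz : Commute b z := by
        show b * z = z * b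
        rw [hz, hbr k, ← hz, hzinv]
      have haD : a * z ∈ D := by
        rcases Nat.even_or_odd k with ⟨j, hj⟩ | ⟨j, hj⟩
        · have : a * z = (r ^ j)⁻¹ * a * ((r ^ j)⁻¹)⁻¹ := by
            rw [hz, hj, pow_add, ← mul_assoc, har j, inv_inv]
          rw [this]
          exact hconj _ a ha
        · have : a * z = (r ^ j)⁻¹ * b * ((r ^ j)⁻¹)⁻¹ := by
            rw [hz, hj, inv_inv]
            have e1 : r ^ (2 * j + 1) = r * r ^ j * r ^ j := by
              rw [pow_succ', two_mul, pow_add]; group
            rw [e1]
            calc a * (r * r ^ j * r ^ j) = (a * r) * r ^ j * r ^ j := by simp only [mul_assoc]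
              _ = b * r ^ j * r ^ j := by
                  have : a * r = b := by
                    rw [hr, ← mul_assoc, hsq a ha, one_mul]
                  rw [this]
              _ = (r ^ j)⁻¹ * b * r ^ j := by rw [hbr j]
          rw [this]
          exact hconj _ b hb
      have hne' : a * z ≠ a := by
        intro h1
        apply hz1
        calc z = a⁻¹ * (a * z) := by group
          _ = 1 := by rw [h1]; group
      have hcomm : Commute a (a * z) := (Commute.refl a).mul_right haz
      have hset := h a ha (a * z) haD hne' hcomm
      have hb_mem : b ∈ {y : G | y ∈ D ∧ Commute (a * (a * z)) y} := by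
        refine ⟨hb, ?_⟩
        have : a * (a * z) = z := by rw [← mul_assoc, hsq a ha, one_mul]
        rw [this]
        exact hbz.symm
      rw [hset] at hb_mem
      have hab : Commute a b := hb_mem.1.2
      have hr2 : r ^ 2 = 1 := by
        rw [hr, pow_two]
        have hab' : a * b = b * a := hab
        calc a * b * (a * b) = a * (b * a) * b := by group
          _ = a * (a * b) * b := by rw [hab']
          _ = (a * a) * (b * b) := by group
          _ = 1 := by rw [hsq a ha, hsq b hb]; simp
      have := Nat.le_of_dvd (by norm_num) (orderOf_dvd_of_pow_eq_one hr2)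
      omega
    · exact Or.inl hodd
end Cfsg.Agent.S5363
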