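import Cfsg.Statements.S5364

set_option autoImplicit false
open Cfsg

namespace Cfsg.Agent.S5364

/-- Let D be a conjugation-invariant set of involutions of a finite group G and t an involution in the centre of G such that d t does not lie in D for any d in D. If the images of the members of D in G modulo the subgroup generated by t satisfy the 3-transposition order conditions (each has order 2 and any two have product of order at most 3), then so do the members of D. -/
theorem result {G : Type*} [Group G] [Finite G] {D : Set G} (hinv : ∀ d ∈ D, orderOf d = 2) (hconj : ∀ g : G, ∀ d ∈ D, g * d * g⁻¹ ∈ D) (t : G) (ht : orderOf t = 2) (htZ : t ∈ Subgroup.center G) (hDt : ∀ d ∈ D, d * t ∉ D) [(Subgroup.zpowers t).Normal] (himg : Cfsg.IsThreeTranspositionSet ((QuotientGroup.mk : G → G ⧸ Subgroup.zpowers t) '' D)) : Cfsg.IsThreeTranspositionSet D := by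
  refine ⟨hinv, ?_⟩
  intro d hd e he
  have hd2 : d * d = 1 := by
    have := hinv d hd
    rw [← pow_two, ← this, pow_orderOf_eq_one]
  have he2 : e * e = 1 := by
    have := hinv e he
    rw [← pow_two, ← this, pow_orderOf_eq_one]
  have ht2 : t * t = 1 := by
    rw [← pow_two, ← ht, pow_orderOf_eq_one]
  have hdinv : d⁻¹ = d := inv_eq_of_mul_eq_one_left hd2
  have heinv : e⁻¹ = e := inv_eq_of_mul_eq_one_left he2
  -- elements of zpowers t are 1 or t
  have hzp : ∀ x ∈ Subgroup.zpowers t, x = 1 ∨ x = t := by
    intro x hx
    obtain ⟨k, rfl⟩ := hx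
    rcases Int.even_or_odd k with ⟨m, rfl⟩ | ⟨m, rfl⟩
    · left
      show t ^ (m + m) = 1
      rw [← two_mul, zpow_mul, zpow_two, ht2, one_zpow]
    · right
      show t ^ (2 * m + 1) = t
      rw [zpow_add, zpow_mul, zpow_two, ht2, one_zpow, one_mul, zpow_one]
  have h := himg.2 _ ⟨d, hd, rfl⟩ _ ⟨e, he, rfl⟩
  rcases h with h | h
  · -- (d e)^2 ∈ zpowers t
    have h' : (d * e) ^ 2 ∈ Subgroup.zpowers t := by
      rw [← QuotientGroup.eq_one_iff]
      simpa using h
    rcases hzp _ h' with h1 | h1
    · exact Or.inl h1
    · exfalso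
      apply hDt d hd
      have : d * t = e * d * e⁻¹ := by
        rw [← h1, heinv, pow_two]
        calc d * (d * e * (d * e)) = (d * d) * e * d * e := by group
          _ = e * d * e := by rw [hd2, one_mul]
      rw [this]
      exact hconj e d hd
  · have h' : (d * e) ^ 3 ∈ Subgroup.zpowers t := by
      rw [← QuotientGroup.eq_one_iff]
      simpa using h
    rcases hzp _ h' with h1 | h1
    · exact Or.inr h1
    · exfalso
      apply hDt d hd
      have : d * t = (e * d) * e * (e * d)⁻¹ := by
        rw [← h1, mul_inv_rev, heinv, hdinv, pow_succ, pow_two]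
        calc d * (d * e * (d * e) * (d * e)) = (d * d) * e * d * e * d * e := by group
          _ = e * d * e * (d * e) := by rw [hd2, one_mul]; group
      rw [this]
      exact hconj (e * d) e he

end Cfsg.Agent.S5364
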