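import Cfsg.Statements.S5366

set_option autoImplicit false
open Cfsg

namespace Cfsg.Agent.S5366

open Cfsg.LineSystem

variable {X : Type*}

/-- A line through three distinct points is that triple. -/
theorem line_eq {L : Set (Set X)} (h3 : ∀ l ∈ L, l.ncard = 3) {l : Set X} (hl : l ∈ L) {x y z : X}
    (hxy : x ≠ y) (hxz : x ≠ z) (hyz : y ≠ z) (hx : x ∈ l) (hy : y ∈ l) (hz : z ∈ l) :
    l = {x, y, z} := by
  have hfin : l.Finite := Set.finite_of_ncard_ne_zero (by rw [h3 l hl]; norm_num)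
  have hsub : ({x, y, z} : Set X) ⊆ l := by
    intro p hp
    rcases hp with rfl | rfl | rfl
    · exact hx
    · exact hy
    · exact hz
  have hc : ({x, y, z} : Set X).ncard = 3 := Set.ncard_eq_three.mpr ⟨x, y, z, hxy, hxz, hyz, rfl⟩
  exact (Set.eq_of_subset_of_ncard_le hsub (by rw [h3 l hl, hc]) hfin).symm

/-- Two distinct points of a line determine a third one. -/
theorem exists_third {L : Set (Set X)} (h3 : ∀ l ∈ L, l.ncard = 3) {l : Set X} (hl : l ∈ L) {x y : X}
    (hxy : x ≠ y) (hx : x ∈ l) (hy : y ∈ l) : ∃ z, z ≠ x ∧ z ≠ y ∧ l = {x, y, z} := by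
  have hfin : l.Finite := Set.finite_of_ncard_ne_zero (by rw [h3 l hl]; norm_num)
  have : ∃ z ∈ l, z ∉ ({x, y} : Set X) := by
    by_contra hcon
    push Not at hcon
    have hsub : l ⊆ {x, y} := hcon
    have h1 := Set.ncard_le_ncard hsub (Set.toFinite _)
    rw [h3 l hl, Set.ncard_pair hxy] at h1
    omega
  obtain ⟨z, hz, hzn⟩ := this
  have hzx : z ≠ x := fun h => hzn (by rw [h]; exact Set.mem_insert _ _)
  have hzy : z ≠ y := fun h => hzn (by rw [h]; exact Set.mem_insert_of_mem _ rfl)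
  exact ⟨z, hzx, hzy, line_eq h3 hl hxy (Ne.symm hzx) (Ne.symm hzy) hx hy hz⟩

/-- A point of a line lies with two further points on it. -/
theorem exists_two {L : Set (Set X)} (h3 : ∀ l ∈ L, l.ncard = 3) {l : Set X} (hl : l ∈ L) {x : X}
    (hx : x ∈ l) : ∃ y z, x ≠ y ∧ z ≠ x ∧ z ≠ y ∧ l = {x, y, z} := by
  have : ∃ y ∈ l, y ≠ x := by
    by_contra hcon
    push Not at hcon
    have hsub : l ⊆ {x} := hcon
    have h1 := Set.ncard_le_ncard hsub (Set.toFinite _)
    rw [h3 l hl, Set.ncard_singleton] at h1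
    omega
  obtain ⟨y, hy, hyx⟩ := this
  obtain ⟨z, hzx, hzy, hlz⟩ := exists_third h3 hl (Ne.symm hyx) hx hy
  exact ⟨y, z, Ne.symm hyx, hzx, hzy, hlz⟩

theorem lm_of_line {L : Set (Set X)} (hPL : IsPartialLinear L) {x y z : X} (hzx : z ≠ x)
    (hzy : z ≠ y) (hxy : x ≠ y) (h : ({x, y, z} : Set X) ∈ L) : lineMap L x y = z := by
  have hex : ∃ z : X, z ≠ x ∧ z ≠ y ∧ x ≠ y ∧ ({x, y, z} : Set X) ∈ L := ⟨z, hzx, hzy, hxy, h⟩
  have hval : lineMap L x y = hex.choose := by
    unfold lineMap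
    exact dif_pos hex
  obtain ⟨h1, h2, -, h4⟩ := hex.choose_spec
  have heq := hPL _ h _ h4 x y hxy (by simp) (by simp) (by simp) (by simp)
  have hmem : hex.choose ∈ ({x, y, z} : Set X) := by rw [heq]; simp
  rw [hval]
  rcases hmem with h5 | h5 | h5
  · exact absurd h5 h1
  · exact absurd h5 h2
  · exact h5

theorem lm_spec {L : Set (Set X)} {x y : X} (h : lineMap L x y ≠ y) :
    lineMap L x y ≠ x ∧ x ≠ y ∧ ({x, y, lineMap L x y} : Set X) ∈ L := by
  by_cases hex : ∃ z : X, z ≠ x ∧ z ≠ y ∧ x ≠ y ∧ ({x, y, z} : Set X) ∈ L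
  · have hval : lineMap L x y = hex.choose := by
      unfold lineMap
      exact dif_pos hex
    obtain ⟨h1, h2, h3, h4⟩ := hex.choose_spec
    rw [hval]
    exact ⟨h1, h3, h4⟩
  · exfalso
    apply h
    unfold lineMap
    exact dif_neg hex

theorem lm_invol {L : Set (Set X)} (hPL : IsPartialLinear L) (x y : X) :
    lineMap L x (lineMap L x y) = y := by
  by_cases h : lineMap L x y = y
  · rw [h, h]
  · obtain ⟨h1, h2, h3⟩ := lm_spec h
    have h4 : ({x, lineMap L x y, y} : Set X) ∈ L := by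
      have : ({x, lineMap L x y, y} : Set X) = {x, y, lineMap L x y} := by
        rw [Set.pair_comm (lineMap L x y) y]
      rw [this]; exact h3
    exact lm_of_line hPL (Ne.symm h2) (Ne.symm h) (Ne.symm h1) h4

/-- The permutation `t(x)`. -/
noncomputable def sig {L : Set (Set X)} (hPL : IsPartialLinear L) (x : X) : Equiv.Perm X :=
  ⟨lineMap L x, lineMap L x, lm_invol hPL x, lm_invol hPL x⟩

theorem sig_apply {L : Set (Set X)} (hPL : IsPartialLinear L) (x p : X) :
    sig hPL x p = lineMap L x p := rfl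

theorem sig_mul_self {L : Set (Set X)} (hPL : IsPartialLinear L) (x : X) :
    sig hPL x * sig hPL x = 1 := by
  ext p
  simp only [Equiv.Perm.mul_apply, sig_apply, Equiv.Perm.one_apply]
  exact lm_invol hPL x p

theorem image_triple (α : Equiv.Perm X) (a b c : X) :
    α '' ({a, b, c} : Set X) = {α a, α b, α c} := by
  rw [Set.image_insert_eq, Set.image_pair]

/-- Conjugation rule for automorphisms. -/
theorem lm_conj {L : Set (Set X)} (hPL : IsPartialLinear L) (α : Equiv.Perm X) (hα : IsIso L L α)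
    (y p : X) : lineMap L (α y) (α p) = α (lineMap L y p) := by
  by_cases h : lineMap L y p = p
  · rw [h]
    by_contra h'
    obtain ⟨h1, h2, h3⟩ := lm_spec h'
    set q := lineMap L (α y) (α p) with hq
    have h4 : α '' ({y, p, α.symm q} : Set X) = {α y, α p, q} := by
      rw [image_triple, Equiv.apply_symm_apply]
    have h5 : ({y, p, α.symm q} : Set X) ∈ L := by
      rw [hα, h4]; exact h3
    have h6 : α.symm q ≠ y := fun hh => h1 (by rw [← hh, Equiv.apply_symm_apply])
    have h7 : α.symm q ≠ p := fun hh => h' (by rw [← hh, Equiv.apply_symm_apply])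
    have h8 : y ≠ p := fun hh => h2 (by rw [hh])
    have h9 := lm_of_line hPL h6 h7 h8 h5
    rw [h] at h9
    exact h7 h9.symm
  · obtain ⟨h1, h2, h3⟩ := lm_spec h
    have h4 : ({α y, α p, α (lineMap L y p)} : Set X) ∈ L := by
      rw [← image_triple]; exact (hα _).mp h3
    exact lm_of_line hPL (fun hh => h1 (α.injective hh)) (fun hh => h (α.injective hh))
      (fun hh => h2 (α.injective hh)) h4

theorem sig_conj {L : Set (Set X)} (hPL : IsPartialLinear L) (x y : X)
    (hα : IsIso L L (sig hPL x)) :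
    sig hPL x * sig hPL y * sig hPL x = sig hPL (lineMap L x y) := by
  ext p
  simp only [Equiv.Perm.mul_apply, sig_apply]
  have h := lm_conj hPL (sig hPL x) hα y (lineMap L x p)
  simp only [sig_apply] at h
  rw [lm_invol hPL x p] at h
  exact h.symm

/-! ### Subspaces and the transfer from a model plane -/

theorem subset_span (L : Set (Set X)) (A : Set X) : A ⊆ span L A :=
  Set.subset_sInter fun _ hT => hT.1

theorem span_isSubspace (L : Set (Set X)) (A : Set X) : IsSubspace L (span L A) := by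
  intro l hl x hx y hy hxy hxl hyl
  apply Set.subset_sInter
  intro T hT
  exact hT.2 l hl x (hx T hT) y (hy T hT) hxy hxl hyl

/-- What we need from a model plane: a map `th x` realising `t(x)` and carrying lines to lines. -/
def ModelOK {P : Type*} (M : Set (Set P)) : Prop :=
  ∃ th : P → P → P,
    (∀ x p, th x p ≠ p → x ≠ p ∧ th x p ≠ x ∧ ∃ k ∈ M, x ∈ k ∧ p ∈ k ∧ th x p ∈ k) ∧
    (∀ x p, th x p = p → ∀ k ∈ M, x ∈ k → p ∈ k → x = p) ∧
    (∀ x, ∀ l ∈ M, ∃ n ∈ M, ∀ p ∈ l, th x p ∈ n)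

theorem transfer_point {L : Set (Set X)} (hPL : IsPartialLinear L) (h3 : ∀ l ∈ L, l.ncard = 3)
    {S : Set X} (hS : IsSubspace L S) {P : Type*} {M : Set (Set P)} (e : S ≃ P)
    (he : IsIso (restrict L S) M e) (th : P → P → P)
    (hA : ∀ x p, th x p ≠ p → x ≠ p ∧ th x p ≠ x ∧ ∃ k ∈ M, x ∈ k ∧ p ∈ k ∧ th x p ∈ k)
    (hB : ∀ x p, th x p = p → ∀ k ∈ M, x ∈ k → p ∈ k → x = p)
    (x p : S) : lineMap L (x : X) (p : X) = ((e.symm (th (e x) (e p)) : S) : X) := by
  by_cases h : th (e x) (e p) = e p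
  · rw [h, Equiv.symm_apply_apply]
    by_contra h'
    obtain ⟨h1, h2, h4⟩ := lm_spec h'
    have hk : ({(x : X), (p : X), lineMap L (x : X) (p : X)} : Set X) ⊆ S :=
      hS _ h4 x x.2 p p.2 h2 (by simp) (by simp)
    have hr : {s : S | (s : X) ∈ ({(x : X), (p : X), lineMap L (x : X) (p : X)} : Set X)} ∈
        restrict L S := ⟨_, h4, hk, rfl⟩
    have hr' := (he _).mp hr
    have hxp : e x = e p := hB (e x) (e p) h _ hr' ⟨x, by simp, rfl⟩ ⟨p, by simp, rfl⟩
    exact h2 (congrArg Subtype.val (e.injective hxp))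
  · obtain ⟨h1, h2, k', hk', hxk, hpk, hqk⟩ := hA (e x) (e p) h
    have hr : e ⁻¹' k' ∈ restrict L S := by
      rw [he, Set.image_preimage_eq k' e.surjective]; exact hk'
    obtain ⟨k, hk, hkS, hkeq⟩ := hr
    set q : S := e.symm (th (e x) (e p)) with hq
    have hxk' : (x : X) ∈ k := by
      have : x ∈ e ⁻¹' k' := hxk
      rw [hkeq] at this; exact this
    have hpk' : (p : X) ∈ k := by
      have : p ∈ e ⁻¹' k' := hpk
      rw [hkeq] at this; exact this
    have hqk' : (q : X) ∈ k := by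
      have : q ∈ e ⁻¹' k' := by
        show e q ∈ k'
        rw [hq, Equiv.apply_symm_apply]; exact hqk
      rw [hkeq] at this; exact this
    have hxp : (x : X) ≠ (p : X) := fun hh => h1 (congrArg e (Subtype.ext hh))
    have heq : e q = th (e x) (e p) := by rw [hq, Equiv.apply_symm_apply]
    have hqx : (q : X) ≠ (x : X) := fun hh => h2 (by
      have h' : e q = e x := congrArg e (Subtype.ext hh)
      rw [heq] at h'
      exact h')
    have hqp : (q : X) ≠ (p : X) := fun hh => h (by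
      have h' : e q = e p := congrArg e (Subtype.ext hh)
      rw [heq] at h'
      exact h')
    have hkl : k = {(x : X), (p : X), (q : X)} :=
      line_eq h3 hk hxp (Ne.symm hqx) (Ne.symm hqp) hxk' hpk' hqk'
    exact lm_of_line hPL hqx hqp hxp (hkl ▸ hk)

theorem transfer_line {L : Set (Set X)} (hPL : IsPartialLinear L) (h3 : ∀ l ∈ L, l.ncard = 3)
    {S : Set X} (hS : IsSubspace L S) {P : Type*} {M : Set (Set P)} (hM : ModelOK M)
    (hiso : Isomorphic (restrict L S) M) {x : X} (hx : x ∈ S) {l : Set X} (hl : l ∈ L)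
    (hlS : l ⊆ S) : lineMap L x '' l ∈ L := by
  obtain ⟨th, hA, hB, hC⟩ := hM
  obtain ⟨e, he⟩ := hiso
  have hr : {s : S | (s : X) ∈ l} ∈ restrict L S := ⟨l, hl, hlS, rfl⟩
  have hr' := (he _).mp hr
  obtain ⟨n', hn', hn'l⟩ := hC (e ⟨x, hx⟩) _ hr'
  have hrn : e ⁻¹' n' ∈ restrict L S := by
    rw [he, Set.image_preimage_eq n' e.surjective]; exact hn'
  obtain ⟨n, hn, hnS, hneq⟩ := hrn
  have hsub : lineMap L x '' l ⊆ n := by
    rintro _ ⟨p, hp, rfl⟩
    have h1 := transfer_point hPL h3 hS e he th hA hB ⟨x, hx⟩ ⟨p, hlS hp⟩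
    have h2 : th (e ⟨x, hx⟩) (e ⟨p, hlS hp⟩) ∈ n' := hn'l _ ⟨⟨p, hlS hp⟩, hp, rfl⟩
    have h3' : e.symm (th (e ⟨x, hx⟩) (e ⟨p, hlS hp⟩)) ∈ e ⁻¹' n' := by
      show e (e.symm _) ∈ n'
      rw [Equiv.apply_symm_apply]; exact h2
    rw [hneq] at h3'
    show lineMap L x p ∈ n
    have h1' : lineMap L x p = ((e.symm (th (e ⟨x, hx⟩) (e ⟨p, hlS hp⟩)) : S) : X) := h1
    rw [h1']; exact h3'
  have hinj : Function.Injective (lineMap L x) := (sig hPL x).injective
  have hfin : n.Finite := Set.finite_of_ncard_ne_zero (by rw [h3 n hn]; norm_num)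
  have hc : (lineMap L x '' l).ncard = 3 := by
    rw [Set.ncard_image_of_injective _ hinj, h3 l hl]
  have := Set.eq_of_subset_of_ncard_le hsub (by rw [h3 n hn, hc]) hfin
  rw [this]; exact hn

/-! ### The two model planes -/

theorem three_zmod (a : ZMod 3) : a + a + a = 0 := by revert a; decide

theorem modelOK_affine : ModelOK affinePlaneThree := by
  refine ⟨fun x p => -x - p, ?_, ?_, ?_⟩
  · intro x p h
    have hxp : x ≠ p := by
      rintro rfl
      apply h
      funext i
      have := three_zmod (x i)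
      simp only [Pi.sub_apply, Pi.neg_apply]
      linear_combination (-1 : ZMod 3) * this
    refine ⟨hxp, ?_, ?_⟩
    · intro h'
      apply hxp
      funext i
      have h1 := congrFun h' i
      simp only [Pi.sub_apply, Pi.neg_apply] at h1
      have := three_zmod (x i)
      linear_combination h1 + this
    · refine ⟨{y | ∃ c : ZMod 3, y = x + c • (p - x)},
        ⟨x, p - x, sub_ne_zero.mpr (Ne.symm hxp), rfl⟩, ⟨0, by simp⟩, ⟨1, by simp⟩, ⟨2, ?_⟩⟩
      funext i
      simp only [Pi.sub_apply, Pi.neg_apply, Pi.add_apply, Pi.smul_apply, smul_eq_mul]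
      have := three_zmod (p i)
      linear_combination (-1 : ZMod 3) * this
  · intro x p h k _ _ _
    funext i
    have h1 := congrFun h i
    simp only [Pi.sub_apply, Pi.neg_apply] at h1
    have := three_zmod (p i)
    linear_combination (-1 : ZMod 3) * h1 - this
  · intro x l hl
    obtain ⟨v, w, hw, rfl⟩ := hl
    refine ⟨{y | ∃ c : ZMod 3, y = (-x - v) + c • (-w)},
      ⟨-x - v, -w, neg_ne_zero.mpr hw, rfl⟩, ?_⟩
    rintro p ⟨c, rfl⟩
    refine ⟨c, ?_⟩
    funext i
    simp only [Pi.sub_apply, Pi.neg_apply, Pi.add_apply, Pi.smul_apply, smul_eq_mul]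
    ring

theorem dual_card : ∀ x p : DualAffinePoint, (x.val ∩ p.val).card = 1 →
    (symmDiff x.val p.val).card = 2 := by decide

/-- The map `t(x)` of the dual affine plane. -/
def thD (x p : DualAffinePoint) : DualAffinePoint :=
  if h : (x.val ∩ p.val).card = 1 then ⟨symmDiff x.val p.val, dual_card x p h⟩ else p

theorem thD_A : ∀ x p : DualAffinePoint, thD x p ≠ p →
    x ≠ p ∧ thD x p ≠ x ∧ ∃ i : Fin 4, i ∉ x.val ∧ i ∉ p.val ∧ i ∉ (thD x p).val := by decide

theorem thD_B : ∀ x p : DualAffinePoint, thD x p = p →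
    ∀ i : Fin 4, i ∉ x.val → i ∉ p.val → x = p := by decide

theorem thD_C : ∀ x : DualAffinePoint, ∀ i : Fin 4, ∃ j : Fin 4,
    ∀ p : DualAffinePoint, i ∉ p.val → j ∉ (thD x p).val := by decide

theorem modelOK_dual : ModelOK dualAffinePlaneTwo := by
  refine ⟨thD, ?_, ?_, ?_⟩
  · intro x p h
    obtain ⟨h1, h2, i, hi1, hi2, hi3⟩ := thD_A x p h
    exact ⟨h1, h2, {s | i ∉ s.val}, ⟨i, rfl⟩, hi1, hi2, hi3⟩
  · intro x p h k hk hx hp
    obtain ⟨i, rfl⟩ := hk
    exact thD_B x p h i hx hp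
  · intro x l hl
    obtain ⟨i, rfl⟩ := hl
    obtain ⟨j, hj⟩ := thD_C x i
    exact ⟨{s | j ∉ s.val}, ⟨j, rfl⟩, fun p hp => hj p hp⟩

/-! ### The main statement -/

theorem sig_iso {L : Set (Set X)} (hL : IsFischerSpace L) (x : X) : IsIso L L (sig hL.1 x) := by
  obtain ⟨hPL, h3, hplane⟩ := hL
  have hinj : Function.Injective (lineMap L x) := (sig hPL x).injective
  have key : ∀ l ∈ L, lineMap L x '' l ∈ L := by
    intro l hl
    by_cases hall : ∀ p ∈ l, lineMap L x p ∈ l
    · have hsub : lineMap L x '' l ⊆ l := by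
        rintro _ ⟨p, hp, rfl⟩; exact hall p hp
      have hfin : l.Finite := Set.finite_of_ncard_ne_zero (by rw [h3 l hl]; norm_num)
      have hc : (lineMap L x '' l).ncard = 3 := by
        rw [Set.ncard_image_of_injective _ hinj, h3 l hl]
      rw [Set.eq_of_subset_of_ncard_le hsub (by rw [h3 l hl, hc]) hfin]; exact hl
    · push Not at hall
      obtain ⟨y, hy, hyn⟩ := hall
      have hne : lineMap L x y ≠ y := fun h => hyn (by rw [h]; exact hy)
      obtain ⟨h1, h2, h4⟩ := lm_spec hne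
      have hxl : x ∉ l := by
        intro hxl
        have := hPL _ hl _ h4 x y h2 hxl hy (by simp) (by simp)
        apply hyn; rw [this]; simp
      have hxm : x ∈ ({x, y, lineMap L x y} : Set X) := by simp
      have hym : y ∈ ({x, y, lineMap L x y} : Set X) := by simp
      have hlm : l ≠ ({x, y, lineMap L x y} : Set X) := fun h => hxl (by rw [h]; exact hxm)
      have hint : (l ∩ ({x, y, lineMap L x y} : Set X)).Nonempty := ⟨y, hy, hym⟩
      have hS := span_isSubspace L (l ∪ ({x, y, lineMap L x y} : Set X))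
      have hsub := subset_span L (l ∪ ({x, y, lineMap L x y} : Set X))
      have hxS : x ∈ span L (l ∪ ({x, y, lineMap L x y} : Set X)) := hsub (Or.inr hxm)
      have hlS : l ⊆ span L (l ∪ ({x, y, lineMap L x y} : Set X)) := fun p hp => hsub (Or.inl hp)
      rcases hplane l hl _ h4 hlm hint with hiso | hiso
      · exact transfer_line hPL h3 hS modelOK_dual hiso hxS hl hlS
      · exact transfer_line hPL h3 hS modelOK_affine hiso hxS hl hlS
  intro l
  constructor
  · intro hl; exact key l hl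
  · intro hl
    have h1 := key _ hl
    have h2 : lineMap L x '' (lineMap L x '' l) = l := by
      rw [Set.image_image]
      have : (fun p => lineMap L x (lineMap L x p)) = id := funext fun p => lm_invol hPL x p
      rw [this, Set.image_id]
    have h1' : lineMap L x '' (lineMap L x '' l) ∈ L := h1
    rw [h2] at h1'; exact h1'

theorem sig_order {L : Set (Set X)} (hL : IsFischerSpace L) (hnd : IsNondegenerate L) (x : X) :
    orderOf (sig hL.1 x) = 2 := by
  obtain ⟨l, hl, hxl⟩ := hnd x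
  obtain ⟨y, z, hxy, hzx, hzy, hlz⟩ := exists_two hL.2.1 hl hxl
  have h1 : lineMap L x y = z := lm_of_line hL.1 hzx hzy hxy (hlz ▸ hl)
  have hne : sig hL.1 x ≠ 1 := by
    intro h
    have h2 : sig hL.1 x y = y := by rw [h]; rfl
    rw [sig_apply, h1] at h2
    exact hzy h2
  exact orderOf_eq_prime (by rw [pow_two]; exact sig_mul_self _ x) hne

theorem result {X : Type*} (L : Set (Set X)) (hL : Cfsg.IsFischerSpace L) (hnd : Cfsg.LineSystem.IsNondegenerate L) : (∀ x : X, ∃ σ : Equiv.Perm X, ⇑σ = Cfsg.LineSystem.lineMap L x ∧ orderOf σ = 2 ∧ Cfsg.LineSystem.IsIso L L σ) ∧ Cfsg.IsThreeTranspositionSet {σ : Equiv.Perm X | ∃ x : X, ⇑σ = Cfsg.LineSystem.lineMap L x} := by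
  have hPL := hL.1
  refine ⟨fun x => ⟨sig hPL x, rfl, sig_order hL hnd x, sig_iso hL x⟩, ?_, ?_⟩
  · rintro σ ⟨x, hx⟩
    have hσ : σ = sig hPL x := Equiv.coe_fn_injective hx
    rw [hσ]; exact sig_order hL hnd x
  · rintro σ ⟨x, hx⟩ τ ⟨y, hy⟩
    have hσ : σ = sig hPL x := Equiv.coe_fn_injective hx
    have hτ : τ = sig hPL y := Equiv.coe_fn_injective hy
    rw [hσ, hτ]
    have hconj := sig_conj hPL x y (sig_iso hL x)
    by_cases h : lineMap L x y = y
    · left
      rw [h] at hconj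
      rw [pow_two, ← mul_assoc, hconj]
      exact sig_mul_self hPL y
    · right
      obtain ⟨h1, h2, h4⟩ := lm_spec h
      have h5 : lineMap L y x = lineMap L x y := by
        apply lm_of_line hPL h h1 (Ne.symm h2)
        rw [Set.insert_comm]; exact h4
      have hconj' := sig_conj hPL y x (sig_iso hL y)
      rw [h5] at hconj'
      have h6 : (sig hPL x * sig hPL y) ^ 3 =
          (sig hPL x * sig hPL y * sig hPL x) * (sig hPL y * sig hPL x * sig hPL y) := by
        simp only [pow_succ, pow_zero, one_mul, mul_assoc]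
      rw [h6, hconj, hconj']; exact sig_mul_self hPL _

end Cfsg.Agent.S5366
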