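import Cfsg.Statements.S5367
import Cfsg.Agent.S5366

set_option autoImplicit false
open Cfsg

namespace Cfsg.Agent.S5367

open Cfsg.LineSystem

variable {G : Type*} [Group G] {D : Set G}

theorem sq_one (hT : IsThreeTranspositionSet D) {d : G} (hd : d ∈ D) : d * d = 1 := by
  have h := hT.1 d hd
  rw [← pow_two, ← h]; exact pow_orderOf_eq_one d

theorem inv_self (hT : IsThreeTranspositionSet D) {d : G} (hd : d ∈ D) : d⁻¹ = d :=
  inv_eq_of_mul_eq_one_left (sq_one hT hd)

theorem braid (hT : IsThreeTranspositionSet D) {x y : G} (hx : x ∈ D) (hy : y ∈ D)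
    (h : ¬ Commute x y) : x * y * x = y * x * y := by
  rcases hT.2 x hx y hy with h2 | h3
  · exfalso; apply h
    have h1 : x * y * (x * y) = 1 := by rw [← pow_two]; exact h2
    have h4 : x * y = (x * y)⁻¹ := eq_inv_of_mul_eq_one_left h1
    rw [mul_inv_rev, inv_self hT hx, inv_self hT hy] at h4
    exact h4
  · have h1 : x * y * x * (y * x * y) = 1 := by
      rw [← h3]; simp [pow_succ, mul_assoc]
    have h4 := eq_inv_of_mul_eq_one_left h1
    rw [mul_inv_rev, mul_inv_rev, inv_self hT hx, inv_self hT hy, ← mul_assoc] at h4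
    exact h4

/-- Conjugation inside `D`. -/
def cj (hc : ∀ g : G, ∀ d ∈ D, g * d * g⁻¹ ∈ D) (x y : D) : D :=
  ⟨(x : G) * y * (x : G)⁻¹, hc x y y.2⟩

/-- `x, y` do not commute and `z` is the third point of their line. -/
def TriD (x y z : D) : Prop := ¬ Commute (x : G) (y : G) ∧ (y : G) * x * (y : G)⁻¹ = z

theorem tri12 (hT : IsThreeTranspositionSet D) {x y z : D} (h : TriD x y z) : TriD y x z := by
  refine ⟨fun hh => h.1 hh.symm, ?_⟩
  rw [← h.2, inv_self hT x.2, inv_self hT y.2]
  exact braid hT x.2 y.2 h.1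

theorem tri23 (hT : IsThreeTranspositionSet D) {x y z : D} (h : TriD x y z) : TriD x z y := by
  have hb := braid hT x.2 y.2 h.1
  have hz : (z : G) = y * x * y := by rw [← h.2, inv_self hT y.2]
  have key : (z : G) * x * (z : G)⁻¹ = y := by
    rw [inv_self hT z.2, hz]
    calc (y : G) * x * y * x * (y * x * y) = y * (x * y * x) * (y * x * y) := by group
      _ = y * (y * x * y) * (y * x * y) := by rw [hb]
      _ = (y * y) * x * (y * y) * x * y := by group
      _ = y := by rw [sq_one hT y.2, one_mul, mul_one, sq_one hT x.2, one_mul]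
  refine ⟨fun hh => h.1 ?_, key⟩
  have h1 : (z : G) * x * (z : G)⁻¹ = x := by
    rw [← hh.eq, mul_inv_cancel_right]
  rw [key] at h1
  rw [h1]

theorem tri231 (hT : IsThreeTranspositionSet D) {x y z : D} (h : TriD x y z) : TriD y z x :=
  tri23 hT (tri12 hT h)

theorem tri312 (hT : IsThreeTranspositionSet D) {x y z : D} (h : TriD x y z) : TriD z x y :=
  tri12 hT (tri23 hT h)

theorem tri321 (hT : IsThreeTranspositionSet D) {x y z : D} (h : TriD x y z) : TriD z y x :=
  tri12 hT (tri231 hT h)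

theorem tri_ne {x y z : D} (h : TriD x y z) : x ≠ y := fun hh => h.1 (by rw [hh])

theorem mem_lines (hc : ∀ g : G, ∀ d ∈ D, g * d * g⁻¹ ∈ D) (k : Set D) :
    k ∈ threeTranspositionLines D ↔ ∃ x y z : D, TriD x y z ∧ k = {x, y, z} := by
  constructor
  · rintro ⟨x, y, hxy, rfl⟩
    refine ⟨x, y, cj hc y x, ⟨hxy, rfl⟩, ?_⟩
    ext w
    simp [Subtype.ext_iff, cj]
  · rintro ⟨x, y, z, ⟨hxy, hz⟩, rfl⟩
    refine ⟨x, y, hxy, ?_⟩
    ext w
    simp [Subtype.ext_iff, ← hz]

theorem tri_mem (hT : IsThreeTranspositionSet D) {x y z p q : D} (h : TriD x y z)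
    (hp : p ∈ ({x, y, z} : Set D)) (hq : q ∈ ({x, y, z} : Set D)) (hpq : p ≠ q) :
    ∃ r, TriD p q r ∧ ({p, q, r} : Set D) = {x, y, z} := by
  rcases hp with rfl | rfl | rfl <;> rcases hq with rfl | rfl | rfl
  · exact absurd rfl hpq
  · exact ⟨_, h, rfl⟩
  · exact ⟨_, tri23 hT h, by ext w; simp; tauto⟩
  · exact ⟨_, tri12 hT h, by ext w; simp; tauto⟩
  · exact absurd rfl hpq
  · exact ⟨_, tri231 hT h, by ext w; simp; tauto⟩
  · exact ⟨_, tri312 hT h, by ext w; simp; tauto⟩
  · exact ⟨_, tri321 hT h, by ext w; simp; tauto⟩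
  · exact absurd rfl hpq

theorem tri_unique {x y z z' : D} (h : TriD x y z) (h' : TriD x y z') : z = z' :=
  Subtype.ext (h.2.symm.trans h'.2)

theorem lines_PL (hT : IsThreeTranspositionSet D) (hc : ∀ g : G, ∀ d ∈ D, g * d * g⁻¹ ∈ D) :
    IsPartialLinear (threeTranspositionLines D) := by
  intro l hl m hm p q hpq hpl hql hpm hqm
  obtain ⟨x, y, z, h, rfl⟩ := (mem_lines hc l).mp hl
  obtain ⟨x', y', z', h', rfl⟩ := (mem_lines hc m).mp hm
  obtain ⟨r, hr, e1⟩ := tri_mem hT h hpl hql hpq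
  obtain ⟨r', hr', e2⟩ := tri_mem hT h' hpm hqm hpq
  rw [← e1, ← e2, tri_unique hr hr']

theorem lines_card (hT : IsThreeTranspositionSet D) (hc : ∀ g : G, ∀ d ∈ D, g * d * g⁻¹ ∈ D) :
    ∀ l ∈ threeTranspositionLines D, l.ncard = 3 := by
  intro l hl
  obtain ⟨x, y, z, h, rfl⟩ := (mem_lines hc l).mp hl
  exact Set.ncard_eq_three.mpr ⟨x, y, z, tri_ne h, tri_ne (tri23 hT h), tri_ne (tri231 hT h), rfl⟩

theorem line_through (hT : IsThreeTranspositionSet D) (hc : ∀ g : G, ∀ d ∈ D, g * d * g⁻¹ ∈ D)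
    {k : Set D} (hk : k ∈ threeTranspositionLines D) {a : D} (ha : a ∈ k) :
    ∃ b c, TriD a b c ∧ k = {a, b, c} := by
  obtain ⟨x, y, z, h, rfl⟩ := (mem_lines hc k).mp hk
  rcases ha with rfl | rfl | rfl
  · exact ⟨_, _, h, rfl⟩
  · exact ⟨_, _, tri12 hT h, by ext w; simp; tauto⟩
  · exact ⟨_, _, tri312 hT h, by ext w; simp; tauto⟩

/-! ### Conjugation calculus -/

theorem cj_val (hc : ∀ g : G, ∀ d ∈ D, g * d * g⁻¹ ∈ D) (x y : D) :
    ((cj hc x y : D) : G) = x * y * (x : G)⁻¹ := rfl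

theorem cj_cj (hc : ∀ g : G, ∀ d ∈ D, g * d * g⁻¹ ∈ D) (x y z : D) :
    cj hc x (cj hc y z) = cj hc (cj hc x y) (cj hc x z) := by
  apply Subtype.ext
  simp only [cj_val]
  group

theorem cj_invol (hT : IsThreeTranspositionSet D) (hc : ∀ g : G, ∀ d ∈ D, g * d * g⁻¹ ∈ D)
    (x y : D) : cj hc x (cj hc x y) = y := by
  apply Subtype.ext
  simp only [cj_val]
  rw [inv_self hT x.2]
  calc (x : G) * (x * y * x) * x = (x * x) * y * (x * x) := by group
    _ = y := by rw [sq_one hT x.2, one_mul, mul_one]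

theorem cj_inj (hT : IsThreeTranspositionSet D) (hc : ∀ g : G, ∀ d ∈ D, g * d * g⁻¹ ∈ D)
    (x : D) {y z : D} (h : cj hc x y = cj hc x z) : y = z := by
  have h1 := congrArg (cj hc x) h
  rwa [cj_invol hT hc, cj_invol hT hc] at h1

theorem cj_of_tri (hc : ∀ g : G, ∀ d ∈ D, g * d * g⁻¹ ∈ D) {x y z : D} (h : TriD x y z) :
    cj hc y x = z := Subtype.ext h.2

theorem cj_of_tri' (hT : IsThreeTranspositionSet D) (hc : ∀ g : G, ∀ d ∈ D, g * d * g⁻¹ ∈ D)
    {x y z : D} (h : TriD x y z) : cj hc x y = z := cj_of_tri hc (tri12 hT h)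

theorem cj_of_comm (hc : ∀ g : G, ∀ d ∈ D, g * d * g⁻¹ ∈ D) {x y : D}
    (h : Commute (x : G) (y : G)) : cj hc x y = y := by
  apply Subtype.ext
  simp only [cj_val]
  rw [h.eq, mul_inv_cancel_right]

theorem comm_of_cj (hc : ∀ g : G, ∀ d ∈ D, g * d * g⁻¹ ∈ D) {x y : D}
    (h : cj hc x y = y) : Commute (x : G) (y : G) := by
  have h1 := congrArg Subtype.val h
  simp only [cj_val] at h1
  exact mul_inv_eq_iff_eq_mul.mp h1

theorem tri_of_not_comm (hc : ∀ g : G, ∀ d ∈ D, g * d * g⁻¹ ∈ D) {x y : D}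
    (h : ¬ Commute (x : G) (y : G)) : TriD x y (cj hc y x) := ⟨h, rfl⟩

theorem cj_symm (hT : IsThreeTranspositionSet D) (hc : ∀ g : G, ∀ d ∈ D, g * d * g⁻¹ ∈ D)
    {x y : D} (h : ¬ Commute (x : G) (y : G)) : cj hc x y = cj hc y x :=
  cj_of_tri' hT hc (tri_of_not_comm hc h)

theorem comm_cj (hc : ∀ g : G, ∀ d ∈ D, g * d * g⁻¹ ∈ D) (w : D) {x y : D}
    (h : Commute ((cj hc w x : D) : G) ((cj hc w y : D) : G)) : Commute (x : G) (y : G) := by
  have h1 := h.eq
  simp only [cj_val] at h1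
  have h2 : (w : G)⁻¹ * ((w : G) * x * (w : G)⁻¹ * ((w : G) * y * (w : G)⁻¹)) * w =
      (w : G)⁻¹ * ((w : G) * y * (w : G)⁻¹ * ((w : G) * x * (w : G)⁻¹)) * w := by rw [h1]
  have h3 : (x : G) * y = y * x := by simpa [mul_assoc] using h2
  exact h3

/-! ### Lists of lines -/

/-- The six orderings of a triple. -/
def perms6 {P : Type*} (t : P × P × P) : List (P × P × P) :=
  [(t.1, t.2.1, t.2.2), (t.1, t.2.2, t.2.1), (t.2.1, t.1, t.2.2), (t.2.1, t.2.2, t.1),
    (t.2.2, t.1, t.2.1), (t.2.2, t.2.1, t.1)]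

theorem tri_perms (hT : IsThreeTranspositionSet D) {P : Type*} (φ : P → D) (T : List (P × P × P))
    (h0 : ∀ t ∈ T, TriD (φ t.1) (φ t.2.1) (φ t.2.2)) :
    ∀ t ∈ T.flatMap perms6, TriD (φ t.1) (φ t.2.1) (φ t.2.2) := by
  intro t ht
  rw [List.mem_flatMap] at ht
  obtain ⟨s, hs, hts⟩ := ht
  have h := h0 s hs
  simp only [perms6, List.mem_cons, List.not_mem_nil, or_false] at hts
  rcases hts with rfl | rfl | rfl | rfl | rfl | rfl
  · exact h
  · exact tri23 hT h
  · exact tri12 hT h
  · exact tri231 hT h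
  · exact tri312 hT h
  · exact tri321 hT h

/-! ### Isomorphism from a labelling -/

theorem iso_of_labelling (hT : IsThreeTranspositionSet D)
    (hc : ∀ g : G, ∀ d ∈ D, g * d * g⁻¹ ∈ D) {P : Type*} (M : Set (Set P))
    (R : P → P → P → Prop) (φ : P → D) (A : Set D)
    (ha : ∀ p q r, R p q r → TriD (φ p) (φ q) (φ r))
    (hb : ∀ p q, p ≠ q → (∃ r, R p q r) ∨ (Commute ((φ p : D) : G) ((φ q : D) : G) ∧ φ p ≠ φ q))
    (hcM : ∀ p q r, R p q r → ({p, q, r} : Set P) ∈ M)
    (hdM : ∀ k ∈ M, ∃ p q r, R p q r ∧ k = {p, q, r})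
    (hf1 : A ⊆ Set.range φ)
    (hf2 : ∀ p, φ p ∈ A ∨ ∃ q r, R q r p ∧ φ q ∈ A ∧ φ r ∈ A) :
    Isomorphic (restrict (threeTranspositionLines D) (span (threeTranspositionLines D) A)) M := by
  have hinj : Function.Injective φ := by
    intro p q hpq
    by_contra hne
    rcases hb p q hne with ⟨r, hr⟩ | ⟨-, h2⟩
    · exact tri_ne (ha p q r hr) hpq
    · exact h2 hpq
  have hline : ∀ k ∈ threeTranspositionLines D, ∀ p q, p ≠ q → φ p ∈ k → φ q ∈ k →
      ∃ r, R p q r ∧ k = {φ p, φ q, φ r} := by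
    intro k hk p q hpq hpk hqk
    obtain ⟨x, y, z, h, rfl⟩ := (mem_lines hc k).mp hk
    obtain ⟨r', hr', e1⟩ := tri_mem hT h hpk hqk (fun hh => hpq (hinj hh))
    rcases hb p q hpq with ⟨r, hr⟩ | ⟨h1, -⟩
    · refine ⟨r, hr, ?_⟩
      rw [← e1, tri_unique hr' (ha p q r hr)]
    · exact absurd h1 hr'.1
  have hsubsp : IsSubspace (threeTranspositionLines D) (Set.range φ) := by
    rintro k hk _ ⟨p, rfl⟩ _ ⟨q, rfl⟩ hne hpk hqk
    obtain ⟨r, -, rfl⟩ := hline k hk p q (fun hh => hne (by rw [hh])) hpk hqk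
    rintro w (rfl | rfl | rfl)
    · exact ⟨p, rfl⟩
    · exact ⟨q, rfl⟩
    · exact ⟨r, rfl⟩
  have hAS : A ⊆ span (threeTranspositionLines D) A := S5366.subset_span _ A
  have hspan : span (threeTranspositionLines D) A = Set.range φ := by
    apply Set.Subset.antisymm
    · exact Set.sInter_subset_of_mem ⟨hf1, hsubsp⟩
    · rintro _ ⟨p, rfl⟩
      rcases hf2 p with h | ⟨q, r, hR, hq, hr⟩
      · exact hAS h
      · have ht := ha q r p hR
        have hk : ({φ q, φ r, φ p} : Set D) ∈ threeTranspositionLines D :=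
          (mem_lines hc _).mpr ⟨_, _, _, ht, rfl⟩
        exact S5366.span_isSubspace _ A _ hk (φ q) (hAS hq) (φ r) (hAS hr) (tri_ne ht)
          (by simp) (by simp) (by simp)
  have hmem : ∀ p, φ p ∈ span (threeTranspositionLines D) A := fun p => by
    rw [hspan]; exact ⟨p, rfl⟩
  let ψ : P → span (threeTranspositionLines D) A := fun p => ⟨φ p, hmem p⟩
  have hψ : Function.Bijective ψ := by
    constructor
    · intro p q hpq
      exact hinj (congrArg Subtype.val hpq)
    · rintro ⟨s, hs⟩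
      obtain ⟨p, rfl⟩ : s ∈ Set.range φ := hspan ▸ hs
      exact ⟨p, rfl⟩
  let e : span (threeTranspositionLines D) A ≃ P := (Equiv.ofBijective ψ hψ).symm
  have he_symm : ∀ p, e.symm p = ψ p := fun p => rfl
  refine ⟨e, ?_⟩
  intro r
  constructor
  · rintro ⟨k, hk, hkS, rfl⟩
    obtain ⟨x, y, z, h, rfl⟩ := (mem_lines hc k).mp hk
    obtain ⟨p, hp⟩ : x ∈ Set.range φ := hspan ▸ hkS (by simp)
    obtain ⟨q, hq⟩ : y ∈ Set.range φ := hspan ▸ hkS (by simp)
    have hpq : p ≠ q := fun hh => tri_ne h (by rw [← hp, ← hq, hh])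
    obtain ⟨r', hR, hkeq⟩ := hline _ hk p q hpq (by rw [hp]; simp) (by rw [hq]; simp)
    have himg : e '' {s : span (threeTranspositionLines D) A | (s : D) ∈ ({x, y, z} : Set D)} =
        {p, q, r'} := by
      ext t
      constructor
      · rintro ⟨s, hs, rfl⟩
        have h2 : ((s : span (threeTranspositionLines D) A) : D) = φ (e s) := by
          have h3 := he_symm (e s)
          rw [Equiv.symm_apply_apply] at h3
          exact congrArg Subtype.val h3
        have hs' : (s : D) ∈ ({x, y, z} : Set D) := hs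
        rw [hkeq, h2] at hs'
        rcases hs' with h4 | h4 | h4
        · exact Or.inl (hinj h4)
        · exact Or.inr (Or.inl (hinj h4))
        · exact Or.inr (Or.inr (hinj h4))
      · intro ht
        refine ⟨ψ t, ?_, e.apply_symm_apply t⟩
        show φ t ∈ ({x, y, z} : Set D)
        rw [hkeq]
        rcases ht with rfl | rfl | rfl <;> simp
    rw [himg]; exact hcM p q r' hR
  · intro hr
    obtain ⟨p, q, r', hR, hkeq⟩ := hdM _ hr
    have ht := ha p q r' hR
    refine ⟨{φ p, φ q, φ r'}, (mem_lines hc _).mpr ⟨_, _, _, ht, rfl⟩, ?_, ?_⟩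
    · rintro w (rfl | rfl | rfl) <;> exact hmem _
    · ext s
      have h1 : s ∈ r ↔ e s ∈ e '' r := (e.injective.mem_set_image).symm
      have h2 : ((s : span (threeTranspositionLines D) A) : D) = φ (e s) := by
        have h3 := he_symm (e s)
        rw [Equiv.symm_apply_apply] at h3
        exact congrArg Subtype.val h3
      rw [h1, hkeq]
      show e s ∈ ({p, q, r'} : Set P) ↔ (s : D) ∈ ({φ p, φ q, φ r'} : Set D)
      rw [h2]
      simp [hinj.eq_iff]

/-! ### The dual affine plane -/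

/-- Labels of the six points. -/
def pA : DualAffinePoint := ⟨{1, 2}, by decide⟩
/-- Second point. -/
def pB : DualAffinePoint := ⟨{0, 1}, by decide⟩
/-- Third point. -/
def pC : DualAffinePoint := ⟨{0, 2}, by decide⟩
/-- Fourth point. -/
def pD : DualAffinePoint := ⟨{2, 3}, by decide⟩
/-- Fifth point. -/
def pE : DualAffinePoint := ⟨{1, 3}, by decide⟩
/-- Sixth point. -/
def pF : DualAffinePoint := ⟨{0, 3}, by decide⟩

theorem enum6 : ∀ s : DualAffinePoint, s = pA ∨ s = pB ∨ s = pC ∨ s = pD ∨ s = pE ∨ s = pF := by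
  decide

/-- Collinear triples of the dual affine plane. -/
def R6 (p q r : DualAffinePoint) : Prop :=
  p ≠ q ∧ q ≠ r ∧ p ≠ r ∧ ∃ i : Fin 4, i ∉ p.val ∧ i ∉ q.val ∧ i ∉ r.val

instance decR6 (p q r : DualAffinePoint) : Decidable (R6 p q r) := by
  unfold R6; infer_instance

theorem R6_full : ∀ i : Fin 4, ∀ p q r : DualAffinePoint, R6 p q r → i ∉ p.val → i ∉ q.val →
    i ∉ r.val → ∀ s : DualAffinePoint, i ∉ s.val → s = p ∨ s = q ∨ s = r := by decide +kernel

theorem R6_ex : ∀ i : Fin 4, ∃ p q r : DualAffinePoint, R6 p q r ∧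
    ∀ s : DualAffinePoint, i ∉ s.val ↔ (s = p ∨ s = q ∨ s = r) := by decide +kernel

theorem hcM6 : ∀ p q r, R6 p q r → ({p, q, r} : Set DualAffinePoint) ∈ dualAffinePlaneTwo := by
  intro p q r hR
  obtain ⟨h1, h2, h3, i, hi1, hi2, hi3⟩ := id hR
  refine ⟨i, ?_⟩
  ext s
  constructor
  · rintro (rfl | rfl | rfl) <;> assumption
  · intro hs; exact R6_full i p q r hR hi1 hi2 hi3 s hs

theorem hdM6 : ∀ k ∈ dualAffinePlaneTwo, ∃ p q r, R6 p q r ∧ k = {p, q, r} := by
  rintro k ⟨i, rfl⟩
  obtain ⟨p, q, r, hR, hs⟩ := R6_ex i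
  exact ⟨p, q, r, hR, Set.ext fun s => hs s⟩

/-- The four lines. -/
def T6 : List (DualAffinePoint × DualAffinePoint × DualAffinePoint) :=
  [(pA, pB, pC), (pA, pD, pE), (pE, pB, pF), (pD, pC, pF)]

/-- The non-collinear pairs. -/
def C6 : List (DualAffinePoint × DualAffinePoint) :=
  [(pB, pD), (pD, pB), (pC, pE), (pE, pC), (pA, pF), (pF, pA)]

theorem a1_6 : ∀ p q r, R6 p q r → (p, q, r) ∈ T6.flatMap perms6 := by decide +kernel

theorem b1_6 : ∀ p q : DualAffinePoint, p ≠ q → (∃ r, R6 p q r) ∨ (p, q) ∈ C6 := by decide +kernel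

/-- Labelling of the six points. -/
def lab6 {α : Type*} (a b c d e f : α) (s : DualAffinePoint) : α :=
  if s = pA then a else if s = pB then b else if s = pC then c else if s = pD then d
  else if s = pE then e else f

theorem lab6_A {α : Type*} (a b c d e f : α) : lab6 a b c d e f pA = a := if_pos rfl

theorem lab6_B {α : Type*} (a b c d e f : α) : lab6 a b c d e f pB = b :=
  (if_neg (by decide)).trans (if_pos rfl)

theorem lab6_C {α : Type*} (a b c d e f : α) : lab6 a b c d e f pC = c :=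
  (if_neg (by decide)).trans ((if_neg (by decide)).trans (if_pos rfl))

theorem lab6_D {α : Type*} (a b c d e f : α) : lab6 a b c d e f pD = d :=
  (if_neg (by decide)).trans ((if_neg (by decide)).trans ((if_neg (by decide)).trans (if_pos rfl)))

theorem lab6_E {α : Type*} (a b c d e f : α) : lab6 a b c d e f pE = e :=
  (if_neg (by decide)).trans ((if_neg (by decide)).trans ((if_neg (by decide)).trans
    ((if_neg (by decide)).trans (if_pos rfl))))

theorem lab6_F {α : Type*} (a b c d e f : α) : lab6 a b c d e f pF = f :=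
  (if_neg (by decide)).trans ((if_neg (by decide)).trans ((if_neg (by decide)).trans
    ((if_neg (by decide)).trans (if_neg (by decide)))))

theorem caseII (hT : IsThreeTranspositionSet D) (hc : ∀ g : G, ∀ d ∈ D, g * d * g⁻¹ ∈ D)
    {a b c d e : D} (h1 : TriD a b c) (h2 : TriD a d e) (hbd : Commute (b : G) (d : G))
    (hne1 : b ≠ d) (hne2 : c ≠ e) :
    Isomorphic (restrict (threeTranspositionLines D)
      (span (threeTranspositionLines D) ({a, b, c} ∪ {a, d, e}))) dualAffinePlaneTwo := by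
  have hcab : cj hc a b = c := cj_of_tri' hT hc h1
  have hcad : cj hc a d = e := cj_of_tri' hT hc h2
  have hcae : cj hc a e = d := cj_of_tri' hT hc (tri23 hT h2)
  have hcba : cj hc b a = c := cj_of_tri hc h1
  have hbe : ¬ Commute (b : G) (e : G) := by
    intro hbe
    have h3 := (tri231 hT h2).2
    apply h1.1
    rw [← h3]
    exact ((hbe.mul_right hbd).mul_right hbe.inv_right).symm
  have t3 : TriD e b (cj hc b e) := tri_of_not_comm hc (fun h => hbe h.symm)
  have hce : Commute (c : G) (e : G) := by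
    rw [← hcab, ← hcad]
    simp only [cj_val]
    show (a : G) * b * (a : G)⁻¹ * ((a : G) * d * (a : G)⁻¹) =
      (a : G) * d * (a : G)⁻¹ * ((a : G) * b * (a : G)⁻¹)
    have h3 := hbd.eq
    calc (a : G) * b * (a : G)⁻¹ * ((a : G) * d * (a : G)⁻¹)
        = (a : G) * (b * d) * (a : G)⁻¹ := by group
      _ = (a : G) * (d * b) * (a : G)⁻¹ := by rw [h3]
      _ = (a : G) * d * (a : G)⁻¹ * ((a : G) * b * (a : G)⁻¹) := by group
  have hcd : cj hc c d = cj hc b e := by
    have h5 : cj hc b d = d := cj_of_comm hc hbd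
    calc cj hc c d = cj hc (cj hc b a) (cj hc b d) := by rw [hcba, h5]
      _ = cj hc b (cj hc a d) := (cj_cj hc b a d).symm
      _ = cj hc b e := by rw [hcad]
  have hncd : ¬ Commute (d : G) (c : G) := by
    intro h
    have h6 : cj hc c d = d := cj_of_comm hc h.symm
    rw [hcd] at h6
    have h7 : cj hc b e = cj hc b d := by rw [h6, cj_of_comm hc hbd]
    exact tri_ne (tri231 hT h2) (cj_inj hT hc b h7).symm
  have t4 : TriD d c (cj hc b e) := ⟨hncd, congrArg Subtype.val hcd⟩
  have haf : Commute (a : G) ((cj hc b e : D) : G) := by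
    apply comm_of_cj hc
    calc cj hc a (cj hc b e) = cj hc (cj hc a b) (cj hc a e) := cj_cj hc a b e
      _ = cj hc b e := by rw [hcab, hcae, hcd]
  have hnaf : a ≠ cj hc b e := by
    intro h
    have h8 : cj hc b a = e := by rw [h, cj_invol hT hc]
    rw [hcba] at h8
    exact hne2 h8
  refine iso_of_labelling hT hc dualAffinePlaneTwo R6 (lab6 a b c d e (cj hc b e)) _ ?_ ?_
    hcM6 hdM6 ?_ ?_
  · intro p q r hR
    refine tri_perms hT _ T6 ?_ (p, q, r) (a1_6 p q r hR)
    intro t ht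
    simp only [T6, List.mem_cons, List.not_mem_nil, or_false] at ht
    rcases ht with rfl | rfl | rfl | rfl
    · show TriD (lab6 a b c d e (cj hc b e) pA) (lab6 a b c d e (cj hc b e) pB)
        (lab6 a b c d e (cj hc b e) pC)
      rw [lab6_A, lab6_B, lab6_C]; exact h1
    · show TriD (lab6 a b c d e (cj hc b e) pA) (lab6 a b c d e (cj hc b e) pD)
        (lab6 a b c d e (cj hc b e) pE)
      rw [lab6_A, lab6_D, lab6_E]; exact h2
    · show TriD (lab6 a b c d e (cj hc b e) pE) (lab6 a b c d e (cj hc b e) pB)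
        (lab6 a b c d e (cj hc b e) pF)
      rw [lab6_E, lab6_B, lab6_F]; exact t3
    · show TriD (lab6 a b c d e (cj hc b e) pD) (lab6 a b c d e (cj hc b e) pC)
        (lab6 a b c d e (cj hc b e) pF)
      rw [lab6_D, lab6_C, lab6_F]; exact t4
  · intro p q hpq
    rcases b1_6 p q hpq with h | h
    · exact Or.inl h
    · right
      simp only [C6, List.mem_cons, List.not_mem_nil, or_false, Prod.mk.injEq] at h
      rcases h with ⟨rfl, rfl⟩ | ⟨rfl, rfl⟩ | ⟨rfl, rfl⟩ | ⟨rfl, rfl⟩ | ⟨rfl, rfl⟩ | ⟨rfl, rfl⟩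
      · rw [lab6_B, lab6_D]; exact ⟨hbd, hne1⟩
      · rw [lab6_B, lab6_D]; exact ⟨hbd.symm, hne1.symm⟩
      · rw [lab6_C, lab6_E]; exact ⟨hce, hne2⟩
      · rw [lab6_C, lab6_E]; exact ⟨hce.symm, hne2.symm⟩
      · rw [lab6_A, lab6_F]; exact ⟨haf, hnaf⟩
      · rw [lab6_A, lab6_F]; exact ⟨haf.symm, hnaf.symm⟩
  · rintro w (hw | hw)
    · rcases hw with rfl | rfl | rfl
      · exact ⟨pA, lab6_A _ _ _ _ _ _⟩
      · exact ⟨pB, lab6_B _ _ _ _ _ _⟩
      · exact ⟨pC, lab6_C _ _ _ _ _ _⟩
    · rcases hw with rfl | rfl | rfl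
      · exact ⟨pA, lab6_A _ _ _ _ _ _⟩
      · exact ⟨pD, lab6_D _ _ _ _ _ _⟩
      · exact ⟨pE, lab6_E _ _ _ _ _ _⟩
  · intro p
    rcases enum6 p with rfl | rfl | rfl | rfl | rfl | rfl
    · left; rw [lab6_A]; simp
    · left; rw [lab6_B]; simp
    · left; rw [lab6_C]; simp
    · left; rw [lab6_D]; simp
    · left; rw [lab6_E]; simp
    · right
      refine ⟨pE, pB, by decide, ?_, ?_⟩
      · rw [lab6_E]; simp
      · rw [lab6_B]; simp

/-! ### The affine plane of order three -/

/-- The point type of the affine plane. -/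
abbrev V3 : Type := Fin 2 → ZMod 3

/-- Collinear triples of the affine plane. -/
def R9 (p q r : V3) : Prop := p ≠ q ∧ p + q + r = 0

instance decR9 (p q r : V3) : Decidable (R9 p q r) := by
  unfold R9; infer_instance

theorem zmod3_cases : ∀ c : ZMod 3, c = 0 ∨ c = 1 ∨ c = 2 := by decide

theorem hcM9 : ∀ p q r : V3, R9 p q r → ({p, q, r} : Set V3) ∈ affinePlaneThree := by
  rintro p q r ⟨hpq, hsum⟩
  have hr : r = p + (2 : ZMod 3) • (q - p) := by
    funext i
    have h1 := congrFun hsum i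
    simp only [Pi.add_apply, Pi.zero_apply] at h1
    simp only [Pi.add_apply, Pi.smul_apply, Pi.sub_apply, smul_eq_mul]
    have h3 := S5366.three_zmod (q i)
    linear_combination h1 - h3
  refine ⟨p, q - p, sub_ne_zero.mpr (Ne.symm hpq), ?_⟩
  ext y
  constructor
  · rintro (rfl | rfl | rfl)
    · exact ⟨0, by simp⟩
    · exact ⟨1, by simp⟩
    · exact ⟨2, hr⟩
  · rintro ⟨c, rfl⟩
    rcases zmod3_cases c with rfl | rfl | rfl
    · left; simp
    · right; left; simp
    · right; right; exact hr.symm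

theorem hdM9 : ∀ k ∈ affinePlaneThree, ∃ p q r : V3, R9 p q r ∧ k = {p, q, r} := by
  rintro k ⟨v, w, hw, rfl⟩
  refine ⟨v, v + w, v + w + w, ⟨fun h => hw ?_, ?_⟩, ?_⟩
  · simpa using h
  · funext i
    simp only [Pi.add_apply, Pi.zero_apply]
    have h1 := S5366.three_zmod (v i)
    have h2 := S5366.three_zmod (w i)
    linear_combination h1 + h2
  · ext y
    constructor
    · rintro ⟨c, rfl⟩
      rcases zmod3_cases c with rfl | rfl | rfl
      · left; simp
      · right; left; simp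
      · right; right
        funext i
        simp only [Pi.add_apply, Pi.smul_apply, smul_eq_mul]
        ring
    · rintro (rfl | rfl | rfl)
      · exact ⟨0, by simp⟩
      · exact ⟨1, by simp⟩
      · refine ⟨2, ?_⟩
        funext i
        simp only [Pi.add_apply, Pi.smul_apply, smul_eq_mul]
        ring

/-- A point of the plane. -/
def v00 : V3 := ![0, 0]
/-- A point of the plane. -/
def v10 : V3 := ![1, 0]
/-- A point of the plane. -/
def v20 : V3 := ![2, 0]
/-- A point of the plane. -/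
def v01 : V3 := ![0, 1]
/-- A point of the plane. -/
def v02 : V3 := ![0, 2]
/-- A point of the plane. -/
def v22 : V3 := ![2, 2]
/-- A point of the plane. -/
def v21 : V3 := ![2, 1]
/-- A point of the plane. -/
def v12 : V3 := ![1, 2]
/-- A point of the plane. -/
def v11 : V3 := ![1, 1]

theorem enum9 : ∀ v : V3, v = v00 ∨ v = v10 ∨ v = v20 ∨ v = v01 ∨ v = v02 ∨ v = v22 ∨ v = v21 ∨ v = v12 ∨ v = v11 := by
  decide +kernel

/-- The twelve lines. -/
def T9 : List (V3 × V3 × V3) :=
  [(v00, v10, v20), (v00, v01, v02), (v01, v10, v22), (v02, v10, v21), (v01, v20, v12), (v02, v20, v11), (v12, v10, v11), (v21, v20, v22), (v11, v01, v21), (v12, v00, v21), (v12, v02, v22), (v11, v00, v22)]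

theorem a1_9 : ∀ p q : V3, p ≠ q → (p, q, -p - q) ∈ T9.flatMap perms6 := by decide +kernel

/-- Labelling of the nine points. -/
def lab9 {α : Type*} (a b c d e g h i j : α) (v : V3) : α :=
  if v = v00 then a else if v = v10 then b else if v = v20 then c else if v = v01 then d else if v = v02 then e else if v = v22 then g else if v = v21 then h else if v = v12 then i else j

theorem lab9_00 {α : Type*} (a b c d e g h i j : α) : lab9 a b c d e g h i j v00 = a :=
  (if_pos rfl)

theorem lab9_10 {α : Type*} (a b c d e g h i j : α) : lab9 a b c d e g h i j v10 = b :=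
  ((if_neg (by decide)).trans (if_pos rfl))

theorem lab9_20 {α : Type*} (a b c d e g h i j : α) : lab9 a b c d e g h i j v20 = c :=
  ((if_neg (by decide)).trans ((if_neg (by decide)).trans (if_pos rfl)))

theorem lab9_01 {α : Type*} (a b c d e g h i j : α) : lab9 a b c d e g h i j v01 = d :=
  ((if_neg (by decide)).trans ((if_neg (by decide)).trans ((if_neg (by decide)).trans (if_pos rfl))))

theorem lab9_02 {α : Type*} (a b c d e g h i j : α) : lab9 a b c d e g h i j v02 = e :=
  ((if_neg (by decide)).trans ((if_neg (by decide)).trans ((if_neg (by decide)).trans ((if_neg (by decide)).trans (if_pos rfl)))))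

theorem lab9_22 {α : Type*} (a b c d e g h i j : α) : lab9 a b c d e g h i j v22 = g :=
  ((if_neg (by decide)).trans ((if_neg (by decide)).trans ((if_neg (by decide)).trans ((if_neg (by decide)).trans ((if_neg (by decide)).trans (if_pos rfl))))))

theorem lab9_21 {α : Type*} (a b c d e g h i j : α) : lab9 a b c d e g h i j v21 = h :=
  ((if_neg (by decide)).trans ((if_neg (by decide)).trans ((if_neg (by decide)).trans ((if_neg (by decide)).trans ((if_neg (by decide)).trans ((if_neg (by decide)).trans (if_pos rfl)))))))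

theorem lab9_12 {α : Type*} (a b c d e g h i j : α) : lab9 a b c d e g h i j v12 = i :=
  ((if_neg (by decide)).trans ((if_neg (by decide)).trans ((if_neg (by decide)).trans ((if_neg (by decide)).trans ((if_neg (by decide)).trans ((if_neg (by decide)).trans ((if_neg (by decide)).trans (if_pos rfl))))))))

theorem lab9_11 {α : Type*} (a b c d e g h i j : α) : lab9 a b c d e g h i j v11 = j :=
  ((if_neg (by decide)).trans ((if_neg (by decide)).trans ((if_neg (by decide)).trans ((if_neg (by decide)).trans ((if_neg (by decide)).trans ((if_neg (by decide)).trans ((if_neg (by decide)).trans (if_neg (by decide)))))))))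

theorem caseIII (hT : IsThreeTranspositionSet D) (hc : ∀ g : G, ∀ d ∈ D, g * d * g⁻¹ ∈ D)
    {a b c d e : D} (h1 : TriD a b c) (h2 : TriD a d e) (hbd : ¬ Commute (b : G) (d : G))
    (hbe : ¬ Commute (b : G) (e : G)) :
    Isomorphic (restrict (threeTranspositionLines D)
      (span (threeTranspositionLines D) ({a, b, c} ∪ {a, d, e}))) affinePlaneThree := by
  have hcab : cj hc a b = c := cj_of_tri' hT hc h1
  have hcac : cj hc a c = b := cj_of_tri' hT hc (tri23 hT h1)
  have hcad : cj hc a d = e := cj_of_tri' hT hc h2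
  have hcae : cj hc a e = d := cj_of_tri' hT hc (tri23 hT h2)
  have hcbc : cj hc b c = a := cj_of_tri hc (tri321 hT h1)
  have hccb : cj hc c b = a := cj_of_tri hc (tri231 hT h1)
  have hcde : cj hc d e = a := cj_of_tri hc (tri321 hT h2)
  have hced : cj hc e d = a := cj_of_tri hc (tri231 hT h2)
  have hncd : ¬ Commute (c : G) (d : G) := by
    intro h; apply hbe; apply comm_cj hc a; rw [hcab, hcae]; exact h
  have hnce : ¬ Commute (c : G) (e : G) := by
    intro h; apply hbd; apply comm_cj hc a; rw [hcab, hcad]; exact h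
  have hbc : b ≠ c := tri_ne (tri231 hT h1)
  have hde : d ≠ e := tri_ne (tri231 hT h2)
  have t3 : TriD d b (cj hc b d) := tri_of_not_comm hc (fun h => hbd h.symm)
  have t4 : TriD e b (cj hc b e) := tri_of_not_comm hc (fun h => hbe h.symm)
  have t5 : TriD d c (cj hc c d) := tri_of_not_comm hc (fun h => hncd h.symm)
  have t6 : TriD e c (cj hc c e) := tri_of_not_comm hc (fun h => hnce h.symm)
  have hag : cj hc a (cj hc b d) = cj hc c e := by rw [cj_cj, hcab, hcad]
  have hai : cj hc a (cj hc c d) = cj hc b e := by rw [cj_cj, hcac, hcad]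
  have haj : cj hc a (cj hc c e) = cj hc b d := by rw [cj_cj, hcac, hcae]
  have hbi : cj hc b (cj hc c d) = cj hc c e := by rw [cj_cj, hcbc, hag]
  have t7 : TriD (cj hc c d) b (cj hc c e) := by
    refine ⟨fun h => ?_, congrArg Subtype.val hbi⟩
    have h' : cj hc b (cj hc c d) = cj hc c d := cj_of_comm hc h.symm
    rw [hbi] at h'
    exact hde (cj_inj hT hc c h').symm
  have hch : cj hc c (cj hc b e) = cj hc b d := by rw [cj_cj, hccb, haj]
  have t8 : TriD (cj hc b e) c (cj hc b d) := by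
    refine ⟨fun h => ?_, congrArg Subtype.val hch⟩
    have h' : cj hc c (cj hc b e) = cj hc b e := cj_of_comm hc h.symm
    rw [hch] at h'
    exact hde (cj_inj hT hc b h')
  have hdc : cj hc d c = cj hc c d := cj_symm hT hc (fun h => hncd h.symm)
  have hdj : cj hc d (cj hc c e) = cj hc (cj hc c d) a := by rw [cj_cj, hdc, hcde]
  have hej : e ≠ cj hc c e := tri_ne (tri23 hT t6)
  have hnia : ¬ Commute ((cj hc c d : D) : G) (a : G) := by
    intro h
    have h' : cj hc (cj hc c d) a = a := cj_of_comm hc h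
    have h'' : cj hc d (cj hc c e) = cj hc d e := by rw [hdj, h', hcde]
    exact hej (cj_inj hT hc d h'').symm
  have hia : cj hc (cj hc c d) a = cj hc b e := by rw [cj_symm hT hc hnia, hai]
  have hdj' : cj hc d (cj hc c e) = cj hc b e := by rw [hdj, hia]
  have hec : cj hc e c = cj hc c e := cj_symm hT hc (fun h => hnce h.symm)
  have heb : cj hc e b = cj hc b e := cj_symm hT hc (fun h => hbe h.symm)
  have t9 : TriD (cj hc c e) d (cj hc b e) := by
    refine ⟨fun h => ?_, congrArg Subtype.val hdj'⟩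
    have h' : cj hc d (cj hc c e) = cj hc c e := cj_of_comm hc h.symm
    rw [hdj', ← hec, ← heb] at h'
    exact hbc (cj_inj hT hc e h')
  have t10 : TriD (cj hc c d) a (cj hc b e) := ⟨hnia, congrArg Subtype.val hai⟩
  have hei : cj hc e (cj hc c d) = cj hc (cj hc c e) a := by rw [cj_cj, hec, hced]
  have hdi : d ≠ cj hc c d := tri_ne (tri23 hT t5)
  have hnja : ¬ Commute ((cj hc c e : D) : G) (a : G) := by
    intro h
    have h' : cj hc (cj hc c e) a = a := cj_of_comm hc h
    have h'' : cj hc e (cj hc c d) = cj hc e d := by rw [hei, h', hced]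
    exact hdi (cj_inj hT hc e h'').symm
  have hja : cj hc (cj hc c e) a = cj hc b d := by rw [cj_symm hT hc hnja, haj]
  have hei' : cj hc e (cj hc c d) = cj hc b d := by rw [hei, hja]
  have hdb : cj hc d b = cj hc b d := cj_symm hT hc (fun h => hbd h.symm)
  have t11 : TriD (cj hc c d) e (cj hc b d) := by
    refine ⟨fun h => ?_, congrArg Subtype.val hei'⟩
    have h' : cj hc e (cj hc c d) = cj hc c d := cj_of_comm hc h.symm
    rw [hei', ← hdc, ← hdb] at h'
    exact hbc (cj_inj hT hc d h')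
  have t12 : TriD (cj hc c e) a (cj hc b d) := ⟨hnja, congrArg Subtype.val haj⟩
  refine iso_of_labelling hT hc affinePlaneThree R9
    (lab9 a b c d e (cj hc b d) (cj hc b e) (cj hc c d) (cj hc c e)) _ ?_ ?_ hcM9 hdM9 ?_ ?_
  · rintro p q r ⟨hpq, hsum⟩
    have hr : r = -p - q := by linear_combination hsum
    subst hr
    refine tri_perms hT _ T9 ?_ (p, q, -p - q) (a1_9 p q hpq)
    intro t ht
    simp only [T9, List.mem_cons, List.not_mem_nil, or_false] at ht
    rcases ht with rfl | rfl | rfl | rfl | rfl | rfl | rfl | rfl | rfl | rfl | rfl | rfl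
    · show TriD (lab9 a b c d e (cj hc b d) (cj hc b e) (cj hc c d) (cj hc c e) v00) (lab9 a b c d e (cj hc b d) (cj hc b e) (cj hc c d) (cj hc c e) v10)
        (lab9 a b c d e (cj hc b d) (cj hc b e) (cj hc c d) (cj hc c e) v20)
      rw [lab9_00, lab9_10, lab9_20]; exact h1
    · show TriD (lab9 a b c d e (cj hc b d) (cj hc b e) (cj hc c d) (cj hc c e) v00) (lab9 a b c d e (cj hc b d) (cj hc b e) (cj hc c d) (cj hc c e) v01)
        (lab9 a b c d e (cj hc b d) (cj hc b e) (cj hc c d) (cj hc c e) v02)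
      rw [lab9_00, lab9_01, lab9_02]; exact h2
    · show TriD (lab9 a b c d e (cj hc b d) (cj hc b e) (cj hc c d) (cj hc c e) v01) (lab9 a b c d e (cj hc b d) (cj hc b e) (cj hc c d) (cj hc c e) v10)
        (lab9 a b c d e (cj hc b d) (cj hc b e) (cj hc c d) (cj hc c e) v22)
      rw [lab9_01, lab9_10, lab9_22]; exact t3
    · show TriD (lab9 a b c d e (cj hc b d) (cj hc b e) (cj hc c d) (cj hc c e) v02) (lab9 a b c d e (cj hc b d) (cj hc b e) (cj hc c d) (cj hc c e) v10)
        (lab9 a b c d e (cj hc b d) (cj hc b e) (cj hc c d) (cj hc c e) v21)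
      rw [lab9_02, lab9_10, lab9_21]; exact t4
    · show TriD (lab9 a b c d e (cj hc b d) (cj hc b e) (cj hc c d) (cj hc c e) v01) (lab9 a b c d e (cj hc b d) (cj hc b e) (cj hc c d) (cj hc c e) v20)
        (lab9 a b c d e (cj hc b d) (cj hc b e) (cj hc c d) (cj hc c e) v12)
      rw [lab9_01, lab9_20, lab9_12]; exact t5
    · show TriD (lab9 a b c d e (cj hc b d) (cj hc b e) (cj hc c d) (cj hc c e) v02) (lab9 a b c d e (cj hc b d) (cj hc b e) (cj hc c d) (cj hc c e) v20)
        (lab9 a b c d e (cj hc b d) (cj hc b e) (cj hc c d) (cj hc c e) v11)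
      rw [lab9_02, lab9_20, lab9_11]; exact t6
    · show TriD (lab9 a b c d e (cj hc b d) (cj hc b e) (cj hc c d) (cj hc c e) v12) (lab9 a b c d e (cj hc b d) (cj hc b e) (cj hc c d) (cj hc c e) v10)
        (lab9 a b c d e (cj hc b d) (cj hc b e) (cj hc c d) (cj hc c e) v11)
      rw [lab9_12, lab9_10, lab9_11]; exact t7
    · show TriD (lab9 a b c d e (cj hc b d) (cj hc b e) (cj hc c d) (cj hc c e) v21) (lab9 a b c d e (cj hc b d) (cj hc b e) (cj hc c d) (cj hc c e) v20)
        (lab9 a b c d e (cj hc b d) (cj hc b e) (cj hc c d) (cj hc c e) v22)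
      rw [lab9_21, lab9_20, lab9_22]; exact t8
    · show TriD (lab9 a b c d e (cj hc b d) (cj hc b e) (cj hc c d) (cj hc c e) v11) (lab9 a b c d e (cj hc b d) (cj hc b e) (cj hc c d) (cj hc c e) v01)
        (lab9 a b c d e (cj hc b d) (cj hc b e) (cj hc c d) (cj hc c e) v21)
      rw [lab9_11, lab9_01, lab9_21]; exact t9
    · show TriD (lab9 a b c d e (cj hc b d) (cj hc b e) (cj hc c d) (cj hc c e) v12) (lab9 a b c d e (cj hc b d) (cj hc b e) (cj hc c d) (cj hc c e) v00)
        (lab9 a b c d e (cj hc b d) (cj hc b e) (cj hc c d) (cj hc c e) v21)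
      rw [lab9_12, lab9_00, lab9_21]; exact t10
    · show TriD (lab9 a b c d e (cj hc b d) (cj hc b e) (cj hc c d) (cj hc c e) v12) (lab9 a b c d e (cj hc b d) (cj hc b e) (cj hc c d) (cj hc c e) v02)
        (lab9 a b c d e (cj hc b d) (cj hc b e) (cj hc c d) (cj hc c e) v22)
      rw [lab9_12, lab9_02, lab9_22]; exact t11
    · show TriD (lab9 a b c d e (cj hc b d) (cj hc b e) (cj hc c d) (cj hc c e) v11) (lab9 a b c d e (cj hc b d) (cj hc b e) (cj hc c d) (cj hc c e) v00)
        (lab9 a b c d e (cj hc b d) (cj hc b e) (cj hc c d) (cj hc c e) v22)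
      rw [lab9_11, lab9_00, lab9_22]; exact t12
  · intro p q hpq
    exact Or.inl ⟨-p - q, hpq, by abel⟩
  · rintro w (hw | hw)
    · rcases hw with rfl | rfl | rfl
      · exact ⟨v00, lab9_00 _ _ _ _ _ _ _ _ _⟩
      · exact ⟨v10, lab9_10 _ _ _ _ _ _ _ _ _⟩
      · exact ⟨v20, lab9_20 _ _ _ _ _ _ _ _ _⟩
    · rcases hw with rfl | rfl | rfl
      · exact ⟨v00, lab9_00 _ _ _ _ _ _ _ _ _⟩
      · exact ⟨v01, lab9_01 _ _ _ _ _ _ _ _ _⟩
      · exact ⟨v02, lab9_02 _ _ _ _ _ _ _ _ _⟩
  · intro p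
    rcases enum9 p with rfl | rfl | rfl | rfl | rfl | rfl | rfl | rfl | rfl
    · left; rw [lab9_00]; simp
    · left; rw [lab9_10]; simp
    · left; rw [lab9_20]; simp
    · left; rw [lab9_01]; simp
    · left; rw [lab9_02]; simp
    · right
      refine ⟨v01, v10, by decide, ?_, ?_⟩
      · rw [lab9_01]; simp
      · rw [lab9_10]; simp
    · right
      refine ⟨v02, v10, by decide, ?_, ?_⟩
      · rw [lab9_02]; simp
      · rw [lab9_10]; simp
    · right
      refine ⟨v01, v20, by decide, ?_, ?_⟩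
      · rw [lab9_01]; simp
      · rw [lab9_20]; simp
    · right
      refine ⟨v02, v20, by decide, ?_, ?_⟩
      · rw [lab9_02]; simp
      · rw [lab9_20]; simp

theorem result {G : Type*} [Group G] [Finite G] {D : Set G} (hD : Cfsg.IsThreeTranspositionGroup D) : Cfsg.IsFischerSpace (Cfsg.threeTranspositionLines D) := by
  obtain ⟨hT, hc, -⟩ := hD
  have hPL := lines_PL hT hc
  refine ⟨hPL, lines_card hT hc, ?_⟩
  rintro l hl m hm hlm ⟨a, hal, ham⟩
  obtain ⟨b, c, h1, rfl⟩ := line_through hT hc hl hal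
  obtain ⟨d, e, h2, rfl⟩ := line_through hT hc hm ham
  have hdl : d ∉ ({a, b, c} : Set D) := fun hd =>
    hlm (hPL _ hl _ hm a d (tri_ne h2) hal hd ham (by simp))
  have hel : e ∉ ({a, b, c} : Set D) := fun he =>
    hlm (hPL _ hl _ hm a e (tri_ne (tri23 hT h2)) hal he ham (by simp))
  have hbd' : b ≠ d := fun h => hdl (by rw [← h]; simp)
  have hcd' : c ≠ d := fun h => hdl (by rw [← h]; simp)
  have hbe' : b ≠ e := fun h => hel (by rw [← h]; simp)
  have hce' : c ≠ e := fun h => hel (by rw [← h]; simp)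
  by_cases hbd : Commute (b : G) (d : G)
  · left; exact caseII hT hc h1 h2 hbd hbd' hce'
  · by_cases hbe : Commute (b : G) (e : G)
    · left
      have h3 := caseII hT hc h1 (tri23 hT h2) hbe hbe' hcd'
      have h4 : ({a, e, d} : Set D) = {a, d, e} := by ext w; simp; tauto
      rw [h4] at h3; exact h3
    · right; exact caseIII hT hc h1 h2 hbd hbe

end Cfsg.Agent.S5367
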