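import Cfsg.Statements.S5394
import Cfsg.Agent.Lib.Helper28.M24Cand

set_option autoImplicit false
open Cfsg

namespace Cfsg.Agent.S5394

open Cfsg Cfsg.Agent.Lib.Helper4.Golay Cfsg.Agent.Lib.Helper28
open Pointwise

def tP1 : List (List ℕ × List ℕ) := [
  ([1, 0, 3, 2, 4, 5, 9, 7, 15, 6, 10, 22, 12, 20, 14, 8, 19, 17, 21, 16, 13, 18, 11, 23], [1, 0, 3, 2, 4, 5, 9, 7, 15, 6, 10, 22, 12, 20, 14, 8, 19, 17, 21, 16, 13, 18, 11, 23]),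
  ([1, 0, 3, 2, 4, 5, 18, 12, 22, 21, 7, 20, 10, 15, 17, 11, 9, 23, 16, 6, 8, 19, 13, 14], [1, 0, 3, 2, 4, 5, 19, 10, 20, 16, 12, 15, 7, 22, 23, 13, 18, 14, 6, 21, 11, 9, 8, 17]),
  ([1, 0, 3, 2, 4, 5, 19, 10, 20, 16, 12, 15, 7, 22, 23, 13, 18, 14, 6, 21, 11, 9, 8, 17], [1, 0, 3, 2, 4, 5, 18, 12, 22, 21, 7, 20, 10, 15, 17, 11, 9, 23, 16, 6, 8, 19, 13, 14]),
  ([1, 0, 3, 2, 4, 6, 8, 12, 17, 16, 7, 19, 10, 13, 22, 23, 14, 11, 21, 5, 18, 20, 15, 9], [1, 0, 3, 2, 4, 19, 5, 10, 6, 23, 12, 17, 7, 13, 16, 22, 9, 8, 20, 11, 21, 18, 14, 15]),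
  ([1, 0, 3, 2, 4, 6, 14, 7, 13, 5, 10, 17, 12, 19, 9, 18, 20, 22, 16, 21, 15, 8, 23, 11], [1, 0, 3, 2, 4, 9, 5, 7, 21, 14, 10, 23, 12, 8, 6, 20, 18, 11, 15, 13, 16, 19, 17, 22]),
  ([1, 0, 3, 2, 4, 6, 20, 10, 19, 21, 12, 13, 7, 17, 11, 15, 8, 9, 5, 16, 23, 14, 18, 22], [1, 0, 3, 2, 4, 18, 5, 12, 16, 17, 7, 14, 10, 11, 21, 15, 19, 13, 22, 8, 6, 9, 23, 20]),
  ([1, 0, 3, 2, 4, 8, 6, 12, 21, 22, 7, 9, 10, 23, 16, 13, 20, 15, 17, 18, 5, 14, 11, 19], [1, 0, 3, 2, 4, 20, 6, 10, 5, 11, 12, 22, 7, 15, 21, 17, 14, 18, 19, 23, 16, 8, 9, 13]),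
  ([1, 0, 3, 2, 4, 8, 14, 10, 9, 17, 12, 23, 7, 21, 15, 11, 6, 19, 18, 22, 13, 20, 5, 16], [1, 0, 3, 2, 4, 22, 16, 12, 5, 8, 7, 15, 10, 20, 6, 14, 23, 9, 18, 17, 21, 13, 19, 11]),
  ([1, 0, 3, 2, 4, 8, 20, 7, 23, 18, 10, 21, 12, 9, 19, 5, 14, 16, 22, 17, 11, 6, 13, 15], [1, 0, 3, 2, 4, 15, 21, 7, 5, 13, 10, 20, 12, 22, 16, 23, 17, 19, 9, 14, 6, 11, 18, 8]),
  ([1, 0, 3, 2, 4, 9, 5, 7, 21, 14, 10, 23, 12, 8, 6, 20, 18, 11, 15, 13, 16, 19, 17, 22], [1, 0, 3, 2, 4, 6, 14, 7, 13, 5, 10, 17, 12, 19, 9, 18, 20, 22, 16, 21, 15, 8, 23, 11]),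
  ([1, 0, 3, 2, 4, 9, 18, 10, 8, 13, 12, 21, 7, 23, 22, 16, 19, 6, 14, 15, 17, 5, 20, 11], [1, 0, 3, 2, 4, 21, 17, 12, 8, 5, 7, 23, 10, 9, 18, 19, 15, 20, 6, 16, 22, 11, 14, 13]),
  ([1, 0, 3, 2, 4, 9, 19, 12, 23, 15, 7, 8, 10, 21, 11, 17, 5, 22, 13, 14, 20, 18, 16, 6], [1, 0, 3, 2, 4, 16, 23, 10, 11, 5, 12, 14, 7, 18, 19, 9, 22, 15, 21, 6, 20, 13, 17, 8]),
  ([1, 0, 3, 2, 4, 11, 15, 12, 14, 19, 7, 16, 10, 18, 9, 5, 17, 6, 20, 23, 13, 21, 8, 22], [1, 0, 3, 2, 4, 15, 17, 10, 22, 14, 12, 5, 7, 20, 8, 6, 11, 16, 13, 9, 18, 21, 23, 19]),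
  ([1, 0, 3, 2, 4, 11, 17, 7, 18, 23, 10, 14, 12, 16, 22, 13, 21, 9, 19, 20, 8, 15, 5, 6], [1, 0, 3, 2, 4, 22, 23, 7, 20, 17, 10, 5, 12, 15, 11, 21, 13, 6, 8, 18, 19, 16, 14, 9]),
  ([1, 0, 3, 2, 4, 11, 21, 10, 16, 20, 12, 18, 7, 14, 6, 8, 15, 22, 23, 19, 5, 17, 13, 9], [1, 0, 3, 2, 4, 20, 14, 12, 15, 23, 7, 5, 10, 22, 13, 16, 8, 21, 11, 19, 9, 6, 17, 18]),
  ([1, 0, 3, 2, 4, 13, 16, 7, 6, 15, 10, 19, 12, 17, 21, 11, 22, 20, 14, 9, 5, 23, 8, 18], [1, 0, 3, 2, 4, 20, 8, 7, 22, 19, 10, 15, 12, 5, 18, 9, 6, 13, 23, 11, 17, 14, 16, 21]),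
  ([1, 0, 3, 2, 4, 13, 22, 10, 17, 9, 12, 6, 7, 19, 18, 5, 23, 21, 15, 14, 8, 16, 11, 20], [1, 0, 3, 2, 4, 15, 11, 12, 20, 9, 7, 22, 10, 5, 19, 18, 21, 8, 14, 13, 23, 17, 6, 16]),
  ([1, 0, 3, 2, 4, 13, 23, 12, 19, 14, 7, 17, 10, 6, 20, 8, 16, 18, 9, 15, 11, 22, 5, 21], [1, 0, 3, 2, 4, 22, 13, 10, 15, 18, 12, 20, 7, 5, 9, 19, 16, 11, 17, 8, 14, 23, 21, 6]),
  ([1, 0, 3, 2, 4, 14, 6, 7, 16, 9, 10, 11, 12, 18, 5, 19, 8, 23, 13, 15, 21, 20, 22, 17], [1, 0, 3, 2, 4, 14, 6, 7, 16, 9, 10, 11, 12, 18, 5, 19, 8, 23, 13, 15, 21, 20, 22, 17]),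
  ([1, 0, 3, 2, 4, 14, 8, 10, 18, 15, 12, 16, 7, 11, 17, 21, 20, 5, 9, 13, 22, 6, 19, 23], [1, 0, 3, 2, 4, 17, 21, 12, 6, 18, 7, 13, 10, 19, 5, 9, 11, 14, 8, 22, 16, 15, 20, 23]),
  ([1, 0, 3, 2, 4, 14, 20, 12, 11, 13, 7, 18, 10, 16, 23, 22, 6, 17, 15, 9, 19, 8, 21, 5], [1, 0, 3, 2, 4, 23, 16, 10, 21, 19, 12, 8, 7, 9, 5, 18, 13, 17, 11, 20, 6, 22, 15, 14]),
  ([1, 0, 3, 2, 4, 15, 11, 12, 20, 9, 7, 22, 10, 5, 19, 18, 21, 8, 14, 13, 23, 17, 6, 16], [1, 0, 3, 2, 4, 13, 22, 10, 17, 9, 12, 6, 7, 19, 18, 5, 23, 21, 15, 14, 8, 16, 11, 20]),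
  ([1, 0, 3, 2, 4, 15, 17, 10, 22, 14, 12, 5, 7, 20, 8, 6, 11, 16, 13, 9, 18, 21, 23, 19], [1, 0, 3, 2, 4, 11, 15, 12, 14, 19, 7, 16, 10, 18, 9, 5, 17, 6, 20, 23, 13, 21, 8, 22]),
  ([1, 0, 3, 2, 4, 15, 21, 7, 5, 13, 10, 20, 12, 22, 16, 23, 17, 19, 9, 14, 6, 11, 18, 8], [1, 0, 3, 2, 4, 8, 20, 7, 23, 18, 10, 21, 12, 9, 19, 5, 14, 16, 22, 17, 11, 6, 13, 15]),
  ([1, 0, 3, 2, 4, 16, 13, 7, 14, 21, 10, 18, 12, 11, 15, 17, 23, 8, 6, 5, 9, 22, 20, 19], [1, 0, 3, 2, 4, 19, 18, 7, 17, 20, 10, 13, 12, 6, 8, 14, 5, 15, 11, 23, 22, 9, 21, 16]),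
  ([1, 0, 3, 2, 4, 16, 22, 12, 18, 6, 7, 11, 10, 14, 8, 20, 13, 19, 5, 21, 17, 23, 9, 15], [1, 0, 3, 2, 4, 18, 9, 10, 14, 22, 12, 11, 7, 16, 13, 23, 5, 20, 8, 17, 15, 19, 6, 21]),
  ([1, 0, 3, 2, 4, 16, 23, 10, 11, 5, 12, 14, 7, 18, 19, 9, 22, 15, 21, 6, 20, 13, 17, 8], [1, 0, 3, 2, 4, 9, 19, 12, 23, 15, 7, 8, 10, 21, 11, 17, 5, 22, 13, 14, 20, 18, 16, 6]),
  ([1, 0, 3, 2, 4, 17, 11, 7, 19, 22, 10, 6, 12, 13, 23, 16, 15, 5, 18, 8, 20, 21, 9, 14], [1, 0, 3, 2, 4, 17, 11, 7, 19, 22, 10, 6, 12, 13, 23, 16, 15, 5, 18, 8, 20, 21, 9, 14]),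
  ([1, 0, 3, 2, 4, 17, 15, 10, 13, 8, 12, 19, 7, 6, 14, 20, 21, 23, 22, 18, 9, 11, 16, 5], [1, 0, 3, 2, 4, 23, 13, 12, 9, 20, 7, 21, 10, 8, 14, 6, 22, 5, 19, 11, 15, 16, 18, 17]),
  ([1, 0, 3, 2, 4, 17, 21, 12, 6, 18, 7, 13, 10, 19, 5, 9, 11, 14, 8, 22, 16, 15, 20, 23], [1, 0, 3, 2, 4, 14, 8, 10, 18, 15, 12, 16, 7, 11, 17, 21, 20, 5, 9, 13, 22, 6, 19, 23]),
  ([1, 0, 3, 2, 4, 18, 5, 12, 16, 17, 7, 14, 10, 11, 21, 15, 19, 13, 22, 8, 6, 9, 23, 20], [1, 0, 3, 2, 4, 6, 20, 10, 19, 21, 12, 13, 7, 17, 11, 15, 8, 9, 5, 16, 23, 14, 18, 22]),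
  ([1, 0, 3, 2, 4, 18, 9, 10, 14, 22, 12, 11, 7, 16, 13, 23, 5, 20, 8, 17, 15, 19, 6, 21], [1, 0, 3, 2, 4, 16, 22, 12, 18, 6, 7, 11, 10, 14, 8, 20, 13, 19, 5, 21, 17, 23, 9, 15]),
  ([1, 0, 3, 2, 4, 18, 19, 7, 11, 8, 10, 16, 12, 14, 20, 6, 9, 21, 17, 22, 23, 5, 15, 13], [1, 0, 3, 2, 4, 21, 15, 7, 9, 16, 10, 8, 12, 23, 13, 22, 11, 18, 5, 6, 14, 17, 19, 20]),
  ([1, 0, 3, 2, 4, 19, 5, 10, 6, 23, 12, 17, 7, 13, 16, 22, 9, 8, 20, 11, 21, 18, 14, 15], [1, 0, 3, 2, 4, 6, 8, 12, 17, 16, 7, 19, 10, 13, 22, 23, 14, 11, 21, 5, 18, 20, 15, 9]),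
  ([1, 0, 3, 2, 4, 19, 9, 12, 13, 11, 7, 6, 10, 17, 15, 21, 18, 16, 23, 20, 14, 5, 22, 8], [1, 0, 3, 2, 4, 21, 11, 10, 23, 6, 12, 9, 7, 8, 20, 14, 17, 13, 16, 5, 19, 15, 22, 18]),
  ([1, 0, 3, 2, 4, 19, 18, 7, 17, 20, 10, 13, 12, 6, 8, 14, 5, 15, 11, 23, 22, 9, 21, 16], [1, 0, 3, 2, 4, 16, 13, 7, 14, 21, 10, 18, 12, 11, 15, 17, 23, 8, 6, 5, 9, 22, 20, 19]),
  ([1, 0, 3, 2, 4, 20, 6, 10, 5, 11, 12, 22, 7, 15, 21, 17, 14, 18, 19, 23, 16, 8, 9, 13], [1, 0, 3, 2, 4, 8, 6, 12, 21, 22, 7, 9, 10, 23, 16, 13, 20, 15, 17, 18, 5, 14, 11, 19]),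
  ([1, 0, 3, 2, 4, 20, 8, 7, 22, 19, 10, 15, 12, 5, 18, 9, 6, 13, 23, 11, 17, 14, 16, 21], [1, 0, 3, 2, 4, 13, 16, 7, 6, 15, 10, 19, 12, 17, 21, 11, 22, 20, 14, 9, 5, 23, 8, 18]),
  ([1, 0, 3, 2, 4, 20, 14, 12, 15, 23, 7, 5, 10, 22, 13, 16, 8, 21, 11, 19, 9, 6, 17, 18], [1, 0, 3, 2, 4, 11, 21, 10, 16, 20, 12, 18, 7, 14, 6, 8, 15, 22, 23, 19, 5, 17, 13, 9]),
  ([1, 0, 3, 2, 4, 21, 11, 10, 23, 6, 12, 9, 7, 8, 20, 14, 17, 13, 16, 5, 19, 15, 22, 18], [1, 0, 3, 2, 4, 19, 9, 12, 13, 11, 7, 6, 10, 17, 15, 21, 18, 16, 23, 20, 14, 5, 22, 8]),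
  ([1, 0, 3, 2, 4, 21, 15, 7, 9, 16, 10, 8, 12, 23, 13, 22, 11, 18, 5, 6, 14, 17, 19, 20], [1, 0, 3, 2, 4, 18, 19, 7, 11, 8, 10, 16, 12, 14, 20, 6, 9, 21, 17, 22, 23, 5, 15, 13]),
  ([1, 0, 3, 2, 4, 21, 17, 12, 8, 5, 7, 23, 10, 9, 18, 19, 15, 20, 6, 16, 22, 11, 14, 13], [1, 0, 3, 2, 4, 9, 18, 10, 8, 13, 12, 21, 7, 23, 22, 16, 19, 6, 14, 15, 17, 5, 20, 11]),
  ([1, 0, 3, 2, 4, 22, 13, 10, 15, 18, 12, 20, 7, 5, 9, 19, 16, 11, 17, 8, 14, 23, 21, 6], [1, 0, 3, 2, 4, 13, 23, 12, 19, 14, 7, 17, 10, 6, 20, 8, 16, 18, 9, 15, 11, 22, 5, 21]),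
  ([1, 0, 3, 2, 4, 22, 16, 12, 5, 8, 7, 15, 10, 20, 6, 14, 23, 9, 18, 17, 21, 13, 19, 11], [1, 0, 3, 2, 4, 8, 14, 10, 9, 17, 12, 23, 7, 21, 15, 11, 6, 19, 18, 22, 13, 20, 5, 16]),
  ([1, 0, 3, 2, 4, 22, 23, 7, 20, 17, 10, 5, 12, 15, 11, 21, 13, 6, 8, 18, 19, 16, 14, 9], [1, 0, 3, 2, 4, 11, 17, 7, 18, 23, 10, 14, 12, 16, 22, 13, 21, 9, 19, 20, 8, 15, 5, 6]),
  ([1, 0, 3, 2, 4, 23, 13, 12, 9, 20, 7, 21, 10, 8, 14, 6, 22, 5, 19, 11, 15, 16, 18, 17], [1, 0, 3, 2, 4, 17, 15, 10, 13, 8, 12, 19, 7, 6, 14, 20, 21, 23, 22, 18, 9, 11, 16, 5]),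
  ([1, 0, 3, 2, 4, 23, 16, 10, 21, 19, 12, 8, 7, 9, 5, 18, 13, 17, 11, 20, 6, 22, 15, 14], [1, 0, 3, 2, 4, 14, 20, 12, 11, 13, 7, 18, 10, 16, 23, 22, 6, 17, 15, 9, 19, 8, 21, 5]),
  ([1, 0, 3, 2, 4, 23, 22, 7, 8, 11, 10, 9, 12, 21, 17, 15, 16, 14, 20, 19, 18, 13, 6, 5], [1, 0, 3, 2, 4, 23, 22, 7, 8, 11, 10, 9, 12, 21, 17, 15, 16, 14, 20, 19, 18, 13, 6, 5])]

def tP2 : List (List ℕ × List ℕ) := [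
  ([1, 0, 2, 3, 4, 5, 6, 10, 20, 9, 7, 22, 12, 15, 14, 13, 21, 23, 19, 18, 8, 16, 11, 17], [1, 0, 2, 3, 4, 5, 6, 10, 20, 9, 7, 22, 12, 15, 14, 13, 21, 23, 19, 18, 8, 16, 11, 17]),
  ([1, 0, 2, 3, 4, 5, 16, 12, 22, 19, 10, 15, 7, 20, 23, 11, 6, 17, 18, 9, 13, 21, 8, 14], [1, 0, 2, 3, 4, 5, 16, 12, 22, 19, 10, 15, 7, 20, 23, 11, 6, 17, 18, 9, 13, 21, 8, 14]),
  ([1, 0, 2, 3, 4, 5, 21, 7, 15, 18, 12, 20, 10, 22, 17, 8, 16, 14, 9, 19, 11, 6, 13, 23], [1, 0, 2, 3, 4, 5, 21, 7, 15, 18, 12, 20, 10, 22, 17, 8, 16, 14, 9, 19, 11, 6, 13, 23]),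
  ([1, 0, 2, 3, 4, 6, 5, 10, 19, 14, 7, 17, 12, 13, 9, 15, 16, 11, 20, 8, 18, 21, 23, 22], [1, 0, 2, 3, 4, 6, 5, 10, 19, 14, 7, 17, 12, 13, 9, 15, 16, 11, 20, 8, 18, 21, 23, 22]),
  ([1, 0, 2, 3, 4, 6, 16, 7, 13, 8, 12, 19, 10, 17, 22, 18, 21, 9, 14, 20, 23, 5, 15, 11], [1, 0, 2, 3, 4, 21, 5, 7, 9, 17, 12, 23, 10, 8, 18, 22, 6, 13, 15, 11, 19, 16, 14, 20]),
  ([1, 0, 2, 3, 4, 6, 21, 12, 17, 20, 10, 13, 7, 19, 11, 23, 5, 22, 8, 14, 15, 16, 18, 9], [1, 0, 2, 3, 4, 16, 5, 12, 18, 23, 10, 14, 7, 11, 19, 20, 21, 8, 22, 13, 9, 6, 17, 15]),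
  ([1, 0, 2, 3, 4, 8, 17, 12, 21, 14, 10, 23, 7, 9, 15, 13, 18, 16, 6, 20, 11, 22, 5, 19], [1, 0, 2, 3, 4, 22, 18, 12, 5, 13, 10, 20, 7, 15, 9, 14, 17, 6, 16, 23, 19, 8, 21, 11]),
  ([1, 0, 2, 3, 4, 8, 18, 10, 9, 20, 7, 21, 12, 23, 19, 11, 22, 15, 14, 6, 5, 17, 13, 16], [1, 0, 2, 3, 4, 20, 19, 10, 5, 8, 7, 15, 12, 22, 18, 17, 23, 21, 6, 14, 9, 11, 16, 13]),
  ([1, 0, 2, 3, 4, 8, 22, 7, 23, 6, 12, 9, 10, 21, 16, 5, 17, 19, 20, 14, 13, 18, 11, 15], [1, 0, 2, 3, 4, 15, 9, 7, 5, 11, 12, 22, 10, 20, 19, 23, 14, 16, 21, 17, 18, 13, 6, 8]),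
  ([1, 0, 2, 3, 4, 9, 13, 12, 23, 18, 10, 21, 7, 8, 22, 17, 14, 11, 19, 5, 16, 15, 20, 6], [1, 0, 2, 3, 4, 19, 23, 12, 13, 5, 10, 17, 7, 6, 16, 21, 20, 15, 9, 18, 22, 11, 14, 8]),
  ([1, 0, 2, 3, 4, 9, 14, 10, 8, 5, 7, 23, 12, 21, 6, 16, 15, 22, 18, 19, 20, 13, 17, 11], [1, 0, 2, 3, 4, 9, 14, 10, 8, 5, 7, 23, 12, 21, 6, 16, 15, 22, 18, 19, 20, 13, 17, 11]),
  ([1, 0, 2, 3, 4, 9, 15, 7, 21, 19, 12, 8, 10, 23, 11, 20, 13, 6, 5, 18, 17, 14, 16, 22], [1, 0, 2, 3, 4, 18, 17, 7, 11, 5, 12, 14, 10, 16, 21, 6, 22, 20, 19, 9, 15, 8, 23, 13]),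
  ([1, 0, 2, 3, 4, 11, 19, 7, 18, 15, 12, 16, 10, 14, 9, 13, 20, 22, 17, 21, 5, 23, 8, 6], [1, 0, 2, 3, 4, 20, 23, 7, 22, 14, 12, 5, 10, 15, 13, 9, 11, 18, 8, 6, 16, 19, 17, 21]),
  ([1, 0, 2, 3, 4, 11, 20, 12, 14, 21, 10, 18, 7, 16, 6, 5, 23, 9, 15, 17, 8, 19, 13, 22], [1, 0, 2, 3, 4, 15, 14, 12, 20, 17, 10, 5, 7, 22, 8, 18, 13, 19, 11, 21, 6, 9, 23, 16]),
  ([1, 0, 2, 3, 4, 11, 23, 10, 16, 17, 7, 14, 12, 18, 22, 8, 19, 6, 21, 15, 13, 20, 5, 9], [1, 0, 2, 3, 4, 22, 17, 10, 15, 23, 7, 5, 12, 20, 11, 19, 8, 9, 13, 16, 21, 18, 14, 6]),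
  ([1, 0, 2, 3, 4, 13, 9, 12, 19, 22, 10, 6, 7, 17, 18, 8, 15, 20, 23, 16, 5, 14, 11, 21], [1, 0, 2, 3, 4, 20, 11, 12, 15, 6, 10, 22, 7, 5, 21, 16, 19, 13, 14, 8, 17, 23, 9, 18]),
  ([1, 0, 2, 3, 4, 13, 14, 7, 6, 23, 12, 17, 10, 19, 20, 11, 9, 21, 16, 22, 8, 15, 5, 18], [1, 0, 2, 3, 4, 22, 8, 7, 20, 16, 12, 15, 10, 5, 6, 21, 18, 11, 23, 13, 14, 17, 19, 9]),
  ([1, 0, 2, 3, 4, 13, 15, 10, 17, 16, 7, 19, 12, 6, 21, 5, 14, 18, 22, 23, 11, 9, 8, 20], [1, 0, 2, 3, 4, 15, 13, 10, 22, 21, 7, 20, 12, 5, 16, 6, 9, 8, 17, 11, 23, 14, 18, 19]),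
  ([1, 0, 2, 3, 4, 14, 9, 10, 18, 6, 7, 11, 12, 16, 5, 21, 13, 17, 8, 20, 19, 15, 22, 23], [1, 0, 2, 3, 4, 14, 9, 10, 18, 6, 7, 11, 12, 16, 5, 21, 13, 17, 8, 20, 19, 15, 22, 23]),
  ([1, 0, 2, 3, 4, 14, 13, 7, 16, 20, 12, 18, 10, 11, 23, 19, 15, 5, 6, 8, 22, 9, 21, 17], [1, 0, 2, 3, 4, 17, 18, 7, 19, 21, 12, 13, 10, 6, 5, 16, 8, 23, 11, 15, 9, 22, 20, 14]),
  ([1, 0, 2, 3, 4, 14, 15, 12, 11, 8, 10, 16, 7, 18, 17, 22, 9, 23, 20, 6, 21, 13, 19, 5], [1, 0, 2, 3, 4, 23, 19, 12, 9, 16, 10, 8, 7, 21, 5, 6, 11, 14, 13, 22, 18, 20, 15, 17]),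
  ([1, 0, 2, 3, 4, 15, 9, 7, 5, 11, 12, 22, 10, 20, 19, 23, 14, 16, 21, 17, 18, 13, 6, 8], [1, 0, 2, 3, 4, 8, 22, 7, 23, 6, 12, 9, 10, 21, 16, 5, 17, 19, 20, 14, 13, 18, 11, 15]),
  ([1, 0, 2, 3, 4, 15, 13, 10, 22, 21, 7, 20, 12, 5, 16, 6, 9, 8, 17, 11, 23, 14, 18, 19], [1, 0, 2, 3, 4, 13, 15, 10, 17, 16, 7, 19, 12, 6, 21, 5, 14, 18, 22, 23, 11, 9, 8, 20]),
  ([1, 0, 2, 3, 4, 15, 14, 12, 20, 17, 10, 5, 7, 22, 8, 18, 13, 19, 11, 21, 6, 9, 23, 16], [1, 0, 2, 3, 4, 11, 20, 12, 14, 21, 10, 18, 7, 16, 6, 5, 23, 9, 15, 17, 8, 19, 13, 22]),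
  ([1, 0, 2, 3, 4, 16, 5, 12, 18, 23, 10, 14, 7, 11, 19, 20, 21, 8, 22, 13, 9, 6, 17, 15], [1, 0, 2, 3, 4, 6, 21, 12, 17, 20, 10, 13, 7, 19, 11, 23, 5, 22, 8, 14, 15, 16, 18, 9]),
  ([1, 0, 2, 3, 4, 16, 6, 7, 14, 22, 12, 11, 10, 18, 8, 17, 5, 15, 13, 23, 20, 21, 9, 19], [1, 0, 2, 3, 4, 16, 6, 7, 14, 22, 12, 11, 10, 18, 8, 17, 5, 15, 13, 23, 20, 21, 9, 19]),
  ([1, 0, 2, 3, 4, 16, 21, 10, 11, 13, 7, 18, 12, 14, 15, 9, 6, 19, 23, 22, 17, 5, 20, 8], [1, 0, 2, 3, 4, 21, 16, 10, 23, 15, 7, 8, 12, 9, 13, 14, 5, 20, 11, 17, 22, 6, 19, 18]),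
  ([1, 0, 2, 3, 4, 17, 8, 12, 6, 15, 10, 19, 7, 13, 14, 9, 22, 5, 21, 11, 20, 18, 16, 23], [1, 0, 2, 3, 4, 17, 8, 12, 6, 15, 10, 19, 7, 13, 14, 9, 22, 5, 21, 11, 20, 18, 16, 23]),
  ([1, 0, 2, 3, 4, 17, 18, 7, 19, 21, 12, 13, 10, 6, 5, 16, 8, 23, 11, 15, 9, 22, 20, 14], [1, 0, 2, 3, 4, 14, 13, 7, 16, 20, 12, 18, 10, 11, 23, 19, 15, 5, 6, 8, 22, 9, 21, 17]),
  ([1, 0, 2, 3, 4, 17, 22, 10, 13, 11, 7, 6, 12, 19, 23, 20, 18, 14, 15, 21, 16, 8, 9, 5], [1, 0, 2, 3, 4, 23, 11, 10, 21, 22, 7, 9, 12, 8, 17, 18, 20, 5, 16, 13, 15, 19, 6, 14]),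
  ([1, 0, 2, 3, 4, 18, 8, 10, 14, 19, 7, 16, 12, 11, 20, 23, 17, 13, 9, 5, 6, 22, 15, 21], [1, 0, 2, 3, 4, 19, 20, 10, 6, 18, 7, 13, 12, 17, 8, 22, 11, 16, 5, 9, 14, 23, 21, 15]),
  ([1, 0, 2, 3, 4, 18, 17, 7, 11, 5, 12, 14, 10, 16, 21, 6, 22, 20, 19, 9, 15, 8, 23, 13], [1, 0, 2, 3, 4, 9, 15, 7, 21, 19, 12, 8, 10, 23, 11, 20, 13, 6, 5, 18, 17, 14, 16, 22]),
  ([1, 0, 2, 3, 4, 18, 22, 12, 16, 9, 10, 11, 7, 14, 13, 15, 8, 21, 5, 19, 23, 17, 6, 20], [1, 0, 2, 3, 4, 18, 22, 12, 16, 9, 10, 11, 7, 14, 13, 15, 8, 21, 5, 19, 23, 17, 6, 20]),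
  ([1, 0, 2, 3, 4, 19, 11, 7, 17, 9, 12, 6, 10, 13, 15, 14, 23, 8, 18, 5, 21, 20, 22, 16], [1, 0, 2, 3, 4, 19, 11, 7, 17, 9, 12, 6, 10, 13, 15, 14, 23, 8, 18, 5, 21, 20, 22, 16]),
  ([1, 0, 2, 3, 4, 19, 20, 10, 6, 18, 7, 13, 12, 17, 8, 22, 11, 16, 5, 9, 14, 23, 21, 15], [1, 0, 2, 3, 4, 18, 8, 10, 14, 19, 7, 16, 12, 11, 20, 23, 17, 13, 9, 5, 6, 22, 15, 21]),
  ([1, 0, 2, 3, 4, 19, 23, 12, 13, 5, 10, 17, 7, 6, 16, 21, 20, 15, 9, 18, 22, 11, 14, 8], [1, 0, 2, 3, 4, 9, 13, 12, 23, 18, 10, 21, 7, 8, 22, 17, 14, 11, 19, 5, 16, 15, 20, 6]),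
  ([1, 0, 2, 3, 4, 20, 11, 12, 15, 6, 10, 22, 7, 5, 21, 16, 19, 13, 14, 8, 17, 23, 9, 18], [1, 0, 2, 3, 4, 13, 9, 12, 19, 22, 10, 6, 7, 17, 18, 8, 15, 20, 23, 16, 5, 14, 11, 21]),
  ([1, 0, 2, 3, 4, 20, 19, 10, 5, 8, 7, 15, 12, 22, 18, 17, 23, 21, 6, 14, 9, 11, 16, 13], [1, 0, 2, 3, 4, 8, 18, 10, 9, 20, 7, 21, 12, 23, 19, 11, 22, 15, 14, 6, 5, 17, 13, 16]),
  ([1, 0, 2, 3, 4, 20, 23, 7, 22, 14, 12, 5, 10, 15, 13, 9, 11, 18, 8, 6, 16, 19, 17, 21], [1, 0, 2, 3, 4, 11, 19, 7, 18, 15, 12, 16, 10, 14, 9, 13, 20, 22, 17, 21, 5, 23, 8, 6]),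
  ([1, 0, 2, 3, 4, 21, 5, 7, 9, 17, 12, 23, 10, 8, 18, 22, 6, 13, 15, 11, 19, 16, 14, 20], [1, 0, 2, 3, 4, 6, 16, 7, 13, 8, 12, 19, 10, 17, 22, 18, 21, 9, 14, 20, 23, 5, 15, 11]),
  ([1, 0, 2, 3, 4, 21, 6, 12, 8, 11, 10, 9, 7, 23, 20, 19, 16, 18, 17, 15, 14, 5, 22, 13], [1, 0, 2, 3, 4, 21, 6, 12, 8, 11, 10, 9, 7, 23, 20, 19, 16, 18, 17, 15, 14, 5, 22, 13]),
  ([1, 0, 2, 3, 4, 21, 16, 10, 23, 15, 7, 8, 12, 9, 13, 14, 5, 20, 11, 17, 22, 6, 19, 18], [1, 0, 2, 3, 4, 16, 21, 10, 11, 13, 7, 18, 12, 14, 15, 9, 6, 19, 23, 22, 17, 5, 20, 8]),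
  ([1, 0, 2, 3, 4, 22, 8, 7, 20, 16, 12, 15, 10, 5, 6, 21, 18, 11, 23, 13, 14, 17, 19, 9], [1, 0, 2, 3, 4, 13, 14, 7, 6, 23, 12, 17, 10, 19, 20, 11, 9, 21, 16, 22, 8, 15, 5, 18]),
  ([1, 0, 2, 3, 4, 22, 17, 10, 15, 23, 7, 5, 12, 20, 11, 19, 8, 9, 13, 16, 21, 18, 14, 6], [1, 0, 2, 3, 4, 11, 23, 10, 16, 17, 7, 14, 12, 18, 22, 8, 19, 6, 21, 15, 13, 20, 5, 9]),
  ([1, 0, 2, 3, 4, 22, 18, 12, 5, 13, 10, 20, 7, 15, 9, 14, 17, 6, 16, 23, 19, 8, 21, 11], [1, 0, 2, 3, 4, 8, 17, 12, 21, 14, 10, 23, 7, 9, 15, 13, 18, 16, 6, 20, 11, 22, 5, 19]),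
  ([1, 0, 2, 3, 4, 23, 11, 10, 21, 22, 7, 9, 12, 8, 17, 18, 20, 5, 16, 13, 15, 19, 6, 14], [1, 0, 2, 3, 4, 17, 22, 10, 13, 11, 7, 6, 12, 19, 23, 20, 18, 14, 15, 21, 16, 8, 9, 5]),
  ([1, 0, 2, 3, 4, 23, 19, 12, 9, 16, 10, 8, 7, 21, 5, 6, 11, 14, 13, 22, 18, 20, 15, 17], [1, 0, 2, 3, 4, 14, 15, 12, 11, 8, 10, 16, 7, 18, 17, 22, 9, 23, 20, 6, 21, 13, 19, 5]),
  ([1, 0, 2, 3, 4, 23, 20, 7, 8, 13, 12, 21, 10, 9, 14, 15, 19, 17, 22, 16, 6, 11, 18, 5], [1, 0, 2, 3, 4, 23, 20, 7, 8, 13, 12, 21, 10, 9, 14, 15, 19, 17, 22, 16, 6, 11, 18, 5])]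

def tF5 : List (List ℕ × List ℕ) := [
  ([1, 0, 3, 2, 5, 4, 9, 17, 20, 6, 23, 22, 14, 15, 12, 13, 18, 7, 16, 21, 8, 19, 11, 10], [1, 0, 3, 2, 5, 4, 9, 17, 20, 6, 23, 22, 14, 15, 12, 13, 18, 7, 16, 21, 8, 19, 11, 10]),
  ([1, 0, 3, 2, 5, 4, 18, 23, 15, 21, 14, 20, 17, 22, 10, 8, 19, 12, 6, 16, 11, 9, 13, 7], [1, 0, 3, 2, 5, 4, 18, 23, 15, 21, 14, 20, 17, 22, 10, 8, 19, 12, 6, 16, 11, 9, 13, 7]),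
  ([1, 0, 3, 2, 5, 4, 19, 14, 22, 16, 17, 15, 23, 20, 7, 11, 9, 10, 21, 6, 13, 18, 8, 12], [1, 0, 3, 2, 5, 4, 19, 14, 22, 16, 17, 15, 23, 20, 7, 11, 9, 10, 21, 6, 13, 18, 8, 12]),
  ([1, 0, 3, 2, 5, 6, 12, 17, 8, 4, 23, 7, 14, 18, 9, 19, 15, 22, 21, 16, 20, 13, 10, 11], [1, 0, 3, 2, 9, 4, 5, 11, 8, 14, 22, 23, 6, 21, 12, 16, 19, 7, 13, 15, 20, 18, 17, 10]),
  ([1, 0, 3, 2, 5, 6, 13, 14, 7, 21, 17, 18, 23, 8, 22, 10, 12, 11, 16, 4, 19, 15, 20, 9], [1, 0, 3, 2, 19, 4, 5, 8, 13, 23, 15, 17, 16, 6, 7, 21, 18, 10, 11, 20, 22, 9, 14, 12]),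
  ([1, 0, 3, 2, 5, 6, 15, 23, 18, 16, 14, 8, 17, 7, 11, 20, 13, 9, 4, 21, 10, 12, 19, 22], [1, 0, 3, 2, 18, 4, 5, 13, 11, 17, 20, 14, 21, 16, 10, 6, 9, 12, 8, 22, 15, 19, 23, 7]),
  ([1, 0, 3, 2, 5, 7, 11, 17, 18, 22, 23, 6, 14, 8, 10, 21, 20, 4, 19, 13, 15, 16, 9, 12], [1, 0, 3, 2, 17, 4, 11, 5, 13, 22, 14, 6, 23, 19, 12, 20, 21, 7, 8, 18, 16, 15, 9, 10]),
  ([1, 0, 3, 2, 5, 7, 16, 14, 6, 19, 17, 8, 23, 18, 4, 9, 11, 12, 13, 22, 21, 20, 15, 10], [1, 0, 3, 2, 14, 4, 8, 5, 11, 15, 23, 16, 17, 18, 7, 22, 6, 10, 13, 9, 21, 20, 19, 12]),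
  ([1, 0, 3, 2, 5, 7, 20, 23, 8, 13, 14, 18, 17, 6, 12, 15, 16, 10, 22, 19, 9, 11, 21, 4], [1, 0, 3, 2, 23, 4, 13, 5, 8, 20, 17, 21, 14, 9, 10, 15, 16, 12, 11, 19, 6, 22, 18, 7]),
  ([1, 0, 3, 2, 5, 8, 10, 14, 18, 12, 17, 7, 23, 6, 15, 13, 21, 19, 9, 20, 11, 22, 4, 16], [1, 0, 3, 2, 22, 4, 13, 11, 5, 18, 6, 20, 9, 15, 7, 14, 23, 10, 8, 17, 19, 16, 21, 12]),
  ([1, 0, 3, 2, 5, 8, 21, 17, 6, 20, 23, 18, 14, 7, 16, 11, 22, 15, 12, 9, 4, 10, 13, 19], [1, 0, 3, 2, 20, 4, 8, 13, 5, 19, 21, 15, 18, 22, 12, 17, 14, 7, 11, 23, 9, 6, 16, 10]),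
  ([1, 0, 3, 2, 5, 8, 22, 23, 7, 9, 14, 6, 17, 18, 19, 4, 10, 16, 20, 12, 13, 21, 11, 15], [1, 0, 3, 2, 15, 4, 11, 8, 5, 9, 16, 22, 19, 20, 10, 23, 17, 12, 13, 14, 18, 21, 6, 7]),
  ([1, 0, 3, 2, 5, 9, 4, 17, 16, 12, 23, 10, 14, 13, 6, 15, 19, 11, 20, 8, 21, 18, 7, 22], [1, 0, 3, 2, 6, 4, 14, 22, 19, 5, 11, 17, 9, 13, 12, 15, 8, 7, 21, 16, 18, 20, 23, 10]),
  ([1, 0, 3, 2, 5, 9, 18, 14, 10, 20, 17, 13, 23, 16, 11, 7, 4, 22, 8, 12, 15, 19, 21, 6], [1, 0, 3, 2, 16, 4, 23, 15, 18, 5, 8, 14, 19, 11, 7, 20, 13, 10, 6, 21, 9, 22, 17, 12]),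
  ([1, 0, 3, 2, 5, 9, 19, 23, 13, 8, 14, 16, 17, 10, 22, 21, 18, 6, 12, 20, 7, 4, 15, 11], [1, 0, 3, 2, 21, 4, 17, 20, 9, 5, 13, 23, 18, 8, 10, 22, 11, 12, 16, 6, 19, 15, 14, 7]),
  ([1, 0, 3, 2, 5, 10, 8, 14, 9, 15, 17, 16, 23, 13, 12, 6, 22, 4, 18, 11, 20, 21, 19, 7], [1, 0, 3, 2, 17, 4, 15, 23, 6, 8, 5, 19, 14, 13, 7, 9, 11, 10, 18, 22, 20, 21, 16, 12]),
  ([1, 0, 3, 2, 5, 10, 21, 23, 16, 18, 14, 13, 17, 9, 4, 19, 8, 7, 11, 15, 6, 22, 20, 12], [1, 0, 3, 2, 14, 4, 20, 17, 16, 13, 5, 18, 23, 11, 10, 19, 8, 12, 9, 15, 22, 6, 21, 7]),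
  ([1, 0, 3, 2, 5, 10, 22, 17, 13, 11, 23, 9, 14, 16, 7, 20, 21, 12, 15, 18, 19, 8, 6, 4], [1, 0, 3, 2, 23, 4, 22, 14, 21, 11, 5, 9, 17, 8, 12, 18, 13, 7, 19, 20, 15, 16, 6, 10]),
  ([1, 0, 3, 2, 5, 11, 7, 17, 19, 10, 23, 12, 14, 21, 22, 8, 16, 9, 18, 15, 13, 20, 4, 6], [1, 0, 3, 2, 22, 4, 23, 6, 15, 17, 9, 5, 11, 20, 12, 19, 16, 7, 18, 8, 21, 13, 14, 10]),
  ([1, 0, 3, 2, 5, 11, 16, 23, 21, 15, 14, 19, 17, 12, 6, 13, 20, 22, 10, 18, 4, 7, 8, 9], [1, 0, 3, 2, 20, 4, 14, 21, 22, 23, 18, 5, 13, 15, 10, 9, 6, 12, 19, 11, 16, 8, 17, 7]),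
  ([1, 0, 3, 2, 5, 11, 20, 14, 12, 18, 17, 21, 23, 19, 9, 4, 7, 6, 15, 10, 8, 16, 13, 22], [1, 0, 3, 2, 15, 4, 17, 16, 20, 14, 19, 5, 8, 22, 7, 18, 21, 10, 9, 13, 6, 11, 23, 12]),
  ([1, 0, 3, 2, 5, 12, 6, 17, 21, 9, 23, 11, 14, 19, 4, 18, 13, 10, 8, 20, 16, 15, 22, 7], [1, 0, 3, 2, 14, 4, 6, 23, 18, 9, 17, 11, 5, 16, 12, 21, 20, 7, 15, 13, 19, 8, 22, 10]),
  ([1, 0, 3, 2, 5, 12, 13, 23, 19, 20, 14, 21, 17, 11, 7, 16, 15, 4, 9, 8, 22, 6, 18, 10], [1, 0, 3, 2, 17, 4, 21, 14, 19, 18, 23, 13, 5, 6, 10, 16, 15, 12, 22, 8, 9, 11, 20, 7]),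
  ([1, 0, 3, 2, 5, 12, 15, 14, 11, 8, 17, 19, 23, 21, 10, 22, 6, 7, 20, 9, 18, 13, 16, 4], [1, 0, 3, 2, 23, 4, 16, 17, 9, 19, 14, 8, 5, 21, 7, 6, 22, 10, 20, 11, 18, 13, 15, 12]),
  ([1, 0, 3, 2, 5, 13, 6, 14, 16, 22, 17, 9, 23, 10, 21, 8, 15, 20, 7, 19, 4, 12, 11, 18], [1, 0, 3, 2, 20, 4, 6, 18, 15, 11, 13, 22, 21, 5, 7, 16, 8, 10, 23, 19, 17, 14, 9, 12]),
  ([1, 0, 3, 2, 5, 13, 12, 23, 9, 7, 14, 10, 17, 16, 20, 11, 6, 18, 19, 22, 8, 15, 4, 21], [1, 0, 3, 2, 22, 4, 16, 9, 20, 8, 11, 15, 6, 5, 10, 21, 13, 12, 17, 18, 14, 23, 19, 7]),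
  ([1, 0, 3, 2, 5, 13, 15, 17, 10, 19, 23, 16, 14, 9, 18, 4, 12, 21, 22, 7, 11, 6, 8, 20], [1, 0, 3, 2, 15, 4, 21, 19, 22, 13, 8, 20, 16, 5, 12, 6, 11, 7, 14, 9, 23, 17, 18, 10]),
  ([1, 0, 3, 2, 5, 15, 6, 23, 4, 11, 14, 22, 17, 20, 16, 7, 12, 19, 18, 10, 21, 13, 9, 8], [1, 0, 3, 2, 8, 4, 6, 15, 23, 22, 19, 9, 16, 21, 10, 5, 14, 12, 18, 17, 13, 20, 11, 7]),
  ([1, 0, 3, 2, 5, 15, 12, 14, 20, 10, 17, 4, 23, 22, 8, 21, 13, 16, 11, 18, 9, 6, 7, 19], [1, 0, 3, 2, 11, 4, 21, 22, 14, 20, 9, 18, 6, 16, 7, 5, 17, 10, 19, 23, 8, 15, 13, 12]),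
  ([1, 0, 3, 2, 5, 15, 13, 17, 22, 18, 23, 20, 14, 4, 19, 9, 6, 8, 10, 11, 7, 12, 21, 16], [1, 0, 3, 2, 13, 4, 16, 20, 17, 15, 18, 19, 21, 6, 12, 5, 23, 7, 9, 14, 11, 22, 8, 10]),
  ([1, 0, 3, 2, 5, 16, 7, 14, 13, 4, 17, 10, 23, 9, 19, 18, 20, 15, 6, 21, 22, 11, 12, 8], [1, 0, 3, 2, 9, 4, 18, 6, 23, 13, 11, 21, 22, 8, 7, 17, 5, 10, 15, 14, 16, 19, 20, 12]),
  ([1, 0, 3, 2, 5, 16, 11, 23, 10, 6, 14, 9, 17, 13, 15, 12, 7, 8, 21, 4, 18, 20, 22, 19], [1, 0, 3, 2, 19, 4, 9, 16, 17, 11, 8, 6, 15, 13, 10, 14, 5, 12, 20, 23, 21, 18, 22, 7]),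
  ([1, 0, 3, 2, 5, 16, 20, 17, 9, 21, 23, 13, 14, 10, 8, 22, 11, 19, 4, 6, 12, 7, 18, 15], [1, 0, 3, 2, 18, 4, 19, 21, 14, 8, 13, 16, 20, 11, 12, 23, 5, 7, 22, 17, 6, 9, 15, 10]),
  ([1, 0, 3, 2, 5, 18, 4, 23, 6, 10, 14, 7, 17, 8, 21, 22, 9, 13, 15, 11, 16, 19, 12, 20], [1, 0, 3, 2, 6, 4, 8, 11, 13, 16, 9, 19, 22, 17, 10, 18, 20, 12, 5, 21, 23, 14, 15, 7]),
  ([1, 0, 3, 2, 5, 18, 9, 14, 8, 11, 17, 6, 23, 7, 20, 16, 19, 21, 10, 15, 12, 4, 22, 13], [1, 0, 3, 2, 21, 4, 11, 13, 8, 6, 18, 9, 20, 23, 7, 19, 15, 10, 5, 16, 14, 17, 22, 12]),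
  ([1, 0, 3, 2, 5, 18, 19, 17, 7, 15, 23, 8, 14, 6, 13, 12, 4, 20, 11, 10, 22, 9, 16, 21], [1, 0, 3, 2, 16, 4, 13, 8, 11, 21, 19, 18, 15, 14, 12, 9, 22, 7, 5, 6, 17, 23, 20, 10]),
  ([1, 0, 3, 2, 5, 19, 4, 14, 21, 7, 17, 12, 23, 11, 16, 20, 18, 8, 22, 13, 6, 9, 10, 15], [1, 0, 3, 2, 6, 4, 20, 9, 17, 21, 22, 13, 11, 19, 7, 23, 14, 10, 16, 5, 15, 8, 18, 12]),
  ([1, 0, 3, 2, 5, 19, 9, 23, 12, 22, 14, 11, 17, 21, 8, 10, 4, 15, 13, 7, 20, 18, 6, 16], [1, 0, 3, 2, 16, 4, 22, 19, 14, 6, 15, 11, 8, 18, 10, 17, 23, 12, 21, 5, 20, 13, 9, 7]),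
  ([1, 0, 3, 2, 5, 19, 18, 17, 11, 13, 23, 21, 14, 12, 15, 6, 9, 16, 7, 22, 10, 4, 20, 8], [1, 0, 3, 2, 21, 4, 15, 18, 23, 16, 20, 8, 13, 9, 12, 14, 17, 7, 6, 5, 22, 11, 19, 10]),
  ([1, 0, 3, 2, 5, 20, 7, 23, 22, 12, 14, 4, 17, 15, 13, 6, 11, 21, 8, 9, 19, 16, 10, 18], [1, 0, 3, 2, 11, 4, 15, 6, 18, 19, 22, 16, 9, 14, 10, 13, 21, 12, 23, 20, 5, 17, 8, 7]),
  ([1, 0, 3, 2, 5, 20, 11, 14, 15, 9, 17, 22, 23, 4, 18, 19, 16, 13, 12, 8, 10, 7, 6, 21], [1, 0, 3, 2, 13, 4, 22, 21, 19, 9, 20, 6, 18, 17, 7, 8, 16, 10, 14, 15, 5, 23, 11, 12]),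
  ([1, 0, 3, 2, 5, 20, 16, 17, 4, 8, 23, 15, 14, 22, 21, 10, 7, 18, 9, 12, 6, 11, 19, 13], [1, 0, 3, 2, 8, 4, 20, 16, 9, 18, 15, 21, 19, 23, 12, 11, 6, 7, 17, 22, 5, 14, 13, 10]),
  ([1, 0, 3, 2, 5, 21, 8, 17, 12, 16, 23, 19, 14, 11, 20, 7, 10, 13, 6, 4, 9, 22, 15, 18], [1, 0, 3, 2, 19, 4, 18, 15, 6, 20, 16, 13, 8, 17, 12, 22, 9, 7, 23, 11, 14, 5, 21, 10]),
  ([1, 0, 3, 2, 5, 21, 10, 23, 11, 4, 14, 12, 17, 19, 18, 9, 22, 20, 16, 6, 15, 8, 7, 13], [1, 0, 3, 2, 9, 4, 19, 22, 21, 15, 6, 8, 11, 23, 10, 20, 18, 12, 14, 13, 17, 5, 16, 7]),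
  ([1, 0, 3, 2, 5, 21, 22, 14, 19, 6, 17, 11, 23, 12, 13, 15, 8, 18, 4, 16, 7, 10, 9, 20], [1, 0, 3, 2, 18, 4, 9, 20, 16, 22, 21, 11, 13, 14, 7, 15, 19, 10, 17, 8, 23, 5, 6, 12]),
  ([1, 0, 3, 2, 5, 22, 8, 23, 20, 19, 14, 15, 17, 4, 9, 18, 21, 11, 7, 13, 12, 10, 16, 6], [1, 0, 3, 2, 13, 4, 23, 18, 6, 14, 21, 17, 20, 19, 10, 11, 22, 12, 15, 9, 8, 16, 5, 7]),
  ([1, 0, 3, 2, 5, 22, 10, 17, 15, 7, 23, 4, 14, 20, 11, 16, 8, 6, 13, 19, 18, 21, 12, 9], [1, 0, 3, 2, 11, 4, 17, 9, 16, 23, 6, 14, 22, 18, 12, 8, 15, 7, 20, 19, 13, 21, 5, 10]),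
  ([1, 0, 3, 2, 5, 22, 21, 14, 4, 13, 17, 20, 23, 15, 6, 12, 10, 9, 19, 7, 16, 8, 18, 11], [1, 0, 3, 2, 8, 4, 14, 19, 21, 17, 16, 23, 15, 9, 7, 13, 20, 10, 22, 18, 11, 6, 5, 12])]

def tF7 : List (List ℕ × List ℕ) := [
  ([1, 0, 3, 2, 7, 5, 11, 4, 8, 22, 12, 6, 10, 18, 14, 15, 16, 17, 13, 19, 21, 20, 9, 23], [1, 0, 3, 2, 7, 5, 11, 4, 8, 22, 12, 6, 10, 18, 14, 15, 16, 17, 13, 19, 21, 20, 9, 23]),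
  ([1, 0, 3, 2, 7, 5, 16, 12, 18, 19, 10, 8, 4, 6, 23, 21, 20, 14, 22, 13, 9, 11, 15, 17], [1, 0, 3, 2, 12, 5, 13, 4, 11, 20, 10, 21, 7, 19, 17, 22, 6, 23, 8, 9, 16, 15, 18, 14]),
  ([1, 0, 3, 2, 7, 5, 20, 10, 6, 13, 4, 18, 12, 8, 17, 9, 11, 23, 19, 22, 15, 16, 21, 14], [1, 0, 3, 2, 10, 5, 8, 4, 13, 15, 7, 16, 12, 9, 23, 20, 21, 14, 11, 18, 6, 22, 19, 17]),
  ([1, 0, 3, 2, 7, 6, 19, 10, 5, 15, 4, 8, 12, 18, 22, 14, 23, 11, 20, 17, 13, 21, 16, 9], [1, 0, 3, 2, 10, 8, 5, 4, 11, 23, 7, 17, 12, 20, 15, 9, 22, 19, 13, 6, 18, 21, 14, 16]),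
  ([1, 0, 3, 2, 7, 6, 21, 12, 8, 20, 10, 18, 4, 5, 11, 16, 19, 9, 17, 15, 14, 23, 13, 22], [1, 0, 3, 2, 12, 13, 5, 4, 8, 17, 10, 14, 7, 22, 20, 19, 15, 18, 11, 16, 9, 6, 23, 21]),
  ([1, 0, 3, 2, 7, 6, 23, 4, 18, 17, 12, 5, 10, 8, 9, 13, 21, 22, 15, 20, 16, 19, 14, 11], [1, 0, 3, 2, 7, 11, 5, 4, 13, 14, 12, 23, 10, 15, 22, 18, 20, 9, 8, 21, 19, 16, 17, 6]),
  ([1, 0, 3, 2, 7, 8, 9, 10, 18, 11, 4, 6, 12, 5, 16, 20, 13, 15, 14, 21, 23, 17, 22, 19], [1, 0, 3, 2, 10, 13, 11, 4, 5, 6, 7, 9, 12, 16, 18, 17, 14, 21, 8, 23, 15, 19, 22, 20]),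
  ([1, 0, 3, 2, 7, 8, 13, 4, 5, 21, 12, 18, 10, 6, 19, 23, 17, 16, 11, 14, 22, 9, 20, 15], [1, 0, 3, 2, 7, 8, 13, 4, 5, 21, 12, 18, 10, 6, 19, 23, 17, 16, 11, 14, 22, 9, 20, 15]),
  ([1, 0, 3, 2, 7, 8, 17, 12, 6, 14, 10, 5, 4, 18, 15, 22, 9, 19, 21, 11, 20, 13, 23, 16], [1, 0, 3, 2, 12, 11, 8, 4, 5, 16, 10, 19, 7, 21, 9, 14, 23, 6, 13, 17, 20, 18, 15, 22]),
  ([1, 0, 3, 2, 7, 9, 8, 10, 14, 16, 4, 19, 12, 20, 11, 5, 17, 22, 18, 23, 21, 13, 15, 6], [1, 0, 3, 2, 10, 15, 23, 4, 6, 5, 7, 14, 12, 21, 8, 22, 9, 16, 18, 11, 13, 20, 17, 19]),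
  ([1, 0, 3, 2, 7, 9, 13, 12, 19, 18, 10, 20, 4, 14, 22, 15, 8, 6, 23, 16, 5, 17, 21, 11], [1, 0, 3, 2, 12, 20, 17, 4, 16, 5, 10, 23, 7, 6, 13, 15, 19, 21, 9, 8, 11, 22, 14, 18]),
  ([1, 0, 3, 2, 7, 9, 17, 4, 20, 23, 12, 14, 10, 19, 6, 21, 13, 11, 16, 18, 15, 8, 5, 22], [1, 0, 3, 2, 7, 22, 14, 4, 21, 5, 12, 17, 10, 16, 11, 20, 18, 6, 19, 13, 8, 15, 23, 9]),
  ([1, 0, 3, 2, 7, 11, 5, 4, 13, 14, 12, 23, 10, 15, 22, 18, 20, 9, 8, 21, 19, 16, 17, 6], [1, 0, 3, 2, 7, 6, 23, 4, 18, 17, 12, 5, 10, 8, 9, 13, 21, 22, 15, 20, 16, 19, 14, 11]),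
  ([1, 0, 3, 2, 7, 11, 16, 10, 23, 8, 4, 15, 12, 13, 9, 17, 5, 6, 21, 14, 18, 20, 19, 22], [1, 0, 3, 2, 10, 16, 17, 4, 9, 14, 7, 5, 12, 13, 19, 11, 6, 15, 20, 22, 21, 18, 23, 8]),
  ([1, 0, 3, 2, 7, 11, 20, 12, 15, 21, 10, 13, 4, 23, 6, 19, 16, 22, 14, 8, 17, 5, 18, 9], [1, 0, 3, 2, 12, 21, 14, 4, 19, 23, 10, 5, 7, 11, 18, 8, 16, 20, 22, 15, 6, 9, 17, 13]),
  ([1, 0, 3, 2, 7, 13, 8, 4, 11, 19, 12, 15, 10, 23, 21, 6, 9, 20, 5, 22, 14, 17, 16, 18], [1, 0, 3, 2, 7, 18, 15, 4, 6, 16, 12, 8, 10, 5, 20, 11, 22, 21, 23, 9, 17, 14, 19, 13]),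
  ([1, 0, 3, 2, 7, 13, 9, 12, 23, 22, 10, 11, 4, 15, 18, 14, 17, 21, 19, 5, 16, 8, 6, 20], [1, 0, 3, 2, 12, 19, 22, 4, 21, 6, 10, 11, 7, 5, 15, 13, 20, 16, 14, 18, 23, 17, 9, 8]),
  ([1, 0, 3, 2, 7, 13, 17, 10, 15, 5, 4, 23, 12, 11, 20, 16, 8, 18, 22, 19, 6, 9, 14, 21], [1, 0, 3, 2, 10, 9, 20, 4, 16, 21, 7, 13, 12, 5, 22, 8, 15, 6, 17, 19, 14, 23, 18, 11]),
  ([1, 0, 3, 2, 7, 14, 15, 12, 20, 8, 10, 19, 4, 9, 17, 13, 18, 5, 11, 21, 6, 22, 16, 23], [1, 0, 3, 2, 12, 17, 20, 4, 9, 13, 10, 18, 7, 15, 5, 6, 22, 14, 16, 11, 8, 19, 21, 23]),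
  ([1, 0, 3, 2, 7, 14, 18, 10, 9, 21, 4, 20, 12, 19, 23, 6, 22, 17, 8, 11, 16, 15, 13, 5], [1, 0, 3, 2, 10, 23, 15, 4, 18, 8, 7, 19, 12, 22, 5, 21, 20, 17, 6, 13, 11, 9, 16, 14]),
  ([1, 0, 3, 2, 7, 14, 22, 4, 19, 11, 12, 9, 10, 20, 5, 16, 15, 23, 21, 8, 13, 18, 6, 17], [1, 0, 3, 2, 7, 14, 22, 4, 19, 11, 12, 9, 10, 20, 5, 16, 15, 23, 21, 8, 13, 18, 6, 17]),
  ([1, 0, 3, 2, 7, 15, 14, 12, 11, 17, 10, 23, 4, 13, 8, 9, 22, 16, 20, 6, 21, 18, 5, 19], [1, 0, 3, 2, 12, 22, 19, 4, 14, 15, 10, 8, 7, 13, 6, 5, 17, 9, 21, 23, 18, 20, 16, 11]),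
  ([1, 0, 3, 2, 7, 15, 18, 4, 23, 20, 12, 13, 10, 11, 16, 5, 14, 19, 6, 17, 9, 22, 21, 8], [1, 0, 3, 2, 7, 15, 18, 4, 23, 20, 12, 13, 10, 11, 16, 5, 14, 19, 6, 17, 9, 22, 21, 8]),
  ([1, 0, 3, 2, 7, 15, 22, 10, 13, 6, 4, 11, 12, 23, 19, 21, 18, 8, 17, 20, 5, 14, 9, 16], [1, 0, 3, 2, 10, 20, 9, 4, 17, 22, 7, 11, 12, 8, 21, 5, 23, 18, 16, 14, 19, 15, 6, 13]),
  ([1, 0, 3, 2, 7, 16, 5, 12, 22, 23, 10, 17, 4, 21, 19, 6, 11, 15, 18, 9, 13, 20, 14, 8], [1, 0, 3, 2, 12, 6, 15, 4, 23, 19, 10, 16, 7, 20, 22, 17, 5, 11, 18, 14, 21, 13, 8, 9]),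
  ([1, 0, 3, 2, 7, 16, 11, 10, 21, 9, 4, 22, 12, 17, 8, 13, 20, 19, 23, 18, 14, 5, 6, 15], [1, 0, 3, 2, 10, 21, 22, 4, 14, 9, 7, 6, 12, 15, 20, 23, 5, 13, 19, 17, 16, 8, 11, 18]),
  ([1, 0, 3, 2, 7, 16, 20, 4, 17, 18, 12, 21, 10, 22, 15, 14, 5, 8, 9, 23, 6, 11, 13, 19], [1, 0, 3, 2, 7, 16, 20, 4, 17, 18, 12, 21, 10, 22, 15, 14, 5, 8, 9, 23, 6, 11, 13, 19]),
  ([1, 0, 3, 2, 7, 17, 8, 12, 21, 15, 10, 16, 4, 22, 14, 18, 13, 23, 6, 20, 11, 9, 19, 5], [1, 0, 3, 2, 12, 23, 18, 4, 6, 21, 10, 20, 7, 16, 14, 9, 11, 5, 15, 22, 19, 8, 13, 17]),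
  ([1, 0, 3, 2, 7, 17, 9, 4, 16, 6, 12, 22, 10, 21, 23, 19, 8, 5, 20, 15, 18, 13, 11, 14], [1, 0, 3, 2, 7, 17, 9, 4, 16, 6, 12, 22, 10, 21, 23, 19, 8, 5, 20, 15, 18, 13, 11, 14]),
  ([1, 0, 3, 2, 7, 17, 13, 10, 22, 20, 4, 21, 12, 16, 5, 11, 9, 14, 15, 6, 19, 8, 18, 23], [1, 0, 3, 2, 10, 14, 19, 4, 21, 16, 7, 15, 12, 6, 17, 18, 13, 5, 22, 20, 9, 11, 8, 23]),
  ([1, 0, 3, 2, 7, 18, 14, 10, 8, 23, 4, 5, 12, 6, 21, 19, 15, 13, 9, 16, 11, 22, 17, 20], [1, 0, 3, 2, 10, 11, 13, 4, 8, 18, 7, 20, 12, 17, 6, 16, 19, 22, 5, 15, 23, 14, 21, 9]),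
  ([1, 0, 3, 2, 7, 18, 15, 4, 6, 16, 12, 8, 10, 5, 20, 11, 22, 21, 23, 9, 17, 14, 19, 13], [1, 0, 3, 2, 7, 13, 8, 4, 11, 19, 12, 15, 10, 23, 21, 6, 9, 20, 5, 22, 14, 17, 16, 18]),
  ([1, 0, 3, 2, 7, 18, 22, 12, 5, 9, 10, 6, 4, 8, 13, 17, 14, 20, 16, 23, 19, 15, 11, 21], [1, 0, 3, 2, 12, 8, 11, 4, 13, 9, 10, 22, 7, 14, 16, 21, 18, 15, 5, 20, 17, 23, 6, 19]),
  ([1, 0, 3, 2, 7, 19, 6, 10, 20, 22, 4, 9, 12, 14, 15, 18, 21, 16, 5, 13, 17, 23, 11, 8], [1, 0, 3, 2, 10, 18, 6, 4, 23, 11, 7, 22, 12, 19, 13, 14, 17, 20, 15, 5, 8, 16, 9, 21]),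
  ([1, 0, 3, 2, 7, 19, 21, 4, 14, 13, 12, 20, 10, 9, 8, 17, 23, 15, 22, 5, 11, 6, 18, 16], [1, 0, 3, 2, 7, 19, 21, 4, 14, 13, 12, 20, 10, 9, 8, 17, 23, 15, 22, 5, 11, 6, 18, 16]),
  ([1, 0, 3, 2, 7, 19, 23, 12, 9, 5, 10, 14, 4, 20, 16, 11, 6, 8, 13, 22, 18, 21, 17, 15], [1, 0, 3, 2, 12, 9, 16, 4, 17, 8, 10, 15, 7, 18, 11, 23, 14, 22, 20, 5, 13, 21, 19, 6]),
  ([1, 0, 3, 2, 7, 20, 5, 10, 19, 17, 4, 14, 12, 9, 13, 8, 16, 21, 6, 15, 22, 11, 23, 18], [1, 0, 3, 2, 10, 6, 18, 4, 15, 13, 7, 21, 12, 14, 11, 19, 16, 9, 23, 8, 5, 17, 20, 22]),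
  ([1, 0, 3, 2, 7, 20, 11, 12, 14, 6, 10, 9, 4, 19, 21, 23, 5, 18, 15, 17, 8, 16, 22, 13], [1, 0, 3, 2, 12, 16, 9, 4, 20, 11, 10, 6, 7, 23, 8, 18, 21, 19, 17, 13, 5, 14, 22, 15]),
  ([1, 0, 3, 2, 7, 20, 16, 4, 9, 15, 12, 19, 10, 14, 18, 22, 11, 13, 17, 6, 23, 5, 8, 21], [1, 0, 3, 2, 7, 21, 19, 4, 22, 8, 12, 16, 10, 17, 13, 9, 6, 18, 14, 11, 5, 23, 15, 20]),
  ([1, 0, 3, 2, 7, 21, 6, 12, 17, 11, 10, 22, 4, 16, 20, 5, 23, 13, 8, 14, 15, 19, 9, 18], [1, 0, 3, 2, 12, 15, 6, 4, 18, 22, 10, 9, 7, 17, 19, 20, 13, 8, 23, 21, 14, 5, 11, 16]),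
  ([1, 0, 3, 2, 7, 21, 19, 4, 22, 8, 12, 16, 10, 17, 13, 9, 6, 18, 14, 11, 5, 23, 15, 20], [1, 0, 3, 2, 7, 20, 16, 4, 9, 15, 12, 19, 10, 14, 18, 22, 11, 13, 17, 6, 23, 5, 8, 21]),
  ([1, 0, 3, 2, 7, 21, 23, 10, 16, 14, 4, 17, 12, 22, 18, 15, 19, 20, 11, 8, 9, 6, 5, 13], [1, 0, 3, 2, 10, 22, 21, 4, 19, 20, 7, 18, 12, 23, 9, 15, 8, 11, 14, 16, 17, 5, 13, 6]),
  ([1, 0, 3, 2, 7, 22, 14, 4, 21, 5, 12, 17, 10, 16, 11, 20, 18, 6, 19, 13, 8, 15, 23, 9], [1, 0, 3, 2, 7, 9, 17, 4, 20, 23, 12, 14, 10, 19, 6, 21, 13, 11, 16, 18, 15, 8, 5, 22]),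
  ([1, 0, 3, 2, 7, 22, 15, 10, 17, 19, 4, 16, 12, 21, 6, 23, 14, 9, 13, 5, 20, 18, 8, 11], [1, 0, 3, 2, 10, 19, 14, 4, 22, 17, 7, 23, 12, 18, 16, 6, 11, 8, 21, 9, 20, 13, 5, 15]),
  ([1, 0, 3, 2, 7, 22, 18, 12, 16, 13, 10, 21, 4, 17, 9, 8, 15, 11, 5, 19, 23, 14, 20, 6], [1, 0, 3, 2, 12, 18, 23, 4, 15, 14, 10, 17, 7, 9, 21, 16, 8, 13, 6, 19, 22, 11, 5, 20]),
  ([1, 0, 3, 2, 7, 23, 6, 4, 15, 9, 12, 11, 10, 13, 17, 8, 19, 14, 18, 16, 20, 21, 22, 5], [1, 0, 3, 2, 7, 23, 6, 4, 15, 9, 12, 11, 10, 13, 17, 8, 19, 14, 18, 16, 20, 21, 22, 5]),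
  ([1, 0, 3, 2, 7, 23, 19, 12, 13, 16, 10, 15, 4, 11, 5, 20, 21, 17, 9, 18, 22, 6, 8, 14], [1, 0, 3, 2, 12, 14, 21, 4, 22, 18, 10, 13, 7, 8, 23, 11, 9, 17, 19, 6, 15, 16, 20, 5]),
  ([1, 0, 3, 2, 7, 23, 21, 10, 11, 18, 4, 13, 12, 15, 14, 22, 6, 5, 16, 9, 8, 19, 20, 17], [1, 0, 3, 2, 10, 17, 16, 4, 20, 19, 7, 8, 12, 11, 14, 13, 18, 23, 9, 21, 22, 6, 15, 5])]

def r8 : List ℕ := [1, 0, 3, 2, 4, 5, 9, 7, 15, 6, 10, 22, 12, 20, 14, 8, 19, 17, 21, 16, 13, 18, 11, 23]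

def r0 : List ℕ := [1, 0, 3, 2, 5, 4, 9, 17, 20, 6, 23, 22, 14, 15, 12, 13, 18, 7, 16, 21, 8, 19, 11, 10]

def c8 : List (List ℕ × List ℕ) := [
  ([0, 1, 2, 3, 4, 5, 6, 7, 8, 9, 10, 11, 12, 13, 14, 15, 16, 17, 18, 19, 20, 21, 22, 23], [0, 1, 2, 3, 4, 5, 6, 7, 8, 9, 10, 11, 12, 13, 14, 15, 16, 17, 18, 19, 20, 21, 22, 23]),
  ([0, 1, 20, 13, 23, 6, 8, 12, 17, 22, 7, 11, 14, 2, 16, 4, 10, 19, 18, 5, 21, 3, 15, 9], [0, 1, 13, 21, 15, 19, 5, 10, 6, 23, 16, 11, 7, 3, 12, 22, 14, 8, 18, 17, 2, 20, 9, 4]),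
  ([2, 3, 5, 4, 17, 7, 8, 10, 9, 13, 21, 11, 18, 0, 19, 6, 14, 16, 20, 12, 22, 15, 1, 23], [13, 22, 0, 1, 3, 2, 15, 5, 6, 8, 7, 11, 19, 9, 16, 21, 17, 4, 12, 14, 18, 10, 20, 23]),
  ([6, 9, 5, 4, 7, 11, 22, 18, 3, 13, 21, 0, 23, 17, 20, 14, 12, 1, 19, 2, 16, 10, 8, 15], [11, 17, 19, 8, 3, 2, 0, 4, 22, 1, 21, 5, 16, 9, 15, 23, 20, 13, 7, 18, 14, 10, 6, 12]),
  ([6, 9, 7, 14, 23, 2, 0, 12, 11, 10, 19, 1, 16, 4, 8, 15, 18, 22, 17, 3, 20, 13, 5, 21], [6, 11, 5, 19, 13, 22, 0, 2, 14, 1, 9, 8, 7, 21, 3, 15, 12, 18, 16, 10, 20, 23, 17, 4]),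
  ([6, 9, 17, 12, 5, 10, 23, 8, 11, 4, 15, 1, 7, 2, 14, 3, 20, 18, 16, 19, 22, 13, 0, 21], [22, 11, 13, 15, 9, 4, 0, 12, 7, 1, 5, 8, 3, 21, 14, 10, 18, 2, 17, 19, 16, 23, 20, 6]),
  ([11, 22, 12, 10, 4, 2, 1, 9, 5, 3, 6, 19, 7, 13, 0, 21, 18, 15, 17, 23, 14, 20, 8, 16], [14, 6, 5, 9, 4, 8, 10, 12, 22, 7, 3, 0, 2, 13, 20, 17, 23, 18, 16, 11, 21, 15, 1, 19]),
  ([11, 22, 15, 8, 7, 9, 5, 14, 0, 17, 23, 10, 12, 3, 6, 13, 1, 19, 2, 20, 21, 18, 4, 16], [8, 16, 18, 13, 22, 6, 14, 4, 3, 5, 11, 0, 12, 15, 7, 2, 23, 9, 21, 17, 19, 20, 1, 10]),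
  ([15, 8, 6, 9, 7, 21, 11, 12, 2, 16, 5, 22, 17, 14, 1, 20, 13, 18, 23, 3, 10, 4, 19, 0], [23, 14, 8, 19, 21, 10, 2, 4, 1, 3, 20, 6, 7, 16, 13, 0, 9, 12, 17, 22, 15, 5, 11, 18]),
  ([16, 19, 14, 7, 4, 6, 21, 0, 18, 15, 17, 2, 1, 10, 12, 8, 22, 9, 20, 3, 5, 13, 11, 23], [7, 12, 11, 19, 4, 20, 5, 3, 15, 17, 13, 22, 14, 21, 2, 9, 0, 10, 8, 1, 18, 6, 16, 23]),
  ([16, 19, 17, 5, 23, 11, 21, 14, 10, 2, 15, 13, 8, 3, 7, 4, 6, 12, 0, 9, 18, 20, 1, 22], [18, 22, 9, 13, 15, 3, 16, 14, 12, 19, 8, 5, 17, 11, 7, 10, 0, 2, 20, 1, 21, 6, 23, 4]),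
  ([18, 21, 10, 7, 4, 5, 6, 20, 11, 3, 12, 1, 13, 19, 15, 0, 9, 14, 17, 2, 16, 23, 22, 8], [15, 11, 19, 9, 4, 5, 6, 3, 23, 16, 2, 8, 10, 12, 17, 14, 20, 18, 0, 13, 7, 1, 22, 21]),
  ([20, 13, 4, 14, 5, 3, 6, 15, 16, 9, 8, 17, 12, 22, 2, 1, 11, 10, 19, 21, 18, 0, 7, 23], [21, 15, 14, 5, 2, 4, 6, 22, 10, 9, 17, 16, 12, 1, 3, 7, 8, 11, 20, 18, 0, 19, 13, 23]),
  ([21, 18, 14, 5, 10, 2, 17, 15, 12, 13, 7, 20, 8, 0, 6, 19, 4, 11, 22, 16, 9, 3, 23, 1], [13, 23, 5, 21, 16, 3, 14, 10, 12, 20, 4, 17, 8, 9, 2, 7, 19, 6, 1, 15, 11, 0, 18, 22]),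
  ([21, 18, 17, 4, 10, 16, 11, 3, 8, 7, 5, 14, 2, 20, 13, 12, 15, 9, 19, 23, 1, 6, 22, 0], [23, 20, 12, 7, 3, 10, 21, 9, 8, 17, 4, 6, 15, 14, 11, 16, 5, 2, 1, 18, 13, 0, 22, 19]),
  ([22, 11, 4, 10, 23, 21, 5, 14, 20, 8, 19, 17, 16, 9, 13, 2, 18, 3, 6, 1, 7, 12, 15, 0], [23, 19, 15, 17, 2, 6, 18, 20, 9, 13, 3, 1, 21, 14, 7, 22, 12, 11, 16, 10, 8, 5, 0, 4])]

def c0 : List (List ℕ × List ℕ) := [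
  ([0, 1, 2, 3, 4, 5, 6, 7, 8, 9, 10, 11, 12, 13, 14, 15, 16, 17, 18, 19, 20, 21, 22, 23], [0, 1, 2, 3, 4, 5, 6, 7, 8, 9, 10, 11, 12, 13, 14, 15, 16, 17, 18, 19, 20, 21, 22, 23]),
  ([2, 3, 4, 5, 6, 7, 8, 9, 10, 11, 12, 13, 14, 15, 16, 17, 18, 19, 20, 21, 22, 0, 1, 23], [21, 22, 0, 1, 2, 3, 4, 5, 6, 7, 8, 9, 10, 11, 12, 13, 14, 15, 16, 17, 18, 19, 20, 23]),
  ([2, 3, 5, 4, 17, 7, 8, 10, 9, 13, 21, 11, 18, 0, 19, 6, 14, 16, 20, 12, 22, 15, 1, 23], [13, 22, 0, 1, 3, 2, 15, 5, 6, 8, 7, 11, 19, 9, 16, 21, 17, 4, 12, 14, 18, 10, 20, 23]),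
  ([13, 15, 6, 9, 12, 14, 10, 19, 22, 17, 4, 0, 18, 20, 21, 1, 7, 5, 3, 23, 8, 2, 11, 16], [11, 15, 21, 18, 10, 17, 2, 16, 20, 3, 6, 22, 4, 0, 5, 1, 23, 9, 12, 7, 13, 14, 8, 19]),
  ([14, 12, 13, 15, 5, 11, 6, 4, 22, 23, 20, 3, 8, 9, 18, 1, 19, 21, 2, 16, 7, 10, 17, 0], [23, 15, 18, 11, 7, 4, 6, 20, 12, 13, 21, 5, 1, 2, 0, 3, 19, 22, 14, 16, 10, 17, 8, 9]),
  ([19, 21, 14, 12, 5, 3, 11, 4, 13, 17, 16, 1, 18, 10, 8, 20, 2, 15, 7, 6, 22, 0, 23, 9], [21, 11, 16, 5, 7, 4, 19, 18, 14, 23, 13, 6, 3, 8, 2, 17, 10, 9, 12, 0, 15, 1, 20, 22]),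
  ([19, 21, 16, 18, 15, 4, 3, 13, 10, 9, 20, 6, 8, 11, 5, 17, 7, 12, 1, 23, 22, 0, 2, 14], [21, 18, 22, 6, 5, 14, 11, 16, 12, 9, 8, 13, 17, 7, 23, 4, 2, 15, 3, 0, 10, 1, 20, 19]),
  ([22, 11, 6, 9, 2, 15, 17, 3, 21, 14, 0, 23, 1, 12, 19, 18, 20, 16, 4, 13, 10, 7, 5, 8], [10, 12, 4, 7, 18, 22, 2, 21, 23, 3, 20, 1, 13, 19, 9, 5, 17, 6, 15, 14, 16, 8, 0, 11]),
  ([23, 10, 7, 17, 2, 0, 12, 3, 19, 14, 9, 5, 6, 15, 11, 18, 21, 1, 8, 16, 20, 13, 4, 22], [5, 17, 4, 7, 22, 11, 12, 2, 18, 10, 1, 14, 6, 21, 9, 13, 19, 3, 15, 8, 20, 16, 23, 0])]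

/-- Check for candidates with a fixed point. -/
def chkA (l : List ℕ) : Bool :=
  or (not (sqB l))
    (and (and (fixChk l (fixMask l)) (octB (fixMask l))) (c8.any (conjChk l r8)))

/-- Check for candidates without fixed points. -/
def chkB (l : List ℕ) : Bool :=
  or (or (not (sqB l)) (hasFix l)) (c0.any (conjChk l r0))

theorem tP1_ok : candChk [1, 0, 3, 2, 4] tP1 = true := by decide +kernel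
theorem tP2_ok : candChk [1, 0, 2, 3, 4] tP2 = true := by decide +kernel
theorem tF5_ok : candChk [1, 0, 3, 2, 5] tF5 = true := by decide +kernel
theorem tF7_ok : candChk [1, 0, 3, 2, 7] tF7 = true := by decide +kernel
theorem tP1_A : tP1.all (fun e => chkA e.1) = true := by decide +kernel
theorem tP2_A : tP2.all (fun e => chkA e.1) = true := by decide +kernel
theorem tF5_B : tF5.all (fun e => chkB e.1) = true := by decide +kernel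
theorem tF7_B : tF7.all (fun e => chkB e.1) = true := by decide +kernel

theorem r8_chk : chk r8 r8 = true := by decide +kernel
theorem r0_chk : chk r0 r0 = true := by decide +kernel
theorem r8_mem : memChk r8 = true := by decide +kernel
theorem r0_mem : memChk r0 = true := by decide +kernel
theorem r8_sq : sqB r8 = true := by decide +kernel
theorem r0_sq : sqB r0 = true := by decide +kernel
theorem r8_oct : and (fixChk r8 (fixMask r8)) (octB (fixMask r8)) = true := by decide +kernel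
theorem r0_fix : hasFix r0 = false := by decide +kernel

/-- The representative involution with eight fixed points. -/
def R8 : Equiv.Perm GolayPt := mkPerm r8 r8 r8_chk

/-- The representative involution without fixed points. -/
def R0 : Equiv.Perm GolayPt := mkPerm r0 r0 r0_chk

theorem inv_apply {g : Equiv.Perm GolayPt} (h2 : orderOf g = 2) (x : GolayPt) : g (g x) = x := by
  have h := pow_orderOf_eq_one g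
  rw [h2, pow_two] at h
  have h' := congrArg (fun f : Equiv.Perm GolayPt => f x) h
  simpa using h'

theorem conj_comp (g k k2 r : Equiv.Perm GolayPt) (h : k2 * (k * g * k⁻¹) * k2⁻¹ = r) :
    (k2 * k) * g * (k2 * k)⁻¹ = r := by
  rw [← h, mul_inv_rev]
  simp only [mul_assoc]

/-- End of the argument for an involution with a fixed point, once it is an explicit
candidate. -/
theorem finA (g k : Equiv.Perm GolayPt) (hk : k ∈ M24) (h2 : orderOf g = 2)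
    (T : List (List ℕ × List ℕ)) (hT : T.all (fun e => chkA e.1) = true)
    (hex : ∃ e ∈ T, ∃ hc : chk e.1 e.2 = true, k * g * k⁻¹ = mkPerm e.1 e.2 hc) :
    (Finset.univ.filter fun q => g q = q) ∈ octads ∧ ∃ k' ∈ M24, k' * g * k'⁻¹ = R8 := by
  obtain ⟨e, he, hc, hge⟩ := hex
  have hsq : k * g * k⁻¹ * (k * g * k⁻¹) = 1 := by
    have h := pow_orderOf_eq_one g
    rw [h2, pow_two] at h
    have : k * g * k⁻¹ * (k * g * k⁻¹) = k * (g * g) * k⁻¹ := by group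
    rw [this, h]
    group
  rw [hge] at hsq
  have hs := sqB_of_sq _ _ hc hsq
  have h1 := List.all_eq_true.1 hT e he
  simp only [chkA, hs, Bool.not_true, Bool.false_or, Bool.and_eq_true, List.any_eq_true] at h1
  obtain ⟨⟨hf, ho⟩, c, -, hcc⟩ := h1
  constructor
  · rw [fix_conj g k, hge, fix_eq _ _ hc _ hf]
    exact smul_mem_weight (Subgroup.inv_mem _ hk) (octB_spec ho)
  · obtain ⟨k2, hk2, e2⟩ := conjChk_spec e.1 e.2 r8 r8 hc r8_chk c hcc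
    refine ⟨k2 * k, Subgroup.mul_mem _ hk2 hk, ?_⟩
    apply conj_comp
    rw [hge]
    exact e2

/-- An involution with a fixed point has an octad of fixed points and is conjugate to the
representative. -/
theorem typeA (g : Equiv.Perm GolayPt) (hg : g ∈ M24) (h2 : orderOf g = 2) (p : GolayPt)
    (hp : g p = p) :
    (Finset.univ.filter fun q => g q = q) ∈ octads ∧ ∃ k ∈ M24, k * g * k⁻¹ = R8 := by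
  classical
  have hgg := inv_apply h2
  have hg1 : g ≠ 1 := by
    intro h
    rw [h, orderOf_one] at h2
    exact absurd h2 (by norm_num)
  obtain ⟨a, ha⟩ : ∃ a, g a ≠ a := by
    by_contra hcon
    push Not at hcon
    exact hg1 (Equiv.ext hcon)
  have hpa : p ≠ a := by intro h; rw [h] at hp; exact ha hp
  have hpa' : p ≠ g a := by
    intro h
    apply hpa
    have := hgg a
    rw [← h, hp] at this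
    exact this
  by_cases hb : ∃ b, b ≠ a ∧ b ≠ g a ∧ g b ≠ b
  · obtain ⟨b, hba, hba', hgb⟩ := hb
    have hpb : p ≠ b := by intro h; rw [h] at hp; exact hgb hp
    have hpb' : p ≠ g b := by
      intro h
      apply hpb
      have := hgg b
      rw [← h, hp] at this
      exact this
    have hinj : Function.Injective ![a, g a, b, g b, p] := by
      apply tuple5_inj
      · exact ha.symm
      · exact hba.symm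
      · intro h
        apply hba'
        have : g a = g (g b) := by rw [← h]
        rw [hgg] at this
        exact this.symm
      · exact hpa.symm
      · exact hba'.symm
      · intro h
        exact hba (g.injective h).symm
      · exact hpa'.symm
      · exact hgb.symm
      · exact hpb.symm
      · exact hpb'.symm
    obtain ⟨k, hk, hkx, hconj⟩ := normalize g ⟨_, hinj⟩
    have hk0 : k a = pt 0 := hkx 0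
    have hk1 : k (g a) = pt 1 := hkx 1
    have hk2 : k b = pt 2 := hkx 2
    have hk3 : k (g b) = pt 3 := hkx 3
    have hk4 : k p = pt 4 := hkx 4
    apply finA g k hk h2 tP1 tP1_A
    apply cands _ _ tP1_ok _ (Subgroup.mul_mem _ (Subgroup.mul_mem _ hk hg) (Subgroup.inv_mem _ hk))
    intro i hi
    interval_cases i
    · exact (hconj 0).trans hk1
    · exact (hconj 1).trans (by show k (g (g a)) = _; rw [hgg]; exact hk0)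
    · exact (hconj 2).trans hk3
    · exact (hconj 3).trans (by show k (g (g b)) = _; rw [hgg]; exact hk2)
    · exact (hconj 4).trans (by show k (g p) = _; rw [hp]; exact hk4)
  · push Not at hb
    have hcard : 5 ≤ (Finset.univ \ ({a, g a} : Finset GolayPt)).card := by
      have h1 := Finset.le_card_sdiff ({a, g a} : Finset GolayPt) Finset.univ
      have h3 : ({a, g a} : Finset GolayPt).card ≤ 2 := Finset.card_insert_le _ _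
      have h4 : (Finset.univ : Finset GolayPt).card = 24 := by decide
      omega
    have hpd : p ∈ Finset.univ \ ({a, g a} : Finset GolayPt) := by
      simp only [Finset.mem_sdiff, Finset.mem_univ, Finset.mem_insert, Finset.mem_singleton,
        true_and, not_or]
      exact ⟨hpa, hpa'⟩
    obtain ⟨y, hy, -⟩ := exists_emb5 hcard hpd
    have hy' : ∀ i, y i ≠ a ∧ y i ≠ g a := by
      intro i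
      have := hy i
      simp only [Finset.mem_sdiff, Finset.mem_univ, Finset.mem_insert, Finset.mem_singleton,
        true_and, not_or] at this
      exact this
    have hfix : ∀ i, g (y i) = y i := fun i => hb (y i) (hy' i).1 (hy' i).2
    have hinj : Function.Injective ![a, g a, y 0, y 1, y 2] := by
      apply tuple5_inj
      · exact ha.symm
      · exact (hy' 0).1.symm
      · exact (hy' 1).1.symm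
      · exact (hy' 2).1.symm
      · exact (hy' 0).2.symm
      · exact (hy' 1).2.symm
      · exact (hy' 2).2.symm
      · intro h; exact absurd (y.injective h) (by decide)
      · intro h; exact absurd (y.injective h) (by decide)
      · intro h; exact absurd (y.injective h) (by decide)
    obtain ⟨k, hk, hkx, hconj⟩ := normalize g ⟨_, hinj⟩
    have hk0 : k a = pt 0 := hkx 0
    have hk1 : k (g a) = pt 1 := hkx 1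
    have hk2 : k (y 0) = pt 2 := hkx 2
    have hk3 : k (y 1) = pt 3 := hkx 3
    have hk4 : k (y 2) = pt 4 := hkx 4
    apply finA g k hk h2 tP2 tP2_A
    apply cands _ _ tP2_ok _ (Subgroup.mul_mem _ (Subgroup.mul_mem _ hk hg) (Subgroup.inv_mem _ hk))
    intro i hi
    interval_cases i
    · exact (hconj 0).trans hk1
    · exact (hconj 1).trans (by show k (g (g a)) = _; rw [hgg]; exact hk0)
    · exact (hconj 2).trans (by show k (g (y 0)) = _; rw [hfix]; exact hk2)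
    · exact (hconj 3).trans (by show k (g (y 1)) = _; rw [hfix]; exact hk3)
    · exact (hconj 4).trans (by show k (g (y 2)) = _; rw [hfix]; exact hk4)

/-- End of the argument for a fixed-point-free involution. -/
theorem finB (g k : Equiv.Perm GolayPt) (hk : k ∈ M24) (h2 : orderOf g = 2)
    (h0 : ∀ p, g p ≠ p)
    (T : List (List ℕ × List ℕ)) (hT : T.all (fun e => chkB e.1) = true)
    (hex : ∃ e ∈ T, ∃ hc : chk e.1 e.2 = true, k * g * k⁻¹ = mkPerm e.1 e.2 hc) :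
    ∃ k' ∈ M24, k' * g * k'⁻¹ = R0 := by
  obtain ⟨e, he, hc, hge⟩ := hex
  have hsq : k * g * k⁻¹ * (k * g * k⁻¹) = 1 := by
    have h := pow_orderOf_eq_one g
    rw [h2, pow_two] at h
    have : k * g * k⁻¹ * (k * g * k⁻¹) = k * (g * g) * k⁻¹ := by group
    rw [this, h]
    group
  rw [hge] at hsq
  have hs := sqB_of_sq _ _ hc hsq
  have hnf : hasFix e.1 = false := by
    by_contra hcon
    have hcon' : hasFix e.1 = true := by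
      revert hcon
      cases hasFix e.1 <;> simp
    obtain ⟨q, hq⟩ := hasFix_spec _ _ hc hcon'
    rw [← hge] at hq
    apply h0 (k⁻¹ q)
    have h1 : k (g (k⁻¹ q)) = q := hq
    apply k.injective
    rw [h1]
    simp
  have h1 := List.all_eq_true.1 hT e he
  simp only [chkB, hs, hnf, Bool.not_true, Bool.false_or, List.any_eq_true] at h1
  obtain ⟨c, -, hcc⟩ := h1
  obtain ⟨k2, hk2, e2⟩ := conjChk_spec e.1 e.2 r0 r0 hc r0_chk c hcc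
  refine ⟨k2 * k, Subgroup.mul_mem _ hk2 hk, ?_⟩
  apply conj_comp
  rw [hge]
  exact e2

/-- A fixed-point-free involution is conjugate to the representative. -/
theorem typeB (g : Equiv.Perm GolayPt) (hg : g ∈ M24) (h2 : orderOf g = 2)
    (h0 : ∀ p, g p ≠ p) : ∃ k ∈ M24, k * g * k⁻¹ = R0 := by
  classical
  have hgg := inv_apply h2
  have ha := h0 (pt 0)
  have hcard : 5 ≤ (Finset.univ \ ({pt 0, g (pt 0)} : Finset GolayPt)).card := by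
    have h1 := Finset.le_card_sdiff ({pt 0, g (pt 0)} : Finset GolayPt) Finset.univ
    have h3 : ({pt 0, g (pt 0)} : Finset GolayPt).card ≤ 2 := Finset.card_insert_le _ _
    have h4 : (Finset.univ : Finset GolayPt).card = 24 := by decide
    omega
  obtain ⟨b, hbd⟩ : (Finset.univ \ ({pt 0, g (pt 0)} : Finset GolayPt)).Nonempty :=
    Finset.card_pos.mp (by omega)
  have hb : b ≠ pt 0 ∧ b ≠ g (pt 0) := by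
    simp only [Finset.mem_sdiff, Finset.mem_univ, Finset.mem_insert, Finset.mem_singleton,
      true_and, not_or] at hbd
    exact hbd
  have hgb := h0 b
  have hgb0 : g b ≠ pt 0 := by
    intro h
    apply hb.2
    have : g (g b) = g (pt 0) := by rw [h]
    rw [hgg] at this
    exact this
  have hgb1 : g b ≠ g (pt 0) := fun h => hb.1 (g.injective h)
  have hcard2 : 1 ≤ (Finset.univ \ ({pt 0, g (pt 0), b, g b} : Finset GolayPt)).card := by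
    have h1 := Finset.le_card_sdiff ({pt 0, g (pt 0), b, g b} : Finset GolayPt) Finset.univ
    have h3 : ({pt 0, g (pt 0), b, g b} : Finset GolayPt).card ≤ 4 :=
      Finset.card_le_four
    have h4 : (Finset.univ : Finset GolayPt).card = 24 := by decide
    omega
  obtain ⟨c, hcd⟩ : (Finset.univ \ ({pt 0, g (pt 0), b, g b} : Finset GolayPt)).Nonempty :=
    Finset.card_pos.mp (by omega)
  have hc : c ≠ pt 0 ∧ c ≠ g (pt 0) ∧ c ≠ b ∧ c ≠ g b := by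
    simp only [Finset.mem_sdiff, Finset.mem_univ, Finset.mem_insert, Finset.mem_singleton,
      true_and, not_or] at hcd
    exact hcd
  have hinj : Function.Injective ![pt 0, g (pt 0), b, g b, c] := by
    apply tuple5_inj
    · exact ha.symm
    · exact hb.1.symm
    · exact hgb0.symm
    · exact hc.1.symm
    · exact hb.2.symm
    · exact hgb1.symm
    · exact hc.2.1.symm
    · exact hgb.symm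
    · exact hc.2.2.1.symm
    · exact hc.2.2.2.symm
  obtain ⟨k, hk, hkx, hconj⟩ := normalize g ⟨_, hinj⟩
  have hk0 : k (pt 0) = pt 0 := hkx 0
  have hk1 : k (g (pt 0)) = pt 1 := hkx 1
  have hk2 : k b = pt 2 := hkx 2
  have hk3 : k (g b) = pt 3 := hkx 3
  have hk4 : k c = pt 4 := hkx 4
  have hg1 : k * g * k⁻¹ ∈ M24 :=
    Subgroup.mul_mem _ (Subgroup.mul_mem _ hk hg) (Subgroup.inv_mem _ hk)
  have e0 : (k * g * k⁻¹) (pt 0) = pt 1 := (hconj 0).trans hk1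
  have e1 : (k * g * k⁻¹) (pt 1) = pt 0 :=
    (hconj 1).trans (by show k (g (g (pt 0))) = _; rw [hgg]; exact hk0)
  have e2 : (k * g * k⁻¹) (pt 2) = pt 3 := (hconj 2).trans hk3
  have e3 : (k * g * k⁻¹) (pt 3) = pt 2 :=
    (hconj 3).trans (by show k (g (g b)) = _; rw [hgg]; exact hk2)
  have e4 : (k * g * k⁻¹) (pt 4) = k (g c) := hconj 4
  have hq : ∀ i < 5, k (g c) ≠ pt i := by
    intro i hi h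
    interval_cases i
    · rw [← hk0] at h
      have := k.injective h
      apply hc.2.1
      have h' : g (g c) = g (pt 0) := by rw [this]
      rw [hgg] at h'
      exact h'
    · rw [← hk1] at h
      exact hc.1 (g.injective (k.injective h))
    · rw [← hk2] at h
      have := k.injective h
      apply hc.2.2.2
      have h' : g (g c) = g b := by rw [this]
      rw [hgg] at h'
      exact h'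
    · rw [← hk3] at h
      exact hc.2.2.1 (g.injective (k.injective h))
    · rw [← hk4] at h
      exact h0 c (k.injective h)
  obtain ⟨κ, hκ, hκq⟩ := KK5_orbit _ hq
  have hκM : κ ∈ M24 := (mem_KK.1 hκ).1
  have hg2 : κ * (k * g * k⁻¹) * κ⁻¹ ∈ M24 :=
    Subgroup.mul_mem _ (Subgroup.mul_mem _ hκM hg1) (Subgroup.inv_mem _ hκM)
  have hval : ∀ i < 5, (κ * (k * g * k⁻¹) * κ⁻¹) (pt i) = κ ((k * g * k⁻¹) (pt i)) := by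
    intro i hi
    rw [Equiv.Perm.mul_apply, Equiv.Perm.mul_apply, (KK5_fix_inv hκ hi).2]
  have f0 : (κ * (k * g * k⁻¹) * κ⁻¹) (pt 0) = pt 1 := by
    rw [hval 0 (by norm_num), e0]; exact (KK5_fix_inv hκ (by norm_num)).1
  have f1 : (κ * (k * g * k⁻¹) * κ⁻¹) (pt 1) = pt 0 := by
    rw [hval 1 (by norm_num), e1]; exact (KK5_fix_inv hκ (by norm_num)).1
  have f2 : (κ * (k * g * k⁻¹) * κ⁻¹) (pt 2) = pt 3 := by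
    rw [hval 2 (by norm_num), e2]; exact (KK5_fix_inv hκ (by norm_num)).1
  have f3 : (κ * (k * g * k⁻¹) * κ⁻¹) (pt 3) = pt 2 := by
    rw [hval 3 (by norm_num), e3]; exact (KK5_fix_inv hκ (by norm_num)).1
  have f4 : (κ * (k * g * k⁻¹) * κ⁻¹) (pt 4) = κ (k (g c)) := by
    rw [hval 4 (by norm_num), e4]
  have hkk : κ * (k * g * k⁻¹) * κ⁻¹ = (κ * k) * g * (κ * k)⁻¹ := by
    rw [mul_inv_rev]
    simp only [mul_assoc]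
  rw [hkk] at hg2 f0 f1 f2 f3 f4
  have hκk : κ * k ∈ M24 := Subgroup.mul_mem _ hκM hk
  rcases hκq with h5 | h7
  · apply finB g (κ * k) hκk h2 h0 tF5 tF5_B
    apply cands _ _ tF5_ok _ hg2
    intro i hi
    interval_cases i
    · exact f0
    · exact f1
    · exact f2
    · exact f3
    · rw [f4]; exact h5
  · apply finB g (κ * k) hκk h2 h0 tF7 tF7_B
    apply cands _ _ tF7_ok _ hg2
    intro i hi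
    interval_cases i
    · exact f0
    · exact f1
    · exact f2
    · exact f3
    · rw [f4]; exact h7

theorem R8_mem : R8 ∈ M24 := mkPerm_mem _ _ _ r8_mem

theorem R0_mem : R0 ∈ M24 := mkPerm_mem _ _ _ r0_mem

theorem order_two (l : List ℕ) (h : chk l l = true) (hs : sqB l = true)
    (hne : nth l 0 ≠ 0) : orderOf (mkPerm l l h) = 2 := by
  apply orderOf_eq_prime
  · rw [pow_two]
    exact sq_of_sqB _ _ h hs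
  · intro e
    have e1 : mkPerm l l h (pt 0) = pt 0 := by rw [e]; rfl
    rw [mkPerm_pt _ _ _ 0 (by norm_num)] at e1
    exact hne (pt_inj ((chk_spec h).2 0 (by norm_num)).1 (by norm_num) e1)

theorem R8_order : orderOf R8 = 2 := order_two r8 r8_chk r8_sq (by decide)

theorem R0_order : orderOf R0 = 2 := order_two r0 r0_chk r0_sq (by decide)

theorem R0_free : ∀ p, R0 p ≠ p := noFix_spec _ _ r0_chk r0_fix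

theorem R8_oct : (Finset.univ.filter fun p => R8 p = p) ∈ octads := by
  have h := r8_oct
  simp only [Bool.and_eq_true] at h
  show (Finset.univ.filter fun p => mkPerm r8 r8 r8_chk p = p) ∈ octads
  rw [fix_eq _ _ r8_chk _ h.1]
  exact octB_spec h.2

theorem conj_of_two (g h k1 k2 r : Equiv.Perm GolayPt) (e1 : k1 * g * k1⁻¹ = r)
    (e2 : k2 * h * k2⁻¹ = r) : (k2⁻¹ * k1) * g * (k2⁻¹ * k1)⁻¹ = h := by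
  have : h = k2⁻¹ * r * k2 := by rw [← e2]; group
  rw [this, ← e1]
  group

/-- The automorphism group of the length-24 code built from the squares modulo 23 has exactly two conjugacy classes of involutions: an involution either fixes exactly the eight points of an octad or has no fixed points, both kinds occur, and any two involutions of the same kind are conjugate in the group. -/
theorem result : (∀ g ∈ Cfsg.M24, orderOf g = 2 → (Finset.univ.filter fun p => g p = p) ∈ Cfsg.octads ∨ ∀ p, g p ≠ p) ∧ (∃ g ∈ Cfsg.M24, orderOf g = 2 ∧ (Finset.univ.filter fun p => g p = p) ∈ Cfsg.octads) ∧ (∃ g ∈ Cfsg.M24, orderOf g = 2 ∧ ∀ p, g p ≠ p) ∧ ∀ g ∈ Cfsg.M24, ∀ h ∈ Cfsg.M24, orderOf g = 2 → orderOf h = 2 → ((∀ p, g p ≠ p) ↔ (∀ p, h p ≠ p)) → ∃ k ∈ Cfsg.M24, k * g * k⁻¹ = h := by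
  refine ⟨?_, ⟨R8, R8_mem, R8_order, R8_oct⟩, ⟨R0, R0_mem, R0_order, R0_free⟩, ?_⟩
  · intro g hg h2
    by_cases h : ∃ p, g p = p
    · obtain ⟨p, hp⟩ := h
      exact Or.inl (typeA g hg h2 p hp).1
    · push Not at h
      exact Or.inr h
  · intro g hg h hh og oh hiff
    by_cases hfix : ∀ p, g p ≠ p
    · obtain ⟨k1, hk1, e1⟩ := typeB g hg og hfix
      obtain ⟨k2, hk2, e2⟩ := typeB h hh oh (hiff.1 hfix)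
      exact ⟨k2⁻¹ * k1, Subgroup.mul_mem _ (Subgroup.inv_mem _ hk2) hk1, conj_of_two g h k1 k2 R0 e1 e2⟩
    · have hfix' : ¬ ∀ p, h p ≠ p := fun hh' => hfix (hiff.2 hh')
      push Not at hfix hfix'
      obtain ⟨p, hp⟩ := hfix
      obtain ⟨p', hp'⟩ := hfix'
      obtain ⟨k1, hk1, e1⟩ := (typeA g hg og p hp).2
      obtain ⟨k2, hk2, e2⟩ := (typeA h hh oh p' hp').2
      exact ⟨k2⁻¹ * k1, Subgroup.mul_mem _ (Subgroup.inv_mem _ hk2) hk1, conj_of_two g h k1 k2 R8 e1 e2⟩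
end Cfsg.Agent.S5394
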