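import Cfsg.Statements.S5420
import Cfsg.Agent.Lib.Helper28.PCore

set_option autoImplicit false
open Cfsg

namespace Cfsg.Agent.S5420

/-- Let Q be an extraspecial 2-subgroup of the finite group G whose centralizer in G is its centre Z and which is normal in the centralizer of Z. If Z lies in the largest normal 2-subgroup of G, then Q is a large extraspecial 2-subgroup of G: it normalizes no non-trivial subgroup of G of odd order. -/
theorem result {G : Type*} [Group G] [Finite G] (Q : Subgroup G) (hL1 : Cfsg.IsExtraspecial 2 ↥Q) (hL2 : Subgroup.centralizer (Q : Set G) = ((Subgroup.center ↥Q).map Q.subtype)) (hL3 : Subgroup.centralizer (((Subgroup.center ↥Q).map Q.subtype) : Set G) ≤ Subgroup.normalizer (Q : Set G)) (hZ : ((Subgroup.center ↥Q).map Q.subtype) ≤ Cfsg.pCore 2 G) : Cfsg.IsLargeExtraspecial Q := by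
  classical
  refine ⟨hL1, hL2, hL3, ?_⟩
  intro K hKodd hQK
  haveI : Fact (Nat.Prime 2) := ⟨Nat.prime_two⟩
  -- an element of K of 2-power order is trivial
  have key : ∀ x ∈ K, (∃ n : ℕ, x ^ (2 ^ n) = 1) → x = 1 := by
    intro x hx ⟨n, hn⟩
    have h1 : orderOf x ∣ Nat.card K := by
      have := orderOf_dvd_natCard (⟨x, hx⟩ : K)
      rwa [Subgroup.orderOf_mk] at this
    have h2 : orderOf x ∣ 2 ^ n := orderOf_dvd_of_pow_eq_one hn
    have h3 : Nat.Coprime (Nat.card K) (2 ^ n) := by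
      apply Nat.Coprime.pow_right
      exact (Nat.coprime_two_right).mpr hKodd
    have h4 : orderOf x ∣ 1 := by
      have := Nat.dvd_gcd h1 h2
      rwa [h3] at this
    exact orderOf_eq_one_iff.mp (Nat.dvd_one.mp h4)
  have hcore : IsPGroup 2 (pCore 2 G) := Cfsg.Agent.Lib.Helper28.pCore_isPGroup
  have hcoren : (pCore 2 G).Normal := Cfsg.Agent.Lib.Helper28.pCore_normal
  have hQp : IsPGroup 2 Q := hL1.1.1
  -- Step 1: K centralizes Z
  have hZQ : (Subgroup.center ↥Q).map Q.subtype ≤ Q := by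
    rintro _ ⟨y, _, rfl⟩
    exact y.2
  have step1 : K ≤ Subgroup.centralizer (((Subgroup.center ↥Q).map Q.subtype : Subgroup G) : Set G) := by
    intro k hk
    rw [Subgroup.mem_centralizer_iff]
    intro z hz
    have hzQ : z ∈ Q := hZQ hz
    have hzN := hQK hzQ
    have h1 : z * k⁻¹ * z⁻¹ ∈ K := (Subgroup.mem_normalizer_iff.mp hzN k⁻¹).1 (K.inv_mem hk)
    have h2 : k * (z * k⁻¹ * z⁻¹) ∈ K := K.mul_mem hk h1
    have hzc : z ∈ pCore 2 G := hZ hz
    have h3 : k * z * k⁻¹ * z⁻¹ ∈ pCore 2 G :=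
      (pCore 2 G).mul_mem (hcoren.conj_mem z hzc k) ((pCore 2 G).inv_mem hzc)
    have h4 : k * (z * k⁻¹ * z⁻¹) = k * z * k⁻¹ * z⁻¹ := by group
    rw [h4] at h2
    obtain ⟨n, hn⟩ := hcore ⟨_, h3⟩
    have hn' : (k * z * k⁻¹ * z⁻¹) ^ (2 ^ n) = 1 := by
      have := congrArg Subtype.val hn
      simpa using this
    have h5 := key _ h2 ⟨n, hn'⟩
    calc z * k = (k * z * k⁻¹ * z⁻¹)⁻¹ * (k * z) := by group
      _ = k * z := by rw [h5]; group
  -- Step 2: K centralizes Q
  have step2 : K ≤ Subgroup.centralizer (Q : Set G) := by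
    intro k hk
    rw [Subgroup.mem_centralizer_iff]
    intro q hq
    have hkN : k ∈ Subgroup.normalizer (Q : Set G) := hL3 (step1 hk)
    have h1 : k * q * k⁻¹ ∈ Q := (Subgroup.mem_normalizer_iff.mp hkN q).1 hq
    have h2 : k * q * k⁻¹ * q⁻¹ ∈ Q := Q.mul_mem h1 (Q.inv_mem hq)
    have hqN := hQK hq
    have h3 : q * k⁻¹ * q⁻¹ ∈ K := (Subgroup.mem_normalizer_iff.mp hqN k⁻¹).1 (K.inv_mem hk)
    have h4 : k * (q * k⁻¹ * q⁻¹) ∈ K := K.mul_mem hk h3
    have h5 : k * (q * k⁻¹ * q⁻¹) = k * q * k⁻¹ * q⁻¹ := by group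
    rw [h5] at h4
    obtain ⟨n, hn⟩ := hQp ⟨_, h2⟩
    have hn' : (k * q * k⁻¹ * q⁻¹) ^ (2 ^ n) = 1 := by
      have := congrArg Subtype.val hn
      simpa using this
    have h6 := key _ h4 ⟨n, hn'⟩
    calc q * k = (k * q * k⁻¹ * q⁻¹)⁻¹ * (k * q) := by group
      _ = k * q := by rw [h6]; group
  -- Step 3
  rw [eq_bot_iff]
  intro k hk
  have hkQ : k ∈ Q := by
    have := step2 hk
    rw [hL2] at this
    exact hZQ this
  obtain ⟨n, hn⟩ := hQp ⟨k, hkQ⟩
  have hn' : k ^ (2 ^ n) = 1 := by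
    have := congrArg Subtype.val hn
    simpa using this
  exact key k hk ⟨n, hn'⟩
end Cfsg.Agent.S5420
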