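import Cfsg.Statements.S5422
import Cfsg.Agent.Lib.Helper28.LargeES3
import Cfsg.Agent.Lib.Helper28.FourGroup
import Cfsg.Agent.S5421

set_option autoImplicit false
open Cfsg

namespace Cfsg.Agent.S5422

theorem mem_map_conj {G : Type*} [Group G] (Q : Subgroup G) (g x : G) :
    x ∈ Q.map (MulAut.conj g).toMonoidHom ↔ g⁻¹ * x * g ∈ Q := by
  constructor
  · rintro ⟨y, hy, rfl⟩
    have e : g⁻¹ * ((MulAut.conj g).toMonoidHom y) * g = y := by
      show g⁻¹ * (MulAut.conj g y) * g = y
      rw [MulAut.conj_apply]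
      group
    rw [e]
    exact hy
  · intro h
    refine ⟨g⁻¹ * x * g, h, ?_⟩
    show MulAut.conj g (g⁻¹ * x * g) = x
    rw [MulAut.conj_apply]
    group

/-- Let Q be an extraspecial 2-subgroup of the finite group G whose centralizer in G is its centre Z and which is normal in the centralizer of Z; suppose Q has width at least 2 (order 2^(2w+1) with w ≥ 2) and g is an element of G not normalizing Z with g Z g⁻¹ inside Q. Then Z lies inside g Q g⁻¹; writing V for the subgroup generated by Z and g Z g⁻¹ (a four-group), the normalizer of V induces on V its full automorphism group, that is, the centralizer of V has index 6 in the normalizer of V; and Q is a large extraspecial 2-subgroup of G. -/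
theorem result {G : Type*} [Group G] [Finite G] (Q : Subgroup G) (hL1 : Cfsg.IsExtraspecial 2 ↥Q) (hL2 : Subgroup.centralizer (Q : Set G) = ((Subgroup.center ↥Q).map Q.subtype)) (hL3 : Subgroup.centralizer (((Subgroup.center ↥Q).map Q.subtype) : Set G) ≤ Subgroup.normalizer (Q : Set G)) (w : ℕ) (hw : 2 ≤ w) (hcard : Nat.card ↥Q = 2 ^ (2 * w + 1)) (g : G) (hg : g ∉ Subgroup.normalizer (((Subgroup.center ↥Q).map Q.subtype) : Set G)) (hZg : (((Subgroup.center ↥Q).map Q.subtype)).map (MulAut.conj g).toMonoidHom ≤ Q) : ((Subgroup.center ↥Q).map Q.subtype) ≤ (Q).map (MulAut.conj g).toMonoidHom ∧ (Subgroup.centralizer ((((Subgroup.center ↥Q).map Q.subtype) ⊔ (((Subgroup.center ↥Q).map Q.subtype)).map (MulAut.conj g).toMonoidHom : Subgroup G) : Set G)).relIndex (Subgroup.normalizer ((((Subgroup.center ↥Q).map Q.subtype) ⊔ (((Subgroup.center ↥Q).map Q.subtype)).map (MulAut.conj g).toMonoidHom : Subgroup G) : Set G)) = 6 ∧ Cfsg.IsLargeExtraspecial Q := by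
  classical
  haveI : Fact (Nat.Prime 2) := ⟨Nat.prime_two⟩
  obtain ⟨z, hzZ, hz1, hzQ, hzz, hzc, hall⟩ := Cfsg.Agent.Lib.Helper28.extraspecial_center Q hL1
  have hL2' := hL2
  have hL3' := hL3
  have hall' := hall
  obtain ⟨Z, hZdef⟩ : ∃ Z : Subgroup G, Z = (Subgroup.center ↥Q).map Q.subtype := ⟨_, rfl⟩
  rw [← hZdef] at hL2 hL3 hg hZg hzZ hall ⊢
  have hZmem : ∀ x, x ∈ Z ↔ x = 1 ∨ x = z := by
    intro x
    constructor
    · exact hall x
    · rintro (h | h)
      · rw [h]; exact Z.one_mem
      · rw [h]; exact hzZ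
  have hZQ : Z ≤ Q := by
    intro x hx
    rcases (hZmem x).mp hx with h | h
    · rw [h]; exact Q.one_mem
    · rw [h]; exact hzQ
  obtain ⟨u, hudef⟩ : ∃ u, u = g * z * g⁻¹ := ⟨_, rfl⟩
  have huQ : u ∈ Q := by
    apply hZg
    rw [mem_map_conj, hudef]
    have e : g⁻¹ * (g * z * g⁻¹) * g = z := by group
    rw [e]
    exact hzZ
  have hu1 : u ≠ 1 := by
    intro h
    apply hz1
    rw [hudef] at h
    calc z = g⁻¹ * (g * z * g⁻¹) * g := by group
      _ = 1 := by rw [h]; group
  have huu : u * u = 1 := by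
    rw [hudef]
    calc g * z * g⁻¹ * (g * z * g⁻¹) = g * (z * z) * g⁻¹ := by group
      _ = 1 := by rw [hzz]; group
  have huz : u ≠ z := by
    intro h
    apply hg
    rw [Subgroup.mem_normalizer_iff]
    intro x
    rw [hZmem, hZmem]
    constructor
    · rintro (e | e)
      · left
        rw [e]
        group
      · right
        rw [e, ← hudef, h]
    · rintro (e | e)
      · left
        calc x = g⁻¹ * (g * x * g⁻¹) * g := by group
          _ = 1 := by rw [e]; group
      · right
        calc x = g⁻¹ * (g * x * g⁻¹) * g := by group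
          _ = g⁻¹ * u * g := by rw [e, h]
          _ = z := by rw [hudef]; group
  have hzu : z ≠ u := fun h => huz h.symm
  have hc : u * z = z * u := (hzc u huQ).symm
  have hC : ∀ d : G, (∀ x ∈ Q, d * x = x * d) → d ∈ Q := by
    intro d hd
    apply hZQ
    rw [← hL2, Subgroup.mem_centralizer_iff]
    intro x hx
    exact (hd x hx).symm
  have hN : ∀ m : G, m * z = z * m → ∀ x ∈ Q, m * x * m⁻¹ ∈ Q := by
    intro m hm x hx
    have hmC : m ∈ Subgroup.centralizer (Z : Set G) := by
      rw [Subgroup.mem_centralizer_iff]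
      intro y hy
      rcases (hZmem y).mp hy with h | h
      · rw [h, one_mul, mul_one]
      · rw [h]
        exact hm.symm
    have := hL3 hmC
    rw [Subgroup.mem_normalizer_iff] at this
    exact (this x).mp hx
  have hsymm : g⁻¹ * z * g ∈ Q := by
    apply Cfsg.Agent.Lib.Helper28.es_symm Q hL1 z hzQ hz1 hzz hzc hall' hC hN g
    · rw [← hudef]
      exact huQ
    · rw [← hudef]
      exact huz
  have hA : Z ≤ Q.map (MulAut.conj g).toMonoidHom := by
    intro x hx
    rcases (hZmem x).mp hx with h | h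
    · rw [h]
      exact Subgroup.one_mem _
    · rw [h, mem_map_conj]
      exact hsymm
  have huZ : u ∉ Z := by
    intro h
    rcases (hZmem u).mp h with h | h
    · exact hu1 h
    · exact huz h
  have hu2 : orderOf u = 2 := by
    apply orderOf_eq_prime
    · rw [pow_two]
      exact huu
    · exact hu1
  refine ⟨hA, ?_, ?_⟩
  · -- the four-group
    have hB : ∀ x, x ∈ Z.map (MulAut.conj g).toMonoidHom ↔ x = 1 ∨ x = u := by
      intro x
      rw [mem_map_conj, hZmem]
      constructor
      · rintro (e | e)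
        · left
          calc x = g * (g⁻¹ * x * g) * g⁻¹ := by group
            _ = 1 := by rw [e]; group
        · right
          calc x = g * (g⁻¹ * x * g) * g⁻¹ := by group
            _ = u := by rw [e, hudef]
      · rintro (e | e)
        · left
          rw [e]
          group
        · right
          rw [e, hudef]
          group
    have hV := Cfsg.Agent.Lib.Helper28.four_sup_mem Z (Z.map (MulAut.conj g).toMonoidHom) z u
      hZmem hB hzz huu hc
    obtain ⟨q, hqQ, hq⟩ := Cfsg.Agent.Lib.Helper28.extraspecial_conj Q hL1 hall' huQ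
      (by rw [← hZdef]; exact huZ)
    have hqz : ∀ q ∈ Q, q * z * q⁻¹ = z := by
      intro q hq
      calc q * z * q⁻¹ = (z * q) * q⁻¹ := by rw [hzc q hq]
        _ = z := by group
    obtain ⟨b, hbdef⟩ : ∃ b, b = g⁻¹ * z * g := ⟨_, rfl⟩
    have hbQ : b ∈ Q := by
      rw [hbdef]
      exact hsymm
    have hbZ : b ∉ Z := by
      intro h
      rcases (hZmem b).mp h with h | h
      · apply hz1
        rw [hbdef] at h
        calc z = g * (g⁻¹ * z * g) * g⁻¹ := by group
          _ = 1 := by rw [h]; group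
      · apply huz
        rw [hbdef] at h
        calc u = g * z * g⁻¹ := hudef
          _ = g * (g⁻¹ * z * g) * g⁻¹ := by rw [h]
          _ = z := by group
    obtain ⟨q₀, hq₀Q, hq₀⟩ := Cfsg.Agent.Lib.Helper28.extraspecial_conj Q hL1 hall' hbQ
      (by rw [← hZdef]; exact hbZ)
    apply Cfsg.Agent.Lib.Helper28.four_relIndex _ z u q (g * q₀ * g⁻¹) hV hz1 hu1 hzu hzz huu
      (hqz q hqQ) hq
    · calc g * q₀ * g⁻¹ * u * (g * q₀ * g⁻¹)⁻¹ = g * (q₀ * (g⁻¹ * u * g) * q₀⁻¹) * g⁻¹ := by group
        _ = g * (q₀ * z * q₀⁻¹) * g⁻¹ := by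
            have e : g⁻¹ * u * g = z := by rw [hudef]; group
            rw [e]
        _ = g * z * g⁻¹ := by rw [hqz q₀ hq₀Q]
        _ = u := hudef.symm
    · calc g * q₀ * g⁻¹ * z * (g * q₀ * g⁻¹)⁻¹ = g * (q₀ * (g⁻¹ * z * g) * q₀⁻¹) * g⁻¹ := by group
        _ = g * (q₀ * b * q₀⁻¹) * g⁻¹ := by rw [hbdef]
        _ = g * (z * b) * g⁻¹ := by rw [hq₀]
        _ = (g * z * g⁻¹) * z := by rw [hbdef]; group
        _ = z * u := by rw [← hudef, hc]
  · -- largeness
    apply Cfsg.Agent.S5421.result Q hL1 hL2' hL3' u huQ (by rw [← hZdef]; exact huZ) hu2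
    rw [← hZdef]
    refine le_trans hA ?_
    apply Cfsg.Agent.Lib.Helper28.le_pCore_map_of_normal
    · intro x hx
      rw [mem_map_conj] at hx
      rw [Subgroup.mem_centralizer_iff]
      intro y hy
      rw [Set.mem_singleton_iff] at hy
      rw [hy, hudef]
      have e := hzc _ hx
      calc g * z * g⁻¹ * x = g * (z * (g⁻¹ * x * g)) * g⁻¹ := by group
        _ = g * ((g⁻¹ * x * g) * z) * g⁻¹ := by rw [e]
        _ = x * (g * z * g⁻¹) := by group
    · have hQ2 : IsPGroup 2 ↥Q := IsPGroup.of_card hcard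
      exact hQ2.map _
    · intro c hc' x hx
      rw [mem_map_conj] at hx ⊢
      rw [Subgroup.mem_centralizer_iff] at hc'
      have e1 := hc' u (Set.mem_singleton u)
      have hm : (g⁻¹ * c * g) * z = z * (g⁻¹ * c * g) := by
        calc (g⁻¹ * c * g) * z = g⁻¹ * (c * u) * g := by rw [hudef]; group
          _ = g⁻¹ * (u * c) * g := by rw [e1]
          _ = z * (g⁻¹ * c * g) := by rw [hudef]; group
      have := hN _ hm _ hx
      have e2 : g⁻¹ * (c * x * c⁻¹) * g = g⁻¹ * c * g * (g⁻¹ * x * g) * (g⁻¹ * c * g)⁻¹ := by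
        group
      rw [e2]
      exact this
end Cfsg.Agent.S5422
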