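import Cfsg.Statements.S5427
import Cfsg.Agent.S5421
import Cfsg.Agent.S5422
import Cfsg.Agent.S1265
import Cfsg.Agent.Lib.Helper11.Components
import Cfsg.Agent.Lib.Helper28.Extra

set_option autoImplicit false
open Cfsg

namespace Cfsg.Agent.S5427

open scoped commutatorElement

theorem core {G : Type*} [Group G] [Finite G] (z : G) (hz : orderOf z = 2) (Q : Subgroup G)
    (hQC : Q ≤ Subgroup.centralizer ({z} : Set G))
    (hF : (Cfsg.generalizedFittingSubgroup ↥(Subgroup.centralizer ({z} : Set G))).map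
      (Subgroup.centralizer ({z} : Set G)).subtype = Q)
    (hQ : Cfsg.IsExtraspecial 2 ↥Q) :
    z ∈ Q ∧ z ≠ 1 ∧ z * z = 1 ∧
    (∀ y, y ∈ (Subgroup.center ↥Q).map Q.subtype ↔ y = 1 ∨ y = z) ∧
    Subgroup.centralizer (Q : Set G) = (Subgroup.center ↥Q).map Q.subtype ∧
    Subgroup.centralizer (((Subgroup.center ↥Q).map Q.subtype : Subgroup G) : Set G)
      ≤ Subgroup.normalizer (Q : Set G) ∧
    (∀ N : Subgroup G, N.Normal → (N ⊓ Subgroup.centralizer ({z} : Set G) = ⊥ ∨ z ∈ N)) ∧
    (∀ N : Subgroup G, N.Normal → N ⊓ Subgroup.centralizer ({z} : Set G) = ⊥ →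
      Odd (Nat.card ↥N)) ∧
    (∀ N : Subgroup G, N.Normal → Subgroup.centralizer ({z} : Set G) ≤ N → N = ⊤) := by
  classical
  have : Fact (Nat.Prime 2) := ⟨Nat.prime_two⟩
  have hz1 : z ≠ 1 := by
    intro h
    rw [h, orderOf_one] at hz
    omega
  have hzz : z * z = 1 := Cfsg.Agent.Lib.Helper28.mul_self_of_orderOf_two hz
  have hzinv : z⁻¹ = z := Cfsg.Agent.Lib.Helper28.inv_eq_self_of_orderOf_two hz
  have hCmem : ∀ g : G, g ∈ Subgroup.centralizer ({z} : Set G) ↔ z * g = g * z := by
    intro g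
    rw [Subgroup.mem_centralizer_iff]
    constructor
    · intro h
      exact h z rfl
    · intro h x hx
      rw [Set.mem_singleton_iff] at hx
      rw [hx]
      exact h
  have hFmem : ∀ x : ↥(Subgroup.centralizer ({z} : Set G)),
      x ∈ Cfsg.generalizedFittingSubgroup ↥(Subgroup.centralizer ({z} : Set G)) ↔ (x : G) ∈ Q := by
    intro x
    rw [← hF]
    constructor
    · intro h
      exact ⟨x, h, rfl⟩
    · rintro ⟨y, hy, hyx⟩
      have : y = x := Subtype.ext hyx
      rw [← this]
      exact hy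
  -- elements centralizing Q lie in Q
  have hcq : ∀ g : G, (∀ q ∈ Q, q * g = g * q) → g ∈ Subgroup.centralizer ({z} : Set G) → g ∈ Q := by
    intro g hg hgC
    have h1 : (⟨g, hgC⟩ : ↥(Subgroup.centralizer ({z} : Set G))) ∈
        Subgroup.centralizer
          (Cfsg.generalizedFittingSubgroup ↥(Subgroup.centralizer ({z} : Set G)) : Set _) := by
      rw [Subgroup.mem_centralizer_iff]
      intro x hx
      apply Subtype.ext
      exact hg _ ((hFmem x).mp hx)
    exact (hFmem _).mp (Cfsg.Agent.S1265.result h1)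
  have hzC : z ∈ Subgroup.centralizer ({z} : Set G) := (hCmem z).mpr rfl
  have hzQ : z ∈ Q := by
    apply hcq z _ hzC
    intro q hq
    exact ((hCmem q).mp (hQC hq)).symm
  obtain ⟨z', hz'Z, hz'1, hz'Q, hz'z', hz'c, hz'all⟩ :=
    Cfsg.Agent.Lib.Helper28.extraspecial_center Q hQ
  have hzZ : z ∈ (Subgroup.center ↥Q).map Q.subtype := by
    refine ⟨⟨z, hzQ⟩, Subgroup.mem_center_iff.mpr ?_, rfl⟩
    intro q
    apply Subtype.ext
    exact ((hCmem q).mp (hQC q.2)).symm
  have hzz' : z' = z := by
    rcases hz'all z hzZ with h | h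
    · exact absurd h hz1
    · exact h.symm
  rw [hzz'] at hz'all hz'Z
  have hZiff : ∀ y, y ∈ (Subgroup.center ↥Q).map Q.subtype ↔ y = 1 ∨ y = z := by
    intro y
    constructor
    · exact hz'all y
    · rintro (h | h)
      · rw [h]; exact Subgroup.one_mem _
      · rw [h]; exact hzZ
  have hL2 : Subgroup.centralizer (Q : Set G) = (Subgroup.center ↥Q).map Q.subtype := by
    ext g
    constructor
    · intro hg
      rw [Subgroup.mem_centralizer_iff] at hg
      have hgC : g ∈ Subgroup.centralizer ({z} : Set G) := (hCmem g).mpr (hg z hzQ)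
      have hgQ : g ∈ Q := hcq g (fun q hq => hg q hq) hgC
      refine ⟨⟨g, hgQ⟩, Subgroup.mem_center_iff.mpr ?_, rfl⟩
      intro q
      apply Subtype.ext
      exact hg q q.2
    · rintro ⟨y, hy, rfl⟩
      rw [Subgroup.mem_centralizer_iff]
      intro q hq
      have hy' := Subgroup.mem_center_iff.mp hy
      have := congrArg Subtype.val (hy' ⟨q, hq⟩)
      simpa using this
  -- C normalizes Q
  have hconj : ∀ c ∈ Subgroup.centralizer ({z} : Set G), ∀ q ∈ Q, c * q * c⁻¹ ∈ Q := by
    intro c hc q hq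
    have hn := Cfsg.Agent.Lib.Helper11.genFitting_normal
      (G := ↥(Subgroup.centralizer ({z} : Set G)))
    have hqC : q ∈ Subgroup.centralizer ({z} : Set G) := hQC hq
    have h1 := hn.conj_mem ⟨q, hqC⟩ ((hFmem _).mpr hq) ⟨c, hc⟩
    exact (hFmem _).mp h1
  have hL3 : Subgroup.centralizer (((Subgroup.center ↥Q).map Q.subtype : Subgroup G) : Set G)
      ≤ Subgroup.normalizer (Q : Set G) := by
    intro g hg
    rw [Subgroup.mem_centralizer_iff] at hg
    have hgC : g ∈ Subgroup.centralizer ({z} : Set G) := (hCmem g).mpr (hg z hzZ)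
    rw [Subgroup.mem_normalizer_iff]
    intro h
    constructor
    · intro hh
      exact hconj g hgC h hh
    · intro hh
      have := hconj g⁻¹ (Subgroup.inv_mem _ hgC) _ hh
      have e : g⁻¹ * (g * h * g⁻¹) * g⁻¹⁻¹ = h := by group
      rwa [e] at this
  -- elements of C centralizing Q are 1 or z
  have hcq2 : ∀ g : G, (∀ q ∈ Q, q * g = g * q) → g = 1 ∨ g = z := by
    intro g hg
    have : g ∈ Subgroup.centralizer (Q : Set G) := by
      rw [Subgroup.mem_centralizer_iff]
      exact hg
    rw [hL2] at this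
    exact (hZiff g).mp this
  -- commutators in Q are 1 or z
  have hcomm : ∀ a ∈ Q, ∀ b ∈ Q, a * b * a⁻¹ * b⁻¹ = 1 ∨ a * b * a⁻¹ * b⁻¹ = z := by
    intro a ha b hb
    have h1 : ⁅(⟨a, ha⟩ : ↥Q), (⟨b, hb⟩ : ↥Q)⁆ ∈ commutator ↥Q := by
      rw [commutator_def]
      exact Subgroup.commutator_mem_commutator (Subgroup.mem_top _) (Subgroup.mem_top _)
    rw [hQ.1.2.2] at h1
    have h2 : ((⁅(⟨a, ha⟩ : ↥Q), (⟨b, hb⟩ : ↥Q)⁆ : ↥Q) : G) ∈ (Subgroup.center ↥Q).map Q.subtype :=
      ⟨_, h1, rfl⟩
    have h3 := (hZiff _).mp h2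
    have e : ((⁅(⟨a, ha⟩ : ↥Q), (⟨b, hb⟩ : ↥Q)⁆ : ↥Q) : G) = a * b * a⁻¹ * b⁻¹ := by
      rw [commutatorElement_def]
      simp
    rwa [e] at h3
  have hN4 : ∀ N : Subgroup G, N.Normal →
      (N ⊓ Subgroup.centralizer ({z} : Set G) = ⊥ ∨ z ∈ N) := by
    intro N hN
    by_cases hzN : z ∈ N
    · exact Or.inr hzN
    left
    have hNQ : ∀ x ∈ N, x ∈ Q → x = 1 := by
      intro x hxN hxQ
      have hx : ∀ q ∈ Q, q * x = x * q := by
        intro q hq
        have h1 : x * q * x⁻¹ * q⁻¹ ∈ N := by
          have h2 : q * x⁻¹ * q⁻¹ ∈ N := hN.conj_mem _ (N.inv_mem hxN) q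
          have e : x * q * x⁻¹ * q⁻¹ = x * (q * x⁻¹ * q⁻¹) := by group
          rw [e]
          exact N.mul_mem hxN h2
        rcases hcomm x hxQ q hq with h | h
        · calc q * x = (x * q * x⁻¹ * q⁻¹)⁻¹ * (x * q) := by group
            _ = x * q := by rw [h]; group
        · rw [h] at h1
          exact absurd h1 hzN
      rcases hcq2 x hx with h | h
      · exact h
      · rw [h] at hxN
        exact absurd hxN hzN
    rw [Subgroup.eq_bot_iff_forall]
    intro x hx
    obtain ⟨hxN, hxC⟩ := Subgroup.mem_inf.mp hx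
    have hx2 : ∀ q ∈ Q, q * x = x * q := by
      intro q hq
      have h1 : x * q * x⁻¹ * q⁻¹ ∈ N := by
        have h2 : q * x⁻¹ * q⁻¹ ∈ N := hN.conj_mem _ (N.inv_mem hxN) q
        have e : x * q * x⁻¹ * q⁻¹ = x * (q * x⁻¹ * q⁻¹) := by group
        rw [e]
        exact N.mul_mem hxN h2
      have h3 : x * q * x⁻¹ * q⁻¹ ∈ Q := Q.mul_mem (hconj x hxC q hq) (Q.inv_mem hq)
      have h4 := hNQ _ h1 h3
      calc q * x = (x * q * x⁻¹ * q⁻¹)⁻¹ * (x * q) := by group
        _ = x * q := by rw [h4]; group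
    rcases hcq2 x hx2 with h | h
    · exact h
    · rw [h] at hxN
      exact absurd hxN hzN
  have hN5 : ∀ N : Subgroup G, N.Normal → N ⊓ Subgroup.centralizer ({z} : Set G) = ⊥ →
      Odd (Nat.card ↥N) := by
    intro N hN hNC
    have hfix : ∀ k ∈ N, z * k * z⁻¹ = k → k = 1 := by
      intro k hk hkz
      have hkC : k ∈ Subgroup.centralizer ({z} : Set G) := by
        rw [hCmem]
        calc z * k = z * k * z⁻¹ * z := by group
          _ = k * z := by rw [hkz]
      have : k ∈ N ⊓ Subgroup.centralizer ({z} : Set G) := Subgroup.mem_inf.mpr ⟨hk, hkC⟩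
      rw [hNC] at this
      exact Subgroup.mem_bot.mp this
    have hinv := Cfsg.Agent.Lib.Helper28.inv_of_fpf N z hzz (fun k hk => hN.conj_mem k hk z) hfix
    rw [← Nat.not_even_iff_odd]
    intro heven
    obtain ⟨t, ht⟩ := exists_prime_orderOf_dvd_card' (G := ↥N) 2 (even_iff_two_dvd.mp heven)
    have htt : t * t = 1 := Cfsg.Agent.Lib.Helper28.mul_self_of_orderOf_two ht
    have htinv : t⁻¹ = t := Cfsg.Agent.Lib.Helper28.inv_eq_self_of_orderOf_two ht
    have h1 := hinv (t : G) t.2
    have h2 : ((t : G))⁻¹ = (t : G) := by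
      have := congrArg Subtype.val htinv
      simpa using this
    rw [h2] at h1
    have h3 := hfix (t : G) t.2 h1
    have h4 : t = 1 := Subtype.ext h3
    rw [h4, orderOf_one] at ht
    omega
  have hN6 : ∀ N : Subgroup G, N.Normal → Subgroup.centralizer ({z} : Set G) ≤ N → N = ⊤ := by
    intro N hN hCN
    obtain ⟨S, hQS⟩ := IsPGroup.exists_le_sylow (hQ.1.1 : IsPGroup 2 ↥Q)
    have hzS : z ∈ (S : Subgroup G) := hQS hzQ
    have : Nontrivial ↥(S : Subgroup G) := ⟨⟨⟨z, hzS⟩, 1, fun h => hz1 (congrArg Subtype.val h)⟩⟩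
    have := IsPGroup.center_nontrivial (S.isPGroup')
    obtain ⟨c, hc⟩ := exists_ne (1 : ↥(Subgroup.center ↥(S : Subgroup G)))
    have hcS : ∀ s ∈ (S : Subgroup G), s * ((c : ↥(S : Subgroup G)) : G) = ((c : ↥(S : Subgroup G)) : G) * s := by
      intro s hs
      have h1 := c.2
      rw [Subgroup.mem_center_iff] at h1
      have := congrArg Subtype.val (h1 ⟨s, hs⟩)
      simpa using this
    have hcz : ((c : ↥(S : Subgroup G)) : G) = z := by
      rcases hcq2 _ (fun q hq => hcS q (hQS hq)) with h | h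
      · exfalso
        apply hc
        apply Subtype.ext
        apply Subtype.ext
        simpa using h
      · exact h
    rw [hcz] at hcS
    have hSC : (S : Subgroup G) ≤ Subgroup.centralizer ({z} : Set G) := by
      intro s hs
      rw [hCmem]
      exact (hcS s hs).symm
    have hNS : Subgroup.normalizer ((S : Subgroup G) : Set G) ≤ Subgroup.centralizer ({z} : Set G) := by
      intro g hg
      rw [Subgroup.mem_normalizer_iff] at hg
      have h1 : ∀ q ∈ Q, q * (g * z * g⁻¹) = (g * z * g⁻¹) * q := by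
        intro q hq
        have h2 : g⁻¹ * q * g ∈ (S : Subgroup G) := by
          rw [hg]
          have e : g * (g⁻¹ * q * g) * g⁻¹ = q := by group
          rw [e]
          exact hQS hq
        have h3 := hcS _ h2
        calc q * (g * z * g⁻¹) = g * ((g⁻¹ * q * g) * z) * g⁻¹ := by group
          _ = g * (z * (g⁻¹ * q * g)) * g⁻¹ := by rw [h3]
          _ = (g * z * g⁻¹) * q := by group
      rcases hcq2 _ h1 with h | h
      · exfalso
        apply hz1
        calc z = g⁻¹ * (g * z * g⁻¹) * g := by group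
          _ = 1 := by rw [h]; group
      · rw [hCmem]
        calc z * g = (g * z * g⁻¹) * g := by rw [h]
          _ = g * z := by group
    have := hN
    have hfr := Sylow.normalizer_sup_eq_top' S (le_trans hSC hCN)
    rw [← hfr]
    exact (sup_eq_right.mpr (le_trans hNS hCN)).symm
  exact ⟨hzQ, hz1, hzz, hZiff, hL2, hL3, hN4, hN5, hN6⟩

/-- Let z be an involution of the finite group G whose centralizer C has generalized Fitting subgroup Q, an extraspecial 2-group of width at least 2 (order 2^(2w+1), w ≥ 2). Let K be a subgroup of G such that the subgroup U generated by the K-conjugates of z is abelian and C is generated by the C-conjugates of U. Suppose that either some K-conjugate of z other than z lies in Q, or some element u of U ∩ Q outside the subgroup generated by z has z in the largest normal 2-subgroup of its centralizer. Then G is simple and Q is a large extraspecial 2-subgroup of G. -/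
theorem result {G : Type*} [Group G] [Finite G] (z : G) (hz : orderOf z = 2) (Q : Subgroup G) (hQC : Q ≤ Subgroup.centralizer ({z} : Set G)) (hF : (Cfsg.generalizedFittingSubgroup ↥(Subgroup.centralizer ({z} : Set G))).map (Subgroup.centralizer ({z} : Set G)).subtype = Q) (hQ : Cfsg.IsExtraspecial 2 ↥Q) (w : ℕ) (hw : 2 ≤ w) (hcard : Nat.card ↥Q = 2 ^ (2 * w + 1)) (K U : Subgroup G) (hU : U = Subgroup.closure {x : G | ∃ k ∈ K, x = k * z * k⁻¹}) (hUab : IsMulCommutative ↥U) (hgen : Subgroup.closure {x : G | ∃ c ∈ Subgroup.centralizer ({z} : Set G), ∃ u ∈ U, x = c * u * c⁻¹} = Subgroup.centralizer ({z} : Set G)) (h3 : (∃ k ∈ K, k * z * k⁻¹ ∈ Q ∧ k * z * k⁻¹ ≠ z) ∨ ∃ u ∈ U ⊓ Q, u ∉ Subgroup.zpowers z ∧ (∃ hz' : z ∈ Subgroup.centralizer ({u} : Set G), (⟨z, hz'⟩ : ↥(Subgroup.centralizer ({u} : Set G))) ∈ Cfsg.pCore 2 ↥(Subgroup.centralizer ({u} : Set G)))) : IsSimpleGroup G ∧ Cfsg.IsLargeExtraspecial Q := by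
  classical
  obtain ⟨hzQ, hz1, hzz, hZiff, hL2, hL3, hN4, hN5, hN6⟩ := core z hz Q hQC hF hQ
  have hlarge : Cfsg.IsLargeExtraspecial Q := by
    rcases h3 with ⟨k, hkK, hkQ, hkz⟩ | ⟨u, hu, huz, hz', hzp⟩
    · have hg : k ∉ Subgroup.normalizer (((Subgroup.center ↥Q).map Q.subtype : Subgroup G) : Set G) := by
        intro hk
        rw [Subgroup.mem_normalizer_iff] at hk
        have h1 := (hk z).mp ((hZiff z).mpr (Or.inr rfl))
        rcases (hZiff _).mp h1 with h | h
        · apply hz1
          calc z = k⁻¹ * (k * z * k⁻¹) * k := by group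
            _ = 1 := by rw [h]; group
        · exact hkz h
      have hZg : ((Subgroup.center ↥Q).map Q.subtype).map (MulAut.conj k).toMonoidHom ≤ Q := by
        rintro x ⟨y, hy, rfl⟩
        rcases (hZiff y).mp hy with h | h
        · rw [h, map_one]
          exact Q.one_mem
        · rw [h]
          exact hkQ
      exact (Cfsg.Agent.S5422.result Q hQ hL2 hL3 w hw hcard k hg hZg).2.2
    · obtain ⟨huU, huQ⟩ := Subgroup.mem_inf.mp hu
      have hu1 : u ≠ 1 := by
        intro h
        apply huz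
        rw [h]
        exact Subgroup.one_mem _
      have hbZ : u ∉ (Subgroup.center ↥Q).map Q.subtype := by
        intro h
        rcases (hZiff u).mp h with h | h
        · exact hu1 h
        · apply huz
          rw [h]
          exact Subgroup.mem_zpowers z
      have hUsq : ∀ x ∈ U, x * x = 1 := by
        intro x hx
        have hcomm : ∀ a ∈ U, ∀ b ∈ U, a * b = b * a := by
          intro a ha b hb
          have := hUab.is_comm.comm (⟨a, ha⟩ : ↥U) ⟨b, hb⟩
          exact congrArg Subtype.val this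
        have key : ∀ y ∈ Subgroup.closure {x : G | ∃ k ∈ K, x = k * z * k⁻¹}, y ∈ U ∧ y * y = 1 := by
          intro y hy
          induction hy using Subgroup.closure_induction with
          | mem y hy =>
            obtain ⟨k, hk, rfl⟩ := hy
            refine ⟨?_, ?_⟩
            · rw [hU]
              exact Subgroup.subset_closure ⟨k, hk, rfl⟩
            · calc k * z * k⁻¹ * (k * z * k⁻¹) = k * (z * z) * k⁻¹ := by group
                _ = 1 := by rw [hzz]; group
          | one => exact ⟨U.one_mem, one_mul 1⟩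
          | mul a b _ _ iha ihb =>
            obtain ⟨haU, ha⟩ := iha
            obtain ⟨hbU, hb⟩ := ihb
            refine ⟨U.mul_mem haU hbU, ?_⟩
            calc a * b * (a * b) = a * (b * a) * b := by group
              _ = a * (a * b) * b := by rw [hcomm b hbU a haU]
              _ = (a * a) * (b * b) := by group
              _ = 1 := by rw [ha, hb, one_mul]
          | inv a _ iha =>
            obtain ⟨haU, ha⟩ := iha
            refine ⟨U.inv_mem haU, ?_⟩
            calc a⁻¹ * a⁻¹ = (a * a)⁻¹ := by group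
              _ = 1 := by rw [ha, inv_one]
        have hx' : x ∈ Subgroup.closure {x : G | ∃ k ∈ K, x = k * z * k⁻¹} := by
          rw [← hU]; exact hx
        exact (key x hx').2
      have hb : orderOf u = 2 := by
        apply orderOf_eq_prime
        · rw [pow_two]; exact hUsq u huU
        · exact hu1
      have hZ : (Subgroup.center ↥Q).map Q.subtype ≤
          (Cfsg.pCore 2 ↥(Subgroup.centralizer ({u} : Set G))).map
            (Subgroup.centralizer ({u} : Set G)).subtype := by
        intro x hx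
        rcases (hZiff x).mp hx with h | h
        · rw [h]; exact Subgroup.one_mem _
        · rw [h]; exact ⟨⟨z, hz'⟩, hzp, rfl⟩
      exact Cfsg.Agent.S5421.result Q hQ hL2 hL3 u huQ hbZ hb hZ
  refine ⟨?_, hlarge⟩
  refine { exists_pair_ne := ⟨z, 1, hz1⟩, eq_bot_or_eq_top_of_normal := ?_ }
  intro N hN
  rcases hN4 N hN with h | h
  · left
    have hodd := hN5 N hN h
    apply hlarge.2.2.2 N hodd
    rw [Subgroup.normalizer_eq_top]
    exact le_top
  · right
    apply hN6 N hN
    have hUN : U ≤ N := by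
      rw [hU, Subgroup.closure_le]
      rintro x ⟨k, hk, rfl⟩
      exact hN.conj_mem z h k
    rw [← hgen, Subgroup.closure_le]
    rintro x ⟨c, hc, u, hu, rfl⟩
    exact hN.conj_mem u (hUN hu) c

end Cfsg.Agent.S5427
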