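import Cfsg.Statements.S5431
import Cfsg.Agent.Lib.Helper28.ESDecomp
import Cfsg.Agent.Lib.Helper28.LargeES3

set_option autoImplicit false
open Cfsg

namespace Cfsg.Agent.S5431

open Cfsg.Agent.Lib.Helper28
open Cfsg.Agent.Lib.Helper18
open scoped commutatorElement

theorem le_normalizer_of_conj {G : Type*} [Group G] (S E : Subgroup G)
    (h : ∀ r ∈ S, ∀ e ∈ E, r * e * r⁻¹ ∈ E) : S ≤ Subgroup.normalizer (E : Set G) := by
  intro r hr
  rw [Subgroup.mem_normalizer_iff]
  intro e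
  constructor
  · exact h r hr e
  · intro he
    have h1 := h r⁻¹ (S.inv_mem hr) _ he
    have e2 : r⁻¹ * (r * e * r⁻¹) * r⁻¹⁻¹ = e := by group
    rwa [e2] at h1

/-- Let Q be a large extraspecial 2-subgroup of the finite group G (extraspecial; centralizer equal to its centre; normal in the centralizer of its centre; normalizing no non-trivial subgroup of odd order) with centre generated by z, an involution, of width w ≥ 2 (order 2^(2w+1)); let g be an element outside the centralizer H of z with g z g⁻¹ in Q; write V for the subgroup generated by z and g z g⁻¹, X for the subgroup generated by Q and g Q g⁻¹, R for the subgroup generated by the centralizer of z in g Q g⁻¹ and the centralizer of g z g⁻¹ in Q, and E for the intersection of Q and g Q g⁻¹. Then V is the centre of R, E lies in the second centre of R, R is nilpotent of class at most 3, E and R/E are elementary abelian, R/E is the direct product of the images of the centralizer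 of g z g⁻¹ in Q and of the centralizer of z in g Q g⁻¹ (R is their product and they meet in E), and the commutator subgroup of X and E lies in V. -/
theorem result {G : Type*} [Group G] [Finite G] (Q : Subgroup G) (hQ : Cfsg.IsLargeExtraspecial Q) (z : G) (hz : ((Subgroup.center ↥Q).map Q.subtype) = Subgroup.zpowers z) (hz2 : orderOf z = 2) (w : ℕ) (hw : 2 ≤ w) (hcard : Nat.card ↥Q = 2 ^ (2 * w + 1)) (g : G) (hgH : g ∉ Subgroup.centralizer ({z} : Set G)) (hgQ : g * z * g⁻¹ ∈ Q) (V X R E : Subgroup G) (hV : V = Subgroup.closure ({z, g * z * g⁻¹} : Set G)) (hX : X = Q ⊔ (Q).map (MulAut.conj g).toMonoidHom) (hR : R = ((Q).map (MulAut.conj g).toMonoidHom ⊓ Subgroup.centralizer ({z} : Set G)) ⊔ (Q ⊓ Subgroup.centralizer ({g * z * g⁻¹} : Set G))) (hE : E = Q ⊓ (Q).map (MulAut.conj g).toMonoidHom) : (Subgroup.center ↥R).map R.subtype = V ∧ E ≤ (Subgroup.upperCentralSeries ↥R 2).map R.subtype ∧ Subgroup.upperCentralSeries ↥R 3 = ⊤ ∧ Cfsg.IsElementaryAbelian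 2 E ∧ (∀ x ∈ R, ∀ y ∈ R, x * y * x⁻¹ * y⁻¹ ∈ E ∧ x ^ 2 ∈ E) ∧ ((Q).map (MulAut.conj g).toMonoidHom ⊓ Subgroup.centralizer ({z} : Set G)) ⊓ (Q ⊓ Subgroup.centralizer ({g * z * g⁻¹} : Set G)) = E ∧ ⁅X, E⁆ ≤ V := by
  classical
  haveI : Fact (Nat.Prime 2) := ⟨Nat.prime_two⟩
  obtain ⟨hEs, hCQ, hN, hK⟩ := hQ
  obtain ⟨z₀, hzZ, hz1, hzQ, hzz, hzc, hall⟩ := extraspecial_center Q hEs
  have hzz₀ : z = z₀ := by
    have h1 : z ∈ (Subgroup.center ↥Q).map Q.subtype := by rw [hz]; exact Subgroup.mem_zpowers z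
    rcases hall z h1 with h | h
    · exfalso
      rw [h, orderOf_one] at hz2
      norm_num at hz2
    · exact h
  subst hzz₀
  have hcs : ∀ t x : G, x ∈ Subgroup.centralizer ({t} : Set G) ↔ t * x = x * t := by
    intro t x
    rw [Subgroup.mem_centralizer_iff]
    constructor
    · intro h; exact h t (Set.mem_singleton t)
    · intro h y hy; rw [Set.mem_singleton_iff] at hy; rw [hy]; exact h
  have hcent : ∀ d : G, (∀ q ∈ Q, d * q = q * d) → d = 1 ∨ d = z := by
    intro d hd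
    apply hall
    rw [← hCQ, Subgroup.mem_centralizer_iff]
    intro q hq
    exact (hd q hq).symm
  have hCin : ∀ d : G, (∀ x ∈ Q, d * x = x * d) → d ∈ Q := by
    intro d hd
    rcases hcent d hd with h | h
    · rw [h]; exact Q.one_mem
    · rw [h]; exact hzQ
  have hNz : ∀ m : G, m * z = z * m → ∀ x ∈ Q, m * x * m⁻¹ ∈ Q := by
    intro m hm x hx
    have h1 : m ∈ Subgroup.normalizer (Q : Set G) := by
      apply hN
      rw [Subgroup.mem_centralizer_iff]
      intro y hy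
      rcases hall y hy with h | h
      · rw [h]; simp
      · rw [h]; exact hm.symm
    exact ((Subgroup.mem_normalizer_iff.mp h1) x).mp hx
  have hcomm : ∀ a ∈ Q, ∀ b ∈ Q, a * b * a⁻¹ * b⁻¹ = 1 ∨ a * b * a⁻¹ * b⁻¹ = z :=
    fun a ha b hb => les_comm Q hEs hall ha hb
  have hsq : ∀ a ∈ Q, a * a = 1 ∨ a * a = z := fun a ha => es_sq Q hEs hall ha
  have hzQ0 : g⁻¹ * z * g ∈ Q := by
    apply es_symm Q hEs z hzQ hz1 hzz hzc hall hCin hNz g hgQ
    intro h
    apply hgH
    rw [hcs]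
    calc z * g = (g * z * g⁻¹) * g := by rw [h]
      _ = g * z := by group
  obtain ⟨u, hu⟩ : ∃ u, u = g * z * g⁻¹ := ⟨_, rfl⟩
  obtain ⟨Q', hQ'⟩ : ∃ Q' : Subgroup G, Q' = Q.map (MulAut.conj g).toMonoidHom := ⟨_, rfl⟩
  rw [← hu] at hgQ hV hR ⊢
  rw [← hQ'] at hX hR hE ⊢
  have hu1 : u ≠ 1 := by
    intro h
    apply hz1
    calc z = g⁻¹ * (g * z * g⁻¹) * g := by group
      _ = 1 := by rw [← hu, h]; group
  have huz : u ≠ z := by
    intro h
    apply hgH
    rw [hcs]
    calc z * g = (g * z * g⁻¹) * g := by rw [← hu, h]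
      _ = g * z := by group
  have huu : u * u = 1 := by
    rw [hu]
    calc g * z * g⁻¹ * (g * z * g⁻¹) = g * (z * z) * g⁻¹ := by group
      _ = 1 := by rw [hzz]; group
  have hQ'mem : ∀ x, x ∈ Q' ↔ g⁻¹ * x * g ∈ Q := by
    intro x
    rw [hQ', Subgroup.mem_map]
    constructor
    · rintro ⟨q, hq, rfl⟩
      have e : g⁻¹ * ((MulAut.conj g).toMonoidHom q) * g = q := by
        show g⁻¹ * (g * q * g⁻¹) * g = q
        group
      rw [e]; exact hq
    · intro h
      refine ⟨g⁻¹ * x * g, h, ?_⟩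
      show g * (g⁻¹ * x * g) * g⁻¹ = x
      group
  have hzQ' : z ∈ Q' := (hQ'mem z).mpr hzQ0
  have huQ' : u ∈ Q' := by
    rw [hQ'mem, hu]
    have e : g⁻¹ * (g * z * g⁻¹) * g = z := by group
    rw [e]; exact hzQ
  have hcomm' : ∀ a ∈ Q', ∀ b ∈ Q', a * b * a⁻¹ * b⁻¹ = 1 ∨ a * b * a⁻¹ * b⁻¹ = u := by
    intro a ha b hb
    have h := hcomm _ ((hQ'mem a).mp ha) _ ((hQ'mem b).mp hb)
    have e : g⁻¹ * a * g * (g⁻¹ * b * g) * (g⁻¹ * a * g)⁻¹ * (g⁻¹ * b * g)⁻¹ =
        g⁻¹ * (a * b * a⁻¹ * b⁻¹) * g := by group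
    rw [e] at h
    rcases h with h | h
    · left
      calc a * b * a⁻¹ * b⁻¹ = g * (g⁻¹ * (a * b * a⁻¹ * b⁻¹) * g) * g⁻¹ := by group
        _ = 1 := by rw [h]; group
    · right
      calc a * b * a⁻¹ * b⁻¹ = g * (g⁻¹ * (a * b * a⁻¹ * b⁻¹) * g) * g⁻¹ := by group
        _ = u := by rw [h, hu]
  have hsq' : ∀ a ∈ Q', a * a = 1 ∨ a * a = u := by
    intro a ha
    have h := hsq _ ((hQ'mem a).mp ha)
    have e : g⁻¹ * a * g * (g⁻¹ * a * g) = g⁻¹ * (a * a) * g := by group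
    rw [e] at h
    rcases h with h | h
    · left
      calc a * a = g * (g⁻¹ * (a * a) * g) * g⁻¹ := by group
        _ = 1 := by rw [h]; group
    · right
      calc a * a = g * (g⁻¹ * (a * a) * g) * g⁻¹ := by group
        _ = u := by rw [h, hu]
  have huc' : ∀ x ∈ Q', u * x = x * u := by
    intro x hx
    have h := hzc _ ((hQ'mem x).mp hx)
    rw [hu]
    calc g * z * g⁻¹ * x = g * (z * (g⁻¹ * x * g)) * g⁻¹ := by group
      _ = g * ((g⁻¹ * x * g) * z) * g⁻¹ := by rw [h]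
      _ = x * (g * z * g⁻¹) := by group
  have hNu : ∀ m : G, m * u = u * m → ∀ x ∈ Q', m * x * m⁻¹ ∈ Q' := by
    intro m hm x hx
    rw [hQ'mem]
    have h1 : (g⁻¹ * m * g) * z = z * (g⁻¹ * m * g) := by
      calc (g⁻¹ * m * g) * z = g⁻¹ * (m * (g * z * g⁻¹)) * g := by group
        _ = g⁻¹ * ((g * z * g⁻¹) * m) * g := by rw [← hu, hm]
        _ = z * (g⁻¹ * m * g) := by group
    have h2 := hNz _ h1 _ ((hQ'mem x).mp hx)
    have e : g⁻¹ * m * g * (g⁻¹ * x * g) * (g⁻¹ * m * g)⁻¹ = g⁻¹ * (m * x * m⁻¹) * g := by group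
    rwa [e] at h2
  obtain ⟨A, hA⟩ : ∃ A : Subgroup G, A = Q ⊓ Subgroup.centralizer ({u} : Set G) := ⟨_, rfl⟩
  obtain ⟨B, hB⟩ : ∃ B : Subgroup G, B = Q' ⊓ Subgroup.centralizer ({z} : Set G) := ⟨_, rfl⟩
  rw [← hA, ← hB] at hR ⊢
  have hAmem : ∀ x, x ∈ A ↔ x ∈ Q ∧ u * x = x * u := by
    intro x; rw [hA, Subgroup.mem_inf, hcs]
  have hBmem : ∀ x, x ∈ B ↔ x ∈ Q' ∧ z * x = x * z := by
    intro x; rw [hB, Subgroup.mem_inf, hcs]
  have hEmem : ∀ x, x ∈ E ↔ x ∈ Q ∧ x ∈ Q' := by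
    intro x; rw [hE, Subgroup.mem_inf]
  have hAR : A ≤ R := by rw [hR]; exact le_sup_right
  have hBR : B ≤ R := by rw [hR]; exact le_sup_left
  have hEA : E ≤ A := by
    intro x hx
    rw [hEmem] at hx
    exact (hAmem x).mpr ⟨hx.1, huc' x hx.2⟩
  have hEB : E ≤ B := by
    intro x hx
    rw [hEmem] at hx
    exact (hBmem x).mpr ⟨hx.2, hzc x hx.1⟩
  have hER : E ≤ R := hEA.trans hAR
  have hAQ : ∀ a ∈ A, ∀ x ∈ Q, a * x * a⁻¹ ∈ Q := by
    intro a ha x hx
    exact Q.mul_mem (Q.mul_mem ((hAmem a).mp ha).1 hx) (Q.inv_mem ((hAmem a).mp ha).1)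
  have hAQ' : ∀ a ∈ A, ∀ x ∈ Q', a * x * a⁻¹ ∈ Q' := by
    intro a ha x hx
    exact hNu a ((hAmem a).mp ha).2.symm x hx
  have hBQ : ∀ b ∈ B, ∀ x ∈ Q, b * x * b⁻¹ ∈ Q := by
    intro b hb x hx
    exact hNz b ((hBmem b).mp hb).2.symm x hx
  have hBQ' : ∀ b ∈ B, ∀ x ∈ Q', b * x * b⁻¹ ∈ Q' := by
    intro b hb x hx
    exact Q'.mul_mem (Q'.mul_mem ((hBmem b).mp hb).1 hx) (Q'.inv_mem ((hBmem b).mp hb).1)
  have hAE : A ≤ Subgroup.normalizer (E : Set G) := by
    apply le_normalizer_of_conj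
    intro r hr e he
    rw [hEmem] at he ⊢
    exact ⟨hAQ r hr e he.1, hAQ' r hr e he.2⟩
  have hBE : B ≤ Subgroup.normalizer (E : Set G) := by
    apply le_normalizer_of_conj
    intro r hr e he
    rw [hEmem] at he ⊢
    exact ⟨hBQ r hr e he.1, hBQ' r hr e he.2⟩
  have hRE : R ≤ Subgroup.normalizer (E : Set G) := by
    rw [hR]; exact sup_le hBE hAE
  have hzE : z ∈ E := (hEmem z).mpr ⟨hzQ, hzQ'⟩
  have huE : u ∈ E := (hEmem u).mpr ⟨hgQ, huQ'⟩
  have hAB : ∀ a ∈ A, ∀ b ∈ B, a * b * a⁻¹ * b⁻¹ ∈ E := by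
    intro a ha b hb
    rw [hEmem]
    constructor
    · have e : a * b * a⁻¹ * b⁻¹ = a * (b * a⁻¹ * b⁻¹) := by group
      rw [e]
      exact Q.mul_mem ((hAmem a).mp ha).1 (hBQ b hb _ (Q.inv_mem ((hAmem a).mp ha).1))
    · have e : a * b * a⁻¹ * b⁻¹ = (a * b * a⁻¹) * b⁻¹ := by group
      rw [e]
      exact Q'.mul_mem (hAQ' a ha b ((hBmem b).mp hb).1) (Q'.inv_mem ((hBmem b).mp hb).1)
  have hBA : ∀ b ∈ B, ∀ a ∈ A, b * a * b⁻¹ * a⁻¹ ∈ E := by
    intro b hb a ha
    have e : b * a * b⁻¹ * a⁻¹ = (a * b * a⁻¹ * b⁻¹)⁻¹ := by group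
    rw [e]; exact E.inv_mem (hAB a ha b hb)
  have hAA : ∀ a ∈ A, ∀ b ∈ A, a * b * a⁻¹ * b⁻¹ ∈ E := by
    intro a ha b hb
    rcases hcomm a ((hAmem a).mp ha).1 b ((hAmem b).mp hb).1 with h | h
    · rw [h]; exact E.one_mem
    · rw [h]; exact hzE
  have hBB : ∀ a ∈ B, ∀ b ∈ B, a * b * a⁻¹ * b⁻¹ ∈ E := by
    intro a ha b hb
    rcases hcomm' a ((hBmem a).mp ha).1 b ((hBmem b).mp hb).1 with h | h
    · rw [h]; exact E.one_mem
    · rw [h]; exact huE
  have hRA : ∀ x ∈ R, ∀ y ∈ A, x * y * x⁻¹ * y⁻¹ ∈ E := by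
    intro x hx y hy
    have hle : B ⊔ A ≤ commSub R E hRE y := by
      apply sup_le
      · intro b hb
        exact mem_commSub.mpr ⟨hBR hb, hBA b hb y hy⟩
      · intro a ha
        exact mem_commSub.mpr ⟨hAR ha, hAA a ha y hy⟩
    have hx' : x ∈ B ⊔ A := by rw [← hR]; exact hx
    exact (mem_commSub.mp (hle hx')).2
  have hRB : ∀ x ∈ R, ∀ y ∈ B, x * y * x⁻¹ * y⁻¹ ∈ E := by
    intro x hx y hy
    have hle : B ⊔ A ≤ commSub R E hRE y := by
      apply sup_le
      · intro b hb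
        exact mem_commSub.mpr ⟨hBR hb, hBB b hb y hy⟩
      · intro a ha
        exact mem_commSub.mpr ⟨hAR ha, hAB a ha y hy⟩
    have hx' : x ∈ B ⊔ A := by rw [← hR]; exact hx
    exact (mem_commSub.mp (hle hx')).2
  have hRR : ∀ x ∈ R, ∀ y ∈ R, x * y * x⁻¹ * y⁻¹ ∈ E := by
    intro x hx y hy
    have hle : B ⊔ A ≤ commSub R E hRE x := by
      apply sup_le
      · intro b hb
        refine mem_commSub.mpr ⟨hBR hb, ?_⟩
        have e : b * x * b⁻¹ * x⁻¹ = (x * b * x⁻¹ * b⁻¹)⁻¹ := by group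
        rw [e]; exact E.inv_mem (hRB x hx b hb)
      · intro a ha
        refine mem_commSub.mpr ⟨hAR ha, ?_⟩
        have e : a * x * a⁻¹ * x⁻¹ = (x * a * x⁻¹ * a⁻¹)⁻¹ := by group
        rw [e]; exact E.inv_mem (hRA x hx a ha)
    have hy' : y ∈ B ⊔ A := by rw [← hR]; exact hy
    have h := (mem_commSub.mp (hle hy')).2
    have e : x * y * x⁻¹ * y⁻¹ = (y * x * y⁻¹ * x⁻¹)⁻¹ := by group
    rw [e]; exact E.inv_mem h
  have hRsq : ∀ x ∈ R, x * x ∈ E := by
    let S2 : Subgroup G :=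
      { carrier := {x | x ∈ R ∧ x * x ∈ E}
        mul_mem' := by
          rintro a b ⟨ha, ha'⟩ ⟨hb, hb'⟩
          refine ⟨R.mul_mem ha hb, ?_⟩
          have e : a * b * (a * b) = (a * a) * (a⁻¹ * b * a⁻¹⁻¹ * b⁻¹) * (b * b) := by group
          rw [e]
          exact E.mul_mem (E.mul_mem ha' (hRR _ (R.inv_mem ha) _ hb)) hb'
        one_mem' := ⟨R.one_mem, by rw [mul_one]; exact E.one_mem⟩
        inv_mem' := by
          rintro a ⟨ha, ha'⟩
          refine ⟨R.inv_mem ha, ?_⟩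
          have e : a⁻¹ * a⁻¹ = (a * a)⁻¹ := by group
          rw [e]; exact E.inv_mem ha' }
    have hle : B ⊔ A ≤ S2 := by
      apply sup_le
      · intro b hb
        refine ⟨hBR hb, ?_⟩
        rcases hsq' b ((hBmem b).mp hb).1 with h | h
        · rw [h]; exact E.one_mem
        · rw [h]; exact huE
      · intro a ha
        refine ⟨hAR ha, ?_⟩
        rcases hsq a ((hAmem a).mp ha).1 with h | h
        · rw [h]; exact E.one_mem
        · rw [h]; exact hzE
    intro x hx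
    have hx' : x ∈ B ⊔ A := by rw [← hR]; exact hx
    exact (hle hx').2
  have hzV : z ∈ V := by rw [hV]; exact Subgroup.subset_closure (by simp)
  have huV : u ∈ V := by rw [hV]; exact Subgroup.subset_closure (by simp)
  have hV4 : ∀ x, (x = 1 ∨ x = z ∨ x = u ∨ x = z * u) → x ∈ V := by
    rintro x (h | h | h | h)
    · rw [h]; exact V.one_mem
    · rw [h]; exact hzV
    · rw [h]; exact huV
    · rw [h]; exact V.mul_mem hzV huV
  have hVle : ∀ K : Subgroup G, z ∈ K → u ∈ K → V ≤ K := by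
    intro K hz hu
    rw [hV, Subgroup.closure_le]
    intro x hx
    rcases hx with h | h
    · rw [h]; exact hz
    · rw [Set.mem_singleton_iff] at h; rw [h]; exact hu
  have hQV : Q ≤ Subgroup.normalizer (V : Set G) := by
    apply le_normalizer_of_conj
    intro q hq v hv
    have hle : V ≤ V.comap (MulAut.conj q).toMonoidHom := by
      apply hVle
      · rw [Subgroup.mem_comap]
        show q * z * q⁻¹ ∈ V
        have e : q * z * q⁻¹ = z := by rw [← hzc q hq]; group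
        rw [e]; exact hzV
      · rw [Subgroup.mem_comap]
        show q * u * q⁻¹ ∈ V
        have e : q * u * q⁻¹ = (q * u * q⁻¹ * u⁻¹) * u := by group
        rw [e]
        rcases hcomm q hq u hgQ with h | h
        · rw [h, one_mul]; exact huV
        · rw [h]; exact V.mul_mem hzV huV
    have h := hle hv
    rw [Subgroup.mem_comap] at h
    exact h
  have hQ'V : Q' ≤ Subgroup.normalizer (V : Set G) := by
    apply le_normalizer_of_conj
    intro q hq v hv
    have hle : V ≤ V.comap (MulAut.conj q).toMonoidHom := by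
      apply hVle
      · rw [Subgroup.mem_comap]
        show q * z * q⁻¹ ∈ V
        have e : q * z * q⁻¹ = (q * z * q⁻¹ * z⁻¹) * z := by group
        rw [e]
        rcases hcomm' q hq z hzQ' with h | h
        · rw [h, one_mul]; exact hzV
        · rw [h]; exact V.mul_mem huV hzV
      · rw [Subgroup.mem_comap]
        show q * u * q⁻¹ ∈ V
        have e : q * u * q⁻¹ = u := by rw [← huc' q hq]; group
        rw [e]; exact huV
    have h := hle hv
    rw [Subgroup.mem_comap] at h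
    exact h
  have h7 : ∀ x ∈ X, ∀ e ∈ E, x * e * x⁻¹ * e⁻¹ ∈ V := by
    intro x hx e he
    have hle : Q ⊔ Q' ≤ commSub (Subgroup.normalizer (V : Set G)) V le_rfl e := by
      apply sup_le
      · intro q hq
        refine mem_commSub.mpr ⟨hQV hq, ?_⟩
        rcases hcomm q hq e ((hEmem e).mp he).1 with h | h
        · rw [h]; exact V.one_mem
        · rw [h]; exact hzV
      · intro q hq
        refine mem_commSub.mpr ⟨hQ'V hq, ?_⟩
        rcases hcomm' q hq e ((hEmem e).mp he).2 with h | h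
        · rw [h]; exact V.one_mem
        · rw [h]; exact huV
    have hx' : x ∈ Q ⊔ Q' := by rw [← hX]; exact hx
    exact (mem_commSub.mp (hle hx')).2
  have hRX : R ≤ X := by
    rw [hR, hX]
    apply sup_le
    · intro b hb; exact le_sup_right (a := Q) ((hBmem b).mp hb).1
    · intro a ha; exact le_sup_left (b := Q') ((hAmem a).mp ha).1
  have hRz : ∀ r ∈ R, z * r = r * z := by
    intro r hr
    have hle : B ⊔ A ≤ Subgroup.centralizer ({z} : Set G) := by
      apply sup_le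
      · intro b hb; rw [hcs]; exact ((hBmem b).mp hb).2
      · intro a ha; rw [hcs]; exact hzc a ((hAmem a).mp ha).1
    have hr' : r ∈ B ⊔ A := by rw [← hR]; exact hr
    exact (hcs z r).mp (hle hr')
  have hRu : ∀ r ∈ R, u * r = r * u := by
    intro r hr
    have hle : B ⊔ A ≤ Subgroup.centralizer ({u} : Set G) := by
      apply sup_le
      · intro b hb; rw [hcs]; exact huc' b ((hBmem b).mp hb).1
      · intro a ha; rw [hcs]; exact ((hAmem a).mp ha).2
    have hr' : r ∈ B ⊔ A := by rw [← hR]; exact hr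
    exact (hcs u r).mp (hle hr')
  have hVR : V ≤ R :=
    hVle R (hAR ((hAmem z).mpr ⟨hzQ, (hzc u hgQ).symm⟩)) (hAR ((hAmem u).mpr ⟨hgQ, rfl⟩))
  have hVcR : ∀ v ∈ V, ∀ r ∈ R, v * r = r * v := by
    intro v hv r hr
    have hle : V ≤ Subgroup.centralizer ({r} : Set G) := by
      apply hVle
      · rw [hcs]; exact (hRz r hr).symm
      · rw [hcs]; exact (hRu r hr).symm
    exact ((hcs r v).mp (hle hv)).symm
  have h1 : (Subgroup.center ↥R).map R.subtype = V := by
    ext x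
    constructor
    · rintro ⟨r, hr, rfl⟩
      apply hV4
      apply es_cent_R Q hEs z hzQ hz1 hzz hzc hall hCin hNz u hgQ hu1 huz huu
      intro a ha hau
      have haA : a ∈ A := (hAmem a).mpr ⟨ha, hau.symm⟩
      have h := Subgroup.mem_center_iff.mp hr ⟨a, hAR haA⟩
      have h' := congrArg Subtype.val h
      simpa using h'.symm
    · intro hx
      refine ⟨⟨x, hVR hx⟩, ?_, rfl⟩
      rw [SetLike.mem_coe, Subgroup.mem_center_iff]
      intro r
      apply Subtype.ext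
      exact (hVcR x hx r r.2).symm
  have h2 : E ≤ (Subgroup.upperCentralSeries ↥R 2).map R.subtype := by
    intro e he
    refine ⟨⟨e, hER he⟩, ?_, rfl⟩
    rw [SetLike.mem_coe, show (2 : ℕ) = 1 + 1 from rfl, Subgroup.mem_upperCentralSeries_succ_iff,
      Subgroup.upperCentralSeries_one]
    intro y
    rw [commutatorElement_def]
    have hv : (y : G) * e * (y : G)⁻¹ * e⁻¹ ∈ V := h7 y (hRX y.2) e he
    have hv' : e * (y : G) * e⁻¹ * (y : G)⁻¹ ∈ V := by
      have e' : e * (y : G) * e⁻¹ * (y : G)⁻¹ = ((y : G) * e * (y : G)⁻¹ * e⁻¹)⁻¹ := by group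
      rw [e']; exact V.inv_mem hv
    rw [← h1] at hv'
    obtain ⟨r, hr, hre⟩ := hv'
    have e2 : r = ⟨e, hER he⟩ * y * (⟨e, hER he⟩ : ↥R)⁻¹ * y⁻¹ := by
      apply Subtype.ext
      simpa using hre
    rw [← e2]; exact hr
  have h3 : Subgroup.upperCentralSeries ↥R 3 = ⊤ := by
    rw [eq_top_iff]
    intro x _
    rw [show (3 : ℕ) = 2 + 1 from rfl, Subgroup.mem_upperCentralSeries_succ_iff]
    intro y
    rw [commutatorElement_def]
    have he : (x : G) * y * (x : G)⁻¹ * (y : G)⁻¹ ∈ E := hRR x x.2 y y.2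
    obtain ⟨r, hr, hre⟩ := h2 he
    have e2 : r = x * y * x⁻¹ * y⁻¹ := by
      apply Subtype.ext
      simpa using hre
    rw [← e2]; exact hr
  have h4 : Cfsg.IsElementaryAbelian 2 E := by
    have hEcomm : ∀ x ∈ E, ∀ y ∈ E, x * y * x⁻¹ * y⁻¹ = 1 := by
      intro x hx y hy
      rw [hEmem] at hx hy
      rcases hcomm x hx.1 y hy.1 with h | h
      · exact h
      · rcases hcomm' x hx.2 y hy.2 with h' | h'
        · exact h'
        · exfalso; exact huz (h'.symm.trans h)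
    refine ⟨⟨⟨fun a b => ?_⟩⟩, ?_⟩
    · apply Subtype.ext
      have h := hEcomm a a.2 b b.2
      show (a : G) * b = b * a
      calc (a : G) * b = ((a : G) * b * (a : G)⁻¹ * (b : G)⁻¹) * (b * a) := by group
        _ = b * a := by rw [h, one_mul]
    · intro a ha
      rw [hEmem] at ha
      rw [pow_two]
      rcases hsq a ha.1 with h | h
      · exact h
      · rcases hsq' a ha.2 with h' | h'
        · exact h'
        · exfalso; exact huz (h'.symm.trans h)
  have h6 : B ⊓ A = E := by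
    ext x
    rw [Subgroup.mem_inf, hBmem, hAmem, hEmem]
    constructor
    · rintro ⟨⟨h1, _⟩, ⟨h2, _⟩⟩; exact ⟨h2, h1⟩
    · rintro ⟨h1, h2⟩; exact ⟨⟨h2, hzc x h1⟩, ⟨h1, huc' x h2⟩⟩
  refine ⟨h1, h2, h3, h4, fun x hx y hy => ⟨hRR x hx y hy, by rw [pow_two]; exact hRsq x hx⟩,
    h6, ?_⟩
  rw [Subgroup.commutator_le]
  intro x hx e he
  rw [commutatorElement_def]
  exact h7 x hx e he
end Cfsg.Agent.S5431
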