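import Cfsg.Statements.S5430
import Cfsg.Agent.Lib.Helper28.ESDecomp
import Cfsg.Agent.Lib.Helper28.LargeES3
import Cfsg.Agent.Lib.Helper28.FourGroup
import Cfsg.Agent.S5431

set_option autoImplicit false
open Cfsg

namespace Cfsg.Agent.S5430

open Cfsg.Agent.Lib.Helper28
open Cfsg.Agent.Lib.Helper18
open scoped commutatorElement

theorem le_normalizer_of_conj {G : Type*} [Group G] (S E : Subgroup G)
    (h : ∀ r ∈ S, ∀ e ∈ E, r * e * r⁻¹ ∈ E) : S ≤ Subgroup.normalizer (E : Set G) := by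
  intro r hr
  rw [Subgroup.mem_normalizer_iff]
  intro e
  constructor
  · exact h r hr e
  · intro he
    have h1 := h r⁻¹ (S.inv_mem hr) _ he
    have e2 : r⁻¹ * (r * e * r⁻¹) * r⁻¹⁻¹ = e := by group
    rwa [e2] at h1

theorem perm3_L1 : ∀ x : Equiv.Perm (Fin 3), x ^ 2 = 1 ∨ x ^ 3 = 1 := by decide

theorem perm3_L2 : ∀ σ : Equiv.Perm (Fin 3),
    (∀ τ : Equiv.Perm (Fin 3), (σ * (τ * σ * τ⁻¹)) ^ 2 = 1) → σ = 1 := by decide +kernel

theorem perm3_L3 : ∀ σ τ : Equiv.Perm (Fin 3), σ * σ = 1 → τ * τ = 1 → σ ≠ 1 → τ ≠ 1 → σ ≠ τ →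
    ∀ ρ : Equiv.Perm (Fin 3), ρ = 1 ∨ ρ = σ ∨ ρ = τ ∨ ρ = σ * τ ∨ ρ = τ * σ ∨ ρ = σ * τ * σ := by
  decide +kernel

theorem cj_mul {G : Type*} [Group G] {x y a b c : G} (h2 : y * b * y⁻¹ = c)
    (h1 : x * a * x⁻¹ = b) : (y * x) * a * (y * x)⁻¹ = c := by
  rw [← h2, ← h1]; group

theorem cj_inv {G : Type*} [Group G] {x a b : G} (h : x * a * x⁻¹ = b) :
    x⁻¹ * b * x⁻¹⁻¹ = a := by
  rw [← h]; group

theorem cj_comm {G : Type*} [Group G] {x a : G} (h : x * a * x⁻¹ = a) : a * x = x * a := by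
  calc a * x = (x * a * x⁻¹) * x := by rw [h]
    _ = x * a := by group

theorem comm_cj {G : Type*} [Group G] {x a : G} (h : a * x = x * a) : x * a * x⁻¹ = a := by
  rw [← h]; group

/-- Elements of `Q` either centralize `u` or do so after multiplication by `t⁻¹`. -/
theorem split_aux {G : Type*} [Group G] (Q : Subgroup G) (z u t : G) (hzz : z * z = 1)
    (hzc : ∀ q ∈ Q, z * q = q * z)
    (hcomm : ∀ a ∈ Q, ∀ b ∈ Q, a * b * a⁻¹ * b⁻¹ = 1 ∨ a * b * a⁻¹ * b⁻¹ = z)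
    (hu : u ∈ Q) (ht : t ∈ Q) (htu : t * u * t⁻¹ = z * u) :
    ∀ q ∈ Q, (u * q = q * u) ∨ (q * t⁻¹ ∈ Q ∧ u * (q * t⁻¹) = (q * t⁻¹) * u) := by
  intro q hq
  have e : q * u * q⁻¹ = (q * u * q⁻¹ * u⁻¹) * u := by group
  rcases hcomm q hq u hu with h | h
  · left
    rw [h, one_mul] at e
    exact cj_comm e
  · right
    refine ⟨Q.mul_mem hq (Q.inv_mem ht), ?_⟩
    rw [h] at e
    have e1 : t⁻¹ * u * t = z * u := by
      have h1 : t * z * t⁻¹ = z := comm_cj (hzc t ht)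
      have h2 : t * (z * u) * t⁻¹ = u := by
        calc t * (z * u) * t⁻¹ = (t * z * t⁻¹) * (t * u * t⁻¹) := by group
          _ = z * (z * u) := by rw [h1, htu]
          _ = u := by rw [← mul_assoc, hzz, one_mul]
      calc t⁻¹ * u * t = t⁻¹ * (t * (z * u) * t⁻¹) * t := by rw [h2]
        _ = z * u := by group
    have e3 : q * t⁻¹ * u * (q * t⁻¹)⁻¹ = u := by
      calc q * t⁻¹ * u * (q * t⁻¹)⁻¹ = q * (t⁻¹ * u * t) * q⁻¹ := by group
        _ = q * (z * u) * q⁻¹ := by rw [e1]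
        _ = (q * z * q⁻¹) * (q * u * q⁻¹) := by group
        _ = z * (z * u) := by rw [e, comm_cj (hzc q hq)]
        _ = u := by rw [← mul_assoc, hzz, one_mul]
    exact cj_comm e3

/-- Conjugation by `Q` preserves the centralizer of `u` in `Q`, and commutators of `Q` with
elements normalizing `Q` and centralizing `z`, `u` centralize `u`. -/
theorem norm_aux {G : Type*} [Group G] (Q : Subgroup G) (z u : G)
    (hzc : ∀ q ∈ Q, z * q = q * z)
    (hcomm : ∀ a ∈ Q, ∀ b ∈ Q, a * b * a⁻¹ * b⁻¹ = 1 ∨ a * b * a⁻¹ * b⁻¹ = z)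
    (hu : u ∈ Q) (q : G) (hq : q ∈ Q) (b : G) (hbz : b * z = z * b) (hbu : b * u = u * b) :
    u * (q * b * q⁻¹ * b⁻¹) = (q * b * q⁻¹ * b⁻¹) * u := by
  obtain ⟨c, hc⟩ : ∃ c, c = q⁻¹ * u * q⁻¹⁻¹ * u⁻¹ := ⟨_, rfl⟩
  have hc' : c = 1 ∨ c = z := by rw [hc]; exact hcomm _ (Q.inv_mem hq) u hu
  have hbc : b * c = c * b := by
    rcases hc' with h | h
    · rw [h]; simp
    · rw [h]; exact hbz
  have e1 : q⁻¹ * u * q = c * u := by rw [hc]; group
  have e2 : b * (c * u) * b⁻¹ = c * u := by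
    calc b * (c * u) * b⁻¹ = (b * c) * (u * b⁻¹) := by group
      _ = (c * b) * (u * b⁻¹) := by rw [hbc]
      _ = c * (b * u) * b⁻¹ := by group
      _ = c * (u * b) * b⁻¹ := by rw [hbu]
      _ = c * u := by group
  have e3 : (q * b * q⁻¹ * b⁻¹) * u * (q * b * q⁻¹ * b⁻¹)⁻¹ = u := by
    calc (q * b * q⁻¹ * b⁻¹) * u * (q * b * q⁻¹ * b⁻¹)⁻¹
        = q * b * q⁻¹ * (b⁻¹ * (u * b)) * q * b⁻¹ * q⁻¹ := by group
      _ = q * b * q⁻¹ * (b⁻¹ * (b * u)) * q * b⁻¹ * q⁻¹ := by rw [hbu]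
      _ = q * (b * (q⁻¹ * u * q) * b⁻¹) * q⁻¹ := by group
      _ = q * (q⁻¹ * u * q) * q⁻¹ := by rw [e1, e2]
      _ = u := by group
  exact cj_comm e3

/-- Let Q be a large extraspecial 2-subgroup of the finite group G (extraspecial; centralizer equal to its centre; normal in the centralizer of its centre; normalizing no non-trivial subgroup of odd order) with centre generated by z, an involution, of width w ≥ 2 (order 2^(2w+1)); let g be an element outside the centralizer H of z with g z g⁻¹ in Q; write V for the subgroup generated by z and g z g⁻¹, X for the subgroup generated by Q and g Q g⁻¹, R for the subgroup generated by the centralizer of z in g Q g⁻¹ and the centralizer of g z g⁻¹ in Q, and E for the intersection of Q and g Q g⁻¹. Then R is the centralizer of V in X and is the largest normal 2-subgroup of X, and X/R is isomorphic to the symmetric group of degree 3; moreover the normalizer of V is the product of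 X and the centralizer of V in H, X is normal in it, and modulo R it is the direct product of X/R and of the centralizer of V in H modulo R. -/
theorem result {G : Type*} [Group G] [Finite G] (Q : Subgroup G) (hQ : Cfsg.IsLargeExtraspecial Q) (z : G) (hz : ((Subgroup.center ↥Q).map Q.subtype) = Subgroup.zpowers z) (hz2 : orderOf z = 2) (w : ℕ) (hw : 2 ≤ w) (hcard : Nat.card ↥Q = 2 ^ (2 * w + 1)) (g : G) (hgH : g ∉ Subgroup.centralizer ({z} : Set G)) (hgQ : g * z * g⁻¹ ∈ Q) (V X R E : Subgroup G) (hV : V = Subgroup.closure ({z, g * z * g⁻¹} : Set G)) (hX : X = Q ⊔ (Q).map (MulAut.conj g).toMonoidHom) (hR : R = ((Q).map (MulAut.conj g).toMonoidHom ⊓ Subgroup.centralizer ({z} : Set G)) ⊔ (Q ⊓ Subgroup.centralizer ({g * z * g⁻¹} : Set G))) (hE : E = Q ⊓ (Q).map (MulAut.conj g).toMonoidHom) : R = X ⊓ Subgroup.centralizer (V : Set G) ∧ R = (Cfsg.pCore 2 ↥X).map X.subtype ∧ (∃ h : (R.subgroupOf X).Normal, Nonempty (↥X ⧸ R.subgroupOf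 X ≃* Equiv.Perm (Fin 3))) ∧ Subgroup.normalizer (V : Set G) = X ⊔ (Subgroup.centralizer ({z} : Set G) ⊓ Subgroup.centralizer (V : Set G)) ∧ (∀ y ∈ Subgroup.normalizer (V : Set G), ∀ x ∈ X, y * x * y⁻¹ ∈ X) ∧ R ≤ Subgroup.centralizer ({z} : Set G) ⊓ Subgroup.centralizer (V : Set G) ∧ (∀ x ∈ X, ∀ c ∈ Subgroup.centralizer ({z} : Set G) ⊓ Subgroup.centralizer (V : Set G), x * c * x⁻¹ * c⁻¹ ∈ R) ∧ X ⊓ (Subgroup.centralizer ({z} : Set G) ⊓ Subgroup.centralizer (V : Set G)) = R := by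
  classical
  haveI : Fact (Nat.Prime 2) := ⟨Nat.prime_two⟩
  obtain ⟨-, -, -, h4E, h5R, -, -⟩ :=
    Cfsg.Agent.S5431.result Q hQ z hz hz2 w hw hcard g hgH hgQ V X R E hV hX hR hE
  obtain ⟨hEs, hCQ, hN, hK⟩ := hQ
  obtain ⟨z₀, hzZ, hz1, hzQ, hzz, hzc, hall⟩ := extraspecial_center Q hEs
  have hzz₀ : z = z₀ := by
    have h1 : z ∈ (Subgroup.center ↥Q).map Q.subtype := by rw [hz]; exact Subgroup.mem_zpowers z
    rcases hall z h1 with h | h
    · exfalso
      rw [h, orderOf_one] at hz2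
      norm_num at hz2
    · exact h
  subst hzz₀
  have hcs : ∀ t x : G, x ∈ Subgroup.centralizer ({t} : Set G) ↔ t * x = x * t := by
    intro t x
    rw [Subgroup.mem_centralizer_iff]
    constructor
    · intro h; exact h t (Set.mem_singleton t)
    · intro h y hy; rw [Set.mem_singleton_iff] at hy; rw [hy]; exact h
  have hcent : ∀ d : G, (∀ q ∈ Q, d * q = q * d) → d = 1 ∨ d = z := by
    intro d hd
    apply hall
    rw [← hCQ, Subgroup.mem_centralizer_iff]
    intro q hq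
    exact (hd q hq).symm
  have hCin : ∀ d : G, (∀ x ∈ Q, d * x = x * d) → d ∈ Q := by
    intro d hd
    rcases hcent d hd with h | h
    · rw [h]; exact Q.one_mem
    · rw [h]; exact hzQ
  have hNz : ∀ m : G, m * z = z * m → ∀ x ∈ Q, m * x * m⁻¹ ∈ Q := by
    intro m hm x hx
    have h1 : m ∈ Subgroup.normalizer (Q : Set G) := by
      apply hN
      rw [Subgroup.mem_centralizer_iff]
      intro y hy
      rcases hall y hy with h | h
      · rw [h]; simp
      · rw [h]; exact hm.symm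
    exact ((Subgroup.mem_normalizer_iff.mp h1) x).mp hx
  have hcomm : ∀ a ∈ Q, ∀ b ∈ Q, a * b * a⁻¹ * b⁻¹ = 1 ∨ a * b * a⁻¹ * b⁻¹ = z :=
    fun a ha b hb => les_comm Q hEs hall ha hb
  have hsq : ∀ a ∈ Q, a * a = 1 ∨ a * a = z := fun a ha => es_sq Q hEs hall ha
  have hzQ0 : g⁻¹ * z * g ∈ Q := by
    apply es_symm Q hEs z hzQ hz1 hzz hzc hall hCin hNz g hgQ
    intro h
    apply hgH
    rw [hcs]
    calc z * g = (g * z * g⁻¹) * g := by rw [h]
      _ = g * z := by group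
  obtain ⟨u, hu⟩ : ∃ u, u = g * z * g⁻¹ := ⟨_, rfl⟩
  obtain ⟨Q', hQ'⟩ : ∃ Q' : Subgroup G, Q' = Q.map (MulAut.conj g).toMonoidHom := ⟨_, rfl⟩
  rw [← hu] at hgQ hV hR
  rw [← hQ'] at hX hR hE
  have hu1 : u ≠ 1 := by
    intro h
    apply hz1
    calc z = g⁻¹ * (g * z * g⁻¹) * g := by group
      _ = 1 := by rw [← hu, h]; group
  have huz : u ≠ z := by
    intro h
    apply hgH
    rw [hcs]
    calc z * g = (g * z * g⁻¹) * g := by rw [← hu, h]
      _ = g * z := by group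
  have huu : u * u = 1 := by
    rw [hu]
    calc g * z * g⁻¹ * (g * z * g⁻¹) = g * (z * z) * g⁻¹ := by group
      _ = 1 := by rw [hzz]; group
  have hQ'mem : ∀ x, x ∈ Q' ↔ g⁻¹ * x * g ∈ Q := by
    intro x
    rw [hQ', Subgroup.mem_map]
    constructor
    · rintro ⟨q, hq, rfl⟩
      have e : g⁻¹ * ((MulAut.conj g).toMonoidHom q) * g = q := by
        show g⁻¹ * (g * q * g⁻¹) * g = q
        group
      rw [e]; exact hq
    · intro h
      refine ⟨g⁻¹ * x * g, h, ?_⟩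
      show g * (g⁻¹ * x * g) * g⁻¹ = x
      group
  have hzQ' : z ∈ Q' := (hQ'mem z).mpr hzQ0
  have huQ' : u ∈ Q' := by
    rw [hQ'mem, hu]
    have e : g⁻¹ * (g * z * g⁻¹) * g = z := by group
    rw [e]; exact hzQ
  have hcomm' : ∀ a ∈ Q', ∀ b ∈ Q', a * b * a⁻¹ * b⁻¹ = 1 ∨ a * b * a⁻¹ * b⁻¹ = u := by
    intro a ha b hb
    have h := hcomm _ ((hQ'mem a).mp ha) _ ((hQ'mem b).mp hb)
    have e : g⁻¹ * a * g * (g⁻¹ * b * g) * (g⁻¹ * a * g)⁻¹ * (g⁻¹ * b * g)⁻¹ =
        g⁻¹ * (a * b * a⁻¹ * b⁻¹) * g := by group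
    rw [e] at h
    rcases h with h | h
    · left
      calc a * b * a⁻¹ * b⁻¹ = g * (g⁻¹ * (a * b * a⁻¹ * b⁻¹) * g) * g⁻¹ := by group
        _ = 1 := by rw [h]; group
    · right
      calc a * b * a⁻¹ * b⁻¹ = g * (g⁻¹ * (a * b * a⁻¹ * b⁻¹) * g) * g⁻¹ := by group
        _ = u := by rw [h, hu]
  have hsq' : ∀ a ∈ Q', a * a = 1 ∨ a * a = u := by
    intro a ha
    have h := hsq _ ((hQ'mem a).mp ha)
    have e : g⁻¹ * a * g * (g⁻¹ * a * g) = g⁻¹ * (a * a) * g := by group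
    rw [e] at h
    rcases h with h | h
    · left
      calc a * a = g * (g⁻¹ * (a * a) * g) * g⁻¹ := by group
        _ = 1 := by rw [h]; group
    · right
      calc a * a = g * (g⁻¹ * (a * a) * g) * g⁻¹ := by group
        _ = u := by rw [h, hu]
  have huc' : ∀ x ∈ Q', u * x = x * u := by
    intro x hx
    have h := hzc _ ((hQ'mem x).mp hx)
    rw [hu]
    calc g * z * g⁻¹ * x = g * (z * (g⁻¹ * x * g)) * g⁻¹ := by group
      _ = g * ((g⁻¹ * x * g) * z) * g⁻¹ := by rw [h]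
      _ = x * (g * z * g⁻¹) := by group
  have hNu : ∀ m : G, m * u = u * m → ∀ x ∈ Q', m * x * m⁻¹ ∈ Q' := by
    intro m hm x hx
    rw [hQ'mem]
    have h1 : (g⁻¹ * m * g) * z = z * (g⁻¹ * m * g) := by
      calc (g⁻¹ * m * g) * z = g⁻¹ * (m * (g * z * g⁻¹)) * g := by group
        _ = g⁻¹ * ((g * z * g⁻¹) * m) * g := by rw [← hu, hm]
        _ = z * (g⁻¹ * m * g) := by group
    have h2 := hNz _ h1 _ ((hQ'mem x).mp hx)
    have e : g⁻¹ * m * g * (g⁻¹ * x * g) * (g⁻¹ * m * g)⁻¹ = g⁻¹ * (m * x * m⁻¹) * g := by group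
    rwa [e] at h2
  obtain ⟨A, hA⟩ : ∃ A : Subgroup G, A = Q ⊓ Subgroup.centralizer ({u} : Set G) := ⟨_, rfl⟩
  obtain ⟨B, hB⟩ : ∃ B : Subgroup G, B = Q' ⊓ Subgroup.centralizer ({z} : Set G) := ⟨_, rfl⟩
  rw [← hA, ← hB] at hR
  have hAmem : ∀ x, x ∈ A ↔ x ∈ Q ∧ u * x = x * u := by
    intro x; rw [hA, Subgroup.mem_inf, hcs]
  have hBmem : ∀ x, x ∈ B ↔ x ∈ Q' ∧ z * x = x * z := by
    intro x; rw [hB, Subgroup.mem_inf, hcs]
  have hEmem : ∀ x, x ∈ E ↔ x ∈ Q ∧ x ∈ Q' := by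
    intro x; rw [hE, Subgroup.mem_inf]
  have hAR : A ≤ R := by rw [hR]; exact le_sup_right
  have hBR : B ≤ R := by rw [hR]; exact le_sup_left
  have hEA : E ≤ A := by
    intro x hx
    rw [hEmem] at hx
    exact (hAmem x).mpr ⟨hx.1, huc' x hx.2⟩
  have hEB : E ≤ B := by
    intro x hx
    rw [hEmem] at hx
    exact (hBmem x).mpr ⟨hx.2, hzc x hx.1⟩
  have hER : E ≤ R := hEA.trans hAR
  have hAQ : ∀ a ∈ A, ∀ x ∈ Q, a * x * a⁻¹ ∈ Q := by
    intro a ha x hx
    exact Q.mul_mem (Q.mul_mem ((hAmem a).mp ha).1 hx) (Q.inv_mem ((hAmem a).mp ha).1)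
  have hAQ' : ∀ a ∈ A, ∀ x ∈ Q', a * x * a⁻¹ ∈ Q' := by
    intro a ha x hx
    exact hNu a ((hAmem a).mp ha).2.symm x hx
  have hBQ : ∀ b ∈ B, ∀ x ∈ Q, b * x * b⁻¹ ∈ Q := by
    intro b hb x hx
    exact hNz b ((hBmem b).mp hb).2.symm x hx
  have hBQ' : ∀ b ∈ B, ∀ x ∈ Q', b * x * b⁻¹ ∈ Q' := by
    intro b hb x hx
    exact Q'.mul_mem (Q'.mul_mem ((hBmem b).mp hb).1 hx) (Q'.inv_mem ((hBmem b).mp hb).1)
  have hzV : z ∈ V := by rw [hV]; exact Subgroup.subset_closure (by simp)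
  have huV : u ∈ V := by rw [hV]; exact Subgroup.subset_closure (by simp)
  have hV4 : ∀ x, (x = 1 ∨ x = z ∨ x = u ∨ x = z * u) → x ∈ V := by
    rintro x (h | h | h | h)
    · rw [h]; exact V.one_mem
    · rw [h]; exact hzV
    · rw [h]; exact huV
    · rw [h]; exact V.mul_mem hzV huV
  have hVle : ∀ K : Subgroup G, z ∈ K → u ∈ K → V ≤ K := by
    intro K hz hu
    rw [hV, Subgroup.closure_le]
    intro x hx
    rcases hx with h | h
    · rw [h]; exact hz
    · rw [Set.mem_singleton_iff] at h; rw [h]; exact hu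
  have hQV : Q ≤ Subgroup.normalizer (V : Set G) := by
    apply le_normalizer_of_conj
    intro q hq v hv
    have hle : V ≤ V.comap (MulAut.conj q).toMonoidHom := by
      apply hVle
      · rw [Subgroup.mem_comap]
        show q * z * q⁻¹ ∈ V
        have e : q * z * q⁻¹ = z := by rw [← hzc q hq]; group
        rw [e]; exact hzV
      · rw [Subgroup.mem_comap]
        show q * u * q⁻¹ ∈ V
        have e : q * u * q⁻¹ = (q * u * q⁻¹ * u⁻¹) * u := by group
        rw [e]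
        rcases hcomm q hq u hgQ with h | h
        · rw [h, one_mul]; exact huV
        · rw [h]; exact V.mul_mem hzV huV
    have h := hle hv
    rw [Subgroup.mem_comap] at h
    exact h
  have hQ'V : Q' ≤ Subgroup.normalizer (V : Set G) := by
    apply le_normalizer_of_conj
    intro q hq v hv
    have hle : V ≤ V.comap (MulAut.conj q).toMonoidHom := by
      apply hVle
      · rw [Subgroup.mem_comap]
        show q * z * q⁻¹ ∈ V
        have e : q * z * q⁻¹ = (q * z * q⁻¹ * z⁻¹) * z := by group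
        rw [e]
        rcases hcomm' q hq z hzQ' with h | h
        · rw [h, one_mul]; exact hzV
        · rw [h]; exact V.mul_mem huV hzV
      · rw [Subgroup.mem_comap]
        show q * u * q⁻¹ ∈ V
        have e : q * u * q⁻¹ = u := by rw [← huc' q hq]; group
        rw [e]; exact huV
    have h := hle hv
    rw [Subgroup.mem_comap] at h
    exact h
  have hRX : R ≤ X := by
    rw [hR, hX]
    apply sup_le
    · intro b hb; exact le_sup_right (a := Q) ((hBmem b).mp hb).1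
    · intro a ha; exact le_sup_left (b := Q') ((hAmem a).mp ha).1
  have hRz : ∀ r ∈ R, z * r = r * z := by
    intro r hr
    have hle : B ⊔ A ≤ Subgroup.centralizer ({z} : Set G) := by
      apply sup_le
      · intro b hb; rw [hcs]; exact ((hBmem b).mp hb).2
      · intro a ha; rw [hcs]; exact hzc a ((hAmem a).mp ha).1
    have hr' : r ∈ B ⊔ A := by rw [← hR]; exact hr
    exact (hcs z r).mp (hle hr')
  have hRu : ∀ r ∈ R, u * r = r * u := by
    intro r hr
    have hle : B ⊔ A ≤ Subgroup.centralizer ({u} : Set G) := by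
      apply sup_le
      · intro b hb; rw [hcs]; exact huc' b ((hBmem b).mp hb).1
      · intro a ha; rw [hcs]; exact ((hAmem a).mp ha).2
    have hr' : r ∈ B ⊔ A := by rw [← hR]; exact hr
    exact (hcs u r).mp (hle hr')
  have hVR : V ≤ R :=
    hVle R (hAR ((hAmem z).mpr ⟨hzQ, (hzc u hgQ).symm⟩)) (hAR ((hAmem u).mpr ⟨hgQ, rfl⟩))
  have hVcR : ∀ v ∈ V, ∀ r ∈ R, v * r = r * v := by
    intro v hv r hr
    have hle : V ≤ Subgroup.centralizer ({r} : Set G) := by
      apply hVle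
      · rw [hcs]; exact (hRz r hr).symm
      · rw [hcs]; exact (hRu r hr).symm
    exact ((hcs r v).mp (hle hv)).symm
  have hzu_comm : u * z = z * u := (hzc u hgQ).symm
  have hCV : ∀ x, x ∈ Subgroup.centralizer (V : Set G) ↔ (z * x = x * z ∧ u * x = x * u) := by
    intro x
    rw [Subgroup.mem_centralizer_iff]
    constructor
    · intro h; exact ⟨h z hzV, h u huV⟩
    · rintro ⟨h1, h2⟩ v hv
      have hle : V ≤ Subgroup.centralizer ({x} : Set G) := by
        apply hVle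
        · rw [hcs]; exact h1.symm
        · rw [hcs]; exact h2.symm
      exact ((hcs x v).mp (hle hv)).symm
  have hVmem : ∀ x ∈ V, x = 1 ∨ x = z ∨ x = u ∨ x = z * u := by
    obtain ⟨Z1, hZ1⟩ : ∃ Z1 : Subgroup G, Z1 = (Subgroup.center ↥Q).map Q.subtype := ⟨_, rfl⟩
    have hZ1mem : ∀ x, x ∈ Z1 ↔ x = 1 ∨ x = z := by
      intro x
      rw [hZ1]
      constructor
      · exact hall x
      · rintro (h | h)
        · rw [h]; exact Subgroup.one_mem _
        · rw [h]; exact hzZ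
    have hZ2mem : ∀ x, x ∈ Z1.map (MulAut.conj g).toMonoidHom ↔ x = 1 ∨ x = u := by
      intro x
      rw [Subgroup.mem_map]
      constructor
      · rintro ⟨y, hy, rfl⟩
        rcases (hZ1mem y).mp hy with h | h
        · left; rw [h]; simp
        · right; rw [h, hu]; rfl
      · rintro (h | h)
        · exact ⟨1, Z1.one_mem, by rw [h]; simp⟩
        · exact ⟨z, (hZ1mem z).mpr (Or.inr rfl), by rw [h, hu]; rfl⟩
    have h4 := four_sup_mem Z1 (Z1.map (MulAut.conj g).toMonoidHom) z u hZ1mem hZ2mem hzz huu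
      hzu_comm
    intro x hx
    apply (h4 x).mp
    exact hVle _ (le_sup_left (a := Z1) ((hZ1mem z).mpr (Or.inr rfl)))
      (le_sup_right (a := Z1) ((hZ2mem u).mpr (Or.inr rfl))) hx
  have hzu_ne_z : z * u ≠ z := by
    intro h; apply hu1
    calc u = z⁻¹ * (z * u) := by group
      _ = 1 := by rw [h]; group
  have hzu_ne_u : z * u ≠ u := by
    intro h; apply hz1
    calc z = (z * u) * u⁻¹ := by group
      _ = 1 := by rw [h]; group
  have hzu_ne_1 : z * u ≠ 1 := by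
    intro h; apply huz
    calc u = z⁻¹ * (z * u) := by group
      _ = z⁻¹ := by rw [h, mul_one]
      _ = z := inv_eq_of_mul_eq_one_left hzz
  have huZ : u ∉ (Subgroup.center ↥Q).map Q.subtype := by
    intro h
    rcases hall u h with h | h
    · exact hu1 h
    · exact huz h
  obtain ⟨t, htQ, htu⟩ := extraspecial_conj Q hEs hall hgQ huZ
  have hz0Z : g⁻¹ * z * g ∉ (Subgroup.center ↥Q).map Q.subtype := by
    intro h
    rcases hall _ h with h | h
    · apply hz1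
      calc z = g * (g⁻¹ * z * g) * g⁻¹ := by group
        _ = 1 := by rw [h]; group
    · apply huz
      rw [hu]
      calc g * z * g⁻¹ = g * (g⁻¹ * z * g) * g⁻¹ := by rw [h]
        _ = z := by group
  obtain ⟨s₀, hs₀Q, hs₀⟩ := extraspecial_conj Q hEs hall hzQ0 hz0Z
  obtain ⟨s, hs⟩ : ∃ s, s = g * s₀ * g⁻¹ := ⟨_, rfl⟩
  have hsQ' : s ∈ Q' := by
    rw [hQ'mem, hs]
    have e : g⁻¹ * (g * s₀ * g⁻¹) * g = s₀ := by group
    rw [e]; exact hs₀Q
  have hsz : s * z * s⁻¹ = z * u := by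
    rw [hs]
    calc g * s₀ * g⁻¹ * z * (g * s₀ * g⁻¹)⁻¹ = g * (s₀ * (g⁻¹ * z * g) * s₀⁻¹) * g⁻¹ := by group
      _ = g * (z * (g⁻¹ * z * g)) * g⁻¹ := by rw [hs₀]
      _ = (g * z * g⁻¹) * z := by group
      _ = z * u := by rw [← hu]; exact hzu_comm
  have htz : t * z * t⁻¹ = z := comm_cj (hzc t htQ)
  have hsu : s * u * s⁻¹ = u := comm_cj (huc' s hsQ')
  have htzu : t * (z * u) * t⁻¹ = u := by
    calc t * (z * u) * t⁻¹ = (t * z * t⁻¹) * (t * u * t⁻¹) := by group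
      _ = z * (z * u) := by rw [htz, htu]
      _ = u := by rw [← mul_assoc, hzz, one_mul]
  have hszu : s * (z * u) * s⁻¹ = z := by
    calc s * (z * u) * s⁻¹ = (s * z * s⁻¹) * (s * u * s⁻¹) := by group
      _ = (z * u) * u := by rw [hsz, hsu]
      _ = z := by rw [mul_assoc, huu, mul_one]
  have htX : t ∈ X := by rw [hX]; exact le_sup_left (a := Q) htQ
  have hsX : s ∈ X := by rw [hX]; exact le_sup_right (a := Q) hsQ'
  have hQsplit : ∀ q ∈ Q, q ∈ A ∨ q * t⁻¹ ∈ A := by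
    intro q hq
    rcases split_aux Q z u t hzz hzc hcomm hgQ htQ htu q hq with h | h
    · left; exact (hAmem q).mpr ⟨hq, h⟩
    · right; exact (hAmem _).mpr h
  have hsz' : s * z * s⁻¹ = u * z := by rw [hsz, hzu_comm]
  have hQ'split : ∀ q ∈ Q', q ∈ B ∨ q * s⁻¹ ∈ B := by
    intro q hq
    rcases split_aux Q' u z s huu huc' hcomm' hzQ' hsQ' hsz' q hq with h | h
    · left; exact (hBmem q).mpr ⟨hq, h⟩
    · right; exact (hBmem _).mpr h
  have hQR : ∀ q ∈ Q, ∀ r ∈ R, q * r * q⁻¹ ∈ R := by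
    intro q hq r hr
    have hle : B ⊔ A ≤ R.comap (MulAut.conj q).toMonoidHom := by
      apply sup_le
      · intro b hb
        rw [Subgroup.mem_comap]
        show q * b * q⁻¹ ∈ R
        have hb' := (hBmem b).mp hb
        have h := norm_aux Q z u hzc hcomm hgQ q hq b hb'.2.symm (huc' b hb'.1).symm
        have hcQ : q * b * q⁻¹ * b⁻¹ ∈ Q := by
          have e : q * b * q⁻¹ * b⁻¹ = q * (b * q⁻¹ * b⁻¹) := by group
          rw [e]; exact Q.mul_mem hq (hBQ b hb _ (Q.inv_mem hq))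
        have e : q * b * q⁻¹ = (q * b * q⁻¹ * b⁻¹) * b := by group
        rw [e]
        exact R.mul_mem (hAR ((hAmem _).mpr ⟨hcQ, h⟩)) (hBR hb)
      · intro a ha
        rw [Subgroup.mem_comap]
        show q * a * q⁻¹ ∈ R
        have ha' := (hAmem a).mp ha
        apply hAR
        rw [hAmem]
        refine ⟨Q.mul_mem (Q.mul_mem hq ha'.1) (Q.inv_mem hq), ?_⟩
        have h := norm_aux Q z u hzc hcomm hgQ q hq a (hzc a ha'.1).symm ha'.2.symm
        calc u * (q * a * q⁻¹) = (u * (q * a * q⁻¹ * a⁻¹)) * a := by group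
          _ = ((q * a * q⁻¹ * a⁻¹) * u) * a := by rw [h]
          _ = (q * a * q⁻¹ * a⁻¹) * (u * a) := by group
          _ = (q * a * q⁻¹ * a⁻¹) * (a * u) := by rw [ha'.2]
          _ = q * a * q⁻¹ * u := by group
    have hr' : r ∈ B ⊔ A := by rw [← hR]; exact hr
    have h := hle hr'
    rw [Subgroup.mem_comap] at h
    exact h
  have hQ'R : ∀ q ∈ Q', ∀ r ∈ R, q * r * q⁻¹ ∈ R := by
    intro q hq r hr
    have hle : B ⊔ A ≤ R.comap (MulAut.conj q).toMonoidHom := by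
      apply sup_le
      · intro b hb
        rw [Subgroup.mem_comap]
        show q * b * q⁻¹ ∈ R
        have hb' := (hBmem b).mp hb
        apply hBR
        rw [hBmem]
        refine ⟨Q'.mul_mem (Q'.mul_mem hq hb'.1) (Q'.inv_mem hq), ?_⟩
        have h := norm_aux Q' u z huc' hcomm' hzQ' q hq b (huc' b hb'.1).symm hb'.2.symm
        calc z * (q * b * q⁻¹) = (z * (q * b * q⁻¹ * b⁻¹)) * b := by group
          _ = ((q * b * q⁻¹ * b⁻¹) * z) * b := by rw [h]
          _ = (q * b * q⁻¹ * b⁻¹) * (z * b) := by group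
          _ = (q * b * q⁻¹ * b⁻¹) * (b * z) := by rw [hb'.2]
          _ = q * b * q⁻¹ * z := by group
      · intro a ha
        rw [Subgroup.mem_comap]
        show q * a * q⁻¹ ∈ R
        have ha' := (hAmem a).mp ha
        have h := norm_aux Q' u z huc' hcomm' hzQ' q hq a ha'.2.symm (hzc a ha'.1).symm
        have hcQ : q * a * q⁻¹ * a⁻¹ ∈ Q' := by
          have e : q * a * q⁻¹ * a⁻¹ = q * (a * q⁻¹ * a⁻¹) := by group
          rw [e]; exact Q'.mul_mem hq (hAQ' a ha _ (Q'.inv_mem hq))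
        have e : q * a * q⁻¹ = (q * a * q⁻¹ * a⁻¹) * a := by group
        rw [e]
        exact R.mul_mem (hBR ((hBmem _).mpr ⟨hcQ, h⟩)) (hAR ha)
    have hr' : r ∈ B ⊔ A := by rw [← hR]; exact hr
    have h := hle hr'
    rw [Subgroup.mem_comap] at h
    exact h
  have hXnR : X ≤ Subgroup.normalizer (R : Set G) := by
    rw [hX]
    exact sup_le (le_normalizer_of_conj Q R hQR) (le_normalizer_of_conj Q' R hQ'R)
  have hXR : ∀ x ∈ X, ∀ r ∈ R, x * r * x⁻¹ ∈ R := fun x hx r hr =>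
    ((Subgroup.mem_normalizer_iff.mp (hXnR hx)) r).mp hr
  have hcQ : s⁻¹ * t * s * t⁻¹ * s ∈ Q := by
    have e1 : s⁻¹ * (z * u) * s = z := by
      calc s⁻¹ * (z * u) * s = s⁻¹ * (s * z * s⁻¹) * s := by rw [hsz]
        _ = z := by group
    have hh : (s⁻¹ * t * g) * z = z * (s⁻¹ * t * g) := by
      calc (s⁻¹ * t * g) * z = s⁻¹ * (t * (g * z * g⁻¹) * t⁻¹) * s * (s⁻¹ * t * g) := by group
        _ = s⁻¹ * (z * u) * s * (s⁻¹ * t * g) := by rw [← hu, htu]
        _ = z * (s⁻¹ * t * g) := by rw [e1]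
    have h1 := hNz _ hh _ ((hQ'mem s).mp hsQ')
    have e : s⁻¹ * t * g * (g⁻¹ * s * g) * (s⁻¹ * t * g)⁻¹ = s⁻¹ * t * s * t⁻¹ * s := by group
    rwa [e] at h1
  have ha₀ : s⁻¹ * t * s * t⁻¹ * s * t⁻¹ ∈ A := by
    rw [hAmem]
    refine ⟨Q.mul_mem hcQ (Q.inv_mem htQ), ?_⟩
    have h : (s⁻¹ * t * s * t⁻¹ * s * t⁻¹) * u * (s⁻¹ * t * s * t⁻¹ * s * t⁻¹)⁻¹ = u :=
      cj_mul (cj_mul (cj_mul (cj_mul (cj_mul (cj_inv hsu) htzu) hsz) (cj_inv htz)) hszu)
        (cj_inv htzu)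
    exact cj_comm h
  have hzR : z ∈ R := hVR hzV
  have huR : u ∈ R := hVR huV
  have hts2 : t * t ∈ R := by
    rcases hsq t htQ with h | h
    · rw [h]; exact R.one_mem
    · rw [h]; exact hzR
  have hss2 : s * s ∈ R := by
    rcases hsq' s hsQ' with h | h
    · rw [h]; exact R.one_mem
    · rw [h]; exact huR
  have hr1 : s * t * s * t⁻¹ * s⁻¹ * t⁻¹ ∈ R := by
    have e : s * t * s * t⁻¹ * s⁻¹ * t⁻¹ =
        (s * s) * (s⁻¹ * t * s * t⁻¹ * s * t⁻¹) * (t * (s * s)⁻¹ * t⁻¹) := by group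
    rw [e]
    exact R.mul_mem (R.mul_mem hss2 (hAR ha₀)) (hXR t htX _ (R.inv_mem hss2))
  have hr2 : s * t * s * t * s⁻¹ * t⁻¹ ∈ R := by
    have e : s * t * s * t * s⁻¹ * t⁻¹ =
        (s * t * s * t⁻¹ * s⁻¹ * t⁻¹) * ((t * s) * (t * t) * (t * s)⁻¹) := by group
    rw [e]
    exact R.mul_mem hr1 (hXR _ (X.mul_mem htX hsX) _ hts2)
  obtain ⟨W, hW⟩ : ∃ W : List G, W = [1, t, s, t * s, s * t, t * s * t] := ⟨_, rfl⟩
  have hWmem : ∀ w, w ∈ W ↔
      (w = 1 ∨ w = t ∨ w = s ∨ w = t * s ∨ w = s * t ∨ w = t * s * t) := by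
    intro w; rw [hW]; simp
  have hW1 : (1 : G) ∈ W := (hWmem _).mpr (Or.inl rfl)
  have hWt' : t ∈ W := (hWmem _).mpr (Or.inr (Or.inl rfl))
  have hWs' : s ∈ W := (hWmem _).mpr (Or.inr (Or.inr (Or.inl rfl)))
  have hWts : t * s ∈ W := (hWmem _).mpr (Or.inr (Or.inr (Or.inr (Or.inl rfl))))
  have hWst : s * t ∈ W := (hWmem _).mpr (Or.inr (Or.inr (Or.inr (Or.inr (Or.inl rfl)))))
  have hWtst : t * s * t ∈ W := (hWmem _).mpr (Or.inr (Or.inr (Or.inr (Or.inr (Or.inr rfl)))))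
  have hWt : ∀ w ∈ W, ∃ w' ∈ W, t * w * w'⁻¹ ∈ R := by
    intro w hw
    rcases (hWmem w).mp hw with h | h | h | h | h | h
    · refine ⟨t, hWt', ?_⟩
      rw [h]
      have e : t * 1 * t⁻¹ = 1 := by group
      rw [e]; exact R.one_mem
    · refine ⟨1, hW1, ?_⟩
      rw [h]
      have e : t * t * 1⁻¹ = t * t := by group
      rw [e]; exact hts2
    · refine ⟨t * s, hWts, ?_⟩
      rw [h]
      have e : t * s * (t * s)⁻¹ = 1 := by group
      rw [e]; exact R.one_mem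
    · refine ⟨s, hWs', ?_⟩
      rw [h]
      have e : t * (t * s) * s⁻¹ = t * t := by group
      rw [e]; exact hts2
    · refine ⟨t * s * t, hWtst, ?_⟩
      rw [h]
      have e : t * (s * t) * (t * s * t)⁻¹ = 1 := by group
      rw [e]; exact R.one_mem
    · refine ⟨s * t, hWst, ?_⟩
      rw [h]
      have e : t * (t * s * t) * (s * t)⁻¹ = t * t := by group
      rw [e]; exact hts2
  have hWs : ∀ w ∈ W, ∃ w' ∈ W, s * w * w'⁻¹ ∈ R := by
    intro w hw
    rcases (hWmem w).mp hw with h | h | h | h | h | h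
    · refine ⟨s, hWs', ?_⟩
      rw [h]
      have e : s * 1 * s⁻¹ = 1 := by group
      rw [e]; exact R.one_mem
    · refine ⟨s * t, hWst, ?_⟩
      rw [h]
      have e : s * t * (s * t)⁻¹ = 1 := by group
      rw [e]; exact R.one_mem
    · refine ⟨1, hW1, ?_⟩
      rw [h]
      have e : s * s * 1⁻¹ = s * s := by group
      rw [e]; exact hss2
    · refine ⟨t * s * t, hWtst, ?_⟩
      rw [h]
      have e : s * (t * s) * (t * s * t)⁻¹ = s * t * s * t⁻¹ * s⁻¹ * t⁻¹ := by group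
      rw [e]; exact hr1
    · refine ⟨t, hWt', ?_⟩
      rw [h]
      have e : s * (s * t) * t⁻¹ = s * s := by group
      rw [e]; exact hss2
    · refine ⟨t * s, hWts, ?_⟩
      rw [h]
      have e : s * (t * s * t) * (t * s)⁻¹ = s * t * s * t * s⁻¹ * t⁻¹ := by group
      rw [e]; exact hr2
  have hT : ∀ x ∈ X, ∃ w ∈ W, x * w⁻¹ ∈ R := by
    intro x hx
    have hx' : x ∈ Subgroup.closure ((Q : Set G) ∪ (Q' : Set G)) := by
      rw [Subgroup.closure_union, Subgroup.closure_eq, Subgroup.closure_eq, ← hX]; exact hx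
    have stepR : ∀ r ∈ R, ∀ y, (∃ w ∈ W, y * w⁻¹ ∈ R) → ∃ w ∈ W, (r * y) * w⁻¹ ∈ R := by
      rintro r hr y ⟨w, hw, h⟩
      exact ⟨w, hw, by rw [mul_assoc]; exact R.mul_mem hr h⟩
    have stept : ∀ y, (∃ w ∈ W, y * w⁻¹ ∈ R) → ∃ w ∈ W, (t * y) * w⁻¹ ∈ R := by
      rintro y ⟨w, hw, h⟩
      obtain ⟨w', hw', h'⟩ := hWt w hw
      refine ⟨w', hw', ?_⟩
      have e : t * y * w'⁻¹ = (t * (y * w⁻¹) * t⁻¹) * (t * w * w'⁻¹) := by group
      rw [e]
      exact R.mul_mem (hXR t htX _ h) h'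
    have steps : ∀ y, (∃ w ∈ W, y * w⁻¹ ∈ R) → ∃ w ∈ W, (s * y) * w⁻¹ ∈ R := by
      rintro y ⟨w, hw, h⟩
      obtain ⟨w', hw', h'⟩ := hWs w hw
      refine ⟨w', hw', ?_⟩
      have e : s * y * w'⁻¹ = (s * (y * w⁻¹) * s⁻¹) * (s * w * w'⁻¹) := by group
      rw [e]
      exact R.mul_mem (hXR s hsX _ h) h'
    have stepQ : ∀ q ∈ Q, ∀ y, (∃ w ∈ W, y * w⁻¹ ∈ R) → ∃ w ∈ W, (q * y) * w⁻¹ ∈ R := by
      intro q hq y hy
      rcases hQsplit q hq with h | h
      · exact stepR q (hAR h) y hy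
      · have e : q * y = (q * t⁻¹) * (t * y) := by group
        rw [e]
        exact stepR _ (hAR h) _ (stept y hy)
    have stepQ' : ∀ q ∈ Q', ∀ y, (∃ w ∈ W, y * w⁻¹ ∈ R) → ∃ w ∈ W, (q * y) * w⁻¹ ∈ R := by
      intro q hq y hy
      rcases hQ'split q hq with h | h
      · exact stepR q (hBR h) y hy
      · have e : q * y = (q * s⁻¹) * (s * y) := by group
        rw [e]
        exact stepR _ (hBR h) _ (steps y hy)
    refine Subgroup.closure_induction_left (p := fun x _ => ∃ w ∈ W, x * w⁻¹ ∈ R) ?_ ?_ ?_ hx'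
    · refine ⟨1, hW1, ?_⟩
      have e : (1 : G) * 1⁻¹ = 1 := by group
      rw [e]; exact R.one_mem
    · intro x hx y _ hy
      rcases hx with hx | hx
      · exact stepQ x hx y hy
      · exact stepQ' x hx y hy
    · intro x hx y _ hy
      rcases hx with hx | hx
      · exact stepQ x⁻¹ (Q.inv_mem hx) y hy
      · exact stepQ' x⁻¹ (Q'.inv_mem hx) y hy
  have hXC : ∀ x ∈ X, z * x = x * z → u * x = x * u → x ∈ R := by
    intro x hx hxz hxu
    obtain ⟨w, hw, h⟩ := hT x hx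
    have hwz : w * z * w⁻¹ = z := by
      have e : w = (x * w⁻¹)⁻¹ * x := by group
      have h1 := hRz _ (R.inv_mem h)
      calc w * z * w⁻¹ = (x * w⁻¹)⁻¹ * (x * z) * x⁻¹ * ((x * w⁻¹)⁻¹)⁻¹ := by group
        _ = (x * w⁻¹)⁻¹ * (z * x) * x⁻¹ * ((x * w⁻¹)⁻¹)⁻¹ := by rw [hxz]
        _ = ((x * w⁻¹)⁻¹ * z) * ((x * w⁻¹)⁻¹)⁻¹ := by group
        _ = (z * (x * w⁻¹)⁻¹) * ((x * w⁻¹)⁻¹)⁻¹ := by rw [h1]
        _ = z := by group
    have hwu : w * u * w⁻¹ = u := by
      have h1 := hRu _ (R.inv_mem h)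
      calc w * u * w⁻¹ = (x * w⁻¹)⁻¹ * (x * u) * x⁻¹ * ((x * w⁻¹)⁻¹)⁻¹ := by group
        _ = (x * w⁻¹)⁻¹ * (u * x) * x⁻¹ * ((x * w⁻¹)⁻¹)⁻¹ := by rw [hxu]
        _ = ((x * w⁻¹)⁻¹ * u) * ((x * w⁻¹)⁻¹)⁻¹ := by group
        _ = (u * (x * w⁻¹)⁻¹) * ((x * w⁻¹)⁻¹)⁻¹ := by rw [h1]
        _ = u := by group
    rcases (hWmem w).mp hw with h1 | h1 | h1 | h1 | h1 | h1
    · rw [h1] at h
      have e : x * 1⁻¹ = x := by group
      rwa [e] at h
    · exfalso; rw [h1, htu] at hwu; exact hzu_ne_u hwu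
    · exfalso; rw [h1, hsz] at hwz; exact hzu_ne_z hwz
    · exfalso; rw [h1, cj_mul htzu hsz] at hwz; exact huz hwz
    · exfalso; rw [h1, cj_mul hszu htu] at hwu; exact huz hwu.symm
    · exfalso; rw [h1, cj_mul (cj_mul htzu hsz) htz] at hwz; exact huz hwz
  -- the action on the three involutions of V
  obtain ⟨p, hp0, hp1, hp2⟩ : ∃ p : Fin 3 → G, p 0 = z ∧ p 1 = u ∧ p 2 = z * u :=
    ⟨![z, u, z * u], rfl, rfl, rfl⟩
  have hfin3 : ∀ i : Fin 3, i = 0 ∨ i = 1 ∨ i = 2 := by decide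
  have hp_inj : Function.Injective p := by
    intro i j hij
    rcases hfin3 i with rfl | rfl | rfl <;> rcases hfin3 j with rfl | rfl | rfl
    · rfl
    · exfalso; rw [hp0, hp1] at hij; exact huz hij.symm
    · exfalso; rw [hp0, hp2] at hij; exact hzu_ne_z hij.symm
    · exfalso; rw [hp1, hp0] at hij; exact huz hij
    · rfl
    · exfalso; rw [hp1, hp2] at hij; exact hzu_ne_u hij.symm
    · exfalso; rw [hp2, hp0] at hij; exact hzu_ne_z hij
    · exfalso; rw [hp2, hp1] at hij; exact hzu_ne_u hij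
    · rfl
  have hpV : ∀ i, p i ∈ V := by
    intro i
    rcases hfin3 i with rfl | rfl | rfl
    · rw [hp0]; exact hzV
    · rw [hp1]; exact huV
    · rw [hp2]; exact V.mul_mem hzV huV
  have hp1' : ∀ i, p i ≠ 1 := by
    intro i
    rcases hfin3 i with rfl | rfl | rfl
    · rw [hp0]; exact hz1
    · rw [hp1]; exact hu1
    · rw [hp2]; exact hzu_ne_1
  have hVp : ∀ v ∈ V, v ≠ 1 → ∃ j, v = p j := by
    intro v hv hv1
    rcases hVmem v hv with h | h | h | h
    · exact absurd h hv1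
    · exact ⟨0, by rw [hp0, h]⟩
    · exact ⟨1, by rw [hp1, h]⟩
    · exact ⟨2, by rw [hp2, h]⟩
  have hXN : X ≤ Subgroup.normalizer (V : Set G) := by
    rw [hX]; exact sup_le hQV hQ'V
  have hNp : ∀ n ∈ Subgroup.normalizer (V : Set G), ∀ i, ∃ j, n * p i * n⁻¹ = p j := by
    intro n hn i
    have h1 : n * p i * n⁻¹ ∈ V := ((Subgroup.mem_normalizer_iff.mp hn) (p i)).mp (hpV i)
    have h2 : n * p i * n⁻¹ ≠ 1 := by
      intro h
      apply hp1' i
      calc p i = n⁻¹ * (n * p i * n⁻¹) * n := by group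
        _ = 1 := by rw [h]; group
    exact hVp _ h1 h2
  have hex : ∀ (x : ↥X) (i : Fin 3), ∃ j : Fin 3, (x : G) * p i * (x : G)⁻¹ = p j :=
    fun x i => hNp x (hXN x.2) i
  choose σ hσ using hex
  letI act : MulAction ↥X (Fin 3) :=
    { smul := σ
      one_smul := by
        intro i
        show σ 1 i = i
        apply hp_inj
        rw [← hσ]
        simp
      mul_smul := by
        intro x y i
        show σ (x * y) i = σ x (σ y i)
        apply hp_inj
        rw [← hσ, ← hσ, ← hσ]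
        simp [mul_assoc] }
  obtain ⟨ψ, hψ⟩ : ∃ ψ : ↥X →* Equiv.Perm (Fin 3),
      ∀ (x : ↥X) (i : Fin 3), p (ψ x i) = (x : G) * p i * (x : G)⁻¹ :=
    ⟨MulAction.toPermHom ↥X (Fin 3), fun x i => (hσ x i).symm⟩
  have hker : ∀ x : ↥X, ψ x = 1 ↔ (x : G) ∈ R := by
    intro x
    constructor
    · intro h
      apply hXC x x.2
      · have h0 := hψ x 0
        rw [h, Equiv.Perm.one_apply, hp0] at h0
        exact cj_comm h0.symm
      · have h0 := hψ x 1
        rw [h, Equiv.Perm.one_apply, hp1] at h0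
        exact cj_comm h0.symm
    · intro h
      apply Equiv.ext
      intro i
      rw [Equiv.Perm.one_apply]
      apply hp_inj
      rw [hψ]
      exact comm_cj (hVcR (p i) (hpV i) x h)
  have hψt2 : ψ ⟨t, htX⟩ * ψ ⟨t, htX⟩ = 1 := by
    rw [← map_mul, hker]
    exact hts2
  have hψs2 : ψ ⟨s, hsX⟩ * ψ ⟨s, hsX⟩ = 1 := by
    rw [← map_mul, hker]
    exact hss2
  have hψt1 : ψ ⟨t, htX⟩ ≠ 1 := by
    intro h
    have h' : t ∈ R := (hker _).mp h
    have h3 : t * u * t⁻¹ = u := comm_cj (hRu t h')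
    rw [htu] at h3
    exact hzu_ne_u h3
  have hψs1 : ψ ⟨s, hsX⟩ ≠ 1 := by
    intro h
    have h' : s ∈ R := (hker _).mp h
    have h3 : s * z * s⁻¹ = z := comm_cj (hRz s h')
    rw [hsz] at h3
    exact hzu_ne_z h3
  have hψts : ψ ⟨t, htX⟩ ≠ ψ ⟨s, hsX⟩ := by
    intro h
    have h1 : ψ (⟨t, htX⟩ * (⟨s, hsX⟩ : ↥X)⁻¹) = 1 := by
      rw [map_mul, map_inv, h, mul_inv_cancel]
    have h' : t * s⁻¹ ∈ R := (hker _).mp h1
    have h3 : (t * s⁻¹) * u * (t * s⁻¹)⁻¹ = u := comm_cj (hRu _ h')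
    rw [cj_mul htu (cj_inv hsu)] at h3
    exact hzu_ne_u h3
  have hsurj : Function.Surjective ψ := by
    intro ρ
    rcases perm3_L3 _ _ hψt2 hψs2 hψt1 hψs1 hψts ρ with h | h | h | h | h | h
    · exact ⟨1, by rw [map_one, h]⟩
    · exact ⟨_, h.symm⟩
    · exact ⟨_, h.symm⟩
    · exact ⟨⟨t, htX⟩ * ⟨s, hsX⟩, by rw [map_mul, h]⟩
    · exact ⟨⟨s, hsX⟩ * ⟨t, htX⟩, by rw [map_mul, h]⟩
    · exact ⟨⟨t, htX⟩ * ⟨s, hsX⟩ * ⟨t, htX⟩, by rw [map_mul, map_mul, h]⟩
  have hkerEq : R.subgroupOf X = ψ.ker := by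
    ext x
    rw [Subgroup.mem_subgroupOf, MonoidHom.mem_ker, hker]
  have hnorm : (R.subgroupOf X).Normal := by
    rw [hkerEq]; exact MonoidHom.normal_ker ψ
  have hc : ∃ h : (R.subgroupOf X).Normal,
      Nonempty (↥X ⧸ R.subgroupOf X ≃* Equiv.Perm (Fin 3)) :=
    ⟨hnorm, ⟨(QuotientGroup.quotientMulEquivOfEq hkerEq).trans
      (QuotientGroup.quotientKerEquivOfSurjective ψ hsurj)⟩⟩
  have hR2 : IsPGroup 2 ↥R := by
    intro x
    refine ⟨2, ?_⟩
    have h1 := (h5R x x.2 x x.2).2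
    have h2 := h4E.2 _ h1
    have h3 : (x : G) ^ 4 = 1 := by
      rw [show (4 : ℕ) = 2 * 2 from rfl, pow_mul]; exact h2
    rw [show (2 : ℕ) ^ 2 = 4 from rfl]
    apply Subtype.ext
    rw [Subgroup.coe_pow, Subgroup.coe_one]
    exact h3
  have hb1 : R ≤ (Cfsg.pCore 2 ↥X).map X.subtype := le_pCore_map_of_normal X R hRX hR2 hXR
  have hb2 : (Cfsg.pCore 2 ↥X).map X.subtype ≤ R := by
    rintro _ ⟨n, hn, rfl⟩
    show (n : G) ∈ R
    rw [← hker]
    apply perm3_L2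
    intro τ
    obtain ⟨y, rfl⟩ := hsurj τ
    have hmem : n * (y * n * y⁻¹) ∈ Cfsg.pCore 2 ↥X :=
      Subgroup.mul_mem _ hn ((Cfsg.Agent.Lib.Helper28.pCore_normal (G := ↥X) (p := 2)).conj_mem n hn y)
    obtain ⟨k, hk⟩ := (Cfsg.Agent.Lib.Helper28.pCore_isPGroup (G := ↥X) (p := 2)) ⟨_, hmem⟩
    have hk' : (n * (y * n * y⁻¹)) ^ 2 ^ k = 1 := by
      have := congrArg Subtype.val hk
      simpa using this
    have hk2 : (ψ n * (ψ y * ψ n * (ψ y)⁻¹)) ^ 2 ^ k = 1 := by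
      rw [← map_inv, ← map_mul, ← map_mul, ← map_mul, ← map_pow, hk', map_one]
    rcases perm3_L1 (ψ n * (ψ y * ψ n * (ψ y)⁻¹)) with h | h
    · exact h
    · have h1 : orderOf (ψ n * (ψ y * ψ n * (ψ y)⁻¹)) ∣ 3 := orderOf_dvd_of_pow_eq_one h
      have h2 : orderOf (ψ n * (ψ y * ψ n * (ψ y)⁻¹)) ∣ 2 ^ k := orderOf_dvd_of_pow_eq_one hk2
      have hcop : Nat.Coprime 3 (2 ^ k) := Nat.Coprime.pow_right k (by norm_num)
      have h3 := Nat.dvd_gcd h1 h2
      rw [Nat.Coprime.gcd_eq_one hcop, Nat.dvd_one, orderOf_eq_one_iff] at h3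
      rw [h3, one_pow]
  have hCVN : Subgroup.centralizer (V : Set G) ≤ Subgroup.normalizer (V : Set G) := by
    apply le_normalizer_of_conj
    intro c hc v hv
    have h1 := Subgroup.mem_centralizer_iff.mp hc v hv
    have e : c * v * c⁻¹ = v := by rw [← h1]; group
    rw [e]; exact hv
  have hd : Subgroup.normalizer (V : Set G) =
      X ⊔ (Subgroup.centralizer ({z} : Set G) ⊓ Subgroup.centralizer (V : Set G)) := by
    apply le_antisymm
    · intro n hn
      have key : ∃ x ∈ X, (x⁻¹ * n) * z = z * (x⁻¹ * n) ∧ (x⁻¹ * n) * u = u * (x⁻¹ * n) := by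
        obtain ⟨i, hi⟩ := hNp n hn 0
        obtain ⟨j, hj⟩ := hNp n hn 1
        rw [hp0] at hi
        rw [hp1] at hj
        have hij : i ≠ j := by
          intro h
          rw [h] at hi
          apply huz
          have h' : n * z * n⁻¹ = n * u * n⁻¹ := by rw [hi, hj]
          calc u = n⁻¹ * (n * u * n⁻¹) * n := by group
            _ = n⁻¹ * (n * z * n⁻¹) * n := by rw [h']
            _ = z := by group
        have gen : ∀ x ∈ X, x * z * x⁻¹ = p i → x * u * x⁻¹ = p j →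
            ∃ x ∈ X, (x⁻¹ * n) * z = z * (x⁻¹ * n) ∧ (x⁻¹ * n) * u = u * (x⁻¹ * n) := by
          intro x hx h1 h2
          refine ⟨x, hx, ?_, ?_⟩
          · calc x⁻¹ * n * z = x⁻¹ * (n * z * n⁻¹) * n := by group
              _ = x⁻¹ * (x * z * x⁻¹) * n := by rw [hi, h1]
              _ = z * (x⁻¹ * n) := by group
          · calc x⁻¹ * n * u = x⁻¹ * (n * u * n⁻¹) * n := by group
              _ = x⁻¹ * (x * u * x⁻¹) * n := by rw [hj, h2]
              _ = u * (x⁻¹ * n) := by group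
        rcases hfin3 i with rfl | rfl | rfl <;> rcases hfin3 j with rfl | rfl | rfl
        · exact absurd rfl hij
        · exact gen 1 X.one_mem (by rw [hp0]; group) (by rw [hp1]; group)
        · exact gen t htX (by rw [hp0]; exact htz) (by rw [hp2]; exact htu)
        · exact gen (t * s * t) (X.mul_mem (X.mul_mem htX hsX) htX)
            (by rw [hp1]; exact cj_mul (cj_mul htzu hsz) htz)
            (by rw [hp0]; exact cj_mul (cj_mul htz hszu) htu)
        · exact absurd rfl hij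
        · exact gen (t * s) (X.mul_mem htX hsX) (by rw [hp1]; exact cj_mul htzu hsz)
            (by rw [hp2]; exact cj_mul htu hsu)
        · exact gen (s * t) (X.mul_mem hsX htX) (by rw [hp2]; exact cj_mul hsz htz)
            (by rw [hp0]; exact cj_mul hszu htu)
        · exact gen s hsX (by rw [hp2]; exact hsz) (by rw [hp1]; exact hsu)
        · exact absurd rfl hij
      obtain ⟨x, hx, h1, h2⟩ := key
      have e : n = x * (x⁻¹ * n) := by group
      rw [e]
      apply Subgroup.mul_mem_sup hx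
      rw [Subgroup.mem_inf, hcs, hCV]
      exact ⟨h1.symm, h1.symm, h2.symm⟩
    · exact sup_le hXN (inf_le_right.trans hCVN)
  have hCX : Subgroup.centralizer ({z} : Set G) ⊓ Subgroup.centralizer (V : Set G) ≤
      Subgroup.normalizer (X : Set G) := by
    apply le_normalizer_of_conj
    intro c hc x hx
    rw [Subgroup.mem_inf, hcs, hCV] at hc
    have hle : Q ⊔ Q' ≤ X.comap (MulAut.conj c).toMonoidHom := by
      apply sup_le
      · intro q hq
        rw [Subgroup.mem_comap]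
        show c * q * c⁻¹ ∈ X
        rw [hX]
        exact le_sup_left (a := Q) (hNz c hc.1.symm q hq)
      · intro q hq
        rw [Subgroup.mem_comap]
        show c * q * c⁻¹ ∈ X
        rw [hX]
        exact le_sup_right (a := Q) (hNu c hc.2.2.symm q hq)
    have hx' : x ∈ Q ⊔ Q' := by rw [← hX]; exact hx
    have h := hle hx'
    rw [Subgroup.mem_comap] at h
    exact h
  have hNX : Subgroup.normalizer (V : Set G) ≤ Subgroup.normalizer (X : Set G) := by
    rw [hd]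
    exact sup_le Subgroup.le_normalizer hCX
  have he : ∀ y ∈ Subgroup.normalizer (V : Set G), ∀ x ∈ X, y * x * y⁻¹ ∈ X := fun y hy x hx =>
    ((Subgroup.mem_normalizer_iff.mp (hNX hy)) x).mp hx
  have hf : R ≤ Subgroup.centralizer ({z} : Set G) ⊓ Subgroup.centralizer (V : Set G) := by
    intro r hr
    rw [Subgroup.mem_inf, hcs, hCV]
    exact ⟨hRz r hr, hRz r hr, hRu r hr⟩
  have hg' : ∀ x ∈ X, ∀ c ∈ Subgroup.centralizer ({z} : Set G) ⊓ Subgroup.centralizer (V : Set G),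
      x * c * x⁻¹ * c⁻¹ ∈ R := by
    intro x hx c hc
    have hcN : c ∈ Subgroup.normalizer (X : Set G) := hCX hc
    have hcV : c ∈ Subgroup.centralizer (V : Set G) := hc.2
    have hgen : ∀ v ∈ V, v * (x * c * x⁻¹ * c⁻¹) = (x * c * x⁻¹ * c⁻¹) * v := by
      intro v hv
      have hv' : x⁻¹ * v * x ∈ V := by
        have h := ((Subgroup.mem_normalizer_iff.mp (hXN (X.inv_mem hx))) v).mp hv
        rwa [inv_inv] at h
      have h1 : v * c = c * v := Subgroup.mem_centralizer_iff.mp hcV v hv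
      have h2 : (x⁻¹ * v * x) * c = c * (x⁻¹ * v * x) := Subgroup.mem_centralizer_iff.mp hcV _ hv'
      calc v * (x * c * x⁻¹ * c⁻¹) = x * ((x⁻¹ * v * x) * c) * x⁻¹ * c⁻¹ := by group
        _ = x * (c * (x⁻¹ * v * x)) * x⁻¹ * c⁻¹ := by rw [h2]
        _ = x * c * x⁻¹ * (c⁻¹ * (c * v)) * c⁻¹ := by group
        _ = x * c * x⁻¹ * (c⁻¹ * (v * c)) * c⁻¹ := by rw [h1]
        _ = x * c * x⁻¹ * c⁻¹ * v := by group
    apply hXC
    · have e : x * c * x⁻¹ * c⁻¹ = x * (c * x⁻¹ * c⁻¹) := by group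
      rw [e]
      exact X.mul_mem hx (((Subgroup.mem_normalizer_iff.mp hcN) _).mp (X.inv_mem hx))
    · exact hgen z hzV
    · exact hgen u huV
  have hh : X ⊓ (Subgroup.centralizer ({z} : Set G) ⊓ Subgroup.centralizer (V : Set G)) = R := by
    apply le_antisymm
    · rintro x ⟨hx, hc⟩
      have hc' := (hCV x).mp hc.2
      exact hXC x hx hc'.1 hc'.2
    · exact le_inf hRX hf
  have ha : R = X ⊓ Subgroup.centralizer (V : Set G) := by
    apply le_antisymm
    · exact le_inf hRX (hf.trans inf_le_right)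
    · rintro x ⟨hx, hc⟩
      have hc' := (hCV x).mp hc
      exact hXC x hx hc'.1 hc'.2
  exact ⟨ha, le_antisymm hb1 hb2, hc, hd, he, hf, hg', hh⟩
end Cfsg.Agent.S5430
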