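import Cfsg.Statements.S5433

set_option autoImplicit false
open Cfsg

namespace Cfsg.Agent.S5433

/-- Let Q be a large extraspecial 2-subgroup of the finite group G (extraspecial; centralizer equal to its centre; normal in the centralizer of its centre; normalizing no non-trivial subgroup of odd order), and L a normal subgroup of G containing Q. Then G is the product of L and the normalizer of Q. -/
theorem result {G : Type*} [Group G] [Finite G] (Q : Subgroup G) (hQ : Cfsg.IsLargeExtraspecial Q) (L : Subgroup G) [L.Normal] (hQL : Q ≤ L) : L ⊔ Subgroup.normalizer (Q : Set G) = ⊤ := by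
  classical
  haveI : Fact (Nat.Prime 2) := ⟨Nat.prime_two⟩
  obtain ⟨hE, hcent, hnorm, _⟩ := hQ
  have hQp : IsPGroup 2 Q := hE.1.1
  have hcard : Nat.card (Subgroup.center ↥Q) = 2 := hE.2
  -- a Sylow 2-subgroup T of L containing Q
  have hQ'p : IsPGroup 2 (Q.subgroupOf L) := by
    have : IsPGroup 2 (Q.subgroupOf L) := hQp.comap_of_injective (L.subtype) (Subgroup.subtype_injective L)
    exact this
  obtain ⟨T, hT⟩ := hQ'p.exists_le_sylow
  have hfrat := Sylow.normalizer_sup_eq_top T
  set T' : Subgroup G := (T : Subgroup L).map L.subtype with hT'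
  have hQT' : Q ≤ T' := by
    intro q hq
    refine ⟨⟨q, hQL hq⟩, hT ?_, rfl⟩
    exact Subgroup.mem_subgroupOf.mpr hq
  -- T is a nontrivial finite 2-group
  have hZne : Nontrivial (Subgroup.center ↥Q) := by
    apply (Finite.one_lt_card_iff_nontrivial).mp
    rw [hcard]; norm_num
  obtain ⟨⟨⟨q0, hq0Q⟩, hq0c⟩, hq0ne⟩ := exists_ne (1 : Subgroup.center ↥Q)
  have hq0ne' : q0 ≠ 1 := by
    intro h
    apply hq0ne
    ext
    exact h
  have hTnt : Nontrivial (T : Subgroup L) := by
    refine ⟨⟨⟨⟨q0, hQL hq0Q⟩, hT (Subgroup.mem_subgroupOf.mpr hq0Q)⟩, 1, ?_⟩⟩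
    intro h
    apply hq0ne'
    have := congrArg (fun x : (T : Subgroup L) => ((x : L) : G)) h
    simpa using this
  haveI := hTnt
  have hTp : IsPGroup 2 (T : Subgroup L) := T.isPGroup'
  have hcn : Nontrivial (Subgroup.center (T : Subgroup L)) := hTp.center_nontrivial
  obtain ⟨⟨c, hc⟩, hcne⟩ := exists_ne (1 : Subgroup.center (T : Subgroup L))
  have hcne' : ((c : L) : G) ≠ 1 := by
    intro h
    apply hcne
    ext
    simpa using h
  set z : G := ((c : L) : G) with hz
  have hzT' : z ∈ T' := ⟨(c : L), c.2, rfl⟩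
  have hzcomm : ∀ t ∈ T', t * z = z * t := by
    rintro _ ⟨t, ht, rfl⟩
    have h1 := Subgroup.mem_center_iff.mp hc ⟨t, ht⟩
    have h2 := congrArg (fun x : (T : Subgroup L) => ((x : L) : G)) h1
    simpa using h2
  -- members of T' commuting with T' lie in Z
  have hinZ : ∀ y ∈ T', (∀ t ∈ T', t * y = y * t) → y ∈ (Subgroup.center ↥Q).map Q.subtype := by
    intro y _ hy
    rw [← hcent, Subgroup.mem_centralizer_iff]
    intro q hq
    exact hy q (hQT' hq)
  have hcardZ : Nat.card ((Subgroup.center ↥Q).map Q.subtype) = 2 := by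
    rw [Subgroup.card_map_of_injective (Subgroup.subtype_injective Q)]
    exact hcard
  obtain ⟨w, _, hwuniq⟩ := (Nat.card_eq_two_iff' (1 : ((Subgroup.center ↥Q).map Q.subtype))).mp hcardZ
  have huniq : ∀ y ∈ (Subgroup.center ↥Q).map Q.subtype, y ≠ 1 → y = z := by
    intro y hy hy1
    have h1 := hwuniq ⟨y, hy⟩ (by intro h; apply hy1; simpa using congrArg Subtype.val h)
    have h2 := hwuniq ⟨z, hinZ z hzT' hzcomm⟩ (by intro h; apply hcne'; simpa using congrArg Subtype.val h)
    have := h1.trans h2.symm
    simpa using congrArg Subtype.val this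
  -- the normalizer of T' lies in the normalizer of Q
  have hNT : Subgroup.normalizer (T' : Set G) ≤ Subgroup.normalizer (Q : Set G) := by
    intro n hn
    apply hnorm
    rw [Subgroup.mem_centralizer_iff]
    have hnz : n * z * n⁻¹ = z := by
      apply huniq
      · apply hinZ
        · exact (Subgroup.mem_normalizer_iff.mp hn z).1 hzT'
        · intro t ht
          have h1 : n⁻¹ * t * n ∈ T' := by
            have := (Subgroup.mem_normalizer_iff.mp hn (n⁻¹ * t * n)).2
            apply this
            have e : n * (n⁻¹ * t * n) * n⁻¹ = t := by group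
            rw [e]; exact ht
          have h2 := hzcomm _ h1
          calc t * (n * z * n⁻¹) = n * ((n⁻¹ * t * n) * z) * n⁻¹ := by group
            _ = n * (z * (n⁻¹ * t * n)) * n⁻¹ := by rw [h2]
            _ = n * z * n⁻¹ * t := by group
      · intro h
        apply hcne'
        have : z = n⁻¹ * (n * z * n⁻¹) * n := by group
        rw [this, h]; group
    intro y hy
    by_cases hy1 : y = 1
    · rw [hy1]; simp
    · rw [huniq y hy hy1]
      calc z * n = (n * z * n⁻¹) * n := by rw [hnz]
        _ = n * z := by group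
  rw [sup_comm]
  apply top_le_iff.mp
  rw [← hfrat]
  exact sup_le_sup_right hNT L
end Cfsg.Agent.S5433
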