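import Cfsg.Statements.S5434
import Cfsg.Agent.Lib.Helper28.ESDecomp

set_option autoImplicit false
open Cfsg

namespace Cfsg.Agent.S5434

open Cfsg.Agent.Lib.Helper28
open scoped commutatorElement

/-- Let Q be a large extraspecial 2-subgroup of the finite group G (extraspecial; centralizer equal to its centre; normal in the centralizer of its centre; normalizing no non-trivial subgroup of odd order), and A a non-trivial subgroup of odd order of the normalizer of Q. Then Q is the central product of the centralizer of A in Q and the commutator subgroup [Q, A] (they generate Q and commute elementwise), [Q, A] is extraspecial, and the centralizer of A in Q is either the centre of Q or extraspecial. -/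
theorem result {G : Type*} [Group G] [Finite G] (Q : Subgroup G) (hQ : Cfsg.IsLargeExtraspecial Q) (A : Subgroup G) (hA : A ≤ Subgroup.normalizer (Q : Set G)) (hAodd : Odd (Nat.card ↥A)) (hA1 : A ≠ ⊥) : (Q ⊓ Subgroup.centralizer (A : Set G)) ⊔ ⁅Q, A⁆ = Q ∧ (∀ x ∈ Q ⊓ Subgroup.centralizer (A : Set G), ∀ y ∈ ⁅Q, A⁆, x * y = y * x) ∧ Cfsg.IsExtraspecial 2 ↥⁅Q, A⁆ ∧ (Q ⊓ Subgroup.centralizer (A : Set G) = ((Subgroup.center ↥Q).map Q.subtype) ∨ Cfsg.IsExtraspecial 2 ↥(Q ⊓ Subgroup.centralizer (A : Set G))) := by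
  classical
  haveI : Fact (Nat.Prime 2) := ⟨Nat.prime_two⟩
  obtain ⟨hE, hCQ, hN, hK⟩ := hQ
  obtain ⟨z, hzZ, hz1, hzQ, hzz, hzc, hall⟩ := extraspecial_center Q hE
  have hZs : ∀ x, x ∈ (Subgroup.center ↥Q).map Q.subtype ↔ (x = 1 ∨ x = z) := by
    intro x
    constructor
    · exact hall x
    · rintro (h | h)
      · rw [h]; exact Subgroup.one_mem _
      · rw [h]; exact hzZ
  have hAQ : ∀ a ∈ A, ∀ q ∈ Q, a * q * a⁻¹ ∈ Q := fun a ha q hq =>
    ((Subgroup.mem_normalizer_iff.mp (hA ha)) q).mp hq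
  have hAQ' : ∀ a ∈ A, ∀ q ∈ Q, a⁻¹ * q * a ∈ Q := by
    intro a ha q hq
    have := hAQ a⁻¹ (A.inv_mem ha) q hq
    simpa using this
  have hcent : ∀ d : G, (∀ q ∈ Q, d * q = q * d) → d = 1 ∨ d = z := by
    intro d hd
    apply hall
    rw [← hCQ, Subgroup.mem_centralizer_iff]
    intro q hq
    exact (hd q hq).symm
  have hAz : ∀ a ∈ A, a * z = z * a := by
    intro a ha
    have h1 : a * z * a⁻¹ = 1 ∨ a * z * a⁻¹ = z := by
      apply hcent
      intro q hq
      have h2 := hzc _ (hAQ' a ha q hq)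
      calc a * z * a⁻¹ * q = a * (z * (a⁻¹ * q * a)) * a⁻¹ := by group
        _ = a * ((a⁻¹ * q * a) * z) * a⁻¹ := by rw [h2]
        _ = q * (a * z * a⁻¹) := by group
    rcases h1 with h1 | h1
    · exfalso; apply hz1
      calc z = a⁻¹ * (a * z * a⁻¹) * a := by group
        _ = 1 := by rw [h1]; group
    · calc a * z = (a * z * a⁻¹) * a := by group
        _ = z * a := by rw [h1]
  have hodd : ∀ a ∈ A, Odd (orderOf a) := by
    intro a ha
    have h3 : orderOf (⟨a, ha⟩ : ↥A) ∣ Nat.card ↥A := orderOf_dvd_natCard _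
    rw [Subgroup.orderOf_mk] at h3
    exact hAodd.of_dvd_nat h3
  have hcomm : ∀ a ∈ Q, ∀ b ∈ Q, a * b * a⁻¹ * b⁻¹ = 1 ∨ a * b * a⁻¹ * b⁻¹ = z :=
    fun a ha b hb => les_comm Q hE hall ha hb
  obtain ⟨P, hP⟩ : ∃ P : Subgroup G, P = ⁅Q, A⁆ := ⟨_, rfl⟩
  obtain ⟨C, hC⟩ : ∃ C : Subgroup G, C = Q ⊓ Subgroup.centralizer (A : Set G) := ⟨_, rfl⟩
  rw [← hP, ← hC]
  have hPQ : P ≤ Q := by
    rw [hP, Subgroup.commutator_le]
    intro q hq a ha
    rw [commutatorElement_def]
    have e : q * a * q⁻¹ * a⁻¹ = q * (a * q⁻¹ * a⁻¹) := by group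
    rw [e]
    exact Q.mul_mem hq (hAQ a ha _ (Q.inv_mem hq))
  have hcomP : ∀ q ∈ Q, ∀ a ∈ A, q * a * q⁻¹ * a⁻¹ ∈ P := by
    intro q hq a ha
    rw [hP]
    exact Subgroup.commutator_mem_commutator hq ha
  have hCQ' : C ≤ Q := by rw [hC]; exact inf_le_left
  have hCA : ∀ x ∈ C, ∀ a ∈ A, a * x = x * a := by
    intro x hx a ha
    rw [hC] at hx
    exact Subgroup.mem_centralizer_iff.mp hx.2 a ha
  have hCmem : ∀ x ∈ Q, (∀ a ∈ A, a * x = x * a) → x ∈ C := by
    intro x hx h
    rw [hC]
    exact ⟨hx, Subgroup.mem_centralizer_iff.mpr h⟩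
  have hzC : z ∈ C := hCmem z hzQ hAz
  -- (2)
  have h2 : ∀ x ∈ C, ∀ y ∈ P, x * y = y * x := by
    intro w hw
    have hwQ : w ∈ Q := hCQ' hw
    have key : P ≤ Subgroup.centralizer ({w} : Set G) := by
      rw [hP, Subgroup.commutator_le]
      intro q hq a ha
      rw [Subgroup.mem_centralizer_iff]
      intro w' hw'
      rw [Set.mem_singleton_iff] at hw'
      subst hw'
      rw [commutatorElement_def]
      have hyQ : q * a * q⁻¹ * a⁻¹ ∈ Q := hPQ (hcomP q hq a ha)
      obtain ⟨c, hc⟩ : ∃ c, c = w' * q * w'⁻¹ * q⁻¹ := ⟨_, rfl⟩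
      have hc' : c = 1 ∨ c = z := by rw [hc]; exact hcomm w' hwQ q hq
      have hcQ : ∀ q ∈ Q, c * q = q * c := by
        rcases hc' with h | h
        · intro q _; rw [h]; simp
        · rw [h]; exact hzc
      have hca : a * c = c * a := by
        rcases hc' with h | h
        · rw [h]; simp
        · rw [h]; exact hAz a ha
      have s1 : SemiconjBy w' q (c * q) := by
        unfold SemiconjBy; rw [hc]; group
      have s2 : SemiconjBy w' a a := (hCA w' hw a ha).symm
      have s3 := ((s1.mul_right s2).mul_right s1.inv_right).mul_right s2.inv_right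
      have e2 : c * q * a * (c * q)⁻¹ * a⁻¹ = q * a * q⁻¹ * a⁻¹ := by
        calc c * q * a * (c * q)⁻¹ * a⁻¹ = c * (q * a * q⁻¹) * (a * c)⁻¹ := by group
          _ = c * (q * a * q⁻¹) * (c * a)⁻¹ := by rw [hca]
          _ = (c * (q * a * q⁻¹ * a⁻¹)) * c⁻¹ := by group
          _ = ((q * a * q⁻¹ * a⁻¹) * c) * c⁻¹ := by rw [hcQ _ hyQ]
          _ = q * a * q⁻¹ * a⁻¹ := by group
      rw [e2] at s3
      exact s3.eq
    intro y hy
    exact Subgroup.mem_centralizer_iff.mp (key hy) w (Set.mem_singleton w)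
  -- triviality criterion
  have hAtriv : (∀ q ∈ Q, ∀ a ∈ A, a * q * a⁻¹ * q⁻¹ = 1 ∨ a * q * a⁻¹ * q⁻¹ = z) → False := by
    intro h
    apply hA1
    rw [Subgroup.eq_bot_iff_forall]
    intro a ha
    have h1 : a = 1 ∨ a = z := by
      apply hcent
      intro q hq
      have h3 := odd_comm_trivial hzz (hAz a ha) (hodd a ha) (h q hq a ha)
      calc a * q = (a * q * a⁻¹ * q⁻¹) * (q * a) := by group
        _ = q * a := by rw [h3, one_mul]
    rcases h1 with h1 | h1
    · exact h1
    · exfalso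
      apply hz1
      apply eq_one_of_two_pow_of_odd hAodd (h1 ▸ ha) ⟨1, ?_⟩
      rw [pow_one, pow_two]; exact hzz
  -- (1)
  have h1 : C ⊔ P = Q := by
    apply le_antisymm (sup_le hCQ' hPQ)
    intro q hq
    obtain ⟨D, hD⟩ : ∃ D : Subgroup G, D = C ⊔ P := ⟨_, rfl⟩
    rw [← hD]
    have hCD : C ≤ D := by rw [hD]; exact le_sup_left
    have hPD : P ≤ D := by rw [hD]; exact le_sup_right
    have hDQ : D ≤ Q := by rw [hD]; exact sup_le hCQ' hPQ
    have hzD : z ∈ D := hCD hzC
    have hDn : ∀ q ∈ Q, ∀ d ∈ D, q * d * q⁻¹ ∈ D := by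
      intro q hq d hd
      have e : q * d * q⁻¹ = (q * d * q⁻¹ * d⁻¹) * d := by group
      rw [e]
      rcases hcomm q hq d (hDQ hd) with h | h
      · rw [h, one_mul]; exact hd
      · rw [h]; exact D.mul_mem hzD hd
    haveI : Fintype ↥A := Fintype.ofFinite _
    obtain ⟨L, hL⟩ : ∃ L : List ↥A, L = (Finset.univ : Finset ↥A).toList := ⟨_, rfl⟩
    have hLnd : L.Nodup := by rw [hL]; exact Finset.nodup_toList _
    have hLmem : ∀ a : ↥A, a ∈ L := by intro a; rw [hL]; simp
    have hLlen : L.length = Nat.card ↥A := by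
      rw [hL, Finset.length_toList, Finset.card_univ, Nat.card_eq_fintype_card]
    obtain ⟨f, hf⟩ : ∃ f : ↥A → G, ∀ a : ↥A, f a = (a : G) * q * (a : G)⁻¹ :=
      ⟨fun a : ↥A => (a : G) * q * (a : G)⁻¹, fun _ => rfl⟩
    have hfQ : ∀ a : ↥A, f a ∈ Q := by
      intro a; rw [hf]; exact hAQ a a.2 q hq
    obtain ⟨n, hn⟩ : ∃ n : G, n = (L.map f).prod := ⟨_, rfl⟩
    have hnQ : n ∈ Q := by
      rw [hn]
      apply Subgroup.list_prod_mem
      intro x hx
      obtain ⟨a, -, rfl⟩ := List.mem_map.mp hx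
      exact hfQ a
    have hnA : ∀ b ∈ A, b * n = n * b := by
      intro b hb
      have hperm : (L.map (fun a => (⟨b, hb⟩ : ↥A) * a)).Perm L := by
        rw [List.perm_ext_iff_of_nodup (hLnd.map (mul_right_injective _)) hLnd]
        intro a
        constructor
        · intro _; exact hLmem a
        · intro _
          rw [List.mem_map]
          exact ⟨(⟨b, hb⟩ : ↥A)⁻¹ * a, hLmem _, by group⟩
      have hperm2 := hperm.map f
      have e1 : b * n * b⁻¹ = ((L.map (fun a => (⟨b, hb⟩ : ↥A) * a)).map f).prod := by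
        rw [hn]
        have := map_list_prod (MulAut.conj b) (L.map f)
        rw [MulAut.conj_apply] at this
        rw [this, List.map_map, List.map_map]
        congr 1
        apply List.map_congr_left
        intro a _
        simp only [Function.comp_apply, MulAut.conj_apply, hf, Subgroup.coe_mul]
        group
      have h3 := perm_prod_mod Q hzz hzc hcomm hperm2 (by
        intro x hx
        obtain ⟨a, -, rfl⟩ := List.mem_map.mp hx
        exact hfQ a)
      rw [← e1, ← hn] at h3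
      have h4 : b * n * b⁻¹ * n⁻¹ = 1 ∨ b * n * b⁻¹ * n⁻¹ = z := by
        rcases h3 with h | h
        · left; rw [h]; group
        · right; rw [h]; group
      have h5 := odd_comm_trivial hzz (hAz b hb) (hodd b hb) h4
      calc b * n = (b * n * b⁻¹ * n⁻¹) * (n * b) := by group
        _ = n * b := by rw [h5, one_mul]
    have hnC : n ∈ C := hCmem n hnQ hnA
    have hind : ∀ l : List ↥A, (l.map f).prod * (q ^ l.length)⁻¹ ∈ D := by
      intro l
      induction l with
      | nil => simp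
      | cons a l ih =>
        rw [List.map_cons, List.prod_cons, List.length_cons, pow_succ']
        obtain ⟨X, hX⟩ : ∃ X, X = (l.map f).prod := ⟨_, rfl⟩
        obtain ⟨w, hw⟩ : ∃ w, w = q ^ l.length := ⟨_, rfl⟩
        rw [← hX, ← hw] at ih ⊢
        have e : f a * X * (q * w)⁻¹ = ((a : G) * q * (a : G)⁻¹ * q⁻¹) * (q * (X * w⁻¹) * q⁻¹) := by
          rw [hf a]; group
        rw [e]
        apply D.mul_mem
        · apply hPD
          have e' : (a : G) * q * (a : G)⁻¹ * q⁻¹ = (q * (a : G) * q⁻¹ * (a : G)⁻¹)⁻¹ := by group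
          rw [e']
          exact P.inv_mem (hcomP q hq a a.2)
        · exact hDn q hq _ ih
    have h6 := hind L
    rw [← hn, hLlen] at h6
    obtain ⟨m, hm⟩ := hAodd
    have h7 : q ^ (2 * m + 1) ∈ D := by
      rw [← hm]
      have e : q ^ Nat.card ↥A = (n * (q ^ Nat.card ↥A)⁻¹)⁻¹ * n := by group
      rw [e]
      exact D.mul_mem (D.inv_mem h6) (hCD hnC)
    have h8 : q * q ∈ D := by
      rcases es_sq Q hE hall hq with h | h
      · rw [h]; exact D.one_mem
      · rw [h]; exact hzD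
    have e : q = ((q * q) ^ m)⁻¹ * q ^ (2 * m + 1) := by
      rw [pow_succ, pow_mul, pow_two]; group
    rw [e]
    exact D.mul_mem (D.inv_mem (D.pow_mem h8 m)) h7
  -- centres
  have hQcomm : ∀ x : G, (∀ y ∈ C, x * y = y * x) → (∀ y ∈ P, x * y = y * x) →
      ∀ q ∈ Q, x * q = q * x := by
    intro x hxC hxP q hq
    have hle : C ⊔ P ≤ Subgroup.centralizer ({x} : Set G) := by
      apply sup_le
      · intro y hy
        rw [Subgroup.mem_centralizer_iff]
        intro w hw
        rw [Set.mem_singleton_iff] at hw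
        subst hw
        exact hxC y hy
      · intro y hy
        rw [Subgroup.mem_centralizer_iff]
        intro w hw
        rw [Set.mem_singleton_iff] at hw
        subst hw
        exact hxP y hy
    rw [h1] at hle
    exact Subgroup.mem_centralizer_iff.mp (hle hq) x (Set.mem_singleton x)
  have hPcen : ∀ x ∈ P, (∀ y ∈ P, x * y = y * x) → x = 1 ∨ x = z := by
    intro x hx hxP
    apply hcent
    exact hQcomm x (fun y hy => (h2 y hy x hx).symm) hxP
  have hCcen : ∀ x ∈ C, (∀ y ∈ C, x * y = y * x) → x = 1 ∨ x = z := by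
    intro x hx hxC
    apply hcent
    exact hQcomm x hxC (fun y hy => h2 x hx y hy)
  refine ⟨h1, h2, ?_, ?_⟩
  · -- (3)
    apply es_sub Q hE hall hzc P hPQ hPcen
    by_contra hna
    push Not at hna
    apply hAtriv
    intro q hq a ha
    have h3 := hcomP q hq a ha
    have h4 := hPcen _ h3 (fun y hy => hna _ h3 y hy)
    have e : a * q * a⁻¹ * q⁻¹ = (q * a * q⁻¹ * a⁻¹)⁻¹ := by group
    rw [e]
    rcases h4 with h | h
    · left; rw [h, inv_one]
    · right; rw [h]
      calc z⁻¹ = z⁻¹ * (z * z) := by rw [hzz, mul_one]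
        _ = z := by group
  · -- (4)
    by_cases hna : ∃ a ∈ C, ∃ b ∈ C, a * b ≠ b * a
    · right
      exact es_sub Q hE hall hzc C hCQ' hCcen hna
    · left
      push Not at hna
      ext x
      rw [hZs]
      constructor
      · intro hx
        exact hCcen x hx (fun y hy => hna x hx y hy)
      · rintro (h | h)
        · rw [h]; exact C.one_mem
        · rw [h]; exact hzC
end Cfsg.Agent.S5434
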