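import Cfsg.Statements.S5436
import Cfsg.Agent.S5427
import Cfsg.Agent.Lib.Helper18.Frattini

set_option autoImplicit false
open Cfsg

namespace Cfsg.Agent.S5436

theorem center_map_equiv {A : Type*} {B : Type*} [Group A] [Group B] (e : A ≃* B) :
    (Subgroup.center A).map e.toMonoidHom = Subgroup.center B := by
  ext y
  constructor
  · rintro ⟨x, hx, rfl⟩
    rw [Subgroup.mem_center_iff]
    intro g
    obtain ⟨g', rfl⟩ := e.surjective g
    have := Subgroup.mem_center_iff.1 hx g'
    show e g' * e x = e x * e g'
    rw [← map_mul, ← map_mul, this]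
  · intro hy
    refine ⟨e.symm y, Subgroup.mem_center_iff.2 ?_, e.apply_symm_apply y⟩
    intro g
    have := Subgroup.mem_center_iff.1 hy (e g)
    apply e.injective
    rw [map_mul, map_mul, e.apply_symm_apply]
    exact this

theorem extraspecial_transport {A : Type*} {B : Type*} [Group A] [Group B] (e : A ≃* B) {p : ℕ}
    (h : Cfsg.IsExtraspecial p A) : Cfsg.IsExtraspecial p B := by
  obtain ⟨⟨hp, hf, hc⟩, hz⟩ := h
  have hcen := center_map_equiv e
  have hcom : (commutator A).map e.toMonoidHom = commutator B := by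
    rw [commutator_def, commutator_def, Subgroup.map_commutator,
      Subgroup.map_top_of_surjective _ e.surjective]
  refine ⟨⟨hp.of_equiv e, ?_, ?_⟩, ?_⟩
  · rw [← Cfsg.Agent.Lib.Helper18.frattini_map_equiv e, hf, hcen]
  · rw [← hcom, hc, hcen]
  · rw [← hcen, Subgroup.card_map_of_injective e.injective]
    exact hz

/-- Let z be an involution of the finite group G with centralizer H whose generalized Fitting subgroup Q is extraspecial of width at least 2 (order 2^(2w+1), w ≥ 2); suppose some conjugate of z other than z lies in Q, H/Q is a non-abelian simple group, H acts irreducibly by conjugation on Q modulo the subgroup generated by z (the only H-invariant subgroups of Q containing z are that subgroup and Q), and Q is not the subgroup generated by the conjugates of z lying in H. Then G is simple. -/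
theorem result {G : Type*} [Group G] [Finite G] (z : G) (hz : orderOf z = 2) (Q : Subgroup (Subgroup.centralizer ({z} : Set G))) [Q.Normal] (hF : Cfsg.generalizedFittingSubgroup ↥(Subgroup.centralizer ({z} : Set G)) = Q) (hQ : Cfsg.IsExtraspecial 2 ↥Q) (w : ℕ) (hw : 2 ≤ w) (hcard : Nat.card ↥Q = 2 ^ (2 * w + 1)) (hnwc : ∃ g : G, (∃ hq : g * z * g⁻¹ ∈ Subgroup.centralizer ({z} : Set G), (⟨g * z * g⁻¹, hq⟩ : Subgroup.centralizer ({z} : Set G)) ∈ Q) ∧ g * z * g⁻¹ ≠ z) (hsimp : IsSimpleGroup (↥(Subgroup.centralizer ({z} : Set G)) ⧸ Q)) (hna : ¬ IsMulCommutative (↥(Subgroup.centralizer ({z} : Set G)) ⧸ Q)) (hirr : ∀ W : Subgroup (Subgroup.centralizer ({z} : Set G)), W.Normal → W ≤ Q → (W = Q ∨ ∀ x ∈ W, (x : G) ∈ Subgroup.zpowers z)) (hwcl : Subgroup.closure {x : Subgroup.centralizer ({z} : Set G) | IsConj z (x : G)} ≠ Q) : IsSimpleGroup G := by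
  classical
  have hQC : Q.map (Subgroup.centralizer ({z} : Set G)).subtype ≤ Subgroup.centralizer ({z} : Set G) := by
    rintro x ⟨y, -, rfl⟩
    exact y.2
  have hF' : (Cfsg.generalizedFittingSubgroup ↥(Subgroup.centralizer ({z} : Set G))).map
      (Subgroup.centralizer ({z} : Set G)).subtype = Q.map (Subgroup.centralizer ({z} : Set G)).subtype := by
    rw [hF]
  have e : ↥Q ≃* ↥(Q.map (Subgroup.centralizer ({z} : Set G)).subtype) :=
    Q.equivMapOfInjective _ (Subgroup.subtype_injective _)
  have hQ' : Cfsg.IsExtraspecial 2 ↥(Q.map (Subgroup.centralizer ({z} : Set G)).subtype) :=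
    extraspecial_transport e hQ
  have hcard' : Nat.card ↥(Q.map (Subgroup.centralizer ({z} : Set G)).subtype) = 2 ^ (2 * w + 1) := by
    rw [← hcard]
    exact (Nat.card_congr e.toEquiv).symm
  obtain ⟨hzQ, hz1, hzz, hZiff, hL2, hL3, hN4, hN5, hN6⟩ :=
    Cfsg.Agent.S5427.core z hz _ hQC hF' hQ'
  obtain ⟨g, ⟨hq, hgQ⟩, hgz⟩ := hnwc
  have hg1 : g * z * g⁻¹ ≠ 1 := by
    intro h
    apply hz1
    calc z = g⁻¹ * (g * z * g⁻¹) * g := by group
      _ = 1 := by rw [h]; group
  have hgzp : g * z * g⁻¹ ∉ Subgroup.zpowers z := by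
    intro h
    have h2 : Subgroup.zpowers z ≤ (Subgroup.center ↥(Q.map (Subgroup.centralizer ({z} : Set G)).subtype)).map
        (Q.map (Subgroup.centralizer ({z} : Set G)).subtype).subtype := by
      rw [Subgroup.zpowers_le]
      exact (hZiff z).mpr (Or.inr rfl)
    rcases (hZiff _).mp (h2 h) with h3 | h3
    · exact hg1 h3
    · exact hgz h3
  have hlarge : Cfsg.IsLargeExtraspecial (Q.map (Subgroup.centralizer ({z} : Set G)).subtype) := by
    have hg : g ∉ Subgroup.normalizer (((Subgroup.center
        ↥(Q.map (Subgroup.centralizer ({z} : Set G)).subtype)).map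
        (Q.map (Subgroup.centralizer ({z} : Set G)).subtype).subtype : Subgroup G) : Set G) := by
      intro hk
      rw [Subgroup.mem_normalizer_iff] at hk
      have h1 := (hk z).mp ((hZiff z).mpr (Or.inr rfl))
      rcases (hZiff _).mp h1 with h | h
      · exact hg1 h
      · exact hgz h
    have hZg : ((Subgroup.center ↥(Q.map (Subgroup.centralizer ({z} : Set G)).subtype)).map
        (Q.map (Subgroup.centralizer ({z} : Set G)).subtype).subtype).map (MulAut.conj g).toMonoidHom
        ≤ Q.map (Subgroup.centralizer ({z} : Set G)).subtype := by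
      rintro x ⟨y, hy, rfl⟩
      rcases (hZiff y).mp hy with h | h
      · rw [h, map_one]
        exact Subgroup.one_mem _
      · rw [h]
        exact ⟨⟨g * z * g⁻¹, hq⟩, hgQ, rfl⟩
    exact (Cfsg.Agent.S5422.result _ hQ' hL2 hL3 w hw hcard' g hg hZg).2.2
  refine { exists_pair_ne := ⟨z, 1, hz1⟩, eq_bot_or_eq_top_of_normal := ?_ }
  intro N hN
  rcases hN4 N hN with h | h
  · left
    have hodd := hN5 N hN h
    apply hlarge.2.2.2 N hodd
    rw [Subgroup.normalizer_eq_top]
    exact le_top
  · right
    apply hN6 N hN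
    -- the subgroup generated by the conjugates of z in the centralizer
    have hWN : Subgroup.closure {x : Subgroup.centralizer ({z} : Set G) | IsConj z (x : G)} ≤
        N.subgroupOf (Subgroup.centralizer ({z} : Set G)) := by
      rw [Subgroup.closure_le]
      intro x hx
      obtain ⟨c, hc⟩ := isConj_iff.mp hx
      rw [SetLike.mem_coe, Subgroup.mem_subgroupOf, ← hc]
      exact hN.conj_mem z h c
    have hWnorm : (Subgroup.closure {x : Subgroup.centralizer ({z} : Set G) | IsConj z (x : G)}).Normal := by
      constructor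
      intro n hn c
      induction hn using Subgroup.closure_induction with
      | mem y hy =>
        apply Subgroup.subset_closure
        obtain ⟨d, hd⟩ := isConj_iff.mp hy
        apply isConj_iff.mpr
        refine ⟨(c : G) * d, ?_⟩
        simp only [Subgroup.coe_mul, Subgroup.coe_inv]
        rw [← hd]
        group
      | one =>
        rw [mul_one, mul_inv_cancel]
        exact Subgroup.one_mem _
      | mul a b _ _ iha ihb =>
        have e2 : c * (a * b) * c⁻¹ = (c * a * c⁻¹) * (c * b * c⁻¹) := by group
        rw [e2]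
        exact Subgroup.mul_mem _ iha ihb
      | inv a _ iha =>
        have e2 : c * a⁻¹ * c⁻¹ = (c * a * c⁻¹)⁻¹ := by group
        rw [e2]
        exact Subgroup.inv_mem _ iha
    have hgW : (⟨g * z * g⁻¹, hq⟩ : Subgroup.centralizer ({z} : Set G)) ∈
        Subgroup.closure {x : Subgroup.centralizer ({z} : Set G) | IsConj z (x : G)} := by
      apply Subgroup.subset_closure
      exact isConj_iff.mpr ⟨g, rfl⟩
    have hMnorm : (N.subgroupOf (Subgroup.centralizer ({z} : Set G))).Normal := hN.subgroupOf _
    -- Q ≤ M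
    have hQM : Q ≤ N.subgroupOf (Subgroup.centralizer ({z} : Set G)) := by
      have hnorm : (N.subgroupOf (Subgroup.centralizer ({z} : Set G)) ⊓ Q).Normal := by
        infer_instance
      rcases hirr _ hnorm inf_le_right with h1 | h1
      · rw [← h1]
        exact inf_le_left
      · exfalso
        exact hgzp (h1 _ (Subgroup.mem_inf.mpr ⟨hWN hgW, hgQ⟩))
    have hmapn : ((N.subgroupOf (Subgroup.centralizer ({z} : Set G))).map (QuotientGroup.mk' Q)).Normal :=
      hMnorm.map _ (QuotientGroup.mk'_surjective Q)
    rcases hsimp.eq_bot_or_eq_top_of_normal _ hmapn with h1 | h1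
    · exfalso
      have hMQ : N.subgroupOf (Subgroup.centralizer ({z} : Set G)) ≤ Q := by
        intro x hx
        have h2 : QuotientGroup.mk' Q x ∈ (N.subgroupOf (Subgroup.centralizer ({z} : Set G))).map
            (QuotientGroup.mk' Q) := ⟨x, hx, rfl⟩
        rw [h1, Subgroup.mem_bot] at h2
        exact (QuotientGroup.eq_one_iff x).mp h2
      have hWQ : Subgroup.closure {x : Subgroup.centralizer ({z} : Set G) | IsConj z (x : G)} ≤ Q :=
        le_trans hWN hMQ
      rcases hirr _ hWnorm hWQ with h2 | h2
      · exact hwcl h2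
      · exact hgzp (h2 _ hgW)
    · have h2 : N.subgroupOf (Subgroup.centralizer ({z} : Set G)) = ⊤ := by
        have h3 := QuotientGroup.comap_map_mk' Q (N.subgroupOf (Subgroup.centralizer ({z} : Set G)))
        rw [h1, Subgroup.comap_top] at h3
        rw [h3]
        exact (sup_eq_right.mpr hQM).symm
      exact Subgroup.subgroupOf_eq_top.mp h2

end Cfsg.Agent.S5436
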