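import Cfsg.Statements.S5437

set_option autoImplicit false
open Cfsg

namespace Cfsg.Agent.S5437

/-- Let I be a set of involutions of the finite group G closed under conjugation, and H a subgroup of G. The following are equivalent: (1) for every member x of I lying in H, the conjugates of x lying in H form a single H-class and the centralizer of x lies in H; (2) for every g outside H, no member of I lies in both H and g H g⁻¹; (3) every member of I lying in H fixes exactly one coset in the action of G on the cosets of H. -/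
theorem result {G : Type*} [Group G] [Finite G] (I : Set G) (hI : ∀ x ∈ I, orderOf x = 2) (hIc : ∀ g : G, ∀ x ∈ I, g * x * g⁻¹ ∈ I) (H : Subgroup G) : ((∀ x ∈ I, x ∈ H → (∀ g : G, g * x * g⁻¹ ∈ H → ∃ h ∈ H, h * x * h⁻¹ = g * x * g⁻¹) ∧ Subgroup.centralizer ({x} : Set G) ≤ H) ↔ (∀ g : G, g ∉ H → ∀ x ∈ I, ¬ (x ∈ H ∧ x ∈ (H : Subgroup G).map (MulAut.conj g).toMonoidHom))) ∧ ((∀ g : G, g ∉ H → ∀ x ∈ I, ¬ (x ∈ H ∧ x ∈ (H : Subgroup G).map (MulAut.conj g).toMonoidHom)) ↔ ∀ x ∈ I, x ∈ H → ∃! c : G ⧸ H, x • c = c) := by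
  classical
  -- membership in a conjugate
  have hmap : ∀ (g x : G), x ∈ (H : Subgroup G).map (MulAut.conj g).toMonoidHom ↔ g⁻¹ * x * g ∈ H := by
    intro g x
    rw [Subgroup.mem_map]
    constructor
    · rintro ⟨y, hy, rfl⟩
      have : g⁻¹ * ((MulAut.conj g).toMonoidHom y) * g = y := by
        simp only [MulEquiv.toMonoidHom_eq_coe, MonoidHom.coe_coe, MulAut.conj_apply]
        group
      rw [this]; exact hy
    · intro h
      refine ⟨g⁻¹ * x * g, h, ?_⟩
      simp [MulAut.conj_apply, mul_assoc]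
  -- fixed cosets
  have hfix : ∀ (g x : G), x • (QuotientGroup.mk g : G ⧸ H) = QuotientGroup.mk g ↔ g⁻¹ * x * g ∈ H := by
    intro g x
    rw [MulAction.Quotient.smul_mk, QuotientGroup.eq, smul_eq_mul]
    have e : (x * g)⁻¹ * g = (g⁻¹ * x * g)⁻¹ := by group
    rw [e, inv_mem_iff]
  have hAB : (∀ x ∈ I, x ∈ H → (∀ g : G, g * x * g⁻¹ ∈ H → ∃ h ∈ H, h * x * h⁻¹ = g * x * g⁻¹) ∧ Subgroup.centralizer ({x} : Set G) ≤ H) → (∀ g : G, g ∉ H → ∀ x ∈ I, ¬ (x ∈ H ∧ x ∈ (H : Subgroup G).map (MulAut.conj g).toMonoidHom)) := by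
    intro hA g hg x hx ⟨hxH, hxg⟩
    rw [hmap] at hxg
    apply hg
    -- y = g⁻¹ x g ∈ I ∩ H
    have hyI : g⁻¹ * x * g ∈ I := by
      have := hIc g⁻¹ x hx
      simpa using this
    obtain ⟨h1, h2⟩ := hA _ hyI hxg
    have e : g * (g⁻¹ * x * g) * g⁻¹ = x := by group
    obtain ⟨h, hh, heq⟩ := h1 g (by rw [e]; exact hxH)
    have hc : h⁻¹ * g ∈ Subgroup.centralizer ({g⁻¹ * x * g} : Set G) := by
      rw [Subgroup.mem_centralizer_iff]
      intro y hy
      rw [Set.mem_singleton_iff] at hy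
      subst hy
      rw [e] at heq
      calc (g⁻¹ * x * g) * (h⁻¹ * g) = h⁻¹ * (h * (g⁻¹ * x * g) * h⁻¹) * g := by group
        _ = h⁻¹ * x * g := by rw [heq]
        _ = h⁻¹ * g * (g⁻¹ * x * g) := by group
    have := H.mul_mem hh (h2 hc)
    simpa using this
  have hBA : (∀ g : G, g ∉ H → ∀ x ∈ I, ¬ (x ∈ H ∧ x ∈ (H : Subgroup G).map (MulAut.conj g).toMonoidHom)) → (∀ x ∈ I, x ∈ H → (∀ g : G, g * x * g⁻¹ ∈ H → ∃ h ∈ H, h * x * h⁻¹ = g * x * g⁻¹) ∧ Subgroup.centralizer ({x} : Set G) ≤ H) := by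
    intro hB x hx hxH
    constructor
    · intro g hg
      have : g⁻¹ ∈ H := by
        by_contra hgn
        apply hB g⁻¹ hgn x hx
        refine ⟨hxH, ?_⟩
        rw [hmap]
        simpa using hg
      exact ⟨g, by simpa using H.inv_mem this, rfl⟩
    · intro c hc
      by_contra hcn
      apply hB c hcn x hx
      refine ⟨hxH, ?_⟩
      rw [hmap]
      rw [Subgroup.mem_centralizer_iff] at hc
      have h1 := hc x (Set.mem_singleton x)
      have : c⁻¹ * x * c = x := by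
        calc c⁻¹ * x * c = c⁻¹ * (x * c) := by group
          _ = c⁻¹ * (c * x) := by rw [h1]
          _ = x := by group
      rw [this]; exact hxH
  have hBC : (∀ g : G, g ∉ H → ∀ x ∈ I, ¬ (x ∈ H ∧ x ∈ (H : Subgroup G).map (MulAut.conj g).toMonoidHom)) → (∀ x ∈ I, x ∈ H → ∃! c : G ⧸ H, x • c = c) := by
    intro hB x hx hxH
    refine ⟨QuotientGroup.mk 1, ?_, ?_⟩
    · show x • (QuotientGroup.mk 1 : G ⧸ H) = QuotientGroup.mk 1
      rw [hfix]; simpa using hxH
    · intro c hc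
      induction c using QuotientGroup.induction_on with
      | H g =>
        have hc' : x • (QuotientGroup.mk g : G ⧸ H) = QuotientGroup.mk g := hc
        rw [hfix] at hc'
        have : g ∈ H := by
          by_contra hgn
          apply hB g hgn x hx
          exact ⟨hxH, (hmap g x).mpr hc'⟩
        rw [QuotientGroup.eq]
        simpa using this
  have hCB : (∀ x ∈ I, x ∈ H → ∃! c : G ⧸ H, x • c = c) → (∀ g : G, g ∉ H → ∀ x ∈ I, ¬ (x ∈ H ∧ x ∈ (H : Subgroup G).map (MulAut.conj g).toMonoidHom)) := by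
    intro hC g hg x hx ⟨hxH, hxg⟩
    rw [hmap] at hxg
    obtain ⟨c, _, huniq⟩ := hC x hx hxH
    have f1 : x • (QuotientGroup.mk 1 : G ⧸ H) = QuotientGroup.mk 1 := by
      rw [hfix]; simpa using hxH
    have f2 : x • (QuotientGroup.mk g : G ⧸ H) = QuotientGroup.mk g := by
      rw [hfix]; exact hxg
    have h1 : (QuotientGroup.mk 1 : G ⧸ H) = c := huniq _ f1
    have h2 : (QuotientGroup.mk g : G ⧸ H) = c := huniq _ f2
    have h3 : (QuotientGroup.mk 1 : G ⧸ H) = QuotientGroup.mk g := h1.trans h2.symm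
    rw [QuotientGroup.eq] at h3
    apply hg
    simpa using h3
  exact ⟨⟨hAB, hBA⟩, ⟨hBC, hCB⟩⟩
end Cfsg.Agent.S5437
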