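import Cfsg.Statements.S5438
import Cfsg.Agent.Lib.Helper28.SylowAux

set_option autoImplicit false
open Cfsg

namespace Cfsg.Agent.S5438

/-- Let z be a 2-central involution of the finite group G (an involution central in some Sylow 2-subgroup) and H a subgroup containing z such that the coset H is the only coset of H fixed by z (in the action of G on the cosets of H). Then H has odd index in G, and for every 2-element x of H the conjugates of x lying in H form a single H-class. -/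
theorem result {G : Type*} [Group G] [Finite G] (z : G) (hz : Cfsg.IsTwoCentralInvolution z) (H : Subgroup G) (hzH : z ∈ H) (hfix : ∀ g : G, g⁻¹ * z * g ∈ H → g ∈ H) : Odd H.index ∧ ∀ x ∈ H, (∃ k : ℕ, orderOf x = 2 ^ k) → ∀ g : G, g * x * g⁻¹ ∈ H → ∃ h ∈ H, h * x * h⁻¹ = g * x * g⁻¹ := by
  classical
  haveI : Fact (Nat.Prime 2) := ⟨Nat.prime_two⟩
  obtain ⟨hz2, P, hzP, hPc⟩ := hz
  have hzz : z * z = 1 := by rw [← pow_two, ← hz2, pow_orderOf_eq_one]
  have hzinv : z⁻¹ = z := inv_eq_of_mul_eq_one_left hzz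
  -- the centralizer of z lies in H
  have hCH : ∀ g : G, g * z = z * g → g ∈ H := by
    intro g hg
    apply hfix
    have : g⁻¹ * z * g = z := by
      calc g⁻¹ * z * g = g⁻¹ * (z * g) := by group
        _ = g⁻¹ * (g * z) := by rw [hg]
        _ = z := by group
    rw [this]; exact hzH
  have hPH : (P : Subgroup G) ≤ H := fun x hx => hCH x (hPc x hx)
  -- variant of hfix
  have hfix' : ∀ w : G, w * z * w⁻¹ ∈ H → w ∈ H := by
    intro w hw
    have := hfix w⁻¹ (by simpa using hw)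
    simpa using H.inv_mem this
  refine ⟨?_, ?_⟩
  · -- the index of H is odd
    have h1 : H.index ∣ (P : Subgroup G).index := Subgroup.index_dvd_of_le hPH
    have h2 : ¬ 2 ∣ (P : Subgroup G).index := P.not_dvd_index
    rw [← Nat.not_even_iff_odd, even_iff_two_dvd]
    intro h3
    exact h2 (dvd_trans h3 h1)
  · -- Claim 1
    have claim1 : ∀ y ∈ H, (∃ k : ℕ, orderOf y = 2 ^ k) → ∃ h ∈ H, (h * z * h⁻¹) * y = y * (h * z * h⁻¹) := by
      intro y hy hord
      have hord' : ∃ k : ℕ, orderOf (⟨y, hy⟩ : H) = 2 ^ k := by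
        obtain ⟨k, hk⟩ := hord
        exact ⟨k, by rw [Subgroup.orderOf_mk]; exact hk⟩
      obtain ⟨k, hk⟩ := Cfsg.Agent.Lib.Helper28.exists_conj_mem_sylow (P.subtype hPH) ⟨y, hy⟩ hord'
      have hk' : (k : G) * y * (k : G)⁻¹ ∈ (P : Subgroup G) := by
        rw [Sylow.coe_subtype, Subgroup.mem_subgroupOf] at hk
        simpa using hk
      have hc := hPc _ hk'
      refine ⟨(k : G)⁻¹, H.inv_mem k.2, ?_⟩
      rw [inv_inv]
      calc (k : G)⁻¹ * z * (k : G) * y = (k : G)⁻¹ * (z * ((k : G) * y * (k : G)⁻¹)) * (k : G) := by group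
        _ = (k : G)⁻¹ * (((k : G) * y * (k : G)⁻¹) * z) * (k : G) := by rw [hc]
        _ = y * ((k : G)⁻¹ * z * (k : G)) := by group
    -- Claim 2
    have claim2 : ∀ S : Subgroup G, IsPGroup 2 S → ∀ u : G, u * z * u⁻¹ ∈ S → ∀ s ∈ S, u⁻¹ * s * u ∈ H := by
      intro S hS u hu s hs
      obtain ⟨v, hv⟩ := Cfsg.Agent.Lib.Helper28.exists_conj_le_sylow P S hS
      have h1 : v * (u * z * u⁻¹) * v⁻¹ ∈ H := hPH (hv _ hu)
      have h2 : v * u ∈ H := by
        apply hfix'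
        have : v * u * z * (v * u)⁻¹ = v * (u * z * u⁻¹) * v⁻¹ := by group
        rw [this]; exact h1
      have h3 : v * s * v⁻¹ ∈ H := hPH (hv s hs)
      have : u⁻¹ * s * u = (v * u)⁻¹ * (v * s * v⁻¹) * (v * u) := by group
      rw [this]
      exact H.mul_mem (H.mul_mem (H.inv_mem h2) h3) h2
    intro x hxH hxord g hgx
    have hxord' : ∃ k : ℕ, orderOf (g * x * g⁻¹) = 2 ^ k := by
      obtain ⟨k, hk⟩ := hxord
      refine ⟨k, ?_⟩
      rw [← hk]
      exact Cfsg.Agent.Lib.Helper28.orderOf_conj' g x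
    obtain ⟨h0, hh0, hc0⟩ := claim1 x hxH hxord
    obtain ⟨h1, hh1, hc1⟩ := claim1 (g * x * g⁻¹) hgx hxord'
    -- both conjugates of z lie in the centralizer of x
    set C := Subgroup.centralizer ({x} : Set G) with hC
    have hz0C : h0 * z * h0⁻¹ ∈ C := by
      rw [hC, Subgroup.mem_centralizer_iff]
      intro y hy
      rw [Set.mem_singleton_iff] at hy
      rw [hy]; exact hc0.symm
    have hz1C : g⁻¹ * (h1 * z * h1⁻¹) * g ∈ C := by
      rw [hC, Subgroup.mem_centralizer_iff]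
      intro y hy
      rw [Set.mem_singleton_iff] at hy
      rw [hy]
      calc x * (g⁻¹ * (h1 * z * h1⁻¹) * g) = g⁻¹ * ((g * x * g⁻¹) * (h1 * z * h1⁻¹)) * g := by group
        _ = g⁻¹ * ((h1 * z * h1⁻¹) * (g * x * g⁻¹)) * g := by rw [hc1]
        _ = g⁻¹ * (h1 * z * h1⁻¹) * g * x := by group
    -- orders
    have hord0 : ∃ n : ℕ, orderOf (⟨h0 * z * h0⁻¹, hz0C⟩ : C) = 2 ^ n := by
      refine ⟨1, ?_⟩
      rw [Subgroup.orderOf_mk, Cfsg.Agent.Lib.Helper28.orderOf_conj', hz2, pow_one]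
    have hord1 : ∃ n : ℕ, orderOf (⟨g⁻¹ * (h1 * z * h1⁻¹) * g, hz1C⟩ : C) = 2 ^ n := by
      refine ⟨1, ?_⟩
      rw [Subgroup.orderOf_mk]
      have : g⁻¹ * (h1 * z * h1⁻¹) * g = (g⁻¹ * h1) * z * (g⁻¹ * h1)⁻¹ := by group
      rw [this, Cfsg.Agent.Lib.Helper28.orderOf_conj', hz2, pow_one]
    -- a Sylow 2-subgroup of C containing the second one
    have hp1 : IsPGroup 2 (Subgroup.zpowers (⟨g⁻¹ * (h1 * z * h1⁻¹) * g, hz1C⟩ : C)) := by
      obtain ⟨n, hn⟩ := hord1
      apply IsPGroup.of_card (n := n)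
      rw [Nat.card_zpowers, hn]
    obtain ⟨S1, hS1⟩ := hp1.exists_le_sylow
    obtain ⟨c, hc⟩ := Cfsg.Agent.Lib.Helper28.exists_conj_mem_sylow S1 ⟨h0 * z * h0⁻¹, hz0C⟩ hord0
    -- apply Claim 2 to the image of S1 in G
    have hSp : IsPGroup 2 ((S1 : Subgroup C).map C.subtype) := S1.isPGroup'.map C.subtype
    have hmem1 : (g⁻¹ * h1) * z * (g⁻¹ * h1)⁻¹ ∈ (S1 : Subgroup C).map C.subtype := by
      refine ⟨⟨g⁻¹ * (h1 * z * h1⁻¹) * g, hz1C⟩, hS1 (Subgroup.mem_zpowers _), ?_⟩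
      simp only [Subgroup.coe_subtype]
      group
    have hmem2 : (c : G) * (h0 * z * h0⁻¹) * (c : G)⁻¹ ∈ (S1 : Subgroup C).map C.subtype := by
      refine ⟨_, hc, ?_⟩
      simp
    have h5 := claim2 _ hSp (g⁻¹ * h1) hmem1 _ hmem2
    have h6 : h1⁻¹ * g * (c : G) * h0 ∈ H := by
      apply hfix'
      have : h1⁻¹ * g * (c : G) * h0 * z * (h1⁻¹ * g * (c : G) * h0)⁻¹
          = (g⁻¹ * h1)⁻¹ * ((c : G) * (h0 * z * h0⁻¹) * (c : G)⁻¹) * (g⁻¹ * h1) := by group
      rw [this]; exact h5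
    have h7 : g * (c : G) ∈ H := by
      have : g * (c : G) = h1 * (h1⁻¹ * g * (c : G) * h0) * h0⁻¹ := by group
      rw [this]
      exact H.mul_mem (H.mul_mem hh1 h6) (H.inv_mem hh0)
    refine ⟨g * (c : G), h7, ?_⟩
    have hcx : (c : G) * x = x * (c : G) := by
      have hcm : (c : G) ∈ Subgroup.centralizer ({x} : Set G) := c.2
      rw [Subgroup.mem_centralizer_iff] at hcm
      exact (hcm x (Set.mem_singleton x)).symm
    calc g * (c : G) * x * (g * (c : G))⁻¹ = g * ((c : G) * x) * (c : G)⁻¹ * g⁻¹ := by group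
      _ = g * (x * (c : G)) * (c : G)⁻¹ * g⁻¹ := by rw [hcx]
      _ = g * x * g⁻¹ := by group
end Cfsg.Agent.S5438
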