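import Cfsg.Statements.S5439

set_option autoImplicit false
open Cfsg

namespace Cfsg.Agent.S5439

/-- Let I and J be two different conjugacy classes of involutions of the finite group G and H a subgroup such that every member of I ∪ J fixes exactly one coset in the action on the cosets of H, and such that for every a in I ∩ H and every b in (I ∪ J) ∩ H different from a and commuting with it, the centralizer of a b lies in H. Then H = G. -/
theorem result {G : Type*} [Group G] [Finite G] (I J : Set G) (a₀ b₀ : G) (ha₀ : orderOf a₀ = 2) (hb₀ : orderOf b₀ = 2) (hI : I = {x | IsConj a₀ x}) (hJ : J = {x | IsConj b₀ x}) (hIJ : I ≠ J) (H : Subgroup G) (hfix : ∀ x ∈ I ∪ J, ∃! c : G ⧸ H, x • c = c) (hcent : ∀ a ∈ I, a ∈ H → ∀ b ∈ I ∪ J, b ∈ H → a ≠ b → a * b = b * a → Subgroup.centralizer ({a * b} : Set G) ≤ H) : H = ⊤ := by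
  classical
  subst hI hJ
  have hfixc : ∀ (g x : G), x • (QuotientGroup.mk g : G ⧸ H) = QuotientGroup.mk g ↔ g⁻¹ * x * g ∈ H := by
    intro g x
    rw [MulAction.Quotient.smul_mk, QuotientGroup.eq, smul_eq_mul]
    have e : (x * g)⁻¹ * g = (g⁻¹ * x * g)⁻¹ := by group
    rw [e, inv_mem_iff]
  -- L2
  have L2 : ∀ x ∈ {x | IsConj a₀ x} ∪ {x | IsConj b₀ x}, x ∈ H → ∀ g : G, g⁻¹ * x * g ∈ H → g ∈ H := by
    intro x hx hxH g hg
    obtain ⟨c, _, huniq⟩ := hfix x hx
    have f1 : x • (QuotientGroup.mk 1 : G ⧸ H) = QuotientGroup.mk 1 := by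
      rw [hfixc]; simpa using hxH
    have f2 : x • (QuotientGroup.mk g : G ⧸ H) = QuotientGroup.mk g := by
      rw [hfixc]; exact hg
    have h3 : (QuotientGroup.mk 1 : G ⧸ H) = QuotientGroup.mk g := (huniq _ f1).trans (huniq _ f2).symm
    rw [QuotientGroup.eq] at h3
    simpa using h3
  have L1 : ∀ x ∈ {x | IsConj a₀ x} ∪ {x | IsConj b₀ x}, x ∈ H → ∀ t : G, x * t = t * x → t ∈ H := by
    intro x hx hxH t ht
    apply L2 x hx hxH
    have : t⁻¹ * x * t = x := by
      calc t⁻¹ * x * t = t⁻¹ * (x * t) := by group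
        _ = t⁻¹ * (t * x) := by rw [ht]
        _ = x := by group
    rw [this]; exact hxH
  -- involutions
  have haa : a₀ * a₀ = 1 := by rw [← pow_two, ← ha₀, pow_orderOf_eq_one]
  have hbb : b₀ * b₀ = 1 := by rw [← pow_two, ← hb₀, pow_orderOf_eq_one]
  have hsqI : ∀ a, IsConj a₀ a → a * a = 1 := by
    intro a ha
    obtain ⟨c, rfl⟩ := isConj_iff.mp ha
    calc c * a₀ * c⁻¹ * (c * a₀ * c⁻¹) = c * (a₀ * a₀) * c⁻¹ := by group
      _ = 1 := by rw [haa]; group
  have hsqJ : ∀ b, IsConj b₀ b → b * b = 1 := by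
    intro b hb
    obtain ⟨c, rfl⟩ := isConj_iff.mp hb
    calc c * b₀ * c⁻¹ * (c * b₀ * c⁻¹) = c * (b₀ * b₀) * c⁻¹ := by group
      _ = 1 := by rw [hbb]; group
  -- the two classes are not fused
  have hnc : ¬ IsConj a₀ b₀ := by
    intro h
    apply hIJ
    ext x
    simp only [Set.mem_ofPred_eq]
    exact ⟨fun hx => h.symm.trans hx, fun hx => h.trans hx⟩
  -- main claim
  have main : ∀ a, IsConj a₀ a → a ∈ H → ∀ b, IsConj b₀ b → b ∈ H := by
    intro a ha haH b hb
    have haa' := hsqI a ha
    have hbb' := hsqJ b hb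
    have hainv : a⁻¹ = a := inv_eq_of_mul_eq_one_left haa'
    have hbinv : b⁻¹ = b := inv_eq_of_mul_eq_one_left hbb'
    set r := a * b with hr
    have hrinv : r⁻¹ = b * a := by rw [hr, mul_inv_rev, hainv, hbinv]
    have har : ∀ j : ℕ, a * r ^ j = (r ^ j)⁻¹ * a := by
      intro j
      have h1 : a * r * a⁻¹ = r⁻¹ := by
        rw [hrinv, hr, hainv]
        calc a * (a * b) * a = (a * a) * b * a := by simp only [mul_assoc]
          _ = b * a := by rw [haa']; simp
      have h2 : a * r ^ j * a⁻¹ = (r ^ j)⁻¹ := by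
        rw [← conj_pow, h1, inv_pow]
      calc a * r ^ j = (a * r ^ j * a⁻¹) * a := by group
        _ = (r ^ j)⁻¹ * a := by rw [h2]
    have hbr : ∀ j : ℕ, b * r ^ j = (r ^ j)⁻¹ * b := by
      intro j
      have h1 : b * r * b⁻¹ = r⁻¹ := by
        rw [hrinv, hr]
        simp only [mul_assoc, mul_inv_cancel, mul_one]
      have h2 : b * r ^ j * b⁻¹ = (r ^ j)⁻¹ := by
        rw [← conj_pow, h1, inv_pow]
      calc b * r ^ j = (b * r ^ j * b⁻¹) * b := by group
        _ = (r ^ j)⁻¹ * b := by rw [h2]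
    have hpos : 0 < orderOf r := orderOf_pos r
    rcases Nat.even_or_odd (orderOf r) with ⟨k, hk⟩ | ⟨j, hj⟩
    · have hk1 : 1 ≤ k := by omega
      set u := r ^ k with hu
      have hu1 : u ≠ 1 := by
        intro h1
        have := Nat.le_of_dvd (by omega) (orderOf_dvd_of_pow_eq_one h1)
        omega
      have hu2 : u * u = 1 := by
        rw [hu, ← pow_add, ← hk]; exact pow_orderOf_eq_one _
      have huinv : u⁻¹ = u := inv_eq_of_mul_eq_one_left hu2
      have hau : a * u = u * a := by rw [hu, har k, ← hu, huinv]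
      have hbu : b * u = u * b := by rw [hu, hbr k, ← hu, huinv]
      have hauIJ : a * u ∈ {x | IsConj a₀ x} ∪ {x | IsConj b₀ x} := by
        rcases Nat.even_or_odd k with ⟨j, hj⟩ | ⟨j, hj⟩
        · left
          have : a * u = (r ^ j)⁻¹ * a * ((r ^ j)⁻¹)⁻¹ := by
            rw [hu, hj, pow_add, ← mul_assoc, har j, inv_inv]
          rw [this]
          exact ha.trans (isConj_iff.mpr ⟨_, rfl⟩)
        · right
          have : a * u = (r ^ j)⁻¹ * b * ((r ^ j)⁻¹)⁻¹ := by
            rw [hu, hj, inv_inv]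
            have e1 : r ^ (2 * j + 1) = r * r ^ j * r ^ j := by
              rw [pow_succ', two_mul, pow_add]; group
            rw [e1]
            calc a * (r * r ^ j * r ^ j) = (a * r) * r ^ j * r ^ j := by simp only [mul_assoc]
              _ = b * r ^ j * r ^ j := by
                  have : a * r = b := by
                    rw [hr, ← mul_assoc, haa', one_mul]
                  rw [this]
              _ = (r ^ j)⁻¹ * b * r ^ j := by rw [hbr j]
          rw [this]
          exact hb.trans (isConj_iff.mpr ⟨_, rfl⟩)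
      have hne : a ≠ a * u := by
        intro h1
        apply hu1
        calc u = a⁻¹ * (a * u) := by group
          _ = 1 := by rw [← h1]; group
      have hcomm : a * (a * u) = a * u * a := by
        rw [mul_assoc, hau]
      have hauH : a * u ∈ H := L1 a (Or.inl ha) haH (a * u) hcomm
      have hC := hcent a ha haH (a * u) hauIJ hauH hne hcomm
      apply hC
      rw [Subgroup.mem_centralizer_iff]
      intro y hy
      rw [Set.mem_singleton_iff] at hy
      have : a * (a * u) = u := by rw [← mul_assoc, haa', one_mul]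
      rw [hy, this]
      exact hbu.symm
    · exfalso
      apply hnc
      have hxer : b = a * r := by rw [hr, ← mul_assoc, haa', one_mul]
      have : b = r ^ j * a * (r ^ j)⁻¹ := by
        have e1 : (r ^ j)⁻¹ * a = a * r ^ j := (har j).symm
        have e2 : r ^ j * r ^ j * r = 1 := by
          rw [← pow_add, ← pow_succ]
          have : j + j + 1 = orderOf r := by omega
          rw [this, pow_orderOf_eq_one]
        have e3 : r ^ j * r ^ j = r⁻¹ := eq_inv_of_mul_eq_one_left e2
        have e4 : a * (r ^ j)⁻¹ = r ^ j * a := by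
          calc a * (r ^ j)⁻¹ = r ^ j * ((r ^ j)⁻¹ * a) * (r ^ j)⁻¹ := by group
            _ = r ^ j * (a * r ^ j) * (r ^ j)⁻¹ := by rw [e1]
            _ = r ^ j * a := by group
        calc b = b * a * a := by rw [mul_assoc, haa', mul_one]
          _ = r⁻¹ * a := by rw [hrinv]
          _ = r ^ j * r ^ j * a := by rw [e3]
          _ = r ^ j * (r ^ j * a) := by rw [mul_assoc]
          _ = r ^ j * (a * (r ^ j)⁻¹) := by rw [e4]
          _ = r ^ j * a * (r ^ j)⁻¹ := by rw [mul_assoc]
      have hab : IsConj a b := isConj_iff.mpr ⟨r ^ j, this.symm⟩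
      exact (ha.trans hab).trans hb.symm
  -- an element of I in H
  obtain ⟨c, hc, _⟩ := hfix a₀ (Or.inl (IsConj.refl a₀))
  induction c using QuotientGroup.induction_on with
  | H g =>
    have hc' : a₀ • (QuotientGroup.mk g : G ⧸ H) = QuotientGroup.mk g := hc
    rw [hfixc] at hc'
    have haI : IsConj a₀ (g⁻¹ * a₀ * g) := isConj_iff.mpr ⟨g⁻¹, by simp⟩
    have hJH : ∀ b, IsConj b₀ b → b ∈ H := main _ haI hc'
    rw [eq_top_iff]
    intro t _
    apply L2 b₀ (Or.inr (IsConj.refl b₀)) (hJH b₀ (IsConj.refl b₀)) t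
    apply hJH
    exact isConj_iff.mpr ⟨t⁻¹, by simp⟩
end Cfsg.Agent.S5439
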