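import Cfsg.Statements.S5459
import Cfsg.Agent.Lib.Helper11.Components

set_option autoImplicit false
open Cfsg

namespace Cfsg.Agent.S5459

open scoped commutatorElement

theorem comm_central {L : Type*} [Group L] (m c m' c' : L) (hc : ∀ g, g * c = c * g)
    (hc' : ∀ g, g * c' = c' * g) : ⁅m * c, m' * c'⁆ = ⁅m, m'⁆ := by
  rw [Cfsg.Agent.Lib.Helper11.commElem_mul_central m c _ hc]
  rw [← commutatorElement_inv (m' * c') m,
    Cfsg.Agent.Lib.Helper11.commElem_mul_central m' c' m hc', commutatorElement_inv]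

/-- In a perfect group, a subgroup supplementing the centre elementwise is everything. -/
theorem perfect_supp {L : Type*} [Group L] (hL : Group.IsPerfect L) (M : Subgroup L)
    (hM : ∀ x : L, ∃ m ∈ M, ∃ c : L, (∀ g, g * c = c * g) ∧ x = m * c) : M = ⊤ := by
  have h : commutator L ≤ M := by
    rw [commutator_def, Subgroup.commutator_le]
    intro x _ y _
    obtain ⟨m, hm, c, hc, rfl⟩ := hM x
    obtain ⟨m', hm', c', hc', rfl⟩ := hM y
    rw [comm_central m c m' c' hc hc', commutatorElement_def]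
    exact M.mul_mem (M.mul_mem (M.mul_mem hm hm') (M.inv_mem hm)) (M.inv_mem hm')
  rw [hL.commutator_eq_top] at h
  exact top_le_iff.mp h

/-- Let G be a finite group with a quasisimple normal subgroup L and an involution d such that G is generated by L and d, the centre of L has odd order, and d inverts every element of the centre of L. If the commuting graph on the conjugacy class of the image of d in G modulo the centre of L is connected, then the commuting graph on the conjugacy class of d is connected. -/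
theorem result {G : Type*} [Group G] [Finite G] (L : Subgroup G) [L.Normal] (hL : Cfsg.IsQuasisimple ↥L) (d : G) (hd : orderOf d = 2) (hgen : L ⊔ Subgroup.zpowers d = ⊤) (hodd : Odd (Nat.card ↥(Subgroup.center ↥L))) (hinv : ∀ c ∈ (Subgroup.center ↥L).map L.subtype, d * c * d⁻¹ = c⁻¹) [hn : ((Subgroup.center ↥L).map L.subtype).Normal] (hconn : (Cfsg.commutingGraph (conjugatesOf (QuotientGroup.mk d : G ⧸ (Subgroup.center ↥L).map L.subtype))).Connected) : (Cfsg.commutingGraph (conjugatesOf d)).Connected := by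
  classical
  set Z : Subgroup G := (Subgroup.center ↥L).map L.subtype with hZdef
  have hZL : ∀ c ∈ Z, c ∈ L := by
    rintro c ⟨c', _, rfl⟩
    exact c'.2
  have hZc : ∀ c ∈ Z, ∀ g ∈ L, g * c = c * g := by
    rintro c ⟨c', hc', rfl⟩ g hg
    have := Subgroup.mem_center_iff.mp hc' ⟨g, hg⟩
    exact congrArg Subtype.val this
  have hroot : ∀ c ∈ Z, ∃ e ∈ Z, e * e = c := by
    obtain ⟨j, hj⟩ := hodd
    rintro c ⟨c', hc', rfl⟩
    refine ⟨((c' ^ (j + 1) : ↥L) : G), ⟨c' ^ (j + 1), Subgroup.pow_mem _ hc' _, rfl⟩, ?_⟩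
    have h1 : (⟨c', hc'⟩ : ↥(Subgroup.center ↥L)) ^ (2 * j + 1) = 1 := by
      rw [← hj]
      exact pow_card_eq_one'
    have h2 : c' ^ (2 * j + 1) = 1 := by
      have := congrArg Subtype.val h1
      simpa using this
    show ((c' ^ (j + 1) : ↥L) : G) * ((c' ^ (j + 1) : ↥L) : G) = (c' : G)
    rw [← Subgroup.coe_mul, ← pow_add]
    have : j + 1 + (j + 1) = (2 * j + 1) + 1 := by ring
    rw [this, pow_succ, h2, one_mul]
  have hdD : d ∈ conjugatesOf d := mem_conjugatesOf_self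
  have hD : ∀ a, a ∈ conjugatesOf d ↔ ∃ g, g * d * g⁻¹ = a := by
    intro a
    show IsConj d a ↔ _
    rw [isConj_iff]
  have hinvD : ∀ a ∈ conjugatesOf d, ∀ c ∈ Z, a * c * a⁻¹ = c⁻¹ := by
    intro a ha c hc
    obtain ⟨g, rfl⟩ := (hD a).mp ha
    have h1 : g⁻¹ * c * g ∈ Z := by
      have := hn.conj_mem c hc g⁻¹
      rwa [inv_inv] at this
    have h2 := hinv _ h1
    calc g * d * g⁻¹ * c * (g * d * g⁻¹)⁻¹ = g * (d * (g⁻¹ * c * g) * d⁻¹) * g⁻¹ := by group
      _ = g * (g⁻¹ * c * g)⁻¹ * g⁻¹ := by rw [h2]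
      _ = c⁻¹ := by group
  have cjmem : ∀ (g : G) (x : G), x ∈ conjugatesOf d → g * x * g⁻¹ ∈ conjugatesOf d := by
    intro g x hx
    obtain ⟨k, rfl⟩ := (hD x).mp hx
    exact (hD _).mpr ⟨g * k, by group⟩
  have hadj : ∀ (x y : ↥(conjugatesOf d)), (Cfsg.commutingGraph (conjugatesOf d)).Adj x y ↔
      x ≠ y ∧ (Commute (x : G) y ∨ Commute (y : G) x) := fun x y => SimpleGraph.fromRel_adj _ _ _
  let cj : G → (Cfsg.commutingGraph (conjugatesOf d) →g Cfsg.commutingGraph (conjugatesOf d)) :=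
    fun g =>
    { toFun := fun x => ⟨g * x.1 * g⁻¹, cjmem g x.1 x.2⟩
      map_rel' := by
        intro x y hxy
        rw [hadj] at hxy ⊢
        obtain ⟨hne, hc⟩ := hxy
        refine ⟨?_, ?_⟩
        · intro h
          apply hne
          have h' : g * x.1 * g⁻¹ = g * y.1 * g⁻¹ := congrArg Subtype.val h
          apply Subtype.ext
          calc x.1 = g⁻¹ * (g * x.1 * g⁻¹) * g := by group
            _ = g⁻¹ * (g * y.1 * g⁻¹) * g := by rw [h']
            _ = y.1 := by group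
        · have hcomm : (x : G) * (y : G) = (y : G) * (x : G) := by
            rcases hc with h | h
            · exact h.eq
            · exact h.eq.symm
          left
          show g * x.1 * g⁻¹ * (g * y.1 * g⁻¹) = g * y.1 * g⁻¹ * (g * x.1 * g⁻¹)
          calc g * x.1 * g⁻¹ * (g * y.1 * g⁻¹) = g * (x.1 * y.1) * g⁻¹ := by group
            _ = g * (y.1 * x.1) * g⁻¹ := by rw [hcomm]
            _ = g * y.1 * g⁻¹ * (g * x.1 * g⁻¹) := by group }
  have hcjR : ∀ (g : G) (x y : G) (hx : x ∈ conjugatesOf d) (hy : y ∈ conjugatesOf d),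
      (Cfsg.commutingGraph (conjugatesOf d)).Reachable ⟨x, hx⟩ ⟨y, hy⟩ →
      (Cfsg.commutingGraph (conjugatesOf d)).Reachable ⟨g * x * g⁻¹, cjmem g x hx⟩
        ⟨g * y * g⁻¹, cjmem g y hy⟩ := fun g x y hx hy h => h.map (cj g)
  obtain ⟨S, hSdef⟩ : ∃ S : Set G, S = {x | ∃ hx : x ∈ conjugatesOf d,
      (Cfsg.commutingGraph (conjugatesOf d)).Reachable ⟨d, hdD⟩ ⟨x, hx⟩} := ⟨_, rfl⟩
  have hS : ∀ x, x ∈ S ↔ ∃ hx : x ∈ conjugatesOf d,
      (Cfsg.commutingGraph (conjugatesOf d)).Reachable ⟨d, hdD⟩ ⟨x, hx⟩ := by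
    intro x
    rw [hSdef]
    rfl
  have hdS : d ∈ S := (hS d).mpr ⟨hdD, SimpleGraph.Reachable.refl _⟩
  let N : Subgroup G :=
    { carrier := {g | g * d * g⁻¹ ∈ S}
      one_mem' := by
        show 1 * d * 1⁻¹ ∈ S
        have e : 1 * d * 1⁻¹ = d := by group
        rw [e]
        exact hdS
      mul_mem' := by
        intro g h hg hh
        obtain ⟨h1, h2⟩ := (hS _).mp hg
        obtain ⟨h3, h4⟩ := (hS _).mp hh
        have h5 := hcjR g _ _ hdD h3 h4
        show g * h * d * (g * h)⁻¹ ∈ S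
        refine (hS _).mpr ⟨cjmem (g * h) d hdD, ?_⟩
        have e' : (⟨g * (h * d * h⁻¹) * g⁻¹, cjmem g _ h3⟩ : ↥(conjugatesOf d))
            = ⟨g * h * d * (g * h)⁻¹, cjmem (g * h) d hdD⟩ := Subtype.ext (by group)
        rw [← e']
        exact h2.trans h5
      inv_mem' := by
        intro g hg
        obtain ⟨h1, h2⟩ := (hS _).mp hg
        have h5 := hcjR g⁻¹ _ _ hdD h1 h2
        show g⁻¹ * d * g⁻¹⁻¹ ∈ S
        refine (hS _).mpr ⟨cjmem g⁻¹ d hdD, ?_⟩
        have e' : (⟨g⁻¹ * (g * d * g⁻¹) * g⁻¹⁻¹, cjmem g⁻¹ _ h1⟩ : ↥(conjugatesOf d))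
            = ⟨d, hdD⟩ := Subtype.ext (by group)
        rw [e'] at h5
        exact h5.symm }
  have hN : ∀ g, g ∈ N ↔ g * d * g⁻¹ ∈ S := fun g => Iff.rfl
  have hSN : ∀ x ∈ S, x ∈ N := by
    intro x hx
    obtain ⟨hxD, hr⟩ := (hS x).mp hx
    have h5 := hcjR x _ _ hdD hxD hr
    have e' : (⟨x * x * x⁻¹, cjmem x x hxD⟩ : ↥(conjugatesOf d)) = ⟨x, hxD⟩ :=
      Subtype.ext (by group)
    rw [e'] at h5
    exact (hN x).mpr ((hS _).mpr ⟨cjmem x d hdD, hr.trans h5.symm⟩)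
  have hdN : d ∈ N := hSN d hdS
  -- lifting commuting pairs
  have hlift : ∀ x ∈ conjugatesOf d, ∀ y ∈ conjugatesOf d, x * y * x⁻¹ * y⁻¹ ∈ Z →
      ∃ y' ∈ conjugatesOf d, (QuotientGroup.mk y' : G ⧸ Z) = QuotientGroup.mk y ∧
        x * y' = y' * x := by
    intro x hx y hy hc
    obtain ⟨c, hcdef⟩ : ∃ c, c = x * y * x⁻¹ * y⁻¹ := ⟨_, rfl⟩
    rw [← hcdef] at hc
    obtain ⟨e, he, hee⟩ := hroot _ (Z.inv_mem hc)
    obtain ⟨f, hf, hff⟩ := hroot e he
    refine ⟨f⁻¹ * y * f, ?_, ?_, ?_⟩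
    · have := cjmem f⁻¹ y hy
      rwa [inv_inv] at this
    · rw [QuotientGroup.eq]
      have h1 : y⁻¹ * f * y ∈ Z := by
        have := hn.conj_mem f hf y⁻¹
        rwa [inv_inv] at this
      have e1 : (f⁻¹ * y * f)⁻¹ * y = f⁻¹ * (y⁻¹ * f * y) := by group
      rw [e1]
      exact Z.mul_mem (Z.inv_mem hf) h1
    · have hfi : f⁻¹ ∈ Z := Z.inv_mem hf
      have e1 : x * f⁻¹ = f * x := by
        have := hinvD x hx f⁻¹ hfi
        rw [inv_inv] at this
        calc x * f⁻¹ = (x * f⁻¹ * x⁻¹) * x := by group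
          _ = f * x := by rw [this]
      have e3 : x * f = f⁻¹ * x := by
        have := hinvD x hx f hf
        calc x * f = (x * f * x⁻¹) * x := by group
          _ = f⁻¹ * x := by rw [this]
      have e4 : y * f⁻¹ = f * y := by
        have := hinvD y hy f⁻¹ hfi
        rw [inv_inv] at this
        calc y * f⁻¹ = (y * f⁻¹ * y⁻¹) * y := by group
          _ = f * y := by rw [this]
      have e5 : y * f = f⁻¹ * y := by
        have := hinvD y hy f hf
        calc y * f = (y * f * y⁻¹) * y := by group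
          _ = f⁻¹ * y := by rw [this]
      have e2 : x * y = c * (y * x) := by
        rw [hcdef]
        group
      have hc4 : c = (f * f * (f * f))⁻¹ := by
        rw [hff, hee, inv_inv]
      calc x * (f⁻¹ * y * f) = (x * f⁻¹) * y * f := by group
        _ = f * (x * y) * f := by rw [e1]; group
        _ = f * (c * (y * x)) * f := by rw [e2]
        _ = f * (f * f * (f * f))⁻¹ * y * (x * f) := by rw [hc4]; group
        _ = f * (f * f * (f * f))⁻¹ * (y * f⁻¹) * x := by rw [e3]; group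
        _ = f * (f * f * (f * f))⁻¹ * (f * y) * x := by rw [e4]
        _ = f⁻¹ * (f⁻¹ * y) * x := by group
        _ = f⁻¹ * (y * f) * x := by rw [e5]
        _ = (f⁻¹ * y * f) * x := by group
  -- every class member is, modulo Z, in the component of d
  have hB1 : ∀ b ∈ conjugatesOf d, ∃ x ∈ S, (QuotientGroup.mk x : G ⧸ Z) = QuotientGroup.mk b := by
    intro b hb
    have hb' : (QuotientGroup.mk b : G ⧸ Z) ∈ conjugatesOf (QuotientGroup.mk d : G ⧸ Z) := by
      obtain ⟨g, rfl⟩ := (hD b).mp hb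
      show IsConj _ _
      rw [isConj_iff]
      exact ⟨QuotientGroup.mk g, rfl⟩
    have hreach := hconn.preconnected ⟨QuotientGroup.mk d, mem_conjugatesOf_self⟩
      ⟨QuotientGroup.mk b, hb'⟩
    rw [SimpleGraph.reachable_iff_reflTransGen] at hreach
    suffices key : ∀ v : ↥(conjugatesOf (QuotientGroup.mk d : G ⧸ Z)),
        Relation.ReflTransGen (Cfsg.commutingGraph (conjugatesOf (QuotientGroup.mk d : G ⧸ Z))).Adj
          ⟨QuotientGroup.mk d, mem_conjugatesOf_self⟩ v →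
        ∃ x ∈ S, (QuotientGroup.mk x : G ⧸ Z) = v.1 from key _ hreach
    intro v hv
    induction hv with
    | refl => exact ⟨d, hdS, rfl⟩
    | @tail v w _ hadj' ih =>
      obtain ⟨x, hxS, hxv⟩ := ih
      have hw : IsConj (QuotientGroup.mk d : G ⧸ Z) w.1 := w.2
      rw [isConj_iff] at hw
      obtain ⟨k, hk⟩ := hw
      obtain ⟨k', rfl⟩ := QuotientGroup.mk_surjective k
      have hyD : k' * d * k'⁻¹ ∈ conjugatesOf d := (hD _).mpr ⟨k', rfl⟩
      have hyw : (QuotientGroup.mk (k' * d * k'⁻¹) : G ⧸ Z) = w.1 := hk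
      have hadj2 : v ≠ w ∧ (Commute v.1 w.1 ∨ Commute w.1 v.1) :=
        (SimpleGraph.fromRel_adj _ _ _).mp hadj'
      have hcomm : v.1 * w.1 = w.1 * v.1 := by
        rcases hadj2.2 with h | h
        · exact h.eq
        · exact h.eq.symm
      have hcZ : x * (k' * d * k'⁻¹) * x⁻¹ * (k' * d * k'⁻¹)⁻¹ ∈ Z := by
        rw [← QuotientGroup.eq_one_iff (N := Z)]
        have e : (QuotientGroup.mk (x * (k' * d * k'⁻¹) * x⁻¹ * (k' * d * k'⁻¹)⁻¹) : G ⧸ Z)
            = v.1 * w.1 * v.1⁻¹ * w.1⁻¹ := by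
          rw [← hxv, ← hyw]
          rfl
        rw [e, hcomm]
        group
      obtain ⟨y', hy'D, hy'mk, hy'c⟩ := hlift x ((hS x).mp hxS).1 _ hyD hcZ
      have hne : x ≠ y' := by
        intro h
        apply hadj2.1
        apply Subtype.ext
        rw [← hxv, ← hyw, ← hy'mk, h]
      refine ⟨y', ?_, by rw [hy'mk, hyw]⟩
      obtain ⟨hxD, hxr⟩ := (hS x).mp hxS
      refine (hS y').mpr ⟨hy'D, hxr.trans (SimpleGraph.Adj.reachable ?_)⟩
      rw [hadj]
      exact ⟨fun h => hne (congrArg Subtype.val h), Or.inl hy'c⟩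
  have hcomP : ∀ g ∈ L, g * d * g⁻¹ * d⁻¹ ∈ N ⊔ Z := by
    intro g hg
    obtain ⟨x, hxS, hx⟩ := hB1 (g * d * g⁻¹) ((hD _).mpr ⟨g, rfl⟩)
    rw [QuotientGroup.eq] at hx
    have e : g * d * g⁻¹ * d⁻¹ = x * (x⁻¹ * (g * d * g⁻¹)) * d⁻¹ := by group
    rw [e]
    exact Subgroup.mul_mem _ (Subgroup.mul_mem _ ((le_sup_left : N ≤ N ⊔ Z) (hSN x hxS))
      ((le_sup_right : Z ≤ N ⊔ Z) hx)) (Subgroup.inv_mem _ ((le_sup_left : N ≤ N ⊔ Z) hdN))
  have hcomL : ∀ g ∈ L, g * d * g⁻¹ * d⁻¹ ∈ L := by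
    intro g hg
    have h1 : d * g⁻¹ * d⁻¹ ∈ L := Subgroup.Normal.conj_mem inferInstance _ (L.inv_mem hg) d
    have e : g * d * g⁻¹ * d⁻¹ = g * (d * g⁻¹ * d⁻¹) := by group
    rw [e]
    exact L.mul_mem hg h1
  have hCmem : ∀ g : ↥L, (⟨(g : G) * d * (g : G)⁻¹ * d⁻¹, hcomL g g.2⟩ : ↥L)
      ∈ ((N ⊔ Z).subgroupOf L).normalCore := by
    intro g b
    rw [Subgroup.mem_subgroupOf]
    show (b : G) * ((g : G) * d * (g : G)⁻¹ * d⁻¹) * (b : G)⁻¹ ∈ N ⊔ Z
    have e : (b : G) * ((g : G) * d * (g : G)⁻¹ * d⁻¹) * (b : G)⁻¹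
        = (((b : G) * (g : G)) * d * ((b : G) * (g : G))⁻¹ * d⁻¹)
          * ((b : G) * d * (b : G)⁻¹ * d⁻¹)⁻¹ := by group
    rw [e]
    exact Subgroup.mul_mem _ (hcomP _ (L.mul_mem b.2 g.2)) (Subgroup.inv_mem _ (hcomP _ b.2))
  have hLN : L ≤ N := by
    by_cases hCtop : ((N ⊔ Z).subgroupOf L).normalCore = ⊤
    · have hLP : ∀ g ∈ L, g ∈ N ⊔ Z := by
        intro g hg
        have h1 : (⟨g, hg⟩ : ↥L) ∈ ((N ⊔ Z).subgroupOf L).normalCore := by
          rw [hCtop]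
          trivial
        have h2 := Subgroup.normalCore_le _ h1
        exact Subgroup.mem_subgroupOf.mp h2
      have hM : N.subgroupOf L = ⊤ := by
        apply perfect_supp hL.1
        intro x
        have hx := hLP x x.2
        rw [Subgroup.mem_sup_of_normal_right] at hx
        obtain ⟨n, hn', c, hc, hnc⟩ := hx
        have hnL : n ∈ L := by
          have : n = x * c⁻¹ := by rw [← hnc]; group
          rw [this]
          exact L.mul_mem x.2 (L.inv_mem (hZL c hc))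
        refine ⟨⟨n, hnL⟩, Subgroup.mem_subgroupOf.mpr hn', ⟨c, hZL c hc⟩, ?_,
          Subtype.ext hnc.symm⟩
        intro g
        apply Subtype.ext
        exact hZc c hc g g.2
      intro g hg
      have : (⟨g, hg⟩ : ↥L) ∈ N.subgroupOf L := by
        rw [hM]
        trivial
      exact Subgroup.mem_subgroupOf.mp this
    · have hCc := Cfsg.Agent.Lib.Helper11.qs_normal_le_center hL _ inferInstance hCtop
      have hcen : ∀ g h : ↥L, h * (⟨(g : G) * d * (g : G)⁻¹ * d⁻¹, hcomL g g.2⟩ : ↥L)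
          = (⟨(g : G) * d * (g : G)⁻¹ * d⁻¹, hcomL g g.2⟩ : ↥L) * h := by
        intro g h
        exact Subgroup.mem_center_iff.mp (hCc (hCmem g)) h
      have hM : (Subgroup.centralizer ({d} : Set G)).subgroupOf L = ⊤ := by
        rw [eq_top_iff, ← hL.1.commutator_eq_top, commutator_def, Subgroup.commutator_le]
        intro g₁ _ g₂ _
        rw [Subgroup.mem_subgroupOf, Subgroup.mem_centralizer_iff]
        intro y hy
        rw [Set.mem_singleton_iff] at hy
        rw [hy]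
        have hconjL : ∀ g : ↥L, d * (g : G) * d⁻¹ ∈ L :=
          fun g => Subgroup.Normal.conj_mem inferInstance _ g.2 d
        have hdec : ∀ g : ↥L, ∃ c : ↥L, (∀ h, h * c = c * h) ∧
            (⟨d * (g : G) * d⁻¹, hconjL g⟩ : ↥L) = g * c := by
          intro g
          have hcc : ∀ h : ↥L, h * (⟨(g : G) * d * (g : G)⁻¹ * d⁻¹, hcomL g g.2⟩ : ↥L)⁻¹
              = (⟨(g : G) * d * (g : G)⁻¹ * d⁻¹, hcomL g g.2⟩ : ↥L)⁻¹ * h := by
            intro h
            have := hcen g h⁻¹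
            calc h * (⟨(g : G) * d * (g : G)⁻¹ * d⁻¹, hcomL g g.2⟩ : ↥L)⁻¹
                = (⟨(g : G) * d * (g : G)⁻¹ * d⁻¹, hcomL g g.2⟩ * h⁻¹)⁻¹ := by group
              _ = (h⁻¹ * ⟨(g : G) * d * (g : G)⁻¹ * d⁻¹, hcomL g g.2⟩)⁻¹ := by rw [this]
              _ = (⟨(g : G) * d * (g : G)⁻¹ * d⁻¹, hcomL g g.2⟩ : ↥L)⁻¹ * h := by group
          refine ⟨(⟨(g : G) * d * (g : G)⁻¹ * d⁻¹, hcomL g g.2⟩ : ↥L)⁻¹, hcc, ?_⟩
          rw [hcc g]
          apply Subtype.ext
          show d * (g : G) * d⁻¹ = ((g : G) * d * (g : G)⁻¹ * d⁻¹)⁻¹ * (g : G)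
          group
        obtain ⟨c₁, hc₁, e₁⟩ := hdec g₁
        obtain ⟨c₂, hc₂, e₂⟩ := hdec g₂
        have key : ⁅(⟨d * (g₁ : G) * d⁻¹, hconjL g₁⟩ : ↥L), ⟨d * (g₂ : G) * d⁻¹, hconjL g₂⟩⁆
            = ⁅g₁, g₂⁆ := by
          rw [e₁, e₂]
          exact comm_central g₁ c₁ g₂ c₂ hc₁ hc₂
        have key' := congrArg Subtype.val key
        have e3 : ((⁅(⟨d * (g₁ : G) * d⁻¹, hconjL g₁⟩ : ↥L),
            ⟨d * (g₂ : G) * d⁻¹, hconjL g₂⟩⁆ : ↥L) : G)
            = d * ((⁅g₁, g₂⁆ : ↥L) : G) * d⁻¹ := by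
          show (d * (g₁ : G) * d⁻¹) * (d * (g₂ : G) * d⁻¹) * (d * (g₁ : G) * d⁻¹)⁻¹
              * (d * (g₂ : G) * d⁻¹)⁻¹
            = d * ((g₁ : G) * (g₂ : G) * (g₁ : G)⁻¹ * (g₂ : G)⁻¹) * d⁻¹
          group
        rw [e3] at key'
        calc d * ((⁅g₁, g₂⁆ : ↥L) : G) = (d * ((⁅g₁, g₂⁆ : ↥L) : G) * d⁻¹) * d := by group
          _ = ((⁅g₁, g₂⁆ : ↥L) : G) * d := by rw [key']
      intro g hg
      have h1 : (⟨g, hg⟩ : ↥L) ∈ (Subgroup.centralizer ({d} : Set G)).subgroupOf L := by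
        rw [hM]
        trivial
      rw [Subgroup.mem_subgroupOf, Subgroup.mem_centralizer_iff] at h1
      have h2 : d * g = g * d := h1 d (Set.mem_singleton d)
      rw [hN]
      have e : g * d * g⁻¹ = d := by
        calc g * d * g⁻¹ = (d * g) * g⁻¹ := by rw [h2]
          _ = d := by group
      rw [e]
      exact hdS
  have hNtop : N = ⊤ := by
    rw [eq_top_iff, ← hgen]
    exact sup_le hLN (by rw [Subgroup.zpowers_le]; exact hdN)
  rw [SimpleGraph.connected_iff_exists_forall_reachable]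
  refine ⟨⟨d, hdD⟩, fun w => ?_⟩
  obtain ⟨g, hg⟩ := (hD w.1).mp w.2
  have hgN : g ∈ N := by
    rw [hNtop]
    trivial
  obtain ⟨h1, h2⟩ := (hS _).mp ((hN g).mp hgN)
  have e : (⟨g * d * g⁻¹, h1⟩ : ↥(conjugatesOf d)) = w := Subtype.ext hg
  rw [← e]
  exact h2
end Cfsg.Agent.S5459
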