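import Cfsg.Statements.S5541

set_option autoImplicit false
open Cfsg

namespace Cfsg.Agent.S5541

/-- Let ρ be a representation of a group H on a finite-dimensional real vector space U whose only ρ-invariant subspaces are the zero subspace and U, and suppose U carries a non-zero ρ-invariant symmetric bilinear form. Then the following are equivalent: (1) there is a non-zero ρ-equivariant commutative bilinear product on U of which every ρ-equivariant bilinear product is a scalar multiple; (2) there is a non-zero ρ-invariant trilinear form on U that is symmetric under all permutations of its arguments and of which every ρ-invariant trilinear form is a scalar multiple. -/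
theorem result {H : Type*} [Group H] {U : Type*} [AddCommGroup U] [Module ℝ U] [FiniteDimensional ℝ U] (ρ : Representation ℝ H U) (hirr : ∀ W : Submodule ℝ U, (∀ g : H, W.map (ρ g) ≤ W) → W = ⊥ ∨ W = ⊤) (B : LinearMap.BilinForm ℝ U) (hB0 : B ≠ 0) (hBs : ∀ u v, B u v = B v u) (hBi : ∀ (g : H) (u v : U), B (ρ g u) (ρ g v) = B u v) : (∃ m : U →ₗ[ℝ] U →ₗ[ℝ] U, m ≠ 0 ∧ (∀ u v, m u v = m v u) ∧ (∀ (g : H) (u v : U), m (ρ g u) (ρ g v) = ρ g (m u v)) ∧ ∀ m' : U →ₗ[ℝ] U →ₗ[ℝ] U, (∀ (g : H) (u v : U), m' (ρ g u) (ρ g v) = ρ g (m' u v)) → ∃ c : ℝ, m' = c • m) ↔ (∃ t : U →ₗ[ℝ] U →ₗ[ℝ] U →ₗ[ℝ] ℝ, t ≠ 0 ∧ (∀ u v w, t u v w = t v u w ∧ t u v w = t u w v) ∧ (∀ (g : H) (u v w : U), t (ρ g u) (ρ g v) (ρ g w) = t u v w) ∧ ∀ t' : U →ₗ[ℝ] U →ₗ[ℝ] U →ₗ[ℝ] ℝ, (∀ (g : H) (u v w : U), t' (ρ g u) (ρ g v) (ρ g w) = t' u v w) → ∃ c : ℝ, t' = c • t) := by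
  classical
  have hsep : ∀ x : U, (∀ y, B x y = 0) → x = 0 := by
    intro x hx
    have hW : ∀ g : H, (LinearMap.ker B).map (ρ g) ≤ LinearMap.ker B := by
      intro g y hy
      obtain ⟨x', hx', rfl⟩ := hy
      rw [SetLike.mem_coe, LinearMap.mem_ker] at hx'
      rw [LinearMap.mem_ker]
      ext w
      have e : w = ρ g (ρ g⁻¹ w) := (Representation.self_inv_apply ρ g w).symm
      rw [e, hBi, hx']
      rfl
    rcases hirr (LinearMap.ker B) hW with h | h
    · have hx' : x ∈ LinearMap.ker B := by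
        rw [LinearMap.mem_ker]
        ext y
        exact hx y
      rw [h] at hx'
      exact (Submodule.mem_bot ℝ).mp hx'
    · exfalso
      apply hB0
      ext a b
      have ha : a ∈ LinearMap.ker B := by rw [h]; trivial
      rw [LinearMap.mem_ker] at ha
      rw [ha]
      rfl
  have hnd : B.Nondegenerate := ⟨hsep, fun y hy => hsep y (fun x => by rw [hBs]; exact hy x)⟩
  have heq : ∀ x y : U, (∀ w, B x w = B y w) → x = y := by
    intro x y h
    have : x - y = 0 := by
      apply hsep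
      intro w
      rw [map_sub, LinearMap.sub_apply, h w, sub_self]
    exact sub_eq_zero.mp this
  have hD : ∀ (f : Module.Dual ℝ U) (w : U), B ((B.toDual hnd).symm f) w = f w :=
    fun f w => LinearMap.BilinForm.apply_toDual_symm_apply f w
  -- from trilinear forms to products
  have toProd : ∀ t' : U →ₗ[ℝ] U →ₗ[ℝ] U →ₗ[ℝ] ℝ,
      ∃ m' : U →ₗ[ℝ] U →ₗ[ℝ] U, ∀ u v w, B (m' u v) w = t' u v w := by
    intro t'
    refine ⟨t'.compr₂ ((B.toDual hnd).symm : Module.Dual ℝ U →ₗ[ℝ] U), ?_⟩
    intro u v w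
    rw [LinearMap.compr₂_apply]
    exact hD _ w
  have equivar : ∀ (m' : U →ₗ[ℝ] U →ₗ[ℝ] U) (t' : U →ₗ[ℝ] U →ₗ[ℝ] U →ₗ[ℝ] ℝ),
      (∀ u v w, B (m' u v) w = t' u v w) →
      (∀ (g : H) (u v w : U), t' (ρ g u) (ρ g v) (ρ g w) = t' u v w) →
      ∀ (g : H) (u v : U), m' (ρ g u) (ρ g v) = ρ g (m' u v) := by
    intro m' t' h1 h2 g u v
    apply heq
    intro w
    have e : w = ρ g (ρ g⁻¹ w) := (Representation.self_inv_apply ρ g w).symm
    rw [h1]
    conv_lhs => rw [e]
    rw [h2, ← h1]
    conv_rhs => rw [e]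
    rw [hBi]
  have invar : ∀ (m' : U →ₗ[ℝ] U →ₗ[ℝ] U),
      (∀ (g : H) (u v : U), m' (ρ g u) (ρ g v) = ρ g (m' u v)) →
      ∀ (g : H) (u v w : U), (m'.compr₂ B) (ρ g u) (ρ g v) (ρ g w) = (m'.compr₂ B) u v w := by
    intro m' h g u v w
    rw [LinearMap.compr₂_apply, LinearMap.compr₂_apply, h, hBi]
  constructor
  · rintro ⟨m, hm0, hmc, hme, hmu⟩
    have ht0 : m.compr₂ B ≠ 0 := by
      intro h
      apply hm0
      ext u v
      apply heq
      intro w
      have := DFunLike.congr_fun (DFunLike.congr_fun (DFunLike.congr_fun h u) v) w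
      rw [LinearMap.compr₂_apply] at this
      rw [this]
      simp
    have huniv : ∀ t' : U →ₗ[ℝ] U →ₗ[ℝ] U →ₗ[ℝ] ℝ,
        (∀ (g : H) (u v w : U), t' (ρ g u) (ρ g v) (ρ g w) = t' u v w) →
        ∃ c : ℝ, t' = c • m.compr₂ B := by
      intro t' ht'
      obtain ⟨m', hm'⟩ := toProd t'
      obtain ⟨c, hc⟩ := hmu m' (equivar m' t' hm' ht')
      refine ⟨c, ?_⟩
      ext u v w
      rw [← hm', hc]
      simp [LinearMap.compr₂_apply]
    have hsym1 : ∀ u v w, (m.compr₂ B) u v w = (m.compr₂ B) v u w := by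
      intro u v w
      rw [LinearMap.compr₂_apply, LinearMap.compr₂_apply, hmc]
    -- the form with the last two arguments swapped
    let t'' : U →ₗ[ℝ] U →ₗ[ℝ] U →ₗ[ℝ] ℝ :=
      { toFun := fun u => ((m.compr₂ B) u).flip
        map_add' := by
          intro a b
          ext v w
          simp
        map_smul' := by
          intro c a
          ext v w
          simp }
    have ht''_apply : ∀ u v w, t'' u v w = (m.compr₂ B) u w v := fun u v w => rfl
    obtain ⟨c, hc⟩ := huniv t'' (by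
      intro g u v w
      rw [ht''_apply, ht''_apply]
      exact invar m hme g u w v)
    have hc' : ∀ u v w, (m.compr₂ B) u w v = c * (m.compr₂ B) u v w := by
      intro u v w
      rw [← ht''_apply, hc]
      simp
    obtain ⟨u₀, v₀, w₀, h₀⟩ : ∃ u v w, (m.compr₂ B) u v w ≠ 0 := by
      by_contra hcon
      push Not at hcon
      apply ht0
      ext u v w
      rw [hcon]
      simp
    have hcc : c * c = 1 := by
      have h1 := hc' u₀ v₀ w₀
      have h2 := hc' u₀ w₀ v₀
      rw [h1] at h2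
      have : (c * c - 1) * (m.compr₂ B) u₀ v₀ w₀ = 0 := by linarith
      rcases mul_eq_zero.mp this with h | h
      · linarith
      · exact absurd h h₀
    have hc1 : c = 1 := by
      have : (c - 1) * (c + 1) = 0 := by linarith
      rcases mul_eq_zero.mp this with h | h
      · linarith
      · exfalso
        have hcm : c = -1 := by linarith
        apply h₀
        have a1 := hc' u₀ w₀ v₀
        have a2 := hsym1 u₀ w₀ v₀
        have a3 := hc' w₀ v₀ u₀
        have a4 := hsym1 w₀ v₀ u₀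
        have a5 := hc' v₀ u₀ w₀
        have a6 := hsym1 v₀ u₀ w₀
        rw [hcm] at a1 a3 a5
        linarith
    refine ⟨m.compr₂ B, ht0, ?_, invar m hme, huniv⟩
    intro u v w
    refine ⟨hsym1 u v w, ?_⟩
    have := hc' u w v
    rw [hc1, one_mul] at this
    exact this
  · rintro ⟨t, ht0, hts, hti, htu⟩
    obtain ⟨m, hm⟩ := toProd t
    refine ⟨m, ?_, ?_, equivar m t hm hti, ?_⟩
    · intro h
      apply ht0
      ext u v w
      rw [← hm, h]
      simp
    · intro u v
      apply heq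
      intro w
      rw [hm, hm]
      exact (hts u v w).1
    · intro m' hm'
      obtain ⟨c, hc⟩ := htu (m'.compr₂ B) (invar m' hm')
      refine ⟨c, ?_⟩
      ext u v
      apply heq
      intro w
      have := DFunLike.congr_fun (DFunLike.congr_fun (DFunLike.congr_fun hc u) v) w
      rw [LinearMap.compr₂_apply] at this
      rw [this]
      simp [hm]
end Cfsg.Agent.S5541
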