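import Cfsg.Statements.S5543

set_option autoImplicit false
open Cfsg

namespace Cfsg.Agent.S5543

/-- Let V be a finite-dimensional real vector space with a commutative bilinear product and a positive-definite symmetric bilinear form that associates with the product and satisfies the Norton inequality (the Majorana setting of the definitions). Let X be a group of linear automorphisms of V in which every element squares to the identity, and suppose every non-identity element x of X is a Majorana involution with an axial vector a(x) of squared length 1, such that for any two distinct non-identity x, y the product a(x) ∘ a(y) equals (1/8)(a(x) + a(y) − a(xy)) (the dihedral subalgebra of type 2A whose third axis belongs to the involution xy). Then X has order at most 4. -/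
theorem result {V : Type*} [AddCommGroup V] [Module ℝ V] [FiniteDimensional ℝ V] (mul : V →ₗ[ℝ] V →ₗ[ℝ] V) (B : LinearMap.BilinForm ℝ V) (hV : Cfsg.Axial.IsMajoranaAmbient mul B) (X : Subgroup (V ≃ₗ[ℝ] V)) (hX : ∀ x ∈ X, x * x = 1) (ax : (V ≃ₗ[ℝ] V) → V) (hax : ∀ x ∈ X, x ≠ 1 → Cfsg.Axial.IsMajoranaPair mul B x (ax x)) (h1 : ∀ x ∈ X, x ≠ 1 → B (ax x) (ax x) = 1) (h2A : ∀ x ∈ X, ∀ y ∈ X, x ≠ 1 → y ≠ 1 → x ≠ y → mul (ax x) (ax y) = (1 / 8 : ℝ) • (ax x + ax y - ax (x * y))) : Nat.card ↥X ≤ 4 := by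
  classical
  by_contra hcard
  push Not at hcard
  obtain ⟨hcomm, hBsymm, hBpos, hBassoc, _⟩ := hV
  -- picking elements outside small sets
  have hpick : ∀ T : Set (V ≃ₗ[ℝ] V), T.Finite → T.ncard ≤ 4 → ∃ z ∈ X, z ∉ T := by
    intro T hT hT4
    by_contra hcon
    push Not at hcon
    have hsub : (X : Set (V ≃ₗ[ℝ] V)) ⊆ T := hcon
    have h1 := Set.ncard_le_ncard hsub hT
    have h2 : Nat.card X = (X : Set (V ≃ₗ[ℝ] V)).ncard := (Nat.card_coe_set_eq (X : Set (V ≃ₗ[ℝ] V)))
    omega
  obtain ⟨x, hxX, hx⟩ := hpick {1} (Set.finite_singleton _) (by rw [Set.ncard_singleton]; norm_num)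
  obtain ⟨y, hyX, hy⟩ := hpick {1, x} (Set.toFinite _) (by
    have := Set.ncard_insert_le (1 : V ≃ₗ[ℝ] V) {x}
    rw [Set.ncard_singleton] at this
    omega)
  obtain ⟨z, hzX, hz⟩ := hpick {1, x, y, x * y} (Set.toFinite _) (by
    have h1 := Set.ncard_insert_le (1 : V ≃ₗ[ℝ] V) {x, y, x * y}
    have h2 := Set.ncard_insert_le x {y, x * y}
    have h3 := Set.ncard_insert_le y {x * y}
    rw [Set.ncard_singleton] at h3
    omega)
  simp only [Set.mem_singleton_iff, Set.mem_insert_iff, not_or] at hx hy hz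
  obtain ⟨hy1, hyx⟩ := hy
  obtain ⟨hz1, hzx, hzy, hzxy⟩ := hz
  have hx1 : x ≠ 1 := hx
  -- group facts
  have hsq : ∀ s ∈ X, s * s = 1 := hX
  have hXcomm : ∀ s ∈ X, ∀ t ∈ X, s * t = t * s := by
    intro s hs t ht
    have h1 := hsq (s * t) (X.mul_mem hs ht)
    have hs' : s⁻¹ = s := inv_eq_of_mul_eq_one_left (hsq s hs)
    have ht' : t⁻¹ = t := inv_eq_of_mul_eq_one_left (hsq t ht)
    symm
    calc t * s = s⁻¹ * (s * t * (s * t)) * t⁻¹ := by group
      _ = s⁻¹ * t⁻¹ := by rw [h1]; group
      _ = s * t := by rw [hs', ht']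
  have hxx := hsq x hxX
  have hyy := hsq y hyX
  have hzz := hsq z hzX
  have hxy := hXcomm x hxX y hyX
  have hxz := hXcomm x hxX z hzX
  have hyz := hXcomm y hyX z hzX
  -- the product rule
  have P : ∀ s ∈ X, ∀ t ∈ X, s ≠ 1 → t ≠ 1 → s ≠ t →
      mul (ax s) (ax t) = (1 / 8 : ℝ) • (ax s + ax t - ax (s * t)) := h2A
  -- eigenvectors for the eigenvalue 1/4
  have L : ∀ s ∈ X, ∀ t ∈ X, s ≠ 1 → t ≠ 1 → s ≠ t →
      mul (ax s) (ax t - ax (s * t)) = (1 / 4 : ℝ) • (ax t - ax (s * t)) := by
    intro s hs t ht hs1 ht1 hst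
    have hss := hsq s hs
    have e1 : s * t ≠ 1 := by
      intro h
      apply hst
      calc s = s * (s * t) := by rw [h, mul_one]
        _ = (s * s) * t := by rw [mul_assoc]
        _ = t := by rw [hss, one_mul]
    have e2 : s ≠ s * t := by
      intro h
      apply ht1
      have : s * 1 = s * t := by rw [mul_one]; exact h
      exact (mul_left_cancel this).symm
    have e3 : s * (s * t) = t := by rw [← mul_assoc, hss, one_mul]
    have p1 := P s hs t ht hs1 ht1 hst
    have p2 := P s hs (s * t) (X.mul_mem hs ht) hs1 e1 e2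
    rw [e3] at p2
    rw [map_sub, p1, p2]
    module
  -- memberships and inequalities
  have hyzX : y * z ∈ X := X.mul_mem hyX hzX
  have hxyX : x * y ∈ X := X.mul_mem hxX hyX
  have hxzX : x * z ∈ X := X.mul_mem hxX hzX
  have hyz1 : y * z ≠ 1 := by
    intro h
    apply hzy
    calc z = (y * y) * z := by rw [hyy, one_mul]
      _ = y * (y * z) := by rw [mul_assoc]
      _ = y := by rw [h, mul_one]
  have hxyz : x ≠ y * z := by
    intro h
    apply hzxy
    calc z = (y * y) * z := by rw [hyy, one_mul]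
      _ = y * (y * z) := by rw [mul_assoc]
      _ = y * x := by rw [← h]
      _ = x * y := hxy.symm
  have hxz1 : x * z ≠ 1 := by
    intro h
    apply hzx
    calc z = (x * x) * z := by rw [hxx, one_mul]
      _ = x * (x * z) := by rw [mul_assoc]
      _ = x := by rw [h, mul_one]
  have hxy1 : x * y ≠ 1 := by
    intro h
    apply hyx
    calc y = (x * x) * y := by rw [hxx, one_mul]
      _ = x * (x * y) := by rw [mul_assoc]
      _ = x := by rw [h, mul_one]
  have hyxz : y ≠ x * z := by
    intro h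
    apply hzxy
    calc z = (x * x) * z := by rw [hxx, one_mul]
      _ = x * (x * z) := by rw [mul_assoc]
      _ = x * y := by rw [← h]
  have hxyxz : x * y ≠ x * z := by
    intro h
    exact hzy (mul_left_cancel h).symm
  have g1 : y * (x * z) = x * (y * z) := by
    rw [← mul_assoc, ← hxy, mul_assoc]
  have g2 : x * y * z = x * (y * z) := mul_assoc x y z
  have g3 : x * y * (x * z) = y * z := by
    calc x * y * (x * z) = y * x * (x * z) := by rw [hxy]
      _ = y * ((x * x) * z) := by simp only [mul_assoc]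
      _ = y * z := by rw [hxx, one_mul]
  -- the three eigenvectors
  have hvy := L x hxX y hyX hx1 hy1 (Ne.symm hyx)
  have hvz := L x hxX z hzX hx1 hz1 (Ne.symm hzx)
  have hw := L x hxX (y * z) hyzX hx1 hyz1 hxyz
  -- the product of the first two
  have p1 := P y hyX z hzX hy1 hz1 (Ne.symm hzy)
  have p2 := P y hyX (x * z) hxzX hy1 hxz1 hyxz
  have p3 := P (x * y) hxyX z hzX hxy1 hz1 (Ne.symm hzxy)
  have p4 := P (x * y) hxyX (x * z) hxzX hxy1 hxz1 hxyxz
  rw [g1] at p2
  rw [g2] at p3
  rw [g3] at p4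
  have hprod : mul (ax y - ax (x * y)) (ax z - ax (x * z))
      = (-(1 / 4) : ℝ) • (ax (y * z) - ax (x * (y * z))) := by
    simp only [map_sub, LinearMap.sub_apply, p1, p2, p3, p4]
    module
  -- fusion
  have hAxis := (hax x hxX hx1).2.2.1.1
  obtain ⟨_, hidem, _, hfus⟩ := hAxis
  have hS : (1 / 4 : ℝ) ∈ Cfsg.Axial.majoranaSpectrum := by
    unfold Cfsg.Axial.majoranaSpectrum
    simp
  have hmem1 : ax y - ax (x * y) ∈ Cfsg.Axial.eigen mul (ax x) (1 / 4) := by
    unfold Cfsg.Axial.eigen
    rw [Module.End.mem_eigenspace_iff]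
    exact hvy
  have hmem2 : ax z - ax (x * z) ∈ Cfsg.Axial.eigen mul (ax x) (1 / 4) := by
    unfold Cfsg.Axial.eigen
    rw [Module.End.mem_eigenspace_iff]
    exact hvz
  have hf := hfus (1 / 4) hS (1 / 4) hS _ hmem1 _ hmem2
  have hlaw : Cfsg.Axial.monsterLaw (1 / 4 : ℝ) (1 / 32) (1 / 4) (1 / 4) = {1, 0} := by
    unfold Cfsg.Axial.monsterLaw
    norm_num
  rw [hlaw, hprod] at hf
  unfold Cfsg.Axial.eigenSum at hf
  rw [iSup_insert, iSup_singleton, Submodule.mem_sup] at hf
  obtain ⟨p, hp, q, hq, hpq⟩ := hf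
  unfold Cfsg.Axial.eigen at hp hq
  rw [Module.End.mem_eigenspace_iff] at hp hq
  -- w is zero
  set w := ax (y * z) - ax (x * (y * z)) with hwdef
  have hw0 : w = 0 := by
    have h1 : mul (ax x) (p + q) = p := by
      rw [map_add, hp, hq]; simp
    rw [hpq, map_smul, hw] at h1
    -- h1 : -(1/4) • (1/4) • w = p, hpq : p + q = -(1/4) • w
    have hq' : q = (-(3 / 16) : ℝ) • w := by
      have : q = (-(1 / 4) : ℝ) • w - p := by rw [← hpq]; abel
      rw [this, ← h1]; module
    have h2 : mul (ax x) q = (-(3 / 64) : ℝ) • w := by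
      rw [hq', map_smul, hw]; module
    rw [hq] at h2
    have h3 : (3 / 64 : ℝ) • w = 0 := by
      have : (0 : ℝ) • q = (-(3 / 64) : ℝ) • w := h2
      rw [zero_smul] at this
      have h4 : (3 / 64 : ℝ) • w = -((-(3 / 64) : ℝ) • w) := by module
      rw [h4, ← this, neg_zero]
    have h5 := smul_eq_zero.mp h3
    rcases h5 with h5 | h5
    · norm_num at h5
    · exact h5
  have heq : ax (y * z) = ax (x * (y * z)) := sub_eq_zero.mp hw0
  -- final contradiction
  have hxyz1 : x * (y * z) ≠ 1 := by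
    intro h
    apply hxyz
    calc x = x * (x * (y * z)) := by rw [h, mul_one]
      _ = (x * x) * (y * z) := by rw [mul_assoc]
      _ = y * z := by rw [hxx, one_mul]
  have hne : y * z ≠ x * (y * z) := by
    intro h
    apply hx1
    have : 1 * (y * z) = x * (y * z) := by rw [one_mul]; exact h
    exact (mul_right_cancel this).symm
  have hxyzc : x * (y * z) = y * z * x := by
    rw [mul_assoc, ← hxz, ← mul_assoc, ← mul_assoc, hxy]
  have g4 : y * z * (x * (y * z)) = x := by
    calc y * z * (x * (y * z)) = (y * z * x) * (y * z) := by simp only [mul_assoc]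
      _ = x * (y * z) * (y * z) := by rw [← hxyzc]
      _ = x * ((y * z) * (y * z)) := by rw [mul_assoc]
      _ = x := by rw [hsq (y * z) hyzX, mul_one]
  have p5 := P (y * z) hyzX (x * (y * z)) (X.mul_mem hxX hyzX) hyz1 hxyz1 hne
  rw [g4, ← heq] at p5
  have hidem2 := (hax (y * z) hyzX hyz1).2.2.1.1.2.1
  rw [hidem2] at p5
  have h6 : ax x = (-6 : ℝ) • ax (y * z) := by
    have e : ax x = ax (y * z) + ax (y * z) - (8 : ℝ) • ((1 / 8 : ℝ) • (ax (y * z) + ax (y * z) - ax x)) := by
      module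
    rw [← p5] at e
    rw [e]; module
  have h7 := h1 x hxX hx1
  have h8 := h1 (y * z) hyzX hyz1
  rw [h6] at h7
  simp only [map_smul, LinearMap.smul_apply, smul_eq_mul] at h7
  rw [h8] at h7
  norm_num at h7
end Cfsg.Agent.S5543
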