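import Cfsg.Statements.S5545

set_option autoImplicit false
open Cfsg

namespace Cfsg.Agent.S5545

open Cfsg.Axial

theorem mem_eigen_iff {V : Type*} [AddCommGroup V] [Module ℝ V] (mul : V →ₗ[ℝ] V →ₗ[ℝ] V)
    (a x : V) (c : ℝ) : x ∈ eigen mul a c ↔ mul a x = c • x := by
  unfold eigen
  exact Module.End.mem_eigenspace_iff

theorem eigen_le_eigenSum {V : Type*} [AddCommGroup V] [Module ℝ V] (mul : V →ₗ[ℝ] V →ₗ[ℝ] V)
    (a : V) (T : Set ℝ) (c : ℝ) (hc : c ∈ T) : eigen mul a c ≤ eigenSum mul a T := by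
  unfold eigenSum
  exact le_iSup₂_of_le c hc (le_refl _)

theorem eigenSum_map {V : Type*} [AddCommGroup V] [Module ℝ V] (mul : V →ₗ[ℝ] V →ₗ[ℝ] V)
    (σ : V ≃ₗ[ℝ] V) (hσ : ∀ u v, σ (mul u v) = mul (σ u) (σ v)) (a : V) (T : Set ℝ) (x : V)
    (hx : x ∈ eigenSum mul a T) : σ x ∈ eigenSum mul (σ a) T := by
  have h : eigenSum mul a T ≤ (eigenSum mul (σ a) T).comap (σ : V →ₗ[ℝ] V) := by
    unfold eigenSum
    refine iSup₂_le ?_
    intro c hc y hy
    rw [Submodule.mem_comap]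
    refine (le_iSup₂_of_le c hc (le_refl _) : eigen mul (σ a) c ≤ _) ?_
    rw [mem_eigen_iff] at hy ⊢
    show mul (σ a) (σ y) = c • σ y
    rw [← hσ, hy, map_smul]
  exact h hx

theorem conj_pair {V : Type*} [AddCommGroup V] [Module ℝ V] (mul : V →ₗ[ℝ] V →ₗ[ℝ] V)
    (B : LinearMap.BilinForm ℝ V) (μ σ : V ≃ₗ[ℝ] V) (a : V) (h : IsMajoranaPair mul B μ a)
    (hσ : ∀ u v, σ (mul u v) = mul (σ u) (σ v)) (hc : ∀ x, μ (σ x) = σ (μ x)) :
    IsMajoranaPair mul B μ (σ a) := by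
  obtain ⟨hm, hB, ⟨⟨hne, hid, hsum, hfus⟩, hprim⟩, hM1, hM2⟩ := h
  have hσ' : ∀ u v, σ.symm (mul u v) = mul (σ.symm u) (σ.symm v) := by
    intro u v
    apply σ.injective
    rw [hσ]
    simp
  have hback : ∀ (T : Set ℝ) (x : V), x ∈ eigenSum mul (σ a) T → σ.symm x ∈ eigenSum mul a T := by
    intro T x hx
    have := eigenSum_map mul σ.symm hσ' (σ a) T x hx
    simpa using this
  have hbackE : ∀ (c : ℝ) (x : V), x ∈ eigen mul (σ a) c → σ.symm x ∈ eigen mul a c := by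
    intro c x hx
    rw [mem_eigen_iff] at hx ⊢
    have := congrArg σ.symm hx
    rw [hσ', map_smul] at this
    simpa using this
  refine ⟨hm, hB, ⟨⟨?_, ?_, ?_, ?_⟩, ?_⟩, ?_, ?_⟩
  · intro h0
    apply hne
    apply σ.injective
    rw [h0, map_zero]
  · rw [← hσ, hid]
  · rw [eq_top_iff]
    intro x _
    have h1 : σ.symm x ∈ eigenSum mul a majoranaSpectrum := by rw [hsum]; trivial
    have h2 := eigenSum_map mul σ hσ a _ _ h1
    simpa using h2
  · intro c hc d hd u hu v hv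
    have h1 := hfus c hc d hd _ (hbackE c u hu) _ (hbackE d v hv)
    have h2 := eigenSum_map mul σ hσ a _ _ h1
    rw [hσ] at h2
    simpa using h2
  · ext x
    constructor
    · intro hx
      have h1 := hbackE 1 x hx
      rw [hprim, Submodule.mem_span_singleton] at h1
      obtain ⟨k, hk⟩ := h1
      rw [Submodule.mem_span_singleton]
      refine ⟨k, ?_⟩
      have := congrArg σ hk
      rw [map_smul] at this
      simpa using this
    · intro hx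
      rw [Submodule.mem_span_singleton] at hx
      obtain ⟨k, rfl⟩ := hx
      rw [mem_eigen_iff]
      rw [map_smul, ← hσ, hid, one_smul]
  · intro v hv
    have h1 : μ (σ.symm v) = σ.symm v := hM1 _ (hback _ v hv)
    show μ v = v
    calc μ v = μ (σ (σ.symm v)) := by rw [LinearEquiv.apply_symm_apply]
      _ = σ (μ (σ.symm v)) := hc _
      _ = σ (σ.symm v) := by rw [h1]
      _ = v := LinearEquiv.apply_symm_apply _ _
  · intro v hv
    have h1 : μ (σ.symm v) = -σ.symm v := hM2 _ (hbackE _ v hv)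
    show μ v = -v
    calc μ v = μ (σ (σ.symm v)) := by rw [LinearEquiv.apply_symm_apply]
      _ = σ (μ (σ.symm v)) := hc _
      _ = σ (-σ.symm v) := by rw [h1]
      _ = -v := by rw [map_neg, LinearEquiv.apply_symm_apply]

theorem decomp4 {V : Type*} [AddCommGroup V] [Module ℝ V] (mul : V →ₗ[ℝ] V →ₗ[ℝ] V) (a : V)
    (h : eigenSum mul a majoranaSpectrum = ⊤) (x : V) :
    ∃ x₁ x₀ x₄ x₃, mul a x₁ = x₁ ∧ mul a x₀ = 0 ∧ mul a x₄ = (1/4 : ℝ) • x₄ ∧
      mul a x₃ = (1/32 : ℝ) • x₃ ∧ x = x₁ + x₀ + x₄ + x₃ := by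
  have hx : x ∈ eigenSum mul a majoranaSpectrum := by rw [h]; trivial
  unfold eigenSum majoranaSpectrum at hx
  rw [iSup_insert, iSup_insert, iSup_insert, iSup_singleton] at hx
  obtain ⟨x₁, hx₁, y, hy, rfl⟩ := Submodule.mem_sup.mp hx
  obtain ⟨x₀, hx₀, z, hz, rfl⟩ := Submodule.mem_sup.mp hy
  obtain ⟨x₄, hx₄, x₃, hx₃, rfl⟩ := Submodule.mem_sup.mp hz
  rw [mem_eigen_iff] at hx₁ hx₀ hx₄ hx₃
  refine ⟨x₁, x₀, x₄, x₃, by simpa using hx₁, by simpa using hx₀, hx₄, hx₃, by abel⟩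

theorem decomp_fixed {V : Type*} [AddCommGroup V] [Module ℝ V] (mul : V →ₗ[ℝ] V →ₗ[ℝ] V)
    (B : LinearMap.BilinForm ℝ V) (hBassoc : ∀ u v w : V, B u (mul v w) = B (mul u v) w)
    (μ : V ≃ₗ[ℝ] V) (a : V) (h : IsMajoranaPair mul B μ a) (hn : B a a = 1) (x : V)
    (hx : μ x = x) :
    ∃ u v, mul a u = 0 ∧ mul a v = (1/4 : ℝ) • v ∧ x = B a x • a + u + v := by
  obtain ⟨hm, hB, ⟨⟨hne, hid, hsum, hfus⟩, hprim⟩, hM1, hM2⟩ := h
  obtain ⟨x₁, x₀, x₄, x₃, h1, h0, h4, h3, rfl⟩ := decomp4 mul a hsum x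
  have m1 : x₁ ∈ eigen mul a 1 := by rw [mem_eigen_iff, one_smul]; exact h1
  have m0 : x₀ ∈ eigen mul a 0 := by rw [mem_eigen_iff, zero_smul]; exact h0
  have m4 : x₄ ∈ eigen mul a (1/4) := by rw [mem_eigen_iff]; exact h4
  have m3 : x₃ ∈ eigen mul a (1/32) := by rw [mem_eigen_iff]; exact h3
  have f1 : μ x₁ = x₁ := hM1 _ (eigen_le_eigenSum mul a _ 1 (by simp) m1)
  have f0 : μ x₀ = x₀ := hM1 _ (eigen_le_eigenSum mul a _ 0 (by simp) m0)
  have f4 : μ x₄ = x₄ := hM1 _ (eigen_le_eigenSum mul a _ (1/4) (by simp) m4)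
  have f3 : μ x₃ = -x₃ := hM2 _ m3
  have z3 : x₃ = 0 := by
    rw [map_add, map_add, map_add, f1, f0, f4, f3] at hx
    have h2 : (2:ℝ) • x₃ = 0 := by
      have e : (2:ℝ) • x₃ = (x₁ + x₀ + x₄ + x₃) - (x₁ + x₀ + x₄ + -x₃) := by module
      rw [e, hx, sub_self]
    rcases smul_eq_zero.mp h2 with h | h
    · norm_num at h
    · exact h
  subst z3
  rw [hprim, Submodule.mem_span_singleton] at m1
  obtain ⟨k, rfl⟩ := m1
  have b0 : B a x₀ = 0 := by
    have := hBassoc a a x₀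
    rw [h0, hid, map_zero] at this
    exact this.symm
  have b4 : B a x₄ = 0 := by
    have := hBassoc a a x₄
    rw [h4, hid, map_smul, smul_eq_mul] at this
    linarith
  refine ⟨x₀, x₄, h0, h4, ?_⟩
  have hk : B a (k • a + x₀ + x₄ + 0) = k := by
    rw [add_zero, map_add, map_add, map_smul, hn, b0, b4]
    simp
  rw [hk, add_zero]

theorem fusion_facts {V : Type*} [AddCommGroup V] [Module ℝ V] (mul : V →ₗ[ℝ] V →ₗ[ℝ] V)
    (B : LinearMap.BilinForm ℝ V) (μ : V ≃ₗ[ℝ] V) (a : V) (h : IsMajoranaPair mul B μ a)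
    (u v : V) (hu : mul a u = 0) (hv : mul a v = (1/4 : ℝ) • v) :
    mul a (mul u u) = 0 ∧ mul a (mul u v) = (1/4 : ℝ) • mul u v ∧
      ∃ (ρ : ℝ) (w : V), mul a w = 0 ∧ mul v v = ρ • a + w := by
  obtain ⟨hm, hB, ⟨⟨hne, hid, hsum, hfus⟩, hprim⟩, hM1, hM2⟩ := h
  have m0 : u ∈ eigen mul a 0 := by rw [mem_eigen_iff, zero_smul]; exact hu
  have m4 : v ∈ eigen mul a (1/4) := by rw [mem_eigen_iff]; exact hv
  have s0 : (0:ℝ) ∈ majoranaSpectrum := by unfold majoranaSpectrum; simp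
  have s4 : (1/4:ℝ) ∈ majoranaSpectrum := by unfold majoranaSpectrum; simp
  have e00 : monsterLaw (1/4 : ℝ) (1/32) 0 0 = {0} := by unfold monsterLaw; norm_num
  have e04 : monsterLaw (1/4 : ℝ) (1/32) 0 (1/4) = {1/4} := by unfold monsterLaw; norm_num
  have e44 : monsterLaw (1/4 : ℝ) (1/32) (1/4) (1/4) = {1, 0} := by unfold monsterLaw; norm_num
  have r1 := hfus 0 s0 0 s0 u m0 u m0
  have r2 := hfus 0 s0 (1/4) s4 u m0 v m4
  have r3 := hfus (1/4) s4 (1/4) s4 v m4 v m4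
  rw [e00] at r1
  rw [e04] at r2
  rw [e44] at r3
  unfold eigenSum at r1 r2 r3
  rw [iSup_singleton] at r1 r2
  rw [iSup_insert, iSup_singleton] at r3
  rw [mem_eigen_iff] at r1 r2
  refine ⟨by simpa using r1, r2, ?_⟩
  obtain ⟨y, hy, w, hw, hyw⟩ := Submodule.mem_sup.mp r3
  rw [hprim, Submodule.mem_span_singleton] at hy
  obtain ⟨ρ, rfl⟩ := hy
  rw [mem_eigen_iff, zero_smul] at hw
  exact ⟨ρ, w, hw, hyw.symm⟩

theorem indep3 {V : Type*} [AddCommGroup V] [Module ℝ V] (mul : V →ₗ[ℝ] V →ₗ[ℝ] V)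
    (a d₁ d₀ d₄ : V) (h₁ : mul a d₁ = d₁) (h₀ : mul a d₀ = 0) (h₄ : mul a d₄ = (1/4:ℝ) • d₄)
    (h : d₁ + d₀ + d₄ = 0) : d₁ = 0 ∧ d₀ = 0 ∧ d₄ = 0 := by
  have e1 : d₁ + (1/4:ℝ) • d₄ = 0 := by
    have := congrArg (mul a) h
    rw [map_add, map_add, h₁, h₀, h₄, map_zero, add_zero] at this
    exact this
  have e2 : d₁ + (1/16:ℝ) • d₄ = 0 := by
    have := congrArg (mul a) e1
    rw [map_add, map_smul, h₁, h₄, map_zero, smul_smul] at this
    norm_num at this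
    exact this
  have e3 : d₄ = 0 := by
    have h3 : (3/16 : ℝ) • d₄ = 0 := by
      have e : (3/16 : ℝ) • d₄ = (d₁ + (1/4:ℝ) • d₄) - (d₁ + (1/16:ℝ) • d₄) := by module
      rw [e, e1, e2, sub_zero]
    rcases smul_eq_zero.mp h3 with h | h
    · norm_num at h
    · exact h
  subst e3
  have e4 : d₁ = 0 := by simpa using e1
  subst e4
  refine ⟨rfl, ?_, rfl⟩
  simpa using h

/-- Let V be a finite-dimensional real vector space with a commutative bilinear product and a positive-definite symmetric bilinear form that associates with the product and satisfies the Norton inequality (the Majorana setting of the definitions). Let μ₀, μ₁ be commuting Majorana involutions with distinct axial vectors a₀ ≠ a₁ of squared length 1, each involution having no other axial vector. Then either a₀ and a₁ are orthogonal with a₀ ∘ a₁ = 0 (type 2B), or their inner product is 1/8 and, with a₂ = a₀ + a₁ − 8 a₀ ∘ a₁, the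 vector a₂ is an idempotent and a₀ ∘ a₂ = (1/8)(a₀ + a₂ − a₁), a₁ ∘ a₂ = (1/8)(a₁ + a₂ − a₀) (type 2A: the three idempotents span a subalgebra with aᵢ ∘ aⱼ = (1/8)(aᵢ + aⱼ − aₖ)). -/
theorem result {V : Type*} [AddCommGroup V] [Module ℝ V] [FiniteDimensional ℝ V] (mul : V →ₗ[ℝ] V →ₗ[ℝ] V) (B : LinearMap.BilinForm ℝ V) (hV : Cfsg.Axial.IsMajoranaAmbient mul B) (μ₀ μ₁ : V ≃ₗ[ℝ] V) (a₀ a₁ : V) (h₀ : Cfsg.Axial.IsMajoranaPair mul B μ₀ a₀) (h₁ : Cfsg.Axial.IsMajoranaPair mul B μ₁ a₁) (hu₀ : ∀ a : V, Cfsg.Axial.IsMajoranaPair mul B μ₀ a → a = a₀) (hu₁ : ∀ a : V, Cfsg.Axial.IsMajoranaPair mul B μ₁ a → a = a₁) (hn₀ : B a₀ a₀ = 1) (hn₁ : B a₁ a₁ = 1) (hc : μ₀ * μ₁ = μ₁ * μ₀) (hne : a₀ ≠ a₁) : (B a₀ a₁ = 0 ∧ mul a₀ a₁ = 0) ∨ (B a₀ a₁ = 1 / 8 ∧ mul (a₀ + a₁ - (8 : ℝ) • mul a₀ a₁) (a₀ + a₁ - (8 : ℝ) • mul a₀ a₁) = a₀ + a₁ - (8 : ℝ) • mul a₀ a₁ ∧ mul a₀ (a₀ + a₁ - (8 : ℝ) • mul a₀ a₁) = (1 / 8 : ℝ) • (a₀ + (a₀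 + a₁ - (8 : ℝ) • mul a₀ a₁) - a₁) ∧ mul a₁ (a₀ + a₁ - (8 : ℝ) • mul a₀ a₁) = (1 / 8 : ℝ) • (a₁ + (a₀ + a₁ - (8 : ℝ) • mul a₀ a₁) - a₀)) := by
  obtain ⟨hcomm, hBsymm, hBpos, hBassoc, _⟩ := hV
  have hc' : ∀ x, μ₀ (μ₁ x) = μ₁ (μ₀ x) := by
    intro x
    have := congrArg (fun f : V ≃ₗ[ℝ] V => f x) hc
    simpa using this
  have hfix₀ : μ₁ a₀ = a₀ := hu₀ _ (conj_pair mul B μ₀ μ₁ a₀ h₀ h₁.1 hc')
  have hfix₁ : μ₀ a₁ = a₁ := hu₁ _ (conj_pair mul B μ₁ μ₀ a₁ h₁ h₀.1 (fun x => (hc' x).symm))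
  obtain ⟨u, v, hu, hv, ha₀⟩ := decomp_fixed mul B hBassoc μ₁ a₁ h₁ hn₁ a₀ hfix₀
  obtain ⟨u', v', hu', hv', ha₁⟩ := decomp_fixed mul B hBassoc μ₀ a₀ h₀ hn₀ a₁ hfix₁
  obtain ⟨huu, huv, ρ, w, hw, hvv⟩ := fusion_facts mul B μ₁ a₁ h₁ u v hu hv
  have hid₀ : mul a₀ a₀ = a₀ := h₀.2.2.1.1.2.1
  have hid₁ : mul a₁ a₁ = a₁ := h₁.2.2.1.1.2.1
  have hne₁ : a₁ ≠ 0 := h₁.2.2.1.1.1
  obtain ⟨l, hl⟩ : ∃ l : ℝ, l = B a₀ a₁ := ⟨_, rfl⟩
  rw [hBsymm a₁ a₀, ← hl] at ha₀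
  rw [← hl] at ha₁
  -- the key equation
  have key : mul a₀ (mul a₀ a₁) = (1/4 : ℝ) • mul a₀ a₁ + (3/4 * l) • a₀ := by
    have e1 : mul a₀ a₁ = l • a₀ + (1/4 : ℝ) • v' := by
      conv_lhs => rw [ha₁]
      rw [map_add, map_add, map_smul, hid₀, hu', hv']
      module
    rw [e1, map_add, map_smul, map_smul, hid₀, hv']
    module
  have hua : mul u a₁ = 0 := by rw [hcomm, hu]
  have hva : mul v a₁ = (1/4 : ℝ) • v := by rw [hcomm, hv]
  have hvu : mul v u = mul u v := hcomm v u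
  have e01 : mul a₀ a₁ = l • a₁ + (1/4 : ℝ) • v := by
    rw [hcomm]
    conv_lhs => rw [ha₀]
    rw [map_add, map_add, map_smul, hid₁, hu, hv]
    module
  -- idempotency expanded
  have idem : (l * l + ρ - l) • a₁ + (mul u u + w - u) + ((l / 2 - 1) • v + (2:ℝ) • mul u v) = 0 := by
    have h := hid₀
    rw [ha₀] at h
    simp only [map_add, map_smul, LinearMap.add_apply, LinearMap.smul_apply, hid₁, hu, hv, hua, hva,
      hvu, hvv] at h
    linear_combination (norm := module) h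
  have key2 : (l * l / 4 + ρ / 4 - l / 4) • a₁ + ((1/4 : ℝ) • w - (3 / 4 * l) • u)
      + ((-7 * l / 16 - 1 / 16) • v + (1/4 : ℝ) • mul u v) = 0 := by
    have h := key
    rw [e01, ha₀] at h
    simp only [map_add, map_smul, LinearMap.add_apply, LinearMap.smul_apply, hid₁, hu, hv, hua, hva,
      hvu, hvv] at h
    linear_combination (norm := module) h
  have hd₁ : mul a₁ ((l * l + ρ - l) • a₁) = (l * l + ρ - l) • a₁ := by rw [map_smul, hid₁]
  have hd₀ : mul a₁ (mul u u + w - u) = 0 := by rw [map_sub, map_add, huu, hw, hu]; simp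
  have hd₄ : mul a₁ ((l / 2 - 1) • v + (2:ℝ) • mul u v)
      = (1/4 : ℝ) • ((l / 2 - 1) • v + (2:ℝ) • mul u v) := by
    rw [map_add, map_smul, map_smul, hv, huv]; module
  obtain ⟨A1, A0, A4⟩ := indep3 mul a₁ _ _ _ hd₁ hd₀ hd₄ idem
  have hd₁' : mul a₁ ((l * l / 4 + ρ / 4 - l / 4) • a₁) = (l * l / 4 + ρ / 4 - l / 4) • a₁ := by
    rw [map_smul, hid₁]
  have hd₀' : mul a₁ ((1/4 : ℝ) • w - (3 / 4 * l) • u) = 0 := by
    rw [map_sub, map_smul, map_smul, hw, hu]; simp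
  have hd₄' : mul a₁ ((-7 * l / 16 - 1 / 16) • v + (1/4 : ℝ) • mul u v)
      = (1/4 : ℝ) • ((-7 * l / 16 - 1 / 16) • v + (1/4 : ℝ) • mul u v) := by
    rw [map_add, map_smul, map_smul, hv, huv]; module
  obtain ⟨B1, B0, B4⟩ := indep3 mul a₁ _ _ _ hd₁' hd₀' hd₄' key2
  have hρ : ρ = l - l * l := by
    rcases smul_eq_zero.mp A1 with h | h
    · linarith
    · exact absurd h hne₁
  have hw' : w = (3 * l) • u := by linear_combination (norm := module) (4:ℝ) • B0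
  have huu' : mul u u = (1 - 3 * l) • u := by linear_combination (norm := module) A0 - (4:ℝ) • B0
  have huv' : mul u v = (1/2 - l/4) • v := by linear_combination (norm := module) (1/2 : ℝ) • A4
  have hzero : (1/16 - l/2) • v = 0 := by linear_combination (norm := module) B4 - (1/8 : ℝ) • A4
  rcases smul_eq_zero.mp hzero with hl8 | hv0
  · right
    have hl' : l = 1/8 := by linarith
    subst hl'
    have hA2 : a₀ + a₁ - (8:ℝ) • mul a₀ a₁ = (1/8:ℝ) • a₁ + u - v := by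
      rw [e01]
      conv_lhs => rw [ha₀]
      module
    rw [hA2]
    refine ⟨hl.symm, ?_, ?_, ?_⟩
    · simp only [map_add, map_sub, map_smul, LinearMap.add_apply, LinearMap.sub_apply,
        LinearMap.smul_apply, hid₁, hu, hv, hua, hva, hvu, hvv, huu', huv', hw', hρ]
      module
    · rw [ha₀]
      simp only [map_add, map_sub, map_smul, LinearMap.add_apply, LinearMap.sub_apply,
        LinearMap.smul_apply, hid₁, hu, hv, hua, hva, hvu, hvv, huu', huv', hw', hρ]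
      module
    · simp only [map_add, map_sub, map_smul, LinearMap.add_apply, LinearMap.sub_apply,
        LinearMap.smul_apply, hid₁, hu, hv, hua, hva, hvu, hvv, huu', huv', hw', hρ]
      rw [ha₀]
      module
  · left
    subst hv0
    have hvv0 : ρ • a₁ + w + 0 = 0 := by
      rw [add_zero, ← hvv]
      simp
    have hρ0 : ρ • a₁ = 0 :=
      (indep3 mul a₁ _ _ _ (by rw [map_smul, hid₁]) hw (by simp) hvv0).1
    have hρ00 : ρ = 0 := by
      rcases smul_eq_zero.mp hρ0 with h | h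
      · exact h
      · exact absurd h hne₁
    have hl01 : l * (1 - l) = 0 := by rw [hρ00] at hρ; linarith
    rcases mul_eq_zero.mp hl01 with h0 | h1
    · subst h0
      refine ⟨hl.symm, ?_⟩
      rw [e01]
      simp
    · exfalso
      have hl1 : l = 1 := by linarith
      have := hBpos (a₀ - a₁) (sub_ne_zero.mpr hne)
      simp only [map_sub, LinearMap.sub_apply] at this
      rw [hn₀, hn₁, hBsymm a₁ a₀, ← hl, hl1] at this
      linarith
end Cfsg.Agent.S5545
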