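import Cfsg.Statements.S5546
import Cfsg.Agent.S1571
import Cfsg.Agent.S1640
import Cfsg.Agent.Lib.Helper4.CoA
import Cfsg.Agent.Lib.Helper4.Golay2

set_option autoImplicit false
open Cfsg

namespace Cfsg.Agent.S5546

open Cfsg.Agent.Lib.Helper4

/-- Entries of the matrix of `8 g` in the coordinate basis. -/
def A (g : ↥Co0) (j i : GolayPt) : ℤ := ((g • CoA.bv i : ↥leechLattice) : GolayPt → ℤ) j

theorem K1 (g : ↥Co0) (w : ↥leechLattice) (j : GolayPt) :
    8 * ((g • w : ↥leechLattice) : GolayPt → ℤ) j = ∑ i, (w : GolayPt → ℤ) i * A g j i := by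
  obtain ⟨gH, hgH⟩ : ∃ gH : ↥leechLattice →+ ↥leechLattice, ∀ v, gH v = g • v :=
    ⟨AddMonoidHom.mk' (fun v => g • v) (Cfsg.Agent.S1571.co_add g), fun _ => rfl⟩
  have h1 : gH ((8 : ℤ) • w) = gH (∑ i, ((w : GolayPt → ℤ) i) • CoA.bv i) :=
    congrArg gH (CoA.decomp w)
  rw [map_zsmul, map_sum] at h1
  have h2 : leechLattice.subtype ((8 : ℤ) • gH w)
      = leechLattice.subtype (∑ i, gH (((w : GolayPt → ℤ) i) • CoA.bv i)) := congrArg _ h1
  rw [map_zsmul, map_sum] at h2
  have h3 := congrFun h2 j
  simp only [map_zsmul, AddSubgroup.subtype_apply, Pi.smul_apply, Finset.sum_apply,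
    smul_eq_mul] at h3
  rw [hgH] at h3
  rw [h3]
  apply Finset.sum_congr rfl
  intro i _
  rw [hgH]
  rfl

theorem A_one (j i : GolayPt) : A 1 j i = if j = i then 8 else 0 := by
  unfold A
  rw [one_smul, CoA.bv_apply]

theorem A_mul (g h : ↥Co0) (j i : GolayPt) : 8 * A (g * h) j i = ∑ k, A g j k * A h k i := by
  have e : A (g * h) j i = ((g • (h • CoA.bv i) : ↥leechLattice) : GolayPt → ℤ) j := by
    unfold A
    rw [mul_smul]
  rw [e, K1]
  apply Finset.sum_congr rfl
  intro k _
  show ((h • CoA.bv i : ↥leechLattice) : GolayPt → ℤ) k * A g j k = A g j k * A h k i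
  unfold A
  ring

theorem h13 : (13 : ZMod 13) = 0 := by decide

/-- The reduction modulo 13 of the matrix of `g`. -/
def Rm : ↥Co0 →* Matrix GolayPt GolayPt (ZMod 13) where
  toFun g := Matrix.of (fun j i => 5 * ((A g j i : ℤ) : ZMod 13))
  map_one' := by
    ext j i
    rw [Matrix.of_apply, A_one, Matrix.one_apply]
    split_ifs
    · push_cast
      decide
    · simp
  map_mul' g h := by
    ext j i
    rw [Matrix.mul_apply]
    simp only [Matrix.of_apply]
    have e := congrArg (fun z : ℤ => (z : ZMod 13)) (A_mul g h j i)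
    simp only [Int.cast_mul, Int.cast_sum, Int.cast_ofNat] at e
    have e2 : ∑ k, 5 * ((A g j k : ℤ) : ZMod 13) * (5 * ((A h k i : ℤ) : ZMod 13))
        = 25 * ∑ k, ((A g j k : ℤ) : ZMod 13) * ((A h k i : ℤ) : ZMod 13) := by
      rw [Finset.mul_sum]
      apply Finset.sum_congr rfl
      intro k _
      ring
    rw [e2, ← e]
    linear_combination (-15 * ((A (g * h) j i : ℤ) : ZMod 13)) * h13

theorem Rm_apply (g : ↥Co0) (j i : GolayPt) : Rm g j i = 5 * ((A g j i : ℤ) : ZMod 13) := rfl

/-- The inclusion of the vector stabiliser into the full automorphism group. -/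
def inc : ↥Spor.Co2 →* ↥Co0 :=
  Subgroup.inclusion (by unfold Spor.Co2; exact inf_le_left)

theorem fix_u (g : ↥Spor.Co2) : inc g • Spor.leechU = Spor.leechU := by
  have h := g.2
  unfold Spor.Co2 at h
  exact (Subgroup.mem_inf.1 h).2

/-- The fixed vector modulo 13, divided by 4. -/
def ub : GolayPt → ZMod 13 := fun k => if k = none ∨ k = some 0 then 1 else 0

theorem vecU_cast (k : GolayPt) : ((Spor.vecU k : ℤ) : ZMod 13) = 4 * ub k := by
  unfold Spor.vecU ub
  split_ifs <;> simp

theorem ub_none : ub none = 1 := by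
  unfold ub
  simp

theorem ub_zero : ub (some 0) = 1 := by
  unfold ub
  simp

theorem ub_ne (k : ZMod 23) (hk : k ≠ 0) : ub (some k) = 0 := by
  unfold ub
  simp [hk]

theorem sum_ub (f : GolayPt → ZMod 13) : ∑ k, f k * ub k = f none + f (some 0) := by
  have e0 : ∑ k : GolayPt, f k * ub k
      = f none * ub none + ∑ a : ZMod 23, f (some a) * ub (some a) :=
    Fintype.sum_option _
  have e2 : ∑ a : ZMod 23, f (some a) * ub (some a) = f (some 0) := by
    rw [Finset.sum_eq_single (0 : ZMod 23)]
    · rw [ub_zero, mul_one]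
    · intro k _ hk
      rw [ub_ne k hk, mul_zero]
    · intro h
      exact absurd (Finset.mem_univ _) h
  rw [e0, e2, ub_none, mul_one]

theorem Rm_ub (g : ↥Spor.Co2) : (Rm (inc g)).mulVec ub = ub := by
  funext j
  have h := K1 (inc g) Spor.leechU j
  rw [fix_u] at h
  have e := congrArg (fun z : ℤ => (z : ZMod 13)) h
  simp only [Int.cast_mul, Int.cast_sum, Int.cast_ofNat] at e
  obtain ⟨S, hS⟩ : ∃ S : ZMod 13, S = ∑ i, ((A (inc g) j i : ℤ) : ZMod 13) * ub i := ⟨_, rfl⟩
  have e2 : ∑ i, Rm (inc g) j i * ub i = 5 * S := by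
    rw [hS, Finset.mul_sum]
    apply Finset.sum_congr rfl
    intro i _
    rw [Rm_apply]
    ring
  have e3 : ∑ i, ((((Spor.leechU : ↥leechLattice) : GolayPt → ℤ) i : ℤ) : ZMod 13) *
      ((A (inc g) j i : ℤ) : ZMod 13) = 4 * S := by
    rw [hS, Finset.mul_sum]
    apply Finset.sum_congr rfl
    intro i _
    have : ((Spor.leechU : ↥leechLattice) : GolayPt → ℤ) i = Spor.vecU i := rfl
    rw [this, vecU_cast]
    ring
  have e4 : ((((Spor.leechU : ↥leechLattice) : GolayPt → ℤ) j : ℤ) : ZMod 13) = 4 * ub j := by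
    have : ((Spor.leechU : ↥leechLattice) : GolayPt → ℤ) j = Spor.vecU j := rfl
    rw [this, vecU_cast]
  rw [e3, e4] at e
  show ∑ i, Rm (inc g) j i * ub i = ub j
  rw [e2]
  linear_combination (-50 : ZMod 13) * e + (-15 * S + 123 * ub j) * h13

/-- The line spanned by the fixed vector. -/
def U : Submodule (ZMod 13) (GolayPt → ZMod 13) := Submodule.span (ZMod 13) {ub}

/-- The action modulo 13 as a linear map. -/
def L (g : ↥Spor.Co2) : (GolayPt → ZMod 13) →ₗ[ZMod 13] (GolayPt → ZMod 13) :=
  Matrix.toLin' (Rm (inc g))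

theorem L_one : L 1 = LinearMap.id := by
  unfold L
  rw [map_one, map_one, Matrix.toLin'_one]

theorem L_mul (g h : ↥Spor.Co2) : L (g * h) = (L g).comp (L h) := by
  unfold L
  rw [map_mul, map_mul, Matrix.toLin'_mul]

theorem L_ub (g : ↥Spor.Co2) : L g ub = ub := by
  unfold L
  rw [Matrix.toLin'_apply]
  exact Rm_ub g

theorem hU (g : ↥Spor.Co2) : U ≤ U.comap (L g) := by
  unfold U
  rw [Submodule.span_le]
  intro x hx
  rw [Set.mem_singleton_iff] at hx
  rw [hx]
  show L g ub ∈ Submodule.span (ZMod 13) {ub}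
  rw [L_ub]
  exact Submodule.mem_span_singleton_self ub

/-- The action on the quotient by the fixed line. -/
def Tm : ↥Spor.Co2 →* Module.End (ZMod 13) ((GolayPt → ZMod 13) ⧸ U) where
  toFun g := U.mapQ U (L g) (hU g)
  map_one' := by
    apply Submodule.linearMap_qext
    apply LinearMap.ext
    intro x
    rw [LinearMap.comp_apply, LinearMap.comp_apply, Submodule.mkQ_apply, Submodule.mapQ_apply,
      L_one]
    rfl
  map_mul' g h := by
    apply Submodule.linearMap_qext
    apply LinearMap.ext
    intro x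
    rw [LinearMap.comp_apply, LinearMap.comp_apply, Submodule.mkQ_apply, Submodule.mapQ_apply,
      Module.End.mul_apply, Submodule.mapQ_apply, Submodule.mapQ_apply, L_mul]
    rfl

theorem Tm_apply (g : ↥Spor.Co2) (x : GolayPt → ZMod 13) :
    Tm g (Submodule.Quotient.mk x) = Submodule.Quotient.mk (L g x) := by
  show U.mapQ U (L g) (hU g) (Submodule.Quotient.mk x) = _
  rw [Submodule.mapQ_apply]

theorem one_ne_zero13 : (1 : ZMod 13) ≠ 0 := by decide

theorem rank23 [Fact (Nat.Prime 13)] :
    Module.finrank (ZMod 13) ((GolayPt → ZMod 13) ⧸ U) = 23 := by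
  have h := Submodule.finrank_quotient_add_finrank U
  have h1 : Module.finrank (ZMod 13) (GolayPt → ZMod 13) = 24 := by
    rw [Module.finrank_fintype_fun_eq_card, Golay.card_pts]
  have h2 : Module.finrank (ZMod 13) U = 1 := by
    unfold U
    apply finrank_span_singleton
    intro h0
    have := congrFun h0 none
    rw [ub_none, Pi.zero_apply] at this
    exact one_ne_zero13 this
  omega

theorem dot_u (g : ↥Spor.Co2) (i : GolayPt) :
    Rm (inc g) none i + Rm (inc g) (some 0) i = ub i := by
  have h := Cfsg.Agent.S1640.hdotp (inc g) (CoA.bv i) Spor.leechU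
  rw [fix_u] at h
  unfold dotInt at h
  have e := congrArg (fun z : ℤ => (z : ZMod 13)) h
  simp only [Int.cast_sum, Int.cast_mul] at e
  have eL : ∑ k, ((((inc g • CoA.bv i : ↥leechLattice) : GolayPt → ℤ) k : ℤ) : ZMod 13) *
      ((((Spor.leechU : ↥leechLattice) : GolayPt → ℤ) k : ℤ) : ZMod 13)
      = 4 * (((A (inc g) none i : ℤ) : ZMod 13) + ((A (inc g) (some 0) i : ℤ) : ZMod 13)) := by
    rw [← sum_ub (fun k => ((A (inc g) k i : ℤ) : ZMod 13)), Finset.mul_sum]
    apply Finset.sum_congr rfl
    intro k _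
    have : ((Spor.leechU : ↥leechLattice) : GolayPt → ℤ) k = Spor.vecU k := rfl
    rw [this, vecU_cast]
    show ((A (inc g) k i : ℤ) : ZMod 13) * (4 * ub k)
      = 4 * (((A (inc g) k i : ℤ) : ZMod 13) * ub k)
    ring
  have eR : ∑ k, ((((CoA.bv i : ↥leechLattice) : GolayPt → ℤ) k : ℤ) : ZMod 13) *
      ((((Spor.leechU : ↥leechLattice) : GolayPt → ℤ) k : ℤ) : ZMod 13) = 32 * ub i := by
    rw [Finset.sum_eq_single i]
    · rw [CoA.bv_apply, if_pos rfl]
      have : ((Spor.leechU : ↥leechLattice) : GolayPt → ℤ) i = Spor.vecU i := rfl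
      rw [this, vecU_cast]
      push_cast
      ring
    · intro k _ hk
      rw [CoA.bv_apply, if_neg hk]
      simp
    · intro h
      exact absurd (Finset.mem_univ _) h
  rw [eL, eR] at e
  rw [Rm_apply, Rm_apply]
  linear_combination (50 : ZMod 13) * e + (-15 * (((A (inc g) none i : ℤ) : ZMod 13) +
    ((A (inc g) (some 0) i : ℤ) : ZMod 13)) + 123 * ub i) * h13

theorem faithful (g : ↥Spor.Co2) (h : Tm g = 1) : g = 1 := by
  have h1 : ∀ x : GolayPt → ZMod 13, L g x - x ∈ U := by
    intro x
    have e := Tm_apply g x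
    rw [h] at e
    have e' : (Submodule.Quotient.mk x : (GolayPt → ZMod 13) ⧸ U)
        = Submodule.Quotient.mk (L g x) := e
    rw [eq_comm, Submodule.Quotient.eq] at e'
    exact e'
  have h2 : ∀ i j, Rm (inc g) j i = if j = i then 1 else 0 := by
    intro i j
    obtain ⟨c, hc⟩ := Submodule.mem_span_singleton.1 (h1 (Pi.single i 1))
    have col : ∀ j, L g (Pi.single i 1) j = Rm (inc g) j i := by
      intro j
      unfold L
      rw [Matrix.toLin'_apply, Matrix.mulVec_single_one]
      rfl
    have hcj : ∀ j, c * ub j = Rm (inc g) j i - (if j = i then 1 else 0) := by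
      intro j
      have := congrFun hc j
      rw [Pi.smul_apply, smul_eq_mul, Pi.sub_apply, col, Pi.single_apply] at this
      exact this
    have hp := hcj none
    have hq := hcj (some 0)
    rw [ub_none, mul_one] at hp
    rw [ub_zero, mul_one] at hq
    have hub : ub i = (if (none : GolayPt) = i then (1 : ZMod 13) else 0) +
        (if (some 0 : GolayPt) = i then 1 else 0) := by
      unfold ub
      by_cases e1 : i = none
      · subst e1
        simp
      · by_cases e2 : i = some 0
        · subst e2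
          simp
        · rw [if_neg (by rintro (h | h) <;> contradiction), if_neg (fun h => e1 h.symm),
            if_neg (fun h => e2 h.symm)]
          norm_num
    have hd := dot_u g i
    have c0 : c = 0 := by
      linear_combination 7 * hp + 7 * hq + 7 * hd + 7 * hub - c * h13
    have := hcj j
    rw [c0, zero_mul] at this
    linear_combination -this
  have h3 : ∀ i j, (13 : ℤ) ∣ A (inc g) j i - (if j = i then 8 else 0) := by
    intro i j
    have e := h2 i j
    rw [Rm_apply] at e
    have key : (((A (inc g) j i - (if j = i then 8 else 0) : ℤ)) : ZMod 13) = 0 := by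
      split_ifs with hji
      · rw [if_pos hji] at e
        push_cast
        linear_combination 8 * e - 3 * ((A (inc g) j i : ℤ) : ZMod 13) * h13
      · rw [if_neg hji] at e
        push_cast
        linear_combination 8 * e - 3 * ((A (inc g) j i : ℤ) : ZMod 13) * h13
    exact (ZMod.intCast_zmod_eq_zero_iff_dvd _ 13).1 key
  have hn : ∀ i, ∑ j, (A (inc g) j i) ^ 2 = 64 := by
    intro i
    have := Cfsg.Agent.S1640.hnorm (inc g) (CoA.bv i)
    rw [CoA.sqNorm_bv] at this
    exact this
  have h4 : ∀ i j, A (inc g) j i = if j = i then 8 else 0 := by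
    intro i j
    have hle : ∀ j, (A (inc g) j i) ^ 2 ≤ 64 := by
      intro j
      rw [← hn i]
      exact Finset.single_le_sum (fun k _ => sq_nonneg (A (inc g) k i)) (Finset.mem_univ j)
    have hoff : ∀ j, j ≠ i → A (inc g) j i = 0 := by
      intro j hj
      have d := h3 i j
      rw [if_neg hj, sub_zero] at d
      have l := hle j
      obtain ⟨t, ht⟩ := d
      have ht0 : t = 0 := by
        by_contra hne
        have : 1 ≤ t ^ 2 := by
          rcases lt_or_gt_of_ne hne with h' | h'
          · nlinarith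
          · nlinarith
        rw [ht] at l
        nlinarith
      rw [ht, ht0, mul_zero]
    by_cases hji : j = i
    · rw [if_pos hji, hji]
      have hs := hn i
      rw [Finset.sum_eq_single i (fun k _ hk => by rw [hoff k hk]; norm_num)
        (fun h => absurd (Finset.mem_univ _) h)] at hs
      have d := h3 i i
      rw [if_pos rfl] at d
      obtain ⟨t, ht⟩ := d
      have h8 : (A (inc g) i i - 8) * (A (inc g) i i + 8) = 0 := by nlinarith
      rcases mul_eq_zero.1 h8 with h' | h'
      · omega
      · omega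
    · rw [if_neg hji]
      exact hoff j hji
  have h5 : ∀ (w : ↥leechLattice) (j : GolayPt),
      ((inc g • w : ↥leechLattice) : GolayPt → ℤ) j = (w : GolayPt → ℤ) j := by
    intro w j
    have := K1 (inc g) w j
    rw [Finset.sum_eq_single j] at this
    · rw [h4 j j, if_pos rfl] at this
      omega
    · intro k _ hk
      rw [h4 k j, if_neg (Ne.symm hk), mul_zero]
    · intro h
      exact absurd (Finset.mem_univ _) h
  apply Subtype.ext
  apply Equiv.ext
  intro w
  apply Subtype.ext
  funext j
  exact h5 w j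

/-- The second Conway group (the stabilizer in the Leech lattice automorphism group of the short vector fixed in the definitions) is isomorphic to a subgroup of the general linear group of degree 23 over the field with 13 elements: there is an injective homomorphism into it. -/
theorem result : ∃ f : ↥Cfsg.Spor.Co2 →* GL (Fin 23) (ZMod 13), Function.Injective f := by
  have : Fact (Nat.Prime 13) := ⟨by norm_num⟩
  obtain ⟨b⟩ : Nonempty (Module.Basis (Fin 23) (ZMod 13) ((GolayPt → ZMod 13) ⧸ U)) :=
    ⟨Module.finBasisOfFinrankEq _ _ rank23⟩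
  refine ⟨(Units.map (MonoidHomClass.toMonoidHom (LinearMap.toMatrixAlgEquiv b))).comp
    Tm.toHomUnits, ?_⟩
  rw [injective_iff_map_eq_one]
  intro g hg
  apply faithful
  have h1 := congrArg Units.val hg
  have h2 : LinearMap.toMatrixAlgEquiv b (Tm g) = 1 := h1
  exact (LinearMap.toMatrixAlgEquiv b).injective (h2.trans (map_one _).symm)
end Cfsg.Agent.S5546
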