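import Cfsg.Statements.S5550
import Cfsg.Agent.Lib.Helper28.Cocode
import Cfsg.Agent.Lib.Helper4.GolayTrans

set_option autoImplicit false
open Cfsg

namespace Cfsg.Agent.S5550

open Cfsg Cfsg.Agent.Lib.Helper4 Cfsg.Agent.Lib.Helper4.Golay Cfsg.Agent.Lib.Helper28
open Pointwise

theorem base (u : GolayPt → ZMod 2) (hu : u ∈ golayCode)
    (hn : hammingNorm u = 0 ∨ hammingNorm u = 8 ∨ hammingNorm u = 12)
    (w : GolayPt → ZMod 2) (hw : w ∉ golayCode) :
    ∃ σ ∈ M24, act σ u = u ∧ act σ w - w ∉ golayCode := by
  rcases hn with h | h | h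
  · have h0 : u = 0 := hammingNorm_eq_zero.1 h
    have e : u = act 1 (word 0) := by rw [act_one, word_zero, h0]
    rw [e]
    exact cocode_core 0 gAll gAll_fix gAll_move 1 (Subgroup.one_mem _) w hw
  · have ho : support₂ u ∈ octads := ⟨⟨u, hu, rfl⟩, by rw [card_support]; exact h⟩
    obtain ⟨k, hk, e⟩ := octad_trans _ _ (basis_octad (b := 262637) (by decide)) ho
    have e2 : u = act k (word 262637) := support_injective (by rw [Cfsg.Agent.Lib.Helper28.act_support, e])
    rw [e2]
    exact cocode_core 262637 gOct gOct_fix gOct_move k hk w hw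
  · have hd : support₂ u ∈ dodecads := ⟨⟨u, hu, rfl⟩, by rw [card_support]; exact h⟩
    obtain ⟨k, hk, e⟩ := dod_trans D0_dod hd
    have e2 : u = act k (word D0) := support_injective (by rw [Cfsg.Agent.Lib.Helper28.act_support, e])
    rw [e2]
    exact cocode_core D0 gDod gDod_fix gDod_move k hk w hw

/-- Let u be a word of the length-24 binary Golay code of the definitions (possibly zero or all-ones) and w any binary word of length 24 outside the code. Then some automorphism of the code (a coordinate permutation preserving it) fixes u but moves w to a word not congruent to w modulo the code: the stabilizer of a codeword fixes no non-zero element of the quotient of the space of all words by the code. -/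
theorem result (u : (Cfsg.GolayPt → ZMod 2)) (hu : u ∈ Cfsg.golayCode) (w : (Cfsg.GolayPt → ZMod 2)) (hw : w ∉ Cfsg.golayCode) : ∃ σ ∈ Cfsg.M24, (fun p => u (σ.symm p)) = u ∧ (fun p => w (σ.symm p)) - w ∉ Cfsg.golayCode := by
  show ∃ σ ∈ M24, act σ u = u ∧ act σ w - w ∉ golayCode
  have h1 : (1 : GolayPt → ZMod 2) ∈ golayCode :=
    Submodule.subset_span (Set.mem_union_right _ rfl)
  rcases weights u hu with h | h | h | h | h
  · exact base u hu (Or.inl h) w hw
  · exact base u hu (Or.inr (Or.inl h)) w hw
  · exact base u hu (Or.inr (Or.inr h)) w hw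
  · have hn : hammingNorm (u + 1) = 8 := by rw [hammingNorm_one_add, h]
    obtain ⟨σ, hσ, e1, e2⟩ := base (u + 1) (golayCode.add_mem hu h1) (Or.inr (Or.inl hn)) w hw
    refine ⟨σ, hσ, ?_, e2⟩
    rw [act_add, act_const] at e1
    exact add_right_cancel e1
  · have hn : hammingNorm (u + 1) = 0 := by rw [hammingNorm_one_add, h]
    obtain ⟨σ, hσ, e1, e2⟩ := base (u + 1) (golayCode.add_mem hu h1) (Or.inl hn) w hw
    refine ⟨σ, hσ, ?_, e2⟩
    rw [act_add, act_const] at e1
    exact add_right_cancel e1
end Cfsg.Agent.S5550
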