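import Cfsg.Statements.S5553
import Cfsg.Agent.Lib.Helper28.Leech
import Cfsg.Agent.Lib.Helper4.Leech

set_option autoImplicit false
open Cfsg

namespace Cfsg.Agent.S5553

open Cfsg.Agent.Lib.Helper28

theorem leech_even (x : GolayPt → ℤ) (hx : x ∈ leechLattice) (i : GolayPt) :
    (2 : ℤ) ∣ x i + x none := by
  obtain ⟨m, y, hxy, -, -⟩ := leech_struct x hx
  rw [hxy i, hxy none]
  exact ⟨m + y i + y none, by ring⟩

/-- The half-sum map of the lattice to binary words. -/
noncomputable def psi : ↥leechLattice →+ (GolayPt → ZMod 2) where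
  toFun x := zword (fun i => (x.1 i + x.1 none) / 2)
  map_zero' := by
    funext i
    simp [zword]
  map_add' := by
    intro x x'
    funext i
    have h1 := leech_even x.1 x.2 i
    have e : ((x + x' : ↥leechLattice) : GolayPt → ℤ) i
        + ((x + x' : ↥leechLattice) : GolayPt → ℤ) none
        = (x.1 i + x.1 none) + (x'.1 i + x'.1 none) := by
      simp only [AddSubgroup.coe_add, Pi.add_apply]
      ring
    show (((((x + x' : ↥leechLattice) : GolayPt → ℤ) i
        + ((x + x' : ↥leechLattice) : GolayPt → ℤ) none) / 2 : ℤ) : ZMod 2)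
      = (((x.1 i + x.1 none) / 2 : ℤ) : ZMod 2) + (((x'.1 i + x'.1 none) / 2 : ℤ) : ZMod 2)
    rw [e, Int.add_ediv_of_dvd_left h1, Int.cast_add]

theorem psi_apply (x : ↥leechLattice) :
    psi x = zword (fun i => (x.1 i + x.1 none) / 2) := rfl

theorem psi_mem (x : ↥leechLattice) : psi x ∈ golayCode := by
  obtain ⟨m, y, hxy, hc, -⟩ := leech_struct x.1 x.2
  have e : (fun i => (x.1 i + x.1 none) / 2) = fun i => (m + y none) + y i := by
    funext i
    rw [hxy i, hxy none]
    have : m + 2 * y i + (m + 2 * y none) = 2 * ((m + y none) + y i) := by ring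
    rw [this, Int.mul_ediv_cancel_left _ (by norm_num)]
  rw [psi_apply, e, zword_const_add]
  exact Submodule.add_mem _ (Submodule.smul_mem _ _ one_mem_golay) hc

theorem z2_val_cast (a : ZMod 2) : (((a.val : ℕ) : ℤ) : ZMod 2) = a := by
  revert a
  decide

theorem sum_val_eq (c : GolayPt → ZMod 2) :
    ∑ i, (((c i).val : ℕ) : ℤ) = ((support₂ c).card : ℤ) := by
  classical
  have h : ∀ i, (((c i).val : ℕ) : ℤ) = if i ∈ support₂ c then 1 else 0 := by
    intro i
    have hm := mem_support₂ c i
    rcases z2_cases (c i) with h | h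
    · have : i ∉ support₂ c := by
        rw [hm, h]
        decide
      rw [if_neg this, h]
      rfl
    · have : i ∈ support₂ c := by
        rw [hm, h]
      rw [if_pos this, h]
      rfl
  rw [Finset.sum_congr rfl (fun i _ => h i), Finset.sum_ite_mem, Finset.univ_inter,
    Finset.sum_const, nsmul_eq_mul, mul_one]

theorem psi_surj (c : GolayPt → ZMod 2) (hc : c ∈ golayCode) : ∃ x : ↥leechLattice, psi x = c := by
  classical
  obtain ⟨m, hm⟩ : ∃ m : ℤ, (m = 0 ∨ m = 1) ∧ ((m : ℤ) : ZMod 2) = c none := by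
    rcases z2_cases (c none) with h | h
    · exact ⟨0, Or.inl rfl, by rw [h]; simp⟩
    · exact ⟨1, Or.inr rfl, by rw [h]; simp⟩
  obtain ⟨hm01, hmc⟩ := hm
  have hc' : c + ((m : ℤ) : ZMod 2) • (1 : GolayPt → ZMod 2) ∈ golayCode :=
    Submodule.add_mem _ hc (Submodule.smul_mem _ _ one_mem_golay)
  obtain ⟨c', hc'def⟩ : ∃ c', c' = c + ((m : ℤ) : ZMod 2) • (1 : GolayPt → ZMod 2) := ⟨_, rfl⟩
  rw [← hc'def] at hc'
  have hc'none : c' none = 0 := by
    rw [hc'def, Pi.add_apply, Pi.smul_apply, Pi.one_apply, smul_eq_mul, mul_one, hmc]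
    rcases z2_cases (c none) with h | h
    · rw [h]; rfl
    · rw [h]; rfl
  obtain ⟨y, hydef⟩ : ∃ y : GolayPt → ℤ,
      y = fun i => (((c' i).val : ℕ) : ℤ) + (if i = none then 2 * m else 0) := ⟨_, rfl⟩
  have hynone : y none = 2 * m := by
    rw [hydef]
    simp [hc'none]
  have hzy : zword y = c' := by
    funext i
    rw [hydef]
    unfold zword
    rw [Int.cast_add, z2_val_cast]
    split_ifs
    · have : ((2 * m : ℤ) : ZMod 2) = 0 := by
        rw [Int.cast_mul]
        have : ((2 : ℤ) : ZMod 2) = 0 := by decide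
        rw [this, zero_mul]
      rw [this, add_zero]
    · simp
  have hsumy : ∑ i, y i = ((support₂ c').card : ℤ) + 2 * m := by
    rw [hydef, Finset.sum_add_distrib, sum_val_eq, Finset.sum_ite_eq']
    simp
  have hwt := golay_weight c' hc'
  obtain ⟨x, hxdef⟩ : ∃ x : GolayPt → ℤ, x = fun i => m + 2 * y i := ⟨_, rfl⟩
  have hxy : ∀ i, x i = m + 2 * y i := by
    intro i
    rw [hxdef]
  have hsumx : (∑ i, x i) ≡ 4 * m [ZMOD 8] := by
    have e : ∑ i, x i = 24 * m + 2 * ∑ i, y i := by
      rw [hxdef, Finset.sum_add_distrib, Finset.sum_const, Finset.card_univ, card_golayPt,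
        ← Finset.mul_sum]
      simp
    rw [e, hsumy]
    rw [Int.modEq_iff_dvd]
    rcases hwt with h | h | h | h | h <;> rw [h] <;> omega
  have hxΛ : x ∈ leechLattice :=
    Cfsg.Agent.Lib.Helper4.Leech.mem_leech_of_struct x m y hxy (by rw [hzy]; exact hc') hsumx
  refine ⟨⟨x, hxΛ⟩, ?_⟩
  have e : (fun i => (x i + x none) / 2) = fun i => (m + y none) + y i := by
    funext i
    rw [hxy i, hxy none]
    have : m + 2 * y i + (m + 2 * y none) = 2 * ((m + y none) + y i) := by ring
    rw [this, Int.mul_ediv_cancel_left _ (by norm_num)]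
  rw [psi_apply]
  show zword (fun i => (x i + x none) / 2) = c
  rw [e, zword_const_add, hzy, hynone, hc'def]
  have h3 : ((m + 2 * m : ℤ) : ZMod 2) = ((m : ℤ) : ZMod 2) := by
    rw [Int.cast_add, Int.cast_mul]
    have : ((2 : ℤ) : ZMod 2) = 0 := by decide
    rw [this, zero_mul, add_zero]
  rw [h3]
  funext i
  simp only [Pi.add_apply, Pi.smul_apply, Pi.one_apply, smul_eq_mul, mul_one]
  rcases z2_cases ((m : ℤ) : ZMod 2) with h | h
  · rw [h]; simp
  · rw [h]
    rcases z2_cases (c i) with h' | h'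
    · rw [h']; rfl
    · rw [h']; rfl

/-- The Leech lattice of the definitions has an additive subgroup A containing twice the lattice, of index 2^12 in the lattice, all of whose vectors have squared length divisible by 32: the invariant quadratic form 'squared length over 16 modulo 2' on the lattice modulo twice the lattice (a 24-dimensional space over the field with two elements) vanishes on a 12-dimensional subspace, so it is of plus type. -/
theorem result : ∃ A : AddSubgroup (Cfsg.GolayPt → ℤ), A ≤ Cfsg.leechLattice ∧ (∀ v ∈ Cfsg.leechLattice, (2 : ℤ) • v ∈ A) ∧ (A.addSubgroupOf Cfsg.leechLattice).index = 2 ^ 12 ∧ ∀ v ∈ A, (32 : ℤ) ∣ Cfsg.sqNorm v := by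
  classical
  let A : AddSubgroup (Cfsg.GolayPt → ℤ) :=
    { carrier := {x | x ∈ Cfsg.leechLattice ∧ ∀ i, (4 : ℤ) ∣ x i + x none}
      add_mem' := by
        rintro a b ⟨ha, ha4⟩ ⟨hb, hb4⟩
        refine ⟨AddSubgroup.add_mem _ ha hb, fun i => ?_⟩
        have e : (a + b) i + (a + b) none = (a i + a none) + (b i + b none) := by
          simp only [Pi.add_apply]
          ring
        rw [e]
        exact dvd_add (ha4 i) (hb4 i)
      zero_mem' := ⟨AddSubgroup.zero_mem _, fun i => by simp⟩
      neg_mem' := by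
        rintro a ⟨ha, ha4⟩
        refine ⟨AddSubgroup.neg_mem _ ha, fun i => ?_⟩
        have e : (-a) i + (-a) none = -(a i + a none) := by
          simp only [Pi.neg_apply]
          ring
        rw [e]
        exact (dvd_neg).mpr (ha4 i) }
  have hA : ∀ x, x ∈ A ↔ x ∈ Cfsg.leechLattice ∧ ∀ i, (4 : ℤ) ∣ x i + x none := fun x => Iff.rfl
  refine ⟨A, fun x hx => ((hA x).mp hx).1, ?_, ?_, ?_⟩
  · intro v hv
    rw [hA]
    refine ⟨AddSubgroup.zsmul_mem _ hv 2, fun i => ?_⟩
    obtain ⟨k, hk⟩ := leech_even v hv i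
    refine ⟨k, ?_⟩
    simp only [Pi.smul_apply, smul_eq_mul]
    linarith
  · have hker : A.addSubgroupOf Cfsg.leechLattice = psi.ker := by
      ext x
      rw [AddSubgroup.mem_addSubgroupOf, AddMonoidHom.mem_ker, hA, psi_apply]
      constructor
      · rintro ⟨-, h4⟩
        funext i
        show (((x.1 i + x.1 none) / 2 : ℤ) : ZMod 2) = 0
        rw [ZMod.intCast_zmod_eq_zero_iff_dvd]
        obtain ⟨k, hk⟩ := h4 i
        rw [hk]
        exact ⟨k, by omega⟩
      · intro h
        refine ⟨x.2, fun i => ?_⟩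
        have h1 := congrFun h i
        have h2 : (((x.1 i + x.1 none) / 2 : ℤ) : ZMod 2) = 0 := h1
        rw [ZMod.intCast_zmod_eq_zero_iff_dvd] at h2
        obtain ⟨k, hk⟩ := leech_even x.1 x.2 i
        rw [hk] at h2 ⊢
        obtain ⟨j, hj⟩ := h2
        exact ⟨j, by omega⟩
    rw [hker, AddSubgroup.index_ker]
    have e : Nat.card ↥psi.range = Nat.card ↥Cfsg.golayCode := by
      apply Nat.card_congr
      apply Equiv.subtypeEquivRight
      intro w
      constructor
      · rintro ⟨x, rfl⟩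
        exact psi_mem x
      · intro hw
        obtain ⟨x, hx⟩ := psi_surj w hw
        exact ⟨x, hx⟩
    rw [e, Cfsg.Agent.Lib.Helper4.Golay.card_code]
    norm_num
  · intro x hx
    obtain ⟨hxΛ, h4⟩ := (hA x).mp hx
    obtain ⟨m, y, hxy, -, hsum⟩ := leech_struct x hxΛ
    have h2 : (2 : ℤ) ∣ x none := by
      obtain ⟨k, hk⟩ := h4 none
      exact ⟨k, by omega⟩
    unfold Cfsg.sqNorm
    by_cases h40 : (4 : ℤ) ∣ x none
    · have hall : ∀ i, (4 : ℤ) ∣ x i := by
        intro i
        obtain ⟨k, hk⟩ := h4 i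
        obtain ⟨j, hj⟩ := h40
        exact ⟨k - j, by omega⟩
      have hm : (2 : ℤ) ∣ m := by
        have := hxy none
        obtain ⟨j, hj⟩ := h2
        exact ⟨j - y none, by omega⟩
      have h8 : (8 : ℤ) ∣ ∑ i, x i := by
        have := Int.modEq_iff_dvd.mp hsum
        obtain ⟨j, hj⟩ := hm
        obtain ⟨k, hk⟩ := this
        exact ⟨j - k, by omega⟩
      have hterm : ∀ i ∈ (Finset.univ : Finset Cfsg.GolayPt), (32 : ℤ) ∣ x i ^ 2 - 4 * x i := by
        intro i _
        obtain ⟨w, hw⟩ := hall i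
        rw [hw]
        have hev : (2 : ℤ) ∣ w * (w - 1) := by
          rcases Int.emod_two_eq_zero_or_one w with h | h
          · exact Dvd.dvd.mul_right (Int.dvd_of_emod_eq_zero h) _
          · exact Dvd.dvd.mul_left (by omega) _
        obtain ⟨t, ht⟩ := hev
        exact ⟨t, by nlinarith⟩
      have e : ∑ i, x i ^ 2 = ∑ i, (x i ^ 2 - 4 * x i) + 4 * ∑ i, x i := by
        rw [Finset.sum_sub_distrib, ← Finset.mul_sum]
        ring
      rw [e]
      obtain ⟨k, hk⟩ := h8
      rw [hk]
      exact dvd_add (Finset.dvd_sum hterm) ⟨k, by ring⟩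
    · have hall : ∀ i, (4 : ℤ) ∣ x i - 2 := by
        intro i
        obtain ⟨k, hk⟩ := h4 i
        obtain ⟨j, hj⟩ := h2
        have : ¬ (2 : ℤ) ∣ j := by
          intro h
          apply h40
          obtain ⟨t, ht⟩ := h
          exact ⟨t, by omega⟩
        exact ⟨k - (j + 1) / 2, by omega⟩
      have hterm : ∀ i ∈ (Finset.univ : Finset Cfsg.GolayPt), (32 : ℤ) ∣ x i ^ 2 - 4 := by
        intro i _
        obtain ⟨w, hw⟩ := hall i
        have hx' : x i = 4 * w + 2 := by omega
        rw [hx']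
        have hev : (2 : ℤ) ∣ w * (w + 1) := by
          rcases Int.emod_two_eq_zero_or_one w with h | h
          · exact Dvd.dvd.mul_right (Int.dvd_of_emod_eq_zero h) _
          · exact Dvd.dvd.mul_left (by omega) _
        obtain ⟨t, ht⟩ := hev
        exact ⟨t, by nlinarith⟩
      have e : ∑ i, x i ^ 2 = ∑ i, (x i ^ 2 - 4) + 96 := by
        rw [Finset.sum_sub_distrib, Finset.sum_const, Finset.card_univ, card_golayPt]
        norm_num
      rw [e]
      exact dvd_add (Finset.dvd_sum hterm) ⟨3, by norm_num⟩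
end Cfsg.Agent.S5553
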