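import Cfsg.Statements.S5594
import Cfsg.Agent.Lib.Helper28.LeechAut

set_option autoImplicit false
open Cfsg

namespace Cfsg.Agent.S5594

/-- The automorphism group of the Leech lattice contains the negation map, and the subgroup of order 2 it generates has no complement: the automorphism group is a non-split extension of its quotient by that subgroup (it is not the direct product of a group of order 2 with the first Conway group). -/
theorem result :
    ∃ n : ↥Cfsg.Co0, (∀ v : ↥Cfsg.leechLattice, ((n • v : ↥Cfsg.leechLattice) : Cfsg.GolayPt → ℤ) = -(v : Cfsg.GolayPt → ℤ)) ∧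
    ∀ K : Subgroup ↥Cfsg.Co0, ¬ (Subgroup.zpowers n).IsComplement' K := by
  classical
  have hnn : ∀ v : ↥Cfsg.leechLattice, (Equiv.neg ↥Cfsg.leechLattice) v = -v := fun v => rfl
  refine ⟨⟨Equiv.neg ↥Cfsg.leechLattice, Cfsg.Agent.Lib.Helper28.negPerm_mem⟩, fun v => rfl, ?_⟩
  intro K hK
  obtain ⟨n, hndef⟩ : ∃ n : ↥Cfsg.Co0, n = ⟨Equiv.neg ↥Cfsg.leechLattice,
    Cfsg.Agent.Lib.Helper28.negPerm_mem⟩ := ⟨_, rfl⟩
  rw [← hndef] at hK
  have hn_apply : ∀ v : ↥Cfsg.leechLattice, n.1 v = -v := by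
    intro v
    rw [hndef]
    rfl
  -- the element of order four
  obtain ⟨g₀, hg₀def⟩ : ∃ g₀ : ↥Cfsg.Co0, g₀ = ⟨Cfsg.Agent.Lib.Helper28.gPerm,
    Cfsg.Agent.Lib.Helper28.gPerm_mem⟩ := ⟨_, rfl⟩
  have hgg : g₀ * g₀ = n := by
    apply Subtype.ext
    apply Equiv.ext
    intro v
    rw [hn_apply, hg₀def]
    apply Subtype.ext
    show Cfsg.Agent.Lib.Helper28.Gv (Cfsg.Agent.Lib.Helper28.Gv v.1) = -v.1
    exact Cfsg.Agent.Lib.Helper28.Gv_Gv v.1
  -- negation is central
  have hcentral : ∀ f : ↥Cfsg.Co0, n * f = f * n := by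
    intro f
    apply Subtype.ext
    apply Equiv.ext
    intro v
    show n.1 (f.1 v) = f.1 (n.1 v)
    rw [hn_apply, hn_apply]
    have hadd := f.2.1
    have h0 : f.1 0 = 0 := by
      have := hadd 0 0
      rw [add_zero] at this
      exact left_eq_add.mp this
    have h1 := hadd v (-v)
    rw [add_neg_cancel, h0] at h1
    exact (neg_eq_of_add_eq_zero_right h1.symm)
  have hn2 : n * n = 1 := by
    apply Subtype.ext
    apply Equiv.ext
    intro v
    show n.1 (n.1 v) = v
    rw [hn_apply, hn_apply, neg_neg]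
  have hn1 : n ≠ 1 := by
    intro h
    have h1 := hn_apply ⟨_, Cfsg.Agent.Lib.Helper28.leech_const8⟩
    rw [h] at h1
    have h2 := congrArg Subtype.val h1
    have h3 := congrFun h2 none
    simp at h3
  obtain ⟨⟨⟨h, hh⟩, ⟨k, hk⟩⟩, hhk⟩ := hK.2 g₀
  have hhk' : h * k = g₀ := hhk
  have hh' : h ∈ Subgroup.zpowers n := hh
  have hk' : k ∈ K := hk
  rw [Subgroup.mem_zpowers_iff] at hh'
  obtain ⟨j, hj⟩ := hh'
  have hcomm : h * k = k * h := by
    rw [← hj]
    have : Commute n k := hcentral k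
    exact (this.zpow_left j).eq
  have hh2 : h * h = 1 := by
    rw [← hj, ← zpow_add, ← two_mul, zpow_mul, zpow_ofNat, pow_two, hn2, one_zpow]
  have hkk : k * k = n := by
    rw [← hgg, ← hhk']
    calc k * k = (h * h) * (k * k) := by rw [hh2, one_mul]
      _ = h * (h * k) * k := by group
      _ = h * (k * h) * k := by rw [hcomm]
      _ = h * k * (h * k) := by group
  have hnK : n ∈ K := by
    rw [← hkk]
    exact K.mul_mem hk' hk'
  have hdisj := Subgroup.IsComplement'.disjoint hK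
  rw [Subgroup.disjoint_def] at hdisj
  exact hn1 (hdisj (Subgroup.mem_zpowers n) hnK)
end Cfsg.Agent.S5594
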