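import Cfsg.Statements.S5599
import Cfsg.Agent.Lib.Helper28.M24Orb
import Cfsg.Agent.Lib.Helper12.M24Trans

set_option autoImplicit false
open scoped Pointwise
open Cfsg

namespace Cfsg.Agent.S5599

open Cfsg Cfsg.Spor Cfsg.Agent.Lib.Helper4 Cfsg.Agent.Lib.Helper4.Golay Cfsg.Agent.Lib.Helper12
  Cfsg.Agent.Lib.Helper28
open Pointwise

theorem mem_M22 (x : Equiv.Perm GolayPt) :
    x ∈ M22 ↔ x ∈ M24 ∧ x none = none ∧ x (some 0) = some 0 := by
  unfold M22 M23
  simp only [Subgroup.mem_inf, MulAction.mem_stabilizer_iff, Equiv.Perm.smul_def]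
  tauto

theorem mem_K (b : Equiv.Perm GolayPt)
    (hb : b ∈ MulAction.stabilizer (Equiv.Perm GolayPt) ({none, some 0} : Finset GolayPt)) :
    (b none = none ∧ b (some 0) = some 0) ∨ (b none = some 0 ∧ b (some 0) = none) := by
  rw [MulAction.mem_stabilizer_iff] at hb
  have h1 : b none ∈ b • ({none, some 0} : Finset GolayPt) :=
    Finset.smul_mem_smul_finset (by simp)
  have h2 : b (some 0) ∈ b • ({none, some 0} : Finset GolayPt) :=
    Finset.smul_mem_smul_finset (by simp)
  rw [hb] at h1 h2
  simp only [Finset.mem_insert, Finset.mem_singleton] at h1 h2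
  have hne : b none ≠ b (some 0) := fun e => by
    have := b.injective e
    cases this
  rcases h1 with h1 | h1 <;> rcases h2 with h2 | h2
  · exact absurd (h1.trans h2.symm) hne
  · left; exact ⟨h1, h2⟩
  · right; exact ⟨h1, h2⟩
  · exact absurd (h1.trans h2.symm) hne

theorem exists_not_mem (s : Finset GolayPt) (hs : s.card < 24) : ∃ r : GolayPt, r ∉ s := by
  by_contra hall
  push Not at hall
  have h1 : (Finset.univ : Finset GolayPt) ⊆ s := fun r _ => hall r
  have h4 := Finset.card_le_card h1
  rw [Finset.card_univ, card_pts] at h4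
  omega

/-- In the automorphism group of the length-24 code, the two-point Mathieu group (permutations of the code's group fixing the extra point and the residue 0) has index 2 in the setwise stabiliser of that pair of points, and an element of the code's group interchanging the two points normalises the two-point group and induces on it, by conjugation, an automorphism that is not inner. -/
theorem result (g : Equiv.Perm Cfsg.GolayPt) (hg : g ∈ Cfsg.M24) (h₁ : g none = some 0) (h₂ : g (some 0) = none) : Cfsg.Spor.M22.relIndex (Cfsg.M24 ⊓ MulAction.stabilizer (Equiv.Perm Cfsg.GolayPt) ({none, some 0} : Finset Cfsg.GolayPt)) = 2 ∧ (∀ x ∈ Cfsg.Spor.M22, g * x * g⁻¹ ∈ Cfsg.Spor.M22) ∧ ¬ ∃ h ∈ Cfsg.Spor.M22, ∀ x ∈ Cfsg.Spor.M22, g * x * g⁻¹ = h * x * h⁻¹ := by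
  have hgK : g ∈ M24 ⊓ MulAction.stabilizer (Equiv.Perm GolayPt)
      ({none, some 0} : Finset GolayPt) := by
    rw [Subgroup.mem_inf]
    refine ⟨hg, ?_⟩
    rw [MulAction.mem_stabilizer_iff]
    ext p
    rw [Finset.mem_smul_finset]
    constructor
    · rintro ⟨y, hy, rfl⟩
      simp only [Finset.mem_insert, Finset.mem_singleton] at hy ⊢
      rcases hy with rfl | rfl
      · right; exact h₁
      · left; exact h₂
    · intro hp
      simp only [Finset.mem_insert, Finset.mem_singleton] at hp
      rcases hp with rfl | rfl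
      · exact ⟨some 0, by simp, h₂⟩
      · exact ⟨none, by simp, h₁⟩
  refine ⟨?_, ?_, ?_⟩
  · rw [Subgroup.relIndex, Subgroup.index_eq_two_iff]
    refine ⟨⟨g, hgK⟩, ?_⟩
    rintro ⟨b, hbK⟩
    rw [Subgroup.mem_subgroupOf, Subgroup.mem_subgroupOf]
    show Xor (b * g ∈ M22) (b ∈ M22)
    rw [mem_M22, mem_M22]
    rcases mem_K b hbK.2 with ⟨e1, e2⟩ | ⟨e1, e2⟩
    · right
      refine ⟨⟨hbK.1, e1, e2⟩, ?_⟩
      rintro ⟨-, e3, -⟩
      rw [Equiv.Perm.mul_apply, h₁, e2] at e3
      cases e3
    · left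
      refine ⟨⟨Subgroup.mul_mem _ hbK.1 hg, ?_, ?_⟩, ?_⟩
      · rw [Equiv.Perm.mul_apply, h₁, e2]
      · rw [Equiv.Perm.mul_apply, h₂, e1]
      · rintro ⟨-, e3, -⟩
        rw [e1] at e3
        cases e3
  · intro x hx
    rw [mem_M22] at hx ⊢
    obtain ⟨hxM, x1, x2⟩ := hx
    have g1 : g⁻¹ none = some 0 := by rw [Equiv.Perm.inv_eq_iff_eq]; exact h₂.symm
    have g2 : g⁻¹ (some 0) = none := by rw [Equiv.Perm.inv_eq_iff_eq]; exact h₁.symm
    refine ⟨Subgroup.mul_mem _ (Subgroup.mul_mem _ hg hxM) (Subgroup.inv_mem _ hg), ?_, ?_⟩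
    · rw [Equiv.Perm.mul_apply, Equiv.Perm.mul_apply, g1, x2, h₂]
    · rw [Equiv.Perm.mul_apply, Equiv.Perm.mul_apply, g2, x1, h₁]
  · rintro ⟨h, hh, hx⟩
    rw [mem_M22] at hh
    obtain ⟨hhM, hh1, hh2⟩ := hh
    have hc : ∀ x ∈ M22, (h⁻¹ * g) * x = x * (h⁻¹ * g) := by
      intro x hxM
      have e := hx x hxM
      have e2 : g * x = h * x * h⁻¹ * g := by rw [← e]; group
      calc h⁻¹ * g * x = h⁻¹ * (g * x) := by group
        _ = h⁻¹ * (h * x * h⁻¹ * g) := by rw [e2]
        _ = x * (h⁻¹ * g) := by group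
    have hcM : h⁻¹ * g ∈ M24 := Subgroup.mul_mem _ (Subgroup.inv_mem _ hhM) hg
    have hc1 : (h⁻¹ * g) none = some 0 := by
      rw [Equiv.Perm.mul_apply, h₁, Equiv.Perm.inv_eq_iff_eq]
      exact hh2.symm
    have hc2 : (h⁻¹ * g) (some 0) = none := by
      rw [Equiv.Perm.mul_apply, h₂, Equiv.Perm.inv_eq_iff_eq]
      exact hh1.symm
    generalize h⁻¹ * g = c at hc hcM hc1 hc2
    have hfix : ∀ p : GolayPt, p ≠ none → p ≠ some 0 → c p = p := by
      intro p hp1 hp2
      by_contra hne
      have hq1 : c p ≠ none := fun e => hp2 (c.injective (e.trans hc2.symm))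
      have hq2 : c p ≠ some 0 := fun e => hp1 (c.injective (e.trans hc1.symm))
      have h4 : ({none, some 0, p, c p} : Finset GolayPt).card ≤ 4 := Finset.card_le_four
      obtain ⟨r, hr⟩ := exists_not_mem ({none, some 0, p, c p} : Finset GolayPt) (by omega)
      simp only [Finset.mem_insert, Finset.mem_singleton, not_or] at hr
      obtain ⟨hr1, hr2, hr3, hr4⟩ := hr
      obtain ⟨x, hxM, hxS⟩ := exists_ext_inj ({none, some 0, p, c p} : Finset GolayPt)
        (by omega) (Equiv.swap (c p) r)
        (fun a _ b _ e => (Equiv.swap (c p) r).injective e)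
      have x1 : x none = none := by
        rw [hxS none (by simp)]
        exact Equiv.swap_apply_of_ne_of_ne (Ne.symm hq1) (Ne.symm hr1)
      have x2 : x (some 0) = some 0 := by
        rw [hxS (some 0) (by simp)]
        exact Equiv.swap_apply_of_ne_of_ne (Ne.symm hq2) (Ne.symm hr2)
      have x3 : x p = p := by
        rw [hxS p (by simp)]
        exact Equiv.swap_apply_of_ne_of_ne (Ne.symm hne) (Ne.symm hr3)
      have x4 : x (c p) = r := by
        rw [hxS (c p) (by simp)]
        exact Equiv.swap_apply_left _ _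
      have e := hc x ((mem_M22 x).2 ⟨hxM, x1, x2⟩)
      have e' := congrArg (fun f : Equiv.Perm GolayPt => f p) e
      simp only [Equiv.Perm.mul_apply] at e'
      rw [x3, x4] at e'
      exact hr4 e'.symm
    obtain ⟨o, ho, hsub⟩ := exists_octad_superset ({none} : Finset GolayPt) (by simp)
    have hno : none ∈ o := hsub (by simp)
    obtain ⟨w, hw⟩ := exists_not_mem o (by rw [ho.2]; norm_num)
    have hwn : w ≠ none := fun e => hw (e ▸ hno)
    have h2 : ({none, some 0} : Finset GolayPt).card ≤ 2 := Finset.card_le_two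
    obtain ⟨k, hkM, hkS⟩ := exists_ext_inj ({none, some 0} : Finset GolayPt)
      (by omega) (Equiv.swap (some 0) w)
      (fun a _ b _ e => (Equiv.swap (some 0) w).injective e)
    have k1 : k none = none := by
      rw [hkS none (by simp)]
      exact Equiv.swap_apply_of_ne_of_ne (by simp) (Ne.symm hwn)
    have k2 : k (some 0) = w := by
      rw [hkS (some 0) (by simp)]
      exact Equiv.swap_apply_left _ _
    have ho' : k⁻¹ • o ∈ octads := octads_inv _ (Subgroup.inv_mem _ hkM) _ ho
    have hn' : none ∈ k⁻¹ • o := by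
      rw [Finset.mem_inv_smul_finset_iff]
      show k none ∈ o
      rw [k1]
      exact hno
    have hs' : some 0 ∉ k⁻¹ • o := by
      rw [Finset.mem_inv_smul_finset_iff]
      show k (some 0) ∉ o
      rw [k2]
      exact hw
    generalize k⁻¹ • o = o' at ho' hn' hs'
    have hco : c • o' ∈ octads := octads_inv _ hcM _ ho'
    have hsub2 : o'.erase none ⊆ c • o' ∩ o' := by
      intro p hp
      rw [Finset.mem_erase] at hp
      rw [Finset.mem_inter]
      refine ⟨?_, hp.2⟩
      have hp0 : p ≠ some 0 := fun e => hs' (e ▸ hp.2)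
      have := Finset.smul_mem_smul_finset (a := c) hp.2
      rw [Equiv.Perm.smul_def, hfix p hp.1 hp0] at this
      exact this
    have hcard := Finset.card_le_card hsub2
    rw [Finset.card_erase_of_mem hn', ho'.2] at hcard
    have heq := octad_eq_of_five hco ho' (by omega)
    have hmem : c none ∈ c • o' := Finset.smul_mem_smul_finset (a := c) hn'
    rw [heq, hc1] at hmem
    exact hs' hmem
end Cfsg.Agent.S5599
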