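import Cfsg.Statements.S5601
import Cfsg.Agent.Lib.Helper28.M24Cand2

set_option autoImplicit false
open scoped Pointwise
open Cfsg

namespace Cfsg.Agent.S5601

open Cfsg Cfsg.Agent.Lib.Helper4.Golay Cfsg.Agent.Lib.Helper28
open Pointwise

def tA : List (List ℕ × List ℕ) := [
  ([1, 2, 0, 3, 4, 5, 8, 12, 20, 19, 7, 15, 10, 22, 14, 21, 13, 17, 9, 18, 6, 11, 16, 23], [2, 0, 1, 3, 4, 5, 20, 10, 6, 18, 12, 21, 7, 16, 14, 11, 22, 17, 19, 9, 8, 15, 13, 23]),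
  ([1, 2, 0, 3, 4, 5, 11, 10, 15, 9, 12, 22, 7, 20, 17, 16, 8, 23, 18, 19, 21, 13, 6, 14], [2, 0, 1, 3, 4, 5, 22, 12, 16, 9, 7, 6, 10, 21, 23, 8, 15, 14, 18, 19, 13, 20, 11, 17]),
  ([1, 2, 0, 3, 4, 5, 13, 7, 22, 18, 10, 20, 12, 15, 23, 6, 11, 14, 19, 9, 16, 8, 21, 17], [2, 0, 1, 3, 4, 5, 15, 7, 21, 19, 10, 16, 12, 6, 17, 13, 20, 23, 9, 18, 11, 22, 8, 14]),
  ([1, 2, 0, 3, 4, 6, 15, 7, 17, 8, 10, 19, 12, 13, 11, 5, 23, 9, 20, 14, 21, 18, 16, 22], [2, 0, 1, 3, 4, 15, 5, 7, 9, 17, 10, 14, 12, 13, 19, 6, 22, 8, 21, 11, 18, 20, 23, 16]),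
  ([1, 2, 0, 3, 4, 6, 18, 12, 19, 20, 7, 13, 10, 17, 9, 16, 15, 22, 14, 8, 5, 23, 21, 11], [2, 0, 1, 3, 4, 20, 5, 10, 19, 14, 12, 23, 7, 11, 18, 16, 15, 13, 6, 8, 9, 22, 17, 21]),
  ([1, 2, 0, 3, 4, 6, 23, 10, 13, 14, 12, 17, 7, 19, 22, 21, 18, 11, 8, 20, 16, 15, 5, 9], [2, 0, 1, 3, 4, 22, 5, 12, 18, 23, 7, 17, 10, 8, 9, 21, 20, 11, 16, 13, 19, 15, 14, 6]),
  ([1, 2, 0, 3, 4, 8, 5, 12, 9, 14, 7, 23, 10, 21, 19, 22, 11, 16, 20, 6, 18, 13, 17, 15], [2, 0, 1, 3, 4, 6, 19, 10, 5, 8, 12, 16, 7, 21, 9, 23, 17, 22, 20, 14, 18, 13, 15, 11]),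
  ([1, 2, 0, 3, 4, 8, 11, 7, 21, 6, 10, 9, 12, 23, 15, 18, 13, 19, 14, 20, 17, 5, 22, 16], [2, 0, 1, 3, 4, 21, 9, 7, 5, 11, 10, 6, 12, 16, 18, 14, 23, 20, 15, 17, 19, 8, 22, 13]),
  ([1, 2, 0, 3, 4, 8, 13, 10, 23, 20, 12, 21, 7, 9, 16, 17, 5, 15, 6, 14, 22, 11, 18, 19], [2, 0, 1, 3, 4, 16, 18, 12, 5, 13, 7, 21, 10, 6, 19, 17, 14, 15, 22, 23, 9, 11, 20, 8]),
  ([1, 2, 0, 3, 4, 9, 16, 7, 23, 19, 10, 8, 12, 21, 22, 14, 17, 6, 18, 5, 13, 20, 15, 11], [2, 0, 1, 3, 4, 19, 17, 7, 11, 5, 10, 23, 12, 20, 15, 22, 6, 16, 18, 9, 21, 13, 14, 8]),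
  ([1, 2, 0, 3, 4, 9, 17, 10, 21, 5, 12, 23, 7, 8, 11, 13, 20, 22, 19, 18, 15, 16, 14, 6], [2, 0, 1, 3, 4, 9, 23, 12, 13, 5, 7, 14, 10, 15, 22, 20, 21, 6, 19, 18, 16, 8, 17, 11]),
  ([1, 2, 0, 3, 4, 9, 20, 12, 8, 18, 7, 21, 10, 23, 6, 15, 16, 11, 5, 19, 14, 17, 13, 22], [2, 0, 1, 3, 4, 18, 14, 10, 8, 5, 12, 17, 7, 22, 20, 15, 16, 21, 9, 19, 6, 11, 23, 13]),
  ([1, 2, 0, 3, 4, 11, 5, 10, 18, 17, 12, 14, 7, 16, 9, 20, 13, 6, 15, 21, 19, 8, 23, 22], [2, 0, 1, 3, 4, 6, 17, 12, 21, 14, 7, 5, 10, 16, 11, 18, 13, 9, 8, 20, 15, 19, 23, 22]),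
  ([1, 2, 0, 3, 4, 11, 8, 7, 14, 15, 10, 16, 12, 18, 6, 23, 5, 22, 21, 17, 20, 13, 19, 9], [2, 0, 1, 3, 4, 16, 14, 7, 6, 23, 10, 5, 12, 21, 8, 9, 11, 19, 13, 22, 20, 18, 17, 15]),
  ([1, 2, 0, 3, 4, 11, 13, 12, 16, 21, 7, 18, 10, 14, 22, 19, 8, 9, 17, 15, 23, 5, 20, 6], [2, 0, 1, 3, 4, 21, 23, 10, 16, 17, 12, 5, 7, 6, 13, 19, 8, 18, 11, 15, 22, 9, 14, 20]),
  ([1, 2, 0, 3, 4, 13, 5, 7, 19, 23, 10, 17, 12, 6, 18, 15, 8, 21, 22, 16, 9, 11, 14, 20], [2, 0, 1, 3, 4, 6, 13, 7, 16, 20, 10, 21, 12, 5, 22, 15, 19, 11, 14, 8, 23, 17, 18, 9]),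
  ([1, 2, 0, 3, 4, 13, 8, 10, 6, 16, 12, 19, 7, 17, 20, 9, 11, 18, 23, 22, 14, 5, 15, 21], [2, 0, 1, 3, 4, 21, 8, 12, 6, 15, 7, 16, 10, 5, 20, 22, 9, 13, 17, 11, 14, 23, 19, 18]),
  ([1, 2, 0, 3, 4, 13, 11, 12, 17, 22, 7, 6, 10, 19, 21, 14, 5, 20, 16, 23, 15, 8, 9, 18], [2, 0, 1, 3, 4, 16, 11, 10, 21, 22, 12, 6, 7, 5, 15, 20, 18, 8, 23, 13, 17, 14, 9, 19]),
  ([1, 2, 0, 3, 4, 14, 19, 12, 18, 8, 7, 16, 10, 11, 5, 13, 21, 23, 6, 20, 9, 22, 15, 17], [2, 0, 1, 3, 4, 14, 18, 10, 9, 20, 12, 13, 7, 15, 5, 22, 11, 23, 8, 6, 19, 16, 21, 17]),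
  ([1, 2, 0, 3, 4, 14, 21, 7, 11, 20, 10, 18, 12, 16, 17, 9, 22, 5, 8, 6, 15, 19, 13, 23], [2, 0, 1, 3, 4, 17, 19, 7, 18, 15, 10, 8, 12, 22, 5, 20, 13, 14, 11, 21, 9, 6, 16, 23]),
  ([1, 2, 0, 3, 4, 14, 22, 10, 16, 6, 12, 11, 7, 18, 23, 15, 19, 17, 20, 8, 13, 21, 9, 5], [2, 0, 1, 3, 4, 23, 9, 12, 19, 22, 7, 11, 10, 20, 5, 15, 8, 17, 13, 16, 18, 21, 6, 14]),
  ([1, 2, 0, 3, 4, 15, 6, 7, 20, 11, 10, 22, 12, 5, 8, 13, 18, 16, 17, 21, 14, 23, 9, 19], [2, 0, 1, 3, 4, 13, 6, 7, 14, 22, 10, 9, 12, 15, 20, 5, 17, 18, 16, 23, 8, 19, 11, 21]),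
  ([1, 2, 0, 3, 4, 15, 18, 10, 5, 21, 12, 20, 7, 22, 19, 14, 23, 8, 11, 17, 9, 6, 13, 16], [2, 0, 1, 3, 4, 8, 21, 12, 17, 20, 7, 18, 10, 22, 15, 5, 23, 19, 6, 14, 11, 9, 13, 16]),
  ([1, 2, 0, 3, 4, 15, 23, 12, 22, 17, 7, 5, 10, 20, 16, 9, 6, 19, 21, 11, 13, 18, 14, 8], [2, 0, 1, 3, 4, 11, 16, 10, 23, 15, 12, 19, 7, 20, 22, 5, 14, 9, 21, 17, 13, 18, 8, 6]),
  ([1, 2, 0, 3, 4, 16, 9, 7, 18, 22, 10, 11, 12, 14, 19, 21, 20, 15, 23, 13, 5, 17, 6, 8], [2, 0, 1, 3, 4, 20, 22, 7, 23, 6, 10, 11, 12, 19, 13, 17, 5, 21, 8, 14, 16, 15, 9, 18]),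
  ([1, 2, 0, 3, 4, 16, 17, 12, 11, 23, 7, 14, 10, 18, 15, 6, 9, 8, 13, 22, 21, 20, 5, 19], [2, 0, 1, 3, 4, 22, 15, 10, 17, 16, 12, 8, 7, 18, 11, 14, 5, 6, 13, 23, 21, 20, 19, 9]),
  ([1, 2, 0, 3, 4, 16, 20, 10, 14, 13, 12, 18, 7, 11, 8, 5, 17, 19, 22, 23, 6, 9, 21, 15], [2, 0, 1, 3, 4, 15, 20, 12, 14, 21, 7, 13, 10, 9, 8, 23, 5, 16, 11, 17, 6, 22, 18, 19]),
  ([1, 2, 0, 3, 4, 17, 9, 10, 19, 11, 12, 6, 7, 13, 5, 8, 16, 14, 21, 15, 18, 20, 22, 23], [2, 0, 1, 3, 4, 14, 11, 12, 15, 6, 7, 9, 10, 13, 17, 19, 16, 5, 20, 8, 21, 18, 22, 23]),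
  ([1, 2, 0, 3, 4, 17, 16, 12, 13, 15, 7, 19, 10, 6, 23, 18, 20, 5, 11, 21, 22, 9, 8, 14], [2, 0, 1, 3, 4, 17, 13, 10, 22, 21, 12, 18, 7, 8, 23, 9, 6, 5, 15, 11, 16, 19, 20, 14]),
  ([1, 2, 0, 3, 4, 17, 20, 7, 6, 21, 10, 13, 12, 19, 14, 22, 9, 23, 15, 11, 8, 16, 18, 5], [2, 0, 1, 3, 4, 23, 8, 7, 20, 16, 10, 19, 12, 11, 14, 18, 21, 5, 22, 13, 6, 9, 15, 17]),
  ([1, 2, 0, 3, 4, 18, 6, 12, 14, 9, 7, 11, 10, 16, 20, 17, 23, 21, 19, 5, 8, 15, 22, 13], [2, 0, 1, 3, 4, 19, 6, 10, 20, 9, 12, 11, 7, 23, 8, 21, 13, 15, 5, 18, 14, 17, 22, 16]),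
  ([1, 2, 0, 3, 4, 18, 15, 10, 11, 19, 12, 16, 7, 14, 21, 22, 6, 13, 5, 9, 17, 23, 8, 20], [2, 0, 1, 3, 4, 18, 16, 12, 22, 19, 7, 8, 10, 17, 13, 6, 11, 20, 5, 9, 23, 14, 15, 21]),
  ([1, 2, 0, 3, 4, 18, 23, 7, 16, 5, 10, 14, 12, 11, 13, 8, 15, 20, 9, 19, 22, 6, 17, 21], [2, 0, 1, 3, 4, 9, 21, 7, 15, 18, 10, 13, 12, 14, 11, 16, 8, 22, 5, 19, 17, 23, 20, 6]),
  ([1, 2, 0, 3, 4, 19, 14, 12, 6, 5, 7, 17, 10, 13, 8, 11, 22, 15, 18, 9, 20, 21, 23, 16], [2, 0, 1, 3, 4, 9, 8, 10, 14, 19, 12, 15, 7, 13, 6, 17, 23, 11, 18, 5, 20, 21, 16, 22]),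
  ([1, 2, 0, 3, 4, 19, 21, 10, 17, 18, 12, 13, 7, 6, 15, 23, 14, 16, 9, 5, 11, 22, 20, 8], [2, 0, 1, 3, 4, 19, 13, 12, 23, 18, 7, 20, 10, 11, 16, 14, 17, 8, 9, 5, 22, 6, 21, 15]),
  ([1, 2, 0, 3, 4, 19, 22, 7, 13, 9, 10, 6, 12, 17, 16, 20, 21, 8, 5, 18, 23, 14, 11, 15], [2, 0, 1, 3, 4, 18, 11, 7, 17, 9, 10, 22, 12, 8, 21, 23, 14, 13, 19, 5, 15, 16, 6, 20]),
  ([1, 2, 0, 3, 4, 20, 9, 12, 5, 6, 7, 22, 10, 15, 18, 23, 17, 13, 8, 14, 19, 16, 11, 21], [2, 0, 1, 3, 4, 8, 9, 10, 18, 6, 12, 22, 7, 17, 19, 13, 21, 16, 14, 20, 5, 23, 11, 15]),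
  ([1, 2, 0, 3, 4, 20, 16, 10, 22, 8, 12, 15, 7, 5, 13, 11, 9, 21, 14, 6, 23, 17, 19, 18], [2, 0, 1, 3, 4, 13, 19, 12, 9, 16, 7, 15, 10, 14, 18, 11, 6, 21, 23, 22, 5, 17, 8, 20]),
  ([1, 2, 0, 3, 4, 20, 17, 7, 15, 14, 10, 5, 12, 22, 21, 19, 16, 18, 6, 8, 11, 9, 23, 13], [2, 0, 1, 3, 4, 11, 18, 7, 19, 21, 10, 20, 12, 23, 9, 8, 16, 6, 17, 15, 5, 14, 13, 22]),
  ([1, 2, 0, 3, 4, 21, 14, 7, 8, 17, 10, 23, 12, 9, 20, 16, 19, 13, 11, 15, 6, 22, 5, 18], [2, 0, 1, 3, 4, 22, 20, 7, 8, 13, 10, 18, 12, 17, 6, 19, 15, 9, 23, 16, 14, 5, 21, 11]),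
  ([1, 2, 0, 3, 4, 21, 19, 10, 9, 15, 12, 8, 7, 23, 18, 6, 22, 20, 17, 11, 5, 14, 16, 13], [2, 0, 1, 3, 4, 20, 15, 12, 11, 8, 7, 19, 10, 23, 21, 9, 22, 18, 14, 6, 17, 5, 16, 13]),
  ([1, 2, 0, 3, 4, 21, 22, 12, 23, 11, 7, 9, 10, 8, 13, 5, 14, 18, 15, 17, 16, 19, 6, 20], [2, 0, 1, 3, 4, 15, 22, 10, 13, 11, 12, 9, 7, 14, 16, 18, 20, 19, 17, 21, 23, 5, 6, 8]),
  ([1, 2, 0, 3, 4, 22, 14, 10, 20, 23, 12, 5, 7, 15, 6, 18, 21, 9, 16, 13, 8, 19, 17, 11], [2, 0, 1, 3, 4, 11, 14, 12, 20, 17, 7, 23, 10, 19, 6, 13, 18, 22, 15, 21, 8, 16, 5, 9]),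
  ([1, 2, 0, 3, 4, 22, 19, 7, 5, 16, 10, 15, 12, 20, 9, 17, 14, 11, 13, 23, 18, 21, 8, 6], [2, 0, 1, 3, 4, 8, 23, 7, 22, 14, 10, 17, 12, 18, 16, 11, 9, 15, 20, 6, 13, 21, 5, 19]),
  ([1, 2, 0, 3, 4, 22, 21, 12, 15, 13, 7, 20, 10, 5, 11, 8, 19, 6, 23, 16, 17, 14, 18, 9], [2, 0, 1, 3, 4, 13, 17, 10, 15, 23, 12, 14, 7, 9, 21, 8, 19, 20, 22, 16, 11, 6, 5, 18]),
  ([1, 2, 0, 3, 4, 23, 6, 10, 8, 22, 12, 9, 7, 21, 14, 19, 15, 5, 13, 16, 20, 18, 11, 17], [2, 0, 1, 3, 4, 17, 6, 12, 8, 11, 7, 22, 10, 18, 14, 16, 19, 23, 21, 15, 20, 13, 9, 5]),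
  ([1, 2, 0, 3, 4, 23, 15, 12, 21, 16, 7, 8, 10, 9, 17, 20, 18, 14, 22, 13, 11, 6, 19, 5], [2, 0, 1, 3, 4, 23, 21, 10, 11, 13, 12, 20, 7, 19, 17, 6, 9, 14, 16, 22, 15, 8, 18, 5]),
  ([1, 2, 0, 3, 4, 23, 18, 7, 9, 13, 10, 21, 12, 8, 5, 11, 6, 17, 16, 22, 19, 15, 20, 14], [2, 0, 1, 3, 4, 14, 16, 7, 13, 8, 10, 15, 12, 9, 23, 21, 18, 17, 6, 20, 22, 11, 19, 5])]

def tB5 : List (List ℕ × List ℕ) := [
  ([1, 2, 0, 4, 5, 3, 8, 18, 22, 14, 9, 20, 19, 15, 10, 16, 13, 7, 17, 23, 21, 11, 6, 12], [2, 0, 1, 5, 3, 4, 22, 17, 6, 10, 14, 21, 23, 16, 9, 13, 15, 18, 7, 12, 11, 20, 8, 19]),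
  ([1, 2, 0, 4, 5, 3, 11, 19, 20, 17, 18, 15, 9, 22, 7, 6, 8, 12, 23, 14, 16, 13, 21, 10], [2, 0, 1, 5, 3, 4, 15, 14, 16, 12, 23, 6, 17, 21, 19, 11, 20, 9, 10, 7, 8, 22, 13, 18]),
  ([1, 2, 0, 4, 5, 3, 13, 9, 15, 23, 19, 22, 18, 20, 12, 21, 11, 10, 14, 17, 6, 8, 16, 7], [2, 0, 1, 5, 3, 4, 20, 23, 21, 7, 17, 16, 14, 6, 18, 8, 22, 19, 12, 10, 13, 15, 11, 9]),
  ([1, 2, 0, 4, 5, 6, 7, 18, 11, 12, 9, 10, 19, 23, 20, 21, 17, 8, 13, 15, 16, 22, 3, 14], [2, 0, 1, 22, 3, 4, 5, 6, 17, 10, 11, 8, 9, 18, 23, 19, 20, 16, 7, 12, 14, 15, 21, 13]),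
  ([1, 2, 0, 4, 5, 6, 17, 9, 23, 15, 19, 11, 18, 10, 14, 16, 22, 20, 12, 13, 3, 7, 21, 8], [2, 0, 1, 20, 3, 4, 5, 21, 23, 7, 13, 11, 18, 19, 14, 9, 15, 6, 12, 10, 17, 22, 16, 8]),
  ([1, 2, 0, 4, 5, 6, 22, 19, 10, 13, 18, 23, 9, 11, 8, 3, 7, 14, 15, 12, 21, 17, 16, 20], [2, 0, 1, 15, 3, 4, 5, 16, 14, 12, 8, 13, 19, 9, 17, 18, 22, 21, 10, 7, 23, 20, 6, 11]),
  ([1, 2, 0, 4, 5, 7, 6, 18, 13, 20, 9, 14, 19, 21, 12, 23, 22, 3, 11, 16, 15, 17, 8, 10], [2, 0, 1, 17, 3, 4, 6, 5, 22, 10, 23, 18, 14, 8, 11, 20, 19, 21, 7, 12, 9, 13, 16, 15]),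
  ([1, 2, 0, 4, 5, 7, 17, 19, 14, 11, 18, 21, 9, 13, 3, 8, 6, 10, 16, 20, 23, 22, 15, 12], [2, 0, 1, 14, 3, 4, 16, 5, 15, 12, 17, 9, 23, 13, 8, 22, 18, 6, 10, 7, 19, 11, 21, 20]),
  ([1, 2, 0, 4, 5, 7, 22, 9, 21, 16, 19, 13, 18, 14, 10, 15, 17, 12, 20, 11, 8, 6, 23, 3], [2, 0, 1, 23, 3, 4, 21, 5, 20, 7, 14, 19, 17, 11, 13, 15, 9, 16, 12, 10, 18, 8, 6, 22]),
  ([1, 2, 0, 4, 5, 8, 3, 18, 17, 10, 9, 12, 19, 16, 14, 15, 11, 6, 22, 21, 23, 13, 7, 20], [2, 0, 1, 6, 3, 4, 17, 22, 5, 10, 9, 16, 11, 21, 14, 15, 13, 8, 7, 12, 23, 19, 18, 20]),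
  ([1, 2, 0, 4, 5, 8, 11, 9, 16, 21, 19, 17, 18, 12, 20, 23, 13, 14, 10, 22, 7, 3, 15, 6], [2, 0, 1, 21, 3, 4, 23, 20, 5, 7, 18, 6, 13, 16, 17, 22, 8, 11, 12, 10, 14, 9, 19, 15]),
  ([1, 2, 0, 4, 5, 8, 13, 19, 12, 22, 18, 16, 9, 17, 6, 7, 3, 20, 21, 10, 15, 11, 23, 14], [2, 0, 1, 16, 3, 4, 14, 15, 5, 12, 19, 21, 8, 6, 23, 20, 11, 13, 10, 7, 17, 18, 9, 22]),
  ([1, 2, 0, 4, 5, 10, 14, 18, 23, 8, 9, 6, 19, 11, 3, 13, 16, 12, 21, 22, 17, 15, 20, 7], [2, 0, 1, 14, 3, 4, 11, 23, 9, 10, 5, 13, 17, 15, 6, 21, 16, 20, 7, 12, 22, 18, 19, 8]),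
  ([1, 2, 0, 4, 5, 10, 15, 19, 6, 21, 18, 11, 9, 23, 12, 20, 14, 7, 22, 8, 13, 16, 17, 3], [2, 0, 1, 23, 3, 4, 8, 17, 19, 12, 5, 11, 14, 20, 16, 6, 21, 22, 10, 7, 15, 9, 18, 13]),
  ([1, 2, 0, 4, 5, 10, 16, 9, 11, 22, 19, 23, 18, 6, 7, 17, 15, 3, 8, 21, 20, 14, 13, 12], [2, 0, 1, 17, 3, 4, 13, 14, 18, 7, 5, 8, 23, 22, 21, 16, 6, 15, 12, 10, 20, 19, 9, 11]),
  ([1, 2, 0, 4, 5, 11, 3, 19, 23, 7, 18, 10, 9, 6, 17, 22, 13, 21, 20, 16, 14, 8, 12, 15], [2, 0, 1, 6, 3, 4, 13, 9, 21, 12, 11, 5, 22, 16, 20, 23, 19, 14, 10, 7, 18, 17, 15, 8]),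
  ([1, 2, 0, 4, 5, 11, 8, 9, 10, 20, 19, 6, 18, 23, 21, 12, 3, 15, 16, 7, 22, 13, 14, 17], [2, 0, 1, 16, 3, 4, 11, 19, 6, 7, 8, 5, 15, 21, 22, 17, 18, 23, 12, 10, 9, 14, 20, 13]),
  ([1, 2, 0, 4, 5, 11, 13, 18, 6, 16, 9, 23, 19, 10, 15, 14, 8, 17, 7, 20, 12, 3, 22, 21], [2, 0, 1, 21, 3, 4, 8, 18, 16, 10, 13, 5, 20, 6, 15, 14, 9, 17, 7, 12, 19, 23, 22, 11]),
  ([1, 2, 0, 4, 5, 12, 20, 18, 16, 6, 9, 8, 19, 17, 7, 22, 23, 10, 15, 13, 11, 21, 14, 3], [2, 0, 1, 23, 3, 4, 9, 14, 11, 10, 17, 20, 5, 19, 22, 18, 8, 13, 7, 12, 6, 21, 15, 16]),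
  ([1, 2, 0, 4, 5, 12, 21, 19, 8, 15, 18, 17, 9, 16, 10, 14, 20, 3, 13, 6, 22, 23, 11, 7], [2, 0, 1, 17, 3, 4, 19, 23, 8, 12, 14, 22, 5, 18, 15, 9, 13, 11, 10, 7, 16, 6, 20, 21]),
  ([1, 2, 0, 4, 5, 12, 23, 9, 17, 13, 19, 16, 18, 8, 3, 11, 21, 7, 6, 15, 14, 20, 22, 10], [2, 0, 1, 14, 3, 4, 18, 17, 13, 7, 23, 15, 5, 9, 20, 19, 11, 8, 12, 10, 21, 16, 22, 6]),
  ([1, 2, 0, 4, 5, 13, 3, 9, 14, 12, 19, 7, 18, 21, 23, 20, 8, 16, 15, 6, 17, 11, 10, 22], [2, 0, 1, 6, 3, 4, 19, 11, 16, 7, 22, 21, 9, 5, 8, 18, 17, 20, 12, 10, 15, 13, 23, 14]),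
  ([1, 2, 0, 4, 5, 13, 8, 19, 21, 6, 18, 14, 9, 7, 22, 17, 11, 23, 12, 15, 10, 3, 20, 16], [2, 0, 1, 21, 3, 4, 9, 13, 6, 12, 20, 16, 18, 5, 11, 19, 23, 15, 10, 7, 22, 8, 14, 17]),
  ([1, 2, 0, 4, 5, 13, 11, 18, 7, 15, 9, 21, 19, 14, 16, 10, 3, 22, 6, 12, 20, 8, 17, 23], [2, 0, 1, 16, 3, 4, 18, 8, 21, 10, 15, 6, 19, 5, 13, 9, 14, 22, 7, 12, 20, 11, 17, 23]),
  ([1, 2, 0, 4, 5, 14, 10, 18, 21, 3, 9, 7, 19, 13, 8, 11, 15, 20, 23, 17, 22, 16, 12, 6], [2, 0, 1, 9, 3, 4, 23, 11, 14, 10, 6, 15, 22, 13, 5, 16, 21, 19, 7, 12, 17, 8, 20, 18]),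
  ([1, 2, 0, 4, 5, 14, 15, 9, 13, 17, 19, 21, 18, 7, 6, 22, 16, 8, 3, 23, 12, 10, 11, 20], [2, 0, 1, 18, 3, 4, 14, 13, 17, 7, 21, 22, 20, 8, 5, 6, 16, 9, 12, 10, 23, 11, 15, 19]),
  ([1, 2, 0, 4, 5, 14, 16, 19, 7, 23, 18, 13, 9, 21, 20, 12, 10, 6, 17, 3, 11, 15, 22, 8], [2, 0, 1, 19, 3, 4, 17, 8, 23, 12, 16, 20, 15, 11, 5, 21, 6, 18, 10, 7, 14, 13, 22, 9]),
  ([1, 2, 0, 4, 5, 15, 10, 19, 22, 12, 18, 3, 9, 20, 21, 23, 16, 17, 6, 13, 8, 14, 7, 11], [2, 0, 1, 11, 3, 4, 18, 22, 20, 12, 6, 23, 9, 19, 21, 5, 16, 17, 10, 7, 13, 14, 8, 15]),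
  ([1, 2, 0, 4, 5, 15, 14, 9, 3, 6, 19, 20, 18, 22, 17, 7, 10, 11, 13, 12, 23, 16, 8, 21], [2, 0, 1, 8, 3, 4, 9, 15, 22, 7, 16, 17, 19, 18, 6, 5, 21, 14, 12, 10, 11, 23, 13, 20]),
  ([1, 2, 0, 4, 5, 15, 16, 18, 20, 13, 9, 22, 19, 3, 11, 8, 14, 21, 12, 6, 7, 10, 23, 17], [2, 0, 1, 13, 3, 4, 19, 20, 15, 10, 21, 14, 18, 9, 16, 5, 6, 23, 7, 12, 8, 17, 11, 22]),
  ([1, 2, 0, 4, 5, 16, 10, 9, 8, 7, 19, 12, 18, 17, 22, 6, 14, 13, 11, 20, 21, 15, 3, 23], [2, 0, 1, 22, 3, 4, 15, 9, 8, 7, 6, 18, 11, 17, 16, 21, 5, 13, 12, 10, 19, 20, 14, 23]),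
  ([1, 2, 0, 4, 5, 16, 14, 19, 17, 20, 18, 8, 9, 12, 23, 21, 15, 22, 7, 11, 3, 10, 6, 13], [2, 0, 1, 20, 3, 4, 22, 18, 11, 12, 21, 19, 13, 23, 6, 16, 5, 8, 10, 7, 9, 15, 17, 14]),
  ([1, 2, 0, 4, 5, 16, 15, 18, 12, 11, 9, 17, 19, 8, 13, 3, 10, 23, 20, 7, 6, 14, 21, 22], [2, 0, 1, 15, 3, 4, 20, 19, 13, 10, 16, 9, 8, 14, 21, 6, 5, 11, 7, 12, 18, 22, 23, 17]),
  ([1, 2, 0, 4, 5, 17, 6, 9, 12, 14, 19, 8, 18, 16, 15, 10, 7, 21, 23, 3, 13, 22, 20, 11], [2, 0, 1, 19, 3, 4, 6, 16, 11, 7, 15, 23, 8, 20, 9, 14, 13, 5, 12, 10, 22, 17, 21, 18]),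
  ([1, 2, 0, 4, 5, 17, 7, 19, 16, 3, 18, 12, 9, 8, 11, 13, 22, 15, 14, 23, 20, 6, 10, 21], [2, 0, 1, 9, 3, 4, 21, 6, 13, 12, 22, 14, 11, 15, 18, 17, 8, 5, 10, 7, 20, 23, 16, 19]),
  ([1, 2, 0, 4, 5, 17, 22, 18, 8, 23, 9, 16, 19, 12, 21, 20, 6, 11, 3, 14, 10, 7, 13, 15], [2, 0, 1, 18, 3, 4, 16, 21, 8, 10, 20, 17, 13, 22, 19, 23, 11, 5, 7, 12, 15, 14, 6, 9]),
  ([1, 2, 0, 4, 5, 20, 12, 18, 15, 7, 9, 3, 19, 22, 6, 17, 21, 14, 16, 11, 13, 23, 10, 8], [2, 0, 1, 11, 3, 4, 14, 9, 23, 10, 22, 19, 6, 20, 17, 8, 18, 15, 7, 12, 5, 16, 13, 21]),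
  ([1, 2, 0, 4, 5, 20, 21, 9, 22, 11, 19, 15, 18, 3, 8, 13, 23, 6, 7, 16, 10, 12, 17, 14], [2, 0, 1, 13, 3, 4, 17, 18, 14, 7, 20, 9, 21, 15, 23, 11, 19, 22, 12, 10, 5, 6, 8, 16]),
  ([1, 2, 0, 4, 5, 20, 23, 19, 3, 16, 18, 22, 9, 15, 14, 10, 12, 8, 11, 7, 17, 21, 13, 6], [2, 0, 1, 8, 3, 4, 23, 19, 17, 12, 15, 18, 16, 22, 14, 13, 9, 20, 10, 7, 5, 21, 11, 6]),
  ([1, 2, 0, 4, 5, 21, 12, 19, 13, 10, 18, 7, 9, 14, 15, 16, 23, 11, 8, 22, 6, 20, 3, 17], [2, 0, 1, 22, 3, 4, 20, 11, 18, 12, 9, 17, 6, 8, 13, 14, 15, 23, 10, 7, 21, 5, 19, 16]),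
  ([1, 2, 0, 4, 5, 21, 20, 9, 7, 8, 19, 14, 18, 13, 11, 3, 12, 17, 22, 10, 16, 23, 6, 15], [2, 0, 1, 15, 3, 4, 22, 8, 9, 7, 19, 14, 16, 13, 11, 23, 20, 17, 12, 10, 6, 5, 18, 21]),
  ([1, 2, 0, 4, 5, 21, 23, 18, 14, 22, 9, 13, 19, 7, 17, 6, 20, 15, 10, 8, 3, 12, 16, 11], [2, 0, 1, 20, 3, 4, 15, 13, 19, 10, 18, 23, 21, 11, 8, 17, 22, 14, 7, 12, 16, 5, 9, 6]),
  ([1, 2, 0, 4, 5, 22, 6, 19, 15, 8, 18, 20, 9, 3, 13, 11, 17, 16, 10, 21, 12, 7, 14, 23], [2, 0, 1, 13, 3, 4, 6, 21, 9, 12, 18, 15, 20, 14, 22, 8, 17, 16, 10, 7, 11, 19, 5, 23]),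
  ([1, 2, 0, 4, 5, 22, 7, 9, 20, 10, 19, 3, 18, 15, 16, 14, 6, 23, 21, 8, 11, 17, 12, 13], [2, 0, 1, 11, 3, 4, 16, 6, 19, 7, 9, 20, 22, 23, 15, 13, 14, 21, 12, 10, 8, 18, 5, 17]),
  ([1, 2, 0, 4, 5, 22, 17, 18, 3, 21, 9, 15, 19, 20, 23, 12, 7, 13, 8, 10, 14, 6, 11, 16], [2, 0, 1, 8, 3, 4, 21, 16, 18, 10, 19, 22, 15, 17, 20, 11, 23, 6, 7, 12, 13, 9, 5, 14]),
  ([1, 2, 0, 4, 5, 23, 12, 9, 6, 3, 19, 10, 18, 11, 13, 8, 20, 22, 17, 14, 15, 21, 7, 16], [2, 0, 1, 9, 3, 4, 8, 22, 15, 7, 11, 13, 6, 14, 19, 20, 23, 18, 12, 10, 16, 21, 17, 5]),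
  ([1, 2, 0, 4, 5, 23, 20, 19, 11, 14, 18, 6, 9, 10, 16, 15, 21, 13, 3, 17, 7, 12, 8, 22], [2, 0, 1, 18, 3, 4, 11, 20, 22, 12, 13, 8, 21, 17, 9, 15, 14, 19, 10, 7, 6, 16, 23, 5]),
  ([1, 2, 0, 4, 5, 23, 21, 18, 10, 17, 9, 11, 19, 6, 22, 7, 12, 16, 14, 3, 8, 20, 15, 13], [2, 0, 1, 19, 3, 4, 13, 15, 20, 10, 8, 11, 16, 23, 18, 22, 17, 9, 7, 12, 21, 6, 14, 5])]

def tB7 : List (List ℕ × List ℕ) := [
  ([1, 2, 0, 4, 7, 5, 6, 3, 21, 20, 10, 14, 12, 13, 19, 15, 17, 18, 16, 11, 23, 22, 8, 9], [2, 0, 1, 7, 3, 5, 6, 4, 22, 23, 10, 19, 12, 13, 11, 15, 18, 16, 17, 14, 9, 8, 21, 20]),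
  ([1, 2, 0, 4, 7, 5, 17, 10, 13, 11, 12, 21, 3, 14, 9, 23, 22, 19, 20, 16, 8, 6, 15, 18], [2, 0, 1, 12, 3, 5, 21, 4, 20, 14, 7, 9, 10, 8, 13, 22, 19, 6, 23, 17, 18, 11, 16, 15]),
  ([1, 2, 0, 4, 7, 5, 22, 12, 14, 16, 3, 13, 10, 21, 18, 8, 6, 9, 11, 20, 15, 17, 23, 19], [2, 0, 1, 10, 3, 5, 16, 4, 15, 17, 12, 18, 7, 11, 8, 20, 9, 21, 14, 23, 19, 13, 6, 22]),
  ([1, 2, 0, 4, 7, 6, 5, 3, 16, 19, 10, 9, 12, 15, 20, 13, 22, 8, 21, 23, 11, 17, 18, 14], [2, 0, 1, 7, 3, 6, 5, 4, 17, 11, 10, 20, 12, 15, 23, 13, 8, 21, 22, 9, 14, 18, 16, 19]),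
  ([1, 2, 0, 4, 7, 6, 17, 12, 9, 21, 3, 15, 10, 16, 8, 18, 5, 14, 23, 19, 13, 22, 11, 20], [2, 0, 1, 10, 3, 16, 5, 4, 14, 8, 12, 22, 7, 20, 17, 11, 13, 6, 15, 19, 23, 9, 21, 18]),
  ([1, 2, 0, 4, 7, 6, 22, 10, 15, 23, 12, 16, 3, 9, 14, 11, 17, 20, 19, 21, 18, 5, 13, 8], [2, 0, 1, 12, 3, 21, 5, 4, 23, 13, 7, 15, 10, 22, 14, 8, 11, 16, 20, 18, 17, 19, 6, 9]),
  ([1, 2, 0, 4, 7, 8, 16, 10, 11, 13, 12, 22, 3, 19, 20, 15, 21, 14, 9, 17, 5, 18, 23, 6], [2, 0, 1, 12, 3, 20, 23, 4, 5, 18, 7, 8, 10, 9, 17, 15, 6, 19, 21, 13, 14, 16, 11, 22]),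
  ([1, 2, 0, 4, 7, 8, 18, 3, 22, 9, 10, 19, 12, 11, 14, 23, 16, 6, 17, 13, 15, 21, 5, 20], [2, 0, 1, 7, 3, 22, 17, 4, 5, 9, 10, 13, 12, 19, 14, 20, 16, 18, 6, 11, 23, 21, 8, 15]),
  ([1, 2, 0, 4, 7, 8, 21, 12, 19, 17, 3, 11, 10, 22, 6, 5, 18, 20, 13, 9, 23, 16, 15, 14], [2, 0, 1, 10, 3, 15, 14, 4, 5, 19, 12, 11, 7, 18, 23, 22, 21, 9, 16, 8, 17, 6, 13, 20]),
  ([1, 2, 0, 4, 7, 9, 11, 10, 16, 17, 12, 15, 3, 6, 5, 22, 23, 18, 8, 13, 20, 14, 21, 19], [2, 0, 1, 12, 3, 14, 13, 4, 18, 5, 7, 6, 10, 19, 21, 11, 8, 9, 17, 23, 20, 22, 15, 16]),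
  ([1, 2, 0, 4, 7, 9, 14, 3, 15, 8, 10, 6, 12, 16, 18, 21, 11, 19, 13, 17, 22, 23, 20, 5], [2, 0, 1, 7, 3, 23, 11, 4, 9, 5, 10, 16, 12, 18, 6, 8, 13, 19, 14, 17, 22, 15, 20, 21]),
  ([1, 2, 0, 4, 7, 9, 23, 12, 6, 13, 3, 16, 10, 15, 19, 20, 14, 5, 17, 8, 21, 11, 22, 18], [2, 0, 1, 10, 3, 17, 8, 4, 19, 5, 12, 21, 7, 9, 16, 13, 11, 18, 23, 14, 15, 20, 22, 6]),
  ([1, 2, 0, 4, 7, 11, 9, 10, 8, 5, 12, 19, 3, 22, 17, 6, 14, 21, 16, 20, 13, 23, 18, 15], [2, 0, 1, 12, 3, 9, 15, 4, 8, 6, 7, 5, 10, 20, 16, 23, 18, 14, 22, 11, 19, 17, 13, 21]),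
  ([1, 2, 0, 4, 7, 11, 14, 12, 22, 20, 3, 8, 10, 19, 15, 13, 23, 17, 5, 16, 18, 9, 6, 21], [2, 0, 1, 10, 3, 18, 22, 4, 11, 21, 12, 5, 7, 15, 6, 14, 19, 17, 20, 13, 9, 23, 8, 16]),
  ([1, 2, 0, 4, 7, 11, 23, 3, 19, 16, 10, 22, 12, 8, 21, 18, 9, 15, 20, 5, 6, 14, 13, 17], [2, 0, 1, 7, 3, 19, 20, 4, 13, 16, 10, 5, 12, 22, 21, 17, 9, 23, 15, 8, 18, 14, 11, 6]),
  ([1, 2, 0, 4, 7, 13, 15, 3, 14, 17, 10, 21, 12, 5, 22, 6, 20, 23, 9, 8, 18, 19, 11, 16], [2, 0, 1, 7, 3, 13, 15, 4, 19, 18, 10, 22, 12, 5, 8, 6, 23, 9, 20, 21, 16, 11, 14, 17]),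
  ([1, 2, 0, 4, 7, 13, 19, 12, 21, 9, 3, 5, 10, 14, 23, 11, 15, 16, 8, 17, 6, 20, 18, 22], [2, 0, 1, 10, 3, 11, 20, 4, 18, 9, 12, 15, 7, 5, 13, 16, 17, 19, 22, 6, 21, 8, 23, 14]),
  ([1, 2, 0, 4, 7, 13, 20, 10, 5, 8, 12, 14, 3, 21, 16, 18, 19, 22, 17, 9, 11, 15, 6, 23], [2, 0, 1, 12, 3, 8, 22, 4, 9, 19, 7, 20, 10, 5, 11, 21, 14, 18, 15, 16, 6, 13, 17, 23]),
  ([1, 2, 0, 4, 7, 14, 9, 3, 13, 18, 10, 5, 12, 21, 8, 16, 23, 20, 15, 22, 17, 11, 19, 6], [2, 0, 1, 7, 3, 11, 23, 4, 14, 6, 10, 21, 12, 8, 5, 18, 15, 20, 9, 22, 17, 13, 19, 16]),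
  ([1, 2, 0, 4, 7, 14, 11, 12, 5, 15, 3, 21, 10, 13, 20, 19, 9, 6, 22, 18, 16, 23, 17, 8], [2, 0, 1, 10, 3, 8, 17, 4, 23, 16, 12, 6, 7, 13, 5, 9, 20, 22, 19, 15, 14, 11, 18, 21]),
  ([1, 2, 0, 4, 7, 14, 23, 10, 21, 22, 12, 13, 3, 5, 6, 17, 11, 8, 18, 15, 19, 9, 16, 20], [2, 0, 1, 12, 3, 13, 14, 4, 17, 21, 7, 16, 10, 11, 5, 19, 22, 15, 18, 20, 23, 8, 9, 6]),
  ([1, 2, 0, 4, 7, 15, 13, 3, 9, 22, 10, 16, 12, 6, 17, 5, 19, 11, 14, 18, 8, 20, 23, 21], [2, 0, 1, 7, 3, 15, 13, 4, 20, 8, 10, 17, 12, 6, 18, 5, 11, 14, 19, 16, 21, 23, 9, 22]),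
  ([1, 2, 0, 4, 7, 15, 19, 10, 6, 18, 12, 9, 3, 16, 21, 8, 20, 17, 22, 14, 23, 13, 5, 11], [2, 0, 1, 12, 3, 22, 8, 4, 15, 11, 7, 23, 10, 21, 19, 5, 13, 17, 9, 6, 16, 14, 18, 20]),
  ([1, 2, 0, 4, 7, 15, 20, 12, 16, 14, 3, 6, 10, 9, 11, 23, 13, 21, 18, 22, 5, 19, 8, 17], [2, 0, 1, 10, 3, 20, 11, 4, 22, 13, 12, 14, 7, 16, 9, 5, 8, 23, 18, 21, 6, 17, 19, 15]),
  ([1, 2, 0, 4, 7, 16, 8, 10, 9, 20, 12, 6, 3, 15, 13, 19, 18, 23, 11, 5, 17, 21, 14, 22], [2, 0, 1, 12, 3, 19, 11, 4, 6, 8, 7, 18, 10, 14, 22, 13, 5, 20, 16, 15, 9, 21, 23, 17]),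
  ([1, 2, 0, 4, 7, 16, 18, 12, 15, 5, 3, 9, 10, 6, 22, 17, 21, 13, 20, 11, 14, 8, 19, 23], [2, 0, 1, 10, 3, 9, 13, 4, 21, 11, 12, 19, 7, 17, 20, 8, 5, 15, 6, 22, 18, 16, 14, 23]),
  ([1, 2, 0, 4, 7, 16, 21, 3, 6, 11, 10, 15, 12, 9, 23, 14, 8, 22, 5, 20, 19, 18, 17, 13], [2, 0, 1, 7, 3, 18, 8, 4, 16, 13, 10, 9, 12, 23, 15, 11, 5, 22, 21, 20, 19, 6, 17, 14]),
  ([1, 2, 0, 4, 7, 17, 5, 10, 20, 9, 12, 18, 3, 23, 11, 14, 6, 15, 13, 8, 16, 22, 19, 21], [2, 0, 1, 12, 3, 6, 16, 4, 19, 9, 7, 14, 10, 18, 15, 17, 20, 5, 11, 22, 8, 23, 21, 13]),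
  ([1, 2, 0, 4, 7, 17, 6, 12, 23, 8, 3, 20, 10, 18, 21, 16, 22, 11, 9, 13, 19, 5, 14, 15], [2, 0, 1, 10, 3, 21, 6, 4, 9, 18, 12, 17, 7, 19, 22, 23, 15, 5, 13, 20, 11, 14, 16, 8]),
  ([1, 2, 0, 4, 7, 17, 22, 3, 18, 13, 10, 23, 12, 20, 15, 19, 5, 21, 8, 9, 14, 6, 16, 11], [2, 0, 1, 7, 3, 16, 21, 4, 18, 19, 10, 23, 12, 9, 20, 14, 22, 5, 8, 15, 13, 17, 6, 11]),
  ([1, 2, 0, 4, 7, 18, 8, 3, 17, 14, 10, 20, 12, 23, 9, 11, 21, 5, 22, 15, 13, 16, 6, 19], [2, 0, 1, 7, 3, 17, 22, 4, 6, 14, 10, 15, 12, 20, 9, 19, 21, 8, 5, 23, 11, 16, 18, 13]),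
  ([1, 2, 0, 4, 7, 18, 16, 12, 20, 22, 3, 23, 10, 17, 5, 6, 8, 19, 15, 14, 11, 21, 13, 9], [2, 0, 1, 10, 3, 14, 15, 4, 16, 23, 12, 20, 7, 22, 19, 18, 6, 13, 5, 17, 8, 21, 9, 11]),
  ([1, 2, 0, 4, 7, 18, 21, 10, 23, 15, 12, 17, 3, 20, 19, 13, 16, 9, 14, 22, 6, 8, 11, 5], [2, 0, 1, 12, 3, 23, 20, 4, 21, 17, 7, 22, 10, 15, 18, 9, 16, 11, 5, 14, 13, 6, 19, 8]),
  ([1, 2, 0, 4, 7, 19, 13, 12, 8, 23, 3, 22, 10, 11, 9, 14, 20, 18, 21, 6, 17, 15, 16, 5], [2, 0, 1, 10, 3, 23, 19, 4, 8, 14, 12, 13, 7, 6, 15, 21, 22, 20, 17, 5, 16, 18, 11, 9]),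
  ([1, 2, 0, 4, 7, 19, 15, 10, 22, 21, 12, 11, 3, 8, 18, 16, 13, 5, 6, 23, 14, 20, 17, 9], [2, 0, 1, 12, 3, 17, 18, 4, 13, 23, 7, 11, 10, 16, 20, 6, 15, 22, 14, 5, 21, 9, 8, 19]),
  ([1, 2, 0, 4, 7, 19, 20, 3, 11, 6, 10, 8, 12, 22, 5, 17, 15, 9, 23, 21, 16, 13, 14, 18], [2, 0, 1, 7, 3, 14, 9, 4, 11, 17, 10, 8, 12, 21, 22, 16, 20, 15, 23, 5, 6, 19, 13, 18]),
  ([1, 2, 0, 4, 7, 20, 13, 10, 17, 16, 12, 23, 3, 18, 8, 21, 15, 6, 5, 11, 9, 19, 22, 14], [2, 0, 1, 12, 3, 18, 17, 4, 14, 20, 7, 19, 10, 6, 23, 16, 9, 8, 13, 21, 5, 15, 22, 11]),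
  ([1, 2, 0, 4, 7, 20, 15, 12, 18, 11, 3, 17, 10, 23, 14, 9, 19, 8, 16, 5, 22, 13, 21, 6], [2, 0, 1, 10, 3, 19, 23, 4, 17, 15, 12, 9, 7, 21, 14, 6, 18, 11, 8, 16, 5, 22, 20, 13]),
  ([1, 2, 0, 4, 7, 20, 19, 3, 23, 5, 10, 18, 12, 17, 6, 22, 13, 14, 11, 16, 21, 15, 9, 8], [2, 0, 1, 7, 3, 9, 14, 4, 23, 22, 10, 18, 12, 16, 17, 21, 19, 13, 11, 6, 5, 20, 15, 8]),
  ([1, 2, 0, 4, 7, 21, 8, 12, 13, 6, 3, 14, 10, 5, 17, 22, 16, 15, 19, 23, 9, 18, 20, 11], [2, 0, 1, 10, 3, 13, 9, 4, 6, 20, 12, 23, 7, 8, 11, 17, 16, 14, 21, 18, 22, 5, 15, 19]),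
  ([1, 2, 0, 4, 7, 21, 16, 3, 5, 23, 10, 13, 12, 14, 11, 9, 18, 17, 6, 19, 20, 8, 22, 15], [2, 0, 1, 7, 3, 8, 18, 4, 21, 15, 10, 14, 12, 11, 13, 23, 6, 17, 16, 19, 20, 5, 22, 9]),
  ([1, 2, 0, 4, 7, 21, 18, 10, 14, 19, 12, 5, 3, 13, 15, 20, 8, 11, 23, 6, 22, 16, 9, 17], [2, 0, 1, 12, 3, 11, 19, 4, 16, 22, 7, 17, 10, 13, 8, 14, 21, 23, 6, 9, 15, 5, 20, 18]),
  ([1, 2, 0, 4, 7, 22, 5, 12, 11, 18, 3, 19, 10, 8, 16, 21, 17, 23, 14, 15, 20, 6, 9, 13], [2, 0, 1, 10, 3, 6, 21, 4, 13, 22, 12, 8, 7, 23, 18, 19, 14, 16, 9, 11, 20, 15, 5, 17]),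
  ([1, 2, 0, 4, 7, 22, 6, 10, 19, 14, 12, 8, 3, 11, 23, 9, 5, 13, 15, 18, 21, 17, 20, 16], [2, 0, 1, 12, 3, 16, 6, 4, 11, 15, 7, 13, 10, 17, 9, 18, 23, 21, 19, 8, 22, 20, 5, 14]),
  ([1, 2, 0, 4, 7, 22, 17, 3, 8, 15, 10, 11, 12, 19, 13, 20, 6, 16, 18, 14, 9, 5, 21, 23], [2, 0, 1, 7, 3, 21, 16, 4, 8, 20, 10, 11, 12, 14, 19, 9, 17, 6, 18, 13, 15, 22, 5, 23]),
  ([1, 2, 0, 4, 7, 23, 9, 12, 17, 19, 3, 18, 10, 20, 13, 15, 11, 22, 6, 21, 8, 14, 5, 16], [2, 0, 1, 10, 3, 22, 18, 4, 20, 6, 12, 16, 7, 14, 21, 15, 23, 8, 11, 9, 13, 19, 17, 5]),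
  ([1, 2, 0, 4, 7, 23, 11, 3, 20, 21, 10, 17, 12, 18, 16, 8, 14, 13, 19, 6, 5, 9, 15, 22], [2, 0, 1, 7, 3, 20, 19, 4, 15, 21, 10, 6, 12, 17, 16, 22, 14, 11, 13, 18, 8, 9, 23, 5]),
  ([1, 2, 0, 4, 7, 23, 14, 10, 18, 6, 12, 20, 3, 17, 22, 5, 9, 16, 21, 19, 15, 11, 8, 13], [2, 0, 1, 12, 3, 15, 9, 4, 22, 16, 7, 21, 10, 23, 6, 20, 17, 13, 8, 19, 11, 18, 14, 5])]

def r6 : List ℕ := [1, 2, 0, 3, 4, 5, 8, 12, 20, 19, 7, 15, 10, 22, 14, 21, 13, 17, 9, 18, 6, 11, 16, 23]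

def r6i : List ℕ := [2, 0, 1, 3, 4, 5, 20, 10, 6, 18, 12, 21, 7, 16, 14, 11, 22, 17, 19, 9, 8, 15, 13, 23]

def r3 : List ℕ := [1, 2, 0, 4, 5, 3, 8, 18, 22, 14, 9, 20, 19, 15, 10, 16, 13, 7, 17, 23, 21, 11, 6, 12]

def r3i : List ℕ := [2, 0, 1, 5, 3, 4, 22, 17, 6, 10, 14, 21, 23, 16, 9, 13, 15, 18, 7, 12, 11, 20, 8, 19]

def c6 : List (List ℕ × List ℕ) := [
  ([0, 1, 2, 3, 4, 5, 6, 7, 8, 9, 10, 11, 12, 13, 14, 15, 16, 17, 18, 19, 20, 21, 22, 23], [0, 1, 2, 3, 4, 5, 6, 7, 8, 9, 10, 11, 12, 13, 14, 15, 16, 17, 18, 19, 20, 21, 22, 23]),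
  ([0, 1, 2, 4, 3, 16, 6, 7, 9, 8, 12, 20, 10, 17, 22, 18, 5, 13, 15, 19, 11, 21, 14, 23], [0, 1, 2, 4, 3, 16, 6, 7, 9, 8, 12, 20, 10, 17, 22, 18, 5, 13, 15, 19, 11, 21, 14, 23]),
  ([1, 2, 0, 3, 23, 20, 8, 5, 12, 15, 17, 16, 14, 6, 18, 4, 7, 13, 9, 10, 11, 22, 19, 21], [2, 0, 1, 3, 15, 7, 13, 16, 6, 18, 19, 20, 8, 17, 12, 9, 11, 10, 14, 22, 5, 23, 21, 4]),
  ([1, 2, 0, 14, 4, 21, 3, 8, 7, 17, 6, 5, 20, 13, 12, 18, 22, 9, 11, 15, 10, 19, 23, 16], [2, 0, 1, 6, 4, 11, 10, 8, 7, 17, 20, 18, 14, 13, 3, 19, 23, 9, 15, 21, 12, 5, 16, 22]),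
  ([2, 0, 1, 4, 5, 8, 17, 19, 23, 21, 18, 15, 9, 7, 14, 13, 16, 6, 10, 22, 3, 12, 11, 20], [1, 2, 0, 20, 3, 4, 17, 13, 5, 12, 18, 22, 21, 15, 14, 11, 16, 6, 10, 7, 23, 9, 19, 8]),
  ([2, 0, 1, 14, 4, 7, 21, 20, 17, 12, 8, 16, 6, 19, 15, 23, 5, 22, 10, 3, 11, 13, 9, 18], [1, 2, 0, 19, 4, 16, 12, 5, 10, 22, 18, 20, 9, 21, 3, 14, 11, 8, 23, 13, 7, 6, 17, 15]),
  ([6, 8, 20, 17, 3, 22, 7, 23, 12, 19, 5, 16, 4, 15, 10, 18, 13, 1, 21, 0, 14, 11, 2, 9], [19, 17, 22, 4, 12, 10, 0, 6, 1, 23, 14, 21, 8, 16, 20, 13, 11, 3, 15, 9, 2, 18, 5, 7]),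
  ([7, 12, 10, 17, 23, 18, 11, 5, 20, 15, 4, 3, 14, 1, 2, 16, 9, 22, 6, 0, 19, 13, 21, 8], [19, 13, 14, 11, 10, 7, 18, 0, 23, 16, 2, 6, 1, 21, 12, 9, 15, 3, 5, 20, 8, 22, 17, 4]),
  ([7, 12, 10, 23, 5, 9, 22, 14, 20, 3, 17, 13, 4, 6, 1, 11, 2, 8, 18, 19, 15, 0, 16, 21], [21, 14, 16, 9, 12, 4, 13, 0, 17, 5, 2, 15, 1, 11, 7, 20, 22, 10, 18, 19, 8, 23, 6, 3]),
  ([10, 7, 12, 4, 5, 19, 21, 23, 6, 18, 17, 20, 14, 0, 16, 22, 11, 15, 3, 9, 2, 1, 13, 8], [13, 21, 20, 18, 3, 4, 8, 1, 23, 19, 0, 16, 2, 22, 12, 17, 14, 10, 9, 5, 11, 6, 15, 7]),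
  ([10, 7, 12, 17, 5, 8, 1, 14, 15, 13, 4, 6, 23, 9, 22, 21, 3, 2, 0, 11, 20, 16, 19, 18], [18, 6, 17, 16, 10, 4, 11, 1, 5, 13, 0, 19, 2, 9, 7, 8, 21, 3, 23, 22, 20, 15, 14, 12]),
  ([11, 15, 21, 14, 5, 9, 0, 4, 6, 18, 23, 13, 3, 16, 22, 20, 8, 10, 19, 17, 7, 2, 12, 1], [6, 23, 21, 12, 7, 4, 8, 20, 16, 5, 17, 0, 22, 11, 3, 1, 13, 19, 9, 18, 15, 2, 14, 10]),
  ([12, 10, 7, 5, 23, 18, 22, 14, 13, 15, 4, 1, 17, 2, 3, 8, 11, 9, 6, 0, 16, 21, 20, 19], [19, 11, 13, 14, 10, 3, 18, 2, 15, 17, 1, 16, 0, 8, 7, 9, 20, 12, 5, 23, 22, 21, 6, 4]),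
  ([12, 10, 7, 23, 17, 6, 11, 5, 3, 19, 14, 2, 4, 9, 15, 22, 16, 18, 1, 13, 21, 8, 20, 0], [23, 18, 11, 8, 12, 7, 5, 2, 21, 13, 1, 6, 0, 19, 10, 14, 16, 4, 17, 9, 22, 20, 15, 3]),
  ([12, 10, 7, 23, 17, 19, 22, 4, 18, 13, 5, 16, 14, 21, 2, 0, 15, 20, 1, 6, 8, 9, 3, 11], [15, 18, 14, 22, 7, 10, 19, 2, 20, 21, 1, 23, 0, 9, 12, 16, 11, 4, 8, 5, 17, 13, 6, 3]),
  ([13, 22, 16, 3, 5, 12, 11, 17, 1, 20, 14, 2, 4, 18, 10, 8, 9, 7, 0, 21, 6, 15, 19, 23], [18, 8, 11, 3, 12, 4, 20, 17, 15, 16, 14, 6, 5, 0, 10, 21, 2, 7, 13, 22, 9, 19, 1, 23]),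
  ([13, 22, 16, 5, 17, 12, 1, 4, 7, 6, 3, 11, 14, 19, 20, 15, 8, 21, 9, 2, 18, 23, 10, 0], [23, 6, 19, 10, 7, 3, 9, 8, 16, 18, 22, 11, 5, 0, 12, 15, 2, 4, 20, 13, 14, 17, 1, 21]),
  ([15, 21, 11, 3, 23, 20, 17, 4, 13, 7, 5, 12, 14, 8, 16, 6, 19, 9, 18, 1, 22, 2, 10, 0], [23, 19, 21, 3, 7, 10, 15, 9, 13, 17, 22, 2, 11, 8, 12, 0, 14, 6, 18, 16, 5, 1, 20, 4]),
  ([15, 21, 11, 4, 14, 2, 9, 3, 10, 7, 5, 8, 23, 12, 1, 6, 18, 17, 19, 16, 22, 20, 13, 0], [23, 14, 5, 7, 3, 10, 15, 9, 11, 6, 8, 2, 13, 22, 4, 0, 19, 17, 16, 18, 21, 1, 20, 12]),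
  ([15, 21, 11, 14, 4, 18, 9, 3, 7, 10, 23, 22, 5, 17, 13, 19, 2, 12, 6, 16, 8, 20, 1, 0], [23, 22, 16, 7, 4, 12, 18, 8, 20, 6, 9, 2, 17, 14, 3, 0, 19, 13, 5, 15, 21, 1, 11, 10]),
  ([16, 13, 22, 23, 5, 4, 10, 19, 11, 3, 18, 7, 9, 20, 1, 15, 21, 2, 14, 17, 6, 8, 12, 0], [23, 14, 17, 9, 5, 4, 20, 11, 21, 12, 6, 8, 22, 1, 18, 15, 0, 19, 10, 7, 13, 16, 2, 3]),
  ([18, 9, 19, 5, 23, 20, 11, 13, 1, 21, 22, 17, 16, 7, 6, 4, 2, 14, 12, 0, 10, 3, 15, 8], [19, 8, 16, 21, 15, 3, 14, 13, 23, 1, 20, 6, 18, 7, 17, 22, 12, 11, 0, 2, 5, 9, 10, 4]),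
  ([19, 18, 9, 4, 23, 5, 15, 14, 7, 13, 3, 6, 17, 21, 2, 11, 20, 1, 22, 16, 8, 10, 12, 0], [23, 17, 14, 10, 3, 5, 11, 8, 20, 2, 21, 15, 22, 9, 7, 6, 19, 12, 1, 0, 16, 13, 18, 4]),
  ([22, 16, 13, 17, 23, 18, 0, 11, 2, 19, 21, 8, 15, 3, 1, 6, 12, 20, 5, 9, 4, 14, 10, 7], [6, 14, 8, 13, 20, 18, 15, 23, 11, 19, 22, 7, 16, 2, 21, 12, 1, 3, 5, 9, 17, 10, 0, 4])]

def c3 : List (List ℕ × List ℕ) := [
  ([0, 1, 2, 3, 4, 5, 6, 7, 8, 9, 10, 11, 12, 13, 14, 15, 16, 17, 18, 19, 20, 21, 22, 23], [0, 1, 2, 3, 4, 5, 6, 7, 8, 9, 10, 11, 12, 13, 14, 15, 16, 17, 18, 19, 20, 21, 22, 23]),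
  ([16, 13, 15, 11, 20, 21, 1, 12, 5, 18, 6, 2, 7, 10, 23, 0, 4, 17, 8, 19, 3, 14, 9, 22], [15, 6, 11, 20, 16, 8, 10, 12, 18, 22, 13, 3, 7, 1, 21, 2, 0, 17, 9, 19, 4, 5, 23, 14]),
  ([18, 17, 7, 5, 3, 4, 21, 23, 9, 12, 15, 0, 22, 11, 8, 14, 2, 13, 6, 16, 20, 10, 1, 19], [11, 22, 16, 4, 5, 3, 18, 2, 14, 8, 21, 13, 9, 17, 15, 10, 19, 1, 0, 23, 20, 6, 12, 7])]

/-- Check for candidates with a fixed point. -/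
def chkA (l : List ℕ) : Bool :=
  or (not (cuB l))
    (and (and (fixChk l (fixMask l)) (Nat.beq (pc (fixMask l)) 6)) (c6.any (conjChk l r6)))

/-- Check for candidates without fixed points. -/
def chkB (l : List ℕ) : Bool :=
  or (or (not (cuB l)) (hasFix l)) (c3.any (conjChk l r3))

theorem tA_ok : candChk [1, 2, 0, 3, 4] tA = true := by decide +kernel
theorem tB5_ok : candChk [1, 2, 0, 4, 5] tB5 = true := by decide +kernel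
theorem tB7_ok : candChk [1, 2, 0, 4, 7] tB7 = true := by decide +kernel
theorem tA_A : tA.all (fun e => chkA e.1) = true := by decide +kernel
theorem tB5_B : tB5.all (fun e => chkB e.1) = true := by decide +kernel
theorem tB7_B : tB7.all (fun e => chkB e.1) = true := by decide +kernel

theorem r6_chk : chk r6 r6i = true := by decide +kernel
theorem r3_chk : chk r3 r3i = true := by decide +kernel
theorem r6_mem : memChk r6 = true := by decide +kernel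
theorem r3_mem : memChk r3 = true := by decide +kernel
theorem r6_cu : cuB r6 = true := by decide +kernel
theorem r3_cu : cuB r3 = true := by decide +kernel
theorem r6_fix : and (fixChk r6 (fixMask r6)) (Nat.beq (pc (fixMask r6)) 6) = true := by
  decide +kernel
theorem r3_fix : hasFix r3 = false := by decide +kernel

/-- The representative element of order three with six fixed points. -/
def R6 : Equiv.Perm GolayPt := mkPerm r6 r6i r6_chk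

/-- The representative element of order three without fixed points. -/
def R3 : Equiv.Perm GolayPt := mkPerm r3 r3i r3_chk

theorem R6_mem : R6 ∈ M24 := mkPerm_mem _ _ _ r6_mem

theorem R3_mem : R3 ∈ M24 := mkPerm_mem _ _ _ r3_mem

theorem R6_order : orderOf R6 = 3 := order_three r6 r6i r6_chk r6_cu (by decide)

theorem R3_order : orderOf R3 = 3 := order_three r3 r3i r3_chk r3_cu (by decide)

theorem R3_free : ∀ p, R3 p ≠ p := noFix_spec _ _ r3_chk r3_fix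

theorem R6_card : (Finset.univ.filter fun p => R6 p = p).card = 6 := by
  have h := r6_fix
  simp only [Bool.and_eq_true, Nat.beq_eq] at h
  show (Finset.univ.filter fun p => mkPerm r6 r6i r6_chk p = p).card = 6
  rw [fix_card _ _ r6_chk _ h.1]
  exact h.2

/-- End of the argument for an element of order three with a fixed point. -/
theorem finA (g k : Equiv.Perm GolayPt) (hk : k ∈ M24) (h3 : orderOf g = 3)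
    (T : List (List ℕ × List ℕ)) (hT : T.all (fun e => chkA e.1) = true)
    (hex : ∃ e ∈ T, ∃ hc : chk e.1 e.2 = true, k * g * k⁻¹ = mkPerm e.1 e.2 hc) :
    (Finset.univ.filter fun q => g q = q).card = 6 ∧ ∃ k' ∈ M24, k' * g * k'⁻¹ = R6 := by
  obtain ⟨e, he, hc, hge⟩ := hex
  have hcu : k * g * k⁻¹ * (k * g * k⁻¹ * (k * g * k⁻¹)) = 1 := cube_conj h3
  rw [hge] at hcu
  have hs := cuB_of_cube _ _ hc hcu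
  have h1 := List.all_eq_true.1 hT e he
  simp only [chkA, hs, Bool.not_true, Bool.false_or, Bool.and_eq_true, List.any_eq_true,
    Nat.beq_eq] at h1
  obtain ⟨⟨hf, h6⟩, c, -, hcc⟩ := h1
  constructor
  · rw [fix_card_conj g k, hge, fix_card _ _ hc _ hf]
    exact h6
  · obtain ⟨k2, hk2, e2⟩ := conjChk_spec e.1 e.2 r6 r6i hc r6_chk c hcc
    refine ⟨k2 * k, Subgroup.mul_mem _ hk2 hk, ?_⟩
    apply conj_comp'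
    rw [hge]
    exact e2

/-- An element of order three with a fixed point has six fixed points and is conjugate to the
representative. -/
theorem typeA (g : Equiv.Perm GolayPt) (hg : g ∈ M24) (h3 : orderOf g = 3) (p : GolayPt)
    (hp : g p = p) :
    (Finset.univ.filter fun q => g q = q).card = 6 ∧ ∃ k ∈ M24, k * g * k⁻¹ = R6 := by
  classical
  have hggg := apply3 h3
  have hg1 : g ≠ 1 := by
    intro h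
    rw [h, orderOf_one] at h3
    exact absurd h3 (by norm_num)
  obtain ⟨a, ha⟩ := exists_moved_pt hg1
  have ha2 : g (g a) ≠ g a := fun h => ha (g.injective h)
  have ha3 : g (g a) ≠ a := by
    intro h
    apply ha
    have := hggg a
    rw [h] at this
    exact this
  haveI : Fact (Nat.Prime 3) := ⟨Nat.prime_three⟩
  have hmod := Equiv.Perm.card_compl_support_modEq (p := 3) (n := 1) (σ := g) (by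
    rw [pow_one, ← h3]
    exact pow_orderOf_eq_one g)
  have hpc : p ∈ g.supportᶜ := by
    rw [Finset.mem_compl, Equiv.Perm.notMem_support]
    exact hp
  have hcard : 1 < g.supportᶜ.card := by
    have h1 : 0 < g.supportᶜ.card := Finset.card_pos.mpr ⟨p, hpc⟩
    have h24 : Fintype.card GolayPt = 24 := by decide
    rw [h24] at hmod
    have h2 : g.supportᶜ.card % 3 = 0 := hmod
    omega
  obtain ⟨q, hqc, hqp⟩ := Finset.exists_mem_ne hcard p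
  have hq : g q = q := by
    rw [Finset.mem_compl, Equiv.Perm.notMem_support] at hqc
    exact hqc
  have hne : ∀ r, g r = r → r ≠ a ∧ r ≠ g a ∧ r ≠ g (g a) := by
    intro r hr
    refine ⟨?_, ?_, ?_⟩
    · intro h; rw [h] at hr; exact ha hr
    · intro h; rw [h] at hr; exact ha2 hr
    · intro h
      rw [h, hggg] at hr
      exact ha3 hr.symm
  have hinj : Function.Injective ![a, g a, g (g a), p, q] := by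
    apply tuple5_inj
    · exact ha.symm
    · exact ha3.symm
    · exact (hne p hp).1.symm
    · exact (hne q hq).1.symm
    · exact ha2.symm
    · exact (hne p hp).2.1.symm
    · exact (hne q hq).2.1.symm
    · exact (hne p hp).2.2.symm
    · exact (hne q hq).2.2.symm
    · exact hqp.symm
  obtain ⟨k, hk, hkx, hconj⟩ := normalize g ⟨_, hinj⟩
  have hk0 : k a = pt 0 := hkx 0
  have hk1 : k (g a) = pt 1 := hkx 1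
  have hk2 : k (g (g a)) = pt 2 := hkx 2
  have hk3 : k p = pt 3 := hkx 3
  have hk4 : k q = pt 4 := hkx 4
  apply finA g k hk h3 tA tA_A
  apply cands _ _ tA_ok _ (conj_mem hg hk)
  intro i hi
  interval_cases i
  · exact (hconj 0).trans hk1
  · exact (hconj 1).trans hk2
  · exact (hconj 2).trans (by show k (g (g (g a))) = _; rw [hggg]; exact hk0)
  · exact (hconj 3).trans (by show k (g p) = _; rw [hp]; exact hk3)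
  · exact (hconj 4).trans (by show k (g q) = _; rw [hq]; exact hk4)

/-- End of the argument for a fixed-point-free element of order three. -/
theorem finB (g k : Equiv.Perm GolayPt) (hk : k ∈ M24) (h3 : orderOf g = 3)
    (h0 : ∀ p, g p ≠ p)
    (T : List (List ℕ × List ℕ)) (hT : T.all (fun e => chkB e.1) = true)
    (hex : ∃ e ∈ T, ∃ hc : chk e.1 e.2 = true, k * g * k⁻¹ = mkPerm e.1 e.2 hc) :
    ∃ k' ∈ M24, k' * g * k'⁻¹ = R3 := by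
  obtain ⟨e, he, hc, hge⟩ := hex
  have hcu : k * g * k⁻¹ * (k * g * k⁻¹ * (k * g * k⁻¹)) = 1 := cube_conj h3
  rw [hge] at hcu
  have hs := cuB_of_cube _ _ hc hcu
  have hnf : hasFix e.1 = false := by
    by_contra hcon
    have hcon' : hasFix e.1 = true := by
      revert hcon
      cases hasFix e.1 <;> simp
    obtain ⟨q, hq⟩ := hasFix_spec _ _ hc hcon'
    rw [← hge] at hq
    exact no_fix_conj h0 q hq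
  have h1 := List.all_eq_true.1 hT e he
  simp only [chkB, hs, hnf, Bool.not_true, Bool.false_or, List.any_eq_true] at h1
  obtain ⟨c, -, hcc⟩ := h1
  obtain ⟨k2, hk2, e2⟩ := conjChk_spec e.1 e.2 r3 r3i hc r3_chk c hcc
  refine ⟨k2 * k, Subgroup.mul_mem _ hk2 hk, ?_⟩
  apply conj_comp'
  rw [hge]
  exact e2

/-- A fixed-point-free element of order three is conjugate to the representative. -/
theorem typeB (g : Equiv.Perm GolayPt) (hg : g ∈ M24) (h3 : orderOf g = 3)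
    (h0 : ∀ p, g p ≠ p) : ∃ k ∈ M24, k * g * k⁻¹ = R3 := by
  classical
  have hggg := apply3 h3
  obtain ⟨a, -⟩ : ∃ a : GolayPt, a = pt 0 := ⟨_, rfl⟩
  have ha := h0 a
  have ha2 : g (g a) ≠ g a := h0 (g a)
  have ha3 : g (g a) ≠ a := by
    intro h
    apply ha
    have := hggg a
    rw [h] at this
    exact this
  obtain ⟨b, hb⟩ := exists_not_mem ({a, g a, g (g a)} : Finset GolayPt)
    (le_trans Finset.card_le_three (by norm_num))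
  simp only [Finset.mem_insert, Finset.mem_singleton, not_or] at hb
  obtain ⟨hb1, hb2, hb3⟩ := hb
  have hgb := h0 b
  have hgb1 : g b ≠ a := by
    intro h
    apply hb3
    have := hggg b
    rw [h] at this
    exact this.symm
  have hgb2 : g b ≠ g a := fun h => hb1 (g.injective h)
  have hgb3 : g b ≠ g (g a) := fun h => hb2 (g.injective h)
  have hinj : Function.Injective ![a, g a, g (g a), b, g b] := by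
    apply tuple5_inj
    · exact ha.symm
    · exact ha3.symm
    · exact fun h => hb1 h.symm
    · exact hgb1.symm
    · exact ha2.symm
    · exact fun h => hb2 h.symm
    · exact hgb2.symm
    · exact fun h => hb3 h.symm
    · exact hgb3.symm
    · exact hgb.symm
  obtain ⟨k, hk, hkx, hconj⟩ := normalize g ⟨_, hinj⟩
  have hk0 : k a = pt 0 := hkx 0
  have hk1 : k (g a) = pt 1 := hkx 1
  have hk2 : k (g (g a)) = pt 2 := hkx 2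
  have hk3 : k b = pt 3 := hkx 3
  have hk4 : k (g b) = pt 4 := hkx 4
  have hg1 : k * g * k⁻¹ ∈ M24 := conj_mem hg hk
  have e0 : (k * g * k⁻¹) (pt 0) = pt 1 := (hconj 0).trans hk1
  have e1 : (k * g * k⁻¹) (pt 1) = pt 2 := (hconj 1).trans hk2
  have e2 : (k * g * k⁻¹) (pt 2) = pt 0 :=
    (hconj 2).trans (by show k (g (g (g a))) = _; rw [hggg]; exact hk0)
  have e3 : (k * g * k⁻¹) (pt 3) = pt 4 := (hconj 3).trans hk4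
  have e4 : (k * g * k⁻¹) (pt 4) = k (g (g b)) := hconj 4
  have hq : ∀ i < 5, (k * g * k⁻¹) (pt 4) ≠ pt i := by
    intro i hi h
    rw [e4] at h
    interval_cases i
    · rw [← hk0] at h
      have h' := k.injective h
      apply hb2
      have := hggg b
      rw [h'] at this
      exact this.symm
    · rw [← hk1] at h
      exact hgb1 (g.injective (k.injective h))
    · rw [← hk2] at h
      exact hgb2 (g.injective (k.injective h))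
    · rw [← hk3] at h
      have h' := k.injective h
      apply hgb
      have := hggg b
      rw [h'] at this
      exact this
    · rw [← hk4] at h
      exact h0 (g b) (k.injective h)
  obtain ⟨κ, hκ, hκ03, hκ4⟩ := norm5 (k * g * k⁻¹) [1, 2, 0, 4] (by
    intro i hi
    interval_cases i
    · exact ⟨by decide, e0⟩
    · exact ⟨by decide, e1⟩
    · exact ⟨by decide, e2⟩
    · exact ⟨by decide, e3⟩) hq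
  have hkk : κ * (k * g * k⁻¹) * κ⁻¹ = (κ * k) * g * (κ * k)⁻¹ := by
    rw [mul_inv_rev]
    simp only [mul_assoc]
  rw [hkk] at hκ03 hκ4
  have hκk : κ * k ∈ M24 := Subgroup.mul_mem _ hκ hk
  rcases hκ4 with h5 | h7
  · apply finB g (κ * k) hκk h3 h0 tB5 tB5_B
    apply cands _ _ tB5_ok _ (conj_mem hg hκk)
    intro i hi
    interval_cases i
    · exact hκ03 0 (by norm_num)
    · exact hκ03 1 (by norm_num)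
    · exact hκ03 2 (by norm_num)
    · exact hκ03 3 (by norm_num)
    · exact h5
  · apply finB g (κ * k) hκk h3 h0 tB7 tB7_B
    apply cands _ _ tB7_ok _ (conj_mem hg hκk)
    intro i hi
    interval_cases i
    · exact hκ03 0 (by norm_num)
    · exact hκ03 1 (by norm_num)
    · exact hκ03 2 (by norm_num)
    · exact hκ03 3 (by norm_num)
    · exact h7

/-- The fixed points of a subgroup. -/
def fixSet (X : Subgroup ↥M24) : Set GolayPt :=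
  {p : GolayPt | ∀ x ∈ X, ((x : ↥M24) : Equiv.Perm GolayPt) p = p}

/-- A subgroup of order three is generated by an element of order three. -/
theorem gen3 (X : Subgroup ↥M24) (hX : Nat.card X = 3) :
    ∃ x : ↥M24, orderOf x = 3 ∧ X = Subgroup.zpowers x := by
  have hne : X ≠ ⊥ := by
    intro h
    rw [h, Subgroup.card_bot] at hX
    exact absurd hX (by norm_num)
  obtain ⟨x, hx1⟩ := (Subgroup.ne_bot_iff_exists_ne_one).mp hne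
  have hdvd : orderOf x ∣ 3 := by
    rw [← hX]
    exact orderOf_dvd_natCard x
  have ho : orderOf (x : ↥M24) = 3 := by
    rw [Subgroup.orderOf_coe]
    rcases (Nat.dvd_prime Nat.prime_three).mp hdvd with h | h
    · exact absurd (orderOf_eq_one_iff.mp h) hx1
    · exact h
  refine ⟨x, ho, ?_⟩
  symm
  apply Subgroup.eq_of_le_of_card_ge
  · rw [Subgroup.zpowers_le]
    exact x.2
  · rw [hX, Nat.card_zpowers, ho]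

theorem fixSet_zpowers (x : ↥M24) :
    fixSet (Subgroup.zpowers x) = {p | (x : Equiv.Perm GolayPt) p = p} := by
  ext p
  constructor
  · intro h
    exact h x (Subgroup.mem_zpowers x)
  · intro h y hy
    obtain ⟨n, rfl⟩ := Subgroup.mem_zpowers_iff.mp hy
    rw [Subgroup.coe_zpow]
    exact Equiv.Perm.zpow_apply_eq_self_of_apply_eq_self h n

theorem ncard_fix (x : ↥M24) :
    (fixSet (Subgroup.zpowers x)).ncard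
      = (Finset.univ.filter fun p => (x : Equiv.Perm GolayPt) p = p).card := by
  rw [fixSet_zpowers]
  exact ncard_pts _

theorem conj_zpowers (k x y : ↥M24) (h : k * x * k⁻¹ = y) :
    MulAut.conj k • Subgroup.zpowers x = Subgroup.zpowers y := by
  show (Subgroup.zpowers x).map ((MulAut.conj k : MulAut ↥M24).toMonoidHom) = _
  rw [MonoidHom.map_zpowers, ← h]
  rfl

theorem conj_sub (x y : ↥M24) (k1 k2 r : Equiv.Perm GolayPt) (hk1 : k1 ∈ M24) (hk2 : k2 ∈ M24)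
    (e1 : k1 * (x : Equiv.Perm GolayPt) * k1⁻¹ = r)
    (e2 : k2 * (y : Equiv.Perm GolayPt) * k2⁻¹ = r) :
    ∃ k : ↥M24, MulAut.conj k • Subgroup.zpowers x = Subgroup.zpowers y := by
  refine ⟨⟨k2⁻¹ * k1, Subgroup.mul_mem _ (Subgroup.inv_mem _ hk2) hk1⟩, ?_⟩
  apply conj_zpowers
  apply Subtype.ext
  exact conj_of_two' _ _ k1 k2 r e1 e2

theorem fix_empty (x : ↥M24) (h0 : ∀ p, (x : Equiv.Perm GolayPt) p ≠ p) :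
    (fixSet (Subgroup.zpowers x)).ncard = 0 := by
  rw [fixSet_zpowers]
  have : {p | (x : Equiv.Perm GolayPt) p = p} = ∅ := by
    ext p
    simp [h0 p]
  rw [this, Set.ncard_empty]

/-- The group of the length-24 code has exactly two conjugacy classes of subgroups of order 3: a subgroup of order 3 fixes either exactly 6 of the 24 points or none of them, both cases occur, and two subgroups of order 3 with the same number of fixed points are conjugate. -/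
theorem result : (∀ X : Subgroup ↥Cfsg.M24, Nat.card X = 3 → {p : Cfsg.GolayPt | ∀ x ∈ X, ((x : ↥Cfsg.M24) : Equiv.Perm Cfsg.GolayPt) p = p}.ncard = 6 ∨ {p : Cfsg.GolayPt | ∀ x ∈ X, ((x : ↥Cfsg.M24) : Equiv.Perm Cfsg.GolayPt) p = p}.ncard = 0) ∧ (∃ X : Subgroup ↥Cfsg.M24, Nat.card X = 3 ∧ {p : Cfsg.GolayPt | ∀ x ∈ X, ((x : ↥Cfsg.M24) : Equiv.Perm Cfsg.GolayPt) p = p}.ncard = 6) ∧ (∃ X : Subgroup ↥Cfsg.M24, Nat.card X = 3 ∧ {p : Cfsg.GolayPt | ∀ x ∈ X, ((x : ↥Cfsg.M24) : Equiv.Perm Cfsg.GolayPt) p = p}.ncard = 0) ∧ ∀ X Y : Subgroup ↥Cfsg.M24, Nat.card X = 3 → Nat.card Y = 3 → {p : Cfsg.GolayPt | ∀ x ∈ X, ((x : ↥Cfsg.M24) : Equiv.Perm Cfsg.GolayPt) p = p}.ncard = {p : Cfsg.GolayPt | ∀ x ∈ Y, ((x : ↥Cfsg.M24) : Equiv.Perm Cfsg.GolayPt) p = p}.ncard → ∃ k : ↥Cfsg.M24, MulAut.conj k • X = Y := by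
  show (∀ X : Subgroup ↥Cfsg.M24, Nat.card X = 3 → (fixSet X).ncard = 6 ∨ (fixSet X).ncard = 0) ∧
    (∃ X : Subgroup ↥Cfsg.M24, Nat.card X = 3 ∧ (fixSet X).ncard = 6) ∧
    (∃ X : Subgroup ↥Cfsg.M24, Nat.card X = 3 ∧ (fixSet X).ncard = 0) ∧
    ∀ X Y : Subgroup ↥Cfsg.M24, Nat.card X = 3 → Nat.card Y = 3 →
      (fixSet X).ncard = (fixSet Y).ncard → ∃ k : ↥Cfsg.M24, MulAut.conj k • X = Y
  have key : ∀ x : ↥M24, orderOf x = 3 →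
      ((∃ p, (x : Equiv.Perm GolayPt) p = p) → (fixSet (Subgroup.zpowers x)).ncard = 6 ∧
        ∃ k ∈ M24, k * (x : Equiv.Perm GolayPt) * k⁻¹ = R6) ∧
      ((∀ p, (x : Equiv.Perm GolayPt) p ≠ p) → (fixSet (Subgroup.zpowers x)).ncard = 0 ∧
        ∃ k ∈ M24, k * (x : Equiv.Perm GolayPt) * k⁻¹ = R3) := by
    intro x hx
    have hx' : orderOf (x : Equiv.Perm GolayPt) = 3 := by rw [Subgroup.orderOf_coe]; exact hx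
    constructor
    · rintro ⟨p, hp⟩
      have h := typeA x x.2 hx' p hp
      exact ⟨by rw [ncard_fix]; exact h.1, h.2⟩
    · intro h0
      exact ⟨fix_empty x h0, typeB x x.2 hx' h0⟩
  refine ⟨?_, ?_, ?_, ?_⟩
  · intro X hX
    obtain ⟨x, hx, rfl⟩ := gen3 X hX
    by_cases h : ∃ p, (x : Equiv.Perm GolayPt) p = p
    · exact Or.inl ((key x hx).1 h).1
    · push Not at h
      exact Or.inr ((key x hx).2 h).1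
  · have ho : orderOf (⟨R6, R6_mem⟩ : ↥M24) = 3 := by
      rw [← Subgroup.orderOf_coe]; exact R6_order
    refine ⟨Subgroup.zpowers ⟨R6, R6_mem⟩, ?_, ?_⟩
    · rw [Nat.card_zpowers, ho]
    · rw [ncard_fix]
      exact R6_card
  · have ho : orderOf (⟨R3, R3_mem⟩ : ↥M24) = 3 := by
      rw [← Subgroup.orderOf_coe]; exact R3_order
    refine ⟨Subgroup.zpowers ⟨R3, R3_mem⟩, ?_, ?_⟩
    · rw [Nat.card_zpowers, ho]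
    · exact fix_empty _ R3_free
  · intro X Y hX hY hXY
    obtain ⟨x, hx, rfl⟩ := gen3 X hX
    obtain ⟨y, hy, rfl⟩ := gen3 Y hY
    by_cases h : ∃ p, (x : Equiv.Perm GolayPt) p = p
    · obtain ⟨h6, k1, hk1, e1⟩ := (key x hx).1 h
      have hy' : ∃ p, (y : Equiv.Perm GolayPt) p = p := by
        by_contra hcon
        push Not at hcon
        have := ((key y hy).2 hcon).1
        rw [← hXY, h6] at this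
        exact absurd this (by norm_num)
      obtain ⟨-, k2, hk2, e2⟩ := (key y hy).1 hy'
      exact conj_sub x y k1 k2 R6 hk1 hk2 e1 e2
    · push Not at h
      obtain ⟨h0, k1, hk1, e1⟩ := (key x hx).2 h
      have hy' : ∀ p, (y : Equiv.Perm GolayPt) p ≠ p := by
        by_contra hcon
        push Not at hcon
        have := ((key y hy).1 hcon).1
        rw [← hXY, h0] at this
        exact absurd this (by norm_num)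
      obtain ⟨-, k2, hk2, e2⟩ := (key y hy).2 hy'
      exact conj_sub x y k1 k2 R3 hk1 hk2 e1 e2
end Cfsg.Agent.S5601
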