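import Cfsg.Statements.S5602
import Cfsg.Agent.Lib.Helper28.M24Count
import Cfsg.Agent.S5394
import Cfsg.Agent.S5601

set_option autoImplicit false
open scoped Pointwise
open Cfsg

namespace Cfsg.Agent.S5602

open Cfsg Cfsg.Agent.Lib.Helper4.Golay Cfsg.Agent.Lib.Helper28
open Pointwise

/-- An element of order 3 of the group of the length-24 code having exactly 6 fixed points maps to themselves exactly 21 octads, exactly 15 trios, exactly 16 sextets and exactly 20 dodecads. -/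
theorem result (g : Equiv.Perm Cfsg.GolayPt) (hg : g ∈ Cfsg.M24) (h₃ : orderOf g = 3) (h₆ : (Finset.univ.filter fun p => g p = p).card = 6) : {o : Finset Cfsg.GolayPt | o ∈ Cfsg.octads ∧ g • o = o}.ncard = 21 ∧ {T : Finset (Finset Cfsg.GolayPt) | T ∈ Cfsg.trios ∧ g • T = T}.ncard = 15 ∧ {S : Finset (Finset Cfsg.GolayPt) | S ∈ Cfsg.sextets ∧ g • S = S}.ncard = 16 ∧ {d : Finset Cfsg.GolayPt | d ∈ Cfsg.dodecads ∧ g • d = d}.ncard = 20 := by
  classical
  have hpos : 0 < (Finset.univ.filter fun p => g p = p).card := by rw [h₆]; norm_num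
  obtain ⟨p, hp⟩ := Finset.card_pos.1 hpos
  rw [Finset.mem_filter] at hp
  obtain ⟨-, k, hk, e⟩ := Cfsg.Agent.S5601.typeA g hg h₃ p hp.2
  have hk' : k⁻¹ ∈ M24 := Subgroup.inv_mem _ hk
  rw [eq_conj_of_conj e, fixed_octads_conj hk', fixed_trios_conj hk', fixed_sextets_conj hk',
    fixed_dodecads_conj hk']
  refine ⟨?_, ?_, ?_, ?_⟩
  · show {o | o ∈ octads ∧ mkPerm Cfsg.Agent.S5601.r6 Cfsg.Agent.S5601.r6i
      Cfsg.Agent.S5601.r6_chk • o = o}.ncard = 21
    rw [fixed_octads]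
    decide +kernel
  · show {T | T ∈ trios ∧ mkPerm Cfsg.Agent.S5601.r6 Cfsg.Agent.S5601.r6i
      Cfsg.Agent.S5601.r6_chk • T = T}.ncard = 15
    rw [fixed_trios]
    decide +kernel
  · show {S | S ∈ sextets ∧ mkPerm Cfsg.Agent.S5601.r6 Cfsg.Agent.S5601.r6i
      Cfsg.Agent.S5601.r6_chk • S = S}.ncard = 16
    rw [fixed_sextets _ _ _ Cfsg.Agent.S5601.R6_mem]
    decide +kernel
  · show {o | o ∈ dodecads ∧ mkPerm Cfsg.Agent.S5601.r6 Cfsg.Agent.S5601.r6i
      Cfsg.Agent.S5601.r6_chk • o = o}.ncard = 20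
    rw [fixed_dodecads]
    decide +kernel
end Cfsg.Agent.S5602
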