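import Cfsg.Statements.S5603
import Cfsg.Agent.Lib.Helper28.M24Count
import Cfsg.Agent.S5394
import Cfsg.Agent.S5601

set_option autoImplicit false
open scoped Pointwise
open Cfsg

namespace Cfsg.Agent.S5603

open Cfsg Cfsg.Agent.Lib.Helper4.Golay Cfsg.Agent.Lib.Helper28
open Pointwise

/-- A fixed-point-free element of order 3 of the group of the length-24 code maps to themselves exactly 7 sextets and exactly 15 trios. -/
theorem result (g : Equiv.Perm Cfsg.GolayPt) (hg : g ∈ Cfsg.M24) (h₃ : orderOf g = 3) (h₀ : ∀ p, g p ≠ p) : {S : Finset (Finset Cfsg.GolayPt) | S ∈ Cfsg.sextets ∧ g • S = S}.ncard = 7 ∧ {T : Finset (Finset Cfsg.GolayPt) | T ∈ Cfsg.trios ∧ g • T = T}.ncard = 15 := by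
  classical
  obtain ⟨k, hk, e⟩ := Cfsg.Agent.S5601.typeB g hg h₃ h₀
  have hk' : k⁻¹ ∈ M24 := Subgroup.inv_mem _ hk
  rw [eq_conj_of_conj e, fixed_trios_conj hk', fixed_sextets_conj hk']
  refine ⟨?_, ?_⟩
  · show {S | S ∈ sextets ∧ mkPerm Cfsg.Agent.S5601.r3 Cfsg.Agent.S5601.r3i
      Cfsg.Agent.S5601.r3_chk • S = S}.ncard = 7
    rw [fixed_sextets _ _ _ Cfsg.Agent.S5601.R3_mem]
    decide +kernel
  · show {T | T ∈ trios ∧ mkPerm Cfsg.Agent.S5601.r3 Cfsg.Agent.S5601.r3i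
      Cfsg.Agent.S5601.r3_chk • T = T}.ncard = 15
    rw [fixed_trios]
    decide +kernel
end Cfsg.Agent.S5603
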