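import Cfsg.Statements.S5604
import Cfsg.Agent.Lib.Helper28.M24Orb
import Cfsg.Agent.Lib.Helper28.M24Cand
import Mathlib.GroupTheory.Sylow

set_option autoImplicit false
open scoped Pointwise
open Cfsg

namespace Cfsg.Agent.S5604

open Cfsg Cfsg.Agent.Lib.Helper4 Cfsg.Agent.Lib.Helper4.Golay Cfsg.Agent.Lib.Helper28
open Pointwise

set_option maxRecDepth 100000

theorem norm_conj {G : Type*} [Group G] (S S0 : Subgroup G) (g : G)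
    (h : ∀ x, x ∈ S ↔ g * x * g⁻¹ ∈ S0) (n : G) :
    n ∈ Subgroup.normalizer (S : Set G) ↔ g * n * g⁻¹ ∈ Subgroup.normalizer (S0 : Set G) := by
  rw [Subgroup.mem_normalizer_iff, Subgroup.mem_normalizer_iff]
  constructor
  · intro H y
    have e1 : y = g * (g⁻¹ * y * g) * g⁻¹ := by group
    have e2 : g * n * g⁻¹ * y * (g * n * g⁻¹)⁻¹ = g * (n * (g⁻¹ * y * g) * n⁻¹) * g⁻¹ := by group
    rw [e2, ← h]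
    conv_lhs => rw [e1]
    rw [← h]
    exact H _
  · intro H x
    rw [h, h]
    have e2 : g * (n * x * n⁻¹) * g⁻¹ = g * n * g⁻¹ * (g * x * g⁻¹) * (g * n * g⁻¹)⁻¹ := by group
    rw [e2]
    exact H _

theorem cent_conj {G : Type*} [Group G] (S S0 : Subgroup G) (g : G)
    (h : ∀ x, x ∈ S ↔ g * x * g⁻¹ ∈ S0) (c : G) :
    c ∈ Subgroup.centralizer (S : Set G) ↔ g * c * g⁻¹ ∈ Subgroup.centralizer (S0 : Set G) := by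
  rw [Subgroup.mem_centralizer_iff, Subgroup.mem_centralizer_iff]
  constructor
  · intro H y hy
    have hy' : g⁻¹ * y * g ∈ S := by
      rw [h]
      have e1 : g * (g⁻¹ * y * g) * g⁻¹ = y := by group
      rw [e1]
      exact hy
    have e := H _ hy'
    have e2 : y * (g * c * g⁻¹) = g * (g⁻¹ * y * g * c) * g⁻¹ := by group
    have e3 : g * c * g⁻¹ * y = g * (c * (g⁻¹ * y * g)) * g⁻¹ := by group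
    rw [e2, e3, e]
  · intro H x hx
    have e := H _ ((h x).1 hx)
    have e2 : x * c = g⁻¹ * (g * x * g⁻¹ * (g * c * g⁻¹)) * g := by group
    have e3 : c * x = g⁻¹ * (g * c * g⁻¹ * (g * x * g⁻¹)) * g := by group
    rw [e2, e3, e]

theorem card_conj {G : Type*} [Group G] (A B : Subgroup G) (g : G)
    (h : ∀ x, x ∈ A ↔ g * x * g⁻¹ ∈ B) : Nat.card A = Nat.card B := by
  apply Nat.card_congr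
  exact
    { toFun := fun x => ⟨g * x.1 * g⁻¹, (h x.1).1 x.2⟩
      invFun := fun y => ⟨g⁻¹ * y.1 * g, (h _).2 (by
        have e : g * (g⁻¹ * y.1 * g) * g⁻¹ = y.1 := by group
        rw [e]
        exact y.2)⟩
      left_inv := fun x => Subtype.ext (by
        show g⁻¹ * (g * x.1 * g⁻¹) * g = x.1
        group)
      right_inv := fun y => Subtype.ext (by
        show g * (g⁻¹ * y.1 * g) * g⁻¹ = y.1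
        group) }

theorem mem_normalizer_zpowers {G : Type*} [Group G] [Finite G] {s n : G}
    (h : n * s * n⁻¹ ∈ Subgroup.zpowers s) :
    n ∈ Subgroup.normalizer (Subgroup.zpowers s : Set G) := by
  rw [Subgroup.mem_normalizer_iff_map_conj_eq]
  apply Subgroup.eq_of_le_of_card_ge
  · rw [MonoidHom.map_zpowers, Subgroup.zpowers_le]
    exact h
  · rw [Subgroup.card_map_of_injective (MulAut.conj n).injective]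

theorem sylow_conj {G : Type*} [Group G] [Finite G] (p : ℕ) [Fact p.Prime] (S S0 : Subgroup G)
    (hS : Nat.card S = p ^ (Nat.card G).factorization p)
    (hS0 : Nat.card S0 = p ^ (Nat.card G).factorization p) :
    ∃ g : G, ∀ x, x ∈ S ↔ g * x * g⁻¹ ∈ S0 := by
  obtain ⟨g, hg⟩ := MulAction.exists_smul_eq G (Sylow.ofCard S hS) (Sylow.ofCard S0 hS0)
  refine ⟨g, fun x => ?_⟩
  have h1 : (MulAut.conj g • (S : Subgroup G)) = S0 := by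
    have h2 := congrArg (fun P : Sylow p G => (P : Subgroup G)) hg
    exact h2
  rw [← h1, Subgroup.mem_pointwise_smul_iff_inv_smul_mem]
  have e : (MulAut.conj g)⁻¹ • (g * x * g⁻¹) = x := by
    rw [MulAut.smul_def, MulAut.conj_inv_apply]
    group
  rw [e]

theorem fact7 : Nat.factorization 244823040 7 = 1 := by
  have h : (244823040 : ℕ) = 7 ^ 1 * 34974720 := by norm_num
  rw [h, Nat.factorization_mul (by norm_num) (by norm_num), Finsupp.add_apply,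
    Nat.Prime.factorization_pow (by norm_num)]
  simp
  norm_num [Nat.factorization_eq_zero_of_not_dvd]

/-- The cardinality of a subgroup all of whose elements are listed in a table, the entries of
the table being told apart by their values at one point. -/
theorem card_eq_of_table (H : Subgroup (Equiv.Perm GolayPt)) (T : List (List ℕ × List ℕ))
    (b : ℕ) (hb : b < 24) (hnd : nodupB (T.map (fun e => nth e.1 b)) = true)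
    (h1 : ∀ g ∈ H, ∃ e ∈ T, ∃ hc : chk e.1 e.2 = true, g = mkPerm e.1 e.2 hc)
    (h2 : ∀ e ∈ T, ∃ hc : chk e.1 e.2 = true, mkPerm e.1 e.2 hc ∈ H) :
    Nat.card H = T.length := by
  classical
  have hnd' := nodupB_spec _ hnd
  let ψ : Equiv.Perm GolayPt → ℕ := fun g => code (g (pt b))
  have hψ : ∀ (e : List ℕ × List ℕ) (hc : chk e.1 e.2 = true),
      ψ (mkPerm e.1 e.2 hc) = nth e.1 b := by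
    intro e hc
    show code (mkPerm e.1 e.2 hc (pt b)) = nth e.1 b
    rw [mkPerm_pt _ _ _ b hb, code_pt _ ((chk_spec hc).2 b hb).1]
  have hinj : Set.InjOn ψ (H : Set (Equiv.Perm GolayPt)) := by
    intro x hx y hy hxy
    obtain ⟨e, he, hc, rfl⟩ := h1 x hx
    obtain ⟨e', he', hc', rfl⟩ := h1 y hy
    rw [hψ, hψ] at hxy
    have hee : e = e' := List.inj_on_of_nodup_map hnd' he he' hxy
    subst hee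
    rfl
  have himg : ψ '' (H : Set (Equiv.Perm GolayPt))
      = ((T.map (fun e => nth e.1 b)).toFinset : Set ℕ) := by
    ext m
    simp only [Set.mem_image, SetLike.mem_coe, List.mem_toFinset, List.mem_map]
    constructor
    · rintro ⟨x, hx, rfl⟩
      obtain ⟨e, he, hc, rfl⟩ := h1 x hx
      exact ⟨e, he, (hψ e hc).symm⟩
    · rintro ⟨e, he, rfl⟩
      obtain ⟨hc, hmem⟩ := h2 e he
      exact ⟨_, hmem, hψ e hc⟩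
  have hcard : Nat.card H = (H : Set (Equiv.Perm GolayPt)).ncard := Nat.card_coe_set_eq _
  rw [hcard, ← hinj.ncard_image, himg, Set.ncard_coe_finset,
    List.toFinset_card_of_nodup hnd', List.length_map]

def s0L : List ℕ := [1, 2, 3, 4, 12, 5, 21, 0, 6, 22, 10, 14, 7, 9, 8, 15, 23, 11, 16, 18, 17, 20, 19, 13]

def s6L : List ℕ := [7, 0, 1, 2, 3, 5, 8, 12, 14, 13, 10, 17, 4, 23, 11, 15, 18, 20, 19, 22, 21, 6, 9, 16]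

/-- The lists of the powers of the element of order seven. -/
def pw : ℕ → List ℕ
  | 1 => [1, 2, 3, 4, 12, 5, 21, 0, 6, 22, 10, 14, 7, 9, 8, 15, 23, 11, 16, 18, 17, 20, 19, 13]
  | 2 => [2, 3, 4, 12, 7, 5, 20, 1, 21, 19, 10, 8, 0, 22, 6, 15, 13, 14, 23, 16, 11, 17, 18, 9]
  | 3 => [3, 4, 12, 7, 0, 5, 17, 2, 20, 18, 10, 6, 1, 19, 21, 15, 9, 8, 13, 23, 14, 11, 16, 22]
  | 4 => [4, 12, 7, 0, 1, 5, 11, 3, 17, 16, 10, 21, 2, 18, 20, 15, 22, 6, 9, 13, 8, 14, 23, 19]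
  | 5 => [12, 7, 0, 1, 2, 5, 14, 4, 11, 23, 10, 20, 3, 16, 17, 15, 19, 21, 22, 9, 6, 8, 13, 18]
  | 6 => [7, 0, 1, 2, 3, 5, 8, 12, 14, 13, 10, 17, 4, 23, 11, 15, 18, 20, 19, 22, 21, 6, 9, 16]
  | _ => idL

def mvM : ℕ := 16743391

def T1 : List (List ℕ × List ℕ) := [
  ([0, 1, 2, 3, 4, 5, 6, 7, 8, 9, 10, 11, 12, 13, 14, 15, 16, 17, 18, 19, 20, 21, 22, 23], [0, 1, 2, 3, 4, 5, 6, 7, 8, 9, 10, 11, 12, 13, 14, 15, 16, 17, 18, 19, 20, 21, 22, 23]),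
  ([0, 1, 2, 3, 4, 5, 16, 10, 13, 19, 12, 8, 7, 11, 23, 20, 21, 14, 9, 18, 22, 6, 15, 17], [0, 1, 2, 3, 4, 5, 21, 12, 11, 18, 7, 13, 10, 8, 17, 22, 6, 23, 19, 9, 15, 16, 20, 14]),
  ([0, 1, 2, 3, 4, 5, 21, 12, 11, 18, 7, 13, 10, 8, 17, 22, 6, 23, 19, 9, 15, 16, 20, 14], [0, 1, 2, 3, 4, 5, 16, 10, 13, 19, 12, 8, 7, 11, 23, 20, 21, 14, 9, 18, 22, 6, 15, 17]),
  ([0, 1, 2, 3, 4, 6, 5, 7, 18, 14, 10, 23, 12, 15, 9, 13, 21, 22, 8, 20, 19, 16, 17, 11], [0, 1, 2, 3, 4, 6, 5, 7, 18, 14, 10, 23, 12, 15, 9, 13, 21, 22, 8, 20, 19, 16, 17, 11]),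
  ([0, 1, 2, 3, 4, 6, 16, 12, 23, 8, 7, 15, 10, 18, 22, 17, 5, 11, 20, 14, 13, 21, 19, 9], [0, 1, 2, 3, 4, 16, 5, 10, 9, 23, 12, 17, 7, 20, 19, 11, 6, 15, 13, 22, 18, 21, 14, 8]),
  ([0, 1, 2, 3, 4, 6, 21, 10, 15, 20, 12, 18, 7, 23, 11, 19, 16, 9, 14, 8, 17, 5, 13, 22], [0, 1, 2, 3, 4, 21, 5, 12, 19, 17, 7, 14, 10, 22, 18, 8, 16, 20, 11, 15, 9, 6, 23, 13]),
  ([0, 1, 2, 3, 4, 8, 17, 10, 11, 14, 12, 5, 7, 13, 15, 9, 22, 19, 20, 6, 21, 18, 23, 16], [0, 1, 2, 3, 4, 11, 19, 12, 5, 15, 7, 8, 10, 13, 9, 14, 23, 6, 21, 17, 18, 20, 16, 22]),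
  ([0, 1, 2, 3, 4, 8, 18, 7, 5, 20, 10, 13, 12, 11, 19, 23, 17, 16, 6, 14, 9, 22, 21, 15], [0, 1, 2, 3, 4, 8, 18, 7, 5, 20, 10, 13, 12, 11, 19, 23, 17, 16, 6, 14, 9, 22, 21, 15]),
  ([0, 1, 2, 3, 4, 8, 22, 12, 13, 6, 7, 11, 10, 5, 16, 21, 18, 15, 14, 20, 23, 17, 9, 19], [0, 1, 2, 3, 4, 13, 9, 10, 5, 22, 12, 11, 7, 8, 18, 17, 14, 21, 16, 23, 19, 15, 6, 20]),
  ([0, 1, 2, 3, 4, 9, 13, 10, 16, 18, 12, 20, 7, 17, 22, 8, 15, 6, 5, 19, 23, 14, 21, 11], [0, 1, 2, 3, 4, 18, 17, 12, 15, 5, 7, 23, 10, 6, 21, 16, 8, 13, 9, 19, 11, 22, 14, 20]),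
  ([0, 1, 2, 3, 4, 9, 14, 7, 20, 5, 10, 17, 12, 16, 6, 21, 13, 11, 19, 18, 8, 15, 23, 22], [0, 1, 2, 3, 4, 9, 14, 7, 20, 5, 10, 17, 12, 16, 6, 21, 13, 11, 19, 18, 8, 15, 23, 22]),
  ([0, 1, 2, 3, 4, 9, 15, 12, 17, 19, 7, 16, 10, 20, 11, 23, 14, 22, 18, 5, 21, 13, 8, 6], [0, 1, 2, 3, 4, 19, 23, 10, 22, 5, 12, 14, 7, 21, 16, 6, 11, 8, 18, 9, 13, 20, 17, 15]),
  ([0, 1, 2, 3, 4, 11, 19, 12, 5, 15, 7, 8, 10, 13, 9, 14, 23, 6, 21, 17, 18, 20, 16, 22], [0, 1, 2, 3, 4, 8, 17, 10, 11, 14, 12, 5, 7, 13, 15, 9, 22, 19, 20, 6, 21, 18, 23, 16]),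
  ([0, 1, 2, 3, 4, 11, 20, 10, 8, 21, 12, 13, 7, 5, 6, 16, 19, 22, 17, 15, 14, 23, 18, 9], [0, 1, 2, 3, 4, 13, 14, 12, 8, 23, 7, 5, 10, 11, 20, 19, 15, 18, 22, 16, 6, 9, 17, 21]),
  ([0, 1, 2, 3, 4, 11, 23, 7, 13, 17, 10, 5, 12, 8, 22, 18, 20, 9, 15, 21, 16, 19, 14, 6], [0, 1, 2, 3, 4, 11, 23, 7, 13, 17, 10, 5, 12, 8, 22, 18, 20, 9, 15, 21, 16, 19, 14, 6]),
  ([0, 1, 2, 3, 4, 13, 9, 10, 5, 22, 12, 11, 7, 8, 18, 17, 14, 21, 16, 23, 19, 15, 6, 20], [0, 1, 2, 3, 4, 8, 22, 12, 13, 6, 7, 11, 10, 5, 16, 21, 18, 15, 14, 20, 23, 17, 9, 19]),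
  ([0, 1, 2, 3, 4, 13, 14, 12, 8, 23, 7, 5, 10, 11, 20, 19, 15, 18, 22, 16, 6, 9, 17, 21], [0, 1, 2, 3, 4, 11, 20, 10, 8, 21, 12, 13, 7, 5, 6, 16, 19, 22, 17, 15, 14, 23, 18, 9]),
  ([0, 1, 2, 3, 4, 13, 15, 7, 11, 16, 10, 8, 12, 5, 21, 6, 9, 20, 23, 22, 17, 14, 19, 18], [0, 1, 2, 3, 4, 13, 15, 7, 11, 16, 10, 8, 12, 5, 21, 6, 9, 20, 23, 22, 17, 14, 19, 18]),
  ([0, 1, 2, 3, 4, 14, 9, 7, 19, 6, 10, 22, 12, 21, 5, 16, 15, 23, 20, 8, 18, 13, 11, 17], [0, 1, 2, 3, 4, 14, 9, 7, 19, 6, 10, 22, 12, 21, 5, 16, 15, 23, 20, 8, 18, 13, 11, 17]),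
  ([0, 1, 2, 3, 4, 14, 13, 12, 22, 20, 7, 21, 10, 19, 23, 11, 9, 17, 8, 6, 16, 15, 18, 5], [0, 1, 2, 3, 4, 23, 19, 10, 18, 16, 12, 15, 7, 6, 5, 21, 20, 17, 22, 13, 9, 11, 8, 14]),
  ([0, 1, 2, 3, 4, 14, 15, 10, 21, 8, 12, 19, 7, 22, 17, 18, 13, 5, 6, 20, 11, 9, 16, 23], [0, 1, 2, 3, 4, 17, 18, 12, 9, 21, 7, 20, 10, 16, 5, 6, 22, 14, 15, 11, 19, 8, 13, 23]),
  ([0, 1, 2, 3, 4, 15, 9, 12, 18, 11, 7, 6, 10, 23, 19, 20, 13, 8, 17, 21, 5, 14, 22, 16], [0, 1, 2, 3, 4, 20, 11, 10, 17, 6, 12, 9, 7, 16, 21, 5, 23, 18, 8, 14, 15, 19, 22, 13]),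
  ([0, 1, 2, 3, 4, 15, 13, 7, 23, 21, 10, 18, 12, 6, 16, 5, 14, 19, 11, 17, 22, 9, 20, 8], [0, 1, 2, 3, 4, 15, 13, 7, 23, 21, 10, 18, 12, 6, 16, 5, 14, 19, 11, 17, 22, 9, 20, 8]),
  ([0, 1, 2, 3, 4, 15, 14, 10, 6, 17, 12, 23, 7, 18, 8, 22, 9, 16, 21, 11, 20, 13, 5, 19], [0, 1, 2, 3, 4, 22, 8, 12, 14, 16, 7, 19, 10, 21, 6, 5, 17, 9, 13, 23, 20, 18, 15, 11]),
  ([0, 1, 2, 3, 4, 16, 5, 10, 9, 23, 12, 17, 7, 20, 19, 11, 6, 15, 13, 22, 18, 21, 14, 8], [0, 1, 2, 3, 4, 6, 16, 12, 23, 8, 7, 15, 10, 18, 22, 17, 5, 11, 20, 14, 13, 21, 19, 9]),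
  ([0, 1, 2, 3, 4, 16, 6, 12, 20, 22, 7, 9, 10, 17, 8, 18, 21, 19, 23, 13, 14, 5, 11, 15], [0, 1, 2, 3, 4, 21, 6, 10, 14, 11, 12, 22, 7, 19, 20, 23, 5, 13, 15, 17, 8, 16, 9, 18]),
  ([0, 1, 2, 3, 4, 16, 21, 7, 17, 13, 10, 20, 12, 9, 15, 14, 5, 8, 22, 23, 11, 6, 18, 19], [0, 1, 2, 3, 4, 16, 21, 7, 17, 13, 10, 20, 12, 9, 15, 14, 5, 8, 22, 23, 11, 6, 18, 19]),
  ([0, 1, 2, 3, 4, 17, 8, 10, 20, 15, 12, 16, 7, 9, 14, 13, 18, 23, 11, 21, 6, 22, 19, 5], [0, 1, 2, 3, 4, 23, 20, 12, 6, 13, 7, 18, 10, 15, 14, 9, 11, 5, 16, 22, 8, 19, 21, 17]),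
  ([0, 1, 2, 3, 4, 17, 18, 12, 9, 21, 7, 20, 10, 16, 5, 6, 22, 14, 15, 11, 19, 8, 13, 23], [0, 1, 2, 3, 4, 14, 15, 10, 21, 8, 12, 19, 7, 22, 17, 18, 13, 5, 6, 20, 11, 9, 16, 23]),
  ([0, 1, 2, 3, 4, 17, 22, 7, 16, 11, 10, 9, 12, 20, 23, 19, 8, 5, 21, 15, 13, 18, 6, 14], [0, 1, 2, 3, 4, 17, 22, 7, 16, 11, 10, 9, 12, 20, 23, 19, 8, 5, 21, 15, 13, 18, 6, 14]),
  ([0, 1, 2, 3, 4, 18, 8, 7, 6, 19, 10, 15, 12, 23, 20, 11, 22, 21, 5, 9, 14, 17, 16, 13], [0, 1, 2, 3, 4, 18, 8, 7, 6, 19, 10, 15, 12, 23, 20, 11, 22, 21, 5, 9, 14, 17, 16, 13]),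
  ([0, 1, 2, 3, 4, 18, 17, 12, 15, 5, 7, 23, 10, 6, 21, 16, 8, 13, 9, 19, 11, 22, 14, 20], [0, 1, 2, 3, 4, 9, 13, 10, 16, 18, 12, 20, 7, 17, 22, 8, 15, 6, 5, 19, 23, 14, 21, 11]),
  ([0, 1, 2, 3, 4, 18, 22, 10, 23, 9, 12, 6, 7, 15, 13, 14, 17, 20, 19, 5, 16, 8, 11, 21], [0, 1, 2, 3, 4, 19, 11, 12, 21, 9, 7, 22, 10, 14, 15, 13, 20, 16, 5, 18, 17, 23, 6, 8]),
  ([0, 1, 2, 3, 4, 19, 11, 12, 21, 9, 7, 22, 10, 14, 15, 13, 20, 16, 5, 18, 17, 23, 6, 8], [0, 1, 2, 3, 4, 18, 22, 10, 23, 9, 12, 6, 7, 15, 13, 14, 17, 20, 19, 5, 16, 8, 11, 21]),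
  ([0, 1, 2, 3, 4, 19, 20, 7, 14, 18, 10, 21, 12, 22, 8, 17, 23, 15, 9, 5, 6, 11, 13, 16], [0, 1, 2, 3, 4, 19, 20, 7, 14, 18, 10, 21, 12, 22, 8, 17, 23, 15, 9, 5, 6, 11, 13, 16]),
  ([0, 1, 2, 3, 4, 19, 23, 10, 22, 5, 12, 14, 7, 21, 16, 6, 11, 8, 18, 9, 13, 20, 17, 15], [0, 1, 2, 3, 4, 9, 15, 12, 17, 19, 7, 16, 10, 20, 11, 23, 14, 22, 18, 5, 21, 13, 8, 6]),
  ([0, 1, 2, 3, 4, 20, 11, 10, 17, 6, 12, 9, 7, 16, 21, 5, 23, 18, 8, 14, 15, 19, 22, 13], [0, 1, 2, 3, 4, 15, 9, 12, 18, 11, 7, 6, 10, 23, 19, 20, 13, 8, 17, 21, 5, 14, 22, 16]),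
  ([0, 1, 2, 3, 4, 20, 19, 7, 9, 8, 10, 16, 12, 17, 18, 22, 11, 13, 14, 6, 5, 23, 15, 21], [0, 1, 2, 3, 4, 20, 19, 7, 9, 8, 10, 16, 12, 17, 18, 22, 11, 13, 14, 6, 5, 23, 15, 21]),
  ([0, 1, 2, 3, 4, 20, 23, 12, 16, 14, 7, 17, 10, 9, 13, 15, 19, 21, 6, 8, 22, 11, 5, 18], [0, 1, 2, 3, 4, 22, 18, 10, 19, 13, 12, 21, 7, 14, 9, 15, 8, 11, 23, 16, 5, 17, 20, 6]),
  ([0, 1, 2, 3, 4, 21, 5, 12, 19, 17, 7, 14, 10, 22, 18, 8, 16, 20, 11, 15, 9, 6, 23, 13], [0, 1, 2, 3, 4, 6, 21, 10, 15, 20, 12, 18, 7, 23, 11, 19, 16, 9, 14, 8, 17, 5, 13, 22]),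
  ([0, 1, 2, 3, 4, 21, 6, 10, 14, 11, 12, 22, 7, 19, 20, 23, 5, 13, 15, 17, 8, 16, 9, 18], [0, 1, 2, 3, 4, 16, 6, 12, 20, 22, 7, 9, 10, 17, 8, 18, 21, 19, 23, 13, 14, 5, 11, 15]),
  ([0, 1, 2, 3, 4, 21, 16, 7, 22, 15, 10, 19, 12, 14, 13, 9, 6, 18, 17, 11, 23, 5, 8, 20], [0, 1, 2, 3, 4, 21, 16, 7, 22, 15, 10, 19, 12, 14, 13, 9, 6, 18, 17, 11, 23, 5, 8, 20]),
  ([0, 1, 2, 3, 4, 22, 8, 12, 14, 16, 7, 19, 10, 21, 6, 5, 17, 9, 13, 23, 20, 18, 15, 11], [0, 1, 2, 3, 4, 15, 14, 10, 6, 17, 12, 23, 7, 18, 8, 22, 9, 16, 21, 11, 20, 13, 5, 19]),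
  ([0, 1, 2, 3, 4, 22, 17, 7, 21, 23, 10, 14, 12, 19, 11, 20, 18, 6, 16, 13, 15, 8, 5, 9], [0, 1, 2, 3, 4, 22, 17, 7, 21, 23, 10, 14, 12, 19, 11, 20, 18, 6, 16, 13, 15, 8, 5, 9]),
  ([0, 1, 2, 3, 4, 22, 18, 10, 19, 13, 12, 21, 7, 14, 9, 15, 8, 11, 23, 16, 5, 17, 20, 6], [0, 1, 2, 3, 4, 20, 23, 12, 16, 14, 7, 17, 10, 9, 13, 15, 19, 21, 6, 8, 22, 11, 5, 18]),
  ([0, 1, 2, 3, 4, 23, 11, 7, 15, 22, 10, 6, 12, 18, 17, 8, 19, 14, 13, 16, 21, 20, 9, 5], [0, 1, 2, 3, 4, 23, 11, 7, 15, 22, 10, 6, 12, 18, 17, 8, 19, 14, 13, 16, 21, 20, 9, 5]),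
  ([0, 1, 2, 3, 4, 23, 19, 10, 18, 16, 12, 15, 7, 6, 5, 21, 20, 17, 22, 13, 9, 11, 8, 14], [0, 1, 2, 3, 4, 14, 13, 12, 22, 20, 7, 21, 10, 19, 23, 11, 9, 17, 8, 6, 16, 15, 18, 5]),
  ([0, 1, 2, 3, 4, 23, 20, 12, 6, 13, 7, 18, 10, 15, 14, 9, 11, 5, 16, 22, 8, 19, 21, 17], [0, 1, 2, 3, 4, 17, 8, 10, 20, 15, 12, 16, 7, 9, 14, 13, 18, 23, 11, 21, 6, 22, 19, 5])]

def T2 : List (List ℕ × List ℕ) := [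
  ([0, 2, 4, 7, 1, 5, 11, 3, 17, 19, 12, 22, 10, 6, 21, 23, 20, 13, 9, 18, 15, 16, 8, 14], [0, 4, 1, 7, 2, 5, 13, 3, 22, 18, 12, 6, 10, 17, 23, 20, 21, 8, 19, 9, 16, 14, 11, 15]),
  ([0, 2, 4, 7, 1, 5, 16, 10, 22, 9, 3, 6, 12, 17, 13, 8, 11, 14, 18, 19, 23, 20, 15, 21], [0, 4, 1, 10, 2, 5, 11, 3, 15, 9, 7, 16, 12, 14, 17, 22, 6, 13, 18, 19, 21, 23, 8, 20]),
  ([0, 2, 4, 7, 1, 5, 20, 12, 6, 18, 10, 17, 3, 22, 14, 15, 16, 21, 19, 9, 8, 11, 23, 13], [0, 4, 1, 12, 2, 5, 8, 3, 20, 19, 10, 21, 7, 23, 14, 15, 16, 11, 9, 18, 6, 17, 13, 22]),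
  ([0, 2, 4, 7, 1, 6, 19, 12, 5, 8, 10, 22, 3, 17, 9, 13, 21, 16, 20, 14, 18, 23, 11, 15], [0, 4, 1, 12, 2, 8, 5, 3, 9, 14, 10, 22, 7, 15, 19, 23, 17, 13, 20, 6, 18, 16, 11, 21]),
  ([0, 2, 4, 7, 1, 6, 21, 10, 17, 14, 3, 5, 12, 22, 15, 18, 23, 9, 8, 20, 11, 19, 13, 16], [0, 4, 1, 10, 2, 11, 5, 3, 18, 17, 7, 20, 12, 22, 9, 14, 23, 8, 15, 21, 19, 6, 13, 16]),
  ([0, 2, 4, 7, 1, 6, 23, 3, 22, 20, 12, 17, 10, 5, 16, 11, 19, 15, 14, 8, 13, 21, 18, 9], [0, 4, 1, 7, 2, 13, 5, 3, 19, 23, 12, 15, 10, 20, 18, 17, 14, 11, 22, 16, 9, 21, 8, 6]),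
  ([0, 2, 4, 7, 1, 8, 9, 12, 18, 6, 10, 16, 3, 21, 19, 23, 17, 22, 14, 20, 5, 13, 15, 11], [0, 4, 1, 12, 2, 20, 9, 3, 5, 6, 10, 23, 7, 21, 18, 22, 11, 16, 8, 14, 19, 13, 17, 15]),
  ([0, 2, 4, 7, 1, 8, 13, 3, 16, 14, 12, 21, 10, 18, 22, 15, 9, 11, 20, 6, 23, 17, 5, 19], [0, 4, 1, 7, 2, 22, 19, 3, 5, 16, 12, 17, 10, 6, 9, 15, 8, 21, 13, 23, 18, 11, 14, 20]),
  ([0, 2, 4, 7, 1, 8, 17, 10, 21, 20, 3, 18, 12, 16, 11, 5, 13, 19, 6, 14, 15, 9, 23, 22], [0, 4, 1, 10, 2, 15, 18, 3, 5, 21, 7, 14, 12, 16, 19, 20, 13, 6, 11, 17, 9, 8, 23, 22]),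
  ([0, 2, 4, 7, 1, 9, 8, 12, 14, 19, 10, 11, 3, 23, 6, 21, 13, 15, 18, 5, 20, 17, 22, 16], [0, 4, 1, 12, 2, 19, 14, 3, 6, 5, 10, 11, 7, 16, 8, 17, 23, 21, 18, 9, 20, 15, 22, 13]),
  ([0, 2, 4, 7, 1, 9, 13, 10, 23, 5, 3, 14, 12, 11, 16, 20, 17, 6, 19, 18, 22, 8, 21, 15], [0, 4, 1, 10, 2, 9, 17, 3, 21, 5, 7, 13, 12, 6, 11, 23, 14, 16, 19, 18, 15, 22, 20, 8]),
  ([0, 2, 4, 7, 1, 9, 17, 3, 11, 18, 12, 23, 10, 14, 15, 22, 8, 16, 5, 19, 21, 13, 20, 6], [0, 4, 1, 7, 2, 18, 23, 3, 16, 5, 12, 8, 10, 21, 13, 14, 17, 6, 9, 19, 22, 20, 15, 11]),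
  ([0, 2, 4, 7, 1, 11, 5, 3, 9, 21, 12, 14, 10, 23, 19, 6, 16, 8, 17, 15, 18, 20, 13, 22], [0, 4, 1, 7, 2, 6, 15, 3, 17, 8, 12, 5, 10, 22, 11, 19, 16, 18, 20, 14, 21, 9, 23, 13]),
  ([0, 2, 4, 7, 1, 11, 16, 12, 23, 15, 10, 9, 3, 14, 22, 18, 20, 19, 21, 17, 13, 5, 6, 8], [0, 4, 1, 12, 2, 21, 22, 3, 23, 11, 10, 5, 7, 20, 13, 9, 6, 19, 15, 17, 16, 18, 14, 8]),
  ([0, 2, 4, 7, 1, 11, 20, 10, 14, 17, 3, 23, 12, 9, 8, 13, 5, 22, 15, 21, 6, 16, 18, 19], [0, 4, 1, 10, 2, 16, 20, 3, 14, 13, 7, 5, 12, 15, 8, 18, 21, 9, 22, 23, 6, 19, 17, 11]),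
  ([0, 2, 4, 7, 1, 13, 8, 3, 20, 22, 12, 19, 10, 15, 14, 18, 17, 5, 16, 23, 6, 9, 11, 21], [0, 4, 1, 7, 2, 17, 20, 3, 6, 21, 12, 22, 10, 5, 14, 13, 18, 16, 15, 11, 8, 23, 9, 19]),
  ([0, 2, 4, 7, 1, 13, 9, 10, 19, 16, 3, 15, 12, 20, 5, 11, 8, 21, 23, 22, 18, 17, 6, 14], [0, 4, 1, 10, 2, 14, 22, 3, 16, 6, 7, 15, 12, 5, 23, 11, 9, 21, 20, 8, 13, 17, 19, 18]),
  ([0, 2, 4, 7, 1, 13, 17, 12, 15, 23, 10, 20, 3, 19, 21, 6, 9, 14, 22, 16, 11, 8, 18, 5], [0, 4, 1, 12, 2, 23, 15, 3, 21, 16, 10, 20, 7, 5, 17, 8, 19, 6, 22, 13, 11, 14, 18, 9]),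
  ([0, 2, 4, 7, 1, 14, 15, 10, 11, 6, 3, 9, 12, 23, 21, 19, 22, 5, 20, 8, 17, 18, 16, 13], [0, 4, 1, 10, 2, 17, 9, 3, 19, 11, 7, 8, 12, 23, 5, 6, 22, 20, 21, 15, 18, 14, 16, 13]),
  ([0, 2, 4, 7, 1, 14, 18, 12, 9, 20, 10, 23, 3, 11, 5, 16, 15, 13, 8, 6, 19, 22, 17, 21], [0, 4, 1, 12, 2, 14, 19, 3, 18, 8, 10, 13, 7, 17, 5, 16, 15, 22, 6, 20, 9, 23, 21, 11]),
  ([0, 2, 4, 7, 1, 14, 22, 3, 23, 8, 12, 11, 10, 9, 13, 17, 18, 21, 6, 20, 16, 15, 19, 5], [0, 4, 1, 7, 2, 23, 18, 3, 9, 13, 12, 11, 10, 14, 5, 21, 20, 15, 16, 22, 19, 17, 6, 8]),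
  ([0, 2, 4, 7, 1, 15, 14, 10, 20, 21, 3, 13, 12, 19, 6, 23, 18, 16, 11, 17, 8, 22, 5, 9], [0, 4, 1, 10, 2, 22, 14, 3, 20, 23, 7, 18, 12, 11, 6, 5, 17, 19, 16, 13, 8, 9, 21, 15]),
  ([0, 2, 4, 7, 1, 15, 18, 3, 19, 17, 12, 20, 10, 13, 9, 8, 22, 6, 21, 11, 5, 14, 23, 16], [0, 4, 1, 7, 2, 20, 17, 3, 15, 14, 12, 19, 10, 13, 21, 5, 23, 9, 6, 8, 11, 18, 16, 22]),
  ([0, 2, 4, 7, 1, 15, 22, 12, 13, 11, 10, 19, 3, 20, 16, 5, 14, 9, 17, 21, 23, 18, 8, 6], [0, 4, 1, 12, 2, 15, 23, 3, 22, 17, 10, 9, 7, 8, 16, 5, 14, 18, 21, 11, 13, 19, 6, 20]),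
  ([0, 2, 4, 7, 1, 16, 5, 10, 18, 13, 3, 21, 12, 8, 9, 17, 20, 15, 22, 23, 19, 11, 14, 6], [0, 4, 1, 10, 2, 6, 23, 3, 13, 14, 7, 21, 12, 9, 22, 17, 5, 15, 8, 20, 16, 11, 18, 19]),
  ([0, 2, 4, 7, 1, 16, 11, 12, 21, 22, 10, 8, 3, 18, 15, 14, 5, 6, 23, 13, 17, 20, 19, 9], [0, 4, 1, 12, 2, 16, 17, 3, 11, 23, 10, 6, 7, 19, 15, 14, 5, 20, 13, 22, 21, 8, 9, 18]),
  ([0, 2, 4, 7, 1, 16, 20, 3, 8, 23, 12, 18, 10, 21, 6, 19, 11, 9, 13, 22, 14, 5, 17, 15], [0, 4, 1, 7, 2, 21, 14, 3, 8, 17, 12, 16, 10, 18, 20, 23, 5, 22, 11, 15, 6, 13, 19, 9]),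
  ([0, 2, 4, 7, 1, 17, 8, 10, 6, 11, 3, 22, 12, 5, 20, 16, 9, 23, 21, 15, 14, 13, 19, 18], [0, 4, 1, 10, 2, 13, 8, 3, 6, 16, 7, 9, 12, 21, 20, 19, 15, 5, 23, 22, 14, 18, 11, 17]),
  ([0, 2, 4, 7, 1, 17, 9, 3, 5, 15, 12, 6, 10, 22, 18, 14, 13, 20, 11, 21, 19, 8, 16, 23], [0, 4, 1, 7, 2, 8, 11, 3, 21, 6, 12, 18, 10, 16, 15, 9, 22, 5, 14, 20, 17, 19, 13, 23]),
  ([0, 2, 4, 7, 1, 17, 13, 12, 22, 21, 10, 5, 3, 6, 23, 19, 8, 18, 15, 11, 16, 9, 14, 20], [0, 4, 1, 12, 2, 11, 13, 3, 16, 21, 10, 19, 7, 6, 22, 18, 20, 5, 17, 15, 23, 9, 8, 14]),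
  ([0, 2, 4, 7, 1, 18, 14, 12, 8, 5, 10, 21, 3, 16, 20, 11, 22, 17, 9, 19, 6, 15, 13, 23], [0, 4, 1, 12, 2, 9, 20, 3, 8, 18, 10, 15, 7, 22, 6, 21, 13, 17, 5, 19, 14, 11, 16, 23]),
  ([0, 2, 4, 7, 1, 18, 15, 3, 21, 9, 12, 16, 10, 8, 17, 13, 14, 23, 19, 5, 11, 22, 6, 20], [0, 4, 1, 7, 2, 19, 22, 3, 13, 9, 12, 20, 10, 15, 16, 6, 11, 14, 5, 18, 23, 8, 21, 17]),
  ([0, 2, 4, 7, 1, 18, 22, 10, 16, 19, 3, 8, 12, 21, 23, 6, 15, 20, 5, 9, 13, 14, 11, 17], [0, 4, 1, 10, 2, 18, 15, 3, 11, 19, 7, 22, 12, 20, 21, 16, 8, 23, 5, 9, 17, 13, 6, 14]),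
  ([0, 2, 4, 7, 1, 19, 6, 12, 20, 9, 10, 15, 3, 13, 8, 17, 23, 11, 5, 18, 14, 21, 16, 22], [0, 4, 1, 12, 2, 18, 6, 3, 14, 9, 10, 17, 7, 13, 20, 11, 22, 15, 19, 5, 8, 21, 23, 16]),
  ([0, 2, 4, 7, 1, 19, 21, 3, 15, 5, 12, 13, 10, 20, 11, 16, 6, 22, 18, 9, 17, 23, 14, 8], [0, 4, 1, 7, 2, 9, 16, 3, 23, 19, 12, 14, 10, 11, 22, 8, 15, 20, 18, 5, 13, 6, 17, 21]),
  ([0, 2, 4, 7, 1, 19, 23, 10, 13, 18, 3, 20, 12, 15, 22, 14, 21, 8, 9, 5, 16, 6, 17, 11], [0, 4, 1, 10, 2, 19, 21, 3, 17, 18, 7, 23, 12, 8, 15, 13, 20, 22, 9, 5, 11, 16, 14, 6]),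
  ([0, 2, 4, 7, 1, 20, 5, 12, 19, 14, 10, 13, 3, 15, 18, 22, 11, 23, 6, 8, 9, 16, 21, 17], [0, 4, 1, 12, 2, 6, 18, 3, 19, 20, 10, 16, 7, 11, 9, 13, 21, 23, 14, 8, 5, 22, 15, 17]),
  ([0, 2, 4, 7, 1, 20, 11, 10, 15, 8, 3, 19, 12, 13, 17, 9, 16, 18, 14, 6, 21, 5, 22, 23], [0, 4, 1, 10, 2, 21, 19, 3, 9, 15, 7, 6, 12, 13, 18, 8, 16, 14, 17, 11, 5, 20, 22, 23]),
  ([0, 2, 4, 7, 1, 20, 16, 3, 13, 6, 12, 15, 10, 19, 23, 21, 5, 17, 8, 14, 22, 11, 9, 18], [0, 4, 1, 7, 2, 16, 9, 3, 18, 22, 12, 21, 10, 8, 19, 11, 6, 17, 23, 13, 5, 15, 20, 14]),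
  ([0, 2, 4, 7, 1, 21, 6, 10, 8, 15, 3, 16, 12, 18, 14, 22, 19, 13, 17, 11, 20, 23, 9, 5], [0, 4, 1, 10, 2, 23, 6, 3, 8, 22, 7, 19, 12, 17, 14, 9, 11, 18, 13, 16, 20, 5, 15, 21]),
  ([0, 2, 4, 7, 1, 21, 19, 3, 18, 11, 12, 8, 10, 16, 5, 20, 23, 14, 15, 17, 9, 6, 22, 13], [0, 4, 1, 7, 2, 14, 21, 3, 11, 20, 12, 9, 10, 23, 17, 18, 13, 19, 8, 6, 15, 5, 22, 16]),
  ([0, 2, 4, 7, 1, 21, 23, 12, 16, 17, 10, 18, 3, 8, 13, 9, 6, 5, 11, 15, 22, 19, 20, 14], [0, 4, 1, 12, 2, 17, 16, 3, 13, 15, 10, 18, 7, 14, 23, 19, 8, 9, 11, 21, 22, 5, 20, 6]),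
  ([0, 2, 4, 7, 1, 22, 14, 3, 6, 13, 12, 5, 10, 17, 8, 9, 15, 19, 23, 16, 20, 18, 21, 11], [0, 4, 1, 7, 2, 11, 8, 3, 14, 15, 12, 23, 10, 9, 6, 16, 19, 13, 21, 17, 20, 22, 5, 18]),
  ([0, 2, 4, 7, 1, 22, 15, 12, 17, 16, 10, 6, 3, 5, 11, 20, 18, 8, 13, 23, 21, 14, 9, 19], [0, 4, 1, 12, 2, 13, 11, 3, 17, 22, 10, 14, 7, 18, 21, 6, 9, 8, 16, 23, 15, 20, 5, 19]),
  ([0, 2, 4, 7, 1, 22, 18, 10, 5, 23, 3, 17, 12, 6, 19, 21, 14, 11, 16, 13, 9, 15, 20, 8], [0, 4, 1, 10, 2, 8, 13, 3, 23, 20, 7, 17, 12, 19, 16, 21, 18, 11, 6, 14, 22, 15, 5, 9]),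
  ([0, 2, 4, 7, 1, 23, 6, 3, 14, 16, 12, 9, 10, 11, 20, 5, 21, 18, 22, 13, 8, 19, 15, 17], [0, 4, 1, 7, 2, 15, 6, 3, 20, 11, 12, 13, 10, 19, 8, 22, 9, 23, 17, 21, 14, 16, 18, 5]),
  ([0, 2, 4, 7, 1, 23, 19, 10, 9, 22, 3, 11, 12, 14, 18, 15, 6, 17, 13, 16, 5, 21, 8, 20], [0, 4, 1, 10, 2, 20, 16, 3, 22, 8, 7, 11, 12, 18, 13, 15, 19, 17, 14, 6, 23, 21, 9, 5]),
  ([0, 2, 4, 7, 1, 23, 21, 12, 11, 13, 10, 14, 3, 9, 17, 8, 19, 20, 16, 22, 15, 6, 5, 18], [0, 4, 1, 12, 2, 22, 21, 3, 15, 13, 10, 8, 7, 9, 11, 20, 18, 14, 23, 16, 17, 6, 19, 5])]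

def T3 : List (List ℕ × List ℕ) := [
  ([0, 3, 7, 2, 12, 5, 11, 1, 20, 15, 10, 13, 4, 17, 18, 9, 19, 6, 16, 14, 22, 21, 23, 8], [0, 7, 3, 1, 12, 5, 17, 2, 23, 15, 10, 6, 4, 11, 19, 9, 18, 13, 14, 16, 8, 21, 20, 22]),
  ([0, 3, 7, 2, 12, 5, 19, 10, 17, 14, 4, 20, 1, 13, 8, 22, 21, 18, 15, 16, 23, 11, 9, 6], [0, 12, 3, 1, 10, 5, 23, 2, 14, 22, 7, 21, 4, 13, 9, 18, 19, 8, 17, 6, 11, 16, 15, 20]),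
  ([0, 3, 7, 2, 12, 5, 21, 4, 13, 16, 1, 17, 10, 20, 6, 23, 11, 8, 14, 15, 9, 19, 22, 18], [0, 10, 3, 1, 7, 5, 14, 2, 17, 20, 12, 16, 4, 8, 18, 19, 9, 11, 23, 21, 13, 6, 22, 15]),
  ([0, 3, 7, 2, 12, 6, 16, 4, 15, 21, 1, 22, 10, 19, 5, 11, 23, 18, 9, 13, 14, 20, 17, 8], [0, 10, 3, 1, 7, 14, 5, 2, 23, 18, 12, 15, 4, 19, 20, 8, 6, 22, 17, 13, 21, 9, 11, 16]),
  ([0, 3, 7, 2, 12, 6, 20, 10, 22, 9, 4, 19, 1, 15, 18, 17, 16, 8, 13, 21, 11, 23, 14, 5], [0, 12, 3, 1, 10, 23, 5, 2, 17, 9, 7, 20, 4, 18, 22, 13, 16, 15, 14, 11, 6, 19, 8, 21]),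
  ([0, 3, 7, 2, 12, 6, 23, 1, 19, 13, 10, 15, 4, 22, 8, 14, 20, 5, 21, 9, 17, 16, 11, 18], [0, 7, 3, 1, 12, 17, 5, 2, 14, 19, 10, 22, 4, 9, 15, 11, 21, 20, 23, 8, 16, 18, 13, 6]),
  ([0, 3, 7, 2, 12, 8, 13, 1, 9, 23, 10, 11, 4, 16, 6, 20, 14, 18, 17, 19, 21, 22, 15, 5], [0, 7, 3, 1, 12, 23, 14, 2, 5, 8, 10, 11, 4, 6, 16, 22, 13, 18, 17, 19, 15, 20, 21, 9]),
  ([0, 3, 7, 2, 12, 8, 14, 10, 16, 19, 4, 9, 1, 11, 5, 21, 22, 6, 23, 17, 15, 13, 20, 18], [0, 12, 3, 1, 10, 14, 17, 2, 5, 11, 7, 13, 4, 21, 6, 20, 8, 19, 23, 9, 22, 15, 16, 18]),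
  ([0, 3, 7, 2, 12, 8, 22, 4, 11, 17, 1, 16, 10, 9, 18, 15, 13, 5, 19, 23, 20, 14, 21, 6], [0, 10, 3, 1, 7, 17, 23, 2, 5, 13, 12, 8, 4, 16, 21, 15, 11, 9, 14, 18, 20, 22, 6, 19]),
  ([0, 3, 7, 2, 12, 9, 15, 4, 16, 13, 1, 11, 10, 8, 14, 22, 17, 20, 6, 21, 5, 18, 23, 19], [0, 10, 3, 1, 7, 20, 18, 2, 13, 5, 12, 11, 4, 9, 14, 6, 8, 16, 21, 23, 17, 19, 15, 22]),
  ([0, 3, 7, 2, 12, 9, 17, 1, 8, 21, 10, 16, 4, 11, 19, 5, 18, 14, 13, 6, 23, 15, 22, 20], [0, 7, 3, 1, 12, 15, 19, 2, 8, 5, 10, 13, 4, 18, 17, 21, 11, 6, 16, 14, 23, 9, 22, 20]),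
  ([0, 3, 7, 2, 12, 9, 18, 10, 11, 6, 4, 8, 1, 16, 20, 23, 15, 19, 21, 13, 22, 17, 5, 14], [0, 12, 3, 1, 10, 22, 9, 2, 11, 5, 7, 8, 4, 19, 23, 16, 13, 21, 6, 17, 14, 18, 20, 15]),
  ([0, 3, 7, 2, 12, 11, 5, 1, 16, 18, 10, 8, 4, 9, 15, 17, 21, 23, 20, 22, 14, 19, 6, 13], [0, 7, 3, 1, 12, 6, 22, 2, 11, 13, 10, 5, 4, 23, 20, 14, 8, 15, 9, 21, 18, 16, 19, 17]),
  ([0, 3, 7, 2, 12, 11, 19, 4, 8, 20, 1, 9, 10, 16, 23, 6, 5, 13, 22, 18, 17, 21, 14, 15], [0, 10, 3, 1, 7, 16, 15, 2, 8, 11, 12, 5, 4, 17, 22, 23, 13, 20, 19, 6, 9, 21, 18, 14]),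
  ([0, 3, 7, 2, 12, 11, 21, 10, 9, 22, 4, 16, 1, 8, 13, 14, 19, 15, 18, 20, 6, 5, 17, 23], [0, 12, 3, 1, 10, 21, 20, 2, 13, 8, 7, 5, 4, 14, 15, 17, 11, 22, 18, 16, 19, 6, 9, 23]),
  ([0, 3, 7, 2, 12, 13, 8, 1, 17, 6, 10, 5, 4, 20, 23, 16, 22, 15, 9, 21, 19, 14, 18, 11], [0, 7, 3, 1, 12, 11, 9, 2, 6, 18, 10, 23, 4, 5, 21, 17, 15, 8, 22, 20, 13, 19, 16, 14]),
  ([0, 3, 7, 2, 12, 13, 14, 4, 5, 9, 1, 20, 10, 17, 15, 18, 8, 11, 21, 6, 16, 22, 19, 23], [0, 10, 3, 1, 7, 8, 19, 2, 16, 9, 12, 17, 4, 5, 6, 14, 20, 13, 15, 22, 11, 18, 21, 23]),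
  ([0, 3, 7, 2, 12, 13, 22, 10, 20, 21, 4, 17, 1, 5, 11, 19, 14, 23, 6, 9, 18, 8, 16, 15], [0, 12, 3, 1, 10, 13, 18, 2, 21, 19, 7, 14, 4, 5, 16, 23, 22, 11, 20, 15, 8, 9, 6, 17]),
  ([0, 3, 7, 2, 12, 14, 8, 10, 23, 5, 4, 18, 1, 21, 19, 11, 13, 20, 16, 15, 17, 22, 6, 9], [0, 12, 3, 1, 10, 9, 22, 2, 6, 23, 7, 15, 4, 16, 5, 19, 18, 20, 11, 14, 17, 13, 21, 8]),
  ([0, 3, 7, 2, 12, 14, 13, 4, 21, 15, 1, 23, 10, 18, 9, 17, 22, 19, 5, 16, 6, 8, 11, 20], [0, 10, 3, 1, 7, 18, 20, 2, 21, 14, 12, 22, 4, 6, 5, 9, 19, 15, 13, 17, 23, 8, 16, 11]),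
  ([0, 3, 7, 2, 12, 14, 22, 1, 18, 16, 10, 21, 4, 23, 20, 6, 8, 9, 15, 5, 11, 13, 17, 19], [0, 7, 3, 1, 12, 19, 15, 2, 16, 17, 10, 20, 4, 21, 5, 18, 9, 22, 8, 23, 14, 11, 6, 13]),
  ([0, 3, 7, 2, 12, 15, 9, 4, 6, 14, 1, 19, 10, 22, 13, 8, 18, 23, 16, 5, 21, 17, 20, 11], [0, 10, 3, 1, 7, 19, 8, 2, 15, 6, 12, 23, 4, 14, 9, 5, 18, 21, 16, 11, 22, 20, 13, 17]),
  ([0, 3, 7, 2, 12, 15, 17, 10, 19, 16, 4, 22, 1, 6, 23, 20, 9, 11, 5, 14, 8, 18, 21, 13], [0, 12, 3, 1, 10, 18, 13, 2, 20, 16, 7, 17, 4, 23, 19, 5, 9, 6, 21, 8, 15, 22, 11, 14]),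
  ([0, 3, 7, 2, 12, 15, 18, 1, 22, 5, 10, 6, 4, 19, 11, 21, 17, 13, 14, 16, 20, 9, 8, 23], [0, 7, 3, 1, 12, 9, 11, 2, 22, 21, 10, 14, 4, 17, 18, 5, 19, 16, 6, 13, 20, 15, 8, 23]),
  ([0, 3, 7, 2, 12, 16, 6, 4, 9, 5, 1, 8, 10, 11, 21, 19, 20, 17, 15, 14, 13, 23, 18, 22], [0, 10, 3, 1, 7, 9, 6, 2, 11, 8, 12, 13, 4, 20, 19, 18, 5, 17, 22, 15, 16, 14, 23, 21]),
  ([0, 3, 7, 2, 12, 16, 20, 1, 11, 14, 10, 9, 4, 8, 22, 13, 23, 21, 5, 15, 18, 6, 19, 17], [0, 7, 3, 1, 12, 18, 21, 2, 13, 11, 10, 8, 4, 15, 9, 19, 5, 23, 20, 22, 6, 17, 14, 16]),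
  ([0, 3, 7, 2, 12, 16, 23, 10, 8, 15, 4, 11, 1, 9, 17, 18, 6, 22, 14, 5, 19, 20, 13, 21], [0, 12, 3, 1, 10, 19, 16, 2, 8, 13, 7, 11, 4, 22, 18, 9, 5, 14, 15, 20, 21, 23, 17, 6]),
  ([0, 3, 7, 2, 12, 17, 9, 1, 13, 19, 10, 20, 4, 5, 21, 11, 15, 22, 8, 23, 6, 18, 14, 16], [0, 7, 3, 1, 12, 13, 20, 2, 18, 6, 10, 15, 4, 8, 22, 16, 23, 5, 21, 9, 11, 14, 17, 19]),
  ([0, 3, 7, 2, 12, 17, 15, 10, 5, 23, 4, 13, 1, 20, 16, 6, 18, 21, 19, 8, 14, 9, 11, 22], [0, 12, 3, 1, 10, 8, 15, 2, 19, 21, 7, 22, 4, 11, 20, 6, 14, 5, 16, 18, 13, 17, 23, 9]),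
  ([0, 3, 7, 2, 12, 17, 18, 4, 20, 8, 1, 5, 10, 13, 22, 14, 9, 16, 23, 19, 11, 15, 6, 21], [0, 10, 3, 1, 7, 11, 22, 2, 9, 16, 12, 20, 4, 13, 15, 21, 17, 5, 6, 19, 8, 23, 14, 18]),
  ([0, 3, 7, 2, 12, 18, 9, 10, 21, 20, 4, 14, 1, 23, 6, 16, 17, 5, 11, 22, 13, 15, 19, 8], [0, 12, 3, 1, 10, 17, 14, 2, 23, 6, 7, 18, 4, 20, 11, 21, 15, 16, 5, 22, 9, 8, 19, 13]),
  ([0, 3, 7, 2, 12, 18, 15, 1, 14, 11, 10, 23, 4, 21, 5, 19, 9, 8, 22, 20, 16, 17, 13, 6], [0, 7, 3, 1, 12, 14, 23, 2, 17, 16, 10, 9, 4, 22, 8, 6, 20, 21, 5, 15, 19, 13, 18, 11]),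
  ([0, 3, 7, 2, 12, 18, 17, 4, 23, 22, 1, 21, 10, 14, 8, 13, 15, 6, 20, 11, 19, 9, 16, 5], [0, 10, 3, 1, 7, 23, 17, 2, 14, 21, 12, 19, 4, 15, 13, 16, 22, 6, 5, 20, 18, 11, 9, 8]),
  ([0, 3, 7, 2, 12, 19, 5, 10, 15, 8, 4, 6, 1, 22, 14, 13, 11, 9, 17, 23, 16, 21, 18, 20], [0, 12, 3, 1, 10, 6, 11, 2, 9, 17, 7, 16, 4, 15, 14, 8, 20, 18, 22, 5, 23, 21, 13, 19]),
  ([0, 3, 7, 2, 12, 19, 11, 4, 22, 23, 1, 15, 10, 6, 20, 16, 21, 14, 8, 17, 18, 5, 13, 9], [0, 10, 3, 1, 7, 21, 13, 2, 18, 23, 12, 6, 4, 22, 17, 11, 15, 19, 20, 5, 14, 16, 8, 9]),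
  ([0, 3, 7, 2, 12, 19, 21, 1, 6, 17, 10, 22, 4, 15, 9, 18, 5, 20, 23, 8, 13, 11, 16, 14], [0, 7, 3, 1, 12, 16, 8, 2, 19, 14, 10, 21, 4, 20, 23, 13, 22, 9, 15, 5, 17, 6, 11, 18]),
  ([0, 3, 7, 2, 12, 20, 6, 10, 13, 18, 4, 5, 1, 17, 9, 15, 23, 14, 22, 11, 21, 16, 8, 19], [0, 12, 3, 1, 10, 11, 6, 2, 22, 14, 7, 19, 4, 8, 17, 15, 21, 13, 9, 23, 5, 20, 18, 16]),
  ([0, 3, 7, 2, 12, 20, 16, 1, 5, 22, 10, 17, 4, 13, 14, 8, 6, 19, 11, 18, 15, 23, 21, 9], [0, 7, 3, 1, 12, 8, 16, 2, 15, 23, 10, 18, 4, 13, 14, 20, 6, 11, 19, 17, 5, 22, 9, 21]),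
  ([0, 3, 7, 2, 12, 20, 23, 4, 17, 11, 1, 13, 10, 5, 19, 21, 16, 9, 18, 22, 8, 6, 15, 14], [0, 10, 3, 1, 7, 13, 21, 2, 20, 17, 12, 9, 4, 11, 23, 22, 16, 8, 18, 14, 5, 15, 19, 6]),
  ([0, 3, 7, 2, 12, 21, 5, 4, 14, 6, 1, 18, 10, 23, 16, 20, 19, 22, 13, 9, 15, 11, 8, 17], [0, 10, 3, 1, 7, 6, 9, 2, 22, 19, 12, 21, 4, 18, 8, 20, 14, 23, 11, 16, 15, 5, 17, 13]),
  ([0, 3, 7, 2, 12, 21, 11, 10, 18, 13, 4, 23, 1, 14, 22, 8, 5, 17, 9, 6, 20, 19, 15, 16], [0, 12, 3, 1, 10, 16, 19, 2, 15, 18, 7, 6, 4, 9, 13, 22, 23, 17, 8, 21, 20, 5, 14, 11]),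
  ([0, 3, 7, 2, 12, 21, 19, 1, 23, 9, 10, 14, 4, 18, 17, 15, 11, 16, 6, 13, 8, 5, 20, 22], [0, 7, 3, 1, 12, 21, 18, 2, 20, 9, 10, 16, 4, 19, 11, 15, 17, 14, 13, 6, 22, 5, 23, 8]),
  ([0, 3, 7, 2, 12, 22, 8, 4, 19, 18, 1, 6, 10, 15, 17, 9, 14, 21, 11, 20, 23, 13, 5, 16], [0, 10, 3, 1, 7, 22, 11, 2, 6, 15, 12, 18, 4, 21, 16, 13, 23, 14, 9, 8, 19, 17, 5, 20]),
  ([0, 3, 7, 2, 12, 22, 13, 10, 6, 11, 4, 15, 1, 19, 21, 5, 8, 16, 20, 18, 9, 14, 23, 17], [0, 12, 3, 1, 10, 15, 8, 2, 16, 20, 7, 9, 4, 6, 21, 11, 17, 23, 19, 13, 18, 14, 5, 22]),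
  ([0, 3, 7, 2, 12, 22, 14, 1, 15, 20, 10, 19, 4, 6, 16, 23, 13, 17, 18, 11, 5, 8, 9, 21], [0, 7, 3, 1, 12, 20, 13, 2, 21, 22, 10, 19, 4, 16, 6, 8, 14, 17, 18, 11, 9, 23, 5, 15]),
  ([0, 3, 7, 2, 12, 23, 6, 1, 21, 8, 10, 18, 4, 14, 13, 22, 16, 11, 19, 17, 9, 20, 5, 15], [0, 7, 3, 1, 12, 22, 6, 2, 9, 20, 10, 17, 4, 14, 13, 23, 16, 19, 11, 18, 21, 8, 15, 5]),
  ([0, 3, 7, 2, 12, 23, 16, 10, 14, 17, 4, 21, 1, 18, 15, 9, 20, 13, 8, 19, 5, 6, 22, 11], [0, 12, 3, 1, 10, 20, 21, 2, 18, 15, 7, 23, 4, 17, 8, 14, 6, 9, 13, 19, 16, 11, 22, 5]),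
  ([0, 3, 7, 2, 12, 23, 20, 4, 18, 19, 1, 14, 10, 21, 11, 5, 6, 15, 17, 8, 22, 16, 9, 13], [0, 10, 3, 1, 7, 15, 16, 2, 19, 22, 12, 14, 4, 23, 11, 17, 21, 18, 8, 9, 6, 13, 20, 5])]

def T4 : List (List ℕ × List ℕ) := [
  ([0, 4, 1, 12, 2, 5, 8, 3, 20, 19, 10, 21, 7, 23, 14, 15, 16, 11, 9, 18, 6, 17, 13, 22], [0, 2, 4, 7, 1, 5, 20, 12, 6, 18, 10, 17, 3, 22, 14, 15, 16, 21, 19, 9, 8, 11, 23, 13]),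
  ([0, 4, 1, 12, 2, 5, 16, 10, 23, 18, 7, 20, 3, 21, 22, 6, 17, 14, 19, 9, 13, 8, 15, 11], [0, 2, 4, 12, 1, 5, 15, 10, 21, 19, 7, 23, 3, 20, 17, 22, 6, 16, 9, 18, 11, 13, 14, 8]),
  ([0, 4, 1, 12, 2, 5, 17, 7, 21, 9, 3, 23, 10, 20, 11, 13, 8, 22, 18, 19, 15, 16, 6, 14], [0, 2, 4, 10, 1, 5, 22, 7, 16, 9, 12, 14, 3, 15, 23, 20, 21, 6, 18, 19, 13, 8, 17, 11]),
  ([0, 4, 1, 12, 2, 6, 18, 3, 19, 20, 10, 16, 7, 11, 9, 13, 21, 23, 14, 8, 5, 22, 15, 17], [0, 2, 4, 7, 1, 20, 5, 12, 19, 14, 10, 13, 3, 15, 18, 22, 11, 23, 6, 8, 9, 16, 21, 17]),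
  ([0, 4, 1, 12, 2, 6, 21, 10, 11, 8, 7, 19, 3, 16, 17, 5, 22, 9, 20, 14, 15, 18, 13, 23], [0, 2, 4, 12, 1, 15, 5, 10, 9, 17, 7, 8, 3, 22, 19, 20, 13, 14, 21, 11, 18, 6, 16, 23]),
  ([0, 4, 1, 12, 2, 6, 22, 7, 16, 14, 3, 11, 10, 19, 23, 15, 18, 17, 8, 20, 13, 21, 5, 9], [0, 2, 4, 10, 1, 22, 5, 7, 18, 23, 12, 11, 3, 20, 9, 15, 8, 17, 16, 13, 19, 21, 6, 14]),
  ([0, 4, 1, 12, 2, 8, 5, 3, 9, 14, 10, 22, 7, 15, 19, 23, 17, 13, 20, 6, 18, 16, 11, 21], [0, 2, 4, 7, 1, 6, 19, 12, 5, 8, 10, 22, 3, 17, 9, 13, 21, 16, 20, 14, 18, 23, 11, 15]),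
  ([0, 4, 1, 12, 2, 8, 16, 7, 22, 20, 3, 15, 10, 9, 13, 11, 5, 21, 6, 14, 23, 17, 18, 19], [0, 2, 4, 10, 1, 16, 18, 7, 5, 13, 12, 15, 3, 14, 19, 11, 6, 21, 22, 23, 9, 17, 8, 20]),
  ([0, 4, 1, 12, 2, 8, 17, 10, 15, 6, 7, 9, 3, 22, 21, 18, 16, 19, 14, 20, 11, 5, 23, 13], [0, 2, 4, 12, 1, 21, 9, 10, 5, 11, 7, 20, 3, 23, 18, 8, 16, 6, 15, 17, 19, 14, 13, 22]),
  ([0, 4, 1, 12, 2, 9, 11, 7, 15, 5, 3, 22, 10, 8, 17, 16, 20, 23, 19, 18, 21, 13, 14, 6], [0, 2, 4, 10, 1, 9, 23, 7, 13, 5, 12, 6, 3, 21, 22, 8, 15, 14, 19, 18, 16, 20, 11, 17]),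
  ([0, 4, 1, 12, 2, 9, 13, 10, 22, 19, 7, 8, 3, 15, 23, 14, 11, 6, 18, 5, 16, 20, 21, 17], [0, 2, 4, 12, 1, 19, 17, 10, 11, 5, 7, 16, 3, 6, 15, 13, 20, 23, 18, 9, 21, 22, 8, 14]),
  ([0, 4, 1, 12, 2, 9, 20, 3, 8, 18, 10, 15, 7, 22, 6, 21, 13, 17, 5, 19, 14, 11, 16, 23], [0, 2, 4, 7, 1, 18, 14, 12, 8, 5, 10, 21, 3, 16, 20, 11, 22, 17, 9, 19, 6, 15, 13, 23]),
  ([0, 4, 1, 12, 2, 11, 9, 7, 19, 17, 3, 6, 10, 16, 5, 8, 13, 14, 15, 21, 18, 20, 23, 22], [0, 2, 4, 10, 1, 14, 11, 7, 15, 6, 12, 5, 3, 16, 17, 18, 13, 9, 20, 8, 21, 19, 23, 22]),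
  ([0, 4, 1, 12, 2, 11, 13, 3, 16, 21, 10, 19, 7, 6, 22, 18, 20, 5, 17, 15, 23, 9, 8, 14], [0, 2, 4, 7, 1, 17, 13, 12, 22, 21, 10, 5, 3, 6, 23, 19, 8, 18, 15, 11, 16, 9, 14, 20]),
  ([0, 4, 1, 12, 2, 11, 20, 10, 6, 15, 7, 16, 3, 19, 14, 23, 9, 22, 21, 17, 8, 13, 18, 5], [0, 2, 4, 12, 1, 23, 8, 10, 20, 16, 7, 5, 3, 21, 14, 9, 11, 19, 22, 13, 6, 18, 17, 15]),
  ([0, 4, 1, 12, 2, 13, 9, 10, 18, 23, 7, 17, 3, 14, 19, 15, 20, 21, 22, 16, 5, 11, 6, 8], [0, 2, 4, 12, 1, 20, 22, 10, 23, 6, 7, 21, 3, 5, 13, 15, 19, 11, 8, 14, 16, 17, 18, 9]),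
  ([0, 4, 1, 12, 2, 13, 11, 3, 17, 22, 10, 14, 7, 18, 21, 6, 9, 8, 16, 23, 15, 20, 5, 19], [0, 2, 4, 7, 1, 22, 15, 12, 17, 16, 10, 6, 3, 5, 11, 20, 18, 8, 13, 23, 21, 14, 9, 19]),
  ([0, 4, 1, 12, 2, 13, 20, 7, 14, 16, 3, 18, 10, 17, 8, 5, 11, 19, 23, 22, 6, 9, 15, 21], [0, 2, 4, 10, 1, 15, 20, 7, 14, 21, 12, 16, 3, 5, 8, 22, 9, 13, 11, 17, 6, 23, 19, 18]),
  ([0, 4, 1, 12, 2, 14, 15, 10, 17, 20, 7, 18, 3, 13, 11, 9, 23, 5, 8, 6, 21, 19, 16, 22], [0, 2, 4, 12, 1, 17, 19, 10, 18, 15, 7, 14, 3, 13, 5, 6, 22, 8, 11, 21, 9, 20, 23, 16]),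
  ([0, 4, 1, 12, 2, 14, 19, 3, 18, 8, 10, 13, 7, 17, 5, 16, 15, 22, 6, 20, 9, 23, 21, 11], [0, 2, 4, 7, 1, 14, 18, 12, 9, 20, 10, 23, 3, 11, 5, 16, 15, 13, 8, 6, 19, 22, 17, 21]),
  ([0, 4, 1, 12, 2, 14, 23, 7, 13, 6, 3, 17, 10, 18, 22, 21, 19, 11, 20, 8, 16, 15, 9, 5], [0, 2, 4, 10, 1, 23, 9, 7, 19, 22, 12, 17, 3, 8, 5, 21, 20, 11, 13, 16, 18, 15, 14, 6]),
  ([0, 4, 1, 12, 2, 15, 14, 10, 8, 11, 7, 22, 3, 9, 20, 13, 19, 16, 17, 21, 6, 23, 5, 18], [0, 2, 4, 12, 1, 22, 20, 10, 8, 13, 7, 9, 3, 15, 6, 5, 17, 18, 23, 16, 14, 19, 11, 21]),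
  ([0, 4, 1, 12, 2, 15, 19, 7, 9, 21, 3, 8, 10, 22, 18, 6, 23, 20, 11, 17, 5, 14, 13, 16], [0, 2, 4, 10, 1, 20, 15, 7, 11, 8, 12, 18, 3, 22, 21, 5, 23, 19, 14, 6, 17, 9, 13, 16]),
  ([0, 4, 1, 12, 2, 15, 23, 3, 22, 17, 10, 9, 7, 8, 16, 5, 14, 18, 21, 11, 13, 19, 6, 20], [0, 2, 4, 7, 1, 15, 22, 12, 13, 11, 10, 19, 3, 20, 16, 5, 14, 9, 17, 21, 23, 18, 8, 6]),
  ([0, 4, 1, 12, 2, 16, 5, 10, 19, 22, 7, 11, 3, 6, 18, 21, 8, 15, 23, 13, 9, 17, 14, 20], [0, 2, 4, 12, 1, 6, 13, 10, 16, 20, 7, 11, 3, 19, 22, 17, 5, 21, 14, 8, 23, 15, 9, 18]),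
  ([0, 4, 1, 12, 2, 16, 8, 7, 6, 13, 3, 19, 10, 11, 20, 9, 17, 18, 22, 23, 14, 5, 21, 15], [0, 2, 4, 10, 1, 21, 8, 7, 6, 15, 12, 13, 3, 9, 20, 23, 5, 16, 17, 11, 14, 22, 18, 19]),
  ([0, 4, 1, 12, 2, 16, 17, 3, 11, 23, 10, 6, 7, 19, 15, 14, 5, 20, 13, 22, 21, 8, 9, 18], [0, 2, 4, 7, 1, 16, 11, 12, 21, 22, 10, 8, 3, 18, 15, 14, 5, 6, 23, 13, 17, 20, 19, 9]),
  ([0, 4, 1, 12, 2, 17, 5, 7, 18, 11, 3, 14, 10, 13, 9, 20, 16, 6, 21, 15, 19, 8, 22, 23], [0, 2, 4, 10, 1, 6, 17, 7, 21, 14, 12, 9, 3, 13, 11, 19, 16, 5, 8, 20, 15, 18, 22, 23]),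
  ([0, 4, 1, 12, 2, 17, 8, 10, 14, 21, 7, 13, 3, 18, 6, 22, 5, 23, 15, 11, 20, 16, 19, 9], [0, 2, 4, 12, 1, 16, 14, 10, 6, 23, 7, 19, 3, 11, 8, 18, 21, 5, 13, 22, 20, 9, 15, 17]),
  ([0, 4, 1, 12, 2, 17, 16, 3, 13, 15, 10, 18, 7, 14, 23, 19, 8, 9, 11, 21, 22, 5, 20, 6], [0, 2, 4, 7, 1, 21, 23, 12, 16, 17, 10, 18, 3, 8, 13, 9, 6, 5, 11, 15, 22, 19, 20, 14]),
  ([0, 4, 1, 12, 2, 18, 6, 3, 14, 9, 10, 17, 7, 13, 20, 11, 22, 15, 19, 5, 8, 21, 23, 16], [0, 2, 4, 7, 1, 19, 6, 12, 20, 9, 10, 15, 3, 13, 8, 17, 23, 11, 5, 18, 14, 21, 16, 22]),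
  ([0, 4, 1, 12, 2, 18, 21, 7, 17, 19, 3, 13, 10, 14, 15, 23, 6, 16, 5, 9, 11, 22, 8, 20], [0, 2, 4, 10, 1, 18, 16, 7, 22, 19, 12, 20, 3, 11, 13, 14, 17, 8, 5, 9, 23, 6, 21, 15]),
  ([0, 4, 1, 12, 2, 18, 22, 10, 13, 5, 7, 14, 3, 17, 16, 8, 21, 20, 9, 19, 23, 6, 11, 15], [0, 2, 4, 12, 1, 9, 21, 10, 15, 18, 7, 22, 3, 8, 11, 23, 14, 13, 5, 19, 17, 16, 6, 20]),
  ([0, 4, 1, 12, 2, 19, 14, 3, 6, 5, 10, 11, 7, 16, 8, 17, 23, 21, 18, 9, 20, 15, 22, 13], [0, 2, 4, 7, 1, 9, 8, 12, 14, 19, 10, 11, 3, 23, 6, 21, 13, 15, 18, 5, 20, 17, 22, 16]),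
  ([0, 4, 1, 12, 2, 19, 15, 7, 11, 18, 3, 16, 10, 6, 21, 22, 14, 13, 9, 5, 17, 23, 20, 8], [0, 2, 4, 10, 1, 19, 13, 7, 23, 18, 12, 8, 3, 17, 16, 6, 11, 20, 9, 5, 22, 14, 15, 21]),
  ([0, 4, 1, 12, 2, 19, 23, 10, 16, 9, 7, 6, 3, 11, 13, 20, 15, 8, 5, 18, 22, 14, 17, 21], [0, 2, 4, 12, 1, 18, 11, 10, 17, 9, 7, 13, 3, 14, 21, 16, 8, 22, 19, 5, 15, 23, 20, 6]),
  ([0, 4, 1, 12, 2, 20, 9, 3, 5, 6, 10, 23, 7, 21, 18, 22, 11, 16, 8, 14, 19, 13, 17, 15], [0, 2, 4, 7, 1, 8, 9, 12, 18, 6, 10, 16, 3, 21, 19, 23, 17, 22, 14, 20, 5, 13, 15, 11]),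
  ([0, 4, 1, 12, 2, 20, 11, 10, 21, 14, 7, 5, 3, 23, 15, 19, 13, 18, 6, 8, 17, 9, 22, 16], [0, 2, 4, 12, 1, 11, 18, 10, 19, 21, 7, 6, 3, 16, 9, 14, 23, 20, 17, 15, 5, 8, 22, 13]),
  ([0, 4, 1, 12, 2, 20, 13, 7, 23, 8, 3, 21, 10, 5, 16, 17, 9, 15, 14, 6, 22, 11, 19, 18], [0, 2, 4, 10, 1, 13, 19, 7, 9, 16, 12, 21, 3, 6, 18, 17, 14, 15, 23, 22, 5, 11, 20, 8]),
  ([0, 4, 1, 12, 2, 21, 6, 10, 20, 17, 7, 23, 3, 5, 8, 16, 18, 13, 11, 15, 14, 22, 9, 19], [0, 2, 4, 12, 1, 13, 6, 10, 14, 22, 7, 18, 3, 17, 20, 19, 15, 9, 16, 23, 8, 5, 21, 11]),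
  ([0, 4, 1, 12, 2, 21, 18, 7, 5, 15, 3, 20, 10, 23, 19, 14, 22, 8, 17, 11, 9, 6, 16, 13], [0, 2, 4, 10, 1, 8, 21, 7, 17, 20, 12, 19, 3, 23, 15, 9, 22, 18, 6, 14, 11, 5, 16, 13]),
  ([0, 4, 1, 12, 2, 21, 22, 3, 23, 11, 10, 5, 7, 20, 13, 9, 6, 19, 15, 17, 16, 18, 14, 8], [0, 2, 4, 7, 1, 11, 16, 12, 23, 15, 10, 9, 3, 14, 22, 18, 20, 19, 21, 17, 13, 5, 6, 8]),
  ([0, 4, 1, 12, 2, 22, 6, 7, 8, 23, 3, 9, 10, 15, 14, 19, 21, 5, 16, 13, 20, 18, 17, 11], [0, 2, 4, 10, 1, 17, 6, 7, 8, 11, 12, 23, 3, 19, 14, 13, 18, 22, 21, 15, 20, 16, 5, 9]),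
  ([0, 4, 1, 12, 2, 22, 18, 10, 9, 16, 7, 15, 3, 8, 5, 17, 6, 11, 13, 23, 19, 21, 20, 14], [0, 2, 4, 12, 1, 14, 16, 10, 13, 8, 7, 17, 3, 18, 23, 11, 9, 15, 6, 20, 22, 21, 5, 19]),
  ([0, 4, 1, 12, 2, 22, 21, 3, 15, 13, 10, 8, 7, 9, 11, 20, 18, 14, 23, 16, 17, 6, 19, 5], [0, 2, 4, 7, 1, 23, 21, 12, 11, 13, 10, 14, 3, 9, 17, 8, 19, 20, 16, 22, 15, 6, 5, 18]),
  ([0, 4, 1, 12, 2, 23, 14, 7, 20, 22, 3, 5, 10, 21, 6, 18, 15, 9, 13, 16, 8, 19, 11, 17], [0, 2, 4, 10, 1, 11, 14, 7, 20, 17, 12, 22, 3, 18, 6, 16, 19, 23, 15, 21, 8, 13, 9, 5]),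
  ([0, 4, 1, 12, 2, 23, 15, 3, 21, 16, 10, 20, 7, 5, 17, 8, 19, 6, 22, 13, 11, 14, 18, 9], [0, 2, 4, 7, 1, 13, 17, 12, 15, 23, 10, 20, 3, 19, 21, 6, 9, 14, 22, 16, 11, 8, 18, 5]),
  ([0, 4, 1, 12, 2, 23, 19, 10, 5, 13, 7, 21, 3, 20, 9, 11, 14, 17, 16, 22, 18, 15, 8, 6], [0, 2, 4, 12, 1, 8, 23, 10, 22, 14, 7, 15, 3, 9, 16, 21, 18, 17, 20, 6, 13, 11, 19, 5])]

def T5 : List (List ℕ × List ℕ) := [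
  ([0, 12, 3, 1, 7, 5, 17, 2, 23, 16, 4, 11, 10, 6, 8, 22, 21, 20, 14, 15, 19, 18, 13, 9], [0, 3, 7, 2, 10, 5, 13, 4, 14, 23, 12, 11, 1, 22, 18, 19, 9, 6, 21, 20, 17, 16, 15, 8]),
  ([0, 12, 3, 1, 7, 5, 18, 10, 11, 14, 2, 6, 4, 23, 20, 13, 17, 9, 15, 16, 22, 21, 19, 8], [0, 3, 10, 2, 12, 5, 11, 4, 23, 17, 7, 8, 1, 15, 9, 18, 19, 16, 6, 22, 14, 21, 20, 13]),
  ([0, 12, 3, 1, 7, 5, 21, 4, 6, 15, 10, 23, 2, 11, 9, 19, 18, 8, 16, 14, 13, 17, 22, 20], [0, 3, 12, 2, 7, 5, 8, 4, 17, 14, 10, 13, 1, 20, 19, 9, 18, 21, 16, 15, 23, 6, 22, 11]),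
  ([0, 12, 3, 1, 7, 6, 8, 10, 23, 9, 2, 5, 4, 11, 19, 15, 22, 14, 13, 21, 17, 16, 20, 18], [0, 3, 10, 2, 12, 11, 5, 4, 6, 9, 7, 13, 1, 18, 17, 15, 21, 20, 23, 14, 22, 19, 16, 8]),
  ([0, 12, 3, 1, 7, 6, 16, 4, 5, 13, 10, 11, 2, 23, 14, 20, 8, 18, 21, 9, 15, 22, 17, 19], [0, 3, 12, 2, 7, 8, 5, 4, 16, 19, 10, 11, 1, 9, 14, 20, 6, 22, 17, 23, 15, 18, 21, 13]),
  ([0, 12, 3, 1, 7, 6, 22, 2, 11, 21, 4, 23, 10, 5, 18, 17, 16, 19, 9, 13, 20, 8, 15, 14], [0, 3, 7, 2, 10, 13, 5, 4, 21, 18, 12, 8, 1, 19, 23, 22, 16, 15, 14, 17, 20, 9, 6, 11]),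
  ([0, 12, 3, 1, 7, 8, 6, 10, 13, 19, 2, 18, 4, 15, 9, 11, 16, 20, 23, 17, 21, 22, 14, 5], [0, 3, 10, 2, 12, 23, 6, 4, 5, 14, 7, 15, 1, 8, 22, 13, 16, 19, 11, 9, 17, 20, 21, 18]),
  ([0, 12, 3, 1, 7, 8, 16, 2, 15, 17, 4, 13, 10, 18, 5, 21, 22, 9, 19, 23, 14, 6, 11, 20], [0, 3, 7, 2, 10, 14, 21, 4, 5, 17, 12, 22, 1, 11, 20, 8, 6, 9, 13, 18, 23, 15, 16, 19]),
  ([0, 12, 3, 1, 7, 8, 22, 4, 18, 23, 10, 15, 2, 13, 20, 14, 6, 5, 17, 19, 11, 16, 21, 9], [0, 3, 12, 2, 7, 17, 16, 4, 5, 23, 10, 20, 1, 13, 15, 11, 21, 18, 8, 19, 14, 22, 6, 9]),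
  ([0, 12, 3, 1, 7, 9, 11, 2, 22, 13, 4, 17, 10, 14, 20, 23, 15, 8, 6, 21, 18, 19, 16, 5], [0, 3, 7, 2, 10, 23, 18, 4, 17, 5, 12, 6, 1, 9, 13, 16, 22, 11, 20, 21, 14, 19, 8, 15]),
  ([0, 12, 3, 1, 7, 9, 15, 4, 14, 21, 10, 22, 2, 17, 5, 18, 19, 20, 13, 6, 16, 11, 23, 8], [0, 3, 12, 2, 7, 14, 19, 4, 23, 5, 10, 21, 1, 18, 8, 6, 20, 13, 15, 16, 17, 9, 11, 22]),
  ([0, 12, 3, 1, 7, 9, 19, 10, 17, 6, 2, 14, 4, 22, 8, 16, 11, 5, 21, 13, 23, 15, 18, 20], [0, 3, 10, 2, 12, 17, 9, 4, 14, 5, 7, 16, 1, 19, 11, 21, 15, 8, 22, 6, 23, 18, 13, 20]),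
  ([0, 12, 3, 1, 7, 11, 9, 2, 6, 20, 4, 5, 10, 23, 13, 14, 19, 16, 22, 18, 21, 15, 8, 17], [0, 3, 7, 2, 10, 11, 8, 4, 22, 6, 12, 5, 1, 14, 15, 21, 17, 23, 19, 16, 9, 20, 18, 13]),
  ([0, 12, 3, 1, 7, 11, 15, 10, 5, 22, 2, 23, 4, 6, 16, 8, 9, 17, 18, 20, 14, 19, 21, 13], [0, 3, 10, 2, 12, 8, 13, 4, 15, 16, 7, 5, 1, 23, 20, 6, 14, 17, 18, 21, 19, 22, 9, 11]),
  ([0, 12, 3, 1, 7, 11, 19, 4, 23, 18, 10, 6, 2, 5, 17, 21, 15, 13, 20, 22, 8, 9, 14, 16], [0, 3, 12, 2, 7, 13, 11, 4, 20, 21, 10, 5, 1, 17, 22, 16, 23, 14, 9, 6, 18, 15, 19, 8]),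
  ([0, 12, 3, 1, 7, 13, 14, 4, 15, 6, 10, 18, 2, 8, 16, 22, 23, 11, 9, 21, 5, 20, 19, 17], [0, 3, 12, 2, 7, 20, 9, 4, 13, 18, 10, 17, 1, 5, 6, 8, 14, 23, 11, 22, 21, 19, 15, 16]),
  ([0, 12, 3, 1, 7, 13, 20, 2, 18, 9, 4, 8, 10, 15, 11, 19, 14, 17, 21, 6, 22, 23, 5, 16], [0, 3, 7, 2, 10, 22, 19, 4, 11, 9, 12, 14, 1, 5, 16, 13, 23, 17, 8, 15, 6, 18, 20, 21]),
  ([0, 12, 3, 1, 7, 13, 23, 10, 8, 21, 2, 15, 4, 18, 17, 5, 20, 16, 6, 9, 19, 14, 22, 11], [0, 3, 10, 2, 12, 15, 18, 4, 8, 19, 7, 23, 1, 5, 21, 11, 17, 14, 13, 20, 16, 9, 22, 6]),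
  ([0, 12, 3, 1, 7, 14, 13, 4, 9, 16, 10, 17, 2, 22, 6, 8, 20, 19, 15, 5, 21, 23, 11, 18], [0, 3, 12, 2, 7, 19, 14, 4, 15, 8, 10, 22, 1, 6, 5, 18, 9, 11, 23, 17, 16, 20, 13, 21]),
  ([0, 12, 3, 1, 7, 14, 20, 10, 22, 5, 2, 9, 4, 17, 18, 21, 23, 6, 16, 15, 11, 13, 8, 19], [0, 3, 10, 2, 12, 9, 17, 4, 22, 11, 7, 20, 1, 21, 5, 19, 18, 13, 14, 23, 6, 15, 8, 16]),
  ([0, 12, 3, 1, 7, 14, 23, 2, 17, 15, 4, 22, 10, 9, 19, 11, 13, 18, 5, 16, 8, 20, 21, 6], [0, 3, 7, 2, 10, 18, 23, 4, 20, 13, 12, 15, 1, 16, 5, 9, 19, 8, 17, 14, 21, 22, 11, 6]),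
  ([0, 12, 3, 1, 7, 15, 9, 4, 13, 5, 10, 8, 2, 18, 21, 17, 11, 23, 14, 16, 6, 19, 20, 22], [0, 3, 12, 2, 7, 9, 20, 4, 11, 6, 10, 16, 1, 8, 18, 5, 19, 15, 13, 21, 22, 14, 23, 17]),
  ([0, 12, 3, 1, 7, 15, 11, 10, 18, 16, 2, 13, 4, 8, 22, 6, 19, 21, 5, 14, 20, 9, 17, 23], [0, 3, 10, 2, 12, 18, 15, 4, 13, 21, 7, 6, 1, 11, 19, 5, 9, 22, 8, 16, 20, 17, 14, 23]),
  ([0, 12, 3, 1, 7, 15, 19, 2, 8, 14, 4, 18, 10, 13, 23, 20, 9, 22, 16, 5, 17, 11, 6, 21], [0, 3, 7, 2, 10, 19, 22, 4, 8, 16, 12, 21, 1, 13, 9, 5, 18, 20, 11, 6, 15, 23, 17, 14]),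
  ([0, 12, 3, 1, 7, 16, 6, 4, 21, 14, 10, 19, 2, 20, 13, 23, 22, 17, 5, 15, 9, 8, 18, 11], [0, 3, 12, 2, 7, 18, 6, 4, 21, 20, 10, 23, 1, 14, 9, 19, 5, 17, 22, 11, 13, 8, 16, 15]),
  ([0, 12, 3, 1, 7, 16, 8, 2, 19, 5, 4, 20, 10, 21, 17, 18, 6, 11, 15, 14, 23, 22, 9, 13], [0, 3, 7, 2, 10, 9, 16, 4, 6, 22, 12, 17, 1, 23, 19, 18, 5, 14, 15, 8, 11, 13, 21, 20]),
  ([0, 12, 3, 1, 7, 16, 22, 10, 20, 15, 2, 21, 4, 19, 11, 9, 8, 13, 14, 5, 18, 6, 23, 17], [0, 3, 10, 2, 12, 19, 21, 4, 16, 15, 7, 14, 1, 17, 18, 9, 5, 23, 20, 13, 8, 11, 6, 22]),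
  ([0, 12, 3, 1, 7, 17, 5, 2, 14, 8, 4, 9, 10, 22, 16, 6, 18, 13, 23, 19, 15, 21, 20, 11], [0, 3, 7, 2, 10, 6, 15, 4, 9, 11, 12, 23, 1, 17, 8, 20, 14, 5, 16, 19, 22, 21, 13, 18]),
  ([0, 12, 3, 1, 7, 17, 18, 4, 22, 19, 10, 14, 2, 9, 11, 15, 21, 16, 8, 23, 20, 5, 6, 13], [0, 3, 12, 2, 7, 21, 22, 4, 18, 13, 10, 14, 1, 23, 11, 15, 17, 5, 6, 9, 20, 16, 8, 19]),
  ([0, 12, 3, 1, 7, 17, 21, 10, 9, 23, 2, 22, 4, 14, 13, 20, 5, 11, 19, 8, 6, 18, 15, 16], [0, 3, 10, 2, 12, 16, 20, 4, 19, 8, 7, 17, 1, 14, 13, 22, 23, 5, 21, 18, 15, 6, 11, 9]),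
  ([0, 12, 3, 1, 7, 18, 5, 10, 15, 20, 2, 8, 4, 13, 14, 23, 21, 19, 11, 22, 16, 17, 9, 6], [0, 3, 10, 2, 12, 6, 23, 4, 11, 22, 7, 18, 1, 13, 14, 8, 20, 21, 5, 17, 9, 16, 19, 15]),
  ([0, 12, 3, 1, 7, 18, 17, 4, 8, 11, 10, 13, 2, 15, 19, 9, 5, 6, 22, 20, 23, 21, 16, 14], [0, 3, 12, 2, 7, 16, 17, 4, 8, 15, 10, 9, 1, 11, 23, 13, 22, 6, 5, 14, 19, 21, 18, 20]),
  ([0, 12, 3, 1, 7, 18, 21, 2, 13, 22, 4, 15, 10, 8, 6, 16, 17, 14, 20, 11, 9, 5, 23, 19], [0, 3, 7, 2, 10, 21, 14, 4, 13, 20, 12, 19, 1, 8, 17, 11, 15, 16, 5, 23, 18, 6, 9, 22]),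
  ([0, 12, 3, 1, 7, 19, 9, 10, 21, 8, 2, 20, 4, 16, 6, 22, 15, 18, 17, 23, 13, 11, 5, 14], [0, 3, 10, 2, 12, 22, 14, 4, 9, 6, 7, 21, 1, 20, 23, 16, 13, 18, 17, 5, 11, 8, 15, 19]),
  ([0, 12, 3, 1, 7, 19, 11, 4, 20, 17, 10, 16, 2, 21, 18, 5, 9, 14, 23, 8, 22, 15, 13, 6], [0, 3, 12, 2, 7, 15, 23, 4, 19, 16, 10, 6, 1, 22, 17, 21, 11, 9, 14, 5, 8, 13, 20, 18]),
  ([0, 12, 3, 1, 7, 19, 15, 2, 16, 23, 4, 21, 10, 20, 14, 13, 11, 6, 8, 17, 5, 9, 22, 18], [0, 3, 7, 2, 10, 20, 17, 4, 18, 21, 12, 16, 1, 15, 14, 6, 8, 19, 23, 5, 13, 11, 22, 9]),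
  ([0, 12, 3, 1, 7, 20, 13, 2, 21, 11, 4, 16, 10, 19, 9, 15, 23, 5, 18, 22, 6, 14, 17, 8], [0, 3, 7, 2, 10, 17, 20, 4, 23, 14, 12, 9, 1, 6, 21, 15, 11, 22, 18, 13, 5, 8, 19, 16]),
  ([0, 12, 3, 1, 7, 20, 14, 10, 16, 18, 2, 19, 4, 21, 5, 17, 13, 8, 22, 11, 15, 23, 6, 9], [0, 3, 10, 2, 12, 14, 22, 4, 17, 23, 7, 19, 1, 16, 6, 20, 8, 15, 9, 11, 5, 13, 18, 21]),
  ([0, 12, 3, 1, 7, 20, 23, 4, 19, 22, 10, 21, 2, 16, 8, 6, 14, 9, 11, 18, 17, 13, 15, 5], [0, 3, 12, 2, 7, 23, 15, 4, 14, 17, 10, 18, 1, 21, 16, 22, 13, 20, 19, 8, 5, 11, 9, 6]),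
  ([0, 12, 3, 1, 7, 21, 5, 4, 16, 9, 10, 20, 2, 19, 15, 11, 17, 22, 6, 13, 14, 18, 8, 23], [0, 3, 12, 2, 7, 6, 18, 4, 22, 9, 10, 15, 1, 19, 20, 14, 8, 16, 21, 13, 11, 5, 17, 23]),
  ([0, 12, 3, 1, 7, 21, 17, 10, 19, 13, 2, 16, 4, 20, 23, 14, 18, 15, 9, 6, 8, 5, 11, 22], [0, 3, 10, 2, 12, 21, 19, 4, 20, 18, 7, 22, 1, 9, 15, 17, 11, 6, 16, 8, 13, 5, 23, 14]),
  ([0, 12, 3, 1, 7, 21, 18, 2, 20, 6, 4, 19, 10, 16, 22, 8, 5, 23, 13, 9, 11, 17, 14, 15], [0, 3, 7, 2, 10, 16, 9, 4, 15, 19, 12, 20, 1, 18, 22, 23, 13, 21, 6, 11, 8, 5, 14, 17]),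
  ([0, 12, 3, 1, 7, 22, 6, 2, 9, 18, 4, 14, 10, 17, 21, 5, 8, 15, 11, 20, 13, 16, 19, 23], [0, 3, 7, 2, 10, 15, 6, 4, 16, 8, 12, 18, 1, 20, 11, 17, 21, 13, 9, 22, 19, 14, 5, 23]),
  ([0, 12, 3, 1, 7, 22, 8, 4, 17, 20, 10, 9, 2, 14, 23, 13, 16, 21, 18, 11, 19, 6, 5, 15], [0, 3, 12, 2, 7, 22, 21, 4, 6, 11, 10, 19, 1, 15, 13, 23, 16, 8, 18, 20, 9, 17, 5, 14]),
  ([0, 12, 3, 1, 7, 22, 16, 10, 14, 11, 2, 17, 4, 9, 15, 19, 6, 23, 20, 18, 5, 8, 13, 21], [0, 3, 10, 2, 12, 20, 16, 4, 21, 13, 7, 9, 1, 22, 8, 14, 6, 11, 19, 15, 18, 23, 5, 17]),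
  ([0, 12, 3, 1, 7, 23, 13, 10, 6, 17, 2, 11, 4, 5, 21, 18, 14, 22, 8, 19, 9, 20, 16, 15], [0, 3, 10, 2, 12, 13, 8, 4, 18, 20, 7, 11, 1, 6, 16, 23, 22, 9, 15, 19, 21, 14, 17, 5]),
  ([0, 12, 3, 1, 7, 23, 14, 2, 5, 19, 4, 6, 10, 11, 15, 9, 20, 21, 17, 8, 16, 13, 18, 22], [0, 3, 7, 2, 10, 8, 11, 4, 19, 15, 12, 13, 1, 21, 6, 14, 20, 18, 22, 9, 16, 17, 23, 5]),
  ([0, 12, 3, 1, 7, 23, 20, 4, 11, 8, 10, 5, 2, 6, 22, 16, 13, 15, 19, 17, 18, 14, 9, 21], [0, 3, 12, 2, 7, 11, 13, 4, 9, 22, 10, 8, 1, 16, 21, 17, 15, 19, 20, 18, 6, 23, 14, 5])]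

def T6 : List (List ℕ × List ℕ) := [
  ([0, 7, 12, 4, 3, 5, 9, 10, 21, 14, 1, 8, 2, 22, 6, 23, 11, 19, 15, 16, 13, 17, 18, 20], [0, 10, 12, 4, 3, 5, 14, 1, 11, 6, 7, 16, 2, 20, 9, 18, 19, 21, 22, 17, 23, 8, 13, 15]),
  ([0, 7, 12, 4, 3, 5, 11, 1, 22, 16, 2, 21, 10, 8, 20, 13, 17, 6, 14, 15, 18, 9, 23, 19], [0, 7, 10, 4, 3, 5, 17, 1, 13, 21, 12, 6, 2, 15, 18, 19, 9, 16, 20, 23, 14, 11, 8, 22]),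
  ([0, 7, 12, 4, 3, 5, 17, 2, 8, 15, 10, 22, 1, 21, 19, 18, 9, 20, 16, 14, 23, 11, 13, 6], [0, 12, 7, 4, 3, 5, 23, 1, 8, 16, 10, 21, 2, 22, 19, 9, 18, 6, 15, 14, 17, 13, 11, 20]),
  ([0, 7, 12, 4, 3, 6, 14, 10, 16, 9, 1, 18, 2, 17, 5, 11, 23, 20, 13, 21, 15, 22, 8, 19], [0, 10, 12, 4, 3, 14, 5, 1, 22, 9, 7, 15, 2, 18, 6, 20, 8, 13, 11, 23, 17, 19, 21, 16]),
  ([0, 7, 12, 4, 3, 6, 22, 2, 18, 13, 10, 17, 1, 16, 20, 8, 14, 19, 21, 9, 11, 23, 15, 5], [0, 12, 7, 4, 3, 23, 5, 1, 15, 19, 10, 20, 2, 9, 16, 22, 13, 11, 8, 17, 14, 18, 6, 21]),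
  ([0, 7, 12, 4, 3, 6, 23, 1, 17, 21, 2, 16, 10, 18, 19, 15, 22, 5, 9, 13, 8, 14, 11, 20], [0, 7, 10, 4, 3, 17, 5, 1, 20, 18, 12, 22, 2, 19, 21, 15, 11, 8, 13, 14, 23, 9, 16, 6]),
  ([0, 7, 12, 4, 3, 8, 13, 1, 21, 17, 2, 22, 10, 5, 9, 11, 16, 18, 19, 23, 6, 20, 15, 14], [0, 7, 10, 4, 3, 13, 20, 1, 5, 14, 12, 15, 2, 6, 23, 22, 16, 9, 17, 18, 21, 8, 11, 19]),
  ([0, 7, 12, 4, 3, 8, 16, 2, 5, 23, 10, 21, 1, 22, 14, 6, 20, 9, 17, 19, 15, 13, 11, 18], [0, 12, 7, 4, 3, 8, 15, 1, 5, 17, 10, 22, 2, 21, 14, 20, 6, 18, 23, 19, 16, 11, 13, 9]),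
  ([0, 7, 12, 4, 3, 8, 20, 10, 22, 19, 1, 5, 2, 21, 18, 15, 13, 14, 23, 17, 11, 16, 6, 9], [0, 10, 12, 4, 3, 11, 22, 1, 5, 23, 7, 20, 2, 16, 17, 15, 21, 19, 14, 9, 6, 13, 8, 18]),
  ([0, 7, 12, 4, 3, 9, 5, 10, 15, 6, 1, 20, 2, 23, 14, 22, 17, 18, 21, 13, 16, 11, 19, 8], [0, 10, 12, 4, 3, 6, 9, 1, 23, 5, 7, 21, 2, 19, 14, 8, 20, 16, 17, 22, 11, 18, 15, 13]),
  ([0, 7, 12, 4, 3, 9, 11, 2, 20, 21, 10, 23, 1, 15, 18, 19, 5, 8, 13, 6, 22, 17, 16, 14], [0, 12, 7, 4, 3, 16, 19, 1, 17, 5, 10, 6, 2, 18, 23, 13, 22, 21, 14, 15, 8, 9, 20, 11]),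
  ([0, 7, 12, 4, 3, 9, 17, 1, 23, 13, 2, 15, 10, 20, 8, 16, 11, 14, 6, 21, 19, 5, 22, 18], [0, 7, 10, 4, 3, 21, 18, 1, 14, 5, 12, 16, 2, 9, 17, 11, 15, 6, 23, 20, 13, 19, 22, 8]),
  ([0, 7, 12, 4, 3, 11, 5, 1, 14, 20, 2, 19, 10, 13, 16, 8, 9, 23, 22, 18, 15, 17, 6, 21], [0, 7, 10, 4, 3, 6, 22, 1, 15, 16, 12, 5, 2, 13, 8, 20, 14, 21, 19, 11, 9, 23, 18, 17]),
  ([0, 7, 12, 4, 3, 11, 9, 2, 13, 18, 10, 14, 1, 19, 21, 15, 17, 16, 20, 22, 6, 5, 8, 23], [0, 12, 7, 4, 3, 21, 20, 1, 22, 6, 10, 5, 2, 8, 11, 15, 17, 16, 9, 13, 18, 14, 19, 23]),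
  ([0, 7, 12, 4, 3, 11, 17, 10, 19, 22, 1, 13, 2, 14, 23, 6, 5, 21, 18, 20, 8, 9, 15, 16], [0, 10, 12, 4, 3, 16, 15, 1, 20, 21, 7, 5, 2, 11, 13, 22, 23, 6, 18, 8, 19, 17, 9, 14]),
  ([0, 7, 12, 4, 3, 13, 8, 1, 19, 9, 2, 14, 10, 11, 17, 5, 20, 15, 21, 6, 23, 16, 18, 22], [0, 7, 10, 4, 3, 15, 19, 1, 6, 9, 12, 13, 2, 5, 11, 17, 21, 14, 22, 8, 16, 18, 23, 20]),
  ([0, 7, 12, 4, 3, 13, 16, 10, 14, 21, 1, 11, 2, 19, 15, 18, 8, 22, 6, 9, 5, 20, 23, 17], [0, 10, 12, 4, 3, 20, 18, 1, 16, 19, 7, 11, 2, 5, 8, 14, 6, 23, 15, 13, 21, 9, 17, 22]),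
  ([0, 7, 12, 4, 3, 13, 20, 2, 11, 6, 10, 19, 1, 14, 22, 23, 16, 17, 9, 21, 18, 8, 5, 15], [0, 12, 7, 4, 3, 22, 9, 1, 21, 18, 10, 8, 2, 5, 13, 23, 16, 17, 20, 11, 6, 19, 14, 15]),
  ([0, 7, 12, 4, 3, 14, 6, 10, 13, 5, 1, 19, 2, 11, 9, 17, 22, 8, 16, 15, 21, 23, 20, 18], [0, 10, 12, 4, 3, 9, 6, 1, 17, 14, 7, 13, 2, 8, 5, 19, 18, 15, 23, 11, 22, 20, 16, 21]),
  ([0, 7, 12, 4, 3, 14, 22, 1, 11, 15, 2, 13, 10, 19, 18, 21, 23, 9, 5, 16, 20, 6, 17, 8], [0, 7, 10, 4, 3, 18, 21, 1, 23, 17, 12, 8, 2, 11, 5, 9, 19, 22, 14, 13, 20, 15, 6, 16]),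
  ([0, 7, 12, 4, 3, 14, 23, 2, 19, 16, 10, 11, 1, 13, 8, 20, 6, 18, 15, 5, 17, 22, 21, 9], [0, 12, 7, 4, 3, 19, 16, 1, 14, 23, 10, 11, 2, 13, 5, 18, 9, 20, 17, 8, 15, 22, 21, 6]),
  ([0, 7, 12, 4, 3, 15, 18, 1, 20, 14, 2, 9, 10, 23, 22, 6, 19, 13, 16, 5, 11, 21, 8, 17], [0, 7, 10, 4, 3, 19, 15, 1, 22, 11, 12, 20, 2, 17, 9, 5, 18, 23, 6, 16, 8, 21, 14, 13]),
  ([0, 7, 12, 4, 3, 15, 19, 2, 23, 5, 10, 20, 1, 9, 17, 11, 21, 22, 14, 16, 8, 18, 6, 13], [0, 12, 7, 4, 3, 9, 22, 1, 20, 13, 10, 15, 2, 23, 18, 5, 19, 14, 21, 6, 11, 16, 17, 8]),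
  ([0, 7, 12, 4, 3, 15, 21, 10, 9, 16, 1, 23, 2, 20, 13, 8, 18, 17, 5, 14, 6, 19, 11, 22], [0, 10, 12, 4, 3, 18, 20, 1, 15, 8, 7, 22, 2, 14, 19, 5, 9, 17, 16, 21, 13, 6, 23, 11]),
  ([0, 7, 12, 4, 3, 16, 8, 2, 17, 14, 10, 18, 1, 6, 23, 22, 13, 11, 5, 15, 19, 20, 9, 21], [0, 12, 7, 4, 3, 18, 13, 1, 6, 22, 10, 17, 2, 16, 9, 19, 5, 8, 11, 20, 21, 23, 15, 14]),
  ([0, 7, 12, 4, 3, 16, 13, 10, 6, 15, 1, 17, 2, 18, 21, 19, 20, 23, 14, 5, 9, 8, 22, 11], [0, 10, 12, 4, 3, 19, 8, 1, 21, 20, 7, 23, 2, 6, 18, 9, 5, 11, 13, 15, 16, 14, 22, 17]),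
  ([0, 7, 12, 4, 3, 16, 20, 1, 18, 5, 2, 6, 10, 17, 11, 9, 8, 21, 15, 14, 22, 13, 19, 23], [0, 7, 10, 4, 3, 9, 11, 1, 16, 15, 12, 14, 2, 21, 19, 18, 5, 13, 8, 22, 6, 17, 20, 23]),
  ([0, 7, 12, 4, 3, 17, 5, 2, 16, 19, 10, 6, 1, 18, 15, 21, 11, 13, 8, 23, 14, 9, 20, 22], [0, 12, 7, 4, 3, 6, 11, 1, 18, 21, 10, 16, 2, 17, 20, 14, 8, 5, 13, 9, 22, 15, 23, 19]),
  ([0, 7, 12, 4, 3, 17, 9, 1, 6, 8, 2, 18, 10, 16, 13, 20, 5, 22, 23, 19, 21, 11, 14, 15], [0, 7, 10, 4, 3, 16, 8, 1, 9, 6, 12, 21, 2, 14, 22, 23, 13, 5, 11, 19, 15, 20, 17, 18]),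
  ([0, 7, 12, 4, 3, 17, 11, 10, 18, 23, 1, 16, 2, 6, 22, 14, 9, 15, 19, 8, 20, 5, 21, 13], [0, 10, 12, 4, 3, 21, 13, 1, 19, 16, 7, 6, 2, 23, 15, 17, 11, 5, 8, 18, 20, 22, 14, 9]),
  ([0, 7, 12, 4, 3, 18, 15, 1, 16, 22, 2, 17, 10, 6, 14, 23, 21, 8, 20, 11, 5, 19, 13, 9], [0, 7, 10, 4, 3, 20, 13, 1, 17, 23, 12, 19, 2, 22, 14, 6, 8, 11, 5, 21, 18, 16, 9, 15]),
  ([0, 7, 12, 4, 3, 18, 19, 10, 17, 20, 1, 6, 2, 16, 8, 13, 15, 9, 11, 22, 23, 21, 5, 14], [0, 10, 12, 4, 3, 22, 11, 1, 14, 17, 7, 18, 2, 15, 23, 16, 13, 8, 5, 6, 9, 21, 19, 20]),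
  ([0, 7, 12, 4, 3, 18, 21, 2, 6, 11, 10, 16, 1, 17, 9, 5, 19, 14, 22, 20, 13, 15, 23, 8], [0, 12, 7, 4, 3, 15, 8, 1, 23, 14, 10, 9, 2, 20, 17, 21, 11, 13, 5, 16, 19, 6, 18, 22]),
  ([0, 7, 12, 4, 3, 19, 15, 2, 14, 17, 10, 13, 1, 11, 5, 9, 18, 6, 23, 8, 16, 21, 22, 20], [0, 12, 7, 4, 3, 14, 17, 1, 19, 15, 10, 13, 2, 11, 8, 6, 20, 9, 16, 5, 23, 21, 22, 18]),
  ([0, 7, 12, 4, 3, 19, 18, 10, 11, 8, 1, 14, 2, 13, 20, 16, 21, 5, 17, 23, 22, 15, 9, 6], [0, 10, 12, 4, 3, 17, 23, 1, 9, 22, 7, 8, 2, 13, 11, 21, 15, 18, 6, 5, 14, 16, 20, 19]),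
  ([0, 7, 12, 4, 3, 19, 21, 1, 13, 23, 2, 11, 10, 14, 6, 22, 15, 20, 8, 17, 9, 18, 16, 5], [0, 7, 10, 4, 3, 23, 14, 1, 18, 20, 12, 11, 2, 8, 13, 16, 22, 19, 21, 5, 17, 6, 15, 9]),
  ([0, 7, 12, 4, 3, 20, 8, 10, 23, 18, 1, 9, 2, 15, 19, 21, 16, 6, 22, 11, 17, 13, 14, 5], [0, 10, 12, 4, 3, 23, 17, 1, 6, 11, 7, 19, 2, 21, 22, 13, 16, 20, 9, 14, 5, 15, 18, 8]),
  ([0, 7, 12, 4, 3, 20, 13, 2, 9, 22, 10, 15, 1, 23, 6, 14, 8, 5, 11, 18, 21, 16, 17, 19], [0, 12, 7, 4, 3, 17, 14, 1, 16, 8, 10, 18, 2, 6, 15, 11, 21, 22, 19, 23, 5, 20, 9, 13]),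
  ([0, 7, 12, 4, 3, 20, 16, 1, 15, 11, 2, 23, 10, 9, 5, 17, 13, 19, 18, 22, 14, 8, 21, 6], [0, 7, 10, 4, 3, 14, 23, 1, 21, 13, 12, 9, 2, 16, 20, 8, 6, 15, 18, 17, 5, 22, 19, 11]),
  ([0, 7, 12, 4, 3, 21, 15, 10, 5, 13, 1, 22, 2, 8, 16, 20, 19, 11, 9, 6, 14, 18, 17, 23], [0, 10, 12, 4, 3, 8, 19, 1, 13, 18, 7, 17, 2, 9, 20, 6, 14, 22, 21, 16, 15, 5, 11, 23]),
  ([0, 7, 12, 4, 3, 21, 18, 2, 22, 9, 10, 8, 1, 5, 11, 17, 15, 23, 6, 13, 20, 19, 14, 16], [0, 12, 7, 4, 3, 13, 18, 1, 11, 9, 10, 14, 2, 19, 22, 16, 23, 15, 6, 21, 20, 5, 8, 17]),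
  ([0, 7, 12, 4, 3, 21, 19, 1, 8, 6, 2, 5, 10, 22, 23, 14, 18, 16, 13, 9, 17, 15, 20, 11], [0, 7, 10, 4, 3, 11, 9, 1, 8, 19, 12, 23, 2, 18, 15, 21, 17, 20, 16, 6, 22, 5, 13, 14]),
  ([0, 7, 12, 4, 3, 22, 6, 2, 21, 20, 10, 5, 1, 8, 13, 16, 23, 15, 18, 11, 9, 14, 19, 17], [0, 12, 7, 4, 3, 11, 6, 1, 13, 20, 10, 19, 2, 14, 21, 17, 15, 23, 18, 22, 9, 8, 5, 16]),
  ([0, 7, 12, 4, 3, 22, 14, 1, 5, 18, 2, 8, 10, 21, 15, 19, 6, 17, 11, 20, 16, 23, 9, 13], [0, 7, 10, 4, 3, 8, 16, 1, 11, 22, 12, 18, 2, 23, 6, 14, 20, 17, 9, 15, 19, 13, 5, 21]),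
  ([0, 7, 12, 4, 3, 22, 23, 10, 8, 11, 1, 21, 2, 5, 17, 9, 14, 13, 20, 18, 19, 6, 16, 15], [0, 10, 12, 4, 3, 13, 21, 1, 8, 15, 7, 9, 2, 17, 16, 23, 22, 14, 19, 20, 18, 11, 5, 6]),
  ([0, 7, 12, 4, 3, 23, 6, 1, 9, 19, 2, 20, 10, 15, 21, 18, 14, 11, 17, 8, 13, 22, 5, 16], [0, 7, 10, 4, 3, 22, 6, 1, 19, 8, 12, 17, 2, 20, 16, 13, 23, 18, 15, 9, 11, 14, 21, 5]),
  ([0, 7, 12, 4, 3, 23, 14, 2, 15, 8, 10, 9, 1, 20, 16, 13, 22, 21, 19, 17, 5, 6, 18, 11], [0, 12, 7, 4, 3, 20, 21, 1, 9, 11, 10, 23, 2, 15, 6, 8, 14, 19, 22, 18, 13, 17, 16, 5]),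
  ([0, 7, 12, 4, 3, 23, 22, 10, 20, 17, 1, 15, 2, 9, 11, 5, 6, 16, 8, 19, 18, 14, 13, 21], [0, 10, 12, 4, 3, 15, 16, 1, 18, 13, 7, 14, 2, 22, 21, 11, 17, 9, 20, 19, 8, 23, 6, 5])]

def stL : List (List ℕ × List ℕ) := [
  ([0, 1, 2, 3, 4, 5, 6, 7, 8, 9, 10, 11, 12, 13, 14, 15, 16, 17, 18, 19, 20, 21, 22, 23], [0, 1, 2, 3, 4, 5, 6, 7, 8, 9, 10, 11, 12, 13, 14, 15, 16, 17, 18, 19, 20, 21, 22, 23]),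
  ([0, 1, 2, 3, 4, 15, 13, 7, 23, 21, 10, 18, 12, 6, 16, 5, 14, 19, 11, 17, 22, 9, 20, 8], [0, 1, 2, 3, 4, 15, 13, 7, 23, 21, 10, 18, 12, 6, 16, 5, 14, 19, 11, 17, 22, 9, 20, 8]),
  ([0, 2, 4, 7, 1, 5, 20, 12, 6, 18, 10, 17, 3, 22, 14, 15, 16, 21, 19, 9, 8, 11, 23, 13], [0, 4, 1, 12, 2, 5, 8, 3, 20, 19, 10, 21, 7, 23, 14, 15, 16, 11, 9, 18, 6, 17, 13, 22]),
  ([0, 2, 4, 7, 1, 15, 22, 12, 13, 11, 10, 19, 3, 20, 16, 5, 14, 9, 17, 21, 23, 18, 8, 6], [0, 4, 1, 12, 2, 15, 23, 3, 22, 17, 10, 9, 7, 8, 16, 5, 14, 18, 21, 11, 13, 19, 6, 20]),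
  ([0, 4, 1, 12, 2, 15, 23, 3, 22, 17, 10, 9, 7, 8, 16, 5, 14, 18, 21, 11, 13, 19, 6, 20], [0, 2, 4, 7, 1, 15, 22, 12, 13, 11, 10, 19, 3, 20, 16, 5, 14, 9, 17, 21, 23, 18, 8, 6]),
  ([0, 4, 1, 12, 2, 5, 8, 3, 20, 19, 10, 21, 7, 23, 14, 15, 16, 11, 9, 18, 6, 17, 13, 22], [0, 2, 4, 7, 1, 5, 20, 12, 6, 18, 10, 17, 3, 22, 14, 15, 16, 21, 19, 9, 8, 11, 23, 13])]

def ctL : List (List ℕ × List ℕ) := [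
  ([0, 1, 2, 3, 4, 5, 6, 7, 8, 9, 10, 11, 12, 13, 14, 15, 16, 17, 18, 19, 20, 21, 22, 23], [0, 1, 2, 3, 4, 5, 6, 7, 8, 9, 10, 11, 12, 13, 14, 15, 16, 17, 18, 19, 20, 21, 22, 23]),
  ([0, 1, 2, 3, 4, 15, 13, 7, 23, 21, 10, 18, 12, 6, 16, 5, 14, 19, 11, 17, 22, 9, 20, 8], [0, 1, 2, 3, 4, 15, 13, 7, 23, 21, 10, 18, 12, 6, 16, 5, 14, 19, 11, 17, 22, 9, 20, 8])]

def ctab : List (List ℕ × List ℕ) := [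
  ([0, 1, 2, 3, 4, 5, 6, 7, 8, 9, 10, 11, 12, 13, 14, 15, 16, 17, 18, 19, 20, 21, 22, 23], [0, 1, 2, 3, 4, 5, 6, 7, 8, 9, 10, 11, 12, 13, 14, 15, 16, 17, 18, 19, 20, 21, 22, 23]),
  ([1, 2, 3, 4, 12, 5, 21, 0, 6, 22, 10, 14, 7, 9, 8, 15, 23, 11, 16, 18, 17, 20, 19, 13], [7, 0, 1, 2, 3, 5, 8, 12, 14, 13, 10, 17, 4, 23, 11, 15, 18, 20, 19, 22, 21, 6, 9, 16]),
  ([2, 3, 4, 12, 7, 15, 22, 1, 9, 17, 10, 23, 0, 20, 13, 5, 6, 16, 8, 14, 18, 19, 11, 21], [12, 7, 0, 1, 2, 15, 16, 4, 18, 8, 10, 22, 3, 14, 19, 5, 17, 9, 20, 21, 13, 23, 6, 11]),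
  ([3, 4, 12, 7, 0, 15, 19, 2, 22, 11, 10, 13, 1, 17, 9, 5, 21, 23, 6, 8, 16, 18, 14, 20], [4, 12, 7, 0, 1, 15, 18, 3, 19, 14, 10, 9, 2, 11, 22, 5, 20, 13, 21, 6, 23, 16, 8, 17]),
  ([4, 12, 7, 0, 1, 15, 18, 3, 19, 14, 10, 9, 2, 11, 22, 5, 20, 13, 21, 6, 23, 16, 8, 17], [3, 4, 12, 7, 0, 15, 19, 2, 22, 11, 10, 13, 1, 17, 9, 5, 21, 23, 6, 8, 16, 18, 14, 20]),
  ([6, 21, 20, 17, 11, 10, 22, 8, 9, 12, 15, 23, 14, 4, 13, 5, 2, 16, 1, 0, 18, 19, 7, 3], [19, 18, 16, 23, 13, 15, 0, 22, 7, 8, 5, 4, 9, 14, 12, 10, 17, 3, 20, 21, 2, 1, 6, 11]),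
  ([7, 0, 1, 2, 3, 15, 23, 12, 16, 6, 10, 19, 4, 8, 18, 5, 11, 22, 17, 20, 9, 13, 21, 14], [1, 2, 3, 4, 12, 15, 9, 0, 13, 20, 10, 16, 7, 21, 23, 5, 8, 18, 14, 11, 19, 22, 17, 6]),
  ([8, 6, 21, 20, 17, 10, 9, 14, 13, 4, 15, 16, 11, 3, 23, 5, 1, 18, 0, 7, 19, 22, 12, 2], [18, 16, 23, 13, 9, 15, 1, 19, 0, 6, 5, 12, 22, 8, 7, 10, 11, 4, 17, 20, 3, 2, 21, 14]),
  ([9, 22, 19, 18, 16, 10, 17, 13, 20, 7, 5, 6, 23, 12, 21, 15, 3, 8, 2, 1, 14, 11, 0, 4], [22, 19, 18, 16, 23, 10, 11, 9, 17, 0, 5, 21, 13, 7, 20, 15, 4, 6, 3, 2, 8, 14, 1, 12]),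
  ([11, 14, 8, 6, 21, 10, 23, 17, 16, 2, 15, 19, 20, 1, 18, 5, 7, 22, 12, 4, 9, 13, 3, 0], [23, 13, 9, 22, 19, 15, 3, 16, 2, 20, 5, 0, 18, 21, 1, 10, 8, 7, 14, 11, 12, 4, 17, 6]),
  ([12, 7, 0, 1, 2, 15, 16, 4, 18, 8, 10, 22, 3, 14, 19, 5, 17, 9, 20, 21, 13, 23, 6, 11], [2, 3, 4, 12, 7, 15, 22, 1, 9, 17, 10, 23, 0, 20, 13, 5, 6, 16, 8, 14, 18, 19, 11, 21]),
  ([13, 9, 22, 19, 18, 10, 20, 23, 21, 12, 5, 8, 16, 4, 6, 15, 2, 14, 1, 0, 11, 17, 7, 3], [19, 18, 16, 23, 13, 10, 14, 22, 11, 1, 5, 20, 9, 0, 17, 15, 12, 21, 4, 3, 6, 8, 2, 7]),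
  ([14, 8, 6, 21, 20, 10, 13, 11, 23, 3, 15, 18, 17, 2, 16, 5, 0, 19, 7, 12, 22, 9, 4, 1], [16, 23, 13, 9, 22, 15, 2, 18, 1, 21, 5, 7, 19, 6, 0, 10, 14, 12, 11, 17, 4, 3, 20, 8]),
  ([16, 23, 13, 9, 22, 10, 6, 18, 8, 3, 5, 11, 19, 2, 14, 15, 0, 17, 7, 12, 20, 21, 4, 1], [16, 23, 13, 9, 22, 10, 6, 18, 8, 3, 5, 11, 19, 2, 14, 15, 0, 17, 7, 12, 20, 21, 4, 1]),
  ([17, 11, 14, 8, 6, 5, 0, 20, 7, 23, 15, 4, 21, 16, 12, 10, 19, 3, 22, 9, 2, 1, 13, 18], [6, 21, 20, 17, 11, 5, 4, 8, 3, 19, 15, 1, 14, 22, 2, 10, 13, 0, 23, 16, 7, 12, 18, 9]),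
  ([18, 16, 23, 13, 9, 15, 1, 19, 0, 6, 5, 12, 22, 8, 7, 10, 11, 4, 17, 20, 3, 2, 21, 14], [8, 6, 21, 20, 17, 10, 9, 14, 13, 4, 15, 16, 11, 3, 23, 5, 1, 18, 0, 7, 19, 22, 12, 2]),
  ([19, 18, 16, 23, 13, 15, 0, 22, 7, 8, 5, 4, 9, 14, 12, 10, 17, 3, 20, 21, 2, 1, 6, 11], [6, 21, 20, 17, 11, 10, 22, 8, 9, 12, 15, 23, 14, 4, 13, 5, 2, 16, 1, 0, 18, 19, 7, 3]),
  ([20, 17, 11, 14, 8, 5, 7, 21, 12, 16, 15, 3, 6, 18, 4, 10, 22, 2, 9, 13, 1, 0, 23, 19], [21, 20, 17, 11, 14, 5, 12, 6, 4, 18, 15, 2, 8, 19, 3, 10, 9, 1, 13, 23, 0, 7, 16, 22]),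
  ([21, 20, 17, 11, 14, 10, 19, 6, 22, 7, 15, 13, 8, 12, 9, 5, 3, 23, 2, 1, 16, 18, 0, 4], [22, 19, 18, 16, 23, 15, 7, 9, 12, 14, 5, 3, 13, 11, 4, 10, 20, 2, 21, 6, 1, 0, 8, 17]),
  ([22, 19, 18, 16, 23, 15, 7, 9, 12, 14, 5, 3, 13, 11, 4, 10, 20, 2, 21, 6, 1, 0, 8, 17], [21, 20, 17, 11, 14, 10, 19, 6, 22, 7, 15, 13, 8, 12, 9, 5, 3, 23, 2, 1, 16, 18, 0, 4]),
  ([23, 13, 9, 22, 19, 10, 21, 16, 6, 4, 5, 14, 18, 3, 8, 15, 1, 11, 0, 7, 17, 20, 12, 2], [18, 16, 23, 13, 9, 10, 8, 19, 14, 2, 5, 17, 22, 1, 11, 15, 7, 20, 12, 4, 21, 6, 3, 0])]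

def c0 : ℕ × ℕ × ℕ := (5279, 3328320, 13443616)

def xL : List ℕ := [0, 1, 2, 3, 4, 15, 13, 7, 23, 21, 10, 18, 12, 6, 16, 5, 14, 19, 11, 17, 22, 9, 20, 8]

def xL' : List ℕ := [0, 1, 2, 3, 4, 15, 13, 7, 23, 21, 10, 18, 12, 6, 16, 5, 14, 19, 11, 17, 22, 9, 20, 8]

def yL : List ℕ := [6, 21, 20, 17, 11, 10, 22, 8, 9, 12, 15, 23, 14, 4, 13, 5, 2, 16, 1, 0, 18, 19, 7, 3]

def yL' : List ℕ := [19, 18, 16, 23, 13, 15, 0, 22, 7, 8, 5, 4, 9, 14, 12, 10, 17, 3, 20, 21, 2, 1, 6, 11]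
theorem s0_chk : chk s0L s6L = true := by decide +kernel

/-- The standard element of order seven. -/
def s0P : Equiv.Perm GolayPt := mkPerm s0L s6L s0_chk

theorem s0P_mem : s0P ∈ M24 := mkPerm_mem _ _ _ (by decide +kernel)

theorem pow_pt : ∀ k < 7, ∀ i < 24, (s0P ^ k) (pt i) = pt (nth (pw k) i) := by decide +kernel

theorem pw_lt : ∀ k < 7, ∀ i < 24, nth (pw k) i < 24 := by decide +kernel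

theorem s0_pow7 : s0P ^ 7 = 1 := by decide +kernel

theorem s0_pt (i : ℕ) (hi : i < 24) : s0P (pt i) = pt (nth s0L i) := mkPerm_pt _ _ _ i hi

theorem s0_lt (i : ℕ) (hi : i < 24) : nth s0L i < 24 := ((chk_spec s0_chk).2 i hi).1

/-- Intertwining check: `l ∘ s = s ^ k ∘ l` on indices. -/
def intB (k : ℕ) (l : List ℕ) : Bool :=
  (List.range 24).all (fun i => Nat.beq (nth l (nth s0L i)) (nth (pw k) (nth l i)))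

theorem int_of {l l' : List ℕ} (h : chk l l' = true) {k : ℕ} (hk : k < 7)
    (hb : intB k l = true) : mkPerm l l' h * s0P = s0P ^ k * mkPerm l l' h := by
  simp only [intB, List.all_eq_true, List.mem_range, Nat.beq_eq] at hb
  apply Equiv.ext
  intro p
  have hp := code_lt p
  rw [Equiv.Perm.mul_apply, Equiv.Perm.mul_apply, ← pt_code p, s0_pt _ hp,
    mkPerm_pt _ _ _ _ (s0_lt _ hp), mkPerm_pt _ _ _ _ hp, pow_pt k hk _ ((chk_spec h).2 _ hp).1,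
    hb _ hp]

theorem intB_of {l l' : List ℕ} (h : chk l l' = true) {k : ℕ} (hk : k < 7)
    (e : mkPerm l l' h * s0P = s0P ^ k * mkPerm l l' h) : intB k l = true := by
  simp only [intB, List.all_eq_true, List.mem_range, Nat.beq_eq]
  intro i hi
  have h1 := s0_lt i hi
  have h2 := ((chk_spec h).2 i hi).1
  have e1 : (mkPerm l l' h * s0P) (pt i) = (s0P ^ k * mkPerm l l' h) (pt i) := by rw [e]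
  rw [Equiv.Perm.mul_apply, Equiv.Perm.mul_apply, s0_pt i hi, mkPerm_pt _ _ _ _ h1,
    mkPerm_pt _ _ _ i hi, pow_pt k hk _ h2] at e1
  exact pt_inj ((chk_spec h).2 _ h1).1 (pw_lt k hk _ h2) e1

/-- The standard element of order seven, as an element of the group of the code. -/
def sig0 : ↥M24 := ⟨s0P, s0P_mem⟩

/-- The standard subgroup of order seven. -/
def Z0 : Subgroup ↥M24 := Subgroup.zpowers sig0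

/-- The normaliser of the standard subgroup of order seven, as a group of permutations. -/
def NP : Subgroup (Equiv.Perm GolayPt) :=
  (Subgroup.normalizer (Z0 : Set ↥M24)).map M24.subtype

/-- The centraliser of the standard subgroup of order seven, as a group of permutations. -/
def CP : Subgroup (Equiv.Perm GolayPt) :=
  (Subgroup.centralizer (Z0 : Set ↥M24)).map M24.subtype

theorem sig0_ne : sig0 ≠ 1 := by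
  intro e
  have e1 : s0P = 1 := congrArg Subtype.val e
  have e2 : s0P (pt 0) = pt 0 := by rw [e1]; rfl
  rw [s0_pt 0 (by norm_num)] at e2
  exact absurd (pt_inj (by decide) (by norm_num) e2) (by decide)

theorem sig0_order : orderOf sig0 = 7 := by
  have : Fact (Nat.Prime 7) := ⟨by norm_num⟩
  apply orderOf_eq_prime
  · apply Subtype.ext
    rw [Subgroup.coe_pow]
    exact s0_pow7
  · exact sig0_ne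

theorem card_Z0 : Nat.card ↥Z0 = 7 := by
  rw [Z0, Nat.card_zpowers, sig0_order]

theorem mem_CP {c : Equiv.Perm GolayPt} : c ∈ CP ↔ c ∈ M24 ∧ c * s0P = s0P * c := by
  constructor
  · rintro ⟨y, hy, rfl⟩
    refine ⟨y.2, ?_⟩
    have h1 := (Subgroup.mem_centralizer_iff.1 hy) sig0 (Subgroup.mem_zpowers sig0)
    have h2 := congrArg Subtype.val h1
    exact h2.symm
  · rintro ⟨hc, hcm⟩
    refine ⟨⟨c, hc⟩, Subgroup.mem_centralizer_iff.2 ?_, rfl⟩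
    intro h hh
    obtain ⟨k, rfl⟩ := Subgroup.mem_zpowers_iff.1 hh
    have hcomm : Commute sig0 ⟨c, hc⟩ := by
      show sig0 * ⟨c, hc⟩ = ⟨c, hc⟩ * sig0
      exact Subtype.ext hcm.symm
    exact hcomm.zpow_left k

theorem mem_NP {n : Equiv.Perm GolayPt} :
    n ∈ NP ↔ n ∈ M24 ∧ ∃ k, 1 ≤ k ∧ k < 7 ∧ n * s0P = s0P ^ k * n := by
  classical
  constructor
  · rintro ⟨y, hy, rfl⟩
    refine ⟨y.2, ?_⟩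
    have h1 : y * sig0 * y⁻¹ ∈ Subgroup.zpowers sig0 :=
      ((Subgroup.mem_normalizer_iff.1 hy) sig0).1 (Subgroup.mem_zpowers sig0)
    rw [mem_zpowers_iff_mem_range_orderOf, sig0_order] at h1
    obtain ⟨k, hk, e⟩ := Finset.mem_image.1 h1
    rw [Finset.mem_range] at hk
    have e' : y * sig0 = sig0 ^ k * y := by
      have e0 : sig0 ^ k = y * sig0 * y⁻¹ := e
      rw [e0]
      group
    refine ⟨k, ?_, hk, ?_⟩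
    · by_contra h0
      have hk0 : k = 0 := by omega
      rw [hk0, pow_zero, one_mul] at e'
      exact sig0_ne (mul_eq_left.1 e')
    · have h2 := congrArg Subtype.val e'
      exact h2
  · rintro ⟨hn, k, hk1, hk7, e⟩
    refine ⟨⟨n, hn⟩, ?_, rfl⟩
    apply mem_normalizer_zpowers
    have e' : (⟨n, hn⟩ : ↥M24) * sig0 * (⟨n, hn⟩ : ↥M24)⁻¹ = sig0 ^ k := by
      have e2 : (⟨n, hn⟩ : ↥M24) * sig0 = sig0 ^ k * ⟨n, hn⟩ := Subtype.ext e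
      rw [e2]
      group
    rw [e']
    exact Subgroup.pow_mem _ (Subgroup.mem_zpowers sig0) k

theorem CP_le : CP ≤ NP := by
  intro c hc
  obtain ⟨hm, e⟩ := mem_CP.1 hc
  exact mem_NP.2 ⟨hm, 1, le_refl 1, by norm_num, by rw [pow_one]; exact e⟩

theorem fix_of_bit : ∀ i < 24, Nat.testBit mvM i = false → nth s0L i = i := by decide +kernel

theorem moved_of {g : Equiv.Perm GolayPt} {k : ℕ} (h : g * s0P = s0P ^ k * g) :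
    Nat.testBit mvM (code (g (pt 0))) = true := by
  by_contra hcon
  have hb : Nat.testBit mvM (code (g (pt 0))) = false := by simpa using hcon
  have hfix : s0P (g (pt 0)) = g (pt 0) := by
    show mkPerm s0L s6L s0_chk (g (pt 0)) = g (pt 0)
    rw [mkPerm_apply, fix_of_bit _ (code_lt _) hb, pt_code]
  have e : (g * s0P) (pt 0) = (s0P ^ k * g) (pt 0) := by rw [h]
  rw [Equiv.Perm.mul_apply, Equiv.Perm.mul_apply,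
    Equiv.Perm.pow_apply_eq_self_of_apply_eq_self hfix, s0_pt 0 (by norm_num)] at e
  have e2 := g.injective e
  exact absurd (pt_inj (by decide) (by norm_num) e2) (by decide)

theorem c0_ok : trioChk c0 = true := by decide +kernel

/-- Check of the table of centralising elements. -/
def ctabB : Bool :=
  (List.range 24).all (fun j => or (!(Nat.testBit mvM j))
    (ctab.any (fun e => and (Nat.beq (nth e.1 0) j)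
      (and (and (and (chk e.1 e.2) (memChk e.1)) (intB 1 e.1)) (trioFix e.1 c0)))))

theorem ctab_ok : ctabB = true := by decide +kernel

theorem ctab_spec (q : GolayPt) (hq : Nat.testBit mvM (code q) = true) :
    ∃ c ∈ CP, c (pt 0) = q ∧ c • trioDec c0 = trioDec c0 := by
  have h := ctab_ok
  simp only [ctabB, List.all_eq_true, List.mem_range, Bool.or_eq_true, Bool.not_eq_true',
    List.any_eq_true, Bool.and_eq_true, Nat.beq_eq] at h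
  rcases h (code q) (code_lt q) with h1 | ⟨e, he, hj, ⟨⟨hc, hm⟩, hcm⟩, hfx⟩
  · rw [hq] at h1
    exact absurd h1 (by decide)
  · refine ⟨mkPerm e.1 e.2 hc, mem_CP.2 ⟨mkPerm_mem _ _ hc hm, ?_⟩, ?_,
      (trioFix_iff hc c0_ok).1 hfx⟩
    · have h5 := int_of hc (k := 1) (by norm_num) hcm
      rw [pow_one] at h5
      exact h5
    · rw [mkPerm_pt _ _ _ 0 (by norm_num), hj, pt_code]

/-- The images of the first five points under an element fixing the first point and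
conjugating the element of order seven to its `k`-th power. -/
def imgL (k : ℕ) : List ℕ :=
  [0, nth (pw k) 0, nth (pw k) (nth (pw k) 0), nth (pw k) (nth (pw k) (nth (pw k) 0)),
    nth (pw k) (nth (pw k) (nth (pw k) (nth (pw k) 0)))]

theorem img_step {g : Equiv.Perm GolayPt} {k : ℕ} (hk : k < 7) (h : g * s0P = s0P ^ k * g)
    {i j : ℕ} (hi : i < 24) (hj : j < 24) (e : g (pt i) = pt j) :
    g (pt (nth s0L i)) = pt (nth (pw k) j) := by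
  have e1 : (g * s0P) (pt i) = (s0P ^ k * g) (pt i) := by rw [h]
  rw [Equiv.Perm.mul_apply, Equiv.Perm.mul_apply, s0_pt i hi, e, pow_pt k hk j hj] at e1
  exact e1

theorem stab_case (k : ℕ) (hk : k < 7) (T L : List (List ℕ × List ℕ))
    (hT : candChk (imgL k) T = true) (hL : L.all (fun f => chk f.1 f.2) = true)
    (hF : T.all (fun e => or (!(intB k e.1)) (L.any (fun f => decide (f.1 = e.1)))) = true)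
    (g : Equiv.Perm GolayPt) (hg : g ∈ M24) (h0 : g (pt 0) = pt 0)
    (h : g * s0P = s0P ^ k * g) :
    ∃ f ∈ L, ∃ hc : chk f.1 f.2 = true, g = mkPerm f.1 f.2 hc := by
  have a1 := pw_lt k hk 0 (by norm_num)
  have a2 := pw_lt k hk _ a1
  have a3 := pw_lt k hk _ a2
  have h1 : g (pt 1) = pt (nth (pw k) 0) :=
    img_step hk h (i := 0) (by norm_num) (by norm_num) h0
  have h2 : g (pt 2) = pt (nth (pw k) (nth (pw k) 0)) :=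
    img_step hk h (i := 1) (by norm_num) a1 h1
  have h3 : g (pt 3) = pt (nth (pw k) (nth (pw k) (nth (pw k) 0))) :=
    img_step hk h (i := 2) (by norm_num) a2 h2
  have h4 : g (pt 4) = pt (nth (pw k) (nth (pw k) (nth (pw k) (nth (pw k) 0)))) :=
    img_step hk h (i := 3) (by norm_num) a3 h3
  obtain ⟨e, he, hce, rfl⟩ := cands (imgL k) T hT g hg (by
    intro i hi
    interval_cases i
    · exact h0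
    · exact h1
    · exact h2
    · exact h3
    · exact h4)
  have hb := intB_of hce hk h
  have hchk := (List.all_eq_true.1 hF) e he
  simp only [Bool.or_eq_true, Bool.not_eq_true', List.any_eq_true, decide_eq_true_eq] at hchk
  rcases hchk with h5 | ⟨f, hf, hfe⟩
  · rw [hb] at h5
    exact absurd h5 (by decide)
  · have hcf := (List.all_eq_true.1 hL) f hf
    refine ⟨f, hf, hcf, ?_⟩
    apply Equiv.ext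
    intro p
    rw [mkPerm_apply, mkPerm_apply, hfe]

theorem T1_ok : candChk (imgL 1) T1 = true := by decide +kernel
theorem T2_ok : candChk (imgL 2) T2 = true := by decide +kernel
theorem T3_ok : candChk (imgL 3) T3 = true := by decide +kernel
theorem T4_ok : candChk (imgL 4) T4 = true := by decide +kernel
theorem T5_ok : candChk (imgL 5) T5 = true := by decide +kernel
theorem T6_ok : candChk (imgL 6) T6 = true := by decide +kernel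

theorem stL_chk : stL.all (fun f => chk f.1 f.2) = true := by decide +kernel
theorem ctL_chk : ctL.all (fun f => chk f.1 f.2) = true := by decide +kernel

theorem T1_F : T1.all (fun e => or (!(intB 1 e.1)) (stL.any (fun f => decide (f.1 = e.1))))
    = true := by decide +kernel
theorem T2_F : T2.all (fun e => or (!(intB 2 e.1)) (stL.any (fun f => decide (f.1 = e.1))))
    = true := by decide +kernel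
theorem T3_F : T3.all (fun e => or (!(intB 3 e.1)) (stL.any (fun f => decide (f.1 = e.1))))
    = true := by decide +kernel
theorem T4_F : T4.all (fun e => or (!(intB 4 e.1)) (stL.any (fun f => decide (f.1 = e.1))))
    = true := by decide +kernel
theorem T5_F : T5.all (fun e => or (!(intB 5 e.1)) (stL.any (fun f => decide (f.1 = e.1))))
    = true := by decide +kernel
theorem T6_F : T6.all (fun e => or (!(intB 6 e.1)) (stL.any (fun f => decide (f.1 = e.1))))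
    = true := by decide +kernel
theorem T1_Fc : T1.all (fun e => or (!(intB 1 e.1)) (ctL.any (fun f => decide (f.1 = e.1))))
    = true := by decide +kernel

theorem NP1_list (g : Equiv.Perm GolayPt) (hg : g ∈ NP) (h0 : g (pt 0) = pt 0) :
    ∃ f ∈ stL, ∃ hc : chk f.1 f.2 = true, g = mkPerm f.1 f.2 hc := by
  obtain ⟨hm, k, hk1, hk7, e⟩ := mem_NP.1 hg
  interval_cases k
  · exact stab_case 1 (by norm_num) T1 stL T1_ok stL_chk T1_F g hm h0 e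
  · exact stab_case 2 (by norm_num) T2 stL T2_ok stL_chk T2_F g hm h0 e
  · exact stab_case 3 (by norm_num) T3 stL T3_ok stL_chk T3_F g hm h0 e
  · exact stab_case 4 (by norm_num) T4 stL T4_ok stL_chk T4_F g hm h0 e
  · exact stab_case 5 (by norm_num) T5 stL T5_ok stL_chk T5_F g hm h0 e
  · exact stab_case 6 (by norm_num) T6 stL T6_ok stL_chk T6_F g hm h0 e

theorem CP1_list (g : Equiv.Perm GolayPt) (hg : g ∈ CP) (h0 : g (pt 0) = pt 0) :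
    ∃ f ∈ ctL, ∃ hc : chk f.1 f.2 = true, g = mkPerm f.1 f.2 hc := by
  obtain ⟨hm, e⟩ := mem_CP.1 hg
  exact stab_case 1 (by norm_num) T1 ctL T1_ok ctL_chk T1_Fc g hm h0 (by rw [pow_one]; exact e)

/-- Check of an entry of the list of the stabiliser of the first point in the normaliser. -/
def stB (f : List ℕ × List ℕ) : Bool :=
  and (and (and (chk f.1 f.2) (memChk f.1)) (Nat.beq (nth f.1 0) 0))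
    (and (or (intB 1 f.1) (or (intB 2 f.1) (intB 4 f.1))) (trioFix f.1 c0))

theorem stL_ok : stL.all stB = true := by decide +kernel

theorem stL_spec {f : List ℕ × List ℕ} (hf : f ∈ stL) :
    ∃ hc : chk f.1 f.2 = true, mkPerm f.1 f.2 hc ∈ NP ∧ mkPerm f.1 f.2 hc (pt 0) = pt 0 ∧
      mkPerm f.1 f.2 hc • trioDec c0 = trioDec c0 := by
  have h := (List.all_eq_true.1 stL_ok) f hf
  simp only [stB, Bool.and_eq_true, Bool.or_eq_true, Nat.beq_eq] at h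
  obtain ⟨⟨⟨hc, hm⟩, h0⟩, hk, hT⟩ := h
  refine ⟨hc, ?_, ?_, (trioFix_iff hc c0_ok).1 hT⟩
  · rcases hk with hk | hk | hk
    · exact mem_NP.2 ⟨mkPerm_mem _ _ hc hm, 1, by norm_num, by norm_num,
        int_of hc (by norm_num) hk⟩
    · exact mem_NP.2 ⟨mkPerm_mem _ _ hc hm, 2, by norm_num, by norm_num,
        int_of hc (by norm_num) hk⟩
    · exact mem_NP.2 ⟨mkPerm_mem _ _ hc hm, 4, by norm_num, by norm_num,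
        int_of hc (by norm_num) hk⟩
  · rw [mkPerm_pt _ _ _ 0 (by norm_num), h0]

/-- Check of an entry of the list of the stabiliser of the first point in the centraliser. -/
def ctB (f : List ℕ × List ℕ) : Bool :=
  and (and (and (chk f.1 f.2) (memChk f.1)) (Nat.beq (nth f.1 0) 0)) (intB 1 f.1)

theorem ctL_ok : ctL.all ctB = true := by decide +kernel

theorem ctL_spec {f : List ℕ × List ℕ} (hf : f ∈ ctL) :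
    ∃ hc : chk f.1 f.2 = true, mkPerm f.1 f.2 hc ∈ CP ∧ mkPerm f.1 f.2 hc (pt 0) = pt 0 := by
  have h := (List.all_eq_true.1 ctL_ok) f hf
  simp only [ctB, Bool.and_eq_true, Nat.beq_eq] at h
  obtain ⟨⟨⟨hc, hm⟩, h0⟩, hk⟩ := h
  refine ⟨hc, mem_CP.2 ⟨mkPerm_mem _ _ hc hm, ?_⟩, ?_⟩
  · have h5 := int_of hc (k := 1) (by norm_num) hk
    rw [pow_one] at h5
    exact h5
  · rw [mkPerm_pt _ _ _ 0 (by norm_num), h0]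

theorem pc_mv : pc mvM = 21 := by decide +kernel

theorem orb_NP : MulAction.orbit ↥NP (pt 0)
    = ((support₂ (word mvM) : Finset GolayPt) : Set GolayPt) := by
  ext q
  rw [Finset.mem_coe, mem_support_word]
  constructor
  · rintro ⟨g, rfl⟩
    obtain ⟨-, k, -, -, e⟩ := mem_NP.1 g.2
    exact moved_of e
  · intro hq
    obtain ⟨c, hc, e, -⟩ := ctab_spec q hq
    exact ⟨⟨c, CP_le hc⟩, e⟩

theorem orb_CP : MulAction.orbit ↥CP (pt 0)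
    = ((support₂ (word mvM) : Finset GolayPt) : Set GolayPt) := by
  ext q
  rw [Finset.mem_coe, mem_support_word]
  constructor
  · rintro ⟨g, rfl⟩
    obtain ⟨-, k, -, -, e⟩ := mem_NP.1 (CP_le g.2)
    exact moved_of e
  · intro hq
    obtain ⟨c, hc, e, -⟩ := ctab_spec q hq
    exact ⟨⟨c, hc⟩, e⟩

theorem card_NP : Nat.card ↥NP = 126 := by
  have h := card_eq_orbit_mul NP (pt 0)
  rw [orb_NP, Set.ncard_coe_finset, supp_card, pc_mv] at h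
  have h6 : Nat.card ↥(NP ⊓ MulAction.stabilizer (Equiv.Perm GolayPt) (pt 0)) = 6 := by
    have h7 := card_eq_of_table (NP ⊓ MulAction.stabilizer (Equiv.Perm GolayPt) (pt 0)) stL 6
      (by norm_num) (by decide +kernel)
      (fun g hg => NP1_list g (Subgroup.mem_inf.1 hg).1
        (MulAction.mem_stabilizer_iff.1 (Subgroup.mem_inf.1 hg).2))
      (fun e he => by
        obtain ⟨hc, m1, m2, -⟩ := stL_spec he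
        exact ⟨hc, Subgroup.mem_inf.2 ⟨m1, MulAction.mem_stabilizer_iff.2 m2⟩⟩)
    rw [h7]
    rfl
  rw [h6] at h
  exact h

theorem card_CP : Nat.card ↥CP = 42 := by
  have h := card_eq_orbit_mul CP (pt 0)
  rw [orb_CP, Set.ncard_coe_finset, supp_card, pc_mv] at h
  have h6 : Nat.card ↥(CP ⊓ MulAction.stabilizer (Equiv.Perm GolayPt) (pt 0)) = 2 := by
    have h7 := card_eq_of_table (CP ⊓ MulAction.stabilizer (Equiv.Perm GolayPt) (pt 0)) ctL 6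
      (by norm_num) (by decide +kernel)
      (fun g hg => CP1_list g (Subgroup.mem_inf.1 hg).1
        (MulAction.mem_stabilizer_iff.1 (Subgroup.mem_inf.1 hg).2))
      (fun e he => by
        obtain ⟨hc, m1, m2⟩ := ctL_spec he
        exact ⟨hc, Subgroup.mem_inf.2 ⟨m1, MulAction.mem_stabilizer_iff.2 m2⟩⟩)
    rw [h7]
    rfl
  rw [h6] at h
  exact h

theorem NP_trio (n : Equiv.Perm GolayPt) (hn : n ∈ NP) : n • trioDec c0 = trioDec c0 := by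
  obtain ⟨-, k, -, -, e⟩ := mem_NP.1 hn
  obtain ⟨c, hc, ec, hcT⟩ := ctab_spec (n (pt 0)) (moved_of e)
  have ha : c⁻¹ * n ∈ NP := Subgroup.mul_mem _ (Subgroup.inv_mem _ (CP_le hc)) hn
  have ha0 : (c⁻¹ * n) (pt 0) = pt 0 := by
    rw [Equiv.Perm.mul_apply, ← ec]
    simp
  obtain ⟨f, hf, hcf, ef⟩ := NP1_list _ ha ha0
  obtain ⟨hc', -, -, hT⟩ := stL_spec hf
  have hn' : n = c * (c⁻¹ * n) := by group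
  rw [hn', mul_smul, ef, hT, hcT]

theorem xy_ok : and (and (and (chk xL xL') (memChk xL)) (intB 1 xL))
    (and (and (chk yL yL') (memChk yL)) (intB 1 yL)) = true := by decide +kernel

theorem noncomm : ∃ x ∈ CP, ∃ y ∈ CP, x * y ≠ y * x := by
  have h := xy_ok
  simp only [Bool.and_eq_true] at h
  obtain ⟨⟨⟨hx, hxm⟩, hxi⟩, ⟨hy, hym⟩, hyi⟩ := h
  have hxc := int_of hx (k := 1) (by norm_num) hxi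
  have hyc := int_of hy (k := 1) (by norm_num) hyi
  rw [pow_one] at hxc hyc
  refine ⟨mkPerm xL xL' hx, mem_CP.2 ⟨mkPerm_mem _ _ hx hxm, hxc⟩,
    mkPerm yL yL' hy, mem_CP.2 ⟨mkPerm_mem _ _ hy hym, hyc⟩, ?_⟩
  intro e
  have e1 : (mkPerm xL xL' hx * mkPerm yL yL' hy) (pt 0)
      = (mkPerm yL yL' hy * mkPerm xL xL' hx) (pt 0) := by rw [e]
  rw [Equiv.Perm.mul_apply, Equiv.Perm.mul_apply, mkPerm_pt _ _ hy 0 (by norm_num),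
    mkPerm_pt _ _ hx 0 (by norm_num), mkPerm_pt _ _ hx _ (by decide),
    mkPerm_pt _ _ hy _ (by decide)] at e1
  exact absurd (pt_inj (by decide) (by decide) e1) (by decide)

/-- For a subgroup S of order 7 of the group of the length-24 code (a Sylow 7-subgroup): the normaliser of S has order 126, the centraliser of S has order 42 and is non-abelian, and the whole normaliser leaves some trio invariant. (These are the orders of a Frobenius group of order 21 times a symmetric group of degree 3; the isomorphism type itself is not asserted here.) -/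
theorem result (S : Subgroup ↥Cfsg.M24) (hS : Nat.card S = 7) : Nat.card ↥(Subgroup.normalizer (S : Set ↥Cfsg.M24)) = 126 ∧ Nat.card ↥(Subgroup.centralizer (S : Set ↥Cfsg.M24)) = 42 ∧ (∃ x ∈ Subgroup.centralizer (S : Set ↥Cfsg.M24), ∃ y ∈ Subgroup.centralizer (S : Set ↥Cfsg.M24), x * y ≠ y * x) ∧ ∃ T ∈ Cfsg.trios, ∀ n ∈ Subgroup.normalizer (S : Set ↥Cfsg.M24), ((n : ↥Cfsg.M24) : Equiv.Perm Cfsg.GolayPt) • T = T := by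
  have : Fact (Nat.Prime 7) := ⟨by norm_num⟩
  have hfac : (Nat.card ↥M24).factorization 7 = 1 := by
    rw [card_M24]
    exact fact7
  obtain ⟨g, hg⟩ := sylow_conj 7 S Z0 (by rw [hS, hfac, pow_one])
    (by rw [card_Z0, hfac, pow_one])
  have hN := norm_conj S Z0 g hg
  have hC := cent_conj S Z0 g hg
  refine ⟨?_, ?_, ?_, ?_⟩
  · rw [card_conj _ _ g hN, ← Subgroup.card_map_of_injective (Subgroup.subtype_injective M24)]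
    exact card_NP
  · rw [card_conj _ _ g hC, ← Subgroup.card_map_of_injective (Subgroup.subtype_injective M24)]
    exact card_CP
  · obtain ⟨x, hx, y, hy, hne⟩ := noncomm
    obtain ⟨x', hx', rfl⟩ := hx
    obtain ⟨y', hy', rfl⟩ := hy
    have ex : g * (g⁻¹ * x' * g) * g⁻¹ = x' := by group
    have ey : g * (g⁻¹ * y' * g) * g⁻¹ = y' := by group
    refine ⟨g⁻¹ * x' * g, (hC _).2 (by rw [ex]; exact hx'), g⁻¹ * y' * g,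
      (hC _).2 (by rw [ey]; exact hy'), ?_⟩
    intro e
    apply hne
    have e2 : x' * y' = y' * x' := by
      have a1 : x' * y' = g * ((g⁻¹ * x' * g) * (g⁻¹ * y' * g)) * g⁻¹ := by group
      have a2 : y' * x' = g * ((g⁻¹ * y' * g) * (g⁻¹ * x' * g)) * g⁻¹ := by group
      rw [a1, a2, e]
    exact congrArg Subtype.val e2
  · refine ⟨((g⁻¹ : ↥M24) : Equiv.Perm GolayPt) • trioDec c0,
      smul_trio (g⁻¹).2 (trioDec_mem c0_ok), ?_⟩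
    intro n hn
    have h1 : M24.subtype (g * n * g⁻¹) ∈ NP := Subgroup.mem_map_of_mem _ ((hN n).1 hn)
    have h2 := NP_trio _ h1
    have h3 : (M24.subtype (g * n * g⁻¹) : Equiv.Perm GolayPt)
        = (g : Equiv.Perm GolayPt) * (n : Equiv.Perm GolayPt) * (g : Equiv.Perm GolayPt)⁻¹ := rfl
    rw [h3, mul_smul, mul_smul] at h2
    have h4 := congrArg (fun X => (g : Equiv.Perm GolayPt)⁻¹ • X) h2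
    simp only [inv_smul_smul] at h4
    exact h4
end Cfsg.Agent.S5604
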