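import Cfsg.Statements.S5605
import Cfsg.Agent.Lib.Helper28.M24Count
import Cfsg.Agent.S5394
import Cfsg.Agent.S5601

set_option autoImplicit false
open scoped Pointwise
open Cfsg

namespace Cfsg.Agent.S5605

open Cfsg Cfsg.Agent.Lib.Helper4.Golay Cfsg.Agent.Lib.Helper28
open Pointwise

/-- An involution of the group of the length-24 code with exactly 8 fixed points maps to themselves exactly 71 octads, exactly 99 trios and exactly 91 sextets. -/
theorem result (g : Equiv.Perm Cfsg.GolayPt) (hg : g ∈ Cfsg.M24) (h₂ : orderOf g = 2) (h₈ : (Finset.univ.filter fun p => g p = p).card = 8) : {o : Finset Cfsg.GolayPt | o ∈ Cfsg.octads ∧ g • o = o}.ncard = 71 ∧ {T : Finset (Finset Cfsg.GolayPt) | T ∈ Cfsg.trios ∧ g • T = T}.ncard = 99 ∧ {S : Finset (Finset Cfsg.GolayPt) | S ∈ Cfsg.sextets ∧ g • S = S}.ncard = 91 := by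
  classical
  have hpos : 0 < (Finset.univ.filter fun p => g p = p).card := by rw [h₈]; norm_num
  obtain ⟨p, hp⟩ := Finset.card_pos.1 hpos
  rw [Finset.mem_filter] at hp
  obtain ⟨-, k, hk, e⟩ := Cfsg.Agent.S5394.typeA g hg h₂ p hp.2
  have hk' : k⁻¹ ∈ M24 := Subgroup.inv_mem _ hk
  rw [eq_conj_of_conj e, fixed_octads_conj hk', fixed_trios_conj hk', fixed_sextets_conj hk']
  refine ⟨?_, ?_, ?_⟩
  · show {o | o ∈ octads ∧ mkPerm Cfsg.Agent.S5394.r8 Cfsg.Agent.S5394.r8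
      Cfsg.Agent.S5394.r8_chk • o = o}.ncard = 71
    rw [fixed_octads]
    decide +kernel
  · show {T | T ∈ trios ∧ mkPerm Cfsg.Agent.S5394.r8 Cfsg.Agent.S5394.r8
      Cfsg.Agent.S5394.r8_chk • T = T}.ncard = 99
    rw [fixed_trios]
    decide +kernel
  · show {S | S ∈ sextets ∧ mkPerm Cfsg.Agent.S5394.r8 Cfsg.Agent.S5394.r8
      Cfsg.Agent.S5394.r8_chk • S = S}.ncard = 91
    rw [fixed_sextets _ _ _ Cfsg.Agent.S5394.R8_mem]
    decide +kernel
end Cfsg.Agent.S5605
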