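import Cfsg.Statements.S5606
import Cfsg.Agent.Lib.Helper28.M24Count
import Cfsg.Agent.S5394
import Cfsg.Agent.S5601

set_option autoImplicit false
open scoped Pointwise
open Cfsg

namespace Cfsg.Agent.S5606

open Cfsg Cfsg.Agent.Lib.Helper4.Golay Cfsg.Agent.Lib.Helper28
open Pointwise

/-- A fixed-point-free involution of the group of the length-24 code maps to themselves exactly 15 octads, exactly 75 trios and exactly 51 sextets. -/
theorem result (g : Equiv.Perm Cfsg.GolayPt) (hg : g ∈ Cfsg.M24) (h₂ : orderOf g = 2) (h₀ : ∀ p, g p ≠ p) : {o : Finset Cfsg.GolayPt | o ∈ Cfsg.octads ∧ g • o = o}.ncard = 15 ∧ {T : Finset (Finset Cfsg.GolayPt) | T ∈ Cfsg.trios ∧ g • T = T}.ncard = 75 ∧ {S : Finset (Finset Cfsg.GolayPt) | S ∈ Cfsg.sextets ∧ g • S = S}.ncard = 51 := by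
  classical
  obtain ⟨k, hk, e⟩ := Cfsg.Agent.S5394.typeB g hg h₂ h₀
  have hk' : k⁻¹ ∈ M24 := Subgroup.inv_mem _ hk
  rw [eq_conj_of_conj e, fixed_octads_conj hk', fixed_trios_conj hk', fixed_sextets_conj hk']
  refine ⟨?_, ?_, ?_⟩
  · show {o | o ∈ octads ∧ mkPerm Cfsg.Agent.S5394.r0 Cfsg.Agent.S5394.r0
      Cfsg.Agent.S5394.r0_chk • o = o}.ncard = 15
    rw [fixed_octads]
    decide +kernel
  · show {T | T ∈ trios ∧ mkPerm Cfsg.Agent.S5394.r0 Cfsg.Agent.S5394.r0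
      Cfsg.Agent.S5394.r0_chk • T = T}.ncard = 75
    rw [fixed_trios]
    decide +kernel
  · show {S | S ∈ sextets ∧ mkPerm Cfsg.Agent.S5394.r0 Cfsg.Agent.S5394.r0
      Cfsg.Agent.S5394.r0_chk • S = S}.ncard = 51
    rw [fixed_sextets _ _ _ Cfsg.Agent.S5394.R0_mem]
    decide +kernel
end Cfsg.Agent.S5606
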