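import Cfsg.Statements.S5607
import Cfsg.Agent.S5394
import Cfsg.Agent.Lib.Helper28.M24Orb

set_option autoImplicit false
open scoped Pointwise
open Cfsg

namespace Cfsg.Agent.S5607

open Cfsg Cfsg.Agent.Lib.Helper4 Cfsg.Agent.Lib.Helper4.Golay Cfsg.Agent.Lib.Helper28
open Cfsg.Agent.S5394 Cfsg.Agent.S1550
open Pointwise

set_option maxRecDepth 100000

def L0 : List ℕ := [588, 20528, 1089792, 2949120, 4196355, 8520832]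

def mT0 : ℕ := 4196355

def mT1 : ℕ := 588

def o1 : ℕ := 12580860

def o2 : ℕ := 12580272

def cert : List ℕ := [0, 0, 5264, 5264, 786948, 786948, 17568, 8964, 4648, 17568, 8520, 0, 165120, 4196, 165120, 4196, 24864, 8964, 24864, 12560, 4648, 12560, 0, 8520]

def T24 : List (List ℕ × List ℕ) := [
  ([0, 1, 2, 3, 4, 5, 6, 7, 8, 9, 10, 11, 12, 13, 14, 15, 16, 17, 18, 19, 20, 21, 22, 23], [0, 1, 2, 3, 4, 5, 6, 7, 8, 9, 10, 11, 12, 13, 14, 15, 16, 17, 18, 19, 20, 21, 22, 23]),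
  ([1, 0, 3, 2, 8, 20, 6, 19, 10, 9, 16, 11, 15, 17, 13, 7, 4, 21, 5, 12, 23, 14, 22, 18], [1, 0, 3, 2, 16, 18, 6, 15, 4, 9, 8, 11, 19, 14, 21, 12, 10, 13, 23, 7, 5, 17, 22, 20]),
  ([2, 3, 22, 11, 7, 17, 1, 14, 8, 0, 5, 6, 10, 13, 23, 15, 18, 12, 16, 21, 20, 19, 9, 4], [9, 6, 0, 1, 23, 10, 11, 4, 8, 22, 12, 3, 17, 13, 7, 15, 18, 5, 16, 21, 20, 19, 2, 14]),
  ([3, 2, 20, 8, 11, 22, 15, 17, 12, 13, 10, 6, 0, 5, 1, 4, 18, 7, 16, 19, 14, 21, 9, 23], [12, 14, 1, 0, 15, 13, 11, 17, 3, 22, 10, 4, 8, 9, 20, 6, 18, 7, 16, 19, 2, 21, 5, 23]),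
  ([4, 5, 6, 9, 18, 16, 3, 23, 11, 2, 7, 12, 21, 0, 19, 1, 15, 10, 13, 20, 22, 8, 14, 17], [13, 15, 9, 6, 0, 1, 2, 10, 21, 3, 17, 8, 11, 18, 22, 16, 5, 23, 4, 14, 19, 12, 20, 7]),
  ([5, 4, 8, 20, 21, 19, 13, 0, 23, 15, 11, 14, 18, 7, 16, 17, 3, 1, 2, 6, 10, 9, 12, 22], [7, 17, 18, 16, 1, 0, 19, 13, 2, 21, 20, 10, 22, 6, 11, 9, 14, 15, 12, 5, 3, 4, 23, 8]),
  ([6, 9, 11, 22, 15, 13, 1, 16, 5, 0, 19, 3, 8, 12, 20, 14, 23, 18, 10, 17, 4, 7, 2, 21], [9, 6, 22, 11, 20, 8, 0, 21, 12, 1, 18, 2, 13, 5, 15, 4, 7, 19, 17, 10, 14, 23, 3, 16]),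
  ([7, 17, 21, 19, 8, 20, 16, 1, 12, 18, 22, 10, 15, 5, 13, 4, 2, 0, 3, 9, 14, 6, 23, 11], [17, 7, 16, 18, 15, 13, 21, 0, 4, 19, 11, 23, 8, 14, 20, 12, 6, 1, 9, 3, 5, 2, 10, 22]),
  ([8, 20, 17, 7, 4, 5, 10, 1, 16, 23, 11, 15, 12, 21, 14, 19, 2, 0, 3, 6, 18, 9, 13, 22], [17, 7, 16, 18, 4, 5, 19, 3, 0, 21, 6, 10, 12, 22, 14, 11, 8, 2, 20, 15, 1, 13, 23, 9]),
  ([9, 6, 22, 11, 23, 10, 1, 14, 15, 0, 5, 3, 17, 20, 7, 8, 19, 12, 21, 16, 13, 18, 2, 4], [9, 6, 22, 11, 23, 10, 1, 14, 15, 0, 5, 3, 17, 20, 7, 8, 19, 12, 21, 16, 13, 18, 2, 4]),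
  ([10, 23, 15, 13, 18, 16, 20, 9, 4, 8, 3, 7, 21, 14, 19, 12, 11, 6, 22, 1, 5, 0, 17, 2], [21, 19, 23, 10, 8, 20, 17, 11, 9, 7, 0, 16, 15, 3, 13, 2, 5, 22, 4, 14, 6, 12, 18, 1]),
  ([11, 22, 12, 14, 9, 6, 5, 19, 15, 4, 18, 0, 2, 20, 3, 8, 23, 21, 10, 7, 13, 17, 1, 16], [11, 22, 12, 14, 9, 6, 5, 19, 15, 4, 18, 0, 2, 20, 3, 8, 23, 21, 10, 7, 13, 17, 1, 16]),
  ([12, 14, 19, 21, 23, 10, 16, 11, 9, 18, 1, 5, 17, 2, 7, 3, 15, 22, 13, 8, 6, 20, 4, 0], [23, 10, 13, 15, 22, 11, 20, 14, 19, 8, 5, 7, 0, 18, 1, 16, 6, 12, 9, 2, 21, 3, 17, 4]),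
  ([13, 15, 9, 6, 12, 14, 3, 19, 22, 2, 18, 20, 4, 0, 5, 1, 23, 21, 10, 7, 11, 17, 8, 16], [13, 15, 9, 6, 12, 14, 3, 19, 22, 2, 18, 20, 4, 0, 5, 1, 23, 21, 10, 7, 11, 17, 8, 16]),
  ([14, 12, 8, 20, 21, 19, 13, 1, 17, 15, 22, 5, 18, 10, 16, 23, 2, 0, 3, 9, 7, 6, 4, 11], [17, 7, 16, 18, 22, 11, 21, 20, 2, 19, 13, 23, 1, 6, 0, 9, 14, 8, 12, 5, 3, 4, 10, 15]),
  ([15, 13, 12, 14, 23, 10, 5, 6, 19, 4, 3, 8, 17, 18, 7, 16, 22, 9, 11, 1, 21, 0, 20, 2], [21, 19, 23, 10, 9, 6, 7, 14, 11, 17, 5, 18, 2, 1, 3, 0, 15, 12, 13, 8, 22, 20, 16, 4]),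
  ([16, 18, 7, 17, 12, 14, 23, 3, 20, 10, 6, 19, 4, 15, 5, 13, 22, 2, 11, 1, 8, 0, 21, 9], [21, 19, 17, 7, 12, 14, 10, 2, 20, 23, 9, 18, 4, 15, 5, 13, 0, 3, 1, 11, 8, 22, 16, 6]),
  ([17, 7, 16, 18, 4, 5, 19, 3, 0, 21, 6, 10, 12, 22, 14, 11, 8, 2, 20, 15, 1, 13, 23, 9], [8, 20, 17, 7, 4, 5, 10, 1, 16, 23, 11, 15, 12, 21, 14, 19, 2, 0, 3, 6, 18, 9, 13, 22]),
  ([18, 16, 4, 5, 17, 7, 14, 1, 20, 12, 11, 21, 23, 15, 10, 13, 2, 0, 3, 6, 8, 9, 19, 22], [17, 7, 16, 18, 2, 3, 19, 5, 20, 21, 14, 10, 9, 15, 6, 13, 1, 4, 0, 22, 8, 11, 23, 12]),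
  ([19, 21, 4, 5, 10, 23, 14, 1, 13, 12, 11, 16, 7, 8, 17, 20, 9, 0, 6, 3, 15, 2, 18, 22], [17, 7, 21, 19, 2, 3, 18, 12, 13, 16, 4, 10, 9, 8, 6, 20, 11, 14, 22, 0, 15, 1, 23, 5]),
  ([20, 8, 0, 1, 17, 7, 11, 16, 2, 22, 21, 13, 23, 9, 10, 6, 4, 18, 5, 14, 3, 12, 15, 19], [2, 3, 8, 20, 16, 18, 15, 5, 1, 13, 14, 6, 21, 11, 19, 22, 7, 4, 17, 23, 0, 10, 9, 12]),
  ([21, 19, 23, 10, 12, 14, 7, 6, 13, 17, 3, 18, 4, 8, 5, 20, 22, 9, 11, 1, 15, 0, 16, 2], [21, 19, 23, 10, 12, 14, 7, 6, 13, 17, 3, 18, 4, 8, 5, 20, 22, 9, 11, 1, 15, 0, 16, 2]),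
  ([22, 11, 6, 9, 4, 5, 2, 10, 15, 3, 7, 1, 12, 20, 14, 8, 16, 23, 18, 19, 13, 21, 0, 17], [22, 11, 6, 9, 4, 5, 2, 10, 15, 3, 7, 1, 12, 20, 14, 8, 16, 23, 18, 19, 13, 21, 0, 17]),
  ([23, 10, 19, 21, 4, 5, 16, 6, 11, 18, 3, 7, 12, 1, 14, 0, 8, 9, 20, 15, 22, 13, 17, 2], [15, 13, 23, 10, 4, 5, 7, 11, 16, 17, 1, 8, 12, 21, 14, 19, 6, 22, 9, 2, 18, 3, 20, 0])]

def T20 : List (List ℕ × List ℕ) := [
  ([0, 1, 2, 3, 4, 5, 6, 7, 8, 9, 10, 11, 12, 13, 14, 15, 16, 17, 18, 19, 20, 21, 22, 23], [0, 1, 2, 3, 4, 5, 6, 7, 8, 9, 10, 11, 12, 13, 14, 15, 16, 17, 18, 19, 20, 21, 22, 23]),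
  ([0, 1, 3, 2, 14, 12, 9, 17, 15, 6, 23, 11, 5, 20, 4, 8, 16, 7, 18, 19, 13, 21, 22, 10], [0, 1, 3, 2, 14, 12, 9, 17, 15, 6, 23, 11, 5, 20, 4, 8, 16, 7, 18, 19, 13, 21, 22, 10]),
  ([0, 1, 4, 5, 2, 3, 14, 19, 8, 12, 18, 11, 9, 13, 6, 15, 23, 21, 10, 7, 20, 17, 22, 16], [0, 1, 4, 5, 2, 3, 14, 19, 8, 12, 18, 11, 9, 13, 6, 15, 23, 21, 10, 7, 20, 17, 22, 16]),
  ([0, 1, 5, 4, 6, 9, 12, 21, 15, 14, 16, 11, 3, 20, 2, 8, 23, 19, 10, 7, 13, 17, 22, 18], [0, 1, 14, 12, 3, 2, 4, 19, 15, 5, 18, 11, 6, 20, 9, 8, 10, 21, 23, 17, 13, 7, 22, 16]),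
  ([0, 1, 6, 9, 14, 12, 2, 10, 8, 3, 7, 11, 5, 13, 4, 15, 21, 23, 19, 18, 20, 16, 22, 17], [0, 1, 6, 9, 14, 12, 2, 10, 8, 3, 7, 11, 5, 13, 4, 15, 21, 23, 19, 18, 20, 16, 22, 17]),
  ([0, 1, 7, 17, 6, 9, 23, 15, 21, 10, 20, 11, 3, 16, 2, 18, 12, 13, 14, 5, 19, 4, 22, 8], [0, 1, 14, 12, 21, 19, 4, 2, 23, 5, 9, 11, 16, 17, 18, 7, 13, 3, 15, 20, 10, 8, 22, 6]),
  ([0, 1, 8, 20, 2, 3, 13, 4, 7, 15, 14, 22, 6, 23, 9, 10, 18, 5, 16, 19, 17, 21, 11, 12], [0, 1, 4, 5, 7, 17, 12, 8, 2, 14, 15, 22, 23, 6, 10, 9, 18, 20, 16, 19, 3, 21, 11, 13]),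
  ([0, 1, 9, 6, 4, 5, 3, 23, 15, 2, 17, 11, 12, 20, 14, 8, 21, 10, 19, 18, 13, 16, 22, 7], [0, 1, 9, 6, 4, 5, 3, 23, 15, 2, 17, 11, 12, 20, 14, 8, 21, 10, 19, 18, 13, 16, 22, 7]),
  ([0, 1, 10, 23, 6, 9, 17, 8, 18, 7, 13, 11, 3, 19, 2, 21, 4, 20, 5, 14, 16, 12, 22, 15], [0, 1, 14, 12, 16, 18, 4, 9, 7, 5, 2, 11, 21, 10, 19, 23, 20, 6, 8, 13, 17, 15, 22, 3]),
  ([0, 1, 12, 14, 2, 3, 5, 16, 15, 4, 21, 11, 9, 20, 6, 8, 17, 18, 7, 10, 13, 23, 22, 19], [0, 1, 4, 5, 9, 6, 14, 18, 15, 12, 19, 11, 2, 20, 3, 8, 7, 16, 17, 23, 13, 10, 22, 21]),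
  ([0, 1, 13, 15, 9, 6, 8, 14, 7, 20, 4, 22, 3, 23, 2, 10, 21, 12, 19, 16, 17, 18, 11, 5], [0, 1, 14, 12, 10, 23, 5, 8, 6, 4, 15, 22, 17, 2, 7, 3, 19, 20, 21, 18, 9, 16, 11, 13]),
  ([0, 1, 14, 12, 6, 9, 4, 18, 8, 5, 19, 11, 3, 13, 2, 15, 17, 16, 7, 10, 20, 23, 22, 21], [0, 1, 14, 12, 6, 9, 4, 18, 8, 5, 19, 11, 3, 13, 2, 15, 17, 16, 7, 10, 20, 23, 22, 21]),
  ([0, 1, 15, 13, 2, 3, 20, 12, 10, 8, 5, 22, 6, 17, 9, 7, 21, 14, 19, 16, 23, 18, 11, 4], [0, 1, 4, 5, 23, 10, 12, 15, 9, 14, 8, 22, 7, 3, 17, 2, 19, 13, 21, 18, 6, 16, 11, 20]),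
  ([0, 1, 16, 18, 9, 6, 21, 7, 14, 19, 23, 22, 3, 4, 2, 5, 8, 17, 20, 13, 12, 15, 11, 10], [0, 1, 14, 12, 13, 15, 5, 7, 16, 4, 23, 22, 20, 19, 8, 21, 2, 17, 3, 9, 18, 6, 11, 10]),
  ([0, 1, 17, 7, 2, 3, 10, 13, 18, 23, 8, 11, 9, 19, 6, 21, 12, 15, 14, 5, 16, 4, 22, 20], [0, 1, 4, 5, 21, 19, 14, 3, 10, 12, 6, 11, 16, 7, 18, 17, 20, 2, 8, 13, 23, 15, 22, 9]),
  ([0, 1, 18, 16, 2, 3, 19, 17, 5, 21, 10, 22, 6, 12, 9, 14, 8, 7, 20, 13, 4, 15, 11, 23], [0, 1, 4, 5, 20, 8, 12, 17, 16, 14, 10, 22, 13, 19, 15, 21, 3, 7, 2, 6, 18, 9, 11, 23]),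
  ([0, 1, 19, 21, 2, 3, 18, 7, 4, 16, 23, 22, 6, 14, 9, 12, 13, 17, 15, 8, 5, 20, 11, 10], [0, 1, 4, 5, 8, 20, 12, 7, 19, 14, 23, 22, 15, 16, 13, 18, 9, 17, 6, 2, 21, 3, 11, 10]),
  ([0, 1, 20, 8, 9, 6, 15, 5, 10, 13, 12, 22, 3, 17, 2, 7, 18, 4, 16, 19, 23, 21, 11, 14], [0, 1, 14, 12, 17, 7, 5, 15, 3, 4, 8, 22, 10, 9, 23, 6, 18, 13, 16, 19, 2, 21, 11, 20]),
  ([0, 1, 21, 19, 2, 3, 16, 23, 14, 18, 7, 22, 6, 4, 9, 5, 15, 10, 13, 20, 12, 8, 11, 17], [0, 1, 4, 5, 13, 15, 12, 10, 21, 14, 17, 22, 20, 18, 8, 16, 6, 23, 9, 3, 19, 2, 11, 7]),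
  ([0, 1, 23, 10, 2, 3, 7, 20, 21, 17, 15, 11, 9, 16, 6, 18, 4, 8, 5, 14, 19, 12, 22, 13], [0, 1, 4, 5, 16, 18, 14, 6, 17, 12, 3, 11, 21, 23, 19, 10, 13, 9, 15, 20, 7, 8, 22, 2])]

def T16 : List (List ℕ × List ℕ) := [
  ([0, 1, 2, 3, 4, 5, 6, 7, 8, 9, 10, 11, 12, 13, 14, 15, 16, 17, 18, 19, 20, 21, 22, 23], [0, 1, 2, 3, 4, 5, 6, 7, 8, 9, 10, 11, 12, 13, 14, 15, 16, 17, 18, 19, 20, 21, 22, 23]),
  ([0, 1, 2, 3, 5, 4, 6, 17, 13, 9, 23, 11, 14, 8, 12, 20, 21, 7, 19, 18, 15, 16, 22, 10], [0, 1, 2, 3, 5, 4, 6, 17, 13, 9, 23, 11, 14, 8, 12, 20, 21, 7, 19, 18, 15, 16, 22, 10]),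
  ([0, 1, 2, 3, 7, 17, 6, 4, 19, 9, 12, 11, 10, 18, 23, 16, 15, 5, 13, 8, 21, 20, 22, 14], [0, 1, 2, 3, 7, 17, 6, 4, 19, 9, 12, 11, 10, 18, 23, 16, 15, 5, 13, 8, 21, 20, 22, 14]),
  ([0, 1, 2, 3, 8, 20, 9, 19, 7, 6, 16, 22, 15, 23, 13, 10, 12, 21, 14, 4, 17, 5, 11, 18], [0, 1, 2, 3, 19, 21, 9, 8, 4, 6, 15, 22, 16, 14, 18, 12, 10, 20, 23, 7, 5, 17, 11, 13]),
  ([0, 1, 2, 3, 10, 23, 6, 12, 16, 9, 4, 11, 7, 21, 17, 19, 8, 14, 20, 15, 18, 13, 22, 5], [0, 1, 2, 3, 10, 23, 6, 12, 16, 9, 4, 11, 7, 21, 17, 19, 8, 14, 20, 15, 18, 13, 22, 5]),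
  ([0, 1, 2, 3, 12, 14, 6, 10, 15, 9, 7, 11, 4, 20, 5, 8, 19, 23, 21, 16, 13, 18, 22, 17], [0, 1, 2, 3, 12, 14, 6, 10, 15, 9, 7, 11, 4, 20, 5, 8, 19, 23, 21, 16, 13, 18, 22, 17]),
  ([0, 1, 2, 3, 13, 15, 9, 18, 17, 6, 21, 22, 20, 10, 8, 23, 14, 16, 12, 5, 7, 4, 11, 19], [0, 1, 2, 3, 21, 19, 9, 20, 14, 6, 13, 22, 18, 4, 16, 5, 17, 8, 7, 23, 12, 10, 11, 15]),
  ([0, 1, 2, 3, 14, 12, 6, 23, 20, 9, 17, 11, 5, 15, 4, 13, 18, 10, 16, 21, 8, 19, 22, 7], [0, 1, 2, 3, 14, 12, 6, 23, 20, 9, 17, 11, 5, 15, 4, 13, 18, 10, 16, 21, 8, 19, 22, 7]),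
  ([0, 1, 2, 3, 15, 13, 9, 16, 10, 6, 19, 22, 8, 17, 20, 7, 4, 18, 5, 12, 23, 14, 11, 21], [0, 1, 2, 3, 16, 18, 9, 15, 12, 6, 8, 22, 19, 5, 21, 4, 7, 13, 17, 10, 14, 23, 11, 20]),
  ([0, 1, 2, 3, 16, 18, 9, 15, 12, 6, 8, 22, 19, 5, 21, 4, 7, 13, 17, 10, 14, 23, 11, 20], [0, 1, 2, 3, 15, 13, 9, 16, 10, 6, 19, 22, 8, 17, 20, 7, 4, 18, 5, 12, 23, 14, 11, 21]),
  ([0, 1, 2, 3, 17, 7, 6, 5, 18, 9, 14, 11, 23, 19, 10, 21, 20, 4, 8, 13, 16, 15, 22, 12], [0, 1, 2, 3, 17, 7, 6, 5, 18, 9, 14, 11, 23, 19, 10, 21, 20, 4, 8, 13, 16, 15, 22, 12]),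
  ([0, 1, 2, 3, 18, 16, 9, 13, 5, 6, 20, 22, 21, 12, 19, 14, 23, 15, 10, 17, 4, 7, 11, 8], [0, 1, 2, 3, 20, 8, 9, 21, 23, 6, 18, 22, 13, 7, 15, 17, 5, 19, 4, 14, 10, 12, 11, 16]),
  ([0, 1, 2, 3, 19, 21, 9, 8, 4, 6, 15, 22, 16, 14, 18, 12, 10, 20, 23, 7, 5, 17, 11, 13], [0, 1, 2, 3, 8, 20, 9, 19, 7, 6, 16, 22, 15, 23, 13, 10, 12, 21, 14, 4, 17, 5, 11, 18]),
  ([0, 1, 2, 3, 20, 8, 9, 21, 23, 6, 18, 22, 13, 7, 15, 17, 5, 19, 4, 14, 10, 12, 11, 16], [0, 1, 2, 3, 18, 16, 9, 13, 5, 6, 20, 22, 21, 12, 19, 14, 23, 15, 10, 17, 4, 7, 11, 8]),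
  ([0, 1, 2, 3, 21, 19, 9, 20, 14, 6, 13, 22, 18, 4, 16, 5, 17, 8, 7, 23, 12, 10, 11, 15], [0, 1, 2, 3, 13, 15, 9, 18, 17, 6, 21, 22, 20, 10, 8, 23, 14, 16, 12, 5, 7, 4, 11, 19]),
  ([0, 1, 2, 3, 23, 10, 6, 14, 21, 9, 5, 11, 17, 16, 7, 18, 13, 12, 15, 20, 19, 8, 22, 4], [0, 1, 2, 3, 23, 10, 6, 14, 21, 9, 5, 11, 17, 16, 7, 18, 13, 12, 15, 20, 19, 8, 22, 4])]

def fixT : List (List ℕ × List ℕ) := [
  ([0, 1, 2, 3, 4, 5, 6, 7, 8, 9, 10, 11, 12, 13, 14, 15, 16, 17, 18, 19, 20, 21, 22, 23], [0, 1, 2, 3, 4, 5, 6, 7, 8, 9, 10, 11, 12, 13, 14, 15, 16, 17, 18, 19, 20, 21, 22, 23]),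
  ([0, 1, 2, 3, 4, 5, 16, 10, 13, 19, 12, 8, 7, 11, 23, 20, 21, 14, 9, 18, 22, 6, 15, 17], [0, 1, 2, 3, 4, 5, 21, 12, 11, 18, 7, 13, 10, 8, 17, 22, 6, 23, 19, 9, 15, 16, 20, 14]),
  ([0, 1, 2, 3, 4, 5, 21, 12, 11, 18, 7, 13, 10, 8, 17, 22, 6, 23, 19, 9, 15, 16, 20, 14], [0, 1, 2, 3, 4, 5, 16, 10, 13, 19, 12, 8, 7, 11, 23, 20, 21, 14, 9, 18, 22, 6, 15, 17]),
  ([0, 1, 2, 3, 4, 6, 5, 7, 18, 14, 10, 23, 12, 15, 9, 13, 21, 22, 8, 20, 19, 16, 17, 11], [0, 1, 2, 3, 4, 6, 5, 7, 18, 14, 10, 23, 12, 15, 9, 13, 21, 22, 8, 20, 19, 16, 17, 11]),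
  ([0, 1, 2, 3, 4, 6, 16, 12, 23, 8, 7, 15, 10, 18, 22, 17, 5, 11, 20, 14, 13, 21, 19, 9], [0, 1, 2, 3, 4, 16, 5, 10, 9, 23, 12, 17, 7, 20, 19, 11, 6, 15, 13, 22, 18, 21, 14, 8]),
  ([0, 1, 2, 3, 4, 6, 21, 10, 15, 20, 12, 18, 7, 23, 11, 19, 16, 9, 14, 8, 17, 5, 13, 22], [0, 1, 2, 3, 4, 21, 5, 12, 19, 17, 7, 14, 10, 22, 18, 8, 16, 20, 11, 15, 9, 6, 23, 13]),
  ([0, 1, 2, 3, 4, 8, 17, 10, 11, 14, 12, 5, 7, 13, 15, 9, 22, 19, 20, 6, 21, 18, 23, 16], [0, 1, 2, 3, 4, 11, 19, 12, 5, 15, 7, 8, 10, 13, 9, 14, 23, 6, 21, 17, 18, 20, 16, 22]),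
  ([0, 1, 2, 3, 4, 8, 18, 7, 5, 20, 10, 13, 12, 11, 19, 23, 17, 16, 6, 14, 9, 22, 21, 15], [0, 1, 2, 3, 4, 8, 18, 7, 5, 20, 10, 13, 12, 11, 19, 23, 17, 16, 6, 14, 9, 22, 21, 15]),
  ([0, 1, 2, 3, 4, 8, 22, 12, 13, 6, 7, 11, 10, 5, 16, 21, 18, 15, 14, 20, 23, 17, 9, 19], [0, 1, 2, 3, 4, 13, 9, 10, 5, 22, 12, 11, 7, 8, 18, 17, 14, 21, 16, 23, 19, 15, 6, 20]),
  ([0, 1, 2, 3, 4, 9, 13, 10, 16, 18, 12, 20, 7, 17, 22, 8, 15, 6, 5, 19, 23, 14, 21, 11], [0, 1, 2, 3, 4, 18, 17, 12, 15, 5, 7, 23, 10, 6, 21, 16, 8, 13, 9, 19, 11, 22, 14, 20]),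
  ([0, 1, 2, 3, 4, 9, 14, 7, 20, 5, 10, 17, 12, 16, 6, 21, 13, 11, 19, 18, 8, 15, 23, 22], [0, 1, 2, 3, 4, 9, 14, 7, 20, 5, 10, 17, 12, 16, 6, 21, 13, 11, 19, 18, 8, 15, 23, 22]),
  ([0, 1, 2, 3, 4, 9, 15, 12, 17, 19, 7, 16, 10, 20, 11, 23, 14, 22, 18, 5, 21, 13, 8, 6], [0, 1, 2, 3, 4, 19, 23, 10, 22, 5, 12, 14, 7, 21, 16, 6, 11, 8, 18, 9, 13, 20, 17, 15]),
  ([0, 1, 2, 3, 4, 11, 19, 12, 5, 15, 7, 8, 10, 13, 9, 14, 23, 6, 21, 17, 18, 20, 16, 22], [0, 1, 2, 3, 4, 8, 17, 10, 11, 14, 12, 5, 7, 13, 15, 9, 22, 19, 20, 6, 21, 18, 23, 16]),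
  ([0, 1, 2, 3, 4, 11, 20, 10, 8, 21, 12, 13, 7, 5, 6, 16, 19, 22, 17, 15, 14, 23, 18, 9], [0, 1, 2, 3, 4, 13, 14, 12, 8, 23, 7, 5, 10, 11, 20, 19, 15, 18, 22, 16, 6, 9, 17, 21]),
  ([0, 1, 2, 3, 4, 11, 23, 7, 13, 17, 10, 5, 12, 8, 22, 18, 20, 9, 15, 21, 16, 19, 14, 6], [0, 1, 2, 3, 4, 11, 23, 7, 13, 17, 10, 5, 12, 8, 22, 18, 20, 9, 15, 21, 16, 19, 14, 6]),
  ([0, 1, 2, 3, 4, 13, 9, 10, 5, 22, 12, 11, 7, 8, 18, 17, 14, 21, 16, 23, 19, 15, 6, 20], [0, 1, 2, 3, 4, 8, 22, 12, 13, 6, 7, 11, 10, 5, 16, 21, 18, 15, 14, 20, 23, 17, 9, 19]),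
  ([0, 1, 2, 3, 4, 13, 14, 12, 8, 23, 7, 5, 10, 11, 20, 19, 15, 18, 22, 16, 6, 9, 17, 21], [0, 1, 2, 3, 4, 11, 20, 10, 8, 21, 12, 13, 7, 5, 6, 16, 19, 22, 17, 15, 14, 23, 18, 9]),
  ([0, 1, 2, 3, 4, 13, 15, 7, 11, 16, 10, 8, 12, 5, 21, 6, 9, 20, 23, 22, 17, 14, 19, 18], [0, 1, 2, 3, 4, 13, 15, 7, 11, 16, 10, 8, 12, 5, 21, 6, 9, 20, 23, 22, 17, 14, 19, 18]),
  ([0, 1, 2, 3, 4, 14, 9, 7, 19, 6, 10, 22, 12, 21, 5, 16, 15, 23, 20, 8, 18, 13, 11, 17], [0, 1, 2, 3, 4, 14, 9, 7, 19, 6, 10, 22, 12, 21, 5, 16, 15, 23, 20, 8, 18, 13, 11, 17]),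
  ([0, 1, 2, 3, 4, 14, 13, 12, 22, 20, 7, 21, 10, 19, 23, 11, 9, 17, 8, 6, 16, 15, 18, 5], [0, 1, 2, 3, 4, 23, 19, 10, 18, 16, 12, 15, 7, 6, 5, 21, 20, 17, 22, 13, 9, 11, 8, 14]),
  ([0, 1, 2, 3, 4, 14, 15, 10, 21, 8, 12, 19, 7, 22, 17, 18, 13, 5, 6, 20, 11, 9, 16, 23], [0, 1, 2, 3, 4, 17, 18, 12, 9, 21, 7, 20, 10, 16, 5, 6, 22, 14, 15, 11, 19, 8, 13, 23]),
  ([0, 1, 2, 3, 4, 15, 9, 12, 18, 11, 7, 6, 10, 23, 19, 20, 13, 8, 17, 21, 5, 14, 22, 16], [0, 1, 2, 3, 4, 20, 11, 10, 17, 6, 12, 9, 7, 16, 21, 5, 23, 18, 8, 14, 15, 19, 22, 13]),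
  ([0, 1, 2, 3, 4, 15, 13, 7, 23, 21, 10, 18, 12, 6, 16, 5, 14, 19, 11, 17, 22, 9, 20, 8], [0, 1, 2, 3, 4, 15, 13, 7, 23, 21, 10, 18, 12, 6, 16, 5, 14, 19, 11, 17, 22, 9, 20, 8]),
  ([0, 1, 2, 3, 4, 15, 14, 10, 6, 17, 12, 23, 7, 18, 8, 22, 9, 16, 21, 11, 20, 13, 5, 19], [0, 1, 2, 3, 4, 22, 8, 12, 14, 16, 7, 19, 10, 21, 6, 5, 17, 9, 13, 23, 20, 18, 15, 11]),
  ([0, 1, 2, 3, 4, 16, 5, 10, 9, 23, 12, 17, 7, 20, 19, 11, 6, 15, 13, 22, 18, 21, 14, 8], [0, 1, 2, 3, 4, 6, 16, 12, 23, 8, 7, 15, 10, 18, 22, 17, 5, 11, 20, 14, 13, 21, 19, 9]),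
  ([0, 1, 2, 3, 4, 16, 6, 12, 20, 22, 7, 9, 10, 17, 8, 18, 21, 19, 23, 13, 14, 5, 11, 15], [0, 1, 2, 3, 4, 21, 6, 10, 14, 11, 12, 22, 7, 19, 20, 23, 5, 13, 15, 17, 8, 16, 9, 18]),
  ([0, 1, 2, 3, 4, 16, 21, 7, 17, 13, 10, 20, 12, 9, 15, 14, 5, 8, 22, 23, 11, 6, 18, 19], [0, 1, 2, 3, 4, 16, 21, 7, 17, 13, 10, 20, 12, 9, 15, 14, 5, 8, 22, 23, 11, 6, 18, 19]),
  ([0, 1, 2, 3, 4, 17, 8, 10, 20, 15, 12, 16, 7, 9, 14, 13, 18, 23, 11, 21, 6, 22, 19, 5], [0, 1, 2, 3, 4, 23, 20, 12, 6, 13, 7, 18, 10, 15, 14, 9, 11, 5, 16, 22, 8, 19, 21, 17]),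
  ([0, 1, 2, 3, 4, 17, 18, 12, 9, 21, 7, 20, 10, 16, 5, 6, 22, 14, 15, 11, 19, 8, 13, 23], [0, 1, 2, 3, 4, 14, 15, 10, 21, 8, 12, 19, 7, 22, 17, 18, 13, 5, 6, 20, 11, 9, 16, 23]),
  ([0, 1, 2, 3, 4, 17, 22, 7, 16, 11, 10, 9, 12, 20, 23, 19, 8, 5, 21, 15, 13, 18, 6, 14], [0, 1, 2, 3, 4, 17, 22, 7, 16, 11, 10, 9, 12, 20, 23, 19, 8, 5, 21, 15, 13, 18, 6, 14]),
  ([0, 1, 2, 3, 4, 18, 8, 7, 6, 19, 10, 15, 12, 23, 20, 11, 22, 21, 5, 9, 14, 17, 16, 13], [0, 1, 2, 3, 4, 18, 8, 7, 6, 19, 10, 15, 12, 23, 20, 11, 22, 21, 5, 9, 14, 17, 16, 13]),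
  ([0, 1, 2, 3, 4, 18, 17, 12, 15, 5, 7, 23, 10, 6, 21, 16, 8, 13, 9, 19, 11, 22, 14, 20], [0, 1, 2, 3, 4, 9, 13, 10, 16, 18, 12, 20, 7, 17, 22, 8, 15, 6, 5, 19, 23, 14, 21, 11]),
  ([0, 1, 2, 3, 4, 18, 22, 10, 23, 9, 12, 6, 7, 15, 13, 14, 17, 20, 19, 5, 16, 8, 11, 21], [0, 1, 2, 3, 4, 19, 11, 12, 21, 9, 7, 22, 10, 14, 15, 13, 20, 16, 5, 18, 17, 23, 6, 8]),
  ([0, 1, 2, 3, 4, 19, 11, 12, 21, 9, 7, 22, 10, 14, 15, 13, 20, 16, 5, 18, 17, 23, 6, 8], [0, 1, 2, 3, 4, 18, 22, 10, 23, 9, 12, 6, 7, 15, 13, 14, 17, 20, 19, 5, 16, 8, 11, 21]),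
  ([0, 1, 2, 3, 4, 19, 20, 7, 14, 18, 10, 21, 12, 22, 8, 17, 23, 15, 9, 5, 6, 11, 13, 16], [0, 1, 2, 3, 4, 19, 20, 7, 14, 18, 10, 21, 12, 22, 8, 17, 23, 15, 9, 5, 6, 11, 13, 16]),
  ([0, 1, 2, 3, 4, 19, 23, 10, 22, 5, 12, 14, 7, 21, 16, 6, 11, 8, 18, 9, 13, 20, 17, 15], [0, 1, 2, 3, 4, 9, 15, 12, 17, 19, 7, 16, 10, 20, 11, 23, 14, 22, 18, 5, 21, 13, 8, 6]),
  ([0, 1, 2, 3, 4, 20, 11, 10, 17, 6, 12, 9, 7, 16, 21, 5, 23, 18, 8, 14, 15, 19, 22, 13], [0, 1, 2, 3, 4, 15, 9, 12, 18, 11, 7, 6, 10, 23, 19, 20, 13, 8, 17, 21, 5, 14, 22, 16]),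
  ([0, 1, 2, 3, 4, 20, 19, 7, 9, 8, 10, 16, 12, 17, 18, 22, 11, 13, 14, 6, 5, 23, 15, 21], [0, 1, 2, 3, 4, 20, 19, 7, 9, 8, 10, 16, 12, 17, 18, 22, 11, 13, 14, 6, 5, 23, 15, 21]),
  ([0, 1, 2, 3, 4, 20, 23, 12, 16, 14, 7, 17, 10, 9, 13, 15, 19, 21, 6, 8, 22, 11, 5, 18], [0, 1, 2, 3, 4, 22, 18, 10, 19, 13, 12, 21, 7, 14, 9, 15, 8, 11, 23, 16, 5, 17, 20, 6]),
  ([0, 1, 2, 3, 4, 21, 5, 12, 19, 17, 7, 14, 10, 22, 18, 8, 16, 20, 11, 15, 9, 6, 23, 13], [0, 1, 2, 3, 4, 6, 21, 10, 15, 20, 12, 18, 7, 23, 11, 19, 16, 9, 14, 8, 17, 5, 13, 22]),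
  ([0, 1, 2, 3, 4, 21, 6, 10, 14, 11, 12, 22, 7, 19, 20, 23, 5, 13, 15, 17, 8, 16, 9, 18], [0, 1, 2, 3, 4, 16, 6, 12, 20, 22, 7, 9, 10, 17, 8, 18, 21, 19, 23, 13, 14, 5, 11, 15]),
  ([0, 1, 2, 3, 4, 21, 16, 7, 22, 15, 10, 19, 12, 14, 13, 9, 6, 18, 17, 11, 23, 5, 8, 20], [0, 1, 2, 3, 4, 21, 16, 7, 22, 15, 10, 19, 12, 14, 13, 9, 6, 18, 17, 11, 23, 5, 8, 20]),
  ([0, 1, 2, 3, 4, 22, 8, 12, 14, 16, 7, 19, 10, 21, 6, 5, 17, 9, 13, 23, 20, 18, 15, 11], [0, 1, 2, 3, 4, 15, 14, 10, 6, 17, 12, 23, 7, 18, 8, 22, 9, 16, 21, 11, 20, 13, 5, 19]),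
  ([0, 1, 2, 3, 4, 22, 17, 7, 21, 23, 10, 14, 12, 19, 11, 20, 18, 6, 16, 13, 15, 8, 5, 9], [0, 1, 2, 3, 4, 22, 17, 7, 21, 23, 10, 14, 12, 19, 11, 20, 18, 6, 16, 13, 15, 8, 5, 9]),
  ([0, 1, 2, 3, 4, 22, 18, 10, 19, 13, 12, 21, 7, 14, 9, 15, 8, 11, 23, 16, 5, 17, 20, 6], [0, 1, 2, 3, 4, 20, 23, 12, 16, 14, 7, 17, 10, 9, 13, 15, 19, 21, 6, 8, 22, 11, 5, 18]),
  ([0, 1, 2, 3, 4, 23, 11, 7, 15, 22, 10, 6, 12, 18, 17, 8, 19, 14, 13, 16, 21, 20, 9, 5], [0, 1, 2, 3, 4, 23, 11, 7, 15, 22, 10, 6, 12, 18, 17, 8, 19, 14, 13, 16, 21, 20, 9, 5]),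
  ([0, 1, 2, 3, 4, 23, 19, 10, 18, 16, 12, 15, 7, 6, 5, 21, 20, 17, 22, 13, 9, 11, 8, 14], [0, 1, 2, 3, 4, 14, 13, 12, 22, 20, 7, 21, 10, 19, 23, 11, 9, 17, 8, 6, 16, 15, 18, 5]),
  ([0, 1, 2, 3, 4, 23, 20, 12, 6, 13, 7, 18, 10, 15, 14, 9, 11, 5, 16, 22, 8, 19, 21, 17], [0, 1, 2, 3, 4, 17, 8, 10, 20, 15, 12, 16, 7, 9, 14, 13, 18, 23, 11, 21, 6, 22, 19, 5])]

/-- Commutation check with the standard fixed-point-free involution. -/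
def commB (l : List ℕ) : Bool :=
  (List.range 24).all (fun i => Nat.beq (nth l (nth r0 i)) (nth r0 (nth l i)))

theorem R0_pt (i : ℕ) (hi : i < 24) : R0 (pt i) = pt (nth r0 i) := mkPerm_pt _ _ _ i hi

theorem R0_apply (p : GolayPt) : R0 p = pt (nth r0 (code p)) := rfl

theorem r0_lt (i : ℕ) (hi : i < 24) : nth r0 i < 24 := ((chk_spec r0_chk).2 i hi).1

theorem comm_of {l l' : List ℕ} (h : chk l l' = true) (hb : commB l = true) :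
    mkPerm l l' h * R0 = R0 * mkPerm l l' h := by
  simp only [commB, List.all_eq_true, List.mem_range, Nat.beq_eq] at hb
  apply Equiv.ext
  intro p
  have hp := code_lt p
  rw [Equiv.Perm.mul_apply, Equiv.Perm.mul_apply, R0_apply, mkPerm_pt _ _ _ _ (r0_lt _ hp),
    mkPerm_apply l l' h p, R0_pt _ ((chk_spec h).2 _ hp).1, hb _ hp]

theorem commB_of {l l' : List ℕ} (h : chk l l' = true)
    (e : mkPerm l l' h * R0 = R0 * mkPerm l l' h) : commB l = true := by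
  simp only [commB, List.all_eq_true, List.mem_range, Nat.beq_eq]
  intro i hi
  have h1 := r0_lt i hi
  have h2 := ((chk_spec h).2 i hi).1
  have e1 : (mkPerm l l' h * R0) (pt i) = (R0 * mkPerm l l' h) (pt i) := by rw [e]
  rw [Equiv.Perm.mul_apply, Equiv.Perm.mul_apply, R0_pt i hi, mkPerm_pt _ _ _ _ h1,
    mkPerm_pt _ _ _ i hi, R0_pt _ h2] at e1
  exact pt_inj ((chk_spec h).2 _ h1).1 (r0_lt _ h2) e1

/-- The centraliser of the standard involution in the group of the code. -/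
def CC : Subgroup (Equiv.Perm GolayPt) := M24 ⊓ Subgroup.centralizer {R0}

theorem mem_CC {c : Equiv.Perm GolayPt} : c ∈ CC ↔ c ∈ M24 ∧ c * R0 = R0 * c := by
  rw [CC, Subgroup.mem_inf, Subgroup.mem_centralizer_iff]
  constructor
  · rintro ⟨h1, h2⟩
    exact ⟨h1, (h2 R0 (Set.mem_singleton _)).symm⟩
  · rintro ⟨h1, h2⟩
    refine ⟨h1, fun x hx => ?_⟩
    rw [Set.mem_singleton_iff.1 hx]
    exact h2.symm

theorem comm_fix {c : Equiv.Perm GolayPt} (hc : c * R0 = R0 * c) {i : ℕ} (hi : i < 24)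
    (h : c (pt i) = pt i) : c (pt (nth r0 i)) = pt (nth r0 i) := by
  have e : (c * R0) (pt i) = (R0 * c) (pt i) := by rw [hc]
  rw [Equiv.Perm.mul_apply, Equiv.Perm.mul_apply, h, R0_pt i hi] at e
  exact e

/-- Table check: for each index `j` in the mask `o`, some entry of the table is a code
automorphism commuting with the involution, fixing the listed points and mapping `b` to `j`. -/
def tabB (fixed : List ℕ) (b o : ℕ) (T : List (List ℕ × List ℕ)) : Bool :=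
  (List.range 24).all (fun j => or (!(Nat.testBit o j))
    (T.any (fun e => and (Nat.beq (nth e.1 b) j)
      (and (and (and (chk e.1 e.2) (memChk e.1)) (commB e.1))
        (fixed.all (fun f => Nat.beq (nth e.1 f) f))))))

theorem tab_spec {fixed : List ℕ} {b o : ℕ} {T : List (List ℕ × List ℕ)} (hb : b < 24)
    (hf : ∀ f ∈ fixed, f < 24) (h : tabB fixed b o T = true) (q : GolayPt)
    (hq : q ∈ support₂ (word o)) :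
    ∃ c ∈ CC, (∀ f ∈ fixed, c (pt f) = pt f) ∧ c (pt b) = q := by
  simp only [tabB, List.all_eq_true, List.mem_range, Bool.or_eq_true, Bool.not_eq_true',
    List.any_eq_true, Bool.and_eq_true, Nat.beq_eq] at h
  rw [mem_support_word] at hq
  rcases h (code q) (code_lt q) with h1 | ⟨e, he, hj, ⟨⟨hc, hm⟩, hcm⟩, hfx⟩
  · rw [hq] at h1
    exact absurd h1 (by decide)
  · refine ⟨mkPerm e.1 e.2 hc, mem_CC.2 ⟨mkPerm_mem _ _ hc hm, comm_of hc hcm⟩, ?_, ?_⟩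
    · intro f hf'
      rw [mkPerm_pt _ _ _ f (hf f hf'), hfx f hf']
    · rw [mkPerm_pt _ _ _ b hb, hj, pt_code]

theorem sextet_cover {S : Finset (Finset GolayPt)} (hS : S ∈ sextets) (p : GolayPt) :
    ∃ u ∈ S, p ∈ u := by
  classical
  obtain ⟨h6, h4, ho⟩ := hS
  have hdisj : ∀ t ∈ S, ∀ u ∈ S, t ≠ u → Disjoint t u := by
    intro t ht u hu hne
    have hc := Finset.card_union_add_card_inter t u
    rw [(ho t ht u hu hne).2, h4 t ht, h4 u hu] at hc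
    rw [Finset.disjoint_iff_inter_eq_empty]
    apply Finset.card_eq_zero.mp
    omega
  have hcard : (S.biUnion id).card = 24 := by
    rw [Finset.card_biUnion (t := id) hdisj]
    show ∑ t ∈ S, t.card = 24
    rw [Finset.sum_congr rfl h4, Finset.sum_const, h6]
    rfl
  have huniv : S.biUnion id = Finset.univ := by
    apply Finset.eq_univ_of_card
    rw [hcard, card_pts]
  have hp : p ∈ S.biUnion id := by rw [huniv]; exact Finset.mem_univ p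
  obtain ⟨u, hu, hpu⟩ := Finset.mem_biUnion.1 hp
  exact ⟨u, hu, hpu⟩

theorem L0_ok : sextB L0 = true := by decide +kernel

theorem L0_inv : ∀ a ∈ L0, pmL r0 a = a := by decide +kernel

/-- The invariant sextet. -/
def S0 : Finset (Finset GolayPt) := finOf L0

theorem S0_mem : S0 ∈ sextets := finOf_sextet L0_ok

theorem R0_smul (v : ℕ) : R0 • support₂ (word v) = support₂ (word (pmL r0 v)) := by
  have h := inv_smul_word r0_chk v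
  rw [mkPerm_inv r0 r0 r0_chk r0_chk] at h
  exact h

/-- The mask of the invariant four-set through the first point and the point `j`. -/
def mk4 (j : ℕ) : ℕ := 3 ||| (1 <<< j) ||| (1 <<< (nth r0 j))

theorem mk4_bits : ∀ j < 24, ∀ c < 24, Nat.testBit (mk4 j) c = true →
    (c = 0 ∨ c = 1 ∨ c = j ∨ c = nth r0 j) := by decide +kernel

theorem mk4_pc : ∀ j < 24, 2 ≤ j → pc (mk4 j) = 4 := by decide +kernel

theorem cert_ok : ∀ j < 24, 2 ≤ j → (mk4 j = mT0 ∨ (pc (nth cert j) = 4 ∧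
    wtB 8 (mk4 j ||| nth cert j) = true ∧ pmL r0 (nth cert j) ≠ nth cert j ∧
    nth cert j < 16777216)) := by
  decide +kernel

theorem uniq {S : Finset (Finset GolayPt)} (hS : S ∈ sextets) (hinv : ∀ u ∈ S, R0 • u = u) :
    S = S0 := by
  classical
  obtain ⟨u, hu, h0⟩ := sextet_cover hS (pt 0)
  have hu4 := hS.2.1 u hu
  have hSu : S = sx u := (sx_spec u hu4).2.2 S hS hu
  have hRu := hinv u hu
  have hmem : ∀ i < 24, pt i ∈ u → pt (nth r0 i) ∈ u := by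
    intro i hi hiu
    have h1 : R0 • pt i ∈ R0 • u := Finset.smul_mem_smul_finset hiu
    rw [hRu] at h1
    rw [← R0_pt i hi]
    exact h1
  have h1 : pt 1 ∈ u := hmem 0 (by norm_num) h0
  have hx : ∃ x ∈ u, x ≠ pt 0 ∧ x ≠ pt 1 := by
    by_contra hcon
    push Not at hcon
    have hsub : u ⊆ {pt 0, pt 1} := by
      intro x hx
      by_cases e : x = pt 0
      · rw [e]; exact Finset.mem_insert_self _ _
      · rw [hcon x hx e]; exact Finset.mem_insert_of_mem (Finset.mem_singleton_self _)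
    have h2 := Finset.card_le_card hsub
    have h3 : ({pt 0, pt 1} : Finset GolayPt).card ≤ 2 := Finset.card_le_two
    omega
  obtain ⟨x, hxu, hx0, hx1⟩ := hx
  have hj : code x < 24 := code_lt x
  have hj2 : 2 ≤ code x := by
    by_contra hlt
    have h01 : code x = 0 ∨ code x = 1 := by omega
    rcases h01 with e | e
    · exact hx0 (by rw [← pt_code x, e])
    · exact hx1 (by rw [← pt_code x, e])
  have hxj : pt (code x) ∈ u := by rw [pt_code]; exact hxu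
  have hr := hmem _ hj hxj
  have hsub : support₂ (word (mk4 (code x))) ⊆ u := by
    intro p hp
    rw [mem_support_word] at hp
    rcases mk4_bits _ hj _ (code_lt p) hp with e | e | e | e
    · rw [← pt_code p, e]; exact h0
    · rw [← pt_code p, e]; exact h1
    · rw [← pt_code p, e]; exact hxj
    · rw [← pt_code p, e]; exact hr
  have h4 : (support₂ (word (mk4 (code x)))).card = 4 := by rw [supp_card, mk4_pc _ hj hj2]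
  have hueq : support₂ (word (mk4 (code x))) = u :=
    Finset.eq_of_subset_of_card_le hsub (by rw [hu4, h4])
  rcases cert_ok _ hj hj2 with e | ⟨c4, co, cne, clt⟩
  · rw [hSu, ← hueq, e]
    exact sx_eq_finOf L0_ok (by decide)
  · exfalso
    have hv4 : (support₂ (word (nth cert (code x)))).card = 4 := by rw [supp_card, c4]
    have hv : support₂ (word (nth cert (code x))) ∈ S := by
      rw [hSu, ← hueq]
      refine (mem_sx_iff h4 hv4).2 (Or.inr ?_)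
      rw [← supp_lor]
      exact (wtB_spec co).1
    have h5 := hinv _ hv
    rw [R0_smul] at h5
    exact cne (word_inj (pmL_lt' r0_chk _) clt h5)

theorem CC_S0 {c : Equiv.Perm GolayPt} (hc : c ∈ CC) : c • S0 = S0 := by
  obtain ⟨hm, hcm⟩ := mem_CC.1 hc
  apply uniq (smul_sextet hm S0_mem)
  intro u hu
  obtain ⟨v, hv, rfl⟩ := Finset.mem_smul_finset.1 hu
  obtain ⟨a, ha, rfl⟩ := mem_finOf.1 hv
  rw [smul_smul, ← hcm, mul_smul, R0_smul, L0_inv a ha]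

/-- A centralising element fixing a point of a four-set of the invariant sextet fixes that
four-set. -/
theorem tet_fix {c : Equiv.Perm GolayPt} (hc : c ∈ CC) (a j : ℕ) (ha : a ∈ L0) (hj : j < 24)
    (hbit : L0.all (fun b => or (Nat.beq b a) (!(Nat.testBit b j))) = true)
    (hja : Nat.testBit a j = true) (hfix : c (pt j) = pt j) :
    c • support₂ (word a) = support₂ (word a) := by
  have h1 : c • support₂ (word a) ∈ c • S0 :=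
    Finset.smul_mem_smul_finset (mem_finOf.2 ⟨a, ha, rfl⟩)
  rw [CC_S0 hc] at h1
  obtain ⟨b, hb, e⟩ := mem_finOf.1 h1
  have h2 : pt j ∈ c • support₂ (word a) := by
    rw [← hfix]
    exact Finset.smul_mem_smul_finset (by rw [mem_support_word, code_pt j hj]; exact hja)
  rw [← e, mem_support_word, code_pt j hj] at h2
  have h3 := (List.all_eq_true.1 hbit) b hb
  simp only [Bool.or_eq_true, Nat.beq_eq, Bool.not_eq_true'] at h3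
  rcases h3 with h3 | h3
  · rw [← e, h3]
  · rw [h2] at h3
    exact absurd h3 (by decide)

theorem T24_ok : tabB [] 0 16777215 T24 = true := by decide +kernel

theorem T20_ok : tabB [0] 2 o1 T20 = true := by decide +kernel

theorem T16_ok : tabB [0, 2] 4 o2 T16 = true := by decide +kernel

theorem fixT_ok : candChk [0, 1, 2, 3, 4] fixT = true := by decide +kernel

theorem fixT_rig : fixT.all (fun e => or (decide (e.1 = idL)) (!(commB e.1))) = true := by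
  decide +kernel

theorem o1_bit : ∀ i < 24, Nat.testBit mT0 i = false → Nat.testBit o1 i = true := by
  decide +kernel

theorem o2_bit : ∀ i < 24, Nat.testBit mT0 i = false → Nat.testBit mT1 i = false →
    Nat.testBit o2 i = true := by decide +kernel

theorem pc_o1 : pc o1 = 20 := by decide +kernel

theorem pc_o2 : pc o2 = 16 := by decide +kernel

theorem trans0 (q : GolayPt) : ∃ c ∈ CC, c (pt 0) = q := by
  obtain ⟨c, hc, -, e⟩ := tab_spec (fixed := []) (b := 0) (o := 16777215) (T := T24)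
    (by norm_num) (by simp) T24_ok q (by rw [mem_support_word]; exact full_bit q)
  exact ⟨c, hc, e⟩

theorem rigid3 (c : Equiv.Perm GolayPt) (hc : c ∈ CC) (h0 : c (pt 0) = pt 0)
    (h2 : c (pt 2) = pt 2) (h4 : c (pt 4) = pt 4) : c = 1 := by
  obtain ⟨hm, hcm⟩ := mem_CC.1 hc
  have h1 : c (pt 1) = pt 1 := comm_fix hcm (i := 0) (by norm_num) h0
  have h3 : c (pt 3) = pt 3 := comm_fix hcm (i := 2) (by norm_num) h2
  obtain ⟨e, he, hce, rfl⟩ := cands [0, 1, 2, 3, 4] fixT fixT_ok c hm (by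
    intro i hi
    interval_cases i
    · exact h0
    · exact h1
    · exact h2
    · exact h3
    · exact h4)
  have hb := commB_of hce hcm
  have hchk := (List.all_eq_true.1 fixT_rig) e he
  simp only [Bool.or_eq_true, decide_eq_true_eq, Bool.not_eq_true'] at hchk
  rcases hchk with h5 | h5
  · obtain ⟨l, l'⟩ := e
    simp only at h5
    subst h5
    exact mkPerm_id _ hce
  · rw [hb] at h5
    exact absurd h5 (by decide)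

theorem card_CC : Nat.card ↥CC = 7680 := by
  classical
  have n0 : ∀ c ∈ CC, c (pt 0) = pt 0 → c • support₂ (word mT0) = support₂ (word mT0) :=
    fun c hc h => tet_fix hc mT0 0 (by decide) (by norm_num) (by decide +kernel)
      (by decide +kernel) h
  have n2 : ∀ c ∈ CC, c (pt 2) = pt 2 → c • support₂ (word mT1) = support₂ (word mT1) :=
    fun c hc h => tet_fix hc mT1 2 (by decide) (by norm_num) (by decide +kernel)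
      (by decide +kernel) h
  have horb0 : MulAction.orbit ↥CC (pt 0) = Set.univ := by
    ext q
    simp only [Set.mem_univ, iff_true]
    obtain ⟨c, hc, e⟩ := trans0 q
    exact ⟨⟨c, hc⟩, e⟩
  have horb1 : MulAction.orbit ↥(CC ⊓ MulAction.stabilizer (Equiv.Perm GolayPt) (pt 0)) (pt 2)
      = ((support₂ (word o1) : Finset GolayPt) : Set GolayPt) := by
    ext q
    rw [Finset.mem_coe]
    constructor
    · rintro ⟨g, rfl⟩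
      have hg := g.2
      rw [Subgroup.mem_inf, MulAction.mem_stabilizer_iff] at hg
      obtain ⟨hgC, hg0⟩ := hg
      have hT := n0 _ hgC hg0
      show (g : Equiv.Perm GolayPt) (pt 2) ∈ support₂ (word o1)
      have hnot : (g : Equiv.Perm GolayPt) (pt 2) ∉ support₂ (word mT0) := by
        intro hmem
        rw [← hT] at hmem
        have h5 : pt 2 ∈ support₂ (word mT0) := (Finset.smul_mem_smul_finset_iff _).1 hmem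
        rw [mem_support_word, code_pt 2 (by norm_num)] at h5
        exact absurd h5 (by decide)
      rw [mem_support_word] at hnot ⊢
      exact o1_bit _ (code_lt _) (by simpa using hnot)
    · intro hq
      obtain ⟨c, hc, hf, e⟩ := tab_spec (fixed := [0]) (b := 2) (o := o1) (T := T20)
        (by norm_num) (by decide) T20_ok q hq
      exact ⟨⟨c, Subgroup.mem_inf.2 ⟨hc, MulAction.mem_stabilizer_iff.2 (hf 0 (by simp))⟩⟩, e⟩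
  have horb2 : MulAction.orbit ↥(CC ⊓ MulAction.stabilizer (Equiv.Perm GolayPt) (pt 0) ⊓
      MulAction.stabilizer (Equiv.Perm GolayPt) (pt 2)) (pt 4)
      = ((support₂ (word o2) : Finset GolayPt) : Set GolayPt) := by
    ext q
    rw [Finset.mem_coe]
    constructor
    · rintro ⟨g, rfl⟩
      have hg := g.2
      rw [Subgroup.mem_inf, Subgroup.mem_inf, MulAction.mem_stabilizer_iff,
        MulAction.mem_stabilizer_iff] at hg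
      obtain ⟨⟨hgC, hg0⟩, hg2⟩ := hg
      have hT := n0 _ hgC hg0
      have hT' := n2 _ hgC hg2
      show (g : Equiv.Perm GolayPt) (pt 4) ∈ support₂ (word o2)
      have hnot : (g : Equiv.Perm GolayPt) (pt 4) ∉ support₂ (word mT0) := by
        intro hmem
        rw [← hT] at hmem
        have h5 : pt 4 ∈ support₂ (word mT0) := (Finset.smul_mem_smul_finset_iff _).1 hmem
        rw [mem_support_word, code_pt 4 (by norm_num)] at h5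
        exact absurd h5 (by decide)
      have hnot' : (g : Equiv.Perm GolayPt) (pt 4) ∉ support₂ (word mT1) := by
        intro hmem
        rw [← hT'] at hmem
        have h5 : pt 4 ∈ support₂ (word mT1) := (Finset.smul_mem_smul_finset_iff _).1 hmem
        rw [mem_support_word, code_pt 4 (by norm_num)] at h5
        exact absurd h5 (by decide)
      rw [mem_support_word] at hnot hnot' ⊢
      exact o2_bit _ (code_lt _) (by simpa using hnot) (by simpa using hnot')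
    · intro hq
      obtain ⟨c, hc, hf, e⟩ := tab_spec (fixed := [0, 2]) (b := 4) (o := o2) (T := T16)
        (by norm_num) (by decide) T16_ok q hq
      exact ⟨⟨c, Subgroup.mem_inf.2 ⟨Subgroup.mem_inf.2 ⟨hc,
        MulAction.mem_stabilizer_iff.2 (hf 0 (by simp))⟩,
        MulAction.mem_stabilizer_iff.2 (hf 2 (by simp))⟩⟩, e⟩
  have hc3 : Nat.card ↥(CC ⊓ MulAction.stabilizer (Equiv.Perm GolayPt) (pt 0) ⊓
      MulAction.stabilizer (Equiv.Perm GolayPt) (pt 2) ⊓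
      MulAction.stabilizer (Equiv.Perm GolayPt) (pt 4)) = 1 := by
    have hbot : CC ⊓ MulAction.stabilizer (Equiv.Perm GolayPt) (pt 0) ⊓
      MulAction.stabilizer (Equiv.Perm GolayPt) (pt 2) ⊓
      MulAction.stabilizer (Equiv.Perm GolayPt) (pt 4) = ⊥ := by
      rw [Subgroup.eq_bot_iff_forall]
      intro c hc
      rw [Subgroup.mem_inf, Subgroup.mem_inf, Subgroup.mem_inf, MulAction.mem_stabilizer_iff,
        MulAction.mem_stabilizer_iff, MulAction.mem_stabilizer_iff] at hc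
      exact rigid3 c hc.1.1.1 hc.1.1.2 hc.1.2 hc.2
    rw [hbot, Subgroup.card_bot]
  have e0 := card_eq_orbit_mul CC (pt 0)
  have e1 := card_eq_orbit_mul (CC ⊓ MulAction.stabilizer (Equiv.Perm GolayPt) (pt 0)) (pt 2)
  have e2 := card_eq_orbit_mul (CC ⊓ MulAction.stabilizer (Equiv.Perm GolayPt) (pt 0) ⊓
      MulAction.stabilizer (Equiv.Perm GolayPt) (pt 2)) (pt 4)
  rw [horb2, Set.ncard_coe_finset, supp_card, hc3, pc_o2] at e2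
  rw [horb1, Set.ncard_coe_finset, supp_card, e2, pc_o1] at e1
  rw [horb0, Set.ncard_univ, Nat.card_eq_fintype_card (α := GolayPt), card_pts, e1] at e0
  exact e0

/-- For a fixed-point-free involution t of the group of the length-24 code: its centraliser in that group has order 7680, is transitive on the 24 points, and is contained, together with t, in the stabiliser of some sextet. -/
theorem result (t : Equiv.Perm Cfsg.GolayPt) (ht : t ∈ Cfsg.M24) (h₂ : orderOf t = 2) (h₀ : ∀ p, t p ≠ p) : Nat.card {c : Equiv.Perm Cfsg.GolayPt // c ∈ Cfsg.M24 ∧ c * t = t * c} = 7680 ∧ (∀ p q : Cfsg.GolayPt, ∃ c ∈ Cfsg.M24, c * t = t * c ∧ c p = q) ∧ ∃ S ∈ Cfsg.sextets, t • S = S ∧ ∀ c ∈ Cfsg.M24, c * t = t * c → c • S = S := by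
  obtain ⟨k, hk, e⟩ := typeB t ht h₂ h₀
  have hkinv : k⁻¹ ∈ M24 := Subgroup.inv_mem _ hk
  have key : ∀ c : Equiv.Perm GolayPt, (c ∈ M24 ∧ c * t = t * c) ↔ k * c * k⁻¹ ∈ CC := by
    intro c
    rw [mem_CC, ← e]
    constructor
    · rintro ⟨h1, h2⟩
      refine ⟨Subgroup.mul_mem _ (Subgroup.mul_mem _ hk h1) hkinv, ?_⟩
      have a1 : k * c * k⁻¹ * (k * t * k⁻¹) = k * (c * t) * k⁻¹ := by group
      rw [a1, h2]
      group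
    · rintro ⟨h1, h2⟩
      refine ⟨?_, ?_⟩
      · have a0 : c = k⁻¹ * (k * c * k⁻¹) * k := by group
        rw [a0]
        exact Subgroup.mul_mem _ (Subgroup.mul_mem _ hkinv h1) hk
      · have h3 : k⁻¹ * (k * c * k⁻¹ * (k * t * k⁻¹)) * k
            = k⁻¹ * (k * t * k⁻¹ * (k * c * k⁻¹)) * k := by rw [h2]
        have a1 : k⁻¹ * (k * c * k⁻¹ * (k * t * k⁻¹)) * k = c * t := by group
        have a2 : k⁻¹ * (k * t * k⁻¹ * (k * c * k⁻¹)) * k = t * c := by group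
        rw [a1, a2] at h3
        exact h3
  refine ⟨?_, ?_, ?_⟩
  · rw [← card_CC]
    apply Nat.card_congr
    exact
      { toFun := fun c => ⟨k * c.1 * k⁻¹, (key c.1).1 c.2⟩
        invFun := fun d => ⟨k⁻¹ * d.1 * k, (key _).2 (by
          have a0 : k * (k⁻¹ * d.1 * k) * k⁻¹ = d.1 := by group
          rw [a0]
          exact d.2)⟩
        left_inv := fun c => Subtype.ext (by
          show k⁻¹ * (k * c.1 * k⁻¹) * k = c.1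
          group)
        right_inv := fun d => Subtype.ext (by
          show k * (k⁻¹ * d.1 * k) * k⁻¹ = d.1
          group) }
  · intro p q
    obtain ⟨c1, hc1, e1⟩ := trans0 (k p)
    obtain ⟨c2, hc2, e2⟩ := trans0 (k q)
    have hd : c2 * c1⁻¹ ∈ CC := Subgroup.mul_mem _ hc2 (Subgroup.inv_mem _ hc1)
    have hd' : k * (k⁻¹ * (c2 * c1⁻¹) * k) * k⁻¹ ∈ CC := by
      have a0 : k * (k⁻¹ * (c2 * c1⁻¹) * k) * k⁻¹ = c2 * c1⁻¹ := by group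
      rw [a0]
      exact hd
    obtain ⟨m1, m2⟩ := (key _).2 hd'
    refine ⟨k⁻¹ * (c2 * c1⁻¹) * k, m1, m2, ?_⟩
    show k⁻¹ (c2 (c1⁻¹ (k p))) = q
    rw [← e1]
    have a1 : c1⁻¹ (c1 (pt 0)) = pt 0 := by simp
    rw [a1, e2]
    simp
  · refine ⟨k⁻¹ • S0, smul_sextet hkinv S0_mem, ?_, ?_⟩
    · have ht' : t = k⁻¹ * R0 * k := by rw [← e]; group
      have hR : R0 • S0 = S0 := CC_S0 (mem_CC.2 ⟨R0_mem, rfl⟩)
      have a0 : k⁻¹ * R0 * k * k⁻¹ = k⁻¹ * R0 := by group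
      rw [ht', smul_smul, a0, mul_smul, hR]
    · intro c hc hct
      have h1 := CC_S0 ((key c).1 ⟨hc, hct⟩)
      rw [mul_smul, mul_smul] at h1
      have h2 := congrArg (fun X => k⁻¹ • X) h1
      simp only [inv_smul_smul] at h2
      exact h2
end Cfsg.Agent.S5607
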