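import Cfsg.Statements.S5608
import Cfsg.Agent.Lib.Helper28.M24Cand3

set_option autoImplicit false
open scoped Pointwise
open Cfsg

namespace Cfsg.Agent.S5608

open Cfsg Cfsg.Agent.Lib.Helper4.Golay Cfsg.Agent.Lib.Helper28
open Pointwise

def tC5 : List (List ℕ × List ℕ) := [
  ([1, 2, 3, 4, 5, 0, 9, 13, 15, 17, 8, 20, 11, 22, 7, 6, 18, 10, 14, 23, 21, 19, 16, 12], [5, 0, 1, 2, 3, 4, 15, 14, 10, 6, 17, 12, 23, 7, 18, 8, 22, 9, 16, 21, 11, 20, 13, 19]),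
  ([1, 2, 3, 4, 5, 0, 18, 8, 22, 23, 11, 15, 13, 20, 12, 21, 19, 7, 17, 14, 16, 9, 6, 10], [5, 0, 1, 2, 3, 4, 22, 17, 7, 21, 23, 10, 14, 12, 19, 11, 20, 18, 6, 16, 13, 15, 8, 9]),
  ([1, 2, 3, 4, 5, 0, 19, 11, 20, 14, 13, 22, 8, 15, 10, 16, 9, 12, 23, 17, 6, 18, 21, 7], [5, 0, 1, 2, 3, 4, 20, 23, 12, 16, 14, 7, 17, 10, 9, 13, 15, 19, 21, 6, 8, 22, 11, 18]),
  ([1, 2, 3, 4, 5, 6, 7, 8, 9, 10, 11, 12, 13, 14, 15, 16, 17, 18, 19, 20, 21, 22, 0, 23], [22, 0, 1, 2, 3, 4, 5, 6, 7, 8, 9, 10, 11, 12, 13, 14, 15, 16, 17, 18, 19, 20, 21, 23]),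
  ([1, 2, 3, 4, 5, 6, 17, 11, 14, 20, 13, 9, 8, 12, 23, 21, 22, 15, 10, 19, 0, 7, 16, 18], [20, 0, 1, 2, 3, 4, 5, 21, 12, 11, 18, 7, 13, 10, 8, 17, 22, 6, 23, 19, 9, 15, 16, 14]),
  ([1, 2, 3, 4, 5, 6, 22, 13, 12, 19, 8, 14, 11, 9, 18, 0, 7, 23, 20, 10, 16, 17, 21, 15], [15, 0, 1, 2, 3, 4, 5, 16, 10, 13, 19, 12, 8, 7, 11, 23, 20, 21, 14, 9, 18, 22, 6, 17]),
  ([1, 2, 3, 4, 5, 7, 6, 8, 19, 15, 11, 23, 13, 16, 10, 14, 22, 0, 9, 21, 20, 17, 18, 12], [17, 0, 1, 2, 3, 4, 6, 5, 7, 18, 14, 10, 23, 12, 15, 9, 13, 21, 22, 8, 20, 19, 16, 11]),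
  ([1, 2, 3, 4, 5, 7, 17, 13, 23, 9, 8, 16, 11, 19, 0, 18, 6, 12, 21, 15, 14, 22, 20, 10], [14, 0, 1, 2, 3, 4, 16, 5, 10, 9, 23, 12, 17, 7, 20, 19, 11, 6, 15, 13, 22, 18, 21, 8]),
  ([1, 2, 3, 4, 5, 7, 22, 11, 16, 21, 13, 19, 8, 23, 12, 20, 17, 10, 15, 9, 18, 6, 14, 0], [23, 0, 1, 2, 3, 4, 21, 5, 12, 19, 17, 7, 14, 10, 22, 18, 8, 16, 20, 11, 15, 9, 6, 13]),
  ([1, 2, 3, 4, 5, 9, 0, 13, 14, 7, 8, 12, 11, 6, 17, 22, 19, 16, 15, 21, 23, 18, 10, 20], [6, 0, 1, 2, 3, 4, 13, 9, 10, 5, 22, 12, 11, 7, 8, 18, 17, 14, 21, 16, 23, 19, 15, 20]),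
  ([1, 2, 3, 4, 5, 9, 18, 11, 12, 15, 13, 6, 8, 14, 16, 10, 0, 20, 21, 7, 22, 19, 23, 17], [16, 0, 1, 2, 3, 4, 11, 19, 12, 5, 15, 7, 8, 10, 13, 9, 14, 23, 6, 21, 17, 18, 20, 22]),
  ([1, 2, 3, 4, 5, 9, 19, 8, 6, 21, 11, 14, 13, 12, 20, 23, 18, 17, 7, 15, 10, 0, 22, 16], [21, 0, 1, 2, 3, 4, 8, 18, 7, 5, 20, 10, 13, 12, 11, 19, 23, 17, 16, 6, 14, 9, 22, 15]),
  ([1, 2, 3, 4, 5, 10, 14, 11, 17, 19, 13, 21, 8, 18, 0, 9, 16, 7, 6, 20, 23, 15, 22, 12], [14, 0, 1, 2, 3, 4, 18, 17, 12, 15, 5, 7, 23, 10, 6, 21, 16, 8, 13, 9, 19, 11, 22, 20]),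
  ([1, 2, 3, 4, 5, 10, 15, 8, 21, 6, 11, 18, 13, 17, 7, 22, 14, 12, 20, 19, 9, 16, 23, 0], [23, 0, 1, 2, 3, 4, 9, 14, 7, 20, 5, 10, 17, 12, 16, 6, 21, 13, 11, 19, 18, 8, 15, 22]),
  ([1, 2, 3, 4, 5, 10, 16, 13, 18, 20, 8, 17, 11, 21, 12, 23, 15, 0, 19, 6, 22, 14, 9, 7], [17, 0, 1, 2, 3, 4, 19, 23, 10, 22, 5, 12, 14, 7, 21, 16, 6, 11, 8, 18, 9, 13, 20, 15]),
  ([1, 2, 3, 4, 5, 12, 20, 13, 6, 16, 8, 9, 11, 14, 10, 15, 23, 7, 22, 18, 19, 21, 17, 0], [23, 0, 1, 2, 3, 4, 8, 17, 10, 11, 14, 12, 5, 7, 13, 15, 9, 22, 19, 20, 6, 21, 18, 16]),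
  ([1, 2, 3, 4, 5, 12, 21, 11, 9, 22, 13, 14, 8, 6, 7, 17, 20, 0, 18, 16, 15, 23, 19, 10], [17, 0, 1, 2, 3, 4, 13, 14, 12, 8, 23, 7, 5, 10, 11, 20, 19, 15, 18, 22, 16, 6, 9, 21]),
  ([1, 2, 3, 4, 5, 12, 23, 8, 14, 18, 11, 6, 13, 9, 0, 19, 21, 10, 16, 22, 17, 20, 15, 7], [14, 0, 1, 2, 3, 4, 11, 23, 7, 13, 17, 10, 5, 12, 8, 22, 18, 20, 9, 15, 21, 16, 19, 6]),
  ([1, 2, 3, 4, 5, 14, 10, 11, 6, 0, 13, 12, 8, 9, 19, 18, 15, 22, 17, 23, 20, 16, 7, 21], [9, 0, 1, 2, 3, 4, 8, 22, 12, 13, 6, 7, 11, 10, 5, 16, 21, 18, 15, 14, 20, 23, 17, 19]),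
  ([1, 2, 3, 4, 5, 14, 15, 13, 9, 23, 8, 6, 11, 12, 21, 20, 16, 19, 0, 17, 7, 10, 18, 22], [18, 0, 1, 2, 3, 4, 11, 20, 10, 8, 21, 12, 13, 7, 5, 6, 16, 19, 22, 17, 15, 14, 23, 9]),
  ([1, 2, 3, 4, 5, 14, 16, 8, 12, 17, 11, 9, 13, 6, 22, 7, 10, 21, 23, 0, 18, 15, 20, 19], [19, 0, 1, 2, 3, 4, 13, 15, 7, 11, 16, 10, 8, 12, 5, 21, 6, 9, 20, 23, 22, 17, 14, 18]),
  ([1, 2, 3, 4, 5, 15, 10, 8, 20, 7, 11, 0, 13, 22, 6, 17, 16, 23, 21, 9, 19, 14, 12, 18], [11, 0, 1, 2, 3, 4, 14, 9, 7, 19, 6, 10, 22, 12, 21, 5, 16, 15, 23, 20, 8, 18, 13, 17]),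
  ([1, 2, 3, 4, 5, 15, 14, 13, 0, 21, 8, 22, 11, 20, 23, 12, 10, 18, 9, 7, 17, 16, 19, 6], [8, 0, 1, 2, 3, 4, 23, 19, 10, 18, 16, 12, 15, 7, 6, 5, 21, 20, 17, 22, 13, 9, 11, 14]),
  ([1, 2, 3, 4, 5, 15, 16, 11, 22, 9, 13, 20, 8, 0, 18, 19, 14, 6, 7, 21, 12, 10, 17, 23], [13, 0, 1, 2, 3, 4, 17, 18, 12, 9, 21, 7, 20, 10, 16, 5, 6, 22, 14, 15, 11, 19, 8, 23]),
  ([1, 2, 3, 4, 5, 16, 10, 13, 19, 12, 8, 7, 11, 23, 20, 21, 14, 9, 18, 22, 6, 15, 0, 17], [22, 0, 1, 2, 3, 4, 20, 11, 10, 17, 6, 12, 9, 7, 16, 21, 5, 23, 18, 8, 14, 15, 19, 13]),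
  ([1, 2, 3, 4, 5, 16, 14, 8, 23, 22, 11, 19, 13, 7, 17, 6, 15, 20, 12, 18, 0, 10, 21, 9], [20, 0, 1, 2, 3, 4, 15, 13, 7, 23, 21, 10, 18, 12, 6, 16, 5, 14, 19, 11, 17, 22, 9, 8]),
  ([1, 2, 3, 4, 5, 16, 15, 11, 7, 18, 13, 23, 8, 19, 9, 0, 10, 17, 22, 12, 21, 14, 6, 20], [15, 0, 1, 2, 3, 4, 22, 8, 12, 14, 16, 7, 19, 10, 21, 6, 5, 17, 9, 13, 23, 20, 18, 11]),
  ([1, 2, 3, 4, 5, 17, 6, 11, 10, 23, 13, 18, 8, 21, 20, 12, 7, 16, 14, 0, 19, 22, 15, 9], [19, 0, 1, 2, 3, 4, 6, 16, 12, 23, 8, 7, 15, 10, 18, 22, 17, 5, 11, 20, 14, 13, 21, 9]),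
  ([1, 2, 3, 4, 5, 17, 7, 13, 21, 0, 8, 10, 11, 18, 9, 19, 22, 20, 23, 14, 15, 6, 12, 16], [9, 0, 1, 2, 3, 4, 21, 6, 10, 14, 11, 12, 22, 7, 19, 20, 23, 5, 13, 15, 17, 8, 16, 18]),
  ([1, 2, 3, 4, 5, 17, 22, 8, 18, 14, 11, 21, 13, 10, 16, 15, 6, 9, 0, 23, 12, 7, 19, 20], [18, 0, 1, 2, 3, 4, 16, 21, 7, 17, 13, 10, 20, 12, 9, 15, 14, 5, 8, 22, 23, 11, 6, 19]),
  ([1, 2, 3, 4, 5, 18, 0, 8, 17, 12, 11, 10, 13, 21, 23, 20, 9, 6, 22, 16, 14, 19, 7, 15], [6, 0, 1, 2, 3, 4, 17, 22, 7, 16, 11, 10, 9, 12, 20, 23, 19, 8, 5, 21, 15, 13, 18, 14]),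
  ([1, 2, 3, 4, 5, 18, 9, 11, 21, 16, 13, 17, 8, 10, 15, 14, 19, 23, 12, 22, 7, 0, 20, 6], [21, 0, 1, 2, 3, 4, 23, 20, 12, 6, 13, 7, 18, 10, 15, 14, 9, 11, 5, 16, 22, 8, 19, 17]),
  ([1, 2, 3, 4, 5, 18, 19, 13, 10, 22, 8, 21, 11, 17, 6, 7, 0, 15, 16, 12, 20, 9, 14, 23], [16, 0, 1, 2, 3, 4, 14, 15, 10, 21, 8, 12, 19, 7, 22, 17, 18, 13, 5, 6, 20, 11, 9, 23]),
  ([1, 2, 3, 4, 5, 19, 0, 11, 23, 10, 13, 7, 8, 16, 14, 15, 18, 21, 20, 6, 17, 9, 12, 22], [6, 0, 1, 2, 3, 4, 19, 11, 12, 21, 9, 7, 22, 10, 14, 15, 13, 20, 16, 5, 18, 17, 23, 8]),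
  ([1, 2, 3, 4, 5, 19, 9, 8, 7, 20, 11, 16, 13, 23, 21, 12, 0, 22, 6, 10, 15, 18, 17, 14], [16, 0, 1, 2, 3, 4, 18, 8, 7, 6, 19, 10, 15, 12, 23, 20, 11, 22, 21, 5, 9, 14, 17, 13]),
  ([1, 2, 3, 4, 5, 19, 18, 13, 16, 6, 8, 23, 11, 7, 22, 17, 9, 14, 10, 20, 12, 0, 15, 21], [21, 0, 1, 2, 3, 4, 9, 13, 10, 16, 18, 12, 20, 7, 17, 22, 8, 15, 6, 5, 19, 23, 14, 11]),
  ([1, 2, 3, 4, 5, 20, 12, 13, 22, 10, 8, 0, 11, 15, 16, 14, 21, 17, 6, 19, 18, 23, 7, 9], [11, 0, 1, 2, 3, 4, 18, 22, 10, 23, 9, 12, 6, 7, 15, 13, 14, 17, 20, 19, 5, 16, 8, 21]),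
  ([1, 2, 3, 4, 5, 20, 21, 8, 15, 19, 11, 22, 13, 0, 9, 18, 23, 16, 10, 6, 7, 12, 14, 17], [13, 0, 1, 2, 3, 4, 19, 20, 7, 14, 18, 10, 21, 12, 22, 8, 17, 23, 15, 9, 5, 6, 11, 16]),
  ([1, 2, 3, 4, 5, 20, 23, 11, 0, 6, 13, 15, 8, 22, 17, 7, 12, 9, 19, 10, 14, 21, 18, 16], [8, 0, 1, 2, 3, 4, 9, 15, 12, 17, 19, 7, 16, 10, 20, 11, 23, 14, 22, 18, 5, 21, 13, 6]),
  ([1, 2, 3, 4, 5, 21, 12, 11, 18, 7, 13, 10, 8, 17, 22, 6, 23, 19, 9, 15, 16, 20, 0, 14], [22, 0, 1, 2, 3, 4, 15, 9, 12, 18, 11, 7, 6, 10, 23, 19, 20, 13, 8, 17, 21, 5, 14, 16]),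
  ([1, 2, 3, 4, 5, 21, 20, 8, 10, 9, 11, 17, 13, 18, 19, 0, 12, 14, 15, 7, 6, 23, 16, 22], [15, 0, 1, 2, 3, 4, 20, 19, 7, 9, 8, 10, 16, 12, 17, 18, 22, 11, 13, 14, 6, 5, 23, 21]),
  ([1, 2, 3, 4, 5, 21, 23, 13, 17, 15, 8, 18, 11, 10, 14, 16, 20, 22, 7, 9, 0, 12, 6, 19], [20, 0, 1, 2, 3, 4, 22, 18, 10, 19, 13, 12, 21, 7, 14, 9, 15, 8, 11, 23, 16, 5, 17, 6]),
  ([1, 2, 3, 4, 5, 22, 6, 13, 20, 18, 8, 15, 11, 0, 19, 9, 17, 21, 12, 16, 10, 7, 23, 14], [13, 0, 1, 2, 3, 4, 6, 21, 10, 15, 20, 12, 18, 7, 23, 11, 19, 16, 9, 14, 8, 17, 5, 22]),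
  ([1, 2, 3, 4, 5, 22, 7, 11, 15, 12, 13, 0, 8, 20, 21, 23, 6, 14, 16, 18, 9, 17, 10, 19], [11, 0, 1, 2, 3, 4, 16, 6, 12, 20, 22, 7, 9, 10, 17, 8, 18, 21, 19, 23, 13, 14, 5, 15]),
  ([1, 2, 3, 4, 5, 22, 17, 8, 0, 16, 11, 20, 13, 15, 14, 10, 7, 19, 18, 12, 23, 6, 9, 21], [8, 0, 1, 2, 3, 4, 21, 16, 7, 22, 15, 10, 19, 12, 14, 13, 9, 6, 18, 17, 11, 23, 5, 20]),
  ([1, 2, 3, 4, 5, 23, 12, 8, 16, 0, 11, 7, 13, 19, 18, 9, 20, 15, 14, 17, 22, 21, 10, 6], [9, 0, 1, 2, 3, 4, 23, 11, 7, 15, 22, 10, 6, 12, 18, 17, 8, 19, 14, 13, 16, 21, 20, 5]),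
  ([1, 2, 3, 4, 5, 23, 20, 11, 19, 17, 13, 16, 8, 7, 6, 22, 21, 18, 0, 14, 10, 12, 9, 15], [18, 0, 1, 2, 3, 4, 14, 13, 12, 22, 20, 7, 21, 10, 19, 23, 11, 9, 17, 8, 6, 16, 15, 5]),
  ([1, 2, 3, 4, 5, 23, 21, 13, 7, 14, 8, 19, 11, 16, 15, 10, 12, 6, 17, 0, 9, 20, 22, 18], [19, 0, 1, 2, 3, 4, 17, 8, 10, 20, 15, 12, 16, 7, 9, 14, 13, 18, 23, 11, 21, 6, 22, 5])]

def tC7 : List (List ℕ × List ℕ) := [
  ([1, 2, 3, 4, 7, 5, 6, 0, 16, 15, 12, 23, 10, 19, 13, 20, 17, 8, 21, 9, 14, 22, 18, 11], [7, 0, 1, 2, 3, 5, 6, 4, 17, 19, 12, 23, 10, 14, 20, 9, 8, 16, 22, 13, 15, 18, 21, 11]),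
  ([1, 2, 3, 4, 7, 5, 17, 12, 19, 9, 10, 16, 0, 23, 11, 14, 22, 13, 15, 21, 18, 6, 20, 8], [12, 0, 1, 2, 3, 5, 21, 4, 23, 9, 10, 14, 7, 17, 15, 18, 11, 6, 20, 8, 22, 19, 16, 13]),
  ([1, 2, 3, 4, 7, 5, 22, 10, 23, 21, 0, 19, 12, 16, 8, 18, 6, 11, 9, 15, 20, 17, 14, 13], [10, 0, 1, 2, 3, 5, 16, 4, 14, 18, 7, 17, 12, 23, 22, 19, 13, 21, 15, 11, 20, 9, 6, 8]),
  ([1, 2, 3, 4, 7, 6, 5, 0, 21, 13, 12, 11, 10, 20, 15, 19, 22, 18, 16, 14, 9, 17, 8, 23], [7, 0, 1, 2, 3, 6, 5, 4, 22, 20, 12, 11, 10, 9, 19, 14, 18, 21, 17, 15, 13, 8, 16, 23]),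
  ([1, 2, 3, 4, 7, 6, 17, 10, 11, 16, 0, 20, 12, 21, 18, 8, 5, 23, 14, 13, 19, 22, 9, 15], [10, 0, 1, 2, 3, 16, 5, 4, 15, 22, 7, 8, 12, 19, 18, 23, 9, 6, 14, 20, 11, 13, 21, 17]),
  ([1, 2, 3, 4, 7, 6, 22, 12, 20, 14, 10, 21, 0, 11, 23, 9, 17, 15, 13, 16, 8, 5, 19, 18], [12, 0, 1, 2, 3, 21, 5, 4, 20, 15, 10, 13, 7, 18, 9, 17, 19, 16, 23, 22, 8, 11, 6, 14]),
  ([1, 2, 3, 4, 7, 8, 16, 12, 14, 20, 10, 17, 0, 15, 13, 19, 21, 11, 23, 22, 6, 18, 9, 5], [12, 0, 1, 2, 3, 23, 20, 4, 5, 22, 10, 17, 7, 14, 8, 13, 6, 11, 21, 15, 9, 16, 19, 18]),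
  ([1, 2, 3, 4, 7, 8, 18, 0, 17, 23, 12, 15, 10, 14, 11, 9, 16, 5, 22, 20, 19, 21, 6, 13], [7, 0, 1, 2, 3, 17, 22, 4, 5, 15, 12, 14, 10, 23, 13, 11, 16, 8, 6, 20, 19, 21, 18, 9]),
  ([1, 2, 3, 4, 7, 8, 21, 10, 15, 22, 0, 14, 12, 17, 5, 6, 18, 13, 20, 23, 9, 16, 19, 11], [10, 0, 1, 2, 3, 14, 15, 4, 5, 20, 7, 23, 12, 17, 11, 8, 21, 13, 16, 22, 18, 6, 9, 19]),
  ([1, 2, 3, 4, 7, 9, 11, 12, 18, 5, 10, 13, 0, 22, 17, 6, 23, 16, 21, 15, 19, 14, 8, 20], [12, 0, 1, 2, 3, 9, 15, 4, 22, 5, 10, 6, 7, 11, 21, 19, 17, 14, 8, 20, 23, 18, 13, 16]),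
  ([1, 2, 3, 4, 7, 9, 14, 0, 13, 21, 12, 22, 10, 18, 16, 8, 11, 20, 15, 5, 6, 23, 19, 17], [7, 0, 1, 2, 3, 19, 20, 4, 15, 5, 12, 16, 10, 8, 6, 18, 14, 23, 13, 22, 17, 9, 11, 21]),
  ([1, 2, 3, 4, 7, 9, 23, 10, 22, 15, 0, 18, 12, 13, 20, 19, 14, 17, 5, 21, 8, 11, 6, 16], [10, 0, 1, 2, 3, 18, 22, 4, 20, 5, 7, 21, 12, 13, 16, 9, 23, 17, 11, 15, 14, 19, 8, 6]),
  ([1, 2, 3, 4, 7, 11, 9, 12, 21, 17, 10, 20, 0, 6, 5, 22, 14, 8, 18, 19, 15, 23, 16, 13], [12, 0, 1, 2, 3, 14, 13, 4, 17, 6, 10, 5, 7, 23, 16, 20, 22, 9, 18, 19, 11, 8, 15, 21]),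
  ([1, 2, 3, 4, 7, 11, 14, 10, 6, 19, 0, 21, 12, 20, 13, 15, 23, 5, 17, 18, 16, 9, 22, 8], [10, 0, 1, 2, 3, 17, 8, 4, 23, 21, 7, 5, 12, 14, 6, 15, 20, 18, 19, 9, 13, 11, 22, 16]),
  ([1, 2, 3, 4, 7, 11, 23, 0, 20, 18, 12, 6, 10, 21, 8, 16, 9, 13, 19, 17, 22, 14, 15, 5], [7, 0, 1, 2, 3, 23, 11, 4, 14, 16, 12, 5, 10, 17, 21, 22, 15, 19, 9, 18, 8, 13, 20, 6]),
  ([1, 2, 3, 4, 7, 13, 15, 0, 9, 6, 12, 18, 10, 22, 5, 17, 20, 11, 14, 16, 21, 19, 23, 8], [7, 0, 1, 2, 3, 14, 9, 4, 23, 8, 12, 17, 10, 5, 18, 6, 19, 15, 11, 21, 16, 20, 13, 22]),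
  ([1, 2, 3, 4, 7, 13, 19, 10, 18, 14, 0, 22, 12, 9, 11, 23, 15, 8, 16, 6, 17, 20, 21, 5], [10, 0, 1, 2, 3, 23, 19, 4, 17, 13, 7, 14, 12, 5, 9, 16, 18, 20, 8, 6, 21, 22, 11, 15]),
  ([1, 2, 3, 4, 7, 13, 20, 12, 22, 16, 10, 9, 0, 18, 8, 21, 19, 5, 6, 14, 23, 15, 17, 11], [12, 0, 1, 2, 3, 17, 18, 4, 14, 11, 10, 23, 7, 5, 19, 21, 9, 22, 13, 16, 6, 15, 8, 20]),
  ([1, 2, 3, 4, 7, 14, 9, 0, 15, 16, 12, 17, 10, 8, 21, 18, 23, 19, 13, 6, 5, 11, 20, 22], [7, 0, 1, 2, 3, 20, 19, 4, 13, 6, 12, 21, 10, 18, 5, 8, 9, 11, 15, 17, 22, 14, 23, 16]),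
  ([1, 2, 3, 4, 7, 14, 11, 10, 17, 13, 0, 8, 12, 15, 19, 20, 9, 22, 6, 16, 18, 23, 5, 21], [10, 0, 1, 2, 3, 22, 18, 4, 11, 16, 7, 6, 12, 9, 5, 13, 19, 8, 20, 14, 15, 23, 17, 21]),
  ([1, 2, 3, 4, 7, 14, 23, 12, 8, 6, 10, 15, 0, 17, 22, 5, 11, 21, 16, 13, 20, 9, 18, 19], [12, 0, 1, 2, 3, 15, 9, 4, 8, 21, 10, 16, 7, 19, 5, 11, 18, 13, 22, 23, 20, 17, 14, 6]),
  ([1, 2, 3, 4, 7, 15, 13, 0, 14, 5, 12, 8, 10, 17, 6, 22, 19, 23, 9, 21, 16, 20, 11, 18], [7, 0, 1, 2, 3, 9, 14, 4, 11, 18, 12, 22, 10, 6, 8, 5, 20, 13, 23, 16, 21, 19, 15, 17]),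
  ([1, 2, 3, 4, 7, 15, 19, 12, 17, 21, 10, 14, 0, 8, 18, 16, 20, 6, 5, 9, 11, 13, 22, 23], [12, 0, 1, 2, 3, 18, 17, 4, 13, 19, 10, 20, 7, 21, 11, 5, 15, 8, 14, 6, 16, 9, 22, 23]),
  ([1, 2, 3, 4, 7, 15, 20, 10, 8, 9, 0, 17, 12, 14, 23, 11, 13, 18, 21, 5, 22, 19, 16, 6], [10, 0, 1, 2, 3, 19, 23, 4, 8, 9, 7, 15, 12, 16, 13, 5, 22, 11, 17, 21, 6, 18, 20, 14]),
  ([1, 2, 3, 4, 7, 16, 8, 12, 23, 13, 10, 5, 0, 19, 20, 15, 18, 9, 14, 6, 22, 21, 11, 17], [12, 0, 1, 2, 3, 11, 19, 4, 6, 17, 10, 22, 7, 9, 18, 15, 5, 23, 16, 13, 14, 21, 20, 8]),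
  ([1, 2, 3, 4, 7, 16, 18, 10, 19, 6, 0, 23, 12, 5, 17, 22, 21, 20, 13, 14, 11, 8, 15, 9], [10, 0, 1, 2, 3, 13, 9, 4, 21, 23, 7, 20, 12, 18, 19, 22, 5, 14, 6, 8, 17, 16, 15, 11]),
  ([1, 2, 3, 4, 7, 16, 21, 0, 5, 14, 12, 19, 10, 23, 9, 11, 8, 17, 6, 13, 15, 18, 22, 20], [7, 0, 1, 2, 3, 8, 18, 4, 16, 14, 12, 15, 10, 19, 9, 20, 5, 17, 21, 11, 23, 6, 22, 13]),
  ([1, 2, 3, 4, 7, 17, 5, 12, 15, 11, 10, 8, 0, 14, 9, 23, 6, 20, 19, 18, 21, 22, 13, 16], [12, 0, 1, 2, 3, 6, 16, 4, 11, 14, 10, 9, 7, 22, 13, 8, 23, 5, 19, 18, 17, 20, 21, 15]),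
  ([1, 2, 3, 4, 7, 17, 6, 10, 14, 18, 0, 15, 12, 8, 16, 21, 22, 9, 11, 19, 13, 5, 23, 20], [10, 0, 1, 2, 3, 21, 6, 4, 13, 17, 7, 18, 12, 20, 8, 11, 14, 5, 9, 19, 23, 15, 16, 22]),
  ([1, 2, 3, 4, 7, 17, 22, 0, 8, 19, 12, 14, 10, 15, 20, 13, 5, 16, 18, 11, 23, 6, 21, 9], [7, 0, 1, 2, 3, 16, 21, 4, 8, 23, 12, 19, 10, 15, 11, 13, 17, 5, 18, 9, 14, 22, 6, 20]),
  ([1, 2, 3, 4, 7, 18, 8, 0, 22, 11, 12, 13, 10, 9, 23, 14, 21, 6, 17, 19, 20, 16, 5, 15], [7, 0, 1, 2, 3, 22, 17, 4, 6, 13, 12, 9, 10, 11, 15, 23, 21, 18, 5, 19, 20, 16, 8, 14]),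
  ([1, 2, 3, 4, 7, 18, 16, 10, 13, 17, 0, 9, 12, 22, 6, 5, 8, 15, 19, 11, 14, 21, 20, 23], [10, 0, 1, 2, 3, 15, 14, 4, 16, 11, 7, 19, 12, 8, 20, 17, 6, 9, 5, 18, 22, 21, 13, 23]),
  ([1, 2, 3, 4, 7, 18, 21, 12, 9, 19, 10, 22, 0, 13, 15, 20, 16, 23, 11, 17, 5, 8, 14, 6], [12, 0, 1, 2, 3, 20, 23, 4, 21, 8, 10, 18, 7, 13, 22, 14, 16, 19, 5, 9, 15, 6, 11, 17]),
  ([1, 2, 3, 4, 7, 19, 13, 10, 16, 11, 0, 5, 12, 23, 14, 9, 20, 21, 18, 17, 6, 15, 8, 22], [10, 0, 1, 2, 3, 11, 20, 4, 22, 15, 7, 9, 12, 6, 14, 21, 8, 19, 18, 5, 16, 17, 23, 13]),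
  ([1, 2, 3, 4, 7, 19, 15, 12, 5, 18, 10, 23, 0, 16, 21, 8, 13, 22, 17, 11, 9, 20, 6, 14], [12, 0, 1, 2, 3, 8, 22, 4, 15, 20, 10, 19, 7, 16, 23, 6, 13, 18, 9, 5, 21, 14, 17, 11]),
  ([1, 2, 3, 4, 7, 19, 20, 0, 23, 17, 12, 16, 10, 5, 22, 6, 15, 14, 11, 18, 8, 13, 9, 21], [7, 0, 1, 2, 3, 13, 15, 4, 20, 22, 12, 18, 10, 21, 17, 16, 11, 9, 19, 5, 6, 23, 14, 8]),
  ([1, 2, 3, 4, 7, 20, 13, 12, 6, 8, 10, 11, 0, 21, 16, 18, 15, 17, 22, 23, 14, 19, 5, 9], [12, 0, 1, 2, 3, 22, 8, 4, 9, 23, 10, 11, 7, 6, 20, 16, 14, 17, 15, 21, 5, 13, 18, 19]),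
  ([1, 2, 3, 4, 7, 20, 15, 10, 21, 23, 0, 6, 12, 11, 9, 14, 19, 16, 8, 22, 5, 13, 18, 17], [10, 0, 1, 2, 3, 20, 11, 4, 18, 14, 7, 13, 12, 21, 15, 6, 17, 23, 22, 16, 5, 8, 19, 9]),
  ([1, 2, 3, 4, 7, 20, 19, 0, 11, 22, 12, 21, 10, 6, 17, 5, 13, 9, 23, 8, 18, 15, 14, 16], [7, 0, 1, 2, 3, 15, 13, 4, 19, 17, 12, 8, 10, 16, 22, 21, 23, 14, 20, 6, 5, 11, 9, 18]),
  ([1, 2, 3, 4, 7, 21, 8, 10, 20, 5, 0, 11, 12, 6, 22, 17, 16, 19, 15, 9, 23, 18, 13, 14], [10, 0, 1, 2, 3, 9, 13, 4, 6, 19, 7, 11, 12, 22, 23, 18, 16, 15, 21, 17, 8, 5, 14, 20]),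
  ([1, 2, 3, 4, 7, 21, 16, 0, 6, 9, 12, 20, 10, 11, 14, 23, 18, 22, 5, 15, 13, 8, 17, 19], [7, 0, 1, 2, 3, 18, 8, 4, 21, 9, 12, 13, 10, 20, 14, 19, 6, 22, 16, 23, 11, 5, 17, 15]),
  ([1, 2, 3, 4, 7, 21, 18, 12, 11, 15, 10, 6, 0, 20, 19, 13, 8, 14, 9, 5, 17, 16, 23, 22], [12, 0, 1, 2, 3, 19, 11, 4, 16, 18, 10, 8, 7, 15, 17, 9, 21, 20, 6, 14, 13, 5, 23, 22]),
  ([1, 2, 3, 4, 7, 22, 5, 10, 9, 8, 0, 13, 12, 18, 21, 16, 17, 14, 23, 20, 15, 6, 11, 19], [10, 0, 1, 2, 3, 6, 21, 4, 9, 8, 7, 22, 12, 11, 17, 20, 15, 16, 13, 23, 19, 14, 5, 18]),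
  ([1, 2, 3, 4, 7, 22, 6, 12, 13, 23, 10, 18, 0, 9, 14, 11, 5, 19, 20, 8, 16, 17, 15, 21], [12, 0, 1, 2, 3, 16, 6, 4, 19, 13, 10, 15, 7, 8, 14, 22, 20, 21, 11, 17, 18, 23, 5, 9]),
  ([1, 2, 3, 4, 7, 22, 17, 0, 18, 20, 12, 9, 10, 13, 19, 15, 6, 21, 8, 23, 11, 5, 16, 14], [7, 0, 1, 2, 3, 21, 16, 4, 18, 11, 12, 20, 10, 13, 23, 15, 22, 6, 8, 14, 9, 17, 5, 19]),
  ([1, 2, 3, 4, 7, 23, 9, 10, 5, 20, 0, 16, 12, 19, 15, 13, 11, 6, 22, 8, 21, 14, 17, 18], [10, 0, 1, 2, 3, 8, 17, 4, 19, 6, 7, 16, 12, 15, 21, 14, 11, 22, 23, 13, 9, 20, 18, 5]),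
  ([1, 2, 3, 4, 7, 23, 11, 0, 19, 8, 12, 5, 10, 16, 18, 21, 14, 15, 20, 22, 17, 9, 13, 6], [7, 0, 1, 2, 3, 11, 23, 4, 9, 21, 12, 6, 10, 22, 16, 17, 13, 20, 14, 8, 18, 15, 19, 5]),
  ([1, 2, 3, 4, 7, 23, 14, 12, 16, 22, 10, 19, 0, 5, 6, 17, 9, 18, 8, 20, 13, 11, 21, 15], [12, 0, 1, 2, 3, 13, 14, 4, 18, 16, 10, 21, 7, 20, 6, 23, 8, 15, 17, 11, 19, 22, 9, 5])]

def tD : List (List ℕ × List ℕ) := [
  ([1, 2, 0, 4, 3, 5, 8, 7, 15, 14, 12, 20, 10, 22, 19, 21, 11, 18, 23, 17, 16, 13, 6, 9], [2, 0, 1, 4, 3, 5, 22, 7, 6, 23, 12, 16, 10, 21, 9, 8, 20, 19, 17, 14, 11, 15, 13, 18]),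
  ([1, 2, 0, 4, 3, 5, 11, 12, 22, 17, 10, 15, 7, 20, 9, 16, 13, 19, 14, 23, 6, 8, 21, 18], [2, 0, 1, 4, 3, 5, 20, 12, 21, 14, 10, 6, 7, 16, 18, 11, 15, 9, 23, 17, 13, 22, 8, 19]),
  ([1, 2, 0, 4, 3, 5, 13, 10, 20, 23, 7, 22, 12, 15, 18, 6, 8, 9, 17, 14, 21, 11, 16, 19], [2, 0, 1, 4, 3, 5, 15, 10, 16, 17, 7, 21, 12, 6, 19, 13, 22, 18, 14, 23, 8, 20, 11, 9]),
  ([1, 2, 0, 4, 3, 6, 15, 10, 19, 11, 7, 17, 12, 13, 8, 5, 18, 14, 22, 9, 16, 23, 21, 20], [2, 0, 1, 4, 3, 15, 5, 10, 14, 19, 7, 9, 12, 13, 17, 6, 20, 11, 16, 8, 23, 22, 18, 21]),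
  ([1, 2, 0, 4, 3, 6, 18, 7, 13, 9, 12, 19, 10, 17, 20, 16, 23, 8, 11, 22, 21, 15, 5, 14], [2, 0, 1, 4, 3, 22, 5, 7, 17, 9, 12, 18, 10, 8, 23, 21, 15, 13, 6, 11, 14, 20, 19, 16]),
  ([1, 2, 0, 4, 3, 6, 23, 12, 17, 22, 10, 13, 7, 19, 14, 21, 15, 20, 9, 11, 5, 18, 16, 8], [2, 0, 1, 4, 3, 20, 5, 12, 23, 18, 10, 19, 7, 11, 14, 16, 22, 8, 21, 13, 17, 15, 9, 6]),
  ([1, 2, 0, 4, 3, 8, 5, 7, 23, 19, 12, 9, 10, 21, 14, 22, 13, 6, 15, 16, 17, 11, 18, 20], [2, 0, 1, 4, 3, 6, 17, 7, 5, 11, 12, 21, 10, 16, 14, 18, 19, 20, 22, 9, 23, 13, 15, 8]),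
  ([1, 2, 0, 4, 3, 8, 11, 10, 9, 15, 7, 21, 12, 23, 6, 18, 5, 20, 16, 19, 22, 13, 17, 14], [2, 0, 1, 4, 3, 16, 14, 10, 5, 8, 7, 6, 12, 21, 23, 9, 18, 22, 15, 19, 17, 11, 20, 13]),
  ([1, 2, 0, 4, 3, 8, 13, 12, 21, 16, 10, 23, 7, 9, 20, 17, 11, 14, 19, 15, 18, 5, 22, 6], [2, 0, 1, 4, 3, 21, 23, 12, 5, 13, 10, 16, 7, 6, 17, 19, 9, 15, 20, 18, 14, 8, 22, 11]),
  ([1, 2, 0, 4, 3, 9, 16, 10, 8, 22, 7, 23, 12, 21, 19, 14, 20, 5, 11, 6, 15, 17, 13, 18], [2, 0, 1, 4, 3, 17, 19, 10, 8, 5, 7, 18, 12, 22, 15, 20, 6, 21, 23, 14, 16, 13, 9, 11]),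
  ([1, 2, 0, 4, 3, 9, 17, 12, 23, 11, 10, 21, 7, 8, 5, 13, 16, 18, 6, 22, 14, 20, 15, 19], [2, 0, 1, 4, 3, 14, 18, 12, 13, 5, 10, 9, 7, 15, 20, 22, 16, 6, 17, 23, 21, 11, 19, 8]),
  ([1, 2, 0, 4, 3, 9, 20, 7, 21, 6, 12, 8, 10, 23, 18, 15, 17, 19, 22, 11, 13, 16, 14, 5], [2, 0, 1, 4, 3, 23, 9, 7, 11, 5, 12, 19, 10, 20, 22, 15, 21, 16, 14, 17, 6, 8, 18, 13]),
  ([1, 2, 0, 4, 3, 11, 5, 12, 14, 9, 10, 18, 7, 16, 17, 20, 8, 21, 22, 6, 23, 13, 19, 15], [2, 0, 1, 4, 3, 6, 19, 12, 16, 9, 10, 5, 7, 21, 8, 23, 13, 14, 11, 22, 15, 17, 18, 20]),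
  ([1, 2, 0, 4, 3, 11, 8, 10, 16, 6, 7, 14, 12, 18, 15, 23, 13, 17, 9, 22, 19, 5, 20, 21], [2, 0, 1, 4, 3, 21, 9, 10, 6, 18, 7, 5, 12, 16, 11, 14, 8, 17, 13, 20, 22, 23, 19, 15]),
  ([1, 2, 0, 4, 3, 11, 13, 7, 18, 22, 12, 16, 10, 14, 21, 19, 5, 15, 6, 9, 20, 8, 23, 17], [2, 0, 1, 4, 3, 16, 18, 7, 21, 19, 12, 5, 10, 6, 13, 17, 11, 23, 8, 15, 20, 14, 9, 22]),
  ([1, 2, 0, 4, 3, 13, 5, 10, 17, 18, 7, 19, 12, 6, 23, 15, 11, 16, 20, 21, 14, 8, 9, 22], [2, 0, 1, 4, 3, 6, 13, 10, 21, 22, 7, 16, 12, 5, 20, 15, 17, 8, 9, 11, 18, 19, 23, 14]),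
  ([1, 2, 0, 4, 3, 13, 8, 12, 19, 20, 10, 6, 7, 17, 16, 9, 5, 22, 21, 18, 15, 11, 14, 23], [2, 0, 1, 4, 3, 16, 11, 12, 6, 15, 10, 21, 7, 5, 22, 20, 14, 13, 19, 8, 9, 18, 17, 23]),
  ([1, 2, 0, 4, 3, 13, 11, 7, 6, 21, 12, 17, 10, 19, 22, 14, 8, 23, 18, 20, 9, 5, 15, 16], [2, 0, 1, 4, 3, 21, 8, 7, 16, 20, 12, 6, 10, 5, 15, 22, 23, 11, 18, 13, 19, 9, 14, 17]),
  ([1, 2, 0, 4, 3, 14, 19, 7, 16, 5, 12, 18, 10, 11, 8, 13, 22, 20, 17, 23, 15, 21, 9, 6], [2, 0, 1, 4, 3, 9, 23, 7, 14, 22, 12, 13, 10, 15, 5, 20, 8, 18, 11, 6, 17, 21, 16, 19]),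
  ([1, 2, 0, 4, 3, 14, 21, 10, 18, 17, 7, 11, 12, 16, 20, 9, 19, 6, 23, 5, 13, 22, 15, 8], [2, 0, 1, 4, 3, 19, 17, 10, 23, 15, 7, 11, 12, 20, 5, 22, 13, 9, 8, 16, 14, 6, 21, 18]),
  ([1, 2, 0, 4, 3, 14, 22, 12, 11, 23, 10, 16, 7, 18, 6, 15, 21, 8, 5, 17, 9, 19, 13, 20], [2, 0, 1, 4, 3, 18, 14, 12, 17, 20, 10, 8, 7, 22, 5, 15, 11, 19, 13, 21, 23, 16, 6, 9]),
  ([1, 2, 0, 4, 3, 15, 6, 10, 22, 8, 7, 20, 12, 5, 11, 13, 23, 21, 19, 16, 9, 18, 14, 17], [2, 0, 1, 4, 3, 13, 6, 10, 9, 20, 7, 14, 12, 15, 22, 5, 19, 23, 21, 18, 11, 17, 8, 16]),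
  ([1, 2, 0, 4, 3, 15, 18, 12, 20, 19, 10, 5, 7, 22, 21, 14, 6, 17, 16, 8, 13, 23, 9, 11], [2, 0, 1, 4, 3, 11, 16, 12, 19, 22, 10, 23, 7, 20, 15, 5, 18, 17, 6, 9, 8, 14, 13, 21]),
  ([1, 2, 0, 4, 3, 15, 23, 7, 5, 16, 12, 22, 10, 20, 17, 9, 18, 11, 8, 19, 14, 6, 13, 21], [2, 0, 1, 4, 3, 8, 21, 7, 18, 15, 12, 17, 10, 22, 20, 5, 9, 14, 16, 19, 13, 23, 11, 6]),
  ([1, 2, 0, 4, 3, 16, 9, 10, 11, 19, 7, 18, 12, 14, 22, 21, 17, 13, 8, 15, 6, 20, 5, 23], [2, 0, 1, 4, 3, 22, 20, 10, 18, 6, 7, 8, 12, 17, 13, 19, 5, 16, 11, 9, 21, 15, 14, 23]),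
  ([1, 2, 0, 4, 3, 16, 17, 7, 14, 15, 12, 11, 10, 18, 23, 6, 20, 22, 19, 8, 5, 9, 21, 13], [2, 0, 1, 4, 3, 20, 15, 7, 19, 21, 12, 11, 10, 23, 8, 9, 5, 6, 13, 18, 16, 22, 17, 14]),
  ([1, 2, 0, 4, 3, 16, 20, 12, 18, 8, 10, 14, 7, 11, 13, 5, 9, 23, 15, 19, 21, 17, 6, 22], [2, 0, 1, 4, 3, 15, 22, 12, 9, 16, 10, 13, 7, 14, 11, 18, 5, 21, 8, 19, 6, 20, 23, 17]),
  ([1, 2, 0, 4, 3, 17, 9, 12, 6, 5, 10, 19, 7, 13, 11, 8, 20, 15, 23, 14, 22, 16, 18, 21], [2, 0, 1, 4, 3, 9, 8, 12, 15, 6, 10, 14, 7, 13, 19, 17, 21, 5, 22, 11, 16, 23, 20, 18]),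
  ([1, 2, 0, 4, 3, 17, 16, 7, 19, 23, 12, 13, 10, 6, 15, 18, 9, 21, 14, 5, 8, 20, 22, 11], [2, 0, 1, 4, 3, 19, 13, 7, 20, 16, 12, 23, 10, 11, 18, 14, 6, 5, 15, 8, 21, 17, 22, 9]),
  ([1, 2, 0, 4, 3, 17, 20, 10, 13, 14, 7, 6, 12, 19, 21, 22, 16, 11, 5, 23, 18, 9, 8, 15], [2, 0, 1, 4, 3, 18, 11, 10, 22, 21, 7, 17, 12, 8, 9, 23, 16, 5, 20, 13, 6, 14, 15, 19]),
  ([1, 2, 0, 4, 3, 18, 6, 7, 11, 20, 12, 14, 10, 16, 9, 17, 15, 5, 13, 21, 22, 23, 8, 19], [2, 0, 1, 4, 3, 17, 6, 7, 22, 14, 12, 8, 10, 18, 11, 16, 13, 15, 5, 23, 9, 19, 20, 21]),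
  ([1, 2, 0, 4, 3, 18, 15, 12, 16, 21, 10, 11, 7, 14, 19, 22, 23, 9, 20, 13, 8, 6, 17, 5], [2, 0, 1, 4, 3, 23, 21, 12, 20, 17, 10, 11, 7, 19, 13, 6, 8, 22, 5, 14, 18, 9, 15, 16]),
  ([1, 2, 0, 4, 3, 18, 23, 10, 14, 13, 7, 16, 12, 11, 5, 8, 6, 19, 21, 20, 17, 15, 22, 9], [2, 0, 1, 4, 3, 14, 16, 10, 15, 23, 7, 13, 12, 9, 8, 21, 11, 20, 5, 17, 19, 18, 22, 6]),
  ([1, 2, 0, 4, 3, 19, 14, 7, 17, 8, 12, 6, 10, 13, 5, 11, 21, 9, 16, 15, 23, 22, 20, 18], [2, 0, 1, 4, 3, 14, 11, 7, 9, 17, 12, 15, 10, 13, 6, 19, 18, 8, 23, 5, 22, 16, 21, 20]),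
  ([1, 2, 0, 4, 3, 19, 21, 12, 13, 15, 10, 17, 7, 6, 18, 23, 22, 5, 8, 16, 20, 14, 11, 9], [2, 0, 1, 4, 3, 17, 13, 12, 18, 23, 10, 22, 7, 8, 21, 9, 19, 11, 14, 5, 20, 6, 16, 15]),
  ([1, 2, 0, 4, 3, 19, 22, 10, 6, 16, 7, 13, 12, 17, 9, 20, 14, 18, 15, 8, 11, 21, 23, 5], [2, 0, 1, 4, 3, 23, 8, 10, 19, 14, 7, 20, 12, 11, 16, 18, 9, 13, 17, 5, 15, 21, 6, 22]),
  ([1, 2, 0, 4, 3, 20, 9, 7, 22, 18, 12, 5, 10, 15, 6, 23, 16, 14, 21, 13, 11, 17, 19, 8], [2, 0, 1, 4, 3, 11, 14, 7, 23, 6, 12, 20, 10, 19, 17, 13, 16, 21, 9, 22, 5, 18, 8, 15]),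
  ([1, 2, 0, 4, 3, 20, 16, 12, 15, 13, 10, 22, 7, 5, 8, 11, 17, 6, 18, 21, 19, 9, 23, 14], [2, 0, 1, 4, 3, 13, 17, 12, 14, 21, 10, 15, 7, 9, 23, 8, 6, 16, 18, 20, 5, 19, 11, 22]),
  ([1, 2, 0, 4, 3, 20, 17, 10, 5, 21, 7, 15, 12, 22, 14, 19, 9, 8, 13, 18, 23, 16, 11, 6], [2, 0, 1, 4, 3, 8, 23, 10, 17, 16, 7, 22, 12, 18, 14, 11, 21, 6, 19, 15, 5, 9, 13, 20]),
  ([1, 2, 0, 4, 3, 21, 14, 10, 23, 20, 7, 8, 12, 9, 17, 16, 22, 15, 18, 13, 5, 19, 6, 11], [2, 0, 1, 4, 3, 20, 22, 10, 11, 13, 7, 23, 12, 19, 6, 17, 15, 14, 18, 21, 9, 5, 16, 8]),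
  ([1, 2, 0, 4, 3, 21, 19, 12, 8, 18, 10, 9, 7, 23, 15, 6, 14, 11, 13, 20, 16, 22, 5, 17], [2, 0, 1, 4, 3, 22, 15, 12, 8, 11, 10, 17, 7, 18, 16, 14, 20, 23, 9, 6, 19, 5, 21, 13]),
  ([1, 2, 0, 4, 3, 21, 22, 7, 9, 13, 12, 23, 10, 8, 11, 5, 19, 17, 20, 18, 6, 14, 16, 15], [2, 0, 1, 4, 3, 15, 20, 7, 13, 8, 12, 14, 10, 9, 21, 23, 22, 17, 19, 16, 18, 5, 6, 11]),
  ([1, 2, 0, 4, 3, 22, 14, 12, 5, 6, 10, 20, 7, 15, 23, 18, 19, 13, 11, 9, 17, 21, 8, 16], [2, 0, 1, 4, 3, 8, 9, 12, 22, 19, 10, 18, 7, 17, 6, 13, 23, 20, 15, 16, 11, 21, 5, 14]),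
  ([1, 2, 0, 4, 3, 22, 19, 10, 15, 9, 7, 5, 12, 20, 16, 17, 21, 23, 6, 11, 8, 14, 18, 13], [2, 0, 1, 4, 3, 11, 18, 10, 20, 9, 7, 19, 12, 23, 21, 8, 14, 15, 22, 6, 13, 16, 5, 17]),
  ([1, 2, 0, 4, 3, 22, 21, 7, 20, 11, 12, 15, 10, 5, 13, 8, 14, 16, 9, 6, 18, 19, 17, 23], [2, 0, 1, 4, 3, 13, 19, 7, 15, 18, 12, 9, 10, 14, 16, 11, 17, 22, 20, 21, 8, 6, 5, 23]),
  ([1, 2, 0, 4, 3, 23, 6, 12, 9, 14, 10, 8, 7, 21, 22, 19, 18, 16, 17, 5, 11, 15, 20, 13], [2, 0, 1, 4, 3, 19, 6, 12, 11, 8, 10, 20, 7, 23, 9, 21, 17, 18, 16, 15, 22, 13, 14, 5]),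
  ([1, 2, 0, 4, 3, 23, 15, 7, 8, 17, 12, 21, 10, 9, 16, 20, 6, 13, 5, 14, 19, 18, 11, 22], [2, 0, 1, 4, 3, 18, 16, 7, 8, 13, 12, 22, 10, 17, 19, 6, 14, 9, 21, 20, 15, 11, 23, 5]),
  ([1, 2, 0, 4, 3, 23, 18, 10, 21, 5, 7, 9, 12, 8, 13, 11, 15, 22, 14, 17, 20, 6, 19, 16], [2, 0, 1, 4, 3, 9, 21, 10, 13, 11, 7, 15, 12, 14, 18, 16, 23, 19, 6, 22, 20, 8, 17, 5])]

/-- The square on indices. -/
def f2 (l : List ℕ) : ℕ → ℕ := fun i => nth l (nth l i)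

/-- The cube on indices. -/
def f3 (l : List ℕ) : ℕ → ℕ := fun i => nth l (nth l (nth l i))

/-- Check of a candidate of order six. -/
def chk6 (l : List ℕ) : Bool :=
  or (not (idF (fun i => f3 l (f3 l i))))
    (or (idF (f2 l)) (or (idF (f3 l))
      (and (and (fixChkF (f2 l) (maskF (f2 l))) (fixChkF (f3 l) (maskF (f3 l))))
        (or (and (Nat.beq (pc (maskF (f2 l))) 6) (Nat.beq (pc (maskF (f3 l))) 8))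
          (and (Nat.beq (pc (maskF (f2 l))) 0) (Nat.beq (pc (maskF (f3 l))) 0))))))

theorem tC5_ok : candChk [1, 2, 3, 4, 5] tC5 = true := by decide +kernel
theorem tC7_ok : candChk [1, 2, 3, 4, 7] tC7 = true := by decide +kernel
theorem tD_ok : candChk [1, 2, 0, 4, 3] tD = true := by decide +kernel
theorem tC5_6 : tC5.all (fun e => chk6 e.1) = true := by decide +kernel
theorem tC7_6 : tC7.all (fun e => chk6 e.1) = true := by decide +kernel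
theorem tD_6 : tD.all (fun e => chk6 e.1) = true := by decide +kernel

/-- End of the argument once the element of order six is an explicit candidate. -/
theorem fin6 (y k : Equiv.Perm GolayPt)
    (h6 : y * (y * y) * (y * (y * y)) = 1) (h2 : y * y ≠ 1) (h3 : y * (y * y) ≠ 1)
    (T : List (List ℕ × List ℕ)) (hT : T.all (fun e => chk6 e.1) = true)
    (hex : ∃ e ∈ T, ∃ hc : chk e.1 e.2 = true, k * y * k⁻¹ = mkPerm e.1 e.2 hc) :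
    ((Finset.univ.filter fun p => (y * y) p = p).card = 6 ∧
        (Finset.univ.filter fun p => (y * (y * y)) p = p).card = 8) ∨
      ((Finset.univ.filter fun p => (y * y) p = p).card = 0 ∧
        (Finset.univ.filter fun p => (y * (y * y)) p = p).card = 0) := by
  obtain ⟨e, he, hc, hge⟩ := hex
  have D1 := desc_mk e.1 e.2 hc
  have D2 : Desc (mkPerm e.1 e.2 hc * mkPerm e.1 e.2 hc) (f2 e.1) :=
    desc_mul (f := nth e.1) (g := nth e.1) D1 D1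
  have D3 : Desc (mkPerm e.1 e.2 hc * (mkPerm e.1 e.2 hc * mkPerm e.1 e.2 hc)) (f3 e.1) :=
    desc_mul (f := nth e.1) (g := f2 e.1) D1 D2
  have D6 : Desc (mkPerm e.1 e.2 hc * (mkPerm e.1 e.2 hc * mkPerm e.1 e.2 hc)
      * (mkPerm e.1 e.2 hc * (mkPerm e.1 e.2 hc * mkPerm e.1 e.2 hc)))
      (fun i => f3 e.1 (f3 e.1 i)) := desc_mul (f := f3 e.1) (g := f3 e.1) D3 D3
  have c2 : k * (y * y) * k⁻¹ = mkPerm e.1 e.2 hc * mkPerm e.1 e.2 hc := by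
    rw [← hge]; group
  have c3 : k * (y * (y * y)) * k⁻¹
      = mkPerm e.1 e.2 hc * (mkPerm e.1 e.2 hc * mkPerm e.1 e.2 hc) := by
    rw [← hge]; group
  have i6 : idF (fun i => f3 e.1 (f3 e.1 i)) = true := by
    apply idF_of_eq_one D6
    rw [← c3]
    have : k * (y * (y * y)) * k⁻¹ * (k * (y * (y * y)) * k⁻¹)
        = k * (y * (y * y) * (y * (y * y))) * k⁻¹ := by group
    rw [this, h6]
    group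
  have i2 : idF (f2 e.1) = false := by
    by_contra hcon
    have hcon' : idF (f2 e.1) = true := by
      revert hcon
      cases idF (f2 e.1) <;> simp
    have h1 := eq_one_of_idF D2 hcon'
    rw [← c2] at h1
    apply h2
    have : y * y = k⁻¹ * (k * (y * y) * k⁻¹) * k := by group
    rw [this, h1]
    group
  have i3 : idF (f3 e.1) = false := by
    by_contra hcon
    have hcon' : idF (f3 e.1) = true := by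
      revert hcon
      cases idF (f3 e.1) <;> simp
    have h1 := eq_one_of_idF D3 hcon'
    rw [← c3] at h1
    apply h3
    have : y * (y * y) = k⁻¹ * (k * (y * (y * y)) * k⁻¹) * k := by group
    rw [this, h1]
    group
  have h1 := List.all_eq_true.1 hT e he
  simp only [chk6, i6, i2, i3, Bool.not_true, Bool.false_or, Bool.and_eq_true, Bool.or_eq_true,
    Nat.beq_eq] at h1
  obtain ⟨⟨m2, m3⟩, hcase⟩ := h1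
  rw [fix_card_conj (y * y) k, fix_card_conj (y * (y * y)) k, c2, c3, fix_card_fn D2 _ m2,
    fix_card_fn D3 _ m3]
  exact hcase

theorem key (y : Equiv.Perm GolayPt) (hy : y ∈ M24)
    (h6 : y * (y * y) * (y * (y * y)) = 1) (h2 : y * y ≠ 1) (h3 : y * (y * y) ≠ 1) :
    ((Finset.univ.filter fun p => (y * y) p = p).card = 6 ∧
        (Finset.univ.filter fun p => (y * (y * y)) p = p).card = 8) ∨
      ((Finset.univ.filter fun p => (y * y) p = p).card = 0 ∧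
        (Finset.univ.filter fun p => (y * (y * y)) p = p).card = 0) := by
  classical
  have a6 : ∀ x, y (y (y (y (y (y x))))) = x := by
    intro x
    have h' := congrArg (fun f : Equiv.Perm GolayPt => f x) h6
    simpa using h'
  by_cases h : ∃ a, y (y a) ≠ a ∧ y (y (y a)) ≠ a
  · obtain ⟨a, n2, n3⟩ := h
    have n1 : y a ≠ a := by
      intro e
      apply n2
      rw [e, e]
    have n4 : y (y (y (y a))) ≠ a := by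
      intro e
      apply n2
      have := a6 a
      rw [e] at this
      exact this
    have n5 : y (y (y (y (y a)))) ≠ a := by
      intro e
      apply n1
      have := a6 a
      rw [e] at this
      exact this
    have hinj : Function.Injective ![a, y a, y (y a), y (y (y a)), y (y (y (y a)))] := by
      apply tuple5_inj
      · exact n1.symm
      · exact n2.symm
      · exact n3.symm
      · exact n4.symm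
      · exact fun e => n1 (y.injective e).symm
      · exact fun e => n2 (y.injective e).symm
      · exact fun e => n3 (y.injective e).symm
      · exact fun e => n1 (y.injective (y.injective e)).symm
      · exact fun e => n2 (y.injective (y.injective e)).symm
      · exact fun e => n1 (y.injective (y.injective (y.injective e))).symm
    obtain ⟨k, hk, hkx, hconj⟩ := normalize y ⟨_, hinj⟩
    have hk0 : k a = pt 0 := hkx 0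
    have hk1 : k (y a) = pt 1 := hkx 1
    have hk2 : k (y (y a)) = pt 2 := hkx 2
    have hk3 : k (y (y (y a))) = pt 3 := hkx 3
    have hk4 : k (y (y (y (y a)))) = pt 4 := hkx 4
    have e0 : (k * y * k⁻¹) (pt 0) = pt 1 := (hconj 0).trans hk1
    have e1 : (k * y * k⁻¹) (pt 1) = pt 2 := (hconj 1).trans hk2
    have e2 : (k * y * k⁻¹) (pt 2) = pt 3 := (hconj 2).trans hk3
    have e3 : (k * y * k⁻¹) (pt 3) = pt 4 := (hconj 3).trans hk4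
    have e4 : (k * y * k⁻¹) (pt 4) = k (y (y (y (y (y a))))) := hconj 4
    have hq : ∀ i < 5, (k * y * k⁻¹) (pt 4) ≠ pt i := by
      intro i hi e
      rw [e4] at e
      interval_cases i
      · rw [← hk0] at e
        exact n5 (k.injective e)
      · rw [← hk1] at e
        exact n4 (y.injective (k.injective e))
      · rw [← hk2] at e
        exact n3 (y.injective (y.injective (k.injective e)))
      · rw [← hk3] at e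
        exact n2 (y.injective (y.injective (y.injective (k.injective e))))
      · rw [← hk4] at e
        exact n1 (y.injective (y.injective (y.injective (y.injective (k.injective e)))))
    obtain ⟨κ, hκ, hκ03, hκ4⟩ := norm5 (k * y * k⁻¹) [1, 2, 3, 4] (by
      intro i hi
      interval_cases i
      · exact ⟨by decide, e0⟩
      · exact ⟨by decide, e1⟩
      · exact ⟨by decide, e2⟩
      · exact ⟨by decide, e3⟩) hq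
    have hkk : κ * (k * y * k⁻¹) * κ⁻¹ = (κ * k) * y * (κ * k)⁻¹ := by
      rw [mul_inv_rev]
      simp only [mul_assoc]
    rw [hkk] at hκ03 hκ4
    have hκk : κ * k ∈ M24 := Subgroup.mul_mem _ hκ hk
    rcases hκ4 with h5 | h7
    · apply fin6 y (κ * k) h6 h2 h3 tC5 tC5_6
      apply cands _ _ tC5_ok _ (conj_mem hy hκk)
      intro i hi
      interval_cases i
      · exact hκ03 0 (by norm_num)
      · exact hκ03 1 (by norm_num)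
      · exact hκ03 2 (by norm_num)
      · exact hκ03 3 (by norm_num)
      · exact h5
    · apply fin6 y (κ * k) h6 h2 h3 tC7 tC7_6
      apply cands _ _ tC7_ok _ (conj_mem hy hκk)
      intro i hi
      interval_cases i
      · exact hκ03 0 (by norm_num)
      · exact hκ03 1 (by norm_num)
      · exact hκ03 2 (by norm_num)
      · exact hκ03 3 (by norm_num)
      · exact h7
  · push Not at h
    obtain ⟨a, ha2⟩ : ∃ a, y (y a) ≠ a := by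
      by_contra hcon
      push Not at hcon
      exact h2 (Equiv.ext hcon)
    have ha3 : y (y (y a)) = a := h a ha2
    have ha1 : y a ≠ a := by
      intro e
      apply ha2
      rw [e, e]
    have ha12 : y (y a) ≠ y a := fun e => ha1 (y.injective e)
    obtain ⟨b, hb3⟩ : ∃ b, y (y (y b)) ≠ b := by
      by_contra hcon
      push Not at hcon
      exact h3 (Equiv.ext hcon)
    have hb2 : y (y b) = b := by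
      by_contra hcon
      exact hb3 (h b hcon)
    have hb1 : y b ≠ b := by
      intro e
      apply hb3
      rw [e, e, e]
    have hba : b ≠ a := by
      intro e
      rw [e] at hb3
      exact hb3 ha3
    have hba1 : b ≠ y a := by
      intro e
      rw [e] at hb3
      apply hb3
      rw [ha3]
    have hba2 : b ≠ y (y a) := by
      intro e
      rw [e] at hb3
      apply hb3
      rw [ha3]
    have hinj : Function.Injective ![a, y a, y (y a), b, y b] := by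
      apply tuple5_inj
      · exact ha1.symm
      · exact ha2.symm
      · exact hba.symm
      · intro e
        apply hba1
        rw [← hb2, ← e]
      · exact ha12.symm
      · exact hba1.symm
      · exact fun e => hba (y.injective e).symm
      · exact hba2.symm
      · exact fun e => hba1 (y.injective e).symm
      · exact hb1.symm
    obtain ⟨k, hk, hkx, hconj⟩ := normalize y ⟨_, hinj⟩
    have hk0 : k a = pt 0 := hkx 0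
    have hk1 : k (y a) = pt 1 := hkx 1
    have hk2 : k (y (y a)) = pt 2 := hkx 2
    have hk3 : k b = pt 3 := hkx 3
    have hk4 : k (y b) = pt 4 := hkx 4
    apply fin6 y k h6 h2 h3 tD tD_6
    apply cands _ _ tD_ok _ (conj_mem hy hk)
    intro i hi
    interval_cases i
    · exact (hconj 0).trans hk1
    · exact (hconj 1).trans hk2
    · exact (hconj 2).trans (by show k (y (y (y a))) = _; rw [ha3]; exact hk0)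
    · exact (hconj 3).trans hk4
    · exact (hconj 4).trans (by show k (y (y b)) = _; rw [hb2]; exact hk3)

/-- If an element of order 3 and an involution of the group of the length-24 code commute, then either the element of order 3 has exactly 6 fixed points and the involution exactly 8, or both are fixed-point-free. -/
theorem result (x s : Equiv.Perm Cfsg.GolayPt) (hx : x ∈ Cfsg.M24) (hs : s ∈ Cfsg.M24) (h₃ : orderOf x = 3) (h₂ : orderOf s = 2) (hc : Commute x s) : ((Finset.univ.filter fun p => x p = p).card = 6 ∧ (Finset.univ.filter fun p => s p = p).card = 8) ∨ ((Finset.univ.filter fun p => x p = p).card = 0 ∧ (Finset.univ.filter fun p => s p = p).card = 0) := by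
  have hxx := apply3 h₃
  have hss := apply2 h₂
  have hx3 : x * (x * x) = 1 := by
    have h := pow_orderOf_eq_one x
    rwa [h₃, pow_three] at h
  have hs2 : s * s = 1 := by
    have h := pow_orderOf_eq_one s
    rwa [h₂, pow_two] at h
  have hc' : s * x = x * s := hc.eq.symm
  have y2 : (x * s) * (x * s) = x * x := by
    calc (x * s) * (x * s) = x * (s * x) * s := by group
      _ = x * (x * s) * s := by rw [hc']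
      _ = x * x * (s * s) := by group
      _ = x * x := by rw [hs2, mul_one]
  have y3 : (x * s) * ((x * s) * (x * s)) = s := by
    rw [y2]
    calc x * s * (x * x) = x * (s * x) * x := by group
      _ = x * (x * s) * x := by rw [hc']
      _ = x * x * (s * x) := by group
      _ = x * x * (x * s) := by rw [hc']
      _ = x * (x * x) * s := by group
      _ = s := by rw [hx3, one_mul]
  have hx1 : x ≠ 1 := by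
    intro h
    rw [h, orderOf_one] at h₃
    exact absurd h₃ (by norm_num)
  have hs1 : s ≠ 1 := by
    intro h
    rw [h, orderOf_one] at h₂
    exact absurd h₂ (by norm_num)
  have hxx1 : x * x ≠ 1 := by
    intro h
    apply hx1
    rw [h, mul_one] at hx3
    exact hx3
  have hk := key (x * s) (Subgroup.mul_mem _ hx hs) (by rw [y3, hs2]) (by rw [y2]; exact hxx1)
    (by rw [y3]; exact hs1)
  rw [y3, y2] at hk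
  have hfx : (Finset.univ.filter fun p => x p = p) = (Finset.univ.filter fun p => (x * x) p = p) := by
    ext p
    rw [Finset.mem_filter, Finset.mem_filter]
    simp only [Finset.mem_univ, true_and]
    show x p = p ↔ x (x p) = p
    constructor
    · intro h
      rw [h, h]
    · intro h
      have := hxx p
      rw [h] at this
      exact this
  rw [hfx]
  exact hk
end Cfsg.Agent.S5608
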