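import Cfsg.Statements.S5609
import Cfsg.Agent.Lib.Helper12.OctadOrb4
import Cfsg.Agent.Lib.Helper28.M24Count

set_option autoImplicit false
open scoped Pointwise
open Cfsg

namespace Cfsg.Agent.S5609

open Cfsg Cfsg.Agent.Lib.Helper4 Cfsg.Agent.Lib.Helper4.Golay Cfsg.Agent.Lib.Helper12
  Cfsg.Agent.Lib.Helper28
open Pointwise

theorem supp_land (a b : ℕ) :
    support₂ (word (a &&& b)) = support₂ (word a) ∩ support₂ (word b) := by
  ext p
  rw [Finset.mem_inter, mem_support_word, mem_support_word, mem_support_word, Nat.testBit_land,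
    Bool.and_eq_true]

theorem data_ok : (and (and (and (wtB 8 5279) (wtB 8 10558)) (and (wtB 8 8077824) (wtB 8 31554)))
    (and (and (and (wtB 8 1009728) (wtB 8 5275709))
      (and (Nat.beq (pc (Nat.land 5279 10558)) 4) (Nat.beq (Nat.land 5279 8077824) 0)))
      (and (and (Nat.beq (Nat.land 8077824 10558) 0) (Nat.beq (pc (Nat.land 5279 31554)) 2))
        (and (Nat.beq (Nat.land 5279 1009728) 0)
          (and (Nat.beq (Nat.land 1009728 5275709) 0) (Nat.beq (Nat.land 5275709 31554) 0))))))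
    = true := by decide +kernel

theorem disj_smul (g : Equiv.Perm GolayPt) {x y : Finset GolayPt} (h : Disjoint x y) :
    Disjoint (g • x) (g • y) := by
  rw [Finset.disjoint_iff_inter_eq_empty] at h ⊢
  rw [← Finset.smul_finset_inter, h, Finset.smul_finset_empty]

theorem transport (o o' : Finset GolayPt) (ho : o ∈ octads) (ho' : o' ∈ octads) (m m' : ℕ)
    (hm : support₂ (word m) ∈ octads) (hm' : support₂ (word m') ∈ octads)
    (h : (o ∩ o').card = (support₂ (word m) ∩ support₂ (word m')).card) :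
    ∃ g ∈ M24, g • support₂ (word m) = o ∧ g • support₂ (word m') = o' := by
  obtain ⟨g, hg, e⟩ := octad_trans (support₂ (word m)) o hm ho
  have hp : g⁻¹ • o' ∈ octads := smul_mem_weight (Subgroup.inv_mem _ hg) ho'
  have hc : (support₂ (word m) ∩ support₂ (word m')).card
      = (support₂ (word m) ∩ g⁻¹ • o').card := by
    rw [← h, ← e]
    have e3 : support₂ (word m) ∩ g⁻¹ • o' = g⁻¹ • (g • support₂ (word m) ∩ o') := by
      rw [Finset.smul_finset_inter, inv_smul_smul]
    rw [e3, Finset.card_smul_finset]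
  obtain ⟨k, hk, e1, e2⟩ := octad_orbits (support₂ (word m)) (support₂ (word m')) (g⁻¹ • o')
    hm hm' hp hc
  refine ⟨g * k, Subgroup.mul_mem _ hg hk, ?_, ?_⟩
  · rw [mul_smul, e1, e]
  · rw [mul_smul, e2, smul_inv_smul]

theorem inter_card (a b : ℕ) : (support₂ (word a) ∩ support₂ (word b)).card = pc (a &&& b) := by
  rw [← supp_land, supp_card]

theorem common4 (o o' : Finset GolayPt) (ho : o ∈ octads) (ho' : o' ∈ octads)
    (h4 : (o ∩ o').card = 4) : ∃ a ∈ octads, Disjoint o a ∧ Disjoint a o' := by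
  have hd := data_ok
  simp only [Bool.and_eq_true, Nat.beq_eq] at hd
  obtain ⟨⟨⟨w1, w2⟩, w3, w4⟩, ⟨⟨w5, w6⟩, c1, c2⟩, ⟨c3, c4⟩, c5, c6, c7⟩ := hd
  obtain ⟨g, hg, e1, e2⟩ := transport o o' ho ho' 5279 10558 (wtB_spec w1).1 (wtB_spec w2).1
    (by rw [h4, inter_card]; exact c1.symm)
  refine ⟨g • support₂ (word 8077824), smul_mem_weight hg (wtB_spec w3).1, ?_, ?_⟩
  · rw [← e1]
    exact disj_smul g (supp_disjoint c2)
  · rw [← e2]
    exact disj_smul g (supp_disjoint c3)

theorem path2 (o o' : Finset GolayPt) (ho : o ∈ octads) (ho' : o' ∈ octads)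
    (h2 : (o ∩ o').card = 2) :
    ∃ a ∈ octads, ∃ b ∈ octads, Disjoint o a ∧ Disjoint a b ∧ Disjoint b o' := by
  have hd := data_ok
  simp only [Bool.and_eq_true, Nat.beq_eq] at hd
  obtain ⟨⟨⟨w1, w2⟩, w3, w4⟩, ⟨⟨w5, w6⟩, c1, c2⟩, ⟨c3, c4⟩, c5, c6, c7⟩ := hd
  obtain ⟨g, hg, e1, e2⟩ := transport o o' ho ho' 5279 31554 (wtB_spec w1).1 (wtB_spec w4).1
    (by rw [h2, inter_card]; exact c4.symm)
  refine ⟨g • support₂ (word 1009728), smul_mem_weight hg (wtB_spec w5).1,
    g • support₂ (word 5275709), smul_mem_weight hg (wtB_spec w6).1, ?_, ?_, ?_⟩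
  · rw [← e1]
    exact disj_smul g (supp_disjoint c5)
  · exact disj_smul g (supp_disjoint c6)
  · rw [← e2]
    exact disj_smul g (supp_disjoint c7)

theorem nocommon2 (o o' a : Finset GolayPt) (ho : o ∈ octads) (ho' : o' ∈ octads)
    (ha : a ∈ octads) (h2 : (o ∩ o').card = 2) (h1 : Disjoint o a) (h3 : Disjoint a o') :
    False := by
  have hB := Cfsg.Agent.S0363.result
  have hα := card_pts
  have hc := Cfsg.Agent.S1557.compl_union_octad o a ho ha h1
  have e1 : o' ∩ (o ∪ a)ᶜ = o' \ (o ∪ a) := by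
    ext p
    simp only [Finset.mem_inter, Finset.mem_compl, Finset.mem_sdiff]
  have e2 : o' ∩ (o ∪ a) = o ∩ o' := by
    ext p
    simp only [Finset.mem_inter, Finset.mem_union]
    constructor
    · rintro ⟨hp, h | h⟩
      · exact ⟨h, hp⟩
      · exact absurd hp (Finset.disjoint_left.1 h3 h)
    · rintro ⟨h, hp⟩
      exact ⟨hp, Or.inl h⟩
  have h6 : (o' ∩ (o ∪ a)ᶜ).card = 6 := by
    have := Finset.card_sdiff_add_card_inter o' (o ∪ a)
    rw [e2, h2, ho'.2] at this
    rw [e1]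
    omega
  by_cases hne : o' = (o ∪ a)ᶜ
  · rw [← hne, Finset.inter_self, ho'.2] at h6
    omega
  · have := Cfsg.Agent.S0352.result hα hB ho' hc hne
    omega

theorem adj_iff (x y : ↥octads) :
    (blockGraph octads).Adj x y ↔ x ≠ y ∧ Disjoint (x : Finset GolayPt) (y : Finset GolayPt) := by
  unfold blockGraph
  rw [SimpleGraph.fromRel_adj]
  constructor
  · rintro ⟨h1, h | h⟩
    · exact ⟨h1, h⟩
    · exact ⟨h1, h.symm⟩
  · rintro ⟨h1, h⟩
    exact ⟨h1, Or.inl h⟩

theorem adj_of_disj {x y : ↥octads} (h : Disjoint (x : Finset GolayPt) (y : Finset GolayPt)) :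
    (blockGraph octads).Adj x y := by
  rw [adj_iff]
  refine ⟨fun e => ?_, h⟩
  exact Cfsg.Agent.S1557.octad_ne_of_disjoint x.2 h (by rw [e])

theorem dist_cases (x y : ↥octads) (hne : x ≠ y) :
    (((x : Finset GolayPt) ∩ y).card = 0 → (blockGraph octads).dist x y = 1) ∧
    (((x : Finset GolayPt) ∩ y).card = 4 → (blockGraph octads).dist x y = 2) ∧
    (((x : Finset GolayPt) ∩ y).card = 2 → (blockGraph octads).dist x y = 3) := by
  have hnadj : ∀ n, 0 < n → ((x : Finset GolayPt) ∩ y).card = n →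
      ¬ (blockGraph octads).Adj x y := by
    intro n hn hc hadj
    have hd := ((adj_iff x y).1 hadj).2
    rw [Finset.disjoint_iff_inter_eq_empty] at hd
    rw [hd, Finset.card_empty] at hc
    omega
  refine ⟨?_, ?_, ?_⟩
  · intro h0
    rw [SimpleGraph.dist_eq_one_iff_adj]
    apply adj_of_disj
    rw [Finset.disjoint_iff_inter_eq_empty]
    exact Finset.card_eq_zero.1 h0
  · intro h4
    obtain ⟨a, ha, d1, d2⟩ := common4 x y x.2 y.2 h4
    have a1 : (blockGraph octads).Adj x ⟨a, ha⟩ := adj_of_disj d1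
    have a2 : (blockGraph octads).Adj ⟨a, ha⟩ y := adj_of_disj d2
    let w : (blockGraph octads).Walk x y := SimpleGraph.Walk.cons a1 (SimpleGraph.Walk.cons a2 SimpleGraph.Walk.nil)
    have hle : (blockGraph octads).dist x y ≤ 2 := SimpleGraph.dist_le w
    have hr : (blockGraph octads).Reachable x y := ⟨w⟩
    have h1 := hr.one_lt_dist_of_ne_of_not_adj hne (hnadj 4 (by norm_num) h4)
    omega
  · intro h2
    obtain ⟨a, ha, b, hb, d1, d2, d3⟩ := path2 x y x.2 y.2 h2
    have a1 : (blockGraph octads).Adj x ⟨a, ha⟩ := adj_of_disj d1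
    have a2 : (blockGraph octads).Adj ⟨a, ha⟩ ⟨b, hb⟩ := adj_of_disj d2
    have a3 : (blockGraph octads).Adj ⟨b, hb⟩ y := adj_of_disj d3
    let w : (blockGraph octads).Walk x y := SimpleGraph.Walk.cons a1
      (SimpleGraph.Walk.cons a2 (SimpleGraph.Walk.cons a3 SimpleGraph.Walk.nil))
    have hle : (blockGraph octads).dist x y ≤ 3 := SimpleGraph.dist_le w
    have hr : (blockGraph octads).Reachable x y := ⟨w⟩
    have h1 := hr.one_lt_dist_of_ne_of_not_adj hne (hnadj 2 (by norm_num) h2)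
    have hn2 : (blockGraph octads).dist x y ≠ 2 := by
      intro e
      obtain ⟨p, hp⟩ := hr.exists_walk_length_eq_dist
      rw [e] at hp
      obtain ⟨c, hc1, p', rfl⟩ := SimpleGraph.Walk.exists_eq_cons_of_ne hne p
      rw [SimpleGraph.Walk.length_cons] at hp
      have hc2 : (blockGraph octads).Adj c y :=
        SimpleGraph.Walk.adj_of_length_eq_one (p := p') (by omega)
      exact nocommon2 x y c x.2 y.2 c.2 h2 ((adj_iff x c).1 hc1).2 ((adj_iff c y).1 hc2).2
    omega

/-- In the graph on the 759 octads of the length-24 code in which two octads are adjacent when they are disjoint, the graph is connected (of diameter 3) and two distinct octads are at distance 1, 2 or 3 exactly when they meet in 0, 4 or 2 points respectively. -/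
theorem result (o o' : Finset Cfsg.GolayPt) (ho : o ∈ Cfsg.octads) (ho' : o' ∈ Cfsg.octads) (hne : o ≠ o') : (Cfsg.blockGraph Cfsg.octads).Connected ∧ ((Cfsg.blockGraph Cfsg.octads).dist ⟨o, ho⟩ ⟨o', ho'⟩ = 1 ↔ (o ∩ o').card = 0) ∧ ((Cfsg.blockGraph Cfsg.octads).dist ⟨o, ho⟩ ⟨o', ho'⟩ = 2 ↔ (o ∩ o').card = 4) ∧ ((Cfsg.blockGraph Cfsg.octads).dist ⟨o, ho⟩ ⟨o', ho'⟩ = 3 ↔ (o ∩ o').card = 2) := by
  have hB := Cfsg.Agent.S0363.result
  have hα := card_pts
  have hreach : ∀ x y : ↥octads, (blockGraph octads).Reachable x y := by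
    intro x y
    by_cases hxy : x = y
    · rw [hxy]
    · have hd := dist_cases x y hxy
      have hne' : (x : Finset GolayPt) ≠ y := fun e => hxy (Subtype.ext e)
      have hdist : (blockGraph octads).dist x y ≠ 0 := by
        rcases Cfsg.Agent.S0352.result hα hB x.2 y.2 hne' with h | h | h
        · rw [hd.1 h]; norm_num
        · rw [hd.2.2 h]; norm_num
        · rw [hd.2.1 h]; norm_num
      exact SimpleGraph.Reachable.of_dist_ne_zero hdist
  have hne' : (⟨o, ho⟩ : ↥octads) ≠ ⟨o', ho'⟩ := fun e => hne (congrArg Subtype.val e)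
  have hd := dist_cases ⟨o, ho⟩ ⟨o', ho'⟩ hne'
  refine ⟨(SimpleGraph.connected_iff _).2 ⟨hreach, ⟨⟨o, ho⟩⟩⟩, ?_⟩
  rcases Cfsg.Agent.S0352.result hα hB ho ho' hne with h | h | h
  · rw [hd.1 h, h]
    decide
  · rw [hd.2.2 h, h]
    decide
  · rw [hd.2.1 h, h]
    decide
end Cfsg.Agent.S5609
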