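import Cfsg.Statements.S5613
import Cfsg.Agent.Lib.Helper12.OctadOrb4
import Cfsg.Agent.Lib.Helper12.OctadStab
import Cfsg.Agent.Lib.Helper4.GolayDod2

set_option autoImplicit false
open scoped Pointwise
open Cfsg

namespace Cfsg.Agent.S5613

open Cfsg Cfsg.Agent.Lib.Helper4 Cfsg.Agent.Lib.Helper4.Golay Cfsg.Agent.Lib.Helper12
open Pointwise

theorem key (o o' : Finset GolayPt) (ho : o ∈ octads) (ho' : o' ∈ octads) (j : ℕ)
    (hj : (o ∩ o').card = j) :
    Steiner.cnt octads ∅ o j *
      Nat.card ↥(MulAction.stabilizer M24 o ⊓ MulAction.stabilizer M24 o') = 322560 := by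
  classical
  have h1 := card_orbit_mul_stab (G := ↥(MulAction.stabilizer M24 o)) o'
  rw [card_stab_oct ho] at h1
  have horb : MulAction.orbit ↥(MulAction.stabilizer M24 o) o'
      = {d | d ∈ octads ∧ (d ∩ o).card = j} := by
    ext d
    constructor
    · rintro ⟨g, rfl⟩
      have e1 : ((g : ↥M24) : Equiv.Perm GolayPt) • o = o := g.2
      refine ⟨smul_mem_weight g.1.2 ho', ?_⟩
      show (((g : ↥M24) : Equiv.Perm GolayPt) • o' ∩ o).card = j
      have e2 : ((g : ↥M24) : Equiv.Perm GolayPt) • o' ∩ o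
          = ((g : ↥M24) : Equiv.Perm GolayPt) • (o' ∩ o) := by
        rw [Finset.smul_finset_inter, e1]
      rw [e2, Finset.card_smul_finset, Finset.inter_comm]
      exact hj
    · rintro ⟨hd, hc⟩
      obtain ⟨g, hg, e1, e2⟩ := octad_orbits o o' d ho ho' hd
        (by rw [hj, Finset.inter_comm, hc])
      exact ⟨⟨⟨g, hg⟩, e1⟩, e2⟩
  rw [horb] at h1
  have hc : {d | d ∈ octads ∧ (d ∩ o).card = j}.ncard = Steiner.cnt octads ∅ o j := by
    rw [Steiner.ncard_setOf, Steiner.cnt]
    congr 1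
    ext d
    simp
  rw [hc, Nat.card_congr (stabEquivG (MulAction.stabilizer M24 o) o')] at h1
  exact h1.symm

/-- In the group of the length-24 code, the joint stabiliser of two octads has order 10752, 1152 or 720 according as the octads meet in 0, 4 or 2 points. -/
theorem result (o o' : Finset Cfsg.GolayPt) (ho : o ∈ Cfsg.octads) (ho' : o' ∈ Cfsg.octads) : ((o ∩ o').card = 0 → Nat.card ↥(MulAction.stabilizer Cfsg.M24 o ⊓ MulAction.stabilizer Cfsg.M24 o') = 10752) ∧ ((o ∩ o').card = 4 → Nat.card ↥(MulAction.stabilizer Cfsg.M24 o ⊓ MulAction.stabilizer Cfsg.M24 o') = 1152) ∧ ((o ∩ o').card = 2 → Nat.card ↥(MulAction.stabilizer Cfsg.M24 o ⊓ MulAction.stabilizer Cfsg.M24 o') = 720) := by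
  have hB := Cfsg.Agent.S0363.result
  have hα := card_pts
  obtain ⟨c0, -, c2, -, c4⟩ := Steiner.s5824 hα hB ho
  refine ⟨fun h => ?_, fun h => ?_, fun h => ?_⟩
  · have h1 := key o o' ho ho' 0 h
    rw [c0] at h1
    omega
  · have h1 := key o o' ho ho' 4 h
    rw [c4] at h1
    omega
  · have h1 := key o o' ho ho' 2 h
    rw [c2] at h1
    omega
end Cfsg.Agent.S5613
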