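import Cfsg.Statements.S5614
import Cfsg.Agent.Lib.Helper28.M24Sym
import Cfsg.Agent.S5613

set_option autoImplicit false
open scoped Pointwise
open Cfsg

namespace Cfsg.Agent.S5614

open Cfsg Cfsg.Agent.Lib.Helper4 Cfsg.Agent.Lib.Helper4.Golay Cfsg.Agent.Lib.Helper12
  Cfsg.Agent.Lib.Helper28
open Pointwise

def fixT : List (List ℕ × List ℕ) := [
  ([0, 1, 2, 3, 4, 5, 6, 7, 8, 9, 10, 11, 12, 13, 14, 15, 16, 17, 18, 19, 20, 21, 22, 23], [0, 1, 2, 3, 4, 5, 6, 7, 8, 9, 10, 11, 12, 13, 14, 15, 16, 17, 18, 19, 20, 21, 22, 23]),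
  ([0, 1, 2, 3, 4, 5, 16, 10, 13, 19, 12, 8, 7, 11, 23, 20, 21, 14, 9, 18, 22, 6, 15, 17], [0, 1, 2, 3, 4, 5, 21, 12, 11, 18, 7, 13, 10, 8, 17, 22, 6, 23, 19, 9, 15, 16, 20, 14]),
  ([0, 1, 2, 3, 4, 5, 21, 12, 11, 18, 7, 13, 10, 8, 17, 22, 6, 23, 19, 9, 15, 16, 20, 14], [0, 1, 2, 3, 4, 5, 16, 10, 13, 19, 12, 8, 7, 11, 23, 20, 21, 14, 9, 18, 22, 6, 15, 17]),
  ([0, 1, 2, 3, 4, 6, 5, 7, 18, 14, 10, 23, 12, 15, 9, 13, 21, 22, 8, 20, 19, 16, 17, 11], [0, 1, 2, 3, 4, 6, 5, 7, 18, 14, 10, 23, 12, 15, 9, 13, 21, 22, 8, 20, 19, 16, 17, 11]),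
  ([0, 1, 2, 3, 4, 6, 16, 12, 23, 8, 7, 15, 10, 18, 22, 17, 5, 11, 20, 14, 13, 21, 19, 9], [0, 1, 2, 3, 4, 16, 5, 10, 9, 23, 12, 17, 7, 20, 19, 11, 6, 15, 13, 22, 18, 21, 14, 8]),
  ([0, 1, 2, 3, 4, 6, 21, 10, 15, 20, 12, 18, 7, 23, 11, 19, 16, 9, 14, 8, 17, 5, 13, 22], [0, 1, 2, 3, 4, 21, 5, 12, 19, 17, 7, 14, 10, 22, 18, 8, 16, 20, 11, 15, 9, 6, 23, 13]),
  ([0, 1, 2, 3, 4, 8, 17, 10, 11, 14, 12, 5, 7, 13, 15, 9, 22, 19, 20, 6, 21, 18, 23, 16], [0, 1, 2, 3, 4, 11, 19, 12, 5, 15, 7, 8, 10, 13, 9, 14, 23, 6, 21, 17, 18, 20, 16, 22]),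
  ([0, 1, 2, 3, 4, 8, 18, 7, 5, 20, 10, 13, 12, 11, 19, 23, 17, 16, 6, 14, 9, 22, 21, 15], [0, 1, 2, 3, 4, 8, 18, 7, 5, 20, 10, 13, 12, 11, 19, 23, 17, 16, 6, 14, 9, 22, 21, 15]),
  ([0, 1, 2, 3, 4, 8, 22, 12, 13, 6, 7, 11, 10, 5, 16, 21, 18, 15, 14, 20, 23, 17, 9, 19], [0, 1, 2, 3, 4, 13, 9, 10, 5, 22, 12, 11, 7, 8, 18, 17, 14, 21, 16, 23, 19, 15, 6, 20]),
  ([0, 1, 2, 3, 4, 9, 13, 10, 16, 18, 12, 20, 7, 17, 22, 8, 15, 6, 5, 19, 23, 14, 21, 11], [0, 1, 2, 3, 4, 18, 17, 12, 15, 5, 7, 23, 10, 6, 21, 16, 8, 13, 9, 19, 11, 22, 14, 20]),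
  ([0, 1, 2, 3, 4, 9, 14, 7, 20, 5, 10, 17, 12, 16, 6, 21, 13, 11, 19, 18, 8, 15, 23, 22], [0, 1, 2, 3, 4, 9, 14, 7, 20, 5, 10, 17, 12, 16, 6, 21, 13, 11, 19, 18, 8, 15, 23, 22]),
  ([0, 1, 2, 3, 4, 9, 15, 12, 17, 19, 7, 16, 10, 20, 11, 23, 14, 22, 18, 5, 21, 13, 8, 6], [0, 1, 2, 3, 4, 19, 23, 10, 22, 5, 12, 14, 7, 21, 16, 6, 11, 8, 18, 9, 13, 20, 17, 15]),
  ([0, 1, 2, 3, 4, 11, 19, 12, 5, 15, 7, 8, 10, 13, 9, 14, 23, 6, 21, 17, 18, 20, 16, 22], [0, 1, 2, 3, 4, 8, 17, 10, 11, 14, 12, 5, 7, 13, 15, 9, 22, 19, 20, 6, 21, 18, 23, 16]),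
  ([0, 1, 2, 3, 4, 11, 20, 10, 8, 21, 12, 13, 7, 5, 6, 16, 19, 22, 17, 15, 14, 23, 18, 9], [0, 1, 2, 3, 4, 13, 14, 12, 8, 23, 7, 5, 10, 11, 20, 19, 15, 18, 22, 16, 6, 9, 17, 21]),
  ([0, 1, 2, 3, 4, 11, 23, 7, 13, 17, 10, 5, 12, 8, 22, 18, 20, 9, 15, 21, 16, 19, 14, 6], [0, 1, 2, 3, 4, 11, 23, 7, 13, 17, 10, 5, 12, 8, 22, 18, 20, 9, 15, 21, 16, 19, 14, 6]),
  ([0, 1, 2, 3, 4, 13, 9, 10, 5, 22, 12, 11, 7, 8, 18, 17, 14, 21, 16, 23, 19, 15, 6, 20], [0, 1, 2, 3, 4, 8, 22, 12, 13, 6, 7, 11, 10, 5, 16, 21, 18, 15, 14, 20, 23, 17, 9, 19]),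
  ([0, 1, 2, 3, 4, 13, 14, 12, 8, 23, 7, 5, 10, 11, 20, 19, 15, 18, 22, 16, 6, 9, 17, 21], [0, 1, 2, 3, 4, 11, 20, 10, 8, 21, 12, 13, 7, 5, 6, 16, 19, 22, 17, 15, 14, 23, 18, 9]),
  ([0, 1, 2, 3, 4, 13, 15, 7, 11, 16, 10, 8, 12, 5, 21, 6, 9, 20, 23, 22, 17, 14, 19, 18], [0, 1, 2, 3, 4, 13, 15, 7, 11, 16, 10, 8, 12, 5, 21, 6, 9, 20, 23, 22, 17, 14, 19, 18]),
  ([0, 1, 2, 3, 4, 14, 9, 7, 19, 6, 10, 22, 12, 21, 5, 16, 15, 23, 20, 8, 18, 13, 11, 17], [0, 1, 2, 3, 4, 14, 9, 7, 19, 6, 10, 22, 12, 21, 5, 16, 15, 23, 20, 8, 18, 13, 11, 17]),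
  ([0, 1, 2, 3, 4, 14, 13, 12, 22, 20, 7, 21, 10, 19, 23, 11, 9, 17, 8, 6, 16, 15, 18, 5], [0, 1, 2, 3, 4, 23, 19, 10, 18, 16, 12, 15, 7, 6, 5, 21, 20, 17, 22, 13, 9, 11, 8, 14]),
  ([0, 1, 2, 3, 4, 14, 15, 10, 21, 8, 12, 19, 7, 22, 17, 18, 13, 5, 6, 20, 11, 9, 16, 23], [0, 1, 2, 3, 4, 17, 18, 12, 9, 21, 7, 20, 10, 16, 5, 6, 22, 14, 15, 11, 19, 8, 13, 23]),
  ([0, 1, 2, 3, 4, 15, 9, 12, 18, 11, 7, 6, 10, 23, 19, 20, 13, 8, 17, 21, 5, 14, 22, 16], [0, 1, 2, 3, 4, 20, 11, 10, 17, 6, 12, 9, 7, 16, 21, 5, 23, 18, 8, 14, 15, 19, 22, 13]),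
  ([0, 1, 2, 3, 4, 15, 13, 7, 23, 21, 10, 18, 12, 6, 16, 5, 14, 19, 11, 17, 22, 9, 20, 8], [0, 1, 2, 3, 4, 15, 13, 7, 23, 21, 10, 18, 12, 6, 16, 5, 14, 19, 11, 17, 22, 9, 20, 8]),
  ([0, 1, 2, 3, 4, 15, 14, 10, 6, 17, 12, 23, 7, 18, 8, 22, 9, 16, 21, 11, 20, 13, 5, 19], [0, 1, 2, 3, 4, 22, 8, 12, 14, 16, 7, 19, 10, 21, 6, 5, 17, 9, 13, 23, 20, 18, 15, 11]),
  ([0, 1, 2, 3, 4, 16, 5, 10, 9, 23, 12, 17, 7, 20, 19, 11, 6, 15, 13, 22, 18, 21, 14, 8], [0, 1, 2, 3, 4, 6, 16, 12, 23, 8, 7, 15, 10, 18, 22, 17, 5, 11, 20, 14, 13, 21, 19, 9]),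
  ([0, 1, 2, 3, 4, 16, 6, 12, 20, 22, 7, 9, 10, 17, 8, 18, 21, 19, 23, 13, 14, 5, 11, 15], [0, 1, 2, 3, 4, 21, 6, 10, 14, 11, 12, 22, 7, 19, 20, 23, 5, 13, 15, 17, 8, 16, 9, 18]),
  ([0, 1, 2, 3, 4, 16, 21, 7, 17, 13, 10, 20, 12, 9, 15, 14, 5, 8, 22, 23, 11, 6, 18, 19], [0, 1, 2, 3, 4, 16, 21, 7, 17, 13, 10, 20, 12, 9, 15, 14, 5, 8, 22, 23, 11, 6, 18, 19]),
  ([0, 1, 2, 3, 4, 17, 8, 10, 20, 15, 12, 16, 7, 9, 14, 13, 18, 23, 11, 21, 6, 22, 19, 5], [0, 1, 2, 3, 4, 23, 20, 12, 6, 13, 7, 18, 10, 15, 14, 9, 11, 5, 16, 22, 8, 19, 21, 17]),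
  ([0, 1, 2, 3, 4, 17, 18, 12, 9, 21, 7, 20, 10, 16, 5, 6, 22, 14, 15, 11, 19, 8, 13, 23], [0, 1, 2, 3, 4, 14, 15, 10, 21, 8, 12, 19, 7, 22, 17, 18, 13, 5, 6, 20, 11, 9, 16, 23]),
  ([0, 1, 2, 3, 4, 17, 22, 7, 16, 11, 10, 9, 12, 20, 23, 19, 8, 5, 21, 15, 13, 18, 6, 14], [0, 1, 2, 3, 4, 17, 22, 7, 16, 11, 10, 9, 12, 20, 23, 19, 8, 5, 21, 15, 13, 18, 6, 14]),
  ([0, 1, 2, 3, 4, 18, 8, 7, 6, 19, 10, 15, 12, 23, 20, 11, 22, 21, 5, 9, 14, 17, 16, 13], [0, 1, 2, 3, 4, 18, 8, 7, 6, 19, 10, 15, 12, 23, 20, 11, 22, 21, 5, 9, 14, 17, 16, 13]),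
  ([0, 1, 2, 3, 4, 18, 17, 12, 15, 5, 7, 23, 10, 6, 21, 16, 8, 13, 9, 19, 11, 22, 14, 20], [0, 1, 2, 3, 4, 9, 13, 10, 16, 18, 12, 20, 7, 17, 22, 8, 15, 6, 5, 19, 23, 14, 21, 11]),
  ([0, 1, 2, 3, 4, 18, 22, 10, 23, 9, 12, 6, 7, 15, 13, 14, 17, 20, 19, 5, 16, 8, 11, 21], [0, 1, 2, 3, 4, 19, 11, 12, 21, 9, 7, 22, 10, 14, 15, 13, 20, 16, 5, 18, 17, 23, 6, 8]),
  ([0, 1, 2, 3, 4, 19, 11, 12, 21, 9, 7, 22, 10, 14, 15, 13, 20, 16, 5, 18, 17, 23, 6, 8], [0, 1, 2, 3, 4, 18, 22, 10, 23, 9, 12, 6, 7, 15, 13, 14, 17, 20, 19, 5, 16, 8, 11, 21]),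
  ([0, 1, 2, 3, 4, 19, 20, 7, 14, 18, 10, 21, 12, 22, 8, 17, 23, 15, 9, 5, 6, 11, 13, 16], [0, 1, 2, 3, 4, 19, 20, 7, 14, 18, 10, 21, 12, 22, 8, 17, 23, 15, 9, 5, 6, 11, 13, 16]),
  ([0, 1, 2, 3, 4, 19, 23, 10, 22, 5, 12, 14, 7, 21, 16, 6, 11, 8, 18, 9, 13, 20, 17, 15], [0, 1, 2, 3, 4, 9, 15, 12, 17, 19, 7, 16, 10, 20, 11, 23, 14, 22, 18, 5, 21, 13, 8, 6]),
  ([0, 1, 2, 3, 4, 20, 11, 10, 17, 6, 12, 9, 7, 16, 21, 5, 23, 18, 8, 14, 15, 19, 22, 13], [0, 1, 2, 3, 4, 15, 9, 12, 18, 11, 7, 6, 10, 23, 19, 20, 13, 8, 17, 21, 5, 14, 22, 16]),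
  ([0, 1, 2, 3, 4, 20, 19, 7, 9, 8, 10, 16, 12, 17, 18, 22, 11, 13, 14, 6, 5, 23, 15, 21], [0, 1, 2, 3, 4, 20, 19, 7, 9, 8, 10, 16, 12, 17, 18, 22, 11, 13, 14, 6, 5, 23, 15, 21]),
  ([0, 1, 2, 3, 4, 20, 23, 12, 16, 14, 7, 17, 10, 9, 13, 15, 19, 21, 6, 8, 22, 11, 5, 18], [0, 1, 2, 3, 4, 22, 18, 10, 19, 13, 12, 21, 7, 14, 9, 15, 8, 11, 23, 16, 5, 17, 20, 6]),
  ([0, 1, 2, 3, 4, 21, 5, 12, 19, 17, 7, 14, 10, 22, 18, 8, 16, 20, 11, 15, 9, 6, 23, 13], [0, 1, 2, 3, 4, 6, 21, 10, 15, 20, 12, 18, 7, 23, 11, 19, 16, 9, 14, 8, 17, 5, 13, 22]),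
  ([0, 1, 2, 3, 4, 21, 6, 10, 14, 11, 12, 22, 7, 19, 20, 23, 5, 13, 15, 17, 8, 16, 9, 18], [0, 1, 2, 3, 4, 16, 6, 12, 20, 22, 7, 9, 10, 17, 8, 18, 21, 19, 23, 13, 14, 5, 11, 15]),
  ([0, 1, 2, 3, 4, 21, 16, 7, 22, 15, 10, 19, 12, 14, 13, 9, 6, 18, 17, 11, 23, 5, 8, 20], [0, 1, 2, 3, 4, 21, 16, 7, 22, 15, 10, 19, 12, 14, 13, 9, 6, 18, 17, 11, 23, 5, 8, 20]),
  ([0, 1, 2, 3, 4, 22, 8, 12, 14, 16, 7, 19, 10, 21, 6, 5, 17, 9, 13, 23, 20, 18, 15, 11], [0, 1, 2, 3, 4, 15, 14, 10, 6, 17, 12, 23, 7, 18, 8, 22, 9, 16, 21, 11, 20, 13, 5, 19]),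
  ([0, 1, 2, 3, 4, 22, 17, 7, 21, 23, 10, 14, 12, 19, 11, 20, 18, 6, 16, 13, 15, 8, 5, 9], [0, 1, 2, 3, 4, 22, 17, 7, 21, 23, 10, 14, 12, 19, 11, 20, 18, 6, 16, 13, 15, 8, 5, 9]),
  ([0, 1, 2, 3, 4, 22, 18, 10, 19, 13, 12, 21, 7, 14, 9, 15, 8, 11, 23, 16, 5, 17, 20, 6], [0, 1, 2, 3, 4, 20, 23, 12, 16, 14, 7, 17, 10, 9, 13, 15, 19, 21, 6, 8, 22, 11, 5, 18]),
  ([0, 1, 2, 3, 4, 23, 11, 7, 15, 22, 10, 6, 12, 18, 17, 8, 19, 14, 13, 16, 21, 20, 9, 5], [0, 1, 2, 3, 4, 23, 11, 7, 15, 22, 10, 6, 12, 18, 17, 8, 19, 14, 13, 16, 21, 20, 9, 5]),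
  ([0, 1, 2, 3, 4, 23, 19, 10, 18, 16, 12, 15, 7, 6, 5, 21, 20, 17, 22, 13, 9, 11, 8, 14], [0, 1, 2, 3, 4, 14, 13, 12, 22, 20, 7, 21, 10, 19, 23, 11, 9, 17, 8, 6, 16, 15, 18, 5]),
  ([0, 1, 2, 3, 4, 23, 20, 12, 6, 13, 7, 18, 10, 15, 14, 9, 11, 5, 16, 22, 8, 19, 21, 17], [0, 1, 2, 3, 4, 17, 8, 10, 20, 15, 12, 16, 7, 9, 14, 13, 18, 23, 11, 21, 6, 22, 19, 5])]

theorem fixT_ok : candChk [0, 1, 2, 3, 4] fixT = true := by decide +kernel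

/-- Check of the candidates: the identity, or the sixth point is moved, or the second octad
is moved. -/
def rigB (e : List ℕ × List ℕ) : Bool :=
  or (decide (e.1 = idL)) (or (!(Nat.beq (nth e.1 7) 7)) (!(Nat.beq (pmL e.1 504864) 504864)))

theorem fixT_rig : fixT.all rigB = true := by decide +kernel

theorem masks_ok : and (wtB 8 5279) (and (wtB 8 504864) (Nat.beq (pc (5279 &&& 504864)) 2))
    = true := by decide +kernel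

theorem pts_ok : ∀ i ∈ [0, 1, 2, 3, 4, 7],
    Nat.testBit 5279 i = true ∧ Nat.testBit 504864 i = false ∧ i < 24 := by decide

theorem std_rigid (g : Equiv.Perm GolayPt) (hg : g ∈ M24) (h5 : ∀ i < 5, g (pt i) = pt i)
    (h7 : g (pt 7) = pt 7) (ho : g • support₂ (word 504864) = support₂ (word 504864)) :
    g = 1 := by
  have hn : ∀ i < 5, nth [0, 1, 2, 3, 4] i = i := by decide
  obtain ⟨e, he, hc, rfl⟩ := cands [0, 1, 2, 3, 4] fixT fixT_ok g hg (by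
    intro i hi
    rw [h5 i hi, hn i hi])
  have hchk := (List.all_eq_true.1 fixT_rig) e he
  simp only [rigB, Bool.or_eq_true, decide_eq_true_eq, Bool.not_eq_true', ] at hchk
  rcases hchk with h1 | h2 | h3
  · obtain ⟨l, l'⟩ := e
    simp only at h1
    subst h1
    exact mkPerm_id _ hc
  · exfalso
    rw [mkPerm_pt _ _ hc 7 (by norm_num)] at h7
    have hlt := ((chk_spec hc).2 7 (by norm_num)).1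
    have h8 := congrArg code h7
    rw [code_pt _ hlt, code_pt 7 (by norm_num)] at h8
    rw [h8, Nat.beq_refl] at h2
    exact Bool.noConfusion h2
  · exfalso
    rw [smul_eq_iff_inv, inv_smul_word] at ho
    have h8 := word_inj (pmL_lt' hc _) (by norm_num) ho
    rw [h8, Nat.beq_refl] at h3
    exact Bool.noConfusion h3

theorem rigid (o o' : Finset GolayPt) (ho : o ∈ octads) (ho' : o' ∈ octads)
    (h₂ : (o ∩ o').card = 2) (g : Equiv.Perm GolayPt) (hg : g ∈ M24) (e2 : g • o' = o')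
    (hfix : ∀ p ∈ o \ o', g p = p) : g = 1 := by
  have hm := masks_ok
  simp only [Bool.and_eq_true, Nat.beq_eq] at hm
  obtain ⟨k, hk, k1, k2⟩ := octad_pair_trans o o' ho ho' 5279 504864 (wtB_spec hm.1).1
    (wtB_spec hm.2.1).1 (by rw [h₂, inter_card', hm.2.2])
  have hpt : ∀ i ∈ [0, 1, 2, 3, 4, 7], g (k (pt i)) = k (pt i) := by
    intro i hi
    obtain ⟨a, b, c⟩ := pts_ok i hi
    apply hfix
    rw [← k1, ← k2, ← Finset.smul_finset_sdiff]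
    apply Finset.smul_mem_smul_finset
    rw [Finset.mem_sdiff, mem_support_word, mem_support_word, code_pt i c, a, b]
    exact ⟨rfl, Bool.false_ne_true⟩
  have h1 : k⁻¹ * g * k = 1 := by
    apply std_rigid _ (Subgroup.mul_mem _ (Subgroup.mul_mem _ (Subgroup.inv_mem _ hk) hg) hk)
    · intro i hi
      have hi' : i ∈ [0, 1, 2, 3, 4, 7] := by
        have : ∀ i < 5, i ∈ [0, 1, 2, 3, 4, 7] := by decide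
        exact this i hi
      rw [Equiv.Perm.mul_apply, Equiv.Perm.mul_apply, hpt i hi']
      simp
    · rw [Equiv.Perm.mul_apply, Equiv.Perm.mul_apply, hpt 7 (by decide)]
      simp
    · rw [mul_smul, mul_smul, k2, e2, ← k2, inv_smul_smul]
  have h2 : g = k * (k⁻¹ * g * k) * k⁻¹ := by group
  rw [h2, h1]
  group

/-- In the group of the length-24 code, the joint stabiliser of two octads meeting in exactly two points is isomorphic to the symmetric group of degree 6. -/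
theorem result (o o' : Finset Cfsg.GolayPt) (ho : o ∈ Cfsg.octads) (ho' : o' ∈ Cfsg.octads) (h₂ : (o ∩ o').card = 2) : Nonempty (↥(MulAction.stabilizer Cfsg.M24 o ⊓ MulAction.stabilizer Cfsg.M24 o') ≃* Equiv.Perm (Fin 6)) := by
  classical
  have hD : (o \ o').card = 6 := by
    have := Finset.card_sdiff_add_card_inter o o'
    rw [h₂, ho.2] at this
    omega
  apply sym6_of_card hD
  · intro g hg
    rw [Subgroup.mem_inf, MulAction.mem_stabilizer_iff, MulAction.mem_stabilizer_iff] at hg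
    rw [MulAction.mem_stabilizer_iff]
    have a : ((g : ↥M24) : Equiv.Perm GolayPt) • o = o := hg.1
    have b : ((g : ↥M24) : Equiv.Perm GolayPt) • o' = o' := hg.2
    show ((g : ↥M24) : Equiv.Perm GolayPt) • (o \ o') = o \ o'
    rw [Finset.smul_finset_sdiff, a, b]
  · intro g hg hfix
    rw [Subgroup.mem_inf, MulAction.mem_stabilizer_iff, MulAction.mem_stabilizer_iff] at hg
    exact Subtype.ext (rigid o o' ho ho' h₂ (g : Equiv.Perm GolayPt) g.2 hg.2 hfix)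
  · exact (Cfsg.Agent.S5613.result o o' ho ho').2.2 h₂
end Cfsg.Agent.S5614
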