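import Cfsg.Statements.S5618
import Cfsg.Agent.Lib.Helper28.M24Sym
import Cfsg.Agent.Lib.Helper12.M24Trans
import Cfsg.Agent.Lib.Helper4.GolayDod2

set_option autoImplicit false
open scoped Pointwise
open Cfsg

namespace Cfsg.Agent.S5618

open Cfsg Cfsg.Agent.Lib.Helper4 Cfsg.Agent.Lib.Helper4.Golay Cfsg.Agent.Lib.Helper12
  Cfsg.Agent.Lib.Helper28
open Pointwise

theorem perm_eq_of_agree {α : Type*} [Fintype α] [DecidableEq α] (σ τ : Equiv.Perm α)
    (S : Finset α) (hS : Fintype.card α ≤ S.card + 1) (h : ∀ z ∈ S, τ z = σ z) : τ = σ := by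
  apply Equiv.ext
  intro z
  by_cases hz : z ∈ S
  · exact h z hz
  · have hw : σ⁻¹ (τ z) ∉ S := by
      intro hw
      have h1 := h _ hw
      have h2 : σ (σ⁻¹ (τ z)) = τ z := by simp
      rw [h2] at h1
      have h3 := τ.injective h1
      rw [h3] at hw
      exact hz hw
    have hc : (Sᶜ).card ≤ 1 := by
      rw [Finset.card_compl]
      omega
    have h4 := Finset.card_le_one.1 hc _ (Finset.mem_compl.2 hw) _ (Finset.mem_compl.2 hz)
    have h5 : σ (σ⁻¹ (τ z)) = τ z := by simp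
    rw [h4] at h5
    exact h5.symm

theorem emb5_of_card {S : Finset GolayPt} (h : 5 ≤ S.card) :
    ∃ x : Fin 5 ↪ GolayPt, ∀ i, x i ∈ S := by
  have hne : S.Nonempty := Finset.card_pos.1 (by omega)
  obtain ⟨p, hp⟩ := hne
  obtain ⟨x, hx, -⟩ := exists_emb5 h hp
  exact ⟨x, hx⟩

theorem faithful {d : Finset GolayPt} (hd : d ∈ dodecads) {S : Finset GolayPt} (hS : S ⊆ d)
    (h5 : 5 ≤ S.card) (g : ↥M24) (hg : ((g : ↥M24) : Equiv.Perm GolayPt) • d = d)
    (hfix : ∀ p ∈ S, ((g : ↥M24) : Equiv.Perm GolayPt) p = p) : g = 1 := by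
  obtain ⟨x, hx⟩ := emb5_of_card h5
  exact Subtype.ext (dodC x hd (fun i => hS (hx i)) g.2 (fun i => hfix _ (hx i)) hg)

theorem extend {d : Finset GolayPt} (hd : d ∈ dodecads) {o : Finset GolayPt} (ho : o ∈ octads)
    (h6 : (o ∩ d).card = 6) (σ : Equiv.Perm ↥(o ∩ d)) :
    ∃ g ∈ M24, g • d = d ∧ g • (o ∩ d) = o ∩ d ∧ ∀ z : ↥(o ∩ d), g z = σ z := by
  classical
  obtain ⟨x, hx⟩ := emb5_of_card (S := o ∩ d) (by omega)
  let y : Fin 5 ↪ GolayPt := ⟨fun i => ((σ ⟨x i, hx i⟩ : ↥(o ∩ d)) : GolayPt), by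
    intro i j hij
    have h1 : σ ⟨x i, hx i⟩ = σ ⟨x j, hx j⟩ := Subtype.ext hij
    have h2 := σ.injective h1
    exact x.injective (congrArg Subtype.val h2)⟩
  have hy : ∀ i, y i ∈ o ∩ d := fun i => (σ ⟨x i, hx i⟩).2
  obtain ⟨g₁, hg₁, e₁⟩ := exists_map x y
  have hm1 : ∀ i, y i ∈ g₁ • d := by
    intro i
    rw [← e₁ i]
    exact Finset.smul_mem_smul_finset (Finset.mem_inter.1 (hx i)).2
  obtain ⟨h, hh, hfix, e₂⟩ := dodB y (smul_mem_weight hg₁ hd) hd hm1
    (fun i => (Finset.mem_inter.1 (hy i)).2)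
  have hgd : (h * g₁) • d = d := by rw [mul_smul, e₂]
  have hgx : ∀ i, (h * g₁) (x i) = y i := by
    intro i
    rw [Equiv.Perm.mul_apply, e₁ i, hfix i]
  have hgo : (h * g₁) • o = o := by
    have ho' : (h * g₁) • o ∈ octads := smul_mem_weight (Subgroup.mul_mem _ hh hg₁) ho
    have hsub : Finset.univ.map y ⊆ o ∩ (h * g₁) • o := by
      intro p hp
      obtain ⟨i, -, rfl⟩ := Finset.mem_map.1 hp
      rw [Finset.mem_inter]
      refine ⟨(Finset.mem_inter.1 (hy i)).1, ?_⟩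
      rw [← hgx i]
      exact Finset.smul_mem_smul_finset (Finset.mem_inter.1 (hx i)).1
    have hc := Finset.card_le_card hsub
    rw [Finset.card_map, Finset.card_univ, Fintype.card_fin] at hc
    exact (octad_eq_of_five ho ho' hc).symm
  have hgC : (h * g₁) • (o ∩ d) = o ∩ d := by
    rw [Finset.smul_finset_inter, hgo, hgd]
  refine ⟨h * g₁, Subgroup.mul_mem _ hh hg₁, hgd, hgC, ?_⟩
  let τ : Equiv.Perm ↥(o ∩ d) := (h * g₁).subtypePerm (mem_iff_of_smul hgC)
  have hτ : τ = σ := by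
    apply perm_eq_of_agree σ τ (Finset.univ.map
      ⟨fun i : Fin 5 => (⟨x i, hx i⟩ : ↥(o ∩ d)), fun i j hij =>
        x.injective (congrArg Subtype.val hij)⟩)
    · rw [Finset.card_map, Finset.card_univ, Fintype.card_fin, Fintype.card_coe, h6]
    · intro z hz
      obtain ⟨i, -, rfl⟩ := Finset.mem_map.1 hz
      apply Subtype.ext
      exact hgx i
  intro z
  have := congrArg (fun e : Equiv.Perm ↥(o ∩ d) => ((e z : ↥(o ∩ d)) : GolayPt)) hτ
  exact this

/-- For a dodecad d of the length-24 code and a hexad C on it (a 6-point intersection of d with an octad): the joint stabiliser of d and C in the code's group is isomorphic to the symmetric group of degree 6, and it acts faithfully both on the six points of C and on the six points of d outside C. -/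
theorem result (d : Finset Cfsg.GolayPt) (hd : d ∈ Cfsg.dodecads) (C : Finset Cfsg.GolayPt) (hC : C ∈ Cfsg.hexadsOn d) : Nonempty (↥(MulAction.stabilizer Cfsg.M24 d ⊓ MulAction.stabilizer Cfsg.M24 C) ≃* Equiv.Perm (Fin 6)) ∧ (∀ g ∈ MulAction.stabilizer Cfsg.M24 d ⊓ MulAction.stabilizer Cfsg.M24 C, (∀ p ∈ C, ((g : ↥Cfsg.M24) : Equiv.Perm Cfsg.GolayPt) p = p) → g = 1) ∧ ∀ g ∈ MulAction.stabilizer Cfsg.M24 d ⊓ MulAction.stabilizer Cfsg.M24 C, (∀ p ∈ d \ C, ((g : ↥Cfsg.M24) : Equiv.Perm Cfsg.GolayPt) p = p) → g = 1 := by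
  classical
  obtain ⟨hC6, o, ho, rfl⟩ := hC
  have hCd : o ∩ d ⊆ d := Finset.inter_subset_right
  have hstab : ∀ g ∈ MulAction.stabilizer ↥M24 d ⊓ MulAction.stabilizer ↥M24 (o ∩ d),
      ((g : ↥M24) : Equiv.Perm GolayPt) • d = d := by
    intro g hg
    exact MulAction.mem_stabilizer_iff.1 (Subgroup.mem_inf.1 hg).1
  have f1 : ∀ g ∈ MulAction.stabilizer ↥M24 d ⊓ MulAction.stabilizer ↥M24 (o ∩ d),
      (∀ p ∈ o ∩ d, ((g : ↥M24) : Equiv.Perm GolayPt) p = p) → g = 1 := by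
    intro g hg hfix
    exact faithful hd hCd (by omega) g (hstab g hg) hfix
  refine ⟨?_, f1, ?_⟩
  · apply sym6_of_surj hC6 inf_le_right f1
    intro σ
    obtain ⟨g, hg, e1, e2, e3⟩ := extend hd ho hC6 σ
    refine ⟨⟨g, hg⟩, ?_, e3⟩
    rw [Subgroup.mem_inf, MulAction.mem_stabilizer_iff, MulAction.mem_stabilizer_iff]
    exact ⟨e1, e2⟩
  · intro g hg hfix
    have hc : (d \ (o ∩ d)).card = 6 := by
      rw [Finset.card_sdiff_of_subset hCd, hd.2, hC6]
    exact faithful hd Finset.sdiff_subset (by omega) g (hstab g hg) hfix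
end Cfsg.Agent.S5618
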