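import Cfsg.Statements.S5619
import Cfsg.Agent.Lib.Helper28.M24Orb
import Cfsg.Agent.Lib.Helper4.GolayM12
import Mathlib.GroupTheory.SpecificGroups.Quaternion
import Mathlib.GroupTheory.Sylow

set_option autoImplicit false
open scoped Pointwise
open Cfsg

namespace Cfsg.Agent.S5619

open Cfsg Cfsg.Agent.Lib.Helper4 Cfsg.Agent.Lib.Helper4.Golay Cfsg.Agent.Lib.Helper28
open Pointwise

set_option maxRecDepth 100000

theorem pow_cases3 {k : ℕ} (h9 : 9 ∣ 3 ^ k) (h72 : 3 ^ k ∣ 72) : 3 ^ k = 9 := by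
  rcases Nat.lt_or_ge k 3 with h | h
  · interval_cases k
    · norm_num at h9
    · norm_num at h9
    · norm_num
  · have h1 : 3 ^ 3 ∣ 3 ^ k := Nat.pow_dvd_pow 3 h
    have h2 := dvd_trans h1 h72
    norm_num at h2

theorem pow_cases2 {k : ℕ} (h8 : 8 ∣ 2 ^ k) (h72 : 2 ^ k ∣ 72) : 2 ^ k = 8 := by
  rcases Nat.lt_or_ge k 4 with h | h
  · interval_cases k
    · norm_num at h8
    · norm_num at h8
    · norm_num at h8
    · norm_num
  · have h1 : 2 ^ 4 ∣ 2 ^ k := Nat.pow_dvd_pow 2 h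
    have h2 := dvd_trans h1 h72
    norm_num at h2

/-- A subgroup inside the range of an injective map is isomorphic to its preimage. -/
noncomputable def comapEquiv {G A : Type*} [Group G] [Group A] (ι : G →* A)
    (hι : Function.Injective ι) (S : Subgroup A) (hS : S ≤ ι.range) : ↥(S.comap ι) ≃* ↥S :=
  MulEquiv.ofBijective (ι.subgroupComap S) ⟨by
    intro x y h
    apply Subtype.ext
    apply hι
    exact congrArg Subtype.val h, by
    intro y
    obtain ⟨g, hg⟩ := hS y.2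
    exact ⟨⟨g, by rw [Subgroup.mem_comap, hg]; exact y.2⟩, Subtype.ext hg⟩⟩

theorem abs72 {G A : Type*} [Group G] [Finite G] [Group A] (ι : G →* A)
    (hι : Function.Injective ι) (NA PA : Subgroup A) (hN : NA ≤ ι.range) (hP : PA ≤ ι.range)
    (hcard : Nat.card G = 72) (hN9 : Nat.card NA = 9) (hN3 : ∀ x ∈ NA, x ^ 3 = 1)
    (hQ : Nonempty (PA ≃* QuaternionGroup 2))
    (hnorm : PA ≤ Subgroup.normalizer (NA : Set A)) :
    (∀ Q : Sylow 3 G, (Q : Subgroup G).Normal ∧ Nat.card Q = 9 ∧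
      ∀ x ∈ (Q : Subgroup G), x ^ 3 = 1) ∧
    ∀ P : Sylow 2 G, Nonempty (P ≃* QuaternionGroup 2) := by
  have : Fact (Nat.Prime 3) := ⟨by norm_num⟩
  have : Fact (Nat.Prime 2) := ⟨by norm_num⟩
  obtain ⟨eQ⟩ := hQ
  have cN : Nat.card ↥(NA.comap ι) = 9 := by
    rw [Nat.card_congr (comapEquiv ι hι NA hN).toEquiv, hN9]
  have cP : Nat.card ↥(PA.comap ι) = 8 := by
    rw [Nat.card_congr (comapEquiv ι hι PA hP).toEquiv, Nat.card_congr eQ.toEquiv,
      Nat.card_eq_fintype_card, QuaternionGroup.card]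
  have hexp : ∀ x ∈ NA.comap ι, x ^ 3 = 1 := by
    intro x hx
    apply hι
    rw [map_pow, map_one]
    exact hN3 _ hx
  have hnorm' : PA.comap ι ≤ Subgroup.normalizer ((NA.comap ι : Subgroup G) : Set G) := by
    rw [Subgroup.le_normalizer_iff]
    intro g hg n hn
    rw [Subgroup.mem_comap, map_mul, map_mul, map_inv]
    exact (Subgroup.le_normalizer_iff.1 hnorm) (ι g) hg (ι n) hn
  have hnormal : (NA.comap ι).Normal := by
    rw [← Subgroup.normalizer_eq_top_iff]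
    apply Subgroup.eq_top_of_card_eq
    have d9 : 9 ∣ Nat.card ↥(Subgroup.normalizer ((NA.comap ι : Subgroup G) : Set G)) := by
      rw [← cN]
      exact Subgroup.card_dvd_of_le Subgroup.le_normalizer
    have d8 : 8 ∣ Nat.card ↥(Subgroup.normalizer ((NA.comap ι : Subgroup G) : Set G)) := by
      rw [← cP]
      exact Subgroup.card_dvd_of_le hnorm'
    have d72 : 72 ∣ Nat.card ↥(Subgroup.normalizer ((NA.comap ι : Subgroup G) : Set G)) :=
      Nat.Coprime.mul_dvd_of_dvd_of_dvd (by norm_num : Nat.Coprime 9 8) d9 d8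
    have dd : Nat.card ↥(Subgroup.normalizer ((NA.comap ι : Subgroup G) : Set G)) ∣ 72 := by
      rw [← hcard]
      exact Subgroup.card_subgroup_dvd_card _
    rw [hcard]
    exact Nat.dvd_antisymm dd d72
  have pN : IsPGroup 3 ↥(NA.comap ι) := IsPGroup.of_card (n := 2) (by rw [cN]; norm_num)
  have pP : IsPGroup 2 ↥(PA.comap ι) := IsPGroup.of_card (n := 3) (by rw [cP]; norm_num)
  constructor
  · intro Q
    have hle : NA.comap ι ≤ (Q : Subgroup G) := by
      have h1 : IsPGroup 3 ↥((Q : Subgroup G) ⊔ NA.comap ι) :=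
        IsPGroup.to_sup_of_normal_right Q.isPGroup' pN
      have h2 := Q.is_maximal' h1 le_sup_left
      rw [← h2]
      exact le_sup_right
    obtain ⟨k, hk⟩ := IsPGroup.iff_card.1 Q.isPGroup'
    have h9 : 9 ∣ 3 ^ k := by
      rw [← hk, ← cN]
      exact Subgroup.card_dvd_of_le hle
    have h72 : 3 ^ k ∣ 72 := by
      rw [← hk, ← hcard]
      exact Subgroup.card_subgroup_dvd_card _
    have hQ9 : Nat.card ↥(Q : Subgroup G) = 9 := by rw [hk]; exact pow_cases3 h9 h72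
    have heq : NA.comap ι = (Q : Subgroup G) :=
      Subgroup.eq_of_le_of_card_ge hle (by rw [hQ9, cN])
    refine ⟨?_, hQ9, ?_⟩
    · rw [← heq]
      exact hnormal
    · intro x hx
      rw [← heq] at hx
      exact hexp x hx
  · intro P
    obtain ⟨P', hP'⟩ := pP.exists_le_sylow
    obtain ⟨k, hk⟩ := IsPGroup.iff_card.1 P'.isPGroup'
    have h8 : 8 ∣ 2 ^ k := by
      rw [← hk, ← cP]
      exact Subgroup.card_dvd_of_le hP'
    have h72 : 2 ^ k ∣ 72 := by
      rw [← hk, ← hcard]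
      exact Subgroup.card_subgroup_dvd_card _
    have hP8 : Nat.card ↥(P' : Subgroup G) = 8 := by rw [hk]; exact pow_cases2 h8 h72
    have heq : PA.comap ι = (P' : Subgroup G) :=
      Subgroup.eq_of_le_of_card_ge hP' (by rw [hP8, cP])
    exact ⟨(Sylow.equiv P P').trans ((MulEquiv.subgroupCongr heq.symm).trans
      ((comapEquiv ι hι PA hP).trans eQ))⟩

def lX : List ℕ := [0, 1, 2, 3, 5, 10, 15, 14, 6, 8, 17, 19, 23, 20, 12, 9, 11, 4, 21, 22, 13, 18, 16, 7]

def lX' : List ℕ := [0, 1, 2, 3, 17, 4, 8, 23, 9, 15, 5, 16, 14, 20, 7, 6, 22, 10, 21, 11, 13, 18, 19, 12]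

theorem cX : chk lX lX' = true := by decide +kernel

/-- A group element. -/
def pX : Equiv.Perm GolayPt := mkPerm lX lX' cX

def lY : List ℕ := [0, 1, 2, 3, 6, 8, 10, 11, 17, 4, 9, 12, 22, 21, 16, 5, 23, 15, 20, 14, 18, 13, 7, 19]

def lY' : List ℕ := [0, 1, 2, 3, 9, 15, 4, 22, 5, 10, 6, 7, 11, 21, 19, 17, 14, 8, 20, 23, 18, 13, 12, 16]

theorem cY : chk lY lY' = true := by decide +kernel

/-- A group element. -/
def pY : Equiv.Perm GolayPt := mkPerm lY lY' cY

def lA : List ℕ := [0, 1, 2, 4, 10, 6, 15, 7, 9, 17, 3, 21, 12, 13, 20, 5, 19, 8, 16, 18, 23, 22, 11, 14]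

def lA' : List ℕ := [0, 1, 2, 10, 3, 15, 5, 7, 17, 8, 4, 22, 12, 13, 23, 6, 18, 9, 19, 16, 14, 11, 21, 20]

theorem cA : chk lA lA' = true := by decide +kernel

/-- A group element. -/
def pA : Equiv.Perm GolayPt := mkPerm lA lA' cA

def lB : List ℕ := [0, 1, 2, 5, 6, 17, 8, 12, 4, 10, 15, 22, 13, 7, 14, 9, 19, 3, 16, 18, 20, 11, 21, 23]

def lB' : List ℕ := [0, 1, 2, 17, 8, 3, 4, 13, 6, 15, 9, 21, 7, 12, 14, 10, 18, 5, 19, 16, 20, 22, 11, 23]

theorem cB : chk lB lB' = true := by decide +kernel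

/-- A group element. -/
def pB : Equiv.Perm GolayPt := mkPerm lB lB' cB

/-- The stabiliser of the standard dodecad and its first three points. -/
def M9 : Subgroup (Equiv.Perm GolayPt) :=
  G11 ⊓ MulAction.stabilizer (Equiv.Perm GolayPt) (pt 1) ⊓
    MulAction.stabilizer (Equiv.Perm GolayPt) (pt 2)

theorem mem_M9 {g : Equiv.Perm GolayPt} : g ∈ M9 ↔
    g ∈ M24 ∧ g • D0s = D0s ∧ g (pt 0) = pt 0 ∧ g (pt 1) = pt 1 ∧ g (pt 2) = pt 2 := by
  rw [M9, Subgroup.mem_inf, Subgroup.mem_inf, mem_G11, MulAction.mem_stabilizer_iff,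
    MulAction.mem_stabilizer_iff]
  constructor
  · rintro ⟨⟨⟨h1, h2, h3⟩, h4⟩, h5⟩
    exact ⟨h1, h2, h3, h4, h5⟩
  · rintro ⟨h1, h2, h3, h4, h5⟩
    exact ⟨⟨⟨h1, h2, h3⟩, h4⟩, h5⟩

theorem card_M9 : Nat.card ↥M9 = 72 := by
  classical
  have h := card_eq_orbit_mul (G11 ⊓ MulAction.stabilizer (Equiv.Perm GolayPt) (pt 1)) (pt 2)
  have n20 : pt 2 ≠ pt 0 := pt_ne_pt (by norm_num) (by norm_num) (by norm_num)
  have n21 : pt 2 ≠ pt 1 := pt_ne_pt (by norm_num) (by norm_num) (by norm_num)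
  have n01 : pt 0 ≠ pt 1 := pt_ne_pt (by norm_num) (by norm_num) (by norm_num)
  have horb : MulAction.orbit ↥(G11 ⊓ MulAction.stabilizer (Equiv.Perm GolayPt) (pt 1)) (pt 2)
      = {q | q ∈ D0s ∧ q ≠ pt 0 ∧ q ≠ pt 1} := by
    ext q
    constructor
    · rintro ⟨g, rfl⟩
      have hg := g.2
      rw [Subgroup.mem_inf, mem_G11, MulAction.mem_stabilizer_iff] at hg
      obtain ⟨⟨hgM, hgD, hg0⟩, hg1⟩ := hg
      refine ⟨?_, ?_, ?_⟩
      · have h5 : (g : Equiv.Perm GolayPt) (pt 2) ∈ (g : Equiv.Perm GolayPt) • D0s :=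
          Finset.smul_mem_smul_finset (pt_mem_D0s 2 (by norm_num))
        rw [hgD] at h5
        exact h5
      · intro e
        have e' : (g : Equiv.Perm GolayPt) (pt 2) = (g : Equiv.Perm GolayPt) (pt 0) :=
          e.trans hg0.symm
        exact n20 ((g : Equiv.Perm GolayPt).injective e')
      · intro e
        have e' : (g : Equiv.Perm GolayPt) (pt 2) = (g : Equiv.Perm GolayPt) (pt 1) :=
          e.trans hg1.symm
        exact n21 ((g : Equiv.Perm GolayPt).injective e')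
    · rintro ⟨hq1, hq2, hq3⟩
      obtain ⟨g, hg, hgd, e1, e2, e3⟩ := dod_map3 D0_dod (pt_mem_D0s 0 (by norm_num))
        (pt_mem_D0s 1 (by norm_num)) (pt_mem_D0s 2 (by norm_num)) (pt_mem_D0s 0 (by norm_num))
        (pt_mem_D0s 1 (by norm_num)) hq1 n01 n20.symm n21.symm n01 (Ne.symm hq2) (Ne.symm hq3)
      exact ⟨⟨g, Subgroup.mem_inf.2 ⟨mem_G11.2 ⟨hg, hgd, e1⟩, e2⟩⟩, e3⟩
  have hn : {q | q ∈ D0s ∧ q ≠ pt 0 ∧ q ≠ pt 1}.ncard = 10 := by
    have h5 : {q | q ∈ D0s ∧ q ≠ pt 0 ∧ q ≠ pt 1}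
        = (((D0s.erase (pt 0)).erase (pt 1) : Finset GolayPt) : Set GolayPt) := by
      ext q
      simp
      tauto
    rw [h5, Set.ncard_coe_finset, Finset.card_erase_of_mem (Finset.mem_erase.2
      ⟨n01.symm, pt_mem_D0s 1 (by norm_num)⟩),
      Finset.card_erase_of_mem (pt_mem_D0s 0 (by norm_num))]
    have h6 := D0_dod.2
    rw [D0s, h6]
  rw [card_G11_stab, horb, hn] at h
  show Nat.card ↥(G11 ⊓ MulAction.stabilizer (Equiv.Perm GolayPt) (pt 1) ⊓
    MulAction.stabilizer (Equiv.Perm GolayPt) (pt 2)) = 72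
  omega

/-- Certificate that a list gives an element of the standard group. -/
def m9B (l : List ℕ) : Bool :=
  and (and (memChk l) (Nat.beq (pmL l D0) D0))
    (and (Nat.beq (nth l 0) 0) (and (Nat.beq (nth l 1) 1) (Nat.beq (nth l 2) 2)))

theorem m9_of {l l' : List ℕ} (hc : chk l l' = true) (h : m9B l = true) : mkPerm l l' hc ∈ M9 := by
  simp only [m9B, Bool.and_eq_true, Nat.beq_eq] at h
  obtain ⟨⟨hm, hd⟩, h0, h1, h2⟩ := h
  rw [mem_M9]
  refine ⟨mkPerm_mem _ _ hc hm, ?_, ?_, ?_, ?_⟩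
  · show mkPerm l l' hc • support₂ (word D0) = support₂ (word D0)
    rw [smul_eq_iff_inv, inv_smul_word, hd]
  · rw [mkPerm_pt _ _ _ 0 (by norm_num), h0]
  · rw [mkPerm_pt _ _ _ 1 (by norm_num), h1]
  · rw [mkPerm_pt _ _ _ 2 (by norm_num), h2]

theorem pX_mem : pX ∈ M9 := m9_of cX (by decide +kernel)

theorem pY_mem : pY ∈ M9 := m9_of cY (by decide +kernel)

theorem pA_mem : pA ∈ M9 := m9_of cA (by decide +kernel)

theorem pB_mem : pB ∈ M9 := m9_of cB (by decide +kernel)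

/-- The quaternion subgroup. -/
def phi : QuaternionGroup 2 → Equiv.Perm GolayPt
  | .a k => pX ^ k.val
  | .xa k => pY * pX ^ k.val

/-- The subgroup of order nine. -/
def psi (m : Multiplicative (ZMod 3 × ZMod 3)) : Equiv.Perm GolayPt :=
  pA ^ (Multiplicative.toAdd m).1.val * pB ^ (Multiplicative.toAdd m).2.val

theorem phi_mul : ∀ u v : QuaternionGroup 2, phi (u * v) = phi u * phi v := by decide +kernel

theorem phi_inj : ∀ u v : QuaternionGroup 2, phi u = phi v → u = v := by decide +kernel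

theorem psi_mul : ∀ u v : Multiplicative (ZMod 3 × ZMod 3), psi (u * v) = psi u * psi v := by
  decide +kernel

theorem psi_inj : ∀ u v : Multiplicative (ZMod 3 × ZMod 3), psi u = psi v → u = v := by
  decide +kernel

theorem pow3 : ∀ m : Multiplicative (ZMod 3 × ZMod 3), m ^ 3 = 1 := by decide +kernel

theorem conj_ok : ∀ (u : QuaternionGroup 2) (m : Multiplicative (ZMod 3 × ZMod 3)),
    ∃ m' : Multiplicative (ZMod 3 × ZMod 3), phi u * psi m * (phi u)⁻¹ = psi m' := by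
  decide +kernel

theorem phi_mem (u : QuaternionGroup 2) : phi u ∈ M9 := by
  cases u with
  | a k => exact Subgroup.pow_mem _ pX_mem _
  | xa k => exact Subgroup.mul_mem _ pY_mem (Subgroup.pow_mem _ pX_mem _)

theorem psi_mem (m : Multiplicative (ZMod 3 × ZMod 3)) : psi m ∈ M9 :=
  Subgroup.mul_mem _ (Subgroup.pow_mem _ pA_mem _) (Subgroup.pow_mem _ pB_mem _)

/-- The quaternion subgroup, as a homomorphism. -/
def phiHom : QuaternionGroup 2 →* Equiv.Perm GolayPt := MonoidHom.mk' phi phi_mul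

/-- The subgroup of order nine, as a homomorphism. -/
def psiHom : Multiplicative (ZMod 3 × ZMod 3) →* Equiv.Perm GolayPt := MonoidHom.mk' psi psi_mul

theorem phiHom_inj : Function.Injective phiHom := fun u v h => phi_inj u v h

theorem psiHom_inj : Function.Injective psiHom := fun u v h => psi_inj u v h

theorem card_psi : Nat.card ↥psiHom.range = 9 := by
  rw [← Nat.card_congr (MonoidHom.ofInjective psiHom_inj).toEquiv, Nat.card_eq_fintype_card]
  decide

theorem exp_psi : ∀ x ∈ psiHom.range, x ^ 3 = 1 := by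
  rintro x ⟨m, rfl⟩
  rw [← map_pow, pow3, map_one]

theorem norm_psi : phiHom.range ≤ Subgroup.normalizer (psiHom.range : Set (Equiv.Perm GolayPt)) := by
  rw [Subgroup.le_normalizer_iff]
  rintro x ⟨u, rfl⟩ y ⟨m, rfl⟩
  obtain ⟨m', e⟩ := conj_ok u m
  exact ⟨m', e.symm⟩

/-- In the group of the length-24 code, the subgroup fixing a dodecad setwise and three of its points individually (a group of order 72) has a normal Sylow 3-subgroup that is elementary abelian of order 9, and its Sylow 2-subgroups are quaternion of order 8. -/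
theorem result (d : Finset Cfsg.GolayPt) (hd : d ∈ Cfsg.dodecads) (p q r : Cfsg.GolayPt) (hp : p ∈ d) (hq : q ∈ d) (hr : r ∈ d) (hpq : p ≠ q) (hpr : p ≠ r) (hqr : q ≠ r) : (∀ Q : Sylow 3 ↥(MulAction.stabilizer Cfsg.M24 d ⊓ MulAction.stabilizer Cfsg.M24 p ⊓ MulAction.stabilizer Cfsg.M24 q ⊓ MulAction.stabilizer Cfsg.M24 r), (Q : Subgroup ↥(MulAction.stabilizer Cfsg.M24 d ⊓ MulAction.stabilizer Cfsg.M24 p ⊓ MulAction.stabilizer Cfsg.M24 q ⊓ MulAction.stabilizer Cfsg.M24 r)).Normal ∧ Nat.card ↥Q = 9 ∧ ∀ x ∈ (Q : Subgroup ↥(MulAction.stabilizer Cfsg.M24 d ⊓ MulAction.stabilizer Cfsg.M24 p ⊓ MulAction.stabilizer Cfsg.M24 q ⊓ MulAction.stabilizer Cfsg.M24 r)), x ^ 3 = 1) ∧ ∀ P : Sylow 2 ↥(MulAction.stabilizer Cfsg.M24 d ⊓ MulAction.stabilizer Cfsg.M24 p ⊓ MulAction.stabilizer Cfsg.M24 q ⊓ MulAction.stabilizer Cfsg.M24 r), Nonempty (↥P ≃* QuaternionGroup 2) := by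
  classical
  -- move to the standard position
  obtain ⟨k0, hk0, e0⟩ := dod_trans D0_dod hd
  have m0 : k0 (pt 0) ∈ d := by rw [← e0]; exact Finset.smul_mem_smul_finset (pt_mem_D0s 0 (by norm_num))
  have m1 : k0 (pt 1) ∈ d := by rw [← e0]; exact Finset.smul_mem_smul_finset (pt_mem_D0s 1 (by norm_num))
  have m2 : k0 (pt 2) ∈ d := by rw [← e0]; exact Finset.smul_mem_smul_finset (pt_mem_D0s 2 (by norm_num))
  have n01 : pt 0 ≠ pt 1 := pt_ne_pt (by norm_num) (by norm_num) (by norm_num)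
  have n02 : pt 0 ≠ pt 2 := pt_ne_pt (by norm_num) (by norm_num) (by norm_num)
  have n12 : pt 1 ≠ pt 2 := pt_ne_pt (by norm_num) (by norm_num) (by norm_num)
  obtain ⟨g1, hg1, hg1d, f0, f1, f2⟩ := dod_map3 hd m0 m1 m2 hp hq hr
    (fun h => n01 (k0.injective h)) (fun h => n02 (k0.injective h))
    (fun h => n12 (k0.injective h)) hpq hpr hqr
  have hk : g1 * k0 ∈ M24 := Subgroup.mul_mem _ hg1 hk0
  have ed : (g1 * k0) • D0s = d := by rw [mul_smul]; show g1 • k0 • support₂ (word D0) = d; rw [e0, hg1d]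
  have ep : (g1 * k0) (pt 0) = p := f0
  have eq : (g1 * k0) (pt 1) = q := f1
  have er : (g1 * k0) (pt 2) = r := f2
  generalize g1 * k0 = k at hk ed ep eq er
  have ed' : k⁻¹ • d = D0s := by rw [← ed, inv_smul_smul]
  have ep' : k⁻¹ p = pt 0 := by rw [← ep]; simp
  have eq' : k⁻¹ q = pt 1 := by rw [← eq]; simp
  have er' : k⁻¹ r = pt 2 := by rw [← er]; simp
  have hι : Function.Injective (((MulAut.conj k⁻¹).toMonoidHom).comp ((Subgroup.subtype M24).comp
      (Subgroup.subtype (MulAction.stabilizer M24 d ⊓ MulAction.stabilizer M24 p ⊓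
        MulAction.stabilizer M24 q ⊓ MulAction.stabilizer M24 r)))) := by
    intro x y h
    apply Subtype.ext
    apply Subtype.ext
    exact (MulAut.conj k⁻¹).injective h
  have hrange : ((MulAut.conj k⁻¹).toMonoidHom.comp ((Subgroup.subtype M24).comp
      (Subgroup.subtype (MulAction.stabilizer M24 d ⊓ MulAction.stabilizer M24 p ⊓
        MulAction.stabilizer M24 q ⊓ MulAction.stabilizer M24 r)))).range = M9 := by
    ext y
    constructor
    · rintro ⟨x, rfl⟩
      have hx := x.2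
      rw [Subgroup.mem_inf, Subgroup.mem_inf, Subgroup.mem_inf, MulAction.mem_stabilizer_iff,
        MulAction.mem_stabilizer_iff, MulAction.mem_stabilizer_iff,
        MulAction.mem_stabilizer_iff] at hx
      obtain ⟨⟨⟨x1, x2⟩, x3⟩, x4⟩ := hx
      have y1 : ((x : M24) : Equiv.Perm GolayPt) • d = d := x1
      have y2 : ((x : M24) : Equiv.Perm GolayPt) p = p := x2
      have y3 : ((x : M24) : Equiv.Perm GolayPt) q = q := x3
      have y4 : ((x : M24) : Equiv.Perm GolayPt) r = r := x4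
      show k⁻¹ * ((x : M24) : Equiv.Perm GolayPt) * k⁻¹⁻¹ ∈ M9
      rw [inv_inv, mem_M9]
      refine ⟨Subgroup.mul_mem _ (Subgroup.mul_mem _ (Subgroup.inv_mem _ hk) (x : M24).2) hk,
        ?_, ?_, ?_, ?_⟩
      · rw [mul_smul, mul_smul, ed, y1, ed']
      · rw [Equiv.Perm.mul_apply, Equiv.Perm.mul_apply, ep, y2, ep']
      · rw [Equiv.Perm.mul_apply, Equiv.Perm.mul_apply, eq, y3, eq']
      · rw [Equiv.Perm.mul_apply, Equiv.Perm.mul_apply, er, y4, er']
    · intro hy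
      rw [mem_M9] at hy
      obtain ⟨y0, y1, y2, y3, y4⟩ := hy
      have hxM : k * y * k⁻¹ ∈ M24 :=
        Subgroup.mul_mem _ (Subgroup.mul_mem _ hk y0) (Subgroup.inv_mem _ hk)
      refine ⟨⟨⟨k * y * k⁻¹, hxM⟩, ?_⟩, ?_⟩
      · rw [Subgroup.mem_inf, Subgroup.mem_inf, Subgroup.mem_inf, MulAction.mem_stabilizer_iff,
          MulAction.mem_stabilizer_iff, MulAction.mem_stabilizer_iff,
          MulAction.mem_stabilizer_iff]
        refine ⟨⟨⟨?_, ?_⟩, ?_⟩, ?_⟩
        · show (k * y * k⁻¹) • d = d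
          rw [mul_smul, mul_smul, ed', y1, ed]
        · show (k * y * k⁻¹) p = p
          rw [Equiv.Perm.mul_apply, Equiv.Perm.mul_apply, ep', y2, ep]
        · show (k * y * k⁻¹) q = q
          rw [Equiv.Perm.mul_apply, Equiv.Perm.mul_apply, eq', y3, eq]
        · show (k * y * k⁻¹) r = r
          rw [Equiv.Perm.mul_apply, Equiv.Perm.mul_apply, er', y4, er]
      · show k⁻¹ * (k * y * k⁻¹) * k⁻¹⁻¹ = y
        group
  have hcard : Nat.card ↥(MulAction.stabilizer M24 d ⊓ MulAction.stabilizer M24 p ⊓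
      MulAction.stabilizer M24 q ⊓ MulAction.stabilizer M24 r) = 72 := by
    rw [Nat.card_congr (MonoidHom.ofInjective hι).toEquiv, hrange]
    exact card_M9
  exact abs72 _ hι psiHom.range phiHom.range
    (by rw [hrange]; rintro x ⟨m, rfl⟩; exact psi_mem m)
    (by rw [hrange]; rintro x ⟨u, rfl⟩; exact phi_mem u)
    hcard card_psi exp_psi ⟨(MonoidHom.ofInjective phiHom_inj).symm⟩ norm_psi
end Cfsg.Agent.S5619
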