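import Cfsg.Statements.S5620
import Cfsg.Agent.Lib.Helper28.M11Std
import Cfsg.Agent.Lib.Helper4.GolayM11
import Cfsg.Agent.S0372

set_option autoImplicit false
open scoped Pointwise
open Cfsg

namespace Cfsg.Agent.S5620

open Cfsg Cfsg.Agent.Lib.Helper4 Cfsg.Agent.Lib.Helper4.Golay Cfsg.Agent.Lib.Helper28
open Pointwise

theorem mem_conj_M11 (k x : Equiv.Perm GolayPt) (hk : k ∈ M24) :
    x ∈ MulAut.conj k • Cfsg.Spor.M11 ↔ x ∈ M24 ∧
      x • (k • Cfsg.Spor.squareDodecad) = k • Cfsg.Spor.squareDodecad ∧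
      x (k (some 0)) = k (some 0) := by
  rw [Subgroup.mem_pointwise_smul_iff_inv_smul_mem]
  have e : (MulAut.conj k)⁻¹ • x = k⁻¹ * x * k := by
    rw [MulAut.smul_def, MulAut.conj_inv_apply]
  rw [e, mem_M11]
  have hk' : k⁻¹ ∈ M24 := Subgroup.inv_mem _ hk
  constructor
  · rintro ⟨h1, h2, h3⟩
    refine ⟨?_, ?_, ?_⟩
    · have := Subgroup.mul_mem _ (Subgroup.mul_mem _ hk h1) hk'
      have e2 : k * (k⁻¹ * x * k) * k⁻¹ = x := by group
      rwa [e2] at this
    · rw [mul_smul, mul_smul, inv_smul_eq_iff] at h2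
      exact h2
    · rw [Equiv.Perm.mul_apply, Equiv.Perm.mul_apply, Equiv.Perm.inv_eq_iff_eq] at h3
      exact h3
  · rintro ⟨h1, h2, h3⟩
    refine ⟨Subgroup.mul_mem _ (Subgroup.mul_mem _ hk' h1) hk, ?_, ?_⟩
    · rw [mul_smul, mul_smul, inv_smul_eq_iff]
      exact h2
    · rw [Equiv.Perm.mul_apply, Equiv.Perm.mul_apply, Equiv.Perm.inv_eq_iff_eq]
      exact h3

theorem proj_dod : projInv • Cfsg.Spor.squareDodecad = Finset.univ \ Cfsg.Spor.squareDodecad := by
  show projInv • support₂ (qrWord 0) = Finset.univ \ support₂ (qrWord 0)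
  decide +kernel

theorem none_not_mem : (none : GolayPt) ∉ Cfsg.Spor.squareDodecad := by
  show (none : GolayPt) ∉ support₂ (qrWord 0)
  decide +kernel

theorem conj_proj : MulAut.conj projInv • Cfsg.Spor.M11
    = Cfsg.Spor.M12 ⊓ MulAction.stabilizer (Equiv.Perm GolayPt) (none : GolayPt) := by
  ext x
  rw [mem_conj_M11 projInv x Cfsg.Agent.S0372.result, proj_dod, Subgroup.mem_inf, mem_M12,
    MulAction.mem_stabilizer_iff, Finset.smul_finset_sdiff, Finset.smul_finset_univ]
  have h0 : projInv (some 0) = (none : GolayPt) := rfl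
  rw [h0]
  have hc : Finset.univ \ x • Cfsg.Spor.squareDodecad = Finset.univ \ Cfsg.Spor.squareDodecad ↔
      x • Cfsg.Spor.squareDodecad = Cfsg.Spor.squareDodecad := by
    rw [← Finset.compl_eq_univ_sdiff, ← Finset.compl_eq_univ_sdiff, compl_inj_iff]
  rw [hc]
  exact ⟨fun h => ⟨⟨h.1, h.2.1⟩, h.2.2⟩, fun h => ⟨h.1.1, h.1.2, h.2⟩⟩

/-- Three points outside the dodecad of squares, starting with the extra point. -/
def xs : Fin 3 → GolayPt := ![none, some 5, some 7]

/-- Three points outside the dodecad of squares, not containing the extra point. -/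
def ys : Fin 3 → GolayPt := ![some 5, some 7, some 10]

theorem xs_inj : Function.Injective xs := by decide

theorem ys_inj : Function.Injective ys := by decide

theorem xs_out : ∀ i, xs i ∉ Cfsg.Spor.squareDodecad := by
  show ∀ i, xs i ∉ support₂ (qrWord 0)
  decide +kernel

theorem ys_out : ∀ i, ys i ∉ Cfsg.Spor.squareDodecad := by
  show ∀ i, ys i ∉ support₂ (qrWord 0)
  decide +kernel

/-- Inside the stabiliser of the dodecad of squares (a Mathieu group of degree 12), the stabiliser of the residue 0 (a point of the dodecad) and the stabiliser of the extra point (a point outside the dodecad) are isomorphic but not conjugate; conjugation by a suitable element of the code's group that maps the dodecad of squares onto its complement carries the first onto the second. -/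
theorem result : Nonempty (↥(Cfsg.Spor.M12 ⊓ MulAction.stabilizer (Equiv.Perm Cfsg.GolayPt) (none : Cfsg.GolayPt)) ≃* ↥Cfsg.Spor.M11) ∧ (¬ ∃ k ∈ Cfsg.Spor.M12, MulAut.conj k • Cfsg.Spor.M11 = Cfsg.Spor.M12 ⊓ MulAction.stabilizer (Equiv.Perm Cfsg.GolayPt) (none : Cfsg.GolayPt)) ∧ ∃ g ∈ Cfsg.M24, g • Cfsg.Spor.squareDodecad = Finset.univ \ Cfsg.Spor.squareDodecad ∧ MulAut.conj g • Cfsg.Spor.M11 = Cfsg.Spor.M12 ⊓ MulAction.stabilizer (Equiv.Perm Cfsg.GolayPt) (none : Cfsg.GolayPt) := by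
  refine ⟨?_, ?_, projInv, Cfsg.Agent.S0372.result, proj_dod, conj_proj⟩
  · rw [← conj_proj]
    exact ⟨(Subgroup.equivSMul (MulAut.conj projInv) Cfsg.Spor.M11).symm⟩
  · rintro ⟨k, hk, e⟩
    rw [mem_M12] at hk
    have hq : k (some 0) ∈ Cfsg.Spor.squareDodecad := by
      rw [← hk.2]
      exact Finset.smul_mem_smul_finset sq_zero
    obtain ⟨h, hh, h1, h2, h3⟩ := m11_trans3 sq_dod hq ⟨xs, xs_inj⟩ ⟨ys, ys_inj⟩ xs_out ys_out
    have hmem : h ∈ MulAut.conj k • Cfsg.Spor.M11 := by
      rw [mem_conj_M11 k h hk.1, hk.2]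
      exact ⟨hh, h1, h2⟩
    rw [e, Subgroup.mem_inf, MulAction.mem_stabilizer_iff] at hmem
    have h4 := h3 0
    have h5 : h (none : GolayPt) = some 5 := h4
    have h6 : h (none : GolayPt) = none := hmem.2
    rw [h6] at h5
    exact absurd h5 (by decide)
end Cfsg.Agent.S5620
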