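import Cfsg.Statements.S5621

set_option autoImplicit false
open Cfsg

namespace Cfsg.Agent.S5621

theorem z2_cases (a : ZMod 2) : a = 0 ∨ a = 1 := by
  revert a
  decide

theorem z2_mul_self (a : ZMod 2) : a * a = a := by
  revert a
  decide

theorem wt_cast (u : Fin 24 → ZMod 2) : ((hammingNorm u : ℕ) : ZMod 2) = ∑ i, u i := by
  classical
  unfold hammingNorm
  rw [Finset.card_eq_sum_ones, Nat.cast_sum, Finset.sum_filter]
  apply Finset.sum_congr rfl
  intro i _
  rcases z2_cases (u i) with h | h <;> simp [h]

theorem wt_add_of_subset (u v : Fin 24 → ZMod 2) (h : ∀ i, u i ≠ 0 → v i ≠ 0) :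
    hammingNorm (u + v) + hammingNorm u = hammingNorm v := by
  classical
  unfold hammingNorm
  have hsub : (Finset.univ.filter fun i => u i ≠ 0) ⊆ (Finset.univ.filter fun i => v i ≠ 0) := by
    intro i hi
    rw [Finset.mem_filter] at hi ⊢
    exact ⟨hi.1, h i hi.2⟩
  have heq : (Finset.univ.filter fun i => (u + v) i ≠ 0)
      = (Finset.univ.filter fun i => v i ≠ 0) \ (Finset.univ.filter fun i => u i ≠ 0) := by
    ext i
    simp only [Finset.mem_filter, Finset.mem_univ, true_and, Finset.mem_sdiff, Pi.add_apply,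
      not_not]
    have := h i
    rcases z2_cases (u i) with hu | hu <;> rcases z2_cases (v i) with hv | hv <;>
      simp [hu, hv] at this ⊢
    exact (by decide : (1 : ZMod 2) + 1 = 0)
  rw [heq]
  exact Finset.card_sdiff_add_card_eq_card hsub

open scoped Matrix in
theorem one_mem_of_selfdual (C : Submodule (ZMod 2) (Fin 24 → ZMod 2))
    (hdim : Module.finrank (ZMod 2) C = 12)
    (horth : ∀ v ∈ C, ∀ w ∈ C, ∑ i, v i * w i = 0) : (1 : Fin 24 → ZMod 2) ∈ C := by
  classical
  obtain ⟨B, hBdef⟩ : ∃ B : LinearMap.BilinForm (ZMod 2) (Fin 24 → ZMod 2),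
      B = Matrix.toBilin' (1 : Matrix (Fin 24) (Fin 24) (ZMod 2)) := ⟨_, rfl⟩
  have hB : B.Nondegenerate := by
    rw [hBdef]
    exact (Matrix.nondegenerate_of_det_ne_zero (by simp)).toBilin'
  have hBapp : ∀ x y : Fin 24 → ZMod 2, B x y = ∑ i, x i * y i := by
    intro x y
    rw [hBdef, Matrix.toBilin'_apply']
    simp [dotProduct]
  have hle : C ≤ B.orthogonal C := by
    intro x hx
    rw [LinearMap.BilinForm.mem_orthogonal_iff]
    intro n hn
    rw [hBapp]
    exact horth n hn x hx
  have hfin : Module.finrank (ZMod 2) (B.orthogonal C) = 12 := by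
    rw [LinearMap.BilinForm.finrank_orthogonal hB, hdim]
    simp
  have heq : C = B.orthogonal C := Submodule.eq_of_le_of_finrank_eq hle (by rw [hdim, hfin])
  rw [heq, LinearMap.BilinForm.mem_orthogonal_iff]
  intro n hn
  rw [hBapp]
  have := horth n hn n hn
  simp only [z2_mul_self] at this
  simpa using this

/-- Let C be a self-dual binary code of length 24 with minimum weight at least 8 (a 12-dimensional subspace of the 24-dimensional space over the field with two elements, any two of whose words have dot product zero, with no non-zero word of weight below 8 — an abstract extended binary Golay code). Then C is doubly even: every word of C has weight divisible by 4. -/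
theorem result (C : Submodule (ZMod 2) (Fin 24 → ZMod 2)) (hdim : Module.finrank (ZMod 2) C = 12) (horth : ∀ v ∈ C, ∀ w ∈ C, ∑ i, v i * w i = 0) (hmin : ∀ w ∈ C, w ≠ 0 → 8 ≤ hammingNorm w) : ∀ w ∈ C, 4 ∣ hammingNorm w := by
  classical
  intro w hw
  have h1 : (1 : Fin 24 → ZMod 2) ∈ C := one_mem_of_selfdual C hdim horth
  by_contra h4
  have heven : ∀ x ∈ C, 2 ∣ hammingNorm x := by
    intro x hx
    have h := horth x hx x hx
    simp only [z2_mul_self] at h
    rw [← wt_cast] at h
    exact (ZMod.natCast_eq_zero_iff _ _).mp h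
  have hone : hammingNorm (1 : Fin 24 → ZMod 2) = 24 := by
    simp [hammingNorm]
  have hc10 : ∃ c ∈ C, hammingNorm c = 10 := by
    have hw0 : w ≠ 0 := by
      rintro rfl
      apply h4
      simp
    have h8 := hmin w hw hw0
    have hcomp := wt_add_of_subset w 1 (by intro i _; simp)
    have hw1 : w + 1 ∈ C := C.add_mem hw h1
    have h2 := heven w hw
    rw [hone] at hcomp
    by_cases hz : w + 1 = 0
    · rw [hz] at hcomp
      simp at hcomp
      exact absurd (by rw [hcomp]; norm_num : 4 ∣ hammingNorm w) h4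
    · have h8' := hmin _ hw1 hz
      have : hammingNorm w = 10 ∨ hammingNorm w = 14 := by omega
      rcases this with h | h
      · exact ⟨w, hw, h⟩
      · exact ⟨w + 1, hw1, by omega⟩
  obtain ⟨c, hc, hc10⟩ := hc10
  obtain ⟨S, hSdef⟩ : ∃ S : Finset (Fin 24), S = Finset.univ.filter (fun i => c i ≠ 0) := ⟨_, rfl⟩
  have hS : S.card = 10 := by rw [hSdef]; exact hc10
  have hSmem : ∀ i, i ∈ S ↔ c i = 1 := by
    intro i
    rw [hSdef, Finset.mem_filter]
    rcases z2_cases (c i) with h | h <;> simp [h]
  have hSne : S.Nonempty := by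
    rw [← Finset.card_pos, hS]; norm_num
  obtain ⟨s₀, hs₀⟩ := hSne
  have hc1 : c + 1 ∈ C := C.add_mem hc h1
  have hwc1 : hammingNorm (c + 1) = 14 := by
    have := wt_add_of_subset c 1 (by intro i _; simp)
    rw [hone] at this
    omega
  -- the fibre analysis
  have hfib : ∀ x ∈ C, ∀ y ∈ C, (∀ i ∈ S.erase s₀, x i = y i) → y = x ∨ y = x + (c + 1) := by
    intro x hx y hy hxy
    have hz : y - x ∈ C := C.sub_mem hy hx
    have hz0 : ∀ i ∈ S.erase s₀, (y - x) i = 0 := by
      intro i hi
      rw [Pi.sub_apply, hxy i hi, sub_self]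
    have hdot := horth _ hz c hc
    have hsum : ∑ i, (y - x) i * c i = (y - x) s₀ := by
      rw [Finset.sum_eq_single s₀]
      · rw [(hSmem s₀).mp hs₀, mul_one]
      · intro i _ hi
        by_cases hiS : i ∈ S
        · rw [hz0 i (Finset.mem_erase.mpr ⟨hi, hiS⟩), zero_mul]
        · have : c i = 0 := by
            rcases z2_cases (c i) with h | h
            · exact h
            · exact absurd ((hSmem i).mpr h) hiS
          rw [this, mul_zero]
      · intro h; exact absurd (Finset.mem_univ _) h
    rw [hsum] at hdot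
    have hzS : ∀ i, (y - x) i ≠ 0 → (c + 1) i ≠ 0 := by
      intro i hi
      have hiS : i ∉ S := by
        intro hiS
        by_cases h : i = s₀
        · rw [h] at hi; exact hi hdot
        · exact hi (hz0 i (Finset.mem_erase.mpr ⟨h, hiS⟩))
      have : c i = 0 := by
        rcases z2_cases (c i) with h | h
        · exact h
        · exact absurd ((hSmem i).mpr h) hiS
      simp [this]
    by_cases hzz : y - x = 0
    · left
      exact sub_eq_zero.mp hzz
    · right
      have h8 := hmin _ hz hzz
      have hsum2 := wt_add_of_subset (y - x) (c + 1) hzS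
      have hmem : (y - x) + (c + 1) ∈ C := C.add_mem hz hc1
      by_cases hzz2 : (y - x) + (c + 1) = 0
      · funext i
        have := congrFun hzz2 i
        simp only [Pi.add_apply, Pi.sub_apply, Pi.one_apply, Pi.zero_apply] at this ⊢
        have e : ∀ a b d : ZMod 2, a - b + (d + 1) = 0 → a = b + (d + 1) := by decide
        exact e _ _ _ this
      · have h8' := hmin _ hmem hzz2
        omega
  have hcardC : Fintype.card ↥C = 2 ^ 12 := by
    rw [Module.card_eq_pow_finrank (K := ZMod 2) (V := ↥C), hdim, ZMod.card]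
  let f : ↥C → (↥(S.erase s₀) → ZMod 2) := fun x i => (x : Fin 24 → ZMod 2) i
  have hbound := Finset.card_le_mul_card_image (f := f) Finset.univ 2 (by
    intro a ha
    obtain ⟨x₀, -, rfl⟩ := Finset.mem_image.mp ha
    have hsub : (Finset.univ.filter fun x => f x = f x₀)
        ⊆ {x₀, ⟨(x₀ : Fin 24 → ZMod 2) + (c + 1), C.add_mem x₀.2 hc1⟩} := by
      intro y hy
      rw [Finset.mem_filter] at hy
      have hxy : ∀ i ∈ S.erase s₀, (x₀ : Fin 24 → ZMod 2) i = (y : Fin 24 → ZMod 2) i := by
        intro i hi
        exact (congrFun hy.2 ⟨i, hi⟩).symm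
      rw [Finset.mem_insert, Finset.mem_singleton]
      rcases hfib _ x₀.2 _ y.2 hxy with h | h
      · left; exact Subtype.ext h
      · right; exact Subtype.ext h
    exact (Finset.card_le_card hsub).trans Finset.card_le_two)
  have himg : (Finset.univ.image f).card ≤ 2 ^ 9 := by
    calc (Finset.univ.image f).card ≤ Fintype.card (↥(S.erase s₀) → ZMod 2) := Finset.card_le_univ _
      _ = 2 ^ 9 := by
        rw [Fintype.card_fun, ZMod.card, Fintype.card_coe, Finset.card_erase_of_mem hs₀, hS]
  rw [Finset.card_univ, hcardC] at hbound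
  omega
end Cfsg.Agent.S5621
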