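import Cfsg.Statements.S5622
import Cfsg.Agent.Lib.Helper28.Words
import Cfsg.Agent.Lib.Helper28.Sextet
import Cfsg.Agent.Lib.Helper28.Octad

set_option autoImplicit false
open Cfsg

namespace Cfsg.Agent.S5622

/-- Let C be a self-dual binary code of length 24 with minimum weight at least 8 (a 12-dimensional subspace of the 24-dimensional space over the field with two elements, any two of whose words have dot product zero, with no non-zero word of weight below 8 — an abstract extended binary Golay code). Then the minimum weight of C is exactly 8, and the supports of the words of weight 8 (the octads) form a Steiner system S(5, 8, 24) on the 24 coordinates: every 5 coordinates lie in the support of exactly one word of weight 8. -/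
theorem result (C : Submodule (ZMod 2) (Fin 24 → ZMod 2)) (hdim : Module.finrank (ZMod 2) C = 12) (horth : ∀ v ∈ C, ∀ w ∈ C, ∑ i, v i * w i = 0) (hmin : ∀ w ∈ C, w ≠ 0 → 8 ≤ hammingNorm w) : (∃ w ∈ C, hammingNorm w = 8) ∧ Cfsg.IsSteinerSystem 5 8 (Cfsg.wordsOfWeight (C : Set (Fin 24 → ZMod 2)) 8) := by
  classical
  have hex := fun s hs => Cfsg.Agent.Lib.Helper28.exists_octad C hdim hmin s hs
  constructor
  · obtain ⟨s, -, hs⟩ := (Finset.univ : Finset (Fin 24)).exists_subset_card_eq (n := 5) (by simp)
    obtain ⟨c, hc, h8, -⟩ := hex s hs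
    exact ⟨c, hc, by rw [Cfsg.Agent.Lib.Helper28.hammingNorm_eq_card]; exact h8⟩
  · constructor
    · intro b hb
      exact hb.2
    · intro s hs
      obtain ⟨c, hc, h8, hsub⟩ := hex s hs
      refine ⟨support₂ c, ⟨⟨⟨c, hc, rfl⟩, h8⟩, hsub⟩, ?_⟩
      rintro b ⟨⟨⟨c', hc', rfl⟩, h8'⟩, hsub'⟩
      by_contra hne
      have hne' : c' ≠ c := fun h => hne (by rw [h])
      have h := hmin (c' + c) (C.add_mem hc' hc) (by
        intro h0
        apply hne'
        have : c' - c = 0 := by
          rw [Cfsg.Agent.Lib.Helper28.word_sub_eq_add]; exact h0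
        exact sub_eq_zero.mp this)
      rw [Cfsg.Agent.Lib.Helper28.hammingNorm_eq_card] at h
      have h2 := Cfsg.Agent.Lib.Helper28.card_support₂_add c' c
      have h3 : 5 ≤ (support₂ c' ∩ support₂ c).card := by
        rw [← hs]
        exact Finset.card_le_card (Finset.subset_inter hsub' hsub)
      omega
end Cfsg.Agent.S5622
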