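import Cfsg.Statements.S5624
import Cfsg.Agent.Lib.Helper28.Words
import Cfsg.Agent.Lib.Helper28.Sextet
import Cfsg.Agent.Lib.Helper28.Octad

set_option autoImplicit false
open Cfsg

namespace Cfsg.Agent.S5624

/-- Let C be a self-dual binary code of length 24 with minimum weight at least 8 (a 12-dimensional subspace of the 24-dimensional space over the field with two elements, any two of whose words have dot product zero, with no non-zero word of weight below 8 — an abstract extended binary Golay code). Then C is spanned, as a vector space over the field with two elements, by its words of weight 8. -/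
theorem result (C : Submodule (ZMod 2) (Fin 24 → ZMod 2)) (hdim : Module.finrank (ZMod 2) C = 12) (horth : ∀ v ∈ C, ∀ w ∈ C, ∑ i, v i * w i = 0) (hmin : ∀ w ∈ C, w ≠ 0 → 8 ≤ hammingNorm w) : Submodule.span (ZMod 2) {w : Fin 24 → ZMod 2 | w ∈ C ∧ hammingNorm w = 8} = C := by
  classical
  apply le_antisymm
  · rw [Submodule.span_le]
    intro w hw
    exact hw.1
  · -- strong induction on the weight
    have key : ∀ n : ℕ, ∀ c ∈ C, hammingNorm c ≤ n →
        c ∈ Submodule.span (ZMod 2) {w : Fin 24 → ZMod 2 | w ∈ C ∧ hammingNorm w = 8} := by
      intro n
      induction n with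
      | zero =>
        intro c hc hn
        have h0 : c = 0 := by
          by_contra hne
          have := hmin c hc hne
          omega
        rw [h0]
        exact Submodule.zero_mem _
      | succ n ih =>
        intro c hc hn
        by_cases h0 : c = 0
        · rw [h0]
          exact Submodule.zero_mem _
        · have h8 := hmin c hc h0
          rw [Cfsg.Agent.Lib.Helper28.hammingNorm_eq_card] at h8 hn
          obtain ⟨s, hsub, hs⟩ := (support₂ c).exists_subset_card_eq (n := 5) (by omega)
          obtain ⟨o, ho, ho8, hso⟩ := Cfsg.Agent.Lib.Helper28.exists_octad C hdim hmin s hs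
          have h2 := Cfsg.Agent.Lib.Helper28.card_support₂_add c o
          have h3 : 5 ≤ (support₂ c ∩ support₂ o).card := by
            rw [← hs]
            exact Finset.card_le_card (Finset.subset_inter hsub hso)
          have h4 : hammingNorm (c + o) ≤ n := by
            rw [Cfsg.Agent.Lib.Helper28.hammingNorm_eq_card]
            omega
          have h5 := ih (c + o) (C.add_mem hc ho) h4
          have h6 : o ∈ Submodule.span (ZMod 2) {w : Fin 24 → ZMod 2 | w ∈ C ∧ hammingNorm w = 8} :=
            Submodule.subset_span ⟨ho, by rw [Cfsg.Agent.Lib.Helper28.hammingNorm_eq_card]; exact ho8⟩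
          have h7 : c = (c + o) - o := by abel
          rw [h7]
          exact Submodule.sub_mem _ h5 h6
    intro c hc
    exact key _ c hc (le_refl _)
end Cfsg.Agent.S5624
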