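import Cfsg.Statements.S5625
import Cfsg.Agent.Lib.Helper4.Steiner

set_option autoImplicit false
open Cfsg

namespace Cfsg.Agent.S5625

/-- In any Steiner system S(5, 8, 24) and for any set Y of three points, the blocks meeting Y in exactly 3, 2, 1 and 0 points number 21, 168, 360 and 210 respectively (so there are 759 blocks in all). -/
theorem result (α : Type*) [Fintype α] [DecidableEq α] (hα : Fintype.card α = 24) (B : Set (Finset α)) (hB : Cfsg.IsSteinerSystem 5 8 B) (Y : Finset α) (hY : Y.card = 3) : {b : Finset α | b ∈ B ∧ (b ∩ Y).card = 3}.ncard = 21 ∧ {b : Finset α | b ∈ B ∧ (b ∩ Y).card = 2}.ncard = 168 ∧ {b : Finset α | b ∈ B ∧ (b ∩ Y).card = 1}.ncard = 360 ∧ {b : Finset α | b ∈ B ∧ (b ∩ Y).card = 0}.ncard = 210 := by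
  classical
  have hd := fun T => Cfsg.Agent.Lib.Helper4.Steiner.s5824_deg hα hB T
  have e0 := Cfsg.Agent.Lib.Helper4.Steiner.sum_choose_cnt B ∅ Y (Finset.disjoint_empty_left _) 0 759 4
    (fun T hT => (hd T).1 (by simpa using hT)) (by omega)
  have e1 := Cfsg.Agent.Lib.Helper4.Steiner.sum_choose_cnt B ∅ Y (Finset.disjoint_empty_left _) 1 253 4
    (fun T hT => (hd T).2.1 (by simpa using hT)) (by omega)
  have e2 := Cfsg.Agent.Lib.Helper4.Steiner.sum_choose_cnt B ∅ Y (Finset.disjoint_empty_left _) 2 77 4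
    (fun T hT => (hd T).2.2.1 (by simpa using hT)) (by omega)
  have e3 := Cfsg.Agent.Lib.Helper4.Steiner.sum_choose_cnt B ∅ Y (Finset.disjoint_empty_left _) 3 21 4
    (fun T hT => (hd T).2.2.2.1 (by simpa using hT)) (by omega)
  rw [hY] at e0 e1 e2 e3
  simp [Finset.sum_range_succ, Nat.choose] at e0 e1 e2 e3
  have key : ∀ j : ℕ, {b : Finset α | b ∈ B ∧ (b ∩ Y).card = j}.ncard
      = Cfsg.Agent.Lib.Helper4.Steiner.cnt B ∅ Y j := by
    intro j
    rw [Cfsg.Agent.Lib.Helper4.Steiner.ncard_setOf, Cfsg.Agent.Lib.Helper4.Steiner.cnt]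
    congr 1
    ext d
    simp
  rw [key, key, key, key]
  omega
end Cfsg.Agent.S5625
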