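import Cfsg.Statements.S5627
import Cfsg.Agent.Lib.Helper28.Plane4Arc

set_option autoImplicit false
open Cfsg

namespace Cfsg.Agent.S5627

open Cfsg Finset Cfsg.Agent.Lib.Helper28.Plane4 Cfsg.Agent.Lib.Helper4

set_option linter.unusedSectionVars false

/-- The arcs with `k` points. -/
noncomputable def arcs {α : Type*} [Fintype α] [DecidableEq α] (L : Set (Finset α)) (k : ℕ) :
    Finset (Finset α) :=
  haveI := Classical.decPred (IsArc L)
  (univ.powersetCard k).filter (IsArc L)

/-- The points off a set. -/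
noncomputable def offs {α : Type*} [Fintype α] [DecidableEq α] (L : Set (Finset α))
    (S : Finset α) : Finset α :=
  haveI := Classical.decPred (Off L S)
  univ.filter (Off L S)

section
variable {α : Type*} [Fintype α] [DecidableEq α]

theorem mem_arcs {L : Set (Finset α)} {k : ℕ} {S : Finset α} :
    S ∈ arcs L k ↔ S.card = k ∧ IsArc L S := by
  unfold arcs
  simp

theorem mem_offs {L : Set (Finset α)} {S : Finset α} {z : α} : z ∈ offs L S ↔ Off L S z := by
  unfold offs
  simp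

theorem off_not_mem {L : Set (Finset α)} (hL : IsSteinerSystem 2 5 L) {S : Finset α}
    (h2 : 2 ≤ S.card) {y : α} (hy : Off L S y) : y ∉ S := by
  intro hyS
  obtain ⟨t, ht, hty⟩ : ∃ t ∈ S, t ≠ y := by
    obtain ⟨a, ha, b, hb, hab⟩ := Finset.one_lt_card.1 (by omega : 1 < S.card)
    by_cases c : a = y
    · exact ⟨b, hb, fun e => hab (c.trans e.symm)⟩
    · exact ⟨a, ha, c⟩
  obtain ⟨t1, t2, t3⟩ := ln_spec hL (Ne.symm hty)
  have h6 := hy _ t1 t2
  exact absurd h6 (not_le.2 (Finset.one_lt_card.2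
    ⟨y, mem_inter.2 ⟨t2, hyS⟩, t, mem_inter.2 ⟨t3, ht⟩, Ne.symm hty⟩))

/-- The arcs extending a given arc by one point correspond to the points off it. -/
theorem ext_count {L : Set (Finset α)} (hL : IsSteinerSystem 2 5 L) {S : Finset α}
    (h2 : 2 ≤ S.card) (hS : IsArc L S) :
    ((arcs L (S.card + 1)).filter (fun S' => S ⊆ S')).card = (offs L S).card := by
  have himg : (arcs L (S.card + 1)).filter (fun S' => S ⊆ S')
      = (offs L S).image (fun z => insert z S) := by
    ext S'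
    rw [mem_filter, mem_arcs, mem_image]
    constructor
    · rintro ⟨⟨hc, harc⟩, hsub⟩
      have h1 : (S' \ S).card = 1 := by
        rw [card_sdiff_of_subset hsub, hc]
        omega
      obtain ⟨z, hz⟩ := card_eq_one.1 h1
      have hz' : z ∈ S' ∧ z ∉ S := by
        have h5 : z ∈ S' \ S := by rw [hz]; exact mem_singleton_self z
        exact mem_sdiff.1 h5
      refine ⟨z, ?_, ?_⟩
      · rw [mem_offs]
        intro ℓ hℓ hzℓ
        by_contra hcon
        obtain ⟨a, ha, b, hb, hab⟩ := Finset.one_lt_card.1 (not_le.1 hcon)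
        obtain ⟨ha1, ha2⟩ := mem_inter.1 ha
        obtain ⟨hb1, hb2⟩ := mem_inter.1 hb
        exact no_three harc hℓ ha1 hb1 hzℓ (hsub ha2) (hsub hb2) hz'.1 hab
          (fun e => hz'.2 (e ▸ ha2)) (fun e => hz'.2 (e ▸ hb2))
      · have h5 : S' = (S' \ S) ∪ S := (Finset.sdiff_union_of_subset hsub).symm
        rw [h5, hz]
        rfl
    · rintro ⟨z, hz, rfl⟩
      rw [mem_offs] at hz
      have hzS := off_not_mem hL h2 hz
      exact ⟨⟨card_insert_of_notMem hzS, arc_insert hS hz⟩, subset_insert _ _⟩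
  rw [himg, card_image_of_injOn]
  intro z hz z' hz' e
  have hzS := off_not_mem hL h2 (mem_offs.1 (mem_coe.1 hz))
  have e' : insert z S = insert z' S := e
  have h5 : z ∈ insert z' S := e' ▸ mem_insert_self z S
  rcases mem_insert.1 h5 with h | h
  · exact h
  · exact absurd h hzS

theorem arc_subset {L : Set (Finset α)} {S S' : Finset α} (hS' : IsArc L S') (h : S ⊆ S') :
    IsArc L S :=
  fun ℓ hℓ => (card_le_card (Finset.inter_subset_inter (Finset.Subset.refl ℓ) h)).trans
    (hS' ℓ hℓ)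

theorem sub_count {L : Set (Finset α)} {S' : Finset α} (hS' : IsArc L S') (k : ℕ) :
    ((arcs L k).filter (fun S => S ⊆ S')).card = S'.card.choose k := by
  rw [← card_powersetCard]
  congr 1
  ext S
  rw [mem_filter, mem_arcs, mem_powersetCard]
  constructor
  · rintro ⟨⟨hc, -⟩, hsub⟩
    exact ⟨hsub, hc⟩
  · rintro ⟨hsub, hc⟩
    exact ⟨⟨hc, arc_subset hS' hsub⟩, hsub⟩

theorem dcount {L : Set (Finset α)} (k m c d : ℕ)
    (h1 : ∀ S ∈ arcs L k, ((arcs L m).filter (fun S' => S ⊆ S')).card = c)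
    (h2 : ∀ S' ∈ arcs L m, ((arcs L k).filter (fun S => S ⊆ S')).card = d) :
    (arcs L k).card * c = (arcs L m).card * d := by
  have key := Finset.sum_card_bipartiteAbove_eq_sum_card_bipartiteBelow (s := arcs L k)
    (t := arcs L m) (r := fun S S' => S ⊆ S')
  have e1 : ∀ S ∈ arcs L k, ((arcs L m).bipartiteAbove (fun S S' => S ⊆ S') S).card = c :=
    fun S hS => h1 S hS
  have e2 : ∀ S' ∈ arcs L m, ((arcs L k).bipartiteBelow (fun S S' => S ⊆ S') S').card = d :=
    fun S' hS' => h2 S' hS'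
  rw [Finset.sum_congr rfl e1, Finset.sum_congr rfl e2, sum_const, sum_const, smul_eq_mul,
    smul_eq_mul] at key
  exact key

theorem arcs2 (hα : Fintype.card α = 21) (L : Set (Finset α)) : (arcs L 2).card = 210 := by
  have h : arcs L 2 = (univ : Finset α).powersetCard 2 := by
    ext S
    rw [mem_arcs, mem_powersetCard]
    constructor
    · rintro ⟨hc, -⟩
      exact ⟨subset_univ _, hc⟩
    · rintro ⟨-, hc⟩
      exact ⟨hc, fun ℓ _ => (card_le_card inter_subset_right).trans (le_of_eq hc)⟩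
  rw [h, card_powersetCard, card_univ, hα]
  rfl

theorem offs_two (hα : Fintype.card α = 21) {L : Set (Finset α)}
    (hL : IsSteinerSystem 2 5 L) {P : Finset α} (hP : P.card = 2) : (offs L P).card = 16 := by
  obtain ⟨x, y, hxy, rfl⟩ := card_eq_two.1 hP
  obtain ⟨a1, a2, a3⟩ := ln_spec hL hxy
  have hoffs : offs L {x, y} = univ \ ln L x y := by
    ext z
    rw [mem_offs, mem_sdiff]
    constructor
    · intro hz
      refine ⟨mem_univ _, fun h => ?_⟩
      exact absurd (hz _ a1 h) (not_le.2 (one_lt_card.2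
        ⟨x, mem_inter.2 ⟨a2, by simp⟩, y, mem_inter.2 ⟨a3, by simp⟩, hxy⟩))
    · rintro ⟨-, hz⟩
      intro ℓ hℓ hzℓ
      rw [card_le_one]
      intro a ha b hb
      by_contra hab
      obtain ⟨ha1, ha2⟩ := mem_inter.1 ha
      obtain ⟨hb1, hb2⟩ := mem_inter.1 hb
      rw [mem_insert, mem_singleton] at ha2 hb2
      have hx : x ∈ ℓ ∧ y ∈ ℓ := by
        rcases ha2 with rfl | rfl <;> rcases hb2 with rfl | rfl
        · exact absurd rfl hab
        · exact ⟨ha1, hb1⟩
        · exact ⟨hb1, ha1⟩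
        · exact absurd rfl hab
      exact hz ((ln_eq hL hℓ hxy hx.1 hx.2) ▸ hzℓ)
  rw [hoffs, card_sdiff_of_subset (subset_univ _), card_univ, hα, hL.1 _ a1]

theorem offs_three (hα : Fintype.card α = 21) {L : Set (Finset α)}
    (hL : IsSteinerSystem 2 5 L) {T : Finset α} (hT3 : T.card = 3) (hT : IsArc L T) :
    (offs L T).card = 9 := by
  obtain ⟨p1, p2, p3, h12, h13, h23, rfl⟩ := card_eq_three.1 hT3
  obtain ⟨a1, a2, a3⟩ := ln_spec hL h12
  obtain ⟨b1, b2, b3⟩ := ln_spec hL h13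
  obtain ⟨c1, c2, c3⟩ := ln_spec hL h23
  have m1 : p1 ∈ ({p1, p2, p3} : Finset α) := by simp
  have m2 : p2 ∈ ({p1, p2, p3} : Finset α) := by simp
  have m3 : p3 ∈ ({p1, p2, p3} : Finset α) := by simp
  have n3 : p3 ∉ ln L p1 p2 := fun h => no_three hT a1 a2 a3 h m1 m2 m3 h12 h13 h23
  have n2 : p2 ∉ ln L p1 p3 :=
    fun h => no_three hT b1 b2 b3 h m1 m3 m2 h13 h12 (Ne.symm h23)
  have hoffs : offs L {p1, p2, p3} = univ \ (ln L p1 p2 ∪ ln L p1 p3 ∪ ln L p2 p3) := by
    ext z
    rw [mem_offs, mem_sdiff, mem_union, mem_union]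
    constructor
    · intro hz
      refine ⟨mem_univ _, ?_⟩
      rintro ((h | h) | h)
      · exact absurd (hz _ a1 h) (not_le.2 (one_lt_card.2
          ⟨p1, mem_inter.2 ⟨a2, m1⟩, p2, mem_inter.2 ⟨a3, m2⟩, h12⟩))
      · exact absurd (hz _ b1 h) (not_le.2 (one_lt_card.2
          ⟨p1, mem_inter.2 ⟨b2, m1⟩, p3, mem_inter.2 ⟨b3, m3⟩, h13⟩))
      · exact absurd (hz _ c1 h) (not_le.2 (one_lt_card.2
          ⟨p2, mem_inter.2 ⟨c2, m2⟩, p3, mem_inter.2 ⟨c3, m3⟩, h23⟩))
    · rintro ⟨-, hz⟩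
      push Not at hz
      intro ℓ hℓ hzℓ
      rw [card_le_one]
      intro a ha b hb
      by_contra hab
      rcases two_of_three ha hb hab with ⟨x1, x2⟩ | ⟨x1, x3⟩ | ⟨x2, x3⟩
      · exact hz.1.1 ((ln_eq hL hℓ h12 x1 x2) ▸ hzℓ)
      · exact hz.1.2 ((ln_eq hL hℓ h13 x1 x3) ▸ hzℓ)
      · exact hz.2 ((ln_eq hL hℓ h23 x2 x3) ▸ hzℓ)
  have i12 : ln L p1 p2 ∩ ln L p1 p3 = {p1} := by
    ext z
    rw [mem_inter, mem_singleton]
    constructor
    · rintro ⟨h, h'⟩
      by_contra hne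
      have e := line_unique hL a1 b1 hne h a2 h' b2
      exact n3 (e ▸ b3)
    · rintro rfl
      exact ⟨a2, b2⟩
  have hu1 : (ln L p1 p2 ∪ ln L p1 p3).card = 9 := by
    have h5 := card_union_add_card_inter (ln L p1 p2) (ln L p1 p3)
    rw [i12, card_singleton, hL.1 _ a1, hL.1 _ b1] at h5
    omega
  have i3 : (ln L p1 p2 ∪ ln L p1 p3) ∩ ln L p2 p3 = {p2, p3} := by
    ext z
    rw [mem_inter, mem_union, mem_insert, mem_singleton]
    constructor
    · rintro ⟨h | h, h'⟩
      · left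
        by_contra hne
        have e := line_unique hL a1 c1 hne h a3 h' c2
        exact n3 (e ▸ c3)
      · right
        by_contra hne
        have e := line_unique hL b1 c1 hne h b3 h' c3
        exact n2 (e ▸ c2)
    · rintro (rfl | rfl)
      · exact ⟨Or.inl a3, c2⟩
      · exact ⟨Or.inr b3, c3⟩
  have hu2 : (ln L p1 p2 ∪ ln L p1 p3 ∪ ln L p2 p3).card = 12 := by
    have h5 := card_union_add_card_inter (ln L p1 p2 ∪ ln L p1 p3) (ln L p2 p3)
    rw [i3, card_pair h23, hu1, hL.1 _ c1] at h5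
    omega
  rw [hoffs, card_sdiff_of_subset (subset_univ _), card_univ, hα, hu2]

end

/-- In a projective plane of order 4 (a Steiner system S(2, 5, 21)), call a set of points independent when no line meets it in more than two points. There are exactly 2520 independent 4-sets and exactly 168 independent 6-sets (hyperovals), and every independent 4-set lies in exactly one hyperoval. -/
theorem result {α : Type*} [Fintype α] [DecidableEq α] (hα : Fintype.card α = 21) (L : Set (Finset α)) (hL : Cfsg.IsSteinerSystem 2 5 L) : {S : Finset α | (S.card = 4 ∧ ∀ l ∈ L, (l ∩ S).card ≤ 2)}.ncard = 2520 ∧ {H : Finset α | (H.card = 6 ∧ ∀ l ∈ L, (l ∩ H).card ≤ 2)}.ncard = 168 ∧ ∀ S : Finset α, (S.card = 4 ∧ ∀ l ∈ L, (l ∩ S).card ≤ 2) → ∃! H : Finset α, (H.card = 6 ∧ ∀ l ∈ L, (l ∩ H).card ≤ 2) ∧ S ⊆ H := by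
  classical
  have c2 : (arcs L 2).card = 210 := arcs2 hα L
  have c3 : (arcs L 2).card * 16 = (arcs L 3).card * 3 := by
    apply dcount 2 3 16 3
    · intro S hS
      obtain ⟨hc, harc⟩ := mem_arcs.1 hS
      have h5 := ext_count hL (le_of_eq hc.symm) harc
      rw [hc] at h5
      rw [h5, offs_two hα hL hc]
    · intro S' hS'
      obtain ⟨hc, harc⟩ := mem_arcs.1 hS'
      rw [sub_count harc 2, hc]
      rfl
  have c4 : (arcs L 3).card * 9 = (arcs L 4).card * 4 := by
    apply dcount 3 4 9 4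
    · intro S hS
      obtain ⟨hc, harc⟩ := mem_arcs.1 hS
      have h5 := ext_count hL (by omega) harc
      rw [hc] at h5
      rw [h5, offs_three hα hL hc harc]
    · intro S' hS'
      obtain ⟨hc, harc⟩ := mem_arcs.1 hS'
      rw [sub_count harc 3, hc]
      rfl
  have c6 : (arcs L 4).card * 1 = (arcs L 6).card * 15 := by
    apply dcount 4 6 1 15
    · intro S hS
      obtain ⟨hc, harc⟩ := mem_arcs.1 hS
      obtain ⟨K, ⟨hK, hSK⟩, huniq⟩ := arc4_hyp hα hL hc harc
      rw [card_eq_one]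
      refine ⟨K, ?_⟩
      ext K'
      rw [mem_filter, mem_arcs, mem_singleton]
      constructor
      · rintro ⟨hK', hsub⟩
        exact huniq K' ⟨hK', hsub⟩
      · rintro rfl
        exact ⟨hK, hSK⟩
    · intro S' hS'
      obtain ⟨hc, harc⟩ := mem_arcs.1 hS'
      rw [sub_count harc 4, hc]
      rfl
  have e4 : (arcs L 4).card = 2520 := by omega
  have e6 : (arcs L 6).card = 168 := by omega
  refine ⟨?_, ?_, ?_⟩
  · rw [← e4, ← Set.ncard_coe_finset]
    congr 1
    ext S
    rw [Finset.mem_coe, mem_arcs]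
    rfl
  · rw [← e6, ← Set.ncard_coe_finset]
    congr 1
    ext S
    rw [Finset.mem_coe, mem_arcs]
    rfl
  · intro S hS
    exact arc4_hyp hα hL hS.1 hS.2
end Cfsg.Agent.S5627
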