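import Cfsg.Statements.S5632
import Cfsg.Agent.Lib.Helper28.Transv

set_option autoImplicit false
open Cfsg

namespace Cfsg.Agent.S5632

/-- For a finite field F and subspaces 0 < W < U of F^n with dim W + dim U = n, the elements of SL_n(F) stabilising both W and U form a subgroup that is not maximal in SL_n(F): some subgroup lies strictly between it and SL_n(F). -/
theorem result {F : Type*} [Field F] [Fintype F] (n : ℕ) (W U : Submodule F (Fin n → F)) (hW0 : W ≠ ⊥) (hWU : W < U) (hdim : Module.finrank F W + Module.finrank F U = n) : ∃ K : Subgroup (Matrix.GeneralLinearGroup (Fin n) F), Cfsg.Geo.subspaceStabilizer W ⊓ Cfsg.Geo.subspaceStabilizer U ⊓ Cfsg.Geo.specialLinear (Fin n) F < K ∧ K < Cfsg.Geo.specialLinear (Fin n) F := by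
  classical
  have hW1 : W ≠ ⊤ := by
    rintro rfl
    exact (lt_irrefl _ (lt_of_lt_of_le hWU le_top))
  have hU1 : U ≠ ⊤ := by
    rintro rfl
    rw [finrank_top, Module.finrank_fin_fun] at hdim
    have h0 : Module.finrank F W = 0 := by omega
    exact hW0 (Submodule.finrank_eq_zero.mp h0)
  obtain ⟨u, huU, huW⟩ := SetLike.exists_of_lt hWU
  obtain ⟨a, ha⟩ : ∃ a, a ∉ U := by
    by_contra hcon
    push Not at hcon
    exact hU1 ((Submodule.eq_top_iff').mpr hcon)
  have h : u ∉ W ⊔ Submodule.span F {a} := by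
    intro hmem
    rw [Submodule.mem_sup] at hmem
    obtain ⟨w, hw, b, hb, hwb⟩ := hmem
    rw [Submodule.mem_span_singleton] at hb
    obtain ⟨c, rfl⟩ := hb
    by_cases hc : c = 0
    · subst hc
      rw [zero_smul, add_zero] at hwb
      rw [← hwb] at huW
      exact huW hw
    · apply ha
      have h1 : c • a ∈ U := by
        have : c • a = u - w := by rw [← hwb]; abel
        rw [this]
        exact U.sub_mem huU (hWU.le hw)
      have : a = c⁻¹ • (c • a) := by rw [smul_smul, inv_mul_cancel₀ hc, one_smul]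
      rw [this]
      exact U.smul_mem _ h1
  obtain ⟨g, hg1, hg2, hg3⟩ := Cfsg.Agent.Lib.Helper28.exists_sl_stab_not_stab W U u a huU ha h
  obtain ⟨g', hg'1, hg'2⟩ := Cfsg.Agent.Lib.Helper28.exists_sl_not_stab W hW0 hW1
  refine ⟨Cfsg.Geo.subspaceStabilizer W ⊓ Cfsg.Geo.specialLinear (Fin n) F, ?_, ?_⟩
  · refine lt_of_le_of_ne ?_ ?_
    · intro x hx
      exact ⟨hx.1.1, hx.2⟩
    · intro heq
      have : g ∈ Cfsg.Geo.subspaceStabilizer W ⊓ Cfsg.Geo.subspaceStabilizer U ⊓ Cfsg.Geo.specialLinear (Fin n) F := by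
        rw [heq]; exact ⟨hg2, hg1⟩
      exact hg3 this.1.2
  · refine lt_of_le_of_ne inf_le_right ?_
    intro heq
    have : g' ∈ Cfsg.Geo.subspaceStabilizer W ⊓ Cfsg.Geo.specialLinear (Fin n) F := by
      rw [heq]; exact hg'1
    exact hg'2 this.1
end Cfsg.Agent.S5632
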