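import Cfsg.Statements.S5633
import Cfsg.Agent.Lib.Helper28.Transv

set_option autoImplicit false
open Cfsg

namespace Cfsg.Agent.S5633

/-- For a finite field F and complementary non-zero subspaces W ⊕ U = F^n with dim W < dim U, the elements of SL_n(F) stabilising both W and U form a subgroup that is not maximal in SL_n(F): some subgroup lies strictly between it and SL_n(F). -/
theorem result {F : Type*} [Field F] [Fintype F] (n : ℕ) (W U : Submodule F (Fin n → F)) (hW0 : W ≠ ⊥) (hWU : W ⊓ U = ⊥) (hWU' : W ⊔ U = ⊤) (hdim : Module.finrank F W < Module.finrank F U) : ∃ K : Subgroup (Matrix.GeneralLinearGroup (Fin n) F), Cfsg.Geo.subspaceStabilizer W ⊓ Cfsg.Geo.subspaceStabilizer U ⊓ Cfsg.Geo.specialLinear (Fin n) F < K ∧ K < Cfsg.Geo.specialLinear (Fin n) F := by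
  classical
  have hU0 : U ≠ ⊥ := by
    rintro rfl
    rw [finrank_bot] at hdim
    omega
  have hW1 : W ≠ ⊤ := by
    rintro rfl
    rw [top_inf_eq] at hWU
    exact hU0 hWU
  obtain ⟨u, huU, hu0⟩ := Submodule.exists_mem_ne_zero_of_ne_bot hU0
  obtain ⟨a, haW, ha0⟩ := Submodule.exists_mem_ne_zero_of_ne_bot hW0
  have ha : a ∉ U := by
    intro haU
    have : a ∈ W ⊓ U := ⟨haW, haU⟩
    rw [hWU, Submodule.mem_bot] at this
    exact ha0 this
  have h : u ∉ W ⊔ Submodule.span F {a} := by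
    intro hmem
    have hle : W ⊔ Submodule.span F {a} ≤ W :=
      sup_le le_rfl ((Submodule.span_singleton_le_iff_mem a W).mpr haW)
    have : u ∈ W ⊓ U := ⟨hle hmem, huU⟩
    rw [hWU, Submodule.mem_bot] at this
    exact hu0 this
  obtain ⟨g, hg1, hg2, hg3⟩ := Cfsg.Agent.Lib.Helper28.exists_sl_stab_not_stab W U u a huU ha h
  obtain ⟨g', hg'1, hg'2⟩ := Cfsg.Agent.Lib.Helper28.exists_sl_not_stab W hW0 hW1
  refine ⟨Cfsg.Geo.subspaceStabilizer W ⊓ Cfsg.Geo.specialLinear (Fin n) F, ?_, ?_⟩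
  · refine lt_of_le_of_ne ?_ ?_
    · intro x hx
      exact ⟨hx.1.1, hx.2⟩
    · intro heq
      have : g ∈ Cfsg.Geo.subspaceStabilizer W ⊓ Cfsg.Geo.subspaceStabilizer U ⊓ Cfsg.Geo.specialLinear (Fin n) F := by
        rw [heq]; exact ⟨hg2, hg1⟩
      exact hg3 this.1.2
  · refine lt_of_le_of_ne inf_le_right ?_
    intro heq
    have : g' ∈ Cfsg.Geo.subspaceStabilizer W ⊓ Cfsg.Geo.specialLinear (Fin n) F := by
      rw [heq]; exact hg'1
    exact hg'2 this.1
end Cfsg.Agent.S5633
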