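import Cfsg.Statements.S5638

set_option autoImplicit false
open Cfsg

namespace Cfsg.Agent.S5638

open scoped Matrix Kronecker

/-- The matrix of order three. -/
def om (F : Type*) [Field F] : Matrix (Fin 2) (Fin 2) F := !![0, 1; 1, 1]

theorem conj_om {F : Type*} [Field F] (hF : ∀ x : F, x = 0 ∨ x = 1) (h2 : (1 : F) + 1 = 0)
    (a : Matrix (Fin 2) (Fin 2) F)
    (ha : a.det ≠ 0) : a * om F = om F * a ∨ a * om F = (om F + 1) * a := by
  have e : a = !![a 0 0, a 0 1; a 1 0, a 1 1] := by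
    ext i j; fin_cases i <;> fin_cases j <;> rfl
  rw [e] at ha ⊢
  rw [Matrix.det_fin_two_of] at ha
  have h3 : (1 : Matrix (Fin 2) (Fin 2) F) = !![1, 0; 0, 1] := by
    ext i j; fin_cases i <;> fin_cases j <;> rfl
  unfold om
  rw [h3]
  simp only [Matrix.mul_fin_two, Matrix.of_add_of, Matrix.empty_add_empty, Matrix.add_cons]
  rcases hF (a 0 0) with h00 | h00 <;> rcases hF (a 0 1) with h01 | h01 <;>
    rcases hF (a 1 0) with h10 | h10 <;> rcases hF (a 1 1) with h11 | h11 <;>
    simp only [h00, h01, h10, h11] at ha ⊢ <;>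
    first
    | (exfalso; simp at ha; done)
    | (left; simp [h2]; done)
    | (right; simp [h2]; done)

theorem add_self_mat {F : Type*} [Field F] (h2 : (1 : F) + 1 = 0) {m n : Type*}
    (M : Matrix m n F) : M + M = 0 := by
  ext i j
  have : M i j + M i j = M i j * (1 + 1) := by ring
  rw [Matrix.add_apply, this, h2, mul_zero, Matrix.zero_apply]

/-- The big matrix of order three. -/
def Om (n₂ : ℕ) (F : Type*) [Field F] : Matrix (Fin 2 × Fin n₂) (Fin 2 × Fin n₂) F :=
  om F ⊗ₖ (1 : Matrix (Fin n₂) (Fin n₂) F)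

theorem val_inv_mul {ι : Type*} [Fintype ι] [DecidableEq ι] {F : Type*} [Field F]
    (g : Matrix.GeneralLinearGroup ι F) :
    ((g⁻¹ : Matrix.GeneralLinearGroup ι F) : Matrix ι ι F) * (g : Matrix ι ι F) = 1 := by
  rw [← Units.val_mul, inv_mul_cancel, Units.val_one]

theorem val_mul_inv {ι : Type*} [Fintype ι] [DecidableEq ι] {F : Type*} [Field F]
    (g : Matrix.GeneralLinearGroup ι F) :
    (g : Matrix ι ι F) * ((g⁻¹ : Matrix.GeneralLinearGroup ι F) : Matrix ι ι F) = 1 := by
  rw [← Units.val_mul, mul_inv_cancel, Units.val_one]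

/-- The elements normalising the group generated by the big matrix of order three. -/
def K0 (n₂ : ℕ) (F : Type*) [Field F] (h2 : (1 : F) + 1 = 0) :
    Subgroup (Matrix.GeneralLinearGroup (Fin 2 × Fin n₂) F) where
  carrier := {g | (g : Matrix (Fin 2 × Fin n₂) (Fin 2 × Fin n₂) F) * Om n₂ F = Om n₂ F * g ∨
    (g : Matrix (Fin 2 × Fin n₂) (Fin 2 × Fin n₂) F) * Om n₂ F = (Om n₂ F + 1) * g}
  mul_mem' {g h} hg hh := by
    simp only [Set.mem_ofPred_eq] at hg hh ⊢
    rw [Units.val_mul]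
    rcases hg with hg | hg <;> rcases hh with hh | hh
    · left
      rw [mul_assoc, hh, ← mul_assoc, hg, mul_assoc]
    · right
      calc (g : Matrix (Fin 2 × Fin n₂) (Fin 2 × Fin n₂) F) * h * Om n₂ F
          = (g : Matrix (Fin 2 × Fin n₂) (Fin 2 × Fin n₂) F) * ((Om n₂ F + 1) * h) := by
            rw [mul_assoc, hh]
        _ = ((g : Matrix (Fin 2 × Fin n₂) (Fin 2 × Fin n₂) F) * Om n₂ F) * h + g * h := by
            rw [add_mul, one_mul, mul_add, mul_assoc]
        _ = (Om n₂ F * g) * h + g * h := by rw [hg]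
        _ = (Om n₂ F + 1) * (g * h) := by rw [add_mul, one_mul, mul_assoc]
    · right
      rw [mul_assoc, hh, ← mul_assoc, hg, mul_assoc]
    · left
      calc (g : Matrix (Fin 2 × Fin n₂) (Fin 2 × Fin n₂) F) * h * Om n₂ F
          = (g : Matrix (Fin 2 × Fin n₂) (Fin 2 × Fin n₂) F) * ((Om n₂ F + 1) * h) := by
            rw [mul_assoc, hh]
        _ = ((g : Matrix (Fin 2 × Fin n₂) (Fin 2 × Fin n₂) F) * Om n₂ F) * h + g * h := by
            rw [add_mul, one_mul, mul_add, mul_assoc]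
        _ = ((Om n₂ F + 1) * g) * h + g * h := by rw [hg]
        _ = Om n₂ F * (g * h) + ((g : Matrix (Fin 2 × Fin n₂) (Fin 2 × Fin n₂) F) * h + g * h) := by
            rw [add_mul, one_mul, add_mul, mul_assoc, add_assoc]
        _ = Om n₂ F * (g * h) := by rw [add_self_mat h2, add_zero]
  one_mem' := by
    left
    rw [Units.val_one, one_mul, mul_one]
  inv_mem' {g} hg := by
    simp only [Set.mem_ofPred_eq] at hg ⊢
    have e1 := val_inv_mul g
    have e2 := val_mul_inv g
    set gi : Matrix (Fin 2 × Fin n₂) (Fin 2 × Fin n₂) F :=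
      ((g⁻¹ : Matrix.GeneralLinearGroup (Fin 2 × Fin n₂) F) : Matrix (Fin 2 × Fin n₂) (Fin 2 × Fin n₂) F)
      with hgi
    rcases hg with hg | hg
    · left
      calc gi * Om n₂ F = gi * Om n₂ F * ((g : Matrix (Fin 2 × Fin n₂) (Fin 2 × Fin n₂) F) * gi) := by
            rw [e2, mul_one]
        _ = gi * (Om n₂ F * (g : Matrix (Fin 2 × Fin n₂) (Fin 2 × Fin n₂) F)) * gi := by
            simp only [mul_assoc]
        _ = gi * ((g : Matrix (Fin 2 × Fin n₂) (Fin 2 × Fin n₂) F) * Om n₂ F) * gi := by rw [hg]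
        _ = (gi * (g : Matrix (Fin 2 × Fin n₂) (Fin 2 × Fin n₂) F)) * Om n₂ F * gi := by
            simp only [mul_assoc]
        _ = Om n₂ F * gi := by rw [e1, one_mul]
    · right
      have h1 : gi * (Om n₂ F + 1) = Om n₂ F * gi := by
        calc gi * (Om n₂ F + 1)
            = gi * (Om n₂ F + 1) * ((g : Matrix (Fin 2 × Fin n₂) (Fin 2 × Fin n₂) F) * gi) := by
              rw [e2, mul_one]
          _ = gi * ((Om n₂ F + 1) * (g : Matrix (Fin 2 × Fin n₂) (Fin 2 × Fin n₂) F)) * gi := by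
              simp only [mul_assoc]
          _ = gi * ((g : Matrix (Fin 2 × Fin n₂) (Fin 2 × Fin n₂) F) * Om n₂ F) * gi := by rw [hg]
          _ = (gi * (g : Matrix (Fin 2 × Fin n₂) (Fin 2 × Fin n₂) F)) * Om n₂ F * gi := by
              simp only [mul_assoc]
          _ = Om n₂ F * gi := by rw [e1, one_mul]
      rw [mul_add, mul_one] at h1
      calc gi * Om n₂ F = gi * Om n₂ F + (gi + gi) := by rw [add_self_mat h2, add_zero]
        _ = (gi * Om n₂ F + gi) + gi := by rw [add_assoc]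
        _ = Om n₂ F * gi + gi := by rw [h1]
        _ = (Om n₂ F + 1) * gi := by rw [add_mul, one_mul]

theorem mem_K0 {n₂ : ℕ} {F : Type*} [Field F] (h2 : (1 : F) + 1 = 0)
    (g : Matrix.GeneralLinearGroup (Fin 2 × Fin n₂) F) :
    g ∈ K0 n₂ F h2 ↔ ((g : Matrix (Fin 2 × Fin n₂) (Fin 2 × Fin n₂) F) * Om n₂ F = Om n₂ F * g ∨
    (g : Matrix (Fin 2 × Fin n₂) (Fin 2 × Fin n₂) F) * Om n₂ F = (Om n₂ F + 1) * g) := Iff.rfl

theorem kron_le_K0 {n₂ : ℕ} {F : Type*} [Field F] (hF : ∀ x : F, x = 0 ∨ x = 1)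
    (h2 : (1 : F) + 1 = 0) : Cfsg.Geo.kroneckerSubgroup 2 n₂ F ≤ K0 n₂ F h2 := by
  rintro g ⟨a, b, hg⟩
  rw [mem_K0, hg]
  unfold Om
  have ha : (a : Matrix (Fin 2) (Fin 2) F).det ≠ 0 := by
    have := Matrix.GeneralLinearGroup.det a
    exact (Matrix.GeneralLinearGroup.det a).ne_zero
  rcases conj_om hF h2 (a : Matrix (Fin 2) (Fin 2) F) ha with h | h
  · left
    rw [← Matrix.mul_kronecker_mul, ← Matrix.mul_kronecker_mul, h, mul_one, one_mul]
  · right
    have e : om F ⊗ₖ (1 : Matrix (Fin n₂) (Fin n₂) F) + 1 = (om F + 1) ⊗ₖ (1 : Matrix (Fin n₂) (Fin n₂) F) := by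
      rw [Matrix.add_kronecker, Matrix.one_kronecker_one]
    rw [e, ← Matrix.mul_kronecker_mul, ← Matrix.mul_kronecker_mul, h, mul_one, one_mul]

theorem one_add_mul_self {F : Type*} [Field F] (h2 : (1 : F) + 1 = 0) {m : Type*} [Fintype m]
    [DecidableEq m] (X : Matrix m m F) (hXX : X * X = 0) : (1 + X) * (1 + X) = 1 := by
  have h : (1 + X) * (1 + X) = 1 + (X + X) + X * X := by
    rw [mul_add, mul_one, add_mul, one_mul]; abel
  rw [h, add_self_mat h2, hXX, add_zero, add_zero]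

/-- Over the field with 2 elements, for n = 2 n₂ ≥ 13, the stabiliser in SL_n of a tensor decomposition with factors of dimensions 2 and n₂ (the conjugate by any P of the Kronecker-product subgroup transported along any bijection Fin n ≃ Fin 2 × Fin n₂, intersected with SL_n) is not a maximal subgroup: some subgroup lies strictly between it and SL_n. -/
theorem result {F : Type*} [Field F] [Fintype F] (n : ℕ) (hn : 13 ≤ n) (hq : Fintype.card F = 2) (n₂ : ℕ) (e : Fin n ≃ Fin 2 × Fin n₂) (P : Matrix.GeneralLinearGroup (Fin n) F) : ∃ K : Subgroup (Matrix.GeneralLinearGroup (Fin n) F), Cfsg.Geo.tensorProductSubgroup 2 n₂ e P ⊓ Cfsg.Geo.specialLinear (Fin n) F < K ∧ K < Cfsg.Geo.specialLinear (Fin n) F := by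
  classical
  have hF : ∀ x : F, x = 0 ∨ x = 1 := by
    intro x
    by_contra hx
    push Not at hx
    have h1 : ({0, 1, x} : Finset F).card ≤ Fintype.card F := Finset.card_le_univ _
    rw [hq] at h1
    have h3 : ({0, 1, x} : Finset F).card = 3 := by
      rw [Finset.card_insert_of_notMem, Finset.card_insert_of_notMem, Finset.card_singleton]
      · rw [Finset.mem_singleton]; exact fun h => hx.2 h.symm
      · rw [Finset.mem_insert, Finset.mem_singleton]
        push Not
        exact ⟨zero_ne_one, fun h => hx.1 h.symm⟩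
    omega
  have h2 : (1 : F) + 1 = 0 := by
    rcases hF (1 + 1) with h | h
    · exact h
    · exfalso
      have : (1 : F) = 0 := by linear_combination h
      exact one_ne_zero this
  have hSL : ∀ g : Matrix.GeneralLinearGroup (Fin n) F, g ∈ Cfsg.Geo.specialLinear (Fin n) F := by
    intro g
    unfold Cfsg.Geo.specialLinear
    rw [MonoidHom.mem_ker]
    apply Units.ext
    rcases hF ((Matrix.GeneralLinearGroup.det g : Fˣ) : F) with h | h
    · exact absurd h (Units.ne_zero _)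
    · rw [h]; rfl
  have hn2 : 2 ≤ n₂ := by
    have h := Fintype.card_congr e
    simp only [Fintype.card_fin, Fintype.card_prod] at h
    omega
  let i0 : Fin n₂ := ⟨0, by omega⟩
  let i1 : Fin n₂ := ⟨1, by omega⟩
  have hi01 : i0 ≠ i1 := by
    intro h
    have := congrArg Fin.val h
    simp [i0, i1] at this
  -- the first witness
  let X : Matrix (Fin 2 × Fin n₂) (Fin 2 × Fin n₂) F := om F ⊗ₖ Matrix.single i0 i1 (1 : F)
  have hXX : X * X = 0 := by
    change (om F ⊗ₖ Matrix.single i0 i1 (1 : F)) * (om F ⊗ₖ Matrix.single i0 i1 (1 : F)) = 0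
    rw [← Matrix.mul_kronecker_mul, Matrix.single_mul_single_of_ne _ _ _ _ hi01.symm,
      Matrix.kronecker_zero]
  have hG0 : (1 + X) * (1 + X) = 1 := one_add_mul_self h2 X hXX
  let g0 : Matrix.GeneralLinearGroup (Fin 2 × Fin n₂) F := ⟨1 + X, 1 + X, hG0, hG0⟩
  have hg0K : g0 ∈ K0 n₂ F h2 := by
    rw [mem_K0]
    left
    change (1 + X) * Om n₂ F = Om n₂ F * (1 + X)
    rw [add_mul, mul_add, one_mul, mul_one]
    congr 1
    change (om F ⊗ₖ Matrix.single i0 i1 (1 : F)) * (om F ⊗ₖ (1 : Matrix (Fin n₂) (Fin n₂) F))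
      = (om F ⊗ₖ (1 : Matrix (Fin n₂) (Fin n₂) F)) * (om F ⊗ₖ Matrix.single i0 i1 (1 : F))
    rw [← Matrix.mul_kronecker_mul, ← Matrix.mul_kronecker_mul, mul_one, one_mul]
  have hg0T : g0 ∉ Cfsg.Geo.kroneckerSubgroup 2 n₂ F := by
    rintro ⟨a, b, hab⟩
    change (1 + X : Matrix (Fin 2 × Fin n₂) (Fin 2 × Fin n₂) F) = _ at hab
    have e1 := congrFun (congrFun hab (0, i0)) (0, i0)
    have e2 := congrFun (congrFun hab (0, i0)) (1, i1)
    have e3 := congrFun (congrFun hab (0, i0)) (0, i1)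
    simp only [X, om, Matrix.add_apply, Matrix.one_apply, Matrix.kroneckerMap_apply,
      Matrix.single_apply] at e1 e2 e3
    simp [hi01] at e1 e2 e3
    rcases e3 with e3 | e3
    · rw [e3] at e1; simp at e1
    · rw [e3] at e2; simp at e2
  -- the second witness
  let S : Matrix (Fin 2 × Fin n₂) (Fin 2 × Fin n₂) F :=
    Matrix.single ((0 : Fin 2), i0) ((1 : Fin 2), i0) (1 : F)
  have hSS : S * S = 0 := by
    change Matrix.single ((0 : Fin 2), i0) ((1 : Fin 2), i0) (1 : F) *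
      Matrix.single ((0 : Fin 2), i0) ((1 : Fin 2), i0) (1 : F) = 0
    rw [Matrix.single_mul_single_of_ne]
    simp
  have hH0 : (1 + S) * (1 + S) = 1 := one_add_mul_self h2 S hSS
  let h0 : Matrix.GeneralLinearGroup (Fin 2 × Fin n₂) F := ⟨1 + S, 1 + S, hH0, hH0⟩
  have hh0K : h0 ∉ K0 n₂ F h2 := by
    rw [mem_K0]
    change ¬ ((1 + S) * Om n₂ F = Om n₂ F * (1 + S) ∨ (1 + S) * Om n₂ F = (Om n₂ F + 1) * (1 + S))
    rintro (h | h)
    · have e1 := congrFun (congrFun h (0, i0)) (0, i0)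
      simp [S, Om, om, Matrix.add_mul, Matrix.mul_add, Matrix.kroneckerMap_apply] at e1
    · have e1 := congrFun (congrFun h (0, i1)) (0, i1)
      simp [S, Om, om, Matrix.add_mul, Matrix.mul_add, Matrix.kroneckerMap_apply,
        hi01, hi01.symm] at e1
  -- transport
  set r : Matrix.GeneralLinearGroup (Fin 2 × Fin n₂) F ≃* Matrix.GeneralLinearGroup (Fin n) F :=
    Cfsg.Geo.glReindex e.symm with hr
  set c : Matrix.GeneralLinearGroup (Fin n) F ≃* Matrix.GeneralLinearGroup (Fin n) F :=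
    MulAut.conj P with hc
  have hT : Cfsg.Geo.tensorProductSubgroup 2 n₂ e P
      = ((Cfsg.Geo.kroneckerSubgroup 2 n₂ F).map r.toMonoidHom).map c.toMonoidHom := rfl
  rw [hT]
  refine ⟨((K0 n₂ F h2).map r.toMonoidHom).map c.toMonoidHom ⊓ Cfsg.Geo.specialLinear (Fin n) F,
    ?_, ?_⟩
  · refine lt_of_le_of_ne ?_ ?_
    · exact inf_le_inf_right _ (Subgroup.map_mono (Subgroup.map_mono (kron_le_K0 hF h2)))
    · intro heq
      have hx : c (r g0) ∈ ((K0 n₂ F h2).map r.toMonoidHom).map c.toMonoidHom ⊓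
          Cfsg.Geo.specialLinear (Fin n) F :=
        ⟨Subgroup.mem_map_of_mem _ (Subgroup.mem_map_of_mem _ hg0K), hSL _⟩
      rw [← heq] at hx
      obtain ⟨y, ⟨z, hz, rfl⟩, hy⟩ := hx.1
      have : z = g0 := r.injective (c.injective hy)
      rw [this] at hz
      exact hg0T hz
  · refine lt_of_le_of_ne inf_le_right ?_
    intro heq
    have hx : c (r h0) ∈ ((K0 n₂ F h2).map r.toMonoidHom).map c.toMonoidHom ⊓
        Cfsg.Geo.specialLinear (Fin n) F := by
      rw [heq]; exact hSL _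
    obtain ⟨y, ⟨z, hz, rfl⟩, hy⟩ := hx.1
    have : z = h0 := r.injective (c.injective hy)
    rw [this] at hz
    exact hh0K hz
end Cfsg.Agent.S5638
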