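import Mathlib
import Cfsg.Statements.S5645
import Cfsg.Agent.S0765
import Cfsg.Agent.S0768

set_option autoImplicit false
open Cfsg

namespace Cfsg.Agent.S5645

open Matrix

section core

variable {F : Type*} [Field F] (m : ℕ)

/-- The inclusion of the symplectic group of matrices into the general linear group. -/
noncomputable def incl :
    Matrix.symplecticGroup (Fin m) F →* Matrix.GeneralLinearGroup (Fin m ⊕ Fin m) F :=
  (Matrix.symplecticGroup (Fin m) F).subtype.toHomUnits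

theorem incl_coe (A : Matrix.symplecticGroup (Fin m) F) :
    ((incl m A : Matrix.GeneralLinearGroup (Fin m ⊕ Fin m) F) :
      Matrix (Fin m ⊕ Fin m) (Fin m ⊕ Fin m) F) = A := rfl

/-- Symplectic transvections as elements of the general linear group. -/
noncomputable def tv (u : Fin m ⊕ Fin m → F) (c : F) :
    Matrix.GeneralLinearGroup (Fin m ⊕ Fin m) F :=
  incl m ⟨sympTransvection m u c, Cfsg.Agent.S0764.result m u c⟩

theorem tv_coe (u : Fin m ⊕ Fin m → F) (c : F) :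
    ((tv m u c : Matrix.GeneralLinearGroup (Fin m ⊕ Fin m) F) :
      Matrix (Fin m ⊕ Fin m) (Fin m ⊕ Fin m) F) = sympTransvection m u c := rfl

theorem tv_mulVec (u x : Fin m ⊕ Fin m → F) (c : F) :
    ((tv m u c : Matrix.GeneralLinearGroup (Fin m ⊕ Fin m) F) :
      Matrix (Fin m ⊕ Fin m) (Fin m ⊕ Fin m) F) *ᵥ x = x + (c * sympForm m F x u) • u := by
  rw [tv_coe]
  exact Cfsg.Agent.S0766.tv_mulVec m u x c

theorem form_smul_right (x y : Fin m ⊕ Fin m → F) (a : F) :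
    sympForm m F x (a • y) = a * sympForm m F x y := by
  rw [← Cfsg.Agent.S0768.BJ_apply, ← Cfsg.Agent.S0768.BJ_apply, map_smul, smul_eq_mul]

theorem form_smul_left (x y : Fin m ⊕ Fin m → F) (a : F) :
    sympForm m F (a • x) y = a * sympForm m F x y := by
  rw [← Cfsg.Agent.S0768.BJ_apply, ← Cfsg.Agent.S0768.BJ_apply, map_smul, LinearMap.smul_apply,
    smul_eq_mul]

theorem form_zero_right (x : Fin m ⊕ Fin m → F) : sympForm m F x 0 = 0 := by
  rw [← Cfsg.Agent.S0768.BJ_apply, map_zero]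

theorem form_zero_left (x : Fin m ⊕ Fin m → F) : sympForm m F 0 x = 0 := by
  rw [← Cfsg.Agent.S0768.BJ_apply, map_zero, LinearMap.zero_apply]

theorem form_sub_left (x y z : Fin m ⊕ Fin m → F) :
    sympForm m F (x - y) z = sympForm m F x z - sympForm m F y z := by
  rw [← Cfsg.Agent.S0768.BJ_apply, ← Cfsg.Agent.S0768.BJ_apply, ← Cfsg.Agent.S0768.BJ_apply,
    map_sub, LinearMap.sub_apply]

theorem form_neg_right (x y : Fin m ⊕ Fin m → F) :
    sympForm m F x (-y) = - sympForm m F x y := by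
  rw [← Cfsg.Agent.S0768.BJ_apply, ← Cfsg.Agent.S0768.BJ_apply, map_neg]

theorem incl_mem (A : Matrix.symplecticGroup (Fin m) F) : incl m A ∈ spGL m F := by
  intro u v
  exact Cfsg.Agent.S0766.form_pres m A u v

theorem tv_mem (u : Fin m ⊕ Fin m → F) (c : F) : tv m u c ∈ spGL m F := incl_mem m _

theorem mem_spGL_iff (g : Matrix.GeneralLinearGroup (Fin m ⊕ Fin m) F) :
    g ∈ spGL m F ↔ ∀ u v, sympForm m F ((g : Matrix (Fin m ⊕ Fin m) (Fin m ⊕ Fin m) F) *ᵥ u)
      ((g : Matrix (Fin m ⊕ Fin m) (Fin m ⊕ Fin m) F) *ᵥ v) = sympForm m F u v := Iff.rfl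

theorem mat_ext_of_mulVec (A B : Matrix (Fin m ⊕ Fin m) (Fin m ⊕ Fin m) F)
    (h : ∀ x, A *ᵥ x = B *ᵥ x) : A = B := by
  apply Matrix.toLin'.injective
  apply LinearMap.ext
  intro x
  rw [Matrix.toLin'_apply, Matrix.toLin'_apply]
  exact h x

theorem gl_ext_of_mulVec (g h : Matrix.GeneralLinearGroup (Fin m ⊕ Fin m) F)
    (hh : ∀ x, (g : Matrix (Fin m ⊕ Fin m) (Fin m ⊕ Fin m) F) *ᵥ x
      = (h : Matrix (Fin m ⊕ Fin m) (Fin m ⊕ Fin m) F) *ᵥ x) : g = h :=
  Units.ext (mat_ext_of_mulVec m _ _ hh)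

theorem mem_symp_of_mem_spGL (g : Matrix.GeneralLinearGroup (Fin m ⊕ Fin m) F)
    (hg : g ∈ spGL m F) :
    (g : Matrix (Fin m ⊕ Fin m) (Fin m ⊕ Fin m) F) ∈ Matrix.symplecticGroup (Fin m) F := by
  rw [SymplecticGroup.mem_iff']
  set A : Matrix (Fin m ⊕ Fin m) (Fin m ⊕ Fin m) F := (g : Matrix (Fin m ⊕ Fin m) (Fin m ⊕ Fin m) F)
    with hA
  have h : ∀ u v, sympForm m F (A *ᵥ u) (A *ᵥ v) = sympForm m F u v := hg
  have e : ∀ (x z : Fin m ⊕ Fin m → F), (A *ᵥ x) ⬝ᵥ z = x ⬝ᵥ (Aᵀ *ᵥ z) := by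
    intro x z
    rw [dotProduct_comm, Matrix.dotProduct_mulVec, ← Matrix.mulVec_transpose, dotProduct_comm]
  ext i j
  have h1 := h (Pi.single i 1) (Pi.single j 1)
  unfold sympForm at h1
  rw [e, Matrix.mulVec_mulVec, Matrix.mulVec_mulVec] at h1
  simpa using h1

theorem eq_spGL_of_tv_mem (M : Subgroup (Matrix.GeneralLinearGroup (Fin m ⊕ Fin m) F))
    (hM : M ≤ spGL m F) (h : ∀ u c, tv m u c ∈ M) : M = spGL m F := by
  apply le_antisymm hM
  intro g hg
  set A : Matrix.symplecticGroup (Fin m) F := ⟨g, mem_symp_of_mem_spGL m g hg⟩ with hA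
  have hgA : g = incl m A := Units.ext rfl
  have hAc : A ∈ Subgroup.closure {A : Matrix.symplecticGroup (Fin m) F |
      ∃ (w : Fin m ⊕ Fin m → F) (c : F),
        (A : Matrix (Fin m ⊕ Fin m) (Fin m ⊕ Fin m) F) = Cfsg.sympTransvection m w c} := by
    rw [Cfsg.Agent.S0765.result]
    trivial
  have hle : Subgroup.closure {A : Matrix.symplecticGroup (Fin m) F |
      ∃ (w : Fin m ⊕ Fin m → F) (c : F),
        (A : Matrix (Fin m ⊕ Fin m) (Fin m ⊕ Fin m) F) = Cfsg.sympTransvection m w c}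
      ≤ M.comap (incl m) := by
    rw [Subgroup.closure_le]
    rintro B ⟨w, c, hB⟩
    change incl m B ∈ M
    have : incl m B = tv m w c := Units.ext hB
    rw [this]
    exact h w c
  rw [hgA]
  exact hle hAc

/-- Conjugating a transvection by an isometry. -/
theorem conj_tv (h : Matrix.GeneralLinearGroup (Fin m ⊕ Fin m) F) (hh : h ∈ spGL m F)
    (u : Fin m ⊕ Fin m → F) (c : F) :
    h * tv m u c * h⁻¹ = tv m ((h : Matrix (Fin m ⊕ Fin m) (Fin m ⊕ Fin m) F) *ᵥ u) c := by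
  rw [mul_inv_eq_iff_eq_mul]
  apply gl_ext_of_mulVec
  intro x
  rw [Units.val_mul, Units.val_mul, ← Matrix.mulVec_mulVec, ← Matrix.mulVec_mulVec, tv_mulVec,
    tv_mulVec, Matrix.mulVec_add, Matrix.mulVec_smul, (mem_spGL_iff m h).mp hh x u]

/-- The set of centres of transvections all of whose multiples lie in `M`. -/
def Sset (M : Subgroup (Matrix.GeneralLinearGroup (Fin m ⊕ Fin m) F)) :
    Set (Fin m ⊕ Fin m → F) := {u | ∀ c, tv m u c ∈ M}

theorem Sset_gl (M : Subgroup (Matrix.GeneralLinearGroup (Fin m ⊕ Fin m) F))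
    (hM : M ≤ spGL m F) (h : Matrix.GeneralLinearGroup (Fin m ⊕ Fin m) F) (hh : h ∈ M)
    (u : Fin m ⊕ Fin m → F) (hu : u ∈ Sset m M) :
    (h : Matrix (Fin m ⊕ Fin m) (Fin m ⊕ Fin m) F) *ᵥ u ∈ Sset m M := by
  intro c
  rw [← conj_tv m h (hM hh) u c]
  exact M.mul_mem (M.mul_mem hh (hu c)) (M.inv_mem hh)

theorem Sset_tv (M : Subgroup (Matrix.GeneralLinearGroup (Fin m ⊕ Fin m) F))
    (hM : M ≤ spGL m F) (u v : Fin m ⊕ Fin m → F) (hu : u ∈ Sset m M) (hv : v ∈ Sset m M)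
    (c : F) : v + (c * sympForm m F v u) • u ∈ Sset m M := by
  have := Sset_gl m M hM (tv m u c) (hu c) v hv
  rwa [tv_mulVec] at this

theorem tv_smul (u : Fin m ⊕ Fin m → F) (a c : F) : tv m (a • u) c = tv m u (a * a * c) := by
  apply gl_ext_of_mulVec
  intro x
  rw [tv_mulVec, tv_mulVec, form_smul_right, smul_smul]
  congr 2
  ring

theorem Sset_smul (M : Subgroup (Matrix.GeneralLinearGroup (Fin m ⊕ Fin m) F))
    (u : Fin m ⊕ Fin m → F) (hu : u ∈ Sset m M) (a : F) : a • u ∈ Sset m M := by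
  intro c
  rw [tv_smul]
  exact hu _

theorem mem_stab_of_forall (W : Submodule F (Fin m ⊕ Fin m → F))
    (g : Matrix.GeneralLinearGroup (Fin m ⊕ Fin m) F)
    (h : ∀ w ∈ W, (g : Matrix (Fin m ⊕ Fin m) (Fin m ⊕ Fin m) F) *ᵥ w ∈ W) :
    g ∈ Geo.subspaceStabilizer W := by
  intro v
  refine ⟨fun hv => h v hv, fun hv => ?_⟩
  change (g : Matrix (Fin m ⊕ Fin m) (Fin m ⊕ Fin m) F) *ᵥ v ∈ W at hv
  have hinj : Function.Injective
      (fun x : Fin m ⊕ Fin m → F => (g : Matrix (Fin m ⊕ Fin m) (Fin m ⊕ Fin m) F) *ᵥ x) := by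
    intro x y hxy
    have := congrArg (fun z => ((g⁻¹ : Matrix.GeneralLinearGroup (Fin m ⊕ Fin m) F) :
      Matrix (Fin m ⊕ Fin m) (Fin m ⊕ Fin m) F) *ᵥ z) hxy
    simpa [Matrix.mulVec_mulVec, ← Units.val_mul] using this
  let f : W →ₗ[F] W := (Matrix.toLin' (g : Matrix (Fin m ⊕ Fin m) (Fin m ⊕ Fin m) F)).restrict
    (fun w hw => by rw [Matrix.toLin'_apply]; exact h w hw)
  have hf : Function.Injective f := by
    intro x y hxy
    apply Subtype.ext
    apply hinj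
    have := congrArg Subtype.val hxy
    simpa [f, LinearMap.restrict_apply, Matrix.toLin'_apply] using this
  obtain ⟨w, hw⟩ := (LinearMap.injective_iff_surjective.mp hf) ⟨_, hv⟩
  have h2 : (g : Matrix (Fin m ⊕ Fin m) (Fin m ⊕ Fin m) F) *ᵥ (w : Fin m ⊕ Fin m → F)
      = (g : Matrix (Fin m ⊕ Fin m) (Fin m ⊕ Fin m) F) *ᵥ v := by
    have := congrArg Subtype.val hw
    simpa [f, LinearMap.restrict_apply, Matrix.toLin'_apply] using this
  rw [← hinj h2]
  exact w.2

theorem siegel_mulVec (u v x : Fin m ⊕ Fin m → F) (huv : sympForm m F u v = 0) :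
    ((tv m (u + v) 1 * tv m u (-1) * tv m v (-1) : Matrix.GeneralLinearGroup (Fin m ⊕ Fin m) F) :
      Matrix (Fin m ⊕ Fin m) (Fin m ⊕ Fin m) F) *ᵥ x
      = x + sympForm m F x u • v + sympForm m F x v • u := by
  have hvu : sympForm m F v u = 0 := by
    rw [Cfsg.Agent.S0766.form_swap, huv, neg_zero]
  rw [Units.val_mul, Units.val_mul, ← Matrix.mulVec_mulVec, ← Matrix.mulVec_mulVec, tv_mulVec,
    tv_mulVec, tv_mulVec]
  simp only [Cfsg.Agent.S0766.form_add_left, Cfsg.Agent.S0766.form_add_right, form_smul_left,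
    Cfsg.Agent.S0766.form_self, huv, hvu]
  module

theorem siegel_mem (u v : Fin m ⊕ Fin m → F) :
    tv m (u + v) 1 * tv m u (-1) * tv m v (-1) ∈ spGL m F :=
  (spGL m F).mul_mem ((spGL m F).mul_mem (tv_mem m _ _) (tv_mem m _ _)) (tv_mem m _ _)

end core

/-- For a finite field F and m ≥ 7, in the symplectic group Sp_2m(F) of the standard alternating form on F^(2m) (as a subgroup of GL_2m(F)), the stabiliser of any non-zero subspace on which the form vanishes identically is a maximal subgroup. -/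
theorem result {F : Type*} [Field F] [Fintype F] (m : ℕ) (hm : 7 ≤ m) (W : Submodule F (Fin m ⊕ Fin m → F)) (hW0 : W ≠ ⊥) (hW : Cfsg.Geo.IsTotallySingularFor (Cfsg.sympForm m F) W) : Cfsg.Geo.IsMaximalIn (Cfsg.spGL m F) (Cfsg.Geo.subspaceStabilizer W ⊓ Cfsg.spGL m F) := by
  classical
  refine ⟨lt_of_le_of_ne inf_le_right ?_, ?_⟩
  · intro heq
    obtain ⟨w, hwW, hw0⟩ := (Submodule.ne_bot_iff W).mp hW0
    obtain ⟨v, hv⟩ := Cfsg.Agent.S0766.form_nondeg m w hw0
    have hvW : v ∉ W := fun hvW => hv (hW w hwW v hvW)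
    have ht : tv m v 1 ∈ Geo.subspaceStabilizer W ⊓ spGL m F := by
      rw [heq]
      exact tv_mem m v 1
    have h1 := (ht.1 w).mp hwW
    change ((tv m v 1 : Matrix.GeneralLinearGroup (Fin m ⊕ Fin m) F) :
      Matrix (Fin m ⊕ Fin m) (Fin m ⊕ Fin m) F) *ᵥ w ∈ W at h1
    rw [tv_mulVec, one_mul] at h1
    have h2 : sympForm m F w v • v ∈ W := by
      have := W.sub_mem h1 hwW
      rwa [add_sub_cancel_left] at this
    exact hvW ((W.smul_mem_iff hv).mp h2)
  · intro M hHM hMK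
    by_cases hMH : M = Geo.subspaceStabilizer W ⊓ spGL m F
    · left
      exact hMH
    right
    obtain ⟨g, hgM, hgH⟩ : ∃ g ∈ M, g ∉ Geo.subspaceStabilizer W ⊓ spGL m F := by
      by_contra hcon
      push Not at hcon
      exact hMH (le_antisymm hcon hHM)
    apply eq_spGL_of_tv_mem m M hMK
    have hperp : ∀ u, (∀ w ∈ W, sympForm m F w u = 0) → u ∈ Sset m M := by
      intro u hu c
      apply hHM
      refine ⟨mem_stab_of_forall m W _ ?_, tv_mem m u c⟩
      intro w hw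
      rw [tv_mulVec, hu w hw, mul_zero, zero_smul, add_zero]
      exact hw
    have hgK := hMK hgM
    have hginv : g⁻¹ ∉ Geo.subspaceStabilizer W := fun h =>
      hgH ⟨by simpa using (Geo.subspaceStabilizer W).inv_mem h, hgK⟩
    obtain ⟨w, hwW, hgw⟩ : ∃ w ∈ W, ((g⁻¹ : Matrix.GeneralLinearGroup (Fin m ⊕ Fin m) F) :
        Matrix (Fin m ⊕ Fin m) (Fin m ⊕ Fin m) F) *ᵥ w ∉ W := by
      by_contra hcon
      push Not at hcon
      exact hginv (mem_stab_of_forall m W _ hcon)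
    obtain ⟨x, hxperp, hx⟩ : ∃ x, (∀ w ∈ W, sympForm m F w x = 0) ∧
        sympForm m F x (((g⁻¹ : Matrix.GeneralLinearGroup (Fin m ⊕ Fin m) F) :
        Matrix (Fin m ⊕ Fin m) (Fin m ⊕ Fin m) F) *ᵥ w) ≠ 0 := by
      by_contra hcon
      push Not at hcon
      apply hgw
      have := LinearMap.BilinForm.orthogonal_orthogonal (Cfsg.Agent.S0768.BJ_nondeg (F := F) m)
        (Cfsg.Agent.S0768.BJ_alt (F := F) m).isRefl W
      rw [← this]
      intro x hx
      exact (Cfsg.Agent.S0768.BJ_apply m _ _).trans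
        (hcon x (fun w hw => (Cfsg.Agent.S0768.BJ_apply m _ _).symm.trans (hx w hw)))
    have hv₀S : (g : Matrix (Fin m ⊕ Fin m) (Fin m ⊕ Fin m) F) *ᵥ x ∈ Sset m M :=
      Sset_gl m M hMK g hgM x (hperp x hxperp)
    have hv₀w : sympForm m F ((g : Matrix (Fin m ⊕ Fin m) (Fin m ⊕ Fin m) F) *ᵥ x) w ≠ 0 := by
      have : w = (g : Matrix (Fin m ⊕ Fin m) (Fin m ⊕ Fin m) F) *ᵥ
          (((g⁻¹ : Matrix.GeneralLinearGroup (Fin m ⊕ Fin m) F) :
          Matrix (Fin m ⊕ Fin m) (Fin m ⊕ Fin m) F) *ᵥ w) := by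
        simp [Matrix.mulVec_mulVec, ← Units.val_mul]
      rw [this, (mem_spGL_iff m g).mp hgK]
      exact hx
    obtain ⟨v₀, hv₀⟩ : ∃ v₀, v₀ = (g : Matrix (Fin m ⊕ Fin m) (Fin m ⊕ Fin m) F) *ᵥ x := ⟨_, rfl⟩
    rw [← hv₀] at hv₀S hv₀w
    intro y c
    suffices hy : y ∈ Sset m M from hy c
    by_cases hyperp : ∀ w ∈ W, sympForm m F w y = 0
    · exact hperp y hyperp
    push Not at hyperp
    obtain ⟨w₁, hw₁W, hw₁⟩ := hyperp
    have hw₁' : sympForm m F y w₁ ≠ 0 := by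
      rw [Cfsg.Agent.S0766.form_swap]
      exact neg_ne_zero.mpr hw₁
    obtain ⟨u, huW, hu1, hu2⟩ : ∃ u ∈ W, sympForm m F v₀ u ≠ 0 ∧ sympForm m F y u ≠ 0 := by
      by_cases h1 : sympForm m F v₀ w₁ = 0
      · by_cases h2 : sympForm m F y w = 0
        · refine ⟨w + w₁, W.add_mem hwW hw₁W, ?_, ?_⟩
          · rw [Cfsg.Agent.S0766.form_add_right, h1, add_zero]
            exact hv₀w
          · rw [Cfsg.Agent.S0766.form_add_right, h2, zero_add]
            exact hw₁'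
        · exact ⟨w, hwW, hv₀w, h2⟩
      · exact ⟨w₁, hw₁W, h1, hw₁'⟩
    obtain ⟨b, hb⟩ : ∃ b, b = sympForm m F v₀ u := ⟨_, rfl⟩
    obtain ⟨b', hb'⟩ : ∃ b', b' = sympForm m F y u := ⟨_, rfl⟩
    rw [← hb] at hu1
    rw [← hb'] at hu2
    obtain ⟨y', hy'⟩ : ∃ y', y' = (b / b') • y := ⟨_, rfl⟩
    have hy'u : sympForm m F y' u = b := by
      rw [hy', form_smul_left, ← hb']
      field_simp
    obtain ⟨v', hv'⟩ : ∃ v', v' = b⁻¹ • (y' - v₀) := ⟨_, rfl⟩
    have huv' : sympForm m F u v' = 0 := by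
      rw [hv', form_smul_right, Cfsg.Agent.S0766.form_sub_right, Cfsg.Agent.S0766.form_swap m u y',
        Cfsg.Agent.S0766.form_swap m u v₀, hy'u, ← hb]
      ring
    have huS : u ∈ Sset m M := hperp u (fun w hw => hW w hw u huW)
    have hE : tv m (u + v') 1 * tv m u (-1) * tv m v' (-1) ∈ M := by
      apply hHM
      refine ⟨mem_stab_of_forall m W _ ?_, siegel_mem m u v'⟩
      intro w hw
      rw [siegel_mulVec m u v' w huv', hW w hw u huW, zero_smul, add_zero]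
      exact W.add_mem hw (W.smul_mem _ huW)
    have h1 := Sset_gl m M hMK _ hE v₀ hv₀S
    rw [siegel_mulVec m u v' v₀ huv', ← hb] at h1
    obtain ⟨a, ha⟩ : ∃ a, a = sympForm m F v₀ v' := ⟨_, rfl⟩
    rw [← ha] at h1
    have h2 := Sset_tv m M hMK u _ huS h1 (-a / b)
    have e1 : sympForm m F (v₀ + b • v' + a • u) u = b := by
      have hv'u : sympForm m F v' u = 0 := by
        rw [Cfsg.Agent.S0766.form_swap, huv', neg_zero]
      rw [Cfsg.Agent.S0766.form_add_left, Cfsg.Agent.S0766.form_add_left, form_smul_left,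
        form_smul_left, Cfsg.Agent.S0766.form_self, mul_zero, add_zero, hv'u, mul_zero, add_zero,
        ← hb]
    have e2 : v₀ + b • v' + a • u + (-a / b * b) • u = y' := by
      have e3 : -a / b * b = -a := by field_simp
      rw [e3, hv', smul_smul, mul_inv_cancel₀ hu1, one_smul]
      module
    rw [e1, e2] at h2
    have h4 := Sset_smul m M y' h2 (b' / b)
    rw [hy', smul_smul] at h4
    have e5 : b' / b * (b / b') = 1 := by field_simp
    rwa [e5, one_smul] at h4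

end Cfsg.Agent.S5645
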