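import Mathlib
import Cfsg.Statements.S5646
import Cfsg.Agent.S5645

set_option autoImplicit false
open Cfsg

namespace Cfsg.Agent.S5646

open Matrix Cfsg.Agent.S5645

section aux

variable {F : Type*} [Field F] (m : ℕ)

theorem gl_inj (g : Matrix.GeneralLinearGroup (Fin m ⊕ Fin m) F) :
    Function.Injective
      (fun x : Fin m ⊕ Fin m → F => (g : Matrix (Fin m ⊕ Fin m) (Fin m ⊕ Fin m) F) *ᵥ x) := by
  intro x y hxy
  have := congrArg (fun z => ((g⁻¹ : Matrix.GeneralLinearGroup (Fin m ⊕ Fin m) F) :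
    Matrix (Fin m ⊕ Fin m) (Fin m ⊕ Fin m) F) *ᵥ z) hxy
  simpa [Matrix.mulVec_mulVec, ← Units.val_mul] using this

theorem gl_inv_mulVec (g : Matrix.GeneralLinearGroup (Fin m ⊕ Fin m) F)
    (x : Fin m ⊕ Fin m → F) :
    (g : Matrix (Fin m ⊕ Fin m) (Fin m ⊕ Fin m) F) *ᵥ
      (((g⁻¹ : Matrix.GeneralLinearGroup (Fin m ⊕ Fin m) F) :
        Matrix (Fin m ⊕ Fin m) (Fin m ⊕ Fin m) F) *ᵥ x) = x := by
  simp [Matrix.mulVec_mulVec, ← Units.val_mul]

/-- One transvection step inside a subspace `P` all of whose vectors are centres of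
transvections of `M`. -/
theorem move_step (M : Subgroup (Matrix.GeneralLinearGroup (Fin m ⊕ Fin m) F))
    (hM : M ≤ spGL m F) (P : Submodule F (Fin m ⊕ Fin m → F))
    (hP : ∀ u ∈ P, u ∈ Sset m M)
    (p q p' : Fin m ⊕ Fin m → F) (hp : p ∈ P) (hq : q ∈ P)
    (hpq : sympForm m F p q ≠ 0)
    (hp' : ∀ z ∈ P, sympForm m F p' z = 0)
    (h : p + p' ∈ Sset m M) : q + p' ∈ Sset m M := by
  have h1 := Sset_tv m M hM (q - p) (p + p') (hP _ (P.sub_mem hq hp)) h (sympForm m F p q)⁻¹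
  have e1 : sympForm m F (p + p') (q - p) = sympForm m F p q := by
    rw [Cfsg.Agent.S0766.form_add_left, hp' _ (P.sub_mem hq hp), add_zero,
      Cfsg.Agent.S0766.form_sub_right, Cfsg.Agent.S0766.form_self, sub_zero]
  rw [e1, inv_mul_cancel₀ hpq, one_smul] at h1
  have e2 : p + p' + (q - p) = q + p' := by abel
  rwa [e2] at h1

theorem move (M : Subgroup (Matrix.GeneralLinearGroup (Fin m ⊕ Fin m) F))
    (hM : M ≤ spGL m F) (P : Submodule F (Fin m ⊕ Fin m → F))
    (hP : ∀ u ∈ P, u ∈ Sset m M)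
    (hnd : ∀ p ∈ P, p ≠ 0 → ∃ z ∈ P, sympForm m F p z ≠ 0)
    (p q p' : Fin m ⊕ Fin m → F) (hp : p ∈ P) (hq : q ∈ P) (hp0 : p ≠ 0) (hq0 : q ≠ 0)
    (hp' : ∀ z ∈ P, sympForm m F p' z = 0)
    (h : p + p' ∈ Sset m M) : q + p' ∈ Sset m M := by
  by_cases hpq : sympForm m F p q = 0
  · obtain ⟨z₁, hz₁P, hz₁⟩ := hnd p hp hp0
    obtain ⟨z₂, hz₂P, hz₂⟩ := hnd q hq hq0
    obtain ⟨z, hzP, hz1, hz2⟩ : ∃ z ∈ P, sympForm m F p z ≠ 0 ∧ sympForm m F q z ≠ 0 := by
      by_cases h1 : sympForm m F q z₁ = 0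
      · by_cases h2 : sympForm m F p z₂ = 0
        · refine ⟨z₁ + z₂, P.add_mem hz₁P hz₂P, ?_, ?_⟩
          · rw [Cfsg.Agent.S0766.form_add_right, h2, add_zero]
            exact hz₁
          · rw [Cfsg.Agent.S0766.form_add_right, h1, zero_add]
            exact hz₂
        · exact ⟨z₂, hz₂P, h2, hz₂⟩
      · exact ⟨z₁, hz₁P, hz₁, h1⟩
    have hz2' : sympForm m F z q ≠ 0 := by
      rw [Cfsg.Agent.S0766.form_swap]
      exact neg_ne_zero.mpr hz2
    exact move_step m M hM P hP z q p' hzP hq hz2' hp'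
      (move_step m M hM P hP p z p' hp hzP hz1 hp' h)
  · exact move_step m M hM P hP p q p' hp hq hpq hp' h

end aux

/-- For a finite field F and m ≥ 7, in the symplectic group Sp_2m(F) of the standard alternating form on F^(2m), the stabiliser of any non-zero subspace W on which the form is non-degenerate and with dim W < m is a maximal subgroup. -/
theorem result {F : Type*} [Field F] [Fintype F] (m : ℕ) (hm : 7 ≤ m) (W : Submodule F (Fin m ⊕ Fin m → F)) (hW0 : W ≠ ⊥) (hW : Cfsg.Geo.IsNondegenerateOn (Cfsg.sympForm m F) W) (hdim : Module.finrank F W < m) : Cfsg.Geo.IsMaximalIn (Cfsg.spGL m F) (Cfsg.Geo.subspaceStabilizer W ⊓ Cfsg.spGL m F) := by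
  classical
  obtain ⟨W', hW'def⟩ : ∃ W' : Submodule F (Fin m ⊕ Fin m → F),
      W' = (Cfsg.Agent.S0768.BJ (F := F) m).orthogonal W := ⟨_, rfl⟩
  have hW'mem : ∀ x, x ∈ W' ↔ ∀ w ∈ W, sympForm m F w x = 0 := by
    intro x
    rw [hW'def]
    constructor
    · intro hx w hw
      exact (Cfsg.Agent.S0768.BJ_apply m _ _).symm.trans (hx w hw)
    · intro hx w hw
      exact (Cfsg.Agent.S0768.BJ_apply m _ _).trans (hx w hw)
  have hdisj : ∀ x, x ∈ W → x ∈ W' → x = 0 := by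
    intro x hx hx'
    by_contra hx0
    obtain ⟨⟨z, hzW, hz⟩, -⟩ := hW x hx hx0
    exact hz ((hW'mem x).mp hx' z hzW)
  have hcompl : IsCompl W W' := by
    rw [hW'def, LinearMap.BilinForm.isCompl_orthogonal_iff_disjoint
      (Cfsg.Agent.S0768.BJ_alt (F := F) m).isRefl, Submodule.disjoint_def, ← hW'def]
    exact hdisj
  have hdec : ∀ x : Fin m ⊕ Fin m → F, ∃ x₁ ∈ W, ∃ x₂ ∈ W', x₁ + x₂ = x := by
    intro x
    have : x ∈ W ⊔ W' := by
      rw [hcompl.sup_eq_top]
      trivial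
    exact Submodule.mem_sup.mp this
  have hfr : Module.finrank F W < Module.finrank F W' := by
    have h1 := LinearMap.BilinForm.finrank_orthogonal (Cfsg.Agent.S0768.BJ_nondeg (F := F) m) W
    rw [← hW'def] at h1
    have h2 : Module.finrank F (Fin m ⊕ Fin m → F) = m + m := by
      rw [Module.finrank_fintype_fun_eq_card, Fintype.card_sum, Fintype.card_fin]
    omega
  have hswap : ∀ x y : Fin m ⊕ Fin m → F, sympForm m F x y = 0 → sympForm m F y x = 0 := by
    intro x y h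
    rw [Cfsg.Agent.S0766.form_swap, h, neg_zero]
  have hW'nd : ∀ p ∈ W', p ≠ 0 → ∃ z ∈ W', sympForm m F p z ≠ 0 := by
    intro p hp hp0
    obtain ⟨z₀, hz₀⟩ := Cfsg.Agent.S0766.form_nondeg m p hp0
    obtain ⟨z₁, hz₁, z₂, hz₂, rfl⟩ := hdec z₀
    refine ⟨z₂, hz₂, ?_⟩
    rw [Cfsg.Agent.S0766.form_add_right, hswap _ _ ((hW'mem p).mp hp z₁ hz₁), zero_add] at hz₀
    exact hz₀
  have hWnd : ∀ p ∈ W, p ≠ 0 → ∃ z ∈ W, sympForm m F p z ≠ 0 := fun p hp hp0 => (hW p hp hp0).2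
  refine ⟨lt_of_le_of_ne inf_le_right ?_, ?_⟩
  · intro heq
    obtain ⟨w, hwW, hw0⟩ := (Submodule.ne_bot_iff W).mp hW0
    obtain ⟨x, hxW, hx⟩ := hWnd w hwW hw0
    obtain ⟨y, hy⟩ : ∃ y, y ∉ W := by
      by_contra hcon
      push Not at hcon
      have : W = ⊤ := by
        rw [eq_top_iff]
        intro y _
        exact hcon y
      have h2 : Module.finrank F (Fin m ⊕ Fin m → F) = m + m := by
        rw [Module.finrank_fintype_fun_eq_card, Fintype.card_sum, Fintype.card_fin]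
      rw [this, finrank_top] at hdim
      omega
    obtain ⟨v, hvW, hv⟩ : ∃ v, v ∉ W ∧ sympForm m F w v ≠ 0 := by
      by_cases h : sympForm m F w y = 0
      · refine ⟨x + y, fun hxy => hy ?_, ?_⟩
        · have := W.sub_mem hxy hxW
          rwa [add_sub_cancel_left] at this
        · rw [Cfsg.Agent.S0766.form_add_right, h, add_zero]
          exact hx
      · exact ⟨y, hy, h⟩
    have ht : tv m v 1 ∈ Geo.subspaceStabilizer W ⊓ spGL m F := by
      rw [heq]
      exact tv_mem m v 1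
    have h1 := (ht.1 w).mp hwW
    change ((tv m v 1 : Matrix.GeneralLinearGroup (Fin m ⊕ Fin m) F) :
      Matrix (Fin m ⊕ Fin m) (Fin m ⊕ Fin m) F) *ᵥ w ∈ W at h1
    rw [tv_mulVec, one_mul] at h1
    have h2 : sympForm m F w v • v ∈ W := by
      have := W.sub_mem h1 hwW
      rwa [add_sub_cancel_left] at this
    exact hvW ((W.smul_mem_iff hv).mp h2)
  · intro M hHM hMK
    by_cases hMH : M = Geo.subspaceStabilizer W ⊓ spGL m F
    · left
      exact hMH
    right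
    obtain ⟨g, hgM, hgH⟩ : ∃ g ∈ M, g ∉ Geo.subspaceStabilizer W ⊓ spGL m F := by
      by_contra hcon
      push Not at hcon
      exact hMH (le_antisymm hcon hHM)
    apply eq_spGL_of_tv_mem m M hMK
    have hSW : ∀ u ∈ W, u ∈ Sset m M := by
      intro u hu c
      apply hHM
      refine ⟨mem_stab_of_forall m W _ ?_, tv_mem m u c⟩
      intro w hw
      rw [tv_mulVec]
      exact W.add_mem hw (W.smul_mem _ hu)
    have hSW' : ∀ u ∈ W', u ∈ Sset m M := by
      intro u hu c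
      apply hHM
      refine ⟨mem_stab_of_forall m W _ ?_, tv_mem m u c⟩
      intro w hw
      rw [tv_mulVec, (hW'mem u).mp hu w hw, mul_zero, zero_smul, add_zero]
      exact hw
    have hgK := hMK hgM
    have hgS : ∀ x, x ∈ Sset m M →
        (g : Matrix (Fin m ⊕ Fin m) (Fin m ⊕ Fin m) F) *ᵥ x ∈ Sset m M :=
      fun x hx => Sset_gl m M hMK g hgM x hx
    have hgstab : g ∉ Geo.subspaceStabilizer W := fun h => hgH ⟨h, hgK⟩
    obtain ⟨w₀, hw₀W, hgw₀⟩ : ∃ w ∈ W,
        (g : Matrix (Fin m ⊕ Fin m) (Fin m ⊕ Fin m) F) *ᵥ w ∉ W := by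
      by_contra hcon
      push Not at hcon
      exact hgstab (mem_stab_of_forall m W _ hcon)
    -- a vector of `Sset` outside both `W` and `W'`
    obtain ⟨y, hyS, hyW, hyW'⟩ : ∃ y, y ∈ Sset m M ∧ y ∉ W ∧ y ∉ W' := by
      by_contra hcon
      push Not at hcon
      -- `g` maps `W` into `W'`
      have h1 : ∀ w ∈ W, (g : Matrix (Fin m ⊕ Fin m) (Fin m ⊕ Fin m) F) *ᵥ w ∈ W' := by
        intro w₂ hw₂
        by_contra hw₂'
        have ha : (g : Matrix (Fin m ⊕ Fin m) (Fin m ⊕ Fin m) F) *ᵥ w₂ ∈ W := by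
          by_contra hw₂W
          exact hw₂' (hcon _ (hgS _ (hSW _ hw₂)) hw₂W)
        have hb : (g : Matrix (Fin m ⊕ Fin m) (Fin m ⊕ Fin m) F) *ᵥ w₀ ∈ W' :=
          hcon _ (hgS _ (hSW _ hw₀W)) hgw₀
        have hc := hcon _ (hgS _ (hSW _ (W.add_mem hw₀W hw₂)))
        rw [Matrix.mulVec_add] at hc
        apply hw₂'
        have hd := hc (fun h => hgw₀ (by
          have := W.sub_mem h ha
          rwa [add_sub_cancel_right] at this))
        have := W'.sub_mem hd hb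
        rwa [add_sub_cancel_left] at this
      -- some vector of `W'` is not mapped into `W`
      obtain ⟨x₁, hx₁W', hgx₁⟩ : ∃ x ∈ W',
          (g : Matrix (Fin m ⊕ Fin m) (Fin m ⊕ Fin m) F) *ᵥ x ∉ W := by
        by_contra hcon2
        push Not at hcon2
        let f : W' →ₗ[F] W :=
          (Matrix.toLin' (g : Matrix (Fin m ⊕ Fin m) (Fin m ⊕ Fin m) F)).restrict
            (fun w hw => by rw [Matrix.toLin'_apply]; exact hcon2 w hw)
        have hf : Function.Injective f := by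
          intro x y hxy
          apply Subtype.ext
          apply gl_inj m g
          have := congrArg Subtype.val hxy
          simpa [f, LinearMap.restrict_apply, Matrix.toLin'_apply] using this
        have := LinearMap.finrank_le_finrank_of_injective hf
        omega
      have h2 : ∀ x ∈ W', (g : Matrix (Fin m ⊕ Fin m) (Fin m ⊕ Fin m) F) *ᵥ x ∈ W' := by
        intro x₂ hx₂
        by_contra hx₂'
        have ha : (g : Matrix (Fin m ⊕ Fin m) (Fin m ⊕ Fin m) F) *ᵥ x₂ ∈ W := by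
          by_contra hx₂W
          exact hx₂' (hcon _ (hgS _ (hSW' _ hx₂)) hx₂W)
        have hb : (g : Matrix (Fin m ⊕ Fin m) (Fin m ⊕ Fin m) F) *ᵥ x₁ ∈ W' :=
          hcon _ (hgS _ (hSW' _ hx₁W')) hgx₁
        have hc := hcon _ (hgS _ (hSW' _ (W'.add_mem hx₁W' hx₂)))
        rw [Matrix.mulVec_add] at hc
        apply hx₂'
        have hd := hc (fun h => hgx₁ (by
          have := W.sub_mem h ha
          rwa [add_sub_cancel_right] at this))
        have := W'.sub_mem hd hb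
        rwa [add_sub_cancel_left] at this
      have h3 : ∀ x, (g : Matrix (Fin m ⊕ Fin m) (Fin m ⊕ Fin m) F) *ᵥ x ∈ W' := by
        intro x
        obtain ⟨x₁, hx₁, x₂, hx₂, rfl⟩ := hdec x
        rw [Matrix.mulVec_add]
        exact W'.add_mem (h1 x₁ hx₁) (h2 x₂ hx₂)
      obtain ⟨w, hwW, hw0⟩ := (Submodule.ne_bot_iff W).mp hW0
      apply hw0
      apply hdisj w hwW
      have := h3 (((g⁻¹ : Matrix.GeneralLinearGroup (Fin m ⊕ Fin m) F) :
        Matrix (Fin m ⊕ Fin m) (Fin m ⊕ Fin m) F) *ᵥ w)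
      rwa [gl_inv_mulVec] at this
    obtain ⟨y₁, hy₁, y₂, hy₂, rfl⟩ := hdec y
    have hy₁0 : y₁ ≠ 0 := by
      rintro rfl
      rw [zero_add] at hyW'
      exact hyW' hy₂
    have hy₂0 : y₂ ≠ 0 := by
      rintro rfl
      rw [add_zero] at hyW
      exact hyW hy₁
    intro x c
    suffices hx : x ∈ Sset m M from hx c
    obtain ⟨x₁, hx₁, x₂, hx₂, rfl⟩ := hdec x
    by_cases hx₁0 : x₁ = 0
    · rw [hx₁0, zero_add]
      exact hSW' x₂ hx₂
    by_cases hx₂0 : x₂ = 0
    · rw [hx₂0, add_zero]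
      exact hSW x₁ hx₁
    have s1 : x₁ + y₂ ∈ Sset m M :=
      move m M hMK W hSW hWnd y₁ x₁ y₂ hy₁ hx₁ hy₁0 hx₁0
        (fun z hz => hswap _ _ ((hW'mem y₂).mp hy₂ z hz)) hyS
    rw [add_comm] at s1
    have s2 : x₂ + x₁ ∈ Sset m M :=
      move m M hMK W' hSW' hW'nd y₂ x₂ x₁ hy₂ hx₂ hy₂0 hx₂0
        (fun z hz => (hW'mem z).mp hz x₁ hx₁) s1
    rwa [add_comm] at s2

end Cfsg.Agent.S5646
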