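import Mathlib
import Cfsg.Statements.S5652
import Cfsg.Agent.S5645
import Cfsg.Agent.S0750

set_option autoImplicit false
open Cfsg

namespace Cfsg.Agent.S5652

open Matrix Cfsg.Agent.S5645

section aux

variable {F : Type*} [Field F] (m : ℕ) (Q : (Fin m ⊕ Fin m → F) → F)

theorem tv_zero_left (c : F) : tv m (0 : Fin m ⊕ Fin m → F) c = 1 := by
  apply gl_ext_of_mulVec
  intro x
  rw [tv_mulVec, smul_zero, add_zero, Units.val_one, Matrix.one_mulVec]

theorem tv_zero_right (u : Fin m ⊕ Fin m → F) : tv m u (0 : F) = 1 := by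
  apply gl_ext_of_mulVec
  intro x
  rw [tv_mulVec, zero_mul, zero_smul, add_zero, Units.val_one, Matrix.one_mulVec]

/-- Isometries of `Q` lie in the group of the statement. -/
theorem mem_O_of_isom (hadd : ∀ x y, Q (x + y) = Q x + Q y + sympForm m F x y)
    (g : Matrix.GeneralLinearGroup (Fin m ⊕ Fin m) F)
    (hg : ∀ v, Q ((g : Matrix (Fin m ⊕ Fin m) (Fin m ⊕ Fin m) F) *ᵥ v) = Q v) :
    g ∈ Geo.quadSimilarityGroup Q ⊓ spGL m F := by
  refine ⟨⟨1, fun v => by rw [Units.val_one, one_mul]; exact hg v⟩, ?_⟩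
  refine (mem_spGL_iff m g).mpr ?_
  intro u v
  have h1 := hadd u v
  have h2 := hadd ((g : Matrix (Fin m ⊕ Fin m) (Fin m ⊕ Fin m) F) *ᵥ u)
    ((g : Matrix (Fin m ⊕ Fin m) (Fin m ⊕ Fin m) F) *ᵥ v)
  rw [← Matrix.mulVec_add, hg, hg, hg] at h2
  linear_combination h1 - h2

/-- Members of the group of the statement are isometries of `Q`. -/
theorem isom_of_mem_O (hadd : ∀ x y, Q (x + y) = Q x + Q y + sympForm m F x y) (hm : 0 < m)
    (g : Matrix.GeneralLinearGroup (Fin m ⊕ Fin m) F)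
    (hg : g ∈ Geo.quadSimilarityGroup Q ⊓ spGL m F) :
    ∀ v, Q ((g : Matrix (Fin m ⊕ Fin m) (Fin m ⊕ Fin m) F) *ᵥ v) = Q v := by
  obtain ⟨⟨c, hc⟩, hsp⟩ := hg
  have hc1 : (c : F) = 1 := by
    have hu0 : (fun _ => 1 : Fin m ⊕ Fin m → F) ≠ 0 := by
      intro h
      have := congrFun h (Sum.inl ⟨0, hm⟩)
      simp at this
    obtain ⟨v, huv⟩ := Cfsg.Agent.S0766.form_nondeg m _ hu0
    have h1 := hadd (fun _ => 1) v
    have h2 := hadd ((g : Matrix (Fin m ⊕ Fin m) (Fin m ⊕ Fin m) F) *ᵥ (fun _ => 1))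
      ((g : Matrix (Fin m ⊕ Fin m) (Fin m ⊕ Fin m) F) *ᵥ v)
    rw [← Matrix.mulVec_add, hc, hc, hc, (mem_spGL_iff m g).mp hsp] at h2
    have h3 : ((c : F) - 1) * sympForm m F (fun _ => 1) v = 0 := by
      linear_combination h2 - (c : F) * h1
    rcases mul_eq_zero.mp h3 with h | h
    · exact sub_eq_zero.mp h
    · exact absurd h huv
  intro v
  rw [hc, hc1, one_mul]

/-- The transvections of the orthogonal group. -/
theorem tvQ_mem (hadd : ∀ x y, Q (x + y) = Q x + Q y + sympForm m F x y)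
    (hsm : ∀ (c : F) (v : Fin m ⊕ Fin m → F), Q (c • v) = c ^ 2 * Q v) (h2 : (2 : F) = 0)
    (u : Fin m ⊕ Fin m → F) (hu : Q u ≠ 0) :
    tv m u (Q u)⁻¹ ∈ Geo.quadSimilarityGroup Q ⊓ spGL m F := by
  apply mem_O_of_isom m Q hadd
  intro x
  rw [tv_mulVec, hadd, hsm, form_smul_right]
  have hc : (Q u)⁻¹ * Q u = 1 := inv_mul_cancel₀ hu
  linear_combination ((Q u)⁻¹ * sympForm m F x u ^ 2) * hc
    + ((Q u)⁻¹ * sympForm m F x u ^ 2) * h2

/-- Witt: the orthogonal group is transitive on non-zero vectors of a given value of `Q`. -/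
theorem witt_trans (hadd : ∀ x y, Q (x + y) = Q x + Q y + sympForm m F x y)
    (hsm : ∀ (c : F) (v : Fin m ⊕ Fin m → F), Q (c • v) = c ^ 2 * Q v)
    (v v' : Fin m ⊕ Fin m → F) (hv : v ≠ 0) (hv' : v' ≠ 0) (hQ : Q v = Q v') :
    ∃ h ∈ Geo.quadSimilarityGroup Q ⊓ spGL m F,
      (h : Matrix (Fin m ⊕ Fin m) (Fin m ⊕ Fin m) F) *ᵥ v = v' := by
  obtain ⟨i, hi⟩ : ∃ i, v i ≠ 0 := by
    by_contra hcon
    push Not at hcon
    exact hv (funext hcon)
  let f : (Fin m ⊕ Fin m → F) →ₗ[F] (Fin m ⊕ Fin m → F) :=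
    (LinearMap.proj i).smulRight ((v i)⁻¹ • v')
  have hfv : f v = v' := by
    change v i • ((v i)⁻¹ • v') = v'
    rw [smul_smul, mul_inv_cancel₀ hi, one_smul]
  have hiso : ∀ x ∈ Submodule.span F {v}, Q (f x) = Q x := by
    intro x hx
    obtain ⟨a, rfl⟩ := Submodule.mem_span_singleton.mp hx
    rw [map_smul, hfv, hsm, hsm, hQ]
  have hinj : ∀ x ∈ Submodule.span F {v}, f x = 0 → x = 0 := by
    intro x hx h0
    obtain ⟨a, rfl⟩ := Submodule.mem_span_singleton.mp hx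
    rw [map_smul, hfv] at h0
    rcases smul_eq_zero.mp h0 with h | h
    · rw [h, zero_smul]
    · exact absurd h hv'
  obtain ⟨g, hg1, hg2⟩ := Cfsg.Agent.S0750.main Q (Cfsg.Agent.S0768.BJ m)
    (fun x y => by rw [Cfsg.Agent.S0768.BJ_apply]; exact hadd x y)
    (fun c x => by rw [hsm]; ring) (Cfsg.Agent.S0768.BJ_nondeg m) _ (Submodule.span F {v}) f
    le_rfl hiso hinj
  refine ⟨Cfsg.Agent.S0768.toGL m g, mem_O_of_isom m Q hadd _ (fun x => ?_), ?_⟩
  · rw [Cfsg.Agent.S0768.toGL_mulVec]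
    exact hg1 x
  · rw [Cfsg.Agent.S0768.toGL_mulVec, hg2 v (Submodule.mem_span_singleton_self v), hfv]

/-- A non-singular vector orthogonal to two given vectors. -/
theorem exists_perp_nonsing (hadd : ∀ x y, Q (x + y) = Q x + Q y + sympForm m F x y)
    (hm : 3 ≤ m) (a b : Fin m ⊕ Fin m → F) :
    ∃ z, sympForm m F z a = 0 ∧ sympForm m F z b = 0 ∧ Q z ≠ 0 := by
  classical
  by_contra hcon
  push Not at hcon
  obtain ⟨U, hUdef⟩ : ∃ U : Submodule F (Fin m ⊕ Fin m → F),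
      U = (Cfsg.Agent.S0768.BJ (F := F) m).orthogonal (Submodule.span F {a, b}) := ⟨_, rfl⟩
  have hU : ∀ z ∈ U, Q z = 0 := by
    intro z hz
    rw [hUdef] at hz
    have h1 : sympForm m F a z = 0 :=
      (Cfsg.Agent.S0768.BJ_apply m _ _).symm.trans (hz a (Submodule.subset_span (by simp)))
    have h2 : sympForm m F b z = 0 :=
      (Cfsg.Agent.S0768.BJ_apply m _ _).symm.trans (hz b (Submodule.subset_span (by simp)))
    apply hcon z
    · rw [Cfsg.Agent.S0766.form_swap, h1, neg_zero]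
    · rw [Cfsg.Agent.S0766.form_swap, h2, neg_zero]
  have hUU : U ≤ (Cfsg.Agent.S0768.BJ (F := F) m).orthogonal U := by
    intro z hz y hy
    have h := hadd y z
    rw [hU _ (U.add_mem hy hz), hU y hy, hU z hz] at h
    change Cfsg.Agent.S0768.BJ m y z = 0
    rw [Cfsg.Agent.S0768.BJ_apply]
    linear_combination -h
  have h1 := LinearMap.BilinForm.finrank_orthogonal (Cfsg.Agent.S0768.BJ_nondeg (F := F) m)
    (Submodule.span F {a, b})
  rw [← hUdef] at h1
  have h2 := LinearMap.BilinForm.finrank_orthogonal (Cfsg.Agent.S0768.BJ_nondeg (F := F) m) U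
  have h3 := Submodule.finrank_mono hUU
  have h4 : Module.finrank F (Submodule.span F ({a, b} : Set (Fin m ⊕ Fin m → F))) ≤ 2 := by
    have := finrank_span_finset_le_card (R := F) ({a, b} : Finset (Fin m ⊕ Fin m → F))
    rw [Finset.coe_pair] at this
    exact this.trans Finset.card_le_two
  have h5 : Module.finrank F (Fin m ⊕ Fin m → F) = m + m := by
    rw [Module.finrank_fintype_fun_eq_card, Fintype.card_sum, Fintype.card_fin]
  omega

/-- A singular vector not orthogonal to a given non-zero vector. -/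
theorem exists_sing (hadd : ∀ x y, Q (x + y) = Q x + Q y + sympForm m F x y)
    (hsm : ∀ (c : F) (v : Fin m ⊕ Fin m → F), Q (c • v) = c ^ 2 * Q v) (h2 : (2 : F) = 0)
    (hsq : ∀ a : F, ∃ r, r ^ 2 = a) (hm : 3 ≤ m)
    (u : Fin m ⊕ Fin m → F) (hu : u ≠ 0) : ∃ s, Q s = 0 ∧ sympForm m F u s ≠ 0 := by
  obtain ⟨w, hw⟩ := Cfsg.Agent.S0766.form_nondeg m u hu
  obtain ⟨z, hz1, hz2, hz3⟩ := exists_perp_nonsing m Q hadd hm u w
  obtain ⟨ν, hν⟩ := hsq (Q w / Q z)
  refine ⟨w + ν • z, ?_, ?_⟩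
  · rw [hadd, hsm, hν, form_smul_right, Cfsg.Agent.S0766.form_swap m w z, hz2]
    field_simp
    linear_combination (Q w) * h2
  · rw [Cfsg.Agent.S0766.form_add_right, form_smul_right, Cfsg.Agent.S0766.form_swap m u z, hz1,
      neg_zero, mul_zero, add_zero]
    exact hw

/-- Every non-singular vector is the sum of two non-orthogonal singular vectors. -/
theorem exists_dec (hadd : ∀ x y, Q (x + y) = Q x + Q y + sympForm m F x y)
    (hsm : ∀ (c : F) (v : Fin m ⊕ Fin m → F), Q (c • v) = c ^ 2 * Q v) (h2 : (2 : F) = 0)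
    (hsq : ∀ a : F, ∃ r, r ^ 2 = a) (hm : 3 ≤ m) (hQ0 : Q 0 = 0)
    (u : Fin m ⊕ Fin m → F) (hu : Q u ≠ 0) :
    ∃ s₁ s₂, Q s₁ = 0 ∧ Q s₂ = 0 ∧ u = s₁ + s₂ ∧ sympForm m F s₁ s₂ ≠ 0 := by
  have hu0 : u ≠ 0 := by
    rintro rfl
    exact hu hQ0
  obtain ⟨s, hs, hus⟩ := exists_sing m Q hadd hsm h2 hsq hm u hu0
  obtain ⟨a, ha⟩ : ∃ a, a = Q u / sympForm m F u s := ⟨_, rfl⟩
  have hs2 : Q (a • s) = 0 := by rw [hsm, hs, mul_zero]
  have hB : sympForm m F u (a • s) = Q u := by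
    rw [form_smul_right, ha]
    field_simp
  refine ⟨u + a • s, a • s, ?_, hs2, ?_, ?_⟩
  · rw [hadd, hs2, hB]
    linear_combination (Q u) * h2
  · have : a • s + a • s = 0 := by rw [← two_smul F, h2, zero_smul]
    rw [add_assoc, this, add_zero]
  · rw [Cfsg.Agent.S0766.form_add_left, hB, Cfsg.Agent.S0766.form_self, add_zero]
    exact hu

end aux

/-- For a finite field F of characteristic two and m ≥ 7, let Q be a non-degenerate quadratic form on F^(2m) whose polar form is the standard alternating form. Then the elements of Sp_2m(F) that are similarities of Q (they are exactly the isometries of Q) form a maximal subgroup of Sp_2m(F). -/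
theorem result {F : Type*} [Field F] [Fintype F] (m : ℕ) (hm : 7 ≤ m) (heven : ¬ Odd (Fintype.card F)) (Q : (Fin m ⊕ Fin m → F) → F) (hQ : Cfsg.Geo.IsNondegenerateQuadraticForm Q) (hpol : ∀ u v, QuadraticMap.polar Q u v = Cfsg.sympForm m F u v) : Cfsg.Geo.IsMaximalIn (Cfsg.spGL m F) (Cfsg.Geo.quadSimilarityGroup Q ⊓ Cfsg.spGL m F) := by
  classical
  have hadd : ∀ x y, Q (x + y) = Q x + Q y + sympForm m F x y := by
    intro x y
    have := hpol x y
    unfold QuadraticMap.polar at this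
    linear_combination this
  have hsm := hQ.smul
  have hchar : ringChar F = 2 :=
    FiniteField.even_card_iff_char_two.mpr (Nat.even_iff.mp (Nat.not_odd_iff_even.mp heven))
  have h2 : (2 : F) = 0 := by
    have := ringChar.Nat.cast_ringChar (R := F)
    rw [hchar] at this
    exact_mod_cast this
  have hsq : ∀ a : F, ∃ r, r ^ 2 = a := by
    intro a
    obtain ⟨r, hr⟩ := FiniteField.isSquare_of_char_two hchar a
    exact ⟨r, by rw [hr]; ring⟩
  have hQ0 : Q 0 = 0 := by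
    have := hsm 0 0
    rw [zero_smul] at this
    rw [this]
    ring
  have hm3 : 3 ≤ m := by omega
  refine ⟨lt_of_le_of_ne inf_le_right ?_, ?_⟩
  · intro heq
    have hu0 : (fun _ => 1 : Fin m ⊕ Fin m → F) ≠ 0 := by
      intro h
      have := congrFun h (Sum.inl ⟨0, by omega⟩)
      simp at this
    obtain ⟨s, hs, hus⟩ := exists_sing m Q hadd hsm h2 hsq hm3 _ hu0
    have ht : tv m s 1 ∈ Geo.quadSimilarityGroup Q ⊓ spGL m F := by
      rw [heq]
      exact tv_mem m s 1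
    have h := isom_of_mem_O m Q hadd (by omega) _ ht (fun _ => 1)
    rw [tv_mulVec, one_mul, hadd, hsm, hs, mul_zero, add_zero, form_smul_right] at h
    have h' : sympForm m F (fun _ => 1) s * sympForm m F (fun _ => 1) s = 0 := by
      linear_combination h
    exact hus (mul_self_eq_zero.mp h')
  · intro M hOM hMK
    by_cases hMO : M = Geo.quadSimilarityGroup Q ⊓ spGL m F
    · left
      exact hMO
    right
    obtain ⟨g, hgM, hgO⟩ : ∃ g ∈ M, g ∉ Geo.quadSimilarityGroup Q ⊓ spGL m F := by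
      by_contra hcon
      push Not at hcon
      exact hMO (le_antisymm hcon hOM)
    have hgK := hMK hgM
    obtain ⟨x, hx⟩ : ∃ x, Q ((g : Matrix (Fin m ⊕ Fin m) (Fin m ⊕ Fin m) F) *ᵥ x) ≠ Q x := by
      by_contra hcon
      push Not at hcon
      exact hgO (mem_O_of_isom m Q hadd g hcon)
    have hD : ∀ a b, Q ((g : Matrix (Fin m ⊕ Fin m) (Fin m ⊕ Fin m) F) *ᵥ (a + b)) - Q (a + b)
        = (Q ((g : Matrix (Fin m ⊕ Fin m) (Fin m ⊕ Fin m) F) *ᵥ a) - Q a)
          + (Q ((g : Matrix (Fin m ⊕ Fin m) (Fin m ⊕ Fin m) F) *ᵥ b) - Q b) := by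
      intro a b
      rw [Matrix.mulVec_add, hadd, hadd, (mem_spGL_iff m g).mp hgK a b]
      ring
    obtain ⟨s₀, hs₀, hgs₀⟩ : ∃ s₀, Q s₀ = 0 ∧
        Q ((g : Matrix (Fin m ⊕ Fin m) (Fin m ⊕ Fin m) F) *ᵥ s₀) ≠ 0 := by
      by_cases hQx : Q x = 0
      · refine ⟨x, hQx, ?_⟩
        rw [hQx] at hx
        exact hx
      · obtain ⟨s₁, s₂, h1, h2', rfl, -⟩ := exists_dec m Q hadd hsm h2 hsq hm3 hQ0 x hQx
        by_contra hcon
        push Not at hcon
        apply hx
        have := hD s₁ s₂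
        rw [hcon s₁ h1, hcon s₂ h2', h1, h2'] at this
        linear_combination this
    have hs₀0 : s₀ ≠ 0 := by
      rintro rfl
      rw [Matrix.mulVec_zero] at hgs₀
      exact hgs₀ hQ0
    apply eq_spGL_of_tv_mem m M hMK
    have hsing : ∀ s, Q s = 0 → s ∈ Sset m M := by
      intro s hs c
      by_cases hs0 : s = 0
      · rw [hs0, tv_zero_left]
        exact M.one_mem
      by_cases hc : c = 0
      · rw [hc, tv_zero_right]
        exact M.one_mem
      obtain ⟨l, hl⟩ := hsq (1 / (c * Q ((g : Matrix (Fin m ⊕ Fin m) (Fin m ⊕ Fin m) F) *ᵥ s₀)))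
      have hl0 : l ≠ 0 := by
        rintro rfl
        have h0 : (1 : F) / (c * Q ((g : Matrix (Fin m ⊕ Fin m) (Fin m ⊕ Fin m) F) *ᵥ s₀)) ≠ 0 :=
          one_div_ne_zero (mul_ne_zero hc hgs₀)
        apply h0
        rw [← hl]
        ring
      obtain ⟨h, hhO, hhs⟩ := witt_trans m Q hadd hsm s (l • s₀) hs0 (smul_ne_zero hl0 hs₀0)
        (by rw [hs, hsm, hs₀, mul_zero])
      have hk : g * h ∈ M := M.mul_mem hgM (hOM hhO)
      have hks : ((g * h : Matrix.GeneralLinearGroup (Fin m ⊕ Fin m) F) :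
          Matrix (Fin m ⊕ Fin m) (Fin m ⊕ Fin m) F) *ᵥ s
          = l • ((g : Matrix (Fin m ⊕ Fin m) (Fin m ⊕ Fin m) F) *ᵥ s₀) := by
        rw [Units.val_mul, ← Matrix.mulVec_mulVec, hhs, Matrix.mulVec_smul]
      have hQk : Q (((g * h : Matrix.GeneralLinearGroup (Fin m ⊕ Fin m) F) :
          Matrix (Fin m ⊕ Fin m) (Fin m ⊕ Fin m) F) *ᵥ s) = c⁻¹ := by
        rw [hks, hsm, hl]
        field_simp
      have h3 := hOM (tvQ_mem m Q hadd hsm h2 _ (by rw [hQk]; exact inv_ne_zero hc))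
      rw [hQk, inv_inv, ← conj_tv m (g * h) (hMK hk) s c] at h3
      have h4 := M.mul_mem (M.mul_mem (M.inv_mem hk) h3) hk
      have e : (g * h)⁻¹ * (g * h * tv m s c * (g * h)⁻¹) * (g * h) = tv m s c := by group
      rwa [e] at h4
    intro y c
    suffices hy : y ∈ Sset m M from hy c
    by_cases hQy : Q y = 0
    · exact hsing y hQy
    obtain ⟨s₁, s₂, h1, h2', rfl, hB⟩ := exists_dec m Q hadd hsm h2 hsq hm3 hQ0 y hQy
    have := Sset_tv m M hMK s₂ s₁ (hsing s₂ h2') (hsing s₁ h1) (sympForm m F s₁ s₂)⁻¹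
    rwa [inv_mul_cancel₀ hB, one_smul] at this

end Cfsg.Agent.S5652
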