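import Mathlib
import Cfsg.Statements.S5648
import Cfsg.Agent.S5652
import Cfsg.Agent.S5646

set_option autoImplicit false
open Cfsg

namespace Cfsg.Agent.S5648

open Matrix Cfsg.Agent.S5645
open scoped DirectSum

section decomp

variable {F : Type*} [Field F] {ι : Type} {t : ℕ}
  (D : Fin t → Submodule F (ι → F)) (hInt : DirectSum.IsInternal D)

/-- The component of a vector in the `i`-th summand, as an element of the summand. -/
noncomputable def cmpS (i : Fin t) : (ι → F) →ₗ[F] D i :=
  (DirectSum.component F (Fin t) (fun i => D i) i) ∘ₗ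
    ((LinearEquiv.ofBijective (DirectSum.coeLinearMap D) hInt).symm).toLinearMap

/-- The component of a vector in the `i`-th summand. -/
noncomputable def cmp (i : Fin t) : (ι → F) →ₗ[F] (ι → F) :=
  (D i).subtype ∘ₗ cmpS D hInt i

theorem cmp_eq (i : Fin t) (x : ι → F) : cmp D hInt i x = (cmpS D hInt i x : ι → F) := rfl

theorem cmp_mem (i : Fin t) (x : ι → F) : cmp D hInt i x ∈ D i :=
  Submodule.coe_mem _

theorem cmp_of_mem {j : Fin t} {x : ι → F} (hx : x ∈ D j) (i : Fin t) :
    cmp D hInt i x = if i = j then x else 0 := by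
  by_cases h : i = j
  · subst h
    rw [if_pos rfl, cmp_eq]
    have : cmpS D hInt i x = ⟨x, hx⟩ := by
      change (LinearEquiv.ofBijective (DirectSum.coeLinearMap D) hInt).symm x i = _
      exact hInt.ofBijective_coeLinearMap_of_mem hx
    rw [this]
  · rw [if_neg h, cmp_eq]
    have : cmpS D hInt i x = 0 := by
      change (LinearEquiv.ofBijective (DirectSum.coeLinearMap D) hInt).symm x i = _
      exact hInt.ofBijective_coeLinearMap_of_mem_ne (Ne.symm h) hx
    rw [this]
    rfl

theorem sum_cmp (x : ι → F) : ∑ i, cmp D hInt i x = x := by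
  have h1 : DirectSum.coeLinearMap D
      ((LinearEquiv.ofBijective (DirectSum.coeLinearMap D) hInt).symm x) = x :=
    LinearEquiv.apply_symm_apply (LinearEquiv.ofBijective (DirectSum.coeLinearMap D) hInt) x
  have h2 := DirectSum.sum_univ_of ((LinearEquiv.ofBijective (DirectSum.coeLinearMap D) hInt).symm x)
  rw [← h2, map_sum] at h1
  conv_rhs => rw [← h1]
  refine Finset.sum_congr rfl (fun i _ => ?_)
  rw [DirectSum.coeLinearMap_of]
  rfl

/-- Components of a sum of a family of vectors of the summands. -/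
theorem cmp_sum_fam (z : Fin t → (ι → F)) (hz : ∀ i, z i ∈ D i) (j : Fin t) :
    cmp D hInt j (∑ i, z i) = z j := by
  rw [map_sum]
  rw [Finset.sum_eq_single j]
  · rw [cmp_of_mem D hInt (hz j), if_pos rfl]
  · intro i _ hij
    rw [cmp_of_mem D hInt (hz i), if_neg (Ne.symm hij)]
  · intro h
    exact absurd (Finset.mem_univ j) h

end decomp

section form

variable {F : Type*} [Field F] (m : ℕ) {t : ℕ} (D : Fin t → Submodule F (Fin m ⊕ Fin m → F))

/-- The form of a pair of sums of families is computed blockwise. -/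
theorem form_sum_fam
    (horth : ∀ i j, i ≠ j → Geo.AreOrthogonalFor (sympForm m F) (D i) (D j))
    (z z' : Fin t → (Fin m ⊕ Fin m → F)) (hz : ∀ i, z i ∈ D i) (hz' : ∀ i, z' i ∈ D i) :
    sympForm m F (∑ i, z i) (∑ i, z' i) = ∑ i, sympForm m F (z i) (z' i) := by
  rw [← Cfsg.Agent.S0768.BJ_apply, map_sum]
  refine Finset.sum_congr rfl (fun j _ => ?_)
  rw [map_sum, LinearMap.sum_apply, Finset.sum_eq_single j]
  · rw [Cfsg.Agent.S0768.BJ_apply]
  · intro i _ hij
    rw [Cfsg.Agent.S0768.BJ_apply]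
    exact horth i j hij _ (hz i) _ (hz' j)
  · intro h
    exact absurd (Finset.mem_univ j) h

end form

section two

variable {F : Type*} [Field F] [Fintype F]

theorem card_two_facts (hq : Fintype.card F = 2) :
    (∀ x : F, x = 0 ∨ x = 1) ∧ (1 : F) + 1 = 0 := by
  classical
  have hF : ∀ x : F, x = 0 ∨ x = 1 := by
    intro x
    by_contra hx
    push Not at hx
    have h1 : ({0, 1, x} : Finset F).card ≤ Fintype.card F := Finset.card_le_univ _
    rw [hq] at h1
    have h3 : ({0, 1, x} : Finset F).card = 3 := by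
      rw [Finset.card_insert_of_notMem, Finset.card_insert_of_notMem, Finset.card_singleton]
      · rw [Finset.mem_singleton]; exact fun h => hx.2 h.symm
      · rw [Finset.mem_insert, Finset.mem_singleton]
        push Not
        exact ⟨zero_ne_one, fun h => hx.1 h.symm⟩
    omega
  refine ⟨hF, ?_⟩
  rcases hF (1 + 1) with h | h
  · exact h
  · exfalso
    have : (1 : F) = 0 := by linear_combination h
    exact one_ne_zero this

/-- In a non-degenerate plane over the field with two elements, distinct non-zero vectors are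
not orthogonal. -/
theorem plane_form (m : ℕ) (hF : ∀ x : F, x = 0 ∨ x = 1) (h11 : (1 : F) + 1 = 0)
    (W : Submodule F (Fin m ⊕ Fin m → F)) (hfr : Module.finrank F W = 2)
    (hnd : Geo.IsNondegenerateOn (sympForm m F) W) (x y : Fin m ⊕ Fin m → F)
    (hx : x ∈ W) (hy : y ∈ W) (hx0 : x ≠ 0) (hy0 : y ≠ 0) (hxy : x ≠ y) :
    sympForm m F x y = 1 := by
  have hxx : ∀ z : Fin m ⊕ Fin m → F, z + z = 0 := by
    intro z
    rw [← two_smul F z]
    have : (2 : F) = 0 := by linear_combination h11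
    rw [this, zero_smul]
  rcases hF (sympForm m F x y) with h | h
  · exfalso
    have hli : LinearIndependent F ![x, y] := by
      rw [LinearIndependent.pair_iff]
      intro a b hab
      rcases hF a with ha | ha <;> rcases hF b with hb | hb
      · exact ⟨ha, hb⟩
      · rw [ha, hb, zero_smul, one_smul, zero_add] at hab
        exact absurd hab hy0
      · rw [ha, hb, zero_smul, one_smul, add_zero] at hab
        exact absurd hab hx0
      · rw [ha, hb, one_smul, one_smul] at hab
        exfalso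
        apply hxy
        have := hxx y
        have h3 : x = x + (y + y) := by rw [this, add_zero]
        rw [h3, ← add_assoc, hab, zero_add]
    have hsp : Submodule.span F (Set.range ![x, y]) = W := by
      apply Submodule.eq_of_le_of_finrank_le
      · rw [Submodule.span_le]
        rintro z ⟨i, rfl⟩
        fin_cases i
        · exact hx
        · exact hy
      · rw [finrank_span_eq_card hli, hfr]
        simp
    obtain ⟨⟨z, hzW, hz⟩, -⟩ := hnd x hx hx0
    apply hz
    rw [← hsp] at hzW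
    have hr : Set.range ![x, y] = {x, y} := by
      ext w
      constructor
      · rintro ⟨i, rfl⟩
        fin_cases i
        · exact Or.inl rfl
        · exact Or.inr rfl
      · rintro (rfl | rfl)
        · exact ⟨0, rfl⟩
        · exact ⟨1, rfl⟩
    rw [hr] at hzW
    obtain ⟨a, b, rfl⟩ := Submodule.mem_span_pair.mp hzW
    rw [Cfsg.Agent.S0766.form_add_left, form_smul_left, form_smul_left, Cfsg.Agent.S0766.form_self,
      Cfsg.Agent.S0766.form_swap m y x, h]
    ring
  · exact h

end two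

open Classical in
/-- The quadratic form counting the non-zero components modulo two. -/
noncomputable def Qd {F : Type*} [Field F] {ι : Type} [Fintype ι] [DecidableEq ι] {t : ℕ}
    (D : Fin t → Submodule F (ι → F)) (hInt : DirectSum.IsInternal D) (x : ι → F) : F :=
  ∑ i, if cmp D hInt i x = 0 then (0 : F) else 1

/-- Over the field with 2 elements and for m ≥ 7, let D be a decomposition of F^(2m) into t pairwise orthogonal non-degenerate 2-dimensional subspaces for the standard alternating form (t = m ≥ 2). Then the elements of Sp_2m(2) permuting the members of D form a subgroup that is not maximal: some subgroup lies strictly between it and Sp_2m(2). -/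
theorem result {F : Type*} [Field F] [Fintype F] (m : ℕ) (hm : 7 ≤ m) (hq : Fintype.card F = 2) {t : ℕ} (D : Fin t → Submodule F (Fin m ⊕ Fin m → F)) (hD : Cfsg.Geo.IsNondegenerateMDecomposition (Cfsg.sympForm m F) 2 D) : ∃ K : Subgroup (Matrix.GeneralLinearGroup (Fin m ⊕ Fin m) F), Cfsg.Geo.decompositionStabilizer D ⊓ Cfsg.spGL m F < K ∧ K < Cfsg.spGL m F := by
  classical
  obtain ⟨hF, h11⟩ := card_two_facts hq
  have hInt : DirectSum.IsInternal D :=
    DirectSum.isInternal_submodule_of_iSupIndep_of_iSup_eq_top hD.decomp.indep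
      hD.decomp.iSup_eq_top
  have hxx : ∀ z : Fin m ⊕ Fin m → F, z + z = 0 := by
    intro z
    rw [← two_smul F z]
    have : (2 : F) = 0 := by linear_combination h11
    rw [this, zero_smul]
  -- the number of blocks
  have htm : t = m := by
    have b : ∀ i, Module.Basis (Fin 2) F (D i) := fun i =>
      Module.finBasisOfFinrankEq F (D i) (hD.decomp.finrank_eq i)
    have h1 := Module.finrank_eq_card_basis (hInt.collectedBasis b)
    rw [Module.finrank_fintype_fun_eq_card] at h1
    simp only [Fintype.card_sum, Fintype.card_fin, Fintype.card_sigma, Finset.sum_const,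
      Finset.card_univ, smul_eq_mul] at h1
    omega
  obtain ⟨Q, hQdef⟩ : ∃ Q : (Fin m ⊕ Fin m → F) → F, Q = Qd D hInt := ⟨_, rfl⟩
  have hQx : ∀ x, Q x = ∑ i, if cmp D hInt i x = 0 then (0 : F) else 1 := by
    intro x
    rw [hQdef]
    rfl
  -- blockwise identity
  have hblk : ∀ i, ∀ x ∈ D i, ∀ y ∈ D i,
      (if x + y = 0 then (0 : F) else 1) = (if x = 0 then (0 : F) else 1)
        + (if y = 0 then (0 : F) else 1) + sympForm m F x y := by
    intro i x hx y hy
    by_cases hx0 : x = 0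
    · rw [hx0, zero_add, if_pos rfl, zero_add, form_zero_left, add_zero]
    by_cases hy0 : y = 0
    · rw [hy0, add_zero, if_pos rfl, add_zero, form_zero_right, add_zero]
    by_cases hxy : x = y
    · rw [hxy, hxx y, if_pos rfl, if_neg hy0, Cfsg.Agent.S0766.form_self, h11, add_zero]
    · have hne : x + y ≠ 0 := by
        intro h
        apply hxy
        have h3 : x = x + (y + y) := by rw [hxx y, add_zero]
        rw [h3, ← add_assoc, h, zero_add]
      rw [if_neg hne, if_neg hx0, if_neg hy0,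
        plane_form m hF h11 (D i) (hD.decomp.finrank_eq i) (hD.nondegenerate i) x y hx hy hx0 hy0
          hxy, h11, zero_add]
  have hform : ∀ x y, sympForm m F x y
      = ∑ i, sympForm m F (cmp D hInt i x) (cmp D hInt i y) := by
    intro x y
    have := form_sum_fam m D hD.orthogonal (fun i => cmp D hInt i x) (fun i => cmp D hInt i y)
      (fun i => cmp_mem D hInt i x) (fun i => cmp_mem D hInt i y)
    rw [sum_cmp, sum_cmp] at this
    exact this
  have hadd : ∀ x y, Q (x + y) = Q x + Q y + sympForm m F x y := by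
    intro x y
    rw [hQx, hQx, hQx, hform x y, ← Finset.sum_add_distrib, ← Finset.sum_add_distrib]
    refine Finset.sum_congr rfl (fun i _ => ?_)
    rw [map_add]
    exact hblk i _ (cmp_mem D hInt i x) _ (cmp_mem D hInt i y)
  have hQ0 : Q 0 = 0 := by
    rw [hQx]
    apply Finset.sum_eq_zero
    intro i _
    rw [map_zero, if_pos rfl]
  have hpol : ∀ u v, QuadraticMap.polar Q u v = sympForm m F u v := by
    intro u v
    unfold QuadraticMap.polar
    rw [hadd]
    ring
  have hQ : Geo.IsNondegenerateQuadraticForm Q := by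
    have hpf : QuadraticMap.polar Q = sympForm m F := by
      funext u v
      exact hpol u v
    refine ⟨?_, ?_, ?_⟩
    · intro c v
      rcases hF c with hc | hc
      · rw [hc, zero_smul, hQ0]
        ring
      · rw [hc, one_smul]
        ring
    · rw [hpf]
      exact ⟨Cfsg.Agent.S0766.form_add_left m, fun c x v => form_smul_left m x v c,
        fun v x y => Cfsg.Agent.S0766.form_add_right m v x y,
        fun c v x => form_smul_right m v x c⟩
    · rw [hpf]
      intro v hv
      obtain ⟨y, hy⟩ := Cfsg.Agent.S0766.form_nondeg m v hv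
      refine ⟨⟨y, ?_⟩, ⟨y, hy⟩⟩
      rw [Cfsg.Agent.S0766.form_swap]
      exact neg_ne_zero.mpr hy
  have hmax := Cfsg.Agent.S5652.result m hm (by rw [hq]; decide) Q hQ hpol
  refine ⟨Geo.quadSimilarityGroup Q ⊓ spGL m F, ?_, hmax.1⟩
  -- the value of `Q` on a non-zero vector of a block
  have hQblk : ∀ i, ∀ d ∈ D i, d ≠ 0 → Q d = 1 := by
    intro i d hd hd0
    rw [hQx, Finset.sum_eq_single i]
    · rw [cmp_of_mem D hInt hd, if_pos rfl, if_neg hd0]
    · intro j _ hji
      rw [cmp_of_mem D hInt hd, if_neg hji, if_pos rfl]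
    · intro h
      exact absurd (Finset.mem_univ i) h
  refine lt_of_le_of_ne ?_ ?_
  · rintro g ⟨⟨σ, hσ⟩, hgsp⟩
    apply Cfsg.Agent.S5652.mem_O_of_isom m Q hadd
    intro v
    have hgD : ∀ i, ∀ x ∈ D i, (g : Matrix (Fin m ⊕ Fin m) (Fin m ⊕ Fin m) F) *ᵥ x ∈ D (σ i) := by
      intro i x hx
      rw [← hσ i]
      exact ⟨x, hx, by rw [Matrix.toLin'_apply]⟩
    have hfam : ∀ j, (g : Matrix (Fin m ⊕ Fin m) (Fin m ⊕ Fin m) F) *ᵥ
        (cmp D hInt (σ.symm j) v) ∈ D j := by
      intro j
      have := hgD (σ.symm j) _ (cmp_mem D hInt (σ.symm j) v)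
      rwa [Equiv.apply_symm_apply] at this
    have hsum : ∑ j, (g : Matrix (Fin m ⊕ Fin m) (Fin m ⊕ Fin m) F) *ᵥ (cmp D hInt (σ.symm j) v)
        = (g : Matrix (Fin m ⊕ Fin m) (Fin m ⊕ Fin m) F) *ᵥ v := by
      rw [Equiv.sum_comp σ.symm (fun i => (g : Matrix (Fin m ⊕ Fin m) (Fin m ⊕ Fin m) F) *ᵥ
        (cmp D hInt i v)), ← Matrix.mulVec_sum, sum_cmp]
    have hcmp : ∀ j, cmp D hInt j ((g : Matrix (Fin m ⊕ Fin m) (Fin m ⊕ Fin m) F) *ᵥ v)
        = (g : Matrix (Fin m ⊕ Fin m) (Fin m ⊕ Fin m) F) *ᵥ (cmp D hInt (σ.symm j) v) := by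
      intro j
      rw [← hsum]
      exact cmp_sum_fam D hInt _ hfam j
    rw [hQx, hQx]
    rw [← Equiv.sum_comp σ.symm (fun i => if cmp D hInt i v = 0 then (0 : F) else 1)]
    refine Finset.sum_congr rfl (fun j _ => ?_)
    rw [hcmp j]
    by_cases h0 : cmp D hInt (σ.symm j) v = 0
    · rw [h0, Matrix.mulVec_zero, if_pos rfl]
    · rw [if_neg h0, if_neg]
      intro h1
      apply h0
      have := Cfsg.Agent.S5646.gl_inj m g (a₁ := cmp D hInt (σ.symm j) v) (a₂ := 0)
        (by change (g : Matrix (Fin m ⊕ Fin m) (Fin m ⊕ Fin m) F) *ᵥ _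
              = (g : Matrix (Fin m ⊕ Fin m) (Fin m ⊕ Fin m) F) *ᵥ 0
            rw [h1, Matrix.mulVec_zero])
      exact this
  · intro heq
    -- three distinct blocks
    have hi : ∀ j : Fin 3, (j : ℕ) < t := fun j => by
      have := j.2
      omega
    obtain ⟨i₁, hi₁⟩ : ∃ i : Fin t, i = ⟨0, hi 0⟩ := ⟨_, rfl⟩
    obtain ⟨i₂, hi₂⟩ : ∃ i : Fin t, i = ⟨1, hi 1⟩ := ⟨_, rfl⟩
    obtain ⟨i₃, hi₃⟩ : ∃ i : Fin t, i = ⟨2, hi 2⟩ := ⟨_, rfl⟩
    have h12 : i₁ ≠ i₂ := by rw [hi₁, hi₂]; simp
    have h13 : i₁ ≠ i₃ := by rw [hi₁, hi₃]; simp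
    have h23 : i₂ ≠ i₃ := by rw [hi₂, hi₃]; simp
    have hex : ∀ i, ∃ d ∈ D i, d ≠ 0 := by
      intro i
      have h1 : 0 < Module.finrank F (D i) := by rw [hD.decomp.finrank_eq i]; norm_num
      obtain ⟨⟨d, hd⟩, hd0⟩ := Module.finrank_pos_iff_exists_ne_zero.mp h1
      exact ⟨d, hd, fun h => hd0 (Subtype.ext h)⟩
    obtain ⟨d₁, hd₁, hd₁0⟩ := hex i₁
    obtain ⟨d₂, hd₂, hd₂0⟩ := hex i₂
    obtain ⟨d₃, hd₃, hd₃0⟩ := hex i₃
    obtain ⟨⟨x, hx, hxd⟩, -⟩ := hD.nondegenerate i₁ d₁ hd₁ hd₁0
    have hx1 : sympForm m F x d₁ = 1 := by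
      rcases hF (sympForm m F x d₁) with h | h
      · exact absurd h hxd
      · exact h
    obtain ⟨u, hu⟩ : ∃ u, u = d₁ + d₂ + d₃ := ⟨_, rfl⟩
    have hQu : Q u = 1 := by
      rw [hu, hadd, hadd, hQblk i₁ d₁ hd₁ hd₁0, hQblk i₂ d₂ hd₂ hd₂0, hQblk i₃ d₃ hd₃ hd₃0,
        hD.orthogonal i₁ i₂ h12 d₁ hd₁ d₂ hd₂, Cfsg.Agent.S0766.form_add_left,
        hD.orthogonal i₁ i₃ h13 d₁ hd₁ d₃ hd₃, hD.orthogonal i₂ i₃ h23 d₂ hd₂ d₃ hd₃, h11]
      ring
    have htK : tv m u (Q u)⁻¹ ∈ Geo.quadSimilarityGroup Q ⊓ spGL m F :=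
      Cfsg.Agent.S5652.tvQ_mem m Q hadd hQ.smul (by linear_combination h11) u
        (by rw [hQu]; exact one_ne_zero)
    rw [hQu, inv_one, ← heq] at htK
    obtain ⟨σ, hσ⟩ := htK.1
    have hy : (tv m u 1 : Matrix (Fin m ⊕ Fin m) (Fin m ⊕ Fin m) F) *ᵥ x ∈ D (σ i₁) := by
      rw [← hσ i₁]
      exact ⟨x, hx, by rw [Matrix.toLin'_apply]⟩
    have hxu : sympForm m F x u = 1 := by
      rw [hu, Cfsg.Agent.S0766.form_add_right, Cfsg.Agent.S0766.form_add_right, hx1,
        hD.orthogonal i₁ i₂ h12 x hx d₂ hd₂, hD.orthogonal i₁ i₃ h13 x hx d₃ hd₃]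
      ring
    rw [tv_mulVec, hxu, one_mul, one_smul] at hy
    have hc2 : cmp D hInt i₂ (x + u) = d₂ := by
      have a1 : cmp D hInt i₂ x = 0 := by rw [cmp_of_mem D hInt hx, if_neg (Ne.symm h12)]
      have a2 : cmp D hInt i₂ d₁ = 0 := by rw [cmp_of_mem D hInt hd₁, if_neg (Ne.symm h12)]
      have a3 : cmp D hInt i₂ d₂ = d₂ := by rw [cmp_of_mem D hInt hd₂, if_pos rfl]
      have a4 : cmp D hInt i₂ d₃ = 0 := by rw [cmp_of_mem D hInt hd₃, if_neg h23]
      rw [hu, map_add, map_add, map_add, a1, a2, a3, a4, zero_add, zero_add, add_zero]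
    have hc3 : cmp D hInt i₃ (x + u) = d₃ := by
      have a1 : cmp D hInt i₃ x = 0 := by rw [cmp_of_mem D hInt hx, if_neg (Ne.symm h13)]
      have a2 : cmp D hInt i₃ d₁ = 0 := by rw [cmp_of_mem D hInt hd₁, if_neg (Ne.symm h13)]
      have a3 : cmp D hInt i₃ d₂ = 0 := by rw [cmp_of_mem D hInt hd₂, if_neg (Ne.symm h23)]
      have a4 : cmp D hInt i₃ d₃ = d₃ := by rw [cmp_of_mem D hInt hd₃, if_pos rfl]
      rw [hu, map_add, map_add, map_add, a1, a2, a3, a4, zero_add, zero_add, zero_add]
    have e2 : i₂ = σ i₁ := by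
      by_contra hne
      rw [cmp_of_mem D hInt hy, if_neg hne] at hc2
      exact hd₂0 hc2.symm
    have e3 : i₃ = σ i₁ := by
      by_contra hne
      rw [cmp_of_mem D hInt hy, if_neg hne] at hc3
      exact hd₃0 hc3.symm
    exact h23 (e2.trans e3.symm)

end Cfsg.Agent.S5648
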