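import Mathlib
import Cfsg.Statements.S5654
import Cfsg.Agent.S5653

set_option autoImplicit false
open Cfsg

namespace Cfsg.Agent.S5654

open Matrix
open Cfsg.Agent.S0837 (Bh Bh_apply Bh_symm Bh_nondeg)
open Cfsg.Agent.S0780 (IsSUm)
open Cfsg.Agent.S5653 (herm_B mem_G_iff toG toG_coe toG_mem tv tv_coe tv_mulVec tv_mem gl_ext
  gl_inv_mulVec gl_inv_mulVec' gl_inj Sset Sset_gl Sset_tv Sset_smul mem_stab_of_forall stab_mulVec
  gen exists_iso_add)

section lib

variable {F : Type*} [Field F] (φ : F →+* F) {n q : ℕ}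

local notation "B" => Bh φ n

/-- the (right) orthogonal complement -/
noncomputable abbrev perp (W : Submodule F (Fin n → F)) : Submodule F (Fin n → F) :=
  Cfsg.Agent.S0751.rperp φ (Bh φ n) W

/-- non-degeneracy of the restriction of the form to a subspace -/
def ND (W : Submodule F (Fin n → F)) : Prop :=
  ∀ r ∈ W, (∀ x ∈ W, B x r = 0) → r = 0

theorem mem_perp (W : Submodule F (Fin n → F)) (z : Fin n → F) :
    z ∈ perp φ W ↔ ∀ x ∈ W, B x z = 0 := Iff.rfl

theorem nd_of_herm (hφq : ∀ a : F, φ a = a ^ q) (W : Submodule F (Fin n → F))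
    (hW : Cfsg.Geo.IsNondegenerateOn (Cfsg.hermForm n F q) W) : ND φ W := by
  intro r hr h
  by_contra hr0
  obtain ⟨x, hx, hxr⟩ := (hW r hr hr0).2
  apply hxr
  rw [herm_B φ hφq]
  exact h x hx

variable (hφ : φ ≠ RingHom.id F) (hφ2 : ∀ a : F, φ (φ a) = a)

include hφ2 in
theorem perp_symm (W : Submodule F (Fin n → F)) (z : Fin n → F) (hz : z ∈ perp φ W)
    (x : Fin n → F) (hx : x ∈ W) : B z x = 0 := by
  rw [← (Bh_symm φ hφ2 n).eq x z, hz x hx, map_zero]

include hφ hφ2 in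
theorem proj [Finite F] (W : Submodule F (Fin n → F)) (hnd : ND φ W) (y : Fin n → F) :
    ∃ w ∈ W, y - w ∈ perp φ W := by
  have hS := Bh_symm φ hφ2 n
  have hSZ : ((Bh φ n).domRestrict₁₂ W W).IsSymm := ⟨fun x y => hS.eq (x : Fin n → F) (y : Fin n → F)⟩
  have hndZ : ((Bh φ n).domRestrict₁₂ W W).Nondegenerate := by
    refine ⟨fun x hx => ?_, fun y hy => ?_⟩
    · apply Subtype.ext
      apply hnd (x : Fin n → F) x.2
      intro x' hx'
      have h1 : B (x : Fin n → F) x' = 0 := hx ⟨x', hx'⟩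
      rw [← hS.eq (x : Fin n → F) x', h1, map_zero]
    · apply Subtype.ext
      apply hnd (y : Fin n → F) y.2
      intro x' hx'
      exact hy ⟨x', hx'⟩
  obtain ⟨b, hb⟩ := Cfsg.Agent.S0755.result φ hφ hφ2 ((Bh φ n).domRestrict₁₂ W W) hSZ hndZ
  have hb' : ∀ i j, B (b i : Fin n → F) (b j : Fin n → F) = if i = j then 1 else 0 := hb
  refine ⟨∑ i, B (b i : Fin n → F) y • (b i : Fin n → F),
    Submodule.sum_mem _ (fun i _ => W.smul_mem _ (b i).2), ?_⟩
  have hPb : ∀ j, B (b j : Fin n → F) (y - ∑ i, B (b i : Fin n → F) y • (b i : Fin n → F)) = 0 := by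
    intro j
    rw [map_sub]
    simp only [map_sum, map_smul, hb', smul_eq_mul, mul_ite, mul_one, mul_zero,
      Finset.sum_ite_eq, Finset.mem_univ, if_true, sub_self]
  intro x hx
  have hx' := b.sum_repr ⟨x, hx⟩
  have hx'' : x = ∑ i, b.repr ⟨x, hx⟩ i • (b i : Fin n → F) := by
    have h := congrArg Subtype.val hx'
    simp only [Submodule.coe_sum, Submodule.coe_smul] at h
    exact h.symm
  rw [hx'']
  simp only [map_sum, LinearMap.map_smulₛₗ, LinearMap.sum_apply, LinearMap.smul_apply, hPb,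
    smul_zero, Finset.sum_const_zero]

theorem disj (W : Submodule F (Fin n → F)) (hnd : ND φ W) (x : Fin n → F) (hx : x ∈ W)
    (hx' : x ∈ perp φ W) : x = 0 := hnd x hx hx'

include hφ hφ2 in
theorem perp_nd [Finite F] (W : Submodule F (Fin n → F)) (hnd : ND φ W) : ND φ (perp φ W) := by
  have hS := Bh_symm φ hφ2 n
  intro r hr h
  apply (Bh_nondeg φ hφ2 n).1
  intro y
  obtain ⟨w, hw, hyw⟩ := proj φ hφ hφ2 W hnd y
  have h1 : B y r = 0 := by
    have h2 : y = w + (y - w) := by abel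
    rw [h2, map_add, LinearMap.add_apply, hr w hw, h _ hyw, add_zero]
  rw [← hS.eq y r, h1, map_zero]

include hφ hφ2 in
theorem perp_perp [Finite F] (W : Submodule F (Fin n → F)) (hnd : ND φ W) (x : Fin n → F)
    (hx : ∀ z ∈ perp φ W, B z x = 0) : x ∈ W := by
  obtain ⟨w, hw, hxw⟩ := proj φ hφ hφ2 W hnd x
  have h0 : x - w = 0 := by
    apply perp_nd φ hφ hφ2 W hnd _ hxw
    intro z hz
    rw [map_sub, hx z hz, perp_symm φ hφ2 W z hz w hw, sub_zero]
  rw [sub_eq_zero.mp h0]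
  exact hw

include hφ hφ2 in
theorem finrank_perp [Finite F] (W : Submodule F (Fin n → F)) (hnd : ND φ W) :
    Module.finrank F W + Module.finrank F (perp φ W) = n := by
  have hc : IsCompl W (perp φ W) := by
    constructor
    · rw [Submodule.disjoint_def]
      intro x hx hx'
      exact disj φ W hnd x hx hx'
    · rw [codisjoint_iff, eq_top_iff]
      intro y _
      obtain ⟨w, hw, hyw⟩ := proj φ hφ hφ2 W hnd y
      have h2 : y = w + (y - w) := by abel
      rw [h2]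
      exact Submodule.add_mem_sup hw hyw
  have := Submodule.finrank_add_eq_of_isCompl hc
  rw [this, Module.finrank_fintype_fun_eq_card, Fintype.card_fin]

include hφ2 in
theorem nd_sup (W P : Submodule F (Fin n → F)) (hW : ND φ W) (hP : ND φ P)
    (hPW : P ≤ perp φ W) : ND φ (W ⊔ P) := by
  intro r hr h
  obtain ⟨w, hw, p, hp, rfl⟩ := Submodule.mem_sup.mp hr
  have hw0 : w = 0 := by
    apply hW w hw
    intro x hx
    have h1 := h x (Submodule.mem_sup_left hx)
    rwa [map_add, hPW hp x hx, add_zero] at h1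
  have hp0 : p = 0 := by
    apply hP p hp
    intro x hx
    have h1 := h x (Submodule.mem_sup_right hx)
    rwa [map_add, perp_symm φ hφ2 W x (hPW hx) w hw, zero_add] at h1
  rw [hw0, hp0, add_zero]

theorem nd_bot : ND φ (⊥ : Submodule F (Fin n → F)) := by
  intro r hr _
  exact (Submodule.mem_bot F).mp hr

theorem nd_span_one (y : Fin n → F) (hy : B y y ≠ 0) : ND φ (Submodule.span F {y}) := by
  intro r hr h
  obtain ⟨a, rfl⟩ := Submodule.mem_span_singleton.mp hr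
  have h1 := h y (Submodule.mem_span_singleton_self y)
  rw [map_smul, smul_eq_mul] at h1
  rcases mul_eq_zero.mp h1 with h2 | h2
  · rw [h2, zero_smul]
  · exact absurd h2 hy

include hφ2 in
theorem nd_span_two (y z : Fin n → F) (hy : B y y = 0) (hyz : B y z ≠ 0) :
    ND φ (Submodule.span F {y, z}) := by
  have hS := Bh_symm φ hφ2 n
  intro r hr h
  obtain ⟨a, b, rfl⟩ := Submodule.mem_span_pair.mp hr
  have h1 := h y (Submodule.subset_span (by simp))
  have h2 := h z (Submodule.subset_span (by simp))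
  have hzy : B z y ≠ 0 := by
    rw [← hS.eq y z]
    rwa [Ne, map_eq_zero]
  rw [map_add, map_smul, map_smul, hy, smul_zero, zero_add, smul_eq_mul] at h1
  have hb : b = 0 := by
    rcases mul_eq_zero.mp h1 with h3 | h3
    · exact h3
    · exact absurd h3 hyz
  rw [hb, zero_smul, add_zero, map_smul, smul_eq_mul] at h2
  have ha : a = 0 := by
    rcases mul_eq_zero.mp h2 with h3 | h3
    · exact h3
    · exact absurd h3 hzy
  rw [ha, hb, zero_smul, zero_smul, add_zero]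

include hφ hφ2 in
/-- a unit vector orthogonal to a non-degenerate subspace and to a given vector orthogonal to it -/
theorem exists_e [Finite F] (W : Submodule F (Fin n → F)) (hnd : ND φ W)
    (hdim : Module.finrank F W + 2 < n) (y : Fin n → F) (hy : y ∈ perp φ W) :
    ∃ e, B e e = 1 ∧ e ∈ perp φ W ∧ B e y = 0 := by
  classical
  have hS := Bh_symm φ hφ2 n
  obtain ⟨P, hP, hPW, hyP, hPdim⟩ : ∃ P : Submodule F (Fin n → F), ND φ P ∧ P ≤ perp φ W ∧
      (∀ e, (∀ x ∈ P, B x e = 0) → B y e = 0) ∧ Module.finrank F P ≤ 2 := by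
    by_cases hyy : B y y = 0
    · by_cases hy0 : y = 0
      · refine ⟨⊥, nd_bot φ, bot_le, fun e _ => by rw [hy0, map_zero, LinearMap.zero_apply], ?_⟩
        rw [finrank_bot]; omega
      · obtain ⟨z, hz, hzy⟩ : ∃ z ∈ perp φ W, B z y ≠ 0 := by
          by_contra hcon
          push Not at hcon
          exact hy0 (perp_nd φ hφ hφ2 W hnd y hy hcon)
        have hyz : B y z ≠ 0 := by
          rw [← hS.eq z y]
          rwa [Ne, map_eq_zero]
        refine ⟨Submodule.span F {y, z}, nd_span_two φ hφ2 y z hyy hyz, ?_,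
          fun e he => he y (Submodule.subset_span (by simp)), ?_⟩
        · rw [Submodule.span_le]
          intro x hx
          rcases hx with rfl | rfl
          · exact hy
          · exact hz
        · have h1 := finrank_span_finset_le_card (R := F) ({y, z} : Finset (Fin n → F))
          have h2 : ({y, z} : Finset (Fin n → F)).card ≤ 2 := Finset.card_le_two
          have h3 : ((({y, z} : Finset (Fin n → F)) : Set (Fin n → F))) = {y, z} := by
            ext; simp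
          rw [Set.finrank, h3] at h1
          omega
    · refine ⟨Submodule.span F {y}, nd_span_one φ y hyy, ?_,
        fun e he => he y (Submodule.mem_span_singleton_self y), ?_⟩
      · rw [Submodule.span_le]
        intro x hx
        rw [Set.mem_singleton_iff.mp hx]
        exact hy
      · have h1 := finrank_span_finset_le_card (R := F) ({y} : Finset (Fin n → F))
        have h3 : ((({y} : Finset (Fin n → F)) : Set (Fin n → F))) = {y} := by
          ext; simp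
        rw [Set.finrank, h3, Finset.card_singleton] at h1
        omega
  have hZnd := nd_sup φ hφ2 W P hnd hP hPW
  have hZ : W ⊔ P ≠ ⊤ := by
    intro htop
    have h1 := Submodule.finrank_add_le_finrank_add_finrank W P
    rw [htop, finrank_top, Module.finrank_fintype_fun_eq_card, Fintype.card_fin] at h1
    omega
  obtain ⟨e, he1, he2⟩ := Cfsg.Agent.S0751.nd_compl φ hφ hφ2 (Bh φ n) hS (Bh_nondeg φ hφ2 n)
    (W ⊔ P) hZ hZnd
  refine ⟨e, he1, fun x hx => he2 x (Submodule.mem_sup_left hx), ?_⟩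
  rw [← hS.eq y e, hyP e (fun x hx => he2 x (Submodule.mem_sup_right hx)), map_zero]

include hφ hφ2 in
/-- an isometry fixing a subspace pointwise and moving `x` to `y` -/
theorem witt_fix [Finite F] (Z : Submodule F (Fin n → F)) (x y : Fin n → F) (hx : x ∉ Z)
    (hy : y ∉ Z) (hZ : ∀ z ∈ Z, B z x = B z y) (hN : B x x = B y y) :
    ∃ g : (Fin n → F) ≃ₗ[F] (Fin n → F), (∀ u v, B (g u) (g v) = B u v) ∧
      (∀ z ∈ Z, g z = z) ∧ g x = y := by
  have hS := Bh_symm φ hφ2 n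
  obtain ⟨ℓ, hℓ0, hℓx⟩ := LinearMap.exists_extend_of_notMem (0 : Z →ₗ[F] F) hx 1
  have hℓZ : ∀ z ∈ Z, ℓ z = 0 := fun z hz => LinearMap.congr_fun hℓ0 ⟨z, hz⟩
  set f : (Fin n → F) →ₗ[F] (Fin n → F) := LinearMap.id + ℓ.smulRight (y - x) with hf
  have hfZ : ∀ z ∈ Z, f z = z := by
    intro z hz
    simp [hf, hℓZ z hz]
  have hfx : f x = y := by
    simp [hf, hℓx]
  have hZ' : ∀ z ∈ Z, B x z = B y z := by
    intro z hz
    rw [← hS.eq z x, ← hS.eq z y, hZ z hz]
  have hmem : ∀ u ∈ Z ⊔ Submodule.span F {x}, ∃ z ∈ Z, ∃ a : F, u = z + a • x ∧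
      f u = z + a • y := by
    intro u hu
    obtain ⟨z, hz, p, hp, rfl⟩ := Submodule.mem_sup.mp hu
    obtain ⟨a, rfl⟩ := Submodule.mem_span_singleton.mp hp
    exact ⟨z, hz, a, rfl, by rw [map_add, map_smul, hfZ z hz, hfx]⟩
  obtain ⟨g, hg1, hg2⟩ := Cfsg.Agent.S0751.extend_aux φ hφ hφ2 (Bh φ n) hS (Bh_nondeg φ hφ2 n)
    (Module.finrank F (Fin n → F)) (Z ⊔ Submodule.span F {x}) f (by omega)
    (by
      intro u hu u' hu'
      obtain ⟨z, hz, a, rfl, e1⟩ := hmem u hu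
      obtain ⟨z', hz', a', rfl, e2⟩ := hmem u' hu'
      rw [e1, e2]
      simp only [map_add, LinearMap.add_apply, LinearMap.map_smulₛₗ, LinearMap.smul_apply, map_smul,
        smul_eq_mul, hZ z hz, hZ' z' hz', hN])
    (by
      intro u hu h0
      obtain ⟨z, hz, a, rfl, e1⟩ := hmem u hu
      rw [e1] at h0
      have ha : a = 0 := by
        by_contra ha
        apply hy
        have h1 : a • y = -z := by
          rw [eq_neg_iff_add_eq_zero, add_comm]; exact h0
        have h2 : y = a⁻¹ • (-z) := by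
          rw [← h1, smul_smul, inv_mul_cancel₀ ha, one_smul]
        rw [h2]
        exact Z.smul_mem _ (Z.neg_mem hz)
      rw [ha, zero_smul, add_zero] at h0
      rw [ha, h0, zero_smul, add_zero])
  refine ⟨g, hg1, fun z hz => ?_, ?_⟩
  · rw [hg2 z (Submodule.mem_sup_left hz), hfZ z hz]
  · rw [hg2 x (Submodule.mem_sup_right (Submodule.mem_span_singleton_self x)), hfx]

include hφ2 in
theorem unitary_det (M : Matrix (Fin n) (Fin n) F)
    (hM : ∀ x y, B (M *ᵥ x) (M *ᵥ y) = B x y) : M.det * φ M.det = 1 := by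
  have h1 : M.transpose * M.map φ = 1 := by
    rw [← Cfsg.Agent.S0837.pres_iff]
    intro u v
    have := hM v u
    rwa [Bh_apply, Bh_apply] at this
  have h2 := congrArg Matrix.det h1
  rw [Matrix.det_mul, Matrix.det_transpose, Matrix.det_one] at h2
  have h3 : (M.map φ).det = φ M.det := by
    rw [RingHom.map_det]; rfl
  rw [h3] at h2
  exact h2

variable (hφq : ∀ a : F, φ a = a ^ q)

include hφq in
theorem qr_det (v : Fin n → F) (c : F) :
    (Cfsg.unitaryTransvection n q v c).det = 1 + c * B v v := by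
  have h3 := Matrix.det_one_add_replicateCol_mul_replicateRow (ι := Fin 1) (c • v)
    (fun j => (v j) ^ q)
  have h1 : Cfsg.unitaryTransvection n q v c
      = 1 + Matrix.replicateCol (Fin 1) (c • v)
        * Matrix.replicateRow (Fin 1) (fun j => (v j) ^ q) := by
    ext i j
    simp [Cfsg.unitaryTransvection, Matrix.vecMulVec_apply, Matrix.mul_apply]
  have h2 : (fun j => (v j) ^ q) ⬝ᵥ (c • v) = c * B v v := by
    rw [Bh_apply]
    simp only [dotProduct, Cfsg.Agent.S0837.hf, Pi.smul_apply, smul_eq_mul, Finset.mul_sum, hφq]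
    apply Finset.sum_congr rfl
    intro i _
    ring
  rw [h1]
  exact h3.trans (by rw [h2])

include hφq hφ2 in
theorem qr_pres (e : Fin n → F) (he : B e e = 1) (δ : F) (hδ : δ * φ δ = 1) (x y : Fin n → F) :
    B ((Cfsg.unitaryTransvection n q e (δ - 1)) *ᵥ x)
      ((Cfsg.unitaryTransvection n q e (δ - 1)) *ᵥ y) = B x y := by
  have hS := Bh_symm φ hφ2 n
  rw [Cfsg.Agent.S0780.tv_mulVec φ hφq, Cfsg.Agent.S0780.tv_mulVec φ hφq]
  have e1 : B x e = φ (B e x) := (hS.eq e x).symm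
  simp only [map_add, LinearMap.add_apply, LinearMap.map_smulₛₗ, LinearMap.smul_apply, map_smul,
    smul_eq_mul, map_mul, map_sub, map_one, he, e1]
  linear_combination (φ (B e x) * B e y) * hδ

include hφq hφ2 in
/-- correcting the determinant of an isometry by a quasi-reflection -/
theorem det_adjust (g : (Fin n → F) ≃ₗ[F] (Fin n → F)) (hg : ∀ u v, B (g u) (g v) = B u v)
    (e : Fin n → F) (he : B e e = 1) :
    ∃ M : Matrix (Fin n) (Fin n) F, IsSUm φ M ∧ ∀ x, B e (g x) = 0 → M *ᵥ x = g x := by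
  obtain ⟨A, hA⟩ : ∃ A : Matrix (Fin n) (Fin n) F, A = LinearMap.toMatrix' g.toLinearMap :=
    ⟨_, rfl⟩
  have hAx : ∀ x, A *ᵥ x = g x := by
    intro x
    rw [← Matrix.toLin'_apply, hA, Matrix.toLin'_toMatrix']
    rfl
  have hAu : ∀ x y, B (A *ᵥ x) (A *ᵥ y) = B x y := by
    intro x y; rw [hAx, hAx]; exact hg x y
  have hdet := unitary_det φ hφ2 A hAu
  have hd0 : A.det ≠ 0 := by
    intro h0; rw [h0, zero_mul] at hdet; exact zero_ne_one hdet
  have hδ1 : A.det⁻¹ * φ A.det⁻¹ = 1 := by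
    rw [map_inv₀, ← mul_inv, hdet, inv_one]
  refine ⟨Cfsg.unitaryTransvection n q e (A.det⁻¹ - 1) * A, ⟨?_, ?_⟩, ?_⟩
  · rw [Matrix.det_mul, qr_det φ hφq, he, mul_one, add_sub_cancel, inv_mul_cancel₀ hd0]
  · intro x y
    rw [← Matrix.mulVec_mulVec, ← Matrix.mulVec_mulVec, qr_pres φ hφ2 hφq e he _ hδ1, hAu]
  · intro x hx
    rw [← Matrix.mulVec_mulVec, Cfsg.Agent.S0780.tv_mulVec φ hφq, hAx, hx, mul_zero, zero_smul,
      add_zero]

include hφ hφ2 hφq in
/-- transitivity of the stabiliser of a non-degenerate subspace on pairs of vectors of given norms -/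
theorem trans [Finite F] (W : Submodule F (Fin n → F)) (hnd : ND φ W)
    (hdim : Module.finrank F W + 2 < n) (x₁ y₁ x₂ y₂ : Fin n → F) (hx₁ : x₁ ∈ W) (hy₁ : y₁ ∈ W)
    (hx₂ : x₂ ∈ perp φ W) (hy₂ : y₂ ∈ perp φ W) (h1 : B x₁ x₁ = B y₁ y₁)
    (h2 : B x₂ x₂ = B y₂ y₂) (hx₁0 : x₁ ≠ 0) (hy₁0 : y₁ ≠ 0) (hx₂0 : x₂ ≠ 0) (hy₂0 : y₂ ≠ 0) :
    ∃ h : Matrix.GeneralLinearGroup (Fin n) F,
      h ∈ Geo.subspaceStabilizer W ⊓ (Cfsg.GU n F q ⊓ Cfsg.Geo.specialLinear (Fin n) F) ∧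
      (h : Matrix (Fin n) (Fin n) F) *ᵥ x₁ = y₁ ∧ (h : Matrix (Fin n) (Fin n) F) *ᵥ x₂ = y₂ := by
  obtain ⟨e, he, heW, hey⟩ := exists_e φ hφ hφ2 W hnd hdim y₂ hy₂
  obtain ⟨g₁, hg₁, hg₁Z, hg₁x⟩ := witt_fix φ hφ hφ2 (perp φ W) x₁ y₁
    (fun h => hx₁0 (disj φ W hnd x₁ hx₁ h)) (fun h => hy₁0 (disj φ W hnd y₁ hy₁ h))
    (fun z hz => by rw [perp_symm φ hφ2 W z hz x₁ hx₁, perp_symm φ hφ2 W z hz y₁ hy₁]) h1
  obtain ⟨g₂, hg₂, hg₂Z, hg₂x⟩ := witt_fix φ hφ hφ2 W x₂ y₂
    (fun h => hx₂0 (disj φ W hnd x₂ h hx₂)) (fun h => hy₂0 (disj φ W hnd y₂ h hy₂))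
    (fun z hz => by rw [hx₂ z hz, hy₂ z hz]) h2
  have hg₁W : ∀ w ∈ W, g₁ w ∈ W := by
    intro w hw
    apply perp_perp φ hφ hφ2 W hnd
    intro z hz
    have h3 := hg₁ z w
    rw [hg₁Z z hz] at h3
    rw [h3]
    exact perp_symm φ hφ2 W z hz w hw
  have hgW : ∀ w ∈ W, (g₁.trans g₂) w ∈ W := by
    intro w hw
    rw [LinearEquiv.trans_apply, hg₂Z _ (hg₁W w hw)]
    exact hg₁W w hw
  have hg : ∀ u v, B ((g₁.trans g₂) u) ((g₁.trans g₂) v) = B u v := by
    intro u v
    rw [LinearEquiv.trans_apply, LinearEquiv.trans_apply, hg₂, hg₁]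
  have hgx₁ : (g₁.trans g₂) x₁ = y₁ := by
    rw [LinearEquiv.trans_apply, hg₁x, hg₂Z y₁ hy₁]
  have hgx₂ : (g₁.trans g₂) x₂ = y₂ := by
    rw [LinearEquiv.trans_apply, hg₁Z x₂ hx₂, hg₂x]
  obtain ⟨M, hM, hMx⟩ := det_adjust φ hφ2 hφq (g₁.trans g₂) hg e he
  have hMW : ∀ w ∈ W, M *ᵥ w = (g₁.trans g₂) w := fun w hw =>
    hMx w (perp_symm φ hφ2 W e heW _ (hgW w hw))
  refine ⟨toG M, ⟨mem_stab_of_forall W _ ?_, toG_mem φ hφq M hM⟩, ?_, ?_⟩
  · intro w hw
    rw [toG_coe M hM.1, hMW w hw]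
    exact hgW w hw
  · rw [toG_coe M hM.1, hMW x₁ hx₁, hgx₁]
  · rw [toG_coe M hM.1, hMx x₂ (by rw [hgx₂]; exact hey), hgx₂]

include hφ hφ2 in
/-- an isotropic vector with a prescribed pairing with a given non-zero isotropic vector -/
theorem exists_pair_iso [Finite F] (P : Submodule F (Fin n → F)) (hP : ND φ P) (s : Fin n → F)
    (hs : s ∈ P) (hs0 : s ≠ 0) (hss : B s s = 0) (β : F) :
    ∃ s' ∈ P, B s' s' = 0 ∧ B s s' = β := by
  have hS := Bh_symm φ hφ2 n
  obtain ⟨x, hx, hxs⟩ : ∃ x ∈ P, B x s ≠ 0 := by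
    by_contra hcon
    push Not at hcon
    exact hs0 (hP s hs hcon)
  have hsx : B s x ≠ 0 := by
    rw [← hS.eq x s]
    rwa [Ne, map_eq_zero]
  obtain ⟨l, hl⟩ := exists_iso_add φ hφ hφ2 x s hss hsx
  have h1 : B s (x + l • s) = B s x := by
    rw [map_add, map_smul, hss, smul_zero, add_zero]
  refine ⟨(β / B s x) • (x + l • s), P.smul_mem _ (P.add_mem hx (P.smul_mem l hs)), ?_, ?_⟩
  · simp only [LinearMap.map_smulₛₗ, LinearMap.smul_apply, map_smul, smul_eq_mul, hl, mul_zero]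
  · rw [map_smul, h1, smul_eq_mul, div_mul_cancel₀ _ hsx]

include hφ hφ2 in
/-- an anisotropic vector not orthogonal to a given non-zero vector -/
theorem exists_aniso (P : Submodule F (Fin n → F)) (hP : ND φ P) (v : Fin n → F)
    (hv : v ∈ P) (hv0 : v ≠ 0) : ∃ u ∈ P, B u u ≠ 0 ∧ B u v ≠ 0 := by
  have hS := Bh_symm φ hφ2 n
  by_cases hvv : B v v = 0
  swap
  · exact ⟨v, hv, hvv, hvv⟩
  obtain ⟨x, hx, hxv⟩ : ∃ x ∈ P, B x v ≠ 0 := by
    by_contra hcon
    push Not at hcon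
    exact hv0 (hP v hv hcon)
  by_cases hxx : B x x = 0
  swap
  · exact ⟨x, hx, hxx, hxv⟩
  obtain ⟨t, ht⟩ := Cfsg.Agent.S0751.trace_surj φ hφ hφ2 1 (map_one φ)
  have e1 : B v x = φ (B x v) := (hS.eq x v).symm
  have hφxv : φ (B x v) ≠ 0 := by rwa [Ne, map_eq_zero]
  refine ⟨x + (t / B x v) • v, P.add_mem hx (P.smul_mem _ hv), ?_, ?_⟩
  · have ha1 : t / B x v * B x v = t := div_mul_cancel₀ _ hxv
    have ha2 : φ (t / B x v) * φ (B x v) = φ t := by rw [← map_mul, ha1]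
    have h1 : B (x + (t / B x v) • v) (x + (t / B x v) • v) = 1 := by
      simp only [map_add, LinearMap.add_apply, LinearMap.map_smulₛₗ, LinearMap.smul_apply, map_smul,
        smul_eq_mul, hvv, hxx, e1]
      linear_combination ha1 + ha2 + ht
    rw [h1]
    exact one_ne_zero
  · rw [map_add, LinearMap.add_apply, LinearMap.map_smulₛₗ, LinearMap.smul_apply, hvv, smul_zero,
      add_zero]
    exact hxv

end lib

/-- Let F be the field with q² elements and n ≥ 13. In SU_n(q) (determinant-one isometries of the standard unitary form on F^n) the stabiliser of a non-zero subspace W on which the form is non-degenerate and with 2 dim W < n is a maximal subgroup. -/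
theorem result {F : Type*} [Field F] [Fintype F] (n q : ℕ) (hF : Fintype.card F = q ^ 2) (hn : 13 ≤ n) (W : Submodule F (Fin n → F)) (hW0 : W ≠ ⊥) (hW : Cfsg.Geo.IsNondegenerateOn (Cfsg.hermForm n F q) W) (hdim : 2 * Module.finrank F W < n) : Cfsg.Geo.IsMaximalIn (Cfsg.GU n F q ⊓ Cfsg.Geo.specialLinear (Fin n) F) (Cfsg.Geo.subspaceStabilizer W ⊓ (Cfsg.GU n F q ⊓ Cfsg.Geo.specialLinear (Fin n) F)) := by
  classical
  obtain ⟨φ, hφq, hφ2⟩ := Cfsg.Agent.S0779.exists_frob hF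
  have hφ := Cfsg.Agent.S0829.phi_ne_id hF φ hφq
  have hS := Bh_symm φ hφ2 n
  have hnd : ND φ W := nd_of_herm φ hφq W hW
  have hUnd : ND φ (perp φ W) := perp_nd φ hφ hφ2 W hnd
  have hfr := finrank_perp φ hφ hφ2 W hnd
  have hdim2 : Module.finrank F W + 2 < n := by omega
  obtain ⟨s, hs0, hs⟩ := Cfsg.Agent.S0780.exists_skew φ hφ hφ2
  have hNfix : ∀ x, φ (Bh φ n x x) = Bh φ n x x := fun x => hS.eq x x
  have hsum : ∀ a ∈ W, ∀ b ∈ perp φ W, Bh φ n (a + b) (a + b) = Bh φ n a a + Bh φ n b b := by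
    intro a ha b hb
    simp only [map_add, LinearMap.add_apply, hb a ha, perp_symm φ hφ2 W b hb a ha]
    ring
  have hexe : ∀ y ∈ perp φ W, ∃ e, Bh φ n e e = 1 ∧ e ∈ perp φ W ∧ Bh φ n e y = 0 :=
    fun y hy => exists_e φ hφ hφ2 W hnd hdim2 y hy
  have hne : ∀ x, Bh φ n x x ≠ 0 → x ≠ 0 := by
    intro x hx h0
    apply hx
    rw [h0, map_zero]
  -- a vector of prescribed non-zero norm in the complement, orthogonal to a given vector
  have hexu : ∀ y ∈ perp φ W, ∀ μ : F, φ μ = μ → μ ≠ 0 →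
      ∃ u ∈ perp φ W, Bh φ n u u = μ ∧ Bh φ n u y = 0 := by
    intro y hy μ hμ hμ0
    obtain ⟨e, he1, heU, hey⟩ := hexe y hy
    obtain ⟨a, ha⟩ := Cfsg.Agent.S0755.norm_surj φ hφ hφ2 μ hμ hμ0
    refine ⟨a • e, (perp φ W).smul_mem a heU, ?_, ?_⟩
    · simp only [LinearMap.map_smulₛₗ, LinearMap.smul_apply, map_smul, smul_eq_mul, he1, mul_one]
      linear_combination ha
    · rw [LinearMap.map_smulₛₗ, LinearMap.smul_apply, hey, smul_zero]
  refine ⟨lt_of_le_of_ne inf_le_right ?_, ?_⟩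
  · intro heq
    obtain ⟨w, hwW, hw0⟩ := (Submodule.ne_bot_iff W).mp hW0
    obtain ⟨v₁, hv₁W, hv₁N, -⟩ := exists_aniso φ hφ hφ2 W hnd w hwW hw0
    obtain ⟨v₂, hv₂U, hv₂N, -⟩ := hexu 0 (Submodule.zero_mem _) (-(Bh φ n v₁ v₁))
      (by rw [map_neg, hNfix]) (neg_ne_zero.mpr hv₁N)
    have hv : Bh φ n (v₁ + v₂) (v₁ + v₂) = 0 := by
      rw [hsum v₁ hv₁W v₂ hv₂U, hv₂N]; ring
    have ht : tv q (v₁ + v₂) s ∈ Geo.subspaceStabilizer W ⊓
        (Cfsg.GU n F q ⊓ Cfsg.Geo.specialLinear (Fin n) F) := by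
      rw [heq]
      exact tv_mem φ hφq hφ2 _ s hv hs
    have h1 := stab_mulVec W _ ht.1 v₁ hv₁W
    rw [tv_mulVec φ hφq hφ2 _ s hv hs] at h1
    have h3 : Bh φ n (v₁ + v₂) v₁ = Bh φ n v₁ v₁ := by
      rw [map_add, LinearMap.add_apply, perp_symm φ hφ2 W _ hv₂U v₁ hv₁W, add_zero]
    rw [h3] at h1
    have h2 : (s * Bh φ n v₁ v₁) • (v₁ + v₂) ∈ W := by
      have := W.sub_mem h1 hv₁W
      rwa [add_sub_cancel_left] at this
    have h4 : v₁ + v₂ ∈ W := (W.smul_mem_iff (mul_ne_zero hs0 hv₁N)).mp h2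
    have h5 : v₂ ∈ W := by
      have := W.sub_mem h4 hv₁W
      rwa [add_sub_cancel_left] at this
    have h6 : v₂ = 0 := disj φ W hnd _ h5 hv₂U
    exact hne v₂ (by rw [hv₂N]; exact neg_ne_zero.mpr hv₁N) h6
  · intro M hHM hMK
    by_cases hMH : M = Geo.subspaceStabilizer W ⊓
        (Cfsg.GU n F q ⊓ Cfsg.Geo.specialLinear (Fin n) F)
    · left
      exact hMH
    right
    obtain ⟨g, hgM, hgH⟩ : ∃ g ∈ M, g ∉ Geo.subspaceStabilizer W ⊓
        (Cfsg.GU n F q ⊓ Cfsg.Geo.specialLinear (Fin n) F) := by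
      by_contra hcon
      push Not at hcon
      exact hMH (le_antisymm hcon hHM)
    apply le_antisymm hMK
    apply gen φ hφq hφ2 hF (by omega) (by omega) M
    have hWS : ∀ v ∈ W, Bh φ n v v = 0 → v ∈ Sset φ q M := by
      intro v hv hvv
      refine ⟨hvv, fun c hc => hHM ⟨mem_stab_of_forall W _ ?_, tv_mem φ hφq hφ2 v c hvv hc⟩⟩
      intro w hw
      rw [tv_mulVec φ hφq hφ2 v c hvv hc]
      exact W.add_mem hw (W.smul_mem _ hv)
    have hUS : ∀ v ∈ perp φ W, Bh φ n v v = 0 → v ∈ Sset φ q M := by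
      intro v hv hvv
      refine ⟨hvv, fun c hc => hHM ⟨mem_stab_of_forall W _ ?_, tv_mem φ hφq hφ2 v c hvv hc⟩⟩
      intro w hw
      rw [tv_mulVec φ hφq hφ2 v c hvv hc, perp_symm φ hφ2 W v hv w hw, mul_zero, zero_smul,
        add_zero]
      exact hw
    have hgK := hMK hgM
    have hgS := (mem_G_iff φ hφq g).1 hgK
    have hgstab : g ∉ Geo.subspaceStabilizer W := fun h => hgH ⟨h, hgK⟩
    -- Step 1: a vector of `Sset` outside `W ∪ W^⊥`
    obtain ⟨s₀, hs₀S, hs₀W, hs₀U⟩ : ∃ s₀ ∈ Sset φ q M, s₀ ∉ W ∧ s₀ ∉ perp φ W := by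
      by_contra hcon
      push Not at hcon
      have hcon' : ∀ v ∈ perp φ W, Bh φ n v v = 0 →
          (g : Matrix (Fin n) (Fin n) F) *ᵥ v ∈ W ∨
            (g : Matrix (Fin n) (Fin n) F) *ᵥ v ∈ perp φ W := by
        intro v hv hvv
        by_cases h : (g : Matrix (Fin n) (Fin n) F) *ᵥ v ∈ W
        · left; exact h
        · right; exact hcon _ (Sset_gl φ hφq hφ2 M hMK g hgM v (hUS v hv hvv)) h
      have hA : (∀ v ∈ perp φ W, Bh φ n v v = 0 →
          (g : Matrix (Fin n) (Fin n) F) *ᵥ v ∈ perp φ W) ∨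
          (∀ v ∈ perp φ W, Bh φ n v v = 0 → (g : Matrix (Fin n) (Fin n) F) *ᵥ v ∈ W) := by
        by_contra hA
        push Not at hA
        obtain ⟨⟨v, hv, hvv, hgv⟩, ⟨v', hv', hvv', hgv'⟩⟩ := hA
        have hgvW := (hcon' v hv hvv).resolve_right hgv
        have hgvU := (hcon' v' hv' hvv').resolve_left hgv'
        have hv'v0 : Bh φ n v' v = 0 := by
          rw [← hgS.2]; exact perp_symm φ hφ2 W _ hgvU _ hgvW
        have hvv'0 : Bh φ n v v' = 0 := by rw [← hS.eq v' v, hv'v0, map_zero]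
        have hsumiso : Bh φ n (v + v') (v + v') = 0 := by
          simp only [map_add, LinearMap.add_apply, hvv, hvv', hvv'0, hv'v0]; ring
        rcases hcon' (v + v') ((perp φ W).add_mem hv hv') hsumiso with h | h
        · apply hgv'
          rw [Matrix.mulVec_add] at h
          have := W.sub_mem h hgvW
          rwa [add_sub_cancel_left] at this
        · apply hgv
          rw [Matrix.mulVec_add] at h
          have := (perp φ W).sub_mem h hgvU
          rwa [add_sub_cancel_right] at this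
      have hext : ∀ X : Submodule F (Fin n → F),
          (∀ v ∈ perp φ W, Bh φ n v v = 0 → (g : Matrix (Fin n) (Fin n) F) *ᵥ v ∈ X) →
          ∀ x ∈ perp φ W, (g : Matrix (Fin n) (Fin n) F) *ᵥ x ∈ X := by
        intro X hX x hx
        by_cases hxx : Bh φ n x x = 0
        · exact hX x hx hxx
        · obtain ⟨u, huU, huN, hux⟩ := hexu x hx (-(Bh φ n x x)) (by rw [map_neg, hNfix])
            (neg_ne_zero.mpr hxx)
          have hxu : Bh φ n x u = 0 := by rw [← hS.eq u x, hux, map_zero]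
          have hz : Bh φ n (x + u) (x + u) = 0 := by
            simp only [map_add, LinearMap.add_apply, huN, hux, hxu]
            ring
          have hzU : x + u ∈ perp φ W := (perp φ W).add_mem hx huU
          have hzx : Bh φ n (x + u) x ≠ 0 := by
            rw [map_add, LinearMap.add_apply, hux, add_zero]; exact hxx
          obtain ⟨l, hl⟩ := exists_iso_add φ hφ hφ2 x (x + u) hz hzx
          have h1 := hX _ ((perp φ W).add_mem hx ((perp φ W).smul_mem l hzU)) hl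
          have h2 := hX _ hzU hz
          rw [Matrix.mulVec_add, Matrix.mulVec_smul] at h1
          have := X.sub_mem h1 (X.smul_mem l h2)
          rwa [add_sub_cancel_right] at this
      rcases hA with hA | hA
      · have hgU := hext (perp φ W) hA
        have hgUstab : g ∈ Geo.subspaceStabilizer (perp φ W) :=
          mem_stab_of_forall (perp φ W) g hgU
        apply hgstab
        apply mem_stab_of_forall W g
        intro w hw
        apply perp_perp φ hφ hφ2 W hnd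
        intro z hz
        have hz' : ((g⁻¹ : Matrix.GeneralLinearGroup (Fin n) F) : Matrix (Fin n) (Fin n) F) *ᵥ z
            ∈ perp φ W := by
          apply (hgUstab _).mpr
          show (g : Matrix (Fin n) (Fin n) F) *ᵥ _ ∈ perp φ W
          rw [gl_inv_mulVec]
          exact hz
        rw [← gl_inv_mulVec g z, hgS.2]
        exact perp_symm φ hφ2 W _ hz' w hw
      · have hgU := hext W hA
        let f : perp φ W →ₗ[F] W := (Matrix.toLin' (g : Matrix (Fin n) (Fin n) F)).restrict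
          (fun u hu => by rw [Matrix.toLin'_apply]; exact hgU u hu)
        have hfinj : Function.Injective f := by
          intro x y hxy
          apply Subtype.ext
          apply gl_inj g
          have := congrArg Subtype.val hxy
          simpa [f, LinearMap.restrict_apply, Matrix.toLin'_apply] using this
        have := LinearMap.finrank_le_finrank_of_injective hfinj
        omega
    -- Step 2: a vector of `Sset` with anisotropic components
    obtain ⟨t₁, t₂, ht₁W, ht₂U, htS, htN⟩ : ∃ t₁ t₂, t₁ ∈ W ∧ t₂ ∈ perp φ W ∧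
        t₁ + t₂ ∈ Sset φ q M ∧ Bh φ n t₁ t₁ ≠ 0 := by
      obtain ⟨s₁, hs₁W, hs₂U⟩ := proj φ hφ hφ2 W hnd s₀
      have hs₁0 : s₁ ≠ 0 := by
        rintro rfl
        rw [sub_zero] at hs₂U
        exact hs₀U hs₂U
      obtain ⟨s₂, hs₂⟩ : ∃ s₂, s₂ = s₀ - s₁ := ⟨_, rfl⟩
      rw [← hs₂] at hs₂U
      have hs₀eq : s₀ = s₁ + s₂ := by rw [hs₂]; abel
      have hs₂0 : s₂ ≠ 0 := by
        rintro rfl
        rw [add_zero] at hs₀eq
        rw [hs₀eq] at hs₀W
        exact hs₀W hs₁W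
      rw [hs₀eq] at hs₀S
      by_cases hN : Bh φ n s₁ s₁ = 0
      swap
      · exact ⟨s₁, s₂, hs₁W, hs₂U, hs₀S, hN⟩
      have hN2 : Bh φ n s₂ s₂ = 0 := by
        have := hsum s₁ hs₁W _ hs₂U
        rw [hs₀S.1, hN, zero_add] at this
        exact this.symm
      obtain ⟨β, hβ⟩ := Cfsg.Agent.S0780.exists_moved φ hφ
      obtain ⟨s₁', hs₁'W, hs₁'N, hs₁'β⟩ := exists_pair_iso φ hφ hφ2 W hnd s₁ hs₁W hs₁0 hN β
      obtain ⟨s₂', hs₂'U, hs₂'N, hs₂'β⟩ :=
        exists_pair_iso φ hφ hφ2 (perp φ W) hUnd s₂ hs₂U hs₂0 hN2 (1 - β)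
      have hs₁'0 : s₁' ≠ 0 := by
        rintro rfl
        rw [map_zero] at hs₁'β
        exact hβ (by rw [← hs₁'β, map_zero])
      have hs₂'0 : s₂' ≠ 0 := by
        rintro rfl
        rw [map_zero] at hs₂'β
        apply hβ
        have : β = 1 := by linear_combination hs₂'β
        rw [this, map_one]
      obtain ⟨h, hhH, hh1, hh2⟩ := trans φ hφ hφ2 hφq W hnd hdim2 s₁ s₁' s₂ s₂' hs₁W hs₁'W hs₂U
        hs₂'U (by rw [hN, hs₁'N]) (by rw [hN2, hs₂'N]) hs₁0 hs₁'0 hs₂0 hs₂'0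
      have hs'S : s₁' + s₂' ∈ Sset φ q M := by
        have := Sset_gl φ hφq hφ2 M hMK h (hHM hhH) _ hs₀S
        rwa [Matrix.mulVec_add, hh1, hh2] at this
      have hBss' : Bh φ n (s₁ + s₂) (s₁' + s₂') = 1 := by
        simp only [map_add, LinearMap.add_apply, hs₁'β, hs₂'β, hs₂'U s₁ hs₁W,
          perp_symm φ hφ2 W _ hs₂U s₁' hs₁'W]
        ring
      have hs''S := Sset_tv φ hφq hφ2 M hMK (s₁ + s₂) (s₁' + s₂') hs₀S hs'S s hs
      rw [hBss', mul_one] at hs''S
      refine ⟨s₁' + s • s₁, s₂' + s • s₂, W.add_mem hs₁'W (W.smul_mem s hs₁W),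
        (perp φ W).add_mem hs₂'U ((perp φ W).smul_mem s hs₂U), ?_, ?_⟩
      · have e : s₁' + s • s₁ + (s₂' + s • s₂) = s₁' + s₂' + s • (s₁ + s₂) := by
          rw [smul_add]; abel
        rw [e]; exact hs''S
      · have hβ' : Bh φ n s₁' s₁ = φ β := by rw [← hs₁'β]; exact (hS.eq s₁ s₁').symm
        simp only [map_add, LinearMap.add_apply, LinearMap.map_smulₛₗ, LinearMap.smul_apply, map_smul,
          smul_eq_mul, hs₁'N, hN, hs₁'β, hβ', hs]
        intro h0
        apply hβ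
        have : s * (φ β - β) = 0 := by linear_combination h0
        rcases mul_eq_zero.mp this with h | h
        · exact absurd h hs0
        · exact sub_eq_zero.mp h
    -- Step 3: all isotropic vectors with anisotropic components
    have htiso := htS.1
    rw [hsum t₁ ht₁W t₂ ht₂U] at htiso
    have hC : ∀ v₁ ∈ W, ∀ v₂ ∈ perp φ W, Bh φ n v₁ v₁ ≠ 0 → Bh φ n v₁ v₁ + Bh φ n v₂ v₂ = 0 →
        v₁ + v₂ ∈ Sset φ q M := by
      intro v₁ hv₁ v₂ hv₂ hv₁N hv12
      obtain ⟨a, ha⟩ := Cfsg.Agent.S0755.norm_surj φ hφ hφ2 (Bh φ n v₁ v₁ / Bh φ n t₁ t₁)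
        (by rw [map_div₀, hNfix, hNfix]) (div_ne_zero hv₁N htN)
      have hat := Sset_smul φ hφq hφ2 M (t₁ + t₂) htS a
      have h' : φ a * a * Bh φ n t₁ t₁ = Bh φ n v₁ v₁ := by
        rw [ha, div_mul_cancel₀ _ htN]
      have h1 : Bh φ n (a • t₁) (a • t₁) = Bh φ n v₁ v₁ := by
        simp only [LinearMap.map_smulₛₗ, LinearMap.smul_apply, map_smul, smul_eq_mul]
        linear_combination h'
      have h2 : Bh φ n (a • t₂) (a • t₂) = Bh φ n v₂ v₂ := by
        simp only [LinearMap.map_smulₛₗ, LinearMap.smul_apply, map_smul, smul_eq_mul]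
        linear_combination (φ a * a) * htiso - h' - hv12
      have hv₂N : Bh φ n v₂ v₂ ≠ 0 := by
        intro h
        rw [h, add_zero] at hv12
        exact hv₁N hv12
      obtain ⟨h, hhH, hh1, hh2⟩ := trans φ hφ hφ2 hφq W hnd hdim2 (a • t₁) v₁ (a • t₂) v₂
        (W.smul_mem a ht₁W) hv₁ ((perp φ W).smul_mem a ht₂U) hv₂ h1 h2
        (hne _ (by rw [h1]; exact hv₁N)) (hne _ hv₁N) (hne _ (by rw [h2]; exact hv₂N))
        (hne _ hv₂N)
      have := Sset_gl φ hφq hφ2 M hMK h (hHM hhH) _ hat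
      rwa [smul_add, Matrix.mulVec_add, hh1, hh2] at this
    -- Step 4: isotropic vectors with isotropic components
    have hC0 : ∀ v₁ ∈ W, ∀ v₂ ∈ perp φ W, v₁ ≠ 0 → Bh φ n v₁ v₁ = 0 → Bh φ n v₂ v₂ = 0 →
        v₁ + v₂ ∈ Sset φ q M := by
      intro v₁ hv₁ v₂ hv₂ hv₁0 hv₁N hv₂N
      obtain ⟨u₁, hu₁W, hu₁N, hu₁v⟩ := exists_aniso φ hφ hφ2 W hnd v₁ hv₁ hv₁0
      obtain ⟨u₂, hu₂U, hu₂N, hu₂v⟩ := hexu v₂ hv₂ (-(Bh φ n u₁ u₁)) (by rw [map_neg, hNfix])
        (neg_ne_zero.mpr hu₁N)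
      have huS : u₁ + u₂ ∈ Sset φ q M := hC u₁ hu₁W u₂ hu₂U hu₁N (by rw [hu₂N]; ring)
      obtain ⟨t, ht⟩ : ∃ t, t = s * Bh φ n u₁ v₁ := ⟨_, rfl⟩
      have ht0 : t ≠ 0 := by rw [ht]; exact mul_ne_zero hs0 hu₁v
      have hu'1N : Bh φ n (v₁ - t • u₁) (v₁ - t • u₁) = φ t * t * Bh φ n u₁ u₁ := by
        have e1 : Bh φ n v₁ u₁ = φ (Bh φ n u₁ v₁) := (hS.eq u₁ v₁).symm
        simp only [map_sub, LinearMap.sub_apply, LinearMap.map_smulₛₗ, LinearMap.smul_apply,
          map_smul, smul_eq_mul, hv₁N, e1, ht, map_mul, hs]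
        ring
      have hu'2N : Bh φ n (v₂ - t • u₂) (v₂ - t • u₂) = -(φ t * t * Bh φ n u₁ u₁) := by
        have e2 : Bh φ n v₂ u₂ = 0 := by rw [← hS.eq u₂ v₂, hu₂v, map_zero]
        simp only [map_sub, LinearMap.sub_apply, LinearMap.map_smulₛₗ, LinearMap.smul_apply,
          map_smul, smul_eq_mul, hv₂N, e2, hu₂v, hu₂N]
        ring
      have hNt : φ t * t * Bh φ n u₁ u₁ ≠ 0 :=
        mul_ne_zero (mul_ne_zero (by rwa [Ne, map_eq_zero]) ht0) hu₁N
      have hu'S : (v₁ - t • u₁) + (v₂ - t • u₂) ∈ Sset φ q M :=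
        hC _ (W.sub_mem hv₁ (W.smul_mem t hu₁W)) _
          ((perp φ W).sub_mem hv₂ ((perp φ W).smul_mem t hu₂U))
          (by rw [hu'1N]; exact hNt) (by rw [hu'1N, hu'2N]; ring)
      have hfin := Sset_tv φ hφq hφ2 M hMK (u₁ + u₂) ((v₁ - t • u₁) + (v₂ - t • u₂)) huS hu'S s hs
      have hBuu' : Bh φ n (u₁ + u₂) ((v₁ - t • u₁) + (v₂ - t • u₂)) = Bh φ n u₁ v₁ := by
        simp only [map_add, map_sub, map_smul, LinearMap.add_apply, smul_eq_mul, hu₂N, hu₂v,
          hv₂ u₁ hu₁W, perp_symm φ hφ2 W u₂ hu₂U v₁ hv₁, hu₂U u₁ hu₁W,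
          perp_symm φ hφ2 W u₂ hu₂U u₁ hu₁W]
        ring
      rw [hBuu', ← ht] at hfin
      have e : v₁ - t • u₁ + (v₂ - t • u₂) + t • (u₁ + u₂) = v₁ + v₂ := by
        rw [smul_add]; abel
      rwa [e] at hfin
    intro y c hyy hc
    suffices hy : y ∈ Sset φ q M from hy.2 c hc
    obtain ⟨y₁, hy₁W, hy₂U⟩ := proj φ hφ hφ2 W hnd y
    obtain ⟨y₂, hy₂⟩ : ∃ y₂, y₂ = y - y₁ := ⟨_, rfl⟩
    rw [← hy₂] at hy₂U
    have hyeq : y = y₁ + y₂ := by rw [hy₂]; abel
    rw [hyeq] at hyy ⊢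
    have hyN : Bh φ n y₁ y₁ + Bh φ n y₂ y₂ = 0 := by
      rw [← hsum y₁ hy₁W _ hy₂U]; exact hyy
    by_cases hy₁N : Bh φ n y₁ y₁ = 0
    · have hy₂N : Bh φ n y₂ y₂ = 0 := by rw [hy₁N, zero_add] at hyN; exact hyN
      by_cases hy₁0 : y₁ = 0
      · rw [hy₁0, zero_add]
        exact hUS y₂ hy₂U hy₂N
      · exact hC0 y₁ hy₁W _ hy₂U hy₁0 hy₁N hy₂N
    · exact hC y₁ hy₁W _ hy₂U hy₁N hyN

end Cfsg.Agent.S5654
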