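import Mathlib
import Cfsg.Statements.S5657
import Cfsg.Agent.S5654
import Cfsg.Agent.S5648

set_option autoImplicit false
open Cfsg

namespace Cfsg.Agent.S5657

open Matrix
open Cfsg.Agent.S0837 (Bh Bh_apply Bh_symm Bh_nondeg)
open Cfsg.Agent.S0780 (IsSUm)
open Cfsg.Agent.S0781 (EE EE_mulVec EE_isSUm EE_comm)
open Cfsg.Agent.S5653 (herm_B mem_G_iff toG toG_coe toG_mem tv tv_coe tv_mulVec tv_mem gl_ext
  gl_inv_mulVec gl_inv_mulVec' gl_inj Sset Sset_gl Sset_tv Sset_smul mem_stab_of_forall stab_mulVec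
  gen exists_iso_add exists_perp_not)

section core

variable {F : Type*} [Field F] (φ : F →+* F) {n q : ℕ}

local notation "B" => Bh φ n

/-- a totally isotropic pair of vectors -/
def Iso2 (v y : Fin n → F) : Prop := B v v = 0 ∧ B y y = 0 ∧ B v y = 0

/-- the Eichler element attached to a totally isotropic pair -/
noncomputable def E (v y : Fin n → F) : Matrix.GeneralLinearGroup (Fin n) F :=
  toG (EE φ v y 0)

variable (hφ : φ ≠ RingHom.id F) (hφ2 : ∀ a : F, φ (φ a) = a)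

include hφ2 in
theorem Iso2.symm {v y : Fin n → F} (h : Iso2 φ v y) : Iso2 φ y v :=
  ⟨h.2.1, h.1, by rw [← (Bh_symm φ hφ2 n).eq v y, h.2.2, map_zero]⟩

theorem Iso2.smul {v y : Fin n → F} (h : Iso2 φ v y) (s : F) : Iso2 φ v (s • y) :=
  ⟨h.1, by simp only [LinearMap.map_smulₛₗ, LinearMap.smul_apply, map_smul, smul_eq_mul, h.2.1,
    mul_zero], by rw [map_smul, h.2.2, smul_zero]⟩

include hφ2 in
theorem E_isSUm (v y : Fin n → F) (h : Iso2 φ v y) : IsSUm φ (EE φ v y 0) :=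
  EE_isSUm φ hφ2 v y 0 h.1 h.2.2 (by rw [map_zero, add_zero, h.2.1, neg_zero])

include hφ2 in
theorem E_mulVec (v y : Fin n → F) (h : Iso2 φ v y) (x : Fin n → F) :
    ((E φ v y : Matrix.GeneralLinearGroup (Fin n) F) : Matrix (Fin n) (Fin n) F) *ᵥ x
      = x + (B v x) • y - (B y x) • v := by
  rw [E, toG_coe _ (E_isSUm φ hφ2 v y h).1, EE_mulVec, zero_smul, add_zero, smul_neg,
    sub_eq_add_neg]

variable (hφq : ∀ a : F, φ a = a ^ q)

include hφ2 hφq in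
theorem E_mem (v y : Fin n → F) (h : Iso2 φ v y) :
    E φ v y ∈ Cfsg.GU n F q ⊓ Cfsg.Geo.specialLinear (Fin n) F :=
  toG_mem φ hφq _ (E_isSUm φ hφ2 v y h)

include hφ2 in
theorem conj_E (g : Matrix.GeneralLinearGroup (Fin n) F)
    (hg : IsSUm φ (g : Matrix (Fin n) (Fin n) F)) (v y : Fin n → F) (h : Iso2 φ v y) :
    Iso2 φ ((g : Matrix (Fin n) (Fin n) F) *ᵥ v) ((g : Matrix (Fin n) (Fin n) F) *ᵥ y) ∧
    g * E φ v y * g⁻¹ = E φ ((g : Matrix (Fin n) (Fin n) F) *ᵥ v)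
      ((g : Matrix (Fin n) (Fin n) F) *ᵥ y) := by
  have h' : Iso2 φ ((g : Matrix (Fin n) (Fin n) F) *ᵥ v)
      ((g : Matrix (Fin n) (Fin n) F) *ᵥ y) :=
    ⟨by rw [hg.2]; exact h.1, by rw [hg.2]; exact h.2.1, by rw [hg.2]; exact h.2.2⟩
  refine ⟨h', ?_⟩
  rw [mul_inv_eq_iff_eq_mul]
  apply gl_ext
  intro x
  rw [Units.val_mul, Units.val_mul, ← Matrix.mulVec_mulVec, ← Matrix.mulVec_mulVec,
    E_mulVec φ hφ2 v y h, E_mulVec φ hφ2 _ _ h', Matrix.mulVec_sub, Matrix.mulVec_add,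
    Matrix.mulVec_smul, Matrix.mulVec_smul, hg.2, hg.2]

include hφ2 in
theorem E_swap_smul (x y : Fin n → F) (s : F) (h : Iso2 φ x y) :
    E φ y (s • x) = E φ x ((-φ s) • y) := by
  apply gl_ext
  intro z
  rw [E_mulVec φ hφ2 y (s • x) ((Iso2.symm φ hφ2 h).smul φ s),
    E_mulVec φ hφ2 x ((-φ s) • y) (h.smul φ (-φ s))]
  simp only [LinearMap.map_smulₛₗ, LinearMap.smul_apply, smul_eq_mul, map_neg, hφ2]
  module

include hφ2 hφq in
theorem E_self (a : Fin n → F) (ha : B a a = 0) (c : F) :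
    E φ a (c • a) = tv q a (c - φ c) := by
  have h : Iso2 φ a (c • a) := Iso2.smul φ ⟨ha, ha, ha⟩ c
  have hc : φ (c - φ c) = -(c - φ c) := by rw [map_sub, hφ2]; ring
  apply gl_ext
  intro z
  rw [E_mulVec φ hφ2 a (c • a) h, tv_mulVec φ hφq hφ2 a _ ha hc]
  simp only [LinearMap.map_smulₛₗ, LinearMap.smul_apply, smul_eq_mul]
  module

include hφ in
theorem exists_half (hφ2 : ∀ a : F, φ (φ a) = a) (c : F) (hc : φ c = -c) :
    ∃ c', c' - φ c' = c := by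
  obtain ⟨θ, hθ⟩ := Cfsg.Agent.S0780.exists_moved φ hφ
  have hne : θ - φ θ ≠ 0 := sub_ne_zero.mpr (Ne.symm hθ)
  refine ⟨c * θ / (θ - φ θ), ?_⟩
  have hne' : φ θ - θ ≠ 0 := sub_ne_zero.mpr hθ
  rw [map_div₀, map_mul, map_sub, hφ2, hc]
  field_simp
  ring

/-- The pair relation: the Eichler elements of `x` and all multiples of `y` lie in `M`. -/
def TT (M : Subgroup (Matrix.GeneralLinearGroup (Fin n) F)) (x y : Fin n → F) : Prop :=
  Iso2 φ x y ∧ ∀ s : F, E φ x (s • y) ∈ M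

include hφ2 in
theorem TT_symm (M : Subgroup (Matrix.GeneralLinearGroup (Fin n) F)) (x y : Fin n → F)
    (h : TT φ M x y) : TT φ M y x := by
  refine ⟨Iso2.symm φ hφ2 h.1, fun s => ?_⟩
  rw [E_swap_smul φ hφ2 x y s h.1]
  exact h.2 _

theorem TT_smul (M : Subgroup (Matrix.GeneralLinearGroup (Fin n) F)) (x y : Fin n → F) (r : F)
    (h : TT φ M x y) : TT φ M x (r • y) := by
  refine ⟨h.1.smul φ r, fun s => ?_⟩
  rw [smul_smul]
  exact h.2 _

theorem TT_neg (M : Subgroup (Matrix.GeneralLinearGroup (Fin n) F)) (x y : Fin n → F)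
    (h : TT φ M x y) : TT φ M x (-y) := by
  have := TT_smul φ M x y (-1) h
  rwa [neg_one_smul] at this

include hφ2 hφq in
theorem TT_conj (M : Subgroup (Matrix.GeneralLinearGroup (Fin n) F))
    (hM : M ≤ Cfsg.GU n F q ⊓ Cfsg.Geo.specialLinear (Fin n) F)
    (g : Matrix.GeneralLinearGroup (Fin n) F) (hg : g ∈ M) (x y : Fin n → F)
    (h : TT φ M x y) :
    TT φ M ((g : Matrix (Fin n) (Fin n) F) *ᵥ x) ((g : Matrix (Fin n) (Fin n) F) *ᵥ y) := by
  have hgS := (mem_G_iff φ hφq g).1 (hM hg)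
  refine ⟨(conj_E φ hφ2 g hgS x y h.1).1, fun s => ?_⟩
  rw [← Matrix.mulVec_smul, ← (conj_E φ hφ2 g hgS x (s • y) (h.1.smul φ s)).2]
  exact M.mul_mem (M.mul_mem hg (h.2 s)) (M.inv_mem hg)

include hφ hφ2 hφq in
theorem T_add (M : Subgroup (Matrix.GeneralLinearGroup (Fin n) F)) (x y y' : Fin n → F)
    (hx : x ∉ Sset φ q M) (h : TT φ M x y) (h' : TT φ M x y') :
    B y y' = 0 ∧ TT φ M x (y + y') := by
  have hS := Bh_symm φ hφ2 n
  have hxx := h.1.1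
  have hyx : B y x = 0 := (Iso2.symm φ hφ2 h.1).2.2
  have hy'x : B y' x = 0 := (Iso2.symm φ hφ2 h'.1).2.2
  have h0 : B y y' = 0 := by
    by_contra hne
    apply hx
    refine ⟨hxx, fun c hc => ?_⟩
    obtain ⟨c', hc'⟩ := exists_half φ hφ hφ2 c hc
    have hφne : φ (B y y') ≠ 0 := by rwa [Ne, map_eq_zero]
    have e1 : B y' y = φ (B y y') := (hS.eq y y').symm
    have hI := h.1.smul φ (c' / φ (B y y'))
    have key := EE_comm φ hφq x ((c' / φ (B y y')) • y) y' 0 0 c hxx hI.2.2 h'.1.2.2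
      (by rw [LinearMap.map_smulₛₗ, LinearMap.smul_apply, hyx, smul_zero]) hy'x
      (by
        rw [map_smul, LinearMap.map_smulₛₗ, LinearMap.smul_apply, e1, smul_eq_mul, smul_eq_mul,
          map_div₀, hφ2, div_mul_cancel₀ _ hφne, div_mul_cancel₀ _ hne]
        exact hc'.symm)
    have e2 : E φ x ((c' / φ (B y y')) • y) * E φ x y'
        = tv q x c * (E φ x y' * E φ x ((c' / φ (B y y')) • y)) := by
      apply Units.ext
      rw [Units.val_mul, Units.val_mul, Units.val_mul, E, E, toG_coe _ (E_isSUm φ hφ2 _ _ hI).1,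
        toG_coe _ (E_isSUm φ hφ2 _ _ h'.1).1, tv_coe φ hφq hφ2 x c hxx hc]
      exact key
    have e3 : E φ x y' ∈ M := by
      have := h'.2 1
      rwa [one_smul] at this
    have : tv q x c = E φ x ((c' / φ (B y y')) • y) * E φ x y' *
        (E φ x y' * E φ x ((c' / φ (B y y')) • y))⁻¹ := by
      rw [e2]
      group
    rw [this]
    exact M.mul_mem (M.mul_mem (h.2 _) e3) (M.inv_mem (M.mul_mem e3 (h.2 _)))
  have hy'y : B y' y = 0 := by rw [← hS.eq y y', h0, map_zero]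
  have hI2 : Iso2 φ x (y + y') := by
    refine ⟨hxx, ?_, ?_⟩
    · simp only [map_add, LinearMap.add_apply, h.1.2.1, h'.1.2.1, h0, hy'y, add_zero]
    · rw [map_add, h.1.2.2, h'.1.2.2, add_zero]
  refine ⟨h0, hI2, fun s => ?_⟩
  have : E φ x (s • (y + y')) = E φ x (s • y) * E φ x (s • y') := by
    apply gl_ext
    intro z
    rw [Units.val_mul, ← Matrix.mulVec_mulVec, E_mulVec φ hφ2 x (s • y') (h'.1.smul φ s),
      E_mulVec φ hφ2 x (s • y) (h.1.smul φ s), E_mulVec φ hφ2 x (s • (y + y')) (hI2.smul φ s)]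
    simp only [map_add, map_sub, map_smul, LinearMap.add_apply, LinearMap.map_smulₛₗ,
      LinearMap.smul_apply, smul_eq_mul, hxx, h.1.2.2, h'.1.2.2, h0, hyx, mul_zero, add_zero,
      sub_zero]
    module
  rw [this]
  exact M.mul_mem (h.2 s) (h'.2 s)

include hφ hφ2 hφq in
theorem S_line (M : Subgroup (Matrix.GeneralLinearGroup (Fin n) F)) (u w : Fin n → F)
    (huw : B u w = 0) (hww : B w w = 0) (h : ∀ s : F, u + s • w ∈ Sset φ q M) :
    w ∈ Sset φ q M := by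
  have hS := Bh_symm φ hφ2 n
  have hu : u ∈ Sset φ q M := by simpa using h 0
  have huu := hu.1
  have hwu : B w u = 0 := by rw [← hS.eq u w, huw, map_zero]
  obtain ⟨θ, hθ⟩ := Cfsg.Agent.S0751.trace_surj φ hφ hφ2 1 (map_one φ)
  have hu1 : u + w ∈ Sset φ q M := by simpa using h 1
  have huθ := h θ
  have huθ1 := h (1 + θ)
  refine ⟨hww, fun c hc => ?_⟩
  have hc' : φ (-c) = -(-c) := by rw [map_neg, hc]
  have e : tv q w c = tv q u c * tv q (u + w) (-c) * tv q (u + θ • w) (-c)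
      * tv q (u + (1 + θ) • w) c := by
    apply gl_ext
    intro z
    rw [Units.val_mul, Units.val_mul, Units.val_mul, ← Matrix.mulVec_mulVec,
      ← Matrix.mulVec_mulVec, ← Matrix.mulVec_mulVec, tv_mulVec φ hφq hφ2 _ c huθ1.1 hc,
      tv_mulVec φ hφq hφ2 _ (-c) huθ.1 hc', tv_mulVec φ hφq hφ2 _ (-c) hu1.1 hc',
      tv_mulVec φ hφq hφ2 _ c huu hc, tv_mulVec φ hφq hφ2 _ c hww hc]
    simp only [map_add, LinearMap.add_apply, LinearMap.map_smulₛₗ, LinearMap.smul_apply, map_smul,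
      smul_eq_mul, huu, hww, huw, hwu, map_one, mul_zero, add_zero, zero_add]
    funext i
    simp only [Pi.add_apply, Pi.smul_apply, smul_eq_mul]
    linear_combination (-(c * B w z * w i)) * hθ
  rw [e]
  exact M.mul_mem (M.mul_mem (M.mul_mem (hu.2 c hc) (hu1.2 _ hc')) (huθ.2 _ hc')) (huθ1.2 c hc)

end core

section pq

variable {F : Type*} [Field F] (φ : F →+* F) {n q : ℕ} (P Q : Submodule F (Fin n → F))
  (hφ : φ ≠ RingHom.id F) (hφ2 : ∀ a : F, φ (φ a) = a) (hφq : ∀ a : F, φ a = a ^ q)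
  (hP : ∀ u ∈ P, ∀ v ∈ P, Bh φ n u v = 0) (hQ : ∀ u ∈ Q, ∀ v ∈ Q, Bh φ n u v = 0)
  (hsum : ∀ x, ∃ p ∈ P, ∃ b ∈ Q, x = p + b)

local notation "B" => Bh φ n

include hφ2 in
omit P Q in
theorem swap0 (x y : Fin n → F) (h : B x y = 0) : B y x = 0 := by
  rw [← (Bh_symm φ hφ2 n).eq x y, h, map_zero]

include hφ2 in
omit P Q in
theorem swapne (x y : Fin n → F) (h : B x y ≠ 0) : B y x ≠ 0 := by
  rw [← (Bh_symm φ hφ2 n).eq x y]
  rwa [Ne, map_eq_zero]

include hsum in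
omit φ in
theorem sum_symm : ∀ x, ∃ b ∈ Q, ∃ p ∈ P, x = b + p := by
  intro x
  obtain ⟨p, hp, b, hb, rfl⟩ := hsum x
  exact ⟨b, hb, p, hp, add_comm p b⟩

include hφ2 hP hQ hsum in
theorem disj (x : Fin n → F) (hxP : x ∈ P) (hxQ : x ∈ Q) : x = 0 := by
  apply (Bh_nondeg φ hφ2 n).1
  intro y
  obtain ⟨p, hp, b, hb, rfl⟩ := hsum y
  rw [map_add, hP x hxP p hp, hQ x hxQ b hb, add_zero]

include hφ2 hP hsum in
theorem dual (U : Submodule F (Fin n → F)) (hU : U ≤ P) (a : Fin n → F)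
    (ha : a ∈ P) (haU : a ∉ U) :
    ∃ b ∈ Q, (∀ u ∈ U, B u b = 0) ∧ B a b ≠ 0 := by
  have hS := Bh_symm φ hφ2 n
  obtain ⟨u₀, hu₀U, hu₀a⟩ := exists_perp_not φ hφ2 U a haU
  obtain ⟨p, hp, b, hb, rfl⟩ := hsum u₀
  refine ⟨b, hb, fun u hu => ?_, ?_⟩
  · have h1 := hu₀U u hu
    rw [map_add, LinearMap.add_apply, hP p hp u (hU hu), zero_add] at h1
    rw [← hS.eq b u, h1, map_zero]
  · rw [map_add, LinearMap.add_apply, hP p hp a ha, zero_add] at hu₀a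
    rw [← hS.eq b a]
    rwa [Ne, map_eq_zero]

include hφ2 hP hsum in
theorem dual0 (a : Fin n → F) (ha : a ∈ P) (ha0 : a ≠ 0) : ∃ b ∈ Q, B a b ≠ 0 := by
  obtain ⟨b, hb, -, hab⟩ := dual φ P Q hφ2 hP hsum ⊥ bot_le a ha
    (fun h => ha0 ((Submodule.mem_bot F).mp h))
  exact ⟨b, hb, hab⟩

include hφ2 hP hsum in
theorem dual1 (u a : Fin n → F) (hu : u ∈ P) (ha : a ∈ P) (h : ∀ r : F, a ≠ r • u) :
    ∃ b ∈ Q, B u b = 0 ∧ B a b ≠ 0 := by
  obtain ⟨b, hb, hub, hab⟩ := dual φ P Q hφ2 hP hsum (Submodule.span F {u})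
    ((Submodule.span_singleton_le_iff_mem u P).mpr hu) a ha
    (fun hmem => by
      obtain ⟨r, hr⟩ := Submodule.mem_span_singleton.mp hmem
      exact h r hr.symm)
  exact ⟨b, hb, hub u (Submodule.mem_span_singleton_self u), hab⟩

omit P Q in
theorem exists_avoid (W U : Submodule F (Fin n → F)) (k : ℕ) (p : Fin k → (Fin n → F))
    (h : Module.finrank F U + k < Module.finrank F W) :
    ∃ w ∈ W, (∀ i, B (p i) w = 0) ∧ w ∉ U := by
  by_contra hcon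
  push Not at hcon
  let f : W →ₗ[F] (Fin k → F) := LinearMap.pi (fun i => (Bh φ n (p i)).comp W.subtype)
  have hf : ∀ (w : W) (i : Fin k), f w i = B (p i) (w : Fin n → F) := fun w i => rfl
  have hle : (LinearMap.ker f).map W.subtype ≤ U := by
    rintro _ ⟨w, hw, rfl⟩
    refine hcon w w.2 (fun i => ?_)
    rw [← hf, LinearMap.mem_ker.mp hw]
    rfl
  have h1 := Submodule.finrank_mono hle
  have h2 : Module.finrank F ((LinearMap.ker f).map W.subtype)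
      = Module.finrank F (LinearMap.ker f) :=
    Submodule.finrank_map_subtype_eq W (LinearMap.ker f)
  have h3 := LinearMap.finrank_range_add_finrank_ker f
  have h4 : Module.finrank F (LinearMap.range f) ≤ k := by
    have := Submodule.finrank_le (LinearMap.range f)
    rwa [Module.finrank_fin_fun] at this
  omega

omit φ in
theorem finrank_pair_le (x y : Fin n → F) :
    Module.finrank F (Submodule.span F ({x, y} : Set (Fin n → F))) ≤ 2 := by
  classical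
  have h := finrank_span_finset_le_card (R := F) ({x, y} : Finset (Fin n → F))
  rw [Finset.coe_pair] at h
  exact h.trans Finset.card_le_two

include hφ hφ2 hφq hP hQ hsum in
theorem lemK (hfin : 3 < Module.finrank F P)
    (M : Subgroup (Matrix.GeneralLinearGroup (Fin n) F))
    (hM : M ≤ Cfsg.GU n F q ⊓ Cfsg.Geo.specialLinear (Fin n) F)
    (hH : ∀ p ∈ P, ∀ b ∈ Q, B p b = 0 → E φ p b ∈ M)
    (x y : Fin n → F) (hT : TT φ M x y) (x₁ y₁ x₂ y₂ : Fin n → F)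
    (hx₁ : x₁ ∈ P) (hy₁ : y₁ ∈ P) (hx₂ : x₂ ∈ Q) (hy₂ : y₂ ∈ Q)
    (hx : x = x₁ + x₂) (hy : y = y₁ + y₂) (k1 : ∀ r : F, y₁ ≠ r • x₁)
    (k2 : ∀ r : F, y₂ ≠ r • x₂) : x ∈ Sset φ q M := by
  by_contra hxS
  have hS := Bh_symm φ hφ2 n
  have hsum' := sum_symm P Q hsum
  obtain ⟨a₁, ha₁, ha₁x, ha₁y⟩ := dual1 φ Q P hφ2 hQ hsum' x₂ y₂ hx₂ hy₂ k2
  obtain ⟨a₂, ha₂, ha₂x, ha₂U⟩ := exists_avoid φ P (Submodule.span F {x₁, y₁}) 1 (fun _ => x₂)
    (by have := finrank_pair_le x₁ y₁; omega)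
  have ha₂x' : B x₂ a₂ = 0 := ha₂x 0
  obtain ⟨a, ha, hax, hay, haU⟩ : ∃ a ∈ P, B x₂ a = 0 ∧ B y₂ a ≠ 0 ∧
      a ∉ Submodule.span F {x₁, y₁} := by
    by_cases c1 : a₁ ∈ Submodule.span F {x₁, y₁}
    · by_cases c2 : B y₂ a₂ = 0
      · refine ⟨a₁ + a₂, P.add_mem ha₁ ha₂, ?_, ?_, ?_⟩
        · rw [map_add, ha₁x, ha₂x', add_zero]
        · rw [map_add, c2, add_zero]
          exact ha₁y
        · intro hmem
          apply ha₂U
          have := Submodule.sub_mem _ hmem c1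
          rwa [add_sub_cancel_left] at this
      · exact ⟨a₂, ha₂, ha₂x', c2, ha₂U⟩
    · exact ⟨a₁, ha₁, ha₁x, ha₁y, c1⟩
  have hy₁U : y₁ ∉ Submodule.span F {x₁, a} := by
    intro hmem
    obtain ⟨c, d, hcd⟩ := Submodule.mem_span_pair.mp hmem
    by_cases hd : d = 0
    · apply k1 c
      rw [← hcd, hd, zero_smul, add_zero]
    · apply haU
      have : a = d⁻¹ • y₁ - (d⁻¹ * c) • x₁ := by
        rw [← hcd, smul_add, smul_smul, smul_smul, inv_mul_cancel₀ hd, one_smul]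
        abel
      rw [this]
      exact Submodule.sub_mem _
        (Submodule.smul_mem _ _ (Submodule.subset_span (by simp)))
        (Submodule.smul_mem _ _ (Submodule.subset_span (by simp)))
  obtain ⟨b, hb, hbU, hby⟩ := dual φ P Q hφ2 hP hsum (Submodule.span F {x₁, a})
    (Submodule.span_le.mpr (by
      intro z hz
      rcases hz with rfl | rfl
      · exact hx₁
      · exact ha)) y₁ hy₁ hy₁U
  have hbx : B x₁ b = 0 := hbU x₁ (Submodule.subset_span (by simp))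
  have hba : B a b = 0 := hbU a (Submodule.subset_span (by simp))
  have hI : Iso2 φ a b := ⟨hP a ha a ha, hQ b hb b hb, hba⟩
  have hax' : B a x = 0 := by
    rw [hx, map_add, hP a ha x₁ hx₁, zero_add]
    exact swap0 φ hφ2 _ _ hax
  have hbx' : B b x = 0 := by
    rw [hx, map_add, hQ b hb x₂ hx₂, add_zero]
    exact swap0 φ hφ2 _ _ hbx
  have hay' : B a y = B a y₂ := by rw [hy, map_add, hP a ha y₁ hy₁, zero_add]
  have hyb' : B y b = B y₁ b := by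
    rw [hy, map_add, LinearMap.add_apply, hQ y₂ hy₂ b hb, add_zero]
  have hay'' : B a y ≠ 0 := by
    rw [hay']
    exact swapne φ hφ2 _ _ hay
  obtain ⟨θ, hθ⟩ := Cfsg.Agent.S0780.exists_moved φ hφ
  obtain ⟨w, hw⟩ : ∃ w, w = B a y * B y b := ⟨_, rfl⟩
  have hw0 : w ≠ 0 := by
    rw [hw]
    exact mul_ne_zero hay'' (by rw [hyb']; exact hby)
  have hIs := hI.smul φ (θ / w)
  have hEM : E φ a ((θ / w) • b) ∈ M := hH a ha _ (Q.smul_mem _ hb) hIs.2.2
  have hfix : ((E φ a ((θ / w) • b) : Matrix.GeneralLinearGroup (Fin n) F) :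
      Matrix (Fin n) (Fin n) F) *ᵥ x = x := by
    rw [E_mulVec φ hφ2 _ _ hIs, hax', LinearMap.map_smulₛₗ, LinearMap.smul_apply, hbx', smul_zero,
      zero_smul, zero_smul, add_zero, sub_zero]
  have hT' := TT_conj φ hφ2 hφq M hM _ hEM x y hT
  rw [hfix] at hT'
  have h3 := (T_add φ hφ hφ2 hφq M x y _ hxS hT hT').1
  rw [E_mulVec φ hφ2 _ _ hIs] at h3
  have hyy := hT.1.2.1
  have e1 : B b y = φ (B y b) := (hS.eq y b).symm
  have e2 : B y a = φ (B a y) := (hS.eq a y).symm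
  have hsw : θ / w * w = θ := div_mul_cancel₀ _ hw0
  have h3' : B y (y + B a y • ((θ / w) • b) - B ((θ / w) • b) y • a)
      = θ / w * w - φ (θ / w * w) := by
    simp only [map_add, map_sub, map_smul, LinearMap.map_smulₛₗ, LinearMap.smul_apply, smul_eq_mul,
      hyy, e1, e2, map_mul, hw]
    ring
  rw [h3', hsw] at h3
  exact hθ (sub_eq_zero.mp h3).symm

include hφ hφ2 hφq hP hQ hsum in
theorem T_pure (M : Subgroup (Matrix.GeneralLinearGroup (Fin n) F))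
    (hH : ∀ p ∈ P, ∀ b ∈ Q, B p b = 0 → E φ p b ∈ M)
    (a : Fin n → F) (ha : a ∈ P) (haS : a ∉ Sset φ q M) (y : Fin n → F)
    (hT : TT φ M a y) : y ∈ Q := by
  obtain ⟨p, hp, b₀, hb₀, rfl⟩ := hsum y
  have haa := hP a ha a ha
  have hTb : ∀ b ∈ Q, B a b = 0 → TT φ M a b := fun b hb hab =>
    ⟨⟨haa, hQ b hb b hb, hab⟩, fun s => hH a ha (s • b) (Q.smul_mem s hb)
      (by rw [map_smul, hab, smul_zero])⟩
  have hpb : ∀ b ∈ Q, B a b = 0 → B p b = 0 := by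
    intro b hb hab
    have := (T_add φ hφ hφ2 hφq M a (p + b₀) b haS hT (hTb b hb hab)).1
    rwa [map_add, LinearMap.add_apply, hQ b₀ hb₀ b hb, add_zero] at this
  have hpa : ∃ r : F, p = r • a := by
    by_contra hne
    push Not at hne
    obtain ⟨b, hb, hab, hpb'⟩ := dual1 φ P Q hφ2 hP hsum a p ha hp hne
    exact hpb' (hpb b hb hab)
  obtain ⟨r, rfl⟩ := hpa
  have haq : B a b₀ = 0 := by
    have := hT.1.2.2
    rwa [map_add, map_smul, haa, smul_zero, zero_add] at this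
  have hTq := TT_neg φ M a b₀ (hTb b₀ hb₀ haq)
  have hTp := (T_add φ hφ hφ2 hφq M a (r • a + b₀) (-b₀) haS hT hTq).2
  rw [add_neg_cancel_right] at hTp
  by_cases hr : r = 0
  · rw [hr, zero_smul, zero_add]
    exact hb₀
  · exfalso
    apply haS
    refine ⟨haa, fun c hc => ?_⟩
    obtain ⟨c', hc'⟩ := exists_half φ hφ hφ2 c hc
    have := hTp.2 (c' / r)
    rw [smul_smul, div_mul_cancel₀ _ hr, E_self φ hφ2 hφq a haa c', hc'] at this
    exact this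

include hφ hφ2 hφq hP hQ hsum in
theorem pure_image (hfinP : 3 < Module.finrank F P) (hfinQ : 3 < Module.finrank F Q)
    (M : Subgroup (Matrix.GeneralLinearGroup (Fin n) F))
    (hM : M ≤ Cfsg.GU n F q ⊓ Cfsg.Geo.specialLinear (Fin n) F)
    (hH : ∀ p ∈ P, ∀ b ∈ Q, B p b = 0 → E φ p b ∈ M)
    (hS0 : ∀ x, x ∈ Sset φ q M → x = 0)
    (g : Matrix.GeneralLinearGroup (Fin n) F) (hg : g ∈ M)
    (a : Fin n → F) (ha : a ∈ P) :
    (g : Matrix (Fin n) (Fin n) F) *ᵥ a ∈ P ∨ (g : Matrix (Fin n) (Fin n) F) *ᵥ a ∈ Q := by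
  by_cases ha0 : a = 0
  · left
    rw [ha0, Matrix.mulVec_zero]
    exact P.zero_mem
  obtain ⟨x₁, hx₁, x₂, hx₂, hx⟩ := hsum ((g : Matrix (Fin n) (Fin n) F) *ᵥ a)
  by_cases hx₁0 : x₁ = 0
  · right
    rw [hx, hx₁0, zero_add]
    exact hx₂
  by_cases hx₂0 : x₂ = 0
  · left
    rw [hx, hx₂0, add_zero]
    exact hx₁
  exfalso
  have hsum' := sum_symm P Q hsum
  have hH' : ∀ b ∈ Q, ∀ p ∈ P, B b p = 0 → E φ b p ∈ M := fun b hb p hp h => by
    have hI : Iso2 φ p b := ⟨hP p hp p hp, hQ b hb b hb, swap0 φ hφ2 _ _ h⟩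
    have := E_swap_smul φ hφ2 p b 1 hI
    rw [one_smul] at this
    rw [this]
    exact hH p hp _ (Q.smul_mem _ hb) (by rw [map_smul, hI.2.2, smul_zero])
  obtain ⟨bs, hbs, hbs1⟩ := dual0 φ P Q hφ2 hP hsum x₁ hx₁ hx₁0
  obtain ⟨as, has, has1⟩ := dual0 φ Q P hφ2 hQ hsum' x₂ hx₂ hx₂0
  obtain ⟨b, hb, hbp, hb0⟩ := exists_avoid φ Q ⊥ 3
    ![a, ((g⁻¹ : Matrix.GeneralLinearGroup (Fin n) F) : Matrix (Fin n) (Fin n) F) *ᵥ bs,
      ((g⁻¹ : Matrix.GeneralLinearGroup (Fin n) F) : Matrix (Fin n) (Fin n) F) *ᵥ as]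
    (by rw [finrank_bot]; omega)
  have hb0' : b ≠ 0 := fun h => hb0 (by rw [h]; exact Submodule.zero_mem _)
  have hab : B a b = 0 := hbp 0
  have hb1 : B (((g⁻¹ : Matrix.GeneralLinearGroup (Fin n) F) :
      Matrix (Fin n) (Fin n) F) *ᵥ bs) b = 0 := hbp 1
  have hb2 : B (((g⁻¹ : Matrix.GeneralLinearGroup (Fin n) F) :
      Matrix (Fin n) (Fin n) F) *ᵥ as) b = 0 := hbp 2
  obtain ⟨y₁, hy₁, y₂, hy₂, hy⟩ := hsum ((g : Matrix (Fin n) (Fin n) F) *ᵥ b)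
  have hTab : TT φ M a b :=
    ⟨⟨hP a ha a ha, hQ b hb b hb, hab⟩, fun s => hH a ha (s • b) (Q.smul_mem s hb)
      (by rw [map_smul, hab, smul_zero])⟩
  have hTxy := TT_conj φ hφ2 hφq M hM g hg a b hTab
  have hinj := gl_inj g
  have hga0 : (g : Matrix (Fin n) (Fin n) F) *ᵥ a ≠ 0 := by
    intro h
    apply ha0
    apply hinj
    change (g : Matrix (Fin n) (Fin n) F) *ᵥ a = (g : Matrix (Fin n) (Fin n) F) *ᵥ 0
    rw [h, Matrix.mulVec_zero]
  have hgb0 : (g : Matrix (Fin n) (Fin n) F) *ᵥ b ≠ 0 := by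
    intro h
    apply hb0'
    apply hinj
    change (g : Matrix (Fin n) (Fin n) F) *ᵥ b = (g : Matrix (Fin n) (Fin n) F) *ᵥ 0
    rw [h, Matrix.mulVec_zero]
  have hxS : (g : Matrix (Fin n) (Fin n) F) *ᵥ a ∉ Sset φ q M := fun h => hga0 (hS0 _ h)
  have hyS : (g : Matrix (Fin n) (Fin n) F) *ᵥ b ∉ Sset φ q M := fun h => hgb0 (hS0 _ h)
  have hgsp := ((mem_G_iff φ hφq g).1 (hM hg)).2
  have e1 : B bs ((g : Matrix (Fin n) (Fin n) F) *ᵥ b) = 0 := by
    rw [← gl_inv_mulVec g bs, hgsp]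
    exact hb1
  have e2 : B as ((g : Matrix (Fin n) (Fin n) F) *ᵥ b) = 0 := by
    rw [← gl_inv_mulVec g as, hgsp]
    exact hb2
  have hK : ¬ ((∀ r : F, y₁ ≠ r • x₁) ∧ (∀ r : F, y₂ ≠ r • x₂)) := fun hk =>
    hxS (lemK φ P Q hφ hφ2 hφq hP hQ hsum hfinP M hM hH _ _ hTxy x₁ y₁ x₂ y₂ hx₁ hy₁ hx₂ hy₂ hx hy
      hk.1 hk.2)
  have hTyx := TT_symm φ hφ2 M _ _ hTxy
  rw [not_and_or] at hK
  rcases hK with hK | hK
  · push Not at hK
    obtain ⟨r, hr⟩ := hK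
    have hr0 : r = 0 := by
      rw [hy, hr, map_add, map_smul, hQ bs hbs y₂ hy₂, add_zero, smul_eq_mul] at e1
      exact (mul_eq_zero.mp e1).resolve_right (swapne φ hφ2 _ _ hbs1)
    have hyQ : (g : Matrix (Fin n) (Fin n) F) *ᵥ b ∈ Q := by
      rw [hy, hr, hr0, zero_smul, zero_add]
      exact hy₂
    have hxP := T_pure φ Q P hφ hφ2 hφq hQ hP hsum' M hH' _ hyQ hyS _ hTyx
    apply hx₂0
    have hx₂P : x₂ ∈ P := by
      have := P.sub_mem hxP hx₁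
      rwa [hx, add_sub_cancel_left] at this
    exact disj φ P Q hφ2 hP hQ hsum x₂ hx₂P hx₂
  · push Not at hK
    obtain ⟨r, hr⟩ := hK
    have hr0 : r = 0 := by
      rw [hy, hr, map_add, map_smul, hP as has y₁ hy₁, zero_add, smul_eq_mul] at e2
      exact (mul_eq_zero.mp e2).resolve_right (swapne φ hφ2 _ _ has1)
    have hyP : (g : Matrix (Fin n) (Fin n) F) *ᵥ b ∈ P := by
      rw [hy, hr, hr0, zero_smul, add_zero]
      exact hy₁
    have hxQ := T_pure φ P Q hφ hφ2 hφq hP hQ hsum M hH _ hyP hyS _ hTyx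
    apply hx₁0
    have hx₁Q : x₁ ∈ Q := by
      have := Q.sub_mem hxQ hx₂
      rwa [hx, add_sub_cancel_right] at this
    exact disj φ P Q hφ2 hP hQ hsum x₁ hx₁ hx₁Q

include hφ hφ2 hφq hP hQ hsum in
theorem S_comp (hfinQ : 2 < Module.finrank F Q)
    (M : Subgroup (Matrix.GeneralLinearGroup (Fin n) F))
    (hM : M ≤ Cfsg.GU n F q ⊓ Cfsg.Geo.specialLinear (Fin n) F)
    (hH : ∀ p ∈ P, ∀ b ∈ Q, B p b = 0 → E φ p b ∈ M)
    (a b : Fin n → F) (ha : a ∈ P) (hb : b ∈ Q) (hb0 : b ≠ 0)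
    (hu : a + b ∈ Sset φ q M) : ∃ b₁ ∈ Q, b₁ ≠ 0 ∧ b₁ ∈ Sset φ q M := by
  have hsum' := sum_symm P Q hsum
  obtain ⟨a₁, ha₁, hba₁⟩ := dual0 φ Q P hφ2 hQ hsum' b hb hb0
  obtain ⟨b₁, hb₁, hb₁p, hb₁0⟩ := exists_avoid φ Q ⊥ 2 ![a, a₁]
    (by rw [finrank_bot]; omega)
  have h1 : B a b₁ = 0 := hb₁p 0
  have h3 : B a₁ b₁ = 0 := hb₁p 1
  refine ⟨b₁, hb₁, fun h => hb₁0 (by rw [h]; exact Submodule.zero_mem _), ?_⟩
  have ha₁b : B a₁ b ≠ 0 := swapne φ hφ2 _ _ hba₁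
  have hline : ∀ s : F, (a + b) + s • (B a₁ b • b₁) ∈ Sset φ q M := by
    intro s
    have hI : Iso2 φ a₁ (s • b₁) :=
      Iso2.smul φ ⟨hP a₁ ha₁ a₁ ha₁, hQ b₁ hb₁ b₁ hb₁, h3⟩ s
    have hE : E φ a₁ (s • b₁) ∈ M := hH a₁ ha₁ (s • b₁) (Q.smul_mem s hb₁) hI.2.2
    have := Sset_gl φ hφq hφ2 M hM _ hE (a + b) hu
    rw [E_mulVec φ hφ2 a₁ (s • b₁) hI] at this
    have e1 : B a₁ (a + b) = B a₁ b := by rw [map_add, hP a₁ ha₁ a ha, zero_add]
    have e2 : B (s • b₁) (a + b) = 0 := by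
      rw [LinearMap.map_smulₛₗ, LinearMap.smul_apply, map_add, swap0 φ hφ2 _ _ h1,
        hQ b₁ hb₁ b hb, add_zero, smul_zero]
    rw [e1, e2, zero_smul, sub_zero] at this
    convert this using 2
    rw [smul_smul, smul_smul, mul_comm]
  have hww : B (B a₁ b • b₁) (B a₁ b • b₁) = 0 := by
    simp only [LinearMap.map_smulₛₗ, LinearMap.smul_apply, map_smul, smul_eq_mul,
      hQ b₁ hb₁ b₁ hb₁, mul_zero]
  have huw : B (a + b) (B a₁ b • b₁) = 0 := by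
    rw [map_smul, map_add, LinearMap.add_apply, h1, hQ b hb b₁ hb₁, add_zero, smul_zero]
  have h5 := S_line φ hφ hφ2 hφq M _ _ huw hww hline
  have h6 := Sset_smul φ hφq hφ2 M _ h5 (B a₁ b)⁻¹
  rwa [smul_smul, inv_mul_cancel₀ ha₁b, one_smul] at h6

include hφ hφ2 hφq hP hQ hsum in
theorem S_all (M : Subgroup (Matrix.GeneralLinearGroup (Fin n) F))
    (hM : M ≤ Cfsg.GU n F q ⊓ Cfsg.Geo.specialLinear (Fin n) F)
    (hH : ∀ p ∈ P, ∀ b ∈ Q, B p b = 0 → E φ p b ∈ M)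
    (u : Fin n → F) (hu : u ∈ P) (hu0 : u ≠ 0) (huS : u ∈ Sset φ q M) :
    ∀ a₁ ∈ P, a₁ ∈ Sset φ q M := by
  intro a₁ ha₁
  by_cases h : ∃ r : F, a₁ = r • u
  · obtain ⟨r, rfl⟩ := h
    exact Sset_smul φ hφq hφ2 M u huS r
  · push Not at h
    have h' : ∀ r : F, u ≠ r • a₁ := by
      intro r hr
      have hr0 : r ≠ 0 := by
        rintro rfl
        rw [zero_smul] at hr
        exact hu0 hr
      apply h r⁻¹
      rw [hr, smul_smul, inv_mul_cancel₀ hr0, one_smul]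
    obtain ⟨b₁, hb₁, hab, hub⟩ := dual1 φ P Q hφ2 hP hsum a₁ u ha₁ hu h'
    have hb₁u : B b₁ u ≠ 0 := swapne φ hφ2 _ _ hub
    have hline : ∀ s : F, u + s • a₁ ∈ Sset φ q M := by
      intro s
      have hI : Iso2 φ a₁ ((φ (-s / B b₁ u)) • b₁) :=
        Iso2.smul φ ⟨hP a₁ ha₁ a₁ ha₁, hQ b₁ hb₁ b₁ hb₁, hab⟩ _
      have hE : E φ a₁ ((φ (-s / B b₁ u)) • b₁) ∈ M :=
        hH a₁ ha₁ _ (Q.smul_mem _ hb₁) hI.2.2
      have := Sset_gl φ hφq hφ2 M hM _ hE u huS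
      rw [E_mulVec φ hφ2 _ _ hI, hP a₁ ha₁ u hu, zero_smul, add_zero, LinearMap.map_smulₛₗ,
        LinearMap.smul_apply, hφ2, smul_eq_mul, div_mul_cancel₀ _ hb₁u] at this
      rwa [neg_smul, sub_neg_eq_add] at this
    exact S_line φ hφ hφ2 hφq M u a₁ (hP u hu a₁ ha₁) (hP a₁ ha₁ a₁ ha₁) hline

include hφ hφ2 hφq hP hQ hsum in
theorem S_top (M : Subgroup (Matrix.GeneralLinearGroup (Fin n) F))
    (hM : M ≤ Cfsg.GU n F q ⊓ Cfsg.Geo.specialLinear (Fin n) F)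
    (hPS : ∀ a ∈ P, a ∈ Sset φ q M) (hQS : ∀ b ∈ Q, b ∈ Sset φ q M) :
    ∀ x, B x x = 0 → x ∈ Sset φ q M := by
  intro x hxx
  have hS := Bh_symm φ hφ2 n
  obtain ⟨a, ha, b, hb, rfl⟩ := hsum x
  by_cases ha0 : a = 0
  · rw [ha0, zero_add]
    exact hQS b hb
  have hβ : φ (B a b) = -(B a b) := by
    have e1 : B b a = φ (B a b) := (hS.eq a b).symm
    simp only [map_add, LinearMap.add_apply, hP a ha a ha, hQ b hb b hb, e1] at hxx
    linear_combination hxx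
  by_cases hab : B a b = 0
  · obtain ⟨b₀, hb₀, hab₀⟩ := dual0 φ P Q hφ2 hP hsum a ha ha0
    obtain ⟨η, hη0, hη⟩ := Cfsg.Agent.S0780.exists_skew φ hφ hφ2
    obtain ⟨b', hb', hab'⟩ : ∃ b' ∈ Q, B a b' = η :=
      ⟨(η / B a b₀) • b₀, Q.smul_mem _ hb₀, by
        rw [map_smul, smul_eq_mul, div_mul_cancel₀ _ hab₀]⟩
    have hηinv : φ η⁻¹ = -η⁻¹ := by rw [map_inv₀, hη, inv_neg]
    have h1 : a + b' ∈ Sset φ q M := by
      have := Sset_tv φ hφq hφ2 M hM a b' (hPS a ha) (hQS b' hb') η⁻¹ hηinv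
      rw [hab', inv_mul_cancel₀ hη0, one_smul, add_comm] at this
      exact this
    have h2 : b - b' ∈ Sset φ q M := hQS _ (Q.sub_mem hb hb')
    have h3 : B (a + b') (b - b') = -η := by
      simp only [map_add, map_sub, LinearMap.add_apply, hab, hab', hQ b' hb' b hb,
        hQ b' hb' b' hb']
      ring
    have hc : φ (-η⁻¹) = -(-η⁻¹) := by rw [map_neg, hηinv]
    have h4 := Sset_tv φ hφq hφ2 M hM (a + b') (b - b') h1 h2 (-η⁻¹) hc
    rw [h3, neg_mul_neg, inv_mul_cancel₀ hη0, one_smul] at h4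
    have e : b - b' + (a + b') = a + b := by abel
    rwa [e] at h4
  · have hc : φ (B a b)⁻¹ = -(B a b)⁻¹ := by rw [map_inv₀, hβ, inv_neg]
    have := Sset_tv φ hφq hφ2 M hM a b (hPS a ha) (hQS b hb) (B a b)⁻¹ hc
    rwa [inv_mul_cancel₀ hab, one_smul, add_comm] at this

include hφ hφ2 in
omit P Q in
/-- correcting the determinant of an isometry inside a hyperbolic plane -/
theorem det_adjust2 (g : (Fin n → F) ≃ₗ[F] (Fin n → F)) (hg : ∀ u v, B (g u) (g v) = B u v)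
    (p₁ q₁ : Fin n → F) (hp : B p₁ p₁ = 0) (hq : B q₁ q₁ = 0) (hpq : B p₁ q₁ = 1) :
    ∃ (M : Matrix (Fin n) (Fin n) F) (α β : F), IsSUm φ M ∧
      ∀ x, M *ᵥ x = g x + (B q₁ (g x)) • (α • p₁) + (B p₁ (g x)) • (β • q₁) := by
  have hS := Bh_symm φ hφ2 n
  have hqp : B q₁ p₁ = 1 := by rw [← hS.eq p₁ q₁, hpq, map_one]
  obtain ⟨A, hA⟩ : ∃ A : Matrix (Fin n) (Fin n) F, A = LinearMap.toMatrix' g.toLinearMap :=
    ⟨_, rfl⟩
  have hAx : ∀ x, A *ᵥ x = g x := by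
    intro x
    rw [← Matrix.toLin'_apply, hA, Matrix.toLin'_toMatrix']
    rfl
  have hAu : ∀ x y, B (A *ᵥ x) (A *ᵥ y) = B x y := by
    intro x y; rw [hAx, hAx]; exact hg x y
  have hdet := Cfsg.Agent.S5654.unitary_det φ hφ2 A hAu
  -- Hilbert 90
  obtain ⟨l, hl0, hl⟩ : ∃ l : F, l ≠ 0 ∧ l * A.det = φ l := by
    by_cases hd : A.det = -1
    · obtain ⟨s, hs0, hs⟩ := Cfsg.Agent.S0780.exists_skew φ hφ hφ2
      exact ⟨s, hs0, by rw [hd, hs]; ring⟩
    · refine ⟨1 + φ A.det, ?_, ?_⟩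
      · intro h0
        apply hd
        have h1 : φ A.det = -1 := by linear_combination h0
        have h2 := congrArg φ h1
        rw [hφ2, map_neg, map_one] at h2
        exact h2
      · rw [map_add, map_one, hφ2]
        linear_combination hdet
  have hφl0 : φ l ≠ 0 := by rwa [Ne, map_eq_zero]
  obtain ⟨α, hα⟩ : ∃ α : F, α = l - 1 := ⟨_, rfl⟩
  obtain ⟨β, hβ⟩ : ∃ β : F, β = (φ l)⁻¹ - 1 := ⟨_, rfl⟩
  have h1 : α + φ β + α * φ β = 0 := by
    rw [hα, hβ, map_sub, map_inv₀, hφ2, map_one]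
    field_simp
    ring
  have h2 : β + φ α + β * φ α = 0 := by
    rw [hα, hβ, map_sub, map_one]
    field_simp
    ring
  obtain ⟨Dm, hDm⟩ : ∃ Dm : Matrix (Fin n) (Fin n) F,
      Dm = 1 + Matrix.vecMulVec (α • p₁) (fun j => φ (q₁ j))
        + Matrix.vecMulVec (β • q₁) (fun j => φ (p₁ j)) := ⟨_, rfl⟩
  have hDx : ∀ y, Dm *ᵥ y = y + (B q₁ y) • (α • p₁) + (B p₁ y) • (β • q₁) := by
    intro y
    rw [hDm]
    exact Cfsg.Agent.S0780.rank_two_mulVec φ _ _ _ _ y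
  have hDdet : Dm.det = l * (φ l)⁻¹ := by
    rw [hDm, Cfsg.Agent.S0780.det_rank_two]
    simp only [map_smul, smul_eq_mul, hp, hq, hpq, hqp, hα, hβ]
    ring
  refine ⟨Dm * A, α, β, ⟨?_, ?_⟩, ?_⟩
  · rw [Matrix.det_mul, hDdet]
    field_simp
    exact hl
  · intro x y
    rw [← Matrix.mulVec_mulVec, ← Matrix.mulVec_mulVec, hDx, hDx, hAx, hAx]
    have e1 : B (g x) p₁ = φ (B p₁ (g x)) := (hS.eq p₁ (g x)).symm
    have e2 : B (g x) q₁ = φ (B q₁ (g x)) := (hS.eq q₁ (g x)).symm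
    simp only [map_add, LinearMap.add_apply, LinearMap.map_smulₛₗ, LinearMap.smul_apply, map_smul,
      smul_eq_mul, hp, hq, hpq, hqp, e1, e2, hg]
    linear_combination (φ (B p₁ (g x)) * B q₁ (g y)) * h1 + (φ (B q₁ (g x)) * B p₁ (g y)) * h2
  · intro x
    rw [← Matrix.mulVec_mulVec, hDx, hAx]

include hφ hφ2 hφq hP hQ in
theorem exists_swap [Finite F] (hfr : Module.finrank F P = Module.finrank F Q)
    (π₁ π₂ : (Fin n → F) →ₗ[F] (Fin n → F))
    (h1 : ∀ x, π₁ x ∈ P) (h2 : ∀ x, π₂ x ∈ Q) (h12 : ∀ x, π₁ x + π₂ x = x)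
    (p₁ q₁ : Fin n → F) (hp₁ : p₁ ∈ P) (hq₁ : q₁ ∈ Q) (hpq : B p₁ q₁ = 1) :
    ∃ h : Matrix.GeneralLinearGroup (Fin n) F,
      h ∈ Cfsg.GU n F q ⊓ Cfsg.Geo.specialLinear (Fin n) F ∧
      (∀ a ∈ P, (h : Matrix (Fin n) (Fin n) F) *ᵥ a ∈ Q) ∧
      (∀ b ∈ Q, (h : Matrix (Fin n) (Fin n) F) *ᵥ b ∈ P) := by
  have hS := Bh_symm φ hφ2 n
  have hsum : ∀ x, ∃ p ∈ P, ∃ b ∈ Q, x = p + b :=
    fun x => ⟨π₁ x, h1 x, π₂ x, h2 x, (h12 x).symm⟩
  have hπP : ∀ a ∈ P, π₁ a = a ∧ π₂ a = 0 := by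
    intro a ha
    have h0 : π₂ a = 0 := by
      apply disj φ P Q hφ2 hP hQ hsum _ _ (h2 a)
      have := P.sub_mem ha (h1 a)
      rwa [← eq_sub_iff_add_eq'.mpr (h12 a)] at this
    refine ⟨?_, h0⟩
    have := h12 a
    rwa [h0, add_zero] at this
  have hπQ : ∀ b ∈ Q, π₁ b = 0 ∧ π₂ b = b := by
    intro b hb
    have h0 : π₁ b = 0 := by
      apply disj φ P Q hφ2 hP hQ hsum _ (h1 b)
      have := Q.sub_mem hb (h2 b)
      rwa [← eq_sub_iff_add_eq.mpr (h12 b)] at this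
    refine ⟨h0, ?_⟩
    have := h12 b
    rwa [h0, zero_add] at this
  let φ₀ : P ≃ₗ[F] Q := LinearEquiv.ofFinrankEq P Q hfr
  obtain ⟨g₁, hg₁, hg₁φ⟩ := Cfsg.Agent.S0751.result φ hφ hφ2 (Bh φ n) hS (Bh_nondeg φ hφ2 n) P Q φ₀
    (fun x x' => by rw [hQ _ (φ₀ x).2 _ (φ₀ x').2, hP _ x.2 _ x'.2])
  have hg₁P : ∀ a ∈ P, g₁ a ∈ Q := fun a ha => by
    rw [show g₁ a = (φ₀ ⟨a, ha⟩ : Fin n → F) from hg₁φ ⟨a, ha⟩]
    exact (φ₀ ⟨a, ha⟩).2
  let σ : (Fin n → F) →ₗ[F] (Fin n → F) :=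
    g₁.toLinearMap ∘ₗ π₁ + π₁ ∘ₗ g₁.toLinearMap ∘ₗ π₂
  have hσ : ∀ x, σ x = g₁ (π₁ x) + π₁ (g₁ (π₂ x)) := fun x => rfl
  have hπ₁ : ∀ z, π₁ z = z - π₂ z := fun z => by rw [eq_sub_iff_add_eq, h12]
  have hiso : ∀ x y, B (σ x) (σ y) = B x y := by
    intro x y
    have e1 : B (g₁ (π₁ x)) (π₁ (g₁ (π₂ y))) = B (π₁ x) (π₂ y) := by
      rw [hπ₁ (g₁ (π₂ y)), map_sub, hg₁, hQ _ (hg₁P _ (h1 x)) _ (h2 _), sub_zero]
    have e2 : B (π₁ (g₁ (π₂ x))) (g₁ (π₁ y)) = B (π₂ x) (π₁ y) := by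
      rw [hπ₁ (g₁ (π₂ x)), map_sub, LinearMap.sub_apply, hg₁, hQ _ (h2 _) _ (hg₁P _ (h1 y)),
        sub_zero]
    have e3 : B x y = B (π₁ x) (π₂ y) + B (π₂ x) (π₁ y) := by
      calc B x y = B (π₁ x + π₂ x) (π₁ y + π₂ y) := by rw [h12, h12]
        _ = B (π₁ x) (π₂ y) + B (π₂ x) (π₁ y) := by
          rw [map_add, map_add, LinearMap.add_apply, LinearMap.add_apply, hP _ (h1 x) _ (h1 y),
            hQ _ (h2 x) _ (h2 y)]
          ring
    rw [hσ, hσ, map_add, map_add, LinearMap.add_apply, LinearMap.add_apply, hg₁,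
      hP _ (h1 x) _ (h1 y), e1, e2, hP _ (h1 _) _ (h1 _), e3]
    ring
  have hinj : Function.Injective σ := by
    rw [← LinearMap.ker_eq_bot, LinearMap.ker_eq_bot']
    intro x hx
    apply (Bh_nondeg φ hφ2 n).1
    intro y
    rw [← hiso, hx, map_zero, LinearMap.zero_apply]
  let σ' : (Fin n → F) ≃ₗ[F] (Fin n → F) := LinearEquiv.ofInjectiveEndo σ hinj
  have hσ' : ∀ x, σ' x = σ x := fun x => rfl
  obtain ⟨M, α, β, hM, hMx⟩ := det_adjust2 φ hφ hφ2 σ' (fun u v => by rw [hσ', hσ', hiso])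
    p₁ q₁ (hP p₁ hp₁ p₁ hp₁) (hQ q₁ hq₁ q₁ hq₁) hpq
  refine ⟨toG M, toG_mem φ hφq M hM, ?_, ?_⟩
  · intro a ha
    have hσa : σ' a ∈ Q := by
      rw [hσ', hσ, (hπP a ha).1, (hπP a ha).2, map_zero, map_zero, add_zero]
      exact hg₁P a ha
    rw [toG_coe M hM.1, hMx, hQ q₁ hq₁ _ hσa, zero_smul, add_zero]
    exact Q.add_mem hσa (Q.smul_mem _ (Q.smul_mem _ hq₁))
  · intro b hb
    have hσb : σ' b ∈ P := by
      rw [hσ', hσ, (hπQ b hb).1, map_zero, zero_add]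
      exact h1 _
    rw [toG_coe M hM.1, hMx, hP p₁ hp₁ _ hσb, zero_smul, add_zero]
    exact P.add_mem hσb (P.smul_mem _ (P.smul_mem _ hp₁))

end pq

section fin

variable {F : Type*} [Field F] {n : ℕ}

theorem sub_union (g : Matrix.GeneralLinearGroup (Fin n) F) (W A C : Submodule F (Fin n → F))
    (h : ∀ w ∈ W, (g : Matrix (Fin n) (Fin n) F) *ᵥ w ∈ A ∨
      (g : Matrix (Fin n) (Fin n) F) *ᵥ w ∈ C) :
    (∀ w ∈ W, (g : Matrix (Fin n) (Fin n) F) *ᵥ w ∈ A) ∨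
      (∀ w ∈ W, (g : Matrix (Fin n) (Fin n) F) *ᵥ w ∈ C) := by
  by_contra hcon
  push Not at hcon
  obtain ⟨⟨w, hw, hwA⟩, ⟨w', hw', hw'B⟩⟩ := hcon
  have hwB := (h w hw).resolve_left hwA
  have hw'A := (h w' hw').resolve_right hw'B
  rcases h (w + w') (W.add_mem hw hw') with h3 | h3
  · rw [Matrix.mulVec_add] at h3
    apply hwA
    have := A.sub_mem h3 hw'A
    rwa [add_sub_cancel_right] at this
  · rw [Matrix.mulVec_add] at h3
    apply hw'B
    have := C.sub_mem h3 hwB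
    rwa [add_sub_cancel_left] at this

theorem toLin_inj (g : Matrix.GeneralLinearGroup (Fin n) F) :
    Function.Injective (Matrix.toLin' (g : Matrix (Fin n) (Fin n) F)) := by
  intro x y h
  rw [Matrix.toLin'_apply, Matrix.toLin'_apply] at h
  exact gl_inj g h

theorem map_eq {t : ℕ} (D : Fin t → Submodule F (Fin n → F)) (k : ℕ)
    (hfr : ∀ i, Module.finrank F (D i) = k)
    (g : Matrix.GeneralLinearGroup (Fin n) F) (i j : Fin t)
    (h : ∀ x ∈ D i, (g : Matrix (Fin n) (Fin n) F) *ᵥ x ∈ D j) :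
    (D i).map (Matrix.toLin' (g : Matrix (Fin n) (Fin n) F)) = D j := by
  apply Submodule.eq_of_le_of_finrank_le
  · rintro _ ⟨x, hx, rfl⟩
    rw [Matrix.toLin'_apply]
    exact h x hx
  · rw [hfr j, ← (Submodule.equivMapOfInjective _ (toLin_inj g) (D i)).finrank_eq, hfr i]

/-- Membership in the stabiliser of the decomposition from inclusions. -/
theorem mem_decompStab {t : ℕ} (D : Fin t → Submodule F (Fin n → F)) (k : ℕ)
    (hfr : ∀ i, Module.finrank F (D i) = k)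
    (g : Matrix.GeneralLinearGroup (Fin n) F) (σ : Equiv.Perm (Fin t))
    (h : ∀ i, ∀ x ∈ D i, (g : Matrix (Fin n) (Fin n) F) *ᵥ x ∈ D (σ i)) :
    g ∈ Geo.decompositionStabilizer D :=
  ⟨σ, fun i => map_eq D k hfr g i (σ i) (h i)⟩

end fin

/-- Let F be the field with q² elements and n = 2k ≥ 13. Let D be a decomposition of F^n into two complementary subspaces of dimension k on each of which the standard unitary form vanishes identically. Then the elements of SU_n(q) preserving or interchanging the two subspaces form a maximal subgroup of SU_n(q). -/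
theorem result {F : Type*} [Field F] [Fintype F] (n q : ℕ) (hF : Fintype.card F = q ^ 2) (hn : 13 ≤ n) (k : ℕ) (hk : 2 * k = n) (D : Fin 2 → Submodule F (Fin n → F)) (hD : Cfsg.Geo.IsMDecomposition k D) (hts : ∀ i, Cfsg.Geo.IsTotallySingularFor (Cfsg.hermForm n F q) (D i)) : Cfsg.Geo.IsMaximalIn (Cfsg.GU n F q ⊓ Cfsg.Geo.specialLinear (Fin n) F) (Cfsg.Geo.decompositionStabilizer D ⊓ (Cfsg.GU n F q ⊓ Cfsg.Geo.specialLinear (Fin n) F)) := by
  classical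
  obtain ⟨φ, hφq, hφ2⟩ := Cfsg.Agent.S0779.exists_frob hF
  have hφ := Cfsg.Agent.S0829.phi_ne_id hF φ hφq
  have hS := Bh_symm φ hφ2 n
  have hInt : DirectSum.IsInternal D :=
    DirectSum.isInternal_submodule_of_iSupIndep_of_iSup_eq_top hD.indep hD.iSup_eq_top
  have hP : ∀ u ∈ D 0, ∀ v ∈ D 0, Bh φ n u v = 0 := fun u hu v hv => by
    rw [← herm_B φ hφq]; exact hts 0 v hv u hu
  have hQ : ∀ u ∈ D 1, ∀ v ∈ D 1, Bh φ n u v = 0 := fun u hu v hv => by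
    rw [← herm_B φ hφq]; exact hts 1 v hv u hu
  have h12 : ∀ x, Cfsg.Agent.S5648.cmp D hInt 0 x + Cfsg.Agent.S5648.cmp D hInt 1 x = x := by
    intro x
    have := Cfsg.Agent.S5648.sum_cmp D hInt x
    rwa [Fin.sum_univ_two] at this
  have hsum : ∀ x, ∃ p ∈ D 0, ∃ b ∈ D 1, x = p + b := fun x =>
    ⟨_, Cfsg.Agent.S5648.cmp_mem D hInt 0 x, _, Cfsg.Agent.S5648.cmp_mem D hInt 1 x,
      (h12 x).symm⟩
  have hsum' := sum_symm (D 0) (D 1) hsum
  have hfr := hD.finrank_eq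
  have hfP : Module.finrank F (D 0) = k := hfr 0
  have hfQ : Module.finrank F (D 1) = k := hfr 1
  have hk7 : 7 ≤ k := by omega
  have hfin2 : ∀ j : Fin 2, j = 0 ∨ j = 1 := by decide
  have hHE : ∀ p ∈ D 0, ∀ b ∈ D 1, Bh φ n p b = 0 →
      E φ p b ∈ Geo.decompositionStabilizer D ⊓
        (Cfsg.GU n F q ⊓ Cfsg.Geo.specialLinear (Fin n) F) := by
    intro p hp b hb hpb
    have hI : Iso2 φ p b := ⟨hP p hp p hp, hQ b hb b hb, hpb⟩
    refine ⟨?_, E_mem φ hφ2 hφq p b hI⟩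
    refine mem_decompStab D k hfr (E φ p b) 1 ?_
    intro i x hx
    rw [Equiv.Perm.one_apply, E_mulVec φ hφ2 p b hI x]
    rcases hfin2 i with rfl | rfl
    · rw [hP p hp x hx, zero_smul, add_zero]
      exact (D 0).sub_mem hx ((D 0).smul_mem _ hp)
    · rw [hQ b hb x hx, zero_smul, sub_zero]
      exact (D 1).add_mem hx ((D 1).smul_mem _ hb)
  have hexP : ∃ a ∈ D 0, a ≠ 0 := by
    have : D 0 ≠ ⊥ := by
      intro h
      rw [h, finrank_bot] at hfP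
      omega
    exact Submodule.exists_mem_ne_zero_of_ne_bot this
  have hexQ : ∃ b ∈ D 1, b ≠ 0 := by
    have : D 1 ≠ ⊥ := by
      intro h
      rw [h, finrank_bot] at hfQ
      omega
    exact Submodule.exists_mem_ne_zero_of_ne_bot this
  obtain ⟨p₁, hp₁, q₁, hq₁, hpq₁⟩ : ∃ p₁ ∈ D 0, ∃ q₁ ∈ D 1, Bh φ n p₁ q₁ = 1 := by
    obtain ⟨a, ha, ha0⟩ := hexP
    obtain ⟨b, hb, hab⟩ := dual0 φ (D 0) (D 1) hφ2 hP hsum a ha ha0
    exact ⟨a, ha, (Bh φ n a b)⁻¹ • b, (D 1).smul_mem _ hb, by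
      rw [map_smul, smul_eq_mul, inv_mul_cancel₀ hab]⟩
  obtain ⟨σ, hσsp, hσP, hσQ⟩ := exists_swap φ (D 0) (D 1) hφ hφ2 hφq hP hQ (by rw [hfP, hfQ])
    (Cfsg.Agent.S5648.cmp D hInt 0) (Cfsg.Agent.S5648.cmp D hInt 1)
    (Cfsg.Agent.S5648.cmp_mem D hInt 0) (Cfsg.Agent.S5648.cmp_mem D hInt 1) h12 p₁ q₁ hp₁ hq₁ hpq₁
  have hσH : σ ∈ Geo.decompositionStabilizer D ⊓
      (Cfsg.GU n F q ⊓ Cfsg.Geo.specialLinear (Fin n) F) := by
    refine ⟨mem_decompStab D k hfr σ (Equiv.swap 0 1) ?_, hσsp⟩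
    intro i x hx
    rcases hfin2 i with rfl | rfl
    · rw [Equiv.swap_apply_left]
      exact hσP x hx
    · rw [Equiv.swap_apply_right]
      exact hσQ x hx
  obtain ⟨s, hs0, hs⟩ := Cfsg.Agent.S0780.exists_skew φ hφ hφ2
  refine ⟨lt_of_le_of_ne inf_le_right ?_, ?_⟩
  · intro heq
    obtain ⟨a, ha, ha0⟩ := hexP
    obtain ⟨b, hb, hab⟩ := dual0 φ (D 0) (D 1) hφ2 hP hsum a ha ha0
    have hb0 : b ≠ 0 := by
      rintro rfl
      exact hab (map_zero _)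
    have haa := hP a ha a ha
    have htv : tv q a s ∈ Geo.decompositionStabilizer D ⊓
        (Cfsg.GU n F q ⊓ Cfsg.Geo.specialLinear (Fin n) F) := by
      rw [heq]
      exact tv_mem φ hφq hφ2 a s haa hs
    obtain ⟨τ, hτ⟩ := htv.1
    have hmem : ((tv q a s : Matrix.GeneralLinearGroup (Fin n) F) :
        Matrix (Fin n) (Fin n) F) *ᵥ b ∈ D (τ 1) := by
      rw [← hτ 1]
      exact ⟨b, hb, by rw [Matrix.toLin'_apply]⟩
    rw [tv_mulVec φ hφq hφ2 a s haa hs] at hmem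
    rcases hfin2 (τ 1) with h | h
    · rw [h] at hmem
      apply hb0
      apply disj φ (D 0) (D 1) hφ2 hP hQ hsum b ?_ hb
      have := (D 0).sub_mem hmem ((D 0).smul_mem (s * Bh φ n a b) ha)
      rwa [add_sub_cancel_right] at this
    · rw [h] at hmem
      apply ha0
      apply disj φ (D 0) (D 1) hφ2 hP hQ hsum a ha
      have := (D 1).sub_mem hmem hb
      rw [add_sub_cancel_left] at this
      exact ((D 1).smul_mem_iff (mul_ne_zero hs0 hab)).mp this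
  · intro M hHM hMK
    have hH : ∀ p ∈ D 0, ∀ b ∈ D 1, Bh φ n p b = 0 → E φ p b ∈ M :=
      fun p hp b hb h => hHM (hHE p hp b hb h)
    have hH' : ∀ b ∈ D 1, ∀ p ∈ D 0, Bh φ n b p = 0 → E φ b p ∈ M := fun b hb p hp h => by
      have hI : Iso2 φ p b := ⟨hP p hp p hp, hQ b hb b hb, swap0 φ hφ2 _ _ h⟩
      have := E_swap_smul φ hφ2 p b 1 hI
      rw [one_smul] at this
      rw [this]
      exact hH p hp _ ((D 1).smul_mem _ hb) (by rw [map_smul, hI.2.2, smul_zero])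
    by_cases hS0 : ∀ x, x ∈ Sset φ q M → x = 0
    · left
      apply le_antisymm ?_ hHM
      intro g hg
      refine ⟨?_, hMK hg⟩
      have k1 := sub_union g (D 0) (D 0) (D 1) (fun a ha =>
        pure_image φ (D 0) (D 1) hφ hφ2 hφq hP hQ hsum (by omega) (by omega) M hMK hH hS0 g hg
          a ha)
      have k2 := sub_union g (D 1) (D 1) (D 0) (fun b hb =>
        pure_image φ (D 1) (D 0) hφ hφ2 hφq hQ hP hsum' (by omega) (by omega) M hMK hH' hS0 g hg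
          b hb)
      have hinj := gl_inj g
      rcases k1 with k1 | k1 <;> rcases k2 with k2 | k2
      · refine mem_decompStab D k hfr g 1 ?_
        intro i x hx
        rw [Equiv.Perm.one_apply]
        rcases hfin2 i with rfl | rfl
        · exact k1 x hx
        · exact k2 x hx
      · exfalso
        obtain ⟨b, hb, hb0⟩ := hexQ
        have hmap := map_eq D k hfr g 0 0 k1
        have hgb := k2 b hb
        rw [← hmap] at hgb
        obtain ⟨a, ha, hab⟩ := hgb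
        rw [Matrix.toLin'_apply] at hab
        have : a = b := hinj hab
        apply hb0
        exact disj φ (D 0) (D 1) hφ2 hP hQ hsum b (this ▸ ha) hb
      · exfalso
        obtain ⟨a, ha, ha0⟩ := hexP
        have hmap := map_eq D k hfr g 1 1 k2
        have hga := k1 a ha
        rw [← hmap] at hga
        obtain ⟨b, hb, hab⟩ := hga
        rw [Matrix.toLin'_apply] at hab
        have : b = a := hinj hab
        apply ha0
        exact disj φ (D 0) (D 1) hφ2 hP hQ hsum a ha (this ▸ hb)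
      · refine mem_decompStab D k hfr g (Equiv.swap 0 1) ?_
        intro i x hx
        rcases hfin2 i with rfl | rfl
        · rw [Equiv.swap_apply_left]
          exact k1 x hx
        · rw [Equiv.swap_apply_right]
          exact k2 x hx
    · right
      push Not at hS0
      obtain ⟨u, huS, hu0⟩ := hS0
      apply le_antisymm hMK
      apply gen φ hφq hφ2 hF (by omega) (by omega) M
      have hσM : σ ∈ M := hHM hσH
      have hPQ : (∀ a ∈ D 0, a ∈ Sset φ q M) → (∀ b ∈ D 1, b ∈ Sset φ q M) := by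
        intro hPS b hb
        have hmap := map_eq D k hfr σ 0 1 hσP
        rw [← hmap] at hb
        obtain ⟨a, ha, rfl⟩ := hb
        rw [Matrix.toLin'_apply]
        exact Sset_gl φ hφq hφ2 M hMK σ hσM a (hPS a ha)
      have hQP : (∀ b ∈ D 1, b ∈ Sset φ q M) → (∀ a ∈ D 0, a ∈ Sset φ q M) := by
        intro hQS a ha
        have hmap := map_eq D k hfr σ 1 0 hσQ
        rw [← hmap] at ha
        obtain ⟨b, hb, rfl⟩ := ha
        rw [Matrix.toLin'_apply]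
        exact Sset_gl φ hφq hφ2 M hMK σ hσM b (hQS b hb)
      have key : ∀ x, Bh φ n x x = 0 → x ∈ Sset φ q M := by
        obtain ⟨a, ha, b, hb, rfl⟩ := hsum u
        by_cases hb0 : b = 0
        · have ha0 : a ≠ 0 := by
            rintro rfl
            apply hu0
            rw [hb0, add_zero]
          have huS' : a ∈ Sset φ q M := by rwa [hb0, add_zero] at huS
          have hPS := S_all φ (D 0) (D 1) hφ hφ2 hφq hP hQ hsum M hMK hH a ha ha0 huS'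
          exact S_top φ (D 0) (D 1) hφ hφ2 hφq hP hQ hsum M hMK hPS (hPQ hPS)
        · obtain ⟨b₁, hb₁, hb₁0, hb₁S⟩ := S_comp φ (D 0) (D 1) hφ hφ2 hφq hP hQ hsum (by omega) M
            hMK hH a b ha hb hb0 huS
          have hQS := S_all φ (D 1) (D 0) hφ hφ2 hφq hQ hP hsum' M hMK hH' b₁ hb₁ hb₁0 hb₁S
          exact S_top φ (D 0) (D 1) hφ hφ2 hφq hP hQ hsum M hMK (hQP hQS) hQS
      exact fun v c hv hc => (key v hv).2 c hc

end Cfsg.Agent.S5657
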