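import Mathlib
import Cfsg.Statements.S5643
import Cfsg.Agent.S5657
import Cfsg.Agent.S5642

set_option autoImplicit false
open Cfsg

namespace Cfsg.Agent.S5643

open Matrix
open Cfsg.Agent.S0837 (Bh Bh_apply Bh_symm Bh_nondeg)
open Cfsg.Agent.S0780 (IsSUm)
open Cfsg.Agent.S5653 (herm_B mem_G_iff toG toG_coe toG_mem tv tv_coe tv_mulVec tv_mem gl_ext
  gl_inv_mulVec gl_inv_mulVec' gl_inj exists_iso_add)
open Cfsg.Agent.S5654 (perp ND nd_span_one exists_e)
open Cfsg.Agent.S5657 (Iso2 E E_mulVec E_mem swap0 swapne)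
open Cfsg.Agent.S5642 (InM inM_conj inM_add inM_neg dual_prop)
open Cfsg.Agent.Lib.Helper28 (specialLinear_le_of_transv exists_transvection IsTransvAction)

section core

variable {F : Type*} [Field F] [Fintype F] (φ : F →+* F) {n q : ℕ}
  (hφ : φ ≠ RingHom.id F) (hφ2 : ∀ a : F, φ (φ a) = a) (hφq : ∀ a : F, φ a = a ^ q)
  (M : Subgroup (Matrix.GeneralLinearGroup (Fin n) F))
  (hGM : Cfsg.GU n F q ⊓ Cfsg.Geo.specialLinear (Fin n) F ≤ M)

local notation "B" => Bh φ n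

/-- the functional is not a multiple of the functional of `v` -/
def NotMul (v : Fin n → F) (ψ : Module.Dual F (Fin n → F)) : Prop :=
  ¬ ∃ μ : F, ∀ x, ψ x = μ * B v x

omit [Fintype F] in
include hφ2 hφq hGM in
theorem inM_tv (v : Fin n → F) (hv : B v v = 0) (c : F) (hc : φ c = -c) : InM M v (c • B v) :=
  ⟨tv q v c, hGM (tv_mem φ hφq hφ2 v c hv hc), fun x => by
    rw [tv_mulVec φ hφq hφ2 v c hv hc]; rfl⟩

omit [Fintype F] in
theorem inM_scale (v : Fin n → F) (l : F) (hl : l ≠ 0) (ψ : Module.Dual F (Fin n → F))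
    (h : InM M v ψ) : InM M (l • v) (l⁻¹ • ψ) := by
  obtain ⟨t, ht, htx⟩ := h
  refine ⟨t, ht, fun x => ?_⟩
  rw [htx, LinearMap.smul_apply, smul_eq_mul, smul_smul, mul_comm l⁻¹, mul_assoc,
    inv_mul_cancel₀ hl, mul_one]

omit [Fintype F] in
theorem inM_zero (ψ : Module.Dual F (Fin n → F)) : InM M 0 ψ :=
  ⟨1, M.one_mem, fun x => by rw [Units.val_one, Matrix.one_mulVec, smul_zero, add_zero]⟩

omit [Fintype F] in
theorem inM_diff (v : Fin n → F) (ψ χ : Module.Dual F (Fin n → F)) (hψv : ψ v = 0)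
    (h1 : InM M v ψ) (h2 : InM M v (ψ + χ)) : InM M v χ := by
  have h3 := inM_add M v (-ψ) _ (by rw [LinearMap.neg_apply, hψv, neg_zero])
    (inM_neg M v ψ hψv h1) h2
  rwa [neg_add_cancel_left] at h3

include hφ hφ2 in
/-- a unit vector orthogonal to an anisotropic vector and to a vector orthogonal to it -/
theorem exists_unit (hn : 4 ≤ n) (y₀ v : Fin n → F) (hy₀ : B y₀ y₀ ≠ 0) (hv : B y₀ v = 0) :
    ∃ e, B e e = 1 ∧ B e y₀ = 0 ∧ B y₀ e = 0 ∧ B e v = 0 ∧ B v e = 0 := by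
  have hnd := nd_span_one φ y₀ hy₀
  have hdim : Module.finrank F (Submodule.span F {y₀}) + 2 < n := by
    have := finrank_span_singleton (K := F) (v := y₀) (by
      rintro rfl
      exact hy₀ (by rw [map_zero]))
    omega
  have hvp : v ∈ perp φ (Submodule.span F {y₀}) := by
    intro x hx
    obtain ⟨a, rfl⟩ := Submodule.mem_span_singleton.mp hx
    rw [LinearMap.map_smulₛₗ, LinearMap.smul_apply, hv, smul_zero]
  obtain ⟨e, hee, hep, hev⟩ := exists_e φ hφ hφ2 _ hnd hdim v hvp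
  have hy₀e : B y₀ e = 0 := hep y₀ (Submodule.mem_span_singleton_self y₀)
  exact ⟨e, hee, swap0 φ hφ2 _ _ hy₀e, hy₀e, hev, swap0 φ hφ2 _ _ hev⟩

include hφ hφ2 in
/-- an isotropic vector in the orthogonal complement of `v` on which `ψ` does not vanish -/
theorem exists_iso_ne (hn : 4 ≤ n) (v : Fin n → F) (ψ : Module.Dual F (Fin n → F))
    (hψ : NotMul φ v ψ) : ∃ y, B y y = 0 ∧ B v y = 0 ∧ ψ y ≠ 0 := by
  have hS := Bh_symm φ hφ2 n
  obtain ⟨y₀, hvy₀, hψy₀⟩ : ∃ y₀, B v y₀ = 0 ∧ ψ y₀ ≠ 0 := by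
    by_contra hcon
    push Not at hcon
    exact hψ (dual_prop (B v) ψ hcon)
  by_cases hy₀ : B y₀ y₀ = 0
  · exact ⟨y₀, hy₀, hvy₀, hψy₀⟩
  obtain ⟨e, hee, hey₀, hy₀e, hev, hve⟩ := exists_unit φ hφ hφ2 hn y₀ v hy₀
    (swap0 φ hφ2 _ _ hvy₀)
  obtain ⟨μ, hμ⟩ := Cfsg.Agent.S0755.norm_surj φ hφ hφ2 (-(B y₀ y₀))
    (by rw [map_neg, hS.eq y₀ y₀]) (neg_ne_zero.mpr hy₀)
  obtain ⟨ω, hω1, -, hω⟩ := Cfsg.Agent.S0780.exists_unit_norm φ hφ hφ2
  have key : ∀ ν : F, φ ν * ν = -(B y₀ y₀) →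
      B (y₀ + ν • e) (y₀ + ν • e) = 0 ∧ B v (y₀ + ν • e) = 0 := by
    intro ν hν
    constructor
    · simp only [map_add, LinearMap.add_apply, LinearMap.map_smulₛₗ, LinearMap.smul_apply,
        map_smul, smul_eq_mul, hee, hey₀, hy₀e]
      linear_combination hν
    · rw [map_add, map_smul, hvy₀, hve, smul_zero, add_zero]
  have hμ0 : μ ≠ 0 := by
    rintro rfl
    rw [mul_zero] at hμ
    exact hy₀ (neg_eq_zero.mp hμ.symm)
  by_cases h1 : ψ (y₀ + μ • e) = 0
  · have hν : φ (ω * μ) * (ω * μ) = -(B y₀ y₀) := by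
      rw [map_mul]
      linear_combination hμ + φ μ * μ * hω
    refine ⟨y₀ + (ω * μ) • e, (key _ hν).1, (key _ hν).2, fun h2 => ?_⟩
    rw [map_add, map_smul, smul_eq_mul] at h1 h2
    have h3 : (ω - 1) * μ * ψ e = 0 := by linear_combination h2 - h1
    have h4 : ψ e = 0 := by
      rcases mul_eq_zero.mp h3 with h5 | h5
      · rcases mul_eq_zero.mp h5 with h6 | h6
        · exact absurd (sub_eq_zero.mp h6) hω1
        · exact absurd h6 hμ0
      · exact h5
    rw [h4, mul_zero, add_zero] at h1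
    exact hψy₀ h1
  · exact ⟨y₀ + μ • e, (key μ hμ).1, (key μ hμ).2, h1⟩

include hφ hφ2 hφq hGM in
/-- a root functional off the unitary line yields the whole unitary line -/
theorem full_line (hn : 4 ≤ n) (v : Fin n → F) (hv : B v v = 0) (ψ : Module.Dual F (Fin n → F))
    (hψM : InM M v ψ) (hψv : ψ v = 0) (hψ : NotMul φ v ψ) (a : F) : InM M v (a • B v) := by
  obtain ⟨y, hyy, hvy, hψy⟩ := exists_iso_ne φ hφ hφ2 hn v ψ hψ
  have hI : Iso2 φ v ((a / ψ y) • y) := Iso2.smul φ ⟨hv, hyy, hvy⟩ _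
  have hE := hGM (E_mem φ hφ2 hφq v _ hI)
  have hyv : B y v = 0 := swap0 φ hφ2 _ _ hvy
  have hEv : ((E φ v ((a / ψ y) • y) : Matrix.GeneralLinearGroup (Fin n) F) :
      Matrix (Fin n) (Fin n) F) *ᵥ v = v := by
    rw [E_mulVec φ hφ2 v _ hI, hv, zero_smul, add_zero, LinearMap.map_smulₛₗ,
      LinearMap.smul_apply, hyv, smul_zero, zero_smul, sub_zero]
  have h1 : InM M v (ψ + a • B v) := by
    refine inM_conj M v v ψ _ hψM (E φ v _) hE hEv (fun x => ?_)
    rw [E_mulVec φ hφ2 v _ hI, map_sub, map_add, map_smul, map_smul, map_smul, hψv, smul_zero,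
      sub_zero, LinearMap.add_apply, LinearMap.smul_apply, smul_eq_mul, smul_eq_mul, smul_eq_mul]
    field_simp
  exact inM_diff M v ψ _ hψv hψM h1

omit [Fintype F] in
include hφ hφ2 in
/-- a common non-orthogonal isotropic vector -/
theorem common (u u' : Fin n → F) (hu0 : u ≠ 0) (hu'0 : u' ≠ 0) (hu : B u u = 0)
    (hu'u : B u' u = 0) : ∃ z, B z z = 0 ∧ B u z ≠ 0 ∧ B u' z ≠ 0 := by
  have hex : ∀ w : Fin n → F, w ≠ 0 → ∃ y, B w y ≠ 0 := by
    intro w hw
    by_contra hcon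
    push Not at hcon
    exact hw ((Bh_nondeg φ hφ2 n).1 w hcon)
  obtain ⟨y₁, h1⟩ := hex u hu0
  obtain ⟨y₂, h2⟩ := hex u' hu'0
  obtain ⟨y, hy1, hy2⟩ : ∃ y, B u y ≠ 0 ∧ B u' y ≠ 0 := by
    by_cases c1 : B u' y₁ = 0
    · by_cases c2 : B u y₂ = 0
      · exact ⟨y₁ + y₂, by rw [map_add, c2, add_zero]; exact h1,
          by rw [map_add, c1, zero_add]; exact h2⟩
      · exact ⟨y₂, c2, h2⟩
    · exact ⟨y₁, h1, c1⟩
  obtain ⟨l, hl⟩ := exists_iso_add φ hφ hφ2 y u hu hy1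
  refine ⟨y + l • u, hl, ?_, ?_⟩
  · rw [map_add, map_smul, hu, smul_zero, add_zero]
    exact hy1
  · rw [map_add, map_smul, hu'u, smul_zero, add_zero]
    exact hy2

omit [Fintype F] in
include hφ hφ2 hφq in
/-- one unitary transvection moves an isotropic vector to a multiple of a non-orthogonal one -/
theorem trans_step (v v' : Fin n → F) (hv : B v v = 0) (hv' : B v' v' = 0)
    (hβ : B v' v ≠ 0) : ∃ k : Matrix.GeneralLinearGroup (Fin n) F,
      k ∈ Cfsg.GU n F q ⊓ Cfsg.Geo.specialLinear (Fin n) F ∧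
      ∃ l : F, l ≠ 0 ∧ (k : Matrix (Fin n) (Fin n) F) *ᵥ v = l • v' := by
  have hS := Bh_symm φ hφ2 n
  obtain ⟨s, hs0, hs⟩ := Cfsg.Agent.S0780.exists_skew φ hφ hφ2
  have hvv' : B v v' = φ (B v' v) := (hS.eq v' v).symm
  have hφβ : φ (B v' v) ≠ 0 := by rwa [Ne, map_eq_zero]
  have hu : B (v - (s / φ (B v' v)) • v') (v - (s / φ (B v' v)) • v') = 0 := by
    simp only [map_sub, LinearMap.sub_apply, LinearMap.map_smulₛₗ, LinearMap.smul_apply,
      map_smul, smul_eq_mul, hv, hv', hvv', map_div₀, hφ2, hs]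
    field_simp
    ring
  have hc : φ (-s⁻¹) = -(-s⁻¹) := by
    rw [map_neg, map_inv₀, hs, inv_neg]
  have huv : B (v - (s / φ (B v' v)) • v') v = s := by
    simp only [map_sub, LinearMap.sub_apply, LinearMap.map_smulₛₗ, LinearMap.smul_apply,
      smul_eq_mul, hv, map_div₀, hφ2, hs]
    field_simp
    ring
  refine ⟨tv q (v - (s / φ (B v' v)) • v') (-s⁻¹), tv_mem φ hφq hφ2 _ _ hu hc,
    s / φ (B v' v), div_ne_zero hs0 hφβ, ?_⟩
  rw [tv_mulVec φ hφq hφ2 _ _ hu hc, huv, neg_mul, inv_mul_cancel₀ hs0, neg_one_smul]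
  abel

omit [Fintype F] in
include hφ hφ2 hφq in
/-- the unitary group is transitive on isotropic points -/
theorem trans_iso (v v' : Fin n → F) (hv0 : v ≠ 0) (hv'0 : v' ≠ 0) (hv : B v v = 0)
    (hv' : B v' v' = 0) : ∃ k : Matrix.GeneralLinearGroup (Fin n) F,
      k ∈ Cfsg.GU n F q ⊓ Cfsg.Geo.specialLinear (Fin n) F ∧
      ∃ l : F, l ≠ 0 ∧ (k : Matrix (Fin n) (Fin n) F) *ᵥ v = l • v' := by
  by_cases hβ : B v' v = 0
  · obtain ⟨z, hzz, hvz, hv'z⟩ := common φ hφ hφ2 v v' hv0 hv'0 hv hβ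
    obtain ⟨k₁, hk₁, l₁, hl₁, e₁⟩ := trans_step φ hφ hφ2 hφq v z hv hzz (swapne φ hφ2 _ _ hvz)
    obtain ⟨k₂, hk₂, l₂, hl₂, e₂⟩ := trans_step φ hφ hφ2 hφq z v' hzz hv' hv'z
    refine ⟨k₂ * k₁, Subgroup.mul_mem _ hk₂ hk₁, l₁ * l₂, mul_ne_zero hl₁ hl₂, ?_⟩
    rw [Units.val_mul, ← Matrix.mulVec_mulVec, e₁, Matrix.mulVec_smul, e₂, smul_smul]
  · exact trans_step φ hφ hφ2 hφq v v' hv hv' hβ

omit [Fintype F] in
include hφ hφ2 hφq hGM in
/-- the unitary lines of all isotropic points, from one -/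
theorem line_all (v : Fin n → F) (hv0 : v ≠ 0) (hv : B v v = 0)
    (h : ∀ a : F, InM M v (a • B v)) (v' : Fin n → F) (hv'0 : v' ≠ 0) (hv' : B v' v' = 0)
    (a : F) : InM M v' (a • B v') := by
  obtain ⟨k, hk, l, hl, e⟩ := trans_iso φ hφ hφ2 hφq v' v hv'0 hv0 hv' hv
  have hkS := (mem_G_iff φ hφq k).1 hk
  have h1 := inM_scale M v l hl _ (h (a * φ l * l))
  refine inM_conj M (l • v) v' _ _ h1 k (hGM hk) e (fun x => ?_)
  have h2 : B v' x = φ l * B v ((k : Matrix (Fin n) (Fin n) F) *ᵥ x) := by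
    rw [← hkS.2 v' x, e, LinearMap.map_smulₛₗ, LinearMap.smul_apply, smul_eq_mul]
  rw [LinearMap.smul_apply, LinearMap.smul_apply, LinearMap.smul_apply, h2, smul_eq_mul,
    smul_eq_mul, smul_eq_mul]
  field_simp

include hφ hφ2 in
/-- the whole root group at an isotropic point -/
theorem full_root (hn : 4 ≤ n) (v : Fin n → F) (hv0 : v ≠ 0) (hv : B v v = 0)
    (hfull : ∀ w : Fin n → F, w ≠ 0 → B w w = 0 → ∀ a : F, InM M w (a • B w))
    (ψ₀ : Module.Dual F (Fin n → F)) (hψ₀M : InM M v ψ₀) (hψ₀v : ψ₀ v = 0)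
    (hψ₀ : NotMul φ v ψ₀) (ψ : Module.Dual F (Fin n → F)) (hψv : ψ v = 0) : InM M v ψ := by
  have hS := Bh_symm φ hφ2 n
  -- (i)
  have key : ∀ (χ : Module.Dual F (Fin n → F)) (w : Fin n → F), InM M v χ → χ v = 0 →
      B w w = 0 → B w v = 0 → χ w ≠ 0 → ∀ a : F, InM M v (a • B w) := by
    intro χ w hχM hχv hw hwv hχw a
    have hw0 : w ≠ 0 := by
      rintro rfl
      exact hχw (map_zero χ)
    obtain ⟨t, ht, htx⟩ := hfull w hw0 hw (a / χ w)
    have htv : (t : Matrix (Fin n) (Fin n) F) *ᵥ v = v := by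
      rw [htx, LinearMap.smul_apply, hwv, smul_zero, zero_smul, add_zero]
    have h1 : InM M v (χ + a • B w) := by
      refine inM_conj M v v χ _ hχM t ht htv (fun x => ?_)
      rw [htx, map_add, map_smul, LinearMap.add_apply, LinearMap.smul_apply, LinearMap.smul_apply,
        smul_eq_mul, smul_eq_mul, smul_eq_mul]
      field_simp
    exact inM_diff M v χ _ hχv hχM h1
  -- (ii)
  obtain ⟨y, hyy, hvy, hψ₀y⟩ := exists_iso_ne φ hφ hφ2 hn v ψ₀ hψ₀
  have hyv : B y v = 0 := swap0 φ hφ2 _ _ hvy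
  have hYy := key ψ₀ y hψ₀M hψ₀v hyy hyv hψ₀y
  -- (iii)
  have prop : ∀ w w' : Fin n → F, (∀ a : F, InM M v (a • B w)) → B w v = 0 → B w' w' = 0 →
      B w' v = 0 → B w w' ≠ 0 → ∀ a : F, InM M v (a • B w') := by
    intro w w' hYw hwv hw' hw'v hww'
    have h1 := hYw 1
    rw [one_smul] at h1
    exact key (B w) w' h1 hwv hw' hw'v hww'
  have hvline : ∀ (w : Fin n → F) (μ : F), (∀ x, B w x = μ * B v x) →
      ∀ a : F, InM M v (a • B w) := by
    intro w μ hμ a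
    have e : a • B w = (a * μ) • B v := by
      apply LinearMap.ext
      intro x
      rw [LinearMap.smul_apply, LinearMap.smul_apply, hμ x, smul_eq_mul, smul_eq_mul, mul_assoc]
    rw [e]
    exact hfull v hv0 hv _
  -- (iv)
  have hY : ∀ w' : Fin n → F, B w' w' = 0 → B w' v = 0 → ∀ a : F, InM M v (a • B w') := by
    intro w' hw' hw'v
    by_cases hyw : B y w' = 0
    · by_cases hrad : ∃ μ : F, ∀ x, B w' x = μ * B v x
      · obtain ⟨μ, hμ⟩ := hrad
        exact hvline w' μ hμ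
      · obtain ⟨x₁, hvx₁, hw'x₁⟩ : ∃ x₁, B v x₁ = 0 ∧ B w' x₁ ≠ 0 := by
          by_contra hcon
          push Not at hcon
          exact hrad (dual_prop (B v) (B w') hcon)
        obtain ⟨x₂, hvx₂, hyx₂⟩ : ∃ x₂, B v x₂ = 0 ∧ B y x₂ ≠ 0 := by
          by_contra hcon
          push Not at hcon
          obtain ⟨μ, hμ⟩ := dual_prop (B v) (B y) hcon
          have h0 : y - φ μ • v = 0 := by
            apply (Bh_nondeg φ hφ2 n).1
            intro x
            rw [map_sub, LinearMap.sub_apply, LinearMap.map_smulₛₗ, LinearMap.smul_apply, hφ2,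
              hμ x, smul_eq_mul, sub_self]
          apply hψ₀y
          rw [sub_eq_zero.mp h0, map_smul, hψ₀v, smul_zero]
        obtain ⟨x, hvx, hw'x, hyx⟩ : ∃ x, B v x = 0 ∧ B w' x ≠ 0 ∧ B y x ≠ 0 := by
          by_cases c1 : B y x₁ = 0
          · by_cases c2 : B w' x₂ = 0
            · exact ⟨x₁ + x₂, by rw [map_add, hvx₁, hvx₂, add_zero],
                by rw [map_add, c2, add_zero]; exact hw'x₁,
                by rw [map_add, c1, zero_add]; exact hyx₂⟩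
            · exact ⟨x₂, hvx₂, c2, hyx₂⟩
          · exact ⟨x₁, hvx₁, hw'x₁, c1⟩
        obtain ⟨l, hl⟩ := exists_iso_add φ hφ hφ2 x y hyy hyx
        have hzv : B (x + l • y) v = 0 := by
          apply swap0 φ hφ2
          rw [map_add, map_smul, hvx, hvy, smul_zero, add_zero]
        have hyz : B y (x + l • y) ≠ 0 := by
          rw [map_add, map_smul, hyy, smul_zero, add_zero]
          exact hyx
        have hw'z : B w' (x + l • y) ≠ 0 := by
          rw [map_add, map_smul, swap0 φ hφ2 _ _ hyw, smul_zero, add_zero]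
          exact hw'x
        have hYz := prop y (x + l • y) hYy hyv hl hzv hyz
        exact prop (x + l • y) w' hYz hzv hw' hw'v (swapne φ hφ2 _ _ hw'z)
    · exact prop y w' hYy hyv hw' hw'v hyw
  -- (v)
  obtain ⟨r, hr⟩ := Cfsg.Agent.S0751.riesz φ hφ hφ2 (Bh φ n) hS (Bh_nondeg φ hφ2 n) ψ
  have hψr : ψ = B r := by
    apply LinearMap.ext
    intro x
    exact (hr x).symm
  by_cases hm : ∃ μ : F, ∀ x, ψ x = μ * B v x
  · obtain ⟨μ, hμ⟩ := hm
    have h1 := hvline r μ (fun x => by rw [hr x, hμ x]) 1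
    rw [one_smul, ← hψr] at h1
    exact h1
  · obtain ⟨y', hy'y', hvy', hψy'⟩ := exists_iso_ne φ hφ hφ2 hn v ψ hm
    have hry' : B r y' ≠ 0 := by rw [hr]; exact hψy'
    obtain ⟨l, hl⟩ := exists_iso_add φ hφ hφ2 r y' hy'y' (swapne φ hφ2 _ _ hry')
    have hrv : B r v = 0 := by rw [hr]; exact hψv
    have hy'v : B y' v = 0 := swap0 φ hφ2 _ _ hvy'
    have h1 : B (r + l • y') v = 0 := by
      rw [map_add, LinearMap.add_apply, LinearMap.map_smulₛₗ, LinearMap.smul_apply, hrv, hy'v,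
        smul_zero, add_zero]
    have h2 : B ((-l) • y') ((-l) • y') = 0 := by
      simp only [LinearMap.map_smulₛₗ, LinearMap.smul_apply, map_smul, smul_eq_mul, hy'y',
        mul_zero]
    have h3 : B ((-l) • y') v = 0 := by
      rw [LinearMap.map_smulₛₗ, LinearMap.smul_apply, hy'v, smul_zero]
    have e : ψ = B (r + l • y') + B ((-l) • y') := by
      rw [hψr, ← map_add]
      congr 1
      module
    rw [e]
    have i1 := hY _ hl h1 1
    have i2 := hY _ h2 h3 1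
    rw [one_smul] at i1 i2
    exact inM_add M v _ _ h1 i1 i2

include hφ hφ2 in
/-- an isotropic vector not orthogonal to a given anisotropic vector -/
theorem exists_iso_nonperp (hn : 4 ≤ n) (x : Fin n → F) (hx : B x x ≠ 0) :
    ∃ z, B z z = 0 ∧ B z x ≠ 0 := by
  have hS := Bh_symm φ hφ2 n
  obtain ⟨e, hee, hex, hxe, -, -⟩ := exists_unit φ hφ hφ2 hn x 0 hx (by rw [map_zero])
  obtain ⟨μ, hμ⟩ := Cfsg.Agent.S0755.norm_surj φ hφ hφ2 (-(B x x))
    (by rw [map_neg, hS.eq x x]) (neg_ne_zero.mpr hx)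
  refine ⟨x + μ • e, ?_, ?_⟩
  · simp only [map_add, LinearMap.add_apply, LinearMap.map_smulₛₗ, LinearMap.smul_apply,
      map_smul, smul_eq_mul, hee, hex, hxe]
    linear_combination hμ
  · rw [map_add, LinearMap.add_apply, LinearMap.map_smulₛₗ, LinearMap.smul_apply, hex, smul_zero,
      add_zero]
    exact hx

include hφ hφ2 hφq hGM in
/-- all transvections, from the whole root group at one isotropic point -/
theorem all_transv (hn : 4 ≤ n) (v : Fin n → F) (hv0 : v ≠ 0) (hv : B v v = 0)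
    (hvfull : ∀ ψ : Module.Dual F (Fin n → F), ψ v = 0 → InM M v ψ)
    (a : Fin n → F) (ψ : Module.Dual F (Fin n → F)) (hψa : ψ a = 0) : InM M a ψ := by
  -- isotropic points
  have iso : ∀ v' : Fin n → F, v' ≠ 0 → B v' v' = 0 →
      ∀ χ : Module.Dual F (Fin n → F), χ v' = 0 → InM M v' χ := by
    intro v' hv'0 hv' χ hχ
    obtain ⟨k, hk, l, hl, e⟩ := trans_iso φ hφ hφ2 hφq v' v hv'0 hv0 hv' hv
    obtain ⟨χ₂, hχ₂⟩ : ∃ χ₂ : Module.Dual F (Fin n → F), χ₂ = l • χ.comp (Matrix.mulVecLin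
        ((k⁻¹ : Matrix.GeneralLinearGroup (Fin n) F) : Matrix (Fin n) (Fin n) F)) := ⟨_, rfl⟩
    have hχ₂x : ∀ x, χ₂ x = l * χ (((k⁻¹ : Matrix.GeneralLinearGroup (Fin n) F) :
        Matrix (Fin n) (Fin n) F) *ᵥ x) := fun x => by rw [hχ₂]; rfl
    have hkv : ((k⁻¹ : Matrix.GeneralLinearGroup (Fin n) F) : Matrix (Fin n) (Fin n) F) *ᵥ v
        = l⁻¹ • v' := by
      have h1 := gl_inv_mulVec' k v'
      rw [e, Matrix.mulVec_smul] at h1
      rw [← h1, smul_smul, inv_mul_cancel₀ hl, one_smul]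
    have hχ₂v : χ₂ v = 0 := by
      rw [hχ₂x, hkv, map_smul, hχ, smul_zero, mul_zero]
    have h1 := inM_scale M v l hl _ (hvfull χ₂ hχ₂v)
    refine inM_conj M (l • v) v' _ _ h1 k (hGM hk) e (fun x => ?_)
    rw [LinearMap.smul_apply, hχ₂x, gl_inv_mulVec' k x, smul_eq_mul, ← mul_assoc,
      inv_mul_cancel₀ hl, one_mul]
  by_cases ha0 : a = 0
  · rw [ha0]
    exact inM_zero M ψ
  by_cases haa : B a a = 0
  · exact iso a ha0 haa ψ hψa
  obtain ⟨z, hzz, hza⟩ := exists_iso_nonperp φ hφ hφ2 hn a haa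
  obtain ⟨l, hl⟩ := exists_iso_add φ hφ hφ2 a z hzz hza
  have hz0 : z ≠ 0 := by
    rintro rfl
    exact hza (by rw [map_zero, LinearMap.zero_apply])
  have hl0 : l ≠ 0 := by
    rintro rfl
    rw [zero_smul, add_zero] at hl
    exact haa hl
  have hv₁0 : a + l • z ≠ 0 := by
    intro h0
    apply hza
    have : a = (-l) • z := by
      rw [neg_smul]
      exact eq_neg_of_add_eq_zero_left h0
    rw [this, map_smul, hzz, smul_zero]
  have hv₂0 : (-l) • z ≠ 0 := smul_ne_zero (neg_ne_zero.mpr hl0) hz0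
  have hv₂ : B ((-l) • z) ((-l) • z) = 0 := by
    simp only [LinearMap.map_smulₛₗ, LinearMap.smul_apply, map_smul, smul_eq_mul, hzz, mul_zero]
  obtain ⟨χ, hχ⟩ : ∃ χ : Module.Dual F (Fin n → F), χ = (B z a)⁻¹ • B z := ⟨_, rfl⟩
  have hχx : ∀ x, χ x = (B z a)⁻¹ * B z x := fun x => by rw [hχ]; rfl
  have hχv₂ : χ ((-l) • z) = 0 := by rw [hχx, map_smul, hzz, smul_zero, mul_zero]
  have hχa : χ a = 1 := by rw [hχx, inv_mul_cancel₀ hza]
  obtain ⟨k, hkM, hkx⟩ := iso _ hv₂0 hv₂ (-χ) (by rw [LinearMap.neg_apply, hχv₂, neg_zero])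
  have hka : (k : Matrix (Fin n) (Fin n) F) *ᵥ a = a + l • z := by
    rw [hkx, LinearMap.neg_apply, hχa, neg_smul, one_smul, neg_smul, neg_neg]
  have h1 : InM M (a + l • z) (ψ + (ψ ((-l) • z)) • χ) := by
    apply iso _ hv₁0 hl
    rw [LinearMap.add_apply, LinearMap.smul_apply, map_add, map_add, hψa, hχa, hχx (l • z),
      map_smul, map_smul, map_smul, hzz, smul_eq_mul, smul_eq_mul, smul_eq_mul]
    ring
  refine inM_conj M (a + l • z) a _ ψ h1 k hkM hka (fun x => ?_)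
  have hχz : χ z = 0 := by rw [hχx, hzz, mul_zero]
  rw [hkx, LinearMap.add_apply, LinearMap.smul_apply]
  simp only [map_add, map_smul, LinearMap.neg_apply, smul_eq_mul, hχz]
  ring

include hφ hφ2 in
theorem exists_iso_ne_zero (hn : 2 ≤ n) : ∃ u : Fin n → F, u ≠ 0 ∧ B u u = 0 := by
  obtain ⟨μ, hμ⟩ := Cfsg.Agent.S0755.norm_surj φ hφ hφ2 (-1) (by rw [map_neg, map_one])
    (neg_ne_zero.mpr one_ne_zero)
  have h01 : (⟨0, by omega⟩ : Fin n) ≠ ⟨1, by omega⟩ := by simp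
  have e00 := Cfsg.Agent.S0780.B_ee_ee φ (n := n) ⟨0, by omega⟩ ⟨0, by omega⟩
  have e01 := Cfsg.Agent.S0780.B_ee_ee φ (n := n) ⟨0, by omega⟩ ⟨1, by omega⟩
  have e10 := Cfsg.Agent.S0780.B_ee_ee φ (n := n) ⟨1, by omega⟩ ⟨0, by omega⟩
  have e11 := Cfsg.Agent.S0780.B_ee_ee φ (n := n) ⟨1, by omega⟩ ⟨1, by omega⟩
  rw [if_pos rfl] at e00 e11
  rw [if_neg h01] at e01
  rw [if_neg (Ne.symm h01)] at e10
  refine ⟨Cfsg.Agent.S0780.ee ⟨0, by omega⟩ + μ • Cfsg.Agent.S0780.ee ⟨1, by omega⟩, ?_, ?_⟩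
  · intro h0
    have h1 : B (Cfsg.Agent.S0780.ee ⟨0, by omega⟩) (Cfsg.Agent.S0780.ee ⟨0, by omega⟩ +
        μ • Cfsg.Agent.S0780.ee ⟨1, by omega⟩) = 1 := by
      rw [map_add, map_smul, e00, e01, smul_zero, add_zero]
    rw [h0, map_zero] at h1
    exact zero_ne_one h1
  · simp only [map_add, LinearMap.add_apply, LinearMap.map_smulₛₗ, LinearMap.smul_apply,
      map_smul, smul_eq_mul, e00, e01, e10, e11]
    linear_combination hμ

include hφ hφ2 hφq in
/-- a linear map respecting the functionals of the isotropic vectors is a similarity -/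
theorem sim_lemma (hn : 4 ≤ n) (k : Matrix.GeneralLinearGroup (Fin n) F)
    (h : ∀ u : Fin n → F, B u u = 0 → ∃ κ : F, ∀ y, B u y =
      κ * B ((k : Matrix (Fin n) (Fin n) F) *ᵥ u) ((k : Matrix (Fin n) (Fin n) F) *ᵥ y)) :
    k ∈ Cfsg.Geo.similarityGroup (Cfsg.hermForm n F q) := by
  have hS := Bh_symm φ hφ2 n
  choose κ hκ using h
  obtain ⟨s, hs0, hs⟩ := Cfsg.Agent.S0780.exists_skew φ hφ hφ2
  have stepb : ∀ (u u' : Fin n → F) (hu : B u u = 0) (hu' : B u' u' = 0), B u u' ≠ 0 →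
      κ u hu = κ u' hu' := by
    intro u u' hu hu' hβ
    have hu'u : B u' u = φ (B u u') := (hS.eq u u').symm
    have hφβ : φ (B u u') ≠ 0 := by rwa [Ne, map_eq_zero]
    have hw : B (u + (s / B u u') • u') (u + (s / B u u') • u') = 0 := by
      simp only [map_add, LinearMap.add_apply, LinearMap.map_smulₛₗ, LinearMap.smul_apply,
        map_smul, smul_eq_mul, hu, hu', hu'u, map_div₀, hs]
      field_simp
      ring
    have hμ0 : φ (s / B u u') ≠ 0 := by
      rw [Ne, map_eq_zero]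
      exact div_ne_zero hs0 hβ
    obtain ⟨κw, hκw⟩ : ∃ κw, κw = κ _ hw := ⟨_, rfl⟩
    have E : ∀ y, κ u hu * B ((k : Matrix (Fin n) (Fin n) F) *ᵥ u)
          ((k : Matrix (Fin n) (Fin n) F) *ᵥ y) +
        φ (s / B u u') * (κ u' hu' * B ((k : Matrix (Fin n) (Fin n) F) *ᵥ u')
          ((k : Matrix (Fin n) (Fin n) F) *ᵥ y)) =
        κw * (B ((k : Matrix (Fin n) (Fin n) F) *ᵥ u) ((k : Matrix (Fin n) (Fin n) F) *ᵥ y) +
          φ (s / B u u') * B ((k : Matrix (Fin n) (Fin n) F) *ᵥ u')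
            ((k : Matrix (Fin n) (Fin n) F) *ᵥ y)) := by
      intro y
      have h1 := hκ _ hw y
      rw [← hκw, Matrix.mulVec_add, Matrix.mulVec_smul] at h1
      rw [map_add, LinearMap.add_apply, LinearMap.map_smulₛₗ, LinearMap.smul_apply, smul_eq_mul,
        map_add, LinearMap.add_apply, LinearMap.map_smulₛₗ, LinearMap.smul_apply, smul_eq_mul,
        hκ u hu y, hκ u' hu' y] at h1
      exact h1
    have hκu0 : κ u hu ≠ 0 := by
      intro h0
      have := hκ u hu u'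
      rw [h0, zero_mul] at this
      exact hβ this
    have hκu'0 : κ u' hu' ≠ 0 := by
      intro h0
      have := hκ u' hu' u
      rw [h0, zero_mul, hu'u] at this
      exact hφβ this
    have hXu : B ((k : Matrix (Fin n) (Fin n) F) *ᵥ u) ((k : Matrix (Fin n) (Fin n) F) *ᵥ u)
        = 0 := by
      have := hκ u hu u
      rw [hu] at this
      exact (mul_eq_zero.mp this.symm).resolve_left hκu0
    have hX'u' : B ((k : Matrix (Fin n) (Fin n) F) *ᵥ u') ((k : Matrix (Fin n) (Fin n) F) *ᵥ u')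
        = 0 := by
      have := hκ u' hu' u'
      rw [hu'] at this
      exact (mul_eq_zero.mp this.symm).resolve_left hκu'0
    have hXu' : B ((k : Matrix (Fin n) (Fin n) F) *ᵥ u) ((k : Matrix (Fin n) (Fin n) F) *ᵥ u')
        ≠ 0 := by
      intro h0
      have := hκ u hu u'
      rw [h0, mul_zero] at this
      exact hβ this
    have hX'u : B ((k : Matrix (Fin n) (Fin n) F) *ᵥ u') ((k : Matrix (Fin n) (Fin n) F) *ᵥ u)
        ≠ 0 := by
      intro h0
      have := hκ u' hu' u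
      rw [h0, mul_zero, hu'u] at this
      exact hφβ this
    have e1 := E u
    rw [hXu, mul_zero, zero_add, zero_add] at e1
    have e2 := E u'
    rw [hX'u', mul_zero, mul_zero, add_zero, add_zero] at e2
    have h3 : κ u' hu' = κw := by
      have : (κ u' hu' - κw) * (φ (s / B u u') *
          B ((k : Matrix (Fin n) (Fin n) F) *ᵥ u') ((k : Matrix (Fin n) (Fin n) F) *ᵥ u)) = 0 := by
        linear_combination e1
      rcases mul_eq_zero.mp this with h | h
      · exact sub_eq_zero.mp h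
      · exact absurd h (mul_ne_zero hμ0 hX'u)
    have h4 : κ u hu = κw := by
      have : (κ u hu - κw) *
          B ((k : Matrix (Fin n) (Fin n) F) *ᵥ u) ((k : Matrix (Fin n) (Fin n) F) *ᵥ u') = 0 := by
        linear_combination e2
      rcases mul_eq_zero.mp this with h | h
      · exact sub_eq_zero.mp h
      · exact absurd h hXu'
    rw [h4, h3]
  have stepc : ∀ (u u' : Fin n → F) (hu : B u u = 0) (hu' : B u' u' = 0), u ≠ 0 → u' ≠ 0 →
      κ u hu = κ u' hu' := by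
    intro u u' hu hu' hu0 hu'0
    by_cases hβ : B u u' = 0
    · obtain ⟨z, hzz, huz, hu'z⟩ := common φ hφ hφ2 u u' hu0 hu'0 hu (swap0 φ hφ2 _ _ hβ)
      rw [stepb u z hu hzz huz, stepb u' z hu' hzz hu'z]
    · exact stepb u u' hu hu' hβ
  obtain ⟨u₀, hu₀0, hu₀⟩ := exists_iso_ne_zero φ hφ hφ2 (by omega : 2 ≤ n)
  have hiso : ∀ x : Fin n → F, B x x = 0 → ∀ y, B x y = κ u₀ hu₀ *
      B ((k : Matrix (Fin n) (Fin n) F) *ᵥ x) ((k : Matrix (Fin n) (Fin n) F) *ᵥ y) := by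
    intro x hx y
    by_cases hx0 : x = 0
    · simp only [hx0, Matrix.mulVec_zero, map_zero, LinearMap.zero_apply, mul_zero]
    · rw [stepc u₀ x hu₀ hx hu₀0 hx0]
      exact hκ x hx y
  have hall : ∀ x y : Fin n → F, B x y = κ u₀ hu₀ *
      B ((k : Matrix (Fin n) (Fin n) F) *ᵥ x) ((k : Matrix (Fin n) (Fin n) F) *ᵥ y) := by
    intro x y
    by_cases hx : B x x = 0
    · exact hiso x hx y
    obtain ⟨z, hzz, hzx⟩ := exists_iso_nonperp φ hφ hφ2 hn x hx
    obtain ⟨l, hl⟩ := exists_iso_add φ hφ hφ2 x z hzz hzx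
    have hz' : B ((-l) • z) ((-l) • z) = 0 := by
      simp only [LinearMap.map_smulₛₗ, LinearMap.smul_apply, map_smul, smul_eq_mul, hzz, mul_zero]
    have e : x = (x + l • z) + (-l) • z := by module
    have h1 := hiso _ hl y
    have h2 := hiso _ hz' y
    calc B x y = B (x + l • z) y + B ((-l) • z) y := by
          rw [← LinearMap.add_apply, ← map_add, ← e]
      _ = κ u₀ hu₀ * B ((k : Matrix (Fin n) (Fin n) F) *ᵥ x)
            ((k : Matrix (Fin n) (Fin n) F) *ᵥ y) := by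
          rw [h1, h2, ← mul_add, ← LinearMap.add_apply, ← map_add, ← Matrix.mulVec_add, ← e]
  have hκ0 : κ u₀ hu₀ ≠ 0 := by
    intro h0
    apply hu₀0
    apply (Bh_nondeg φ hφ2 n).1
    intro y
    rw [hall u₀ y, h0, zero_mul]
  show ∃ c : Fˣ, ∀ u v, Cfsg.hermForm n F q ((k : Matrix (Fin n) (Fin n) F) *ᵥ u)
    ((k : Matrix (Fin n) (Fin n) F) *ᵥ v) = (c : F) * Cfsg.hermForm n F q u v
  refine ⟨Units.mk0 (κ u₀ hu₀)⁻¹ (inv_ne_zero hκ0), fun u v => ?_⟩
  rw [herm_B φ hφq, herm_B φ hφq, Units.val_mk0, hall v u]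
  field_simp

include hφ hφ2 hφq hGM in
/-- a transvection with anisotropic centre yields a non-unitary one with isotropic centre -/
theorem aniso_to_iso (hn : 4 ≤ n) (a : Fin n → F) (ψ : Module.Dual F (Fin n → F))
    (hψM : InM M a ψ) (hψa : ψ a = 0) (x₀ : Fin n → F) (hψx₀ : ψ x₀ ≠ 0) (haa : B a a ≠ 0) :
    ∃ (u : Fin n → F) (ψ' : Module.Dual F (Fin n → F)), u ≠ 0 ∧ B u u = 0 ∧ InM M u ψ' ∧
      ψ' u = 0 ∧ NotMul φ u ψ' := by
  have hS := Bh_symm φ hφ2 n
  obtain ⟨r, hr⟩ := Cfsg.Agent.S0751.riesz φ hφ hφ2 (Bh φ n) hS (Bh_nondeg φ hφ2 n) ψ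
  have hra : B r a = 0 := by rw [hr]; exact hψa
  obtain ⟨e, hee, hea, hae, her, hre⟩ := exists_unit φ hφ hφ2 hn a r haa (swap0 φ hφ2 _ _ hra)
  have hψe : ψ e = 0 := by rw [← hr]; exact hre
  obtain ⟨μ, hμ⟩ := Cfsg.Agent.S0755.norm_surj φ hφ hφ2 (-(B a a))
    (by rw [map_neg, hS.eq a a]) (neg_ne_zero.mpr haa)
  obtain ⟨s, hs0, hs⟩ := Cfsg.Agent.S0780.exists_skew φ hφ hφ2
  have hu : B (a + μ • e) (a + μ • e) = 0 := by
    simp only [map_add, LinearMap.add_apply, LinearMap.map_smulₛₗ, LinearMap.smul_apply,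
      map_smul, smul_eq_mul, hee, hea, hae]
    linear_combination hμ
  have hua : B (a + μ • e) a = B a a := by
    rw [map_add, LinearMap.add_apply, LinearMap.map_smulₛₗ, LinearMap.smul_apply, hea, smul_zero,
      add_zero]
  have hψu : ψ (a + μ • e) = 0 := by rw [map_add, map_smul, hψa, hψe, smul_zero, add_zero]
  have hu0 : a + μ • e ≠ 0 := by
    intro h0
    rw [h0, map_zero, LinearMap.zero_apply] at hua
    exact haa hua.symm
  obtain ⟨τ, hτM, hτx⟩ := inM_neg M a ψ hψa hψM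
  obtain ⟨u, hudef⟩ : ∃ u : Fin n → F, u = a + μ • e := ⟨_, rfl⟩
  rw [← hudef] at hu hua hψu hu0
  obtain ⟨ψ', hψ'⟩ : ∃ ψ' : Module.Dual F (Fin n → F),
      ψ' = s • (B u - (B u a) • ψ) := ⟨_, rfl⟩
  have hψ'x : ∀ x, ψ' x = s * (B u x - B u a * ψ x) := fun x => by
    rw [hψ']; rfl
  refine ⟨u, ψ', hu0, hu, ?_, ?_, ?_⟩
  · refine inM_conj M _ _ (s • B u) ψ' (inM_tv φ hφ2 hφq M hGM _ hu s hs) τ hτM ?_
      (fun x => ?_)
    · rw [hτx, LinearMap.neg_apply, hψu, neg_zero, zero_smul, add_zero]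
    · rw [hψ'x, hτx, LinearMap.smul_apply, map_add, map_smul, LinearMap.neg_apply, smul_eq_mul,
        smul_eq_mul]
      ring
  · rw [hψ'x, hu, hψu, mul_zero, sub_zero, mul_zero]
  · rintro ⟨μ', hμ'⟩
    have h1 := hμ' a
    rw [hψ'x, hψa, mul_zero, sub_zero] at h1
    have h2 : μ' = s := by
      have : (s - μ') * B u a = 0 := by linear_combination h1
      rcases mul_eq_zero.mp this with h | h
      · exact (sub_eq_zero.mp h).symm
      · rw [hua] at h
        exact absurd h haa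
    have h3 := hμ' x₀
    rw [hψ'x, h2, hua] at h3
    have h4 : s * B a a * ψ x₀ = 0 := by linear_combination -h3
    exact mul_ne_zero (mul_ne_zero hs0 haa) hψx₀ h4

end core

/-- the standard case -/
theorem core_std {F : Type*} [Field F] [Fintype F] (n q : ℕ) (hF : Fintype.card F = q ^ 2)
    (hn : 13 ≤ n) :
    Cfsg.Geo.IsMaximalIn (Cfsg.Geo.specialLinear (Fin n) F)
      (Cfsg.Geo.similarityGroup (Cfsg.hermForm n F q) ⊓ Cfsg.Geo.specialLinear (Fin n) F) := by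
  classical
  obtain ⟨φ, hφq, hφ2⟩ := Cfsg.Agent.S0779.exists_frob hF
  have hφ := Cfsg.Agent.S0829.phi_ne_id hF φ hφq
  have hS := Bh_symm φ hφ2 n
  have hn4 : 4 ≤ n := by omega
  have hGH : Cfsg.GU n F q ⊓ Cfsg.Geo.specialLinear (Fin n) F ≤
      Cfsg.Geo.similarityGroup (Cfsg.hermForm n F q) ⊓ Cfsg.Geo.specialLinear (Fin n) F := by
    intro g hg
    have hgS := (mem_G_iff φ hφq g).1 hg
    refine ⟨?_, hg.2⟩
    show ∃ c : Fˣ, ∀ u v, Cfsg.hermForm n F q ((g : Matrix (Fin n) (Fin n) F) *ᵥ u)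
      ((g : Matrix (Fin n) (Fin n) F) *ᵥ v) = (c : F) * Cfsg.hermForm n F q u v
    refine ⟨1, fun u v => ?_⟩
    rw [herm_B φ hφq, herm_B φ hφq, hgS.2, Units.val_one, one_mul]
  refine ⟨lt_of_le_of_ne inf_le_right ?_, ?_⟩
  · intro heq
    have h01 : (⟨0, by omega⟩ : Fin n) ≠ ⟨1, by omega⟩ := by simp
    have e00 := Cfsg.Agent.S0780.B_ee_ee φ (n := n) ⟨0, by omega⟩ ⟨0, by omega⟩
    have e01 := Cfsg.Agent.S0780.B_ee_ee φ (n := n) ⟨0, by omega⟩ ⟨1, by omega⟩
    have e10 := Cfsg.Agent.S0780.B_ee_ee φ (n := n) ⟨1, by omega⟩ ⟨0, by omega⟩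
    have e11 := Cfsg.Agent.S0780.B_ee_ee φ (n := n) ⟨1, by omega⟩ ⟨1, by omega⟩
    rw [if_pos rfl] at e00 e11
    rw [if_neg h01] at e01
    rw [if_neg (Ne.symm h01)] at e10
    obtain ⟨t, ht1, ht2⟩ := exists_transvection (Bh φ n (Cfsg.Agent.S0780.ee ⟨1, by omega⟩))
      (Cfsg.Agent.S0780.ee ⟨0, by omega⟩) e10
    have htH : t ∈ Cfsg.Geo.similarityGroup (Cfsg.hermForm n F q) ⊓
        Cfsg.Geo.specialLinear (Fin n) F := by
      rw [heq]
      exact ht1
    obtain ⟨c, hc⟩ := htH.1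
    have ha := hc (Cfsg.Agent.S0780.ee ⟨0, by omega⟩) (Cfsg.Agent.S0780.ee ⟨0, by omega⟩)
    rw [ht2, e10, zero_smul, add_zero, herm_B φ hφq, e00, mul_one] at ha
    have hw := hc (Cfsg.Agent.S0780.ee ⟨1, by omega⟩) (Cfsg.Agent.S0780.ee ⟨1, by omega⟩)
    rw [ht2, e11, one_smul, herm_B φ hφq, herm_B φ hφq] at hw
    simp only [map_add, LinearMap.add_apply, e00, e01, e10, e11] at hw
    rw [← ha] at hw
    have h10 : (1 : F) = 0 := by linear_combination hw
    exact one_ne_zero h10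
  · intro M hHM hMK
    by_cases hMH : M = Cfsg.Geo.similarityGroup (Cfsg.hermForm n F q) ⊓
        Cfsg.Geo.specialLinear (Fin n) F
    · left
      exact hMH
    right
    obtain ⟨g, hgM, hgH⟩ : ∃ g ∈ M, g ∉ Cfsg.Geo.similarityGroup (Cfsg.hermForm n F q) ⊓
        Cfsg.Geo.specialLinear (Fin n) F := by
      by_contra hcon
      push Not at hcon
      exact hMH (le_antisymm hcon hHM)
    have hgS : g ∉ Cfsg.Geo.similarityGroup (Cfsg.hermForm n F q) := fun h => hgH ⟨h, hMK hgM⟩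
    have hGM := hGH.trans hHM
    have hginv : g⁻¹ ∉ Cfsg.Geo.similarityGroup (Cfsg.hermForm n F q) := fun h =>
      hgS (by simpa using Subgroup.inv_mem _ h)
    obtain ⟨u, huu, hu⟩ : ∃ u : Fin n → F, Bh φ n u u = 0 ∧ ¬ ∃ κ : F, ∀ y, Bh φ n u y =
        κ * Bh φ n (((g⁻¹ : Matrix.GeneralLinearGroup (Fin n) F) : Matrix (Fin n) (Fin n) F) *ᵥ u)
          (((g⁻¹ : Matrix.GeneralLinearGroup (Fin n) F) : Matrix (Fin n) (Fin n) F) *ᵥ y) := by
      by_contra hcon
      apply hginv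
      apply sim_lemma φ hφ hφ2 hφq hn4 g⁻¹
      intro u hu
      by_contra h2
      exact hcon ⟨u, hu, h2⟩
    obtain ⟨s, hs0, hs⟩ := Cfsg.Agent.S0780.exists_skew φ hφ hφ2
    have hu0 : u ≠ 0 := by
      rintro rfl
      exact hu ⟨0, fun y => by rw [map_zero, LinearMap.zero_apply, zero_mul]⟩
    obtain ⟨v, hv⟩ : ∃ v : Fin n → F, v = ((g⁻¹ : Matrix.GeneralLinearGroup (Fin n) F) :
        Matrix (Fin n) (Fin n) F) *ᵥ u := ⟨_, rfl⟩
    have hgv : (g : Matrix (Fin n) (Fin n) F) *ᵥ v = u := by rw [hv, gl_inv_mulVec]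
    obtain ⟨ψ, hψ⟩ : ∃ ψ : Module.Dual F (Fin n → F), ψ = s • (Bh φ n u).comp
        (Matrix.mulVecLin (g : Matrix (Fin n) (Fin n) F)) := ⟨_, rfl⟩
    have hψx : ∀ x, ψ x = s * Bh φ n u ((g : Matrix (Fin n) (Fin n) F) *ᵥ x) := fun x => by
      rw [hψ]; rfl
    have hψM : InM M v ψ := inM_conj M u v (s • Bh φ n u) ψ
      (inM_tv φ hφ2 hφq M hGM u huu s hs) g hgM hgv (fun x => by rw [hψx]; rfl)
    have hψv : ψ v = 0 := by rw [hψx, hgv, huu, mul_zero]
    have hv0 : v ≠ 0 := by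
      rintro rfl
      rw [Matrix.mulVec_zero] at hgv
      exact hu0 hgv.symm
    obtain ⟨v₀, ψ₀, hv₀0, hv₀, hψ₀M, hψ₀v, hψ₀⟩ : ∃ (v₀ : Fin n → F)
        (ψ₀ : Module.Dual F (Fin n → F)), v₀ ≠ 0 ∧ Bh φ n v₀ v₀ = 0 ∧ InM M v₀ ψ₀ ∧ ψ₀ v₀ = 0 ∧
          NotMul φ v₀ ψ₀ := by
      by_cases hvv : Bh φ n v v = 0
      · refine ⟨v, ψ, hv0, hvv, hψM, hψv, ?_⟩
        rintro ⟨μ, hμ⟩
        apply hu
        refine ⟨s⁻¹ * μ, fun y => ?_⟩
        have h1 := hμ (((g⁻¹ : Matrix.GeneralLinearGroup (Fin n) F) :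
          Matrix (Fin n) (Fin n) F) *ᵥ y)
        rw [hψx, gl_inv_mulVec] at h1
        rw [← hv, mul_assoc, ← h1, ← mul_assoc, inv_mul_cancel₀ hs0, one_mul]
      · obtain ⟨x₀, hx₀⟩ : ∃ x₀, ψ x₀ ≠ 0 := by
          obtain ⟨y, hy⟩ : ∃ y, Bh φ n u y ≠ 0 := by
            by_contra hcon
            push Not at hcon
            exact hu0 ((Bh_nondeg φ hφ2 n).1 u hcon)
          refine ⟨((g⁻¹ : Matrix.GeneralLinearGroup (Fin n) F) :
            Matrix (Fin n) (Fin n) F) *ᵥ y, ?_⟩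
          rw [hψx, gl_inv_mulVec]
          exact mul_ne_zero hs0 hy
        exact aniso_to_iso φ hφ hφ2 hφq M hGM hn4 v ψ hψM hψv x₀ hx₀ hvv
    have hline := full_line φ hφ hφ2 hφq M hGM hn4 v₀ hv₀ ψ₀ hψ₀M hψ₀v hψ₀
    have hfull : ∀ w : Fin n → F, w ≠ 0 → Bh φ n w w = 0 → ∀ a : F, InM M w (a • Bh φ n w) :=
      fun w hw0 hw a => line_all φ hφ hφ2 hφq M hGM v₀ hv₀0 hv₀ hline w hw0 hw a
    have hroot := full_root φ hφ hφ2 M hn4 v₀ hv₀0 hv₀ hfull ψ₀ hψ₀M hψ₀v hψ₀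
    have hall := all_transv φ hφ hφ2 hφq M hGM hn4 v₀ hv₀0 hv₀ hroot
    apply le_antisymm hMK
    apply specialLinear_le_of_transv (by omega)
    rintro t ht ⟨χ, a, hχa, hta⟩
    obtain ⟨t', ht'M, ht'⟩ := hall a χ hχa
    have h3 : t = t' := gl_ext t t' (fun x => by rw [hta, ht'])
    rw [h3]
    exact ht'M

/-- the fixed field of a field automorphism -/
def fixField {F : Type*} [Field F] (σ : F ≃+* F) : Subfield F where
  carrier := {a | σ a = a}
  mul_mem' := fun {a b} (ha : σ a = a) (hb : σ b = b) => by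
    show σ (a * b) = a * b
    rw [map_mul, ha, hb]
  one_mem' := map_one σ
  add_mem' := fun {a b} (ha : σ a = a) (hb : σ b = b) => by
    show σ (a + b) = a + b
    rw [map_add, ha, hb]
  zero_mem' := map_zero σ
  neg_mem' := fun {a} (ha : σ a = a) => by
    show σ (-a) = -a
    rw [map_neg, ha]
  inv_mem' := fun a (ha : σ a = a) => by
    show σ a⁻¹ = a⁻¹
    rw [map_inv₀, ha]

theorem mem_fixField {F : Type*} [Field F] (σ : F ≃+* F) (a : F) :
    a ∈ fixField σ ↔ σ a = a := Iff.rfl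

/-- an involution of a finite field is the Frobenius map of its fixed field -/
theorem frob_of_invol {F : Type*} [Field F] [Fintype F] (σ : F ≃+* F)
    (hne : σ ≠ RingEquiv.refl F) (hinv : ∀ a : F, σ (σ a) = a) :
    ∃ q : ℕ, Fintype.card F = q ^ 2 ∧ ∀ a : F, σ a = a ^ q := by
  classical
  obtain ⟨θ, hθ⟩ : ∃ θ, σ θ ≠ θ := by
    by_contra hcon
    push Not at hcon
    exact hne (RingEquiv.ext hcon)
  have hne' : θ - σ θ ≠ 0 := sub_ne_zero.mpr (Ne.symm hθ)
  have hne'' : σ θ - θ ≠ 0 := sub_ne_zero.mpr hθ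
  have hdec : ∀ x : F, ∃ a b : F, σ a = a ∧ σ b = b ∧ x = a + b * θ := by
    intro x
    refine ⟨x - (x - σ x) / (θ - σ θ) * θ, (x - σ x) / (θ - σ θ), ?_, ?_, by ring⟩
    · rw [map_sub, map_mul, map_div₀, map_sub, map_sub, hinv, hinv]
      field_simp
      ring
    · rw [map_div₀, map_sub, map_sub, hinv, hinv]
      field_simp
      ring
  have hindep : ∀ a b : F, σ a = a → σ b = b → a + b * θ = 0 → a = 0 ∧ b = 0 := by
    intro a b ha hb h
    have hb0 : b = 0 := by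
      by_contra hb0
      apply hθ
      have : θ = -a / b := by
        field_simp
        linear_combination h
      rw [this, map_div₀, map_neg, ha, hb]
    rw [hb0, zero_mul, add_zero] at h
    exact ⟨h, hb0⟩
  have hbij : Function.Bijective
      (fun p : fixField σ × fixField σ => (p.1 : F) + (p.2 : F) * θ) := by
    constructor
    · rintro ⟨a, b⟩ ⟨a', b'⟩ h
      have h' : ((a : F) - a') + ((b : F) - b') * θ = 0 := by
        have h0 : (a : F) + (b : F) * θ = (a' : F) + (b' : F) * θ := h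
        linear_combination h0
      have ha : σ (a : F) = a := a.2
      have ha' : σ (a' : F) = a' := a'.2
      have hb : σ (b : F) = b := b.2
      have hb' : σ (b' : F) = b' := b'.2
      obtain ⟨h1, h2⟩ := hindep _ _ (by rw [map_sub, ha, ha']) (by rw [map_sub, hb, hb']) h'
      exact Prod.ext (Subtype.ext (sub_eq_zero.mp h1)) (Subtype.ext (sub_eq_zero.mp h2))
    · intro x
      obtain ⟨a, b, ha, hb, rfl⟩ := hdec x
      exact ⟨(⟨a, ha⟩, ⟨b, hb⟩), rfl⟩
  have hcard : Fintype.card F = Fintype.card (fixField σ) ^ 2 := by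
    rw [← Fintype.card_of_bijective hbij, Fintype.card_prod, sq]
  refine ⟨Fintype.card (fixField σ), hcard, ?_⟩
  obtain ⟨φ, hφq, hφ2⟩ := Cfsg.Agent.S0779.exists_frob hcard
  have hφ := Cfsg.Agent.S0829.phi_ne_id hcard φ hφq
  have hfix : ∀ a : F, σ a = a → φ a = a := by
    intro a ha
    rw [hφq]
    have h1 := FiniteField.pow_card (⟨a, ha⟩ : fixField σ)
    have h2 := congrArg (fun x : fixField σ => (x : F)) h1
    simpa using h2
  have hθ2 : φ θ = σ θ := by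
    have hs : φ (θ + σ θ) = θ + σ θ := hfix _ (by rw [map_add, hinv]; ring)
    have hp : φ (θ * σ θ) = θ * σ θ := hfix _ (by rw [map_mul, hinv]; ring)
    have h1 : (φ θ - θ) * (φ θ - σ θ) = 0 := by
      have h0 : φ (θ * θ - (θ + σ θ) * θ + θ * σ θ) = 0 := by
        have : θ * θ - (θ + σ θ) * θ + θ * σ θ = 0 := by ring
        rw [this, map_zero]
      rw [map_add, map_sub, map_mul, map_mul, hs, hp] at h0
      linear_combination h0
    rcases mul_eq_zero.mp h1 with h | h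
    · exfalso
      apply hφ
      apply RingHom.ext
      intro x
      obtain ⟨a, b, ha, hb, rfl⟩ := hdec x
      rw [map_add, map_mul, hfix a ha, hfix b hb, sub_eq_zero.mp h]
      rfl
    · exact sub_eq_zero.mp h
  intro x
  obtain ⟨a, b, ha, hb, rfl⟩ := hdec x
  rw [← hφq, map_add, map_mul, map_add, map_mul, hfix a ha, hfix b hb, hθ2, ha, hb]

/-- a unitary form is equivalent to the standard one -/
theorem exists_std {F : Type*} [Field F] [Fintype F] (n q : ℕ) (σ : F ≃+* F)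
    (f : (Fin n → F) → (Fin n → F) → F) (hf : Cfsg.Geo.IsUnitaryForm σ f)
    (hσq : ∀ a : F, σ a = a ^ q) :
    ∃ P : Matrix.GeneralLinearGroup (Fin n) F, ∀ x y, f x y =
      Cfsg.hermForm n F q ((P : Matrix (Fin n) (Fin n) F) *ᵥ x)
        ((P : Matrix (Fin n) (Fin n) F) *ᵥ y) := by
  classical
  obtain ⟨σ', hσ'⟩ : ∃ σ' : F →+* F, ∀ a, σ' a = σ a := ⟨σ.toRingHom, fun a => rfl⟩
  have hσ'ne : σ' ≠ RingHom.id F := by
    intro h
    apply hf.ne_refl
    apply RingEquiv.ext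
    intro a
    rw [← hσ', h]
    rfl
  have hσ'2 : ∀ a : F, σ' (σ' a) = a := fun a => by rw [hσ', hσ', hf.involutive]
  have hσ'q : ∀ a : F, σ' a = a ^ q := fun a => by rw [hσ', hσq]
  obtain ⟨Bf, hBf⟩ : ∃ Bf : (Fin n → F) →ₛₗ[σ'] (Fin n → F) →ₗ[F] F, ∀ y x, Bf y x = f x y :=
    ⟨LinearMap.mk₂'ₛₗ σ' (RingHom.id F) (fun y x => f x y)
      (fun y₁ y₂ x => by
        rw [hf.herm x (y₁ + y₂), hf.add_left, map_add, ← hf.herm, ← hf.herm])
      (fun c y x => by
        rw [hf.herm x (c • y), hf.smul_left, map_mul, ← hf.herm, hσ']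
        rfl)
      (fun y x₁ x₂ => hf.add_left x₁ x₂ y)
      (fun c y x => hf.smul_left c x y), fun y x => rfl⟩
  have hS : Bf.IsSymm := ⟨fun x y => by rw [hBf, hBf, hσ', ← hf.herm]⟩
  have hB : Bf.Nondegenerate := by
    refine ⟨fun x hx => ?_, fun y hy => ?_⟩
    · by_contra hx0
      obtain ⟨z, hz⟩ := (hf.nondegenerate x hx0).1
      exact hz (by rw [← hBf]; exact hx z)
    · by_contra hy0
      obtain ⟨z, hz⟩ := (hf.nondegenerate y hy0).2
      exact hz (by rw [← hBf]; exact hy z)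
  obtain ⟨b, hb⟩ := Cfsg.Agent.S0755.result σ' hσ'ne hσ'2 Bf hS hB
  have hfr : Module.finrank F (Fin n → F) = n := Module.finrank_fin_fun F
  obtain ⟨b', hb'⟩ : ∃ b' : Module.Basis (Fin n) F (Fin n → F),
      ∀ i j, Bf (b' i) (b' j) = if i = j then 1 else 0 := by
    refine ⟨b.reindex (finCongr hfr), fun i j => ?_⟩
    rw [Module.Basis.reindex_apply, Module.Basis.reindex_apply, hb]
    simp
  have key : ∀ x y, Bf y x = ∑ i, b'.repr x i * σ' (b'.repr y i) := by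
    intro x y
    conv_lhs => rw [← b'.sum_repr x, ← b'.sum_repr y]
    simp only [map_sum, LinearMap.sum_apply, map_smul, LinearMap.map_smulₛₗ, LinearMap.smul_apply,
      smul_eq_mul, hb', mul_ite, mul_one, mul_zero, Finset.sum_ite_eq',
      Finset.mem_univ, if_true]
  obtain ⟨A, hA⟩ : ∃ A : Matrix (Fin n) (Fin n) F,
      A = LinearMap.toMatrix' b'.equivFun.toLinearMap := ⟨_, rfl⟩
  obtain ⟨A', hA'⟩ : ∃ A' : Matrix (Fin n) (Fin n) F,
      A' = LinearMap.toMatrix' b'.equivFun.symm.toLinearMap := ⟨_, rfl⟩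
  have hAx : ∀ x, A *ᵥ x = b'.equivFun x := by
    intro x
    rw [← Matrix.toLin'_apply, hA, Matrix.toLin'_toMatrix']
    rfl
  have hA'x : ∀ x, A' *ᵥ x = b'.equivFun.symm x := by
    intro x
    rw [← Matrix.toLin'_apply, hA', Matrix.toLin'_toMatrix']
    rfl
  have h1 : A * A' = 1 := by
    apply Cfsg.Agent.S0780.mat_ext'
    intro x
    rw [← Matrix.mulVec_mulVec, hA'x, hAx, Matrix.one_mulVec, LinearEquiv.apply_symm_apply]
  have h2 : A' * A = 1 := by
    apply Cfsg.Agent.S0780.mat_ext'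
    intro x
    rw [← Matrix.mulVec_mulVec, hAx, hA'x, Matrix.one_mulVec, LinearEquiv.symm_apply_apply]
  refine ⟨⟨A, A', h1, h2⟩, fun x y => ?_⟩
  show f x y = Cfsg.hermForm n F q (A *ᵥ x) (A *ᵥ y)
  rw [herm_B σ' hσ'q, Bh_apply, ← hBf, key x y, hAx, hAx]
  rfl

/-- transfer of maximality along an automorphism -/
theorem maximal_transfer {G : Type*} [Group G] (α : G ≃* G) (K H : Subgroup G)
    (hK : K.map α.toMonoidHom = K)
    (h : Cfsg.Geo.IsMaximalIn K (H.map α.toMonoidHom)) : Cfsg.Geo.IsMaximalIn K H := by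
  obtain ⟨hlt, hmax⟩ := h
  have hinj : Function.Injective (Subgroup.map α.toMonoidHom) :=
    Subgroup.map_injective α.injective
  have hle : ∀ A C : Subgroup G, A.map α.toMonoidHom ≤ C.map α.toMonoidHom → A ≤ C :=
    fun A C hAC => (Subgroup.map_le_map_iff_of_injective α.injective).mp hAC
  refine ⟨lt_of_le_of_ne (hle H K (hlt.le.trans (le_of_eq hK.symm))) (fun heq => ?_),
    fun M hHM hMK => ?_⟩
  · rw [heq, hK] at hlt
    exact lt_irrefl _ hlt
  · rcases hmax (M.map α.toMonoidHom) (Subgroup.map_mono hHM)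
      ((Subgroup.map_mono hMK).trans (le_of_eq hK)) with h1 | h1
    · left
      exact hinj h1
    · right
      exact hinj (h1.trans hK.symm)

/-- For a finite field F and n ≥ 13, let σ be a field automorphism of F of order two and f a non-degenerate unitary form on F^n with respect to σ. Then the elements of SL_n(F) that are similarities of f form a maximal subgroup of SL_n(F). -/
theorem result {F : Type*} [Field F] [Fintype F] (n : ℕ) (hn : 13 ≤ n) (σ : F ≃+* F) (f : (Fin n → F) → (Fin n → F) → F) (hf : Cfsg.Geo.IsUnitaryForm σ f) : Cfsg.Geo.IsMaximalIn (Cfsg.Geo.specialLinear (Fin n) F) (Cfsg.Geo.similarityGroup f ⊓ Cfsg.Geo.specialLinear (Fin n) F) := by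
  classical
  obtain ⟨q, hF, hσq⟩ := frob_of_invol σ hf.ne_refl hf.involutive
  obtain ⟨P, hP⟩ := exists_std n q σ f hf hσq
  have hcore := core_std n q hF hn
  have hdet : ∀ (A g : Matrix.GeneralLinearGroup (Fin n) F),
      Matrix.GeneralLinearGroup.det g = 1 → Matrix.GeneralLinearGroup.det (A * g * A⁻¹) = 1 := by
    intro A g hg
    rw [map_mul, map_mul, hg, mul_one, map_inv, mul_inv_cancel]
  have hSL : (Cfsg.Geo.specialLinear (Fin n) F).map (MulAut.conj P).toMonoidHom =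
      Cfsg.Geo.specialLinear (Fin n) F := by
    ext g
    constructor
    · rintro ⟨h, hh, rfl⟩
      exact hdet P h hh
    · intro hg
      refine ⟨P⁻¹ * g * P, ?_, ?_⟩
      · have := hdet P⁻¹ g hg
        rwa [inv_inv] at this
      · show P * (P⁻¹ * g * P) * P⁻¹ = g
        group
  apply maximal_transfer (MulAut.conj P) _ _ hSL
  have hmap : (Cfsg.Geo.similarityGroup f ⊓ Cfsg.Geo.specialLinear (Fin n) F).map
      (MulAut.conj P).toMonoidHom = Cfsg.Geo.similarityGroup (Cfsg.hermForm n F q) ⊓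
        Cfsg.Geo.specialLinear (Fin n) F := by
    ext g
    constructor
    · rintro ⟨h, ⟨⟨c, hc⟩, hh2⟩, rfl⟩
      refine ⟨⟨c, fun u v => ?_⟩, hdet P h hh2⟩
      show Cfsg.hermForm n F q (((P * h * P⁻¹ : Matrix.GeneralLinearGroup (Fin n) F) :
        Matrix (Fin n) (Fin n) F) *ᵥ u) (((P * h * P⁻¹ : Matrix.GeneralLinearGroup (Fin n) F) :
          Matrix (Fin n) (Fin n) F) *ᵥ v) = (c : F) * Cfsg.hermForm n F q u v
      rw [Units.val_mul, Units.val_mul, ← Matrix.mulVec_mulVec, ← Matrix.mulVec_mulVec,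
        ← Matrix.mulVec_mulVec, ← Matrix.mulVec_mulVec, ← hP, hc, hP, gl_inv_mulVec,
        gl_inv_mulVec]
    · rintro ⟨⟨c, hc⟩, hg2⟩
      refine ⟨P⁻¹ * g * P, ⟨⟨c, fun u v => ?_⟩, ?_⟩, ?_⟩
      · rw [hP, hP, Units.val_mul, Units.val_mul, ← Matrix.mulVec_mulVec, ← Matrix.mulVec_mulVec,
          ← Matrix.mulVec_mulVec, ← Matrix.mulVec_mulVec, gl_inv_mulVec, gl_inv_mulVec, hc]
      · have := hdet P⁻¹ g hg2
        rwa [inv_inv] at this
      · show P * (P⁻¹ * g * P) * P⁻¹ = g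
        group
  rw [hmap]
  exact hcore

end Cfsg.Agent.S5643
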