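import Mathlib
import Cfsg.Statements.S5647
import Cfsg.Agent.S5648
import Cfsg.Agent.S5646
import Cfsg.Agent.S0776

set_option autoImplicit false
open Cfsg

namespace Cfsg.Agent.S5647

open Matrix Cfsg.Agent.S5645 Cfsg.Agent.S5648
open scoped DirectSum

section aux

variable {F : Type*} [Field F] (m : ℕ) {t : ℕ} (D : Fin t → Submodule F (Fin m ⊕ Fin m → F))

theorem toLin_inj (g : Matrix.GeneralLinearGroup (Fin m ⊕ Fin m) F) :
    Function.Injective (Matrix.toLin' (g : Matrix (Fin m ⊕ Fin m) (Fin m ⊕ Fin m) F)) := by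
  intro x y h
  rw [Matrix.toLin'_apply, Matrix.toLin'_apply] at h
  exact Cfsg.Agent.S5646.gl_inj m g h

theorem map_eq (k : ℕ) (hfr : ∀ i, Module.finrank F (D i) = k)
    (g : Matrix.GeneralLinearGroup (Fin m ⊕ Fin m) F) (i j : Fin t)
    (h : ∀ x ∈ D i, (g : Matrix (Fin m ⊕ Fin m) (Fin m ⊕ Fin m) F) *ᵥ x ∈ D j) :
    (D i).map (Matrix.toLin' (g : Matrix (Fin m ⊕ Fin m) (Fin m ⊕ Fin m) F)) = D j := by
  apply Submodule.eq_of_le_of_finrank_le
  · rintro _ ⟨x, hx, rfl⟩
    rw [Matrix.toLin'_apply]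
    exact h x hx
  · rw [hfr j, ← (Submodule.equivMapOfInjective _ (toLin_inj m g) (D i)).finrank_eq, hfr i]

/-- Membership in the stabiliser of the decomposition from inclusions. -/
theorem mem_decompStab (k : ℕ) (hfr : ∀ i, Module.finrank F (D i) = k)
    (g : Matrix.GeneralLinearGroup (Fin m ⊕ Fin m) F) (σ : Equiv.Perm (Fin t))
    (h : ∀ i, ∀ x ∈ D i, (g : Matrix (Fin m ⊕ Fin m) (Fin m ⊕ Fin m) F) *ᵥ x ∈ D (σ i)) :
    g ∈ Geo.decompositionStabilizer D :=
  ⟨σ, fun i => map_eq m D k hfr g i (σ i) (h i)⟩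

theorem restrict_alt (W : Submodule F (Fin m ⊕ Fin m → F)) :
    ((Cfsg.Agent.S0768.BJ (F := F) m).restrict W).IsAlt :=
  fun x => Cfsg.Agent.S0768.BJ_alt m (x : Fin m ⊕ Fin m → F)

theorem restrict_nondeg (W : Submodule F (Fin m ⊕ Fin m → F))
    (hnd : Geo.IsNondegenerateOn (sympForm m F) W) :
    ((Cfsg.Agent.S0768.BJ (F := F) m).restrict W).Nondegenerate := by
  refine ⟨fun x hx => ?_, fun y hy => ?_⟩
  · by_contra h0
    have hx0 : (x : Fin m ⊕ Fin m → F) ≠ 0 := fun h => h0 (Subtype.ext h)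
    obtain ⟨z, hz, hzx⟩ := (hnd x x.2 hx0).2
    exact hzx ((Cfsg.Agent.S0768.BJ_apply m _ _).symm.trans (hx ⟨z, hz⟩))
  · by_contra h0
    have hy0 : (y : Fin m ⊕ Fin m → F) ≠ 0 := fun h => h0 (Subtype.ext h)
    obtain ⟨z, hz, hzy⟩ := (hnd y y.2 hy0).1
    exact hzy ((Cfsg.Agent.S0768.BJ_apply m _ _).symm.trans (hy ⟨z, hz⟩))

/-- A vector of a block orthogonal to a given non-zero vector of the block and different from
zero and from that vector. -/
theorem exists_aux [Fintype F] (k m' : ℕ) (hk : k = 2 * m') (hk0 : 0 < k)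
    (hex : ¬ (k = 2 ∧ Fintype.card F = 2)) (W : Submodule F (Fin m ⊕ Fin m → F))
    (hfr : Module.finrank F W = k) (hnd : Geo.IsNondegenerateOn (sympForm m F) W)
    (w' : Fin m ⊕ Fin m → F) (hw' : w' ∈ W) (hw'0 : w' ≠ 0) :
    ∃ u' ∈ W, u' ≠ 0 ∧ w' - u' ≠ 0 ∧ sympForm m F w' u' = 0 := by
  classical
  by_cases hq : Fintype.card F = 2
  · have hk3 : 3 ≤ k := by
      have : k ≠ 2 := fun h => hex ⟨h, hq⟩
      omega
    obtain ⟨x, hx, hxB⟩ := (hnd w' hw' hw'0).2
    obtain ⟨y, hy, hyP⟩ : ∃ y ∈ W, y ∉ Submodule.span F ({w', x} : Set (Fin m ⊕ Fin m → F)) := by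
      by_contra hcon
      push Not at hcon
      have hle : W ≤ Submodule.span F ({w', x} : Set (Fin m ⊕ Fin m → F)) := hcon
      have h1 := Submodule.finrank_mono hle
      have h2 : Module.finrank F (Submodule.span F ({w', x} : Set (Fin m ⊕ Fin m → F))) ≤ 2 := by
        have := finrank_span_finset_le_card (R := F) ({w', x} : Finset (Fin m ⊕ Fin m → F))
        rw [Finset.coe_pair] at this
        exact this.trans Finset.card_le_two
      omega
    have hw'P : w' ∈ Submodule.span F ({w', x} : Set (Fin m ⊕ Fin m → F)) :=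
      Submodule.subset_span (by simp)
    have hxP : x ∈ Submodule.span F ({w', x} : Set (Fin m ⊕ Fin m → F)) :=
      Submodule.subset_span (by simp)
    refine ⟨y - (sympForm m F w' y / sympForm m F w' x) • x,
      W.sub_mem hy (W.smul_mem _ hx), ?_, ?_, ?_⟩
    · intro h0
      apply hyP
      rw [sub_eq_zero.mp h0]
      exact Submodule.smul_mem _ _ hxP
    · intro h0
      apply hyP
      have : y = w' + (sympForm m F w' y / sympForm m F w' x) • x :=
        eq_add_of_sub_eq (sub_eq_zero.mp h0).symm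
      rw [this]
      exact Submodule.add_mem _ hw'P (Submodule.smul_mem _ _ hxP)
    · rw [Cfsg.Agent.S0766.form_sub_right, form_smul_right]
      field_simp
      ring
  · obtain ⟨μ, hμ0, hμ1⟩ : ∃ μ : F, μ ≠ 0 ∧ μ ≠ 1 := by
      by_contra hcon
      push Not at hcon
      have h1 : (Finset.univ : Finset F) ⊆ {0, 1} := by
        intro x _
        by_cases hx : x = 0
        · simp [hx]
        · simp [hcon x hx]
      have h2 := Finset.card_le_card h1
      have h3 : ({0, 1} : Finset F).card ≤ 2 := Finset.card_le_two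
      have h4 : 1 < Fintype.card F := Fintype.one_lt_card
      rw [Finset.card_univ] at h2
      omega
    refine ⟨μ • w', W.smul_mem _ hw', smul_ne_zero hμ0 hw'0, ?_, ?_⟩
    · intro h0
      have h1 : (1 - μ) • w' = 0 := by
        rw [sub_smul, one_smul]
        exact h0
      rcases smul_eq_zero.mp h1 with h | h
      · exact hμ1 (sub_eq_zero.mp h).symm
      · exact hw'0 h
    · rw [form_smul_right, Cfsg.Agent.S0766.form_self, mul_zero]

variable (hInt : DirectSum.IsInternal D)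

/-- Components of the image under a matrix permuting the summands. -/
theorem cmp_perm (g : Matrix.GeneralLinearGroup (Fin m ⊕ Fin m) F) (σ : Equiv.Perm (Fin t))
    (hg : ∀ i, ∀ x ∈ D i, (g : Matrix (Fin m ⊕ Fin m) (Fin m ⊕ Fin m) F) *ᵥ x ∈ D (σ i))
    (v : Fin m ⊕ Fin m → F) (j : Fin t) :
    cmp D hInt j ((g : Matrix (Fin m ⊕ Fin m) (Fin m ⊕ Fin m) F) *ᵥ v)
      = (g : Matrix (Fin m ⊕ Fin m) (Fin m ⊕ Fin m) F) *ᵥ (cmp D hInt (σ.symm j) v) := by
  have hfam : ∀ j, (g : Matrix (Fin m ⊕ Fin m) (Fin m ⊕ Fin m) F) *ᵥ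
      (cmp D hInt (σ.symm j) v) ∈ D j := by
    intro j
    have := hg (σ.symm j) _ (cmp_mem D hInt (σ.symm j) v)
    rwa [Equiv.apply_symm_apply] at this
  have hsum : ∑ j, (g : Matrix (Fin m ⊕ Fin m) (Fin m ⊕ Fin m) F) *ᵥ (cmp D hInt (σ.symm j) v)
      = (g : Matrix (Fin m ⊕ Fin m) (Fin m ⊕ Fin m) F) *ᵥ v := by
    rw [Equiv.sum_comp σ.symm (fun i => (g : Matrix (Fin m ⊕ Fin m) (Fin m ⊕ Fin m) F) *ᵥ
      (cmp D hInt i v)), ← Matrix.mulVec_sum, sum_cmp]
  rw [← hsum]
  exact cmp_sum_fam D hInt _ hfam j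

variable (horth : ∀ i j, i ≠ j → Geo.AreOrthogonalFor (sympForm m F) (D i) (D j))

include horth in
theorem form_cmp (x y : Fin m ⊕ Fin m → F) :
    sympForm m F x y = ∑ i, sympForm m F (cmp D hInt i x) (cmp D hInt i y) := by
  have := form_sum_fam m D horth (fun i => cmp D hInt i x) (fun i => cmp D hInt i y)
    (fun i => cmp_mem D hInt i x) (fun i => cmp_mem D hInt i y)
  rw [sum_cmp, sum_cmp] at this
  exact this

include horth in
theorem form_cmp_right (x : Fin m ⊕ Fin m → F) (j : Fin t) (z : Fin m ⊕ Fin m → F)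
    (hz : z ∈ D j) : sympForm m F x z = sympForm m F (cmp D hInt j x) z := by
  rw [form_cmp m D hInt horth x z, Finset.sum_eq_single j]
  · rw [cmp_of_mem D hInt hz, if_pos rfl]
  · intro i _ hij
    rw [cmp_of_mem D hInt hz, if_neg hij, form_zero_right]
  · intro h
    exact absurd (Finset.mem_univ j) h

theorem cmp_swap (x q : Fin m ⊕ Fin m → F) (j : Fin t) (hq : q ∈ D j) (i : Fin t) :
    cmp D hInt i (q + (x - cmp D hInt j x)) = if i = j then q else cmp D hInt i x := by
  rw [map_add, map_sub, cmp_of_mem D hInt hq, cmp_of_mem D hInt (cmp_mem D hInt j x)]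
  by_cases h : i = j
  · rw [if_pos h, if_pos h, if_pos h, h, sub_self, add_zero]
  · rw [if_neg h, if_neg h, if_neg h, sub_zero, zero_add]

theorem cmp_pair (a b : Fin m ⊕ Fin m → F) (j l : Fin t) (ha : a ∈ D j) (hb : b ∈ D l)
    (i : Fin t) :
    cmp D hInt i (a + b) = (if i = j then a else 0) + (if i = l then b else 0) := by
  rw [map_add, cmp_of_mem D hInt ha, cmp_of_mem D hInt hb]

theorem eq_of_cmp_eq (x y : Fin m ⊕ Fin m → F) (h : ∀ i, cmp D hInt i x = cmp D hInt i y) :
    x = y := by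
  rw [← sum_cmp D hInt x, ← sum_cmp D hInt y]
  exact Finset.sum_congr rfl (fun i _ => h i)

/-- All vectors whose set of non-zero components is exactly `J` belong to `S`. -/
def Full (S : Set (Fin m ⊕ Fin m → F)) (J : Finset (Fin t)) : Prop :=
  ∀ x, (∀ i, cmp D hInt i x ≠ 0 ↔ i ∈ J) → x ∈ S

variable (M : Subgroup (Matrix.GeneralLinearGroup (Fin m ⊕ Fin m) F)) (hM : M ≤ spGL m F)

include hM in
theorem add_mem_S (v u : Fin m ⊕ Fin m → F) (hv : v ∈ Sset m M) (hu : u ∈ Sset m M)
    (h : sympForm m F v u ≠ 0) : v + u ∈ Sset m M := by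
  have := Sset_tv m M hM u v hu hv (sympForm m F v u)⁻¹
  rwa [inv_mul_cancel₀ h, one_smul] at this

variable (hSD : ∀ i, ∀ u ∈ D i, u ∈ Sset m M)
  (hnd : ∀ i, Geo.IsNondegenerateOn (sympForm m F) (D i))

include hM hSD hnd horth in
/-- Replacing one non-zero component by another non-zero vector of the same summand. -/
theorem swapC (x q : Fin m ⊕ Fin m → F) (j : Fin t) (hx : x ∈ Sset m M)
    (hxj : cmp D hInt j x ≠ 0) (hq : q ∈ D j) (hq0 : q ≠ 0) :
    q + (x - cmp D hInt j x) ∈ Sset m M := by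
  refine Cfsg.Agent.S5646.move m M hM (D j) (hSD j)
    (fun p hp hp0 => (hnd j p hp hp0).2) (cmp D hInt j x) q (x - cmp D hInt j x)
    (cmp_mem D hInt j x) hq hxj hq0 (fun z hz => ?_) (by rwa [add_sub_cancel])
  rw [form_sub_left, form_cmp_right m D hInt horth x j z hz, sub_self]

include hM hSD hnd horth in
theorem full_of_mem (y : Fin m ⊕ Fin m → F) (hy : y ∈ Sset m M) :
    ∀ x, (∀ i, cmp D hInt i x ≠ 0 ↔ cmp D hInt i y ≠ 0) → x ∈ Sset m M := by
  classical
  have key : ∀ A : Finset (Fin t), ∀ x, (∀ i, cmp D hInt i x ≠ 0 ↔ cmp D hInt i y ≠ 0) →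
      (∀ i, i ∉ A → cmp D hInt i x = cmp D hInt i y) → x ∈ Sset m M := by
    intro A
    induction A using Finset.induction_on with
    | empty =>
      intro x _ hx
      have : x = y := eq_of_cmp_eq m D hInt x y (fun i => hx i (Finset.notMem_empty i))
      rw [this]
      exact hy
    | insert j A hjA ih =>
      intro x hxs hx
      have hc : ∀ i, cmp D hInt i (cmp D hInt j y + (x - cmp D hInt j x))
          = if i = j then cmp D hInt j y else cmp D hInt i x :=
        cmp_swap m D hInt x _ j (cmp_mem D hInt j y)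
      have h1 : cmp D hInt j y + (x - cmp D hInt j x) ∈ Sset m M := by
        apply ih
        · intro i
          rw [hc i]
          by_cases h : i = j
          · rw [if_pos h, h]
          · rw [if_neg h]
            exact hxs i
        · intro i hi
          rw [hc i]
          by_cases h : i = j
          · rw [if_pos h, h]
          · rw [if_neg h]
            exact hx i (fun h' => by
              rcases Finset.mem_insert.mp h' with h'' | h''
              · exact h h''
              · exact hi h'')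
      by_cases hxj : cmp D hInt j x = 0
      · have hyj : cmp D hInt j y = 0 := by
          by_contra h
          exact ((hxs j).mpr h) hxj
        rw [hyj, hxj, sub_zero, zero_add] at h1
        exact h1
      · have hyj : cmp D hInt j y ≠ 0 := (hxs j).mp hxj
        have h2 := swapC m D hInt horth M hM hSD hnd _ (cmp D hInt j x) j h1
          (by rw [hc j, if_pos rfl]; exact hyj) (cmp_mem D hInt j x) hxj
        have e : cmp D hInt j x + (cmp D hInt j y + (x - cmp D hInt j x)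
            - cmp D hInt j (cmp D hInt j y + (x - cmp D hInt j x))) = x := by
          rw [hc j, if_pos rfl]
          abel
        rwa [e] at h2
  intro x hx
  exact key Finset.univ x hx (fun i hi => absurd (Finset.mem_univ i) hi)

include hM hnd horth in
/-- Removing one index from the support. -/
theorem full_erase
    (hex : ∀ i, ∃ d ∈ D i, d ≠ 0)
    (haux : ∀ j, ∀ w' ∈ D j, w' ≠ 0 → ∃ u' ∈ D j, u' ≠ 0 ∧ w' - u' ≠ 0 ∧ sympForm m F w' u' = 0)
    (J : Finset (Fin t)) (hJ : Full m D hInt (Sset m M) J) (j₀ j₁ : Fin t) (hj₀ : j₀ ∈ J)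
    (hj₁ : j₁ ∈ J) (h01 : j₁ ≠ j₀) : Full m D hInt (Sset m M) (J.erase j₀) := by
  classical
  intro w hw
  have hw0 : cmp D hInt j₀ w = 0 := by
    by_contra h
    exact (Finset.notMem_erase j₀ J) ((hw j₀).mp h)
  have hw1 : cmp D hInt j₁ w ≠ 0 := (hw j₁).mpr (Finset.mem_erase.mpr ⟨h01, hj₁⟩)
  obtain ⟨d₀, hd₀, hd₀0⟩ := hex j₀
  obtain ⟨u₁, hu₁, hu₁B⟩ := (hnd j₁ _ (cmp_mem D hInt j₁ w) hw1).2
  have hu₁0 : u₁ ≠ 0 := by
    rintro rfl
    exact hu₁B (form_zero_right m _)
  have ha : ∀ i, ∃ a ∈ D i, (cmp D hInt i w ≠ 0 → a ≠ 0 ∧ cmp D hInt i w - a ≠ 0 ∧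
      sympForm m F (cmp D hInt i w) a = 0) := by
    intro i
    by_cases h : cmp D hInt i w = 0
    · exact ⟨0, (D i).zero_mem, fun h' => absurd h h'⟩
    · obtain ⟨a, ha, h1, h2, h3⟩ := haux i _ (cmp_mem D hInt i w) h
      exact ⟨a, ha, fun _ => ⟨h1, h2, h3⟩⟩
  choose a haD ha using ha
  obtain ⟨z, hzdef⟩ : ∃ z : Fin t → (Fin m ⊕ Fin m → F), z = fun i =>
      if i = j₀ then d₀ else if i = j₁ then u₁ else if i ∈ J then a i else 0 := ⟨_, rfl⟩
  have hz0 : z j₀ = d₀ := by rw [hzdef]; simp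
  have hz1 : z j₁ = u₁ := by rw [hzdef]; simp [h01]
  have hz2 : ∀ i, i ≠ j₀ → i ≠ j₁ → i ∈ J → z i = a i := by
    intro i h0 h1 hi
    rw [hzdef]
    simp [h0, h1, hi]
  have hz3 : ∀ i, i ∉ J → z i = 0 := by
    intro i hi
    have h0 : i ≠ j₀ := fun h => hi (h ▸ hj₀)
    have h1 : i ≠ j₁ := fun h => hi (h ▸ hj₁)
    rw [hzdef]
    simp [h0, h1, hi]
  have hz : ∀ i, z i ∈ D i := by
    intro i
    by_cases h0 : i = j₀
    · rw [h0, hz0]
      exact hd₀
    by_cases h1 : i = j₁
    · rw [h1, hz1]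
      exact hu₁
    by_cases hi : i ∈ J
    · rw [hz2 i h0 h1 hi]
      exact haD i
    · rw [hz3 i hi]
      exact (D i).zero_mem
  have hcu : ∀ i, cmp D hInt i (∑ i, z i) = z i := cmp_sum_fam D hInt z hz
  have hcv : ∀ i, cmp D hInt i (w - ∑ i, z i) = cmp D hInt i w - z i := by
    intro i
    rw [map_sub, hcu]
  have hwi : ∀ i, i ≠ j₀ → i ∈ J → cmp D hInt i w ≠ 0 := fun i h0 hi =>
    (hw i).mpr (Finset.mem_erase.mpr ⟨h0, hi⟩)
  have hwn : ∀ i, i ∉ J → cmp D hInt i w = 0 := by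
    intro i hi
    by_contra h
    exact hi (Finset.mem_of_mem_erase ((hw i).mp h))
  have hu : (∑ i, z i) ∈ Sset m M := by
    apply hJ
    intro i
    rw [hcu]
    by_cases h0 : i = j₀
    · rw [h0, hz0]
      exact ⟨fun _ => hj₀, fun _ => hd₀0⟩
    by_cases h1 : i = j₁
    · rw [h1, hz1]
      exact ⟨fun _ => hj₁, fun _ => hu₁0⟩
    by_cases hi : i ∈ J
    · rw [hz2 i h0 h1 hi]
      exact ⟨fun _ => hi, fun _ => (ha i (hwi i h0 hi)).1⟩
    · rw [hz3 i hi]
      exact ⟨fun h => absurd rfl h, fun h => absurd h hi⟩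
  have hv : w - ∑ i, z i ∈ Sset m M := by
    apply hJ
    intro i
    rw [hcv]
    by_cases h0 : i = j₀
    · rw [h0, hz0, hw0, zero_sub]
      exact ⟨fun _ => hj₀, fun _ => neg_ne_zero.mpr hd₀0⟩
    by_cases h1 : i = j₁
    · rw [h1, hz1]
      refine ⟨fun _ => hj₁, fun _ h => hu₁B ?_⟩
      rw [sub_eq_zero.mp h]
      exact Cfsg.Agent.S0766.form_self m u₁
    by_cases hi : i ∈ J
    · rw [hz2 i h0 h1 hi]
      exact ⟨fun _ => hi, fun _ => (ha i (hwi i h0 hi)).2.1⟩
    · rw [hz3 i hi, hwn i hi, sub_zero]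
      exact ⟨fun h => absurd rfl h, fun h => absurd h hi⟩
  have hB : sympForm m F (w - ∑ i, z i) (∑ i, z i) ≠ 0 := by
    rw [form_cmp m D hInt horth, Finset.sum_eq_single j₁]
    · rw [hcv, hcu, hz1, form_sub_left, Cfsg.Agent.S0766.form_self, sub_zero]
      exact hu₁B
    · intro i _ h1
      rw [hcv, hcu, form_sub_left, Cfsg.Agent.S0766.form_self, sub_zero]
      by_cases h0 : i = j₀
      · rw [h0, hw0, form_zero_left]
      by_cases hi : i ∈ J
      · rw [hz2 i h0 h1 hi]
        exact (ha i (hwi i h0 hi)).2.2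
      · rw [hz3 i hi, form_zero_right]
    · intro h
      exact absurd (Finset.mem_univ j₁) h
  have := add_mem_S m M hM _ _ hv hu hB
  rwa [sub_add_cancel] at this

include hM hnd horth in
/-- Shrinking the support to a pair. -/
theorem full_pair
    (hex : ∀ i, ∃ d ∈ D i, d ≠ 0)
    (haux : ∀ j, ∀ w' ∈ D j, w' ≠ 0 → ∃ u' ∈ D j, u' ≠ 0 ∧ w' - u' ≠ 0 ∧ sympForm m F w' u' = 0) :
    ∀ (n : ℕ) (J : Finset (Fin t)), J.card = n → Full m D hInt (Sset m M) J →
      ∀ j₁ j₂, j₁ ∈ J → j₂ ∈ J → j₁ ≠ j₂ → Full m D hInt (Sset m M) {j₁, j₂} := by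
  classical
  intro n
  induction n with
  | zero =>
    intro J hJc _ j₁ _ hj₁ _ _
    rw [Finset.card_eq_zero] at hJc
    rw [hJc] at hj₁
    exact absurd hj₁ (Finset.notMem_empty _)
  | succ n ih =>
    intro J hJc hJ j₁ j₂ hj₁ hj₂ h12
    by_cases hex3 : ∃ j₀ ∈ J, j₀ ≠ j₁ ∧ j₀ ≠ j₂
    · obtain ⟨j₀, hj₀, h01, h02⟩ := hex3
      have h1 := full_erase m D hInt horth M hM hnd hex haux J hJ j₀ j₁ hj₀ hj₁ (Ne.symm h01)
      exact ih (J.erase j₀) (by rw [Finset.card_erase_of_mem hj₀, hJc]; rfl) h1 j₁ j₂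
        (Finset.mem_erase.mpr ⟨Ne.symm h01, hj₁⟩) (Finset.mem_erase.mpr ⟨Ne.symm h02, hj₂⟩) h12
    · push Not at hex3
      have : J = {j₁, j₂} := by
        ext i
        rw [Finset.mem_insert, Finset.mem_singleton]
        constructor
        · intro hi
          by_cases h1 : i = j₁
          · exact Or.inl h1
          · exact Or.inr (hex3 i hi h1)
        · rintro (h | h)
          · rw [h]; exact hj₁
          · rw [h]; exact hj₂
      rw [← this]
      exact hJ

include hM hSD hnd horth in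
/-- Growing the support by one index. -/
theorem full_all (hpair : ∀ c d, c ≠ d → Full m D hInt (Sset m M) {c, d}) :
    ∀ (n : ℕ) (J : Finset (Fin t)), J.card = n → Full m D hInt (Sset m M) J := by
  classical
  intro n
  induction n with
  | zero =>
    intro J hJc x hx
    rw [Finset.card_eq_zero] at hJc
    have : x = 0 := by
      apply eq_of_cmp_eq m D hInt
      intro i
      rw [map_zero]
      by_contra h
      have := (hx i).mp h
      rw [hJc] at this
      exact absurd this (Finset.notMem_empty _)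
    rw [this]
    intro c
    rw [Cfsg.Agent.S5652.tv_zero_left]
    exact M.one_mem
  | succ n ih =>
    intro J hJc w hw
    by_cases hn : n = 0
    · rw [hn] at hJc
      obtain ⟨j, rfl⟩ := Finset.card_eq_one.mp hJc
      have : w = cmp D hInt j w := by
        apply eq_of_cmp_eq m D hInt
        intro i
        rw [cmp_of_mem D hInt (cmp_mem D hInt j w)]
        by_cases h : i = j
        · rw [if_pos h, h]
        · rw [if_neg h]
          by_contra h'
          exact h (Finset.mem_singleton.mp ((hw i).mp h'))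
      rw [this]
      exact hSD j _ (cmp_mem D hInt j w)
    by_cases hn1 : n = 1
    · rw [hn1] at hJc
      obtain ⟨c, d, hcd, rfl⟩ := Finset.card_eq_two.mp hJc
      exact hpair c d hcd w hw
    have hn2 : 2 ≤ n := by omega
    obtain ⟨l, hl⟩ : ∃ l, l ∈ J := by
      apply Finset.card_pos.mp
      omega
    obtain ⟨j, hj⟩ : ∃ j, j ∈ J.erase l := by
      apply Finset.card_pos.mp
      rw [Finset.card_erase_of_mem hl]
      omega
    have hjl : j ≠ l := (Finset.mem_erase.mp hj).1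
    have hjJ : j ∈ J := (Finset.mem_erase.mp hj).2
    have hwj : cmp D hInt j w ≠ 0 := (hw j).mpr hjJ
    have hwl : cmp D hInt l w ≠ 0 := (hw l).mpr hl
    obtain ⟨uj, huj, hujB⟩ := (hnd j _ (cmp_mem D hInt j w) hwj).2
    have huj0 : uj ≠ 0 := by
      rintro rfl
      exact hujB (form_zero_right m _)
    have hcu : ∀ i, cmp D hInt i (uj + cmp D hInt l w)
        = (if i = j then uj else 0) + (if i = l then cmp D hInt l w else 0) :=
      cmp_pair m D hInt uj _ j l huj (cmp_mem D hInt l w)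
    have hu : uj + cmp D hInt l w ∈ Sset m M := by
      apply hpair j l hjl
      intro i
      rw [hcu, Finset.mem_insert, Finset.mem_singleton]
      by_cases h1 : i = j
      · rw [if_pos h1, if_neg (fun h => hjl (h1 ▸ h)), add_zero]
        exact ⟨fun _ => Or.inl h1, fun _ => huj0⟩
      by_cases h2 : i = l
      · rw [if_neg h1, if_pos h2, zero_add]
        exact ⟨fun _ => Or.inr h2, fun _ => hwl⟩
      · rw [if_neg h1, if_neg h2, add_zero]
        exact ⟨fun h => absurd rfl h, fun h => by rcases h with h | h <;> contradiction⟩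
    have hcv : ∀ i, cmp D hInt i (w - (uj + cmp D hInt l w)) = cmp D hInt i w
        - ((if i = j then uj else 0) + (if i = l then cmp D hInt l w else 0)) := by
      intro i
      rw [map_sub, hcu]
    have hv : w - (uj + cmp D hInt l w) ∈ Sset m M := by
      apply ih (J.erase l) (by rw [Finset.card_erase_of_mem hl, hJc]; rfl)
      intro i
      rw [hcv]
      by_cases h1 : i = j
      · rw [if_pos h1, if_neg (fun h => hjl (h1 ▸ h)), add_zero, h1]
        refine ⟨fun _ => hj, fun _ h => hujB ?_⟩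
        rw [sub_eq_zero.mp h]
        exact Cfsg.Agent.S0766.form_self m uj
      by_cases h2 : i = l
      · rw [if_neg h1, if_pos h2, zero_add, h2, sub_self]
        exact ⟨fun h => absurd rfl h, fun h => absurd h (Finset.notMem_erase l J)⟩
      · rw [if_neg h1, if_neg h2, add_zero, sub_zero]
        rw [hw i]
        exact ⟨fun h => Finset.mem_erase.mpr ⟨h2, h⟩, fun h => Finset.mem_of_mem_erase h⟩
    have hB : sympForm m F (w - (uj + cmp D hInt l w)) (uj + cmp D hInt l w) ≠ 0 := by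
      rw [form_cmp m D hInt horth, Finset.sum_eq_single j]
      · rw [hcv, hcu, if_pos rfl, if_neg hjl, add_zero, form_sub_left,
          Cfsg.Agent.S0766.form_self, sub_zero]
        exact hujB
      · intro i _ h1
        rw [hcv, hcu, if_neg h1, zero_add]
        by_cases h2 : i = l
        · rw [if_pos h2, h2, sub_self, form_zero_left]
        · rw [if_neg h2, form_zero_right]
      · intro h
        exact absurd (Finset.mem_univ j) h
    have := add_mem_S m M hM _ _ hv hu hB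
    rwa [sub_add_cancel] at this

include hM in
/-- Transport of `Full` by an element of `M` permuting the summands. -/
theorem full_perm (h : Matrix.GeneralLinearGroup (Fin m ⊕ Fin m) F) (hh : h ∈ M)
    (σ : Equiv.Perm (Fin t))
    (hσ : ∀ i, ∀ x ∈ D i, (h : Matrix (Fin m ⊕ Fin m) (Fin m ⊕ Fin m) F) *ᵥ x ∈ D (σ i))
    (J : Finset (Fin t)) (hJ : Full m D hInt (Sset m M) J) :
    Full m D hInt (Sset m M) (J.map σ.toEmbedding) := by
  intro w hw
  obtain ⟨w', hw'def⟩ : ∃ w', w' = ((h⁻¹ : Matrix.GeneralLinearGroup (Fin m ⊕ Fin m) F) :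
      Matrix (Fin m ⊕ Fin m) (Fin m ⊕ Fin m) F) *ᵥ w := ⟨_, rfl⟩
  have hw' : (h : Matrix (Fin m ⊕ Fin m) (Fin m ⊕ Fin m) F) *ᵥ w' = w := by
    rw [hw'def]
    exact Cfsg.Agent.S5646.gl_inv_mulVec m h w
  have hS : w' ∈ Sset m M := by
    apply hJ
    intro i
    have e := cmp_perm m D hInt h σ hσ w' (σ i)
    rw [hw', Equiv.symm_apply_apply] at e
    constructor
    · intro hne
      have h1 : cmp D hInt (σ i) w ≠ 0 := by
        rw [e]
        intro h0
        apply hne
        exact Cfsg.Agent.S5646.gl_inj m h (a₁ := cmp D hInt i w') (a₂ := 0)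
          (by change (h : Matrix (Fin m ⊕ Fin m) (Fin m ⊕ Fin m) F) *ᵥ _
                = (h : Matrix (Fin m ⊕ Fin m) (Fin m ⊕ Fin m) F) *ᵥ 0
              rw [h0, Matrix.mulVec_zero])
      have h2 := (hw (σ i)).mp h1
      exact (Finset.mem_map' σ.toEmbedding).mp h2
    · intro hi hzero
      have h1 : σ i ∈ J.map σ.toEmbedding := (Finset.mem_map' σ.toEmbedding).mpr hi
      apply (hw (σ i)).mpr h1
      rw [e, hzero, Matrix.mulVec_zero]
  rw [← hw']
  exact Sset_gl m M hM h hh w' hS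

include hInt in
/-- Elements of the stabiliser permuting the blocks in a prescribed way. -/
theorem exists_perm (k m' : ℕ) (hk : k = 2 * m')
    (hD : Geo.IsNondegenerateMDecomposition (sympForm m F) k D) (σ : Equiv.Perm (Fin t)) :
    ∃ h ∈ Geo.decompositionStabilizer D ⊓ spGL m F,
      ∀ i, ∀ x ∈ D i, (h : Matrix (Fin m ⊕ Fin m) (Fin m ⊕ Fin m) F) *ᵥ x ∈ D (σ i) := by
  classical
  have hBi : ∀ i, ∃ b : Module.Basis (Fin m' ⊕ Fin m') F (D i),
      LinearMap.BilinForm.toMatrix b ((Cfsg.Agent.S0768.BJ (F := F) m).restrict (D i))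
        = - Matrix.J (Fin m') F := by
    intro i
    apply Cfsg.Agent.S0776.symp_basis _ (restrict_alt m (D i))
      (restrict_nondeg m (D i) (hD.nondegenerate i))
    rw [hD.decomp.finrank_eq i, hk]
  choose b hb using hBi
  obtain ⟨c, hcdef⟩ : ∃ c : Module.Basis (Σ _ : Fin t, Fin m' ⊕ Fin m') F (Fin m ⊕ Fin m → F),
      c = hInt.collectedBasis b := ⟨_, rfl⟩
  have hc : ∀ i j, c ⟨i, j⟩ = (b i j : Fin m ⊕ Fin m → F) := by
    intro i j
    rw [hcdef, DirectSum.IsInternal.collectedBasis_coe]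
  let e : (Σ _ : Fin t, Fin m' ⊕ Fin m') ≃ (Σ _ : Fin t, Fin m' ⊕ Fin m') :=
    ⟨fun a => ⟨σ a.1, a.2⟩, fun a => ⟨σ.symm a.1, a.2⟩, fun a => by simp, fun a => by simp⟩
  obtain ⟨L, hLdef⟩ : ∃ L : (Fin m ⊕ Fin m → F) ≃ₗ[F] (Fin m ⊕ Fin m → F), L = c.equiv c e :=
    ⟨_, rfl⟩
  have hL : ∀ i j, L (b i j : Fin m ⊕ Fin m → F) = (b (σ i) j : Fin m ⊕ Fin m → F) := by
    intro i j
    rw [← hc, hLdef, Module.Basis.equiv_apply, ← hc]
    rfl
  have hLD : ∀ i, ∀ x ∈ D i, L x ∈ D (σ i) := by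
    intro i x hx
    have h1 := (b i).sum_repr ⟨x, hx⟩
    have h2 : x = ∑ j, (b i).repr ⟨x, hx⟩ j • (b i j : Fin m ⊕ Fin m → F) := by
      have h3 : ((∑ j, (b i).repr ⟨x, hx⟩ j • b i j : D i) : Fin m ⊕ Fin m → F) = x :=
        congrArg Subtype.val h1
      exact h3.symm.trans (by simp only [Submodule.coe_sum, Submodule.coe_smul])
    rw [h2, map_sum]
    refine Submodule.sum_mem _ (fun j _ => ?_)
    rw [map_smul, hL]
    exact Submodule.smul_mem _ _ (Submodule.coe_mem _)
  have hgram : ∀ i (j j' : Fin m' ⊕ Fin m'),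
      Cfsg.Agent.S0768.BJ m (b i j : Fin m ⊕ Fin m → F) (b i j' : Fin m ⊕ Fin m → F)
        = (- Matrix.J (Fin m') F) j j' := by
    intro i j j'
    rw [← hb i, LinearMap.BilinForm.toMatrix_apply]
    rfl
  have hcomp : (Cfsg.Agent.S0768.BJ (F := F) m).comp L.toLinearMap L.toLinearMap
      = Cfsg.Agent.S0768.BJ m := by
    apply LinearMap.BilinForm.ext_basis c
    rintro ⟨i, j⟩ ⟨i', j'⟩
    rw [LinearMap.BilinForm.comp_apply]
    simp only [LinearEquiv.coe_coe]
    rw [hc, hc, hL, hL]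
    by_cases hii : i = i'
    · subst hii
      rw [hgram, hgram]
    · rw [Cfsg.Agent.S0768.BJ_apply, Cfsg.Agent.S0768.BJ_apply,
        hD.orthogonal (σ i) (σ i') (fun h => hii (σ.injective h)) _ (Submodule.coe_mem _) _
          (Submodule.coe_mem _),
        hD.orthogonal i i' hii _ (Submodule.coe_mem _) _ (Submodule.coe_mem _)]
  have hiso : ∀ x y, Cfsg.Agent.S0768.BJ m (L x) (L y) = Cfsg.Agent.S0768.BJ m x y := by
    intro x y
    have h1 := congrArg (fun B : LinearMap.BilinForm F (Fin m ⊕ Fin m → F) => B x y) hcomp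
    exact h1
  have hgD : ∀ i, ∀ x ∈ D i, ((Cfsg.Agent.S0768.toGL m L :
      Matrix.GeneralLinearGroup (Fin m ⊕ Fin m) F) :
      Matrix (Fin m ⊕ Fin m) (Fin m ⊕ Fin m) F) *ᵥ x ∈ D (σ i) := by
    intro i x hx
    rw [Cfsg.Agent.S0768.toGL_mulVec]
    exact hLD i x hx
  refine ⟨Cfsg.Agent.S0768.toGL m L,
    ⟨mem_decompStab m D k hD.decomp.finrank_eq _ σ hgD, ?_⟩, hgD⟩
  refine (mem_spGL_iff m _).mpr (fun u v => ?_)
  rw [Cfsg.Agent.S0768.toGL_mulVec, Cfsg.Agent.S0768.toGL_mulVec, ← Cfsg.Agent.S0768.BJ_apply,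
    hiso, Cfsg.Agent.S0768.BJ_apply]

end aux

/-- For a finite field F with q elements and m ≥ 7, let D be a decomposition of F^(2m) into t ≥ 2 pairwise orthogonal subspaces of equal dimension k on each of which the standard alternating form is non-degenerate, spanning F^(2m). Unless k = 2 and q = 2, the elements of Sp_2m(F) permuting the members of D form a maximal subgroup of Sp_2m(F). -/
theorem result {F : Type*} [Field F] [Fintype F] (m : ℕ) (hm : 7 ≤ m) {t : ℕ} (k : ℕ) (D : Fin t → Submodule F (Fin m ⊕ Fin m → F)) (hD : Cfsg.Geo.IsNondegenerateMDecomposition (Cfsg.sympForm m F) k D) (hex : ¬ (k = 2 ∧ Fintype.card F = 2)) : Cfsg.Geo.IsMaximalIn (Cfsg.spGL m F) (Cfsg.Geo.decompositionStabilizer D ⊓ Cfsg.spGL m F) := by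
  classical
  have hInt : DirectSum.IsInternal D :=
    DirectSum.isInternal_submodule_of_iSupIndep_of_iSup_eq_top hD.decomp.indep
      hD.decomp.iSup_eq_top
  have ht2 := hD.decomp.two_le
  obtain ⟨i₁, hi₁⟩ : ∃ i : Fin t, i = ⟨0, by omega⟩ := ⟨_, rfl⟩
  obtain ⟨i₂, hi₂⟩ : ∃ i : Fin t, i = ⟨1, by omega⟩ := ⟨_, rfl⟩
  have h12 : i₁ ≠ i₂ := by rw [hi₁, hi₂]; simp
  -- `k` is even
  obtain ⟨m', hk⟩ : ∃ m', k = 2 * m' := by
    obtain ⟨m', k'', b, -, -, -, h4⟩ := Cfsg.Agent.S0752.result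
      ((Cfsg.Agent.S0768.BJ (F := F) m).restrict (D i₁)) (restrict_alt m (D i₁))
    have hk'' : k'' = 0 := by
      by_contra h7
      have h5 : b (Sum.inr ⟨0, Nat.pos_of_ne_zero h7⟩) = 0 :=
        (restrict_nondeg m (D i₁) (hD.nondegenerate i₁)).1 _ (h4 _)
      exact b.ne_zero _ h5
    have h5 := Module.finrank_eq_card_basis b
    rw [hD.decomp.finrank_eq i₁] at h5
    simp only [Fintype.card_sum, Fintype.card_fin] at h5
    exact ⟨m', by omega⟩
  have hexd : ∀ i, ∃ d ∈ D i, d ≠ 0 := by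
    intro i
    have h1 : 0 < Module.finrank F (D i) := by
      rw [hD.decomp.finrank_eq i]
      exact hD.decomp.pos
    obtain ⟨⟨d, hd⟩, hd0⟩ := Module.finrank_pos_iff_exists_ne_zero.mp h1
    exact ⟨d, hd, fun h => hd0 (Subtype.ext h)⟩
  have haux : ∀ j, ∀ w' ∈ D j, w' ≠ 0 →
      ∃ u' ∈ D j, u' ≠ 0 ∧ w' - u' ≠ 0 ∧ sympForm m F w' u' = 0 := fun j w' hw' hw'0 =>
    exists_aux m k m' hk hD.decomp.pos hex (D j) (hD.decomp.finrank_eq j) (hD.nondegenerate j)
      w' hw' hw'0
  refine ⟨lt_of_le_of_ne inf_le_right ?_, ?_⟩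
  · intro heq
    obtain ⟨d₁, hd₁, hd₁0⟩ := hexd i₁
    obtain ⟨d₂, hd₂, hd₂0⟩ := hexd i₂
    obtain ⟨x, hx, hxd⟩ := (hD.nondegenerate i₁ d₁ hd₁ hd₁0).1
    have ht : tv m (d₁ + d₂) 1 ∈ Geo.decompositionStabilizer D ⊓ spGL m F := by
      rw [heq]
      exact tv_mem m _ 1
    obtain ⟨σ, hσ⟩ := ht.1
    have hy : (tv m (d₁ + d₂) 1 : Matrix (Fin m ⊕ Fin m) (Fin m ⊕ Fin m) F) *ᵥ x ∈ D (σ i₁) := by
      rw [← hσ i₁]
      exact ⟨x, hx, by rw [Matrix.toLin'_apply]⟩
    have hxu : sympForm m F x (d₁ + d₂) = sympForm m F x d₁ := by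
      rw [Cfsg.Agent.S0766.form_add_right, hD.orthogonal i₁ i₂ h12 x hx d₂ hd₂, add_zero]
    rw [tv_mulVec, hxu, one_mul] at hy
    obtain ⟨β, hβ⟩ : ∃ β, β = sympForm m F x d₁ := ⟨_, rfl⟩
    rw [← hβ] at hy hxd
    have hc1 : cmp D hInt i₁ (x + β • (d₁ + d₂)) = x + β • d₁ := by
      have a1 : cmp D hInt i₁ x = x := by rw [cmp_of_mem D hInt hx, if_pos rfl]
      have a2 : cmp D hInt i₁ d₁ = d₁ := by rw [cmp_of_mem D hInt hd₁, if_pos rfl]
      have a3 : cmp D hInt i₁ d₂ = 0 := by rw [cmp_of_mem D hInt hd₂, if_neg h12]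
      rw [map_add, map_smul, map_add, a1, a2, a3, add_zero]
    have hc2 : cmp D hInt i₂ (x + β • (d₁ + d₂)) = β • d₂ := by
      have a1 : cmp D hInt i₂ x = 0 := by rw [cmp_of_mem D hInt hx, if_neg (Ne.symm h12)]
      have a2 : cmp D hInt i₂ d₁ = 0 := by rw [cmp_of_mem D hInt hd₁, if_neg (Ne.symm h12)]
      have a3 : cmp D hInt i₂ d₂ = d₂ := by rw [cmp_of_mem D hInt hd₂, if_pos rfl]
      rw [map_add, map_smul, map_add, a1, a2, a3, zero_add, zero_add]
    have hne1 : x + β • d₁ ≠ 0 := by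
      intro h0
      apply hxd
      have h1 : x = -(β • d₁) := eq_neg_of_add_eq_zero_left h0
      rw [hβ, h1, ← neg_smul, form_smul_left, Cfsg.Agent.S0766.form_self, mul_zero]
    have hne2 : β • d₂ ≠ 0 := smul_ne_zero hxd hd₂0
    have e1 : i₁ = σ i₁ := by
      by_contra hne
      rw [cmp_of_mem D hInt hy, if_neg hne] at hc1
      exact hne1 hc1.symm
    have e2 : i₂ = σ i₁ := by
      by_contra hne
      rw [cmp_of_mem D hInt hy, if_neg hne] at hc2
      exact hne2 hc2.symm
    exact h12 (e1.trans e2.symm)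
  · intro M hHM hMK
    by_cases hMH : M = Geo.decompositionStabilizer D ⊓ spGL m F
    · left
      exact hMH
    right
    obtain ⟨g, hgM, hgH⟩ : ∃ g ∈ M, g ∉ Geo.decompositionStabilizer D ⊓ spGL m F := by
      by_contra hcon
      push Not at hcon
      exact hMH (le_antisymm hcon hHM)
    have hgK := hMK hgM
    have hgstab : g ∉ Geo.decompositionStabilizer D := fun h => hgH ⟨h, hgK⟩
    apply eq_spGL_of_tv_mem m M hMK
    have hSD : ∀ i, ∀ u ∈ D i, u ∈ Sset m M := by
      intro i u hu c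
      apply hHM
      refine ⟨mem_decompStab m D k hD.decomp.finrank_eq _ 1 (fun j x hx => ?_), tv_mem m u c⟩
      rw [tv_mulVec, Equiv.Perm.one_apply]
      by_cases hji : j = i
      · rw [hji] at hx ⊢
        exact (D i).add_mem hx ((D i).smul_mem _ hu)
      · rw [hD.orthogonal j i hji x hx u hu, mul_zero, zero_smul, add_zero]
        exact hx
    -- a vector of `Sset` with two non-zero components
    obtain ⟨y, hyS, j₁, j₂, hj12, hy1, hy2⟩ : ∃ y ∈ Sset m M, ∃ j₁ j₂, j₁ ≠ j₂ ∧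
        cmp D hInt j₁ y ≠ 0 ∧ cmp D hInt j₂ y ≠ 0 := by
      by_contra hcon
      push Not at hcon
      have hone : ∀ y ∈ Sset m M, ∃ j, y ∈ D j := by
        intro y hy
        by_cases hy0 : ∀ j, cmp D hInt j y = 0
        · refine ⟨i₁, ?_⟩
          have : y = 0 := by
            apply eq_of_cmp_eq m D hInt
            intro i
            rw [hy0 i, map_zero]
          rw [this]
          exact (D i₁).zero_mem
        · push Not at hy0
          obtain ⟨j, hj⟩ := hy0
          refine ⟨j, ?_⟩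
          have : y = cmp D hInt j y := by
            apply eq_of_cmp_eq m D hInt
            intro i
            rw [cmp_of_mem D hInt (cmp_mem D hInt j y)]
            by_cases h : i = j
            · rw [if_pos h, h]
            · rw [if_neg h]
              exact hcon y hy j i (Ne.symm h) hj
          rw [this]
          exact cmp_mem D hInt j y
      obtain ⟨i, hi⟩ : ∃ i, ∀ j, ∃ x ∈ D i,
          (g : Matrix (Fin m ⊕ Fin m) (Fin m ⊕ Fin m) F) *ᵥ x ∉ D j := by
        by_contra hcon2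
        push Not at hcon2
        choose τ hτ using hcon2
        have hinj : Function.Injective τ := by
          intro i i' hii
          by_contra hne
          obtain ⟨d, hd, hd0⟩ := hexd i
          have h1 : (g : Matrix (Fin m ⊕ Fin m) (Fin m ⊕ Fin m) F) *ᵥ d ∈ D (τ i') := by
            rw [← hii]
            exact hτ i d hd
          rw [← map_eq m D k hD.decomp.finrank_eq g i' (τ i') (hτ i')] at h1
          obtain ⟨x', hx', hx'e⟩ := h1
          have h2 : x' = d := toLin_inj m g (by rw [hx'e, Matrix.toLin'_apply])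
          rw [h2] at hx'
          have h3 := cmp_of_mem D hInt hx' i
          rw [cmp_of_mem D hInt hd, if_pos rfl, if_neg hne] at h3
          exact hd0 h3
        have hbij : Function.Bijective τ := Finite.injective_iff_bijective.mp hinj
        exact hgstab (mem_decompStab m D k hD.decomp.finrank_eq g (Equiv.ofBijective τ hbij)
          (fun i x hx => by rw [Equiv.ofBijective_apply]; exact hτ i x hx))
      obtain ⟨d, hd, hd0⟩ := hexd i
      have hgd : (g : Matrix (Fin m ⊕ Fin m) (Fin m ⊕ Fin m) F) *ᵥ d ∈ Sset m M :=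
        Sset_gl m M hMK g hgM d (hSD i d hd)
      obtain ⟨j₁, hj₁⟩ := hone _ hgd
      obtain ⟨x₂, hx₂, hgx₂⟩ := hi j₁
      have hgx : (g : Matrix (Fin m ⊕ Fin m) (Fin m ⊕ Fin m) F) *ᵥ x₂ ∈ Sset m M :=
        Sset_gl m M hMK g hgM x₂ (hSD i x₂ hx₂)
      obtain ⟨j₂, hj₂⟩ := hone _ hgx
      have hj12 : j₁ ≠ j₂ := by
        intro h
        rw [← h] at hj₂
        exact hgx₂ hj₂
      have hgd0 : (g : Matrix (Fin m ⊕ Fin m) (Fin m ⊕ Fin m) F) *ᵥ d ≠ 0 := by
        intro h0
        apply hd0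
        exact Cfsg.Agent.S5646.gl_inj m g (a₁ := d) (a₂ := 0)
          (by change (g : Matrix (Fin m ⊕ Fin m) (Fin m ⊕ Fin m) F) *ᵥ d
                = (g : Matrix (Fin m ⊕ Fin m) (Fin m ⊕ Fin m) F) *ᵥ 0
              rw [h0, Matrix.mulVec_zero])
      have hgx0 : (g : Matrix (Fin m ⊕ Fin m) (Fin m ⊕ Fin m) F) *ᵥ x₂ ≠ 0 := by
        intro h0
        rw [h0] at hgx₂
        exact hgx₂ (D j₁).zero_mem
      have hsum : (g : Matrix (Fin m ⊕ Fin m) (Fin m ⊕ Fin m) F) *ᵥ d
          + (g : Matrix (Fin m ⊕ Fin m) (Fin m ⊕ Fin m) F) *ᵥ x₂ ∈ Sset m M := by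
        rw [← Matrix.mulVec_add]
        exact Sset_gl m M hMK g hgM _ (hSD i _ ((D i).add_mem hd hx₂))
      have hc := cmp_pair m D hInt _ _ j₁ j₂ hj₁ hj₂
      have h1 := hcon _ hsum j₁ j₂ hj12
        (by rw [hc j₁, if_pos rfl, if_neg hj12, add_zero]; exact hgd0)
      rw [hc j₂, if_neg (Ne.symm hj12), if_pos rfl, zero_add] at h1
      exact hgx0 h1
    have hF1 : Full m D hInt (Sset m M) (Finset.univ.filter (fun i => cmp D hInt i y ≠ 0)) := by
      intro x hx
      apply full_of_mem m D hInt hD.orthogonal M hMK hSD hD.nondegenerate y hyS x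
      intro i
      rw [hx i, Finset.mem_filter]
      simp
    have hF2 := full_pair m D hInt hD.orthogonal M hMK hD.nondegenerate hexd haux _ _ rfl hF1
      j₁ j₂ (by rw [Finset.mem_filter]; exact ⟨Finset.mem_univ _, hy1⟩)
      (by rw [Finset.mem_filter]; exact ⟨Finset.mem_univ _, hy2⟩) hj12
    have hpair : ∀ c d, c ≠ d → Full m D hInt (Sset m M) {c, d} := by
      intro c d hcd
      have hb₁ : Equiv.swap j₁ c j₂ ≠ c := by
        intro h
        have h1 := congrArg (Equiv.swap j₁ c) h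
        rw [Equiv.swap_apply_self, Equiv.swap_apply_right] at h1
        exact hj12 h1.symm
      obtain ⟨σ, hσdef⟩ : ∃ σ : Equiv.Perm (Fin t),
          σ = Equiv.swap (Equiv.swap j₁ c j₂) d * Equiv.swap j₁ c := ⟨_, rfl⟩
      have hσ1 : σ j₁ = c := by
        rw [hσdef, Equiv.Perm.mul_apply, Equiv.swap_apply_left,
          Equiv.swap_apply_of_ne_of_ne (Ne.symm hb₁) hcd]
      have hσ2 : σ j₂ = d := by
        rw [hσdef, Equiv.Perm.mul_apply, Equiv.swap_apply_left]
      obtain ⟨h, hhH, hhσ⟩ := exists_perm m D hInt k m' hk hD σ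
      have h1 := full_perm m D hInt M hMK h (hHM hhH) σ hhσ _ hF2
      have e : ({j₁, j₂} : Finset (Fin t)).map σ.toEmbedding = {c, d} := by
        rw [Finset.map_insert, Finset.map_singleton]
        simp [hσ1, hσ2]
      rwa [e] at h1
    have hall := full_all m D hInt hD.orthogonal M hMK hSD hD.nondegenerate hpair
    intro x c
    exact hall _ (Finset.univ.filter (fun i => cmp D hInt i x ≠ 0)) rfl x
      (fun i => by rw [Finset.mem_filter]; simp) c

end Cfsg.Agent.S5647
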