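import Mathlib
import Cfsg.Statements.S5649
import Cfsg.Agent.S5647
import Cfsg.Agent.S0749

set_option autoImplicit false
open Cfsg

namespace Cfsg.Agent.S5649

open Matrix Cfsg.Agent.S5645

section core

variable {F : Type*} [Field F] (m : ℕ)

theorem form_neg_left (x y : Fin m ⊕ Fin m → F) :
    sympForm m F (-x) y = - sympForm m F x y := by
  rw [Cfsg.Agent.S0766.form_swap m (-x) y, form_neg_right, Cfsg.Agent.S0766.form_swap m x y]

theorem form_swap_zero (x y : Fin m ⊕ Fin m → F) (h : sympForm m F x y = 0) :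
    sympForm m F y x = 0 := by
  rw [Cfsg.Agent.S0766.form_swap, h, neg_zero]

/-- The Siegel element attached to a pair of orthogonal vectors. -/
noncomputable def E (u v : Fin m ⊕ Fin m → F) : Matrix.GeneralLinearGroup (Fin m ⊕ Fin m) F :=
  tv m (u + v) 1 * tv m u (-1) * tv m v (-1)

theorem E_mulVec (u v x : Fin m ⊕ Fin m → F) (huv : sympForm m F u v = 0) :
    ((E m u v : Matrix.GeneralLinearGroup (Fin m ⊕ Fin m) F) :
      Matrix (Fin m ⊕ Fin m) (Fin m ⊕ Fin m) F) *ᵥ x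
      = x + sympForm m F x u • v + sympForm m F x v • u :=
  siegel_mulVec m u v x huv

theorem E_mem (u v : Fin m ⊕ Fin m → F) : E m u v ∈ spGL m F := siegel_mem m u v

theorem conj_E (h : Matrix.GeneralLinearGroup (Fin m ⊕ Fin m) F) (hh : h ∈ spGL m F)
    (u v : Fin m ⊕ Fin m → F) :
    h * E m u v * h⁻¹ = E m ((h : Matrix (Fin m ⊕ Fin m) (Fin m ⊕ Fin m) F) *ᵥ u)
      ((h : Matrix (Fin m ⊕ Fin m) (Fin m ⊕ Fin m) F) *ᵥ v) := by
  unfold E
  rw [← Matrix.mulVec_add, ← conj_tv m h hh (u + v), ← conj_tv m h hh u, ← conj_tv m h hh v]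
  group

theorem E_comm (u v : Fin m ⊕ Fin m → F) (huv : sympForm m F u v = 0) : E m u v = E m v u := by
  apply gl_ext_of_mulVec
  intro z
  rw [E_mulVec m u v z huv, E_mulVec m v u z (form_swap_zero m u v huv)]
  module

theorem E_swap_smul (x y : Fin m ⊕ Fin m → F) (s : F) (hxy : sympForm m F x y = 0) :
    E m y (s • x) = E m x (s • y) := by
  apply gl_ext_of_mulVec
  intro z
  rw [E_mulVec m y (s • x) z (by rw [form_smul_right, form_swap_zero m x y hxy, mul_zero]),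
    E_mulVec m x (s • y) z (by rw [form_smul_right, hxy, mul_zero])]
  simp only [form_smul_right]
  module

theorem E_self (a : Fin m ⊕ Fin m → F) (c : F) : E m a (c • a) = tv m a (2 * c) := by
  apply gl_ext_of_mulVec
  intro z
  rw [E_mulVec m a (c • a) z (by rw [form_smul_right, Cfsg.Agent.S0766.form_self, mul_zero]),
    tv_mulVec]
  simp only [form_smul_right]
  module

theorem E_comm_tv (x y y' : Fin m ⊕ Fin m → F) (hy : sympForm m F x y = 0)
    (hy' : sympForm m F x y' = 0) :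
    E m x y * E m x y' = E m x y' * E m x y * tv m x (2 * sympForm m F y' y) := by
  have hE : ∀ z, ((E m x y : Matrix.GeneralLinearGroup (Fin m ⊕ Fin m) F) :
      Matrix (Fin m ⊕ Fin m) (Fin m ⊕ Fin m) F) *ᵥ z
      = z + sympForm m F z x • y + sympForm m F z y • x := fun z => E_mulVec m x y z hy
  have hE' : ∀ z, ((E m x y' : Matrix.GeneralLinearGroup (Fin m ⊕ Fin m) F) :
      Matrix (Fin m ⊕ Fin m) (Fin m ⊕ Fin m) F) *ᵥ z
      = z + sympForm m F z x • y' + sympForm m F z y' • x := fun z => E_mulVec m x y' z hy'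
  have hyx := form_swap_zero m x y hy
  have hy'x := form_swap_zero m x y' hy'
  have hsw : sympForm m F y y' = - sympForm m F y' y := Cfsg.Agent.S0766.form_swap m y y'
  apply gl_ext_of_mulVec
  intro z
  rw [Units.val_mul, Units.val_mul, Units.val_mul, ← Matrix.mulVec_mulVec,
    ← Matrix.mulVec_mulVec, ← Matrix.mulVec_mulVec, tv_mulVec, hE', hE, hE, hE']
  simp only [Cfsg.Agent.S0766.form_add_left, form_smul_left, Cfsg.Agent.S0766.form_self,
    hy, hy', hyx, hy'x, hsw]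
  module

/-- The pair relation: the Siegel elements of `x` and all multiples of `y` lie in `M`. -/
def TT (M : Subgroup (Matrix.GeneralLinearGroup (Fin m ⊕ Fin m) F))
    (x y : Fin m ⊕ Fin m → F) : Prop :=
  sympForm m F x y = 0 ∧ ∀ s : F, E m x (s • y) ∈ M

theorem TT_symm (M : Subgroup (Matrix.GeneralLinearGroup (Fin m ⊕ Fin m) F))
    (x y : Fin m ⊕ Fin m → F) (h : TT m M x y) : TT m M y x := by
  refine ⟨form_swap_zero m x y h.1, fun s => ?_⟩
  rw [E_swap_smul m x y s h.1]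
  exact h.2 s

theorem TT_smul (M : Subgroup (Matrix.GeneralLinearGroup (Fin m ⊕ Fin m) F))
    (x y : Fin m ⊕ Fin m → F) (r : F) (h : TT m M x y) : TT m M x (r • y) := by
  refine ⟨by rw [form_smul_right, h.1, mul_zero], fun s => ?_⟩
  rw [smul_smul]
  exact h.2 _

theorem TT_neg (M : Subgroup (Matrix.GeneralLinearGroup (Fin m ⊕ Fin m) F))
    (x y : Fin m ⊕ Fin m → F) (h : TT m M x y) : TT m M x (-y) := by
  have := TT_smul m M x y (-1) h
  rwa [neg_one_smul] at this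

theorem TT_conj (M : Subgroup (Matrix.GeneralLinearGroup (Fin m ⊕ Fin m) F))
    (hM : M ≤ spGL m F) (g : Matrix.GeneralLinearGroup (Fin m ⊕ Fin m) F) (hg : g ∈ M)
    (x y : Fin m ⊕ Fin m → F) (h : TT m M x y) :
    TT m M ((g : Matrix (Fin m ⊕ Fin m) (Fin m ⊕ Fin m) F) *ᵥ x)
      ((g : Matrix (Fin m ⊕ Fin m) (Fin m ⊕ Fin m) F) *ᵥ y) := by
  refine ⟨by rw [(mem_spGL_iff m g).mp (hM hg) x y]; exact h.1, fun s => ?_⟩
  rw [← Matrix.mulVec_smul, ← conj_E m g (hM hg)]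
  exact M.mul_mem (M.mul_mem hg (h.2 s)) (M.inv_mem hg)

theorem T_add (h2 : (2 : F) ≠ 0) (M : Subgroup (Matrix.GeneralLinearGroup (Fin m ⊕ Fin m) F))
    (x y y' : Fin m ⊕ Fin m → F) (hx : x ∉ Sset m M) (h : TT m M x y) (h' : TT m M x y') :
    sympForm m F y y' = 0 ∧ TT m M x (y + y') := by
  have h0 : sympForm m F y' y = 0 := by
    by_contra hne
    apply hx
    intro c
    have key := E_comm_tv m x ((c / (2 * sympForm m F y' y)) • y) y'
      (by rw [form_smul_right, h.1, mul_zero]) h'.1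
    have hc : 2 * sympForm m F y' ((c / (2 * sympForm m F y' y)) • y) = c := by
      rw [form_smul_right]
      field_simp
    rw [hc] at key
    have e1 : E m x y' ∈ M := by
      have := h'.2 1
      rwa [one_smul] at this
    have : tv m x c = (E m x y' * E m x ((c / (2 * sympForm m F y' y)) • y))⁻¹ *
        (E m x ((c / (2 * sympForm m F y' y)) • y) * E m x y') := by
      rw [key]
      group
    rw [this]
    exact M.mul_mem (M.inv_mem (M.mul_mem e1 (h.2 _))) (M.mul_mem (h.2 _) e1)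
  have h0' : sympForm m F y y' = 0 := form_swap_zero m y' y h0
  refine ⟨h0', ?_, fun s => ?_⟩
  · rw [Cfsg.Agent.S0766.form_add_right, h.1, h'.1, add_zero]
  · have hxy : sympForm m F x (s • y) = 0 := by rw [form_smul_right, h.1, mul_zero]
    have hxy' : sympForm m F x (s • y') = 0 := by rw [form_smul_right, h'.1, mul_zero]
    have hxyy : sympForm m F x (s • (y + y')) = 0 := by
      rw [form_smul_right, Cfsg.Agent.S0766.form_add_right, h.1, h'.1, add_zero, mul_zero]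
    have : E m x (s • (y + y')) = E m x (s • y) * E m x (s • y') := by
      apply gl_ext_of_mulVec
      intro z
      rw [Units.val_mul, ← Matrix.mulVec_mulVec, E_mulVec m x (s • y') z hxy',
        E_mulVec m x (s • y) _ hxy, E_mulVec m x (s • (y + y')) z hxyy]
      simp only [Cfsg.Agent.S0766.form_add_left, Cfsg.Agent.S0766.form_add_right, form_smul_left,
        form_smul_right, Cfsg.Agent.S0766.form_self, h0, h.1, form_swap_zero m x y' h'.1]
      module
    rw [this]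
    exact M.mul_mem (h.2 s) (h'.2 s)

theorem S_line (h2 : (2 : F) ≠ 0) (M : Subgroup (Matrix.GeneralLinearGroup (Fin m ⊕ Fin m) F))
    (hM : M ≤ spGL m F) (u w : Fin m ⊕ Fin m → F) (h : ∀ s : F, u + s • w ∈ Sset m M) :
    w ∈ Sset m M := by
  have hu : u ∈ Sset m M := by simpa using h 0
  have hu1 : u + w ∈ Sset m M := by simpa using h 1
  have hu2 : u + (2 : F) • w ∈ Sset m M := h 2
  by_cases hB : sympForm m F u w = 0
  · have hB' := form_swap_zero m u w hB
    have key : ∀ d : F, tv m w (2 * d) ∈ M := by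
      intro d
      have e : tv m (u + (2 : F) • w) d = tv m u (-d) * tv m (u + w) (2 * d) * tv m w (2 * d) := by
        apply gl_ext_of_mulVec
        intro z
        rw [Units.val_mul, Units.val_mul, ← Matrix.mulVec_mulVec, ← Matrix.mulVec_mulVec,
          tv_mulVec, tv_mulVec, tv_mulVec, tv_mulVec]
        simp only [Cfsg.Agent.S0766.form_add_left, Cfsg.Agent.S0766.form_add_right,
          form_smul_left, form_smul_right, Cfsg.Agent.S0766.form_self, hB']
        module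
      have : tv m w (2 * d) = (tv m u (-d) * tv m (u + w) (2 * d))⁻¹ * tv m (u + (2 : F) • w) d := by
        rw [e]
        group
      rw [this]
      exact M.mul_mem (M.inv_mem (M.mul_mem (hu _) (hu1 _))) (hu2 _)
    intro c
    have := key (c / 2)
    have e : 2 * (c / 2) = c := by field_simp
    rwa [e] at this
  · have hne : sympForm m F (u + w) u ≠ 0 := by
      rw [Cfsg.Agent.S0766.form_add_left, Cfsg.Agent.S0766.form_self, zero_add,
        Cfsg.Agent.S0766.form_swap]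
      exact neg_ne_zero.mpr hB
    have := Sset_tv m M hM u (u + w) hu hu1 (-(sympForm m F (u + w) u)⁻¹)
    rw [neg_mul, inv_mul_cancel₀ hne] at this
    have e : u + w + (-1 : F) • u = w := by module
    rwa [e] at this

end core

section pq

variable {F : Type*} [Field F] (m : ℕ) (P Q : Submodule F (Fin m ⊕ Fin m → F))
  (hP : Geo.IsTotallySingularFor (sympForm m F) P)
  (hQ : Geo.IsTotallySingularFor (sympForm m F) Q)
  (hsum : ∀ x, ∃ p ∈ P, ∃ q ∈ Q, x = p + q)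

include hsum in
theorem sum_symm : ∀ x, ∃ q ∈ Q, ∃ p ∈ P, x = q + p := by
  intro x
  obtain ⟨p, hp, q, hq, rfl⟩ := hsum x
  exact ⟨q, hq, p, hp, add_comm p q⟩

include hP hQ hsum in
theorem disj (x : Fin m ⊕ Fin m → F) (hxP : x ∈ P) (hxQ : x ∈ Q) : x = 0 := by
  by_contra hx0
  obtain ⟨y, hy⟩ := Cfsg.Agent.S0766.form_nondeg m x hx0
  obtain ⟨p, hp, q, hq, rfl⟩ := hsum y
  apply hy
  rw [Cfsg.Agent.S0766.form_add_right, hP x hxP p hp, hQ x hxQ q hq, add_zero]

include hP hQ hsum in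
theorem dual (U : Submodule F (Fin m ⊕ Fin m → F)) (hU : U ≤ P) (a : Fin m ⊕ Fin m → F)
    (ha : a ∈ P) (haU : a ∉ U) :
    ∃ b ∈ Q, (∀ u ∈ U, sympForm m F u b = 0) ∧ sympForm m F a b ≠ 0 := by
  by_contra hcon
  push Not at hcon
  have hrefl : (Cfsg.Agent.S0768.BJ (F := F) m).IsRefl := (Cfsg.Agent.S0768.BJ_alt m).isRefl
  have hoo := LinearMap.BilinForm.orthogonal_orthogonal (Cfsg.Agent.S0768.BJ_nondeg (F := F) m)
    hrefl (U ⊔ Q)
  have hmem : a ∈ (Cfsg.Agent.S0768.BJ (F := F) m).orthogonal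
      ((Cfsg.Agent.S0768.BJ (F := F) m).orthogonal (U ⊔ Q)) := by
    rw [LinearMap.BilinForm.mem_orthogonal_iff]
    intro n hn
    rw [LinearMap.BilinForm.mem_orthogonal_iff] at hn
    obtain ⟨p, hp, q, hq, rfl⟩ := hsum n
    have hp0 : p = 0 := by
      by_contra hp0
      obtain ⟨y, hy⟩ := Cfsg.Agent.S0766.form_nondeg m p hp0
      obtain ⟨p', hp', q', hq', rfl⟩ := hsum y
      apply hy
      rw [Cfsg.Agent.S0766.form_add_right, hP p hp p' hp', zero_add]
      have h1 := hn q' (Submodule.mem_sup_right hq')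
      change Cfsg.Agent.S0768.BJ m q' (p + q) = 0 at h1
      rw [Cfsg.Agent.S0768.BJ_apply, Cfsg.Agent.S0766.form_add_right, hQ q' hq' q hq,
        add_zero] at h1
      exact form_swap_zero m q' p h1
    subst hp0
    rw [zero_add] at hn ⊢
    change Cfsg.Agent.S0768.BJ m q a = 0
    rw [Cfsg.Agent.S0768.BJ_apply]
    apply form_swap_zero
    apply hcon q hq
    intro u hu
    have h1 := hn u (Submodule.mem_sup_left hu)
    change Cfsg.Agent.S0768.BJ m u q = 0 at h1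
    rwa [Cfsg.Agent.S0768.BJ_apply] at h1
  rw [hoo] at hmem
  obtain ⟨u, hu, q, hq, rfl⟩ := Submodule.mem_sup.mp hmem
  have hqP : q ∈ P := by
    have := P.sub_mem ha (hU hu)
    rwa [add_sub_cancel_left] at this
  have hq0 : q = 0 := disj m P Q hP hQ hsum q hqP hq
  apply haU
  rw [hq0, add_zero]
  exact hu

include hP hQ hsum in
theorem dual0 (a : Fin m ⊕ Fin m → F) (ha : a ∈ P) (ha0 : a ≠ 0) :
    ∃ b ∈ Q, sympForm m F a b ≠ 0 := by
  obtain ⟨b, hb, -, hab⟩ := dual m P Q hP hQ hsum ⊥ bot_le a ha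
    (fun h => ha0 ((Submodule.mem_bot F).mp h))
  exact ⟨b, hb, hab⟩

include hP hQ hsum in
theorem dual1 (u a : Fin m ⊕ Fin m → F) (hu : u ∈ P) (ha : a ∈ P) (h : ∀ r : F, a ≠ r • u) :
    ∃ b ∈ Q, sympForm m F u b = 0 ∧ sympForm m F a b ≠ 0 := by
  obtain ⟨b, hb, hub, hab⟩ := dual m P Q hP hQ hsum (Submodule.span F {u})
    ((Submodule.span_singleton_le_iff_mem u P).mpr hu) a ha
    (fun hmem => by
      obtain ⟨r, hr⟩ := Submodule.mem_span_singleton.mp hmem
      exact h r hr.symm)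
  exact ⟨b, hb, hub u (Submodule.mem_span_singleton_self u), hab⟩

theorem exists_avoid (W U : Submodule F (Fin m ⊕ Fin m → F)) (k : ℕ)
    (p : Fin k → (Fin m ⊕ Fin m → F))
    (h : Module.finrank F U + k < Module.finrank F W) :
    ∃ w ∈ W, (∀ i, sympForm m F w (p i) = 0) ∧ w ∉ U := by
  by_contra hcon
  push Not at hcon
  let f : W →ₗ[F] (Fin k → F) :=
    LinearMap.pi (fun i => ((Cfsg.Agent.S0768.BJ (F := F) m).flip (p i)).comp W.subtype)
  have hf : ∀ (w : W) (i : Fin k), f w i = sympForm m F (w : Fin m ⊕ Fin m → F) (p i) := by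
    intro w i
    change (Cfsg.Agent.S0768.BJ (F := F) m).flip (p i) (w : Fin m ⊕ Fin m → F) = _
    rw [LinearMap.BilinForm.flip_apply, Cfsg.Agent.S0768.BJ_apply]
  have hle : (LinearMap.ker f).map W.subtype ≤ U := by
    rintro _ ⟨w, hw, rfl⟩
    refine hcon w w.2 (fun i => ?_)
    rw [← hf, LinearMap.mem_ker.mp hw]
    rfl
  have h1 := Submodule.finrank_mono hle
  have h2 : Module.finrank F ((LinearMap.ker f).map W.subtype)
      = Module.finrank F (LinearMap.ker f) :=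
    Submodule.finrank_map_subtype_eq W (LinearMap.ker f)
  have h3 := LinearMap.finrank_range_add_finrank_ker f
  have h4 : Module.finrank F (LinearMap.range f) ≤ k := by
    have := Submodule.finrank_le (LinearMap.range f)
    rwa [Module.finrank_fin_fun] at this
  omega

theorem finrank_pair_le (x y : Fin m ⊕ Fin m → F) :
    Module.finrank F (Submodule.span F ({x, y} : Set (Fin m ⊕ Fin m → F))) ≤ 2 := by
  classical
  have h := finrank_span_finset_le_card (R := F) ({x, y} : Finset (Fin m ⊕ Fin m → F))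
  rw [Finset.coe_pair] at h
  exact h.trans Finset.card_le_two

include hP hQ hsum in
theorem lemK (h2 : (2 : F) ≠ 0) (hfin : 3 < Module.finrank F P)
    (M : Subgroup (Matrix.GeneralLinearGroup (Fin m ⊕ Fin m) F)) (hM : M ≤ spGL m F)
    (hH : ∀ p ∈ P, ∀ q ∈ Q, sympForm m F p q = 0 → E m p q ∈ M)
    (x y : Fin m ⊕ Fin m → F) (hT : TT m M x y) (x₁ y₁ x₂ y₂ : Fin m ⊕ Fin m → F)
    (hx₁ : x₁ ∈ P) (hy₁ : y₁ ∈ P) (hx₂ : x₂ ∈ Q) (hy₂ : y₂ ∈ Q)
    (hx : x = x₁ + x₂) (hy : y = y₁ + y₂) (k1 : ∀ r : F, y₁ ≠ r • x₁)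
    (k2 : ∀ r : F, y₂ ≠ r • x₂) : x ∈ Sset m M := by
  by_contra hxS
  have hsum' := sum_symm m P Q hsum
  obtain ⟨a₁, ha₁, ha₁x, ha₁y⟩ := dual1 m Q P hQ hP hsum' x₂ y₂ hx₂ hy₂ k2
  obtain ⟨a₂, ha₂, ha₂x, ha₂U⟩ := exists_avoid m P (Submodule.span F {x₁, y₁}) 1 (fun _ => x₂)
    (by have := finrank_pair_le m x₁ y₁; omega)
  have ha₂x' : sympForm m F x₂ a₂ = 0 := form_swap_zero m a₂ x₂ (ha₂x 0)
  obtain ⟨a, ha, hax, hay, haU⟩ : ∃ a ∈ P, sympForm m F x₂ a = 0 ∧ sympForm m F y₂ a ≠ 0 ∧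
      a ∉ Submodule.span F {x₁, y₁} := by
    by_cases c1 : a₁ ∈ Submodule.span F {x₁, y₁}
    · by_cases c2 : sympForm m F y₂ a₂ = 0
      · refine ⟨a₁ + a₂, P.add_mem ha₁ ha₂, ?_, ?_, ?_⟩
        · rw [Cfsg.Agent.S0766.form_add_right, ha₁x, ha₂x', add_zero]
        · rw [Cfsg.Agent.S0766.form_add_right, c2, add_zero]
          exact ha₁y
        · intro hmem
          apply ha₂U
          have := Submodule.sub_mem _ hmem c1
          rwa [add_sub_cancel_left] at this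
      · exact ⟨a₂, ha₂, ha₂x', c2, ha₂U⟩
    · exact ⟨a₁, ha₁, ha₁x, ha₁y, c1⟩
  have hy₁U : y₁ ∉ Submodule.span F {x₁, a} := by
    intro hmem
    obtain ⟨c, d, hcd⟩ := Submodule.mem_span_pair.mp hmem
    by_cases hd : d = 0
    · apply k1 c
      rw [← hcd, hd, zero_smul, add_zero]
    · apply haU
      have : a = d⁻¹ • y₁ - (d⁻¹ * c) • x₁ := by
        rw [← hcd, smul_add, smul_smul, smul_smul, inv_mul_cancel₀ hd, one_smul]
        abel
      rw [this]
      exact Submodule.sub_mem _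
        (Submodule.smul_mem _ _ (Submodule.subset_span (by simp)))
        (Submodule.smul_mem _ _ (Submodule.subset_span (by simp)))
  obtain ⟨b, hb, hbU, hby⟩ := dual m P Q hP hQ hsum (Submodule.span F {x₁, a})
    (Submodule.span_le.mpr (by
      intro z hz
      rcases hz with rfl | rfl
      · exact hx₁
      · exact ha)) y₁ hy₁ hy₁U
  have hbx : sympForm m F x₁ b = 0 := hbU x₁ (Submodule.subset_span (by simp))
  have hba : sympForm m F a b = 0 := hbU a (Submodule.subset_span (by simp))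
  have hEM : E m a b ∈ M := hH a ha b hb hba
  have hxa : sympForm m F x a = 0 := by
    rw [hx, Cfsg.Agent.S0766.form_add_left, hP x₁ hx₁ a ha, hax, add_zero]
  have hxb : sympForm m F x b = 0 := by
    rw [hx, Cfsg.Agent.S0766.form_add_left, hbx, hQ x₂ hx₂ b hb, add_zero]
  have hfix : ((E m a b : Matrix.GeneralLinearGroup (Fin m ⊕ Fin m) F) :
      Matrix (Fin m ⊕ Fin m) (Fin m ⊕ Fin m) F) *ᵥ x = x := by
    rw [E_mulVec m a b x hba, hxa, hxb, zero_smul, zero_smul, add_zero, add_zero]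
  have hT' := TT_conj m M hM (E m a b) hEM x y hT
  rw [hfix] at hT'
  have h3 := (T_add m h2 M x y _ hxS hT hT').1
  rw [E_mulVec m a b y hba] at h3
  have hya : sympForm m F y a = sympForm m F y₂ a := by
    rw [hy, Cfsg.Agent.S0766.form_add_left, hP y₁ hy₁ a ha, zero_add]
  have hyb : sympForm m F y b = sympForm m F y₁ b := by
    rw [hy, Cfsg.Agent.S0766.form_add_left, hQ y₂ hy₂ b hb, add_zero]
  rw [Cfsg.Agent.S0766.form_add_right, Cfsg.Agent.S0766.form_add_right,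
    Cfsg.Agent.S0766.form_self, form_smul_right, form_smul_right, hya, hyb, zero_add] at h3
  have h4 : 2 * (sympForm m F y₂ a * sympForm m F y₁ b) = 0 := by linear_combination h3
  rcases mul_eq_zero.mp h4 with h | h
  · exact h2 h
  · rcases mul_eq_zero.mp h with h | h
    · exact hay h
    · exact hby h

include hP hQ hsum in
theorem T_pure (h2 : (2 : F) ≠ 0)
    (M : Subgroup (Matrix.GeneralLinearGroup (Fin m ⊕ Fin m) F))
    (hH : ∀ p ∈ P, ∀ q ∈ Q, sympForm m F p q = 0 → E m p q ∈ M)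
    (a : Fin m ⊕ Fin m → F) (ha : a ∈ P) (haS : a ∉ Sset m M) (y : Fin m ⊕ Fin m → F)
    (hT : TT m M a y) : y ∈ Q := by
  obtain ⟨p, hp, q, hq, rfl⟩ := hsum y
  have hTb : ∀ b ∈ Q, sympForm m F a b = 0 → TT m M a b := fun b hb hab =>
    ⟨hab, fun s => hH a ha (s • b) (Q.smul_mem s hb) (by rw [form_smul_right, hab, mul_zero])⟩
  have hpb : ∀ b ∈ Q, sympForm m F a b = 0 → sympForm m F p b = 0 := by
    intro b hb hab
    have := (T_add m h2 M a (p + q) b haS hT (hTb b hb hab)).1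
    rwa [Cfsg.Agent.S0766.form_add_left, hQ q hq b hb, add_zero] at this
  have hpa : ∃ r : F, p = r • a := by
    by_contra hne
    push Not at hne
    obtain ⟨b, hb, hab, hpb'⟩ := dual1 m P Q hP hQ hsum a p ha hp hne
    exact hpb' (hpb b hb hab)
  obtain ⟨r, rfl⟩ := hpa
  have haq : sympForm m F a q = 0 := by
    have := hT.1
    rwa [Cfsg.Agent.S0766.form_add_right, form_smul_right, Cfsg.Agent.S0766.form_self, mul_zero,
      zero_add] at this
  have hTq := TT_neg m M a q (hTb q hq haq)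
  have hTp := (T_add m h2 M a (r • a + q) (-q) haS hT hTq).2
  rw [add_neg_cancel_right] at hTp
  by_cases hr : r = 0
  · rw [hr, zero_smul, zero_add]
    exact hq
  · exfalso
    apply haS
    intro c
    have := hTp.2 (c / (2 * r))
    rw [smul_smul, E_self] at this
    have e : 2 * (c / (2 * r) * r) = c := by field_simp
    rwa [e] at this

include hP hQ hsum in
theorem pure_image (h2 : (2 : F) ≠ 0) (hfinP : 3 < Module.finrank F P)
    (hfinQ : 3 < Module.finrank F Q)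
    (M : Subgroup (Matrix.GeneralLinearGroup (Fin m ⊕ Fin m) F)) (hM : M ≤ spGL m F)
    (hH : ∀ p ∈ P, ∀ q ∈ Q, sympForm m F p q = 0 → E m p q ∈ M)
    (hS : ∀ x, x ∈ Sset m M → x = 0)
    (g : Matrix.GeneralLinearGroup (Fin m ⊕ Fin m) F) (hg : g ∈ M)
    (a : Fin m ⊕ Fin m → F) (ha : a ∈ P) :
    (g : Matrix (Fin m ⊕ Fin m) (Fin m ⊕ Fin m) F) *ᵥ a ∈ P ∨
      (g : Matrix (Fin m ⊕ Fin m) (Fin m ⊕ Fin m) F) *ᵥ a ∈ Q := by
  by_cases ha0 : a = 0
  · left
    rw [ha0, Matrix.mulVec_zero]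
    exact P.zero_mem
  obtain ⟨x₁, hx₁, x₂, hx₂, hx⟩ := hsum ((g : Matrix (Fin m ⊕ Fin m) (Fin m ⊕ Fin m) F) *ᵥ a)
  by_cases hx₁0 : x₁ = 0
  · right
    rw [hx, hx₁0, zero_add]
    exact hx₂
  by_cases hx₂0 : x₂ = 0
  · left
    rw [hx, hx₂0, add_zero]
    exact hx₁
  exfalso
  have hsum' := sum_symm m P Q hsum
  have hH' : ∀ q ∈ Q, ∀ p ∈ P, sympForm m F q p = 0 → E m q p ∈ M := fun q hq p hp h => by
    rw [E_comm m q p h]
    exact hH p hp q hq (form_swap_zero m q p h)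
  obtain ⟨bs, hbs, hbs1⟩ := dual0 m P Q hP hQ hsum x₁ hx₁ hx₁0
  obtain ⟨as, has, has1⟩ := dual0 m Q P hQ hP hsum' x₂ hx₂ hx₂0
  obtain ⟨b, hb, hbp, hb0⟩ := exists_avoid m Q ⊥ 3
    ![a, ((g⁻¹ : Matrix.GeneralLinearGroup (Fin m ⊕ Fin m) F) :
        Matrix (Fin m ⊕ Fin m) (Fin m ⊕ Fin m) F) *ᵥ bs,
      ((g⁻¹ : Matrix.GeneralLinearGroup (Fin m ⊕ Fin m) F) :
        Matrix (Fin m ⊕ Fin m) (Fin m ⊕ Fin m) F) *ᵥ as]
    (by rw [finrank_bot]; omega)
  have hb0' : b ≠ 0 := fun h => hb0 (by rw [h]; exact Submodule.zero_mem _)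
  have hba : sympForm m F b a = 0 := hbp 0
  have hb1 : sympForm m F b (((g⁻¹ : Matrix.GeneralLinearGroup (Fin m ⊕ Fin m) F) :
        Matrix (Fin m ⊕ Fin m) (Fin m ⊕ Fin m) F) *ᵥ bs) = 0 := hbp 1
  have hb2 : sympForm m F b (((g⁻¹ : Matrix.GeneralLinearGroup (Fin m ⊕ Fin m) F) :
        Matrix (Fin m ⊕ Fin m) (Fin m ⊕ Fin m) F) *ᵥ as) = 0 := hbp 2
  have hab : sympForm m F a b = 0 := form_swap_zero m b a hba
  obtain ⟨y₁, hy₁, y₂, hy₂, hy⟩ := hsum ((g : Matrix (Fin m ⊕ Fin m) (Fin m ⊕ Fin m) F) *ᵥ b)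
  have hTab : TT m M a b :=
    ⟨hab, fun s => hH a ha (s • b) (Q.smul_mem s hb) (by rw [form_smul_right, hab, mul_zero])⟩
  have hTxy := TT_conj m M hM g hg a b hTab
  have hinj := Cfsg.Agent.S5646.gl_inj m g
  have hga0 : (g : Matrix (Fin m ⊕ Fin m) (Fin m ⊕ Fin m) F) *ᵥ a ≠ 0 := by
    intro h
    apply ha0
    apply hinj
    change (g : Matrix (Fin m ⊕ Fin m) (Fin m ⊕ Fin m) F) *ᵥ a
      = (g : Matrix (Fin m ⊕ Fin m) (Fin m ⊕ Fin m) F) *ᵥ 0
    rw [h, Matrix.mulVec_zero]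
  have hgb0 : (g : Matrix (Fin m ⊕ Fin m) (Fin m ⊕ Fin m) F) *ᵥ b ≠ 0 := by
    intro h
    apply hb0'
    apply hinj
    change (g : Matrix (Fin m ⊕ Fin m) (Fin m ⊕ Fin m) F) *ᵥ b
      = (g : Matrix (Fin m ⊕ Fin m) (Fin m ⊕ Fin m) F) *ᵥ 0
    rw [h, Matrix.mulVec_zero]
  have hxS : (g : Matrix (Fin m ⊕ Fin m) (Fin m ⊕ Fin m) F) *ᵥ a ∉ Sset m M :=
    fun h => hga0 (hS _ h)
  have hyS : (g : Matrix (Fin m ⊕ Fin m) (Fin m ⊕ Fin m) F) *ᵥ b ∉ Sset m M :=
    fun h => hgb0 (hS _ h)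
  have hgsp := (mem_spGL_iff m g).mp (hM hg)
  have e1 : sympForm m F ((g : Matrix (Fin m ⊕ Fin m) (Fin m ⊕ Fin m) F) *ᵥ b) bs = 0 := by
    calc sympForm m F ((g : Matrix (Fin m ⊕ Fin m) (Fin m ⊕ Fin m) F) *ᵥ b) bs
        = sympForm m F ((g : Matrix (Fin m ⊕ Fin m) (Fin m ⊕ Fin m) F) *ᵥ b)
            ((g : Matrix (Fin m ⊕ Fin m) (Fin m ⊕ Fin m) F) *ᵥ
              (((g⁻¹ : Matrix.GeneralLinearGroup (Fin m ⊕ Fin m) F) :
                Matrix (Fin m ⊕ Fin m) (Fin m ⊕ Fin m) F) *ᵥ bs)) := by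
          rw [Cfsg.Agent.S5646.gl_inv_mulVec]
      _ = 0 := by rw [hgsp, hb1]
  have e2 : sympForm m F ((g : Matrix (Fin m ⊕ Fin m) (Fin m ⊕ Fin m) F) *ᵥ b) as = 0 := by
    calc sympForm m F ((g : Matrix (Fin m ⊕ Fin m) (Fin m ⊕ Fin m) F) *ᵥ b) as
        = sympForm m F ((g : Matrix (Fin m ⊕ Fin m) (Fin m ⊕ Fin m) F) *ᵥ b)
            ((g : Matrix (Fin m ⊕ Fin m) (Fin m ⊕ Fin m) F) *ᵥ
              (((g⁻¹ : Matrix.GeneralLinearGroup (Fin m ⊕ Fin m) F) :
                Matrix (Fin m ⊕ Fin m) (Fin m ⊕ Fin m) F) *ᵥ as)) := by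
          rw [Cfsg.Agent.S5646.gl_inv_mulVec]
      _ = 0 := by rw [hgsp, hb2]
  have hK : ¬ ((∀ r : F, y₁ ≠ r • x₁) ∧ (∀ r : F, y₂ ≠ r • x₂)) := fun hk =>
    hxS (lemK m P Q hP hQ hsum h2 hfinP M hM hH _ _ hTxy x₁ y₁ x₂ y₂ hx₁ hy₁ hx₂ hy₂ hx hy
      hk.1 hk.2)
  have hTyx := TT_symm m M _ _ hTxy
  rw [not_and_or] at hK
  rcases hK with hK | hK
  · push Not at hK
    obtain ⟨r, hr⟩ := hK
    have hr0 : r = 0 := by
      rw [hy, hr, Cfsg.Agent.S0766.form_add_left, form_smul_left, hQ y₂ hy₂ bs hbs,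
        add_zero] at e1
      exact (mul_eq_zero.mp e1).resolve_right hbs1
    have hyQ : (g : Matrix (Fin m ⊕ Fin m) (Fin m ⊕ Fin m) F) *ᵥ b ∈ Q := by
      rw [hy, hr, hr0, zero_smul, zero_add]
      exact hy₂
    have hxP := T_pure m Q P hQ hP hsum' h2 M hH' _ hyQ hyS _ hTyx
    apply hx₂0
    have hx₂P : x₂ ∈ P := by
      have := P.sub_mem hxP hx₁
      rwa [hx, add_sub_cancel_left] at this
    exact disj m P Q hP hQ hsum x₂ hx₂P hx₂
  · push Not at hK
    obtain ⟨r, hr⟩ := hK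
    have hr0 : r = 0 := by
      rw [hy, hr, Cfsg.Agent.S0766.form_add_left, form_smul_left, hP y₁ hy₁ as has,
        zero_add] at e2
      exact (mul_eq_zero.mp e2).resolve_right has1
    have hyP : (g : Matrix (Fin m ⊕ Fin m) (Fin m ⊕ Fin m) F) *ᵥ b ∈ P := by
      rw [hy, hr, hr0, zero_smul, add_zero]
      exact hy₁
    have hxQ := T_pure m P Q hP hQ hsum h2 M hH _ hyP hyS _ hTyx
    apply hx₁0
    have hx₁Q : x₁ ∈ Q := by
      have := Q.sub_mem hxQ hx₂
      rwa [hx, add_sub_cancel_right] at this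
    exact disj m P Q hP hQ hsum x₁ hx₁ hx₁Q

include hP hQ hsum in
theorem S_comp (h2 : (2 : F) ≠ 0) (hfinQ : 2 < Module.finrank F Q)
    (M : Subgroup (Matrix.GeneralLinearGroup (Fin m ⊕ Fin m) F)) (hM : M ≤ spGL m F)
    (hH : ∀ p ∈ P, ∀ q ∈ Q, sympForm m F p q = 0 → E m p q ∈ M)
    (a b : Fin m ⊕ Fin m → F) (ha : a ∈ P) (hb : b ∈ Q) (hb0 : b ≠ 0)
    (hu : a + b ∈ Sset m M) : ∃ b₁ ∈ Q, b₁ ≠ 0 ∧ b₁ ∈ Sset m M := by
  have hsum' := sum_symm m P Q hsum
  obtain ⟨a₁, ha₁, hba₁⟩ := dual0 m Q P hQ hP hsum' b hb hb0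
  obtain ⟨b₁, hb₁, hb₁p, hb₁0⟩ := exists_avoid m Q ⊥ 2 ![a, a₁]
    (by rw [finrank_bot]; omega)
  have h1 : sympForm m F b₁ a = 0 := hb₁p 0
  have h1' : sympForm m F a b₁ = 0 := form_swap_zero m b₁ a h1
  have h3 : sympForm m F b₁ a₁ = 0 := hb₁p 1
  have h3' : sympForm m F a₁ b₁ = 0 := form_swap_zero m b₁ a₁ h3
  refine ⟨b₁, hb₁, fun h => hb₁0 (by rw [h]; exact Submodule.zero_mem _), ?_⟩
  have hline : ∀ s : F, (a + b) + s • (sympForm m F b a₁ • b₁) ∈ Sset m M := by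
    intro s
    have h4 : sympForm m F a₁ (s • b₁) = 0 := by rw [form_smul_right, h3', mul_zero]
    have hE : E m a₁ (s • b₁) ∈ M := hH a₁ ha₁ (s • b₁) (Q.smul_mem s hb₁) h4
    have := Sset_gl m M hM _ hE (a + b) hu
    rw [E_mulVec m a₁ (s • b₁) (a + b) h4] at this
    convert this using 1
    rw [Cfsg.Agent.S0766.form_add_left, Cfsg.Agent.S0766.form_add_left, hP a ha a₁ ha₁,
      form_smul_right, form_smul_right, h1', hQ b hb b₁ hb₁]
    module
  have h5 := S_line m h2 M hM _ _ hline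
  have h6 := Sset_smul m M _ h5 (sympForm m F b a₁)⁻¹
  rwa [smul_smul, inv_mul_cancel₀ hba₁, one_smul] at h6

include hP hQ hsum in
theorem S_all (h2 : (2 : F) ≠ 0)
    (M : Subgroup (Matrix.GeneralLinearGroup (Fin m ⊕ Fin m) F)) (hM : M ≤ spGL m F)
    (hH : ∀ p ∈ P, ∀ q ∈ Q, sympForm m F p q = 0 → E m p q ∈ M)
    (u : Fin m ⊕ Fin m → F) (hu : u ∈ P) (hu0 : u ≠ 0) (huS : u ∈ Sset m M) :
    ∀ a₁ ∈ P, a₁ ∈ Sset m M := by
  intro a₁ ha₁
  by_cases h : ∃ r : F, a₁ = r • u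
  · obtain ⟨r, rfl⟩ := h
    exact Sset_smul m M u huS r
  · push Not at h
    have h' : ∀ r : F, u ≠ r • a₁ := by
      intro r hr
      have hr0 : r ≠ 0 := by
        rintro rfl
        rw [zero_smul] at hr
        exact hu0 hr
      apply h r⁻¹
      rw [hr, smul_smul, inv_mul_cancel₀ hr0, one_smul]
    obtain ⟨b₁, hb₁, hab, hub⟩ := dual1 m P Q hP hQ hsum a₁ u ha₁ hu h'
    have hline : ∀ s : F, u + s • (sympForm m F u b₁ • a₁) ∈ Sset m M := by
      intro s
      have h4 : sympForm m F a₁ (s • b₁) = 0 := by rw [form_smul_right, hab, mul_zero]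
      have hE : E m a₁ (s • b₁) ∈ M := hH a₁ ha₁ (s • b₁) (Q.smul_mem s hb₁) h4
      have := Sset_gl m M hM _ hE u huS
      rw [E_mulVec m a₁ (s • b₁) u h4] at this
      convert this using 1
      rw [hP u hu a₁ ha₁, zero_smul, add_zero, form_smul_right, smul_smul]
    have h5 := S_line m h2 M hM _ _ hline
    have h6 := Sset_smul m M _ h5 (sympForm m F u b₁)⁻¹
    rwa [smul_smul, inv_mul_cancel₀ hub, one_smul] at h6

include hP hQ hsum in
theorem S_top (M : Subgroup (Matrix.GeneralLinearGroup (Fin m ⊕ Fin m) F)) (hM : M ≤ spGL m F)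
    (hPS : ∀ a ∈ P, a ∈ Sset m M) (hQS : ∀ b ∈ Q, b ∈ Sset m M) :
    ∀ x, x ∈ Sset m M := by
  intro x
  obtain ⟨a, ha, b, hb, rfl⟩ := hsum x
  by_cases ha0 : a = 0
  · rw [ha0, zero_add]
    exact hQS b hb
  by_cases hab : sympForm m F a b = 0
  · obtain ⟨b', hb', hab'⟩ := dual0 m P Q hP hQ hsum a ha ha0
    have h1 : a + b' ∈ Sset m M :=
      Cfsg.Agent.S5647.add_mem_S m M hM a b' (hPS a ha) (hQS b' hb') hab'
    have h2 : b - b' ∈ Sset m M := hQS _ (Q.sub_mem hb hb')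
    have h3 : sympForm m F (a + b') (b - b') ≠ 0 := by
      rw [Cfsg.Agent.S0766.form_add_left, Cfsg.Agent.S0766.form_sub_right,
        Cfsg.Agent.S0766.form_sub_right, hab, hQ b' hb' b hb, hQ b' hb' b' hb']
      simpa using hab'
    have h4 := Cfsg.Agent.S5647.add_mem_S m M hM _ _ h1 h2 h3
    have e : a + b' + (b - b') = a + b := by abel
    rwa [e] at h4
  · exact Cfsg.Agent.S5647.add_mem_S m M hM a b (hPS a ha) (hQS b hb) hab

include hP hQ in
theorem exists_swap (hfr : Module.finrank F P = Module.finrank F Q)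
    (π₁ π₂ : (Fin m ⊕ Fin m → F) →ₗ[F] (Fin m ⊕ Fin m → F))
    (h1 : ∀ x, π₁ x ∈ P) (h2 : ∀ x, π₂ x ∈ Q) (h12 : ∀ x, π₁ x + π₂ x = x) :
    ∃ h : Matrix.GeneralLinearGroup (Fin m ⊕ Fin m) F, h ∈ spGL m F ∧
      (∀ a ∈ P, (h : Matrix (Fin m ⊕ Fin m) (Fin m ⊕ Fin m) F) *ᵥ a ∈ Q) ∧
      (∀ b ∈ Q, (h : Matrix (Fin m ⊕ Fin m) (Fin m ⊕ Fin m) F) *ᵥ b ∈ P) := by
  have hsum : ∀ x, ∃ p ∈ P, ∃ q ∈ Q, x = p + q :=
    fun x => ⟨π₁ x, h1 x, π₂ x, h2 x, (h12 x).symm⟩
  have hπP : ∀ a ∈ P, π₁ a = a ∧ π₂ a = 0 := by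
    intro a ha
    have h0 : π₂ a = 0 := by
      apply disj m P Q hP hQ hsum _ _ (h2 a)
      have := P.sub_mem ha (h1 a)
      rwa [← eq_sub_iff_add_eq'.mpr (h12 a)] at this
    refine ⟨?_, h0⟩
    have := h12 a
    rwa [h0, add_zero] at this
  have hπQ : ∀ b ∈ Q, π₁ b = 0 ∧ π₂ b = b := by
    intro b hb
    have h0 : π₁ b = 0 := by
      apply disj m P Q hP hQ hsum _ (h1 b)
      have := Q.sub_mem hb (h2 b)
      rwa [← eq_sub_iff_add_eq.mpr (h12 b)] at this
    refine ⟨h0, ?_⟩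
    have := h12 b
    rwa [h0, zero_add] at this
  let φ : P ≃ₗ[F] Q := LinearEquiv.ofFinrankEq P Q hfr
  obtain ⟨g₁, hg₁, hg₁φ⟩ := Cfsg.Agent.S0749.result (Cfsg.Agent.S0768.BJ (F := F) m)
    (Cfsg.Agent.S0768.BJ_nondeg m) (Cfsg.Agent.S0768.BJ_alt m) P Q φ
    (fun x x' => by
      rw [Cfsg.Agent.S0768.BJ_apply, Cfsg.Agent.S0768.BJ_apply, hQ _ (φ x).2 _ (φ x').2,
        hP _ x.2 _ x'.2])
  have hg₁' : ∀ u v, sympForm m F (g₁ u) (g₁ v) = sympForm m F u v := fun u v => by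
    rw [← Cfsg.Agent.S0768.BJ_apply, hg₁, Cfsg.Agent.S0768.BJ_apply]
  have hg₁P : ∀ a ∈ P, g₁ a ∈ Q := fun a ha => by
    rw [show g₁ a = (φ ⟨a, ha⟩ : Fin m ⊕ Fin m → F) from hg₁φ ⟨a, ha⟩]
    exact (φ ⟨a, ha⟩).2
  let σ : (Fin m ⊕ Fin m → F) →ₗ[F] (Fin m ⊕ Fin m → F) :=
    g₁.toLinearMap ∘ₗ π₁ + π₁ ∘ₗ g₁.toLinearMap ∘ₗ π₂
  have hσ : ∀ x, σ x = g₁ (π₁ x) + π₁ (g₁ (π₂ x)) := fun x => rfl
  have hπ₁ : ∀ z, π₁ z = z - π₂ z := fun z => by rw [eq_sub_iff_add_eq, h12]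
  have hiso : ∀ x y, sympForm m F (σ x) (σ y) = sympForm m F x y := by
    intro x y
    have e1 : sympForm m F (g₁ (π₁ x)) (π₁ (g₁ (π₂ y))) = sympForm m F (π₁ x) (π₂ y) := by
      rw [hπ₁ (g₁ (π₂ y)), Cfsg.Agent.S0766.form_sub_right, hg₁',
        hQ _ (hg₁P _ (h1 x)) _ (h2 _), sub_zero]
    have e2 : sympForm m F (π₁ (g₁ (π₂ x))) (g₁ (π₁ y)) = sympForm m F (π₂ x) (π₁ y) := by
      rw [hπ₁ (g₁ (π₂ x)), form_sub_left, hg₁', hQ _ (h2 _) _ (hg₁P _ (h1 y)), sub_zero]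
    have e3 : sympForm m F x y = sympForm m F (π₁ x) (π₂ y) + sympForm m F (π₂ x) (π₁ y) := by
      calc sympForm m F x y = sympForm m F (π₁ x + π₂ x) (π₁ y + π₂ y) := by rw [h12, h12]
        _ = sympForm m F (π₁ x) (π₂ y) + sympForm m F (π₂ x) (π₁ y) := by
          rw [Cfsg.Agent.S0766.form_add_left, Cfsg.Agent.S0766.form_add_right,
            Cfsg.Agent.S0766.form_add_right, hP _ (h1 x) _ (h1 y), hQ _ (h2 x) _ (h2 y)]
          ring
    rw [hσ, hσ, Cfsg.Agent.S0766.form_add_left, Cfsg.Agent.S0766.form_add_right,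
      Cfsg.Agent.S0766.form_add_right, hg₁', hP _ (h1 x) _ (h1 y), e1, e2,
      hP _ (h1 _) _ (h1 _), e3]
    ring
  have hinj : Function.Injective σ := by
    rw [← LinearMap.ker_eq_bot, LinearMap.ker_eq_bot']
    intro x hx
    by_contra hx0
    obtain ⟨y, hy⟩ := Cfsg.Agent.S0766.form_nondeg m x hx0
    apply hy
    rw [← hiso, hx, form_zero_left]
  let σ' : (Fin m ⊕ Fin m → F) ≃ₗ[F] (Fin m ⊕ Fin m → F) := LinearEquiv.ofInjectiveEndo σ hinj
  have hσ' : ∀ x, σ' x = σ x := fun x => rfl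
  refine ⟨Cfsg.Agent.S0768.toGL m σ', ?_, ?_, ?_⟩
  · rw [mem_spGL_iff]
    intro u v
    rw [Cfsg.Agent.S0768.toGL_mulVec, Cfsg.Agent.S0768.toGL_mulVec, hσ', hσ', hiso]
  · intro a ha
    rw [Cfsg.Agent.S0768.toGL_mulVec, hσ', hσ, (hπP a ha).1, (hπP a ha).2, map_zero, map_zero,
      add_zero]
    exact hg₁P a ha
  · intro b hb
    rw [Cfsg.Agent.S0768.toGL_mulVec, hσ', hσ, (hπQ b hb).1, map_zero, zero_add]
    exact h1 _

end pq

section fin

variable {F : Type*} [Field F] (m : ℕ)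

theorem sub_union (g : Matrix.GeneralLinearGroup (Fin m ⊕ Fin m) F)
    (W A B : Submodule F (Fin m ⊕ Fin m → F))
    (h : ∀ w ∈ W, (g : Matrix (Fin m ⊕ Fin m) (Fin m ⊕ Fin m) F) *ᵥ w ∈ A ∨
      (g : Matrix (Fin m ⊕ Fin m) (Fin m ⊕ Fin m) F) *ᵥ w ∈ B) :
    (∀ w ∈ W, (g : Matrix (Fin m ⊕ Fin m) (Fin m ⊕ Fin m) F) *ᵥ w ∈ A) ∨
      (∀ w ∈ W, (g : Matrix (Fin m ⊕ Fin m) (Fin m ⊕ Fin m) F) *ᵥ w ∈ B) := by
  by_contra hcon
  push Not at hcon
  obtain ⟨⟨w, hw, hwA⟩, ⟨w', hw', hw'B⟩⟩ := hcon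
  have hwB := (h w hw).resolve_left hwA
  have hw'A := (h w' hw').resolve_right hw'B
  rcases h (w + w') (W.add_mem hw hw') with h3 | h3
  · rw [Matrix.mulVec_add] at h3
    apply hwA
    have := A.sub_mem h3 hw'A
    rwa [add_sub_cancel_right] at this
  · rw [Matrix.mulVec_add] at h3
    apply hw'B
    have := B.sub_mem h3 hwB
    rwa [add_sub_cancel_left] at this

end fin

/-- For a finite field F of odd order and m ≥ 7, let D be a decomposition of F^(2m) into two complementary subspaces of dimension m on each of which the standard alternating form vanishes identically. Then the elements of Sp_2m(F) preserving or interchanging the two subspaces form a maximal subgroup of Sp_2m(F). -/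
theorem result {F : Type*} [Field F] [Fintype F] (m : ℕ) (hm : 7 ≤ m) (hodd : Odd (Fintype.card F)) (D : Fin 2 → Submodule F (Fin m ⊕ Fin m → F)) (hD : Cfsg.Geo.IsMDecomposition m D) (hts : ∀ i, Cfsg.Geo.IsTotallySingularFor (Cfsg.sympForm m F) (D i)) : Cfsg.Geo.IsMaximalIn (Cfsg.spGL m F) (Cfsg.Geo.decompositionStabilizer D ⊓ Cfsg.spGL m F) := by
  classical
  have hInt : DirectSum.IsInternal D :=
    DirectSum.isInternal_submodule_of_iSupIndep_of_iSup_eq_top hD.indep hD.iSup_eq_top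
  have h2 : (2 : F) ≠ 0 := by
    apply Ring.two_ne_zero
    intro hc
    have := FiniteField.even_card_iff_char_two.mp hc
    rcases hodd with ⟨k, hk⟩
    omega
  have hP := hts 0
  have hQ := hts 1
  have h12 : ∀ x, Cfsg.Agent.S5648.cmp D hInt 0 x + Cfsg.Agent.S5648.cmp D hInt 1 x = x := by
    intro x
    have := Cfsg.Agent.S5648.sum_cmp D hInt x
    rwa [Fin.sum_univ_two] at this
  have hsum : ∀ x, ∃ p ∈ D 0, ∃ q ∈ D 1, x = p + q := fun x =>
    ⟨_, Cfsg.Agent.S5648.cmp_mem D hInt 0 x, _, Cfsg.Agent.S5648.cmp_mem D hInt 1 x,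
      (h12 x).symm⟩
  have hsum' := sum_symm m (D 0) (D 1) hsum
  have hfr := hD.finrank_eq
  have hfP : Module.finrank F (D 0) = m := hfr 0
  have hfQ : Module.finrank F (D 1) = m := hfr 1
  have hfin2 : ∀ j : Fin 2, j = 0 ∨ j = 1 := by decide
  have hHE : ∀ p ∈ D 0, ∀ q ∈ D 1, sympForm m F p q = 0 →
      E m p q ∈ Geo.decompositionStabilizer D ⊓ spGL m F := by
    intro p hp q hq hpq
    refine ⟨?_, E_mem m p q⟩
    refine Cfsg.Agent.S5647.mem_decompStab m D m hfr (E m p q) 1 ?_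
    intro i x hx
    rw [Equiv.Perm.one_apply, E_mulVec m p q x hpq]
    rcases hfin2 i with rfl | rfl
    · rw [hP x hx p hp, zero_smul, add_zero]
      exact (D 0).add_mem hx ((D 0).smul_mem _ hp)
    · rw [hQ x hx q hq, zero_smul, add_zero]
      exact (D 1).add_mem hx ((D 1).smul_mem _ hq)
  obtain ⟨σ, hσsp, hσP, hσQ⟩ := exists_swap m (D 0) (D 1) hP hQ (by rw [hfP, hfQ])
    (Cfsg.Agent.S5648.cmp D hInt 0) (Cfsg.Agent.S5648.cmp D hInt 1)
    (Cfsg.Agent.S5648.cmp_mem D hInt 0) (Cfsg.Agent.S5648.cmp_mem D hInt 1) h12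
  have hσH : σ ∈ Geo.decompositionStabilizer D ⊓ spGL m F := by
    refine ⟨Cfsg.Agent.S5647.mem_decompStab m D m hfr σ (Equiv.swap 0 1) ?_, hσsp⟩
    intro i x hx
    rcases hfin2 i with rfl | rfl
    · rw [Equiv.swap_apply_left]
      exact hσP x hx
    · rw [Equiv.swap_apply_right]
      exact hσQ x hx
  have hexP : ∃ a ∈ D 0, a ≠ 0 := by
    have : D 0 ≠ ⊥ := by
      intro h
      rw [h, finrank_bot] at hfP
      omega
    exact Submodule.exists_mem_ne_zero_of_ne_bot this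
  have hexQ : ∃ b ∈ D 1, b ≠ 0 := by
    have : D 1 ≠ ⊥ := by
      intro h
      rw [h, finrank_bot] at hfQ
      omega
    exact Submodule.exists_mem_ne_zero_of_ne_bot this
  refine ⟨lt_of_le_of_ne inf_le_right ?_, ?_⟩
  · intro heq
    obtain ⟨a, ha, ha0⟩ := hexP
    obtain ⟨b, hb, hab⟩ := dual0 m (D 0) (D 1) hP hQ hsum a ha ha0
    have hb0 : b ≠ 0 := by
      rintro rfl
      exact hab (form_zero_right m a)
    have htv : tv m a 1 ∈ Geo.decompositionStabilizer D ⊓ spGL m F := by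
      rw [heq]
      exact tv_mem m a 1
    obtain ⟨τ, hτ⟩ := htv.1
    have hmem : ((tv m a 1 : Matrix.GeneralLinearGroup (Fin m ⊕ Fin m) F) :
        Matrix (Fin m ⊕ Fin m) (Fin m ⊕ Fin m) F) *ᵥ b ∈ D (τ 1) := by
      rw [← hτ 1]
      exact ⟨b, hb, by rw [Matrix.toLin'_apply]⟩
    rw [tv_mulVec, one_mul] at hmem
    have hba : sympForm m F b a ≠ 0 := fun h => hab (form_swap_zero m b a h)
    rcases hfin2 (τ 1) with h | h
    · rw [h] at hmem
      apply hb0
      apply disj m (D 0) (D 1) hP hQ hsum b ?_ hb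
      have := (D 0).sub_mem hmem ((D 0).smul_mem (sympForm m F b a) ha)
      rwa [add_sub_cancel_right] at this
    · rw [h] at hmem
      apply ha0
      apply disj m (D 0) (D 1) hP hQ hsum a ha
      have := (D 1).sub_mem hmem hb
      rw [add_sub_cancel_left] at this
      exact ((D 1).smul_mem_iff hba).mp this
  · intro M hHM hMSp
    have hH : ∀ p ∈ D 0, ∀ q ∈ D 1, sympForm m F p q = 0 → E m p q ∈ M :=
      fun p hp q hq h => hHM (hHE p hp q hq h)
    have hH' : ∀ q ∈ D 1, ∀ p ∈ D 0, sympForm m F q p = 0 → E m q p ∈ M := fun q hq p hp h => by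
      rw [E_comm m q p h]
      exact hH p hp q hq (form_swap_zero m q p h)
    by_cases hS : ∀ x, x ∈ Sset m M → x = 0
    · left
      apply le_antisymm ?_ hHM
      intro g hg
      refine ⟨?_, hMSp hg⟩
      have k1 := sub_union m g (D 0) (D 0) (D 1) (fun a ha =>
        pure_image m (D 0) (D 1) hP hQ hsum h2 (by omega) (by omega) M hMSp hH hS g hg a ha)
      have k2 := sub_union m g (D 1) (D 1) (D 0) (fun b hb =>
        pure_image m (D 1) (D 0) hQ hP hsum' h2 (by omega) (by omega) M hMSp hH' hS g hg b hb)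
      have hinj := Cfsg.Agent.S5646.gl_inj m g
      rcases k1 with k1 | k1 <;> rcases k2 with k2 | k2
      · refine Cfsg.Agent.S5647.mem_decompStab m D m hfr g 1 ?_
        intro i x hx
        rw [Equiv.Perm.one_apply]
        rcases hfin2 i with rfl | rfl
        · exact k1 x hx
        · exact k2 x hx
      · exfalso
        obtain ⟨b, hb, hb0⟩ := hexQ
        have hmap := Cfsg.Agent.S5647.map_eq m D m hfr g 0 0 k1
        have hgb := k2 b hb
        rw [← hmap] at hgb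
        obtain ⟨a, ha, hab⟩ := hgb
        rw [Matrix.toLin'_apply] at hab
        have : a = b := hinj hab
        apply hb0
        exact disj m (D 0) (D 1) hP hQ hsum b (this ▸ ha) hb
      · exfalso
        obtain ⟨a, ha, ha0⟩ := hexP
        have hmap := Cfsg.Agent.S5647.map_eq m D m hfr g 1 1 k2
        have hga := k1 a ha
        rw [← hmap] at hga
        obtain ⟨b, hb, hab⟩ := hga
        rw [Matrix.toLin'_apply] at hab
        have : b = a := hinj hab
        apply ha0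
        exact disj m (D 0) (D 1) hP hQ hsum a ha (this ▸ hb)
      · refine Cfsg.Agent.S5647.mem_decompStab m D m hfr g (Equiv.swap 0 1) ?_
        intro i x hx
        rcases hfin2 i with rfl | rfl
        · rw [Equiv.swap_apply_left]
          exact k1 x hx
        · rw [Equiv.swap_apply_right]
          exact k2 x hx
    · right
      push Not at hS
      obtain ⟨u, huS, hu0⟩ := hS
      apply eq_spGL_of_tv_mem m M hMSp
      have hσM : σ ∈ M := hHM hσH
      have hPQ : (∀ a ∈ D 0, a ∈ Sset m M) → (∀ b ∈ D 1, b ∈ Sset m M) := by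
        intro hPS b hb
        have hmap := Cfsg.Agent.S5647.map_eq m D m hfr σ 0 1 hσP
        rw [← hmap] at hb
        obtain ⟨a, ha, rfl⟩ := hb
        rw [Matrix.toLin'_apply]
        exact Sset_gl m M hMSp σ hσM a (hPS a ha)
      have hQP : (∀ b ∈ D 1, b ∈ Sset m M) → (∀ a ∈ D 0, a ∈ Sset m M) := by
        intro hQS a ha
        have hmap := Cfsg.Agent.S5647.map_eq m D m hfr σ 1 0 hσQ
        rw [← hmap] at ha
        obtain ⟨b, hb, rfl⟩ := ha
        rw [Matrix.toLin'_apply]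
        exact Sset_gl m M hMSp σ hσM b (hQS b hb)
      have key : ∀ x, x ∈ Sset m M := by
        obtain ⟨a, ha, b, hb, rfl⟩ := hsum u
        by_cases hb0 : b = 0
        · have ha0 : a ≠ 0 := by
            rintro rfl
            apply hu0
            rw [hb0, add_zero]
          have huS' : a ∈ Sset m M := by rwa [hb0, add_zero] at huS
          have hPS := S_all m (D 0) (D 1) hP hQ hsum h2 M hMSp hH a ha ha0 huS'
          exact S_top m (D 0) (D 1) hP hQ hsum M hMSp hPS (hPQ hPS)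
        · obtain ⟨b₁, hb₁, hb₁0, hb₁S⟩ := S_comp m (D 0) (D 1) hP hQ hsum h2 (by omega) M hMSp hH
            a b ha hb hb0 huS
          have hQS := S_all m (D 1) (D 0) hQ hP hsum' h2 M hMSp hH' b₁ hb₁ hb₁0 hb₁S
          exact S_top m (D 0) (D 1) hP hQ hsum M hMSp (hQP hQS) hQS
      exact fun u c => key u c

end Cfsg.Agent.S5649
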