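import Mathlib
import Cfsg.Statements.S5656
import Cfsg.Agent.S5654
import Cfsg.Agent.S5648

set_option autoImplicit false
open Cfsg

namespace Cfsg.Agent.S5656

open Matrix
open Cfsg.Agent.S0837 (Bh Bh_apply Bh_symm Bh_nondeg)
open Cfsg.Agent.S0780 (IsSUm)
open Cfsg.Agent.S5653 (herm_B mem_G_iff toG toG_coe toG_mem tv tv_coe tv_mulVec tv_mem gl_ext
  gl_inv_mulVec gl_inv_mulVec' gl_inj)
open Cfsg.Agent.S5654 (ND nd_of_herm exists_aniso)
open Cfsg.Agent.S5648 (cmp cmp_of_mem cmp_mem sum_cmp)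

section lib

variable {F : Type*} [Field F] (φ : F →+* F) {n : ℕ}

local notation "B" => Bh φ n

/-- the structure of a non-degenerate plane over the field with four elements -/
theorem plane (hφ2 : ∀ a : F, φ (φ a) = a)
    (hN01 : ∀ x : Fin n → F, B x x = 0 ∨ B x x = 1) (P : Submodule F (Fin n → F))
    (hfr : Module.finrank F P = 2) (hnd : ND φ P) (a : Fin n → F) (ha : a ∈ P)
    (haa : B a a = 1) :
    ∃ a' ∈ P, B a' a' = 1 ∧ B a a' = 0 ∧ ∀ x ∈ P, ∃ l m : F, x = l • a + m • a' := by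
  classical
  have hS := Bh_symm φ hφ2 n
  obtain ⟨y, hy, hya⟩ : ∃ y ∈ P, y ∉ Submodule.span F {a} := by
    by_contra hcon
    push Not at hcon
    have hle : P ≤ Submodule.span F {a} := fun y hy => hcon y hy
    have h1 := Submodule.finrank_mono hle
    have h2 := finrank_span_finset_le_card (R := F) ({a} : Finset (Fin n → F))
    have h3 : ((({a} : Finset (Fin n → F)) : Set (Fin n → F))) = {a} := by
      ext; simp
    rw [Set.finrank, h3, Finset.card_singleton] at h2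
    omega
  obtain ⟨a', ha'⟩ : ∃ a', a' = y - B a y • a := ⟨_, rfl⟩
  have ha'P : a' ∈ P := by
    rw [ha']
    exact P.sub_mem hy (P.smul_mem _ ha)
  have haa' : B a a' = 0 := by
    rw [ha', map_sub, map_smul, haa, smul_eq_mul, mul_one, sub_self]
  have ha'0 : a' ≠ 0 := by
    intro h
    apply hya
    rw [ha', sub_eq_zero] at h
    rw [h]
    exact Submodule.smul_mem _ _ (Submodule.mem_span_singleton_self a)
  have hspan : ∀ x ∈ P, ∃ l m : F, x = l • a + m • a' := by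
    have hli : LinearIndependent F ![(⟨a, ha⟩ : P), ⟨a', ha'P⟩] := by
      rw [LinearIndependent.pair_iff]
      intro s t hst
      have h0 := congrArg Subtype.val hst
      simp only [Submodule.coe_add, Submodule.coe_smul, Submodule.coe_zero] at h0
      have hs : s = 0 := by
        have := congrArg (B a) h0
        rw [map_add, map_smul, map_smul, haa, haa', map_zero, smul_eq_mul, smul_eq_mul, mul_one,
          mul_zero, add_zero] at this
        exact this
      rw [hs, zero_smul, zero_add] at h0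
      exact ⟨hs, (smul_eq_zero.mp h0).resolve_right ha'0⟩
    let b := basisOfLinearIndependentOfCardEqFinrank hli (by rw [hfr]; simp)
    intro x hx
    have hx' := b.sum_repr ⟨x, hx⟩
    rw [Fin.sum_univ_two] at hx'
    have h0 := congrArg Subtype.val hx'
    simp only [b, coe_basisOfLinearIndependentOfCardEqFinrank, Submodule.coe_add,
      Submodule.coe_smul, Matrix.cons_val_zero, Matrix.cons_val_one] at h0
    exact ⟨_, _, h0.symm⟩
  have ha'a' : B a' a' = 1 := by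
    rcases hN01 a' with h | h
    · exfalso
      apply ha'0
      apply hnd a' ha'P
      intro x hx
      obtain ⟨l, m, rfl⟩ := hspan x hx
      rw [map_add, LinearMap.add_apply, LinearMap.map_smulₛₗ, LinearMap.map_smulₛₗ,
        LinearMap.smul_apply, LinearMap.smul_apply, haa', h, smul_zero, smul_zero, add_zero]
    · exact h
  exact ⟨a', ha'P, ha'a', haa', hspan⟩

end lib

/-- Let F be the field with 4 elements (q = 2) and n ≥ 13. Let D be a decomposition of F^n into t pairwise orthogonal 2-dimensional subspaces, each non-degenerate for the standard unitary form Σ u_i v_i². Then the elements of SU_n(2) permuting the members of D form a subgroup that is not maximal: some subgroup lies strictly between it and SU_n(2). -/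
theorem result {F : Type*} [Field F] [Fintype F] (n : ℕ) (hF : Fintype.card F = 4) (hn : 13 ≤ n) {t : ℕ} (D : Fin t → Submodule F (Fin n → F)) (hD : Cfsg.Geo.IsNondegenerateMDecomposition (Cfsg.hermForm n F 2) 2 D) : ∃ K : Subgroup (Matrix.GeneralLinearGroup (Fin n) F), Cfsg.Geo.decompositionStabilizer D ⊓ (Cfsg.GU n F 2 ⊓ Cfsg.Geo.specialLinear (Fin n) F) < K ∧ K < (Cfsg.GU n F 2 ⊓ Cfsg.Geo.specialLinear (Fin n) F) := by
  classical
  have hF' : Fintype.card F = 2 ^ 2 := by rw [hF]; norm_num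
  obtain ⟨φ, hφq, hφ2⟩ := Cfsg.Agent.S0779.exists_frob hF'
  have hφ := Cfsg.Agent.S0829.phi_ne_id hF' φ hφq
  have hS := Bh_symm φ hφ2 n
  -- characteristic two
  have h2 : (1 : F) + 1 = 0 := by
    have h := map_add φ 1 1
    rw [hφq (1 + 1), map_one] at h
    linear_combination h
  have hdouble : ∀ c : F, c + c = 0 := fun c => by linear_combination c * h2
  have hvdouble : ∀ v : Fin n → F, v + v = 0 := by
    intro v
    funext i
    exact hdouble (v i)
  have hc1 : φ (1 : F) = -1 := by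
    rw [map_one]
    linear_combination h2
  have hN01 : ∀ x : Fin n → F, Bh φ n x x = 0 ∨ Bh φ n x x = 1 := by
    intro x
    have h := hS.eq x x
    rw [hφq] at h
    have h3 : Bh φ n x x * (Bh φ n x x - 1) = 0 := by linear_combination h
    rcases mul_eq_zero.mp h3 with h4 | h4
    · left; exact h4
    · right; exact sub_eq_zero.mp h4
  have hunit : ∀ l : F, l ≠ 0 → φ l * l = 1 := by
    intro l hl
    have h := FiniteField.pow_card_sub_one_eq_one l hl
    rw [hF] at h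
    rw [hφq]
    linear_combination h
  have hInt : DirectSum.IsInternal D :=
    DirectSum.isInternal_submodule_of_iSupIndep_of_iSup_eq_top hD.decomp.indep
      hD.decomp.iSup_eq_top
  have ht2 := hD.decomp.two_le
  obtain ⟨i₁, hi₁⟩ : ∃ i : Fin t, i = ⟨0, by omega⟩ := ⟨_, rfl⟩
  obtain ⟨i₂, hi₂⟩ : ∃ i : Fin t, i = ⟨1, by omega⟩ := ⟨_, rfl⟩
  have h12 : i₁ ≠ i₂ := by rw [hi₁, hi₂]; simp
  have hfr := hD.decomp.finrank_eq
  have hnd : ∀ i, ND φ (D i) := fun i => nd_of_herm φ hφq (D i) (hD.nondegenerate i)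
  have horth : ∀ i j, i ≠ j → ∀ u ∈ D i, ∀ v ∈ D j, Bh φ n u v = 0 :=
    fun i j hij u hu v hv => by
      rw [← herm_B φ hφq]
      exact hD.orthogonal j i (Ne.symm hij) v hv u hu
  have hexa : ∀ i, ∃ a ∈ D i, Bh φ n a a = 1 := by
    intro i
    have h1 : 0 < Module.finrank F (D i) := by rw [hfr i]; norm_num
    obtain ⟨⟨d, hd⟩, hd0⟩ := Module.finrank_pos_iff_exists_ne_zero.mp h1
    obtain ⟨u, hu, huu, -⟩ := exists_aniso φ hφ hφ2 (D i) (hnd i) d hd
      (fun h => hd0 (Subtype.ext h))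
    exact ⟨u, hu, (hN01 u).resolve_left huu⟩
  obtain ⟨a₁, ha₁, ha₁N⟩ := hexa i₁
  obtain ⟨a₂, ha₂, ha₂N⟩ := hexa i₂
  obtain ⟨a₁', ha₁', ha₁'N, ha₁a₁', hsp₁⟩ :=
    plane φ hφ2 hN01 (D i₁) (hfr i₁) (hnd i₁) a₁ ha₁ ha₁N
  obtain ⟨a₂', ha₂', ha₂'N, ha₂a₂', hsp₂⟩ :=
    plane φ hφ2 hN01 (D i₂) (hfr i₂) (hnd i₂) a₂ ha₂ ha₂N
  have hne : ∀ x : Fin n → F, Bh φ n x x ≠ 0 → x ≠ 0 := by
    intro x hx h0
    apply hx
    rw [h0, map_zero]
  have huniq : ∀ (i j : Fin t) (x : Fin n → F), x ∈ D i → x ∈ D j → x ≠ 0 → i = j := by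
    intro i j x hxi hxj hx0
    by_contra hij
    have h1 := cmp_of_mem D hInt hxi i
    have h3 := cmp_of_mem D hInt hxj i
    rw [if_pos rfl] at h1
    rw [if_neg hij] at h3
    exact hx0 (h1.symm.trans h3)
  -- the set of anisotropic vectors lying in a member of the decomposition
  obtain ⟨N, hNdef⟩ : ∃ N : Set (Fin n → F), N = {v | Bh φ n v v ≠ 0 ∧ ∃ i, v ∈ D i} := ⟨_, rfl⟩
  have hNmem : ∀ v, v ∈ N ↔ (Bh φ n v v ≠ 0 ∧ ∃ i, v ∈ D i) := by
    intro v; rw [hNdef]; rfl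
  -- the key computation: a transposition of two frame vectors preserves `N`
  have key : ∀ (i j : Fin t), i ≠ j → ∀ (a b a' : Fin n → F), a ∈ D i → b ∈ D j →
      Bh φ n a a = 1 → Bh φ n b b = 1 → a' ∈ D i → Bh φ n a a' = 0 → Bh φ n a' a' = 1 →
      (∀ x ∈ D i, ∃ l m : F, x = l • a + m • a') → ∀ x ∈ D i, Bh φ n x x ≠ 0 →
      Bh φ n (a + b) x ≠ 0 → x + Bh φ n (a + b) x • (a + b) ∈ N := by
    intro i j hij a b a' ha hb haN hbN ha' haa' ha'N hsp x hxi hxN hB
    obtain ⟨l, m, rfl⟩ := hsp x hxi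
    have hB2 : Bh φ n (a + b) (l • a + m • a') = l := by
      simp only [map_add, map_smul, LinearMap.add_apply, haN, haa',
        horth j i (Ne.symm hij) b hb a ha, horth j i (Ne.symm hij) b hb a' ha', smul_eq_mul,
        mul_one, mul_zero, add_zero]
    rw [hB2] at hB ⊢
    have hm : m = 0 := by
      by_contra hm
      apply hxN
      have e1 : Bh φ n a' a = 0 := by rw [← hS.eq a a', haa', map_zero]
      simp only [map_add, LinearMap.add_apply, LinearMap.map_smulₛₗ, LinearMap.smul_apply,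
        map_smul, smul_eq_mul, haN, ha'N, haa', e1, mul_one, mul_zero, add_zero, zero_add]
      linear_combination hunit l hB + hunit m hm + h2
    rw [hm, zero_smul, add_zero]
    have e : l • a + l • (a + b) = l • b := by
      rw [smul_add, ← add_assoc, hvdouble (l • a), zero_add]
    rw [e, hNmem]
    refine ⟨?_, j, (D j).smul_mem l hb⟩
    simp only [LinearMap.map_smulₛₗ, LinearMap.smul_apply, map_smul, smul_eq_mul, hbN, mul_one]
    have := hunit l hB
    intro h0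
    apply one_ne_zero (α := F)
    linear_combination h0 - this
  have hv12 : Bh φ n (a₁ + a₂) (a₁ + a₂) = 0 := by
    simp only [map_add, LinearMap.add_apply, ha₁N, ha₂N, horth i₁ i₂ h12 a₁ ha₁ a₂ ha₂,
      horth i₂ i₁ h12.symm a₂ ha₂ a₁ ha₁]
    linear_combination h2
  have hT : ∀ x, ((tv 2 (a₁ + a₂) 1 : Matrix.GeneralLinearGroup (Fin n) F) :
      Matrix (Fin n) (Fin n) F) *ᵥ x = x + Bh φ n (a₁ + a₂) x • (a₁ + a₂) := by
    intro x
    rw [tv_mulVec φ hφq hφ2 _ 1 hv12 hc1, one_mul]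
  have hTT : ∀ x, ((tv 2 (a₁ + a₂) 1 : Matrix.GeneralLinearGroup (Fin n) F) :
      Matrix (Fin n) (Fin n) F) *ᵥ (((tv 2 (a₁ + a₂) 1 : Matrix.GeneralLinearGroup (Fin n) F) :
      Matrix (Fin n) (Fin n) F) *ᵥ x) = x := by
    intro x
    rw [hT, hT]
    have e : Bh φ n (a₁ + a₂) (x + Bh φ n (a₁ + a₂) x • (a₁ + a₂)) = Bh φ n (a₁ + a₂) x := by
      rw [map_add, map_smul, hv12, smul_zero, add_zero]
    rw [e, add_assoc, ← add_smul, hdouble, zero_smul, add_zero]
  have hTN : ∀ x ∈ N, ((tv 2 (a₁ + a₂) 1 : Matrix.GeneralLinearGroup (Fin n) F) :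
      Matrix (Fin n) (Fin n) F) *ᵥ x ∈ N := by
    intro x hx
    obtain ⟨hxN, i, hxi⟩ := (hNmem x).mp hx
    rw [hT]
    by_cases hB : Bh φ n (a₁ + a₂) x = 0
    · rw [hB, zero_smul, add_zero]; exact hx
    · have hi : i = i₁ ∨ i = i₂ := by
        by_contra hcon
        push Not at hcon
        apply hB
        rw [map_add, LinearMap.add_apply, horth i₁ i (Ne.symm hcon.1) a₁ ha₁ x hxi,
          horth i₂ i (Ne.symm hcon.2) a₂ ha₂ x hxi, add_zero]
      rcases hi with hi | hi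
      · rw [hi] at hxi
        exact key i₁ i₂ h12 a₁ a₂ a₁' ha₁ ha₂ ha₁N ha₂N ha₁' ha₁a₁' ha₁'N hsp₁ x hxi hxN hB
      · rw [hi] at hxi
        rw [add_comm a₁ a₂] at hB ⊢
        exact key i₂ i₁ h12.symm a₂ a₁ a₂' ha₂ ha₁ ha₂N ha₁N ha₂' ha₂a₂' ha₂'N hsp₂ x hxi hxN hB
  refine ⟨Cfsg.stabilizing (Cfsg.glToMat (Fin n) F) N ⊓
    (Cfsg.GU n F 2 ⊓ Cfsg.Geo.specialLinear (Fin n) F), ?_, ?_⟩
  · -- the decomposition stabiliser is strictly contained in `K`
    refine lt_of_le_of_ne ?_ ?_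
    · intro g hg
      refine ⟨?_, hg.2⟩
      have hgS := (mem_G_iff φ hφq g).1 hg.2
      obtain ⟨σ, hσ⟩ := hg.1
      intro v
      show v ∈ N ↔ (g : Matrix (Fin n) (Fin n) F) *ᵥ v ∈ N
      rw [hNmem, hNmem]
      constructor
      · rintro ⟨hv, i, hvi⟩
        refine ⟨by rw [hgS.2]; exact hv, σ i, ?_⟩
        rw [← hσ i]
        exact ⟨v, hvi, by rw [Matrix.toLin'_apply]⟩
      · rintro ⟨hv, j, hvj⟩
        rw [hgS.2] at hv
        refine ⟨hv, σ.symm j, ?_⟩
        have h3 := hσ (σ.symm j)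
        rw [Equiv.apply_symm_apply] at h3
        rw [← h3] at hvj
        obtain ⟨w, hw, hwv⟩ := hvj
        rw [Matrix.toLin'_apply] at hwv
        have : w = v := gl_inj g hwv
        rw [← this]
        exact hw
    · intro heq
      have hTK : tv 2 (a₁ + a₂) 1 ∈ Cfsg.stabilizing (Cfsg.glToMat (Fin n) F) N ⊓
          (Cfsg.GU n F 2 ⊓ Cfsg.Geo.specialLinear (Fin n) F) := by
        refine ⟨?_, tv_mem φ hφq hφ2 _ 1 hv12 hc1⟩
        intro v
        show v ∈ N ↔ ((tv 2 (a₁ + a₂) 1 : Matrix.GeneralLinearGroup (Fin n) F) :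
          Matrix (Fin n) (Fin n) F) *ᵥ v ∈ N
        refine ⟨hTN v, fun h => ?_⟩
        have := hTN _ h
        rwa [hTT] at this
      rw [← heq] at hTK
      obtain ⟨σ, hσ⟩ := hTK.1
      have hTa₁ : ((tv 2 (a₁ + a₂) 1 : Matrix.GeneralLinearGroup (Fin n) F) :
          Matrix (Fin n) (Fin n) F) *ᵥ a₁ = a₂ := by
        rw [hT, map_add, LinearMap.add_apply, ha₁N, horth i₂ i₁ h12.symm a₂ ha₂ a₁ ha₁, add_zero,
          one_smul, ← add_assoc, hvdouble, zero_add]
      have hTa₁' : ((tv 2 (a₁ + a₂) 1 : Matrix.GeneralLinearGroup (Fin n) F) :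
          Matrix (Fin n) (Fin n) F) *ᵥ a₁' = a₁' := by
        rw [hT, map_add, LinearMap.add_apply, ha₁a₁', horth i₂ i₁ h12.symm a₂ ha₂ a₁' ha₁',
          add_zero, zero_smul, add_zero]
      have m1 : a₂ ∈ D (σ i₁) := by
        rw [← hσ i₁]
        exact ⟨a₁, ha₁, by rw [Matrix.toLin'_apply, hTa₁]⟩
      have m2 : a₁' ∈ D (σ i₁) := by
        rw [← hσ i₁]
        exact ⟨a₁', ha₁', by rw [Matrix.toLin'_apply, hTa₁']⟩
      have e1 : σ i₁ = i₂ := huniq _ _ a₂ m1 ha₂ (hne a₂ (by rw [ha₂N]; exact one_ne_zero))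
      have e2 : σ i₁ = i₁ := huniq _ _ a₁' m2 ha₁' (hne a₁' (by rw [ha₁'N]; exact one_ne_zero))
      exact h12 (e2.symm.trans e1)
  · -- `K` is a proper subgroup
    refine lt_of_le_of_ne inf_le_right ?_
    intro heq
    have e1 : Bh φ n a₁' a₁ = 0 := by rw [← hS.eq a₁ a₁', ha₁a₁', map_zero]
    have e2 : Bh φ n a₂' a₂ = 0 := by rw [← hS.eq a₂ a₂', ha₂a₂', map_zero]
    have hz₁ : a₁ + a₁' ∈ D i₁ := (D i₁).add_mem ha₁ ha₁'
    have hz₂ : a₂ + a₂' ∈ D i₂ := (D i₂).add_mem ha₂ ha₂'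
    have hz₁N : Bh φ n (a₁ + a₁') (a₁ + a₁') = 0 := by
      simp only [map_add, LinearMap.add_apply, ha₁N, ha₁'N, ha₁a₁', e1]
      linear_combination h2
    have hz₂N : Bh φ n (a₂ + a₂') (a₂ + a₂') = 0 := by
      simp only [map_add, LinearMap.add_apply, ha₂N, ha₂'N, ha₂a₂', e2]
      linear_combination h2
    have hsumN : ∀ u ∈ D i₁, ∀ w ∈ D i₂, Bh φ n u u = 0 → Bh φ n w w = 0 →
        Bh φ n (u + w) (u + w) = 0 := by
      intro u hu w hw k1 k2
      simp only [map_add, LinearMap.add_apply, k1, k2, horth i₁ i₂ h12 u hu w hw,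
        horth i₂ i₁ h12.symm w hw u hu]
      ring
    have hvN : Bh φ n ((a₁ + a₁') + (a₂ + a₂')) ((a₁ + a₁') + (a₂ + a₂')) = 0 :=
      hsumN _ hz₁ _ hz₂ hz₁N hz₂N
    have hT'G : tv 2 ((a₁ + a₁') + (a₂ + a₂')) 1 ∈
        Cfsg.stabilizing (Cfsg.glToMat (Fin n) F) N ⊓
          (Cfsg.GU n F 2 ⊓ Cfsg.Geo.specialLinear (Fin n) F) := by
      rw [heq]
      exact tv_mem φ hφq hφ2 _ 1 hvN hc1
    have ha₁mem : a₁ ∈ N := by
      rw [hNmem]
      exact ⟨by rw [ha₁N]; exact one_ne_zero, i₁, ha₁⟩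
    have h3 : ((tv 2 ((a₁ + a₁') + (a₂ + a₂')) 1 : Matrix.GeneralLinearGroup (Fin n) F) :
        Matrix (Fin n) (Fin n) F) *ᵥ a₁ ∈ N := (hT'G.1 a₁).mp ha₁mem
    have hBv : Bh φ n ((a₁ + a₁') + (a₂ + a₂')) a₁ = 1 := by
      rw [map_add, LinearMap.add_apply, horth i₂ i₁ h12.symm _ hz₂ a₁ ha₁, add_zero, map_add,
        LinearMap.add_apply, ha₁N, e1, add_zero]
    rw [tv_mulVec φ hφq hφ2 _ 1 hvN hc1, hBv, mul_one, one_smul] at h3
    have e3 : a₁ + ((a₁ + a₁') + (a₂ + a₂')) = a₁' + (a₂ + a₂') := by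
      have e4 : a₁ + ((a₁ + a₁') + (a₂ + a₂')) = (a₁ + a₁) + (a₁' + (a₂ + a₂')) := by abel
      rw [e4, hvdouble a₁, zero_add]
    rw [e3, hNmem] at h3
    obtain ⟨-, j, hj⟩ := h3
    have c1 : cmp D hInt i₁ (a₁' + (a₂ + a₂')) = a₁' := by
      rw [map_add, cmp_of_mem D hInt ha₁', cmp_of_mem D hInt hz₂, if_pos rfl, if_neg h12,
        add_zero]
    have c2 : cmp D hInt i₂ (a₁' + (a₂ + a₂')) = a₂ + a₂' := by
      rw [map_add, cmp_of_mem D hInt ha₁', cmp_of_mem D hInt hz₂, if_pos rfl,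
        if_neg h12.symm, zero_add]
    have ha₁'0 : a₁' ≠ 0 := hne a₁' (by rw [ha₁'N]; exact one_ne_zero)
    have hz₂0 : a₂ + a₂' ≠ 0 := by
      intro h0
      have h4 : Bh φ n a₂ (a₂ + a₂') = 1 := by rw [map_add, ha₂N, ha₂a₂', add_zero]
      rw [h0, map_zero] at h4
      exact zero_ne_one h4
    have j1 : i₁ = j := by
      by_contra hne'
      rw [cmp_of_mem D hInt hj, if_neg hne'] at c1
      exact ha₁'0 c1.symm
    have j2 : i₂ = j := by
      by_contra hne'
      rw [cmp_of_mem D hInt hj, if_neg hne'] at c2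
      exact hz₂0 c2.symm
    exact h12 (j1.trans j2.symm)

end Cfsg.Agent.S5656
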