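import Mathlib
import Cfsg.Statements.S5660
import Cfsg.Agent.S5654

set_option autoImplicit false
open Cfsg

namespace Cfsg.Agent.S5660

open Matrix
open Cfsg.Agent.S0837 (Bh Bh_apply Bh_symm Bh_nondeg)
open Cfsg.Agent.S0780 (IsSUm)
open Cfsg.Agent.S5653 (herm_B mem_G_iff toG toG_coe toG_mem tv tv_coe tv_mulVec tv_mem gl_ext
  gl_inv_mulVec gl_inv_mulVec' gl_inj Sset Sset_gl Sset_tv Sset_smul gen)

section lib

variable {F : Type*} [Field F] {n : ℕ} (F₀ : Subfield F)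
  (P : Matrix.GeneralLinearGroup (Fin n) F)

/-- the `F₀`-structure spanned by the columns of `P` -/
def V0 (x : Fin n → F) : Prop :=
  ∃ u : Fin n → F, (∀ i, u i ∈ F₀) ∧ x = (P : Matrix (Fin n) (Fin n) F) *ᵥ u

theorem V0_zero : V0 F₀ P 0 := ⟨0, fun _ => F₀.zero_mem, by rw [Matrix.mulVec_zero]⟩

theorem V0_add {x y : Fin n → F} (hx : V0 F₀ P x) (hy : V0 F₀ P y) : V0 F₀ P (x + y) := by
  obtain ⟨u, hu, rfl⟩ := hx
  obtain ⟨v, hv, rfl⟩ := hy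
  exact ⟨u + v, fun i => F₀.add_mem (hu i) (hv i), by rw [Matrix.mulVec_add]⟩

theorem V0_smul {x : Fin n → F} (r : F) (hr : r ∈ F₀) (hx : V0 F₀ P x) : V0 F₀ P (r • x) := by
  obtain ⟨u, hu, rfl⟩ := hx
  exact ⟨r • u, fun i => F₀.mul_mem hr (hu i), by rw [Matrix.mulVec_smul]⟩

theorem V0_neg {x : Fin n → F} (hx : V0 F₀ P x) : V0 F₀ P (-x) := by
  have := V0_smul F₀ P (-1) (F₀.neg_mem F₀.one_mem) hx
  rwa [neg_one_smul] at this

theorem V0_sub {x y : Fin n → F} (hx : V0 F₀ P x) (hy : V0 F₀ P y) : V0 F₀ P (x - y) := by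
  rw [sub_eq_add_neg]
  exact V0_add F₀ P hx (V0_neg F₀ P hy)

theorem V0_exists_ne (hn : 0 < n) : ∃ p, V0 F₀ P p ∧ p ≠ 0 := by
  classical
  refine ⟨(P : Matrix (Fin n) (Fin n) F) *ᵥ Pi.single ⟨0, hn⟩ 1, ⟨Pi.single ⟨0, hn⟩ 1, fun i => ?_,
    rfl⟩, fun h => ?_⟩
  · rw [Pi.single_apply]
    split_ifs
    · exact F₀.one_mem
    · exact F₀.zero_mem
  · have h1 := gl_inv_mulVec' P (Pi.single ⟨0, hn⟩ (1 : F))
    rw [h, Matrix.mulVec_zero] at h1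
    have h2 := congrFun h1 ⟨0, hn⟩
    rw [Pi.single_eq_same, Pi.zero_apply] at h2
    exact zero_ne_one h2

variable (φ : F →+* F) (hF1 : ∀ a ∈ F₀, φ a = a) (hF2 : ∀ a, φ a = a → a ∈ F₀)
  (hφ2 : ∀ a : F, φ (φ a) = a) (θ : F) (hθ : φ θ ≠ θ)

include hF1 hθ in
theorem theta_indep (a b : F) (ha : a ∈ F₀) (hb : b ∈ F₀) (h : a + θ * b = 0) :
    a = 0 ∧ b = 0 := by
  have hb0 : b = 0 := by
    by_contra hb0
    apply hθ
    have : θ = -a / b := by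
      field_simp
      linear_combination h
    rw [this]
    exact hF1 _ (F₀.div_mem (F₀.neg_mem ha) hb)
  rw [hb0, mul_zero, add_zero] at h
  exact ⟨h, hb0⟩

include hF2 hφ2 hθ in
theorem field_decomp (l : F) : ∃ a b, a ∈ F₀ ∧ b ∈ F₀ ∧ l = a + θ * b := by
  have hne : θ - φ θ ≠ 0 := sub_ne_zero.mpr (Ne.symm hθ)
  have hne' : φ θ - θ ≠ 0 := sub_ne_zero.mpr hθ
  refine ⟨l - θ * ((l - φ l) / (θ - φ θ)), (l - φ l) / (θ - φ θ), hF2 _ ?_, hF2 _ ?_, by ring⟩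
  · rw [map_sub, map_mul, map_div₀, map_sub, map_sub, hφ2, hφ2]
    field_simp
    ring
  · rw [map_div₀, map_sub, map_sub, hφ2, hφ2]
    field_simp
    ring

include hF2 hφ2 hθ in
theorem decomp_exists (v : Fin n → F) :
    ∃ x y, V0 F₀ P x ∧ V0 F₀ P y ∧ v = x + θ • y := by
  have h := fun i => field_decomp F₀ φ hF2 hφ2 θ hθ
    ((((P⁻¹ : Matrix.GeneralLinearGroup (Fin n) F) : Matrix (Fin n) (Fin n) F) *ᵥ v) i)
  choose a b ha hb hab using h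
  refine ⟨(P : Matrix (Fin n) (Fin n) F) *ᵥ a, (P : Matrix (Fin n) (Fin n) F) *ᵥ b,
    ⟨a, ha, rfl⟩, ⟨b, hb, rfl⟩, ?_⟩
  rw [← Matrix.mulVec_smul, ← Matrix.mulVec_add]
  have : a + θ • b = ((P⁻¹ : Matrix.GeneralLinearGroup (Fin n) F) :
      Matrix (Fin n) (Fin n) F) *ᵥ v := by
    funext i
    rw [hab i]
    rfl
  rw [this, gl_inv_mulVec]

include hF1 hθ in
theorem decomp_zero {x y : Fin n → F} (hx : V0 F₀ P x) (hy : V0 F₀ P y)
    (h : x + θ • y = 0) : x = 0 ∧ y = 0 := by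
  obtain ⟨u, hu, rfl⟩ := hx
  obtain ⟨u', hu', rfl⟩ := hy
  rw [← Matrix.mulVec_smul, ← Matrix.mulVec_add] at h
  have h0 : u + θ • u' = 0 := by
    have h1 := gl_inv_mulVec' P (u + θ • u')
    rw [h, Matrix.mulVec_zero] at h1
    exact h1.symm
  have hi : ∀ i, u i = 0 ∧ u' i = 0 := fun i =>
    theta_indep F₀ φ hF1 θ hθ (u i) (u' i) (hu i) (hu' i) (by
      have := congrFun h0 i
      simpa using this)
  have e1 : u = 0 := funext fun i => (hi i).1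
  have e2 : u' = 0 := funext fun i => (hi i).2
  rw [e1, e2, Matrix.mulVec_zero]
  exact ⟨rfl, rfl⟩

include hF1 hθ in
theorem decomp_unique {x y x' y' : Fin n → F} (hx : V0 F₀ P x) (hy : V0 F₀ P y)
    (hx' : V0 F₀ P x') (hy' : V0 F₀ P y') (h : x + θ • y = x' + θ • y') : x = x' ∧ y = y' := by
  have h0 : (x - x') + θ • (y - y') = 0 := by
    rw [smul_sub]
    have : x - x' + (θ • y - θ • y') = (x + θ • y) - (x' + θ • y') := by abel
    rw [this, h, sub_self]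
  have := decomp_zero F₀ P φ hF1 θ hθ (V0_sub F₀ P hx hx') (V0_sub F₀ P hy hy') h0
  exact ⟨sub_eq_zero.mp this.1, sub_eq_zero.mp this.2⟩

include hF1 hF2 hφ2 hθ in
/-- a scalar relating two vectors of the structure lies in the subfield -/
theorem scal {x p : Fin n → F} (hx : V0 F₀ P x) (hp : V0 F₀ P p) (hp0 : p ≠ 0) (κ : F)
    (h : x = κ • p) : κ ∈ F₀ := by
  obtain ⟨a, b, ha, hb, rfl⟩ := field_decomp F₀ φ hF2 hφ2 θ hθ κ
  have h1 : x + θ • (0 : Fin n → F) = a • p + θ • (b • p) := by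
    rw [smul_zero, add_zero, h, add_smul, mul_smul]
  have h2 := (decomp_unique F₀ P φ hF1 θ hθ hx (V0_zero F₀ P) (V0_smul F₀ P a ha hp)
    (V0_smul F₀ P b hb hp) h1).2
  have hb0 : b = 0 := (smul_eq_zero.mp h2.symm).resolve_right hp0
  rw [hb0, mul_zero, add_zero]
  exact ha

variable {q : ℕ} (hφq : ∀ a : F, φ a = a ^ q) (ζ : F) (hζ0 : ζ ≠ 0) (hζ : φ ζ = -ζ)
  (hB0 : ∀ x y, V0 F₀ P x → V0 F₀ P y → ζ * Bh φ n x y ∈ F₀)
  (hBxx : ∀ x, V0 F₀ P x → Bh φ n x x = 0)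

local notation "B" => Bh φ n

include hF1 hζ0 hζ hB0 in
theorem K2 {x y : Fin n → F} (hx : V0 F₀ P x) (hy : V0 F₀ P y) : φ (B x y) = -(B x y) := by
  have h := hF1 _ (hB0 x y hx hy)
  rw [map_mul, hζ] at h
  have h1 : ζ * (φ (B x y) + B x y) = 0 := by linear_combination -h
  rcases mul_eq_zero.mp h1 with h2 | h2
  · exact absurd h2 hζ0
  · linear_combination h2

include hF1 hφ2 hζ0 hζ hB0 in
theorem Banti {x y : Fin n → F} (hx : V0 F₀ P x) (hy : V0 F₀ P y) : B y x = -(B x y) := by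
  rw [← (Bh_symm φ hφ2 n).eq x y]
  exact K2 F₀ P φ hF1 ζ hζ0 hζ hB0 hx hy

include hF1 hF2 hζ0 hζ hB0 in
theorem K1 {u x : Fin n → F} (hu : V0 F₀ P u) (hx : V0 F₀ P x) (c : F) (hc : φ c = -c) :
    c * B u x ∈ F₀ :=
  hF2 _ (by rw [map_mul, hc, K2 F₀ P φ hF1 ζ hζ0 hζ hB0 hu hx]; ring)

include hF1 hF2 hζ0 hζ hB0 in
theorem ratio {x y z w : Fin n → F} (hx : V0 F₀ P x) (hy : V0 F₀ P y) (hz : V0 F₀ P z)
    (hw : V0 F₀ P w) : B x y / B z w ∈ F₀ :=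
  hF2 _ (by
    rw [map_div₀, K2 F₀ P φ hF1 ζ hζ0 hζ hB0 hx hy, K2 F₀ P φ hF1 ζ hζ0 hζ hB0 hz hw,
      neg_div_neg_eq])

include hF1 hζ0 hζ hB0 in
theorem inv_skew {x y : Fin n → F} (hx : V0 F₀ P x) (hy : V0 F₀ P y) :
    φ (B x y)⁻¹ = -(B x y)⁻¹ := by
  rw [map_inv₀, K2 F₀ P φ hF1 ζ hζ0 hζ hB0 hx hy, inv_neg]

include hF2 hφ2 hθ in
theorem nondeg0 {x : Fin n → F} (hx0 : x ≠ 0) : ∃ z, V0 F₀ P z ∧ B x z ≠ 0 := by
  by_contra hcon
  push Not at hcon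
  apply hx0
  apply (Bh_nondeg φ hφ2 n).1
  intro y
  obtain ⟨z₁, z₂, h1, h2, rfl⟩ := decomp_exists F₀ P φ hF2 hφ2 θ hθ y
  rw [map_add, map_smul, hcon z₁ h1, hcon z₂ h2, smul_zero, add_zero]

include hF1 hF2 hφ2 hθ hζ0 hζ hB0 in
theorem indep {x y : Fin n → F} (hx : V0 F₀ P x) (hx0 : x ≠ 0) (hy : V0 F₀ P y)
    (hind : ∀ r ∈ F₀, y ≠ r • x) : ∃ z, V0 F₀ P z ∧ B x z = 0 ∧ B y z ≠ 0 := by
  by_contra hcon
  push Not at hcon
  obtain ⟨s, hs, hxs⟩ := nondeg0 F₀ P φ hF2 hφ2 θ hθ hx0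
  have hκ : B y s / B x s ∈ F₀ := ratio F₀ P φ hF1 hF2 ζ hζ0 hζ hB0 hy hs hx hs
  apply hind _ hκ
  have h0 : y - (B y s / B x s) • x = 0 := by
    by_contra hne
    obtain ⟨z, hz, hyz⟩ := nondeg0 F₀ P φ hF2 hφ2 θ hθ hne
    apply hyz
    have hz' := hcon (z - (B x z / B x s) • s)
      (V0_sub F₀ P hz (V0_smul F₀ P _ (ratio F₀ P φ hF1 hF2 ζ hζ0 hζ hB0 hx hz hx hs) hs))
      (by rw [map_sub, map_smul, smul_eq_mul, div_mul_cancel₀ _ hxs, sub_self])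
    rw [map_sub, map_smul, smul_eq_mul, sub_eq_zero] at hz'
    rw [map_sub, LinearMap.sub_apply, LinearMap.map_smulₛₗ, LinearMap.smul_apply, hF1 _ hκ,
      smul_eq_mul, hz']
    field_simp
    ring
  exact sub_eq_zero.mp h0

omit φ in
/-- membership in the subfield subgroup from the action on the structure -/
theorem crit (g : Matrix.GeneralLinearGroup (Fin n) F) (l : F) (hl : l ≠ 0)
    (h : ∀ x, V0 F₀ P x → ∃ w, V0 F₀ P w ∧ (g : Matrix (Fin n) (Fin n) F) *ᵥ x = l • w) :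
    g ∈ Cfsg.Geo.subfieldSubgroup F₀ P := by
  classical
  obtain ⟨A, hA⟩ : ∃ A : Matrix (Fin n) (Fin n) F,
      A = l⁻¹ • ((P⁻¹ * g * P : Matrix.GeneralLinearGroup (Fin n) F) :
        Matrix (Fin n) (Fin n) F) := ⟨_, rfl⟩
  have hAx : ∀ x, A *ᵥ x = l⁻¹ • (((P⁻¹ : Matrix.GeneralLinearGroup (Fin n) F) :
      Matrix (Fin n) (Fin n) F) *ᵥ ((g : Matrix (Fin n) (Fin n) F) *ᵥ
        ((P : Matrix (Fin n) (Fin n) F) *ᵥ x))) := by
    intro x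
    rw [hA, Matrix.smul_mulVec, Units.val_mul, Units.val_mul, ← Matrix.mulVec_mulVec,
      ← Matrix.mulVec_mulVec]
  have hAent : ∀ i j, A i j ∈ F₀ := by
    intro i j
    obtain ⟨w, ⟨u, hu, rfl⟩, hw⟩ := h ((P : Matrix (Fin n) (Fin n) F) *ᵥ Pi.single j 1)
      ⟨Pi.single j 1, fun i => by
        rw [Pi.single_apply]
        split_ifs
        · exact F₀.one_mem
        · exact F₀.zero_mem, rfl⟩
    have h1 : A *ᵥ Pi.single j 1 = u := by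
      rw [hAx, hw, Matrix.mulVec_smul, gl_inv_mulVec' P u, smul_smul, inv_mul_cancel₀ hl,
        one_smul]
    have h2 : A i j = u i := by
      rw [← h1, Matrix.mulVec_single_one]
      rfl
    rw [h2]
    exact hu i
  let A₀ : Matrix (Fin n) (Fin n) F₀ := fun i j => ⟨A i j, hAent i j⟩
  have hmap : A₀.map F₀.subtype = A := by
    ext i j
    rfl
  have hdetA : A.det ≠ 0 := by
    rw [hA, Matrix.det_smul]
    refine mul_ne_zero (pow_ne_zero _ (inv_ne_zero hl)) ?_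
    exact (Matrix.GeneralLinearGroup.det (P⁻¹ * g * P)).ne_zero
  have hdet₀ : A₀.det ≠ 0 := by
    intro h0
    apply hdetA
    rw [← hmap, ← RingHom.mapMatrix_apply, ← RingHom.map_det, h0, map_zero]
  let A' : Matrix.GeneralLinearGroup (Fin n) F₀ := Matrix.GeneralLinearGroup.mkOfDetNeZero A₀ hdet₀
  let s : Matrix.GeneralLinearGroup (Fin n) F :=
    Units.map (Matrix.scalar (Fin n) : F →+* Matrix (Fin n) (Fin n) F).toMonoidHom (Units.mk0 l hl)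
  have hs : s ∈ Cfsg.Geo.scalars (Fin n) F := ⟨Units.mk0 l hl, rfl⟩
  have hA' : Matrix.GeneralLinearGroup.map (F₀.subtype : F₀ →+* F) A' ∈
      (Matrix.GeneralLinearGroup.map (F₀.subtype : F₀ →+* F)).range := ⟨A', rfl⟩
  have hcoeA : ((Matrix.GeneralLinearGroup.map (F₀.subtype : F₀ →+* F) A' :
      Matrix.GeneralLinearGroup (Fin n) F) : Matrix (Fin n) (Fin n) F) = A := by
    ext i j
    rw [Matrix.GeneralLinearGroup.map_apply]
    rfl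
  have hcoes : ∀ x, (s : Matrix (Fin n) (Fin n) F) *ᵥ x = l • x := by
    intro x
    have : (s : Matrix (Fin n) (Fin n) F) = l • (1 : Matrix (Fin n) (Fin n) F) := by
      simp [s, Matrix.smul_one_eq_diagonal]
    rw [this, Matrix.smul_mulVec, Matrix.one_mulVec]
  refine Subgroup.mem_map.mpr ⟨_, Subgroup.mul_mem_sup hA' hs, ?_⟩
  apply gl_ext
  intro x
  show ((P * (Matrix.GeneralLinearGroup.map (F₀.subtype : F₀ →+* F) A' * s) * P⁻¹ :
    Matrix.GeneralLinearGroup (Fin n) F) : Matrix (Fin n) (Fin n) F) *ᵥ x = _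
  rw [Units.val_mul, Units.val_mul, Units.val_mul, ← Matrix.mulVec_mulVec, ← Matrix.mulVec_mulVec,
    ← Matrix.mulVec_mulVec, hcoes, hcoeA, hAx, Matrix.mulVec_smul, Matrix.mulVec_smul,
    gl_inv_mulVec P x, Matrix.mulVec_smul, gl_inv_mulVec P, smul_smul, inv_mul_cancel₀ hl,
    one_smul]

omit φ in
/-- elements of the subfield subgroup map the structure into a scalar multiple of itself -/
theorem conv (h : Matrix.GeneralLinearGroup (Fin n) F)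
    (hh : h ∈ Cfsg.Geo.subfieldSubgroup F₀ P) (x : Fin n → F) (hx : V0 F₀ P x) :
    ∃ (l : F) (w : Fin n → F), V0 F₀ P w ∧ (h : Matrix (Fin n) (Fin n) F) *ᵥ x = l • w := by
  classical
  obtain ⟨a, ha, rfl⟩ := Subgroup.mem_map.mp hh
  obtain ⟨T, hT⟩ : ∃ T : Set (Fin n → F),
      T = {v | ∃ (l : F) (u : Fin n → F), (∀ i, u i ∈ F₀) ∧ v = l • u} := ⟨_, rfl⟩
  have hstab : ∀ K : Subgroup (Matrix.GeneralLinearGroup (Fin n) F),
      (∀ b ∈ K, ∀ v ∈ T, (b : Matrix (Fin n) (Fin n) F) *ᵥ v ∈ T) →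
      K ≤ Cfsg.stabilizing (Cfsg.glToMat (Fin n) F) T := by
    intro K hK b hb v
    show v ∈ T ↔ (b : Matrix (Fin n) (Fin n) F) *ᵥ v ∈ T
    refine ⟨hK b hb v, fun hv => ?_⟩
    have := hK b⁻¹ (K.inv_mem hb) _ hv
    rwa [gl_inv_mulVec'] at this
  have h1 : (Matrix.GeneralLinearGroup.map (F₀.subtype : F₀ →+* F)).range ≤
      Cfsg.stabilizing (Cfsg.glToMat (Fin n) F) T := by
    apply hstab
    rintro b ⟨b₀, rfl⟩ v hv
    rw [hT] at hv ⊢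
    obtain ⟨l, u, hu, rfl⟩ := hv
    refine ⟨l, (Matrix.GeneralLinearGroup.map (F₀.subtype : F₀ →+* F) b₀ :
      Matrix (Fin n) (Fin n) F) *ᵥ u, fun i => ?_, by rw [Matrix.mulVec_smul]⟩
    rw [Matrix.mulVec, dotProduct]
    refine F₀.sum_mem (fun j _ => F₀.mul_mem ?_ (hu j))
    rw [Matrix.GeneralLinearGroup.map_apply]
    exact (b₀ i j).2
  have h2 : Cfsg.Geo.scalars (Fin n) F ≤ Cfsg.stabilizing (Cfsg.glToMat (Fin n) F) T := by
    apply hstab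
    intro b hb v hv
    obtain ⟨c, hc⟩ := (Cfsg.Geo.mem_scalars_iff b).mp hb
    rw [hT] at hv ⊢
    obtain ⟨l, u, hu, rfl⟩ := hv
    refine ⟨c * l, u, hu, ?_⟩
    rw [hc, Matrix.smul_mulVec, Matrix.one_mulVec, smul_smul]
  have ha' := (sup_le h1 h2) ha
  obtain ⟨u, hu, rfl⟩ := hx
  have h3 : u ∈ T := by
    rw [hT]
    exact ⟨1, u, hu, by rw [one_smul]⟩
  have h4 : (a : Matrix (Fin n) (Fin n) F) *ᵥ u ∈ T := (ha' u).mp h3
  rw [hT] at h4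
  obtain ⟨l, u', hu', h5⟩ := h4
  refine ⟨l, (P : Matrix (Fin n) (Fin n) F) *ᵥ u', ⟨u', hu', rfl⟩, ?_⟩
  show ((P * a * P⁻¹ : Matrix.GeneralLinearGroup (Fin n) F) : Matrix (Fin n) (Fin n) F) *ᵥ _ = _
  rw [Units.val_mul, Units.val_mul, ← Matrix.mulVec_mulVec, ← Matrix.mulVec_mulVec,
    gl_inv_mulVec' P u, h5, Matrix.mulVec_smul]

include hF1 hF2 hφ2 hφq hζ0 hζ hB0 hBxx in
theorem tv_V0 {u z : Fin n → F} (hu : V0 F₀ P u) (hz : V0 F₀ P z) (c : F) (hc : φ c = -c) :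
    V0 F₀ P (((tv q u c : Matrix.GeneralLinearGroup (Fin n) F) :
      Matrix (Fin n) (Fin n) F) *ᵥ z) := by
  rw [tv_mulVec φ hφq hφ2 u c (hBxx u hu) hc]
  exact V0_add F₀ P hz (V0_smul F₀ P _ (K1 F₀ P φ hF1 hF2 ζ hζ0 hζ hB0 hu hz c hc) hu)

include hF1 hF2 hφ2 hφq hζ0 hζ hB0 hBxx in
theorem tv_H {u : Fin n → F} (hu : V0 F₀ P u) (c : F) (hc : φ c = -c) :
    tv q u c ∈ Cfsg.Geo.subfieldSubgroup F₀ P ⊓
      (Cfsg.GU n F q ⊓ Cfsg.Geo.specialLinear (Fin n) F) :=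
  ⟨crit F₀ P _ 1 one_ne_zero (fun x hx =>
      ⟨_, tv_V0 F₀ P φ hF1 hF2 hφ2 hφq ζ hζ0 hζ hB0 hBxx hu hx c hc, by rw [one_smul]⟩),
    tv_mem φ hφq hφ2 u c (hBxx u hu) hc⟩

include hF1 hF2 hφ2 hφq hζ0 hζ hB0 hBxx in
theorem step {x x' : Fin n → F} (hx : V0 F₀ P x) (hx' : V0 F₀ P x') (hB : B x' x ≠ 0) :
    ∃ h : Matrix.GeneralLinearGroup (Fin n) F,
      h ∈ Cfsg.Geo.subfieldSubgroup F₀ P ⊓
        (Cfsg.GU n F q ⊓ Cfsg.Geo.specialLinear (Fin n) F) ∧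
      (∀ z, V0 F₀ P z → V0 F₀ P ((h : Matrix (Fin n) (Fin n) F) *ᵥ z)) ∧
      (h : Matrix (Fin n) (Fin n) F) *ᵥ x = x' ∧
      ∀ w, B x w = 0 → B x' w = 0 → (h : Matrix (Fin n) (Fin n) F) *ᵥ w = w := by
  have hu : V0 F₀ P (x' - x) := V0_sub F₀ P hx' hx
  have hc : φ (B x' x)⁻¹ = -(B x' x)⁻¹ := inv_skew F₀ P φ hF1 ζ hζ0 hζ hB0 hx' hx
  refine ⟨tv q (x' - x) (B x' x)⁻¹, tv_H F₀ P φ hF1 hF2 hφ2 hφq ζ hζ0 hζ hB0 hBxx hu _ hc,
    fun z hz => tv_V0 F₀ P φ hF1 hF2 hφ2 hφq ζ hζ0 hζ hB0 hBxx hu hz _ hc, ?_, ?_⟩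
  · rw [tv_mulVec φ hφq hφ2 _ _ (hBxx _ hu) hc, map_sub, LinearMap.sub_apply, hBxx x hx, sub_zero,
      inv_mul_cancel₀ hB, one_smul]
    abel
  · intro w h1 h2
    rw [tv_mulVec φ hφq hφ2 _ _ (hBxx _ hu) hc, map_sub, LinearMap.sub_apply, h1, h2, sub_zero,
      mul_zero, zero_smul, add_zero]

include hF1 hF2 hφ2 hθ hφq hζ0 hζ hB0 hBxx in
theorem trans1 {x x' : Fin n → F} (hx : V0 F₀ P x) (hx' : V0 F₀ P x') (hx0 : x ≠ 0)
    (hx'0 : x' ≠ 0) :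
    ∃ h : Matrix.GeneralLinearGroup (Fin n) F,
      h ∈ Cfsg.Geo.subfieldSubgroup F₀ P ⊓
        (Cfsg.GU n F q ⊓ Cfsg.Geo.specialLinear (Fin n) F) ∧
      (∀ z, V0 F₀ P z → V0 F₀ P ((h : Matrix (Fin n) (Fin n) F) *ᵥ z)) ∧
      (h : Matrix (Fin n) (Fin n) F) *ᵥ x = x' := by
  by_cases hB : B x' x = 0
  · obtain ⟨z₁, hz₁, h1⟩ := nondeg0 F₀ P φ hF2 hφ2 θ hθ hx0
    obtain ⟨z₂, hz₂, h2⟩ := nondeg0 F₀ P φ hF2 hφ2 θ hθ hx'0
    obtain ⟨z, hz, hxz, hx'z⟩ : ∃ z, V0 F₀ P z ∧ B x z ≠ 0 ∧ B x' z ≠ 0 := by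
      by_cases c1 : B x' z₁ = 0
      · by_cases c2 : B x z₂ = 0
        · exact ⟨z₁ + z₂, V0_add F₀ P hz₁ hz₂, by rw [map_add, c2, add_zero]; exact h1,
            by rw [map_add, c1, zero_add]; exact h2⟩
        · exact ⟨z₂, hz₂, c2, h2⟩
      · exact ⟨z₁, hz₁, h1, c1⟩
    have hzx : B z x ≠ 0 := by
      rw [Banti F₀ P φ hF1 hφ2 ζ hζ0 hζ hB0 hx hz]
      exact neg_ne_zero.mpr hxz
    obtain ⟨h₁, hh₁, hg₁, e₁, -⟩ := step F₀ P φ hF1 hF2 hφ2 hφq ζ hζ0 hζ hB0 hBxx hx hz hzx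
    obtain ⟨h₂, hh₂, hg₂, e₂, -⟩ := step F₀ P φ hF1 hF2 hφ2 hφq ζ hζ0 hζ hB0 hBxx hz hx' hx'z
    refine ⟨h₂ * h₁, Subgroup.mul_mem _ hh₂ hh₁, fun w hw => ?_, ?_⟩
    · rw [Units.val_mul, ← Matrix.mulVec_mulVec]
      exact hg₂ _ (hg₁ w hw)
    · rw [Units.val_mul, ← Matrix.mulVec_mulVec, e₁, e₂]
  · obtain ⟨h, hh, hg, e, -⟩ := step F₀ P φ hF1 hF2 hφ2 hφq ζ hζ0 hζ hB0 hBxx hx hx' hB
    exact ⟨h, hh, hg, e⟩

include hF1 hF2 hφ2 hθ hφq hζ0 hζ hB0 hBxx in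
theorem trans2 {x y y' : Fin n → F} (hx : V0 F₀ P x) (hx0 : x ≠ 0) (hy : V0 F₀ P y)
    (hy' : V0 F₀ P y') (hxy : B x y = 0) (hxy' : B x y' = 0)
    (hind : ∀ r ∈ F₀, y ≠ r • x) (hind' : ∀ r ∈ F₀, y' ≠ r • x) :
    ∃ h : Matrix.GeneralLinearGroup (Fin n) F,
      h ∈ Cfsg.Geo.subfieldSubgroup F₀ P ⊓
        (Cfsg.GU n F q ⊓ Cfsg.Geo.specialLinear (Fin n) F) ∧
      (∀ z, V0 F₀ P z → V0 F₀ P ((h : Matrix (Fin n) (Fin n) F) *ᵥ z)) ∧
      (h : Matrix (Fin n) (Fin n) F) *ᵥ x = x ∧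
      (h : Matrix (Fin n) (Fin n) F) *ᵥ y = y' := by
  have hyx : B y x = 0 := by rw [Banti F₀ P φ hF1 hφ2 ζ hζ0 hζ hB0 hx hy, hxy, neg_zero]
  have hy'x : B y' x = 0 := by rw [Banti F₀ P φ hF1 hφ2 ζ hζ0 hζ hB0 hx hy', hxy', neg_zero]
  by_cases hB : B y' y = 0
  · obtain ⟨z₁, hz₁, h1a, h1b⟩ := indep F₀ P φ hF1 hF2 hφ2 θ hθ ζ hζ0 hζ hB0 hx hx0 hy hind
    obtain ⟨z₂, hz₂, h2a, h2b⟩ := indep F₀ P φ hF1 hF2 hφ2 θ hθ ζ hζ0 hζ hB0 hx hx0 hy' hind'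
    obtain ⟨z, hz, hxz, hyz, hy'z⟩ : ∃ z, V0 F₀ P z ∧ B x z = 0 ∧ B y z ≠ 0 ∧ B y' z ≠ 0 := by
      by_cases c1 : B y' z₁ = 0
      · by_cases c2 : B y z₂ = 0
        · exact ⟨z₁ + z₂, V0_add F₀ P hz₁ hz₂, by rw [map_add, h1a, h2a, add_zero],
            by rw [map_add, c2, add_zero]; exact h1b, by rw [map_add, c1, zero_add]; exact h2b⟩
        · exact ⟨z₂, hz₂, h2a, c2, h2b⟩
      · exact ⟨z₁, hz₁, h1a, h1b, c1⟩
    have hzy : B z y ≠ 0 := by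
      rw [Banti F₀ P φ hF1 hφ2 ζ hζ0 hζ hB0 hy hz]
      exact neg_ne_zero.mpr hyz
    have hzx : B z x = 0 := by rw [Banti F₀ P φ hF1 hφ2 ζ hζ0 hζ hB0 hx hz, hxz, neg_zero]
    obtain ⟨h₁, hh₁, hg₁, e₁, f₁⟩ := step F₀ P φ hF1 hF2 hφ2 hφq ζ hζ0 hζ hB0 hBxx hy hz hzy
    obtain ⟨h₂, hh₂, hg₂, e₂, f₂⟩ := step F₀ P φ hF1 hF2 hφ2 hφq ζ hζ0 hζ hB0 hBxx hz hy' hy'z
    refine ⟨h₂ * h₁, Subgroup.mul_mem _ hh₂ hh₁, fun w hw => ?_, ?_, ?_⟩
    · rw [Units.val_mul, ← Matrix.mulVec_mulVec]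
      exact hg₂ _ (hg₁ w hw)
    · rw [Units.val_mul, ← Matrix.mulVec_mulVec, f₁ x hyx hzx, f₂ x hzx hy'x]
    · rw [Units.val_mul, ← Matrix.mulVec_mulVec, e₁, e₂]
  · obtain ⟨h, hh, hg, e, f⟩ := step F₀ P φ hF1 hF2 hφ2 hφq ζ hζ0 hζ hB0 hBxx hy hy' hB
    exact ⟨h, hh, hg, f x hyx hy'x, e⟩

include hF1 hF2 hφ2 hθ in
/-- a linear map sending the structure into the union of its scalar multiples sends it into one
of them -/
theorem proj_arg (hn : 0 < n) (g : Matrix.GeneralLinearGroup (Fin n) F)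
    (hg : ∀ x, V0 F₀ P x → ∃ (l : F) (w : Fin n → F), V0 F₀ P w ∧
      (g : Matrix (Fin n) (Fin n) F) *ᵥ x = l • w) :
    ∃ l : F, l ≠ 0 ∧ ∀ x, V0 F₀ P x → ∃ w, V0 F₀ P w ∧
      (g : Matrix (Fin n) (Fin n) F) *ᵥ x = l • w := by
  obtain ⟨p, hp, hp0⟩ := V0_exists_ne F₀ P hn
  obtain ⟨l, w₁, hw₁, hgp⟩ := hg p hp
  have hg0 : ∀ x : Fin n → F, x ≠ 0 → (g : Matrix (Fin n) (Fin n) F) *ᵥ x ≠ 0 := by
    intro x hx0 h
    apply hx0
    apply gl_inj g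
    show (g : Matrix (Fin n) (Fin n) F) *ᵥ x = (g : Matrix (Fin n) (Fin n) F) *ᵥ 0
    rw [h, Matrix.mulVec_zero]
  have hgp0 := hg0 p hp0
  have hl0 : l ≠ 0 := by
    rintro rfl
    rw [zero_smul] at hgp
    exact hgp0 hgp
  have hw₁0 : w₁ ≠ 0 := by
    rintro rfl
    rw [smul_zero] at hgp
    exact hgp0 hgp
  refine ⟨l, hl0, fun x hx => ?_⟩
  by_cases hxp : ∃ κ : F, x = κ • p
  · obtain ⟨κ, rfl⟩ := hxp
    have hκ := scal F₀ P φ hF1 hF2 hφ2 θ hθ hx hp hp0 κ rfl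
    exact ⟨κ • w₁, V0_smul F₀ P κ hκ hw₁, by
      rw [Matrix.mulVec_smul, hgp, smul_smul, smul_smul, mul_comm]⟩
  · push Not at hxp
    obtain ⟨μ, w, hw, hgx⟩ := hg x hx
    obtain ⟨ν, z, hz, hgs⟩ := hg (p + x) (V0_add F₀ P hp hx)
    have hx0 : x ≠ 0 := by
      rintro rfl
      exact hxp 0 (by rw [zero_smul])
    have hgx0 := hg0 x hx0
    have hw0 : w ≠ 0 := by
      rintro rfl
      rw [smul_zero] at hgx
      exact hgx0 hgx
    have h1 : l • w₁ + μ • w = ν • z := by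
      rw [← hgp, ← hgx, ← Matrix.mulVec_add, hgs]
    obtain ⟨a, b, ha, hb, hab⟩ := field_decomp F₀ φ hF2 hφ2 θ hθ (μ / l)
    obtain ⟨c, d, hc, hd, hcd⟩ := field_decomp F₀ φ hF2 hφ2 θ hθ (ν / l)
    have h2 : (w₁ + a • w) + θ • (b • w) = (c • z) + θ • (d • z) := by
      have h3 : w₁ + (μ / l) • w = (ν / l) • z := by
        have h4 := congrArg (fun v => l⁻¹ • v) h1
        simp only [smul_add, smul_smul] at h4
        rw [inv_mul_cancel₀ hl0, one_smul] at h4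
        rw [div_eq_inv_mul, div_eq_inv_mul]
        exact h4
      rw [hab, hcd] at h3
      rw [add_smul, add_smul, mul_smul, mul_smul] at h3
      rw [add_assoc]
      exact h3
    obtain ⟨e1, e2⟩ := decomp_unique F₀ P φ hF1 θ hθ (V0_add F₀ P hw₁ (V0_smul F₀ P a ha hw))
      (V0_smul F₀ P b hb hw) (V0_smul F₀ P c hc hz) (V0_smul F₀ P d hd hz) h2
    by_cases hb0 : b = 0
    · refine ⟨a • w, V0_smul F₀ P a ha hw, ?_⟩
      rw [hgx, smul_smul]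
      congr 1
      rw [hb0, mul_zero, add_zero] at hab
      rw [← hab]
      field_simp
    · exfalso
      have hd0 : d ≠ 0 := by
        rintro rfl
        rw [zero_smul] at e2
        exact hw0 ((smul_eq_zero.mp e2).resolve_left hb0)
      have hzw : z = (b / d) • w := by
        rw [div_eq_inv_mul, mul_smul, e2, smul_smul, inv_mul_cancel₀ hd0, one_smul]
      have hw₁w : w₁ = (c * (b / d) - a) • w := by
        have h5 : w₁ = c • z - a • w := eq_sub_of_add_eq e1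
        rw [h5, hzw, smul_smul, sub_smul]
      have ht0 : c * (b / d) - a ≠ 0 := by
        intro h0
        rw [h0, zero_smul] at hw₁w
        exact hw₁0 hw₁w
      have hμ0 : μ ≠ 0 := by
        rintro rfl
        rw [zero_smul] at hgx
        exact hgx0 hgx
      apply hxp (μ / (l * (c * (b / d) - a)))
      apply gl_inj g
      show (g : Matrix (Fin n) (Fin n) F) *ᵥ x = (g : Matrix (Fin n) (Fin n) F) *ᵥ
        ((μ / (l * (c * (b / d) - a))) • p)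
      rw [Matrix.mulVec_smul, hgp, hgx, hw₁w, smul_smul, smul_smul]
      congr 1
      have hlt : l * (c * (b / d) - a) ≠ 0 := mul_ne_zero hl0 ht0
      rw [mul_assoc, div_mul_cancel₀ _ hlt]

include hF1 hF2 hζ0 hζ hB0 in
theorem exists_pair (hn : 3 ≤ n) : ∃ a b, V0 F₀ P a ∧ V0 F₀ P b ∧ b ≠ 0 ∧ B b a = 0 ∧
    ∀ r ∈ F₀, a ≠ r • b := by
  classical
  obtain ⟨e, he⟩ : ∃ e : Fin n → Fin n → F, e = fun i => Pi.single i 1 := ⟨_, rfl⟩
  have hee : ∀ i j, e i j = if j = i then 1 else 0 := by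
    intro i j
    rw [he]
    show (Pi.single i (1 : F) : Fin n → F) j = _
    rw [Pi.single_apply]
  have heV : ∀ i, V0 F₀ P ((P : Matrix (Fin n) (Fin n) F) *ᵥ e i) := fun i => ⟨e i, fun j => by
    rw [hee]
    split_ifs
    · exact F₀.one_mem
    · exact F₀.zero_mem, rfl⟩
  obtain ⟨i0, hi0⟩ : ∃ i : Fin n, i = ⟨0, by omega⟩ := ⟨_, rfl⟩
  obtain ⟨i1, hi1⟩ : ∃ i : Fin n, i = ⟨1, by omega⟩ := ⟨_, rfl⟩
  obtain ⟨i2, hi2⟩ : ∃ i : Fin n, i = ⟨2, by omega⟩ := ⟨_, rfl⟩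
  have h01 : i1 ≠ i0 := by rw [hi0, hi1]; simp
  have h02 : i2 ≠ i0 := by rw [hi0, hi2]; simp
  have h12 : i2 ≠ i1 := by rw [hi1, hi2]; simp
  have key : ∀ u u' : Fin n → F, (P : Matrix (Fin n) (Fin n) F) *ᵥ u =
      (P : Matrix (Fin n) (Fin n) F) *ᵥ u' → u = u' := fun u u' h => gl_inj P h
  have hb0 : (P : Matrix (Fin n) (Fin n) F) *ᵥ e i0 ≠ 0 := by
    intro h
    have h1 := congrFun (key (e i0) 0 (by rw [h, Matrix.mulVec_zero])) i0
    rw [hee, if_pos rfl, Pi.zero_apply] at h1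
    exact one_ne_zero h1
  by_cases h1 : B ((P : Matrix (Fin n) (Fin n) F) *ᵥ e i0)
      ((P : Matrix (Fin n) (Fin n) F) *ᵥ e i1) = 0
  · refine ⟨_, _, heV i1, heV i0, hb0, h1, ?_⟩
    intro r _ h
    have h2 := congrFun (key (e i1) (r • e i0) (by rw [Matrix.mulVec_smul]; exact h)) i1
    rw [hee, if_pos rfl, Pi.smul_apply, hee, if_neg h01, smul_zero] at h2
    exact one_ne_zero h2
  · have hκ := ratio F₀ P φ hF1 hF2 ζ hζ0 hζ hB0 (heV i0) (heV i2) (heV i0) (heV i1)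
    refine ⟨(P : Matrix (Fin n) (Fin n) F) *ᵥ e i2 -
      (B ((P : Matrix (Fin n) (Fin n) F) *ᵥ e i0) ((P : Matrix (Fin n) (Fin n) F) *ᵥ e i2) /
        B ((P : Matrix (Fin n) (Fin n) F) *ᵥ e i0) ((P : Matrix (Fin n) (Fin n) F) *ᵥ e i1)) •
        (P : Matrix (Fin n) (Fin n) F) *ᵥ e i1, _,
      V0_sub F₀ P (heV i2) (V0_smul F₀ P _ hκ (heV i1)), heV i0, hb0, ?_, ?_⟩
    · rw [map_sub, map_smul, smul_eq_mul, div_mul_cancel₀ _ h1, sub_self]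
    · intro r _ h
      have h2 := congrFun (key (e i2 - (B ((P : Matrix (Fin n) (Fin n) F) *ᵥ e i0)
        ((P : Matrix (Fin n) (Fin n) F) *ᵥ e i2) / B ((P : Matrix (Fin n) (Fin n) F) *ᵥ e i0)
          ((P : Matrix (Fin n) (Fin n) F) *ᵥ e i1)) • e i1) (r • e i0) (by
            rw [Matrix.mulVec_smul, Matrix.mulVec_sub, Matrix.mulVec_smul]; exact h)) i2
      rw [Pi.sub_apply, Pi.smul_apply, hee, if_pos rfl, hee, if_neg h12, smul_zero, sub_zero,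
        Pi.smul_apply, hee, if_neg h02, smul_zero] at h2
      exact one_ne_zero h2

end lib

/-- Let F be the field with q² elements, n ≥ 13 even, and F₀ the subfield with q elements. Let ζ be a non-zero element with ζ + ζ^q = 0 and P an invertible matrix such that ζ times the standard unitary form takes values in F₀ on the F₀-span of the columns of P and the form vanishes on every pair (u, u) of that span (so ζ times the form restricts to a non-degenerate alternating form there). Then the elements of SU_n(q) lying in the subfield group of P form a maximal subgroup of SU_n(q). -/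
theorem result {F : Type*} [Field F] [Fintype F] (n q : ℕ) (hF : Fintype.card F = q ^ 2) (hn : 13 ≤ n) (heven : Even n) (F₀ : Subfield F) (hcard : Fintype.card F = Nat.card F₀ ^ 2) (ζ : F) (hζ0 : ζ ≠ 0) (hζ : ζ + ζ ^ q = 0) (P : Matrix.GeneralLinearGroup (Fin n) F) (hP : Cfsg.Geo.IsFormRationalStructure (Cfsg.hermForm n F q) F₀ ζ P) (halt : ∀ u : Fin n → F, (∀ i, u i ∈ F₀) → Cfsg.hermForm n F q (Matrix.mulVec (P : Matrix (Fin n) (Fin n) F) u) (Matrix.mulVec (P : Matrix (Fin n) (Fin n) F) u) = 0) : Cfsg.Geo.IsMaximalIn (Cfsg.GU n F q ⊓ Cfsg.Geo.specialLinear (Fin n) F) (Cfsg.Geo.subfieldSubgroup F₀ P ⊓ (Cfsg.GU n F q ⊓ Cfsg.Geo.specialLinear (Fin n) F)) := by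
  classical
  obtain ⟨φ, hφq, hφ2⟩ := Cfsg.Agent.S0779.exists_frob hF
  have hφ := Cfsg.Agent.S0829.phi_ne_id hF φ hφq
  have hq2 : 2 ≤ q := Cfsg.Agent.S0829.two_le_q hF
  have : Fintype F₀ := Fintype.ofFinite F₀
  have hq : Fintype.card F₀ = q := by
    have h1 : Nat.card F₀ ^ 2 = q ^ 2 := by rw [← hcard, hF]
    have h2 : Nat.card F₀ = q := Nat.pow_left_injective (by norm_num : 2 ≠ 0) h1
    rw [← h2, Nat.card_eq_fintype_card]
  have hF1 : ∀ a ∈ F₀, φ a = a := by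
    intro a ha
    rw [hφq]
    have h1 := FiniteField.pow_card (⟨a, ha⟩ : F₀)
    rw [hq] at h1
    have h2 := congrArg (fun x : F₀ => (x : F)) h1
    simpa using h2
  have hF2 : ∀ a, φ a = a → a ∈ F₀ := by
    intro a ha
    obtain ⟨p, hp⟩ : ∃ p : Polynomial F, p = Polynomial.X ^ q - Polynomial.X := ⟨_, rfl⟩
    have hp0 : p ≠ 0 := by
      rw [hp]
      exact FiniteField.X_pow_card_sub_X_ne_zero F (by omega)
    have hdeg : p.natDegree = q := by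
      rw [hp]
      exact FiniteField.X_pow_card_sub_X_natDegree_eq F (by omega)
    have hroot : ∀ b : F, φ b = b → b ∈ p.roots.toFinset := by
      intro b hb
      rw [Multiset.mem_toFinset, Polynomial.mem_roots hp0, Polynomial.IsRoot.def, hp]
      simp only [Polynomial.eval_sub, Polynomial.eval_pow, Polynomial.eval_X]
      rw [← hφq, hb, sub_self]
    have hsub : (Finset.univ : Finset F₀).image (fun x : F₀ => (x : F)) ⊆ p.roots.toFinset := by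
      intro x hx
      obtain ⟨y, -, rfl⟩ := Finset.mem_image.mp hx
      exact hroot _ (hF1 _ y.2)
    have hcardim : ((Finset.univ : Finset F₀).image (fun x : F₀ => (x : F))).card = q := by
      rw [Finset.card_image_of_injective _ Subtype.val_injective, Finset.card_univ, hq]
    have hle : p.roots.toFinset.card ≤ q :=
      calc p.roots.toFinset.card ≤ Multiset.card p.roots := Multiset.toFinset_card_le _
        _ ≤ p.natDegree := Polynomial.card_roots' p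
        _ = q := hdeg
    have heq := Finset.eq_of_subset_of_card_le hsub (by rw [hcardim]; exact hle)
    have ha' := hroot a ha
    rw [← heq] at ha'
    obtain ⟨y, -, rfl⟩ := Finset.mem_image.mp ha'
    exact y.2
  obtain ⟨θ, hθ⟩ := Cfsg.Agent.S0780.exists_moved φ hφ
  have hζ' : φ ζ = -ζ := by
    rw [hφq]
    linear_combination hζ
  have hB0 : ∀ x y, V0 F₀ P x → V0 F₀ P y → ζ * Bh φ n x y ∈ F₀ := by
    rintro x y ⟨u, hu, rfl⟩ ⟨v, hv, rfl⟩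
    have := hP v u hv hu
    rwa [herm_B φ hφq] at this
  have hBxx : ∀ x, V0 F₀ P x → Bh φ n x x = 0 := by
    rintro x ⟨u, hu, rfl⟩
    have := halt u hu
    rwa [herm_B φ hφq] at this
  have hiso : ∀ x y, V0 F₀ P x → V0 F₀ P y →
      (Bh φ n (x + θ • y) (x + θ • y) = 0 ↔ Bh φ n x y = 0) := by
    intro x y hx hy
    have hyx := Banti F₀ P φ hF1 hφ2 ζ hζ0 hζ' hB0 hx hy
    have e : Bh φ n (x + θ • y) (x + θ • y) = (θ - φ θ) * Bh φ n x y := by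
      simp only [map_add, LinearMap.add_apply, LinearMap.map_smulₛₗ, LinearMap.smul_apply,
        map_smul, smul_eq_mul, hBxx x hx, hBxx y hy, hyx]
      ring
    rw [e]
    constructor
    · intro h
      exact (mul_eq_zero.mp h).resolve_left (sub_ne_zero.mpr (Ne.symm hθ))
    · intro h
      rw [h, mul_zero]
  refine ⟨lt_of_le_of_ne inf_le_right ?_, ?_⟩
  · intro heq
    obtain ⟨a, b, ha, hb, hb0, hba, hind⟩ :=
      exists_pair F₀ P φ hF1 hF2 ζ hζ0 hζ' hB0 (by omega : 3 ≤ n)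
    obtain ⟨x, hx, hbx, hax⟩ := indep F₀ P φ hF1 hF2 hφ2 θ hθ ζ hζ0 hζ' hB0 hb hb0 ha hind
    have hab : Bh φ n a b = 0 := by
      rw [Banti F₀ P φ hF1 hφ2 ζ hζ0 hζ' hB0 hb ha, hba, neg_zero]
    have hv : Bh φ n (a + θ • b) (a + θ • b) = 0 := (hiso a b ha hb).mpr hab
    have hc := inv_skew F₀ P φ hF1 ζ hζ0 hζ' hB0 ha hx
    have ht : tv q (a + θ • b) (Bh φ n a x)⁻¹ ∈ Cfsg.Geo.subfieldSubgroup F₀ P ⊓
        (Cfsg.GU n F q ⊓ Cfsg.Geo.specialLinear (Fin n) F) := by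
      rw [heq]
      exact tv_mem φ hφq hφ2 _ _ hv hc
    obtain ⟨l, w, hw, hlw⟩ := conv F₀ P _ ht.1 x hx
    rw [tv_mulVec φ hφq hφ2 _ _ hv hc] at hlw
    have hBvx : Bh φ n (a + θ • b) x = Bh φ n a x := by
      rw [map_add, LinearMap.add_apply, LinearMap.map_smulₛₗ, LinearMap.smul_apply, hbx,
        smul_zero, add_zero]
    rw [hBvx, inv_mul_cancel₀ hax, one_smul] at hlw
    obtain ⟨r, s, hr, hs, rfl⟩ := field_decomp F₀ φ hF2 hφ2 θ hθ l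
    have h2 : (x + a) + θ • b = r • w + θ • (s • w) := by
      rw [add_smul, mul_smul] at hlw
      rw [add_assoc]
      exact hlw
    obtain ⟨e1, e2⟩ := decomp_unique F₀ P φ hF1 θ hθ (V0_add F₀ P hx ha) hb
      (V0_smul F₀ P r hr hw) (V0_smul F₀ P s hs hw) h2
    have hs0 : s ≠ 0 := by
      rintro rfl
      rw [zero_smul] at e2
      exact hb0 e2
    have hw' : w = s⁻¹ • b := by
      rw [e2, smul_smul, inv_mul_cancel₀ hs0, one_smul]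
    apply hax
    have h3 : Bh φ n a (x + a) = 0 := by
      rw [e1, hw', smul_smul, map_smul, hab, smul_zero]
    rw [map_add, hBxx a ha, add_zero] at h3
    exact h3
  · intro M hHM hMK
    have hVS : ∀ x, V0 F₀ P x → x ∈ Sset φ q M := fun x hx =>
      ⟨hBxx x hx, fun c hc => hHM (tv_H F₀ P φ hF1 hF2 hφ2 hφq ζ hζ0 hζ' hB0 hBxx hx c hc)⟩
    by_cases hcase : ∀ v ∈ Sset φ q M, ∃ (l : F) (w : Fin n → F), V0 F₀ P w ∧ v = l • w
    · left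
      apply le_antisymm _ hHM
      intro g hg
      refine ⟨?_, hMK hg⟩
      have h1 : ∀ x, V0 F₀ P x → ∃ (l : F) (w : Fin n → F), V0 F₀ P w ∧
          (g : Matrix (Fin n) (Fin n) F) *ᵥ x = l • w :=
        fun x hx => hcase _ (Sset_gl φ hφq hφ2 M hMK g hg x (hVS x hx))
      obtain ⟨l, hl0, h2⟩ := proj_arg F₀ P φ hF1 hF2 hφ2 θ hθ (by omega) g h1
      exact crit F₀ P g l hl0 h2
    · right
      push Not at hcase
      obtain ⟨v₀, hv₀S, hv₀⟩ := hcase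
      apply le_antisymm hMK
      apply gen φ hφq hφ2 hF (by omega) (by omega) M
      suffices hall : ∀ v, Bh φ n v v = 0 → v ∈ Sset φ q M from
        fun v c hv hc => (hall v hv).2 c hc
      obtain ⟨x₀, y₀, hx₀, hy₀, rfl⟩ := decomp_exists F₀ P φ hF2 hφ2 θ hθ v₀
      have hx₀y₀ := (hiso x₀ y₀ hx₀ hy₀).mp hv₀S.1
      have hx₀0 : x₀ ≠ 0 := by
        rintro rfl
        apply hv₀ θ y₀ hy₀
        rw [zero_add]
      have hind₀ : ∀ r ∈ F₀, y₀ ≠ r • x₀ := by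
        intro r hr h
        apply hv₀ (1 + θ * r) x₀ hx₀
        rw [h, add_smul, one_smul, mul_smul]
      intro v hv
      obtain ⟨x, y, hx, hy, rfl⟩ := decomp_exists F₀ P φ hF2 hφ2 θ hθ v
      have hxy := (hiso x y hx hy).mp hv
      by_cases hx0 : x = 0
      · rw [hx0, zero_add]
        exact Sset_smul φ hφq hφ2 M y (hVS y hy) θ
      by_cases hind : ∃ r ∈ F₀, y = r • x
      · obtain ⟨r, hr, rfl⟩ := hind
        have e : x + θ • r • x = (1 + θ * r) • x := by rw [add_smul, one_smul, mul_smul]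
        rw [e]
        exact Sset_smul φ hφq hφ2 M x (hVS x hx) _
      push Not at hind
      obtain ⟨h₁, hh₁, hg₁, e₁⟩ := trans1 F₀ P φ hF1 hF2 hφ2 θ hθ hφq ζ hζ0 hζ' hB0 hBxx
        hx₀ hx hx₀0 hx0
      have hy₁ := hg₁ y₀ hy₀
      have hM₁ : h₁ ∈ M := hHM hh₁
      have hgS₁ := (mem_G_iff φ hφq h₁).1 hh₁.2
      have hxy₁ : Bh φ n x ((h₁ : Matrix (Fin n) (Fin n) F) *ᵥ y₀) = 0 := by
        rw [← e₁, hgS₁.2]
        exact hx₀y₀
      have hind₁ : ∀ r ∈ F₀, (h₁ : Matrix (Fin n) (Fin n) F) *ᵥ y₀ ≠ r • x := by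
        intro r hr h
        apply hind₀ r hr
        apply gl_inj h₁
        show (h₁ : Matrix (Fin n) (Fin n) F) *ᵥ y₀ = (h₁ : Matrix (Fin n) (Fin n) F) *ᵥ (r • x₀)
        rw [Matrix.mulVec_smul, e₁]
        exact h
      obtain ⟨h₂, hh₂, hg₂, e₂, f₂⟩ := trans2 F₀ P φ hF1 hF2 hφ2 θ hθ hφq ζ hζ0 hζ' hB0 hBxx
        hx hx0 hy₁ hy hxy₁ hxy hind₁ hind
      have hM₂ : h₂ ∈ M := hHM hh₂
      have hfin := Sset_gl φ hφq hφ2 M hMK h₂ hM₂ _ (Sset_gl φ hφq hφ2 M hMK h₁ hM₁ _ hv₀S)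
      rwa [Matrix.mulVec_add, Matrix.mulVec_smul, e₁, Matrix.mulVec_add, Matrix.mulVec_smul, e₂,
        f₂] at hfin

end Cfsg.Agent.S5660
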