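import Mathlib
import Cfsg.Statements.S5659
import Cfsg.Agent.S5657
import Cfsg.Agent.S5660
import Cfsg.Agent.S5644

set_option autoImplicit false
open Cfsg

namespace Cfsg.Agent.S5659

open Matrix
open Cfsg.Agent.S0837 (Bh Bh_apply Bh_symm Bh_nondeg)
open Cfsg.Agent.S0780 (IsSUm)
open Cfsg.Agent.S0781 (EE EE_mulVec EE_isSUm EE_comm)
open Cfsg.Agent.S5653 (herm_B mem_G_iff toG toG_coe toG_mem tv tv_coe tv_mulVec tv_mem gl_ext
  gl_inv_mulVec gl_inv_mulVec' gl_inj Sset Sset_gl Sset_tv Sset_smul gen)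
open Cfsg.Agent.S5660 (V0 V0_zero V0_add V0_smul V0_neg V0_sub V0_exists_ne theta_indep
  field_decomp decomp_exists decomp_zero decomp_unique scal nondeg0 crit conv proj_arg)

section geom

variable {F : Type*} [Field F] {n : ℕ} (F₀ : Subfield F)
  (P : Matrix.GeneralLinearGroup (Fin n) F) (φ : F →+* F)

/-- coordinates of the structure -/
def emb (u : Fin n → F₀) : Fin n → F :=
  (P : Matrix (Fin n) (Fin n) F) *ᵥ (fun i => (u i : F))

theorem emb_V0 (u : Fin n → F₀) : V0 F₀ P (emb F₀ P u) := ⟨_, fun i => (u i).2, rfl⟩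

theorem V0_emb {x : Fin n → F} (hx : V0 F₀ P x) : ∃ u : Fin n → F₀, x = emb F₀ P u := by
  obtain ⟨u, hu, rfl⟩ := hx
  exact ⟨fun i => ⟨u i, hu i⟩, rfl⟩

theorem emb_add (u v : Fin n → F₀) : emb F₀ P (u + v) = emb F₀ P u + emb F₀ P v := by
  unfold emb
  rw [← Matrix.mulVec_add]
  congr 1

theorem emb_smul (c : F₀) (u : Fin n → F₀) : emb F₀ P (c • u) = (c : F) • emb F₀ P u := by
  unfold emb
  rw [← Matrix.mulVec_smul]
  congr 1

theorem emb_zero : emb F₀ P 0 = 0 := by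
  unfold emb
  have : (fun i => (((0 : Fin n → F₀) i : F₀) : F)) = 0 := by
    funext i
    simp
  rw [this, Matrix.mulVec_zero]

theorem emb_eq_zero {u : Fin n → F₀} (h : emb F₀ P u = 0) : u = 0 := by
  have h1 := gl_inv_mulVec' P (fun i => (u i : F))
  unfold emb at h
  rw [h, Matrix.mulVec_zero] at h1
  funext i
  apply Subtype.ext
  have := congrFun h1 i
  simpa using this.symm

theorem emb_sum {k : ℕ} (f : Fin k → F₀) (u : Fin k → (Fin n → F₀)) :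
    emb F₀ P (∑ i, f i • u i) = ∑ i, (f i : F) • emb F₀ P (u i) := by
  have h := map_sum (⟨⟨emb F₀ P, emb_zero F₀ P⟩, emb_add F₀ P⟩ : (Fin n → F₀) →+ (Fin n → F))
    (fun i => f i • u i) Finset.univ
  simp only [AddMonoidHom.coe_mk, ZeroHom.coe_mk] at h
  rw [h]
  exact Finset.sum_congr rfl (fun i _ => emb_smul F₀ P (f i) (u i))

variable (hF1 : ∀ a ∈ F₀, φ a = a) (hF2 : ∀ a, φ a = a → a ∈ F₀)
  (hφ2 : ∀ a : F, φ (φ a) = a) (θ : F) (hθ : φ θ = -θ) (hθ0 : θ ≠ 0) (h2 : (2 : F) ≠ 0)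
  (hB0 : ∀ x y, V0 F₀ P x → V0 F₀ P y → Bh φ n x y ∈ F₀)

local notation "B" => Bh φ n

include hφ2 in
theorem sw0 {x y : Fin n → F} (h : B x y = 0) : B y x = 0 := by
  rw [← (Bh_symm φ hφ2 n).eq x y, h, map_zero]

include hF1 hφ2 hB0 in
theorem Bsym {x y : Fin n → F} (hx : V0 F₀ P x) (hy : V0 F₀ P y) : B y x = B x y := by
  rw [← (Bh_symm φ hφ2 n).eq x y, hF1 _ (hB0 x y hx hy)]

include hθ hθ0 h2 in
theorem theta_ne : φ θ ≠ θ := by
  intro h
  rw [hθ] at h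
  apply hθ0
  have : (2 : F) * θ = 0 := by linear_combination -h
  exact (mul_eq_zero.mp this).resolve_left h2

open Classical in
/-- the quadratic form of the structure in coordinates -/
noncomputable def Q0 (u : Fin n → F₀) : F₀ :=
  if h : 2⁻¹ * Bh φ n (emb F₀ P u) (emb F₀ P u) ∈ F₀ then ⟨_, h⟩ else 0

include hB0 in
theorem Q0_coe (u : Fin n → F₀) :
    ((Q0 F₀ P φ u : F₀) : F) = 2⁻¹ * B (emb F₀ P u) (emb F₀ P u) := by
  have h : 2⁻¹ * B (emb F₀ P u) (emb F₀ P u) ∈ F₀ :=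
    F₀.mul_mem (F₀.inv_mem (by
      rw [← one_add_one_eq_two]
      exact F₀.add_mem F₀.one_mem F₀.one_mem))
      (hB0 _ _ (emb_V0 F₀ P u) (emb_V0 F₀ P u))
  rw [Q0, dif_pos h]

include hF1 hφ2 hB0 h2 in
theorem polar_coe (u v : Fin n → F₀) :
    ((QuadraticMap.polar (Q0 F₀ P φ) u v : F₀) : F) = B (emb F₀ P u) (emb F₀ P v) := by
  have hs := Bsym F₀ P φ hF1 hφ2 hB0 (emb_V0 F₀ P u) (emb_V0 F₀ P v)
  rw [QuadraticMap.polar]
  push_cast
  rw [Q0_coe F₀ P φ hB0, Q0_coe F₀ P φ hB0, Q0_coe F₀ P φ hB0, emb_add]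
  simp only [map_add, LinearMap.add_apply]
  rw [hs]
  field_simp
  ring

include hF1 hF2 hφ2 hθ hθ0 h2 hB0 in
theorem hQ0 : Geo.IsNondegenerateQuadraticForm (Q0 F₀ P φ) := by
  have hpc := polar_coe F₀ P φ hF1 hφ2 h2 hB0
  refine ⟨fun c v => ?_, ⟨?_, ?_, ?_, ?_⟩, fun v hv => ?_⟩
  · apply Subtype.ext
    push_cast
    rw [Q0_coe F₀ P φ hB0, Q0_coe F₀ P φ hB0, emb_smul]
    simp only [LinearMap.map_smulₛₗ, LinearMap.smul_apply, map_smul, smul_eq_mul, hF1 _ c.2]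
    ring
  · intro x y v
    apply Subtype.ext
    push_cast
    rw [hpc, hpc, hpc, emb_add, map_add, LinearMap.add_apply]
  · intro c x v
    apply Subtype.ext
    push_cast
    rw [hpc, hpc, emb_smul, LinearMap.map_smulₛₗ, LinearMap.smul_apply, hF1 _ c.2, smul_eq_mul]
  · intro v x y
    apply Subtype.ext
    push_cast
    rw [hpc, hpc, hpc, emb_add, map_add]
  · intro c v x
    apply Subtype.ext
    push_cast
    rw [hpc, hpc, emb_smul, map_smul, smul_eq_mul]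
  · have hne : emb F₀ P v ≠ 0 := fun h => hv (emb_eq_zero F₀ P h)
    obtain ⟨z, hz, hzne⟩ := nondeg0 F₀ P φ hF2 hφ2 θ (theta_ne φ θ hθ hθ0 h2) hne
    obtain ⟨w, rfl⟩ := V0_emb F₀ P hz
    refine ⟨⟨w, fun h => hzne ?_⟩, ⟨w, fun h => hzne ?_⟩⟩
    · have h1 := congrArg Subtype.val h
      rw [hpc] at h1
      rw [← Bsym F₀ P φ hF1 hφ2 hB0 (emb_V0 F₀ P v) (emb_V0 F₀ P w)]
      simpa using h1
    · have h1 := congrArg Subtype.val h
      rw [hpc] at h1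
      simpa using h1


include hF1 hφ2 h2 hB0 in
theorem BF_coe (hQ : Geo.IsNondegenerateQuadraticForm (Q0 F₀ P φ)) (u v : Fin n → F₀) :
    ((Cfsg.Agent.S5644.BF (Q0 F₀ P φ) hQ u v : F₀) : F) = B (emb F₀ P u) (emb F₀ P v) :=
  polar_coe F₀ P φ hF1 hφ2 h2 hB0 u v

variable [Fintype F₀] (hodd : Odd (Fintype.card F₀))

include hF1 hF2 hφ2 hθ hθ0 h2 hB0 hodd in
/-- a non-zero singular vector of the structure orthogonal to a family -/
theorem ex_sing {k : ℕ} (v : Fin k → (Fin n → F)) (hv : ∀ i, V0 F₀ P (v i)) (hk : k + 2 < n) :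
    ∃ s, V0 F₀ P s ∧ s ≠ 0 ∧ B s s = 0 ∧ ∀ i, B (v i) s = 0 := by
  have hQ := hQ0 F₀ P φ hF1 hF2 hφ2 θ hθ hθ0 h2 hB0
  choose u hu using fun i => V0_emb F₀ P (hv i)
  obtain ⟨s, hs0, hs, hperp⟩ := Cfsg.Agent.S5644.exists_sing (Q0 F₀ P φ) hQ hodd u hk
  refine ⟨emb F₀ P s, emb_V0 F₀ P s, fun h => hs0 (emb_eq_zero F₀ P h), ?_, fun i => ?_⟩
  · have h1 := congrArg Subtype.val hs
    rw [Q0_coe F₀ P φ hB0] at h1
    have h3 : (2 : F)⁻¹ ≠ 0 := inv_ne_zero h2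
    exact (mul_eq_zero.mp (by simpa using h1)).resolve_left h3
  · rw [hu i, ← BF_coe F₀ P φ hF1 hφ2 h2 hB0 hQ, hperp i]
    rfl

include hF1 hF2 hφ2 hθ hθ0 h2 hB0 in
/-- a non-singular vector of the structure orthogonal to a family -/
theorem ex_ns {k : ℕ} (v : Fin k → (Fin n → F)) (hv : ∀ i, V0 F₀ P (v i)) (hk : 2 * k < n) :
    ∃ s, V0 F₀ P s ∧ B s s ≠ 0 ∧ ∀ i, B (v i) s = 0 := by
  have hQ := hQ0 F₀ P φ hF1 hF2 hφ2 θ hθ hθ0 h2 hB0
  choose u hu using fun i => V0_emb F₀ P (hv i)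
  obtain ⟨s, hs, hperp⟩ := Cfsg.Agent.S5644.exists_ns (Q0 F₀ P φ) hQ u hk
  refine ⟨emb F₀ P s, emb_V0 F₀ P s, fun h => hs ?_, fun i => ?_⟩
  · apply Subtype.ext
    rw [Q0_coe F₀ P φ hB0, h, mul_zero]
    rfl
  · rw [hu i, ← BF_coe F₀ P φ hF1 hφ2 h2 hB0 hQ, hperp i]
    rfl

include hF1 hF2 hφ2 hθ hθ0 h2 hB0 hodd in
/-- a vector of the structure with prescribed norm orthogonal to a family -/
theorem ex_rep {k : ℕ} (v : Fin k → (Fin n → F)) (hv : ∀ i, V0 F₀ P (v i))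
    (hk : 2 * (k + 1) < n) (c : F) (hc : c ∈ F₀) :
    ∃ e, V0 F₀ P e ∧ B e e = c ∧ ∀ i, B (v i) e = 0 := by
  have hQ := hQ0 F₀ P φ hF1 hF2 hφ2 θ hθ hθ0 h2 hB0
  choose u hu using fun i => V0_emb F₀ P (hv i)
  have h2' : (2 : F)⁻¹ ∈ F₀ := F₀.inv_mem (by
    rw [← one_add_one_eq_two]
    exact F₀.add_mem F₀.one_mem F₀.one_mem)
  obtain ⟨e, he, hperp⟩ := Cfsg.Agent.S5644.exists_rep (Q0 F₀ P φ) hQ hodd u hk
    ⟨2⁻¹ * c, F₀.mul_mem h2' hc⟩
  refine ⟨emb F₀ P e, emb_V0 F₀ P e, ?_, fun i => ?_⟩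
  · have h1 := congrArg Subtype.val he
    rw [Q0_coe F₀ P φ hB0] at h1
    have h3 : (2 : F)⁻¹ ≠ 0 := inv_ne_zero h2
    exact mul_left_cancel₀ h3 h1
  · rw [hu i, ← BF_coe F₀ P φ hF1 hφ2 h2 hB0 hQ, hperp i]
    rfl

include hF1 hF2 hφ2 hθ hθ0 h2 hB0 in
/-- double orthogonal complement inside the structure -/
theorem dperp {k : ℕ} (c : Fin k → (Fin n → F)) (hc : ∀ i, V0 F₀ P (c i)) (p : Fin n → F)
    (hp : V0 F₀ P p)
    (h : ∀ y, V0 F₀ P y → (∀ i, B (c i) y = 0) → B p y = 0) :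
    ∃ f : Fin k → F, (∀ i, f i ∈ F₀) ∧ p = ∑ i, f i • c i := by
  have hQ := hQ0 F₀ P φ hF1 hF2 hφ2 θ hθ hθ0 h2 hB0
  choose u hu using fun i => V0_emb F₀ P (hc i)
  obtain ⟨w, rfl⟩ := V0_emb F₀ P hp
  have hrefl : (Cfsg.Agent.S5644.BF (Q0 F₀ P φ) hQ).IsRefl := by
    intro x y hxy
    rw [Cfsg.Agent.S5644.B_comm]
    exact hxy
  have hmem : w ∈ (Cfsg.Agent.S5644.BF (Q0 F₀ P φ) hQ).orthogonal
      ((Cfsg.Agent.S5644.BF (Q0 F₀ P φ) hQ).orthogonal (Submodule.span F₀ (Set.range u))) := by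
    intro y hy
    have hy' : ∀ i, B (c i) (emb F₀ P y) = 0 := fun i => by
      have h1 := hy (u i) (Submodule.subset_span ⟨i, rfl⟩)
      have h3 : Cfsg.Agent.S5644.BF (Q0 F₀ P φ) hQ (u i) y = 0 := h1
      rw [hu i, ← BF_coe F₀ P φ hF1 hφ2 h2 hB0 hQ, h3]
      rfl
    have h4 := h (emb F₀ P y) (emb_V0 F₀ P y) hy'
    show Cfsg.Agent.S5644.BF (Q0 F₀ P φ) hQ y w = 0
    apply Subtype.ext
    rw [Cfsg.Agent.S5644.B_comm, BF_coe F₀ P φ hF1 hφ2 h2 hB0 hQ, h4]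
    rfl
  rw [LinearMap.BilinForm.orthogonal_orthogonal (Cfsg.Agent.S5644.BF_nondeg _ hQ) hrefl] at hmem
  obtain ⟨f, hf⟩ := (Submodule.mem_span_range_iff_exists_fun F₀).mp hmem
  refine ⟨fun i => (f i : F), fun i => (f i).2, ?_⟩
  rw [← hf, emb_sum]
  exact Finset.sum_congr rfl (fun i _ => by rw [hu i])

include hF1 hF2 hφ2 hθ hθ0 h2 in
/-- a vector of the structure with prescribed pairing against a non-zero vector -/
theorem ex_pair1 {x : Fin n → F} (hx : V0 F₀ P x) (hx0 : x ≠ 0) (a : F) (ha : a ∈ F₀)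
    (hB0 : ∀ x y, V0 F₀ P x → V0 F₀ P y → Bh φ n x y ∈ F₀) :
    ∃ z, V0 F₀ P z ∧ B x z = a := by
  obtain ⟨z, hz, hzne⟩ := nondeg0 F₀ P φ hF2 hφ2 θ (theta_ne φ θ hθ hθ0 h2) hx0
  refine ⟨(a / B x z) • z, V0_smul F₀ P _ (F₀.div_mem ha (hB0 x z hx hz)) hz, ?_⟩
  rw [map_smul, smul_eq_mul, div_mul_cancel₀ _ hzne]

include hF1 hF2 hφ2 hθ hθ0 h2 hB0 in
/-- prescribed pairings against two independent vectors of the structure -/
theorem ex_pair2 {x y : Fin n → F} (hx : V0 F₀ P x) (hy : V0 F₀ P y) (hx0 : x ≠ 0)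
    (hind : ∀ r ∈ F₀, y ≠ r • x) (a b : F) (ha : a ∈ F₀) (hb : b ∈ F₀) :
    ∃ z, V0 F₀ P z ∧ B x z = a ∧ B y z = b := by
  obtain ⟨z₁, hz₁, h1⟩ := ex_pair1 F₀ P φ hF1 hF2 hφ2 θ hθ hθ0 h2 hx hx0 1 F₀.one_mem hB0
  have hr : B y z₁ ∈ F₀ := hB0 y z₁ hy hz₁
  have hy'' : V0 F₀ P (y - (B y z₁) • x) := V0_sub F₀ P hy (V0_smul F₀ P _ hr hx)
  have hy''0 : y - (B y z₁) • x ≠ 0 := fun h => hind _ hr (sub_eq_zero.mp h)
  obtain ⟨z₂, hz₂, h3⟩ := ex_pair1 F₀ P φ hF1 hF2 hφ2 θ hθ hθ0 h2 hy'' hy''0 1 F₀.one_mem hB0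
  have hxz₂ : B x z₂ ∈ F₀ := hB0 x z₂ hx hz₂
  have hβ : b - B y z₁ * a ∈ F₀ := F₀.sub_mem hb (F₀.mul_mem hr ha)
  refine ⟨(a - (b - B y z₁ * a) * B x z₂) • z₁ + (b - B y z₁ * a) • z₂,
    V0_add F₀ P (V0_smul F₀ P _ (F₀.sub_mem ha (F₀.mul_mem hβ hxz₂)) hz₁) (V0_smul F₀ P _ hβ hz₂),
    ?_, ?_⟩
  · simp only [map_add, map_smul, smul_eq_mul, h1]
    ring
  · have h4 : B y z₂ = 1 + B y z₁ * B x z₂ := by
      rw [map_sub, LinearMap.sub_apply, LinearMap.map_smulₛₗ, LinearMap.smul_apply, hF1 _ hr,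
        smul_eq_mul] at h3
      linear_combination h3
    simp only [map_add, map_smul, smul_eq_mul, h4]
    ring

include hF1 hF2 hφ2 hθ hθ0 h2 hB0 hodd in
/-- a singular vector of the structure with the same pairings against `x`, `y` as `z` -/
theorem ex_sing_like (hn : 8 < n) {x y z : Fin n → F} (hx : V0 F₀ P x) (hy : V0 F₀ P y)
    (hz : V0 F₀ P z) :
    ∃ e, V0 F₀ P e ∧ B e e = 0 ∧ B x e = B x z ∧ B y e = B y z := by
  obtain ⟨w, hw, hww, hperp⟩ := ex_rep F₀ P φ hF1 hF2 hφ2 θ hθ hθ0 h2 hB0 hodd ![x, y, z]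
    (fun i => by fin_cases i <;> simpa) (by omega) (-(B z z)) (F₀.neg_mem (hB0 z z hz hz))
  have hxw : B x w = 0 := by simpa using hperp 0
  have hyw : B y w = 0 := by simpa using hperp 1
  have hzw : B z w = 0 := by simpa using hperp 2
  have hwz : B w z = 0 := sw0 φ hφ2 hzw
  refine ⟨z + w, V0_add F₀ P hz hw, ?_, ?_, ?_⟩
  · simp only [map_add, LinearMap.add_apply, hww, hzw, hwz]
    ring
  · rw [map_add, hxw, add_zero]
  · rw [map_add, hyw, add_zero]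

end geom

section eich

variable {F : Type*} [Field F] (φ : F →+* F) {n q : ℕ}
  (hφ2 : ∀ a : F, φ (φ a) = a) (hφq : ∀ a : F, φ a = a ^ q)

local notation "B" => Bh φ n

/-- Eichler elements as elements of the general linear group -/
noncomputable def Ei (v y : Fin n → F) (κ : F) : Matrix.GeneralLinearGroup (Fin n) F :=
  toG (EE φ v y κ)

include hφ2 in
theorem Ei_mulVec (v y : Fin n → F) (κ : F) (hvv : B v v = 0) (hvy : B v y = 0)
    (hκ : κ + φ κ = -(B y y)) (x : Fin n → F) :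
    ((Ei φ v y κ : Matrix.GeneralLinearGroup (Fin n) F) : Matrix (Fin n) (Fin n) F) *ᵥ x
      = x + (B v x) • (y + κ • v) - (B y x) • v := by
  rw [Ei, toG_coe _ (EE_isSUm φ hφ2 v y κ hvv hvy hκ).1, EE_mulVec, smul_neg, sub_eq_add_neg]

include hφ2 hφq in
theorem Ei_mem (v y : Fin n → F) (κ : F) (hvv : B v v = 0) (hvy : B v y = 0)
    (hκ : κ + φ κ = -(B y y)) :
    Ei φ v y κ ∈ Cfsg.GU n F q ⊓ Cfsg.Geo.specialLinear (Fin n) F :=
  toG_mem φ hφq _ (EE_isSUm φ hφ2 v y κ hvv hvy hκ)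

include hφ2 hφq in
theorem Ei_conj (g : Matrix.GeneralLinearGroup (Fin n) F)
    (hg : g ∈ Cfsg.GU n F q ⊓ Cfsg.Geo.specialLinear (Fin n) F)
    (v y : Fin n → F) (κ : F) (hvv : B v v = 0) (hvy : B v y = 0) (hκ : κ + φ κ = -(B y y)) :
    g * Ei φ v y κ * g⁻¹ = Ei φ ((g : Matrix (Fin n) (Fin n) F) *ᵥ v)
      ((g : Matrix (Fin n) (Fin n) F) *ᵥ y) κ := by
  have hgS := (mem_G_iff φ hφq g).1 hg
  apply gl_ext
  intro x
  have e : ∀ w, B w (((g⁻¹ : Matrix.GeneralLinearGroup (Fin n) F) :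
      Matrix (Fin n) (Fin n) F) *ᵥ x) = B ((g : Matrix (Fin n) (Fin n) F) *ᵥ w) x := by
    intro w
    rw [← hgS.2 w, gl_inv_mulVec]
  rw [Units.val_mul, Units.val_mul, ← Matrix.mulVec_mulVec, ← Matrix.mulVec_mulVec,
    Ei_mulVec φ hφ2 v y κ hvv hvy hκ,
    Ei_mulVec φ hφ2 _ _ κ (by rw [hgS.2]; exact hvv) (by rw [hgS.2]; exact hvy)
      (by rw [hgS.2]; exact hκ),
    Matrix.mulVec_sub, Matrix.mulVec_add, Matrix.mulVec_smul, Matrix.mulVec_smul,
    Matrix.mulVec_add, Matrix.mulVec_smul, gl_inv_mulVec, e, e]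

include hφ2 in
/-- commutator of two Eichler elements with orthogonal centres -/
theorem comm1 (u y u' y' : Fin n → F) (κ κ' : F)
    (hu : B u u = 0) (huy : B u y = 0) (hκ : κ + φ κ = -(B y y))
    (hu' : B u' u' = 0) (hu'y' : B u' y' = 0) (hκ' : κ' + φ κ' = -(B y' y'))
    (huu' : B u u' = 0) (huy' : B u y' = 0) (hu'y : B u' y = 0) :
    Ei φ u y κ * Ei φ u' y' κ' =
      Ei φ u ((B y' y) • u') 0 * (Ei φ u' y' κ' * Ei φ u y κ) := by
  have hS := Bh_symm φ hφ2 n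
  have hyu := sw0 φ hφ2 huy
  have hy'u' := sw0 φ hφ2 hu'y'
  have hu'u := sw0 φ hφ2 huu'
  have hy'u := sw0 φ hφ2 huy'
  have hyu' := sw0 φ hφ2 hu'y
  have hyy' : B y y' = φ (B y' y) := (hS.eq y' y).symm
  have hZ1 : B u ((B y' y) • u') = 0 := by rw [map_smul, huu', smul_zero]
  have hZ2 : (0 : F) + φ 0 = -(B ((B y' y) • u') ((B y' y) • u')) := by
    simp only [LinearMap.map_smulₛₗ, LinearMap.smul_apply, map_smul, smul_eq_mul, hu', mul_zero,
      map_zero, add_zero, neg_zero]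
  apply gl_ext
  intro x
  rw [Units.val_mul, Units.val_mul, Units.val_mul, ← Matrix.mulVec_mulVec,
    ← Matrix.mulVec_mulVec, ← Matrix.mulVec_mulVec]
  simp only [Ei_mulVec φ hφ2 u y κ hu huy hκ, Ei_mulVec φ hφ2 u' y' κ' hu' hu'y' hκ',
    Ei_mulVec φ hφ2 u _ 0 hu hZ1 hZ2]
  simp only [map_add, map_sub, map_smul, smul_eq_mul, LinearMap.map_smulₛₗ, LinearMap.smul_apply,
    hu, huy, hu', hu'y', huu', hu'u, huy', hy'u, hu'y, hyu', hyy']
  funext i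
  simp only [Pi.add_apply, Pi.sub_apply, Pi.smul_apply, smul_eq_mul]
  ring

include hφ2 hφq in
/-- a whole root group from a suitable configuration of Eichler elements -/
theorem root (M : Subgroup (Matrix.GeneralLinearGroup (Fin n) F))
    (F₀ : Subfield F) (hF1 : ∀ a ∈ F₀, φ a = a) (hF2 : ∀ a, φ a = a → a ∈ F₀)
    (u y u' y' y₂ : Fin n → F) (κ κ' : F)
    (hu : B u u = 0) (huy : B u y = 0) (hκ : κ + φ κ = -(B y y))
    (hu' : B u' u' = 0) (hu'y' : B u' y' = 0) (hκ' : κ' + φ κ' = -(B y' y'))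
    (huu' : B u u' = 0) (huy' : B u y' = 0) (hu'y : B u' y = 0)
    (huy₂ : B u y₂ = 0)
    (h1 : Ei φ u y κ ∈ M) (h2 : Ei φ u' y' κ' ∈ M)
    (h3 : ∀ t ∈ F₀, ∃ κ₂, κ₂ + φ κ₂ = -(B (t • y₂) (t • y₂)) ∧ Ei φ u (t • y₂) κ₂ ∈ M)
    (hγ : φ ((B y' y) * (B y₂ u')) ≠ (B y' y) * (B y₂ u')) :
    u ∈ Sset φ q M := by
  have hS := Bh_symm φ hφ2 n
  refine ⟨hu, fun c hc => ?_⟩
  obtain ⟨β, hβ⟩ : ∃ β, β = B y' y := ⟨_, rfl⟩
  obtain ⟨γ, hγdef⟩ : ∃ γ, γ = β * B y₂ u' := ⟨_, rfl⟩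
  rw [← hβ, ← hγdef] at hγ
  have hne : γ - φ γ ≠ 0 := sub_ne_zero.mpr (Ne.symm hγ)
  have hne' : φ γ - γ ≠ 0 := sub_ne_zero.mpr hγ
  have ht : c / (γ - φ γ) ∈ F₀ := by
    apply hF2
    rw [map_div₀, map_sub, hφ2, hc]
    field_simp
    ring
  obtain ⟨κ₂, hκ₂, h3'⟩ := h3 _ ht
  obtain ⟨t, htdef⟩ : ∃ t, t = c / (γ - φ γ) := ⟨_, rfl⟩
  rw [← htdef] at ht hκ₂ h3'
  have hZ1 : B u (β • u') = 0 := by rw [map_smul, huu', smul_zero]
  have hZ2 : (0 : F) + φ 0 = -(B (β • u') (β • u')) := by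
    simp only [LinearMap.map_smulₛₗ, LinearMap.smul_apply, map_smul, smul_eq_mul, hu', mul_zero,
      map_zero, add_zero, neg_zero]
  have hZ : Ei φ u (β • u') 0 ∈ M := by
    have h := comm1 φ hφ2 u y u' y' κ κ' hu huy hκ hu' hu'y' hκ' huu' huy' hu'y
    rw [← hβ] at h
    have e : Ei φ u (β • u') 0
        = Ei φ u y κ * Ei φ u' y' κ' * (Ei φ u' y' κ' * Ei φ u y κ)⁻¹ := by
      rw [h]
      group
    rw [e]
    exact M.mul_mem (M.mul_mem h1 h2) (M.inv_mem (M.mul_mem h2 h1))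
  have huty : B u (t • y₂) = 0 := by rw [map_smul, huy₂, smul_zero]
  have hcval : c = B (t • y₂) (β • u') - B (β • u') (t • y₂) := by
    have e1 : B u' y₂ = φ (B y₂ u') := (hS.eq y₂ u').symm
    simp only [LinearMap.map_smulₛₗ, LinearMap.smul_apply, map_smul, smul_eq_mul, e1, hF1 t ht]
    have e2 : φ γ = φ β * φ (B y₂ u') := by rw [hγdef, map_mul]
    have e3 : c = t * (γ - φ γ) := by
      rw [htdef, div_mul_cancel₀ _ hne]
    rw [e3, e2, hγdef]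
    ring
  have hcomm := EE_comm φ hφq u (β • u') (t • y₂) 0 κ₂ c hu hZ1 huty (sw0 φ hφ2 hZ1)
    (sw0 φ hφ2 huty) hcval
  have e : tv q u c = Ei φ u (β • u') 0 * Ei φ u (t • y₂) κ₂ *
      (Ei φ u (t • y₂) κ₂ * Ei φ u (β • u') 0)⁻¹ := by
    rw [eq_mul_inv_iff_mul_eq]
    apply Units.ext
    rw [Units.val_mul, Units.val_mul, Units.val_mul, tv_coe φ hφq hφ2 u c hu hc, Ei, Ei,
      toG_coe _ (EE_isSUm φ hφ2 u (β • u') 0 hu hZ1 hZ2).1,
      toG_coe _ (EE_isSUm φ hφ2 u (t • y₂) κ₂ hu huty hκ₂).1]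
    exact hcomm.symm
  rw [e]
  exact M.mul_mem (M.mul_mem hZ h3') (M.inv_mem (M.mul_mem h3' hZ))

include hφ2 hφq in
/-- isotropic vectors of a hyperbolic line spanned by two centres of full root groups -/
theorem su2 (M : Subgroup (Matrix.GeneralLinearGroup (Fin n) F))
    (hM : M ≤ Cfsg.GU n F q ⊓ Cfsg.Geo.specialLinear (Fin n) F) (p p' : Fin n → F)
    (hp : p ∈ Sset φ q M) (hp' : p' ∈ Sset φ q M) (hne : B p' p ≠ 0) (μ : F)
    (hiso : B (p + μ • p') (p + μ • p') = 0) : p + μ • p' ∈ Sset φ q M := by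
  have hS := Bh_symm φ hφ2 n
  have e1 : B p p' = φ (B p' p) := (hS.eq p' p).symm
  have hne' : φ (B p' p) ≠ 0 := by
    intro h
    apply hne
    have := congrArg φ h
    rwa [hφ2, map_zero] at this
  have h0 : μ * φ (B p' p) + φ μ * B p' p = 0 := by
    simp only [map_add, LinearMap.add_apply, LinearMap.map_smulₛₗ, LinearMap.smul_apply,
      map_smul, smul_eq_mul, hp.1, hp'.1, e1] at hiso
    linear_combination hiso
  have hc : φ (μ / B p' p) = -(μ / B p' p) := by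
    rw [map_div₀]
    field_simp
    linear_combination h0
  have h := Sset_tv φ hφq hφ2 M hM p' p hp' hp (μ / B p' p) hc
  rwa [div_mul_cancel₀ _ hne] at h

end eich

section main

variable {F : Type*} [Field F] {n q : ℕ} (F₀ : Subfield F)
  (P : Matrix.GeneralLinearGroup (Fin n) F) (φ : F →+* F)
  (hF1 : ∀ a ∈ F₀, φ a = a) (hF2 : ∀ a, φ a = a → a ∈ F₀)
  (hφ2 : ∀ a : F, φ (φ a) = a) (θ : F) (hθ : φ θ = -θ) (hθ0 : θ ≠ 0) (h2 : (2 : F) ≠ 0)
  (hB0 : ∀ x y, V0 F₀ P x → V0 F₀ P y → Bh φ n x y ∈ F₀)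
  (hφq : ∀ a : F, φ a = a ^ q)

local notation "B" => Bh φ n

include hF1 hφ2 h2 hB0 hφq in
/-- Eichler elements of the structure lie in the subfield subgroup -/
theorem Ei_H {u y : Fin n → F} (hu : V0 F₀ P u) (hy : V0 F₀ P y) (huu : B u u = 0)
    (huy : B u y = 0) :
    (-(B y y) / 2) + φ (-(B y y) / 2) = -(B y y) ∧
    Ei φ u y (-(B y y) / 2) ∈ Cfsg.Geo.subfieldSubgroup F₀ P ⊓
      (Cfsg.GU n F q ⊓ Cfsg.Geo.specialLinear (Fin n) F) := by
  have h2' : (2 : F) ∈ F₀ := by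
    rw [← one_add_one_eq_two]
    exact F₀.add_mem F₀.one_mem F₀.one_mem
  have hκ0 : -(B y y) / 2 ∈ F₀ := F₀.div_mem (F₀.neg_mem (hB0 y y hy hy)) h2'
  have hκ : (-(B y y) / 2) + φ (-(B y y) / 2) = -(B y y) := by
    rw [hF1 _ hκ0]
    field_simp
    ring
  refine ⟨hκ, crit F₀ P _ 1 one_ne_zero (fun x hx => ⟨_, ?_, by rw [one_smul]⟩),
    Ei_mem φ hφ2 hφq u y _ huu huy hκ⟩
  rw [Ei_mulVec φ hφ2 u y _ huu huy hκ]
  exact V0_sub F₀ P (V0_add F₀ P hx (V0_smul F₀ P _ (hB0 u x hu hx)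
    (V0_add F₀ P hy (V0_smul F₀ P _ hκ0 hu)))) (V0_smul F₀ P _ (hB0 y x hy hx) hu)

include hF1 hφ2 hθ hB0 in
theorem iso_formula {x y : Fin n → F} (hx : V0 F₀ P x) (hy : V0 F₀ P y) :
    B (x + θ • y) (x + θ • y) = B x x - θ ^ 2 * B y y := by
  have hs := Bsym F₀ P φ hF1 hφ2 hB0 hx hy
  simp only [map_add, LinearMap.add_apply, LinearMap.map_smulₛₗ, LinearMap.smul_apply, map_smul,
    smul_eq_mul, hθ, hs]
  ring

variable [Fintype F₀] (hodd : Odd (Fintype.card F₀))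
  (M : Subgroup (Matrix.GeneralLinearGroup (Fin n) F))
  (hHM : Cfsg.Geo.subfieldSubgroup F₀ P ⊓
      (Cfsg.GU n F q ⊓ Cfsg.Geo.specialLinear (Fin n) F) ≤ M)
  (hMK : M ≤ Cfsg.GU n F q ⊓ Cfsg.Geo.specialLinear (Fin n) F)

include hF1 hF2 hφ2 hθ hθ0 h2 hB0 hφq hodd hHM hMK in
/-- from one singular centre of the structure to all of them -/
theorem sing_all (hn : 8 < n) {u₀ : Fin n → F} (hu₀ : V0 F₀ P u₀) (hu₀0 : u₀ ≠ 0)
    (hu₀S : u₀ ∈ Sset φ q M) {s : Fin n → F} (hs : V0 F₀ P s) (hss : B s s = 0) :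
    s ∈ Sset φ q M := by
  by_cases hdep : ∃ r ∈ F₀, s = r • u₀
  · obtain ⟨r, -, rfl⟩ := hdep
    exact Sset_smul φ hφq hφ2 M u₀ hu₀S r
  push Not at hdep
  have huu := hu₀S.1
  obtain ⟨z, hz, hz1, hz2⟩ := ex_pair2 F₀ P φ hF1 hF2 hφ2 θ hθ hθ0 h2 hB0 hu₀ hs hu₀0 hdep 1 1
    F₀.one_mem F₀.one_mem
  obtain ⟨w, hw, hww, hw1, hw2⟩ := ex_sing_like F₀ P φ hF1 hF2 hφ2 θ hθ hθ0 h2 hB0 hodd hn
    hu₀ hs hz
  rw [hz1] at hw1
  rw [hz2] at hw2
  have hwu : B w u₀ = 1 := by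
    rw [Bsym F₀ P φ hF1 hφ2 hB0 hu₀ hw]
    exact hw1
  have hws : B w s = 1 := by
    rw [Bsym F₀ P φ hF1 hφ2 hB0 hs hw]
    exact hw2
  have hy : V0 F₀ P (s - u₀) := V0_sub F₀ P hs hu₀
  have hwy : B w (s - u₀) = 0 := by rw [map_sub, hws, hwu, sub_self]
  obtain ⟨hκ, hE⟩ := Ei_H F₀ P φ hF1 hφ2 h2 hB0 hφq hw hy hww hwy
  have hEM := hHM hE
  have h := Sset_gl φ hφq hφ2 M hMK _ hEM u₀ hu₀S
  rw [Ei_mulVec φ hφ2 w (s - u₀) _ hww hwy hκ, hwu] at h
  have e : u₀ + (1 : F) • (s - u₀ + (-(B (s - u₀) (s - u₀)) / 2) • w) - (B (s - u₀) u₀) • w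
      = s := by
    have hsu : B u₀ s = B s u₀ := Bsym F₀ P φ hF1 hφ2 hB0 hs hu₀
    have e1 : -(B (s - u₀) (s - u₀)) / 2 = B s u₀ := by
      simp only [map_sub, LinearMap.sub_apply, hss, huu, hsu]
      field_simp
      ring
    have e2 : B (s - u₀) u₀ = B s u₀ := by rw [map_sub, LinearMap.sub_apply, huu, sub_zero]
    rw [e1, e2, one_smul]
    abel
  rwa [e] at h

include hF1 hF2 hφ2 hθ hθ0 h2 hB0 hφq hodd hMK in
/-- isotropic vectors with singular components -/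
theorem iso_sing (hn : 8 < n)
    (hS₀ : ∀ s, V0 F₀ P s → B s s = 0 → s ∈ Sset φ q M) {x y : Fin n → F}
    (hx : V0 F₀ P x) (hy : V0 F₀ P y) (hxx : B x x = 0) (hyy : B y y = 0) :
    x + θ • y ∈ Sset φ q M := by
  have hiso : B (x + θ • y) (x + θ • y) = 0 := by
    rw [iso_formula F₀ P φ hF1 hφ2 θ hθ hB0 hx hy, hxx, hyy]
    ring
  by_cases hxy : B x y = 0
  · by_cases hx0 : x = 0
    · rw [hx0, zero_add]
      exact Sset_smul φ hφq hφ2 M y (hS₀ y hy hyy) θ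
    by_cases hdep : ∃ r ∈ F₀, y = r • x
    · obtain ⟨r, -, rfl⟩ := hdep
      have e : x + θ • r • x = (1 + θ * r) • x := by rw [add_smul, one_smul, mul_smul]
      rw [e]
      exact Sset_smul φ hφq hφ2 M x (hS₀ x hx hxx) _
    push Not at hdep
    obtain ⟨z, hz, hz1, hz2⟩ := ex_pair2 F₀ P φ hF1 hF2 hφ2 θ hθ hθ0 h2 hB0 hx hy hx0 hdep 1 0
      F₀.one_mem F₀.zero_mem
    obtain ⟨t, ht, htt, ht1, ht2⟩ := ex_sing_like F₀ P φ hF1 hF2 hφ2 θ hθ hθ0 h2 hB0 hodd hn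
      hx hy hz
    rw [hz1] at ht1
    rw [hz2] at ht2
    have htx : B t x = 1 := by
      rw [Bsym F₀ P φ hF1 hφ2 hB0 hx ht]
      exact ht1
    have hty : B t y = 0 := sw0 φ hφ2 ht2
    have hyx : B y x = 0 := sw0 φ hφ2 hxy
    have hp : x + θ • t ∈ Sset φ q M := by
      apply su2 φ hφ2 hφq M hMK x t (hS₀ x hx hxx) (hS₀ t ht htt)
        (by rw [htx]; exact one_ne_zero) θ
      rw [iso_formula F₀ P φ hF1 hφ2 θ hθ hB0 hx ht, hxx, htt]
      ring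
    have hyt : V0 F₀ P (y - t) := V0_sub F₀ P hy ht
    have hytt : B (y - t) (y - t) = 0 := by
      simp only [map_sub, LinearMap.sub_apply, hyy, htt, ht2, hty]
      ring
    have hp' : θ • (y - t) ∈ Sset φ q M := Sset_smul φ hφq hφ2 M _ (hS₀ _ hyt hytt) θ
    have e : x + θ • y = (x + θ • t) + (1 : F) • (θ • (y - t)) := by
      rw [one_smul, smul_sub]
      abel
    rw [e]
    apply su2 φ hφ2 hφq M hMK _ _ hp hp' ?_ 1 (by rw [← e]; exact hiso)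
    have e3 : B (θ • (y - t)) (x + θ • t) = θ := by
      simp only [map_add, map_sub, LinearMap.sub_apply, LinearMap.map_smulₛₗ,
        LinearMap.smul_apply, map_smul, smul_eq_mul, hθ, hyx, htx, ht2, htt]
      ring
    rw [e3]
    exact hθ0
  · have hyx : B y x ≠ 0 := by
      rw [Bsym F₀ P φ hF1 hφ2 hB0 hx hy]
      exact hxy
    exact su2 φ hφ2 hφq M hMK x y (hS₀ x hx hxx) (hS₀ y hy hyy) hyx θ hiso

include hF1 hF2 hφ2 hθ hθ0 h2 hB0 hφq hodd hMK in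
/-- all isotropic vectors are centres of full root groups -/
theorem all_iso (hn : 8 < n)
    (hS₀ : ∀ s, V0 F₀ P s → B s s = 0 → s ∈ Sset φ q M) (v : Fin n → F) (hv : B v v = 0) :
    v ∈ Sset φ q M := by
  have hθ' := theta_ne φ θ hθ hθ0 h2
  obtain ⟨x, y, hx, hy, rfl⟩ := decomp_exists F₀ P φ hF2 hφ2 θ hθ' v
  rw [iso_formula F₀ P φ hF1 hφ2 θ hθ hB0 hx hy] at hv
  by_cases hyy : B y y = 0
  · exact iso_sing F₀ P φ hF1 hF2 hφ2 θ hθ hθ0 h2 hB0 hφq hodd M hMK hn hS₀ hx hy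
      (by rw [hyy] at hv; linear_combination hv) hyy
  have hxx : B x x = θ ^ 2 * B y y := by linear_combination hv
  have hθ2 : θ ^ 2 ∈ F₀ := hF2 _ (by rw [map_pow, hθ]; ring)
  have hx0 : x ≠ 0 := by
    rintro rfl
    rw [map_zero] at hxx
    exact hyy ((mul_eq_zero.mp hxx.symm).resolve_left (pow_ne_zero 2 hθ0))
  have hind : ∀ r ∈ F₀, y ≠ r • x := by
    intro r hr h
    have e : B y y = r ^ 2 * B x x := by
      rw [h]
      simp only [LinearMap.map_smulₛₗ, LinearMap.smul_apply, map_smul, smul_eq_mul, hF1 r hr]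
      ring
    rw [hxx] at e
    have e3 : (r * θ - 1) * (r * θ + 1) = 0 := by
      have : (r * θ) ^ 2 * B y y = B y y := by linear_combination -e
      have h5 : ((r * θ) ^ 2 - 1) * B y y = 0 := by linear_combination this
      have h6 := (mul_eq_zero.mp h5).resolve_right hyy
      linear_combination h6
    have hr0 : r ≠ 0 := by
      rintro rfl
      simp at e3
    rcases mul_eq_zero.mp e3 with h1 | h1
    · apply hθ'
      have : θ = r⁻¹ := by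
        field_simp
        linear_combination h1
      rw [this]
      exact hF1 _ (F₀.inv_mem hr)
    · apply hθ'
      have : θ = -r⁻¹ := by
        field_simp
        linear_combination h1
      rw [this]
      exact hF1 _ (F₀.neg_mem (F₀.inv_mem hr))
  obtain ⟨z, hz, hz1, hz2⟩ := ex_pair2 F₀ P φ hF1 hF2 hφ2 θ hθ hθ0 h2 hB0 hx hy hx0 hind 1 1
    F₀.one_mem F₀.one_mem
  obtain ⟨s, hs, hss, hs1, hs2⟩ := ex_sing_like F₀ P φ hF1 hF2 hφ2 θ hθ hθ0 h2 hB0 hodd hn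
    hx hy hz
  rw [hz1] at hs1
  rw [hz2] at hs2
  have hsx : B s x = 1 := by
    rw [Bsym F₀ P φ hF1 hφ2 hB0 hx hs]
    exact hs1
  have hsy : B s y = 1 := by
    rw [Bsym F₀ P φ hF1 hφ2 hB0 hy hs]
    exact hs2
  have hsS := hS₀ s hs hss
  have h2' : (2 : F) ∈ F₀ := by
    rw [← one_add_one_eq_two]
    exact F₀.add_mem F₀.one_mem F₀.one_mem
  obtain ⟨c', hc'⟩ : ∃ c', c' = -(B y y) / 2 := ⟨_, rfl⟩
  have hc'0 : c' ∈ F₀ := by
    rw [hc']
    exact F₀.div_mem (F₀.neg_mem (hB0 y y hy hy)) h2'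
  have hc : φ (θ * c') = -(θ * c') := by
    rw [map_mul, hθ, hF1 _ hc'0]
    ring
  have hnc : φ (-(θ * c')) = -(-(θ * c')) := by rw [map_neg, hc]
  have hθc : θ ^ 2 * c' ∈ F₀ := F₀.mul_mem hθ2 hc'0
  have hx' : V0 F₀ P (x + (θ ^ 2 * c') • s) := V0_add F₀ P hx (V0_smul F₀ P _ hθc hs)
  have hy' : V0 F₀ P (y + c' • s) := V0_add F₀ P hy (V0_smul F₀ P _ hc'0 hs)
  have hx'x' : B (x + (θ ^ 2 * c') • s) (x + (θ ^ 2 * c') • s) = 0 := by
    simp only [map_add, LinearMap.add_apply, LinearMap.map_smulₛₗ, LinearMap.smul_apply,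
      map_smul, smul_eq_mul, hss, hs1, hsx, hF1 _ hθc]
    rw [hxx, hc']
    field_simp
    ring
  have hy'y' : B (y + c' • s) (y + c' • s) = 0 := by
    simp only [map_add, LinearMap.add_apply, LinearMap.map_smulₛₗ, LinearMap.smul_apply,
      map_smul, smul_eq_mul, hss, hs2, hsy, hF1 _ hc'0]
    rw [hc']
    field_simp
    ring
  have hv' := iso_sing F₀ P φ hF1 hF2 hφ2 θ hθ hθ0 h2 hB0 hφq hodd M hMK hn hS₀ hx' hy'
    hx'x' hy'y'
  have h := Sset_gl φ hφq hφ2 M hMK (tv q s (-(θ * c'))) (hsS.2 _ hnc) _ hv'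
  rw [tv_mulVec φ hφq hφ2 s _ hss hnc] at h
  have e : (x + (θ ^ 2 * c') • s + θ • (y + c' • s)) +
      (-(θ * c') * B s (x + (θ ^ 2 * c') • s + θ • (y + c' • s))) • s = x + θ • y := by
    have e1 : B s (x + (θ ^ 2 * c') • s + θ • (y + c' • s)) = 1 + θ := by
      simp only [map_add, map_smul, smul_eq_mul, hss, hsx, hsy]
      ring
    rw [e1]
    funext i
    simp only [Pi.add_apply, Pi.smul_apply, smul_eq_mul]
    ring
  rwa [e] at h

include hF1 hF2 hφ2 hθ hθ0 h2 hB0 hφq hodd hHM hMK in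
/-- an element of the overgroup moving a singular point of the structure off the structure
yields a full root group at a singular point of the structure -/
theorem config (hn : 13 ≤ n) (g : Matrix.GeneralLinearGroup (Fin n) F) (hgM : g ∈ M)
    {x₁ : Fin n → F} (hx₁ : V0 F₀ P x₁) (hx₁x₁ : B x₁ x₁ = 0)
    (hbad : ∀ (l : F) (w : Fin n → F), V0 F₀ P w →
      (g : Matrix (Fin n) (Fin n) F) *ᵥ x₁ ≠ l • w) :
    ∃ u, V0 F₀ P u ∧ u ≠ 0 ∧ u ∈ Sset φ q M := by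
  have hθ' := theta_ne φ θ hθ hθ0 h2
  have hgS := (mem_G_iff φ hφq g).1 (hMK hgM)
  obtain ⟨a, b, ha, hb, hab⟩ := decomp_exists F₀ P φ hF2 hφ2 θ hθ'
    ((g : Matrix (Fin n) (Fin n) F) *ᵥ x₁)
  have ha0 : a ≠ 0 := by
    rintro rfl
    exact hbad θ b hb (by rw [hab, zero_add])
  have hind : ∀ r ∈ F₀, b ≠ r • a := by
    intro r hr h
    exact hbad (1 + θ * r) a ha (by rw [hab, h, add_smul, one_smul, mul_smul])
  obtain ⟨y₂, hy₂, hay₂, hby₂⟩ := ex_pair2 F₀ P φ hF1 hF2 hφ2 θ hθ hθ0 h2 hB0 ha hb ha0 hind 1 0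
    F₀.one_mem F₀.zero_mem
  obtain ⟨y₃, hy₃, hay₃, hby₃⟩ := ex_pair2 F₀ P φ hF1 hF2 hφ2 θ hθ hθ0 h2 hB0 ha hb ha0 hind 0 1
    F₀.zero_mem F₀.one_mem
  obtain ⟨u, hu, hu0, huu, hperp⟩ := ex_sing F₀ P φ hF1 hF2 hφ2 θ hθ hθ0 h2 hB0 hodd
    ![a, b, y₂, y₃] (fun i => by fin_cases i <;> simpa) (by omega)
  have hau : B a u = 0 := by simpa using hperp 0
  have hbu : B b u = 0 := by simpa using hperp 1
  have hy₂u : B y₂ u = 0 := by simpa using hperp 2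
  have hy₃u : B y₃ u = 0 := by simpa using hperp 3
  have hua : B u a = 0 := sw0 φ hφ2 hau
  have hub : B u b = 0 := sw0 φ hφ2 hbu
  have huy₂ : B u y₂ = 0 := sw0 φ hφ2 hy₂u
  have huy₃ : B u y₃ = 0 := sw0 φ hφ2 hy₃u
  refine ⟨u, hu, hu0, ?_⟩
  obtain ⟨u', hu'def⟩ : ∃ u', u' = (g : Matrix (Fin n) (Fin n) F) *ᵥ x₁ := ⟨_, rfl⟩
  rw [← hu'def] at hab
  have hu'u' : B u' u' = 0 := by
    rw [hu'def, hgS.2]
    exact hx₁x₁
  have huu' : B u u' = 0 := by rw [hab, map_add, map_smul, hua, hub, smul_zero, add_zero]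
  obtain ⟨a', b', ha', hb', hab'⟩ := decomp_exists F₀ P φ hF2 hφ2 θ hθ'
    (((g⁻¹ : Matrix.GeneralLinearGroup (Fin n) F) : Matrix (Fin n) (Fin n) F) *ᵥ u)
  obtain ⟨z₁, hz₁, hz₁n, hp₁⟩ := ex_ns F₀ P φ hF1 hF2 hφ2 θ hθ hθ0 h2 hB0 ![x₁, a', b']
    (fun i => by fin_cases i <;> simpa) (by omega)
  obtain ⟨z₂, hz₂, hz₂n, hp₂⟩ := ex_ns F₀ P φ hF1 hF2 hφ2 θ hθ hθ0 h2 hB0 ![x₁, a', b', z₁]
    (fun i => by fin_cases i <;> simpa) (by omega)
  obtain ⟨z₃, hz₃, hz₃n, hp₃⟩ := ex_ns F₀ P φ hF1 hF2 hφ2 θ hθ hθ0 h2 hB0 ![x₁, a', b', z₁, z₂]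
    (fun i => by fin_cases i <;> simpa) (by omega)
  obtain ⟨z₄, hz₄, hz₄n, hp₄⟩ := ex_ns F₀ P φ hF1 hF2 hφ2 θ hθ hθ0 h2 hB0
    ![x₁, a', b', z₁, z₂, z₃] (fun i => by fin_cases i <;> simpa) (by omega)
  obtain ⟨z, hzdef⟩ : ∃ z : Fin 4 → (Fin n → F), z = ![z₁, z₂, z₃, z₄] := ⟨_, rfl⟩
  have hzV : ∀ i, V0 F₀ P (z i) := by
    intro i
    rw [hzdef]
    fin_cases i <;> simpa
  have hzn : ∀ i, B (z i) (z i) ≠ 0 := by
    intro i
    rw [hzdef]
    fin_cases i <;> simpa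
  have hzx : ∀ i, B x₁ (z i) = 0 := by
    intro i
    rw [hzdef]
    fin_cases i
    · simpa using hp₁ 0
    · simpa using hp₂ 0
    · simpa using hp₃ 0
    · simpa using hp₄ 0
  have hza : ∀ i, B a' (z i) = 0 := by
    intro i
    rw [hzdef]
    fin_cases i
    · simpa using hp₁ 1
    · simpa using hp₂ 1
    · simpa using hp₃ 1
    · simpa using hp₄ 1
  have hzb : ∀ i, B b' (z i) = 0 := by
    intro i
    rw [hzdef]
    fin_cases i
    · simpa using hp₁ 2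
    · simpa using hp₂ 2
    · simpa using hp₃ 2
    · simpa using hp₄ 2
  have hzo : ∀ i j, i ≠ j → B (z i) (z j) = 0 := by
    have h12 : B z₁ z₂ = 0 := by simpa using hp₂ 3
    have h13 : B z₁ z₃ = 0 := by simpa using hp₃ 3
    have h23 : B z₂ z₃ = 0 := by simpa using hp₃ 4
    have h14 : B z₁ z₄ = 0 := by simpa using hp₄ 3
    have h24 : B z₂ z₄ = 0 := by simpa using hp₄ 4
    have h34 : B z₃ z₄ = 0 := by simpa using hp₄ 5
    have h21 := sw0 φ hφ2 h12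
    have h31 := sw0 φ hφ2 h13
    have h32 := sw0 φ hφ2 h23
    have h41 := sw0 φ hφ2 h14
    have h42 := sw0 φ hφ2 h24
    have h43 := sw0 φ hφ2 h34
    intro i j hij
    rw [hzdef]
    fin_cases i <;> fin_cases j <;>
      first
        | exact absurd rfl hij
        | simpa using h12
        | simpa using h13
        | simpa using h23
        | simpa using h14
        | simpa using h24
        | simpa using h34
        | simpa using h21
        | simpa using h31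
        | simpa using h32
        | simpa using h41
        | simpa using h42
        | simpa using h43
  have hkey : ∃ i y, V0 F₀ P y ∧ B u y = 0 ∧ B a y = 0 ∧ B b y = 0 ∧
      B y ((g : Matrix (Fin n) (Fin n) F) *ᵥ z i) ≠ 0 := by
    by_contra hcon
    push Not at hcon
    have hdec := fun i => decomp_exists F₀ P φ hF2 hφ2 θ hθ'
      ((g : Matrix (Fin n) (Fin n) F) *ᵥ z i)
    choose p r hp hr hpr using hdec
    obtain ⟨c, hcdef⟩ : ∃ c : Fin 3 → (Fin n → F), c = ![u, a, b] := ⟨_, rfl⟩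
    have hcV : ∀ j, V0 F₀ P (c j) := by
      intro j
      rw [hcdef]
      fin_cases j <;> simpa
    have hperp' : ∀ i y, V0 F₀ P y → (∀ j, B (c j) y = 0) →
        B (p i) y = 0 ∧ B (r i) y = 0 := by
      intro i y hy hcy
      have h0 := hcon i y hy (by simpa [hcdef] using hcy 0) (by simpa [hcdef] using hcy 1)
        (by simpa [hcdef] using hcy 2)
      rw [hpr i, map_add, map_smul, smul_eq_mul] at h0
      have := theta_indep F₀ φ hF1 θ hθ' _ _ (hB0 y (p i) hy (hp i)) (hB0 y (r i) hy (hr i)) h0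
      exact ⟨sw0 φ hφ2 this.1, sw0 φ hφ2 this.2⟩
    have hfp := fun i => dperp F₀ P φ hF1 hF2 hφ2 θ hθ hθ0 h2 hB0 c hcV (p i) (hp i)
      (fun y hy hcy => (hperp' i y hy hcy).1)
    have hfr := fun i => dperp F₀ P φ hF1 hF2 hφ2 θ hθ hθ0 h2 hB0 c hcV (r i) (hr i)
      (fun y hy hcy => (hperp' i y hy hcy).2)
    choose f hf0 hf using hfp
    choose f' hf'0 hf' using hfr
    obtain ⟨m, hm⟩ : ∃ m : Matrix (Fin 4) (Fin 3) F, m = fun i j => f i j + θ * f' i j :=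
      ⟨_, rfl⟩
    have hker : LinearMap.ker (Matrix.vecMulLinear m) ≠ ⊥ := by
      apply LinearMap.ker_ne_bot_of_finrank_lt
      rw [Module.finrank_fin_fun, Module.finrank_fin_fun]
      norm_num
    obtain ⟨lam, hlam, hlam0⟩ := (Submodule.ne_bot_iff _).mp hker
    have hlam' : ∀ j, ∑ i, lam i * m i j = 0 := by
      intro j
      have := congrFun (LinearMap.mem_ker.mp hlam) j
      simpa [Matrix.vecMul, dotProduct] using this
    have hgz : ∀ i, (g : Matrix (Fin n) (Fin n) F) *ᵥ z i = ∑ j, m i j • c j := by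
      intro i
      rw [hpr i, hf i, hf' i, Finset.smul_sum, ← Finset.sum_add_distrib]
      refine Finset.sum_congr rfl (fun j _ => ?_)
      rw [hm, add_smul, mul_smul]
    have hsum : (g : Matrix (Fin n) (Fin n) F) *ᵥ (∑ i, lam i • z i) = 0 := by
      rw [Matrix.mulVec_sum]
      simp_rw [Matrix.mulVec_smul, hgz, Finset.smul_sum, smul_smul]
      rw [Finset.sum_comm]
      simp_rw [← Finset.sum_smul, hlam', zero_smul]
      simp
    have hz0 : ∑ i, lam i • z i = 0 :=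
      gl_inj g (hsum.trans (Matrix.mulVec_zero _).symm)
    apply hlam0
    funext k
    have h5 : B (z k) (∑ i, lam i • z i) = lam k * B (z k) (z k) := by
      rw [map_sum]
      simp_rw [map_smul, smul_eq_mul]
      rw [Finset.sum_eq_single k]
      · intro i _ hik
        rw [hzo k i (Ne.symm hik), mul_zero]
      · intro h
        exact absurd (Finset.mem_univ k) h
    rw [hz0, map_zero] at h5
    exact (mul_eq_zero.mp h5.symm).resolve_right (hzn k)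
  obtain ⟨i, y, hy, huy, hay, hby, hne⟩ := hkey
  have hy₁ := hzV i
  have hx₁y₁ := hzx i
  obtain ⟨hκ, hE⟩ := Ei_H F₀ P φ hF1 hφ2 h2 hB0 hφq hu hy huu huy
  obtain ⟨hκ₁, hE₁⟩ := Ei_H F₀ P φ hF1 hφ2 h2 hB0 hφq hx₁ hy₁ hx₁x₁ hx₁y₁
  obtain ⟨y', hy'def⟩ : ∃ y', y' = (g : Matrix (Fin n) (Fin n) F) *ᵥ z i := ⟨_, rfl⟩
  rw [← hy'def] at hne
  have hE₂ : Ei φ u' y' (-(B (z i) (z i)) / 2) ∈ M := by
    rw [hu'def, hy'def, ← Ei_conj φ hφ2 hφq g (hMK hgM) x₁ (z i) _ hx₁x₁ hx₁y₁ hκ₁]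
    exact M.mul_mem (M.mul_mem hgM (hHM hE₁)) (M.inv_mem hgM)
  have hu'y' : B u' y' = 0 := by
    rw [hu'def, hy'def, hgS.2]
    exact hx₁y₁
  have hκ' : (-(B (z i) (z i)) / 2) + φ (-(B (z i) (z i)) / 2) = -(B y' y') := by
    rw [hy'def, hgS.2]
    exact hκ₁
  have huy' : B u y' = 0 := by
    have e : u = (g : Matrix (Fin n) (Fin n) F) *ᵥ
        (((g⁻¹ : Matrix.GeneralLinearGroup (Fin n) F) : Matrix (Fin n) (Fin n) F) *ᵥ u) :=
      (gl_inv_mulVec g u).symm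
    rw [e, hy'def, hgS.2, hab', map_add, LinearMap.add_apply, LinearMap.map_smulₛₗ,
      LinearMap.smul_apply, hza i, hzb i, smul_zero, add_zero]
  have hu'y : B u' y = 0 := by
    rw [hab, map_add, LinearMap.add_apply, LinearMap.map_smulₛₗ, LinearMap.smul_apply, hay, hby,
      smul_zero, add_zero]
  have hβ : B y' y ≠ 0 := fun h => hne (sw0 φ hφ2 h)
  have h3 : ∀ w, V0 F₀ P w → B u w = 0 → ∀ t ∈ F₀, ∃ κ₂,
      κ₂ + φ κ₂ = -(B (t • w) (t • w)) ∧ Ei φ u (t • w) κ₂ ∈ M := by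
    intro w hw huw t ht
    obtain ⟨h4, h5⟩ := Ei_H F₀ P φ hF1 hφ2 h2 hB0 hφq hu (V0_smul F₀ P t ht hw) huu
      (by rw [map_smul, huw, smul_zero])
    exact ⟨_, h4, hHM h5⟩
  have hy₂u' : B y₂ u' = 1 := by
    rw [hab, map_add, map_smul, Bsym F₀ P φ hF1 hφ2 hB0 ha hy₂, Bsym F₀ P φ hF1 hφ2 hB0 hb hy₂,
      hay₂, hby₂, smul_zero, add_zero]
  have hy₃u' : B y₃ u' = θ := by
    rw [hab, map_add, map_smul, Bsym F₀ P φ hF1 hφ2 hB0 ha hy₃, Bsym F₀ P φ hF1 hφ2 hB0 hb hy₃,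
      hay₃, hby₃, zero_add, smul_eq_mul, mul_one]
  by_cases hφβ : φ (B y' y) = B y' y
  · apply root φ hφ2 hφq M F₀ hF1 hF2 u y u' y' y₃ _ _ huu huy hκ hu'u' hu'y' hκ' huu' huy' hu'y
      huy₃ (hHM hE) hE₂ (h3 y₃ hy₃ huy₃)
    rw [hy₃u', map_mul, hφβ, hθ]
    intro h
    have h6 : (2 : F) * (B y' y * θ) = 0 := by linear_combination -h
    rcases mul_eq_zero.mp h6 with h' | h'
    · exact h2 h'
    · exact (mul_ne_zero hβ hθ0) h'
  · apply root φ hφ2 hφq M F₀ hF1 hF2 u y u' y' y₂ _ _ huu huy hκ hu'u' hu'y' hκ' huu' huy' hu'y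
      huy₂ (hHM hE) hE₂ (h3 y₂ hy₂ huy₂)
    rw [hy₂u', mul_one]
    exact hφβ

end main

/-- Let F be the field with q² elements, q odd, n ≥ 13, and F₀ the subfield with q elements. Let P be an invertible matrix such that the standard unitary form takes values in F₀ on the F₀-span of the columns of P (so it restricts to a non-degenerate symmetric bilinear form there). Then the elements of SU_n(q) lying in the subfield group of P form a maximal subgroup of SU_n(q). -/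
theorem result {F : Type*} [Field F] [Fintype F] (n q : ℕ) (hF : Fintype.card F = q ^ 2) (hn : 13 ≤ n) (hodd : Odd q) (F₀ : Subfield F) (hcard : Fintype.card F = Nat.card F₀ ^ 2) (P : Matrix.GeneralLinearGroup (Fin n) F) (hP : Cfsg.Geo.IsFormRationalStructure (Cfsg.hermForm n F q) F₀ 1 P) : Cfsg.Geo.IsMaximalIn (Cfsg.GU n F q ⊓ Cfsg.Geo.specialLinear (Fin n) F) (Cfsg.Geo.subfieldSubgroup F₀ P ⊓ (Cfsg.GU n F q ⊓ Cfsg.Geo.specialLinear (Fin n) F)) := by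
  classical
  obtain ⟨φ, hφq, hφ2⟩ := Cfsg.Agent.S0779.exists_frob hF
  have hφ := Cfsg.Agent.S0829.phi_ne_id hF φ hφq
  have hq2 : 2 ≤ q := Cfsg.Agent.S0829.two_le_q hF
  have : Fintype F₀ := Fintype.ofFinite F₀
  have hq : Fintype.card F₀ = q := by
    have h1 : Nat.card F₀ ^ 2 = q ^ 2 := by rw [← hcard, hF]
    have h2 : Nat.card F₀ = q := Nat.pow_left_injective (by norm_num : 2 ≠ 0) h1
    rw [← h2, Nat.card_eq_fintype_card]
  have hF1 : ∀ a ∈ F₀, φ a = a := by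
    intro a ha
    rw [hφq]
    have h1 := FiniteField.pow_card (⟨a, ha⟩ : F₀)
    rw [hq] at h1
    have h2 := congrArg (fun x : F₀ => (x : F)) h1
    simpa using h2
  have hF2 : ∀ a, φ a = a → a ∈ F₀ := by
    intro a ha
    obtain ⟨p, hp⟩ : ∃ p : Polynomial F, p = Polynomial.X ^ q - Polynomial.X := ⟨_, rfl⟩
    have hp0 : p ≠ 0 := by
      rw [hp]
      exact FiniteField.X_pow_card_sub_X_ne_zero F (by omega)
    have hdeg : p.natDegree = q := by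
      rw [hp]
      exact FiniteField.X_pow_card_sub_X_natDegree_eq F (by omega)
    have hroot : ∀ b : F, φ b = b → b ∈ p.roots.toFinset := by
      intro b hb
      rw [Multiset.mem_toFinset, Polynomial.mem_roots hp0, Polynomial.IsRoot.def, hp]
      simp only [Polynomial.eval_sub, Polynomial.eval_pow, Polynomial.eval_X]
      rw [← hφq, hb, sub_self]
    have hsub : (Finset.univ : Finset F₀).image (fun x : F₀ => (x : F)) ⊆ p.roots.toFinset := by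
      intro x hx
      obtain ⟨y, -, rfl⟩ := Finset.mem_image.mp hx
      exact hroot _ (hF1 _ y.2)
    have hcardim : ((Finset.univ : Finset F₀).image (fun x : F₀ => (x : F))).card = q := by
      rw [Finset.card_image_of_injective _ Subtype.val_injective, Finset.card_univ, hq]
    have hle : p.roots.toFinset.card ≤ q :=
      calc p.roots.toFinset.card ≤ Multiset.card p.roots := Multiset.toFinset_card_le _
        _ ≤ p.natDegree := Polynomial.card_roots' p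
        _ = q := hdeg
    have heq := Finset.eq_of_subset_of_card_le hsub (by rw [hcardim]; exact hle)
    have ha' := hroot a ha
    rw [← heq] at ha'
    obtain ⟨y, -, rfl⟩ := Finset.mem_image.mp ha'
    exact y.2
  obtain ⟨θ₀, hθ₀⟩ := Cfsg.Agent.S0780.exists_moved φ hφ
  obtain ⟨θ, hθdef⟩ : ∃ θ, θ = θ₀ - φ θ₀ := ⟨_, rfl⟩
  have hθ : φ θ = -θ := by
    rw [hθdef, map_sub, hφ2]
    ring
  have hθ0 : θ ≠ 0 := by
    rw [hθdef]
    exact sub_ne_zero.mpr (Ne.symm hθ₀)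
  have hoddF : Odd (Fintype.card F) := by
    rw [hF]
    exact hodd.pow
  have h2 : (2 : F) ≠ 0 := Cfsg.Agent.S5644.two_ne hoddF
  have hθ' := theta_ne φ θ hθ hθ0 h2
  have hodd₀ : Odd (Fintype.card F₀) := by
    rw [hq]
    exact hodd
  have hB0 : ∀ x y, V0 F₀ P x → V0 F₀ P y → Bh φ n x y ∈ F₀ := by
    rintro x y ⟨u, hu, rfl⟩ ⟨v, hv, rfl⟩
    have := hP v u hv hu
    rwa [one_mul, herm_B φ hφq] at this
  refine ⟨lt_of_le_of_ne inf_le_right ?_, ?_⟩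
  · intro heq
    obtain ⟨x, hx, hx0, hxx, -⟩ := ex_sing F₀ P φ hF1 hF2 hφ2 θ hθ hθ0 h2 hB0 hodd₀
      (Fin.elim0 : Fin 0 → (Fin n → F)) (fun i => i.elim0) (by omega)
    obtain ⟨z₀, hz₀, hxz₀⟩ := ex_pair1 F₀ P φ hF1 hF2 hφ2 θ hθ hθ0 h2 hx hx0 1 F₀.one_mem hB0
    obtain ⟨y, hy, hy0, hyy, hperp⟩ := ex_sing F₀ P φ hF1 hF2 hφ2 θ hθ hθ0 h2 hB0 hodd₀
      ![x, z₀] (fun i => by fin_cases i <;> simpa) (by omega)
    have hxy : Bh φ n x y = 0 := by simpa using hperp 0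
    have hz₀y : Bh φ n z₀ y = 0 := by simpa using hperp 1
    have hind : ∀ r ∈ F₀, y ≠ r • x := by
      intro r hr h
      have h1 : Bh φ n z₀ x = 1 := by
        rw [Bsym F₀ P φ hF1 hφ2 hB0 hx hz₀]
        exact hxz₀
      rw [h, map_smul, h1, smul_eq_mul, mul_one] at hz₀y
      apply hy0
      rw [h, hz₀y, zero_smul]
    obtain ⟨z, hz, hxz, hyz⟩ := ex_pair2 F₀ P φ hF1 hF2 hφ2 θ hθ hθ0 h2 hB0 hx hy hx0 hind 1 0
      F₀.one_mem F₀.zero_mem
    have hv : Bh φ n (x + θ • y) (x + θ • y) = 0 := by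
      rw [iso_formula F₀ P φ hF1 hφ2 θ hθ hB0 hx hy, hxx, hyy]
      ring
    have ht : tv q (x + θ • y) θ ∈ Cfsg.Geo.subfieldSubgroup F₀ P ⊓
        (Cfsg.GU n F q ⊓ Cfsg.Geo.specialLinear (Fin n) F) := by
      rw [heq]
      exact tv_mem φ hφq hφ2 _ _ hv hθ
    obtain ⟨l, w, hw, hlw⟩ := conv F₀ P _ ht.1 z hz
    rw [tv_mulVec φ hφq hφ2 _ _ hv hθ] at hlw
    have hBvz : Bh φ n (x + θ • y) z = 1 := by
      rw [map_add, LinearMap.add_apply, LinearMap.map_smulₛₗ, LinearMap.smul_apply, hxz, hyz,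
        smul_zero, add_zero]
    rw [hBvz, mul_one] at hlw
    obtain ⟨r, s, hr, hs, rfl⟩ := field_decomp F₀ φ hF2 hφ2 θ hθ' l
    have hθ2 : θ ^ 2 ∈ F₀ := hF2 _ (by rw [map_pow, hθ]; ring)
    have h2' : (z + (θ ^ 2) • y) + θ • x = r • w + θ • (s • w) := by
      rw [add_smul, mul_smul] at hlw
      rw [← hlw, smul_add, smul_smul, ← pow_two]
      abel
    obtain ⟨e1, e2⟩ := decomp_unique F₀ P φ hF1 θ hθ' (V0_add F₀ P hz (V0_smul F₀ P _ hθ2 hy)) hx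
      (V0_smul F₀ P r hr hw) (V0_smul F₀ P s hs hw) h2'
    have hs0 : s ≠ 0 := by
      rintro rfl
      rw [zero_smul] at e2
      exact hx0 e2
    have hw' : w = s⁻¹ • x := by
      rw [e2, smul_smul, inv_mul_cancel₀ hs0, one_smul]
    have hz' : z = (r * s⁻¹) • x - (θ ^ 2) • y := by
      rw [mul_smul, ← hw', ← e1]
      abel
    have h0 : Bh φ n x z = 0 := by
      rw [hz', map_sub, map_smul, map_smul, hxx, hxy, smul_zero, smul_zero, sub_zero]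
    rw [hxz] at h0
    exact one_ne_zero h0
  · intro M hHM hMK
    by_cases hcase : ∀ g ∈ M, ∀ x, V0 F₀ P x → Bh φ n x x = 0 →
        ∃ (l : F) (w : Fin n → F), V0 F₀ P w ∧ (g : Matrix (Fin n) (Fin n) F) *ᵥ x = l • w
    · left
      apply le_antisymm _ hHM
      intro g hg
      refine ⟨?_, hMK hg⟩
      have hgS := (mem_G_iff φ hφq g).1 (hMK hg)
      have h1 : ∀ x, V0 F₀ P x → ∃ (l : F) (w : Fin n → F), V0 F₀ P w ∧
          (g : Matrix (Fin n) (Fin n) F) *ᵥ x = l • w := by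
        intro x hx
        by_cases hxx : Bh φ n x x = 0
        · exact hcase g hg x hx hxx
        have hx0 : x ≠ 0 := by
          rintro rfl
          exact hxx (by rw [map_zero])
        obtain ⟨z, hz, hxz⟩ := ex_pair1 F₀ P φ hF1 hF2 hφ2 θ hθ hθ0 h2 hx hx0 1 F₀.one_mem hB0
        obtain ⟨e, he, hee, hxe, -⟩ := ex_sing_like F₀ P φ hF1 hF2 hφ2 θ hθ hθ0 h2 hB0 hodd₀
          (by omega) hx hx hz
        rw [hxz] at hxe
        have hex : Bh φ n e x = 1 := by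
          rw [Bsym F₀ P φ hF1 hφ2 hB0 hx he]
          exact hxe
        have h2m : (2 : F) ∈ F₀ := by
          rw [← one_add_one_eq_two]
          exact F₀.add_mem F₀.one_mem F₀.one_mem
        obtain ⟨lam, hlamdef⟩ : ∃ lam, lam = Bh φ n x x / 2 := ⟨_, rfl⟩
        have hlam : lam ∈ F₀ := by
          rw [hlamdef]
          exact F₀.div_mem (hB0 x x hx hx) h2m
        have hlam0 : lam ≠ 0 := by
          rw [hlamdef]
          exact div_ne_zero hxx h2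
        have hs₁ : V0 F₀ P (lam • e) := V0_smul F₀ P _ hlam he
        have hs₂ : V0 F₀ P (x - lam • e) := V0_sub F₀ P hx hs₁
        have hs₁s₁ : Bh φ n (lam • e) (lam • e) = 0 := by
          simp only [LinearMap.map_smulₛₗ, LinearMap.smul_apply, map_smul, smul_eq_mul, hee,
            mul_zero]
        have hs₂s₂ : Bh φ n (x - lam • e) (x - lam • e) = 0 := by
          simp only [map_sub, LinearMap.sub_apply, LinearMap.map_smulₛₗ, LinearMap.smul_apply,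
            map_smul, smul_eq_mul, hee, hxe, hex, hF1 _ hlam]
          rw [hlamdef]
          field_simp
          ring
        have hs₁s₂ : Bh φ n (lam • e) (x - lam • e) = lam := by
          simp only [map_sub, LinearMap.map_smulₛₗ, LinearMap.smul_apply,
            map_smul, smul_eq_mul, hee, hex, hF1 _ hlam]
          ring
        obtain ⟨l₁, w₁, hw₁, hg₁⟩ := hcase g hg _ hs₁ hs₁s₁
        obtain ⟨l₂, w₂, hw₂, hg₂⟩ := hcase g hg _ hs₂ hs₂s₂
        have hprod : φ l₁ * l₂ * Bh φ n w₁ w₂ = lam := by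
          have e5 : Bh φ n ((g : Matrix (Fin n) (Fin n) F) *ᵥ (lam • e))
              ((g : Matrix (Fin n) (Fin n) F) *ᵥ (x - lam • e)) = lam := by
            rw [hgS.2]
            exact hs₁s₂
          rw [hg₁, hg₂] at e5
          simp only [LinearMap.map_smulₛₗ, LinearMap.smul_apply, map_smul, smul_eq_mul] at e5
          linear_combination e5
        have hb : Bh φ n w₁ w₂ ∈ F₀ := hB0 _ _ hw₁ hw₂
        have hb0 : Bh φ n w₁ w₂ ≠ 0 := by
          intro h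
          rw [h, mul_zero] at hprod
          exact hlam0 hprod.symm
        have hl₂ : l₂ ≠ 0 := by
          rintro rfl
          rw [mul_zero, zero_mul] at hprod
          exact hlam0 hprod.symm
        have hmem : φ l₁ * l₂ ∈ F₀ := by
          have e3 : φ l₁ * l₂ = lam / Bh φ n w₁ w₂ := by
            field_simp
            linear_combination hprod
          rw [e3]
          exact F₀.div_mem hlam hb
        have hfix := hF1 _ hmem
        rw [map_mul, hφ2] at hfix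
        have hr : l₁ / l₂ ∈ F₀ := by
          apply hF2
          rw [map_div₀]
          have hφl₂ : φ l₂ ≠ 0 := (map_ne_zero φ).mpr hl₂
          field_simp
          linear_combination -hfix
        refine ⟨l₂, (l₁ / l₂) • w₁ + w₂, V0_add F₀ P (V0_smul F₀ P _ hr hw₁) hw₂, ?_⟩
        have e4 : x = lam • e + (x - lam • e) := by abel
        rw [e4, Matrix.mulVec_add, hg₁, hg₂, smul_add, smul_smul, mul_div_cancel₀ _ hl₂]
      obtain ⟨l, hl0, h2'⟩ := proj_arg F₀ P φ hF1 hF2 hφ2 θ hθ' (by omega) g h1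
      exact crit F₀ P g l hl0 h2'
    · right
      push Not at hcase
      obtain ⟨g, hgM, x₁, hx₁, hx₁x₁, hbad⟩ := hcase
      obtain ⟨u, hu, hu0, huS⟩ := config F₀ P φ hF1 hF2 hφ2 θ hθ hθ0 h2 hB0 hφq hodd₀ M hHM hMK
        hn g hgM hx₁ hx₁x₁ hbad
      apply le_antisymm hMK
      apply gen φ hφq hφ2 hF (by omega) (by omega) M
      have hS₀ : ∀ s, V0 F₀ P s → Bh φ n s s = 0 → s ∈ Sset φ q M := fun s hs hss =>
        sing_all F₀ P φ hF1 hF2 hφ2 θ hθ hθ0 h2 hB0 hφq hodd₀ M hHM hMK (by omega) hu hu0 huS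
          hs hss
      intro v c hv hc
      exact (all_iso F₀ P φ hF1 hF2 hφ2 θ hθ hθ0 h2 hB0 hφq hodd₀ M hMK (by omega) hS₀ v hv).2
        c hc

end Cfsg.Agent.S5659
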