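import Mathlib
import Cfsg.Statements.S5682
import Cfsg.Agent.S5678

set_option autoImplicit false
open Cfsg

namespace Cfsg.Agent.S5682

open Matrix
open scoped Kronecker
open Cfsg.Agent.Lib.Helper16 (qfOdd qfOdd_coe qfOdd_nondeg)
open Cfsg.Agent.S5676 (rr rr_mem rr_mulVec omega_isom ginj gperp gns grep toQF toQF_nondeg)
open Cfsg.Agent.S5678 (three_zero el3 stab_of_maps Good good3)

section tensor

variable {ι : Type} [Fintype ι] [DecidableEq ι] {F : Type*} [Field F] {n₁ n₂ : ℕ}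
  (e : ι ≃ Fin n₁ × Fin n₂) (P : Matrix.GeneralLinearGroup ι F)

/-- pure tensors in the coordinates of a tensor structure -/
def tens (u : Fin n₁ → F) (w : Fin n₂ → F) : ι → F :=
  (P : Matrix ι ι F) *ᵥ ((fun p : Fin n₁ × Fin n₂ => u p.1 * w p.2) ∘ e)

theorem tens_add_right (u : Fin n₁ → F) (w w' : Fin n₂ → F) :
    tens e P u (w + w') = tens e P u w + tens e P u w' := by
  unfold tens
  rw [← Matrix.mulVec_add]
  congr 1
  funext i
  simp [mul_add]

theorem tens_smul_right (c : F) (u : Fin n₁ → F) (w : Fin n₂ → F) :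
    tens e P u (c • w) = c • tens e P u w := by
  unfold tens
  rw [← Matrix.mulVec_smul]
  congr 1
  funext i
  simp [mul_left_comm]

theorem tens_add_left (u u' : Fin n₁ → F) (w : Fin n₂ → F) :
    tens e P (u + u') w = tens e P u w + tens e P u' w := by
  unfold tens
  rw [← Matrix.mulVec_add]
  congr 1
  funext i
  simp [add_mul]

theorem tens_smul_left (c : F) (u : Fin n₁ → F) (w : Fin n₂ → F) :
    tens e P (c • u) w = c • tens e P u w := by
  unfold tens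
  rw [← Matrix.mulVec_smul]
  congr 1
  funext i
  simp [mul_assoc]

theorem tens_neg_left (u : Fin n₁ → F) (w : Fin n₂ → F) :
    tens e P (-u) w = tens e P u (-w) := by
  unfold tens
  congr 1
  funext i
  simp

theorem tens_sub_right (u : Fin n₁ → F) (w w' : Fin n₂ → F) :
    tens e P u (w - w') = tens e P u w - tens e P u w' := by
  unfold tens
  rw [← Matrix.mulVec_sub]
  congr 1
  funext i
  simp [mul_sub]

theorem tens_neg_right (u : Fin n₁ → F) (w : Fin n₂ → F) :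
    tens e P u (-w) = -tens e P u w := by
  unfold tens
  rw [← Matrix.mulVec_neg]
  congr 1
  funext i
  simp

theorem tens_inj {u u' : Fin n₁ → F} {w w' : Fin n₂ → F}
    (h : tens e P u w = tens e P u' w') (i : Fin n₁) (j : Fin n₂) :
    u i * w j = u' i * w' j := by
  have h1 := ginj P h
  have h2 := congrFun h1 (e.symm (i, j))
  simpa using h2

theorem kron_mulVec (a : Matrix (Fin n₁) (Fin n₁) F) (b : Matrix (Fin n₂) (Fin n₂) F)
    (u : Fin n₁ → F) (w : Fin n₂ → F) :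
    (a ⊗ₖ b) *ᵥ (fun p : Fin n₁ × Fin n₂ => u p.1 * w p.2) =
      fun p => (a *ᵥ u) p.1 * (b *ᵥ w) p.2 := by
  funext p
  simp only [Matrix.mulVec, dotProduct, Matrix.kroneckerMap_apply, Fintype.sum_prod_type]
  rw [Finset.sum_mul_sum]
  apply Finset.sum_congr rfl
  intro i _
  apply Finset.sum_congr rfl
  intro j _
  ring

/-- the elements of the tensor product subgroup act factorwise on pure tensors -/
theorem tensor_act {g : Matrix.GeneralLinearGroup ι F}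
    (hg : g ∈ Geo.tensorProductSubgroup n₁ n₂ e P) :
    ∃ (a : Matrix (Fin n₁) (Fin n₁) F) (b : Matrix (Fin n₂) (Fin n₂) F),
      ∀ (u : Fin n₁ → F) (w : Fin n₂ → F),
        (g : Matrix ι ι F) *ᵥ tens e P u w = tens e P (a *ᵥ u) (b *ᵥ w) := by
  obtain ⟨y, ⟨k, ⟨a, b, hk⟩, rfl⟩, rfl⟩ := hg
  refine ⟨a, b, fun u w => ?_⟩
  have h1 : (((MulAut.conj P).toMonoidHom ((Geo.glReindex e.symm).toMonoidHom k) :
      Matrix.GeneralLinearGroup ι F) : Matrix ι ι F)
      = (P : Matrix ι ι F) * ((k : Matrix (Fin n₁ × Fin n₂) (Fin n₁ × Fin n₂) F).submatrix e e)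
        * ((P⁻¹ : Matrix.GeneralLinearGroup ι F) : Matrix ι ι F) := rfl
  rw [h1]
  unfold tens
  rw [Matrix.mulVec_mulVec, mul_assoc, mul_assoc, ← Units.val_mul, inv_mul_cancel, Units.val_one,
    mul_one, ← Matrix.mulVec_mulVec]
  congr 1
  rw [hk]
  funext i
  have h2 := congrFun (kron_mulVec (a : Matrix (Fin n₁) (Fin n₁) F)
    (b : Matrix (Fin n₂) (Fin n₂) F) u w) (e i)
  show (((a : Matrix (Fin n₁) (Fin n₁) F) ⊗ₖ (b : Matrix (Fin n₂) (Fin n₂) F)).submatrix e e *ᵥ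
      ((fun p : Fin n₁ × Fin n₂ => u p.1 * w p.2) ∘ e)) i =
    ((a : Matrix (Fin n₁) (Fin n₁) F) *ᵥ u) (e i).1 * ((b : Matrix (Fin n₂) (Fin n₂) F) *ᵥ w) (e i).2
  rw [← h2]
  simp only [Matrix.mulVec, dotProduct, Matrix.submatrix_apply, Function.comp_apply]
  exact Fintype.sum_equiv e _ _ (fun _ => rfl)

theorem formOfGram_kron (σ : F → F) (hσ : ∀ a b, σ (a * b) = σ a * σ b)
    (G₁ : Matrix (Fin n₁) (Fin n₁) F) (G₂ : Matrix (Fin n₂) (Fin n₂) F)
    (u u' : Fin n₁ → F) (w w' : Fin n₂ → F) :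
    Geo.formOfGram σ (G₁ ⊗ₖ G₂) (fun p : Fin n₁ × Fin n₂ => u p.1 * w p.2)
      (fun p : Fin n₁ × Fin n₂ => u' p.1 * w' p.2) =
      Geo.formOfGram σ G₁ u u' * Geo.formOfGram σ G₂ w w' := by
  unfold Geo.formOfGram
  simp only [Fintype.sum_prod_type, Matrix.kroneckerMap_apply, hσ, Finset.sum_mul_sum]
  apply Finset.sum_congr rfl
  intro a _
  apply Finset.sum_congr rfl
  intro b _
  apply Finset.sum_congr rfl
  intro a' _
  apply Finset.sum_congr rfl
  intro b' _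
  ring

theorem gram_eq_bilin {κ : Type} [Fintype κ] [DecidableEq κ] {f : (κ → F) → (κ → F) → F}
    (hf : Geo.IsBilinearForm f) (x y : κ → F) :
    f x y = Geo.formOfGram id (Geo.gramMatrix f) x y := by
  let B : LinearMap.BilinForm F (κ → F) :=
    LinearMap.mk₂ F f hf.add_left hf.smul_left hf.add_right hf.smul_right
  have hx : x = ∑ a, x a • (Pi.single a 1 : κ → F) := by
    funext i
    simp [Finset.sum_apply, Pi.single_apply]
  have hy : y = ∑ a, y a • (Pi.single a 1 : κ → F) := by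
    funext i
    simp [Finset.sum_apply, Pi.single_apply]
  have h1 : f x y = B (∑ a, x a • (Pi.single a 1 : κ → F))
      (∑ a, y a • (Pi.single a 1 : κ → F)) := by
    rw [← hx, ← hy]
    rfl
  rw [h1]
  unfold Geo.formOfGram Geo.gramMatrix
  simp only [map_sum, LinearMap.sum_apply, map_smul, LinearMap.smul_apply, smul_eq_mul, id,
    Finset.mul_sum]
  rw [Finset.sum_comm]
  apply Finset.sum_congr rfl
  intro a _
  apply Finset.sum_congr rfl
  intro b _
  have : B (Pi.single a 1) (Pi.single b 1) = f (Pi.single a 1) (Pi.single b 1) := rfl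
  rw [this]
  ring

/-- the tensor form on pure tensors -/
theorem form_tens {f : (ι → F) → (ι → F) → F} {f₁ : (Fin n₁ → F) → (Fin n₁ → F) → F}
    {f₂ : (Fin n₂ → F) → (Fin n₂ → F) → F} (hf₁ : Geo.IsBilinearForm f₁)
    (hf₂ : Geo.IsBilinearForm f₂) {c : F}
    (hform : ∀ x y : Fin n₁ × Fin n₂ → F,
      f ((P : Matrix ι ι F) *ᵥ (x ∘ e)) ((P : Matrix ι ι F) *ᵥ (y ∘ e)) =
        c * Geo.formOfGram id (Geo.gramMatrix f₁ ⊗ₖ Geo.gramMatrix f₂) x y)
    (u : Fin n₁ → F) (w : Fin n₂ → F) (u' : Fin n₁ → F) (w' : Fin n₂ → F) :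
    f (tens e P u w) (tens e P u' w') = c * (f₁ u u' * f₂ w w') := by
  have h := hform (fun p => u p.1 * w p.2) (fun p => u' p.1 * w' p.2)
  rw [formOfGram_kron id (fun _ _ => rfl), ← gram_eq_bilin hf₁, ← gram_eq_bilin hf₂] at h
  exact h

/-- the determinant identity for a similarity of a bilinear form -/
theorem sim_det {κ : Type} [Fintype κ] [DecidableEq κ] {f : (κ → F) → (κ → F) → F}
    (hf : Geo.IsBilinearForm f) (A : Matrix κ κ F) (μ : F)
    (h : ∀ u u' : κ → F, f (A *ᵥ u) (A *ᵥ u') = μ * f u u') :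
    A.det * (Geo.gramMatrix f).det * A.det = μ ^ Fintype.card κ * (Geo.gramMatrix f).det := by
  have hM : Aᵀ * Geo.gramMatrix f * A = μ • Geo.gramMatrix f := by
    ext i j
    have h1 := h (Pi.single i 1) (Pi.single j 1)
    rw [gram_eq_bilin hf] at h1
    have h2 : μ * f (Pi.single i 1) (Pi.single j 1) = (μ • Geo.gramMatrix f) i j := rfl
    rw [← h2, ← h1]
    unfold Geo.formOfGram
    simp only [Matrix.mul_apply, Matrix.transpose_apply, Matrix.mulVec_single_one, id,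
      Matrix.col_apply, Finset.sum_mul]
    rw [Finset.sum_comm]
  have h3 := congrArg Matrix.det hM
  rw [Matrix.det_mul, Matrix.det_mul, Matrix.det_transpose, Matrix.det_smul] at h3
  exact h3

theorem gram_det_ne {κ : Type} [Fintype κ] [DecidableEq κ] {f : (κ → F) → (κ → F) → F}
    (hf : Geo.IsBilinearForm f) (hnd : Geo.IsNondegenerateForm f) :
    (Geo.gramMatrix f).det ≠ 0 := by
  intro h0
  obtain ⟨x, hx0, hx⟩ := Matrix.exists_mulVec_eq_zero_iff.mpr h0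
  obtain ⟨⟨y, hy⟩, -⟩ := hnd x hx0
  apply hy
  rw [gram_eq_bilin hf]
  unfold Geo.formOfGram
  apply Finset.sum_eq_zero
  intro a _
  have h1 : ∑ b, y a * Geo.gramMatrix f a b * id (x b)
      = y a * (Geo.gramMatrix f *ᵥ x) a := by
    simp only [Matrix.mulVec, dotProduct, Finset.mul_sum, id, mul_assoc]
  rw [h1, hx]
  simp

/-- over the field with three elements a non-degenerate symmetric bilinear form is the polar
form of a quadratic form -/
theorem qf3_nd {κ : Type} [Fintype κ] [DecidableEq κ] (h3 : (3 : F) = 0)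
    {f : (κ → F) → (κ → F) → F} (hf : Geo.IsSymmetricForm f) :
    Geo.IsNondegenerateQuadraticForm (fun x => - f x x) ∧
      ∀ x y, QuadraticMap.polar (fun x => - f x x) x y = f x y := by
  have hpol : ∀ x y, QuadraticMap.polar (fun x => - f x x) x y = f x y := by
    intro x y
    show -f (x + y) (x + y) - -f x x - -f y y = f x y
    rw [hf.bilinear.add_left, hf.bilinear.add_right, hf.bilinear.add_right, hf.symm y x]
    linear_combination (-(f x y)) * h3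
  have hfun : QuadraticMap.polar (fun x => - f x x) = f := by
    funext x y
    exact hpol x y
  refine ⟨⟨fun c v => ?_, ?_, ?_⟩, hpol⟩
  · show -f (c • v) (c • v) = c ^ 2 * -f v v
    rw [hf.bilinear.smul_left, hf.bilinear.smul_right]
    ring
  · rw [hfun]
    exact hf.bilinear
  · rw [hfun]
    exact hf.nondegenerate

end tensor

section main

variable {ι : Type} [Fintype ι] [DecidableEq ι] {F : Type*} [Field F] [Fintype F]
  (Q : QuadraticForm F (ι → F)) (hQ : (QuadraticMap.polarBilin Q).Nondegenerate)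

local notation "Bp" => QuadraticMap.polar (DFunLike.coe Q)

include hQ in
/-- over the field with three elements the stabiliser in Ω of a tensor decomposition with a
three-dimensional orthogonal factor is not maximal: it preserves the set of pure tensors
whose first factor lies in the frame of the three-dimensional space. -/
theorem tensor3_not_max (hq : Fintype.card F = 3) {n₂ : ℕ} (hn₂ : 5 ≤ n₂)
    (e : ι ≃ Fin 3 × Fin n₂) (P : Matrix.GeneralLinearGroup ι F)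
    (f₁ : (Fin 3 → F) → (Fin 3 → F) → F) (f₂ : (Fin n₂ → F) → (Fin n₂ → F) → F)
    (hf₁ : Geo.IsSymmetricForm f₁) (hf₂ : Geo.IsSymmetricForm f₂)
    (hT : Geo.IsTensorFormStructure id (QuadraticMap.polar (⇑Q)) f₁ f₂ e P) :
    ∃ K : Subgroup (Matrix.GeneralLinearGroup ι F),
      Geo.tensorProductSubgroup 3 n₂ e P ⊓ Geo.omegaGL (⇑Q) < K ∧ K < Geo.omegaGL (⇑Q) := by
  classical
  have h3 : (3 : F) = 0 := three_zero hq
  have h2 : (2 : F) ≠ 0 := by
    intro h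
    exact one_ne_zero (by linear_combination h3 - h : (1 : F) = 0)
  have hodd : Odd (Fintype.card F) := by
    rw [hq]
    decide
  have hadd : ∀ x y : ι → F, Q (x + y) = Q x + Q y + Bp x y := fun x y =>
    QuadraticMap.map_add (⇑Q) x y
  have hBxx : ∀ x : ι → F, Bp x x = 2 * Q x := fun x => by
    rw [QuadraticMap.polar_self]
    simp
  have hBc : ∀ x y : ι → F, Bp x y = Bp y x := fun x y => QuadraticMap.polar_comm _ x y
  have hBl : ∀ x y : ι → F, Bp x y = QuadraticMap.polarBilin Q x y := fun _ _ => rfl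
  have hex : Fintype.card F ≠ 2 ∨ Fintype.card ι ≠ 4 := Or.inl (by omega)
  have hneg : ∀ x : ι → F, Q (-x) = Q x := fun x => QuadraticMap.map_neg Q x
  have hsub : ∀ x y : ι → F, Q (x - y) = Q x + Q y - Bp x y := by
    intro x y
    rw [sub_eq_add_neg, hadd, hneg, hBl, map_neg, ← hBl]
    ring
  have hBsub : ∀ x y z : ι → F, Bp (x - y) z = Bp x z - Bp y z := by
    intro x y z
    rw [hBl, map_sub, LinearMap.sub_apply, ← hBl, ← hBl]
  have hBadd : ∀ x y z : ι → F, Bp (x + y) z = Bp x z + Bp y z := by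
    intro x y z
    rw [hBl, map_add, LinearMap.add_apply, ← hBl, ← hBl]
  have hBaddr : ∀ x y z : ι → F, Bp x (y + z) = Bp x y + Bp x z := by
    intro x y z
    rw [hBl, map_add, ← hBl, ← hBl]
  obtain ⟨c, hc0, hform⟩ := hT
  have hB : ∀ (u : Fin 3 → F) (w : Fin n₂ → F) (u' : Fin 3 → F) (w' : Fin n₂ → F),
      Bp (tens e P u w) (tens e P u' w') = c * (f₁ u u' * f₂ w w') :=
    fun u w u' w' => form_tens e P hf₁.bilinear hf₂.bilinear hform u w u' w'
  obtain ⟨hnd₁, hpol₁⟩ := qf3_nd h3 hf₁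
  obtain ⟨hnd₂, hpol₂⟩ := qf3_nd h3 hf₂
  have hf₁0 : ∀ y : Fin 3 → F, f₁ 0 y = 0 := fun y => by
    have h := hf₁.bilinear.smul_left 0 0 y
    simpa using h
  have hf₂0 : ∀ y : Fin n₂ → F, f₂ 0 y = 0 := fun y => by
    have h := hf₂.bilinear.smul_left 0 0 y
    simpa using h
  -- the frame of the first factor
  obtain ⟨ε, hε, ⟨v₁, -, v₂, -, hQv₁, hQv₂, hv12⟩, hFP⟩ :=
    good3 (toQF _ hnd₁) hq ⊤
      (by rw [finrank_top, Module.finrank_fintype_fun_eq_card, Fintype.card_fin])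
      (by
        intro w _ hw
        obtain ⟨⟨x, hx⟩, ⟨y, hy⟩⟩ := hnd₁.nondegenerate w hw
        exact ⟨⟨x, Submodule.mem_top, hx⟩, ⟨y, Submodule.mem_top, hy⟩⟩)
  obtain ⟨η, hη⟩ : ∃ η : F, η = -ε := ⟨_, rfl⟩
  have hη0 : η ≠ 0 := by
    rw [hη]
    rcases hε with rfl | rfl
    · exact neg_ne_zero.mpr one_ne_zero
    · rw [neg_neg]
      exact one_ne_zero
  have hv₁η : f₁ v₁ v₁ = η := by
    have h : -f₁ v₁ v₁ = ε := hQv₁
    rw [hη]
    linear_combination -h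
  have hv₂η : f₁ v₂ v₂ = η := by
    have h : -f₁ v₂ v₂ = ε := hQv₂
    rw [hη]
    linear_combination -h
  have hv12' : f₁ v₁ v₂ = 0 := by
    rw [← hpol₁]
    exact hv12
  have FP' : ∀ x y : Fin 3 → F, f₁ x x = η → f₁ y y = η → f₁ x y = 0 ∨ y = x ∨ y = -x := by
    intro x y hx hy
    have h := hFP x Submodule.mem_top y Submodule.mem_top
      (by show -f₁ x x = ε; rw [hx, hη, neg_neg]) (by show -f₁ y y = ε; rw [hy, hη, neg_neg])
    rw [← hpol₁ x y]
    exact h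
  have hv₁0 : v₁ ≠ 0 := by
    intro h
    rw [h, hf₁0] at hv₁η
    exact hη0 hv₁η.symm
  have hv₂0 : v₂ ≠ 0 := by
    intro h
    rw [h, hf₁0] at hv₂η
    exact hη0 hv₂η.symm
  -- vectors of the second factor
  obtain ⟨wa, hwa, -⟩ := gns (toQF _ hnd₂) (toQF_nondeg _ hnd₂) (k := 0) (fun i => i.elim0)
    (by rw [Fintype.card_fin]; omega)
  obtain ⟨wb, hwb, hwbp⟩ := grep (toQF _ hnd₂) (toQF_nondeg _ hnd₂) hodd ![wa]
    (by rw [Fintype.card_fin]; omega) ((toQF _ hnd₂) wa)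
  obtain ⟨w0, hw0, hw0p⟩ := gperp (toQF _ hnd₂) (toQF_nondeg _ hnd₂) ![wa, wb]
    (by rw [Fintype.card_fin]; omega)
  obtain ⟨θ, hθ⟩ : ∃ θ : F, θ = f₂ wa wa := ⟨_, rfl⟩
  have hθ0 : θ ≠ 0 := by
    rw [hθ]
    intro h
    apply hwa
    show -f₂ wa wa = 0
    rw [h, neg_zero]
  have hbb : f₂ wb wb = θ := by
    have h : -f₂ wb wb = -f₂ wa wa := hwb
    rw [hθ]
    exact neg_injective h
  have hab : f₂ wa wb = 0 := by
    have h : QuadraticMap.polar (fun x => - f₂ x x) wa wb = 0 := hwbp 0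
    rw [hpol₂] at h
    exact h
  have hwa0 : f₂ wa w0 = 0 := by
    have h : QuadraticMap.polar (fun x => - f₂ x x) wa w0 = 0 := hw0p 0
    rw [hpol₂] at h
    exact h
  have hwb0 : f₂ wb w0 = 0 := by
    have h : QuadraticMap.polar (fun x => - f₂ x x) wb w0 = 0 := hw0p 1
    rw [hpol₂] at h
    exact h
  have hwane : wa ≠ 0 := by
    intro h
    rw [hθ, h, hf₂0] at hθ0
    exact hθ0 rfl
  obtain ⟨i₁, hi₁⟩ : ∃ i, v₁ i ≠ 0 := by
    by_contra hcon
    push Not at hcon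
    exact hv₁0 (funext hcon)
  obtain ⟨i₂, hi₂⟩ : ∃ i, v₂ i ≠ 0 := by
    by_contra hcon
    push Not at hcon
    exact hv₂0 (funext hcon)
  obtain ⟨ja, hja⟩ : ∃ j, wa j ≠ 0 := by
    by_contra hcon
    push Not at hcon
    exact hwane (funext hcon)
  obtain ⟨j0, hj0⟩ : ∃ j, w0 j ≠ 0 := by
    by_contra hcon
    push Not at hcon
    exact hw0 (funext hcon)
  -- the test vectors
  obtain ⟨a₁, ha₁⟩ : ∃ a, a = tens e P v₁ wa := ⟨_, rfl⟩
  obtain ⟨b₁, hb₁⟩ : ∃ a, a = tens e P v₁ wb := ⟨_, rfl⟩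
  obtain ⟨a₂, ha₂⟩ : ∃ a, a = tens e P v₂ wa := ⟨_, rfl⟩
  obtain ⟨β, hβ⟩ : ∃ β : F, β = c * (η * θ) := ⟨_, rfl⟩
  have hβ0 : β ≠ 0 := by
    rw [hβ]
    exact mul_ne_zero hc0 (mul_ne_zero hη0 hθ0)
  have haa : Bp a₁ a₁ = β := by rw [ha₁, hB, hv₁η, ← hθ, hβ]
  have hbb' : Bp b₁ b₁ = β := by rw [hb₁, hB, hv₁η, hbb, hβ]
  have ha₂a₂ : Bp a₂ a₂ = β := by rw [ha₂, hB, hv₂η, ← hθ, hβ]
  have hab' : Bp a₁ b₁ = 0 := by rw [ha₁, hb₁, hB, hab, mul_zero, mul_zero]
  have ha₁a₂ : Bp a₁ a₂ = 0 := by rw [ha₁, ha₂, hB, hv12', zero_mul, mul_zero]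
  have hb₁a₂ : Bp b₁ a₂ = 0 := by rw [hb₁, ha₂, hB, hv12', zero_mul, mul_zero]
  have hba : Bp b₁ a₁ = 0 := by rw [hBc, hab']
  have ha₂a₁ : Bp a₂ a₁ = 0 := by rw [hBc, ha₁a₂]
  have ha₂b₁ : Bp a₂ b₁ = 0 := by rw [hBc, hb₁a₂]
  have hβν : β = 2 * Q a₁ := by rw [← haa, hBxx]
  have hQb : Q b₁ = Q a₁ := by
    apply mul_left_cancel₀ h2
    rw [← hBxx, ← hBxx, haa, hbb']
  have hQa₂ : Q a₂ = Q a₁ := by
    apply mul_left_cancel₀ h2
    rw [← hBxx, ← hBxx, haa, ha₂a₂]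
  have hQa0 : Q a₁ ≠ 0 := by
    intro h
    rw [h, mul_zero] at hβν
    exact hβ0 hβν
  have hQb0 : Q b₁ ≠ 0 := by
    rw [hQb]
    exact hQa0
  -- the set of frame tensors
  obtain ⟨S, hS⟩ : ∃ S : Set (ι → F), S = {x | ∃ (u : Fin 3 → F) (w : Fin n₂ → F),
      f₁ u u = η ∧ x = tens e P u w} := ⟨_, rfl⟩
  have hSmem : ∀ x, x ∈ S ↔ ∃ (u : Fin 3 → F) (w : Fin n₂ → F),
      f₁ u u = η ∧ x = tens e P u w := by
    intro x
    rw [hS]
    rfl
  have hrefl : ∀ w₁ : Fin n₂ → F, ∀ x ∈ S,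
      x - ((Q (tens e P v₁ w₁))⁻¹ * Bp (tens e P v₁ w₁) x) • tens e P v₁ w₁ ∈ S := by
    intro w₁ x hx
    obtain ⟨u, w, hu, rfl⟩ := (hSmem x).mp hx
    rcases FP' v₁ u hv₁η hu with h0 | h1 | h1
    · rw [hB, h0, zero_mul, mul_zero, mul_zero, zero_smul, sub_zero]
      exact hx
    · rw [h1, ← tens_smul_right, ← tens_sub_right]
      exact (hSmem _).mpr ⟨v₁, _, hv₁η, rfl⟩
    · rw [h1, tens_neg_left, ← tens_smul_right, ← tens_sub_right]
      exact (hSmem _).mpr ⟨v₁, _, hv₁η, rfl⟩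
  -- the element of the larger group
  have hkΩ : rr Q a₁ b₁ hQa0 hQb0 ∈ Geo.omegaGL (⇑Q) := by
    apply rr_mem Q hQ hex
    rw [hQb]
    exact ⟨Q a₁, rfl⟩
  have hkS : rr Q a₁ b₁ hQa0 hQb0 ∈ Cfsg.stabilizing (Cfsg.glToMat ι F) S := by
    apply stab_of_maps
    intro x hx
    rw [rr_mulVec]
    have h1 := hrefl wb x hx
    rw [← hb₁] at h1
    have h2' := hrefl wa _ h1
    rw [← ha₁] at h2'
    exact h2'
  have hk_fix : ∀ x : ι → F, Bp a₁ x = 0 → Bp b₁ x = 0 →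
      ((rr Q a₁ b₁ hQa0 hQb0 : Matrix.GeneralLinearGroup ι F) : Matrix ι ι F) *ᵥ x = x := by
    intro x hax hbx
    rw [rr_mulVec, hbx, mul_zero, zero_smul, sub_zero, hax, mul_zero, zero_smul, sub_zero]
  have hk_a : ((rr Q a₁ b₁ hQa0 hQb0 : Matrix.GeneralLinearGroup ι F) : Matrix ι ι F) *ᵥ a₁
      = -a₁ := by
    rw [rr_mulVec, hba, mul_zero, zero_smul, sub_zero, hBxx,
      show (Q a₁)⁻¹ * (2 * Q a₁) = 2 by field_simp, two_smul]
    abel
  have hkT : rr Q a₁ b₁ hQa0 hQb0 ∉ Geo.tensorProductSubgroup 3 n₂ e P := by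
    intro hmem
    obtain ⟨A, B, hAB⟩ := tensor_act e P hmem
    have e1 : ∀ (w : Fin n₂ → F) (i : Fin 3) (j : Fin n₂),
        (A *ᵥ v₂) i * (B *ᵥ w) j = v₂ i * w j := by
      intro w i j
      have h := hAB v₂ w
      rw [hk_fix _ (by rw [ha₁, hB, hv12', zero_mul, mul_zero])
        (by rw [hb₁, hB, hv12', zero_mul, mul_zero])] at h
      exact (tens_inj e P h i j).symm
    have e2 : ∀ (i : Fin 3) (j : Fin n₂), (A *ᵥ v₁) i * (B *ᵥ w0) j = v₁ i * w0 j := by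
      intro i j
      have h := hAB v₁ w0
      rw [hk_fix _ (by rw [ha₁, hB, hwa0, mul_zero, mul_zero])
        (by rw [hb₁, hB, hwb0, mul_zero, mul_zero])] at h
      exact (tens_inj e P h i j).symm
    have e3 : ∀ (i : Fin 3) (j : Fin n₂), (A *ᵥ v₁) i * (B *ᵥ wa) j = v₁ i * (-wa) j := by
      intro i j
      have h := hAB v₁ wa
      rw [← ha₁, hk_a, ha₁, ← tens_neg_right] at h
      exact (tens_inj e P h i j).symm
    have hα : (A *ᵥ v₂) i₂ ≠ 0 := by
      intro h0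
      have h := e1 wa i₂ ja
      rw [h0, zero_mul] at h
      exact mul_ne_zero hi₂ hja h.symm
    have hBw : ∀ (w : Fin n₂ → F) (j : Fin n₂),
        (B *ᵥ w) j = ((A *ᵥ v₂) i₂)⁻¹ * v₂ i₂ * w j := by
      intro w j
      calc (B *ᵥ w) j = ((A *ᵥ v₂) i₂)⁻¹ * ((A *ᵥ v₂) i₂ * (B *ᵥ w) j) := by
            rw [← mul_assoc, inv_mul_cancel₀ hα, one_mul]
        _ = ((A *ᵥ v₂) i₂)⁻¹ * v₂ i₂ * w j := by
            rw [e1 w i₂ j]
            ring
    have h5 := e2 i₁ j0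
    rw [hBw] at h5
    have h6 : (A *ᵥ v₁) i₁ * (((A *ᵥ v₂) i₂)⁻¹ * v₂ i₂) = v₁ i₁ := by
      apply mul_right_cancel₀ hj0
      linear_combination h5
    have h7 := e3 i₁ ja
    rw [hBw] at h7
    have h8 : 2 * (v₁ i₁ * wa ja) = 0 := by
      have h9 : (-wa) ja = -(wa ja) := rfl
      rw [h9] at h7
      linear_combination h7 - (wa ja) * h6
    exact mul_ne_zero h2 (mul_ne_zero hi₁ hja) h8
  -- the element outside
  have hQc : Q (a₁ + a₂) = 2 * Q a₁ := by
    rw [hadd, hQa₂, ha₁a₂]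
    ring
  have hQd : Q (a₁ - b₁) = 2 * Q a₁ := by
    rw [hsub, hQb, hab']
    ring
  have h2Q : 2 * Q a₁ ≠ 0 := mul_ne_zero h2 hQa0
  have hQc0 : Q (a₁ + a₂) ≠ 0 := by
    rw [hQc]
    exact h2Q
  have hQd0 : Q (a₁ - b₁) ≠ 0 := by
    rw [hQd]
    exact h2Q
  have hωΩ : rr Q (a₁ + a₂) (a₁ - b₁) hQc0 hQd0 ∈ Geo.omegaGL (⇑Q) := by
    apply rr_mem Q hQ hex
    rw [hQc, hQd]
    exact ⟨2 * Q a₁, rfl⟩
  have hωz : ((rr Q (a₁ + a₂) (a₁ - b₁) hQc0 hQd0 : Matrix.GeneralLinearGroup ι F) :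
      Matrix ι ι F) *ᵥ (a₁ + b₁) = b₁ - a₂ := by
    have hd : Bp (a₁ - b₁) (a₁ + b₁) = 0 := by
      rw [hBsub, hBaddr, hBaddr, haa, hab', hba, hbb']
      ring
    have hcz : Bp (a₁ + a₂) (a₁ + b₁) = 2 * Q a₁ := by
      rw [hBadd, hBaddr, hBaddr, haa, hab', ha₂a₁, ha₂b₁, hβν]
      ring
    rw [rr_mulVec, hd, mul_zero, zero_smul, sub_zero, hcz, hQc, inv_mul_cancel₀ h2Q, one_smul]
    abel
  refine ⟨Cfsg.stabilizing (Cfsg.glToMat ι F) S ⊓ Geo.omegaGL (⇑Q), ?_, ?_⟩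
  · refine lt_iff_le_not_ge.mpr ⟨?_, fun hle => hkT (hle ⟨hkS, hkΩ⟩).1⟩
    intro g hg
    refine ⟨?_, hg.2⟩
    obtain ⟨A, B, hAB⟩ := tensor_act e P hg.1
    have hgB : ∀ x y : ι → F, Bp ((g : Matrix ι ι F) *ᵥ x) ((g : Matrix ι ι F) *ᵥ y)
        = Bp x y := by
      intro x y
      unfold QuadraticMap.polar
      rw [← Matrix.mulVec_add, omega_isom Q hg.2, omega_isom Q hg.2, omega_isom Q hg.2]
    have hsim : ∀ u u' : Fin 3 → F,
        f₁ (A *ᵥ u) (A *ᵥ u') * f₂ (B *ᵥ wa) (B *ᵥ wa) = f₁ u u' * θ := by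
      intro u u'
      have h := hgB (tens e P u wa) (tens e P u' wa)
      rw [hAB, hAB, hB, hB, ← hθ] at h
      exact mul_left_cancel₀ hc0 h
    have hθ' : f₂ (B *ᵥ wa) (B *ᵥ wa) ≠ 0 := by
      intro h0
      have h := hsim v₁ v₁
      rw [h0, mul_zero, hv₁η] at h
      exact mul_ne_zero hη0 hθ0 h.symm
    obtain ⟨μ, hμ⟩ : ∃ μ : F, μ = θ * (f₂ (B *ᵥ wa) (B *ᵥ wa))⁻¹ := ⟨_, rfl⟩
    have hμ0 : μ ≠ 0 := by
      rw [hμ]
      exact mul_ne_zero hθ0 (inv_ne_zero hθ')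
    have hsim' : ∀ u u' : Fin 3 → F, f₁ (A *ᵥ u) (A *ᵥ u') = μ * f₁ u u' := by
      intro u u'
      have h := hsim u u'
      rw [hμ]
      calc f₁ (A *ᵥ u) (A *ᵥ u')
          = f₁ (A *ᵥ u) (A *ᵥ u') * f₂ (B *ᵥ wa) (B *ᵥ wa) * (f₂ (B *ᵥ wa) (B *ᵥ wa))⁻¹ := by
            rw [mul_assoc, mul_inv_cancel₀ hθ', mul_one]
        _ = θ * (f₂ (B *ᵥ wa) (B *ᵥ wa))⁻¹ * f₁ u u' := by
            rw [h]
            ring
    have hdet := sim_det hf₁.bilinear A μ hsim'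
    rw [Fintype.card_fin] at hdet
    have hG := gram_det_ne hf₁.bilinear hf₁.nondegenerate
    have hdet' : A.det * A.det = μ ^ 3 := by
      apply mul_right_cancel₀ hG
      linear_combination hdet
    have hμ1 : μ = 1 := by
      rcases el3 hq μ with h | h | h
      · exact absurd h hμ0
      · exact h
      · exfalso
        rw [h] at hdet'
        rcases el3 hq A.det with h' | h' | h'
        · rw [h'] at hdet'
          exact one_ne_zero (by linear_combination hdet' : (1 : F) = 0)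
        · rw [h'] at hdet'
          exact h2 (by linear_combination hdet')
        · rw [h'] at hdet'
          exact h2 (by linear_combination hdet')
    apply stab_of_maps
    intro x hx
    obtain ⟨u, w, hu, rfl⟩ := (hSmem x).mp hx
    rw [hAB]
    exact (hSmem _).mpr ⟨A *ᵥ u, B *ᵥ w, by rw [hsim', hμ1, one_mul, hu], rfl⟩
  · refine lt_iff_le_not_ge.mpr ⟨inf_le_right, fun hle => ?_⟩
    have hz : a₁ + b₁ ∈ S :=
      (hSmem _).mpr ⟨v₁, wa + wb, hv₁η, by rw [tens_add_right, ha₁, hb₁]⟩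
    have h1 := ((hle hωΩ).1 (a₁ + b₁)).mp hz
    have h1' : ((rr Q (a₁ + a₂) (a₁ - b₁) hQc0 hQd0 : Matrix.GeneralLinearGroup ι F) :
        Matrix ι ι F) *ᵥ (a₁ + b₁) ∈ S := h1
    rw [hωz] at h1'
    obtain ⟨u, w, hu, hx⟩ := (hSmem _).mp h1'
    have t1 : Bp (b₁ - a₂) b₁ = β := by rw [hBsub, hbb', ha₂b₁, sub_zero]
    have t2 : Bp (b₁ - a₂) a₂ = -β := by rw [hBsub, hb₁a₂, ha₂a₂, zero_sub]
    rw [hx, hb₁, hB] at t1
    rw [hx, ha₂, hB] at t2
    have hu1 : f₁ u v₁ ≠ 0 := by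
      intro h
      rw [h, zero_mul, mul_zero] at t1
      exact hβ0 t1.symm
    have hu2 : f₁ u v₂ ≠ 0 := by
      intro h
      rw [h, zero_mul, mul_zero] at t2
      exact hβ0 (neg_eq_zero.mp t2.symm)
    rcases FP' v₁ u hv₁η hu with h0 | h1 | h1
    · exact hu1 (by rw [hf₁.symm, h0])
    · exact hu2 (by rw [h1, hv12'])
    · apply hu2
      have h9 : -v₁ = (-1 : F) • v₁ := by simp
      rw [h1, h9, hf₁.bilinear.smul_left, hv12', mul_zero]

end main

/-- Let F be the field with 3 elements, m ≥ 6, Q the standard quadratic form on F^(2m+1) and Ω the commutator subgroup of its isometry group. Suppose the polar form of Q is similar, through P and e, to the tensor product of non-degenerate symmetric bilinear forms f₁ on F^3 and f₂ on F^(n₂) with 3 < n₂. Then the elements of Ω in the stabiliser of this tensor decomposition form a subgroup that is not maximal: some subgroup lies strictly between it and Ω. -/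
theorem result {F : Type*} [Field F] [Fintype F] (hq : Fintype.card F = 3) (m : ℕ) (hm : 6 ≤ m) (n₂ : ℕ) (h2 : 3 < n₂) (e : (Unit ⊕ (Fin m ⊕ Fin m)) ≃ Fin 3 × Fin n₂) (P : Matrix.GeneralLinearGroup (Unit ⊕ (Fin m ⊕ Fin m)) F) (f₁ : (Fin 3 → F) → (Fin 3 → F) → F) (f₂ : (Fin n₂ → F) → (Fin n₂ → F) → F) (hf₁ : Cfsg.Geo.IsSymmetricForm f₁) (hf₂ : Cfsg.Geo.IsSymmetricForm f₂) (hT : Cfsg.Geo.IsTensorFormStructure id (QuadraticMap.polar (Cfsg.quadFormOdd m F)) f₁ f₂ e P) : ∃ K : Subgroup (Matrix.GeneralLinearGroup (Unit ⊕ (Fin m ⊕ Fin m)) F), Cfsg.Geo.tensorProductSubgroup 3 n₂ e P ⊓ Cfsg.Geo.omegaGL (Cfsg.quadFormOdd m F) < K ∧ K < Cfsg.Geo.omegaGL (Cfsg.quadFormOdd m F) := by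
  have hodd : Odd (Fintype.card F) := by
    rw [hq]
    decide
  have h2' : (2 : F) ≠ 0 := Cfsg.Agent.S5644.two_ne hodd
  have hcard := Fintype.card_congr e
  simp only [Fintype.card_sum, Fintype.card_unit, Fintype.card_fin, Fintype.card_prod] at hcard
  exact tensor3_not_max (qfOdd m F) (qfOdd_nondeg m F h2') hq (by omega) e P f₁ f₂ hf₁ hf₂ hT

end Cfsg.Agent.S5682
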