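import Mathlib
import Cfsg.Statements.S5667
import Cfsg.Agent.S5682
import Cfsg.Agent.S5645

set_option autoImplicit false
open Cfsg

namespace Cfsg.Agent.S5667

open Matrix
open scoped Kronecker
open Cfsg.Agent.S5676 (toQF toQF_nondeg)
open Cfsg.Agent.S5678 (three_zero el3 stab_of_maps Good good3)
open Cfsg.Agent.S5682 (tens tens_add_left tens_smul_left tens_neg_left tens_add_right
  tens_smul_right tens_inj tensor_act form_tens sim_det gram_det_ne qf3_nd)
open Cfsg.Agent.S5645 (tv tv_mulVec tv_mem mem_spGL_iff)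

/-- Over the field with 3 elements and for m ≥ 7, suppose the standard alternating form on F^(2m) is similar, through P and e, to the tensor product of a non-degenerate symplectic form f₁ on F^(n₁) and a non-degenerate symmetric bilinear form f₂ on F^3. Then the elements of Sp_2m(3) in the stabiliser of this tensor decomposition form a subgroup that is not maximal: some subgroup lies strictly between it and Sp_2m(3). -/
theorem result {F : Type*} [Field F] [Fintype F] (m : ℕ) (hm : 7 ≤ m) (hq : Fintype.card F = 3) (n₁ : ℕ) (e : (Fin m ⊕ Fin m) ≃ Fin n₁ × Fin 3) (P : Matrix.GeneralLinearGroup (Fin m ⊕ Fin m) F) (f₁ : (Fin n₁ → F) → (Fin n₁ → F) → F) (f₂ : (Fin 3 → F) → (Fin 3 → F) → F) (hf₁ : Cfsg.Geo.IsSymplecticForm f₁) (hf₂ : Cfsg.Geo.IsSymmetricForm f₂) (hT : Cfsg.Geo.IsTensorFormStructure id (Cfsg.sympForm m F) f₁ f₂ e P) : ∃ K : Subgroup (Matrix.GeneralLinearGroup (Fin m ⊕ Fin m) F), Cfsg.Geo.tensorProductSubgroup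 n₁ 3 e P ⊓ Cfsg.spGL m F < K ∧ K < Cfsg.spGL m F := by
  classical
  have h3 : (3 : F) = 0 := three_zero hq
  have h2 : (2 : F) ≠ 0 := by
    intro h
    exact one_ne_zero (by linear_combination h3 - h : (1 : F) = 0)
  have hfl : ∀ x y : Fin m ⊕ Fin m → F,
      sympForm m F x y = Cfsg.Agent.S0768.BJ (F := F) m x y :=
    fun x y => (Cfsg.Agent.S0768.BJ_apply m x y).symm
  have hfadd : ∀ x y z : Fin m ⊕ Fin m → F,
      sympForm m F (x + y) z = sympForm m F x z + sympForm m F y z := by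
    intro x y z
    rw [hfl, hfl, hfl, map_add, LinearMap.add_apply]
  have hfsmul : ∀ (a : F) (x z : Fin m ⊕ Fin m → F),
      sympForm m F (a • x) z = a * sympForm m F x z :=
    fun a x z => Cfsg.Agent.S5645.form_smul_left m x z a
  obtain ⟨c, hc0, hform⟩ := hT
  have hB : ∀ (w : Fin n₁ → F) (u : Fin 3 → F) (w' : Fin n₁ → F) (u' : Fin 3 → F),
      sympForm m F (tens e P w u) (tens e P w' u') = c * (f₁ w w' * f₂ u u') :=
    fun w u w' u' => form_tens e P hf₁.bilinear hf₂.bilinear hform w u w' u'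
  obtain ⟨hnd₂, hpol₂⟩ := qf3_nd h3 hf₂
  have hf₂0 : ∀ y : Fin 3 → F, f₂ 0 y = 0 := fun y => by
    have h := hf₂.bilinear.smul_left 0 0 y
    simpa using h
  -- the frame of the second factor
  obtain ⟨ε, hε, ⟨v₁, -, v₂, -, hQv₁, hQv₂, hv12⟩, hFP⟩ :=
    good3 (toQF _ hnd₂) hq ⊤
      (by rw [finrank_top, Module.finrank_fintype_fun_eq_card, Fintype.card_fin])
      (by
        intro w _ hw
        obtain ⟨⟨x, hx⟩, ⟨y, hy⟩⟩ := hnd₂.nondegenerate w hw
        exact ⟨⟨x, Submodule.mem_top, hx⟩, ⟨y, Submodule.mem_top, hy⟩⟩)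
  obtain ⟨η, hη⟩ : ∃ η : F, η = -ε := ⟨_, rfl⟩
  have hη0 : η ≠ 0 := by
    rw [hη]
    rcases hε with rfl | rfl
    · exact neg_ne_zero.mpr one_ne_zero
    · rw [neg_neg]
      exact one_ne_zero
  have hv₁η : f₂ v₁ v₁ = η := by
    have h : -f₂ v₁ v₁ = ε := hQv₁
    rw [hη]
    linear_combination -h
  have hv₂η : f₂ v₂ v₂ = η := by
    have h : -f₂ v₂ v₂ = ε := hQv₂
    rw [hη]
    linear_combination -h
  have hv12' : f₂ v₁ v₂ = 0 := by
    rw [← hpol₂]
    exact hv12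
  have hv21' : f₂ v₂ v₁ = 0 := by rw [hf₂.symm, hv12']
  have FP' : ∀ x y : Fin 3 → F, f₂ x x = η → f₂ y y = η → f₂ x y = 0 ∨ y = x ∨ y = -x := by
    intro x y hx hy
    have h := hFP x Submodule.mem_top y Submodule.mem_top
      (by show -f₂ x x = ε; rw [hx, hη, neg_neg]) (by show -f₂ y y = ε; rw [hy, hη, neg_neg])
    rw [← hpol₂ x y]
    exact h
  have hv₁0 : v₁ ≠ 0 := by
    intro h
    rw [h, hf₂0] at hv₁η
    exact hη0 hv₁η.symm
  have hv₂0 : v₂ ≠ 0 := by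
    intro h
    rw [h, hf₂0] at hv₂η
    exact hη0 hv₂η.symm
  -- vectors of the first factor
  have hn₁ : 0 < n₁ := by
    have hcard := Fintype.card_congr e
    simp only [Fintype.card_sum, Fintype.card_fin, Fintype.card_prod] at hcard
    omega
  obtain ⟨wa, hwa⟩ : ∃ wa : Fin n₁ → F, wa ≠ 0 :=
    ⟨Pi.single ⟨0, hn₁⟩ 1, by
      intro h
      have h' := congrFun h ⟨0, hn₁⟩
      simp at h'⟩
  obtain ⟨⟨wc, hwc⟩, -⟩ := hf₁.nondegenerate wa hwa
  obtain ⟨ψ, hψ⟩ : ∃ ψ : F, ψ = f₁ wc wa := ⟨_, rfl⟩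
  have hψ0 : ψ ≠ 0 := by
    rw [hψ]
    exact hwc
  have haa : f₁ wa wa = 0 := hf₁.alternating wa
  have hcc : f₁ wc wc = 0 := hf₁.alternating wc
  have hac : f₁ wa wc = -ψ := by rw [hf₁.skew, hψ]
  obtain ⟨ia, hia⟩ : ∃ i, wa i ≠ 0 := by
    by_contra hcon
    push Not at hcon
    exact hwa (funext hcon)
  obtain ⟨j₁, hj₁⟩ : ∃ j, v₁ j ≠ 0 := by
    by_contra hcon
    push Not at hcon
    exact hv₁0 (funext hcon)
  obtain ⟨j₂, hj₂⟩ : ∃ j, v₂ j ≠ 0 := by
    by_contra hcon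
    push Not at hcon
    exact hv₂0 (funext hcon)
  obtain ⟨κ, hκ⟩ : ∃ κ : F, κ = c * (ψ * η) := ⟨_, rfl⟩
  have hκ0 : κ ≠ 0 := by
    rw [hκ]
    exact mul_ne_zero hc0 (mul_ne_zero hψ0 hη0)
  -- the set of frame tensors
  obtain ⟨S, hS⟩ : ∃ S : Set (Fin m ⊕ Fin m → F), S = {x | ∃ (w : Fin n₁ → F) (u : Fin 3 → F),
      f₂ u u = η ∧ x = tens e P w u} := ⟨_, rfl⟩
  have hSmem : ∀ x, x ∈ S ↔ ∃ (w : Fin n₁ → F) (u : Fin 3 → F),
      f₂ u u = η ∧ x = tens e P w u := by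
    intro x
    rw [hS]
    rfl
  have htv : ∀ w₁ : Fin n₁ → F, ∀ x ∈ S,
      x + (1 * sympForm m F x (tens e P w₁ v₁)) • tens e P w₁ v₁ ∈ S := by
    intro w₁ x hx
    obtain ⟨w, u, hu, rfl⟩ := (hSmem x).mp hx
    rcases FP' v₁ u hv₁η hu with h0 | h1 | h1
    · rw [hB, hf₂.symm u v₁, h0, mul_zero, mul_zero, mul_zero, zero_smul, add_zero]
      exact hx
    · rw [h1, ← tens_smul_left, ← tens_add_left]
      exact (hSmem _).mpr ⟨_, v₁, hv₁η, rfl⟩
    · rw [h1, ← tens_neg_left, ← tens_smul_left, ← tens_add_left]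
      exact (hSmem _).mpr ⟨_, v₁, hv₁η, rfl⟩
  -- the element of the larger group
  have hkS : tv m (tens e P wa v₁) 1 ∈ Cfsg.stabilizing (Cfsg.glToMat (Fin m ⊕ Fin m) F) S := by
    apply stab_of_maps
    intro x hx
    rw [tv_mulVec]
    exact htv wa x hx
  have hkT : tv m (tens e P wa v₁) 1 ∉ Geo.tensorProductSubgroup n₁ 3 e P := by
    intro hmem
    obtain ⟨A, B, hAB⟩ := tensor_act e P hmem
    have e1 : ∀ (w : Fin n₁ → F) (i : Fin n₁) (j : Fin 3),
        (A *ᵥ w) i * (B *ᵥ v₂) j = w i * v₂ j := by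
      intro w i j
      have h := hAB w v₂
      rw [tv_mulVec, hB, hv21', mul_zero, mul_zero, mul_zero, zero_smul, add_zero] at h
      exact (tens_inj e P h i j).symm
    have e2 : ∀ (i : Fin n₁) (j : Fin 3), (A *ᵥ wa) i * (B *ᵥ v₁) j = wa i * v₁ j := by
      intro i j
      have h := hAB wa v₁
      rw [tv_mulVec, hB, haa, zero_mul, mul_zero, mul_zero, zero_smul, add_zero] at h
      exact (tens_inj e P h i j).symm
    have e3 : ∀ (i : Fin n₁) (j : Fin 3),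
        (A *ᵥ wc) i * (B *ᵥ v₁) j = (wc + κ • wa) i * v₁ j := by
      intro i j
      have h := hAB wc v₁
      rw [tv_mulVec, hB, ← hψ, hv₁η, one_mul, ← hκ, ← tens_smul_left, ← tens_add_left] at h
      exact (tens_inj e P h i j).symm
    have hβ : (B *ᵥ v₂) j₂ ≠ 0 := by
      intro h0
      have h := e1 wa ia j₂
      rw [h0, mul_zero] at h
      exact mul_ne_zero hia hj₂ h.symm
    have hAw : ∀ (w : Fin n₁ → F) (i : Fin n₁),
        (A *ᵥ w) i = ((B *ᵥ v₂) j₂)⁻¹ * v₂ j₂ * w i := by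
      intro w i
      calc (A *ᵥ w) i = ((B *ᵥ v₂) j₂)⁻¹ * ((A *ᵥ w) i * (B *ᵥ v₂) j₂) := by
            rw [mul_comm ((A *ᵥ w) i), ← mul_assoc, inv_mul_cancel₀ hβ, one_mul]
        _ = ((B *ᵥ v₂) j₂)⁻¹ * v₂ j₂ * w i := by
            rw [e1 w i j₂]
            ring
    have h5 := e2 ia j₁
    rw [hAw] at h5
    have h7 := e3 ia j₁
    rw [hAw] at h7
    have h8 : κ * (wa ia * v₁ j₁) = 0 := by
      have h9 : (wc + κ • wa) ia = wc ia + κ * wa ia := rfl
      rw [h9] at h7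
      have h10 := e2 ia j₁
      rw [hAw] at h10
      have h11 : ((B *ᵥ v₂) j₂)⁻¹ * v₂ j₂ * (B *ᵥ v₁) j₁ = v₁ j₁ := by
        apply mul_left_cancel₀ hia
        linear_combination h10
      linear_combination (wc ia) * h11 - h7
    exact mul_ne_zero hκ0 (mul_ne_zero hia hj₁) h8
  -- the element outside
  have hωz : ((tv m (tens e P wa (v₁ + v₂)) 1 : Matrix.GeneralLinearGroup (Fin m ⊕ Fin m) F) :
      Matrix (Fin m ⊕ Fin m) (Fin m ⊕ Fin m) F) *ᵥ tens e P wc v₁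
      = tens e P wc v₁ + κ • tens e P wa (v₁ + v₂) := by
    rw [tv_mulVec, hB, hf₂.bilinear.add_right, hv₁η, hv12', add_zero, ← hψ, one_mul, ← hκ]
  refine ⟨Cfsg.stabilizing (Cfsg.glToMat (Fin m ⊕ Fin m) F) S ⊓ spGL m F, ?_, ?_⟩
  · refine lt_iff_le_not_ge.mpr ⟨?_, fun hle => hkT (hle ⟨hkS, tv_mem m _ _⟩).1⟩
    intro g hg
    refine ⟨?_, hg.2⟩
    obtain ⟨A, B, hAB⟩ := tensor_act e P hg.1
    have hgB := (mem_spGL_iff m g).mp hg.2
    have hsim : ∀ u u' : Fin 3 → F,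
        f₁ (A *ᵥ wc) (A *ᵥ wa) * f₂ (B *ᵥ u) (B *ᵥ u') = ψ * f₂ u u' := by
      intro u u'
      have h := hgB (tens e P wc u) (tens e P wa u')
      rw [hAB, hAB, hB, hB, ← hψ] at h
      exact mul_left_cancel₀ hc0 h
    have hψ' : f₁ (A *ᵥ wc) (A *ᵥ wa) ≠ 0 := by
      intro h0
      have h := hsim v₁ v₁
      rw [h0, zero_mul, hv₁η] at h
      exact mul_ne_zero hψ0 hη0 h.symm
    obtain ⟨μ, hμ⟩ : ∃ μ : F, μ = (f₁ (A *ᵥ wc) (A *ᵥ wa))⁻¹ * ψ := ⟨_, rfl⟩
    have hμ0 : μ ≠ 0 := by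
      rw [hμ]
      exact mul_ne_zero (inv_ne_zero hψ') hψ0
    have hsim' : ∀ u u' : Fin 3 → F, f₂ (B *ᵥ u) (B *ᵥ u') = μ * f₂ u u' := by
      intro u u'
      have h := hsim u u'
      rw [hμ]
      calc f₂ (B *ᵥ u) (B *ᵥ u')
          = (f₁ (A *ᵥ wc) (A *ᵥ wa))⁻¹ *
              (f₁ (A *ᵥ wc) (A *ᵥ wa) * f₂ (B *ᵥ u) (B *ᵥ u')) := by
            rw [← mul_assoc, inv_mul_cancel₀ hψ', one_mul]
        _ = (f₁ (A *ᵥ wc) (A *ᵥ wa))⁻¹ * ψ * f₂ u u' := by
            rw [h]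
            ring
    have hdet := sim_det hf₂.bilinear B μ hsim'
    rw [Fintype.card_fin] at hdet
    have hG := gram_det_ne hf₂.bilinear hf₂.nondegenerate
    have hdet' : B.det * B.det = μ ^ 3 := by
      apply mul_right_cancel₀ hG
      linear_combination hdet
    have hμ1 : μ = 1 := by
      rcases el3 hq μ with h | h | h
      · exact absurd h hμ0
      · exact h
      · exfalso
        rw [h] at hdet'
        rcases el3 hq B.det with h' | h' | h'
        · rw [h'] at hdet'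
          exact one_ne_zero (by linear_combination hdet' : (1 : F) = 0)
        · rw [h'] at hdet'
          exact h2 (by linear_combination hdet')
        · rw [h'] at hdet'
          exact h2 (by linear_combination hdet')
    apply stab_of_maps
    intro x hx
    obtain ⟨w, u, hu, rfl⟩ := (hSmem x).mp hx
    rw [hAB]
    exact (hSmem _).mpr ⟨A *ᵥ w, B *ᵥ u, by rw [hsim', hμ1, one_mul, hu], rfl⟩
  · refine lt_iff_le_not_ge.mpr ⟨inf_le_right, fun hle => ?_⟩
    have hz : tens e P wc v₁ ∈ S := (hSmem _).mpr ⟨wc, v₁, hv₁η, rfl⟩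
    have h1 := ((hle (tv_mem m (tens e P wa (v₁ + v₂)) 1)).1 (tens e P wc v₁)).mp hz
    have h1' : ((tv m (tens e P wa (v₁ + v₂)) 1 : Matrix.GeneralLinearGroup (Fin m ⊕ Fin m) F) :
        Matrix (Fin m ⊕ Fin m) (Fin m ⊕ Fin m) F) *ᵥ tens e P wc v₁ ∈ S := h1
    rw [hωz] at h1'
    obtain ⟨w, u, hu, hx⟩ := (hSmem _).mp h1'
    have t1 : sympForm m F (tens e P wc v₁ + κ • tens e P wa (v₁ + v₂)) (tens e P wa v₁)
        = κ := by
      rw [hfadd, hfsmul, hB, hB, haa, zero_mul, mul_zero, mul_zero, add_zero, ← hψ, hv₁η, hκ]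
    have t2 : sympForm m F (tens e P wc v₁ + κ • tens e P wa (v₁ + v₂)) (tens e P wc v₂)
        = -(κ * κ) := by
      rw [hfadd, hfsmul, hB, hB, hcc, zero_mul, mul_zero, zero_add, hac,
        hf₂.bilinear.add_left, hv12', hv₂η, zero_add, hκ]
      ring
    rw [hx, hB] at t1
    rw [hx, hB] at t2
    have hu1 : f₂ u v₁ ≠ 0 := by
      intro h
      rw [h, mul_zero, mul_zero] at t1
      exact hκ0 t1.symm
    have hu2 : f₂ u v₂ ≠ 0 := by
      intro h
      rw [h, mul_zero, mul_zero] at t2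
      exact mul_ne_zero hκ0 hκ0 (neg_eq_zero.mp t2.symm)
    rcases FP' v₁ u hv₁η hu with h0 | h1 | h1
    · exact hu1 (by rw [hf₂.symm, h0])
    · exact hu2 (by rw [h1, hv12'])
    · apply hu2
      have h9 : -v₁ = (-1 : F) • v₁ := by simp
      rw [h1, h9, hf₂.bilinear.smul_left, hv12', mul_zero]

end Cfsg.Agent.S5667
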