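import Mathlib
import Cfsg.Statements.S5671
import Cfsg.Agent.S5682
import Cfsg.Agent.S5653

set_option autoImplicit false
open Cfsg

namespace Cfsg.Agent.S5671

open Matrix
open scoped Kronecker
open Cfsg.Agent.S0837 (Bh Bh_apply Bh_symm Bh_nondeg)
open Cfsg.Agent.S5653 (herm_B tv tv_mulVec tv_mem)
open Cfsg.Agent.S5678 (stab_of_maps)
open Cfsg.Agent.S5682 (tens tens_add_left tens_smul_left tens_add_right
  tens_smul_right tens_inj tensor_act formOfGram_kron)

section lib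

variable {F : Type*} [Field F]

theorem gram_eq_unitary {κ : Type} [Fintype κ] [DecidableEq κ] {f : (κ → F) → (κ → F) → F}
    (hf : Geo.IsUnitaryFormPow 2 f) (h2 : (2 : F) = 0) (x y : κ → F) :
    f x y = Geo.formOfGram (fun a : F => a ^ 2) (Geo.gramMatrix f) x y := by
  have hsq : ∀ a b : F, (a + b) ^ 2 = a ^ 2 + b ^ 2 := by
    intro a b
    linear_combination (a * b) * h2
  have hadd_r : ∀ v x y : κ → F, f v (x + y) = f v x + f v y := by
    intro v x y
    rw [hf.herm v (x + y), hf.add_left, hsq, ← hf.herm, ← hf.herm]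
  have hsmul_r : ∀ (c : F) (v x : κ → F), f v (c • x) = c ^ 2 * f v x := by
    intro c v x
    rw [hf.herm v (c • x), hf.smul_left, mul_pow, ← hf.herm]
  let L (y : κ → F) : (κ → F) →+ F := AddMonoidHom.mk' (fun x => f x y)
    (fun a b => hf.add_left a b y)
  let R (x : κ → F) : (κ → F) →+ F := AddMonoidHom.mk' (fun y => f x y)
    (fun a b => hadd_r x a b)
  have hx : x = ∑ a, x a • (Pi.single a 1 : κ → F) := by
    funext i
    simp [Finset.sum_apply, Pi.single_apply]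
  have hy : y = ∑ a, y a • (Pi.single a 1 : κ → F) := by
    funext i
    simp [Finset.sum_apply, Pi.single_apply]
  have h1 : f x y = ∑ a, x a * f (Pi.single a 1) y := by
    have h : f x y = L y (∑ a, x a • (Pi.single a 1 : κ → F)) := by
      rw [← hx]
      rfl
    rw [h, map_sum]
    apply Finset.sum_congr rfl
    intro a _
    exact hf.smul_left _ _ _
  have h3 : ∀ a : κ, f (Pi.single a 1) y
      = ∑ b, (y b) ^ 2 * f (Pi.single a 1) (Pi.single b 1) := by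
    intro a
    have h : f (Pi.single a 1) y
        = R (Pi.single a 1) (∑ b, y b • (Pi.single b 1 : κ → F)) := by
      rw [← hy]
      rfl
    rw [h, map_sum]
    apply Finset.sum_congr rfl
    intro b _
    exact hsmul_r _ _ _
  rw [h1]
  unfold Geo.formOfGram Geo.gramMatrix
  apply Finset.sum_congr rfl
  intro a _
  rw [h3 a, Finset.mul_sum]
  apply Finset.sum_congr rfl
  intro b _
  ring

/-- the tensor form on pure tensors, unitary case -/
theorem form_tens_u {ι : Type} [Fintype ι] [DecidableEq ι] {n₁ n₂ : ℕ}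
    (e : ι ≃ Fin n₁ × Fin n₂) (P : Matrix.GeneralLinearGroup ι F)
    {f : (ι → F) → (ι → F) → F} {f₁ : (Fin n₁ → F) → (Fin n₁ → F) → F}
    {f₂ : (Fin n₂ → F) → (Fin n₂ → F) → F} (hf₁ : Geo.IsUnitaryFormPow 2 f₁)
    (hf₂ : Geo.IsUnitaryFormPow 2 f₂) (h2 : (2 : F) = 0) {c : F}
    (hform : ∀ x y : Fin n₁ × Fin n₂ → F,
      f ((P : Matrix ι ι F) *ᵥ (x ∘ e)) ((P : Matrix ι ι F) *ᵥ (y ∘ e)) =
        c * Geo.formOfGram (fun a : F => a ^ 2) (Geo.gramMatrix f₁ ⊗ₖ Geo.gramMatrix f₂) x y)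
    (u : Fin n₁ → F) (w : Fin n₂ → F) (u' : Fin n₁ → F) (w' : Fin n₂ → F) :
    f (tens e P u w) (tens e P u' w') = c * (f₁ u u' * f₂ w w') := by
  have h := hform (fun p => u p.1 * w p.2) (fun p => u' p.1 * w' p.2)
  rw [formOfGram_kron (fun a : F => a ^ 2) (fun a b => mul_pow a b 2),
    ← gram_eq_unitary hf₁ h2, ← gram_eq_unitary hf₂ h2] at h
  exact h

/-- the two non-isotropic points of a unitary plane over the field with four elements -/
theorem frame2 [Fintype F] (hF : Fintype.card F = 4) (h2 : (2 : F) = 0)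
    {f : (Fin 2 → F) → (Fin 2 → F) → F} (hf : Geo.IsUnitaryFormPow 2 f) :
    ∃ v₁ v₂ : Fin 2 → F, f v₁ v₁ = 1 ∧ f v₂ v₂ = 1 ∧ f v₁ v₂ = 0 ∧ f v₂ v₁ = 0 ∧
      ∀ x, f x x = 1 → (∃ l : F, x = l • v₁) ∨ (∃ l : F, x = l • v₂) := by
  classical
  have hsq : ∀ a b : F, (a + b) ^ 2 = a ^ 2 + b ^ 2 := by
    intro a b
    linear_combination (a * b) * h2
  have hadd_r : ∀ v x y : Fin 2 → F, f v (x + y) = f v x + f v y := by
    intro v x y
    rw [hf.herm v (x + y), hf.add_left, hsq, ← hf.herm, ← hf.herm]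
  have hsmul_r : ∀ (c : F) (v x : Fin 2 → F), f v (c • x) = c ^ 2 * f v x := by
    intro c v x
    rw [hf.herm v (c • x), hf.smul_left, mul_pow, ← hf.herm]
  have h01 : ∀ x : Fin 2 → F, f x x = 0 ∨ f x x = 1 := by
    intro x
    have h := hf.herm x x
    have h3 : f x x * (f x x - 1) = 0 := by linear_combination -h
    rcases mul_eq_zero.mp h3 with h4 | h4
    · exact Or.inl h4
    · exact Or.inr (sub_eq_zero.mp h4)
  have hcube : ∀ l : F, l ≠ 0 → l ^ 3 = 1 := by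
    intro l hl
    have h := FiniteField.pow_card_sub_one_eq_one l hl
    rw [hF] at h
    exact h
  have hexp : ∀ x : Fin 2 → F, x = x 0 • (Pi.single 0 1 : Fin 2 → F) + x 1 • Pi.single 1 1 := by
    intro x
    funext i
    fin_cases i <;> simp
  have hfx : ∀ x z : Fin 2 → F, f x z = x 0 * f (Pi.single 0 1) z + x 1 * f (Pi.single 1 1) z := by
    intro x z
    conv_lhs => rw [hexp x]
    rw [hf.add_left, hf.smul_left, hf.smul_left]
  -- a non-isotropic vector
  obtain ⟨v₁, hv₁⟩ : ∃ v₁ : Fin 2 → F, f v₁ v₁ = 1 := by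
    by_contra hcon
    push Not at hcon
    have hiso : ∀ x : Fin 2 → F, f x x = 0 := fun x => (h01 x).resolve_right (hcon x)
    obtain ⟨a, b, c', hab, hac, hbc⟩ := Fintype.two_lt_card_iff.mp (by rw [hF]; norm_num :
      2 < Fintype.card F)
    obtain ⟨t, ht0, ht1⟩ : ∃ t : F, t ≠ 0 ∧ t ≠ 1 := by
      by_cases ha0 : a = 0
      · by_cases hb1 : b = 1
        · refine ⟨c', fun h => hac (by rw [ha0, h]), fun h => hbc (by rw [hb1, h])⟩
        · exact ⟨b, fun h => hab (by rw [ha0, h]), hb1⟩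
      · by_cases ha1 : a = 1
        · by_cases hb0 : b = 0
          · exact ⟨c', fun h => hbc (by rw [hb0, h]), fun h => hac (by rw [ha1, h])⟩
          · exact ⟨b, hb0, fun h => hab (by rw [ha1, h])⟩
        · exact ⟨a, ha0, ha1⟩
    have hsym : ∀ x y : Fin 2 → F, f y x = f x y := by
      intro x y
      have h := hiso (x + y)
      rw [hf.add_left, hadd_r, hadd_r, hiso x, hiso y] at h
      linear_combination h - f x y * h2
    have hzero : ∀ x y : Fin 2 → F, f x y = 0 := by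
      intro x y
      have h := hiso (x + t • y)
      rw [hf.add_left, hadd_r, hadd_r, hiso x, hsmul_r, hf.smul_left, hsmul_r, hf.smul_left,
        hiso y, hsym x y] at h
      have h5 : (t * (t - 1)) * f x y = 0 := by linear_combination h - t * f x y * h2
      rcases mul_eq_zero.mp h5 with h6 | h6
      · rcases mul_eq_zero.mp h6 with h7 | h7
        · exact absurd h7 ht0
        · exact absurd (sub_eq_zero.mp h7) ht1
      · exact h6
    have hne : (Pi.single 0 1 : Fin 2 → F) ≠ 0 := by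
      intro h
      have h' := congrFun h 0
      simp at h'
    obtain ⟨⟨x, hx⟩, -⟩ := hf.nondegenerate _ hne
    exact hx (hzero _ _)
  -- a vector orthogonal to it
  obtain ⟨c₀, hc₀⟩ : ∃ c₀ : F, c₀ = f (Pi.single 0 1) v₁ := ⟨_, rfl⟩
  obtain ⟨c₁, hc₁⟩ : ∃ c₁ : F, c₁ = f (Pi.single 1 1) v₁ := ⟨_, rfl⟩
  obtain ⟨v₂, hv₂⟩ : ∃ v₂ : Fin 2 → F, v₂ = c₁ • (Pi.single 0 1 : Fin 2 → F) + c₀ • Pi.single 1 1 :=
    ⟨_, rfl⟩
  have hv₂0' : v₂ 0 = c₁ := by rw [hv₂]; simp
  have hv₂1' : v₂ 1 = c₀ := by rw [hv₂]; simp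
  have hv21 : f v₂ v₁ = 0 := by
    rw [hfx, hv₂0', hv₂1', ← hc₀, ← hc₁]
    linear_combination (c₀ * c₁) * h2
  have hv12 : f v₁ v₂ = 0 := by rw [hf.herm, hv21]; ring
  have hv₂ne : v₂ ≠ 0 := by
    intro h
    have e0 : c₁ = 0 := by rw [← hv₂0', h]; rfl
    have e1 : c₀ = 0 := by rw [← hv₂1', h]; rfl
    have h5 := hfx v₁ v₁
    rw [← hc₀, ← hc₁, e0, e1, mul_zero, mul_zero, add_zero, hv₁] at h5
    exact one_ne_zero h5
  have hspan : ∀ x : Fin 2 → F, ∃ l m : F, x = l • v₁ + m • v₂ := by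
    have hli : LinearIndependent F ![v₁, v₂] := by
      rw [LinearIndependent.pair_iff]
      intro s t hst
      have h5 : f (s • v₁ + t • v₂) v₁ = 0 := by
        rw [hst]
        have h6 := hf.smul_left 0 0 v₁
        simpa using h6
      rw [hf.add_left, hf.smul_left, hf.smul_left, hv₁, hv21, mul_one, mul_zero, add_zero] at h5
      rw [h5, zero_smul, zero_add] at hst
      exact ⟨h5, (smul_eq_zero.mp hst).resolve_right hv₂ne⟩
    let b := basisOfLinearIndependentOfCardEqFinrank hli (by simp)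
    intro x
    have hx' := b.sum_repr x
    rw [Fin.sum_univ_two] at hx'
    simp only [b, coe_basisOfLinearIndependentOfCardEqFinrank, Matrix.cons_val_zero,
      Matrix.cons_val_one] at hx'
    exact ⟨_, _, hx'.symm⟩
  have hv₂N : f v₂ v₂ = 1 := by
    rcases h01 v₂ with h | h
    · exfalso
      obtain ⟨⟨x, hx⟩, -⟩ := hf.nondegenerate v₂ hv₂ne
      apply hx
      obtain ⟨l, m', rfl⟩ := hspan x
      rw [hf.add_left, hf.smul_left, hf.smul_left, hv12, h, mul_zero, mul_zero, add_zero]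
    · exact h
  refine ⟨v₁, v₂, hv₁, hv₂N, hv12, hv21, ?_⟩
  intro x hx
  obtain ⟨l, m', rfl⟩ := hspan x
  have hN : l ^ 3 + m' ^ 3 = 1 := by
    rw [hf.add_left, hf.smul_left, hf.smul_left, hadd_r, hadd_r, hsmul_r, hsmul_r, hsmul_r,
      hsmul_r, hv₁, hv₂N, hv12, hv21] at hx
    linear_combination hx
  by_cases hl : l = 0
  · right
    exact ⟨m', by rw [hl, zero_smul, zero_add]⟩
  · by_cases hm : m' = 0
    · left
      exact ⟨l, by rw [hm, zero_smul, add_zero]⟩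
    · exfalso
      rw [hcube l hl, hcube m' hm] at hN
      exact one_ne_zero (by linear_combination h2 - hN : (1 : F) = 0)

end lib

/-- Let F be the field with 4 elements (q = 2) and n = 2 n₂ ≥ 13. Suppose the standard unitary form Σ u_i v_i² on F^n is similar, through P and e, to the tensor product of non-degenerate unitary forms f₁ on F^2 and f₂ on F^(n₂). Then the elements of SU_n(2) in the stabiliser of this tensor decomposition form a subgroup that is not maximal: some subgroup lies strictly between it and SU_n(2). -/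
theorem result {F : Type*} [Field F] [Fintype F] (n : ℕ) (hF : Fintype.card F = 4) (hn : 13 ≤ n) (n₂ : ℕ) (e : Fin n ≃ Fin 2 × Fin n₂) (P : Matrix.GeneralLinearGroup (Fin n) F) (f₁ : (Fin 2 → F) → (Fin 2 → F) → F) (f₂ : (Fin n₂ → F) → (Fin n₂ → F) → F) (hf₁ : Cfsg.Geo.IsUnitaryFormPow 2 f₁) (hf₂ : Cfsg.Geo.IsUnitaryFormPow 2 f₂) (hT : Cfsg.Geo.IsTensorFormStructure (fun x : F => x ^ 2) (Cfsg.hermForm n F 2) f₁ f₂ e P) : ∃ K : Subgroup (Matrix.GeneralLinearGroup (Fin n) F), Cfsg.Geo.tensorProductSubgroup 2 n₂ e P ⊓ (Cfsg.GU n F 2 ⊓ Cfsg.Geo.specialLinear (Fin n) F) < K ∧ K < (Cfsg.GU n F 2 ⊓ Cfsg.Geo.specialLinear (Fin n) F) := by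
  classical
  have hF' : Fintype.card F = 2 ^ 2 := by rw [hF]; norm_num
  obtain ⟨φ, hφq, hφ2⟩ := Cfsg.Agent.S0779.exists_frob hF'
  have h2 : (2 : F) = 0 := by
    have h := map_add φ 1 1
    rw [hφq (1 + 1), map_one] at h
    linear_combination h
  have hc1 : φ (1 : F) = -1 := by
    rw [map_one]
    linear_combination h2
  have hfadd : ∀ x y z : Fin n → F,
      hermForm n F 2 (x + y) z = hermForm n F 2 x z + hermForm n F 2 y z := by
    intro x y z
    rw [herm_B φ hφq, herm_B φ hφq, herm_B φ hφq, map_add]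
  have hfsmul : ∀ (a : F) (x z : Fin n → F),
      hermForm n F 2 (a • x) z = a * hermForm n F 2 x z := by
    intro a x z
    rw [herm_B φ hφq, herm_B φ hφq, map_smul, smul_eq_mul]
  have htv : ∀ v : Fin n → F, hermForm n F 2 v v = 0 → ∀ x : Fin n → F,
      ((tv 2 v 1 : Matrix.GeneralLinearGroup (Fin n) F) : Matrix (Fin n) (Fin n) F) *ᵥ x
        = x + hermForm n F 2 x v • v := by
    intro v hv x
    rw [tv_mulVec φ hφq hφ2 v 1 (by rw [← herm_B φ hφq]; exact hv) hc1, one_mul,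
      ← herm_B φ hφq]
  have htvmem : ∀ v : Fin n → F, hermForm n F 2 v v = 0 →
      tv 2 v 1 ∈ Cfsg.GU n F 2 ⊓ Cfsg.Geo.specialLinear (Fin n) F := fun v hv =>
    tv_mem φ hφq hφ2 v 1 (by rw [← herm_B φ hφq]; exact hv) hc1
  obtain ⟨c, hc0, hform⟩ := hT
  have hB : ∀ (u : Fin 2 → F) (w : Fin n₂ → F) (u' : Fin 2 → F) (w' : Fin n₂ → F),
      hermForm n F 2 (tens e P u w) (tens e P u' w') = c * (f₁ u u' * f₂ w w') :=
    fun u w u' w' => form_tens_u e P hf₁ hf₂ h2 hform u w u' w'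
  obtain ⟨v₁, v₂, hv₁, hv₂, hv12, hv21, hFP⟩ := frame2 hF h2 hf₁
  have hsq : ∀ a b : F, (a + b) ^ 2 = a ^ 2 + b ^ 2 := by
    intro a b
    linear_combination (a * b) * h2
  have h01 : ∀ x : Fin 2 → F, f₁ x x = 0 ∨ f₁ x x = 1 := by
    intro x
    have h := hf₁.herm x x
    have h3 : f₁ x x * (f₁ x x - 1) = 0 := by linear_combination -h
    rcases mul_eq_zero.mp h3 with h4 | h4
    · exact Or.inl h4
    · exact Or.inr (sub_eq_zero.mp h4)
  have h01' : ∀ x : Fin n₂ → F, f₂ x x = 0 ∨ f₂ x x = 1 := by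
    intro x
    have h := hf₂.herm x x
    have h3 : f₂ x x * (f₂ x x - 1) = 0 := by linear_combination -h
    rcases mul_eq_zero.mp h3 with h4 | h4
    · exact Or.inl h4
    · exact Or.inr (sub_eq_zero.mp h4)
  have hadd_r : ∀ v x y : Fin n₂ → F, f₂ v (x + y) = f₂ v x + f₂ v y := by
    intro v x y
    rw [hf₂.herm v (x + y), hf₂.add_left, hsq, ← hf₂.herm, ← hf₂.herm]
  have hf₁0 : ∀ y : Fin 2 → F, f₁ 0 y = 0 := fun y => by
    have h := hf₁.smul_left 0 0 y
    simpa using h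
  have hf₂0 : ∀ y : Fin n₂ → F, f₂ 0 y = 0 := fun y => by
    have h := hf₂.smul_left 0 0 y
    simpa using h
  have hv₁0 : v₁ ≠ 0 := by
    intro h
    rw [h, hf₁0] at hv₁
    exact zero_ne_one hv₁
  have hv₂0 : v₂ ≠ 0 := by
    intro h
    rw [h, hf₁0] at hv₂
    exact zero_ne_one hv₂
  have hn₂ : 2 ≤ n₂ := by
    have hcard := Fintype.card_congr e
    simp only [Fintype.card_fin, Fintype.card_prod] at hcard
    omega
  -- an isotropic vector of the second factor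
  obtain ⟨wa, hwa0, hwaa⟩ : ∃ wa : Fin n₂ → F, wa ≠ 0 ∧ f₂ wa wa = 0 := by
    obtain ⟨j0, hj0⟩ : ∃ j : Fin n₂, j = ⟨0, by omega⟩ := ⟨_, rfl⟩
    obtain ⟨j1, hj1⟩ : ∃ j : Fin n₂, j = ⟨1, by omega⟩ := ⟨_, rfl⟩
    have hj01 : j0 ≠ j1 := by
      rw [hj0, hj1]
      intro h
      simp [Fin.ext_iff] at h
    have hx0 : (Pi.single j0 1 : Fin n₂ → F) ≠ 0 := by
      intro h
      have h' := congrFun h j0
      simp at h'
    by_cases hx : f₂ (Pi.single j0 1) (Pi.single j0 1) = 0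
    · exact ⟨_, hx0, hx⟩
    have hxx : f₂ (Pi.single j0 1) (Pi.single j0 1) = 1 := (h01' _).resolve_left hx
    obtain ⟨y, hy0, hyx⟩ : ∃ y : Fin n₂ → F, y ≠ 0 ∧ f₂ y (Pi.single j0 1) = 0 := by
      by_cases hc₁ : f₂ (Pi.single j1 1) (Pi.single j0 1) = 0
      · refine ⟨Pi.single j1 1, ?_, hc₁⟩
        intro h
        have h' := congrFun h j1
        simp at h'
      · refine ⟨Pi.single j1 1 + f₂ (Pi.single j1 1) (Pi.single j0 1) • Pi.single j0 1, ?_, ?_⟩
        · intro h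
          have h' := congrFun h j1
          simp [hj01.symm] at h'
        · rw [hf₂.add_left, hf₂.smul_left, hxx]
          linear_combination f₂ (Pi.single j1 1) (Pi.single j0 1) * h2
    have hxy : f₂ (Pi.single j0 1) y = 0 := by rw [hf₂.herm, hyx]; ring
    by_cases hyy : f₂ y y = 0
    · exact ⟨y, hy0, hyy⟩
    have hyy1 : f₂ y y = 1 := (h01' _).resolve_left hyy
    refine ⟨Pi.single j0 1 + y, ?_, ?_⟩
    · intro h
      have h5 : f₂ (Pi.single j0 1 + y) (Pi.single j0 1) = 0 := by rw [h, hf₂0]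
      rw [hf₂.add_left, hxx, hyx, add_zero] at h5
      exact one_ne_zero h5
    · rw [hf₂.add_left, hadd_r, hadd_r, hxx, hxy, hyx, hyy1]
      linear_combination h2
  obtain ⟨⟨wc, hwc⟩, -⟩ := hf₂.nondegenerate wa hwa0
  obtain ⟨ψ, hψ⟩ : ∃ ψ : F, ψ = f₂ wc wa := ⟨_, rfl⟩
  have hψ0 : ψ ≠ 0 := by
    rw [hψ]
    exact hwc
  have hac : f₂ wa wc = ψ ^ 2 := by rw [hf₂.herm, hψ]
  obtain ⟨κ, hκ⟩ : ∃ κ : F, κ = c * ψ := ⟨_, rfl⟩
  have hκ0 : κ ≠ 0 := by
    rw [hκ]
    exact mul_ne_zero hc0 hψ0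
  obtain ⟨i₁, hi₁⟩ : ∃ i, v₁ i ≠ 0 := by
    by_contra hcon
    push Not at hcon
    exact hv₁0 (funext hcon)
  obtain ⟨i₂, hi₂⟩ : ∃ i, v₂ i ≠ 0 := by
    by_contra hcon
    push Not at hcon
    exact hv₂0 (funext hcon)
  obtain ⟨ja, hja⟩ : ∃ j, wa j ≠ 0 := by
    by_contra hcon
    push Not at hcon
    exact hwa0 (funext hcon)
  have hs11 : f₁ (v₁ + v₂) v₁ = 1 := by rw [hf₁.add_left, hv₁, hv21, add_zero]
  have hs12 : f₁ (v₁ + v₂) v₂ = 1 := by rw [hf₁.add_left, hv12, hv₂, zero_add]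
  have h1s : f₁ v₁ (v₁ + v₂) = 1 := by rw [hf₁.herm, hs11]; ring
  -- the set of frame tensors
  obtain ⟨S, hS⟩ : ∃ S : Set (Fin n → F), S = {x | ∃ (u : Fin 2 → F) (w : Fin n₂ → F),
      f₁ u u = 1 ∧ x = tens e P u w} := ⟨_, rfl⟩
  have hSmem : ∀ x, x ∈ S ↔ ∃ (u : Fin 2 → F) (w : Fin n₂ → F),
      f₁ u u = 1 ∧ x = tens e P u w := by
    intro x
    rw [hS]
    rfl
  have hiso_a : hermForm n F 2 (tens e P v₁ wa) (tens e P v₁ wa) = 0 := by
    rw [hB, hwaa, mul_zero, mul_zero]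
  have hiso_a' : hermForm n F 2 (tens e P (v₁ + v₂) wa) (tens e P (v₁ + v₂) wa) = 0 := by
    rw [hB, hwaa, mul_zero, mul_zero]
  have hkS : tv 2 (tens e P v₁ wa) 1 ∈ Cfsg.stabilizing (Cfsg.glToMat (Fin n) F) S := by
    apply stab_of_maps
    intro x hx
    rw [htv _ hiso_a]
    obtain ⟨u, w, hu, rfl⟩ := (hSmem x).mp hx
    rcases hFP u hu with ⟨l, rfl⟩ | ⟨l, rfl⟩
    · rw [tens_smul_left, ← tens_smul_right, ← tens_smul_right, ← tens_add_right]
      exact (hSmem _).mpr ⟨v₁, _, hv₁, rfl⟩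
    · rw [hB, hf₁.smul_left, hv21, mul_zero, zero_mul, mul_zero, zero_smul, add_zero]
      exact hx
  have hkT : tv 2 (tens e P v₁ wa) 1 ∉ Geo.tensorProductSubgroup 2 n₂ e P := by
    intro hmem
    obtain ⟨A, B, hAB⟩ := tensor_act e P hmem
    have e1 : ∀ (w : Fin n₂ → F) (i : Fin 2) (j : Fin n₂),
        (A *ᵥ v₂) i * (B *ᵥ w) j = v₂ i * w j := by
      intro w i j
      have h := hAB v₂ w
      rw [htv _ hiso_a, hB, hv21, zero_mul, mul_zero, zero_smul, add_zero] at h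
      exact (tens_inj e P h i j).symm
    have e2 : ∀ (i : Fin 2) (j : Fin n₂), (A *ᵥ v₁) i * (B *ᵥ wa) j = v₁ i * wa j := by
      intro i j
      have h := hAB v₁ wa
      rw [htv _ hiso_a, hiso_a, zero_smul, add_zero] at h
      exact (tens_inj e P h i j).symm
    have e3 : ∀ (i : Fin 2) (j : Fin n₂),
        (A *ᵥ v₁) i * (B *ᵥ wc) j = v₁ i * (wc + κ • wa) j := by
      intro i j
      have h := hAB v₁ wc
      rw [htv _ hiso_a, hB, hv₁, one_mul, ← hψ, ← hκ, ← tens_smul_right, ← tens_add_right] at h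
      exact (tens_inj e P h i j).symm
    have hα : (A *ᵥ v₂) i₂ ≠ 0 := by
      intro h0
      have h := e1 wa i₂ ja
      rw [h0, zero_mul] at h
      exact mul_ne_zero hi₂ hja h.symm
    have hBw : ∀ (w : Fin n₂ → F) (j : Fin n₂),
        (B *ᵥ w) j = ((A *ᵥ v₂) i₂)⁻¹ * v₂ i₂ * w j := by
      intro w j
      calc (B *ᵥ w) j = ((A *ᵥ v₂) i₂)⁻¹ * ((A *ᵥ v₂) i₂ * (B *ᵥ w) j) := by
            rw [← mul_assoc, inv_mul_cancel₀ hα, one_mul]
        _ = ((A *ᵥ v₂) i₂)⁻¹ * v₂ i₂ * w j := by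
            rw [e1 w i₂ j]
            ring
    have h5 := e2 i₁ ja
    rw [hBw] at h5
    have h6 : (A *ᵥ v₁) i₁ * (((A *ᵥ v₂) i₂)⁻¹ * v₂ i₂) = v₁ i₁ := by
      apply mul_right_cancel₀ hja
      linear_combination h5
    have h7 := e3 i₁ ja
    rw [hBw] at h7
    have h8 : κ * (v₁ i₁ * wa ja) = 0 := by
      have h9 : (wc + κ • wa) ja = wc ja + κ * wa ja := rfl
      rw [h9] at h7
      linear_combination (wc ja) * h6 - h7
    exact mul_ne_zero hκ0 (mul_ne_zero hi₁ hja) h8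
  have hωz : ((tv 2 (tens e P (v₁ + v₂) wa) 1 : Matrix.GeneralLinearGroup (Fin n) F) :
      Matrix (Fin n) (Fin n) F) *ᵥ tens e P v₁ wc
      = tens e P v₁ wc + κ • tens e P (v₁ + v₂) wa := by
    rw [htv _ hiso_a', hB, h1s, one_mul, ← hψ, ← hκ]
  refine ⟨Cfsg.stabilizing (Cfsg.glToMat (Fin n) F) S ⊓
    (Cfsg.GU n F 2 ⊓ Cfsg.Geo.specialLinear (Fin n) F), ?_, ?_⟩
  · refine lt_iff_le_not_ge.mpr ⟨?_, fun hle => hkT (hle ⟨hkS, htvmem _ hiso_a⟩).1⟩
    intro g hg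
    refine ⟨?_, hg.2⟩
    obtain ⟨A, B, hAB⟩ := tensor_act e P hg.1
    have hgB : ∀ x y : Fin n → F, hermForm n F 2 ((g : Matrix (Fin n) (Fin n) F) *ᵥ x)
        ((g : Matrix (Fin n) (Fin n) F) *ᵥ y) = hermForm n F 2 x y := fun x y => hg.2.1 x y
    have hsim : ∀ u u' : Fin 2 → F,
        f₁ (A *ᵥ u) (A *ᵥ u') * f₂ (B *ᵥ wc) (B *ᵥ wa) = f₁ u u' * ψ := by
      intro u u'
      have h := hgB (tens e P u wc) (tens e P u' wa)
      rw [hAB, hAB, hB, hB, ← hψ] at h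
      exact mul_left_cancel₀ hc0 h
    have h11 := hsim v₁ v₁
    rw [hv₁, one_mul] at h11
    have hA1 : f₁ (A *ᵥ v₁) (A *ᵥ v₁) = 1 := by
      rcases h01 (A *ᵥ v₁) with h | h
      · rw [h, zero_mul] at h11
        exact absurd h11.symm hψ0
      · exact h
    rw [hA1, one_mul] at h11
    apply stab_of_maps
    intro x hx
    obtain ⟨u, w, hu, rfl⟩ := (hSmem x).mp hx
    rw [hAB]
    refine (hSmem _).mpr ⟨A *ᵥ u, B *ᵥ w, ?_, rfl⟩
    have h := hsim u u
    rw [h11, hu] at h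
    exact mul_right_cancel₀ hψ0 h
  · refine lt_iff_le_not_ge.mpr ⟨inf_le_right, fun hle => ?_⟩
    have hz : tens e P v₁ wc ∈ S := (hSmem _).mpr ⟨v₁, wc, hv₁, rfl⟩
    have h1 := ((hle (htvmem _ hiso_a')).1 (tens e P v₁ wc)).mp hz
    have h1' : ((tv 2 (tens e P (v₁ + v₂) wa) 1 : Matrix.GeneralLinearGroup (Fin n) F) :
        Matrix (Fin n) (Fin n) F) *ᵥ tens e P v₁ wc ∈ S := h1
    rw [hωz] at h1'
    obtain ⟨u, w, hu, hx⟩ := (hSmem _).mp h1'
    have t1 : hermForm n F 2 (tens e P v₁ wc + κ • tens e P (v₁ + v₂) wa) (tens e P v₁ wa)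
        = κ := by
      rw [hfadd, hfsmul, hB, hB, hwaa, mul_zero, mul_zero, mul_zero, add_zero, hv₁, one_mul,
        ← hψ, hκ]
    have t2 : hermForm n F 2 (tens e P v₁ wc + κ • tens e P (v₁ + v₂) wa) (tens e P v₂ wc)
        = κ * (c * ψ ^ 2) := by
      rw [hfadd, hfsmul, hB, hB, hv12, zero_mul, mul_zero, zero_add, hs12, one_mul, hac]
    rw [hx, hB] at t1
    rw [hx, hB] at t2
    have hu1 : f₁ u v₁ ≠ 0 := by
      intro h
      rw [h, zero_mul, mul_zero] at t1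
      exact hκ0 t1.symm
    have hu2 : f₁ u v₂ ≠ 0 := by
      intro h
      rw [h, zero_mul, mul_zero] at t2
      exact mul_ne_zero hκ0 (mul_ne_zero hc0 (pow_ne_zero 2 hψ0)) t2.symm
    rcases hFP u hu with ⟨l, rfl⟩ | ⟨l, rfl⟩
    · exact hu2 (by rw [hf₁.smul_left, hv12, mul_zero])
    · exact hu1 (by rw [hf₁.smul_left, hv21, mul_zero])

end Cfsg.Agent.S5671
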