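import Mathlib
import Cfsg.Statements.S5674
import Cfsg.Agent.S5685

set_option autoImplicit false
open Cfsg

namespace Cfsg.Agent.S5674

/-- Let F be a finite field of odd order, m ≥ 6, Q the standard quadratic form x₀² + Σ x_i y_i on F^(2m+1) and Ω the commutator subgroup of its isometry group inside GL_(2m+1)(F). The elements of Ω stabilising a non-zero subspace on which Q vanishes form a maximal subgroup of Ω. -/
theorem result {F : Type*} [Field F] [Fintype F] (hodd : Odd (Fintype.card F)) (m : ℕ) (hm : 6 ≤ m) (W : Submodule F (Unit ⊕ (Fin m ⊕ Fin m) → F)) (hW0 : W ≠ ⊥) (hW : Cfsg.Geo.IsTotallySingularQuad (Cfsg.quadFormOdd m F) W) : Cfsg.Geo.IsMaximalIn (Cfsg.Geo.omegaGL (Cfsg.quadFormOdd m F)) (Cfsg.Geo.subspaceStabilizer W ⊓ Cfsg.Geo.omegaGL (Cfsg.quadFormOdd m F)) := by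
  classical
  have h2 : (2 : F) ≠ 0 := Cfsg.Agent.S5644.two_ne hodd
  have hcard : Fintype.card (Unit ⊕ (Fin m ⊕ Fin m)) = 2 * m + 1 := by
    simp only [Fintype.card_sum, Fintype.card_unit, Fintype.card_fin]
    omega
  have hQ' := Cfsg.Agent.Lib.Helper16.qfOdd_nondeg m F h2
  have hW' : ∀ x ∈ W, Cfsg.Agent.Lib.Helper16.qfOdd m F x = 0 := hW
  refine Cfsg.Agent.S5685.parab_max (Cfsg.Agent.Lib.Helper16.qfOdd m F) hQ'
    (by rw [hcard]; omega) W hW0 hW' ?_
  rw [hcard]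
  by_cases h : 2 * (Module.finrank F W + 1) < 2 * m + 1
  · exact Or.inl h
  · right
    intro x hx hxW
    by_contra hxn
    obtain ⟨hTts, hTdim⟩ := Cfsg.Agent.S5685.ts_extend (Cfsg.Agent.Lib.Helper16.qfOdd m F) W hW'
      hx hxW hxn
    have h1 := Cfsg.Agent.S5685.ts_dim_le (Cfsg.Agent.Lib.Helper16.qfOdd m F) hQ' _ hTts
    rw [hcard, hTdim] at h1
    omega

end Cfsg.Agent.S5674
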