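import Mathlib
import Cfsg.Statements.S5688
import Cfsg.Agent.S5699

set_option autoImplicit false
open Cfsg

namespace Cfsg.Agent.S5688

open Matrix
open Cfsg.Agent.Lib.Helper16 (isomG_map isomG_polar)
open Cfsg.Agent.S5697 (map_eq_of_maps finrank_span_single)
open Cfsg.Agent.S5699 (perp_mem nd nd' disj ns_max)

section gen

variable {ι : Type} [Fintype ι] [DecidableEq ι] {F : Type*} [Field F] [Fintype F]
  (Q : QuadraticForm F (ι → F)) (hQ : (QuadraticMap.polarBilin Q).Nondegenerate)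

local notation "Bp" => QuadraticMap.polar (DFunLike.coe Q)

include hQ in
omit [Fintype F] in
/-- an element of the commutator subgroup stabilising one orthogonal summand stabilises the
other -/
theorem perp_stab (W W' : Submodule F (ι → F))
    (hperp : ∀ w ∈ W, ∀ w' ∈ W', Bp w w' = 0) (hsup : W ⊔ W' = ⊤)
    {g : Matrix.GeneralLinearGroup ι F} (hg : g ∈ Geo.omegaGL (⇑Q))
    (h0 : ∀ x ∈ W, (g : Matrix ι ι F) *ᵥ x ∈ W) : ∀ y ∈ W', (g : Matrix ι ι F) *ᵥ y ∈ W' := by
  intro y hy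
  have hperp' : ∀ w' ∈ W', ∀ w ∈ W, Bp w' w = 0 := fun w' hw' w hw => by
    rw [QuadraticMap.polar_comm]
    exact hperp w hw w' hw'
  have hsup' : W' ⊔ W = ⊤ := by rw [sup_comm]; exact hsup
  apply perp_mem Q hQ W' W hperp' hsup'
  intro z hz
  have hmap := map_eq_of_maps g W W h0 rfl
  have hz' : z ∈ W.map (Matrix.toLin' (g : Matrix ι ι F)) := by
    rw [hmap]
    exact hz
  obtain ⟨x, hx, rfl⟩ := Submodule.mem_map.mp hz'
  obtain ⟨g', hg', rfl⟩ := Subgroup.mem_map.mp hg
  rw [Matrix.toLin'_apply]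
  exact (isomG_polar Q g' y x).trans (hperp' y hy x hx)

omit [DecidableEq ι] [Fintype F] in
/-- a nondegenerate subspace of dimension at most two with a nonzero singular vector is a plane
of plus type -/
theorem plane_of_small (X : Submodule F (ι → F))
    (hnd : ∀ x ∈ X, (∀ y ∈ X, Bp x y = 0) → x = 0) (hle : Module.finrank F X ≤ 2)
    {x : ι → F} (hx : x ∈ X) (hx0 : x ≠ 0) (hQx : Q x = 0) :
    Module.finrank F X = 2 ∧ Geo.IsPlusTypeOn (⇑Q) X := by
  have hspan : Submodule.span F {x} ≤ X := by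
    rw [Submodule.span_le]
    intro z hz
    rw [Set.mem_singleton_iff] at hz
    rw [hz]
    exact hx
  have h1 : Module.finrank F (Submodule.span F {x}) = 1 := finrank_span_singleton hx0
  have h2 : Module.finrank F X = 2 := by
    by_contra hne
    have h3 := Submodule.finrank_mono hspan
    have h4 : Submodule.span F {x} = X :=
      Submodule.eq_of_le_of_finrank_eq hspan (by omega)
    apply hx0
    apply hnd x hx
    intro y hy
    rw [← h4] at hy
    obtain ⟨c, rfl⟩ := Submodule.mem_span_singleton.mp hy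
    rw [QuadraticMap.polar_smul_right, QuadraticMap.polar_self, hQx]
    simp
  refine ⟨h2, Submodule.span F {x}, hspan, ?_, by rw [h1, h2]⟩
  intro z hz
  obtain ⟨c, rfl⟩ := Submodule.mem_span_singleton.mp hz
  rw [QuadraticMap.map_smul, hQx, smul_zero]

include hQ in
/-- the stabiliser of a nondegenerate proper nonzero subspace is maximal in the commutator
subgroup, under hypotheses excluding small planes and the half-dimensional swaps -/
theorem ns_gen (W : Submodule F (ι → F)) (hW0 : W ≠ ⊥) (hW1 : W ≠ ⊤)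
    (hW : Geo.IsNondegenerateOn (QuadraticMap.polar (⇑Q)) W) (h13 : 13 ≤ Fintype.card ι)
    (hexW : ¬ (Fintype.card F ≤ 3 ∧ Module.finrank F W ≤ 2 ∧ ∃ x ∈ W, x ≠ 0 ∧ Q x = 0))
    (hexX : ∀ X : Submodule F (ι → F), (∀ w ∈ W, ∀ x ∈ X, Bp w x = 0) → W ⊔ X = ⊤ →
      ¬ (Fintype.card F ≤ 3 ∧ Module.finrank F X ≤ 2 ∧ ∃ x ∈ X, x ≠ 0 ∧ Q x = 0))
    (hns : 2 * Module.finrank F W = Fintype.card ι → ∀ X : Submodule F (ι → F),
      (∀ w ∈ W, ∀ x ∈ X, Bp w x = 0) → W ⊔ X = ⊤ → ∀ g : Matrix.GeneralLinearGroup ι F,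
      g ∈ Geo.omegaGL (⇑Q) → ¬ ∀ x ∈ X, (g : Matrix ι ι F) *ᵥ x ∈ W) :
    Geo.IsMaximalIn (Geo.omegaGL (⇑Q)) (Geo.subspaceStabilizer W ⊓ Geo.omegaGL (⇑Q)) := by
  classical
  obtain ⟨X, hXdef⟩ : ∃ X : Submodule F (ι → F),
      X = LinearMap.BilinForm.orthogonal (QuadraticMap.polarBilin Q) W := ⟨_, rfl⟩
  have hperp : ∀ w ∈ W, ∀ x ∈ X, Bp w x = 0 := by
    intro w hw x hx
    rw [hXdef] at hx
    exact hx w hw
  have hperp' : ∀ x ∈ X, ∀ w ∈ W, Bp x w = 0 := fun x hx w hw => by
    rw [QuadraticMap.polar_comm]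
    exact hperp w hw x hx
  have hdisj : W ⊓ X = ⊥ := by
    rw [eq_bot_iff]
    intro z hz
    obtain ⟨hzW, hzX⟩ := hz
    by_contra hz0
    have hz0' : z ≠ 0 := fun h => hz0 ((Submodule.mem_bot F).mpr h)
    obtain ⟨⟨x, hx, hxz⟩, -⟩ := hW z hzW hz0'
    exact hxz (hperp x hx z hzX)
  have hWle : Module.finrank F W ≤ Fintype.card ι := by
    have h := Submodule.finrank_le W
    rwa [Module.finrank_fintype_fun_eq_card] at h
  have hfin : Module.finrank F X = Fintype.card ι - Module.finrank F W := by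
    rw [hXdef, LinearMap.BilinForm.finrank_orthogonal hQ W, Module.finrank_fintype_fun_eq_card]
  have hsup : W ⊔ X = ⊤ := by
    apply Submodule.eq_top_of_finrank_eq
    have h := Submodule.finrank_sup_add_finrank_inf_eq W X
    rw [hdisj, finrank_bot, add_zero] at h
    rw [h, hfin, Module.finrank_fintype_fun_eq_card]
    omega
  have hsup' : X ⊔ W = ⊤ := by rw [sup_comm]; exact hsup
  have hX0 : X ≠ ⊥ := by
    intro h
    rw [h, finrank_bot] at hfin
    apply hW1
    apply Submodule.eq_top_of_finrank_eq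
    rw [Module.finrank_fintype_fun_eq_card]
    omega
  have hdimle : ∀ (A B : Submodule F (ι → F)) (g : Matrix.GeneralLinearGroup ι F),
      (∀ x ∈ A, (g : Matrix ι ι F) *ᵥ x ∈ B) → Module.finrank F A ≤ Module.finrank F B := by
    intro A B g h
    have hinj : Function.Injective (Matrix.toLin' (g : Matrix ι ι F)) := by
      intro x y hxy
      rw [Matrix.toLin'_apply, Matrix.toLin'_apply] at hxy
      exact Cfsg.Agent.S5676.ginj g hxy
    have hmap : A.map (Matrix.toLin' (g : Matrix ι ι F)) ≤ B := by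
      rintro _ ⟨x, hx, rfl⟩
      rw [Matrix.toLin'_apply]
      exact h x hx
    have h1 := Submodule.finrank_mono hmap
    rw [LinearEquiv.finrank_eq (Submodule.equivMapOfInjective _ hinj A).symm] at h1
    exact h1
  by_cases hlt : Module.finrank F W ≤ Module.finrank F X
  · refine ns_max Q hQ W X hperp hsup hW0 (by omega) hexW ?_
    intro g hg h
    have h1 := hdimle X W g h
    exact hns (by omega) X hperp hsup g hg h
  · push Not at hlt
    have key := ns_max Q hQ X W hperp' hsup' hX0 (by omega) (hexX X hperp hsup)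
      (fun g hg h => by
        have h1 := hdimle W X g h
        omega)
    have heq : Geo.subspaceStabilizer W ⊓ Geo.omegaGL (⇑Q)
        = Geo.subspaceStabilizer X ⊓ Geo.omegaGL (⇑Q) := by
      ext g
      constructor
      · rintro ⟨hgS, hgΩ⟩
        exact ⟨Cfsg.Agent.S5678.stab_of_maps _ _
          (perp_stab Q hQ W X hperp hsup hgΩ (fun x hx => (hgS x).mp hx)), hgΩ⟩
      · rintro ⟨hgS, hgΩ⟩
        exact ⟨Cfsg.Agent.S5678.stab_of_maps _ _
          (perp_stab Q hQ X W hperp' hsup' hgΩ (fun x hx => (hgS x).mp hx)), hgΩ⟩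
    rw [heq]
    exact key

include hQ in
omit [DecidableEq ι] [Fintype F] in
/-- the exceptional configuration on the complement gives a plus-type plane orthogonal to `W` -/
theorem hexX_of (W X : Submodule F (ι → F)) (hperp : ∀ w ∈ W, ∀ x ∈ X, Bp w x = 0)
    (hsup : W ⊔ X = ⊤) (hle : Module.finrank F X ≤ 2) {x : ι → F} (hx : x ∈ X) (hx0 : x ≠ 0)
    (hQx : Q x = 0) :
    Module.finrank F X = 2 ∧ Geo.IsNondegenerateOn (QuadraticMap.polar (⇑Q)) X ∧
      Geo.IsPlusTypeOn (⇑Q) X ∧ Geo.AreOrthogonalFor (QuadraticMap.polar (⇑Q)) X W ∧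
      Module.finrank F X + Module.finrank F W = Fintype.card ι := by
  have hndX := nd' Q hQ W X hperp hsup
  obtain ⟨h2, hplus⟩ := plane_of_small Q X hndX hle hx hx0 hQx
  refine ⟨h2, ?_, hplus, ?_, ?_⟩
  · intro w hw hw0
    have h1 : ∃ y ∈ X, Bp w y ≠ 0 := by
      by_contra hcon
      push Not at hcon
      exact hw0 (hndX w hw hcon)
    obtain ⟨y, hy, hwy⟩ := h1
    exact ⟨⟨y, hy, by rw [QuadraticMap.polar_comm]; exact hwy⟩, ⟨y, hy, hwy⟩⟩
  · intro u hu v hv
    rw [QuadraticMap.polar_comm]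
    exact hperp v hv u hu
  · have hdisj : W ⊓ X = ⊥ := by
      rw [eq_bot_iff]
      intro z hz
      exact (Submodule.mem_bot F).mpr (disj Q hQ W X hperp hsup z hz.1 hz.2)
    have h := Submodule.finrank_sup_add_finrank_inf_eq W X
    rw [hsup, hdisj, finrank_bot, finrank_top, Module.finrank_fintype_fun_eq_card] at h
    omega

end gen

/-- Let F be a finite field with q elements, n ≥ 13 even, Q a non-degenerate quadratic form on F^n of plus type (some subspace of dimension n/2 is totally singular), and Ω the commutator subgroup of the isometry group of Q, viewed inside GL_n(F). Let W be a non-zero proper subspace with dim W ≠ n/2 on which the polar form of Q is non-degenerate. Exclude the case q ≤ 3 in which W, or its orthogonal complement, is a plane containing a line on which Q vanishes. Then the elements of Ω stabilising W form a maximal subgroup of Ω. -/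
theorem result {F : Type*} [Field F] [Fintype F] {n : ℕ} (hn : 13 ≤ n) (heven : Even n) (Q : (Fin n → F) → F) (hQ : Cfsg.Geo.IsNondegenerateQuadraticForm Q) (hplus : Cfsg.Geo.IsPlusTypeOn Q ⊤) (W : Submodule F (Fin n → F)) (hW0 : W ≠ ⊥) (hW1 : W ≠ ⊤) (hdim : 2 * Module.finrank F W ≠ n) (hW : Cfsg.Geo.IsNondegenerateOn (QuadraticMap.polar Q) W) (hex : ¬ (Fintype.card F ≤ 3 ∧ (∃ U : Submodule F (Fin n → F), Module.finrank F U = 2 ∧ Cfsg.Geo.IsNondegenerateOn (QuadraticMap.polar Q) U ∧ Cfsg.Geo.IsPlusTypeOn Q U ∧ (U = W ∨ (Cfsg.Geo.AreOrthogonalFor (QuadraticMap.polar Q) U W ∧ Module.finrank F U + Module.finrank F W = n))))) : Cfsg.Geo.IsMaximalIn (Cfsg.Geo.omegaGL Q) (Cfsg.Geo.subspaceStabilizer W ⊓ Cfsg.Geo.omegaGL Q) := by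
  classical
  obtain ⟨Q', hQ'def⟩ : ∃ Q' : QuadraticForm F (Fin n → F), Q' = Cfsg.Agent.S5676.toQF Q hQ :=
    ⟨_, rfl⟩
  have hQ' : (QuadraticMap.polarBilin Q').Nondegenerate := by
    rw [hQ'def]
    exact Cfsg.Agent.S5676.toQF_nondeg Q hQ
  have hcoe : ⇑Q' = Q := by rw [hQ'def]; rfl
  rw [← hcoe] at hW hex ⊢
  have hWnd : ∀ x ∈ W, (∀ y ∈ W, QuadraticMap.polar (⇑Q') x y = 0) → x = 0 := by
    intro x hx h
    by_contra hx0
    obtain ⟨-, ⟨y, hy, hxy⟩⟩ := hW x hx hx0
    exact hxy (h y hy)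
  refine ns_gen Q' hQ' W hW0 hW1 hW (by rw [Fintype.card_fin]; exact hn) ?_ ?_ ?_
  · rintro ⟨hc, hle, x, hx, hx0, hQx⟩
    obtain ⟨h2, hplus⟩ := plane_of_small Q' W hWnd hle hx hx0 hQx
    exact hex ⟨hc, W, h2, hW, hplus, Or.inl rfl⟩
  · rintro X hperp hsup ⟨hc, hle, x, hx, hx0, hQx⟩
    obtain ⟨h2, hnd, hplus, horth, hsum⟩ := hexX_of Q' hQ' W X hperp hsup hle hx hx0 hQx
    rw [Fintype.card_fin] at hsum
    exact hex ⟨hc, X, h2, hnd, hplus, Or.inr ⟨horth, hsum⟩⟩
  · intro h
    rw [Fintype.card_fin] at h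
    exact absurd h hdim

end Cfsg.Agent.S5688
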