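import Mathlib
import Cfsg.Statements.S5675
import Cfsg.Agent.S5688

set_option autoImplicit false
open Cfsg

namespace Cfsg.Agent.S5675

/-- Let F be a finite field of odd order q, m ≥ 6, Q the standard quadratic form on F^(2m+1) and Ω the commutator subgroup of its isometry group. Let W be a non-zero subspace of even dimension on which the polar form of Q is non-degenerate; exclude the case q = 3, dim W = 2 with Q vanishing on some line of W (a plus-type plane). Then the elements of Ω stabilising W (equivalently, stabilising its orthogonal complement, of odd dimension) form a maximal subgroup of Ω. -/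
theorem result {F : Type*} [Field F] [Fintype F] (hodd : Odd (Fintype.card F)) (m : ℕ) (hm : 6 ≤ m) (W : Submodule F (Unit ⊕ (Fin m ⊕ Fin m) → F)) (hW0 : W ≠ ⊥) (hev : Even (Module.finrank F W)) (hW : Cfsg.Geo.IsNondegenerateOn (QuadraticMap.polar (Cfsg.quadFormOdd m F)) W) (hex : ¬ (Fintype.card F = 3 ∧ Module.finrank F W = 2 ∧ Cfsg.Geo.IsPlusTypeOn (Cfsg.quadFormOdd m F) W)) : Cfsg.Geo.IsMaximalIn (Cfsg.Geo.omegaGL (Cfsg.quadFormOdd m F)) (Cfsg.Geo.subspaceStabilizer W ⊓ Cfsg.Geo.omegaGL (Cfsg.quadFormOdd m F)) := by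
  classical
  have h2 : (2 : F) ≠ 0 := Cfsg.Agent.S5644.two_ne hodd
  have hcard : Fintype.card (Unit ⊕ (Fin m ⊕ Fin m)) = 2 * m + 1 := by
    simp only [Fintype.card_sum, Fintype.card_unit, Fintype.card_fin]
    omega
  have hQ' := Cfsg.Agent.Lib.Helper16.qfOdd_nondeg m F h2
  have hW' : Cfsg.Geo.IsNondegenerateOn
      (QuadraticMap.polar (⇑(Cfsg.Agent.Lib.Helper16.qfOdd m F))) W := hW
  have hWnd : ∀ x ∈ W, (∀ y ∈ W,
      QuadraticMap.polar (⇑(Cfsg.Agent.Lib.Helper16.qfOdd m F)) x y = 0) → x = 0 := by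
    intro x hx h
    by_contra hx0
    obtain ⟨-, ⟨y, hy, hxy⟩⟩ := hW' x hx hx0
    exact hxy (h y hy)
  have hW1 : W ≠ ⊤ := by
    intro h
    rw [h, finrank_top, Module.finrank_fintype_fun_eq_card, hcard] at hev
    obtain ⟨j, hj⟩ := hev
    omega
  refine Cfsg.Agent.S5688.ns_gen (Cfsg.Agent.Lib.Helper16.qfOdd m F) hQ' W hW0 hW1 hW'
    (by rw [hcard]; omega) ?_ ?_ ?_
  · rintro ⟨hc, hle, x, hx, hx0, hQx⟩
    obtain ⟨h2', hplus⟩ := Cfsg.Agent.S5688.plane_of_small (Cfsg.Agent.Lib.Helper16.qfOdd m F) W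
      hWnd hle hx hx0 hQx
    apply hex
    refine ⟨?_, h2', hplus⟩
    have h1 : 1 < Fintype.card F := Fintype.one_lt_card
    obtain ⟨j, hj⟩ := hodd
    omega
  · rintro X hperp hsup ⟨hc, hle, x, hx, hx0, hQx⟩
    obtain ⟨h2', -, -, -, hsum⟩ := Cfsg.Agent.S5688.hexX_of (Cfsg.Agent.Lib.Helper16.qfOdd m F)
      hQ' W X hperp hsup hle hx hx0 hQx
    rw [hcard] at hsum
    obtain ⟨j, hj⟩ := hev
    omega
  · intro h
    rw [hcard] at h
    omega

end Cfsg.Agent.S5675
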