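import Mathlib
import Cfsg.Statements.S5687
import Cfsg.Agent.S5685

set_option autoImplicit false
open Cfsg

namespace Cfsg.Agent.S5687

/-- Let F be a finite field with q elements, n ≥ 13 even, Q a non-degenerate quadratic form on F^n of minus type (no subspace of dimension n/2 is totally singular), and Ω the commutator subgroup of the isometry group of Q, viewed inside GL_n(F). The elements of Ω stabilising a non-zero subspace on which Q vanishes form a maximal subgroup of Ω. -/
theorem result {F : Type*} [Field F] [Fintype F] {n : ℕ} (hn : 13 ≤ n) (heven : Even n) (Q : (Fin n → F) → F) (hQ : Cfsg.Geo.IsNondegenerateQuadraticForm Q) (hminus : ¬ Cfsg.Geo.IsPlusTypeOn Q ⊤) (W : Submodule F (Fin n → F)) (hW0 : W ≠ ⊥) (hW : Cfsg.Geo.IsTotallySingularQuad Q W) : Cfsg.Geo.IsMaximalIn (Cfsg.Geo.omegaGL Q) (Cfsg.Geo.subspaceStabilizer W ⊓ Cfsg.Geo.omegaGL Q) := by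
  classical
  let Q' := Cfsg.Agent.S5676.toQF Q hQ
  have hQ' := Cfsg.Agent.S5676.toQF_nondeg Q hQ
  have hW' : ∀ x ∈ W, Q' x = 0 := hW
  refine Cfsg.Agent.S5685.parab_max Q' hQ' (by rw [Fintype.card_fin]; omega) W hW0 hW' ?_
  rw [Fintype.card_fin]
  by_cases h : 2 * (Module.finrank F W + 1) < n
  · exact Or.inl h
  · right
    intro x hx hxW
    by_contra hxn
    obtain ⟨hTts, hTdim⟩ := Cfsg.Agent.S5685.ts_extend Q' W hW' hx hxW hxn
    have h1 := Cfsg.Agent.S5685.ts_dim_le Q' hQ' _ hTts
    rw [Fintype.card_fin, hTdim] at h1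
    apply hminus
    refine ⟨W ⊔ Submodule.span F {x}, le_top, hTts, ?_⟩
    rw [hTdim, finrank_top, Module.finrank_fintype_fun_eq_card, Fintype.card_fin]
    omega

end Cfsg.Agent.S5687
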