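import Mathlib
import Cfsg.Statements.S5689
import Cfsg.Agent.S5688

set_option autoImplicit false
open Cfsg

namespace Cfsg.Agent.S5689

open Matrix
open Cfsg.Agent.S5699 (perp_mem nd nd' disj ns_max)
open Cfsg.Agent.S5688 (ns_gen plane_of_small hexX_of)

section ws

variable {F : Type*} [Field F] [Fintype F]

/-- a diagonal form in an even number of variables over a finite field of odd characteristic is
similar to its negative -/
theorem anti_ws (h2 : (2 : F) ≠ 0) (j : ℕ) (w : Fin (j + j) → Fˣ) :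
    ∃ φ₀ : (Fin (j + j) → F) →ₗ[F] (Fin (j + j) → F),
      ∀ x, QuadraticMap.weightedSumSquares F w (φ₀ x) = - QuadraticMap.weightedSumSquares F w x := by
  classical
  have hab : ∀ l : Fin j, ∃ a b : F,
      (w (Fin.castAdd j l) : F) * a ^ 2 + (w (Fin.natAdd j l) : F) * b ^ 2
        = -(w (Fin.castAdd j l) : F) := fun l =>
    Cfsg.Agent.Lib.Helper16.exists_binary_rep h2 _ _ _ (Units.ne_zero _) (Units.ne_zero _)
  choose a b hab using hab
  obtain ⟨γ, hγ⟩ : ∃ γ : Fin j → F, ∀ l,
      γ l * (w (Fin.castAdd j l) : F) = (w (Fin.natAdd j l) : F) :=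
    ⟨fun l => (w (Fin.natAdd j l) : F) * (w (Fin.castAdd j l) : F)⁻¹, fun l => by
      rw [mul_assoc, inv_mul_cancel₀ (Units.ne_zero _), mul_one]⟩
  let φ₀ : (Fin (j + j) → F) →ₗ[F] (Fin (j + j) → F) :=
    { toFun := fun x => Fin.addCases
        (fun l => a l * x (Fin.castAdd j l) - γ l * b l * x (Fin.natAdd j l))
        (fun l => b l * x (Fin.castAdd j l) + a l * x (Fin.natAdd j l))
      map_add' := by
        intro x y
        funext i
        refine Fin.addCases (fun l => ?_) (fun l => ?_) i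
        · simp only [Fin.addCases_left, Pi.add_apply]
          ring
        · simp only [Fin.addCases_right, Pi.add_apply]
          ring
      map_smul' := by
        intro c x
        funext i
        refine Fin.addCases (fun l => ?_) (fun l => ?_) i
        · simp only [Fin.addCases_left, Pi.smul_apply, smul_eq_mul, RingHom.id_apply]
          ring
        · simp only [Fin.addCases_right, Pi.smul_apply, smul_eq_mul, RingHom.id_apply]
          ring }
  have hφl : ∀ (x : Fin (j + j) → F) (l : Fin j), φ₀ x (Fin.castAdd j l)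
      = a l * x (Fin.castAdd j l) - γ l * b l * x (Fin.natAdd j l) := fun x l => by
    show Fin.addCases (motive := fun _ => F)
      (fun l => a l * x (Fin.castAdd j l) - γ l * b l * x (Fin.natAdd j l))
      (fun l => b l * x (Fin.castAdd j l) + a l * x (Fin.natAdd j l)) (Fin.castAdd j l) = _
    rw [Fin.addCases_left]
  have hφr : ∀ (x : Fin (j + j) → F) (l : Fin j), φ₀ x (Fin.natAdd j l)
      = b l * x (Fin.castAdd j l) + a l * x (Fin.natAdd j l) := fun x l => by
    show Fin.addCases (motive := fun _ => F)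
      (fun l => a l * x (Fin.castAdd j l) - γ l * b l * x (Fin.natAdd j l))
      (fun l => b l * x (Fin.castAdd j l) + a l * x (Fin.natAdd j l)) (Fin.natAdd j l) = _
    rw [Fin.addCases_right]
  refine ⟨φ₀, fun x => ?_⟩
  rw [QuadraticMap.weightedSumSquares_apply, QuadraticMap.weightedSumSquares_apply,
    Fin.sum_univ_add, Fin.sum_univ_add, ← Finset.sum_add_distrib, ← Finset.sum_add_distrib,
    ← Finset.sum_neg_distrib]
  refine Finset.sum_congr rfl (fun l _ => ?_)
  rw [hφl, hφr, Units.smul_def, Units.smul_def, Units.smul_def, Units.smul_def, smul_eq_mul,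
    smul_eq_mul, smul_eq_mul, smul_eq_mul]
  have h := hab l
  have hg := hγ l
  linear_combination (x (Fin.castAdd j l) ^ 2 + γ l * x (Fin.natAdd j l) ^ 2) * h
    - (2 * a l * b l * x (Fin.castAdd j l) * x (Fin.natAdd j l)
        - γ l * b l ^ 2 * x (Fin.natAdd j l) ^ 2 + a l ^ 2 * x (Fin.natAdd j l) ^ 2
        + x (Fin.natAdd j l) ^ 2) * hg

theorem anti_even (h2 : (2 : F) ≠ 0) (k : ℕ) (hk : Even k) (w : Fin k → Fˣ) :
    ∃ φ₀ : (Fin k → F) →ₗ[F] (Fin k → F),
      ∀ x, QuadraticMap.weightedSumSquares F w (φ₀ x) = - QuadraticMap.weightedSumSquares F w x := by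
  obtain ⟨j, rfl⟩ := hk
  exact anti_ws h2 j w

end ws

section gen

variable {ι : Type} [Fintype ι] [DecidableEq ι] {F : Type*} [Field F] [Fintype F]
  (Q : QuadraticForm F (ι → F)) (hQ : (QuadraticMap.polarBilin Q).Nondegenerate)

local notation "Bp" => QuadraticMap.polar (DFunLike.coe Q)

omit [DecidableEq ι] in
/-- a nondegenerate subspace of even dimension carries a similarity of factor `-1` -/
theorem anti_sub (W : Submodule F (ι → F))
    (hWnd : ∀ x ∈ W, (∀ y ∈ W, Bp x y = 0) → x = 0) (hev : Even (Module.finrank F W)) :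
    ∃ φ : W →ₗ[F] W, ∀ w : W, Q ((φ w : W) : ι → F) = - Q (w : ι → F) := by
  classical
  by_cases h2 : (2 : F) = 0
  · refine ⟨LinearMap.id, fun w => ?_⟩
    rw [LinearMap.id_apply]
    exact eq_neg_of_add_eq_zero_left (by rw [← two_mul, h2, zero_mul])
  · haveI : Invertible (2 : F) := invertibleOfNonzero h2
    obtain ⟨Qw, hQwdef⟩ : ∃ Qw : QuadraticForm F W, Qw = Q.comp W.subtype := ⟨_, rfl⟩
    have hQw : ∀ x : W, Qw x = Q (x : ι → F) := fun x => by
      rw [hQwdef]
      rfl
    have hsep : (QuadraticMap.associated (R := F) Qw).SeparatingLeft := by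
      intro x hx
      have h3 := hWnd x x.2 (fun y hy => ?_)
      · exact Subtype.ext h3
      · have h1 := hx ⟨y, hy⟩
        have h4 : (2 • QuadraticMap.associated (R := F) Qw) x ⟨y, hy⟩ = 0 := by
          rw [LinearMap.smul_apply, LinearMap.smul_apply, h1, smul_zero]
        rw [QuadraticMap.two_nsmul_associated] at h4
        have h5 : QuadraticMap.polar (⇑Qw) x ⟨y, hy⟩ = 0 := h4
        unfold QuadraticMap.polar at h5 ⊢
        rw [hQw, hQw, hQw] at h5
        exact h5
    obtain ⟨w, ⟨e⟩⟩ :=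
      QuadraticForm.equivalent_weightedSumSquares_units_of_nondegenerate' Qw hsep
    obtain ⟨φ₀, hφ₀⟩ := anti_even h2 (Module.finrank F W) hev w
    refine ⟨e.symm.toLinearEquiv.toLinearMap ∘ₗ φ₀ ∘ₗ e.toLinearEquiv.toLinearMap, fun x => ?_⟩
    have h1 : Qw (e.symm (φ₀ (e x))) = QuadraticMap.weightedSumSquares F w (φ₀ (e x)) :=
      e.symm.map_app _
    have h3 : QuadraticMap.weightedSumSquares F w (e x) = Qw x := e.map_app x
    rw [← hQw, ← hQw]
    show Qw (e.symm (φ₀ (e x))) = - Qw x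
    rw [h1, hφ₀, h3]

include hQ in
omit [DecidableEq ι] [Fintype F] in
theorem finrank_sum (W X : Submodule F (ι → F)) (hperp : ∀ w ∈ W, ∀ x ∈ X, Bp w x = 0)
    (hsup : W ⊔ X = ⊤) : Module.finrank F W + Module.finrank F X = Fintype.card ι := by
  have hdisj : W ⊓ X = ⊥ := by
    rw [eq_bot_iff]
    intro z hz
    exact (Submodule.mem_bot F).mpr (disj Q hQ W X hperp hsup z hz.1 hz.2)
  have h := Submodule.finrank_sup_add_finrank_inf_eq W X
  rw [hsup, hdisj, finrank_bot, finrank_top, Module.finrank_fintype_fun_eq_card] at h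
  omega

include hQ in
/-- if an element of the commutator subgroup carries the complement of an even-dimensional
nondegenerate subspace of half dimension into it, the form has plus type -/
theorem plus_of_swap (W X : Submodule F (ι → F)) (hperp : ∀ w ∈ W, ∀ x ∈ X, Bp w x = 0)
    (hsup : W ⊔ X = ⊤) (hev : Even (Module.finrank F W))
    (hX : 2 * Module.finrank F X = Fintype.card ι) {g : Matrix.GeneralLinearGroup ι F}
    (hg : g ∈ Geo.omegaGL (⇑Q)) (h : ∀ x ∈ X, (g : Matrix ι ι F) *ᵥ x ∈ W) :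
    Geo.IsPlusTypeOn (⇑Q) ⊤ := by
  classical
  have hWnd := nd Q hQ W X hperp hsup
  obtain ⟨φ, hφ⟩ := anti_sub Q W hWnd hev
  let ψ : X →ₗ[F] W := (Matrix.toLin' (g : Matrix ι ι F)).restrict
    (fun x hx => by rw [Matrix.toLin'_apply]; exact h x hx)
  have hψ : ∀ x : X, ((ψ x : W) : ι → F) = (g : Matrix ι ι F) *ᵥ (x : ι → F) := fun x => by
    show Matrix.toLin' (g : Matrix ι ι F) (x : ι → F) = _
    rw [Matrix.toLin'_apply]
  let T : X →ₗ[F] (ι → F) := W.subtype ∘ₗ φ ∘ₗ ψ + X.subtype
  have hT : ∀ x : X, T x = ((φ (ψ x) : W) : ι → F) + (x : ι → F) := fun x => rfl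
  have hTinj : Function.Injective T := by
    rw [← LinearMap.ker_eq_bot, LinearMap.ker_eq_bot']
    intro x hx
    rw [hT] at hx
    have h1 : (x : ι → F) = -((φ (ψ x) : W) : ι → F) := eq_neg_of_add_eq_zero_right hx
    have h2 : (x : ι → F) ∈ W := by
      rw [h1]
      exact W.neg_mem (φ (ψ x)).2
    exact Subtype.ext (disj Q hQ W X hperp hsup _ h2 x.2)
  refine ⟨LinearMap.range T, le_top, ?_, ?_⟩
  · rintro _ ⟨x, rfl⟩
    rw [hT, QuadraticMap.map_add (⇑Q), hφ, hψ, Cfsg.Agent.S5676.omega_isom Q hg,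
      hperp _ (φ (ψ x)).2 _ x.2]
    simp
  · rw [LinearMap.finrank_range_of_inj hTinj, finrank_top, Module.finrank_fintype_fun_eq_card]
    exact hX

end gen

/-- Let F be a finite field with q elements, n ≥ 13 even, Q a non-degenerate quadratic form on F^n of minus type (no subspace of dimension n/2 is totally singular), and Ω the commutator subgroup of the isometry group of Q, viewed inside GL_n(F). Let W be a non-zero proper subspace on which the polar form of Q is non-degenerate, not of odd dimension n/2. Exclude the case q ≤ 3 in which W, or its orthogonal complement, is a plane containing a line on which Q vanishes. Then the elements of Ω stabilising W form a maximal subgroup of Ω. -/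
theorem result {F : Type*} [Field F] [Fintype F] {n : ℕ} (hn : 13 ≤ n) (heven : Even n) (Q : (Fin n → F) → F) (hQ : Cfsg.Geo.IsNondegenerateQuadraticForm Q) (hminus : ¬ Cfsg.Geo.IsPlusTypeOn Q ⊤) (W : Submodule F (Fin n → F)) (hW0 : W ≠ ⊥) (hW1 : W ≠ ⊤) (hdim : ¬ (2 * Module.finrank F W = n ∧ Odd (Module.finrank F W))) (hW : Cfsg.Geo.IsNondegenerateOn (QuadraticMap.polar Q) W) (hex : ¬ (Fintype.card F ≤ 3 ∧ (∃ U : Submodule F (Fin n → F), Module.finrank F U = 2 ∧ Cfsg.Geo.IsNondegenerateOn (QuadraticMap.polar Q) U ∧ Cfsg.Geo.IsPlusTypeOn Q U ∧ (U = W ∨ (Cfsg.Geo.AreOrthogonalFor (QuadraticMap.polar Q) U W ∧ Module.finrank F U + Module.finrank F W = n))))) : Cfsg.Geo.IsMaximalIn (Cfsg.Geo.omegaGL Q) (Cfsg.Geo.subspaceStabilizer W ⊓ Cfsg.Geo.omegaGL Q) := by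
  classical
  obtain ⟨Q', hQ'def⟩ : ∃ Q' : QuadraticForm F (Fin n → F), Q' = Cfsg.Agent.S5676.toQF Q hQ :=
    ⟨_, rfl⟩
  have hQ' : (QuadraticMap.polarBilin Q').Nondegenerate := by
    rw [hQ'def]
    exact Cfsg.Agent.S5676.toQF_nondeg Q hQ
  have hcoe : ⇑Q' = Q := by rw [hQ'def]; rfl
  rw [← hcoe] at hW hex hminus ⊢
  have hWnd : ∀ x ∈ W, (∀ y ∈ W, QuadraticMap.polar (⇑Q') x y = 0) → x = 0 := by
    intro x hx h
    by_contra hx0
    obtain ⟨-, ⟨y, hy, hxy⟩⟩ := hW x hx hx0
    exact hxy (h y hy)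
  refine ns_gen Q' hQ' W hW0 hW1 hW (by rw [Fintype.card_fin]; exact hn) ?_ ?_ ?_
  · rintro ⟨hc, hle, x, hx, hx0, hQx⟩
    obtain ⟨h2, hplus⟩ := plane_of_small Q' W hWnd hle hx hx0 hQx
    exact hex ⟨hc, W, h2, hW, hplus, Or.inl rfl⟩
  · rintro X hperp hsup ⟨hc, hle, x, hx, hx0, hQx⟩
    obtain ⟨h2, hnd, hplus, horth, hsum⟩ := hexX_of Q' hQ' W X hperp hsup hle hx hx0 hQx
    rw [Fintype.card_fin] at hsum
    exact hex ⟨hc, X, h2, hnd, hplus, Or.inr ⟨horth, hsum⟩⟩
  · intro h X hperp hsup g hg hmap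
    have hsum := finrank_sum Q' hQ' W X hperp hsup
    have hev : Even (Module.finrank F W) := by
      by_contra hne
      rw [Fintype.card_fin] at h
      exact hdim ⟨h, Nat.not_even_iff_odd.mp hne⟩
    exact hminus (plus_of_swap Q' hQ' W X hperp hsup hev (by omega) hg hmap)

end Cfsg.Agent.S5689
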