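import Mathlib
import Cfsg.Statements.S5691
import Cfsg.Agent.S5685

set_option autoImplicit false
open Cfsg

namespace Cfsg.Agent.S5691

open Matrix
open Cfsg.Agent.S5676 (rr rr_mem rr_mulVec omega_isom gns line_stab ginj)
open Cfsg.Agent.S5686 (omega_polar two_fun)

section gen

variable {ι : Type} [Fintype ι] [DecidableEq ι] {F : Type*} [Field F] [Fintype F]
  (Q : QuadraticForm F (ι → F)) (hQ : (QuadraticMap.polarBilin Q).Nondegenerate)

local notation "Bp" => QuadraticMap.polar (DFunLike.coe Q)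

omit [Fintype F] in
theorem inv_mulVec_mulVec (g : Matrix.GeneralLinearGroup ι F) (x : ι → F) :
    ((g⁻¹ : Matrix.GeneralLinearGroup ι F) : Matrix ι ι F) *ᵥ ((g : Matrix ι ι F) *ᵥ x) = x := by
  rw [Matrix.mulVec_mulVec, ← Units.val_mul, inv_mul_cancel, Units.val_one, Matrix.one_mulVec]

omit [Fintype F] in
theorem mulVec_inv_mulVec (g : Matrix.GeneralLinearGroup ι F) (x : ι → F) :
    (g : Matrix ι ι F) *ᵥ (((g⁻¹ : Matrix.GeneralLinearGroup ι F) : Matrix ι ι F) *ᵥ x) = x := by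
  rw [Matrix.mulVec_mulVec, ← Units.val_mul, mul_inv_cancel, Units.val_one, Matrix.one_mulVec]

omit [Fintype ι] [DecidableEq ι] [Fintype F] in
theorem polar_self_two (h2 : (2 : F) = 0) (x : ι → F) : Bp x x = 0 := by
  rw [QuadraticMap.polar_self, two_smul, ← two_mul, h2, zero_mul]

include hQ in
/-- one step: a product of two reflections fixing `v` and moving `y` to `z` -/
theorem step (h5 : 5 ≤ Fintype.card ι) (h2 : (2 : F) = 0) (hsq : ∀ a : F, IsSquare a)
    (v y z : ι → F) (hyz : Q y = Q z) (hv : Bp v y = Bp v z) (hB : Bp y z ≠ 0) :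
    ∃ g : Matrix.GeneralLinearGroup ι F, g ∈ Geo.omegaGL (⇑Q) ∧
      (g : Matrix ι ι F) *ᵥ v = v ∧ (g : Matrix ι ι F) *ᵥ y = z := by
  have hex : Fintype.card F ≠ 2 ∨ Fintype.card ι ≠ 4 := Or.inr (by omega)
  obtain ⟨d, hddef⟩ : ∃ d : ι → F, d = y - z := ⟨_, rfl⟩
  have hQd : Q d = - Bp y z := by
    rw [hddef, sub_eq_add_neg, QuadraticMap.map_add (⇑Q), QuadraticMap.map_neg,
      QuadraticMap.polar_neg_right, ← hyz]
    linear_combination (Q y) * h2
  have hd : Q d ≠ 0 := by rw [hQd]; exact neg_ne_zero.mpr hB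
  obtain ⟨b, hb, hbv⟩ := gns Q hQ ![v, z] (by omega)
  have hvb : Bp v b = 0 := hbv 0
  have hzb : Bp z b = 0 := hbv 1
  refine ⟨rr Q b d hb hd, rr_mem Q hQ hex hb hd (hsq _), ?_, ?_⟩
  · rw [rr_mulVec]
    have h1 : Bp d v = 0 := by
      rw [hddef, QuadraticMap.polar_sub_left, QuadraticMap.polar_comm (⇑Q) y v,
        QuadraticMap.polar_comm (⇑Q) z v, hv, sub_self]
    rw [h1]
    simp only [mul_zero, zero_smul, sub_zero]
    rw [QuadraticMap.polar_comm (⇑Q) b v, hvb]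
    simp
  · rw [rr_mulVec]
    have h1 : Bp d y = Q d := by
      rw [hQd, hddef, QuadraticMap.polar_sub_left, polar_self_two Q h2,
        QuadraticMap.polar_comm (⇑Q) z y, zero_sub]
    have h3 : y - ((Q d)⁻¹ * Bp d y) • d = z := by
      rw [h1, inv_mul_cancel₀ hd, one_smul, hddef]
      abel
    rw [h3, QuadraticMap.polar_comm (⇑Q) b z, hzb]
    simp

omit [Fintype ι] [DecidableEq ι] [Fintype F] in
theorem not_smul (h2 : (2 : F) = 0) {v y : ι → F} (hv : Q v ≠ 0) (hy : Q y = Q v)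
    (hyv : y ≠ v) : ∀ c : F, y ≠ c • v := by
  intro c hc
  apply hyv
  rw [hc, QuadraticMap.map_smul, smul_eq_mul] at hy
  have h1 : (c - 1) * (c - 1) = 0 := by
    have h3 : c * c = 1 := by
      have h4 : (c * c - 1) * Q v = 0 := by linear_combination hy
      rcases mul_eq_zero.mp h4 with h5 | h5
      · linear_combination h5
      · exact absurd h5 hv
    linear_combination h3 + (1 - c) * h2
  have h3 : c = 1 := by
    rcases mul_eq_zero.mp h1 with h | h <;> linear_combination h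
  rw [hc, h3, one_smul]

include hQ in
/-- the stabiliser of `v` in the commutator subgroup is transitive on each level set -/
theorem trans (h9 : 9 ≤ Fintype.card ι) (h2 : (2 : F) = 0) (hsq : ∀ a : F, IsSquare a)
    (v y z : ι → F) (hv : Q v ≠ 0) (hy : Q y = Q v) (hz : Q z = Q v) (hvy : Bp v y = Bp v z)
    (hyv : y ≠ v) (hzv : z ≠ v) :
    ∃ g : Matrix.GeneralLinearGroup ι F, g ∈ Geo.omegaGL (⇑Q) ∧
      (g : Matrix ι ι F) *ᵥ v = v ∧ (g : Matrix ι ι F) *ᵥ y = z := by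
  by_cases hB : Bp y z ≠ 0
  · exact step Q hQ (by omega) h2 hsq v y z (by rw [hy, hz]) hvy hB
  push Not at hB
  obtain ⟨a, hay, hav⟩ := two_fun Q hQ v y (not_smul Q h2 hv hy hyv)
  obtain ⟨a', ha'z, ha'v⟩ := two_fun Q hQ v z (not_smul Q h2 hv hz hzv)
  obtain ⟨w₁, hw₁v, hw₁y, hw₁z⟩ : ∃ w₁, Bp v w₁ = 0 ∧ Bp y w₁ ≠ 0 ∧ Bp z w₁ ≠ 0 := by
    by_cases h1 : Bp z a ≠ 0
    · exact ⟨a, by rw [QuadraticMap.polar_comm]; exact hav,
        by rw [QuadraticMap.polar_comm, hay]; exact one_ne_zero, h1⟩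
    by_cases h3 : Bp y a' ≠ 0
    · exact ⟨a', by rw [QuadraticMap.polar_comm]; exact ha'v, h3,
        by rw [QuadraticMap.polar_comm, ha'z]; exact one_ne_zero⟩
    push Not at h1 h3
    refine ⟨a + a', ?_, ?_, ?_⟩
    · rw [QuadraticMap.polar_add_right, QuadraticMap.polar_comm (⇑Q) v a,
        QuadraticMap.polar_comm (⇑Q) v a', hav, ha'v, add_zero]
    · rw [QuadraticMap.polar_add_right, h3, add_zero, QuadraticMap.polar_comm, hay]
      exact one_ne_zero
    · rw [QuadraticMap.polar_add_right, h1, zero_add, QuadraticMap.polar_comm, ha'z]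
      exact one_ne_zero
  obtain ⟨u₀, hu₀, hu₀v⟩ := gns Q hQ ![v, y, z, w₁] (by omega)
  have hvu : Bp v u₀ = 0 := hu₀v 0
  have hyu : Bp y u₀ = 0 := hu₀v 1
  have hzu : Bp z u₀ = 0 := hu₀v 2
  have hwu : Bp w₁ u₀ = 0 := hu₀v 3
  obtain ⟨s, hs⟩ := hsq ((- Q w₁ - Bp y w₁) / Q u₀)
  obtain ⟨t, htdef⟩ : ∃ t : ι → F, t = y + w₁ + s • u₀ := ⟨_, rfl⟩
  have hQt : Q t = Q y := by
    have h1 : s * s * Q u₀ = - Q w₁ - Bp y w₁ := by
      rw [← hs]
      field_simp
    rw [htdef, add_assoc, QuadraticMap.map_add (⇑Q), QuadraticMap.map_add (⇑Q),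
      QuadraticMap.map_smul, QuadraticMap.polar_add_right, QuadraticMap.polar_smul_right,
      QuadraticMap.polar_smul_right, hwu, hyu]
    simp only [smul_eq_mul, mul_zero, add_zero]
    linear_combination h1
  have hvt : Bp v t = Bp v y := by
    rw [htdef, QuadraticMap.polar_add_right, QuadraticMap.polar_add_right,
      QuadraticMap.polar_smul_right, hw₁v, hvu]
    simp
  have hyt : Bp y t ≠ 0 := by
    rw [htdef, QuadraticMap.polar_add_right, QuadraticMap.polar_add_right,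
      QuadraticMap.polar_smul_right, polar_self_two Q h2, hyu]
    simpa using hw₁y
  have htz : Bp t z ≠ 0 := by
    rw [htdef, QuadraticMap.polar_add_left, QuadraticMap.polar_add_left,
      QuadraticMap.polar_smul_left, hB, QuadraticMap.polar_comm (⇑Q) u₀ z, hzu,
      QuadraticMap.polar_comm (⇑Q) w₁ z]
    simpa using hw₁z
  obtain ⟨g₁, hg₁, hg₁v, hg₁y⟩ := step Q hQ (by omega) h2 hsq v y t hQt.symm hvt.symm hyt
  obtain ⟨g₂, hg₂, hg₂v, hg₂t⟩ := step Q hQ (by omega) h2 hsq v t z (by rw [hQt, hy, hz])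
    (by rw [hvt, hvy]) htz
  refine ⟨g₂ * g₁, mul_mem hg₂ hg₁, ?_, ?_⟩
  · rw [Units.val_mul, ← Matrix.mulVec_mulVec, hg₁v, hg₂v]
  · rw [Units.val_mul, ← Matrix.mulVec_mulVec, hg₁y, hg₂t]

include hQ in
/-- any two vectors of the same norm have a common neighbour in the level-`β` graph -/
theorem connect (h7 : 7 ≤ Fintype.card ι) (h2 : (2 : F) = 0) (hsq : ∀ a : F, IsSquare a)
    (v z : ι → F) (hv : Q v ≠ 0) (hz : Q z = Q v) (hzv : z ≠ v) (β : F) :
    ∃ z₁, Q z₁ = Q v ∧ Bp v z₁ = β ∧ Bp z z₁ = β ∧ z₁ ≠ v ∧ z₁ ≠ z := by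
  have hz0 : Q z ≠ 0 := by rw [hz]; exact hv
  obtain ⟨a, haz, hav⟩ := two_fun Q hQ v z (not_smul Q h2 hv hz hzv)
  obtain ⟨a', ha'v, ha'z⟩ := two_fun Q hQ z v (not_smul Q h2 hz0 hz.symm (Ne.symm hzv))
  obtain ⟨p, hpdef⟩ : ∃ p : ι → F, p = a + a' := ⟨_, rfl⟩
  have hpv : Bp p v = 1 := by rw [hpdef, QuadraticMap.polar_add_left, hav, ha'v, zero_add]
  have hpz : Bp p z = 1 := by rw [hpdef, QuadraticMap.polar_add_left, haz, ha'z, add_zero]
  have hpp : Bp p p = 0 := polar_self_two Q h2 p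
  obtain ⟨u₀, hu₀, hu₀v⟩ := gns Q hQ ![v, z, p] (by omega)
  have hvu : Bp v u₀ = 0 := hu₀v 0
  have hzu : Bp z u₀ = 0 := hu₀v 1
  have hpu : Bp p u₀ = 0 := hu₀v 2
  obtain ⟨s, hs⟩ := hsq ((Q v - Q (β • p)) / Q u₀)
  have h1 : s * s * Q u₀ = Q v - Q (β • p) := by
    rw [← hs]
    field_simp
  refine ⟨β • p + s • u₀, ?_, ?_, ?_, ?_, ?_⟩
  · rw [QuadraticMap.map_add (⇑Q), QuadraticMap.map_smul Q s u₀, QuadraticMap.polar_smul_right,
      QuadraticMap.polar_smul_left, hpu]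
    simp only [smul_eq_mul, mul_zero, add_zero]
    linear_combination h1
  · rw [QuadraticMap.polar_add_right, QuadraticMap.polar_smul_right,
      QuadraticMap.polar_smul_right, hvu, QuadraticMap.polar_comm (⇑Q) v p, hpv]
    simp
  · rw [QuadraticMap.polar_add_right, QuadraticMap.polar_smul_right,
      QuadraticMap.polar_smul_right, hzu, QuadraticMap.polar_comm (⇑Q) z p, hpz]
    simp
  · intro h
    have h3 : Bp p (β • p + s • u₀) = 0 := by
      rw [QuadraticMap.polar_add_right, QuadraticMap.polar_smul_right,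
        QuadraticMap.polar_smul_right, hpp, hpu]
      simp
    rw [h, hpv] at h3
    exact one_ne_zero h3
  · intro h
    have h3 : Bp p (β • p + s • u₀) = 0 := by
      rw [QuadraticMap.polar_add_right, QuadraticMap.polar_smul_right,
        QuadraticMap.polar_smul_right, hpp, hpu]
      simp
    rw [h, hpz] at h3
    exact one_ne_zero h3

include hQ in
/-- in characteristic two the stabiliser of a nonsingular point is maximal in the commutator
subgroup -/
theorem nsline_max (h9 : 9 ≤ Fintype.card ι) (h2 : (2 : F) = 0) (hsq : ∀ a : F, IsSquare a)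
    (v : ι → F) (hv : Q v ≠ 0) :
    Geo.IsMaximalIn (Geo.omegaGL (⇑Q))
      (Geo.subspaceStabilizer (Submodule.span F {v}) ⊓ Geo.omegaGL (⇑Q)) := by
  classical
  have hv0 : v ≠ 0 := by
    rintro rfl
    exact hv (map_zero _)
  have hfix : ∀ g : Matrix.GeneralLinearGroup ι F, g ∈ Geo.omegaGL (⇑Q) →
      (g ∈ Geo.subspaceStabilizer (Submodule.span F {v}) ↔ (g : Matrix ι ι F) *ᵥ v = v) := by
    intro g hg
    constructor
    · intro hgs
      have h1 : (g : Matrix ι ι F) *ᵥ v ∈ Submodule.span F {v} :=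
        (hgs v).mp (Submodule.mem_span_singleton_self v)
      obtain ⟨c, hc⟩ := Submodule.mem_span_singleton.mp h1
      by_contra hne
      exact not_smul Q h2 hv (omega_isom Q hg v) hne c hc.symm
    · intro h
      exact line_stab g v 1 one_ne_zero (by rw [h, one_smul])
  refine ⟨lt_of_le_of_ne inf_le_right ?_, ?_⟩
  · intro heq
    obtain ⟨p₀, hp₀⟩ : ∃ p₀, Bp v p₀ ≠ 0 := by
      by_contra hcon
      push Not at hcon
      exact hv0 (hQ.1 v hcon)
    obtain ⟨u₀, hu₀, hu₀v⟩ := gns Q hQ ![v, p₀] (by omega)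
    have hvu : Bp v u₀ = 0 := hu₀v 0
    have hpu : Bp p₀ u₀ = 0 := hu₀v 1
    obtain ⟨s, hs⟩ := hsq ((Q v - Q p₀) / Q u₀)
    have h1 : s * s * Q u₀ = Q v - Q p₀ := by
      rw [← hs]
      field_simp
    obtain ⟨z₁, hz₁def⟩ : ∃ z₁ : ι → F, z₁ = p₀ + s • u₀ := ⟨_, rfl⟩
    have hQz₁ : Q z₁ = Q v := by
      rw [hz₁def, QuadraticMap.map_add (⇑Q), QuadraticMap.map_smul Q s u₀,
        QuadraticMap.polar_smul_right, hpu]
      simp only [smul_eq_mul, mul_zero, add_zero]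
      linear_combination h1
    have hvz₁ : Bp v z₁ ≠ 0 := by
      rw [hz₁def, QuadraticMap.polar_add_right, QuadraticMap.polar_smul_right, hvu]
      simpa using hp₀
    obtain ⟨g, hg, -, hgv⟩ := step Q hQ (by omega) h2 hsq 0 v z₁ hQz₁.symm
      (by rw [QuadraticMap.polar_zero_left, QuadraticMap.polar_zero_left]) hvz₁
    rw [← heq] at hg
    have h3 := (hfix g hg.2).mp hg.1
    rw [hgv] at h3
    rw [h3, polar_self_two Q h2] at hvz₁
    exact hvz₁ rfl
  · intro M hHM hMΩ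
    by_cases hMH : M = Geo.subspaceStabilizer (Submodule.span F {v}) ⊓ Geo.omegaGL (⇑Q)
    · exact Or.inl hMH
    right
    apply le_antisymm hMΩ
    obtain ⟨g₀, hg₀M, hg₀H⟩ : ∃ g₀ ∈ M,
        g₀ ∉ Geo.subspaceStabilizer (Submodule.span F {v}) ⊓ Geo.omegaGL (⇑Q) := by
      by_contra hcon
      push Not at hcon
      exact hMH (le_antisymm hcon hHM)
    have hg₀Ω := hMΩ hg₀M
    obtain ⟨x, hxdef⟩ : ∃ x : ι → F, x = (g₀ : Matrix ι ι F) *ᵥ v := ⟨_, rfl⟩
    have hxv : x ≠ v := by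
      intro h
      apply hg₀H
      exact ⟨(hfix g₀ hg₀Ω).mpr (by rw [← hxdef, h]), hg₀Ω⟩
    have hQx : Q x = Q v := by rw [hxdef]; exact omega_isom Q hg₀Ω v
    obtain ⟨β, hβ⟩ : ∃ β : F, β = Bp v x := ⟨_, rfl⟩
    have hP : ∀ m ∈ M, ∀ z, Q z = Q v → Bp ((m : Matrix ι ι F) *ᵥ v) z = β →
        z ≠ (m : Matrix ι ι F) *ᵥ v → ∃ m' ∈ M, (m' : Matrix ι ι F) *ᵥ v = z := by
      intro m hm z hz hyz hzy
      have hmΩ := hMΩ hm
      have hmiΩ := inv_mem hmΩ
      obtain ⟨z', hz'def⟩ : ∃ z' : ι → F,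
          z' = ((m⁻¹ : Matrix.GeneralLinearGroup ι F) : Matrix ι ι F) *ᵥ z := ⟨_, rfl⟩
      have hmz' : (m : Matrix ι ι F) *ᵥ z' = z := by rw [hz'def, mulVec_inv_mulVec]
      have hQz' : Q z' = Q v := by rw [hz'def, omega_isom Q hmiΩ, hz]
      have hvz' : Bp v z' = β := by
        rw [← omega_polar Q hmΩ, hmz']
        exact hyz
      have hz'v : z' ≠ v := by
        intro h
        apply hzy
        rw [← hmz', h]
      obtain ⟨h, hhΩ, hhv, hhx⟩ := trans Q hQ h9 h2 hsq v x z' hv hQx hQz'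
        (by rw [hvz', hβ]) hxv hz'v
      have hhM : h ∈ M := hHM ⟨(hfix h hhΩ).mpr hhv, hhΩ⟩
      refine ⟨m * h * g₀, mul_mem (mul_mem hm hhM) hg₀M, ?_⟩
      rw [Units.val_mul, Units.val_mul, ← Matrix.mulVec_mulVec, ← Matrix.mulVec_mulVec, ← hxdef,
        hhx, hmz']
    have hall : ∀ z, Q z = Q v → ∃ m' ∈ M, (m' : Matrix ι ι F) *ᵥ v = z := by
      intro z hz
      by_cases hzv : z = v
      · exact ⟨1, one_mem M, by rw [hzv, Units.val_one, Matrix.one_mulVec]⟩
      obtain ⟨z₁, hQz₁, hvz₁, hzz₁, hz₁v, hz₁z⟩ := connect Q hQ (by omega) h2 hsq v z hv hz hzv β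
      obtain ⟨m₁, hm₁, hm₁v⟩ := hP 1 (one_mem M) z₁ hQz₁
        (by rw [Units.val_one, Matrix.one_mulVec]; exact hvz₁)
        (by rw [Units.val_one, Matrix.one_mulVec]; exact hz₁v)
      exact hP m₁ hm₁ z hz (by rw [hm₁v, QuadraticMap.polar_comm]; exact hzz₁)
        (by rw [hm₁v]; exact Ne.symm hz₁z)
    intro k hk
    obtain ⟨m, hm, hmv⟩ := hall ((k : Matrix ι ι F) *ᵥ v) (omega_isom Q hk v)
    have hmΩ := hMΩ hm
    have h1 : m⁻¹ * k ∈ M := by
      apply hHM
      have h3 : m⁻¹ * k ∈ Geo.omegaGL (⇑Q) := mul_mem (inv_mem hmΩ) hk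
      refine ⟨(hfix _ h3).mpr ?_, h3⟩
      rw [Units.val_mul, ← Matrix.mulVec_mulVec, ← hmv, inv_mulVec_mulVec]
    have h3 : k = m * (m⁻¹ * k) := by group
    rw [h3]
    exact mul_mem hm h1

end gen

/-- Let F be a finite field with q elements, n ≥ 13 even, Q a non-degenerate quadratic form on F^n (of either type), and Ω the commutator subgroup of the isometry group of Q, viewed inside GL_n(F). Suppose q is even and v is a vector with Q(v) ≠ 0. Then the elements of Ω stabilising the line spanned by v form a maximal subgroup of Ω. -/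
theorem result {F : Type*} [Field F] [Fintype F] {n : ℕ} (hn : 13 ≤ n) (heven : Even n) (Q : (Fin n → F) → F) (hQ : Cfsg.Geo.IsNondegenerateQuadraticForm Q) (hchar : ¬ Odd (Fintype.card F)) (v : (Fin n → F)) (hv : Q v ≠ 0) : Cfsg.Geo.IsMaximalIn (Cfsg.Geo.omegaGL Q) (Cfsg.Geo.subspaceStabilizer (Submodule.span F {v}) ⊓ Cfsg.Geo.omegaGL Q) := by
  classical
  have hchar : ringChar F = 2 :=
    FiniteField.even_card_iff_char_two.mpr (Nat.even_iff.mp (Nat.not_odd_iff_even.mp hchar))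
  have h2 : (2 : F) = 0 := by
    have := ringChar.Nat.cast_ringChar (R := F)
    rw [hchar] at this
    exact_mod_cast this
  exact nsline_max (Cfsg.Agent.S5676.toQF Q hQ) (Cfsg.Agent.S5676.toQF_nondeg Q hQ)
    (by rw [Fintype.card_fin]; omega) h2 (FiniteField.isSquare_of_char_two hchar) v hv

end Cfsg.Agent.S5691
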