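import Mathlib
import Cfsg.Statements.S5693
import Cfsg.Agent.S5678
import Cfsg.Agent.Lib.Helper3.Siegel

set_option autoImplicit false
set_option linter.unusedSectionVars false
set_option linter.unusedVariables false
open Cfsg

namespace Cfsg.Agent.S5693

open Matrix
open Cfsg.Agent.S5676 (rr rr_mem rr_mulVec omega_isom ginj toQF toQF_coe toQF_nondeg)
open Cfsg.Agent.S5678 (Good stab_of_maps good_transport good2 frame_not_max k3_not_max el3 three_zero)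
open Cfsg.Agent.Lib.Helper3 (siegelG siegelG_coe siegel_mulVec siegelG_mem siegelSub_le_omega)

section gen

variable {ι : Type} [Fintype ι] [DecidableEq ι] {F : Type*} [Field F] [Fintype F]
  (Q : QuadraticForm F (ι → F)) {t : ℕ} (D : Fin t → Submodule F (ι → F))

local notation "Bp" => QuadraticMap.polar (DFunLike.coe Q)

/-- the vectors of norm `ε` lying in a block -/
def Sset (ε : F) : Set (ι → F) := {x | Q x = ε ∧ ∃ i, x ∈ D i}

/-- the vectors whose pairings with all vectors of `Sset` are fixed by squaring -/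
def Tdual (ε : F) : Set (ι → F) := {x | ∀ s ∈ Sset Q D ε, (Bp s x) ^ 2 = Bp s x}

theorem three_idx (ht : 3 ≤ t) : ∃ i₁ i₂ i₃ : Fin t, i₁ ≠ i₂ ∧ i₁ ≠ i₃ ∧ i₂ ≠ i₃ :=
  ⟨⟨0, by omega⟩, ⟨1, by omega⟩, ⟨2, by omega⟩, by simp [Fin.ext_iff], by simp [Fin.ext_iff],
    by simp [Fin.ext_iff]⟩

theorem three_le_t' {k : ℕ} (hD : Geo.IsMDecomposition k D)
    (hk : k ≤ 4) (hn : 9 ≤ Fintype.card ι) : 3 ≤ t := by
  by_contra hlt
  have ht2 : t = 2 := by
    have := hD.two_le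
    omega
  subst ht2
  have h1 : (⊤ : Submodule F (ι → F)) ≤ D 0 ⊔ D 1 := by
    rw [← hD.iSup_eq_top]
    apply iSup_le
    intro i
    fin_cases i
    · exact le_sup_left
    · exact le_sup_right
  have h2 := Submodule.finrank_mono h1
  have h3 := Submodule.finrank_add_le_finrank_add_finrank (D 0) (D 1)
  rw [finrank_top, Module.finrank_fintype_fun_eq_card] at h2
  rw [hD.finrank_eq, hD.finrank_eq] at h3
  omega

theorem mixed (horth : ∀ i j, i ≠ j → Geo.AreOrthogonalFor (QuadraticMap.polar (⇑Q)) (D i) (D j))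
    {i₂ i₃ : Fin t} (h23 : i₂ ≠ i₃) {x z₂ z₃ : ι → F} (hz₂ : z₂ ∈ D i₂) (hz₃ : z₃ ∈ D i₃)
    (h2 : Bp x z₂ ≠ 0) (h3 : Bp x z₃ ≠ 0) (l : Fin t) : x ∉ D l := by
  intro hx
  by_cases hl : l = i₂
  · have hl3 : l ≠ i₃ := by
      rw [hl]
      exact h23
    exact h3 (horth l i₃ hl3 x hx z₃ hz₃)
  · exact h2 (horth l i₂ hl x hx z₂ hz₂)

theorem rr_fix {a b : ι → F} (ha : Q a ≠ 0) (hb : Q b ≠ 0) {x : ι → F} (hbx : Bp b x = 0)
    (hax : Bp a x = 0) :
    ((rr Q a b ha hb : Matrix.GeneralLinearGroup ι F) : Matrix ι ι F) *ᵥ x = x := by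
  rw [rr_mulVec, hbx, mul_zero, zero_smul, sub_zero, hax, mul_zero, zero_smul, sub_zero]

theorem rr_one {a b : ι → F} (ha : Q a ≠ 0) (hb : Q b ≠ 0) {x : ι → F} (hbx : Bp b x = 0) :
    ((rr Q a b ha hb : Matrix.GeneralLinearGroup ι F) : Matrix ι ι F) *ᵥ x
      = x - ((Q a)⁻¹ * Bp a x) • a := by
  rw [rr_mulVec, hbx, mul_zero, zero_smul, sub_zero]

theorem two_blocks
    (horth : ∀ i j, i ≠ j → Geo.AreOrthogonalFor (QuadraticMap.polar (⇑Q)) (D i) (D j))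
    {a b : ι → F} (ha : Q a ≠ 0) (hb : Q b ≠ 0) {i₁ i₂ i₃ : Fin t}
    (h12 : i₁ ≠ i₂) (h13 : i₁ ≠ i₃) (h23 : i₂ ≠ i₃) {v z₂ z₃ : ι → F} (hv : v ∈ D i₁)
    (hz₂ : z₂ ∈ D i₂) (hz₃ : z₃ ∈ D i₃) (hbv : Bp b v = 0) (hav : Bp a v ≠ 0)
    (haz₂ : Bp a z₂ ≠ 0) (haz₃ : Bp a z₃ ≠ 0) (l : Fin t) :
    ((rr Q a b ha hb : Matrix.GeneralLinearGroup ι F) : Matrix ι ι F) *ᵥ v ∉ D l := by
  rw [rr_one Q ha hb hbv]
  have hc : (Q a)⁻¹ * Bp a v ≠ 0 := mul_ne_zero (inv_ne_zero ha) hav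
  have o2 : Bp v z₂ = 0 := horth i₁ i₂ h12 v hv z₂ hz₂
  have o3 : Bp v z₃ = 0 := horth i₁ i₃ h13 v hv z₃ hz₃
  apply mixed Q D horth h23 hz₂ hz₃
  · rw [QuadraticMap.polar_sub_left, QuadraticMap.polar_smul_left, o2, zero_sub, smul_eq_mul]
    exact neg_ne_zero.mpr (mul_ne_zero hc haz₂)
  · rw [QuadraticMap.polar_sub_left, QuadraticMap.polar_smul_left, o3, zero_sub, smul_eq_mul]
    exact neg_ne_zero.mpr (mul_ne_zero hc haz₃)

theorem omega_polar {g : Matrix.GeneralLinearGroup ι F} (hg : g ∈ Geo.omegaGL (⇑Q))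
    (x y : ι → F) :
    Bp ((g : Matrix ι ι F) *ᵥ x) ((g : Matrix ι ι F) *ᵥ y) = Bp x y := by
  unfold QuadraticMap.polar
  rw [← Matrix.mulVec_add, omega_isom Q hg, omega_isom Q hg, omega_isom Q hg]

theorem hT_S (ε : F) (g : Matrix.GeneralLinearGroup ι F)
    (hg : g ∈ Geo.decompositionStabilizer D ⊓ Geo.omegaGL (⇑Q)) (x : ι → F)
    (hx : x ∈ Sset Q D ε) : (g : Matrix ι ι F) *ᵥ x ∈ Sset Q D ε := by
  obtain ⟨hQx, l, hxl⟩ := hx
  obtain ⟨σ, hσ⟩ := hg.1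
  refine ⟨?_, σ l, ?_⟩
  · rw [omega_isom Q hg.2, hQx]
  · rw [← hσ l, ← Matrix.toLin'_apply]
    exact Submodule.mem_map_of_mem hxl

theorem hT_dual (ε : F) (g : Matrix.GeneralLinearGroup ι F)
    (hg : g ∈ Geo.decompositionStabilizer D ⊓ Geo.omegaGL (⇑Q)) (x : ι → F)
    (hx : x ∈ Tdual Q D ε) : (g : Matrix ι ι F) *ᵥ x ∈ Tdual Q D ε := by
  intro s hs
  have hg' : g⁻¹ ∈ Geo.decompositionStabilizer D ⊓ Geo.omegaGL (⇑Q) := Subgroup.inv_mem _ hg
  have hs' := hT_S Q D ε g⁻¹ hg' s hs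
  have e : (g : Matrix ι ι F) *ᵥ (((g⁻¹ : Matrix.GeneralLinearGroup ι F) : Matrix ι ι F) *ᵥ s)
      = s := by
    rw [Matrix.mulVec_mulVec, ← Units.val_mul, mul_inv_cancel, Units.val_one, Matrix.one_mulVec]
  have h1 := hx _ hs'
  have h2 := omega_polar Q hg.2 (((g⁻¹ : Matrix.GeneralLinearGroup ι F) : Matrix ι ι F) *ᵥ s) x
  rw [e] at h2
  rw [h2]
  exact h1

theorem skelT (T : Set (ι → F))
    (hT : ∀ g ∈ Geo.decompositionStabilizer D ⊓ Geo.omegaGL (⇑Q), ∀ x ∈ T,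
      (g : Matrix ι ι F) *ᵥ x ∈ T)
    (g : Matrix.GeneralLinearGroup ι F) (hgΩ : g ∈ Geo.omegaGL (⇑Q))
    (hgT : ∀ x ∈ T, (g : Matrix ι ι F) *ᵥ x ∈ T) (i : Fin t) (v : ι → F) (hv : v ∈ D i)
    (hgv : ∀ l, (g : Matrix ι ι F) *ᵥ v ∉ D l)
    (h : Matrix.GeneralLinearGroup ι F) (hhΩ : h ∈ Geo.omegaGL (⇑Q)) (x : ι → F) (hx : x ∈ T)
    (hhx : (h : Matrix ι ι F) *ᵥ x ∉ T) :
    ∃ K : Subgroup (Matrix.GeneralLinearGroup ι F),
      Geo.decompositionStabilizer D ⊓ Geo.omegaGL (⇑Q) < K ∧ K < Geo.omegaGL (⇑Q) := by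
  classical
  refine ⟨Cfsg.stabilizing (Cfsg.glToMat ι F) T ⊓ Geo.omegaGL (⇑Q), ?_, ?_⟩
  · refine lt_iff_le_not_ge.mpr ⟨?_, fun hle => ?_⟩
    · intro g' hg'
      exact ⟨stab_of_maps g' T (hT g' hg'), hg'.2⟩
    · obtain ⟨σ, hσ⟩ := (hle ⟨stab_of_maps g T hgT, hgΩ⟩).1
      have hm := Submodule.mem_map_of_mem (f := Matrix.toLin' (g : Matrix ι ι F)) hv
      rw [hσ i, Matrix.toLin'_apply] at hm
      exact hgv _ hm
  · refine lt_iff_le_not_ge.mpr ⟨inf_le_right, fun hle => ?_⟩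
    have h1 := ((hle hhΩ).1 x).mp hx
    exact hhx h1

theorem skelS (ε : F)
    (g : Matrix.GeneralLinearGroup ι F) (hgΩ : g ∈ Geo.omegaGL (⇑Q))
    (hgS : ∀ x ∈ Sset Q D ε, (g : Matrix ι ι F) *ᵥ x ∈ Sset Q D ε) (i : Fin t) (v : ι → F)
    (hv : v ∈ D i) (hgv : ∀ l, (g : Matrix ι ι F) *ᵥ v ∉ D l)
    (h : Matrix.GeneralLinearGroup ι F) (hhΩ : h ∈ Geo.omegaGL (⇑Q)) (s : ι → F)
    (hs : s ∈ Sset Q D ε) (hhs : ∀ l, (h : Matrix ι ι F) *ᵥ s ∉ D l) :
    ∃ K : Subgroup (Matrix.GeneralLinearGroup ι F),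
      Geo.decompositionStabilizer D ⊓ Geo.omegaGL (⇑Q) < K ∧ K < Geo.omegaGL (⇑Q) :=
  skelT Q D (Sset Q D ε) (hT_S Q D ε) g hgΩ hgS i v hv hgv h hhΩ s hs (fun hh => by
    obtain ⟨-, l, hl⟩ := hh
    exact hhs l hl)

/-- coordinates on a hyperbolic plane -/
theorem hyp_coord (W : Submodule F (ι → F)) (hdim : Module.finrank F W = 2)
    (hW : Geo.IsNondegenerateOn (QuadraticMap.polar (⇑Q)) W) (hplus : Geo.IsPlusTypeOn (⇑Q) W) :
    ∃ e f : ι → F, (∀ x y : F, x • e + y • f ∈ W) ∧ (∀ w ∈ W, ∃ x y : F, w = x • e + y • f) ∧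
      (∀ x y : F, Q (x • e + y • f) = x * y) ∧
      (∀ x y x' y' : F, Bp (x • e + y • f) (x' • e + y' • f) = x * y' + y * x') := by
  have hadd : ∀ x y : ι → F, Q (x + y) = Q x + Q y + Bp x y := fun x y =>
    QuadraticMap.map_add (⇑Q) x y
  have hBxx : ∀ x : ι → F, Bp x x = 2 * Q x := fun x => by
    rw [QuadraticMap.polar_self]
    simp
  have hBc : ∀ x y : ι → F, Bp x y = Bp y x := fun x y => QuadraticMap.polar_comm _ x y
  have hBl : ∀ x y : ι → F, Bp x y = QuadraticMap.polarBilin Q x y := fun _ _ => rfl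
  obtain ⟨U, hUW, hUts, hUdim⟩ := hplus
  obtain ⟨⟨e, heU⟩, he0'⟩ := Module.finrank_pos_iff_exists_ne_zero.mp
    (by omega : 0 < Module.finrank F U)
  have he0 : e ≠ 0 := fun h => he0' (Subtype.ext h)
  have heW : e ∈ W := hUW heU
  have hQe : Q e = 0 := hUts e heU
  have hBee : Bp e e = 0 := by rw [hBxx, hQe, mul_zero]
  obtain ⟨f₀, hf₀W, hef₀⟩ := (hW e heW he0).2
  obtain ⟨f₁, hf₁⟩ : ∃ f₁, f₁ = (Bp e f₀)⁻¹ • f₀ := ⟨_, rfl⟩
  have hf₁W : f₁ ∈ W := by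
    rw [hf₁]
    exact W.smul_mem _ hf₀W
  have hef₁ : Bp e f₁ = 1 := by
    rw [hf₁, hBl, map_smul, smul_eq_mul, ← hBl, inv_mul_cancel₀ hef₀]
  obtain ⟨f, hf⟩ : ∃ f, f = f₁ - Q f₁ • e := ⟨_, rfl⟩
  have hfW : f ∈ W := by
    rw [hf]
    exact W.sub_mem hf₁W (W.smul_mem _ heW)
  have hQf : Q f = 0 := by
    rw [hf, Cfsg.Agent.Lib.Helper16.quad_sub_smul, hQe, hef₁]
    ring
  have hef : Bp e f = 1 := by
    rw [hf, hBl, map_sub, map_smul, ← hBl, ← hBl, hef₁, hBee, smul_zero, sub_zero]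
  have hfe : Bp f e = 1 := by rw [hBc, hef]
  have hBff : Bp f f = 0 := by rw [hBxx, hQf, mul_zero]
  have hspan : ∀ w ∈ W, ∃ x y : F, w = x • e + y • f := by
    have hli : LinearIndependent F ![e, f] := by
      rw [LinearIndependent.pair_iff]
      intro s t hst
      have h1 := congrArg (fun z => Bp e z) hst
      simp only [hBl, map_add, map_smul, smul_eq_mul, map_zero] at h1
      rw [← hBl, ← hBl, hBee, hef] at h1
      have ht : t = 0 := by simpa using h1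
      rw [ht, zero_smul, add_zero] at hst
      exact ⟨(smul_eq_zero.mp hst).resolve_right he0, ht⟩
    have hle : Submodule.span F (Set.range ![e, f]) ≤ W := by
      rw [Submodule.span_le]
      rintro _ ⟨i, rfl⟩
      fin_cases i
      · exact heW
      · exact hfW
    have hfr : Module.finrank F (Submodule.span F (Set.range ![e, f])) = 2 := by
      rw [finrank_span_eq_card hli]
      simp
    have heq := Submodule.eq_of_le_of_finrank_eq hle (by rw [hfr, hdim])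
    intro w hw
    rw [← heq, Matrix.range_cons_cons_empty, Submodule.mem_span_pair] at hw
    obtain ⟨x, y, rfl⟩ := hw
    exact ⟨x, y, rfl⟩
  refine ⟨e, f, fun x y => W.add_mem (W.smul_mem _ heW) (W.smul_mem _ hfW), hspan, ?_, ?_⟩
  · intro x y
    rw [hadd, QuadraticMap.map_smul, QuadraticMap.map_smul, hQe, hQf,
      QuadraticMap.polar_smul_left, QuadraticMap.polar_smul_right, hef]
    simp only [smul_eq_mul]
    ring
  · intro x y x' y'
    simp only [QuadraticMap.polar_add_left, QuadraticMap.polar_add_right,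
      QuadraticMap.polar_smul_left, QuadraticMap.polar_smul_right, hBee, hBff, hef, hfe,
      smul_eq_mul]
    ring

theorem exists_ne01 (hq : 2 < Fintype.card F) : ∃ ω : F, ω ≠ 0 ∧ ω ≠ 1 := by
  classical
  by_contra hcon
  push Not at hcon
  have hsub : (Finset.univ : Finset F) ⊆ {0, 1} := by
    intro x _
    by_cases hx : x = 0
    · simp [hx]
    · simp [hcon x hx]
  have h1 : (Finset.univ : Finset F).card ≤ ({0, 1} : Finset F).card := Finset.card_le_card hsub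
  have h2 : ({0, 1} : Finset F).card ≤ 2 := Finset.card_le_two
  rw [Finset.card_univ] at h1
  omega

/-- blocks over the field with two elements -/
theorem blockA (hq : Fintype.card F = 2) (W : Submodule F (ι → F))
    (hdim : Module.finrank F W = 2)
    (hW : Geo.IsNondegenerateOn (QuadraticMap.polar (⇑Q)) W) (hplus : Geo.IsPlusTypeOn (⇑Q) W) :
    ∃ c z : ι → F, c ∈ W ∧ z ∈ W ∧ Q c = 1 ∧ Q z = 0 ∧ Bp c z = 1 ∧
      ∀ s ∈ W, Q s = 1 → s = c := by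
  obtain ⟨e, f, hmem, hsp, hQ', hB'⟩ := hyp_coord Q W hdim hW hplus
  have hF2 : ∀ x : F, x ≠ 0 → x = 1 := by
    intro x hx
    have h := FiniteField.pow_card_sub_one_eq_one x hx
    rw [hq] at h
    simpa using h
  refine ⟨(1 : F) • e + (1 : F) • f, (1 : F) • e + (0 : F) • f, hmem 1 1, hmem 1 0, ?_, ?_, ?_,
    ?_⟩
  · rw [hQ']
    ring
  · rw [hQ']
    ring
  · rw [hB']
    ring
  · intro s hs hQs
    obtain ⟨x, y, rfl⟩ := hsp s hs
    rw [hQ'] at hQs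
    have hx : x ≠ 0 := by
      rintro rfl
      rw [zero_mul] at hQs
      exact zero_ne_one hQs
    have hy : y ≠ 0 := by
      rintro rfl
      rw [mul_zero] at hQs
      exact zero_ne_one hQs
    rw [hF2 x hx, hF2 y hy]

/-- blocks over the field with three elements -/
theorem blockB (hq : Fintype.card F = 3) (W : Submodule F (ι → F))
    (hdim : Module.finrank F W = 2)
    (hW : Geo.IsNondegenerateOn (QuadraticMap.polar (⇑Q)) W) (hplus : Geo.IsPlusTypeOn (⇑Q) W) :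
    ∃ c d : ι → F, c ∈ W ∧ d ∈ W ∧ Q c = 1 ∧ Q d = -1 ∧ Bp c d = 0 ∧
      ∀ s ∈ W, Q s = 1 → s = c ∨ s = -c := by
  obtain ⟨e, f, hmem, hsp, hQ', hB'⟩ := hyp_coord Q W hdim hW hplus
  refine ⟨(1 : F) • e + (1 : F) • f, (1 : F) • e + (-1 : F) • f, hmem 1 1, hmem 1 (-1), ?_, ?_,
    ?_, ?_⟩
  · rw [hQ']
    ring
  · rw [hQ']
    ring
  · rw [hB']
    ring
  · intro s hs hQs
    obtain ⟨x, y, rfl⟩ := hsp s hs
    rw [hQ'] at hQs
    rcases el3 hq x with rfl | rfl | rfl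
    · rw [zero_mul] at hQs
      exact absurd hQs zero_ne_one
    · left
      have hy : y = 1 := by linear_combination hQs
      rw [hy]
    · right
      have hy : y = -1 := by linear_combination -hQs
      rw [hy]
      module

/-- blocks over the field with five elements carry a frame -/
theorem blockC (hq : Fintype.card F = 5) (W : Submodule F (ι → F))
    (hdim : Module.finrank F W = 2)
    (hW : Geo.IsNondegenerateOn (QuadraticMap.polar (⇑Q)) W) (hplus : Geo.IsPlusTypeOn (⇑Q) W) :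
    Good Q 1 W := by
  obtain ⟨e, f, hmem, hsp, hQ', hB'⟩ := hyp_coord Q W hdim hW hplus
  have h5 : (5 : F) = 0 := by
    have h := FiniteField.cast_card_eq_zero F
    rw [hq] at h
    exact_mod_cast h
  refine ⟨⟨(1 : F) • e + (1 : F) • f, hmem 1 1, (2 : F) • e + (3 : F) • f, hmem 2 3, ?_, ?_, ?_⟩,
    ?_⟩
  · rw [hQ']
    ring
  · rw [hQ']
    linear_combination h5
  · rw [hB']
    linear_combination h5
  · intro x hx y hy hQx hQy
    obtain ⟨a, b, rfl⟩ := hsp x hx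
    obtain ⟨a', b', rfl⟩ := hsp y hy
    rw [hQ'] at hQx hQy
    rw [hB']
    have hr : (a' * b) * (b' * a) = 1 := by linear_combination a' * b' * hQx + hQy
    have hr0 : a' * b ≠ 0 := by
      intro h
      rw [h, zero_mul] at hr
      exact zero_ne_one hr
    have h4 : (a' * b) ^ 4 = 1 := by
      have h := FiniteField.pow_card_sub_one_eq_one (a' * b) hr0
      rw [hq] at h
      simpa using h
    have h2 : ((a' * b) ^ 2 - 1) * ((a' * b) ^ 2 + 1) = 0 := by linear_combination h4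
    rcases mul_eq_zero.mp h2 with h' | h'
    · have h3 : (a' * b - 1) * (a' * b + 1) = 0 := by linear_combination h'
      rcases mul_eq_zero.mp h3 with h'' | h''
      · right; left
        have ea : a' = a := by linear_combination (-a') * hQx + a * h''
        have eb : b' = b := by linear_combination (-b') * h'' + b * hQy
        rw [ea, eb]
      · right; right
        have ea : a' = -a := by linear_combination (-a') * hQx + a * h''
        have eb : b' = -b := by linear_combination b' * h'' - b * hQy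
        rw [ea, eb]
        module
    · left
      have h6 : (a' * b) * (a * b' + b * a') = 0 := by linear_combination h' + hr
      exact (mul_eq_zero.mp h6).resolve_left hr0

/-- blocks over the field with four elements -/
theorem blockD (hq : Fintype.card F = 4) (W : Submodule F (ι → F))
    (hdim : Module.finrank F W = 2)
    (hW : Geo.IsNondegenerateOn (QuadraticMap.polar (⇑Q)) W) (hplus : Geo.IsPlusTypeOn (⇑Q) W) :
    ∃ u u' : ι → F, u ∈ W ∧ u' ∈ W ∧ Q u = 1 ∧ Q u' = 1 ∧ Bp u u' ≠ 0 ∧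
      ∀ s ∈ W, ∀ s' ∈ W, Q s = 1 → Q s' = 1 → (Bp s s') ^ 2 = Bp s s' := by
  obtain ⟨e, f, hmem, hsp, hQ', hB'⟩ := hyp_coord Q W hdim hW hplus
  have h4 : (4 : F) = 0 := by
    have h := FiniteField.cast_card_eq_zero F
    rw [hq] at h
    exact_mod_cast h
  have h2 : (2 : F) = 0 := by
    have : (2 : F) * 2 = 0 := by linear_combination h4
    exact mul_self_eq_zero.mp this
  obtain ⟨ω, hω0, hω1⟩ := exists_ne01 (F := F) (by omega)
  refine ⟨(1 : F) • e + (1 : F) • f, ω • e + ω⁻¹ • f, hmem 1 1, hmem _ _, ?_, ?_, ?_, ?_⟩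
  · rw [hQ']
    ring
  · rw [hQ']
    exact mul_inv_cancel₀ hω0
  · rw [hB']
    intro h
    have h1 : ω * (1 * ω⁻¹ + 1 * ω) = 1 + ω * ω := by
      field_simp
    rw [h, mul_zero] at h1
    have h'' : (ω - 1) * (ω - 1) = 0 := by linear_combination -h1 - ω * h2
    exact hω1 (sub_eq_zero.mp (mul_self_eq_zero.mp h''))
  · intro s hs s' hs' hQs hQs'
    obtain ⟨x, y, rfl⟩ := hsp s hs
    obtain ⟨x', y', rfl⟩ := hsp s' hs'
    rw [hQ'] at hQs hQs'
    rw [hB']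
    have hzw : (x * y') * (y * x') = 1 := by linear_combination x' * y' * hQs + hQs'
    have hz0 : x * y' ≠ 0 := by
      intro h
      rw [h, zero_mul] at hzw
      exact zero_ne_one hzw
    have hz3 : (x * y') ^ 3 = 1 := by
      have h := FiniteField.pow_card_sub_one_eq_one (x * y') hz0
      rw [hq] at h
      simpa using h
    have hw : y * x' = (x * y') ^ 2 := by
      linear_combination (x * y') ^ 2 * hzw - (y * x') * hz3
    rw [hw]
    linear_combination (x * y') ^ 3 * h2 + (x * y') * hz3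

end gen

section cases

variable {ι : Type} [Fintype ι] [DecidableEq ι] {F : Type*} [Field F] [Fintype F]
  (Q : QuadraticForm F (ι → F)) {t : ℕ} (D : Fin t → Submodule F (ι → F))

local notation "Bp" => QuadraticMap.polar (DFunLike.coe Q)

/-- frames of vectors of a fixed non-zero norm in odd characteristic -/
theorem frame_odd (hQ : (QuadraticMap.polarBilin Q).Nondegenerate) (h2 : (2 : F) ≠ 0)
    (hnd : ∀ i, Geo.IsNondegenerateOn (QuadraticMap.polar (⇑Q)) (D i))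
    (horth : ∀ i j, i ≠ j → Geo.AreOrthogonalFor (QuadraticMap.polar (⇑Q)) (D i) (D j))
    (ε : F) (hε0 : ε ≠ 0) (hgood : ∀ i, Good Q ε (D i)) (ht : 3 ≤ t) :
    ∃ K : Subgroup (Matrix.GeneralLinearGroup ι F),
      Geo.decompositionStabilizer D ⊓ Geo.omegaGL (⇑Q) < K ∧ K < Geo.omegaGL (⇑Q) := by
  classical
  have h2ε : 2 * ε ≠ 0 := mul_ne_zero h2 hε0
  have hadd : ∀ x y : ι → F, Q (x + y) = Q x + Q y + Bp x y := fun x y =>
    QuadraticMap.map_add (⇑Q) x y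
  have hBxx : ∀ x : ι → F, Bp x x = 2 * Q x := fun x => by
    rw [QuadraticMap.polar_self]
    simp
  have hBc : ∀ x y : ι → F, Bp x y = Bp y x := fun x y => QuadraticMap.polar_comm _ x y
  have hneg : ∀ x : ι → F, Q (-x) = Q x := fun x => QuadraticMap.map_neg Q x
  have hsub : ∀ x y : ι → F, Q (x - y) = Q x + Q y - Bp x y := by
    intro x y
    rw [sub_eq_add_neg, hadd, hneg, QuadraticMap.polar_neg_right]
    ring
  have hex : Fintype.card F ≠ 2 ∨ Fintype.card ι ≠ 4 := by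
    left
    intro h
    apply h2
    have h' := FiniteField.cast_card_eq_zero F
    rw [h] at h'
    exact_mod_cast h'
  have hrefl : ∀ i j, i ≠ j → ∀ v ∈ D i, ∀ w ∈ D j, Q v = ε → Q w = ε → ∀ x ∈ Sset Q D ε,
      x - ((Q (v - w))⁻¹ * Bp (v - w) x) • (v - w) ∈ Sset Q D ε := by
    intro i j hij v hv w hw hQv hQw x hx
    have hvw : Bp v w = 0 := horth i j hij v hv w hw
    have hwv : Bp w v = 0 := by rw [hBc, hvw]
    have hQa : Q (v - w) = 2 * ε := by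
      rw [hsub, hQv, hQw, hvw]
      ring
    obtain ⟨hQx, l, hxl⟩ := hx
    rw [hQa, QuadraticMap.polar_sub_left]
    by_cases hli : l = i
    · rw [hli] at hxl
      have hwx : Bp w x = 0 := by
        rw [hBc]
        exact horth i j hij x hxl w hw
      rcases (hgood i).2 v hv x hxl hQv hQx with h0 | h1 | h1
      · rw [h0, hwx, sub_zero, mul_zero, zero_smul, sub_zero]
        exact ⟨hQx, i, hxl⟩
      · have e : x - ((2 * ε)⁻¹ * (Bp v x - Bp w x)) • (v - w) = w := by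
          rw [h1, hBxx, hQv, hwv, sub_zero, inv_mul_cancel₀ h2ε, one_smul]
          abel
        rw [e]
        exact ⟨hQw, j, hw⟩
      · have e : x - ((2 * ε)⁻¹ * (Bp v x - Bp w x)) • (v - w) = -w := by
          rw [h1, QuadraticMap.polar_neg_right, QuadraticMap.polar_neg_right, hBxx, hQv, hwv,
            neg_zero, sub_zero, mul_neg, inv_mul_cancel₀ h2ε, neg_smul, one_smul]
          abel
        rw [e]
        exact ⟨by rw [hneg, hQw], j, (D j).neg_mem hw⟩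
    · by_cases hlj : l = j
      · rw [hlj] at hxl
        have hvx : Bp v x = 0 := horth i j hij v hv x hxl
        rcases (hgood j).2 w hw x hxl hQw hQx with h0 | h1 | h1
        · rw [h0, hvx, sub_zero, mul_zero, zero_smul, sub_zero]
          exact ⟨hQx, j, hxl⟩
        · have e : x - ((2 * ε)⁻¹ * (Bp v x - Bp w x)) • (v - w) = v := by
            rw [h1, hBxx, hQw, hvw, zero_sub, mul_neg, inv_mul_cancel₀ h2ε, neg_smul, one_smul]
            abel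
          rw [e]
          exact ⟨hQv, i, hv⟩
        · have e : x - ((2 * ε)⁻¹ * (Bp v x - Bp w x)) • (v - w) = -v := by
            rw [h1, QuadraticMap.polar_neg_right, QuadraticMap.polar_neg_right, hBxx, hQw, hvw,
              neg_zero, zero_sub, neg_neg, inv_mul_cancel₀ h2ε, one_smul]
            abel
          rw [e]
          exact ⟨by rw [hneg, hQv], i, (D i).neg_mem hv⟩
      · have hvx : Bp v x = 0 := horth i l (Ne.symm hli) v hv x hxl
        have hwx : Bp w x = 0 := horth j l (Ne.symm hlj) w hw x hxl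
        rw [hvx, hwx, sub_zero, mul_zero, zero_smul, sub_zero]
        exact ⟨hQx, l, hxl⟩
  obtain ⟨i₁, i₂, i₃, h12, h13, h23⟩ := three_idx (t := t) ht
  obtain ⟨⟨v₁, hv₁, v₂, hv₂, hQv₁, hQv₂, hv12⟩, -⟩ := hgood i₁
  obtain ⟨⟨w₁, hw₁, -, -, hQw₁, -, -⟩, -⟩ := hgood i₂
  obtain ⟨⟨u₂, hu₂, -, -, hQu₂, -, -⟩, -⟩ := hgood i₃
  have hv21 : Bp v₂ v₁ = 0 := by rw [hBc, hv12]
  have hv₁w₁ : Bp v₁ w₁ = 0 := horth i₁ i₂ h12 v₁ hv₁ w₁ hw₁
  have hv₂w₁ : Bp v₂ w₁ = 0 := horth i₁ i₂ h12 v₂ hv₂ w₁ hw₁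
  have hv₁u₂ : Bp v₁ u₂ = 0 := horth i₁ i₃ h13 v₁ hv₁ u₂ hu₂
  have hv₂u₂ : Bp v₂ u₂ = 0 := horth i₁ i₃ h13 v₂ hv₂ u₂ hu₂
  have hw₁u₂ : Bp w₁ u₂ = 0 := horth i₂ i₃ h23 w₁ hw₁ u₂ hu₂
  have hw₁v₁ : Bp w₁ v₁ = 0 := by rw [hBc, hv₁w₁]
  have hw₁v₂ : Bp w₁ v₂ = 0 := by rw [hBc, hv₂w₁]
  have hu₂v₁ : Bp u₂ v₁ = 0 := by rw [hBc, hv₁u₂]
  have hu₂v₂ : Bp u₂ v₂ = 0 := by rw [hBc, hv₂u₂]
  have hu₂w₁ : Bp u₂ w₁ = 0 := by rw [hBc, hw₁u₂]
  have hQa : Q (v₁ - w₁) = 2 * ε := by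
    rw [hsub, hQv₁, hQw₁, hv₁w₁]
    ring
  have hQb : Q (v₂ - u₂) = 2 * ε := by
    rw [hsub, hQv₂, hQu₂, hv₂u₂]
    ring
  have hQa0 : Q (v₁ - w₁) ≠ 0 := by
    rw [hQa]
    exact h2ε
  have hQb0 : Q (v₂ - u₂) ≠ 0 := by
    rw [hQb]
    exact h2ε
  have hgΩ : rr Q (v₁ - w₁) (v₂ - u₂) hQa0 hQb0 ∈ Geo.omegaGL (⇑Q) := by
    apply rr_mem Q hQ hex
    rw [hQa, hQb]
    exact ⟨2 * ε, rfl⟩
  have hgS : ∀ x ∈ Sset Q D ε,
      ((rr Q (v₁ - w₁) (v₂ - u₂) hQa0 hQb0 : Matrix.GeneralLinearGroup ι F) : Matrix ι ι F) *ᵥ x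
        ∈ Sset Q D ε := by
    intro x hx
    rw [rr_mulVec]
    exact hrefl i₁ i₂ h12 v₁ hv₁ w₁ hw₁ hQv₁ hQw₁ _
      (hrefl i₁ i₃ h13 v₂ hv₂ u₂ hu₂ hQv₂ hQu₂ x hx)
  have hb1 : Bp (v₂ - u₂) v₁ = 0 := by
    rw [QuadraticMap.polar_sub_left, hv21, hu₂v₁, sub_zero]
  have hgv₁ : ((rr Q (v₁ - w₁) (v₂ - u₂) hQa0 hQb0 : Matrix.GeneralLinearGroup ι F) :
      Matrix ι ι F) *ᵥ v₁ = w₁ := by
    rw [rr_one Q hQa0 hQb0 hb1, hQa, QuadraticMap.polar_sub_left, hBxx, hQv₁, hw₁v₁, sub_zero,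
      inv_mul_cancel₀ h2ε, one_smul]
    abel
  have hgv₂ : ((rr Q (v₁ - w₁) (v₂ - u₂) hQa0 hQb0 : Matrix.GeneralLinearGroup ι F) :
      Matrix ι ι F) *ᵥ v₂ = u₂ := by
    have e1 : v₂ - ((Q (v₂ - u₂))⁻¹ * Bp (v₂ - u₂) v₂) • (v₂ - u₂) = u₂ := by
      rw [hQb, QuadraticMap.polar_sub_left, hBxx, hQv₂, hu₂v₂, sub_zero, inv_mul_cancel₀ h2ε,
        one_smul]
      abel
    rw [rr_mulVec, e1, QuadraticMap.polar_sub_left, hv₁u₂, hw₁u₂, sub_zero, mul_zero, zero_smul,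
      sub_zero]
  have hgv : ∀ l, ((rr Q (v₁ - w₁) (v₂ - u₂) hQa0 hQb0 : Matrix.GeneralLinearGroup ι F) :
      Matrix ι ι F) *ᵥ (v₁ + v₂) ∉ D l := by
    rw [Matrix.mulVec_add, hgv₁, hgv₂]
    apply mixed Q D horth h23 hw₁ hu₂
    · rw [QuadraticMap.polar_add_left, hBxx, hQw₁, hu₂w₁, add_zero]
      exact h2ε
    · rw [QuadraticMap.polar_add_left, hBxx, hQu₂, hw₁u₂, zero_add]
      exact h2ε
  have hQc : Q (v₁ + v₂ + w₁ + u₂) = 4 * ε := by
    rw [hadd, hadd, hadd, QuadraticMap.polar_add_left, QuadraticMap.polar_add_left,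
      QuadraticMap.polar_add_left, hQv₁, hQv₂, hQw₁, hQu₂, hv12, hv₁w₁, hv₂w₁, hv₁u₂, hv₂u₂,
      hw₁u₂]
    ring
  have h4 : (4 : F) ≠ 0 := by
    have e : (4 : F) = 2 * 2 := by norm_num
    rw [e]
    exact mul_ne_zero h2 h2
  have hQc0 : Q (v₁ + v₂ + w₁ + u₂) ≠ 0 := by
    rw [hQc]
    exact mul_ne_zero h4 hε0
  have hQw₁0 : Q w₁ ≠ 0 := by
    rw [hQw₁]
    exact hε0
  have hhΩ : rr Q (v₁ + v₂ + w₁ + u₂) w₁ hQc0 hQw₁0 ∈ Geo.omegaGL (⇑Q) := by
    apply rr_mem Q hQ hex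
    rw [hQc, hQw₁]
    exact ⟨2 * ε, by ring⟩
  have hhs : ∀ l, ((rr Q (v₁ + v₂ + w₁ + u₂) w₁ hQc0 hQw₁0 : Matrix.GeneralLinearGroup ι F) :
      Matrix ι ι F) *ᵥ v₁ ∉ D l := by
    apply two_blocks Q D horth hQc0 hQw₁0 h12 h13 h23 hv₁ hw₁ hu₂ hw₁v₁
    · rw [QuadraticMap.polar_add_left, QuadraticMap.polar_add_left, QuadraticMap.polar_add_left,
        hBxx, hQv₁, hv21, hw₁v₁, hu₂v₁, add_zero, add_zero, add_zero]
      exact h2ε
    · rw [QuadraticMap.polar_add_left, QuadraticMap.polar_add_left, QuadraticMap.polar_add_left,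
        hBxx, hQw₁, hv₁w₁, hv₂w₁, hu₂w₁, zero_add, zero_add, add_zero]
      exact h2ε
    · rw [QuadraticMap.polar_add_left, QuadraticMap.polar_add_left, QuadraticMap.polar_add_left,
        hBxx, hQu₂, hv₁u₂, hv₂u₂, hw₁u₂, zero_add, zero_add, zero_add]
      exact h2ε
  exact skelS Q D ε _ hgΩ hgS i₁ (v₁ + v₂) ((D i₁).add_mem hv₁ hv₂) hgv _ hhΩ v₁
    ⟨hQv₁, i₁, hv₁⟩ hhs

/-- hyperbolic planes over the field with two elements -/
theorem caseA (hQ : (QuadraticMap.polarBilin Q).Nondegenerate) (hq : Fintype.card F = 2)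
    (hcard : 5 ≤ Fintype.card ι)
    (hnd : ∀ i, Geo.IsNondegenerateOn (QuadraticMap.polar (⇑Q)) (D i))
    (horth : ∀ i j, i ≠ j → Geo.AreOrthogonalFor (QuadraticMap.polar (⇑Q)) (D i) (D j))
    (hdim : ∀ i, Module.finrank F (D i) = 2) (hpl : ∀ i, Geo.IsPlusTypeOn (⇑Q) (D i))
    (ht : 3 ≤ t) :
    ∃ K : Subgroup (Matrix.GeneralLinearGroup ι F),
      Geo.decompositionStabilizer D ⊓ Geo.omegaGL (⇑Q) < K ∧ K < Geo.omegaGL (⇑Q) := by
  classical
  have h2 : (2 : F) = 0 := by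
    have h := FiniteField.cast_card_eq_zero F
    rw [hq] at h
    exact_mod_cast h
  have hex : Fintype.card F ≠ 2 ∨ Fintype.card ι ≠ 4 := Or.inr (by omega)
  have hadd : ∀ x y : ι → F, Q (x + y) = Q x + Q y + Bp x y := fun x y =>
    QuadraticMap.map_add (⇑Q) x y
  have hBxx : ∀ x : ι → F, Bp x x = 2 * Q x := fun x => by
    rw [QuadraticMap.polar_self]
    simp
  have hBc : ∀ x y : ι → F, Bp x y = Bp y x := fun x y => QuadraticMap.polar_comm _ x y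
  choose c z hc hz hQc hQz hcz huniq using fun i => blockA Q hq (D i) (hdim i) (hnd i) (hpl i)
  obtain ⟨i₁, i₂, i₃, h12, h13, h23⟩ := three_idx (t := t) ht
  have hcc : ∀ i j, Bp (c i) (c j) = 0 := by
    intro i j
    by_cases hij : i = j
    · rw [hij, hBxx, h2, zero_mul]
    · exact horth i j hij _ (hc i) _ (hc j)
  have hcz' : ∀ i j, i ≠ j → Bp (c i) (z j) = 0 := fun i j hij =>
    horth i j hij _ (hc i) _ (hz j)
  have hzc : ∀ i, Bp (z i) (c i) = 1 := fun i => by rw [hBc, hcz i]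
  have hzc' : ∀ i j, i ≠ j → Bp (z i) (c j) = 0 := fun i j hij =>
    horth i j hij _ (hz i) _ (hc j)
  have hzz : ∀ i j, i ≠ j → Bp (z i) (z j) = 0 := fun i j hij =>
    horth i j hij _ (hz i) _ (hz j)
  have hS : ∀ s ∈ Sset Q D 1, ∃ l, s = c l := by
    rintro s ⟨hQs, l, hl⟩
    exact ⟨l, huniq l s hl hQs⟩
  have hQa : Q (c i₁ + c i₂ + c i₃) = 1 := by
    rw [hadd, hadd, QuadraticMap.polar_add_left, hQc, hQc, hQc, hcc, hcc, hcc]
    linear_combination h2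
  have hQa0 : Q (c i₁ + c i₂ + c i₃) ≠ 0 := by
    rw [hQa]
    exact one_ne_zero
  have hQb0 : Q (c i₂) ≠ 0 := by
    rw [hQc]
    exact one_ne_zero
  have hgΩ : rr Q (c i₁ + c i₂ + c i₃) (c i₂) hQa0 hQb0 ∈ Geo.omegaGL (⇑Q) := by
    apply rr_mem Q hQ hex
    rw [hQa, hQc]
    exact ⟨1, by ring⟩
  have hgS : ∀ x ∈ Sset Q D 1,
      ((rr Q (c i₁ + c i₂ + c i₃) (c i₂) hQa0 hQb0 : Matrix.GeneralLinearGroup ι F) :
        Matrix ι ι F) *ᵥ x ∈ Sset Q D 1 := by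
    intro x hx
    obtain ⟨l, hl⟩ := hS x hx
    have e : ((rr Q (c i₁ + c i₂ + c i₃) (c i₂) hQa0 hQb0 : Matrix.GeneralLinearGroup ι F) :
        Matrix ι ι F) *ᵥ x = x := by
      rw [hl]
      apply rr_fix Q hQa0 hQb0 (hcc _ _)
      rw [QuadraticMap.polar_add_left, QuadraticMap.polar_add_left, hcc, hcc, hcc]
      ring
    rw [e]
    exact hx
  have hgv : ∀ l, ((rr Q (c i₁ + c i₂ + c i₃) (c i₂) hQa0 hQb0 :
      Matrix.GeneralLinearGroup ι F) : Matrix ι ι F) *ᵥ z i₁ ∉ D l := by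
    apply two_blocks Q D horth hQa0 hQb0 h12 h13 h23 (hz i₁) (hz i₂) (hz i₃)
      (hcz' i₂ i₁ (Ne.symm h12))
    · rw [QuadraticMap.polar_add_left, QuadraticMap.polar_add_left, hcz i₁,
        hcz' i₂ i₁ (Ne.symm h12), hcz' i₃ i₁ (Ne.symm h13)]
      simp
    · rw [QuadraticMap.polar_add_left, QuadraticMap.polar_add_left, hcz i₂,
        hcz' i₁ i₂ h12, hcz' i₃ i₂ (Ne.symm h23)]
      simp
    · rw [QuadraticMap.polar_add_left, QuadraticMap.polar_add_left, hcz i₃,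
        hcz' i₁ i₃ h13, hcz' i₂ i₃ h23]
      simp
  have hQa' : Q (c i₁ + z i₂ + z i₃) = 1 := by
    rw [hadd, hadd, QuadraticMap.polar_add_left, hQc, hQz, hQz, hcz' i₁ i₂ h12, hcz' i₁ i₃ h13,
      hzz i₂ i₃ h23]
    ring
  have hQa'0 : Q (c i₁ + z i₂ + z i₃) ≠ 0 := by
    rw [hQa']
    exact one_ne_zero
  have hQb'0 : Q (c i₁) ≠ 0 := by
    rw [hQc]
    exact one_ne_zero
  have hhΩ : rr Q (c i₁ + z i₂ + z i₃) (c i₁) hQa'0 hQb'0 ∈ Geo.omegaGL (⇑Q) := by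
    apply rr_mem Q hQ hex
    rw [hQa', hQc]
    exact ⟨1, by ring⟩
  have hhs : ∀ l, ((rr Q (c i₁ + z i₂ + z i₃) (c i₁) hQa'0 hQb'0 :
      Matrix.GeneralLinearGroup ι F) : Matrix ι ι F) *ᵥ c i₂ ∉ D l := by
    apply two_blocks Q D horth hQa'0 hQb'0 (Ne.symm h12) h23 h13 (hc i₂) (hz i₁) (hc i₃)
      (hcc i₁ i₂)
    · rw [QuadraticMap.polar_add_left, QuadraticMap.polar_add_left, hcc, hzc i₂,
        hzc' i₃ i₂ (Ne.symm h23)]
      simp
    · rw [QuadraticMap.polar_add_left, QuadraticMap.polar_add_left, hcz i₁,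
        hzz i₂ i₁ (Ne.symm h12), hzz i₃ i₁ (Ne.symm h13)]
      simp
    · rw [QuadraticMap.polar_add_left, QuadraticMap.polar_add_left, hcc, hzc' i₂ i₃ h23,
        hzc i₃]
      simp
  exact skelS Q D 1 _ hgΩ hgS i₁ (z i₁) (hz i₁) hgv _ hhΩ (c i₂) ⟨hQc i₂, i₂, hc i₂⟩ hhs

/-- hyperbolic planes over the field with three elements -/
theorem caseB (hQ : (QuadraticMap.polarBilin Q).Nondegenerate) (hq : Fintype.card F = 3)
    (hnd : ∀ i, Geo.IsNondegenerateOn (QuadraticMap.polar (⇑Q)) (D i))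
    (horth : ∀ i j, i ≠ j → Geo.AreOrthogonalFor (QuadraticMap.polar (⇑Q)) (D i) (D j))
    (hdim : ∀ i, Module.finrank F (D i) = 2) (hpl : ∀ i, Geo.IsPlusTypeOn (⇑Q) (D i))
    (ht : 3 ≤ t) :
    ∃ K : Subgroup (Matrix.GeneralLinearGroup ι F),
      Geo.decompositionStabilizer D ⊓ Geo.omegaGL (⇑Q) < K ∧ K < Geo.omegaGL (⇑Q) := by
  classical
  have h3 : (3 : F) = 0 := three_zero hq
  have h2 : (2 : F) ≠ 0 := by
    intro h
    exact one_ne_zero (by linear_combination h3 - h : (1 : F) = 0)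
  have hex : Fintype.card F ≠ 2 ∨ Fintype.card ι ≠ 4 := Or.inl (by omega)
  have hadd : ∀ x y : ι → F, Q (x + y) = Q x + Q y + Bp x y := fun x y =>
    QuadraticMap.map_add (⇑Q) x y
  have hBxx : ∀ x : ι → F, Bp x x = 2 * Q x := fun x => by
    rw [QuadraticMap.polar_self]
    simp
  have hBc : ∀ x y : ι → F, Bp x y = Bp y x := fun x y => QuadraticMap.polar_comm _ x y
  have hneg : ∀ x : ι → F, Q (-x) = Q x := fun x => QuadraticMap.map_neg Q x
  have hsub : ∀ x y : ι → F, Q (x - y) = Q x + Q y - Bp x y := by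
    intro x y
    rw [sub_eq_add_neg, hadd, hneg, QuadraticMap.polar_neg_right]
    ring
  choose c d hc hd hQc hQd hcd hpm using fun i => blockB Q hq (D i) (hdim i) (hnd i) (hpl i)
  obtain ⟨i₁, i₂, i₃, h12, h13, h23⟩ := three_idx (t := t) ht
  have hdc : ∀ i j, Bp (d i) (c j) = 0 := by
    intro i j
    by_cases hij : i = j
    · rw [hij, hBc]
      exact hcd j
    · exact horth i j hij _ (hd i) _ (hc j)
  have hcdij : ∀ i j, Bp (c i) (d j) = 0 := by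
    intro i j
    rw [hBc]
    exact hdc j i
  have hdd : ∀ i j, i ≠ j → Bp (d i) (d j) = 0 := fun i j hij =>
    horth i j hij _ (hd i) _ (hd j)
  have hddi : ∀ i, Bp (d i) (d i) = -2 := by
    intro i
    rw [hBxx, hQd]
    ring
  have hcci : ∀ i, Bp (c i) (c i) = 2 := by
    intro i
    rw [hBxx, hQc]
    ring
  have hQdd : ∀ i j, i ≠ j → Q (d i - d j) = 1 := by
    intro i j hij
    rw [hsub, hQd, hQd, hdd i j hij]
    linear_combination -h3
  have hQa0 : Q (d i₁ - d i₂) ≠ 0 := by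
    rw [hQdd _ _ h12]
    exact one_ne_zero
  have hQb0 : Q (d i₁ - d i₃) ≠ 0 := by
    rw [hQdd _ _ h13]
    exact one_ne_zero
  have hgΩ : rr Q (d i₁ - d i₂) (d i₁ - d i₃) hQa0 hQb0 ∈ Geo.omegaGL (⇑Q) := by
    apply rr_mem Q hQ hex
    rw [hQdd _ _ h12, hQdd _ _ h13]
    exact ⟨1, by ring⟩
  have hfix : ∀ l, ((rr Q (d i₁ - d i₂) (d i₁ - d i₃) hQa0 hQb0 :
      Matrix.GeneralLinearGroup ι F) : Matrix ι ι F) *ᵥ c l = c l := by
    intro l
    apply rr_fix Q hQa0 hQb0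
    · rw [QuadraticMap.polar_sub_left, hdc, hdc, sub_zero]
    · rw [QuadraticMap.polar_sub_left, hdc, hdc, sub_zero]
  have hgS : ∀ x ∈ Sset Q D 1,
      ((rr Q (d i₁ - d i₂) (d i₁ - d i₃) hQa0 hQb0 : Matrix.GeneralLinearGroup ι F) :
        Matrix ι ι F) *ᵥ x ∈ Sset Q D 1 := by
    intro x hx
    obtain ⟨hQx, l, hl⟩ := hx
    have e : ((rr Q (d i₁ - d i₂) (d i₁ - d i₃) hQa0 hQb0 : Matrix.GeneralLinearGroup ι F) :
        Matrix ι ι F) *ᵥ x = x := by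
      rcases hpm l x hl hQx with h | h
      · rw [h]
        exact hfix l
      · rw [h, Matrix.mulVec_neg, hfix l]
    rw [e]
    exact ⟨hQx, l, hl⟩
  have e1 : d i₁ - ((Q (d i₁ - d i₃))⁻¹ * Bp (d i₁ - d i₃) (d i₁)) • (d i₁ - d i₃) = d i₃ := by
    have e0 : ((1 : F)⁻¹ * (-2 - 0)) = 1 := by
      rw [inv_one]
      linear_combination -h3
    rw [hQdd _ _ h13, QuadraticMap.polar_sub_left, hddi, hdd i₃ i₁ (Ne.symm h13), e0, one_smul]
    abel
  have hgd : ((rr Q (d i₁ - d i₂) (d i₁ - d i₃) hQa0 hQb0 : Matrix.GeneralLinearGroup ι F) :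
      Matrix ι ι F) *ᵥ d i₁ = d i₃ := by
    rw [rr_mulVec, e1, QuadraticMap.polar_sub_left, hdd i₁ i₃ h13, hdd i₂ i₃ h23, sub_zero,
      mul_zero, zero_smul, sub_zero]
  have hgv : ∀ l, ((rr Q (d i₁ - d i₂) (d i₁ - d i₃) hQa0 hQb0 :
      Matrix.GeneralLinearGroup ι F) : Matrix ι ι F) *ᵥ (c i₁ + d i₁) ∉ D l := by
    rw [Matrix.mulVec_add, hfix, hgd]
    apply mixed Q D horth h13 (hc i₁) (hd i₃)
    · rw [QuadraticMap.polar_add_left, hcci, hdc, add_zero]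
      exact h2
    · rw [QuadraticMap.polar_add_left, hcdij, hddi, zero_add]
      exact neg_ne_zero.mpr h2
  have hQa' : Q (c i₁ + d i₂ + d i₃) = -1 := by
    rw [hadd, hadd, QuadraticMap.polar_add_left, hQc, hQd, hQd, hcdij, hcdij, hdd i₂ i₃ h23]
    ring
  have hQa'0 : Q (c i₁ + d i₂ + d i₃) ≠ 0 := by
    rw [hQa']
    exact neg_ne_zero.mpr one_ne_zero
  have hQb'0 : Q (d i₁) ≠ 0 := by
    rw [hQd]
    exact neg_ne_zero.mpr one_ne_zero
  have hhΩ : rr Q (c i₁ + d i₂ + d i₃) (d i₁) hQa'0 hQb'0 ∈ Geo.omegaGL (⇑Q) := by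
    apply rr_mem Q hQ hex
    rw [hQa', hQd]
    exact ⟨1, by ring⟩
  have hhs : ∀ l, ((rr Q (c i₁ + d i₂ + d i₃) (d i₁) hQa'0 hQb'0 :
      Matrix.GeneralLinearGroup ι F) : Matrix ι ι F) *ᵥ c i₁ ∉ D l := by
    apply two_blocks Q D horth hQa'0 hQb'0 h12 h13 h23 (hc i₁) (hd i₂) (hd i₃) (hdc i₁ i₁)
    · rw [QuadraticMap.polar_add_left, QuadraticMap.polar_add_left, hcci, hdc, hdc, add_zero,
        add_zero]
      exact h2
    · rw [QuadraticMap.polar_add_left, QuadraticMap.polar_add_left, hcdij, hddi,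
        hdd i₃ i₂ (Ne.symm h23), zero_add, add_zero]
      exact neg_ne_zero.mpr h2
    · rw [QuadraticMap.polar_add_left, QuadraticMap.polar_add_left, hcdij, hdd i₂ i₃ h23,
        hddi, zero_add, zero_add]
      exact neg_ne_zero.mpr h2
  exact skelS Q D 1 _ hgΩ hgS i₁ (c i₁ + d i₁) ((D i₁).add_mem (hc i₁) (hd i₁)) hgv _ hhΩ
    (c i₁) ⟨hQc i₁, i₁, hc i₁⟩ hhs

/-- hyperbolic planes over the field with five elements -/
theorem caseC (hQ : (QuadraticMap.polarBilin Q).Nondegenerate) (hq : Fintype.card F = 5)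
    (hnd : ∀ i, Geo.IsNondegenerateOn (QuadraticMap.polar (⇑Q)) (D i))
    (horth : ∀ i j, i ≠ j → Geo.AreOrthogonalFor (QuadraticMap.polar (⇑Q)) (D i) (D j))
    (hdim : ∀ i, Module.finrank F (D i) = 2) (hpl : ∀ i, Geo.IsPlusTypeOn (⇑Q) (D i))
    (ht : 3 ≤ t) :
    ∃ K : Subgroup (Matrix.GeneralLinearGroup ι F),
      Geo.decompositionStabilizer D ⊓ Geo.omegaGL (⇑Q) < K ∧ K < Geo.omegaGL (⇑Q) := by
  have h5 : (5 : F) = 0 := by
    have h := FiniteField.cast_card_eq_zero F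
    rw [hq] at h
    exact_mod_cast h
  have h2 : (2 : F) ≠ 0 := by
    intro h
    exact one_ne_zero (by linear_combination h5 - 2 * h : (1 : F) = 0)
  exact frame_odd Q D hQ h2 hnd horth 1 one_ne_zero
    (fun i => blockC Q hq (D i) (hdim i) (hnd i) (hpl i)) ht

/-- hyperbolic planes over the field with four elements -/
theorem caseD (hQ : (QuadraticMap.polarBilin Q).Nondegenerate) (hq : Fintype.card F = 4)
    (hnd : ∀ i, Geo.IsNondegenerateOn (QuadraticMap.polar (⇑Q)) (D i))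
    (horth : ∀ i j, i ≠ j → Geo.AreOrthogonalFor (QuadraticMap.polar (⇑Q)) (D i) (D j))
    (hdim : ∀ i, Module.finrank F (D i) = 2) (hpl : ∀ i, Geo.IsPlusTypeOn (⇑Q) (D i))
    (ht : 3 ≤ t) :
    ∃ K : Subgroup (Matrix.GeneralLinearGroup ι F),
      Geo.decompositionStabilizer D ⊓ Geo.omegaGL (⇑Q) < K ∧ K < Geo.omegaGL (⇑Q) := by
  classical
  have h4 : (4 : F) = 0 := by
    have h := FiniteField.cast_card_eq_zero F
    rw [hq] at h
    exact_mod_cast h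
  have h2 : (2 : F) = 0 := by
    have : (2 : F) * 2 = 0 := by linear_combination h4
    exact mul_self_eq_zero.mp this
  have hex : Fintype.card F ≠ 2 ∨ Fintype.card ι ≠ 4 := Or.inl (by omega)
  have hadd : ∀ x y : ι → F, Q (x + y) = Q x + Q y + Bp x y := fun x y =>
    QuadraticMap.map_add (⇑Q) x y
  have hBxx : ∀ x : ι → F, Bp x x = 2 * Q x := fun x => by
    rw [QuadraticMap.polar_self]
    simp
  have hBc : ∀ x y : ι → F, Bp x y = Bp y x := fun x y => QuadraticMap.polar_comm _ x y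
  choose u u' hu hu' hQu hQu' huu' hD1 using
    fun i => blockD Q hq (D i) (hdim i) (hnd i) (hpl i)
  obtain ⟨i₁, i₂, i₃, h12, h13, h23⟩ := three_idx (t := t) ht
  have hSS : ∀ s ∈ Sset Q D 1, ∀ s' ∈ Sset Q D 1, (Bp s s') ^ 2 = Bp s s' := by
    rintro s ⟨hQs, i, hi⟩ s' ⟨hQs', j, hj⟩
    by_cases hij : i = j
    · rw [← hij] at hj
      exact hD1 i s hi s' hj hQs hQs'
    · have h0 : Bp s s' = 0 := horth i j hij s hi s' hj
      rw [h0]
      ring
  have huS : ∀ i, u i ∈ Sset Q D 1 := fun i => ⟨hQu i, i, hu i⟩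
  have hu'S : ∀ i, u' i ∈ Sset Q D 1 := fun i => ⟨hQu' i, i, hu' i⟩
  have huu : ∀ i j, i ≠ j → Bp (u i) (u j) = 0 := fun i j hij =>
    horth i j hij _ (hu i) _ (hu j)
  have huu'o : ∀ i j, i ≠ j → Bp (u i) (u' j) = 0 := fun i j hij =>
    horth i j hij _ (hu i) _ (hu' j)
  have hone : ∀ i, Bp (u i) (u' i) = 1 := by
    intro i
    have h := hSS _ (huS i) _ (hu'S i)
    have h' : Bp (u i) (u' i) * (Bp (u i) (u' i) - 1) = 0 := by linear_combination h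
    rcases mul_eq_zero.mp h' with h0 | h0
    · exact absurd h0 (huu' i)
    · exact sub_eq_zero.mp h0
  have hreflT : ∀ c : ι → F, Q c = 1 → (∀ x ∈ Tdual Q D 1, (Bp c x) ^ 2 = Bp c x) →
      (∀ s ∈ Sset Q D 1, (Bp s c) ^ 2 = Bp s c) →
      ∀ x ∈ Tdual Q D 1, x - ((Q c)⁻¹ * Bp c x) • c ∈ Tdual Q D 1 := by
    intro c hQc hc1 hc2 x hx s hs
    rw [hQc, inv_one, one_mul, QuadraticMap.polar_sub_right, QuadraticMap.polar_smul_right,
      smul_eq_mul]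
    have hp := hx s hs
    have hq' := hc1 x hx
    have hr := hc2 s hs
    linear_combination hp + (Bp s c) ^ 2 * hq' + (Bp c x) * hr
      + (Bp c x * Bp s c - Bp s x * Bp c x * Bp s c) * h2
  have hQa : Q (u i₁ + u i₂ + u i₃) = 1 := by
    rw [hadd, hadd, QuadraticMap.polar_add_left, hQu, hQu, hQu, huu _ _ h12, huu _ _ h13,
      huu _ _ h23]
    linear_combination h2
  have haT : ∀ x ∈ Tdual Q D 1,
      (Bp (u i₁ + u i₂ + u i₃) x) ^ 2 = Bp (u i₁ + u i₂ + u i₃) x := by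
    intro x hx
    rw [QuadraticMap.polar_add_left, QuadraticMap.polar_add_left]
    have e1 := hx _ (huS i₁)
    have e2 := hx _ (huS i₂)
    have e3 := hx _ (huS i₃)
    linear_combination e1 + e2 + e3 + (Bp (u i₁) x * Bp (u i₂) x + Bp (u i₁) x * Bp (u i₃) x
      + Bp (u i₂) x * Bp (u i₃) x) * h2
  have haS : ∀ s ∈ Sset Q D 1,
      (Bp s (u i₁ + u i₂ + u i₃)) ^ 2 = Bp s (u i₁ + u i₂ + u i₃) := by
    intro s hs
    rw [QuadraticMap.polar_add_right, QuadraticMap.polar_add_right]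
    have e1 := hSS s hs _ (huS i₁)
    have e2 := hSS s hs _ (huS i₂)
    have e3 := hSS s hs _ (huS i₃)
    linear_combination e1 + e2 + e3 + (Bp s (u i₁) * Bp s (u i₂) + Bp s (u i₁) * Bp s (u i₃)
      + Bp s (u i₂) * Bp s (u i₃)) * h2
  have hbT : ∀ x ∈ Tdual Q D 1, (Bp (u i₂) x) ^ 2 = Bp (u i₂) x := fun x hx => hx _ (huS i₂)
  have hbS : ∀ s ∈ Sset Q D 1, (Bp s (u i₂)) ^ 2 = Bp s (u i₂) := fun s hs =>
    hSS s hs _ (huS i₂)
  have hQa0 : Q (u i₁ + u i₂ + u i₃) ≠ 0 := by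
    rw [hQa]
    exact one_ne_zero
  have hQb0 : Q (u i₂) ≠ 0 := by
    rw [hQu]
    exact one_ne_zero
  have hgΩ : rr Q (u i₁ + u i₂ + u i₃) (u i₂) hQa0 hQb0 ∈ Geo.omegaGL (⇑Q) := by
    apply rr_mem Q hQ hex
    rw [hQa, hQu]
    exact ⟨1, by ring⟩
  have hgT : ∀ x ∈ Tdual Q D 1,
      ((rr Q (u i₁ + u i₂ + u i₃) (u i₂) hQa0 hQb0 : Matrix.GeneralLinearGroup ι F) :
        Matrix ι ι F) *ᵥ x ∈ Tdual Q D 1 := by
    intro x hx
    rw [rr_mulVec]
    exact hreflT _ hQa haT haS _ (hreflT _ (hQu i₂) hbT hbS x hx)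
  have hgv : ∀ l, ((rr Q (u i₁ + u i₂ + u i₃) (u i₂) hQa0 hQb0 :
      Matrix.GeneralLinearGroup ι F) : Matrix ι ι F) *ᵥ u' i₁ ∉ D l := by
    apply two_blocks Q D horth hQa0 hQb0 h12 h13 h23 (hu' i₁) (hu' i₂) (hu' i₃)
      (huu'o i₂ i₁ (Ne.symm h12))
    · rw [QuadraticMap.polar_add_left, QuadraticMap.polar_add_left, hone i₁,
        huu'o i₂ i₁ (Ne.symm h12), huu'o i₃ i₁ (Ne.symm h13)]
      simp
    · rw [QuadraticMap.polar_add_left, QuadraticMap.polar_add_left, hone i₂,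
        huu'o i₁ i₂ h12, huu'o i₃ i₂ (Ne.symm h23)]
      simp
    · rw [QuadraticMap.polar_add_left, QuadraticMap.polar_add_left, hone i₃,
        huu'o i₁ i₃ h13, huu'o i₂ i₃ h23]
      simp
  obtain ⟨ω, hω0, hω1⟩ := exists_ne01 (F := F) (by omega)
  have hQa' : Q (u i₁ + ω • u i₂) = 1 + ω * ω := by
    rw [hadd, QuadraticMap.map_smul, hQu, hQu, QuadraticMap.polar_smul_right, huu _ _ h12]
    simp only [smul_eq_mul]
    ring
  have hω2 : 1 + ω * ω ≠ 0 := by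
    intro h
    have h'' : (ω - 1) * (ω - 1) = 0 := by linear_combination h - ω * h2
    exact hω1 (sub_eq_zero.mp (mul_self_eq_zero.mp h''))
  have hQa'0 : Q (u i₁ + ω • u i₂) ≠ 0 := by
    rw [hQa']
    exact hω2
  have hQb'0 : Q (u i₃) ≠ 0 := by
    rw [hQu]
    exact one_ne_zero
  have hhΩ : rr Q (u i₁ + ω • u i₂) (u i₃) hQa'0 hQb'0 ∈ Geo.omegaGL (⇑Q) := by
    apply rr_mem Q hQ hex
    rw [hQa', hQu]
    exact ⟨1 + ω, by linear_combination (-ω) * h2⟩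
  have hxT : u' i₁ ∈ Tdual Q D 1 := fun s hs => hSS s hs _ (hu'S i₁)
  have hav' : Bp (u i₁ + ω • u i₂) (u' i₁) = 1 := by
    rw [QuadraticMap.polar_add_left, QuadraticMap.polar_smul_left, hone,
      huu'o i₂ i₁ (Ne.symm h12)]
    simp
  have hva' : Bp (u' i₁) (u i₁ + ω • u i₂) = 1 := by
    rw [hBc]
    exact hav'
  have hb3 : Bp (u i₃) (u' i₁) = 0 := huu'o i₃ i₁ (Ne.symm h13)
  have hhx : ((rr Q (u i₁ + ω • u i₂) (u i₃) hQa'0 hQb'0 : Matrix.GeneralLinearGroup ι F) :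
      Matrix ι ι F) *ᵥ u' i₁ ∉ Tdual Q D 1 := by
    rw [rr_one Q hQa'0 hQb'0 hb3, hQa', hav', mul_one]
    intro hmem
    have h1 := hmem _ (hu'S i₁)
    rw [QuadraticMap.polar_sub_right, QuadraticMap.polar_smul_right, hBxx, hQu', hva',
      smul_eq_mul, mul_one] at h1
    obtain ⟨c, hc⟩ : ∃ c : F, c = (1 + ω * ω)⁻¹ := ⟨_, rfl⟩
    rw [← hc] at h1
    have hc1 : c * (1 + ω * ω) = 1 := by
      rw [hc]
      exact inv_mul_cancel₀ hω2
    have h3 : c * (c - 1) = 0 := by linear_combination h1 + (c - 1) * h2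
    rcases mul_eq_zero.mp h3 with h0 | h0
    · rw [h0, zero_mul] at hc1
      exact zero_ne_one hc1
    · have hc' : c = 1 := sub_eq_zero.mp h0
      rw [hc', one_mul] at hc1
      have hωω : ω * ω = 0 := by linear_combination hc1
      exact hω0 (mul_self_eq_zero.mp hωω)
  exact skelT Q D (Tdual Q D 1) (hT_dual Q D 1) _ hgΩ hgT i₁ (u' i₁) (hu' i₁) hgv _ hhΩ
    (u' i₁) hxT hhx

end cases

section caseE

variable {ι : Type} [Fintype ι] [DecidableEq ι] {F : Type*} [Field F] [Fintype F]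
  (Q : QuadraticForm F (ι → F)) {t : ℕ} (D : Fin t → Submodule F (ι → F))

local notation "Bp" => QuadraticMap.polar (DFunLike.coe Q)

theorem f2cases (hF2 : ∀ x : F, x = 0 ∨ x = 1) (a₁ b₁ a₂ b₂ : F)
    (h : a₁ * b₁ + a₂ * b₂ = 1) :
    (a₁ = 1 ∧ b₁ = 1 ∧ a₂ = 0 ∧ b₂ = 0) ∨ (a₁ = 1 ∧ b₁ = 1 ∧ a₂ = 1 ∧ b₂ = 0) ∨
    (a₁ = 1 ∧ b₁ = 1 ∧ a₂ = 0 ∧ b₂ = 1) ∨ (a₁ = 0 ∧ b₁ = 0 ∧ a₂ = 1 ∧ b₂ = 1) ∨
    (a₁ = 1 ∧ b₁ = 0 ∧ a₂ = 1 ∧ b₂ = 1) ∨ (a₁ = 0 ∧ b₁ = 1 ∧ a₂ = 1 ∧ b₂ = 1) := by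
  rcases hF2 a₁ with rfl | rfl <;> rcases hF2 b₁ with rfl | rfl <;>
    rcases hF2 a₂ with rfl | rfl <;> rcases hF2 b₂ with rfl | rfl <;>
    first
    | exact absurd (by linear_combination h : (1 : F) = 0) one_ne_zero
    | exact absurd (by linear_combination -h : (1 : F) = 0) one_ne_zero
    | simp

theorem dual_vec (hF2 : ∀ x : F, x = 0 ∨ x = 1) (h2 : (2 : F) = 0) (W : Submodule F (ι → F))
    (e₁ e₂ s₁ s₂ s₃ : ι → F) (hs₁ : s₁ ∈ W) (hs₂ : s₂ ∈ W) (hs₃ : s₃ ∈ W)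
    (h1 : Bp e₁ s₁ = 1) (h2' : Bp e₂ s₂ = 1) (h3 : Bp e₁ s₃ + Bp e₂ s₃ = 1) :
    ∃ s ∈ W, Bp e₁ s = 1 ∧ Bp e₂ s = 0 := by
  rcases hF2 (Bp e₂ s₁) with h | h
  · exact ⟨s₁, hs₁, h1, h⟩
  rcases hF2 (Bp e₁ s₂) with h' | h'
  · refine ⟨s₁ + s₂, W.add_mem hs₁ hs₂, ?_, ?_⟩
    · rw [QuadraticMap.polar_add_right, h1, h', add_zero]
    · rw [QuadraticMap.polar_add_right, h, h2']
      linear_combination h2
  rcases hF2 (Bp e₂ s₃) with h'' | h''
  · refine ⟨s₃, hs₃, ?_, h''⟩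
    rw [h'', add_zero] at h3
    exact h3
  · have h0 : Bp e₁ s₃ = 0 := by
      rw [h''] at h3
      linear_combination h3
    refine ⟨s₁ + s₃, W.add_mem hs₁ hs₃, ?_, ?_⟩
    · rw [QuadraticMap.polar_add_right, h1, h0, add_zero]
    · rw [QuadraticMap.polar_add_right, h, h'']
      linear_combination h2

/-- coordinates on a four-dimensional space of plus type over the field with two elements -/
theorem hyp_coord4 (hq : Fintype.card F = 2) (W : Submodule F (ι → F))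
    (hdim : Module.finrank F W = 4)
    (hW : Geo.IsNondegenerateOn (QuadraticMap.polar (⇑Q)) W) (hplus : Geo.IsPlusTypeOn (⇑Q) W) :
    ∃ e₁ f₁ e₂ f₂ : ι → F,
      (∀ a₁ b₁ a₂ b₂ : F, a₁ • e₁ + b₁ • f₁ + a₂ • e₂ + b₂ • f₂ ∈ W) ∧
      (∀ w ∈ W, ∃ a₁ b₁ a₂ b₂ : F, w = a₁ • e₁ + b₁ • f₁ + a₂ • e₂ + b₂ • f₂) ∧
      (∀ a₁ b₁ a₂ b₂ : F, Q (a₁ • e₁ + b₁ • f₁ + a₂ • e₂ + b₂ • f₂) = a₁ * b₁ + a₂ * b₂) ∧
      (∀ a₁ b₁ a₂ b₂ a₁' b₁' a₂' b₂' : F,
        Bp (a₁ • e₁ + b₁ • f₁ + a₂ • e₂ + b₂ • f₂) (a₁' • e₁ + b₁' • f₁ + a₂' • e₂ + b₂' • f₂)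
          = a₁ * b₁' + b₁ * a₁' + a₂ * b₂' + b₂ * a₂') := by
  classical
  have h2 : (2 : F) = 0 := by
    have h := FiniteField.cast_card_eq_zero F
    rw [hq] at h
    exact_mod_cast h
  have hF2' : ∀ x : F, x ≠ 0 → x = 1 := by
    intro x hx
    have h := FiniteField.pow_card_sub_one_eq_one x hx
    rw [hq] at h
    simpa using h
  have hF2 : ∀ x : F, x = 0 ∨ x = 1 := by
    intro x
    by_cases hx : x = 0
    · exact Or.inl hx
    · exact Or.inr (hF2' x hx)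
  have hadd : ∀ x y : ι → F, Q (x + y) = Q x + Q y + Bp x y := fun x y =>
    QuadraticMap.map_add (⇑Q) x y
  have hBxx : ∀ x : ι → F, Bp x x = 2 * Q x := fun x => by
    rw [QuadraticMap.polar_self]
    simp
  have hBc : ∀ x y : ι → F, Bp x y = Bp y x := fun x y => QuadraticMap.polar_comm _ x y
  obtain ⟨U, hUW, hUts, hUdim⟩ := hplus
  have hU2 : Module.finrank F U = 2 := by omega
  obtain ⟨⟨e₁, he₁U⟩, he₁0'⟩ := Module.finrank_pos_iff_exists_ne_zero.mp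
    (by omega : 0 < Module.finrank F U)
  have he₁0 : e₁ ≠ 0 := fun h => he₁0' (Subtype.ext h)
  have hlt : Submodule.span F {e₁} < U := by
    refine lt_of_le_of_ne ?_ ?_
    · rw [Submodule.span_le]
      intro y hy
      rw [Set.mem_singleton_iff] at hy
      rw [hy]
      exact he₁U
    · intro h
      have h1 := finrank_span_singleton (K := F) he₁0
      rw [h] at h1
      omega
  obtain ⟨e₂, he₂U, he₂n⟩ := SetLike.exists_of_lt hlt
  have he₂0 : e₂ ≠ 0 := by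
    rintro rfl
    exact he₂n (Submodule.zero_mem _)
  have he₁₂ : e₁ + e₂ ≠ 0 := by
    intro h
    apply he₂n
    have e : e₂ = (-1 : F) • e₁ := by
      rw [neg_smul, one_smul]
      exact eq_neg_of_add_eq_zero_right h
    rw [e]
    exact Submodule.smul_mem _ _ (Submodule.mem_span_singleton_self e₁)
  have hQe₁ : Q e₁ = 0 := hUts e₁ he₁U
  have hQe₂ : Q e₂ = 0 := hUts e₂ he₂U
  have hQe₁₂ : Q (e₁ + e₂) = 0 := hUts _ (U.add_mem he₁U he₂U)
  have he₁e₂ : Bp e₁ e₂ = 0 := by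
    have h := hadd e₁ e₂
    rw [hQe₁₂, hQe₁, hQe₂] at h
    linear_combination -h
  have he₂e₁ : Bp e₂ e₁ = 0 := by rw [hBc, he₁e₂]
  have he₁e₁ : Bp e₁ e₁ = 0 := by rw [hBxx, hQe₁, mul_zero]
  have he₂e₂ : Bp e₂ e₂ = 0 := by rw [hBxx, hQe₂, mul_zero]
  have he₁W : e₁ ∈ W := hUW he₁U
  have he₂W : e₂ ∈ W := hUW he₂U
  obtain ⟨s₁, hs₁W, hs₁⟩ := (hW e₁ he₁W he₁0).2
  obtain ⟨s₂, hs₂W, hs₂⟩ := (hW e₂ he₂W he₂0).2
  obtain ⟨s₃, hs₃W, hs₃⟩ := (hW (e₁ + e₂) (W.add_mem he₁W he₂W) he₁₂).2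
  have hs₁' : Bp e₁ s₁ = 1 := hF2' _ hs₁
  have hs₂' : Bp e₂ s₂ = 1 := hF2' _ hs₂
  have hs₃' : Bp e₁ s₃ + Bp e₂ s₃ = 1 := by
    rw [← QuadraticMap.polar_add_left]
    exact hF2' _ hs₃
  obtain ⟨f₁', hf₁'W, hf₁'1, hf₁'2⟩ :=
    dual_vec Q hF2 h2 W e₁ e₂ s₁ s₂ s₃ hs₁W hs₂W hs₃W hs₁' hs₂' hs₃'
  obtain ⟨f₂', hf₂'W, hf₂'1, hf₂'2⟩ :=
    dual_vec Q hF2 h2 W e₂ e₁ s₂ s₁ s₃ hs₂W hs₁W hs₃W hs₂' hs₁' (by rw [add_comm]; exact hs₃')
  obtain ⟨f₁, hf₁⟩ : ∃ f₁, f₁ = f₁' + Q f₁' • e₁ := ⟨_, rfl⟩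
  have hf₁W : f₁ ∈ W := by
    rw [hf₁]
    exact W.add_mem hf₁'W (W.smul_mem _ he₁W)
  have hQf₁ : Q f₁ = 0 := by
    rw [hf₁, hadd, QuadraticMap.map_smul, hQe₁, QuadraticMap.polar_smul_right, hBc f₁' e₁,
      hf₁'1]
    simp only [smul_eq_mul]
    linear_combination Q f₁' * h2
  have he₁f₁ : Bp e₁ f₁ = 1 := by
    rw [hf₁, QuadraticMap.polar_add_right, QuadraticMap.polar_smul_right, hf₁'1, he₁e₁,
      smul_zero, add_zero]
  have he₂f₁ : Bp e₂ f₁ = 0 := by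
    rw [hf₁, QuadraticMap.polar_add_right, QuadraticMap.polar_smul_right, hf₁'2, he₂e₁,
      smul_zero, add_zero]
  have hf₁e₁ : Bp f₁ e₁ = 1 := by rw [hBc, he₁f₁]
  have hf₁e₂ : Bp f₁ e₂ = 0 := by rw [hBc, he₂f₁]
  obtain ⟨f₂'', hf₂''⟩ : ∃ f, f = f₂' + Bp f₁ f₂' • e₁ := ⟨_, rfl⟩
  have hf₂''W : f₂'' ∈ W := by
    rw [hf₂'']
    exact W.add_mem hf₂'W (W.smul_mem _ he₁W)
  have he₁f₂'' : Bp e₁ f₂'' = 0 := by
    rw [hf₂'', QuadraticMap.polar_add_right, QuadraticMap.polar_smul_right, hf₂'2, he₁e₁,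
      smul_zero, add_zero]
  have he₂f₂'' : Bp e₂ f₂'' = 1 := by
    rw [hf₂'', QuadraticMap.polar_add_right, QuadraticMap.polar_smul_right, hf₂'1, he₂e₁,
      smul_zero, add_zero]
  have hf₁f₂'' : Bp f₁ f₂'' = 0 := by
    rw [hf₂'', QuadraticMap.polar_add_right, QuadraticMap.polar_smul_right, hf₁e₁, smul_eq_mul]
    linear_combination Bp f₁ f₂' * h2
  obtain ⟨f₂, hf₂⟩ : ∃ f, f = f₂'' + Q f₂'' • e₂ := ⟨_, rfl⟩
  have hf₂W : f₂ ∈ W := by
    rw [hf₂]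
    exact W.add_mem hf₂''W (W.smul_mem _ he₂W)
  have hQf₂ : Q f₂ = 0 := by
    rw [hf₂, hadd, QuadraticMap.map_smul, hQe₂, QuadraticMap.polar_smul_right, hBc f₂'' e₂,
      he₂f₂'']
    simp only [smul_eq_mul]
    linear_combination Q f₂'' * h2
  have he₁f₂ : Bp e₁ f₂ = 0 := by
    rw [hf₂, QuadraticMap.polar_add_right, QuadraticMap.polar_smul_right, he₁f₂'', he₁e₂,
      smul_zero, add_zero]
  have he₂f₂ : Bp e₂ f₂ = 1 := by
    rw [hf₂, QuadraticMap.polar_add_right, QuadraticMap.polar_smul_right, he₂f₂'', he₂e₂,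
      smul_zero, add_zero]
  have hf₁f₂ : Bp f₁ f₂ = 0 := by
    rw [hf₂, QuadraticMap.polar_add_right, QuadraticMap.polar_smul_right, hf₁f₂'', hf₁e₂,
      smul_zero, add_zero]
  have hf₂e₁ : Bp f₂ e₁ = 0 := by rw [hBc, he₁f₂]
  have hf₂e₂ : Bp f₂ e₂ = 1 := by rw [hBc, he₂f₂]
  have hf₂f₁ : Bp f₂ f₁ = 0 := by rw [hBc, hf₁f₂]
  have hf₁f₁ : Bp f₁ f₁ = 0 := by rw [hBxx, hQf₁, mul_zero]
  have hf₂f₂ : Bp f₂ f₂ = 0 := by rw [hBxx, hQf₂, mul_zero]
  have hB4 : ∀ a₁ b₁ a₂ b₂ a₁' b₁' a₂' b₂' : F,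
      Bp (a₁ • e₁ + b₁ • f₁ + a₂ • e₂ + b₂ • f₂) (a₁' • e₁ + b₁' • f₁ + a₂' • e₂ + b₂' • f₂)
        = a₁ * b₁' + b₁ * a₁' + a₂ * b₂' + b₂ * a₂' := by
    intro a₁ b₁ a₂ b₂ a₁' b₁' a₂' b₂'
    simp only [QuadraticMap.polar_add_left, QuadraticMap.polar_add_right,
      QuadraticMap.polar_smul_left, QuadraticMap.polar_smul_right, he₁e₁, he₁f₁, he₁e₂, he₁f₂,
      hf₁e₁, hf₁f₁, hf₁e₂, hf₁f₂, he₂e₁, he₂f₁, he₂e₂, he₂f₂, hf₂e₁, hf₂f₁, hf₂e₂, hf₂f₂,
      smul_eq_mul]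
    ring
  have hQ4 : ∀ a₁ b₁ a₂ b₂ : F,
      Q (a₁ • e₁ + b₁ • f₁ + a₂ • e₂ + b₂ • f₂) = a₁ * b₁ + a₂ * b₂ := by
    intro a₁ b₁ a₂ b₂
    simp only [hadd, QuadraticMap.map_smul, QuadraticMap.polar_add_left,
      QuadraticMap.polar_smul_left, QuadraticMap.polar_smul_right, hQe₁, hQf₁, hQe₂, hQf₂,
      he₁f₁, he₁e₂, he₁f₂, hf₁e₂, hf₁f₂, he₂f₂, smul_eq_mul]
    ring
  have hspan : ∀ w ∈ W, ∃ a₁ b₁ a₂ b₂ : F, w = a₁ • e₁ + b₁ • f₁ + a₂ • e₂ + b₂ • f₂ := by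
    have hli : LinearIndependent F ![e₁, f₁, e₂, f₂] := by
      rw [Fintype.linearIndependent_iff]
      intro g hg
      have hg' : g 0 • e₁ + g 1 • f₁ + g 2 • e₂ + g 3 • f₂ = 0 := by
        rw [Fin.sum_univ_four] at hg
        exact hg
      have k1 := hB4 (g 0) (g 1) (g 2) (g 3) 0 1 0 0
      have k2 := hB4 (g 0) (g 1) (g 2) (g 3) 1 0 0 0
      have k3 := hB4 (g 0) (g 1) (g 2) (g 3) 0 0 0 1
      have k4 := hB4 (g 0) (g 1) (g 2) (g 3) 0 0 1 0
      rw [hg', QuadraticMap.polar_zero_left] at k1 k2 k3 k4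
      intro i
      fin_cases i
      · show g 0 = 0
        linear_combination -k1
      · show g 1 = 0
        linear_combination -k2
      · show g 2 = 0
        linear_combination -k3
      · show g 3 = 0
        linear_combination -k4
    have hle : Submodule.span F (Set.range ![e₁, f₁, e₂, f₂]) ≤ W := by
      rw [Submodule.span_le]
      rintro _ ⟨i, rfl⟩
      fin_cases i
      · exact he₁W
      · exact hf₁W
      · exact he₂W
      · exact hf₂W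
    have hfr : Module.finrank F (Submodule.span F (Set.range ![e₁, f₁, e₂, f₂])) = 4 := by
      rw [finrank_span_eq_card hli]
      simp
    have heq := Submodule.eq_of_le_of_finrank_eq hle (by rw [hfr, hdim])
    intro w hw
    rw [← heq] at hw
    obtain ⟨c, hc⟩ := (Submodule.mem_span_range_iff_exists_fun F).mp hw
    rw [Fin.sum_univ_four] at hc
    exact ⟨c 0, c 1, c 2, c 3, hc.symm⟩
  exact ⟨e₁, f₁, e₂, f₂, fun a₁ b₁ a₂ b₂ => W.add_mem (W.add_mem (W.add_mem (W.smul_mem _ he₁W)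
    (W.smul_mem _ hf₁W)) (W.smul_mem _ he₂W)) (W.smul_mem _ hf₂W), hspan, hQ4, hB4⟩

/-- a four-dimensional block of plus type over the field with two elements: an anisotropic
plane whose non-zero vectors, together with those of its orthogonal complement, are all the
non-singular vectors of the block -/
theorem blockE (hq : Fintype.card F = 2) (W : Submodule F (ι → F))
    (hdim : Module.finrank F W = 4)
    (hW : Geo.IsNondegenerateOn (QuadraticMap.polar (⇑Q)) W) (hplus : Geo.IsPlusTypeOn (⇑Q) W) :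
    ∃ x y p z : ι → F, x ∈ W ∧ y ∈ W ∧ p ∈ W ∧ z ∈ W ∧ Q x = 1 ∧ Q y = 1 ∧ Bp x y = 1 ∧
      Bp x p = 0 ∧ Bp y p = 0 ∧ Bp p z = 1 ∧
      ∀ s ∈ W, Q s = 1 → (∃ α β : F, s = α • x + β • y) ∨ (Bp x s = 0 ∧ Bp y s = 0) := by
  obtain ⟨e₁, f₁, e₂, f₂, hmem, hsp, hQ4, hB4⟩ := hyp_coord4 Q hq W hdim hW hplus
  have h2 : (2 : F) = 0 := by
    have h := FiniteField.cast_card_eq_zero F
    rw [hq] at h
    exact_mod_cast h
  have hF2 : ∀ x : F, x = 0 ∨ x = 1 := by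
    intro x
    by_cases hx : x = 0
    · exact Or.inl hx
    · right
      have h := FiniteField.pow_card_sub_one_eq_one x hx
      rw [hq] at h
      simpa using h
  refine ⟨(1 : F) • e₁ + (1 : F) • f₁ + (0 : F) • e₂ + (0 : F) • f₂,
    (1 : F) • e₁ + (0 : F) • f₁ + (1 : F) • e₂ + (1 : F) • f₂,
    (0 : F) • e₁ + (0 : F) • f₁ + (1 : F) • e₂ + (1 : F) • f₂,
    (0 : F) • e₁ + (0 : F) • f₁ + (1 : F) • e₂ + (0 : F) • f₂,
    hmem _ _ _ _, hmem _ _ _ _, hmem _ _ _ _, hmem _ _ _ _, ?_, ?_, ?_, ?_, ?_, ?_, ?_⟩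
  · rw [hQ4]
    ring
  · rw [hQ4]
    ring
  · rw [hB4]
    ring
  · rw [hB4]
    ring
  · rw [hB4]
    linear_combination h2
  · rw [hB4]
    ring
  · intro s hs hQs
    obtain ⟨a₁, b₁, a₂, b₂, rfl⟩ := hsp s hs
    rw [hQ4] at hQs
    rw [hB4, hB4]
    rcases f2cases hF2 a₁ b₁ a₂ b₂ hQs with ⟨rfl, rfl, rfl, rfl⟩ | ⟨rfl, rfl, rfl, rfl⟩ |
      ⟨rfl, rfl, rfl, rfl⟩ | ⟨rfl, rfl, rfl, rfl⟩ | ⟨rfl, rfl, rfl, rfl⟩ | ⟨rfl, rfl, rfl, rfl⟩
    · left
      exact ⟨1, 0, by module⟩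
    · right
      exact ⟨by first | ring1 | linear_combination h2, by first | ring1 | linear_combination h2⟩
    · right
      exact ⟨by first | ring1 | linear_combination h2, by first | ring1 | linear_combination h2⟩
    · right
      exact ⟨by ring1, by first | ring1 | linear_combination h2⟩
    · left
      exact ⟨0, 1, by module⟩
    · left
      refine ⟨1, 1, ?_⟩
      have e2 : (2 : F) • e₁ = 0 := by rw [h2, zero_smul]
      have e3 : (0 : F) • e₁ + (1 : F) • f₁ + (1 : F) • e₂ + (1 : F) • f₂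
          = (1 : F) • ((1 : F) • e₁ + (1 : F) • f₁ + (0 : F) • e₂ + (0 : F) • f₂)
            + (1 : F) • ((1 : F) • e₁ + (0 : F) • f₁ + (1 : F) • e₂ + (1 : F) • f₂)
            - (2 : F) • e₁ := by module
      rw [e3, e2, sub_zero]

/-- four-dimensional blocks of plus type over the field with two elements -/
theorem caseE (hQ : (QuadraticMap.polarBilin Q).Nondegenerate) (hq : Fintype.card F = 2)
    (hcard : 5 ≤ Fintype.card ι)
    (hnd : ∀ i, Geo.IsNondegenerateOn (QuadraticMap.polar (⇑Q)) (D i))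
    (horth : ∀ i j, i ≠ j → Geo.AreOrthogonalFor (QuadraticMap.polar (⇑Q)) (D i) (D j))
    (hdim : ∀ i, Module.finrank F (D i) = 4) (hpl : ∀ i, Geo.IsPlusTypeOn (⇑Q) (D i))
    (ht : 3 ≤ t) :
    ∃ K : Subgroup (Matrix.GeneralLinearGroup ι F),
      Geo.decompositionStabilizer D ⊓ Geo.omegaGL (⇑Q) < K ∧ K < Geo.omegaGL (⇑Q) := by
  classical
  have h2 : (2 : F) = 0 := by
    have h := FiniteField.cast_card_eq_zero F
    rw [hq] at h
    exact_mod_cast h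
  have hex : Fintype.card F ≠ 2 ∨ Fintype.card ι ≠ 4 := Or.inr (by omega)
  have hadd : ∀ x y : ι → F, Q (x + y) = Q x + Q y + Bp x y := fun x y =>
    QuadraticMap.map_add (⇑Q) x y
  have hBxx : ∀ x : ι → F, Bp x x = 2 * Q x := fun x => by
    rw [QuadraticMap.polar_self]
    simp
  have hBc : ∀ x y : ι → F, Bp x y = Bp y x := fun x y => QuadraticMap.polar_comm _ x y
  choose x y p z hx hy hp hz hQx hQy hxy hxp hyp hpz hstr using
    fun i => blockE Q hq (D i) (hdim i) (hnd i) (hpl i)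
  obtain ⟨i₁, i₂, i₃, h12, h13, h23⟩ := three_idx (t := t) ht
  have hxx : ∀ i, Bp (x i) (x i) = 0 := fun i => by rw [hBxx, h2, zero_mul]
  have hyy : ∀ i, Bp (y i) (y i) = 0 := fun i => by rw [hBxx, h2, zero_mul]
  have hyx : ∀ i, Bp (y i) (x i) = 1 := fun i => by rw [hBc, hxy i]
  have hX : ∀ i j, i ≠ j → ∀ w ∈ D j, Bp (x i) w = 0 := fun i j hij w hw =>
    horth i j hij _ (hx i) w hw
  have hY : ∀ i j, i ≠ j → ∀ w ∈ D j, Bp (y i) w = 0 := fun i j hij w hw =>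
    horth i j hij _ (hy i) w hw
  have hQu₁ : Q (x i₁ + x i₂) = 0 := by
    rw [hadd, hQx, hQx, hX i₁ i₂ h12 _ (hx i₂)]
    linear_combination h2
  have hQu₂ : Q (y i₁ + y i₂) = 0 := by
    rw [hadd, hQy, hQy, hY i₁ i₂ h12 _ (hy i₂)]
    linear_combination h2
  have hu12 : Bp (x i₁ + x i₂) (y i₁ + y i₂) = 0 := by
    rw [QuadraticMap.polar_add_left, QuadraticMap.polar_add_right,
      QuadraticMap.polar_add_right, hxy i₁, hxy i₂, hX i₁ i₂ h12 _ (hy i₂),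
      hX i₂ i₁ (Ne.symm h12) _ (hy i₁)]
    linear_combination h2
  obtain ⟨g, hg⟩ : ∃ g : Matrix.GeneralLinearGroup ι F,
      g = ((siegelG Q (x i₁ + x i₂) (y i₁ + y i₂) 1 hQu₁ hQu₂ hu12 :
        ↥(Cfsg.isometryGroup F (⇑Q))) : Matrix.GeneralLinearGroup ι F) := ⟨_, rfl⟩
  have hgΩ : g ∈ Geo.omegaGL (⇑Q) := by
    rw [hg]
    exact Subgroup.mem_map.mpr ⟨_, siegelSub_le_omega Q hQ hcard
      (siegelG_mem Q _ _ 1 hQu₁ hQu₂ hu12), rfl⟩
  have hgmul : ∀ v : ι → F, (g : Matrix ι ι F) *ᵥ v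
      = v + Bp (x i₁ + x i₂) v • (y i₁ + y i₂) - Bp (y i₁ + y i₂) v • (x i₁ + x i₂) := by
    intro v
    have h := siegel_mulVec Q (x i₁ + x i₂) (y i₁ + y i₂) 1 v
    rw [one_mul, one_mul] at h
    rw [hg]
    exact h
  have hgS : ∀ s ∈ Sset Q D 1, (g : Matrix ι ι F) *ᵥ s ∈ Sset Q D 1 := by
    intro s hs
    obtain ⟨hQs, l, hl⟩ := hs
    refine ⟨by rw [omega_isom Q hgΩ, hQs], ?_⟩
    by_cases hl1 : l = i₁
    · rw [hl1] at hl
      rcases hstr i₁ s hl hQs with ⟨α, β, hαβ⟩ | ⟨k1, k2⟩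
      · refine ⟨i₂, ?_⟩
        have b1 : Bp (x i₁ + x i₂) s = β := by
          rw [hαβ]
          simp only [QuadraticMap.polar_add_left, QuadraticMap.polar_add_right,
            QuadraticMap.polar_smul_right, hxx, hxy, hX i₂ i₁ (Ne.symm h12) _ (hx i₁),
            hX i₂ i₁ (Ne.symm h12) _ (hy i₁), smul_eq_mul]
          ring
        have b2 : Bp (y i₁ + y i₂) s = α := by
          rw [hαβ]
          simp only [QuadraticMap.polar_add_left, QuadraticMap.polar_add_right,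
            QuadraticMap.polar_smul_right, hyx, hyy, hY i₂ i₁ (Ne.symm h12) _ (hx i₁),
            hY i₂ i₁ (Ne.symm h12) _ (hy i₁), smul_eq_mul]
          ring
        have e : (g : Matrix ι ι F) *ᵥ s = β • y i₂ - α • x i₂ := by
          rw [hgmul, b1, b2, hαβ]
          have e2 : (2 : F) • (β • y i₁) = 0 := by rw [h2, zero_smul]
          have e3 : α • x i₁ + β • y i₁ + β • (y i₁ + y i₂) - α • (x i₁ + x i₂)
              = β • y i₂ - α • x i₂ + (2 : F) • (β • y i₁) := by module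
          rw [e3, e2, add_zero]
        rw [e]
        exact (D i₂).sub_mem ((D i₂).smul_mem _ (hy i₂)) ((D i₂).smul_mem _ (hx i₂))
      · refine ⟨i₁, ?_⟩
        have e : (g : Matrix ι ι F) *ᵥ s = s := by
          rw [hgmul, QuadraticMap.polar_add_left, QuadraticMap.polar_add_left, k1, k2,
            hX i₂ i₁ (Ne.symm h12) s hl, hY i₂ i₁ (Ne.symm h12) s hl, add_zero, zero_smul,
            zero_smul, add_zero, sub_zero]
        rw [e]
        exact hl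
    · by_cases hl2 : l = i₂
      · rw [hl2] at hl
        rcases hstr i₂ s hl hQs with ⟨α, β, hαβ⟩ | ⟨k1, k2⟩
        · refine ⟨i₁, ?_⟩
          have b1 : Bp (x i₁ + x i₂) s = β := by
            rw [hαβ]
            simp only [QuadraticMap.polar_add_left, QuadraticMap.polar_add_right,
              QuadraticMap.polar_smul_right, hxx, hxy, hX i₁ i₂ h12 _ (hx i₂),
              hX i₁ i₂ h12 _ (hy i₂), smul_eq_mul]
            ring
          have b2 : Bp (y i₁ + y i₂) s = α := by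
            rw [hαβ]
            simp only [QuadraticMap.polar_add_left, QuadraticMap.polar_add_right,
              QuadraticMap.polar_smul_right, hyx, hyy, hY i₁ i₂ h12 _ (hx i₂),
              hY i₁ i₂ h12 _ (hy i₂), smul_eq_mul]
            ring
          have e : (g : Matrix ι ι F) *ᵥ s = β • y i₁ - α • x i₁ := by
            rw [hgmul, b1, b2, hαβ]
            have e2 : (2 : F) • (β • y i₂) = 0 := by rw [h2, zero_smul]
            have e3 : α • x i₂ + β • y i₂ + β • (y i₁ + y i₂) - α • (x i₁ + x i₂)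
                = β • y i₁ - α • x i₁ + (2 : F) • (β • y i₂) := by module
            rw [e3, e2, add_zero]
          rw [e]
          exact (D i₁).sub_mem ((D i₁).smul_mem _ (hy i₁)) ((D i₁).smul_mem _ (hx i₁))
        · refine ⟨i₂, ?_⟩
          have e : (g : Matrix ι ι F) *ᵥ s = s := by
            rw [hgmul, QuadraticMap.polar_add_left, QuadraticMap.polar_add_left,
              hX i₁ i₂ h12 s hl, k1, hY i₁ i₂ h12 s hl, k2, add_zero, zero_smul, zero_smul,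
              add_zero, sub_zero]
          rw [e]
          exact hl
      · refine ⟨l, ?_⟩
        have e : (g : Matrix ι ι F) *ᵥ s = s := by
          rw [hgmul, QuadraticMap.polar_add_left, QuadraticMap.polar_add_left,
            hX i₁ l (Ne.symm hl1) s hl, hX i₂ l (Ne.symm hl2) s hl,
            hY i₁ l (Ne.symm hl1) s hl, hY i₂ l (Ne.symm hl2) s hl, add_zero, zero_smul,
            zero_smul, add_zero, sub_zero]
        rw [e]
        exact hl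
  have hgv : ∀ l, (g : Matrix ι ι F) *ᵥ (x i₁ + p i₁) ∉ D l := by
    have b1 : Bp (x i₁ + x i₂) (x i₁ + p i₁) = 0 := by
      rw [QuadraticMap.polar_add_left, QuadraticMap.polar_add_right,
        QuadraticMap.polar_add_right, hxx i₁, hxp i₁, hX i₂ i₁ (Ne.symm h12) _ (hx i₁),
        hX i₂ i₁ (Ne.symm h12) _ (hp i₁)]
      ring
    have b2 : Bp (y i₁ + y i₂) (x i₁ + p i₁) = 1 := by
      rw [QuadraticMap.polar_add_left, QuadraticMap.polar_add_right,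
        QuadraticMap.polar_add_right, hyx i₁, hyp i₁, hY i₂ i₁ (Ne.symm h12) _ (hx i₁),
        hY i₂ i₁ (Ne.symm h12) _ (hp i₁)]
      ring
    have e : (g : Matrix ι ι F) *ᵥ (x i₁ + p i₁) = p i₁ - x i₂ := by
      rw [hgmul, b1, b2, zero_smul, one_smul]
      abel
    rw [e]
    apply mixed Q D horth h12 (hz i₁) (hy i₂)
    · rw [QuadraticMap.polar_sub_left, hpz, hX i₂ i₁ (Ne.symm h12) _ (hz i₁), sub_zero]
      exact one_ne_zero
    · have o : Bp (p i₁) (y i₂) = 0 := horth i₁ i₂ h12 _ (hp i₁) _ (hy i₂)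
      rw [QuadraticMap.polar_sub_left, o, hxy, zero_sub]
      exact neg_ne_zero.mpr one_ne_zero
  have hQa : Q (x i₁ + x i₂ + x i₃) = 1 := by
    rw [hadd, hadd, QuadraticMap.polar_add_left, hQx, hQx, hQx, hX i₁ i₂ h12 _ (hx i₂),
      hX i₁ i₃ h13 _ (hx i₃), hX i₂ i₃ h23 _ (hx i₃)]
    linear_combination h2
  have hQa0 : Q (x i₁ + x i₂ + x i₃) ≠ 0 := by
    rw [hQa]
    exact one_ne_zero
  have hQb0 : Q (x i₂) ≠ 0 := by
    rw [hQx]
    exact one_ne_zero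
  have hhΩ : rr Q (x i₁ + x i₂ + x i₃) (x i₂) hQa0 hQb0 ∈ Geo.omegaGL (⇑Q) := by
    apply rr_mem Q hQ hex
    rw [hQa, hQx]
    exact ⟨1, by ring⟩
  have hhs : ∀ l, ((rr Q (x i₁ + x i₂ + x i₃) (x i₂) hQa0 hQb0 :
      Matrix.GeneralLinearGroup ι F) : Matrix ι ι F) *ᵥ y i₁ ∉ D l := by
    apply two_blocks Q D horth hQa0 hQb0 h12 h13 h23 (hy i₁) (hy i₂) (hy i₃)
      (hX i₂ i₁ (Ne.symm h12) _ (hy i₁))
    · rw [QuadraticMap.polar_add_left, QuadraticMap.polar_add_left, hxy i₁,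
        hX i₂ i₁ (Ne.symm h12) _ (hy i₁), hX i₃ i₁ (Ne.symm h13) _ (hy i₁)]
      simp
    · rw [QuadraticMap.polar_add_left, QuadraticMap.polar_add_left, hxy i₂,
        hX i₁ i₂ h12 _ (hy i₂), hX i₃ i₂ (Ne.symm h23) _ (hy i₂)]
      simp
    · rw [QuadraticMap.polar_add_left, QuadraticMap.polar_add_left, hxy i₃,
        hX i₁ i₃ h13 _ (hy i₃), hX i₂ i₃ h23 _ (hy i₃)]
      simp
  exact skelS Q D 1 g hgΩ hgS i₁ (x i₁ + p i₁) ((D i₁).add_mem (hx i₁) (hp i₁)) hgv _ hhΩ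
    (y i₁) ⟨hQy i₁, i₁, hy i₁⟩ hhs

end caseE

/-- Let F be a finite field with q elements, n ≥ 13 even, Q a non-degenerate quadratic form on F^n of plus type (some subspace of dimension n/2 is totally singular), and Ω the commutator subgroup of the isometry group of Q, viewed inside GL_n(F). Let D be a decomposition of F^n into t ≥ 2 pairwise orthogonal, pairwise Q-isometric subspaces of equal dimension k on which the polar form is non-degenerate (with, for even k, all members of plus type or t even; for odd k, q odd and square discriminant), in one of the cases: k = 2 with q = 3; k = 2 with plus-type members and q ∈ {2, 4, 5}; k = 3 with q = 3; k = 4 with plus-type members and q = 2. Then the elements of Ω permuting the members of D form a subgroup that is not maximal: some subgroup lies strictly between it and Ω. -/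
theorem result {F : Type*} [Field F] [Fintype F] {n : ℕ} (hn : 13 ≤ n) (heven : Even n) (Q : (Fin n → F) → F) (hQ : Cfsg.Geo.IsNondegenerateQuadraticForm Q) (hplus : Cfsg.Geo.IsPlusTypeOn Q ⊤) {t : ℕ} (k : ℕ) (D : Fin t → Submodule F (Fin n → F)) (hD : Cfsg.Geo.IsOrthogonalMDecomposition Q k D) (hke : Even k → ((∀ i, Cfsg.Geo.IsPlusTypeOn Q (D i)) ∨ Even t)) (hko : Odd k → (Odd (Fintype.card F) ∧ Cfsg.Geo.HasSquareDiscriminant Q)) (hcase : ((k = 2 ∧ (Fintype.card F = 3 ∨ ((∀ i, Cfsg.Geo.IsPlusTypeOn Q (D i)) ∧ (Fintype.card F = 2 ∨ Fintype.card F = 4 ∨ Fintype.card F = 5)))) ∨ (k = 3 ∧ Fintype.card F = 3) ∨ (k = 4 ∧ Fintype.card F = 2 ∧ ∀ i, Cfsg.Geo.IsPlusTypeOn Q (D i)))) : ∃ K : Subgroup (Matrix.GeneralLinearGroup (Fin n) F), Cfsg.Geo.decompositionStabilizer D ⊓ Cfsg.Geo.omegaGL Q < K ∧ K < Cfsg.Geo.omegaGL Q := by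
  have hQn := toQF_nondeg Q hQ
  have hnd := hD.decomp.nondegenerate
  have horth := hD.decomp.orthogonal
  have hdim := hD.decomp.decomp.finrank_eq
  have hcard : Fintype.card (Fin n) = n := Fintype.card_fin n
  rcases hcase with ⟨rfl, h⟩ | ⟨rfl, hq⟩ | ⟨rfl, hq, hpl⟩
  · have ht : 3 ≤ t := three_le_t' D hD.decomp.decomp (by norm_num) (by rw [hcard]; omega)
    rcases h with hq | ⟨hpl, hq | hq | hq⟩
    · by_cases hall : ∀ i, Cfsg.Geo.IsPlusTypeOn Q (D i)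
      · exact caseB (toQF Q hQ) D hQn hq hnd horth hdim hall ht
      · push Not at hall
        obtain ⟨i₀, hi₀⟩ := hall
        exact frame_not_max (toQF Q hQ) hQn hq D hnd horth 1 (Or.inl rfl)
          (fun i => good_transport (toQF Q hQ) (hD.isometric i₀ i)
            (good2 (toQF Q hQ) hq (D i₀) (hdim i₀) (hnd i₀) hi₀)) ht
    · exact caseA (toQF Q hQ) D hQn hq (by rw [hcard]; omega) hnd horth hdim hpl ht
    · exact caseD (toQF Q hQ) D hQn hq hnd horth hdim hpl ht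
    · exact caseC (toQF Q hQ) D hQn hq hnd horth hdim hpl ht
  · exact k3_not_max (toQF Q hQ) hQn hq (by rw [hcard]; omega) D hD
  · have ht : 3 ≤ t := three_le_t' D hD.decomp.decomp (by norm_num) (by rw [hcard]; omega)
    exact caseE (toQF Q hQ) D hQn hq (by rw [hcard]; omega) hnd horth hdim hpl ht

end Cfsg.Agent.S5693
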