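import Mathlib
import Cfsg.Statements.S5705
import Cfsg.Agent.S5682
import Cfsg.Agent.S5638

set_option autoImplicit false
open Cfsg

namespace Cfsg.Agent.S5705

open Matrix
open scoped Kronecker
open Cfsg.Agent.S5676 (rr rr_mem rr_mulVec ginj toQF toQF_nondeg)
open Cfsg.Agent.S5682 (tens tens_add_right tens_add_left tens_smul_right kron_mulVec tensor_act
  form_tens)
open Cfsg.Agent.S5638 (om Om K0 mem_K0 kron_le_K0 val_inv_mul val_mul_inv)

section phi

variable {ι : Type} [Fintype ι] [DecidableEq ι] {F : Type*} [Field F] {n₂ : ℕ}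
  (e : ι ≃ Fin 2 × Fin n₂) (P : Matrix.GeneralLinearGroup ι F)

/-- transport of coordinate matrices -/
def phi (X : Matrix (Fin 2 × Fin n₂) (Fin 2 × Fin n₂) F) : Matrix ι ι F :=
  (P : Matrix ι ι F) * X.submatrix e e * ((P⁻¹ : Matrix.GeneralLinearGroup ι F) : Matrix ι ι F)

theorem phi_mul (X Y : Matrix (Fin 2 × Fin n₂) (Fin 2 × Fin n₂) F) :
    phi e P (X * Y) = phi e P X * phi e P Y := by
  unfold phi
  rw [← Matrix.submatrix_mul_equiv X Y e e e]
  have h := val_inv_mul P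
  calc (P : Matrix ι ι F) * (X.submatrix e e * Y.submatrix e e)
        * ((P⁻¹ : Matrix.GeneralLinearGroup ι F) : Matrix ι ι F)
      = (P : Matrix ι ι F) * X.submatrix e e * (1 * (Y.submatrix e e
          * ((P⁻¹ : Matrix.GeneralLinearGroup ι F) : Matrix ι ι F))) := by
        rw [one_mul]; simp only [mul_assoc]
    _ = (P : Matrix ι ι F) * X.submatrix e e
          * ((((P⁻¹ : Matrix.GeneralLinearGroup ι F) : Matrix ι ι F) * (P : Matrix ι ι F))
            * (Y.submatrix e e * ((P⁻¹ : Matrix.GeneralLinearGroup ι F) : Matrix ι ι F))) := by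
        rw [h]
    _ = _ := by simp only [mul_assoc]

theorem phi_add (X Y : Matrix (Fin 2 × Fin n₂) (Fin 2 × Fin n₂) F) :
    phi e P (X + Y) = phi e P X + phi e P Y := by
  unfold phi
  have h : (X + Y).submatrix e e = X.submatrix e e + Y.submatrix e e := rfl
  rw [h, mul_add, add_mul]

theorem phi_one : phi e P (1 : Matrix (Fin 2 × Fin n₂) (Fin 2 × Fin n₂) F) = 1 := by
  unfold phi
  rw [Matrix.submatrix_one_equiv, mul_one, val_mul_inv]

theorem phi_inj {X Y : Matrix (Fin 2 × Fin n₂) (Fin 2 × Fin n₂) F}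
    (h : phi e P X = phi e P Y) : X = Y := by
  unfold phi at h
  have e1 : ∀ Z : Matrix ι ι F, ((P⁻¹ : Matrix.GeneralLinearGroup ι F) : Matrix ι ι F)
      * ((P : Matrix ι ι F) * Z * ((P⁻¹ : Matrix.GeneralLinearGroup ι F) : Matrix ι ι F))
      * (P : Matrix ι ι F) = Z := by
    intro Z
    calc ((P⁻¹ : Matrix.GeneralLinearGroup ι F) : Matrix ι ι F)
          * ((P : Matrix ι ι F) * Z * ((P⁻¹ : Matrix.GeneralLinearGroup ι F) : Matrix ι ι F))
          * (P : Matrix ι ι F)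
        = (((P⁻¹ : Matrix.GeneralLinearGroup ι F) : Matrix ι ι F) * (P : Matrix ι ι F)) * Z
          * (((P⁻¹ : Matrix.GeneralLinearGroup ι F) : Matrix ι ι F) * (P : Matrix ι ι F)) := by
          simp only [mul_assoc]
      _ = Z := by rw [val_inv_mul, one_mul, mul_one]
  have h1 : X.submatrix e e = Y.submatrix e e := by
    rw [← e1 (X.submatrix e e), h, e1]
  ext i j
  have := congrFun (congrFun h1 (e.symm i)) (e.symm j)
  simpa using this

theorem phi_mulVec (X : Matrix (Fin 2 × Fin n₂) (Fin 2 × Fin n₂) F) (x : Fin 2 × Fin n₂ → F) :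
    phi e P X *ᵥ ((P : Matrix ι ι F) *ᵥ (x ∘ e)) = (P : Matrix ι ι F) *ᵥ ((X *ᵥ x) ∘ e) := by
  unfold phi
  rw [Matrix.mulVec_mulVec, mul_assoc, mul_assoc, val_inv_mul, mul_one, ← Matrix.mulVec_mulVec]
  congr 1
  rw [Matrix.submatrix_mulVec_equiv]
  have h : (x ∘ e) ∘ e.symm = x := by
    funext p
    simp
  rw [h]

theorem mem_K0_iff (h2 : (1 : F) + 1 = 0) (z : Matrix.GeneralLinearGroup (Fin 2 × Fin n₂) F) :
    z ∈ K0 n₂ F h2 ↔
      (phi e P (z : Matrix (Fin 2 × Fin n₂) (Fin 2 × Fin n₂) F) * phi e P (Om n₂ F)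
          = phi e P (Om n₂ F) * phi e P (z : Matrix (Fin 2 × Fin n₂) (Fin 2 × Fin n₂) F) ∨
       phi e P (z : Matrix (Fin 2 × Fin n₂) (Fin 2 × Fin n₂) F) * phi e P (Om n₂ F)
          = (phi e P (Om n₂ F) + 1)
            * phi e P (z : Matrix (Fin 2 × Fin n₂) (Fin 2 × Fin n₂) F)) := by
  rw [mem_K0]
  constructor
  · rintro (h | h)
    · left; rw [← phi_mul, ← phi_mul, h]
    · right; rw [← phi_one e P, ← phi_add, ← phi_mul, ← phi_mul, h]
  · rintro (h | h)
    · left; apply phi_inj e P; rw [phi_mul, phi_mul, h]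
    · right; apply phi_inj e P; rw [phi_mul, phi_mul, phi_add, phi_one, h]

theorem mem_map_iff (h2 : (1 : F) + 1 = 0) (g : Matrix.GeneralLinearGroup ι F) :
    g ∈ ((K0 n₂ F h2).map (Geo.glReindex e.symm).toMonoidHom).map (MulAut.conj P).toMonoidHom ↔
      ((g : Matrix ι ι F) * phi e P (Om n₂ F) = phi e P (Om n₂ F) * (g : Matrix ι ι F) ∨
       (g : Matrix ι ι F) * phi e P (Om n₂ F)
          = (phi e P (Om n₂ F) + 1) * (g : Matrix ι ι F)) := by
  have key : ∀ z : Matrix.GeneralLinearGroup (Fin 2 × Fin n₂) F,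
      (((MulAut.conj P).toMonoidHom ((Geo.glReindex e.symm).toMonoidHom z) :
        Matrix.GeneralLinearGroup ι F) : Matrix ι ι F)
        = phi e P (z : Matrix (Fin 2 × Fin n₂) (Fin 2 × Fin n₂) F) := fun z => rfl
  constructor
  · rintro ⟨y, ⟨z, hz, rfl⟩, rfl⟩
    rw [key]
    exact (mem_K0_iff e P h2 z).mp hz
  · intro h
    have hback : (MulAut.conj P).toMonoidHom ((Geo.glReindex e.symm).toMonoidHom
        ((Geo.glReindex e.symm).symm ((MulAut.conj P).symm g))) = g := by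
      show (MulAut.conj P) ((Geo.glReindex e.symm)
        ((Geo.glReindex e.symm).symm ((MulAut.conj P).symm g))) = g
      rw [MulEquiv.apply_symm_apply, MulEquiv.apply_symm_apply]
    refine ⟨(MulAut.conj P).symm g,
      ⟨(Geo.glReindex e.symm).symm ((MulAut.conj P).symm g), ?_, ?_⟩, ?_⟩
    · show _ ∈ K0 n₂ F h2
      rw [mem_K0_iff e P h2, ← key, hback]
      exact h
    · exact MulEquiv.apply_symm_apply _ _
    · exact MulEquiv.apply_symm_apply _ _

end phi

section main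

variable {ι : Type} [Fintype ι] [DecidableEq ι] {F : Type*} [Field F] [Fintype F]
  (Q : QuadraticForm F (ι → F)) (hQ : (QuadraticMap.polarBilin Q).Nondegenerate)

local notation "Bp" => QuadraticMap.polar (DFunLike.coe Q)

include hQ in
/-- over the field with two elements the stabiliser in Ω of a tensor decomposition with a
symplectic plane as first factor is not maximal: it normalises the group of order three
generated by an element of order three acting on the plane. -/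
theorem tensor2_not_max (hq : Fintype.card F = 2) {n₂ : ℕ} (hn₂ : 2 < n₂)
    (e : ι ≃ Fin 2 × Fin n₂) (P : Matrix.GeneralLinearGroup ι F)
    (f₁ : (Fin 2 → F) → (Fin 2 → F) → F) (f₂ : (Fin n₂ → F) → (Fin n₂ → F) → F)
    (hf₁ : Geo.IsSymplecticForm f₁) (hf₂ : Geo.IsSymplecticForm f₂)
    (hT : Geo.IsTensorFormStructure id Bp f₁ f₂ e P)
    (hpure : ∀ (x₁ : Fin 2 → F) (x₂ : Fin n₂ → F), Q (tens e P x₁ x₂) = 0) :
    ∃ K : Subgroup (Matrix.GeneralLinearGroup ι F),
      Geo.tensorProductSubgroup 2 n₂ e P ⊓ Geo.omegaGL (⇑Q) < K ∧ K < Geo.omegaGL (⇑Q) := by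
  classical
  have hF : ∀ x : F, x = 0 ∨ x = 1 := by
    intro x
    by_contra hx
    push Not at hx
    have h1 : ({0, 1, x} : Finset F).card ≤ Fintype.card F := Finset.card_le_univ _
    rw [hq] at h1
    have h3 : ({0, 1, x} : Finset F).card = 3 := by
      rw [Finset.card_insert_of_notMem, Finset.card_insert_of_notMem, Finset.card_singleton]
      · rw [Finset.mem_singleton]; exact fun h => hx.2 h.symm
      · rw [Finset.mem_insert, Finset.mem_singleton]
        push Not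
        exact ⟨zero_ne_one, fun h => hx.1 h.symm⟩
    omega
  have h2 : (1 : F) + 1 = 0 := by
    rcases hF (1 + 1) with h | h
    · exact h
    · exfalso
      have : (1 : F) = 0 := by linear_combination h
      exact one_ne_zero this
  have hneg : ∀ x : F, -x = x := by
    intro x
    apply neg_eq_of_add_eq_zero_left
    linear_combination x * h2
  have hcard : Fintype.card ι ≠ 4 := by
    have h := Fintype.card_congr e
    simp only [Fintype.card_fin, Fintype.card_prod] at h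
    omega
  have hex : Fintype.card F ≠ 2 ∨ Fintype.card ι ≠ 4 := Or.inr hcard
  obtain ⟨c, hc0, hform⟩ := hT
  have hc1 : c = 1 := (hF c).resolve_left hc0
  have hB : ∀ u w u' w', Bp (tens e P u w) (tens e P u' w') = f₁ u u' * f₂ w w' := by
    intro u w u' w'
    rw [form_tens e P hf₁.bilinear hf₂.bilinear hform, hc1, one_mul]
  have hBself : ∀ x : ι → F, Bp x x = 0 := by
    intro x
    have hxx : x + x = 0 := by
      funext i
      simp only [Pi.add_apply, Pi.zero_apply]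
      linear_combination (x i) * h2
    unfold QuadraticMap.polar
    rw [hxx, map_zero]
    linear_combination (-(Q x)) * h2
  -- the second form as a bilinear form
  obtain ⟨B₂, hB₂⟩ : ∃ B₂ : LinearMap.BilinForm F (Fin n₂ → F), ∀ a b, B₂ a b = f₂ a b :=
    ⟨LinearMap.mk₂ F f₂ hf₂.bilinear.add_left hf₂.bilinear.smul_left hf₂.bilinear.add_right
      hf₂.bilinear.smul_right, fun _ _ => rfl⟩
  have hsym : ∀ a b, B₂ a b = B₂ b a := by
    intro a b
    rw [hB₂, hB₂, hf₂.skew a b, hneg]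
  have halt : ∀ a, B₂ a a = 0 := by
    intro a
    rw [hB₂]
    exact hf₂.alternating a
  -- the standard basis of the plane
  obtain ⟨e1, he1⟩ : ∃ e1 : Fin 2 → F, e1 = Pi.single 0 1 := ⟨_, rfl⟩
  obtain ⟨e2, he2⟩ : ∃ e2 : Fin 2 → F, e2 = Pi.single 1 1 := ⟨_, rfl⟩
  have h11 : f₁ e1 e1 = 0 := hf₁.alternating _
  have h22 : f₁ e2 e2 = 0 := hf₁.alternating _
  have h12 : f₁ e1 e2 = 1 := by
    have hne : e1 ≠ 0 := by
      intro h
      have := congrFun h 0
      rw [he1] at this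
      simp at this
    obtain ⟨x, hx⟩ := (hf₁.nondegenerate e1 hne).2
    have hx' : x = x 0 • e1 + x 1 • e2 := by
      funext i
      fin_cases i <;> simp [he1, he2]
    have hx2 : f₁ e1 (x 0 • e1 + x 1 • e2) ≠ 0 := by
      rw [← hx']; exact hx
    rw [hf₁.bilinear.add_right, hf₁.bilinear.smul_right, hf₁.bilinear.smul_right, h11, mul_zero,
      zero_add] at hx2
    rcases hF (f₁ e1 e2) with h | h
    · rw [h, mul_zero] at hx2; exact absurd rfl hx2
    · exact h
  have h21 : f₁ e2 e1 = 1 := by rw [hf₁.skew, h12, hneg]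
  have htens0 : ∀ u : Fin 2 → F, tens e P u (0 : Fin n₂ → F) = 0 := by
    intro u
    have h := tens_smul_right e P (0 : F) u (0 : Fin n₂ → F)
    rw [zero_smul, zero_smul] at h
    exact h
  obtain ⟨tv, htv⟩ : ∃ tv : (Fin n₂ → F) → (Fin n₂ → F) → (ι → F),
      tv = fun a b => tens e P e1 a + tens e P e2 b := ⟨_, rfl⟩
  have htv_add : ∀ a b a' b', tv (a + a') (b + b') = tv a b + tv a' b' := by
    intro a b a' b'
    rw [htv]
    simp only [tens_add_right]
    abel
  have hBtv : ∀ a b a' b', Bp (tv a b) (tv a' b') = B₂ a b' + B₂ b a' := by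
    intro a b a' b'
    rw [htv]
    simp only [QuadraticMap.polar_add_left, QuadraticMap.polar_add_right, hB, h11, h12, h21, h22,
      hB₂]
    ring
  have hQtv : ∀ a b, Q (tv a b) = B₂ a b := by
    intro a b
    rw [htv]
    simp only
    rw [QuadraticMap.map_add (⇑Q), hpure, hpure, hB, h12, one_mul, zero_add, zero_add, hB₂]
  -- the element of order three
  obtain ⟨W, hWdef⟩ : ∃ W : Matrix ι ι F, W = phi e P (Om n₂ F) := ⟨_, rfl⟩
  have hWtens : ∀ u a, W *ᵥ tens e P u a = tens e P (om F *ᵥ u) a := by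
    intro u a
    have h1 : Om n₂ F *ᵥ (fun p : Fin 2 × Fin n₂ => u p.1 * a p.2)
        = fun p => (om F *ᵥ u) p.1 * a p.2 := by
      unfold Om
      rw [kron_mulVec, Matrix.one_mulVec]
    rw [hWdef]
    unfold tens
    rw [phi_mulVec, h1]
  have hom1 : om F *ᵥ e1 = e2 := by
    rw [he1, he2]
    funext i
    fin_cases i <;> simp [om, Matrix.mulVec, dotProduct, Fin.sum_univ_two]
  have hom2 : om F *ᵥ e2 = e1 + e2 := by
    rw [he1, he2]
    funext i
    fin_cases i <;> simp [om, Matrix.mulVec, dotProduct, Fin.sum_univ_two]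
  have hW : ∀ a b, W *ᵥ tv a b = tv b (a + b) := by
    intro a b
    rw [htv]
    simp only
    rw [Matrix.mulVec_add, hWtens, hWtens, hom1, hom2, tens_add_left, tens_add_right]
    abel
  have hcoord : ∀ a b (j : Fin n₂),
      (((P⁻¹ : Matrix.GeneralLinearGroup ι F) : Matrix ι ι F) *ᵥ tv a b) (e.symm (0, j)) = a j ∧
      (((P⁻¹ : Matrix.GeneralLinearGroup ι F) : Matrix ι ι F) *ᵥ tv a b) (e.symm (1, j)) = b j := by
    intro a b j
    rw [htv]
    simp only
    unfold tens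
    rw [← Matrix.mulVec_add, Matrix.mulVec_mulVec, val_inv_mul, Matrix.one_mulVec]
    simp [he1, he2]
  have hcoordT : ∀ (u : Fin 2 → F) (v : Fin n₂ → F) (i : Fin 2) (j : Fin n₂),
      (((P⁻¹ : Matrix.GeneralLinearGroup ι F) : Matrix ι ι F) *ᵥ tens e P u v) (e.symm (i, j))
        = u i * v j := by
    intro u v i j
    unfold tens
    rw [Matrix.mulVec_mulVec, val_inv_mul, Matrix.one_mulVec]
    simp
  have hsurj : ∀ x : ι → F, ∃ a b, x = tv a b := by
    intro x
    obtain ⟨a, ha⟩ : ∃ a : Fin n₂ → F, a = fun j =>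
      (((P⁻¹ : Matrix.GeneralLinearGroup ι F) : Matrix ι ι F) *ᵥ x) (e.symm (0, j)) := ⟨_, rfl⟩
    obtain ⟨b, hb⟩ : ∃ b : Fin n₂ → F, b = fun j =>
      (((P⁻¹ : Matrix.GeneralLinearGroup ι F) : Matrix ι ι F) *ᵥ x) (e.symm (1, j)) := ⟨_, rfl⟩
    refine ⟨a, b, ?_⟩
    apply ginj (P⁻¹)
    funext i
    obtain ⟨⟨k, j⟩, rfl⟩ := e.symm.surjective i
    have h := hcoord a b j
    have hk : k = 0 ∨ k = 1 := by fin_cases k <;> simp
    rcases hk with rfl | rfl
    · rw [h.1, ha]
    · rw [h.2, hb]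
  have hWQ : ∀ x, Q (W *ᵥ x) = Q x := by
    intro x
    obtain ⟨a, b, rfl⟩ := hsurj x
    rw [hW, hQtv, hQtv, map_add, halt, add_zero, hsym]
  have hWB : ∀ x y, Bp (W *ᵥ x) (W *ᵥ y) = Bp x y := by
    intro x y
    unfold QuadraticMap.polar
    rw [← Matrix.mulVec_add, hWQ, hWQ, hWQ]
  have hWW : ∀ x, W *ᵥ (W *ᵥ x) = W *ᵥ x + x := by
    intro x
    obtain ⟨a, b, rfl⟩ := hsurj x
    rw [hW, hW, ← htv_add]
    congr 1
    · exact add_comm a b
    · abel
  -- a hyperbolic pair of the second factor and a vector orthogonal to it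
  have hn0 : 0 < n₂ := by omega
  obtain ⟨a₀, b₀, hab⟩ : ∃ a₀ b₀ : Fin n₂ → F, B₂ a₀ b₀ = 1 := by
    have hne : (Pi.single (⟨0, hn0⟩ : Fin n₂) (1 : F) : Fin n₂ → F) ≠ 0 := by
      intro h
      have := congrFun h ⟨0, hn0⟩
      simp at this
    obtain ⟨x, hx⟩ := (hf₂.nondegenerate _ hne).2
    exact ⟨_, x, by rw [hB₂]; exact (hF _).resolve_left hx⟩
  have hba : B₂ b₀ a₀ = 1 := by rw [hsym, hab]
  obtain ⟨d, hd0, hda, hdb⟩ : ∃ d : Fin n₂ → F, d ≠ 0 ∧ B₂ d a₀ = 0 ∧ B₂ d b₀ = 0 := by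
    let L : (Fin n₂ → F) →ₗ[F] (F × F) := (B₂.flip a₀).prod (B₂.flip b₀)
    have hker : LinearMap.ker L ≠ ⊥ := by
      apply LinearMap.ker_ne_bot_of_finrank_lt
      rw [Module.finrank_prod, Module.finrank_self, Module.finrank_fin_fun]
      omega
    obtain ⟨d, hd, hd0⟩ := (Submodule.ne_bot_iff _).mp hker
    have hd' : L d = 0 := hd
    refine ⟨d, hd0, ?_, ?_⟩
    · have := congrArg Prod.fst hd'
      simpa [L] using this
    · have := congrArg Prod.snd hd'
      simpa [L] using this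
  have had : B₂ a₀ d = 0 := by rw [hsym, hda]
  have hbd : B₂ b₀ d = 0 := by rw [hsym, hdb]
  -- the vectors
  obtain ⟨w, hw⟩ : ∃ w : ι → F, w = tv a₀ b₀ := ⟨_, rfl⟩
  obtain ⟨ω, hω⟩ : ∃ ω : ι → F, ω = W *ᵥ w := ⟨_, rfl⟩
  have hωtv : ω = tv b₀ (a₀ + b₀) := by rw [hω, hw, hW]
  have hQw : Q w = 1 := by rw [hw, hQtv, hab]
  have hQω : Q ω = 1 := by rw [hω, hWQ, hQw]
  have hwne : Q w ≠ 0 := by rw [hQw]; exact one_ne_zero
  have hωne : Q ω ≠ 0 := by rw [hQω]; exact one_ne_zero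
  have hBwω : Bp w ω = 1 := by
    rw [hw, hωtv, hBtv]
    simp only [map_add, halt, hab, zero_add, add_zero]
  have hWω : W *ᵥ ω = ω + w := by
    rw [hω]; exact hWW w
  have hWωw : W *ᵥ (ω + w) = w := by
    rw [Matrix.mulVec_add, hWω, ← hω]
    funext i
    simp only [Pi.add_apply]
    linear_combination (ω i) * h2
  -- the first witness
  obtain ⟨g₁, hg₁def⟩ : ∃ g₁ : Matrix.GeneralLinearGroup ι F, g₁ = rr Q w ω hwne hωne :=
    ⟨_, rfl⟩
  have hg₁Ω : g₁ ∈ Geo.omegaGL (⇑Q) := by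
    rw [hg₁def]
    exact rr_mem Q hQ hex hwne hωne ⟨1, by rw [hQw, hQω]⟩
  have hg₁ : ∀ x, (g₁ : Matrix ι ι F) *ᵥ x = x + Bp ω x • (ω + w) + Bp w x • w := by
    intro x
    rw [hg₁def, rr_mulVec]
    simp only [hQw, hQω, inv_one, one_mul, QuadraticMap.polar_sub_right,
      QuadraticMap.polar_smul_right, hBwω, smul_eq_mul, mul_one]
    funext i
    simp only [Pi.add_apply, Pi.sub_apply, Pi.smul_apply, smul_eq_mul]
    linear_combination (-(Bp ω x * ω i) - Bp w x * w i) * h2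
  have hcomm1 : (g₁ : Matrix ι ι F) * W = W * (g₁ : Matrix ι ι F) := by
    apply Matrix.mulVec_injective
    funext x
    rw [← Matrix.mulVec_mulVec, ← Matrix.mulVec_mulVec]
    have k1 : Bp ω (W *ᵥ x) = Bp w x := by
      rw [hω, hWB]
    have k2 : Bp w (W *ᵥ x) = Bp ω x + Bp w x := by
      rw [← QuadraticMap.polar_add_left, ← hWB (ω + w) x, hWωw]
    have e1 : (g₁ : Matrix ι ι F) *ᵥ (W *ᵥ x)
        = W *ᵥ x + Bp w x • (ω + w) + (Bp ω x + Bp w x) • w := by
      rw [hg₁, k1, k2]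
    have e2 : W *ᵥ ((g₁ : Matrix ι ι F) *ᵥ x) = W *ᵥ x + Bp ω x • w + Bp w x • ω := by
      rw [hg₁, Matrix.mulVec_add, Matrix.mulVec_add, Matrix.mulVec_smul, Matrix.mulVec_smul,
        hWωw, ← hω]
    rw [e1, e2]
    funext i
    simp only [Pi.add_apply, Pi.smul_apply, smul_eq_mul]
    linear_combination (Bp w x * w i) * h2
  have hg₁T : g₁ ∉ Geo.tensorProductSubgroup 2 n₂ e P := by
    intro hmem
    obtain ⟨A, Bm, hAB⟩ := tensor_act e P hmem
    have hx := hAB e1 (a₀ + b₀ + d)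
    have hy : tens e P e1 (a₀ + b₀ + d) = tv (a₀ + b₀ + d) 0 := by
      rw [htv]
      simp only
      rw [htens0, add_zero]
    have hb1 : Bp ω (tv (a₀ + b₀ + d) 0) = 0 := by
      rw [hωtv, hBtv]
      simp only [map_add, map_zero, LinearMap.add_apply, halt, hab, hba, hda, hdb, had, hbd]
      linear_combination h2
    have hb2 : Bp w (tv (a₀ + b₀ + d) 0) = 1 := by
      rw [hw, hBtv]
      simp only [map_add, map_zero, LinearMap.add_apply, halt, hab, hba, hda, hdb, had, hbd]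
      ring
    rw [hy, hg₁, hb1, hb2, zero_smul, add_zero, one_smul, hw, ← htv_add] at hx
    obtain ⟨u, hu⟩ : ∃ u : Fin 2 → F, u = A *ᵥ e1 := ⟨_, rfl⟩
    obtain ⟨v, hv⟩ : ∃ v : Fin n₂ → F, v = Bm *ᵥ (a₀ + b₀ + d) := ⟨_, rfl⟩
    rw [← hu, ← hv] at hx
    have hc1 : ∀ j, (a₀ + b₀ + d + a₀) j = u 0 * v j := by
      intro j
      rw [← (hcoord (a₀ + b₀ + d + a₀) (0 + b₀) j).1, hx, hcoordT]
    have hc2 : ∀ j, (0 + b₀) j = u 1 * v j := by
      intro j
      rw [← (hcoord (a₀ + b₀ + d + a₀) (0 + b₀) j).2, hx, hcoordT]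
    have hα : B₂ a₀ (a₀ + b₀ + d + a₀) = 1 := by
      simp only [map_add, halt, hab, had]
      ring
    rcases hF (u 0) with h0 | h0
    · have h00 : a₀ + b₀ + d + a₀ = 0 := by
        funext j
        rw [hc1 j, h0, zero_mul]
        rfl
      rw [h00, map_zero] at hα
      exact zero_ne_one hα
    rcases hF (u 1) with h1 | h1
    · have h00 : b₀ = 0 := by
        funext j
        have := hc2 j
        rw [h1, zero_mul] at this
        simpa using this
      rw [h00, map_zero] at hab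
      exact zero_ne_one hab
    · apply hd0
      funext j
      have ha := hc1 j
      have hb := hc2 j
      rw [h0, one_mul] at ha
      rw [h1, one_mul] at hb
      simp only [Pi.add_apply, Pi.zero_apply] at ha hb ⊢
      linear_combination ha - hb - (a₀ j) * h2
  -- the second witness
  obtain ⟨w2, hw2⟩ : ∃ w2 : ι → F, w2 = tv (a₀ + d) b₀ := ⟨_, rfl⟩
  have hQw2 : Q w2 = 1 := by
    rw [hw2, hQtv]
    simp only [map_add, LinearMap.add_apply, hab, hdb, add_zero]
  have hw2ne : Q w2 ≠ 0 := by rw [hQw2]; exact one_ne_zero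
  have hBw2w : Bp w2 w = 0 := by
    rw [hw2, hw, hBtv]
    simp only [map_add, LinearMap.add_apply, hab, hdb, hba, add_zero]
    exact h2
  have hBww2 : Bp w w2 = 0 := by
    rw [QuadraticMap.polar_comm, hBw2w]
  have hBw2ω : Bp w2 ω = 1 := by
    rw [hw2, hωtv, hBtv]
    simp only [map_add, LinearMap.add_apply, halt, hab, hda, hdb, add_zero, zero_add]
  obtain ⟨g₂, hg₂def⟩ : ∃ g₂ : Matrix.GeneralLinearGroup ι F, g₂ = rr Q w w2 hwne hw2ne :=
    ⟨_, rfl⟩
  have hg₂Ω : g₂ ∈ Geo.omegaGL (⇑Q) := by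
    rw [hg₂def]
    exact rr_mem Q hQ hex hwne hw2ne ⟨1, by rw [hQw, hQw2]⟩
  have hg₂w : (g₂ : Matrix ι ι F) *ᵥ w = w := by
    rw [hg₂def, rr_mulVec, hBw2w, mul_zero, zero_smul, sub_zero, hBself, mul_zero, zero_smul,
      sub_zero]
  have hg₂ω : (g₂ : Matrix ι ι F) *ᵥ ω = ω - w2 - w := by
    rw [hg₂def, rr_mulVec]
    simp only [hQw, hQw2, hBw2ω, inv_one, one_mul, one_smul, QuadraticMap.polar_sub_right, hBwω,
      hBww2, sub_zero]
  have hg₂K : g₂ ∉ ((K0 n₂ F h2).map (Geo.glReindex e.symm).toMonoidHom).map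
      (MulAut.conj P).toMonoidHom := by
    intro hmem
    rw [mem_map_iff e P h2, ← hWdef] at hmem
    rcases hmem with h | h
    · have h1 := congrArg (fun M : Matrix ι ι F => M *ᵥ w) h
      rw [← Matrix.mulVec_mulVec, ← Matrix.mulVec_mulVec, ← hω, hg₂ω, hg₂w, ← hω] at h1
      -- ω - w2 - w = ω
      have h3 : tv (a₀ + d + a₀) (b₀ + b₀) = 0 := by
        rw [htv_add, ← hw2, ← hw]
        funext i
        have := congrFun h1 i
        simp only [Pi.add_apply, Pi.sub_apply, Pi.zero_apply] at this ⊢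
        linear_combination (-1 : F) * this
      apply hd0
      funext j
      have h4 := (hcoord (a₀ + d + a₀) (b₀ + b₀) j).1
      rw [h3, Matrix.mulVec_zero] at h4
      simp only [Pi.add_apply, Pi.zero_apply] at h4 ⊢
      linear_combination (-1 : F) * h4 - (a₀ j) * h2
    · have h1 := congrArg (fun M : Matrix ι ι F => M *ᵥ w) h
      rw [← Matrix.mulVec_mulVec, ← Matrix.mulVec_mulVec, ← hω, hg₂ω, hg₂w, Matrix.add_mulVec,
        Matrix.one_mulVec, ← hω] at h1
      -- ω - w2 - w = ω + w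
      have h3 : w2 = 0 := by
        funext i
        have := congrFun h1 i
        simp only [Pi.add_apply, Pi.sub_apply, Pi.zero_apply] at this ⊢
        linear_combination (-1 : F) * this - (w i) * h2
      rw [h3, map_zero] at hQw2
      exact zero_ne_one hQw2
  -- conclusion
  refine ⟨((K0 n₂ F h2).map (Geo.glReindex e.symm).toMonoidHom).map (MulAut.conj P).toMonoidHom
    ⊓ Geo.omegaGL (⇑Q), ?_, ?_⟩
  · refine lt_of_le_of_ne ?_ ?_
    · exact inf_le_inf_right _ (Subgroup.map_mono (Subgroup.map_mono (kron_le_K0 hF h2)))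
    · intro heq
      have hx : g₁ ∈ ((K0 n₂ F h2).map (Geo.glReindex e.symm).toMonoidHom).map
          (MulAut.conj P).toMonoidHom ⊓ Geo.omegaGL (⇑Q) :=
        ⟨(mem_map_iff e P h2 g₁).mpr (Or.inl (by rw [← hWdef]; exact hcomm1)), hg₁Ω⟩
      rw [← heq] at hx
      exact hg₁T hx.1
  · refine lt_of_le_of_ne inf_le_right ?_
    intro heq
    have hx : g₂ ∈ ((K0 n₂ F h2).map (Geo.glReindex e.symm).toMonoidHom).map
        (MulAut.conj P).toMonoidHom ⊓ Geo.omegaGL (⇑Q) := by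
      rw [heq]; exact hg₂Ω
    exact hg₂K hx.1

end main

/-- Let F be the field with 2 elements, n = 2 n₂ ≥ 13 even, Q a non-degenerate quadratic form on F^n of plus type and Ω the commutator subgroup of its isometry group. Suppose that, through P and e, the polar form of Q is similar to the tensor product of non-degenerate symplectic forms f₁ on F^2 and f₂ on F^(n₂), and Q vanishes on the images of all pure tensors. Then the elements of Ω in the stabiliser of this tensor decomposition form a subgroup that is not maximal: some subgroup lies strictly between it and Ω. -/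
theorem result {F : Type*} [Field F] [Fintype F] {n : ℕ} (hn : 13 ≤ n) (heven : Even n) (Q : (Fin n → F) → F) (hQ : Cfsg.Geo.IsNondegenerateQuadraticForm Q) (hplus : Cfsg.Geo.IsPlusTypeOn Q ⊤) (hq : Fintype.card F = 2) (n₂ : ℕ) (h2 : 2 < n₂) (e : (Fin n) ≃ Fin 2 × Fin n₂) (P : Matrix.GeneralLinearGroup (Fin n) F) (f₁ : (Fin 2 → F) → (Fin 2 → F) → F) (f₂ : (Fin n₂ → F) → (Fin n₂ → F) → F) (hf₁ : Cfsg.Geo.IsSymplecticForm f₁) (hf₂ : Cfsg.Geo.IsSymplecticForm f₂) (hT : Cfsg.Geo.IsTensorFormStructure id (QuadraticMap.polar Q) f₁ f₂ e P) (hpure : (∀ (x₁ : Fin 2 → F) (x₂ : Fin n₂ → F), Q (Matrix.mulVec (P : Matrix (Fin n) (Fin n) F) ((fun a : Fin 2 × Fin n₂ => x₁ a.1 * x₂ a.2) ∘ e)) = 0)) : ∃ K : Subgroup (Matrix.GeneralLinearGroup (Fin n) F), Cfsg.Geo.tensorProductSubgroup 2 n₂ e P ⊓ Cfsg.Geo.omegaGL Q < K ∧ K < Cfsg.Geo.omegaGL Q := by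
  have hpure' : ∀ (x₁ : Fin 2 → F) (x₂ : Fin n₂ → F),
      (toQF Q hQ) (tens e P x₁ x₂) = 0 := hpure
  exact tensor2_not_max (toQF Q hQ) (toQF_nondeg Q hQ) hq h2 e P f₁ f₂ hf₁ hf₂ hT hpure'

end Cfsg.Agent.S5705
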