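import Cfsg.Statements.S5952
import Mathlib

set_option autoImplicit false
open Cfsg

namespace Cfsg.Agent.S5952

variable {F V : Type*} [Field F] [AddCommGroup V] [Module F V] [FiniteDimensional F V]

/-- partial sums of the family -/
def part {s : ℕ} (U : Fin s → Submodule F V) (j : ℕ) : Submodule F V :=
  ⨆ (i : Fin s) (_ : i.val < j), U i

theorem part_zero {s : ℕ} (U : Fin s → Submodule F V) : part U 0 = ⊥ := by
  simp [part]

theorem part_full {s : ℕ} (U : Fin s → Submodule F V) : part U s = ⨆ i, U i := by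
  simp [part]

theorem part_succ {s : ℕ} (U : Fin s → Submodule F V) (j : ℕ) (hj : j < s) :
    part U (j + 1) = part U j ⊔ U ⟨j, hj⟩ := by
  apply le_antisymm
  · refine iSup₂_le fun i hi => ?_
    by_cases h : i.val < j
    · exact le_sup_of_le_left (le_iSup₂_of_le i h le_rfl)
    · have : i = ⟨j, hj⟩ := Fin.ext (by simp; omega)
      rw [this]
      exact le_sup_right
  · refine sup_le (iSup₂_le fun i hi => le_iSup₂_of_le i (by omega) le_rfl) ?_
    exact le_iSup₂_of_le (⟨j, hj⟩ : Fin s) (by simp) le_rfl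

theorem part_inv (f : V →ₗ[F] V) {s : ℕ} (U : Fin s → Submodule F V)
    (hU : ∀ j, U j ≤ (U j).comap f) (j : ℕ) : part U j ≤ (part U j).comap f :=
  iSup₂_le fun i hi => (hU i).trans (Submodule.comap_mono (le_iSup₂_of_le i hi le_rfl))

theorem disj (C : Submodule F V) {s : ℕ} (U : Fin s → Submodule F V)
    (hind : iSupIndep (fun o : Option (Fin s) => o.elim C U)) (j : ℕ) (hj : j < s) :
    (C ⊔ part U j) ⊓ U ⟨j, hj⟩ = ⊥ := by
  have h1 := hind (some ⟨j, hj⟩)
  have h2 : C ⊔ part U j ≤ ⨆ (o : Option (Fin s)) (_ : o ≠ some ⟨j, hj⟩), o.elim C U := by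
    refine sup_le ?_ ?_
    · exact le_iSup₂_of_le (none : Option (Fin s)) (by simp) le_rfl
    · refine iSup₂_le fun i hi => ?_
      refine le_iSup₂_of_le (some i) ?_ le_rfl
      intro h
      have := Option.some.inj h
      rw [this] at hi
      simp at hi
  have h3 := (h1.mono_right h2).eq_bot
  rw [inf_comm]
  exact h3

theorem lemmaA (C : Submodule F V) {s a : ℕ} (U : Fin s → Submodule F V)
    (hUdim : ∀ j, Module.finrank F ↥(U j) = a)
    (hind : iSupIndep (fun o : Option (Fin s) => o.elim C U)) (WC : Submodule F V) (hWC : WC ≤ C) :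
    ∀ j, j ≤ s → Module.finrank F ↥(WC ⊔ part U j) = Module.finrank F ↥WC + j * a := by
  intro j
  induction j with
  | zero =>
    intro _
    rw [part_zero, sup_bot_eq]
    simp
  | succ j ih =>
    intro hj
    have hj' : j < s := hj
    rw [part_succ U j hj', ← sup_assoc]
    have h1 := Submodule.finrank_sup_add_finrank_inf_eq (WC ⊔ part U j) (U ⟨j, hj'⟩)
    have h2 : (WC ⊔ part U j) ⊓ U ⟨j, hj'⟩ = ⊥ := by
      rw [eq_bot_iff, ← disj C U hind j hj']
      exact inf_le_inf_right _ (sup_le_sup_right hWC _)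
    rw [h2, finrank_bot, ih (by omega), hUdim] at h1
    rw [add_zero] at h1
    rw [h1]
    ring

theorem lemmaB (f : V →ₗ[F] V) (C : Submodule F V) (hC : C ≤ C.comap f)
    {s a : ℕ} (U : Fin s → Submodule F V)
    (hUinv : ∀ j, U j ≤ (U j).comap f) (hUdim : ∀ j, Module.finrank F ↥(U j) = a)
    (hUirr : ∀ j, ∀ W : Submodule F V, W ≤ U j → W ≤ W.comap f → W = ⊥ ∨ W = U j)
    (hind : iSupIndep (fun o : Option (Fin s) => o.elim C U)) :
    ∀ j, j ≤ s → ∀ W : Submodule F V, W ≤ C ⊔ part U j → W ≤ W.comap f →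
      ∃ t, Module.finrank F ↥W = Module.finrank F ↥(W ⊓ C) + t * a := by
  intro j
  induction j with
  | zero =>
    intro _ W hW _
    rw [part_zero, sup_bot_eq] at hW
    refine ⟨0, ?_⟩
    rw [inf_eq_left.2 hW]
    simp
  | succ j ih =>
    intro hj W hW hWinv
    have hj' : j < s := hj
    rw [part_succ U j hj', ← sup_assoc] at hW
    set P := C ⊔ part U j with hP
    set Uj := U ⟨j, hj'⟩ with hUj
    have hPinv : P ≤ P.comap f :=
      sup_le (hC.trans (Submodule.comap_mono le_sup_left))
        ((part_inv f U hUinv j).trans (Submodule.comap_mono le_sup_right))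
    have hWPinv : W ⊔ P ≤ (W ⊔ P).comap f :=
      sup_le (hWinv.trans (Submodule.comap_mono le_sup_left))
        (hPinv.trans (Submodule.comap_mono le_sup_right))
    have hW'inv : (W ⊔ P) ⊓ Uj ≤ ((W ⊔ P) ⊓ Uj).comap f := by
      rw [Submodule.comap_inf]
      exact inf_le_inf hWPinv (hUinv _)
    have hW'cases := hUirr ⟨j, hj'⟩ ((W ⊔ P) ⊓ Uj) inf_le_right hW'inv
    have hmod : W ⊔ P = P ⊔ (W ⊔ P) ⊓ Uj := by
      have h := sup_inf_assoc_of_le Uj (le_sup_right : P ≤ W ⊔ P)
      rw [inf_comm Uj] at h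
      rw [← h]
      exact (inf_eq_right.2 (sup_le hW le_sup_left)).symm
    have hdisj : P ⊓ ((W ⊔ P) ⊓ Uj) = ⊥ := by
      rw [eq_bot_iff, ← disj C U hind j hj']
      exact inf_le_inf_left _ inf_le_right
    have h1 := Submodule.finrank_sup_add_finrank_inf_eq W P
    have h2 := Submodule.finrank_sup_add_finrank_inf_eq P ((W ⊔ P) ⊓ Uj)
    rw [hdisj, finrank_bot, add_zero, ← hmod] at h2
    obtain ⟨t, ht⟩ := ih (by omega) (W ⊓ P) inf_le_right
      (by rw [Submodule.comap_inf]; exact inf_le_inf hWinv hPinv)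
    have h3 : W ⊓ P ⊓ C = W ⊓ C := by
      rw [inf_assoc, inf_eq_right.2 (le_sup_left : C ≤ P)]
    rw [h3] at ht
    rcases hW'cases with h | h
    · rw [h, finrank_bot] at h2
      exact ⟨t, by omega⟩
    · rw [h, hUdim] at h2
      exact ⟨t + 1, by rw [add_mul, one_mul]; omega⟩

theorem exists_sub (C : Submodule F V) (d : ℕ) (hd : d ≤ Module.finrank F ↥C) :
    ∃ W : Submodule F V, W ≤ C ∧ Module.finrank F ↥W = d := by
  obtain ⟨g, hg⟩ := exists_linearIndependent_of_le_finrank hd
  have hg' : LinearIndependent F (fun i => ((g i : ↥C) : V)) :=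
    hg.map' C.subtype (Submodule.ker_subtype C)
  refine ⟨Submodule.span F (Set.range (fun i => ((g i : ↥C) : V))), ?_, ?_⟩
  · rw [Submodule.span_le]
    rintro _ ⟨i, rfl⟩
    exact (g i).2
  · rw [finrank_span_eq_card hg']
    simp

/-- Which dimensions of invariant subspaces a semisimple linear map has. Let `V` be a finite-dimensional vector space over a field `F` and `f` an invertible semisimple linear map of `V`. Suppose `V` is the internal direct sum of the fixed space `C_V(f)` (the eigenspace for 1) and subspaces `U_1, …, U_s`, each `f`-invariant of dimension `a ≥ 1` on which `f` acts irreducibly (no `f`-invariant subspaces other than 0 and `U_j`). Let `0 < m < dim V` and `ℓ = m mod a`. Then `f` leaves some `m`-dimensional subspace invariant if and only if `dim C_V(f) ≥ m`, or `a ≤ m` and `dim C_V(f) ≥ ℓ`. -/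
theorem result {F V : Type*} [Field F] [AddCommGroup V] [Module F V]
    [FiniteDimensional F V] (f : V →ₗ[F] V) (hf : Function.Bijective f) (hss : Module.End.IsSemisimple f)
    {s a : ℕ} (ha : 1 ≤ a) (U : Fin s → Submodule F V)
    (hUinv : ∀ j, (U j).map f ≤ U j) (hUdim : ∀ j, Module.finrank F ↥(U j) = a)
    (hUirr : ∀ j, ∀ W : Submodule F V, W ≤ U j → W.map f ≤ W → W = ⊥ ∨ W = U j)
    (hdec : DirectSum.IsInternal (fun o : Option (Fin s) => o.elim (Module.End.eigenspace f 1) U))
    (m : ℕ) (hm : 0 < m) (hmV : m < Module.finrank F V) :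
    (∃ W : Submodule F V, Module.finrank F ↥W = m ∧ W.map f ≤ W) ↔
    (m ≤ Module.finrank F ↥(Module.End.eigenspace f 1) ∨
      (a ≤ m ∧ m % a ≤ Module.finrank F ↥(Module.End.eigenspace f 1))) := by
  set C := Module.End.eigenspace f 1 with hCdef
  have hind := hdec.submodule_iSupIndep
  have htop := hdec.submodule_iSup_eq_top
  have htop' : C ⊔ part U s = ⊤ := by
    rw [part_full]
    rw [iSup_option] at htop
    exact htop
  have hCfix : ∀ x ∈ C, f x = x := by
    intro x hx
    have := Module.End.mem_eigenspace_iff.1 hx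
    simpa using this
  have hC : C ≤ C.comap f := by
    intro x hx
    rw [Submodule.mem_comap, hCfix x hx]
    exact hx
  have hUinv' : ∀ j, U j ≤ (U j).comap f := fun j => Submodule.map_le_iff_le_comap.1 (hUinv j)
  have hUirr' : ∀ j, ∀ W : Submodule F V, W ≤ U j → W ≤ W.comap f → W = ⊥ ∨ W = U j :=
    fun j W h1 h2 => hUirr j W h1 (Submodule.map_le_iff_le_comap.2 h2)
  have hdimV : Module.finrank F V = Module.finrank F ↥C + s * a := by
    have := lemmaA C U hUdim hind C le_rfl s le_rfl
    rw [htop', finrank_top] at this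
    exact this
  constructor
  · rintro ⟨W, hWdim, hWinv⟩
    obtain ⟨t, ht⟩ := lemmaB f C hC U hUinv' hUdim hUirr' hind s le_rfl W
      (by rw [htop']; exact le_top) (Submodule.map_le_iff_le_comap.1 hWinv)
    have hle : Module.finrank F ↥(W ⊓ C) ≤ Module.finrank F ↥C :=
      Submodule.finrank_mono inf_le_right
    rw [hWdim] at ht
    rcases Nat.eq_zero_or_pos t with h0 | hpos
    · left
      rw [h0] at ht
      omega
    · right
      constructor
      · have : a ≤ t * a := Nat.le_mul_of_pos_left a hpos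
        omega
      · rw [ht, Nat.add_mul_mod_self_right]
        exact (Nat.mod_le _ _).trans hle
  · intro h
    have key : ∃ q d, q ≤ s ∧ d ≤ Module.finrank F ↥C ∧ d + q * a = m := by
      rcases h with h | ⟨h1, h2⟩
      · exact ⟨0, m, Nat.zero_le _, h, by simp⟩
      · by_cases hq : m / a ≤ s
        · exact ⟨m / a, m % a, hq, h2, by rw [add_comm]; exact Nat.div_add_mod' m a⟩
        · have h3 : s * a ≤ m / a * a := Nat.mul_le_mul_right a (by omega)
          have h4 : m / a * a ≤ m := Nat.div_mul_le_self m a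
          exact ⟨s, m - s * a, le_rfl, by omega, by omega⟩
    obtain ⟨q, d, hq, hd, hqd⟩ := key
    obtain ⟨WC, hWC, hWCdim⟩ := exists_sub C d hd
    refine ⟨WC ⊔ part U q, ?_, ?_⟩
    · rw [lemmaA C U hUdim hind WC hWC q hq, hWCdim, hqd]
    · rw [Submodule.map_le_iff_le_comap]
      refine sup_le ?_ ((part_inv f U hUinv' q).trans (Submodule.comap_mono le_sup_right))
      intro x hx
      rw [Submodule.mem_comap, hCfix x (hWC hx)]
      exact Submodule.mem_sup_left hx

end Cfsg.Agent.S5952
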