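import Cfsg.Statements.S5957

set_option autoImplicit false
open scoped MatrixGroups
open Cfsg

namespace Cfsg.Agent.S5957

section LA

variable {F V : Type*} [Field F] [AddCommGroup V] [Module F V] [FiniteDimensional F V]

/-- a maximal subspace `W` with `W ∩ T W = 0` -/
theorem exists_max_W (T : V →ₗ[F] V) :
    ∃ W : Submodule F V, Disjoint W (W.map T) ∧
      ∀ v, v ∉ W → ¬ Disjoint (W ⊔ Submodule.span F {v}) ((W ⊔ Submodule.span F {v}).map T) := by
  classical
  let S : Set ℕ := {d | ∃ W : Submodule F V, Module.finrank F W = d ∧ Disjoint W (W.map T)}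
  have hne : S.Nonempty := ⟨0, ⊥, by simp, by simp⟩
  have hbdd : BddAbove S := by
    refine ⟨Module.finrank F V, ?_⟩
    rintro d ⟨W, rfl, -⟩
    exact Submodule.finrank_le W
  obtain ⟨W, hWd, hW⟩ := Nat.sSup_mem hne hbdd
  refine ⟨W, hW, fun v hv hdis => ?_⟩
  have hlt : W < W ⊔ Submodule.span F {v} := by
    refine lt_of_le_of_ne le_sup_left fun h => hv ?_
    rw [h]
    exact Submodule.mem_sup_right (Submodule.mem_span_singleton_self v)
  have h1 := Submodule.finrank_lt_finrank_of_lt hlt
  have h2 : Module.finrank F ↥(W ⊔ Submodule.span F {v}) ≤ sSup S :=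
    le_csSup hbdd ⟨_, rfl, hdis⟩
  omega

theorem exists_monomial_basis (T : V →ₗ[F] V) (z : F) (hz : z ≠ 0) (hT : ∀ v, T (T v) = z • v)
    (hsq : (2 : F) = 0 → ∃ γ : F, γ * γ = z) :
    ∃ (b : Set V) (π : V → V), LinearIndepOn F id b ∧ Submodule.span F b = ⊤ ∧
      (∀ x ∈ b, π x ∈ b) ∧ (∀ x ∈ b, π (π x) = x) ∧
      (∀ x ∈ b, ∃ μ : F, μ ≠ 0 ∧ T x = μ • π x) := by
  classical
  have hinj : Function.Injective T := by
    intro u v h
    have := congrArg T h
    rw [hT, hT] at this
    exact smul_right_injective V hz this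
  obtain ⟨W, hW, hmax⟩ := exists_max_W T
  rw [Submodule.disjoint_def] at hW
  set U : Submodule F V := W ⊔ W.map T with hU
  have hWU : W ≤ U := le_sup_left
  have hTWU : ∀ w ∈ W, T w ∈ U := fun w hw =>
    Submodule.mem_sup_right (Submodule.mem_map_of_mem hw)
  have hUdec : ∀ u ∈ U, ∃ w₁ ∈ W, ∃ w₂ ∈ W, u = w₁ + T w₂ := by
    intro u hu
    obtain ⟨w₁, hw₁, y, hy, rfl⟩ := Submodule.mem_sup.mp hu
    obtain ⟨w₂, hw₂, rfl⟩ := Submodule.mem_map.mp hy
    exact ⟨w₁, hw₁, w₂, hw₂, rfl⟩
  have hU_inv : ∀ u ∈ U, T u ∈ U := by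
    intro u hu
    obtain ⟨w₁, hw₁, w₂, hw₂, rfl⟩ := hUdec u hu
    rw [map_add, hT]
    exact U.add_mem (hTWU w₁ hw₁) (hWU (W.smul_mem z hw₂))
  -- the key consequence of maximality
  have key : ∀ v, ∃ α β : F, (α ≠ 0 ∨ β ≠ 0) ∧ α • v + β • T v ∈ U := by
    intro v
    by_cases hv : v ∈ W
    · exact ⟨1, 0, Or.inl one_ne_zero, by simpa using hWU hv⟩
    · have h := hmax v hv
      rw [Submodule.disjoint_def] at h
      push Not at h
      obtain ⟨y, hy1, hy2, hy0⟩ := h
      obtain ⟨w₁, hw₁, y', hy', rfl⟩ := Submodule.mem_sup.mp hy1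
      obtain ⟨α, rfl⟩ := Submodule.mem_span_singleton.mp hy'
      obtain ⟨y₂, hy₂, hy₂e⟩ := Submodule.mem_map.mp hy2
      obtain ⟨w₂, hw₂, y'', hy'', rfl⟩ := Submodule.mem_sup.mp hy₂
      obtain ⟨β, rfl⟩ := Submodule.mem_span_singleton.mp hy''
      rw [map_add, map_smul] at hy₂e
      refine ⟨α, -β, ?_, ?_⟩
      · by_contra hcon
        push Not at hcon
        obtain ⟨hα, hβ⟩ := hcon
        have hβ' : β = 0 := by simpa using hβ
        subst hα
        subst hβ'
        simp only [zero_smul, add_zero] at hy₂e hy0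
        exact hy0 (hW w₁ hw₁ (hy₂e ▸ Submodule.mem_map_of_mem hw₂))
      · have : α • v + -β • T v = T w₂ - w₁ := by
          have h' : T w₂ = w₁ + α • v - β • T v := eq_sub_of_add_eq hy₂e
          rw [neg_smul, h']
          abel
        rw [this]
        exact U.sub_mem (hTWU w₂ hw₂) (hWU hw₁)
  -- eigenvectors
  set E : Set V := {e | ∃ μ : F, T e = μ • e} with hE
  have hspan : U ⊔ Submodule.span F E = ⊤ := by
    rw [eq_top_iff]
    intro v _
    obtain ⟨α, β, hne, hmem⟩ := key v
    by_cases hβ : β = 0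
    · subst hβ
      have hα : α ≠ 0 := by tauto
      have : v = α⁻¹ • (α • v + (0 : F) • T v) := by
        rw [zero_smul, add_zero, smul_smul, inv_mul_cancel₀ hα, one_smul]
      rw [this]
      exact Submodule.mem_sup_left (U.smul_mem _ hmem)
    · set γ : F := -α / β with hγ
      set u : V := T v - γ • v with hu
      have huU : u ∈ U := by
        have : u = β⁻¹ • (α • v + β • T v) := by
          rw [hu, hγ, smul_add, smul_smul, smul_smul, inv_mul_cancel₀ hβ, one_smul]
          have : -α / β = -(β⁻¹ * α) := by field_simp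
          rw [this, neg_smul]
          abel
        rw [this]
        exact U.smul_mem _ hmem
      have hTu : T u = z • v - γ • T v := by
        rw [hu, map_sub, hT, map_smul]
      have h1 : (z - γ * γ) • v = T u + γ • u := by
        rw [hTu, hu, smul_sub, sub_smul, mul_smul]
        abel
      by_cases hγz : γ * γ = z
      · have hγ0 : γ ≠ 0 := by
          rintro h0
          rw [h0, mul_zero] at hγz
          exact hz hγz.symm
        by_cases h2 : (2 : F) = 0
        · -- characteristic 2
          have hneg : ∀ w : V, -w = w := by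
            intro w
            have : (2 : F) • w = 0 := by rw [h2, zero_smul]
            rw [two_smul] at this
            exact neg_eq_of_add_eq_zero_left this
          have h3 : T u + γ • u = 0 := by
            rw [← h1, hγz, sub_self, zero_smul]
          obtain ⟨w₁, hw₁, w₂, hw₂, hue⟩ := hUdec u huU
          have h4 : T (w₁ + γ • w₂) = -(γ • w₁ + z • w₂) := by
            have := h3
            rw [hue, map_add, hT, smul_add] at this
            rw [map_add, map_smul, eq_neg_iff_add_eq_zero]
            rw [← this]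
            abel
          have h5 : γ • w₁ + z • w₂ = 0 := by
            have hm : -(γ • w₁ + z • w₂) ∈ W :=
              W.neg_mem (W.add_mem (W.smul_mem _ hw₁) (W.smul_mem _ hw₂))
            have := hW _ hm (h4 ▸ Submodule.mem_map_of_mem
              (W.add_mem hw₁ (W.smul_mem _ hw₂)))
            exact neg_eq_zero.mp this
          have h6 : w₁ = γ • w₂ := by
            have : γ • (w₁ + γ • w₂) = 0 := by
              rw [smul_add, smul_smul, hγz]; exact h5
            have := (smul_eq_zero.mp this).resolve_left hγ0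
            have h7 : w₁ = -(γ • w₂) := eq_neg_of_add_eq_zero_left this
            rw [h7, hneg]
          have hTv : T v = u + γ • v := by rw [hu]; abel
          have he : v - w₂ ∈ E := by
            refine ⟨γ, ?_⟩
            rw [map_sub, hTv, hue, h6, smul_sub]
            have := hneg (γ • w₂)
            have h8 : γ • w₂ + γ • w₂ = 0 := by
              nth_rewrite 1 [← this]; exact neg_add_cancel _
            have h9 : γ • w₂ + T w₂ + γ • v - T w₂ = γ • v + γ • w₂ := by abel
            rw [h9, sub_eq_add_neg, hneg]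
          have : v = w₂ + (v - w₂) := by abel
          rw [this]
          exact Submodule.add_mem _ (Submodule.mem_sup_left (hWU hw₂))
            (Submodule.mem_sup_right (Submodule.subset_span he))
        · -- characteristic not 2
          have hp : T v + γ • v ∈ E := by
            refine ⟨γ, ?_⟩
            rw [map_add, hT, map_smul, smul_add, smul_smul, hγz]
            abel
          have hm : T v - γ • v ∈ E := by
            refine ⟨-γ, ?_⟩
            rw [map_sub, hT, map_smul, smul_sub, smul_smul, neg_mul, hγz, neg_smul, neg_smul]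
            abel
          have : v = (2 * γ)⁻¹ • ((T v + γ • v) - (T v - γ • v)) := by
            have h10 : (T v + γ • v) - (T v - γ • v) = (2 * γ) • v := by
              rw [mul_smul, two_smul]; abel
            rw [h10, smul_smul, inv_mul_cancel₀ (mul_ne_zero h2 hγ0), one_smul]
          rw [this]
          exact Submodule.mem_sup_right (Submodule.smul_mem _ _
            (Submodule.sub_mem _ (Submodule.subset_span hp) (Submodule.subset_span hm)))
      · have hne' : z - γ * γ ≠ 0 := sub_ne_zero.mpr (Ne.symm hγz)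
        have : v = (z - γ * γ)⁻¹ • (T u + γ • u) := by
          rw [← h1, smul_smul, inv_mul_cancel₀ hne', one_smul]
        rw [this]
        exact Submodule.mem_sup_left (U.smul_mem _ (U.add_mem (hU_inv u huU) (U.smul_mem _ huU)))
  -- a basis of W
  obtain ⟨s₁, hs₁W, hs₁span, hs₁li⟩ := exists_linearIndependent F (W : Set V)
  have hs₁li' : LinearIndepOn F id s₁ := hs₁li
  have hs₁span' : Submodule.span F s₁ = W := by rw [hs₁span, Submodule.span_eq]
  set s₂ : Set V := T '' s₁ with hs₂
  have hs₂li : LinearIndepOn F id s₂ :=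
    hs₁li'.image (by rw [LinearMap.ker_eq_bot.mpr hinj]; exact disjoint_bot_right)
  have hs₂span : Submodule.span F s₂ = W.map T := by
    rw [hs₂, ← Submodule.map_span, hs₁span']
  have hsli : LinearIndepOn F id (s₁ ∪ s₂) :=
    hs₁li'.id_union hs₂li (by rw [hs₁span', hs₂span, Submodule.disjoint_def]; exact hW)
  have hsspan : Submodule.span F (s₁ ∪ s₂) = U := by
    rw [Submodule.span_union, hs₁span', hs₂span]
  obtain ⟨b, hbt, hsb, htb, hbli⟩ := exists_linearIndepOn_id_extension hsli
    (Set.subset_union_left : s₁ ∪ s₂ ⊆ (s₁ ∪ s₂) ∪ E)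
  have hbspan : Submodule.span F b = ⊤ := by
    rw [eq_top_iff, ← hspan]
    refine sup_le ?_ ?_
    · rw [← hsspan]; exact Submodule.span_le.mpr (fun x hx => htb (Or.inl hx))
    · exact Submodule.span_le.mpr (fun x hx => htb (Or.inr hx))
  have h0b : ∀ x ∈ b, x ≠ 0 := fun x hx => hbli.ne_zero hx
  have hs₁₂ : ∀ x ∈ s₁, x ∉ s₂ := by
    intro x hx1 hx2
    have hxW : x ∈ W := hs₁W hx1
    have hxTW : x ∈ W.map T := by
      obtain ⟨w, hw, rfl⟩ := hx2
      exact Submodule.mem_map_of_mem (hs₁W hw)
    exact h0b x (hsb (Or.inl hx1)) (hW x hxW hxTW)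
  let π : V → V := fun x => if x ∈ s₁ then T x else if x ∈ s₂ then z⁻¹ • T x else x
  refine ⟨b, π, hbli, hbspan, ?_, ?_, ?_⟩
  · intro x hx
    by_cases h1 : x ∈ s₁
    · simp only [π, if_pos h1]; exact hsb (Or.inr ⟨x, h1, rfl⟩)
    · by_cases h2 : x ∈ s₂
      · simp only [π, if_neg h1, if_pos h2]
        obtain ⟨w, hw, rfl⟩ := h2
        rw [hT, smul_smul, inv_mul_cancel₀ hz, one_smul]
        exact hsb (Or.inl hw)
      · simp only [π, if_neg h1, if_neg h2]; exact hx
  · intro x hx
    by_cases h1 : x ∈ s₁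
    · have h2 : T x ∈ s₂ := ⟨x, h1, rfl⟩
      have h3 : T x ∉ s₁ := fun h => hs₁₂ _ h h2
      simp only [π, if_pos h1, if_neg h3, if_pos h2]
      rw [hT, smul_smul, inv_mul_cancel₀ hz, one_smul]
    · by_cases h2 : x ∈ s₂
      · obtain ⟨w, hw, rfl⟩ := h2
        have h2' : T w ∈ s₂ := ⟨w, hw, rfl⟩
        have : π (T w) = w := by
          simp only [π, if_neg h1, if_pos h2']
          rw [hT, smul_smul, inv_mul_cancel₀ hz, one_smul]
        rw [this]; simp only [π, if_pos hw]
      · simp only [π, if_neg h1, if_neg h2]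
  · intro x hx
    by_cases h1 : x ∈ s₁
    · exact ⟨1, one_ne_zero, by simp only [π, if_pos h1, one_smul]⟩
    · by_cases h2 : x ∈ s₂
      · refine ⟨z, hz, ?_⟩
        simp only [π, if_neg h1, if_pos h2]
        rw [smul_smul, mul_inv_cancel₀ hz, one_smul]
      · have hxE : x ∈ E := by
          rcases hbt hx with h | h
          · rcases h with h | h
            · exact absurd h h1
            · exact absurd h h2
          · exact h
        obtain ⟨μ, hμ⟩ := hxE
        refine ⟨μ, ?_, by simp only [π, if_neg h1, if_neg h2]; exact hμ⟩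
        rintro rfl
        rw [zero_smul] at hμ
        exact h0b x hx (hinj (by rw [hμ, map_zero]))

end LA

section CL

variable {I : Type*} [DecidableEq I]

theorem exists_invariant_subset (π : I → I) (hπ : ∀ i, π (π i) = i) :
    ∀ (m : ℕ) (S : Finset I), (∀ i ∈ S, π i ∈ S) → m ≤ S.card →
      (Even m ∨ ∃ i ∈ S, π i = i) → ∃ B ⊆ S, (∀ i ∈ B, π i ∈ B) ∧ B.card = m := by
  intro m
  induction m using Nat.twoStepInduction with
  | zero =>
    intro S _ _ _
    exact ⟨∅, Finset.empty_subset _, by simp, rfl⟩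
  | one =>
    intro S _ _ h
    rcases h with h | ⟨i, hi, hfix⟩
    · exact absurd h (by decide)
    · refine ⟨{i}, Finset.singleton_subset_iff.mpr hi, ?_, Finset.card_singleton i⟩
      intro j hj
      rw [Finset.mem_singleton] at hj ⊢
      rw [hj, hfix]
  | more m ih _ =>
    intro S hS hm h
    have h' : Even m ∨ ∃ i ∈ S, π i = i := by
      rcases h with h | h
      · left
        rcases h with ⟨k, hk⟩
        exact ⟨k - 1, by omega⟩
      · exact Or.inr h
    obtain ⟨B', hB'S, hB'inv, hB'card⟩ := ih S hS (by omega) h'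
    have hcard : 1 < (S \ B').card := by
      rw [Finset.card_sdiff_of_subset hB'S]; omega
    by_cases hex : ∃ u ∈ S \ B', π u ≠ u
    · obtain ⟨u, hu, hne⟩ := hex
      rw [Finset.mem_sdiff] at hu
      have hπu : π u ∉ B' := fun h => hu.2 (by have := hB'inv _ h; rwa [hπ] at this)
      refine ⟨insert u (insert (π u) B'), ?_, ?_, ?_⟩
      · intro i hi
        rw [Finset.mem_insert, Finset.mem_insert] at hi
        rcases hi with rfl | rfl | hi
        · exact hu.1
        · exact hS _ hu.1
        · exact hB'S hi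
      · intro i hi
        rw [Finset.mem_insert, Finset.mem_insert] at hi ⊢
        rcases hi with rfl | rfl | hi
        · exact Or.inr (Or.inl rfl)
        · exact Or.inl (hπ _)
        · exact Or.inr (Or.inr (hB'inv _ hi))
      · rw [Finset.card_insert_of_notMem, Finset.card_insert_of_notMem hπu, hB'card]
        rw [Finset.mem_insert]
        rintro (h | h)
        · exact hne h.symm
        · exact hu.2 h
    · push Not at hex
      obtain ⟨u, hu, u', hu', hne⟩ := Finset.one_lt_card.mp hcard
      have hfu := hex u hu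
      have hfu' := hex u' hu'
      rw [Finset.mem_sdiff] at hu hu'
      refine ⟨insert u (insert u' B'), ?_, ?_, ?_⟩
      · intro i hi
        rw [Finset.mem_insert, Finset.mem_insert] at hi
        rcases hi with rfl | rfl | hi
        · exact hu.1
        · exact hu'.1
        · exact hB'S hi
      · intro i hi
        rw [Finset.mem_insert, Finset.mem_insert] at hi ⊢
        rcases hi with rfl | rfl | hi
        · exact Or.inl hfu
        · exact Or.inr (Or.inl hfu')
        · exact Or.inr (Or.inr (hB'inv _ hi))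
      · rw [Finset.card_insert_of_notMem, Finset.card_insert_of_notMem hu'.2, hB'card]
        rw [Finset.mem_insert]
        rintro (h | h)
        · exact hne h
        · exact hu.2 h

theorem exists_transversal_subset (π : I → I) (hπ : ∀ i, π (π i) = i) :
    ∀ (m : ℕ) (S : Finset I), (∀ i ∈ S, π i ∈ S) → (∀ i ∈ S, π i ≠ i) → 2 * m ≤ S.card →
      ∃ B ⊆ S, B.card = m ∧ Disjoint B (B.image π) := by
  intro m
  induction m with
  | zero =>
    intro S _ _ _
    exact ⟨∅, Finset.empty_subset _, rfl, by simp⟩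
  | succ m ih =>
    intro S hS hfix hm
    obtain ⟨B', hB'S, hB'card, hB'dis⟩ := ih S hS hfix (by omega)
    have hlt : (B' ∪ B'.image π).card < S.card := by
      have h1 := Finset.card_union_le B' (B'.image π)
      have h2 := Finset.card_image_le (s := B') (f := π)
      omega
    obtain ⟨u, huS, hu⟩ := Finset.exists_mem_notMem_of_card_lt_card hlt
    rw [Finset.mem_union, not_or] at hu
    have hπu : π u ∉ B' := by
      intro h
      apply hu.2
      rw [Finset.mem_image]
      exact ⟨π u, h, hπ u⟩
    refine ⟨insert u B', ?_, ?_, ?_⟩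
    · intro i hi
      rw [Finset.mem_insert] at hi
      rcases hi with rfl | hi
      · exact huS
      · exact hB'S hi
    · rw [Finset.card_insert_of_notMem hu.1, hB'card]
    · rw [Finset.disjoint_left]
      intro i hi hi'
      rw [Finset.mem_image] at hi'
      obtain ⟨j, hj, hji⟩ := hi'
      rw [Finset.mem_insert] at hi hj
      rcases hi with rfl | hi
      · rcases hj with rfl | hj
        · exact hfix _ huS hji
        · exact hu.2 (Finset.mem_image.mpr ⟨j, hj, hji⟩)
      · rcases hj with rfl | hj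
        · exact hπu (hji ▸ hi)
        · exact Finset.disjoint_left.mp hB'dis hi (Finset.mem_image.mpr ⟨j, hj, hji⟩)

theorem exists_blocks (π : I → I) (hπ : ∀ i, π (π i) = i) (a : ℕ) :
    ∀ (t : ℕ) (S : Finset I), (∀ i ∈ S, π i ∈ S) → S.card = a * t →
      ∃ (c : I → ℕ) (σ : ℕ → ℕ), (∀ i ∈ S, c i < t) ∧
        (∀ j < t, (S.filter (fun i => c i = j)).card = a) ∧
        (∀ j < t, σ j < t) ∧ (∀ j < t, σ (σ j) = j) ∧ ∀ i ∈ S, c (π i) = σ (c i) := by
  intro t
  induction t using Nat.strong_induction_on with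
  | _ t ih =>
  intro S hS hcard
  rcases Nat.eq_zero_or_pos t with rfl | htpos
  · refine ⟨fun _ => 0, id, ?_, ?_, ?_, ?_, ?_⟩
    · intro i hi
      rw [mul_zero, Finset.card_eq_zero] at hcard
      rw [hcard] at hi
      exact absurd hi (Finset.notMem_empty i)
    · intro j hj; omega
    · intro j hj; omega
    · intro j hj; omega
    · intro i hi
      rw [mul_zero, Finset.card_eq_zero] at hcard
      rw [hcard] at hi
      exact absurd hi (Finset.notMem_empty i)
  -- the first route: an invariant block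
  have route1 : ∀ B ⊆ S, (∀ i ∈ B, π i ∈ B) → B.card = a →
      ∃ (c : I → ℕ) (σ : ℕ → ℕ), (∀ i ∈ S, c i < t) ∧
        (∀ j < t, (S.filter (fun i => c i = j)).card = a) ∧
        (∀ j < t, σ j < t) ∧ (∀ j < t, σ (σ j) = j) ∧ ∀ i ∈ S, c (π i) = σ (c i) := by
    intro B hBS hBinv hBcard
    obtain ⟨t', rfl⟩ : ∃ t', t = t' + 1 := ⟨t - 1, by omega⟩
    have hS'inv : ∀ i ∈ S \ B, π i ∈ S \ B := by
      intro i hi
      rw [Finset.mem_sdiff] at hi ⊢
      exact ⟨hS i hi.1, fun h => hi.2 (by have := hBinv _ h; rwa [hπ] at this)⟩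
    have hS'card : (S \ B).card = a * t' := by
      rw [Finset.card_sdiff_of_subset hBS, hcard, hBcard, mul_add, mul_one]; omega
    obtain ⟨c', σ', h1, h2, h3, h4, h5⟩ := ih t' (by omega) (S \ B) hS'inv hS'card
    refine ⟨fun i => if i ∈ B then t' else c' i, fun j => if j < t' then σ' j else j,
      ?_, ?_, ?_, ?_, ?_⟩
    · intro i hi
      by_cases hiB : i ∈ B
      · simp only [if_pos hiB]; omega
      · simp only [if_neg hiB]
        have := h1 i (Finset.mem_sdiff.mpr ⟨hi, hiB⟩)
        omega
    · intro j hj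
      by_cases hjt : j < t'
      · rw [← h2 j hjt]
        congr 1
        ext i
        simp only [Finset.mem_filter, Finset.mem_sdiff]
        constructor
        · rintro ⟨hiS, hc⟩
          by_cases hiB : i ∈ B
          · rw [if_pos hiB] at hc; omega
          · rw [if_neg hiB] at hc; exact ⟨⟨hiS, hiB⟩, hc⟩
        · rintro ⟨⟨hiS, hiB⟩, hc⟩
          exact ⟨hiS, by rw [if_neg hiB]; exact hc⟩
      · have hjt' : j = t' := by omega
        subst hjt'
        rw [← hBcard]
        congr 1
        ext i
        simp only [Finset.mem_filter]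
        constructor
        · rintro ⟨hiS, hc⟩
          by_contra hiB
          rw [if_neg hiB] at hc
          have := h1 i (Finset.mem_sdiff.mpr ⟨hiS, hiB⟩)
          omega
        · intro hiB
          exact ⟨hBS hiB, by rw [if_pos hiB]⟩
    · intro j hj
      by_cases hjt : j < t'
      · simp only [if_pos hjt]
        have := h3 j hjt
        omega
      · simp only [if_neg hjt]; exact hj
    · intro j hj
      by_cases hjt : j < t'
      · simp only [if_pos hjt, if_pos (h3 j hjt)]
        exact h4 j hjt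
      · simp only [if_neg hjt]
    · intro i hi
      by_cases hiB : i ∈ B
      · simp only [if_pos hiB, if_pos (hBinv i hiB), lt_irrefl, if_false]
      · have hi' : i ∈ S \ B := Finset.mem_sdiff.mpr ⟨hi, hiB⟩
        have hπi := hS'inv i hi'
        rw [Finset.mem_sdiff] at hπi
        simp only [if_neg hiB, if_neg hπi.2, if_pos (h1 i hi')]
        exact h5 i hi'
  by_cases ht1 : t = 1
  · subst ht1
    exact route1 S (Finset.Subset.refl S) hS (by rw [hcard, mul_one])
  by_cases hcase : Even a ∨ ∃ i ∈ S, π i = i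
  · obtain ⟨B, hBS, hBinv, hBcard⟩ := exists_invariant_subset π hπ a S hS
      (by rw [hcard]; exact Nat.le_mul_of_pos_right a htpos) hcase
    exact route1 B hBS hBinv hBcard
  -- the second route: two swapped blocks
  push Not at hcase
  obtain ⟨t'', rfl⟩ : ∃ t'', t = t'' + 2 := ⟨t - 2, by omega⟩
  obtain ⟨B, hBS, hBcard, hBdis⟩ := exists_transversal_subset π hπ a S hS hcase.2
    (by rw [hcard]; nlinarith)
  have hπinj : Function.Injective π := fun u v h => by
    have := congrArg π h
    rwa [hπ, hπ] at this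
  set B₂ : Finset I := B.image π with hB₂
  have hB₂S : B₂ ⊆ S := by
    intro i hi
    rw [hB₂, Finset.mem_image] at hi
    obtain ⟨j, hj, rfl⟩ := hi
    exact hS j (hBS hj)
  have hB₂card : B₂.card = a := by
    rw [hB₂, Finset.card_image_of_injective _ hπinj, hBcard]
  have hB₂mem : ∀ i, i ∈ B₂ ↔ π i ∈ B := by
    intro i
    rw [hB₂, Finset.mem_image]
    constructor
    · rintro ⟨j, hj, rfl⟩
      rwa [hπ]
    · intro h
      exact ⟨π i, h, hπ i⟩
  have hBB₂ : ∀ i ∈ B, i ∉ B₂ := fun i hi hi' => Finset.disjoint_left.mp hBdis hi hi'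
  have hS'inv : ∀ i ∈ S \ (B ∪ B₂), π i ∈ S \ (B ∪ B₂) := by
    intro i hi
    rw [Finset.mem_sdiff, Finset.mem_union, not_or] at hi ⊢
    refine ⟨hS i hi.1, fun h => hi.2.2 ((hB₂mem i).mpr h), fun h => hi.2.1 ?_⟩
    have := (hB₂mem (π i)).mp h
    rwa [hπ] at this
  have hS'card : (S \ (B ∪ B₂)).card = a * t'' := by
    rw [Finset.card_sdiff_of_subset (Finset.union_subset hBS hB₂S), hcard,
      Finset.card_union_of_disjoint hBdis, hBcard, hB₂card, mul_add]
    omega
  obtain ⟨c', σ', h1, h2, h3, h4, h5⟩ := ih t'' (by omega) (S \ (B ∪ B₂)) hS'inv hS'card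
  refine ⟨fun i => if i ∈ B then t'' else if i ∈ B₂ then t'' + 1 else c' i,
    fun j => if j < t'' then σ' j else if j = t'' then t'' + 1 else t'', ?_, ?_, ?_, ?_, ?_⟩
  · intro i hi
    by_cases hiB : i ∈ B
    · simp only [if_pos hiB]; omega
    · by_cases hiB₂ : i ∈ B₂
      · simp only [if_neg hiB, if_pos hiB₂]; omega
      · simp only [if_neg hiB, if_neg hiB₂]
        have := h1 i (Finset.mem_sdiff.mpr ⟨hi, by
          rw [Finset.mem_union, not_or]; exact ⟨hiB, hiB₂⟩⟩)
        omega
  · intro j hj
    by_cases hjt : j < t''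
    · rw [← h2 j hjt]
      congr 1
      ext i
      simp only [Finset.mem_filter, Finset.mem_sdiff, Finset.mem_union, not_or]
      constructor
      · rintro ⟨hiS, hc⟩
        by_cases hiB : i ∈ B
        · rw [if_pos hiB] at hc; omega
        · by_cases hiB₂ : i ∈ B₂
          · rw [if_neg hiB, if_pos hiB₂] at hc; omega
          · rw [if_neg hiB, if_neg hiB₂] at hc; exact ⟨⟨hiS, hiB, hiB₂⟩, hc⟩
      · rintro ⟨⟨hiS, hiB, hiB₂⟩, hc⟩
        exact ⟨hiS, by rw [if_neg hiB, if_neg hiB₂]; exact hc⟩
    · by_cases hjt' : j = t''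
      · subst hjt'
        rw [← hBcard]
        congr 1
        ext i
        simp only [Finset.mem_filter]
        constructor
        · rintro ⟨hiS, hc⟩
          by_contra hiB
          by_cases hiB₂ : i ∈ B₂
          · rw [if_neg hiB, if_pos hiB₂] at hc; omega
          · rw [if_neg hiB, if_neg hiB₂] at hc
            have := h1 i (Finset.mem_sdiff.mpr ⟨hiS, by
              rw [Finset.mem_union, not_or]; exact ⟨hiB, hiB₂⟩⟩)
            omega
        · intro hiB
          exact ⟨hBS hiB, by rw [if_pos hiB]⟩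
      · have hjt2 : j = t'' + 1 := by omega
        subst hjt2
        rw [← hB₂card]
        congr 1
        ext i
        simp only [Finset.mem_filter]
        constructor
        · rintro ⟨hiS, hc⟩
          by_cases hiB : i ∈ B
          · rw [if_pos hiB] at hc; omega
          · by_contra hiB₂
            rw [if_neg hiB, if_neg hiB₂] at hc
            have := h1 i (Finset.mem_sdiff.mpr ⟨hiS, by
              rw [Finset.mem_union, not_or]; exact ⟨hiB, hiB₂⟩⟩)
            omega
        · intro hiB₂
          have hiB : i ∉ B := fun h => hBB₂ i h hiB₂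
          exact ⟨hB₂S hiB₂, by rw [if_neg hiB, if_pos hiB₂]⟩
  · intro j hj
    by_cases hjt : j < t''
    · simp only [if_pos hjt]
      have := h3 j hjt
      omega
    · by_cases hjt' : j = t''
      · simp only [if_neg hjt, if_pos hjt']; omega
      · simp only [if_neg hjt, if_neg hjt']; omega
  · intro j hj
    by_cases hjt : j < t''
    · simp only [if_pos hjt, if_pos (h3 j hjt)]
      exact h4 j hjt
    · by_cases hjt' : j = t''
      · subst hjt'
        simp
      · have hjt2 : j = t'' + 1 := by omega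
        subst hjt2
        simp
  · intro i hi
    by_cases hiB : i ∈ B
    · have h1' : π i ∈ B₂ := (hB₂mem (π i)).mpr (by rwa [hπ])
      have h2' : π i ∉ B := fun h => hBB₂ _ h h1'
      simp only [if_pos hiB, if_neg h2', if_pos h1']
      simp
    · by_cases hiB₂ : i ∈ B₂
      · have h1' : π i ∈ B := (hB₂mem i).mp hiB₂
        simp only [if_neg hiB, if_pos hiB₂, if_pos h1']
        simp
      · have hi' : i ∈ S \ (B ∪ B₂) := Finset.mem_sdiff.mpr ⟨hi, by
          rw [Finset.mem_union, not_or]; exact ⟨hiB, hiB₂⟩⟩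
        have hπi := hS'inv i hi'
        rw [Finset.mem_sdiff, Finset.mem_union, not_or] at hπi
        simp only [if_neg hiB, if_neg hiB₂, if_neg hπi.2.1, if_neg hπi.2.2, if_pos (h1 i hi')]
        exact h5 i hi'

end CL

section Assembly

variable {F V : Type*} [Field F] [AddCommGroup V] [Module F V] [FiniteDimensional F V]

theorem exists_decomp (T : V →ₗ[F] V) (z : F) (hz : z ≠ 0) (hT : ∀ v, T (T v) = z • v)
    (hsq : (2 : F) = 0 → ∃ γ : F, γ * γ = z) (a t : ℕ)
    (hdim : Module.finrank F V = a * t) :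
    ∃ (D : Fin t → Submodule F V) (σ : Equiv.Perm (Fin t)),
      (∀ j, Module.finrank F (D j) = a) ∧ iSupIndep D ∧ iSup D = ⊤ ∧
      ∀ j, (D j).map T = D (σ j) := by
  classical
  obtain ⟨b, π, hbli, hbspan, hπb, hππ, hTπ⟩ := exists_monomial_basis T z hz hT hsq
  have hbli' : LinearIndependent F (fun x : b => (x : V)) := hbli
  have : Finite b := hbli'.finite_of_isNoetherian
  have : Fintype b := Fintype.ofFinite b
  let B : Module.Basis b F V := Module.Basis.mk hbli' (by rw [Subtype.range_coe]; exact hbspan.ge)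
  have hcard : Fintype.card b = a * t := by
    rw [← hdim, Module.finrank_eq_card_basis B]
  let π' : b → b := fun i => ⟨π i.1, hπb i.1 i.2⟩
  have hπ' : ∀ i, π' (π' i) = i := fun i => Subtype.ext (hππ i.1 i.2)
  obtain ⟨c, σ, h1, h2, h3, h4, h5⟩ := exists_blocks π' hπ' a t Finset.univ
    (fun i _ => Finset.mem_univ _) (by rw [Finset.card_univ, hcard])
  let D : Fin t → Submodule F V := fun j =>
    Submodule.span F {x | ∃ h : x ∈ b, c ⟨x, h⟩ = j.val}
  let σ' : Equiv.Perm (Fin t) := Function.Involutive.toPerm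
    (fun j => ⟨σ j.val, h3 j.val j.isLt⟩) (fun j => Fin.ext (h4 j.val j.isLt))
  have hDimg : ∀ j : Fin t, {x | ∃ h : x ∈ b, c ⟨x, h⟩ = j.val} =
      (fun x : b => (x : V)) '' {i | c i = j.val} := by
    intro j
    ext x
    constructor
    · rintro ⟨h, hc⟩
      exact ⟨⟨x, h⟩, hc, rfl⟩
    · rintro ⟨i, hc, rfl⟩
      exact ⟨i.2, hc⟩
  refine ⟨D, σ', ?_, ?_, ?_, ?_⟩
  · intro j
    have hrange : {x | ∃ h : x ∈ b, c ⟨x, h⟩ = j.val} =
        Set.range (fun i : {i : b // c i = j.val} => ((i : b) : V)) := by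
      ext x
      constructor
      · rintro ⟨h, hc⟩
        exact ⟨⟨⟨x, h⟩, hc⟩, rfl⟩
      · rintro ⟨i, rfl⟩
        exact ⟨i.1.2, i.2⟩
    have hli : LinearIndependent F (fun i : {i : b // c i = j.val} => ((i : b) : V)) :=
      hbli'.comp _ Subtype.val_injective
    show Module.finrank F (Submodule.span F {x | ∃ h : x ∈ b, c ⟨x, h⟩ = j.val}) = a
    rw [hrange, finrank_span_eq_card hli, Fintype.card_subtype]
    exact h2 j.val j.isLt
  · intro j
    have hle : (⨆ k, ⨆ (_ : k ≠ j), D k) ≤
        Submodule.span F ((fun x : b => (x : V)) '' {i | c i ≠ j.val}) := by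
      refine iSup₂_le fun k hk => Submodule.span_mono ?_
      rintro x ⟨h, hc⟩
      refine ⟨⟨x, h⟩, ?_, rfl⟩
      show c ⟨x, h⟩ ≠ j.val
      rw [hc]
      exact fun h' => hk (Fin.ext h')
    refine Disjoint.mono_right hle ?_
    show Disjoint (Submodule.span F {x | ∃ h : x ∈ b, c ⟨x, h⟩ = j.val}) _
    rw [hDimg]
    refine hbli'.disjoint_span_image ?_
    rw [Set.disjoint_left]
    intro i hi hi'
    exact hi' hi
  · rw [eq_top_iff, ← hbspan]
    refine Submodule.span_le.mpr fun x hx => ?_
    have hlt := h1 ⟨x, hx⟩ (Finset.mem_univ _)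
    have : x ∈ D ⟨c ⟨x, hx⟩, hlt⟩ := Submodule.subset_span ⟨hx, rfl⟩
    exact (le_iSup D _) this
  · intro j
    apply le_antisymm
    · show Submodule.map T (Submodule.span F {x | ∃ h : x ∈ b, c ⟨x, h⟩ = j.val}) ≤ _
      rw [Submodule.map_span]
      refine Submodule.span_le.mpr ?_
      rintro _ ⟨x, ⟨hx, hc⟩, rfl⟩
      obtain ⟨μ, hμ, hTx⟩ := hTπ x hx
      rw [hTx]
      refine Submodule.smul_mem _ _ (Submodule.subset_span ⟨hπb x hx, ?_⟩)
      have := h5 ⟨x, hx⟩ (Finset.mem_univ _)
      rw [hc] at this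
      exact this
    · refine Submodule.span_le.mpr ?_
      rintro y ⟨hy, hc⟩
      have hc' : c ⟨y, hy⟩ = σ j.val := hc
      have hx : π y ∈ b := hπb y hy
      have hcx : c ⟨π y, hx⟩ = j.val := by
        have := h5 ⟨y, hy⟩ (Finset.mem_univ _)
        rw [hc', h4 j.val j.isLt] at this
        exact this
      obtain ⟨μ, hμ, hTx⟩ := hTπ (π y) hx
      rw [hππ y hy] at hTx
      have hy' : y = μ⁻¹ • T (π y) := by
        rw [hTx, smul_smul, inv_mul_cancel₀ hμ, one_smul]
      rw [hy']
      exact Submodule.smul_mem _ _ (Submodule.mem_map_of_mem (Submodule.subset_span ⟨hx, hcx⟩))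

end Assembly

/-- Involutions of PSL_n(q) and imprimitive subgroups. Here `T = PSL_n(F)` for a field `F` with `q = p^f` elements (`n ≥ 2`, `(n, q) ≠ (2, 2), (2, 3)`), `n = a·t` with `t ≥ 2`, and Ω is the set of direct-sum decompositions of `F^n` into `t` subspaces of dimension `a` (unordered; their number is the number of ordered ones divided by `t!`), whose stabilizers are the imprimitive subgroups of type GL_a(q) ≀ S_t (maximal except in some small cases; maximality is not assumed); an element of `T` of prime order `r` (a matrix `x` of determinant 1 with `x^r` scalar, `x` not scalar) fixes a point of Ω when it permutes the summands of some such decomposition. If the number of such decompositions is even, then every involution of `T` stabilizes one of them (the action is 2-elusive). -/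
theorem result {F : Type*} [Field F] [Fintype F] {p : ℕ} [Fact p.Prime] [CharP F p] {q : ℕ} (hq : Fintype.card F = q)
    (n a t : ℕ) (hn : 2 ≤ n) (hT : (n, q) ≠ (2, 2) ∧ (n, q) ≠ (2, 3)) (hat : n = a * t) (ha : 1 ≤ a) (ht : 2 ≤ t)
    (hΩ : 2 ∣ Nat.card {D : Fin t → Submodule F (Fin n → F) // Cfsg.Geo.IsMDecomposition a D} / Nat.factorial t)
    (x : Matrix.SpecialLinearGroup (Fin n) F)
    (hx1 : ∃ z : F, ((x ^ 2 : Matrix.SpecialLinearGroup (Fin n) F) : Matrix (Fin n) (Fin n) F) = z • (1 : Matrix (Fin n) (Fin n) F))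
    (hx2 : ∀ z : F, (x : Matrix (Fin n) (Fin n) F) ≠ z • (1 : Matrix (Fin n) (Fin n) F)) :
    ∃ D : Fin t → Submodule F (Fin n → F), Cfsg.Geo.IsMDecomposition a D ∧
        ∃ σ : Equiv.Perm (Fin t), ∀ j, (D j).map (Matrix.toLin' (x : Matrix (Fin n) (Fin n) F)) = D (σ j) := by
  obtain ⟨z, hz⟩ := hx1
  rw [Matrix.SpecialLinearGroup.coe_pow] at hz
  have hz0 : z ≠ 0 := by
    rintro rfl
    have hdet := congrArg Matrix.det hz
    have : Nonempty (Fin n) := ⟨⟨0, by omega⟩⟩
    rw [Matrix.det_pow, x.det_coe, one_pow, zero_smul, Matrix.det_zero] at hdet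
    exact one_ne_zero hdet
  have hTT : ∀ v, Matrix.toLin' (x : Matrix (Fin n) (Fin n) F)
      (Matrix.toLin' (x : Matrix (Fin n) (Fin n) F) v) = z • v := by
    intro v
    rw [Matrix.toLin'_apply, Matrix.toLin'_apply, Matrix.mulVec_mulVec, ← pow_two, hz,
      Matrix.smul_mulVec, Matrix.one_mulVec]
  have hsq : (2 : F) = 0 → ∃ γ : F, γ * γ = z := by
    intro h2
    have : CharP F 2 := CharTwo.of_one_ne_zero_of_two_eq_zero one_ne_zero h2
    obtain ⟨γ, hγ⟩ := FiniteField.isSquare_of_char_two (ringChar.eq F 2) z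
    exact ⟨γ, hγ.symm⟩
  have hdim : Module.finrank F (Fin n → F) = a * t := by
    rw [Module.finrank_fin_fun, hat]
  obtain ⟨D, σ, h1, h2, h3, h4⟩ := exists_decomp (Matrix.toLin' (x : Matrix (Fin n) (Fin n) F))
    z hz0 hTT hsq a t hdim
  exact ⟨D, ⟨ht, ha, h1, h2, h3⟩, σ, h4⟩

end Cfsg.Agent.S5957
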