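import Mathlib
import Cfsg.Statements.S5959

set_option autoImplicit false
open Cfsg

namespace Cfsg.Agent.S5959

section abstract

variable {F : Type*} [Field F] {V : Type*} [AddCommGroup V] [Module F V] [FiniteDimensional F V]

/-- restricted rank and nullity -/
theorem finrank_map_add (f : V →ₗ[F] V) (W : Submodule F V) :
    Module.finrank F ↥(W.map f) + Module.finrank F ↥(LinearMap.ker f ⊓ W)
      = Module.finrank F ↥W := by
  have h := LinearMap.finrank_range_add_finrank_ker (f.domRestrict W)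
  rw [LinearMap.range_domRestrict, LinearMap.ker_domRestrict] at h
  have e : (LinearMap.ker f).comap W.subtype = (LinearMap.ker f ⊓ W).comap W.subtype := by
    ext ⟨w, hw⟩
    simp [hw]
  rw [e, (Submodule.comapSubtypeEquivOfLe
    (inf_le_right : LinearMap.ker f ⊓ W ≤ W)).finrank_eq] at h
  exact h

/-- the invariant: dimension of `ker N ⊓ N^k W` -/
noncomputable def gk (N : V →ₗ[F] V) (W : Submodule F V) (k : ℕ) : ℕ :=
  Module.finrank F ↥(LinearMap.ker N ⊓ W.map (N ^ k))

theorem map_pow_le (N : V →ₗ[F] V) (W : Submodule F V) (hW : W.map N ≤ W) (k : ℕ) :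
    W.map (N ^ k) ≤ W := by
  induction k with
  | zero =>
    rw [pow_zero, Module.End.one_eq_id, Submodule.map_id]
  | succ k ih =>
    rw [pow_succ, Module.End.mul_eq_comp, Submodule.map_comp]
    exact (Submodule.map_mono hW).trans ih

theorem map_pow_succ_le (N : V →ₗ[F] V) (W : Submodule F V) (hW : W.map N ≤ W) (k : ℕ) :
    W.map (N ^ (k + 1)) ≤ W.map (N ^ k) := by
  rw [pow_succ, Module.End.mul_eq_comp, Submodule.map_comp]
  exact Submodule.map_mono hW

theorem gk_anti (N : V →ₗ[F] V) (W : Submodule F V) (hW : W.map N ≤ W) (k : ℕ) :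
    gk N W (k + 1) ≤ gk N W k :=
  Submodule.finrank_mono (inf_le_inf_left _ (map_pow_succ_le N W hW k))

theorem finrank_map_pow (N : V →ₗ[F] V) (W : Submodule F V) (k : ℕ) :
    Module.finrank F ↥(W.map (N ^ (k + 1))) + gk N W k = Module.finrank F ↥(W.map (N ^ k)) := by
  have h := finrank_map_add N (W.map (N ^ k))
  rw [← Submodule.map_comp, ← Module.End.mul_eq_comp, ← pow_succ'] at h
  exact h

theorem sum_gk (N : V →ₗ[F] V) (W : Submodule F V) (m : ℕ) :
    ∑ k ∈ Finset.range m, gk N W k + Module.finrank F ↥(W.map (N ^ m))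
      = Module.finrank F ↥W := by
  induction m with
  | zero =>
    rw [Finset.sum_range_zero, zero_add, pow_zero, Module.End.one_eq_id, Submodule.map_id]
  | succ m ih =>
    rw [Finset.sum_range_succ]
    have := finrank_map_pow N W m
    omega

theorem abel (g : ℕ → ℕ) (hg : ∀ k, g (k + 1) ≤ g k) (m : ℕ) :
    ∑ k ∈ Finset.range m, (k + 1) * (g k - g (k + 1)) + m * g m
      = ∑ k ∈ Finset.range m, g k := by
  induction m with
  | zero => simp
  | succ m ih =>
    rw [Finset.sum_range_succ, Finset.sum_range_succ, ← ih]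
    have h1 : (m + 1) * (g m - g (m + 1)) + (m + 1) * g (m + 1) = m * g m + g m := by
      rw [← Nat.mul_add, Nat.sub_add_cancel (hg m)]
      ring
    omega

theorem gk_add (N : V →ₗ[F] V) (D C : Submodule F V) (hD : D.map N ≤ D) (hC : C.map N ≤ C)
    (hdisj : Disjoint D C) (hsup : D ⊔ C = ⊤) (k : ℕ) :
    gk N ⊤ k = gk N D k + gk N C k := by
  unfold gk
  have hDk := map_pow_le N D hD k
  have hCk := map_pow_le N C hC k
  have heq : LinearMap.ker N ⊓ (⊤ : Submodule F V).map (N ^ k)
      = (LinearMap.ker N ⊓ D.map (N ^ k)) ⊔ (LinearMap.ker N ⊓ C.map (N ^ k)) := by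
    apply le_antisymm
    · rintro v ⟨hv1, u, -, rfl⟩
      have hu : u ∈ D ⊔ C := by
        rw [hsup]
        trivial
      obtain ⟨d, hd, c, hc, rfl⟩ := Submodule.mem_sup.1 hu
      have hNd : N ((N ^ k) d) ∈ D :=
        hD (Submodule.mem_map_of_mem (hDk (Submodule.mem_map_of_mem hd)))
      have hNc : N ((N ^ k) c) ∈ C :=
        hC (Submodule.mem_map_of_mem (hCk (Submodule.mem_map_of_mem hc)))
      have hsum : N ((N ^ k) d) + N ((N ^ k) c) = 0 := by
        have h0 : N ((N ^ k) (d + c)) = 0 := hv1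
        rw [map_add, map_add] at h0
        exact h0
      have h1 : N ((N ^ k) d) = 0 := by
        have h2 : N ((N ^ k) d) ∈ D ⊓ C :=
          ⟨hNd, by rw [eq_neg_of_add_eq_zero_left hsum]; exact C.neg_mem hNc⟩
        rw [hdisj.eq_bot] at h2
        exact (Submodule.mem_bot F).1 h2
      have h2 : N ((N ^ k) c) = 0 := by
        rw [h1, zero_add] at hsum
        exact hsum
      rw [map_add]
      exact Submodule.add_mem_sup ⟨h1, Submodule.mem_map_of_mem hd⟩
        ⟨h2, Submodule.mem_map_of_mem hc⟩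
    · exact sup_le (inf_le_inf_left _ (Submodule.map_mono le_top))
        (inf_le_inf_left _ (Submodule.map_mono le_top))
  have hdj : (LinearMap.ker N ⊓ D.map (N ^ k)) ⊓ (LinearMap.ker N ⊓ C.map (N ^ k)) = ⊥ := by
    apply le_bot_iff.1
    rw [← hdisj.eq_bot]
    exact inf_le_inf (inf_le_right.trans hDk) (inf_le_right.trans hCk)
  have h := Submodule.finrank_sup_add_finrank_inf_eq (LinearMap.ker N ⊓ D.map (N ^ k))
    (LinearMap.ker N ⊓ C.map (N ^ k))
  rw [hdj, finrank_bot, add_zero, ← heq] at h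
  exact h

theorem exists_nu (N : V →ₗ[F] V) (p : ℕ) (D C : Submodule F V) (hD : D.map N ≤ D)
    (hC : C.map N ≤ C) (hdisj : Disjoint D C) (hsup : D ⊔ C = ⊤) (hNp : N ^ p = 0)
    (μ : Multiset ℕ) (hμ : ∀ k, k < p → μ.count (k + 1) = gk N ⊤ k - gk N ⊤ (k + 1)) :
    ∃ ν : Multiset ℕ, ν ≤ μ ∧ ν.sum = Module.finrank F ↥D := by
  refine ⟨∑ k ∈ Finset.range p, Multiset.replicate (gk N D k - gk N D (k + 1)) (k + 1), ?_, ?_⟩
  · rw [Multiset.le_iff_count]
    intro b
    rw [Multiset.count_sum']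
    simp only [Multiset.count_replicate]
    by_cases hb : ∃ k, k < p ∧ k + 1 = b
    · obtain ⟨k, hk, rfl⟩ := hb
      rw [Finset.sum_eq_single k]
      · rw [if_pos rfl, hμ k hk, gk_add N D C hD hC hdisj hsup k,
          gk_add N D C hD hC hdisj hsup (k + 1)]
        have := gk_anti N C hC k
        have := gk_anti N D hD k
        omega
      · intro j _ hjk
        rw [if_neg (by omega)]
      · intro hk'
        exact absurd (Finset.mem_range.2 hk) hk'
    · rw [Finset.sum_eq_zero]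
      · exact Nat.zero_le _
      · intro j hj
        rw [if_neg]
        intro hjb
        exact hb ⟨j, Finset.mem_range.1 hj, hjb⟩
  · have h1 : (∑ k ∈ Finset.range p,
          Multiset.replicate (gk N D k - gk N D (k + 1)) (k + 1)).sum
        = ∑ k ∈ Finset.range p, (k + 1) * (gk N D k - gk N D (k + 1)) := by
      rw [← Multiset.coe_sumAddMonoidHom, map_sum]
      apply Finset.sum_congr rfl
      intro k _
      rw [Multiset.coe_sumAddMonoidHom, Multiset.sum_replicate, smul_eq_mul, mul_comm]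
    have h2 : ∑ k ∈ Finset.range p, (k + 1) * (gk N D k - gk N D (k + 1)) + p * gk N D p
        = ∑ k ∈ Finset.range p, gk N D k :=
      abel (fun k => gk N D k) (fun k => gk_anti N D hD k) p
    have h3 := sum_gk N D p
    have h4 : Module.finrank F ↥(D.map (N ^ p)) = 0 := by
      rw [hNp, Submodule.map_zero, finrank_bot]
    have h5 : gk N D p = 0 := by
      unfold gk
      rw [hNp, Submodule.map_zero, inf_bot_eq, finrank_bot]
    rw [h5, mul_zero, add_zero] at h2
    rw [h1, h2]
    omega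

theorem invariant_of_fixed {t : ℕ} (D : Fin t → Submodule F V) (hind : iSupIndep D)
    (htop : iSup D = ⊤) (X : V →ₗ[F] V) (σ : Equiv.Perm (Fin t))
    (hσ : ∀ j, (D j).map X = D (σ j)) (j : Fin t) (hj : σ j = j) :
    (D j).map X ≤ D j ∧ (⨆ (i) (_ : i ≠ j), D i).map X ≤ (⨆ (i) (_ : i ≠ j), D i) ∧
    Disjoint (D j) (⨆ (i) (_ : i ≠ j), D i) ∧ D j ⊔ (⨆ (i) (_ : i ≠ j), D i) = ⊤ := by
  refine ⟨by rw [hσ, hj], ?_, hind j, ?_⟩
  · rw [Submodule.map_iSup]
    apply iSup_le
    intro i
    rw [Submodule.map_iSup]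
    apply iSup_le
    intro hi
    rw [hσ]
    have h1 : σ i ≠ j := fun h => hi (σ.injective (h.trans hj.symm))
    exact le_iSup₂_of_le (σ i) h1 le_rfl
  · apply top_le_iff.1
    rw [← htop]
    apply iSup_le
    intro i
    by_cases hi : i = j
    · rw [hi]
      exact le_sup_left
    · exact le_sup_of_le_right (le_iSup₂_of_le i hi le_rfl)

theorem sub_one_invariant (X : V →ₗ[F] V) (W : Submodule F V) (hW : W.map X ≤ W) :
    W.map (X - 1) ≤ W := by
  rintro _ ⟨w, hw, rfl⟩
  rw [LinearMap.sub_apply]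
  exact W.sub_mem (hW (Submodule.mem_map_of_mem hw)) hw

theorem free_inj {t : ℕ} (D : Fin t → Submodule F V) (hind : iSupIndep D)
    (hne : ∀ i, D i ≠ ⊥) (X : V →ₗ[F] V) (σ : Equiv.Perm (Fin t))
    (hσ : ∀ j, (D j).map X = D (σ j)) (p : ℕ) (hp : p.Prime) (hXp : X ^ p = 1)
    (hfr : ∀ j, σ j ≠ j) (j : Fin t) (v : V) (hv : v ∈ D j)
    (h0 : (∑ i ∈ Finset.range p, X ^ i) v = 0) : v = 0 := by
  have hpow : ∀ i : ℕ, ∀ j, (D j).map (X ^ i) = D ((σ ^ i) j) := by
    intro i
    induction i with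
    | zero =>
      intro j
      rw [pow_zero, pow_zero, Module.End.one_eq_id, Submodule.map_id]
      rfl
    | succ i ih =>
      intro j
      rw [pow_succ, Module.End.mul_eq_comp, Submodule.map_comp, hσ, ih, pow_succ,
        Equiv.Perm.mul_apply]
  have hDinj := hind.injective hne
  have hσp : ∀ j, (σ ^ p) j = j := by
    intro j
    apply hDinj
    rw [← hpow, hXp, Module.End.one_eq_id, Submodule.map_id]
  have hmove : ∀ i, 0 < i → i < p → (σ ^ i) j ≠ j := by
    intro i hi0 hip hfix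
    have hcop : Nat.Coprime i p := (Nat.coprime_of_lt_prime hi0.ne' hip hp).symm
    obtain ⟨m, -, hm⟩ := Nat.exists_mul_mod_eq_one_of_coprime hcop hp.one_lt
    have h1 : ((σ ^ i) ^ m) j = j := Equiv.Perm.pow_apply_eq_self_of_apply_eq_self hfix m
    have h2 : ((σ ^ p) ^ (i * m / p)) j = j :=
      Equiv.Perm.pow_apply_eq_self_of_apply_eq_self (hσp j) _
    have h3 : (σ ^ i) ^ m = σ * (σ ^ p) ^ (i * m / p) := by
      rw [← pow_mul, ← pow_mul, ← pow_succ']
      congr 1
      have := Nat.div_add_mod (i * m) p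
      omega
    rw [h3, Equiv.Perm.mul_apply, h2] at h1
    exact hfr j h1
  obtain ⟨p', rfl⟩ : ∃ p', p = p' + 1 := ⟨p - 1, by have := hp.pos; omega⟩
  rw [LinearMap.sum_apply, Finset.sum_range_succ', pow_zero, Module.End.one_apply] at h0
  have hrest : ∑ i ∈ Finset.range p', (X ^ (i + 1)) v ∈ ⨆ (i) (_ : i ≠ j), D i := by
    apply Submodule.sum_mem
    intro i hi
    have hi' := Finset.mem_range.1 hi
    have h1 : (X ^ (i + 1)) v ∈ D ((σ ^ (i + 1)) j) := by
      rw [← hpow]
      exact Submodule.mem_map_of_mem hv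
    have h2 : D ((σ ^ (i + 1)) j) ≤ ⨆ (i) (_ : i ≠ j), D i :=
      le_iSup₂_of_le (f := fun (i : Fin t) (_ : i ≠ j) => D i) ((σ ^ (i + 1)) j)
        (hmove (i + 1) (by omega) (by omega)) le_rfl
    exact h2 h1
  have hv2 : v ∈ D j ⊓ ⨆ (i) (_ : i ≠ j), D i := by
    refine ⟨hv, ?_⟩
    rw [eq_neg_of_add_eq_zero_right h0]
    exact Submodule.neg_mem _ hrest
  rw [(hind j).eq_bot] at hv2
  exact (Submodule.mem_bot F).1 hv2

end abstract

section poly

theorem poly_id (F : Type*) [Field F] (p : ℕ) [Fact p.Prime] [CharP F p] :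
    (∑ i ∈ Finset.range p, (Polynomial.X + 1 : Polynomial F) ^ i) = Polynomial.X ^ (p - 1) := by
  have h1 : (∑ i ∈ Finset.range p, (Polynomial.X + 1 : Polynomial F) ^ i) * Polynomial.X
      = Polynomial.X ^ (p - 1) * Polynomial.X := by
    have h2 := geom_sum_mul (Polynomial.X + 1 : Polynomial F) p
    rw [add_sub_cancel_right] at h2
    rw [h2, add_pow_char, one_pow, add_sub_cancel_right, ← pow_succ]
    congr 1
    have := (Fact.out : p.Prime).pos
    omega
  exact mul_right_cancel₀ Polynomial.X_ne_zero h1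

theorem sum_pow_eq {F : Type*} [Field F] (p : ℕ) [Fact p.Prime] [CharP F p]
    {V : Type*} [AddCommGroup V] [Module F V] (N : V →ₗ[F] V) :
    (∑ i ∈ Finset.range p, (1 + N) ^ i) = N ^ (p - 1) := by
  have h := congrArg (Polynomial.aeval N) (poly_id F p)
  simp only [map_sum, map_pow, map_add, Polynomial.aeval_X, map_one] at h
  rw [← h]
  apply Finset.sum_congr rfl
  intro i _
  rw [add_comm]

theorem one_add_pow_eq {F : Type*} [Field F] (p : ℕ) [Fact p.Prime] [CharP F p]
    {V : Type*} [AddCommGroup V] [Module F V] (N : V →ₗ[F] V) (hN : N ^ p = 0) :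
    (1 + N) ^ p = 1 := by
  have h0 : (Polynomial.X + 1 : Polynomial F) ^ p = Polynomial.X ^ p + 1 := by
    rw [add_pow_char, one_pow]
  have h := congrArg (Polynomial.aeval N) h0
  simp only [map_pow, map_add, Polynomial.aeval_X, map_one] at h
  rw [add_comm, h, hN, zero_add]

end poly

section model

variable {F : Type*} [Field F] {J : Type*} (ℓ : J → ℕ)

/-- the nilpotent shift on the coordinate space indexed by `Σ b, Fin (ℓ b)` -/
def shiftT : ((Σ b : J, Fin (ℓ b)) → F) →ₗ[F] ((Σ b : J, Fin (ℓ b)) → F) where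
  toFun v y := if h : (y.2 : ℕ) + 1 < ℓ y.1 then v ⟨y.1, ⟨(y.2 : ℕ) + 1, h⟩⟩ else 0
  map_add' v w := by
    funext y
    by_cases h : (y.2 : ℕ) + 1 < ℓ y.1
    · simp [h]
    · simp [h]
  map_smul' c v := by
    funext y
    by_cases h : (y.2 : ℕ) + 1 < ℓ y.1
    · simp [h]
    · simp [h]

theorem shiftT_apply (v : (Σ b : J, Fin (ℓ b)) → F) (y : Σ b : J, Fin (ℓ b)) :
    shiftT ℓ v y = if h : (y.2 : ℕ) + 1 < ℓ y.1 then v ⟨y.1, ⟨(y.2 : ℕ) + 1, h⟩⟩ else 0 :=
  rfl

theorem shiftT_pow (k : ℕ) (v : (Σ b : J, Fin (ℓ b)) → F) (y : Σ b : J, Fin (ℓ b)) :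
    (shiftT (F := F) ℓ ^ k) v y
      = if h : (y.2 : ℕ) + k < ℓ y.1 then v ⟨y.1, ⟨(y.2 : ℕ) + k, h⟩⟩ else 0 := by
  induction k generalizing v with
  | zero =>
    have h : (y.2 : ℕ) + 0 < ℓ y.1 := y.2.isLt
    rw [dif_pos h, pow_zero, Module.End.one_apply]
    rfl
  | succ k ih =>
    rw [pow_succ, Module.End.mul_apply, ih]
    by_cases h : (y.2 : ℕ) + k < ℓ y.1
    · rw [dif_pos h, shiftT_apply]
      by_cases h' : (y.2 : ℕ) + (k + 1) < ℓ y.1
      · rw [dif_pos h', dif_pos (show ((y.2 : ℕ) + k) + 1 < ℓ y.1 from h')]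
        rfl
      · rw [dif_neg h', dif_neg (show ¬ ((y.2 : ℕ) + k) + 1 < ℓ y.1 from h')]
    · rw [dif_neg h, dif_neg (by omega)]

theorem shiftT_pow_eq_zero (p : ℕ) (hℓ : ∀ b, ℓ b ≤ p) : shiftT (F := F) ℓ ^ p = 0 := by
  apply LinearMap.ext
  intro v
  funext y
  rw [shiftT_pow, dif_neg]
  · rfl
  · have := hℓ y.1
    omega

variable {V : Type*} [AddCommGroup V] [Module F V]

theorem model_pow (E : ((Σ b : J, Fin (ℓ b)) → F) ≃ₗ[F] V) (N : V →ₗ[F] V)
    (hN : ∀ v, N (E v) = E (shiftT ℓ v)) (k : ℕ) (v : (Σ b : J, Fin (ℓ b)) → F) :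
    (N ^ k) (E v) = E ((shiftT ℓ ^ k) v) := by
  induction k generalizing v with
  | zero => rw [pow_zero, pow_zero, Module.End.one_apply, Module.End.one_apply]
  | succ k ih =>
    rw [pow_succ, pow_succ, Module.End.mul_apply, Module.End.mul_apply, hN, ih]

theorem model_pow_eq_zero (E : ((Σ b : J, Fin (ℓ b)) → F) ≃ₗ[F] V) (N : V →ₗ[F] V)
    (hN : ∀ v, N (E v) = E (shiftT ℓ v)) (p : ℕ) (hℓ : ∀ b, ℓ b ≤ p) : N ^ p = 0 := by
  apply LinearMap.ext
  intro w
  obtain ⟨v, rfl⟩ := E.surjective w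
  rw [model_pow ℓ E N hN, shiftT_pow_eq_zero ℓ p hℓ]
  simp

theorem gk_model [Fintype J] [FiniteDimensional F V]
    (E : ((Σ b : J, Fin (ℓ b)) → F) ≃ₗ[F] V) (N : V →ₗ[F] V)
    (hN : ∀ v, N (E v) = E (shiftT ℓ v)) (k : ℕ) :
    gk N ⊤ k = Fintype.card {b : J // k < ℓ b} := by
  classical
  obtain ⟨P, hP⟩ : ∃ P : Set (Σ b : J, Fin (ℓ b)), P = {y | (y.2 : ℕ) = 0 ∧ k < ℓ y.1} :=
    ⟨_, rfl⟩
  have hPmem : ∀ y : (Σ b : J, Fin (ℓ b)), y ∈ P ↔ ((y.2 : ℕ) = 0 ∧ k < ℓ y.1) := by
    intro y
    rw [hP]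
    rfl
  obtain ⟨S, hS⟩ : ∃ S : Submodule F ((Σ b : J, Fin (ℓ b)) → F),
      S = ⨅ y ∈ Pᶜ, LinearMap.ker (LinearMap.proj y :
        ((Σ b : J, Fin (ℓ b)) → F) →ₗ[F] F) := ⟨_, rfl⟩
  have hSmem : ∀ w : (Σ b : J, Fin (ℓ b)) → F, w ∈ S ↔ ∀ y, y ∉ P → w y = 0 := by
    intro w
    rw [hS]
    simp only [Submodule.mem_iInf, LinearMap.mem_ker, LinearMap.proj_apply, Set.mem_compl_iff]
  have heq : LinearMap.ker N ⊓ (⊤ : Submodule F V).map (N ^ k) = S.map (E : _ →ₗ[F] V) := by
    apply le_antisymm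
    · rintro w ⟨hw1, u, -, rfl⟩
      obtain ⟨u', rfl⟩ := E.surjective u
      rw [model_pow ℓ E N hN]
      refine Submodule.mem_map_of_mem ?_
      have hT : shiftT ℓ ((shiftT ℓ ^ k) u') = 0 := by
        have h1 : N ((N ^ k) (E u')) = 0 := hw1
        rw [model_pow ℓ E N hN, hN] at h1
        exact E.injective (by rw [h1, map_zero])
      rw [hSmem]
      intro y hy
      by_contra hne
      apply hy
      rw [hPmem]
      have hk : (y.2 : ℕ) + k < ℓ y.1 := by
        by_contra hk
        apply hne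
        rw [shiftT_pow, dif_neg hk]
      refine ⟨?_, by omega⟩
      by_contra hj
      obtain ⟨b, j, hjlt⟩ := y
      obtain ⟨j', rfl⟩ : ∃ j', j = j' + 1 := ⟨j - 1, by
        have : j ≠ 0 := hj
        omega⟩
      have h2 := congrFun hT ⟨b, ⟨j', by omega⟩⟩
      rw [shiftT_apply, dif_pos (show j' + 1 < ℓ b from hjlt)] at h2
      exact hne h2
    · rintro _ ⟨w', hw'', rfl⟩
      have hw' := (hSmem w').1 hw''
      refine ⟨?_, ?_⟩
      · show N (E w') = 0
        rw [hN]
        have h1 : shiftT ℓ w' = 0 := by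
          funext y
          rw [shiftT_apply]
          by_cases h : (y.2 : ℕ) + 1 < ℓ y.1
          · rw [dif_pos h]
            apply hw'
            rw [hPmem]
            intro h3
            exact absurd h3.1 (Nat.succ_ne_zero _)
          · rw [dif_neg h]
            rfl
        rw [h1, map_zero]
      · refine ⟨E (fun y => if (y.2 : ℕ) = k then w' ⟨y.1, ⟨0, y.2.pos⟩⟩ else 0), trivial, ?_⟩
        rw [model_pow ℓ E N hN]
        show E _ = E w'
        refine congrArg E ?_
        funext y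
        rw [shiftT_pow]
        by_cases hy : y ∈ P
        · rw [hPmem] at hy
          obtain ⟨hy1, hy2⟩ := hy
          rw [dif_pos (by omega)]
          rw [if_pos (by show (y.2 : ℕ) + k = k; omega)]
          congr 1
          obtain ⟨b, j, hjlt⟩ := y
          have : j = 0 := hy1
          subst this
          rfl
        · rw [hw' y hy]
          by_cases hk : (y.2 : ℕ) + k < ℓ y.1
          · rw [dif_pos hk]
            by_cases hj : (y.2 : ℕ) + k = k
            · exfalso
              apply hy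
              rw [hPmem]
              exact ⟨by omega, by omega⟩
            · rw [if_neg hj]
          · rw [dif_neg hk]
  unfold gk
  rw [heq, LinearEquiv.finrank_map_eq, hS,
    (LinearMap.iInfKerProjEquiv F (fun _ : (Σ b : J, Fin (ℓ b)) => F) (I := P) (J := Pᶜ)
      disjoint_compl_right (by rw [Set.union_compl_self])).finrank_eq,
    Module.finrank_fintype_fun_eq_card]
  refine Fintype.card_congr
    { toFun := fun y => ⟨y.1.1, ((hPmem y.1).1 y.2).2⟩
      invFun := fun b => ⟨⟨b.1, ⟨0, by have := b.2; omega⟩⟩, (hPmem _).2 ⟨rfl, b.2⟩⟩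
      left_inv := ?_
      right_inv := ?_ }
  · rintro ⟨⟨b, j, hjlt⟩, hy⟩
    have hy' := (hPmem _).1 hy
    have : j = 0 := hy'.1
    subst this
    rfl
  · rintro ⟨b, hb⟩
    rfl

end model

/-- Elements of order `p` of PSL_n(q) and imprimitive subgroups: a necessary condition. Here `T = PSL_n(F)` for a field `F` with `q = p^f` elements (`n ≥ 2`, `(n, q) ≠ (2, 2), (2, 3)`), `n = a·t` with `t ≥ 2`, and Ω is the set of direct-sum decompositions of `F^n` into `t` subspaces of dimension `a` (unordered; their number is the number of ordered ones divided by `t!`), whose stabilizers are the imprimitive subgroups of type GL_a(q) ≀ S_t (maximal except in some small cases; maximality is not assumed); an element of `T` of prime order `r` (a matrix `x` of determinant 1 with `x^r` scalar, `x` not scalar) fixes a point of Ω when it permutes the summands of some such decomposition. Suppose `p > 2` divides the number of such decompositions. If every element of `T` of order `p` stabilizes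 such a decomposition, then every partition of `n` into parts of size at most `p` in which the part `p` occurs fewer than `a` times contains (as a sub-multiset) a partition of `a`. -/
theorem result {F : Type*} [Field F] [Fintype F] {p : ℕ} [Fact p.Prime] [CharP F p] {q : ℕ} (hq : Fintype.card F = q)
    (n a t : ℕ) (hn : 2 ≤ n) (hT : (n, q) ≠ (2, 2) ∧ (n, q) ≠ (2, 3)) (hat : n = a * t) (ha : 1 ≤ a) (ht : 2 ≤ t)
    (hp : 2 < p) (hΩ : p ∣ Nat.card {D : Fin t → Submodule F (Fin n → F) // Cfsg.Geo.IsMDecomposition a D} / Nat.factorial t)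
    (h : ∀ x : Matrix.SpecialLinearGroup (Fin n) F,
      (∃ z : F, ((x ^ p : Matrix.SpecialLinearGroup (Fin n) F) : Matrix (Fin n) (Fin n) F) = z • (1 : Matrix (Fin n) (Fin n) F)) →
      (∀ z : F, (x : Matrix (Fin n) (Fin n) F) ≠ z • (1 : Matrix (Fin n) (Fin n) F)) →
      ∃ D : Fin t → Submodule F (Fin n → F), Cfsg.Geo.IsMDecomposition a D ∧
        ∃ σ : Equiv.Perm (Fin t), ∀ j, (D j).map (Matrix.toLin' (x : Matrix (Fin n) (Fin n) F)) = D (σ j)) :
    (∀ μ : Multiset ℕ, (∀ b ∈ μ, 0 < b ∧ b ≤ p) → μ.sum = n → μ.count p < a → ∃ ν : Multiset ℕ, ν ≤ μ ∧ ν.sum = a) := by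
  intro μ hμ hsum hcount
  classical
  have hpp : p.Prime := Fact.out
  by_cases hall : ∀ b ∈ μ, b = 1
  · refine ⟨Multiset.replicate a 1, ?_, by simp⟩
    have h1 : μ = Multiset.replicate (Multiset.card μ) 1 := Multiset.eq_replicate_card.2 hall
    have hcard : Multiset.card μ = n := by
      have h2 := hsum
      rw [h1, Multiset.sum_replicate, smul_eq_mul, mul_one] at h2
      exact h2
    rw [h1, hcard, Multiset.replicate_le_replicate, hat]
    exact Nat.le_mul_of_pos_right a (by omega)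
  · push Not at hall
    obtain ⟨b₀, hb₀, hb₀1⟩ := hall
    obtain ⟨ℓ, hℓ⟩ : ∃ ℓ : μ.ToType → ℕ, ∀ b, ℓ b = b.1 := ⟨fun b => b.1, fun b => rfl⟩
    have hℓmem : ∀ b, ℓ b ∈ μ := by
      intro b
      rw [hℓ]
      exact Multiset.count_pos.1 b.2.pos
    have hℓp : ∀ b, ℓ b ≤ p := fun b => (hμ _ (hℓmem b)).2
    have hmap : (Finset.univ : Finset μ.ToType).val.map ℓ = μ := by
      have h0 : ℓ = fun x : μ.ToType => (x : ℕ) := funext hℓ
      rw [h0]
      exact Multiset.map_univ_coe μ
    have hsumℓ : ∑ b : μ.ToType, ℓ b = n := by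
      rw [Finset.sum_eq_multiset_sum, hmap, hsum]
    have hcountℓ : ∀ c, μ.count c
        = (Finset.univ.filter (fun b : μ.ToType => c = ℓ b)).card := by
      intro c
      have h1 := congrArg (Multiset.count c) hmap
      rw [← h1, Multiset.count_map]
      rfl
    have hcardI : Fintype.card (Σ b : μ.ToType, Fin (ℓ b)) = n := by
      rw [Fintype.card_sigma]
      simp only [Fintype.card_fin]
      exact hsumℓ
    obtain ⟨e⟩ : Nonempty ((Σ b : μ.ToType, Fin (ℓ b)) ≃ Fin n) :=
      ⟨Fintype.equivFinOfCardEq hcardI⟩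
    obtain ⟨E, -⟩ : ∃ E : ((Σ b : μ.ToType, Fin (ℓ b)) → F) ≃ₗ[F] (Fin n → F), True :=
      ⟨LinearEquiv.funCongrLeft F F e.symm, trivial⟩
    obtain ⟨Nl, hNl⟩ : ∃ Nl : (Fin n → F) →ₗ[F] (Fin n → F),
        ∀ v, Nl (E v) = E (shiftT ℓ v) :=
      ⟨E.conj (shiftT ℓ), fun v => by
        rw [LinearEquiv.conj_apply_apply, LinearEquiv.symm_apply_apply]⟩
    have hNp : Nl ^ p = 0 := model_pow_eq_zero ℓ E Nl hNl p hℓp
    have hg : ∀ k, gk Nl ⊤ k = (Finset.univ.filter (fun b : μ.ToType => k < ℓ b)).card := by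
      intro k
      rw [gk_model ℓ E Nl hNl k, Fintype.card_subtype]
    have hstep : ∀ k, (Finset.univ.filter (fun b : μ.ToType => k < ℓ b)).card
        = (Finset.univ.filter (fun b : μ.ToType => k + 1 < ℓ b)).card
          + (Finset.univ.filter (fun b : μ.ToType => k + 1 = ℓ b)).card := by
      intro k
      simp only [Finset.card_filter]
      rw [← Finset.sum_add_distrib]
      apply Finset.sum_congr rfl
      intro b _
      split_ifs <;> omega
    have hμg : ∀ k, k < p → μ.count (k + 1) = gk Nl ⊤ k - gk Nl ⊤ (k + 1) := by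
      intro k _
      rw [hg, hg, hcountℓ, hstep k]
      omega
    obtain ⟨X, hX⟩ : ∃ X : (Fin n → F) →ₗ[F] (Fin n → F), X = 1 + Nl := ⟨_, rfl⟩
    have hXp : X ^ p = 1 := by
      rw [hX]
      exact one_add_pow_eq p Nl hNp
    have hXsum : ∑ i ∈ Finset.range p, X ^ i = Nl ^ (p - 1) := by
      rw [hX]
      exact sum_pow_eq p Nl
    have hNlX : Nl = X - 1 := by
      rw [hX, add_sub_cancel_left]
    obtain ⟨xm, hxm⟩ : ∃ xm : Matrix (Fin n) (Fin n) F, xm = LinearMap.toMatrix' X :=
      ⟨_, rfl⟩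
    have hxlin : Matrix.toLin' xm = X := by
      rw [hxm]
      exact Matrix.toLin'_toMatrix' X
    have hxmp : xm ^ p = 1 := by
      have h1 : Matrix.toLin' (xm ^ p) = Matrix.toLin' (1 : Matrix (Fin n) (Fin n) F) := by
        rw [Matrix.toLin'_pow, hxlin, hXp, Matrix.toLin'_one]
        rfl
      exact Matrix.toLin'.injective h1
    have hdet : xm.det = 1 := by
      have h1 : xm.det ^ p = 1 := by
        rw [← Matrix.det_pow, hxmp, Matrix.det_one]
      have h2 : frobenius F p xm.det = frobenius F p 1 := by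
        rw [frobenius_def, frobenius_def, h1, one_pow]
      exact frobenius_inj F p h2
    obtain ⟨x, hx⟩ : ∃ x : Matrix.SpecialLinearGroup (Fin n) F,
        (x : Matrix (Fin n) (Fin n) F) = xm := ⟨⟨xm, hdet⟩, rfl⟩
    have hx1 : ∃ z : F, ((x ^ p : Matrix.SpecialLinearGroup (Fin n) F) :
        Matrix (Fin n) (Fin n) F) = z • (1 : Matrix (Fin n) (Fin n) F) :=
      ⟨1, by rw [Matrix.SpecialLinearGroup.coe_pow, hx, hxmp, one_smul]⟩
    have hx2 : ∀ z : F, (x : Matrix (Fin n) (Fin n) F) ≠ z • (1 : Matrix (Fin n) (Fin n) F) := by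
      intro z hz
      rw [hx] at hz
      have hXz : X = z • (1 : Module.End F (Fin n → F)) := by
        rw [← hxlin, hz, map_smul, Matrix.toLin'_one]
        rfl
      have hNz : Nl = (z - 1) • (1 : Module.End F (Fin n → F)) := by
        rw [hNlX, hXz]
        apply LinearMap.ext
        intro v
        simp only [LinearMap.sub_apply, LinearMap.smul_apply, Module.End.one_apply, sub_smul,
          one_smul]
      have hz1 : z = 1 := by
        have h1 : ((z - 1) • (1 : Module.End F (Fin n → F))) ^ p = 0 := by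
          rw [← hNz]
          exact hNp
        rw [smul_pow, one_pow] at h1
        have h2 := congrArg (fun T : Module.End F (Fin n → F) =>
          T (fun _ => (1 : F)) ⟨0, by omega⟩) h1
        simp only [LinearMap.smul_apply, Module.End.one_apply, Pi.smul_apply, smul_eq_mul,
          mul_one, LinearMap.zero_apply, Pi.zero_apply] at h2
        exact sub_eq_zero.1 (pow_eq_zero_iff hpp.ne_zero |>.1 h2)
      have hN0 : Nl = 0 := by
        rw [hNz, hz1, sub_self, zero_smul]
      have hg1 := hg 1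
      have h3 : gk Nl ⊤ 1 = 0 := by
        unfold gk
        rw [hN0, pow_one, Submodule.map_zero, inf_bot_eq, finrank_bot]
      rw [h3] at hg1
      have hb₀c : 0 < μ.count b₀ := Multiset.count_pos.2 hb₀
      obtain ⟨bb, hbb⟩ : ∃ bb : μ.ToType, bb.1 = b₀ :=
        ⟨Multiset.mkToType μ b₀ ⟨0, hb₀c⟩, rfl⟩
      have h4 : bb ∈ Finset.univ.filter (fun b : μ.ToType => 1 < ℓ b) := by
        rw [Finset.mem_filter]
        refine ⟨Finset.mem_univ _, ?_⟩
        rw [hℓ, hbb]
        have := (hμ b₀ hb₀).1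
        omega
      have := Finset.card_pos.2 ⟨_, h4⟩
      omega
    obtain ⟨D, hDdec, σ, hσ⟩ := h x hx1 hx2
    rw [hx, hxlin] at hσ
    have hfin : ∀ i, Module.finrank F (D i) = a := hDdec.finrank_eq
    have hne : ∀ i, D i ≠ ⊥ := by
      intro i hi
      have := hfin i
      rw [hi, finrank_bot] at this
      omega
    by_cases hfix : ∃ j, σ j = j
    · obtain ⟨j, hj⟩ := hfix
      obtain ⟨h1, h2, h3, h4⟩ :=
        invariant_of_fixed D hDdec.indep hDdec.iSup_eq_top X σ hσ j hj
      have h1' : (D j).map Nl ≤ D j := by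
        rw [hNlX]
        exact sub_one_invariant X _ h1
      have h2' : (⨆ (i) (_ : i ≠ j), D i).map Nl ≤ ⨆ (i) (_ : i ≠ j), D i := by
        rw [hNlX]
        exact sub_one_invariant X _ h2
      obtain ⟨ν, hν1, hν2⟩ := exists_nu Nl p (D j) _ h1' h2' h3 h4 hNp μ hμg
      exact ⟨ν, hν1, by rw [hν2, hfin]⟩
    · push Not at hfix
      exfalso
      obtain ⟨j₀⟩ : Nonempty (Fin t) := ⟨⟨0, by omega⟩⟩
      have hinj : LinearMap.ker (Nl ^ (p - 1)) ⊓ D j₀ = ⊥ := by
        rw [eq_bot_iff]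
        rintro v ⟨hv1, hv2⟩
        have hv1' : (Nl ^ (p - 1)) v = 0 := hv1
        rw [← hXsum] at hv1'
        rw [Submodule.mem_bot]
        exact free_inj D hDdec.indep hne X σ hσ p hpp hXp hfix j₀ v hv2 hv1'
      have h1 := finrank_map_add (Nl ^ (p - 1)) (D j₀)
      rw [hinj, finrank_bot, add_zero, hfin] at h1
      have h2 : (D j₀).map (Nl ^ (p - 1))
          ≤ LinearMap.ker Nl ⊓ (⊤ : Submodule F (Fin n → F)).map (Nl ^ (p - 1)) := by
        refine le_inf ?_ (Submodule.map_mono le_top)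
        rintro _ ⟨w, -, rfl⟩
        show Nl ((Nl ^ (p - 1)) w) = 0
        have h3 : Nl ((Nl ^ (p - 1)) w) = (Nl ^ (p - 1 + 1)) w := by
          rw [pow_succ']
          rfl
        have h6 : p - 1 + 1 = p := by
          have := hpp.pos
          omega
        rw [h3, h6, hNp]
        rfl
      have h3 := Submodule.finrank_mono h2
      have h4 : gk Nl ⊤ (p - 1) = Module.finrank F
          ↥(LinearMap.ker Nl ⊓ (⊤ : Submodule F (Fin n → F)).map (Nl ^ (p - 1))) := rfl
      have h5 := hμg (p - 1) (by have := hpp.pos; omega)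
      have h6 : p - 1 + 1 = p := by
        have := hpp.pos
        omega
      rw [h6] at h5
      have h7 : gk Nl ⊤ p = 0 := by
        unfold gk
        rw [hNp, Submodule.map_zero, inf_bot_eq, finrank_bot]
      omega

end Cfsg.Agent.S5959
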