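import Cfsg.Statements.S5962
import Cfsg.Agent.S0768

set_option autoImplicit false
open Cfsg

namespace Cfsg.Agent.S5962

section Forms

variable {F V : Type*} [Field F] [AddCommGroup V] [Module F V]

/-- the form is nondegenerate on the subspace -/
def NonDegOn (B : LinearMap.BilinForm F V) (M : Submodule F V) : Prop :=
  ∀ m ∈ M, m ≠ 0 → ∃ n ∈ M, B m n ≠ 0

/-- the subspace is totally isotropic -/
def TI (B : LinearMap.BilinForm F V) (U : Submodule F V) : Prop :=
  ∀ u ∈ U, ∀ v ∈ U, B u v = 0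

theorem skew (B : LinearMap.BilinForm F V) (hB : ∀ u, B u u = 0) (u v : V) :
    B u v = - B v u := by
  have h := hB (u + v)
  simp only [map_add, LinearMap.add_apply, hB, zero_add, add_zero] at h
  exact eq_neg_of_add_eq_zero_right h

/-- the part of `M` orthogonal to `u` and `v` -/
def perp2 (B : LinearMap.BilinForm F V) (M : Submodule F V) (u v : V) : Submodule F V :=
  M ⊓ LinearMap.ker (LinearMap.flip B u) ⊓ LinearMap.ker (LinearMap.flip B v)

theorem mem_perp2 (B : LinearMap.BilinForm F V) (M : Submodule F V) (u v m : V) :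
    m ∈ perp2 B M u v ↔ m ∈ M ∧ B m u = 0 ∧ B m v = 0 := by
  simp only [perp2, Submodule.mem_inf, LinearMap.mem_ker, LinearMap.flip_apply, and_assoc]

theorem perp2_le (B : LinearMap.BilinForm F V) (M : Submodule F V) (u v : V) :
    perp2 B M u v ≤ M := fun m hm => ((mem_perp2 B M u v m).mp hm).1

theorem perp2_decomp (B : LinearMap.BilinForm F V) (hB : ∀ u, B u u = 0) (M : Submodule F V)
    (u v : V) (hu : u ∈ M) (hv : v ∈ M) (huv : B u v ≠ 0) (m : V) (hm : m ∈ M) :
    ∃ α β : F, ∃ m' ∈ perp2 B M u v, m = α • u + β • v + m' := by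
  have hvu : B v u = - B u v := skew B hB v u
  refine ⟨B m v / B u v, - (B m u / B u v), m - (B m v / B u v) • u - (-(B m u / B u v)) • v,
    ?_, by abel⟩
  rw [mem_perp2]
  refine ⟨M.sub_mem (M.sub_mem hm (M.smul_mem _ hu)) (M.smul_mem _ hv), ?_, ?_⟩
  · simp only [map_sub, map_smul, LinearMap.sub_apply, LinearMap.smul_apply, smul_eq_mul, hB,
      hvu]
    field_simp
    ring
  · simp only [map_sub, map_smul, LinearMap.sub_apply, LinearMap.smul_apply, smul_eq_mul, hB]
    field_simp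
    ring

theorem perp2_indep (B : LinearMap.BilinForm F V) (hB : ∀ u, B u u = 0) (M : Submodule F V)
    (u v : V) (huv : B u v ≠ 0) (α β : F) (h : α • u + β • v ∈ perp2 B M u v) :
    α = 0 ∧ β = 0 := by
  have hvu : B v u = - B u v := skew B hB v u
  rw [mem_perp2] at h
  obtain ⟨-, h1, h2⟩ := h
  simp only [map_add, map_smul, LinearMap.add_apply, LinearMap.smul_apply, smul_eq_mul, hB,
    mul_zero, zero_add, add_zero] at h1 h2
  constructor
  · exact (mul_eq_zero.mp h2).resolve_right huv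
  · rw [hvu] at h1
    exact (mul_eq_zero.mp h1).resolve_right (neg_ne_zero.mpr huv)

theorem perp2_nondeg (B : LinearMap.BilinForm F V) (hB : ∀ u, B u u = 0) (M : Submodule F V)
    (u v : V) (hu : u ∈ M) (hv : v ∈ M) (huv : B u v ≠ 0) (hM : NonDegOn B M) :
    NonDegOn B (perp2 B M u v) := by
  intro m hm hm0
  have hm' := (mem_perp2 B M u v m).mp hm
  obtain ⟨n, hn, hmn⟩ := hM m hm'.1 hm0
  obtain ⟨α, β, n', hn', rfl⟩ := perp2_decomp B hB M u v hu hv huv n hn
  refine ⟨n', hn', ?_⟩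
  simpa only [map_add, map_smul, smul_eq_mul, hm'.2.1, hm'.2.2, mul_zero, zero_add] using hmn

theorem perp2_finrank_lt [FiniteDimensional F V] (B : LinearMap.BilinForm F V)
    (M : Submodule F V) (u v : V) (hu : u ∈ M) (huv : B u v ≠ 0) :
    Module.finrank F (perp2 B M u v) < Module.finrank F M := by
  refine Submodule.finrank_lt_finrank_of_lt (lt_of_le_of_ne (perp2_le B M u v) ?_)
  intro h
  rw [← h, mem_perp2] at hu
  exact huv hu.2.2

/-- adding a hyperbolic pair to a Lagrangian decomposition of the orthogonal complement -/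
theorem step (B : LinearMap.BilinForm F V) (hB : ∀ u, B u u = 0) (M : Submodule F V)
    (u v : V) (hu : u ∈ M) (hv : v ∈ M) (huv : B u v ≠ 0)
    (U' W' : Submodule F V) (hU' : TI B U') (hW' : TI B W') (hdis : Disjoint U' W')
    (hsup : U' ⊔ W' = perp2 B M u v) :
    TI B (Submodule.span F {u} ⊔ U') ∧ TI B (Submodule.span F {v} ⊔ W') ∧
    Disjoint (Submodule.span F {u} ⊔ U') (Submodule.span F {v} ⊔ W') ∧
    (Submodule.span F {u} ⊔ U') ⊔ (Submodule.span F {v} ⊔ W') = M := by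
  have hU'M : U' ≤ perp2 B M u v := hsup ▸ le_sup_left
  have hW'M : W' ≤ perp2 B M u v := hsup ▸ le_sup_right
  have key : ∀ (w : V) (X : Submodule F V), X ≤ perp2 B M u v → TI B X →
      (∀ x ∈ X, B x w = 0) → TI B (Submodule.span F {w} ⊔ X) := by
    intro w X _ hX hw a ha b hb
    obtain ⟨a₁, ha₁, a₂, ha₂, rfl⟩ := Submodule.mem_sup.mp ha
    obtain ⟨b₁, hb₁, b₂, hb₂, rfl⟩ := Submodule.mem_sup.mp hb
    obtain ⟨α, rfl⟩ := Submodule.mem_span_singleton.mp ha₁
    obtain ⟨β, rfl⟩ := Submodule.mem_span_singleton.mp hb₁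
    have h1 : B w b₂ = 0 := by rw [skew B hB, hw b₂ hb₂, neg_zero]
    simp only [map_add, map_smul, LinearMap.add_apply, LinearMap.smul_apply, smul_eq_mul, hB,
      hw a₂ ha₂, h1, hX a₂ ha₂ b₂ hb₂, mul_zero, add_zero]
  refine ⟨key u U' hU'M hU' (fun x hx => ((mem_perp2 B M u v x).mp (hU'M hx)).2.1),
    key v W' hW'M hW' (fun x hx => ((mem_perp2 B M u v x).mp (hW'M hx)).2.2), ?_, ?_⟩
  · rw [Submodule.disjoint_def]
    intro x hx1 hx2
    obtain ⟨a₁, ha₁, a₂, ha₂, rfl⟩ := Submodule.mem_sup.mp hx1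
    obtain ⟨b₁, hb₁, b₂, hb₂, hb⟩ := Submodule.mem_sup.mp hx2
    obtain ⟨α, rfl⟩ := Submodule.mem_span_singleton.mp ha₁
    obtain ⟨β, rfl⟩ := Submodule.mem_span_singleton.mp hb₁
    have h1 : α • u + (-β) • v = b₂ - a₂ := by
      rw [neg_smul, ← sub_eq_add_neg, sub_eq_sub_iff_add_eq_add, add_comm b₂, hb]
    have h2 : α • u + (-β) • v ∈ perp2 B M u v := by
      rw [h1]
      exact Submodule.sub_mem _ (hW'M hb₂) (hU'M ha₂)
    obtain ⟨hα, hβ⟩ := perp2_indep B hB M u v huv α (-β) h2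
    have hβ' : β = 0 := by simpa using hβ
    subst hα
    subst hβ'
    simp only [zero_smul, zero_add] at hb ⊢
    rw [Submodule.disjoint_def] at hdis
    exact hdis a₂ ha₂ (hb ▸ hb₂)
  · apply le_antisymm
    · refine sup_le (sup_le ?_ (hU'M.trans (perp2_le B M u v)))
        (sup_le ?_ (hW'M.trans (perp2_le B M u v)))
      · rw [Submodule.span_singleton_le_iff_mem]; exact hu
      · rw [Submodule.span_singleton_le_iff_mem]; exact hv
    · intro m hm
      obtain ⟨α, β, m', hm', rfl⟩ := perp2_decomp B hB M u v hu hv huv m hm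
      rw [← hsup] at hm'
      obtain ⟨a, ha, b, hb, rfl⟩ := Submodule.mem_sup.mp hm'
      have e : α • u + β • v + (a + b) = (α • u + a) + (β • v + b) := by abel
      rw [e]
      exact Submodule.add_mem _
        (Submodule.mem_sup_left (Submodule.add_mem _
          (Submodule.mem_sup_left (Submodule.smul_mem _ _ (Submodule.mem_span_singleton_self u)))
          (Submodule.mem_sup_right ha)))
        (Submodule.mem_sup_right (Submodule.add_mem _
          (Submodule.mem_sup_left (Submodule.smul_mem _ _ (Submodule.mem_span_singleton_self v)))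
          (Submodule.mem_sup_right hb)))

end Forms

section Inductions

variable {F V : Type*} [Field F] [AddCommGroup V] [Module F V] [FiniteDimensional F V]

/-- the case `T² = 1` in odd characteristic: an invariant Lagrangian decomposition -/
theorem lagr_fixed (B : LinearMap.BilinForm F V) (hB : ∀ u, B u u = 0) (T : V →ₗ[F] V)
    (hiso : ∀ u v, B (T u) (T v) = B u v) (hTT : ∀ v, T (T v) = v) (h2 : (2 : F) ≠ 0) :
    ∀ (k : ℕ) (M : Submodule F V), Module.finrank F M = k → (∀ m ∈ M, T m ∈ M) →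
      NonDegOn B M →
      ∃ U W : Submodule F V, TI B U ∧ TI B W ∧ Disjoint U W ∧ U ⊔ W = M ∧
        (∀ x ∈ U, T x ∈ U) ∧ (∀ x ∈ W, T x ∈ W) := by
  intro k
  induction k using Nat.strong_induction_on with
  | _ k ih =>
  intro M hk hMT hM
  by_cases hbot : M = ⊥
  · subst hbot
    exact ⟨⊥, ⊥, fun u hu v _ => by rw [(Submodule.mem_bot F).mp hu]; simp,
      fun u hu v _ => by rw [(Submodule.mem_bot F).mp hu]; simp, disjoint_bot_left, by simp,
      fun x hx => by rw [(Submodule.mem_bot F).mp hx]; simp,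
      fun x hx => by rw [(Submodule.mem_bot F).mp hx]; simp⟩
  obtain ⟨m, hm, hm0⟩ := Submodule.exists_mem_ne_zero_of_ne_bot hbot
  -- an eigenvector
  have hev : ∃ u ∈ M, u ≠ 0 ∧ ∃ ε : F, ε * ε = 1 ∧ T u = ε • u := by
    by_cases h : m + T m = 0
    · refine ⟨m, hm, hm0, -1, by ring, ?_⟩
      rw [neg_smul, one_smul]
      exact eq_neg_of_add_eq_zero_right h
    · refine ⟨m + T m, M.add_mem hm (hMT m hm), h, 1, by ring, ?_⟩
      rw [map_add, hTT, one_smul, add_comm]
  obtain ⟨u, hu, hu0, ε, hε, hTu⟩ := hev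
  obtain ⟨v', hv', huv'⟩ := hM u hu hu0
  set v : V := v' + ε • T v' with hv
  have hvM : v ∈ M := M.add_mem hv' (M.smul_mem _ (hMT v' hv'))
  have hTv : T v = ε • v := by
    rw [hv, map_add, map_smul, hTT, smul_add, smul_smul, hε, one_smul, add_comm]
  have huTv' : B u (T v') = ε * B u v' := by
    have := hiso u (T v')
    rw [hTT, hTu, map_smul, LinearMap.smul_apply, smul_eq_mul] at this
    exact this.symm
  have huv : B u v ≠ 0 := by
    have : B u v = 2 * B u v' := by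
      rw [hv, map_add, map_smul, smul_eq_mul, huTv', ← mul_assoc, hε]; ring
    rw [this]
    exact mul_ne_zero h2 huv'
  have hM'T : ∀ x ∈ perp2 B M u v, T x ∈ perp2 B M u v := by
    intro x hx
    rw [mem_perp2] at hx ⊢
    refine ⟨hMT x hx.1, ?_, ?_⟩
    · have := hiso x (T u)
      rw [hTT] at this
      have h3 : B x (T u) = 0 := by
        rw [hTu, map_smul, smul_eq_mul, hx.2.1, mul_zero]
      rw [this]
      exact h3
    · have := hiso x (T v)
      rw [hTT] at this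
      have h3 : B x (T v) = 0 := by
        rw [hTv, map_smul, smul_eq_mul, hx.2.2, mul_zero]
      rw [this]
      exact h3
  have hlt := perp2_finrank_lt B M u v hu huv
  obtain ⟨U', W', hU', hW', hdis, hsup, hU'T, hW'T⟩ :=
    ih _ (hk ▸ hlt) (perp2 B M u v) rfl hM'T (perp2_nondeg B hB M u v hu hvM huv hM)
  obtain ⟨h1, h2', h3, h4⟩ := step B hB M u v hu hvM huv U' W' hU' hW' hdis hsup
  refine ⟨_, _, h1, h2', h3, h4, ?_, ?_⟩
  · intro x hx
    obtain ⟨a, ha, b, hb, rfl⟩ := Submodule.mem_sup.mp hx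
    obtain ⟨α, rfl⟩ := Submodule.mem_span_singleton.mp ha
    rw [map_add, map_smul, hTu]
    exact Submodule.add_mem _
      (Submodule.mem_sup_left (Submodule.smul_mem _ _ (Submodule.smul_mem _ _
        (Submodule.mem_span_singleton_self u))))
      (Submodule.mem_sup_right (hU'T b hb))
  · intro x hx
    obtain ⟨a, ha, b, hb, rfl⟩ := Submodule.mem_sup.mp hx
    obtain ⟨α, rfl⟩ := Submodule.mem_span_singleton.mp ha
    rw [map_add, map_smul, hTv]
    exact Submodule.add_mem _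
      (Submodule.mem_sup_left (Submodule.smul_mem _ _ (Submodule.smul_mem _ _
        (Submodule.mem_span_singleton_self v))))
      (Submodule.mem_sup_right (hW'T b hb))

/-- the case `T² = -1` in odd characteristic: a Lagrangian swapped with a complement -/
theorem lagr_swap (B : LinearMap.BilinForm F V) (hB : ∀ u, B u u = 0) (T : V →ₗ[F] V)
    (hiso : ∀ u v, B (T u) (T v) = B u v) (hTT : ∀ v, T (T v) = -v) (h2 : (2 : F) ≠ 0) :
    ∀ (k : ℕ) (M : Submodule F V), Module.finrank F M = k → (∀ m ∈ M, T m ∈ M) →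
      NonDegOn B M →
      ∃ U : Submodule F V, TI B U ∧ Disjoint U (U.map T) ∧ U ⊔ U.map T = M := by
  intro k
  induction k using Nat.strong_induction_on with
  | _ k ih =>
  intro M hk hMT hM
  by_cases hbot : M = ⊥
  · subst hbot
    exact ⟨⊥, fun u hu v _ => by rw [(Submodule.mem_bot F).mp hu]; simp, disjoint_bot_left,
      by simp⟩
  obtain ⟨m, hm, hm0⟩ := Submodule.exists_mem_ne_zero_of_ne_bot hbot
  have hex : ∃ u ∈ M, B u (T u) ≠ 0 := by
    by_contra hcon
    push Not at hcon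
    have hall : ∀ a ∈ M, ∀ b ∈ M, B a (T b) = 0 := by
      intro a ha b hb
      have h1 := hcon (a + b) (M.add_mem ha hb)
      simp only [map_add, LinearMap.add_apply, hcon a ha, hcon b hb, zero_add, add_zero] at h1
      have h3 : B b (T a) = B a (T b) := by
        have e := hiso a (T b)
        rw [hTT, map_neg] at e
        rw [skew B hB b (T a)]
        exact e
      rw [h3] at h1
      have h4 : (2 : F) * B a (T b) = 0 := by rw [two_mul]; exact h1
      exact (mul_eq_zero.mp h4).resolve_left h2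
    obtain ⟨n, hn, hmn⟩ := hM m hm hm0
    apply hmn
    have := hall m hm (-(T n)) (M.neg_mem (hMT n hn))
    rwa [map_neg, hTT, neg_neg] at this
  obtain ⟨u, hu, huTu⟩ := hex
  have hTuM : T u ∈ M := hMT u hu
  have hM'T : ∀ x ∈ perp2 B M u (T u), T x ∈ perp2 B M u (T u) := by
    intro x hx
    rw [mem_perp2] at hx ⊢
    refine ⟨hMT x hx.1, ?_, ?_⟩
    · have e := hiso x (T u)
      rw [hTT, map_neg, hx.2.2] at e
      exact neg_eq_zero.mp e
    · rw [hiso]; exact hx.2.1
  have hlt := perp2_finrank_lt B M u (T u) hu huTu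
  obtain ⟨U', hU', hdis, hsup⟩ :=
    ih _ (hk ▸ hlt) (perp2 B M u (T u)) rfl hM'T (perp2_nondeg B hB M u (T u) hu hTuM huTu hM)
  have hW' : TI B (U'.map T) := by
    intro a ha b hb
    obtain ⟨a', ha', rfl⟩ := Submodule.mem_map.mp ha
    obtain ⟨b', hb', rfl⟩ := Submodule.mem_map.mp hb
    rw [hiso]
    exact hU' a' ha' b' hb'
  obtain ⟨h1, -, h3, h4⟩ := step B hB M u (T u) hu hTuM huTu U' (U'.map T) hU' hW' hdis hsup
  have hmap : (Submodule.span F {u} ⊔ U').map T = Submodule.span F {T u} ⊔ U'.map T := by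
    rw [Submodule.map_sup, Submodule.map_span, Set.image_singleton]
  refine ⟨Submodule.span F {u} ⊔ U', h1, ?_, ?_⟩
  · rw [hmap]; exact h3
  · rw [hmap]; exact h4

end Inductions

/-- Involutions of PSp_n(q), q odd, and the subgroups GL_{n/2}(q).2. Here `T = PSp_n(q)`, `n = 2d ≥ 4`, `q` odd, realised through the symplectic matrices over the field `F` with `q` elements; Ω is the set of unordered pairs `{U, W}` of complementary totally isotropic `d`-spaces (`F^n = U ⊕ W`), whose stabilizers are the subgroups of type GL_d(q).2 (maximal except in some small cases; maximality is not assumed); an element of `T` of prime order `r` (a symplectic matrix `x` with `x^r` scalar, `x` not scalar) fixes such a pair when it fixes or interchanges `U` and `W`. If the number of such pairs is even, every involution of `T` fixes one of them (the action is 2-elusive). -/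
theorem result {F : Type*} [Field F] [Fintype F] {p : ℕ} [Fact p.Prime] [CharP F p] {q : ℕ} (hq : Fintype.card F = q)
    (d : ℕ) (hd : 2 ≤ d) (hT : (d, q) ≠ (2, 2)) (hodd : Odd q)
    (hΩ : 2 ∣ Nat.card {P : Submodule F (Fin d ⊕ Fin d → F) × Submodule F (Fin d ⊕ Fin d → F) // IsCompl P.1 P.2 ∧ (∀ u ∈ P.1, ∀ v ∈ P.1, Cfsg.sympForm d F u v = 0) ∧ (∀ u ∈ P.2, ∀ v ∈ P.2, Cfsg.sympForm d F u v = 0)} / 2)
    (x : ↥(Matrix.symplecticGroup (Fin d) F))
    (hx1 : ∃ z : F, ((x ^ 2 : ↥(Matrix.symplecticGroup (Fin d) F)) : Matrix (Fin d ⊕ Fin d) (Fin d ⊕ Fin d) F) = z • (1 : Matrix (Fin d ⊕ Fin d) (Fin d ⊕ Fin d) F))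
    (hx2 : ∀ z : F, (x : Matrix (Fin d ⊕ Fin d) (Fin d ⊕ Fin d) F) ≠ z • (1 : Matrix (Fin d ⊕ Fin d) (Fin d ⊕ Fin d) F)) :
    ∃ U W : Submodule F (Fin d ⊕ Fin d → F), IsCompl U W ∧ (∀ u ∈ U, ∀ v ∈ U, Cfsg.sympForm d F u v = 0) ∧ (∀ u ∈ W, ∀ v ∈ W, Cfsg.sympForm d F u v = 0) ∧
        ((U.map (Matrix.toLin' (x : Matrix (Fin d ⊕ Fin d) (Fin d ⊕ Fin d) F)) = U ∧ W.map (Matrix.toLin' (x : Matrix (Fin d ⊕ Fin d) (Fin d ⊕ Fin d) F)) = W) ∨
         (U.map (Matrix.toLin' (x : Matrix (Fin d ⊕ Fin d) (Fin d ⊕ Fin d) F)) = W ∧ W.map (Matrix.toLin' (x : Matrix (Fin d ⊕ Fin d) (Fin d ⊕ Fin d) F)) = U)) := by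
  obtain ⟨z, hz⟩ := hx1
  rw [SubmonoidClass.coe_pow] at hz
  have hTz : ∀ v, Matrix.toLin' (x : Matrix (Fin d ⊕ Fin d) (Fin d ⊕ Fin d) F)
      (Matrix.toLin' (x : Matrix (Fin d ⊕ Fin d) (Fin d ⊕ Fin d) F) v) = z • v := by
    intro v
    rw [Matrix.toLin'_apply, Matrix.toLin'_apply, Matrix.mulVec_mulVec, ← pow_two, hz,
      Matrix.smul_mulVec, Matrix.one_mulVec]
  have hBalt : ∀ u, S0768.BJ (F := F) d u u = 0 := S0768.BJ_alt d
  have hiso : ∀ u v, S0768.BJ (F := F) d
      (Matrix.toLin' (x : Matrix (Fin d ⊕ Fin d) (Fin d ⊕ Fin d) F) u)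
      (Matrix.toLin' (x : Matrix (Fin d ⊕ Fin d) (Fin d ⊕ Fin d) F) v) = S0768.BJ (F := F) d u v := by
    intro u v
    rw [S0768.BJ_apply, S0768.BJ_apply, Matrix.toLin'_apply, Matrix.toLin'_apply]
    exact S0766.form_pres d x u v
  have hnd : NonDegOn (S0768.BJ (F := F) d) ⊤ := by
    intro m _ hm0
    obtain ⟨y, hy⟩ := S0766.form_nondeg d m hm0
    exact ⟨y, trivial, by rwa [S0768.BJ_apply]⟩
  have hq2 : (2 : F) ≠ 0 := by
    intro h2
    have : CharP F 2 := CharTwo.of_one_ne_zero_of_two_eq_zero one_ne_zero h2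
    have h3 := FiniteField.even_card_of_char_two (ringChar.eq F 2)
    rw [hq] at h3
    rcases hodd with ⟨k, hk⟩
    omega
  have hzz : z * z = 1 := by
    have hne : (Pi.single (Sum.inl ⟨0, by omega⟩) 1 : Fin d ⊕ Fin d → F) ≠ 0 := by
      intro h
      have := congrFun h (Sum.inl ⟨0, by omega⟩)
      simp at this
    obtain ⟨y, -, hy⟩ := hnd _ trivial hne
    have h1 := hiso (Matrix.toLin' (x : Matrix (Fin d ⊕ Fin d) (Fin d ⊕ Fin d) F)
      (Pi.single (Sum.inl ⟨0, by omega⟩) 1))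
      (Matrix.toLin' (x : Matrix (Fin d ⊕ Fin d) (Fin d ⊕ Fin d) F) y)
    rw [hTz, hTz, hiso, map_smul, map_smul, LinearMap.smul_apply, smul_eq_mul, smul_eq_mul,
      ← mul_assoc] at h1
    exact mul_right_cancel₀ hy (by rw [h1, one_mul])
  have hTI : ∀ U : Submodule F (Fin d ⊕ Fin d → F), TI (S0768.BJ (F := F) d) U →
      ∀ u ∈ U, ∀ v ∈ U, Cfsg.sympForm d F u v = 0 := by
    intro U hU u hu v hv
    rw [← S0768.BJ_apply]
    exact hU u hu v hv
  rcases mul_self_eq_one_iff.mp hzz with rfl | rfl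
  · have hTT : ∀ v, Matrix.toLin' (x : Matrix (Fin d ⊕ Fin d) (Fin d ⊕ Fin d) F)
        (Matrix.toLin' (x : Matrix (Fin d ⊕ Fin d) (Fin d ⊕ Fin d) F) v) = v := by
      intro v; rw [hTz, one_smul]
    obtain ⟨U, W, hU, hW, hdis, hsup, hUT, hWT⟩ := lagr_fixed (S0768.BJ (F := F) d) hBalt
      (Matrix.toLin' (x : Matrix (Fin d ⊕ Fin d) (Fin d ⊕ Fin d) F)) hiso hTT hq2 _ ⊤ rfl
      (fun _ _ => trivial) hnd
    have hmap : ∀ X : Submodule F (Fin d ⊕ Fin d → F),
        (∀ y ∈ X, Matrix.toLin' (x : Matrix (Fin d ⊕ Fin d) (Fin d ⊕ Fin d) F) y ∈ X) →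
        X.map (Matrix.toLin' (x : Matrix (Fin d ⊕ Fin d) (Fin d ⊕ Fin d) F)) = X := by
      intro X hX
      apply le_antisymm
      · rintro _ ⟨y, hy, rfl⟩
        exact hX y hy
      · intro y hy
        exact ⟨_, hX y hy, hTT y⟩
    exact ⟨U, W, ⟨hdis, codisjoint_iff.mpr hsup⟩, hTI U hU, hTI W hW,
      Or.inl ⟨hmap U hUT, hmap W hWT⟩⟩
  · have hTT : ∀ v, Matrix.toLin' (x : Matrix (Fin d ⊕ Fin d) (Fin d ⊕ Fin d) F)
        (Matrix.toLin' (x : Matrix (Fin d ⊕ Fin d) (Fin d ⊕ Fin d) F) v) = -v := by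
      intro v; rw [hTz, neg_smul, one_smul]
    obtain ⟨U, hU, hdis, hsup⟩ := lagr_swap (S0768.BJ (F := F) d) hBalt
      (Matrix.toLin' (x : Matrix (Fin d ⊕ Fin d) (Fin d ⊕ Fin d) F)) hiso hTT hq2 _ ⊤ rfl
      (fun _ _ => trivial) hnd
    have hW : TI (S0768.BJ (F := F) d)
        (U.map (Matrix.toLin' (x : Matrix (Fin d ⊕ Fin d) (Fin d ⊕ Fin d) F))) := by
      intro a ha b hb
      obtain ⟨a', ha', rfl⟩ := Submodule.mem_map.mp ha
      obtain ⟨b', hb', rfl⟩ := Submodule.mem_map.mp hb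
      rw [hiso]
      exact hU a' ha' b' hb'
    refine ⟨U, U.map (Matrix.toLin' (x : Matrix (Fin d ⊕ Fin d) (Fin d ⊕ Fin d) F)),
      ⟨hdis, codisjoint_iff.mpr hsup⟩, hTI U hU, hTI _ hW, Or.inr ⟨rfl, ?_⟩⟩
    apply le_antisymm
    · rintro _ ⟨_, ⟨y, hy, rfl⟩, rfl⟩
      rw [hTT]
      exact U.neg_mem hy
    · intro y hy
      refine ⟨_, ⟨-y, U.neg_mem hy, rfl⟩, ?_⟩
      rw [hTT, neg_neg]

end Cfsg.Agent.S5962
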