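import Cfsg.Statements.S5960
import Cfsg.Agent.S5957
import Cfsg.Agent.S5962

set_option autoImplicit false
open Cfsg

namespace Cfsg.Agent.S5960

open Cfsg.Agent.S5962 (NonDegOn TI skew perp2 mem_perp2 perp2_le perp2_decomp perp2_indep
  perp2_nondeg perp2_finrank_lt)

section Planes

variable {F V : Type*} [Field F] [AddCommGroup V] [Module F V]

/-- a system of mutually orthogonal hyperbolic planes spanning `M`, permuted by `T` -/
structure IsPlaneSys (B : LinearMap.BilinForm F V) (T : V →ₗ[F] V) (M : Submodule F V)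
    (I : Type) (u v : I → V) (π : I → I) : Prop where
  inv : ∀ i, π (π i) = i
  memu : ∀ i, u i ∈ M
  memv : ∀ i, v i ∈ M
  ne : ∀ i, B (u i) (v i) ≠ 0
  orth : ∀ i j, i ≠ j → B (u i) (u j) = 0 ∧ B (u i) (v j) = 0 ∧ B (v i) (u j) = 0 ∧
    B (v i) (v j) = 0
  span : M ≤ ⨆ i, Submodule.span F {u i, v i}
  map : ∀ i, (Submodule.span F {u i, v i}).map T = Submodule.span F {u (π i), v (π i)}

theorem mem_span_pair' (a b x : V) :
    x ∈ Submodule.span F {a, b} ↔ ∃ α β : F, α • a + β • b = x :=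
  Submodule.mem_span_pair

/-- combining two orthogonal systems -/
theorem combine (B : LinearMap.BilinForm F V) (hB : ∀ u, B u u = 0) (T : V →ₗ[F] V)
    (M M₁ M₂ : Submodule F V)
    (I₁ I₂ : Type) (u₁ v₁ : I₁ → V) (π₁ : I₁ → I₁) (u₂ v₂ : I₂ → V) (π₂ : I₂ → I₂)
    (h₁ : IsPlaneSys B T M₁ I₁ u₁ v₁ π₁) (h₂ : IsPlaneSys B T M₂ I₂ u₂ v₂ π₂)
    (horth : ∀ x ∈ M₁, ∀ y ∈ M₂, B x y = 0) (hM₁ : M₁ ≤ M) (hM₂ : M₂ ≤ M)
    (hM : M ≤ M₁ ⊔ M₂) :
    IsPlaneSys B T M (I₁ ⊕ I₂) (Sum.elim u₁ u₂) (Sum.elim v₁ v₂) (Sum.map π₁ π₂) where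
  inv := by
    rintro (i | i)
    · simp [h₁.inv]
    · simp [h₂.inv]
  memu := by
    rintro (i | i)
    · exact hM₁ (h₁.memu i)
    · exact hM₂ (h₂.memu i)
  memv := by
    rintro (i | i)
    · exact hM₁ (h₁.memv i)
    · exact hM₂ (h₂.memv i)
  ne := by
    rintro (i | i)
    · exact h₁.ne i
    · exact h₂.ne i
  orth := by
    have horth' : ∀ x ∈ M₁, ∀ y ∈ M₂, B y x = 0 := fun x hx y hy => by
      rw [skew B hB, horth x hx y hy, neg_zero]
    rintro (i | i) (j | j) hij
    · exact h₁.orth i j (fun h => hij (by rw [h]))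
    · exact ⟨horth _ (h₁.memu i) _ (h₂.memu j), horth _ (h₁.memu i) _ (h₂.memv j),
        horth _ (h₁.memv i) _ (h₂.memu j), horth _ (h₁.memv i) _ (h₂.memv j)⟩
    · exact ⟨horth' _ (h₁.memu j) _ (h₂.memu i), horth' _ (h₁.memv j) _ (h₂.memu i),
        horth' _ (h₁.memu j) _ (h₂.memv i), horth' _ (h₁.memv j) _ (h₂.memv i)⟩
    · exact h₂.orth i j (fun h => hij (by rw [h]))
  span := by
    refine hM.trans (sup_le ?_ ?_)
    · refine h₁.span.trans (iSup_le fun i => ?_)
      exact le_iSup (fun k : I₁ ⊕ I₂ => Submodule.span F {Sum.elim u₁ u₂ k, Sum.elim v₁ v₂ k})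
        (Sum.inl i)
    · refine h₂.span.trans (iSup_le fun i => ?_)
      exact le_iSup (fun k : I₁ ⊕ I₂ => Submodule.span F {Sum.elim u₁ u₂ k, Sum.elim v₁ v₂ k})
        (Sum.inr i)
  map := by
    rintro (i | i)
    · exact h₁.map i
    · exact h₂.map i

/-- a single invariant plane -/
theorem single (B : LinearMap.BilinForm F V) (T : V →ₗ[F] V) (u₀ v₀ : V) (hne : B u₀ v₀ ≠ 0)
    (hmap : (Submodule.span F {u₀, v₀}).map T = Submodule.span F {u₀, v₀}) :
    IsPlaneSys B T (Submodule.span F {u₀, v₀}) Unit (fun _ => u₀) (fun _ => v₀) id where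
  inv := fun _ => rfl
  memu := fun _ => Submodule.subset_span (by simp)
  memv := fun _ => Submodule.subset_span (by simp)
  ne := fun _ => hne
  orth := fun i j hij => absurd (Subsingleton.elim i j) hij
  span := le_iSup (fun _ : Unit => Submodule.span F {u₀, v₀}) ()
  map := fun _ => hmap

/-- a pair of swapped planes -/
theorem double (B : LinearMap.BilinForm F V) (hB : ∀ u, B u u = 0) (T : V →ₗ[F] V)
    (u₀ v₀ : V) (hne : B u₀ v₀ ≠ 0) (hne' : B (T u₀) (T v₀) ≠ 0)
    (h1 : B u₀ (T u₀) = 0) (h2 : B u₀ (T v₀) = 0) (h3 : B v₀ (T u₀) = 0) (h4 : B v₀ (T v₀) = 0)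
    (hmap : (Submodule.span F {T u₀, T v₀}).map T = Submodule.span F {u₀, v₀}) :
    IsPlaneSys B T (Submodule.span F {u₀, v₀} ⊔ Submodule.span F {T u₀, T v₀}) Bool
      (fun b => if b then T u₀ else u₀) (fun b => if b then T v₀ else v₀) not where
  inv := fun b => by simp
  memu := by
    intro b
    cases b
    · exact Submodule.mem_sup_left (Submodule.subset_span (by simp))
    · exact Submodule.mem_sup_right (Submodule.subset_span (by simp))
  memv := by
    intro b
    cases b
    · exact Submodule.mem_sup_left (Submodule.subset_span (by simp))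
    · exact Submodule.mem_sup_right (Submodule.subset_span (by simp))
  ne := by
    intro b
    cases b
    · simpa using hne
    · simpa using hne'
  orth := by
    intro b b' hbb'
    cases b <;> cases b'
    · exact absurd rfl hbb'
    · simpa using ⟨h1, h2, h3, h4⟩
    · have e1 := skew B hB (T u₀) u₀
      have e2 := skew B hB (T u₀) v₀
      have e3 := skew B hB (T v₀) u₀
      have e4 := skew B hB (T v₀) v₀
      rw [h1, neg_zero] at e1
      rw [h3, neg_zero] at e2
      rw [h2, neg_zero] at e3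
      rw [h4, neg_zero] at e4
      simpa using ⟨e1, e2, e3, e4⟩
    · exact absurd rfl hbb'
  span := by
    refine sup_le ?_ ?_
    · have := le_iSup (fun b : Bool => Submodule.span F
        {(if b then T u₀ else u₀), (if b then T v₀ else v₀)}) false
      simpa using this
    · have := le_iSup (fun b : Bool => Submodule.span F
        {(if b then T u₀ else u₀), (if b then T v₀ else v₀)}) true
      simpa using this
  map := by
    intro b
    cases b
    · simp only [Bool.false_eq_true, if_false, Bool.not_false, if_true]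
      rw [Submodule.map_span, Set.image_pair]
    · simpa using hmap

theorem span_pair_smul (a b : V) (α β : F) (hα : α ≠ 0) (hβ : β ≠ 0) :
    Submodule.span F {α • a, β • b} = Submodule.span F {a, b} := by
  apply le_antisymm
  · refine Submodule.span_le.mpr ?_
    rintro x (rfl | rfl)
    · exact Submodule.smul_mem _ _ (Submodule.subset_span (by simp))
    · exact Submodule.smul_mem _ _ (Submodule.subset_span (by simp))
  · refine Submodule.span_le.mpr ?_
    rintro x (rfl | rfl)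
    · have h := Submodule.smul_mem (Submodule.span F {α • x, β • b}) α⁻¹
        (Submodule.subset_span (Set.mem_insert _ _))
      rwa [smul_smul, inv_mul_cancel₀ hα, one_smul] at h
    · have h := Submodule.smul_mem (Submodule.span F {α • a, β • x}) β⁻¹
        (Submodule.subset_span (Set.mem_insert_of_mem _ (Set.mem_singleton _)))
      rwa [smul_smul, inv_mul_cancel₀ hβ, one_smul] at h

theorem orth_pair (B : LinearMap.BilinForm F V) (hB : ∀ u, B u u = 0) (a b y : V)
    (ha : B y a = 0) (hb : B y b = 0) : ∀ x ∈ Submodule.span F {a, b}, B x y = 0 := by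
  intro x hx
  obtain ⟨α, β, rfl⟩ := Submodule.mem_span_pair.mp hx
  have ha' : B a y = 0 := by rw [skew B hB, ha, neg_zero]
  have hb' : B b y = 0 := by rw [skew B hB, hb, neg_zero]
  simp [ha', hb']

theorem exists_planes [FiniteDimensional F V] (B : LinearMap.BilinForm F V)
    (hB : ∀ u, B u u = 0) (T : V →ₗ[F] V) (hiso : ∀ u v, B (T u) (T v) = B u v) (z : F)
    (hz : z ≠ 0) (hTT : ∀ v, T (T v) = z • v) :
    ∀ (k : ℕ) (M : Submodule F V), Module.finrank F M = k → (∀ m ∈ M, T m ∈ M) →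
      NonDegOn B M →
      ∃ (I : Type) (_ : Fintype I) (u v : I → V) (π : I → I), IsPlaneSys B T M I u v π := by
  intro k
  induction k using Nat.strong_induction_on with
  | _ k ih =>
  intro M hk hMT hM
  by_cases hbot : M = ⊥
  · subst hbot
    refine ⟨Empty, inferInstance, Empty.elim, Empty.elim, id, ?_⟩
    exact ⟨fun i => i.elim, fun i => i.elim, fun i => i.elim, fun i => i.elim,
      fun i => i.elim, bot_le, fun i => i.elim⟩
  -- splitting off an invariant plane
  have ext1 : ∀ u₀ ∈ M, ∀ v₀ ∈ M, B u₀ v₀ ≠ 0 →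
      (Submodule.span F {u₀, v₀}).map T = Submodule.span F {u₀, v₀} →
      ∃ (I : Type) (_ : Fintype I) (u v : I → V) (π : I → I), IsPlaneSys B T M I u v π := by
    intro u₀ hu₀ v₀ hv₀ hne hmap
    have hM₂T : ∀ x ∈ perp2 B M u₀ v₀, T x ∈ perp2 B M u₀ v₀ := by
      intro x hx
      rw [mem_perp2] at hx ⊢
      have key : ∀ y ∈ Submodule.span F {u₀, v₀}, B (T x) y = 0 := by
        intro y hy
        rw [← hmap] at hy
        obtain ⟨p, hp, rfl⟩ := Submodule.mem_map.mp hy
        obtain ⟨α, β, rfl⟩ := Submodule.mem_span_pair.mp hp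
        rw [hiso]
        simp [hx.2.1, hx.2.2]
      exact ⟨hMT x hx.1, key u₀ (Submodule.subset_span (by simp)),
        key v₀ (Submodule.subset_span (by simp))⟩
    have hlt := perp2_finrank_lt B M u₀ v₀ hu₀ hne
    obtain ⟨I₂, hI₂, u₂, v₂, π₂, hsys⟩ := ih _ (hk ▸ hlt) (perp2 B M u₀ v₀) rfl hM₂T
      (perp2_nondeg B hB M u₀ v₀ hu₀ hv₀ hne hM)
    refine ⟨Unit ⊕ I₂, inferInstance, _, _, _, combine B hB T M _ _ _ _ _ _ _ _ _ _
      (single B T u₀ v₀ hne hmap) hsys ?_ ?_ (perp2_le B M u₀ v₀) ?_⟩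
    · intro x hx y hy
      rw [mem_perp2] at hy
      exact orth_pair B hB u₀ v₀ y hy.2.1 hy.2.2 x hx
    · refine Submodule.span_le.mpr ?_
      rintro x (rfl | rfl)
      · exact hu₀
      · exact hv₀
    · intro m hm
      obtain ⟨α, β, m', hm', rfl⟩ := perp2_decomp B hB M u₀ v₀ hu₀ hv₀ hne m hm
      exact Submodule.add_mem _ (Submodule.mem_sup_left
        (Submodule.mem_span_pair.mpr ⟨α, β, rfl⟩)) (Submodule.mem_sup_right hm')
  by_cases hA : ∃ u₀ ∈ M, B u₀ (T u₀) ≠ 0
  · obtain ⟨u₀, hu₀, hne⟩ := hA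
    refine ext1 u₀ hu₀ (T u₀) (hMT u₀ hu₀) hne ?_
    rw [Submodule.map_span, Set.image_pair, hTT]
    have := span_pair_smul (T u₀) u₀ (1 : F) z one_ne_zero hz
    rw [one_smul] at this
    rw [this, Set.pair_comm]
  push Not at hA
  by_cases hB1 : ∃ v₀ ∈ M, ∀ c : F, T v₀ ≠ c • v₀
  · obtain ⟨v₀, hv₀, hv₀c⟩ := hB1
    have hTv0 : T v₀ ≠ 0 := fun h => hv₀c 0 (by rw [h, zero_smul])
    have hex : ∃ u₀ ∈ M, B u₀ v₀ ≠ 0 ∧ B u₀ (T v₀) = 0 := by
      by_contra hcon
      push Not at hcon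
      obtain ⟨w, hw, hw'⟩ := hM (T v₀) (hMT v₀ hv₀) hTv0
      have hw2 : B w (T v₀) ≠ 0 := by
        rw [skew B hB]; exact neg_ne_zero.mpr hw'
      set c : F := B w v₀ / B w (T v₀) with hc
      have h1 : ∀ u ∈ M, B u (v₀ - c • T v₀) = 0 := by
        intro u hu
        have hu' : u - (B u (T v₀) / B w (T v₀)) • w ∈ M := M.sub_mem hu (M.smul_mem _ hw)
        have h2 : B (u - (B u (T v₀) / B w (T v₀)) • w) (T v₀) = 0 := by
          simp only [map_sub, map_smul, LinearMap.sub_apply, LinearMap.smul_apply, smul_eq_mul]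
          field_simp
          ring
        have h3 := hcon _ hu'
        have h4 : B (u - (B u (T v₀) / B w (T v₀)) • w) v₀ = 0 := by
          by_contra h5
          exact h3 h5 h2
        simp only [map_sub, map_smul, LinearMap.sub_apply, LinearMap.smul_apply,
          smul_eq_mul] at h4 ⊢
        rw [hc]
        field_simp
        field_simp at h4
        linear_combination h4
      have h6 : v₀ - c • T v₀ = 0 := by
        by_contra h7
        obtain ⟨n, hn, hn'⟩ := hM _ (M.sub_mem hv₀ (M.smul_mem _ (hMT v₀ hv₀))) h7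
        apply hn'
        rw [skew B hB, h1 n hn, neg_zero]
      have hc0 : c ≠ 0 := by
        rintro h0
        rw [h0, zero_smul, sub_zero] at h6
        rw [h6, map_zero] at hTv0
        exact hTv0 rfl
      apply hv₀c c⁻¹
      have h8 : v₀ = c • T v₀ := sub_eq_zero.mp h6
      rw [h8, smul_smul, inv_mul_cancel₀ hc0, one_smul]
      rw [← h8]
    obtain ⟨u₀, hu₀, hne, h2⟩ := hex
    have h1 : B u₀ (T u₀) = 0 := hA u₀ hu₀
    have h4 : B v₀ (T v₀) = 0 := hA v₀ hv₀
    have h3 : B v₀ (T u₀) = 0 := by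
      have e := hiso v₀ (T u₀)
      rw [hTT, map_smul, smul_eq_mul, skew B hB (T v₀) u₀, h2, neg_zero, mul_zero] at e
      exact e.symm
    have hne' : B (T u₀) (T v₀) ≠ 0 := by rw [hiso]; exact hne
    have hTu₀ : T u₀ ∈ perp2 B M u₀ v₀ := by
      rw [mem_perp2]
      refine ⟨hMT u₀ hu₀, ?_, ?_⟩
      · rw [skew B hB, h1, neg_zero]
      · rw [skew B hB, h3, neg_zero]
    have hTv₀ : T v₀ ∈ perp2 B M u₀ v₀ := by
      rw [mem_perp2]
      refine ⟨hMT v₀ hv₀, ?_, ?_⟩
      · rw [skew B hB, h2, neg_zero]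
      · rw [skew B hB, h4, neg_zero]
    set M₁ := perp2 B M u₀ v₀ with hM₁
    have hM₁nd : NonDegOn B M₁ := perp2_nondeg B hB M u₀ v₀ hu₀ hv₀ hne hM
    have hlt1 : Module.finrank F M₁ < Module.finrank F M := perp2_finrank_lt B M u₀ v₀ hu₀ hne
    have hlt2 := perp2_finrank_lt B M₁ (T u₀) (T v₀) hTu₀ hne'
    have hM₂T : ∀ x ∈ perp2 B M₁ (T u₀) (T v₀), T x ∈ perp2 B M₁ (T u₀) (T v₀) := by
      intro x hx
      rw [mem_perp2, hM₁, mem_perp2] at hx ⊢
      obtain ⟨⟨hxM, hx1, hx2⟩, hx3, hx4⟩ := hx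
      have k1 : B (T x) u₀ = 0 := by
        have e := hiso x (T u₀)
        rw [hTT, map_smul, smul_eq_mul, hx3] at e
        exact (mul_eq_zero.mp e).resolve_left hz
      have k2 : B (T x) v₀ = 0 := by
        have e := hiso x (T v₀)
        rw [hTT, map_smul, smul_eq_mul, hx4] at e
        exact (mul_eq_zero.mp e).resolve_left hz
      exact ⟨⟨hMT x hxM, k1, k2⟩, by rw [hiso]; exact hx1, by rw [hiso]; exact hx2⟩
    obtain ⟨I₂, hI₂, u₂, v₂, π₂, hsys⟩ := ih _ (by omega) (perp2 B M₁ (T u₀) (T v₀)) rfl hM₂T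
      (perp2_nondeg B hB M₁ (T u₀) (T v₀) hTu₀ hTv₀ hne' hM₁nd)
    have hmap : (Submodule.span F {T u₀, T v₀}).map T = Submodule.span F {u₀, v₀} := by
      rw [Submodule.map_span, Set.image_pair, hTT, hTT]
      exact span_pair_smul u₀ v₀ z z hz hz
    refine ⟨Bool ⊕ I₂, inferInstance, _, _, _, combine B hB T M _ _ _ _ _ _ _ _ _ _
      (double B hB T u₀ v₀ hne hne' h1 h2 h3 h4 hmap) hsys ?_ ?_
      ((perp2_le B M₁ _ _).trans (perp2_le B M u₀ v₀)) ?_⟩
    · intro x hx y hy
      rw [mem_perp2, hM₁, mem_perp2] at hy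
      obtain ⟨⟨-, hy1, hy2⟩, hy3, hy4⟩ := hy
      obtain ⟨a, ha, b, hb, rfl⟩ := Submodule.mem_sup.mp hx
      rw [map_add, LinearMap.add_apply, orth_pair B hB u₀ v₀ y hy1 hy2 a ha,
        orth_pair B hB (T u₀) (T v₀) y hy3 hy4 b hb, add_zero]
    · refine sup_le (Submodule.span_le.mpr ?_) (Submodule.span_le.mpr ?_)
      · rintro x (rfl | rfl)
        · exact hu₀
        · exact hv₀
      · rintro x (rfl | rfl)
        · exact hMT _ hu₀
        · exact hMT _ hv₀
    · intro m hm
      obtain ⟨α, β, m', hm', rfl⟩ := perp2_decomp B hB M u₀ v₀ hu₀ hv₀ hne m hm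
      obtain ⟨γ, δ, m'', hm'', rfl⟩ :=
        perp2_decomp B hB M₁ (T u₀) (T v₀) hTu₀ hTv₀ hne' m' hm'
      have e : α • u₀ + β • v₀ + (γ • T u₀ + δ • T v₀ + m'') =
          ((α • u₀ + β • v₀) + (γ • T u₀ + δ • T v₀)) + m'' := by abel
      rw [e]
      exact Submodule.add_mem _ (Submodule.mem_sup_left (Submodule.add_mem _
        (Submodule.mem_sup_left (Submodule.mem_span_pair.mpr ⟨α, β, rfl⟩))
        (Submodule.mem_sup_right (Submodule.mem_span_pair.mpr ⟨γ, δ, rfl⟩))))
        (Submodule.mem_sup_right hm'')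
  push Not at hB1
  obtain ⟨u₀, hu₀, hu₀0⟩ := Submodule.exists_mem_ne_zero_of_ne_bot hbot
  obtain ⟨v₀, hv₀, hne⟩ := hM u₀ hu₀ hu₀0
  obtain ⟨lam, hlam⟩ := hB1 u₀ hu₀
  obtain ⟨mu, hmu⟩ := hB1 v₀ hv₀
  have hv₀0 : v₀ ≠ 0 := by
    rintro rfl
    exact hne (by simp)
  have hlam0 : lam ≠ 0 := by
    rintro rfl
    rw [zero_smul] at hlam
    have := hTT u₀
    rw [hlam, map_zero] at this
    exact hu₀0 ((smul_eq_zero.mp this.symm).resolve_left hz)
  have hmu0 : mu ≠ 0 := by
    rintro rfl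
    rw [zero_smul] at hmu
    have := hTT v₀
    rw [hmu, map_zero] at this
    exact hv₀0 ((smul_eq_zero.mp this.symm).resolve_left hz)
  refine ext1 u₀ hu₀ v₀ hv₀ hne ?_
  rw [Submodule.map_span, Set.image_pair, hlam, hmu]
  exact span_pair_smul u₀ v₀ lam mu hlam0 hmu0

end Planes

section Assembly

variable {F V : Type*} [Field F] [AddCommGroup V] [Module F V] [FiniteDimensional F V]

theorem exists_decomp (B : LinearMap.BilinForm F V) (hB : ∀ u, B u u = 0) (T : V →ₗ[F] V)
    (hiso : ∀ u v, B (T u) (T v) = B u v) (z : F) (hz : z ≠ 0) (hTT : ∀ v, T (T v) = z • v)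
    (hnd : NonDegOn B ⊤) (a' t : ℕ) (hdim : Module.finrank F V = 2 * (a' * t)) :
    ∃ (D : Fin t → Submodule F V) (σ : Equiv.Perm (Fin t)),
      (∀ j, Module.finrank F (D j) = 2 * a') ∧ iSupIndep D ∧ iSup D = ⊤ ∧
      (∀ j, NonDegOn B (D j)) ∧ (∀ j j', j ≠ j' → ∀ x ∈ D j, ∀ y ∈ D j', B x y = 0) ∧
      ∀ j, (D j).map T = D (σ j) := by
  classical
  obtain ⟨I, hI, u, v, π, hsys⟩ := exists_planes B hB T hiso z hz hTT _ ⊤ rfl
    (fun _ _ => trivial) hnd
  let g : I ⊕ I → V := Sum.elim u v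
  let pr : I ⊕ I → I := Sum.elim id id
  have hg_orth : ∀ k l, pr k ≠ pr l → B (g k) (g l) = 0 := by
    rintro (i | i) (j | j) h
    · exact (hsys.orth i j h).1
    · exact (hsys.orth i j h).2.1
    · exact (hsys.orth i j h).2.2.1
    · exact (hsys.orth i j h).2.2.2
  have hgP : ∀ k, g k ∈ Submodule.span F {u (pr k), v (pr k)} := by
    rintro (i | i)
    · exact Submodule.subset_span (by simp [g, pr])
    · exact Submodule.subset_span (by simp [g, pr])
  have hli : LinearIndependent F g := by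
    rw [Fintype.linearIndependent_iff]
    intro w hw
    have key : ∀ l, ∑ k, w k * B (g k) (g l) = 0 := by
      intro l
      have := congrArg (fun x => B x (g l)) hw
      simpa [map_sum, LinearMap.sum_apply] using this
    rintro (i | i)
    · have h := key (Sum.inr i)
      rw [Fintype.sum_sum_type] at h
      have e1 : ∑ j, w (Sum.inl j) * B (g (Sum.inl j)) (g (Sum.inr i)) =
          w (Sum.inl i) * B (u i) (v i) :=
        Finset.sum_eq_single i (fun j _ hji => by
          have : B (g (Sum.inl j)) (g (Sum.inr i)) = 0 := hg_orth _ _ hji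
          rw [this, mul_zero]) (fun h' => absurd (Finset.mem_univ i) h')
      have e2 : ∑ j, w (Sum.inr j) * B (g (Sum.inr j)) (g (Sum.inr i)) = 0 := by
        refine Finset.sum_eq_zero fun j _ => ?_
        by_cases hji : j = i
        · subst hji
          have : B (g (Sum.inr j)) (g (Sum.inr j)) = 0 := hB _
          rw [this, mul_zero]
        · have : B (g (Sum.inr j)) (g (Sum.inr i)) = 0 := hg_orth _ _ hji
          rw [this, mul_zero]
      rw [e1, e2, add_zero] at h
      exact (mul_eq_zero.mp h).resolve_right (hsys.ne i)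
    · have h := key (Sum.inl i)
      rw [Fintype.sum_sum_type] at h
      have e1 : ∑ j, w (Sum.inl j) * B (g (Sum.inl j)) (g (Sum.inl i)) = 0 := by
        refine Finset.sum_eq_zero fun j _ => ?_
        by_cases hji : j = i
        · subst hji
          have : B (g (Sum.inl j)) (g (Sum.inl j)) = 0 := hB _
          rw [this, mul_zero]
        · have : B (g (Sum.inl j)) (g (Sum.inl i)) = 0 := hg_orth _ _ hji
          rw [this, mul_zero]
      have e2 : ∑ j, w (Sum.inr j) * B (g (Sum.inr j)) (g (Sum.inl i)) =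
          w (Sum.inr i) * B (v i) (u i) :=
        Finset.sum_eq_single i (fun j _ hji => by
          have : B (g (Sum.inr j)) (g (Sum.inl i)) = 0 := hg_orth _ _ hji
          rw [this, mul_zero]) (fun h' => absurd (Finset.mem_univ i) h')
      rw [e1, e2, zero_add] at h
      refine (mul_eq_zero.mp h).resolve_right ?_
      rw [skew B hB]
      exact neg_ne_zero.mpr (hsys.ne i)
  have hspan : Submodule.span F (Set.range g) = ⊤ := by
    rw [eq_top_iff]
    refine hsys.span.trans (iSup_le fun i => Submodule.span_le.mpr ?_)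
    rintro x (rfl | rfl)
    · exact Submodule.subset_span ⟨Sum.inl i, rfl⟩
    · exact Submodule.subset_span ⟨Sum.inr i, rfl⟩
  have hcard : Fintype.card I = a' * t := by
    have h1 := finrank_span_eq_card hli
    rw [hspan, finrank_top, hdim, Fintype.card_sum] at h1
    omega
  obtain ⟨c, σ, h1, h2, h3, h4, h5⟩ := S5957.exists_blocks π hsys.inv a' t Finset.univ
    (fun i _ => Finset.mem_univ _) (by rw [Finset.card_univ, hcard])
  let D : Fin t → Submodule F V := fun j => Submodule.span F (g '' {k | c (pr k) = j.val})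
  let σ' : Equiv.Perm (Fin t) := Function.Involutive.toPerm
    (fun j => ⟨σ j.val, h3 j.val j.isLt⟩) (fun j => Fin.ext (h4 j.val j.isLt))
  have hPD : ∀ (i : I) (j : Fin t), c i = j.val → Submodule.span F {u i, v i} ≤ D j := by
    intro i j hij
    refine Submodule.span_le.mpr ?_
    rintro x (rfl | rfl)
    · exact Submodule.subset_span ⟨Sum.inl i, hij, rfl⟩
    · exact Submodule.subset_span ⟨Sum.inr i, hij, rfl⟩
  have horth : ∀ j j', j ≠ j' → ∀ x ∈ D j, ∀ y ∈ D j', B x y = 0 := by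
    intro j j' hjj'
    have hgen : ∀ k, c (pr k) = j.val → ∀ l, c (pr l) = j'.val → B (g k) (g l) = 0 := by
      intro k hk l hl
      refine hg_orth k l fun h => hjj' (Fin.ext ?_)
      rw [← hk, ← hl, h]
    have hstep1 : ∀ k, c (pr k) = j.val → ∀ y ∈ D j', B (g k) y = 0 := by
      intro k hk y hy
      have hle : D j' ≤ LinearMap.ker (B (g k)) := by
        refine Submodule.span_le.mpr ?_
        rintro _ ⟨l, hl, rfl⟩
        exact hgen k hk l hl
      exact hle hy
    intro x hx y hy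
    have hle : D j ≤ LinearMap.ker (LinearMap.flip B y) := by
      refine Submodule.span_le.mpr ?_
      rintro _ ⟨k, hk, rfl⟩
      exact hstep1 k hk y hy
    exact hle hx
  have htop : iSup D = ⊤ := by
    rw [eq_top_iff, ← hspan]
    refine Submodule.span_le.mpr ?_
    rintro _ ⟨k, rfl⟩
    have hlt := h1 (pr k) (Finset.mem_univ _)
    have : g k ∈ D ⟨c (pr k), hlt⟩ := Submodule.subset_span ⟨k, rfl, rfl⟩
    exact (le_iSup D _) this
  refine ⟨D, σ', ?_, ?_, htop, ?_, horth, ?_⟩
  · intro j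
    have hrange : g '' {k | c (pr k) = j.val} =
        Set.range (fun k : {k : I ⊕ I // c (pr k) = j.val} => g k) := by
      ext x
      constructor
      · rintro ⟨k, hk, rfl⟩
        exact ⟨⟨k, hk⟩, rfl⟩
      · rintro ⟨k, rfl⟩
        exact ⟨k.1, k.2, rfl⟩
    have hli' : LinearIndependent F (fun k : {k : I ⊕ I // c (pr k) = j.val} => g k) :=
      hli.comp _ Subtype.val_injective
    show Module.finrank F (Submodule.span F (g '' {k | c (pr k) = j.val})) = 2 * a'
    rw [hrange, finrank_span_eq_card hli',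
      Fintype.card_congr (Equiv.subtypeSum (p := fun k : I ⊕ I => c (pr k) = j.val)),
      Fintype.card_sum]
    have e : Fintype.card {i : I // c i = j.val} = a' := by
      rw [Fintype.card_subtype]
      exact h2 j.val j.isLt
    have e1 : Fintype.card {i : I // c (pr (Sum.inl i)) = j.val} = a' := e
    have e2 : Fintype.card {i : I // c (pr (Sum.inr i)) = j.val} = a' := e
    rw [e1, e2, two_mul]
  · intro j
    have hle : (⨆ k, ⨆ (_ : k ≠ j), D k) ≤
        Submodule.span F (g '' {k | c (pr k) ≠ j.val}) := by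
      refine iSup₂_le fun k hk => Submodule.span_mono ?_
      rintro _ ⟨l, hl, rfl⟩
      refine ⟨l, ?_, rfl⟩
      show c (pr l) ≠ j.val
      rw [hl]
      exact fun h' => hk (Fin.ext h')
    refine Disjoint.mono_right hle ?_
    refine hli.disjoint_span_image ?_
    rw [Set.disjoint_left]
    intro k hk hk'
    exact hk' hk
  · intro j x hx hx0
    obtain ⟨y, -, hy⟩ := hnd x trivial hx0
    have hyt : y ∈ iSup D := by rw [htop]; trivial
    rw [iSup_split_single D j] at hyt
    obtain ⟨y₁, hy₁, y₂, hy₂, rfl⟩ := Submodule.mem_sup.mp hyt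
    have hle : (⨆ k, ⨆ (_ : k ≠ j), D k) ≤ LinearMap.ker (B x) := by
      refine iSup₂_le fun k hk => ?_
      intro w hw
      exact horth j k (Ne.symm hk) x hx w hw
    have h0 : B x y₂ = 0 := hle hy₂
    refine ⟨y₁, hy₁, ?_⟩
    rwa [map_add, h0, add_zero] at hy
  · intro j
    apply le_antisymm
    · show Submodule.map T (Submodule.span F (g '' {k | c (pr k) = j.val})) ≤ _
      rw [Submodule.map_span]
      refine Submodule.span_le.mpr ?_
      rintro _ ⟨_, ⟨k, hk, rfl⟩, rfl⟩
      have hk' : c (pr k) = j.val := hk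
      have hm : T (g k) ∈ Submodule.span F {u (π (pr k)), v (π (pr k))} := by
        rw [← hsys.map (pr k)]
        exact Submodule.mem_map_of_mem (hgP k)
      refine hPD (π (pr k)) (σ' j) ?_ hm
      have := h5 (pr k) (Finset.mem_univ _)
      rw [hk'] at this
      exact this
    · refine Submodule.span_le.mpr ?_
      rintro _ ⟨k, hk, rfl⟩
      have hk' : c (pr k) = σ j.val := hk
      have hm : g k ∈ (Submodule.span F {u (π (pr k)), v (π (pr k))}).map T := by
        rw [hsys.map (π (pr k)), hsys.inv]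
        exact hgP k
      have hc : c (π (pr k)) = j.val := by
        have := h5 (pr k) (Finset.mem_univ _)
        rw [hk', h4 j.val j.isLt] at this
        exact this
      exact Submodule.map_mono (hPD (π (pr k)) j hc) hm

end Assembly

/-- Involutions of PSp_n(q) and imprimitive subgroups. Here `T = PSp_n(q)`, `n = 2d ≥ 4`, `(n, q) ≠ (4, 2)`, realised through the symplectic matrices over the field `F` with `q` elements and the standard alternating form; `n = a·t` with `a` even and `t ≥ 2`, and Ω is the (nonempty) set of orthogonal decompositions of `F^n` into `t` nondegenerate subspaces of dimension `a` (unordered; counted as ordered ones divided by `t!`), whose stabilizers are the imprimitive subgroups of type Sp_a(q) ≀ S_t (maximality is not assumed); an element of `T` of prime order `r` (a symplectic matrix `x` with `x^r` scalar, `x` not scalar) fixes a point of Ω when it permutes the summands of some such decomposition. If the number of such decompositions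 is even, then every involution of `T` stabilizes one of them (the action is 2-elusive). -/
theorem result {F : Type*} [Field F] [Fintype F] {p : ℕ} [Fact p.Prime] [CharP F p] {q : ℕ} (hq : Fintype.card F = q)
    (d : ℕ) (hd : 2 ≤ d) (hT : (d, q) ≠ (2, 2))
    (a t : ℕ) (hat : 2 * d = a * t) (ha : 2 ≤ a) (hae : Even a) (ht : 2 ≤ t) (hΩ : 2 ∣ Nat.card {D : Fin t → Submodule F (Fin d ⊕ Fin d → F) // (Cfsg.Geo.IsMDecomposition a D ∧ (∀ j, ∀ u ∈ D j, u ≠ 0 → ∃ v ∈ D j, Cfsg.sympForm d F u v ≠ 0) ∧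
          (∀ j j', j ≠ j' → ∀ u ∈ D j, ∀ v ∈ D j', Cfsg.sympForm d F u v = 0))} / Nat.factorial t)
    (x : ↥(Matrix.symplecticGroup (Fin d) F))
    (hx1 : ∃ z : F, ((x ^ 2 : ↥(Matrix.symplecticGroup (Fin d) F)) : Matrix (Fin d ⊕ Fin d) (Fin d ⊕ Fin d) F) = z • (1 : Matrix (Fin d ⊕ Fin d) (Fin d ⊕ Fin d) F))
    (hx2 : ∀ z : F, (x : Matrix (Fin d ⊕ Fin d) (Fin d ⊕ Fin d) F) ≠ z • (1 : Matrix (Fin d ⊕ Fin d) (Fin d ⊕ Fin d) F)) :
    ∃ D : Fin t → Submodule F (Fin d ⊕ Fin d → F), (Cfsg.Geo.IsMDecomposition a D ∧ (∀ j, ∀ u ∈ D j, u ≠ 0 → ∃ v ∈ D j, Cfsg.sympForm d F u v ≠ 0) ∧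
          (∀ j j', j ≠ j' → ∀ u ∈ D j, ∀ v ∈ D j', Cfsg.sympForm d F u v = 0)) ∧
        ∃ σ : Equiv.Perm (Fin t), ∀ j, (D j).map (Matrix.toLin' (x : Matrix (Fin d ⊕ Fin d) (Fin d ⊕ Fin d) F)) = D (σ j) := by
  obtain ⟨z, hz⟩ := hx1
  rw [SubmonoidClass.coe_pow] at hz
  have hTz : ∀ v, Matrix.toLin' (x : Matrix (Fin d ⊕ Fin d) (Fin d ⊕ Fin d) F)
      (Matrix.toLin' (x : Matrix (Fin d ⊕ Fin d) (Fin d ⊕ Fin d) F) v) = z • v := by
    intro v
    rw [Matrix.toLin'_apply, Matrix.toLin'_apply, Matrix.mulVec_mulVec, ← pow_two, hz,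
      Matrix.smul_mulVec, Matrix.one_mulVec]
  have hBalt : ∀ u, S0768.BJ (F := F) d u u = 0 := S0768.BJ_alt d
  have hiso : ∀ u v, S0768.BJ (F := F) d
      (Matrix.toLin' (x : Matrix (Fin d ⊕ Fin d) (Fin d ⊕ Fin d) F) u)
      (Matrix.toLin' (x : Matrix (Fin d ⊕ Fin d) (Fin d ⊕ Fin d) F) v) = S0768.BJ (F := F) d u v := by
    intro u v
    rw [S0768.BJ_apply, S0768.BJ_apply, Matrix.toLin'_apply, Matrix.toLin'_apply]
    exact S0766.form_pres d x u v
  have hnd : NonDegOn (S0768.BJ (F := F) d) ⊤ := by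
    intro m _ hm0
    obtain ⟨y, hy⟩ := S0766.form_nondeg d m hm0
    exact ⟨y, trivial, by rwa [S0768.BJ_apply]⟩
  have hz0 : z ≠ 0 := by
    rintro rfl
    have hne : (Pi.single (Sum.inl ⟨0, by omega⟩) 1 : Fin d ⊕ Fin d → F) ≠ 0 := by
      intro h
      have := congrFun h (Sum.inl ⟨0, by omega⟩)
      simp at this
    obtain ⟨y, -, hy⟩ := hnd _ trivial hne
    have h1 := hiso (Matrix.toLin' (x : Matrix (Fin d ⊕ Fin d) (Fin d ⊕ Fin d) F)
      (Pi.single (Sum.inl ⟨0, by omega⟩) 1))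
      (Matrix.toLin' (x : Matrix (Fin d ⊕ Fin d) (Fin d ⊕ Fin d) F) y)
    rw [hTz, hTz, hiso, zero_smul, zero_smul] at h1
    exact hy (by rw [← h1]; simp)
  obtain ⟨a', ha'⟩ := hae
  have hdim : Module.finrank F (Fin d ⊕ Fin d → F) = 2 * (a' * t) := by
    rw [Module.finrank_pi, Fintype.card_sum, Fintype.card_fin]
    have : a * t = (a' + a') * t := by rw [ha']
    nlinarith
  obtain ⟨D, σ, h1, h2, h3, h4, h5, h6⟩ := exists_decomp (S0768.BJ (F := F) d) hBalt
    (Matrix.toLin' (x : Matrix (Fin d ⊕ Fin d) (Fin d ⊕ Fin d) F)) hiso z hz0 hTz hnd a' t hdim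
  refine ⟨D, ⟨⟨ht, by omega, fun j => by rw [h1 j, ha']; ring, h2, h3⟩, ?_, ?_⟩, σ, h6⟩
  · intro j u hu hu0
    obtain ⟨v, hv, huv⟩ := h4 j u hu hu0
    exact ⟨v, hv, by rwa [S0768.BJ_apply] at huv⟩
  · intro j j' hjj' u hu v hv
    rw [← S0768.BJ_apply]
    exact h5 j j' hjj' u hu v hv

end Cfsg.Agent.S5960
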