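import Mathlib
import Cfsg.Agent.S5959
import Cfsg.Agent.S5660
import Cfsg.Statements.S5966

set_option autoImplicit false
open scoped MatrixGroups
open Cfsg

universe u

namespace Cfsg.Agent.S5966

open Cfsg.Agent.S5959

section jordan

variable {F : Type*} [Field F] {J' : Type} (ℓ' : J' → ℕ) (T : Type)

/-- the extended block sizes: every chain gets one longer, and new chains of length one -/
abbrev ellJ : J' ⊕ T → ℕ := Sum.elim (fun b => ℓ' b + 1) (fun _ => 1)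

/-- restriction to the old coordinates -/
def rJ : ((Σ b : J' ⊕ T, Fin (ellJ ℓ' T b)) → F) →ₗ[F] ((Σ b : J', Fin (ℓ' b)) → F) where
  toFun v y := v ⟨Sum.inl y.1, ⟨y.2, Nat.lt_succ_of_lt y.2.2⟩⟩
  map_add' _ _ := rfl
  map_smul' _ _ := rfl

/-- the top coordinates of the extended chains -/
def tJ : ((Σ b : J' ⊕ T, Fin (ellJ ℓ' T b)) → F) →ₗ[F] (J' → F) where
  toFun v b := v ⟨Sum.inl b, ⟨ℓ' b, Nat.lt_succ_self _⟩⟩
  map_add' _ _ := rfl
  map_smul' _ _ := rfl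

/-- the coordinates of the new chains -/
def uJ : ((Σ b : J' ⊕ T, Fin (ellJ ℓ' T b)) → F) →ₗ[F] (T → F) where
  toFun v i := v ⟨Sum.inr i, ⟨0, Nat.one_pos⟩⟩
  map_add' _ _ := rfl
  map_smul' _ _ := rfl

/-- insertion at the top of the old chains -/
def τJ : (J' → F) →ₗ[F] ((Σ b : J', Fin (ℓ' b)) → F) where
  toFun c y := if (y.2 : ℕ) + 1 = ℓ' y.1 then c y.1 else 0
  map_add' c c' := by
    funext y
    by_cases h : (y.2 : ℕ) + 1 = ℓ' y.1
    · simp [h]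
    · simp [h]
  map_smul' a c := by
    funext y
    by_cases h : (y.2 : ℕ) + 1 = ℓ' y.1
    · simp [h]
    · simp [h]

theorem rJ_shift (v : (Σ b : J' ⊕ T, Fin (ellJ ℓ' T b)) → F) :
    rJ ℓ' T (shiftT (ellJ ℓ' T) v) = shiftT ℓ' (rJ ℓ' T v) + τJ ℓ' (tJ ℓ' T v) := by
  funext y
  obtain ⟨b, j, hj⟩ := y
  show (if h : j + 1 < ℓ' b + 1 then v ⟨Sum.inl b, ⟨j + 1, h⟩⟩ else 0)
    = (if h : j + 1 < ℓ' b then v ⟨Sum.inl b, ⟨j + 1, Nat.lt_succ_of_lt h⟩⟩ else 0)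
      + (if j + 1 = ℓ' b then v ⟨Sum.inl b, ⟨ℓ' b, Nat.lt_succ_self _⟩⟩ else 0)
  by_cases h : j + 1 < ℓ' b
  · rw [dif_pos h, dif_pos (by omega), if_neg (by omega), add_zero]
  · have h' : j + 1 = ℓ' b := by omega
    rw [dif_neg h, dif_pos (by omega), if_pos h', zero_add]
    exact congrArg (fun x : Fin (ℓ' b + 1) => v ⟨Sum.inl b, x⟩) (Fin.ext h')

theorem tJ_shift (v : (Σ b : J' ⊕ T, Fin (ellJ ℓ' T b)) → F) :
    tJ ℓ' T (shiftT (ellJ ℓ' T) v) = 0 := by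
  funext b
  show (if h : ℓ' b + 1 < ℓ' b + 1 then v ⟨Sum.inl b, ⟨ℓ' b + 1, h⟩⟩ else 0) = 0
  rw [dif_neg (by omega)]

theorem uJ_shift (v : (Σ b : J' ⊕ T, Fin (ellJ ℓ' T b)) → F) :
    uJ ℓ' T (shiftT (ellJ ℓ' T) v) = 0 := by
  funext i
  show (if h : 0 + 1 < 1 then v ⟨Sum.inr i, ⟨0 + 1, h⟩⟩ else 0) = 0
  rw [dif_neg (by omega)]

/-- extension by zero of an old coordinate vector -/
def ext1 (w : (Σ b : J', Fin (ℓ' b)) → F) : (Σ b : J' ⊕ T, Fin (ellJ ℓ' T b)) → F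
  | ⟨Sum.inl b, j⟩ => if h : (j : ℕ) < ℓ' b then w ⟨b, ⟨j, h⟩⟩ else 0
  | ⟨Sum.inr _, _⟩ => 0

/-- shifted extension of an old coordinate vector -/
def ext2 (w : (Σ b : J', Fin (ℓ' b)) → F) : (Σ b : J' ⊕ T, Fin (ellJ ℓ' T b)) → F
  | ⟨Sum.inl b, j⟩ => if h : 0 < (j : ℕ) ∧ (j : ℕ) - 1 < ℓ' b then w ⟨b, ⟨(j : ℕ) - 1, h.2⟩⟩ else 0
  | ⟨Sum.inr _, _⟩ => 0

/-- extension of a new coordinate vector -/
def ext3 (c : T → F) : (Σ b : J' ⊕ T, Fin (ellJ ℓ' T b)) → F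
  | ⟨Sum.inl _, _⟩ => 0
  | ⟨Sum.inr i, _⟩ => c i

theorem rJ_ext1 (w : (Σ b : J', Fin (ℓ' b)) → F) : rJ ℓ' T (ext1 ℓ' T w) = w := by
  funext y
  obtain ⟨b, j, hj⟩ := y
  show (if h : j < ℓ' b then w ⟨b, ⟨j, h⟩⟩ else 0) = w ⟨b, ⟨j, hj⟩⟩
  rw [dif_pos hj]

theorem tJ_ext1 (hpos : ∀ b, 0 < ℓ' b) (w : (Σ b : J', Fin (ℓ' b)) → F) :
    tJ ℓ' T (ext1 ℓ' T w) = 0 := by
  funext b
  show (if h : ℓ' b < ℓ' b then w ⟨b, ⟨ℓ' b, h⟩⟩ else 0) = 0
  rw [dif_neg (by omega)]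

theorem uJ_ext1 (w : (Σ b : J', Fin (ℓ' b)) → F) : uJ ℓ' T (ext1 ℓ' T w) = 0 := rfl

theorem rJ_shift_ext2 (w : (Σ b : J', Fin (ℓ' b)) → F) :
    rJ ℓ' T (shiftT (ellJ ℓ' T) (ext2 ℓ' T w)) = w := by
  funext y
  obtain ⟨b, j, hj⟩ := y
  show (if h : j + 1 < ℓ' b + 1 then
      (if h' : 0 < j + 1 ∧ j + 1 - 1 < ℓ' b then w ⟨b, ⟨j + 1 - 1, h'.2⟩⟩ else 0) else 0)
    = w ⟨b, ⟨j, hj⟩⟩
  rw [dif_pos (by omega), dif_pos ⟨by omega, by omega⟩]
  exact congrArg (fun x : Fin (ℓ' b) => w ⟨b, x⟩) (Fin.ext (by simp))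

theorem rJ_ext3 (c : T → F) : rJ ℓ' T (ext3 ℓ' T c) = 0 := rfl

theorem tJ_ext3 (c : T → F) : tJ ℓ' T (ext3 ℓ' T c) = 0 := rfl

theorem uJ_ext3 (c : T → F) : uJ ℓ' T (ext3 ℓ' T c) = c := rfl

theorem exists_section {V : Type*} [AddCommGroup V] [Module F V] (N : V →ₗ[F] V) :
    ∃ s : LinearMap.range N →ₗ[F] V, ∀ w, N (s w) = (w : V) := by
  obtain ⟨s, hs⟩ := LinearMap.exists_rightInverse_of_surjective N.rangeRestrict
    (LinearMap.range_rangeRestrict N)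
  refine ⟨s, fun w => ?_⟩
  have h := congrArg (fun f : LinearMap.range N →ₗ[F] LinearMap.range N => (f w : V)) hs
  exact h

/-- Jordan normal form of a nilpotent endomorphism, as a shift model. -/
theorem jordan_model : ∀ (n : ℕ) (V : Type u) [AddCommGroup V] [Module F V]
    [FiniteDimensional F V] (N : V →ₗ[F] V), Module.finrank F V = n → (∃ m, N ^ m = 0) →
    ∃ (J : Type) (_ : Fintype J) (ℓ : J → ℕ), (∀ b, 0 < ℓ b) ∧
      ∃ E : ((Σ b : J, Fin (ℓ b)) → F) ≃ₗ[F] V, ∀ v, N (E v) = E (shiftT ℓ v) := by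
  intro n
  induction n using Nat.strong_induction_on with
  | _ n ih =>
  intro V _ _ _ N hn hnil
  obtain ⟨m, hm⟩ := hnil
  by_cases hn0 : n = 0
  · have hsub : Subsingleton V := by
      rw [← Module.finrank_zero_iff (R := F), hn, hn0]
    refine ⟨Empty, inferInstance, fun _ => 1, fun b => b.elim, ?_⟩
    haveI : Subsingleton ((Σ b : Empty, Fin ((fun _ => 1) b)) → F) :=
      ⟨fun f g => funext (fun y => y.1.elim)⟩
    exact ⟨LinearEquiv.ofSubsingleton _ _, fun v => Subsingleton.elim _ _⟩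
  · obtain ⟨W, hW⟩ : ∃ W : Submodule F V, W = LinearMap.range N := ⟨_, rfl⟩
    have hWlt : Module.finrank F W < n := by
      by_contra hcon
      have h1 : Module.finrank F W = Module.finrank F V :=
        le_antisymm (Submodule.finrank_le W) (by omega)
      have h2 : W = ⊤ := Submodule.eq_top_of_finrank_eq h1
      have hsurj : Function.Surjective N := by
        rw [← LinearMap.range_eq_top, ← hW, h2]
      have hsurjm : Function.Surjective (N ^ m) := by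
        rw [Module.End.coe_pow]
        exact hsurj.iterate m
      have hsub : Subsingleton V := by
        refine ⟨fun x y => ?_⟩
        obtain ⟨x', rfl⟩ := hsurjm x
        obtain ⟨y', rfl⟩ := hsurjm y
        rw [hm]
        rfl
      have h3 : Module.finrank F V = 0 := Module.finrank_zero_of_subsingleton
      omega
    have hNW : ∀ x ∈ W, N x ∈ W := fun x _ => by
      rw [hW]
      exact LinearMap.mem_range_self N x
    obtain ⟨N', hN'⟩ : ∃ N' : W →ₗ[F] W, ∀ w : W, ((N' w : W) : V) = N (w : V) :=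
      ⟨N.restrict hNW, fun w => rfl⟩
    have hN'pow : ∀ k (w : W), (((N' ^ k) w : W) : V) = (N ^ k) (w : V) := by
      intro k
      induction k with
      | zero =>
        intro w
        rfl
      | succ k ihk =>
        intro w
        rw [pow_succ, pow_succ, Module.End.mul_apply, Module.End.mul_apply, ihk, hN']
    have hN'm : N' ^ m = 0 := by
      apply LinearMap.ext
      intro w
      apply Subtype.ext
      rw [hN'pow, hm]
      rfl
    obtain ⟨J', hJ', ℓ', hℓ', E', hE'⟩ := ih (Module.finrank F W) hWlt W N' rfl ⟨m, hN'm⟩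
    haveI := hJ'
    obtain ⟨s, hs⟩ : ∃ s : W →ₗ[F] V, ∀ w : W, N (s w) = (w : V) := by
      subst hW
      exact exists_section N
    obtain ⟨C₀, hC₀⟩ := Submodule.exists_isCompl (W ⊓ LinearMap.ker N)
    obtain ⟨C, hC⟩ : ∃ C : Submodule F V, C = C₀ ⊓ LinearMap.ker N := ⟨_, rfl⟩
    obtain ⟨t, ht⟩ : ∃ t, Module.finrank F C = t := ⟨_, rfl⟩
    obtain ⟨bC⟩ : Nonempty (Module.Basis (Fin t) F C) := ⟨Module.finBasisOfFinrankEq F C ht⟩
    obtain ⟨Fm, hFm⟩ : ∃ Fm : (Fin t → F) →ₗ[F] V,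
        ∀ c, Fm c = ((bC.equivFun.symm c : C) : V) :=
      ⟨C.subtype ∘ₗ bC.equivFun.symm.toLinearMap, fun c => rfl⟩
    have hFmC : ∀ c, Fm c ∈ C := fun c => by
      rw [hFm]
      exact Submodule.coe_mem _
    have hFminj : ∀ c, Fm c = 0 → c = 0 := by
      intro c hc
      rw [hFm] at hc
      have h1 : bC.equivFun.symm c = 0 := Subtype.ext hc
      exact bC.equivFun.symm.injective (by rw [h1, map_zero])
    have hFmsurj : ∀ x ∈ C, ∃ c, Fm c = x := by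
      intro x hx
      refine ⟨bC.equivFun ⟨x, hx⟩, ?_⟩
      rw [hFm, LinearEquiv.symm_apply_apply]
    have hCker : ∀ x ∈ C, N x = 0 := by
      intro x hx
      rw [hC] at hx
      exact LinearMap.mem_ker.1 hx.2
    obtain ⟨E₀, hE₀⟩ : ∃ E₀ : ((Σ b : J' ⊕ Fin t, Fin (ellJ ℓ' (Fin t) b)) → F) →ₗ[F] V,
        ∀ v, E₀ v = (E' (rJ ℓ' (Fin t) v) : V) + s (E' (τJ ℓ' (tJ ℓ' (Fin t) v)))
          + Fm (uJ ℓ' (Fin t) v) :=
      ⟨W.subtype ∘ₗ E'.toLinearMap ∘ₗ rJ ℓ' (Fin t)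
        + s ∘ₗ E'.toLinearMap ∘ₗ τJ ℓ' ∘ₗ tJ ℓ' (Fin t) + Fm ∘ₗ uJ ℓ' (Fin t), fun v => rfl⟩
    have hNE' : ∀ w, N (E' w : V) = (E' (shiftT ℓ' w) : V) := by
      intro w
      rw [← hN', hE']
    have hNE : ∀ v, N (E₀ v) = (E' (rJ ℓ' (Fin t) (shiftT (ellJ ℓ' (Fin t)) v)) : V) := by
      intro v
      rw [hE₀, map_add, map_add, hNE', hs, hCker _ (hFmC _), add_zero, rJ_shift, map_add,
        Submodule.coe_add]
    have hEs : ∀ v, E₀ (shiftT (ellJ ℓ' (Fin t)) v)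
        = (E' (rJ ℓ' (Fin t) (shiftT (ellJ ℓ' (Fin t)) v)) : V) := by
      intro v
      rw [hE₀, tJ_shift, uJ_shift, map_zero, map_zero, map_zero, map_zero, add_zero, add_zero]
    have hinj : Function.Injective E₀ := by
      rw [injective_iff_map_eq_zero]
      intro v hv
      have h1 : rJ ℓ' (Fin t) (shiftT (ellJ ℓ' (Fin t)) v) = 0 := by
        have h0 := hNE v
        rw [hv, map_zero] at h0
        have h3 : E' (rJ ℓ' (Fin t) (shiftT (ellJ ℓ' (Fin t)) v)) = 0 := Subtype.ext h0.symm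
        exact E'.injective (by rw [h3, map_zero])
      have h2 : ∀ (b : J') (j : ℕ) (hj : j + 1 < ℓ' b + 1),
          v ⟨Sum.inl b, ⟨j + 1, hj⟩⟩ = 0 := by
        intro b j hj
        have h0 := congrFun h1 ⟨b, ⟨j, by omega⟩⟩
        have h3 : (if h : j + 1 < ℓ' b + 1 then v ⟨Sum.inl b, ⟨j + 1, h⟩⟩ else 0) = 0 := h0
        rw [dif_pos hj] at h3
        exact h3
      have h3 : tJ ℓ' (Fin t) v = 0 := by
        funext b
        have hb := hℓ' b
        have h0 := h2 b (ℓ' b - 1) (by omega)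
        show v ⟨Sum.inl b, ⟨ℓ' b, Nat.lt_succ_self _⟩⟩ = 0
        rw [← h0]
        exact congrArg (fun x : Fin (ℓ' b + 1) => v ⟨Sum.inl b, x⟩) (Fin.ext (by simp; omega))
      have h4 : shiftT ℓ' (rJ ℓ' (Fin t) v) = 0 := by
        have h0 := rJ_shift ℓ' (Fin t) v
        rw [h1, h3, map_zero, add_zero] at h0
        exact h0.symm
      have h5 := hE₀ v
      rw [hv, h3, map_zero, map_zero, map_zero, add_zero] at h5
      have h6 : (E' (rJ ℓ' (Fin t) v) : V) ∈ W ⊓ LinearMap.ker N := by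
        refine ⟨Submodule.coe_mem _, ?_⟩
        show N (E' (rJ ℓ' (Fin t) v) : V) = 0
        rw [hNE', h4, map_zero]
        rfl
      have h7 : Fm (uJ ℓ' (Fin t) v) ∈ C₀ := by
        have := hFmC (uJ ℓ' (Fin t) v)
        rw [hC] at this
        exact this.1
      have h8 : (E' (rJ ℓ' (Fin t) v) : V) = - Fm (uJ ℓ' (Fin t) v) :=
        eq_neg_of_add_eq_zero_left h5.symm
      have h9 : (E' (rJ ℓ' (Fin t) v) : V) = 0 := by
        have h10 : (E' (rJ ℓ' (Fin t) v) : V) ∈ (W ⊓ LinearMap.ker N) ⊓ C₀ :=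
          ⟨h6, by rw [h8]; exact C₀.neg_mem h7⟩
        rw [hC₀.inf_eq_bot] at h10
        exact (Submodule.mem_bot F).1 h10
      have h10 : rJ ℓ' (Fin t) v = 0 := by
        have h11 : E' (rJ ℓ' (Fin t) v) = 0 := Subtype.ext h9
        exact E'.injective (by rw [h11, map_zero])
      have h11 : uJ ℓ' (Fin t) v = 0 := by
        apply hFminj
        rw [h9] at h8
        exact neg_eq_zero.1 h8.symm
      funext y
      obtain ⟨b | i, j, hj⟩ := y
      · by_cases hjl : j < ℓ' b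
        · exact congrFun h10 ⟨b, ⟨j, hjl⟩⟩
        · have hj' : j < ℓ' b + 1 := hj
          have h12 := congrFun h3 b
          have h13 : v ⟨Sum.inl b, ⟨ℓ' b, Nat.lt_succ_self _⟩⟩ = 0 := h12
          show v ⟨Sum.inl b, ⟨j, hj⟩⟩ = 0
          rw [← h13]
          exact congrArg (fun x : Fin (ℓ' b + 1) => v ⟨Sum.inl b, x⟩) (Fin.ext (by simp; omega))
      · have hj' : j < 1 := hj
        have h12 := congrFun h11 i
        have h13 : v ⟨Sum.inr i, ⟨0, Nat.one_pos⟩⟩ = 0 := h12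
        show v ⟨Sum.inr i, ⟨j, hj⟩⟩ = 0
        rw [← h13]
        exact congrArg (fun x : Fin 1 => v ⟨Sum.inr i, x⟩) (Fin.ext (by simp; omega))
    have hWrange : ∀ x ∈ W, x ∈ LinearMap.range E₀ := by
      intro x hx
      refine ⟨ext1 ℓ' (Fin t) (E'.symm ⟨x, hx⟩), ?_⟩
      rw [hE₀, rJ_ext1, tJ_ext1 ℓ' (Fin t) hℓ', uJ_ext1, map_zero, map_zero, map_zero, map_zero,
        add_zero, add_zero, LinearEquiv.apply_symm_apply]
    have hCrange : ∀ x ∈ C, x ∈ LinearMap.range E₀ := by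
      intro x hx
      obtain ⟨c, rfl⟩ := hFmsurj x hx
      refine ⟨ext3 ℓ' (Fin t) c, ?_⟩
      rw [hE₀, rJ_ext3, tJ_ext3, uJ_ext3, map_zero, map_zero, map_zero, Submodule.coe_zero,
        map_zero, zero_add, zero_add]
    have hkerrange : ∀ x, N x = 0 → x ∈ LinearMap.range E₀ := by
      intro x hx
      have h1 : x ∈ (W ⊓ LinearMap.ker N) ⊔ C₀ := by
        rw [hC₀.sup_eq_top]
        trivial
      obtain ⟨a, ha, c, hc, rfl⟩ := Submodule.mem_sup.1 h1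
      have hcker : N c = 0 := by
        have h2 : N a = 0 := LinearMap.mem_ker.1 ha.2
        rw [map_add, h2, zero_add] at hx
        exact hx
      exact (LinearMap.range E₀).add_mem (hWrange a ha.1)
        (hCrange c (by rw [hC]; exact ⟨hc, LinearMap.mem_ker.2 hcker⟩))
    have hsurj : Function.Surjective E₀ := by
      intro x
      have hNx : N x ∈ W := by
        rw [hW]
        exact LinearMap.mem_range_self N x
      obtain ⟨v, hv⟩ : ∃ v, N (E₀ v) = N x := by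
        refine ⟨ext2 ℓ' (Fin t) (E'.symm ⟨N x, hNx⟩), ?_⟩
        rw [hNE, rJ_shift_ext2, LinearEquiv.apply_symm_apply]
      have h1 : x - E₀ v ∈ LinearMap.range E₀ := hkerrange _ (by rw [map_sub, hv, sub_self])
      have h2 := (LinearMap.range E₀).add_mem h1 (LinearMap.mem_range_self E₀ v)
      rw [sub_add_cancel] at h2
      exact h2
    refine ⟨J' ⊕ Fin t, inferInstance, ellJ ℓ' (Fin t), ?_, LinearEquiv.ofBijective E₀ ⟨hinj, hsurj⟩,
      ?_⟩
    · rintro (b | i)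
      · exact Nat.succ_pos _
      · exact Nat.one_pos
    · intro v
      show N (E₀ v) = E₀ (shiftT (ellJ ℓ' (Fin t)) v)
      rw [hNE, hEs]

end jordan

section forward

open Matrix

variable {F : Type*} [Field F] [Fintype F] [CharP F 3]

theorem exists_cube (z : F) : ∃ c : F, c ^ 3 = z := by
  have hinj : Function.Injective (frobenius F 3) := frobenius_inj F 3
  obtain ⟨c, hc⟩ := Finite.surjective_of_injective hinj z
  exact ⟨c, hc⟩

theorem forward {n : ℕ} (hn : 2 ≤ n) (F₀ : Subfield F)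
    (hadj : (∀ δ : F, δ ≠ 0 → ∃ ε f₀ : F, f₀ ∈ F₀ ∧ f₀ ≠ 0 ∧ ε ≠ 0 ∧ ε ^ 2 * f₀ = δ) ∨ Odd n)
    (x : Matrix.SpecialLinearGroup (Fin n) F)
    (hx3 : ∃ z : F, ((x ^ 3 : Matrix.SpecialLinearGroup (Fin n) F) : Matrix (Fin n) (Fin n) F)
      = z • (1 : Matrix (Fin n) (Fin n) F))
    (hns : ∀ z : F, (x : Matrix (Fin n) (Fin n) F) ≠ z • (1 : Matrix (Fin n) (Fin n) F)) :
    ∃ P : Matrix.SpecialLinearGroup (Fin n) F,
      P⁻¹ * x * P ∈ ((Cfsg.Geo.subfieldSubgroup F₀ 1).comap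
        (Matrix.SpecialLinearGroup.toGL : Matrix.SpecialLinearGroup (Fin n) F →* GL (Fin n) F)) := by
  classical
  obtain ⟨z, hz⟩ := hx3
  obtain ⟨c, hc⟩ := exists_cube z
  obtain ⟨A, hA⟩ : ∃ A : Matrix (Fin n) (Fin n) F, A = (x : Matrix (Fin n) (Fin n) F) := ⟨_, rfl⟩
  have hA3 : A ^ 3 = z • (1 : Matrix (Fin n) (Fin n) F) := by
    rw [hA, ← Matrix.SpecialLinearGroup.coe_pow, hz]
  have hc0 : c ≠ 0 := by
    rintro rfl
    have h1 : z = 0 := by rw [← hc]; ring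
    rw [h1, zero_smul] at hA3
    have h2 : (A ^ 3).det = 1 := by
      rw [Matrix.det_pow, hA, Matrix.SpecialLinearGroup.det_coe, one_pow]
    rw [hA3] at h2
    haveI : Nonempty (Fin n) := ⟨⟨0, by omega⟩⟩
    rw [Matrix.det_zero] at h2
    exact zero_ne_one h2
  obtain ⟨X, hX⟩ : ∃ X : Module.End F (Fin n → F), X = Matrix.toLin' A := ⟨_, rfl⟩
  have hX3 : X ^ 3 = z • (1 : Module.End F (Fin n → F)) := by
    rw [hX, ← Matrix.toLin'_pow, hA3, map_smul, Matrix.toLin'_one]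
    rfl
  obtain ⟨N, hN⟩ : ∃ N : Module.End F (Fin n → F), N = c⁻¹ • X - 1 := ⟨_, rfl⟩
  have hN3 : N ^ 3 = 0 := by
    have h0 : (Polynomial.X - 1 : Polynomial F) ^ 3 = Polynomial.X ^ 3 - 1 := by
      rw [sub_pow_char, one_pow]
    have h := congrArg (Polynomial.aeval (c⁻¹ • X)) h0
    simp only [map_pow, map_sub, Polynomial.aeval_X, map_one] at h
    rw [hN, h, smul_pow, hX3, smul_smul, ← hc]
    have h1 : c⁻¹ ^ 3 * c ^ 3 = 1 := by
      rw [← mul_pow, inv_mul_cancel₀ hc0, one_pow]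
    rw [h1, one_smul, sub_self]
  obtain ⟨J, hJ, ℓ, hpos, E, hE⟩ := jordan_model (F := F) n (Fin n → F) N
    (by rw [Module.finrank_fintype_fun_eq_card, Fintype.card_fin]) ⟨3, hN3⟩
  haveI := hJ
  have hXE : ∀ m, X (E m) = c • E (m + shiftT ℓ m) := by
    intro m
    have h1 := hE m
    rw [hN, LinearMap.sub_apply, LinearMap.smul_apply, Module.End.one_apply] at h1
    rw [map_add, ← h1, add_sub_cancel, smul_smul, mul_inv_cancel₀ hc0, one_smul]
  have hshift3 : ∀ v : (Σ b, Fin (ℓ b)) → F, (shiftT ℓ ^ 3) v = 0 := by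
    intro v
    have h1 := model_pow ℓ E N hE 3 v
    rw [hN3, LinearMap.zero_apply] at h1
    exact E.injective (by rw [← h1, map_zero])
  have hℓ3 : ∀ b, ℓ b ≤ 3 := by
    intro b
    by_contra hcon
    have hb : 3 < ℓ b := by omega
    have h1 := congrFun (hshift3 (fun y => if y = ⟨b, ⟨3, hb⟩⟩ then 1 else 0))
      ⟨b, ⟨0, by omega⟩⟩
    rw [shiftT_pow] at h1
    have h2 : (0 : ℕ) + 3 < ℓ b := by omega
    rw [dif_pos h2, if_pos rfl] at h1
    exact one_ne_zero h1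
  have hbig : ∃ b, 2 ≤ ℓ b := by
    by_contra hcon
    push Not at hcon
    have hS : ∀ v : (Σ b, Fin (ℓ b)) → F, shiftT ℓ v = 0 := by
      intro v
      funext y
      rw [shiftT_apply, dif_neg]
      · rfl
      · have := hcon y.1
        omega
    have hN0 : N = 0 := by
      apply LinearMap.ext
      intro w
      obtain ⟨m, rfl⟩ := E.surjective w
      rw [hE, hS, map_zero, LinearMap.zero_apply]
    have hXc : X = c • (1 : Module.End F (Fin n → F)) := by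
      have h1 : c⁻¹ • X = 1 := by
        rw [hN] at hN0
        exact sub_eq_zero.1 hN0
      rw [← h1, smul_smul, mul_inv_cancel₀ hc0, one_smul]
    apply hns c
    rw [← hA]
    have h2 : A = LinearMap.toMatrix' X := by rw [hX, LinearMap.toMatrix'_toLin']
    rw [h2, hXc, map_smul, LinearMap.toMatrix'_one]
  have hcard : Fintype.card (Σ b, Fin (ℓ b)) = n := by
    have h1 := E.finrank_eq
    rw [Module.finrank_fintype_fun_eq_card, Module.finrank_fintype_fun_eq_card,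
      Fintype.card_fin] at h1
    exact h1
  obtain ⟨e⟩ : Nonempty ((Σ b, Fin (ℓ b)) ≃ Fin n) := ⟨Fintype.equivFinOfCardEq hcard⟩
  obtain ⟨G, hG⟩ : ∃ G : (Fin n → F) ≃ₗ[F] ((Σ b, Fin (ℓ b)) → F),
      ∀ u y, G u y = u (e y) :=
    ⟨LinearEquiv.funCongrLeft F F e, fun u y => rfl⟩
  obtain ⟨E₁, hE₁⟩ : ∃ E₁ : (Fin n → F) ≃ₗ[F] (Fin n → F), ∀ u, E₁ u = E (G u) :=
    ⟨G.trans E, fun u => rfl⟩
  obtain ⟨δ, hδ⟩ : ∃ δ : F, δ = (LinearMap.det (E₁ : (Fin n → F) →ₗ[F] (Fin n → F)))⁻¹ :=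
    ⟨_, rfl⟩
  have hdetE : LinearMap.det (E₁ : (Fin n → F) →ₗ[F] (Fin n → F)) ≠ 0 :=
    (LinearEquiv.isUnit_det' E₁).ne_zero
  have hδ0 : δ ≠ 0 := by
    rw [hδ]
    exact inv_ne_zero hdetE
  obtain ⟨b₀, ε, f₀, hf₀, hf₀0, hε0, hεf⟩ : ∃ (b₀ : J) (ε f₀ : F), f₀ ∈ F₀ ∧ f₀ ≠ 0 ∧ ε ≠ 0
      ∧ ε ^ ℓ b₀ * f₀ = δ := by
    by_cases h1 : ∃ b, ℓ b = 1
    · obtain ⟨b, hb⟩ := h1
      exact ⟨b, δ, 1, F₀.one_mem, one_ne_zero, hδ0, by rw [hb, pow_one, mul_one]⟩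
    · by_cases h3 : ∃ b, ℓ b = 3
      · obtain ⟨b, hb⟩ := h3
        obtain ⟨ε, hε⟩ := exists_cube δ
        refine ⟨b, ε, 1, F₀.one_mem, one_ne_zero, ?_, by rw [hb, hε, mul_one]⟩
        rintro rfl
        apply hδ0
        rw [← hε]
        ring
      · push Not at h1 h3
        have h2 : ∀ b, ℓ b = 2 := by
          intro b
          have := hpos b
          have := hℓ3 b
          have := h1 b
          have := h3 b
          omega
        have hn2 : n = 2 * Fintype.card J := by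
          rw [← hcard, Fintype.card_sigma]
          simp only [Fintype.card_fin, h2, Finset.sum_const, Finset.card_univ, smul_eq_mul]
          ring
        obtain ⟨b, hb⟩ := hbig
        rcases hadj with hadj | hodd
        · obtain ⟨ε, f₀, hf₀, hf₀0, hε0, hεf⟩ := hadj δ hδ0
          exact ⟨b, ε, f₀, hf₀, hf₀0, hε0, by rw [h2 b]; exact hεf⟩
        · exfalso
          obtain ⟨r, hr⟩ := hodd
          omega
  obtain ⟨i₀, hi₀⟩ : ∃ i₀ : Fin n, i₀ = ⟨0, by omega⟩ := ⟨_, rfl⟩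
  obtain ⟨hh, hhdef⟩ : ∃ hh : Fin n → F, hh = fun i => if i = i₀ then f₀ else 1 := ⟨_, rfl⟩
  have hhF₀ : ∀ i, hh i ∈ F₀ := by
    intro i
    rw [hhdef]
    show (if i = i₀ then f₀ else 1) ∈ F₀
    split_ifs
    · exact hf₀
    · exact F₀.one_mem
  have hh0 : ∀ i, hh i ≠ 0 := by
    intro i
    rw [hhdef]
    show (if i = i₀ then f₀ else 1) ≠ 0
    split_ifs
    · exact hf₀0
    · exact one_ne_zero
  obtain ⟨H₀, hH₀⟩ : ∃ H₀ : Module.End F (Fin n → F), H₀ = Matrix.toLin' (Matrix.diagonal hh) :=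
    ⟨_, rfl⟩
  have hH₀app : ∀ u i, H₀ u i = hh i * u i := by
    intro u i
    rw [hH₀, Matrix.toLin'_apply, Matrix.mulVec_diagonal]
  obtain ⟨dd, hdd⟩ : ∃ dd : (Σ b, Fin (ℓ b)) → F, dd = fun y => if y.1 = b₀ then ε else 1 :=
    ⟨_, rfl⟩
  obtain ⟨Dm, hDm⟩ : ∃ Dm : Module.End F ((Σ b, Fin (ℓ b)) → F),
      Dm = Matrix.toLin' (Matrix.diagonal dd) := ⟨_, rfl⟩
  have hDmapp : ∀ m y, Dm m y = dd y * m y := by
    intro m y
    rw [hDm, Matrix.toLin'_apply, Matrix.mulVec_diagonal]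
  have hDmshift : ∀ m, shiftT ℓ (Dm m) = Dm (shiftT ℓ m) := by
    intro m
    funext y
    rw [hDmapp, shiftT_apply, shiftT_apply]
    by_cases h : (y.2 : ℕ) + 1 < ℓ y.1
    · rw [dif_pos h, dif_pos h, hDmapp, hdd]
    · rw [dif_neg h, dif_neg h, mul_zero]
  obtain ⟨Φ, hΦ⟩ : ∃ Φ : Module.End F (Fin n → F),
      Φ = (E₁ : (Fin n → F) →ₗ[F] (Fin n → F)) ∘ₗ
        (((G.symm : ((Σ b, Fin (ℓ b)) → F) →ₗ[F] (Fin n → F)) ∘ₗ Dm ∘ₗ
          ((G.symm.symm : (Fin n → F) ≃ₗ[F] ((Σ b, Fin (ℓ b)) → F)) :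
            (Fin n → F) →ₗ[F] ((Σ b, Fin (ℓ b)) → F))) ∘ₗ H₀) := ⟨_, rfl⟩
  have hΦapp : ∀ u, Φ u = E (Dm (G (H₀ u))) := by
    intro u
    rw [hΦ]
    show E₁ (G.symm (Dm (G.symm.symm (H₀ u)))) = _
    rw [hE₁, LinearEquiv.apply_symm_apply, LinearEquiv.symm_symm]
  have hdetDm : LinearMap.det Dm = ε ^ ℓ b₀ := by
    rw [hDm, LinearMap.det_toLin', Matrix.det_diagonal, Fintype.prod_sigma, hdd]
    have h1 : ∀ b : J, ∏ j : Fin (ℓ b), (if (⟨b, j⟩ : Σ b, Fin (ℓ b)).1 = b₀ then ε else 1)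
        = if b = b₀ then ε ^ ℓ b else 1 := by
      intro b
      by_cases hb : b = b₀
      · rw [if_pos hb]
        simp only [hb, if_true, Finset.prod_const, Finset.card_univ, Fintype.card_fin]
      · rw [if_neg hb]
        simp only [hb, if_false, Finset.prod_const_one]
    simp only [h1]
    rw [Finset.prod_ite_eq' Finset.univ b₀ (fun b => ε ^ ℓ b), if_pos (Finset.mem_univ _)]
  have hdetH : LinearMap.det H₀ = f₀ := by
    rw [hH₀, LinearMap.det_toLin', Matrix.det_diagonal, hhdef]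
    rw [Finset.prod_ite_eq' Finset.univ i₀ (fun _ => f₀), if_pos (Finset.mem_univ _)]
  have hdetΦ : LinearMap.det Φ = 1 := by
    rw [hΦ, LinearMap.det_comp, LinearMap.det_comp, LinearMap.det_conj, hdetDm, hdetH,
      hεf, hδ, mul_inv_cancel₀ hdetE]
  obtain ⟨P, hP⟩ : ∃ P : Matrix.SpecialLinearGroup (Fin n) F,
      (P : Matrix (Fin n) (Fin n) F) = LinearMap.toMatrix' Φ :=
    ⟨⟨LinearMap.toMatrix' Φ, by rw [LinearMap.det_toMatrix', hdetΦ]⟩, rfl⟩
  have hPv : ∀ u, (P : Matrix (Fin n) (Fin n) F) *ᵥ u = Φ u := by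
    intro u
    rw [hP, LinearMap.toMatrix'_mulVec]
  have hPinv : ∀ u, ((P⁻¹ : Matrix.SpecialLinearGroup (Fin n) F) : Matrix (Fin n) (Fin n) F)
      *ᵥ ((P : Matrix (Fin n) (Fin n) F) *ᵥ u) = u := by
    intro u
    rw [Matrix.mulVec_mulVec, ← Matrix.SpecialLinearGroup.coe_mul, inv_mul_cancel,
      Matrix.SpecialLinearGroup.coe_one, Matrix.one_mulVec]
  refine ⟨P, ?_⟩
  rw [Subgroup.mem_comap]
  apply Cfsg.Agent.S5660.crit F₀ 1 _ c hc0
  rintro v ⟨u, hu, rfl⟩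
  rw [Units.val_one, Matrix.one_mulVec]
  obtain ⟨m', hm'⟩ : ∃ m' : (Σ b, Fin (ℓ b)) → F, m' = G (H₀ u) + shiftT ℓ (G (H₀ u)) :=
    ⟨_, rfl⟩
  have hm'F₀ : ∀ y, m' y ∈ F₀ := by
    intro y
    rw [hm', Pi.add_apply, hG, hH₀app, shiftT_apply]
    refine F₀.add_mem (F₀.mul_mem (hhF₀ _) (hu _)) ?_
    by_cases h : (y.2 : ℕ) + 1 < ℓ y.1
    · rw [dif_pos h, hG, hH₀app]
      exact F₀.mul_mem (hhF₀ _) (hu _)
    · rw [dif_neg h]
      exact F₀.zero_mem
  obtain ⟨w, hw⟩ : ∃ w : Fin n → F, w = fun i => (hh i)⁻¹ * m' (e.symm i) := ⟨_, rfl⟩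
  have hwF₀ : ∀ i, w i ∈ F₀ := by
    intro i
    rw [hw]
    exact F₀.mul_mem (F₀.inv_mem (hhF₀ i)) (hm'F₀ _)
  have hGw : G (H₀ w) = m' := by
    funext y
    rw [hG, hH₀app, hw]
    show hh (e y) * ((hh (e y))⁻¹ * m' (e.symm (e y))) = m' y
    rw [Equiv.symm_apply_apply, ← mul_assoc, mul_inv_cancel₀ (hh0 _), one_mul]
  refine ⟨w, ⟨w, hwF₀, by rw [Units.val_one, Matrix.one_mulVec]⟩, ?_⟩
  have hkey : X (Φ u) = c • Φ w := by
    rw [hΦapp, hΦapp, hXE, hGw, hDmshift, ← map_add, ← hm']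
  show ((P⁻¹ * x * P : Matrix.SpecialLinearGroup (Fin n) F) : Matrix (Fin n) (Fin n) F) *ᵥ u
    = c • w
  rw [Matrix.SpecialLinearGroup.coe_mul, Matrix.SpecialLinearGroup.coe_mul,
    ← Matrix.mulVec_mulVec, ← Matrix.mulVec_mulVec, hPv, ← hA]
  have h1 : A *ᵥ Φ u = X (Φ u) := by rw [hX, Matrix.toLin'_apply]
  rw [h1, hkey, Matrix.mulVec_smul, ← hPv, hPinv]

end forward

section numtheory

variable {F : Type*} [Field F] [Fintype F] [CharP F 3]

theorem two_ne_zero' : (2 : F) ≠ 0 := by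
  intro h
  have h3 : ((3 : ℕ) : F) = 0 := CharP.cast_eq_zero F 3
  have h1 : (1 : F) = 0 := by
    have : ((3 : ℕ) : F) = 2 + 1 := by norm_num
    rw [this, h, zero_add] at h3
    exact h3
  exact one_ne_zero h1

theorem ringChar_ne_two : ringChar F ≠ 2 := by
  rw [ringChar.eq F 3]
  decide

theorem card_odd : ∃ h, Fintype.card F = 2 * h + 1 := by
  obtain ⟨m, -, hm⟩ := FiniteField.card F 3
  have h1 : Odd (Fintype.card F) := by
    rw [hm]
    exact Odd.pow (by decide)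
  obtain ⟨h, hh⟩ := h1
  exact ⟨h, hh⟩

theorem sub_pow_one (F₀ : Subfield F) (q₀ : ℕ) (hF₀ : Nat.card ↥F₀ = q₀) (f : F) (hf : f ∈ F₀)
    (hf0 : f ≠ 0) : f ^ (q₀ - 1) = 1 := by
  haveI : Fintype ↥F₀ := Fintype.ofFinite ↥F₀
  have h1 := FiniteField.pow_card_sub_one_eq_one (⟨f, hf⟩ : ↥F₀) (by
    intro h
    apply hf0
    exact congrArg Subtype.val h)
  have h2 := congrArg F₀.subtype h1
  rw [map_pow, map_one] at h2
  rw [← hF₀, Nat.card_eq_fintype_card]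
  exact h2

/-- for `k = 2` the nonzero elements of the subfield are squares -/
theorem sub_isSquare (F₀ : Subfield F) (q q₀ : ℕ) (hq : Fintype.card F = q)
    (hF₀ : Nat.card ↥F₀ = q₀) (hqk : q = q₀ ^ 2) (f : F) (hf : f ∈ F₀) (hf0 : f ≠ 0) :
    IsSquare f := by
  rw [FiniteField.isSquare_iff ringChar_ne_two hf0]
  obtain ⟨h, hh⟩ := card_odd (F := F)
  have hq₀odd : q₀ % 2 = 1 := by
    rcases Nat.even_or_odd q₀ with he | ho
    · exfalso
      have h1 : Even (q₀ ^ 2) := he.pow_of_ne_zero (by norm_num)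
      rw [← hqk, ← hq, hh] at h1
      exact absurd h1 (by simp)
    · exact Nat.odd_iff.1 ho
  obtain ⟨g, hg⟩ : ∃ g, q₀ = 2 * g + 1 := ⟨q₀ / 2, by omega⟩
  have h2 : Fintype.card F / 2 = (q₀ - 1) * (g + 1) := by
    have h3 : Fintype.card F = 2 * ((q₀ - 1) * (g + 1)) + 1 := by
      rw [hq, hqk, hg]
      have : 2 * g + 1 - 1 = 2 * g := by omega
      rw [this]
      ring
    omega
  rw [h2, pow_mul, sub_pow_one F₀ q₀ hF₀ f hf hf0, one_pow]

theorem geom_parity (q₀ : ℕ) (hq₀ : 1 ≤ q₀) (hodd : q₀ % 2 = 1) :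
    ∀ k : ℕ, ∃ S, q₀ ^ k = 1 + (q₀ - 1) * S ∧ S % 2 = k % 2 := by
  intro k
  induction k with
  | zero => exact ⟨0, by simp, rfl⟩
  | succ k ih =>
    obtain ⟨S, hS, hpar⟩ := ih
    refine ⟨1 + q₀ * S, ?_, ?_⟩
    · rw [pow_succ, hS]
      obtain ⟨g, rfl⟩ : ∃ g, q₀ = g + 1 := ⟨q₀ - 1, by omega⟩
      simp only [Nat.add_sub_cancel]
      ring
    · have h1 : (q₀ * S) % 2 = S % 2 := by
        rw [Nat.mul_mod, hodd, one_mul, Nat.mod_mod]
      omega

/-- for odd `k` every nonzero element is a square times an element of the subfield -/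
theorem adj_odd (F₀ : Subfield F) (q q₀ k : ℕ) (hq : Fintype.card F = q)
    (hF₀ : Nat.card ↥F₀ = q₀) (hqk : q = q₀ ^ k) (hk : k % 2 = 1) (δ : F) (hδ : δ ≠ 0) :
    ∃ ε f₀ : F, f₀ ∈ F₀ ∧ f₀ ≠ 0 ∧ ε ≠ 0 ∧ ε ^ 2 * f₀ = δ := by
  by_cases hsq : IsSquare δ
  · obtain ⟨r, hr⟩ := hsq
    refine ⟨r, 1, F₀.one_mem, one_ne_zero, ?_, by rw [hr]; ring⟩
    rintro rfl
    apply hδ
    rw [hr, mul_zero]
  · haveI : Fintype ↥F₀ := Fintype.ofFinite ↥F₀
    obtain ⟨h, hh⟩ := card_odd (F := F)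
    have hq₀odd : q₀ % 2 = 1 := by
      rcases Nat.even_or_odd q₀ with he | ho
      · exfalso
        have h1 : Even (q₀ ^ k) := he.pow_of_ne_zero (by omega)
        rw [← hqk, ← hq, hh] at h1
        exact absurd h1 (by simp)
      · exact Nat.odd_iff.1 ho
    obtain ⟨g, hg⟩ : ∃ g, q₀ = 2 * g + 1 := ⟨q₀ / 2, by omega⟩
    obtain ⟨S, hS, hSpar⟩ := geom_parity q₀ (by omega) hq₀odd k
    have hcardF : Fintype.card F / 2 = g * S := by
      have h3 : Fintype.card F = 2 * (g * S) + 1 := by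
        rw [hq, hqk, hS, hg]
        have : 2 * g + 1 - 1 = 2 * g := by omega
        rw [this]
        ring
      omega
    have hcardF₀ : Fintype.card ↥F₀ / 2 = g := by
      rw [← Nat.card_eq_fintype_card, hF₀, hg]
      omega
    have hchar₀ : ringChar ↥F₀ ≠ 2 := by
      rw [ringChar.eq ↥F₀ 3]
      decide
    obtain ⟨a₀, ha₀⟩ := FiniteField.exists_nonsquare hchar₀ (F := ↥F₀)
    have ha₀0 : a₀ ≠ 0 := by
      rintro rfl
      exact ha₀ ⟨0, by rw [mul_zero]⟩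
    have h1 : a₀ ^ g = -1 := by
      rcases FiniteField.pow_dichotomy hchar₀ ha₀0 with h1 | h1
      · exfalso
        exact ha₀ ((FiniteField.isSquare_iff hchar₀ ha₀0).2 h1)
      · rw [hcardF₀] at h1
        exact h1
    have h2 : (a₀ : F) ^ g = -1 := by
      have := congrArg F₀.subtype h1
      rw [map_pow, map_neg, map_one] at this
      exact this
    have hSodd : Odd S := Nat.odd_iff.2 (by omega)
    have h3 : (a₀ : F) ^ (g * S) = -1 := by
      rw [pow_mul, h2, hSodd.neg_one_pow]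
    have ha₀F : (a₀ : F) ≠ 0 := by
      intro h0
      apply ha₀0
      exact Subtype.ext h0
    have h4 : δ ^ (g * S) = -1 := by
      rcases FiniteField.pow_dichotomy ringChar_ne_two hδ with h4 | h4
      · exfalso
        exact hsq ((FiniteField.isSquare_iff ringChar_ne_two hδ).2 h4)
      · rw [hcardF] at h4
        exact h4
    have h5 : IsSquare (δ / (a₀ : F)) := by
      rw [FiniteField.isSquare_iff ringChar_ne_two (div_ne_zero hδ ha₀F), hcardF, div_pow, h3, h4]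
      norm_num
    obtain ⟨r, hr⟩ := h5
    refine ⟨r, a₀, a₀.2, ha₀F, ?_, ?_⟩
    · rintro rfl
      rw [mul_zero] at hr
      exact (div_ne_zero hδ ha₀F) hr
    · rw [pow_two, ← hr, div_mul_cancel₀ _ ha₀F]

end numtheory

section standard

open Matrix

variable {R : Type*} [CommRing R] {a n : ℕ} (e₂ : Fin a ⊕ Fin a ≃ Fin n)

theorem reindex_mul {m₁ m₂ : Type*} [Fintype m₁] [Fintype m₂] [DecidableEq m₁] [DecidableEq m₂]
    (e : m₁ ≃ m₂) (M M' : Matrix m₁ m₁ R) :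
    Matrix.reindex e e (M * M') = Matrix.reindex e e M * Matrix.reindex e e M' := by
  simp only [Matrix.reindex_apply]
  rw [Matrix.submatrix_mul_equiv]

/-- the standard square-zero matrix -/
def N0 (R : Type*) [CommRing R] {a n : ℕ} (e₂ : Fin a ⊕ Fin a ≃ Fin n) : Matrix (Fin n) (Fin n) R :=
  Matrix.reindex e₂ e₂ (Matrix.fromBlocks 0 1 0 0)

/-- the standard homotopy -/
def Y0 (R : Type*) [CommRing R] {a n : ℕ} (e₂ : Fin a ⊕ Fin a ≃ Fin n) : Matrix (Fin n) (Fin n) R :=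
  Matrix.reindex e₂ e₂ (Matrix.fromBlocks 0 0 1 0)

theorem N0_sq : N0 R e₂ * N0 R e₂ = 0 := by
  unfold N0
  rw [← reindex_mul, Matrix.fromBlocks_multiply]
  simp only [Matrix.mul_zero, Matrix.zero_mul, add_zero, Matrix.fromBlocks_zero]
  rfl

theorem N0_Y0 : N0 R e₂ * Y0 R e₂ + Y0 R e₂ * N0 R e₂ = 1 := by
  unfold N0 Y0
  rw [← reindex_mul, ← reindex_mul, Matrix.fromBlocks_multiply, Matrix.fromBlocks_multiply]
  simp only [Matrix.mul_zero, Matrix.zero_mul, add_zero, zero_add, Matrix.mul_one]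
  have h1 : Matrix.reindex e₂ e₂ (Matrix.fromBlocks (1 : Matrix (Fin a) (Fin a) R) 0 0 0)
      + Matrix.reindex e₂ e₂ (Matrix.fromBlocks (0 : Matrix (Fin a) (Fin a) R) 0 0 1)
      = Matrix.reindex e₂ e₂ (Matrix.fromBlocks (1 : Matrix (Fin a) (Fin a) R) 0 0 1) := by
    ext i j
    simp only [Matrix.reindex_apply, Matrix.add_apply, Matrix.submatrix_apply]
    rcases e₂.symm i with i' | i' <;> rcases e₂.symm j with j' | j' <;> simp
  rw [h1, Matrix.fromBlocks_one]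
  ext i j
  simp [Matrix.one_apply]

theorem N0_map {S : Type*} [CommRing S] (f : R →+* S) : (N0 R e₂).map f = N0 S e₂ := by
  unfold N0
  ext i j
  simp only [Matrix.reindex_apply, Matrix.submatrix_apply, Matrix.map_apply]
  rcases e₂.symm i with i' | i' <;> rcases e₂.symm j with j' | j' <;> simp [Matrix.one_apply]

theorem N0_mulVec_inl (w : Fin n → R) (j : Fin a) :
    (N0 R e₂ *ᵥ w) (e₂ (Sum.inl j)) = w (e₂ (Sum.inr j)) := by
  unfold N0
  rw [Matrix.reindex_apply, Matrix.submatrix_mulVec_equiv, Matrix.fromBlocks_mulVec]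
  simp

theorem N0_mulVec_inr (w : Fin n → R) (j : Fin a) :
    (N0 R e₂ *ᵥ w) (e₂ (Sum.inr j)) = 0 := by
  unfold N0
  rw [Matrix.reindex_apply, Matrix.submatrix_mulVec_equiv, Matrix.fromBlocks_mulVec]
  simp

theorem N0_entry (j : Fin a) : N0 R e₂ (e₂ (Sum.inl j)) (e₂ (Sum.inr j)) = 1 := by
  unfold N0
  simp

/-- matrices commuting with the standard square-zero matrix have square determinant -/
theorem comm_det (c : Matrix (Fin n) (Fin n) R) (hc : N0 R e₂ * c = c * N0 R e₂) :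
    ∃ A : Matrix (Fin a) (Fin a) R, c.det = A.det * A.det := by
  obtain ⟨c', hc'⟩ : ∃ c' : Matrix (Fin a ⊕ Fin a) (Fin a ⊕ Fin a) R,
      c = Matrix.reindex e₂ e₂ c' :=
    ⟨(Matrix.reindex e₂ e₂).symm c, (Equiv.apply_symm_apply _ _).symm⟩
  obtain ⟨A, B, C, D, hABCD⟩ : ∃ A B C D, c' = Matrix.fromBlocks A B C D :=
    ⟨_, _, _, _, (Matrix.fromBlocks_toBlocks c').symm⟩
  unfold N0 at hc
  rw [hc', hABCD, ← reindex_mul, ← reindex_mul, Matrix.fromBlocks_multiply,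
    Matrix.fromBlocks_multiply] at hc
  have h1 := (Matrix.reindex e₂ e₂).injective hc
  simp only [Matrix.mul_zero, Matrix.zero_mul, add_zero, zero_add, Matrix.mul_one,
    Matrix.one_mul] at h1
  obtain ⟨h2, h3, -, -⟩ := Matrix.fromBlocks_inj.1 h1
  refine ⟨A, ?_⟩
  rw [hc', Matrix.det_reindex_self, hABCD, h2, ← h3, Matrix.det_fromBlocks_zero₂₁]

end standard

section lemmaY

open Matrix

variable {K : Type u} [Field K] {a n : ℕ} (e₂ : Fin a ⊕ Fin a ≃ Fin n)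

/-- a square-zero matrix with a homotopy is conjugate to the standard one -/
theorem lemmaY (Nm Ym : Matrix (Fin n) (Fin n) K) (hsq : Nm * Nm = 0)
    (hhom : Nm * Ym + Ym * Nm = 1) :
    ∃ Ψ Ψ' : Matrix (Fin n) (Fin n) K, Ψ * Ψ' = 1 ∧ Nm * Ψ = Ψ * N0 K e₂ := by
  classical
  obtain ⟨Nl, hNl⟩ : ∃ Nl : Module.End K (Fin n → K), Nl = Matrix.toLin' Nm := ⟨_, rfl⟩
  have hNlapp : ∀ v, Nl v = Nm *ᵥ v := fun v => by rw [hNl, Matrix.toLin'_apply]
  have hNN : ∀ v, Nl (Nl v) = 0 := by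
    intro v
    rw [hNlapp, hNlapp, Matrix.mulVec_mulVec, hsq, Matrix.zero_mulVec]
  have hker : ∀ v, Nl v = 0 → ∃ u, Nl u = v := by
    intro v hv
    refine ⟨Ym *ᵥ v, ?_⟩
    have h1 : (Nm * Ym + Ym * Nm) *ᵥ v = v := by rw [hhom, Matrix.one_mulVec]
    rw [Matrix.add_mulVec, ← Matrix.mulVec_mulVec, ← Matrix.mulVec_mulVec, ← hNlapp v, hv,
      Matrix.mulVec_zero, add_zero] at h1
    rw [hNlapp]
    exact h1
  have hkr : LinearMap.ker Nl = LinearMap.range Nl := by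
    ext v
    constructor
    · intro hv
      obtain ⟨u, hu⟩ := hker v (LinearMap.mem_ker.1 hv)
      exact ⟨u, hu⟩
    · rintro ⟨u, rfl⟩
      exact LinearMap.mem_ker.2 (hNN u)
  have hdim : Module.finrank K (LinearMap.range Nl) = a := by
    have h1 := LinearMap.finrank_range_add_finrank_ker Nl
    rw [hkr, Module.finrank_fintype_fun_eq_card, Fintype.card_fin] at h1
    have h2 : Fintype.card (Fin a ⊕ Fin a) = Fintype.card (Fin n) := Fintype.card_congr e₂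
    rw [Fintype.card_sum, Fintype.card_fin, Fintype.card_fin] at h2
    omega
  obtain ⟨bK⟩ : Nonempty (Module.Basis (Fin a) K (LinearMap.range Nl)) :=
    ⟨Module.finBasisOfFinrankEq K _ hdim⟩
  obtain ⟨s, hs⟩ := exists_section Nl
  obtain ⟨pl, hpl⟩ : ∃ pl : (Fin n → K) →ₗ[K] (Fin a → K), ∀ w j, pl w j = w (e₂ (Sum.inl j)) :=
    ⟨LinearMap.funLeft K K (fun j => e₂ (Sum.inl j)), fun w j => rfl⟩
  obtain ⟨pr, hpr⟩ : ∃ pr : (Fin n → K) →ₗ[K] (Fin a → K), ∀ w j, pr w j = w (e₂ (Sum.inr j)) :=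
    ⟨LinearMap.funLeft K K (fun j => e₂ (Sum.inr j)), fun w j => rfl⟩
  obtain ⟨Ψl, hΨl⟩ : ∃ Ψl : Module.End K (Fin n → K),
      ∀ w, Ψl w = ((bK.equivFun.symm (pl w) : LinearMap.range Nl) : Fin n → K)
        + s (bK.equivFun.symm (pr w)) :=
    ⟨(LinearMap.range Nl).subtype ∘ₗ bK.equivFun.symm.toLinearMap ∘ₗ pl
      + s ∘ₗ bK.equivFun.symm.toLinearMap ∘ₗ pr, fun w => rfl⟩
  have hNΨ : ∀ w, Nl (Ψl w) = ((bK.equivFun.symm (pr w) : LinearMap.range Nl) : Fin n → K) := by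
    intro w
    rw [hΨl, map_add, hs]
    have h1 : Nl ((bK.equivFun.symm (pl w) : LinearMap.range Nl) : Fin n → K) = 0 := by
      obtain ⟨u, hu⟩ := (bK.equivFun.symm (pl w)).2
      rw [← hu]
      exact hNN u
    rw [h1, zero_add]
  have hinj : Function.Injective Ψl := by
    rw [injective_iff_map_eq_zero]
    intro w hw
    have h1 : pr w = 0 := by
      have h2 := hNΨ w
      rw [hw, map_zero] at h2
      have h3 : bK.equivFun.symm (pr w) = 0 := Subtype.ext h2.symm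
      exact bK.equivFun.symm.injective (by rw [h3, map_zero])
    have h2 : pl w = 0 := by
      have h3 := hΨl w
      rw [hw, h1, map_zero, map_zero, add_zero] at h3
      have h4 : bK.equivFun.symm (pl w) = 0 := Subtype.ext h3.symm
      exact bK.equivFun.symm.injective (by rw [h4, map_zero])
    funext i
    obtain ⟨y, rfl⟩ := e₂.surjective i
    rcases y with j | j
    · have := congrFun h2 j
      rw [hpl] at this
      exact this
    · have := congrFun h1 j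
      rw [hpr] at this
      exact this
  have hΨN : ∀ w, Ψl (N0 K e₂ *ᵥ w) = Nl (Ψl w) := by
    intro w
    rw [hNΨ, hΨl]
    have h1 : pl (N0 K e₂ *ᵥ w) = pr w := by
      funext j
      rw [hpl, hpr, N0_mulVec_inl]
    have h2 : pr (N0 K e₂ *ᵥ w) = 0 := by
      funext j
      rw [hpr, N0_mulVec_inr]
      rfl
    rw [h1, h2, map_zero, map_zero, add_zero]
  obtain ⟨Ψe, hΨe⟩ : ∃ Ψe : (Fin n → K) ≃ₗ[K] (Fin n → K), ∀ w, Ψe w = Ψl w :=
    ⟨LinearEquiv.ofInjectiveEndo Ψl hinj, fun w => by rw [LinearEquiv.coe_ofInjectiveEndo]⟩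
  refine ⟨LinearMap.toMatrix' Ψl, LinearMap.toMatrix' (Ψe.symm : (Fin n → K) →ₗ[K] (Fin n → K)),
    ?_, ?_⟩
  · rw [← LinearMap.toMatrix'_comp]
    have h1 : Ψl ∘ₗ (Ψe.symm : (Fin n → K) →ₗ[K] (Fin n → K)) = LinearMap.id := by
      apply LinearMap.ext
      intro w
      show Ψl (Ψe.symm w) = w
      rw [← hΨe, LinearEquiv.apply_symm_apply]
    rw [h1, LinearMap.toMatrix'_id]
  · have h1 : Nm = LinearMap.toMatrix' Nl := by rw [hNl, LinearMap.toMatrix'_toLin']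
    have h2 : N0 K e₂ = LinearMap.toMatrix' (Matrix.toLin' (N0 K e₂)) := by
      rw [LinearMap.toMatrix'_toLin']
    rw [h1, h2, ← LinearMap.toMatrix'_comp, ← LinearMap.toMatrix'_comp]
    congr 1
    apply LinearMap.ext
    intro w
    show Nl (Ψl w) = Ψl (Matrix.toLin' (N0 K e₂) w)
    rw [Matrix.toLin'_apply, hΨN]

end lemmaY

section backward

open Matrix
open scoped Pointwise

variable {F : Type*} [Field F] [Fintype F] [CharP F 3]

theorem conj_pow' {n : ℕ} (G G' M : Matrix (Fin n) (Fin n) F) (h1 : G * G' = 1)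
    (h2 : G' * G = 1) (k : ℕ) : (G * M * G') ^ k = G * M ^ k * G' := by
  induction k with
  | zero => rw [pow_zero, pow_zero, Matrix.mul_one, h1]
  | succ k ih =>
    rw [pow_succ, ih, pow_succ]
    calc G * M ^ k * G' * (G * M * G') = G * M ^ k * (G' * G) * M * G' := by
          simp only [Matrix.mul_assoc]
      _ = G * (M ^ k * M) * G' := by rw [h2, Matrix.mul_one, Matrix.mul_assoc G]

theorem backward {n : ℕ} (hn : 2 ≤ n) (hne : Even n) (F₀ : Subfield F)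
    (hsqF₀ : ∀ f : F, f ∈ F₀ → f ≠ 0 → IsSquare f)
    (hall : (∀ x : Matrix.SpecialLinearGroup (Fin n) F,
      (∃ z : F, ((x ^ 3 : Matrix.SpecialLinearGroup (Fin n) F) : Matrix (Fin n) (Fin n) F) = z • (1 : Matrix (Fin n) (Fin n) F)) →
      (∀ z : F, (x : Matrix (Fin n) (Fin n) F) ≠ z • (1 : Matrix (Fin n) (Fin n) F)) →
      ∃ P : Matrix.SpecialLinearGroup (Fin n) F, P⁻¹ * x * P ∈ ((Cfsg.Geo.subfieldSubgroup F₀ 1).comap (Matrix.SpecialLinearGroup.toGL : Matrix.SpecialLinearGroup (Fin n) F →* GL (Fin n) F)))) : False := by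
  classical
  obtain ⟨a, ha⟩ := hne
  have ha1 : 1 ≤ a := by omega
  obtain ⟨e₂⟩ : Nonempty (Fin a ⊕ Fin a ≃ Fin n) := ⟨finSumFinEquiv.trans (finCongr ha.symm)⟩
  obtain ⟨j₀⟩ : Nonempty (Fin a) := ⟨⟨0, by omega⟩⟩
  obtain ⟨η, hη⟩ := FiniteField.exists_nonsquare (F := F) ringChar_ne_two
  have hη0 : η ≠ 0 := by
    rintro rfl
    exact hη ⟨0, by rw [mul_zero]⟩
  have h2F : (2 : F) ≠ 0 := two_ne_zero'
  obtain ⟨i₀⟩ : Nonempty (Fin n) := ⟨⟨0, by omega⟩⟩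
  obtain ⟨g, hg⟩ : ∃ g : Fin n → F, g = fun i => if i = i₀ then η else 1 := ⟨_, rfl⟩
  have hg0 : ∀ i, g i ≠ 0 := by
    intro i
    rw [hg]
    show (if i = i₀ then η else 1) ≠ 0
    split_ifs
    · exact hη0
    · exact one_ne_zero
  obtain ⟨Gm, hGm⟩ : ∃ Gm : Matrix (Fin n) (Fin n) F, Gm = Matrix.diagonal g := ⟨_, rfl⟩
  obtain ⟨Gm', hGm'⟩ : ∃ Gm' : Matrix (Fin n) (Fin n) F,
      Gm' = Matrix.diagonal (fun i => (g i)⁻¹) := ⟨_, rfl⟩
  have hGG' : Gm * Gm' = 1 := by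
    rw [hGm, hGm', Matrix.diagonal_mul_diagonal]
    have h1 : (fun i => g i * (g i)⁻¹) = fun _ => (1 : F) :=
      funext (fun i => mul_inv_cancel₀ (hg0 i))
    rw [h1, Matrix.diagonal_one]
  have hG'G : Gm' * Gm = 1 := by
    rw [hGm, hGm', Matrix.diagonal_mul_diagonal]
    have h1 : (fun i => (g i)⁻¹ * g i) = fun _ => (1 : F) :=
      funext (fun i => inv_mul_cancel₀ (hg0 i))
    rw [h1, Matrix.diagonal_one]
  obtain ⟨Nz, hNz⟩ : ∃ Nz : Matrix (Fin n) (Fin n) F, Nz = N0 F e₂ := ⟨_, rfl⟩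
  have hNz2 : Nz * Nz = 0 := by rw [hNz]; exact N0_sq e₂
  have hNzne : Nz ≠ 0 := by
    intro h0
    have h1 := N0_entry (R := F) e₂ j₀
    rw [← hNz, h0] at h1
    exact zero_ne_one h1
  obtain ⟨J₀, hJ₀⟩ : ∃ J₀ : Matrix (Fin n) (Fin n) F, J₀ = 1 + Nz := ⟨_, rfl⟩
  have h3F : (3 : F) = 0 := by
    have := CharP.cast_eq_zero F 3
    exact_mod_cast this
  have hJ3 : J₀ ^ 3 = 1 := by
    have e1 : (1 + Nz) * (1 + Nz) = 1 + (Nz + Nz) := by
      rw [add_mul, one_mul, mul_add, mul_one, hNz2, add_zero, add_assoc]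
    have e2 : (1 + (Nz + Nz)) * (1 + Nz) = 1 + (Nz + Nz + Nz) := by
      rw [add_mul, one_mul, mul_add, mul_one, add_mul, hNz2, add_zero, add_zero]
      abel
    have e3 : Nz + Nz + Nz = 0 := by
      have h1 : Nz + Nz + Nz = (3 : F) • Nz := by
        rw [show (3 : F) = 1 + 1 + 1 by norm_num, add_smul, add_smul, one_smul]
      rw [h1, h3F, zero_smul]
    rw [hJ₀, pow_succ, pow_two, e1, e2, e3, add_zero]
  have hJdet : J₀.det = 1 := by
    have h1 : J₀.det ^ 3 = 1 := by rw [← Matrix.det_pow, hJ3, Matrix.det_one]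
    have h2 : (J₀.det - 1) ^ 3 = 0 := by rw [sub_pow_char, h1, one_pow, sub_self]
    exact sub_eq_zero.1 (pow_eq_zero_iff (by norm_num) |>.1 h2)
  obtain ⟨xm, hxm⟩ : ∃ xm : Matrix (Fin n) (Fin n) F, xm = Gm * J₀ * Gm' := ⟨_, rfl⟩
  have hxdet : xm.det = 1 := by
    rw [hxm, Matrix.det_mul, Matrix.det_mul, hJdet, mul_one, ← Matrix.det_mul, hGG',
      Matrix.det_one]
  obtain ⟨x, hx⟩ : ∃ x : Matrix.SpecialLinearGroup (Fin n) F,
      (x : Matrix (Fin n) (Fin n) F) = xm := ⟨⟨xm, hxdet⟩, rfl⟩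
  have hx3 : ∃ z : F, ((x ^ 3 : Matrix.SpecialLinearGroup (Fin n) F) : Matrix (Fin n) (Fin n) F)
      = z • (1 : Matrix (Fin n) (Fin n) F) := by
    refine ⟨1, ?_⟩
    rw [Matrix.SpecialLinearGroup.coe_pow, hx, hxm, conj_pow' Gm Gm' J₀ hGG' hG'G, hJ3,
      Matrix.mul_one, hGG', one_smul]
  have hJ₀ns : ∀ z : F, J₀ ≠ z • (1 : Matrix (Fin n) (Fin n) F) := by
    intro z hz
    have hne : e₂ (Sum.inl j₀) ≠ e₂ (Sum.inr j₀) := by
      intro h
      have := e₂.injective h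
      exact Sum.inl_ne_inr this
    have h1 := congrFun (congrFun hz (e₂ (Sum.inl j₀))) (e₂ (Sum.inr j₀))
    rw [hJ₀, Matrix.add_apply, Matrix.one_apply_ne hne, hNz, N0_entry, Matrix.smul_apply,
      Matrix.one_apply_ne hne, smul_zero, zero_add] at h1
    exact one_ne_zero h1
  have hxns : ∀ z : F, (x : Matrix (Fin n) (Fin n) F) ≠ z • (1 : Matrix (Fin n) (Fin n) F) := by
    intro z hz
    apply hJ₀ns z
    have h1 : J₀ = Gm' * xm * Gm := by
      rw [hxm]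
      calc J₀ = (Gm' * Gm) * J₀ * (Gm' * Gm) := by rw [hG'G, Matrix.one_mul, Matrix.mul_one]
        _ = Gm' * (Gm * J₀ * Gm') * Gm := by simp only [Matrix.mul_assoc]
    rw [h1, ← hx, hz, Matrix.mul_smul, Matrix.mul_one, Matrix.smul_mul, hG'G]
  obtain ⟨P, hP⟩ := hall x hx3 hxns
  rw [Subgroup.mem_comap] at hP
  unfold Cfsg.Geo.subfieldSubgroup at hP
  obtain ⟨y, hy, hyP⟩ := Subgroup.mem_map.1 hP
  have hy' : y = Matrix.SpecialLinearGroup.toGL (P⁻¹ * x * P) := by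
    rw [← hyP]
    simp
  have hy2 : y ∈ (((Matrix.GeneralLinearGroup.map (F₀.subtype : ↥F₀ →+* F)).range :
      Subgroup (GL (Fin n) F)) : Set (GL (Fin n) F))
      * ((Cfsg.Geo.scalars (Fin n) F : Subgroup (GL (Fin n) F)) : Set (GL (Fin n) F)) := by
    rw [← Subgroup.mul_normal]
    exact hy
  obtain ⟨g₀, hg₀, s, hs, hgs⟩ := Set.mem_mul.1 hy2
  obtain ⟨A₀, rfl⟩ := hg₀
  obtain ⟨σ, hσ⟩ := (Cfsg.Geo.mem_scalars_iff s).1 hs
  obtain ⟨M₀, hM₀⟩ : ∃ M₀ : Matrix (Fin n) (Fin n) F,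
      M₀ = ((Matrix.GeneralLinearGroup.map (F₀.subtype : ↥F₀ →+* F) A₀ : GL (Fin n) F) :
        Matrix (Fin n) (Fin n) F) := ⟨_, rfl⟩
  have hM₀F₀ : ∀ i j, M₀ i j ∈ F₀ := by
    intro i j
    rw [hM₀, Matrix.GeneralLinearGroup.map_apply]
    exact Subtype.coe_prop _
  obtain ⟨Pm, hPm⟩ : ∃ Pm : Matrix (Fin n) (Fin n) F, Pm = (P : Matrix (Fin n) (Fin n) F) :=
    ⟨_, rfl⟩
  obtain ⟨Pi, hPi⟩ : ∃ Pi : Matrix (Fin n) (Fin n) F,
      Pi = ((P⁻¹ : Matrix.SpecialLinearGroup (Fin n) F) : Matrix (Fin n) (Fin n) F) := ⟨_, rfl⟩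
  have hPPi : Pm * Pi = 1 := by
    rw [hPm, hPi, ← Matrix.SpecialLinearGroup.coe_mul, mul_inv_cancel,
      Matrix.SpecialLinearGroup.coe_one]
  have hPiP : Pi * Pm = 1 := by
    rw [hPm, hPi, ← Matrix.SpecialLinearGroup.coe_mul, inv_mul_cancel,
      Matrix.SpecialLinearGroup.coe_one]
  have hmat : Pi * xm * Pm = (σ : F) • M₀ := by
    have h1 := congrArg (fun u : GL (Fin n) F => (u : Matrix (Fin n) (Fin n) F)) hgs
    simp only [Units.val_mul] at h1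
    rw [hσ, ← hM₀, Matrix.mul_smul, Matrix.mul_one, hy'] at h1
    rw [h1, hPi, hPm, ← hx]
    rfl
  obtain ⟨R, hR⟩ : ∃ R : Matrix (Fin n) (Fin n) F, R = Gm' * Pm := ⟨_, rfl⟩
  obtain ⟨Ri, hRi⟩ : ∃ Ri : Matrix (Fin n) (Fin n) F, Ri = Pi * Gm := ⟨_, rfl⟩
  have hRRi : R * Ri = 1 := by
    rw [hR, hRi]
    calc Gm' * Pm * (Pi * Gm) = Gm' * (Pm * Pi) * Gm := by simp only [Matrix.mul_assoc]
      _ = 1 := by rw [hPPi, Matrix.mul_one, hG'G]
  have hRiR : Ri * R = 1 := by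
    rw [hR, hRi]
    calc Pi * Gm * (Gm' * Pm) = Pi * (Gm * Gm') * Pm := by simp only [Matrix.mul_assoc]
      _ = 1 := by rw [hGG', Matrix.mul_one, hPiP]
  have hconj : Ri * J₀ * R = (σ : F) • M₀ := by
    rw [← hmat, hxm, hR, hRi]
    simp only [Matrix.mul_assoc]
  obtain ⟨N₁, hN₁⟩ : ∃ N₁ : Matrix (Fin n) (Fin n) F, N₁ = Ri * Nz * R := ⟨_, rfl⟩
  have hN₁eq : N₁ = (σ : F) • M₀ - 1 := by
    have h1 : Nz = J₀ - 1 := by rw [hJ₀, add_sub_cancel_left]
    rw [hN₁, h1, Matrix.mul_sub, Matrix.sub_mul, hconj, Matrix.mul_one, hRiR]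
  have hN₁sq : N₁ * N₁ = 0 := by
    rw [hN₁]
    calc Ri * Nz * R * (Ri * Nz * R) = Ri * Nz * (R * Ri) * Nz * R := by
          simp only [Matrix.mul_assoc]
      _ = Ri * (Nz * Nz) * R := by rw [hRRi, Matrix.mul_one, Matrix.mul_assoc Ri]
      _ = 0 := by rw [hNz2, Matrix.mul_zero, Matrix.zero_mul]
  obtain ⟨Y₁, hY₁⟩ : ∃ Y₁ : Matrix (Fin n) (Fin n) F, Y₁ = Ri * Y0 F e₂ * R := ⟨_, rfl⟩
  have hN₁hom : N₁ * Y₁ + Y₁ * N₁ = 1 := by
    rw [hN₁, hY₁]
    calc Ri * Nz * R * (Ri * Y0 F e₂ * R) + Ri * Y0 F e₂ * R * (Ri * Nz * R)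
        = Ri * Nz * (R * Ri) * Y0 F e₂ * R + Ri * Y0 F e₂ * (R * Ri) * Nz * R := by
          simp only [Matrix.mul_assoc]
      _ = Ri * (Nz * Y0 F e₂ + Y0 F e₂ * Nz) * R := by
          rw [hRRi, Matrix.mul_one, Matrix.mul_one, Matrix.mul_add, Matrix.add_mul,
            Matrix.mul_assoc Ri Nz, Matrix.mul_assoc Ri (Y0 F e₂)]
      _ = 1 := by rw [hNz, N0_Y0, Matrix.mul_one, hRiR]
  have hNR : Nz * R = R * N₁ := by
    rw [hN₁]
    calc Nz * R = (R * Ri) * Nz * R := by rw [hRRi, Matrix.one_mul]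
      _ = R * (Ri * Nz * R) := by simp only [Matrix.mul_assoc]
  have hN₁ne : N₁ ≠ 0 := by
    intro h0
    rw [h0, Matrix.mul_zero] at hNR
    apply hNzne
    calc Nz = Nz * (R * Ri) := by rw [hRRi, Matrix.mul_one]
      _ = (Nz * R) * Ri := by rw [Matrix.mul_assoc]
      _ = 0 := by rw [hNR, Matrix.zero_mul]
  have hσ0 : (σ : F) ≠ 0 := σ.ne_zero
  obtain ⟨τ, hτ⟩ : ∃ τ : F, τ = (σ : F)⁻¹ := ⟨_, rfl⟩
  have hτσ : τ * (σ : F) = 1 := by rw [hτ, inv_mul_cancel₀ hσ0]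
  have hMτ : M₀ - τ • (1 : Matrix (Fin n) (Fin n) F) = τ • N₁ := by
    rw [hN₁eq, smul_sub, smul_smul, hτσ, one_smul]
  have hMτsq : (M₀ - τ • (1 : Matrix (Fin n) (Fin n) F))
      * (M₀ - τ • (1 : Matrix (Fin n) (Fin n) F)) = 0 := by
    rw [hMτ, Matrix.smul_mul, Matrix.mul_smul, hN₁sq, smul_zero, smul_zero]
  have hoff : ∃ i j, i ≠ j ∧ M₀ i j ≠ 0 := by
    by_contra hcon
    push Not at hcon
    have hdiag : ∀ i, M₀ i i = τ := by
      intro i
      have h1 := congrFun (congrFun hMτsq i) i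
      rw [Matrix.mul_apply, Finset.sum_eq_single i] at h1
      · rw [Matrix.sub_apply, Matrix.smul_apply, Matrix.one_apply_eq, smul_eq_mul, mul_one]
          at h1
        exact sub_eq_zero.1 (mul_self_eq_zero.1 h1)
      · intro k _ hki
        rw [Matrix.sub_apply, Matrix.smul_apply, Matrix.one_apply_ne (Ne.symm hki),
          hcon i k (Ne.symm hki), smul_zero, sub_zero, zero_mul]
      · intro hi
        exact absurd (Finset.mem_univ i) hi
    apply hN₁ne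
    have h2 : M₀ = τ • (1 : Matrix (Fin n) (Fin n) F) := by
      ext i j
      by_cases hij : i = j
      · rw [hij, hdiag, Matrix.smul_apply, Matrix.one_apply_eq, smul_eq_mul, mul_one]
      · rw [hcon i j hij, Matrix.smul_apply, Matrix.one_apply_ne hij, smul_zero]
    rw [hN₁eq, h2, smul_smul, mul_comm, hτσ, one_smul, sub_self]
  obtain ⟨i₁, j₁, hij₁, hMij⟩ := hoff
  have h2F₀ : (2 : F) ∈ F₀ := by
    have : (2 : F) = 1 + 1 := by norm_num
    rw [this]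
    exact F₀.add_mem F₀.one_mem F₀.one_mem
  have hτF₀ : τ ∈ F₀ := by
    have h1 := congrFun (congrFun hMτsq i₁) j₁
    have hexp : (M₀ - τ • (1 : Matrix (Fin n) (Fin n) F))
        * (M₀ - τ • (1 : Matrix (Fin n) (Fin n) F))
        = M₀ * M₀ - τ • M₀ - (τ • M₀ - τ • (τ • (1 : Matrix (Fin n) (Fin n) F))) := by
      rw [Matrix.sub_mul, Matrix.mul_sub, Matrix.mul_sub, Matrix.mul_smul, Matrix.mul_one,
        Matrix.smul_mul, Matrix.one_mul, Matrix.smul_mul, Matrix.mul_smul, Matrix.mul_one]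
    rw [hexp] at h1
    simp only [Matrix.sub_apply, Matrix.smul_apply, Matrix.one_apply_ne hij₁, smul_eq_mul,
      mul_zero, sub_zero, Matrix.zero_apply] at h1
    have h3 : (M₀ * M₀) i₁ j₁ ∈ F₀ := by
      rw [Matrix.mul_apply]
      exact F₀.sum_mem (fun k _ => F₀.mul_mem (hM₀F₀ _ _) (hM₀F₀ _ _))
    have h4 : τ = (M₀ * M₀) i₁ j₁ * (2 * M₀ i₁ j₁)⁻¹ := by
      rw [eq_mul_inv_iff_mul_eq₀ (mul_ne_zero h2F hMij)]
      linear_combination -h1
    rw [h4]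
    exact F₀.mul_mem h3 (F₀.inv_mem (F₀.mul_mem h2F₀ (hM₀F₀ _ _)))
  have hσF₀ : (σ : F) ∈ F₀ := by
    have h1 : (σ : F) = τ⁻¹ := by rw [hτ, inv_inv]
    rw [h1]
    exact F₀.inv_mem hτF₀
  have hN₁F₀ : ∀ i j, N₁ i j ∈ F₀ := by
    intro i j
    rw [hN₁eq, Matrix.sub_apply, Matrix.smul_apply, smul_eq_mul, Matrix.one_apply]
    refine F₀.sub_mem (F₀.mul_mem hσF₀ (hM₀F₀ _ _)) ?_
    split_ifs
    · exact F₀.one_mem
    · exact F₀.zero_mem
  obtain ⟨N₁₀, hN₁₀⟩ : ∃ N₁₀ : Matrix (Fin n) (Fin n) ↥F₀, ∀ i j, ((N₁₀ i j : ↥F₀) : F) = N₁ i j :=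
    ⟨fun i j => ⟨N₁ i j, hN₁F₀ i j⟩, fun i j => rfl⟩
  obtain ⟨π, hπ⟩ := LinearMap.exists_leftInverse_of_injective (Algebra.linearMap ↥F₀ F)
    (LinearMap.ker_eq_bot.2 (fun u v huv => Subtype.ext huv))
  have hπ' : ∀ u : ↥F₀, π (u : F) = u := fun u => LinearMap.congr_fun hπ u
  have hπmul : ∀ (u : ↥F₀) (y : F), π ((u : F) * y) = u * π y := by
    intro u y
    have h1 : (u : F) * y = u • y := rfl
    rw [h1, map_smul, smul_eq_mul]
  obtain ⟨Y₁₀, hY₁₀⟩ : ∃ Y₁₀ : Matrix (Fin n) (Fin n) ↥F₀, ∀ i j, Y₁₀ i j = π (Y₁ i j) :=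
    ⟨fun i j => π (Y₁ i j), fun i j => rfl⟩
  have hsq₀ : N₁₀ * N₁₀ = 0 := by
    ext i j
    have h1 : F₀.subtype ((N₁₀ * N₁₀) i j) = (N₁ * N₁) i j := by
      rw [Matrix.mul_apply, Matrix.mul_apply, map_sum]
      apply Finset.sum_congr rfl
      intro k _
      rw [map_mul]
      show ((N₁₀ i k : ↥F₀) : F) * ((N₁₀ k j : ↥F₀) : F) = _
      rw [hN₁₀, hN₁₀]
    rw [hN₁sq] at h1
    exact h1
  have hhom₀ : N₁₀ * Y₁₀ + Y₁₀ * N₁₀ = 1 := by
    ext i j
    rw [Matrix.add_apply, Matrix.mul_apply, Matrix.mul_apply]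
    have h1 : ∀ k, N₁₀ i k * Y₁₀ k j = π (N₁ i k * Y₁ k j) := by
      intro k
      rw [hY₁₀, ← hN₁₀, hπmul]
    have h2 : ∀ k, Y₁₀ i k * N₁₀ k j = π (Y₁ i k * N₁ k j) := by
      intro k
      rw [hY₁₀, ← hN₁₀, mul_comm (Y₁ i k), hπmul, mul_comm]
    simp only [h1, h2]
    rw [← map_sum, ← map_sum, ← map_add]
    have h3 : ∑ k, N₁ i k * Y₁ k j + ∑ k, Y₁ i k * N₁ k j
        = (1 : Matrix (Fin n) (Fin n) F) i j := by
      have h4 := congrFun (congrFun hN₁hom i) j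
      rw [Matrix.add_apply, Matrix.mul_apply, Matrix.mul_apply] at h4
      exact h4
    rw [h3, Matrix.one_apply, Matrix.one_apply]
    split_ifs
    · exact congrArg Subtype.val (hπ' 1)
    · exact congrArg Subtype.val (map_zero π)
  obtain ⟨Ψ, Ψ', hΨΨ', hNΨ⟩ := lemmaY e₂ N₁₀ Y₁₀ hsq₀ hhom₀
  obtain ⟨ΨF, hΨF⟩ : ∃ ΨF : Matrix (Fin n) (Fin n) F, ΨF = Ψ.map (F₀.subtype : ↥F₀ →+* F) :=
    ⟨_, rfl⟩
  have hN₁map : N₁₀.map (F₀.subtype : ↥F₀ →+* F) = N₁ := by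
    ext i j
    exact hN₁₀ i j
  have hNΨF : N₁ * ΨF = ΨF * Nz := by
    have h1 := congrArg (fun M : Matrix (Fin n) (Fin n) ↥F₀ => M.map (F₀.subtype : ↥F₀ →+* F)) hNΨ
    simp only [Matrix.map_mul] at h1
    rw [hN₁map, N0_map e₂ (F₀.subtype : ↥F₀ →+* F)] at h1
    rw [hΨF, hNz]
    exact h1
  obtain ⟨c, hc⟩ : ∃ c : Matrix (Fin n) (Fin n) F, c = R * ΨF := ⟨_, rfl⟩
  have hcomm : N0 F e₂ * c = c * N0 F e₂ := by
    rw [← hNz, hc, ← Matrix.mul_assoc, hNR, Matrix.mul_assoc, hNΨF, Matrix.mul_assoc]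
  obtain ⟨Am, hAm⟩ := comm_det e₂ c hcomm
  have hdetΨ : Ψ.det ≠ 0 := by
    intro h0
    have h1 : (Ψ * Ψ').det = 1 := by rw [hΨΨ', Matrix.det_one]
    rw [Matrix.det_mul, h0, zero_mul] at h1
    exact zero_ne_one h1
  have hdetΨF : ΨF.det = ((Ψ.det : ↥F₀) : F) := by
    rw [hΨF]
    exact (RingHom.map_det (F₀.subtype : ↥F₀ →+* F) Ψ).symm
  have hdetG' : Gm'.det = η⁻¹ := by
    rw [hGm', Matrix.det_diagonal]
    have h1 : (fun i => (g i)⁻¹) = fun i => if i = i₀ then η⁻¹ else 1 := by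
      funext i
      rw [hg]
      show (if i = i₀ then η else 1)⁻¹ = _
      split_ifs
      · rfl
      · exact inv_one
    rw [h1, Finset.prod_ite_eq' Finset.univ i₀ (fun _ => η⁻¹), if_pos (Finset.mem_univ _)]
  have hdetc : c.det = η⁻¹ * ((Ψ.det : ↥F₀) : F) := by
    rw [hc, Matrix.det_mul, hR, Matrix.det_mul, hdetG', hPm, Matrix.SpecialLinearGroup.det_coe,
      mul_one, hdetΨF]
  have hd0 : ((Ψ.det : ↥F₀) : F) ≠ 0 := by
    intro h0
    apply hdetΨ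
    exact Subtype.ext h0
  obtain ⟨r, hr⟩ := hsqF₀ _ (Ψ.det : ↥F₀).2 hd0
  rw [hdetc, hr] at hAm
  have hA0 : Am.det ≠ 0 := by
    intro h0
    rw [h0, mul_zero] at hAm
    have hr0 : r ≠ 0 := by
      rintro rfl
      rw [mul_zero] at hr
      exact hd0 hr
    exact (mul_ne_zero (inv_ne_zero hη0) (mul_ne_zero hr0 hr0)) hAm
  apply hη
  refine ⟨r / Am.det, ?_⟩
  have h9 : r * r = η * (Am.det * Am.det) := by
    rw [← hAm, ← mul_assoc, mul_inv_cancel₀ hη0, one_mul]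
  rw [div_mul_div_comm, h9, mul_div_assoc, div_self (mul_ne_zero hA0 hA0), mul_one]

/-- Elements of order 3 of PSL_n(q) in characteristic 3 and subfield subgroups. Here `T = PSL_n(F)` for a field `F` with `q` elements, `q` a power of 3 (`n ≥ 2`, `(n, q) ≠ (2, 2), (2, 3)`), `F₀` is the subfield with `q₀` elements where `q = q₀^k` for a prime `k`, and `H` is the subgroup of matrices of determinant 1 lying in the subfield group of `F₀` (invertible matrices over `F₀` times scalars) — a maximal subgroup of type GL_n(q₀) (the case `n = 2`, `q₀ = 2` is excluded); Ω is the set of `T`-conjugates of `H` (cosets of `H`), so an element of `T` of prime order `r` (a matrix `x` of determinant 1 with `x^r` scalar, `x` not scalar) fixes a point of Ω when some conjugate of `x` by a matrix of determinant 1 lies in `H`. Suppose 3 divides the index of `H`. Then every element of `T` of order 3 is conjugate in `T` into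 `H` if and only if `n` is odd, or `n` is even and `k > 2`. -/
theorem result {F : Type*} [Field F] [Fintype F] [CharP F 3] {q : ℕ} (hq : Fintype.card F = q)
    (n : ℕ) (hn : 2 ≤ n) (hT : (n, q) ≠ (2, 3))
    (F₀ : Subfield F) (k q₀ : ℕ) (hk : k.Prime) (hF₀ : Nat.card ↥F₀ = q₀) (hqk : q = q₀ ^ k) (hC5 : ¬ (n = 2 ∧ q₀ = 2)) (hΩ : 3 ∣ ((Cfsg.Geo.subfieldSubgroup F₀ 1).comap (Matrix.SpecialLinearGroup.toGL : Matrix.SpecialLinearGroup (Fin n) F →* GL (Fin n) F)).index) :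
    (∀ x : Matrix.SpecialLinearGroup (Fin n) F,
      (∃ z : F, ((x ^ 3 : Matrix.SpecialLinearGroup (Fin n) F) : Matrix (Fin n) (Fin n) F) = z • (1 : Matrix (Fin n) (Fin n) F)) →
      (∀ z : F, (x : Matrix (Fin n) (Fin n) F) ≠ z • (1 : Matrix (Fin n) (Fin n) F)) →
      ∃ P : Matrix.SpecialLinearGroup (Fin n) F, P⁻¹ * x * P ∈ ((Cfsg.Geo.subfieldSubgroup F₀ 1).comap (Matrix.SpecialLinearGroup.toGL : Matrix.SpecialLinearGroup (Fin n) F →* GL (Fin n) F))) ↔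
    (Odd n ∨ (Even n ∧ 2 < k)) := by
  constructor
  · intro hall
    by_contra hcon
    have hne : Even n := by
      rcases Nat.even_or_odd n with h | h
      · exact h
      · exact absurd (Or.inl h) hcon
    have hk2 : k = 2 := by
      have h1 : ¬ 2 < k := fun h => hcon (Or.inr ⟨hne, h⟩)
      have := hk.two_le
      omega
    subst hk2
    exact backward hn hne F₀ (fun f hf hf0 => sub_isSquare F₀ q q₀ hq hF₀ hqk f hf hf0) hall
  · intro h x hx3 hns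
    apply forward hn F₀ ?_ x hx3 hns
    rcases h with hodd | ⟨-, hk2⟩
    · exact Or.inr hodd
    · left
      have hkodd : k % 2 = 1 := by
        rcases hk.eq_two_or_odd with h2 | h2
        · omega
        · exact h2
      exact fun δ hδ => adj_odd F₀ q q₀ k hq hF₀ hqk hkodd δ hδ

end backward

end Cfsg.Agent.S5966
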