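import Mathlib
import Cfsg.Agent.S5966
import Cfsg.Agent.S5660
import Cfsg.Statements.S5964

set_option autoImplicit false
open scoped MatrixGroups
open Cfsg

namespace Cfsg.Agent.S5964

open Cfsg.Agent.S5959
open Cfsg.Agent.S5966 (jordan_model reindex_mul)

section even

open Matrix

variable {F : Type*} [Field F] [Fintype F] [CharP F 2]

theorem exists_sqrt (z : F) : ∃ c : F, c ^ 2 = z := by
  have hinj : Function.Injective (frobenius F 2) := frobenius_inj F 2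
  obtain ⟨c, hc⟩ := Finite.surjective_of_injective hinj z
  exact ⟨c, hc⟩

theorem forward2 {n : ℕ} (hn : 2 ≤ n) (F₀ : Subfield F)
    (x : Matrix.SpecialLinearGroup (Fin n) F)
    (hx3 : ∃ z : F, ((x ^ 2 : Matrix.SpecialLinearGroup (Fin n) F) : Matrix (Fin n) (Fin n) F)
      = z • (1 : Matrix (Fin n) (Fin n) F))
    (hns : ∀ z : F, (x : Matrix (Fin n) (Fin n) F) ≠ z • (1 : Matrix (Fin n) (Fin n) F)) :
    ∃ P : Matrix.SpecialLinearGroup (Fin n) F,
      P⁻¹ * x * P ∈ ((Cfsg.Geo.subfieldSubgroup F₀ 1).comap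
        (Matrix.SpecialLinearGroup.toGL : Matrix.SpecialLinearGroup (Fin n) F →* GL (Fin n) F)) := by
  classical
  obtain ⟨z, hz⟩ := hx3
  obtain ⟨c, hc⟩ := exists_sqrt z
  obtain ⟨A, hA⟩ : ∃ A : Matrix (Fin n) (Fin n) F, A = (x : Matrix (Fin n) (Fin n) F) := ⟨_, rfl⟩
  have hA3 : A ^ 2 = z • (1 : Matrix (Fin n) (Fin n) F) := by
    rw [hA, ← Matrix.SpecialLinearGroup.coe_pow, hz]
  have hc0 : c ≠ 0 := by
    rintro rfl
    have h1 : z = 0 := by rw [← hc]; ring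
    rw [h1, zero_smul] at hA3
    have h2 : (A ^ 2).det = 1 := by
      rw [Matrix.det_pow, hA, Matrix.SpecialLinearGroup.det_coe, one_pow]
    rw [hA3] at h2
    haveI : Nonempty (Fin n) := ⟨⟨0, by omega⟩⟩
    rw [Matrix.det_zero] at h2
    exact zero_ne_one h2
  obtain ⟨X, hX⟩ : ∃ X : Module.End F (Fin n → F), X = Matrix.toLin' A := ⟨_, rfl⟩
  have hX3 : X ^ 2 = z • (1 : Module.End F (Fin n → F)) := by
    rw [hX, ← Matrix.toLin'_pow, hA3, map_smul, Matrix.toLin'_one]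
    rfl
  obtain ⟨N, hN⟩ : ∃ N : Module.End F (Fin n → F), N = c⁻¹ • X - 1 := ⟨_, rfl⟩
  have hN3 : N ^ 2 = 0 := by
    have h0 : (Polynomial.X - 1 : Polynomial F) ^ 2 = Polynomial.X ^ 2 - 1 := by
      rw [sub_pow_char, one_pow]
    have h := congrArg (Polynomial.aeval (c⁻¹ • X)) h0
    simp only [map_pow, map_sub, Polynomial.aeval_X, map_one] at h
    rw [hN, h, smul_pow, hX3, smul_smul, ← hc]
    have h1 : c⁻¹ ^ 2 * c ^ 2 = 1 := by
      rw [← mul_pow, inv_mul_cancel₀ hc0, one_pow]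
    rw [h1, one_smul, sub_self]
  obtain ⟨J, hJ, ℓ, hpos, E, hE⟩ := jordan_model (F := F) n (Fin n → F) N
    (by rw [Module.finrank_fintype_fun_eq_card, Fintype.card_fin]) ⟨2, hN3⟩
  haveI := hJ
  have hXE : ∀ m, X (E m) = c • E (m + shiftT ℓ m) := by
    intro m
    have h1 := hE m
    rw [hN, LinearMap.sub_apply, LinearMap.smul_apply, Module.End.one_apply] at h1
    rw [map_add, ← h1, add_sub_cancel, smul_smul, mul_inv_cancel₀ hc0, one_smul]
  have hshift3 : ∀ v : (Σ b, Fin (ℓ b)) → F, (shiftT ℓ ^ 2) v = 0 := by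
    intro v
    have h1 := model_pow ℓ E N hE 2 v
    rw [hN3, LinearMap.zero_apply] at h1
    exact E.injective (by rw [← h1, map_zero])
  have hℓ3 : ∀ b, ℓ b ≤ 2 := by
    intro b
    by_contra hcon
    have hb : 2 < ℓ b := by omega
    have h1 := congrFun (hshift3 (fun y => if y = ⟨b, ⟨2, hb⟩⟩ then 1 else 0))
      ⟨b, ⟨0, by omega⟩⟩
    rw [shiftT_pow] at h1
    have h2 : (0 : ℕ) + 2 < ℓ b := by omega
    rw [dif_pos h2, if_pos rfl] at h1
    exact one_ne_zero h1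
  have hbig : ∃ b, 2 ≤ ℓ b := by
    by_contra hcon
    push Not at hcon
    have hS : ∀ v : (Σ b, Fin (ℓ b)) → F, shiftT ℓ v = 0 := by
      intro v
      funext y
      rw [shiftT_apply, dif_neg]
      · rfl
      · have := hcon y.1
        omega
    have hN0 : N = 0 := by
      apply LinearMap.ext
      intro w
      obtain ⟨m, rfl⟩ := E.surjective w
      rw [hE, hS, map_zero, LinearMap.zero_apply]
    have hXc : X = c • (1 : Module.End F (Fin n → F)) := by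
      have h1 : c⁻¹ • X = 1 := by
        rw [hN] at hN0
        exact sub_eq_zero.1 hN0
      rw [← h1, smul_smul, mul_inv_cancel₀ hc0, one_smul]
    apply hns c
    rw [← hA]
    have h2 : A = LinearMap.toMatrix' X := by rw [hX, LinearMap.toMatrix'_toLin']
    rw [h2, hXc, map_smul, LinearMap.toMatrix'_one]
  have hcard : Fintype.card (Σ b, Fin (ℓ b)) = n := by
    have h1 := E.finrank_eq
    rw [Module.finrank_fintype_fun_eq_card, Module.finrank_fintype_fun_eq_card,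
      Fintype.card_fin] at h1
    exact h1
  obtain ⟨e⟩ : Nonempty ((Σ b, Fin (ℓ b)) ≃ Fin n) := ⟨Fintype.equivFinOfCardEq hcard⟩
  obtain ⟨G, hG⟩ : ∃ G : (Fin n → F) ≃ₗ[F] ((Σ b, Fin (ℓ b)) → F),
      ∀ u y, G u y = u (e y) :=
    ⟨LinearEquiv.funCongrLeft F F e, fun u y => rfl⟩
  obtain ⟨E₁, hE₁⟩ : ∃ E₁ : (Fin n → F) ≃ₗ[F] (Fin n → F), ∀ u, E₁ u = E (G u) :=
    ⟨G.trans E, fun u => rfl⟩
  obtain ⟨δ, hδ⟩ : ∃ δ : F, δ = (LinearMap.det (E₁ : (Fin n → F) →ₗ[F] (Fin n → F)))⁻¹ :=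
    ⟨_, rfl⟩
  have hdetE : LinearMap.det (E₁ : (Fin n → F) →ₗ[F] (Fin n → F)) ≠ 0 :=
    (LinearEquiv.isUnit_det' E₁).ne_zero
  have hδ0 : δ ≠ 0 := by
    rw [hδ]
    exact inv_ne_zero hdetE
  obtain ⟨b₀, ε, f₀, hf₀, hf₀0, hε0, hεf⟩ : ∃ (b₀ : J) (ε f₀ : F), f₀ ∈ F₀ ∧ f₀ ≠ 0 ∧ ε ≠ 0
      ∧ ε ^ ℓ b₀ * f₀ = δ := by
    obtain ⟨b, hb⟩ := hbig
    have hb2 : ℓ b = 2 := le_antisymm (hℓ3 b) hb
    obtain ⟨ε, hε⟩ := exists_sqrt δ
    refine ⟨b, ε, 1, F₀.one_mem, one_ne_zero, ?_, by rw [hb2, hε, mul_one]⟩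
    rintro rfl
    apply hδ0
    rw [← hε]
    ring
  obtain ⟨i₀, hi₀⟩ : ∃ i₀ : Fin n, i₀ = ⟨0, by omega⟩ := ⟨_, rfl⟩
  obtain ⟨hh, hhdef⟩ : ∃ hh : Fin n → F, hh = fun i => if i = i₀ then f₀ else 1 := ⟨_, rfl⟩
  have hhF₀ : ∀ i, hh i ∈ F₀ := by
    intro i
    rw [hhdef]
    show (if i = i₀ then f₀ else 1) ∈ F₀
    split_ifs
    · exact hf₀
    · exact F₀.one_mem
  have hh0 : ∀ i, hh i ≠ 0 := by
    intro i
    rw [hhdef]
    show (if i = i₀ then f₀ else 1) ≠ 0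
    split_ifs
    · exact hf₀0
    · exact one_ne_zero
  obtain ⟨H₀, hH₀⟩ : ∃ H₀ : Module.End F (Fin n → F), H₀ = Matrix.toLin' (Matrix.diagonal hh) :=
    ⟨_, rfl⟩
  have hH₀app : ∀ u i, H₀ u i = hh i * u i := by
    intro u i
    rw [hH₀, Matrix.toLin'_apply, Matrix.mulVec_diagonal]
  obtain ⟨dd, hdd⟩ : ∃ dd : (Σ b, Fin (ℓ b)) → F, dd = fun y => if y.1 = b₀ then ε else 1 :=
    ⟨_, rfl⟩
  obtain ⟨Dm, hDm⟩ : ∃ Dm : Module.End F ((Σ b, Fin (ℓ b)) → F),
      Dm = Matrix.toLin' (Matrix.diagonal dd) := ⟨_, rfl⟩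
  have hDmapp : ∀ m y, Dm m y = dd y * m y := by
    intro m y
    rw [hDm, Matrix.toLin'_apply, Matrix.mulVec_diagonal]
  have hDmshift : ∀ m, shiftT ℓ (Dm m) = Dm (shiftT ℓ m) := by
    intro m
    funext y
    rw [hDmapp, shiftT_apply, shiftT_apply]
    by_cases h : (y.2 : ℕ) + 1 < ℓ y.1
    · rw [dif_pos h, dif_pos h, hDmapp, hdd]
    · rw [dif_neg h, dif_neg h, mul_zero]
  obtain ⟨Φ, hΦ⟩ : ∃ Φ : Module.End F (Fin n → F),
      Φ = (E₁ : (Fin n → F) →ₗ[F] (Fin n → F)) ∘ₗ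
        (((G.symm : ((Σ b, Fin (ℓ b)) → F) →ₗ[F] (Fin n → F)) ∘ₗ Dm ∘ₗ
          ((G.symm.symm : (Fin n → F) ≃ₗ[F] ((Σ b, Fin (ℓ b)) → F)) :
            (Fin n → F) →ₗ[F] ((Σ b, Fin (ℓ b)) → F))) ∘ₗ H₀) := ⟨_, rfl⟩
  have hΦapp : ∀ u, Φ u = E (Dm (G (H₀ u))) := by
    intro u
    rw [hΦ]
    show E₁ (G.symm (Dm (G.symm.symm (H₀ u)))) = _
    rw [hE₁, LinearEquiv.apply_symm_apply, LinearEquiv.symm_symm]
  have hdetDm : LinearMap.det Dm = ε ^ ℓ b₀ := by
    rw [hDm, LinearMap.det_toLin', Matrix.det_diagonal, Fintype.prod_sigma, hdd]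
    have h1 : ∀ b : J, ∏ j : Fin (ℓ b), (if (⟨b, j⟩ : Σ b, Fin (ℓ b)).1 = b₀ then ε else 1)
        = if b = b₀ then ε ^ ℓ b else 1 := by
      intro b
      by_cases hb : b = b₀
      · rw [if_pos hb]
        simp only [hb, if_true, Finset.prod_const, Finset.card_univ, Fintype.card_fin]
      · rw [if_neg hb]
        simp only [hb, if_false, Finset.prod_const_one]
    simp only [h1]
    rw [Finset.prod_ite_eq' Finset.univ b₀ (fun b => ε ^ ℓ b), if_pos (Finset.mem_univ _)]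
  have hdetH : LinearMap.det H₀ = f₀ := by
    rw [hH₀, LinearMap.det_toLin', Matrix.det_diagonal, hhdef]
    rw [Finset.prod_ite_eq' Finset.univ i₀ (fun _ => f₀), if_pos (Finset.mem_univ _)]
  have hdetΦ : LinearMap.det Φ = 1 := by
    rw [hΦ, LinearMap.det_comp, LinearMap.det_comp, LinearMap.det_conj, hdetDm, hdetH,
      hεf, hδ, mul_inv_cancel₀ hdetE]
  obtain ⟨P, hP⟩ : ∃ P : Matrix.SpecialLinearGroup (Fin n) F,
      (P : Matrix (Fin n) (Fin n) F) = LinearMap.toMatrix' Φ :=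
    ⟨⟨LinearMap.toMatrix' Φ, by rw [LinearMap.det_toMatrix', hdetΦ]⟩, rfl⟩
  have hPv : ∀ u, (P : Matrix (Fin n) (Fin n) F) *ᵥ u = Φ u := by
    intro u
    rw [hP, LinearMap.toMatrix'_mulVec]
  have hPinv : ∀ u, ((P⁻¹ : Matrix.SpecialLinearGroup (Fin n) F) : Matrix (Fin n) (Fin n) F)
      *ᵥ ((P : Matrix (Fin n) (Fin n) F) *ᵥ u) = u := by
    intro u
    rw [Matrix.mulVec_mulVec, ← Matrix.SpecialLinearGroup.coe_mul, inv_mul_cancel,
      Matrix.SpecialLinearGroup.coe_one, Matrix.one_mulVec]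
  refine ⟨P, ?_⟩
  rw [Subgroup.mem_comap]
  apply Cfsg.Agent.S5660.crit F₀ 1 _ c hc0
  rintro v ⟨u, hu, rfl⟩
  rw [Units.val_one, Matrix.one_mulVec]
  obtain ⟨m', hm'⟩ : ∃ m' : (Σ b, Fin (ℓ b)) → F, m' = G (H₀ u) + shiftT ℓ (G (H₀ u)) :=
    ⟨_, rfl⟩
  have hm'F₀ : ∀ y, m' y ∈ F₀ := by
    intro y
    rw [hm', Pi.add_apply, hG, hH₀app, shiftT_apply]
    refine F₀.add_mem (F₀.mul_mem (hhF₀ _) (hu _)) ?_
    by_cases h : (y.2 : ℕ) + 1 < ℓ y.1
    · rw [dif_pos h, hG, hH₀app]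
      exact F₀.mul_mem (hhF₀ _) (hu _)
    · rw [dif_neg h]
      exact F₀.zero_mem
  obtain ⟨w, hw⟩ : ∃ w : Fin n → F, w = fun i => (hh i)⁻¹ * m' (e.symm i) := ⟨_, rfl⟩
  have hwF₀ : ∀ i, w i ∈ F₀ := by
    intro i
    rw [hw]
    exact F₀.mul_mem (F₀.inv_mem (hhF₀ i)) (hm'F₀ _)
  have hGw : G (H₀ w) = m' := by
    funext y
    rw [hG, hH₀app, hw]
    show hh (e y) * ((hh (e y))⁻¹ * m' (e.symm (e y))) = m' y
    rw [Equiv.symm_apply_apply, ← mul_assoc, mul_inv_cancel₀ (hh0 _), one_mul]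
  refine ⟨w, ⟨w, hwF₀, by rw [Units.val_one, Matrix.one_mulVec]⟩, ?_⟩
  have hkey : X (Φ u) = c • Φ w := by
    rw [hΦapp, hΦapp, hXE, hGw, hDmshift, ← map_add, ← hm']
  show ((P⁻¹ * x * P : Matrix.SpecialLinearGroup (Fin n) F) : Matrix (Fin n) (Fin n) F) *ᵥ u
    = c • w
  rw [Matrix.SpecialLinearGroup.coe_mul, Matrix.SpecialLinearGroup.coe_mul,
    ← Matrix.mulVec_mulVec, ← Matrix.mulVec_mulVec, hPv, ← hA]
  have h1 : A *ᵥ Φ u = X (Φ u) := by rw [hX, Matrix.toLin'_apply]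
  rw [h1, hkey, Matrix.mulVec_smul, ← hPv, hPinv]

end even

section core

open Matrix

variable {F : Type*} [Field F]

/-- a scalar multiple of a matrix over the subfield lies in the subfield group -/
theorem mem_of_smul {n : ℕ} (F₀ : Subfield F) (g : GL (Fin n) F) (c : F) (hc : c ≠ 0)
    (M₀ : Matrix (Fin n) (Fin n) F) (hM₀ : ∀ i j, M₀ i j ∈ F₀)
    (h : (g : Matrix (Fin n) (Fin n) F) = c • M₀) :
    g ∈ Cfsg.Geo.subfieldSubgroup F₀ 1 := by
  apply Cfsg.Agent.S5660.crit F₀ 1 g c hc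
  rintro v ⟨u, hu, rfl⟩
  rw [Units.val_one, Matrix.one_mulVec]
  refine ⟨M₀ *ᵥ u, ⟨M₀ *ᵥ u, ?_, by rw [Units.val_one, Matrix.one_mulVec]⟩, ?_⟩
  · intro i
    show ∑ j, M₀ i j * u j ∈ F₀
    exact F₀.sum_mem (fun j _ => F₀.mul_mem (hM₀ i j) (hu j))
  · rw [h, Matrix.smul_mulVec]

/-- conjugating into the subfield group by a matrix of determinant one -/
theorem conj_core {n : ℕ} (F₀ : Subfield F) (x : Matrix.SpecialLinearGroup (Fin n) F) (c : F)
    (hc : c ≠ 0) (M₀ : Matrix (Fin n) (Fin n) F) (hM₀ : ∀ i j, M₀ i j ∈ F₀)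
    (Pm : Matrix (Fin n) (Fin n) F) (hdet : Pm.det = 1)
    (h : (x : Matrix (Fin n) (Fin n) F) * Pm = c • (Pm * M₀)) :
    ∃ P : Matrix.SpecialLinearGroup (Fin n) F,
      P⁻¹ * x * P ∈ ((Cfsg.Geo.subfieldSubgroup F₀ 1).comap
        (Matrix.SpecialLinearGroup.toGL : Matrix.SpecialLinearGroup (Fin n) F →* GL (Fin n) F)) := by
  obtain ⟨P, hP⟩ : ∃ P : Matrix.SpecialLinearGroup (Fin n) F,
      (P : Matrix (Fin n) (Fin n) F) = Pm := ⟨⟨Pm, hdet⟩, rfl⟩
  refine ⟨P, ?_⟩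
  rw [Subgroup.mem_comap]
  apply mem_of_smul F₀ _ c hc M₀ hM₀
  show ((P⁻¹ * x * P : Matrix.SpecialLinearGroup (Fin n) F) : Matrix (Fin n) (Fin n) F) = c • M₀
  have hinv : ((P⁻¹ : Matrix.SpecialLinearGroup (Fin n) F) : Matrix (Fin n) (Fin n) F) * Pm = 1 := by
    rw [← hP, ← Matrix.SpecialLinearGroup.coe_mul, inv_mul_cancel, Matrix.SpecialLinearGroup.coe_one]
  rw [Matrix.SpecialLinearGroup.coe_mul, Matrix.SpecialLinearGroup.coe_mul, Matrix.mul_assoc, hP, h,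
    Matrix.mul_smul, ← Matrix.mul_assoc, hinv, Matrix.one_mul]

open scoped Pointwise in
/-- unpacking membership of a conjugate in the subfield group -/
theorem unpack {n : ℕ} (F₀ : Subfield F) (x P : Matrix.SpecialLinearGroup (Fin n) F)
    (h : P⁻¹ * x * P ∈ ((Cfsg.Geo.subfieldSubgroup F₀ 1).comap
        (Matrix.SpecialLinearGroup.toGL : Matrix.SpecialLinearGroup (Fin n) F →* GL (Fin n) F))) :
    ∃ (σ : F) (M₀ : Matrix (Fin n) (Fin n) F), σ ≠ 0 ∧ (∀ i j, M₀ i j ∈ F₀) ∧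
      ((P⁻¹ * x * P : Matrix.SpecialLinearGroup (Fin n) F) : Matrix (Fin n) (Fin n) F) = σ • M₀ := by
  rw [Subgroup.mem_comap] at h
  unfold Cfsg.Geo.subfieldSubgroup at h
  obtain ⟨y, hy, hyP⟩ := Subgroup.mem_map.1 h
  have hy' : y = Matrix.SpecialLinearGroup.toGL (P⁻¹ * x * P) := by
    rw [← hyP]
    simp
  have hy2 : y ∈ (((Matrix.GeneralLinearGroup.map (F₀.subtype : ↥F₀ →+* F)).range :
      Subgroup (GL (Fin n) F)) : Set (GL (Fin n) F))
      * ((Cfsg.Geo.scalars (Fin n) F : Subgroup (GL (Fin n) F)) : Set (GL (Fin n) F)) := by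
    rw [← Subgroup.mul_normal]
    exact hy
  obtain ⟨g₀, hg₀, s, hs, hgs⟩ := Set.mem_mul.1 hy2
  obtain ⟨A₀, rfl⟩ := hg₀
  obtain ⟨σ, hσ⟩ := (Cfsg.Geo.mem_scalars_iff s).1 hs
  refine ⟨(σ : F), ((Matrix.GeneralLinearGroup.map (F₀.subtype : ↥F₀ →+* F) A₀ : GL (Fin n) F) :
        Matrix (Fin n) (Fin n) F), σ.ne_zero, ?_, ?_⟩
  · intro i j
    rw [Matrix.GeneralLinearGroup.map_apply]
    exact Subtype.coe_prop _
  · have h1 := congrArg (fun u : GL (Fin n) F => (u : Matrix (Fin n) (Fin n) F)) hgs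
    simp only [Units.val_mul] at h1
    rw [hσ, Matrix.mul_smul, Matrix.mul_one, hy'] at h1
    rw [h1]
    rfl

end core

section parity

open Matrix

/-- `|SL_n(K)| (|K| - 1) = |GL_n(K)|` -/
theorem card_sl_mul {K : Type*} [Field K] [Fintype K] (n : ℕ) (hn : 1 ≤ n) :
    Nat.card (Matrix.SpecialLinearGroup (Fin n) K) * (Fintype.card K - 1) =
      Nat.card (GL (Fin n) K) := by
  classical
  have hrange : (Matrix.SpecialLinearGroup.toGL :
      Matrix.SpecialLinearGroup (Fin n) K →* GL (Fin n) K).range =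
      (Matrix.GeneralLinearGroup.det : GL (Fin n) K →* Kˣ).ker := by
    ext g
    constructor
    · rintro ⟨A, rfl⟩
      rw [MonoidHom.mem_ker]
      apply Units.ext
      rw [Matrix.GeneralLinearGroup.val_det_apply]
      exact A.2
    · intro hg
      rw [MonoidHom.mem_ker] at hg
      have h1 : (g : Matrix (Fin n) (Fin n) K).det = 1 := by
        have h2 := congrArg Units.val hg
        rw [Matrix.GeneralLinearGroup.val_det_apply] at h2
        exact h2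
      exact ⟨⟨(g : Matrix (Fin n) (Fin n) K), h1⟩, Units.ext rfl⟩
  have hinj : Function.Injective (Matrix.SpecialLinearGroup.toGL :
      Matrix.SpecialLinearGroup (Fin n) K →* GL (Fin n) K) := by
    intro A B hAB
    apply Subtype.ext
    exact congrArg (fun g : GL (Fin n) K => (g : Matrix (Fin n) (Fin n) K)) hAB
  have h1 : Nat.card (Matrix.SpecialLinearGroup (Fin n) K) =
      Nat.card ↥(Matrix.GeneralLinearGroup.det : GL (Fin n) K →* Kˣ).ker := by
    rw [← hrange]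
    exact Nat.card_congr (MonoidHom.ofInjective hinj).toEquiv
  have hsurj : Function.Surjective (Matrix.GeneralLinearGroup.det : GL (Fin n) K →* Kˣ) := by
    intro u
    obtain ⟨i₀⟩ : Nonempty (Fin n) := ⟨⟨0, by omega⟩⟩
    have hd : (Matrix.diagonal (fun i : Fin n => if i = i₀ then (u : K) else 1)).det = (u : K) := by
      rw [Matrix.det_diagonal, Finset.prod_ite_eq' Finset.univ i₀ (fun _ => (u : K)),
        if_pos (Finset.mem_univ _)]
    refine ⟨Matrix.GeneralLinearGroup.mkOfDetNeZero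
      (Matrix.diagonal (fun i : Fin n => if i = i₀ then (u : K) else 1)) ?_, ?_⟩
    · rw [hd]
      exact u.ne_zero
    · apply Units.ext
      rw [Matrix.GeneralLinearGroup.val_det_apply]
      exact hd
  have h2 := Subgroup.card_mul_index (Matrix.GeneralLinearGroup.det : GL (Fin n) K →* Kˣ).ker
  rw [Subgroup.index_ker, MonoidHom.range_eq_top.2 hsurj, Subgroup.card_top, Nat.card_units,
    Nat.card_eq_fintype_card (α := K)] at h2
  rw [h1]
  exact h2

theorem factor_odd (q₀ k n i : ℕ) (hq₀ : q₀ % 2 = 1) (hk : k % 2 = 1) (hi : i < n) :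
    ∃ O, O % 2 = 1 ∧ (q₀ ^ k) ^ n - (q₀ ^ k) ^ i = (q₀ ^ n - q₀ ^ i) * O := by
  have hq1 : 1 ≤ q₀ := by omega
  have hb1 : 1 ≤ q₀ ^ (n - i) := Nat.one_le_pow _ _ hq1
  have hbodd : q₀ ^ (n - i) % 2 = 1 := by rw [Nat.pow_mod, hq₀, one_pow]; rfl
  obtain ⟨S, hS, hSpar⟩ := Cfsg.Agent.S5966.geom_parity (q₀ ^ (n - i)) hb1 hbodd k
  obtain ⟨b', hb'⟩ : ∃ b', q₀ ^ (n - i) = b' + 1 := ⟨q₀ ^ (n - i) - 1, by omega⟩
  rw [hb', Nat.add_sub_cancel] at hS
  refine ⟨q₀ ^ (i * (k - 1)) * S, ?_, ?_⟩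
  · rw [Nat.mul_mod, Nat.pow_mod, hq₀, one_pow, hSpar, hk]; rfl
  · have e1 : (q₀ ^ k) ^ i = q₀ ^ i * q₀ ^ (i * (k - 1)) := by
      rw [← pow_mul, ← pow_add]
      congr 1
      have hk1 : k = (k - 1) + 1 := by omega
      calc k * i = ((k - 1) + 1) * i := by rw [← hk1]
        _ = i + i * (k - 1) := by ring
    have e2 : (q₀ ^ k) ^ n = (q₀ ^ k) ^ i * (b' + 1) ^ k := by
      rw [← hb', ← pow_mul, ← pow_mul, ← pow_mul, ← pow_add]
      congr 1
      have hn : n = i + (n - i) := by omega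
      calc k * n = k * (i + (n - i)) := by rw [← hn]
        _ = k * i + (n - i) * k := by ring
    have e3 : q₀ ^ n = q₀ ^ i * (b' + 1) := by
      rw [← hb', ← pow_add]
      congr 1
      omega
    rw [e2, hS, e1, e3]
    have e4 : q₀ ^ i * q₀ ^ (i * (k - 1)) * (1 + b' * S) =
        q₀ ^ i * b' * (q₀ ^ (i * (k - 1)) * S) + q₀ ^ i * q₀ ^ (i * (k - 1)) := by ring
    have e5 : q₀ ^ i * (b' + 1) = q₀ ^ i * b' + q₀ ^ i := by ring
    rw [e4, e5, Nat.add_sub_cancel, Nat.add_sub_cancel]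

theorem gl_ratio (q₀ k n : ℕ) (hq₀ : q₀ % 2 = 1) (hk : k % 2 = 1) :
    ∃ O, O % 2 = 1 ∧ ∏ i : Fin n, ((q₀ ^ k) ^ n - (q₀ ^ k) ^ (i : ℕ)) =
      (∏ i : Fin n, (q₀ ^ n - q₀ ^ (i : ℕ))) * O := by
  choose O hO1 hO2 using (fun i : Fin n => factor_odd q₀ k n i hq₀ hk i.2)
  refine ⟨∏ i, O i, ?_, ?_⟩
  · exact Finset.prod_induction O (fun m => m % 2 = 1)
      (fun a b ha hb => by rw [Nat.mul_mod, ha, hb]) rfl (fun i _ => hO1 i)
  · rw [← Finset.prod_mul_distrib]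
    exact Finset.prod_congr rfl (fun i _ => hO2 i)

variable {F : Type*} [Field F] [Fintype F]

/-- for odd `q` and odd `k` the index of the subfield group is odd -/
theorem index_odd {n : ℕ} (hn : 2 ≤ n) (F₀ : Subfield F) (q q₀ k : ℕ)
    (hq : Fintype.card F = q) (hF₀ : Nat.card ↥F₀ = q₀) (hqk : q = q₀ ^ k) (hqodd : Odd q)
    (hk : k % 2 = 1) :
    ¬ 2 ∣ ((Cfsg.Geo.subfieldSubgroup F₀ 1).comap
        (Matrix.SpecialLinearGroup.toGL : Matrix.SpecialLinearGroup (Fin n) F →* GL (Fin n) F)).index := by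
  classical
  haveI : Fintype ↥F₀ := Fintype.ofFinite ↥F₀
  have hcard₀ : Fintype.card ↥F₀ = q₀ := by rw [← hF₀, Nat.card_eq_fintype_card]
  have hq₀odd : q₀ % 2 = 1 := by
    rcases Nat.even_or_odd q₀ with he | ho
    · exfalso
      have h1 : Even (q₀ ^ k) := he.pow_of_ne_zero (by omega)
      rw [← hqk] at h1
      exact (Nat.not_even_iff_odd.2 hqodd) h1
    · exact Nat.odd_iff.1 ho
  have hq₀2 : 2 ≤ q₀ := by
    rw [← hcard₀]
    exact Fintype.one_lt_card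
  obtain ⟨S₀, hS₀⟩ : ∃ S₀ : Subgroup (Matrix.SpecialLinearGroup (Fin n) F),
      S₀ = (Matrix.SpecialLinearGroup.map (F₀.subtype : ↥F₀ →+* F)).range := ⟨_, rfl⟩
  have hle : S₀ ≤ ((Cfsg.Geo.subfieldSubgroup F₀ 1).comap
        (Matrix.SpecialLinearGroup.toGL : Matrix.SpecialLinearGroup (Fin n) F →* GL (Fin n) F)) := by
    rw [hS₀]
    rintro _ ⟨A, rfl⟩
    rw [Subgroup.mem_comap]
    apply mem_of_smul F₀ _ 1 one_ne_zero
      ((Matrix.SpecialLinearGroup.map (F₀.subtype : ↥F₀ →+* F) A :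
        Matrix.SpecialLinearGroup (Fin n) F) : Matrix (Fin n) (Fin n) F) ?_ (by rw [one_smul]; rfl)
    intro i j
    rw [Matrix.SpecialLinearGroup.map_apply_coe]
    exact Subtype.coe_prop _
  have hinj : Function.Injective (Matrix.SpecialLinearGroup.map (F₀.subtype : ↥F₀ →+* F) :
      Matrix.SpecialLinearGroup (Fin n) ↥F₀ → Matrix.SpecialLinearGroup (Fin n) F) := by
    intro A B hAB
    apply Subtype.ext
    ext i j
    have h1 := congrArg (fun M : Matrix.SpecialLinearGroup (Fin n) F =>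
      (M : Matrix (Fin n) (Fin n) F) i j) hAB
    simp only [Matrix.SpecialLinearGroup.map_apply_coe] at h1
    exact h1
  have hcardS₀ : Nat.card ↥S₀ = Nat.card (Matrix.SpecialLinearGroup (Fin n) ↥F₀) := by
    rw [hS₀]
    exact (Nat.card_congr (MonoidHom.ofInjective hinj).toEquiv).symm
  have h1 := Subgroup.index_mul_card S₀
  have h2 := card_sl_mul (K := F) n (by omega)
  have h3 := card_sl_mul (K := ↥F₀) n (by omega)
  have h4 : Nat.card (GL (Fin n) F) = ∏ i : Fin n, ((q₀ ^ k) ^ n - (q₀ ^ k) ^ (i : ℕ)) := by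
    rw [← hqk, ← hq]
    exact Matrix.card_GL_field n
  have h5 : Nat.card (GL (Fin n) ↥F₀) = ∏ i : Fin n, (q₀ ^ n - q₀ ^ (i : ℕ)) := by
    rw [← hcard₀]
    exact Matrix.card_GL_field n
  obtain ⟨O₁, hO₁, hO₁'⟩ := gl_ratio q₀ k n hq₀odd hk
  obtain ⟨S, hS, hSpar⟩ := Cfsg.Agent.S5966.geom_parity q₀ (by omega) hq₀odd k
  intro h2dvd
  have hdvd : 2 ∣ S₀.index := dvd_trans h2dvd (Subgroup.index_dvd_of_le hle)
  rw [hcardS₀] at h1
  rw [hq, hqk] at h2
  rw [hcard₀] at h3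
  rw [h4, hO₁', ← h5] at h2
  obtain ⟨q₁, hq₁⟩ : ∃ q₁, q₀ = q₁ + 1 := ⟨q₀ - 1, by omega⟩
  have hS' : q₀ ^ k - 1 = q₁ * S := by
    rw [hS, hq₁]
    simp
  rw [hS'] at h2
  rw [hq₁, Nat.add_sub_cancel] at h3
  have hg0 : 0 < Nat.card (GL (Fin n) ↥F₀) := Nat.card_pos
  have hq₁0 : 0 < q₁ := by omega
  have hkey : S₀.index * S = O₁ := by
    have h6 : Nat.card (GL (Fin n) ↥F₀) * (S₀.index * S) = Nat.card (GL (Fin n) ↥F₀) * O₁ := by
      rw [← h2, ← h1, ← h3]
      ring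
    exact Nat.eq_of_mul_eq_mul_left hg0 h6
  obtain ⟨t, ht⟩ := hdvd
  rw [ht] at hkey
  have h7 : O₁ % 2 = 0 := by
    rw [← hkey, mul_assoc]
    exact Nat.mul_mod_right 2 _
  omega

end parity

section odd

open Matrix

variable {F : Type*} [Field F] [Fintype F]

theorem sub_pow_one' (F₀ : Subfield F) (q₀ : ℕ) (hF₀ : Nat.card ↥F₀ = q₀) (f : F) (hf : f ∈ F₀)
    (hf0 : f ≠ 0) : f ^ (q₀ - 1) = 1 := by
  haveI : Fintype ↥F₀ := Fintype.ofFinite ↥F₀
  have h1 := FiniteField.pow_card_sub_one_eq_one (⟨f, hf⟩ : ↥F₀) (by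
    intro h
    apply hf0
    exact congrArg Subtype.val h)
  have h2 := congrArg F₀.subtype h1
  rw [map_pow, map_one] at h2
  rw [← hF₀, Nat.card_eq_fintype_card]
  exact h2

theorem char_ne_two (q : ℕ) (hq : Fintype.card F = q) (hqodd : q % 2 = 1) : ringChar F ≠ 2 := by
  intro h
  have h1 := (FiniteField.even_card_iff_char_two (F := F)).1 h
  omega

/-- for `k = 2` and odd `q` the nonzero elements of the subfield are squares -/
theorem sub_isSquare' (F₀ : Subfield F) (q q₀ : ℕ) (hq : Fintype.card F = q)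
    (hF₀ : Nat.card ↥F₀ = q₀) (hqk : q = q₀ ^ 2) (hq₀odd : q₀ % 2 = 1) (f : F) (hf : f ∈ F₀)
    (hf0 : f ≠ 0) : IsSquare f := by
  have hqodd : q % 2 = 1 := by rw [hqk, Nat.pow_mod, hq₀odd]
  rw [FiniteField.isSquare_iff (char_ne_two q hq hqodd) hf0]
  obtain ⟨g, hg⟩ : ∃ g, q₀ = 2 * g + 1 := ⟨q₀ / 2, by omega⟩
  have h2 : Fintype.card F / 2 = (q₀ - 1) * (g + 1) := by
    have h3 : Fintype.card F = 2 * ((q₀ - 1) * (g + 1)) + 1 := by
      rw [hq, hqk, hg]
      have : 2 * g + 1 - 1 = 2 * g := by omega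
      rw [this]
      ring
    omega
  rw [h2, pow_mul, sub_pow_one' F₀ q₀ hF₀ f hf hf0, one_pow]

/-- a matrix whose square is a nonsquare scalar has even size and determinant a power -/
theorem det_of_sq {n : ℕ} (A : Matrix (Fin n) (Fin n) F) (z : F) (hz : ¬ IsSquare z)
    (hA : A * A = z • (1 : Matrix (Fin n) (Fin n) F)) :
    ∃ i, n = 2 * i ∧ A.det = (-z) ^ i := by
  classical
  obtain ⟨π, hπ⟩ : ∃ π : Polynomial F, π = Polynomial.X ^ 2 - Polynomial.C z := ⟨_, rfl⟩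
  have hπmonic : π.Monic := by
    rw [hπ]
    exact Polynomial.monic_X_pow_sub_C z (by norm_num)
  have hπdeg : π.natDegree = 2 := by
    rw [hπ]
    exact Polynomial.natDegree_X_pow_sub_C
  have hπirr : Irreducible π := by
    apply Polynomial.irreducible_of_degree_le_three_of_not_isRoot
    · rw [hπdeg]
      decide
    · intro y hy
      apply hz
      rw [Polynomial.IsRoot.def, hπ] at hy
      simp only [Polynomial.eval_sub, Polynomial.eval_pow, Polynomial.eval_X,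
        Polynomial.eval_C] at hy
      exact ⟨y, by rw [← sub_eq_zero.1 hy]; ring⟩
  obtain ⟨S, hS⟩ : ∃ S : Matrix (Fin n) (Fin n) (Polynomial F),
      S = Matrix.scalar (Fin n) (Polynomial.X : Polynomial F) := ⟨_, rfl⟩
  obtain ⟨B, hB⟩ : ∃ B : Matrix (Fin n) (Fin n) (Polynomial F),
      B = (Polynomial.C : F →+* Polynomial F).mapMatrix A := ⟨_, rfl⟩
  have hcomm : Commute S B := by
    rw [hS]
    exact Matrix.scalar_commute _ (fun _ => Commute.all _ _) _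
  have hBB : B * B = Matrix.scalar (Fin n) (Polynomial.C z) := by
    rw [hB, ← map_mul, hA]
    ext i j
    rw [RingHom.mapMatrix_apply, Matrix.map_apply, Matrix.smul_apply, Matrix.scalar_apply,
      Matrix.diagonal_apply, Matrix.one_apply]
    split_ifs <;> simp
  have hSS : S * S = Matrix.scalar (Fin n) (Polynomial.X ^ 2) := by
    rw [hS, ← map_mul, sq]
  have hprod : A.charmatrix * (S + B) = Matrix.scalar (Fin n) π := by
    have h0 : A.charmatrix = S - B := by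
      rw [hS, hB]
      rfl
    rw [h0, ← hcomm.mul_self_sub_mul_self_eq', hSS, hBB, ← map_sub, hπ]
  have hdvd : A.charpoly ∣ π ^ n := by
    have h1 := congrArg Matrix.det hprod
    rw [Matrix.det_mul] at h1
    have h2 : (Matrix.scalar (Fin n) π).det = π ^ n := by
      rw [Matrix.scalar_apply, Matrix.det_diagonal, Finset.prod_const, Finset.card_univ,
        Fintype.card_fin]
    rw [h2] at h1
    exact ⟨_, h1.symm⟩
  obtain ⟨i, -, hi⟩ := (dvd_prime_pow hπirr.prime n).1 hdvd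
  have hchar : A.charpoly = π ^ i :=
    Polynomial.eq_of_monic_of_associated (Matrix.charpoly_monic A) (hπmonic.pow i) hi
  have hni : n = 2 * i := by
    have h1 := Matrix.charpoly_natDegree_eq_dim A
    rw [hchar, hπmonic.natDegree_pow, hπdeg, Fintype.card_fin] at h1
    omega
  refine ⟨i, hni, ?_⟩
  rw [Matrix.det_eq_sign_charpoly_coeff, hchar, Polynomial.coeff_zero_eq_eval_zero,
    Polynomial.eval_pow, hπ]
  simp only [Polynomial.eval_sub, Polynomial.eval_pow, Polynomial.eval_X, Polynomial.eval_C]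
  rw [Fintype.card_fin, hni, pow_mul]
  norm_num

/-- under the valuation condition a determinant-one matrix squaring to a scalar squares to a
square scalar -/
theorem sq_of_val {n : ℕ} (hn : 2 ≤ n) (q : ℕ) (hq : Fintype.card F = q) (hq4 : q % 4 = 1)
    (hval : padicValNat 2 n ≤ padicValNat 2 (q - 1))
    (A : Matrix (Fin n) (Fin n) F) (z : F) (hA : A * A = z • (1 : Matrix (Fin n) (Fin n) F))
    (hdet : A.det = 1) : IsSquare z := by
  by_contra hz
  obtain ⟨i, hni, hdi⟩ := det_of_sq A z hz hA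
  rw [hdet] at hdi
  have hchar : ringChar F ≠ 2 := char_ne_two q hq (by omega)
  have hm1 : IsSquare (-1 : F) := by
    rw [FiniteField.isSquare_neg_one_iff, hq]
    omega
  have hw : ¬ IsSquare (-z) := by
    intro h
    apply hz
    have h1 := h.mul hm1
    rwa [neg_mul_neg, mul_one] at h1
  have hz0 : z ≠ 0 := by
    rintro rfl
    exact hz ⟨0, by rw [mul_zero]⟩
  have hw0 : -z ≠ 0 := neg_ne_zero.2 hz0
  have hw1 : (-z) ^ (q - 1) = 1 := by
    rw [← hq]
    exact FiniteField.pow_card_sub_one_eq_one _ hw0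
  have hw2 : (-z) ^ (Nat.gcd i (q - 1)) = 1 := pow_gcd_eq_one.2 ⟨hdi.symm, hw1⟩
  obtain ⟨t, ht⟩ := Nat.gcd_dvd_right i (q - 1)
  obtain ⟨g, hg⟩ : ∃ g, g = Nat.gcd i (q - 1) := ⟨_, rfl⟩
  rw [← hg] at ht hw2
  have hi0 : i ≠ 0 := by omega
  have hg0 : g ≠ 0 := by
    rw [hg]
    exact Nat.gcd_ne_zero_left hi0
  have hq2 : 1 < q := by
    rw [← hq]
    exact Fintype.one_lt_card
  rcases Nat.even_or_odd t with hte | hto
  · obtain ⟨t', ht'⟩ := hte
    apply hw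
    rw [FiniteField.isSquare_iff hchar hw0]
    have h3 : Fintype.card F / 2 = g * t' := by
      rw [hq]
      have : q - 1 = 2 * (g * t') := by
        rw [ht, ht']
        ring
      omega
    rw [h3, pow_mul, hw2, one_pow]
  · have ht0 : t ≠ 0 := by
      rintro rfl
      exact absurd hto (by decide)
    have ht2 : padicValNat 2 t = 0 :=
      padicValNat.eq_zero_of_not_dvd (by rw [Nat.two_dvd_ne_zero]; exact Nat.odd_iff.1 hto)
    have h3 : padicValNat 2 (q - 1) = padicValNat 2 g := by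
      rw [ht, padicValNat.mul hg0 ht0, ht2, add_zero]
    have h4 : padicValNat 2 g ≤ padicValNat 2 i := by
      rw [← padicValNat_dvd_iff_le hi0]
      exact dvd_trans pow_padicValNat_dvd (by rw [hg]; exact Nat.gcd_dvd_left _ _)
    have h5 : padicValNat 2 n = 1 + padicValNat 2 i := by
      rw [hni, padicValNat.mul two_ne_zero hi0, padicValNat_self]
    omega

/-- an element squaring to a nonzero square scalar is diagonalisable with entries `± c` and so
conjugate into the subfield group -/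
theorem conj_of_sq {n : ℕ} (hn : 2 ≤ n) (F₀ : Subfield F) (h2 : (2 : F) ≠ 0)
    (x : Matrix.SpecialLinearGroup (Fin n) F) (c : F) (hc0 : c ≠ 0)
    (hx : (x : Matrix (Fin n) (Fin n) F) * (x : Matrix (Fin n) (Fin n) F)
      = (c * c) • (1 : Matrix (Fin n) (Fin n) F)) :
    ∃ P : Matrix.SpecialLinearGroup (Fin n) F,
      P⁻¹ * x * P ∈ ((Cfsg.Geo.subfieldSubgroup F₀ 1).comap
        (Matrix.SpecialLinearGroup.toGL : Matrix.SpecialLinearGroup (Fin n) F →* GL (Fin n) F)) := by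
  classical
  obtain ⟨A, hA⟩ : ∃ A : Matrix (Fin n) (Fin n) F, A = (x : Matrix (Fin n) (Fin n) F) := ⟨_, rfl⟩
  rw [← hA] at hx
  obtain ⟨X, hX⟩ : ∃ X : Module.End F (Fin n → F), X = Matrix.toLin' A := ⟨_, rfl⟩
  have hXX : ∀ v, X (X v) = (c * c) • v := by
    intro v
    rw [hX, Matrix.toLin'_apply, Matrix.toLin'_apply, Matrix.mulVec_mulVec, hx,
      Matrix.smul_mulVec, Matrix.one_mulVec]
  obtain ⟨Y, hY⟩ : ∃ Y : Module.End F (Fin n → F), Y = c⁻¹ • X := ⟨_, rfl⟩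
  have hXY : ∀ v, X v = c • Y v := by
    intro v
    rw [hY, LinearMap.smul_apply, smul_smul, mul_inv_cancel₀ hc0, one_smul]
  have hYY : ∀ v, Y (Y v) = v := by
    intro v
    rw [hY, LinearMap.smul_apply, LinearMap.smul_apply, map_smul, hXX, smul_smul, smul_smul]
    have : c⁻¹ * c⁻¹ * (c * c) = 1 := by field_simp
    rw [this, one_smul]
  obtain ⟨pp, hpp⟩ : ∃ p : Submodule F (Fin n → F), p = LinearMap.ker (Y - 1) := ⟨_, rfl⟩
  obtain ⟨pm, hpm⟩ : ∃ p : Submodule F (Fin n → F), p = LinearMap.ker (Y + 1) := ⟨_, rfl⟩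
  have hmemp : ∀ v, v ∈ pp ↔ Y v = v := by
    intro v
    rw [hpp, LinearMap.mem_ker, LinearMap.sub_apply, Module.End.one_apply, sub_eq_zero]
  have hmemm : ∀ v, v ∈ pm ↔ Y v = -v := by
    intro v
    rw [hpm, LinearMap.mem_ker, LinearMap.add_apply, Module.End.one_apply,
      add_eq_zero_iff_eq_neg]
  have hcompl : IsCompl pp pm := by
    constructor
    · rw [Submodule.disjoint_def]
      intro v hv1 hv2
      rw [hmemp] at hv1
      rw [hmemm, hv1] at hv2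
      have h3 : (2 : F) • v = 0 := by
        rw [two_smul]
        calc v + v = -v + v := by rw [← hv2]
          _ = 0 := neg_add_cancel v
      exact (smul_eq_zero.1 h3).resolve_left h2
    · rw [codisjoint_iff, eq_top_iff]
      intro v _
      rw [Submodule.mem_sup]
      refine ⟨(2 : F)⁻¹ • (v + Y v), ?_, (2 : F)⁻¹ • (v - Y v), ?_, ?_⟩
      · rw [hmemp, map_smul, map_add, hYY, add_comm]
      · rw [hmemm, map_smul, map_sub, hYY, ← smul_neg, neg_sub]
      · rw [← smul_add]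
        have : v + Y v + (v - Y v) = (2 : F) • v := by
          rw [two_smul]
          abel
        rw [this, smul_smul, inv_mul_cancel₀ h2, one_smul]
  obtain ⟨B', hB'⟩ : ∃ B' : Module.Basis
      (Fin (Module.finrank F ↥pp) ⊕ Fin (Module.finrank F ↥pm)) F (Fin n → F),
      B' = ((Module.finBasis F ↥pp).prod (Module.finBasis F ↥pm)).map
        (Submodule.prodEquivOfIsCompl pp pm hcompl) := ⟨_, rfl⟩
  obtain ⟨s', hs'⟩ : ∃ s' : Fin (Module.finrank F ↥pp) ⊕ Fin (Module.finrank F ↥pm) → F,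
      s' = Sum.elim (fun _ => 1) (fun _ => -1) := ⟨_, rfl⟩
  have hYB' : ∀ i, Y (B' i) = s' i • B' i := by
    intro i
    have h1 : B' i = ((((Module.finBasis F ↥pp).prod (Module.finBasis F ↥pm)) i).1 : Fin n → F)
        + ((((Module.finBasis F ↥pp).prod (Module.finBasis F ↥pm)) i).2 : Fin n → F) := by
      rw [hB', Module.Basis.map_apply, Submodule.coe_prodEquivOfIsCompl']
    rw [h1, hs']
    rcases i with j | j
    · rw [Module.Basis.prod_apply_inl_fst, Module.Basis.prod_apply_inl_snd, Submodule.coe_zero,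
        add_zero, Sum.elim_inl, one_smul]
      exact (hmemp _).1 (Subtype.coe_prop _)
    · rw [Module.Basis.prod_apply_inr_fst, Module.Basis.prod_apply_inr_snd, Submodule.coe_zero,
        zero_add, Sum.elim_inr, neg_smul, one_smul]
      exact (hmemm _).1 (Subtype.coe_prop _)
  have hcard : Fintype.card (Fin (Module.finrank F ↥pp) ⊕ Fin (Module.finrank F ↥pm)) = n := by
    rw [← Module.finrank_eq_card_basis B', Module.finrank_fin_fun]
  obtain ⟨e⟩ : Nonempty ((Fin (Module.finrank F ↥pp) ⊕ Fin (Module.finrank F ↥pm)) ≃ Fin n) :=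
    ⟨Fintype.equivFinOfCardEq hcard⟩
  obtain ⟨B, hB⟩ : ∃ B : Module.Basis (Fin n) F (Fin n → F), B = B'.reindex e := ⟨_, rfl⟩
  obtain ⟨s, hs⟩ : ∃ s : Fin n → F, s = fun i => s' (e.symm i) := ⟨_, rfl⟩
  have hYB : ∀ i, Y (B i) = s i • B i := by
    intro i
    rw [hB, Module.Basis.reindex_apply, hYB', hs]
  have hsF₀ : ∀ i, s i ∈ F₀ := by
    intro i
    rw [hs, hs']
    show Sum.elim (fun _ => (1 : F)) (fun _ => (-1 : F)) (e.symm i) ∈ F₀
    rcases e.symm i with j | j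
    · exact F₀.one_mem
    · exact F₀.neg_mem F₀.one_mem
  obtain ⟨E, hE⟩ : ∃ E : (Fin n → F) ≃ₗ[F] (Fin n → F), E = B.equivFun.symm := ⟨_, rfl⟩
  have hEapp : ∀ u, E u = ∑ i, u i • B i := by
    intro u
    rw [hE, Module.Basis.equivFun_symm_apply]
  have hYE : ∀ u, Y (E u) = E (fun i => s i * u i) := by
    intro u
    rw [hEapp, hEapp, map_sum]
    apply Finset.sum_congr rfl
    intro i _
    rw [map_smul, hYB, smul_smul, mul_comm]
  obtain ⟨δ, hδ⟩ : ∃ δ : F, δ = (LinearMap.det (E : (Fin n → F) →ₗ[F] (Fin n → F)))⁻¹ :=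
    ⟨_, rfl⟩
  have hdetE : LinearMap.det (E : (Fin n → F) →ₗ[F] (Fin n → F)) ≠ 0 :=
    (LinearEquiv.isUnit_det' E).ne_zero
  obtain ⟨i₀, hi₀⟩ : ∃ i₀ : Fin n, i₀ = ⟨0, by omega⟩ := ⟨_, rfl⟩
  obtain ⟨hh, hhdef⟩ : ∃ hh : Fin n → F, hh = fun i => if i = i₀ then δ else 1 := ⟨_, rfl⟩
  obtain ⟨H₀, hH₀⟩ : ∃ H₀ : Module.End F (Fin n → F), H₀ = Matrix.toLin' (Matrix.diagonal hh) :=
    ⟨_, rfl⟩
  have hH₀app : ∀ u i, H₀ u i = hh i * u i := by
    intro u i
    rw [hH₀, Matrix.toLin'_apply, Matrix.mulVec_diagonal]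
  obtain ⟨Φ, hΦ⟩ : ∃ Φ : Module.End F (Fin n → F),
      Φ = (E : (Fin n → F) →ₗ[F] (Fin n → F)) ∘ₗ H₀ := ⟨_, rfl⟩
  have hΦapp : ∀ u, Φ u = E (H₀ u) := by
    intro u
    rw [hΦ]
    rfl
  have hdetH : LinearMap.det H₀ = δ := by
    rw [hH₀, LinearMap.det_toLin', Matrix.det_diagonal, hhdef]
    rw [Finset.prod_ite_eq' Finset.univ i₀ (fun _ => δ), if_pos (Finset.mem_univ _)]
  have hdetΦ : LinearMap.det Φ = 1 := by
    rw [hΦ, LinearMap.det_comp, hdetH, hδ, mul_inv_cancel₀ hdetE]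
  obtain ⟨P, hP⟩ : ∃ P : Matrix.SpecialLinearGroup (Fin n) F,
      (P : Matrix (Fin n) (Fin n) F) = LinearMap.toMatrix' Φ :=
    ⟨⟨LinearMap.toMatrix' Φ, by rw [LinearMap.det_toMatrix', hdetΦ]⟩, rfl⟩
  have hPv : ∀ u, (P : Matrix (Fin n) (Fin n) F) *ᵥ u = Φ u := by
    intro u
    rw [hP, LinearMap.toMatrix'_mulVec]
  have hPinv : ∀ u, ((P⁻¹ : Matrix.SpecialLinearGroup (Fin n) F) : Matrix (Fin n) (Fin n) F)
      *ᵥ ((P : Matrix (Fin n) (Fin n) F) *ᵥ u) = u := by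
    intro u
    rw [Matrix.mulVec_mulVec, ← Matrix.SpecialLinearGroup.coe_mul, inv_mul_cancel,
      Matrix.SpecialLinearGroup.coe_one, Matrix.one_mulVec]
  refine ⟨P, ?_⟩
  rw [Subgroup.mem_comap]
  apply Cfsg.Agent.S5660.crit F₀ 1 _ c hc0
  rintro v ⟨u, hu, rfl⟩
  rw [Units.val_one, Matrix.one_mulVec]
  obtain ⟨w, hw⟩ : ∃ w : Fin n → F, w = fun i => s i * u i := ⟨_, rfl⟩
  have hwF₀ : ∀ i, w i ∈ F₀ := by
    intro i
    rw [hw]
    exact F₀.mul_mem (hsF₀ i) (hu i)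
  refine ⟨w, ⟨w, hwF₀, by rw [Units.val_one, Matrix.one_mulVec]⟩, ?_⟩
  have hkey : X (Φ u) = c • Φ w := by
    rw [hΦapp, hΦapp, hXY, hYE]
    congr 2
    funext i
    rw [hH₀app, hH₀app, hw]
    ring
  show ((P⁻¹ * x * P : Matrix.SpecialLinearGroup (Fin n) F) : Matrix (Fin n) (Fin n) F) *ᵥ u
    = c • w
  rw [Matrix.SpecialLinearGroup.coe_mul, Matrix.SpecialLinearGroup.coe_mul,
    ← Matrix.mulVec_mulVec, ← Matrix.mulVec_mulVec, hPv, ← hA]
  have h1 : A *ᵥ Φ u = X (Φ u) := by rw [hX, Matrix.toLin'_apply]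
  rw [h1, hkey, Matrix.mulVec_smul, ← hPv, hPinv]

/-- when the valuation condition fails there is a nonsquare with the right power -/
theorem exists_nonsq {n : ℕ} (hn : 2 ≤ n) (q : ℕ) (hq : Fintype.card F = q) (hq4 : q % 4 = 1)
    (hval : padicValNat 2 (q - 1) < padicValNat 2 n) :
    ∃ (m : ℕ) (z : F), n = 2 * m ∧ ¬ IsSquare z ∧ (-z) ^ m = 1 := by
  have hchar : ringChar F ≠ 2 := char_ne_two q hq (by omega)
  have hq2 : 1 < q := by
    rw [← hq]
    exact Fintype.one_lt_card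
  have hq1 : q - 1 ≠ 0 := by omega
  obtain ⟨η, hη⟩ := FiniteField.exists_nonsquare hchar
  have hη0 : η ≠ 0 := by
    rintro rfl
    exact hη ⟨0, by rw [mul_zero]⟩
  obtain ⟨v, hv⟩ : ∃ v, v = padicValNat 2 (q - 1) := ⟨_, rfl⟩
  rw [← hv] at hval
  obtain ⟨l, hl⟩ : 2 ^ v ∣ q - 1 := by
    rw [hv]
    exact pow_padicValNat_dvd
  have hlodd : l % 2 = 1 := by
    by_contra hcon
    obtain ⟨l', hl'⟩ : ∃ l', l = 2 * l' := ⟨l / 2, by omega⟩
    have h1 : 2 ^ (v + 1) ∣ q - 1 := ⟨l', by rw [hl, hl', pow_succ]; ring⟩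
    rw [padicValNat_dvd_iff_le hq1] at h1
    omega
  have hn0 : n ≠ 0 := by omega
  obtain ⟨m', hm'⟩ : 2 ^ (v + 1) ∣ n := (padicValNat_dvd_iff_le hn0).2 hval
  obtain ⟨l', hl'⟩ : ∃ l', l = 2 * l' + 1 := ⟨l / 2, by omega⟩
  have hm1 : IsSquare (-1 : F) := by
    rw [FiniteField.isSquare_neg_one_iff, hq]
    omega
  have hw : ¬ IsSquare (η ^ l) := by
    rintro ⟨y, hy⟩
    apply hη
    have ht0 : η ^ l' ≠ 0 := pow_ne_zero _ hη0
    refine ⟨y * (η ^ l')⁻¹, ?_⟩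
    have h1 : y * (η ^ l')⁻¹ * (y * (η ^ l')⁻¹) = (y * y) * ((η ^ l')⁻¹ * (η ^ l')⁻¹) := by ring
    rw [h1, ← hy, hl', pow_succ, pow_mul']
    field_simp
  refine ⟨2 ^ v * m', -(η ^ l), ?_, ?_, ?_⟩
  · rw [hm', pow_succ]
    ring
  · intro h
    apply hw
    have h1 := h.mul hm1
    rwa [neg_mul_neg, mul_one] at h1
  · rw [neg_neg, ← pow_mul]
    have h1 : l * (2 ^ v * m') = (q - 1) * m' := by
      rw [hl]
      ring
    rw [h1, pow_mul, ← hq, FiniteField.pow_card_sub_one_eq_one η hη0, one_pow]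

/-- an element squaring to a nonsquare scalar is never conjugate into the subfield group -/
theorem not_conj {n : ℕ} (hn : 2 ≤ n) (F₀ : Subfield F) (q q₀ : ℕ) (hq : Fintype.card F = q)
    (hF₀ : Nat.card ↥F₀ = q₀) (hqk : q = q₀ ^ 2) (hq₀odd : q₀ % 2 = 1)
    (x : Matrix.SpecialLinearGroup (Fin n) F) (z : F) (hz : ¬ IsSquare z)
    (hx : (x : Matrix (Fin n) (Fin n) F) * (x : Matrix (Fin n) (Fin n) F)
      = z • (1 : Matrix (Fin n) (Fin n) F))
    (P : Matrix.SpecialLinearGroup (Fin n) F) :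
    P⁻¹ * x * P ∉ ((Cfsg.Geo.subfieldSubgroup F₀ 1).comap
        (Matrix.SpecialLinearGroup.toGL : Matrix.SpecialLinearGroup (Fin n) F →* GL (Fin n) F)) := by
  intro h
  obtain ⟨σ, M₀, hσ, hM₀, hPx⟩ := unpack F₀ x P h
  have hsq : ((P⁻¹ * x * P : Matrix.SpecialLinearGroup (Fin n) F) : Matrix (Fin n) (Fin n) F)
      * ((P⁻¹ * x * P : Matrix.SpecialLinearGroup (Fin n) F) : Matrix (Fin n) (Fin n) F)
      = z • (1 : Matrix (Fin n) (Fin n) F) := by
    have h1 : (P⁻¹ * x * P) * (P⁻¹ * x * P) = P⁻¹ * (x * x) * P := by group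
    rw [← Matrix.SpecialLinearGroup.coe_mul, h1, Matrix.SpecialLinearGroup.coe_mul,
      Matrix.SpecialLinearGroup.coe_mul, Matrix.SpecialLinearGroup.coe_mul, hx, Matrix.mul_smul,
      Matrix.mul_one, Matrix.smul_mul, ← Matrix.SpecialLinearGroup.coe_mul, inv_mul_cancel,
      Matrix.SpecialLinearGroup.coe_one]
  rw [hPx, Matrix.smul_mul, Matrix.mul_smul, smul_smul] at hsq
  obtain ⟨i₀, hi₀⟩ : ∃ i₀ : Fin n, i₀ = ⟨0, by omega⟩ := ⟨_, rfl⟩
  have h2 := congrFun (congrFun hsq i₀) i₀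
  rw [Matrix.smul_apply, Matrix.smul_apply, Matrix.one_apply_eq, smul_eq_mul, smul_eq_mul,
    mul_one] at h2
  have hf : (M₀ * M₀) i₀ i₀ ∈ F₀ := by
    rw [Matrix.mul_apply]
    exact F₀.sum_mem (fun j _ => F₀.mul_mem (hM₀ _ _) (hM₀ _ _))
  have hz0 : z ≠ 0 := by
    rintro rfl
    exact hz ⟨0, by rw [mul_zero]⟩
  have hf0 : (M₀ * M₀) i₀ i₀ ≠ 0 := by
    intro h0
    rw [h0, mul_zero] at h2
    exact hz0 h2.symm
  obtain ⟨y, hy⟩ := sub_isSquare' F₀ q q₀ hq hF₀ hqk hq₀odd _ hf hf0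
  apply hz
  refine ⟨σ * y, ?_⟩
  rw [← h2, hy]
  ring

/-- a determinant-one matrix squaring to a prescribed scalar -/
theorem bad_elt {n : ℕ} (m : ℕ) (hm : n = 2 * m) (z : F) (hzm : (-z) ^ m = 1) :
    ∃ x : Matrix.SpecialLinearGroup (Fin n) F,
      (x : Matrix (Fin n) (Fin n) F) * (x : Matrix (Fin n) (Fin n) F)
        = z • (1 : Matrix (Fin n) (Fin n) F) := by
  classical
  obtain ⟨e₂⟩ : Nonempty (Fin m ⊕ Fin m ≃ Fin n) :=
    ⟨finSumFinEquiv.trans (finCongr (by omega))⟩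
  obtain ⟨M, hM⟩ : ∃ M : Matrix (Fin m ⊕ Fin m) (Fin m ⊕ Fin m) F,
      M = Matrix.fromBlocks 1 ((z - 1) • 1) 1 (-1) := ⟨_, rfl⟩
  have h11 : (1 : Matrix (Fin m) (Fin m) F) * 1 + ((z - 1) • (1 : Matrix (Fin m) (Fin m) F)) * 1
      = z • 1 := by
    rw [Matrix.mul_one, Matrix.mul_one]
    module
  have h12 : (1 : Matrix (Fin m) (Fin m) F) * ((z - 1) • (1 : Matrix (Fin m) (Fin m) F))
      + ((z - 1) • (1 : Matrix (Fin m) (Fin m) F)) * (-1) = z • 0 := by
    rw [Matrix.one_mul, Matrix.mul_neg, Matrix.mul_one, smul_zero, add_neg_cancel]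
  have h21 : (1 : Matrix (Fin m) (Fin m) F) * 1 + (-1 : Matrix (Fin m) (Fin m) F) * 1
      = z • 0 := by
    rw [Matrix.mul_one, Matrix.mul_one, smul_zero, add_neg_cancel]
  have h22 : (1 : Matrix (Fin m) (Fin m) F) * ((z - 1) • (1 : Matrix (Fin m) (Fin m) F))
      + (-1 : Matrix (Fin m) (Fin m) F) * (-1) = z • 1 := by
    rw [Matrix.one_mul, neg_mul_neg, Matrix.mul_one]
    module
  have hMM : M * M = z • 1 := by
    rw [hM, Matrix.fromBlocks_multiply, h11, h12, h21, h22, ← Matrix.fromBlocks_smul,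
      Matrix.fromBlocks_one]
  have hdet : M.det = (-z) ^ m := by
    rw [hM, Matrix.det_fromBlocks_one₁₁, Matrix.one_mul]
    have h1 : (-1 : Matrix (Fin m) (Fin m) F) - (z - 1) • 1 = (-z) • 1 := by module
    rw [h1, Matrix.det_smul, Matrix.det_one, mul_one, Fintype.card_fin]
  refine ⟨⟨Matrix.reindex e₂ e₂ M, by rw [Matrix.det_reindex_self, hdet, hzm]⟩, ?_⟩
  show Matrix.reindex e₂ e₂ M * Matrix.reindex e₂ e₂ M = z • 1
  rw [← reindex_mul, hMM]
  ext i j
  simp [Matrix.one_apply]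

end odd

/-- Involutions of PSL_n(q) and subfield subgroups. Here `T = PSL_n(F)` for a field `F` with `q = p^f` elements (`n ≥ 2`, `(n, q) ≠ (2, 2), (2, 3)`), `F₀` is the subfield with `q₀` elements where `q = q₀^k` for a prime `k`, and `H` is the subgroup of matrices of determinant 1 lying in the subfield group of `F₀` (invertible matrices over `F₀` times scalars) — a maximal subgroup of type GL_n(q₀) (the case `n = 2`, `q₀ = 2` is excluded); Ω is the set of `T`-conjugates of `H` (cosets of `H`), so an element of `T` of prime order `r` (a matrix `x` of determinant 1 with `x^r` scalar, `x` not scalar) fixes a point of Ω when some conjugate of `x` by a matrix of determinant 1 lies in `H`. Suppose the index of `H` is even. Then every involution of `T` is conjugate in `T` into `H` if and only if either `q` is even, or `k = 2` and `(n)_2 ≤ (q − 1)_2`. (For `q` odd and `k` odd the index of `H` is odd, so that case does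 not arise.) -/
theorem result {F : Type*} [Field F] [Fintype F] {p : ℕ} [Fact p.Prime] [CharP F p] {q : ℕ} (hq : Fintype.card F = q)
    (n : ℕ) (hn : 2 ≤ n) (hT : (n, q) ≠ (2, 2) ∧ (n, q) ≠ (2, 3))
    (F₀ : Subfield F) (k q₀ : ℕ) (hk : k.Prime) (hF₀ : Nat.card ↥F₀ = q₀) (hqk : q = q₀ ^ k) (hC5 : ¬ (n = 2 ∧ q₀ = 2)) (hΩ : 2 ∣ ((Cfsg.Geo.subfieldSubgroup F₀ 1).comap (Matrix.SpecialLinearGroup.toGL : Matrix.SpecialLinearGroup (Fin n) F →* GL (Fin n) F)).index) :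
    (∀ x : Matrix.SpecialLinearGroup (Fin n) F,
      (∃ z : F, ((x ^ 2 : Matrix.SpecialLinearGroup (Fin n) F) : Matrix (Fin n) (Fin n) F) = z • (1 : Matrix (Fin n) (Fin n) F)) →
      (∀ z : F, (x : Matrix (Fin n) (Fin n) F) ≠ z • (1 : Matrix (Fin n) (Fin n) F)) →
      ∃ P : Matrix.SpecialLinearGroup (Fin n) F, P⁻¹ * x * P ∈ ((Cfsg.Geo.subfieldSubgroup F₀ 1).comap (Matrix.SpecialLinearGroup.toGL : Matrix.SpecialLinearGroup (Fin n) F →* GL (Fin n) F))) ↔
    (Odd q → (k = 2 ∧ padicValNat 2 n ≤ padicValNat 2 (q - 1))) := by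
  classical
  rcases Nat.even_or_odd q with hqe | hqo
  · have hp2 : p = 2 := by
      obtain ⟨f, hp, hf⟩ := FiniteField.card F p
      rw [hq] at hf
      rw [hf, Nat.even_pow] at hqe
      exact (Nat.Prime.even_iff hp).1 hqe.1
    subst hp2
    constructor
    · intro _ hodd
      exact absurd hqe (Nat.not_even_iff_odd.2 hodd)
    · intro _ x hx2 hns
      exact forward2 hn F₀ x hx2 hns
  · have hqodd : q % 2 = 1 := Nat.odd_iff.1 hqo
    have hq₀odd : q₀ % 2 = 1 := by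
      rcases Nat.even_or_odd q₀ with he | ho
      · exfalso
        have h1 : Even (q₀ ^ k) := he.pow_of_ne_zero hk.ne_zero
        rw [← hqk] at h1
        exact absurd h1 (Nat.not_even_iff_odd.2 hqo)
      · exact Nat.odd_iff.1 ho
    have hq4 : k = 2 → q % 4 = 1 := by
      intro hk2
      obtain ⟨g, hg⟩ : ∃ g, q₀ = 2 * g + 1 := ⟨q₀ / 2, by omega⟩
      have h1 : q = 4 * (g * g + g) + 1 := by
        rw [hqk, hk2, hg]
        ring
      omega
    constructor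
    · intro hall _
      have hk2 : k = 2 := by
        by_contra hk2
        have hkodd : k % 2 = 1 := by
          rcases hk.eq_two_or_odd with h | h
          · exact absurd h hk2
          · exact h
        exact index_odd hn F₀ q q₀ k hq hF₀ hqk hqo hkodd hΩ
      refine ⟨hk2, ?_⟩
      by_contra hval
      push Not at hval
      have hq4' := hq4 hk2
      subst hk2
      obtain ⟨m, z, hnm, hz, hzm⟩ := exists_nonsq (F := F) hn q hq hq4' hval
      obtain ⟨x, hx⟩ := bad_elt (n := n) m hnm z hzm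
      have hx2 : ∃ z' : F, ((x ^ 2 : Matrix.SpecialLinearGroup (Fin n) F) :
          Matrix (Fin n) (Fin n) F) = z' • (1 : Matrix (Fin n) (Fin n) F) :=
        ⟨z, by rw [sq, Matrix.SpecialLinearGroup.coe_mul, hx]⟩
      have hns : ∀ z' : F, (x : Matrix (Fin n) (Fin n) F)
          ≠ z' • (1 : Matrix (Fin n) (Fin n) F) := by
        intro c hc
        apply hz
        rw [hc] at hx
        have h1 := congrFun (congrFun hx ⟨0, by omega⟩) ⟨0, by omega⟩
        rw [Matrix.smul_mul, Matrix.one_mul, smul_smul, Matrix.smul_apply, Matrix.smul_apply,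
          Matrix.one_apply_eq, smul_eq_mul, smul_eq_mul, mul_one, mul_one] at h1
        exact ⟨c, h1.symm⟩
      obtain ⟨P, hP⟩ := hall x hx2 hns
      exact not_conj hn F₀ q q₀ hq hF₀ hqk hq₀odd x z hz hx P hP
    · intro hR x hx2 hns
      obtain ⟨hk2, hval⟩ := hR hqo
      have hq4' := hq4 hk2
      obtain ⟨z, hz⟩ := hx2
      have hxx : (x : Matrix (Fin n) (Fin n) F) * (x : Matrix (Fin n) (Fin n) F)
          = z • (1 : Matrix (Fin n) (Fin n) F) := by
        rw [← hz, sq, Matrix.SpecialLinearGroup.coe_mul]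
      obtain ⟨c, hc⟩ := sq_of_val hn q hq hq4' hval (x : Matrix (Fin n) (Fin n) F) z hxx
        (Matrix.SpecialLinearGroup.det_coe x)
      rw [hc] at hxx
      have hc0 : c ≠ 0 := by
        rintro rfl
        have h3 := congrArg Matrix.det hxx
        rw [Matrix.det_mul, Matrix.SpecialLinearGroup.det_coe, mul_zero, zero_smul] at h3
        haveI : Nonempty (Fin n) := ⟨⟨0, by omega⟩⟩
        rw [Matrix.det_zero] at h3
        rw [mul_one] at h3
        exact one_ne_zero h3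
      have h2 : (2 : F) ≠ 0 := Ring.two_ne_zero (char_ne_two q hq hqodd)
      exact conj_of_sq hn F₀ h2 x c hc0 hxx

end Cfsg.Agent.S5964
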