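import Mathlib
import Cfsg.Agent.S5964
import Cfsg.Agent.S5642
import Cfsg.Agent.S0776
import Cfsg.Agent.Lib.Helper15.SemiA
import Cfsg.Statements.S5967

set_option autoImplicit false
open scoped MatrixGroups
open Cfsg

namespace Cfsg.Agent.S5967

open Cfsg.Agent.S5959
open Cfsg.Agent.S5966 (jordan_model)

section frame

open Matrix

variable {F : Type*} [Field F] {o : Type} [Fintype o] [DecidableEq o]

theorem bd_mulVec (C : o → Matrix (Fin 2) (Fin 2) F) (w : Fin 2 × o → F) (i : Fin 2) (j : o) :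
    (Matrix.blockDiagonal C *ᵥ w) (i, j) = C j i 0 * w (0, j) + C j i 1 * w (1, j) := by
  simp only [Matrix.mulVec, dotProduct, Fintype.sum_prod_type, Fin.sum_univ_two,
    Matrix.blockDiagonal_apply, ite_mul, zero_mul, Finset.sum_ite_eq, Finset.mem_univ, if_true]

/-- the standard alternating form on pairs -/
def J0 (F : Type*) [Field F] (o : Type) [Fintype o] : LinearMap.BilinForm F (Fin 2 × o → F) :=
  LinearMap.mk₂ F (fun w w' => ∑ j : o, (w (0, j) * w' (1, j) - w (1, j) * w' (0, j)))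
    (by
      intro w₁ w₂ w'
      rw [← Finset.sum_add_distrib]
      apply Finset.sum_congr rfl
      intro j _
      simp only [Pi.add_apply]
      ring)
    (by
      intro c w w'
      rw [smul_eq_mul, Finset.mul_sum]
      apply Finset.sum_congr rfl
      intro j _
      simp only [Pi.smul_apply, smul_eq_mul]
      ring)
    (by
      intro w w₁ w₂
      rw [← Finset.sum_add_distrib]
      apply Finset.sum_congr rfl
      intro j _
      simp only [Pi.add_apply]
      ring)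
    (by
      intro c w w'
      rw [smul_eq_mul, Finset.mul_sum]
      apply Finset.sum_congr rfl
      intro j _
      simp only [Pi.smul_apply, smul_eq_mul]
      ring)

theorem J0_apply (w w' : Fin 2 × o → F) :
    J0 F o w w' = ∑ j : o, (w (0, j) * w' (1, j) - w (1, j) * w' (0, j)) := rfl

theorem J0_alt : (J0 F o).IsAlt := by
  intro w
  rw [J0_apply]
  apply Finset.sum_eq_zero
  intro j _
  ring

theorem J0_single_right (w : Fin 2 × o → F) (i : Fin 2) (j : o) :
    J0 F o w (Pi.single (i, j) 1) = if i = 1 then w (0, j) else - w (1, j) := by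
  rw [J0_apply]
  have hi : i = 0 ∨ i = 1 := by fin_cases i <;> simp
  rcases hi with rfl | rfl
  · simp [Pi.single_apply, Finset.sum_ite_eq']
  · simp [Pi.single_apply, Finset.sum_ite_eq']

theorem J0_single_left (w : Fin 2 × o → F) (i : Fin 2) (j : o) :
    J0 F o (Pi.single (i, j) 1) w = if i = 0 then w (1, j) else - w (0, j) := by
  rw [J0_apply]
  have hi : i = 0 ∨ i = 1 := by fin_cases i <;> simp
  rcases hi with rfl | rfl
  · simp [Pi.single_apply, Finset.sum_ite_eq']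
  · simp [Pi.single_apply, Finset.sum_ite_eq']

theorem J0_nondeg : (J0 F o).Nondegenerate := by
  refine ⟨fun w hw => ?_, fun w hw => ?_⟩
  · funext p
    obtain ⟨i, j⟩ := p
    have hi : i = 0 ∨ i = 1 := by fin_cases i <;> simp
    rcases hi with rfl | rfl
    · have h := hw (Pi.single (1, j) 1)
      rw [J0_single_right, if_pos rfl] at h
      exact h
    · have h := hw (Pi.single (0, j) 1)
      rw [J0_single_right, if_neg (by decide)] at h
      exact neg_eq_zero.1 h
  · funext p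
    obtain ⟨i, j⟩ := p
    have hi : i = 0 ∨ i = 1 := by fin_cases i <;> simp
    rcases hi with rfl | rfl
    · have h := hw (Pi.single (1, j) 1)
      rw [J0_single_left, if_neg (by decide)] at h
      exact neg_eq_zero.1 h
    · have h := hw (Pi.single (0, j) 1)
      rw [J0_single_left, if_pos rfl] at h
      exact h

theorem J0_sim (C : o → Matrix (Fin 2) (Fin 2) F) (μ : F) (hdet : ∀ j, (C j).det = μ)
    (w w' : Fin 2 × o → F) :
    J0 F o (Matrix.blockDiagonal C *ᵥ w) (Matrix.blockDiagonal C *ᵥ w') = μ * J0 F o w w' := by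
  rw [J0_apply, J0_apply, Finset.mul_sum]
  apply Finset.sum_congr rfl
  intro j _
  rw [bd_mulVec, bd_mulVec, bd_mulVec, bd_mulVec, ← hdet j, Matrix.det_fin_two]
  ring

theorem exists_t (C : o → Matrix (Fin 2) (Fin 2) F) (j₀ : o) (t₀ : Matrix (Fin 2) (Fin 2) F)
    (h : C j₀ * t₀ = t₀ * C j₀) :
    ∃ t : o → Matrix (Fin 2) (Fin 2) F, (∀ j, C j * t j = t j * C j) ∧ ∏ j, (t j).det = t₀.det := by
  refine ⟨fun j => if j = j₀ then t₀ else 1, ?_, ?_⟩
  · intro j
    by_cases hj : j = j₀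
    · subst hj
      simp only [↓reduceIte]
      exact h
    · simp only [hj, ↓reduceIte, mul_one, one_mul]
  · have h1 : ∀ j, (if j = j₀ then t₀ else (1 : Matrix (Fin 2) (Fin 2) F)).det
        = if j = j₀ then t₀.det else 1 := by
      intro j
      split_ifs
      · rfl
      · exact Matrix.det_one
    simp only [h1]
    rw [Finset.prod_ite_eq' Finset.univ j₀ (fun _ => t₀.det), if_pos (Finset.mem_univ _)]

theorem exists_S {n : ℕ} (f : (Fin n → F) → (Fin n → F) → F) (hf : Cfsg.Geo.IsSymplecticForm f)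
    (hcard : n = 2 * Fintype.card o) :
    ∃ S : (Fin 2 × o → F) ≃ₗ[F] (Fin n → F), ∀ w w', f (S w) (S w') = J0 F o w w' := by
  classical
  obtain ⟨b₀, hb₀⟩ := Cfsg.Agent.S0776.symp_basis (J0 F o) J0_alt J0_nondeg (Fintype.card o)
    (by rw [Module.finrank_fintype_fun_eq_card, Fintype.card_prod, Fintype.card_fin])
  obtain ⟨bf, hbf⟩ := Cfsg.Agent.S0776.symp_basis (Cfsg.Agent.S5642.BF f hf)
    (fun v => hf.alternating v)
    (Cfsg.Agent.S5642.BF_nondeg f hf) (Fintype.card o)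
    (by rw [Module.finrank_fintype_fun_eq_card, Fintype.card_fin]; exact hcard)
  obtain ⟨S, hS⟩ : ∃ S : (Fin 2 × o → F) ≃ₗ[F] (Fin n → F), S = b₀.equiv bf (Equiv.refl _) :=
    ⟨_, rfl⟩
  refine ⟨S, ?_⟩
  have e1 : ∀ i, (S : (Fin 2 × o → F) →ₗ[F] (Fin n → F)) (b₀ i) = bf i := by
    intro i
    rw [hS]
    show (b₀.equiv bf (Equiv.refl _)) (b₀ i) = bf i
    rw [Module.Basis.equiv_apply]
    rfl
  have h1 : (Cfsg.Agent.S5642.BF f hf).comp (S : (Fin 2 × o → F) →ₗ[F] (Fin n → F))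
      (S : (Fin 2 × o → F) →ₗ[F] (Fin n → F)) = J0 F o := by
    apply LinearMap.ext_basis b₀ b₀
    intro i j
    rw [LinearMap.BilinForm.comp_apply, e1, e1, ← LinearMap.BilinForm.toMatrix_apply bf,
      ← LinearMap.BilinForm.toMatrix_apply b₀, hb₀, hbf]
  intro w w'
  have h2 := congrArg (fun B : LinearMap.BilinForm F (Fin 2 × o → F) => B w w') h1
  exact h2

/-- the framework: a paired basis on which `x` acts by `2 × 2` blocks of equal determinant, with
enough centralising block maps, gives a conjugate of `x` of determinant one in the similarity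
group -/
theorem frame {n : ℕ} (f : (Fin n → F) → (Fin n → F) → F)
    (hf : Cfsg.Geo.IsSymplecticForm f) (x : Matrix.SpecialLinearGroup (Fin n) F)
    (E : (Fin 2 × o → F) ≃ₗ[F] (Fin n → F)) (C : o → Matrix (Fin 2) (Fin 2) F)
    (hXE : ∀ w, (x : Matrix (Fin n) (Fin n) F) *ᵥ (E w) = E (Matrix.blockDiagonal C *ᵥ w))
    (μ : F) (hμ : μ ≠ 0) (hdet : ∀ j, (C j).det = μ)
    (hT : ∀ δ : F, δ ≠ 0 → ∃ t : o → Matrix (Fin 2) (Fin 2) F,
      (∀ j, C j * t j = t j * C j) ∧ ∏ j, (t j).det = δ) :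
    ∃ P : Matrix.SpecialLinearGroup (Fin n) F,
      P⁻¹ * x * P ∈ ((Cfsg.Geo.similarityGroup f).comap
        (Matrix.SpecialLinearGroup.toGL : Matrix.SpecialLinearGroup (Fin n) F →* GL (Fin n) F)) := by
  classical
  have hcard : n = 2 * Fintype.card o := by
    have h1 := E.finrank_eq
    rw [Module.finrank_fintype_fun_eq_card, Module.finrank_fintype_fun_eq_card, Fintype.card_fin,
      Fintype.card_prod, Fintype.card_fin] at h1
    exact h1.symm
  obtain ⟨S, hS⟩ := exists_S (o := o) f hf hcard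
  obtain ⟨Ψ, hΨ⟩ : ∃ Ψ : (Fin n → F) ≃ₗ[F] (Fin n → F), Ψ = S.symm.trans E := ⟨_, rfl⟩
  have hdetΨ : LinearMap.det (Ψ : (Fin n → F) →ₗ[F] (Fin n → F)) ≠ 0 :=
    (LinearEquiv.isUnit_det' Ψ).ne_zero
  obtain ⟨t, htc, htd⟩ := hT (LinearMap.det (Ψ : (Fin n → F) →ₗ[F] (Fin n → F)))⁻¹
    (inv_ne_zero hdetΨ)
  obtain ⟨T, hTdef⟩ : ∃ T : Module.End F (Fin 2 × o → F),
      T = Matrix.toLin' (Matrix.blockDiagonal t) := ⟨_, rfl⟩
  obtain ⟨M, hMdef⟩ : ∃ M : Module.End F (Fin 2 × o → F),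
      M = Matrix.toLin' (Matrix.blockDiagonal C) := ⟨_, rfl⟩
  have hTM : ∀ w, M (T w) = T (M w) := by
    intro w
    rw [hTdef, hMdef, Matrix.toLin'_apply, Matrix.toLin'_apply, Matrix.toLin'_apply,
      Matrix.toLin'_apply, Matrix.mulVec_mulVec, Matrix.mulVec_mulVec,
      ← Matrix.blockDiagonal_mul, ← Matrix.blockDiagonal_mul]
    congr 2
    funext j
    exact htc j
  have hdetT : LinearMap.det T = (LinearMap.det (Ψ : (Fin n → F) →ₗ[F] (Fin n → F)))⁻¹ := by
    rw [hTdef, LinearMap.det_toLin', Matrix.det_blockDiagonal, htd]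
  obtain ⟨Φ, hΦ⟩ : ∃ Φ : Module.End F (Fin n → F),
      Φ = (Ψ : (Fin n → F) →ₗ[F] (Fin n → F)) ∘ₗ
        ((S : (Fin 2 × o → F) →ₗ[F] (Fin n → F)) ∘ₗ T ∘ₗ
          ((S.symm : (Fin n → F) ≃ₗ[F] (Fin 2 × o → F)) :
            (Fin n → F) →ₗ[F] (Fin 2 × o → F))) := ⟨_, rfl⟩
  have hΦapp : ∀ u, Φ u = E (T (S.symm u)) := by
    intro u
    rw [hΦ, hΨ]
    show E (S.symm (S (T (S.symm u)))) = _
    rw [LinearEquiv.symm_apply_apply]
  have hdetΦ : LinearMap.det Φ = 1 := by
    rw [hΦ, LinearMap.det_comp, LinearMap.det_conj, hdetT, mul_inv_cancel₀ hdetΨ]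
  obtain ⟨P, hP⟩ : ∃ P : Matrix.SpecialLinearGroup (Fin n) F,
      (P : Matrix (Fin n) (Fin n) F) = LinearMap.toMatrix' Φ :=
    ⟨⟨LinearMap.toMatrix' Φ, by rw [LinearMap.det_toMatrix', hdetΦ]⟩, rfl⟩
  have hPv : ∀ u, (P : Matrix (Fin n) (Fin n) F) *ᵥ u = Φ u := by
    intro u
    rw [hP, LinearMap.toMatrix'_mulVec]
  have hPinv : ∀ u, ((P⁻¹ : Matrix.SpecialLinearGroup (Fin n) F) : Matrix (Fin n) (Fin n) F)
      *ᵥ ((P : Matrix (Fin n) (Fin n) F) *ᵥ u) = u := by
    intro u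
    rw [Matrix.mulVec_mulVec, ← Matrix.SpecialLinearGroup.coe_mul, inv_mul_cancel,
      Matrix.SpecialLinearGroup.coe_one, Matrix.one_mulVec]
  have hconj : ∀ u, ((P⁻¹ * x * P : Matrix.SpecialLinearGroup (Fin n) F) :
      Matrix (Fin n) (Fin n) F) *ᵥ u = S (M (S.symm u)) := by
    intro u
    rw [Matrix.SpecialLinearGroup.coe_mul, Matrix.SpecialLinearGroup.coe_mul,
      ← Matrix.mulVec_mulVec, ← Matrix.mulVec_mulVec, hPv, hΦapp, hXE]
    have h1 : E (Matrix.blockDiagonal C *ᵥ T (S.symm u))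
        = (P : Matrix (Fin n) (Fin n) F) *ᵥ (S (M (S.symm u))) := by
      rw [hPv, hΦapp, LinearEquiv.symm_apply_apply, ← hTM]
      rw [hMdef, Matrix.toLin'_apply]
    rw [h1, hPinv]
  refine ⟨P, ?_⟩
  rw [Subgroup.mem_comap]
  refine ⟨Units.mk0 μ hμ, ?_⟩
  intro u v
  show f (((P⁻¹ * x * P : Matrix.SpecialLinearGroup (Fin n) F) : Matrix (Fin n) (Fin n) F) *ᵥ u)
    (((P⁻¹ * x * P : Matrix.SpecialLinearGroup (Fin n) F) : Matrix (Fin n) (Fin n) F) *ᵥ v)
    = μ * f u v
  rw [hconj, hconj, hS, hMdef, Matrix.toLin'_apply, Matrix.toLin'_apply, J0_sim C μ hdet, ← hS,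
    LinearEquiv.apply_symm_apply, LinearEquiv.apply_symm_apply]

end frame


section odd

open Matrix

variable {F : Type*} [Field F] [Fintype F]

theorem no_root {n : ℕ} (q : ℕ) (hq : Fintype.card F = q) (hqodd : q % 2 = 1) (hn0 : n ≠ 0)
    (hval : padicValNat 2 (q - 1) ≤ padicValNat 2 n) (c : F) : c ^ n ≠ -1 := by
  intro hc
  have hchar : ringChar F ≠ 2 := Cfsg.Agent.S5964.char_ne_two q hq hqodd
  have h2 : (2 : F) ≠ 0 := Ring.two_ne_zero hchar
  have hq2 : 1 < q := by
    rw [← hq]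
    exact Fintype.one_lt_card
  have hq1 : q - 1 ≠ 0 := by omega
  have hc0 : c ≠ 0 := by
    rintro rfl
    rw [zero_pow hn0] at hc
    exact one_ne_zero (by linear_combination hc)
  obtain ⟨v, hv⟩ : ∃ v, v = padicValNat 2 (q - 1) := ⟨_, rfl⟩
  rw [← hv] at hval
  obtain ⟨l, hl⟩ : 2 ^ v ∣ q - 1 := by
    rw [hv]
    exact pow_padicValNat_dvd
  have hlodd : l % 2 = 1 := by
    by_contra hcon
    obtain ⟨l', hl'⟩ : ∃ l', l = 2 * l' := ⟨l / 2, by omega⟩
    have h1 : 2 ^ (v + 1) ∣ q - 1 := ⟨l', by rw [hl, hl', pow_succ]; ring⟩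
    rw [padicValNat_dvd_iff_le hq1] at h1
    omega
  obtain ⟨n'', hn''⟩ : 2 ^ v ∣ n := (padicValNat_dvd_iff_le hn0).2 hval
  have h3 : (c ^ n) ^ l = 1 := by
    rw [← pow_mul]
    have : n * l = (q - 1) * n'' := by
      rw [hl, hn'']
      ring
    rw [this, pow_mul, ← hq, FiniteField.pow_card_sub_one_eq_one c hc0, one_pow]
  rw [hc, Odd.neg_one_pow (Nat.odd_iff.2 hlodd)] at h3
  apply h2
  linear_combination (-1 : F) * h3

theorem exists_root {n : ℕ} (q : ℕ) (hq : Fintype.card F = q) (hqodd : q % 2 = 1) (hn0 : n ≠ 0)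
    (hval : padicValNat 2 n < padicValNat 2 (q - 1)) : ∃ c : F, c ^ n = -1 := by
  have hchar : ringChar F ≠ 2 := Cfsg.Agent.S5964.char_ne_two q hq hqodd
  have hq2 : 1 < q := by
    rw [← hq]
    exact Fintype.one_lt_card
  have hq1 : q - 1 ≠ 0 := by omega
  obtain ⟨η, hη⟩ := FiniteField.exists_nonsquare hchar
  have hη0 : η ≠ 0 := by
    rintro rfl
    exact hη ⟨0, by rw [mul_zero]⟩
  have hη1 : η ^ (Fintype.card F / 2) = -1 := by
    rcases FiniteField.pow_dichotomy hchar hη0 with h | h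
    · exact absurd ((FiniteField.isSquare_iff hchar hη0).2 h) hη
    · exact h
  obtain ⟨e, he⟩ : ∃ e, e = padicValNat 2 n := ⟨_, rfl⟩
  rw [← he] at hval
  obtain ⟨n', hn'⟩ : 2 ^ e ∣ n := by
    rw [he]
    exact pow_padicValNat_dvd
  have hn'odd : n' % 2 = 1 := by
    by_contra hcon
    obtain ⟨n'', hn''⟩ : ∃ n'', n' = 2 * n'' := ⟨n' / 2, by omega⟩
    have h1 : 2 ^ (e + 1) ∣ n := ⟨n'', by rw [hn', hn'', pow_succ]; ring⟩
    rw [padicValNat_dvd_iff_le hn0] at h1
    omega
  obtain ⟨l, hl⟩ : 2 ^ (e + 1) ∣ q - 1 := (padicValNat_dvd_iff_le hq1).2 hval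
  have hhalf : Fintype.card F / 2 = 2 ^ e * l := by
    rw [hq]
    have : q - 1 = 2 * (2 ^ e * l) := by
      rw [hl, pow_succ]
      ring
    omega
  refine ⟨η ^ l, ?_⟩
  rw [← pow_mul]
  have h1 : l * n = (2 ^ e * l) * n' := by
    rw [hn']
    ring
  rw [h1, pow_mul, ← hhalf, hη1, Odd.neg_one_pow (Nat.odd_iff.2 hn'odd)]

omit [Fintype F] in
theorem bad_diag {n : ℕ} (he : Even n) (i₀ : Fin n) (c : F) (hcn : c ^ n = -1) :
    ∃ x : Matrix.SpecialLinearGroup (Fin n) F, (x : Matrix (Fin n) (Fin n) F)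
      = c • Matrix.diagonal (fun i : Fin n => if i = i₀ then (1 : F) else -1) := by
  classical
  refine ⟨⟨c • Matrix.diagonal (fun i : Fin n => if i = i₀ then (1 : F) else -1), ?_⟩, rfl⟩
  rw [Matrix.det_smul, Matrix.det_diagonal, Fintype.card_fin, hcn]
  have h1 : ∀ i : Fin n, (if i = i₀ then (1 : F) else -1)
      = (-1) * (if i = i₀ then (-1 : F) else 1) := by
    intro i
    split_ifs <;> ring
  rw [Finset.prod_congr rfl (fun i _ => h1 i), Finset.prod_mul_distrib, Finset.prod_const,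
    Finset.card_univ, Fintype.card_fin, Even.neg_one_pow he,
    Finset.prod_ite_eq' Finset.univ i₀ (fun _ => (-1 : F)), if_pos (Finset.mem_univ _)]
  norm_num

omit [Fintype F] in
theorem not_conj_diag {n : ℕ} (hn : 4 ≤ n) (f : (Fin n → F) → (Fin n → F) → F)
    (hf : Cfsg.Geo.IsSymplecticForm f) (h2 : (2 : F) ≠ 0) (c : F) (hc : c ≠ 0) (i₀ : Fin n)
    (hi₀ : (i₀ : ℕ) = 0) (x : Matrix.SpecialLinearGroup (Fin n) F)
    (hx : (x : Matrix (Fin n) (Fin n) F)
      = c • Matrix.diagonal (fun i : Fin n => if i = i₀ then (1 : F) else -1))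
    (P : Matrix.SpecialLinearGroup (Fin n) F) :
    P⁻¹ * x * P ∉ ((Cfsg.Geo.similarityGroup f).comap
        (Matrix.SpecialLinearGroup.toGL : Matrix.SpecialLinearGroup (Fin n) F →* GL (Fin n) F)) := by
  classical
  intro hmem
  rw [Subgroup.mem_comap] at hmem
  obtain ⟨μ, hμ⟩ := hmem
  have hμ' : ∀ u v, f (((P⁻¹ * x * P : Matrix.SpecialLinearGroup (Fin n) F) :
      Matrix (Fin n) (Fin n) F) *ᵥ u)
      (((P⁻¹ * x * P : Matrix.SpecialLinearGroup (Fin n) F) : Matrix (Fin n) (Fin n) F) *ᵥ v)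
      = (μ : F) * f u v := hμ
  obtain ⟨d, hd⟩ : ∃ d : Fin n → F, d = fun i => if i = i₀ then (1 : F) else -1 := ⟨_, rfl⟩
  rw [← hd] at hx
  obtain ⟨w, hw⟩ : ∃ w : Fin n → (Fin n → F), w = fun i =>
      ((P⁻¹ : Matrix.SpecialLinearGroup (Fin n) F) : Matrix (Fin n) (Fin n) F) *ᵥ (Pi.single i 1) :=
    ⟨_, rfl⟩
  have hPw : ∀ i, (P : Matrix (Fin n) (Fin n) F) *ᵥ (w i) = Pi.single i 1 := by
    intro i
    rw [hw]
    show (P : Matrix (Fin n) (Fin n) F) *ᵥ
      (((P⁻¹ : Matrix.SpecialLinearGroup (Fin n) F) : Matrix (Fin n) (Fin n) F) *ᵥ Pi.single i 1) = _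
    rw [Matrix.mulVec_mulVec, ← Matrix.SpecialLinearGroup.coe_mul, mul_inv_cancel,
      Matrix.SpecialLinearGroup.coe_one, Matrix.one_mulVec]
  have hxe : ∀ i, (x : Matrix (Fin n) (Fin n) F) *ᵥ (Pi.single i 1 : Fin n → F)
      = (c * d i) • (Pi.single i 1 : Fin n → F) := by
    intro i
    funext k
    rw [hx, Matrix.smul_mulVec, Pi.smul_apply, Matrix.mulVec_diagonal, Pi.smul_apply,
      Pi.single_apply, smul_eq_mul, smul_eq_mul]
    by_cases h : k = i
    · rw [if_pos h, h]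
      ring
    · rw [if_neg h]
      ring
  have hgw : ∀ i, ((P⁻¹ * x * P : Matrix.SpecialLinearGroup (Fin n) F) :
      Matrix (Fin n) (Fin n) F) *ᵥ (w i) = (c * d i) • w i := by
    intro i
    rw [Matrix.SpecialLinearGroup.coe_mul, Matrix.SpecialLinearGroup.coe_mul,
      ← Matrix.mulVec_mulVec, ← Matrix.mulVec_mulVec, hPw, hxe, Matrix.mulVec_smul, hw]
  have hkey : ∀ i j, (c * d i * (c * d j) - (μ : F)) * f (w i) (w j) = 0 := by
    intro i j
    have h1 := hμ' (w i) (w j)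
    rw [hgw, hgw, hf.bilinear.smul_left, hf.bilinear.smul_right] at h1
    linear_combination h1
  have hw0 : ∀ i, w i ≠ 0 := by
    intro i h0
    have h1 := hPw i
    rw [h0, Matrix.mulVec_zero] at h1
    have h2' := congrFun h1 i
    rw [Pi.single_eq_same, Pi.zero_apply] at h2'
    exact zero_ne_one h2'
  have hspan : ∀ u, (∀ j, f u (w j) = 0) → u = 0 := by
    intro u hu
    by_contra hu0
    obtain ⟨v', hv'⟩ := (hf.nondegenerate u hu0).2
    apply hv'
    obtain ⟨a, ha⟩ : ∃ a : Fin n → F, a = (P : Matrix (Fin n) (Fin n) F) *ᵥ v' := ⟨_, rfl⟩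
    have h1 : ∑ j, a j • (Pi.single j (1 : F) : Fin n → F) = a := by
      have h := (Pi.basisFun F (Fin n)).sum_repr a
      simpa [Pi.basisFun_repr, Pi.basisFun_apply] using h
    have h4 : v' = Matrix.toLin' ((P⁻¹ : Matrix.SpecialLinearGroup (Fin n) F) :
        Matrix (Fin n) (Fin n) F) a := by
      rw [ha, Matrix.toLin'_apply, Matrix.mulVec_mulVec, ← Matrix.SpecialLinearGroup.coe_mul,
        inv_mul_cancel, Matrix.SpecialLinearGroup.coe_one, Matrix.one_mulVec]
    have h3 : v' = ∑ j, a j • w j := by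
      rw [h4]
      conv_lhs => rw [← h1]
      rw [map_sum]
      apply Finset.sum_congr rfl
      intro j _
      rw [map_smul, Matrix.toLin'_apply, hw]
    rw [h3]
    show Cfsg.Agent.S5642.BF f hf u (∑ j, a j • w j) = 0
    rw [map_sum]
    apply Finset.sum_eq_zero
    intro j _
    rw [map_smul, Cfsg.Agent.S5642.BF_apply, hu j, smul_zero]
  have hdi₀ : d i₀ = 1 := by
    rw [hd]
    simp
  have hdne : ∀ i, i ≠ i₀ → d i = -1 := by
    intro i hi
    rw [hd]
    simp [hi]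
  by_cases hμc : (μ : F) = c * c
  · apply hw0 i₀
    apply hspan
    intro j
    by_cases hj : j = i₀
    · rw [hj]
      exact hf.alternating _
    · have h1 := hkey i₀ j
      rw [hdi₀, hdne j hj, hμc] at h1
      have h3 : c * 1 * (c * -1) - c * c = -(2 * (c * c)) := by ring
      rw [h3] at h1
      rcases mul_eq_zero.1 h1 with h | h
      · exfalso
        rw [neg_eq_zero] at h
        rcases mul_eq_zero.1 h with h | h
        · exact h2 h
        · exact hc (mul_self_eq_zero.1 h)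
      · exact h
  · have hzero : ∀ i j, i ≠ i₀ → j ≠ i₀ → f (w i) (w j) = 0 := by
      intro i j hi hj
      have h1 := hkey i j
      rw [hdne i hi, hdne j hj] at h1
      rcases mul_eq_zero.1 h1 with h | h
      · exfalso
        apply hμc
        linear_combination -h
      · exact h
    obtain ⟨i₁, hi₁⟩ : ∃ i₁ : Fin n, (i₁ : ℕ) = 1 := ⟨⟨1, by omega⟩, rfl⟩
    obtain ⟨i₂, hi₂⟩ : ∃ i₂ : Fin n, (i₂ : ℕ) = 2 := ⟨⟨2, by omega⟩, rfl⟩
    have h10 : i₁ ≠ i₀ := by
      intro h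
      rw [h] at hi₁
      omega
    have h20 : i₂ ≠ i₀ := by
      intro h
      rw [h] at hi₂
      omega
    have h12 : i₁ ≠ i₂ := by
      intro h
      rw [h] at hi₁
      omega
    have hu : f (w i₀) (w i₂) • w i₁ - f (w i₀) (w i₁) • w i₂ = 0 := by
      apply hspan
      intro j
      have hexp : f (f (w i₀) (w i₂) • w i₁ - f (w i₀) (w i₁) • w i₂) (w j)
          = f (w i₀) (w i₂) * f (w i₁) (w j) - f (w i₀) (w i₁) * f (w i₂) (w j) := by
        show Cfsg.Agent.S5642.BF f hf (f (w i₀) (w i₂) • w i₁ - f (w i₀) (w i₁) • w i₂) (w j) = _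
        rw [map_sub, LinearMap.sub_apply, map_smul, map_smul, LinearMap.smul_apply,
          LinearMap.smul_apply]
        rfl
      rw [hexp]
      by_cases hj : j = i₀
      · rw [hj, hf.skew (w i₁) (w i₀), hf.skew (w i₂) (w i₀)]
        ring
      · rw [hzero i₁ j h10 hj, hzero i₂ j h20 hj]
        ring
    have h01 : f (w i₀) (w i₁) = 0 := by
      have h1 := congrArg (fun v => ((P : Matrix (Fin n) (Fin n) F) *ᵥ v) i₂) hu
      simp only [Matrix.mulVec_sub, Matrix.mulVec_smul, hPw, Matrix.mulVec_zero, Pi.sub_apply,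
        Pi.smul_apply, Pi.zero_apply, smul_eq_mul] at h1
      rw [Pi.single_eq_same, Pi.single_eq_of_ne (Ne.symm h12)] at h1
      linear_combination -h1
    apply hw0 i₁
    apply hspan
    intro j
    by_cases hj : j = i₀
    · rw [hj, hf.skew, h01, neg_zero]
    · exact hzero i₁ j h10 hj

end odd


section cases

open Matrix

variable {F : Type*} [Field F] [Fintype F]

omit [Fintype F] in
theorem charpoly_toLin' {ι : Type*} [Fintype ι] [DecidableEq ι] (A : Matrix ι ι F) :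
    (Matrix.toLin' A).charpoly = A.charpoly := by
  rw [← LinearMap.charpoly_toMatrix (Matrix.toLin' A) (Pi.basisFun F ι),
    LinearMap.toMatrix_eq_toMatrix', LinearMap.toMatrix'_toLin']

omit [Fintype F] in
theorem pi_irr (z : F) (hz : ¬ IsSquare z) :
    Irreducible (Polynomial.X ^ 2 - Polynomial.C z : Polynomial F) := by
  apply Polynomial.irreducible_of_degree_le_three_of_not_isRoot
  · rw [Polynomial.natDegree_X_pow_sub_C]
    decide
  · intro y hy
    apply hz
    rw [Polynomial.IsRoot.def] at hy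
    simp only [Polynomial.eval_sub, Polynomial.eval_pow, Polynomial.eval_X,
      Polynomial.eval_C] at hy
    exact ⟨y, by rw [← sub_eq_zero.1 hy]; ring⟩

omit [Fintype F] in
theorem charpoly_of_sq {ι : Type*} [Fintype ι] [DecidableEq ι] (A : Matrix ι ι F) (z : F)
    (hz : ¬ IsSquare z) (hA : A * A = z • (1 : Matrix ι ι F)) :
    ∃ i, Fintype.card ι = 2 * i ∧ A.charpoly = (Polynomial.X ^ 2 - Polynomial.C z) ^ i := by
  classical
  obtain ⟨π, hπ⟩ : ∃ π : Polynomial F, π = Polynomial.X ^ 2 - Polynomial.C z := ⟨_, rfl⟩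
  have hπmonic : π.Monic := by
    rw [hπ]
    exact Polynomial.monic_X_pow_sub_C z (by norm_num)
  have hπdeg : π.natDegree = 2 := by
    rw [hπ]
    exact Polynomial.natDegree_X_pow_sub_C
  have hπirr : Irreducible π := by
    apply Polynomial.irreducible_of_degree_le_three_of_not_isRoot
    · rw [hπdeg]
      decide
    · intro y hy
      apply hz
      rw [Polynomial.IsRoot.def, hπ] at hy
      simp only [Polynomial.eval_sub, Polynomial.eval_pow, Polynomial.eval_X,
        Polynomial.eval_C] at hy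
      exact ⟨y, by rw [← sub_eq_zero.1 hy]; ring⟩
  obtain ⟨S, hS⟩ : ∃ S : Matrix ι ι (Polynomial F),
      S = Matrix.scalar ι (Polynomial.X : Polynomial F) := ⟨_, rfl⟩
  obtain ⟨B, hB⟩ : ∃ B : Matrix ι ι (Polynomial F),
      B = (Polynomial.C : F →+* Polynomial F).mapMatrix A := ⟨_, rfl⟩
  have hcomm : Commute S B := by
    rw [hS]
    exact Matrix.scalar_commute _ (fun _ => Commute.all _ _) _
  have hBB : B * B = Matrix.scalar ι (Polynomial.C z) := by
    rw [hB, ← map_mul, hA]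
    ext i j
    rw [RingHom.mapMatrix_apply, Matrix.map_apply, Matrix.smul_apply, Matrix.scalar_apply,
      Matrix.diagonal_apply, Matrix.one_apply]
    split_ifs <;> simp
  have hSS : S * S = Matrix.scalar ι (Polynomial.X ^ 2) := by
    rw [hS, ← map_mul, sq]
  have hprod : A.charmatrix * (S + B) = Matrix.scalar ι π := by
    have h0 : A.charmatrix = S - B := by
      rw [hS, hB]
      rfl
    rw [h0, ← hcomm.mul_self_sub_mul_self_eq', hSS, hBB, ← map_sub, hπ]
  have hdvd : A.charpoly ∣ π ^ Fintype.card ι := by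
    have h1 := congrArg Matrix.det hprod
    rw [Matrix.det_mul] at h1
    have h2 : (Matrix.scalar ι π).det = π ^ Fintype.card ι := by
      rw [Matrix.scalar_apply, Matrix.det_diagonal, Finset.prod_const, Finset.card_univ]
    rw [h2] at h1
    exact ⟨_, h1.symm⟩
  obtain ⟨i, -, hi⟩ := (dvd_prime_pow hπirr.prime (Fintype.card ι)).1 hdvd
  have hchar : A.charpoly = π ^ i :=
    Polynomial.eq_of_monic_of_associated (Matrix.charpoly_monic A) (hπmonic.pow i) hi
  have hni : Fintype.card ι = 2 * i := by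
    have h1 := Matrix.charpoly_natDegree_eq_dim A
    rw [hchar, hπmonic.natDegree_pow, hπdeg] at h1
    omega
  exact ⟨i, hni, by rw [hchar, hπ]⟩

/-- the square case: both eigenspaces have even dimension, so the element is conjugate into the
similarity group -/
theorem conj_sq {n : ℕ} (hn : 2 ≤ n) (he : Even n) (f : (Fin n → F) → (Fin n → F) → F)
    (hf : Cfsg.Geo.IsSymplecticForm f) (h2 : (2 : F) ≠ 0)
    (x : Matrix.SpecialLinearGroup (Fin n) F) (c : F) (hc0 : c ≠ 0)
    (hx : (x : Matrix (Fin n) (Fin n) F) * (x : Matrix (Fin n) (Fin n) F)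
      = (c * c) • (1 : Matrix (Fin n) (Fin n) F))
    (hnr : ∀ c' : F, c' ^ n ≠ -1) :
    ∃ P : Matrix.SpecialLinearGroup (Fin n) F,
      P⁻¹ * x * P ∈ ((Cfsg.Geo.similarityGroup f).comap
        (Matrix.SpecialLinearGroup.toGL : Matrix.SpecialLinearGroup (Fin n) F →* GL (Fin n) F)) := by
  classical
  obtain ⟨A, hA⟩ : ∃ A : Matrix (Fin n) (Fin n) F, A = (x : Matrix (Fin n) (Fin n) F) := ⟨_, rfl⟩
  rw [← hA] at hx
  obtain ⟨X, hX⟩ : ∃ X : Module.End F (Fin n → F), X = Matrix.toLin' A := ⟨_, rfl⟩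
  have hXX : ∀ v, X (X v) = (c * c) • v := by
    intro v
    rw [hX, Matrix.toLin'_apply, Matrix.toLin'_apply, Matrix.mulVec_mulVec, hx,
      Matrix.smul_mulVec, Matrix.one_mulVec]
  obtain ⟨Y, hY⟩ : ∃ Y : Module.End F (Fin n → F), Y = c⁻¹ • X := ⟨_, rfl⟩
  have hXY : ∀ v, X v = c • Y v := by
    intro v
    rw [hY, LinearMap.smul_apply, smul_smul, mul_inv_cancel₀ hc0, one_smul]
  have hYY : ∀ v, Y (Y v) = v := by
    intro v
    rw [hY, LinearMap.smul_apply, LinearMap.smul_apply, map_smul, hXX, smul_smul, smul_smul]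
    have : c⁻¹ * c⁻¹ * (c * c) = 1 := by field_simp
    rw [this, one_smul]
  obtain ⟨pp, hpp⟩ : ∃ p : Submodule F (Fin n → F), p = LinearMap.ker (Y - 1) := ⟨_, rfl⟩
  obtain ⟨pm, hpm⟩ : ∃ p : Submodule F (Fin n → F), p = LinearMap.ker (Y + 1) := ⟨_, rfl⟩
  have hmemp : ∀ v, v ∈ pp ↔ Y v = v := by
    intro v
    rw [hpp, LinearMap.mem_ker, LinearMap.sub_apply, Module.End.one_apply, sub_eq_zero]
  have hmemm : ∀ v, v ∈ pm ↔ Y v = -v := by
    intro v
    rw [hpm, LinearMap.mem_ker, LinearMap.add_apply, Module.End.one_apply,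
      add_eq_zero_iff_eq_neg]
  have hcompl : IsCompl pp pm := by
    constructor
    · rw [Submodule.disjoint_def]
      intro v hv1 hv2
      rw [hmemp] at hv1
      rw [hmemm, hv1] at hv2
      have h3 : (2 : F) • v = 0 := by
        rw [two_smul]
        calc v + v = -v + v := by rw [← hv2]
          _ = 0 := neg_add_cancel v
      exact (smul_eq_zero.1 h3).resolve_left h2
    · rw [codisjoint_iff, eq_top_iff]
      intro v _
      rw [Submodule.mem_sup]
      refine ⟨(2 : F)⁻¹ • (v + Y v), ?_, (2 : F)⁻¹ • (v - Y v), ?_, ?_⟩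
      · rw [hmemp, map_smul, map_add, hYY, add_comm]
      · rw [hmemm, map_smul, map_sub, hYY, ← smul_neg, neg_sub]
      · rw [← smul_add]
        have : v + Y v + (v - Y v) = (2 : F) • v := by
          rw [two_smul]
          abel
        rw [this, smul_smul, inv_mul_cancel₀ h2, one_smul]
  obtain ⟨B', hB'⟩ : ∃ B' : Module.Basis
      (Fin (Module.finrank F ↥pp) ⊕ Fin (Module.finrank F ↥pm)) F (Fin n → F),
      B' = ((Module.finBasis F ↥pp).prod (Module.finBasis F ↥pm)).map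
        (Submodule.prodEquivOfIsCompl pp pm hcompl) := ⟨_, rfl⟩
  obtain ⟨s', hs'⟩ : ∃ s' : Fin (Module.finrank F ↥pp) ⊕ Fin (Module.finrank F ↥pm) → F,
      s' = Sum.elim (fun _ => 1) (fun _ => -1) := ⟨_, rfl⟩
  have hYB' : ∀ i, Y (B' i) = s' i • B' i := by
    intro i
    have h1 : B' i = ((((Module.finBasis F ↥pp).prod (Module.finBasis F ↥pm)) i).1 : Fin n → F)
        + ((((Module.finBasis F ↥pp).prod (Module.finBasis F ↥pm)) i).2 : Fin n → F) := by
      rw [hB', Module.Basis.map_apply, Submodule.coe_prodEquivOfIsCompl']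
    rw [h1, hs']
    rcases i with j | j
    · rw [Module.Basis.prod_apply_inl_fst, Module.Basis.prod_apply_inl_snd, Submodule.coe_zero,
        add_zero, Sum.elim_inl, one_smul]
      exact (hmemp _).1 (Subtype.coe_prop _)
    · rw [Module.Basis.prod_apply_inr_fst, Module.Basis.prod_apply_inr_snd, Submodule.coe_zero,
        zero_add, Sum.elim_inr, neg_smul, one_smul]
      exact (hmemm _).1 (Subtype.coe_prop _)
  have hcard : Fintype.card (Fin (Module.finrank F ↥pp) ⊕ Fin (Module.finrank F ↥pm)) = n := by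
    rw [← Module.finrank_eq_card_basis B', Module.finrank_fin_fun]
  have hdetY : LinearMap.det Y = (-1) ^ (Module.finrank F ↥pm) := by
    rw [← LinearMap.det_toMatrix B' Y]
    have h1 : LinearMap.toMatrix B' B' Y = Matrix.diagonal s' := by
      ext i j
      rw [LinearMap.toMatrix_apply, hYB', map_smul, Finsupp.smul_apply,
        Module.Basis.repr_self_apply, Matrix.diagonal_apply]
      by_cases h : i = j
      · subst h
        simp
      · simp [h, Ne.symm h]
    rw [h1, Matrix.det_diagonal, Fintype.prod_sum_type, hs']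
    simp
  have hdetX : LinearMap.det X = 1 := by
    rw [hX, LinearMap.det_toLin', hA, Matrix.SpecialLinearGroup.det_coe]
  have hXeq : X = c • Y := by
    rw [hY, smul_smul, mul_inv_cancel₀ hc0, one_smul]
  have hrel : c ^ n * (-1) ^ (Module.finrank F ↥pm) = 1 := by
    rw [← hdetY, ← hdetX, hXeq, LinearMap.det_smul, Module.finrank_fin_fun]
  have hbe : Even (Module.finrank F ↥pm) := by
    by_contra hodd
    rw [Nat.not_even_iff_odd] at hodd
    rw [Odd.neg_one_pow hodd] at hrel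
    exact hnr c (by linear_combination -hrel)
  have hab : Module.finrank F ↥pp + Module.finrank F ↥pm = n := by
    have h := hcard
    rw [Fintype.card_sum, Fintype.card_fin, Fintype.card_fin] at h
    exact h
  have hae : Even (Module.finrank F ↥pp) := by
    have h1 := he
    rw [← hab] at h1
    exact (Nat.even_add.1 h1).2 hbe
  obtain ⟨a', ha'⟩ := hae
  obtain ⟨b', hb'⟩ := hbe
  obtain ⟨ea⟩ : Nonempty (Fin (Module.finrank F ↥pp) ≃ Fin 2 × Fin a') :=
    ⟨(finCongr (by omega : Module.finrank F ↥pp = 2 * a')).trans finProdFinEquiv.symm⟩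
  obtain ⟨eb⟩ : Nonempty (Fin (Module.finrank F ↥pm) ≃ Fin 2 × Fin b') :=
    ⟨(finCongr (by omega : Module.finrank F ↥pm = 2 * b')).trans finProdFinEquiv.symm⟩
  obtain ⟨e, he'⟩ : ∃ e : Fin (Module.finrank F ↥pp) ⊕ Fin (Module.finrank F ↥pm)
      ≃ Fin 2 × (Fin a' ⊕ Fin b'),
      e = (Equiv.sumCongr ea eb).trans (Equiv.prodSumDistrib _ _ _).symm := ⟨_, rfl⟩
  obtain ⟨bb, hbb⟩ : ∃ bb : Module.Basis (Fin 2 × (Fin a' ⊕ Fin b')) F (Fin n → F),
      bb = B'.reindex e := ⟨_, rfl⟩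
  obtain ⟨s, hs⟩ : ∃ s : Fin a' ⊕ Fin b' → F, s = Sum.elim (fun _ => 1) (fun _ => -1) :=
    ⟨_, rfl⟩
  have hss : ∀ p, s' (e.symm p) = s p.2 := by
    rintro ⟨i, j | j⟩
    · rw [he', hs', hs]
      simp
    · rw [he', hs', hs]
      simp
  have hYb : ∀ p, Y (bb p) = s p.2 • bb p := by
    intro p
    rw [hbb, Module.Basis.reindex_apply, hYB', hss]
  obtain ⟨E, hE⟩ : ∃ E : (Fin 2 × (Fin a' ⊕ Fin b') → F) ≃ₗ[F] (Fin n → F),
      E = bb.equivFun.symm := ⟨_, rfl⟩
  have hEapp : ∀ u, E u = ∑ p, u p • bb p := by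
    intro u
    rw [hE, Module.Basis.equivFun_symm_apply]
  obtain ⟨C, hC⟩ : ∃ C : Fin a' ⊕ Fin b' → Matrix (Fin 2) (Fin 2) F,
      C = fun j => (c * s j) • (1 : Matrix (Fin 2) (Fin 2) F) := ⟨_, rfl⟩
  have hbd : ∀ w p, (Matrix.blockDiagonal C *ᵥ w) p = c * s p.2 * w p := by
    intro w p
    obtain ⟨i, j⟩ := p
    rw [bd_mulVec, hC]
    have hi : i = 0 ∨ i = 1 := by fin_cases i <;> simp
    rcases hi with rfl | rfl
    · simp [Matrix.smul_apply]
    · simp [Matrix.smul_apply]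
  have hXb : ∀ p, X (bb p) = (c * s p.2) • bb p := by
    intro p
    rw [hXY, hYb, smul_smul]
  have hXE : ∀ w, (x : Matrix (Fin n) (Fin n) F) *ᵥ (E w)
      = E (Matrix.blockDiagonal C *ᵥ w) := by
    intro w
    have h1 : (x : Matrix (Fin n) (Fin n) F) *ᵥ E w = X (E w) := by
      rw [hX, Matrix.toLin'_apply, hA]
    rw [h1, hEapp, hEapp, map_sum]
    apply Finset.sum_congr rfl
    intro p _
    rw [map_smul, hXb, smul_smul, hbd]
    congr 1
    ring
  have hsq : ∀ j, s j * s j = 1 := by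
    intro j
    rw [hs]
    rcases j with j | j <;> simp
  have hdet : ∀ j, (C j).det = c * c := by
    intro j
    rw [hC, Matrix.det_smul, Matrix.det_one, Fintype.card_fin, mul_one]
    have h1 := hsq j
    linear_combination (c * c) * h1
  have hne : Nonempty (Fin a' ⊕ Fin b') := by
    rcases Nat.eq_zero_or_pos a' with h | h
    · have h1 : 0 < b' := by omega
      exact ⟨Sum.inr ⟨0, h1⟩⟩
    · exact ⟨Sum.inl ⟨0, h⟩⟩
  obtain ⟨j₀⟩ := hne
  apply frame f hf x E C hXE (c * c) (mul_ne_zero hc0 hc0) hdet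
  intro δ hδ
  obtain ⟨t, ht1, ht2⟩ := exists_t C j₀ !![δ, 0; 0, 1] (by
    rw [hC]
    simp only [Matrix.smul_mul, Matrix.mul_smul, Matrix.one_mul, Matrix.mul_one])
  refine ⟨t, ht1, ?_⟩
  rw [ht2, Matrix.det_fin_two_of]
  ring

/-- the nonsquare case: the element is a sum of companion blocks, always conjugate into the
similarity group -/
theorem conj_nonsq {n : ℕ} (hn : 2 ≤ n) (f : (Fin n → F) → (Fin n → F) → F)
    (hf : Cfsg.Geo.IsSymplecticForm f) (hodd : Fintype.card F % 2 = 1)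
    (x : Matrix.SpecialLinearGroup (Fin n) F) (z : F) (hz : ¬ IsSquare z)
    (hx : (x : Matrix (Fin n) (Fin n) F) * (x : Matrix (Fin n) (Fin n) F)
      = z • (1 : Matrix (Fin n) (Fin n) F)) :
    ∃ P : Matrix.SpecialLinearGroup (Fin n) F,
      P⁻¹ * x * P ∈ ((Cfsg.Geo.similarityGroup f).comap
        (Matrix.SpecialLinearGroup.toGL : Matrix.SpecialLinearGroup (Fin n) F →* GL (Fin n) F)) := by
  classical
  have hz0 : z ≠ 0 := by
    rintro rfl
    exact hz ⟨0, by rw [mul_zero]⟩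
  obtain ⟨i, hni, hchar⟩ := charpoly_of_sq (x : Matrix (Fin n) (Fin n) F) z hz hx
  rw [Fintype.card_fin] at hni
  obtain ⟨C, hC⟩ : ∃ C : Fin i → Matrix (Fin 2) (Fin 2) F, C = fun _ => !![0, z; 1, 0] :=
    ⟨_, rfl⟩
  have hCC : Matrix.blockDiagonal C * Matrix.blockDiagonal C
      = z • (1 : Matrix (Fin 2 × Fin i) (Fin 2 × Fin i) F) := by
    rw [← Matrix.blockDiagonal_mul]
    have h1 : (fun k => C k * C k) = z • (1 : Fin i → Matrix (Fin 2) (Fin 2) F) := by
      funext k
      rw [hC]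
      ext a b
      fin_cases a <;> fin_cases b <;>
        simp [Matrix.mul_apply, Fin.sum_univ_two, Matrix.one_apply]
    rw [h1, Matrix.blockDiagonal_smul, Matrix.blockDiagonal_one]
  obtain ⟨i', hi', hchar'⟩ := charpoly_of_sq (Matrix.blockDiagonal C) z hz hCC
  rw [Fintype.card_prod, Fintype.card_fin, Fintype.card_fin] at hi'
  have hii : i' = i := by omega
  rw [hii] at hchar'
  have hπirr := pi_irr z hz
  obtain ⟨X, hX⟩ : ∃ X : Module.End F (Fin n → F),
      X = Matrix.toLin' (x : Matrix (Fin n) (Fin n) F) := ⟨_, rfl⟩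
  obtain ⟨Mb, hMb⟩ : ∃ Mb : Module.End F (Fin 2 × Fin i → F),
      Mb = Matrix.toLin' (Matrix.blockDiagonal C) := ⟨_, rfl⟩
  have hXss : X.IsSemisimple := by
    apply Module.End.isSemisimple_of_squarefree_aeval_eq_zero hπirr.squarefree
    rw [map_sub, map_pow, Polynomial.aeval_X, Polynomial.aeval_C, hX, ← Matrix.toLin'_pow, sq,
      hx, map_smul, Matrix.toLin'_one, Algebra.algebraMap_eq_smul_one]
    exact sub_self _
  have hMss : Mb.IsSemisimple := by
    apply Module.End.isSemisimple_of_squarefree_aeval_eq_zero hπirr.squarefree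
    rw [map_sub, map_pow, Polynomial.aeval_X, Polynomial.aeval_C, hMb, ← Matrix.toLin'_pow, sq,
      hCC, map_smul, Matrix.toLin'_one, Algebra.algebraMap_eq_smul_one]
    exact sub_self _
  have hcp : X.charpoly = Mb.charpoly := by
    rw [hX, hMb, charpoly_toLin', charpoly_toLin', hchar, hchar']
  obtain ⟨φ, hφ⟩ := Cfsg.Agent.Lib.Helper15.Semi.ss_conj n (Fin n → F) (Fin 2 × Fin i → F) X Mb
    (by rw [Module.finrank_fin_fun]) hXss hMss hcp
  have hXE : ∀ w, (x : Matrix (Fin n) (Fin n) F) *ᵥ (φ.symm w)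
      = φ.symm (Matrix.blockDiagonal C *ᵥ w) := by
    intro w
    have h1 := hφ (φ.symm w)
    rw [φ.apply_symm_apply] at h1
    have h3 : (x : Matrix (Fin n) (Fin n) F) *ᵥ (φ.symm w) = X (φ.symm w) := by
      rw [hX, Matrix.toLin'_apply]
    have h4 : Matrix.blockDiagonal C *ᵥ w = Mb w := by
      rw [hMb, Matrix.toLin'_apply]
    rw [h3, h4]
    apply φ.injective
    rw [h1, φ.apply_symm_apply]
  have hdet : ∀ j, (C j).det = -z := by
    intro j
    rw [hC, Matrix.det_fin_two_of]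
    ring
  have hnorm : ∀ δ : F, ∃ α β : F, α * α - z * (β * β) = δ := by
    intro δ
    have hf2 : (Polynomial.C (1 : F) * Polynomial.X ^ 2 + Polynomial.C 0 * Polynomial.X
        + Polynomial.C 0).degree = 2 := Polynomial.degree_quadratic one_ne_zero
    have hg2 : (Polynomial.C (-z) * Polynomial.X ^ 2 + Polynomial.C 0 * Polynomial.X
        + Polynomial.C (-δ)).degree = 2 := Polynomial.degree_quadratic (neg_ne_zero.2 hz0)
    obtain ⟨α, β, hαβ⟩ := FiniteField.exists_root_sum_quadratic hf2 hg2 hodd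
    refine ⟨α, β, ?_⟩
    simp only [Polynomial.eval_add, Polynomial.eval_mul, Polynomial.eval_C, Polynomial.eval_pow,
      Polynomial.eval_X] at hαβ
    linear_combination hαβ
  have hi0 : 0 < i := by omega
  apply frame f hf x φ.symm C hXE (-z) (neg_ne_zero.2 hz0) hdet
  intro δ hδ
  obtain ⟨α, β, hαβ⟩ := hnorm δ
  obtain ⟨t, ht1, ht2⟩ := exists_t C ⟨0, hi0⟩ !![α, z * β; β, α] (by
    rw [hC]
    ext a b
    fin_cases a <;> fin_cases b <;> simp [Matrix.mul_apply, Fin.sum_univ_two] <;> ring)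
  refine ⟨t, ht1, ?_⟩
  rw [ht2, Matrix.det_fin_two_of]
  linear_combination hαβ

/-- characteristic two: pair up the Jordan blocks -/
theorem conj_even [CharP F 2] {n : ℕ} (hn : 2 ≤ n) (he : Even n)
    (f : (Fin n → F) → (Fin n → F) → F) (hf : Cfsg.Geo.IsSymplecticForm f)
    (x : Matrix.SpecialLinearGroup (Fin n) F)
    (hx3 : ∃ z : F, ((x ^ 2 : Matrix.SpecialLinearGroup (Fin n) F) : Matrix (Fin n) (Fin n) F)
      = z • (1 : Matrix (Fin n) (Fin n) F)) :
    ∃ P : Matrix.SpecialLinearGroup (Fin n) F,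
      P⁻¹ * x * P ∈ ((Cfsg.Geo.similarityGroup f).comap
        (Matrix.SpecialLinearGroup.toGL : Matrix.SpecialLinearGroup (Fin n) F →* GL (Fin n) F)) := by
  classical
  obtain ⟨z, hz⟩ := hx3
  obtain ⟨c, hc⟩ := Cfsg.Agent.S5964.exists_sqrt z
  obtain ⟨A, hA⟩ : ∃ A : Matrix (Fin n) (Fin n) F, A = (x : Matrix (Fin n) (Fin n) F) := ⟨_, rfl⟩
  have hA3 : A ^ 2 = z • (1 : Matrix (Fin n) (Fin n) F) := by
    rw [hA, ← Matrix.SpecialLinearGroup.coe_pow, hz]
  have hc0 : c ≠ 0 := by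
    rintro rfl
    have h1 : z = 0 := by rw [← hc]; ring
    rw [h1, zero_smul] at hA3
    have h2 : (A ^ 2).det = 1 := by
      rw [Matrix.det_pow, hA, Matrix.SpecialLinearGroup.det_coe, one_pow]
    rw [hA3] at h2
    haveI : Nonempty (Fin n) := ⟨⟨0, by omega⟩⟩
    rw [Matrix.det_zero] at h2
    exact zero_ne_one h2
  obtain ⟨X, hX⟩ : ∃ X : Module.End F (Fin n → F), X = Matrix.toLin' A := ⟨_, rfl⟩
  have hX3 : X ^ 2 = z • (1 : Module.End F (Fin n → F)) := by
    rw [hX, ← Matrix.toLin'_pow, hA3, map_smul, Matrix.toLin'_one]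
    rfl
  obtain ⟨N, hN⟩ : ∃ N : Module.End F (Fin n → F), N = c⁻¹ • X - 1 := ⟨_, rfl⟩
  have hN3 : N ^ 2 = 0 := by
    have h0 : (Polynomial.X - 1 : Polynomial F) ^ 2 = Polynomial.X ^ 2 - 1 := by
      rw [sub_pow_char, one_pow]
    have h := congrArg (Polynomial.aeval (c⁻¹ • X)) h0
    simp only [map_pow, map_sub, Polynomial.aeval_X, map_one] at h
    rw [hN, h, smul_pow, hX3, smul_smul, ← hc]
    have h1 : c⁻¹ ^ 2 * c ^ 2 = 1 := by
      rw [← mul_pow, inv_mul_cancel₀ hc0, one_pow]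
    rw [h1, one_smul, sub_self]
  obtain ⟨J, hJ, ℓ, hpos, E, hE⟩ := jordan_model (F := F) n (Fin n → F) N
    (by rw [Module.finrank_fintype_fun_eq_card, Fintype.card_fin]) ⟨2, hN3⟩
  haveI := hJ
  have hXE : ∀ m, X (E m) = c • E (m + shiftT ℓ m) := by
    intro m
    have h1 := hE m
    rw [hN, LinearMap.sub_apply, LinearMap.smul_apply, Module.End.one_apply] at h1
    rw [map_add, ← h1, add_sub_cancel, smul_smul, mul_inv_cancel₀ hc0, one_smul]
  have hshift3 : ∀ v : (Σ b, Fin (ℓ b)) → F, (shiftT ℓ ^ 2) v = 0 := by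
    intro v
    have h1 := model_pow ℓ E N hE 2 v
    rw [hN3, LinearMap.zero_apply] at h1
    exact E.injective (by rw [← h1, map_zero])
  have hℓ3 : ∀ b, ℓ b ≤ 2 := by
    intro b
    by_contra hcon
    have hb : 2 < ℓ b := by omega
    have h1 := congrFun (hshift3 (fun y => if y = ⟨b, ⟨2, hb⟩⟩ then 1 else 0))
      ⟨b, ⟨0, by omega⟩⟩
    rw [shiftT_pow] at h1
    have h2 : (0 : ℕ) + 2 < ℓ b := by omega
    rw [dif_pos h2, if_pos rfl] at h1
    exact one_ne_zero h1
  have hcard : Fintype.card (Σ b, Fin (ℓ b)) = n := by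
    have h1 := E.finrank_eq
    rw [Module.finrank_fintype_fun_eq_card, Module.finrank_fintype_fun_eq_card,
      Fintype.card_fin] at h1
    exact h1
  have hsum : n = Fintype.card {b : J // ℓ b = 1} + 2 * Fintype.card {b : J // ℓ b = 2} := by
    rw [← hcard, Fintype.card_sigma, Fintype.card_subtype, Fintype.card_subtype,
      Finset.card_filter, Finset.card_filter, Finset.mul_sum, ← Finset.sum_add_distrib]
    apply Finset.sum_congr rfl
    intro b _
    rw [Fintype.card_fin]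
    have h1 := hℓ3 b
    have h2 := hpos b
    have h3 : ℓ b = 1 ∨ ℓ b = 2 := by omega
    rcases h3 with h | h
    · simp [h]
    · simp [h]
  obtain ⟨k, hk⟩ : ∃ k, Fintype.card {b : J // ℓ b = 1} = 2 * k := by
    obtain ⟨r, hr⟩ := he
    exact ⟨r - Fintype.card {b : J // ℓ b = 2}, by omega⟩
  obtain ⟨τ⟩ : Nonempty ({b : J // ℓ b = 1} ≃ Fin k × Fin 2) :=
    ⟨Fintype.equivOfCardEq (by rw [Fintype.card_prod, Fintype.card_fin, Fintype.card_fin, hk,
      mul_comm])⟩
  obtain ⟨φ, hφl, hφr⟩ : ∃ φ : Fin 2 × ({b : J // ℓ b = 2} ⊕ Fin k) → Σ b : J, Fin (ℓ b),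
      (∀ (i : Fin 2) (b : {b : J // ℓ b = 2}), φ (i, Sum.inl b)
        = ⟨b.1, ⟨i.1, by have h1 := b.2; have h2 := i.2; omega⟩⟩) ∧
      (∀ (i : Fin 2) (j : Fin k), φ (i, Sum.inr j) = ⟨(τ.symm (j, i)).1, ⟨0, hpos _⟩⟩) :=
    ⟨fun p => match p with
      | (i, Sum.inl b) => ⟨b.1, ⟨i.1, by have h1 := b.2; have h2 := i.2; omega⟩⟩
      | (i, Sum.inr j) => ⟨(τ.symm (j, i)).1, ⟨0, hpos _⟩⟩, fun _ _ => rfl, fun _ _ => rfl⟩
  have hinj : Function.Injective φ := by
    rintro ⟨i, b | j⟩ ⟨i', b' | j'⟩ h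
    · rw [hφl, hφl] at h
      have h1 : b.1 = b'.1 := congrArg Sigma.fst h
      have h2 : (i : ℕ) = (i' : ℕ) := congrArg (fun y : Σ b : J, Fin (ℓ b) => (y.2 : ℕ)) h
      rw [Fin.ext h2, Subtype.ext h1]
    · exfalso
      rw [hφl, hφr] at h
      have h1 : b.1 = (τ.symm (j', i')).1 := congrArg Sigma.fst h
      have h3 := b.2
      have h4 := (τ.symm (j', i')).2
      rw [h1] at h3
      omega
    · exfalso
      rw [hφl, hφr] at h
      have h1 : (τ.symm (j, i)).1 = b'.1 := congrArg Sigma.fst h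
      have h3 := b'.2
      have h4 := (τ.symm (j, i)).2
      rw [← h1] at h3
      omega
    · rw [hφr, hφr] at h
      have h1 : (τ.symm (j, i)).1 = (τ.symm (j', i')).1 := congrArg Sigma.fst h
      have h3 := Prod.mk.inj (τ.symm.injective (Subtype.ext h1))
      rw [h3.1, h3.2]
  have hsurj : Function.Surjective φ := by
    rintro ⟨b, t⟩
    have h1 := hℓ3 b
    have h2 := hpos b
    have h3 : ℓ b = 1 ∨ ℓ b = 2 := by omega
    rcases h3 with h | h
    · refine ⟨((τ ⟨b, h⟩).2, Sum.inr (τ ⟨b, h⟩).1), ?_⟩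
      rw [hφr]
      have e : τ.symm ((τ ⟨b, h⟩).1, (τ ⟨b, h⟩).2) = ⟨b, h⟩ := by
        rw [Prod.mk.eta, Equiv.symm_apply_apply]
      apply Sigma.ext
      · exact congrArg Subtype.val e
      · have ht := t.2
        exact (Fin.heq_ext_iff (by rw [e])).2 (by show 0 = (t : ℕ); omega)
    · refine ⟨(⟨t.1, by have := t.2; omega⟩, Sum.inl ⟨b, h⟩), ?_⟩
      rw [hφl]
  obtain ⟨φe, hφe⟩ : ∃ φe : Fin 2 × ({b : J // ℓ b = 2} ⊕ Fin k) ≃ Σ b : J, Fin (ℓ b),
      ∀ p, φe p = φ p := ⟨Equiv.ofBijective φ ⟨hinj, hsurj⟩, fun p => rfl⟩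
  obtain ⟨G, hG⟩ : ∃ G : (Fin 2 × ({b : J // ℓ b = 2} ⊕ Fin k) → F)
      ≃ₗ[F] ((Σ b : J, Fin (ℓ b)) → F), ∀ w y, G w y = w (φe.symm y) :=
    ⟨LinearEquiv.funCongrLeft F F φe.symm, fun w y => rfl⟩
  have hGφ : ∀ w p, G w (φe p) = w p := by
    intro w p
    rw [hG, Equiv.symm_apply_apply]
  have hsh0 : ∀ (m : (Σ b : J, Fin (ℓ b)) → F) (b : {b : J // ℓ b = 2}),
      shiftT ℓ m (φe (0, Sum.inl b)) = m (φe (1, Sum.inl b)) := by
    intro m b
    rw [hφe, hφe, hφl, hφl, shiftT_apply, dif_pos (by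
      show ((0 : Fin 2) : ℕ) + 1 < ℓ b.1
      have h := b.2
      rw [h]
      decide)]
    rfl
  have hsh1 : ∀ (m : (Σ b : J, Fin (ℓ b)) → F) (b : {b : J // ℓ b = 2}),
      shiftT ℓ m (φe (1, Sum.inl b)) = 0 := by
    intro m b
    rw [hφe, hφl, shiftT_apply, dif_neg (by
      show ¬ (((1 : Fin 2) : ℕ) + 1 < ℓ b.1)
      have h := b.2
      rw [h]
      decide)]
  have hshr : ∀ (m : (Σ b : J, Fin (ℓ b)) → F) (i : Fin 2) (j : Fin k),
      shiftT ℓ m (φe (i, Sum.inr j)) = 0 := by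
    intro m i j
    rw [hφe, hφr, shiftT_apply, dif_neg (by
      show ¬ (0 + 1 < ℓ (τ.symm (j, i)).1)
      have h := (τ.symm (j, i)).2
      rw [h]
      decide)]
  obtain ⟨C, hC⟩ : ∃ C : {b : J // ℓ b = 2} ⊕ Fin k → Matrix (Fin 2) (Fin 2) F,
      C = Sum.elim (fun _ => c • !![1, 1; 0, 1]) (fun _ => c • (1 : Matrix (Fin 2) (Fin 2) F)) :=
    ⟨_, rfl⟩
  have hGM : ∀ w, G (Matrix.blockDiagonal C *ᵥ w) = c • (G w + shiftT ℓ (G w)) := by
    intro w
    funext y
    obtain ⟨p, rfl⟩ := φe.surjective y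
    rw [hGφ, Pi.smul_apply, Pi.add_apply, hGφ]
    obtain ⟨i, b | j⟩ := p
    · have hi : i = 0 ∨ i = 1 := by fin_cases i <;> simp
      rcases hi with rfl | rfl
      · rw [hsh0, hGφ, bd_mulVec, hC]
        simp [Matrix.smul_apply] <;> ring
      · rw [hsh1, bd_mulVec, hC]
        simp [Matrix.smul_apply]
    · rw [hshr, bd_mulVec, hC]
      have hi : i = 0 ∨ i = 1 := by fin_cases i <;> simp
      rcases hi with rfl | rfl
      · simp [Matrix.smul_apply]
      · simp [Matrix.smul_apply]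
  obtain ⟨E', hE'⟩ : ∃ E' : (Fin 2 × ({b : J // ℓ b = 2} ⊕ Fin k) → F) ≃ₗ[F] (Fin n → F),
      ∀ w, E' w = E (G w) := ⟨G.trans E, fun w => rfl⟩
  have hXE' : ∀ w, (x : Matrix (Fin n) (Fin n) F) *ᵥ (E' w)
      = E' (Matrix.blockDiagonal C *ᵥ w) := by
    intro w
    have h1 : (x : Matrix (Fin n) (Fin n) F) *ᵥ E' w = X (E' w) := by
      rw [hX, Matrix.toLin'_apply, hA]
    rw [h1, hE', hE', hXE, hGM, map_smul]
  have hdet : ∀ j, (C j).det = c * c := by
    intro j
    rw [hC]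
    rcases j with b | j
    · simp only [Sum.elim_inl]
      rw [Matrix.det_smul, Matrix.det_fin_two_of, Fintype.card_fin]
      ring
    · simp only [Sum.elim_inr]
      rw [Matrix.det_smul, Matrix.det_one, Fintype.card_fin]
      ring
  have hne : Nonempty ({b : J // ℓ b = 2} ⊕ Fin k) := by
    by_contra hcon
    rw [not_nonempty_iff] at hcon
    have h0 : Fintype.card ({b : J // ℓ b = 2} ⊕ Fin k) = 0 := Fintype.card_eq_zero_iff.2 hcon
    have h1 := E'.finrank_eq
    rw [Module.finrank_fintype_fun_eq_card, Module.finrank_fintype_fun_eq_card, Fintype.card_fin,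
      Fintype.card_prod, h0, mul_zero] at h1
    omega
  obtain ⟨j₀⟩ := hne
  apply frame f hf x E' C hXE' (c * c) (mul_ne_zero hc0 hc0) hdet
  intro δ hδ
  obtain ⟨ε, hε⟩ := Cfsg.Agent.S5964.exists_sqrt δ
  obtain ⟨t, ht1, ht2⟩ := exists_t C j₀ (ε • (1 : Matrix (Fin 2) (Fin 2) F)) (by
    rw [Matrix.mul_smul, Matrix.smul_mul, Matrix.mul_one, Matrix.one_mul])
  refine ⟨t, ht1, ?_⟩
  rw [ht2, Matrix.det_smul, Matrix.det_one, Fintype.card_fin, mul_one, hε]

end cases

/-- Involutions of PSL_n(q) and the symplectic-type subgroups. Here `T = PSL_n(F)` for a field `F` with `q` elements, `n ≥ 4` even, `f` is a nondegenerate alternating form on `F^n`, and `H` is the subgroup of matrices of determinant 1 preserving `f` up to a scalar — a maximal subgroup of type Sp_n(q); Ω is the set of `T`-conjugates of `H` (cosets of `H`), so an element of `T` of prime order `r` (a matrix `x` of determinant 1 with `x^r` scalar, `x` not scalar) fixes a point of Ω when some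 conjugate of `x` by a matrix of determinant 1 preserves `f` up to a scalar. Suppose the index of `H` is even. Then every involution of `T` is conjugate in `T` into `H` if and only if `(q − 1)_2 ≤ (n)_2`. -/
theorem result {F : Type*} [Field F] [Fintype F] {p : ℕ} [Fact p.Prime] [CharP F p] {q : ℕ} (hq : Fintype.card F = q)
    (n : ℕ) (hn : 4 ≤ n) (he : Even n) (f : (Fin n → F) → (Fin n → F) → F) (hf : Cfsg.Geo.IsSymplecticForm f)
    (hΩ : 2 ∣ ((Cfsg.Geo.similarityGroup f).comap (Matrix.SpecialLinearGroup.toGL : Matrix.SpecialLinearGroup (Fin n) F →* GL (Fin n) F)).index) :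
    (∀ x : Matrix.SpecialLinearGroup (Fin n) F,
      (∃ z : F, ((x ^ 2 : Matrix.SpecialLinearGroup (Fin n) F) : Matrix (Fin n) (Fin n) F) = z • (1 : Matrix (Fin n) (Fin n) F)) →
      (∀ z : F, (x : Matrix (Fin n) (Fin n) F) ≠ z • (1 : Matrix (Fin n) (Fin n) F)) →
      ∃ P : Matrix.SpecialLinearGroup (Fin n) F, P⁻¹ * x * P ∈ ((Cfsg.Geo.similarityGroup f).comap (Matrix.SpecialLinearGroup.toGL : Matrix.SpecialLinearGroup (Fin n) F →* GL (Fin n) F))) ↔
    padicValNat 2 (q - 1) ≤ padicValNat 2 n := by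
  classical
  have hn2 : 2 ≤ n := by omega
  have hn0 : n ≠ 0 := by omega
  rcases Nat.even_or_odd q with hqe | hqo
  · have hp2 : p = 2 := by
      obtain ⟨f', hp, hf'⟩ := FiniteField.card F p
      rw [hq] at hf'
      rw [hf', Nat.even_pow] at hqe
      exact (Nat.Prime.even_iff hp).1 hqe.1
    subst hp2
    have hq2 : 1 < q := by
      rw [← hq]
      exact Fintype.one_lt_card
    have hv : padicValNat 2 (q - 1) = 0 := by
      apply padicValNat.eq_zero_of_not_dvd
      obtain ⟨r, hr⟩ := hqe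
      omega
    constructor
    · intro _
      rw [hv]
      exact Nat.zero_le _
    · intro _ x hx2 _
      exact conj_even hn2 he f hf x hx2
  · have hqodd : q % 2 = 1 := Nat.odd_iff.1 hqo
    have hchar := Cfsg.Agent.S5964.char_ne_two q hq hqodd
    have h2 : (2 : F) ≠ 0 := Ring.two_ne_zero hchar
    constructor
    · intro hall
      by_contra hval
      push Not at hval
      obtain ⟨c, hc⟩ := exists_root (F := F) q hq hqodd hn0 hval
      have hc0 : c ≠ 0 := by
        rintro rfl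
        rw [zero_pow hn0] at hc
        exact one_ne_zero (by linear_combination hc)
      obtain ⟨i₀, hi₀⟩ : ∃ i₀ : Fin n, (i₀ : ℕ) = 0 := ⟨⟨0, by omega⟩, rfl⟩
      obtain ⟨x, hx⟩ := bad_diag he i₀ c hc
      have hx2 : ∃ z : F, ((x ^ 2 : Matrix.SpecialLinearGroup (Fin n) F) :
          Matrix (Fin n) (Fin n) F) = z • (1 : Matrix (Fin n) (Fin n) F) := by
        refine ⟨c * c, ?_⟩
        rw [sq, Matrix.SpecialLinearGroup.coe_mul, hx, Matrix.smul_mul, Matrix.mul_smul, smul_smul,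
          Matrix.diagonal_mul_diagonal]
        congr 1
        rw [← Matrix.diagonal_one]
        congr 1
        funext i
        by_cases h : i = i₀ <;> simp [h]
      have hns : ∀ z : F, (x : Matrix (Fin n) (Fin n) F)
          ≠ z • (1 : Matrix (Fin n) (Fin n) F) := by
        intro z hz
        rw [hx] at hz
        obtain ⟨i₁, hi₁⟩ : ∃ i₁ : Fin n, (i₁ : ℕ) = 1 := ⟨⟨1, by omega⟩, rfl⟩
        have h10 : i₁ ≠ i₀ := by
          intro h
          rw [h] at hi₁
          omega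
        have h1 := congrFun (congrFun hz i₀) i₀
        have h3 := congrFun (congrFun hz i₁) i₁
        rw [Matrix.smul_apply, Matrix.smul_apply, Matrix.diagonal_apply_eq, Matrix.one_apply_eq,
          smul_eq_mul, smul_eq_mul, mul_one, if_pos rfl, mul_one] at h1
        rw [Matrix.smul_apply, Matrix.smul_apply, Matrix.diagonal_apply_eq, Matrix.one_apply_eq,
          smul_eq_mul, smul_eq_mul, mul_one, if_neg h10] at h3
        apply hc0
        have h4 : (2 : F) * c = 0 := by linear_combination h1 - h3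
        exact (mul_eq_zero.1 h4).resolve_left h2
      obtain ⟨P, hP⟩ := hall x hx2 hns
      exact not_conj_diag hn f hf h2 c hc0 i₀ hi₀ x hx P hP
    · intro hval x hx2 _
      obtain ⟨z, hz⟩ := hx2
      have hxx : (x : Matrix (Fin n) (Fin n) F) * (x : Matrix (Fin n) (Fin n) F)
          = z • (1 : Matrix (Fin n) (Fin n) F) := by
        rw [← hz, sq, Matrix.SpecialLinearGroup.coe_mul]
      by_cases hzsq : IsSquare z
      · obtain ⟨c, hc⟩ := hzsq
        rw [hc] at hxx
        have hc0 : c ≠ 0 := by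
          rintro rfl
          have h3 := congrArg Matrix.det hxx
          rw [Matrix.det_mul, Matrix.SpecialLinearGroup.det_coe, mul_zero, zero_smul] at h3
          haveI : Nonempty (Fin n) := ⟨⟨0, by omega⟩⟩
          rw [Matrix.det_zero] at h3
          rw [mul_one] at h3
          exact one_ne_zero h3
        exact conj_sq hn2 he f hf h2 x c hc0 hxx (fun c' => no_root q hq hqodd hn0 hval c')
      · exact conj_nonsq hn2 f hf (by rw [hq]; exact hqodd) x z hzsq hxx

end Cfsg.Agent.S5967
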