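import Mathlib
import Cfsg.Agent.S5967
import Cfsg.Statements.S5969

set_option autoImplicit false
open scoped MatrixGroups
open Cfsg

namespace Cfsg.Agent.S5969

open Cfsg.Agent.S5959
open Cfsg.Agent.S5966 (jordan_model)
open Cfsg.Agent.S5967 (bd_mulVec exists_t charpoly_of_sq pi_irr)

section gen

open Matrix

variable {F : Type*} [Field F]

/-- a generator of a quadratic field subalgebra together with its quadratic relation -/
theorem exists_gen {n : ℕ} (hn : 1 ≤ n) (K : Subalgebra F (Matrix (Fin n) (Fin n) F))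
    (hK : Cfsg.Geo.IsFieldSubalgebra 2 K) :
    ∃ (κ : Matrix (Fin n) (Fin n) F) (t d : F), κ ∈ K ∧
      κ * κ = t • κ - d • (1 : Matrix (Fin n) (Fin n) F) ∧
      (∀ k ∈ K, ∃ a b : F, k = a • (1 : Matrix (Fin n) (Fin n) F) + b • κ) ∧
      (∀ l : F, l * l - t * l + d ≠ 0) ∧ (∀ a : F, κ ≠ a • (1 : Matrix (Fin n) (Fin n) F)) := by
  classical
  haveI : Nonempty (Fin n) := ⟨⟨0, hn⟩⟩
  have hfin := hK.finrank_eq
  obtain ⟨κ, hκK, hκns⟩ : ∃ κ ∈ K, ∀ a : F, κ ≠ a • (1 : Matrix (Fin n) (Fin n) F) := by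
    by_contra hcon
    push Not at hcon
    have h1 : Module.finrank F ↥K ≤ 1 := by
      apply finrank_le_one (1 : ↥K)
      intro w
      obtain ⟨a, ha⟩ := hcon w.1 w.2
      refine ⟨a, ?_⟩
      apply Subtype.ext
      rw [ha]
      rfl
    omega
  have hli : LinearIndependent F ![(1 : ↥K), (⟨κ, hκK⟩ : ↥K)] := by
    rw [LinearIndependent.pair_iff]
    intro s t' hst
    have h1 := congrArg Subtype.val hst
    have h2 : s • (1 : Matrix (Fin n) (Fin n) F) + t' • κ = 0 := h1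
    by_cases ht : t' = 0
    · rw [ht, zero_smul, add_zero] at h2
      refine ⟨?_, ht⟩
      by_contra hs
      have h3 : (1 : Matrix (Fin n) (Fin n) F) = 0 := by
        have h4 := congrArg (fun M => s⁻¹ • M) h2
        simpa [smul_smul, inv_mul_cancel₀ hs] using h4
      exact one_ne_zero h3
    · exfalso
      apply hκns (-(s / t'))
      have h3 : t' • κ = -(s • (1 : Matrix (Fin n) (Fin n) F)) := eq_neg_of_add_eq_zero_right h2
      have h4 := congrArg (fun M => t'⁻¹ • M) h3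
      simp only [smul_smul, inv_mul_cancel₀ ht, one_smul, smul_neg] at h4
      rw [h4, neg_smul, div_eq_inv_mul]
  obtain ⟨b₂, hb₂⟩ : ∃ b₂ : Module.Basis (Fin 2) F ↥K, ⇑b₂ = ![(1 : ↥K), (⟨κ, hκK⟩ : ↥K)] :=
    ⟨basisOfLinearIndependentOfCardEqFinrank hli (by rw [Fintype.card_fin, hfin]),
      coe_basisOfLinearIndependentOfCardEqFinrank _ _⟩
  have hgen : ∀ k ∈ K, ∃ a b : F, k = a • (1 : Matrix (Fin n) (Fin n) F) + b • κ := by
    intro k hk
    have h1 := b₂.sum_repr ⟨k, hk⟩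
    rw [Fin.sum_univ_two, hb₂] at h1
    refine ⟨b₂.repr ⟨k, hk⟩ 0, b₂.repr ⟨k, hk⟩ 1, ?_⟩
    have h2 := congrArg Subtype.val h1
    exact h2.symm
  obtain ⟨a₀, b₀, hab⟩ := hgen (κ * κ) (K.mul_mem hκK hκK)
  have hκ2 : κ * κ = b₀ • κ - (-a₀) • (1 : Matrix (Fin n) (Fin n) F) := by
    rw [hab]
    module
  refine ⟨κ, b₀, -a₀, hκK, hκ2, hgen, ?_, hκns⟩
  intro l hl
  have hd : -a₀ = b₀ * l - l * l := by linear_combination hl
  have hprod : (κ - l • (1 : Matrix (Fin n) (Fin n) F))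
      * (κ - (b₀ - l) • (1 : Matrix (Fin n) (Fin n) F)) = 0 := by
    simp only [sub_mul, mul_sub, Matrix.smul_mul, Matrix.mul_smul, Matrix.one_mul, Matrix.mul_one,
      hκ2, hd]
    module
  have h1 : κ - l • (1 : Matrix (Fin n) (Fin n) F) ≠ 0 := fun h => hκns l (sub_eq_zero.1 h)
  obtain ⟨y, hyK, hy⟩ := hK.inv _ (K.sub_mem hκK (K.smul_mem K.one_mem l)) h1
  have hy' : y * (κ - l • (1 : Matrix (Fin n) (Fin n) F)) = 1 := by
    rw [← hK.comm _ (K.sub_mem hκK (K.smul_mem K.one_mem l)) y hyK]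
    exact hy
  have h2 : κ - (b₀ - l) • (1 : Matrix (Fin n) (Fin n) F) = 0 := by
    have h3 := congrArg (fun M => y * M) hprod
    simp only [← Matrix.mul_assoc, hy', Matrix.one_mul, Matrix.mul_zero] at h3
    exact h3
  exact hκns (b₀ - l) (sub_eq_zero.1 h2)

/-- a criterion for normalising the field subalgebra -/
theorem mem_norm {n : ℕ} (K : Subalgebra F (Matrix (Fin n) (Fin n) F))
    (κ : Matrix (Fin n) (Fin n) F) (t : F) (hκ : κ ∈ K)
    (hgen : ∀ k ∈ K, ∃ a b : F, k = a • (1 : Matrix (Fin n) (Fin n) F) + b • κ)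
    (g : GL (Fin n) F) (κ₁ : Matrix (Fin n) (Fin n) F)
    (hκ₁ : κ₁ = κ ∨ κ₁ = t • (1 : Matrix (Fin n) (Fin n) F) - κ)
    (h : (g : Matrix (Fin n) (Fin n) F) * κ = κ₁ * (g : Matrix (Fin n) (Fin n) F)) :
    g ∈ Cfsg.Geo.subalgebraNormalizer K := by
  have hgi : (g : Matrix (Fin n) (Fin n) F)
      * ((g⁻¹ : GL (Fin n) F) : Matrix (Fin n) (Fin n) F) = 1 := by
    rw [← Units.val_mul, mul_inv_cancel, Units.val_one]
  have hig : ((g⁻¹ : GL (Fin n) F) : Matrix (Fin n) (Fin n) F)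
      * (g : Matrix (Fin n) (Fin n) F) = 1 := by
    rw [← Units.val_mul, inv_mul_cancel, Units.val_one]
  have hκ₁K : κ₁ ∈ K := by
    rcases hκ₁ with h1 | h1
    · rw [h1]
      exact hκ
    · rw [h1]
      exact K.sub_mem (K.smul_mem K.one_mem t) hκ
  have hh : κ * (g : Matrix (Fin n) (Fin n) F) = (g : Matrix (Fin n) (Fin n) F) * κ₁ := by
    rcases hκ₁ with h1 | h1
    · rw [h1] at h ⊢
      exact h.symm
    · rw [h1] at h ⊢
      rw [Matrix.mul_sub, Matrix.mul_smul, Matrix.mul_one, h, Matrix.sub_mul, Matrix.smul_mul,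
        Matrix.one_mul]
      abel
  show ∀ k : Matrix (Fin n) (Fin n) F, k ∈ K ↔ (g : Matrix (Fin n) (Fin n) F) * k
    * ((g⁻¹ : GL (Fin n) F) : Matrix (Fin n) (Fin n) F) ∈ K
  intro k
  constructor
  · intro hk
    obtain ⟨a, b, rfl⟩ := hgen k hk
    have h1 : (g : Matrix (Fin n) (Fin n) F) * (a • (1 : Matrix (Fin n) (Fin n) F) + b • κ)
        * ((g⁻¹ : GL (Fin n) F) : Matrix (Fin n) (Fin n) F) = a • 1 + b • κ₁ := by
      rw [Matrix.mul_add, Matrix.mul_smul, Matrix.mul_smul, Matrix.mul_one, h, Matrix.add_mul,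
        Matrix.smul_mul, Matrix.smul_mul, Matrix.mul_assoc, hgi, Matrix.mul_one]
    rw [h1]
    exact K.add_mem (K.smul_mem K.one_mem a) (K.smul_mem hκ₁K b)
  · intro hk
    obtain ⟨a, b, hab⟩ := hgen _ hk
    have h1 : k = a • 1 + b • κ₁ := by
      have h2 : k = ((g⁻¹ : GL (Fin n) F) : Matrix (Fin n) (Fin n) F)
          * ((g : Matrix (Fin n) (Fin n) F) * k
            * ((g⁻¹ : GL (Fin n) F) : Matrix (Fin n) (Fin n) F))
          * (g : Matrix (Fin n) (Fin n) F) := by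
        rw [← Matrix.mul_assoc, ← Matrix.mul_assoc, hig, Matrix.one_mul, Matrix.mul_assoc, hig,
          Matrix.mul_one]
      rw [h2, hab, Matrix.mul_add, Matrix.mul_smul, Matrix.mul_smul, Matrix.mul_one,
        Matrix.add_mul, Matrix.smul_mul, Matrix.smul_mul, hig, Matrix.mul_assoc, hh,
        ← Matrix.mul_assoc, hig, Matrix.one_mul]
    rw [h1]
    exact K.add_mem (K.smul_mem K.one_mem a) (K.smul_mem hκ₁K b)

theorem quad_irr (t d : F) (hroot : ∀ l : F, l * l - t * l + d ≠ 0) :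
    Irreducible (Polynomial.C (1 : F) * Polynomial.X ^ 2 + Polynomial.C (-t) * Polynomial.X
      + Polynomial.C d) := by
  apply Polynomial.irreducible_of_degree_le_three_of_not_isRoot
  · rw [Polynomial.natDegree_quadratic one_ne_zero]
    decide
  · intro y hy
    apply hroot y
    rw [Polynomial.IsRoot.def] at hy
    simp only [Polynomial.eval_add, Polynomial.eval_mul, Polynomial.eval_C, Polynomial.eval_pow,
      Polynomial.eval_X] at hy
    linear_combination hy

/-- the characteristic polynomial of a matrix satisfying an irreducible quadratic -/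
theorem charpoly_of_quad {ι : Type*} [Fintype ι] [DecidableEq ι] (A : Matrix ι ι F) (t d : F)
    (hroot : ∀ l : F, l * l - t * l + d ≠ 0)
    (hA : A * A = t • A - d • (1 : Matrix ι ι F)) :
    ∃ i, Fintype.card ι = 2 * i ∧ A.charpoly = (Polynomial.C (1 : F) * Polynomial.X ^ 2
      + Polynomial.C (-t) * Polynomial.X + Polynomial.C d) ^ i := by
  classical
  obtain ⟨π, hπ⟩ : ∃ π : Polynomial F, π = Polynomial.C (1 : F) * Polynomial.X ^ 2
      + Polynomial.C (-t) * Polynomial.X + Polynomial.C d := ⟨_, rfl⟩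
  have hπirr : Irreducible π := by
    rw [hπ]
    exact quad_irr t d hroot
  have hπdeg : π.natDegree = 2 := by
    rw [hπ]
    exact Polynomial.natDegree_quadratic one_ne_zero
  have hπmonic : π.Monic := by
    rw [hπ, Polynomial.Monic, Polynomial.leadingCoeff_quadratic one_ne_zero]
  obtain ⟨S, hS⟩ : ∃ S : Matrix ι ι (Polynomial F),
      S = Matrix.scalar ι (Polynomial.X : Polynomial F) := ⟨_, rfl⟩
  obtain ⟨B, hB⟩ : ∃ B : Matrix ι ι (Polynomial F),
      B = (Polynomial.C : F →+* Polynomial F).mapMatrix A := ⟨_, rfl⟩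
  obtain ⟨B', hB'⟩ : ∃ B' : Matrix ι ι (Polynomial F),
      B' = (Polynomial.C : F →+* Polynomial F).mapMatrix (t • (1 : Matrix ι ι F) - A) := ⟨_, rfl⟩
  have hcomm : Commute S B := by
    rw [hS]
    exact Matrix.scalar_commute _ (fun _ => Commute.all _ _) _
  have hscal : ∀ a : F, (Polynomial.C : F →+* Polynomial F).mapMatrix (a • (1 : Matrix ι ι F))
      = Matrix.scalar ι (Polynomial.C a) := by
    intro a
    ext i j
    rw [RingHom.mapMatrix_apply, Matrix.map_apply, Matrix.smul_apply, Matrix.scalar_apply,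
      Matrix.diagonal_apply, Matrix.one_apply]
    split_ifs <;> simp
  have hBB' : B * B' = Matrix.scalar ι (Polynomial.C d) := by
    rw [hB, hB', ← map_mul, Matrix.mul_sub, Matrix.mul_smul, Matrix.mul_one, hA]
    have h1 : t • A - (t • A - d • (1 : Matrix ι ι F)) = d • 1 := by abel
    rw [h1, hscal]
  have hBsum : B + B' = Matrix.scalar ι (Polynomial.C t) := by
    rw [hB, hB', ← map_add]
    have h1 : A + (t • (1 : Matrix ι ι F) - A) = t • 1 := by abel
    rw [h1, hscal]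
  have hprod : A.charmatrix * (S - B') = Matrix.scalar ι π := by
    have h0 : A.charmatrix = S - B := by
      rw [hS, hB]
      rfl
    have h1 : (S - B) * (S - B') = S * S - S * (B + B') + B * B' := by
      rw [sub_mul, mul_sub, mul_sub, mul_add, ← hcomm.eq]
      abel
    rw [h0, h1, hBsum, hBB', hS, ← map_mul, ← map_mul, ← map_sub, ← map_add, hπ]
    congr 1
    rw [Polynomial.C_1, Polynomial.C_neg]
    ring
  have hdvd : A.charpoly ∣ π ^ Fintype.card ι := by
    have h1 := congrArg Matrix.det hprod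
    rw [Matrix.det_mul] at h1
    have h2 : (Matrix.scalar ι π).det = π ^ Fintype.card ι := by
      rw [Matrix.scalar_apply, Matrix.det_diagonal, Finset.prod_const, Finset.card_univ]
    rw [h2] at h1
    exact ⟨_, h1.symm⟩
  obtain ⟨i, -, hi⟩ := (dvd_prime_pow hπirr.prime (Fintype.card ι)).1 hdvd
  have hchar : A.charpoly = π ^ i :=
    Polynomial.eq_of_monic_of_associated (Matrix.charpoly_monic A) (hπmonic.pow i) hi
  have hni : Fintype.card ι = 2 * i := by
    have h1 := Matrix.charpoly_natDegree_eq_dim A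
    rw [hchar, hπmonic.natDegree_pow, hπdeg] at h1
    omega
  exact ⟨i, hni, by rw [hchar, hπ]⟩

/-- a model generator commuting or anticommuting suitably with `x`, plus enough determinants in
the centraliser of `x`, gives a conjugate of `x` of determinant one in the normaliser -/
theorem frameK {n : ℕ} (hn : 1 ≤ n) (K : Subalgebra F (Matrix (Fin n) (Fin n) F))
    (hK : Cfsg.Geo.IsFieldSubalgebra 2 K) (x : Matrix.SpecialLinearGroup (Fin n) F)
    (hκ' : ∀ t d : F, (∀ l : F, l * l - t * l + d ≠ 0) → ∃ κ' : Matrix (Fin n) (Fin n) F,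
      κ' * κ' = t • κ' - d • (1 : Matrix (Fin n) (Fin n) F) ∧
      ((x : Matrix (Fin n) (Fin n) F) * κ' = κ' * (x : Matrix (Fin n) (Fin n) F) ∨
        (x : Matrix (Fin n) (Fin n) F) * κ'
          = (t • (1 : Matrix (Fin n) (Fin n) F) - κ') * (x : Matrix (Fin n) (Fin n) F)))
    (hT : ∀ δ : F, δ ≠ 0 → ∃ T : Matrix (Fin n) (Fin n) F, T.det = δ ∧
      T * (x : Matrix (Fin n) (Fin n) F) = (x : Matrix (Fin n) (Fin n) F) * T) :
    ∃ P : Matrix.SpecialLinearGroup (Fin n) F,
      P⁻¹ * x * P ∈ ((Cfsg.Geo.subalgebraNormalizer K).comap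
        (Matrix.SpecialLinearGroup.toGL : Matrix.SpecialLinearGroup (Fin n) F →* GL (Fin n) F)) := by
  classical
  obtain ⟨κ, t, d, hκK, hκ2, hgen, hroot, hκns⟩ := exists_gen hn K hK
  obtain ⟨κ', hκ'2, hxκ⟩ := hκ' t d hroot
  obtain ⟨i, hi, hcp⟩ := charpoly_of_quad κ t d hroot hκ2
  obtain ⟨i', hi', hcp'⟩ := charpoly_of_quad κ' t d hroot hκ'2
  have hii : i' = i := by omega
  rw [hii] at hcp'
  have hirr := quad_irr t d hroot
  have hss : ∀ A : Matrix (Fin n) (Fin n) F, A * A = t • A - d • (1 : Matrix (Fin n) (Fin n) F) →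
      Module.End.IsSemisimple (Matrix.toLin' A) := by
    intro A hA
    apply Module.End.isSemisimple_of_squarefree_aeval_eq_zero hirr.squarefree
    have h1 : Polynomial.aeval A (Polynomial.C (1 : F) * Polynomial.X ^ 2
        + Polynomial.C (-t) * Polynomial.X + Polynomial.C d) = 0 := by
      simp only [map_add, map_mul, map_pow, Polynomial.aeval_C, Polynomial.aeval_X,
        Algebra.algebraMap_eq_smul_one, sq, hA, smul_mul_assoc, one_mul]
      module
    have h2 := Polynomial.aeval_algHom_apply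
      (Matrix.toLinAlgEquiv' : Matrix (Fin n) (Fin n) F ≃ₐ[F] _) A
      (Polynomial.C (1 : F) * Polynomial.X ^ 2 + Polynomial.C (-t) * Polynomial.X
        + Polynomial.C d)
    rw [h1, map_zero] at h2
    exact h2
  obtain ⟨φ, hφ⟩ := Cfsg.Agent.Lib.Helper15.Semi.ss_conj n (Fin n → F) (Fin n → F)
    (Matrix.toLin' κ') (Matrix.toLin' κ) (by rw [Module.finrank_fin_fun]) (hss κ' hκ'2)
    (hss κ hκ2)
    (by rw [Cfsg.Agent.S5967.charpoly_toLin', Cfsg.Agent.S5967.charpoly_toLin', hcp, hcp'])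
  have hφ' : ∀ v, φ (κ' *ᵥ v) = κ *ᵥ (φ v) := by
    intro v
    have h1 := hφ v
    rwa [Matrix.toLin'_apply, Matrix.toLin'_apply] at h1
  have hdetφ : LinearMap.det (φ.symm : (Fin n → F) →ₗ[F] (Fin n → F)) ≠ 0 :=
    (LinearEquiv.isUnit_det' φ.symm).ne_zero
  obtain ⟨T, hTdet, hTx⟩ := hT (LinearMap.det (φ.symm : (Fin n → F) →ₗ[F] (Fin n → F)))⁻¹
    (inv_ne_zero hdetφ)
  obtain ⟨Φ, hΦ⟩ : ∃ Φ : Module.End F (Fin n → F),
      Φ = Matrix.toLin' T ∘ₗ (φ.symm : (Fin n → F) →ₗ[F] (Fin n → F)) := ⟨_, rfl⟩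
  have hΦapp : ∀ u, Φ u = T *ᵥ (φ.symm u) := by
    intro u
    rw [hΦ]
    show Matrix.toLin' T (φ.symm u) = _
    rw [Matrix.toLin'_apply]
  have hdetΦ : LinearMap.det Φ = 1 := by
    rw [hΦ, LinearMap.det_comp, LinearMap.det_toLin', hTdet, inv_mul_cancel₀ hdetφ]
  obtain ⟨P, hP⟩ : ∃ P : Matrix.SpecialLinearGroup (Fin n) F,
      (P : Matrix (Fin n) (Fin n) F) = LinearMap.toMatrix' Φ :=
    ⟨⟨LinearMap.toMatrix' Φ, by rw [LinearMap.det_toMatrix', hdetΦ]⟩, rfl⟩
  have hPv : ∀ u, (P : Matrix (Fin n) (Fin n) F) *ᵥ u = Φ u := by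
    intro u
    rw [hP, LinearMap.toMatrix'_mulVec]
  have hPinv : ∀ u, ((P⁻¹ : Matrix.SpecialLinearGroup (Fin n) F) : Matrix (Fin n) (Fin n) F)
      *ᵥ ((P : Matrix (Fin n) (Fin n) F) *ᵥ u) = u := by
    intro u
    rw [Matrix.mulVec_mulVec, ← Matrix.SpecialLinearGroup.coe_mul, inv_mul_cancel,
      Matrix.SpecialLinearGroup.coe_one, Matrix.one_mulVec]
  have hconj : ∀ u, ((P⁻¹ * x * P : Matrix.SpecialLinearGroup (Fin n) F) :
      Matrix (Fin n) (Fin n) F) *ᵥ u = φ ((x : Matrix (Fin n) (Fin n) F) *ᵥ (φ.symm u)) := by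
    intro u
    rw [Matrix.SpecialLinearGroup.coe_mul, Matrix.SpecialLinearGroup.coe_mul,
      ← Matrix.mulVec_mulVec, ← Matrix.mulVec_mulVec, hPv, hΦapp]
    have h0 : (x : Matrix (Fin n) (Fin n) F) *ᵥ (T *ᵥ φ.symm u)
        = T *ᵥ ((x : Matrix (Fin n) (Fin n) F) *ᵥ φ.symm u) := by
      rw [Matrix.mulVec_mulVec, Matrix.mulVec_mulVec, hTx]
    have h1 : T *ᵥ ((x : Matrix (Fin n) (Fin n) F) *ᵥ φ.symm u)
        = (P : Matrix (Fin n) (Fin n) F) *ᵥ (φ ((x : Matrix (Fin n) (Fin n) F) *ᵥ φ.symm u)) := by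
      rw [hPv, hΦapp, LinearEquiv.symm_apply_apply]
    rw [h0, h1, hPinv]
  refine ⟨P, ?_⟩
  rw [Subgroup.mem_comap]
  obtain ⟨κ'', κ₁, hκ₁, hx'', hφ''⟩ : ∃ κ'' κ₁ : Matrix (Fin n) (Fin n) F,
      (κ₁ = κ ∨ κ₁ = t • (1 : Matrix (Fin n) (Fin n) F) - κ) ∧
      (x : Matrix (Fin n) (Fin n) F) * κ' = κ'' * (x : Matrix (Fin n) (Fin n) F) ∧
      ∀ v, φ (κ'' *ᵥ v) = κ₁ *ᵥ φ v := by
    rcases hxκ with h | h
    · exact ⟨κ', κ, Or.inl rfl, h, hφ'⟩
    · refine ⟨t • 1 - κ', t • 1 - κ, Or.inr rfl, h, ?_⟩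
      intro v
      rw [Matrix.sub_mulVec, Matrix.smul_mulVec, Matrix.one_mulVec, map_sub, map_smul, hφ',
        Matrix.sub_mulVec, Matrix.smul_mulVec, Matrix.one_mulVec]
  apply mem_norm K κ t hκK hgen _ κ₁ hκ₁
  show ((P⁻¹ * x * P : Matrix.SpecialLinearGroup (Fin n) F) : Matrix (Fin n) (Fin n) F) * κ
    = κ₁ * ((P⁻¹ * x * P : Matrix.SpecialLinearGroup (Fin n) F) : Matrix (Fin n) (Fin n) F)
  apply Matrix.toLin'.injective
  apply LinearMap.ext
  intro u
  rw [Matrix.toLin'_apply, Matrix.toLin'_apply, ← Matrix.mulVec_mulVec, ← Matrix.mulVec_mulVec,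
    hconj, hconj]
  have h1 : φ.symm (κ *ᵥ u) = κ' *ᵥ (φ.symm u) := by
    apply φ.injective
    rw [φ.apply_symm_apply, hφ', φ.apply_symm_apply]
  rw [h1, Matrix.mulVec_mulVec, hx'', ← Matrix.mulVec_mulVec, hφ'']

theorem conj_mat {n : ℕ} {ι : Type*} [Fintype ι] [DecidableEq ι]
    (E : (ι → F) ≃ₗ[F] (Fin n → F)) (Mo : Matrix ι ι F) :
    ∃ κ' : Matrix (Fin n) (Fin n) F, (∀ w, κ' *ᵥ (E w) = E (Mo *ᵥ w)) ∧ κ'.det = Mo.det := by
  refine ⟨LinearMap.toMatrix' ((E : (ι → F) →ₗ[F] (Fin n → F)) ∘ₗ Matrix.toLin' Mo ∘ₗ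
    ((E.symm : (Fin n → F) ≃ₗ[F] (ι → F)) : (Fin n → F) →ₗ[F] (ι → F))), ?_, ?_⟩
  · intro w
    rw [LinearMap.toMatrix'_mulVec]
    show E (Matrix.toLin' Mo (E.symm (E w))) = _
    rw [E.symm_apply_apply, Matrix.toLin'_apply]
  · rw [LinearMap.det_toMatrix', LinearMap.det_conj, LinearMap.det_toLin']

theorem ext_E {n : ℕ} {ι : Type*} (E : (ι → F) ≃ₗ[F] (Fin n → F))
    (P Q : Matrix (Fin n) (Fin n) F) (h : ∀ w, P *ᵥ (E w) = Q *ᵥ (E w)) : P = Q := by
  apply Matrix.toLin'.injective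
  apply LinearMap.ext
  intro u
  obtain ⟨w, rfl⟩ := E.surjective u
  rw [Matrix.toLin'_apply, Matrix.toLin'_apply]
  exact h w

/-- block version of the framework -/
theorem frameK_bd {n : ℕ} (hn : 1 ≤ n) (K : Subalgebra F (Matrix (Fin n) (Fin n) F))
    (hK : Cfsg.Geo.IsFieldSubalgebra 2 K) (x : Matrix.SpecialLinearGroup (Fin n) F)
    {o : Type} [Fintype o] [DecidableEq o]
    (E : (Fin 2 × o → F) ≃ₗ[F] (Fin n → F)) (C : o → Matrix (Fin 2) (Fin 2) F)
    (hXE : ∀ w, (x : Matrix (Fin n) (Fin n) F) *ᵥ (E w) = E (Matrix.blockDiagonal C *ᵥ w))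
    (hM : ∀ t d : F, (∀ l : F, l * l - t * l + d ≠ 0) → ∃ Mk : o → Matrix (Fin 2) (Fin 2) F,
      (∀ j, Mk j * Mk j = t • Mk j - d • (1 : Matrix (Fin 2) (Fin 2) F)) ∧
      ((∀ j, C j * Mk j = Mk j * C j) ∨
        (∀ j, C j * Mk j = (t • (1 : Matrix (Fin 2) (Fin 2) F) - Mk j) * C j)))
    (hT : ∀ δ : F, δ ≠ 0 → ∃ tt : o → Matrix (Fin 2) (Fin 2) F,
      (∀ j, C j * tt j = tt j * C j) ∧ ∏ j, (tt j).det = δ) :
    ∃ P : Matrix.SpecialLinearGroup (Fin n) F,
      P⁻¹ * x * P ∈ ((Cfsg.Geo.subalgebraNormalizer K).comap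
        (Matrix.SpecialLinearGroup.toGL : Matrix.SpecialLinearGroup (Fin n) F →* GL (Fin n) F)) := by
  classical
  apply frameK hn K hK x
  · intro t d hroot
    obtain ⟨Mk, hMk2, hMkC⟩ := hM t d hroot
    obtain ⟨κ', hκ'E, -⟩ := conj_mat E (Matrix.blockDiagonal Mk)
    have hbd2 : Matrix.blockDiagonal Mk * Matrix.blockDiagonal Mk
        = t • Matrix.blockDiagonal Mk - d • (1 : Matrix (Fin 2 × o) (Fin 2 × o) F) := by
      rw [← Matrix.blockDiagonal_mul]
      have h1 : (fun j => Mk j * Mk j) = t • Mk - d • (1 : o → Matrix (Fin 2) (Fin 2) F) := by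
        funext j
        exact hMk2 j
      rw [h1, Matrix.blockDiagonal_sub, Matrix.blockDiagonal_smul, Matrix.blockDiagonal_smul,
        Matrix.blockDiagonal_one]
    refine ⟨κ', ?_, ?_⟩
    · apply ext_E E
      intro w
      rw [← Matrix.mulVec_mulVec, hκ'E, hκ'E, Matrix.mulVec_mulVec, hbd2, Matrix.sub_mulVec,
        Matrix.smul_mulVec, Matrix.smul_mulVec, Matrix.one_mulVec, Matrix.sub_mulVec,
        Matrix.smul_mulVec, Matrix.smul_mulVec, Matrix.one_mulVec, hκ'E, map_sub, map_smul,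
        map_smul]
    · rcases hMkC with h | h
      · left
        apply ext_E E
        intro w
        rw [← Matrix.mulVec_mulVec, ← Matrix.mulVec_mulVec, hκ'E, hXE, hXE, hκ'E,
          Matrix.mulVec_mulVec, Matrix.mulVec_mulVec, ← Matrix.blockDiagonal_mul,
          ← Matrix.blockDiagonal_mul]
        congr 3
        funext j
        exact h j
      · right
        apply ext_E E
        intro w
        have h1 : Matrix.blockDiagonal C * Matrix.blockDiagonal Mk
            = (t • (1 : Matrix (Fin 2 × o) (Fin 2 × o) F) - Matrix.blockDiagonal Mk)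
              * Matrix.blockDiagonal C := by
          rw [← Matrix.blockDiagonal_mul]
          have h2 : (fun j => C j * Mk j)
              = fun j => (t • (1 : o → Matrix (Fin 2) (Fin 2) F) - Mk) j * C j := by
            funext j
            exact h j
          rw [h2, Matrix.blockDiagonal_mul, Matrix.blockDiagonal_sub, Matrix.blockDiagonal_smul,
            Matrix.blockDiagonal_one]
        rw [← Matrix.mulVec_mulVec, ← Matrix.mulVec_mulVec, hκ'E, hXE, hXE, Matrix.sub_mulVec,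
          Matrix.smul_mulVec, Matrix.one_mulVec, hκ'E, Matrix.mulVec_mulVec, Matrix.mulVec_mulVec,
          h1, Matrix.sub_mul, Matrix.smul_mul, Matrix.one_mul, Matrix.sub_mulVec,
          Matrix.smul_mulVec, map_sub, map_smul]
  · intro δ hδ
    obtain ⟨tt, htC, htd⟩ := hT δ hδ
    obtain ⟨T, hTE, hTdet⟩ := conj_mat E (Matrix.blockDiagonal tt)
    refine ⟨T, by rw [hTdet, Matrix.det_blockDiagonal, htd], ?_⟩
    apply ext_E E
    intro w
    rw [← Matrix.mulVec_mulVec, ← Matrix.mulVec_mulVec, hXE, hTE, hTE, hXE, Matrix.mulVec_mulVec,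
      Matrix.mulVec_mulVec, ← Matrix.blockDiagonal_mul, ← Matrix.blockDiagonal_mul]
    congr 3
    funext j
    exact (htC j).symm

end gen


section cases

open Matrix

variable {F : Type*} [Field F] [Fintype F]

theorem nonsq_div (q : ℕ) (hq : Fintype.card F = q) (hqodd : q % 2 = 1) (a b : F)
    (ha : ¬ IsSquare a) (hb : ¬ IsSquare b) : IsSquare (a / b) := by
  have hchar := Cfsg.Agent.S5964.char_ne_two q hq hqodd
  have ha0 : a ≠ 0 := by
    rintro rfl
    exact ha ⟨0, by rw [mul_zero]⟩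
  have hb0 : b ≠ 0 := by
    rintro rfl
    exact hb ⟨0, by rw [mul_zero]⟩
  have h1 : ∀ c : F, ¬ IsSquare c → c ≠ 0 → c ^ (Fintype.card F / 2) = -1 := by
    intro c hc hc0
    rcases FiniteField.pow_dichotomy hchar hc0 with h | h
    · exact absurd ((FiniteField.isSquare_iff hchar hc0).2 h) hc
    · exact h
  rw [FiniteField.isSquare_iff hchar (div_ne_zero ha0 hb0), div_pow, h1 a ha ha0, h1 b hb hb0,
    div_self (neg_ne_zero.2 one_ne_zero)]

/-- the nonsquare case -/
theorem caseB {n : ℕ} (hn : 1 ≤ n) (K : Subalgebra F (Matrix (Fin n) (Fin n) F))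
    (hK : Cfsg.Geo.IsFieldSubalgebra 2 K) (q : ℕ) (hq : Fintype.card F = q) (hqodd : q % 2 = 1)
    (x : Matrix.SpecialLinearGroup (Fin n) F) (z : F) (hz : ¬ IsSquare z)
    (hx : (x : Matrix (Fin n) (Fin n) F) * (x : Matrix (Fin n) (Fin n) F)
      = z • (1 : Matrix (Fin n) (Fin n) F)) :
    ∃ P : Matrix.SpecialLinearGroup (Fin n) F,
      P⁻¹ * x * P ∈ ((Cfsg.Geo.subalgebraNormalizer K).comap
        (Matrix.SpecialLinearGroup.toGL : Matrix.SpecialLinearGroup (Fin n) F →* GL (Fin n) F)) := by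
  have hodd : Fintype.card F % 2 = 1 := by
    rw [hq]
    exact hqodd
  classical
  have hz0 : z ≠ 0 := by
    rintro rfl
    exact hz ⟨0, by rw [mul_zero]⟩
  obtain ⟨i, hni, hchar⟩ := charpoly_of_sq (x : Matrix (Fin n) (Fin n) F) z hz hx
  rw [Fintype.card_fin] at hni
  obtain ⟨C, hC⟩ : ∃ C : Fin i → Matrix (Fin 2) (Fin 2) F, C = fun _ => !![0, z; 1, 0] :=
    ⟨_, rfl⟩
  have hCC : Matrix.blockDiagonal C * Matrix.blockDiagonal C
      = z • (1 : Matrix (Fin 2 × Fin i) (Fin 2 × Fin i) F) := by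
    rw [← Matrix.blockDiagonal_mul]
    have h1 : (fun k => C k * C k) = z • (1 : Fin i → Matrix (Fin 2) (Fin 2) F) := by
      funext k
      rw [hC]
      ext a b
      fin_cases a <;> fin_cases b <;>
        simp [Matrix.mul_apply, Fin.sum_univ_two, Matrix.one_apply]
    rw [h1, Matrix.blockDiagonal_smul, Matrix.blockDiagonal_one]
  obtain ⟨i', hi', hchar'⟩ := charpoly_of_sq (Matrix.blockDiagonal C) z hz hCC
  rw [Fintype.card_prod, Fintype.card_fin, Fintype.card_fin] at hi'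
  have hii : i' = i := by omega
  rw [hii] at hchar'
  have hπirr := pi_irr z hz
  obtain ⟨X, hX⟩ : ∃ X : Module.End F (Fin n → F),
      X = Matrix.toLin' (x : Matrix (Fin n) (Fin n) F) := ⟨_, rfl⟩
  obtain ⟨Mb, hMb⟩ : ∃ Mb : Module.End F (Fin 2 × Fin i → F),
      Mb = Matrix.toLin' (Matrix.blockDiagonal C) := ⟨_, rfl⟩
  have hXss : X.IsSemisimple := by
    apply Module.End.isSemisimple_of_squarefree_aeval_eq_zero hπirr.squarefree
    rw [map_sub, map_pow, Polynomial.aeval_X, Polynomial.aeval_C, hX, ← Matrix.toLin'_pow, sq,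
      hx, map_smul, Matrix.toLin'_one, Algebra.algebraMap_eq_smul_one]
    exact sub_self _
  have hMss : Mb.IsSemisimple := by
    apply Module.End.isSemisimple_of_squarefree_aeval_eq_zero hπirr.squarefree
    rw [map_sub, map_pow, Polynomial.aeval_X, Polynomial.aeval_C, hMb, ← Matrix.toLin'_pow, sq,
      hCC, map_smul, Matrix.toLin'_one, Algebra.algebraMap_eq_smul_one]
    exact sub_self _
  have hcp : X.charpoly = Mb.charpoly := by
    rw [hX, hMb, Cfsg.Agent.S5967.charpoly_toLin', Cfsg.Agent.S5967.charpoly_toLin', hchar, hchar']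
  obtain ⟨φ, hφ⟩ := Cfsg.Agent.Lib.Helper15.Semi.ss_conj n (Fin n → F) (Fin 2 × Fin i → F) X Mb
    (by rw [Module.finrank_fin_fun]) hXss hMss hcp
  have hXE : ∀ w, (x : Matrix (Fin n) (Fin n) F) *ᵥ (φ.symm w)
      = φ.symm (Matrix.blockDiagonal C *ᵥ w) := by
    intro w
    have h1 := hφ (φ.symm w)
    rw [φ.apply_symm_apply] at h1
    have h3 : (x : Matrix (Fin n) (Fin n) F) *ᵥ (φ.symm w) = X (φ.symm w) := by
      rw [hX, Matrix.toLin'_apply]
    have h4 : Matrix.blockDiagonal C *ᵥ w = Mb w := by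
      rw [hMb, Matrix.toLin'_apply]
    rw [h3, h4]
    apply φ.injective
    rw [h1, φ.apply_symm_apply]
  have hnorm : ∀ δ : F, ∃ α β : F, α * α - z * (β * β) = δ := by
    intro δ
    have hf2 : (Polynomial.C (1 : F) * Polynomial.X ^ 2 + Polynomial.C 0 * Polynomial.X
        + Polynomial.C 0).degree = 2 := Polynomial.degree_quadratic one_ne_zero
    have hg2 : (Polynomial.C (-z) * Polynomial.X ^ 2 + Polynomial.C 0 * Polynomial.X
        + Polynomial.C (-δ)).degree = 2 := Polynomial.degree_quadratic (neg_ne_zero.2 hz0)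
    obtain ⟨α, β, hαβ⟩ := FiniteField.exists_root_sum_quadratic hf2 hg2 hodd
    refine ⟨α, β, ?_⟩
    simp only [Polynomial.eval_add, Polynomial.eval_mul, Polynomial.eval_C, Polynomial.eval_pow,
      Polynomial.eval_X] at hαβ
    linear_combination hαβ
  have hi0 : 0 < i := by omega
  have hchar2 : ringChar F ≠ 2 := Cfsg.Agent.S5964.char_ne_two q hq hqodd
  have h2 : (2 : F) ≠ 0 := Ring.two_ne_zero hchar2
  have h4 : (4 : F) ≠ 0 := by
    have h : (4 : F) = 2 * 2 := by norm_num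
    rw [h]
    exact mul_ne_zero h2 h2
  apply frameK_bd hn K hK x φ.symm C hXE
  · intro t d hroot
    have hD : ¬ IsSquare (t * t - 4 * d) := by
      rintro ⟨s, hs⟩
      obtain ⟨l, hl⟩ : ∃ l : F, 2 * l = t + s := ⟨(t + s) / 2, by field_simp⟩
      apply hroot l
      have e : 4 * (l * l - t * l + d) = (2 * l - t) * (2 * l - t) - (t * t - 4 * d) := by ring
      rw [hl, hs] at e
      have e' : 4 * (l * l - t * l + d) = 0 := by
        rw [e]
        ring
      exact (mul_eq_zero.1 e').resolve_left h4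
    obtain ⟨s', hs'⟩ := nonsq_div q hq hqodd _ _ hD hz
    have hs'' : s' * s' * z = t * t - 4 * d := by
      rw [← hs']
      field_simp
    obtain ⟨ι₂, hι⟩ : ∃ ι₂ : F, 2 * ι₂ = 1 := ⟨2⁻¹, mul_inv_cancel₀ h2⟩
    refine ⟨fun _ => !![t * ι₂, s' * ι₂ * z; s' * ι₂, t * ι₂], ?_, Or.inl ?_⟩
    · intro j
      ext a b
      fin_cases a <;> fin_cases b <;> simp [Matrix.mul_apply, Fin.sum_univ_two, Matrix.smul_apply, Matrix.sub_apply, Matrix.one_apply] <;>
        first
        | linear_combination (ι₂ * ι₂) * hs'' + (t * t * ι₂ - d * (2 * ι₂ + 1)) * hι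
        | linear_combination (t * s' * z * ι₂) * hι
        | linear_combination (t * s' * ι₂) * hι
    · intro j
      rw [hC]
      ext a b
      fin_cases a <;> fin_cases b <;> simp [Matrix.mul_apply, Fin.sum_univ_two] <;> ring
  · intro δ hδ
    obtain ⟨α, β, hαβ⟩ := hnorm δ
    obtain ⟨tt, ht1, ht2⟩ := exists_t C ⟨0, hi0⟩ !![α, z * β; β, α] (by
      rw [hC]
      ext a b
      fin_cases a <;> fin_cases b <;> simp [Matrix.mul_apply, Fin.sum_univ_two] <;> ring)
    refine ⟨tt, ht1, ?_⟩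
    rw [ht2, Matrix.det_fin_two_of]
    linear_combination hαβ

/-- the square case -/
theorem caseA {n : ℕ} (hn : 1 ≤ n) (hne : Even n) (K : Subalgebra F (Matrix (Fin n) (Fin n) F))
    (hK : Cfsg.Geo.IsFieldSubalgebra 2 K) (h2 : (2 : F) ≠ 0)
    (x : Matrix.SpecialLinearGroup (Fin n) F) (c : F) (hc0 : c ≠ 0)
    (hx : (x : Matrix (Fin n) (Fin n) F) * (x : Matrix (Fin n) (Fin n) F)
      = (c * c) • (1 : Matrix (Fin n) (Fin n) F))
    (hcase : n = 2 ∨ ∀ c' : F, c' ^ n ≠ -1) :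
    ∃ P : Matrix.SpecialLinearGroup (Fin n) F,
      P⁻¹ * x * P ∈ ((Cfsg.Geo.subalgebraNormalizer K).comap
        (Matrix.SpecialLinearGroup.toGL : Matrix.SpecialLinearGroup (Fin n) F →* GL (Fin n) F)) := by
  classical
  obtain ⟨A, hA⟩ : ∃ A : Matrix (Fin n) (Fin n) F, A = (x : Matrix (Fin n) (Fin n) F) := ⟨_, rfl⟩
  rw [← hA] at hx
  obtain ⟨X, hX⟩ : ∃ X : Module.End F (Fin n → F), X = Matrix.toLin' A := ⟨_, rfl⟩
  have hXX : ∀ v, X (X v) = (c * c) • v := by
    intro v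
    rw [hX, Matrix.toLin'_apply, Matrix.toLin'_apply, Matrix.mulVec_mulVec, hx,
      Matrix.smul_mulVec, Matrix.one_mulVec]
  obtain ⟨Y, hY⟩ : ∃ Y : Module.End F (Fin n → F), Y = c⁻¹ • X := ⟨_, rfl⟩
  have hXY : ∀ v, X v = c • Y v := by
    intro v
    rw [hY, LinearMap.smul_apply, smul_smul, mul_inv_cancel₀ hc0, one_smul]
  have hYY : ∀ v, Y (Y v) = v := by
    intro v
    rw [hY, LinearMap.smul_apply, LinearMap.smul_apply, map_smul, hXX, smul_smul, smul_smul]
    have : c⁻¹ * c⁻¹ * (c * c) = 1 := by field_simp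
    rw [this, one_smul]
  obtain ⟨pp, hpp⟩ : ∃ p : Submodule F (Fin n → F), p = LinearMap.ker (Y - 1) := ⟨_, rfl⟩
  obtain ⟨pm, hpm⟩ : ∃ p : Submodule F (Fin n → F), p = LinearMap.ker (Y + 1) := ⟨_, rfl⟩
  have hmemp : ∀ v, v ∈ pp ↔ Y v = v := by
    intro v
    rw [hpp, LinearMap.mem_ker, LinearMap.sub_apply, Module.End.one_apply, sub_eq_zero]
  have hmemm : ∀ v, v ∈ pm ↔ Y v = -v := by
    intro v
    rw [hpm, LinearMap.mem_ker, LinearMap.add_apply, Module.End.one_apply,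
      add_eq_zero_iff_eq_neg]
  have hcompl : IsCompl pp pm := by
    constructor
    · rw [Submodule.disjoint_def]
      intro v hv1 hv2
      rw [hmemp] at hv1
      rw [hmemm, hv1] at hv2
      have h3 : (2 : F) • v = 0 := by
        rw [two_smul]
        calc v + v = -v + v := by rw [← hv2]
          _ = 0 := neg_add_cancel v
      exact (smul_eq_zero.1 h3).resolve_left h2
    · rw [codisjoint_iff, eq_top_iff]
      intro v _
      rw [Submodule.mem_sup]
      refine ⟨(2 : F)⁻¹ • (v + Y v), ?_, (2 : F)⁻¹ • (v - Y v), ?_, ?_⟩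
      · rw [hmemp, map_smul, map_add, hYY, add_comm]
      · rw [hmemm, map_smul, map_sub, hYY, ← smul_neg, neg_sub]
      · rw [← smul_add]
        have : v + Y v + (v - Y v) = (2 : F) • v := by
          rw [two_smul]
          abel
        rw [this, smul_smul, inv_mul_cancel₀ h2, one_smul]
  obtain ⟨B', hB'⟩ : ∃ B' : Module.Basis
      (Fin (Module.finrank F ↥pp) ⊕ Fin (Module.finrank F ↥pm)) F (Fin n → F),
      B' = ((Module.finBasis F ↥pp).prod (Module.finBasis F ↥pm)).map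
        (Submodule.prodEquivOfIsCompl pp pm hcompl) := ⟨_, rfl⟩
  obtain ⟨s', hs'⟩ : ∃ s' : Fin (Module.finrank F ↥pp) ⊕ Fin (Module.finrank F ↥pm) → F,
      s' = Sum.elim (fun _ => 1) (fun _ => -1) := ⟨_, rfl⟩
  have hYB' : ∀ i, Y (B' i) = s' i • B' i := by
    intro i
    have h1 : B' i = ((((Module.finBasis F ↥pp).prod (Module.finBasis F ↥pm)) i).1 : Fin n → F)
        + ((((Module.finBasis F ↥pp).prod (Module.finBasis F ↥pm)) i).2 : Fin n → F) := by
      rw [hB', Module.Basis.map_apply, Submodule.coe_prodEquivOfIsCompl']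
    rw [h1, hs']
    rcases i with j | j
    · rw [Module.Basis.prod_apply_inl_fst, Module.Basis.prod_apply_inl_snd, Submodule.coe_zero,
        add_zero, Sum.elim_inl, one_smul]
      exact (hmemp _).1 (Subtype.coe_prop _)
    · rw [Module.Basis.prod_apply_inr_fst, Module.Basis.prod_apply_inr_snd, Submodule.coe_zero,
        zero_add, Sum.elim_inr, neg_smul, one_smul]
      exact (hmemm _).1 (Subtype.coe_prop _)
  have hcard : Fintype.card (Fin (Module.finrank F ↥pp) ⊕ Fin (Module.finrank F ↥pm)) = n := by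
    rw [← Module.finrank_eq_card_basis B', Module.finrank_fin_fun]
  have hab : Module.finrank F ↥pp + Module.finrank F ↥pm = n := by
    have h := hcard
    rw [Fintype.card_sum, Fintype.card_fin, Fintype.card_fin] at h
    exact h
  by_cases hev : Even (Module.finrank F ↥pp) ∧ Even (Module.finrank F ↥pm)
  · obtain ⟨hae, hbe⟩ := hev
    obtain ⟨a', ha'⟩ := hae
    obtain ⟨b', hb'⟩ := hbe
    obtain ⟨ea⟩ : Nonempty (Fin (Module.finrank F ↥pp) ≃ Fin 2 × Fin a') :=
      ⟨(finCongr (by omega : Module.finrank F ↥pp = 2 * a')).trans finProdFinEquiv.symm⟩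
    obtain ⟨eb⟩ : Nonempty (Fin (Module.finrank F ↥pm) ≃ Fin 2 × Fin b') :=
      ⟨(finCongr (by omega : Module.finrank F ↥pm = 2 * b')).trans finProdFinEquiv.symm⟩
    obtain ⟨e, he'⟩ : ∃ e : Fin (Module.finrank F ↥pp) ⊕ Fin (Module.finrank F ↥pm)
        ≃ Fin 2 × (Fin a' ⊕ Fin b'),
        e = (Equiv.sumCongr ea eb).trans (Equiv.prodSumDistrib _ _ _).symm := ⟨_, rfl⟩
    obtain ⟨bb, hbb⟩ : ∃ bb : Module.Basis (Fin 2 × (Fin a' ⊕ Fin b')) F (Fin n → F),
        bb = B'.reindex e := ⟨_, rfl⟩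
    obtain ⟨s, hs⟩ : ∃ s : Fin a' ⊕ Fin b' → F, s = Sum.elim (fun _ => 1) (fun _ => -1) :=
      ⟨_, rfl⟩
    have hss : ∀ p, s' (e.symm p) = s p.2 := by
      rintro ⟨i, j | j⟩
      · rw [he', hs', hs]
        simp
      · rw [he', hs', hs]
        simp
    have hYb : ∀ p, Y (bb p) = s p.2 • bb p := by
      intro p
      rw [hbb, Module.Basis.reindex_apply, hYB', hss]
    obtain ⟨E, hE⟩ : ∃ E : (Fin 2 × (Fin a' ⊕ Fin b') → F) ≃ₗ[F] (Fin n → F),
        E = bb.equivFun.symm := ⟨_, rfl⟩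
    have hEapp : ∀ u, E u = ∑ p, u p • bb p := by
      intro u
      rw [hE, Module.Basis.equivFun_symm_apply]
    obtain ⟨C, hC⟩ : ∃ C : Fin a' ⊕ Fin b' → Matrix (Fin 2) (Fin 2) F,
        C = fun j => (c * s j) • (1 : Matrix (Fin 2) (Fin 2) F) := ⟨_, rfl⟩
    have hbd : ∀ w p, (Matrix.blockDiagonal C *ᵥ w) p = c * s p.2 * w p := by
      intro w p
      obtain ⟨i, j⟩ := p
      rw [bd_mulVec, hC]
      have hi : i = 0 ∨ i = 1 := by fin_cases i <;> simp
      rcases hi with rfl | rfl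
      · simp [Matrix.smul_apply]
      · simp [Matrix.smul_apply]
    have hXb : ∀ p, X (bb p) = (c * s p.2) • bb p := by
      intro p
      rw [hXY, hYb, smul_smul]
    have hXE : ∀ w, (x : Matrix (Fin n) (Fin n) F) *ᵥ (E w)
        = E (Matrix.blockDiagonal C *ᵥ w) := by
      intro w
      have h1 : (x : Matrix (Fin n) (Fin n) F) *ᵥ E w = X (E w) := by
        rw [hX, Matrix.toLin'_apply, hA]
      rw [h1, hEapp, hEapp, map_sum]
      apply Finset.sum_congr rfl
      intro p _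
      rw [map_smul, hXb, smul_smul, hbd]
      congr 1
      ring
    have hsq : ∀ j, s j * s j = 1 := by
      intro j
      rw [hs]
      rcases j with j | j <;> simp
    have hne' : Nonempty (Fin a' ⊕ Fin b') := by
      rcases Nat.eq_zero_or_pos a' with h | h
      · have h1 : 0 < b' := by omega
        exact ⟨Sum.inr ⟨0, h1⟩⟩
      · exact ⟨Sum.inl ⟨0, h⟩⟩
    obtain ⟨j₀⟩ := hne'
    apply frameK_bd hn K hK x E C hXE
    · intro t d hroot
      refine ⟨fun _ => !![0, -d; 1, t], ?_, Or.inl ?_⟩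
      · intro j
        ext a b
        fin_cases a <;> fin_cases b <;> simp [Matrix.mul_apply, Fin.sum_univ_two, Matrix.smul_apply, Matrix.sub_apply, Matrix.one_apply] <;> ring
      · intro j
        rw [hC]
        simp only [Matrix.smul_mul, Matrix.mul_smul, Matrix.one_mul, Matrix.mul_one]
    · intro δ hδ
      obtain ⟨tt, ht1, ht2⟩ := exists_t C j₀ !![δ, 0; 0, 1] (by
        rw [hC]
        simp only [Matrix.smul_mul, Matrix.mul_smul, Matrix.one_mul, Matrix.mul_one])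
      refine ⟨tt, ht1, ?_⟩
      rw [ht2, Matrix.det_fin_two_of]
      ring
  · have hn2 : n = 2 := by
      rcases hcase with h | hnr
      · exact h
      · exfalso
        have hdetY : LinearMap.det Y = (-1) ^ (Module.finrank F ↥pm) := by
          rw [← LinearMap.det_toMatrix B' Y]
          have h1 : LinearMap.toMatrix B' B' Y = Matrix.diagonal s' := by
            ext i j
            rw [LinearMap.toMatrix_apply, hYB', map_smul, Finsupp.smul_apply,
              Module.Basis.repr_self_apply, Matrix.diagonal_apply]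
            by_cases h : i = j
            · subst h
              simp
            · simp [h, Ne.symm h]
          rw [h1, Matrix.det_diagonal, Fintype.prod_sum_type, hs']
          simp
        have hdetX : LinearMap.det X = 1 := by
          rw [hX, LinearMap.det_toLin', hA, Matrix.SpecialLinearGroup.det_coe]
        have hXeq : X = c • Y := by
          rw [hY, smul_smul, mul_inv_cancel₀ hc0, one_smul]
        have hrel : c ^ n * (-1) ^ (Module.finrank F ↥pm) = 1 := by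
          rw [← hdetY, ← hdetX, hXeq, LinearMap.det_smul, Module.finrank_fin_fun]
        have hbe : Even (Module.finrank F ↥pm) := by
          by_contra hodd
          rw [Nat.not_even_iff_odd] at hodd
          rw [Odd.neg_one_pow hodd] at hrel
          exact hnr c (by linear_combination -hrel)
        have hab : Module.finrank F ↥pp + Module.finrank F ↥pm = n := by
          have h := hcard
          rw [Fintype.card_sum, Fintype.card_fin, Fintype.card_fin] at h
          exact h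
        have hae : Even (Module.finrank F ↥pp) := by
          have h1 := hne
          rw [← hab] at h1
          exact (Nat.even_add.1 h1).2 hbe
        exact hev ⟨hae, hbe⟩
    have ha1 : Module.finrank F ↥pp = 1 := by
      have h3 : ¬ (Module.finrank F ↥pp % 2 = 0 ∧ Module.finrank F ↥pm % 2 = 0) := by
        rw [← Nat.even_iff, ← Nat.even_iff]
        exact hev
      omega
    have hb1 : Module.finrank F ↥pm = 1 := by omega
    obtain ⟨e, he0, he1⟩ : ∃ e : Fin (Module.finrank F ↥pp) ⊕ Fin (Module.finrank F ↥pm)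
        ≃ Fin 2 × Unit, (∀ j, e (Sum.inl j) = (0, ())) ∧ (∀ j, e (Sum.inr j) = (1, ())) := by
      refine ⟨Equiv.ofBijective (Sum.elim (fun _ => (0, ())) (fun _ => (1, ()))) ⟨?_, ?_⟩,
        fun _ => rfl, fun _ => rfl⟩
      · rintro (j | j) (j' | j') h
        · congr 1
          apply Fin.ext
          have h5 := j.2
          have h6 := j'.2
          omega
        · exfalso
          have h' : ((0 : Fin 2), ()) = ((1 : Fin 2), ()) := h
          exact absurd (congrArg Prod.fst h') (by decide)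
        · exfalso
          have h' : ((1 : Fin 2), ()) = ((0 : Fin 2), ()) := h
          exact absurd (congrArg Prod.fst h') (by decide)
        · congr 1
          apply Fin.ext
          have h5 := j.2
          have h6 := j'.2
          omega
      · rintro ⟨i, u⟩
        have hi : i = 0 ∨ i = 1 := by fin_cases i <;> simp
        rcases hi with rfl | rfl
        · exact ⟨Sum.inl ⟨0, by omega⟩, rfl⟩
        · exact ⟨Sum.inr ⟨0, by omega⟩, rfl⟩
    obtain ⟨bb, hbb⟩ : ∃ bb : Module.Basis (Fin 2 × Unit) F (Fin n → F),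
        bb = B'.reindex e := ⟨_, rfl⟩
    obtain ⟨sg, hsg⟩ : ∃ sg : Fin 2 → F, sg = ![1, -1] := ⟨_, rfl⟩
    have hss : ∀ q', s' q' = sg (e q').1 := by
      rintro (j | j)
      · rw [he0, hs', hsg]
        rfl
      · rw [he1, hs', hsg]
        rfl
    have hYb : ∀ p, Y (bb p) = sg p.1 • bb p := by
      intro p
      rw [hbb, Module.Basis.reindex_apply, hYB', hss, Equiv.apply_symm_apply]
    obtain ⟨E, hE⟩ : ∃ E : (Fin 2 × Unit → F) ≃ₗ[F] (Fin n → F),
        E = bb.equivFun.symm := ⟨_, rfl⟩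
    have hEapp : ∀ u, E u = ∑ p, u p • bb p := by
      intro u
      rw [hE, Module.Basis.equivFun_symm_apply]
    obtain ⟨C, hC⟩ : ∃ C : Unit → Matrix (Fin 2) (Fin 2) F, C = fun _ => !![c, 0; 0, -c] :=
      ⟨_, rfl⟩
    have hbd : ∀ w p, (Matrix.blockDiagonal C *ᵥ w) p = c * sg p.1 * w p := by
      intro w p
      obtain ⟨i, j⟩ := p
      rw [bd_mulVec, hC, hsg]
      have hi : i = 0 ∨ i = 1 := by fin_cases i <;> simp
      rcases hi with rfl | rfl
      · simp
      · simp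
    have hXb : ∀ p, X (bb p) = (c * sg p.1) • bb p := by
      intro p
      rw [hXY, hYb, smul_smul]
    have hXE : ∀ w, (x : Matrix (Fin n) (Fin n) F) *ᵥ (E w)
        = E (Matrix.blockDiagonal C *ᵥ w) := by
      intro w
      have h1 : (x : Matrix (Fin n) (Fin n) F) *ᵥ E w = X (E w) := by
        rw [hX, Matrix.toLin'_apply, hA]
      rw [h1, hEapp, hEapp, map_sum]
      apply Finset.sum_congr rfl
      intro p _
      rw [map_smul, hXb, smul_smul, hbd]
      congr 1
      ring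
    apply frameK_bd hn K hK x E C hXE
    · intro t d hroot
      obtain ⟨ι₂, hι⟩ : ∃ ι₂ : F, 2 * ι₂ = 1 := ⟨2⁻¹, mul_inv_cancel₀ h2⟩
      refine ⟨fun _ => !![t * ι₂, (t * t - 4 * d) * ι₂ * ι₂; 1, t * ι₂], ?_, Or.inr ?_⟩
      · intro j
        ext a b
        fin_cases a <;> fin_cases b <;> simp [Matrix.mul_apply, Fin.sum_univ_two, Matrix.smul_apply, Matrix.sub_apply, Matrix.one_apply] <;>
          first
          | linear_combination (t * t * ι₂ - d * (2 * ι₂ + 1)) * hι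
          | linear_combination (t * (t * t - 4 * d) * ι₂ * ι₂) * hι
          | linear_combination t * hι
      · intro j
        rw [hC]
        ext a b
        fin_cases a <;> fin_cases b <;> simp [Matrix.mul_apply, Fin.sum_univ_two, Matrix.smul_apply, Matrix.sub_apply, Matrix.one_apply] <;>
          first
          | ring1
          | linear_combination (c * t) * hι
          | linear_combination (-(c * t)) * hι
    · intro δ hδ
      obtain ⟨tt, ht1, ht2⟩ := exists_t C () !![δ, 0; 0, 1] (by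
        rw [hC]
        ext a b
        fin_cases a <;> fin_cases b <;> simp [Matrix.mul_apply, Fin.sum_univ_two] <;> ring)
      refine ⟨tt, ht1, ?_⟩
      rw [ht2, Matrix.det_fin_two_of]
      ring

/-- characteristic two, dimension two -/
theorem caseC [CharP F 2] {n : ℕ} (hn2 : n = 2) (K : Subalgebra F (Matrix (Fin n) (Fin n) F))
    (hK : Cfsg.Geo.IsFieldSubalgebra 2 K) (x : Matrix.SpecialLinearGroup (Fin n) F)
    (hx3 : ∃ z : F, ((x ^ 2 : Matrix.SpecialLinearGroup (Fin n) F) : Matrix (Fin n) (Fin n) F)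
      = z • (1 : Matrix (Fin n) (Fin n) F))
    (hns : ∀ z : F, (x : Matrix (Fin n) (Fin n) F) ≠ z • (1 : Matrix (Fin n) (Fin n) F)) :
    ∃ P : Matrix.SpecialLinearGroup (Fin n) F,
      P⁻¹ * x * P ∈ ((Cfsg.Geo.subalgebraNormalizer K).comap
        (Matrix.SpecialLinearGroup.toGL : Matrix.SpecialLinearGroup (Fin n) F →* GL (Fin n) F)) := by
  have hn : 2 ≤ n := by omega
  classical
  obtain ⟨z, hz⟩ := hx3
  obtain ⟨c, hc⟩ := Cfsg.Agent.S5964.exists_sqrt z
  obtain ⟨A, hA⟩ : ∃ A : Matrix (Fin n) (Fin n) F, A = (x : Matrix (Fin n) (Fin n) F) := ⟨_, rfl⟩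
  have hA3 : A ^ 2 = z • (1 : Matrix (Fin n) (Fin n) F) := by
    rw [hA, ← Matrix.SpecialLinearGroup.coe_pow, hz]
  have hc0 : c ≠ 0 := by
    rintro rfl
    have h1 : z = 0 := by rw [← hc]; ring
    rw [h1, zero_smul] at hA3
    have h2 : (A ^ 2).det = 1 := by
      rw [Matrix.det_pow, hA, Matrix.SpecialLinearGroup.det_coe, one_pow]
    rw [hA3] at h2
    haveI : Nonempty (Fin n) := ⟨⟨0, by omega⟩⟩
    rw [Matrix.det_zero] at h2
    exact zero_ne_one h2
  obtain ⟨X, hX⟩ : ∃ X : Module.End F (Fin n → F), X = Matrix.toLin' A := ⟨_, rfl⟩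
  have hX3 : X ^ 2 = z • (1 : Module.End F (Fin n → F)) := by
    rw [hX, ← Matrix.toLin'_pow, hA3, map_smul, Matrix.toLin'_one]
    rfl
  obtain ⟨N, hN⟩ : ∃ N : Module.End F (Fin n → F), N = c⁻¹ • X - 1 := ⟨_, rfl⟩
  have hN3 : N ^ 2 = 0 := by
    have h0 : (Polynomial.X - 1 : Polynomial F) ^ 2 = Polynomial.X ^ 2 - 1 := by
      rw [sub_pow_char, one_pow]
    have h := congrArg (Polynomial.aeval (c⁻¹ • X)) h0
    simp only [map_pow, map_sub, Polynomial.aeval_X, map_one] at h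
    rw [hN, h, smul_pow, hX3, smul_smul, ← hc]
    have h1 : c⁻¹ ^ 2 * c ^ 2 = 1 := by
      rw [← mul_pow, inv_mul_cancel₀ hc0, one_pow]
    rw [h1, one_smul, sub_self]
  have hNN : ∀ v, N (N v) = 0 := by
    intro v
    have h1 := congrArg (fun g : Module.End F (Fin n → F) => g v) hN3
    rw [sq] at h1
    exact h1
  have hN0 : N ≠ 0 := by
    intro hN0
    have hXc : X = c • (1 : Module.End F (Fin n → F)) := by
      have h1 : c⁻¹ • X = 1 := by
        rw [hN] at hN0
        exact sub_eq_zero.1 hN0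
      rw [← h1, smul_smul, mul_inv_cancel₀ hc0, one_smul]
    apply hns c
    rw [← hA]
    have h2 : A = LinearMap.toMatrix' X := by rw [hX, LinearMap.toMatrix'_toLin']
    rw [h2, hXc, map_smul, LinearMap.toMatrix'_one]
  obtain ⟨u, hu⟩ : ∃ u, N u ≠ 0 := by
    by_contra hcon
    push Not at hcon
    exact hN0 (LinearMap.ext hcon)
  have hli : LinearIndependent F ![N u, u] := by
    rw [LinearIndependent.pair_iff]
    intro s t' hst
    have h1 := congrArg N hst
    rw [map_add, map_smul, map_smul, hNN, smul_zero, zero_add, map_zero] at h1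
    have ht : t' = 0 := (smul_eq_zero.1 h1).resolve_right hu
    rw [ht, zero_smul, add_zero] at hst
    exact ⟨(smul_eq_zero.1 hst).resolve_right hu, ht⟩
  obtain ⟨b₂, hb₂⟩ : ∃ b₂ : Module.Basis (Fin 2) F (Fin n → F), ⇑b₂ = ![N u, u] :=
    ⟨basisOfLinearIndependentOfCardEqFinrank hli
      (by rw [Fintype.card_fin, Module.finrank_fin_fun, hn2]),
      coe_basisOfLinearIndependentOfCardEqFinrank _ _⟩
  obtain ⟨bb, hbb⟩ : ∃ bb : Module.Basis (Fin 2 × Unit) F (Fin n → F),
      bb = b₂.reindex (Equiv.prodPUnit (Fin 2)).symm := ⟨_, rfl⟩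
  have hbb0 : bb (0, ()) = N u := by
    rw [hbb, Module.Basis.reindex_apply, hb₂]
    rfl
  have hbb1 : bb (1, ()) = u := by
    rw [hbb, Module.Basis.reindex_apply, hb₂]
    rfl
  obtain ⟨E, hE⟩ : ∃ E : (Fin 2 × Unit → F) ≃ₗ[F] (Fin n → F), E = bb.equivFun.symm :=
    ⟨_, rfl⟩
  have hEapp : ∀ w, E w = w (0, ()) • N u + w (1, ()) • u := by
    intro w
    rw [hE, Module.Basis.equivFun_symm_apply, Fintype.sum_prod_type, Fin.sum_univ_two]
    simp only [Finset.univ_unique, Finset.sum_singleton, PUnit.default_eq_unit]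
    rw [hbb0, hbb1]
  have hXu : ∀ v, X v = c • (v + N v) := by
    intro v
    rw [hN, LinearMap.sub_apply, LinearMap.smul_apply, Module.End.one_apply, add_sub_cancel,
      smul_smul, mul_inv_cancel₀ hc0, one_smul]
  obtain ⟨C, hC⟩ : ∃ C : Unit → Matrix (Fin 2) (Fin 2) F, C = fun _ => !![c, c; 0, c] :=
    ⟨_, rfl⟩
  have hXE : ∀ w, (x : Matrix (Fin n) (Fin n) F) *ᵥ (E w)
      = E (Matrix.blockDiagonal C *ᵥ w) := by
    intro w
    have h1 : (x : Matrix (Fin n) (Fin n) F) *ᵥ E w = X (E w) := by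
      rw [hX, Matrix.toLin'_apply, hA]
    rw [h1, hXu, hEapp, hEapp, bd_mulVec, bd_mulVec, hC, map_add, map_smul, map_smul, hNN,
      smul_zero, zero_add]
    simp only [Matrix.of_apply, Matrix.cons_val', Matrix.cons_val_zero, Matrix.cons_val_one,
      Matrix.cons_val_fin_one]
    module
  apply frameK_bd (by omega) K hK x E C hXE
  · intro t d hroot
    have ht0 : t ≠ 0 := by
      rintro rfl
      obtain ⟨l, hl⟩ := Cfsg.Agent.S5964.exists_sqrt (-d)
      apply hroot l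
      have h1 : l * l = -d := by
        rw [← sq]
        exact hl
      rw [h1]
      ring
    obtain ⟨τ, hτ⟩ : ∃ τ : F, t * τ = 1 := ⟨t⁻¹, mul_inv_cancel₀ ht0⟩
    have h2 : (2 : F) = 0 := CharTwo.two_eq_zero
    refine ⟨fun _ => !![0, d * τ; t, t], ?_, Or.inr ?_⟩
    · intro j
      ext a b
      fin_cases a <;> fin_cases b <;> simp [Matrix.mul_apply, Fin.sum_univ_two, Matrix.smul_apply, Matrix.sub_apply, Matrix.one_apply] <;>
        first
        | ring1
        | linear_combination d * hτ + d * h2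
        | linear_combination d * hτ
    · intro j
      rw [hC]
      ext a b
      fin_cases a <;> fin_cases b <;> simp [Matrix.mul_apply, Fin.sum_univ_two, Matrix.smul_apply, Matrix.sub_apply, Matrix.one_apply] <;>
        first
        | ring1
        | linear_combination (c * d * τ) * h2
        | linear_combination (c * t) * h2
  · intro δ hδ
    obtain ⟨ε, hε⟩ := Cfsg.Agent.S5964.exists_sqrt δ
    obtain ⟨tt, ht1, ht2⟩ := exists_t C () (ε • (1 : Matrix (Fin 2) (Fin 2) F)) (by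
      rw [Matrix.mul_smul, Matrix.smul_mul, Matrix.mul_one, Matrix.one_mul])
    refine ⟨tt, ht1, ?_⟩
    rw [ht2, Matrix.det_smul, Matrix.det_one, Fintype.card_fin, mul_one, hε]

end cases

section conv

open Matrix

variable {F : Type*} [Field F]

/-- an element normalising the field subalgebra acts on the generator as the identity or the conjugation -/
theorem norm_cases {n : ℕ} (K : Subalgebra F (Matrix (Fin n) (Fin n) F))
    (hK : Cfsg.Geo.IsFieldSubalgebra 2 K) (κ : Matrix (Fin n) (Fin n) F) (t d : F) (hκ : κ ∈ K)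
    (hκ2 : κ * κ = t • κ - d • (1 : Matrix (Fin n) (Fin n) F))
    (g : GL (Fin n) F) (hg : g ∈ Cfsg.Geo.subalgebraNormalizer K) :
    (g : Matrix (Fin n) (Fin n) F) * κ = κ * (g : Matrix (Fin n) (Fin n) F) ∨
    (g : Matrix (Fin n) (Fin n) F) * κ
      = (t • (1 : Matrix (Fin n) (Fin n) F) - κ) * (g : Matrix (Fin n) (Fin n) F) := by
  have hg' : ∀ k : Matrix (Fin n) (Fin n) F, k ∈ K ↔ (g : Matrix (Fin n) (Fin n) F) * k
      * ((g⁻¹ : GL (Fin n) F) : Matrix (Fin n) (Fin n) F) ∈ K := hg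
  have hgi : (g : Matrix (Fin n) (Fin n) F)
      * ((g⁻¹ : GL (Fin n) F) : Matrix (Fin n) (Fin n) F) = 1 := by
    rw [← Units.val_mul, mul_inv_cancel, Units.val_one]
  have hig : ((g⁻¹ : GL (Fin n) F) : Matrix (Fin n) (Fin n) F)
      * (g : Matrix (Fin n) (Fin n) F) = 1 := by
    rw [← Units.val_mul, inv_mul_cancel, Units.val_one]
  obtain ⟨κ₁, hκ₁⟩ : ∃ κ₁ : Matrix (Fin n) (Fin n) F, κ₁ = (g : Matrix (Fin n) (Fin n) F) * κ
      * ((g⁻¹ : GL (Fin n) F) : Matrix (Fin n) (Fin n) F) := ⟨_, rfl⟩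
  have hκ₁K : κ₁ ∈ K := by
    rw [hκ₁]
    exact (hg' κ).1 hκ
  have hgκ : (g : Matrix (Fin n) (Fin n) F) * κ = κ₁ * (g : Matrix (Fin n) (Fin n) F) := by
    rw [hκ₁, Matrix.mul_assoc, hig, Matrix.mul_one]
  have hκ₁2 : κ₁ * κ₁ = t • κ₁ - d • (1 : Matrix (Fin n) (Fin n) F) := by
    have h1 : κ₁ * κ₁ = (g : Matrix (Fin n) (Fin n) F) * (κ * κ)
        * ((g⁻¹ : GL (Fin n) F) : Matrix (Fin n) (Fin n) F) := by
      rw [hκ₁]
      calc (g : Matrix (Fin n) (Fin n) F) * κ
            * ((g⁻¹ : GL (Fin n) F) : Matrix (Fin n) (Fin n) F)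
            * ((g : Matrix (Fin n) (Fin n) F) * κ
              * ((g⁻¹ : GL (Fin n) F) : Matrix (Fin n) (Fin n) F))
          = (g : Matrix (Fin n) (Fin n) F) * κ
            * (((g⁻¹ : GL (Fin n) F) : Matrix (Fin n) (Fin n) F)
              * (g : Matrix (Fin n) (Fin n) F)) * κ
              * ((g⁻¹ : GL (Fin n) F) : Matrix (Fin n) (Fin n) F) := by
            simp only [Matrix.mul_assoc]
        _ = _ := by
            rw [hig, Matrix.mul_one]
            simp only [Matrix.mul_assoc]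
    rw [h1, hκ2, Matrix.mul_sub, Matrix.sub_mul, Matrix.mul_smul, Matrix.smul_mul,
      Matrix.mul_smul, Matrix.smul_mul, Matrix.mul_one, hgi, ← hκ₁]
  have hcomm := hK.comm κ₁ hκ₁K κ hκ
  have hprod : (κ₁ - κ) * (κ₁ - (t • (1 : Matrix (Fin n) (Fin n) F) - κ)) = 0 := by
    simp only [sub_mul, mul_sub, Matrix.smul_mul, Matrix.mul_smul, Matrix.one_mul,
      Matrix.mul_one, hκ₁2, hκ2, hcomm]
    module
  by_cases h1 : κ₁ - κ = 0
  · left
    rw [hgκ, sub_eq_zero.1 h1]
  · right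
    obtain ⟨y, hyK, hy⟩ := hK.inv _ (K.sub_mem hκ₁K hκ) h1
    have hy' : y * (κ₁ - κ) = 1 := by
      rw [← hK.comm _ (K.sub_mem hκ₁K hκ) y hyK]
      exact hy
    have h3 : κ₁ - (t • (1 : Matrix (Fin n) (Fin n) F) - κ) = 0 := by
      have h4 := congrArg (fun M => y * M) hprod
      simp only [← Matrix.mul_assoc, hy', Matrix.one_mul, Matrix.mul_zero] at h4
      exact h4
    rw [hgκ, sub_eq_zero.1 h3]

/-- the generator has no eigenvector -/
theorem no_eig {n : ℕ} (κ : Matrix (Fin n) (Fin n) F) (t d : F)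
    (hκ2 : κ * κ = t • κ - d • (1 : Matrix (Fin n) (Fin n) F))
    (hroot : ∀ l : F, l * l - t * l + d ≠ 0) (v : Fin n → F) (a : F) (h : κ *ᵥ v = a • v) :
    v = 0 := by
  have h4 : (κ * κ) *ᵥ v = (a * a) • v := by
    rw [← Matrix.mulVec_mulVec, h, Matrix.mulVec_smul, h, smul_smul]
  rw [hκ2, Matrix.sub_mulVec, Matrix.smul_mulVec, Matrix.smul_mulVec, Matrix.one_mulVec, h] at h4
  have h5 : (a * a - t * a + d) • v = 0 := by
    rw [add_smul, sub_smul, ← h4]
    module
  rcases smul_eq_zero.1 h5 with h' | h'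
  · exact absurd h' (hroot a)
  · exact h'

/-- the diagonal element with a one-dimensional eigenspace has no conjugate normalising the field -/
theorem not_norm_diag {n : ℕ} (hn : 3 ≤ n) (K : Subalgebra F (Matrix (Fin n) (Fin n) F))
    (hK : Cfsg.Geo.IsFieldSubalgebra 2 K) (h2 : (2 : F) ≠ 0) (c : F) (hc : c ≠ 0) (i₀ : Fin n)
    (hi₀ : (i₀ : ℕ) = 0) (x : Matrix.SpecialLinearGroup (Fin n) F)
    (hx : (x : Matrix (Fin n) (Fin n) F)
      = c • Matrix.diagonal (fun i : Fin n => if i = i₀ then (1 : F) else -1))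
    (P : Matrix.SpecialLinearGroup (Fin n) F) :
    P⁻¹ * x * P ∉ ((Cfsg.Geo.subalgebraNormalizer K).comap
        (Matrix.SpecialLinearGroup.toGL : Matrix.SpecialLinearGroup (Fin n) F →* GL (Fin n) F)) := by
  classical
  intro hmem
  rw [Subgroup.mem_comap] at hmem
  obtain ⟨κ, t, d, hκK, hκ2, hgen, hroot, hκns⟩ := exists_gen (by omega) K hK
  have hcases := norm_cases K hK κ t d hκK hκ2 _ hmem
  obtain ⟨y, hy⟩ : ∃ y : Matrix (Fin n) (Fin n) F,
      y = ((P⁻¹ * x * P : Matrix.SpecialLinearGroup (Fin n) F) : Matrix (Fin n) (Fin n) F) :=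
    ⟨_, rfl⟩
  have hcoe : ((Matrix.SpecialLinearGroup.toGL (P⁻¹ * x * P) : GL (Fin n) F) :
      Matrix (Fin n) (Fin n) F) = y := by
    rw [hy]
    rfl
  rw [hcoe] at hcases
  obtain ⟨dd, hdd⟩ : ∃ dd : Fin n → F, dd = fun i => if i = i₀ then (1 : F) else -1 := ⟨_, rfl⟩
  rw [← hdd] at hx
  obtain ⟨w, hw⟩ : ∃ w : Fin n → (Fin n → F), w = fun i =>
      ((P⁻¹ : Matrix.SpecialLinearGroup (Fin n) F) : Matrix (Fin n) (Fin n) F) *ᵥ (Pi.single i 1) :=
    ⟨_, rfl⟩
  have hPw : ∀ i, (P : Matrix (Fin n) (Fin n) F) *ᵥ (w i) = Pi.single i 1 := by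
    intro i
    rw [hw]
    show (P : Matrix (Fin n) (Fin n) F) *ᵥ
      (((P⁻¹ : Matrix.SpecialLinearGroup (Fin n) F) : Matrix (Fin n) (Fin n) F) *ᵥ Pi.single i 1) = _
    rw [Matrix.mulVec_mulVec, ← Matrix.SpecialLinearGroup.coe_mul, mul_inv_cancel,
      Matrix.SpecialLinearGroup.coe_one, Matrix.one_mulVec]
  have hPinj : ∀ u v : Fin n → F, (P : Matrix (Fin n) (Fin n) F) *ᵥ u
      = (P : Matrix (Fin n) (Fin n) F) *ᵥ v → u = v := by
    intro u v huv
    have h1 := congrArg (fun z => ((P⁻¹ : Matrix.SpecialLinearGroup (Fin n) F) :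
      Matrix (Fin n) (Fin n) F) *ᵥ z) huv
    simp only [Matrix.mulVec_mulVec, ← Matrix.SpecialLinearGroup.coe_mul, inv_mul_cancel,
      Matrix.SpecialLinearGroup.coe_one, Matrix.one_mulVec] at h1
    exact h1
  have hPy : ∀ v : Fin n → F, (P : Matrix (Fin n) (Fin n) F) *ᵥ (y *ᵥ v)
      = (x : Matrix (Fin n) (Fin n) F) *ᵥ ((P : Matrix (Fin n) (Fin n) F) *ᵥ v) := by
    intro v
    rw [hy, Matrix.SpecialLinearGroup.coe_mul, Matrix.SpecialLinearGroup.coe_mul,
      Matrix.mulVec_mulVec, Matrix.mulVec_mulVec, ← Matrix.mul_assoc, ← Matrix.mul_assoc,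
      ← Matrix.SpecialLinearGroup.coe_mul, mul_inv_cancel, Matrix.SpecialLinearGroup.coe_one,
      Matrix.one_mul]
  have hxv : ∀ (u : Fin n → F) (k : Fin n),
      ((x : Matrix (Fin n) (Fin n) F) *ᵥ u) k = c * dd k * u k := by
    intro u k
    rw [hx, Matrix.smul_mulVec, Pi.smul_apply, Matrix.mulVec_diagonal, smul_eq_mul, mul_assoc]
  have hw0 : ∀ i, w i ≠ 0 := by
    intro i h0
    have h1 := hPw i
    rw [h0, Matrix.mulVec_zero] at h1
    have h2' := congrFun h1 i
    rw [Pi.single_eq_same, Pi.zero_apply] at h2'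
    exact zero_ne_one h2'
  have hdi₀ : dd i₀ = 1 := by
    rw [hdd]
    simp
  have hdne : ∀ i, i ≠ i₀ → dd i = -1 := by
    intro i hi
    rw [hdd]
    simp [hi]
  have hgw : ∀ i, y *ᵥ (w i) = (c * dd i) • w i := by
    intro i
    apply hPinj
    rw [hPy, hPw, Matrix.mulVec_smul, hPw]
    funext k
    rw [hxv, Pi.smul_apply, Pi.single_apply, smul_eq_mul]
    by_cases h : k = i
    · rw [if_pos h, h]
    · rw [if_neg h]
      ring
  have hfix : ∀ v : Fin n → F, y *ᵥ v = c • v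
      → v = ((P : Matrix (Fin n) (Fin n) F) *ᵥ v) i₀ • w i₀ := by
    intro v hv
    have h1 : (x : Matrix (Fin n) (Fin n) F) *ᵥ ((P : Matrix (Fin n) (Fin n) F) *ᵥ v)
        = c • ((P : Matrix (Fin n) (Fin n) F) *ᵥ v) := by
      rw [← hPy, hv, Matrix.mulVec_smul]
    have h3 : ∀ j, j ≠ i₀ → ((P : Matrix (Fin n) (Fin n) F) *ᵥ v) j = 0 := by
      intro j hj
      have h4 := congrFun h1 j
      rw [hxv, hdne j hj, Pi.smul_apply, smul_eq_mul] at h4
      have h5 : (2 * c) * ((P : Matrix (Fin n) (Fin n) F) *ᵥ v) j = 0 := by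
        linear_combination -h4
      exact (mul_eq_zero.1 h5).resolve_left (mul_ne_zero h2 hc)
    apply hPinj
    rw [Matrix.mulVec_smul, hPw]
    funext j
    rw [Pi.smul_apply, Pi.single_apply, smul_eq_mul]
    by_cases hj : j = i₀
    · rw [if_pos hj, hj, mul_one]
    · rw [if_neg hj, mul_zero, h3 j hj]
  rcases hcases with hcomm | hanti
  · have h1 : y *ᵥ (κ *ᵥ w i₀) = c • (κ *ᵥ w i₀) := by
      rw [Matrix.mulVec_mulVec, hcomm, ← Matrix.mulVec_mulVec, hgw, hdi₀, mul_one,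
        Matrix.mulVec_smul]
    exact hw0 i₀ (no_eig κ t d hκ2 hroot _ _ (hfix _ h1))
  · obtain ⟨ι₂, hι⟩ : ∃ ι₂ : F, 2 * ι₂ = 1 := ⟨2⁻¹, mul_inv_cancel₀ h2⟩
    obtain ⟨κ', hκ'⟩ : ∃ κ' : Matrix (Fin n) (Fin n) F,
        κ' = (2 : F) • κ - t • (1 : Matrix (Fin n) (Fin n) F) := ⟨_, rfl⟩
    have hκ'y : y * κ' = -(κ' * y) := by
      rw [hκ', Matrix.mul_sub, Matrix.mul_smul, Matrix.mul_smul, Matrix.mul_one, hanti]
      simp only [Matrix.sub_mul, Matrix.smul_mul, Matrix.one_mul]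
      module
    have hκ'2 : κ' * κ' = (t * t - 4 * d) • (1 : Matrix (Fin n) (Fin n) F) := by
      rw [hκ']
      simp only [sub_mul, mul_sub, Matrix.smul_mul, Matrix.mul_smul, Matrix.one_mul,
        Matrix.mul_one, hκ2]
      module
    have hD : t * t - 4 * d ≠ 0 := by
      intro h
      apply hroot (t * ι₂)
      linear_combination (-(ι₂ * ι₂)) * h + (t * t * ι₂ - d * (2 * ι₂ + 1)) * hι
    have hκ'inj : ∀ v : Fin n → F, κ' *ᵥ v = 0 → v = 0 := by
      intro v hv
      have h1 : (κ' * κ') *ᵥ v = 0 := by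
        rw [← Matrix.mulVec_mulVec, hv, Matrix.mulVec_zero]
      rw [hκ'2, Matrix.smul_mulVec, Matrix.one_mulVec] at h1
      exact (smul_eq_zero.1 h1).resolve_left hD
    have hmove : ∀ i, i ≠ i₀ → κ' *ᵥ w i
        = ((P : Matrix (Fin n) (Fin n) F) *ᵥ (κ' *ᵥ w i)) i₀ • w i₀ := by
      intro i hi
      apply hfix
      rw [Matrix.mulVec_mulVec, hκ'y, Matrix.neg_mulVec, ← Matrix.mulVec_mulVec, hgw, hdne i hi,
        Matrix.mulVec_smul]
      module
    obtain ⟨i₁, hi₁⟩ : ∃ i₁ : Fin n, (i₁ : ℕ) = 1 := ⟨⟨1, by omega⟩, rfl⟩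
    obtain ⟨i₂, hi₂⟩ : ∃ i₂ : Fin n, (i₂ : ℕ) = 2 := ⟨⟨2, by omega⟩, rfl⟩
    have h10 : i₁ ≠ i₀ := by
      intro h
      rw [h] at hi₁
      omega
    have h20 : i₂ ≠ i₀ := by
      intro h
      rw [h] at hi₂
      omega
    have h12 : i₁ ≠ i₂ := by
      intro h
      rw [h] at hi₁
      omega
    obtain ⟨a₁, ha₁⟩ : ∃ a₁ : F, κ' *ᵥ w i₁ = a₁ • w i₀ := ⟨_, hmove i₁ h10⟩
    obtain ⟨a₂, ha₂⟩ : ∃ a₂ : F, κ' *ᵥ w i₂ = a₂ • w i₀ := ⟨_, hmove i₂ h20⟩
    have hv : κ' *ᵥ (a₂ • w i₁ - a₁ • w i₂) = 0 := by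
      rw [Matrix.mulVec_sub, Matrix.mulVec_smul, Matrix.mulVec_smul, ha₁, ha₂, smul_smul,
        smul_smul, mul_comm, sub_self]
    have hz := hκ'inj _ hv
    have h5 : ((P : Matrix (Fin n) (Fin n) F) *ᵥ (a₂ • w i₁ - a₁ • w i₂)) i₂ = -a₁ := by
      rw [Matrix.mulVec_sub, Matrix.mulVec_smul, Matrix.mulVec_smul, hPw, hPw, Pi.sub_apply,
        Pi.smul_apply, Pi.smul_apply, Pi.single_eq_same, Pi.single_eq_of_ne h12.symm,
        smul_eq_mul, smul_eq_mul, mul_zero, mul_one, zero_sub]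
    rw [hz, Matrix.mulVec_zero, Pi.zero_apply] at h5
    have h5' : a₁ = 0 := neg_eq_zero.1 h5.symm
    rw [h5', zero_smul] at ha₁
    exact hw0 i₁ (hκ'inj _ ha₁)

end conv

section conv2

open Matrix

variable {F : Type*} [Field F] [Fintype F]

/-- a transvection has no conjugate normalising the field in characteristic two -/
theorem not_norm_transv [CharP F 2] {n : ℕ} (hn : 3 ≤ n)
    (K : Subalgebra F (Matrix (Fin n) (Fin n) F))
    (hK : Cfsg.Geo.IsFieldSubalgebra 2 K) (i₀ i₁ i₂ : Fin n) (h01 : i₀ ≠ i₁) (h02 : i₀ ≠ i₂)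
    (h12 : i₁ ≠ i₂) (x : Matrix.SpecialLinearGroup (Fin n) F)
    (hx : (x : Matrix (Fin n) (Fin n) F) = Matrix.transvection i₀ i₁ 1)
    (P : Matrix.SpecialLinearGroup (Fin n) F) :
    P⁻¹ * x * P ∉ ((Cfsg.Geo.subalgebraNormalizer K).comap
        (Matrix.SpecialLinearGroup.toGL : Matrix.SpecialLinearGroup (Fin n) F →* GL (Fin n) F)) := by
  classical
  intro hmem
  rw [Subgroup.mem_comap] at hmem
  obtain ⟨κ, t, d, hκK, hκ2, hgen, hroot, hκns⟩ := exists_gen (by omega) K hK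
  have hcases := norm_cases K hK κ t d hκK hκ2 _ hmem
  obtain ⟨y, hy⟩ : ∃ y : Matrix (Fin n) (Fin n) F,
      y = ((P⁻¹ * x * P : Matrix.SpecialLinearGroup (Fin n) F) : Matrix (Fin n) (Fin n) F) :=
    ⟨_, rfl⟩
  have hcoe : ((Matrix.SpecialLinearGroup.toGL (P⁻¹ * x * P) : GL (Fin n) F) :
      Matrix (Fin n) (Fin n) F) = y := by
    rw [hy]
    rfl
  rw [hcoe] at hcases
  obtain ⟨w, hw⟩ : ∃ w : Fin n → (Fin n → F), w = fun i =>
      ((P⁻¹ : Matrix.SpecialLinearGroup (Fin n) F) : Matrix (Fin n) (Fin n) F) *ᵥ (Pi.single i 1) :=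
    ⟨_, rfl⟩
  have hPw : ∀ i, (P : Matrix (Fin n) (Fin n) F) *ᵥ (w i) = Pi.single i 1 := by
    intro i
    rw [hw]
    show (P : Matrix (Fin n) (Fin n) F) *ᵥ
      (((P⁻¹ : Matrix.SpecialLinearGroup (Fin n) F) : Matrix (Fin n) (Fin n) F) *ᵥ Pi.single i 1) = _
    rw [Matrix.mulVec_mulVec, ← Matrix.SpecialLinearGroup.coe_mul, mul_inv_cancel,
      Matrix.SpecialLinearGroup.coe_one, Matrix.one_mulVec]
  have hPinj : ∀ u v : Fin n → F, (P : Matrix (Fin n) (Fin n) F) *ᵥ u
      = (P : Matrix (Fin n) (Fin n) F) *ᵥ v → u = v := by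
    intro u v huv
    have h1 := congrArg (fun z => ((P⁻¹ : Matrix.SpecialLinearGroup (Fin n) F) :
      Matrix (Fin n) (Fin n) F) *ᵥ z) huv
    simp only [Matrix.mulVec_mulVec, ← Matrix.SpecialLinearGroup.coe_mul, inv_mul_cancel,
      Matrix.SpecialLinearGroup.coe_one, Matrix.one_mulVec] at h1
    exact h1
  have hPy : ∀ v : Fin n → F, (P : Matrix (Fin n) (Fin n) F) *ᵥ (y *ᵥ v)
      = (x : Matrix (Fin n) (Fin n) F) *ᵥ ((P : Matrix (Fin n) (Fin n) F) *ᵥ v) := by
    intro v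
    rw [hy, Matrix.SpecialLinearGroup.coe_mul, Matrix.SpecialLinearGroup.coe_mul,
      Matrix.mulVec_mulVec, Matrix.mulVec_mulVec, ← Matrix.mul_assoc, ← Matrix.mul_assoc,
      ← Matrix.SpecialLinearGroup.coe_mul, mul_inv_cancel, Matrix.SpecialLinearGroup.coe_one,
      Matrix.one_mul]
  have hxv : ∀ u : Fin n → F, (x : Matrix (Fin n) (Fin n) F) *ᵥ u
      = u + u i₁ • (Pi.single i₀ 1 : Fin n → F) := by
    intro u
    rw [hx, Matrix.transvection, Matrix.add_mulVec, Matrix.one_mulVec, Matrix.single_mulVec_eq,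
      one_mul]
  have hw0 : ∀ i, w i ≠ 0 := by
    intro i h0
    have h1 := hPw i
    rw [h0, Matrix.mulVec_zero] at h1
    have h2' := congrFun h1 i
    rw [Pi.single_eq_same, Pi.zero_apply] at h2'
    exact zero_ne_one h2'
  have hyv : ∀ v : Fin n → F, y *ᵥ v
      = v + ((P : Matrix (Fin n) (Fin n) F) *ᵥ v) i₁ • w i₀ := by
    intro v
    apply hPinj
    rw [hPy, hxv, Matrix.mulVec_add, Matrix.mulVec_smul, hPw]
  rcases hcases with hcomm | hanti
  · have h1 : y *ᵥ w i₁ = w i₁ + w i₀ := by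
      rw [hyv, hPw, Pi.single_eq_same, one_smul]
    have h3 : y *ᵥ (κ *ᵥ w i₁) = κ *ᵥ w i₁ + κ *ᵥ w i₀ := by
      rw [Matrix.mulVec_mulVec, hcomm, ← Matrix.mulVec_mulVec, h1, Matrix.mulVec_add]
    have h4 : κ *ᵥ w i₀ = ((P : Matrix (Fin n) (Fin n) F) *ᵥ (κ *ᵥ w i₁)) i₁ • w i₀ := by
      have h5 := hyv (κ *ᵥ w i₁)
      rw [h3] at h5
      exact add_left_cancel h5
    exact hw0 i₀ (no_eig κ t d hκ2 hroot _ _ h4)
  · have ht0 : t ≠ 0 := by
      rintro rfl
      obtain ⟨l, hl⟩ := Cfsg.Agent.S5964.exists_sqrt (-d)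
      apply hroot l
      have h1 : l * l = -d := by
        rw [← sq]
        exact hl
      rw [h1]
      ring
    have h1 : y *ᵥ w i₂ = w i₂ := by
      rw [hyv, hPw, Pi.single_apply, if_neg h12, zero_smul, add_zero]
    have h3 : y *ᵥ (κ *ᵥ w i₂) = t • w i₂ - κ *ᵥ w i₂ := by
      rw [Matrix.mulVec_mulVec, hanti, ← Matrix.mulVec_mulVec, h1, Matrix.sub_mulVec,
        Matrix.smul_mulVec, Matrix.one_mulVec]
    obtain ⟨a, ha⟩ : ∃ a : F, y *ᵥ (κ *ᵥ w i₂) = κ *ᵥ w i₂ + a • w i₀ := ⟨_, hyv _⟩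
    have h6 : κ *ᵥ w i₂ + κ *ᵥ w i₂ = 0 := by
      rw [← two_smul F, CharTwo.two_eq_zero, zero_smul]
    have h4 : a • w i₀ = t • w i₂ := by
      have h5 : κ *ᵥ w i₂ + a • w i₀ = t • w i₂ - κ *ᵥ w i₂ := ha.symm.trans h3
      calc a • w i₀ = (κ *ᵥ w i₂ + a • w i₀) - κ *ᵥ w i₂ := by abel
        _ = t • w i₂ - κ *ᵥ w i₂ - κ *ᵥ w i₂ := by rw [h5]
        _ = t • w i₂ - (κ *ᵥ w i₂ + κ *ᵥ w i₂) := by abel
        _ = t • w i₂ := by rw [h6, sub_zero]
    have h7 : ((P : Matrix (Fin n) (Fin n) F) *ᵥ (a • w i₀)) i₂ = 0 := by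
      rw [Matrix.mulVec_smul, hPw, Pi.smul_apply, Pi.single_eq_of_ne h02.symm, smul_eq_mul,
        mul_zero]
    rw [h4, Matrix.mulVec_smul, hPw, Pi.smul_apply, Pi.single_eq_same, smul_eq_mul, mul_one] at h7
    exact ht0 h7

end conv2

/-- Involutions of PSL_n(q) and extension-field subgroups of degree 2. Here `T = PSL_n(F)` for a field `F` with `q = p^f` elements (`n ≥ 2`, `(n, q) ≠ (2, 2), (2, 3)`), `k` is a prime dividing `n`, `K` is a subalgebra of the `n × n` matrices that is a field of degree `k` over `F` (an extension-field structure F_{q^k} on `F^n`), and `H` is the subgroup of matrices of determinant 1 normalizing `K` — a subgroup of type GL_{n/k}(q^k) (maximal except in some small cases; maximality is not assumed); Ω is the set of cosets of `H` in `T`, so an element of `T` of prime order `r` (a matrix `x` of determinant 1 with `x^r` scalar, `x` not scalar) fixes a point of Ω when some conjugate of `x` by a matrix of determinant 1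 normalizes `K`. Take `k = 2` and suppose the index of `H` is even. Then every involution of `T` is conjugate in `T` into `H` if and only if `n = 2`, or `q` is odd and `(q − 1)_2 ≤ (n)_2`. -/
theorem result {F : Type*} [Field F] [Fintype F] {p : ℕ} [Fact p.Prime] [CharP F p] {q : ℕ} (hq : Fintype.card F = q)
    (n : ℕ) (hn : 2 ≤ n) (hT : (n, q) ≠ (2, 2) ∧ (n, q) ≠ (2, 3))
    (k : ℕ) (hk : k.Prime) (hkn : k ∣ n) (K : Subalgebra F (Matrix (Fin n) (Fin n) F)) (hK : Cfsg.Geo.IsFieldSubalgebra k K) (hk2 : k = 2) (hΩ : 2 ∣ ((Cfsg.Geo.subalgebraNormalizer K).comap (Matrix.SpecialLinearGroup.toGL : Matrix.SpecialLinearGroup (Fin n) F →* GL (Fin n) F)).index) :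
    (∀ x : Matrix.SpecialLinearGroup (Fin n) F,
      (∃ z : F, ((x ^ 2 : Matrix.SpecialLinearGroup (Fin n) F) : Matrix (Fin n) (Fin n) F) = z • (1 : Matrix (Fin n) (Fin n) F)) →
      (∀ z : F, (x : Matrix (Fin n) (Fin n) F) ≠ z • (1 : Matrix (Fin n) (Fin n) F)) →
      ∃ P : Matrix.SpecialLinearGroup (Fin n) F, P⁻¹ * x * P ∈ ((Cfsg.Geo.subalgebraNormalizer K).comap (Matrix.SpecialLinearGroup.toGL : Matrix.SpecialLinearGroup (Fin n) F →* GL (Fin n) F))) ↔
    (n = 2 ∨ (Odd q ∧ padicValNat 2 (q - 1) ≤ padicValNat 2 n)) := by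
  classical
  subst hk2
  have hne : Even n := even_iff_two_dvd.2 hkn
  have hn1 : 1 ≤ n := by omega
  have hn0 : n ≠ 0 := by omega
  rcases Nat.even_or_odd q with hqe | hqo
  · have hp2 : p = 2 := by
      obtain ⟨f', hp, hf'⟩ := FiniteField.card F p
      rw [hq] at hf'
      rw [hf', Nat.even_pow] at hqe
      exact (Nat.Prime.even_iff hp).1 hqe.1
    subst hp2
    constructor
    · intro hall
      left
      by_contra hn2
      have hn4 : 4 ≤ n := by
        obtain ⟨r, hr⟩ := hne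
        omega
      obtain ⟨i₀, hi₀⟩ : ∃ i₀ : Fin n, (i₀ : ℕ) = 0 := ⟨⟨0, by omega⟩, rfl⟩
      obtain ⟨i₁, hi₁⟩ : ∃ i₁ : Fin n, (i₁ : ℕ) = 1 := ⟨⟨1, by omega⟩, rfl⟩
      obtain ⟨i₂, hi₂⟩ : ∃ i₂ : Fin n, (i₂ : ℕ) = 2 := ⟨⟨2, by omega⟩, rfl⟩
      have h01 : i₀ ≠ i₁ := by
        intro h
        rw [h] at hi₀
        omega
      have h02 : i₀ ≠ i₂ := by
        intro h
        rw [h] at hi₀
        omega
      have h12 : i₁ ≠ i₂ := by
        intro h
        rw [h] at hi₁
        omega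
      obtain ⟨x, hx⟩ : ∃ x : Matrix.SpecialLinearGroup (Fin n) F,
          (x : Matrix (Fin n) (Fin n) F) = Matrix.transvection i₀ i₁ 1 :=
        ⟨⟨Matrix.transvection i₀ i₁ 1, Matrix.det_transvection_of_ne i₀ i₁ h01 1⟩, rfl⟩
      have hx2 : ∃ z : F, ((x ^ 2 : Matrix.SpecialLinearGroup (Fin n) F) :
          Matrix (Fin n) (Fin n) F) = z • (1 : Matrix (Fin n) (Fin n) F) := by
        refine ⟨1, ?_⟩
        rw [sq, Matrix.SpecialLinearGroup.coe_mul, hx,
          Matrix.transvection_mul_transvection_same i₀ i₁ h01, CharTwo.add_self_eq_zero,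
          Matrix.transvection_zero, one_smul]
      have hns : ∀ z : F, (x : Matrix (Fin n) (Fin n) F)
          ≠ z • (1 : Matrix (Fin n) (Fin n) F) := by
        intro z hz
        rw [hx] at hz
        have h1 := congrFun (congrFun hz i₀) i₁
        rw [Matrix.transvection, Matrix.add_apply, Matrix.one_apply_ne h01,
          Matrix.single_apply_same, Matrix.smul_apply, Matrix.one_apply_ne h01, smul_zero,
          zero_add] at h1
        exact one_ne_zero h1
      obtain ⟨P, hP⟩ := hall x hx2 hns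
      exact not_norm_transv (by omega) K hK i₀ i₁ i₂ h01 h02 h12 x hx P hP
    · intro hor x hx2 hns
      rcases hor with hn2 | ⟨hodd, _⟩
      · exact caseC hn2 K hK x hx2 hns
      · exact absurd hqe (Nat.not_even_iff_odd.2 hodd)
  · have hqodd : q % 2 = 1 := Nat.odd_iff.1 hqo
    have hchar := Cfsg.Agent.S5964.char_ne_two q hq hqodd
    have h2 : (2 : F) ≠ 0 := Ring.two_ne_zero hchar
    constructor
    · intro hall
      by_contra hcon
      have hn2 : n ≠ 2 := fun h => hcon (Or.inl h)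
      have hval : padicValNat 2 n < padicValNat 2 (q - 1) := by
        by_contra h
        exact hcon (Or.inr ⟨hqo, not_lt.1 h⟩)
      have hn4 : 4 ≤ n := by
        obtain ⟨r, hr⟩ := hne
        omega
      obtain ⟨c, hc⟩ := Cfsg.Agent.S5967.exists_root (F := F) q hq hqodd hn0 hval
      have hc0 : c ≠ 0 := by
        rintro rfl
        rw [zero_pow hn0] at hc
        exact one_ne_zero (by linear_combination hc)
      obtain ⟨i₀, hi₀⟩ : ∃ i₀ : Fin n, (i₀ : ℕ) = 0 := ⟨⟨0, by omega⟩, rfl⟩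
      obtain ⟨x, hx⟩ := Cfsg.Agent.S5967.bad_diag hne i₀ c hc
      have hx2 : ∃ z : F, ((x ^ 2 : Matrix.SpecialLinearGroup (Fin n) F) :
          Matrix (Fin n) (Fin n) F) = z • (1 : Matrix (Fin n) (Fin n) F) := by
        refine ⟨c * c, ?_⟩
        rw [sq, Matrix.SpecialLinearGroup.coe_mul, hx, Matrix.smul_mul, Matrix.mul_smul, smul_smul,
          Matrix.diagonal_mul_diagonal]
        congr 1
        rw [← Matrix.diagonal_one]
        congr 1
        funext i
        by_cases h : i = i₀ <;> simp [h]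
      have hns : ∀ z : F, (x : Matrix (Fin n) (Fin n) F)
          ≠ z • (1 : Matrix (Fin n) (Fin n) F) := by
        intro z hz
        rw [hx] at hz
        obtain ⟨i₁, hi₁⟩ : ∃ i₁ : Fin n, (i₁ : ℕ) = 1 := ⟨⟨1, by omega⟩, rfl⟩
        have h10 : i₁ ≠ i₀ := by
          intro h
          rw [h] at hi₁
          omega
        have h1 := congrFun (congrFun hz i₀) i₀
        have h3 := congrFun (congrFun hz i₁) i₁
        rw [Matrix.smul_apply, Matrix.smul_apply, Matrix.diagonal_apply_eq, Matrix.one_apply_eq,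
          smul_eq_mul, smul_eq_mul, mul_one, if_pos rfl, mul_one] at h1
        rw [Matrix.smul_apply, Matrix.smul_apply, Matrix.diagonal_apply_eq, Matrix.one_apply_eq,
          smul_eq_mul, smul_eq_mul, mul_one, if_neg h10] at h3
        apply hc0
        have h4 : (2 : F) * c = 0 := by linear_combination h1 - h3
        exact (mul_eq_zero.1 h4).resolve_left h2
      obtain ⟨P, hP⟩ := hall x hx2 hns
      exact not_norm_diag (by omega) K hK h2 c hc0 i₀ hi₀ x hx P hP
    · intro hor x hx2 _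
      obtain ⟨z, hz⟩ := hx2
      have hxx : (x : Matrix (Fin n) (Fin n) F) * (x : Matrix (Fin n) (Fin n) F)
          = z • (1 : Matrix (Fin n) (Fin n) F) := by
        rw [← hz, sq, Matrix.SpecialLinearGroup.coe_mul]
      by_cases hzsq : IsSquare z
      · obtain ⟨c, hc⟩ := hzsq
        rw [hc] at hxx
        have hc0 : c ≠ 0 := by
          rintro rfl
          have h3 := congrArg Matrix.det hxx
          rw [Matrix.det_mul, Matrix.SpecialLinearGroup.det_coe, mul_zero, zero_smul] at h3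
          haveI : Nonempty (Fin n) := ⟨⟨0, by omega⟩⟩
          rw [Matrix.det_zero] at h3
          rw [mul_one] at h3
          exact one_ne_zero h3
        refine caseA hn1 hne K hK h2 x c hc0 hxx ?_
        rcases hor with hn2 | ⟨_, hval⟩
        · exact Or.inl hn2
        · exact Or.inr (fun c' => Cfsg.Agent.S5967.no_root q hq hqodd hn0 hval c')
      · exact caseB hn1 K hK q hq hqodd x z hzsq hxx

end Cfsg.Agent.S5969
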