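import Mathlib
import Cfsg.Agent.S5969
import Cfsg.Statements.S5971

set_option autoImplicit false
open scoped MatrixGroups
open Cfsg

namespace Cfsg.Agent.S5971

section basic

open Matrix

variable {F : Type*} [Field F]

/-- a member of a field subalgebra killing a nonzero vector is zero -/
theorem mulVec_zero_K {n r : ℕ} (K : Subalgebra F (Matrix (Fin n) (Fin n) F))
    (hK : Cfsg.Geo.IsFieldSubalgebra r K) (κ : Matrix (Fin n) (Fin n) F) (hκ : κ ∈ K)
    (v : Fin n → F) (hv : v ≠ 0) (h : κ *ᵥ v = 0) : κ = 0 := by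
  by_contra h0
  obtain ⟨y, hyK, hy⟩ := hK.inv κ hκ h0
  have hy' : y * κ = 1 := by
    rw [← hK.comm κ hκ y hyK]
    exact hy
  apply hv
  have h1 : (y * κ) *ᵥ v = 0 := by
    rw [← Matrix.mulVec_mulVec, h, Matrix.mulVec_zero]
  rwa [hy', Matrix.one_mulVec] at h1

/-- evaluation at a nonzero vector identifies a field subalgebra of full degree with the space -/
theorem exists_ev {n : ℕ} (hn : 1 ≤ n) (K : Subalgebra F (Matrix (Fin n) (Fin n) F))
    (hK : Cfsg.Geo.IsFieldSubalgebra n K) (v₁ : Fin n → F) (hv₁ : v₁ ≠ 0) :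
    ∃ E : ↥K ≃ₗ[F] (Fin n → F), ∀ κ : ↥K, E κ = (κ : Matrix (Fin n) (Fin n) F) *ᵥ v₁ := by
  haveI : Module.Finite F ↥K := Module.finite_of_finrank_pos (by rw [hK.finrank_eq]; omega)
  obtain ⟨L, hL⟩ : ∃ L : ↥K →ₗ[F] (Fin n → F),
      ∀ κ : ↥K, L κ = (κ : Matrix (Fin n) (Fin n) F) *ᵥ v₁ :=
    ⟨{ toFun := fun κ => (κ : Matrix (Fin n) (Fin n) F) *ᵥ v₁
       map_add' := fun a b => Matrix.add_mulVec _ _ _
       map_smul' := fun c a => Matrix.smul_mulVec _ _ _ }, fun _ => rfl⟩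
  have hinj : Function.Injective L := by
    rw [← LinearMap.ker_eq_bot, LinearMap.ker_eq_bot']
    intro κ hκ
    rw [hL] at hκ
    exact Subtype.ext (mulVec_zero_K K hK κ.1 κ.2 v₁ hv₁ hκ)
  have hsurj : Function.Surjective L := by
    apply (LinearMap.injective_iff_surjective_of_finrank_eq_finrank _).1 hinj
    rw [hK.finrank_eq, Module.finrank_fin_fun]
  exact ⟨LinearEquiv.ofBijective L ⟨hinj, hsurj⟩, fun κ => hL κ⟩

theorem exists_K {n : ℕ} (hn : 1 ≤ n) (K : Subalgebra F (Matrix (Fin n) (Fin n) F))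
    (hK : Cfsg.Geo.IsFieldSubalgebra n K) (v₁ : Fin n → F) (hv₁ : v₁ ≠ 0) (v : Fin n → F) :
    ∃ κ ∈ K, κ *ᵥ v₁ = v := by
  obtain ⟨E, hE⟩ := exists_ev hn K hK v₁ hv₁
  obtain ⟨κ, hκ⟩ := E.surjective v
  exact ⟨κ.1, κ.2, by rw [← hE]; exact hκ⟩

/-- a nonscalar matrix and the identity are independent -/
theorem nonscal_coeff {n : ℕ} (hn : 1 ≤ n) (M : Matrix (Fin n) (Fin n) F)
    (hns : ∀ a : F, M ≠ a • (1 : Matrix (Fin n) (Fin n) F)) (u w : F)
    (h : u • M + w • (1 : Matrix (Fin n) (Fin n) F) = 0) : u = 0 ∧ w = 0 := by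
  haveI : Nonempty (Fin n) := ⟨⟨0, hn⟩⟩
  have hu : u = 0 := by
    by_contra hu
    apply hns (-(w / u))
    have h3 : u • M = -(w • (1 : Matrix (Fin n) (Fin n) F)) := eq_neg_of_add_eq_zero_left h
    have h4 := congrArg (fun X => u⁻¹ • X) h3
    simp only [smul_smul, inv_mul_cancel₀ hu, one_smul, smul_neg] at h4
    rw [h4, neg_smul, div_eq_inv_mul]
  refine ⟨hu, ?_⟩
  rw [hu, zero_smul, zero_add] at h
  exact (smul_eq_zero.1 h).resolve_right one_ne_zero

/-- coefficients of the characteristic polynomial of a three by three matrix -/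
theorem cp_coeffs (M : Matrix (Fin 3) (Fin 3) F) :
    ∃ c₀ c₁ c₂ : F, M.charpoly = Polynomial.X ^ 3 + Polynomial.C c₂ * Polynomial.X ^ 2
        + Polynomial.C c₁ * Polynomial.X + Polynomial.C c₀ ∧
      M ^ 3 + c₂ • M ^ 2 + c₁ • M + c₀ • (1 : Matrix (Fin 3) (Fin 3) F) = 0 ∧ M.det = -c₀ := by
  have hdeg : M.charpoly.natDegree = 3 := by
    rw [Matrix.charpoly_natDegree_eq_dim, Fintype.card_fin]
  have hmonic := Matrix.charpoly_monic M
  have hlead : M.charpoly.coeff 3 = 1 := by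
    have h := hmonic.coeff_natDegree
    rwa [hdeg] at h
  refine ⟨M.charpoly.coeff 0, M.charpoly.coeff 1, M.charpoly.coeff 2, ?_, ?_, ?_⟩
  · have h := Polynomial.as_sum_range_C_mul_X_pow M.charpoly
    rw [hdeg] at h
    calc M.charpoly = ∑ i ∈ Finset.range (3 + 1), Polynomial.C (M.charpoly.coeff i)
          * Polynomial.X ^ i := h
      _ = _ := by
        simp only [Finset.sum_range_succ, Finset.range_zero, Finset.sum_empty, hlead, pow_zero,
          pow_one, mul_one, Polynomial.C_1, one_mul, zero_add]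
        ring
  · have hch := Matrix.aeval_self_charpoly M
    rw [Polynomial.aeval_eq_sum_range, hdeg] at hch
    simp only [Finset.sum_range_succ, Finset.range_zero, Finset.sum_empty, hlead, pow_zero,
      pow_one, one_smul, zero_add] at hch
    rw [← hch]
    abel
  · have h := Matrix.det_eq_sign_charpoly_coeff M
    rw [Fintype.card_fin] at h
    rw [h]
    ring

/-- a cube root of the identity with no quadratic relation has characteristic polynomial `X^3-1` -/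
theorem cp_of_norel (M : Matrix (Fin 3) (Fin 3) F) (h3 : M ^ 3 = 1)
    (hrel : ∀ a b c : F, a • M ^ 2 + b • M + c • (1 : Matrix (Fin 3) (Fin 3) F) = 0
      → a = 0 ∧ b = 0 ∧ c = 0) :
    M.charpoly = Polynomial.X ^ 3 - Polynomial.C 1 := by
  obtain ⟨c₀, c₁, c₂, hcp, hch, hdet⟩ := cp_coeffs M
  rw [h3] at hch
  have h4 : c₂ • M ^ 2 + c₁ • M + (c₀ + 1) • (1 : Matrix (Fin 3) (Fin 3) F) = 0 := by
    rw [← hch, add_smul, one_smul]
    abel
  obtain ⟨h2, h1, h0⟩ := hrel c₂ c₁ (c₀ + 1) h4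
  have h0' : c₀ = -1 := by linear_combination h0
  rw [hcp, h2, h1, h0', Polynomial.C_0, zero_mul, zero_mul, add_zero, add_zero, Polynomial.C_neg,
    ← sub_eq_add_neg]

/-- classification of the elements of order three of determinant one -/
theorem cp_of_sl (M : Matrix (Fin 3) (Fin 3) F) (hdet : M.det = 1) (z : F)
    (h3 : M ^ 3 = z • (1 : Matrix (Fin 3) (Fin 3) F))
    (hns : ∀ a : F, M ≠ a • (1 : Matrix (Fin 3) (Fin 3) F))
    (hcube : ∀ e : F, e ^ 9 = 1 → e ^ 3 = 1) :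
    z = 1 ∧ M.charpoly = Polynomial.X ^ 3 - Polynomial.C 1 := by
  obtain ⟨c₀, c₁, c₂, hcp, hch, hdet'⟩ := cp_coeffs M
  have hc₀ : c₀ = -1 := by linear_combination hdet' - hdet
  have hz3 : z ^ 3 = 1 := by
    have h := congrArg Matrix.det h3
    rw [Matrix.det_pow, hdet, one_pow, Matrix.det_smul, Matrix.det_one, Fintype.card_fin,
      mul_one] at h
    exact h.symm
  rw [h3, hc₀] at hch
  have hrel : c₂ • (M * M) + c₁ • M + (z - 1) • (1 : Matrix (Fin 3) (Fin 3) F) = 0 := by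
    rw [← hch, pow_two]
    module
  by_cases hc2 : c₂ = 0
  · rw [hc2, zero_smul, zero_add] at hrel
    obtain ⟨h1, h0⟩ := nonscal_coeff (by norm_num) M hns c₁ (z - 1) hrel
    have hz : z = 1 := by linear_combination h0
    refine ⟨hz, ?_⟩
    rw [hcp, hc2, h1, hc₀, Polynomial.C_0, zero_mul, zero_mul, add_zero, add_zero,
      Polynomial.C_neg, ← sub_eq_add_neg]
  · exfalso
    obtain ⟨ι, hι⟩ : ∃ ι : F, c₂ * ι = 1 := ⟨c₂⁻¹, mul_inv_cancel₀ hc2⟩
    obtain ⟨s, hs⟩ : ∃ s : F, s = -(c₁ * ι) := ⟨_, rfl⟩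
    obtain ⟨t, ht⟩ : ∃ t : F, t = -((z - 1) * ι) := ⟨_, rfl⟩
    have hMM : M * M = s • M + t • (1 : Matrix (Fin 3) (Fin 3) F) := by
      have h4 := congrArg (fun X => ι • X) hrel
      simp only [smul_add, smul_smul, smul_zero] at h4
      rw [mul_comm ι c₂, hι, one_smul] at h4
      have h5 : M * M = -((ι * c₁) • M) - (ι * (z - 1)) • (1 : Matrix (Fin 3) (Fin 3) F) := by
        rw [← sub_eq_zero, ← h4]
        abel
      rw [h5, hs, ht]
      module
    have hM3 : M ^ 3 = (s * s + t) • M + (s * t) • (1 : Matrix (Fin 3) (Fin 3) F) := by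
      rw [pow_succ, pow_two, hMM, Matrix.add_mul, Matrix.smul_mul, Matrix.smul_mul,
        Matrix.one_mul, hMM]
      module
    rw [h3] at hM3
    have h6 : (s * s + t) • M + (s * t - z) • (1 : Matrix (Fin 3) (Fin 3) F) = 0 := by
      rw [sub_smul, hM3]
      abel
    obtain ⟨h1, h0⟩ := nonscal_coeff (by norm_num) M hns (s * s + t) (s * t - z) h6
    have hz : z = (-s) ^ 3 := by linear_combination s * h1 - h0
    have he9 : (-s) ^ 9 = 1 := by
      have h7 : (-s) ^ 9 = ((-s) ^ 3) ^ 3 := by ring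
      rw [h7, ← hz, hz3]
    have he3 := hcube _ he9
    have hz1 : z = 1 := by rw [hz, he3]
    have ht0 : t = 0 := by
      rw [ht, hz1]
      ring
    rw [ht0, hz1] at h0
    exact one_ne_zero (by linear_combination -h0)

end basic

section struct

open Matrix

variable {F : Type*} [Field F]

/-- a nonscalar member of a cubic field subalgebra satisfies no quadratic equation -/
theorem no_quad {r : ℕ} (K : Subalgebra F (Matrix (Fin 3) (Fin 3) F))
    (hK : Cfsg.Geo.IsFieldSubalgebra r K) (κ : Matrix (Fin 3) (Fin 3) F) (hκ : κ ∈ K)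
    (hns : ∀ a : F, κ ≠ a • (1 : Matrix (Fin 3) (Fin 3) F)) (s t : F)
    (h : κ * κ = s • κ + t • (1 : Matrix (Fin 3) (Fin 3) F)) : False := by
  classical
  obtain ⟨c₀, c₁, c₂, hcp, hch, -⟩ := cp_coeffs κ
  have hM3 : κ ^ 3 = (s * s + t) • κ + (s * t) • (1 : Matrix (Fin 3) (Fin 3) F) := by
    rw [pow_succ, pow_two, h, Matrix.add_mul, Matrix.smul_mul, Matrix.smul_mul, Matrix.one_mul, h]
    module
  rw [hM3, pow_two, h] at hch
  have h6 : (s * s + t + c₂ * s + c₁) • κ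
      + (s * t + c₂ * t + c₀) • (1 : Matrix (Fin 3) (Fin 3) F) = 0 := by
    rw [← hch]
    module
  obtain ⟨hu, hw⟩ := nonscal_coeff (by norm_num) κ hns _ _ h6
  obtain ⟨e, he⟩ : ∃ e : F, e = -(s + c₂) := ⟨_, rfl⟩
  have hroot : κ.charpoly.eval e = 0 := by
    rw [hcp]
    simp only [Polynomial.eval_add, Polynomial.eval_mul, Polynomial.eval_C, Polynomial.eval_pow,
      Polynomial.eval_X]
    rw [he]
    linear_combination (-(s + c₂)) * hu + hw
  rw [Matrix.eval_charpoly] at hroot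
  obtain ⟨v, hv, hv0⟩ := Matrix.exists_mulVec_eq_zero_iff.2 hroot
  have hsc : Matrix.scalar (Fin 3) e = e • (1 : Matrix (Fin 3) (Fin 3) F) := by
    ext i j
    rw [Matrix.scalar_apply, Matrix.diagonal_apply, Matrix.smul_apply, Matrix.one_apply]
    split_ifs <;> simp
  rw [hsc] at hv0
  have h7 : (κ - e • (1 : Matrix (Fin 3) (Fin 3) F)) *ᵥ v = 0 := by
    rw [Matrix.sub_mulVec]
    rw [Matrix.sub_mulVec] at hv0
    rw [sub_eq_zero] at hv0 ⊢
    exact hv0.symm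
  have h8 := mulVec_zero_K K hK _ (K.sub_mem hκ (K.smul_mem K.one_mem e)) v hv h7
  exact hns e (sub_eq_zero.1 h8)

/-- a nonscalar member generates a cubic field subalgebra -/
theorem gen3 (K : Subalgebra F (Matrix (Fin 3) (Fin 3) F))
    (hK : Cfsg.Geo.IsFieldSubalgebra 3 K) (κ : Matrix (Fin 3) (Fin 3) F) (hκ : κ ∈ K)
    (hns : ∀ a : F, κ ≠ a • (1 : Matrix (Fin 3) (Fin 3) F)) :
    ∀ k ∈ K, ∃ a b c : F, k = a • (1 : Matrix (Fin 3) (Fin 3) F) + b • κ + c • (κ * κ) := by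
  have hli : LinearIndependent F ![(1 : ↥K), (⟨κ, hκ⟩ : ↥K),
      (⟨κ * κ, K.mul_mem hκ hκ⟩ : ↥K)] := by
    rw [Fintype.linearIndependent_iff]
    intro g hg
    rw [Fin.sum_univ_three] at hg
    have h1 := congrArg Subtype.val hg
    have h2 : g 0 • (1 : Matrix (Fin 3) (Fin 3) F) + g 1 • κ + g 2 • (κ * κ) = 0 := h1
    have hg2 : g 2 = 0 := by
      by_contra hne
      apply no_quad K hK κ hκ hns (-(g 1 / g 2)) (-(g 0 / g 2))
      have h3 : g 2 • (κ * κ) = -(g 0 • (1 : Matrix (Fin 3) (Fin 3) F) + g 1 • κ) :=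
        eq_neg_of_add_eq_zero_right h2
      have h4 := congrArg (fun X => (g 2)⁻¹ • X) h3
      simp only [smul_smul, inv_mul_cancel₀ hne, one_smul, smul_neg, smul_add] at h4
      rw [h4, neg_smul, neg_smul, div_eq_inv_mul, div_eq_inv_mul]
      abel
    rw [hg2, zero_smul, add_zero] at h2
    obtain ⟨hg1, hg0⟩ := nonscal_coeff (by norm_num) κ hns (g 1) (g 0) (by rw [← h2]; abel)
    intro i
    fin_cases i
    · exact hg0
    · exact hg1
    · exact hg2
  obtain ⟨b₃, hb₃⟩ : ∃ b₃ : Module.Basis (Fin 3) F ↥K, ⇑b₃ = ![(1 : ↥K), (⟨κ, hκ⟩ : ↥K),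
      (⟨κ * κ, K.mul_mem hκ hκ⟩ : ↥K)] :=
    ⟨basisOfLinearIndependentOfCardEqFinrank hli (by rw [Fintype.card_fin, hK.finrank_eq]),
      coe_basisOfLinearIndependentOfCardEqFinrank _ _⟩
  intro k hk
  have h1 := b₃.sum_repr ⟨k, hk⟩
  rw [Fin.sum_univ_three, hb₃] at h1
  refine ⟨b₃.repr ⟨k, hk⟩ 0, b₃.repr ⟨k, hk⟩ 1, b₃.repr ⟨k, hk⟩ 2, ?_⟩
  have h2 := congrArg Subtype.val h1
  exact h2.symm

/-- an element of the normaliser with a two-dimensional eigenspace is scalar -/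
theorem eig_scalar (K : Subalgebra F (Matrix (Fin 3) (Fin 3) F))
    (hK : Cfsg.Geo.IsFieldSubalgebra 3 K) (g : GL (Fin 3) F)
    (hg : g ∈ Cfsg.Geo.subalgebraNormalizer K) (α : F) (v₁ v₂ : Fin 3 → F)
    (h1 : (g : Matrix (Fin 3) (Fin 3) F) *ᵥ v₁ = α • v₁)
    (h2 : (g : Matrix (Fin 3) (Fin 3) F) *ᵥ v₂ = α • v₂)
    (hv₁ : v₁ ≠ 0) (hind : ∀ a : F, v₂ ≠ a • v₁) :
    (g : Matrix (Fin 3) (Fin 3) F) = α • (1 : Matrix (Fin 3) (Fin 3) F) := by
  have hg' : ∀ k : Matrix (Fin 3) (Fin 3) F, k ∈ K ↔ (g : Matrix (Fin 3) (Fin 3) F) * k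
      * ((g⁻¹ : GL (Fin 3) F) : Matrix (Fin 3) (Fin 3) F) ∈ K := hg
  have hig : ((g⁻¹ : GL (Fin 3) F) : Matrix (Fin 3) (Fin 3) F)
      * (g : Matrix (Fin 3) (Fin 3) F) = 1 := by
    rw [← Units.val_mul, inv_mul_cancel, Units.val_one]
  have hα : α ≠ 0 := by
    rintro rfl
    rw [zero_smul] at h1
    apply hv₁
    have h3 : (((g⁻¹ : GL (Fin 3) F) : Matrix (Fin 3) (Fin 3) F)
        * (g : Matrix (Fin 3) (Fin 3) F)) *ᵥ v₁ = 0 := by
      rw [← Matrix.mulVec_mulVec, h1, Matrix.mulVec_zero]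
    rwa [hig, Matrix.one_mulVec] at h3
  obtain ⟨κ, hκ, hκv⟩ := exists_K (by norm_num) K hK v₁ hv₁ v₂
  have hκns : ∀ a : F, κ ≠ a • (1 : Matrix (Fin 3) (Fin 3) F) := by
    intro a ha
    apply hind a
    rw [← hκv, ha, Matrix.smul_mulVec, Matrix.one_mulVec]
  obtain ⟨κ₁, hκ₁⟩ : ∃ κ₁ : Matrix (Fin 3) (Fin 3) F, κ₁ = (g : Matrix (Fin 3) (Fin 3) F) * κ
      * ((g⁻¹ : GL (Fin 3) F) : Matrix (Fin 3) (Fin 3) F) := ⟨_, rfl⟩
  have hκ₁K : κ₁ ∈ K := by
    rw [hκ₁]
    exact (hg' κ).1 hκ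
  have hgκ : (g : Matrix (Fin 3) (Fin 3) F) * κ = κ₁ * (g : Matrix (Fin 3) (Fin 3) F) := by
    rw [hκ₁, Matrix.mul_assoc, hig, Matrix.mul_one]
  have h3 : (κ₁ - κ) *ᵥ v₁ = 0 := by
    have h4 : (g : Matrix (Fin 3) (Fin 3) F) *ᵥ v₂ = α • (κ₁ *ᵥ v₁) := by
      rw [← hκv, Matrix.mulVec_mulVec, hgκ, ← Matrix.mulVec_mulVec, h1, Matrix.mulVec_smul]
    rw [h2, ← hκv] at h4
    have h5 : κ *ᵥ v₁ = κ₁ *ᵥ v₁ := by
      have h6 := congrArg (fun X => α⁻¹ • X) h4
      simpa only [smul_smul, inv_mul_cancel₀ hα, one_smul] using h6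
    rw [Matrix.sub_mulVec, h5, sub_self]
  have hκeq : κ₁ = κ := sub_eq_zero.1 (mulVec_zero_K K hK _ (K.sub_mem hκ₁K hκ) v₁ hv₁ h3)
  rw [hκeq] at hgκ
  have hcomm : ∀ k ∈ K, (g : Matrix (Fin 3) (Fin 3) F) * k
      = k * (g : Matrix (Fin 3) (Fin 3) F) := by
    intro k hk
    obtain ⟨a, b, c, rfl⟩ := gen3 K hK κ hκ hκns k hk
    have h7 : (g : Matrix (Fin 3) (Fin 3) F) * (κ * κ)
        = (κ * κ) * (g : Matrix (Fin 3) (Fin 3) F) := by
      rw [← Matrix.mul_assoc, hgκ, Matrix.mul_assoc, hgκ, Matrix.mul_assoc]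
    rw [Matrix.mul_add, Matrix.mul_add, Matrix.add_mul, Matrix.add_mul, Matrix.mul_smul,
      Matrix.mul_smul, Matrix.mul_smul, Matrix.smul_mul, Matrix.smul_mul, Matrix.smul_mul,
      Matrix.mul_one, Matrix.one_mul, hgκ, h7]
  apply Matrix.toLin'.injective
  apply LinearMap.ext
  intro u
  rw [Matrix.toLin'_apply, Matrix.toLin'_apply, Matrix.smul_mulVec, Matrix.one_mulVec]
  obtain ⟨k, hk, rfl⟩ := exists_K (by norm_num) K hK v₁ hv₁ u
  rw [Matrix.mulVec_mulVec, hcomm k hk, ← Matrix.mulVec_mulVec, h1, Matrix.mulVec_smul]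

/-- an element with two independent coordinate eigenvectors for one eigenvalue has no conjugate
in the normaliser unless it is scalar -/
theorem not_conj_eig (K : Subalgebra F (Matrix (Fin 3) (Fin 3) F))
    (hK : Cfsg.Geo.IsFieldSubalgebra 3 K) (x : Matrix.SpecialLinearGroup (Fin 3) F) (α : F)
    (i j : Fin 3) (hij : i ≠ j)
    (hi : (x : Matrix (Fin 3) (Fin 3) F) *ᵥ (Pi.single i 1 : Fin 3 → F) = α • Pi.single i 1)
    (hj : (x : Matrix (Fin 3) (Fin 3) F) *ᵥ (Pi.single j 1 : Fin 3 → F) = α • Pi.single j 1)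
    (hns : (x : Matrix (Fin 3) (Fin 3) F) ≠ α • (1 : Matrix (Fin 3) (Fin 3) F))
    (P : Matrix.SpecialLinearGroup (Fin 3) F) :
    P⁻¹ * x * P ∉ ((Cfsg.Geo.subalgebraNormalizer K).comap
        (Matrix.SpecialLinearGroup.toGL : Matrix.SpecialLinearGroup (Fin 3) F →* GL (Fin 3) F)) := by
  classical
  intro hmem
  rw [Subgroup.mem_comap] at hmem
  obtain ⟨y, hy⟩ : ∃ y : Matrix (Fin 3) (Fin 3) F,
      y = ((P⁻¹ * x * P : Matrix.SpecialLinearGroup (Fin 3) F) : Matrix (Fin 3) (Fin 3) F) :=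
    ⟨_, rfl⟩
  have hcoe : ((Matrix.SpecialLinearGroup.toGL (P⁻¹ * x * P) : GL (Fin 3) F) :
      Matrix (Fin 3) (Fin 3) F) = y := by
    rw [hy]
    rfl
  obtain ⟨w, hw⟩ : ∃ w : Fin 3 → (Fin 3 → F), w = fun i =>
      ((P⁻¹ : Matrix.SpecialLinearGroup (Fin 3) F) : Matrix (Fin 3) (Fin 3) F) *ᵥ (Pi.single i 1) :=
    ⟨_, rfl⟩
  have hPw : ∀ i, (P : Matrix (Fin 3) (Fin 3) F) *ᵥ (w i) = Pi.single i 1 := by
    intro i
    rw [hw]
    show (P : Matrix (Fin 3) (Fin 3) F) *ᵥ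
      (((P⁻¹ : Matrix.SpecialLinearGroup (Fin 3) F) : Matrix (Fin 3) (Fin 3) F) *ᵥ Pi.single i 1) = _
    rw [Matrix.mulVec_mulVec, ← Matrix.SpecialLinearGroup.coe_mul, mul_inv_cancel,
      Matrix.SpecialLinearGroup.coe_one, Matrix.one_mulVec]
  have hPinj : ∀ u v : Fin 3 → F, (P : Matrix (Fin 3) (Fin 3) F) *ᵥ u
      = (P : Matrix (Fin 3) (Fin 3) F) *ᵥ v → u = v := by
    intro u v huv
    have h1 := congrArg (fun z => ((P⁻¹ : Matrix.SpecialLinearGroup (Fin 3) F) :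
      Matrix (Fin 3) (Fin 3) F) *ᵥ z) huv
    simp only [Matrix.mulVec_mulVec, ← Matrix.SpecialLinearGroup.coe_mul, inv_mul_cancel,
      Matrix.SpecialLinearGroup.coe_one, Matrix.one_mulVec] at h1
    exact h1
  have hPy : ∀ v : Fin 3 → F, (P : Matrix (Fin 3) (Fin 3) F) *ᵥ (y *ᵥ v)
      = (x : Matrix (Fin 3) (Fin 3) F) *ᵥ ((P : Matrix (Fin 3) (Fin 3) F) *ᵥ v) := by
    intro v
    rw [hy, Matrix.SpecialLinearGroup.coe_mul, Matrix.SpecialLinearGroup.coe_mul,
      Matrix.mulVec_mulVec, Matrix.mulVec_mulVec, ← Matrix.mul_assoc, ← Matrix.mul_assoc,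
      ← Matrix.SpecialLinearGroup.coe_mul, mul_inv_cancel, Matrix.SpecialLinearGroup.coe_one,
      Matrix.one_mul]
  have hyw : ∀ k : Fin 3, (x : Matrix (Fin 3) (Fin 3) F) *ᵥ (Pi.single k 1 : Fin 3 → F)
      = α • Pi.single k 1 → y *ᵥ w k = α • w k := by
    intro k hk
    apply hPinj
    rw [hPy, hPw, hk, Matrix.mulVec_smul, hPw]
  have hw0 : w i ≠ 0 := by
    intro h0
    have h1 := hPw i
    rw [h0, Matrix.mulVec_zero] at h1
    have h2' := congrFun h1 i
    rw [Pi.single_eq_same, Pi.zero_apply] at h2'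
    exact zero_ne_one h2'
  have hind : ∀ a : F, w j ≠ a • w i := by
    intro a ha
    have h1 : ((P : Matrix (Fin 3) (Fin 3) F) *ᵥ (w j)) j = 1 := by
      rw [hPw, Pi.single_eq_same]
    rw [ha, Matrix.mulVec_smul, hPw, Pi.smul_apply, Pi.single_eq_of_ne hij.symm, smul_zero] at h1
    exact zero_ne_one h1
  have hsc := eig_scalar K hK _ hmem α (w i) (w j) (by rw [hcoe]; exact hyw i hi)
    (by rw [hcoe]; exact hyw j hj) hw0 hind
  rw [hcoe] at hsc
  apply hns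
  apply Matrix.toLin'.injective
  apply LinearMap.ext
  intro u
  rw [Matrix.toLin'_apply, Matrix.toLin'_apply, Matrix.smul_mulVec, Matrix.one_mulVec]
  obtain ⟨v, hv⟩ : ∃ v : Fin 3 → F, v = ((P⁻¹ : Matrix.SpecialLinearGroup (Fin 3) F) :
      Matrix (Fin 3) (Fin 3) F) *ᵥ u := ⟨_, rfl⟩
  have hu : u = (P : Matrix (Fin 3) (Fin 3) F) *ᵥ v := by
    rw [hv, Matrix.mulVec_mulVec, ← Matrix.SpecialLinearGroup.coe_mul, mul_inv_cancel,
      Matrix.SpecialLinearGroup.coe_one, Matrix.one_mulVec]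
  rw [hu, ← hPy, hsc, Matrix.smul_mulVec, Matrix.one_mulVec, Matrix.mulVec_smul]

/-- cube roots of the identity are semisimple away from characteristic three -/
theorem ss_of_cube (h3F : (3 : F) ≠ 0) (M : Matrix (Fin 3) (Fin 3) F) (h3 : M ^ 3 = 1) :
    Module.End.IsSemisimple (Matrix.toLin' M) := by
  have hsq : Squarefree (Polynomial.X ^ 3 - Polynomial.C (1 : F)) :=
    (Polynomial.separable_X_pow_sub_C (1 : F) (by exact_mod_cast h3F) one_ne_zero).squarefree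
  apply Module.End.isSemisimple_of_squarefree_aeval_eq_zero hsq
  have h1 : Polynomial.aeval M (Polynomial.X ^ 3 - Polynomial.C (1 : F)) = 0 := by
    simp only [map_sub, map_pow, Polynomial.aeval_X, Polynomial.aeval_C, h3, map_one, sub_self]
  have h2 := Polynomial.aeval_algHom_apply
    (Matrix.toLinAlgEquiv' : Matrix (Fin 3) (Fin 3) F ≃ₐ[F] _) M
    (Polynomial.X ^ 3 - Polynomial.C (1 : F))
  rw [h1, map_zero] at h2
  exact h2

/-- enough determinants in the centraliser of an element with characteristic polynomial `X^3-1` -/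
theorem hT_of_cp (h3F : (3 : F) ≠ 0) (M : Matrix (Fin 3) (Fin 3) F) (h3 : M ^ 3 = 1)
    (hcp : M.charpoly = Polynomial.X ^ 3 - Polynomial.C 1) :
    ∀ δ : F, δ ≠ 0 → ∃ T : Matrix (Fin 3) (Fin 3) F, T.det = δ ∧ T * M = M * T := by
  classical
  intro δ _
  obtain ⟨Cm, hCm⟩ : ∃ Cm : Matrix (Fin 3) (Fin 3) F,
      Cm = !![0, 0, 1; 1, 0, 0; 0, 1, 0] := ⟨_, rfl⟩
  have hC3 : Cm ^ 3 = 1 := by
    rw [hCm]
    ext i j
    fin_cases i <;> fin_cases j <;> simp [pow_succ, Matrix.mul_apply, Fin.sum_univ_three]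
  have hCrel : ∀ a b c : F, a • Cm ^ 2 + b • Cm + c • (1 : Matrix (Fin 3) (Fin 3) F) = 0
      → a = 0 ∧ b = 0 ∧ c = 0 := by
    intro a b c h
    rw [hCm] at h
    have h01 := congrFun (congrFun h 0) 1
    have h02 := congrFun (congrFun h 0) 2
    have h00 := congrFun (congrFun h 0) 0
    simp [pow_two, Matrix.mul_apply, Fin.sum_univ_three] at h01 h02 h00
    exact ⟨h01, h02, h00⟩
  have hCcp := cp_of_norel Cm hC3 hCrel
  obtain ⟨ψ, hψ⟩ := Cfsg.Agent.Lib.Helper15.Semi.ss_conj 3 (Fin 3 → F) (Fin 3 → F)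
    (Matrix.toLin' Cm) (Matrix.toLin' M) (by rw [Module.finrank_fin_fun])
    (ss_of_cube h3F Cm hC3) (ss_of_cube h3F M h3)
    (by rw [Cfsg.Agent.S5967.charpoly_toLin', Cfsg.Agent.S5967.charpoly_toLin', hCcp, hcp])
  have hψ' : ∀ v, ψ (Cm *ᵥ v) = M *ᵥ (ψ v) := by
    intro v
    have h1 := hψ v
    rwa [Matrix.toLin'_apply, Matrix.toLin'_apply] at h1
  obtain ⟨ι₃, hι⟩ : ∃ ι₃ : F, 3 * ι₃ = 1 := ⟨3⁻¹, mul_inv_cancel₀ h3F⟩
  obtain ⟨s, hs⟩ : ∃ s : F, s = (δ - 1) * ι₃ := ⟨_, rfl⟩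
  obtain ⟨Ts, hTs⟩ : ∃ Ts : Matrix (Fin 3) (Fin 3) F,
      Ts = !![1 + s, s, s; s, 1 + s, s; s, s, 1 + s] := ⟨_, rfl⟩
  have hTdet : Ts.det = δ := by
    rw [hTs, Matrix.det_fin_three]
    simp only [Matrix.of_apply, Matrix.cons_val', Matrix.cons_val_zero, Matrix.cons_val_one,
      Matrix.cons_val_two, Matrix.cons_val_fin_one, Matrix.head_cons, Matrix.tail_cons,
      Matrix.vecHead, Matrix.vecTail, Function.comp, Matrix.cons_val_succ]
    rw [hs]
    linear_combination (δ - 1) * hι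
  have hTC : Ts * Cm = Cm * Ts := by
    rw [hTs, hCm]
    ext i j
    fin_cases i <;> fin_cases j <;> simp [Matrix.mul_apply, Fin.sum_univ_three]
  obtain ⟨T, hT, hTd⟩ := Cfsg.Agent.S5969.conj_mat ψ Ts
  refine ⟨T, by rw [hTd, hTdet], ?_⟩
  apply Matrix.toLin'.injective
  apply LinearMap.ext
  intro u
  obtain ⟨w, rfl⟩ := ψ.surjective u
  rw [Matrix.toLin'_apply, Matrix.toLin'_apply, ← Matrix.mulVec_mulVec, ← Matrix.mulVec_mulVec,
    ← hψ', hT, hT, ← hψ', Matrix.mulVec_mulVec, Matrix.mulVec_mulVec, hTC]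

/-- conjugating into the normaliser with determinant one -/
theorem frame3 {n : ℕ} (K : Subalgebra F (Matrix (Fin n) (Fin n) F))
    (x : Matrix.SpecialLinearGroup (Fin n) F) (g : GL (Fin n) F)
    (hg : g ∈ Cfsg.Geo.subalgebraNormalizer K)
    (φ : (Fin n → F) ≃ₗ[F] (Fin n → F))
    (hφ : ∀ v, φ ((x : Matrix (Fin n) (Fin n) F) *ᵥ v) = (g : Matrix (Fin n) (Fin n) F) *ᵥ (φ v))
    (hT : ∀ δ : F, δ ≠ 0 → ∃ T : Matrix (Fin n) (Fin n) F, T.det = δ ∧
      T * (x : Matrix (Fin n) (Fin n) F) = (x : Matrix (Fin n) (Fin n) F) * T) :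
    ∃ P : Matrix.SpecialLinearGroup (Fin n) F,
      P⁻¹ * x * P ∈ ((Cfsg.Geo.subalgebraNormalizer K).comap
        (Matrix.SpecialLinearGroup.toGL : Matrix.SpecialLinearGroup (Fin n) F →* GL (Fin n) F)) := by
  classical
  have hdetφ : LinearMap.det (φ.symm : (Fin n → F) →ₗ[F] (Fin n → F)) ≠ 0 :=
    (LinearEquiv.isUnit_det' φ.symm).ne_zero
  obtain ⟨T, hTdet, hTx⟩ := hT (LinearMap.det (φ.symm : (Fin n → F) →ₗ[F] (Fin n → F)))⁻¹
    (inv_ne_zero hdetφ)
  obtain ⟨Φ, hΦ⟩ : ∃ Φ : Module.End F (Fin n → F),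
      Φ = Matrix.toLin' T ∘ₗ (φ.symm : (Fin n → F) →ₗ[F] (Fin n → F)) := ⟨_, rfl⟩
  have hΦapp : ∀ u, Φ u = T *ᵥ (φ.symm u) := by
    intro u
    rw [hΦ]
    show Matrix.toLin' T (φ.symm u) = _
    rw [Matrix.toLin'_apply]
  have hdetΦ : LinearMap.det Φ = 1 := by
    rw [hΦ, LinearMap.det_comp, LinearMap.det_toLin', hTdet, inv_mul_cancel₀ hdetφ]
  obtain ⟨P, hP⟩ : ∃ P : Matrix.SpecialLinearGroup (Fin n) F,
      (P : Matrix (Fin n) (Fin n) F) = LinearMap.toMatrix' Φ :=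
    ⟨⟨LinearMap.toMatrix' Φ, by rw [LinearMap.det_toMatrix', hdetΦ]⟩, rfl⟩
  have hPv : ∀ u, (P : Matrix (Fin n) (Fin n) F) *ᵥ u = Φ u := by
    intro u
    rw [hP, LinearMap.toMatrix'_mulVec]
  have hPinv : ∀ u, ((P⁻¹ : Matrix.SpecialLinearGroup (Fin n) F) : Matrix (Fin n) (Fin n) F)
      *ᵥ ((P : Matrix (Fin n) (Fin n) F) *ᵥ u) = u := by
    intro u
    rw [Matrix.mulVec_mulVec, ← Matrix.SpecialLinearGroup.coe_mul, inv_mul_cancel,
      Matrix.SpecialLinearGroup.coe_one, Matrix.one_mulVec]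
  have hconj : ∀ u, ((P⁻¹ * x * P : Matrix.SpecialLinearGroup (Fin n) F) :
      Matrix (Fin n) (Fin n) F) *ᵥ u = φ ((x : Matrix (Fin n) (Fin n) F) *ᵥ (φ.symm u)) := by
    intro u
    rw [Matrix.SpecialLinearGroup.coe_mul, Matrix.SpecialLinearGroup.coe_mul,
      ← Matrix.mulVec_mulVec, ← Matrix.mulVec_mulVec, hPv, hΦapp]
    have h0 : (x : Matrix (Fin n) (Fin n) F) *ᵥ (T *ᵥ φ.symm u)
        = T *ᵥ ((x : Matrix (Fin n) (Fin n) F) *ᵥ φ.symm u) := by
      rw [Matrix.mulVec_mulVec, Matrix.mulVec_mulVec, hTx]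
    have h1 : T *ᵥ ((x : Matrix (Fin n) (Fin n) F) *ᵥ φ.symm u)
        = (P : Matrix (Fin n) (Fin n) F) *ᵥ (φ ((x : Matrix (Fin n) (Fin n) F) *ᵥ φ.symm u)) := by
      rw [hPv, hΦapp, LinearEquiv.symm_apply_apply]
    rw [h0, h1, hPinv]
  refine ⟨P, ?_⟩
  rw [Subgroup.mem_comap]
  have heq : Matrix.SpecialLinearGroup.toGL (P⁻¹ * x * P) = g := by
    apply Units.ext
    show ((P⁻¹ * x * P : Matrix.SpecialLinearGroup (Fin n) F) : Matrix (Fin n) (Fin n) F)
      = (g : Matrix (Fin n) (Fin n) F)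
    apply Matrix.toLin'.injective
    apply LinearMap.ext
    intro u
    rw [Matrix.toLin'_apply, Matrix.toLin'_apply, hconj, hφ, φ.apply_symm_apply]
  rw [heq]
  exact hg

end struct

section fin

open Matrix

/-- a finite field with `q^3` elements satisfies no nontrivial relation among the first three
powers of the `q`-power map -/
theorem ff_norel {L : Type*} [Field L] [Fintype L] (q : ℕ) (hq : 2 ≤ q)
    (hcard : Fintype.card L = q ^ 3) (α β γ : L)
    (h : ∀ μ : L, α * μ ^ (q ^ 2) + β * μ ^ q + γ * μ = 0) : α = 0 ∧ β = 0 ∧ γ = 0 := by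
  classical
  obtain ⟨P, hP⟩ : ∃ P : Polynomial L, P = Polynomial.C α * Polynomial.X ^ (q ^ 2)
      + Polynomial.C β * Polynomial.X ^ q + Polynomial.C γ * Polynomial.X ^ 1 := ⟨_, rfl⟩
  have hqq : q < q ^ 2 := by nlinarith
  have hdeg : P.natDegree ≤ q ^ 2 := by
    rw [hP]
    refine (Polynomial.natDegree_add_le _ _).trans (max_le
      ((Polynomial.natDegree_add_le _ _).trans (max_le ?_ ?_)) ?_)
    · exact Polynomial.natDegree_C_mul_X_pow_le _ _
    · exact (Polynomial.natDegree_C_mul_X_pow_le _ _).trans hqq.le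
    · exact (Polynomial.natDegree_C_mul_X_pow_le _ _).trans (by omega)
  have hP0 : P = 0 := by
    apply Polynomial.eq_zero_of_natDegree_lt_card_of_eval_eq_zero P (f := id)
      Function.injective_id
    · intro μ
      rw [hP]
      simp only [Polynomial.eval_add, Polynomial.eval_mul, Polynomial.eval_C, Polynomial.eval_pow,
        Polynomial.eval_X, id, pow_one]
      exact h μ
    · rw [hcard]
      have h1 : q ^ 2 < q ^ 3 := Nat.pow_lt_pow_right (by omega) (by norm_num)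
      omega
  have hq1 : q ≠ 1 := by omega
  have hq2 : q ^ 2 ≠ 1 := by omega
  have hq3 : q ^ 2 ≠ q := by omega
  have c1 := congrArg (fun p => p.coeff 1) hP0
  have c2 := congrArg (fun p => p.coeff q) hP0
  have c3 := congrArg (fun p => p.coeff (q ^ 2)) hP0
  simp only [hP, Polynomial.coeff_add, Polynomial.coeff_C_mul, Polynomial.coeff_X_pow,
    Polynomial.coeff_zero] at c1 c2 c3
  simp [hq1, hq2, hq3, hq1.symm, hq2.symm, hq3.symm] at c1 c2 c3
  exact ⟨c3, c2, c1⟩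

theorem isFieldK {F : Type*} [Field F] {n r : ℕ} (hn : 1 ≤ n)
    (K : Subalgebra F (Matrix (Fin n) (Fin n) F))
    (hK : Cfsg.Geo.IsFieldSubalgebra r K) : IsField ↥K := by
  haveI : Nonempty (Fin n) := ⟨⟨0, hn⟩⟩
  refine ⟨⟨0, 1, ?_⟩, ?_, ?_⟩
  · intro h
    have h1 : (0 : Matrix (Fin n) (Fin n) F) = 1 := congrArg Subtype.val h
    exact zero_ne_one h1
  · intro a b
    exact Subtype.ext (hK.comm a.1 a.2 b.1 b.2)
  · intro a ha
    obtain ⟨y, hy, h⟩ := hK.inv a.1 a.2 (fun h0 => ha (Subtype.ext h0))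
    exact ⟨⟨y, hy⟩, Subtype.ext h⟩

variable {F : Type*} [Field F] [Fintype F]

theorem K_card (K : Subalgebra F (Matrix (Fin 3) (Fin 3) F))
    (hK : Cfsg.Geo.IsFieldSubalgebra 3 K) (q : ℕ) (hq : Fintype.card F = q)
    [Fintype ↥K] : Fintype.card ↥K = q ^ 3 := by
  rw [Module.card_eq_pow_finrank (K := F) (V := ↥K), hK.finrank_eq, hq]

theorem K_pow_card (K : Subalgebra F (Matrix (Fin 3) (Fin 3) F))
    (hK : Cfsg.Geo.IsFieldSubalgebra 3 K) (q : ℕ) (hq : Fintype.card F = q)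
    (κ : Matrix (Fin 3) (Fin 3) F) (hκ : κ ∈ K) : κ ^ (q ^ 3) = κ := by
  classical
  haveI : Fintype ↥K := Fintype.ofFinite _
  have hc : Fintype.card ↥K = q ^ 3 := K_card K hK q hq
  letI : Field ↥K := (isFieldK (by norm_num) K hK).toField
  have h := FiniteField.pow_card (⟨κ, hκ⟩ : ↥K)
  rw [hc] at h
  exact congrArg Subtype.val h

theorem K_norel (K : Subalgebra F (Matrix (Fin 3) (Fin 3) F))
    (hK : Cfsg.Geo.IsFieldSubalgebra 3 K) (q : ℕ) (hq : Fintype.card F = q) (a b c : F)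
    (h : ∀ κ ∈ K, a • κ ^ (q ^ 2) + b • κ ^ q + c • κ = 0) : a = 0 ∧ b = 0 ∧ c = 0 := by
  classical
  have hq2 : 2 ≤ q := by
    rw [← hq]
    exact Fintype.one_lt_card
  haveI : Fintype ↥K := Fintype.ofFinite _
  have hc : Fintype.card ↥K = q ^ 3 := K_card K hK q hq
  have h1K : (1 : Matrix (Fin 3) (Fin 3) F) ≠ 0 := one_ne_zero
  letI : Field ↥K := (isFieldK (by norm_num) K hK).toField
  obtain ⟨ha, hb, hc'⟩ := ff_norel (L := ↥K) q hq2 hc (a • (1 : ↥K)) (b • (1 : ↥K))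
    (c • (1 : ↥K)) (by
      intro μ
      apply Subtype.ext
      have h2 := h μ.1 μ.2
      show a • (1 : Matrix (Fin 3) (Fin 3) F) * μ.1 ^ (q ^ 2)
        + b • (1 : Matrix (Fin 3) (Fin 3) F) * μ.1 ^ q
        + c • (1 : Matrix (Fin 3) (Fin 3) F) * μ.1 = 0
      rw [Matrix.smul_mul, Matrix.smul_mul, Matrix.smul_mul, Matrix.one_mul, Matrix.one_mul,
        Matrix.one_mul]
      exact h2)
  have key : ∀ e : F, e • (1 : ↥K) = 0 → e = 0 := by
    intro e he
    have h' : e • (1 : Matrix (Fin 3) (Fin 3) F) = 0 := congrArg Subtype.val he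
    exact (smul_eq_zero.1 h').resolve_right h1K
  exact ⟨key a ha, key b hb, key c hc'⟩

/-- the matrix of the `q`-power map of a cubic field subalgebra -/
theorem exists_tau {p : ℕ} [Fact p.Prime] [CharP F p]
    (K : Subalgebra F (Matrix (Fin 3) (Fin 3) F)) (hK : Cfsg.Geo.IsFieldSubalgebra 3 K)
    (q f : ℕ) (hq : Fintype.card F = q) (hqf : q = p ^ f) :
    ∃ τ : Matrix (Fin 3) (Fin 3) F, τ ^ 3 = 1 ∧ (∀ κ ∈ K, τ * κ = κ ^ q * τ) ∧
      (∀ a b c : F, a • τ ^ 2 + b • τ + c • (1 : Matrix (Fin 3) (Fin 3) F) = 0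
        → a = 0 ∧ b = 0 ∧ c = 0) := by
  classical
  obtain ⟨v₀, hv₀⟩ : ∃ v₀ : Fin 3 → F, v₀ = Pi.single 0 1 := ⟨_, rfl⟩
  have hv₀0 : v₀ ≠ 0 := by
    intro h
    have h1 := congrFun h 0
    rw [hv₀, Pi.single_eq_same, Pi.zero_apply] at h1
    exact one_ne_zero h1
  obtain ⟨E, hE⟩ := exists_ev (by norm_num) K hK v₀ hv₀0
  obtain ⟨Fr, hFr⟩ : ∃ Fr : ↥K →ₗ[F] ↥K, ∀ κ : ↥K,
      ((Fr κ : ↥K) : Matrix (Fin 3) (Fin 3) F) = (κ : Matrix (Fin 3) (Fin 3) F) ^ q :=
    ⟨{ toFun := fun κ => ⟨(κ : Matrix (Fin 3) (Fin 3) F) ^ q, K.pow_mem κ.2 q⟩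
       map_add' := by
         intro a b
         apply Subtype.ext
         show ((a : Matrix (Fin 3) (Fin 3) F) + (b : Matrix (Fin 3) (Fin 3) F)) ^ q
           = (a : Matrix (Fin 3) (Fin 3) F) ^ q + (b : Matrix (Fin 3) (Fin 3) F) ^ q
         rw [hqf]
         exact add_pow_char_pow_of_commute p f (hK.comm a.1 a.2 b.1 b.2)
       map_smul' := by
         intro c a
         apply Subtype.ext
         show (c • (a : Matrix (Fin 3) (Fin 3) F)) ^ q = c • (a : Matrix (Fin 3) (Fin 3) F) ^ q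
         rw [smul_pow, ← hq, FiniteField.pow_card] }, fun _ => rfl⟩
  obtain ⟨τ, hτ⟩ : ∃ τ : Matrix (Fin 3) (Fin 3) F, τ = LinearMap.toMatrix'
      ((E : ↥K →ₗ[F] (Fin 3 → F)) ∘ₗ Fr ∘ₗ
        ((E.symm : (Fin 3 → F) ≃ₗ[F] ↥K) : (Fin 3 → F) →ₗ[F] ↥K)) := ⟨_, rfl⟩
  have hτv : ∀ κ ∈ K, τ *ᵥ (κ *ᵥ v₀) = (κ ^ q) *ᵥ v₀ := by
    intro κ hκ
    rw [hτ, LinearMap.toMatrix'_mulVec]
    show E (Fr (E.symm (κ *ᵥ v₀))) = _
    have h1 : κ *ᵥ v₀ = E ⟨κ, hκ⟩ := (hE ⟨κ, hκ⟩).symm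
    rw [h1, E.symm_apply_apply, hE, hFr]
  have hτK : ∀ κ ∈ K, τ * κ = κ ^ q * τ := by
    intro κ hκ
    apply Matrix.toLin'.injective
    apply LinearMap.ext
    intro u
    rw [Matrix.toLin'_apply, Matrix.toLin'_apply]
    obtain ⟨l, hl, rfl⟩ := exists_K (by norm_num) K hK v₀ hv₀0 u
    have h1 : (κ * l) ^ q = κ ^ q * l ^ q :=
      (show Commute κ l from hK.comm κ hκ l hl).mul_pow q
    rw [← Matrix.mulVec_mulVec, ← Matrix.mulVec_mulVec, hτv l hl, Matrix.mulVec_mulVec v₀ κ l,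
      hτv (κ * l) (K.mul_mem hκ hl), Matrix.mulVec_mulVec, h1]
  have hτ3 : τ ^ 3 = 1 := by
    apply Matrix.toLin'.injective
    apply LinearMap.ext
    intro u
    rw [Matrix.toLin'_apply, Matrix.toLin'_apply, Matrix.one_mulVec]
    obtain ⟨l, hl, rfl⟩ := exists_K (by norm_num) K hK v₀ hv₀0 u
    have h1 : ((l ^ q) ^ q) ^ q = l ^ (q ^ 3) := by
      rw [← pow_mul, ← pow_mul]
      congr 1
      ring
    rw [pow_succ, pow_two τ, ← Matrix.mulVec_mulVec, ← Matrix.mulVec_mulVec, hτv l hl,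
      hτv (l ^ q) (K.pow_mem hl q), hτv ((l ^ q) ^ q) (K.pow_mem (K.pow_mem hl q) q), h1,
      K_pow_card K hK q hq l hl]
  refine ⟨τ, hτ3, hτK, ?_⟩
  intro a b c hrel
  apply K_norel K hK q hq a b c
  intro κ hκ
  have e2 : τ ^ 2 *ᵥ (κ *ᵥ v₀) = (κ ^ (q ^ 2)) *ᵥ v₀ := by
    rw [pow_two τ, ← Matrix.mulVec_mulVec, hτv κ hκ, hτv (κ ^ q) (K.pow_mem hκ q), ← pow_mul,
      ← pow_two]
  have h1 : (a • κ ^ (q ^ 2) + b • κ ^ q + c • κ) *ᵥ v₀ = 0 := by
    rw [Matrix.add_mulVec, Matrix.add_mulVec, Matrix.smul_mulVec, Matrix.smul_mulVec,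
      Matrix.smul_mulVec, ← e2, ← hτv κ hκ]
    have h2 := congrArg (fun M => M *ᵥ (κ *ᵥ v₀)) hrel
    simp only [Matrix.add_mulVec, Matrix.smul_mulVec, Matrix.one_mulVec, Matrix.zero_mulVec] at h2
    exact h2
  exact mulVec_zero_K K hK _ (K.add_mem (K.add_mem (K.smul_mem (K.pow_mem hκ _) a)
    (K.smul_mem (K.pow_mem hκ _) b)) (K.smul_mem hκ c)) v₀ hv₀0 h1

omit [Fintype F] in
/-- the matrix of the `q`-power map normalises the field subalgebra -/
theorem tau_norm (K : Subalgebra F (Matrix (Fin 3) (Fin 3) F))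
    (τ : Matrix (Fin 3) (Fin 3) F) (q : ℕ) (h3 : τ ^ 3 = 1)
    (hτ : ∀ κ ∈ K, τ * κ = κ ^ q * τ) :
    ∃ g : GL (Fin 3) F, (g : Matrix (Fin 3) (Fin 3) F) = τ ∧
      g ∈ Cfsg.Geo.subalgebraNormalizer K := by
  have h1 : τ * τ ^ 2 = 1 := by
    rw [← pow_succ']
    exact h3
  have h2 : τ ^ 2 * τ = 1 := by
    rw [← pow_succ]
    exact h3
  refine ⟨⟨τ, τ ^ 2, h1, h2⟩, rfl, ?_⟩
  show ∀ k : Matrix (Fin 3) (Fin 3) F, k ∈ K ↔ τ * k * τ ^ 2 ∈ K
  intro k
  constructor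
  · intro hk
    rw [hτ k hk, Matrix.mul_assoc, h1, Matrix.mul_one]
    exact K.pow_mem hk q
  · intro hk
    obtain ⟨l, hl⟩ : ∃ l : Matrix (Fin 3) (Fin 3) F, l = τ * k * τ ^ 2 := ⟨_, rfl⟩
    rw [← hl] at hk
    have hkl : k = τ ^ 2 * l * τ := by
      rw [hl]
      calc k = (τ ^ 2 * τ) * k * (τ ^ 2 * τ) := by rw [h2, Matrix.one_mul, Matrix.mul_one]
        _ = τ ^ 2 * (τ * k * τ ^ 2) * τ := by simp only [Matrix.mul_assoc]
    have h4 : τ ^ 2 * l * τ = (l ^ q) ^ q := by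
      calc τ ^ 2 * l * τ = τ * (τ * l) * τ := by
            rw [pow_two τ]
            simp only [Matrix.mul_assoc]
        _ = τ * (l ^ q * τ) * τ := by rw [hτ l hk]
        _ = (τ * l ^ q) * (τ * τ) := by simp only [Matrix.mul_assoc]
        _ = ((l ^ q) ^ q * τ) * (τ * τ) := by rw [hτ (l ^ q) (K.pow_mem hk q)]
        _ = (l ^ q) ^ q * (τ * τ ^ 2) := by
            rw [pow_two τ]
            simp only [Matrix.mul_assoc]
        _ = (l ^ q) ^ q := by rw [h1, Matrix.mul_one]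
    rw [hkl, h4]
    exact K.pow_mem (K.pow_mem hk q) q

theorem hcube_of (q : ℕ) (hq : Fintype.card F = q) (h9 : q % 9 ≠ 1) :
    ∀ e : F, e ^ 9 = 1 → e ^ 3 = 1 := by
  intro e he
  have hq1 : 1 < q := by
    rw [← hq]
    exact Fintype.one_lt_card
  have he0 : e ≠ 0 := by
    rintro rfl
    rw [zero_pow (by norm_num)] at he
    exact zero_ne_one he
  have h1 : e ^ (q - 1) = 1 := by
    rw [← hq]
    exact FiniteField.pow_card_sub_one_eq_one e he0
  have hd9 : orderOf e ∣ 3 ^ 2 := orderOf_dvd_of_pow_eq_one he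
  have hdq : orderOf e ∣ q - 1 := orderOf_dvd_of_pow_eq_one h1
  obtain ⟨m, hm, hme⟩ := (Nat.dvd_prime_pow Nat.prime_three).1 hd9
  have hm2 : m ≠ 2 := by
    rintro rfl
    rw [hme] at hdq
    obtain ⟨c, hc⟩ := hdq
    norm_num at hc
    omega
  have hd3 : orderOf e ∣ 3 := by
    rw [hme]
    interval_cases m
    · norm_num
    · norm_num
    · exact absurd rfl hm2
  exact orderOf_dvd_iff_pow_eq_one.1 hd3

theorem exists_zeta (q : ℕ) (hq : Fintype.card F = q) (h9 : q % 9 = 1) :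
    ∃ ζ : F, ζ ^ 9 = 1 ∧ ζ ^ 3 ≠ 1 := by
  classical
  have hq1 : 1 < q := by
    rw [← hq]
    exact Fintype.one_lt_card
  obtain ⟨g, hg⟩ := IsCyclic.exists_generator (α := Fˣ)
  have hord : orderOf g = q - 1 := by
    rw [orderOf_eq_card_of_forall_mem_zpowers hg, Nat.card_eq_fintype_card, Fintype.card_units, hq]
  obtain ⟨m, hm⟩ : ∃ m, q - 1 = 9 * m := ⟨(q - 1) / 9, by omega⟩
  have hm0 : 0 < m := by omega
  refine ⟨((g ^ m : Fˣ) : F), ?_, ?_⟩
  · rw [← Units.val_pow_eq_pow_val, ← pow_mul, mul_comm, ← hm, ← hord, pow_orderOf_eq_one,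
      Units.val_one]
  · rw [← Units.val_pow_eq_pow_val, ← pow_mul]
    intro h
    have h1 : g ^ (m * 3) = 1 := Units.ext (by rw [h, Units.val_one])
    exact pow_ne_one_of_lt_orderOf (by omega) (by rw [hord]; omega) h1

/-- for `q` congruent to 2 or 5 modulo 9 the index is prime to three -/
theorem index_contra (K : Subalgebra F (Matrix (Fin 3) (Fin 3) F))
    (τ : Matrix (Fin 3) (Fin 3) F) (g : GL (Fin 3) F)
    (hg1 : (g : Matrix (Fin 3) (Fin 3) F) = τ)
    (hgN : g ∈ Cfsg.Geo.subalgebraNormalizer K) (hτ3 : τ ^ 3 = 1)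
    (hτcp : τ.charpoly = Polynomial.X ^ 3 - Polynomial.C 1) (hτ1 : τ ≠ 1)
    (q : ℕ) (hq : Fintype.card F = q) (hq25 : q % 9 = 2 ∨ q % 9 = 5)
    (hΩ : 3 ∣ ((Cfsg.Geo.subalgebraNormalizer K).comap
      (Matrix.SpecialLinearGroup.toGL :
        Matrix.SpecialLinearGroup (Fin 3) F →* GL (Fin 3) F)).index) : False := by
  classical
  have hdet : τ.det = 1 := by
    have h := Matrix.det_eq_sign_charpoly_coeff τ
    rw [hτcp, Fintype.card_fin] at h
    rw [h]
    simp [Polynomial.coeff_X_pow] <;> norm_num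
  obtain ⟨H, hH⟩ : ∃ H : Subgroup (Matrix.SpecialLinearGroup (Fin 3) F),
      H = (Cfsg.Geo.subalgebraNormalizer K).comap Matrix.SpecialLinearGroup.toGL := ⟨_, rfl⟩
  rw [← hH] at hΩ
  obtain ⟨t', ht'⟩ : ∃ t' : Matrix.SpecialLinearGroup (Fin 3) F,
      (t' : Matrix (Fin 3) (Fin 3) F) = τ := ⟨⟨τ, hdet⟩, rfl⟩
  have hmem : t' ∈ H := by
    rw [hH, Subgroup.mem_comap]
    have heq : Matrix.SpecialLinearGroup.toGL t' = g := by
      apply Units.ext
      show (t' : Matrix (Fin 3) (Fin 3) F) = (g : Matrix (Fin 3) (Fin 3) F)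
      rw [ht', hg1]
    rw [heq]
    exact hgN
  have ht3 : t' ^ 3 = 1 := by
    apply Subtype.ext
    rw [Matrix.SpecialLinearGroup.coe_pow, ht', hτ3, Matrix.SpecialLinearGroup.coe_one]
  have ht1 : t' ≠ 1 := by
    intro h
    apply hτ1
    rw [← ht', h, Matrix.SpecialLinearGroup.coe_one]
  have hord : orderOf (⟨t', hmem⟩ : ↥H) = 3 := by
    haveI : Fact (Nat.Prime 3) := ⟨Nat.prime_three⟩
    apply orderOf_eq_prime
    · apply Subtype.ext
      exact ht3
    · intro h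
      exact ht1 (congrArg Subtype.val h)
  have h3H : 3 ∣ Nat.card ↥H := by
    have h5 := orderOf_dvd_natCard (⟨t', hmem⟩ : ↥H)
    rwa [hord] at h5
  have h9 : 3 * 3 ∣ Nat.card (Matrix.SpecialLinearGroup (Fin 3) F) := by
    rw [← Subgroup.index_mul_card H]
    exact Nat.mul_dvd_mul hΩ h3H
  have hsl := Cfsg.Agent.S5964.card_sl_mul (K := F) 3 (by norm_num)
  have hgl := Matrix.card_GL_field (𝔽 := F) (n := 3)
  rw [Fin.prod_univ_three] at hgl
  rw [hgl, hq] at hsl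
  simp only [Fin.val_zero, Fin.val_one, Fin.val_two, pow_zero, pow_one] at hsl
  have h9' : 3 * 3 ∣ (q ^ 3 - 1) * (q ^ 3 - q) * (q ^ 3 - q ^ 2) := by
    rw [← hsl]
    exact Dvd.dvd.mul_right h9 _
  have hq0 : 0 < q := by omega
  obtain ⟨Q3, hQ3⟩ : ∃ Q3, Q3 = q ^ 3 := ⟨_, rfl⟩
  obtain ⟨Q2, hQ2⟩ : ∃ Q2, Q2 = q ^ 2 := ⟨_, rfl⟩
  have hQ3m : Q3 % 9 = (q % 9) ^ 3 % 9 := by rw [hQ3, Nat.pow_mod]
  have hQ2m : Q2 % 9 = (q % 9) ^ 2 % 9 := by rw [hQ2, Nat.pow_mod]
  have hQ32 : Q2 ≤ Q3 := by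
    rw [hQ2, hQ3]
    exact Nat.pow_le_pow_right hq0 (by norm_num)
  have hqQ : q ≤ Q3 := by
    rw [hQ3]
    calc q = q ^ 1 := (pow_one q).symm
      _ ≤ q ^ 3 := Nat.pow_le_pow_right hq0 (by norm_num)
  rw [← hQ3, ← hQ2] at h9'
  have hmod := Nat.mod_eq_zero_of_dvd h9'
  rcases hq25 with h | h
  · rw [h] at hQ3m hQ2m
    norm_num at hQ3m hQ2m
    have hA : (Q3 - 1) % 9 = 7 := by omega
    have hB : (Q3 - q) % 9 = 6 := by omega
    have hC : (Q3 - Q2) % 9 = 4 := by omega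
    have hprod : ((Q3 - 1) * (Q3 - q) * (Q3 - Q2)) % 9 = 6 := by
      rw [Nat.mul_mod, Nat.mul_mod (Q3 - 1), hA, hB, hC]
    rw [show (3 * 3 : ℕ) = 9 from rfl, hprod] at hmod
    exact absurd hmod (by norm_num)
  · rw [h] at hQ3m hQ2m
    norm_num at hQ3m hQ2m
    have hA : (Q3 - 1) % 9 = 7 := by omega
    have hB : (Q3 - q) % 9 = 3 := by omega
    have hC : (Q3 - Q2) % 9 = 1 := by omega
    have hprod : ((Q3 - 1) * (Q3 - q) * (Q3 - Q2)) % 9 = 3 := by
      rw [Nat.mul_mod, Nat.mul_mod (Q3 - 1), hA, hB, hC]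
    rw [show (3 * 3 : ℕ) = 9 from rfl, hprod] at hmod
    exact absurd hmod (by norm_num)

end fin

/-- Elements of order 3 of PSL_3(q) and the normalizer of a Singer cycle. Here `T = PSL_n(F)` for a field `F` with `q = p^f` elements (`n ≥ 2`, `(n, q) ≠ (2, 2), (2, 3)`), `k` is a prime dividing `n`, `K` is a subalgebra of the `n × n` matrices that is a field of degree `k` over `F` (an extension-field structure F_{q^k} on `F^n`), and `H` is the subgroup of matrices of determinant 1 normalizing `K` — a subgroup of type GL_{n/k}(q^k) (maximal except in some small cases; maximality is not assumed); Ω is the set of cosets of `H` in `T`, so an element of `T` of prime order `r` (a matrix `x` of determinant 1 with `x^r` scalar, `x` not scalar) fixes a point of Ω when some conjugate of `x` by a matrix of determinant 1 normalizes `K`. Take `n = k = 3` and suppose 3 divides the index of `H`. Then every element of `T` of order 3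 is conjugate in `T` into `H` if and only if `q ≡ 4, 7` or `8 (mod 9)`. -/
theorem result {F : Type*} [Field F] [Fintype F] {p : ℕ} [Fact p.Prime] [CharP F p] {q : ℕ} (hq : Fintype.card F = q)
    (n : ℕ) (hn : n = 3) (k : ℕ) (hk : k.Prime) (hkn : k ∣ n) (K : Subalgebra F (Matrix (Fin n) (Fin n) F)) (hK : Cfsg.Geo.IsFieldSubalgebra k K) (hk3 : k = 3) (hΩ : 3 ∣ ((Cfsg.Geo.subalgebraNormalizer K).comap (Matrix.SpecialLinearGroup.toGL : Matrix.SpecialLinearGroup (Fin n) F →* GL (Fin n) F)).index) :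
    (∀ x : Matrix.SpecialLinearGroup (Fin n) F,
      (∃ z : F, ((x ^ 3 : Matrix.SpecialLinearGroup (Fin n) F) : Matrix (Fin n) (Fin n) F) = z • (1 : Matrix (Fin n) (Fin n) F)) →
      (∀ z : F, (x : Matrix (Fin n) (Fin n) F) ≠ z • (1 : Matrix (Fin n) (Fin n) F)) →
      ∃ P : Matrix.SpecialLinearGroup (Fin n) F, P⁻¹ * x * P ∈ ((Cfsg.Geo.subalgebraNormalizer K).comap (Matrix.SpecialLinearGroup.toGL : Matrix.SpecialLinearGroup (Fin n) F →* GL (Fin n) F))) ↔
    (q % 9 = 4 ∨ q % 9 = 7 ∨ q % 9 = 8) := by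
  classical
  subst hn
  subst hk3
  have hq1 : 1 < q := by
    rw [← hq]
    exact Fintype.one_lt_card
  obtain ⟨f, hp, hf⟩ := FiniteField.card F p
  have hqf : q = p ^ (f : ℕ) := by rw [← hq, hf]
  by_cases hp3 : p = 3
  · subst hp3
    have hq3 : q % 3 = 0 := by
      rw [hqf]
      have h1 : 3 ∣ 3 ^ (f : ℕ) := dvd_pow_self 3 f.ne_zero
      omega
    constructor
    · intro hall
      exfalso
      have h01 : (0 : Fin 3) ≠ 1 := by decide
      obtain ⟨x, hx⟩ : ∃ x : Matrix.SpecialLinearGroup (Fin 3) F,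
          (x : Matrix (Fin 3) (Fin 3) F) = Matrix.transvection (0 : Fin 3) 1 1 :=
        ⟨⟨Matrix.transvection 0 1 1, Matrix.det_transvection_of_ne 0 1 h01 1⟩, rfl⟩
      have hx3 : ∃ z : F, ((x ^ 3 : Matrix.SpecialLinearGroup (Fin 3) F) :
          Matrix (Fin 3) (Fin 3) F) = z • (1 : Matrix (Fin 3) (Fin 3) F) := by
        refine ⟨1, ?_⟩
        have h3 : (1 : F) + 1 + 1 = 0 := by
          have h5 := CharP.cast_eq_zero F 3
          have h4 : ((3 : ℕ) : F) = 1 + 1 + 1 := by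
            push_cast
            ring
          rw [← h4]
          exact h5
        rw [Matrix.SpecialLinearGroup.coe_pow, hx, pow_succ, pow_two,
          Matrix.transvection_mul_transvection_same 0 1 h01,
          Matrix.transvection_mul_transvection_same 0 1 h01, h3, Matrix.transvection_zero,
          one_smul]
      have hns : ∀ z : F, (x : Matrix (Fin 3) (Fin 3) F)
          ≠ z • (1 : Matrix (Fin 3) (Fin 3) F) := by
        intro z hz
        rw [hx] at hz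
        have h1 := congrFun (congrFun hz 0) 1
        rw [Matrix.transvection, Matrix.add_apply, Matrix.one_apply_ne h01,
          Matrix.single_apply_same, Matrix.smul_apply, Matrix.one_apply_ne h01, smul_zero,
          zero_add] at h1
        exact one_ne_zero h1
      obtain ⟨P, hP⟩ := hall x hx3 hns
      have hxv : ∀ u : Fin 3 → F, Matrix.mulVec (x : Matrix (Fin 3) (Fin 3) F) u
          = u + u 1 • (Pi.single 0 1 : Fin 3 → F) := by
        intro u
        rw [hx, Matrix.transvection, Matrix.add_mulVec, Matrix.one_mulVec,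
          Matrix.single_mulVec_eq, one_mul]
      refine not_conj_eig K hK x 1 0 2 (by decide) ?_ ?_ ?_ P hP
      · rw [hxv, one_smul, Pi.single_eq_of_ne (show (1 : Fin 3) ≠ 0 by decide), zero_smul,
          add_zero]
      · rw [hxv, one_smul, Pi.single_eq_of_ne (show (1 : Fin 3) ≠ 2 by decide), zero_smul,
          add_zero]
      · exact hns 1
    · intro hor
      omega
  · have h3F : (3 : F) ≠ 0 := by
      intro h
      have h1 : ((3 : ℕ) : F) = 0 := by exact_mod_cast h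
      rw [CharP.cast_eq_zero_iff F p] at h1
      exact hp3 ((Nat.prime_dvd_prime_iff_eq hp Nat.prime_three).1 h1)
    have hq3 : q % 3 ≠ 0 := by
      intro h
      have h1 : 3 ∣ p ^ (f : ℕ) := by
        rw [← hqf]
        omega
      have h2 := Nat.prime_three.dvd_of_dvd_pow h1
      exact hp3 ((Nat.prime_dvd_prime_iff_eq Nat.prime_three hp).1 h2).symm
    by_cases h9 : q % 9 = 1
    · constructor
      · intro hall
        exfalso
        obtain ⟨ζ, hζ9, hζ3⟩ := exists_zeta (F := F) q hq h9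
        obtain ⟨dd, hdd⟩ : ∃ dd : Fin 3 → F, dd = ![ζ, ζ, ζ ^ 7] := ⟨_, rfl⟩
        have hd0 : dd 0 = ζ := by
          rw [hdd]
          rfl
        have hd1 : dd 1 = ζ := by
          rw [hdd]
          rfl
        have hd2 : dd 2 = ζ ^ 7 := by
          rw [hdd]
          rfl
        obtain ⟨x, hx⟩ : ∃ x : Matrix.SpecialLinearGroup (Fin 3) F,
            (x : Matrix (Fin 3) (Fin 3) F) = Matrix.diagonal dd :=
          ⟨⟨Matrix.diagonal dd, by
            rw [Matrix.det_diagonal, Fin.prod_univ_three, hd0, hd1, hd2]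
            linear_combination hζ9⟩, rfl⟩
        have hd3 : ∀ i, dd i ^ 3 = ζ ^ 3 := by
          intro i
          fin_cases i
          · show dd 0 ^ 3 = _
            rw [hd0]
          · show dd 1 ^ 3 = _
            rw [hd1]
          · show dd 2 ^ 3 = _
            rw [hd2]
            linear_combination (ζ ^ 12 + ζ ^ 3) * hζ9
        have hx3 : ∃ z : F, ((x ^ 3 : Matrix.SpecialLinearGroup (Fin 3) F) :
            Matrix (Fin 3) (Fin 3) F) = z • (1 : Matrix (Fin 3) (Fin 3) F) := by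
          refine ⟨ζ ^ 3, ?_⟩
          rw [Matrix.SpecialLinearGroup.coe_pow, hx, Matrix.diagonal_pow,
            Matrix.smul_one_eq_diagonal]
          congr 1
          funext i
          rw [Pi.pow_apply]
          exact hd3 i
        have hns : ∀ z : F, (x : Matrix (Fin 3) (Fin 3) F)
            ≠ z • (1 : Matrix (Fin 3) (Fin 3) F) := by
          intro z hz
          rw [hx] at hz
          have h0 := congrFun (congrFun hz 0) 0
          have h2 := congrFun (congrFun hz 2) 2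
          rw [Matrix.diagonal_apply_eq, Matrix.smul_apply, Matrix.one_apply_eq, smul_eq_mul,
            mul_one, hd0] at h0
          rw [Matrix.diagonal_apply_eq, Matrix.smul_apply, Matrix.one_apply_eq, smul_eq_mul,
            mul_one, hd2] at h2
          have h77 : ζ ^ 7 = ζ := h2.trans h0.symm
          exact hζ3 (by linear_combination hζ9 - ζ ^ 2 * h77)
        obtain ⟨P, hP⟩ := hall x hx3 hns
        have hsingle : ∀ (k : Fin 3) (e : F), (Pi.single k e : Fin 3 → F)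
            = e • (Pi.single k 1 : Fin 3 → F) := by
          intro k e
          funext l
          rw [Pi.smul_apply, Pi.single_apply, Pi.single_apply, smul_eq_mul]
          split_ifs <;> simp
        refine not_conj_eig K hK x ζ 0 1 (by decide) ?_ ?_ (hns ζ) P hP
        · rw [hx, Matrix.diagonal_mulVec_single, hd0, mul_one]
          exact hsingle 0 ζ
        · rw [hx, Matrix.diagonal_mulVec_single, hd1, mul_one]
          exact hsingle 1 ζ
      · intro hor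
        omega
    · have hcube := hcube_of (F := F) q hq h9
      obtain ⟨τ, hτ3, hτK, hτrel⟩ := exists_tau K hK q (f : ℕ) hq hqf
      have hτcp := cp_of_norel τ hτ3 hτrel
      obtain ⟨g, hg1, hgN⟩ := tau_norm K τ q hτ3 hτK
      have hτ1 : τ ≠ 1 := by
        intro h
        have h1 := (hτrel 0 1 (-1) (by
          rw [h, zero_smul, zero_add, one_smul, neg_smul, one_smul, add_neg_cancel])).2.1
        exact one_ne_zero h1
      have hall : ∀ x : Matrix.SpecialLinearGroup (Fin 3) F,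
          (∃ z : F, ((x ^ 3 : Matrix.SpecialLinearGroup (Fin 3) F) : Matrix (Fin 3) (Fin 3) F)
            = z • (1 : Matrix (Fin 3) (Fin 3) F)) →
          (∀ z : F, (x : Matrix (Fin 3) (Fin 3) F) ≠ z • (1 : Matrix (Fin 3) (Fin 3) F)) →
          ∃ P : Matrix.SpecialLinearGroup (Fin 3) F, P⁻¹ * x * P ∈
            ((Cfsg.Geo.subalgebraNormalizer K).comap (Matrix.SpecialLinearGroup.toGL :
              Matrix.SpecialLinearGroup (Fin 3) F →* GL (Fin 3) F)) := by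
        intro x hx3 hns
        obtain ⟨z, hz⟩ := hx3
        have hx3' : (x : Matrix (Fin 3) (Fin 3) F) ^ 3 = z • (1 : Matrix (Fin 3) (Fin 3) F) := by
          rw [← hz, Matrix.SpecialLinearGroup.coe_pow]
        obtain ⟨hz1, hxcp⟩ := cp_of_sl (x : Matrix (Fin 3) (Fin 3) F) x.det_coe z hx3' hns hcube
        rw [hz1, one_smul] at hx3'
        obtain ⟨φ, hφ⟩ := Cfsg.Agent.Lib.Helper15.Semi.ss_conj 3 (Fin 3 → F) (Fin 3 → F)
          (Matrix.toLin' (x : Matrix (Fin 3) (Fin 3) F)) (Matrix.toLin' τ)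
          (by rw [Module.finrank_fin_fun])
          (ss_of_cube h3F _ hx3') (ss_of_cube h3F τ hτ3)
          (by rw [Cfsg.Agent.S5967.charpoly_toLin', Cfsg.Agent.S5967.charpoly_toLin', hxcp, hτcp])
        refine frame3 K x g hgN φ ?_ (hT_of_cp h3F _ hx3' hxcp)
        intro v
        have h1 := hφ v
        rw [Matrix.toLin'_apply, Matrix.toLin'_apply] at h1
        rw [hg1]
        exact h1
      constructor
      · intro _
        by_contra hcon
        have hq25 : q % 9 = 2 ∨ q % 9 = 5 := by omega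
        exact index_contra K τ g hg1 hgN hτ3 hτcp hτ1 q hq hq25 hΩ
      · intro _
        exact hall

end Cfsg.Agent.S5971
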