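import Mathlib
import Cfsg.Agent.S5971
import Cfsg.Statements.S5970

set_option autoImplicit false
open scoped MatrixGroups
open Cfsg

namespace Cfsg.Agent.S5970

open Cfsg.Agent.S5971 (mulVec_zero_K exists_ev exists_K isFieldK frame3)

section orbsec

open Matrix

variable {F : Type*} [Field F] [Fintype F]

/-- orbit counting for a matrix of prime order on an invariant subspace -/
theorem orb {n r : ℕ} [Fact r.Prime] (q : ℕ) (hq : Fintype.card F = q)
    (M : Matrix (Fin n) (Fin n) F) (hM : M ^ r = 1)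
    (U : Submodule F (Fin n → F)) (hU : ∀ u ∈ U, M *ᵥ u ∈ U)
    (W : Submodule F (Fin n → F)) (hW : ∀ v, v ∈ W ↔ M *ᵥ v = v) :
    q ^ Module.finrank F ↥U
      ≡ q ^ Module.finrank F ↥(U ⊓ W : Submodule F (Fin n → F)) [MOD r] := by
  classical
  haveI : Fintype ↥U := Fintype.ofFinite _
  haveI : Fintype ↥(U ⊓ W : Submodule F (Fin n → F)) := Fintype.ofFinite _
  obtain ⟨f, hf⟩ : ∃ f : Function.End ↥U,
      ∀ u : ↥U, ((f u : ↥U) : Fin n → F) = M *ᵥ (u : Fin n → F) :=
    ⟨fun u => ⟨M *ᵥ (u : Fin n → F), hU u.1 u.2⟩, fun _ => rfl⟩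
  have hfpow : ∀ (j : ℕ) (u : ↥U),
      (((f ^ j) u : ↥U) : Fin n → F) = M ^ j *ᵥ (u : Fin n → F) := by
    intro j
    induction j with
    | zero =>
      intro u
      have e1 : (f ^ 0) u = u := by
        rw [pow_zero]
        rfl
      rw [e1, pow_zero, Matrix.one_mulVec]
    | succ j ih =>
      intro u
      have e1 : (f ^ (j + 1)) u = (f ^ j) (f u) := by
        rw [pow_succ]
        rfl
      rw [e1, ih (f u), hf u, Matrix.mulVec_mulVec, ← pow_succ]
  have hfr : f ^ r ^ 1 = 1 := by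
    rw [pow_one]
    apply funext
    intro u
    apply Subtype.ext
    rw [hfpow, hM, Matrix.one_mulVec]
    rfl
  have h1' := Equiv.Perm.card_fixedPoints_modEq (p := r) (n := 1) hfr
  have h1 : Nat.card ↥U ≡ Nat.card ↥(Function.fixedPoints f) [MOD r] := by
    rw [Nat.card_eq_fintype_card, Nat.card_eq_fintype_card]
    convert h1'
  have h2 : Nat.card ↥U = q ^ Module.finrank F ↥U := by
    rw [Nat.card_eq_fintype_card, Module.card_eq_pow_finrank (K := F) (V := ↥U), hq]
  have h3 : Nat.card ↥(Function.fixedPoints f)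
      = q ^ Module.finrank F ↥(U ⊓ W : Submodule F (Fin n → F)) := by
    rw [← hq, ← Module.card_eq_pow_finrank (K := F)
      (V := ↥(U ⊓ W : Submodule F (Fin n → F))), ← Nat.card_eq_fintype_card]
    apply Nat.card_congr
    exact
      { toFun := fun u => ⟨(u.1 : Fin n → F), ⟨u.1.2, (hW _).2 (by
            have h4 : f u.1 = u.1 := u.2
            rw [← hf, h4])⟩⟩
        invFun := fun w => ⟨⟨w.1, w.2.1⟩, by
            show f ⟨w.1, w.2.1⟩ = ⟨w.1, w.2.1⟩
            apply Subtype.ext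
            rw [hf]
            exact (hW _).1 w.2.2⟩
        left_inv := fun u => rfl
        right_inv := fun w => rfl }
  rw [h2, h3] at h1
  exact h1

omit [Fintype F] in
theorem arith {n : ℕ} [Fact n.Prime] (q : ℕ) (hord : orderOf (q : ZMod n) = n - 1) (a b : ℕ)
    (hba : b ≤ a) (h : q ^ a ≡ q ^ b [MOD n]) : (n - 1) ∣ (a - b) := by
  have hn2 : 2 ≤ n := (Fact.out : n.Prime).two_le
  have hq0 : (q : ZMod n) ≠ 0 := by
    intro h0
    have h1 := pow_orderOf_eq_one (q : ZMod n)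
    rw [hord, h0, zero_pow (by omega)] at h1
    exact zero_ne_one h1
  have h1 : ((q ^ a : ℕ) : ZMod n) = ((q ^ b : ℕ) : ZMod n) :=
    (ZMod.natCast_eq_natCast_iff _ _ _).2 h
  push_cast at h1
  have h2 : (q : ZMod n) ^ b * (q : ZMod n) ^ (a - b) = (q : ZMod n) ^ b * 1 := by
    rw [← pow_add, mul_one, Nat.add_sub_cancel' hba, h1]
  have h3 := mul_left_cancel₀ (pow_ne_zero b hq0) h2
  rw [← hord]
  exact orderOf_dvd_of_pow_eq_one h3

/-- a nontrivial matrix of prime order `n` satisfies no polynomial relation of degree below `n`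
when `q` is a primitive root modulo `n` -/
theorem norel_x {n : ℕ} [Fact n.Prime] (hn3 : 3 ≤ n) (q : ℕ) (hq : Fintype.card F = q)
    (hord : orderOf (q : ZMod n) = n - 1) (hnF : (n : F) ≠ 0)
    (M : Matrix (Fin n) (Fin n) F) (hM : M ^ n = 1) (hM1 : M ≠ 1) (a : ℕ → F)
    (ha : ∑ j ∈ Finset.range n, a j • M ^ j = 0) : ∀ j < n, a j = 0 := by
  classical
  by_contra hcon
  push Not at hcon
  obtain ⟨j₀, hj₀, haj₀⟩ := hcon
  obtain ⟨W, hW⟩ : ∃ W : Submodule F (Fin n → F), ∀ v, v ∈ W ↔ M *ᵥ v = v :=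
    ⟨LinearMap.ker (Matrix.toLin' M - 1), fun v => by
      rw [LinearMap.mem_ker, LinearMap.sub_apply, Matrix.toLin'_apply, Module.End.one_apply,
        sub_eq_zero]⟩
  obtain ⟨N, hN⟩ : ∃ N : Matrix (Fin n) (Fin n) F, N = ∑ j ∈ Finset.range n, M ^ j := ⟨_, rfl⟩
  have hMN : M * N = N := by
    rw [hN, Finset.mul_sum]
    have h1 : ∑ j ∈ Finset.range n, M * M ^ j = ∑ j ∈ Finset.range n, M ^ (j + 1) := by
      apply Finset.sum_congr rfl
      intro j _
      rw [pow_succ']
    have h2 := Finset.sum_range_succ' (fun j => M ^ j) n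
    have h3 := Finset.sum_range_succ (fun j => M ^ j) n
    rw [h1]
    rw [h3, hM, pow_zero] at h2
    exact (add_right_cancel h2).symm
  have hNW : ∀ v, N *ᵥ v ∈ W := by
    intro v
    rw [hW, Matrix.mulVec_mulVec, hMN]
  have hWpos : 0 < Module.finrank F ↥W := by
    by_contra h0
    have h0' : Module.finrank F ↥W = 0 := by omega
    have h1 := orb q hq M hM ⊤ (fun u _ => Submodule.mem_top) W hW
    rw [top_inf_eq, h0', finrank_top, Module.finrank_fin_fun] at h1
    have h2 := arith q hord n 0 (Nat.zero_le _) h1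
    rw [Nat.sub_zero] at h2
    obtain ⟨c, hc⟩ := h2
    have hc1 : c = 1 := by
      rcases Nat.lt_or_ge c 2 with h | h
      · interval_cases c
        · omega
        · rfl
      · exfalso
        have h5 : (n - 1) * 2 ≤ (n - 1) * c := Nat.mul_le_mul_left _ h
        omega
    rw [hc1] at hc
    omega
  obtain ⟨w₀, hw₀W, hw₀0⟩ : ∃ w₀ ∈ W, w₀ ≠ 0 := by
    have hne : W ≠ ⊥ := by
      intro h
      rw [h, finrank_bot] at hWpos
      exact lt_irrefl _ hWpos
    exact Submodule.exists_mem_ne_zero_of_ne_bot hne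
  obtain ⟨v₁, hv₁⟩ : ∃ v₁, v₁ ∉ W := by
    by_contra hall
    push Not at hall
    apply hM1
    apply Matrix.toLin'.injective
    apply LinearMap.ext
    intro u
    rw [Matrix.toLin'_apply, Matrix.toLin'_apply, Matrix.one_mulVec]
    exact (hW u).1 (hall u)
  have hkey : ∀ v, v ∉ W → N *ᵥ v = 0 := by
    intro v hv
    obtain ⟨b, hb⟩ : ∃ b : Fin n → (Fin n → F), b = fun j : Fin n => M ^ (j : ℕ) *ᵥ v := ⟨_, rfl⟩
    obtain ⟨Z, hZ⟩ : ∃ Z : Submodule F (Fin n → F), Z = Submodule.span F (Set.range b) :=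
      ⟨_, rfl⟩
    have hbZ : ∀ j, b j ∈ Z := by
      intro j
      rw [hZ]
      exact Submodule.subset_span ⟨j, rfl⟩
    have hb0 : b ⟨0, by omega⟩ = v := by
      rw [hb]
      show M ^ 0 *ᵥ v = v
      rw [pow_zero, Matrix.one_mulVec]
    have hnli : ¬ LinearIndependent F b := by
      intro hli
      rw [Fintype.linearIndependent_iff] at hli
      have h2 : ∑ j ∈ Finset.range n, a j • (M ^ j *ᵥ v) = 0 := by
        have h3 := congrArg (fun X => X *ᵥ v) ha
        simpa only [Matrix.sum_mulVec, Matrix.smul_mulVec, Matrix.zero_mulVec] using h3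
      rw [Finset.sum_range] at h2
      have h1 := hli (fun j => a (j : ℕ)) (by
        rw [hb]
        exact h2) ⟨j₀, hj₀⟩
      exact haj₀ h1
    have hZdim : Module.finrank F ↥Z < n := by
      have h1 : (Set.range b).finrank F ≤ Fintype.card (Fin n) := finrank_range_le_card b
      have h2 : ¬ (Fintype.card (Fin n) = (Set.range b).finrank F) :=
        fun h => hnli (linearIndependent_iff_card_eq_finrank_span.2 h)
      rw [Fintype.card_fin] at h1 h2
      rw [hZ]
      show (Set.range b).finrank F < n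
      omega
    have hZinv : ∀ u ∈ Z, M *ᵥ u ∈ Z := by
      intro u hu
      rw [hZ] at hu
      induction hu using Submodule.span_induction with
      | mem x hx =>
        obtain ⟨j, rfl⟩ := hx
        have h1 : M *ᵥ b j = M ^ ((j : ℕ) + 1) *ᵥ v := by
          rw [hb]
          show M *ᵥ (M ^ (j : ℕ) *ᵥ v) = _
          rw [Matrix.mulVec_mulVec, ← pow_succ']
        rw [h1]
        by_cases hj : (j : ℕ) + 1 < n
        · have h2 := hbZ ⟨(j : ℕ) + 1, hj⟩
          rw [hb] at h2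
          exact h2
        · have hjn : (j : ℕ) + 1 = n := by omega
          rw [hjn, hM, Matrix.one_mulVec, ← hb0]
          exact hbZ _
      | zero =>
        rw [Matrix.mulVec_zero]
        exact Submodule.zero_mem _
      | add x y _ _ hx hy =>
        rw [Matrix.mulVec_add]
        exact Submodule.add_mem _ hx hy
      | smul c x _ hx =>
        rw [Matrix.mulVec_smul]
        exact Submodule.smul_mem _ c hx
    have hNZ : N *ᵥ v ∈ Z := by
      rw [hN, Matrix.sum_mulVec]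
      apply Submodule.sum_mem
      intro j hj
      rw [Finset.mem_range] at hj
      have h2 := hbZ ⟨j, hj⟩
      rw [hb] at h2
      exact h2
    have h1 := orb q hq M hM Z hZinv W hW
    have hle : Module.finrank F ↥(Z ⊓ W : Submodule F (Fin n → F)) ≤ Module.finrank F ↥Z :=
      Submodule.finrank_mono inf_le_left
    obtain ⟨c, hc⟩ := arith q hord _ _ hle h1
    rcases Nat.eq_zero_or_pos c with hc0 | hcpos
    · exfalso
      have heq : Module.finrank F ↥(Z ⊓ W : Submodule F (Fin n → F)) = Module.finrank F ↥Z := by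
        rw [hc0, mul_zero] at hc
        omega
      have h3 : (Z ⊓ W : Submodule F (Fin n → F)) = Z :=
        Submodule.eq_of_le_of_finrank_eq inf_le_left heq
      apply hv
      have h4 : v ∈ (Z ⊓ W : Submodule F (Fin n → F)) := by
        rw [h3, ← hb0]
        exact hbZ _
      exact h4.2
    · have h0 : Module.finrank F ↥(Z ⊓ W : Submodule F (Fin n → F)) = 0 := by
        have h5 : n - 1 ≤ (n - 1) * c := Nat.le_mul_of_pos_right _ hcpos
        omega
      have h3 : (Z ⊓ W : Submodule F (Fin n → F)) = ⊥ := Submodule.finrank_eq_zero.1 h0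
      have h4 : N *ᵥ v ∈ (Z ⊓ W : Submodule F (Fin n → F)) := ⟨hNZ, hNW v⟩
      rw [h3] at h4
      exact (Submodule.mem_bot F).1 h4
  have hv₁w : v₁ + w₀ ∉ W := by
    intro h
    apply hv₁
    have h1 := W.sub_mem h hw₀W
    rwa [add_sub_cancel_right] at h1
  have h5 := hkey (v₁ + w₀) hv₁w
  rw [Matrix.mulVec_add, hkey v₁ hv₁, zero_add] at h5
  have hpow : ∀ j : ℕ, M ^ j *ᵥ w₀ = w₀ := by
    intro j
    induction j with
    | zero => rw [pow_zero, Matrix.one_mulVec]
    | succ j ih => rw [pow_succ, ← Matrix.mulVec_mulVec, (hW w₀).1 hw₀W, ih]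
  have h6 : N *ᵥ w₀ = (n : F) • w₀ := by
    rw [hN, Matrix.sum_mulVec, Finset.sum_congr rfl (fun j _ => hpow j), Finset.sum_const,
      Finset.card_range, Nat.cast_smul_eq_nsmul]
  rw [h6] at h5
  rcases smul_eq_zero.1 h5 with h | h
  · exact hnF h
  · exact hw₀0 h

end orbsec

section gencp

open Matrix

variable {F : Type*} [Field F]

/-- an `n`-th root of the identity with no relation of degree below `n` has characteristic
polynomial `X^n - 1` -/
theorem cp_of_norel_gen {n : ℕ} (hn : 1 ≤ n) (M : Matrix (Fin n) (Fin n) F) (hM : M ^ n = 1)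
    (hrel : ∀ a : ℕ → F, ∑ j ∈ Finset.range n, a j • M ^ j = 0 → ∀ j < n, a j = 0) :
    M.charpoly = Polynomial.X ^ n - Polynomial.C 1 := by
  haveI : Nonempty (Fin n) := ⟨⟨0, hn⟩⟩
  obtain ⟨D, hD⟩ : ∃ D : Polynomial F,
      D = M.charpoly - (Polynomial.X ^ n - Polynomial.C 1) := ⟨_, rfl⟩
  have hD0 : D = 0 := by
    by_contra hne
    have hdeg : D.degree < (n : WithBot ℕ) := by
      have h1 : M.charpoly.degree = (Polynomial.X ^ n - Polynomial.C (1 : F)).degree := by
        rw [Matrix.charpoly_degree_eq_dim, Fintype.card_fin,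
          Polynomial.degree_X_pow_sub_C (by omega)]
      have h2 := Polynomial.degree_sub_lt_left h1 (Matrix.charpoly_monic M).ne_zero (by
        rw [(Matrix.charpoly_monic M).leadingCoeff,
          (Polynomial.monic_X_pow_sub_C (1 : F) (by omega)).leadingCoeff])
      rw [Matrix.charpoly_degree_eq_dim, Fintype.card_fin] at h2
      rw [hD]
      exact h2
    have hnat : D.natDegree < n := (Polynomial.natDegree_lt_iff_degree_lt hne).2 hdeg
    have hae : Polynomial.aeval M D = 0 := by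
      rw [hD, map_sub, Matrix.aeval_self_charpoly, map_sub, map_pow, Polynomial.aeval_X,
        Polynomial.aeval_C, map_one, hM, sub_self, sub_zero]
    rw [Polynomial.aeval_eq_sum_range' hnat] at hae
    have h3 := hrel (fun i => D.coeff i) hae
    apply hne
    ext i
    rw [Polynomial.coeff_zero]
    by_cases hi : i < n
    · exact h3 i hi
    · exact Polynomial.coeff_eq_zero_of_natDegree_lt (by omega)
  rw [hD, sub_eq_zero] at hD0
  exact hD0

theorem ss_of_pow {n : ℕ} (hnF : (n : F) ≠ 0) (M : Matrix (Fin n) (Fin n) F) (hM : M ^ n = 1) :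
    Module.End.IsSemisimple (Matrix.toLin' M) := by
  have hsq : Squarefree (Polynomial.X ^ n - Polynomial.C (1 : F)) :=
    (Polynomial.separable_X_pow_sub_C (1 : F) hnF one_ne_zero).squarefree
  apply Module.End.isSemisimple_of_squarefree_aeval_eq_zero hsq
  have h1 : Polynomial.aeval M (Polynomial.X ^ n - Polynomial.C (1 : F)) = 0 := by
    simp only [map_sub, map_pow, Polynomial.aeval_X, Polynomial.aeval_C, hM, map_one, sub_self]
  have h2 := Polynomial.aeval_algHom_apply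
    (Matrix.toLinAlgEquiv' : Matrix (Fin n) (Fin n) F ≃ₐ[F] _) M
    (Polynomial.X ^ n - Polynomial.C (1 : F))
  rw [h1, map_zero] at h2
  exact h2

/-- an element of the normaliser of a field subalgebra of prime degree with a two-dimensional
eigenspace is scalar -/
theorem eig_scalar_gen {n : ℕ} (hnp : n.Prime) (K : Subalgebra F (Matrix (Fin n) (Fin n) F))
    (hK : Cfsg.Geo.IsFieldSubalgebra n K) (g : GL (Fin n) F)
    (hg : g ∈ Cfsg.Geo.subalgebraNormalizer K) (α : F) (v₁ v₂ : Fin n → F)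
    (h1 : (g : Matrix (Fin n) (Fin n) F) *ᵥ v₁ = α • v₁)
    (h2 : (g : Matrix (Fin n) (Fin n) F) *ᵥ v₂ = α • v₂)
    (hv₁ : v₁ ≠ 0) (hind : ∀ a : F, v₂ ≠ a • v₁) :
    (g : Matrix (Fin n) (Fin n) F) = α • (1 : Matrix (Fin n) (Fin n) F) := by
  have hn : 1 ≤ n := hnp.pos
  haveI : Nonempty (Fin n) := ⟨⟨0, hn⟩⟩
  have hg' : ∀ k : Matrix (Fin n) (Fin n) F, k ∈ K ↔ (g : Matrix (Fin n) (Fin n) F) * k
      * ((g⁻¹ : GL (Fin n) F) : Matrix (Fin n) (Fin n) F) ∈ K := hg
  have hig : ((g⁻¹ : GL (Fin n) F) : Matrix (Fin n) (Fin n) F)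
      * (g : Matrix (Fin n) (Fin n) F) = 1 := by
    rw [← Units.val_mul, inv_mul_cancel, Units.val_one]
  have hα : α ≠ 0 := by
    rintro rfl
    rw [zero_smul] at h1
    apply hv₁
    have h3 : (((g⁻¹ : GL (Fin n) F) : Matrix (Fin n) (Fin n) F)
        * (g : Matrix (Fin n) (Fin n) F)) *ᵥ v₁ = 0 := by
      rw [← Matrix.mulVec_mulVec, h1, Matrix.mulVec_zero]
    rwa [hig, Matrix.one_mulVec] at h3
  obtain ⟨κ, hκ, hκv⟩ := exists_K hn K hK v₁ hv₁ v₂
  have hκns : ∀ a : F, κ ≠ a • (1 : Matrix (Fin n) (Fin n) F) := by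
    intro a ha
    apply hind a
    rw [← hκv, ha, Matrix.smul_mulVec, Matrix.one_mulVec]
  obtain ⟨κ₁, hκ₁⟩ : ∃ κ₁ : Matrix (Fin n) (Fin n) F, κ₁ = (g : Matrix (Fin n) (Fin n) F) * κ
      * ((g⁻¹ : GL (Fin n) F) : Matrix (Fin n) (Fin n) F) := ⟨_, rfl⟩
  have hκ₁K : κ₁ ∈ K := by
    rw [hκ₁]
    exact (hg' κ).1 hκ
  have hgκ : (g : Matrix (Fin n) (Fin n) F) * κ = κ₁ * (g : Matrix (Fin n) (Fin n) F) := by
    rw [hκ₁, Matrix.mul_assoc, hig, Matrix.mul_one]
  have h3 : (κ₁ - κ) *ᵥ v₁ = 0 := by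
    have h4 : (g : Matrix (Fin n) (Fin n) F) *ᵥ v₂ = α • (κ₁ *ᵥ v₁) := by
      rw [← hκv, Matrix.mulVec_mulVec, hgκ, ← Matrix.mulVec_mulVec, h1, Matrix.mulVec_smul]
    rw [h2, ← hκv] at h4
    have h5 : κ *ᵥ v₁ = κ₁ *ᵥ v₁ := by
      have h6 := congrArg (fun X => α⁻¹ • X) h4
      simpa only [smul_smul, inv_mul_cancel₀ hα, one_smul] using h6
    rw [Matrix.sub_mulVec, h5, sub_self]
  have hκeq : κ₁ = κ := sub_eq_zero.1 (mulVec_zero_K K hK _ (K.sub_mem hκ₁K hκ) v₁ hv₁ h3)
  rw [hκeq] at hgκ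
  haveI : Nontrivial ↥K := ⟨⟨0, 1, fun h =>
    zero_ne_one (α := Matrix (Fin n) (Fin n) F) (congrArg Subtype.val h)⟩⟩
  haveI : NoZeroDivisors ↥K := ⟨by
    intro a b hab
    by_cases ha : a = 0
    · exact Or.inl ha
    · right
      obtain ⟨y, hy, hya⟩ := hK.inv a.1 a.2 (fun h0 => ha (Subtype.ext h0))
      have hya' : y * a.1 = 1 := by
        rw [← hK.comm a.1 a.2 y hy]
        exact hya
      apply Subtype.ext
      have h3 : a.1 * b.1 = 0 := congrArg Subtype.val hab
      have h4 : y * (a.1 * b.1) = 0 := by rw [h3, Matrix.mul_zero]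
      rw [← Matrix.mul_assoc, hya', Matrix.one_mul] at h4
      exact h4⟩
  haveI : IsDomain ↥K := NoZeroDivisors.to_isDomain _
  obtain ⟨S, hS⟩ : ∃ S : Subalgebra F ↥K, ∀ k : ↥K,
      k ∈ S ↔ (g : Matrix (Fin n) (Fin n) F) * k.1 = k.1 * (g : Matrix (Fin n) (Fin n) F) :=
    ⟨{ carrier := {k | (g : Matrix (Fin n) (Fin n) F) * k.1
          = k.1 * (g : Matrix (Fin n) (Fin n) F)}
       mul_mem' := by
         intro a b ha hb
         show (g : Matrix (Fin n) (Fin n) F) * (a.1 * b.1)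
           = (a.1 * b.1) * (g : Matrix (Fin n) (Fin n) F)
         rw [← Matrix.mul_assoc, (ha : (g : Matrix (Fin n) (Fin n) F) * a.1 = a.1 * _),
           Matrix.mul_assoc, (hb : (g : Matrix (Fin n) (Fin n) F) * b.1 = b.1 * _),
           Matrix.mul_assoc]
       add_mem' := by
         intro a b ha hb
         show (g : Matrix (Fin n) (Fin n) F) * (a.1 + b.1)
           = (a.1 + b.1) * (g : Matrix (Fin n) (Fin n) F)
         rw [Matrix.mul_add, Matrix.add_mul,
           (ha : (g : Matrix (Fin n) (Fin n) F) * a.1 = a.1 * _),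
           (hb : (g : Matrix (Fin n) (Fin n) F) * b.1 = b.1 * _)]
       algebraMap_mem' := by
         intro r
         show (g : Matrix (Fin n) (Fin n) F) * (algebraMap F (Matrix (Fin n) (Fin n) F) r)
           = (algebraMap F (Matrix (Fin n) (Fin n) F) r) * (g : Matrix (Fin n) (Fin n) F)
         exact (Algebra.commutes r (g : Matrix (Fin n) (Fin n) F)).symm }, fun _ => Iff.rfl⟩
  have hprime : (Module.finrank F ↥K).Prime := by
    rw [hK.finrank_eq]
    exact hnp
  have hSκ : (⟨κ, hκ⟩ : ↥K) ∈ S := (hS _).2 hgκ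
  have hStop : S = ⊤ := by
    rcases (Subalgebra.isSimpleOrder_of_finrank_prime F ↥K hprime).eq_bot_or_eq_top S with h | h
    · exfalso
      rw [h, Algebra.mem_bot] at hSκ
      obtain ⟨r, hr⟩ := hSκ
      apply hκns r
      have h5 : (algebraMap F (Matrix (Fin n) (Fin n) F) r) = κ := congrArg Subtype.val hr
      rw [← h5]
      exact Algebra.algebraMap_eq_smul_one r
    · exact h
  have hcomm : ∀ k ∈ K, (g : Matrix (Fin n) (Fin n) F) * k
      = k * (g : Matrix (Fin n) (Fin n) F) := by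
    intro k hk
    have h6 : (⟨k, hk⟩ : ↥K) ∈ S := by
      rw [hStop]
      exact Algebra.mem_top
    exact (hS _).1 h6
  apply Matrix.toLin'.injective
  apply LinearMap.ext
  intro u
  rw [Matrix.toLin'_apply, Matrix.toLin'_apply, Matrix.smul_mulVec, Matrix.one_mulVec]
  obtain ⟨k, hk, rfl⟩ := exists_K hn K hK v₁ hv₁ u
  rw [Matrix.mulVec_mulVec, hcomm k hk, ← Matrix.mulVec_mulVec, h1, Matrix.mulVec_smul]

/-- an element with a two-dimensional eigenspace has no conjugate in the normaliser unless it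
is scalar -/
theorem not_conj_eig_gen {n : ℕ} (hnp : n.Prime) (K : Subalgebra F (Matrix (Fin n) (Fin n) F))
    (hK : Cfsg.Geo.IsFieldSubalgebra n K) (x : Matrix.SpecialLinearGroup (Fin n) F) (α : F)
    (u₁ u₂ : Fin n → F)
    (h1 : (x : Matrix (Fin n) (Fin n) F) *ᵥ u₁ = α • u₁)
    (h2 : (x : Matrix (Fin n) (Fin n) F) *ᵥ u₂ = α • u₂)
    (hu₁ : u₁ ≠ 0) (hind : ∀ a : F, u₂ ≠ a • u₁)
    (hns : (x : Matrix (Fin n) (Fin n) F) ≠ α • (1 : Matrix (Fin n) (Fin n) F))
    (P : Matrix.SpecialLinearGroup (Fin n) F) :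
    P⁻¹ * x * P ∉ ((Cfsg.Geo.subalgebraNormalizer K).comap
        (Matrix.SpecialLinearGroup.toGL : Matrix.SpecialLinearGroup (Fin n) F →* GL (Fin n) F)) := by
  classical
  intro hmem
  rw [Subgroup.mem_comap] at hmem
  obtain ⟨y, hy⟩ : ∃ y : Matrix (Fin n) (Fin n) F,
      y = ((P⁻¹ * x * P : Matrix.SpecialLinearGroup (Fin n) F) : Matrix (Fin n) (Fin n) F) :=
    ⟨_, rfl⟩
  have hcoe : ((Matrix.SpecialLinearGroup.toGL (P⁻¹ * x * P) : GL (Fin n) F) :
      Matrix (Fin n) (Fin n) F) = y := by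
    rw [hy]
    rfl
  obtain ⟨w, hw⟩ : ∃ w : (Fin n → F) → (Fin n → F), w = fun u =>
      ((P⁻¹ : Matrix.SpecialLinearGroup (Fin n) F) : Matrix (Fin n) (Fin n) F) *ᵥ u :=
    ⟨_, rfl⟩
  have hPw : ∀ u, (P : Matrix (Fin n) (Fin n) F) *ᵥ (w u) = u := by
    intro u
    rw [hw]
    show (P : Matrix (Fin n) (Fin n) F) *ᵥ
      (((P⁻¹ : Matrix.SpecialLinearGroup (Fin n) F) : Matrix (Fin n) (Fin n) F) *ᵥ u) = _
    rw [Matrix.mulVec_mulVec, ← Matrix.SpecialLinearGroup.coe_mul, mul_inv_cancel,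
      Matrix.SpecialLinearGroup.coe_one, Matrix.one_mulVec]
  have hPinj : ∀ u v : Fin n → F, (P : Matrix (Fin n) (Fin n) F) *ᵥ u
      = (P : Matrix (Fin n) (Fin n) F) *ᵥ v → u = v := by
    intro u v huv
    have h1 := congrArg (fun z => ((P⁻¹ : Matrix.SpecialLinearGroup (Fin n) F) :
      Matrix (Fin n) (Fin n) F) *ᵥ z) huv
    simp only [Matrix.mulVec_mulVec, ← Matrix.SpecialLinearGroup.coe_mul, inv_mul_cancel,
      Matrix.SpecialLinearGroup.coe_one, Matrix.one_mulVec] at h1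
    exact h1
  have hPy : ∀ v : Fin n → F, (P : Matrix (Fin n) (Fin n) F) *ᵥ (y *ᵥ v)
      = (x : Matrix (Fin n) (Fin n) F) *ᵥ ((P : Matrix (Fin n) (Fin n) F) *ᵥ v) := by
    intro v
    rw [hy, Matrix.SpecialLinearGroup.coe_mul, Matrix.SpecialLinearGroup.coe_mul,
      Matrix.mulVec_mulVec, Matrix.mulVec_mulVec, ← Matrix.mul_assoc, ← Matrix.mul_assoc,
      ← Matrix.SpecialLinearGroup.coe_mul, mul_inv_cancel, Matrix.SpecialLinearGroup.coe_one,
      Matrix.one_mul]
  have hyw : ∀ u : Fin n → F, (x : Matrix (Fin n) (Fin n) F) *ᵥ u = α • u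
      → y *ᵥ w u = α • w u := by
    intro u hu
    apply hPinj
    rw [hPy, hPw, hu, Matrix.mulVec_smul, hPw]
  have hw0 : w u₁ ≠ 0 := by
    intro h0
    have h3 := hPw u₁
    rw [h0, Matrix.mulVec_zero] at h3
    exact hu₁ h3.symm
  have hind' : ∀ a : F, w u₂ ≠ a • w u₁ := by
    intro a ha
    apply hind a
    have h3 := hPw u₂
    rw [ha, Matrix.mulVec_smul, hPw] at h3
    exact h3.symm
  have hsc := eig_scalar_gen hnp K hK _ hmem α (w u₁) (w u₂) (by rw [hcoe]; exact hyw u₁ h1)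
    (by rw [hcoe]; exact hyw u₂ h2) hw0 hind'
  rw [hcoe] at hsc
  apply hns
  apply Matrix.toLin'.injective
  apply LinearMap.ext
  intro u
  rw [Matrix.toLin'_apply, Matrix.toLin'_apply, Matrix.smul_mulVec, Matrix.one_mulVec]
  have hu : u = (P : Matrix (Fin n) (Fin n) F) *ᵥ (w u) := (hPw u).symm
  rw [hu, ← hPy, hsc, Matrix.smul_mulVec, Matrix.one_mulVec, Matrix.mulVec_smul]

end gencp

section genfin

open Matrix

theorem ff_norel_gen {L : Type*} [Field L] [Fintype L] (q n : ℕ) (hq : 2 ≤ q) (hn : 1 ≤ n)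
    (hcard : Fintype.card L = q ^ n) (α : ℕ → L)
    (h : ∀ μ : L, ∑ j ∈ Finset.range n, α j * μ ^ (q ^ j) = 0) : ∀ j < n, α j = 0 := by
  classical
  obtain ⟨P, hP⟩ : ∃ P : Polynomial L, P = ∑ j ∈ Finset.range n,
      Polynomial.C (α j) * Polynomial.X ^ (q ^ j) := ⟨_, rfl⟩
  have hdeg : P.natDegree ≤ q ^ (n - 1) := by
    rw [hP]
    apply Polynomial.natDegree_sum_le_of_forall_le
    intro j hj
    rw [Finset.mem_range] at hj
    exact (Polynomial.natDegree_C_mul_X_pow_le _ _).trans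
      (Nat.pow_le_pow_right (by omega) (by omega))
  have hP0 : P = 0 := by
    apply Polynomial.eq_zero_of_natDegree_lt_card_of_eval_eq_zero P (f := id)
      Function.injective_id
    · intro μ
      rw [hP, Polynomial.eval_finsetSum]
      simp only [Polynomial.eval_mul, Polynomial.eval_C, Polynomial.eval_pow, Polynomial.eval_X,
        id]
      exact h μ
    · rw [hcard]
      have h1 : q ^ (n - 1) < q ^ n := Nat.pow_lt_pow_right (by omega) (by omega)
      omega
  intro j hj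
  have c := congrArg (fun p => p.coeff (q ^ j)) hP0
  simp only [hP, Polynomial.finsetSum_coeff, Polynomial.coeff_C_mul, Polynomial.coeff_X_pow,
    Polynomial.coeff_zero] at c
  rw [Finset.sum_eq_single j] at c
  · simpa using c
  · intro j' _ hne
    rw [if_neg, mul_zero]
    intro heq
    exact hne (Nat.pow_right_injective hq heq).symm
  · intro hnot
    exact absurd (Finset.mem_range.2 hj) hnot

variable {F : Type*} [Field F] [Fintype F]

theorem K_card_gen {n : ℕ} (K : Subalgebra F (Matrix (Fin n) (Fin n) F))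
    (hK : Cfsg.Geo.IsFieldSubalgebra n K) (q : ℕ) (hq : Fintype.card F = q)
    [Fintype ↥K] : Fintype.card ↥K = q ^ n := by
  rw [Module.card_eq_pow_finrank (K := F) (V := ↥K), hK.finrank_eq, hq]

theorem K_pow_card_gen {n : ℕ} (hn : 1 ≤ n) (K : Subalgebra F (Matrix (Fin n) (Fin n) F))
    (hK : Cfsg.Geo.IsFieldSubalgebra n K) (q : ℕ) (hq : Fintype.card F = q)
    (κ : Matrix (Fin n) (Fin n) F) (hκ : κ ∈ K) : κ ^ (q ^ n) = κ := by
  classical
  haveI : Fintype ↥K := Fintype.ofFinite _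
  have hc : Fintype.card ↥K = q ^ n := K_card_gen K hK q hq
  letI : Field ↥K := (isFieldK hn K hK).toField
  have h := FiniteField.pow_card (⟨κ, hκ⟩ : ↥K)
  rw [hc] at h
  exact congrArg Subtype.val h

theorem K_norel_gen {n : ℕ} (hn : 1 ≤ n) (K : Subalgebra F (Matrix (Fin n) (Fin n) F))
    (hK : Cfsg.Geo.IsFieldSubalgebra n K) (q : ℕ) (hq : Fintype.card F = q) (a : ℕ → F)
    (h : ∀ κ ∈ K, ∑ j ∈ Finset.range n, a j • κ ^ (q ^ j) = 0) : ∀ j < n, a j = 0 := by
  classical
  have hq2 : 2 ≤ q := by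
    rw [← hq]
    exact Fintype.one_lt_card
  haveI : Nonempty (Fin n) := ⟨⟨0, hn⟩⟩
  haveI : Fintype ↥K := Fintype.ofFinite _
  have hc : Fintype.card ↥K = q ^ n := K_card_gen K hK q hq
  have h1K : (1 : Matrix (Fin n) (Fin n) F) ≠ 0 := one_ne_zero
  have hplain : ∀ μ : ↥K, ∑ j ∈ Finset.range n, (a j • (1 : ↥K)) * μ ^ (q ^ j) = 0 := by
    intro μ
    apply Subtype.ext
    rw [AddSubmonoidClass.coe_finsetSum]
    refine (Finset.sum_congr rfl ?_).trans (h μ.1 μ.2)
    intro j _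
    show a j • (1 : Matrix (Fin n) (Fin n) F) * μ.1 ^ (q ^ j) = _
    rw [Matrix.smul_mul, Matrix.one_mul]
  letI : Field ↥K := (isFieldK hn K hK).toField
  have hres := ff_norel_gen (L := ↥K) q n hq2 hn hc (fun j => a j • (1 : ↥K)) hplain
  intro j hj
  have h' : a j • (1 : Matrix (Fin n) (Fin n) F) = 0 := congrArg Subtype.val (hres j hj)
  exact (smul_eq_zero.1 h').resolve_right h1K

/-- the matrix of the `q`-power map of a field subalgebra of full degree -/
theorem exists_tau_gen {p : ℕ} [Fact p.Prime] [CharP F p] {n : ℕ} (hn : 1 ≤ n)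
    (K : Subalgebra F (Matrix (Fin n) (Fin n) F)) (hK : Cfsg.Geo.IsFieldSubalgebra n K)
    (q f : ℕ) (hq : Fintype.card F = q) (hqf : q = p ^ f) :
    ∃ τ : Matrix (Fin n) (Fin n) F, τ ^ n = 1 ∧
      (∀ j : ℕ, ∀ κ ∈ K, τ ^ j * κ = κ ^ (q ^ j) * τ ^ j) ∧
      (∀ a : ℕ → F, ∑ j ∈ Finset.range n, a j • τ ^ j = 0 → ∀ j < n, a j = 0) := by
  classical
  haveI : Nonempty (Fin n) := ⟨⟨0, hn⟩⟩
  obtain ⟨v₀, hv₀⟩ : ∃ v₀ : Fin n → F, v₀ = Pi.single ⟨0, hn⟩ 1 := ⟨_, rfl⟩
  have hv₀0 : v₀ ≠ 0 := by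
    intro h
    have h1 := congrFun h ⟨0, hn⟩
    rw [hv₀, Pi.single_eq_same, Pi.zero_apply] at h1
    exact one_ne_zero h1
  obtain ⟨E, hE⟩ := exists_ev hn K hK v₀ hv₀0
  obtain ⟨Fr, hFr⟩ : ∃ Fr : ↥K →ₗ[F] ↥K, ∀ κ : ↥K,
      ((Fr κ : ↥K) : Matrix (Fin n) (Fin n) F) = (κ : Matrix (Fin n) (Fin n) F) ^ q :=
    ⟨{ toFun := fun κ => ⟨(κ : Matrix (Fin n) (Fin n) F) ^ q, K.pow_mem κ.2 q⟩
       map_add' := by
         intro a b
         apply Subtype.ext
         show ((a : Matrix (Fin n) (Fin n) F) + (b : Matrix (Fin n) (Fin n) F)) ^ q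
           = (a : Matrix (Fin n) (Fin n) F) ^ q + (b : Matrix (Fin n) (Fin n) F) ^ q
         rw [hqf]
         exact add_pow_char_pow_of_commute p f (hK.comm a.1 a.2 b.1 b.2)
       map_smul' := by
         intro c a
         apply Subtype.ext
         show (c • (a : Matrix (Fin n) (Fin n) F)) ^ q = c • (a : Matrix (Fin n) (Fin n) F) ^ q
         rw [smul_pow, ← hq, FiniteField.pow_card] }, fun _ => rfl⟩
  obtain ⟨τ, hτ⟩ : ∃ τ : Matrix (Fin n) (Fin n) F, τ = LinearMap.toMatrix'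
      ((E : ↥K →ₗ[F] (Fin n → F)) ∘ₗ Fr ∘ₗ
        ((E.symm : (Fin n → F) ≃ₗ[F] ↥K) : (Fin n → F) →ₗ[F] ↥K)) := ⟨_, rfl⟩
  have hτv : ∀ κ ∈ K, τ *ᵥ (κ *ᵥ v₀) = (κ ^ q) *ᵥ v₀ := by
    intro κ hκ
    rw [hτ, LinearMap.toMatrix'_mulVec]
    show E (Fr (E.symm (κ *ᵥ v₀))) = _
    have h1 : κ *ᵥ v₀ = E ⟨κ, hκ⟩ := (hE ⟨κ, hκ⟩).symm
    rw [h1, E.symm_apply_apply, hE, hFr]
  have hτpow : ∀ (j : ℕ), ∀ κ ∈ K, τ ^ j *ᵥ (κ *ᵥ v₀) = (κ ^ (q ^ j)) *ᵥ v₀ := by
    intro j
    induction j with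
    | zero =>
      intro κ hκ
      rw [pow_zero, pow_zero, pow_one, Matrix.one_mulVec]
    | succ j ih =>
      intro κ hκ
      rw [pow_succ τ j, ← Matrix.mulVec_mulVec, hτv κ hκ, ih (κ ^ q) (K.pow_mem hκ q), ← pow_mul,
        ← pow_succ']
  have hτK : ∀ j : ℕ, ∀ κ ∈ K, τ ^ j * κ = κ ^ (q ^ j) * τ ^ j := by
    intro j κ hκ
    apply Matrix.toLin'.injective
    apply LinearMap.ext
    intro u
    rw [Matrix.toLin'_apply, Matrix.toLin'_apply]
    obtain ⟨l, hl, rfl⟩ := exists_K hn K hK v₀ hv₀0 u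
    have h1 : (κ * l) ^ (q ^ j) = κ ^ (q ^ j) * l ^ (q ^ j) :=
      (show Commute κ l from hK.comm κ hκ l hl).mul_pow _
    rw [← Matrix.mulVec_mulVec, ← Matrix.mulVec_mulVec, hτpow j l hl,
      Matrix.mulVec_mulVec v₀ κ l, hτpow j (κ * l) (K.mul_mem hκ hl), Matrix.mulVec_mulVec, h1]
  have hτn : τ ^ n = 1 := by
    apply Matrix.toLin'.injective
    apply LinearMap.ext
    intro u
    rw [Matrix.toLin'_apply, Matrix.toLin'_apply, Matrix.one_mulVec]
    obtain ⟨l, hl, rfl⟩ := exists_K hn K hK v₀ hv₀0 u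
    rw [hτpow n l hl, K_pow_card_gen hn K hK q hq l hl]
  refine ⟨τ, hτn, hτK, ?_⟩
  intro a hrel
  apply K_norel_gen hn K hK q hq a
  intro κ hκ
  have h1 : (∑ j ∈ Finset.range n, a j • κ ^ (q ^ j)) *ᵥ v₀ = 0 := by
    have h2 := congrArg (fun X => X *ᵥ (κ *ᵥ v₀)) hrel
    simp only [Matrix.sum_mulVec, Matrix.smul_mulVec, Matrix.zero_mulVec] at h2
    rw [Matrix.sum_mulVec, ← h2]
    apply Finset.sum_congr rfl
    intro j _
    rw [Matrix.smul_mulVec, hτpow j κ hκ]
  exact mulVec_zero_K K hK _ (Subalgebra.sum_mem K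
    (fun j _ => K.smul_mem (K.pow_mem hκ _) (a j))) v₀ hv₀0 h1

omit [Fintype F] in
theorem tau_norm_gen {n : ℕ} (hn : 1 ≤ n) (K : Subalgebra F (Matrix (Fin n) (Fin n) F))
    (τ : Matrix (Fin n) (Fin n) F) (q : ℕ) (hτn : τ ^ n = 1)
    (hτ : ∀ j : ℕ, ∀ κ ∈ K, τ ^ j * κ = κ ^ (q ^ j) * τ ^ j) :
    ∃ g : GL (Fin n) F, (g : Matrix (Fin n) (Fin n) F) = τ ∧
      g ∈ Cfsg.Geo.subalgebraNormalizer K := by
  have h1 : τ * τ ^ (n - 1) = 1 := by
    rw [← pow_succ', Nat.sub_add_cancel hn]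
    exact hτn
  have h2 : τ ^ (n - 1) * τ = 1 := by
    rw [← pow_succ, Nat.sub_add_cancel hn]
    exact hτn
  refine ⟨⟨τ, τ ^ (n - 1), h1, h2⟩, rfl, ?_⟩
  show ∀ k : Matrix (Fin n) (Fin n) F, k ∈ K ↔ τ * k * τ ^ (n - 1) ∈ K
  intro k
  constructor
  · intro hk
    have h3 := hτ 1 k hk
    rw [pow_one, pow_one] at h3
    rw [h3, Matrix.mul_assoc, h1, Matrix.mul_one]
    exact K.pow_mem hk q
  · intro hk
    obtain ⟨l, hl⟩ : ∃ l : Matrix (Fin n) (Fin n) F, l = τ * k * τ ^ (n - 1) := ⟨_, rfl⟩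
    rw [← hl] at hk
    have hkl : k = τ ^ (n - 1) * l * τ := by
      rw [hl]
      calc k = (τ ^ (n - 1) * τ) * k * (τ ^ (n - 1) * τ) := by
            rw [h2, Matrix.one_mul, Matrix.mul_one]
        _ = τ ^ (n - 1) * (τ * k * τ ^ (n - 1)) * τ := by simp only [Matrix.mul_assoc]
    rw [hkl, hτ (n - 1) l hk, Matrix.mul_assoc, h2, Matrix.mul_one]
    exact K.pow_mem hk _

end genfin

section blocksec

open Matrix

variable {F : Type*} [Field F]

/-- a block of order dividing `r` and determinant one, padded by an identity block of size at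
least two -/
theorem bad_of_block {n m : ℕ} (hm : m + 2 ≤ n) (A : Matrix (Fin m) (Fin m) F) (r : ℕ)
    (hA : A ^ r = 1) (hdet : A.det = 1) (hA1 : A ≠ 1) :
    ∃ x : Matrix.SpecialLinearGroup (Fin n) F,
      (x : Matrix (Fin n) (Fin n) F) ^ r = 1 ∧ (x : Matrix (Fin n) (Fin n) F) ≠ 1 ∧
      ∃ u₁ u₂ : Fin n → F, (x : Matrix (Fin n) (Fin n) F) *ᵥ u₁ = u₁ ∧
        (x : Matrix (Fin n) (Fin n) F) *ᵥ u₂ = u₂ ∧ u₁ ≠ 0 ∧ ∀ a : F, u₂ ≠ a • u₁ := by
  classical
  obtain ⟨B, hB⟩ : ∃ B : Matrix (Fin m ⊕ Fin (n - m)) (Fin m ⊕ Fin (n - m)) F,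
      B = Matrix.fromBlocks A 0 0 1 := ⟨_, rfl⟩
  have hBpow : ∀ j : ℕ, B ^ j = Matrix.fromBlocks (A ^ j) 0 0 1 := by
    intro j
    induction j with
    | zero => rw [pow_zero, pow_zero, Matrix.fromBlocks_one]
    | succ j ih =>
      rw [pow_succ, ih, hB, Matrix.fromBlocks_multiply, ← pow_succ]
      simp only [Matrix.mul_zero, Matrix.zero_mul, add_zero, zero_add, Matrix.mul_one]
  have hBr : B ^ r = 1 := by
    rw [hBpow, hA, Matrix.fromBlocks_one]
  have hBdet : B.det = 1 := by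
    rw [hB, Matrix.det_fromBlocks_zero₂₁, hdet, Matrix.det_one, mul_one]
  have hB1 : B ≠ 1 := by
    intro h
    rw [hB, ← Matrix.fromBlocks_one, Matrix.fromBlocks_inj] at h
    exact hA1 h.1
  obtain ⟨e, he⟩ : ∃ e : Fin m ⊕ Fin (n - m) ≃ Fin n,
      e = finSumFinEquiv.trans (finCongr (by omega)) := ⟨_, rfl⟩
  obtain ⟨X, hX⟩ : ∃ X : Matrix (Fin n) (Fin n) F, X = Matrix.reindexAlgEquiv F F e B :=
    ⟨_, rfl⟩
  have hXr : X ^ r = 1 := by
    rw [hX, ← map_pow, hBr, map_one]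
  have hXdet : X.det = 1 := by
    rw [hX, Matrix.coe_reindexAlgEquiv, Matrix.det_reindex_self, hBdet]
  have hX1 : X ≠ 1 := by
    intro h
    apply hB1
    apply (Matrix.reindexAlgEquiv F F e).injective
    rw [← hX, h, map_one]
  have hXv : ∀ w : Fin m ⊕ Fin (n - m) → F, X *ᵥ (w ∘ e.symm) = (B *ᵥ w) ∘ e.symm := by
    intro w
    rw [hX, Matrix.coe_reindexAlgEquiv, Matrix.reindex_apply, Matrix.submatrix_mulVec_equiv]
    congr 2
    funext i
    simp
  have hBfix : ∀ j : Fin (n - m), B *ᵥ (Pi.single (Sum.inr j) 1 : Fin m ⊕ Fin (n - m) → F)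
      = Pi.single (Sum.inr j) 1 := by
    intro j
    rw [Matrix.mulVec_single_one]
    funext i
    rcases i with i | i
    · rw [Matrix.col_apply, hB, Matrix.fromBlocks_apply₁₂, Matrix.zero_apply,
        Pi.single_eq_of_ne (by simp)]
    · rw [Matrix.col_apply, hB, Matrix.fromBlocks_apply₂₂, Matrix.one_apply, Pi.single_apply]
      simp
  obtain ⟨j₁, hj₁⟩ : ∃ j₁ : Fin (n - m), (j₁ : ℕ) = 0 := ⟨⟨0, by omega⟩, rfl⟩
  obtain ⟨j₂, hj₂⟩ : ∃ j₂ : Fin (n - m), (j₂ : ℕ) = 1 := ⟨⟨1, by omega⟩, rfl⟩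
  have hj12 : j₂ ≠ j₁ := by
    intro h
    rw [h, hj₁] at hj₂
    exact zero_ne_one hj₂
  refine ⟨⟨X, hXdet⟩, hXr, hX1,
    (Pi.single (Sum.inr j₁) 1 : Fin m ⊕ Fin (n - m) → F) ∘ e.symm,
    (Pi.single (Sum.inr j₂) 1 : Fin m ⊕ Fin (n - m) → F) ∘ e.symm, ?_, ?_, ?_, ?_⟩
  · show X *ᵥ _ = _
    rw [hXv, hBfix]
  · show X *ᵥ _ = _
    rw [hXv, hBfix]
  · intro h
    have h1 := congrFun h (e (Sum.inr j₁))
    rw [Function.comp_apply, Equiv.symm_apply_apply, Pi.single_eq_same, Pi.zero_apply] at h1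
    exact one_ne_zero h1
  · intro a h
    have h1 := congrFun h (e (Sum.inr j₂))
    rw [Function.comp_apply, Equiv.symm_apply_apply, Pi.single_eq_same, Pi.smul_apply,
      Function.comp_apply, Equiv.symm_apply_apply,
      Pi.single_eq_of_ne (by
        intro h2
        exact hj12 (Sum.inr.inj h2)), smul_zero] at h1
    exact one_ne_zero h1

end blocksec

section rootsec

variable {F : Type*} [Field F] [Fintype F]

theorem eq_one_of_coprime (q n : ℕ) (hq : Fintype.card F = q) (hn : n ≠ 0)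
    (hcop : Nat.Coprime n (q - 1)) (δ : F) (hδ : δ ^ n = 1) : δ = 1 := by
  have hδ0 : δ ≠ 0 := by
    rintro rfl
    rw [zero_pow hn] at hδ
    exact zero_ne_one hδ
  have h1 : δ ^ (q - 1) = 1 := by
    rw [← hq]
    exact FiniteField.pow_card_sub_one_eq_one δ hδ0
  have h2 : orderOf δ ∣ n := orderOf_dvd_of_pow_eq_one hδ
  have h3 : orderOf δ ∣ q - 1 := orderOf_dvd_of_pow_eq_one h1
  have h4 : orderOf δ ∣ Nat.gcd n (q - 1) := Nat.dvd_gcd h2 h3
  rw [Nat.Coprime.gcd_eq_one hcop] at h4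
  exact orderOf_eq_one_iff.1 (Nat.dvd_one.1 h4)

theorem exists_root_of_coprime (q n : ℕ) (hq : Fintype.card F = q)
    (hcop : Nat.Coprime n (q - 1)) (δ : F) (hδ0 : δ ≠ 0) : ∃ c : F, c ^ n = δ := by
  have h1 : δ ^ (q - 1) = 1 := by
    rw [← hq]
    exact FiniteField.pow_card_sub_one_eq_one δ hδ0
  rcases Nat.lt_or_ge 1 (q - 1) with hlt | hle
  · obtain ⟨m, -, hm⟩ := Nat.exists_mul_mod_eq_one_of_coprime hcop hlt
    refine ⟨δ ^ m, ?_⟩
    have h2 := Nat.div_add_mod (n * m) (q - 1)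
    rw [hm] at h2
    rw [← pow_mul, mul_comm m n, ← h2, pow_add, pow_mul, h1, one_pow, one_mul, pow_one]
  · have hq2 : 2 ≤ q := by
      rw [← hq]
      exact Fintype.one_lt_card
    have hq1 : q - 1 = 1 := by omega
    rw [hq1, pow_one] at h1
    exact ⟨1, by rw [one_pow, h1]⟩

end rootsec

/-- Elements of order `n` of PSL_n(q), `n` prime, and the normalizer of a Singer cycle. Here `T = PSL_n(F)` for a field `F` with `q = p^f` elements (`n ≥ 2`, `(n, q) ≠ (2, 2), (2, 3)`), `k` is a prime dividing `n`, `K` is a subalgebra of the `n × n` matrices that is a field of degree `k` over `F` (an extension-field structure F_{q^k} on `F^n`), and `H` is the subgroup of matrices of determinant 1 normalizing `K` — a subgroup of type GL_{n/k}(q^k) (maximal except in some small cases; maximality is not assumed); Ω is the set of cosets of `H` in `T`, so an element of `T` of prime order `r` (a matrix `x` of determinant 1 with `x^r` scalar, `x` not scalar) fixes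 a point of Ω when some conjugate of `x` by a matrix of determinant 1 normalizes `K`. Take `k = n > 3` prime with `n ≠ p` (so `H` is the normalizer of a Singer cycle), and suppose `n` divides the index of `H`. Then every element of `T` of order `n` is conjugate in `T` into `H` if and only if the multiplicative order of `q` modulo `n` is `n − 1`. -/
theorem result {F : Type*} [Field F] [Fintype F] {p : ℕ} [Fact p.Prime] [CharP F p] {q : ℕ} (hq : Fintype.card F = q)
    (n : ℕ) (hn : 2 ≤ n) (hT : (n, q) ≠ (2, 2) ∧ (n, q) ≠ (2, 3))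
    (k : ℕ) (hk : k.Prime) (hkn : k ∣ n) (K : Subalgebra F (Matrix (Fin n) (Fin n) F)) (hK : Cfsg.Geo.IsFieldSubalgebra k K) (hkn' : k = n) (hn3 : 3 < n) (hnp : n ≠ p) (hΩ : n ∣ ((Cfsg.Geo.subalgebraNormalizer K).comap (Matrix.SpecialLinearGroup.toGL : Matrix.SpecialLinearGroup (Fin n) F →* GL (Fin n) F)).index) :
    (∀ x : Matrix.SpecialLinearGroup (Fin n) F,
      (∃ z : F, ((x ^ n : Matrix.SpecialLinearGroup (Fin n) F) : Matrix (Fin n) (Fin n) F) = z • (1 : Matrix (Fin n) (Fin n) F)) →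
      (∀ z : F, (x : Matrix (Fin n) (Fin n) F) ≠ z • (1 : Matrix (Fin n) (Fin n) F)) →
      ∃ P : Matrix.SpecialLinearGroup (Fin n) F, P⁻¹ * x * P ∈ ((Cfsg.Geo.subalgebraNormalizer K).comap (Matrix.SpecialLinearGroup.toGL : Matrix.SpecialLinearGroup (Fin n) F →* GL (Fin n) F))) ↔
    orderOf (q : ZMod n) = n - 1 := by
  classical
  subst hkn'
  haveI : Fact k.Prime := ⟨hk⟩
  have hq1 : 1 < q := by
    rw [← hq]
    exact Fintype.one_lt_card
  obtain ⟨f, hp, hf⟩ := FiniteField.card F p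
  have hqf : q = p ^ (f : ℕ) := by rw [← hq, hf]
  have hnF : ((k : ℕ) : F) ≠ 0 := by
    intro h
    rw [CharP.cast_eq_zero_iff F p] at h
    exact hnp ((Nat.prime_dvd_prime_iff_eq hp hk).1 h).symm
  have hqn : ((q : ℕ) : ZMod k) ≠ 0 := by
    intro h
    rw [ZMod.natCast_eq_zero_iff, hqf] at h
    have h2 := hk.dvd_of_dvd_pow h
    exact hnp ((Nat.prime_dvd_prime_iff_eq hk hp).1 h2)
  have hk1 : 1 ≤ k := by omega
  constructor
  · intro hall
    by_contra hord
    obtain ⟨i, hi⟩ : ∃ i, i = orderOf ((q : ℕ) : ZMod k) := ⟨_, rfl⟩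
    have hidvd : i ∣ k - 1 := by
      rw [hi]
      exact ZMod.orderOf_dvd_card_sub_one hqn
    have hipos : 0 < i := Nat.pos_of_dvd_of_pos hidvd (by omega)
    have hi2 : i + 2 ≤ k := by
      obtain ⟨c, hc⟩ := hidvd
      have hc2 : 2 ≤ c := by
        rcases Nat.lt_or_ge c 2 with h | h
        · exfalso
          interval_cases c
          · omega
          · apply hord
            rw [← hi]
            omega
        · exact h
      have h5 : i * 2 ≤ i * c := Nat.mul_le_mul_left _ hc2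
      omega
    have hqi : ((q : ℕ) : ZMod k) ^ i = 1 := by
      rw [hi]
      exact pow_orderOf_eq_one _
    have hkdvd : k ∣ q ^ i - 1 := by
      have h1 : ((q ^ i : ℕ) : ZMod k) = ((1 : ℕ) : ZMod k) := by
        push_cast
        exact hqi
      rw [ZMod.natCast_eq_natCast_iff] at h1
      exact (Nat.modEq_iff_dvd' (Nat.one_le_pow _ _ (by omega))).1 h1.symm
    obtain ⟨m, hm2, A, hAk, hAdet, hA1⟩ : ∃ m, m + 2 ≤ k ∧
        ∃ A : Matrix (Fin m) (Fin m) F, A ^ k = 1 ∧ A.det = 1 ∧ A ≠ 1 := by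
      by_cases hi1 : i = 1
      · rw [hi1, pow_one] at hkdvd
        have hcard : Nat.card Fˣ = q - 1 := by
          rw [Nat.card_eq_fintype_card, Fintype.card_units, hq]
        obtain ⟨ω, hω⟩ := exists_prime_orderOf_dvd_card' (G := Fˣ) k (by
          rw [hcard]
          exact hkdvd)
        have hωk : (ω : F) ^ k = 1 := by
          have h1 := pow_orderOf_eq_one ω
          rw [hω] at h1
          rw [← Units.val_pow_eq_pow_val, h1, Units.val_one]
        have hω1 : (ω : F) ≠ 1 := by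
          intro h
          have h2 : ω = 1 := Units.ext h
          rw [h2, orderOf_one] at hω
          omega
        refine ⟨2, by omega, Matrix.diagonal ![(ω : F), (ω : F) ^ (k - 1)], ?_, ?_, ?_⟩
        · rw [Matrix.diagonal_pow, ← Matrix.diagonal_one]
          congr 1
          funext j
          fin_cases j
          · show (ω : F) ^ k = 1
            exact hωk
          · show ((ω : F) ^ (k - 1)) ^ k = 1
            rw [← pow_mul, mul_comm, pow_mul, hωk, one_pow]
        · rw [Matrix.det_diagonal, Fin.prod_univ_two]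
          show (ω : F) * (ω : F) ^ (k - 1) = 1
          rw [← pow_succ', Nat.sub_add_cancel hk1]
          exact hωk
        · intro h
          have h1 := congrFun (congrFun h 0) 0
          rw [Matrix.diagonal_apply_eq, Matrix.one_apply_eq] at h1
          exact hω1 h1
      · have hcardGL : k ∣ Nat.card (GL (Fin i) F) := by
          rw [Matrix.card_GL_field, hq]
          have h0 : q ^ i - q ^ ((⟨0, hipos⟩ : Fin i) : ℕ) = q ^ i - 1 := by
            rw [pow_zero]
          exact dvd_trans (by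
            rw [h0]
            exact hkdvd) (Finset.dvd_prod_of_mem (fun j : Fin i => q ^ i - q ^ (j : ℕ))
              (Finset.mem_univ (⟨0, hipos⟩ : Fin i)))
        obtain ⟨g, hg⟩ := exists_prime_orderOf_dvd_card' (G := GL (Fin i) F) k hcardGL
        have hgk : (g : Matrix (Fin i) (Fin i) F) ^ k = 1 := by
          have h1 := pow_orderOf_eq_one g
          rw [hg] at h1
          rw [← Units.val_pow_eq_pow_val, h1, Units.val_one]
        have hg1 : (g : Matrix (Fin i) (Fin i) F) ≠ 1 := by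
          intro h
          have h2 : g = 1 := Units.ext h
          rw [h2, orderOf_one] at hg
          omega
        have hcop : Nat.Coprime k (q - 1) := by
          rw [hk.coprime_iff_not_dvd]
          intro hdvd
          apply hi1
          have h1 : ((q : ℕ) : ZMod k) = ((1 : ℕ) : ZMod k) := by
            rw [ZMod.natCast_eq_natCast_iff]
            exact ((Nat.modEq_iff_dvd' (by omega)).2 hdvd).symm
          rw [hi, h1, Nat.cast_one, orderOf_one]
        have hdetg : (g : Matrix (Fin i) (Fin i) F).det = 1 := by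
          apply eq_one_of_coprime q k hq (by omega) hcop
          rw [← Matrix.det_pow, hgk, Matrix.det_one]
        exact ⟨i, hi2, (g : Matrix (Fin i) (Fin i) F), hgk, hdetg, hg1⟩
    obtain ⟨x, hxk, hx1, u₁, u₂, hxu₁, hxu₂, hu₁, hind⟩ := bad_of_block hm2 A k hAk hAdet hA1
    have hx3 : ∃ z : F, ((x ^ k : Matrix.SpecialLinearGroup (Fin k) F) :
        Matrix (Fin k) (Fin k) F) = z • (1 : Matrix (Fin k) (Fin k) F) := by
      refine ⟨1, ?_⟩
      rw [Matrix.SpecialLinearGroup.coe_pow, hxk, one_smul]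
    have hns : ∀ z : F, (x : Matrix (Fin k) (Fin k) F)
        ≠ z • (1 : Matrix (Fin k) (Fin k) F) := by
      intro z hz
      have h1 := hxu₁
      rw [hz, Matrix.smul_mulVec, Matrix.one_mulVec] at h1
      have h2 : (z - 1) • u₁ = 0 := by rw [sub_smul, one_smul, h1, sub_self]
      rcases smul_eq_zero.1 h2 with h | h
      · apply hx1
        rw [hz, sub_eq_zero.1 h, one_smul]
      · exact hu₁ h
    obtain ⟨P, hP⟩ := hall x hx3 hns
    exact not_conj_eig_gen hk K hK x 1 u₁ u₂ (by rw [hxu₁, one_smul]) (by rw [hxu₂, one_smul])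
      hu₁ hind (by
        rw [one_smul]
        exact hx1) P hP
  · intro hord x hx3 hns
    have hcop : Nat.Coprime k (q - 1) := by
      rw [hk.coprime_iff_not_dvd]
      intro hdvd
      have h1 : ((q : ℕ) : ZMod k) = ((1 : ℕ) : ZMod k) := by
        rw [ZMod.natCast_eq_natCast_iff]
        exact ((Nat.modEq_iff_dvd' (by omega)).2 hdvd).symm
      rw [h1, Nat.cast_one, orderOf_one] at hord
      omega
    obtain ⟨z, hz⟩ := hx3
    have hxk : (x : Matrix (Fin k) (Fin k) F) ^ k = z • (1 : Matrix (Fin k) (Fin k) F) := by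
      rw [← hz, Matrix.SpecialLinearGroup.coe_pow]
    have hzk : z ^ k = 1 := by
      have h1 := congrArg Matrix.det hxk
      rw [Matrix.det_pow, x.det_coe, one_pow, Matrix.det_smul, Matrix.det_one, mul_one,
        Fintype.card_fin] at h1
      exact h1.symm
    have hz1 : z = 1 := eq_one_of_coprime q k hq (by omega) hcop z hzk
    rw [hz1, one_smul] at hxk
    have hx1 : (x : Matrix (Fin k) (Fin k) F) ≠ 1 := by
      intro h
      apply hns 1
      rw [h, one_smul]
    have hxrel := norel_x (by omega) q hq hord hnF (x : Matrix (Fin k) (Fin k) F) hxk hx1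
    have hxcp := cp_of_norel_gen hk1 _ hxk hxrel
    obtain ⟨τ, hτk, hτK, hτrel⟩ := exists_tau_gen hk1 K hK q (f : ℕ) hq hqf
    have hτcp := cp_of_norel_gen hk1 τ hτk hτrel
    obtain ⟨g, hg1, hgN⟩ := tau_norm_gen hk1 K τ q hτk hτK
    obtain ⟨φ, hφ⟩ := Cfsg.Agent.Lib.Helper15.Semi.ss_conj k (Fin k → F) (Fin k → F)
      (Matrix.toLin' (x : Matrix (Fin k) (Fin k) F)) (Matrix.toLin' τ)
      (by rw [Module.finrank_fin_fun])
      (ss_of_pow hnF _ hxk) (ss_of_pow hnF τ hτk)
      (by rw [Cfsg.Agent.S5967.charpoly_toLin', Cfsg.Agent.S5967.charpoly_toLin', hxcp, hτcp])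
    refine frame3 K x g hgN φ ?_ ?_
    · intro v
      have h1 := hφ v
      rw [Matrix.toLin'_apply, Matrix.toLin'_apply] at h1
      rw [hg1]
      exact h1
    · intro δ hδ
      obtain ⟨c, hc⟩ := exists_root_of_coprime q k hq hcop δ hδ
      refine ⟨c • (1 : Matrix (Fin k) (Fin k) F), ?_, ?_⟩
      · rw [Matrix.det_smul, Matrix.det_one, mul_one, Fintype.card_fin, hc]
      · rw [Matrix.smul_mul, Matrix.one_mul, Matrix.mul_smul, Matrix.mul_one]

end Cfsg.Agent.S5970

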