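import Mathlib
import Cfsg.Agent.S5959
import Cfsg.Agent.Lib.Helper16.SpinForms
import Cfsg.Agent.Lib.Helper16.SpinRefl
import Cfsg.Agent.Lib.Helper3.OmegaTools
import Cfsg.Statements.S5996

set_option autoImplicit false
open Cfsg

namespace Cfsg.Agent.S5996

open Cfsg.Agent.S5959

section abstract

variable {F : Type*} [Field F] {V : Type*} [AddCommGroup V] [Module F V] [FiniteDimensional F V]

/-- restricted rank and nullity, two spaces -/
theorem finrank_map_add' {V₂ : Type*} [AddCommGroup V₂] [Module F V₂] (f : V →ₗ[F] V₂)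
    (W : Submodule F V) :
    Module.finrank F ↥(W.map f) + Module.finrank F ↥(LinearMap.ker f ⊓ W)
      = Module.finrank F ↥W := by
  have h := LinearMap.finrank_range_add_finrank_ker (f.domRestrict W)
  rw [LinearMap.range_domRestrict, LinearMap.ker_domRestrict] at h
  have e : (LinearMap.ker f).comap W.subtype = (LinearMap.ker f ⊓ W).comap W.subtype := by
    ext ⟨w, hw⟩
    simp
  rw [e, (Submodule.comapSubtypeEquivOfLe
    (inf_le_right : LinearMap.ker f ⊓ W ≤ W)).finrank_eq] at h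
  exact h

/-- the radical of a form on a subspace -/
def radOn (γ : LinearMap.BilinForm F V) (K : Submodule F V) : Submodule F V where
  carrier := {v | v ∈ K ∧ ∀ u ∈ K, γ u v = 0}
  add_mem' := by
    rintro v w ⟨hv1, hv2⟩ ⟨hw1, hw2⟩
    refine ⟨K.add_mem hv1 hw1, fun u hu => ?_⟩
    rw [map_add, hv2 u hu, hw2 u hu, add_zero]
  zero_mem' := ⟨K.zero_mem, fun u _ => by rw [map_zero]⟩
  smul_mem' := by
    rintro c v ⟨hv1, hv2⟩
    refine ⟨K.smul_mem c hv1, fun u hu => ?_⟩
    rw [map_smul, hv2 u hu, smul_zero]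

theorem mem_radOn (γ : LinearMap.BilinForm F V) (K : Submodule F V) (v : V) :
    v ∈ radOn γ K ↔ v ∈ K ∧ ∀ u ∈ K, γ u v = 0 := Iff.rfl

/-- the rank of an alternating form is even -/
theorem even_rank_alt (γ : LinearMap.BilinForm F V) :
    ∀ (n : ℕ) (K : Submodule F V), Module.finrank F K = n →
      (∀ u ∈ K, γ u u = 0) → (∀ u ∈ K, ∀ v ∈ K, γ u v = - γ v u) →
      Even (Module.finrank F K - Module.finrank F (radOn γ K)) := by
  intro n
  induction n using Nat.strong_induction_on with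
  | _ n ih =>
  intro K hK halt hskew
  by_cases hzero : ∀ u ∈ K, ∀ v ∈ K, γ u v = 0
  · have h1 : radOn γ K = K := by
      ext v
      constructor
      · intro hv
        exact hv.1
      · intro hv
        exact ⟨hv, fun u hu => hzero u hu v hv⟩
    rw [h1, Nat.sub_self]
    exact Even.zero
  · push Not at hzero
    obtain ⟨a, ha, b, hb, hab⟩ := hzero
    have hba : γ b a ≠ 0 := by
      rw [hskew b hb a ha]
      exact neg_ne_zero.2 hab
    obtain ⟨φ, hφ⟩ : ∃ φ : V →ₗ[F] F × F, ∀ v, φ v = (γ a v, γ b v) :=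
      ⟨(γ a).prod (γ b), fun v => rfl⟩
    obtain ⟨K', hK'⟩ : ∃ K' : Submodule F V, K' = LinearMap.ker φ ⊓ K := ⟨_, rfl⟩
    have hmemK' : ∀ v, v ∈ K' ↔ (γ a v = 0 ∧ γ b v = 0) ∧ v ∈ K := by
      intro v
      rw [hK', Submodule.mem_inf, LinearMap.mem_ker, hφ, Prod.mk_eq_zero]
    have hdim : Module.finrank F K' + 2 = Module.finrank F K := by
      have h1 := finrank_map_add' φ K
      have h2 : K.map φ = ⊤ := by
        rw [eq_top_iff]
        rintro ⟨s, t⟩ -
        refine ⟨(s / γ a b) • b + (t / γ b a) • a,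
          K.add_mem (K.smul_mem _ hb) (K.smul_mem _ ha), ?_⟩
        rw [hφ]
        simp only [map_add, map_smul, smul_eq_mul, halt a ha, halt b hb, mul_zero, add_zero,
          zero_add]
        rw [div_mul_cancel₀ _ hab, div_mul_cancel₀ _ hba]
      rw [h2, finrank_top, Module.finrank_prod, Module.finrank_self] at h1
      rw [hK']
      omega
    have hrad : radOn γ K' = radOn γ K := by
      ext v
      constructor
      · rintro ⟨hv1, hv2⟩
        have hv1' := (hmemK' v).1 hv1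
        refine ⟨hv1'.2, ?_⟩
        intro u hu
        have hu' : u - (γ b u / γ b a) • a - (γ a u / γ a b) • b ∈ K' := by
          rw [hmemK']
          refine ⟨⟨?_, ?_⟩, K.sub_mem (K.sub_mem hu (K.smul_mem _ ha)) (K.smul_mem _ hb)⟩
          · simp only [map_sub, map_smul, smul_eq_mul, halt a ha, mul_zero, sub_zero]
            rw [div_mul_cancel₀ _ hab, sub_self]
          · simp only [map_sub, map_smul, smul_eq_mul, halt b hb, mul_zero, sub_zero]
            rw [div_mul_cancel₀ _ hba, sub_self]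
        have h3 := hv2 _ hu'
        simp only [map_sub, map_smul, LinearMap.sub_apply, LinearMap.smul_apply, smul_eq_mul,
          hv1'.1.1, hv1'.1.2, mul_zero, sub_zero] at h3
        exact h3
      · rintro ⟨hv1, hv2⟩
        exact ⟨(hmemK' v).2 ⟨⟨hv2 a ha, hv2 b hb⟩, hv1⟩,
          fun u hu => hv2 u ((hmemK' u).1 hu).2⟩
    have hle : K' ≤ K := by
      rw [hK']
      exact inf_le_right
    have h4 := ih (Module.finrank F K') (by omega) K' rfl (fun u hu => halt u (hle hu))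
      (fun u hu v hv => hskew u (hle hu) v (hle hv))
    rw [hrad] at h4
    have h5 : Module.finrank F (radOn γ K) ≤ Module.finrank F K' := by
      rw [← hrad]
      exact Submodule.finrank_mono (fun v hv => hv.1)
    rw [← hdim]
    have h6 : Module.finrank F K' + 2 - Module.finrank F (radOn γ K)
        = (Module.finrank F K' - Module.finrank F (radOn γ K)) + 2 := by omega
    rw [h6]
    exact h4.add even_two

/-- even Jordan blocks of an isometry come in pairs (whole space) -/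
theorem parity_full (B : LinearMap.BilinForm F V) (hsym : ∀ u v, B u v = B v u)
    (hnd : B.Nondegenerate) (h2 : (2 : F) ≠ 0)
    (x : V →ₗ[F] V) (hx : ∀ u v, B (x u) (x v) = B u v) (k : ℕ) (hk : Odd k) :
    Even (gk (x - 1) ⊤ k - gk (x - 1) ⊤ (k + 1)) := by
  obtain ⟨N, hN⟩ : ∃ N : V →ₗ[F] V, N = x - 1 := ⟨_, rfl⟩
  rw [← hN]
  have hNapp : ∀ w, N w = x w - w := by
    intro w
    rw [hN]
    rfl
  have hstar : ∀ u w, B u (N w) = - B (N u) (x w) := by
    intro u w
    rw [hNapp, hNapp, map_sub, map_sub, LinearMap.sub_apply, hx]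
    ring
  have hNx : ∀ w, N (x w) = x (N w) := by
    intro w
    rw [hNapp, hNapp, map_sub]
  have hNjx : ∀ (j : ℕ) w, (N ^ j) (x w) = x ((N ^ j) w) := by
    intro j
    induction j with
    | zero =>
      intro w
      rw [pow_zero, Module.End.one_apply, Module.End.one_apply]
    | succ j ih =>
      intro w
      rw [pow_succ, Module.End.mul_apply, Module.End.mul_apply, hNx, ih]
  have hiter : ∀ (j : ℕ) u w, B u ((N ^ j) w) = (-1) ^ j * B ((N ^ j) u) ((x ^ j) w) := by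
    intro j
    induction j with
    | zero =>
      intro u w
      simp
    | succ j ih =>
      intro u w
      have e1 : (N ^ (j + 1)) w = N ((N ^ j) w) := by
        rw [pow_succ', Module.End.mul_apply]
      have e2 : (N ^ (j + 1)) u = (N ^ j) (N u) := by
        rw [pow_succ, Module.End.mul_apply]
      have e3 : (x ^ (j + 1)) w = (x ^ j) (x w) := by
        rw [pow_succ, Module.End.mul_apply]
      rw [e1, hstar, ← hNjx, ih, e2, e3]
      ring
  obtain ⟨T, hT⟩ : ∃ T : V →ₗ[F] V, T = N ^ k := ⟨_, rfl⟩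
  obtain ⟨K, hKdef⟩ : ∃ K : Submodule F V, K = LinearMap.ker (N ^ (k + 1)) := ⟨_, rfl⟩
  have hKmem : ∀ v, v ∈ K ↔ N (T v) = 0 := by
    intro v
    rw [hKdef, LinearMap.mem_ker, pow_succ', Module.End.mul_apply, hT]
  obtain ⟨γ, hγ⟩ : ∃ γ : LinearMap.BilinForm F V, ∀ u v, γ u v = B u (T v) :=
    ⟨B.compl₂ T, fun u v => rfl⟩
  have hk1 : ((-1 : F)) ^ k = -1 := hk.neg_one_pow
  have hskew : ∀ u ∈ K, ∀ v ∈ K, γ u v = - γ v u := by
    intro u hu v hv
    rw [hγ, hγ, hT, hiter, hk1, ← hT]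
    have h3 : (x ^ k) v = v + N ((∑ i ∈ Finset.range k, x ^ i) v) := by
      have h4 := mul_geom_sum x k
      rw [← hN] at h4
      have h5 := congrArg (fun S : V →ₗ[F] V => S v) h4
      simp only [Module.End.mul_apply, LinearMap.sub_apply, Module.End.one_apply] at h5
      rw [h5]
      abel
    rw [h3, map_add, hstar, (hKmem u).1 hu]
    simp only [map_zero, LinearMap.zero_apply, neg_zero, add_zero]
    rw [hsym]
    ring
  have halt : ∀ u ∈ K, γ u u = 0 := by
    intro u hu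
    have h3 := hskew u hu u hu
    have h4 : (2 : F) * γ u u = 0 := by
      linear_combination h3
    rcases mul_eq_zero.1 h4 with h5 | h5
    · exact absurd h5 h2
    · exact h5
  have heven := even_rank_alt γ (Module.finrank F K) K rfl halt hskew
  -- identification of the dimensions
  have hA : K.map T = LinearMap.ker N ⊓ (⊤ : Submodule F V).map (N ^ k) := by
    apply le_antisymm
    · rintro _ ⟨v, hv, rfl⟩
      refine ⟨(hKmem v).1 hv, ?_⟩
      rw [← hT]
      exact Submodule.mem_map_of_mem trivial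
    · rintro w ⟨hw1, u, -, rfl⟩
      rw [← hT]
      refine Submodule.mem_map_of_mem ?_
      rw [hKmem, hT]
      exact hw1
  have horth : B.orthogonal K = LinearMap.range (N ^ (k + 1)) := by
    symm
    apply Submodule.eq_of_le_of_finrank_eq
    · rintro _ ⟨w, rfl⟩
      rw [LinearMap.BilinForm.mem_orthogonal_iff]
      intro u hu
      rw [hiter]
      have h3 : (N ^ (k + 1)) u = 0 := by
        rw [hKdef] at hu
        exact hu
      rw [h3]
      simp
    · have h3 := LinearMap.BilinForm.finrank_orthogonal hnd K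
      have h4 := LinearMap.finrank_range_add_finrank_ker (N ^ (k + 1))
      rw [← hKdef] at h4
      omega
  have hA1 : (radOn γ K).map T
      = LinearMap.ker N ⊓ (⊤ : Submodule F V).map (N ^ (k + 1)) := by
    apply le_antisymm
    · rintro _ ⟨v, ⟨hv1, hv2⟩, rfl⟩
      refine ⟨(hKmem v).1 hv1, ?_⟩
      have h3 : T v ∈ B.orthogonal K := by
        rw [LinearMap.BilinForm.mem_orthogonal_iff]
        intro u hu
        rw [← hγ]
        exact hv2 u hu
      rw [horth] at h3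
      obtain ⟨w, hw⟩ := h3
      exact ⟨w, trivial, hw⟩
    · rintro w ⟨hw1, u₀, -, rfl⟩
      have e1 : (N ^ (k + 1)) u₀ = T (N u₀) := by
        rw [pow_succ, Module.End.mul_apply, hT]
      have e2 : N (T (N u₀)) = 0 := by
        rw [← e1]
        exact hw1
      rw [e1]
      refine Submodule.mem_map_of_mem ⟨(hKmem _).2 e2, ?_⟩
      intro u hu
      rw [hγ, ← e1, hiter]
      have h3 : (N ^ (k + 1)) u = 0 := by
        rw [hKdef] at hu
        exact hu
      rw [h3]
      simp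
  have hker : LinearMap.ker T ⊓ radOn γ K = LinearMap.ker T ⊓ K := by
    apply le_antisymm
    · exact inf_le_inf_left _ (fun v hv => hv.1)
    · rintro v ⟨hv1, hv2⟩
      refine ⟨hv1, hv2, fun u _ => ?_⟩
      have h3 : T v = 0 := hv1
      rw [hγ, h3, map_zero]
  have h6 := finrank_map_add T K
  have h7 := finrank_map_add T (radOn γ K)
  rw [hA] at h6
  rw [hA1, hker] at h7
  have h8 : gk N ⊤ k = Module.finrank F
      ↥(LinearMap.ker N ⊓ (⊤ : Submodule F V).map (N ^ k)) := rfl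
  have h9 : gk N ⊤ (k + 1) = Module.finrank F
      ↥(LinearMap.ker N ⊓ (⊤ : Submodule F V).map (N ^ (k + 1))) := rfl
  have h10 : Module.finrank F ↥K - Module.finrank F ↥(radOn γ K)
      = gk N ⊤ k - gk N ⊤ (k + 1) := by omega
  rw [← h10]
  exact heven

/-- even Jordan blocks of an isometry come in pairs (on a nondegenerate invariant subspace) -/
theorem parity_on (B : LinearMap.BilinForm F V) (hsym : ∀ u v, B u v = B v u) (h2 : (2 : F) ≠ 0)
    (x : V →ₗ[F] V) (hx : ∀ u v, B (x u) (x v) = B u v) (W : Submodule F V)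
    (hW : ∀ w ∈ W, x w ∈ W) (hndW : ∀ w ∈ W, (∀ u ∈ W, B u w = 0) → w = 0)
    (k : ℕ) (hk : Odd k) :
    Even (gk (x - 1) W k - gk (x - 1) W (k + 1)) := by
  obtain ⟨x', hx'⟩ : ∃ x' : W →ₗ[F] W, ∀ w : W, ((x' w : W) : V) = x (w : V) :=
    ⟨x.restrict hW, fun w => rfl⟩
  obtain ⟨B', hB'⟩ : ∃ B' : LinearMap.BilinForm F W, ∀ u v : W, B' u v = B (u : V) (v : V) :=
    ⟨B.restrict W, fun u v => rfl⟩
  have hnd' : B'.Nondegenerate := by
    refine ⟨fun w hw => ?_, fun w hw => ?_⟩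
    · apply Subtype.ext
      refine hndW w w.2 (fun u hu => ?_)
      have h3 := hw ⟨u, hu⟩
      rw [hB'] at h3
      rw [hsym]
      exact h3
    · apply Subtype.ext
      refine hndW w w.2 (fun u hu => ?_)
      have h3 := hw ⟨u, hu⟩
      rw [hB'] at h3
      exact h3
  have hfull := parity_full B' (fun u v => by rw [hB', hB', hsym]) hnd' h2 x'
    (fun u v => by rw [hB', hB', hx', hx', hx]) k hk
  have hN1 : ∀ w : W, (((x' - 1) w : W) : V) = (x - 1) (w : V) := by
    intro w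
    rw [LinearMap.sub_apply, LinearMap.sub_apply, Module.End.one_apply, Module.End.one_apply,
      AddSubgroupClass.coe_sub, hx']
  have hpow : ∀ (j : ℕ) (w : W), ((((x' - 1) ^ j) w : W) : V) = ((x - 1) ^ j) (w : V) := by
    intro j
    induction j with
    | zero =>
      intro w
      rw [pow_zero, pow_zero, Module.End.one_apply, Module.End.one_apply]
    | succ j ih =>
      intro w
      rw [pow_succ, pow_succ, Module.End.mul_apply, Module.End.mul_apply, ih, hN1]
  have hgk : ∀ j, gk (x' - 1) ⊤ j = gk (x - 1) W j := by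
    intro j
    unfold gk
    have hS : (LinearMap.ker (x' - 1) ⊓ (⊤ : Submodule F W).map ((x' - 1) ^ j)).map W.subtype
        = LinearMap.ker (x - 1) ⊓ W.map ((x - 1) ^ j) := by
      ext v
      constructor
      · rintro ⟨w, ⟨hw1, u, -, hu⟩, rfl⟩
        refine ⟨?_, ?_⟩
        · have h3 : (x' - 1) w = 0 := hw1
          show (x - 1) (w : V) = 0
          rw [← hN1, h3]
          rfl
        · refine ⟨(u : V), u.2, ?_⟩
          rw [← hpow, hu]
          rfl
      · rintro ⟨hv1, u, hu, rfl⟩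
        refine ⟨((x' - 1) ^ j) ⟨u, hu⟩, ⟨?_, ⟨⟨u, hu⟩, trivial, rfl⟩⟩, ?_⟩
        · rw [SetLike.mem_coe, LinearMap.mem_ker]
          apply Subtype.ext
          rw [hN1, hpow]
          exact hv1
        · exact hpow j ⟨u, hu⟩
    rw [← hS, Submodule.finrank_map_subtype_eq]
  rw [← hgk, ← hgk]
  exact hfull

theorem gk_mul_unit (N c c' : V →ₗ[F] V) (hc : Commute N c) (h1 : c * c' = 1) (h2 : c' * c = 1)
    (k : ℕ) : gk (N * c) ⊤ k = gk N ⊤ k := by
  unfold gk
  have hker : LinearMap.ker (N * c) = LinearMap.ker N := by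
    ext v
    rw [LinearMap.mem_ker, LinearMap.mem_ker, hc.eq, Module.End.mul_apply]
    constructor
    · intro h
      have h3 := congrArg c' h
      rw [map_zero, ← Module.End.mul_apply, h2, Module.End.one_apply] at h3
      exact h3
    · intro h
      rw [h, map_zero]
  have hcc : Commute c c' := by
    show c * c' = c' * c
    rw [h1, h2]
  have hpow : c ^ k * c' ^ k = 1 := by
    rw [← hcc.mul_pow, h1, one_pow]
  have hrange : (⊤ : Submodule F V).map ((N * c) ^ k) = (⊤ : Submodule F V).map (N ^ k) := by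
    rw [hc.mul_pow]
    apply le_antisymm
    · rintro _ ⟨u, -, rfl⟩
      exact ⟨(c ^ k) u, trivial, rfl⟩
    · rintro _ ⟨u, -, rfl⟩
      refine ⟨(c' ^ k) u, trivial, ?_⟩
      rw [Module.End.mul_apply, ← Module.End.mul_apply (c ^ k), hpow, Module.End.one_apply]
  rw [hker, hrange]

theorem exists_nu' (N : V →ₗ[F] V) (p : ℕ) (D C : Submodule F V) (hD : D.map N ≤ D)
    (hC : C.map N ≤ C) (hdisj : Disjoint D C) (hsup : D ⊔ C = ⊤) (hNp : N ^ p = 0)
    (μ : Multiset ℕ) (hμ : ∀ k, k < p → μ.count (k + 1) = gk N ⊤ k - gk N ⊤ (k + 1)) :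
    ∃ ν : Multiset ℕ, ν ≤ μ ∧ ν.sum = Module.finrank F ↥D ∧
      (∀ k, k < p → ν.count (k + 1) = gk N D k - gk N D (k + 1)) ∧
      (∀ c, (c = 0 ∨ p < c) → ν.count c = 0) := by
  obtain ⟨ν, hν⟩ : ∃ ν : Multiset ℕ, ν = ∑ k ∈ Finset.range p,
      Multiset.replicate (gk N D k - gk N D (k + 1)) (k + 1) := ⟨_, rfl⟩
  have hcnt : ∀ b, ν.count b
      = ∑ k ∈ Finset.range p, if k + 1 = b then gk N D k - gk N D (k + 1) else 0 := by
    intro b
    rw [hν, Multiset.count_sum']
    simp only [Multiset.count_replicate]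
  have hcnt1 : ∀ k, k < p → ν.count (k + 1) = gk N D k - gk N D (k + 1) := by
    intro k hk
    rw [hcnt, Finset.sum_eq_single k]
    · rw [if_pos rfl]
    · intro j _ hjk
      rw [if_neg (by omega)]
    · intro hk'
      exact absurd (Finset.mem_range.2 hk) hk'
  have hcnt0 : ∀ c, (c = 0 ∨ p < c) → ν.count c = 0 := by
    intro c hc
    rw [hcnt, Finset.sum_eq_zero]
    intro j hj
    have := Finset.mem_range.1 hj
    rw [if_neg (by omega)]
  refine ⟨ν, ?_, ?_, hcnt1, hcnt0⟩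
  · rw [Multiset.le_iff_count]
    intro b
    by_cases hb : ∃ k, k < p ∧ k + 1 = b
    · obtain ⟨k, hk, rfl⟩ := hb
      rw [hcnt1 k hk, hμ k hk, gk_add N D C hD hC hdisj hsup k,
        gk_add N D C hD hC hdisj hsup (k + 1)]
      have := gk_anti N C hC k
      have := gk_anti N D hD k
      omega
    · rw [hcnt0 b]
      · exact Nat.zero_le _
      · by_contra hcon
        apply hb
        refine ⟨b - 1, by omega, by omega⟩
  · have h1 : ν.sum = ∑ k ∈ Finset.range p, (k + 1) * (gk N D k - gk N D (k + 1)) := by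
      rw [hν, ← Multiset.coe_sumAddMonoidHom, map_sum]
      apply Finset.sum_congr rfl
      intro k _
      rw [Multiset.coe_sumAddMonoidHom, Multiset.sum_replicate, smul_eq_mul, mul_comm]
    have h2 : ∑ k ∈ Finset.range p, (k + 1) * (gk N D k - gk N D (k + 1)) + p * gk N D p
        = ∑ k ∈ Finset.range p, gk N D k :=
      abel (fun k => gk N D k) (fun k => gk_anti N D hD k) p
    have h3 := sum_gk N D p
    have h4 : Module.finrank F ↥(D.map (N ^ p)) = 0 := by
      rw [hNp, Submodule.map_zero, finrank_bot]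
    have h5 : gk N D p = 0 := by
      unfold gk
      rw [hNp, Submodule.map_zero, inf_bot_eq, finrank_bot]
    rw [h5, mul_zero, add_zero] at h2
    rw [h1, h2]
    omega

end abstract

section pairs

theorem coe_cons_eq (a : ℕ) (l : List ℕ) :
    ((a :: l : List ℕ) : Multiset ℕ) = {a} + (l : Multiset ℕ) := by
  rw [← Multiset.cons_coe, Multiset.singleton_add]

/-- a partition whose even parts have even multiplicity and whose sum is even splits into
pairs of equal parts and pairs of odd parts -/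
theorem exists_pairs : ∀ (n : ℕ) (μ : Multiset ℕ), Multiset.card μ = n →
    (∀ e, Even e → Even (μ.count e)) → Even μ.sum →
    ∃ (Lc : List ℕ) (Ls : List (ℕ × ℕ)),
      μ = (Lc : Multiset ℕ) + (Lc : Multiset ℕ)
        + ((Ls.map (fun q => 2 * q.1 + 1) : List ℕ) : Multiset ℕ)
        + ((Ls.map (fun q => 2 * q.2 + 1) : List ℕ) : Multiset ℕ) := by
  intro n
  induction n using Nat.strong_induction_on with
  | _ n ih =>
  intro μ hcard hev hsum
  by_cases h0 : μ = 0
  · refine ⟨[], [], ?_⟩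
    rw [h0]
    simp
  by_cases heven : ∃ a ∈ μ, Even a
  · obtain ⟨a, ha, hae⟩ := heven
    have hc1 : 0 < μ.count a := Multiset.count_pos.2 ha
    have hc2 : Even (μ.count a) := hev a hae
    have hc3 : 2 ≤ μ.count a := by
      obtain ⟨c, hc⟩ := hc2
      omega
    have ha1 : a ∈ μ.erase a := by
      rw [← Multiset.count_pos, Multiset.count_erase_self]
      omega
    have e1 : a ::ₘ μ.erase a = μ := Multiset.cons_erase ha
    have e2 : a ::ₘ (μ.erase a).erase a = μ.erase a := Multiset.cons_erase ha1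
    have hcard2 : Multiset.card ((μ.erase a).erase a) + 2 = n := by
      have h1 := congrArg Multiset.card e1
      have h2 := congrArg Multiset.card e2
      rw [Multiset.card_cons] at h1 h2
      omega
    have hev2 : ∀ e, Even e → Even (((μ.erase a).erase a).count e) := by
      intro e he
      by_cases hea : e = a
      · rw [hea, Multiset.count_erase_self, Multiset.count_erase_self]
        obtain ⟨c, hc⟩ := hc2
        exact ⟨c - 1, by omega⟩
      · rw [Multiset.count_erase_of_ne hea, Multiset.count_erase_of_ne hea]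
        exact hev e he
    have hsum2 : Even ((μ.erase a).erase a).sum := by
      have h1 := congrArg Multiset.sum e1
      have h2 := congrArg Multiset.sum e2
      rw [Multiset.sum_cons] at h1 h2
      obtain ⟨c, hc⟩ := hsum
      exact ⟨c - a, by omega⟩
    obtain ⟨Lc, Ls, hL⟩ := ih _ (by omega) _ rfl hev2 hsum2
    refine ⟨a :: Lc, Ls, ?_⟩
    rw [← e1, ← e2, hL, coe_cons_eq, ← Multiset.singleton_add, ← Multiset.singleton_add]
    abel
  · push Not at heven
    obtain ⟨a, ha⟩ := Multiset.exists_mem_of_ne_zero h0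
    have hao : Odd a := Nat.not_even_iff_odd.1 (heven a ha)
    have e1 : a ::ₘ μ.erase a = μ := Multiset.cons_erase ha
    have hs1 : a + (μ.erase a).sum = μ.sum := by
      have h1 := congrArg Multiset.sum e1
      rw [Multiset.sum_cons] at h1
      exact h1
    have h1 : μ.erase a ≠ 0 := by
      intro h
      rw [h, Multiset.sum_zero, add_zero] at hs1
      rw [← hs1] at hsum
      exact (Nat.not_even_iff_odd.2 hao) hsum
    obtain ⟨b, hb⟩ := Multiset.exists_mem_of_ne_zero h1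
    have hbμ : b ∈ μ := Multiset.mem_of_mem_erase hb
    have hbo : Odd b := Nat.not_even_iff_odd.1 (heven b hbμ)
    have e2 : b ::ₘ (μ.erase a).erase b = μ.erase a := Multiset.cons_erase hb
    have hcard2 : Multiset.card ((μ.erase a).erase b) + 2 = n := by
      have h1 := congrArg Multiset.card e1
      have h2 := congrArg Multiset.card e2
      rw [Multiset.card_cons] at h1 h2
      omega
    have hev2 : ∀ e, Even e → Even (((μ.erase a).erase b).count e) := by
      intro e he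
      have h3 : e ∉ (μ.erase a).erase b := by
        intro h4
        exact heven e (Multiset.mem_of_mem_erase (Multiset.mem_of_mem_erase h4)) he
      rw [Multiset.count_eq_zero_of_notMem h3]
      exact Even.zero
    have hsum2 : Even ((μ.erase a).erase b).sum := by
      have h2 := congrArg Multiset.sum e2
      rw [Multiset.sum_cons] at h2
      obtain ⟨c, hc⟩ := hsum
      obtain ⟨a', ha'⟩ := hao
      obtain ⟨b', hb'⟩ := hbo
      exact ⟨c - a' - b' - 1, by omega⟩
    obtain ⟨Lc, Ls, hL⟩ := ih _ (by omega) _ rfl hev2 hsum2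
    obtain ⟨a', ha'⟩ := hao
    obtain ⟨b', hb'⟩ := hbo
    refine ⟨Lc, (a', b') :: Ls, ?_⟩
    rw [← e1, ← e2, hL, List.map_cons, List.map_cons, coe_cons_eq, coe_cons_eq,
      ← Multiset.singleton_add, ← Multiset.singleton_add, ha', hb']
    abel

end pairs

section pairing

variable {F : Type*} [Field F]

/-- the alternating anti-diagonal pairing of two sequences -/
def Sp (ℓ : ℕ) (f g : ℕ → F) : F := ∑ j ∈ Finset.range ℓ, (-1) ^ j * f j * g (ℓ - 1 - j)

theorem Sp_add_left (ℓ : ℕ) (f f' g : ℕ → F) :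
    Sp ℓ (fun j => f j + f' j) g = Sp ℓ f g + Sp ℓ f' g := by
  unfold Sp
  rw [← Finset.sum_add_distrib]
  apply Finset.sum_congr rfl
  intro j _
  ring

theorem Sp_add_right (ℓ : ℕ) (f g g' : ℕ → F) :
    Sp ℓ f (fun j => g j + g' j) = Sp ℓ f g + Sp ℓ f g' := by
  unfold Sp
  rw [← Finset.sum_add_distrib]
  apply Finset.sum_congr rfl
  intro j _
  ring

theorem Sp_smul_left (ℓ : ℕ) (c : F) (f g : ℕ → F) :
    Sp ℓ (fun j => c * f j) g = c * Sp ℓ f g := by
  unfold Sp
  rw [Finset.mul_sum]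
  apply Finset.sum_congr rfl
  intro j _
  ring

theorem Sp_smul_right (ℓ : ℕ) (c : F) (f g : ℕ → F) :
    Sp ℓ f (fun j => c * g j) = c * Sp ℓ f g := by
  unfold Sp
  rw [Finset.mul_sum]
  apply Finset.sum_congr rfl
  intro j _
  ring

theorem Sp_shift (ℓ : ℕ) (f g : ℕ → F) (hf : f ℓ = 0) (hg : g ℓ = 0) :
    Sp ℓ (fun j => f (j + 1)) g + Sp ℓ f (fun j => g (j + 1)) = 0 := by
  unfold Sp
  rcases ℓ with _ | n
  · simp
  · rw [Finset.sum_range_succ, Finset.sum_range_succ' (fun j => (-1) ^ j * f j * g (n + 1 - 1 - j + 1))]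
    beta_reduce
    rw [hf]
    have h1 : g (n + 1 - 1 - 0 + 1) = 0 := by
      have : n + 1 - 1 - 0 + 1 = n + 1 := by omega
      rw [this, hg]
    rw [h1, mul_zero, mul_zero, zero_mul, add_zero, add_zero, ← Finset.sum_add_distrib]
    apply Finset.sum_eq_zero
    intro j hj
    have hj' := Finset.mem_range.1 hj
    have h2 : n + 1 - 1 - (j + 1) + 1 = n + 1 - 1 - j := by omega
    rw [h2, pow_succ]
    ring

theorem Sp_self_odd (k : ℕ) (f : ℕ → F) :
    Sp (2 * k + 1) f f
      = 2 * ∑ j ∈ Finset.range k, (-1) ^ j * f j * f (2 * k - j) + (-1) ^ k * f k ^ 2 := by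
  unfold Sp
  have h1 : 2 * k + 1 = (k + 1) + k := by ring
  rw [h1, Finset.sum_range_add, Finset.sum_range_succ]
  have h2 : ∑ j ∈ Finset.range k, (-1 : F) ^ (k + 1 + j) * f (k + 1 + j)
        * f (k + 1 + k - 1 - (k + 1 + j))
      = ∑ j ∈ Finset.range k, (-1 : F) ^ j * f j * f (2 * k - j) := by
    rw [← Finset.sum_range_reflect]
    apply Finset.sum_congr rfl
    intro j hj
    have hj' := Finset.mem_range.1 hj
    have e1 : k + 1 + (k - 1 - j) = 2 * k - j := by omega
    have e2 : k + 1 + k - 1 - (2 * k - j) = j := by omega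
    rw [e1, e2]
    have e3 : (-1 : F) ^ (2 * k - j) = (-1) ^ j := by
      have h3 : (-1 : F) ^ (2 * k - j) * (-1) ^ j = 1 := by
        rw [← pow_add]
        have : 2 * k - j + j = 2 * k := by omega
        rw [this, pow_mul]
        simp
      have h4 : (-1 : F) ^ j * (-1) ^ j = 1 := by
        rw [← mul_pow]
        simp
      have h5 : (-1 : F) ^ j ≠ 0 := pow_ne_zero _ (neg_ne_zero.2 one_ne_zero)
      exact mul_right_cancel₀ h5 (h3.trans h4.symm)
    rw [e3]
    ring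
  rw [h2]
  have h3 : ∑ j ∈ Finset.range k, (-1 : F) ^ j * f j * f (k + 1 + k - 1 - j)
      = ∑ j ∈ Finset.range k, (-1 : F) ^ j * f j * f (2 * k - j) := by
    apply Finset.sum_congr rfl
    intro j hj
    have e1 : k + 1 + k - 1 - j = 2 * k - j := by omega
    rw [e1]
  rw [h3]
  have e4 : k + 1 + k - 1 - k = k := by omega
  rw [e4]
  ring

end pairing

section cayley

variable {F : Type*} [Field F] {V : Type*} [AddCommGroup V] [Module F V]

/-- the Cayley transform of a nilpotent skew map is an isometry -/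
theorem cayley (h2 : (2 : F) ≠ 0) (B : LinearMap.BilinForm F V) (N : V →ₗ[F] V)
    (hskew : ∀ u v, B (N u) v + B u (N v) = 0) (p : ℕ) (hNp : N ^ p = 0) :
    ∃ xV c c' : V →ₗ[F] V, (∀ v, B (xV v) (xV v) = B v v) ∧ xV - 1 = N * c ∧ Commute N c ∧
      c * c' = 1 ∧ c' * c = 1 := by
  obtain ⟨invN, hinv⟩ : ∃ invN : V →ₗ[F] V, invN = ∑ i ∈ Finset.range p, N ^ i := ⟨_, rfl⟩
  have h1 : (1 - N) * invN = 1 := by
    rw [hinv, mul_neg_geom_sum, hNp, sub_zero]
  have h1' : invN * (1 - N) = 1 := by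
    rw [hinv, geom_sum_mul_neg, hNp, sub_zero]
  have hcomm : Commute N invN := by
    rw [hinv]
    exact Commute.sum_right _ _ _ (fun i _ => (Commute.refl N).pow_right i)
  refine ⟨(1 + N) * invN, (2 : F) • invN, (1 / 2 : F) • (1 - N), ?_, ?_, ?_, ?_, ?_⟩
  · intro v
    obtain ⟨v', hv'⟩ : ∃ v', v' = invN v := ⟨_, rfl⟩
    have e1 : v = v' - N v' := by
      have h3 := congrArg (fun S : V →ₗ[F] V => S v) h1
      simp only [Module.End.mul_apply, LinearMap.sub_apply, Module.End.one_apply] at h3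
      rw [hv', h3]
    have e2 : ((1 + N) * invN) v = v' + N v' := by
      rw [Module.End.mul_apply, ← hv', LinearMap.add_apply, Module.End.one_apply]
    rw [e2]
    conv_rhs => rw [e1]
    simp only [map_add, map_sub, LinearMap.add_apply, LinearMap.sub_apply]
    linear_combination 2 * hskew v' v'
  · calc (1 + N) * invN - 1 = (1 + N) * invN - (1 - N) * invN := by rw [h1]
      _ = N * ((2 : F) • invN) := by
        rw [← sub_mul, add_sub_sub_cancel, mul_smul_comm, two_smul, add_mul]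
  · exact hcomm.smul_right (2 : F)
  · rw [smul_mul_smul_comm, h1', mul_one_div_cancel h2, one_smul]
  · rw [smul_mul_smul_comm, h1, one_div_mul_cancel h2, one_smul]

end cayley

section model

variable {F : Type*} [Field F] {Kc Ks : Type*} (lc : Kc → ℕ) (k1 k2 : Ks → ℕ)

/-- block sizes -/
def ell : (Kc ⊕ Kc) ⊕ (Ks ⊕ Ks) → ℕ :=
  Sum.elim (Sum.elim lc lc) (Sum.elim (fun κ => 2 * k1 κ + 1) (fun κ => 2 * k2 κ + 1))

/-- zero-extension of a coordinate vector -/
def hat {J : Type*} (ℓ : J → ℕ) (v : (Σ b : J, Fin (ℓ b)) → F) (b : J) (j : ℕ) : F :=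
  if h : j < ℓ b then v ⟨b, ⟨j, h⟩⟩ else 0

theorem hat_add {J : Type*} (ℓ : J → ℕ) (v w : (Σ b : J, Fin (ℓ b)) → F) (b : J) (j : ℕ) :
    hat ℓ (v + w) b j = hat ℓ v b j + hat ℓ w b j := by
  unfold hat
  by_cases h : j < ℓ b
  · simp [h]
  · simp [h]

theorem hat_smul {J : Type*} (ℓ : J → ℕ) (c : F) (v : (Σ b : J, Fin (ℓ b)) → F) (b : J)
    (j : ℕ) : hat ℓ (c • v) b j = c * hat ℓ v b j := by
  unfold hat
  by_cases h : j < ℓ b
  · simp [h]
  · simp [h]

theorem hat_ge {J : Type*} (ℓ : J → ℕ) (v : (Σ b : J, Fin (ℓ b)) → F) (b : J) (j : ℕ)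
    (h : ℓ b ≤ j) : hat ℓ v b j = 0 := by
  unfold hat
  rw [dif_neg (by omega)]

theorem hat_shift {J : Type*} (ℓ : J → ℕ) (v : (Σ b : J, Fin (ℓ b)) → F) (b : J) (j : ℕ) :
    hat ℓ (shiftT ℓ v) b j = hat ℓ v b (j + 1) := by
  unfold hat
  by_cases h : j + 1 < ℓ b
  · rw [dif_pos h, dif_pos (show j < ℓ b by omega), shiftT_apply]
    exact dif_pos h
  · rw [dif_neg h]
    by_cases h' : j < ℓ b
    · rw [dif_pos h', shiftT_apply]
      exact dif_neg h
    · rw [dif_neg h']

theorem hat_apply {J : Type*} (ℓ : J → ℕ) (v : (Σ b : J, Fin (ℓ b)) → F) (b : J) (j : ℕ)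
    (hj : j < ℓ b) : hat ℓ v b j = v ⟨b, ⟨j, hj⟩⟩ := by
  unfold hat
  rw [dif_pos hj]

variable [Fintype Kc] [Fintype Ks]

/-- the bilinear form of the model, as a function -/
def Bm (v w : (Σ b : (Kc ⊕ Kc) ⊕ (Ks ⊕ Ks), Fin (ell lc k1 k2 b)) → F) : F :=
  ∑ κ : Kc, (Sp (lc κ) (hat (ell lc k1 k2) v (Sum.inl (Sum.inl κ)))
        (hat (ell lc k1 k2) w (Sum.inl (Sum.inr κ)))
      + Sp (lc κ) (hat (ell lc k1 k2) w (Sum.inl (Sum.inl κ)))
        (hat (ell lc k1 k2) v (Sum.inl (Sum.inr κ))))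
  + ∑ κ : Ks, ((-1) ^ (k1 κ) * Sp (2 * k1 κ + 1) (hat (ell lc k1 k2) v (Sum.inr (Sum.inl κ)))
        (hat (ell lc k1 k2) w (Sum.inr (Sum.inl κ)))
      - (-1) ^ (k2 κ) * Sp (2 * k2 κ + 1) (hat (ell lc k1 k2) v (Sum.inr (Sum.inr κ)))
        (hat (ell lc k1 k2) w (Sum.inr (Sum.inr κ))))

theorem Bm_add_left (v v' w : (Σ b : (Kc ⊕ Kc) ⊕ (Ks ⊕ Ks), Fin (ell lc k1 k2 b)) → F) :
    Bm lc k1 k2 (v + v') w = Bm lc k1 k2 v w + Bm lc k1 k2 v' w := by
  unfold Bm
  have e : ∀ b, hat (ell lc k1 k2) (v + v') b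
      = fun j => hat (ell lc k1 k2) v b j + hat (ell lc k1 k2) v' b j :=
    fun b => funext (hat_add (ell lc k1 k2) v v' b)
  simp only [e, Sp_add_left, Sp_add_right, mul_add, Finset.sum_add_distrib,
    Finset.sum_sub_distrib]
  ring

theorem Bm_add_right (v w w' : (Σ b : (Kc ⊕ Kc) ⊕ (Ks ⊕ Ks), Fin (ell lc k1 k2 b)) → F) :
    Bm lc k1 k2 v (w + w') = Bm lc k1 k2 v w + Bm lc k1 k2 v w' := by
  unfold Bm
  have e : ∀ b, hat (ell lc k1 k2) (w + w') b
      = fun j => hat (ell lc k1 k2) w b j + hat (ell lc k1 k2) w' b j :=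
    fun b => funext (hat_add (ell lc k1 k2) w w' b)
  simp only [e, Sp_add_left, Sp_add_right, mul_add, Finset.sum_add_distrib,
    Finset.sum_sub_distrib]
  ring

theorem Bm_smul_left (c : F) (v w : (Σ b : (Kc ⊕ Kc) ⊕ (Ks ⊕ Ks), Fin (ell lc k1 k2 b)) → F) :
    Bm lc k1 k2 (c • v) w = c * Bm lc k1 k2 v w := by
  unfold Bm
  have e : ∀ b, hat (ell lc k1 k2) (c • v) b = fun j => c * hat (ell lc k1 k2) v b j :=
    fun b => funext (hat_smul (ell lc k1 k2) c v b)
  simp only [e, Sp_smul_left, Sp_smul_right]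
  rw [mul_add, Finset.mul_sum, Finset.mul_sum]
  congr 1
  · apply Finset.sum_congr rfl
    intro κ _
    ring
  · apply Finset.sum_congr rfl
    intro κ _
    ring

theorem Bm_smul_right (c : F) (v w : (Σ b : (Kc ⊕ Kc) ⊕ (Ks ⊕ Ks), Fin (ell lc k1 k2 b)) → F) :
    Bm lc k1 k2 v (c • w) = c * Bm lc k1 k2 v w := by
  unfold Bm
  have e : ∀ b, hat (ell lc k1 k2) (c • w) b = fun j => c * hat (ell lc k1 k2) w b j :=
    fun b => funext (hat_smul (ell lc k1 k2) c w b)
  simp only [e, Sp_smul_left, Sp_smul_right]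
  rw [mul_add, Finset.mul_sum, Finset.mul_sum]
  congr 1
  · apply Finset.sum_congr rfl
    intro κ _
    ring
  · apply Finset.sum_congr rfl
    intro κ _
    ring

theorem Bm_skew (v w : (Σ b : (Kc ⊕ Kc) ⊕ (Ks ⊕ Ks), Fin (ell lc k1 k2 b)) → F) :
    Bm lc k1 k2 (shiftT (ell lc k1 k2) v) w + Bm lc k1 k2 v (shiftT (ell lc k1 k2) w) = 0 := by
  unfold Bm
  have e : ∀ (u : (Σ b : (Kc ⊕ Kc) ⊕ (Ks ⊕ Ks), Fin (ell lc k1 k2 b)) → F) b,
      hat (ell lc k1 k2) (shiftT (ell lc k1 k2) u) b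
      = fun j => hat (ell lc k1 k2) u b (j + 1) :=
    fun u b => funext (hat_shift (ell lc k1 k2) u b)
  simp only [e]
  have hz : ∀ (u : (Σ b : (Kc ⊕ Kc) ⊕ (Ks ⊕ Ks), Fin (ell lc k1 k2 b)) → F) b,
      hat (ell lc k1 k2) u b (ell lc k1 k2 b) = 0 :=
    fun u b => hat_ge (ell lc k1 k2) u b _ le_rfl
  rw [add_add_add_comm, ← Finset.sum_add_distrib, ← Finset.sum_add_distrib,
    Finset.sum_eq_zero, Finset.sum_eq_zero, add_zero]
  · intro κ _
    have a := Sp_shift (2 * k1 κ + 1) (hat (ell lc k1 k2) v (Sum.inr (Sum.inl κ)))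
      (hat (ell lc k1 k2) w (Sum.inr (Sum.inl κ))) (hz v _) (hz w _)
    have b := Sp_shift (2 * k2 κ + 1) (hat (ell lc k1 k2) v (Sum.inr (Sum.inr κ)))
      (hat (ell lc k1 k2) w (Sum.inr (Sum.inr κ))) (hz v _) (hz w _)
    linear_combination (-1) ^ (k1 κ) * a - (-1) ^ (k2 κ) * b
  · intro κ _
    have a := Sp_shift (lc κ) (hat (ell lc k1 k2) v (Sum.inl (Sum.inl κ)))
      (hat (ell lc k1 k2) w (Sum.inl (Sum.inr κ))) (hz v _) (hz w _)
    have b := Sp_shift (lc κ) (hat (ell lc k1 k2) w (Sum.inl (Sum.inl κ)))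
      (hat (ell lc k1 k2) v (Sum.inl (Sum.inr κ))) (hz w _) (hz v _)
    linear_combination a + b

/-- the bilinear form of the model -/
def BmL : LinearMap.BilinForm F ((Σ b : (Kc ⊕ Kc) ⊕ (Ks ⊕ Ks), Fin (ell lc k1 k2 b)) → F) :=
  LinearMap.mk₂ F (Bm lc k1 k2) (Bm_add_left lc k1 k2)
    (fun c v w => by rw [Bm_smul_left, smul_eq_mul]) (Bm_add_right lc k1 k2)
    (fun c v w => by rw [Bm_smul_right, smul_eq_mul])

theorem BmL_apply (v w : (Σ b : (Kc ⊕ Kc) ⊕ (Ks ⊕ Ks), Fin (ell lc k1 k2 b)) → F) :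
    BmL lc k1 k2 v w = Bm lc k1 k2 v w := rfl

/-- the index set of the hyperbolic pairs of the model -/
abbrev Lam (lc : Kc → ℕ) (k1 k2 : Ks → ℕ) : Type _ :=
  (Σ κ : Kc, Fin (lc κ)) ⊕ (Σ κ : Ks, (Fin (k1 κ) ⊕ Fin (k2 κ)) ⊕ Unit)

/-- first hyperbolic coordinates -/
def Xc (v : (Σ b : (Kc ⊕ Kc) ⊕ (Ks ⊕ Ks), Fin (ell lc k1 k2 b)) → F) : Lam lc k1 k2 → F
  | Sum.inl ⟨κ, j⟩ => hat (ell lc k1 k2) v (Sum.inl (Sum.inl κ)) j
  | Sum.inr ⟨κ, Sum.inl (Sum.inl j)⟩ => hat (ell lc k1 k2) v (Sum.inr (Sum.inl κ)) j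
  | Sum.inr ⟨κ, Sum.inl (Sum.inr j)⟩ => hat (ell lc k1 k2) v (Sum.inr (Sum.inr κ)) j
  | Sum.inr ⟨κ, Sum.inr _⟩ => (hat (ell lc k1 k2) v (Sum.inr (Sum.inl κ)) (k1 κ)
      + hat (ell lc k1 k2) v (Sum.inr (Sum.inr κ)) (k2 κ)) / 2

/-- second hyperbolic coordinates -/
def Yc (v : (Σ b : (Kc ⊕ Kc) ⊕ (Ks ⊕ Ks), Fin (ell lc k1 k2 b)) → F) : Lam lc k1 k2 → F
  | Sum.inl ⟨κ, j⟩ => (-1) ^ (j : ℕ) * hat (ell lc k1 k2) v (Sum.inl (Sum.inr κ)) (lc κ - 1 - j)
  | Sum.inr ⟨κ, Sum.inl (Sum.inl j)⟩ =>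
      (-1) ^ (k1 κ) * ((-1) ^ (j : ℕ) * hat (ell lc k1 k2) v (Sum.inr (Sum.inl κ)) (2 * k1 κ - j))
  | Sum.inr ⟨κ, Sum.inl (Sum.inr j)⟩ =>
      - ((-1) ^ (k2 κ) * ((-1) ^ (j : ℕ)
        * hat (ell lc k1 k2) v (Sum.inr (Sum.inr κ)) (2 * k2 κ - j)))
  | Sum.inr ⟨κ, Sum.inr _⟩ => hat (ell lc k1 k2) v (Sum.inr (Sum.inl κ)) (k1 κ)
      - hat (ell lc k1 k2) v (Sum.inr (Sum.inr κ)) (k2 κ)

/-- the quadratic form of the model in hyperbolic coordinates -/
def Qm (v : (Σ b : (Kc ⊕ Kc) ⊕ (Ks ⊕ Ks), Fin (ell lc k1 k2 b)) → F) : F :=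
  ∑ t : Lam lc k1 k2, Xc lc k1 k2 v t * Yc lc k1 k2 v t

theorem neg_one_sq (n : ℕ) : ((-1 : F)) ^ n * (-1) ^ n = 1 := by
  rw [← mul_pow]
  simp

theorem Bm_self (h2 : (2 : F) ≠ 0)
    (v : (Σ b : (Kc ⊕ Kc) ⊕ (Ks ⊕ Ks), Fin (ell lc k1 k2 b)) → F) :
    Bm lc k1 k2 v v = 2 * Qm lc k1 k2 v := by
  unfold Bm Qm
  rw [Fintype.sum_sum_type, Fintype.sum_sigma, Fintype.sum_sigma, mul_add, Finset.mul_sum,
    Finset.mul_sum]
  congr 1
  · apply Finset.sum_congr rfl
    intro κ _
    have hc : ∑ j : Fin (lc κ), Xc lc k1 k2 v (Sum.inl ⟨κ, j⟩) * Yc lc k1 k2 v (Sum.inl ⟨κ, j⟩)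
        = Sp (lc κ) (hat (ell lc k1 k2) v (Sum.inl (Sum.inl κ)))
          (hat (ell lc k1 k2) v (Sum.inl (Sum.inr κ))) := by
      show ∑ j : Fin (lc κ), hat (ell lc k1 k2) v (Sum.inl (Sum.inl κ)) (j : ℕ)
        * ((-1) ^ (j : ℕ) * hat (ell lc k1 k2) v (Sum.inl (Sum.inr κ)) (lc κ - 1 - (j : ℕ))) = _
      rw [Fin.sum_univ_eq_sum_range (fun j => hat (ell lc k1 k2) v (Sum.inl (Sum.inl κ)) j
        * ((-1) ^ j * hat (ell lc k1 k2) v (Sum.inl (Sum.inr κ)) (lc κ - 1 - j))) (lc κ)]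
      unfold Sp
      apply Finset.sum_congr rfl
      intro j _
      ring
    rw [hc]
    ring
  · apply Finset.sum_congr rfl
    intro κ _
    rw [Fintype.sum_sum_type, Fintype.sum_sum_type]
    simp only [Finset.univ_unique, Finset.sum_singleton]
    have hs1 : ∑ j : Fin (k1 κ), Xc lc k1 k2 v (Sum.inr ⟨κ, Sum.inl (Sum.inl j)⟩)
          * Yc lc k1 k2 v (Sum.inr ⟨κ, Sum.inl (Sum.inl j)⟩)
        = (-1) ^ (k1 κ) * ∑ j ∈ Finset.range (k1 κ), (-1) ^ j
          * hat (ell lc k1 k2) v (Sum.inr (Sum.inl κ)) j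
          * hat (ell lc k1 k2) v (Sum.inr (Sum.inl κ)) (2 * k1 κ - j) := by
      show ∑ j : Fin (k1 κ), hat (ell lc k1 k2) v (Sum.inr (Sum.inl κ)) (j : ℕ)
        * ((-1) ^ (k1 κ) * ((-1) ^ (j : ℕ)
          * hat (ell lc k1 k2) v (Sum.inr (Sum.inl κ)) (2 * k1 κ - (j : ℕ)))) = _
      rw [Fin.sum_univ_eq_sum_range (fun j => hat (ell lc k1 k2) v (Sum.inr (Sum.inl κ)) j
        * ((-1) ^ (k1 κ) * ((-1) ^ j
          * hat (ell lc k1 k2) v (Sum.inr (Sum.inl κ)) (2 * k1 κ - j)))) (k1 κ), Finset.mul_sum]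
      apply Finset.sum_congr rfl
      intro j _
      ring
    have hs2 : ∑ j : Fin (k2 κ), Xc lc k1 k2 v (Sum.inr ⟨κ, Sum.inl (Sum.inr j)⟩)
          * Yc lc k1 k2 v (Sum.inr ⟨κ, Sum.inl (Sum.inr j)⟩)
        = - ((-1) ^ (k2 κ) * ∑ j ∈ Finset.range (k2 κ), (-1) ^ j
          * hat (ell lc k1 k2) v (Sum.inr (Sum.inr κ)) j
          * hat (ell lc k1 k2) v (Sum.inr (Sum.inr κ)) (2 * k2 κ - j)) := by
      show ∑ j : Fin (k2 κ), hat (ell lc k1 k2) v (Sum.inr (Sum.inr κ)) (j : ℕ)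
        * (- ((-1) ^ (k2 κ) * ((-1) ^ (j : ℕ)
          * hat (ell lc k1 k2) v (Sum.inr (Sum.inr κ)) (2 * k2 κ - (j : ℕ))))) = _
      rw [Fin.sum_univ_eq_sum_range (fun j => hat (ell lc k1 k2) v (Sum.inr (Sum.inr κ)) j
        * (- ((-1) ^ (k2 κ) * ((-1) ^ j
          * hat (ell lc k1 k2) v (Sum.inr (Sum.inr κ)) (2 * k2 κ - j))))) (k2 κ),
        Finset.mul_sum, ← Finset.sum_neg_distrib]
      apply Finset.sum_congr rfl
      intro j _
      ring
    have hs3 : Xc lc k1 k2 v (Sum.inr ⟨κ, Sum.inr default⟩)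
          * Yc lc k1 k2 v (Sum.inr ⟨κ, Sum.inr default⟩)
        = (hat (ell lc k1 k2) v (Sum.inr (Sum.inl κ)) (k1 κ)
          + hat (ell lc k1 k2) v (Sum.inr (Sum.inr κ)) (k2 κ)) / 2
          * (hat (ell lc k1 k2) v (Sum.inr (Sum.inl κ)) (k1 κ)
          - hat (ell lc k1 k2) v (Sum.inr (Sum.inr κ)) (k2 κ)) := rfl
    rw [hs1, hs2, hs3, Sp_self_odd, Sp_self_odd]
    have q1 := neg_one_sq (F := F) (k1 κ)
    have q2 := neg_one_sq (F := F) (k2 κ)
    field_simp
    linear_combination (hat (ell lc k1 k2) v (Sum.inr (Sum.inl κ)) (k1 κ)) ^ 2 * q1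
      - (hat (ell lc k1 k2) v (Sum.inr (Sum.inr κ)) (k2 κ)) ^ 2 * q2

/-- the coordinate map of the model -/
def EL : ((Σ b : (Kc ⊕ Kc) ⊕ (Ks ⊕ Ks), Fin (ell lc k1 k2 b)) → F)
    →ₗ[F] (Lam lc k1 k2 ⊕ Lam lc k1 k2 → F) where
  toFun v := Sum.elim (Xc lc k1 k2 v) (Yc lc k1 k2 v)
  map_add' v w := by
    funext t
    rcases t with (⟨κ, j⟩ | ⟨κ, (j | j) | u⟩) | (⟨κ, j⟩ | ⟨κ, (j | j) | u⟩)
    all_goals simp only [Sum.elim_inl, Sum.elim_inr, Pi.add_apply, Xc, Yc, hat_add]
    all_goals ring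
  map_smul' c v := by
    funext t
    rcases t with (⟨κ, j⟩ | ⟨κ, (j | j) | u⟩) | (⟨κ, j⟩ | ⟨κ, (j | j) | u⟩)
    all_goals simp only [Sum.elim_inl, Sum.elim_inr, Pi.smul_apply, smul_eq_mul,
      RingHom.id_apply, Xc, Yc, hat_smul]
    all_goals ring

theorem EL_inl (v : (Σ b : (Kc ⊕ Kc) ⊕ (Ks ⊕ Ks), Fin (ell lc k1 k2 b)) → F)
    (t : Lam lc k1 k2) : EL lc k1 k2 v (Sum.inl t) = Xc lc k1 k2 v t := rfl

theorem EL_inr (v : (Σ b : (Kc ⊕ Kc) ⊕ (Ks ⊕ Ks), Fin (ell lc k1 k2 b)) → F)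
    (t : Lam lc k1 k2) : EL lc k1 k2 v (Sum.inr t) = Yc lc k1 k2 v t := rfl

theorem EL_inj (h2 : (2 : F) ≠ 0) : Function.Injective (EL (F := F) lc k1 k2) := by
  rw [injective_iff_map_eq_zero]
  intro v hv
  have hX : ∀ t, Xc lc k1 k2 v t = 0 := fun t => congrFun hv (Sum.inl t)
  have hY : ∀ t, Yc lc k1 k2 v t = 0 := fun t => congrFun hv (Sum.inr t)
  have hpm : ∀ n : ℕ, ((-1 : F)) ^ n ≠ 0 := fun n => pow_ne_zero _ (neg_ne_zero.2 one_ne_zero)
  funext y
  obtain ⟨b, j, hj⟩ := y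
  rw [← hat_apply (ell lc k1 k2) v b j hj]
  show hat (ell lc k1 k2) v b j = 0
  rcases b with (κ | κ) | (κ | κ)
  · exact hX (Sum.inl ⟨κ, ⟨j, hj⟩⟩)
  · have hj' : j < lc κ := hj
    have h3 := hY (Sum.inl ⟨κ, ⟨lc κ - 1 - j, by omega⟩⟩)
    have h4 : (-1 : F) ^ (lc κ - 1 - j)
        * hat (ell lc k1 k2) v (Sum.inl (Sum.inr κ)) (lc κ - 1 - (lc κ - 1 - j)) = 0 := h3
    have e : lc κ - 1 - (lc κ - 1 - j) = j := by omega
    rw [e] at h4
    exact (mul_eq_zero.1 h4).resolve_left (hpm _)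
  · have hj' : j < 2 * k1 κ + 1 := hj
    have hmid : hat (ell lc k1 k2) v (Sum.inr (Sum.inl κ)) (k1 κ) = 0 := by
      have a := hX (Sum.inr ⟨κ, Sum.inr ()⟩)
      have b := hY (Sum.inr ⟨κ, Sum.inr ()⟩)
      have a' : (hat (ell lc k1 k2) v (Sum.inr (Sum.inl κ)) (k1 κ)
          + hat (ell lc k1 k2) v (Sum.inr (Sum.inr κ)) (k2 κ)) / 2 = 0 := a
      have b' : hat (ell lc k1 k2) v (Sum.inr (Sum.inl κ)) (k1 κ)
          - hat (ell lc k1 k2) v (Sum.inr (Sum.inr κ)) (k2 κ) = 0 := b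
      have a'' := (div_eq_zero_iff.1 a').resolve_right h2
      have h5 : (2 : F) * hat (ell lc k1 k2) v (Sum.inr (Sum.inl κ)) (k1 κ) = 0 := by
        linear_combination a'' + b'
      exact (mul_eq_zero.1 h5).resolve_left h2
    rcases lt_trichotomy j (k1 κ) with h | h | h
    · exact hX (Sum.inr ⟨κ, Sum.inl (Sum.inl ⟨j, h⟩)⟩)
    · rw [h]
      exact hmid
    · have h3 := hY (Sum.inr ⟨κ, Sum.inl (Sum.inl ⟨2 * k1 κ - j, by omega⟩)⟩)
      have h4 : (-1 : F) ^ (k1 κ) * ((-1) ^ (2 * k1 κ - j)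
          * hat (ell lc k1 k2) v (Sum.inr (Sum.inl κ)) (2 * k1 κ - (2 * k1 κ - j))) = 0 := h3
      have e : 2 * k1 κ - (2 * k1 κ - j) = j := by omega
      rw [e] at h4
      exact (mul_eq_zero.1 ((mul_eq_zero.1 h4).resolve_left (hpm _))).resolve_left (hpm _)
  · have hj' : j < 2 * k2 κ + 1 := hj
    have hmid : hat (ell lc k1 k2) v (Sum.inr (Sum.inr κ)) (k2 κ) = 0 := by
      have a := hX (Sum.inr ⟨κ, Sum.inr ()⟩)
      have b := hY (Sum.inr ⟨κ, Sum.inr ()⟩)
      have a' : (hat (ell lc k1 k2) v (Sum.inr (Sum.inl κ)) (k1 κ)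
          + hat (ell lc k1 k2) v (Sum.inr (Sum.inr κ)) (k2 κ)) / 2 = 0 := a
      have b' : hat (ell lc k1 k2) v (Sum.inr (Sum.inl κ)) (k1 κ)
          - hat (ell lc k1 k2) v (Sum.inr (Sum.inr κ)) (k2 κ) = 0 := b
      have a'' := (div_eq_zero_iff.1 a').resolve_right h2
      have h5 : (2 : F) * hat (ell lc k1 k2) v (Sum.inr (Sum.inr κ)) (k2 κ) = 0 := by
        linear_combination a'' - b'
      exact (mul_eq_zero.1 h5).resolve_left h2
    rcases lt_trichotomy j (k2 κ) with h | h | h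
    · exact hX (Sum.inr ⟨κ, Sum.inl (Sum.inr ⟨j, h⟩)⟩)
    · rw [h]
      exact hmid
    · have h3 := hY (Sum.inr ⟨κ, Sum.inl (Sum.inr ⟨2 * k2 κ - j, by omega⟩)⟩)
      have h4 : - ((-1 : F) ^ (k2 κ) * ((-1) ^ (2 * k2 κ - j)
          * hat (ell lc k1 k2) v (Sum.inr (Sum.inr κ)) (2 * k2 κ - (2 * k2 κ - j)))) = 0 := h3
      have e : 2 * k2 κ - (2 * k2 κ - j) = j := by omega
      rw [e, neg_eq_zero] at h4
      exact (mul_eq_zero.1 ((mul_eq_zero.1 h4).resolve_left (hpm _))).resolve_left (hpm _)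

theorem card_model :
    Fintype.card (Σ b : (Kc ⊕ Kc) ⊕ (Ks ⊕ Ks), Fin (ell lc k1 k2 b))
      = 2 * Fintype.card (Lam lc k1 k2) := by
  have e1 : Fintype.card (Σ b : (Kc ⊕ Kc) ⊕ (Ks ⊕ Ks), Fin (ell lc k1 k2 b))
      = ∑ b, ell lc k1 k2 b := by
    rw [Fintype.card_sigma]
    exact Finset.sum_congr rfl (fun b _ => Fintype.card_fin _)
  have e2 : Fintype.card (Σ κ : Kc, Fin (lc κ)) = ∑ κ, lc κ := by
    rw [Fintype.card_sigma]
    exact Finset.sum_congr rfl (fun b _ => Fintype.card_fin _)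
  have e3 : Fintype.card (Σ κ : Ks, (Fin (k1 κ) ⊕ Fin (k2 κ)) ⊕ Unit)
      = ∑ κ, (k1 κ + k2 κ + 1) := by
    rw [Fintype.card_sigma]
    apply Finset.sum_congr rfl
    intro κ _
    rw [Fintype.card_sum, Fintype.card_sum, Fintype.card_fin, Fintype.card_fin,
      Fintype.card_unit]
  rw [e1, Fintype.card_sum, e2, e3, Fintype.sum_sum_type, Fintype.sum_sum_type,
    Fintype.sum_sum_type]
  show ∑ κ, lc κ + ∑ κ, lc κ + (∑ κ, (2 * k1 κ + 1) + ∑ κ, (2 * k2 κ + 1))
    = 2 * (∑ κ, lc κ + ∑ κ, (k1 κ + k2 κ + 1))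
  simp only [Finset.sum_add_distrib, ← Finset.mul_sum, Finset.sum_const, Finset.card_univ,
    smul_eq_mul, mul_one]
  ring

/-- the coordinate isomorphism of the model -/
noncomputable def ELe (h2 : (2 : F) ≠ 0) :
    ((Σ b : (Kc ⊕ Kc) ⊕ (Ks ⊕ Ks), Fin (ell lc k1 k2 b)) → F)
      ≃ₗ[F] (Lam lc k1 k2 ⊕ Lam lc k1 k2 → F) :=
  LinearMap.linearEquivOfInjective (EL lc k1 k2) (EL_inj lc k1 k2 h2) (by
    rw [Module.finrank_fintype_fun_eq_card, Module.finrank_fintype_fun_eq_card, card_model,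
      Fintype.card_sum (α := Lam lc k1 k2) (β := Lam lc k1 k2)]
    ring)

theorem ELe_apply (h2 : (2 : F) ≠ 0)
    (v : (Σ b : (Kc ⊕ Kc) ⊕ (Ks ⊕ Ks), Fin (ell lc k1 k2 b)) → F) :
    ELe lc k1 k2 h2 v = EL lc k1 k2 v := rfl

end model

section assembly

open Matrix

theorem univ_sum_map {A B : Type*} [Fintype A] [Fintype B] {γ : Type*} (f : A ⊕ B → γ) :
    (Finset.univ : Finset (A ⊕ B)).val.map f
      = (Finset.univ : Finset A).val.map (fun a => f (Sum.inl a))
        + (Finset.univ : Finset B).val.map (fun b => f (Sum.inr b)) := by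
  rw [← Finset.univ_disjSum_univ, Finset.val_disjSum]
  unfold Multiset.disjSum
  rw [Multiset.map_add, Multiset.map_map, Multiset.map_map]
  rfl

/-- A necessary condition for every element of order p of PΩ⁺_n(q), q odd, to fix a hyperbolic `m`-space. Here `T = PΩ⁺_n(F)`, `n = 2d ≥ 8`, realised through `Ω⁺_n(q)`, the commutator subgroup of the isometry group of `Q = Σ xᵢyᵢ` over the field `F` with `q` elements; an element of `T` of prime order `r` is an element `x` of `Ω⁺_n(q)` with `x^r` scalar and `x` not scalar; `q` is odd; a nondegenerate `m`-space (even `m`) is a subspace on which the polar form of `Q` is nondegenerate; it is hyperbolic if it contains an `m/2`-dimensional subspace on which `Q` vanishes, elliptic otherwise. Let `m` be even with `2 ≤ m < n/2` and suppose `p` divides the number of hyperbolic `m`-spaces. If every element of `T` of order `p` fixes some hyperbolic `m`-space, then every partition of `n` into parts of size at most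 `p` in which every even part has even multiplicity contains (as a sub-multiset) a partition of `m` in which every even part has even multiplicity. -/
theorem result {F : Type*} [Field F] [Fintype F] {p : ℕ} [Fact p.Prime] [CharP F p] {q : ℕ} (hq : Fintype.card F = q) (hqodd : Odd q)
    (d m : ℕ) (hd : 4 ≤ d) (hm : 2 ≤ m) (hme : Even m) (hmd : m < d)
    (hpΩ : p ∣ Nat.card {W : Submodule F (Fin d ⊕ Fin d → F) // Module.finrank F ↥W = m ∧ Cfsg.Geo.IsNondegenerateOn (QuadraticMap.polar (Cfsg.quadFormPlus d F)) W ∧ Cfsg.Geo.IsPlusTypeOn (Cfsg.quadFormPlus d F) W}) :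
    (∀ x : GL (Fin d ⊕ Fin d) F, x ∈ Cfsg.Geo.omegaGL (Cfsg.quadFormPlus d F) →
      (∃ z : F, ((x ^ p : GL (Fin d ⊕ Fin d) F) : Matrix (Fin d ⊕ Fin d) (Fin d ⊕ Fin d) F) = z • (1 : Matrix (Fin d ⊕ Fin d) (Fin d ⊕ Fin d) F)) →
      (∀ z : F, (x : Matrix (Fin d ⊕ Fin d) (Fin d ⊕ Fin d) F) ≠ z • (1 : Matrix (Fin d ⊕ Fin d) (Fin d ⊕ Fin d) F)) →
      ∃ W : Submodule F (Fin d ⊕ Fin d → F), (Module.finrank F ↥W = m ∧ Cfsg.Geo.IsNondegenerateOn (QuadraticMap.polar (Cfsg.quadFormPlus d F)) W ∧ Cfsg.Geo.IsPlusTypeOn (Cfsg.quadFormPlus d F) W) ∧ W.map (Matrix.toLin' (x : Matrix (Fin d ⊕ Fin d) (Fin d ⊕ Fin d) F)) ≤ W) →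
    (∀ μ : Multiset ℕ, (∀ e ∈ μ, 0 < e ∧ e ≤ p) → (∀ e : ℕ, Even e → Even (μ.count e)) → μ.sum = 2 * d →
        ∃ ν : Multiset ℕ, ν ≤ μ ∧ ν.sum = m ∧ ∀ e : ℕ, Even e → Even (ν.count e)) := by
  intro h μ hμ hμev hsum
  classical
  have hpp : p.Prime := Fact.out
  have h2 : (2 : F) ≠ 0 := by
    apply Ring.two_ne_zero
    intro h3
    have h4 := FiniteField.even_card_iff_char_two.mp h3
    rw [hq] at h4
    rcases hqodd with ⟨k, hk⟩
    omega
  by_cases hall : ∀ b ∈ μ, b = 1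
  · refine ⟨Multiset.replicate m 1, ?_, by simp, ?_⟩
    · have h1 : μ = Multiset.replicate (Multiset.card μ) 1 := Multiset.eq_replicate_card.2 hall
      have hcard : Multiset.card μ = 2 * d := by
        have h3 := hsum
        rw [h1, Multiset.sum_replicate, smul_eq_mul, mul_one] at h3
        exact h3
      rw [h1, hcard, Multiset.replicate_le_replicate]
      omega
    · intro e he
      rw [Multiset.count_replicate]
      by_cases h1 : 1 = e
      · rw [← h1] at he
        exact absurd he (by decide)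
      · rw [if_neg h1]
        exact Even.zero
  · push Not at hall
    obtain ⟨b₀, hb₀, hb₀1⟩ := hall
    obtain ⟨Lc, Ls, hL⟩ := exists_pairs (Multiset.card μ) μ rfl hμev
      (by rw [hsum]; exact even_two_mul d)
    obtain ⟨lc, hlc⟩ : ∃ lc : Fin Lc.length → ℕ, lc = fun i => Lc.get i := ⟨_, rfl⟩
    obtain ⟨k1, hk1⟩ : ∃ k1 : Fin Ls.length → ℕ, k1 = fun i => (Ls.get i).1 := ⟨_, rfl⟩
    obtain ⟨k2, hk2⟩ : ∃ k2 : Fin Ls.length → ℕ, k2 = fun i => (Ls.get i).2 := ⟨_, rfl⟩
    have hmap : (Finset.univ : Finset ((Fin Lc.length ⊕ Fin Lc.length)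
        ⊕ (Fin Ls.length ⊕ Fin Ls.length))).val.map (ell lc k1 k2) = μ := by
      rw [univ_sum_map, univ_sum_map, univ_sum_map]
      show (Finset.univ.val.map (fun i : Fin Lc.length => lc i))
          + (Finset.univ.val.map (fun i : Fin Lc.length => lc i))
          + ((Finset.univ.val.map (fun i : Fin Ls.length => 2 * k1 i + 1))
            + (Finset.univ.val.map (fun i : Fin Ls.length => 2 * k2 i + 1))) = μ
      rw [Fin.univ_val_map, Fin.univ_val_map, Fin.univ_val_map, hlc, hk1, hk2]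
      have e1 : List.ofFn (fun i : Fin Ls.length => 2 * (Ls.get i).1 + 1)
          = Ls.map (fun q => 2 * q.1 + 1) := by
        rw [List.ofFn_comp' Ls.get (fun q : ℕ × ℕ => 2 * q.1 + 1), List.ofFn_get]
      have e2 : List.ofFn (fun i : Fin Ls.length => 2 * (Ls.get i).2 + 1)
          = Ls.map (fun q => 2 * q.2 + 1) := by
        rw [List.ofFn_comp' Ls.get (fun q : ℕ × ℕ => 2 * q.2 + 1), List.ofFn_get]
      rw [e1, e2, List.ofFn_get, hL]
      abel
    have hℓmem : ∀ b, ell lc k1 k2 b ∈ μ := by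
      intro b
      rw [← hmap]
      exact Multiset.mem_map_of_mem _ (Finset.mem_univ_val b)
    have hℓp : ∀ b, ell lc k1 k2 b ≤ p := fun b => (hμ _ (hℓmem b)).2
    have hcountℓ : ∀ c, μ.count c
        = (Finset.univ.filter (fun b => c = ell lc k1 k2 b)).card := by
      intro c
      have h1 := congrArg (Multiset.count c) hmap
      rw [← h1, Multiset.count_map]
      rfl
    have hsumℓ : ∑ b, ell lc k1 k2 b = 2 * d := by
      rw [Finset.sum_eq_multiset_sum, hmap, hsum]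
    have hcardI : Fintype.card (Σ b, Fin (ell lc k1 k2 b)) = 2 * d := by
      rw [Fintype.card_sigma]
      simp only [Fintype.card_fin]
      exact hsumℓ
    have hcardL : Fintype.card (Lam lc k1 k2) = d := by
      have h3 := card_model lc k1 k2
      omega
    obtain ⟨e⟩ : Nonempty (Lam lc k1 k2 ≃ Fin d) := ⟨Fintype.equivFinOfCardEq hcardL⟩
    obtain ⟨E, hE⟩ : ∃ E : ((Σ b, Fin (ell lc k1 k2 b)) → F) ≃ₗ[F] (Fin d ⊕ Fin d → F),
        ∀ v, Cfsg.quadFormPlus d F (E v) = Qm lc k1 k2 v := by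
      refine ⟨(ELe lc k1 k2 h2).trans
        (LinearEquiv.funCongrLeft F F (Equiv.sumCongr e.symm e.symm)), ?_⟩
      intro v
      unfold Cfsg.quadFormPlus Qm
      rw [← Equiv.sum_comp e.symm]
      rfl
    obtain ⟨xV, c, c', hiso, hxN, hcomm, hcc', hc'c⟩ := cayley h2 (BmL lc k1 k2)
      (shiftT (ell lc k1 k2)) (fun u v => Bm_skew lc k1 k2 u v) p
      (shiftT_pow_eq_zero _ p hℓp)
    have hQiso : ∀ v, Qm lc k1 k2 (xV v) = Qm lc k1 k2 v := by
      intro v
      have h3 := hiso v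
      rw [BmL_apply, BmL_apply, Bm_self lc k1 k2 h2, Bm_self lc k1 k2 h2] at h3
      exact mul_left_cancel₀ h2 h3
    obtain ⟨X, hX⟩ : ∃ X : Module.End F (Fin d ⊕ Fin d → F), ∀ v, X (E v) = E (xV v) :=
      ⟨E.conj xV, fun v => by rw [LinearEquiv.conj_apply_apply, LinearEquiv.symm_apply_apply]⟩
    obtain ⟨Nst, hNst⟩ : ∃ Nst : Module.End F (Fin d ⊕ Fin d → F),
        ∀ v, Nst (E v) = E (shiftT (ell lc k1 k2) v) :=
      ⟨E.conj (shiftT (ell lc k1 k2)), fun v => by
        rw [LinearEquiv.conj_apply_apply, LinearEquiv.symm_apply_apply]⟩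
    obtain ⟨C, hC⟩ : ∃ C : Module.End F (Fin d ⊕ Fin d → F), ∀ v, C (E v) = E (c v) :=
      ⟨E.conj c, fun v => by rw [LinearEquiv.conj_apply_apply, LinearEquiv.symm_apply_apply]⟩
    obtain ⟨C', hC'⟩ : ∃ C' : Module.End F (Fin d ⊕ Fin d → F), ∀ v, C' (E v) = E (c' v) :=
      ⟨E.conj c', fun v => by rw [LinearEquiv.conj_apply_apply, LinearEquiv.symm_apply_apply]⟩
    have hXN : X - 1 = Nst * C := by
      apply LinearMap.ext
      intro w
      obtain ⟨v, rfl⟩ := E.surjective w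
      rw [LinearMap.sub_apply, Module.End.one_apply, hX, Module.End.mul_apply, hC, hNst,
        ← map_sub]
      have h3 := congrArg (fun S : Module.End F ((Σ b, Fin (ell lc k1 k2 b)) → F) => S v) hxN
      simp only [LinearMap.sub_apply, Module.End.one_apply, Module.End.mul_apply] at h3
      rw [h3]
    have hNC : Commute Nst C := by
      show Nst * C = C * Nst
      apply LinearMap.ext
      intro w
      obtain ⟨v, rfl⟩ := E.surjective w
      rw [Module.End.mul_apply, Module.End.mul_apply, hC, hNst, hNst, hC]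
      have h3 := congrArg (fun S : Module.End F ((Σ b, Fin (ell lc k1 k2 b)) → F) => S v)
        hcomm.eq
      simp only [Module.End.mul_apply] at h3
      rw [h3]
    have hCC' : C * C' = 1 := by
      apply LinearMap.ext
      intro w
      obtain ⟨v, rfl⟩ := E.surjective w
      rw [Module.End.mul_apply, hC', hC, Module.End.one_apply]
      have h3 := congrArg (fun S : Module.End F ((Σ b, Fin (ell lc k1 k2 b)) → F) => S v) hcc'
      simp only [Module.End.mul_apply, Module.End.one_apply] at h3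
      rw [h3]
    have hC'C : C' * C = 1 := by
      apply LinearMap.ext
      intro w
      obtain ⟨v, rfl⟩ := E.surjective w
      rw [Module.End.mul_apply, hC, hC', Module.End.one_apply]
      have h3 := congrArg (fun S : Module.End F ((Σ b, Fin (ell lc k1 k2 b)) → F) => S v) hc'c
      simp only [Module.End.mul_apply, Module.End.one_apply] at h3
      rw [h3]
    have hgk : ∀ k, gk (X - 1) ⊤ k
        = (Finset.univ.filter (fun b => k < ell lc k1 k2 b)).card := by
      intro k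
      rw [hXN, gk_mul_unit Nst C C' hNC hCC' hC'C k, gk_model (ell lc k1 k2) E Nst hNst k,
        Fintype.card_subtype]
    have hstep : ∀ k, (Finset.univ.filter (fun b => k < ell lc k1 k2 b)).card
        = (Finset.univ.filter (fun b => k + 1 < ell lc k1 k2 b)).card
          + (Finset.univ.filter (fun b => k + 1 = ell lc k1 k2 b)).card := by
      intro k
      simp only [Finset.card_filter]
      rw [← Finset.sum_add_distrib]
      apply Finset.sum_congr rfl
      intro b _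
      split_ifs <;> omega
    have hμg : ∀ k, k < p → μ.count (k + 1) = gk (X - 1) ⊤ k - gk (X - 1) ⊤ (k + 1) := by
      intro k _
      rw [hgk, hgk, hcountℓ, hstep k]
      omega
    have hXNp : (X - 1) ^ p = 0 := by
      rw [hXN, hNC.mul_pow, model_pow_eq_zero (ell lc k1 k2) E Nst hNst p hℓp, zero_mul]
    have hXp : X ^ p = 1 := by
      have h3 := one_add_pow_eq p (X - 1) hXNp
      rwa [add_sub_cancel] at h3
    have hXQ : ∀ w, Cfsg.quadFormPlus d F (X w) = Cfsg.quadFormPlus d F w := by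
      intro w
      obtain ⟨v, rfl⟩ := E.surjective w
      rw [hX, hE, hE, hQiso]
    have hp1 : p = (p - 1) + 1 := by
      have := hpp.pos
      omega
    obtain ⟨g, hg⟩ : ∃ g : GL (Fin d ⊕ Fin d) F,
        (g : Matrix (Fin d ⊕ Fin d) (Fin d ⊕ Fin d) F) = LinearMap.toMatrix' X := by
      refine ⟨⟨LinearMap.toMatrix' X, LinearMap.toMatrix' (X ^ (p - 1)), ?_, ?_⟩, rfl⟩
      · rw [← LinearMap.toMatrix'_mul, ← pow_succ', ← hp1, hXp, LinearMap.toMatrix'_one]
      · rw [← LinearMap.toMatrix'_mul, ← pow_succ, ← hp1, hXp, LinearMap.toMatrix'_one]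
    have hglin : Matrix.toLin' (g : Matrix (Fin d ⊕ Fin d) (Fin d ⊕ Fin d) F) = X := by
      rw [hg]
      exact Matrix.toLin'_toMatrix' X
    have hgmul : ∀ w, (g : Matrix (Fin d ⊕ Fin d) (Fin d ⊕ Fin d) F) *ᵥ w = X w := by
      intro w
      rw [← Matrix.toLin'_apply, hglin]
    have hgp : g ^ p = 1 := by
      apply Units.ext
      rw [Units.val_pow_eq_pow_val, Units.val_one]
      have h1 : Matrix.toLin' ((g : Matrix (Fin d ⊕ Fin d) (Fin d ⊕ Fin d) F) ^ p)
          = Matrix.toLin' (1 : Matrix (Fin d ⊕ Fin d) (Fin d ⊕ Fin d) F) := by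
        rw [Matrix.toLin'_pow, hglin, hXp, Matrix.toLin'_one]
        rfl
      exact Matrix.toLin'.injective h1
    have hmem : g ∈ Cfsg.isometryGroup F (Cfsg.quadFormPlus d F) :=
      (Cfsg.Agent.Lib.Helper16.mem_isometryGroup_iff (Cfsg.Agent.Lib.Helper16.qfPlus d F) g).mpr
        (fun w => by
          rw [hgmul]
          exact hXQ w)
    have hΩ : g ∈ Cfsg.Geo.omegaGL (Cfsg.quadFormPlus d F) := by
      obtain ⟨g', hg'⟩ : ∃ g' : ↥(Cfsg.isometryGroup F (Cfsg.quadFormPlus d F)),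
          g' = ⟨g, hmem⟩ := ⟨_, rfl⟩
      have hg'p : g' ^ p = 1 := by
        apply Subtype.ext
        rw [hg']
        exact hgp
      obtain ⟨r, hr⟩ : ∃ r, p = 2 * r + 1 := by
        rcases hpp.eq_two_or_odd' with h3 | h3
        · exfalso
          apply h2
          have h4 : ((p : ℕ) : F) = 0 := CharP.cast_eq_zero F p
          rw [h3] at h4
          exact_mod_cast h4
        · exact h3
      have hsq : g' = g' ^ (r + 1) * g' ^ (r + 1) := by
        rw [← pow_add]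
        have h3 : r + 1 + (r + 1) = p + 1 := by omega
        rw [h3, pow_succ, hg'p, one_mul]
      have hn : 2 ≤ Fintype.card (Fin d ⊕ Fin d) := by
        rw [Fintype.card_sum, Fintype.card_fin]
        omega
      have h3 := Cfsg.Agent.Lib.Helper3.sq_mem_omega (Cfsg.Agent.Lib.Helper16.qfPlus d F) h2
        (Cfsg.Agent.Lib.Helper16.qfPlus_nondeg d F) hn (g' ^ (r + 1))
      have h4 : g' ∈ Cfsg.Omega F (Cfsg.quadFormPlus d F) := by
        rw [hsq]
        exact h3
      refine Subgroup.mem_map.2 ⟨g', h4, ?_⟩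
      rw [hg']
      rfl
    have hnsc : ∀ z : F, (g : Matrix (Fin d ⊕ Fin d) (Fin d ⊕ Fin d) F)
        ≠ z • (1 : Matrix (Fin d ⊕ Fin d) (Fin d ⊕ Fin d) F) := by
      intro z hz
      have hXz : X = z • (1 : Module.End F (Fin d ⊕ Fin d → F)) := by
        rw [← hglin, hz, map_smul, Matrix.toLin'_one]
        rfl
      have hNz : X - 1 = (z - 1) • (1 : Module.End F (Fin d ⊕ Fin d → F)) := by
        rw [hXz]
        apply LinearMap.ext
        intro v
        simp only [LinearMap.sub_apply, LinearMap.smul_apply, Module.End.one_apply, sub_smul,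
          one_smul]
      have hz1 : z = 1 := by
        have h1 : ((z - 1) • (1 : Module.End F (Fin d ⊕ Fin d → F))) ^ p = 0 := by
          rw [← hNz]
          exact hXNp
        rw [smul_pow, one_pow] at h1
        have h3 := congrArg (fun T : Module.End F (Fin d ⊕ Fin d → F) =>
          T (fun _ => (1 : F)) (Sum.inl ⟨0, by omega⟩)) h1
        simp only [LinearMap.smul_apply, Module.End.one_apply, Pi.smul_apply, smul_eq_mul,
          mul_one, LinearMap.zero_apply, Pi.zero_apply] at h3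
        exact sub_eq_zero.1 (pow_eq_zero_iff hpp.ne_zero |>.1 h3)
      have hN0 : X - 1 = 0 := by
        rw [hNz, hz1, sub_self, zero_smul]
      have hg1 := hgk 1
      have h3 : gk (X - 1) ⊤ 1 = 0 := by
        unfold gk
        rw [hN0, pow_one, Submodule.map_zero, inf_bot_eq, finrank_bot]
      rw [h3] at hg1
      have hb₀' : b₀ ∈ (Finset.univ : Finset ((Fin Lc.length ⊕ Fin Lc.length)
          ⊕ (Fin Ls.length ⊕ Fin Ls.length))).val.map (ell lc k1 k2) := by
        rw [hmap]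
        exact hb₀
      obtain ⟨bb, -, hbb⟩ := Multiset.mem_map.1 hb₀'
      have h4 : bb ∈ Finset.univ.filter (fun b => 1 < ell lc k1 k2 b) := by
        rw [Finset.mem_filter]
        refine ⟨Finset.mem_univ _, ?_⟩
        rw [hbb]
        have := (hμ b₀ hb₀).1
        omega
      have := Finset.card_pos.2 ⟨_, h4⟩
      omega
    obtain ⟨W, ⟨hWdim, hWnd, -⟩, hWinv⟩ := h g hΩ
      ⟨1, by rw [hgp, Units.val_one, one_smul]⟩ hnsc
    rw [hglin] at hWinv
    obtain ⟨Bp, hBp, hBnd⟩ : ∃ Bp : LinearMap.BilinForm F (Fin d ⊕ Fin d → F),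
        (∀ u v, Bp u v = QuadraticMap.polar (Cfsg.quadFormPlus d F) u v) ∧ Bp.Nondegenerate :=
      ⟨QuadraticMap.polarBilin (Cfsg.Agent.Lib.Helper16.qfPlus d F), fun u v => rfl,
        Cfsg.Agent.Lib.Helper16.qfPlus_nondeg d F⟩
    have hBsym : ∀ u v, Bp u v = Bp v u := by
      intro u v
      rw [hBp, hBp, QuadraticMap.polar_comm]
    have hBX : ∀ u v, Bp (X u) (X v) = Bp u v := by
      intro u v
      rw [hBp, hBp]
      unfold QuadraticMap.polar
      rw [← map_add, hXQ, hXQ, hXQ]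
    have hXW : ∀ w ∈ W, X w ∈ W := fun w hw => hWinv (Submodule.mem_map_of_mem hw)
    have hdisj : Disjoint W (Bp.orthogonal W) := by
      rw [Submodule.disjoint_def]
      intro v hv1 hv2
      by_contra hv0
      obtain ⟨⟨u, hu, hne⟩, -⟩ := hWnd v hv1 hv0
      apply hne
      rw [← hBp]
      exact (LinearMap.BilinForm.mem_orthogonal_iff.1 hv2) u hu
    have hsup : W ⊔ Bp.orthogonal W = ⊤ := by
      apply Submodule.eq_top_of_finrank_eq
      have h3 := Submodule.finrank_sup_add_finrank_inf_eq W (Bp.orthogonal W)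
      rw [hdisj.eq_bot, finrank_bot, add_zero] at h3
      have h4 := LinearMap.BilinForm.finrank_orthogonal hBnd W
      have h5 := Submodule.finrank_le W
      omega
    have hXsurjW : ∀ w ∈ W, ∃ w₀ ∈ W, X w₀ = w := by
      intro w hw
      refine ⟨(X ^ (p - 1)) w, map_pow_le X W hWinv (p - 1) (Submodule.mem_map_of_mem hw), ?_⟩
      rw [← Module.End.mul_apply, ← pow_succ', ← hp1, hXp, Module.End.one_apply]
    have horthinv : (Bp.orthogonal W).map X ≤ Bp.orthogonal W := by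
      rintro _ ⟨v, hv, rfl⟩
      rw [LinearMap.BilinForm.mem_orthogonal_iff]
      intro w hw
      obtain ⟨w₀, hw₀, rfl⟩ := hXsurjW w hw
      rw [hBX]
      exact (LinearMap.BilinForm.mem_orthogonal_iff.1 hv) w₀ hw₀
    obtain ⟨ν, hν1, hν2, hν3, hν4⟩ := exists_nu' (X - 1) p W (Bp.orthogonal W)
      (sub_one_invariant X W hWinv) (sub_one_invariant X _ horthinv) hdisj hsup hXNp μ hμg
    refine ⟨ν, hν1, by rw [hν2, hWdim], ?_⟩
    intro e he
    by_cases hcase : e = 0 ∨ p < e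
    · rw [hν4 e hcase]
      exact Even.zero
    · push Not at hcase
      obtain ⟨k, rfl⟩ : ∃ k, e = k + 1 := ⟨e - 1, by omega⟩
      rw [hν3 k (by omega)]
      have hkodd : Odd k := by
        rcases Nat.even_or_odd k with h3 | h3
        · exact absurd he (Nat.not_even_iff_odd.2 h3.add_one)
        · exact h3
      refine parity_on Bp hBsym h2 X hBX W hXW (fun w hw hall => ?_) k hkodd
      by_contra hw0
      obtain ⟨⟨u, hu, hne⟩, -⟩ := hWnd w hw hw0
      exact hne (by rw [← hBp]; exact hall u hu)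

end assembly

end Cfsg.Agent.S5996
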