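import Mathlib
import Cfsg.Agent.S5970
import Cfsg.Agent.S5996
import Cfsg.Agent.S0245
import Cfsg.Agent.Lib.Helper15.SpD
import Cfsg.Agent.Lib.Helper15.SpU
import Cfsg.Statements.S5968

set_option autoImplicit false
open scoped MatrixGroups
open Cfsg

namespace Cfsg.Agent.S5968

section forms

open Matrix

variable {F : Type*} [Field F] {n : ℕ}

/-- the bilinear form attached to a symplectic form -/
noncomputable def toB (f : (Fin n → F) → (Fin n → F) → F) (hf : Cfsg.Geo.IsSymplecticForm f) :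
    LinearMap.BilinForm F (Fin n → F) :=
  LinearMap.mk₂ F f hf.bilinear.add_left
    (fun c x v => by rw [hf.bilinear.smul_left, smul_eq_mul])
    hf.bilinear.add_right
    (fun c v x => by rw [hf.bilinear.smul_right, smul_eq_mul])

theorem toB_apply (f : (Fin n → F) → (Fin n → F) → F) (hf : Cfsg.Geo.IsSymplecticForm f)
    (u v : Fin n → F) : toB f hf u v = f u v := rfl

theorem f_zero_left (f : (Fin n → F) → (Fin n → F) → F) (hf : Cfsg.Geo.IsSymplecticForm f)
    (v : Fin n → F) : f 0 v = 0 := by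
  have h := hf.bilinear.smul_left 0 0 v
  rw [zero_smul, zero_mul] at h
  exact h

theorem f_sub_left (f : (Fin n → F) → (Fin n → F) → F) (hf : Cfsg.Geo.IsSymplecticForm f)
    (a b v : Fin n → F) : f (a - b) v = f a v - f b v := by
  have h := hf.bilinear.add_left (a - b) b v
  rw [sub_add_cancel] at h
  rw [h, add_sub_cancel_right]

/-- transport of the non-conjugacy statement to forms preserved by the element itself -/
theorem not_conj_of_forall (x : Matrix.SpecialLinearGroup (Fin n) F)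
    (h : ∀ f' : (Fin n → F) → (Fin n → F) → F, Cfsg.Geo.IsSymplecticForm f' → ∀ c : F,
      (∀ u v, f' ((x : Matrix (Fin n) (Fin n) F) *ᵥ u) ((x : Matrix (Fin n) (Fin n) F) *ᵥ v)
        = c * f' u v) → False)
    (f : (Fin n → F) → (Fin n → F) → F) (hf : Cfsg.Geo.IsSymplecticForm f)
    (P : Matrix.SpecialLinearGroup (Fin n) F) :
    P⁻¹ * x * P ∉ ((Cfsg.Geo.similarityGroup f).comap
      (Matrix.SpecialLinearGroup.toGL : Matrix.SpecialLinearGroup (Fin n) F →* GL (Fin n) F)) := by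
  intro hmem
  rw [Subgroup.mem_comap] at hmem
  obtain ⟨c, hc⟩ := hmem
  obtain ⟨Pi, hPi⟩ : ∃ Pi : Matrix (Fin n) (Fin n) F,
      Pi = ((P⁻¹ : Matrix.SpecialLinearGroup (Fin n) F) : Matrix (Fin n) (Fin n) F) := ⟨_, rfl⟩
  obtain ⟨Pm, hPm⟩ : ∃ Pm : Matrix (Fin n) (Fin n) F,
      Pm = (P : Matrix (Fin n) (Fin n) F) := ⟨_, rfl⟩
  have h1 : Pi * Pm = 1 := by
    rw [hPi, hPm, ← Matrix.SpecialLinearGroup.coe_mul, inv_mul_cancel,
      Matrix.SpecialLinearGroup.coe_one]
  have h2 : Pm * Pi = 1 := by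
    rw [hPi, hPm, ← Matrix.SpecialLinearGroup.coe_mul, mul_inv_cancel,
      Matrix.SpecialLinearGroup.coe_one]
  have hy : ((Matrix.SpecialLinearGroup.toGL (P⁻¹ * x * P) : GL (Fin n) F) :
      Matrix (Fin n) (Fin n) F) = Pi * (x : Matrix (Fin n) (Fin n) F) * Pm := by
    rw [hPi, hPm, ← Matrix.SpecialLinearGroup.coe_mul, ← Matrix.SpecialLinearGroup.coe_mul]
    rfl
  have hc' : ∀ u v, f ((Pi * (x : Matrix (Fin n) (Fin n) F) * Pm) *ᵥ u)
      ((Pi * (x : Matrix (Fin n) (Fin n) F) * Pm) *ᵥ v) = (c : F) * f u v := by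
    intro u v
    have h3 := hc u v
    rw [hy] at h3
    exact h3
  have h4 : ∀ w : Fin n → F, (Pi * (x : Matrix (Fin n) (Fin n) F) * Pm) *ᵥ (Pi *ᵥ w)
      = Pi *ᵥ ((x : Matrix (Fin n) (Fin n) F) *ᵥ w) := by
    intro w
    rw [Matrix.mulVec_mulVec, Matrix.mul_assoc (Pi * (x : Matrix (Fin n) (Fin n) F)) Pm Pi, h2,
      Matrix.mul_one, ← Matrix.mulVec_mulVec]
  refine h (fun u v => f (Pi *ᵥ u) (Pi *ᵥ v)) ?_ (c : F) ?_
  · refine ⟨⟨?_, ?_, ?_, ?_⟩, ?_, ?_, ?_⟩
    · intro a b v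
      show f (Pi *ᵥ (a + b)) (Pi *ᵥ v) = _
      rw [Matrix.mulVec_add]
      exact hf.bilinear.add_left _ _ _
    · intro k a v
      show f (Pi *ᵥ (k • a)) (Pi *ᵥ v) = _
      rw [Matrix.mulVec_smul]
      exact hf.bilinear.smul_left _ _ _
    · intro v a b
      show f (Pi *ᵥ v) (Pi *ᵥ (a + b)) = _
      rw [Matrix.mulVec_add]
      exact hf.bilinear.add_right _ _ _
    · intro k v a
      show f (Pi *ᵥ v) (Pi *ᵥ (k • a)) = _
      rw [Matrix.mulVec_smul]
      exact hf.bilinear.smul_right _ _ _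
    · intro v w
      exact hf.skew _ _
    · intro v
      exact hf.alternating _
    · intro v hv
      have hv' : Pi *ᵥ v ≠ 0 := by
        intro h0
        apply hv
        have h5 := congrArg (fun z => Pm *ᵥ z) h0
        simp only [Matrix.mulVec_mulVec, h2, Matrix.one_mulVec, Matrix.mulVec_zero] at h5
        exact h5
      obtain ⟨⟨a, ha⟩, ⟨b, hb⟩⟩ := hf.nondegenerate _ hv'
      refine ⟨⟨Pm *ᵥ a, ?_⟩, ⟨Pm *ᵥ b, ?_⟩⟩
      · show f (Pi *ᵥ (Pm *ᵥ a)) (Pi *ᵥ v) ≠ 0
        rw [Matrix.mulVec_mulVec, h1, Matrix.one_mulVec]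
        exact ha
      · show f (Pi *ᵥ v) (Pi *ᵥ (Pm *ᵥ b)) ≠ 0
        rw [Matrix.mulVec_mulVec, h1, Matrix.one_mulVec]
        exact hb
  · intro u v
    show f (Pi *ᵥ ((x : Matrix (Fin n) (Fin n) F) *ᵥ u))
      (Pi *ᵥ ((x : Matrix (Fin n) (Fin n) F) *ᵥ v)) = (c : F) * f (Pi *ᵥ u) (Pi *ᵥ v)
    rw [← h4, ← h4]
    exact hc' _ _

/-- an isometry whose fixed space is complemented by the image of `x - 1` has an even
dimensional fixed space -/
theorem even_fixed (f : (Fin n → F) → (Fin n → F) → F) (hf : Cfsg.Geo.IsSymplecticForm f)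
    (x : Matrix (Fin n) (Fin n) F) (hx : ∀ u v, f (x *ᵥ u) (x *ᵥ v) = f u v)
    (K : Submodule F (Fin n → F)) (hK : ∀ w ∈ K, x *ᵥ w = w)
    (hdec : ∀ v : Fin n → F, ∃ w ∈ K, ∃ v' : Fin n → F, v = w + (x *ᵥ v' - v')) :
    Even (Module.finrank F ↥K) := by
  have h1 := Cfsg.Agent.S5996.even_rank_alt (toB f hf) (Module.finrank F ↥K) K rfl
    (fun u _ => hf.alternating u) (fun u _ v _ => hf.skew u v)
  have h2 : Cfsg.Agent.S5996.radOn (toB f hf) K = ⊥ := by
    rw [eq_bot_iff]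
    intro v hv
    rw [Cfsg.Agent.S5996.mem_radOn] at hv
    obtain ⟨hvK, hv0⟩ := hv
    rw [Submodule.mem_bot]
    by_contra hne
    obtain ⟨⟨a, ha⟩, -⟩ := hf.nondegenerate v hne
    apply ha
    obtain ⟨w, hw, v', hv'⟩ := hdec a
    rw [hv', hf.bilinear.add_left, f_sub_left f hf]
    have e1 : f w v = 0 := hv0 w hw
    have e2 : f (x *ᵥ v') v = f v' v := by
      have h3 := hx v' v
      rw [hK v hvK] at h3
      exact h3
    rw [e1, e2, sub_self, add_zero]
  rw [h2, finrank_bot, Nat.sub_zero] at h1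
  exact h1

/-- the multiplicity obstruction for a diagonal similitude -/
theorem mult_contra (f : (Fin n → F) → (Fin n → F) → F) (hf : Cfsg.Geo.IsSymplecticForm f)
    {ι : Type} [Fintype ι] [DecidableEq ι]
    (e : ι ≃ Fin n) (δ : ι → F) (c : F)
    (hx : ∀ s t, δ s * δ t ≠ c →
      f (Pi.single (e s) 1 : Fin n → F) (Pi.single (e t) 1 : Fin n → F) = 0)
    {a b : ℕ} (hab : b < a) (J : Fin a → ι) (hJ : Function.Injective J) (κ : Fin b → ι)
    (hJK : ∀ j : Fin a, ∀ k : ι, (∀ l, k ≠ κ l) → δ (J j) * δ k ≠ c) : False := by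
  classical
  obtain ⟨γ, hγ⟩ : ∃ γ : LinearMap.BilinForm F (Fin n → F), ∀ u v, γ u v = f u v :=
    ⟨toB f hf, fun _ _ => rfl⟩
  obtain ⟨L, hL⟩ : ∃ L : (Fin a → F) →ₗ[F] (Fin b → F), ∀ v l, L v l
      = ∑ j, f (Pi.single (e (J j)) 1 : Fin n → F) (Pi.single (e (κ l)) 1 : Fin n → F) * v j :=
    ⟨Matrix.mulVecLin (Matrix.of fun l j =>
      f (Pi.single (e (J j)) 1 : Fin n → F) (Pi.single (e (κ l)) 1 : Fin n → F)),
      fun v l => rfl⟩
  have hker : LinearMap.ker L ≠ ⊥ := by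
    apply LinearMap.ker_ne_bot_of_finrank_lt
    rw [Module.finrank_fin_fun, Module.finrank_fin_fun]
    exact hab
  obtain ⟨v, hvker, hv0⟩ := Submodule.exists_mem_ne_zero_of_ne_bot hker
  rw [LinearMap.mem_ker] at hvker
  obtain ⟨u, hu⟩ : ∃ u : Fin n → F,
      u = ∑ j, v j • (Pi.single (e (J j)) 1 : Fin n → F) := ⟨_, rfl⟩
  have hfu : ∀ w, f u w = ∑ j, v j * f (Pi.single (e (J j)) 1 : Fin n → F) w := by
    intro w
    rw [← hγ, hu, map_sum, LinearMap.sum_apply]
    apply Finset.sum_congr rfl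
    intro j _
    rw [map_smul, LinearMap.smul_apply, smul_eq_mul, hγ]
  have hut : ∀ t, f u (Pi.single (e t) 1 : Fin n → F) = 0 := by
    intro t
    rw [hfu]
    by_cases ht : ∃ l, t = κ l
    · obtain ⟨l, rfl⟩ := ht
      have h1 := congrFun hvker l
      rw [hL, Pi.zero_apply] at h1
      rw [← h1]
      apply Finset.sum_congr rfl
      intro j _
      rw [mul_comm]
    · push Not at ht
      apply Finset.sum_eq_zero
      intro j _
      rw [hx _ _ (hJK j t ht), mul_zero]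
  have hu0 : u = 0 := by
    by_contra hne
    obtain ⟨-, ⟨w, hw⟩⟩ := hf.nondegenerate u hne
    apply hw
    have hw' : w = ∑ j, w j • (Pi.single j 1 : Fin n → F) := pi_eq_sum_univ' w
    rw [hw', ← hγ, map_sum]
    apply Finset.sum_eq_zero
    intro j _
    rw [map_smul, smul_eq_mul, hγ]
    have h1 := hut (e.symm j)
    rw [Equiv.apply_symm_apply] at h1
    rw [h1, mul_zero]
  apply hv0
  funext j₀
  have h1 := congrFun hu0 (e (J j₀))
  rw [hu, Finset.sum_apply, Pi.zero_apply] at h1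
  rw [Finset.sum_eq_single j₀] at h1
  · rw [Pi.smul_apply, Pi.single_eq_same, smul_eq_mul, mul_one] at h1
    exact h1
  · intro j _ hne
    rw [Pi.smul_apply, Pi.single_eq_of_ne, smul_zero]
    intro h2
    exact hne (hJ (e.injective h2)).symm
  · intro h
    exact absurd (Finset.mem_univ j₀) h

/-- a unipotent element with a single Jordan block of size three preserves no symplectic form
up to scalars in odd characteristic -/
theorem unip_contra {p : ℕ} [Fact p.Prime] [CharP F p] (hp2 : p ≠ 2)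
    (f : (Fin n → F) → (Fin n → F) → F) (hf : Cfsg.Geo.IsSymplecticForm f)
    (N : Matrix (Fin n) (Fin n) F) (i₀ i₂ : Fin n)
    (hN2 : ∀ u : Fin n → F, N *ᵥ (N *ᵥ u) = u i₂ • (Pi.single i₀ 1 : Fin n → F))
    (hN3 : ∀ u : Fin n → F, N *ᵥ (N *ᵥ (N *ᵥ u)) = 0)
    (hpow : (1 + N) ^ p = 1) (c : F)
    (hc : ∀ u v, f ((1 + N) *ᵥ u) ((1 + N) *ᵥ v) = c * f u v) : False := by
  have hpp : p.Prime := Fact.out
  have h2F : (2 : F) ≠ 0 := by
    intro h
    have h1 : ((2 : ℕ) : F) = 0 := by exact_mod_cast h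
    rw [CharP.cast_eq_zero_iff F p] at h1
    exact hp2 ((Nat.prime_dvd_prime_iff_eq hpp Nat.prime_two).1 h1)
  have hpowc : ∀ k : ℕ, ∀ u v, f (((1 + N) ^ k) *ᵥ u) (((1 + N) ^ k) *ᵥ v) = c ^ k * f u v := by
    intro k
    induction k with
    | zero =>
      intro u v
      rw [pow_zero, pow_zero, Matrix.one_mulVec, Matrix.one_mulVec, one_mul]
    | succ k ih =>
      intro u v
      rw [pow_succ, ← Matrix.mulVec_mulVec, ← Matrix.mulVec_mulVec, ih, hc, pow_succ, mul_assoc]
  have hw0 : (Pi.single i₀ 1 : Fin n → F) ≠ 0 := by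
    intro h
    have h1 := congrFun h i₀
    rw [Pi.single_eq_same, Pi.zero_apply] at h1
    exact one_ne_zero h1
  obtain ⟨-, ⟨u₂, hu₂⟩⟩ := hf.nondegenerate _ hw0
  have hc1 : c = 1 := by
    have h1 := hpowc p (Pi.single i₀ 1) u₂
    rw [hpow, Matrix.one_mulVec, Matrix.one_mulVec] at h1
    have h3 : c ^ p = 1 := by
      have h4 : (c ^ p - 1) * f (Pi.single i₀ 1) u₂ = 0 := by
        rw [sub_mul, one_mul, ← h1, sub_self]
      rcases mul_eq_zero.1 h4 with h5 | h5
      · exact sub_eq_zero.1 h5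
      · exact absurd h5 hu₂
    apply frobenius_inj F p
    rw [frobenius_def, frobenius_def, h3, one_pow]
  subst hc1
  have hiso : ∀ u v, f (u + N *ᵥ u) (v + N *ᵥ v) = f u v := by
    intro u v
    have h1 := hc u v
    rw [Matrix.add_mulVec, Matrix.add_mulVec, Matrix.one_mulVec, Matrix.one_mulVec, one_mul] at h1
    exact h1
  have hstar : ∀ u v, f (N *ᵥ u) (N *ᵥ v) + f (N *ᵥ u) v + f u (N *ᵥ v) = 0 := by
    intro u v
    have h1 := hiso u v
    rw [hf.bilinear.add_left, hf.bilinear.add_right, hf.bilinear.add_right] at h1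
    linear_combination h1
  have hz : ∀ v, f 0 v = 0 := f_zero_left f hf
  have hz' : ∀ v, f v 0 = 0 := by
    intro v
    rw [hf.skew, hz, neg_zero]
  have hb : ∀ u v, f (N *ᵥ (N *ᵥ u)) (N *ᵥ v) = 0 := by
    intro u v
    have h1 := hstar (N *ᵥ (N *ᵥ u)) v
    rw [hN3, hz, hz, zero_add, zero_add] at h1
    exact h1
  have ha : ∀ u v, f (N *ᵥ (N *ᵥ u)) v = - f (N *ᵥ u) (N *ᵥ v) := by
    intro u v
    have h1 := hstar (N *ᵥ u) v
    rw [hb] at h1
    linear_combination h1
  have hd : ∀ u v, f (N *ᵥ u) (N *ᵥ (N *ᵥ v)) = 0 := by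
    intro u v
    have h1 := hstar u (N *ᵥ (N *ᵥ v))
    rw [hN3, hz', hz'] at h1
    linear_combination h1
  have hcc : ∀ u v, f u (N *ᵥ (N *ᵥ v)) = - f (N *ᵥ u) (N *ᵥ v) := by
    intro u v
    have h1 := hstar u (N *ᵥ v)
    rw [hd] at h1
    linear_combination h1
  have hself : ∀ u v, f (N *ᵥ (N *ᵥ u)) v = f u (N *ᵥ (N *ᵥ v)) := by
    intro u v
    rw [ha, hcc]
  have hkey : ∀ u : Fin n → F, u i₂ * f (Pi.single i₀ 1) u = 0 := by
    intro u
    have h1 := hself u u
    rw [hN2, hf.bilinear.smul_left, hf.bilinear.smul_right, hf.skew u (Pi.single i₀ 1)] at h1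
    have h2 : (2 : F) * (u i₂ * f (Pi.single i₀ 1) u) = 0 := by linear_combination h1
    exact (mul_eq_zero.1 h2).resolve_left h2F
  obtain ⟨u₁, hu₁⟩ : ∃ u₁ : Fin n → F, u₁ = Pi.single i₂ 1 := ⟨_, rfl⟩
  have h11 : u₁ i₂ = 1 := by rw [hu₁, Pi.single_eq_same]
  have e1 : f (Pi.single i₀ 1) u₁ = 0 := by
    have h3 := hkey u₁
    rw [h11, one_mul] at h3
    exact h3
  have e2 : u₂ i₂ = 0 := (mul_eq_zero.1 (hkey u₂)).resolve_right hu₂
  have e3 := hkey (u₁ + u₂)
  rw [Pi.add_apply, h11, e2, add_zero, one_mul, hf.bilinear.add_right, e1, zero_add] at e3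
  exact hu₂ e3

end forms

theorem prod_even_odd (g : ℕ → ℕ) (m : ℕ) :
    ∏ i ∈ Finset.range (2 * m), g i
      = (∏ j ∈ Finset.range m, g (2 * j)) * ∏ j ∈ Finset.range m, g (2 * j + 1) := by
  induction m with
  | zero => simp
  | succ m ih =>
    rw [show 2 * (m + 1) = 2 * m + 1 + 1 from by ring, Finset.prod_range_succ,
      Finset.prod_range_succ, ih, Finset.prod_range_succ, Finset.prod_range_succ]
    ring

section spcopy

open Matrix

variable {F : Type*} [Field F] [Fintype F] {n : ℕ}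

omit [Fintype F] in
theorem exists_sp_copy {m : ℕ} (hnm : n = 2 * m) (f : (Fin n → F) → (Fin n → F) → F)
    (hf : Cfsg.Geo.IsSymplecticForm f) :
    ∃ R : Subgroup (GL (Fin n) F), R ≤ Cfsg.Geo.similarityGroup f ∧
      Nat.card R = Nat.card (Matrix.symplecticGroup (Fin m) F) := by
  classical
  obtain ⟨B', hB'⟩ : ∃ B' : LinearMap.BilinForm F (Fin m ⊕ Fin m → F),
      B' = Matrix.toBilin' (Matrix.J (Fin m) F) := ⟨_, rfl⟩
  have hB'app : ∀ x y, B' x y = x ⬝ᵥ (Matrix.J (Fin m) F) *ᵥ y := by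
    intro x y
    rw [hB', Matrix.toBilin'_apply']
  have hV : Module.finrank F (Fin n → F) = n := Module.finrank_fin_fun F
  have hV' : Module.finrank F (Fin m ⊕ Fin m → F) = n := by
    rw [Module.finrank_fintype_fun_eq_card, Fintype.card_sum, Fintype.card_fin, hnm]
    ring
  have halt : ∀ x, toB f hf x x = 0 := fun x => hf.alternating x
  have halt' : ∀ x, B' x x = 0 := by
    intro x
    rw [hB'app]
    exact Cfsg.Agent.Lib.Helper15.SpU.J_alt m x
  have hnd : ∀ x, (∀ y, toB f hf x y = 0) → x = 0 := by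
    intro x hx
    by_contra hx0
    obtain ⟨-, ⟨y, hy⟩⟩ := hf.nondegenerate x hx0
    exact hy (hx y)
  have hJJ : Matrix.J (Fin m) F * (-Matrix.J (Fin m) F) = 1 := by
    rw [Matrix.mul_neg, Matrix.J_squared, neg_neg]
  have hnd' : ∀ x, (∀ y, B' x y = 0) → x = 0 := by
    intro x hx
    have h1 : x ᵥ* Matrix.J (Fin m) F = 0 := by
      funext j
      have h2 := hx (Pi.single j 1)
      rw [hB'app, Matrix.dotProduct_mulVec, dotProduct_single_one] at h2
      exact h2
    have h3 : x ᵥ* (Matrix.J (Fin m) F * (-Matrix.J (Fin m) F)) = 0 := by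
      rw [← Matrix.vecMul_vecMul, h1, Matrix.zero_vecMul]
    rwa [hJJ, Matrix.vecMul_one] at h3
  obtain ⟨T, hT⟩ := Cfsg.Agent.Lib.Helper15.SpD.darboux (K := F) n (Fin n → F)
    (Fin m ⊕ Fin m → F) (toB f hf) B' hV hV' halt halt' hnd hnd'
  have hTinj : Function.Injective T := by
    rw [injective_iff_map_eq_zero]
    intro x hx
    apply hnd
    intro y
    rw [← hT, hx, map_zero, LinearMap.zero_apply]
  obtain ⟨E, hE⟩ : ∃ E : (Fin n → F) ≃ₗ[F] (Fin m ⊕ Fin m → F), ∀ x, E x = T x :=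
    ⟨LinearMap.linearEquivOfInjective T hTinj (hV.trans hV'.symm), fun x => rfl⟩
  obtain ⟨Te, hTe⟩ : ∃ Te : Matrix (Fin m ⊕ Fin m) (Fin n) F,
      Te = LinearMap.toMatrix' (E : (Fin n → F) →ₗ[F] (Fin m ⊕ Fin m → F)) := ⟨_, rfl⟩
  obtain ⟨Te', hTe'⟩ : ∃ Te' : Matrix (Fin n) (Fin m ⊕ Fin m) F,
      Te' = LinearMap.toMatrix' (E.symm : (Fin m ⊕ Fin m → F) →ₗ[F] (Fin n → F)) := ⟨_, rfl⟩
  have h1 : Te' * Te = 1 := by
    rw [hTe, hTe', ← LinearMap.toMatrix'_comp, ← LinearMap.toMatrix'_id]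
    congr 1
    exact LinearMap.ext fun x => E.symm_apply_apply x
  have h2 : Te * Te' = 1 := by
    rw [hTe, hTe', ← LinearMap.toMatrix'_comp, ← LinearMap.toMatrix'_id]
    congr 1
    exact LinearMap.ext fun x => E.apply_symm_apply x
  have h2' : ∀ {k : Type} [Fintype k] (X : Matrix (Fin m ⊕ Fin m) k F), Te * (Te' * X) = X := by
    intro k _ X
    rw [← Matrix.mul_assoc, h2, Matrix.one_mul]
  have hTev : ∀ x, Te *ᵥ x = T x := by
    intro x
    rw [hTe, LinearMap.toMatrix'_mulVec]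
    exact hE x
  have hfT : ∀ u v, f u v = (Te *ᵥ u) ⬝ᵥ (Matrix.J (Fin m) F) *ᵥ (Te *ᵥ v) := by
    intro u v
    rw [hTev, hTev, ← hB'app, hT]
    rfl
  obtain ⟨ψ, hψ⟩ : ∃ ψ : ↥(Matrix.symplecticGroup (Fin m) F) →* Matrix (Fin n) (Fin n) F,
      ∀ A, ψ A = Te' * (A : Matrix (Fin m ⊕ Fin m) (Fin m ⊕ Fin m) F) * Te :=
    ⟨{ toFun := fun A => Te' * (A : Matrix (Fin m ⊕ Fin m) (Fin m ⊕ Fin m) F) * Te
       map_one' := by
         show Te' * (1 : Matrix (Fin m ⊕ Fin m) (Fin m ⊕ Fin m) F) * Te = 1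
         rw [Matrix.mul_one, h1]
       map_mul' := by
         intro A B
         show Te' * ((A : Matrix (Fin m ⊕ Fin m) (Fin m ⊕ Fin m) F)
           * (B : Matrix (Fin m ⊕ Fin m) (Fin m ⊕ Fin m) F)) * Te = _
         simp only [Matrix.mul_assoc, h2'] }, fun A => rfl⟩
  obtain ⟨φ, hφ⟩ : ∃ φ : ↥(Matrix.symplecticGroup (Fin m) F) →* GL (Fin n) F,
      ∀ A, ((φ A : GL (Fin n) F) : Matrix (Fin n) (Fin n) F) = ψ A :=
    ⟨ψ.toHomUnits, fun A => MonoidHom.coe_toHomUnits ψ A⟩
  have hφinj : Function.Injective φ := by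
    intro A B hAB
    have h3 : ψ A = ψ B := by rw [← hφ, ← hφ, hAB]
    rw [hψ, hψ] at h3
    apply Subtype.ext
    have h4 := congrArg (fun X => Te * X * Te') h3
    simp only [Matrix.mul_assoc, h2', h2, Matrix.mul_one] at h4
    exact h4
  refine ⟨φ.range, ?_, ?_⟩
  · rintro g ⟨A, rfl⟩
    refine ⟨1, ?_⟩
    intro u v
    have hM : ∀ w, Te *ᵥ ((Te' * (A : Matrix (Fin m ⊕ Fin m) (Fin m ⊕ Fin m) F) * Te) *ᵥ w)
        = (A : Matrix (Fin m ⊕ Fin m) (Fin m ⊕ Fin m) F) *ᵥ (Te *ᵥ w) := by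
      intro w
      rw [Matrix.mulVec_mulVec, ← Matrix.mul_assoc, ← Matrix.mul_assoc, h2, Matrix.one_mul,
        ← Matrix.mulVec_mulVec]
    rw [Units.val_one, one_mul, hφ, hψ, hfT, hfT u v, hM, hM]
    have h5 : (A : Matrix (Fin m ⊕ Fin m) (Fin m ⊕ Fin m) F)ᵀ * Matrix.J (Fin m) F
        * (A : Matrix (Fin m ⊕ Fin m) (Fin m ⊕ Fin m) F) = Matrix.J (Fin m) F :=
      SymplecticGroup.mem_iff'.mp A.2
    obtain ⟨a, ha⟩ : ∃ a, a = Te *ᵥ u := ⟨_, rfl⟩
    obtain ⟨b, hb⟩ : ∃ b, b = Te *ᵥ v := ⟨_, rfl⟩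
    rw [← ha, ← hb]
    have h6 : a ⬝ᵥ ((A : Matrix (Fin m ⊕ Fin m) (Fin m ⊕ Fin m) F)ᵀ * Matrix.J (Fin m) F
        * (A : Matrix (Fin m ⊕ Fin m) (Fin m ⊕ Fin m) F)) *ᵥ b
        = ((A : Matrix (Fin m ⊕ Fin m) (Fin m ⊕ Fin m) F) *ᵥ a) ⬝ᵥ Matrix.J (Fin m) F
          *ᵥ ((A : Matrix (Fin m ⊕ Fin m) (Fin m ⊕ Fin m) F) *ᵥ b) := by
      rw [← Matrix.mulVec_mulVec, ← Matrix.mulVec_mulVec, Matrix.dotProduct_mulVec,
        Matrix.vecMul_transpose]
    rw [← h6, h5]
  · exact (Nat.card_congr (MonoidHom.ofInjective hφinj).toEquiv).symm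

theorem index_odd {p : ℕ} [Fact p.Prime] [CharP F p] {q : ℕ} (hq : Fintype.card F = q) {m : ℕ}
    (hnm : n = 2 * m) (f : (Fin n → F) → (Fin n → F) → F) (hf : Cfsg.Geo.IsSymplecticForm f)
    (r : ℕ) [Fact r.Prime] (hrp : r ≠ p) (hrq : ¬ r ∣ q - 1)
    (hΩ : r ∣ ((Cfsg.Geo.similarityGroup f).comap (Matrix.SpecialLinearGroup.toGL :
      Matrix.SpecialLinearGroup (Fin n) F →* GL (Fin n) F)).index) :
    ∃ j, j < m ∧ r ∣ q ^ (2 * j + 1) - 1 := by
  classical
  have hr : r.Prime := Fact.out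
  have hp : p.Prime := Fact.out
  have hq1 : 1 < q := by
    rw [← hq]
    exact Fintype.one_lt_card
  obtain ⟨R, hRle, hRcard⟩ := exists_sp_copy hnm f hf
  obtain ⟨N, hN⟩ : ∃ N : Subgroup (GL (Fin n) F), N = (Matrix.SpecialLinearGroup.toGL :
      Matrix.SpecialLinearGroup (Fin n) F →* GL (Fin n) F).range := ⟨_, rfl⟩
  obtain ⟨D, hD⟩ : ∃ D : Subgroup (GL (Fin n) F),
      D = (Matrix.GeneralLinearGroup.det : GL (Fin n) F →* Fˣ).ker := ⟨_, rfl⟩
  have hDnorm : D.Normal := by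
    rw [hD]
    infer_instance
  have hDN : D ≤ N := by
    intro g hg
    rw [hD, MonoidHom.mem_ker] at hg
    have hdet : (g : Matrix (Fin n) (Fin n) F).det = 1 := by
      have h1 := congrArg Units.val hg
      rw [Matrix.GeneralLinearGroup.val_det_apply, Units.val_one] at h1
      exact h1
    rw [hN]
    refine ⟨⟨(g : Matrix (Fin n) (Fin n) F), hdet⟩, ?_⟩
    apply Units.ext
    rfl
  have hDidx : D.index ∣ q - 1 := by
    rw [hD, Subgroup.index_ker, ← hq, ← Fintype.card_units, ← Nat.card_eq_fintype_card]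
    exact Subgroup.card_subgroup_dvd_card _
  rw [Subgroup.index_comap, ← hN] at hΩ
  have h1 : r ∣ R.relIndex N := dvd_trans hΩ (Subgroup.relIndex_dvd_of_le_left N hRle)
  have h2 : R.relIndex N * N.index = (R ⊓ N).index := by
    rw [← Subgroup.inf_relIndex_right R N]
    exact Subgroup.relIndex_mul_index inf_le_right
  have h3 : N.relIndex R * R.index = (R ⊓ N).index := by
    rw [← Subgroup.inf_relIndex_left R N]
    exact Subgroup.relIndex_mul_index inf_le_left
  have h4 : r ∣ N.relIndex R * R.index := by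
    rw [h3, ← h2]
    exact Dvd.dvd.mul_right h1 _
  have h5 : ¬ r ∣ N.relIndex R := by
    intro h
    apply hrq
    exact dvd_trans h (dvd_trans (Subgroup.relIndex_dvd_of_le_left R hDN)
      (dvd_trans (Subgroup.relIndex_dvd_index_of_normal D R) hDidx))
  have h6 : r ∣ R.index := (hr.dvd_mul.1 h4).resolve_left h5
  have h7 : r * Nat.card R ∣ Nat.card (GL (Fin n) F) := by
    rw [← Subgroup.index_mul_card R]
    exact Nat.mul_dvd_mul_right h6 _
  rw [hRcard, Cfsg.Agent.S0245.result hq m, Matrix.card_GL_field, hq] at h7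
  obtain ⟨Ev, hEv⟩ : ∃ Ev : ℕ, Ev = ∏ i ∈ Finset.range m, (q ^ (2 * (i + 1)) - 1) := ⟨_, rfl⟩
  obtain ⟨Od, hOd⟩ : ∃ Od : ℕ, Od = ∏ i ∈ Finset.range m, (q ^ (2 * i + 1) - 1) := ⟨_, rfl⟩
  obtain ⟨Q, hQ⟩ : ∃ Q : ℕ, Q = ∏ i ∈ Finset.range n, q ^ i := ⟨_, rfl⟩
  have hEvpos : 0 < Ev := by
    rw [hEv]
    apply Finset.prod_pos
    intro i _
    have h8 : 1 < q ^ (2 * (i + 1)) := Nat.one_lt_pow (by omega) hq1
    omega
  have hGL : ∏ i : Fin n, (q ^ n - q ^ (i : ℕ)) = Q * Od * Ev := by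
    rw [Fin.prod_univ_eq_prod_range (fun i => q ^ n - q ^ i) n]
    have h8 : ∀ i ∈ Finset.range n, q ^ n - q ^ i = q ^ i * (q ^ (n - 1 - i + 1) - 1) := by
      intro i hi
      rw [Finset.mem_range] at hi
      rw [Nat.mul_sub, mul_one, ← pow_add]
      congr 2
      omega
    rw [Finset.prod_congr rfl h8, Finset.prod_mul_distrib, ← hQ,
      Finset.prod_range_reflect (fun k => q ^ (k + 1) - 1) n, hnm,
      prod_even_odd (fun k => q ^ (k + 1) - 1) m, hOd, hEv, mul_assoc]
    rfl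
  rw [hGL, ← hEv, ← mul_assoc] at h7
  have h9 : r * q ^ m ^ 2 ∣ Q * Od := Nat.dvd_of_mul_dvd_mul_right hEvpos h7
  have h10 : r ∣ Q * Od := dvd_trans (Dvd.intro _ rfl) h9
  have hrq' : ¬ r ∣ q := by
    intro h
    obtain ⟨k, hpk, hk⟩ := FiniteField.card F p
    rw [hq] at hk
    rw [hk] at h
    exact hrp ((Nat.prime_dvd_prime_iff_eq hr hp).1 (hr.dvd_of_dvd_pow h))
  rcases hr.dvd_mul.1 h10 with h | h
  · exfalso
    rw [hQ, hr.prime.dvd_finsetProd_iff] at h
    obtain ⟨i, -, hi⟩ := h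
    exact hrq' (hr.dvd_of_dvd_pow hi)
  · rw [hOd, hr.prime.dvd_finsetProd_iff] at h
    obtain ⟨j, hj, hj'⟩ := h
    exact ⟨j, Finset.mem_range.1 hj, hj'⟩

end spcopy

section blocksec

open Matrix

variable {F : Type*} [Field F]

/-- a block without fixed vectors, padded by an identity block -/
theorem block_elt {n i : ℕ} (hi : i < n) (A : Matrix (Fin i) (Fin i) F) (r : ℕ)
    (hA : A ^ r = 1) (hdet : A.det = 1) (hker : ∀ a : Fin i → F, A *ᵥ a = a → a = 0) :
    ∃ x : Matrix.SpecialLinearGroup (Fin n) F,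
      (x : Matrix (Fin n) (Fin n) F) ^ r = 1 ∧
      ∃ K : Submodule F (Fin n → F), Module.finrank F ↥K = n - i ∧
        (∀ w ∈ K, (x : Matrix (Fin n) (Fin n) F) *ᵥ w = w) ∧
        ∀ v : Fin n → F, ∃ w ∈ K, ∃ v' : Fin n → F,
          v = w + ((x : Matrix (Fin n) (Fin n) F) *ᵥ v' - v') := by
  classical
  obtain ⟨B, hB⟩ : ∃ B : Matrix (Fin i ⊕ Fin (n - i)) (Fin i ⊕ Fin (n - i)) F,
      B = Matrix.fromBlocks A 0 0 1 := ⟨_, rfl⟩
  have hBpow : ∀ j : ℕ, B ^ j = Matrix.fromBlocks (A ^ j) 0 0 1 := by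
    intro j
    induction j with
    | zero => rw [pow_zero, pow_zero, Matrix.fromBlocks_one]
    | succ j ih =>
      rw [pow_succ, ih, hB, Matrix.fromBlocks_multiply, ← pow_succ]
      simp only [Matrix.mul_zero, Matrix.zero_mul, add_zero, zero_add, Matrix.mul_one]
  have hBr : B ^ r = 1 := by
    rw [hBpow, hA, Matrix.fromBlocks_one]
  have hBdet : B.det = 1 := by
    rw [hB, Matrix.det_fromBlocks_zero₂₁, hdet, Matrix.det_one, mul_one]
  obtain ⟨e, he⟩ : ∃ e : Fin i ⊕ Fin (n - i) ≃ Fin n,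
      e = finSumFinEquiv.trans (finCongr (by omega)) := ⟨_, rfl⟩
  obtain ⟨X, hX⟩ : ∃ X : Matrix (Fin n) (Fin n) F, X = Matrix.reindexAlgEquiv F F e B :=
    ⟨_, rfl⟩
  have hXr : X ^ r = 1 := by
    rw [hX, ← map_pow, hBr, map_one]
  have hXdet : X.det = 1 := by
    rw [hX, Matrix.coe_reindexAlgEquiv, Matrix.det_reindex_self, hBdet]
  have hXv : ∀ w : Fin i ⊕ Fin (n - i) → F, X *ᵥ (w ∘ e.symm) = (B *ᵥ w) ∘ e.symm := by
    intro w
    rw [hX, Matrix.coe_reindexAlgEquiv, Matrix.reindex_apply, Matrix.submatrix_mulVec_equiv]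
    congr 2
    funext k
    simp
  have hBv : ∀ (a : Fin i → F) (b : Fin (n - i) → F),
      B *ᵥ (Sum.elim a b) = Sum.elim (A *ᵥ a) b := by
    intro a b
    rw [hB, Matrix.fromBlocks_mulVec]
    simp only [Sum.elim_comp_inl, Sum.elim_comp_inr, Matrix.zero_mulVec, Matrix.one_mulVec,
      add_zero, zero_add]
  obtain ⟨ι, hι⟩ : ∃ ι : (Fin (n - i) → F) →ₗ[F] (Fin n → F),
      ∀ b, ι b = (Sum.elim (0 : Fin i → F) b) ∘ e.symm :=
    ⟨{ toFun := fun b => (Sum.elim (0 : Fin i → F) b) ∘ e.symm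
       map_add' := by
         intro b c
         funext k
         simp only [Function.comp_apply, Pi.add_apply]
         generalize e.symm k = s
         rcases s with j | j <;> simp
       map_smul' := by
         intro c b
         funext k
         simp only [Function.comp_apply, Pi.smul_apply, RingHom.id_apply]
         generalize e.symm k = s
         rcases s with j | j <;> simp }, fun b => rfl⟩
  have hιinj : Function.Injective ι := by
    rw [injective_iff_map_eq_zero]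
    intro b hb
    funext j
    have h1 := congrFun hb (e (Sum.inr j))
    rw [hι, Function.comp_apply, Equiv.symm_apply_apply, Sum.elim_inr] at h1
    exact h1
  obtain ⟨g, hg⟩ : ∃ g : (Fin i → F) →ₗ[F] (Fin i → F), ∀ a, g a = A *ᵥ a - a :=
    ⟨Matrix.toLin' (A - 1), fun a => by
      rw [Matrix.toLin'_apply, Matrix.sub_mulVec, Matrix.one_mulVec]⟩
  have hginj : Function.Injective g := by
    rw [injective_iff_map_eq_zero]
    intro a ha
    rw [hg, sub_eq_zero] at ha
    exact hker a ha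
  have hgsurj : Function.Surjective g := LinearMap.injective_iff_surjective.1 hginj
  refine ⟨⟨X, hXdet⟩, hXr, LinearMap.range ι, ?_, ?_, ?_⟩
  · rw [LinearMap.finrank_range_of_inj hιinj, Module.finrank_fin_fun]
  · rintro w ⟨b, rfl⟩
    show X *ᵥ ι b = ι b
    rw [hι, hXv, hBv, Matrix.mulVec_zero]
  · intro v
    obtain ⟨a', ha'⟩ := hgsurj ((v ∘ e) ∘ Sum.inl)
    rw [hg] at ha'
    refine ⟨ι ((v ∘ e) ∘ Sum.inr), ⟨_, rfl⟩, (Sum.elim a' (0 : Fin (n - i) → F)) ∘ e.symm, ?_⟩
    show v = ι ((v ∘ e) ∘ Sum.inr) + (X *ᵥ ((Sum.elim a' (0 : Fin (n - i) → F)) ∘ e.symm)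
      - (Sum.elim a' (0 : Fin (n - i) → F)) ∘ e.symm)
    rw [hXv, hBv, hι]
    funext k
    obtain ⟨s, rfl⟩ : ∃ s, k = e s := ⟨e.symm k, (e.apply_symm_apply k).symm⟩
    simp only [Pi.add_apply, Pi.sub_apply, Function.comp_apply, Equiv.symm_apply_apply]
    rcases s with j | j
    · have h1 := congrFun ha' j
      simp only [Pi.sub_apply, Function.comp_apply] at h1
      simp only [Sum.elim_inl, Pi.zero_apply, zero_add]
      exact h1.symm
    · simp only [Sum.elim_inr, Pi.zero_apply, sub_self, add_zero]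
      rfl

end blocksec

section unipsec

open Matrix

variable {F : Type*} [Field F]

theorem exists_unip {n p : ℕ} [Fact p.Prime] [CharP F p] (hp2 : p ≠ 2) (hn : 3 ≤ n) :
    ∃ x : Matrix.SpecialLinearGroup (Fin n) F,
      (x : Matrix (Fin n) (Fin n) F) ^ p = 1 ∧
      (∀ z : F, (x : Matrix (Fin n) (Fin n) F) ≠ z • (1 : Matrix (Fin n) (Fin n) F)) ∧
      ∀ f : (Fin n → F) → (Fin n → F) → F, Cfsg.Geo.IsSymplecticForm f → ∀ c : F,
        (∀ u v, f ((x : Matrix (Fin n) (Fin n) F) *ᵥ u) ((x : Matrix (Fin n) (Fin n) F) *ᵥ v)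
          = c * f u v) → False := by
  classical
  have hp : p.Prime := Fact.out
  have hp3 : 3 ≤ p := by
    have := hp.two_le
    omega
  have hne : Nonempty (Fin n) := ⟨⟨0, by omega⟩⟩
  obtain ⟨i₀, hi₀⟩ : ∃ i₀ : Fin n, (i₀ : ℕ) = 0 := ⟨⟨0, by omega⟩, rfl⟩
  obtain ⟨i₁, hi₁⟩ : ∃ i₁ : Fin n, (i₁ : ℕ) = 1 := ⟨⟨1, by omega⟩, rfl⟩
  obtain ⟨i₂, hi₂⟩ : ∃ i₂ : Fin n, (i₂ : ℕ) = 2 := ⟨⟨2, by omega⟩, rfl⟩
  have h01 : i₀ ≠ i₁ := by
    intro h
    rw [h, hi₁] at hi₀
    omega
  have h02 : i₀ ≠ i₂ := by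
    intro h
    rw [h, hi₂] at hi₀
    omega
  have h12 : i₁ ≠ i₂ := by
    intro h
    rw [h, hi₂] at hi₁
    omega
  obtain ⟨N, hN⟩ : ∃ N : Matrix (Fin n) (Fin n) F,
      N = Matrix.single i₀ i₁ 1 + Matrix.single i₁ i₂ 1 := ⟨_, rfl⟩
  have hNv : ∀ u : Fin n → F, N *ᵥ u = Pi.single i₀ (u i₁) + Pi.single i₁ (u i₂) := by
    intro u
    rw [hN, Matrix.add_mulVec, Matrix.single_mulVec, Matrix.single_mulVec, one_mul, one_mul]
    rfl
  have hN1 : ∀ u : Fin n → F, (N *ᵥ u) i₁ = u i₂ := by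
    intro u
    rw [hNv, Pi.add_apply, Pi.single_eq_of_ne h01.symm, Pi.single_eq_same, zero_add]
  have hN2' : ∀ u : Fin n → F, (N *ᵥ u) i₂ = 0 := by
    intro u
    rw [hNv, Pi.add_apply, Pi.single_eq_of_ne h02.symm, Pi.single_eq_of_ne h12.symm, add_zero]
  have hN2 : ∀ u : Fin n → F, N *ᵥ (N *ᵥ u) = u i₂ • (Pi.single i₀ 1 : Fin n → F) := by
    intro u
    rw [hNv (N *ᵥ u), hN1, hN2', Pi.single_zero, add_zero]
    funext k
    rw [Pi.smul_apply, smul_eq_mul]
    by_cases hk : k = i₀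
    · rw [hk, Pi.single_eq_same, Pi.single_eq_same, mul_one]
    · rw [Pi.single_eq_of_ne hk, Pi.single_eq_of_ne hk, mul_zero]
  have hN3 : ∀ u : Fin n → F, N *ᵥ (N *ᵥ (N *ᵥ u)) = 0 := by
    intro u
    rw [hN2 (N *ᵥ u), hN2', zero_smul]
  have hNcube : N ^ 3 = 0 := by
    apply Matrix.toLin'.injective
    apply LinearMap.ext
    intro u
    rw [Matrix.toLin'_apply, map_zero, LinearMap.zero_apply, pow_succ, pow_succ, pow_one,
      ← Matrix.mulVec_mulVec, ← Matrix.mulVec_mulVec, hN3]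
  have hNp : N ^ p = 0 := by
    obtain ⟨k, hk⟩ : ∃ k, p = 3 + k := ⟨p - 3, by omega⟩
    rw [hk, pow_add, hNcube, Matrix.zero_mul]
  have hpow : (1 + N) ^ p = 1 := by
    rw [add_pow_char_of_commute p (Commute.one_left N), one_pow, hNp, add_zero]
  have hdet : (1 + N).det = 1 := by
    have h1 : 1 + N = Matrix.transvection i₁ i₂ (1 : F) * Matrix.transvection i₀ i₁ (1 : F) := by
      rw [Matrix.transvection, Matrix.transvection, hN, Matrix.add_mul, Matrix.mul_add,
        Matrix.mul_add, Matrix.one_mul, Matrix.mul_one, Matrix.one_mul,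
        Matrix.single_mul_single_of_ne (1 : F) i₁ i₂ i₀ h02.symm (1 : F), add_zero]
      abel
    rw [h1, Matrix.det_mul, Matrix.det_transvection_of_ne _ _ h12,
      Matrix.det_transvection_of_ne _ _ h01, mul_one]
  have hns : ∀ z : F, (1 + N) ≠ z • (1 : Matrix (Fin n) (Fin n) F) := by
    intro z hz
    have h1 := congrFun (congrFun hz i₀) i₁
    rw [Matrix.add_apply, Matrix.one_apply_ne h01, zero_add, Matrix.smul_apply,
      Matrix.one_apply_ne h01, smul_zero, hN, Matrix.add_apply, Matrix.single_apply_same,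
      Matrix.single_apply_of_row_ne h01.symm i₂ i₁ (1 : F), add_zero] at h1
    exact one_ne_zero h1
  refine ⟨⟨1 + N, hdet⟩, hpow, hns, ?_⟩
  intro f hf c hc
  exact unip_contra hp2 f hf N i₀ i₂ hN2 hN3 hpow c hc

end unipsec

section diagsec

open Matrix

variable {F : Type*} [Field F]

theorem exists_diag {n r : ℕ} [Fact r.Prime] (hr2 : r ≠ 2) (hn : 4 ≤ n) (hne : Even n)
    (hgap : ¬ (n = 6 ∧ r = 3)) (ζ : F) (hζr : ζ ^ r = 1) (hζ1 : ζ ≠ 1) :
    ∃ x : Matrix.SpecialLinearGroup (Fin n) F,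
      (x : Matrix (Fin n) (Fin n) F) ^ r = 1 ∧
      (∀ z : F, (x : Matrix (Fin n) (Fin n) F) ≠ z • (1 : Matrix (Fin n) (Fin n) F)) ∧
      ∀ f : (Fin n → F) → (Fin n → F) → F, Cfsg.Geo.IsSymplecticForm f → ∀ c : F,
        (∀ u v, f ((x : Matrix (Fin n) (Fin n) F) *ᵥ u) ((x : Matrix (Fin n) (Fin n) F) *ᵥ v)
          = c * f u v) → False := by
  classical
  have hr : r.Prime := Fact.out
  have hr3 : 3 ≤ r := by
    have := hr.two_le
    omega
  have hord : orderOf ζ = r := orderOf_eq_prime hζr hζ1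
  have key : ∀ a b : ℕ, a ≤ b → ζ ^ a = ζ ^ b → r ∣ b - a := by
    intro a b hab h
    have hζ0 : ζ ≠ 0 := by
      rintro rfl
      rw [zero_pow (by omega)] at hζr
      exact zero_ne_one hζr
    have h1 : ζ ^ a * ζ ^ (b - a) = ζ ^ a * 1 := by
      rw [← pow_add, Nat.add_sub_cancel' hab, mul_one, h]
    have h2 := mul_left_cancel₀ (pow_ne_zero a hζ0) h1
    rw [← hord]
    exact orderOf_dvd_of_pow_eq_one h2
  have f1 : ζ * ζ ≠ 1 := by
    intro h
    have h1 := key 0 2 (by omega) (by rw [pow_zero, pow_two, h])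
    have h2 := Nat.le_of_dvd (by omega) h1
    omega
  have f2 : ζ * ζ ^ (r - 2) ≠ 1 := by
    intro h
    have h1 := key 0 (r - 1) (by omega) (by
      rw [pow_zero, show r - 1 = (r - 2) + 1 from by omega, pow_succ', h])
    have h2 := Nat.le_of_dvd (by omega) h1
    omega
  have f3 : ζ * ζ ≠ ζ := by
    intro h
    have h1 := key 1 2 (by omega) (by rw [pow_one, pow_two, h])
    have h2 := Nat.le_of_dvd (by omega) h1
    omega
  have f4 : ζ * ζ ^ (r - 2) ≠ ζ := by
    intro h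
    have h1 := key 1 (r - 1) (by omega) (by
      rw [pow_one, show r - 1 = (r - 2) + 1 from by omega, pow_succ', h])
    have h2 := Nat.le_of_dvd (by omega) h1
    omega
  have f5 : r ≠ 3 → ζ ^ (r - 2) ≠ ζ := by
    intro hr3' h
    have h1 := key 1 (r - 2) (by omega) (by rw [pow_one, h])
    have h2 := Nat.le_of_dvd (by omega) h1
    omega
  have f6 : r ≠ 3 → ζ * ζ ≠ ζ ^ (r - 2) := by
    intro hr3' h
    have hr5 : 5 ≤ r := hr.five_le_of_ne_two_of_ne_three hr2 hr3'
    have h1 := key 2 (r - 2) (by omega) (by rw [pow_two, h])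
    have h2 := Nat.le_of_dvd (by omega) h1
    omega
  have f7 : ζ * ζ ^ (r - 2) ≠ ζ ^ (r - 2) := by
    intro h
    have h1 := key (r - 2) (r - 1) (by omega) (by
      rw [show r - 1 = (r - 2) + 1 from by omega, pow_succ', h])
    have h2 := Nat.le_of_dvd (by omega) h1
    omega
  obtain ⟨e, he⟩ : ∃ e : Fin 3 ⊕ Fin (n - 3) ≃ Fin n,
      e = finSumFinEquiv.trans (finCongr (by omega)) := ⟨_, rfl⟩
  obtain ⟨δ, hδ⟩ : ∃ δ : Fin 3 ⊕ Fin (n - 3) → F,
      δ = Sum.elim ![ζ, ζ, ζ ^ (r - 2)] (fun _ => 1) := ⟨_, rfl⟩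
  have hδ0 : δ (Sum.inl 0) = ζ := by
    rw [hδ]
    rfl
  have hδ1 : δ (Sum.inl 1) = ζ := by
    rw [hδ]
    rfl
  have hδ2 : δ (Sum.inl 2) = ζ ^ (r - 2) := by
    rw [hδ]
    rfl
  have hδr : ∀ j, δ (Sum.inr j) = 1 := by
    intro j
    rw [hδ]
    rfl
  have h3 : ∀ k : Fin 3, k = 0 ∨ k = 1 ∨ k = 2 := by decide
  have hδpow : ∀ s, δ s ^ r = 1 := by
    intro s
    rcases s with k | j
    · rcases h3 k with rfl | rfl | rfl
      · rw [hδ0, hζr]
      · rw [hδ1, hζr]
      · rw [hδ2, ← pow_mul, mul_comm, pow_mul, hζr, one_pow]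
    · rw [hδr, one_pow]
  obtain ⟨X, hX⟩ : ∃ X : Matrix (Fin n) (Fin n) F, X = Matrix.diagonal (δ ∘ e.symm) := ⟨_, rfl⟩
  have hXr : X ^ r = 1 := by
    rw [hX, Matrix.diagonal_pow, ← Matrix.diagonal_one]
    congr 1
    funext k
    exact hδpow (e.symm k)
  have hXdet : X.det = 1 := by
    rw [hX, Matrix.det_diagonal]
    have h1 : ∏ k : Fin n, (δ ∘ e.symm) k = ∏ s : Fin 3 ⊕ Fin (n - 3), δ s :=
      Equiv.prod_comp e.symm δ
    rw [h1, Fintype.prod_sum_type, Fin.prod_univ_three, hδ0, hδ1, hδ2,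
      Finset.prod_congr rfl (fun j _ => hδr j), Finset.prod_const_one, mul_one, ← pow_two,
      ← pow_add, show 2 + (r - 2) = r from by omega, hζr]
  have hns : ∀ z : F, X ≠ z • (1 : Matrix (Fin n) (Fin n) F) := by
    intro z hz
    obtain ⟨j₀⟩ : Nonempty (Fin (n - 3)) := ⟨⟨0, by omega⟩⟩
    have h1 := congrFun (congrFun hz (e (Sum.inl 0))) (e (Sum.inl 0))
    have h2 := congrFun (congrFun hz (e (Sum.inr j₀))) (e (Sum.inr j₀))
    rw [hX, Matrix.diagonal_apply_eq, Function.comp_apply, Equiv.symm_apply_apply,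
      Matrix.smul_apply, Matrix.one_apply_eq, smul_eq_mul, mul_one] at h1 h2
    rw [hδ0] at h1
    rw [hδr] at h2
    exact hζ1 (h1.trans h2.symm)
  refine ⟨⟨X, hXdet⟩, hXr, hns, ?_⟩
  intro f hf c hc
  have hc' : ∀ u v, f (X *ᵥ u) (X *ᵥ v) = c * f u v := hc
  have hXb : ∀ s, X *ᵥ (Pi.single (e s) 1 : Fin n → F)
      = δ s • (Pi.single (e s) 1 : Fin n → F) := by
    intro s
    rw [hX, Matrix.diagonal_mulVec_single, Function.comp_apply, Equiv.symm_apply_apply]
    funext l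
    rw [Pi.smul_apply, smul_eq_mul]
    by_cases hl : l = e s
    · rw [hl, Pi.single_eq_same, Pi.single_eq_same]
    · rw [Pi.single_eq_of_ne hl, Pi.single_eq_of_ne hl, mul_zero]
  have hx : ∀ s t, δ s * δ t ≠ c →
      f (Pi.single (e s) 1 : Fin n → F) (Pi.single (e t) 1 : Fin n → F) = 0 := by
    intro s t hst
    have h1 := hc' (Pi.single (e s) 1) (Pi.single (e t) 1)
    rw [hXb, hXb, hf.bilinear.smul_left, hf.bilinear.smul_right] at h1
    have h2 : (δ s * δ t - c)
        * f (Pi.single (e s) 1 : Fin n → F) (Pi.single (e t) 1 : Fin n → F) = 0 := by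
      linear_combination h1
    exact (mul_eq_zero.1 h2).resolve_left (sub_ne_zero.2 hst)
  by_cases hc1 : c = 1
  · refine mult_contra f hf e δ c hx (a := 1) (b := 0) (by omega) (fun _ => Sum.inl 0)
      (fun a b _ => Subsingleton.elim a b) (fun l => l.elim0) ?_
    intro j k hk
    show δ (Sum.inl 0) * δ k ≠ c
    rw [hδ0, hc1]
    rcases k with k | k
    · rcases h3 k with rfl | rfl | rfl
      · rw [hδ0]
        exact f1
      · rw [hδ1]
        exact f1
      · rw [hδ2]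
        exact f2
    · rw [hδr, mul_one]
      exact hζ1
  by_cases hcζ : c = ζ
  · rcases Nat.lt_or_ge n 5 with hn5 | hn5
    · have hn4 : n = 4 := by omega
      refine mult_contra f hf e δ c hx (a := 2) (b := 1) (by omega)
        (fun j => Sum.inl (Fin.castLE (by omega) j))
        (fun a b h => Fin.castLE_injective _ (Sum.inl_injective h))
        (fun _ => Sum.inr ⟨0, by omega⟩) ?_
      intro j k hk
      have hJ : δ (Sum.inl (Fin.castLE (by omega : 2 ≤ 3) j)) = ζ := by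
        have h2 : ∀ j : Fin 2, j = 0 ∨ j = 1 := by decide
        rcases h2 j with rfl | rfl
        · exact hδ0
        · exact hδ1
      show δ (Sum.inl (Fin.castLE (by omega : 2 ≤ 3) j)) * δ k ≠ c
      rw [hJ, hcζ]
      rcases k with k | k
      · rcases h3 k with rfl | rfl | rfl
        · rw [hδ0]
          exact f3
        · rw [hδ1]
          exact f3
        · rw [hδ2]
          exact f4
      · exfalso
        exact hk 0 (congrArg Sum.inr (Fin.ext (by
          show (k : ℕ) = 0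
          have := k.2
          omega)))
    · by_cases hr3' : r = 3
      · have hn8 : 8 ≤ n := by
          obtain ⟨t, ht⟩ := hne
          have h6 : n ≠ 6 := fun h => hgap ⟨h, hr3'⟩
          omega
        refine mult_contra f hf e δ c hx (a := 4) (b := 3) (by omega)
          (fun j => Sum.inr (Fin.castLE (by omega) j))
          (fun a b h => Fin.castLE_injective _ (Sum.inr_injective h))
          (fun l => Sum.inl l) ?_
        intro j k hk
        show δ (Sum.inr (Fin.castLE (by omega : 4 ≤ n - 3) j)) * δ k ≠ c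
        rw [hδr, one_mul, hcζ]
        rcases k with k | k
        · exact (hk k rfl).elim
        · rw [hδr]
          exact fun h => hζ1 h.symm
      · have hn6 : 6 ≤ n := by
          obtain ⟨t, ht⟩ := hne
          omega
        refine mult_contra f hf e δ c hx (a := 3) (b := 2) (by omega)
          (fun j => Sum.inr (Fin.castLE (by omega) j))
          (fun a b h => Fin.castLE_injective _ (Sum.inr_injective h))
          (fun l => Sum.inl (Fin.castLE (by omega) l)) ?_
        intro j k hk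
        show δ (Sum.inr (Fin.castLE (by omega : 3 ≤ n - 3) j)) * δ k ≠ c
        rw [hδr, one_mul, hcζ]
        rcases k with k | k
        · rcases h3 k with rfl | rfl | rfl
          · exact (hk 0 rfl).elim
          · exact (hk 1 rfl).elim
          · rw [hδ2]
            exact f5 hr3'
        · rw [hδr]
          exact fun h => hζ1 h.symm
  by_cases hc2 : c = ζ ^ (r - 2)
  · have hr3' : r ≠ 3 := by
      intro h
      apply hcζ
      rw [hc2, h]
      exact pow_one ζ
    refine mult_contra f hf e δ c hx (a := 1) (b := 0) (by omega) (fun _ => Sum.inl 0)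
      (fun a b _ => Subsingleton.elim a b) (fun l => l.elim0) ?_
    intro j k hk
    show δ (Sum.inl 0) * δ k ≠ c
    rw [hδ0, hc2]
    rcases k with k | k
    · rcases h3 k with rfl | rfl | rfl
      · rw [hδ0]
        exact f6 hr3'
      · rw [hδ1]
        exact f6 hr3'
      · rw [hδ2]
        exact f7
    · rw [hδr, mul_one]
      exact fun h => hcζ (hc2.trans h.symm)
  · obtain ⟨j₀⟩ : Nonempty (Fin (n - 3)) := ⟨⟨0, by omega⟩⟩
    refine mult_contra f hf e δ c hx (a := 1) (b := 0) (by omega) (fun _ => Sum.inr j₀)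
      (fun a b _ => Subsingleton.elim a b) (fun l => l.elim0) ?_
    intro j k hk
    show δ (Sum.inr j₀) * δ k ≠ c
    rw [hδr, one_mul]
    rcases k with k | k
    · rcases h3 k with rfl | rfl | rfl
      · rw [hδ0]
        exact fun h => hcζ h.symm
      · rw [hδ1]
        exact fun h => hcζ h.symm
      · rw [hδ2]
        exact fun h => hc2 h.symm
    · rw [hδr]
      exact fun h => hc1 h.symm

end diagsec

/-- Derangements of odd prime order of PSL_n(q) on the cosets of a symplectic-type subgroup. Here `T = PSL_n(F)` for a field `F` with `q` elements, `n ≥ 4` even, `f` is a nondegenerate alternating form on `F^n`, and `H` is the subgroup of matrices of determinant 1 preserving `f` up to a scalar — a maximal subgroup of type Sp_n(q); Ω is the set of `T`-conjugates of `H` (cosets of `H`), so an element of `T` of prime order `r` (a matrix `x` of determinant 1 with `x^r` scalar, `x` not scalar) fixes a point of Ω when some conjugate of `x` by a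 matrix of determinant 1 preserves `f` up to a scalar. For every odd prime `r` dividing the index of `H`, with `(n, r) ≠ (6, 3)`, there is an element of `T` of order `r` with no conjugate in `H`. (For `n = 6`, `r = 3` this can fail: when `(q − 1)_3 = 3` every element of order 3 is conjugate into `H`.) -/
theorem result {F : Type*} [Field F] [Fintype F] {p : ℕ} [Fact p.Prime] [CharP F p] {q : ℕ} (hq : Fintype.card F = q)
    (n : ℕ) (hn : 4 ≤ n) (he : Even n) (f : (Fin n → F) → (Fin n → F) → F) (hf : Cfsg.Geo.IsSymplecticForm f)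
    (r : ℕ) [Fact r.Prime] (hr2 : r ≠ 2) (hgap : ¬ (n = 6 ∧ r = 3)) (hΩ : r ∣ ((Cfsg.Geo.similarityGroup f).comap (Matrix.SpecialLinearGroup.toGL : Matrix.SpecialLinearGroup (Fin n) F →* GL (Fin n) F)).index) :
    ∃ x : Matrix.SpecialLinearGroup (Fin n) F,
      (∃ z : F, ((x ^ r : Matrix.SpecialLinearGroup (Fin n) F) : Matrix (Fin n) (Fin n) F) = z • (1 : Matrix (Fin n) (Fin n) F)) ∧
      (∀ z : F, (x : Matrix (Fin n) (Fin n) F) ≠ z • (1 : Matrix (Fin n) (Fin n) F)) ∧
      ∀ P : Matrix.SpecialLinearGroup (Fin n) F, P⁻¹ * x * P ∉ ((Cfsg.Geo.similarityGroup f).comap (Matrix.SpecialLinearGroup.toGL : Matrix.SpecialLinearGroup (Fin n) F →* GL (Fin n) F)) := by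
  classical
  have hr : r.Prime := Fact.out
  have hp : p.Prime := Fact.out
  have hr3 : 3 ≤ r := by
    have := hr.two_le
    omega
  have hq1 : 1 < q := by
    rw [← hq]
    exact Fintype.one_lt_card
  have wrap : ∀ x : Matrix.SpecialLinearGroup (Fin n) F,
      (x : Matrix (Fin n) (Fin n) F) ^ r = 1 →
      (∀ z : F, (x : Matrix (Fin n) (Fin n) F) ≠ z • (1 : Matrix (Fin n) (Fin n) F)) →
      (∀ f' : (Fin n → F) → (Fin n → F) → F, Cfsg.Geo.IsSymplecticForm f' → ∀ c : F,
        (∀ u v, f' (Matrix.mulVec (x : Matrix (Fin n) (Fin n) F) u)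
          (Matrix.mulVec (x : Matrix (Fin n) (Fin n) F) v) = c * f' u v) → False) →
      ∃ x : Matrix.SpecialLinearGroup (Fin n) F,
        (∃ z : F, ((x ^ r : Matrix.SpecialLinearGroup (Fin n) F) : Matrix (Fin n) (Fin n) F)
          = z • (1 : Matrix (Fin n) (Fin n) F)) ∧
        (∀ z : F, (x : Matrix (Fin n) (Fin n) F) ≠ z • (1 : Matrix (Fin n) (Fin n) F)) ∧
        ∀ P : Matrix.SpecialLinearGroup (Fin n) F, P⁻¹ * x * P ∉
          ((Cfsg.Geo.similarityGroup f).comap (Matrix.SpecialLinearGroup.toGL :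
            Matrix.SpecialLinearGroup (Fin n) F →* GL (Fin n) F)) := by
    intro x hxr hns hall
    refine ⟨x, ⟨1, ?_⟩, hns, ?_⟩
    · rw [Matrix.SpecialLinearGroup.coe_pow, hxr, one_smul]
    · intro P
      exact not_conj_of_forall x hall f hf P
  by_cases hrp : r = p
  · haveI : CharP F r := by
      rw [hrp]
      infer_instance
    obtain ⟨x, hxp, hns, hall⟩ := exists_unip (F := F) (n := n) (p := r) hr2 (by omega)
    exact wrap x hxp hns hall
  have hcard : Nat.card Fˣ = q - 1 := by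
    rw [Nat.card_eq_fintype_card, Fintype.card_units, hq]
  by_cases h1 : r ∣ q - 1
  · obtain ⟨ω, hω⟩ := exists_prime_orderOf_dvd_card' (G := Fˣ) r (by
      rw [hcard]
      exact h1)
    have hωr : (ω : F) ^ r = 1 := by
      have h2 := pow_orderOf_eq_one ω
      rw [hω] at h2
      rw [← Units.val_pow_eq_pow_val, h2, Units.val_one]
    have hω1 : (ω : F) ≠ 1 := by
      intro h
      have h2 : ω = 1 := Units.ext h
      rw [h2, orderOf_one] at hω
      omega
    obtain ⟨x, hxr, hns, hall⟩ := exists_diag (F := F) (n := n) (r := r) hr2 hn he hgap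
      (ω : F) hωr hω1
    exact wrap x hxr hns hall
  · obtain ⟨m, hm⟩ := he
    have hnm : n = 2 * m := by omega
    obtain ⟨j, hjm, hj⟩ := index_odd (p := p) hq hnm f hf r hrp h1 hΩ
    obtain ⟨i, hi⟩ : ∃ i, i = orderOf ((q : ℕ) : ZMod r) := ⟨_, rfl⟩
    have hqj : ((q : ℕ) : ZMod r) ^ (2 * j + 1) = 1 := by
      have h2 : ((q ^ (2 * j + 1) : ℕ) : ZMod r) = ((1 : ℕ) : ZMod r) := by
        rw [ZMod.natCast_eq_natCast_iff]
        exact ((Nat.modEq_iff_dvd' (Nat.one_le_pow _ _ (by omega))).2 hj).symm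
      push_cast at h2
      exact h2
    have hidvd : i ∣ 2 * j + 1 := by
      rw [hi]
      exact orderOf_dvd_of_pow_eq_one hqj
    have hipos : 0 < i := Nat.pos_of_dvd_of_pos hidvd (by omega)
    have hile : i ≤ 2 * j + 1 := Nat.le_of_dvd (by omega) hidvd
    have hiodd : ¬ 2 ∣ i := by
      intro h
      have h2 := dvd_trans h hidvd
      omega
    have hqi : ((q : ℕ) : ZMod r) ^ i = 1 := by
      rw [hi]
      exact pow_orderOf_eq_one _
    have hrdvd : r ∣ q ^ i - 1 := by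
      have h2 : ((q ^ i : ℕ) : ZMod r) = ((1 : ℕ) : ZMod r) := by
        push_cast
        exact hqi
      rw [ZMod.natCast_eq_natCast_iff] at h2
      exact (Nat.modEq_iff_dvd' (Nat.one_le_pow _ _ (by omega))).1 h2.symm
    have hcop : Nat.Coprime r (q - 1) := by
      rw [hr.coprime_iff_not_dvd]
      exact h1
    have hcardGL : r ∣ Nat.card (GL (Fin i) F) := by
      rw [Matrix.card_GL_field, hq]
      have h0 : q ^ i - q ^ ((⟨0, hipos⟩ : Fin i) : ℕ) = q ^ i - 1 := by
        rw [pow_zero]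
      exact dvd_trans (by
        rw [h0]
        exact hrdvd) (Finset.dvd_prod_of_mem (fun j : Fin i => q ^ i - q ^ (j : ℕ))
          (Finset.mem_univ (⟨0, hipos⟩ : Fin i)))
    obtain ⟨g, hg⟩ := exists_prime_orderOf_dvd_card' (G := GL (Fin i) F) r hcardGL
    have hgr : (g : Matrix (Fin i) (Fin i) F) ^ r = 1 := by
      have h2 := pow_orderOf_eq_one g
      rw [hg] at h2
      rw [← Units.val_pow_eq_pow_val, h2, Units.val_one]
    have hg1 : (g : Matrix (Fin i) (Fin i) F) ≠ 1 := by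
      intro h
      have h2 : g = 1 := Units.ext h
      rw [h2, orderOf_one] at hg
      omega
    have hdetg : (g : Matrix (Fin i) (Fin i) F).det = 1 := by
      apply Cfsg.Agent.S5970.eq_one_of_coprime q r hq (by omega) hcop
      rw [← Matrix.det_pow, hgr, Matrix.det_one]
    obtain ⟨W, hW⟩ : ∃ W : Submodule F (Fin i → F),
        ∀ v, v ∈ W ↔ Matrix.mulVec (g : Matrix (Fin i) (Fin i) F) v = v :=
      ⟨LinearMap.ker (Matrix.toLin' (g : Matrix (Fin i) (Fin i) F) - 1), fun v => by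
        rw [LinearMap.mem_ker, LinearMap.sub_apply, Matrix.toLin'_apply, Module.End.one_apply,
          sub_eq_zero]⟩
    have horb := Cfsg.Agent.S5970.orb q hq (g : Matrix (Fin i) (Fin i) F) hgr ⊤
      (fun u _ => Submodule.mem_top) W hW
    rw [top_inf_eq, finrank_top, Module.finrank_fin_fun] at horb
    have hdle : Module.finrank F ↥W ≤ i := by
      have h2 := Submodule.finrank_le W
      rwa [Module.finrank_fin_fun] at h2
    have hd : i ∣ Module.finrank F ↥W := by
      have h2 : ((q ^ i : ℕ) : ZMod r) = ((q ^ Module.finrank F ↥W : ℕ) : ZMod r) :=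
        (ZMod.natCast_eq_natCast_iff _ _ _).2 horb
      push_cast at h2
      rw [hqi] at h2
      have h3 : orderOf ((q : ℕ) : ZMod r) ∣ Module.finrank F ↥W :=
        orderOf_dvd_of_pow_eq_one h2.symm
      rw [← hi] at h3
      exact h3
    have hker : ∀ a : Fin i → F,
        Matrix.mulVec (g : Matrix (Fin i) (Fin i) F) a = a → a = 0 := by
      intro a ha
      have hd0 : Module.finrank F ↥W = 0 := by
        by_contra hne
        have hge : i ≤ Module.finrank F ↥W := Nat.le_of_dvd (by omega) hd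
        have heq : Module.finrank F ↥W = Module.finrank F (Fin i → F) := by
          rw [Module.finrank_fin_fun]
          omega
        have hWtop : W = ⊤ := Submodule.eq_top_of_finrank_eq heq
        apply hg1
        apply Matrix.toLin'.injective
        apply LinearMap.ext
        intro u
        rw [Matrix.toLin'_apply, Matrix.toLin'_apply, Matrix.one_mulVec]
        exact (hW u).1 (by
          rw [hWtop]
          exact Submodule.mem_top)
      have hWbot : W = ⊥ := Submodule.finrank_eq_zero.1 hd0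
      have haW : a ∈ W := (hW a).2 ha
      rw [hWbot] at haW
      exact (Submodule.mem_bot F).1 haW
    have hin : i < n := by omega
    obtain ⟨x, hxr, K, hKdim, hKfix, hKdec⟩ :=
      block_elt (n := n) hin (g : Matrix (Fin i) (Fin i) F) r hgr hdetg hker
    have hns : ∀ z : F,
        (x : Matrix (Fin n) (Fin n) F) ≠ z • (1 : Matrix (Fin n) (Fin n) F) := by
      intro z hz
      have hKne : K ≠ ⊥ := by
        intro h
        rw [h, finrank_bot] at hKdim
        omega
      obtain ⟨w, hwK, hw0⟩ := Submodule.exists_mem_ne_zero_of_ne_bot hKne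
      have h2 := hKfix w hwK
      rw [hz, Matrix.smul_mulVec, Matrix.one_mulVec] at h2
      have h3 : (z - 1) • w = 0 := by rw [sub_smul, one_smul, h2, sub_self]
      rcases smul_eq_zero.1 h3 with h | h
      · have hz1 : z = 1 := sub_eq_zero.1 h
        have hKtop : K = ⊤ := by
          rw [eq_top_iff]
          intro v _
          obtain ⟨w', hw'K, v', hv'⟩ := hKdec v
          rw [hz, hz1, one_smul, Matrix.one_mulVec, sub_self, add_zero] at hv'
          rw [hv']
          exact hw'K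
        rw [hKtop, finrank_top, Module.finrank_fin_fun] at hKdim
        omega
      · exact hw0 h
    refine wrap x hxr hns ?_
    intro f' hf' c hc
    have hiter : ∀ k : ℕ, ∀ u v,
        f' (Matrix.mulVec ((x : Matrix (Fin n) (Fin n) F) ^ k) u)
          (Matrix.mulVec ((x : Matrix (Fin n) (Fin n) F) ^ k) v) = c ^ k * f' u v := by
      intro k
      induction k with
      | zero =>
        intro u v
        rw [pow_zero, Matrix.one_mulVec, Matrix.one_mulVec, pow_zero, one_mul]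
      | succ k ih =>
        intro u v
        rw [pow_succ' (x : Matrix (Fin n) (Fin n) F) k, ← Matrix.mulVec_mulVec,
          ← Matrix.mulVec_mulVec, hc, ih, pow_succ' c k]
        ring
    have hcr : c ^ r = 1 := by
      obtain ⟨k₀, hk₀⟩ : ∃ k₀ : Fin n, (k₀ : ℕ) = 0 := ⟨⟨0, by omega⟩, rfl⟩
      have hne0 : (Pi.single k₀ (1 : F) : Fin n → F) ≠ 0 := by
        intro h
        have h2 := congrFun h k₀
        rw [Pi.single_eq_same, Pi.zero_apply] at h2
        exact one_ne_zero h2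
      obtain ⟨⟨u, hu⟩, -⟩ := hf'.nondegenerate _ hne0
      have h2 := hiter r u (Pi.single k₀ (1 : F))
      rw [hxr, Matrix.one_mulVec, Matrix.one_mulVec] at h2
      have h3 : (c ^ r - 1) * f' u (Pi.single k₀ (1 : F)) = 0 := by
        linear_combination -h2
      exact sub_eq_zero.1 ((mul_eq_zero.1 h3).resolve_right hu)
    have hc1 : c = 1 := Cfsg.Agent.S5970.eq_one_of_coprime q r hq (by omega) hcop c hcr
    have hx' : ∀ u v, f' (Matrix.mulVec (x : Matrix (Fin n) (Fin n) F) u)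
        (Matrix.mulVec (x : Matrix (Fin n) (Fin n) F) v) = f' u v := by
      intro u v
      rw [hc, hc1, one_mul]
    have heven := even_fixed f' hf' (x : Matrix (Fin n) (Fin n) F) hx' K hKfix hKdec
    rw [hKdim] at heven
    obtain ⟨t, ht⟩ := heven
    omega

end Cfsg.Agent.S5968
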