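import Mathlib
import Cfsg.Agent.S5968
import Cfsg.Agent.S5962
import Cfsg.Statements.S5963

set_option autoImplicit false
open scoped MatrixGroups
open Cfsg

universe u

namespace Cfsg.Agent.S5963

section generic

open Matrix

variable {F : Type*} [Field F]

theorem iter_toLin' {n : Type*} [Fintype n] [DecidableEq n] (M : Matrix n n F) (j : ℕ)
    (v : n → F) : (⇑(Matrix.toLin' M))^[j] v = M ^ j *ᵥ v := by
  induction j with
  | zero => rw [Function.iterate_zero, id_eq, pow_zero, Matrix.one_mulVec]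
  | succ j ih =>
    rw [Function.iterate_succ_apply', ih, Matrix.toLin'_apply, Matrix.mulVec_mulVec, ← pow_succ']

/-- orbit counting for a linear map of prime order on an invariant subspace -/
theorem orbL [Fintype F] {V : Type*} [AddCommGroup V] [Module F V] [Finite V]
    {r : ℕ} [Fact r.Prime] (q : ℕ) (hq : Fintype.card F = q)
    (T : V →ₗ[F] V) (hT : ∀ v, (⇑T)^[r] v = v)
    (U : Submodule F V) (hU : ∀ u ∈ U, T u ∈ U)
    (W : Submodule F V) (hW : ∀ v, v ∈ W ↔ T v = v) :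
    q ^ Module.finrank F ↥U ≡ q ^ Module.finrank F ↥(U ⊓ W : Submodule F V) [MOD r] := by
  classical
  haveI : Fintype ↥U := Fintype.ofFinite _
  haveI : Fintype ↥(U ⊓ W : Submodule F V) := Fintype.ofFinite _
  obtain ⟨f, hf⟩ : ∃ f : Function.End ↥U, ∀ u : ↥U, ((f u : ↥U) : V) = T (u : V) :=
    ⟨fun u => ⟨T (u : V), hU u.1 u.2⟩, fun _ => rfl⟩
  have hfpow : ∀ (j : ℕ) (u : ↥U), (((f ^ j) u : ↥U) : V) = (⇑T)^[j] (u : V) := by
    intro j
    induction j with
    | zero =>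
      intro u
      have e1 : (f ^ 0) u = u := by
        rw [pow_zero]
        rfl
      rw [e1, Function.iterate_zero, id_eq]
    | succ j ih =>
      intro u
      have e1 : (f ^ (j + 1)) u = (f ^ j) (f u) := by
        rw [pow_succ]
        rfl
      rw [e1, ih (f u), hf u, Function.iterate_succ_apply]
  have hfr : f ^ r ^ 1 = 1 := by
    rw [pow_one]
    apply funext
    intro u
    apply Subtype.ext
    rw [hfpow, hT]
    rfl
  have h1' := Equiv.Perm.card_fixedPoints_modEq (p := r) (n := 1) hfr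
  have h1 : Nat.card ↥U ≡ Nat.card ↥(Function.fixedPoints f) [MOD r] := by
    rw [Nat.card_eq_fintype_card, Nat.card_eq_fintype_card]
    convert h1'
  have h2 : Nat.card ↥U = q ^ Module.finrank F ↥U := by
    rw [Nat.card_eq_fintype_card, Module.card_eq_pow_finrank (K := F) (V := ↥U), hq]
  have h3 : Nat.card ↥(Function.fixedPoints f)
      = q ^ Module.finrank F ↥(U ⊓ W : Submodule F V) := by
    rw [← hq, ← Module.card_eq_pow_finrank (K := F)
      (V := ↥(U ⊓ W : Submodule F V)), ← Nat.card_eq_fintype_card]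
    apply Nat.card_congr
    exact
      { toFun := fun u => ⟨(u.1 : V), ⟨u.1.2, (hW _).2 (by
            have h4 : f u.1 = u.1 := u.2
            rw [← hf, h4])⟩⟩
        invFun := fun w => ⟨⟨w.1, w.2.1⟩, by
            show f ⟨w.1, w.2.1⟩ = ⟨w.1, w.2.1⟩
            apply Subtype.ext
            rw [hf]
            exact (hW _).1 w.2.2⟩
        left_inv := fun u => rfl
        right_inv := fun w => rfl }
  rw [h2, h3] at h1
  exact h1

theorem arith2 {r : ℕ} [Fact r.Prime] (q : ℕ) (e : ℕ) (he : e = orderOf (q : ZMod r))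
    (hepos : 0 < e) (a b : ℕ) (hba : b ≤ a) (h : q ^ a ≡ q ^ b [MOD r]) : e ∣ (a - b) := by
  have hq0 : (q : ZMod r) ≠ 0 := by
    intro h0
    have h1 := pow_orderOf_eq_one (q : ZMod r)
    rw [← he, h0, zero_pow (by omega)] at h1
    exact zero_ne_one h1
  have h1 : ((q ^ a : ℕ) : ZMod r) = ((q ^ b : ℕ) : ZMod r) :=
    (ZMod.natCast_eq_natCast_iff _ _ _).2 h
  push_cast at h1
  have h2 : (q : ZMod r) ^ b * (q : ZMod r) ^ (a - b) = (q : ZMod r) ^ b * 1 := by
    rw [← pow_add, mul_one, Nat.add_sub_cancel' hba, h1]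
  have h3 := mul_left_cancel₀ (pow_ne_zero b hq0) h2
  rw [he]
  exact orderOf_dvd_of_pow_eq_one h3

variable (d : ℕ)

/-- membership in the symplectic group from preservation of the form -/
theorem mem_sp_of_pres (M : Matrix (Fin d ⊕ Fin d) (Fin d ⊕ Fin d) F)
    (h : ∀ u v, Cfsg.sympForm d F (M *ᵥ u) (M *ᵥ v) = Cfsg.sympForm d F u v) :
    M ∈ Matrix.symplecticGroup (Fin d) F := by
  classical
  rw [SymplecticGroup.mem_iff']
  ext k l
  have h1 := h (Pi.single k 1) (Pi.single l 1)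
  rw [Matrix.mulVec_single_one, Matrix.mulVec_single_one] at h1
  have h2 : Cfsg.sympForm d F (Pi.single k 1) (Pi.single l 1) = Matrix.J (Fin d) F k l := by
    unfold Cfsg.sympForm
    rw [Matrix.mulVec_single_one, single_one_dotProduct]
    rfl
  have h3 : (Mᵀ * Matrix.J (Fin d) F * M) k l = Cfsg.sympForm d F (M.col k) (M.col l) := by
    rw [Matrix.mul_assoc]
    rfl
  rw [h3, h1, h2]

theorem form_zero_left (v : Fin d ⊕ Fin d → F) : Cfsg.sympForm d F 0 v = 0 := by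
  unfold Cfsg.sympForm
  rw [zero_dotProduct]

theorem form_zero_right (v : Fin d ⊕ Fin d → F) : Cfsg.sympForm d F v 0 = 0 := by
  unfold Cfsg.sympForm
  rw [Matrix.mulVec_zero, dotProduct_zero]

theorem sp_inj (g : ↥(Matrix.symplecticGroup (Fin d) F)) :
    Function.Injective (Matrix.toLin' (g : Matrix (Fin d ⊕ Fin d) (Fin d ⊕ Fin d) F)) := by
  rw [injective_iff_map_eq_zero]
  intro v hv
  rw [Matrix.toLin'_apply] at hv
  by_contra hv0
  obtain ⟨y, hy⟩ := S0766.form_nondeg d v hv0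
  apply hy
  rw [← S0766.form_pres d g v y, hv, form_zero_left]

theorem finrank_map_inj {V : Type*} [AddCommGroup V] [Module F V] (L : V →ₗ[F] V)
    (hL : Function.Injective L) (S : Submodule F V) :
    Module.finrank F ↥(S.map L) = Module.finrank F ↥S :=
  (LinearEquiv.finrank_eq (Submodule.equivMapOfInjective L hL S)).symm

theorem finrank_map_inj' {V V₂ : Type*} [AddCommGroup V] [Module F V] [AddCommGroup V₂]
    [Module F V₂] (L : V →ₗ[F] V₂) (hL : Function.Injective L) (S : Submodule F V) :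
    Module.finrank F ↥(S.map L) = Module.finrank F ↥S :=
  (LinearEquiv.finrank_eq (Submodule.equivMapOfInjective L hL S)).symm

theorem symp_elim (a c a' c' : Fin d → F) :
    Cfsg.sympForm d F (Sum.elim a c) (Sum.elim a' c') = c ⬝ᵥ a' - a ⬝ᵥ c' := by
  unfold Cfsg.sympForm
  rw [Matrix.J, Matrix.fromBlocks_mulVec]
  simp only [Sum.elim_comp_inl, Sum.elim_comp_inr, Matrix.zero_mulVec, Matrix.neg_mulVec,
    Matrix.one_mulVec, zero_add, add_zero, dotProduct, Fintype.sum_sum_type, Sum.elim_inl,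
    Sum.elim_inr, Pi.neg_apply, mul_neg, Finset.sum_neg_distrib]
  ring

/-- the first standard maximal totally isotropic subspace, as the range of this map -/
def ιl : (Fin d → F) →ₗ[F] (Fin d ⊕ Fin d → F) where
  toFun a := Sum.elim a (0 : Fin d → F)
  map_add' a b := by
    funext k
    rcases k with k | k <;> simp
  map_smul' c a := by
    funext k
    rcases k with k | k <;> simp

/-- the second standard maximal totally isotropic subspace, as the range of this map -/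
def ιr : (Fin d → F) →ₗ[F] (Fin d ⊕ Fin d → F) where
  toFun c := Sum.elim (0 : Fin d → F) c
  map_add' a b := by
    funext k
    rcases k with k | k <;> simp
  map_smul' c a := by
    funext k
    rcases k with k | k <;> simp

theorem ιl_apply (a : Fin d → F) : ιl (F := F) d a = Sum.elim a (0 : Fin d → F) := rfl

theorem ιr_apply (c : Fin d → F) : ιr (F := F) d c = Sum.elim (0 : Fin d → F) c := rfl

theorem ιl_inj : Function.Injective (ιl (F := F) d) := by
  intro a b h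
  funext i
  have h1 := congrFun h (Sum.inl i)
  rw [ιl_apply, ιl_apply, Sum.elim_inl, Sum.elim_inl] at h1
  exact h1

theorem ιr_inj : Function.Injective (ιr (F := F) d) := by
  intro a b h
  funext i
  have h1 := congrFun h (Sum.inr i)
  rw [ιr_apply, ιr_apply, Sum.elim_inr, Sum.elim_inr] at h1
  exact h1

theorem ti_l : ∀ u ∈ LinearMap.range (ιl (F := F) d), ∀ v ∈ LinearMap.range (ιl (F := F) d),
    Cfsg.sympForm d F u v = 0 := by
  rintro _ ⟨a, rfl⟩ _ ⟨a', rfl⟩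
  rw [ιl_apply, ιl_apply, symp_elim, zero_dotProduct, dotProduct_zero, sub_zero]

theorem ti_r : ∀ u ∈ LinearMap.range (ιr (F := F) d), ∀ v ∈ LinearMap.range (ιr (F := F) d),
    Cfsg.sympForm d F u v = 0 := by
  rintro _ ⟨a, rfl⟩ _ ⟨a', rfl⟩
  rw [ιr_apply, ιr_apply, symp_elim, zero_dotProduct, dotProduct_zero, sub_zero]

theorem decomp_std (v : Fin d ⊕ Fin d → F) :
    v = ιl (F := F) d (v ∘ Sum.inl) + ιr (F := F) d (v ∘ Sum.inr) := by
  funext k
  rcases k with k | k <;> simp [ιl_apply, ιr_apply]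

theorem finrank_l : Module.finrank F ↥(LinearMap.range (ιl (F := F) d)) = d := by
  rw [LinearMap.finrank_range_of_inj (ιl_inj d), Module.finrank_fin_fun]

theorem finrank_r : Module.finrank F ↥(LinearMap.range (ιr (F := F) d)) = d := by
  rw [LinearMap.finrank_range_of_inj (ιr_inj d), Module.finrank_fin_fun]

theorem compl_std (g : ↥(Matrix.symplecticGroup (Fin d) F)) :
    IsCompl ((LinearMap.range (ιl (F := F) d)).map
        (Matrix.toLin' (g : Matrix (Fin d ⊕ Fin d) (Fin d ⊕ Fin d) F)))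
      ((LinearMap.range (ιr (F := F) d)).map
        (Matrix.toLin' (g : Matrix (Fin d ⊕ Fin d) (Fin d ⊕ Fin d) F))) := by
  have hinj := sp_inj d g
  have hsurj : Function.Surjective
      (Matrix.toLin' (g : Matrix (Fin d ⊕ Fin d) (Fin d ⊕ Fin d) F)) :=
    LinearMap.injective_iff_surjective.1 hinj
  constructor
  · rw [Submodule.disjoint_def]
    rintro _ ⟨_, ⟨a, rfl⟩, rfl⟩ ⟨_, ⟨c, rfl⟩, hc⟩
    have h1 := hinj hc
    have ha : a = 0 := by
      funext i
      have h2 := congrFun h1 (Sum.inl i)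
      rw [ιl_apply, ιr_apply, Sum.elim_inl, Sum.elim_inl] at h2
      exact h2.symm
    rw [ha, map_zero, map_zero]
  · rw [codisjoint_iff, eq_top_iff]
    intro v _
    obtain ⟨y, rfl⟩ := hsurj v
    rw [decomp_std d y, map_add]
    exact Submodule.add_mem_sup (Submodule.mem_map_of_mem ⟨_, rfl⟩)
      (Submodule.mem_map_of_mem ⟨_, rfl⟩)

theorem ti_map (g : ↥(Matrix.symplecticGroup (Fin d) F)) (S : Submodule F (Fin d ⊕ Fin d → F))
    (hS : ∀ u ∈ S, ∀ v ∈ S, Cfsg.sympForm d F u v = 0) :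
    ∀ u ∈ S.map (Matrix.toLin' (g : Matrix (Fin d ⊕ Fin d) (Fin d ⊕ Fin d) F)),
      ∀ v ∈ S.map (Matrix.toLin' (g : Matrix (Fin d ⊕ Fin d) (Fin d ⊕ Fin d) F)),
        Cfsg.sympForm d F u v = 0 := by
  rintro _ ⟨u, hu, rfl⟩ _ ⟨v, hv, rfl⟩
  rw [Matrix.toLin'_apply, Matrix.toLin'_apply, S0766.form_pres d g u v]
  exact hS u hu v hv

end generic

section counting

open Matrix

variable {F : Type*} [Field F] (d : ℕ)

theorem theta (U W : Submodule F (Fin d ⊕ Fin d → F)) (hsup : U ⊔ W = ⊤)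
    (hW : ∀ u ∈ W, ∀ v ∈ W, Cfsg.sympForm d F u v = 0) {k : ℕ}
    (b : Module.Basis (Fin k) F ↥U) :
    ∃ Θ : ↥W →ₗ[F] (Fin k → F),
      (∀ (w : ↥W) (i : Fin k), Θ w i
        = Cfsg.sympForm d F (b i : Fin d ⊕ Fin d → F) (w : Fin d ⊕ Fin d → F)) ∧
      Function.Injective Θ := by
  classical
  obtain ⟨Θ, hΘ⟩ : ∃ Θ : ↥W →ₗ[F] (Fin k → F), ∀ (w : ↥W) (i : Fin k), Θ w i
      = Cfsg.sympForm d F (b i : Fin d ⊕ Fin d → F) (w : Fin d ⊕ Fin d → F) :=
    ⟨LinearMap.pi (fun i => ((S0768.BJ (F := F) d) (b i : Fin d ⊕ Fin d → F)).comp W.subtype),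
      fun w i => by
        rw [LinearMap.pi_apply, LinearMap.comp_apply, Submodule.subtype_apply, S0768.BJ_apply]⟩
  refine ⟨Θ, hΘ, ?_⟩
  rw [injective_iff_map_eq_zero]
  intro w hw
  have h1 : ∀ u ∈ U, Cfsg.sympForm d F u (w : Fin d ⊕ Fin d → F) = 0 := by
    intro u hu
    have h2 : (LinearMap.flip (S0768.BJ (F := F) d) (w : Fin d ⊕ Fin d → F)).comp U.subtype = 0 := by
      apply b.ext
      intro i
      rw [LinearMap.comp_apply, Submodule.subtype_apply, LinearMap.flip_apply, S0768.BJ_apply,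
        LinearMap.zero_apply, ← hΘ, hw]
      rfl
    have h3 := LinearMap.congr_fun h2 ⟨u, hu⟩
    rw [LinearMap.comp_apply, Submodule.subtype_apply, LinearMap.flip_apply, S0768.BJ_apply,
      LinearMap.zero_apply] at h3
    exact h3
  by_contra hw0
  have hw0' : (w : Fin d ⊕ Fin d → F) ≠ 0 := fun h => hw0 (Subtype.ext h)
  obtain ⟨y, hy⟩ := S0766.form_nondeg d (w : Fin d ⊕ Fin d → F) hw0'
  apply hy
  have hy' : y ∈ U ⊔ W := by
    rw [hsup]
    exact Submodule.mem_top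
  obtain ⟨u, hu, w', hw', rfl⟩ := Submodule.mem_sup.1 hy'
  rw [S0766.form_add_right, S0766.form_swap d _ u, h1 u hu, neg_zero, hW _ w.2 w' hw', add_zero]

theorem finrank_le_of_pair (U W : Submodule F (Fin d ⊕ Fin d → F)) (hsup : U ⊔ W = ⊤)
    (hW : ∀ u ∈ W, ∀ v ∈ W, Cfsg.sympForm d F u v = 0) :
    Module.finrank F ↥W ≤ Module.finrank F ↥U := by
  classical
  obtain ⟨k, hk⟩ : ∃ k, Module.finrank F ↥U = k := ⟨_, rfl⟩
  obtain ⟨b⟩ : Nonempty (Module.Basis (Fin k) F ↥U) := ⟨Module.finBasisOfFinrankEq F ↥U hk⟩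
  obtain ⟨Θ, -, hinj⟩ := theta d U W hsup hW b
  have h4 := LinearMap.finrank_le_finrank_of_injective hinj
  rw [Module.finrank_fin_fun] at h4
  rw [hk]
  exact h4

/-- the symplectic group is transitive on pairs of complementary totally isotropic subspaces -/
theorem exists_sp_of_pair (U W : Submodule F (Fin d ⊕ Fin d → F)) (hc : IsCompl U W)
    (hU : ∀ u ∈ U, ∀ v ∈ U, Cfsg.sympForm d F u v = 0)
    (hW : ∀ u ∈ W, ∀ v ∈ W, Cfsg.sympForm d F u v = 0) :
    ∃ g : ↥(Matrix.symplecticGroup (Fin d) F),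
      (LinearMap.range (ιl (F := F) d)).map
        (Matrix.toLin' (g : Matrix (Fin d ⊕ Fin d) (Fin d ⊕ Fin d) F)) = U ∧
      (LinearMap.range (ιr (F := F) d)).map
        (Matrix.toLin' (g : Matrix (Fin d ⊕ Fin d) (Fin d ⊕ Fin d) F)) = W := by
  classical
  have hsum := Submodule.finrank_add_eq_of_isCompl hc
  rw [Module.finrank_fintype_fun_eq_card, Fintype.card_sum, Fintype.card_fin] at hsum
  have h1 := finrank_le_of_pair d U W hc.sup_eq_top hW
  have h2 := finrank_le_of_pair d W U (by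
    rw [sup_comm]
    exact hc.sup_eq_top) hU
  have hUd : Module.finrank F ↥U = d := by omega
  have hWd : Module.finrank F ↥W = d := by omega
  obtain ⟨b⟩ : Nonempty (Module.Basis (Fin d) F ↥U) := ⟨Module.finBasisOfFinrankEq F ↥U hUd⟩
  obtain ⟨Θ, hΘ, hinj⟩ := theta d U W hc.sup_eq_top hW b
  have hsurj : Function.Surjective Θ :=
    (LinearMap.injective_iff_surjective_of_finrank_eq_finrank (by
      rw [hWd, Module.finrank_fin_fun])).1 hinj
  choose w hw using fun j : Fin d => hsurj (fun i => if i = j then -1 else 0)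
  have hbw : ∀ i j, Cfsg.sympForm d F (b i : Fin d ⊕ Fin d → F) (w j : Fin d ⊕ Fin d → F)
      = if i = j then -1 else 0 := by
    intro i j
    rw [← hΘ, hw]
  obtain ⟨c, hc'⟩ : ∃ c : Fin d ⊕ Fin d → (Fin d ⊕ Fin d → F),
      c = Sum.elim (fun i => (b i : Fin d ⊕ Fin d → F)) (fun j => (w j : Fin d ⊕ Fin d → F)) :=
    ⟨_, rfl⟩
  have hcl : ∀ i, c (Sum.inl i) = (b i : Fin d ⊕ Fin d → F) := by
    intro i
    rw [hc']
    rfl
  have hcr : ∀ j, c (Sum.inr j) = (w j : Fin d ⊕ Fin d → F) := by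
    intro j
    rw [hc']
    rfl
  obtain ⟨M, hM⟩ : ∃ M : Matrix (Fin d ⊕ Fin d) (Fin d ⊕ Fin d) F,
      M = Matrix.of (fun k l => c l k) := ⟨_, rfl⟩
  have hcc : ∀ k l, Cfsg.sympForm d F (c k) (c l) = Matrix.J (Fin d) F k l := by
    intro k l
    rcases k with i | j <;> rcases l with i' | j'
    · rw [hcl, hcl, hU _ (b i).2 _ (b i').2, Matrix.J, Matrix.fromBlocks_apply₁₁,
        Matrix.zero_apply]
    · rw [hcl, hcr, hbw, Matrix.J, Matrix.fromBlocks_apply₁₂, Matrix.neg_apply,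
        Matrix.one_apply]
      by_cases h : i = j'
      · rw [if_pos h, if_pos h]
      · rw [if_neg h, if_neg h, neg_zero]
    · rw [hcr, hcl, S0766.form_swap, hbw, Matrix.J, Matrix.fromBlocks_apply₂₁,
        Matrix.one_apply]
      by_cases h : i' = j
      · rw [if_pos h, if_pos h.symm, neg_neg]
      · rw [if_neg h, if_neg (fun h' => h h'.symm), neg_zero]
    · rw [hcr, hcr, hW _ (w j).2 _ (w j').2, Matrix.J, Matrix.fromBlocks_apply₂₂,
        Matrix.zero_apply]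
  have hMsp : M ∈ Matrix.symplecticGroup (Fin d) F := by
    rw [SymplecticGroup.mem_iff']
    ext k l
    have h3 : (Mᵀ * Matrix.J (Fin d) F * M) k l = Cfsg.sympForm d F (c k) (c l) := by
      rw [Matrix.mul_assoc, hM]
      rfl
    rw [h3, hcc]
  have hMv : ∀ v : Fin d ⊕ Fin d → F, M *ᵥ v = ∑ l, v l • c l := by
    intro v
    funext k
    rw [Finset.sum_apply, hM]
    show (∑ l, c l k * v l) = ∑ l, (v l • c l) k
    exact Finset.sum_congr rfl (fun l _ => by rw [Pi.smul_apply, smul_eq_mul, mul_comm])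
  have hMinj := sp_inj d ⟨M, hMsp⟩
  refine ⟨⟨M, hMsp⟩, ?_, ?_⟩
  · apply Submodule.eq_of_le_of_finrank_eq
    · rintro _ ⟨_, ⟨a, rfl⟩, rfl⟩
      rw [Matrix.toLin'_apply]
      show M *ᵥ (ιl (F := F) d a) ∈ U
      rw [hMv]
      apply Submodule.sum_mem
      intro l _
      rcases l with i | j
      · rw [hcl]
        exact U.smul_mem _ (b i).2
      · rw [ιl_apply, Sum.elim_inr, Pi.zero_apply, zero_smul]
        exact U.zero_mem
    · rw [finrank_map_inj _ hMinj, finrank_l, hUd]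
  · apply Submodule.eq_of_le_of_finrank_eq
    · rintro _ ⟨_, ⟨a, rfl⟩, rfl⟩
      rw [Matrix.toLin'_apply]
      show M *ᵥ (ιr (F := F) d a) ∈ W
      rw [hMv]
      apply Submodule.sum_mem
      intro l _
      rcases l with i | j
      · rw [ιr_apply, Sum.elim_inl, Pi.zero_apply, zero_smul]
        exact W.zero_mem
      · rw [hcr]
        exact W.smul_mem _ (w j).2
    · rw [finrank_map_inj _ hMinj, finrank_r, hWd]

theorem blk_mem (A : GL (Fin d) F) :
    Matrix.fromBlocks (A : Matrix (Fin d) (Fin d) F) 0 0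
      ((A⁻¹ : GL (Fin d) F) : Matrix (Fin d) (Fin d) F)ᵀ ∈ Matrix.symplecticGroup (Fin d) F := by
  rw [SymplecticGroup.mem_iff', Matrix.fromBlocks_transpose, Matrix.J, Matrix.fromBlocks_multiply,
    Matrix.fromBlocks_multiply]
  have h1 : ((A⁻¹ : GL (Fin d) F) : Matrix (Fin d) (Fin d) F) * (A : Matrix (Fin d) (Fin d) F)
      = 1 := by
    rw [← Units.val_mul, inv_mul_cancel, Units.val_one]
  have h2 : (A : Matrix (Fin d) (Fin d) F)ᵀ
      * ((A⁻¹ : GL (Fin d) F) : Matrix (Fin d) (Fin d) F)ᵀ = 1 := by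
    rw [← Matrix.transpose_mul, h1, Matrix.transpose_one]
  simp only [Matrix.transpose_zero, Matrix.transpose_transpose, Matrix.mul_zero, Matrix.zero_mul,
    Matrix.mul_one, Matrix.mul_neg, Matrix.neg_mul, add_zero, zero_add, neg_zero, h1, h2]

theorem blk_l (A D : Matrix (Fin d) (Fin d) F) (a : Fin d → F) :
    Matrix.fromBlocks A 0 0 D *ᵥ (ιl (F := F) d a) = ιl (F := F) d (A *ᵥ a) := by
  rw [ιl_apply, ιl_apply, Matrix.fromBlocks_mulVec]
  simp only [Sum.elim_comp_inl, Sum.elim_comp_inr, Matrix.zero_mulVec, Matrix.mulVec_zero,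
    add_zero, zero_add]

theorem blk_r (A D : Matrix (Fin d) (Fin d) F) (a : Fin d → F) :
    Matrix.fromBlocks A 0 0 D *ᵥ (ιr (F := F) d a) = ιr (F := F) d (D *ᵥ a) := by
  rw [ιr_apply, ιr_apply, Matrix.fromBlocks_mulVec]
  simp only [Sum.elim_comp_inl, Sum.elim_comp_inr, Matrix.zero_mulVec, Matrix.mulVec_zero,
    add_zero, zero_add]

theorem card_pairs_dvd [Fintype F] :
    Nat.card {P : Submodule F (Fin d ⊕ Fin d → F) × Submodule F (Fin d ⊕ Fin d → F) //
        IsCompl P.1 P.2 ∧ (∀ u ∈ P.1, ∀ v ∈ P.1, Cfsg.sympForm d F u v = 0) ∧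
          (∀ u ∈ P.2, ∀ v ∈ P.2, Cfsg.sympForm d F u v = 0)}
      * Nat.card (GL (Fin d) F) ∣ Nat.card ↥(Matrix.symplecticGroup (Fin d) F) := by
  classical
  letI act : MulAction ↥(Matrix.symplecticGroup (Fin d) F)
      (Submodule F (Fin d ⊕ Fin d → F) × Submodule F (Fin d ⊕ Fin d → F)) :=
    { smul := fun g P =>
        (P.1.map (Matrix.toLin' (g : Matrix (Fin d ⊕ Fin d) (Fin d ⊕ Fin d) F)),
          P.2.map (Matrix.toLin' (g : Matrix (Fin d ⊕ Fin d) (Fin d ⊕ Fin d) F)))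
      one_smul := by
        intro P
        show (P.1.map (Matrix.toLin' (1 : Matrix (Fin d ⊕ Fin d) (Fin d ⊕ Fin d) F)),
          P.2.map (Matrix.toLin' (1 : Matrix (Fin d ⊕ Fin d) (Fin d ⊕ Fin d) F))) = P
        rw [Matrix.toLin'_one, Submodule.map_id, Submodule.map_id]
      mul_smul := by
        intro g h P
        show (P.1.map (Matrix.toLin' ((g : Matrix (Fin d ⊕ Fin d) (Fin d ⊕ Fin d) F)
            * (h : Matrix (Fin d ⊕ Fin d) (Fin d ⊕ Fin d) F))),
          P.2.map (Matrix.toLin' ((g : Matrix (Fin d ⊕ Fin d) (Fin d ⊕ Fin d) F)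
            * (h : Matrix (Fin d ⊕ Fin d) (Fin d ⊕ Fin d) F))))
          = ((P.1.map (Matrix.toLin' (h : Matrix (Fin d ⊕ Fin d) (Fin d ⊕ Fin d) F))).map
              (Matrix.toLin' (g : Matrix (Fin d ⊕ Fin d) (Fin d ⊕ Fin d) F)),
            (P.2.map (Matrix.toLin' (h : Matrix (Fin d ⊕ Fin d) (Fin d ⊕ Fin d) F))).map
              (Matrix.toLin' (g : Matrix (Fin d ⊕ Fin d) (Fin d ⊕ Fin d) F)))
        rw [Matrix.toLin'_mul, Submodule.map_comp, Submodule.map_comp] }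
  obtain ⟨ω₀, hω₀⟩ : ∃ ω₀ : Submodule F (Fin d ⊕ Fin d → F) × Submodule F (Fin d ⊕ Fin d → F),
      ω₀ = (LinearMap.range (ιl (F := F) d), LinearMap.range (ιr (F := F) d)) := ⟨_, rfl⟩
  have hsmul : ∀ (g : ↥(Matrix.symplecticGroup (Fin d) F))
      (P : Submodule F (Fin d ⊕ Fin d → F) × Submodule F (Fin d ⊕ Fin d → F)),
      g • P = (P.1.map (Matrix.toLin' (g : Matrix (Fin d ⊕ Fin d) (Fin d ⊕ Fin d) F)),
        P.2.map (Matrix.toLin' (g : Matrix (Fin d ⊕ Fin d) (Fin d ⊕ Fin d) F))) :=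
    fun g P => rfl
  have horb : ∀ P : Submodule F (Fin d ⊕ Fin d → F) × Submodule F (Fin d ⊕ Fin d → F),
      (IsCompl P.1 P.2 ∧ (∀ u ∈ P.1, ∀ v ∈ P.1, Cfsg.sympForm d F u v = 0) ∧
          (∀ u ∈ P.2, ∀ v ∈ P.2, Cfsg.sympForm d F u v = 0))
        ↔ P ∈ MulAction.orbit ↥(Matrix.symplecticGroup (Fin d) F) ω₀ := by
    intro P
    rw [MulAction.mem_orbit_iff]
    constructor
    · rintro ⟨hc, hU, hW⟩
      obtain ⟨g, hg1, hg2⟩ := exists_sp_of_pair d P.1 P.2 hc hU hW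
      refine ⟨g, ?_⟩
      rw [hsmul, hω₀]
      exact Prod.ext hg1 hg2
    · rintro ⟨g, rfl⟩
      rw [hsmul, hω₀]
      exact ⟨compl_std d g, ti_map d g _ (ti_l d), ti_map d g _ (ti_r d)⟩
  have hcard : Nat.card {P : Submodule F (Fin d ⊕ Fin d → F) × Submodule F (Fin d ⊕ Fin d → F) //
        IsCompl P.1 P.2 ∧ (∀ u ∈ P.1, ∀ v ∈ P.1, Cfsg.sympForm d F u v = 0) ∧
          (∀ u ∈ P.2, ∀ v ∈ P.2, Cfsg.sympForm d F u v = 0)}
      = (MulAction.stabilizer ↥(Matrix.symplecticGroup (Fin d) F) ω₀).index := by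
    rw [Subgroup.index, ← Nat.card_congr (MulAction.orbitEquivQuotientStabilizer
      ↥(Matrix.symplecticGroup (Fin d) F) ω₀)]
    exact Nat.card_congr (Equiv.subtypeEquivRight horb)
  obtain ⟨ψ, hψ⟩ : ∃ ψ : GL (Fin d) F →* ↥(Matrix.symplecticGroup (Fin d) F),
      ∀ A, ((ψ A : ↥(Matrix.symplecticGroup (Fin d) F)) :
        Matrix (Fin d ⊕ Fin d) (Fin d ⊕ Fin d) F)
        = Matrix.fromBlocks (A : Matrix (Fin d) (Fin d) F) 0 0
          ((A⁻¹ : GL (Fin d) F) : Matrix (Fin d) (Fin d) F)ᵀ :=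
    ⟨{ toFun := fun A => ⟨Matrix.fromBlocks (A : Matrix (Fin d) (Fin d) F) 0 0
          ((A⁻¹ : GL (Fin d) F) : Matrix (Fin d) (Fin d) F)ᵀ, blk_mem d A⟩
       map_one' := by
         apply Subtype.ext
         show Matrix.fromBlocks ((1 : GL (Fin d) F) : Matrix (Fin d) (Fin d) F) 0 0
           (((1 : GL (Fin d) F)⁻¹ : GL (Fin d) F) : Matrix (Fin d) (Fin d) F)ᵀ = 1
         rw [inv_one, Units.val_one, Matrix.transpose_one, Matrix.fromBlocks_one]
       map_mul' := by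
         intro A B
         apply Subtype.ext
         show Matrix.fromBlocks ((A * B : GL (Fin d) F) : Matrix (Fin d) (Fin d) F) 0 0
             (((A * B)⁻¹ : GL (Fin d) F) : Matrix (Fin d) (Fin d) F)ᵀ
           = Matrix.fromBlocks (A : Matrix (Fin d) (Fin d) F) 0 0
               ((A⁻¹ : GL (Fin d) F) : Matrix (Fin d) (Fin d) F)ᵀ
             * Matrix.fromBlocks (B : Matrix (Fin d) (Fin d) F) 0 0
               ((B⁻¹ : GL (Fin d) F) : Matrix (Fin d) (Fin d) F)ᵀ
         rw [Matrix.fromBlocks_multiply, _root_.mul_inv_rev, Units.val_mul, Units.val_mul,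
           Matrix.transpose_mul]
         simp only [Matrix.mul_zero, Matrix.zero_mul, add_zero, zero_add] }, fun A => rfl⟩
  have hψinj : Function.Injective ψ := by
    intro A B hAB
    have h3 := congrArg Subtype.val hAB
    rw [hψ, hψ] at h3
    exact Units.ext (Matrix.fromBlocks_inj.1 h3).1
  have hle : ψ.range ≤ MulAction.stabilizer ↥(Matrix.symplecticGroup (Fin d) F) ω₀ := by
    rintro _ ⟨A, rfl⟩
    rw [MulAction.mem_stabilizer_iff, hsmul, hω₀]
    have hinj := sp_inj d (ψ A)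
    apply Prod.ext
    · show (LinearMap.range (ιl (F := F) d)).map (Matrix.toLin'
        ((ψ A : ↥(Matrix.symplecticGroup (Fin d) F)) : Matrix (Fin d ⊕ Fin d) (Fin d ⊕ Fin d) F))
        = LinearMap.range (ιl (F := F) d)
      apply Submodule.eq_of_le_of_finrank_eq
      · rintro _ ⟨_, ⟨a, rfl⟩, rfl⟩
        rw [Matrix.toLin'_apply, hψ, blk_l]
        exact ⟨_, rfl⟩
      · rw [finrank_map_inj _ hinj]
    · show (LinearMap.range (ιr (F := F) d)).map (Matrix.toLin'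
        ((ψ A : ↥(Matrix.symplecticGroup (Fin d) F)) : Matrix (Fin d ⊕ Fin d) (Fin d ⊕ Fin d) F))
        = LinearMap.range (ιr (F := F) d)
      apply Submodule.eq_of_le_of_finrank_eq
      · rintro _ ⟨_, ⟨a, rfl⟩, rfl⟩
        rw [Matrix.toLin'_apply, hψ, blk_r]
        exact ⟨_, rfl⟩
      · rw [finrank_map_inj _ hinj]
  have h1 : Nat.card (GL (Fin d) F)
      ∣ Nat.card (MulAction.stabilizer ↥(Matrix.symplecticGroup (Fin d) F) ω₀) := by
    rw [Nat.card_congr (MonoidHom.ofInjective hψinj).toEquiv]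
    exact Subgroup.card_dvd_of_le hle
  rw [hcard, ← Subgroup.index_mul_card
    (MulAction.stabilizer ↥(Matrix.symplecticGroup (Fin d) F) ω₀)]
  exact Nat.mul_dvd_mul_left _ h1

theorem card_pairs_even [Fintype F] (hd : 1 ≤ d) :
    2 ∣ Nat.card {P : Submodule F (Fin d ⊕ Fin d → F) × Submodule F (Fin d ⊕ Fin d → F) //
        IsCompl P.1 P.2 ∧ (∀ u ∈ P.1, ∀ v ∈ P.1, Cfsg.sympForm d F u v = 0) ∧
          (∀ u ∈ P.2, ∀ v ∈ P.2, Cfsg.sympForm d F u v = 0)} := by
  classical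
  haveI : Finite (Submodule F (Fin d ⊕ Fin d → F)) :=
    Finite.of_injective (fun W : Submodule F (Fin d ⊕ Fin d → F) => (W : Set (Fin d ⊕ Fin d → F)))
      SetLike.coe_injective
  haveI : Fintype {P : Submodule F (Fin d ⊕ Fin d → F) × Submodule F (Fin d ⊕ Fin d → F) //
        IsCompl P.1 P.2 ∧ (∀ u ∈ P.1, ∀ v ∈ P.1, Cfsg.sympForm d F u v = 0) ∧
          (∀ u ∈ P.2, ∀ v ∈ P.2, Cfsg.sympForm d F u v = 0)} := Fintype.ofFinite _
  obtain ⟨σ, hσ⟩ : ∃ σ : Function.End {P : Submodule F (Fin d ⊕ Fin d → F)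
        × Submodule F (Fin d ⊕ Fin d → F) //
        IsCompl P.1 P.2 ∧ (∀ u ∈ P.1, ∀ v ∈ P.1, Cfsg.sympForm d F u v = 0) ∧
          (∀ u ∈ P.2, ∀ v ∈ P.2, Cfsg.sympForm d F u v = 0)},
      ∀ P, ((σ P).1 : Submodule F (Fin d ⊕ Fin d → F) × Submodule F (Fin d ⊕ Fin d → F))
        = (P.1.2, P.1.1) :=
    ⟨fun P => ⟨(P.1.2, P.1.1), ⟨P.2.1.symm, P.2.2.2, P.2.2.1⟩⟩, fun P => rfl⟩
  have hσ2 : σ ^ 2 ^ 1 = 1 := by
    rw [pow_one, pow_two]
    funext P
    apply Subtype.ext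
    show (σ (σ P)).1 = P.1
    apply Prod.ext
    · rw [hσ, hσ]
    · rw [hσ, hσ]
  have h1' := Equiv.Perm.card_fixedPoints_modEq (p := 2) (n := 1) hσ2
  haveI hempty : IsEmpty ↥(Function.fixedPoints σ) := by
    constructor
    rintro ⟨P, hP⟩
    have h2 : σ P = P := hP
    have h3 := congrArg Subtype.val h2
    rw [hσ] at h3
    have h4 : P.1.2 = P.1.1 := congrArg Prod.fst h3
    have hc := P.2.1
    rw [h4] at hc
    have hbot : P.1.1 = ⊥ := disjoint_self.1 hc.disjoint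
    have htop : P.1.1 = ⊤ := codisjoint_self.1 hc.codisjoint
    have hmem : (Pi.single (Sum.inl ⟨0, hd⟩) 1 : Fin d ⊕ Fin d → F) ∈ P.1.1 := by
      rw [htop]
      exact Submodule.mem_top
    rw [hbot, Submodule.mem_bot] at hmem
    have h5 := congrFun hmem (Sum.inl ⟨0, hd⟩)
    rw [Pi.single_eq_same, Pi.zero_apply] at h5
    exact one_ne_zero h5
  have h1 : Nat.card {P : Submodule F (Fin d ⊕ Fin d → F) × Submodule F (Fin d ⊕ Fin d → F) //
        IsCompl P.1 P.2 ∧ (∀ u ∈ P.1, ∀ v ∈ P.1, Cfsg.sympForm d F u v = 0) ∧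
          (∀ u ∈ P.2, ∀ v ∈ P.2, Cfsg.sympForm d F u v = 0)}
      ≡ Nat.card ↥(Function.fixedPoints σ) [MOD 2] := by
    rw [Nat.card_eq_fintype_card, Nat.card_eq_fintype_card]
    convert h1'
  have h0 : Nat.card ↥(Function.fixedPoints σ) = 0 := Nat.card_of_isEmpty
  rw [h0] at h1
  exact (Nat.modEq_zero_iff_dvd).1 h1

theorem exists_plus [Fintype F] {p : ℕ} [Fact p.Prime] [CharP F p] {q : ℕ}
    (hq : Fintype.card F = q) (N : ℕ) (r : ℕ) [Fact r.Prime] (hrp : r ≠ p) (hN : r ∣ N)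
    (hdvd : N * Nat.card (GL (Fin d) F) ∣ Nat.card ↥(Matrix.symplecticGroup (Fin d) F)) :
    ∃ k, k < d ∧ r ∣ q ^ (k + 1) + 1 := by
  classical
  have hr : r.Prime := Fact.out
  have hp : p.Prime := Fact.out
  have hq1 : 1 < q := by
    rw [← hq]
    exact Fintype.one_lt_card
  have h7 : r * Nat.card (GL (Fin d) F) ∣ Nat.card ↥(Matrix.symplecticGroup (Fin d) F) :=
    dvd_trans (Nat.mul_dvd_mul_right hN _) hdvd
  rw [Cfsg.Agent.S0245.result hq d, Matrix.card_GL_field, hq] at h7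
  obtain ⟨P, hP⟩ : ∃ P : ℕ, P = ∏ i ∈ Finset.range d, (q ^ (i + 1) - 1) := ⟨_, rfl⟩
  obtain ⟨Pp, hPp⟩ : ∃ Pp : ℕ, Pp = ∏ i ∈ Finset.range d, (q ^ (i + 1) + 1) := ⟨_, rfl⟩
  obtain ⟨Q, hQ⟩ : ∃ Q : ℕ, Q = ∏ i ∈ Finset.range d, q ^ i := ⟨_, rfl⟩
  have hPpos : 0 < P := by
    rw [hP]
    apply Finset.prod_pos
    intro i _
    have h8 : 1 < q ^ (i + 1) := Nat.one_lt_pow (by omega) hq1
    omega
  have hGL : ∏ i : Fin d, (q ^ d - q ^ (i : ℕ)) = Q * P := by
    rw [Fin.prod_univ_eq_prod_range (fun i => q ^ d - q ^ i) d]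
    have h8 : ∀ i ∈ Finset.range d, q ^ d - q ^ i = q ^ i * (q ^ (d - 1 - i + 1) - 1) := by
      intro i hi
      rw [Finset.mem_range] at hi
      rw [Nat.mul_sub, mul_one, ← pow_add]
      congr 2
      omega
    have hrefl := Finset.prod_range_reflect (fun k => q ^ (k + 1) - 1) d
    rw [Finset.prod_congr rfl h8, Finset.prod_mul_distrib, ← hQ, hP]
    exact congrArg (fun z => Q * z) hrefl
  have hSp : ∏ i ∈ Finset.range d, (q ^ (2 * (i + 1)) - 1) = P * Pp := by
    rw [hP, hPp, ← Finset.prod_mul_distrib]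
    apply Finset.prod_congr rfl
    intro i _
    have h8 : 1 ≤ q ^ (i + 1) := Nat.one_le_pow _ _ (by omega)
    obtain ⟨t, ht⟩ : ∃ t, q ^ (i + 1) = t + 1 := ⟨q ^ (i + 1) - 1, by omega⟩
    rw [show 2 * (i + 1) = (i + 1) + (i + 1) from by ring, pow_add, ht]
    have h9 : (t + 1) * (t + 1) = t * (t + 1 + 1) + 1 := by ring
    rw [h9, Nat.add_sub_cancel, Nat.add_sub_cancel]
  rw [hGL, hSp] at h7
  have h9 : r * Q * P ∣ q ^ d ^ 2 * Pp * P := by
    have e1 : r * (Q * P) = r * Q * P := by ring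
    have e2 : q ^ d ^ 2 * (P * Pp) = q ^ d ^ 2 * Pp * P := by ring
    rw [← e1, ← e2]
    exact h7
  have h10 : r * Q ∣ q ^ d ^ 2 * Pp := Nat.dvd_of_mul_dvd_mul_right hPpos h9
  have h11 : r ∣ q ^ d ^ 2 * Pp := dvd_trans (Dvd.intro _ rfl) h10
  have hrq' : ¬ r ∣ q := by
    intro h
    obtain ⟨k, hpk, hk⟩ := FiniteField.card F p
    rw [hq] at hk
    rw [hk] at h
    exact hrp ((Nat.prime_dvd_prime_iff_eq hr hp).1 (hr.dvd_of_dvd_pow h))
  rcases hr.dvd_mul.1 h11 with h | h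
  · exact absurd (hr.dvd_of_dvd_pow h) hrq'
  · rw [hPp, hr.prime.dvd_finsetProd_iff] at h
    obtain ⟨j, hj, hj'⟩ := h
    exact ⟨j, Finset.mem_range.1 hj, hj'⟩

end counting

section transportsec

open Matrix

variable {F : Type u} [Field F]

/-- transport of an isometry of an abstract nondegenerate alternating space of dimension `2d`
to the standard symplectic group -/
theorem transport (d : ℕ) {V' : Type u} [AddCommGroup V'] [Module F V'] [FiniteDimensional F V']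
    (B' : LinearMap.BilinForm F V') (hfr : Module.finrank F V' = 2 * d)
    (halt : ∀ x, B' x x = 0) (hnd : ∀ x, (∀ y, B' x y = 0) → x = 0)
    (T' : V' →ₗ[F] V') (hT' : ∀ x y, B' (T' x) (T' y) = B' x y) (r : ℕ)
    (hr : ∀ y, (⇑T')^[r] y = y) (K' : Submodule F V') (hK' : ∀ y, y ∈ K' ↔ T' y = y) :
    ∃ x : ↥(Matrix.symplecticGroup (Fin d) F),
      (x : Matrix (Fin d ⊕ Fin d) (Fin d ⊕ Fin d) F) ^ r = 1 ∧
      ∃ K : Submodule F (Fin d ⊕ Fin d → F),
        (∀ v, v ∈ K ↔ (x : Matrix (Fin d ⊕ Fin d) (Fin d ⊕ Fin d) F) *ᵥ v = v) ∧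
        Module.finrank F ↥K = Module.finrank F ↥K' := by
  classical
  have hfrV : Module.finrank F (Fin d ⊕ Fin d → F) = 2 * d := by
    rw [Module.finrank_fintype_fun_eq_card, Fintype.card_sum, Fintype.card_fin]
    ring
  obtain ⟨Φ, hΦ⟩ := Cfsg.Agent.Lib.Helper15.SpD.darboux (K := F) (2 * d) V' (Fin d ⊕ Fin d → F)
    B' (S0768.BJ (F := F) d) hfr hfrV halt (S0768.BJ_alt d) hnd (fun x hx => by
      by_contra h0
      obtain ⟨y, hy⟩ := S0766.form_nondeg d x h0
      exact hy (by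
        rw [← S0768.BJ_apply]
        exact hx y))
  have hΦinj : Function.Injective Φ := by
    rw [injective_iff_map_eq_zero]
    intro x hx
    apply hnd
    intro y
    rw [← hΦ, hx, map_zero, LinearMap.zero_apply]
  obtain ⟨E, hE⟩ : ∃ E : V' ≃ₗ[F] (Fin d ⊕ Fin d → F), ∀ x, E x = Φ x :=
    ⟨LinearMap.linearEquivOfInjective Φ hΦinj (hfr.trans hfrV.symm), fun x => rfl⟩
  obtain ⟨X, hX⟩ : ∃ X : (Fin d ⊕ Fin d → F) →ₗ[F] (Fin d ⊕ Fin d → F),
      ∀ y, X (E y) = E (T' y) :=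
    ⟨(E : V' →ₗ[F] (Fin d ⊕ Fin d → F)) ∘ₗ T' ∘ₗ (E.symm : (Fin d ⊕ Fin d → F) →ₗ[F] V'),
      fun y => by
        show E (T' (E.symm (E y))) = E (T' y)
        rw [E.symm_apply_apply]⟩
  have hXpres : ∀ u v, Cfsg.sympForm d F (X u) (X v) = Cfsg.sympForm d F u v := by
    intro u v
    obtain ⟨a, rfl⟩ := E.surjective u
    obtain ⟨b, rfl⟩ := E.surjective v
    rw [hX, hX, hE, hE, hE, hE, ← S0768.BJ_apply, ← S0768.BJ_apply, hΦ, hΦ, hT']
  obtain ⟨xM, hxM⟩ : ∃ xM : Matrix (Fin d ⊕ Fin d) (Fin d ⊕ Fin d) F,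
      xM = LinearMap.toMatrix' X := ⟨_, rfl⟩
  have hxv : ∀ v, xM *ᵥ v = X v := by
    intro v
    rw [hxM, LinearMap.toMatrix'_mulVec]
  have hxsp : xM ∈ Matrix.symplecticGroup (Fin d) F := by
    apply mem_sp_of_pres
    intro u v
    rw [hxv, hxv]
    exact hXpres u v
  have hiterX : ∀ (j : ℕ) (y : V'), (xM ^ j) *ᵥ (E y) = E ((⇑T')^[j] y) := by
    intro j
    induction j with
    | zero =>
      intro y
      rw [pow_zero, Matrix.one_mulVec, Function.iterate_zero, id_eq]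
    | succ j ih =>
      intro y
      rw [pow_succ', ← Matrix.mulVec_mulVec, ih, hxv, hX, Function.iterate_succ_apply']
  refine ⟨⟨xM, hxsp⟩, ?_, K'.map (E : V' →ₗ[F] (Fin d ⊕ Fin d → F)), ?_, ?_⟩
  · show xM ^ r = 1
    apply Matrix.toLin'.injective
    apply LinearMap.ext
    intro v
    obtain ⟨y, rfl⟩ := E.surjective v
    rw [Matrix.toLin'_apply, hiterX, hr, Matrix.toLin'_one, LinearMap.id_apply]
  · intro v
    obtain ⟨y, rfl⟩ := E.surjective v
    show E y ∈ K'.map (E : V' →ₗ[F] (Fin d ⊕ Fin d → F)) ↔ xM *ᵥ (E y) = E y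
    rw [hxv, hX]
    constructor
    · rintro ⟨y', hy', hyy⟩
      have h1 : y' = y := E.injective hyy
      rw [h1] at hy'
      rw [(hK' y).1 hy']
    · intro h
      have h1 : T' y = y := E.injective h
      exact ⟨y, (hK' y).2 h1, rfl⟩
  · exact finrank_map_inj' (E : V' →ₗ[F] (Fin d ⊕ Fin d → F)) E.injective K'

end transportsec

section eltsec

open Matrix

variable {F : Type u} [Field F] [Fintype F]

theorem exists_elt {q : ℕ} (hq : Fintype.card F = q) (d : ℕ) (r : ℕ) [Fact r.Prime]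
    (e i' : ℕ) (he : e = orderOf (q : ZMod r)) (hei : e = 2 * i') (hi1 : 1 ≤ i') (hid : i' ≤ d) :
    ∃ x : ↥(Matrix.symplecticGroup (Fin d) F),
      (x : Matrix (Fin d ⊕ Fin d) (Fin d ⊕ Fin d) F) ^ r = 1 ∧
      ∃ K : Submodule F (Fin d ⊕ Fin d → F),
        (∀ v, v ∈ K ↔ (x : Matrix (Fin d ⊕ Fin d) (Fin d ⊕ Fin d) F) *ᵥ v = v) ∧
        Module.finrank F ↥K = 2 * d - e := by
  classical
  have hr : r.Prime := Fact.out
  have hq1 : 1 < q := by
    rw [← hq]
    exact Fintype.one_lt_card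
  have hqe : ((q : ℕ) : ZMod r) ^ e = 1 := by
    rw [he]
    exact pow_orderOf_eq_one _
  have hrdvd : r ∣ q ^ e - 1 := by
    have h2 : ((q ^ e : ℕ) : ZMod r) = ((1 : ℕ) : ZMod r) := by
      push_cast
      exact hqe
    rw [ZMod.natCast_eq_natCast_iff] at h2
    exact (Nat.modEq_iff_dvd' (Nat.one_le_pow _ _ (by omega))).1 h2.symm
  have hcardSp : r ∣ Nat.card ↥(Matrix.symplecticGroup (Fin i') F) := by
    rw [Cfsg.Agent.S0245.result hq i']
    apply Dvd.dvd.mul_left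
    have hmem : i' - 1 ∈ Finset.range i' := Finset.mem_range.2 (by omega)
    refine dvd_trans ?_ (Finset.dvd_prod_of_mem (fun i => q ^ (2 * (i + 1)) - 1) hmem)
    show r ∣ q ^ (2 * (i' - 1 + 1)) - 1
    rw [show 2 * (i' - 1 + 1) = e from by omega]
    exact hrdvd
  obtain ⟨g, hg⟩ := exists_prime_orderOf_dvd_card'
    (G := ↥(Matrix.symplecticGroup (Fin i') F)) r hcardSp
  have hgr : (g : Matrix (Fin i' ⊕ Fin i') (Fin i' ⊕ Fin i') F) ^ r = 1 := by
    have h2 := pow_orderOf_eq_one g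
    rw [hg] at h2
    have h3 := congrArg Subtype.val h2
    rw [SubmonoidClass.coe_pow] at h3
    exact h3
  have hg1 : (g : Matrix (Fin i' ⊕ Fin i') (Fin i' ⊕ Fin i') F) ≠ 1 := by
    intro h
    have h2 : g = 1 := Subtype.ext h
    rw [h2, orderOf_one] at hg
    have h3 := hr.two_le
    omega
  obtain ⟨Wg, hWg⟩ : ∃ Wg : Submodule F (Fin i' ⊕ Fin i' → F), ∀ v, v ∈ Wg ↔
      Matrix.toLin' (g : Matrix (Fin i' ⊕ Fin i') (Fin i' ⊕ Fin i') F) v = v :=
    ⟨LinearMap.ker (Matrix.toLin' (g : Matrix (Fin i' ⊕ Fin i') (Fin i' ⊕ Fin i') F) - 1),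
      fun v => by
        rw [LinearMap.mem_ker, LinearMap.sub_apply, Module.End.one_apply, sub_eq_zero]⟩
  have horb := orbL q hq (Matrix.toLin' (g : Matrix (Fin i' ⊕ Fin i') (Fin i' ⊕ Fin i') F))
    (fun v => by rw [iter_toLin', hgr, Matrix.one_mulVec]) ⊤ (fun u _ => Submodule.mem_top)
    Wg hWg
  rw [top_inf_eq, finrank_top, Module.finrank_fintype_fun_eq_card, Fintype.card_sum,
    Fintype.card_fin] at horb
  have hdle : Module.finrank F ↥Wg ≤ i' + i' := by
    have h2 := Submodule.finrank_le Wg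
    rwa [Module.finrank_fintype_fun_eq_card, Fintype.card_sum, Fintype.card_fin] at h2
  have hdvd := arith2 q e he (by omega) _ _ hdle horb
  have hWg0 : Module.finrank F ↥Wg = 0 := by
    by_contra hne
    obtain ⟨c, hc⟩ := hdvd
    have hc0 : c = 0 := by
      rcases Nat.eq_zero_or_pos c with h | h
      · exact h
      · exfalso
        have h5 : e ≤ e * c := Nat.le_mul_of_pos_right _ h
        omega
    rw [hc0, mul_zero] at hc
    have heq : Module.finrank F ↥Wg = Module.finrank F (Fin i' ⊕ Fin i' → F) := by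
      rw [Module.finrank_fintype_fun_eq_card, Fintype.card_sum, Fintype.card_fin]
      omega
    have hWtop : Wg = ⊤ := Submodule.eq_top_of_finrank_eq heq
    apply hg1
    apply Matrix.toLin'.injective
    apply LinearMap.ext
    intro u
    rw [Matrix.toLin'_one, LinearMap.id_apply]
    exact (hWg u).1 (by
      rw [hWtop]
      exact Submodule.mem_top)
  have hgfix : ∀ a : Fin i' ⊕ Fin i' → F,
      (g : Matrix (Fin i' ⊕ Fin i') (Fin i' ⊕ Fin i') F) *ᵥ a = a → a = 0 := by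
    intro a ha
    have hWbot : Wg = ⊥ := Submodule.finrank_eq_zero.1 hWg0
    have haW : a ∈ Wg := (hWg a).2 (by
      rw [Matrix.toLin'_apply]
      exact ha)
    rw [hWbot] at haW
    exact (Submodule.mem_bot F).1 haW
  obtain ⟨B', hB'⟩ : ∃ B' : LinearMap.BilinForm F
      ((Fin i' ⊕ Fin i' → F) × (Fin (d - i') ⊕ Fin (d - i') → F)),
      ∀ x y, B' x y = Cfsg.sympForm i' F x.1 y.1 + Cfsg.sympForm (d - i') F x.2 y.2 :=
    ⟨(S0768.BJ (F := F) i').compl₁₂ (LinearMap.fst F _ _) (LinearMap.fst F _ _)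
      + (S0768.BJ (F := F) (d - i')).compl₁₂ (LinearMap.snd F _ _) (LinearMap.snd F _ _),
      fun x y => by
        rw [LinearMap.add_apply, LinearMap.add_apply, LinearMap.compl₁₂_apply,
          LinearMap.compl₁₂_apply, S0768.BJ_apply, S0768.BJ_apply]
        rfl⟩
  obtain ⟨T', hT'⟩ : ∃ T' : ((Fin i' ⊕ Fin i' → F) × (Fin (d - i') ⊕ Fin (d - i') → F))
      →ₗ[F] ((Fin i' ⊕ Fin i' → F) × (Fin (d - i') ⊕ Fin (d - i') → F)),
      ∀ y, T' y = ((g : Matrix (Fin i' ⊕ Fin i') (Fin i' ⊕ Fin i') F) *ᵥ y.1, y.2) :=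
    ⟨LinearMap.prodMap (Matrix.toLin' (g : Matrix (Fin i' ⊕ Fin i') (Fin i' ⊕ Fin i') F))
      LinearMap.id, fun y => rfl⟩
  have hfr : Module.finrank F ((Fin i' ⊕ Fin i' → F) × (Fin (d - i') ⊕ Fin (d - i') → F))
      = 2 * d := by
    rw [Module.finrank_prod, Module.finrank_fintype_fun_eq_card,
      Module.finrank_fintype_fun_eq_card, Fintype.card_sum, Fintype.card_sum, Fintype.card_fin,
      Fintype.card_fin]
    omega
  have halt : ∀ x, B' x x = 0 := by
    intro x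
    rw [hB', S0766.form_self, S0766.form_self, add_zero]
  have hnd : ∀ x, (∀ y, B' x y = 0) → x = 0 := by
    intro x hx
    have hx1 : x.1 = 0 := by
      by_contra h0
      obtain ⟨y, hy⟩ := S0766.form_nondeg i' x.1 h0
      apply hy
      have h2 := hx (y, 0)
      rw [hB', form_zero_right, add_zero] at h2
      exact h2
    have hx2 : x.2 = 0 := by
      by_contra h0
      obtain ⟨y, hy⟩ := S0766.form_nondeg (d - i') x.2 h0
      apply hy
      have h2 := hx (0, y)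
      rw [hB', form_zero_right, zero_add] at h2
      exact h2
    exact Prod.ext hx1 hx2
  have hTpres : ∀ x y, B' (T' x) (T' y) = B' x y := by
    intro x y
    rw [hB', hB', hT', hT']
    show Cfsg.sympForm i' F ((g : Matrix (Fin i' ⊕ Fin i') (Fin i' ⊕ Fin i') F) *ᵥ x.1)
      ((g : Matrix (Fin i' ⊕ Fin i') (Fin i' ⊕ Fin i') F) *ᵥ y.1)
      + Cfsg.sympForm (d - i') F x.2 y.2 = _
    rw [S0766.form_pres i' g]
  have hiter : ∀ (j : ℕ) (y : (Fin i' ⊕ Fin i' → F) × (Fin (d - i') ⊕ Fin (d - i') → F)),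
      (⇑T')^[j] y
        = ((g : Matrix (Fin i' ⊕ Fin i') (Fin i' ⊕ Fin i') F) ^ j *ᵥ y.1, y.2) := by
    intro j
    induction j with
    | zero =>
      intro y
      rw [Function.iterate_zero, id_eq, pow_zero, Matrix.one_mulVec]
    | succ j ih =>
      intro y
      rw [Function.iterate_succ_apply', ih, hT', pow_succ', ← Matrix.mulVec_mulVec]
  have hTr : ∀ y, (⇑T')^[r] y = y := by
    intro y
    rw [hiter, hgr, Matrix.one_mulVec]
  obtain ⟨K', hK'⟩ : ∃ K' : Submodule F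
      ((Fin i' ⊕ Fin i' → F) × (Fin (d - i') ⊕ Fin (d - i') → F)),
      K' = LinearMap.range (LinearMap.inr F (Fin i' ⊕ Fin i' → F)
        (Fin (d - i') ⊕ Fin (d - i') → F)) := ⟨_, rfl⟩
  have hK'fix : ∀ y, y ∈ K' ↔ T' y = y := by
    intro y
    rw [hK', hT']
    constructor
    · rintro ⟨b, rfl⟩
      show ((g : Matrix (Fin i' ⊕ Fin i') (Fin i' ⊕ Fin i') F) *ᵥ (0 : Fin i' ⊕ Fin i' → F), b)
        = ((0 : Fin i' ⊕ Fin i' → F), b)
      rw [Matrix.mulVec_zero]
    · intro h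
      have h1 : (g : Matrix (Fin i' ⊕ Fin i') (Fin i' ⊕ Fin i') F) *ᵥ y.1 = y.1 :=
        congrArg Prod.fst h
      have h2 := hgfix y.1 h1
      exact ⟨y.2, Prod.ext h2.symm rfl⟩
  have hK'dim : Module.finrank F ↥K' = 2 * d - e := by
    rw [hK', LinearMap.finrank_range_of_inj LinearMap.inr_injective,
      Module.finrank_fintype_fun_eq_card, Fintype.card_sum, Fintype.card_fin]
    omega
  obtain ⟨x, hxr, K, hK, hKdim⟩ := transport d B' hfr halt hnd T' hTpres r hTr K' hK'fix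
  exact ⟨x, hxr, K, hK, by rw [hKdim, hK'dim]⟩

end eltsec

section derange

open Matrix

variable {F : Type*} [Field F]

theorem fix_all (d : ℕ) (x : ↥(Matrix.symplecticGroup (Fin d) F))
    (U W : Submodule F (Fin d ⊕ Fin d → F)) (hsup : U ⊔ W = ⊤)
    (hU : ∀ u ∈ U, ∀ v ∈ U, Cfsg.sympForm d F u v = 0)
    (hxU : ∀ u ∈ U, (x : Matrix (Fin d ⊕ Fin d) (Fin d ⊕ Fin d) F) *ᵥ u ∈ U)
    (hxW : ∀ w ∈ W, (x : Matrix (Fin d ⊕ Fin d) (Fin d ⊕ Fin d) F) *ᵥ w = w) :
    ∀ v, (x : Matrix (Fin d ⊕ Fin d) (Fin d ⊕ Fin d) F) *ᵥ v = v := by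
  have hUfix : ∀ u ∈ U, (x : Matrix (Fin d ⊕ Fin d) (Fin d ⊕ Fin d) F) *ᵥ u = u := by
    intro u hu
    by_contra hne
    have hy0 : (x : Matrix (Fin d ⊕ Fin d) (Fin d ⊕ Fin d) F) *ᵥ u - u ≠ 0 := sub_ne_zero.2 hne
    obtain ⟨y, hy⟩ := S0766.form_nondeg d _ hy0
    apply hy
    have hy' : y ∈ U ⊔ W := by
      rw [hsup]
      exact Submodule.mem_top
    obtain ⟨u', hu', w, hw, rfl⟩ := Submodule.mem_sup.1 hy'
    rw [S0766.form_add_right, hU _ (U.sub_mem (hxU u hu) hu) u' hu', zero_add]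
    have h1 : Cfsg.sympForm d F ((x : Matrix (Fin d ⊕ Fin d) (Fin d ⊕ Fin d) F) *ᵥ u) w
        = Cfsg.sympForm d F u w := by
      have h2 := S0766.form_pres d x u w
      rw [hxW w hw] at h2
      exact h2
    rw [S0766.form_swap, S0766.form_sub_right, S0766.form_swap d w, S0766.form_swap d w u, h1]
    ring
  intro v
  have hv' : v ∈ U ⊔ W := by
    rw [hsup]
    exact Submodule.mem_top
  obtain ⟨u, hu, w, hw, rfl⟩ := Submodule.mem_sup.1 hv'
  rw [Matrix.mulVec_add, hUfix u hu, hxW w hw]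

theorem no_pair [Fintype F] {q : ℕ} (hq : Fintype.card F = q) (d : ℕ) (hd : 1 ≤ d)
    (r : ℕ) [Fact r.Prime] (hr2 : r ≠ 2) (e : ℕ) (he : e = orderOf (q : ZMod r)) (he1 : 1 ≤ e)
    (he2d : e ≤ 2 * d) (x : ↥(Matrix.symplecticGroup (Fin d) F))
    (hxr : (x : Matrix (Fin d ⊕ Fin d) (Fin d ⊕ Fin d) F) ^ r = 1)
    (K : Submodule F (Fin d ⊕ Fin d → F))
    (hK : ∀ v, v ∈ K ↔ (x : Matrix (Fin d ⊕ Fin d) (Fin d ⊕ Fin d) F) *ᵥ v = v)
    (hKdim : Module.finrank F ↥K = 2 * d - e) :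
    ¬ (∃ U W : Submodule F (Fin d ⊕ Fin d → F), IsCompl U W ∧ (∀ u ∈ U, ∀ v ∈ U, Cfsg.sympForm d F u v = 0) ∧ (∀ u ∈ W, ∀ v ∈ W, Cfsg.sympForm d F u v = 0) ∧
        ((U.map (Matrix.toLin' (x : Matrix (Fin d ⊕ Fin d) (Fin d ⊕ Fin d) F)) = U ∧ W.map (Matrix.toLin' (x : Matrix (Fin d ⊕ Fin d) (Fin d ⊕ Fin d) F)) = W) ∨
         (U.map (Matrix.toLin' (x : Matrix (Fin d ⊕ Fin d) (Fin d ⊕ Fin d) F)) = W ∧ W.map (Matrix.toLin' (x : Matrix (Fin d ⊕ Fin d) (Fin d ⊕ Fin d) F)) = U))) := by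
  classical
  rintro ⟨U, W, hc, hU, hW, hcase⟩
  have hr : r.Prime := Fact.out
  rcases hcase with ⟨hxU, hxW⟩ | ⟨hxU, hxW⟩
  · have hxU' : ∀ u ∈ U, (x : Matrix (Fin d ⊕ Fin d) (Fin d ⊕ Fin d) F) *ᵥ u ∈ U := by
      intro u hu
      have h1 : Matrix.toLin' (x : Matrix (Fin d ⊕ Fin d) (Fin d ⊕ Fin d) F) u
          ∈ U.map (Matrix.toLin' (x : Matrix (Fin d ⊕ Fin d) (Fin d ⊕ Fin d) F)) :=
        Submodule.mem_map_of_mem hu
      rw [hxU, Matrix.toLin'_apply] at h1
      exact h1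
    have hxW' : ∀ w ∈ W, (x : Matrix (Fin d ⊕ Fin d) (Fin d ⊕ Fin d) F) *ᵥ w ∈ W := by
      intro w hw
      have h1 : Matrix.toLin' (x : Matrix (Fin d ⊕ Fin d) (Fin d ⊕ Fin d) F) w
          ∈ W.map (Matrix.toLin' (x : Matrix (Fin d ⊕ Fin d) (Fin d ⊕ Fin d) F)) :=
        Submodule.mem_map_of_mem hw
      rw [hxW, Matrix.toLin'_apply] at h1
      exact h1
    have hK' : ∀ v, v ∈ K ↔
        Matrix.toLin' (x : Matrix (Fin d ⊕ Fin d) (Fin d ⊕ Fin d) F) v = v := by
      intro v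
      rw [Matrix.toLin'_apply]
      exact hK v
    have hT : ∀ v, (⇑(Matrix.toLin' (x : Matrix (Fin d ⊕ Fin d) (Fin d ⊕ Fin d) F)))^[r] v
        = v := by
      intro v
      rw [iter_toLin', hxr, Matrix.one_mulVec]
    have horbU := orbL q hq (Matrix.toLin' (x : Matrix (Fin d ⊕ Fin d) (Fin d ⊕ Fin d) F)) hT U
      (fun u hu => by
        rw [Matrix.toLin'_apply]
        exact hxU' u hu) K hK'
    have horbW := orbL q hq (Matrix.toLin' (x : Matrix (Fin d ⊕ Fin d) (Fin d ⊕ Fin d) F)) hT W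
      (fun u hu => by
        rw [Matrix.toLin'_apply]
        exact hxW' u hu) K hK'
    have hleU : Module.finrank F ↥(U ⊓ K : Submodule F (Fin d ⊕ Fin d → F))
        ≤ Module.finrank F ↥U := Submodule.finrank_mono inf_le_left
    have hleW : Module.finrank F ↥(W ⊓ K : Submodule F (Fin d ⊕ Fin d → F))
        ≤ Module.finrank F ↥W := Submodule.finrank_mono inf_le_left
    have hdU := arith2 q e he he1 _ _ hleU horbU
    have hdW := arith2 q e he he1 _ _ hleW horbW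
    have hsum := Submodule.finrank_add_eq_of_isCompl hc
    rw [Module.finrank_fintype_fun_eq_card, Fintype.card_sum, Fintype.card_fin] at hsum
    have hKsup : (U ⊓ K) ⊔ (W ⊓ K) = K := by
      apply le_antisymm (sup_le inf_le_right inf_le_right)
      intro k hk
      have hk' : k ∈ U ⊔ W := by
        rw [hc.sup_eq_top]
        exact Submodule.mem_top
      obtain ⟨u, hu, w, hw, rfl⟩ := Submodule.mem_sup.1 hk'
      have h1 := (hK _).1 hk
      rw [Matrix.mulVec_add] at h1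
      have h2 : (x : Matrix (Fin d ⊕ Fin d) (Fin d ⊕ Fin d) F) *ᵥ u - u
          = w - (x : Matrix (Fin d ⊕ Fin d) (Fin d ⊕ Fin d) F) *ᵥ w := by
        rw [sub_eq_sub_iff_add_eq_add, h1, add_comm]
      have h3 : (x : Matrix (Fin d ⊕ Fin d) (Fin d ⊕ Fin d) F) *ᵥ u - u ∈ U ⊓ W :=
        ⟨U.sub_mem (hxU' u hu) hu, by
          rw [h2]
          exact W.sub_mem hw (hxW' w hw)⟩
      rw [hc.inf_eq_bot] at h3
      have h4 : (x : Matrix (Fin d ⊕ Fin d) (Fin d ⊕ Fin d) F) *ᵥ u = u :=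
        sub_eq_zero.1 ((Submodule.mem_bot F).1 h3)
      have h5 : (x : Matrix (Fin d ⊕ Fin d) (Fin d ⊕ Fin d) F) *ᵥ w = w := by
        rw [h4] at h1
        exact add_left_cancel h1
      exact Submodule.add_mem_sup ⟨hu, (hK u).2 h4⟩ ⟨hw, (hK w).2 h5⟩
    have hKinf : (U ⊓ K) ⊓ (W ⊓ K) = ⊥ := by
      rw [eq_bot_iff]
      intro v hv
      have h1 : v ∈ U ⊓ W := ⟨hv.1.1, hv.2.1⟩
      rw [hc.inf_eq_bot] at h1
      exact h1
    have hdimK := Submodule.finrank_sup_add_finrank_inf_eq (U ⊓ K) (W ⊓ K)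
    rw [hKsup, hKinf, finrank_bot, add_zero, hKdim] at hdimK
    obtain ⟨c₁, hc₁⟩ := hdU
    obtain ⟨c₂, hc₂⟩ := hdW
    have hcc : e * (c₁ + c₂) = e * 1 := by
      rw [mul_add, ← hc₁, ← hc₂, mul_one]
      omega
    have hcc' : c₁ + c₂ = 1 := Nat.eq_of_mul_eq_mul_left he1 hcc
    have hall : ∀ v, (x : Matrix (Fin d ⊕ Fin d) (Fin d ⊕ Fin d) F) *ᵥ v = v := by
      rcases Nat.eq_zero_or_pos c₂ with h0 | hpos
      · rw [h0, mul_zero] at hc₂
        have heq : Module.finrank F ↥(W ⊓ K : Submodule F (Fin d ⊕ Fin d → F))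
            = Module.finrank F ↥W := by omega
        have hWK : W ⊓ K = W := Submodule.eq_of_le_of_finrank_eq inf_le_left heq
        have hWfix : ∀ w ∈ W, (x : Matrix (Fin d ⊕ Fin d) (Fin d ⊕ Fin d) F) *ᵥ w = w := by
          intro w hw
          have h1 : w ∈ W ⊓ K := by
            rw [hWK]
            exact hw
          exact (hK w).1 h1.2
        exact fix_all d x U W hc.sup_eq_top hU hxU' hWfix
      · have h0 : c₁ = 0 := by omega
        rw [h0, mul_zero] at hc₁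
        have heq : Module.finrank F ↥(U ⊓ K : Submodule F (Fin d ⊕ Fin d → F))
            = Module.finrank F ↥U := by omega
        have hUK : U ⊓ K = U := Submodule.eq_of_le_of_finrank_eq inf_le_left heq
        have hUfix : ∀ w ∈ U, (x : Matrix (Fin d ⊕ Fin d) (Fin d ⊕ Fin d) F) *ᵥ w = w := by
          intro w hw
          have h1 : w ∈ U ⊓ K := by
            rw [hUK]
            exact hw
          exact (hK w).1 h1.2
        exact fix_all d x W U (by
          rw [sup_comm]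
          exact hc.sup_eq_top) hW hxW' hUfix
    have hKtop : K = ⊤ := by
      rw [eq_top_iff]
      intro v _
      exact (hK v).2 (hall v)
    rw [hKtop, finrank_top, Module.finrank_fintype_fun_eq_card, Fintype.card_sum,
      Fintype.card_fin] at hKdim
    omega
  · obtain ⟨t, ht⟩ : ∃ t, r = 2 * t + 1 := by
      rcases hr.eq_two_or_odd with h | h
      · exact absurd h hr2
      · exact ⟨r / 2, by omega⟩
    have hstep : ∀ j : ℕ, U.map (Matrix.toLin'
        ((x : Matrix (Fin d ⊕ Fin d) (Fin d ⊕ Fin d) F) ^ (2 * j + 1))) = W := by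
      intro j
      induction j with
      | zero =>
        rw [mul_zero, zero_add, pow_one]
        exact hxU
      | succ j ih =>
        rw [show 2 * (j + 1) + 1 = (2 * j + 1) + 1 + 1 from by ring, pow_succ', pow_succ',
          Matrix.toLin'_mul, Matrix.toLin'_mul, Submodule.map_comp, Submodule.map_comp, ih, hxW,
          hxU]
    have h1 := hstep t
    rw [← ht, hxr, Matrix.toLin'_one, Submodule.map_id] at h1
    have hUbot : U = ⊥ := by
      have h2 := hc.disjoint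
      rw [← h1] at h2
      exact disjoint_self.1 h2
    have hUtop : U = ⊤ := by
      have h2 := hc.codisjoint
      rw [← h1] at h2
      exact codisjoint_self.1 h2
    have hmem : (Pi.single (Sum.inl ⟨0, hd⟩) 1 : Fin d ⊕ Fin d → F) ∈ U := by
      rw [hUtop]
      exact Submodule.mem_top
    rw [hUbot, Submodule.mem_bot] at hmem
    have h2 := congrFun hmem (Sum.inl ⟨0, hd⟩)
    rw [Pi.single_eq_same, Pi.zero_apply] at h2
    exact one_ne_zero h2

end derange

/-- Derangements of odd prime order of PSp_n(q), q odd, on pairs of complementary totally isotropic subspaces. Here `T = PSp_n(q)`, `n = 2d ≥ 4`, `q` odd, realised through the symplectic matrices over the field `F` with `q` elements; Ω is the set of unordered pairs `{U, W}` of complementary totally isotropic `d`-spaces (`F^n = U ⊕ W`), whose stabilizers are the subgroups of type GL_d(q).2 (maximal except in some small cases; maximality is not assumed); an element of `T`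 of prime order `r` (a symplectic matrix `x` with `x^r` scalar, `x` not scalar) fixes such a pair when it fixes or interchanges `U` and `W`. For every odd prime `r ≠ p` dividing the number of such pairs, some element of `T` of order `r` fixes no such pair (the action is never `r`-elusive for odd `r ≠ p`). -/
theorem result {F : Type*} [Field F] [Fintype F] {p : ℕ} [Fact p.Prime] [CharP F p] {q : ℕ} (hq : Fintype.card F = q)
    (d : ℕ) (hd : 2 ≤ d) (hT : (d, q) ≠ (2, 2)) (hodd : Odd q)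
    (r : ℕ) [Fact r.Prime] (hr2 : r ≠ 2) (hrp : r ≠ p) (hΩ : r ∣ Nat.card {P : Submodule F (Fin d ⊕ Fin d → F) × Submodule F (Fin d ⊕ Fin d → F) // IsCompl P.1 P.2 ∧ (∀ u ∈ P.1, ∀ v ∈ P.1, Cfsg.sympForm d F u v = 0) ∧ (∀ u ∈ P.2, ∀ v ∈ P.2, Cfsg.sympForm d F u v = 0)} / 2) :
    ∃ x : ↥(Matrix.symplecticGroup (Fin d) F),
      (∃ z : F, ((x ^ r : ↥(Matrix.symplecticGroup (Fin d) F)) : Matrix (Fin d ⊕ Fin d) (Fin d ⊕ Fin d) F) = z • (1 : Matrix (Fin d ⊕ Fin d) (Fin d ⊕ Fin d) F)) ∧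
      (∀ z : F, (x : Matrix (Fin d ⊕ Fin d) (Fin d ⊕ Fin d) F) ≠ z • (1 : Matrix (Fin d ⊕ Fin d) (Fin d ⊕ Fin d) F)) ∧
      ¬ (∃ U W : Submodule F (Fin d ⊕ Fin d → F), IsCompl U W ∧ (∀ u ∈ U, ∀ v ∈ U, Cfsg.sympForm d F u v = 0) ∧ (∀ u ∈ W, ∀ v ∈ W, Cfsg.sympForm d F u v = 0) ∧
        ((U.map (Matrix.toLin' (x : Matrix (Fin d ⊕ Fin d) (Fin d ⊕ Fin d) F)) = U ∧ W.map (Matrix.toLin' (x : Matrix (Fin d ⊕ Fin d) (Fin d ⊕ Fin d) F)) = W) ∨
         (U.map (Matrix.toLin' (x : Matrix (Fin d ⊕ Fin d) (Fin d ⊕ Fin d) F)) = W ∧ W.map (Matrix.toLin' (x : Matrix (Fin d ⊕ Fin d) (Fin d ⊕ Fin d) F)) = U))) := by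
  classical
  have hr : r.Prime := Fact.out
  have hd1 : 1 ≤ d := by omega
  have hq1 : 1 < q := by
    rw [← hq]
    exact Fintype.one_lt_card
  have heven := card_pairs_even (F := F) d hd1
  have hdvd := card_pairs_dvd (F := F) d
  have hN : r ∣ Nat.card {P : Submodule F (Fin d ⊕ Fin d → F) × Submodule F (Fin d ⊕ Fin d → F) //
        IsCompl P.1 P.2 ∧ (∀ u ∈ P.1, ∀ v ∈ P.1, Cfsg.sympForm d F u v = 0) ∧
          (∀ u ∈ P.2, ∀ v ∈ P.2, Cfsg.sympForm d F u v = 0)} := by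
    rw [← Nat.div_mul_cancel heven]
    exact Dvd.dvd.mul_right hΩ 2
  obtain ⟨k, hk, hkr⟩ := exists_plus d hq _ r hrp hN hdvd
  obtain ⟨e, he⟩ : ∃ e, e = orderOf ((q : ℕ) : ZMod r) := ⟨_, rfl⟩
  have hqk : ((q : ℕ) : ZMod r) ^ (k + 1) = -1 := by
    have h2 : ((q ^ (k + 1) + 1 : ℕ) : ZMod r) = 0 := (ZMod.natCast_eq_zero_iff _ _).2 hkr
    push_cast at h2
    exact eq_neg_of_add_eq_zero_left h2
  have hqk2 : ((q : ℕ) : ZMod r) ^ (2 * (k + 1)) = 1 := by
    rw [mul_comm, pow_mul, hqk]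
    norm_num
  have hedvd : e ∣ 2 * (k + 1) := by
    rw [he]
    exact orderOf_dvd_of_pow_eq_one hqk2
  have hend : ¬ e ∣ (k + 1) := by
    intro h
    obtain ⟨c, hc⟩ := h
    have h3 : ((q : ℕ) : ZMod r) ^ (k + 1) = 1 := by
      rw [hc, pow_mul, he, pow_orderOf_eq_one, one_pow]
    rw [hqk] at h3
    have h4 : ((2 : ℕ) : ZMod r) = 0 := by
      push_cast
      linear_combination (-1 : ZMod r) * h3
    rw [ZMod.natCast_eq_zero_iff] at h4
    have h5 := Nat.le_of_dvd (by omega) h4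
    have h6 := hr.two_le
    omega
  have hepos : 0 < e := Nat.pos_of_dvd_of_pos hedvd (by omega)
  have hele : e ≤ 2 * (k + 1) := Nat.le_of_dvd (by omega) hedvd
  have he2 : 2 ∣ e := by
    by_contra h2
    have hcop : Nat.Coprime e 2 :=
      ((Nat.Prime.coprime_iff_not_dvd Nat.prime_two).2 h2).symm
    apply hend
    exact hcop.dvd_of_dvd_mul_right (by
      rw [mul_comm]
      exact hedvd)
  obtain ⟨i', hi'⟩ := he2
  obtain ⟨x, hxr, K, hK, hKdim⟩ := exists_elt hq d r e i' he hi' (by omega) (by omega)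
  refine ⟨x, ⟨1, ?_⟩, ?_, ?_⟩
  · rw [SubmonoidClass.coe_pow, hxr, one_smul]
  · intro z hz
    have hzr : z ^ r = 1 := by
      have h1 := hxr
      rw [hz, smul_pow, one_pow] at h1
      have h2 := congrFun (congrFun h1 (Sum.inl ⟨0, hd1⟩)) (Sum.inl ⟨0, hd1⟩)
      rw [Matrix.smul_apply, Matrix.one_apply_eq, smul_eq_mul, mul_one] at h2
      exact h2
    have hcop : Nat.Coprime r (q - 1) := by
      rw [hr.coprime_iff_not_dvd]
      intro hdvd'
      have h1 : ((q : ℕ) : ZMod r) = ((1 : ℕ) : ZMod r) := by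
        rw [ZMod.natCast_eq_natCast_iff]
        exact ((Nat.modEq_iff_dvd' (by omega)).2 hdvd').symm
      rw [h1, Nat.cast_one, orderOf_one] at he
      omega
    have hz1 : z = 1 := Cfsg.Agent.S5970.eq_one_of_coprime q r hq (by
      have h6 := hr.two_le
      omega) hcop z hzr
    have hKtop : K = ⊤ := by
      rw [eq_top_iff]
      intro v _
      rw [hK, hz, hz1, one_smul, Matrix.one_mulVec]
    rw [hKtop, finrank_top, Module.finrank_fintype_fun_eq_card, Fintype.card_sum,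
      Fintype.card_fin] at hKdim
    omega
  · exact no_pair hq d hd1 r hr2 e he (by omega) (by omega) x hxr K hK hKdim

end Cfsg.Agent.S5963
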