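import Mathlib
import Cfsg.Agent.S5959
import Cfsg.Agent.S5996
import Cfsg.Agent.Lib.Helper16.SpinForms
import Cfsg.Agent.Lib.Helper16.SpinRefl
import Cfsg.Agent.Lib.Helper3.OmegaTools
import Cfsg.Statements.S5994

set_option autoImplicit false
open scoped MatrixGroups
open Cfsg

namespace Cfsg.Agent.S5994

open Cfsg.Agent.S5959 Cfsg.Agent.S5996

section modely

variable {F : Type*} [Field F] {Kc Ks : Type*} (lc : Kc → ℕ) (k1 k2 : Ks → ℕ) (j1 j2 : ℕ)
  (hf dl : F)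

/-- block sizes of the extended model: two further blocks of odd size -/
abbrev elly : ((Kc ⊕ Kc) ⊕ (Ks ⊕ Ks)) ⊕ (Unit ⊕ Unit) → ℕ :=
  Sum.elim (ell lc k1 k2) (Sum.elim (fun _ => 2 * j1 + 1) (fun _ => 2 * j2 + 1))

/-- restriction to the blocks of the hyperbolic model -/
def rsy : ((Σ bb : ((Kc ⊕ Kc) ⊕ (Ks ⊕ Ks)) ⊕ (Unit ⊕ Unit), Fin (elly lc k1 k2 j1 j2 bb)) → F)
    →ₗ[F] ((Σ bb : (Kc ⊕ Kc) ⊕ (Ks ⊕ Ks), Fin (ell lc k1 k2 bb)) → F) where
  toFun v y := v ⟨Sum.inl y.1, y.2⟩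
  map_add' v w := rfl
  map_smul' c v := rfl

theorem rsy_shift
    (v : (Σ bb : ((Kc ⊕ Kc) ⊕ (Ks ⊕ Ks)) ⊕ (Unit ⊕ Unit), Fin (elly lc k1 k2 j1 j2 bb)) → F) :
    rsy lc k1 k2 j1 j2 (shiftT (elly lc k1 k2 j1 j2) v)
      = shiftT (ell lc k1 k2) (rsy lc k1 k2 j1 j2 v) :=
  rfl

variable [Fintype Kc] [Fintype Ks]

/-- the bilinear form of the extended model, as a function -/
def By (v w : (Σ bb : ((Kc ⊕ Kc) ⊕ (Ks ⊕ Ks)) ⊕ (Unit ⊕ Unit),
    Fin (elly lc k1 k2 j1 j2 bb)) → F) : F :=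
  Bm lc k1 k2 (rsy lc k1 k2 j1 j2 v) (rsy lc k1 k2 j1 j2 w)
    + 2 * (-1) ^ j1 * Sp (2 * j1 + 1) (hat (elly lc k1 k2 j1 j2) v (Sum.inr (Sum.inl ())))
        (hat (elly lc k1 k2 j1 j2) w (Sum.inr (Sum.inl ())))
    + 2 * dl * (-1) ^ j2 * Sp (2 * j2 + 1) (hat (elly lc k1 k2 j1 j2) v (Sum.inr (Sum.inr ())))
        (hat (elly lc k1 k2 j1 j2) w (Sum.inr (Sum.inr ())))

theorem By_add_left (v v' w : (Σ bb : ((Kc ⊕ Kc) ⊕ (Ks ⊕ Ks)) ⊕ (Unit ⊕ Unit),
    Fin (elly lc k1 k2 j1 j2 bb)) → F) :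
    By lc k1 k2 j1 j2 dl (v + v') w = By lc k1 k2 j1 j2 dl v w + By lc k1 k2 j1 j2 dl v' w := by
  unfold By
  have e : ∀ t, hat (elly lc k1 k2 j1 j2) (v + v') t
      = fun j => hat (elly lc k1 k2 j1 j2) v t j + hat (elly lc k1 k2 j1 j2) v' t j :=
    fun t => funext (hat_add (elly lc k1 k2 j1 j2) v v' t)
  rw [map_add, Bm_add_left, e, e, Sp_add_left, Sp_add_left]
  ring

theorem By_add_right (v w w' : (Σ bb : ((Kc ⊕ Kc) ⊕ (Ks ⊕ Ks)) ⊕ (Unit ⊕ Unit),
    Fin (elly lc k1 k2 j1 j2 bb)) → F) :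
    By lc k1 k2 j1 j2 dl v (w + w') = By lc k1 k2 j1 j2 dl v w + By lc k1 k2 j1 j2 dl v w' := by
  unfold By
  have e : ∀ t, hat (elly lc k1 k2 j1 j2) (w + w') t
      = fun j => hat (elly lc k1 k2 j1 j2) w t j + hat (elly lc k1 k2 j1 j2) w' t j :=
    fun t => funext (hat_add (elly lc k1 k2 j1 j2) w w' t)
  rw [map_add, Bm_add_right, e, e, Sp_add_right, Sp_add_right]
  ring

theorem By_smul_left (c : F) (v w : (Σ bb : ((Kc ⊕ Kc) ⊕ (Ks ⊕ Ks)) ⊕ (Unit ⊕ Unit),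
    Fin (elly lc k1 k2 j1 j2 bb)) → F) :
    By lc k1 k2 j1 j2 dl (c • v) w = c * By lc k1 k2 j1 j2 dl v w := by
  unfold By
  have e : ∀ t, hat (elly lc k1 k2 j1 j2) (c • v) t
      = fun j => c * hat (elly lc k1 k2 j1 j2) v t j :=
    fun t => funext (hat_smul (elly lc k1 k2 j1 j2) c v t)
  rw [map_smul, Bm_smul_left, e, e, Sp_smul_left, Sp_smul_left]
  ring

theorem By_smul_right (c : F) (v w : (Σ bb : ((Kc ⊕ Kc) ⊕ (Ks ⊕ Ks)) ⊕ (Unit ⊕ Unit),
    Fin (elly lc k1 k2 j1 j2 bb)) → F) :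
    By lc k1 k2 j1 j2 dl v (c • w) = c * By lc k1 k2 j1 j2 dl v w := by
  unfold By
  have e : ∀ t, hat (elly lc k1 k2 j1 j2) (c • w) t
      = fun j => c * hat (elly lc k1 k2 j1 j2) w t j :=
    fun t => funext (hat_smul (elly lc k1 k2 j1 j2) c w t)
  rw [map_smul, Bm_smul_right, e, e, Sp_smul_right, Sp_smul_right]
  ring

theorem By_skew (v w : (Σ bb : ((Kc ⊕ Kc) ⊕ (Ks ⊕ Ks)) ⊕ (Unit ⊕ Unit),
    Fin (elly lc k1 k2 j1 j2 bb)) → F) :
    By lc k1 k2 j1 j2 dl (shiftT (elly lc k1 k2 j1 j2) v) w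
      + By lc k1 k2 j1 j2 dl v (shiftT (elly lc k1 k2 j1 j2) w) = 0 := by
  unfold By
  have e : ∀ (u : (Σ bb : ((Kc ⊕ Kc) ⊕ (Ks ⊕ Ks)) ⊕ (Unit ⊕ Unit),
      Fin (elly lc k1 k2 j1 j2 bb)) → F) t,
      hat (elly lc k1 k2 j1 j2) (shiftT (elly lc k1 k2 j1 j2) u) t
      = fun j => hat (elly lc k1 k2 j1 j2) u t (j + 1) :=
    fun u t => funext (hat_shift (elly lc k1 k2 j1 j2) u t)
  have hz1 : ∀ (u : (Σ bb : ((Kc ⊕ Kc) ⊕ (Ks ⊕ Ks)) ⊕ (Unit ⊕ Unit),
      Fin (elly lc k1 k2 j1 j2 bb)) → F),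
      hat (elly lc k1 k2 j1 j2) u (Sum.inr (Sum.inl ())) (2 * j1 + 1) = 0 :=
    fun u => hat_ge (elly lc k1 k2 j1 j2) u (Sum.inr (Sum.inl ())) _ le_rfl
  have hz2 : ∀ (u : (Σ bb : ((Kc ⊕ Kc) ⊕ (Ks ⊕ Ks)) ⊕ (Unit ⊕ Unit),
      Fin (elly lc k1 k2 j1 j2 bb)) → F),
      hat (elly lc k1 k2 j1 j2) u (Sum.inr (Sum.inr ())) (2 * j2 + 1) = 0 :=
    fun u => hat_ge (elly lc k1 k2 j1 j2) u (Sum.inr (Sum.inr ())) _ le_rfl
  rw [rsy_shift, rsy_shift, e, e, e, e]
  have a := Bm_skew lc k1 k2 (rsy lc k1 k2 j1 j2 v) (rsy lc k1 k2 j1 j2 w)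
  have b := Sp_shift (2 * j1 + 1) (hat (elly lc k1 k2 j1 j2) v (Sum.inr (Sum.inl ())))
    (hat (elly lc k1 k2 j1 j2) w (Sum.inr (Sum.inl ()))) (hz1 v) (hz1 w)
  have c := Sp_shift (2 * j2 + 1) (hat (elly lc k1 k2 j1 j2) v (Sum.inr (Sum.inr ())))
    (hat (elly lc k1 k2 j1 j2) w (Sum.inr (Sum.inr ()))) (hz2 v) (hz2 w)
  linear_combination a + 2 * (-1) ^ j1 * b + 2 * dl * (-1) ^ j2 * c

/-- the bilinear form of the extended model -/
def ByL : LinearMap.BilinForm F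
    ((Σ bb : ((Kc ⊕ Kc) ⊕ (Ks ⊕ Ks)) ⊕ (Unit ⊕ Unit), Fin (elly lc k1 k2 j1 j2 bb)) → F) :=
  LinearMap.mk₂ F (By lc k1 k2 j1 j2 dl) (By_add_left lc k1 k2 j1 j2 dl)
    (fun c v w => by rw [By_smul_left, smul_eq_mul]) (By_add_right lc k1 k2 j1 j2 dl)
    (fun c v w => by rw [By_smul_right, smul_eq_mul])

theorem ByL_apply (v w : (Σ bb : ((Kc ⊕ Kc) ⊕ (Ks ⊕ Ks)) ⊕ (Unit ⊕ Unit),
    Fin (elly lc k1 k2 j1 j2 bb)) → F) :
    ByL lc k1 k2 j1 j2 dl v w = By lc k1 k2 j1 j2 dl v w := rfl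

/-- first hyperbolic coordinates of the extended model -/
def Xy (v : (Σ bb : ((Kc ⊕ Kc) ⊕ (Ks ⊕ Ks)) ⊕ (Unit ⊕ Unit),
    Fin (elly lc k1 k2 j1 j2 bb)) → F) : Lam lc k1 k2 ⊕ (Fin j1 ⊕ Fin j2) → F :=
  Sum.elim (Xc lc k1 k2 (rsy lc k1 k2 j1 j2 v))
    (Sum.elim (fun j => hat (elly lc k1 k2 j1 j2) v (Sum.inr (Sum.inl ())) j)
      (fun j => hat (elly lc k1 k2 j1 j2) v (Sum.inr (Sum.inr ())) j))

/-- second hyperbolic coordinates of the extended model -/
def Yy (v : (Σ bb : ((Kc ⊕ Kc) ⊕ (Ks ⊕ Ks)) ⊕ (Unit ⊕ Unit),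
    Fin (elly lc k1 k2 j1 j2 bb)) → F) : Lam lc k1 k2 ⊕ (Fin j1 ⊕ Fin j2) → F :=
  Sum.elim (Yc lc k1 k2 (rsy lc k1 k2 j1 j2 v))
    (Sum.elim (fun j => 2 * (-1) ^ j1 * ((-1) ^ (j : ℕ)
        * hat (elly lc k1 k2 j1 j2) v (Sum.inr (Sum.inl ())) (2 * j1 - j)))
      (fun j => 2 * dl * (-1) ^ j2 * ((-1) ^ (j : ℕ)
        * hat (elly lc k1 k2 j1 j2) v (Sum.inr (Sum.inr ())) (2 * j2 - j))))

/-- the anisotropic coordinates of the extended model -/
def Zy (v : (Σ bb : ((Kc ⊕ Kc) ⊕ (Ks ⊕ Ks)) ⊕ (Unit ⊕ Unit),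
    Fin (elly lc k1 k2 j1 j2 bb)) → F) : Fin 2 → F :=
  ![hat (elly lc k1 k2 j1 j2) v (Sum.inr (Sum.inl ())) j1
      - hf * hat (elly lc k1 k2 j1 j2) v (Sum.inr (Sum.inr ())) j2,
    hat (elly lc k1 k2 j1 j2) v (Sum.inr (Sum.inr ())) j2]

theorem Zy_zero (v : (Σ bb : ((Kc ⊕ Kc) ⊕ (Ks ⊕ Ks)) ⊕ (Unit ⊕ Unit),
    Fin (elly lc k1 k2 j1 j2 bb)) → F) :
    Zy lc k1 k2 j1 j2 hf v 0 = hat (elly lc k1 k2 j1 j2) v (Sum.inr (Sum.inl ())) j1
      - hf * hat (elly lc k1 k2 j1 j2) v (Sum.inr (Sum.inr ())) j2 := rfl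

theorem Zy_one (v : (Σ bb : ((Kc ⊕ Kc) ⊕ (Ks ⊕ Ks)) ⊕ (Unit ⊕ Unit),
    Fin (elly lc k1 k2 j1 j2 bb)) → F) :
    Zy lc k1 k2 j1 j2 hf v 1 = hat (elly lc k1 k2 j1 j2) v (Sum.inr (Sum.inr ())) j2 := rfl

/-- the quadratic form of the extended model -/
def Qy (v : (Σ bb : ((Kc ⊕ Kc) ⊕ (Ks ⊕ Ks)) ⊕ (Unit ⊕ Unit),
    Fin (elly lc k1 k2 j1 j2 bb)) → F) : F :=
  (∑ t : Lam lc k1 k2 ⊕ (Fin j1 ⊕ Fin j2), Xy lc k1 k2 j1 j2 v t * Yy lc k1 k2 j1 j2 dl v t)
    + (Zy lc k1 k2 j1 j2 hf v 0 ^ 2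
      + (2 * hf) * Zy lc k1 k2 j1 j2 hf v 0 * Zy lc k1 k2 j1 j2 hf v 1
      + (dl + hf ^ 2) * Zy lc k1 k2 j1 j2 hf v 1 ^ 2)

theorem By_self (h2 : (2 : F) ≠ 0)
    (v : (Σ bb : ((Kc ⊕ Kc) ⊕ (Ks ⊕ Ks)) ⊕ (Unit ⊕ Unit), Fin (elly lc k1 k2 j1 j2 bb)) → F) :
    By lc k1 k2 j1 j2 dl v v = 2 * Qy lc k1 k2 j1 j2 hf dl v := by
  unfold By Qy
  rw [Bm_self lc k1 k2 h2, Sp_self_odd, Sp_self_odd, Zy_zero, Zy_one]
  have h1 : ∑ j : Fin j1, Xy lc k1 k2 j1 j2 v (Sum.inr (Sum.inl j))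
        * Yy lc k1 k2 j1 j2 dl v (Sum.inr (Sum.inl j))
      = 2 * (-1) ^ j1 * ∑ j ∈ Finset.range j1, (-1) ^ j
        * hat (elly lc k1 k2 j1 j2) v (Sum.inr (Sum.inl ())) j
        * hat (elly lc k1 k2 j1 j2) v (Sum.inr (Sum.inl ())) (2 * j1 - j) := by
    show ∑ j : Fin j1, hat (elly lc k1 k2 j1 j2) v (Sum.inr (Sum.inl ())) (j : ℕ)
      * (2 * (-1) ^ j1 * ((-1) ^ (j : ℕ)
        * hat (elly lc k1 k2 j1 j2) v (Sum.inr (Sum.inl ())) (2 * j1 - (j : ℕ)))) = _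
    rw [Fin.sum_univ_eq_sum_range (fun j => hat (elly lc k1 k2 j1 j2) v (Sum.inr (Sum.inl ())) j
      * (2 * (-1) ^ j1 * ((-1) ^ j
        * hat (elly lc k1 k2 j1 j2) v (Sum.inr (Sum.inl ())) (2 * j1 - j)))) j1, Finset.mul_sum]
    apply Finset.sum_congr rfl
    intro j _
    ring
  have h1' : ∑ j : Fin j2, Xy lc k1 k2 j1 j2 v (Sum.inr (Sum.inr j))
        * Yy lc k1 k2 j1 j2 dl v (Sum.inr (Sum.inr j))
      = 2 * dl * (-1) ^ j2 * ∑ j ∈ Finset.range j2, (-1) ^ j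
        * hat (elly lc k1 k2 j1 j2) v (Sum.inr (Sum.inr ())) j
        * hat (elly lc k1 k2 j1 j2) v (Sum.inr (Sum.inr ())) (2 * j2 - j) := by
    show ∑ j : Fin j2, hat (elly lc k1 k2 j1 j2) v (Sum.inr (Sum.inr ())) (j : ℕ)
      * (2 * dl * (-1) ^ j2 * ((-1) ^ (j : ℕ)
        * hat (elly lc k1 k2 j1 j2) v (Sum.inr (Sum.inr ())) (2 * j2 - (j : ℕ)))) = _
    rw [Fin.sum_univ_eq_sum_range (fun j => hat (elly lc k1 k2 j1 j2) v (Sum.inr (Sum.inr ())) j
      * (2 * dl * (-1) ^ j2 * ((-1) ^ j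
        * hat (elly lc k1 k2 j1 j2) v (Sum.inr (Sum.inr ())) (2 * j2 - j)))) j2, Finset.mul_sum]
    apply Finset.sum_congr rfl
    intro j _
    ring
  have h3 : ∑ t : Lam lc k1 k2, Xy lc k1 k2 j1 j2 v (Sum.inl t)
        * Yy lc k1 k2 j1 j2 dl v (Sum.inl t)
      = Qm lc k1 k2 (rsy lc k1 k2 j1 j2 v) := rfl
  have h4 : ∑ t : Fin j1 ⊕ Fin j2, Xy lc k1 k2 j1 j2 v (Sum.inr t)
        * Yy lc k1 k2 j1 j2 dl v (Sum.inr t)
      = 2 * (-1) ^ j1 * ∑ j ∈ Finset.range j1, (-1) ^ j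
        * hat (elly lc k1 k2 j1 j2) v (Sum.inr (Sum.inl ())) j
        * hat (elly lc k1 k2 j1 j2) v (Sum.inr (Sum.inl ())) (2 * j1 - j)
        + 2 * dl * (-1) ^ j2 * ∑ j ∈ Finset.range j2, (-1) ^ j
        * hat (elly lc k1 k2 j1 j2) v (Sum.inr (Sum.inr ())) j
        * hat (elly lc k1 k2 j1 j2) v (Sum.inr (Sum.inr ())) (2 * j2 - j) := by
    rw [Fintype.sum_sum_type, h1, h1']
  have h5 : ∑ t : Lam lc k1 k2 ⊕ (Fin j1 ⊕ Fin j2), Xy lc k1 k2 j1 j2 v t
        * Yy lc k1 k2 j1 j2 dl v t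
      = Qm lc k1 k2 (rsy lc k1 k2 j1 j2 v)
        + (2 * (-1) ^ j1 * ∑ j ∈ Finset.range j1, (-1) ^ j
        * hat (elly lc k1 k2 j1 j2) v (Sum.inr (Sum.inl ())) j
        * hat (elly lc k1 k2 j1 j2) v (Sum.inr (Sum.inl ())) (2 * j1 - j)
        + 2 * dl * (-1) ^ j2 * ∑ j ∈ Finset.range j2, (-1) ^ j
        * hat (elly lc k1 k2 j1 j2) v (Sum.inr (Sum.inr ())) j
        * hat (elly lc k1 k2 j1 j2) v (Sum.inr (Sum.inr ())) (2 * j2 - j)) := by
    rw [Fintype.sum_sum_type, h3, h4]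
  rw [h5]
  have q1 := neg_one_sq (F := F) j1
  have q2 := neg_one_sq (F := F) j2
  linear_combination 2 * (hat (elly lc k1 k2 j1 j2) v (Sum.inr (Sum.inl ())) j1) ^ 2 * q1
    + 2 * dl * (hat (elly lc k1 k2 j1 j2) v (Sum.inr (Sum.inr ())) j2) ^ 2 * q2

/-- the coordinate map of the extended model -/
def ELy : ((Σ bb : ((Kc ⊕ Kc) ⊕ (Ks ⊕ Ks)) ⊕ (Unit ⊕ Unit), Fin (elly lc k1 k2 j1 j2 bb)) → F)
    →ₗ[F] (((Lam lc k1 k2 ⊕ (Fin j1 ⊕ Fin j2)) ⊕ (Lam lc k1 k2 ⊕ (Fin j1 ⊕ Fin j2)))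
      ⊕ Fin 2 → F) where
  toFun v := Sum.elim (Sum.elim (Xy lc k1 k2 j1 j2 v) (Yy lc k1 k2 j1 j2 dl v))
    (Zy lc k1 k2 j1 j2 hf v)
  map_add' v w := by
    funext t
    rcases t with ((t | j | j) | (t | j | j)) | i
    · show Xc lc k1 k2 (rsy lc k1 k2 j1 j2 (v + w)) t
        = Xc lc k1 k2 (rsy lc k1 k2 j1 j2 v) t + Xc lc k1 k2 (rsy lc k1 k2 j1 j2 w) t
      rw [map_add]
      exact congrFun ((EL lc k1 k2).map_add (rsy lc k1 k2 j1 j2 v) (rsy lc k1 k2 j1 j2 w))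
        (Sum.inl t)
    · exact hat_add _ v w _ _
    · exact hat_add _ v w _ _
    · show Yc lc k1 k2 (rsy lc k1 k2 j1 j2 (v + w)) t
        = Yc lc k1 k2 (rsy lc k1 k2 j1 j2 v) t + Yc lc k1 k2 (rsy lc k1 k2 j1 j2 w) t
      rw [map_add]
      exact congrFun ((EL lc k1 k2).map_add (rsy lc k1 k2 j1 j2 v) (rsy lc k1 k2 j1 j2 w))
        (Sum.inr t)
    · show 2 * (-1) ^ j1 * ((-1) ^ (j : ℕ)
          * hat (elly lc k1 k2 j1 j2) (v + w) (Sum.inr (Sum.inl ())) (2 * j1 - j))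
        = 2 * (-1) ^ j1 * ((-1) ^ (j : ℕ)
          * hat (elly lc k1 k2 j1 j2) v (Sum.inr (Sum.inl ())) (2 * j1 - j))
        + 2 * (-1) ^ j1 * ((-1) ^ (j : ℕ)
          * hat (elly lc k1 k2 j1 j2) w (Sum.inr (Sum.inl ())) (2 * j1 - j))
      rw [hat_add]
      ring
    · show 2 * dl * (-1) ^ j2 * ((-1) ^ (j : ℕ)
          * hat (elly lc k1 k2 j1 j2) (v + w) (Sum.inr (Sum.inr ())) (2 * j2 - j))
        = 2 * dl * (-1) ^ j2 * ((-1) ^ (j : ℕ)
          * hat (elly lc k1 k2 j1 j2) v (Sum.inr (Sum.inr ())) (2 * j2 - j))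
        + 2 * dl * (-1) ^ j2 * ((-1) ^ (j : ℕ)
          * hat (elly lc k1 k2 j1 j2) w (Sum.inr (Sum.inr ())) (2 * j2 - j))
      rw [hat_add]
      ring
    · fin_cases i
      · show Zy lc k1 k2 j1 j2 hf (v + w) 0
          = Zy lc k1 k2 j1 j2 hf v 0 + Zy lc k1 k2 j1 j2 hf w 0
        rw [Zy_zero, Zy_zero, Zy_zero, hat_add, hat_add]
        ring
      · show Zy lc k1 k2 j1 j2 hf (v + w) 1
          = Zy lc k1 k2 j1 j2 hf v 1 + Zy lc k1 k2 j1 j2 hf w 1
        rw [Zy_one, Zy_one, Zy_one, hat_add]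
  map_smul' c v := by
    funext t
    rcases t with ((t | j | j) | (t | j | j)) | i
    · show Xc lc k1 k2 (rsy lc k1 k2 j1 j2 (c • v)) t = c * Xc lc k1 k2 (rsy lc k1 k2 j1 j2 v) t
      rw [map_smul]
      exact congrFun ((EL lc k1 k2).map_smul c (rsy lc k1 k2 j1 j2 v)) (Sum.inl t)
    · exact hat_smul _ c v _ _
    · exact hat_smul _ c v _ _
    · show Yc lc k1 k2 (rsy lc k1 k2 j1 j2 (c • v)) t = c * Yc lc k1 k2 (rsy lc k1 k2 j1 j2 v) t
      rw [map_smul]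
      exact congrFun ((EL lc k1 k2).map_smul c (rsy lc k1 k2 j1 j2 v)) (Sum.inr t)
    · show 2 * (-1) ^ j1 * ((-1) ^ (j : ℕ)
          * hat (elly lc k1 k2 j1 j2) (c • v) (Sum.inr (Sum.inl ())) (2 * j1 - j))
        = c * (2 * (-1) ^ j1 * ((-1) ^ (j : ℕ)
          * hat (elly lc k1 k2 j1 j2) v (Sum.inr (Sum.inl ())) (2 * j1 - j)))
      rw [hat_smul]
      ring
    · show 2 * dl * (-1) ^ j2 * ((-1) ^ (j : ℕ)
          * hat (elly lc k1 k2 j1 j2) (c • v) (Sum.inr (Sum.inr ())) (2 * j2 - j))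
        = c * (2 * dl * (-1) ^ j2 * ((-1) ^ (j : ℕ)
          * hat (elly lc k1 k2 j1 j2) v (Sum.inr (Sum.inr ())) (2 * j2 - j)))
      rw [hat_smul]
      ring
    · fin_cases i
      · show Zy lc k1 k2 j1 j2 hf (c • v) 0 = c * Zy lc k1 k2 j1 j2 hf v 0
        rw [Zy_zero, Zy_zero, hat_smul, hat_smul]
        ring
      · show Zy lc k1 k2 j1 j2 hf (c • v) 1 = c * Zy lc k1 k2 j1 j2 hf v 1
        rw [Zy_one, Zy_one, hat_smul]

theorem ELy_inj (h2 : (2 : F) ≠ 0) (hdl : dl ≠ 0) :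
    Function.Injective (ELy (F := F) lc k1 k2 j1 j2 hf dl) := by
  rw [injective_iff_map_eq_zero]
  intro v hv
  have hpm : ∀ n : ℕ, ((-1 : F)) ^ n ≠ 0 := fun n => pow_ne_zero _ (neg_ne_zero.2 one_ne_zero)
  have hrs : rsy lc k1 k2 j1 j2 v = 0 := by
    apply EL_inj lc k1 k2 h2
    rw [map_zero]
    funext t
    rcases t with t | t
    · exact congrFun hv (Sum.inl (Sum.inl (Sum.inl t)))
    · exact congrFun hv (Sum.inl (Sum.inr (Sum.inl t)))
  have hg : hat (elly lc k1 k2 j1 j2) v (Sum.inr (Sum.inr ())) j2 = 0 :=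
    congrFun hv (Sum.inr 1)
  have hf0 : hat (elly lc k1 k2 j1 j2) v (Sum.inr (Sum.inl ())) j1 = 0 := by
    have h3 : Zy lc k1 k2 j1 j2 hf v 0 = 0 := congrFun hv (Sum.inr 0)
    rw [Zy_zero, hg, mul_zero, sub_zero] at h3
    exact h3
  have hext1 : ∀ j, j < 2 * j1 + 1 →
      hat (elly lc k1 k2 j1 j2) v (Sum.inr (Sum.inl ())) j = 0 := by
    intro j hj
    rcases lt_trichotomy j j1 with h | h | h
    · exact congrFun hv (Sum.inl (Sum.inl (Sum.inr (Sum.inl ⟨j, h⟩))))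
    · rw [h]
      exact hf0
    · have h3 := congrFun hv (Sum.inl (Sum.inr (Sum.inr (Sum.inl ⟨2 * j1 - j, by omega⟩))))
      have h4 : 2 * (-1 : F) ^ j1 * ((-1) ^ (2 * j1 - j)
          * hat (elly lc k1 k2 j1 j2) v (Sum.inr (Sum.inl ())) (2 * j1 - (2 * j1 - j))) = 0 := h3
      have e : 2 * j1 - (2 * j1 - j) = j := by omega
      rw [e] at h4
      exact (mul_eq_zero.1 ((mul_eq_zero.1 h4).resolve_left
        (mul_ne_zero h2 (hpm _)))).resolve_left (hpm _)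
  have hext2 : ∀ j, j < 2 * j2 + 1 →
      hat (elly lc k1 k2 j1 j2) v (Sum.inr (Sum.inr ())) j = 0 := by
    intro j hj
    rcases lt_trichotomy j j2 with h | h | h
    · exact congrFun hv (Sum.inl (Sum.inl (Sum.inr (Sum.inr ⟨j, h⟩))))
    · rw [h]
      exact hg
    · have h3 := congrFun hv (Sum.inl (Sum.inr (Sum.inr (Sum.inr ⟨2 * j2 - j, by omega⟩))))
      have h4 : 2 * dl * (-1 : F) ^ j2 * ((-1) ^ (2 * j2 - j)
          * hat (elly lc k1 k2 j1 j2) v (Sum.inr (Sum.inr ())) (2 * j2 - (2 * j2 - j))) = 0 := h3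
      have e : 2 * j2 - (2 * j2 - j) = j := by omega
      rw [e] at h4
      exact (mul_eq_zero.1 ((mul_eq_zero.1 h4).resolve_left
        (mul_ne_zero (mul_ne_zero h2 hdl) (hpm _)))).resolve_left (hpm _)
  funext y
  obtain ⟨bb, j, hj⟩ := y
  rcases bb with bb | u | u
  · exact congrFun hrs ⟨bb, ⟨j, hj⟩⟩
  · have h3 := hext1 j hj
    rw [hat_apply (elly lc k1 k2 j1 j2) v (Sum.inr (Sum.inl ())) j hj] at h3
    exact h3
  · have h3 := hext2 j hj
    rw [hat_apply (elly lc k1 k2 j1 j2) v (Sum.inr (Sum.inr ())) j hj] at h3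
    exact h3

theorem card_modely :
    Fintype.card (Σ bb : ((Kc ⊕ Kc) ⊕ (Ks ⊕ Ks)) ⊕ (Unit ⊕ Unit), Fin (elly lc k1 k2 j1 j2 bb))
      = 2 * Fintype.card (Lam lc k1 k2 ⊕ (Fin j1 ⊕ Fin j2)) + 2 := by
  have e1 : Fintype.card (Σ bb : ((Kc ⊕ Kc) ⊕ (Ks ⊕ Ks)) ⊕ (Unit ⊕ Unit),
      Fin (elly lc k1 k2 j1 j2 bb)) = ∑ bb, elly lc k1 k2 j1 j2 bb := by
    rw [Fintype.card_sigma]
    exact Finset.sum_congr rfl (fun bb _ => Fintype.card_fin _)
  have e2 : Fintype.card (Σ bb : (Kc ⊕ Kc) ⊕ (Ks ⊕ Ks), Fin (ell lc k1 k2 bb))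
      = ∑ bb, ell lc k1 k2 bb := by
    rw [Fintype.card_sigma]
    exact Finset.sum_congr rfl (fun bb _ => Fintype.card_fin _)
  have e3 := card_model lc k1 k2
  rw [e2] at e3
  have e6 : ∑ t : Unit ⊕ Unit, Sum.elim (fun _ : Unit => 2 * j1 + 1)
      (fun _ : Unit => 2 * j2 + 1) t = (2 * j1 + 1) + (2 * j2 + 1) := by
    rw [Fintype.sum_sum_type]
    simp
  have e4 : ∑ bb, elly lc k1 k2 j1 j2 bb
      = ∑ bb, ell lc k1 k2 bb + ((2 * j1 + 1) + (2 * j2 + 1)) := by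
    rw [Fintype.sum_sum_type, ← e6]
    rfl
  have e5 : Fintype.card (Lam lc k1 k2 ⊕ (Fin j1 ⊕ Fin j2))
      = Fintype.card (Lam lc k1 k2) + (j1 + j2) := by
    simp only [Fintype.card_sum, Fintype.card_fin]
  rw [e1, e4, e3, e5]
  ring

/-- the coordinate isomorphism of the extended model -/
noncomputable def ELye (h2 : (2 : F) ≠ 0) (hdl : dl ≠ 0) :
    ((Σ bb : ((Kc ⊕ Kc) ⊕ (Ks ⊕ Ks)) ⊕ (Unit ⊕ Unit), Fin (elly lc k1 k2 j1 j2 bb)) → F)
      ≃ₗ[F] (((Lam lc k1 k2 ⊕ (Fin j1 ⊕ Fin j2)) ⊕ (Lam lc k1 k2 ⊕ (Fin j1 ⊕ Fin j2)))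
        ⊕ Fin 2 → F) :=
  LinearMap.linearEquivOfInjective (ELy lc k1 k2 j1 j2 hf dl) (ELy_inj lc k1 k2 j1 j2 hf dl h2 hdl)
    (by
      rw [Module.finrank_fintype_fun_eq_card, Module.finrank_fintype_fun_eq_card, card_modely]
      simp only [Fintype.card_sum, Fintype.card_fin]
      ring)

theorem ELye_apply (h2 : (2 : F) ≠ 0) (hdl : dl ≠ 0)
    (v : (Σ bb : ((Kc ⊕ Kc) ⊕ (Ks ⊕ Ks)) ⊕ (Unit ⊕ Unit), Fin (elly lc k1 k2 j1 j2 bb)) → F) :
    ELye lc k1 k2 j1 j2 hf dl h2 hdl v = ELy lc k1 k2 j1 j2 hf dl v := rfl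

end modely

section combi

theorem sum_123 (ν : Multiset ℕ) (h : ∀ e ∈ ν, e = 1 ∨ e = 2 ∨ e = 3) :
    ν.sum = ν.count 1 + 2 * ν.count 2 + 3 * ν.count 3 := by
  induction ν using Multiset.induction_on with
  | empty => simp
  | cons a s ih =>
    have ih' := ih (fun e he => h e (Multiset.mem_cons_of_mem he))
    rcases h a (Multiset.mem_cons_self a s) with rfl | rfl | rfl
    · rw [Multiset.sum_cons, Multiset.count_cons_self,
        Multiset.count_cons_of_ne (show (2 : ℕ) ≠ 1 by decide),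
        Multiset.count_cons_of_ne (show (3 : ℕ) ≠ 1 by decide), ih']
      ring
    · rw [Multiset.sum_cons, Multiset.count_cons_self,
        Multiset.count_cons_of_ne (show (1 : ℕ) ≠ 2 by decide),
        Multiset.count_cons_of_ne (show (3 : ℕ) ≠ 2 by decide), ih']
      ring
    · rw [Multiset.sum_cons, Multiset.count_cons_self,
        Multiset.count_cons_of_ne (show (1 : ℕ) ≠ 3 by decide),
        Multiset.count_cons_of_ne (show (2 : ℕ) ≠ 3 by decide), ih']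
      ring

theorem mod_four' (p d m : ℕ) (hp3 : 3 ≤ p) (hd : 4 ≤ d) (hme : Even m)
    (hreal : ∀ μ : Multiset ℕ, (∀ e ∈ μ, 0 < e ∧ e ≤ p) →
      (∀ e : ℕ, Even e → Even (μ.count e)) → μ.sum = 2 * d → (∃ a₀ ∈ μ, Odd a₀) →
        ∃ ν : Multiset ℕ, ν ≤ μ ∧ ν.sum = m ∧ (∀ e : ℕ, Even e → Even (ν.count e))
          ∧ ¬ (∀ e ∈ ν, e = 2)) :
    (2 * d) % 4 = m % 4 := by
  obtain ⟨t, ht⟩ := hme
  rcases Nat.even_or_odd d with hde | hdo
  · obtain ⟨k, hk⟩ := hde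
    have hA : ∀ e ∈ Multiset.replicate (d - 2) 2 + ({3} : Multiset ℕ) + {1}, 0 < e ∧ e ≤ p := by
      intro e he
      rw [Multiset.mem_add, Multiset.mem_add, Multiset.mem_singleton, Multiset.mem_singleton]
        at he
      rcases he with (he | he) | he
      · rw [Multiset.eq_of_mem_replicate he]
        omega
      · omega
      · omega
    have hB : ∀ e : ℕ, Even e →
        Even ((Multiset.replicate (d - 2) 2 + ({3} : Multiset ℕ) + {1}).count e) := by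
      intro e he
      rw [Multiset.count_add, Multiset.count_add, Multiset.count_replicate,
        Multiset.count_singleton, Multiset.count_singleton]
      have hne3 : ¬ e = 3 := by
        rintro rfl
        exact absurd he (by decide)
      have hne1 : ¬ e = 1 := by
        rintro rfl
        exact absurd he (by decide)
      rw [if_neg hne3, if_neg hne1, add_zero, add_zero]
      split_ifs
      · exact ⟨k - 1, by omega⟩
      · exact Even.zero
    have hC : (Multiset.replicate (d - 2) 2 + ({3} : Multiset ℕ) + {1}).sum = 2 * d := by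
      rw [Multiset.sum_add, Multiset.sum_add, Multiset.sum_replicate, Multiset.sum_singleton,
        Multiset.sum_singleton, smul_eq_mul]
      omega
    have hD : ∃ a₀ ∈ Multiset.replicate (d - 2) 2 + ({3} : Multiset ℕ) + {1}, Odd a₀ :=
      ⟨1, by simp, by decide⟩
    obtain ⟨ν, hν1, hν2, hν3, hν4⟩ := hreal _ hA hB hC hD
    have hsub : ∀ e ∈ ν, e = 1 ∨ e = 2 ∨ e = 3 := by
      intro e he
      have h1 := Multiset.mem_of_le hν1 he
      rw [Multiset.mem_add, Multiset.mem_add, Multiset.mem_singleton, Multiset.mem_singleton]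
        at h1
      rcases h1 with (h1 | h1) | h1
      · right; left
        exact Multiset.eq_of_mem_replicate h1
      · right; right
        exact h1
      · left
        exact h1
    have hs := sum_123 ν hsub
    have hc1 : ν.count 1 ≤ 1 := by
      have h1 := Multiset.le_iff_count.1 hν1 1
      rw [Multiset.count_add, Multiset.count_add, Multiset.count_replicate,
        Multiset.count_singleton, Multiset.count_singleton] at h1
      simpa using h1
    have hc3 : ν.count 3 ≤ 1 := by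
      have h1 := Multiset.le_iff_count.1 hν1 3
      rw [Multiset.count_add, Multiset.count_add, Multiset.count_replicate,
        Multiset.count_singleton, Multiset.count_singleton] at h1
      simpa using h1
    obtain ⟨c, hc⟩ := hν3 2 (by decide)
    have h1 : ν.count 1 = 0 ∨ ν.count 1 = 1 := by omega
    have h3 : ν.count 3 = 0 ∨ ν.count 3 = 1 := by omega
    rcases h1 with h1 | h1 <;> rcases h3 with h3 | h3 <;> omega
  · obtain ⟨k, hk⟩ := hdo
    have hA : ∀ e ∈ Multiset.replicate (d - 1) 2 + Multiset.replicate 2 1, 0 < e ∧ e ≤ p := by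
      intro e he
      rw [Multiset.mem_add] at he
      rcases he with he | he
      · rw [Multiset.eq_of_mem_replicate he]
        omega
      · rw [Multiset.eq_of_mem_replicate he]
        omega
    have hB : ∀ e : ℕ, Even e →
        Even ((Multiset.replicate (d - 1) 2 + Multiset.replicate 2 1).count e) := by
      intro e he
      rw [Multiset.count_add, Multiset.count_replicate, Multiset.count_replicate]
      have hne1 : ¬ 1 = e := by
        rintro rfl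
        exact absurd he (by decide)
      rw [if_neg hne1, add_zero]
      split_ifs
      · exact ⟨k, by omega⟩
      · exact Even.zero
    have hC : (Multiset.replicate (d - 1) 2 + Multiset.replicate 2 1).sum = 2 * d := by
      rw [Multiset.sum_add, Multiset.sum_replicate, Multiset.sum_replicate, smul_eq_mul,
        smul_eq_mul]
      omega
    have hD : ∃ a₀ ∈ Multiset.replicate (d - 1) 2 + Multiset.replicate 2 1, Odd a₀ :=
      ⟨1, by simp, by decide⟩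
    obtain ⟨ν, hν1, hν2, hν3, hν4⟩ := hreal _ hA hB hC hD
    have hsub : ∀ e ∈ ν, e = 1 ∨ e = 2 ∨ e = 3 := by
      intro e he
      have h1 := Multiset.mem_of_le hν1 he
      rw [Multiset.mem_add] at h1
      rcases h1 with h1 | h1
      · right; left
        exact Multiset.eq_of_mem_replicate h1
      · left
        exact Multiset.eq_of_mem_replicate h1
    have hs := sum_123 ν hsub
    have hc1 : ν.count 1 ≤ 2 := by
      have h1 := Multiset.le_iff_count.1 hν1 1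
      rw [Multiset.count_add, Multiset.count_replicate, Multiset.count_replicate] at h1
      simpa using h1
    have hc3 : ν.count 3 = 0 := by
      have h1 := Multiset.le_iff_count.1 hν1 3
      rw [Multiset.count_add, Multiset.count_replicate, Multiset.count_replicate] at h1
      simpa using h1
    obtain ⟨c, hc⟩ := hν3 2 (by decide)
    have hc1' : ν.count 1 ≠ 0 := by
      intro h0
      apply hν4
      intro e he
      rcases hsub e he with rfl | rfl | rfl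
      · have := Multiset.count_pos.2 he
        omega
      · rfl
      · have := Multiset.count_pos.2 he
        omega
    have h1 : ν.count 1 = 1 ∨ ν.count 1 = 2 := by omega
    rcases h1 with h1 | h1 <;> omega

theorem even_case (p d m : ℕ) (hp : Odd p) (hd : 4 ≤ d) (hme : Even m)
    (hreal : ∀ μ : Multiset ℕ, (∀ e ∈ μ, 0 < e ∧ e ≤ p) →
      (∀ e : ℕ, Even e → Even (μ.count e)) → μ.sum = 2 * d → (∃ a₀ ∈ μ, Odd a₀) →
        ∃ ν : Multiset ℕ, ν ≤ μ ∧ ν.sum = m ∧ (∀ e : ℕ, Even e → Even (ν.count e)))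
    (μ : Multiset ℕ) (hμ : ∀ e ∈ μ, 0 < e ∧ e ≤ p) (hμev : ∀ e : ℕ, Even e → Even (μ.count e))
    (hsum : μ.sum = 2 * d) (hall : ∀ e ∈ μ, Even e) :
    ∃ ν : Multiset ℕ, ν ≤ μ ∧ ν.sum = m ∧ ∀ e : ℕ, Even e → Even (ν.count e) := by
  have hne : μ ≠ 0 := by
    rintro rfl
    rw [Multiset.sum_zero] at hsum
    omega
  obtain ⟨c, hc⟩ := Multiset.exists_mem_of_ne_zero hne
  have hceven := hall c hc
  have hcpos := (hμ c hc).1
  have hcp := (hμ c hc).2
  have hcnt : 2 ≤ μ.count c := by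
    have h1 := Multiset.count_pos.2 hc
    obtain ⟨t, ht⟩ := hμev c hceven
    omega
  obtain ⟨μ₀, hμ₀⟩ : ∃ μ₀, μ₀ = (μ.erase c).erase c := ⟨_, rfl⟩
  have hc' : c ∈ μ.erase c := by
    rw [← Multiset.count_pos, Multiset.count_erase_self]
    omega
  have hμeq : μ = c ::ₘ c ::ₘ μ₀ := by
    rw [hμ₀, Multiset.cons_erase hc', Multiset.cons_erase hc]
  have hμ₀mem : ∀ e ∈ μ₀, e ∈ μ := by
    intro e he
    rw [hμeq]
    exact Multiset.mem_cons_of_mem (Multiset.mem_cons_of_mem he)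
  have hμ₀even : ∀ e ∈ μ₀, Even e := fun e he => hall e (hμ₀mem e he)
  obtain ⟨μ', hμ'⟩ : ∃ μ', μ' = (c + 1) ::ₘ (c - 1) ::ₘ μ₀ := ⟨_, rfl⟩
  have hodd1 : Odd (c + 1) := hceven.add_one
  have hodd2 : Odd (c - 1) := by
    obtain ⟨t, ht⟩ := hceven
    exact ⟨t - 1, by omega⟩
  have hA : ∀ e ∈ μ', 0 < e ∧ e ≤ p := by
    intro e he
    rw [hμ', Multiset.mem_cons, Multiset.mem_cons] at he
    rcases he with rfl | rfl | he
    · obtain ⟨t, ht⟩ := hceven
      obtain ⟨s, hs⟩ := hp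
      omega
    · obtain ⟨t, ht⟩ := hceven
      omega
    · exact hμ e (hμ₀mem e he)
  have hB : ∀ e : ℕ, Even e → Even (μ'.count e) := by
    intro e he
    have h1 : e ≠ c + 1 := by
      rintro rfl
      exact absurd he (Nat.not_even_iff_odd.2 hodd1)
    have h2 : e ≠ c - 1 := by
      rintro rfl
      exact absurd he (Nat.not_even_iff_odd.2 hodd2)
    rw [hμ', Multiset.count_cons_of_ne h1, Multiset.count_cons_of_ne h2]
    have h3 := hμev e he
    rw [hμeq, Multiset.count_cons, Multiset.count_cons] at h3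
    by_cases hec : e = c
    · rw [if_pos hec] at h3
      obtain ⟨t, ht⟩ := h3
      exact ⟨t - 1, by omega⟩
    · rw [if_neg hec, add_zero, add_zero] at h3
      exact h3
  have hC : μ'.sum = 2 * d := by
    rw [hμ', Multiset.sum_cons, Multiset.sum_cons, ← hsum, hμeq, Multiset.sum_cons,
      Multiset.sum_cons]
    omega
  obtain ⟨ν', hν1, hν2, hν3⟩ := hreal μ' hA hB hC
    ⟨c + 1, by rw [hμ']; exact Multiset.mem_cons_self _ _, hodd1⟩
  obtain ⟨ν₀, hν₀⟩ : ∃ ν₀, ν₀ = ν'.filter (fun e => Even e) := ⟨_, rfl⟩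
  obtain ⟨T, hT⟩ : ∃ T, T = ν'.filter (fun e => ¬ Even e) := ⟨_, rfl⟩
  have hsplit : ν' = ν₀ + T := by rw [hν₀, hT, Multiset.filter_add_not]
  have hν₀le : ν₀ ≤ μ₀ := by
    have h1 := Multiset.filter_le_filter (fun e => Even e) hν1
    rw [← hν₀, hμ', Multiset.filter_cons_of_neg (p := fun e => Even e) _
        (Nat.not_even_iff_odd.2 hodd1),
      Multiset.filter_cons_of_neg (p := fun e => Even e) _ (Nat.not_even_iff_odd.2 hodd2),
      (Multiset.filter_eq_self (p := fun e => Even e)).2 hμ₀even] at h1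
    exact h1
  have hTle : T ≤ (c + 1) ::ₘ {c - 1} := by
    have h1 := Multiset.filter_le_filter (fun e => ¬ Even e) hν1
    rw [← hT, hμ', Multiset.filter_cons_of_pos (p := fun e => ¬ Even e) _
        (Nat.not_even_iff_odd.2 hodd1),
      Multiset.filter_cons_of_pos (p := fun e => ¬ Even e) _ (Nat.not_even_iff_odd.2 hodd2),
      (Multiset.filter_eq_nil (p := fun e => ¬ Even e)).2
        (fun e he => not_not.2 (hμ₀even e he))] at h1
    exact h1
  have hν₀sum : 2 ∣ ν₀.sum := Multiset.dvd_sum (fun e he =>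
    even_iff_two_dvd.1 (hμ₀even e (Multiset.mem_of_le hν₀le he)))
  have hcount0 : ∀ e, Even e → ν₀.count e = ν'.count e := by
    intro e he
    rw [hν₀, Multiset.count_filter_of_pos he]
  have hsum' : ν₀.sum + T.sum = m := by rw [← hν2, hsplit, Multiset.sum_add]
  obtain ⟨s, hs⟩ := hceven
  obtain ⟨u, hu⟩ := hme
  obtain ⟨w, hw⟩ := hν₀sum
  have hcases : T = 0 ∨ T = (c + 1) ::ₘ {c - 1} := by
    by_cases hx : c + 1 ∈ T
    · have h1 : T.erase (c + 1) ≤ {c - 1} := by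
        have h0 := Multiset.erase_le_erase (c + 1) hTle
        rwa [Multiset.erase_cons_head] at h0
      rcases Multiset.le_singleton.1 h1 with h2 | h2
      · exfalso
        have h3 : T = {c + 1} := by
          rw [← Multiset.cons_erase hx, h2]
          rfl
        rw [h3, Multiset.sum_singleton] at hsum'
        omega
      · right
        rw [← Multiset.cons_erase hx, h2]
    · left
      have h1 : T ≤ {c - 1} := (Multiset.le_cons_of_notMem hx).1 hTle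
      rcases Multiset.le_singleton.1 h1 with h2 | h2
      · exact h2
      · exfalso
        rw [h2, Multiset.sum_singleton] at hsum'
        omega
  rcases hcases with hT0 | hT2
  · refine ⟨ν₀, hν₀le.trans ?_, ?_, ?_⟩
    · rw [hμeq]
      exact (Multiset.le_cons_self _ _).trans (Multiset.le_cons_self _ _)
    · rw [hT0, Multiset.sum_zero, add_zero] at hsum'
      exact hsum'
    · intro e he
      rw [hcount0 e he]
      exact hν3 e he
  · refine ⟨c ::ₘ c ::ₘ ν₀, ?_, ?_, ?_⟩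
    · rw [hμeq]
      exact Multiset.cons_le_cons _ (Multiset.cons_le_cons _ hν₀le)
    · rw [hT2, Multiset.sum_cons, Multiset.sum_singleton] at hsum'
      rw [Multiset.sum_cons, Multiset.sum_cons]
      omega
    · intro e he
      rw [Multiset.count_cons, Multiset.count_cons, hcount0 e he]
      obtain ⟨t, ht⟩ := hν3 e he
      by_cases hec : e = c
      · rw [if_pos hec]
        exact ⟨t + 1, by omega⟩
      · rw [if_neg hec]
        exact ⟨t, by omega⟩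

end combi

section assembly

open Matrix

theorem real_case {F : Type*} [Field F] [Fintype F] {p : ℕ} [Fact p.Prime] [CharP F p] {q : ℕ}
    (hq : Fintype.card F = q) (hqodd : Odd q)
    (d m : ℕ) (hd : 4 ≤ d) (hm : 2 ≤ m) (hme : Even m) (hmn : m + 2 ≤ 2 * d) (a b : F)
    (hab : ∀ x y : F, x ^ 2 + a * x * y + b * y ^ 2 = 0 → x = 0 ∧ y = 0)
    (h : (∀ x : GL ((Fin (d - 1) ⊕ Fin (d - 1)) ⊕ Fin 2) F, x ∈ Cfsg.Geo.omegaGL (Cfsg.quadFormMinus (d - 1) F a b) →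
      (∃ z : F, ((x ^ p : GL ((Fin (d - 1) ⊕ Fin (d - 1)) ⊕ Fin 2) F) : Matrix ((Fin (d - 1) ⊕ Fin (d - 1)) ⊕ Fin 2) ((Fin (d - 1) ⊕ Fin (d - 1)) ⊕ Fin 2) F) = z • (1 : Matrix ((Fin (d - 1) ⊕ Fin (d - 1)) ⊕ Fin 2) ((Fin (d - 1) ⊕ Fin (d - 1)) ⊕ Fin 2) F)) →
      (∀ z : F, (x : Matrix ((Fin (d - 1) ⊕ Fin (d - 1)) ⊕ Fin 2) ((Fin (d - 1) ⊕ Fin (d - 1)) ⊕ Fin 2) F) ≠ z • (1 : Matrix ((Fin (d - 1) ⊕ Fin (d - 1)) ⊕ Fin 2) ((Fin (d - 1) ⊕ Fin (d - 1)) ⊕ Fin 2) F)) →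
      ∃ W : Submodule F ((Fin (d - 1) ⊕ Fin (d - 1)) ⊕ Fin 2 → F), (Module.finrank F ↥W = m ∧ Cfsg.Geo.IsNondegenerateOn (QuadraticMap.polar (Cfsg.quadFormMinus (d - 1) F a b)) W ∧ ¬ Cfsg.Geo.IsPlusTypeOn (Cfsg.quadFormMinus (d - 1) F a b) W) ∧ W.map (Matrix.toLin' (x : Matrix ((Fin (d - 1) ⊕ Fin (d - 1)) ⊕ Fin 2) ((Fin (d - 1) ⊕ Fin (d - 1)) ⊕ Fin 2) F)) ≤ W))
    (μ : Multiset ℕ) (hμ : ∀ e ∈ μ, 0 < e ∧ e ≤ p) (hμev : ∀ e : ℕ, Even e → Even (μ.count e))
    (hsum : μ.sum = 2 * d) (hodd : ∃ a₀ ∈ μ, Odd a₀) :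
    ∃ ν : Multiset ℕ, ν ≤ μ ∧ ν.sum = m ∧ (∀ e : ℕ, Even e → Even (ν.count e))
      ∧ ¬ (∀ e ∈ ν, e = 2) := by
  classical
  have hpp : p.Prime := Fact.out
  have h2 : (2 : F) ≠ 0 := by
    apply Ring.two_ne_zero
    intro h3
    have h4 := FiniteField.even_card_iff_char_two.mp h3
    rw [hq] at h4
    rcases hqodd with ⟨k, hk⟩
    omega
  obtain ⟨r, hr⟩ : ∃ r, p = 2 * r + 1 := by
    rcases hpp.eq_two_or_odd' with h3 | h3
    · exfalso
      apply h2
      have h4 : ((p : ℕ) : F) = 0 := CharP.cast_eq_zero F p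
      rw [h3] at h4
      exact_mod_cast h4
    · exact h3
  by_cases hall : ∀ b ∈ μ, b = 1
  · refine ⟨Multiset.replicate m 1, ?_, by simp, ?_, ?_⟩
    · have h1 : μ = Multiset.replicate (Multiset.card μ) 1 := Multiset.eq_replicate_card.2 hall
      have hcard : Multiset.card μ = 2 * d := by
        have h3 := hsum
        rw [h1, Multiset.sum_replicate, smul_eq_mul, mul_one] at h3
        exact h3
      rw [h1, hcard, Multiset.replicate_le_replicate]
      omega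
    · intro e he
      rw [Multiset.count_replicate]
      by_cases h1 : 1 = e
      · rw [← h1] at he
        exact absurd he (by decide)
      · rw [if_neg h1]
        exact Even.zero
    · intro hc
      have h1 := hc 1 (Multiset.mem_replicate.2 ⟨by omega, rfl⟩)
      omega
  · push Not at hall
    obtain ⟨b₀, hb₀, hb₀1⟩ := hall
    obtain ⟨a₀, ha₀, ha₀odd⟩ := hodd
    obtain ⟨j1, hj1⟩ := ha₀odd
    have hsum0 : a₀ + (μ.erase a₀).sum = 2 * d := by
      rw [← hsum, ← Multiset.sum_cons, Multiset.cons_erase ha₀]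
    obtain ⟨a₁, ha₁, ha₁odd⟩ : ∃ a₁ ∈ μ.erase a₀, Odd a₁ := by
      by_contra hcon
      push Not at hcon
      have h3 : 2 ∣ (μ.erase a₀).sum := Multiset.dvd_sum (fun a ha =>
        even_iff_two_dvd.1 (Nat.not_odd_iff_even.1 (hcon a ha)))
      omega
    obtain ⟨j2, hj2⟩ := ha₁odd
    obtain ⟨μ', hμ'⟩ : ∃ μ', μ' = (μ.erase a₀).erase a₁ := ⟨_, rfl⟩
    have hμcons : μ = a₀ ::ₘ a₁ ::ₘ μ' := by
      rw [hμ', Multiset.cons_erase ha₁, Multiset.cons_erase ha₀]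
    have hμ'sum : a₀ + (a₁ + μ'.sum) = 2 * d := by
      rw [← hsum, hμcons, Multiset.sum_cons, Multiset.sum_cons]
    have hμ'ev : ∀ e, Even e → Even (μ'.count e) := by
      intro e he
      have hne0 : e ≠ a₀ := by
        rintro rfl
        rw [hj1] at he
        exact absurd he (Nat.not_even_iff_odd.2 ⟨j1, rfl⟩)
      have hne1 : e ≠ a₁ := by
        rintro rfl
        rw [hj2] at he
        exact absurd he (Nat.not_even_iff_odd.2 ⟨j2, rfl⟩)
      rw [hμ', Multiset.count_erase_of_ne hne1, Multiset.count_erase_of_ne hne0]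
      exact hμev e he
    obtain ⟨Lc, Ls, hL⟩ := exists_pairs (Multiset.card μ') μ' rfl hμ'ev
      ⟨d - j1 - j2 - 1, by omega⟩
    obtain ⟨lc, hlc⟩ : ∃ lc : Fin Lc.length → ℕ, lc = fun i => Lc.get i := ⟨_, rfl⟩
    obtain ⟨k1, hk1⟩ : ∃ k1 : Fin Ls.length → ℕ, k1 = fun i => (Ls.get i).1 := ⟨_, rfl⟩
    obtain ⟨k2, hk2⟩ : ∃ k2 : Fin Ls.length → ℕ, k2 = fun i => (Ls.get i).2 := ⟨_, rfl⟩
    obtain ⟨hf, hhf⟩ : ∃ hf : F, a = 2 * hf := ⟨a / 2, by field_simp⟩
    obtain ⟨dl, hdl⟩ : ∃ dl : F, b = dl + hf ^ 2 := ⟨b - hf ^ 2, by ring⟩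
    have hdl0 : dl ≠ 0 := by
      intro h0
      have h3 := hab (-hf) 1 (by rw [hhf, hdl, h0]; ring)
      exact one_ne_zero h3.2
    have hmap : (Finset.univ : Finset (((Fin Lc.length ⊕ Fin Lc.length)
        ⊕ (Fin Ls.length ⊕ Fin Ls.length)) ⊕ (Unit ⊕ Unit))).val.map (elly lc k1 k2 j1 j2)
        = μ := by
      rw [univ_sum_map, univ_sum_map, univ_sum_map, univ_sum_map, univ_sum_map]
      show (Finset.univ.val.map (fun i : Fin Lc.length => lc i))
          + (Finset.univ.val.map (fun i : Fin Lc.length => lc i))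
          + ((Finset.univ.val.map (fun i : Fin Ls.length => 2 * k1 i + 1))
            + (Finset.univ.val.map (fun i : Fin Ls.length => 2 * k2 i + 1)))
          + (((Finset.univ : Finset Unit).val.map (fun _ => 2 * j1 + 1))
            + ((Finset.univ : Finset Unit).val.map (fun _ => 2 * j2 + 1))) = μ
      rw [Fin.univ_val_map, Fin.univ_val_map, Fin.univ_val_map, hlc, hk1, hk2]
      have e1 : List.ofFn (fun i : Fin Ls.length => 2 * (Ls.get i).1 + 1)
          = Ls.map (fun q => 2 * q.1 + 1) := by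
        rw [List.ofFn_comp' Ls.get (fun q : ℕ × ℕ => 2 * q.1 + 1), List.ofFn_get]
      have e2 : List.ofFn (fun i : Fin Ls.length => 2 * (Ls.get i).2 + 1)
          = Ls.map (fun q => 2 * q.2 + 1) := by
        rw [List.ofFn_comp' Ls.get (fun q : ℕ × ℕ => 2 * q.2 + 1), List.ofFn_get]
      have e3 : (Finset.univ : Finset Unit).val.map (fun _ => 2 * j1 + 1)
          = ({a₀} : Multiset ℕ) := by
        rw [hj1]
        rfl
      have e4 : (Finset.univ : Finset Unit).val.map (fun _ => 2 * j2 + 1)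
          = ({a₁} : Multiset ℕ) := by
        rw [hj2]
        rfl
      rw [e1, e2, e3, e4, List.ofFn_get, hμcons, hL, ← Multiset.singleton_add,
        ← Multiset.singleton_add]
      abel
    have hℓmem : ∀ bb, elly lc k1 k2 j1 j2 bb ∈ μ := by
      intro bb
      rw [← hmap]
      exact Multiset.mem_map_of_mem _ (Finset.mem_univ_val bb)
    have hℓp : ∀ bb, elly lc k1 k2 j1 j2 bb ≤ p := fun bb => (hμ _ (hℓmem bb)).2
    have hcountℓ : ∀ c, μ.count c
        = (Finset.univ.filter (fun bb => c = elly lc k1 k2 j1 j2 bb)).card := by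
      intro c
      have h1 := congrArg (Multiset.count c) hmap
      rw [← h1, Multiset.count_map]
      rfl
    have hsumℓ : ∑ bb, elly lc k1 k2 j1 j2 bb = 2 * d := by
      rw [Finset.sum_eq_multiset_sum, hmap, hsum]
    have hcardI : Fintype.card (Σ bb, Fin (elly lc k1 k2 j1 j2 bb)) = 2 * d := by
      rw [Fintype.card_sigma]
      simp only [Fintype.card_fin]
      exact hsumℓ
    have hcardL : Fintype.card (Lam lc k1 k2 ⊕ (Fin j1 ⊕ Fin j2)) = d - 1 := by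
      have h3 := card_modely lc k1 k2 j1 j2
      omega
    obtain ⟨e⟩ : Nonempty (Lam lc k1 k2 ⊕ (Fin j1 ⊕ Fin j2) ≃ Fin (d - 1)) :=
      ⟨Fintype.equivFinOfCardEq hcardL⟩
    obtain ⟨E, hE⟩ : ∃ E : ((Σ bb, Fin (elly lc k1 k2 j1 j2 bb)) → F)
        ≃ₗ[F] ((Fin (d - 1) ⊕ Fin (d - 1)) ⊕ Fin 2 → F),
        ∀ v, Cfsg.quadFormMinus (d - 1) F a b (E v) = Qy lc k1 k2 j1 j2 hf dl v := by
      refine ⟨(ELye lc k1 k2 j1 j2 hf dl h2 hdl0).trans
        (LinearEquiv.funCongrLeft F F (Equiv.sumCongr (Equiv.sumCongr e.symm e.symm)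
          (Equiv.refl (Fin 2)))), ?_⟩
      intro v
      rw [hhf, hdl]
      unfold Cfsg.quadFormMinus Qy
      rw [← Equiv.sum_comp e.symm]
      rfl
    obtain ⟨xV, c, c', hiso, hxN, hcomm, hcc', hc'c⟩ := cayley h2 (ByL lc k1 k2 j1 j2 dl)
      (shiftT (elly lc k1 k2 j1 j2)) (fun u v => By_skew lc k1 k2 j1 j2 dl u v) p
      (shiftT_pow_eq_zero _ p hℓp)
    have hQiso : ∀ v, Qy lc k1 k2 j1 j2 hf dl (xV v) = Qy lc k1 k2 j1 j2 hf dl v := by
      intro v
      have h3 := hiso v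
      rw [ByL_apply, ByL_apply, By_self lc k1 k2 j1 j2 hf dl h2,
        By_self lc k1 k2 j1 j2 hf dl h2] at h3
      exact mul_left_cancel₀ h2 h3
    obtain ⟨X, hX⟩ : ∃ X : Module.End F ((Fin (d - 1) ⊕ Fin (d - 1)) ⊕ Fin 2 → F),
        ∀ v, X (E v) = E (xV v) :=
      ⟨E.conj xV, fun v => by rw [LinearEquiv.conj_apply_apply, LinearEquiv.symm_apply_apply]⟩
    obtain ⟨Nst, hNst⟩ : ∃ Nst : Module.End F ((Fin (d - 1) ⊕ Fin (d - 1)) ⊕ Fin 2 → F),
        ∀ v, Nst (E v) = E (shiftT (elly lc k1 k2 j1 j2) v) :=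
      ⟨E.conj (shiftT (elly lc k1 k2 j1 j2)), fun v => by
        rw [LinearEquiv.conj_apply_apply, LinearEquiv.symm_apply_apply]⟩
    obtain ⟨C, hC⟩ : ∃ C : Module.End F ((Fin (d - 1) ⊕ Fin (d - 1)) ⊕ Fin 2 → F),
        ∀ v, C (E v) = E (c v) :=
      ⟨E.conj c, fun v => by rw [LinearEquiv.conj_apply_apply, LinearEquiv.symm_apply_apply]⟩
    obtain ⟨C', hC'⟩ : ∃ C' : Module.End F ((Fin (d - 1) ⊕ Fin (d - 1)) ⊕ Fin 2 → F),
        ∀ v, C' (E v) = E (c' v) :=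
      ⟨E.conj c', fun v => by rw [LinearEquiv.conj_apply_apply, LinearEquiv.symm_apply_apply]⟩
    have hXN : X - 1 = Nst * C := by
      apply LinearMap.ext
      intro w
      obtain ⟨v, rfl⟩ := E.surjective w
      rw [LinearMap.sub_apply, Module.End.one_apply, hX, Module.End.mul_apply, hC, hNst,
        ← map_sub]
      have h3 := congrArg (fun S : Module.End F ((Σ bb, Fin (elly lc k1 k2 j1 j2 bb)) → F) =>
        S v) hxN
      simp only [LinearMap.sub_apply, Module.End.one_apply, Module.End.mul_apply] at h3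
      rw [h3]
    have hNC : Commute Nst C := by
      show Nst * C = C * Nst
      apply LinearMap.ext
      intro w
      obtain ⟨v, rfl⟩ := E.surjective w
      rw [Module.End.mul_apply, Module.End.mul_apply, hC, hNst, hNst, hC]
      have h3 := congrArg (fun S : Module.End F ((Σ bb, Fin (elly lc k1 k2 j1 j2 bb)) → F) =>
        S v) hcomm.eq
      simp only [Module.End.mul_apply] at h3
      rw [h3]
    have hCC' : C * C' = 1 := by
      apply LinearMap.ext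
      intro w
      obtain ⟨v, rfl⟩ := E.surjective w
      rw [Module.End.mul_apply, hC', hC, Module.End.one_apply]
      have h3 := congrArg (fun S : Module.End F ((Σ bb, Fin (elly lc k1 k2 j1 j2 bb)) → F) =>
        S v) hcc'
      simp only [Module.End.mul_apply, Module.End.one_apply] at h3
      rw [h3]
    have hC'C : C' * C = 1 := by
      apply LinearMap.ext
      intro w
      obtain ⟨v, rfl⟩ := E.surjective w
      rw [Module.End.mul_apply, hC, hC', Module.End.one_apply]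
      have h3 := congrArg (fun S : Module.End F ((Σ bb, Fin (elly lc k1 k2 j1 j2 bb)) → F) =>
        S v) hc'c
      simp only [Module.End.mul_apply, Module.End.one_apply] at h3
      rw [h3]
    have hgk : ∀ k, gk (X - 1) ⊤ k
        = (Finset.univ.filter (fun bb => k < elly lc k1 k2 j1 j2 bb)).card := by
      intro k
      rw [hXN, gk_mul_unit Nst C C' hNC hCC' hC'C k,
        gk_model (elly lc k1 k2 j1 j2) E Nst hNst k, Fintype.card_subtype]
    have hstep : ∀ k, (Finset.univ.filter (fun bb => k < elly lc k1 k2 j1 j2 bb)).card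
        = (Finset.univ.filter (fun bb => k + 1 < elly lc k1 k2 j1 j2 bb)).card
          + (Finset.univ.filter (fun bb => k + 1 = elly lc k1 k2 j1 j2 bb)).card := by
      intro k
      simp only [Finset.card_filter]
      rw [← Finset.sum_add_distrib]
      apply Finset.sum_congr rfl
      intro bb _
      split_ifs <;> omega
    have hμg : ∀ k, k < p → μ.count (k + 1) = gk (X - 1) ⊤ k - gk (X - 1) ⊤ (k + 1) := by
      intro k _
      rw [hgk, hgk, hcountℓ, hstep k]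
      omega
    have hXNp : (X - 1) ^ p = 0 := by
      rw [hXN, hNC.mul_pow, model_pow_eq_zero (elly lc k1 k2 j1 j2) E Nst hNst p hℓp, zero_mul]
    have hXp : X ^ p = 1 := by
      have h3 := one_add_pow_eq p (X - 1) hXNp
      rwa [add_sub_cancel] at h3
    have hXQ : ∀ w, Cfsg.quadFormMinus (d - 1) F a b (X w)
        = Cfsg.quadFormMinus (d - 1) F a b w := by
      intro w
      obtain ⟨v, rfl⟩ := E.surjective w
      rw [hX, hE, hE, hQiso]
    have hp1 : p = (p - 1) + 1 := by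
      have := hpp.pos
      omega
    obtain ⟨g, hg⟩ : ∃ g : GL ((Fin (d - 1) ⊕ Fin (d - 1)) ⊕ Fin 2) F,
        (g : Matrix ((Fin (d - 1) ⊕ Fin (d - 1)) ⊕ Fin 2) ((Fin (d - 1) ⊕ Fin (d - 1)) ⊕ Fin 2) F) = LinearMap.toMatrix' X := by
      refine ⟨⟨LinearMap.toMatrix' X, LinearMap.toMatrix' (X ^ (p - 1)), ?_, ?_⟩, rfl⟩
      · rw [← LinearMap.toMatrix'_mul, ← pow_succ', ← hp1, hXp, LinearMap.toMatrix'_one]
      · rw [← LinearMap.toMatrix'_mul, ← pow_succ, ← hp1, hXp, LinearMap.toMatrix'_one]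
    have hglin : Matrix.toLin' (g : Matrix ((Fin (d - 1) ⊕ Fin (d - 1)) ⊕ Fin 2) ((Fin (d - 1) ⊕ Fin (d - 1)) ⊕ Fin 2) F) = X := by
      rw [hg]
      exact Matrix.toLin'_toMatrix' X
    have hgmul : ∀ w, (g : Matrix ((Fin (d - 1) ⊕ Fin (d - 1)) ⊕ Fin 2) ((Fin (d - 1) ⊕ Fin (d - 1)) ⊕ Fin 2) F) *ᵥ w = X w := by
      intro w
      rw [← Matrix.toLin'_apply, hglin]
    have hgp : g ^ p = 1 := by
      apply Units.ext
      rw [Units.val_pow_eq_pow_val, Units.val_one]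
      have h1 : Matrix.toLin' ((g : Matrix ((Fin (d - 1) ⊕ Fin (d - 1)) ⊕ Fin 2) ((Fin (d - 1) ⊕ Fin (d - 1)) ⊕ Fin 2) F) ^ p)
          = Matrix.toLin' (1 : Matrix ((Fin (d - 1) ⊕ Fin (d - 1)) ⊕ Fin 2) ((Fin (d - 1) ⊕ Fin (d - 1)) ⊕ Fin 2) F) := by
        rw [Matrix.toLin'_pow, hglin, hXp, Matrix.toLin'_one]
        rfl
      exact Matrix.toLin'.injective h1
    have hmem : g ∈ Cfsg.isometryGroup F (Cfsg.quadFormMinus (d - 1) F a b) :=
      (Cfsg.Agent.Lib.Helper16.mem_isometryGroup_iff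
        (Cfsg.Agent.Lib.Helper16.qfMinus (d - 1) F a b) g).mpr
        (fun w => by
          rw [hgmul]
          exact hXQ w)
    have hΩ : g ∈ Cfsg.Geo.omegaGL (Cfsg.quadFormMinus (d - 1) F a b) := by
      obtain ⟨g', hg'⟩ : ∃ g' : ↥(Cfsg.isometryGroup F (Cfsg.quadFormMinus (d - 1) F a b)),
          g' = ⟨g, hmem⟩ := ⟨_, rfl⟩
      have hg'p : g' ^ p = 1 := by
        apply Subtype.ext
        rw [hg']
        exact hgp
      have hsq : g' = g' ^ (r + 1) * g' ^ (r + 1) := by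
        rw [← pow_add]
        have h3 : r + 1 + (r + 1) = p + 1 := by omega
        rw [h3, pow_succ, hg'p, one_mul]
      have hn : 2 ≤ Fintype.card ((Fin (d - 1) ⊕ Fin (d - 1)) ⊕ Fin 2) := by
        simp only [Fintype.card_sum, Fintype.card_fin]
        omega
      have h3 := Cfsg.Agent.Lib.Helper3.sq_mem_omega
        (Cfsg.Agent.Lib.Helper16.qfMinus (d - 1) F a b) h2
        (Cfsg.Agent.Lib.Helper16.qfMinus_nondeg (d - 1) F a b h2 hab) hn (g' ^ (r + 1))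
      have h4 : g' ∈ Cfsg.Omega F (Cfsg.quadFormMinus (d - 1) F a b) := by
        rw [hsq]
        exact h3
      refine Subgroup.mem_map.2 ⟨g', h4, ?_⟩
      rw [hg']
      rfl
    have hnsc : ∀ z : F, (g : Matrix ((Fin (d - 1) ⊕ Fin (d - 1)) ⊕ Fin 2) ((Fin (d - 1) ⊕ Fin (d - 1)) ⊕ Fin 2) F)
        ≠ z • (1 : Matrix ((Fin (d - 1) ⊕ Fin (d - 1)) ⊕ Fin 2) ((Fin (d - 1) ⊕ Fin (d - 1)) ⊕ Fin 2) F) := by
      intro z hz
      have hXz : X = z • (1 : Module.End F ((Fin (d - 1) ⊕ Fin (d - 1)) ⊕ Fin 2 → F)) := by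
        rw [← hglin, hz, map_smul, Matrix.toLin'_one]
        rfl
      have hNz : X - 1 = (z - 1) • (1 : Module.End F ((Fin (d - 1) ⊕ Fin (d - 1)) ⊕ Fin 2 → F)) := by
        rw [hXz]
        apply LinearMap.ext
        intro v
        simp only [LinearMap.sub_apply, LinearMap.smul_apply, Module.End.one_apply, sub_smul,
          one_smul]
      have hz1 : z = 1 := by
        have h1 : ((z - 1) • (1 : Module.End F ((Fin (d - 1) ⊕ Fin (d - 1)) ⊕ Fin 2 → F))) ^ p = 0 := by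
          rw [← hNz]
          exact hXNp
        rw [smul_pow, one_pow] at h1
        have h3 := congrArg (fun T : Module.End F ((Fin (d - 1) ⊕ Fin (d - 1)) ⊕ Fin 2 → F) =>
          T (fun _ => (1 : F)) (Sum.inr 0)) h1
        simp only [LinearMap.smul_apply, Module.End.one_apply, Pi.smul_apply, smul_eq_mul,
          mul_one, LinearMap.zero_apply, Pi.zero_apply] at h3
        exact sub_eq_zero.1 (pow_eq_zero_iff hpp.ne_zero |>.1 h3)
      have hN0 : X - 1 = 0 := by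
        rw [hNz, hz1, sub_self, zero_smul]
      have hg1 := hgk 1
      have h3 : gk (X - 1) ⊤ 1 = 0 := by
        unfold gk
        rw [hN0, pow_one, Submodule.map_zero, inf_bot_eq, finrank_bot]
      rw [h3] at hg1
      have hb₀' : b₀ ∈ (Finset.univ : Finset (((Fin Lc.length ⊕ Fin Lc.length)
          ⊕ (Fin Ls.length ⊕ Fin Ls.length)) ⊕ (Unit ⊕ Unit))).val.map
            (elly lc k1 k2 j1 j2) := by
        rw [hmap]
        exact hb₀
      obtain ⟨bb, -, hbb⟩ := Multiset.mem_map.1 hb₀'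
      have h4 : bb ∈ Finset.univ.filter (fun bb => 1 < elly lc k1 k2 j1 j2 bb) := by
        rw [Finset.mem_filter]
        refine ⟨Finset.mem_univ _, ?_⟩
        rw [hbb]
        have := (hμ b₀ hb₀).1
        omega
      have := Finset.card_pos.2 ⟨_, h4⟩
      omega
    obtain ⟨W, ⟨hWdim, hWnd, hWnp⟩, hWinv⟩ := h g hΩ
      ⟨1, by rw [hgp, Units.val_one, one_smul]⟩ hnsc
    rw [hglin] at hWinv
    obtain ⟨Bp, hBp, hBnd⟩ : ∃ Bp : LinearMap.BilinForm F ((Fin (d - 1) ⊕ Fin (d - 1)) ⊕ Fin 2 → F),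
        (∀ u v, Bp u v = QuadraticMap.polar (Cfsg.quadFormMinus (d - 1) F a b) u v)
          ∧ Bp.Nondegenerate :=
      ⟨QuadraticMap.polarBilin (Cfsg.Agent.Lib.Helper16.qfMinus (d - 1) F a b), fun u v => rfl,
        Cfsg.Agent.Lib.Helper16.qfMinus_nondeg (d - 1) F a b h2 hab⟩
    have hBsym : ∀ u v, Bp u v = Bp v u := by
      intro u v
      rw [hBp, hBp, QuadraticMap.polar_comm]
    have hBX : ∀ u v, Bp (X u) (X v) = Bp u v := by
      intro u v
      rw [hBp, hBp]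
      unfold QuadraticMap.polar
      rw [← map_add, hXQ, hXQ, hXQ]
    have hXW : ∀ w ∈ W, X w ∈ W := fun w hw => hWinv (Submodule.mem_map_of_mem hw)
    have hdisj : Disjoint W (Bp.orthogonal W) := by
      rw [Submodule.disjoint_def]
      intro v hv1 hv2
      by_contra hv0
      obtain ⟨⟨u, hu, hne⟩, -⟩ := hWnd v hv1 hv0
      apply hne
      rw [← hBp]
      exact (LinearMap.BilinForm.mem_orthogonal_iff.1 hv2) u hu
    have hsup : W ⊔ Bp.orthogonal W = ⊤ := by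
      apply Submodule.eq_top_of_finrank_eq
      have h3 := Submodule.finrank_sup_add_finrank_inf_eq W (Bp.orthogonal W)
      rw [hdisj.eq_bot, finrank_bot, add_zero] at h3
      have h4 := LinearMap.BilinForm.finrank_orthogonal hBnd W
      have h5 := Submodule.finrank_le W
      omega
    have hXsurjW : ∀ w ∈ W, ∃ w₀ ∈ W, X w₀ = w := by
      intro w hw
      refine ⟨(X ^ (p - 1)) w, map_pow_le X W hWinv (p - 1) (Submodule.mem_map_of_mem hw), ?_⟩
      rw [← Module.End.mul_apply, ← pow_succ', ← hp1, hXp, Module.End.one_apply]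
    have horthinv : (Bp.orthogonal W).map X ≤ Bp.orthogonal W := by
      rintro _ ⟨v, hv, rfl⟩
      rw [LinearMap.BilinForm.mem_orthogonal_iff]
      intro w hw
      obtain ⟨w₀, hw₀, rfl⟩ := hXsurjW w hw
      rw [hBX]
      exact (LinearMap.BilinForm.mem_orthogonal_iff.1 hv) w₀ hw₀
    have hNinv : W.map (X - 1) ≤ W := sub_one_invariant X W hWinv
    obtain ⟨ν, hν1, hν2, hν3, hν4⟩ := exists_nu' (X - 1) p W (Bp.orthogonal W)
      hNinv (sub_one_invariant X _ horthinv) hdisj hsup hXNp μ hμg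
    refine ⟨ν, hν1, by rw [hν2, hWdim], ?_, ?_⟩
    · intro e he
      by_cases hcase : e = 0 ∨ p < e
      · rw [hν4 e hcase]
        exact Even.zero
      · push Not at hcase
        obtain ⟨k, rfl⟩ : ∃ k, e = k + 1 := ⟨e - 1, by omega⟩
        rw [hν3 k (by omega)]
        have hkodd : Odd k := by
          rcases Nat.even_or_odd k with h3 | h3
          · exact absurd he (Nat.not_even_iff_odd.2 h3.add_one)
          · exact h3
        refine parity_on Bp hBsym h2 X hBX W hXW (fun w hw hall => ?_) k hkodd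
        by_contra hw0
        obtain ⟨⟨u, hu, hne⟩, -⟩ := hWnd w hw hw0
        exact hne (by rw [← hBp]; exact hall u hu)
    · intro hall2
      apply hWnp
      have hν_rep : ν = Multiset.replicate (Multiset.card ν) 2 :=
        Multiset.eq_replicate_card.2 hall2
      have hsum2 : ν.sum = 2 * Multiset.card ν := by
        have h3 : ν.sum = (Multiset.replicate (Multiset.card ν) 2).sum :=
          congrArg Multiset.sum hν_rep
        rw [Multiset.sum_replicate, smul_eq_mul, mul_comm] at h3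
        exact h3
      have hc2 : ν.count 2 = Multiset.card ν :=
        Multiset.count_eq_card.2 (fun x hx => (hall2 x hx).symm)
      have hc1 : ν.count 1 = 0 := by
        apply Multiset.count_eq_zero_of_notMem
        intro h1
        have := hall2 1 h1
        omega
      have hg0 : ν.count 1 = gk (X - 1) W 0 - gk (X - 1) W 1 := hν3 0 hpp.pos
      have hg1 : ν.count 2 = gk (X - 1) W 1 - gk (X - 1) W 2 := hν3 1 hpp.one_lt
      have ha0 : gk (X - 1) W 1 ≤ gk (X - 1) W 0 := gk_anti (X - 1) W hNinv 0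
      have hsg := sum_gk (X - 1) W p
      have hle : ∑ k ∈ Finset.range 2, gk (X - 1) W k ≤ ∑ k ∈ Finset.range p, gk (X - 1) W k :=
        Finset.sum_le_sum_of_subset (Finset.range_mono hpp.two_le)
      rw [Finset.sum_range_succ, Finset.sum_range_one] at hle
      have hU : 2 * gk (X - 1) W 1 = Module.finrank F ↥W := by
        rw [hν2] at hsum2
        omega
      refine ⟨LinearMap.ker (X - 1) ⊓ W.map ((X - 1) ^ 1),
        inf_le_right.trans (map_pow_le (X - 1) W hNinv 1), ?_, hU⟩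
      intro w hw
      obtain ⟨hw1, hw2⟩ := Submodule.mem_inf.1 hw
      rw [pow_one] at hw2
      obtain ⟨u, hu, rfl⟩ := hw2
      obtain ⟨w, hwdef⟩ : ∃ w, w = (X - 1) u := ⟨_, rfl⟩
      rw [← hwdef] at hw1 ⊢
      have hwu : w = X u - u := by
        rw [hwdef, LinearMap.sub_apply, Module.End.one_apply]
      have hXw : X w = w := by
        have h3 : (X - 1) w = 0 := hw1
        rw [LinearMap.sub_apply, Module.End.one_apply, sub_eq_zero] at h3
        exact h3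
      have hB0 : Bp w w = 0 := by
        have h3 : Bp w w = Bp (X u) w - Bp u w := by
          have h4 : Bp (X u - u) w = Bp (X u) w - Bp u w := by
            rw [map_sub, LinearMap.sub_apply]
          rw [← h4, ← hwu]
        have h4 : Bp (X u) w = Bp u w := by
          have h5 := hBX u w
          rw [hXw] at h5
          exact h5
        rw [h3, h4, sub_self]
      have h5 := QuadraticMap.polar_self (Cfsg.Agent.Lib.Helper16.qfMinus (d - 1) F a b) w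
      rw [hBp] at hB0
      have h6 : (2 : F) * Cfsg.quadFormMinus (d - 1) F a b w = 0 := by
        rw [two_mul, ← two_nsmul]
        exact h5.symm.trans hB0
      exact (mul_eq_zero.1 h6).resolve_left h2

/-- A necessary condition for every element of order p of PΩ⁻_n(q), q odd, to fix an elliptic `m`-space. Here `T = PΩ⁻_n(F)`, `n = 2d ≥ 8`, realised through `Ω⁻_n(q)`, the commutator subgroup of the isometry group of `Q = Σ_{i<d−1} xᵢyᵢ + z₁² + a z₁z₂ + b z₂²` with `z₁² + a z₁z₂ + b z₂²` anisotropic, over the field `F` with `q` elements; an element of `T` of prime order `r` is an element `x` of `Ω⁻_n(q)` with `x^r` scalar and `x` not scalar; `q` is odd; a nondegenerate `m`-space (even `m`) is a subspace on which the polar form of `Q` is nondegenerate; it is hyperbolic if it contains an `m/2`-dimensional subspace on which `Q` vanishes, elliptic otherwise. Let `m` be even with `2 ≤ m ≤ n − 2` and suppose `p`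 divides the number of elliptic `m`-spaces. If every element of `T` of order `p` fixes some elliptic `m`-space, then `n ≡ m (mod 4)` and every partition of `n` into parts of size at most `p` in which every even part has even multiplicity contains (as a sub-multiset) a partition of `m` in which every even part has even multiplicity. -/
theorem result {F : Type*} [Field F] [Fintype F] {p : ℕ} [Fact p.Prime] [CharP F p] {q : ℕ} (hq : Fintype.card F = q) (hqodd : Odd q)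
    (d m : ℕ) (hd : 4 ≤ d) (hm : 2 ≤ m) (hme : Even m) (hmn : m + 2 ≤ 2 * d) (a b : F) (hab : ∀ x y : F, x ^ 2 + a * x * y + b * y ^ 2 = 0 → x = 0 ∧ y = 0)
    (hpΩ : p ∣ Nat.card {W : Submodule F ((Fin (d - 1) ⊕ Fin (d - 1)) ⊕ Fin 2 → F) // Module.finrank F ↥W = m ∧ Cfsg.Geo.IsNondegenerateOn (QuadraticMap.polar (Cfsg.quadFormMinus (d - 1) F a b)) W ∧ ¬ Cfsg.Geo.IsPlusTypeOn (Cfsg.quadFormMinus (d - 1) F a b) W}) :
    (∀ x : GL ((Fin (d - 1) ⊕ Fin (d - 1)) ⊕ Fin 2) F, x ∈ Cfsg.Geo.omegaGL (Cfsg.quadFormMinus (d - 1) F a b) →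
      (∃ z : F, ((x ^ p : GL ((Fin (d - 1) ⊕ Fin (d - 1)) ⊕ Fin 2) F) : Matrix ((Fin (d - 1) ⊕ Fin (d - 1)) ⊕ Fin 2) ((Fin (d - 1) ⊕ Fin (d - 1)) ⊕ Fin 2) F) = z • (1 : Matrix ((Fin (d - 1) ⊕ Fin (d - 1)) ⊕ Fin 2) ((Fin (d - 1) ⊕ Fin (d - 1)) ⊕ Fin 2) F)) →
      (∀ z : F, (x : Matrix ((Fin (d - 1) ⊕ Fin (d - 1)) ⊕ Fin 2) ((Fin (d - 1) ⊕ Fin (d - 1)) ⊕ Fin 2) F) ≠ z • (1 : Matrix ((Fin (d - 1) ⊕ Fin (d - 1)) ⊕ Fin 2) ((Fin (d - 1) ⊕ Fin (d - 1)) ⊕ Fin 2) F)) →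
      ∃ W : Submodule F ((Fin (d - 1) ⊕ Fin (d - 1)) ⊕ Fin 2 → F), (Module.finrank F ↥W = m ∧ Cfsg.Geo.IsNondegenerateOn (QuadraticMap.polar (Cfsg.quadFormMinus (d - 1) F a b)) W ∧ ¬ Cfsg.Geo.IsPlusTypeOn (Cfsg.quadFormMinus (d - 1) F a b) W) ∧ W.map (Matrix.toLin' (x : Matrix ((Fin (d - 1) ⊕ Fin (d - 1)) ⊕ Fin 2) ((Fin (d - 1) ⊕ Fin (d - 1)) ⊕ Fin 2) F)) ≤ W) →
    ((2 * d) % 4 = m % 4 ∧ (∀ μ : Multiset ℕ, (∀ e ∈ μ, 0 < e ∧ e ≤ p) → (∀ e : ℕ, Even e → Even (μ.count e)) → μ.sum = 2 * d →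
        ∃ ν : Multiset ℕ, ν ≤ μ ∧ ν.sum = m ∧ ∀ e : ℕ, Even e → Even (ν.count e))) := by
  intro h
  have hpp : p.Prime := Fact.out
  have h2 : (2 : F) ≠ 0 := by
    apply Ring.two_ne_zero
    intro h3
    have h4 := FiniteField.even_card_iff_char_two.mp h3
    rw [hq] at h4
    rcases hqodd with ⟨k, hk⟩
    omega
  obtain ⟨r, hr⟩ : ∃ r, p = 2 * r + 1 := by
    rcases hpp.eq_two_or_odd' with h3 | h3
    · exfalso
      apply h2
      have h4 : ((p : ℕ) : F) = 0 := CharP.cast_eq_zero F p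
      rw [h3] at h4
      exact_mod_cast h4
    · exact h3
  have hp3 : 3 ≤ p := by
    have := hpp.two_le
    omega
  have hreal := real_case hq hqodd d m hd hm hme hmn a b hab h
  have hreal' : ∀ μ : Multiset ℕ, (∀ e ∈ μ, 0 < e ∧ e ≤ p) →
      (∀ e : ℕ, Even e → Even (μ.count e)) → μ.sum = 2 * d → (∃ a₀ ∈ μ, Odd a₀) →
        ∃ ν : Multiset ℕ, ν ≤ μ ∧ ν.sum = m ∧ (∀ e : ℕ, Even e → Even (ν.count e)) := by
    intro μ hμ hμev hsum hodd
    obtain ⟨ν, h1, h3, h4, -⟩ := hreal μ hμ hμev hsum hodd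
    exact ⟨ν, h1, h3, h4⟩
  refine ⟨mod_four' p d m hp3 hd hme hreal, ?_⟩
  intro μ hμ hμev hsum
  by_cases hodd : ∃ a₀ ∈ μ, Odd a₀
  · exact hreal' μ hμ hμev hsum hodd
  · push Not at hodd
    exact even_case p d m ⟨r, hr⟩ hd hme hreal' μ hμ hμev hsum
      (fun e he => Nat.not_odd_iff_even.1 (hodd e he))

end assembly

end Cfsg.Agent.S5994
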