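import Mathlib
import Cfsg.Agent.S5959
import Cfsg.Agent.S5996
import Cfsg.Agent.Lib.Helper16.SpinForms
import Cfsg.Agent.Lib.Helper16.SpinRefl
import Cfsg.Agent.Lib.Helper3.OmegaTools
import Cfsg.Statements.S5995

set_option autoImplicit false
open scoped MatrixGroups
open Cfsg

namespace Cfsg.Agent.S5995

open Cfsg.Agent.S5959 Cfsg.Agent.S5996

section modelx

variable {F : Type*} [Field F] {Kc Ks : Type*} (lc : Kc → ℕ) (k1 k2 : Ks → ℕ) (k0 : ℕ)

/-- block sizes of the extended model: one further block of odd size -/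
abbrev ellx : ((Kc ⊕ Kc) ⊕ (Ks ⊕ Ks)) ⊕ Unit → ℕ :=
  Sum.elim (ell lc k1 k2) (fun _ => 2 * k0 + 1)

/-- restriction to the blocks of the even-dimensional model -/
def rs : ((Σ b : ((Kc ⊕ Kc) ⊕ (Ks ⊕ Ks)) ⊕ Unit, Fin (ellx lc k1 k2 k0 b)) → F)
    →ₗ[F] ((Σ b : (Kc ⊕ Kc) ⊕ (Ks ⊕ Ks), Fin (ell lc k1 k2 b)) → F) where
  toFun v y := v ⟨Sum.inl y.1, y.2⟩
  map_add' v w := rfl
  map_smul' c v := rfl

theorem rs_apply (v : (Σ b : ((Kc ⊕ Kc) ⊕ (Ks ⊕ Ks)) ⊕ Unit, Fin (ellx lc k1 k2 k0 b)) → F)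
    (y : Σ b : (Kc ⊕ Kc) ⊕ (Ks ⊕ Ks), Fin (ell lc k1 k2 b)) :
    rs lc k1 k2 k0 v y = v ⟨Sum.inl y.1, y.2⟩ := rfl

theorem hat_rs (v : (Σ b : ((Kc ⊕ Kc) ⊕ (Ks ⊕ Ks)) ⊕ Unit, Fin (ellx lc k1 k2 k0 b)) → F)
    (b : (Kc ⊕ Kc) ⊕ (Ks ⊕ Ks)) (j : ℕ) :
    hat (ell lc k1 k2) (rs lc k1 k2 k0 v) b j = hat (ellx lc k1 k2 k0) v (Sum.inl b) j := rfl

theorem rs_shift (v : (Σ b : ((Kc ⊕ Kc) ⊕ (Ks ⊕ Ks)) ⊕ Unit, Fin (ellx lc k1 k2 k0 b)) → F) :
    rs lc k1 k2 k0 (shiftT (ellx lc k1 k2 k0) v) = shiftT (ell lc k1 k2) (rs lc k1 k2 k0 v) :=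
  rfl

variable [Fintype Kc] [Fintype Ks]

/-- the bilinear form of the extended model, as a function -/
def Bx (v w : (Σ b : ((Kc ⊕ Kc) ⊕ (Ks ⊕ Ks)) ⊕ Unit, Fin (ellx lc k1 k2 k0 b)) → F) : F :=
  Bm lc k1 k2 (rs lc k1 k2 k0 v) (rs lc k1 k2 k0 w)
    + 2 * (-1) ^ k0 * Sp (2 * k0 + 1) (hat (ellx lc k1 k2 k0) v (Sum.inr ()))
        (hat (ellx lc k1 k2 k0) w (Sum.inr ()))

theorem Bx_add_left
    (v v' w : (Σ b : ((Kc ⊕ Kc) ⊕ (Ks ⊕ Ks)) ⊕ Unit, Fin (ellx lc k1 k2 k0 b)) → F) :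
    Bx lc k1 k2 k0 (v + v') w = Bx lc k1 k2 k0 v w + Bx lc k1 k2 k0 v' w := by
  unfold Bx
  have e : hat (ellx lc k1 k2 k0) (v + v') (Sum.inr ())
      = fun j => hat (ellx lc k1 k2 k0) v (Sum.inr ()) j
        + hat (ellx lc k1 k2 k0) v' (Sum.inr ()) j :=
    funext (hat_add (ellx lc k1 k2 k0) v v' (Sum.inr ()))
  rw [map_add, Bm_add_left, e, Sp_add_left]
  ring

theorem Bx_add_right
    (v w w' : (Σ b : ((Kc ⊕ Kc) ⊕ (Ks ⊕ Ks)) ⊕ Unit, Fin (ellx lc k1 k2 k0 b)) → F) :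
    Bx lc k1 k2 k0 v (w + w') = Bx lc k1 k2 k0 v w + Bx lc k1 k2 k0 v w' := by
  unfold Bx
  have e : hat (ellx lc k1 k2 k0) (w + w') (Sum.inr ())
      = fun j => hat (ellx lc k1 k2 k0) w (Sum.inr ()) j
        + hat (ellx lc k1 k2 k0) w' (Sum.inr ()) j :=
    funext (hat_add (ellx lc k1 k2 k0) w w' (Sum.inr ()))
  rw [map_add, Bm_add_right, e, Sp_add_right]
  ring

theorem Bx_smul_left (c : F)
    (v w : (Σ b : ((Kc ⊕ Kc) ⊕ (Ks ⊕ Ks)) ⊕ Unit, Fin (ellx lc k1 k2 k0 b)) → F) :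
    Bx lc k1 k2 k0 (c • v) w = c * Bx lc k1 k2 k0 v w := by
  unfold Bx
  have e : hat (ellx lc k1 k2 k0) (c • v) (Sum.inr ())
      = fun j => c * hat (ellx lc k1 k2 k0) v (Sum.inr ()) j :=
    funext (hat_smul (ellx lc k1 k2 k0) c v (Sum.inr ()))
  rw [map_smul, Bm_smul_left, e, Sp_smul_left]
  ring

theorem Bx_smul_right (c : F)
    (v w : (Σ b : ((Kc ⊕ Kc) ⊕ (Ks ⊕ Ks)) ⊕ Unit, Fin (ellx lc k1 k2 k0 b)) → F) :
    Bx lc k1 k2 k0 v (c • w) = c * Bx lc k1 k2 k0 v w := by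
  unfold Bx
  have e : hat (ellx lc k1 k2 k0) (c • w) (Sum.inr ())
      = fun j => c * hat (ellx lc k1 k2 k0) w (Sum.inr ()) j :=
    funext (hat_smul (ellx lc k1 k2 k0) c w (Sum.inr ()))
  rw [map_smul, Bm_smul_right, e, Sp_smul_right]
  ring

theorem Bx_skew (v w : (Σ b : ((Kc ⊕ Kc) ⊕ (Ks ⊕ Ks)) ⊕ Unit, Fin (ellx lc k1 k2 k0 b)) → F) :
    Bx lc k1 k2 k0 (shiftT (ellx lc k1 k2 k0) v) w
      + Bx lc k1 k2 k0 v (shiftT (ellx lc k1 k2 k0) w) = 0 := by
  unfold Bx
  have e : ∀ (u : (Σ b : ((Kc ⊕ Kc) ⊕ (Ks ⊕ Ks)) ⊕ Unit, Fin (ellx lc k1 k2 k0 b)) → F),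
      hat (ellx lc k1 k2 k0) (shiftT (ellx lc k1 k2 k0) u) (Sum.inr ())
      = fun j => hat (ellx lc k1 k2 k0) u (Sum.inr ()) (j + 1) :=
    fun u => funext (hat_shift (ellx lc k1 k2 k0) u (Sum.inr ()))
  have hz : ∀ (u : (Σ b : ((Kc ⊕ Kc) ⊕ (Ks ⊕ Ks)) ⊕ Unit, Fin (ellx lc k1 k2 k0 b)) → F),
      hat (ellx lc k1 k2 k0) u (Sum.inr ()) (2 * k0 + 1) = 0 :=
    fun u => hat_ge (ellx lc k1 k2 k0) u (Sum.inr ()) _ le_rfl
  rw [rs_shift, rs_shift, e, e]
  have a := Bm_skew lc k1 k2 (rs lc k1 k2 k0 v) (rs lc k1 k2 k0 w)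
  have b := Sp_shift (2 * k0 + 1) (hat (ellx lc k1 k2 k0) v (Sum.inr ()))
    (hat (ellx lc k1 k2 k0) w (Sum.inr ())) (hz v) (hz w)
  linear_combination a + 2 * (-1) ^ k0 * b

/-- the bilinear form of the extended model -/
def BxL : LinearMap.BilinForm F
    ((Σ b : ((Kc ⊕ Kc) ⊕ (Ks ⊕ Ks)) ⊕ Unit, Fin (ellx lc k1 k2 k0 b)) → F) :=
  LinearMap.mk₂ F (Bx lc k1 k2 k0) (Bx_add_left lc k1 k2 k0)
    (fun c v w => by rw [Bx_smul_left, smul_eq_mul]) (Bx_add_right lc k1 k2 k0)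
    (fun c v w => by rw [Bx_smul_right, smul_eq_mul])

theorem BxL_apply (v w : (Σ b : ((Kc ⊕ Kc) ⊕ (Ks ⊕ Ks)) ⊕ Unit, Fin (ellx lc k1 k2 k0 b)) → F) :
    BxL lc k1 k2 k0 v w = Bx lc k1 k2 k0 v w := rfl

/-- first hyperbolic coordinates of the extended model -/
def Xx (v : (Σ b : ((Kc ⊕ Kc) ⊕ (Ks ⊕ Ks)) ⊕ Unit, Fin (ellx lc k1 k2 k0 b)) → F) :
    Lam lc k1 k2 ⊕ Fin k0 → F :=
  Sum.elim (Xc lc k1 k2 (rs lc k1 k2 k0 v))
    (fun j => hat (ellx lc k1 k2 k0) v (Sum.inr ()) j)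

/-- second hyperbolic coordinates of the extended model -/
def Yx (v : (Σ b : ((Kc ⊕ Kc) ⊕ (Ks ⊕ Ks)) ⊕ Unit, Fin (ellx lc k1 k2 k0 b)) → F) :
    Lam lc k1 k2 ⊕ Fin k0 → F :=
  Sum.elim (Yc lc k1 k2 (rs lc k1 k2 k0 v))
    (fun j => 2 * (-1) ^ k0 * ((-1) ^ (j : ℕ)
      * hat (ellx lc k1 k2 k0) v (Sum.inr ()) (2 * k0 - j)))

/-- the quadratic form of the extended model -/
def Qx (v : (Σ b : ((Kc ⊕ Kc) ⊕ (Ks ⊕ Ks)) ⊕ Unit, Fin (ellx lc k1 k2 k0 b)) → F) : F :=
  hat (ellx lc k1 k2 k0) v (Sum.inr ()) k0 ^ 2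
    + ∑ t : Lam lc k1 k2 ⊕ Fin k0, Xx lc k1 k2 k0 v t * Yx lc k1 k2 k0 v t

theorem Bx_self (h2 : (2 : F) ≠ 0)
    (v : (Σ b : ((Kc ⊕ Kc) ⊕ (Ks ⊕ Ks)) ⊕ Unit, Fin (ellx lc k1 k2 k0 b)) → F) :
    Bx lc k1 k2 k0 v v = 2 * Qx lc k1 k2 k0 v := by
  unfold Bx Qx
  rw [Bm_self lc k1 k2 h2, Sp_self_odd, Fintype.sum_sum_type]
  have h1 : ∑ j : Fin k0, Xx lc k1 k2 k0 v (Sum.inr j) * Yx lc k1 k2 k0 v (Sum.inr j)
      = 2 * (-1) ^ k0 * ∑ j ∈ Finset.range k0, (-1) ^ j
        * hat (ellx lc k1 k2 k0) v (Sum.inr ()) j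
        * hat (ellx lc k1 k2 k0) v (Sum.inr ()) (2 * k0 - j) := by
    show ∑ j : Fin k0, hat (ellx lc k1 k2 k0) v (Sum.inr ()) (j : ℕ)
      * (2 * (-1) ^ k0 * ((-1) ^ (j : ℕ)
        * hat (ellx lc k1 k2 k0) v (Sum.inr ()) (2 * k0 - (j : ℕ)))) = _
    rw [Fin.sum_univ_eq_sum_range (fun j => hat (ellx lc k1 k2 k0) v (Sum.inr ()) j
      * (2 * (-1) ^ k0 * ((-1) ^ j
        * hat (ellx lc k1 k2 k0) v (Sum.inr ()) (2 * k0 - j)))) k0, Finset.mul_sum]
    apply Finset.sum_congr rfl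
    intro j _
    ring
  have h3 : ∑ t : Lam lc k1 k2, Xx lc k1 k2 k0 v (Sum.inl t) * Yx lc k1 k2 k0 v (Sum.inl t)
      = Qm lc k1 k2 (rs lc k1 k2 k0 v) := rfl
  rw [h1, h3]
  have q1 := neg_one_sq (F := F) k0
  linear_combination 2 * (hat (ellx lc k1 k2 k0) v (Sum.inr ()) k0) ^ 2 * q1

/-- the coordinate map of the extended model -/
def ELx : ((Σ b : ((Kc ⊕ Kc) ⊕ (Ks ⊕ Ks)) ⊕ Unit, Fin (ellx lc k1 k2 k0 b)) → F)
    →ₗ[F] (Unit ⊕ ((Lam lc k1 k2 ⊕ Fin k0) ⊕ (Lam lc k1 k2 ⊕ Fin k0)) → F) where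
  toFun v := Sum.elim (fun _ => hat (ellx lc k1 k2 k0) v (Sum.inr ()) k0)
    (Sum.elim (Xx lc k1 k2 k0 v) (Yx lc k1 k2 k0 v))
  map_add' v w := by
    funext t
    rcases t with u | (t | j) | (t | j)
    · simp only [Sum.elim_inl, Pi.add_apply, hat_add]
    · show Xc lc k1 k2 (rs lc k1 k2 k0 (v + w)) t
        = Xc lc k1 k2 (rs lc k1 k2 k0 v) t + Xc lc k1 k2 (rs lc k1 k2 k0 w) t
      rw [map_add]
      exact congrFun ((EL lc k1 k2).map_add (rs lc k1 k2 k0 v) (rs lc k1 k2 k0 w)) (Sum.inl t)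
    · simp only [Sum.elim_inl, Sum.elim_inr, Pi.add_apply, Xx, hat_add]
    · show Yc lc k1 k2 (rs lc k1 k2 k0 (v + w)) t
        = Yc lc k1 k2 (rs lc k1 k2 k0 v) t + Yc lc k1 k2 (rs lc k1 k2 k0 w) t
      rw [map_add]
      exact congrFun ((EL lc k1 k2).map_add (rs lc k1 k2 k0 v) (rs lc k1 k2 k0 w)) (Sum.inr t)
    · simp only [Sum.elim_inl, Sum.elim_inr, Pi.add_apply, Yx, hat_add]
      ring
  map_smul' c v := by
    funext t
    rcases t with u | (t | j) | (t | j)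
    · simp only [Sum.elim_inl, Pi.smul_apply, smul_eq_mul, RingHom.id_apply, hat_smul]
    · show Xc lc k1 k2 (rs lc k1 k2 k0 (c • v)) t = c * Xc lc k1 k2 (rs lc k1 k2 k0 v) t
      rw [map_smul]
      exact congrFun ((EL lc k1 k2).map_smul c (rs lc k1 k2 k0 v)) (Sum.inl t)
    · simp only [Sum.elim_inl, Sum.elim_inr, Pi.smul_apply, smul_eq_mul, RingHom.id_apply, Xx,
        hat_smul]
    · show Yc lc k1 k2 (rs lc k1 k2 k0 (c • v)) t = c * Yc lc k1 k2 (rs lc k1 k2 k0 v) t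
      rw [map_smul]
      exact congrFun ((EL lc k1 k2).map_smul c (rs lc k1 k2 k0 v)) (Sum.inr t)
    · simp only [Sum.elim_inl, Sum.elim_inr, Pi.smul_apply, smul_eq_mul, RingHom.id_apply, Yx,
        hat_smul]
      ring

theorem ELx_inj (h2 : (2 : F) ≠ 0) : Function.Injective (ELx (F := F) lc k1 k2 k0) := by
  rw [injective_iff_map_eq_zero]
  intro v hv
  have hpm : ∀ n : ℕ, ((-1 : F)) ^ n ≠ 0 := fun n => pow_ne_zero _ (neg_ne_zero.2 one_ne_zero)
  have hrs : rs lc k1 k2 k0 v = 0 := by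
    apply EL_inj lc k1 k2 h2
    rw [map_zero]
    funext t
    rcases t with t | t
    · exact congrFun hv (Sum.inr (Sum.inl (Sum.inl t)))
    · exact congrFun hv (Sum.inr (Sum.inr (Sum.inl t)))
  have hext : ∀ j, j < 2 * k0 + 1 → hat (ellx lc k1 k2 k0) v (Sum.inr ()) j = 0 := by
    intro j hj
    rcases lt_trichotomy j k0 with h | h | h
    · exact congrFun hv (Sum.inr (Sum.inl (Sum.inr ⟨j, h⟩)))
    · rw [h]
      exact congrFun hv (Sum.inl ())
    · have h3 := congrFun hv (Sum.inr (Sum.inr (Sum.inr ⟨2 * k0 - j, by omega⟩)))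
      have h4 : 2 * (-1 : F) ^ k0 * ((-1) ^ (2 * k0 - j)
          * hat (ellx lc k1 k2 k0) v (Sum.inr ()) (2 * k0 - (2 * k0 - j))) = 0 := h3
      have e : 2 * k0 - (2 * k0 - j) = j := by omega
      rw [e] at h4
      exact (mul_eq_zero.1 ((mul_eq_zero.1 h4).resolve_left
        (mul_ne_zero h2 (hpm _)))).resolve_left (hpm _)
  funext y
  obtain ⟨b, j, hj⟩ := y
  rcases b with b | u
  · exact congrFun hrs ⟨b, ⟨j, hj⟩⟩
  · have h3 := hext j hj
    rw [hat_apply (ellx lc k1 k2 k0) v (Sum.inr ()) j hj] at h3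
    exact h3

theorem card_modelx :
    Fintype.card (Σ b : ((Kc ⊕ Kc) ⊕ (Ks ⊕ Ks)) ⊕ Unit, Fin (ellx lc k1 k2 k0 b))
      = 1 + 2 * Fintype.card (Lam lc k1 k2 ⊕ Fin k0) := by
  have e1 : Fintype.card (Σ b : ((Kc ⊕ Kc) ⊕ (Ks ⊕ Ks)) ⊕ Unit, Fin (ellx lc k1 k2 k0 b))
      = ∑ b, ellx lc k1 k2 k0 b := by
    rw [Fintype.card_sigma]
    exact Finset.sum_congr rfl (fun b _ => Fintype.card_fin _)
  have e2 : Fintype.card (Σ b : (Kc ⊕ Kc) ⊕ (Ks ⊕ Ks), Fin (ell lc k1 k2 b))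
      = ∑ b, ell lc k1 k2 b := by
    rw [Fintype.card_sigma]
    exact Finset.sum_congr rfl (fun b _ => Fintype.card_fin _)
  have e3 := card_model lc k1 k2
  rw [e2] at e3
  rw [e1, Fintype.sum_sum_type, Fintype.card_sum, Fintype.card_fin]
  show ∑ b, ell lc k1 k2 b + ∑ _u : Unit, (2 * k0 + 1) = _
  rw [e3]
  simp only [Finset.univ_unique, Finset.sum_singleton]
  ring

/-- the coordinate isomorphism of the extended model -/
noncomputable def ELxe (h2 : (2 : F) ≠ 0) :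
    ((Σ b : ((Kc ⊕ Kc) ⊕ (Ks ⊕ Ks)) ⊕ Unit, Fin (ellx lc k1 k2 k0 b)) → F)
      ≃ₗ[F] (Unit ⊕ ((Lam lc k1 k2 ⊕ Fin k0) ⊕ (Lam lc k1 k2 ⊕ Fin k0)) → F) :=
  LinearMap.linearEquivOfInjective (ELx lc k1 k2 k0) (ELx_inj lc k1 k2 k0 h2) (by
    rw [Module.finrank_fintype_fun_eq_card, Module.finrank_fintype_fun_eq_card, card_modelx]
    simp only [Fintype.card_sum, Fintype.card_unit]
    ring)

theorem ELxe_apply (h2 : (2 : F) ≠ 0)
    (v : (Σ b : ((Kc ⊕ Kc) ⊕ (Ks ⊕ Ks)) ⊕ Unit, Fin (ellx lc k1 k2 k0 b)) → F) :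
    ELxe lc k1 k2 k0 h2 v = ELx lc k1 k2 k0 v := rfl

end modelx

section assembly

open Matrix

theorem mod_four (p d m : ℕ) (hp3 : 3 ≤ p) (hme : Even m)
    (hpart : ∀ μ : Multiset ℕ, (∀ e ∈ μ, 0 < e ∧ e ≤ p) →
      (∀ e : ℕ, Even e → Even (μ.count e)) → μ.sum = 2 * d + 1 →
        ∃ ν : Multiset ℕ, ν ≤ μ ∧ ν.sum = m ∧ ∀ e : ℕ, Even e → Even (ν.count e)) :
    m % 4 = 0 := by
  obtain ⟨a, r, ha, hr, hsum⟩ : ∃ a r : ℕ, Even a ∧ (r = 1 ∨ r = 3) ∧ 2 * a + r = 2 * d + 1 := by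
    rcases Nat.even_or_odd d with h | h
    · exact ⟨d, 1, h, Or.inl rfl, rfl⟩
    · obtain ⟨k, hk⟩ := h
      refine ⟨d - 1, 3, ?_, Or.inr rfl, by omega⟩
      exact ⟨k, by omega⟩
  have hA : ∀ e ∈ Multiset.replicate a 2 + ({r} : Multiset ℕ), 0 < e ∧ e ≤ p := by
    intro e he
    rw [Multiset.mem_add, Multiset.mem_singleton] at he
    rcases he with he | he
    · rw [Multiset.eq_of_mem_replicate he]
      omega
    · omega
  have hB : ∀ e : ℕ, Even e → Even ((Multiset.replicate a 2 + ({r} : Multiset ℕ)).count e) := by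
    intro e he
    rw [Multiset.count_add, Multiset.count_replicate, Multiset.count_singleton]
    have hne : ¬ e = r := by
      rintro rfl
      rcases hr with rfl | rfl
      · exact absurd he (by decide)
      · exact absurd he (by decide)
    rw [if_neg hne, add_zero]
    split_ifs
    · exact ha
    · exact Even.zero
  have hC : (Multiset.replicate a 2 + ({r} : Multiset ℕ)).sum = 2 * d + 1 := by
    rw [Multiset.sum_add, Multiset.sum_replicate, Multiset.sum_singleton, smul_eq_mul]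
    omega
  obtain ⟨ν, hν1, hν2, hν3⟩ := hpart (Multiset.replicate a 2 + {r}) hA hB hC
  have h1 : ν = ν.filter (· = 2) + ν.filter (fun x => ¬ x = 2) :=
    (Multiset.filter_add_not _ _).symm
  have h2 : ν.filter (· = 2) = Multiset.replicate (ν.count 2) 2 := Multiset.filter_eq' ν 2
  have h3 : ν.filter (fun x => ¬ x = 2) ≤ {r} := by
    have h4 := Multiset.filter_le_filter (fun x => ¬ x = 2) hν1
    have h5 : (Multiset.replicate a 2 + {r}).filter (fun x => ¬ x = 2) = {r} := by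
      rw [Multiset.filter_add, Multiset.filter_eq_nil.2, zero_add, Multiset.filter_eq_self.2]
      · intro x hx
        rw [Multiset.mem_singleton] at hx
        omega
      · intro x hx
        rw [Multiset.eq_of_mem_replicate hx]
        simp
    rwa [h5] at h4
  obtain ⟨c, hc⟩ := hν3 2 (by decide)
  rcases Multiset.le_singleton.1 h3 with h7 | h7
  · have h8 : ν.sum = 2 * ν.count 2 := by
      conv_lhs => rw [h1, h2, h7]
      rw [add_zero, Multiset.sum_replicate, smul_eq_mul, mul_comm]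
    omega
  · have h8 : ν.sum = 2 * ν.count 2 + r := by
      conv_lhs => rw [h1, h2, h7]
      rw [Multiset.sum_add, Multiset.sum_replicate, smul_eq_mul, Multiset.sum_singleton,
        mul_comm]
    obtain ⟨t, ht⟩ := hme
    omega

/-- A necessary condition for every element of order p of Ω_n(q), nq odd, to fix a hyperbolic `m`-space. Here `T = Ω_n(F)`, `n = 2d+1 ≥ 7`, `q` odd, realised as the commutator subgroup of the isometry group of `Q = x₀² + Σ xᵢyᵢ` over the field `F` with `q` elements (trivial centre, so its elements of prime order `r` are used directly); a nondegenerate `m`-space (even `m`) is a subspace on which the polar form of `Q` is nondegenerate; it is hyperbolic if it contains an `m/2`-dimensional subspace on which `Q` vanishes, elliptic otherwise. Let `m` be even with `2 ≤ m ≤ n − 1` and suppose `p` divides the number of hyperbolic `m`-spaces. If every element of `T` of order `p` fixes some hyperbolic `m`-space,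 then `m ≡ 0 (mod 4)` and every partition of `n` into parts of size at most `p` in which every even part has even multiplicity contains (as a sub-multiset) a partition of `m` in which every even part has even multiplicity. -/
theorem result {F : Type*} [Field F] [Fintype F] {p : ℕ} [Fact p.Prime] [CharP F p] {q : ℕ} (hq : Fintype.card F = q) (hqodd : Odd q)
    (d m : ℕ) (hd : 3 ≤ d) (hm : 2 ≤ m) (hme : Even m) (hmn : m ≤ 2 * d)
    (hpΩ : p ∣ Nat.card {W : Submodule F (Unit ⊕ (Fin d ⊕ Fin d) → F) // Module.finrank F ↥W = m ∧ Cfsg.Geo.IsNondegenerateOn (QuadraticMap.polar (Cfsg.quadFormOdd d F)) W ∧ Cfsg.Geo.IsPlusTypeOn (Cfsg.quadFormOdd d F) W}) :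
    (∀ x : GL (Unit ⊕ (Fin d ⊕ Fin d)) F, x ∈ Cfsg.Geo.omegaGL (Cfsg.quadFormOdd d F) → orderOf x = p →
      ∃ W : Submodule F (Unit ⊕ (Fin d ⊕ Fin d) → F), (Module.finrank F ↥W = m ∧ Cfsg.Geo.IsNondegenerateOn (QuadraticMap.polar (Cfsg.quadFormOdd d F)) W ∧ Cfsg.Geo.IsPlusTypeOn (Cfsg.quadFormOdd d F) W) ∧ W.map (Matrix.toLin' (x : Matrix (Unit ⊕ (Fin d ⊕ Fin d)) (Unit ⊕ (Fin d ⊕ Fin d)) F)) ≤ W) →
    (m % 4 = 0 ∧ (∀ μ : Multiset ℕ, (∀ e ∈ μ, 0 < e ∧ e ≤ p) → (∀ e : ℕ, Even e → Even (μ.count e)) → μ.sum = 2 * d + 1 →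
        ∃ ν : Multiset ℕ, ν ≤ μ ∧ ν.sum = m ∧ ∀ e : ℕ, Even e → Even (ν.count e))) := by
  intro h
  classical
  have hpp : p.Prime := Fact.out
  have h2 : (2 : F) ≠ 0 := by
    apply Ring.two_ne_zero
    intro h3
    have h4 := FiniteField.even_card_iff_char_two.mp h3
    rw [hq] at h4
    rcases hqodd with ⟨k, hk⟩
    omega
  obtain ⟨r, hr⟩ : ∃ r, p = 2 * r + 1 := by
    rcases hpp.eq_two_or_odd' with h3 | h3
    · exfalso
      apply h2
      have h4 : ((p : ℕ) : F) = 0 := CharP.cast_eq_zero F p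
      rw [h3] at h4
      exact_mod_cast h4
    · exact h3
  have hp3 : 3 ≤ p := by
    have := hpp.two_le
    omega
  have hpart : ∀ μ : Multiset ℕ, (∀ e ∈ μ, 0 < e ∧ e ≤ p) →
      (∀ e : ℕ, Even e → Even (μ.count e)) → μ.sum = 2 * d + 1 →
        ∃ ν : Multiset ℕ, ν ≤ μ ∧ ν.sum = m ∧ ∀ e : ℕ, Even e → Even (ν.count e) := by
    intro μ hμ hμev hsum
    by_cases hall : ∀ b ∈ μ, b = 1
    · refine ⟨Multiset.replicate m 1, ?_, by simp, ?_⟩
      · have h1 : μ = Multiset.replicate (Multiset.card μ) 1 := Multiset.eq_replicate_card.2 hall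
        have hcard : Multiset.card μ = 2 * d + 1 := by
          have h3 := hsum
          rw [h1, Multiset.sum_replicate, smul_eq_mul, mul_one] at h3
          exact h3
        rw [h1, hcard, Multiset.replicate_le_replicate]
        omega
      · intro e he
        rw [Multiset.count_replicate]
        by_cases h1 : 1 = e
        · rw [← h1] at he
          exact absurd he (by decide)
        · rw [if_neg h1]
          exact Even.zero
    · push Not at hall
      obtain ⟨b₀, hb₀, hb₀1⟩ := hall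
      obtain ⟨a₀, ha₀, ha₀odd⟩ : ∃ a₀ ∈ μ, Odd a₀ := by
        by_contra hcon
        push Not at hcon
        have h3 : 2 ∣ μ.sum := Multiset.dvd_sum (fun a ha =>
          even_iff_two_dvd.1 (Nat.not_odd_iff_even.1 (hcon a ha)))
        rw [hsum] at h3
        omega
      obtain ⟨k0, hk0⟩ := ha₀odd
      obtain ⟨μ', hμ'⟩ : ∃ μ', μ' = μ.erase a₀ := ⟨_, rfl⟩
      have hμcons : μ = a₀ ::ₘ μ' := by rw [hμ', Multiset.cons_erase ha₀]
      have hμ'sum : a₀ + μ'.sum = 2 * d + 1 := by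
        rw [← hsum, hμcons, Multiset.sum_cons]
      have hμ'ev : ∀ e, Even e → Even (μ'.count e) := by
        intro e he
        have hne : e ≠ a₀ := by
          rintro rfl
          rw [hk0] at he
          exact absurd he (Nat.not_even_iff_odd.2 ⟨k0, rfl⟩)
        rw [hμ', Multiset.count_erase_of_ne hne]
        exact hμev e he
      obtain ⟨Lc, Ls, hL⟩ := exists_pairs (Multiset.card μ') μ' rfl hμ'ev ⟨d - k0, by omega⟩
      obtain ⟨lc, hlc⟩ : ∃ lc : Fin Lc.length → ℕ, lc = fun i => Lc.get i := ⟨_, rfl⟩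
      obtain ⟨k1, hk1⟩ : ∃ k1 : Fin Ls.length → ℕ, k1 = fun i => (Ls.get i).1 := ⟨_, rfl⟩
      obtain ⟨k2, hk2⟩ : ∃ k2 : Fin Ls.length → ℕ, k2 = fun i => (Ls.get i).2 := ⟨_, rfl⟩
      have hmap : (Finset.univ : Finset (((Fin Lc.length ⊕ Fin Lc.length)
          ⊕ (Fin Ls.length ⊕ Fin Ls.length)) ⊕ Unit)).val.map (ellx lc k1 k2 k0) = μ := by
        rw [univ_sum_map, univ_sum_map, univ_sum_map, univ_sum_map]
        show (Finset.univ.val.map (fun i : Fin Lc.length => lc i))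
            + (Finset.univ.val.map (fun i : Fin Lc.length => lc i))
            + ((Finset.univ.val.map (fun i : Fin Ls.length => 2 * k1 i + 1))
              + (Finset.univ.val.map (fun i : Fin Ls.length => 2 * k2 i + 1)))
            + ((Finset.univ : Finset Unit).val.map (fun _ => 2 * k0 + 1)) = μ
        rw [Fin.univ_val_map, Fin.univ_val_map, Fin.univ_val_map, hlc, hk1, hk2]
        have e1 : List.ofFn (fun i : Fin Ls.length => 2 * (Ls.get i).1 + 1)
            = Ls.map (fun q => 2 * q.1 + 1) := by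
          rw [List.ofFn_comp' Ls.get (fun q : ℕ × ℕ => 2 * q.1 + 1), List.ofFn_get]
        have e2 : List.ofFn (fun i : Fin Ls.length => 2 * (Ls.get i).2 + 1)
            = Ls.map (fun q => 2 * q.2 + 1) := by
          rw [List.ofFn_comp' Ls.get (fun q : ℕ × ℕ => 2 * q.2 + 1), List.ofFn_get]
        have e3 : (Finset.univ : Finset Unit).val.map (fun _ => 2 * k0 + 1)
            = ({a₀} : Multiset ℕ) := by
          rw [hk0]
          rfl
        rw [e1, e2, e3, List.ofFn_get, hμcons, hL, ← Multiset.singleton_add]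
        abel
      have hℓmem : ∀ b, ellx lc k1 k2 k0 b ∈ μ := by
        intro b
        rw [← hmap]
        exact Multiset.mem_map_of_mem _ (Finset.mem_univ_val b)
      have hℓp : ∀ b, ellx lc k1 k2 k0 b ≤ p := fun b => (hμ _ (hℓmem b)).2
      have hcountℓ : ∀ c, μ.count c
          = (Finset.univ.filter (fun b => c = ellx lc k1 k2 k0 b)).card := by
        intro c
        have h1 := congrArg (Multiset.count c) hmap
        rw [← h1, Multiset.count_map]
        rfl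
      have hsumℓ : ∑ b, ellx lc k1 k2 k0 b = 2 * d + 1 := by
        rw [Finset.sum_eq_multiset_sum, hmap, hsum]
      have hcardI : Fintype.card (Σ b, Fin (ellx lc k1 k2 k0 b)) = 2 * d + 1 := by
        rw [Fintype.card_sigma]
        simp only [Fintype.card_fin]
        exact hsumℓ
      have hcardL : Fintype.card (Lam lc k1 k2 ⊕ Fin k0) = d := by
        have h3 := card_modelx lc k1 k2 k0
        omega
      obtain ⟨e⟩ : Nonempty (Lam lc k1 k2 ⊕ Fin k0 ≃ Fin d) :=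
        ⟨Fintype.equivFinOfCardEq hcardL⟩
      obtain ⟨E, hE⟩ : ∃ E : ((Σ b, Fin (ellx lc k1 k2 k0 b)) → F)
          ≃ₗ[F] (Unit ⊕ (Fin d ⊕ Fin d) → F),
          ∀ v, Cfsg.quadFormOdd d F (E v) = Qx lc k1 k2 k0 v := by
        refine ⟨(ELxe lc k1 k2 k0 h2).trans
          (LinearEquiv.funCongrLeft F F (Equiv.sumCongr (Equiv.refl Unit)
            (Equiv.sumCongr e.symm e.symm))), ?_⟩
        intro v
        unfold Cfsg.quadFormOdd Qx
        rw [← Equiv.sum_comp e.symm]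
        rfl
      obtain ⟨xV, c, c', hiso, hxN, hcomm, hcc', hc'c⟩ := cayley h2 (BxL lc k1 k2 k0)
        (shiftT (ellx lc k1 k2 k0)) (fun u v => Bx_skew lc k1 k2 k0 u v) p
        (shiftT_pow_eq_zero _ p hℓp)
      have hQiso : ∀ v, Qx lc k1 k2 k0 (xV v) = Qx lc k1 k2 k0 v := by
        intro v
        have h3 := hiso v
        rw [BxL_apply, BxL_apply, Bx_self lc k1 k2 k0 h2, Bx_self lc k1 k2 k0 h2] at h3
        exact mul_left_cancel₀ h2 h3
      obtain ⟨X, hX⟩ : ∃ X : Module.End F (Unit ⊕ (Fin d ⊕ Fin d) → F),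
          ∀ v, X (E v) = E (xV v) :=
        ⟨E.conj xV, fun v => by rw [LinearEquiv.conj_apply_apply, LinearEquiv.symm_apply_apply]⟩
      obtain ⟨Nst, hNst⟩ : ∃ Nst : Module.End F (Unit ⊕ (Fin d ⊕ Fin d) → F),
          ∀ v, Nst (E v) = E (shiftT (ellx lc k1 k2 k0) v) :=
        ⟨E.conj (shiftT (ellx lc k1 k2 k0)), fun v => by
          rw [LinearEquiv.conj_apply_apply, LinearEquiv.symm_apply_apply]⟩
      obtain ⟨C, hC⟩ : ∃ C : Module.End F (Unit ⊕ (Fin d ⊕ Fin d) → F),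
          ∀ v, C (E v) = E (c v) :=
        ⟨E.conj c, fun v => by rw [LinearEquiv.conj_apply_apply, LinearEquiv.symm_apply_apply]⟩
      obtain ⟨C', hC'⟩ : ∃ C' : Module.End F (Unit ⊕ (Fin d ⊕ Fin d) → F),
          ∀ v, C' (E v) = E (c' v) :=
        ⟨E.conj c', fun v => by rw [LinearEquiv.conj_apply_apply, LinearEquiv.symm_apply_apply]⟩
      have hXN : X - 1 = Nst * C := by
        apply LinearMap.ext
        intro w
        obtain ⟨v, rfl⟩ := E.surjective w
        rw [LinearMap.sub_apply, Module.End.one_apply, hX, Module.End.mul_apply, hC, hNst,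
          ← map_sub]
        have h3 := congrArg (fun S : Module.End F ((Σ b, Fin (ellx lc k1 k2 k0 b)) → F) => S v)
          hxN
        simp only [LinearMap.sub_apply, Module.End.one_apply, Module.End.mul_apply] at h3
        rw [h3]
      have hNC : Commute Nst C := by
        show Nst * C = C * Nst
        apply LinearMap.ext
        intro w
        obtain ⟨v, rfl⟩ := E.surjective w
        rw [Module.End.mul_apply, Module.End.mul_apply, hC, hNst, hNst, hC]
        have h3 := congrArg (fun S : Module.End F ((Σ b, Fin (ellx lc k1 k2 k0 b)) → F) => S v)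
          hcomm.eq
        simp only [Module.End.mul_apply] at h3
        rw [h3]
      have hCC' : C * C' = 1 := by
        apply LinearMap.ext
        intro w
        obtain ⟨v, rfl⟩ := E.surjective w
        rw [Module.End.mul_apply, hC', hC, Module.End.one_apply]
        have h3 := congrArg (fun S : Module.End F ((Σ b, Fin (ellx lc k1 k2 k0 b)) → F) => S v)
          hcc'
        simp only [Module.End.mul_apply, Module.End.one_apply] at h3
        rw [h3]
      have hC'C : C' * C = 1 := by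
        apply LinearMap.ext
        intro w
        obtain ⟨v, rfl⟩ := E.surjective w
        rw [Module.End.mul_apply, hC, hC', Module.End.one_apply]
        have h3 := congrArg (fun S : Module.End F ((Σ b, Fin (ellx lc k1 k2 k0 b)) → F) => S v)
          hc'c
        simp only [Module.End.mul_apply, Module.End.one_apply] at h3
        rw [h3]
      have hgk : ∀ k, gk (X - 1) ⊤ k
          = (Finset.univ.filter (fun b => k < ellx lc k1 k2 k0 b)).card := by
        intro k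
        rw [hXN, gk_mul_unit Nst C C' hNC hCC' hC'C k,
          gk_model (ellx lc k1 k2 k0) E Nst hNst k, Fintype.card_subtype]
      have hstep : ∀ k, (Finset.univ.filter (fun b => k < ellx lc k1 k2 k0 b)).card
          = (Finset.univ.filter (fun b => k + 1 < ellx lc k1 k2 k0 b)).card
            + (Finset.univ.filter (fun b => k + 1 = ellx lc k1 k2 k0 b)).card := by
        intro k
        simp only [Finset.card_filter]
        rw [← Finset.sum_add_distrib]
        apply Finset.sum_congr rfl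
        intro b _
        split_ifs <;> omega
      have hμg : ∀ k, k < p → μ.count (k + 1) = gk (X - 1) ⊤ k - gk (X - 1) ⊤ (k + 1) := by
        intro k _
        rw [hgk, hgk, hcountℓ, hstep k]
        omega
      have hXNp : (X - 1) ^ p = 0 := by
        rw [hXN, hNC.mul_pow, model_pow_eq_zero (ellx lc k1 k2 k0) E Nst hNst p hℓp, zero_mul]
      have hXp : X ^ p = 1 := by
        have h3 := one_add_pow_eq p (X - 1) hXNp
        rwa [add_sub_cancel] at h3
      have hXQ : ∀ w, Cfsg.quadFormOdd d F (X w) = Cfsg.quadFormOdd d F w := by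
        intro w
        obtain ⟨v, rfl⟩ := E.surjective w
        rw [hX, hE, hE, hQiso]
      have hp1 : p = (p - 1) + 1 := by
        have := hpp.pos
        omega
      obtain ⟨g, hg⟩ : ∃ g : GL (Unit ⊕ (Fin d ⊕ Fin d)) F,
          (g : Matrix (Unit ⊕ (Fin d ⊕ Fin d)) (Unit ⊕ (Fin d ⊕ Fin d)) F)
            = LinearMap.toMatrix' X := by
        refine ⟨⟨LinearMap.toMatrix' X, LinearMap.toMatrix' (X ^ (p - 1)), ?_, ?_⟩, rfl⟩
        · rw [← LinearMap.toMatrix'_mul, ← pow_succ', ← hp1, hXp, LinearMap.toMatrix'_one]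
        · rw [← LinearMap.toMatrix'_mul, ← pow_succ, ← hp1, hXp, LinearMap.toMatrix'_one]
      have hglin : Matrix.toLin'
          (g : Matrix (Unit ⊕ (Fin d ⊕ Fin d)) (Unit ⊕ (Fin d ⊕ Fin d)) F) = X := by
        rw [hg]
        exact Matrix.toLin'_toMatrix' X
      have hgmul : ∀ w, (g : Matrix (Unit ⊕ (Fin d ⊕ Fin d)) (Unit ⊕ (Fin d ⊕ Fin d)) F) *ᵥ w
          = X w := by
        intro w
        rw [← Matrix.toLin'_apply, hglin]
      have hgp : g ^ p = 1 := by
        apply Units.ext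
        rw [Units.val_pow_eq_pow_val, Units.val_one]
        have h1 : Matrix.toLin'
            ((g : Matrix (Unit ⊕ (Fin d ⊕ Fin d)) (Unit ⊕ (Fin d ⊕ Fin d)) F) ^ p)
            = Matrix.toLin' (1 : Matrix (Unit ⊕ (Fin d ⊕ Fin d)) (Unit ⊕ (Fin d ⊕ Fin d)) F) := by
          rw [Matrix.toLin'_pow, hglin, hXp, Matrix.toLin'_one]
          rfl
        exact Matrix.toLin'.injective h1
      have hmem : g ∈ Cfsg.isometryGroup F (Cfsg.quadFormOdd d F) :=
        (Cfsg.Agent.Lib.Helper16.mem_isometryGroup_iff (Cfsg.Agent.Lib.Helper16.qfOdd d F) g).mpr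
          (fun w => by
            rw [hgmul]
            exact hXQ w)
      have hΩ : g ∈ Cfsg.Geo.omegaGL (Cfsg.quadFormOdd d F) := by
        obtain ⟨g', hg'⟩ : ∃ g' : ↥(Cfsg.isometryGroup F (Cfsg.quadFormOdd d F)),
            g' = ⟨g, hmem⟩ := ⟨_, rfl⟩
        have hg'p : g' ^ p = 1 := by
          apply Subtype.ext
          rw [hg']
          exact hgp
        have hsq : g' = g' ^ (r + 1) * g' ^ (r + 1) := by
          rw [← pow_add]
          have h3 : r + 1 + (r + 1) = p + 1 := by omega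
          rw [h3, pow_succ, hg'p, one_mul]
        have hn : 2 ≤ Fintype.card (Unit ⊕ (Fin d ⊕ Fin d)) := by
          simp only [Fintype.card_sum, Fintype.card_fin, Fintype.card_unit]
          omega
        have h3 := Cfsg.Agent.Lib.Helper3.sq_mem_omega (Cfsg.Agent.Lib.Helper16.qfOdd d F) h2
          (Cfsg.Agent.Lib.Helper16.qfOdd_nondeg d F h2) hn (g' ^ (r + 1))
        have h4 : g' ∈ Cfsg.Omega F (Cfsg.quadFormOdd d F) := by
          rw [hsq]
          exact h3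
        refine Subgroup.mem_map.2 ⟨g', h4, ?_⟩
        rw [hg']
        rfl
      have hg1 : g ≠ 1 := by
        intro hg1
        have hX1 : X = 1 := by
          rw [← hglin, hg1, Units.val_one, Matrix.toLin'_one]
          rfl
        have hN0 : X - 1 = 0 := by rw [hX1, sub_self]
        have hgk1 := hgk 1
        have h3 : gk (X - 1) ⊤ 1 = 0 := by
          unfold gk
          rw [hN0, pow_one, Submodule.map_zero, inf_bot_eq, finrank_bot]
        rw [h3] at hgk1
        have hb₀' : b₀ ∈ (Finset.univ : Finset (((Fin Lc.length ⊕ Fin Lc.length)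
            ⊕ (Fin Ls.length ⊕ Fin Ls.length)) ⊕ Unit)).val.map (ellx lc k1 k2 k0) := by
          rw [hmap]
          exact hb₀
        obtain ⟨bb, -, hbb⟩ := Multiset.mem_map.1 hb₀'
        have h4 : bb ∈ Finset.univ.filter (fun b => 1 < ellx lc k1 k2 k0 b) := by
          rw [Finset.mem_filter]
          refine ⟨Finset.mem_univ _, ?_⟩
          rw [hbb]
          have := (hμ b₀ hb₀).1
          omega
        have := Finset.card_pos.2 ⟨_, h4⟩
        omega
      obtain ⟨W, ⟨hWdim, hWnd, -⟩, hWinv⟩ := h g hΩ (orderOf_eq_prime hgp hg1)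
      rw [hglin] at hWinv
      obtain ⟨Bp, hBp, hBnd⟩ : ∃ Bp : LinearMap.BilinForm F (Unit ⊕ (Fin d ⊕ Fin d) → F),
          (∀ u v, Bp u v = QuadraticMap.polar (Cfsg.quadFormOdd d F) u v) ∧ Bp.Nondegenerate :=
        ⟨QuadraticMap.polarBilin (Cfsg.Agent.Lib.Helper16.qfOdd d F), fun u v => rfl,
          Cfsg.Agent.Lib.Helper16.qfOdd_nondeg d F h2⟩
      have hBsym : ∀ u v, Bp u v = Bp v u := by
        intro u v
        rw [hBp, hBp, QuadraticMap.polar_comm]
      have hBX : ∀ u v, Bp (X u) (X v) = Bp u v := by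
        intro u v
        rw [hBp, hBp]
        unfold QuadraticMap.polar
        rw [← map_add, hXQ, hXQ, hXQ]
      have hXW : ∀ w ∈ W, X w ∈ W := fun w hw => hWinv (Submodule.mem_map_of_mem hw)
      have hdisj : Disjoint W (Bp.orthogonal W) := by
        rw [Submodule.disjoint_def]
        intro v hv1 hv2
        by_contra hv0
        obtain ⟨⟨u, hu, hne⟩, -⟩ := hWnd v hv1 hv0
        apply hne
        rw [← hBp]
        exact (LinearMap.BilinForm.mem_orthogonal_iff.1 hv2) u hu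
      have hsup : W ⊔ Bp.orthogonal W = ⊤ := by
        apply Submodule.eq_top_of_finrank_eq
        have h3 := Submodule.finrank_sup_add_finrank_inf_eq W (Bp.orthogonal W)
        rw [hdisj.eq_bot, finrank_bot, add_zero] at h3
        have h4 := LinearMap.BilinForm.finrank_orthogonal hBnd W
        have h5 := Submodule.finrank_le W
        omega
      have hXsurjW : ∀ w ∈ W, ∃ w₀ ∈ W, X w₀ = w := by
        intro w hw
        refine ⟨(X ^ (p - 1)) w, map_pow_le X W hWinv (p - 1) (Submodule.mem_map_of_mem hw), ?_⟩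
        rw [← Module.End.mul_apply, ← pow_succ', ← hp1, hXp, Module.End.one_apply]
      have horthinv : (Bp.orthogonal W).map X ≤ Bp.orthogonal W := by
        rintro _ ⟨v, hv, rfl⟩
        rw [LinearMap.BilinForm.mem_orthogonal_iff]
        intro w hw
        obtain ⟨w₀, hw₀, rfl⟩ := hXsurjW w hw
        rw [hBX]
        exact (LinearMap.BilinForm.mem_orthogonal_iff.1 hv) w₀ hw₀
      obtain ⟨ν, hν1, hν2, hν3, hν4⟩ := exists_nu' (X - 1) p W (Bp.orthogonal W)
        (sub_one_invariant X W hWinv) (sub_one_invariant X _ horthinv) hdisj hsup hXNp μ hμg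
      refine ⟨ν, hν1, by rw [hν2, hWdim], ?_⟩
      intro e he
      by_cases hcase : e = 0 ∨ p < e
      · rw [hν4 e hcase]
        exact Even.zero
      · push Not at hcase
        obtain ⟨k, rfl⟩ : ∃ k, e = k + 1 := ⟨e - 1, by omega⟩
        rw [hν3 k (by omega)]
        have hkodd : Odd k := by
          rcases Nat.even_or_odd k with h3 | h3
          · exact absurd he (Nat.not_even_iff_odd.2 h3.add_one)
          · exact h3
        refine parity_on Bp hBsym h2 X hBX W hXW (fun w hw hall => ?_) k hkodd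
        by_contra hw0
        obtain ⟨⟨u, hu, hne⟩, -⟩ := hWnd w hw hw0
        exact hne (by rw [← hBp]; exact hall u hu)
  exact ⟨mod_four p d m hp3 hme hpart, hpart⟩

end assembly

end Cfsg.Agent.S5995
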