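import Mathlib
import Cfsg.Statements.S5997
import Cfsg.Agent.S3742

set_option autoImplicit false
set_option linter.unusedVariables false
set_option linter.unusedSectionVars false
set_option linter.style.haveILetI false
set_option linter.unnecessarySeqFocus false
open Cfsg

namespace Cfsg.Agent.S5997

open QuaternionGroup

section conj

variable {F : Type*} [Field F] [Fintype F]

theorem exists_form_one (hodd : Fintype.card F % 2 = 1) (h2 : (2 : F) ≠ 0) (a b c d : F)
    (hD : (a + d) ^ 2 - 4 * (a * d - b * c) ≠ 0) :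
    ∃ v₁ v₂ : F, c * v₁ ^ 2 + (d - a) * v₁ * v₂ - b * v₂ ^ 2 = 1 := by
  by_cases hc : c = 0
  · subst hc
    have he : d - a ≠ 0 := by
      intro h
      apply hD
      have : d = a := by linear_combination h
      subst this
      ring
    refine ⟨(1 + b) / (d - a), 1, ?_⟩
    field_simp
    ring
  · have hf : (Polynomial.X ^ 2 - Polynomial.C (4 * c) : Polynomial F).degree = 2 :=
      Polynomial.degree_X_pow_sub_C (by decide) _
    have hg : (Polynomial.C (-((a + d) ^ 2 - 4 * (a * d - b * c))) * Polynomial.X ^ 2 :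
        Polynomial F).degree = 2 :=
      Polynomial.degree_C_mul_X_pow 2 (neg_ne_zero.mpr hD)
    obtain ⟨w, u, hwu⟩ := FiniteField.exists_root_sum_quadratic hf hg hodd
    simp only [Polynomial.eval_sub, Polynomial.eval_pow, Polynomial.eval_X, Polynomial.eval_C,
      Polynomial.eval_mul] at hwu
    have h4 : (4 : F) ≠ 0 := by
      have : (4 : F) = 2 * 2 := by norm_num
      rw [this]
      exact mul_ne_zero h2 h2
    have hv : 2 * c * ((w - (d - a) * u) / (2 * c)) = w - (d - a) * u := by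
      field_simp
    refine ⟨(w - (d - a) * u) / (2 * c), u, ?_⟩
    have key : 4 * c * (c * ((w - (d - a) * u) / (2 * c)) ^ 2
        + (d - a) * ((w - (d - a) * u) / (2 * c)) * u - b * u ^ 2 - 1) = 0 := by
      have h5 : 4 * c * (c * ((w - (d - a) * u) / (2 * c)) ^ 2
          + (d - a) * ((w - (d - a) * u) / (2 * c)) * u - b * u ^ 2 - 1)
          = (2 * c * ((w - (d - a) * u) / (2 * c))) ^ 2
            + 2 * (d - a) * (2 * c * ((w - (d - a) * u) / (2 * c))) * u
            - 4 * b * c * u ^ 2 - 4 * c := by ring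
      rw [h5, hv]
      linear_combination hwu
    rcases mul_eq_zero.mp key with h | h
    · exact absurd h (mul_ne_zero h4 hc)
    · linear_combination h

theorem exists_companion (hodd : Fintype.card F % 2 = 1) (h2 : (2 : F) ≠ 0)
    (X : Matrix (Fin 2) (Fin 2) F) (hdet : X.det = 1) (t : F) (htr : X.trace = t)
    (ht : t ^ 2 ≠ 4) :
    ∃ P : Matrix (Fin 2) (Fin 2) F, P.det = 1 ∧ X * P = P * !![0, -1; 1, t] := by
  have hdet' : X 0 0 * X 1 1 - X 0 1 * X 1 0 = 1 := by rw [← hdet, Matrix.det_fin_two]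
  have htr' : X 0 0 + X 1 1 = t := by rw [← htr, Matrix.trace_fin_two]
  obtain ⟨v₁, v₂, hv⟩ := exists_form_one hodd h2 (X 0 0) (X 0 1) (X 1 0) (X 1 1) (by
    rw [htr', hdet']
    intro h
    apply ht
    linear_combination h)
  refine ⟨!![v₁, X 0 0 * v₁ + X 0 1 * v₂; v₂, X 1 0 * v₁ + X 1 1 * v₂], ?_, ?_⟩
  · rw [Matrix.det_fin_two_of]
    linear_combination hv
  · subst htr'
    ext i j
    fin_cases i <;> fin_cases j <;> simp [Matrix.mul_apply, Fin.sum_univ_two]
    · linear_combination (-v₁) * hdet'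
    · linear_combination (-v₂) * hdet'

theorem mem_sl_iff (g : GL (Fin 2) F) :
    g ∈ Cfsg.Geo.specialLinear (Fin 2) F ↔ (g : Matrix (Fin 2) (Fin 2) F).det = 1 := by
  unfold Cfsg.Geo.specialLinear
  rw [MonoidHom.mem_ker]
  constructor
  · intro h
    have := congrArg Units.val h
    simpa using this
  · intro h
    apply Units.ext
    simpa using h

theorem conj_of_trace (hodd : Fintype.card F % 2 = 1) (h2 : (2 : F) ≠ 0) (x y : GL (Fin 2) F)
    (hx : x ∈ Cfsg.Geo.specialLinear (Fin 2) F) (hy : y ∈ Cfsg.Geo.specialLinear (Fin 2) F)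
    (t : F) (hxt : (x : Matrix (Fin 2) (Fin 2) F).trace = t)
    (hyt : (y : Matrix (Fin 2) (Fin 2) F).trace = t) (ht : t ^ 2 ≠ 4) :
    ∃ g ∈ Cfsg.Geo.specialLinear (Fin 2) F, g⁻¹ * x * g = y := by
  obtain ⟨P, hP, hXP⟩ := exists_companion hodd h2 x.1 ((mem_sl_iff x).mp hx) t hxt ht
  obtain ⟨Q, hQ, hYQ⟩ := exists_companion hodd h2 y.1 ((mem_sl_iff y).mp hy) t hyt ht
  have hPu : IsUnit P.det := by rw [hP]; exact isUnit_one
  have hQu : IsUnit Q.det := by rw [hQ]; exact isUnit_one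
  have hp : ((Matrix.GeneralLinearGroup.mkOfDetNeZero P (by rw [hP]; exact one_ne_zero) :
      GL (Fin 2) F) : Matrix (Fin 2) (Fin 2) F) = P := rfl
  have hq : ((Matrix.GeneralLinearGroup.mkOfDetNeZero Q (by rw [hQ]; exact one_ne_zero) :
      GL (Fin 2) F) : Matrix (Fin 2) (Fin 2) F) = Q := rfl
  have hc : (Matrix.GeneralLinearGroup.mkOfDetNeZero P (by rw [hP]; exact one_ne_zero) :
      GL (Fin 2) F)⁻¹ * x * Matrix.GeneralLinearGroup.mkOfDetNeZero P (by rw [hP]; exact one_ne_zero)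
      = (Matrix.GeneralLinearGroup.mkOfDetNeZero Q (by rw [hQ]; exact one_ne_zero) :
      GL (Fin 2) F)⁻¹ * y * Matrix.GeneralLinearGroup.mkOfDetNeZero Q (by rw [hQ]; exact one_ne_zero) := by
    apply Units.ext
    simp only [Units.val_mul, Matrix.coe_units_inv, hp, hq]
    rw [mul_assoc, hXP, mul_assoc, hYQ, ← mul_assoc, ← mul_assoc, Matrix.nonsing_inv_mul P hPu,
      Matrix.nonsing_inv_mul Q hQu]
  refine ⟨Matrix.GeneralLinearGroup.mkOfDetNeZero P (by rw [hP]; exact one_ne_zero)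
    * (Matrix.GeneralLinearGroup.mkOfDetNeZero Q (by rw [hQ]; exact one_ne_zero))⁻¹, ?_, ?_⟩
  · apply Subgroup.mul_mem
    · rw [mem_sl_iff, hp, hP]
    · apply Subgroup.inv_mem
      rw [mem_sl_iff, hq, hQ]
  · rw [mul_inv_rev, inv_inv]
    have h3 : ∀ (p q : GL (Fin 2) F), q * p⁻¹ * x * (p * q⁻¹) = q * (p⁻¹ * x * p) * q⁻¹ := by
      intro p q
      group
    rw [h3, hc]
    group

end conj


section quat

variable {F : Type*} [Field F] [Fintype F]

theorem q8_rel : ((a 1 : QuaternionGroup 2) * a 1 = xa 0 * xa 0) ∧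
    (a 1 * a 1 * (a 1 * a 1) = (1 : QuaternionGroup 2)) ∧
    (a 1 * a 1 ≠ (1 : QuaternionGroup 2)) ∧
    ((a 1 : QuaternionGroup 2) * xa 0 = a 1 * a 1 * (xa 0 * a 1)) := by decide

theorem q8_gen : ∀ x : QuaternionGroup 2, ∃ m : Fin 4, ∃ n : Fin 2,
    x = (xa 0) ^ (n : ℕ) * (a 1) ^ (m : ℕ) := by decide

omit [Fintype F] in
theorem ch2 (M : Matrix (Fin 2) (Fin 2) F) :
    M * M = M.trace • M - M.det • (1 : Matrix (Fin 2) (Fin 2) F) := by
  ext i j
  fin_cases i <;> fin_cases j <;>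
    simp [Matrix.mul_apply, Fin.sum_univ_two, Matrix.trace_fin_two, Matrix.det_fin_two] <;> ring

omit [Fintype F] in
/-- the shape of a quaternion subgroup of the general linear group of degree two -/
theorem quat_structure (h2 : (2 : F) ≠ 0) (R : Subgroup (GL (Fin 2) F))
    (e : ↥R ≃* QuaternionGroup 2) :
    ∃ i j : GL (Fin 2) F, i ∈ R ∧ j ∈ R ∧
      (i : Matrix (Fin 2) (Fin 2) F) * (i : Matrix (Fin 2) (Fin 2) F) = -1 ∧
      (j : Matrix (Fin 2) (Fin 2) F) * (j : Matrix (Fin 2) (Fin 2) F) = -1 ∧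
      (i : Matrix (Fin 2) (Fin 2) F) * (j : Matrix (Fin 2) (Fin 2) F)
        = -((j : Matrix (Fin 2) (Fin 2) F) * (i : Matrix (Fin 2) (Fin 2) F)) ∧
      (∀ h ∈ R, ∃ m n : ℕ, h = j ^ n * i ^ m) := by
  obtain ⟨q1, q2, q3, q4⟩ := q8_rel
  have r1 : e.symm (a 1) * e.symm (a 1) = e.symm (xa 0) * e.symm (xa 0) := by
    rw [← map_mul, ← map_mul, q1]
  have r2 : e.symm (a 1) * e.symm (a 1) * (e.symm (a 1) * e.symm (a 1)) = 1 := by
    rw [← map_mul, ← map_mul, q2, map_one]
  have r3 : e.symm (a 1) * e.symm (a 1) ≠ 1 := by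
    intro h
    rw [← map_mul] at h
    exact q3 (e.symm.injective (h.trans (map_one _).symm))
  have r4 : e.symm (a 1) * e.symm (xa 0)
      = e.symm (a 1) * e.symm (a 1) * (e.symm (xa 0) * e.symm (a 1)) := by
    rw [← map_mul, ← map_mul, ← map_mul, ← map_mul, q4]
  set iR : ↥R := e.symm (a 1) with hiR
  set jR : ↥R := e.symm (xa 0) with hjR
  have m1 : (iR.1 : Matrix (Fin 2) (Fin 2) F) * (iR.1 : Matrix (Fin 2) (Fin 2) F)
      = (jR.1 : Matrix (Fin 2) (Fin 2) F) * (jR.1 : Matrix (Fin 2) (Fin 2) F) :=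
    congrArg (fun u : ↥R => (u.1 : Matrix (Fin 2) (Fin 2) F)) r1
  have m2 : (iR.1 : Matrix (Fin 2) (Fin 2) F) * (iR.1 : Matrix (Fin 2) (Fin 2) F)
      * ((iR.1 : Matrix (Fin 2) (Fin 2) F) * (iR.1 : Matrix (Fin 2) (Fin 2) F)) = 1 :=
    congrArg (fun u : ↥R => (u.1 : Matrix (Fin 2) (Fin 2) F)) r2
  have m3 : (iR.1 : Matrix (Fin 2) (Fin 2) F) * (iR.1 : Matrix (Fin 2) (Fin 2) F) ≠ 1 := by
    intro h
    apply r3
    apply Subtype.ext
    apply Units.ext
    exact h
  have m4 : (iR.1 : Matrix (Fin 2) (Fin 2) F) * (jR.1 : Matrix (Fin 2) (Fin 2) F)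
      = (iR.1 : Matrix (Fin 2) (Fin 2) F) * (iR.1 : Matrix (Fin 2) (Fin 2) F)
        * ((jR.1 : Matrix (Fin 2) (Fin 2) F) * (iR.1 : Matrix (Fin 2) (Fin 2) F)) :=
    congrArg (fun u : ↥R => (u.1 : Matrix (Fin 2) (Fin 2) F)) r4
  have hch := ch2 (iR.1 : Matrix (Fin 2) (Fin 2) F)
  have htr : (iR.1 : Matrix (Fin 2) (Fin 2) F).trace = 0 := by
    by_contra ht
    -- then the matrix of `iR` is a polynomial in its square, which commutes with `jR`
    have h5 : (iR.1 : Matrix (Fin 2) (Fin 2) F) = ((iR.1 : Matrix (Fin 2) (Fin 2) F).trace)⁻¹ •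
        ((iR.1 : Matrix (Fin 2) (Fin 2) F) * (iR.1 : Matrix (Fin 2) (Fin 2) F)
          + (iR.1 : Matrix (Fin 2) (Fin 2) F).det • (1 : Matrix (Fin 2) (Fin 2) F)) := by
      rw [hch, sub_add_cancel, smul_smul, inv_mul_cancel₀ ht, one_smul]
    have h6 : (iR.1 : Matrix (Fin 2) (Fin 2) F) * (iR.1 : Matrix (Fin 2) (Fin 2) F)
        * (jR.1 : Matrix (Fin 2) (Fin 2) F)
        = (jR.1 : Matrix (Fin 2) (Fin 2) F)
          * ((iR.1 : Matrix (Fin 2) (Fin 2) F) * (iR.1 : Matrix (Fin 2) (Fin 2) F)) := by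
      rw [m1, mul_assoc]
    have h7 : (iR.1 : Matrix (Fin 2) (Fin 2) F) * (jR.1 : Matrix (Fin 2) (Fin 2) F)
        = (jR.1 : Matrix (Fin 2) (Fin 2) F) * (iR.1 : Matrix (Fin 2) (Fin 2) F) := by
      rw [h5]
      simp only [Matrix.smul_mul, Matrix.mul_smul, add_mul, mul_add, h6, mul_one, one_mul]
    have h8 : iR * jR = jR * iR := by
      apply Subtype.ext
      apply Units.ext
      exact h7
    apply r3
    have h9 : iR * jR = iR * iR * (iR * jR) := by
      have h9' := r4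
      rw [← h8] at h9'
      exact h9'
    have h10 : (1 : ↥R) * (iR * jR) = iR * iR * (iR * jR) := by
      rw [one_mul]
      exact h9
    exact (mul_right_cancel h10).symm
  rw [htr, zero_smul, zero_sub] at hch
  have hd2 : (iR.1 : Matrix (Fin 2) (Fin 2) F).det * (iR.1 : Matrix (Fin 2) (Fin 2) F).det = 1 := by
    have h5 := m2
    rw [hch] at h5
    have h6 := congrFun (congrFun h5 0) 0
    simpa using h6
  have hd1 : (iR.1 : Matrix (Fin 2) (Fin 2) F).det = 1 := by
    have h5 : ((iR.1 : Matrix (Fin 2) (Fin 2) F).det - 1)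
        * ((iR.1 : Matrix (Fin 2) (Fin 2) F).det + 1) = 0 := by
      linear_combination hd2
    rcases mul_eq_zero.mp h5 with h | h
    · linear_combination h
    · exfalso
      apply m3
      rw [hch]
      have h6 : (iR.1 : Matrix (Fin 2) (Fin 2) F).det = -1 := by linear_combination h
      rw [h6]
      simp
  have hII : (iR.1 : Matrix (Fin 2) (Fin 2) F) * (iR.1 : Matrix (Fin 2) (Fin 2) F) = -1 := by
    rw [hch, hd1, one_smul]
  refine ⟨iR.1, jR.1, iR.2, jR.2, hII, ?_, ?_, ?_⟩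
  · rw [← m1, hII]
  · rw [m4, hII, neg_one_mul]
  · intro h hh
    obtain ⟨m, n, hq⟩ := q8_gen (e ⟨h, hh⟩)
    refine ⟨(m : ℕ), (n : ℕ), ?_⟩
    have h5 : (⟨h, hh⟩ : ↥R) = jR ^ (n : ℕ) * iR ^ (m : ℕ) := by
      rw [hiR, hjR, ← map_pow, ← map_pow, ← map_mul, ← hq, MulEquiv.symm_apply_apply]
    have h6 := congrArg (fun u : ↥R => u.1) h5
    simpa using h6

end quat


section omega

variable {F : Type*} [Field F]

theorem not_comm (h2 : (2 : F) ≠ 0) (I J : Matrix (Fin 2) (Fin 2) F) (hII : I * I = -1)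
    (hJJ : J * J = -1) (hIJ : I * J = -(J * I)) : I * J ≠ J * I := by
  intro h
  have h1 : (2 : F) • (I * J) = 0 := by
    rw [two_smul]
    nth_rewrite 1 [hIJ]
    rw [h, neg_add_cancel]
  have h3 : I * J = 0 := by
    rcases smul_eq_zero.mp h1 with h4 | h4
    · exact absurd h4 h2
    · exact h4
  have h5 : I * (I * J) = -J := by rw [← mul_assoc, hII, neg_one_mul]
  rw [h3, mul_zero] at h5
  have h6 : J = 0 := by
    have := congrArg Neg.neg h5
    rw [neg_neg, neg_zero] at this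
    exact this.symm
  rw [h6, mul_zero] at hJJ
  have h7 := congrFun (congrFun hJJ 0) 0
  simp at h7

theorem trace_zero_of (h2 : (2 : F) ≠ 0) (A B : Matrix (Fin 2) (Fin 2) F) (hAA : A * A = -1)
    (hBB : B * B = -1) (hAB : A * B = -(B * A)) : A.trace = 0 := by
  by_contra ht
  have hch := ch2 A
  rw [hAA] at hch
  have h5 : A = (A.trace)⁻¹ • ((A.det - 1) • (1 : Matrix (Fin 2) (Fin 2) F)) := by
    have h6 : A.trace • A = (A.det - 1) • (1 : Matrix (Fin 2) (Fin 2) F) := by
      rw [sub_smul, one_smul]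
      have h7 : A.trace • A = -1 + A.det • (1 : Matrix (Fin 2) (Fin 2) F) := by
        rw [hch]
        abel
      rw [h7]
      abel
    rw [← h6, smul_smul, inv_mul_cancel₀ ht, one_smul]
  apply not_comm h2 A B hAA hBB hAB
  rw [h5]
  simp only [Matrix.smul_mul, Matrix.mul_smul, one_mul, mul_one]

theorem det_one_of (A : Matrix (Fin 2) (Fin 2) F) (hAA : A * A = -1) (htr : A.trace = 0) :
    A.det = 1 := by
  have hch := ch2 A
  rw [hAA, htr, zero_smul, zero_sub] at hch
  have h1 := congrFun (congrFun hch 0) 0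
  simp at h1
  exact h1.symm

theorem anticomm_trace (A B : Matrix (Fin 2) (Fin 2) F) (hA : A.trace = 0) (hB : B.trace = 0) :
    A * B + B * A = (A * B).trace • (1 : Matrix (Fin 2) (Fin 2) F) := by
  rw [Matrix.trace_fin_two] at hA hB
  ext a b
  fin_cases a <;> fin_cases b <;>
    simp [Matrix.mul_apply, Fin.sum_univ_two, Matrix.trace_fin_two]
  · linear_combination (B 0 0) * hA - (A 1 1) * hB
  · linear_combination (B 0 1) * hA + (A 0 1) * hB
  · linear_combination (B 1 0) * hA + (A 1 0) * hB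
  · linear_combination (B 1 1) * hA - (A 0 0) * hB

/-- a matrix commuting with `I` and `J` is a scalar -/
theorem scalar_of_commute (h2 : (2 : F) ≠ 0) (I J Y : Matrix (Fin 2) (Fin 2) F)
    (hII : I * I = -1) (hJJ : J * J = -1) (hIJ : I * J = -(J * I))
    (hYI : Y * I = I * Y) (hYJ : Y * J = J * Y) :
    ∃ z : F, Y = z • (1 : Matrix (Fin 2) (Fin 2) F) := by
  have htI := trace_zero_of h2 I J hII hJJ hIJ
  have hJI : J * I = -(I * J) := by rw [hIJ, neg_neg]
  have htJ := trace_zero_of h2 J I hJJ hII hJI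
  refine ⟨Y.trace * (2 : F)⁻¹, ?_⟩
  set Y' : Matrix (Fin 2) (Fin 2) F := Y - (Y.trace * (2 : F)⁻¹) • (1 : Matrix (Fin 2) (Fin 2) F)
    with hY'
  have htY' : Y'.trace = 0 := by
    rw [hY', Matrix.trace_sub, Matrix.trace_smul, Matrix.trace_one]
    simp only [Fintype.card_fin, Nat.cast_ofNat, smul_eq_mul]
    field_simp
    ring
  have hY'I : Y' * I = I * Y' := by
    rw [hY', sub_mul, mul_sub, hYI, Matrix.smul_mul, Matrix.mul_smul, one_mul, mul_one]
  have hY'J : Y' * J = J * Y' := by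
    rw [hY', sub_mul, mul_sub, hYJ, Matrix.smul_mul, Matrix.mul_smul, one_mul, mul_one]
  -- `Y'` is a multiple of `I` and of `J`
  have key : ∀ (A : Matrix (Fin 2) (Fin 2) F), A * A = -1 → A.trace = 0 → Y' * A = A * Y' →
      ∃ β : F, Y' = β • A := by
    intro A hAA htA hc
    have h1 := anticomm_trace Y' A htY' htA
    rw [← hc, ← two_smul F] at h1
    have h3 := congrArg (fun M : Matrix (Fin 2) (Fin 2) F => M * A) h1
    simp only [Matrix.smul_mul, mul_assoc, hAA, one_mul, mul_neg, mul_one] at h3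
    refine ⟨-((Y' * A).trace * (2 : F)⁻¹), ?_⟩
    have h4 : (2 : F) • Y' = -((Y' * A).trace • A) := by
      rw [← h3, smul_neg, neg_neg]
    have h5 : Y' = (2 : F)⁻¹ • ((2 : F) • Y') := by
      rw [smul_smul, inv_mul_cancel₀ h2, one_smul]
    calc Y' = (2 : F)⁻¹ • ((2 : F) • Y') := h5
      _ = -((Y' * A).trace * (2 : F)⁻¹) • A := by
        rw [h4, smul_neg, smul_smul, neg_smul, mul_comm]
  obtain ⟨β, hβ⟩ := key I hII htI hY'I
  obtain ⟨γ, hγ⟩ := key J hJJ htJ hY'J
  have hβ0 : β = 0 := by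
    by_contra hβ0
    apply not_comm h2 I J hII hJJ hIJ
    have h1 : I = (β⁻¹ * γ) • J := by
      rw [← smul_smul, ← hγ, hβ, smul_smul, inv_mul_cancel₀ hβ0, one_smul]
    rw [h1]
    simp only [Matrix.smul_mul, Matrix.mul_smul]
  rw [hβ0, zero_smul] at hβ
  rw [hY'] at hβ
  exact sub_eq_zero.mp hβ

end omega


section omega2

variable {F : Type*} [Field F]

/-- the element of order three normalizing a quaternion subgroup -/
theorem exists_omega (h2 : (2 : F) ≠ 0) (R : Subgroup (GL (Fin 2) F)) (i j : GL (Fin 2) F)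
    (hi : i ∈ R) (hj : j ∈ R)
    (hII : (i : Matrix (Fin 2) (Fin 2) F) * (i : Matrix (Fin 2) (Fin 2) F) = -1)
    (hJJ : (j : Matrix (Fin 2) (Fin 2) F) * (j : Matrix (Fin 2) (Fin 2) F) = -1)
    (hIJ : (i : Matrix (Fin 2) (Fin 2) F) * (j : Matrix (Fin 2) (Fin 2) F)
      = -((j : Matrix (Fin 2) (Fin 2) F) * (i : Matrix (Fin 2) (Fin 2) F)))
    (hgen : ∀ h ∈ R, ∃ m n : ℕ, h = j ^ n * i ^ m) :
    ∃ w : GL (Fin 2) F, w ∈ Subgroup.normalizer (R : Set (GL (Fin 2) F)) ∧
      (w : Matrix (Fin 2) (Fin 2) F).det = 1 ∧ (w : Matrix (Fin 2) (Fin 2) F).trace = -1 := by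
  have hJI : (j : Matrix (Fin 2) (Fin 2) F) * (i : Matrix (Fin 2) (Fin 2) F)
      = -((i : Matrix (Fin 2) (Fin 2) F) * (j : Matrix (Fin 2) (Fin 2) F)) := by
    rw [hIJ, neg_neg]
  have htI := trace_zero_of h2 _ _ hII hJJ hIJ
  have htJ := trace_zero_of h2 _ _ hJJ hII hJI
  generalize hI : (i : Matrix (Fin 2) (Fin 2) F) = I at hII hJJ hIJ hJI htI htJ
  generalize hJ : (j : Matrix (Fin 2) (Fin 2) F) = J at hII hJJ hIJ hJI htI htJ
  have hII' : ∀ X : Matrix (Fin 2) (Fin 2) F, I * (I * X) = -X := by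
    intro X
    rw [← mul_assoc, hII, neg_one_mul]
  have hJJ' : ∀ X : Matrix (Fin 2) (Fin 2) F, J * (J * X) = -X := by
    intro X
    rw [← mul_assoc, hJJ, neg_one_mul]
  have hJI' : ∀ X : Matrix (Fin 2) (Fin 2) F, J * (I * X) = -(I * (J * X)) := by
    intro X
    rw [← mul_assoc, hJI, neg_mul, mul_assoc]
  have hMM : (-1 + I + J + I * J) * (-1 + I + J + I * J)
      = -((2 : F) • (-1 + I + J + I * J)) - (4 : F) • (1 : Matrix (Fin 2) (Fin 2) F) := by
    simp only [mul_add, add_mul, mul_neg, neg_mul, mul_one, one_mul, neg_neg, mul_assoc, hII, hJJ,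
      hJI, hII', hJJ', hJI']
    module
  have hMI : (-1 + I + J + I * J) * I = (I * J) * (-1 + I + J + I * J) := by
    simp only [mul_add, add_mul, mul_neg, neg_mul, mul_one, one_mul, neg_neg, mul_assoc, hII, hJJ,
      hJI, hII', hJJ', hJI']
    abel
  have hMJ : (-1 + I + J + I * J) * J = I * (-1 + I + J + I * J) := by
    simp only [mul_add, add_mul, mul_neg, neg_mul, mul_one, one_mul, neg_neg, mul_assoc, hII, hJJ,
      hJI, hII', hJJ', hJI']
    abel
  have hc : (2 : F)⁻¹ * 2 = 1 := inv_mul_cancel₀ h2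
  generalize (2 : F)⁻¹ = c at hc
  generalize hM : (-1 + I + J + I * J) = M at hMM hMI hMJ
  have hWW : (c • M) * (c • M) + c • M + 1 = 0 := by
    rw [smul_mul_smul_comm, hMM]
    ext a b
    simp only [Matrix.add_apply, Matrix.smul_apply, Matrix.sub_apply, Matrix.neg_apply,
      Matrix.zero_apply, smul_eq_mul]
    linear_combination (-(c * M a b) - (2 * c + 1) * (1 : Matrix (Fin 2) (Fin 2) F) a b) * hc
  have hWW' : (c • M) * (c • M) = -(c • M) - 1 := by
    rw [← sub_eq_zero, ← hWW]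
    abel
  have hW3 : (c • M) * ((c • M) * (c • M)) = 1 := by
    rw [hWW', mul_sub, mul_neg, mul_one, hWW']
    abel
  have hW3' : ((c • M) * (c • M)) * (c • M) = 1 := by
    rw [mul_assoc]
    exact hW3
  have htrIJ : (I * J).trace = 0 := by
    have h1 := congrArg Matrix.trace hIJ
    rw [Matrix.trace_neg, Matrix.trace_mul_comm J I] at h1
    have h3 : (2 : F) * (I * J).trace = 0 := by linear_combination h1
    rcases mul_eq_zero.mp h3 with h4 | h4
    · exact absurd h4 h2
    · exact h4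
  have htrW : (c • M).trace = -1 := by
    rw [Matrix.trace_smul, ← hM, Matrix.trace_add, Matrix.trace_add, Matrix.trace_add,
      Matrix.trace_neg, Matrix.trace_one, htI, htJ, htrIJ]
    simp only [Fintype.card_fin, Nat.cast_ofNat, smul_eq_mul]
    linear_combination (-1 : F) * hc
  have hdetW : (c • M).det = 1 := by
    have hch := ch2 (c • M)
    rw [hWW', htrW] at hch
    have h1 := congrFun (congrFun hch 0) 0
    simp only [Matrix.sub_apply, Matrix.neg_apply, Matrix.smul_apply, Matrix.one_apply_eq,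
      smul_eq_mul] at h1
    linear_combination h1
  have hwi : (⟨c • M, (c • M) * (c • M), hW3, hW3'⟩ : GL (Fin 2) F) * i
      = i * j * ⟨c • M, (c • M) * (c • M), hW3, hW3'⟩ := by
    apply Units.ext
    show (c • M) * (i : Matrix (Fin 2) (Fin 2) F)
      = (i : Matrix (Fin 2) (Fin 2) F) * (j : Matrix (Fin 2) (Fin 2) F) * (c • M)
    rw [hI, hJ, Matrix.smul_mul, Matrix.mul_smul, hMI]
  have hwj : (⟨c • M, (c • M) * (c • M), hW3, hW3'⟩ : GL (Fin 2) F) * j
      = i * ⟨c • M, (c • M) * (c • M), hW3, hW3'⟩ := by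
    apply Units.ext
    show (c • M) * (j : Matrix (Fin 2) (Fin 2) F) = (i : Matrix (Fin 2) (Fin 2) F) * (c • M)
    rw [hI, hJ, Matrix.smul_mul, Matrix.mul_smul, hMJ]
  have hw3 : (⟨c • M, (c • M) * (c • M), hW3, hW3'⟩ : GL (Fin 2) F)
      * ⟨c • M, (c • M) * (c • M), hW3, hW3'⟩ * ⟨c • M, (c • M) * (c • M), hW3, hW3'⟩ = 1 := by
    apply Units.ext
    exact hW3'
  have hwdet : ((⟨c • M, (c • M) * (c • M), hW3, hW3'⟩ : GL (Fin 2) F) :
      Matrix (Fin 2) (Fin 2) F).det = 1 := hdetW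
  have hwtr : ((⟨c • M, (c • M) * (c • M), hW3, hW3'⟩ : GL (Fin 2) F) :
      Matrix (Fin 2) (Fin 2) F).trace = -1 := htrW
  generalize (⟨c • M, (c • M) * (c • M), hW3, hW3'⟩ : GL (Fin 2) F) = w at hwi hwj hw3 hwdet hwtr
  have c1 : w * i * w⁻¹ = i * j := by rw [hwi, mul_inv_cancel_right]
  have c2 : w * j * w⁻¹ = i := by rw [hwj, mul_inv_cancel_right]
  have fwd : ∀ h ∈ R, w * h * w⁻¹ ∈ R := by
    intro h hh
    obtain ⟨m, n, rfl⟩ := hgen h hh
    rw [← conj_mul, ← conj_pow, ← conj_pow, c1, c2]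
    exact R.mul_mem (R.pow_mem hi n) (R.pow_mem (R.mul_mem hi hj) m)
  refine ⟨w, ?_, hwdet, hwtr⟩
  rw [Subgroup.mem_normalizer_iff]
  intro h
  constructor
  · exact fwd h
  · intro hmem
    have h5 := fwd _ (fwd _ hmem)
    have h6 : w * (w * (w * h * w⁻¹) * w⁻¹) * w⁻¹ = (w * w * w) * h * (w * w * w)⁻¹ := by group
    rw [h6, hw3, one_mul, inv_one, mul_one] at h5
    exact h5

end omega2


section aut

/-- conjugation by an element of the normalizer, as an automorphism -/
def conjAut {G : Type*} [Group G] (R : Subgroup G)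
    (y : ↥(Subgroup.normalizer (R : Set G))) : MulAut ↥R where
  toFun h := ⟨y.1 * h.1 * y.1⁻¹, (Subgroup.mem_normalizer_iff.mp y.2 h.1).mp h.2⟩
  invFun h := ⟨y.1⁻¹ * h.1 * y.1, by
    have h1 := (Subgroup.mem_normalizer_iff.mp y.2 (y.1⁻¹ * h.1 * y.1)).mpr (by
      have h3 : y.1 * (y.1⁻¹ * h.1 * y.1) * y.1⁻¹ = h.1 := by group
      rw [h3]
      exact h.2)
    exact h1⟩
  left_inv h := by
    apply Subtype.ext
    show y.1⁻¹ * (y.1 * h.1 * y.1⁻¹) * y.1 = h.1
    group
  right_inv h := by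
    apply Subtype.ext
    show y.1 * (y.1⁻¹ * h.1 * y.1) * y.1⁻¹ = h.1
    group
  map_mul' a b := by
    apply Subtype.ext
    show y.1 * (a.1 * b.1) * y.1⁻¹ = y.1 * a.1 * y.1⁻¹ * (y.1 * b.1 * y.1⁻¹)
    group

theorem centralizes_of_order {G : Type*} [Group G] (R : Subgroup G)
    (e : ↥R ≃* QuaternionGroup 2) (y : G) (hy : y ∈ Subgroup.normalizer (R : Set G)) (r : ℕ)
    (hr : r.Coprime 24) (hyr : y ^ r = 1) : ∀ h ∈ R, y * h * y⁻¹ = h := by
  have hcard : Nat.card (MulAut ↥R) = 24 := by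
    obtain ⟨e4⟩ := Cfsg.Agent.S3742.result
    rw [Nat.card_congr ((MulAut.congr e).toEquiv.trans e4.toEquiv), Nat.card_eq_fintype_card,
      Fintype.card_perm, Fintype.card_fin]
    rfl
  have hfin : Finite (MulAut ↥R) := Nat.finite_of_card_ne_zero (by rw [hcard]; norm_num)
  set ψ : ↥(Subgroup.normalizer (R : Set G)) →* MulAut ↥R := MonoidHom.mk' (conjAut R) (by
    intro a b
    apply MulEquiv.ext
    intro h
    apply Subtype.ext
    show (a * b).1 * h.1 * (a * b).1⁻¹ = a.1 * (b.1 * h.1 * b.1⁻¹) * a.1⁻¹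
    rw [Subgroup.coe_mul]
    group) with hψ
  have h1 : ψ ⟨y, hy⟩ ^ r = 1 := by
    rw [← map_pow]
    have : (⟨y, hy⟩ : ↥(Subgroup.normalizer (R : Set G))) ^ r = 1 := by
      apply Subtype.ext
      exact hyr
    rw [this, map_one]
  have h3 : orderOf (ψ ⟨y, hy⟩) ∣ r := orderOf_dvd_of_pow_eq_one h1
  have h4 : orderOf (ψ ⟨y, hy⟩) ∣ 24 := by
    rw [← hcard]
    exact orderOf_dvd_natCard _
  have h5 : orderOf (ψ ⟨y, hy⟩) = 1 := Nat.eq_one_of_dvd_coprimes hr h3 h4
  rw [orderOf_eq_one_iff] at h5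
  intro h hh
  have h6 := congrArg (fun f : MulAut ↥R => (f ⟨h, hh⟩).1) h5
  exact h6

end aut

/-- Elements of prime order of PSL_2(p) and the normalizer of a quaternion subgroup. Here `T = PSL_2(F)` for the field `F` with `p` elements, `p ≥ 5` prime; `R` is a subgroup of GL_2(F) isomorphic to the quaternion group of order 8 (an absolutely irreducible 2-group of symplectic type), and `H` is the subgroup of matrices of determinant 1 normalizing `R` — a subgroup of type 2^{1+2}.O₂⁻(2), isomorphic modulo scalars to A₄ or S₄ (maximality is not assumed). Ω is the set of cosets of `H` in `T`, so an element of `T` of prime order `r` (a matrix `x` of determinant 1 with `x^r` scalar, `x` not scalar) fixes a point of Ω exactly when some conjugate of `x` by a matrix of determinant 1 normalizes `R`. Let `r` be a prime dividing the index of `H`. Then every element of `T` of order `r` fixes a point of Ω if and only if `r = 2` or `r = 3`. -/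
theorem result {F : Type*} [Field F] [Fintype F] {p : ℕ} [Fact p.Prime] [CharP F p] (hF : Fintype.card F = p) (hp : 5 ≤ p)
    (R : Subgroup (GL (Fin 2) F)) (hR : Nonempty (↥R ≃* QuaternionGroup 2))
    (r : ℕ) [Fact r.Prime]
    (hΩ : r ∣ (Cfsg.Geo.subgroupNormalizer R).relIndex (Cfsg.Geo.specialLinear (Fin 2) F)) :
    (∀ x ∈ Cfsg.Geo.specialLinear (Fin 2) F, (∃ z : F, ((x ^ r : GL (Fin 2) F) : Matrix (Fin 2) (Fin 2) F) = z • (1 : Matrix (Fin 2) (Fin 2) F)) →
      (∀ z : F, (x : Matrix (Fin 2) (Fin 2) F) ≠ z • (1 : Matrix (Fin 2) (Fin 2) F)) →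
      ∃ g ∈ Cfsg.Geo.specialLinear (Fin 2) F, g⁻¹ * x * g ∈ Cfsg.Geo.subgroupNormalizer R) ↔ (r = 2 ∨ r = 3) := by
  classical
  have hpp : p.Prime := Fact.out
  have hrp : r.Prime := Fact.out
  have hodd : Fintype.card F % 2 = 1 := by
    rw [hF]
    rcases hpp.eq_two_or_odd with h | h
    · omega
    · exact h
  have hn : ∀ n : ℕ, 0 < n → n < 5 → ((n : ℕ) : F) ≠ 0 := by
    intro n h0 h5 h
    rw [CharP.cast_eq_zero_iff F p] at h
    have := Nat.le_of_dvd h0 h
    omega
  have h2 : (2 : F) ≠ 0 := by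
    have := hn 2 (by norm_num) (by norm_num)
    exact_mod_cast this
  have h3 : (3 : F) ≠ 0 := by
    have := hn 3 (by norm_num) (by norm_num)
    exact_mod_cast this
  have h4 : (4 : F) ≠ 0 := by
    have := hn 4 (by norm_num) (by norm_num)
    exact_mod_cast this
  obtain ⟨e⟩ := hR
  obtain ⟨i, j, hi, hj, hII, hJJ, hIJ, hgen⟩ := quat_structure h2 R e
  constructor
  · intro hall
    by_contra hr
    push Not at hr
    have hr5 : 5 ≤ r := by
      have h2le := hrp.two_le
      by_contra hlt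
      have : r = 2 ∨ r = 3 ∨ r = 4 := by omega
      rcases this with h | h | h
      · exact hr.1 h
      · exact hr.2 h
      · rw [h] at hrp
        exact absurd hrp (by decide)
    have hcop : r.Coprime 24 := by
      rw [Nat.Prime.coprime_iff_not_dvd hrp]
      intro hd
      have h24 : (24 : ℕ) = 2 * 2 * 2 * 3 := by norm_num
      rw [h24] at hd
      rcases (Nat.Prime.dvd_mul hrp).mp hd with h | h
      · rcases (Nat.Prime.dvd_mul hrp).mp h with h | h
        · rcases (Nat.Prime.dvd_mul hrp).mp h with h | h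
          · have := Nat.le_of_dvd (by norm_num) h
            omega
          · have := Nat.le_of_dvd (by norm_num) h
            omega
        · have := Nat.le_of_dvd (by norm_num) h
          omega
      · have := Nat.le_of_dvd (by norm_num) h
        omega
    have hdvd : r ∣ Nat.card ↥(Cfsg.Geo.specialLinear (Fin 2) F) :=
      dvd_trans hΩ (Subgroup.relIndex_dvd_card _ _)
    obtain ⟨x, hx⟩ := exists_prime_orderOf_dvd_card' r hdvd
    have hxr : x.1 ^ r = 1 := by
      have h5 := pow_orderOf_eq_one x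
      rw [hx] at h5
      exact congrArg Subtype.val h5
    have hxns : ∀ z : F, ((x.1 : GL (Fin 2) F) : Matrix (Fin 2) (Fin 2) F)
        ≠ z • (1 : Matrix (Fin 2) (Fin 2) F) := by
      intro z hz
      have hdet := (mem_sl_iff x.1).mp x.2
      rw [hz, Matrix.det_smul, Matrix.det_one, mul_one] at hdet
      simp only [Fintype.card_fin] at hdet
      have hx2 : x ^ 2 = 1 := by
        apply Subtype.ext
        apply Units.ext
        show ((x.1 ^ 2 : GL (Fin 2) F) : Matrix (Fin 2) (Fin 2) F) = 1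
        rw [Units.val_pow_eq_pow_val, hz, sq, smul_mul_smul_comm, mul_one, ← sq, hdet, one_smul]
      have h6 := orderOf_dvd_of_pow_eq_one hx2
      rw [hx] at h6
      have := Nat.le_of_dvd (by norm_num) h6
      omega
    obtain ⟨g, hg, hgN⟩ := hall x.1 x.2 ⟨1, by rw [hxr, one_smul]; rfl⟩ hxns
    have hyr : (g⁻¹ * x.1 * g) ^ r = 1 := by
      have h7 : g⁻¹ * x.1 * g = g⁻¹ * x.1 * g⁻¹⁻¹ := by rw [inv_inv]
      rw [h7, conj_pow, hxr, mul_one, mul_inv_cancel]
    have hcent := centralizes_of_order R e _ hgN r hcop hyr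
    have hyI : (g⁻¹ * x.1 * g) * i = i * (g⁻¹ * x.1 * g) := mul_inv_eq_iff_eq_mul.mp (hcent i hi)
    have hyJ : (g⁻¹ * x.1 * g) * j = j * (g⁻¹ * x.1 * g) := mul_inv_eq_iff_eq_mul.mp (hcent j hj)
    obtain ⟨z, hz⟩ := scalar_of_commute h2 (i : Matrix (Fin 2) (Fin 2) F)
      (j : Matrix (Fin 2) (Fin 2) F)
      ((g⁻¹ * x.1 * g : GL (Fin 2) F) : Matrix (Fin 2) (Fin 2) F) hII hJJ hIJ
      (congrArg Units.val hyI) (congrArg Units.val hyJ)
    apply hxns z
    have h8 : x.1 = g * (g⁻¹ * x.1 * g) * g⁻¹ := by group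
    rw [h8, Units.val_mul, Units.val_mul, hz, Matrix.mul_smul, mul_one, Matrix.smul_mul,
      ← Units.val_mul, mul_inv_cancel, Units.val_one]
  · intro hr x hx hxr hxns
    obtain ⟨w, hwN, hwdet, hwtr⟩ := exists_omega h2 R i j hi hj hII hJJ hIJ hgen
    have htrI := trace_zero_of h2 _ _ hII hJJ hIJ
    have hdetI := det_one_of _ hII htrI
    obtain ⟨z, hz⟩ := hxr
    have hxdet := (mem_sl_iff x).mp hx
    have hch := ch2 (x : Matrix (Fin 2) (Fin 2) F)
    rw [hxdet, one_smul] at hch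
    rcases hr with rfl | rfl
    · rw [Units.val_pow_eq_pow_val, sq, hch] at hz
      have ht : (x : Matrix (Fin 2) (Fin 2) F).trace = 0 := by
        by_contra ht
        apply hxns ((x : Matrix (Fin 2) (Fin 2) F).trace⁻¹ * (z + 1))
        have h5 : (x : Matrix (Fin 2) (Fin 2) F).trace • (x : Matrix (Fin 2) (Fin 2) F)
            = (z + 1) • (1 : Matrix (Fin 2) (Fin 2) F) := by
          rw [add_smul, one_smul, ← hz]
          abel
        rw [← smul_smul, ← h5, smul_smul, inv_mul_cancel₀ ht, one_smul]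
      obtain ⟨g, hg, hgx⟩ := conj_of_trace hodd h2 x i hx ((mem_sl_iff i).mpr hdetI) 0 ht htrI (by
        intro h
        apply h4
        rw [← h]
        ring)
      exact ⟨g, hg, by rw [hgx]; exact Subgroup.le_normalizer hi⟩
    · have hx3 : ((x ^ 3 : GL (Fin 2) F) : Matrix (Fin 2) (Fin 2) F)
          = ((x : Matrix (Fin 2) (Fin 2) F).trace ^ 2 - 1) • (x : Matrix (Fin 2) (Fin 2) F)
            - (x : Matrix (Fin 2) (Fin 2) F).trace • (1 : Matrix (Fin 2) (Fin 2) F) := by
        rw [Units.val_pow_eq_pow_val, pow_succ, sq, hch, sub_mul, Matrix.smul_mul, hch, one_mul]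
        module
      rw [hx3] at hz
      have ht : (x : Matrix (Fin 2) (Fin 2) F).trace ^ 2 = 1 := by
        by_contra ht
        have ht' : (x : Matrix (Fin 2) (Fin 2) F).trace ^ 2 - 1 ≠ 0 := sub_ne_zero.mpr ht
        apply hxns (((x : Matrix (Fin 2) (Fin 2) F).trace ^ 2 - 1)⁻¹
          * (z + (x : Matrix (Fin 2) (Fin 2) F).trace))
        have h5 : ((x : Matrix (Fin 2) (Fin 2) F).trace ^ 2 - 1) • (x : Matrix (Fin 2) (Fin 2) F)
            = (z + (x : Matrix (Fin 2) (Fin 2) F).trace) • (1 : Matrix (Fin 2) (Fin 2) F) := by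
          rw [add_smul, ← hz]
          abel
        rw [← smul_smul, ← h5, smul_smul, inv_mul_cancel₀ ht', one_smul]
      have ht2 : ((x : Matrix (Fin 2) (Fin 2) F).trace - 1)
          * ((x : Matrix (Fin 2) (Fin 2) F).trace + 1) = 0 := by linear_combination ht
      have h14 : ∀ s : F, s ^ 2 = 1 → s ^ 2 ≠ 4 := by
        intro s hs h
        apply h3
        rw [hs] at h
        linear_combination -h
      rcases mul_eq_zero.mp ht2 with h | h
      · have ht1 : (x : Matrix (Fin 2) (Fin 2) F).trace = 1 := by linear_combination h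
        have hw2 : ((w * (i * i) : GL (Fin 2) F) : Matrix (Fin 2) (Fin 2) F)
            = -(w : Matrix (Fin 2) (Fin 2) F) := by
          rw [Units.val_mul, Units.val_mul, hII, mul_neg, mul_one]
        obtain ⟨g, hg, hgx⟩ := conj_of_trace hodd h2 x (w * (i * i)) hx (by
            rw [mem_sl_iff, hw2, Matrix.det_neg, hwdet]
            simp) 1 ht1 (by rw [hw2, Matrix.trace_neg, hwtr, neg_neg]) (h14 1 (one_pow 2))
        refine ⟨g, hg, ?_⟩
        rw [hgx]
        exact Subgroup.mul_mem _ hwN (Subgroup.le_normalizer (R.mul_mem hi hi))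
      · have ht1 : (x : Matrix (Fin 2) (Fin 2) F).trace = -1 := by linear_combination h
        obtain ⟨g, hg, hgx⟩ := conj_of_trace hodd h2 x w hx ((mem_sl_iff w).mpr hwdet) (-1) ht1 hwtr
          (h14 (-1) (by ring))
        exact ⟨g, hg, by rw [hgx]; exact hwN⟩

end Cfsg.Agent.S5997
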